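import Cfsg.Agent.Lib.AB68_Q4a
import Cfsg.Agent.Lib.AB68_PF
import Cfsg.Agent.Lib.AB68_Q1
import Cfsg.Agent.Lib.AB68_Q2

/-! Products of a cyclic group and a Z-group: piece Q4 (the core case). -/

set_option autoImplicit false

namespace Cfsg.Agent.Lib.AB68

universe u

theorem Q4 {G : Type u} [Group G] [Finite G]
    (hR : ∀ N : Subgroup G, N.Normal → Group.IsSolvable N → N = ⊥)
    (A B : Subgroup G) (hA : IsCyclic A) (hZ : IsZGroup B)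
    (hAB : ∀ g : G, ∃ a ∈ A, ∃ b ∈ B, g = a * b) (M : Subgroup G) (hM : IsCoatom M) (hBM : B ≤ M)
    (hK : M.normalCore ≠ ⊥)
    (hMI : ¬ Group.IsSolvable M → ∃ R : Subgroup M, ∃ _ : R.Normal, Group.IsSolvable R ∧ IsPGL (M ⧸ R))
    (hQI : ∀ (C : Subgroup G) [C.Normal], C ≠ ⊥ → ¬ Group.IsSolvable (G ⧸ C) →
      ∃ R : Subgroup (G ⧸ C), ∃ _ : R.Normal, Group.IsSolvable R ∧ IsPGL ((G ⧸ C) ⧸ R)) : False :=
  Q4_aux (fun h => pgl_facts h) (fun h L => pgl_aut h L)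
    (fun hR N hN hN1 C _ hC => Q1 hR N hN hN1 C hC)
    (fun A B hA hZ hAB C₁ C₂ _ _ h12 h1 h2 => Q2 A B hA hZ hAB C₁ C₂ h12 h1 h2)
    hR A B hA hZ hAB M hM hBM hK hMI hQI

end Cfsg.Agent.Lib.AB68
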