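import Mathlib
import Cfsg.Agent.Lib.AB68_R3a
import Cfsg.Agent.Lib.AB68_P10

set_option autoImplicit false

/-! Piece R3: the primitive quotient acts as `PGL₂(p)`. -/

namespace Cfsg.Agent.Lib.AB68

universe u

variable {G : Type u} [Group G] [Finite G]

theorem R3 (A B : Subgroup G) (hA : IsCyclic A) (hZ : IsZGroup B) (hB : IsCoatom B)
    (hcore : B.normalCore = ⊥)
    (hAB : ∀ g : G, ∃ a ∈ A, ∃ b ∈ B, g = a * b) (hAB1 : A ⊓ B = ⊥) (hev : Even (Nat.card A))
    (hns : ¬ Group.IsSolvable G) : IsPGL G :=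
  R3_aux (fun c => thmP c) A B hA hZ hB hcore hAB hAB1 hev hns

end Cfsg.Agent.Lib.AB68
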