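import Cfsg.Agent.Lib.AbPI5
import Cfsg.Agent.Lib.AbLocal
import Cfsg.Agent.Lib.AbCyc0
import Cfsg.Agent.Lib.H76Nil
import Cfsg.Agent.Lib.BlockTransfer

/-!
# Brauer correspondents and perfect isometries (helper77)
-/

set_option autoImplicit false
set_option linter.all false

namespace Cfsg.Agent.Lib.AbSec

open Cfsg Cfsg.Agent.Lib.BlockRing Cfsg.Agent.Lib.BlockGA Cfsg.Agent.Lib.BlockIdem
open Cfsg.Agent.Lib.BlkIdem Cfsg.Agent.Lib.BlockAlg Cfsg.Agent.Lib.PairAlg Cfsg.Agent.Lib.PairMax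
open Cfsg.Agent.Lib.BrauerPairs Cfsg.Agent.Lib.NormalPBlk Cfsg.Agent.Lib.DefPairs
open Cfsg.Agent.Lib.BlkTransport Cfsg.Agent.Lib.BlkFus Cfsg.Agent.Lib.InducedPair
open Cfsg.Agent.Lib.BlockCount Cfsg.Agent.Lib.BlockPair Cfsg.Agent.Lib.PairCount
open Cfsg.Agent.Lib.AbFusion Cfsg.Agent.Lib.AbCount Cfsg.Agent.Lib.BlockSecond
open Cfsg.Agent.Lib.CharBasic Cfsg.Agent.Lib.Contrib Cfsg.Agent.Lib.AbFT Cfsg.Agent.Lib.AbWeis
open MonoidAlgebra (single)
open scoped ComplexConjugate Classical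

universe u v

variable {p : ℕ} [hp : Fact p.Prime] {M : Ideal AlgInt} [hMm : M.IsMaximal] [hchar : CharP (Kf M) p]
  {G : Type u} [Group G] [Finite G] {B : Set (IrrCharacter G)} {P : Subgroup G} {c : MonoidAlgebra (Kf M) G}

omit hp hchar in
/-- transitivity of block induction -/
theorem induced_trans {K H : Subgroup G} (hKH : K ≤ H) {b : Set (IrrCharacter K)} {β : Set (IrrCharacter H)}
    (h1 : IsInducedBlock M (K.subgroupOf H) (irrMap (subEquiv hKH) '' b) β) (h2 : IsInducedBlock M H β B) :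
    IsInducedBlock M K b B := by
  haveI : M.IsPrime := hMm.isPrime
  apply BlockTransfer.isInducedBlock_trans hKH (β := β) _ h2
  have : BlockTransfer.trB (BlockTransfer.subE hKH) b = irrMap (subEquiv hKH) '' b := by
    apply Set.image_congr
    intro χ _
    apply Subtype.ext
    funext x
    rw [BlockTransfer.trI_apply, irrMap_apply]
    congr 1
  rw [this]
  exact h1

/-- **The correspondent.** -/
theorem exists_corr {H : Subgroup G} (hNH : Subgroup.normalizer (P : Set G) ≤ H) (hB : IsPBlock M B)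
    (hPD : IsDefectGroup p M B P) (hab : ∀ x ∈ P, ∀ y ∈ P, x * y = y * x) {β : Set (IrrCharacter H)}
    (hβ : IsInducedBlock M H β B) (hβD : IsDefectGroup p M β (P.subgroupOf H)) :
    ∃ c : MonoidAlgebra (Kf M) G, AbMax p B P c ∧ AbMax p β (P.subgroupOf H) (BlockAlg.res H c) := by
  have hPH : P ≤ H := Subgroup.le_normalizer.trans hNH
  have hCH : Subgroup.centralizer (P : Set G) ≤ H := (centralizer_le_normalizer P).trans hNH
  obtain ⟨c1, h1⟩ := H76Nil.exists_abMax hβ.1 hβD (by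
    intro x hx y hy
    exact Subtype.ext (hab _ (Subgroup.mem_subgroupOf.1 hx) _ (Subgroup.mem_subgroupOf.1 hy)))
  have hpair : BPair p P (inc H c1) := (bpair_inc_iff hPH hCH).2 h1.pair
  have hres : BlockAlg.res H (inc H c1) = c1 := by
    apply inc_injective (M := M) H
    exact inc_res H (BrauerMap.suppAlg_mono hCH hpair.2.mem.1)
  obtain ⟨g1, g2⟩ := AbMax_exists_block h1
  have hCeq : Subgroup.centralizer ((P.subgroupOf H : Subgroup H) : Set H) =
      (Subgroup.centralizer (P : Set G)).subgroupOf H := centralizer_subgroupOf hPH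
  obtain ⟨s1, s2⟩ := blkOf_spec hpair.2
  have e1 := blkOf_sub hCH hpair.2
  rw [hres] at e1
  have g3 : IsInducedBlock M ((Subgroup.centralizer (P : Set G)).subgroupOf H)
      (irrMap (subEquiv hCH) '' blkOf M (Subgroup.centralizer (P : Set G)) (inc H c1)) β := by
    rw [← e1]
    rw [← hCeq]
    exact g1
  have g4 := induced_trans hCH g3 hβ
  have g5 := AbMax.of hB hPD hab g4
  rw [s2] at g5
  refine ⟨inc H c1, g5, ?_⟩
  rw [hres]
  exact h1

theorem TT_corr {H : Subgroup G} (hNH : Subgroup.normalizer (P : Set G) ≤ H) (h : AbMax p B P c) :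
    TT (P.subgroupOf H) (BlockAlg.res H c) = (TT P c).subgroupOf H := by
  have hPH : P ≤ H := Subgroup.le_normalizer.trans hNH
  have hCH : Subgroup.centralizer (P : Set G) ≤ H := (centralizer_le_normalizer P).trans hNH
  have hinc : inc H (BlockAlg.res H c) = c := inc_res _ (BrauerMap.suppAlg_mono hCH h.pair.2.mem.1)
  ext t
  rw [Subgroup.mem_subgroupOf, TT, TT, mem_stab, mem_stab, mem_normalizer_subgroupOf hPH]
  refine and_congr_right fun _ => ?_
  rw [← (inc_injective (M := M) H).eq_iff, inc_cj, hinc]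

theorem TT_le (P : Subgroup G) (c : MonoidAlgebra (Kf M) G) : TT P c ≤ Subgroup.normalizer (P : Set G) :=
  fun _ h => h.1

/-- the correspondent has the same inertial action -/
theorem corr_data {H : Subgroup G} (hNH : Subgroup.normalizer (P : Set G) ≤ H) (h : FreeMax p B P c)
    {β : Set (IrrCharacter H)} (hβ : AbMax p β (P.subgroupOf H) (BlockAlg.res H c)) :
    FreeMax p β (P.subgroupOf H) (BlockAlg.res H c) ∧ ei (P.subgroupOf H) (BlockAlg.res H c) = ei P c ∧
      Match (Subgroup.subgroupOfEquivOfLe (Subgroup.le_normalizer.trans hNH)) c (BlockAlg.res H c) := by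
  have hPH : P ≤ H := Subgroup.le_normalizer.trans hNH
  have hCH : Subgroup.centralizer (P : Set G) ≤ H := (centralizer_le_normalizer P).trans hNH
  have hTT := TT_corr hNH h.max
  have hTH : TT P c ≤ H := (TT_le P c).trans hNH
  have hCeq : Cn (P.subgroupOf H) = (Cn P).subgroupOf H := centralizer_subgroupOf hPH
  refine ⟨⟨hβ, ?_, ?_⟩, ?_, ?_, ?_⟩
  · intro h0
    apply h.ne
    rw [eq_bot_iff]
    intro x hx
    have : (⟨x, hPH hx⟩ : H) ∈ P.subgroupOf H := Subgroup.mem_subgroupOf.2 hx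
    rw [h0, Subgroup.mem_bot] at this
    rw [Subgroup.mem_bot]
    exact congrArg Subtype.val this
  · intro t ht x hx hx1 htx
    rw [hTT, Subgroup.mem_subgroupOf] at ht
    rw [hCeq, Subgroup.mem_subgroupOf]
    exact h.free t ht x (Subgroup.mem_subgroupOf.1 hx) (fun h0 => hx1 (Subtype.ext h0)) (congrArg Subtype.val htx)
  · unfold ei
    rw [hCeq, hTT]
    have h1 := Subgroup.relIndex_comap (Cn P) H.subtype ((TT P c).subgroupOf H)
    have e2 : ((TT P c).subgroupOf H).map H.subtype = TT P c := Subgroup.map_subgroupOf_eq_of_le hTH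
    rw [e2] at h1
    exact h1
  · intro t
    have ht : (⟨t, hTH t.2⟩ : H) ∈ TT (P.subgroupOf H) (BlockAlg.res H c) := by
      rw [hTT, Subgroup.mem_subgroupOf]
      exact t.2
    refine ⟨⟨_, ht⟩, fun w => ?_⟩
    apply Subtype.ext
    rfl
  · intro t'
    have ht : ((t' : H) : G) ∈ TT P c := Subgroup.mem_subgroupOf.1 (hTT.le t'.2)
    refine ⟨⟨_, ht⟩, fun w => ?_⟩
    apply Subtype.ext
    rfl

/-- **Perfect isometries with the correspondents.** -/
theorem corr_perfect (hM : IsPModular p M) {H : Subgroup G} (hNH : Subgroup.normalizer (P : Set G) ≤ H)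
    (h : FreeMax p B P c) {β : Set (IrrCharacter H)} (hβ : AbMax p β (P.subgroupOf H) (BlockAlg.res H c))
    (hl : blockRank p B = ei P c) (hlβ : blockRank p β = ei (P.subgroupOf H) (BlockAlg.res H c)) :
    Nat.card β = Nat.card B ∧ blockRank p β = blockRank p B ∧
      ∃ (I : IrrCharacter H → IrrCharacter G) (δ : IrrCharacter H → ℤ), IsPerfectIsometry p M β B I δ := by
  have hPH : P ≤ H := Subgroup.le_normalizer.trans hNH
  obtain ⟨h1, h2, h3⟩ := corr_data hNH h hβ
  obtain ⟨m, hm1, hem, hkl, -, -⟩ := free_main hM h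
  obtain ⟨m', hm1', hem', hkl', -, -⟩ := free_main hM h1
  have hcP : Nat.card (P.subgroupOf H) = Nat.card P := card_subgroupOf_eq hPH
  have he : 1 ≤ ei P c := Nat.pos_of_ne_zero ei_ne_zero
  rw [h2, hcP, ← hem] at hem'
  have hmm : m' = m := Nat.eq_of_mul_eq_mul_left he hem'
  have hk : Nat.card β = Nat.card B := by rw [hkl, hkl', hl, hlβ, h2, hmm]
  refine ⟨hk, by rw [hl, hlβ, h2], ?_⟩
  obtain ⟨ε', ρ', hr'⟩ := exists_rhoSys hM h1
  obtain ⟨I, δ, hI, -⟩ := exists_perfect hM h (by rw [hkl, hl, ← hem, Nat.mul_add]) h1 hr'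
    (by rw [hk, hkl, hl, hcP, h2, ← hem, Nat.mul_add]) hk _ h3
  exact ⟨I, δ, hI⟩

end Cfsg.Agent.Lib.AbSec
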