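import Cfsg.Agent.Lib.SubsecDet
import Cfsg.Agent.Lib.H16Major
import Cfsg.Agent.Lib.BlockDom
import Cfsg.Agent.S4733

/-!
# `k(B) ≤ p ^ d` for `d ≤ 2` and `k(B) ≤ p ^ (2 d - 2)` for `d ≥ 3` (Brauer-Feit) (helper75)
-/

set_option autoImplicit false
set_option linter.all false

namespace Cfsg.Agent.Lib.BFBound

open Cfsg Cfsg.Agent.Lib.BlockRing Cfsg.Agent.Lib.BlockGA Cfsg.Agent.Lib.BlockIdem Cfsg.Agent.Lib.BlockPair
  Cfsg.Agent.Lib.BlockOsima Cfsg.Agent.Lib.BlockCount Cfsg.Agent.Lib.Subsec Cfsg.Agent.Lib.CharBasic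
  Cfsg.Agent.Lib.BlockLattice Cfsg.Agent.Lib.SubsecDet Cfsg.Agent.Lib.BlockDefect
open Cfsg.Agent.Lib.CycAvg (Z av avn)

universe u

variable {G : Type u} [Group G] [Finite G] {p : ℕ} {M : Ideal AlgInt} {B : Set (IrrCharacter G)}

/-- the characters of a major subsection do not vanish outside the sections of the powers of `z` -/
theorem exists_off (hM : IsPModular p M) {D : Subgroup G} (hDp : IsPGroup p D)
    (hab : ∀ x ∈ D, ∀ y ∈ D, x * y = y * x) {z : G} (hzD : z ∈ D)
    {b : Set (IrrCharacter (Cz z))} (hb : IsPBlock M b) (hbD : IsDefectGroup p M b (D.subgroupOf (Cz z)))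
    {u : G} (hu : u ∈ D) (huz : u ∉ Subgroup.zpowers z) {ξ : IrrCharacter (Cz z)} (hξ : ξ ∈ b) :
    ∃ g : Cz z, (ξ : Cz z → ℂ) g ≠ 0 ∧ ∀ j : ℕ, p ∣ orderOf (zz z ^ j * g) := by
  have hp := hM.1
  have huC : u ∈ Cz z := mem_Cz.2 (hab z hzD u hu)
  set u' : Cz z := ⟨u, huC⟩ with hu'
  have hu'D : u' ∈ D.subgroupOf (Cz z) := hu
  obtain ⟨y, hy1, hy2, hy3⟩ := H16Major.exists_ne_zero_central hM hb hbD hu'D (fun d hd => by
    apply Subtype.ext
    exact hab u hu _ hd) hξ
  refine ⟨u' * y, hy3, fun j => ?_⟩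
  rw [← mul_assoc]
  obtain ⟨k, hk⟩ := hDp ⟨z ^ j * u, mul_mem (pow_mem hzD j) hu⟩
  have hzc : ∀ c : Cz z, Commute (zz z) c := fun c => Subtype.ext (mem_Cz.1 c.2).eq
  refine dvd_orderOf_mul hp (k := k) ?_ ?_ ?_ hy2
  · exact ((hzc y).pow_left j).mul_left hy1
  · apply Subtype.ext
    show (z ^ j * u) ^ p ^ k = 1
    exact congrArg Subtype.val hk
  · intro h
    apply huz
    have h1 : z ^ j * u = 1 := congrArg Subtype.val h
    have h2 : u = (z ^ j)⁻¹ := (inv_eq_of_mul_eq_one_right h1).symm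
    rw [h2]
    exact inv_mem (pow_mem (Subgroup.mem_zpowers z) j)

theorem bas_of (hM : IsPModular p M) {z : G} {b : Set (IrrCharacter (Cz z))} (hb : IsPBlock M b) :
    ∃ φ, Bas p b (blockRank p b) φ := by
  obtain ⟨φ, h1, h2, h3⟩ := exists_basis hM hb
  exact ⟨φ, h1, h2, h3⟩

/-- abelian defect group `D`, `z ∈ D` of index `p` -/
theorem card_le_of_index_p (hM : IsPModular p M) (hB : IsPBlock M B) {D : Subgroup G} (hD : IsDefectGroup p M B D)
    (hab : ∀ x ∈ D, ∀ y ∈ D, x * y = y * x) {z : G} (hzD : z ∈ D) {a : ℕ} (hz : orderOf z = p ^ a)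
    (hcard : Nat.card D = p ^ (a + 1)) : Nat.card B ≤ p ^ (a + 1) := by
  haveI := isPrime hM
  have hp := hM.1
  haveI : NeZero (p ^ (a + 1)) := ⟨pow_ne_zero _ hp.ne_zero⟩
  obtain ⟨b, hind, hd, hbD⟩ := H16Major.exists_major hM hB hD hzD (fun d hd => hab z hzD d hd)
  have hDp := defectGroup_isPGroup hD
  have hdB : blockDefect p B = a + 1 := by
    have := defectGroup_card hM hB hD
    rw [hcard] at this
    exact (Nat.pow_right_injective hp.two_le this).symm
  obtain ⟨u, hu, huz⟩ : ∃ u ∈ D, u ∉ Subgroup.zpowers z := by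
    by_contra hcon
    push Not at hcon
    have h1 : D ≤ Subgroup.zpowers z := hcon
    have h2 := Subgroup.card_le_of_le h1
    rw [Nat.card_zpowers, hz, hcard, pow_succ] at h2
    have h3 := Nat.mul_lt_mul_of_lt_of_le (a := 1) (c := p) (b := p ^ a) (d := p ^ a) hp.one_lt le_rfl (pow_pos hp.pos a)
    rw [one_mul, mul_comm] at h3
    omega
  obtain ⟨φ, hφ⟩ := bas_of hM hind.1
  have h1 := card_le_of_dvd hM hz hind hd hφ (by rw [hd, hdB]; omega)
    (fun ξ => exists_off hM hDp hab hzD hind.1 hbD hu huz ξ.2.1) (by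
      rw [hd, hdB, Nat.add_sub_cancel_left, one_mul]
      exact dvd_det_eiM hM hind.1 hφ.mem)
  rwa [hd, hdB] at h1

theorem card_le_of_le_two (hM : IsPModular p M) (hB : IsPBlock M B) (hd : blockDefect p B ≤ 2) :
    Nat.card B ≤ p ^ blockDefect p B := by
  haveI := isPrime hM
  have hp := hM.1
  haveI : Fact p.Prime := ⟨hp⟩
  obtain ⟨D, hD⟩ := exists_defectGroup hM hB
  have hDp := defectGroup_isPGroup hD
  have hcard := defectGroup_card hM hB hD
  rcases Nat.eq_zero_or_pos (blockDefect p B) with h0 | hpos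
  · rw [h0, pow_zero, ((Cfsg.Agent.S4733.result p M hM B hB).2.1.1 h0).1]
  have hab : ∀ x ∈ D, ∀ y ∈ D, x * y = y * x := by
    have h1 : Nat.card D = p ∨ Nat.card D = p ^ 2 := by
      rw [hcard]
      have : blockDefect p B = 1 ∨ blockDefect p B = 2 := by omega
      rcases this with h | h
      · left; rw [h, pow_one]
      · right; rw [h]
    intro x hx y hy
    rcases h1 with h | h
    · haveI : IsCyclic D := isCyclic_of_prime_card h
      letI := IsCyclic.commGroup (α := D)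
      exact congrArg Subtype.val (mul_comm (⟨x, hx⟩ : D) ⟨y, hy⟩)
    · letI := IsPGroup.commGroupOfCardEqPrimeSq h
      exact congrArg Subtype.val (mul_comm (⟨x, hx⟩ : D) ⟨y, hy⟩)
  obtain ⟨a, ha⟩ : ∃ a, blockDefect p B = a + 1 := ⟨blockDefect p B - 1, by omega⟩
  have hex : ∃ z ∈ D, orderOf z = p ^ a := by
    have ha2 : a = 0 ∨ a = 1 := by omega
    rcases ha2 with h | h
    · subst h; exact ⟨1, D.one_mem, by simp⟩
    · subst h
      have h1 : p ∣ Nat.card D := by rw [hcard, ha]; exact dvd_pow_self p (by norm_num)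
      obtain ⟨x, hx⟩ := exists_prime_orderOf_dvd_card' p h1
      exact ⟨x, x.2, by rw [Subgroup.orderOf_coe, hx, pow_one]⟩
  obtain ⟨z, hzD, hz⟩ := hex
  rw [ha]
  exact card_le_of_index_p hM hB hD hab hzD hz (by rw [hcard, ha])

theorem ineq {q P a n0 n1 : ℝ} (hq : 1 ≤ q) (hP : 1 ≤ P) (ha : 1 ≤ a) (h1 : n0 * a ≤ q * P * (P ^ 2 - 1))
    (h2 : a ^ 2 + (n0 - 1) + q * n1 ≤ q * P * a) (hn0 : 0 ≤ n0) (hn1 : 0 ≤ n1) : n0 + n1 ≤ q * P ^ 2 := by
  rcases le_total a P with h | h
  · have e1 : n1 ≤ q * n1 := by nlinarith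
    have e2 : q * P * a ≤ q * P * P := by
      have : 0 ≤ q * P := by positivity
      exact mul_le_mul_of_nonneg_left h this
    nlinarith
  · have hq0 : 0 < q := by linarith
    have ha0 : 0 < a := by linarith
    have e1 : (q * (n0 + n1)) * a ≤ (q * (q * P ^ 2)) * a := by
      have e2 : q * n1 * a ≤ (q * P * a - a ^ 2 - n0 + 1) * a := by
        apply mul_le_mul_of_nonneg_right _ ha0.le
        linarith
      have e3 : (q - 1) * (n0 * a) ≤ (q - 1) * (q * P * (P ^ 2 - 1)) :=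
        mul_le_mul_of_nonneg_left h1 (by linarith)
      have e4 : 0 ≤ a ^ 2 - (q - 1) * P * a + q * (q - 1) * P ^ 2 := by
        have : a ^ 2 - (q - 1) * P * a + q * (q - 1) * P ^ 2 =
            (a - (q - 1) * P / 2) ^ 2 + (q - 1) * P ^ 2 * (q - (q - 1) / 4) := by ring
        rw [this]
        have h5 : 0 ≤ (q - 1) * P ^ 2 * (q - (q - 1) / 4) := by
          apply mul_nonneg (mul_nonneg (by linarith) (by positivity))
          linarith
        positivity
      have e5 : 0 ≤ (a - P) * (a ^ 2 - (q - 1) * P * a + q * (q - 1) * P ^ 2) := mul_nonneg (by linarith) e4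
      have e6 : 0 ≤ a * (P ^ 2 - 1) := mul_nonneg ha0.le (by nlinarith)
      have e7 : 0 ≤ q * (q - 1) * P := by
        apply mul_nonneg (mul_nonneg (by linarith) (by linarith)) (by linarith)
      nlinarith
    have e2 := le_of_mul_le_mul_right e1 ha0
    exact le_of_mul_le_mul_left e2 hq0

theorem card_le_of_rank (hM : IsPModular p M) {z : G} {k : ℕ} (hz : orderOf z = p ^ k)
    {b : Set (IrrCharacter (Cz z))} (hind : IsInducedBlock M (Cz z) b B) (hd : blockDefect p b = blockDefect p B)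
    (h3 : 2 ≤ blockDefect p B) (hl : blockRank p b + 1 ≤ p ^ (2 * blockDefect p B - 4)) :
    Nat.card B ≤ p ^ (2 * blockDefect p B - 2) := by
  classical
  haveI := isPrime hM
  have hp := hM.1
  haveI : NeZero (p ^ (k + 1)) := ⟨pow_ne_zero _ hp.ne_zero⟩
  set d := blockDefect p B with hdd
  set H0 : Finset (IrrCharacter G) := (fs B).filter fun χ => blockHeight p B (χ : G → ℂ) = 0 with hH0
  set H1 : Finset (IrrCharacter G) := (fs B).filter fun χ => ¬ blockHeight p B (χ : G → ℂ) = 0 with hH1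
  obtain ⟨χ₁, hχ₁, h01⟩ := BlockDeg.exists_height_zero (p := p) (isPBlock_nonempty hind.2.1)
  have hne : H0.Nonempty := ⟨χ₁, Finset.mem_filter.2 ⟨mem_fs.2 hχ₁, h01⟩⟩
  obtain ⟨χ₀, hχ₀, hmin⟩ := Finset.exists_min_image H0 (fun χ => Av p k z b B (χ : G → ℂ)) hne
  have hχ₀B : χ₀ ∈ B := mem_fs.1 (Finset.mem_filter.1 hχ₀).1
  have h00 : blockHeight p B (χ₀ : G → ℂ) = 0 := (Finset.mem_filter.1 hχ₀).2
  set a : ℝ := Av p k z b B (χ₀ : G → ℂ) with ha
  have ha1 : 1 ≤ a := one_le_Av hM hz hind hd hχ₀B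
  have hp1 : (1 : ℝ) ≤ p := by exact_mod_cast hp.one_lt.le
  have hcardk : (Nat.card B : ℝ) = (H0.card : ℝ) + H1.card := by
    rw [← card_fs, hH0, hH1]
    exact_mod_cast (Finset.card_filter_add_card_filter_not (fun χ : IrrCharacter G => blockHeight p B (χ : G → ℂ) = 0)).symm
  -- (1)
  have hsum : ∑ χ ∈ fs B, Av p k z b B (χ : G → ℂ) = ∑ χ ∈ H0, Av p k z b B (χ : G → ℂ) + ∑ χ ∈ H1, Av p k z b B (χ : G → ℂ) :=
    (Finset.sum_filter_add_sum_filter_not _ _ _).symm
  have e1 : (H0.card : ℝ) * a ≤ (p : ℝ) ^ d * blockRank p b := by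
    rw [← hd, ← sum_Av hM hz hind, hsum]
    have e2 : (H0.card : ℝ) * a ≤ ∑ χ ∈ H0, Av p k z b B (χ : G → ℂ) := by
      rw [← nsmul_eq_mul]
      exact Finset.card_nsmul_le_sum _ _ _ hmin
    have e3 : 0 ≤ ∑ χ ∈ H1, Av p k z b B (χ : G → ℂ) := by
      refine Finset.sum_nonneg fun χ hχ => ?_
      have := one_le_Av hM hz hind hd (mem_fs.1 (Finset.mem_filter.1 hχ).1)
      linarith
    linarith
  -- (2)
  have e2 : a ^ 2 + ((H0.card : ℝ) - 1) + (p : ℝ) ^ 2 * H1.card ≤ (p : ℝ) ^ d * a := by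
    rw [← hd, ha, mul_Av hp, ← Finset.sum_filter_add_sum_filter_not (fs B) (fun χ : IrrCharacter G => blockHeight p B (χ : G → ℂ) = 0),
      ← hH0, ← hH1, ← Finset.add_sum_erase H0 _ hχ₀]
    have f1 : Av p k z b B (χ₀ : G → ℂ) ^ 2 ≤ avn (p ^ (k + 1)) (al p z b (χ₀ : G → ℂ) (χ₀ : G → ℂ)) := by
      have f2 := CycAvg.norm_av_sq_le (N := p ^ (k + 1)) (al p z b (χ₀ : G → ℂ) (χ₀ : G → ℂ))
      rw [av_al hM hz hind χ₀, Complex.norm_real, Real.norm_eq_abs, sq_abs] at f2
      exact f2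
    have f2 : (H0.card : ℝ) - 1 ≤ ∑ ψ ∈ H0.erase χ₀, avn (p ^ (k + 1)) (al p z b (χ₀ : G → ℂ) (ψ : G → ℂ)) := by
      have f3 : ((H0.erase χ₀).card : ℝ) = (H0.card : ℝ) - 1 := by
        rw [Finset.card_erase_of_mem hχ₀, Nat.cast_sub (Finset.card_pos.2 hne), Nat.cast_one]
      rw [← f3, ← mul_one ((H0.erase χ₀).card : ℝ), ← nsmul_eq_mul]
      refine Finset.card_nsmul_le_sum _ _ _ fun ψ hψ => ?_
      have f4 := le_avn_al hM hz hind hd hχ₀B (mem_fs.1 (Finset.mem_filter.1 (Finset.mem_of_mem_erase hψ)).1) h00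
      refine le_trans ?_ f4
      exact one_le_pow₀ hp1
    have f3 : (p : ℝ) ^ 2 * H1.card ≤ ∑ ψ ∈ H1, avn (p ^ (k + 1)) (al p z b (χ₀ : G → ℂ) (ψ : G → ℂ)) := by
      rw [mul_comm, ← nsmul_eq_mul]
      refine Finset.card_nsmul_le_sum _ _ _ fun ψ hψ => ?_
      have f4 := le_avn_al hM hz hind hd hχ₀B (mem_fs.1 (Finset.mem_filter.1 hψ).1) h00
      refine le_trans ?_ f4
      have := (Finset.mem_filter.1 hψ).2
      exact pow_le_pow_right₀ hp1 (by omega)
    linarith
  have hP : (p : ℝ) ^ d = (p : ℝ) ^ 2 * (p : ℝ) ^ (d - 2) := by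
    rw [← pow_add]; congr 1; omega
  have hl' : (blockRank p b : ℝ) ≤ ((p : ℝ) ^ (d - 2)) ^ 2 - 1 := by
    have : ((blockRank p b + 1 : ℕ) : ℝ) ≤ ((p ^ (2 * d - 4) : ℕ) : ℝ) := by exact_mod_cast hl
    push_cast at this
    have e3 : ((p : ℝ) ^ (d - 2)) ^ 2 = (p : ℝ) ^ (2 * d - 4) := by
      rw [← pow_mul]; congr 1; omega
    rw [e3]; linarith
  have h4 := ineq (q := (p : ℝ) ^ 2) (P := (p : ℝ) ^ (d - 2)) (a := a) (n0 := H0.card) (n1 := H1.card)
    (one_le_pow₀ hp1) (one_le_pow₀ hp1) ha1 (by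
      refine e1.trans ?_
      rw [hP]
      exact mul_le_mul_of_nonneg_left hl' (by positivity)) (by rw [← hP]; exact e2) (by positivity) (by positivity)
  rw [← hcardk] at h4
  have h5 : (p : ℝ) ^ 2 * ((p : ℝ) ^ (d - 2)) ^ 2 = (p : ℝ) ^ (2 * d - 2) := by
    rw [← pow_mul, ← pow_add]; congr 1; omega
  rw [h5] at h4
  exact_mod_cast h4

theorem main (hM : IsPModular p M) : ∀ (d : ℕ) (G : Type u) [Group G] [Finite G] (B : Set (IrrCharacter G)),
    IsPBlock M B → blockDefect p B = d → 3 ≤ d → Nat.card B ≤ p ^ (2 * d - 2) := by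
  intro d
  induction d with
  | zero => intro G _ _ B _ _ h; omega
  | succ d ih =>
    intro G _ _ B hB hd h3
    haveI := isPrime hM
    have hp := hM.1
    haveI : Fact p.Prime := ⟨hp⟩
    obtain ⟨D, hD⟩ := exists_defectGroup hM hB
    have hDp := defectGroup_isPGroup hD
    have hcard := defectGroup_card hM hB hD
    -- a central element of order `p` in `D`
    obtain ⟨z, hzD, hzc, hz⟩ : ∃ z ∈ D, (∀ x ∈ D, z * x = x * z) ∧ orderOf z = p := by
      have hnt : Nontrivial D := by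
        rw [← Finite.one_lt_card_iff_nontrivial, hcard, hd]
        exact Nat.one_lt_pow (by omega) hp.one_lt
      have h1 : Nontrivial (Subgroup.center D) := hDp.center_nontrivial
      have h2 : p ∣ Nat.card (Subgroup.center D) := by
        obtain ⟨n, hn⟩ := IsPGroup.iff_card.1 (hDp.to_subgroup (Subgroup.center D))
        rw [hn]
        have : n ≠ 0 := by
          rintro rfl
          rw [pow_zero] at hn
          exact absurd hn (Finite.one_lt_card_iff_nontrivial.2 h1).ne'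
        exact dvd_pow_self p this
      obtain ⟨x, hx⟩ := exists_prime_orderOf_dvd_card' p h2
      refine ⟨((x : D) : G), (x : D).2, fun y hy => ?_, ?_⟩
      · exact (congrArg Subtype.val (Subgroup.mem_center_iff.1 x.2 ⟨y, hy⟩)).symm
      · rw [Subgroup.orderOf_coe, Subgroup.orderOf_coe, hx]
    obtain ⟨b, hind, hdb, hbD⟩ := H16Major.exists_major hM hB hD hzD hzc
    -- the central subgroup generated by `z`
    set Q : Subgroup (Cz z) := Subgroup.zpowers (zz z) with hQ
    have hzzc : ∀ c : Cz z, zz z * c = c * zz z := fun c => Subtype.ext (mem_Cz.1 c.2).eq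
    have hQc : Q ≤ Subgroup.center (Cz z) := by
      rw [hQ, Subgroup.zpowers_le, Subgroup.mem_center_iff]
      exact fun c => (hzzc c).symm
    haveI : Q.Normal := ⟨fun n hn g => by
      rw [Subgroup.mem_center_iff.1 (hQc hn) g, mul_inv_cancel_right]; exact hn⟩
    have hcardQ : Nat.card Q = p := by
      rw [hQ, Nat.card_zpowers]
      have : orderOf (zz z) = orderOf z := (Subgroup.orderOf_coe (zz z)).symm
      rw [this, hz]
    have hQp : IsPGroup p Q := IsPGroup.of_card (n := 1) (by rw [hcardQ, pow_one])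
    have hsup : Q ⊔ Subgroup.centralizer (Q : Set (Cz z)) = ⊤ := by
      rw [eq_top_iff]
      refine le_trans ?_ le_sup_right
      intro c _
      rw [Subgroup.mem_centralizer_iff]
      intro q hq
      exact (Subgroup.mem_center_iff.1 (hQc hq) c).symm
    obtain ⟨bbar, hbbar, -, hrank, -, hdef⟩ := BlockDom.exists_dom hM hQp hsup hind.1
    have hdbar : blockDefect p bbar = d := by
      rw [hcardQ, hdb, hd, pow_succ, mul_comm] at hdef
      exact Nat.pow_right_injective hp.two_le (Nat.eq_of_mul_eq_mul_right hp.pos hdef)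
    have hk : Nat.card bbar ≤ p ^ (2 * (d + 1) - 4) := by
      rcases Nat.lt_or_ge d 3 with h4 | h4
      · have hd2 : d = 2 := by omega
        have := card_le_of_le_two hM hbbar (by rw [hdbar]; omega)
        rw [hdbar, hd2] at this
        rw [hd2]; exact this
      · have := ih (Cz z ⧸ Q) bbar hbbar hdbar h4
        have e : 2 * (d + 1) - 4 = 2 * d - 2 := by omega
        rw [e]; exact this
    have hlt : blockRank p bbar < Nat.card bbar := by
      have h4 := Cfsg.Agent.S4733.result p M hM bbar hbbar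
      refine lt_of_le_of_ne h4.1 fun h5 => ?_
      have := h4.2.2.2 h5.symm
      omega
    have := card_le_of_rank hM (k := 1) (by rw [hz, pow_one]) hind hdb (by omega) (by
      rw [hrank, hd]; omega)
    rwa [hd] at this

end Cfsg.Agent.Lib.BFBound
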