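import Cfsg.Agent.Lib.BlockDom
import Cfsg.Agent.Lib.BlockLattice
import Cfsg.Agent.Lib.H16SD
import Cfsg.Agent.Lib.H76RO

/-!
# The lattice of a block of `G` and of the dominated block of `G/Q`, `Q` central (helper75)
-/

set_option autoImplicit false
set_option linter.all false

namespace Cfsg.Agent.Lib.DomLat

open Cfsg Cfsg.Agent.Lib.CharBasic Cfsg.Agent.Lib.BlockRing Cfsg.Agent.Lib.BlockIdem
open Cfsg.Agent.Lib.BlockGA Cfsg.Agent.Lib.BlockPair Cfsg.Agent.Lib.BlockCount Cfsg.Agent.Lib.BlockDefect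
open Cfsg.Agent.Lib.BlockOsima Cfsg.Agent.Lib.BlockDeg Cfsg.Agent.Lib.H76Blk Cfsg.Agent.Lib.H76Blk2
open Cfsg.Agent.Lib.BlockLattice (preg_mem lat_rsp lat_induction lat_int ei ei_spec)
open scoped ComplexConjugate

universe u

variable {G : Type u} [Group G] [Finite G] {p : ℕ} {M : Ideal AlgInt} {Q : Subgroup G} [hQn : Q.Normal]

omit [Finite G] hQn in
theorem sup_centralizer_of_central (hQ : Q ≤ Subgroup.center G) : Q ⊔ Subgroup.centralizer (Q : Set G) = ⊤ := by
  rw [eq_top_iff]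
  refine le_trans ?_ le_sup_right
  intro c _
  rw [Subgroup.mem_centralizer_iff]
  intro q hq
  exact (Subgroup.mem_center_iff.1 (hQ hq) c).symm

/-- inner products -/
theorem inner_T [Fintype G] [Fintype (G ⧸ Q)] (hp : p.Prime) (hQ : IsPGroup p Q) (hsup : Q ⊔ Subgroup.centralizer (Q : Set G) = ⊤)
    {f g : G ⧸ Q → ℂ} (hf : ∀ y, p ∣ orderOf y → f y = 0) :
    (Nat.card Q : ℂ) * classInner (T p Q f) (T p Q g) = classInner f g := by
  classical
  have h1 : ∑ x : G, T p Q f x * conj (T p Q g x) = ∑ y : G ⧸ Q, f y * conj (g y) := by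
    have e1 : ∑ x : G, T p Q f x * conj (T p Q g x) =
        ∑ x ∈ Finset.univ.filter (fun x : G => ¬ p ∣ orderOf x), f (x : G ⧸ Q) * conj (g (x : G ⧸ Q)) := by
      rw [Finset.sum_filter]
      refine Finset.sum_congr rfl fun x _ => ?_
      rw [T_apply, T_apply]
      split_ifs <;> simp
    have e2 : ∑ y : G ⧸ Q, f y * conj (g y) =
        ∑ y ∈ Finset.univ.filter (fun y : G ⧸ Q => ¬ p ∣ orderOf y), f y * conj (g y) := by
      rw [Finset.sum_filter]
      refine Finset.sum_congr rfl fun y _ => ?_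
      by_cases h : p ∣ orderOf y
      · rw [if_neg (not_not.2 h), hf y h, zero_mul]
      · rw [if_pos h]
    rw [e1, e2]
    refine Finset.sum_bij (fun x _ => (x : G ⧸ Q)) ?_ ?_ ?_ ?_
    · intro x hx
      exact Finset.mem_filter.2 ⟨Finset.mem_univ _, regular_mk (Finset.mem_filter.1 hx).2⟩
    · intro x hx y hy h
      exact eq_of_mk_eq hp hQ hsup (Finset.mem_filter.1 hx).2 (Finset.mem_filter.1 hy).2 h
    · intro y hy
      obtain ⟨x, hx, hxy⟩ := exists_regular_lift hp Q (Finset.mem_filter.1 hy).2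
      exact ⟨x, Finset.mem_filter.2 ⟨Finset.mem_univ _, hx⟩, hxy⟩
    · intro x _; rfl
  rw [classInner_def, classInner_def, h1, Subgroup.card_eq_card_quotient_mul_card_subgroup Q]
  have h2 : (Nat.card Q : ℂ) ≠ 0 := Nat.cast_ne_zero.2 Nat.card_pos.ne'
  have h3 : (Nat.card (G ⧸ Q) : ℂ) ≠ 0 := Nat.cast_ne_zero.2 Nat.card_pos.ne'
  push_cast
  field_simp

/-- the lattices correspond (`Q` central) -/
theorem exists_lat (hM : IsPModular p M) (hQ : IsPGroup p Q) (hQc : Q ≤ Subgroup.center G)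
    {B : Set (IrrCharacter G)} (hB : IsPBlock M B) {Bbar : Set (IrrCharacter (G ⧸ Q))} (hBbar : IsPBlock M Bbar)
    (hmem : ∀ ψ, infl Q ψ ∈ B ↔ ψ ∈ Bbar) {f : G → ℂ} (hf : f ∈ BlockLattice.Lat p B) :
    ∃ fb ∈ BlockLattice.Lat p Bbar, T p Q fb = f := by
  classical
  haveI := isPrime hM
  haveI := Fintype.ofFinite G
  haveI := Fintype.ofFinite (G ⧸ Q)
  have hp := hM.1
  haveI : Fact p.Prime := ⟨hp⟩
  have hsup := sup_centralizer_of_central hQc
  refine lat_induction (P := fun f => ∃ fb ∈ BlockLattice.Lat p Bbar, T p Q fb = f) ?_ ?_ ?_ ?_ hf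
  · intro χ hχ
    have hv : preg p (χ : G → ℂ) ∈ rsp p B := Submodule.subset_span ⟨χ, hχ, rfl⟩
    obtain ⟨e, f', he⟩ := PPart.exists_isRegExp p hp G
    have hgen := H16SD.isGeneralized_reg hM he χ.2.isCharacter
    have hqe : ∀ q ∈ Q, q ^ e = 1 := by
      intro q hq
      apply he.pow_e_of_sing
      obtain ⟨k, hk⟩ := (IsPGroup.iff_orderOf.1 hQ) ⟨q, hq⟩
      exact ⟨k, by rw [← hk, Subgroup.orderOf_mk]⟩
    set F : G ⧸ Q → ℂ := fun y => (χ : G → ℂ) ((Quotient.out y) ^ e) with hF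
    have hFx : ∀ x : G, F (x : G ⧸ Q) = (χ : G → ℂ) (x ^ e) := by
      intro x
      have h1 : ((Quotient.out (x : G ⧸ Q) : G) : G ⧸ Q) = (x : G ⧸ Q) := Quotient.out_eq _
      have h2 : (Quotient.out (x : G ⧸ Q) : G)⁻¹ * x ∈ Q := QuotientGroup.eq.1 h1
      set w : G := Quotient.out (x : G ⧸ Q) with hw
      have h3 : x = w * (w⁻¹ * x) := by group
      have h4 : Commute w (w⁻¹ * x) := (Subgroup.mem_center_iff.1 (hQc h2) w)
      show (χ : G → ℂ) (w ^ e) = (χ : G → ℂ) (x ^ e)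
      conv_rhs => rw [h3, h4.mul_pow, hqe _ h2, mul_one]
    have hFcl : IsClassFunction (G ⧸ Q) F := by
      intro y z
      obtain ⟨g, rfl⟩ := QuotientGroup.mk_surjective z
      obtain ⟨x, rfl⟩ := QuotientGroup.mk_surjective y
      rw [← QuotientGroup.mk_mul, ← QuotientGroup.mk_inv, ← QuotientGroup.mk_mul, hFx, hFx, conj_pow,
        χ.2.isClassFunction]
    have hint : ∀ ψ : IrrCharacter (G ⧸ Q), ∃ n : ℤ, classInner F (ψ : G ⧸ Q → ℂ) = n := by
      intro ψ
      have h1 := H76RO.classInner_comp_hom (QuotientGroup.mk'_surjective Q) F (ψ : G ⧸ Q → ℂ)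
      rw [← h1]
      have h2 : (fun x => F (QuotientGroup.mk' Q x)) = fun x => (χ : G → ℂ) (x ^ e) := by
        funext x; exact hFx x
      rw [h2]
      exact hgen.classInner_int (infl Q ψ).2.isGeneralized
    choose n hn using hint
    have hTF : T p Q F = preg p (χ : G → ℂ) := by
      funext x
      rw [T_apply, preg]
      split_ifs with hx
      · rfl
      · rw [hFx, he.pow_e_of_reg x hx]
    have hFe := hFcl.expansion
    set v₁ : G → ℂ := ∑ ψ : IrrCharacter (G ⧸ Q) with ψ ∈ Bbar, (n ψ : ℂ) • preg p (infl Q ψ : G → ℂ) with hv₁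
    set v₂ : G → ℂ := ∑ ψ : IrrCharacter (G ⧸ Q) with ψ ∉ Bbar, (n ψ : ℂ) • preg p (infl Q ψ : G → ℂ) with hv₂
    have hT : ∀ ψ : IrrCharacter (G ⧸ Q), T p Q (ψ : G ⧸ Q → ℂ) = preg p (infl Q ψ : G → ℂ) := fun ψ => rfl
    have hsum : preg p (χ : G → ℂ) = v₁ + v₂ := by
      rw [← hTF, hFe, map_sum, hv₁, hv₂, Finset.sum_filter_add_sum_filter_not]
      apply Finset.sum_congr rfl
      intro ψ _
      rw [map_smul, hT, hn]
    have hv₁m : v₁ ∈ rsp p B := by
      apply Submodule.sum_mem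
      intro ψ hψ
      apply Submodule.smul_mem
      apply Submodule.subset_span
      exact ⟨infl Q ψ, (hmem ψ).2 (Finset.mem_filter.1 hψ).2, rfl⟩
    have hv₂m : v₂ ∈ rsp p B := by
      have : v₂ = preg p (χ : G → ℂ) - v₁ := by rw [hsum]; ring
      rw [this]
      exact Submodule.sub_mem _ hv hv₁m
    have h0 : classInner v₂ v₂ = 0 := by
      conv_lhs => rw [hv₂]
      rw [classInner_sum_left]
      apply Finset.sum_eq_zero
      intro ψ hψ
      rw [classInner_smul_left]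
      have h1 : classInner (preg p (infl Q ψ : G → ℂ)) v₂ = 0 := by
        apply rsp_orth hM (isPBlock_blockOf (M := M) (infl Q ψ)) hB
        · intro h
          apply (Finset.mem_filter.1 hψ).2
          rw [← hmem, ← h]
          exact mem_blockOf_self _
        · exact Submodule.subset_span ⟨infl Q ψ, mem_blockOf_self _, rfl⟩
        · exact hv₂m
      rw [h1, mul_zero]
    have h1 : v₂ = 0 := classInner_self_eq_zero.1 h0
    rw [h1, add_zero] at hsum
    refine ⟨∑ ψ : IrrCharacter (G ⧸ Q) with ψ ∈ Bbar, n ψ • preg p (ψ : G ⧸ Q → ℂ), ?_, ?_⟩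
    · apply Submodule.sum_mem
      intro ψ hψ
      exact Submodule.smul_mem _ _ (preg_mem (Finset.mem_filter.1 hψ).2)
    · rw [hsum, hv₁, map_sum]
      refine Finset.sum_congr rfl fun ψ _ => ?_
      rw [← T_preg, ← map_smul]
      congr 1
      funext y
      simp
  · exact ⟨0, Submodule.zero_mem _, by simp⟩
  · rintro f g - - ⟨fb, hfb, rfl⟩ ⟨gb, hgb, rfl⟩
    exact ⟨fb + gb, Submodule.add_mem _ hfb hgb, by rw [map_add]⟩
  · rintro a f - ⟨fb, hfb, rfl⟩
    refine ⟨a • fb, Submodule.smul_mem _ _ hfb, ?_⟩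
    rw [← map_smul]
    congr 1
    funext y
    simp

/-- the integral forms correspond -/
theorem ei_T (hM : IsPModular p M) (hQ : IsPGroup p Q) (hsup : Q ⊔ Subgroup.centralizer (Q : Set G) = ⊤)
    {B : Set (IrrCharacter G)} (hB : IsPBlock M B) {Bbar : Set (IrrCharacter (G ⧸ Q))} (hBbar : IsPBlock M Bbar)
    (hmem : ∀ ψ, infl Q ψ ∈ B ↔ ψ ∈ Bbar) (hd : Nat.card Q * p ^ blockDefect p Bbar = p ^ blockDefect p B)
    {f g : G ⧸ Q → ℂ} (hf : f ∈ BlockLattice.Lat p Bbar) (hg : g ∈ BlockLattice.Lat p Bbar)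
    (hTf : T p Q f ∈ BlockLattice.Lat p B) (hTg : T p Q g ∈ BlockLattice.Lat p B) :
    ei p B (T p Q f) (T p Q g) = ei p Bbar f g := by
  haveI := Fintype.ofFinite G
  haveI := Fintype.ofFinite (G ⧸ Q)
  have h1 : ((ei p B (T p Q f) (T p Q g) : ℤ) : ℂ) = ((ei p Bbar f g : ℤ) : ℂ) := by
    rw [ei_spec hM hB hTf hTg, ei_spec hM hBbar hf hg,
      ← inner_T hM.1 hQ hsup (fun y hy => rsp_reg (lat_rsp hf) hy)]
    have h2 : (Nat.card Q : ℂ) * (p : ℂ) ^ blockDefect p Bbar = (p : ℂ) ^ blockDefect p B := by exact_mod_cast hd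
    rw [← h2]
    ring
  exact_mod_cast h1

end Cfsg.Agent.Lib.DomLat
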