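import Cfsg.Agent.Lib.RankOneP
import Cfsg.Agent.Lib.DomLat
import Cfsg.Agent.Lib.BFBound
import Cfsg.Agent.S0973

/-!
# Blocks with abelian defect groups of rank two and three (helper75)
-/

set_option autoImplicit false
set_option linter.all false

namespace Cfsg.Agent.Lib.AbRank2

open Cfsg Cfsg.Agent.Lib.BlockRing Cfsg.Agent.Lib.BlockGA Cfsg.Agent.Lib.BlockIdem Cfsg.Agent.Lib.BlockPair
  Cfsg.Agent.Lib.BlockOsima Cfsg.Agent.Lib.BlockCount Cfsg.Agent.Lib.Subsec Cfsg.Agent.Lib.CharBasic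
  Cfsg.Agent.Lib.BlockLattice Cfsg.Agent.Lib.SubsecDet Cfsg.Agent.Lib.BlockDefect Cfsg.Agent.Lib.AbCount
  Cfsg.Agent.Lib.BlkIdem Cfsg.Agent.Lib.BlockAlg Cfsg.Agent.Lib.H76Blk2
open Matrix (det)

universe u

section

variable {G : Type u} [Group G] [Finite G] {p : ℕ} [hp : Fact p.Prime] {M : Ideal AlgInt}
  {B : Set (IrrCharacter G)} {D : Subgroup G}

theorem exists_abMax [hMm : M.IsMaximal] [hchar : CharP (Kf M) p] (hM : IsPModular p M) (hB : IsPBlock M B)
    (hD : IsDefectGroup p M B D)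
    (hab : ∀ x ∈ D, ∀ y ∈ D, x * y = y * x) : ∃ c : MonoidAlgebra (Kf M) G, AbMax p B D c := by
  obtain ⟨⟨c, -, hc⟩, -⟩ := Cfsg.Agent.S0973.result p M hM B hB D hD
  have hDC : D ≤ Subgroup.centralizer (D : Set G) := fun x hx => by
    rw [Subgroup.mem_centralizer_iff]
    intro y hy
    exact hab y hy x hx
  have key : ∀ L : Subgroup G, L = Subgroup.centralizer (D : Set G) →
      (∃ b : Set (IrrCharacter L), IsInducedBlock M L b B) →
      ∃ b : Set (IrrCharacter (Subgroup.centralizer (D : Set G))),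
        IsInducedBlock M (Subgroup.centralizer (D : Set G)) b B := by
    rintro L rfl h; exact h
  obtain ⟨b, hb⟩ := key _ (sup_eq_right.2 hDC) ⟨c, hc⟩
  exact ⟨_, AbMax.of hB hD hab hb⟩

theorem dvd_det_of_cyclic (hM : IsPModular p M) (hB : IsPBlock M B) (hD : IsDefectGroup p M B D)
    (hcyc : IsCyclic D) {l : ℕ} {f : Fin l → (G → ℂ)} (hf : ∀ i, f i ∈ BlockLattice.Lat p B) :
    (p : ℤ) ^ (blockDefect p B * (l - 1)) ∣ det (Matrix.of fun i j => ei p B (f i) (f j)) := by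
  haveI := hM.2.1
  haveI := charP_Kf hM
  have hab : ∀ x ∈ D, ∀ y ∈ D, x * y = y * x := by
    intro x hx y hy
    letI := IsCyclic.commGroup (α := D)
    exact congrArg Subtype.val (mul_comm (⟨x, hx⟩ : D) ⟨y, hy⟩)
  obtain ⟨c, hc⟩ := exists_abMax hM hB hD hab
  by_cases hne : D = ⊥
  · have h1 := hc.card_P hM
    rw [hne, Subgroup.card_bot] at h1
    have h2 : blockDefect p B = 0 := by
      by_contra h0
      have := Nat.one_lt_pow h0 hp.out.one_lt
      omega
    rw [h2, zero_mul, pow_zero]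
    exact one_dvd _
  · exact RankOneP.dvd_det hM (AbSec.free_of_cyclic hc hne hcyc) hf

/-- abelian defect group `D = ⟨z, w⟩` -/
theorem card_le_of_two_gen (hM : IsPModular p M) (hB : IsPBlock M B) (hD : IsDefectGroup p M B D)
    (hab : ∀ x ∈ D, ∀ y ∈ D, x * y = y * x) {z w : G} (hzD : z ∈ D) (hwD : w ∈ D)
    (hgen : ∀ x ∈ D, ∃ i j : ℤ, x = z ^ i * w ^ j) (hne : ¬ D ≤ Subgroup.zpowers z) : Nat.card B ≤ Nat.card D := by
  haveI := isPrime hM
  obtain ⟨b, hind, hd, hbD⟩ := H16Major.exists_major hM hB hD hzD (fun d hd => hab z hzD d hd)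
  have hDp := defectGroup_isPGroup hD
  have hdB := defectGroup_card hM hB hD
  obtain ⟨a, hz⟩ := (IsPGroup.iff_orderOf.1 hDp) ⟨z, hzD⟩
  rw [Subgroup.orderOf_mk] at hz
  haveI : NeZero (p ^ (a + 1)) := ⟨pow_ne_zero _ hp.out.ne_zero⟩
  obtain ⟨u, hu, huz⟩ := SetLike.not_le_iff_exists.1 hne
  obtain ⟨φ, hφ⟩ := BFBound.bas_of hM hind.1
  -- the central subgroup generated by `z`
  set Q : Subgroup (Cz z) := Subgroup.zpowers (zz z) with hQ
  have hzzc : ∀ c : Cz z, zz z * c = c * zz z := fun c => Subtype.ext (mem_Cz.1 c.2).eq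
  have hQc : Q ≤ Subgroup.center (Cz z) := by
    rw [hQ, Subgroup.zpowers_le, Subgroup.mem_center_iff]
    exact fun c => (hzzc c).symm
  haveI : Q.Normal := ⟨fun n hn g => by
    rw [Subgroup.mem_center_iff.1 (hQc hn) g, mul_inv_cancel_right]; exact hn⟩
  have hcardQ : Nat.card Q = p ^ a := by
    rw [hQ, Nat.card_zpowers]
    have : orderOf (zz z) = orderOf z := (Subgroup.orderOf_coe (zz z)).symm
    rw [this, hz]
  have hQp : IsPGroup p Q := IsPGroup.of_card (n := a) hcardQ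
  have hsup := DomLat.sup_centralizer_of_central hQc
  obtain ⟨bbar, hbbar, hmem, hrank, hdefg, hdef⟩ := BlockDom.exists_dom hM hQp hsup hind.1
  have hcyc : IsCyclic ((D.subgroupOf (Cz z)).map (QuotientGroup.mk' Q)) := by
    have hwC : w ∈ Cz z := mem_Cz.2 (hab z hzD w hwD)
    set w' : Cz z := ⟨w, hwC⟩ with hw'
    have hw'm : QuotientGroup.mk' Q w' ∈ (D.subgroupOf (Cz z)).map (QuotientGroup.mk' Q) :=
      Subgroup.mem_map_of_mem _ hwD
    refine ⟨⟨⟨_, hw'm⟩, ?_⟩⟩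
    rintro ⟨y, hy⟩
    obtain ⟨x, hx, rfl⟩ := Subgroup.mem_map.1 hy
    obtain ⟨i, j, hij⟩ := hgen _ hx
    refine Subgroup.mem_zpowers_iff.2 ⟨j, ?_⟩
    apply Subtype.ext
    show (QuotientGroup.mk' Q w') ^ j = QuotientGroup.mk' Q x
    have h1 : x = zz z ^ i * w' ^ j := Subtype.ext hij
    rw [h1, map_mul, map_zpow, map_zpow]
    have h2 : QuotientGroup.mk' Q (zz z) = 1 := (QuotientGroup.eq_one_iff _).2 (Subgroup.mem_zpowers _)
    rw [h2, one_zpow, one_mul]
  have had : a ≤ blockDefect p b := by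
    rw [hcardQ, ← pow_add] at hdef
    have := Nat.pow_right_injective hp.out.two_le hdef
    omega
  have hdbar : blockDefect p bbar = blockDefect p b - a := by
    rw [hcardQ, ← pow_add] at hdef
    have := Nat.pow_right_injective hp.out.two_le hdef
    omega
  have h1 := card_le_of_dvd hM hz hind hd hφ had
    (fun ξ => BFBound.exists_off hM hDp hab hzD hind.1 hbD hu huz ξ.2.1) (by
      rw [← hdbar]
      choose fb hfb hTf using fun i => DomLat.exists_lat hM hQp hQc hind.1 hbbar hmem (hφ.mem i)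
      have h2 := dvd_det_of_cyclic hM hbbar (hdefg _ hbD) hcyc (f := fb) hfb
      have h3 : eiM p b φ = Matrix.of fun i j => ei p bbar (fb i) (fb j) := by
        ext i j
        rw [eiM, Matrix.of_apply, Matrix.of_apply, ← DomLat.ei_T hM hQp hsup hind.1 hbbar hmem hdef (hfb i) (hfb j)
          (by rw [hTf]; exact hφ.mem i) (by rw [hTf]; exact hφ.mem j), hTf, hTf]
      rw [h3]
      exact h2)
  rwa [hd, ← hdB] at h1

theorem card_le_of_cyclic (hM : IsPModular p M) (hB : IsPBlock M B) (hD : IsDefectGroup p M B D)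
    (hcyc : IsCyclic D) : Nat.card B ≤ Nat.card D := by
  haveI := isPrime hM
  have hab : ∀ x ∈ D, ∀ y ∈ D, x * y = y * x := by
    intro x hx y hy
    letI := IsCyclic.commGroup (α := D)
    exact congrArg Subtype.val (mul_comm (⟨x, hx⟩ : D) ⟨y, hy⟩)
  have hdB := defectGroup_card hM hB hD
  rcases Nat.eq_zero_or_pos (blockDefect p B) with h0 | hpos
  · rw [hdB, h0, pow_zero, ((Cfsg.Agent.S4733.result p M hM B hB).2.1.1 h0).1]
  obtain ⟨a, ha⟩ : ∃ a, blockDefect p B = a + 1 := ⟨blockDefect p B - 1, by omega⟩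
  obtain ⟨g, hg⟩ := hcyc.exists_generator
  have hog : orderOf (g : G) = p ^ (a + 1) := by
    rw [Subgroup.orderOf_coe, orderOf_eq_card_of_forall_mem_zpowers hg, hdB, ha]
  have hz : orderOf ((g : G) ^ p) = p ^ a := by
    rw [orderOf_pow, hog, pow_succ, Nat.gcd_eq_right (dvd_mul_left _ _), Nat.mul_div_cancel _ hp.out.pos]
  have h1 := BFBound.card_le_of_index_p hM hB hD hab (pow_mem g.2 p) hz (by rw [hdB, ha])
  rw [hdB, ha]
  exact h1

/-- abelian defect group generated by two elements -/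
theorem card_le_of_two_gen' (hM : IsPModular p M) (hB : IsPBlock M B) (hD : IsDefectGroup p M B D)
    (hab : ∀ x ∈ D, ∀ y ∈ D, x * y = y * x) {z w : G} (hzD : z ∈ D) (hwD : w ∈ D)
    (hgen : ∀ x ∈ D, ∃ i j : ℤ, x = z ^ i * w ^ j) : Nat.card B ≤ Nat.card D := by
  by_cases hne : D ≤ Subgroup.zpowers z
  · apply card_le_of_cyclic hM hB hD
    have h1 : D = Subgroup.zpowers z := le_antisymm hne (Subgroup.zpowers_le.2 hzD)
    rw [h1]
    infer_instance
  · exact card_le_of_two_gen hM hB hD hab hzD hwD hgen hne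

/-- abelian defect group generated by three elements -/
theorem card_le_of_three_gen (hM : IsPModular p M) (hB : IsPBlock M B) (hD : IsDefectGroup p M B D)
    (hab : ∀ x ∈ D, ∀ y ∈ D, x * y = y * x) {z w v : G} (hzD : z ∈ D) (hwD : w ∈ D) (hvD : v ∈ D)
    (hgen : ∀ x ∈ D, ∃ i j k : ℤ, x = z ^ i * w ^ j * v ^ k) {a : ℕ} (hz : orderOf z = p ^ a)
    (h3 : blockDefect p B ≤ 3 * a) : Nat.card B ^ 3 ≤ p ^ (5 * blockDefect p B) := by
  haveI := isPrime hM
  obtain ⟨b, hind, hd, hbD⟩ := H16Major.exists_major hM hB hD hzD (fun d hd => hab z hzD d hd)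
  have hDp := defectGroup_isPGroup hD
  have hdB := defectGroup_card hM hB hD
  haveI : NeZero (p ^ (a + 1)) := ⟨pow_ne_zero _ hp.out.ne_zero⟩
  set Q : Subgroup (Cz z) := Subgroup.zpowers (zz z) with hQ
  have hzzc : ∀ c : Cz z, zz z * c = c * zz z := fun c => Subtype.ext (mem_Cz.1 c.2).eq
  have hQc : Q ≤ Subgroup.center (Cz z) := by
    rw [hQ, Subgroup.zpowers_le, Subgroup.mem_center_iff]
    exact fun c => (hzzc c).symm
  haveI : Q.Normal := ⟨fun n hn g => by
    rw [Subgroup.mem_center_iff.1 (hQc hn) g, mul_inv_cancel_right]; exact hn⟩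
  have hcardQ : Nat.card Q = p ^ a := by
    rw [hQ, Nat.card_zpowers]
    have : orderOf (zz z) = orderOf z := (Subgroup.orderOf_coe (zz z)).symm
    rw [this, hz]
  have hQp : IsPGroup p Q := IsPGroup.of_card (n := a) hcardQ
  have hsup := DomLat.sup_centralizer_of_central hQc
  obtain ⟨bbar, hbbar, hmem, hrank, hdefg, hdef⟩ := BlockDom.exists_dom hM hQp hsup hind.1
  have hwC : w ∈ Cz z := mem_Cz.2 (hab z hzD w hwD)
  have hvC : v ∈ Cz z := mem_Cz.2 (hab z hzD v hvD)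
  have hk : Nat.card bbar ≤ p ^ blockDefect p bbar := by
    rw [← defectGroup_card hM hbbar (hdefg _ hbD)]
    refine card_le_of_two_gen' hM hbbar (hdefg _ hbD) ?_ (z := QuotientGroup.mk' Q ⟨w, hwC⟩)
      (w := QuotientGroup.mk' Q ⟨v, hvC⟩) (Subgroup.mem_map_of_mem _ hwD) (Subgroup.mem_map_of_mem _ hvD) ?_
    · intro x hx y hy
      obtain ⟨x, hx', rfl⟩ := Subgroup.mem_map.1 hx
      obtain ⟨y, hy', rfl⟩ := Subgroup.mem_map.1 hy
      rw [← map_mul, ← map_mul]
      congr 1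
      exact Subtype.ext (hab _ hx' _ hy')
    · intro x hx
      obtain ⟨x, hx', rfl⟩ := Subgroup.mem_map.1 hx
      obtain ⟨i, j, k, hij⟩ := hgen _ hx'
      refine ⟨j, k, ?_⟩
      have h1 : x = zz z ^ i * (⟨w, hwC⟩ : Cz z) ^ j * (⟨v, hvC⟩ : Cz z) ^ k := Subtype.ext hij
      rw [h1, map_mul, map_mul, map_zpow, map_zpow, map_zpow]
      have h2 : QuotientGroup.mk' Q (zz z) = 1 := (QuotientGroup.eq_one_iff _).2 (Subgroup.mem_zpowers _)
      rw [h2, one_zpow, one_mul]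
  have hl := (Cfsg.Agent.S4733.result p M hM bbar hbbar).1
  have h1 := Subsec.card_le_rank_mul hM hz hind hd
  rw [hcardQ, ← pow_add] at hdef
  have hdef' := Nat.pow_right_injective hp.out.two_le hdef
  have h2 : Nat.card B ≤ p ^ (blockDefect p b + blockDefect p bbar) := by
    rw [pow_add]
    refine h1.trans (Nat.mul_le_mul_left _ ?_)
    rw [hrank]
    exact hl.trans hk
  calc Nat.card B ^ 3 ≤ (p ^ (blockDefect p b + blockDefect p bbar)) ^ 3 := Nat.pow_le_pow_left h2 3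
    _ = p ^ ((blockDefect p b + blockDefect p bbar) * 3) := by rw [← pow_mul]
    _ ≤ p ^ (5 * blockDefect p B) := Nat.pow_le_pow_right hp.out.pos (by
      have hdef2 : a + blockDefect p bbar = blockDefect p b := hdef'
      omega)

/-- the generators of abelian groups of rank two -/
theorem exists_two_gen {D : Subgroup G} (hab : ∀ x ∈ D, ∀ y ∈ D, x * y = y * x) (hr : Group.rank D = 2) :
    ∃ z ∈ D, ∃ w ∈ D, ∀ x ∈ D, ∃ i j : ℤ, x = z ^ i * w ^ j := by
  classical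
  letI : CommGroup D := { (inferInstance : Group D) with mul_comm := fun a b => Subtype.ext (hab _ a.2 _ b.2) }
  obtain ⟨S, hS, hcl⟩ := Group.rank_spec (G := D)
  rw [hr, Finset.card_eq_two] at hS
  obtain ⟨z, w, -, rfl⟩ := hS
  refine ⟨z, z.2, w, w.2, fun x hx => ?_⟩
  have h1 : (⟨x, hx⟩ : D) ∈ Subgroup.closure ({z, w} : Set D) := by
    have h2 : (⟨x, hx⟩ : D) ∈ (⊤ : Subgroup D) := Subgroup.mem_top _
    rw [← hcl] at h2
    simpa using h2
  obtain ⟨i, j, hij⟩ := Subgroup.mem_closure_pair.1 h1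
  exact ⟨i, j, (congrArg Subtype.val hij).symm⟩

theorem exists_three_gen {D : Subgroup G} (hab : ∀ x ∈ D, ∀ y ∈ D, x * y = y * x) (hr : Group.rank D = 3) :
    ∃ z ∈ D, ∃ w ∈ D, ∃ v ∈ D, ∀ x ∈ D, ∃ i j k : ℤ, x = z ^ i * w ^ j * v ^ k := by
  classical
  letI : CommGroup D := { (inferInstance : Group D) with mul_comm := fun a b => Subtype.ext (hab _ a.2 _ b.2) }
  obtain ⟨S, hS, hcl⟩ := Group.rank_spec (G := D)
  rw [hr, Finset.card_eq_three] at hS
  obtain ⟨z, w, v, -, -, -, rfl⟩ := hS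
  refine ⟨z, z.2, w, w.2, v, v.2, fun x hx => ?_⟩
  have h1 : (⟨x, hx⟩ : D) ∈ Subgroup.closure ({z} : Set D) ⊔ Subgroup.closure ({w, v} : Set D) := by
    rw [← Subgroup.closure_union]
    have h2 : (⟨x, hx⟩ : D) ∈ (⊤ : Subgroup D) := Subgroup.mem_top _
    rw [← hcl] at h2
    have h3 : ({z} ∪ {w, v} : Set D) = (({z, w, v} : Finset D) : Set D) := by
      ext y; simp; tauto
    rw [h3]
    exact h2
  obtain ⟨a, ha, b, hb, hab'⟩ := Subgroup.mem_sup.1 h1
  obtain ⟨i, rfl⟩ := Subgroup.mem_closure_singleton.1 ha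
  obtain ⟨j, k, rfl⟩ := Subgroup.mem_closure_pair.1 hb
  refine ⟨i, j, k, ?_⟩
  have := congrArg Subtype.val hab'
  rw [mul_assoc]
  exact this.symm

theorem card_le_three {D : Subgroup G} {z w v : G} (hz : z ∈ D) (hw : w ∈ D) (hv : v ∈ D)
    (hgen : ∀ x ∈ D, ∃ i j k : ℤ, x = z ^ i * w ^ j * v ^ k) :
    Nat.card D ≤ orderOf z * orderOf w * orderOf v := by
  let f : (Subgroup.zpowers z × Subgroup.zpowers w) × Subgroup.zpowers v → D := fun t =>
    ⟨(t.1.1 : G) * t.1.2 * t.2, mul_mem (mul_mem (Subgroup.zpowers_le.2 hz t.1.1.2) (Subgroup.zpowers_le.2 hw t.1.2.2))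
      (Subgroup.zpowers_le.2 hv t.2.2)⟩
  have hf : Function.Surjective f := by
    rintro ⟨x, hx⟩
    obtain ⟨i, j, k, rfl⟩ := hgen x hx
    exact ⟨((⟨z ^ i, i, rfl⟩, ⟨w ^ j, j, rfl⟩), ⟨v ^ k, k, rfl⟩), rfl⟩
  have h1 := Nat.card_le_card_of_surjective f hf
  rwa [Nat.card_prod, Nat.card_prod, Nat.card_zpowers, Nat.card_zpowers, Nat.card_zpowers] at h1

theorem rank_two (hM : IsPModular p M) (hB : IsPBlock M B) (hD : IsDefectGroup p M B D)
    (hab : ∀ x ∈ D, ∀ y ∈ D, x * y = y * x) (hr : Group.rank D = 2) : Nat.card B ≤ Nat.card D := by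
  obtain ⟨z, hz, w, hw, hgen⟩ := exists_two_gen hab hr
  exact card_le_of_two_gen' hM hB hD hab hz hw hgen

theorem rank_three (hM : IsPModular p M) (hB : IsPBlock M B) (hD : IsDefectGroup p M B D)
    (hab : ∀ x ∈ D, ∀ y ∈ D, x * y = y * x) (hr : Group.rank D = 3) :
    Nat.card B ^ 3 ≤ p ^ (5 * blockDefect p B) := by
  haveI := isPrime hM
  obtain ⟨z, hz, w, hw, v, hv, hgen⟩ := exists_three_gen hab hr
  have hDp := defectGroup_isPGroup hD
  have hdB := defectGroup_card hM hB hD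
  have ho : ∀ x ∈ D, ∃ k, orderOf x = p ^ k := by
    intro x hx
    obtain ⟨k, hk⟩ := (IsPGroup.iff_orderOf.1 hDp) ⟨x, hx⟩
    exact ⟨k, by rw [← hk, Subgroup.orderOf_mk]⟩
  obtain ⟨i, hi⟩ := ho z hz
  obtain ⟨j, hj⟩ := ho w hw
  obtain ⟨k, hk⟩ := ho v hv
  have h1 := card_le_three hz hw hv hgen
  rw [hi, hj, hk, hdB, ← pow_add, ← pow_add] at h1
  have h2 : blockDefect p B ≤ i + j + k := (Nat.pow_le_pow_iff_right hp.out.one_lt).1 h1
  by_cases h3 : blockDefect p B ≤ 3 * i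
  · exact card_le_of_three_gen hM hB hD hab hz hw hv hgen hi h3
  by_cases h4 : blockDefect p B ≤ 3 * j
  · refine card_le_of_three_gen hM hB hD hab hw hz hv ?_ hj h4
    intro x hx
    obtain ⟨a, b, c, rfl⟩ := hgen x hx
    exact ⟨b, a, c, by rw [hab _ (zpow_mem hz a) _ (zpow_mem hw b)]⟩
  · refine card_le_of_three_gen hM hB hD hab hv hz hw ?_ hk (by omega)
    intro x hx
    obtain ⟨a, b, c, rfl⟩ := hgen x hx
    exact ⟨c, a, b, by rw [mul_assoc (v ^ c), hab _ (zpow_mem hv c) _ (mul_mem (zpow_mem hz a) (zpow_mem hw b))]⟩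

end

end Cfsg.Agent.Lib.AbRank2
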