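import Mathlib
import Cfsg.Agent.Lib.HallFactor
import Cfsg.Agent.Lib.Supersolvable2
import Cfsg.Agent.Lib.SmallSimple
import Cfsg.Agent.Lib.NilpotentHall
import Cfsg.Agent.S0572

/-!
Products of two abelian groups.  (helper10)
-/

set_option autoImplicit false

namespace Cfsg.Agent.Lib.AbelProd

open Subgroup Pointwise
open Cfsg.Agent.Lib.HallPi Cfsg.Agent.Lib.ProdHall Cfsg.Agent.Lib.Products Cfsg.Agent.Lib.HallFactor
open Cfsg.Agent.Lib.LocBase (IsSyl)
open Cfsg.Agent.Lib.SubgroupTools (card_mul_relIndex_of_le card_subgroupOf_of_le)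

universe u

theorem comm_of {G : Type*} [Group G] {A : Subgroup G} (hA : IsMulCommutative A) :
    ∀ x ∈ A, ∀ y ∈ A, x * y = y * x := fun x hx y hy =>
  congrArg Subtype.val (hA.is_comm.comm ⟨x, hx⟩ ⟨y, hy⟩)

theorem isMulCommutative_of {G : Type*} [Group G] {A : Subgroup G}
    (h : ∀ x ∈ A, ∀ y ∈ A, x * y = y * x) : IsMulCommutative A :=
  ⟨⟨fun a b => Subtype.ext (h a a.2 b b.2)⟩⟩

/-- In an abelian normal subgroup the Hall `π`-subgroup is normal in the group. -/
theorem normal_hall_of_abelian {G : Type u} [Group G] [Finite G] {π : Set ℕ} {K Y : Subgroup G}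
    [hK : K.Normal] (hKab : ∀ x ∈ K, ∀ y ∈ K, x * y = y * x) (hY : Cfsg.IsPiHallOf π Y K) :
    Y.Normal := by
  have hYK := (isPiHallOf_iff.mp hY).1
  have h1 := (isPiHallOf_iff_subgroupOf hYK).mp hY
  have h0 : (Y.subgroupOf K).Normal := by
    refine ⟨fun x hx g => ?_⟩
    have h2 : g * x = x * g := Subtype.ext (hKab g g.2 x x.2)
    rw [h2, mul_inv_cancel_right]
    exact hx
  have h3 : (Y.subgroupOf K).Characteristic :=
    Lib.SmallSimple.characteristic_of_coprime _ (Lib.HallPi.IsPiHall.coprime h1)
  have h4 : Y = (Y.subgroupOf K).map K.subtype := (map_subgroupOf_eq_of_le hYK).symm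
  rw [h4]
  exact ConjAct.normal_of_characteristic_of_normal

/-- A nontrivial product of two abelian groups has a nontrivial normal subgroup inside one of
the factors. -/
theorem exists_normal_aux (n : ℕ) : ∀ (G : Type u) [Group G] [Finite G] [Nontrivial G],
    Nat.card G = n → ∀ A B : Subgroup G, (∀ x ∈ A, ∀ y ∈ A, x * y = y * x) →
    (∀ x ∈ B, ∀ y ∈ B, x * y = y * x) → (∀ g : G, ∃ a ∈ A, ∃ b ∈ B, g = a * b) →
    ∃ N : Subgroup G, N.Normal ∧ N ≠ ⊥ ∧ (N ≤ A ∨ N ≤ B) := by
  induction n using Nat.strong_induction_on with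
  | _ n ih =>
    intro G _ _ _ hn A B hA hB hAB
    by_contra hno
    have hno' : ∀ N : Subgroup G, N.Normal → (N ≤ A ∨ N ≤ B) → N = ⊥ := by
      intro N hN h
      by_contra hne
      exact hno ⟨N, hN, hne, h⟩
    -- central elements
    have hzero : ∀ {A B : Subgroup G}, (∀ x ∈ B, ∀ y ∈ B, x * y = y * x) →
        (∀ g : G, ∃ a ∈ A, ∃ b ∈ B, g = a * b) →
        (∀ N : Subgroup G, N.Normal → (N ≤ A ∨ N ≤ B) → N = ⊥) →
        ∀ b ∈ B, (∀ a ∈ A, a * b = b * a) → b = 1 := by
      intro A B hB hAB hno' b hb hba
      have hbc : b ∈ center G := by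
        rw [mem_center_iff]
        intro g
        obtain ⟨a, ha, c, hc, rfl⟩ := hAB g
        calc a * c * b = a * (c * b) := by group
          _ = a * (b * c) := by rw [hB c hc b hb]
          _ = (a * b) * c := by group
          _ = (b * a) * c := by rw [hba a ha]
          _ = _ := by group
      have hn : (zpowers b).Normal := by
        refine ⟨?_⟩
        rintro _ ⟨i, rfl⟩ g
        have h1 : b ^ i ∈ center G := zpow_mem hbc i
        change g * b ^ i * g⁻¹ ∈ zpowers b
        rw [mem_center_iff.mp h1 g, mul_inv_cancel_right]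
        exact zpow_mem (mem_zpowers b) i
      have h1 := hno' _ hn (Or.inr (by rwa [zpowers_le]))
      exact zpowers_eq_bot.mp h1
    have hBA := symm hAB
    have hno'' : ∀ N : Subgroup G, N.Normal → (N ≤ B ∨ N ≤ A) → N = ⊥ :=
      fun N hN h => hno' N hN h.symm
    have hB1 := hzero hB hAB hno'
    have hA1 := hzero hA hBA hno''
    -- self-centralizing
    have hCA : centralizer (A : Set G) ≤ A := by
      intro x hx
      obtain ⟨a, ha, b, hb, rfl⟩ := hAB x
      have hb1 : b = 1 := by
        apply hB1 b hb
        intro a' ha'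
        have h1 := mem_centralizer_iff.mp hx a' ha'
        have h2 : b = a⁻¹ * (a * b) := by group
        calc a' * b = a' * a⁻¹ * (a * b) := by group
          _ = a⁻¹ * a' * (a * b) := by rw [hA a' ha' a⁻¹ (A.inv_mem ha)]
          _ = a⁻¹ * (a' * (a * b)) := by group
          _ = a⁻¹ * (a * b * a') := by rw [h1]
          _ = _ := by group
      rw [hb1, mul_one]; exact ha
    have hCB : centralizer (B : Set G) ≤ B := by
      intro x hx
      obtain ⟨b, hb, a, ha, rfl⟩ := hBA x
      have ha1 : a = 1 := by
        apply hA1 a ha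
        intro b' hb'
        have h1 := mem_centralizer_iff.mp hx b' hb'
        calc b' * a = b' * b⁻¹ * (b * a) := by group
          _ = b⁻¹ * b' * (b * a) := by rw [hB b' hb' b⁻¹ (B.inv_mem hb)]
          _ = b⁻¹ * (b' * (b * a)) := by group
          _ = b⁻¹ * (b * a * b') := by rw [h1]
          _ = _ := by group
      rw [ha1, mul_one]; exact hb
    -- the commutator subgroup
    set K := commutator G with hKdef
    have hAi : IsMulCommutative A := isMulCommutative_of hA
    have hBi : IsMulCommutative B := isMulCommutative_of hB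
    have hKab : ∀ x ∈ K, ∀ y ∈ K, x * y = y * x := by
      have h1 := S0572.result A B hAB
      have h2 : ⁅K, K⁆ = ⊥ := h1
      rw [commutator_eq_bot_iff_le_centralizer] at h2
      intro x hx y hy
      exact (mem_centralizer_iff.mp (h2 hx) y hy).symm
    have hKne : K ≠ ⊥ := by
      intro hKb
      have hcomm : ∀ x y : G, x * y = y * x := by
        intro x y
        have h1 : x * y * x⁻¹ * y⁻¹ ∈ K :=
          commutator_mem_commutator (mem_top x) (mem_top y)
        rw [hKb, mem_bot] at h1
        have h2 : x * y * (y * x)⁻¹ = 1 := by rw [← h1]; group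
        exact mul_inv_eq_one.mp h2
      obtain ⟨x, hx⟩ := exists_ne (1 : G)
      obtain ⟨a, ha, b, hb, rfl⟩ := hAB x
      apply hx
      rw [hB1 b hb (fun a' _ => hcomm a' b), hA1 a ha (fun b' _ => hcomm b' a), mul_one]
    -- `Z(AK) = 1`
    have hZ : ∀ {A : Subgroup G}, (∀ x ∈ A, ∀ y ∈ A, x * y = y * x) →
        centralizer (A : Set G) ≤ A → (∀ N : Subgroup G, N.Normal → N ≤ A → N = ⊥) →
        ∀ x ∈ A ⊔ K, x ∈ centralizer (A : Set G) → x ∈ centralizer (K : Set G) → x = 1 := by
      intro A hA hCA hno x hx hxA hxK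
      have hn1 : (A ⊔ K).Normal := Subgroup.Normal.of_commutator_le G le_sup_right
      have hZn : ((A ⊔ K) ⊓ centralizer ((A ⊔ K : Subgroup G) : Set G)).Normal := inferInstance
      have h1 := hno _ hZn (by
        refine le_trans ?_ hCA
        exact inf_le_right.trans (centralizer_le (show (A : Set G) ⊆ _ from
          fun y hy => mem_sup_left hy)))
      have h2 : x ∈ (A ⊔ K) ⊓ centralizer ((A ⊔ K : Subgroup G) : Set G) := by
        refine mem_inf.mpr ⟨hx, ?_⟩
        rw [mem_centralizer_iff]
        have h3 : A ⊔ K ≤ centralizer {x} := by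
          refine sup_le ?_ ?_
          · intro a ha
            rw [mem_centralizer_singleton_iff]
            exact mem_centralizer_iff.mp hxA a ha
          · intro k hk
            rw [mem_centralizer_singleton_iff]
            exact mem_centralizer_iff.mp hxK k hk
        intro y hy
        exact mem_centralizer_singleton_iff.mp (h3 hy)
      rw [h1, mem_bot] at h2
      exact h2
    have hZA := hZ hA hCA (fun N hN h => hno' N hN (Or.inl h))
    have hZB := hZ hB hCB (fun N hN h => hno' N hN (Or.inr h))
    have hcent : ∀ {A : Subgroup G}, (∀ x ∈ A, ∀ y ∈ A, x * y = y * x) →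
        A ≤ centralizer (A : Set G) := by
      intro A hA x hx
      rw [mem_centralizer_iff]
      exact fun y hy => hA y hy x hx
    set X : Subgroup G := (A ⊔ K) ⊓ (B ⊔ K) with hX
    have hfX : ∀ g ∈ X, ∃ a ∈ X ⊓ A, ∃ b ∈ X ⊓ B, g = a * b := by
      intro g hg
      obtain ⟨hg1, hg2⟩ := mem_inf.mp hg
      obtain ⟨a, ha, b, hb, rfl⟩ := hAB g
      have hb1 : b ∈ A ⊔ K := by
        have : b = a⁻¹ * (a * b) := by group
        rw [this]
        exact mul_mem (mem_sup_left (A.inv_mem ha)) hg1
      have ha1 : a ∈ B ⊔ K := by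
        have : a = (a * b) * b⁻¹ := by group
        rw [this]
        exact mul_mem hg2 (mem_sup_left (B.inv_mem hb))
      exact ⟨a, mem_inf.mpr ⟨mem_inf.mpr ⟨mem_sup_left ha, ha1⟩, ha⟩, b,
        mem_inf.mpr ⟨mem_inf.mpr ⟨hb1, mem_sup_left hb⟩, hb⟩, rfl⟩
    have hKX : K ≤ X := le_inf le_sup_right le_sup_right
    by_cases hXtop : X = ⊤
    swap
    · -- induction in `X`
      have hltX : Nat.card X < n := by
        rw [← hn]
        have h1 := Subgroup.card_mul_index X
        have h2 : X.index ≠ 1 := by rwa [ne_eq, index_eq_one]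
        have h3 : X.index ≠ 0 := index_ne_zero_of_finite
        have h4 : 0 < Nat.card X := Nat.card_pos
        have h5 : 2 ≤ X.index := by omega
        nlinarith
      have hXnt : Nontrivial X := by
        rw [nontrivial_iff_ne_bot]
        intro h
        rw [h] at hKX
        exact hKne (le_bot_iff.mp hKX)
      obtain ⟨N1, hN1n, hN1, hN1le⟩ := ih _ hltX X rfl (A.subgroupOf X) (B.subgroupOf X)
        (fun x hx y hy => Subtype.ext (hA x hx y hy)) (fun x hx y hy => Subtype.ext (hB x hx y hy))
        (subgroupOf_factor hfX)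
      set N2 : Subgroup G := N1.map X.subtype with hN2
      have hKN2 : K ≤ normalizer (N2 : Set G) := by
        intro k hk
        rw [Lib.SubgroupTools.mem_normalizer_iff_conj_smul]
        have h1 := Lib.SubgroupTools.conj_smul_map_subtype (⟨k, hKX hk⟩ : X) N1
        rw [Lib.SubgroupTools.conj_smul_normal] at h1
        exact h1.symm
      have hfin : ∀ {A : Subgroup G}, (∀ x ∈ A, ∀ y ∈ A, x * y = y * x) →
          (∀ x ∈ A ⊔ K, x ∈ centralizer (A : Set G) → x ∈ centralizer (K : Set G) → x = 1) →
          N2 ≤ A → N2 = ⊥ := by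
        intro A hA hZA hle
        have h1 : N2 ⊓ K = ⊥ := by
          rw [eq_bot_iff]
          intro x hx
          obtain ⟨hx1, hx2⟩ := mem_inf.mp hx
          exact mem_bot.mpr (hZA x (mem_sup_right hx2) (hcent hA (hle hx1)) (hcent hKab hx2))
        have h2 : N2 ≤ centralizer (K : Set G) :=
          Lib.NilpotentHall.le_centralizer_of_normalize le_normalizer_of_normal hKN2 h1
        rw [eq_bot_iff]
        intro x hx
        exact mem_bot.mpr (hZA x (mem_sup_left (hle hx)) (hcent hA (hle hx)) (h2 hx))
      have hN2ne : N2 ≠ ⊥ := by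
        intro h
        apply hN1
        exact (map_eq_bot_iff_of_injective _ X.subtype_injective).mp h
      apply hN2ne
      rcases hN1le with h | h
      · apply hfin hA hZA
        have h1 := map_mono (f := X.subtype) h
        rw [subgroupOf_map_subtype] at h1
        exact h1.trans inf_le_left
      · apply hfin hB hZB
        have h1 := map_mono (f := X.subtype) h
        rw [subgroupOf_map_subtype] at h1
        exact h1.trans inf_le_left
    · -- `G = AK = BK`
      have hAK : A ⊔ K = ⊤ := top_le_iff.mp (hXtop ▸ inf_le_left)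
      have hBK : B ⊔ K = ⊤ := top_le_iff.mp (hXtop ▸ inf_le_right)
      have hsol : Group.IsSolvable G := by
        rw [Group.isSolvable_def]
        exact ⟨2, S0572.result A B hAB⟩
      have hKc : 1 < Nat.card K := (one_lt_card_iff_ne_bot K).mpr hKne
      obtain ⟨p, hp, hpK⟩ := Nat.exists_prime_and_dvd hKc.ne'
      have : Fact p.Prime := ⟨hp⟩
      have hAs : Group.IsSolvable A := inferInstance
      have hBs : Group.IsSolvable B := inferInstance
      have hKs : Group.IsSolvable K := inferInstance
      obtain ⟨P, hP⟩ := exists_isPiHallOf (M := K) hKs {p}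
      obtain ⟨Y, hY⟩ := exists_isPiHallOf (M := K) hKs {p}ᶜ
      obtain ⟨Q, hQ⟩ := exists_isPiHallOf (M := A) hAs {p}ᶜ
      obtain ⟨R, hR⟩ := exists_isPiHallOf (M := B) hBs {p}ᶜ
      have hPn := normal_hall_of_abelian hKab hP
      have hYn := normal_hall_of_abelian hKab hY
      have hP' := isPiHallOf_iff.mp hP
      have hY' := isPiHallOf_iff.mp hY
      have hQ' := isPiHallOf_iff.mp hQ
      have hR' := isPiHallOf_iff.mp hR
      have hPpg : IsPGroup p P := by
        obtain ⟨k, hk⟩ : ∃ k : ℕ, Nat.card P = p ^ k :=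
          ⟨_, Nat.eq_prime_pow_of_unique_prime_dvd Nat.card_pos.ne'
            (fun {d} hd hdd => hP'.2.1 d hd hdd)⟩
        exact IsPGroup.of_card hk
      have hPne : P ≠ ⊥ := by
        rintro rfl
        have h1 := hP'.2.2 p hp (by rwa [relIndex_bot_left])
        exact h1 rfl
      -- `C_P(Q) = 1`
      have hCPQ : P ⊓ centralizer (Q : Set G) = ⊥ := by
        by_contra hne
        set D := P ⊓ centralizer (Q : Set G) with hD
        obtain ⟨S, hS⟩ := Lib.LocBase.exists_isSyl p A
        have hSD : S ≤ normalizer (D : Set G) := by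
          rw [hD]
          apply Lib.LocBase.le_normalizer_inf le_normalizer_of_normal
          apply Lib.LocBase.le_normalizer_centralizer
          refine le_trans ?_ (centralizer_le_normalizer _)
          intro s hs
          rw [mem_centralizer_iff]
          exact fun q hq => hA q (hQ'.1 hq) s (hS.le hs)
        have hDpg : IsPGroup p D := hPpg.to_le inf_le_left
        have h6 : D ⊓ centralizer ((D ⊔ S : Subgroup G) : Set G) ≠ ⊥ := by
          apply Lib.Supersolvable.inf_centralizer_ne_bot (p := p)
          · exact Lib.LocBase.isPGroup_sup hDpg hS.pgroup hSD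
          · exact le_sup_left
          · exact sup_le le_normalizer hSD
          · exact hne
        apply h6
        rw [eq_bot_iff]
        intro y hy
        obtain ⟨hyD, hyC⟩ := mem_inf.mp hy
        have hyK : y ∈ K := hP'.1 (mem_inf.mp hyD).1
        rw [mem_bot]
        apply hZA y (mem_sup_right hyK) _ (hcent hKab hyK)
        -- `A = Q S`
        have hAQS : A ≤ Q ⊔ S := by
          have h7 : (Q ⊔ S).relIndex A = 1 := by
            by_contra h
            obtain ⟨r, hr', hrd⟩ := Nat.exists_prime_and_dvd h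
            have h8 : (Q ⊔ S).relIndex A ∣ Q.relIndex A :=
              relIndex_dvd_of_le_left A le_sup_left
            have h9 := hQ'.2.2 r hr' (hrd.trans h8)
            rw [compl_compl, Set.mem_singleton_iff] at h9
            subst h9
            apply hS.ndvd
            rw [← relIndex_mul_relIndex S (Q ⊔ S) A le_sup_right (sup_le hQ'.1 hS.le)]
            exact hrd.mul_left _
          exact relIndex_eq_one.mp h7
        rw [mem_centralizer_iff]
        have h7 : Q ⊔ S ≤ centralizer {y} := by
          refine sup_le ?_ ?_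
          · intro k hk
            rw [mem_centralizer_singleton_iff]
            exact mem_centralizer_iff.mp (mem_inf.mp hyD).2 k hk
          · intro s hs'
            rw [mem_centralizer_singleton_iff]
            exact mem_centralizer_iff.mp hyC s (mem_sup_right hs')
        intro c hc
        exact mem_centralizer_singleton_iff.mp (h7 (hAQS hc))
      -- Hall subgroups of `G`
      have hprod : ∀ {A : Subgroup G}, A ⊔ K = ⊤ → ∀ g : G, ∃ a ∈ A, ∃ b ∈ K, g = a * b := by
        intro A hAK g
        have hg : g ∈ A ⊔ K := by rw [hAK]; trivial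
        obtain ⟨a, ha, b, hb, h⟩ := mem_sup_of_normal_right.mp hg
        exact ⟨a, ha, b, hb, h.symm⟩
      have hHall : ∀ {A Q : Subgroup G}, (∀ x ∈ A, ∀ y ∈ A, x * y = y * x) → A ⊔ K = ⊤ →
          Cfsg.IsPiHallOf {p}ᶜ Q A → Cfsg.IsPiHall {p}ᶜ (Q ⊔ Y) := by
        intro A Q hA hAK hQ
        have hQ' := isPiHallOf_iff.mp hQ
        rw [isPiHall_iff]
        refine ⟨?_, ?_⟩
        · have h1 := Lib.SubgroupTools.card_sup_mul_card_inf (N := Y) (H := Q)
            le_normalizer_of_normal
          rw [sup_comm]
          exact (hY'.2.1.mul hQ'.2.1).of_dvd (Dvd.intro _ h1)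
        · apply index_factor (hprod hAK) hQ _ hY le_normalizer_of_normal le_sup_left le_sup_right
          refine le_trans ?_ (centralizer_le_normalizer _)
          intro a ha
          rw [mem_centralizer_iff]
          exact fun q hq => hA q (hQ'.1 hq) a ha
      have hT1 := hHall hA hAK hQ
      have hT2 := hHall hB hBK hR
      have hnorm : ∀ {A Q : Subgroup G}, (∀ x ∈ A, ∀ y ∈ A, x * y = y * x) → Q ≤ A →
          A ≤ normalizer ((Q ⊔ Y : Subgroup G) : Set G) := by
        intro A Q hA hQ
        apply Lib.LocBase.le_normalizer_sup _ le_normalizer_of_normal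
        refine le_trans ?_ (centralizer_le_normalizer _)
        intro a ha
        rw [mem_centralizer_iff]
        exact fun q hq => hA q (hQ hq) a ha
      have hA2 := hnorm hA hQ'.1
      have hB2 := hnorm hB hR'.1
      obtain ⟨x, hx⟩ := exists_conj_eq (G := G) hT1 hT2
      obtain ⟨b, hb, a, ha, rfl⟩ := hBA x
      have hT12 : R ⊔ Y = Q ⊔ Y := by
        rw [map_mul, mul_smul,
          Lib.SubgroupTools.mem_normalizer_iff_conj_smul.mp (hA2 ha)] at hx
        have h1 := Lib.SubgroupTools.mem_normalizer_iff_conj_smul.mp (hB2 (B.inv_mem hb))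
        rw [← hx, ← mul_smul, ← map_mul, inv_mul_cancel, map_one, one_smul] at h1
        rw [← hx]; exact h1.symm
      have hTn : (Q ⊔ Y).Normal := by
        rw [← normalizer_eq_top_iff, eq_top_iff]
        intro g _
        obtain ⟨a, ha, b, hb, rfl⟩ := hAB g
        exact mul_mem (hA2 ha) (hT12 ▸ hB2 hb)
      have hTP : P ⊓ (Q ⊔ Y) = ⊥ := by
        apply Lib.SubgroupTools.inf_eq_bot_of_coprime'
        exact hP'.2.1.coprime (isPiHall_iff.mp hT1).1
      have h1 : P ≤ centralizer ((Q ⊔ Y : Subgroup G) : Set G) :=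
        Lib.NilpotentHall.le_centralizer_of_normalize le_normalizer_of_normal
          le_normalizer_of_normal hTP
      have h2 : P ≤ P ⊓ centralizer (Q : Set G) :=
        le_inf le_rfl (h1.trans (centralizer_le (fun q hq => mem_sup_left hq)))
      rw [hCPQ, le_bot_iff] at h2
      exact hPne h2

end Cfsg.Agent.Lib.AbelProd
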