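import Mathlib
import Cfsg.Prelude.Def_Transfer
import Cfsg.Agent.Lib.PNilp
import Cfsg.Agent.Lib.GroupUtil
import Cfsg.Agent.Lib.FusionControl
import Cfsg.Agent.Lib.TransferApps
import Cfsg.Agent.Lib.SchurZassenhaus
import Cfsg.Agent.Lib.CoprimeAction

/-!
# Splitting over `O^p(G)` when its Sylow `p`-subgroups are abelian (helper2)
-/

set_option autoImplicit false

open Subgroup
open scoped Pointwise commutatorElement

namespace Cfsg.Agent.Lib.AbelianResidual

open Cfsg.Agent.Lib.PNilp Cfsg.Agent.Lib.GroupUtil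

variable {G : Type*} [Group G]

theorem centralizer_normalizer_eq_bot [Finite G] {p : ℕ} [Fact p.Prime] (T : Sylow p G)
    (hT : IsMulCommutative T) (h : pResidual p G = ⊤) :
    (T : Subgroup G) ⊓ centralizer (normalizer (T : Set G) : Set G) = ⊥ := by
  have h1 := FusionControl.abelian_inf_pResidual_eq T hT
  rw [h, inf_top_eq] at h1
  have h2 := (TransferApps.abelian_sylow_decomp T hT).2
  rw [← h1] at h2
  rw [eq_bot_iff, ← h2]
  exact le_inf le_rfl inf_le_left

/-- If the Sylow `p`-subgroups of `O^p(G)` are abelian then `G` splits over `O^p(G)`. -/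
theorem splits [Finite G] {p : ℕ} [hp : Fact p.Prime]
    (h : ∀ Q : Sylow p (pResidual p G), IsMulCommutative Q) :
    ∃ K : Subgroup G, K.IsComplement' (pResidual p G) := by
  set N := pResidual p G with hN
  have hNn : N.Normal := inferInstance
  obtain ⟨Qs⟩ : Nonempty (Sylow p N) := inferInstance
  have hQab := h Qs
  set Q := (Qs : Subgroup N).map N.subtype with hQ
  have hQN : Q ≤ N := map_subtype_le _
  have hQp : IsPGroup p Q := Qs.2.map N.subtype
  have hQcomm : ∀ a ∈ Q, ∀ b ∈ Q, a * b = b * a := by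
    rintro _ ⟨a, ha, rfl⟩ _ ⟨b, hb, rfl⟩
    have h1 : a * b = b * a := isMulCommutative_iff_of_setLike.mp hQab a ha b hb
    exact congrArg (N.subtype) h1
  set M := normalizer (Q : Set G) with hM
  have hfrat : M ⊔ N = ⊤ := Sylow.normalizer_sup_eq_top Qs
  set K0 := N ⊓ M with hK0
  have hQK0 : Q ≤ K0 := le_inf hQN le_normalizer
  -- coprimality
  have hQrel : ¬ p ∣ Q.relIndex N := by
    have h1 : Q.relIndex N = (Qs : Subgroup N).index := by
      rw [relIndex, subgroupOf, hQ, comap_map_eq_self_of_injective N.subtype_injective]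
    rw [h1]
    exact Qs.not_dvd_index
  have hQrel0 : ¬ p ∣ Q.relIndex K0 := fun hd =>
    hQrel (hd.trans (by
      have h1 := Subgroup.relIndex_mul_relIndex Q K0 N hQK0 inf_le_left
      exact Dvd.intro _ h1))
  have hcop : (Nat.card (Q ⊓ K0 : Subgroup G)).Coprime (Q.relIndex K0) := by
    rw [inf_eq_left.mpr hQK0]
    obtain ⟨k, hk⟩ := IsPGroup.iff_card.mp hQp
    rw [hk]
    exact Nat.Coprime.pow_left _ ((Nat.Prime.coprime_iff_not_dvd hp.out).mpr hQrel0)
  obtain ⟨L, hLK0, hLcard, hQL, hQLsup⟩ := CoprimeAction.exists_complement_rel (N := Q) (S := K0)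
    inf_le_right hcop
  rw [inf_eq_left.mpr hQK0] at hQLsup
  have hLM : L ≤ M := hLK0.trans inf_le_right
  have hLcop : (Nat.card Q).Coprime (Nat.card L) := by
    rw [hLcard]
    rwa [inf_eq_left.mpr hQK0] at hcop
  have hLp : ¬ p ∣ Nat.card L := by rw [hLcard]; exact hQrel0
  -- M = Q N_M(L)
  set R := M ⊓ normalizer (L : Set G) with hR
  have hMR : M ≤ Q ⊔ R := by
    intro m hm
    have hmK0 : ∀ x ∈ K0, m * x * m⁻¹ ∈ K0 := fun x hx =>
      ⟨hNn.conj_mem x hx.1 m, M.mul_mem (M.mul_mem hm hx.2) (M.inv_mem hm)⟩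
    have h2 : (MulAut.conj m • L : Subgroup G) ≤ K0 := by
      intro x hx
      rw [mem_conj_smul] at hx
      have := hmK0 _ (hLK0 hx)
      have e : m * (m⁻¹ * x * m) * m⁻¹ = x := by group
      rwa [e] at this
    have h3 : Q ⊔ (MulAut.conj m • L : Subgroup G) = K0 := by
      apply Subgroup.eq_of_le_of_card_ge (sup_le hQK0 h2)
      have h4 : Nat.card (Q ⊔ (MulAut.conj m • L : Subgroup G) : Subgroup G) = Nat.card Q * Nat.card L := by
        rw [SubgroupTools.card_sup_of_coprime (h2.trans inf_le_right) (by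
          rw [card_conj_smul]; exact hLcop), card_conj_smul]
      rw [h4, hLcard]
      exact (card_mul_relIndex hQK0).ge
    have hsolv : Group.IsSolvable Q := by
      have := hQp.isNilpotent
      infer_instance
    obtain ⟨a, ha, h4⟩ := SchurZassenhaus.conj_of_solvable (N := Q) (H := L) (K := MulAut.conj m • L) hLM
      (h2.trans inf_le_right) (by rw [hQLsup, h3]) hLcop (by rw [card_conj_smul]; exact hLcop) (Or.inl hsolv)
    have h5 : a⁻¹ * m ∈ R := by
      refine ⟨M.mul_mem (M.inv_mem (le_normalizer ha)) hm, ?_⟩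
      show a⁻¹ * m ∈ normalizer (L : Set G)
      rw [mem_normalizer_iff_smul, map_mul, mul_smul, ← h4, ← mul_smul, ← map_mul, inv_mul_cancel, map_one, one_smul]
    have e : m = a * (a⁻¹ * m) := by group
    rw [e]
    exact mul_mem (mem_sup_left ha) (mem_sup_right h5)
  -- K : Sylow p-subgroup of R
  obtain ⟨Ks⟩ : Nonempty (Sylow p R) := inferInstance
  set K := (Ks : Subgroup R).map R.subtype with hK
  have hKR : K ≤ R := map_subtype_le _
  have hKp : IsPGroup p K := Ks.2.map R.subtype
  refine ⟨K, ?_⟩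
  have hsup : K ⊔ N = ⊤ := by
    obtain ⟨k, hk⟩ := pResidual_index (G := G) p
    have h1 : (N.subgroupOf R).index ∣ p ^ k := by
      rw [← hk]
      exact Subgroup.relIndex_dvd_index_of_normal N R
    obtain ⟨j, -, hj⟩ := (Nat.dvd_prime_pow hp.out).mp h1
    have h2 := sylow_sup_of_index_pow Ks (N.subgroupOf R) hj
    have h3 : R ≤ K ⊔ N := by
      have h4 := congrArg (Subgroup.map R.subtype) h2
      rw [Subgroup.map_sup, ← MonoidHom.range_eq_map, Subgroup.range_subtype] at h4
      rw [← h4]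
      apply sup_le_sup le_rfl
      rw [Subgroup.subgroupOf_map_subtype]
      exact inf_le_left
    rw [eq_top_iff, ← hfrat]
    apply sup_le _ le_sup_right
    exact hMR.trans (sup_le (hQN.trans le_sup_right) h3)
  have hinf : K ⊓ N = ⊥ := by
    rw [eq_bot_iff]
    rintro x ⟨hxK, hxN⟩
    have hxR := hKR hxK
    have hxK0 : x ∈ K0 := ⟨hxN, hxR.1⟩
    rw [← hQLsup] at hxK0
    obtain ⟨q, hq, l, hl, rfl⟩ := (mem_sup_of_le_normalizer' hLM).mp hxK0
    -- q normalizes L
    have hqL : q ∈ normalizer (L : Set G) := by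
      have h1 : (q * l) * l⁻¹ ∈ normalizer (L : Set G) := mul_mem hxR.2 (le_normalizer (inv_mem hl))
      rwa [mul_inv_cancel_right] at h1
    have hqc : ∀ y ∈ L, q * y = y * q := by
      intro y hy
      have h1 : q * y * q⁻¹ * y⁻¹ ∈ Q ⊓ L := by
        constructor
        · have h2 : y * q⁻¹ * y⁻¹ ∈ Q := ((mem_normalizer_iff.mp (hLM hy)) _).mp (inv_mem hq)
          have e : q * y * q⁻¹ * y⁻¹ = q * (y * q⁻¹ * y⁻¹) := by group
          rw [e]
          exact mul_mem hq h2
        · exact L.mul_mem (((mem_normalizer_iff.mp hqL) y).mp hy) (L.inv_mem hy)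
      rw [hQL, mem_bot] at h1
      calc q * y = (q * y * q⁻¹ * y⁻¹) * (y * q) := by group
        _ = y * q := by rw [h1, one_mul]
    have hq1 : q = 1 := by
      have h1 := centralizer_normalizer_eq_bot Qs hQab (pResidual_pResidual p)
      obtain ⟨q', hq', rfl⟩ := hq
      have h2 : q' ∈ (Qs : Subgroup N) ⊓ centralizer (normalizer (Qs : Set N) : Set N) := by
        refine ⟨hq', ?_⟩
        show q' ∈ centralizer (normalizer (Qs : Set N) : Set N)
        rw [mem_centralizer_iff]
        rintro ⟨u, huN⟩ hu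
        apply Subtype.ext
        have huM : u ∈ M := by
          rw [hM, hQ]
          apply mem_normalizer_of_conj_le
          rintro _ ⟨v, hv, rfl⟩
          have h3 := ((mem_normalizer_iff.mp hu) v).mp hv
          exact ⟨_, h3, rfl⟩
        have huK0 : u ∈ K0 := ⟨huN, huM⟩
        rw [← hQLsup] at huK0
        obtain ⟨a, ha, b, hb, rfl⟩ := (mem_sup_of_le_normalizer' hLM).mp huK0
        have h4 := hqc b hb
        have h5 := hQcomm _ (mem_map_of_mem N.subtype hq') a ha
        show a * b * (q' : G) = q' * (a * b)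
        calc a * b * (q' : G) = a * (b * N.subtype q') := by rw [mul_assoc]; rfl
          _ = a * (N.subtype q' * b) := by rw [h4]
          _ = (a * N.subtype q') * b := by group
          _ = (N.subtype q' * a) * b := by rw [← h5]
          _ = q' * (a * b) := by rw [mul_assoc]; rfl
      rw [h1, mem_bot] at h2
      rw [h2]; rfl
    rw [hq1, one_mul] at hxK ⊢
    obtain ⟨k, hk⟩ := (IsPGroup.iff_orderOf.mp hKp) ⟨l, hxK⟩
    rw [Subgroup.orderOf_mk] at hk
    have h6 : orderOf l ∣ Nat.card L := by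
      have := orderOf_dvd_natCard (⟨l, hl⟩ : L)
      rwa [Subgroup.orderOf_mk] at this
    have h7 : k = 0 := by
      by_contra hk0
      exact hLp ((dvd_pow_self p hk0).trans (hk ▸ h6))
    rw [h7, pow_zero, orderOf_eq_one_iff] at hk
    exact hk
  apply Subgroup.isComplement'_of_disjoint_and_mul_eq_univ
  · rw [disjoint_iff]; exact hinf
  · rw [← Subgroup.mul_normal, hsup]; rfl

end Cfsg.Agent.Lib.AbelianResidual
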