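import Mathlib
import Cfsg.Prelude.Def_Sporadic_a

/-!
Abstract binary Golay codes: a 12-dimensional self-orthogonal subspace of `(ZMod 2)^24` with minimum
weight at least 8.  The coset counting argument `1 + 24 + 276 + 2024 + 10626/6 = 4096`.
-/

set_option autoImplicit false

namespace Cfsg.Agent.Lib.AbstractGolay

open Finset

/-- words of length 24 -/
abbrev V : Type := Fin 24 → ZMod 2

/-- support as a finset -/
def supp (w : V) : Finset (Fin 24) := Finset.univ.filter fun i => w i ≠ 0

/-- indicator word of a finset -/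
def ind (s : Finset (Fin 24)) : V := fun i => if i ∈ s then 1 else 0

theorem hammingNorm_eq (w : V) : hammingNorm w = (supp w).card := rfl

theorem zmod2_cases (a : ZMod 2) : a = 0 ∨ a = 1 := by
  revert a; decide

theorem mem_supp (w : V) (i : Fin 24) : i ∈ supp w ↔ w i ≠ 0 := by simp [supp]

theorem mem_supp' (w : V) (i : Fin 24) : i ∈ supp w ↔ w i = 1 := by
  rw [mem_supp]
  rcases zmod2_cases (w i) with h | h <;> simp [h]

theorem supp_ind (s : Finset (Fin 24)) : supp (ind s) = s := by
  ext i
  rw [mem_supp', ind]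
  by_cases h : i ∈ s <;> simp [h]

theorem ind_supp (w : V) : ind (supp w) = w := by
  funext i
  simp only [ind, mem_supp']
  rcases zmod2_cases (w i) with h | h <;> simp [h]

theorem supp_inj {u v : V} (h : supp u = supp v) : u = v := by
  rw [← ind_supp u, ← ind_supp v, h]

theorem supp_add (u v : V) : supp (u + v) = symmDiff (supp u) (supp v) := by
  ext i
  rw [Finset.mem_symmDiff, mem_supp', mem_supp', mem_supp', Pi.add_apply]
  rcases zmod2_cases (u i) with h | h <;> rcases zmod2_cases (v i) with h' | h' <;> rw [h, h'] <;> decide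

theorem sub_eq_add' (u v : V) : u - v = u + v := by
  funext i
  simp only [Pi.sub_apply, Pi.add_apply]
  rcases zmod2_cases (u i) with h | h <;> rcases zmod2_cases (v i) with h' | h' <;> rw [h, h'] <;> decide

theorem card_symmDiff_add {α : Type*} [DecidableEq α] (s t : Finset α) :
    (symmDiff s t).card + 2 * (s ∩ t).card = s.card + t.card := by
  have h1 : (symmDiff s t).card = (s \ t).card + (t \ s).card := by
    rw [symmDiff_def, Finset.sup_eq_union, Finset.card_union_of_disjoint]
    exact disjoint_sdiff_sdiff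
  have h2 := Finset.card_sdiff_add_card_inter s t
  have h3 := Finset.card_sdiff_add_card_inter t s
  rw [Finset.inter_comm t s] at h3
  omega

theorem norm_add (u v : V) :
    hammingNorm (u + v) + 2 * (supp u ∩ supp v).card = hammingNorm u + hammingNorm v := by
  rw [hammingNorm_eq, hammingNorm_eq, hammingNorm_eq, supp_add, card_symmDiff_add]

theorem norm_sub (u v : V) :
    hammingNorm (u - v) + 2 * (supp u ∩ supp v).card = hammingNorm u + hammingNorm v := by
  rw [sub_eq_add', norm_add]

theorem dot_eq (u v : V) : ∑ i, u i * v i = ((supp u ∩ supp v).card : ZMod 2) := by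
  rw [Finset.card_eq_sum_ones, Nat.cast_sum, ← Finset.sum_filter_add_sum_filter_not Finset.univ (fun i => i ∈ supp u ∩ supp v)]
  have h1 : ∑ i ∈ Finset.univ.filter (fun i => i ∉ supp u ∩ supp v), u i * v i = 0 := by
    apply Finset.sum_eq_zero
    intro i hi
    simp only [Finset.mem_filter, Finset.mem_univ, true_and, Finset.mem_inter, mem_supp] at hi
    rcases zmod2_cases (u i) with h | h <;> rcases zmod2_cases (v i) with h' | h' <;> simp_all
  rw [h1, add_zero]
  have h2 : Finset.univ.filter (fun i => i ∈ supp u ∩ supp v) = supp u ∩ supp v := by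
    ext i; simp
  rw [h2]
  apply Finset.sum_congr rfl
  intro i hi
  rw [Finset.mem_inter, mem_supp', mem_supp'] at hi
  rw [hi.1, hi.2]; simp

/-- words of weight `k` are counted by binomial coefficients -/
theorem card_weight (k : ℕ) : (Finset.univ.filter fun w : V => hammingNorm w = k).card = Nat.choose 24 k := by
  have h : Nat.choose 24 k = ((Finset.univ : Finset (Fin 24)).powersetCard k).card := by
    rw [Finset.card_powersetCard]; rfl
  rw [h]
  apply Finset.card_bij (fun w _ => supp w)
  · intro w hw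
    simp only [Finset.mem_filter, Finset.mem_univ, true_and] at hw
    rw [Finset.mem_powersetCard]
    exact ⟨Finset.subset_univ _, by rw [← hammingNorm_eq, hw]⟩
  · intro u _ v _ h
    exact supp_inj h
  · intro s hs
    rw [Finset.mem_powersetCard] at hs
    refine ⟨ind s, ?_, supp_ind s⟩
    simp only [Finset.mem_filter, Finset.mem_univ, true_and]
    rw [hammingNorm_eq, supp_ind, hs.2]

section code

variable (C : Submodule (ZMod 2) V)

theorem eq_of_small (hmin : ∀ w ∈ C, w ≠ 0 → 8 ≤ hammingNorm w) {u v : V} (h : u - v ∈ C)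
    (hs : hammingNorm u + hammingNorm v < 8) : u = v := by
  by_contra hne
  have h1 := hmin _ h (sub_ne_zero.2 hne)
  have h2 := norm_sub u v
  omega

theorem disjoint_of_four (hmin : ∀ w ∈ C, w ≠ 0 → 8 ≤ hammingNorm w) {u v : V} (h : u - v ∈ C)
    (hu : hammingNorm u = 4) (hv : hammingNorm v = 4) (hne : u ≠ v) : Disjoint (supp u) (supp v) := by
  have h1 := hmin _ h (sub_ne_zero.2 hne)
  have h2 := norm_sub u v
  rw [Finset.disjoint_iff_inter_eq_empty, ← Finset.card_eq_zero]
  omega

open Classical in
/-- the words of weight 4 in the coset of `w` -/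
noncomputable def fib (w : V) : Finset V := Finset.univ.filter fun u => u - w ∈ C ∧ hammingNorm u = 4

theorem mem_fib (w u : V) : u ∈ fib C w ↔ u - w ∈ C ∧ hammingNorm u = 4 := by
  simp [fib]

theorem fib_pairwise (hmin : ∀ w ∈ C, w ≠ 0 → 8 ≤ hammingNorm w) (w : V) :
    (fib C w : Set V).PairwiseDisjoint supp := by
  intro u hu v hv hne
  rw [Finset.mem_coe, mem_fib] at hu hv
  apply disjoint_of_four C hmin _ hu.2 hv.2 hne
  have : u - v = (u - w) - (v - w) := by abel
  rw [this]
  exact C.sub_mem hu.1 hv.1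

theorem card_biUnion_fib (hmin : ∀ w ∈ C, w ≠ 0 → 8 ≤ hammingNorm w) (w : V) :
    ((fib C w).biUnion supp).card = 4 * (fib C w).card := by
  rw [Finset.card_biUnion (fib_pairwise C hmin w), Finset.sum_const_nat (m := 4)]
  · ring
  · intro u hu
    rw [mem_fib] at hu
    exact hu.2

theorem fib_le (hmin : ∀ w ∈ C, w ≠ 0 → 8 ≤ hammingNorm w) (w : V) : (fib C w).card ≤ 6 := by
  have h1 := card_biUnion_fib C hmin w
  have h2 : ((fib C w).biUnion supp).card ≤ 24 := by
    simpa using Finset.card_le_univ ((fib C w).biUnion supp)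
  omega

theorem card_quot (hdim : Module.finrank (ZMod 2) C = 12) : Nat.card (V ⧸ C) = 4096 := by
  have h1 : Module.finrank (ZMod 2) V = 24 := by simp
  have h2 := Submodule.finrank_quotient_add_finrank C
  have h3 : Module.finrank (ZMod 2) (V ⧸ C) = 12 := by omega
  rw [Module.natCard_eq_pow_finrank (K := ZMod 2), h3]
  simp

/-- The perfect counting: a coset without a word of weight at most 3 has exactly six words of weight 4. -/
theorem fib_card (hdim : Module.finrank (ZMod 2) C = 12) (hmin : ∀ w ∈ C, w ≠ 0 → 8 ≤ hammingNorm w)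
    (w : V) (hw : ∀ u, u - w ∈ C → 4 ≤ hammingNorm u) : (fib C w).card = 6 := by
  classical
  have : Fintype (V ⧸ C) := Fintype.ofFinite _
  let π : V → V ⧸ C := fun v => Submodule.Quotient.mk v
  have hπ : ∀ u v, π u = π v ↔ u - v ∈ C := fun u v => Submodule.Quotient.eq C
  let A3 : Finset V := Finset.univ.filter fun v => hammingNorm v ≤ 3
  let A4 : Finset V := Finset.univ.filter fun v => hammingNorm v = 4
  have hA3 : A3.card = 2325 := by
    have : A3 = (Finset.univ.filter fun v : V => hammingNorm v = 0) ∪ (Finset.univ.filter fun v : V => hammingNorm v = 1)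
        ∪ (Finset.univ.filter fun v : V => hammingNorm v = 2) ∪ (Finset.univ.filter fun v : V => hammingNorm v = 3) := by
      ext v
      simp only [A3, Finset.mem_filter, Finset.mem_univ, true_and, Finset.mem_union]
      omega
    rw [this, Finset.card_union_of_disjoint, Finset.card_union_of_disjoint, Finset.card_union_of_disjoint,
      card_weight, card_weight, card_weight, card_weight]
    · decide
    all_goals
      rw [Finset.disjoint_left]
      intro v hv hv'
      simp only [Finset.mem_filter, Finset.mem_univ, true_and, Finset.mem_union] at hv hv'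
      omega
  have hA4 : A4.card = 10626 := by
    have := card_weight 4
    rw [this]; decide
  let Q3 : Finset (V ⧸ C) := A3.image π
  have hQ3 : Q3.card = 2325 := by
    rw [Finset.card_image_of_injOn, hA3]
    intro u hu v hv h
    simp only [A3, Finset.coe_filter, Finset.mem_univ, true_and, Set.mem_ofPred_eq] at hu hv
    exact eq_of_small C hmin ((hπ u v).1 h) (by omega)
  let Q4 : Finset (V ⧸ C) := Finset.univ \ Q3
  have hQ4 : Q4.card = 1771 := by
    have h1 : Fintype.card (V ⧸ C) = 4096 := by
      rw [← Nat.card_eq_fintype_card, card_quot C hdim]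
    rw [Finset.card_sdiff_of_subset (Finset.subset_univ _), Finset.card_univ, h1, hQ3]
  have hmaps : ∀ v ∈ A4, π v ∈ Q4 := by
    intro v hv
    simp only [Q4, Finset.mem_sdiff, Finset.mem_univ, true_and]
    intro h
    obtain ⟨u, hu, huv⟩ := Finset.mem_image.1 h
    simp only [A3, A4, Finset.mem_filter, Finset.mem_univ, true_and] at hu hv
    have := eq_of_small C hmin ((hπ u v).1 huv) (by omega)
    rw [this] at hu
    omega
  have hfibc : ∀ v : V, (A4.filter fun u => π u = π v) = fib C v := by
    intro v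
    ext u
    simp only [A4, Finset.mem_filter, Finset.mem_univ, true_and, mem_fib, hπ]
    exact and_comm
  have hsum : ∑ q ∈ Q4, (A4.filter fun u => π u = q).card = 10626 := by
    have h := Finset.card_eq_sum_card_fiberwise (f := π) (s := A4) (t := Q4) hmaps
    rw [hA4] at h
    exact h.symm
  have hle : ∀ q ∈ Q4, (A4.filter fun u => π u = q).card ≤ 6 := by
    intro q _
    obtain ⟨v, rfl⟩ := Submodule.Quotient.mk_surjective C q
    change (A4.filter fun u => π u = π v).card ≤ 6
    rw [hfibc]
    exact fib_le C hmin v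
  have heq : ∀ q ∈ Q4, (A4.filter fun u => π u = q).card = 6 := by
    have h6 : ∑ q ∈ Q4, (A4.filter fun u => π u = q).card = ∑ q ∈ Q4, 6 := by
      rw [hsum, Finset.sum_const, hQ4, smul_eq_mul]
    exact (Finset.sum_eq_sum_iff_of_le hle).1 h6
  have hwQ : π w ∈ Q4 := by
    simp only [Q4, Finset.mem_sdiff, Finset.mem_univ, true_and]
    intro h
    obtain ⟨u, hu, huv⟩ := Finset.mem_image.1 h
    simp only [A3, Finset.mem_filter, Finset.mem_univ, true_and] at hu
    have := hw u ((hπ u w).1 huv)
    omega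
  have := heq _ hwQ
  rwa [hfibc] at this

theorem fib_cover (hdim : Module.finrank (ZMod 2) C = 12) (hmin : ∀ w ∈ C, w ≠ 0 → 8 ≤ hammingNorm w)
    (w : V) (hw : ∀ u, u - w ∈ C → 4 ≤ hammingNorm u) (p : Fin 24) : ∃ u ∈ fib C w, p ∈ supp u := by
  have h1 := card_biUnion_fib C hmin w
  rw [fib_card C hdim hmin w hw] at h1
  have h2 : (fib C w).biUnion supp = Finset.univ := by
    apply Finset.eq_univ_of_card
    rw [h1]; simp
  have h3 : p ∈ (fib C w).biUnion supp := by rw [h2]; exact Finset.mem_univ _
  simpa using h3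

/-- every five points lie in the support of a word of weight eight -/
theorem exists_octad (hdim : Module.finrank (ZMod 2) C = 12) (hmin : ∀ w ∈ C, w ≠ 0 → 8 ≤ hammingNorm w)
    (s : Finset (Fin 24)) (hs : s.card = 5) : ∃ c ∈ C, hammingNorm c = 8 ∧ s ⊆ supp c := by
  obtain ⟨p, hp⟩ : s.Nonempty := by rw [← Finset.card_pos]; omega
  have ht : (s.erase p).card = 4 := by rw [Finset.card_erase_of_mem hp, hs]
  have hw : ∀ u, u - ind (s.erase p) ∈ C → 4 ≤ hammingNorm u := by
    intro u hu
    by_contra hlt
    have h4 : hammingNorm (ind (s.erase p)) = 4 := by rw [hammingNorm_eq, supp_ind, ht]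
    have := eq_of_small C hmin hu (by omega)
    rw [this] at hlt
    omega
  obtain ⟨u, hu, hpu⟩ := fib_cover C hdim hmin (ind (s.erase p)) hw p
  rw [mem_fib] at hu
  have h4 : hammingNorm (ind (s.erase p)) = 4 := by rw [hammingNorm_eq, supp_ind, ht]
  have hne : u ≠ ind (s.erase p) := by
    intro h
    rw [h, supp_ind] at hpu
    simp at hpu
  have hd := disjoint_of_four C hmin hu.1 hu.2 h4 hne
  refine ⟨u - ind (s.erase p), hu.1, ?_, ?_⟩
  · have := norm_sub u (ind (s.erase p))
    rw [Finset.disjoint_iff_inter_eq_empty.1 hd] at this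
    simp only [Finset.card_empty] at this
    omega
  · rw [sub_eq_add', supp_add, supp_ind]
    rw [supp_ind] at hd
    intro i hi
    rw [Finset.mem_symmDiff]
    by_cases hip : i = p
    · subst hip
      left
      exact ⟨hpu, by simp⟩
    · right
      have : i ∈ s.erase p := Finset.mem_erase.2 ⟨hip, hi⟩
      exact ⟨this, fun h => Finset.disjoint_left.1 hd h this⟩

theorem steiner (hdim : Module.finrank (ZMod 2) C = 12) (hmin : ∀ w ∈ C, w ≠ 0 → 8 ≤ hammingNorm w) :
    Cfsg.IsSteinerSystem 5 8 (Cfsg.wordsOfWeight (C : Set V) 8) := by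
  refine ⟨fun b hb => hb.2, fun s hs => ?_⟩
  obtain ⟨c, hc, hc8, hsc⟩ := exists_octad C hdim hmin s hs
  refine ⟨supp c, ⟨⟨⟨c, hc, rfl⟩, hc8⟩, hsc⟩, ?_⟩
  rintro b ⟨⟨⟨c', hc', rfl⟩, hb8⟩, hsb⟩
  change supp c' = supp c
  change s ⊆ supp c' at hsb
  change (supp c').card = 8 at hb8
  have hb8' : hammingNorm c' = 8 := hb8
  by_contra hne
  have hne' : c' ≠ c := fun h => hne (by rw [h])
  have h1 := hmin _ (C.sub_mem hc' hc) (sub_ne_zero.2 hne')
  have h2 := norm_sub c' c
  have h3 : 5 ≤ (supp c' ∩ supp c).card := by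
    rw [← hs]
    exact Finset.card_le_card (Finset.subset_inter hsb hsc)
  omega

/-- reduction modulo the span of the octads -/
theorem reduce (hdim : Module.finrank (ZMod 2) C = 12) (hmin : ∀ w ∈ C, w ≠ 0 → 8 ≤ hammingNorm w) :
    ∀ (n : ℕ) (w : V), hammingNorm w ≤ n → w ∈ C →
      w ∈ Submodule.span (ZMod 2) {w : V | w ∈ C ∧ hammingNorm w = 8} := by
  intro n
  induction n using Nat.strong_induction_on with
  | _ n ih =>
    intro w hwn hwC
    by_cases h0 : w = 0
    · rw [h0]; exact Submodule.zero_mem _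
    have h8 := hmin w hwC h0
    obtain ⟨s, hsw, hs5⟩ := Finset.exists_subset_card_eq (s := supp w) (n := 5)
      (by rw [← hammingNorm_eq]; omega)
    obtain ⟨c, hc, hc8, hsc⟩ := exists_octad C hdim hmin s hs5
    have h1 := norm_sub w c
    have h2 : 5 ≤ (supp w ∩ supp c).card := by
      rw [← hs5]
      exact Finset.card_le_card (Finset.subset_inter hsw hsc)
    have h3 : w - c ∈ Submodule.span (ZMod 2) {w : V | w ∈ C ∧ hammingNorm w = 8} := by
      apply ih (hammingNorm (w - c)) (by omega) _ le_rfl (C.sub_mem hwC hc)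
    have h4 : w = (w - c) + c := by abel
    rw [h4]
    exact Submodule.add_mem _ h3 (Submodule.subset_span ⟨hc, hc8⟩)

theorem span_octads (hdim : Module.finrank (ZMod 2) C = 12) (hmin : ∀ w ∈ C, w ≠ 0 → 8 ≤ hammingNorm w) :
    Submodule.span (ZMod 2) {w : V | w ∈ C ∧ hammingNorm w = 8} = C := by
  apply le_antisymm
  · rw [Submodule.span_le]
    intro w hw
    exact hw.1
  · intro w hw
    exact reduce C hdim hmin _ w le_rfl hw

theorem doubly_even (hdim : Module.finrank (ZMod 2) C = 12)
    (horth : ∀ v ∈ C, ∀ w ∈ C, ∑ i, v i * w i = 0)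
    (hmin : ∀ w ∈ C, w ≠ 0 → 8 ≤ hammingNorm w) : ∀ w ∈ C, 4 ∣ hammingNorm w := by
  intro w hw
  have hw' : w ∈ Submodule.span (ZMod 2) {w : V | w ∈ C ∧ hammingNorm w = 8} := by
    rw [span_octads C hdim hmin]; exact hw
  have key : w ∈ C ∧ 4 ∣ hammingNorm w := by
    induction hw' using Submodule.span_induction with
    | mem x hx => exact ⟨hx.1, by rw [hx.2]; decide⟩
    | zero => exact ⟨C.zero_mem, by simp⟩
    | add x y _ _ hx hy =>
      have hxC := (hx (by
        rename_i h1 h2
        rw [← span_octads C hdim hmin]; exact h1)) 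
      have hyC := (hy (by
        rename_i h1 h2
        rw [← span_octads C hdim hmin]; exact h2))
      refine ⟨C.add_mem hxC.1 hyC.1, ?_⟩
      have h1 := norm_add x y
      have h2 := horth x hxC.1 y hyC.1
      rw [dot_eq, ZMod.natCast_eq_zero_iff] at h2
      obtain ⟨a, ha⟩ := hxC.2
      obtain ⟨b, hb⟩ := hyC.2
      obtain ⟨c, hc⟩ := h2
      omega
    | smul a x _ hx =>
      have hxC := (hx (by
        rename_i h1
        rw [← span_octads C hdim hmin]; exact h1))
      refine ⟨C.smul_mem a hxC.1, ?_⟩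
      rcases zmod2_cases a with h | h
      · rw [h]; simp
      · rw [h, one_smul]; exact hxC.2
  exact key.2

theorem exists_weight_eight (hdim : Module.finrank (ZMod 2) C = 12)
    (hmin : ∀ w ∈ C, w ≠ 0 → 8 ≤ hammingNorm w) : ∃ w ∈ C, hammingNorm w = 8 := by
  obtain ⟨c, hc, hc8, _⟩ := exists_octad C hdim hmin {0, 1, 2, 3, 4} (by decide)
  exact ⟨c, hc, hc8⟩

theorem cosets (hdim : Module.finrank (ZMod 2) C = 12)
    (hmin : ∀ w ∈ C, w ≠ 0 → 8 ≤ hammingNorm w) (w : V) :
    (∃ u : V, {u : V | u - w ∈ C ∧ hammingNorm u ≤ 4} = {u} ∧ hammingNorm u ≤ 3) ∨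
    ({u : V | u - w ∈ C ∧ hammingNorm u ≤ 4}.ncard = 6 ∧
      ∀ u ∈ {u : V | u - w ∈ C ∧ hammingNorm u ≤ 4}, hammingNorm u = 4 ∧
        ∀ u' ∈ {u : V | u - w ∈ C ∧ hammingNorm u ≤ 4}, u ≠ u' →
          Disjoint (Finset.univ.filter fun i => u i ≠ 0) (Finset.univ.filter fun i => u' i ≠ 0)) := by
  by_cases h : ∃ u, u - w ∈ C ∧ hammingNorm u ≤ 3
  · left
    obtain ⟨u, huC, hu3⟩ := h
    refine ⟨u, ?_, hu3⟩
    ext v
    simp only [Set.mem_ofPred_eq, Set.mem_singleton_iff]
    constructor
    · rintro ⟨hvC, hv4⟩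
      apply eq_of_small C hmin _ (by omega)
      have : v - u = (v - w) - (u - w) := by abel
      rw [this]
      exact C.sub_mem hvC huC
    · rintro rfl
      exact ⟨huC, by omega⟩
  · right
    push Not at h
    have hw : ∀ u, u - w ∈ C → 4 ≤ hammingNorm u := fun u hu => h u hu
    have hset : {u : V | u - w ∈ C ∧ hammingNorm u ≤ 4} = (fib C w : Set V) := by
      ext u
      simp only [Set.mem_ofPred_eq, Finset.mem_coe, mem_fib]
      constructor
      · rintro ⟨h1, h2⟩
        exact ⟨h1, le_antisymm h2 (hw u h1)⟩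
      · rintro ⟨h1, h2⟩
        exact ⟨h1, by omega⟩
    rw [hset]
    refine ⟨?_, ?_⟩
    · rw [Set.ncard_coe_finset, fib_card C hdim hmin w hw]
    · intro u hu
      refine ⟨((mem_fib C w u).1 hu).2, fun v hv hne => ?_⟩
      exact fib_pairwise C hmin w hu hv hne

end code

end Cfsg.Agent.Lib.AbstractGolay
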