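import Cfsg.Agent.Lib.HigmanAlmost
import Mathlib

/-!
Groups with an endomorphism of prime order with few fixed points (helper2).
-/

set_option autoImplicit false
open scoped commutatorElement DirectSum

namespace Cfsg.Agent.Lib.AlperinDer

open Cfsg.Agent.Lib.H72GrLie Cfsg.Agent.Lib.HigmanAlmost

/-! ### counting -/

theorem card_kerpow_le {W : Type*} [AddCommGroup W] [Finite W] (D : W →+ W) (m : ℕ) :
    Nat.card {w : W // D^[m] w = 0} ≤ (Nat.card {w : W // D w = 0}) ^ m := by
  classical
  induction m with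
  | zero =>
    rw [pow_zero]
    haveI : Subsingleton {w : W // D^[0] w = 0} := ⟨by
      rintro ⟨a, ha⟩ ⟨b, hb⟩
      apply Subtype.ext
      change a = b
      have ha' : a = 0 := ha
      have hb' : b = 0 := hb
      rw [ha', hb']⟩
    exact Finite.card_le_one_iff_subsingleton.2 inferInstance
  | succ m ih =>
    -- a choice of preimages
    have hs : ∀ v : W, ∃ w : W, (∃ u, D u = v) → D w = v := by
      intro v
      by_cases h : ∃ u, D u = v
      · obtain ⟨u, hu⟩ := h
        exact ⟨u, fun _ => hu⟩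
      · exact ⟨0, fun h' => absurd h' h⟩
    choose s hs using hs
    let F : {w : W // D^[m + 1] w = 0} → {w : W // D w = 0} × {w : W // D^[m] w = 0} := fun w =>
      (⟨w.1 - s (D w.1), by rw [map_sub, hs (D w.1) ⟨w.1, rfl⟩, sub_self]⟩,
        ⟨D w.1, by have := w.2; rwa [Function.iterate_succ_apply] at this⟩)
    have hF : Function.Injective F := by
      rintro ⟨a, ha⟩ ⟨b, hb⟩ hab
      have h1 : a - s (D a) = b - s (D b) := congrArg (fun z => (z.1 : W)) hab
      have h2 : D a = D b := congrArg (fun z => (z.2 : W)) hab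
      rw [h2] at h1
      exact Subtype.ext (sub_left_inj.1 h1)
    refine (Nat.card_le_card_of_injective F hF).trans ?_
    rw [Nat.card_prod, pow_succ, mul_comm]
    exact Nat.mul_le_mul_right _ ih

theorem card_le_of_pow {W : Type*} [AddCommGroup W] [Finite W] (D : W →+ W) (m : ℕ) (h : ∀ w, D^[m] w = 0) :
    Nat.card W ≤ (Nat.card {w : W // D w = 0}) ^ m := by
  refine le_trans ?_ (card_kerpow_le D m)
  exact Nat.card_le_card_of_injective (fun w : W => (⟨w, h w⟩ : {w : W // D^[m] w = 0}))
    (fun a b hab => congrArg Subtype.val hab)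

theorem card_elem_le {p : ℕ} (hp : p.Prime) {W : Type*} [AddCommGroup W] [Finite W] (hW : ∀ w : W, p • w = 0)
    (T : W →+ W) (hT : ∀ w, T^[p] w = w) : Nat.card W ≤ (Nat.card {w : W // T w = w}) ^ p := by
  let A : AddMonoid.End W := T
  let D : AddMonoid.End W := A - 1
  have hApow : ∀ (k : ℕ) (w : W), (A ^ k) w = T^[k] w := by
    intro k w
    rw [AddMonoid.End.coe_pow]; rfl
  have hDpow : ∀ (k : ℕ) (w : W), (D ^ k) w = (D : W →+ W)^[k] w := by
    intro k w
    rw [AddMonoid.End.coe_pow]
  have hAD : A = 1 + D := by rw [add_sub_cancel]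
  have hmulz : ∀ (B : AddMonoid.End W) (v : W), ((p : AddMonoid.End W) * B) v = 0 := by
    intro B v
    have : ((p : AddMonoid.End W) * B) = p • B := by rw [nsmul_eq_mul]
    rw [this]
    change p • B v = 0
    exact hW _
  have hDp : ∀ v : W, (D : W →+ W)^[p] v = 0 := by
    intro v
    obtain ⟨r, hr⟩ := (Commute.one_left D).exists_add_pow_prime_eq hp
    rw [← hAD, one_pow, mul_one, mul_assoc] at hr
    have h9 : (A ^ p) v = v := by rw [hApow, hT]
    rw [hr] at h9
    change v + (D ^ p) v + ((p : AddMonoid.End W) * (D * r)) v = v at h9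
    rw [hmulz, add_zero] at h9
    rw [← hDpow]
    exact add_eq_left.mp h9
  refine (card_le_of_pow (D : W →+ W) p hDp).trans ?_
  apply Nat.pow_le_pow_left
  apply le_of_eq
  apply Nat.card_congr
  refine Equiv.subtypeEquivRight ?_
  intro w
  change T w - w = 0 ↔ T w = w
  rw [sub_eq_zero]

theorem card_abelian_le {p : ℕ} (hp : p.Prime) {V : Type*} [AddCommGroup V] [Finite V] {k q : ℕ}
    (hk : ∀ v : V, p ^ k • v = 0) (T : V →+ V) (hT : ∀ w, T^[p] w = w) (hfix : Nat.card {w : V // T w = w} ≤ q) :
    Nat.card V ≤ (q ^ p) ^ k := by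
  let M : V →+ V := nsmulAddMonoidHom p
  have hM : ∀ (j : ℕ) (v : V), M^[j] v = p ^ j • v := by
    intro j
    induction j with
    | zero => intro v; rw [pow_zero, one_smul]; rfl
    | succ j ih =>
      intro v
      rw [Function.iterate_succ_apply, ih]
      change p ^ j • (p • v) = _
      rw [smul_smul, pow_succ]
  have h1 := card_le_of_pow M k (fun w => by rw [hM, hk])
  refine h1.trans ?_
  apply Nat.pow_le_pow_left
  -- the subgroup of elements of order p
  let W : AddSubgroup V := M.ker
  have hTW : ∀ w : W, T w.1 ∈ W := by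
    rintro ⟨w, hw⟩
    rw [AddMonoidHom.mem_ker] at hw ⊢
    change p • w = 0 at hw
    change p • (T w) = 0
    rw [← map_nsmul, hw, map_zero]
  let T' : W →+ W := (T.comp W.subtype).codRestrict W hTW
  have hT' : ∀ (j : ℕ) (w : W), ((T'^[j] w : W) : V) = T^[j] w := by
    intro j
    induction j with
    | zero => intro w; rfl
    | succ j ih => intro w; rw [Function.iterate_succ_apply, Function.iterate_succ_apply, ih]; rfl
  have h2 := card_elem_le hp (W := W) (fun w => Subtype.ext (by
    have := w.2
    rw [AddMonoidHom.mem_ker] at this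
    exact this)) T' (fun w => Subtype.ext (by rw [hT', hT]))
  have h3 : Nat.card {w : V // M w = 0} = Nat.card W := rfl
  rw [h3]
  refine h2.trans ?_
  apply Nat.pow_le_pow_left
  refine le_trans ?_ hfix
  exact Nat.card_le_card_of_injective (fun w : {w : W // T' w = w} => (⟨w.1.1, congrArg Subtype.val w.2⟩ : {w : V // T w = w}))
    (fun a b hab => Subtype.ext (Subtype.ext (congrArg (fun z => (z.1 : V)) hab)))

/-- fixed points on a quotient -/
theorem card_fix_quot_le {G : Type*} [Group G] [Finite G] (f : G →* G) (N : Subgroup G) [N.Normal]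
    (F : G ⧸ N →* G ⧸ N) (hF : ∀ g, F (QuotientGroup.mk g) = QuotientGroup.mk (f g)) :
    Nat.card {x : G ⧸ N // F x = x} ≤ Nat.card {g : G // f g = g} := by
  classical
  have hN : ∀ g ∈ N, f g ∈ N := by
    intro g hg
    have h1 := hF g
    rw [(QuotientGroup.eq_one_iff g).2 hg, map_one] at h1
    exact (QuotientGroup.eq_one_iff _).1 h1.symm
  let u : G → G := fun g => g⁻¹ * f g
  have hs : ∀ v : G, ∃ w : G, (∃ g, u g = v) → u w = v := by
    intro v
    by_cases h : ∃ g, u g = v
    · obtain ⟨g, hg⟩ := h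
      exact ⟨g, fun _ => hg⟩
    · exact ⟨1, fun h' => absurd h' h⟩
  choose s hs using hs
  have hmem : ∀ (x : {x : G ⧸ N // F x = x}) (y : N), u (x.1.out * y) ∈ N := by
    intro x y
    rw [← QuotientGroup.eq_one_iff]
    change ((x.1.out * y : G)⁻¹ * f (x.1.out * y) : G ⧸ N) = 1
    rw [← hF, QuotientGroup.mk_inv, inv_mul_eq_one]
    have h1 : ((x.1.out * y : G) : G ⧸ N) = x.1 := by
      rw [QuotientGroup.mk_mul, (QuotientGroup.eq_one_iff (y : G)).2 y.2, mul_one, QuotientGroup.out_eq']
    rw [h1]; exact x.2.symm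
  have hfix : ∀ g : G, f (g * (s (u g))⁻¹) = g * (s (u g))⁻¹ := by
    intro g
    have h1 : u (s (u g)) = u g := hs (u g) ⟨g, rfl⟩
    change (s (u g))⁻¹ * f (s (u g)) = g⁻¹ * f g at h1
    have h2 : f g = g * ((s (u g))⁻¹ * f (s (u g))) := by rw [h1]; group
    rw [map_mul, map_inv, h2]; group
  let Φ : {x : G ⧸ N // F x = x} × N → {g : G // f g = g} × N := fun a =>
    (⟨(a.1.1.out * a.2) * (s (u (a.1.1.out * a.2)))⁻¹, hfix _⟩, ⟨u (a.1.1.out * a.2), hmem a.1 a.2⟩)
  have hΦ : Function.Injective Φ := by
    rintro ⟨x, y⟩ ⟨x', y'⟩ h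
    have h1 : (x.1.out * y : G) * (s (u (x.1.out * y)))⁻¹ = (x'.1.out * y' : G) * (s (u (x'.1.out * y')))⁻¹ :=
      congrArg (fun z => (z.1 : G)) h
    have h2 : u (x.1.out * y) = u (x'.1.out * y') := congrArg (fun z => (z.2 : G)) h
    rw [h2] at h1
    have h3 : (x.1.out * y : G) = x'.1.out * y' := mul_right_cancel h1
    have h4 : ∀ (x : {x : G ⧸ N // F x = x}) (y : N), ((x.1.out * y : G) : G ⧸ N) = x.1 := by
      intro x y
      rw [QuotientGroup.mk_mul, (QuotientGroup.eq_one_iff (y : G)).2 y.2, mul_one, QuotientGroup.out_eq']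
    have h5 : x = x' := Subtype.ext (by rw [← h4 x y, h3, h4])
    subst h5
    have h6 : y = y' := Subtype.ext (mul_left_cancel h3)
    rw [h6]
  have h := Nat.card_le_card_of_injective Φ hΦ
  rw [Nat.card_prod, Nat.card_prod] at h
  exact Nat.le_of_mul_le_mul_right h Nat.card_pos

/-- An endomorphism of exponent `p` with at most `q` fixed points. -/
def Adm (p q : ℕ) (G : Type*) [Group G] : Prop :=
  ∃ f : G →* G, (∀ g, f^[p] g = g) ∧ Nat.card {g : G // f g = g} ≤ q

section

variable {G : Type*} [Group G]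

/-- the automorphism defined by an endomorphism of finite order -/
def toAut (f : G →* G) {p : ℕ} (hp : 0 < p) (hf : ∀ g, f^[p] g = g) : MulAut G where
  toFun := f
  invFun := f^[p - 1]
  left_inv g := by
    rw [← Function.iterate_succ_apply, Nat.succ_eq_add_one, Nat.sub_add_cancel hp, hf]
  right_inv g := by
    rw [← Function.iterate_succ_apply' (f := f), Nat.succ_eq_add_one, Nat.sub_add_cancel hp, hf]
  map_mul' := map_mul f

theorem toAut_apply (f : G →* G) {p : ℕ} (hp : 0 < p) (hf : ∀ g, f^[p] g = g) (g : G) : toAut f hp hf g = f g := rfl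

theorem toAut_pow_apply (f : G →* G) {p : ℕ} (hp : 0 < p) (hf : ∀ g, f^[p] g = g) (k : ℕ) (g : G) :
    (toAut f hp hf ^ k) g = f^[k] g := by
  induction k generalizing g with
  | zero => rfl
  | succ k ih => rw [pow_succ, Function.iterate_succ_apply, ← ih]; rfl

theorem toAut_pow (f : G →* G) {p : ℕ} (hp : 0 < p) (hf : ∀ g, f^[p] g = g) : toAut f hp hf ^ p = 1 := by
  ext g
  rw [toAut_pow_apply, hf]; rfl

theorem char_map_mem (f : G →* G) {p : ℕ} (hp : 0 < p) (hf : ∀ g, f^[p] g = g) (N : Subgroup G) [hN : N.Characteristic]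
    {x : G} (hx : x ∈ N) : f x ∈ N := by
  have h1 := Subgroup.characteristic_iff_map_eq.1 hN (toAut f hp hf)
  rw [← h1]
  exact Subgroup.mem_map_of_mem _ hx

/-- restriction of an endomorphism -/
def res (f : G →* G) (N : Subgroup G) (h : ∀ x ∈ N, f x ∈ N) : N →* N :=
  (f.comp N.subtype).codRestrict N (fun x => h x x.2)

theorem res_apply (f : G →* G) (N : Subgroup G) (h : ∀ x ∈ N, f x ∈ N) (x : N) : (res f N h x : G) = f x := rfl

theorem res_iterate (f : G →* G) (N : Subgroup G) (h : ∀ x ∈ N, f x ∈ N) (k : ℕ) (x : N) :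
    (((res f N h)^[k] x : N) : G) = f^[k] x := by
  induction k generalizing x with
  | zero => rfl
  | succ k ih => rw [Function.iterate_succ_apply, Function.iterate_succ_apply, ih]; rfl

theorem card_fix_res_le [Finite G] (f : G →* G) (N : Subgroup G) (h : ∀ x ∈ N, f x ∈ N) :
    Nat.card {x : N // res f N h x = x} ≤ Nat.card {x : G // f x = x} :=
  Nat.card_le_card_of_injective (fun w : {x : N // res f N h x = x} =>
    (⟨w.1.1, congrArg Subtype.val w.2⟩ : {x : G // f x = x}))
    (fun a b hab => Subtype.ext (Subtype.ext (congrArg (fun z => (z.1 : G)) hab)))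

theorem Adm.sub [Finite G] {p q : ℕ} (hp : 0 < p) (h : Adm p q G) (N : Subgroup G) [N.Characteristic] : Adm p q N := by
  obtain ⟨f, hf, hq⟩ := h
  have h1 : ∀ x ∈ N, f x ∈ N := fun x hx => char_map_mem f hp hf N hx
  exact ⟨res f N h1, fun x => Subtype.ext (by rw [res_iterate, hf]), (card_fix_res_le f N h1).trans hq⟩

theorem quot_iterate (f : G →* G) (N : Subgroup G) [N.Normal] (F : G ⧸ N →* G ⧸ N)
    (hF : ∀ g, F (QuotientGroup.mk g) = QuotientGroup.mk (f g)) (k : ℕ) (g : G) :
    F^[k] (QuotientGroup.mk g) = QuotientGroup.mk (f^[k] g) := by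
  induction k generalizing g with
  | zero => rfl
  | succ k ih => rw [Function.iterate_succ_apply, Function.iterate_succ_apply, hF, ih]

theorem Adm.quot [Finite G] {p q : ℕ} (hp : 0 < p) (h : Adm p q G) (N : Subgroup G) [N.Characteristic] :
    Adm p q (G ⧸ N) := by
  obtain ⟨f, hf, hq⟩ := h
  have h1 : ∀ x ∈ N, f x ∈ N := fun x hx => char_map_mem f hp hf N hx
  let F : G ⧸ N →* G ⧸ N := QuotientGroup.map N N f h1
  have hF : ∀ g : G, F (QuotientGroup.mk g) = QuotientGroup.mk (f g) := fun g => rfl
  refine ⟨F, ?_, (card_fix_quot_le f N F hF).trans hq⟩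
  intro x
  obtain ⟨g, rfl⟩ := QuotientGroup.mk_surjective x
  rw [quot_iterate f N F hF, hf]

/-! ### derived series -/

theorem derivedSeries_map_le {H : Type*} [Group H] (φ : H →* G) (n : ℕ) :
    (derivedSeries H n).map φ ≤ derivedSeries G n := map_derivedSeries_le_derivedSeries φ n

theorem derivedSeries_ext (N : Subgroup G) [N.Normal] {a b : ℕ} (ha : derivedSeries (G ⧸ N) a = ⊥)
    (hb : derivedSeries N b = ⊥) : derivedSeries G (a + b) = ⊥ := by
  have h1 : derivedSeries G a ≤ N := by
    have h2 := derivedSeries_map_le (QuotientGroup.mk' N) a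
    rw [ha, le_bot_iff, Subgroup.map_eq_bot_iff, QuotientGroup.ker_mk'] at h2
    exact h2
  have h2 : ∀ b, derivedSeries G (a + b) ≤ (derivedSeries N b).map N.subtype := by
    intro b
    induction b with
    | zero => rw [add_zero, derivedSeries_zero, ← MonoidHom.range_eq_map, Subgroup.range_subtype]; exact h1
    | succ b ih =>
      rw [← add_assoc, derivedSeries_succ, derivedSeries_succ, Subgroup.map_commutator]
      exact Subgroup.commutator_mono ih ih
  rw [eq_bot_iff]
  refine (h2 b).trans ?_
  rw [hb, Subgroup.map_bot]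

theorem derivedSeries_card [Finite G] [hs : Group.IsSolvable G] {M : ℕ} (hM : Nat.card G ≤ M) :
    derivedSeries G M = ⊥ := by
  have h1 : ∀ i, derivedSeries G i = ⊥ ∨ Nat.card (derivedSeries G i) + i ≤ Nat.card G := by
    intro i
    induction i with
    | zero => right; rw [add_zero, derivedSeries_zero, Subgroup.card_top]
    | succ i ih =>
      by_cases hb : derivedSeries G (i + 1) = ⊥
      · exact Or.inl hb
      right
      have hle : derivedSeries G (i + 1) ≤ derivedSeries G i := derivedSeries_antitone G (Nat.le_succ i)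
      rcases ih with h | h
      · exact absurd (le_bot_iff.1 (h ▸ hle)) hb
      have hne : derivedSeries G (i + 1) ≠ derivedSeries G i := by
        intro he
        have h2 : ∀ j, derivedSeries G (i + j) = derivedSeries G i := by
          intro j
          induction j with
          | zero => rfl
          | succ j ihj => rw [← add_assoc, derivedSeries_succ, ihj, ← derivedSeries_succ, he]
        obtain ⟨n, hn⟩ := (Group.isSolvable_def G).1 hs
        have h3 : derivedSeries G (i + n) ≤ derivedSeries G n := derivedSeries_antitone G (Nat.le_add_left n i)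
        rw [hn, h2, le_bot_iff] at h3
        rw [h3] at hle
        exact hb (le_bot_iff.1 hle)
      have hlt : Nat.card (derivedSeries G (i + 1)) < Nat.card (derivedSeries G i) := by
        refine lt_of_le_of_ne (Subgroup.card_le_of_le hle) fun h => hne ?_
        exact Subgroup.eq_of_le_of_card_ge hle h.ge
      omega
  rcases h1 M with h | h
  · exact h
  · have h2 : 0 < Nat.card (derivedSeries G M) := Nat.card_pos
    omega

end

end Cfsg.Agent.Lib.AlperinDer
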