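import Cfsg.Agent.Lib.AltF4T
import Cfsg.Agent.Lib.AltHyp
import Cfsg.Agent.Lib.TwD4End

set_option autoImplicit false
set_option maxRecDepth 1000000

/-!
# Elements of order five of `³D₄(q)` (helper40)
-/

namespace Cfsg.Agent.Lib.AltD4T
open Cfsg.Lie Cfsg.Agent.Lib.ChevX Cfsg.Agent.Lib.ChevGood Cfsg.Agent.Lib.ChevRel Cfsg.Agent.Lib.ChevNPerm
  Cfsg.Agent.Lib.ChevClosed Cfsg.Agent.Lib.ChevBruhat Cfsg.Agent.Lib.TwFix Cfsg.Agent.Lib.TwFix.TwRk
  Cfsg.Agent.Lib.TwTab Cfsg.Agent.Lib.TwField Cfsg.Agent.Lib.ChevFix Cfsg.Agent.Lib.AltTw Cfsg.Agent.Lib.TwD4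
  Cfsg.Agent.Lib.AltEight Cfsg.Agent.Lib.AltHyp Cfsg.Agent.Lib.AltFull Cfsg.Agent.Lib.ChevTorus
open scoped MatrixGroups Matrix

/-- extension of the field -/
theorem em_twisted {K K' : Type*} [Field K] [Field K'] (f : K →+* K') {q : ℕ} (hT : ∀ t : K, t ^ q ^ 3 = t) {g : GL chevD4.Idx K}
    (hg : g ∈ twistedD4 K q) : em chevD4 f g ∈ twistedD4 K' (q ^ 4) := by
  have h4 : ∀ t : K, t ^ q ^ 4 = t ^ q := by
    intro t
    rw [show q ^ 4 = q ^ 3 * q by ring, pow_mul, hT]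
  have h8 : ∀ t : K, t ^ (q ^ 4) ^ 2 = t ^ q ^ 2 := by
    intro t
    rw [show (q ^ 4) ^ 2 = q ^ 3 * (q ^ 3 * q ^ 2) by ring, pow_mul, hT, pow_mul, hT]
  have : twistedD4 K q ≤ (twistedD4 K' (q ^ 4)).comap (em chevD4 f) := by
    apply (Subgroup.closure_le _).mpr
    rintro g ⟨w, hw, hg⟩
    have hgw := eq_wg G hg
    rw [hgw]
    change em chevD4 f (wg chevD4 K w) ∈ twistedD4 K' (q ^ 4)
    rcases hw with ⟨t, ht, r, hr, rfl⟩ | ⟨t, rs, hrs, rfl⟩
    · have h1 : em chevD4 f (wg chevD4 K [(r, t)]) = wg chevD4 K' [(r, f t)] := by simp [wg, em_xg G]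
      rw [h1]
      exact wg_mem_gen G (Or.inl ⟨f t, by rw [← map_pow, h4, ht], r, hr, rfl⟩)
    · have h1 : em chevD4 f (wg chevD4 K [(rs.1, t), (rs.2.1, t ^ q), (rs.2.2, t ^ (q ^ 2))]) =
          wg chevD4 K' [(rs.1, f t), (rs.2.1, (f t) ^ (q ^ 4)), (rs.2.2, (f t) ^ ((q ^ 4) ^ 2))] := by
        have e1 : (f t) ^ (q ^ 4) = f (t ^ q) := by rw [← map_pow, h4]
        have e2 : (f t) ^ ((q ^ 4) ^ 2) = f (t ^ q ^ 2) := by rw [← map_pow, h8]
        rw [e1, e2]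
        simp only [wg, List.map_cons, List.map_nil, List.prod_cons, List.prod_nil, map_mul, map_one, em_xg G]
      rw [h1]
      exact wg_mem_gen G (Or.inr ⟨f t, rs, hrs, rfl⟩)
  exact this hg

/-! ### the twisted Weyl group -/

def TT : List (List ℕ) := [[0, 9, 8, 7, 6, 18, 4, 3, 2, 1, 13, 12, 11, 10, 22, 21, 20, 19, 5, 17, 16, 15, 14, 23],
  [1, 0, 2, 3, 5, 4, 6, 10, 11, 14, 7, 8, 15, 16, 9, 12, 13, 17, 19, 18, 20, 21, 23, 22]]

theorem TT_eq : ∀ j < 2, ∀ s < 24, tabD4.wlN (tabD4.jwN j) s = (TT.getD j []).getD s 0 := by decide +kernel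

def WD' : List (List (Fin 2)) := [[], [0], [1], [0, 1], [1, 0], [0, 1, 0], [1, 0, 1], [0, 1, 0, 1], [1, 0, 1, 0], [0, 1, 0, 1, 0],
  [1, 0, 1, 0, 1], [0, 1, 0, 1, 0, 1]]
def WD : List (List (Fin tabD4.nz)) := WD'
def lg : List (Fin tabD4.nz) := ([0, 1, 0, 1, 0, 1] : List (Fin 2))

theorem wd1 : [] ∈ WD := by decide +kernel
theorem wd2 : ∀ l ∈ WD, ∀ i : Fin tabD4.nz, ev chevD4.nroots TT ((i :: l).map Fin.val) ∈ WD.map fun l => ev chevD4.nroots TT (l.map Fin.val) := by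
  decide +kernel
theorem wd3 : (WD.map fun l => ev chevD4.nroots TT (l.map Fin.val)).Nodup := by decide +kernel
theorem wd6 : ∀ l ∈ WD, (List.range chevD4.nroots).all (fun s => it (ev chevD4.nroots TT (l.map Fin.val)) 6 s == s) = true := by decide +kernel
theorem wdneg : ∀ s < 24, (ev chevD4.nroots TT (lg.map Fin.val)).getD s 0 = chevD4.neg s := by decide +kernel

/-- parities -/
def p1 (s : ℕ) : Bool := (chevD4.cartan 0 s + chevD4.cartan 2 s + chevD4.cartan 3 s) % 2 == 1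
def p2 (s : ℕ) : Bool := chevD4.cartan 1 s % 2 == 1

theorem chk1 : ∀ l ∈ WD, (∀ s < 24, p1 ((ev chevD4.nroots TT (l.map Fin.val)).getD s 0) = p1 s ∧
    p2 ((ev chevD4.nroots TT (l.map Fin.val)).getD s 0) = p2 s) → l = [] ∨ l = lg := by decide +kernel

section
variable {K : Type*} [Field K] {T : TwSys chevD4 K} {W : TwGen T tabD4.nz}
  (hW : ∀ (j : Fin tabD4.nz) (s : Fin chevD4.nroots), ((W.wj j s : Fin chevD4.nroots) : ℕ) = tabD4.wlN (tabD4.jwN j) s)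
include hW

theorem hTW (j : Fin tabD4.nz) (s : Fin chevD4.nroots) : ((W.wj j s : Fin chevD4.nroots) : ℕ) = (TT.getD j []).getD s 0 := by
  rw [hW]; exact TT_eq j j.2 s s.2

theorem full_eq (l : List (Fin tabD4.nz)) : full (wp W.wj l) = ev chevD4.nroots TT (l.map Fin.val) := full_wp W.wj (hTW hW) l

theorem card_WT : Nat.card (TwAll.WT W) = 12 := card_closure W.wj (hTW hW) W.sq WD wd1 wd2 wd3

theorem enumWT {w : Equiv.Perm (Fin chevD4.nroots)} (hw : w ∈ TwAll.WT W) : ∃ l ∈ WD, w = wp W.wj l :=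
  enumeration W.wj (hTW hW) W.sq WD wd1 wd2 hw

theorem neg_eq : ngP T.G = wp W.wj lg := by
  apply Equiv.ext
  intro s
  apply Fin.ext
  rw [← full_getD (wp W.wj lg), full_eq hW]
  exact (wdneg s s.2).symm

theorem neg_mem : ngP T.G ∈ TwAll.WT W := by
  rw [neg_eq hW]
  exact wp_mem W.wj _

theorem six (w : Equiv.Perm (Fin chevD4.nroots)) (hw : w ∈ TwAll.WT W) : w ^ 6 = 1 := by
  obtain ⟨l, hl, rfl⟩ := enumWT hW hw
  apply pow_eq_one_of
  rw [full_eq hW]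
  exact wd6 l hl

end

theorem neg_ne {K : Type*} [Field K] {T : TwSys chevD4 K} : ngP T.G ≠ 1 := by
  intro h
  have h1 := congrArg (fun w : Equiv.Perm (Fin chevD4.nroots) => ((w (⟨0, by decide⟩ : Fin chevD4.nroots) : Fin chevD4.nroots) : ℕ)) h
  have h2 : chevD4.neg 0 = 0 := h1
  exact absurd h2 (by decide +kernel)

theorem cnt_eq (q : ℕ) : (cntD4.zipIdx.map fun x => x.1 * q ^ x.2).sum =
    1 + q + q ^ 3 + 2 * q ^ 4 + q ^ 5 + q ^ 7 + 2 * q ^ 8 + q ^ 9 + q ^ 11 + q ^ 12 := by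
  simp [cntD4]; ring

theorem cnt_mod5 (q : ℕ) (h5 : q % 5 = 1) : (q ^ 12 * (cntD4.zipIdx.map fun x => x.1 * q ^ x.2).sum) % 5 = 2 := by
  rw [cnt_eq]
  have e1 : (q : ZMod 5) = 1 := by
    have := (ZMod.natCast_eq_natCast_iff' q 1 5).mpr h5
    simpa using this
  refine (ZMod.natCast_eq_natCast_iff' _ 2 5).mp ?_
  push_cast
  rw [e1]
  decide

section
variable {K : Type*} [Field K] [Fintype K] {q : ℕ} (hq : IsPrimePow q) (hK : Fintype.card K = q ^ 3)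
include hq hK

/-- no element of order `5` is conjugate to its square when `q ≡ 1 mod 5` -/
theorem no_five_one (h5 : q % 5 = 1) (x y : ↥(twistedD4 K q)) (hx : orderOf x = 5) (hy : y * x * y⁻¹ = x ^ 2) : False := by
  have : Fact (Nat.Prime 5) := ⟨by norm_num⟩
  have heq := twisted_eq (K := K) (q := q) (hT hK)
  have hcard := card_Γ hq hK
  rw [← heq] at hcard
  let H0 : Subgroup ↥(twistedD4 K q) := (chevD4.diagonalSubgroup K ⊓ twistedD4 K q).subgroupOf (twistedD4 K q)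
  have hH0 : Nat.card H0 = (q ^ 3 - 1) * (q - 1) := by
    have := card_H hq hK
    rw [← heq] at this
    rw [← this]
    exact Nat.card_congr (Subgroup.subgroupOfEquivOfLe inf_le_right).toEquiv
  have hidx : H0.index = q ^ 12 * (cntD4.zipIdx.map fun x => x.1 * q ^ x.2).sum := index_of_mul (by rw [hcard]; ring) hH0
  have hmod : H0.index % 5 = 2 := by rw [hidx]; exact cnt_mod5 q h5
  obtain ⟨g, hg⟩ := conj_into (l := 5) H0 (by omega) (Subgroup.zpowers x)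
    (AltLift.isPGroup_zpowers (a := 1) (by rw [hx, pow_one]))
  have h1 := hg x (Subgroup.mem_zpowers x)
  set t := g⁻¹ * x * g with ht
  set v := g⁻¹ * y * g with hv
  have hvt : v * t * v⁻¹ = t ^ 2 := by
    have e1 : v * t * v⁻¹ = g⁻¹ * (y * x * y⁻¹) * g := by rw [hv, ht]; group
    have e2 : t ^ 2 = g⁻¹ * x ^ 2 * g := by rw [ht, sq, sq]; group
    rw [e1, hy, e2]
  have htH : (t : GL chevD4.Idx K) ∈ chevD4.diagonalSubgroup K := h1.1
  have hto : orderOf (t : GL chevD4.Idx K) = 5 := by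
    rw [Subgroup.orderOf_coe, ht, ← hx]
    have e1 : g⁻¹ * x * g = g⁻¹ * x * (g⁻¹)⁻¹ := by rw [inv_inv]
    rw [e1]
    exact (MulAut.conj g⁻¹).orderOf_eq x
  have hvΓ : (v : GL chevD4.Idx K) ∈ Γ0 chevD4 K tabD4 q := by rw [← heq]; exact v.2
  obtain ⟨u, hu, n, hn, w, hw, u', hu', hvu⟩ := (all hq hK).grp.bruhat hvΓ
  have h2 : n * (t : GL chevD4.Idx K) * n⁻¹ = (t : GL chevD4.Idx K) ^ 2 := by
    apply n_conj (T hq hK).G (T hq hK).hD htH (pow_mem htH 2) hu.1 hn.1 hw hu'.1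
    rw [← hvu]
    exact congrArg Subtype.val hvt
  have hw6 := six (W := gen (sig hq hK) chk1D4 chk2D4 chk3D4 listed _) (fun j s => wlj_eq (G := G) chk1D4 chk3D4 j.2 _) w ((all hq hK).perm_mem_WT hn hw)
  have h3 : n ^ 6 ∈ chevD4.diagonalSubgroup K := by
    have e1 : ∀ k : ℕ, Mono (T hq hK).G (n ^ k) (w ^ k) := by
      intro k
      induction k with
      | zero => exact mono_one _
      | succ k ih => rw [pow_succ, pow_succ]; exact mono_mul _ ih hw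
    have e2 := e1 6
    rw [hw6] at e2
    exact mem_diag_of_one _ (pow_mem hn.1 6) e2
  have h4 := pow_conj h2 6
  have h5 : n ^ 6 * (t : GL chevD4.Idx K) * (n ^ 6)⁻¹ = (t : GL chevD4.Idx K) := by
    rw [ChevSS.diag_comm (T hq hK).G h3 htH, mul_inv_cancel_right]
  rw [h5] at h4
  have h6 : (t : GL chevD4.Idx K) ^ 1 = (t : GL chevD4.Idx K) ^ (2 ^ 6) := by rw [pow_one]; exact h4
  have h7 := pow_eq_pow_iff_modEq.mp h6
  rw [hto] at h7
  exact absurd h7 (by decide)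

end

end Cfsg.Agent.Lib.AltD4T
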