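import Cfsg.Agent.Lib.AltD4T
import Mathlib.FieldTheory.Finite.Extension

set_option autoImplicit false
set_option maxRecDepth 1000000

/-!
# Alternating sections of `³D₄(q)` (helper40)
-/

namespace Cfsg.Agent.Lib.AltD4T
open Cfsg.Lie Cfsg.Agent.Lib.ChevX Cfsg.Agent.Lib.ChevGood Cfsg.Agent.Lib.ChevRel Cfsg.Agent.Lib.ChevNPerm
  Cfsg.Agent.Lib.ChevClosed Cfsg.Agent.Lib.ChevBruhat Cfsg.Agent.Lib.TwFix Cfsg.Agent.Lib.TwFix.TwRk
  Cfsg.Agent.Lib.TwTab Cfsg.Agent.Lib.TwField Cfsg.Agent.Lib.ChevFix Cfsg.Agent.Lib.AltTw Cfsg.Agent.Lib.TwD4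
  Cfsg.Agent.Lib.AltEight Cfsg.Agent.Lib.AltHyp Cfsg.Agent.Lib.AltFull Cfsg.Agent.Lib.ChevTorus
open scoped MatrixGroups Matrix

section
variable {K : Type*} [Field K] [Fintype K]

/-- no element of order `5` is conjugate to its square in characteristic different from `5` -/
theorem no_five {p a : ℕ} [Fact p.Prime] [CharP K p] (ha : 1 ≤ a) (hp : p ≠ 5) (hK : Fintype.card K = (p ^ a) ^ 3)
    (x y : ↥(twistedD4 K (p ^ a))) (hx : orderOf x = 5) (hy : y * x * y⁻¹ = x ^ 2) : False := by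
  have : NeZero 4 := ⟨by norm_num⟩
  let K' := FiniteField.Extension K p 4
  have hfin : Fintype K' := Fintype.ofFinite K'
  have hcard : Fintype.card K' = ((p ^ a) ^ 4) ^ 3 := by
    have h1 := FiniteField.natCard_extension K p 4
    rw [Nat.card_eq_fintype_card, Nat.card_eq_fintype_card, hK] at h1
    rw [h1]; ring
  have hq : IsPrimePow ((p ^ a) ^ 4) := ((Fact.out : p.Prime).isPrimePow.pow (by omega)).pow (by norm_num)
  have h5 : ((p ^ a) ^ 4) % 5 = 1 := by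
    have h1 : Nat.Coprime (p ^ a) 5 := Nat.Coprime.pow_left _ ((Nat.coprime_primes Fact.out (by norm_num)).mpr hp)
    have h2 := Nat.ModEq.pow_totient h1
    rw [Nat.totient_prime (by norm_num)] at h2
    exact h2
  let f : K →+* K' := algebraMap K K'
  have hT : ∀ t : K, t ^ (p ^ a) ^ 3 = t := hT hK
  let φ : ↥(twistedD4 K (p ^ a)) →* ↥(twistedD4 K' ((p ^ a) ^ 4)) :=
    ((em chevD4 f).comp (twistedD4 K (p ^ a)).subtype).codRestrict _ (fun g => em_twisted f hT g.2)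
  have hφ : Function.Injective φ := fun g h hgh => Subtype.ext (em_injective f (congrArg Subtype.val hgh))
  refine no_five_one hq hcard h5 (φ x) (φ y) (by rw [orderOf_injective φ hφ, hx]) ?_
  rw [← map_mul, ← map_inv, ← map_mul, ← map_pow, hy]

/-! ### the hypothesis -/

theorem rval_HP {l : List (ℕ × K)} (h : HOk chevD4 l) (s : Fin chevD4.nroots) : rval (HP chevD4 K l) s = chr chevD4 l s := by
  have h1 := conj_x G (HP_mem G h) s 1
  rw [HP_conj G h s.2] at h1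
  have := ChevRel.xg_inj G s.2 h1
  simpa using this.symm

theorem th_ok {a b : K} (ha : a ≠ 0) (hb : b ≠ 0) (q : ℕ) : HOk chevD4 [(0, a), (1, b), (2, a ^ q), (3, a ^ q ^ 2)] := by
  intro x hx
  simp only [List.mem_cons, List.not_mem_nil, or_false] at hx
  have h4 : chevD4.rank = 4 := rfl
  rcases hx with rfl | rfl | rfl | rfl <;> simp [h4, ha, hb]

theorem rval_th {a b : K} (ha : a ≠ 0) (hb : b ≠ 0) (q : ℕ) (s : Fin chevD4.nroots) : rval (th q a b) s =
    a ^ chevD4.cartan 0 s * (b ^ chevD4.cartan 1 s * ((a ^ q) ^ chevD4.cartan 2 s * (a ^ q ^ 2) ^ chevD4.cartan 3 s)) := by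
  unfold th
  rw [rval_HP (th_ok ha hb q)]
  simp [chr]

theorem th_diag {a b : K} (ha : a ≠ 0) (hb : b ≠ 0) (q : ℕ) : th q a b ∈ chevD4.diagonalSubgroup K := HP_mem G (th_ok ha hb q)

theorem th_mul {a b a' b' : K} (ha : a ≠ 0) (hb : b ≠ 0) (ha' : a' ≠ 0) (hb' : b' ≠ 0) (q : ℕ) :
    th q a b * th q a' b' = th q (a * a') (b * b') := by
  apply ext_rval G (mul_mem (th_diag ha hb q) (th_diag ha' hb' q)) (th_diag (mul_ne_zero ha ha') (mul_ne_zero hb hb') q)
  intro s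
  rw [rval_mul G (th_diag ha hb q) (th_diag ha' hb' q), rval_th ha hb, rval_th ha' hb', rval_th (mul_ne_zero ha ha') (mul_ne_zero hb hb'),
    mul_zpow, mul_zpow, mul_pow, mul_pow, mul_zpow, mul_zpow]
  ring

theorem th_one (q : ℕ) : th q (1 : K) 1 = 1 := by
  apply ext_rval G (th_diag one_ne_zero one_ne_zero q) (one_mem _)
  intro s
  rw [rval_th one_ne_zero one_ne_zero, rval_one G]
  simp

theorem neg_zpow_par (n : ℤ) : (-1 : K) ^ n = if n % 2 == 1 then -1 else 1 := by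
  have h2 : n = 2 * (n / 2) + n % 2 := (Int.mul_ediv_add_emod _ _).symm
  have h3 : ((-1 : K) ^ (2 : ℤ)) = 1 := by norm_num
  rcases Int.emod_two_eq_zero_or_one n with h | h
  · rw [h] at h2
    rw [h2, add_zero, zpow_mul, h3, one_zpow]
    simp
  · have h4 : (n % 2 == 1) = true := by rw [h]; rfl
    rw [h4, if_pos rfl]
    rw [h] at h2
    rw [h2, zpow_add₀ (neg_ne_zero.mpr one_ne_zero), zpow_mul, h3, one_zpow, one_mul, zpow_one]

variable {q : ℕ} (hq : IsPrimePow q) (hK : Fintype.card K = q ^ 3)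
include hq hK

theorem exists_th' {g : GL chevD4.Idx K} (hg : g ∈ chevD4.diagonalSubgroup K) (hg' : g ∈ Γ0 chevD4 K tabD4 q) :
    ∃ a b : K, a ≠ 0 ∧ b ≠ 0 ∧ b ^ q = b ∧ g = th q a b := exists_th hq hK ⟨hg, (all hq hK).le hg'⟩

theorem th_inj {a b a' b' : K} (ha : a ≠ 0) (hb : b ≠ 0) (hbq : b ^ q = b) (ha' : a' ≠ 0) (hb' : b' ≠ 0) (hbq' : b' ^ q = b')
    (h : th q a b = th q a' b') : a = a' ∧ b = b' := by
  have h1 := (thF_bij hq hK).1 (a₁ := (⟨Units.mk0 a ha, Units.mk0 b hb, Units.ext (by simpa using hbq)⟩ : Kˣ × {u : Kˣ // u ^ q = u}))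
    (a₂ := (⟨Units.mk0 a' ha', Units.mk0 b' hb', Units.ext (by simpa using hbq')⟩ : Kˣ × {u : Kˣ // u ^ q = u})) (Subtype.ext h)
  have h2 := congrArg (fun x : Kˣ × {u : Kˣ // u ^ q = u} => ((x.1 : Kˣ) : K)) h1
  have h3 := congrArg (fun x : Kˣ × {u : Kˣ // u ^ q = u} => ((x.2.1 : Kˣ) : K)) h1
  exact ⟨h2, h3⟩

omit [Fintype K] hq hK in
theorem cnt_mod8 {k : ℕ} (hq4 : q % 4 = 1) (h : 2 * k * 12 = q ^ 12 * (cntD4.zipIdx.map fun x => x.1 * q ^ x.2).sum) : False := by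
  rw [cnt_eq] at h
  have e7 := congrArg (Nat.cast (R := ZMod 8)) h
  push_cast at e7
  have e8 : (q : ZMod 8) = 1 ∨ (q : ZMod 8) = 5 := by
    have : q % 8 = 1 ∨ q % 8 = 5 := by omega
    rcases this with h | h
    · left
      have := (ZMod.natCast_eq_natCast_iff' q 1 8).mpr h
      simpa using this
    · right
      have := (ZMod.natCast_eq_natCast_iff' q 5 8).mpr h
      simpa using this
  have e9 : (2 * (k : ZMod 8) * 12) = 0 := by
    have : (2 * (k : ZMod 8) * 12) = 24 * k := by ring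
    rw [this, show (24 : ZMod 8) = 0 from by decide, zero_mul]
  rw [e9] at e7
  rcases e8 with h | h <;> rw [h] at e7 <;> exact absurd e7 (by decide)

theorem hypD4 {T : TwSys chevD4 K} {R : TwRk T} {W : TwGen T tabD4.nz} {B : TwBlk R W} (A : TwAll B (Γ0 chevD4 K tabD4 q))
    (hW : ∀ (j : Fin tabD4.nz) (s : Fin chevD4.nroots), ((W.wj j s : Fin chevD4.nroots) : ℕ) = tabD4.wlN (tabD4.jwN j) s)
    (h2 : (2 : K) ≠ 0) (hq4 : q % 4 = 1) :
    ∃ (M : Subgroup ↥(twistedD4 K q)), ¬ 2 ∣ M.index ∧ ∃ φ : M →* TwAll.WT W, Hyp φ ⟨ngP T.G, neg_mem hW⟩ := by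
  classical
  have heq := twisted_eq (K := K) (q := q) (hT hK)
  have hmem : ∀ {g : GL chevD4.Idx K}, g ∈ twistedD4 K q → g ∈ Γ0 chevD4 K tabD4 q := fun {g} h => by rwa [heq] at h
  have hmem' : ∀ {g : GL chevD4.Idx K}, g ∈ Γ0 chevD4 K tabD4 q → g ∈ twistedD4 K q := fun {g} h => by rwa [heq]
  let M : Subgroup ↥(twistedD4 K q) := (chevD4.monomialSubgroup K).subgroupOf (twistedD4 K q)
  have hMN : ∀ n : ↥(twistedD4 K q), n ∈ M → (n : GL chevD4.Idx K) ∈ chevD4.monomialSubgroup K := fun n hn => hn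
  have hMW : ∀ n : ↥(twistedD4 K q), n ∈ M → ∀ w, Mono T.G (n : GL chevD4.Idx K) w → w ∈ TwAll.WT W := fun n hn w hw =>
    A.perm_mem_WT ⟨hn, hmem n.2⟩ hw
  have hWM : ∀ w ∈ TwAll.WT W, ∃ n : ↥(twistedD4 K q), n ∈ M ∧ Mono T.G (n : GL chevD4.Idx K) w := by
    intro w hw
    obtain ⟨n, hn, hnw⟩ := A.exists_rep hw
    exact ⟨⟨n, hmem' hn.2⟩, hn.1, hnw⟩
  have hq2 := hq.two_le
  refine ⟨M, ?_, phi T.G M (TwAll.WT W) hMN hMW, ?_⟩
  · -- the index
    have e1 : Nat.card (phi T.G M (TwAll.WT W) hMN hMW).ker = (q ^ 3 - 1) * (q - 1) := by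
      rw [← card_H hq hK]
      refine Nat.card_congr
        { toFun := fun n => ⟨((n : M) : ↥(twistedD4 K q)), (phi_one_iff T.G M (TwAll.WT W) hMN hMW n).mp n.2, hmem n.1.1.2⟩
          invFun := fun g => ⟨⟨⟨g, hmem' g.2.2⟩, Subgroup.mem_sup_left g.2.1⟩, (phi_one_iff T.G M (TwAll.WT W) hMN hMW _).mpr g.2.1⟩
          left_inv := fun _ => rfl
          right_inv := fun _ => rfl }
    have e2 : (phi T.G M (TwAll.WT W) hMN hMW).range = ⊤ := by
      rw [MonoidHom.range_eq_top]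
      rintro ⟨w, hw⟩
      obtain ⟨n, hn, hnw⟩ := hWM w hw
      exact ⟨⟨n, hn⟩, phi_eq T.G M (TwAll.WT W) hMN hMW ⟨n, hn⟩ hw hnw⟩
    have e3 : Nat.card M = (q ^ 3 - 1) * (q - 1) * 12 := by
      have e4 := Subgroup.card_mul_index (phi T.G M (TwAll.WT W) hMN hMW).ker
      rw [Subgroup.index_ker, e1, e2, Subgroup.card_top, card_WT hW] at e4
      exact e4.symm
    have e5 := M.index_mul_card
    have e6 := card_Γ hq hK
    rw [← heq] at e6
    rw [e6, e3] at e5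
    rintro ⟨k, hk⟩
    rw [hk] at e5
    have hpos : 0 < (q ^ 3 - 1) * (q - 1) := by
      have : 2 ^ 3 ≤ q ^ 3 := Nat.pow_le_pow_left hq2 3
      exact Nat.mul_pos (by omega) (by omega)
    refine cnt_mod8 (q := q) (k := k) hq4 (Nat.eq_of_mul_eq_mul_left hpos ?_)
    calc (q ^ 3 - 1) * (q - 1) * (2 * k * 12) = 2 * k * ((q ^ 3 - 1) * (q - 1) * 12) := by ring
      _ = _ := by rw [e5]; ring
  · have hodd : Odd q := Nat.odd_iff.mpr (by omega)
    have m1 : (-1 : K) ≠ 0 := neg_ne_zero.mpr one_ne_zero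
    have hn1 : (-1 : K) ^ q = -1 := hodd.neg_one_pow
    have ht1 := th_mem hq hK m1 one_ne_zero (one_pow q)
    have ht2 := th_mem hq hK one_ne_zero m1 hn1
    have hM : ∀ {g : GL chevD4.Idx K}, g ∈ chevD4.diagonalSubgroup K → g ∈ chevD4.monomialSubgroup K := fun {g} h => Subgroup.mem_sup_left h
    have hne : (-1 : K) ≠ 1 := by
      intro h
      apply h2
      have : (2 : K) = 1 - (-1) := by ring
      rw [this, h, sub_self]
    refine mkHyp T.G M (TwAll.WT W) hMN hMW hWM (neg_mem hW) (card_WT hW) (six hW) neg_ne ⟨_, hmem' ht1.2⟩ ⟨_, hmem' ht2.2⟩ (hM ht1.1) (hM ht2.1)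
      ht1.1 ht2.1 ?_ (fun s => p1 s) (fun s => p2 s) ?_ ?_ h2 ?_ ?_ ?_ ?_
    · intro t ht htd ht2'
      obtain ⟨a, b, ha, hb, hbq, hab⟩ := exists_th' hq hK htd (hmem t.2)
      have h3 : (t : GL chevD4.Idx K) * t = 1 := by rw [← sq]; exact congrArg Subtype.val ht2'
      rw [hab, th_mul ha hb ha hb, ← th_one q] at h3
      obtain ⟨h4, h5⟩ := th_inj hq hK (mul_ne_zero ha ha) (mul_ne_zero hb hb) (by rw [mul_pow, hbq]) one_ne_zero one_ne_zero (one_pow q) h3
      rcases mul_self_eq_one_iff.mp h4 with h6 | h6 <;> rcases mul_self_eq_one_iff.mp h5 with h7 | h7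
      · left; apply Subtype.ext; rw [hab, h6, h7, th_one]; rfl
      · right; right; left; apply Subtype.ext; rw [hab, h6, h7]
      · right; left; apply Subtype.ext; rw [hab, h6, h7]
      · right; right; right; apply Subtype.ext
        change (t : GL chevD4.Idx K) = th q (-1) 1 * th q 1 (-1)
        rw [th_mul m1 one_ne_zero one_ne_zero m1, hab, h6, h7, mul_one, one_mul]
    · intro s
      have hn2 : (-1 : K) ^ q ^ 2 = -1 := (hodd.pow (n := 2)).neg_one_pow
      change rval (th q (-1 : K) 1) s = _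
      rw [rval_th m1 one_ne_zero, hn1, hn2, one_zpow, one_mul, ← zpow_add₀ m1, ← zpow_add₀ m1, ← add_assoc, neg_zpow_par]
      rfl
    · intro s
      change rval (th q (1 : K) (-1)) s = _
      rw [rval_th one_ne_zero m1, one_pow, one_pow, one_zpow, one_zpow, one_zpow, one_mul, mul_one, mul_one, neg_zpow_par]
      rfl
    · intro w hw h
      obtain ⟨l, hl, rfl⟩ := enumWT hW hw
      rcases chk1 l hl (fun s hs => by
        have h3 := h ⟨s, hs⟩
        rw [← full_eq hW]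
        have h4 := full_getD (wp W.wj l) ⟨s, hs⟩
        rw [← h4] at h3
        exact h3) with rfl | rfl
      · exact Or.inl rfl
      · exact Or.inr (neg_eq hW).symm
    · exact ⟨W.wj ⟨1, by decide⟩, Subgroup.subset_closure ⟨_, rfl⟩, ⟨18, by decide⟩, by simp only [hTW hW]; decide +kernel⟩
    · exact ⟨W.wj ⟨0, by decide⟩, Subgroup.subset_closure ⟨_, rfl⟩, ⟨14, by decide⟩, by simp only [hTW hW]; decide +kernel⟩
    · exact ⟨W.wj ⟨1, by decide⟩, Subgroup.subset_closure ⟨_, rfl⟩, ⟨18, by decide⟩, by simp only [hTW hW]; decide +kernel⟩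

end

/-- **alternating sections of `³D₄(q)`** -/
theorem altD4T {K : Type*} [Field K] [Fintype K] (p a : ℕ) [Fact p.Prime] [CharP K p]
    (ha : 1 ≤ a) (hK : Fintype.card K = (p ^ a) ^ 3) (r : ℕ) (H : Subgroup ↥(twistedD4 K (p ^ a))) (N : Subgroup ↥H) [N.Normal]
    (h : Nonempty (↥H ⧸ N ≃* ↥(alternatingGroup (Fin r)))) : r ≤ 6 + (if p = 5 then 1 else 0) := by
  obtain ⟨e⟩ := h
  have hq : IsPrimePow (p ^ a) := (Fact.out : p.Prime).isPrimePow.pow (by omega)
  by_cases hp : p = 5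
  · subst hp
    rw [if_pos rfl]
    have h2 : (2 : K) ≠ 0 := by
      intro h
      have h1 := (CharP.cast_eq_zero_iff K 5 2).mp (by exact_mod_cast h)
      omega
    have hq4 : 5 ^ a % 4 = 1 := by
      rw [Nat.pow_mod]
      simp
    obtain ⟨M, hM, φ, hφ⟩ := hypD4 hq hK (all hq hK) (fun j s => wlj_eq (G := G) chk1D4 chk3D4 j.2 _) h2 hq4
    have := no_eight M hM hφ H N e
    omega
  · rw [if_neg hp]
    by_contra hcon
    obtain ⟨x, y, hx, hy⟩ := AltElt.sec_five H N e (by omega)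
    exact no_five ha hp hK x y hx hy

end Cfsg.Agent.Lib.AltD4T
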