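import Cfsg.Agent.Lib.AltTw

set_option autoImplicit false

/-!
# Alternating sections of the groups `²F₄(q)` (helper40)
-/

namespace Cfsg.Agent.Lib.AltTw
open Cfsg.Lie Cfsg.Agent.Lib.ChevX Cfsg.Agent.Lib.ChevGood Cfsg.Agent.Lib.ChevRel Cfsg.Agent.Lib.ChevNPerm
open Cfsg.Agent.Lib.TwF4
open scoped MatrixGroups Matrix

/-- arithmetic -/
theorem f4t_arith {m : ℕ} (h : 7 ∣ (2 ^ (2 * m + 1)) ^ 12 * (2 ^ (2 * m + 1) - 1) *
    ((2 ^ (2 * m + 1)) ^ 3 + 1) * ((2 ^ (2 * m + 1)) ^ 4 - 1) * ((2 ^ (2 * m + 1)) ^ 6 + 1)) :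
    ∃ N : ℕ, (2 ^ (2 * m + 1)) ^ 12 * (2 ^ (2 * m + 1) - 1) *
    ((2 ^ (2 * m + 1)) ^ 3 + 1) * ((2 ^ (2 * m + 1)) ^ 4 - 1) * ((2 ^ (2 * m + 1)) ^ 6 + 1) = (2 ^ (2 * m + 1) - 1) ^ 2 * N ∧ ¬ 7 ∣ N := by
  set q := 2 ^ (2 * m + 1) with hq
  have hq1 : 1 ≤ q := Nat.one_le_two_pow
  have h3 : q ^ 3 % 7 = 1 := by
    rw [hq, ← pow_mul, mul_comm, pow_mul, Nat.pow_mod]
    norm_num
  obtain ⟨k, hk⟩ : ∃ k, q = k + 1 := ⟨q - 1, by omega⟩
  have h4 : q ^ 4 - 1 = (q - 1) * (q ^ 3 + q ^ 2 + q + 1) := by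
    rw [hk, Nat.add_sub_cancel]
    have : (k + 1) ^ 4 = k * ((k + 1) ^ 3 + (k + 1) ^ 2 + (k + 1) + 1) + 1 := by ring
    omega
  have hp : Nat.Prime 7 := by norm_num
  have h6 : (q ^ 6 + 1) % 7 = 2 := by
    have : q ^ 6 = (q ^ 3) ^ 2 := by ring
    rw [this, Nat.add_mod, Nat.pow_mod, h3]
  have h3' : (q ^ 3 + 1) % 7 = 2 := by rw [Nat.add_mod, h3]
  have h2 : ¬ 7 ∣ q := by
    intro h'
    have := Nat.mod_eq_zero_of_dvd (dvd_pow h' (three_ne_zero))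
    omega
  have h7 : 7 ∣ q - 1 := by
    by_contra hcon
    have e4 : ¬ 7 ∣ q ^ 4 - 1 := by
      intro h'
      apply hcon
      have e1 : q ^ 4 % 7 = q % 7 := by
        have : q ^ 4 = q ^ 3 * q := by ring
        rw [this, Nat.mul_mod, h3, one_mul, Nat.mod_mod]
      have e2 : 1 ≤ q ^ 4 := Nat.one_le_pow _ _ hq1
      omega
    have e3 : ¬ 7 ∣ q ^ 3 + 1 := by omega
    have e5 : ¬ 7 ∣ q ^ 6 + 1 := by omega
    rcases (Nat.Prime.dvd_mul hp).mp h with h | h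
    · rcases (Nat.Prime.dvd_mul hp).mp h with h | h
      · rcases (Nat.Prime.dvd_mul hp).mp h with h | h
        · rcases (Nat.Prime.dvd_mul hp).mp h with h | h
          · exact h2 (hp.dvd_of_dvd_pow h)
          · exact hcon h
        · exact e3 h
      · exact e4 h
    · exact e5 h
  have hqm : q % 7 = 1 := by omega
  refine ⟨q ^ 12 * (q ^ 3 + 1) * (q ^ 3 + q ^ 2 + q + 1) * (q ^ 6 + 1), ?_, ?_⟩
  · rw [h4]; ring
  · intro h
    have e3 : ¬ 7 ∣ q ^ 3 + 1 := by omega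
    have e5 : ¬ 7 ∣ q ^ 6 + 1 := by omega
    have e6 : ¬ 7 ∣ q ^ 3 + q ^ 2 + q + 1 := by
      intro h'
      have e7 : (q ^ 3 + q ^ 2 + q + 1) % 7 = 4 := by
        rw [Nat.add_mod, Nat.add_mod (q ^ 3 + q ^ 2), Nat.add_mod (q ^ 3), Nat.pow_mod, Nat.pow_mod q 2, hqm]
      omega
    rcases (Nat.Prime.dvd_mul hp).mp h with h | h
    · rcases (Nat.Prime.dvd_mul hp).mp h with h | h
      · rcases (Nat.Prime.dvd_mul hp).mp h with h | h
        · exact h2 (hp.dvd_of_dvd_pow h)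
        · exact e3 h
      · exact e6 h
    · exact e5 h

theorem index_of_mul {Γ : Type*} [Group Γ] [Finite Γ] {H : Subgroup Γ} {a b : ℕ} (h1 : Nat.card Γ = a * b) (h2 : Nat.card H = a) :
    H.index = b := by
  have h3 := H.card_mul_index
  rw [h1, h2] at h3
  exact Nat.eq_of_mul_eq_mul_left (by rw [← h2]; exact Nat.card_pos) h3

/-- no element of order `7` of `²F₄(q)` is conjugate to its square -/
theorem no_seven {K : Type*} [Field K] [Fintype K] {m : ℕ} (hK : Fintype.card K = 2 ^ (2 * m + 1))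
    (x y : ↥(twistedF4 K (2 ^ m))) (hx : orderOf x = 7) (hy : y * x * y⁻¹ = x ^ 2) : False := by
  have : Fact (Nat.Prime 7) := ⟨by norm_num⟩
  have hcard := card_Γ hK
  have h7 : 7 ∣ Nat.card ↥(twistedF4 K (2 ^ m)) := by rw [← hx]; exact orderOf_dvd_natCard x
  rw [hcard] at h7
  obtain ⟨N, hN, hN7⟩ := f4t_arith h7
  rw [hN] at hcard
  let H0 : Subgroup ↥(twistedF4 K (2 ^ m)) := (chevF4.diagonalSubgroup K ⊓ twistedF4 K (2 ^ m)).subgroupOf (twistedF4 K (2 ^ m))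
  have hH0 : Nat.card H0 = (2 ^ (2 * m + 1) - 1) ^ 2 := by
    rw [← card_H hK]
    exact Nat.card_congr (Subgroup.subgroupOfEquivOfLe inf_le_right).toEquiv
  have hidx : H0.index = N := index_of_mul hcard hH0
  obtain ⟨g, hg⟩ := conj_into (l := 7) H0 (by rw [hidx]; exact hN7) (Subgroup.zpowers x)
    (AltLift.isPGroup_zpowers (a := 1) (by rw [hx, pow_one]))
  have h1 := hg x (Subgroup.mem_zpowers x)
  set t := g⁻¹ * x * g with ht
  set v := g⁻¹ * y * g with hv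
  have hvt : v * t * v⁻¹ = t ^ 2 := by
    have e1 : v * t * v⁻¹ = g⁻¹ * (y * x * y⁻¹) * g := by rw [hv, ht]; group
    have e2 : t ^ 2 = g⁻¹ * x ^ 2 * g := by rw [ht, sq, sq]; group
    rw [e1, hy, e2]
  have htH : (t : GL chevF4.Idx K) ∈ chevF4.diagonalSubgroup K := h1.1
  have hto : orderOf (t : GL chevF4.Idx K) = 7 := by
    rw [Subgroup.orderOf_coe, ht, ← hx]
    have e1 : g⁻¹ * x * g = g⁻¹ * x * (g⁻¹)⁻¹ := by rw [inv_inv]
    rw [e1]
    exact (MulAut.conj g⁻¹).orderOf_eq x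
  obtain ⟨u, hu, n, hn, w, hw, u', hu', hvu⟩ := (all hK).grp.bruhat v.2
  have h2 : n * (t : GL chevF4.Idx K) * n⁻¹ = (t : GL chevF4.Idx K) ^ 2 := by
    apply n_conj (T hK).G (T hK).hD htH (pow_mem htH 2) hu.1 hn.1 hw hu'.1
    rw [← hvu]
    exact congrArg Subtype.val hvt
  obtain ⟨φ, -, hφ⟩ := quotF4 (K := K) hK
  have h3 : n ^ 16 ∈ chevF4.diagonalSubgroup K := by
    have e1 : (⟨n, hn⟩ : ↥(chevF4.monomialSubgroup K ⊓ twistedF4 K (2 ^ m))) ^ 16 ∈ φ.ker := by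
      rw [MonoidHom.mem_ker, map_pow]
      have : Nat.card (DihedralGroup 8) = 16 := DihedralGroup.nat_card
      rw [← this]
      exact pow_card_eq_one'
    rw [hφ] at e1
    exact e1.1
  have h4 := pow_conj h2 16
  have h5 : n ^ 16 * (t : GL chevF4.Idx K) * (n ^ 16)⁻¹ = (t : GL chevF4.Idx K) := by
    rw [ChevSS.diag_comm (T hK).G h3 htH, mul_inv_cancel_right]
  rw [h5] at h4
  have h6 : (t : GL chevF4.Idx K) ^ 1 = (t : GL chevF4.Idx K) ^ (2 ^ 16) := by rw [pow_one]; exact h4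
  have h7 := pow_eq_pow_iff_modEq.mp h6
  rw [hto] at h7
  exact absurd h7 (by decide)

theorem altF4T {K : Type*} [Field K] [Fintype K] {m : ℕ} (hK : Fintype.card K = 2 ^ (2 * m + 1)) (r : ℕ)
    (H : Subgroup ↥(twistedF4 K (2 ^ m))) (N : Subgroup ↥H) [N.Normal] (h : Nonempty (↥H ⧸ N ≃* ↥(alternatingGroup (Fin r)))) :
    r ≤ 6 := by
  by_contra hr
  obtain ⟨e⟩ := h
  obtain ⟨x, y, hx, hy⟩ := AltElt.sec_seven H N e (by omega)
  exact no_seven hK x y hx hy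

end Cfsg.Agent.Lib.AltTw
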