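import Mathlib

/-! Alternating sections of linear groups (S2653), part A: sections and the reduction to central
kernel. -/

set_option autoImplicit false

namespace Cfsg.Agent.AltSec

open Module

/-- simultaneous eigenvectors for distinct characters are linearly independent -/
theorem li_of_weights {K V ι J : Type*} [Field K] [AddCommGroup V] [Module K V]
    (f : ι → Module.End K V) (χ : J → ι → K) (hχ : Function.Injective χ) (v : J → V)
    (hv0 : ∀ j, v j ≠ 0) (hv : ∀ j i, f i (v j) = χ j i • v j) : LinearIndependent K v := by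
  classical
  rw [linearIndependent_iff']
  intro s
  induction s using Finset.induction_on with
  | empty => intro g _ j hj; simp at hj
  | insert a s ha ih =>
    intro g hg
    have hs : ∀ j ∈ s, g j = 0 := by
      intro j hj
      have hne : χ j ≠ χ a := fun e => ha (hχ e ▸ hj)
      obtain ⟨i, hi⟩ := Function.ne_iff.mp hne
      have h1 : ∑ j ∈ s, (g j * (χ j i - χ a i)) • v j = 0 := by
        have h2 := congrArg (fun x => f i x - χ a i • x) hg
        simp only [map_zero, smul_zero, sub_zero, map_sum, map_smul, hv, Finset.smul_sum] at h2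
        rw [Finset.sum_insert ha, Finset.sum_insert ha] at h2
        rw [smul_comm (g a) (χ a i) (v a), add_sub_add_left_eq_sub, ← Finset.sum_sub_distrib] at h2
        rw [← h2]
        refine Finset.sum_congr rfl fun x _ => ?_
        rw [mul_sub, sub_smul, mul_smul, mul_comm (g x) (χ a i), mul_smul]
      have h3 := ih _ h1 j hj
      exact (mul_eq_zero.mp h3).resolve_right (sub_ne_zero.mpr hi)
    intro j hj
    rcases Finset.mem_insert.mp hj with rfl | hj
    · rw [Finset.sum_insert ha, Finset.sum_eq_zero (fun x hx => by rw [hs x hx, zero_smul]),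
        add_zero] at hg
      exact (smul_eq_zero.mp hg).resolve_right (hv0 _)
    · exact hs j hj

theorem card_le_of_weights {K V ι J : Type*} [Field K] [AddCommGroup V] [Module K V]
    [FiniteDimensional K V]
    (f : ι → Module.End K V) (χ : J → ι → K) (hχ : Function.Injective χ) (v : J → V)
    (hv0 : ∀ j, v j ≠ 0) (hv : ∀ j i, f i (v j) = χ j i • v j) :
    Finite J ∧ Nat.card J ≤ finrank K V := by
  have h := li_of_weights f χ hχ v hv0 hv
  haveI : Finite J := h.finite
  haveI := Fintype.ofFinite J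
  exact ⟨inferInstance, by rw [Nat.card_eq_fintype_card]; exact h.fintype_card_le_finrank⟩

/-- a common eigenvector of a commuting family -/
theorem exists_common {K V ι : Type*} [Field K] [IsAlgClosed K] [AddCommGroup V] [Module K V]
    [FiniteDimensional K V] [Nontrivial V] (f : ι → Module.End K V)
    (hf : ∀ i j, Commute (f i) (f j)) : ∃ v : V, v ≠ 0 ∧ ∀ i, ∃ c : K, f i v = c • v := by
  classical
  -- a nonzero invariant subspace of minimal dimension
  let P : ℕ → Prop := fun d => ∃ W : Submodule K V, W ≠ ⊥ ∧ (∀ i, ∀ w ∈ W, f i w ∈ W) ∧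
    finrank K W = d
  have hP : ∃ d, P d := ⟨_, ⊤, top_ne_bot, fun _ _ _ => trivial, rfl⟩
  obtain ⟨W, hW, hinv, hd⟩ := Nat.find_spec hP
  have hmin : ∀ W' : Submodule K V, W' ≠ ⊥ → (∀ i, ∀ w ∈ W', f i w ∈ W') → W' ≤ W → W' = W := by
    intro W' h1 h2 h3
    refine Submodule.eq_of_le_of_finrank_le h3 ?_
    rw [hd]
    exact Nat.find_min' hP ⟨W', h1, h2, rfl⟩
  obtain ⟨v, hvW, hv0⟩ := (Submodule.ne_bot_iff _).mp hW
  refine ⟨v, hv0, fun i => ?_⟩
  haveI : Nontrivial W := Submodule.nontrivial_iff_ne_bot.mpr hW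
  obtain ⟨c, hc⟩ := Module.End.exists_eigenvalue ((f i).restrict (hinv i))
  obtain ⟨⟨w, hw⟩, hw1, hw0⟩ := hc.exists_hasEigenvector
  have hw2 : f i w = c • w := by
    have := Module.End.mem_eigenspace_iff.mp hw1
    have h3 := congrArg Subtype.val this
    simpa using h3
  have hw0' : w ≠ 0 := fun e => hw0 (by ext; exact e)
  have h4 : W ⊓ Module.End.eigenspace (f i) c = W := by
    refine hmin _ ?_ ?_ inf_le_left
    · exact (Submodule.ne_bot_iff _).mpr ⟨w, ⟨hw, Module.End.mem_eigenspace_iff.mpr hw2⟩, hw0'⟩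
    · intro j x hx
      refine ⟨hinv j x hx.1, Module.End.mem_eigenspace_iff.mpr ?_⟩
      have h5 := Module.End.mem_eigenspace_iff.mp hx.2
      have h6 : f i (f j x) = f j (f i x) := congrArg (fun g : Module.End K V => g x) (hf i j).eq
      rw [h6, h5, map_smul]
  rw [← h4] at hvW
  exact ⟨c, Module.End.mem_eigenspace_iff.mp hvW.2⟩

/-- the algebraic closure of the prime field -/
abbrev KK (p : ℕ) [Fact p.Prime] : Type := AlgebraicClosure (ZMod p)

/-- `Sec p r n N`: a group of order `N` with a representation of degree `n` over the algebraic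
closure of `F_p` whose image has a section `Alt_r`. -/
def Sec (p : ℕ) [Fact p.Prime] (r n N : ℕ) : Prop :=
  ∃ (H : Type) (_ : Group H) (_ : Finite H)
    (ρ : H →* Matrix (Fin n) (Fin n) (KK p)) (π : H →* alternatingGroup (Fin r)),
    Nat.card H = N ∧ Function.Surjective π ∧ ∀ h, ρ h = 1 → π h = 1

theorem sec_of_rep {p : ℕ} [Fact p.Prime] {r : ℕ} {H V : Type*} [Group H] [Finite H]
    [AddCommGroup V] [Module (KK p) V] [FiniteDimensional (KK p) V]
    (ρ : H →* Module.End (KK p) V) (π : H →* alternatingGroup (Fin r))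
    (hs : Function.Surjective π) (hk : ∀ h, ρ h = 1 → π h = 1) :
    Sec p r (finrank (KK p) V) (Nat.card H) := by
  classical
  obtain ⟨H', ⟨e⟩⟩ : ∃ H' : Type, Nonempty (H' ≃ H) :=
    ⟨Fin (Nat.card H), ⟨(Finite.equivFin H).symm⟩⟩
  letI : Group H' := e.group
  let em : H' ≃* H := e.mulEquiv
  let b := Module.finBasis (KK p) V
  refine ⟨H', inferInstance, Finite.of_equiv H e.symm,
    ((LinearMap.toMatrixAlgEquiv b : _ →* _)).comp (ρ.comp em.toMonoidHom),
    π.comp em.toMonoidHom, Nat.card_congr e, hs.comp em.surjective, fun h hh => ?_⟩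
  refine hk _ ?_
  have : LinearMap.toMatrixAlgEquiv b (ρ (em h)) = LinearMap.toMatrixAlgEquiv b 1 := by
    rw [map_one]; exact hh
  exact (LinearMap.toMatrixAlgEquiv b).injective this

theorem sec_of_field {p : ℕ} [Fact p.Prime] {r n : ℕ} {H K : Type*} [Group H] [Finite H]
    [Field K] (i : K →+* KK p) (ρ : H →* Matrix (Fin n) (Fin n) K)
    (π : H →* alternatingGroup (Fin r))
    (hs : Function.Surjective π) (hk : ∀ h, ρ h = 1 → π h = 1) :
    Sec p r n (Nat.card H) := by
  classical
  have := sec_of_rep (p := p) (V := Fin n → KK p)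
    (ρ := ((Matrix.toLinAlgEquiv' (R := KK p) (n := Fin n) : _ →* _)).comp
      ((RingHom.mapMatrix (m := Fin n) i).toMonoidHom.comp ρ)) π hs ?_
  · rwa [Module.finrank_fin_fun] at this
  · intro h hh
    apply hk
    have h1 : Matrix.toLinAlgEquiv' (i.mapMatrix (ρ h)) = Matrix.toLinAlgEquiv' 1 := by
      rw [map_one]; exact hh
    have h2 := Matrix.toLinAlgEquiv'.injective h1
    have h3 : i.mapMatrix (ρ h) = i.mapMatrix 1 := by rw [h2, map_one]
    ext a b
    have h4 := congrFun (congrFun h3 a) b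
    exact i.injective h4

/-- the minimal configuration -/
structure MinCfg {p : ℕ} [Fact p.Prime] {r : ℕ} {H : Type} [Group H] {V : Type}
    [AddCommGroup V] [Module (KK p) V]
    (ρ : H →* Module.End (KK p) V) (π : H →* alternatingGroup (Fin r)) : Prop where
  hr : 9 ≤ r
  fin : Finite H
  fd : FiniteDimensional (KK p) V
  surj : Function.Surjective π
  ker : ∀ h, ρ h = 1 → π h = 1
  min1 : ∀ (q : ℕ) [Fact q.Prime] (m : ℕ), m < finrank (KK p) V → ∀ N, ¬ Sec q r m N
  min2 : ∀ N < Nat.card H, ¬ Sec p r (finrank (KK p) V) N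
  le : finrank (KK p) V + 2 ≤ r

theorem alt_normal {r : ℕ} (hr : 9 ≤ r) (N : Subgroup (alternatingGroup (Fin r))) [N.Normal] :
    N = ⊥ ∨ N = ⊤ := by
  haveI := alternatingGroup.isSimpleGroup (α := Fin r) (by rw [Nat.card_fin]; omega)
  exact IsSimpleGroup.eq_bot_or_eq_top_of_normal N inferInstance

theorem alt_nonabelian {r : ℕ} (hr : 9 ≤ r) :
    ¬ ∀ a b : alternatingGroup (Fin r), a * b = b * a := by
  intro h
  have h1 := alternatingGroup.center_eq_bot (α := Fin r) (by rw [Nat.card_fin]; omega)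
  haveI := alternatingGroup.isSimpleGroup (α := Fin r) (by rw [Nat.card_fin]; omega)
  obtain ⟨a, ha⟩ := exists_ne (1 : alternatingGroup (Fin r))
  have h2 : a ∈ Subgroup.center (alternatingGroup (Fin r)) :=
    Subgroup.mem_center_iff.mpr fun b => h b a
  rw [h1, Subgroup.mem_bot] at h2
  exact ha h2

namespace MinCfg

variable {p : ℕ} [Fact p.Prime] {r : ℕ} {H : Type} [Group H] {V : Type}
    [AddCommGroup V] [Module (KK p) V]
    {ρ : H →* Module.End (KK p) V} {π : H →* alternatingGroup (Fin r)}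

theorem inj (c : MinCfg ρ π) : Function.Injective ρ := by
  haveI := c.fin
  haveI := c.fd
  have hk : ρ.ker = ⊥ := by
    by_contra hne
    have h1 : Nat.card (H ⧸ ρ.ker) < Nat.card H := by
      rw [Subgroup.card_eq_card_quotient_mul_card_subgroup ρ.ker]
      have h2 : 1 < Nat.card ρ.ker := (Subgroup.one_lt_card_iff_ne_bot _).mpr hne
      have h3 : 0 < Nat.card (H ⧸ ρ.ker) := Nat.card_pos
      nlinarith
    refine c.min2 _ h1 (sec_of_rep (QuotientGroup.lift ρ.ker ρ le_rfl)
      (QuotientGroup.lift ρ.ker π fun x hx => c.ker x hx) ?_ ?_)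
    · intro a
      obtain ⟨h, hh⟩ := c.surj a
      exact ⟨QuotientGroup.mk h, hh⟩
    · intro q
      induction q using QuotientGroup.induction_on with
      | H g => intro h; exact c.ker g h
  intro a b hab
  have : a * b⁻¹ ∈ ρ.ker := by
    rw [MonoidHom.mem_ker, map_mul, hab, ← map_mul, mul_inv_cancel, map_one]
  rw [hk, Subgroup.mem_bot] at this
  exact mul_inv_eq_one.mp this

theorem gen (c : MinCfg ρ π) (L : Subgroup H) (hL : L.map π = ⊤) : L = ⊤ := by
  haveI := c.fin
  haveI := c.fd
  by_contra hne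
  have h1 : Nat.card L < Nat.card H := by
    refine lt_of_le_of_ne (Subgroup.card_le_card_group L) fun e => hne ?_
    exact Subgroup.eq_top_of_card_eq L e
  refine c.min2 _ h1 (sec_of_rep (ρ.comp L.subtype) (π.comp L.subtype) ?_ ?_)
  · intro a
    have : a ∈ L.map π := by rw [hL]; trivial
    obtain ⟨h, hh, e⟩ := Subgroup.mem_map.mp this
    exact ⟨⟨h, hh⟩, e⟩
  · intro h hh
    exact c.ker _ hh

theorem nrm (c : MinCfg ρ π) (N : Subgroup H) [hN : N.Normal] : N ≤ π.ker ∨ N = ⊤ := by
  haveI : (N.map π).Normal := hN.map π c.surj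
  rcases alt_normal c.hr (N.map π) with h | h
  · left
    exact (Subgroup.map_eq_bot_iff N).mp h
  · right
    exact c.gen N h

theorem nab (c : MinCfg ρ π) : ¬ ∀ a b : H, a * b = b * a := by
  intro h
  refine alt_nonabelian c.hr fun a b => ?_
  obtain ⟨x, rfl⟩ := c.surj a
  obtain ⟨y, rfl⟩ := c.surj b
  rw [← map_mul, h, map_mul]

theorem nontriv (c : MinCfg ρ π) : Nontrivial V := by
  by_contra hn
  rw [not_nontrivial_iff_subsingleton] at hn
  refine c.nab fun a b => c.inj ?_
  ext v
  exact Subsingleton.elim _ _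

theorem irr (c : MinCfg ρ π) (W : Submodule (KK p) V) (hW : ∀ h, ∀ w ∈ W, ρ h w ∈ W) :
    W = ⊥ ∨ W = ⊤ := by
  haveI := c.fin
  haveI := c.fd
  by_contra hne
  push Not at hne
  obtain ⟨h1, h2⟩ := hne
  -- actions on `W` and `V ⧸ W`
  let ρ₁ : H →* Module.End (KK p) W :=
    { toFun := fun h => (ρ h).restrict (hW h)
      map_one' := by ext x; simp
      map_mul' := by intro a b; ext x; simp }
  let ρ₂ : H →* Module.End (KK p) (V ⧸ W) :=
    { toFun := fun h => W.mapQ W (ρ h) (hW h)
      map_one' := by ext x; simp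
      map_mul' := by intro a b; ext x; simp }
  have d1 : finrank (KK p) W < finrank (KK p) V := Submodule.finrank_lt h2
  have d2 : finrank (KK p) (V ⧸ W) < finrank (KK p) V := by
    have e := W.finrank_quotient_add_finrank
    have : 0 < finrank (KK p) W := by
      haveI := Submodule.nontrivial_iff_ne_bot.mpr h1
      exact finrank_pos
    omega
  have k1 : ρ₁.ker = ⊤ := by
    rcases c.nrm ρ₁.ker with h | h
    · exact absurd (sec_of_rep ρ₁ π c.surj fun x hx => h hx) (c.min1 p _ d1 _)
    · exact h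
  have k2 : ρ₂.ker = ⊤ := by
    rcases c.nrm ρ₂.ker with h | h
    · exact absurd (sec_of_rep ρ₂ π c.surj fun x hx => h hx) (c.min1 p _ d2 _)
    · exact h
  have t1 : ∀ h, ∀ w ∈ W, ρ h w = w := by
    intro h w hw
    have : h ∈ ρ₁.ker := by rw [k1]; trivial
    have h3 := congrArg (fun g : Module.End (KK p) W => ((g ⟨w, hw⟩ : W) : V))
      (MonoidHom.mem_ker.mp this)
    exact h3
  have t2 : ∀ h v, ρ h v - v ∈ W := by
    intro h v
    have : h ∈ ρ₂.ker := by rw [k2]; trivial
    have h3 := congrArg (fun g : Module.End (KK p) (V ⧸ W) => g (W.mkQ v))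
      (MonoidHom.mem_ker.mp this)
    have h4 : W.mkQ (ρ h v) = W.mkQ v := h3
    rw [← sub_eq_zero, ← map_sub, Submodule.mkQ_apply, Submodule.Quotient.mk_eq_zero] at h4
    exact h4
  refine c.nab fun a b => c.inj ?_
  ext v
  rw [map_mul, map_mul, Module.End.mul_apply, Module.End.mul_apply]
  have e1 := t1 a _ (t2 b v)
  have e2 := t1 b _ (t2 a v)
  rw [map_sub] at e1 e2
  have e3 : ρ a (ρ b v) = ρ b v - v + ρ a v := by rw [← e1]; abel
  have e4 : ρ b (ρ a v) = ρ a v - v + ρ b v := by rw [← e2]; abel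
  rw [e3, e4]; abel

theorem card_alt {r : ℕ} (hr : 9 ≤ r) : 2 * Nat.card (alternatingGroup (Fin r)) = r.factorial := by
  haveI : Nontrivial (Fin r) := Fin.nontrivial_iff_two_le.mpr (by omega)
  rw [two_mul_nat_card_alternatingGroup, Nat.card_perm, Nat.card_fin]

/-- a homomorphism with kernel inside `ker π` has large image -/
theorem card_le_of_ker (c : MinCfg ρ π) {M : Type*} [Monoid M] [Finite M] (φ : H →* M)
    (h : φ.ker ≤ π.ker) : Nat.card (alternatingGroup (Fin r)) ≤ Nat.card M := by
  haveI := c.fin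
  let φ' : H →* Mˣ := φ.toHomUnits
  have hk : φ'.ker ≤ π.ker := by
    intro x hx
    apply h
    rw [MonoidHom.mem_ker] at hx ⊢
    have := congrArg Units.val hx
    simpa [φ'] using this
  have h1 : Nat.card (alternatingGroup (Fin r)) = π.ker.index := by
    rw [Subgroup.index_ker, MonoidHom.range_eq_top.mpr c.surj]
    exact Subgroup.card_top.symm
  have h2 : π.ker.index ≤ φ'.ker.index :=
    Nat.le_of_dvd (Nat.pos_of_ne_zero Subgroup.FiniteIndex.index_ne_zero)
      (Subgroup.index_dvd_of_le hk)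
  have h3 : φ'.ker.index ≤ Nat.card Mˣ := by
    rw [Subgroup.index_ker]
    exact Subgroup.card_le_card_group _
  have h4 : Nat.card Mˣ ≤ Nat.card M := Nat.card_le_card_of_injective _ Units.val_injective
  omega

/-- commutative normal subgroups act by scalars -/
theorem comm_scal (c : MinCfg ρ π) (N : Subgroup H) [hNn : N.Normal]
    (hN : ∀ x ∈ N, ∀ y ∈ N, x * y = y * x) : ∀ x ∈ N, ∃ z : KK p, ρ x = z • 1 := by
  haveI := c.fin
  haveI := c.fd
  haveI := c.nontriv
  let X := {χ : N → KK p // ∃ v : V, v ≠ 0 ∧ ∀ x : N, ρ x v = χ x • v}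
  obtain ⟨hX, hcard⟩ := card_le_of_weights (V := V) (fun x : N => ρ x) (fun χ : X => χ.1)
    Subtype.val_injective (fun χ => χ.2.choose) (fun χ => χ.2.choose_spec.1)
    (fun χ => χ.2.choose_spec.2)
  have key : ∀ (g : H) (χ : X), ∃ v : V, v ≠ 0 ∧ ∀ x : N, ρ x v =
      χ.1 ⟨g⁻¹ * x * g, by simpa using hNn.conj_mem x x.2 g⁻¹⟩ • v := by
    intro g χ
    obtain ⟨v, hv0, hv⟩ := χ.2
    refine ⟨ρ g v, fun e => hv0 ?_, fun x => ?_⟩
    · have : ρ g⁻¹ (ρ g v) = v := by
        rw [← Module.End.mul_apply, ← map_mul, inv_mul_cancel, map_one]; rfl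
      rw [← this, e, map_zero]
    · rw [← map_smul, ← hv, ← Module.End.mul_apply, ← Module.End.mul_apply, ← map_mul, ← map_mul]
      congr 2
      group
  letI : MulAction H X :=
    { smul := fun g χ => ⟨fun x => χ.1 ⟨g⁻¹ * x * g, by simpa using hNn.conj_mem x x.2 g⁻¹⟩,
        key g χ⟩
      one_smul := by
        intro χ
        apply Subtype.ext
        funext x
        exact congrArg χ.1 (Subtype.ext (by show (1 : H)⁻¹ * (x : H) * 1 = x; simp))
      mul_smul := by
        intro g h χ
        apply Subtype.ext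
        funext x
        exact congrArg χ.1 (Subtype.ext (by
          show (g * h)⁻¹ * (x : H) * (g * h) = h⁻¹ * (g⁻¹ * x * g) * h
          group)) }
  let φ : H →* Equiv.Perm X := MulAction.toPermHom H X
  rcases c.nrm φ.ker with h | h
  · exfalso
    have h1 := c.card_le_of_ker φ h
    rw [Nat.card_perm] at h1
    have h2 := card_alt c.hr
    have h3 : (Nat.card X).factorial ≤ (r - 2).factorial :=
      Nat.factorial_le (by have := c.le; omega)
    obtain ⟨t, rfl⟩ : ∃ t, r = t + 2 := ⟨r - 2, by have := c.hr; omega⟩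
    rw [Nat.add_sub_cancel] at h3
    rw [Nat.factorial_succ, Nat.factorial_succ] at h2
    have h4 := Nat.factorial_pos t
    have h5 := c.hr
    have h6 : 9 * (8 * t.factorial) ≤ (t + 1 + 1) * ((t + 1) * t.factorial) :=
      Nat.mul_le_mul (by omega) (Nat.mul_le_mul (by omega) le_rfl)
    omega
  · obtain ⟨v, hv0, hv⟩ := exists_common (V := V) (fun x : N => ρ x) (by
      intro x y
      show ρ x * ρ y = ρ y * ρ x
      rw [← map_mul, ← map_mul, hN x x.2 y y.2])
    choose χ hχ using hv
    let χ' : X := ⟨χ, v, hv0, hχ⟩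
    have hinv : ∀ g : H, ∀ x : N, χ ⟨g⁻¹ * x * g, by simpa using hNn.conj_mem x x.2 g⁻¹⟩ = χ x := by
      intro g x
      have h1 : g ∈ φ.ker := by rw [h]; trivial
      have h2 : φ g χ' = χ' := by rw [MonoidHom.mem_ker.mp h1]; rfl
      exact congrFun (congrArg Subtype.val h2) x
    let W : Submodule (KK p) V :=
      { carrier := {w | ∀ x : N, ρ x w = χ x • w}
        add_mem' := by intro a b ha hb x; rw [map_add, ha x, hb x, smul_add]
        zero_mem' := by intro x; simp
        smul_mem' := by intro t a ha x; rw [map_smul, ha x, smul_comm] }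
    have hW : W = ⊤ := by
      refine (c.irr W ?_).resolve_left ?_
      · intro g w hw x
        have h1 := hw ⟨g⁻¹ * x * g, by simpa using hNn.conj_mem x x.2 g⁻¹⟩
        rw [hinv] at h1
        rw [← map_smul, ← h1, ← Module.End.mul_apply, ← Module.End.mul_apply, ← map_mul,
          ← map_mul]
        congr 2
        group
      · exact (Submodule.ne_bot_iff _).mpr ⟨v, hχ, hv0⟩
    intro x hx
    refine ⟨χ ⟨x, hx⟩, ?_⟩
    ext w
    have : w ∈ W := by rw [hW]; trivial
    exact this ⟨x, hx⟩

end MinCfg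

end Cfsg.Agent.AltSec
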