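import Cfsg.Agent.Lib.AltSecA

/-! Alternating sections of linear groups (S2653), part B: the kernel is central. -/

set_option autoImplicit false

namespace Cfsg.Agent.AltSec

open Module
open scoped commutatorElement

namespace MinCfg

variable {p : ℕ} [Fact p.Prime] {r : ℕ} {H : Type} [Group H] {V : Type}
    [AddCommGroup V] [Module (KK p) V]
    {ρ : H →* Module.End (KK p) V} {π : H →* alternatingGroup (Fin r)}

theorem mem_center_iff (c : MinCfg ρ π) (x : H) :
    x ∈ Subgroup.center H ↔ ∃ z : KK p, ρ x = z • 1 := by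
  constructor
  · intro hx
    exact c.comm_scal (Subgroup.center H)
      (fun a ha b _ => (Subgroup.mem_center_iff.mp ha b).symm) x hx
  · rintro ⟨z, hz⟩
    rw [Subgroup.mem_center_iff]
    intro g
    apply c.inj
    rw [map_mul, map_mul, hz]; simp

theorem comm_le_center (c : MinCfg ρ π) (N : Subgroup H) [N.Normal]
    (hN : ∀ x ∈ N, ∀ y ∈ N, x * y = y * x) : N ≤ Subgroup.center H :=
  fun x hx => (c.mem_center_iff x).mpr (c.comm_scal N hN x hx)

/-- data of the offending `s`-subgroup -/
structure Bad (π : H →* alternatingGroup (Fin r)) (s : ℕ) (R : Subgroup H) : Prop where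
  nrm : R.Normal
  le : R ≤ π.ker
  nle : ¬ R ≤ Subgroup.center H
  min : ∀ N : Subgroup H, N.Normal → N ≤ R → ¬ N ≤ Subgroup.center H → N = R
  pg : IsPGroup s R

theorem exists_bad (c : MinCfg ρ π) (hne : ¬ π.ker ≤ Subgroup.center H) :
    ∃ s, ∃ _ : Fact s.Prime, ∃ R : Subgroup H, Bad π s R := by
  classical
  haveI := c.fin
  let S : Set (Subgroup H) := {N | N.Normal ∧ N ≤ π.ker ∧ ¬ N ≤ Subgroup.center H}
  obtain ⟨R, ⟨hRn, hRk, hRZ⟩, hmin⟩ :=
    wellFounded_lt.has_min S ⟨π.ker, inferInstance, le_rfl, hne⟩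
  haveI := hRn
  have hmin' : ∀ N : Subgroup H, N.Normal → N ≤ R → ¬ N ≤ Subgroup.center H → N = R := by
    intro N h1 h2 h3
    by_contra h4
    exact hmin N ⟨h1, h2.trans hRk, h3⟩ (lt_of_le_of_ne h2 h4)
  let Z₀ := (Subgroup.center H).subgroupOf R
  have hi : Z₀.index ≠ 1 := by
    intro e
    rw [Subgroup.index_eq_one] at e
    exact hRZ (Subgroup.subgroupOf_eq_top.mp e)
  haveI hs : Fact (Z₀.index.minFac).Prime := ⟨Nat.minFac_prime hi⟩
  let T : Sylow (Z₀.index.minFac) R := default
  have hT : ¬ (T : Subgroup R) ≤ Z₀ := by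
    intro h
    exact T.not_dvd_index ((Nat.minFac_dvd _).trans (Subgroup.index_dvd_of_le h))
  have hF := Sylow.normalizer_sup_eq_top T
  have hN := c.gen (Subgroup.normalizer ((T : Subgroup R).map R.subtype)) (by
    have h1 := congrArg (Subgroup.map π) hF
    rw [Subgroup.map_sup, Subgroup.map_top_of_surjective π c.surj,
      (Subgroup.map_eq_bot_iff R).mpr hRk, sup_bot_eq] at h1
    exact h1)
  have hTn : ((T : Subgroup R).map R.subtype).Normal := Subgroup.normalizer_eq_top_iff.mp hN
  have hTR := hmin' _ hTn (Subgroup.map_subtype_le _) (by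
    intro h
    apply hT
    intro x hx
    exact h (Subgroup.mem_map_of_mem R.subtype hx))
  refine ⟨_, hs, R, hRn, hRk, hRZ, hmin', ?_⟩
  have h1 : IsPGroup (Z₀.index.minFac) ((T : Subgroup R).map R.subtype) :=
    T.isPGroup'.map _
  rwa [hTR] at h1

theorem Bad.comm (c : MinCfg ρ π) {s : ℕ} [Fact s.Prime] {R : Subgroup H} (b : Bad π s R) :
    ∀ x ∈ R, ∀ y ∈ R, ⁅x, y⁆ ∈ Subgroup.center H := by
  haveI := c.fin
  haveI := b.nrm
  haveI : Group.IsNilpotent R := b.pg.isNilpotent
  have hRbot : R ≠ ⊥ := fun e => b.nle (by rw [e]; exact bot_le)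
  haveI : Nontrivial R := (Subgroup.nontrivial_iff_ne_bot R).mpr hRbot
  have h1 : ⁅R, R⁆ ≤ Subgroup.center H := by
    by_contra h
    have h2 := b.min ⁅R, R⁆ inferInstance (Subgroup.commutator_le_right R R) h
    have h3 : commutator R < ⊤ := IsSolvable.commutator_lt_top_of_nontrivial R
    rw [← Subgroup.map_subtype_commutator] at h2
    apply h3.ne
    apply Subgroup.map_injective R.subtype_injective
    rw [h2, ← MonoidHom.range_eq_map, Subgroup.range_subtype]
  intro x hx y hy
  exact h1 (Subgroup.commutator_mem_commutator hx hy)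

theorem Bad.cen (c : MinCfg ρ π) {s : ℕ} {R : Subgroup H} (b : Bad π s R) :
    ∀ x ∈ R, (∀ y ∈ R, x * y = y * x) → x ∈ Subgroup.center H := by
  haveI := b.nrm
  let N : Subgroup H := Subgroup.centralizer (R : Set H) ⊓ R
  have hN : N ≤ Subgroup.center H := by
    by_contra h
    have h1 := b.min N inferInstance inf_le_right h
    apply b.nle
    apply c.comm_le_center R
    intro x hx y hy
    rw [← h1] at hx
    exact (Subgroup.mem_centralizer_iff.mp hx.1 y hy).symm
  intro x hx h
  exact hN ⟨Subgroup.mem_centralizer_iff.mpr fun y hy => (h y hy).symm, hx⟩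

theorem Bad.exp (c : MinCfg ρ π) {s : ℕ} [hs : Fact s.Prime] {R : Subgroup H} (b : Bad π s R) :
    ∀ x ∈ R, x ^ s ∈ Subgroup.center H := by
  classical
  haveI := b.nrm
  have hq : ∀ x : H, x ∈ Subgroup.center H ↔ QuotientGroup.mk' (Subgroup.center H) x = 1 := by
    intro x
    rw [← MonoidHom.mem_ker, QuotientGroup.ker_mk']
  let R₁ : Subgroup H :=
    { carrier := {x | x ∈ R ∧ x ^ s ∈ Subgroup.center H}
      one_mem' := ⟨R.one_mem, by rw [one_pow]; exact Subgroup.one_mem _⟩
      mul_mem' := by
        rintro x y ⟨hx, hx'⟩ ⟨hy, hy'⟩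
        refine ⟨R.mul_mem hx hy, ?_⟩
        have h1 := Bad.comm c b x hx y hy
        rw [hq] at hx' hy' h1 ⊢
        rw [map_commutatorElement, commutatorElement_eq_one_iff_commute] at h1
        rw [map_pow] at hx' hy' ⊢
        rw [map_mul, h1.mul_pow, hx', hy', one_mul]
      inv_mem' := by
        rintro x ⟨hx, hx'⟩
        exact ⟨R.inv_mem hx, by rw [inv_pow]; exact Subgroup.inv_mem _ hx'⟩ }
  have hn : R₁.Normal := by
    constructor
    rintro x ⟨hx, hx'⟩ g
    refine ⟨b.nrm.conj_mem x hx g, ?_⟩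
    rw [conj_pow]
    exact (inferInstance : (Subgroup.center H).Normal).conj_mem _ hx' g
  have h1 : R₁ = R := by
    refine b.min R₁ hn (fun x hx => hx.1) ?_
    intro hle
    apply b.nle
    intro x hx
    by_contra hxc
    obtain ⟨a, ha⟩ := b.pg ⟨x, hx⟩
    have hex : ∃ j, x ^ s ^ j ∈ Subgroup.center H :=
      ⟨a, by rw [show x ^ s ^ a = 1 from congrArg Subtype.val ha]; exact Subgroup.one_mem _⟩
    have hj := Nat.find_spec hex
    have hj0 : Nat.find hex ≠ 0 := by
      intro e
      rw [e, pow_zero, pow_one] at hj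
      exact hxc hj
    obtain ⟨j, hj'⟩ := Nat.exists_eq_succ_of_ne_zero hj0
    have h2 := Nat.find_min hex (m := j) (by omega)
    rw [hj', Nat.succ_eq_add_one, pow_succ, pow_mul] at hj
    exact h2 (hle ⟨R.pow_mem hx _, hj⟩)
  intro x hx
  rw [← h1] at hx
  exact hx.2

theorem Bad.card_le (c : MinCfg ρ π) {s : ℕ} [hs : Fact s.Prime] {R : Subgroup H}
    (b : Bad π s R) :
    Nat.card (R ⧸ (Subgroup.center H).subgroupOf R) ≤
      finrank (KK p) V * finrank (KK p) V := by
  classical
  haveI := c.fin
  haveI := c.fd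
  haveI := c.nontriv
  haveI := b.nrm
  set Z₀ := (Subgroup.center H).subgroupOf R with hZ₀
  have key : ∀ (w : R ⧸ Z₀) (y : R), ∃ z : KK p, ρ ⁅(y : H), ((Quotient.out w : R) : H)⁆ = z • 1 :=
    fun w y => (c.mem_center_iff _).mp (Bad.comm c b y y.2 _ (Quotient.out w).2)
  choose χ hχ using key
  have hu : ∀ x : H, IsUnit (ρ x) := fun x => (Group.isUnit x).map ρ
  have h := card_le_of_weights (V := Module.End (KK p) V)
    (fun y : R => (LinearMap.mulLeft (KK p) (ρ y)).comp (LinearMap.mulRight (KK p) (ρ (y : H)⁻¹)))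
    χ ?_ (fun w => ρ ((Quotient.out w : R) : H)) ?_ ?_
  · rw [Module.finrank_linearMap] at h
    exact h.2
  · intro w w' hw
    have h1 : ∀ y : R, ⁅(y : H), ((Quotient.out w : R) : H)⁆ = ⁅(y : H), ((Quotient.out w' : R) : H)⁆ := by
      intro y
      apply c.inj
      rw [hχ, hχ, hw]
    have h2 : ((Quotient.out w : R) : H)⁻¹ * ((Quotient.out w' : R) : H) ∈ Subgroup.center H := by
      apply Bad.cen c b _ (R.mul_mem (R.inv_mem (Quotient.out w).2) (Quotient.out w').2)
      intro y hy
      have h3 := h1 ⟨y, hy⟩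
      have h4 := Bad.comm c b y hy _ (Quotient.out w).2
      simp only [commutatorElement_def] at h3 h4
      rw [Subgroup.mem_center_iff] at h4
      set a := ((Quotient.out w : R) : H)
      set d := ((Quotient.out w' : R) : H)
      -- y a y⁻¹ = c a, y d y⁻¹ = c d
      have h5 : y * a * y⁻¹ = (y * a * y⁻¹ * a⁻¹) * a := by group
      have h6 : y * d * y⁻¹ = (y * a * y⁻¹ * a⁻¹) * d := by rw [h3]; group
      have h7 : y * (a⁻¹ * d) * y⁻¹ = a⁻¹ * d := by
        have : y * (a⁻¹ * d) * y⁻¹ = (y * a * y⁻¹)⁻¹ * (y * d * y⁻¹) := by group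
        rw [this, h5, h6]
        group
      calc a⁻¹ * d * y = y * (a⁻¹ * d) * y⁻¹ * y := by rw [h7]
        _ = y * (a⁻¹ * d) := by group
    rw [← Quotient.out_eq w, ← Quotient.out_eq w']
    exact QuotientGroup.eq.mpr h2
  · intro w e
    exact (hu _).ne_zero e
  · intro w y
    show ρ y * (ρ ((Quotient.out w : R) : H) * ρ (y : H)⁻¹) = _
    have h1 : ρ y * (ρ ((Quotient.out w : R) : H) * ρ (y : H)⁻¹) =
        ρ ⁅(y : H), ((Quotient.out w : R) : H)⁆ * ρ ((Quotient.out w : R) : H) := by
      rw [← map_mul, ← map_mul, ← map_mul]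
      congr 1
      rw [commutatorElement_def]
      group
    rw [h1, hχ, smul_mul_assoc, one_mul]

theorem sec_of_act1 {K : Type} [Field K] {A : Type} [AddCommGroup A] [Module K A]
    {H : Type} [Group H] [Finite H] (act : H →* AddMonoid.End A)
    (hlin : ∀ (h : H) (t : K) (x : A), act h (t • x) = t • act h x) :
    ∃ ρW : H →* Module.End K A, ∀ h x, ρW h x = act h x := by
  exact ⟨{ toFun := fun h =>
        { toFun := act h
          map_add' := map_add (act h)
          map_smul' := fun t x => hlin h t x }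
           map_one' := by
            apply LinearMap.ext
            intro x
            show act 1 x = x
            rw [map_one]
            rfl
           map_mul' := by
            intro g h
            apply LinearMap.ext
            intro x
            show act (g * h) x = act g (act h x)
            rw [map_mul]
            rfl }, fun h x => rfl⟩

theorem sec_of_act2 {K : Type} [Field K] [Finite K] {A : Type} [AddCommGroup A] [Module K A]
    [Finite A] {r : ℕ}
    {H : Type} [Group H] [Finite H] (ρW : H →* Module.End K A)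
    (π : H →* alternatingGroup (Fin r))
    (hk : ρW.ker ≤ π.ker) : ∃ m : ℕ, Nat.card A = Nat.card K ^ m ∧
      ∃ ρM : H →* Matrix (Fin m) (Fin m) K, ρM.ker ≤ π.ker := by
  classical
  haveI : Module.Finite K A := Module.Finite.of_finite
  let bs := Module.finBasis K A
  let m := finrank K A
  let ρM : H →* Matrix (Fin m) (Fin m) K :=
    ((LinearMap.toMatrixAlgEquiv bs : _ →* _)).comp ρW
  have hρM : ρM.ker ≤ π.ker := by
    intro x hx
    apply hk
    rw [MonoidHom.mem_ker] at hx ⊢
    apply (LinearMap.toMatrixAlgEquiv bs).injective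
    rw [map_one]
    exact hx
  exact ⟨m, Module.natCard_eq_pow_finrank (K := K) (V := A), ρM, hρM⟩

/-- an action on an elementary abelian group gives a section -/
theorem sec_of_act' {r s : ℕ} [hs : Fact s.Prime] {A : Type} [AddCommGroup A] [Finite A]
    (hexp : ∀ x : A, s • x = 0) {H : Type} [Group H] [Finite H] (act : H →* AddMonoid.End A)
    (π : H →* alternatingGroup (Fin r)) (hsurj : Function.Surjective π)
    (hk : act.ker ≤ π.ker) : ∃ m : ℕ, Nat.card A = s ^ m ∧ Sec s r m (Nat.card H) ∧
      ∃ ρM : H →* Matrix (Fin m) (Fin m) (ZMod s), ρM.ker ≤ π.ker := by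
  classical
  letI : Module (ZMod s) A := AddCommGroup.zmodModule hexp
  obtain ⟨ρW, hW⟩ := sec_of_act1 (K := ZMod s) act (fun h t x => ZMod.map_smul (act h) t x)
  obtain ⟨m, h1, ρM, h2⟩ := sec_of_act2 ρW π (by
    refine le_trans ?_ hk
    intro h hh
    rw [MonoidHom.mem_ker] at hh ⊢
    ext x
    rw [← hW, hh]
    rfl)
  rw [Nat.card_zmod] at h1
  exact ⟨m, h1, sec_of_field (algebraMap (ZMod s) (KK s)) ρM π hsurj fun h hh => h2 hh, ρM, h2⟩

theorem sec_of_act {r s : ℕ} [hs : Fact s.Prime] {W : Type} [CommGroup W] [Finite W]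
    (hexp : ∀ x : W, x ^ s = 1) {H : Type} [Group H] [Finite H] (act : H →* MulAut W)
    (π : H →* alternatingGroup (Fin r)) (hsurj : Function.Surjective π)
    (hk : act.ker ≤ π.ker) : ∃ m : ℕ, Nat.card W = s ^ m ∧ Sec s r m (Nat.card H) ∧
      ∃ ρM : H →* Matrix (Fin m) (Fin m) (ZMod s), ρM.ker ≤ π.ker := by
  haveI : Finite (Additive W) := inferInstanceAs (Finite W)
  let act' : H →* AddMonoid.End (Additive W) :=
    { toFun := fun h => MonoidHom.toAdditive (act h).toMonoidHom
      map_one' := by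
        rw [map_one]; rfl
      map_mul' := by
        intro g h
        rw [map_mul]; rfl }
  refine sec_of_act' (A := Additive W) (fun x => hexp x.toMul) act' π hsurj (le_trans ?_ hk)
  intro h hh
  rw [MonoidHom.mem_ker] at hh ⊢
  ext x
  exact DFunLike.congr_fun hh (Additive.ofMul x)

/-- the action on the chief factor -/
theorem Bad.sec (c : MinCfg ρ π) {s : ℕ} [hs : Fact s.Prime] {R : Subgroup H}
    (b : Bad π s R) : ∃ m : ℕ, Nat.card (R ⧸ (Subgroup.center H).subgroupOf R) = s ^ m ∧
      Sec s r m (Nat.card H) ∧ Nat.card (alternatingGroup (Fin r)) ≤ s ^ (m * m) := by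
  classical
  haveI := c.fin
  haveI := b.nrm
  set Z₀ := (Subgroup.center H).subgroupOf R with hZ₀
  have hcomm : ∀ x y : R ⧸ Z₀, x * y = y * x := by
    intro x y
    induction x using QuotientGroup.induction_on with
    | H x =>
      induction y using QuotientGroup.induction_on with
      | H y =>
        rw [← QuotientGroup.mk_mul, ← QuotientGroup.mk_mul, QuotientGroup.eq]
        show (((x * y)⁻¹ * (y * x) : R) : H) ∈ Subgroup.center H
        have h1 := Bad.comm c b (y : H)⁻¹ (R.inv_mem y.2) (x : H)⁻¹ (R.inv_mem x.2)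
        rw [commutatorElement_def] at h1
        simpa [mul_assoc] using h1
  letI : CommGroup (R ⧸ Z₀) := { (inferInstance : Group (R ⧸ Z₀)) with mul_comm := hcomm }
  have hexp : ∀ x : R ⧸ Z₀, x ^ s = 1 := by
    intro x
    induction x using QuotientGroup.induction_on with
    | H x =>
      exact (QuotientGroup.eq_one_iff (x ^ s)).mpr (Bad.exp c b x x.2)
  have hmap : ∀ h : H, Z₀.map (MulAut.conjNormal h : MulAut R).toMonoidHom = Z₀ := by
    have h1 : ∀ h : H, Z₀.map (MulAut.conjNormal h : MulAut R).toMonoidHom ≤ Z₀ := by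
      rintro h _ ⟨x, hx, rfl⟩
      show ((MulAut.conjNormal h x : R) : H) ∈ Subgroup.center H
      rw [MulAut.conjNormal_apply]
      exact (inferInstance : (Subgroup.center H).Normal).conj_mem _ hx h
    intro h
    apply le_antisymm (h1 h)
    intro x hx
    refine ⟨MulAut.conjNormal h⁻¹ x, h1 h⁻¹ ⟨x, hx, rfl⟩, ?_⟩
    show MulAut.conjNormal h (MulAut.conjNormal h⁻¹ x) = x
    rw [← MulAut.mul_apply, ← map_mul, mul_inv_cancel, map_one]
    rfl
  let act : H →* MulAut (R ⧸ Z₀) :=
    { toFun := fun h => QuotientGroup.congr Z₀ Z₀ (MulAut.conjNormal h) (hmap h)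
      map_one' := by
        ext x
        induction x using QuotientGroup.induction_on with
        | H x =>
          show QuotientGroup.mk (MulAut.conjNormal (1 : H) x) = _
          rw [map_one]
          rfl
      map_mul' := by
        intro g h
        ext x
        induction x using QuotientGroup.induction_on with
        | H x =>
          show QuotientGroup.mk (MulAut.conjNormal (g * h) x) =
            QuotientGroup.mk (MulAut.conjNormal g (MulAut.conjNormal h x))
          rw [map_mul]
          rfl }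
  have hact : ∀ h : H, act h = 1 → ∀ x ∈ R, x⁻¹ * (h * x * h⁻¹) ∈ Subgroup.center H := by
    intro h hh x hx
    have h2 : act h (QuotientGroup.mk (⟨x, hx⟩ : R)) = QuotientGroup.mk (⟨x, hx⟩ : R) := by
      rw [hh]; rfl
    have h3 : (QuotientGroup.mk (⟨x, hx⟩ : R) : R ⧸ Z₀) =
        QuotientGroup.mk (MulAut.conjNormal h (⟨x, hx⟩ : R)) := h2.symm
    rw [QuotientGroup.eq] at h3
    have h4 : (((⟨x, hx⟩ : R)⁻¹ * MulAut.conjNormal h (⟨x, hx⟩ : R) : R) : H) ∈
      Subgroup.center H := h3
    rw [Subgroup.coe_mul, MulAut.conjNormal_apply] at h4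
    exact h4
  have hker : act.ker ≤ π.ker := by
    rcases c.nrm act.ker with h | h
    · exact h
    · exfalso
      apply b.nle
      intro x hx
      let N : Subgroup H := Subgroup.zpowers x ⊔ Subgroup.center H
      have hmem : ∀ y ∈ N, ∃ i : ℤ, ∃ z ∈ Subgroup.center H, x ^ i * z = y := by
        intro y hy
        obtain ⟨a, ha, z, hz, e⟩ := Subgroup.mem_sup_of_normal_right.mp hy
        obtain ⟨i, rfl⟩ := Subgroup.mem_zpowers_iff.mp ha
        exact ⟨i, z, hz, e⟩
      have hNn : N.Normal := by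
        constructor
        intro y hy g
        obtain ⟨i, z, hz, rfl⟩ := hmem y hy
        have h1 : g * x * g⁻¹ = x * (x⁻¹ * (g * x * g⁻¹)) := by group
        have h2 : x⁻¹ * (g * x * g⁻¹) ∈ Subgroup.center H := by
          refine hact g ?_ x hx
          have : g ∈ act.ker := by rw [h]; trivial
          exact MonoidHom.mem_ker.mp this
        have h3 : g * x * g⁻¹ ∈ N := by
          rw [h1]
          exact N.mul_mem (Subgroup.mem_sup_left (Subgroup.mem_zpowers x)) (Subgroup.mem_sup_right h2)
        have h4 : g * (x ^ i * z) * g⁻¹ = (g * x * g⁻¹) ^ i * (g * z * g⁻¹) := by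
          rw [conj_zpow]; group
        rw [h4]
        exact N.mul_mem (N.zpow_mem h3 i)
          (Subgroup.mem_sup_right ((inferInstance : (Subgroup.center H).Normal).conj_mem _ hz g))
      refine c.comm_le_center N ?_ (Subgroup.mem_sup_left (Subgroup.mem_zpowers x))
      intro y hy y' hy'
      obtain ⟨i, z, hz, rfl⟩ := hmem y hy
      obtain ⟨i', z', hz', rfl⟩ := hmem y' hy'
      rw [Subgroup.mem_center_iff] at hz hz'
      calc x ^ i * z * (x ^ i' * z') = x ^ i * (z * x ^ i') * z' := by group
        _ = x ^ i * (x ^ i' * z) * z' := by rw [← hz]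
        _ = (x ^ i * x ^ i') * (z * z') := by group
        _ = (x ^ i' * x ^ i) * (z' * z) := by rw [← zpow_add, ← zpow_add, add_comm, hz' z]
        _ = x ^ i' * (x ^ i * z') * z := by group
        _ = x ^ i' * (z' * x ^ i) * z := by rw [hz']
        _ = x ^ i' * z' * (x ^ i * z) := by group
  obtain ⟨m, h1, h2, ρM, h3⟩ := sec_of_act hexp act π c.surj hker
  refine ⟨m, h1, h2, ?_⟩
  have h4 := c.card_le_of_ker ρM h3
  have h5 : Nat.card (Matrix (Fin m) (Fin m) (ZMod s)) = s ^ (m * m) := by
    show Nat.card (Fin m → Fin m → ZMod s) = _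
    rw [Nat.card_fun, Nat.card_fun, Nat.card_zmod, Nat.card_fin, pow_mul]
  rwa [h5] at h4

theorem ker_le_center (c : MinCfg ρ π) : π.ker ≤ Subgroup.center H := by
  by_contra hne
  obtain ⟨s, hs, R, b⟩ := c.exists_bad hne
  obtain ⟨m, hm, hsec, hcard⟩ := Bad.sec c b
  have h1 : finrank (KK p) V ≤ m := by
    by_contra h
    exact c.min1 s m (by omega) _ hsec
  have h2 := Bad.card_le c b
  rw [hm] at h2
  have h3 : s ^ m ≤ m * m := h2.trans (Nat.mul_le_mul h1 h1)
  have hs2 := hs.out.two_le
  -- `s = 2`, `m ≤ 4`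
  have h4 : s = 2 := by
    by_contra hne2
    have hs3 : 3 ≤ s := by omega
    have h5 : 3 ^ m ≤ s ^ m := Nat.pow_le_pow_left hs3 m
    have h6 : ∀ k : ℕ, k * k < 3 ^ k := by
      intro k
      induction k with
      | zero => simp
      | succ k ih =>
        rw [pow_succ]
        rcases k with _ | k
        · norm_num
        · nlinarith
    have := h6 m
    omega
  have h5 : m ≤ 4 := by
    by_contra hm5
    rw [h4] at h3
    have h6 : ∀ k : ℕ, (k + 5) * (k + 5) < 2 ^ (k + 5) := by
      intro k
      induction k with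
      | zero => norm_num
      | succ k ih =>
        rw [show k + 1 + 5 = (k + 5) + 1 by ring, pow_succ]
        nlinarith
    have := h6 (m - 5)
    rw [show m - 5 + 5 = m by omega] at this
    omega
  have h6 : s ^ (m * m) ≤ 2 ^ 16 := by
    rw [h4]
    exact Nat.pow_le_pow_right (by norm_num) (by nlinarith)
  have h7 := card_alt c.hr
  have h8 : (9 : ℕ).factorial ≤ r.factorial := Nat.factorial_le c.hr
  have h9 : (9 : ℕ).factorial = 362880 := by decide
  norm_num at h6
  omega

end MinCfg

end Cfsg.Agent.AltSec
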