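import Cfsg.Agent.Lib.AltSecB

/-! Alternating sections of linear groups (S2653), part C: permutations and canonical lifts. -/

set_option autoImplicit false

namespace Cfsg.Agent.AltSec

open Module Equiv.Perm

section perms

variable {r : ℕ}

/-- the three-cycle `x → y → z → x` -/
def tc (x y z : Fin r) : Equiv.Perm (Fin r) := Equiv.swap x y * Equiv.swap y z

theorem tc_x {x y z : Fin r} (hxy : x ≠ y) (hxz : x ≠ z) : tc x y z x = y := by
  rw [tc, Equiv.Perm.mul_apply, Equiv.swap_apply_of_ne_of_ne hxy hxz, Equiv.swap_apply_left]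

theorem tc_y {x y z : Fin r} (hyz : y ≠ z) (hxz : x ≠ z) : tc x y z y = z := by
  rw [tc, Equiv.Perm.mul_apply, Equiv.swap_apply_left, Equiv.swap_apply_of_ne_of_ne hxz.symm hyz.symm]

theorem tc_z {x y z : Fin r} : tc x y z z = x := by
  rw [tc, Equiv.Perm.mul_apply, Equiv.swap_apply_right, Equiv.swap_apply_right]

theorem tc_o {x y z u : Fin r} (hx : u ≠ x) (hy : u ≠ y) (hz : u ≠ z) : tc x y z u = u := by
  rw [tc, Equiv.Perm.mul_apply, Equiv.swap_apply_of_ne_of_ne hy hz, Equiv.swap_apply_of_ne_of_ne hx hy]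

theorem tc_sign {x y z : Fin r} (hxy : x ≠ y) (hyz : y ≠ z) : sign (tc x y z) = 1 := by
  rw [tc, map_mul, Equiv.Perm.sign_swap hxy, Equiv.Perm.sign_swap hyz]
  rfl

theorem tc_conj (g : Equiv.Perm (Fin r)) (x y z : Fin r) :
    g * tc x y z * g⁻¹ = tc (g x) (g y) (g z) := by
  have h1 : ∀ a b : Fin r, g * Equiv.swap a b * g⁻¹ = Equiv.swap (g a) (g b) := by
    intro a b
    rw [Equiv.swap_apply_apply]
  calc g * (Equiv.swap x y * Equiv.swap y z) * g⁻¹
      = (g * Equiv.swap x y * g⁻¹) * (g * Equiv.swap y z * g⁻¹) := by group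
    _ = _ := by rw [h1, h1, tc]

theorem tc_isThreeCycle {x y z : Fin r} (hxy : x ≠ y) (hyz : y ≠ z) (hxz : x ≠ z) :
    (tc x y z).IsThreeCycle := by
  rw [← card_support_eq_three_iff, tc]
  rw [Equiv.Perm.support_swap_mul_swap (by simp [hxy, hyz, hxz])]
  simp [hxy, hyz, hxz]

/-- every three-cycle is some `tc` -/
theorem exists_tc {f : Equiv.Perm (Fin r)} (hf : f.IsThreeCycle) :
    ∃ x y z : Fin r, x ≠ y ∧ y ≠ z ∧ x ≠ z ∧ f = tc x y z := by
  have h3 := hf.card_support
  obtain ⟨x, hx⟩ : f.support.Nonempty := Finset.card_pos.mp (by omega)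
  have ho := hf.orderOf
  have hf3 : f ^ 3 = 1 := by rw [← ho]; exact pow_orderOf_eq_one f
  have hfff : ∀ u, f (f (f u)) = u := fun u => by
    have := DFunLike.congr_fun hf3 u
    simpa [pow_succ] using this
  have hxy : x ≠ f x := fun e => (mem_support.mp hx) e.symm
  have hyz : f x ≠ f (f x) := fun e => hxy (f.injective e)
  have hxz : x ≠ f (f x) := by
    intro e
    have h1 := hfff x
    rw [← e] at h1
    exact hxy h1.symm
  refine ⟨x, f x, f (f x), hxy, hyz, hxz, ?_⟩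
  have hs : f.support = {x, f x, f (f x)} := by
    symm
    apply Finset.eq_of_subset_of_card_le
    · intro u hu
      simp only [Finset.mem_insert, Finset.mem_singleton] at hu
      rcases hu with rfl | rfl | rfl
      · exact hx
      · exact apply_mem_support.mpr hx
      · exact apply_mem_support.mpr (apply_mem_support.mpr hx)
    · rw [h3]
      rw [Finset.card_eq_three.mpr ⟨x, f x, f (f x), hxy, hxz, hyz, rfl⟩]
  ext1 u
  by_cases h1 : u = x
  · subst h1; rw [tc_x hxy hxz]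
  by_cases h2 : u = f x
  · subst h2; rw [tc_y hyz hxz]
  by_cases h4 : u = f (f x)
  · subst h4; rw [tc_z, hfff]
  rw [tc_o h1 h2 h4]
  have : u ∉ f.support := by rw [hs]; simp [h1, h2, h4]
  exact notMem_support.mp this

/-- even permutations supported on `S` are generated by the three-cycles in `S` -/
theorem gen3 (L : Subgroup (Equiv.Perm (Fin r))) (S : Set (Fin r))
    (h : ∀ x ∈ S, ∀ y ∈ S, ∀ z ∈ S, x ≠ y → y ≠ z → x ≠ z → tc x y z ∈ L)
    (e : Equiv.Perm (Fin r)) (he : sign e = 1) (hf : ∀ x, x ∉ S → e x = x) : e ∈ L := by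
  classical
  have h1 : ∀ x, e x ≠ x → x ∈ S := fun x hx => by
    by_contra h2
    exact hx (hf x h2)
  have h2 : ∀ x, x ∈ S ↔ e x ∈ S := by
    intro x
    constructor
    · intro hx
      by_contra h3
      have h4 := hf _ h3
      have h5 := e.injective h4
      rw [h5] at h3
      exact h3 hx
    · intro hx
      by_contra h3
      rw [hf x h3] at hx
      exact h3 hx
  have h3 : Equiv.Perm.ofSubtype (e.subtypePerm fun x => (h2 x).symm : Equiv.Perm {x // x ∈ S}) = e :=
    Equiv.Perm.ofSubtype_subtypePerm _ h1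
  have h4 : (e.subtypePerm fun x => (h2 x).symm : Equiv.Perm {x // x ∈ S}) ∈
      alternatingGroup {x // x ∈ S} := by
    rw [mem_alternatingGroup, sign_subtypePerm _ _ h1, he]
  rw [← closure_three_cycles_eq_alternating] at h4
  rw [← h3]
  have h5 : Subgroup.closure {σ : Equiv.Perm {x // x ∈ S} | σ.IsThreeCycle} ≤
      L.comap Equiv.Perm.ofSubtype := by
    rw [Subgroup.closure_le]
    intro σ hσ
    have hσ' : σ.IsThreeCycle := hσ
    have h6 : (Equiv.Perm.ofSubtype σ).IsThreeCycle := by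
      rw [← card_support_eq_three_iff, support_ofSubtype, Finset.card_map]
      exact hσ'.card_support
    obtain ⟨x, y, z, hxy, hyz, hxz, e1⟩ := exists_tc h6
    show Equiv.Perm.ofSubtype σ ∈ L
    have hS : ∀ u, Equiv.Perm.ofSubtype σ u ≠ u → u ∈ S := by
      intro u hu
      by_contra h7
      exact hu (Equiv.Perm.ofSubtype_apply_of_not_mem σ h7)
    rw [e1] at hS ⊢
    refine h x (hS x ?_) y (hS y ?_) z (hS z ?_) hxy hyz hxz
    · rw [tc_x hxy hxz]; exact hxy.symm
    · rw [tc_y hyz hxz]; exact hyz.symm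
    · rw [tc_z]; exact hxz
  exact h5 h4

/-- extension of a permutation of `m` points -/
noncomputable def vf {m : ℕ} (x : Fin m → Fin r) (hx : Function.Injective x)
    (τ : Equiv.Perm (Fin m)) : Equiv.Perm (Fin r) := τ.viaFintypeEmbedding ⟨x, hx⟩

theorem vf_apply {m : ℕ} (x : Fin m → Fin r) (hx : Function.Injective x)
    (τ : Equiv.Perm (Fin m)) (i : Fin m) : vf x hx τ (x i) = x (τ i) :=
  Equiv.Perm.viaFintypeEmbedding_apply_image τ ⟨x, hx⟩ i

theorem vf_out {m : ℕ} (x : Fin m → Fin r) (hx : Function.Injective x)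
    (τ : Equiv.Perm (Fin m)) (y : Fin r) (hy : ∀ i, x i ≠ y) : vf x hx τ y = y :=
  Equiv.Perm.viaFintypeEmbedding_apply_notMem_range τ ⟨x, hx⟩ (by
    rintro ⟨i, hi⟩; exact hy i hi)

theorem vf_sign {m : ℕ} (x : Fin m → Fin r) (hx : Function.Injective x)
    (τ : Equiv.Perm (Fin m)) : sign (vf x hx τ) = sign τ :=
  Equiv.Perm.viaFintypeEmbedding_sign τ ⟨x, hx⟩

theorem vf_mul {m : ℕ} (x : Fin m → Fin r) (hx : Function.Injective x)
    (τ τ' : Equiv.Perm (Fin m)) : vf x hx (τ * τ') = vf x hx τ * vf x hx τ' := by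
  ext1 y
  rw [Equiv.Perm.mul_apply]
  by_cases h : ∃ i, x i = y
  · obtain ⟨i, rfl⟩ := h
    rw [vf_apply, vf_apply, vf_apply, Equiv.Perm.mul_apply]
  · have h' : ∀ i, x i ≠ y := fun i hi => h ⟨i, hi⟩
    rw [vf_out _ _ _ _ h', vf_out _ _ _ _ h', vf_out _ _ _ _ h']

theorem vf_one {m : ℕ} (x : Fin m → Fin r) (hx : Function.Injective x) : vf x hx 1 = 1 := by
  have := vf_mul x hx 1 1
  rw [mul_one] at this
  exact (left_eq_mul.mp this)

theorem vf_inv {m : ℕ} (x : Fin m → Fin r) (hx : Function.Injective x)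
    (τ : Equiv.Perm (Fin m)) : vf x hx τ⁻¹ = (vf x hx τ)⁻¹ := by
  rw [eq_inv_iff_mul_eq_one, ← vf_mul, inv_mul_cancel, vf_one]

theorem vf_pow {m : ℕ} (x : Fin m → Fin r) (hx : Function.Injective x)
    (τ : Equiv.Perm (Fin m)) (k : ℕ) : vf x hx (τ ^ k) = vf x hx τ ^ k := by
  induction k with
  | zero => rw [pow_zero, pow_zero, vf_one]
  | succ k ih => rw [pow_succ, pow_succ, vf_mul, ih]

theorem vf_conj {m : ℕ} (x : Fin m → Fin r) (hx : Function.Injective x)
    (τ : Equiv.Perm (Fin m)) (g : Equiv.Perm (Fin r)) :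
    g * vf x hx τ * g⁻¹ = vf (g ∘ x) (g.injective.comp hx) τ := by
  ext1 y
  obtain ⟨y, rfl⟩ := g.surjective y
  rw [Equiv.Perm.mul_apply, Equiv.Perm.mul_apply,
    show g⁻¹ (g y) = y from g.symm_apply_apply y]
  by_cases h : ∃ i, x i = y
  · obtain ⟨i, rfl⟩ := h
    rw [vf_apply]
    exact (vf_apply (g ∘ x) _ τ i).symm
  · have h' : ∀ i, x i ≠ y := fun i hi => h ⟨i, hi⟩
    rw [vf_out _ _ _ _ h']
    exact (vf_out (g ∘ x) _ τ _ fun i hi => h' i (g.injective hi)).symm

theorem vf_tc {m : ℕ} (x : Fin m → Fin r) (hx : Function.Injective x) {i j k : Fin m}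
    (hij : i ≠ j) (hjk : j ≠ k) (hik : i ≠ k) :
    vf x hx (tc i j k) = tc (x i) (x j) (x k) := by
  have h1 := hx.ne hij
  have h2 := hx.ne hjk
  have h3 := hx.ne hik
  ext1 y
  by_cases h : ∃ l, x l = y
  · obtain ⟨l, rfl⟩ := h
    rw [vf_apply]
    by_cases e1 : l = i
    · subst e1; rw [tc_x hij hik, tc_x h1 h3]
    by_cases e2 : l = j
    · subst e2; rw [tc_y hjk hik, tc_y h2 h3]
    by_cases e3 : l = k
    · subst e3; rw [tc_z, tc_z]
    rw [tc_o e1 e2 e3, tc_o (hx.ne e1) (hx.ne e2) (hx.ne e3)]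
  · have h' : ∀ i, x i ≠ y := fun i hi => h ⟨i, hi⟩
    rw [vf_out _ _ _ _ h', tc_o (h' i).symm (h' j).symm (h' k).symm]

/-- transitivity of the alternating group -/
theorem alt_trans {m : ℕ} (hm : m + 2 ≤ r) (x y : Fin m → Fin r) (hx : Function.Injective x)
    (hy : Function.Injective y) : ∃ g : Equiv.Perm (Fin r), sign g = 1 ∧ ∀ i, g (x i) = y i := by
  classical
  -- a permutation extending `x i ↦ y i`
  obtain ⟨g, hg⟩ : ∃ g : Equiv.Perm (Fin r), ∀ i, g (x i) = y i := by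
    let e : Set.range x ≃ Set.range y :=
      (Equiv.ofInjective x hx).symm.trans (Equiv.ofInjective y hy)
    refine ⟨e.extendSubtype, fun i => ?_⟩
    have h1 := e.extendSubtype_apply_of_mem (x i) ⟨i, rfl⟩
    rw [h1]
    have h2 : (Equiv.ofInjective x hx).symm ⟨x i, ⟨i, rfl⟩⟩ = i :=
      (Equiv.symm_apply_eq _).mpr rfl
    show (((Equiv.ofInjective y hy) ((Equiv.ofInjective x hx).symm ⟨x i, _⟩) : Set.range y) : Fin r) = y i
    rw [h2]
    rfl
  rcases Int.units_eq_one_or (sign g) with h | h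
  · exact ⟨g, h, hg⟩
  · -- two further points
    have h1 : 1 < (Finset.univ \ (Finset.univ.image y)).card := by
      have := Finset.card_sdiff_add_card_eq_card (Finset.subset_univ (Finset.univ.image y))
      rw [Finset.card_univ, Fintype.card_fin] at this
      have h2 : (Finset.univ.image y).card ≤ m := by
        refine Finset.card_image_le.trans ?_
        rw [Finset.card_univ, Fintype.card_fin]
      omega
    obtain ⟨a, ha, b, hb, hab⟩ := Finset.one_lt_card.mp h1
    simp only [Finset.mem_sdiff, Finset.mem_univ, true_and, Finset.mem_image, not_exists] at ha hb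
    refine ⟨Equiv.swap a b * g, ?_, fun i => ?_⟩
    · rw [map_mul, Equiv.Perm.sign_swap hab, h]; rfl
    · rw [Equiv.Perm.mul_apply, hg, Equiv.swap_apply_of_ne_of_ne (ha i) (hb i)]

/-- points outside a small set -/
theorem exists_out (F : Finset (Fin r)) (hF : F.card < r) : ∃ x, x ∉ F := by
  by_contra h
  push Not at h
  have : F = Finset.univ := Finset.eq_univ_iff_forall.mpr h
  rw [this, Finset.card_univ, Fintype.card_fin] at hF
  omega

end perms

/-- the permutation induced by an element -/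
def sg {r : ℕ} {H : Type} [Group H] (π : H →* alternatingGroup (Fin r)) :
    H →* Equiv.Perm (Fin r) := (alternatingGroup (Fin r)).subtype.comp π

/-- canonical lifts -/
def IsL {r : ℕ} {H : Type} [Group H] (π : H →* alternatingGroup (Fin r))
    (c : Equiv.Perm (Fin r)) (C : H) : Prop := sg π C = c ∧ ∃ G, G * C * G⁻¹ = C ^ 2

/-- the cycles whose canonical lifts are unique -/
def Good {r : ℕ} (c : Equiv.Perm (Fin r)) : Prop :=
  c.IsCycle ∧ (c.support.card = 3 ∨ c.support.card = 5)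

namespace MinCfg

variable {p : ℕ} [Fact p.Prime] {r : ℕ} {H : Type} [Group H] {V : Type}
    [AddCommGroup V] [Module (KK p) V]
    {ρ : H →* Module.End (KK p) V} {π : H →* alternatingGroup (Fin r)}

theorem sg_sign (h : H) : sign (sg π h) = 1 := mem_alternatingGroup.mp (π h).2

theorem sg_surj (c : MinCfg ρ π) (g : Equiv.Perm (Fin r)) (hg : sign g = 1) :
    ∃ h, sg π h = g := by
  obtain ⟨h, hh⟩ := c.surj ⟨g, mem_alternatingGroup.mpr hg⟩
  exact ⟨h, by show ((π h : alternatingGroup (Fin r)) : Equiv.Perm (Fin r)) = g; rw [hh]⟩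

theorem ker_of_sg {h : H} (hh : sg π h = 1) : π h = 1 := Subtype.ext hh

theorem cen (c : MinCfg ρ π) {h : H} (hh : sg π h = 1) : ∀ x, h * x = x * h := by
  have h1 : h ∈ Subgroup.center H := c.ker_le_center (MonoidHom.mem_ker.mpr (ker_of_sg hh))
  intro x
  exact ((Subgroup.mem_center_iff.mp h1) x).symm

theorem scal (c : MinCfg ρ π) {h : H} (hh : sg π h = 1) : ∃ z : KK p, ρ h = z • 1 :=
  (c.mem_center_iff h).mp (c.ker_le_center (MonoidHom.mem_ker.mpr (ker_of_sg hh)))

theorem sg_gen (c : MinCfg ρ π) (L : Subgroup H)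
    (h : ∀ x y z : Fin r, x ≠ y → y ≠ z → x ≠ z → ∃ l ∈ L, sg π l = tc x y z) : L = ⊤ := by
  apply c.gen
  rw [eq_top_iff]
  rintro ⟨g, hg⟩ -
  have h1 : g ∈ L.map (sg π) := by
    refine gen3 _ Set.univ (fun x _ y _ z _ h1 h2 h3 => ?_) g (mem_alternatingGroup.mp hg)
      (fun x hx => absurd (Set.mem_univ x) hx)
    obtain ⟨l, hl, e⟩ := h x y z h1 h2 h3
    exact ⟨l, hl, e⟩
  obtain ⟨l, hl, e⟩ := h1
  exact ⟨l, hl, Subtype.ext e⟩

theorem exists_vf (c : MinCfg ρ π) {m : ℕ} (x : Fin m → Fin r) (hx : Function.Injective x)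
    (τ : Equiv.Perm (Fin m)) (hτ : sign τ = 1) : ∃ h, sg π h = vf x hx τ :=
  c.sg_surj _ (by rw [vf_sign, hτ])

theorem exists_trans (c : MinCfg ρ π) {m : ℕ} (hm : m + 2 ≤ r) (x y : Fin m → Fin r)
    (hx : Function.Injective x) (hy : Function.Injective y) :
    ∃ h, ∀ i, sg π h (x i) = y i := by
  obtain ⟨g, hg, h1⟩ := alt_trans hm x y hx hy
  obtain ⟨h, rfl⟩ := c.sg_surj g hg
  exact ⟨h, h1⟩

end MinCfg

namespace IsL

variable {p : ℕ} [Fact p.Prime] {r : ℕ} {H : Type} [Group H] {V : Type}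
    [AddCommGroup V] [Module (KK p) V]
    {ρ : H →* Module.End (KK p) V} {π : H →* alternatingGroup (Fin r)}

theorem conj {c : Equiv.Perm (Fin r)} {C : H} (h : IsL π c C) (X : H) :
    IsL π (sg π X * c * (sg π X)⁻¹) (X * C * X⁻¹) := by
  obtain ⟨h1, G, hG⟩ := h
  refine ⟨by rw [map_mul, map_mul, h1, map_inv], X * G * X⁻¹, ?_⟩
  rw [conj_pow, ← hG]
  group

theorem pow {c : Equiv.Perm (Fin r)} {C : H} (h : IsL π c C) (e : ℕ) :
    IsL π (c ^ e) (C ^ e) := by
  obtain ⟨h1, G, hG⟩ := h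
  refine ⟨by rw [map_pow, h1], G, ?_⟩
  rw [← conj_pow, hG, ← pow_mul, ← pow_mul, mul_comm]

theorem inv {c : Equiv.Perm (Fin r)} {C : H} (h : IsL π c C) :
    IsL π c⁻¹ C⁻¹ := by
  obtain ⟨h1, G, hG⟩ := h
  refine ⟨by rw [map_inv, h1], G, ?_⟩
  rw [inv_pow, ← hG]
  group

theorem pow_eq_one (m : MinCfg ρ π) {c : Equiv.Perm (Fin r)} {C : H} (h : IsL π c C) {q : ℕ}
    (hq : c ^ q = 1) : C ^ q = 1 := by
  obtain ⟨h1, G, hG⟩ := h
  have h2 : sg π (C ^ q) = 1 := by rw [map_pow, h1, hq]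
  have h3 := m.cen h2 G
  have h4 : G * C ^ q * G⁻¹ = C ^ q := by rw [← h3]; group
  rw [← conj_pow, hG, ← pow_mul, mul_comm, pow_mul, pow_two] at h4
  exact mul_eq_left.mp h4

end IsL

end Cfsg.Agent.AltSec
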