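import Cfsg.Agent.Lib.AltSecC

/-! Alternating sections of linear groups (S2653), part D: canonical lifts of three- and
five-cycles. -/

set_option autoImplicit false

namespace Cfsg.Agent.AltSec

open Module Equiv.Perm

variable {p : ℕ} [Fact p.Prime] {r : ℕ} {H : Type} [Group H] {V : Type}
    [AddCommGroup V] [Module (KK p) V]
    {ρ : H →* Module.End (KK p) V} {π : H →* alternatingGroup (Fin r)}

theorem tc_inv {x y z : Fin r} (hxy : x ≠ y) (hyz : y ≠ z) (hxz : x ≠ z) :
    (tc x y z)⁻¹ = tc y x z := by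
  rw [inv_eq_iff_mul_eq_one]
  ext1 u
  rw [Equiv.Perm.mul_apply, Equiv.Perm.one_apply]
  by_cases h1 : u = x
  · subst h1; rw [tc_y hxz hyz, tc_z]
  by_cases h2 : u = y
  · subst h2; rw [tc_x hxy.symm hyz, tc_x hxy hxz]
  by_cases h3 : u = z
  · subst h3; rw [tc_z, tc_y hyz hxz]
  rw [tc_o h2 h1 h3, tc_o h1 h2 h3]

theorem tc_rot {x y z : Fin r} (hxy : x ≠ y) (hyz : y ≠ z) (hxz : x ≠ z) :
    tc y z x = tc x y z := by
  ext1 u
  by_cases h1 : u = x
  · subst h1; rw [tc_z, tc_x hxy hxz]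
  by_cases h2 : u = y
  · subst h2; rw [tc_x hyz hxy.symm, tc_y hyz hxz]
  by_cases h3 : u = z
  · subst h3; rw [tc_z, tc_y hxz.symm hxy.symm]
  rw [tc_o h2 h3 h1, tc_o h1 h2 h3]

namespace Good

theorem card_le {c : Equiv.Perm (Fin r)} (hc : Good c) : c.support.card ≤ 5 := by
  rcases hc.2 with h | h <;> omega

theorem order {c : Equiv.Perm (Fin r)} (hc : Good c) : orderOf c = 3 ∨ orderOf c = 5 := by
  rw [hc.1.orderOf]; exact hc.2

theorem sign {c : Equiv.Perm (Fin r)} (hc : Good c) : Equiv.Perm.sign c = 1 := by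
  rw [hc.1.sign]
  rcases hc.2 with h | h <;> rw [h] <;> rfl

theorem conj {c : Equiv.Perm (Fin r)} (hc : Good c) (g : Equiv.Perm (Fin r)) :
    Good (g * c * g⁻¹) := by
  refine ⟨hc.1.conj, ?_⟩
  rw [card_support_conj]
  exact hc.2

theorem pow {c : Equiv.Perm (Fin r)} (hc : Good c) {e : ℕ} (he : (orderOf c).Coprime e) :
    Good (c ^ e) := by
  have h1 : (c ^ e).IsCycle := hc.1.pow_iff.mpr he.symm
  refine ⟨h1, ?_⟩
  have h2 := he.orderOf_pow
  rw [h1.orderOf, hc.1.orderOf] at h2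
  rw [h2]
  exact hc.2

theorem inv {c : Equiv.Perm (Fin r)} (hc : Good c) : Good c⁻¹ := by
  refine ⟨hc.1.inv, ?_⟩
  rw [support_inv]
  exact hc.2

end Good

theorem tc_good {x y z : Fin r} (hxy : x ≠ y) (hyz : y ≠ z) (hxz : x ≠ z) : Good (tc x y z) :=
  ⟨(tc_isThreeCycle hxy hyz hxz).isCycle, Or.inl (tc_isThreeCycle hxy hyz hxz).card_support⟩

namespace MinCfg

theorem exists_isL (m : MinCfg ρ π) {c : Equiv.Perm (Fin r)} (hc : Good c) :
    ∃ C, IsL π c C := by
  have hr := m.hr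
  have hcop : (orderOf c).Coprime 2 := by rcases hc.order with h | h <;> rw [h] <;> decide
  have h2 : Good (c ^ 2) := hc.pow hcop
  have h3 : IsConj c (c ^ 2) := by
    rw [hc.1.isConj_iff h2.1]
    have := hcop.orderOf_pow
    rw [h2.1.orderOf, hc.1.orderOf] at this
    exact this.symm
  have h4 := alternatingGroup.isConj_of (σ := ⟨c, mem_alternatingGroup.mpr hc.sign⟩)
    (τ := ⟨c ^ 2, mem_alternatingGroup.mpr h2.sign⟩) h3 (by
      have := hc.card_le
      rw [Fintype.card_fin]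
      show c.support.card + 2 ≤ r
      omega)
  obtain ⟨g, hg⟩ := isConj_iff.mp h4
  obtain ⟨G, hG⟩ := m.surj g
  have hG' : sg π G = g := by rw [← hG]; rfl
  have hg' : sg π G * c * (sg π G)⁻¹ = c ^ 2 := by
    rw [hG']; exact congrArg Subtype.val hg
  obtain ⟨D, hD⟩ := m.sg_surj c hc.sign
  have hz : sg π (G * D * G⁻¹ * (D ^ 2)⁻¹) = 1 := by
    rw [map_mul, map_mul, map_mul, map_inv, map_inv, map_pow, hD, hg', mul_inv_cancel]
  set z := G * D * G⁻¹ * (D ^ 2)⁻¹ with hzdef
  have hcen := m.cen hz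
  have h5 : G * D * G⁻¹ = z * D ^ 2 := by rw [hzdef]; group
  refine ⟨z * D, by rw [map_mul, hz, one_mul, hD], G, ?_⟩
  calc G * (z * D) * G⁻¹ = (G * z) * D * G⁻¹ := by group
    _ = z * (G * D * G⁻¹) := by rw [← hcen G]; group
    _ = z * (z * D) * D := by rw [h5, pow_two]; group
    _ = z * (D * z) * D := by rw [hcen D]
    _ = (z * D) ^ 2 := by rw [pow_two]; group

theorem beta (m : MinCfg ρ π) {C X : H} (h : sg π C * sg π X = sg π X * sg π C) :
    ∃ z : H, sg π z = 1 ∧ C * X * C⁻¹ = z * X := by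
  refine ⟨C * X * C⁻¹ * X⁻¹, ?_, by group⟩
  rw [map_mul, map_mul, map_mul, map_inv, map_inv, h]
  group

theorem beta_pow_left (m : MinCfg ρ π) {C X z : H} (hz : sg π z = 1)
    (h : C * X * C⁻¹ = z * X) (k : ℕ) : C ^ k * X * (C ^ k)⁻¹ = z ^ k * X := by
  induction k with
  | zero => simp
  | succ k ih =>
    have hc := m.cen (h := z ^ k) (by rw [map_pow, hz, one_pow])
    calc C ^ (k + 1) * X * (C ^ (k + 1))⁻¹ = C * (C ^ k * X * (C ^ k)⁻¹) * C⁻¹ := by
          rw [pow_succ']; group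
      _ = (C * z ^ k) * X * C⁻¹ := by rw [ih]; group
      _ = z ^ k * (C * X * C⁻¹) := by rw [← hc C]; group
      _ = z ^ (k + 1) * X := by rw [h, pow_succ]; group

theorem beta_pow_right (m : MinCfg ρ π) {C X z : H} (hz : sg π z = 1)
    (h : C * X * C⁻¹ = z * X) (k : ℕ) : C * X ^ k * C⁻¹ = z ^ k * X ^ k := by
  have hc : Commute z X := m.cen hz X
  rw [← conj_pow, h, hc.mul_pow]

/-- a lift of order dividing `q` commutes with elements over disjoint three-cycles -/
theorem comm_three (m : MinCfg ρ π) {c : Equiv.Perm (Fin r)} {C : H} (hC : sg π C = c) {q : ℕ}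
    (hq : C ^ q = 1) (hq3 : Nat.Coprime q 3 ∨ (q = 3 ∧ c.support.card = 3))
    {x y z : Fin r} (hxy : x ≠ y) (hyz : y ≠ z) (hxz : x ≠ z) (hx : c x = x) (hy : c y = y)
    (hz : c z = z) {X : H} (hX : sg π X = tc x y z) : C * X = X * C := by
  have hr := m.hr
  have hcx : x ∉ c.support := notMem_support.mpr hx
  have hcy : y ∉ c.support := notMem_support.mpr hy
  have hcz : z ∉ c.support := notMem_support.mpr hz
  have hcf : c * tc x y z = tc x y z * c := by
    have h1 : c * tc x y z * c⁻¹ = tc x y z := by rw [tc_conj, hx, hy, hz]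
    calc c * tc x y z = c * tc x y z * c⁻¹ * c := by group
      _ = tc x y z * c := by rw [h1]
  obtain ⟨w, hw1, hw⟩ := m.beta (C := C) (X := X) (by rw [hC, hX, hcf])
  have hwq : w ^ q = 1 := by
    have h1 := m.beta_pow_left hw1 hw q
    rw [hq, one_mul, inv_one, mul_one] at h1
    exact (right_eq_mul.mp h1)
  have hw0 : w = 1 := by
    rcases hq3 with h3 | ⟨h3, hc3⟩
    · have hX3 : sg π (X ^ 3) = 1 := by
        rw [map_pow, hX]
        have := (tc_isThreeCycle hxy hyz hxz).orderOf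
        rw [← this]; exact pow_orderOf_eq_one _
      have h1 := m.beta_pow_right hw1 hw 3
      have h2 : C * X ^ 3 * C⁻¹ = X ^ 3 := by rw [← m.cen hX3 C]; group
      rw [h2] at h1
      have h4 : w ^ 3 = 1 := right_eq_mul.mp h1
      have h5 : orderOf w ∣ 1 := by
        rw [← h3.gcd_eq_one]
        exact Nat.dvd_gcd (orderOf_dvd_of_pow_eq_one hwq) (orderOf_dvd_of_pow_eq_one h4)
      exact orderOf_eq_one_iff.mp (Nat.dvd_one.mp h5)
    · -- an inverting element
      have h1 : 1 < (Finset.univ \ (c.support ∪ {x, y, z})).card := by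
        have := Finset.card_sdiff_add_card_eq_card (Finset.subset_univ (c.support ∪ {x, y, z}))
        rw [Finset.card_univ, Fintype.card_fin] at this
        have h2 : (c.support ∪ {x, y, z}).card ≤ 3 + 3 := by
          refine (Finset.card_union_le _ _).trans ?_
          rw [hc3]
          have : ({x, y, z} : Finset (Fin r)).card ≤ 3 := Finset.card_le_three
          omega
        omega
      obtain ⟨a, ha, b, hb, hab⟩ := Finset.one_lt_card.mp h1
      simp only [Finset.mem_sdiff, Finset.mem_univ, true_and, Finset.mem_union,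
        Finset.mem_insert, Finset.mem_singleton, not_or, notMem_support] at ha hb
      obtain ⟨Y, hY⟩ := m.sg_surj (Equiv.swap x y * Equiv.swap a b) (by
        rw [map_mul, Equiv.Perm.sign_swap hxy, Equiv.Perm.sign_swap hab]; rfl)
      have hYc : c * sg π Y = sg π Y * c := by
        have h1 : ∀ u v : Fin r, c u = u → c v = v → c * Equiv.swap u v = Equiv.swap u v * c := by
          intro u v hu hv
          have := Equiv.mul_swap_eq_swap_mul c u v
          rw [this, hu, hv]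
        rw [hY, ← mul_assoc, h1 x y hx hy, mul_assoc, h1 a b ha.1 hb.1, mul_assoc]
      obtain ⟨w', hw'1, hw'⟩ := m.beta (C := C) (X := Y) (by rw [hC, hYc])
      have hYf : sg π Y * tc x y z * (sg π Y)⁻¹ = (tc x y z)⁻¹ := by
        rw [tc_conj, hY]
        have e1 : (Equiv.swap x y * Equiv.swap a b) x = y := by
          rw [Equiv.Perm.mul_apply, Equiv.swap_apply_of_ne_of_ne (Ne.symm ha.2.1) (Ne.symm hb.2.1),
            Equiv.swap_apply_left]
        have e2 : (Equiv.swap x y * Equiv.swap a b) y = x := by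
          rw [Equiv.Perm.mul_apply,
            Equiv.swap_apply_of_ne_of_ne (Ne.symm ha.2.2.1) (Ne.symm hb.2.2.1),
            Equiv.swap_apply_right]
        have e3 : (Equiv.swap x y * Equiv.swap a b) z = z := by
          rw [Equiv.Perm.mul_apply,
            Equiv.swap_apply_of_ne_of_ne (Ne.symm ha.2.2.2) (Ne.symm hb.2.2.2),
            Equiv.swap_apply_of_ne_of_ne hxz.symm hyz.symm]
        rw [e1, e2, e3, tc_inv hxy hyz hxz]
      have hYX : sg π (Y * X * Y⁻¹ * X) = 1 := by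
        rw [map_mul, map_mul, map_mul, map_inv, hX, hYf, inv_mul_cancel]
      obtain ⟨v, hv⟩ : ∃ v, v = Y * X * Y⁻¹ * X := ⟨_, rfl⟩
      have hv1 : Y * X * Y⁻¹ = v * X⁻¹ := by rw [hv]; group
      rw [← hv] at hYX
      have e1 : C * (Y * X * Y⁻¹) * C⁻¹ = w * (v * X⁻¹) := by
        calc C * (Y * X * Y⁻¹) * C⁻¹ = (C * Y * C⁻¹) * (C * X * C⁻¹) * (C * Y * C⁻¹)⁻¹ := by group
          _ = (w' * Y) * (w * X) * (w' * Y)⁻¹ := by rw [hw, hw']
          _ = w' * (Y * w) * X * Y⁻¹ * w'⁻¹ := by group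
          _ = w' * (w * Y) * X * Y⁻¹ * w'⁻¹ := by rw [m.cen hw1 Y]
          _ = w' * (w * (Y * X * Y⁻¹)) * w'⁻¹ := by group
          _ = (w * (Y * X * Y⁻¹)) * w' * w'⁻¹ := by rw [m.cen hw'1]
          _ = w * (v * X⁻¹) := by rw [hv1]; group
      have e2 : C * (v * X⁻¹) * C⁻¹ = v * (w⁻¹ * X⁻¹) := by
        calc C * (v * X⁻¹) * C⁻¹ = (C * v) * X⁻¹ * C⁻¹ := by group
          _ = (v * C) * X⁻¹ * C⁻¹ := by rw [m.cen hYX C]
          _ = v * (C * X * C⁻¹)⁻¹ := by group
          _ = v * (X⁻¹ * w⁻¹) := by rw [hw]; group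
          _ = v * (w⁻¹ * X⁻¹) := by
            rw [m.cen (h := w⁻¹) (by rw [map_inv, hw1, inv_one]) X⁻¹]
      rw [hv1, e2] at e1
      have e3 : v * (w⁻¹ * X⁻¹) = v * (w * X⁻¹) := by
        rw [e1, ← mul_assoc, ← mul_assoc, m.cen hw1 v]
      have e4 : w⁻¹ = w := mul_right_cancel (mul_left_cancel e3)
      rw [h3, pow_succ, pow_two] at hwq
      rw [← e4, e4] at hwq
      have e5 : w * w = 1 := by nth_rewrite 1 [← e4]; exact inv_mul_cancel w
      rw [e5, one_mul] at hwq
      exact hwq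
  rw [hw0, one_mul] at hw
  calc C * X = C * X * C⁻¹ * C := by group
    _ = X * C := by rw [hw]

theorem comm_of (m : MinCfg ρ π) {c : Equiv.Perm (Fin r)} (hc : Good c) {C : H} (h : IsL π c C)
    {X : H} (hX : sg π X * c = c * sg π X) : X * C = C * X := by
  have hr := m.hr
  let N : Subgroup H := Subgroup.centralizer {C}
  have hN : ∀ Y : H, Y ∈ N ↔ C * Y = Y * C := by
    intro Y
    rw [Subgroup.mem_centralizer_iff]
    simp
  have hq : C ^ orderOf c = 1 := h.pow_eq_one m (pow_orderOf_eq_one c)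
  let M : Subgroup (Equiv.Perm (Fin r)) := N.map (sg π)
  have hcM : c ∈ M := ⟨C, (hN C).mpr rfl, h.1⟩
  obtain ⟨x, hx⟩ := hc.1.nonempty_support
  rw [mem_support] at hx
  have hgx : c (sg π X x) ≠ sg π X x := by
    intro e
    have h1 := DFunLike.congr_fun hX x
    rw [Equiv.Perm.mul_apply, Equiv.Perm.mul_apply, e] at h1
    exact hx ((sg π X).injective h1)
  obtain ⟨i, hi⟩ := hc.1.exists_zpow_eq hx hgx
  have he : (c ^ i)⁻¹ * sg π X ∈ M := by
    refine gen3 M {y | c y = y} ?_ _ ?_ ?_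
    · intro a ha b hb d hd hab hbd had
      obtain ⟨Y, hY⟩ := m.sg_surj (tc a b d) (tc_sign hab hbd)
      refine ⟨Y, (hN Y).mpr ?_, hY⟩
      refine m.comm_three h.1 hq ?_ hab hbd had ha hb hd hY
      rcases hc.2 with h3 | h5
      · right; exact ⟨by rw [hc.1.orderOf, h3], h3⟩
      · left; rw [hc.1.orderOf, h5]; decide
    · rw [map_mul, map_inv, map_zpow, hc.sign, sg_sign]; simp
    · intro y hy
      obtain ⟨j, hj⟩ := hc.1.exists_zpow_eq hx hy
      have h1 : sg π X * c ^ j = c ^ j * sg π X := by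
        have : Commute (sg π X) c := hX
        exact (this.zpow_right j).eq
      rw [← hj, Equiv.Perm.mul_apply]
      have h2 : sg π X ((c ^ j) x) = (c ^ j) (sg π X x) := DFunLike.congr_fun h1 x
      rw [h2, ← hi]
      have h3 : (c ^ i)⁻¹ * (c ^ j * c ^ i) = c ^ j := by group
      exact DFunLike.congr_fun h3 x
  have h4 : sg π X ∈ M := by
    have : sg π X = c ^ i * ((c ^ i)⁻¹ * sg π X) := by group
    rw [this]
    exact M.mul_mem (M.zpow_mem hcM i) he
  obtain ⟨Y, hY, e⟩ := h4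
  have h5 : sg π (X * Y⁻¹) = 1 := by rw [map_mul, map_inv, e, mul_inv_cancel]
  have h6 := m.cen h5
  have h7 := (hN Y).mp hY
  have h8 : X = (X * Y⁻¹) * Y := by group
  rw [h8]
  calc X * Y⁻¹ * Y * C = X * Y⁻¹ * (Y * C) := by group
    _ = (X * Y⁻¹) * C * Y := by rw [← h7]; group
    _ = C * (X * Y⁻¹ * Y) := by rw [h6 C]; group

theorem uniq (m : MinCfg ρ π) {c : Equiv.Perm (Fin r)} (hc : Good c) {C C' : H}
    (h : IsL π c C) (h' : IsL π c C') : C = C' := by
  obtain ⟨h1, G, hG⟩ := id h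
  obtain ⟨h1', G', hG'⟩ := id h'
  obtain ⟨z, hz⟩ : ∃ z, z = C' * C⁻¹ := ⟨_, rfl⟩
  have hz1 : sg π z = 1 := by rw [hz, map_mul, map_inv, h1, h1', mul_inv_cancel]
  have hzC : C' = z * C := by rw [hz]; group
  have hcen := m.cen hz1
  have hco : (G⁻¹ * G') * C = C * (G⁻¹ * G') := by
    apply m.comm_of hc h
    have e1 : sg π G * c * (sg π G)⁻¹ = c ^ 2 := by
      rw [← h1, ← map_mul, ← map_inv, ← map_mul, hG, map_pow]
    have e2 : sg π G' * c * (sg π G')⁻¹ = c ^ 2 := by
      rw [← h1', ← map_mul, ← map_inv, ← map_mul, hG', map_pow]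
    rw [map_mul, map_inv]
    have e3 : sg π G' * c = c ^ 2 * sg π G' := by rw [← e2]; group
    have e4 : (sg π G)⁻¹ * c ^ 2 = c * (sg π G)⁻¹ := by rw [← e1]; group
    rw [mul_assoc, e3, ← mul_assoc, e4, mul_assoc]
  have h2 : G' * C = G * C * G⁻¹ * G' := by
    calc G' * C = G * ((G⁻¹ * G') * C) := by group
      _ = _ := by rw [hco]; group
  rw [hG] at h2
  rw [hzC] at hG'
  have h3 : z * (C ^ 2) = z * (z * C ^ 2) := by
    calc z * C ^ 2 = z * (G' * C) * G'⁻¹ := by rw [h2]; group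
      _ = (z * G') * C * G'⁻¹ := by group
      _ = G' * (z * C) * G'⁻¹ := by rw [hcen G']; group
      _ = (z * C) ^ 2 := hG'
      _ = z * (C * z) * C := by rw [pow_two]; group
      _ = z * (z * C ^ 2) := by rw [← hcen C, pow_two]; group
  have h4 : z = 1 := by
    have := mul_left_cancel h3
    exact (right_eq_mul.mp this)
  rw [hzC, h4, one_mul]

end MinCfg

open Classical in
/-- the canonical lift -/
noncomputable def lift (π : H →* alternatingGroup (Fin r)) (c : Equiv.Perm (Fin r)) : H :=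
  if h : ∃ C, IsL π c C then h.choose else 1

namespace MinCfg

theorem lift_spec (m : MinCfg ρ π) {c : Equiv.Perm (Fin r)} (hc : Good c) :
    IsL π c (lift π c) := by
  rw [lift, dif_pos (m.exists_isL hc)]
  exact (m.exists_isL hc).choose_spec

theorem eq_lift (m : MinCfg ρ π) {c : Equiv.Perm (Fin r)} (hc : Good c) {C : H}
    (h : IsL π c C) : C = lift π c := m.uniq hc h (m.lift_spec hc)

theorem lift_conj (m : MinCfg ρ π) {c : Equiv.Perm (Fin r)} (hc : Good c) (X : H) :
    X * lift π c * X⁻¹ = lift π (sg π X * c * (sg π X)⁻¹) :=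
  m.eq_lift (hc.conj _) ((m.lift_spec hc).conj X)

theorem lift_pow (m : MinCfg ρ π) {c : Equiv.Perm (Fin r)} (hc : Good c) {e : ℕ}
    (he : (orderOf c).Coprime e) : lift π (c ^ e) = lift π c ^ e :=
  (m.eq_lift (hc.pow he) ((m.lift_spec hc).pow e)).symm

theorem lift_inv (m : MinCfg ρ π) {c : Equiv.Perm (Fin r)} (hc : Good c) :
    lift π c⁻¹ = (lift π c)⁻¹ :=
  (m.eq_lift hc.inv (m.lift_spec hc).inv).symm

theorem lift_comm (m : MinCfg ρ π) {c : Equiv.Perm (Fin r)} (hc : Good c) {X : H}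
    (hX : sg π X * c = c * sg π X) : X * lift π c = lift π c * X :=
  m.comm_of hc (m.lift_spec hc) hX

theorem lift_sg (m : MinCfg ρ π) {c : Equiv.Perm (Fin r)} (hc : Good c) :
    sg π (lift π c) = c := (m.lift_spec hc).1

theorem lift_order (m : MinCfg ρ π) {c : Equiv.Perm (Fin r)} (hc : Good c) :
    lift π c ^ orderOf c = 1 := (m.lift_spec hc).pow_eq_one m (pow_orderOf_eq_one c)

end MinCfg

end Cfsg.Agent.AltSec
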