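import Cfsg.Agent.Lib.AltSecD

/-! Alternating sections of linear groups (S2653), part E: eigenspaces. -/

set_option autoImplicit false

namespace Cfsg.Agent.AltSec

open Module Equiv.Perm

section gen

variable {K V : Type*} [Field K] [AddCommGroup V] [Module K V]

theorem weights_sum_zero {ι J : Type*} [Fintype J]
    (f : ι → Module.End K V) (χ : J → ι → K) (hχ : Function.Injective χ) (w : J → V)
    (hw : ∀ j i, f i (w j) = χ j i • w j) (hsum : ∑ j, w j = 0) : ∀ j, w j = 0 := by
  classical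
  by_contra hne
  push Not at hne
  obtain ⟨j₀, hj₀⟩ := hne
  have hli := li_of_weights f (fun j : {j // w j ≠ 0} => χ j) (fun a b h => Subtype.ext (hχ h))
    (fun j => w j) (fun j => j.2) (fun j i => hw j i)
  rw [linearIndependent_iff'] at hli
  have h1 : ∑ j : {j // w j ≠ 0}, (1 : K) • w j = 0 := by
    simp only [one_smul]
    refine Eq.trans ?_ hsum
    refine Eq.trans ?_ (Finset.sum_filter_ne_zero (f := w) Finset.univ)
    exact (Finset.sum_subtype (p := fun j => w j ≠ 0) (Finset.univ.filter fun j => w j ≠ 0)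
      (by simp) w).symm
  have h2 := hli Finset.univ (fun _ => 1) h1 ⟨j₀, hj₀⟩ (Finset.mem_univ _)
  exact one_ne_zero h2

theorem sum_finrank_le [FiniteDimensional K V] {ι J : Type*} [Fintype J]
    (f : ι → Module.End K V) (χ : J → ι → K) (hχ : Function.Injective χ) (W : J → Submodule K V)
    (hW : ∀ j, ∀ w ∈ W j, ∀ i, f i w = χ j i • w) (U : Submodule K V) (hU : ∀ j, W j ≤ U) :
    ∑ j, finrank K (W j) ≤ finrank K U := by
  classical
  rw [← Module.finrank_pi_fintype]
  let Φ : ((j : J) → W j) →ₗ[K] U :=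
    { toFun := fun w => ⟨∑ j, (w j : V), U.sum_mem fun j _ => hU j (w j).2⟩
      map_add' := by
        intro a b
        apply Subtype.ext
        simp [Finset.sum_add_distrib]
      map_smul' := by
        intro t a
        apply Subtype.ext
        simp [Finset.smul_sum] }
  refine LinearMap.finrank_le_finrank_of_injective (f := Φ) ?_
  rw [← LinearMap.ker_eq_bot, LinearMap.ker_eq_bot']
  intro w hw
  have h1 : ∑ j, (w j : V) = 0 := congrArg Subtype.val hw
  have h2 := weights_sum_zero f χ hχ (fun j => (w j : V)) (fun j i => hW j _ (w j).2 i) h1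
  funext j
  exact Subtype.ext (h2 j)

theorem psi_inj {q : ℕ} [NeZero q] {ψ : AddChar (ZMod q) K} (hψ : ψ.IsPrimitive) :
    Function.Injective ψ := by
  intro a b hab
  by_contra hne
  apply hψ (sub_ne_zero.mpr hne)
  ext i
  rw [AddChar.mulShift_apply]
  have h1 : ψ (a - b) = 1 := by
    rw [AddChar.map_sub_eq_div, hab, div_self]
    exact (ψ.val_isUnit b).ne_zero
  have h2 : (a - b) * i = i.val • (a - b) := by
    rw [nsmul_eq_mul, ZMod.natCast_zmod_val, mul_comm]
  rw [h2, AddChar.map_nsmul_eq_pow, h1, one_pow]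
  rfl

theorem decomp {q : ℕ} [NeZero q] (hqK : (q : K) ≠ 0) {ψ : AddChar (ZMod q) K}
    (hψ : ψ.IsPrimitive) (D : Module.End K V) (hD : D ^ q = 1) (v : V) :
    ∃ f : ZMod q → V, (∀ a, D (f a) = ψ a • f a) ∧ ∑ a, f a = v ∧
      (∀ W : Submodule K V, (∀ w ∈ W, D w ∈ W) → v ∈ W → ∀ a, f a ∈ W) := by
  classical
  have hpow : ∀ n : ℕ, D ^ ((n : ZMod q)).val = D ^ n := by
    intro n
    rw [ZMod.val_natCast, ← pow_eq_pow_mod n hD]
  refine ⟨fun a => (q : K)⁻¹ • ∑ i : ZMod q, ψ (-(a * i)) • (D ^ i.val) v, ?_, ?_, ?_⟩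
  · intro a
    rw [map_smul, smul_comm (ψ a)]
    congr 1
    rw [map_sum, Finset.smul_sum]
    rw [← Equiv.sum_comp (Equiv.addRight (1 : ZMod q))
      (fun i => ψ a • ψ (-(a * i)) • (D ^ i.val) v)]
    refine Finset.sum_congr rfl fun i _ => ?_
    have h1 : (Equiv.addRight (1 : ZMod q)) i = ((i.val + 1 : ℕ) : ZMod q) := by
      rw [Nat.cast_add, ZMod.natCast_zmod_val, Nat.cast_one]; rfl
    have h2 : (Equiv.addRight (1 : ZMod q)) i = i + 1 := rfl
    rw [map_smul, ← Module.End.mul_apply, ← pow_succ']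
    rw [h2, ← smul_assoc, smul_eq_mul, ← AddChar.map_add_eq_mul]
    rw [h2] at h1
    rw [h1, hpow]
    congr 2
    rw [← h1]
    ring_nf
  · rw [← Finset.smul_sum, Finset.sum_comm]
    have h1 : ∀ i : ZMod q, ∑ a : ZMod q, ψ (-(a * i)) • (D ^ i.val) v =
        ((if -i = 0 then Fintype.card (ZMod q) else 0 : ℕ) : K) • (D ^ i.val) v := by
      intro i
      rw [← Finset.sum_smul]
      congr 1
      rw [← AddChar.sum_mulShift (-i) hψ]
      · refine Finset.sum_congr rfl fun a _ => ?_
        rw [mul_neg]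
    simp_rw [h1]
    rw [Finset.sum_eq_single 0]
    · rw [if_pos neg_zero, ZMod.val_zero, pow_zero, ZMod.card, ← smul_assoc, smul_eq_mul,
        inv_mul_cancel₀ hqK, one_smul]
      rfl
    · intro i _ hi
      rw [if_neg (neg_ne_zero.mpr hi), Nat.cast_zero, zero_smul]
    · intro h; exact absurd (Finset.mem_univ _) h
  · intro W hW hv a
    have hmem : ∀ k : ℕ, (D ^ k) v ∈ W := by
      intro k
      induction k with
      | zero => exact hv
      | succ k ih =>
        rw [pow_succ', Module.End.mul_apply]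
        exact hW _ ih
    exact W.smul_mem _ (W.sum_mem fun i _ => W.smul_mem _ (hmem _))

end gen

theorem exists_psi (p : ℕ) [Fact p.Prime] (q : ℕ) [hq : Fact q.Prime] (h : q ≠ p) :
    ((q : ℕ) : KK p) ≠ 0 ∧ ∃ ψ : AddChar (ZMod q) (KK p), ψ.IsPrimitive := by
  haveI : NeZero q := ⟨hq.out.ne_zero⟩
  have h1 : ((q : ℕ) : KK p) ≠ 0 := by
    intro e
    rw [CharP.cast_eq_zero_iff (KK p) p] at e
    have hp : p.Prime := Fact.out
    exact h ((Nat.prime_dvd_prime_iff_eq hp hq.out).mp e).symm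
  haveI : NeZero ((q : ℕ) : KK p) := ⟨h1⟩
  obtain ⟨ζ, hζ⟩ := HasEnoughRootsOfUnity.exists_primitiveRoot (KK p) q
  exact ⟨h1, _, AddChar.zmodChar_primitive_of_primitive_root q hζ⟩

section apps

variable {K V : Type*} [Field K] [AddCommGroup V] [Module K V] {q : ℕ} [NeZero q]
  {ψ : AddChar (ZMod q) K}

/-- a nontrivial eigenvector in an invariant subspace -/
theorem exists_eig (hqK : (q : K) ≠ 0) (hψ : ψ.IsPrimitive) (D : Module.End K V) (hD : D ^ q = 1)
    (W : Submodule K V) (hW : ∀ w ∈ W, D w ∈ W) (v : V) (hv : v ∈ W) (hne : D v ≠ v) :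
    ∃ a : ZMod q, a ≠ 0 ∧ ∃ w ∈ W, w ≠ 0 ∧ D w = ψ a • w := by
  obtain ⟨f, h1, h2, h3⟩ := decomp hqK hψ D hD v
  by_contra hcon
  push Not at hcon
  have h4 : ∀ a : ZMod q, a ≠ 0 → f a = 0 := by
    intro a ha
    by_contra h5
    exact hcon a ha (f a) (h3 W hW hv a) h5 (h1 a)
  have h5 : v = f 0 := by
    rw [← h2, Finset.sum_eq_single 0 (fun a _ ha => h4 a ha)
      (fun h => absurd (Finset.mem_univ _) h)]
  apply hne
  rw [h5, h1, AddChar.map_zero_eq_one, one_smul]

/-- an operator killing the nontrivial eigenspaces of `D` kills `(D - 1) V` -/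
theorem kill (hqK : (q : K) ≠ 0) (hψ : ψ.IsPrimitive) (D : Module.End K V) (hD : D ^ q = 1)
    (T : Module.End K V) (hT : ∀ a : ZMod q, a ≠ 0 → ∀ w, D w = ψ a • w → T w = 0) (v : V) :
    T (D v - v) = 0 := by
  obtain ⟨f, h1, h2, -⟩ := decomp hqK hψ D hD v
  rw [← h2, map_sum, ← Finset.sum_sub_distrib, map_sum]
  refine Finset.sum_eq_zero fun a _ => ?_
  rw [h1]
  by_cases ha : a = 0
  · rw [ha, AddChar.map_zero_eq_one, one_smul, sub_self, map_zero]
  · rw [map_sub, map_smul, hT a ha _ (h1 a), smul_zero, sub_zero]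

/-- total dimension -/
theorem le_sum_finrank [FiniteDimensional K V] (hqK : (q : K) ≠ 0) (hψ : ψ.IsPrimitive)
    (D : Module.End K V) (hD : D ^ q = 1) :
    finrank K V ≤ ∑ a : ZMod q, finrank K (Module.End.eigenspace D (ψ a)) := by
  classical
  have h1 : (⨆ a : ZMod q, Module.End.eigenspace D (ψ a)) = ⊤ := by
    rw [eq_top_iff]
    intro v _
    obtain ⟨f, h1, h2, -⟩ := decomp hqK hψ D hD v
    rw [← h2]
    exact Submodule.sum_mem _ fun a _ =>
      Submodule.mem_iSup_of_mem a (Module.End.mem_eigenspace_iff.mpr (h1 a))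
  have h2 : ∀ s : Finset (ZMod q), finrank K (⨆ a ∈ s, Module.End.eigenspace D (ψ a) :
      Submodule K V) ≤ ∑ a ∈ s, finrank K (Module.End.eigenspace D (ψ a)) := by
    intro s
    induction s using Finset.induction_on with
    | empty => simp
    | insert a s ha ih =>
      rw [Finset.iSup_insert, Finset.sum_insert ha]
      have := Submodule.finrank_add_le_finrank_add_finrank (Module.End.eigenspace D (ψ a))
        (⨆ a ∈ s, Module.End.eigenspace D (ψ a))
      omega
  have h3 := h2 Finset.univ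
  have h4 : (⨆ a ∈ (Finset.univ : Finset (ZMod q)), Module.End.eigenspace D (ψ a) :
      Submodule K V) = ⊤ := by
    rw [← h1]
    exact iSup_congr fun a => iSup_pos (Finset.mem_univ a)
  rw [h4, finrank_top] at h3
  exact h3

end apps

end Cfsg.Agent.AltSec
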