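import Cfsg.Agent.Lib.AltSecE

/-! Alternating sections of linear groups (S2653), part F: point stabilizers acting on small
subspaces. -/

set_option autoImplicit false

namespace Cfsg.Agent.AltSec

open Module Equiv.Perm

variable {p : ℕ} [Fact p.Prime] {r : ℕ} {H : Type} [Group H] {V : Type}
    [AddCommGroup V] [Module (KK p) V]
    {ρ : H →* Module.End (KK p) V} {π : H →* alternatingGroup (Fin r)}

/-- pointwise stabilizer -/
def fx (π : H →* alternatingGroup (Fin r)) (F : Finset (Fin r)) : Subgroup H where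
  carrier := {h | ∀ x ∈ F, sg π h x = x}
  one_mem' := by intro x _; rw [map_one]; rfl
  mul_mem' := by
    intro a b ha hb x hx
    rw [map_mul, Equiv.Perm.mul_apply, hb x hx, ha x hx]
  inv_mem' := by
    intro a ha x hx
    rw [map_inv, Equiv.Perm.inv_eq_iff_eq, ha x hx]

theorem mem_fx {F : Finset (Fin r)} {h : H} : h ∈ fx π F ↔ ∀ x ∈ F, sg π h x = x := Iff.rfl

namespace MinCfg

theorem exists_res (m : MinCfg ρ π) (F : Finset (Fin r)) (t : ℕ) (ht : F.card + t = r) :
    ∃ φ : fx π F →* alternatingGroup (Fin t), Function.Surjective φ ∧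
      ∀ h, φ h = 1 → sg π (h : H) = 1 := by
  classical
  have hcard : Fintype.card {x // x ∉ F} = t := by
    rw [Fintype.card_subtype_compl, Fintype.card_fin, Fintype.card_coe]
    omega
  let e : {x // x ∉ F} ≃ Fin t := Fintype.equivFinOfCardEq hcard
  have hst : ∀ (h : fx π F) (x : Fin r), sg π (h : H) x ∉ F ↔ x ∉ F := by
    intro h x
    rw [not_iff_not]
    constructor
    · intro h1
      have h2 := h.2 _ h1
      rw [(sg π (h : H)).injective h2] at h1
      exact h1
    · intro h1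
      rw [h.2 x h1]; exact h1
  have hmv : ∀ (h : fx π F) (x : Fin r), sg π (h : H) x ≠ x → x ∉ F := by
    intro h x h1 h2
    exact h1 (h.2 x h2)
  let φ : fx π F →* alternatingGroup (Fin t) :=
    { toFun := fun h => ⟨e.permCongr ((sg π (h : H)).subtypePerm (hst h)), by
        rw [mem_alternatingGroup, sign_permCongr, sign_subtypePerm _ _ (hmv h)]
        exact sg_sign (π := π) h⟩
      map_one' := by
        apply Subtype.ext
        ext1 x
        simp [Equiv.permCongr_apply]
      map_mul' := by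
        intro a b
        apply Subtype.ext
        ext1 x
        simp [Equiv.permCongr_apply] }
  refine ⟨φ, ?_, ?_⟩
  · intro a
    let g : Equiv.Perm (Fin r) := Equiv.Perm.ofSubtype (e.symm.permCongr (a : Equiv.Perm (Fin t)))
    have hg : sign g = 1 := by
      rw [sign_ofSubtype, sign_permCongr]
      exact mem_alternatingGroup.mp a.2
    obtain ⟨h, hh⟩ := m.sg_surj g hg
    have hF : h ∈ fx π F := by
      intro x hx
      rw [hh]
      exact Equiv.Perm.ofSubtype_apply_of_not_mem _ (by simpa using hx)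
    refine ⟨⟨h, hF⟩, ?_⟩
    apply Subtype.ext
    ext1 x
    show e ((sg π h).subtypePerm (hst ⟨h, hF⟩) (e.symm x)) = _
    have h1 : (sg π h).subtypePerm (hst ⟨h, hF⟩) (e.symm x) = e.symm ((a : Equiv.Perm (Fin t)) x) := by
      apply Subtype.ext
      rw [Equiv.Perm.subtypePerm_apply]
      show sg π h (e.symm x) = _
      rw [hh, Equiv.Perm.ofSubtype_apply_coe]
      simp [Equiv.permCongr_apply]
    rw [h1, Equiv.apply_symm_apply]
  · intro h hh
    ext1 x
    rw [Equiv.Perm.one_apply]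
    by_cases hx : x ∈ F
    · exact h.2 x hx
    · have h1 := congrArg Subtype.val hh
      have h2 := DFunLike.congr_fun h1 (e ⟨x, hx⟩)
      have h3 : e ((sg π (h : H)).subtypePerm (hst h) (e.symm (e ⟨x, hx⟩))) = e ⟨x, hx⟩ := h2
      rw [Equiv.symm_apply_apply] at h3
      have h4 := congrArg Subtype.val (e.injective h3)
      exact h4

theorem small_scal (m : MinCfg ρ π)
    (hIH : ∀ r', 9 ≤ r' → r' < r → ∀ d N, Sec p r' d N → r' ≤ d + 2)
    (F : Finset (Fin r)) (hF0 : 0 < F.card) (t : ℕ) (ht : F.card + t = r) (h9 : 9 ≤ t)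
    (W : Submodule (KK p) V) (hW : ∀ h ∈ fx π F, ∀ w ∈ W, ρ h w ∈ W)
    (hd : finrank (KK p) W + 2 < t) :
    ∀ h ∈ fx π F, ∃ z : KK p, ∀ w ∈ W, ρ h w = z • w := by
  haveI := m.fin
  haveI := m.fd
  obtain ⟨φ, hφ, hker⟩ := m.exists_res F t ht
  let ρ₁ : fx π F →* Module.End (KK p) W :=
    { toFun := fun h => (ρ (h : H)).restrict (hW h h.2)
      map_one' := by ext x; simp
      map_mul' := by intro a b; ext x; simp }
  have hno : ¬ ∀ h, ρ₁ h = 1 → φ h = 1 := by
    intro h
    have h1 := hIH t h9 (by omega) _ _ (sec_of_rep ρ₁ φ hφ h)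
    omega
  have hn : (ρ₁.ker.map φ).Normal := (inferInstance : ρ₁.ker.Normal).map φ hφ
  have htop : ρ₁.ker.map φ = ⊤ := by
    rcases alt_normal h9 (ρ₁.ker.map φ) with h | h
    · exfalso
      apply hno
      intro x hx
      have : φ x ∈ ρ₁.ker.map φ := Subgroup.mem_map_of_mem φ hx
      rw [h, Subgroup.mem_bot] at this
      exact this
    · exact h
  intro h hh
  have h1 : φ ⟨h, hh⟩ ∈ ρ₁.ker.map φ := by rw [htop]; trivial
  obtain ⟨k, hk, e⟩ := h1
  have h2 : sg π (((⟨h, hh⟩ : fx π F) * k⁻¹ : fx π F) : H) = 1 := by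
    apply hker
    rw [map_mul, map_inv, e, mul_inv_cancel]
  obtain ⟨z, hz⟩ := m.scal h2
  refine ⟨z, fun w hw => ?_⟩
  have h3 : (h : H) = (((⟨h, hh⟩ : fx π F) * k⁻¹ : fx π F) : H) * (k : H) := by
    simp
  have h4 : ρ (k : H) w = w :=
    congrArg (fun g : Module.End (KK p) W => ((g ⟨w, hw⟩ : W) : V)) (MonoidHom.mem_ker.mp hk)
  rw [h3, map_mul, Module.End.mul_apply, h4, hz]
  rfl

/-- a canonical lift acting as a scalar on a subspace invariant under a large stabilizer acts
trivially on it -/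
theorem real_scal (m : MinCfg ρ π) (F : Finset (Fin r)) (hF : F.card + 5 ≤ r)
    (W : Submodule (KK p) V) (hW : ∀ h ∈ fx π F, ∀ w ∈ W, ρ h w ∈ W)
    {x y z : Fin r} (hx : x ∉ F) (hy : y ∉ F) (hz : z ∉ F) (hxy : x ≠ y) (hyz : y ≠ z)
    (hxz : x ≠ z) {l : KK p} (hl : ∀ w ∈ W, ρ (lift π (tc x y z)) w = l • w) :
    ∀ w ∈ W, ρ (lift π (tc x y z)) w = w := by
  classical
  have h1 : 1 < (Finset.univ \ (F ∪ {x, y, z})).card := by
    have := Finset.card_sdiff_add_card_eq_card (Finset.subset_univ (F ∪ {x, y, z}))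
    rw [Finset.card_univ, Fintype.card_fin] at this
    have h2 : (F ∪ {x, y, z}).card ≤ F.card + 3 := by
      refine (Finset.card_union_le _ _).trans ?_
      have : ({x, y, z} : Finset (Fin r)).card ≤ 3 := Finset.card_le_three
      omega
    omega
  obtain ⟨a, ha, b, hb, hab⟩ := Finset.one_lt_card.mp h1
  simp only [Finset.mem_sdiff, Finset.mem_univ, true_and, Finset.mem_union,
    Finset.mem_insert, Finset.mem_singleton, not_or] at ha hb
  obtain ⟨Y, hY⟩ := m.sg_surj (Equiv.swap x y * Equiv.swap a b) (by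
    rw [map_mul, Equiv.Perm.sign_swap hxy, Equiv.Perm.sign_swap hab]; rfl)
  have e1 : (Equiv.swap x y * Equiv.swap a b) x = y := by
    rw [Equiv.Perm.mul_apply, Equiv.swap_apply_of_ne_of_ne (Ne.symm ha.2.1) (Ne.symm hb.2.1),
      Equiv.swap_apply_left]
  have e2 : (Equiv.swap x y * Equiv.swap a b) y = x := by
    rw [Equiv.Perm.mul_apply,
      Equiv.swap_apply_of_ne_of_ne (Ne.symm ha.2.2.1) (Ne.symm hb.2.2.1),
      Equiv.swap_apply_right]
  have e3 : (Equiv.swap x y * Equiv.swap a b) z = z := by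
    rw [Equiv.Perm.mul_apply,
      Equiv.swap_apply_of_ne_of_ne (Ne.symm ha.2.2.2) (Ne.symm hb.2.2.2),
      Equiv.swap_apply_of_ne_of_ne hxz.symm hyz.symm]
  have hYF : Y ∈ fx π F := by
    intro u hu
    have n1 : u ≠ a := fun e => ha.1 (e ▸ hu)
    have n2 : u ≠ b := fun e => hb.1 (e ▸ hu)
    have n3 : u ≠ x := fun e => hx (e ▸ hu)
    have n4 : u ≠ y := fun e => hy (e ▸ hu)
    rw [hY, Equiv.Perm.mul_apply, Equiv.swap_apply_of_ne_of_ne n1 n2,
      Equiv.swap_apply_of_ne_of_ne n3 n4]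
  have hgood := tc_good hxy hyz hxz
  have hYC : Y * lift π (tc x y z) * Y⁻¹ = (lift π (tc x y z))⁻¹ := by
    rw [m.lift_conj hgood, tc_conj, hY, e1, e2, e3, ← tc_inv hxy hyz hxz, m.lift_inv hgood]
  intro w hw
  by_cases hw0 : w = 0
  · rw [hw0, map_zero]
  set C := lift π (tc x y z) with hC
  have h3 : C ^ 3 = 1 := by
    have := m.lift_order hgood
    rwa [(tc_isThreeCycle hxy hyz hxz).orderOf] at this
  have h4 : ρ (C⁻¹) w = l • w := by
    rw [← hYC, map_mul, map_mul, Module.End.mul_apply, Module.End.mul_apply,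
      hl _ (hW _ ((fx π F).inv_mem hYF) w hw), map_smul, ← Module.End.mul_apply, ← map_mul,
      mul_inv_cancel, map_one]
    rfl
  have h5 : w = (l * l) • w := by
    have : ρ C (ρ C⁻¹ w) = w := by
      rw [← Module.End.mul_apply, ← map_mul, mul_inv_cancel, map_one]; rfl
    rw [h4, map_smul, hl w hw, ← mul_smul] at this
    exact this.symm
  have h6 : w = (l * (l * l)) • w := by
    have : ρ (C ^ 3) w = w := by rw [h3, map_one]; rfl
    rw [pow_succ, pow_two, map_mul, map_mul, Module.End.mul_apply, Module.End.mul_apply, hl w hw,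
      map_smul, hl w hw, map_smul, map_smul, hl w hw, ← mul_smul, ← mul_smul] at this
    rw [← mul_assoc, this]
  rw [hl w hw]
  rw [mul_smul, ← h5] at h6
  exact h6.symm

end MinCfg

end Cfsg.Agent.AltSec
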