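import Cfsg.Agent.Lib.AltSecF

/-! Alternating sections of linear groups (S2653), part G: the final analysis. -/

set_option autoImplicit false

namespace Cfsg.Agent.AltSec

open Module Equiv.Perm

variable {p : ℕ} [Fact p.Prime] {r : ℕ} {H : Type} [Group H] {V : Type}
    [AddCommGroup V] [Module (KK p) V]
    {ρ : H →* Module.End (KK p) V} {π : H →* alternatingGroup (Fin r)}

/-- three distinct points -/
def D3 (x y z : Fin r) : Prop := x ≠ y ∧ y ≠ z ∧ x ≠ z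

theorem D3.rot {x y z : Fin r} (d : D3 x y z) : D3 y z x := ⟨d.2.1, d.2.2.symm, d.1.symm⟩
theorem D3.sw {x y z : Fin r} (d : D3 x y z) : D3 y x z := ⟨d.1.symm, d.2.2, d.2.1⟩

/-- the canonical lift of a three-cycle -/
noncomputable def L (π : H →* alternatingGroup (Fin r)) (x y z : Fin r) : H := lift π (tc x y z)

/-- the subspace fixed by the canonical lifts of the three-cycles avoiding `F` -/
def XX (ρ : H →* Module.End (KK p) V) (π : H →* alternatingGroup (Fin r)) (F : Finset (Fin r)) :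
    Submodule (KK p) V where
  carrier := {v | ∀ x y z, D3 x y z → x ∉ F → y ∉ F → z ∉ F → ρ (L π x y z) v = v}
  add_mem' := by
    intro a b ha hb x y z d h1 h2 h3
    rw [map_add, ha x y z d h1 h2 h3, hb x y z d h1 h2 h3]
  zero_mem' := by intro x y z _ _ _ _; exact map_zero _
  smul_mem' := by
    intro c a ha x y z d h1 h2 h3
    rw [map_smul, ha x y z d h1 h2 h3]

/-- disjoint canonical lifts: `(C' - 1)(C - 1) = 0` -/
def NT2 (ρ : H →* Module.End (KK p) V) (π : H →* alternatingGroup (Fin r)) : Prop :=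
  ∀ x y z : Fin r, D3 x y z → ∀ v, ρ (L π x y z) v - v ∈ XX ρ π {x, y, z}

theorem XX_mono {F F' : Finset (Fin r)} (h : F ⊆ F') : XX ρ π F ≤ XX ρ π F' :=
  fun _ hv x y z d h1 h2 h3 => hv x y z d (fun e => h1 (h e)) (fun e => h2 (h e))
    (fun e => h3 (h e))

theorem rho_mul (g h : H) (v : V) : ρ (g * h) v = ρ g (ρ h v) := by rw [map_mul]; rfl

theorem rho_inv (g : H) (v : V) : ρ g⁻¹ (ρ g v) = v := by
  rw [← rho_mul, inv_mul_cancel, map_one]; rfl

theorem rho_inv' (g : H) (v : V) : ρ g (ρ g⁻¹ v) = v := by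
  rw [← rho_mul, mul_inv_cancel, map_one]; rfl

theorem rho_inj (g : H) : Function.Injective (ρ g) := fun a b h => by
  rw [← rho_inv (ρ := ρ) g a, h, rho_inv]

namespace MinCfg

theorem L_sg (m : MinCfg ρ π) {x y z : Fin r} (d : D3 x y z) : sg π (L π x y z) = tc x y z :=
  m.lift_sg (tc_good d.1 d.2.1 d.2.2)

theorem L_conj (m : MinCfg ρ π) {x y z : Fin r} (d : D3 x y z) (X : H) :
    X * L π x y z * X⁻¹ = L π (sg π X x) (sg π X y) (sg π X z) := by
  rw [L, m.lift_conj (tc_good d.1 d.2.1 d.2.2), tc_conj]; rfl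

theorem L_rot (_m : MinCfg ρ π) {x y z : Fin r} (d : D3 x y z) : L π y z x = L π x y z := by
  rw [L, L, tc_rot d.1 d.2.1 d.2.2]

theorem L_inv (m : MinCfg ρ π) {x y z : Fin r} (d : D3 x y z) : L π y x z = (L π x y z)⁻¹ := by
  rw [L, L, ← tc_inv d.1 d.2.1 d.2.2, m.lift_inv (tc_good d.1 d.2.1 d.2.2)]

theorem L_cube (m : MinCfg ρ π) {x y z : Fin r} (d : D3 x y z) : L π x y z ^ 3 = 1 := by
  have := m.lift_order (tc_good d.1 d.2.1 d.2.2)
  rwa [(tc_isThreeCycle d.1 d.2.1 d.2.2).orderOf] at this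

theorem L_x (m : MinCfg ρ π) {x y z : Fin r} (d : D3 x y z) : sg π (L π x y z) x = y := by
  rw [m.L_sg d, tc_x d.1 d.2.2]

theorem L_y (m : MinCfg ρ π) {x y z : Fin r} (d : D3 x y z) : sg π (L π x y z) y = z := by
  rw [m.L_sg d, tc_y d.2.1 d.2.2]

theorem L_z (m : MinCfg ρ π) {x y z : Fin r} (d : D3 x y z) : sg π (L π x y z) z = x := by
  rw [m.L_sg d, tc_z]

theorem L_o (m : MinCfg ρ π) {x y z u : Fin r} (d : D3 x y z) (hx : u ≠ x) (hy : u ≠ y)
    (hz : u ≠ z) : sg π (L π x y z) u = u := by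
  rw [m.L_sg d, tc_o hx hy hz]

theorem L_ne (m : MinCfg ρ π) {x y z : Fin r} (d : D3 x y z) : ∃ v, ρ (L π x y z) v ≠ v := by
  by_contra h
  push Not at h
  have h1 : L π x y z = 1 := by
    apply m.inj
    rw [map_one]
    ext v
    exact h v
  have h2 := m.L_x d
  rw [h1, map_one] at h2
  exact d.1 h2

theorem eq_of (m : MinCfg ρ π) {g h : H} (hs : sg π g = sg π h) {u : V} (hu : u ≠ 0)
    (h1 : ρ g u = u) (h2 : ρ h u = u) : g = h := by
  have h3 : sg π (g * h⁻¹) = 1 := by rw [map_mul, map_inv, hs, mul_inv_cancel]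
  obtain ⟨z, hz⟩ := m.scal h3
  have h4 : ρ (g * h⁻¹) u = u := by
    rw [rho_mul]
    nth_rewrite 1 [← h2]
    rw [rho_inv, h1]
  have h5 : z = 1 := by
    rw [hz] at h4
    have h6 : (z - 1) • u = 0 := by
      rw [sub_smul, one_smul, sub_eq_zero]; exact h4
    exact sub_eq_zero.mp ((smul_eq_zero.mp h6).resolve_right hu)
  have h6 : g * h⁻¹ = 1 := by
    apply m.inj
    rw [hz, h5, one_smul, map_one]
  exact mul_inv_eq_one.mp h6

theorem XX_conj (m : MinCfg ρ π) {F F' : Finset (Fin r)} {h : H}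
    (hF : ∀ x, x ∉ F' → sg π h⁻¹ x ∉ F) {v : V} (hv : v ∈ XX ρ π F) : ρ h v ∈ XX ρ π F' := by
  intro x y z d h1 h2 h3
  have d' : D3 (sg π h⁻¹ x) (sg π h⁻¹ y) (sg π h⁻¹ z) :=
    ⟨(sg π h⁻¹).injective.ne d.1, (sg π h⁻¹).injective.ne d.2.1, (sg π h⁻¹).injective.ne d.2.2⟩
  have h4 := hv _ _ _ d' (hF x h1) (hF y h2) (hF z h3)
  rw [← m.L_conj d, inv_inv, rho_mul, rho_mul] at h4
  have h5 := congrArg (ρ h) h4
  rw [rho_inv'] at h5
  exact h5

/-- the relation in the alternating group of degree four -/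
theorem A4rel (m : MinCfg ρ π) (h2 : NT2 ρ π) {y z w w' : Fin r} (d : D3 y z w)
    (d1 : w' ≠ y) (d2 : w' ≠ z) (d3 : w' ≠ w) :
    L π y z w' = L π y z w * L π z w' w := by
  classical
  have hr := m.hr
  -- three further points
  have hc : ({y, z, w, w'} : Finset (Fin r)).card ≤ 4 := Finset.card_le_four
  obtain ⟨a, ha⟩ := exists_out ({y, z, w, w'} : Finset (Fin r)) (by omega)
  obtain ⟨b, hb⟩ := exists_out (insert a ({y, z, w, w'} : Finset (Fin r)))
    (by have := Finset.card_insert_le a ({y, z, w, w'} : Finset (Fin r)); omega)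
  obtain ⟨e, he⟩ := exists_out (insert b (insert a ({y, z, w, w'} : Finset (Fin r))))
    (by
      have := Finset.card_insert_le a ({y, z, w, w'} : Finset (Fin r))
      have := Finset.card_insert_le b (insert a ({y, z, w, w'} : Finset (Fin r)))
      omega)
  simp only [Finset.mem_insert, Finset.mem_singleton, not_or] at ha hb he
  obtain ⟨ha1, ha2, ha3, ha4⟩ := ha
  obtain ⟨hb0, hb1, hb2, hb3, hb4⟩ := hb
  obtain ⟨he0, he00, he1, he2, he3, he4⟩ := he
  have dabe : D3 a b e := ⟨Ne.symm hb0, Ne.symm he0, Ne.symm he00⟩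
  obtain ⟨v, hv⟩ := m.L_ne dabe
  have hu := h2 a b e dabe v
  have dyzw' : D3 y z w' := ⟨d.1, Ne.symm d2, Ne.symm d1⟩
  have dzw'w : D3 z w' w := ⟨Ne.symm d2, d3, d.2.1⟩
  refine m.eq_of ?_ (sub_ne_zero.mpr hv) (hu y z w' dyzw' ?_ ?_ ?_) ?_
  · rw [map_mul, m.L_sg dyzw', m.L_sg d, m.L_sg dzw'w]
    obtain ⟨n1, n2, n3⟩ := d
    ext1 u
    rw [Equiv.Perm.mul_apply]
    by_cases e1 : u = y
    · subst e1
      rw [tc_x n1 (Ne.symm d1), tc_o n1 (Ne.symm d1) n3, tc_x n1 n3]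
    by_cases e2 : u = z
    · subst e2
      rw [tc_y (Ne.symm d2) (Ne.symm d1), tc_x (Ne.symm d2) n2, tc_o d1 d2 d3]
    by_cases e3 : u = w'
    · subst e3
      rw [tc_z, tc_y d3 n2, tc_z]
    by_cases e4 : u = w
    · subst e4
      rw [tc_o e1 e2 e3, tc_z, tc_y n2 n3]
    rw [tc_o e1 e2 e3, tc_o e2 e3 e4, tc_o e1 e2 e4]
  · simp [Ne.symm ha1, Ne.symm hb1, Ne.symm he1]
  · simp [Ne.symm ha2, Ne.symm hb2, Ne.symm he2]
  · simp [Ne.symm ha4, Ne.symm hb4, Ne.symm he4]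
  · rw [rho_mul, hu z w' w dzw'w, hu y z w d]
    · simp [Ne.symm ha1, Ne.symm hb1, Ne.symm he1]
    · simp [Ne.symm ha2, Ne.symm hb2, Ne.symm he2]
    · simp [Ne.symm ha3, Ne.symm hb3, Ne.symm he3]
    · simp [Ne.symm ha2, Ne.symm hb2, Ne.symm he2]
    · simp [Ne.symm ha4, Ne.symm hb4, Ne.symm he4]
    · simp [Ne.symm ha3, Ne.symm hb3, Ne.symm he3]

/-- transport elements -/
theorem exists_tt (m : MinCfg ρ π) (h2 : NT2 ρ π) (F : Finset (Fin r)) (hF : F.card ≤ 2)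
    {y₀ : Fin r} (hy₀ : y₀ ∉ F) : ∃ t : Fin r → H, t y₀ = 1 ∧
      (∀ z, z ∉ F → z ≠ y₀ → ∃ w, D3 y₀ z w ∧ w ∉ F ∧ t z = L π y₀ z w) ∧
      (∀ a b c, D3 a b c → a ∉ F → b ∉ F → c ∉ F → ∀ u ∈ XX ρ π (insert y₀ F),
        ρ (L π a b c) (ρ (t a) u) = ρ (t b) u) ∧
      (∀ z, z ∉ F → ∀ u ∈ XX ρ π (insert y₀ F), ρ (t z) u ∈ XX ρ π (insert z F)) := by
  classical
  have hr := m.hr
  have hw : ∀ z : Fin r, ∃ w, w ∉ insert z (insert y₀ F) := by
    intro z
    apply exists_out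
    have h3 := Finset.card_insert_le y₀ F
    have h4 := Finset.card_insert_le z (insert y₀ F)
    omega
  choose w hw using hw
  simp only [Finset.mem_insert, not_or] at hw
  let t : Fin r → H := fun z => if z = y₀ then 1 else L π y₀ z (w z)
  have t0 : t y₀ = 1 := if_pos rfl
  have tz : ∀ z, z ≠ y₀ → t z = L π y₀ z (w z) := fun z hz => if_neg hz
  have dz : ∀ z, z ≠ y₀ → D3 y₀ z (w z) := fun z hz =>
    ⟨Ne.symm hz, fun e => (hw z).1 e.symm, fun e => (hw z).2.1 e.symm⟩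
  -- independence of the auxiliary point
  have hind : ∀ z, z ∉ F → z ≠ y₀ → ∀ w', D3 y₀ z w' → w' ∉ F →
      ∀ u ∈ XX ρ π (insert y₀ F), ρ (L π y₀ z w') u = ρ (t z) u := by
    intro z hz hz0 w' d' hw' u hu
    rw [tz z hz0]
    by_cases e : w' = w z
    · rw [e]
    · rw [m.A4rel h2 (dz z hz0) (Ne.symm d'.2.2) (Ne.symm d'.2.1) e, rho_mul]
      rw [hu z w' (w z) ⟨d'.2.1, e, (dz z hz0).2.1⟩]
      · simp [hz0, hz]
      · simp [Ne.symm d'.2.2, hw']
      · simp only [Finset.mem_insert, not_or]; exact ⟨(hw z).2.1, (hw z).2.2⟩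
  have hXX : ∀ z, z ∉ F → ∀ u ∈ XX ρ π (insert y₀ F), ρ (t z) u ∈ XX ρ π (insert z F) := by
    intro z hz u hu
    by_cases hz0 : z = y₀
    · subst hz0; rw [t0, map_one]; exact hu
    · rw [tz z hz0]
      have d := dz z hz0
      refine m.XX_conj ?_ hu
      intro x hx hx'
      simp only [Finset.mem_insert, not_or] at hx hx'
      rw [map_inv] at hx'
      rcases hx' with e | e
      · have : x = sg π (L π y₀ z (w z)) y₀ := Equiv.Perm.inv_eq_iff_eq.mp e
        rw [m.L_x d] at this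
        exact hx.1 this
      · set x' := (sg π (L π y₀ z (w z)))⁻¹ x with hx'def
        have h3 : x = sg π (L π y₀ z (w z)) x' := by rw [hx'def]; simp
        rw [m.L_o d (fun h => hy₀ (h ▸ e)) (fun h => hz (h ▸ e))
          (fun h => (hw z).2.2 (h ▸ e))] at h3
        rw [h3] at hx
        exact hx.2 e
  refine ⟨t, t0, fun z hz hz0 => ⟨w z, dz z hz0, (hw z).2.2, tz z hz0⟩, ?_, hXX⟩
  intro a b c d ha hb hc u hu
  by_cases ha0 : a = y₀
  · subst ha0
    rw [t0, map_one]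
    exact hind b hb (Ne.symm d.1) c d hc u hu
  by_cases hb0 : b = y₀
  · subst hb0
    rw [t0, ← hind a ha ha0 c d.sw hc u hu, m.L_inv d.sw, rho_inv, map_one]
    rfl
  -- both different from `y₀`
  have key : D3 a b y₀ → ρ (L π a b y₀) (ρ (t a) u) = ρ (t b) u := by
    intro d'
    rw [← hind a ha ha0 b d'.rot.rot hb u hu, ← hind b hb hb0 a ⟨Ne.symm hb0, Ne.symm d'.1, Ne.symm ha0⟩ ha u hu]
    have e1 : L π a b y₀ = L π y₀ a b := m.L_rot d'.rot.rot
    have e2 : L π y₀ b a = (L π y₀ a b)⁻¹ := by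
      rw [← m.L_inv d'.rot.rot, m.L_rot (x := a) (y := y₀) (z := b) ⟨ha0, Ne.symm hb0, d'.1⟩]
    rw [e1, e2, ← rho_mul]
    congr 2
    have e3 := m.L_cube d'.rot.rot
    rw [pow_succ, pow_two] at e3
    exact eq_inv_of_mul_eq_one_left e3
  by_cases hc0 : c = y₀
  · subst hc0
    exact key d
  · have d' : D3 a b y₀ := ⟨d.1, hb0, ha0⟩
    rw [m.A4rel h2 d' (Ne.symm d.2.2) (Ne.symm d.2.1) hc0, rho_mul]
    rw [hXX a ha u hu b c y₀ ⟨d.2.1, hc0, hb0⟩]
    · exact key d'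
    · simp [Ne.symm d.1, hb]
    · simp [Ne.symm d.2.2, hc]
    · simp [Ne.symm ha0, hy₀]

end MinCfg

end Cfsg.Agent.AltSec
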