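import Cfsg.Agent.Lib.AltSecG

/-! Alternating sections of linear groups (S2653), part H: the relation lemma and the bound
`r - 2 ≤ n`. -/

set_option autoImplicit false

namespace Cfsg.Agent.AltSec

open Module Equiv.Perm

variable {p : ℕ} [Fact p.Prime] {r : ℕ} {H : Type} [Group H] {V : Type}
    [AddCommGroup V] [Module (KK p) V]
    {ρ : H →* Module.End (KK p) V} {π : H →* alternatingGroup (Fin r)}

/-- the properties of a transport family -/
structure TT (ρ : H →* Module.End (KK p) V) (π : H →* alternatingGroup (Fin r))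
    (F : Finset (Fin r)) (y₀ : Fin r) (t : Fin r → H) : Prop where
  zero : t y₀ = 1
  form : ∀ z, z ∉ F → z ≠ y₀ → ∃ w, D3 y₀ z w ∧ w ∉ F ∧ t z = L π y₀ z w
  act : ∀ a b c, D3 a b c → a ∉ F → b ∉ F → c ∉ F → ∀ u ∈ XX ρ π (insert y₀ F),
        ρ (L π a b c) (ρ (t a) u) = ρ (t b) u
  mem : ∀ z, z ∉ F → ∀ u ∈ XX ρ π (insert y₀ F), ρ (t z) u ∈ XX ρ π (insert z F)

/-- points outside a set of at most five points -/
theorem out1 (hr : 9 ≤ r) (F : Finset (Fin r)) (hF : F.card ≤ 8) : ∃ x, x ∉ F :=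
  exists_out F (by omega)

theorem card_ins {F : Finset (Fin r)} {k : ℕ} (h : F.card ≤ k) (x : Fin r) :
    (insert x F).card ≤ k + 1 := by
  have := Finset.card_insert_le x F
  omega

namespace MinCfg

theorem exists_TT (m : MinCfg ρ π) (h2 : NT2 ρ π) (F : Finset (Fin r)) (hF : F.card ≤ 2)
    {y₀ : Fin r} (hy₀ : y₀ ∉ F) : ∃ t : Fin r → H, TT ρ π F y₀ t := by
  obtain ⟨t, h1, h2, h3, h4⟩ := m.exists_tt h2 F hF hy₀
  exact ⟨t, h1, h2, h3, h4⟩

/-- if two transports agree then the vector is fixed by everything avoiding `F` -/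
theorem TT_eq (m : MinCfg ρ π) {F : Finset (Fin r)} {y₀ : Fin r} (hy₀ : y₀ ∉ F)
    {t : Fin r → H} (ht : TT ρ π F y₀ t) {u : V} (hu : u ∈ XX ρ π (insert y₀ F))
    {w s : Fin r} (hw : w ∉ F) (hs : s ∉ F) (hws : w ≠ s) (he : ρ (t w) u = ρ (t s) u) :
    u ∈ XX ρ π F := by
  have hv : ρ (t w) u ∈ XX ρ π F := by
    intro x y z d hx hy hz
    by_cases h1 : w ≠ x ∧ w ≠ y ∧ w ≠ z
    · exact ht.mem w hw u hu x y z d (by simp [Ne.symm h1.1, hx]) (by simp [Ne.symm h1.2.1, hy])
        (by simp [Ne.symm h1.2.2, hz])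
    by_cases h2 : s ≠ x ∧ s ≠ y ∧ s ≠ z
    · rw [he]
      exact ht.mem s hs u hu x y z d (by simp [Ne.symm h2.1, hx]) (by simp [Ne.symm h2.2.1, hy])
        (by simp [Ne.symm h2.2.2, hz])
    -- both `w` and `s` occur
    have key : ∀ c, D3 w s c → c ∉ F → ρ (L π w s c) (ρ (t w) u) = ρ (t w) u := by
      intro c dc hc
      rw [ht.act w s c dc hw hs hc u hu, he]
    have key' : ∀ c, D3 w s c → c ∉ F → ρ (L π s w c) (ρ (t w) u) = ρ (t w) u := by
      intro c dc hc
      rw [he, ht.act s w c dc.sw hs hw hc u hu, he]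
    have h1' : w = x ∨ w = y ∨ w = z := by
      by_contra hcon
      push Not at hcon
      exact h1 hcon
    have h2' : s = x ∨ s = y ∨ s = z := by
      by_contra hcon
      push Not at hcon
      exact h2 hcon
    rcases h1' with rfl | rfl | rfl <;> rcases h2' with rfl | rfl | rfl
    · exact absurd rfl hws
    · exact key z d hz
    · rw [m.L_rot (x := s) (y := w) (z := y) ⟨hws.symm, d.1, d.2.1.symm⟩]
      exact key' y ⟨hws, d.2.1.symm, d.1⟩ hy
    · exact key' z ⟨hws, d.2.2, d.2.1⟩ hz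
    · exact absurd rfl hws
    · rw [← m.L_rot d]
      exact key x ⟨hws, d.2.2.symm, d.1.symm⟩ hx
    · rw [m.L_rot (x := w) (y := s) (z := y) ⟨hws, d.1, d.2.1.symm⟩]
      exact key y ⟨hws, d.1, d.2.1.symm⟩ hy
    · rw [← m.L_rot d]
      exact key' x ⟨hws, d.1.symm, d.2.2.symm⟩ hx
    · exact absurd rfl hws
  by_cases hw0 : w = y₀
  · rw [hw0, ht.zero, map_one] at hv
    exact hv
  · obtain ⟨w', d, hw', e⟩ := ht.form w hw hw0
    have h3 := hv y₀ w w' d hy₀ hw hw'
    rw [e] at h3 hv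
    have h4 : ρ (L π y₀ w w') u = u := rho_inj _ h3
    rw [h4] at hv
    exact hv

/-- relations between transported vectors are constant -/
theorem rel_const (m : MinCfg ρ π) {F : Finset (Fin r)} (hF : F.card ≤ 2) {y₀ : Fin r}
    (hy₀ : y₀ ∉ F) {t : Fin r → H} (ht : TT ρ π F y₀ t) (U : Submodule (KK p) V)
    (hU : U ≤ XX ρ π (insert y₀ F)) (hUF : U ⊓ XX ρ π F = ⊥) (a : Fin r → V)
    (haU : ∀ z, a z ∈ U) (hsum : ∑ z ∈ Finset.univ \ F, ρ (t z) (a z) = 0) :
    ∀ z w, z ∉ F → w ∉ F → a z = a w := by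
  classical
  have hr := m.hr
  intro z w hz hw
  by_cases hzw : z = w
  · rw [hzw]
  -- auxiliary points
  have c0 := card_ins (card_ins hF z) w
  obtain ⟨y, hy⟩ := out1 hr (insert w (insert z F)) (by omega)
  have c1 := card_ins c0 y
  obtain ⟨s, hs⟩ := out1 hr (insert y (insert w (insert z F))) (by omega)
  have c2 := card_ins c1 s
  obtain ⟨s', hs'⟩ := out1 hr (insert s (insert y (insert w (insert z F)))) (by omega)
  simp only [Finset.mem_insert, not_or] at hy hs hs'
  obtain ⟨hyw, hyz, hyF⟩ := hy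
  obtain ⟨hsy, hsw, hsz, hsF⟩ := hs
  obtain ⟨hs's, hs'y, hs'w, hs'z, hs'F⟩ := hs'
  have d : D3 y z w := ⟨hyz, hzw, hyw⟩
  have haX : ∀ x, a x ∈ XX ρ π (insert y₀ F) := fun x => hU (haU x)
  have h1 : ρ (t z) (a y - a z) + ρ (t w) (a z - a w) + ρ (t y) (a w - a y) = 0 := by
    have h2 : ∑ x ∈ Finset.univ \ F, (ρ (L π y z w) (ρ (t x) (a x)) - ρ (t x) (a x)) = 0 := by
      rw [Finset.sum_sub_distrib, ← map_sum, hsum, map_zero, sub_zero]
    have h3 : ∑ x ∈ ({y, z, w} : Finset (Fin r)),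
        (ρ (L π y z w) (ρ (t x) (a x)) - ρ (t x) (a x)) = 0 := by
      rw [← h2]
      apply Finset.sum_subset
      · intro x hx
        simp only [Finset.mem_insert, Finset.mem_singleton] at hx
        simp only [Finset.mem_sdiff, Finset.mem_univ, true_and]
        rcases hx with rfl | rfl | rfl
        · exact hyF
        · exact hz
        · exact hw
      · intro x hx hx'
        simp only [Finset.mem_insert, Finset.mem_singleton, not_or] at hx'
        simp only [Finset.mem_sdiff, Finset.mem_univ, true_and] at hx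
        rw [ht.mem x hx _ (haX x) y z w d (by simp [Ne.symm hx'.1, hyF])
          (by simp [Ne.symm hx'.2.1, hz]) (by simp [Ne.symm hx'.2.2, hw]), sub_self]
    rw [Finset.sum_insert (by simp [d.1, d.2.2]), Finset.sum_insert (by simp [d.2.1]),
      Finset.sum_singleton] at h3
    have e1 := ht.act y z w d hyF hz hw _ (haX y)
    have e2 : ρ (L π y z w) (ρ (t z) (a z)) = ρ (t w) (a z) := by
      rw [← m.L_rot d]
      exact ht.act z w y d.rot hz hw hyF _ (haX z)
    have e3 : ρ (L π y z w) (ρ (t w) (a w)) = ρ (t y) (a w) := by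
      rw [← m.L_rot d, ← m.L_rot d.rot]
      exact ht.act w y z d.rot.rot hw hyF hz _ (haX w)
    rw [e1, e2, e3] at h3
    rw [← h3, map_sub, map_sub, map_sub]
    abel
  have dw : D3 w s s' := ⟨Ne.symm hsw, Ne.symm hs's, Ne.symm hs'w⟩
  have hXs : ∀ x y : Fin r, a x - a y ∈ XX ρ π (insert y₀ F) := fun x y =>
    Submodule.sub_mem _ (haX x) (haX y)
  have h2 := congrArg (ρ (L π w s s')) h1
  rw [map_zero, map_add, map_add] at h2
  rw [ht.mem z hz _ (hXs _ _) w s s' dw (by simp [Ne.symm hzw, hw]) (by simp [hsz, hsF])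
      (by simp [hs'z, hs'F]),
    ht.mem y hyF _ (hXs _ _) w s s' dw (by simp [Ne.symm hyw, hw]) (by simp [hsy, hsF])
      (by simp [hs'y, hs'F]), ht.act w s s' dw hw hsF hs'F _ (hXs _ _)] at h2
  have h3 : ρ (t w) (a z - a w) = ρ (t s) (a z - a w) := by
    have := h1.trans h2.symm
    exact add_left_cancel (add_right_cancel this)
  have h4 := m.TT_eq hy₀ ht (hXs z w) hw hsF (Ne.symm hsw) h3
  have h5 : a z - a w ∈ U ⊓ XX ρ π F := ⟨U.sub_mem (haU z) (haU w), h4⟩
  rw [hUF, Submodule.mem_bot] at h5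
  exact sub_eq_zero.mp h5

/-- the dimension bound -/
theorem dim_bound (m : MinCfg ρ π) {F : Finset (Fin r)} (hF : F.card ≤ 2) {y₀ : Fin r}
    (hy₀ : y₀ ∉ F) {t : Fin r → H} (ht : TT ρ π F y₀ t) (U : Submodule (KK p) V)
    (hU : U ≤ XX ρ π (insert y₀ F)) (hUF : U ⊓ XX ρ π F = ⊥) :
    (r - F.card - 1) * finrank (KK p) U ≤ finrank (KK p) V := by
  classical
  haveI := m.fd
  let J := {x : Fin r // x ∉ insert y₀ F}
  have hJ : Fintype.card J = r - F.card - 1 := by
    rw [Fintype.card_subtype_compl, Fintype.card_fin, Fintype.card_coe,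
      Finset.card_insert_of_notMem hy₀]
    omega
  let Φ : (J → U) →ₗ[KK p] V :=
    { toFun := fun a => ∑ j : J, ρ (t (j : Fin r)) (a j : V)
      map_add' := by
        intro a b
        simp [Finset.sum_add_distrib]
      map_smul' := by
        intro c a
        simp [Finset.smul_sum] }
  have hinj : Function.Injective Φ := by
    rw [← LinearMap.ker_eq_bot, LinearMap.ker_eq_bot']
    intro a ha
    let a' : Fin r → V := fun x => if h : x ∉ insert y₀ F then (a ⟨x, h⟩ : V) else 0
    have ha'U : ∀ x, a' x ∈ U := by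
      intro x
      show (if h : x ∉ insert y₀ F then (a ⟨x, h⟩ : V) else 0) ∈ U
      split_ifs with h
      · exact U.zero_mem
      · exact (a _).2
    have ha'0 : a' y₀ = 0 := dif_neg (by simp)
    have hsum : ∑ z ∈ Finset.univ \ F, ρ (t z) (a' z) = 0 := by
      have e1 : ∑ z ∈ Finset.univ \ insert y₀ F, ρ (t z) (a' z) = 0 := by
        rw [Finset.sum_subtype (p := fun x => x ∉ insert y₀ F) (Finset.univ \ insert y₀ F)
          (by simp) (fun z => ρ (t z) (a' z))]
        refine Eq.trans ?_ ha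
        show _ = ∑ j : J, ρ (t (j : Fin r)) (a j : V)
        refine Finset.sum_congr rfl fun j _ => ?_
        have : a' j = a j := dif_pos j.2
        rw [this]
      rw [← e1]
      symm
      apply Finset.sum_subset
      · intro x hx
        simp only [Finset.mem_sdiff, Finset.mem_univ, true_and, Finset.mem_insert, not_or] at hx ⊢
        exact hx.2
      · intro x hx hx'
        simp only [Finset.mem_sdiff, Finset.mem_univ, true_and, Finset.mem_insert, not_or,
          not_and, not_not] at hx hx'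
        have : x = y₀ := by
          by_contra hne
          exact hx (hx' hne)
        rw [this, ha'0, map_zero]
    have h1 := m.rel_const hF hy₀ ht U hU hUF a' ha'U hsum
    funext j
    have hj : (j : Fin r) ∉ F := fun h => j.2 (Finset.mem_insert_of_mem h)
    have h2 := h1 j y₀ hj hy₀
    rw [ha'0] at h2
    have h3 : a' j = a j := dif_pos j.2
    rw [h3] at h2
    exact Subtype.ext h2
  have h1 := LinearMap.finrank_le_finrank_of_injective hinj
  rw [Module.finrank_pi_fintype, Finset.sum_const, Finset.card_univ, hJ, smul_eq_mul] at h1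
  exact h1

/-- a vector fixed by the lifts avoiding `x` and by those avoiding `y` is zero -/
theorem XX_two (m : MinCfg ρ π) {x y : Fin r} (hxy : x ≠ y) {v : V} (hx : v ∈ XX ρ π {x})
    (hy : v ∈ XX ρ π {y}) : v = 0 := by
  classical
  have hr := m.hr
  by_contra hv
  let N : Subgroup H :=
    { carrier := {h | ρ h v = v}
      one_mem' := by
        show ρ 1 v = v
        rw [map_one]; rfl
      mul_mem' := by
        intro a b ha hb
        show ρ (a * b) v = v
        rw [rho_mul, hb, ha]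
      inv_mem' := by
        intro a ha
        show ρ a⁻¹ v = v
        have : ρ a v = v := ha
        nth_rewrite 1 [← this]
        rw [rho_inv] }
  have hN : ∀ h, h ∈ N ↔ ρ h v = v := fun h => Iff.rfl
  have n1 : ∀ a b c, D3 a b c → a ≠ x → b ≠ x → c ≠ x → L π a b c ∈ N := by
    intro a b c d h1 h2 h3
    exact hx a b c d (by simpa using h1) (by simpa using h2) (by simpa using h3)
  have n2 : ∀ a b c, D3 a b c → a ≠ y → b ≠ y → c ≠ y → L π a b c ∈ N := by
    intro a b c d h1 h2 h3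
    exact hy a b c d (by simpa using h1) (by simpa using h2) (by simpa using h3)
  have n3 : ∀ e, e ≠ x → e ≠ y → ∃ l ∈ N, sg π l = tc x e y := by
    intro e hex hey
    obtain ⟨w, hw⟩ := out1 hr ({x, y, e} : Finset (Fin r)) (by
      have : ({x, y, e} : Finset (Fin r)).card ≤ 3 := Finset.card_le_three
      omega)
    simp only [Finset.mem_insert, Finset.mem_singleton, not_or] at hw
    obtain ⟨w1, w2, w3⟩ := hw
    have d1 : D3 x e w := ⟨Ne.symm hex, Ne.symm w3, Ne.symm w1⟩
    have d2 : D3 e y w := ⟨hey, Ne.symm w2, Ne.symm w3⟩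
    refine ⟨L π x e w * L π e y w, N.mul_mem (n2 _ _ _ d1 hxy hey w2) (n1 _ _ _ d2 hex (Ne.symm hxy) w1), ?_⟩
    rw [map_mul, m.L_sg d1, m.L_sg d2]
    ext1 u
    rw [Equiv.Perm.mul_apply]
    by_cases e1 : u = x
    · subst e1
      rw [tc_o (Ne.symm hex) hxy (Ne.symm w1), tc_x (Ne.symm hex) (Ne.symm w1),
        tc_x (Ne.symm hex) hxy]
    by_cases e2 : u = e
    · subst e2
      rw [tc_x hey (Ne.symm w3), tc_o (Ne.symm hxy) (Ne.symm hey) (Ne.symm w2),
        tc_y hey hxy]
    by_cases e3 : u = y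
    · subst e3
      rw [tc_y (Ne.symm w2) (Ne.symm w3), tc_z, tc_z]
    by_cases e4 : u = w
    · subst e4
      rw [tc_z, tc_y (Ne.symm w3) (Ne.symm w1), tc_o e1 e2 e3]
    rw [tc_o e2 e3 e4, tc_o e1 e2 e4, tc_o e1 e2 e3]
  have n4 : ∀ e, e ≠ x → e ≠ y → ∃ l ∈ N, sg π l = tc y e x := by
    intro e hex hey
    obtain ⟨l, hl, e1⟩ := n3 e hex hey
    refine ⟨l⁻¹, N.inv_mem hl, ?_⟩
    rw [map_inv, e1, tc_inv (Ne.symm hex) hey hxy, tc_rot (x := y) (y := e) (z := x) (Ne.symm hey) hex (Ne.symm hxy)]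
  have htop : N = ⊤ := by
    apply m.sg_gen
    intro a b c h1 h2 h3
    have d : D3 a b c := ⟨h1, h2, h3⟩
    by_cases ex : a ≠ x ∧ b ≠ x ∧ c ≠ x
    · exact ⟨_, n1 a b c d ex.1 ex.2.1 ex.2.2, m.L_sg d⟩
    by_cases ey : a ≠ y ∧ b ≠ y ∧ c ≠ y
    · exact ⟨_, n2 a b c d ey.1 ey.2.1 ey.2.2, m.L_sg d⟩
    have ex' : a = x ∨ b = x ∨ c = x := by
      by_contra hcon
      push Not at hcon
      exact ex hcon
    have ey' : a = y ∨ b = y ∨ c = y := by
      by_contra hcon
      push Not at hcon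
      exact ey hcon
    rcases ex' with rfl | rfl | rfl <;> rcases ey' with rfl | rfl | rfl
    · exact absurd rfl hxy
    · -- (x y c) = (y c x)
      rw [← tc_rot h1 h2 h3]
      exact n4 c (Ne.symm h3) (Ne.symm h2)
    · exact n3 b (Ne.symm h1) h2
    · rw [← tc_rot h1 h2 h3]
      exact n3 c (Ne.symm h2) (Ne.symm h3)
    · exact absurd rfl hxy
    · rw [← tc_rot h1 h2 h3, ← tc_rot h2 h3.symm h1.symm]
      exact n4 a h1 h3
    · exact n4 b h2 (Ne.symm h1)
    · rw [← tc_rot h1 h2 h3, ← tc_rot h2 h3.symm h1.symm]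
      exact n3 a h3 h1
    · exact absurd rfl hxy
  have hall : ∀ h, ρ h v = v := fun h => by
    rw [← hN, htop]; trivial
  have hirr := m.irr (Submodule.span (KK p) {v}) (by
    intro h w hw
    obtain ⟨c, rfl⟩ := Submodule.mem_span_singleton.mp hw
    rw [map_smul, hall]
    exact Submodule.smul_mem _ _ (Submodule.mem_span_singleton_self v))
  rcases hirr with h | h
  · rw [Submodule.span_singleton_eq_bot] at h
    exact hv h
  · refine m.nab fun a b => m.inj ?_
    have h1 : ∀ g : H, ρ g = 1 := by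
      intro g
      ext w
      have hw : w ∈ Submodule.span (KK p) {v} := by rw [h]; trivial
      obtain ⟨c, rfl⟩ := Submodule.mem_span_singleton.mp hw
      rw [map_smul, hall]; rfl
    rw [h1, h1]

end MinCfg

end Cfsg.Agent.AltSec
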