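import Cfsg.Agent.Lib.AltSecH

/-! Alternating sections of linear groups (S2653), part I: the final contradiction. -/

set_option autoImplicit false

namespace Cfsg.Agent.AltSec

open Module Equiv.Perm

variable {p : ℕ} [Fact p.Prime] {r : ℕ} {H : Type} [Group H] {V : Type}
    [AddCommGroup V] [Module (KK p) V]
    {ρ : H →* Module.End (KK p) V} {π : H →* alternatingGroup (Fin r)}

/-- a frame at `x` -/
structure Frame (ρ : H →* Module.End (KK p) V) (π : H →* alternatingGroup (Fin r))
    (x : Fin r) (v : Fin r → V) : Prop where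
  act : ∀ a b c, D3 a b c → a ≠ x → b ≠ x → c ≠ x → ρ (L π a b c) (v a) = v b
  mem : ∀ z, z ≠ x → v z ∈ XX ρ π {z, x}
  rel : ∀ α : Fin r → KK p, ∑ z ∈ Finset.univ \ {x}, α z • v z = 0 →
    ∀ z w, z ≠ x → w ≠ x → α z = α w
  span : ∀ u : V, ∃ β : Fin r → KK p, u = ∑ z ∈ Finset.univ \ {x}, β z • v z

theorem exists_two (hr : 9 ≤ r) : ∃ x y : Fin r, x ≠ y :=
  ⟨⟨0, by omega⟩, ⟨1, by omega⟩, by intro h; simpa using congrArg Fin.val h⟩

namespace MinCfg

/-- step 1 -/
theorem XX_pair_ne (m : MinCfg ρ π) (h2 : NT2 ρ π)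
    (hd : ∀ x y z, D3 x y z → 2 ≤ finrank (KK p) (LinearMap.range (ρ (L π x y z) - 1)))
    {x y : Fin r} (hxy : x ≠ y) : XX ρ π {x, y} ≠ ⊥ := by
  classical
  intro h
  have hr := m.hr
  have hle := m.le
  have hcard : ({x, y} : Finset (Fin r)).card = 2 := Finset.card_pair hxy
  obtain ⟨z, hz⟩ := out1 hr ({x, y} : Finset (Fin r)) (by omega)
  obtain ⟨t, ht⟩ := m.exists_TT h2 {x, y} (by omega) hz
  have hz' := hz
  simp only [Finset.mem_insert, Finset.mem_singleton, not_or] at hz'
  have d : D3 x y z := ⟨hxy, Ne.symm hz'.2, Ne.symm hz'.1⟩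
  have h1 := m.dim_bound (by omega) hz ht (LinearMap.range (ρ (L π x y z) - 1)) ?_ (by rw [h, inf_bot_eq])
  · have h3 := hd x y z d
    rw [hcard] at h1
    have h4 : (r - 2 - 1) * 2 ≤ finrank (KK p) V := (Nat.mul_le_mul le_rfl h3).trans h1
    omega
  · rintro _ ⟨w, rfl⟩
    have h3 := h2 x y z d w
    refine XX_mono ?_ h3
    intro u hu
    simp only [Finset.mem_insert, Finset.mem_singleton] at hu ⊢
    tauto

/-- step 2 -/
theorem exists_frame (m : MinCfg ρ π) (h2 : NT2 ρ π)
    (hd : ∀ x y z, D3 x y z → 2 ≤ finrank (KK p) (LinearMap.range (ρ (L π x y z) - 1))) :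
    finrank (KK p) V + 2 = r ∧ ∃ (x : Fin r) (v : Fin r → V), Frame ρ π x v := by
  classical
  haveI := m.fd
  have hr := m.hr
  have hle := m.le
  obtain ⟨x, y, hxy, v, hv0, hv, hvx⟩ : ∃ x y : Fin r, x ≠ y ∧ ∃ v : V, v ≠ 0 ∧
      v ∈ XX ρ π {y, x} ∧ v ∉ XX ρ π {x} := by
    obtain ⟨x, y, hxy⟩ := exists_two hr
    obtain ⟨v, hv, hv0⟩ := (Submodule.ne_bot_iff _).mp (m.XX_pair_ne h2 hd hxy)
    by_cases h1 : v ∈ XX ρ π {x}
    · by_cases h3 : v ∈ XX ρ π {y}
      · exact absurd (m.XX_two hxy h1 h3) hv0
      · exact ⟨y, x, hxy.symm, v, hv0, hv, h3⟩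
    · refine ⟨x, y, hxy, v, hv0, ?_, h1⟩
      rw [Finset.pair_comm]; exact hv
  have hyx : y ∉ ({x} : Finset (Fin r)) := by simpa using hxy.symm
  obtain ⟨t, ht⟩ := m.exists_TT h2 {x} (by simp) hyx
  have hU : Submodule.span (KK p) {v} ≤ XX ρ π (insert y {x}) := by
    rw [Submodule.span_singleton_le_iff_mem]; exact hv
  have hUF : Submodule.span (KK p) {v} ⊓ XX ρ π {x} = ⊥ := by
    rw [Submodule.eq_bot_iff]
    rintro w ⟨h1, h3⟩
    obtain ⟨c, rfl⟩ := Submodule.mem_span_singleton.mp h1
    by_cases hc : c = 0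
    · rw [hc, zero_smul]
    · exfalso
      apply hvx
      have := (XX ρ π {x}).smul_mem c⁻¹ h3
      rwa [smul_smul, inv_mul_cancel₀ hc, one_smul] at this
  have h1 := m.dim_bound (by simp) hyx ht (Submodule.span (KK p) {v}) hU hUF
  rw [finrank_span_singleton hv0, Finset.card_singleton] at h1
  have hn : finrank (KK p) V + 2 = r := by omega
  refine ⟨hn, x, fun z => ρ (t z) v, ?_, ?_, ?_, ?_⟩
  · intro a b c d ha hb hc
    exact ht.act a b c d (by simpa using ha) (by simpa using hb) (by simpa using hc) v hv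
  · intro z hz
    exact ht.mem z (by simpa using hz) v hv
  · intro α hα z w hz hw
    have h3 := m.rel_const (by simp) hyx ht (Submodule.span (KK p) {v}) hU hUF (fun z => α z • v)
      (fun z => Submodule.smul_mem _ _ (Submodule.mem_span_singleton_self v)) (by
        rw [← hα]
        exact Finset.sum_congr rfl fun z _ => map_smul _ _ _) z w (by simpa using hz)
        (by simpa using hw)
    have h4 : (α z - α w) • v = 0 := by rw [sub_smul, sub_eq_zero]; exact h3
    exact sub_eq_zero.mp ((smul_eq_zero.mp h4).resolve_right hv0)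
  · -- spanning
    intro u
    let J := {z : Fin r // z ∉ ({y, x} : Finset (Fin r))}
    have hJ : Fintype.card J = r - 2 := by
      rw [Fintype.card_subtype_compl, Fintype.card_fin, Fintype.card_coe,
        Finset.card_pair hxy.symm]
    let Φ : (J → KK p) →ₗ[KK p] V :=
      { toFun := fun a => ∑ j : J, a j • ρ (t (j : Fin r)) v
        map_add' := by
          intro a b
          simp [Finset.sum_add_distrib, add_smul]
        map_smul' := by
          intro c a
          simp [Finset.smul_sum, mul_smul] }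
    have hinj : Function.Injective Φ := by
      rw [← LinearMap.ker_eq_bot, LinearMap.ker_eq_bot']
      intro a ha
      let a' : Fin r → KK p := fun z => if h : z ∉ ({y, x} : Finset (Fin r)) then a ⟨z, h⟩ else 0
      have ha'y : a' y = 0 := dif_neg (by simp)
      have hsum : ∑ z ∈ Finset.univ \ {x}, ρ (t z) (a' z • v) = 0 := by
        have e1 : ∑ z ∈ Finset.univ \ ({y, x} : Finset (Fin r)), ρ (t z) (a' z • v) = 0 := by
          rw [Finset.sum_subtype (p := fun z => z ∉ ({y, x} : Finset (Fin r)))
            (Finset.univ \ ({y, x} : Finset (Fin r))) (by simp) (fun z => ρ (t z) (a' z • v))]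
          refine Eq.trans ?_ ha
          show _ = ∑ j : J, a j • ρ (t (j : Fin r)) v
          refine Finset.sum_congr rfl fun j _ => ?_
          have : a' j = a j := dif_pos j.2
          rw [this, map_smul]
        rw [← e1]
        symm
        apply Finset.sum_subset
        · intro z hz
          simp only [Finset.mem_sdiff, Finset.mem_univ, true_and, Finset.mem_insert,
            Finset.mem_singleton, not_or] at hz ⊢
          exact hz.2
        · intro z hz hz'
          simp only [Finset.mem_sdiff, Finset.mem_univ, true_and, Finset.mem_insert,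
            Finset.mem_singleton, not_or, not_and, not_not] at hz hz'
          have : z = y := by
            by_contra hne
            exact hz (hz' hne)
          rw [this, ha'y, zero_smul, map_zero]
      have h3 := m.rel_const (by simp) hyx ht (Submodule.span (KK p) {v}) hU hUF
        (fun z => a' z • v)
        (fun z => Submodule.smul_mem _ _ (Submodule.mem_span_singleton_self v)) hsum
      funext j
      have hj : (j : Fin r) ∉ ({x} : Finset (Fin r)) := fun h => j.2 (Finset.mem_insert_of_mem h)
      have h4 := h3 j y hj hyx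
      have h5 : a' j = a j := dif_pos j.2
      simp only [ha'y, zero_smul, h5] at h4
      exact (smul_eq_zero.mp h4).resolve_right hv0
    have hsurj : Function.Surjective Φ := by
      refine (LinearMap.injective_iff_surjective_of_finrank_eq_finrank ?_).mp hinj
      rw [Module.finrank_pi, hJ]
      omega
    obtain ⟨a, ha⟩ := hsurj u
    refine ⟨fun z => if h : z ∉ ({y, x} : Finset (Fin r)) then a ⟨z, h⟩ else 0, ?_⟩
    rw [← ha]
    show ∑ j : J, a j • ρ (t (j : Fin r)) v = _
    have e1 : ∑ z ∈ Finset.univ \ ({y, x} : Finset (Fin r)),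
        (if h : z ∉ ({y, x} : Finset (Fin r)) then a ⟨z, h⟩ else 0) • ρ (t z) v =
        ∑ j : J, a j • ρ (t (j : Fin r)) v := by
      rw [Finset.sum_subtype (p := fun z => z ∉ ({y, x} : Finset (Fin r)))
        (Finset.univ \ ({y, x} : Finset (Fin r))) (by simp)
        (fun z => (if h : z ∉ ({y, x} : Finset (Fin r)) then a ⟨z, h⟩ else 0) • ρ (t z) v)]
      refine Finset.sum_congr rfl fun j _ => ?_
      rw [dif_pos j.2]
    rw [← e1]
    apply Finset.sum_subset
    · intro z hz
      simp only [Finset.mem_sdiff, Finset.mem_univ, true_and, Finset.mem_insert,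
        Finset.mem_singleton, not_or] at hz ⊢
      exact hz.2
    · intro z hz hz'
      simp only [Finset.mem_sdiff, Finset.mem_univ, true_and, not_not] at hz'
      rw [dif_neg (not_not.mpr hz'), zero_smul]

end MinCfg

end Cfsg.Agent.AltSec
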