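import Cfsg.Agent.Lib.AltSecI

/-! Alternating sections of linear groups (S2653), part J: frames. -/

set_option autoImplicit false

namespace Cfsg.Agent.AltSec

open Module Equiv.Perm

variable {p : ℕ} [Fact p.Prime] {r : ℕ} {H : Type} [Group H] {V : Type}
    [AddCommGroup V] [Module (KK p) V]
    {ρ : H →* Module.End (KK p) V} {π : H →* alternatingGroup (Fin r)}

/-- a point outside four points -/
theorem out4 (hr : 9 ≤ r) (a b c d : Fin r) : ∃ g, g ≠ a ∧ g ≠ b ∧ g ≠ c ∧ g ≠ d := by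
  classical
  obtain ⟨g, hg⟩ := out1 hr ({a, b, c, d} : Finset (Fin r)) (by
    have : ({a, b, c, d} : Finset (Fin r)).card ≤ 4 := Finset.card_le_four
    omega)
  simp only [Finset.mem_insert, Finset.mem_singleton, not_or] at hg
  exact ⟨g, hg⟩

/-- a point outside five points -/
theorem out5 (hr : 9 ≤ r) (a b c d e : Fin r) :
    ∃ g, g ≠ a ∧ g ≠ b ∧ g ≠ c ∧ g ≠ d ∧ g ≠ e := by
  classical
  obtain ⟨g, hg⟩ := out1 hr (insert a ({b, c, d, e} : Finset (Fin r))) (by
    have : ({b, c, d, e} : Finset (Fin r)).card ≤ 4 := Finset.card_le_four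
    have := Finset.card_insert_le a ({b, c, d, e} : Finset (Fin r))
    omega)
  simp only [Finset.mem_insert, Finset.mem_singleton, not_or] at hg
  exact ⟨g, hg⟩

namespace Frame

variable {x : Fin r} {v : Fin r → V}

/-- independence of three vectors of the frame -/
theorem ind3 (f : Frame ρ π x v) (hr : 9 ≤ r) {a b c : Fin r} (d : D3 a b c) (ha : a ≠ x)
    (hb : b ≠ x) (hc : c ≠ x) {α β γ : KK p} (h : α • v a + β • v b + γ • v c = 0) :
    α = 0 ∧ β = 0 ∧ γ = 0 := by
  classical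
  obtain ⟨g, g1, g2, g3, g4⟩ := out4 hr a b c x
  let φ : Fin r → KK p := fun z => if z = a then α else if z = b then β else if z = c then γ else 0
  have φa : φ a = α := if_pos rfl
  have φb : φ b = β := by
    show (if b = a then α else if b = b then β else if b = c then γ else 0) = β
    rw [if_neg (Ne.symm d.1), if_pos rfl]
  have φc : φ c = γ := by
    show (if c = a then α else if c = b then β else if c = c then γ else 0) = γ
    rw [if_neg (Ne.symm d.2.2), if_neg (Ne.symm d.2.1), if_pos rfl]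
  have φo : ∀ z, z ≠ a → z ≠ b → z ≠ c → φ z = 0 := by
    intro z h1 h2 h3
    show (if z = a then α else if z = b then β else if z = c then γ else 0) = 0
    rw [if_neg h1, if_neg h2, if_neg h3]
  have hs : ∑ z ∈ Finset.univ \ {x}, φ z • v z = 0 := by
    have e1 : ∑ z ∈ ({a, b, c} : Finset (Fin r)), φ z • v z = 0 := by
      rw [Finset.sum_insert (by simp [d.1, d.2.2]), Finset.sum_insert (by simp [d.2.1]),
        Finset.sum_singleton, φa, φb, φc, ← add_assoc]
      exact h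
    rw [← e1]
    symm
    apply Finset.sum_subset
    · intro z hz
      simp only [Finset.mem_insert, Finset.mem_singleton] at hz
      simp only [Finset.mem_sdiff, Finset.mem_univ, true_and, Finset.mem_singleton]
      rcases hz with rfl | rfl | rfl
      · exact ha
      · exact hb
      · exact hc
    · intro z _ hz'
      simp only [Finset.mem_insert, Finset.mem_singleton, not_or] at hz'
      rw [φo z hz'.1 hz'.2.1 hz'.2.2, zero_smul]
  have hrel := f.rel φ hs
  have hg : φ g = 0 := φo g g1 g2 g3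
  refine ⟨?_, ?_, ?_⟩
  · rw [← φa, hrel a g ha g4, hg]
  · rw [← φb, hrel b g hb g4, hg]
  · rw [← φc, hrel c g hc g4, hg]

theorem ind2 (f : Frame ρ π x v) (hr : 9 ≤ r) {a b : Fin r} (hab : a ≠ b) (ha : a ≠ x)
    (hb : b ≠ x) {α β : KK p} (h : α • v a + β • v b = 0) : α = 0 ∧ β = 0 := by
  obtain ⟨g, g1, g2, g3, -⟩ := out4 hr a b x x
  have := f.ind3 hr (a := a) (b := b) (c := g) ⟨hab, Ne.symm g2, Ne.symm g1⟩ ha hb g3
    (α := α) (β := β) (γ := 0) (by rw [h, zero_smul, add_zero])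
  exact ⟨this.1, this.2.1⟩

theorem ne_zero (f : Frame ρ π x v) (hr : 9 ≤ r) {a : Fin r} (ha : a ≠ x) : v a ≠ 0 := by
  intro h
  obtain ⟨g, g1, g2, -, -⟩ := out4 hr a x x x
  have := f.ind2 hr (a := a) (b := g) (Ne.symm g1) ha g2 (α := 1) (β := 0)
    (by rw [h, smul_zero, zero_smul, add_zero])
  exact one_ne_zero this.1

/-- `L a b c` moves `v b` to `v c`, `v c` to `v a` and fixes the others -/
theorem act2 (f : Frame ρ π x v) (m : MinCfg ρ π) {a b c : Fin r} (d : D3 a b c) (ha : a ≠ x)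
    (hb : b ≠ x) (hc : c ≠ x) : ρ (L π a b c) (v b) = v c := by
  rw [← m.L_rot d]
  exact f.act b c a d.rot hb hc ha

theorem act3 (f : Frame ρ π x v) (m : MinCfg ρ π) {a b c : Fin r} (d : D3 a b c) (ha : a ≠ x)
    (hb : b ≠ x) (hc : c ≠ x) : ρ (L π a b c) (v c) = v a := by
  rw [← m.L_rot d, ← m.L_rot d.rot]
  exact f.act c a b d.rot.rot hc ha hb

theorem act0 (f : Frame ρ π x v) {a b c z : Fin r} (d : D3 a b c) (ha : a ≠ x)
    (hb : b ≠ x) (hc : c ≠ x) (hz : z ≠ x) (h1 : z ≠ a) (h2 : z ≠ b) (h3 : z ≠ c) :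
    ρ (L π a b c) (v z) = v z :=
  f.mem z hz a b c d (by simp [Ne.symm h1, ha]) (by simp [Ne.symm h2, hb])
    (by simp [Ne.symm h3, hc])

/-- the only relation -/
theorem sum_zero (f : Frame ρ π x v) (hr : 9 ≤ r) (hn : finrank (KK p) V + 2 = r)
    (hfd : FiniteDimensional (KK p) V) : ∑ z ∈ Finset.univ \ {x}, v z = 0 := by
  classical
  -- `v y` is a combination of the others
  let J := {z : Fin r // z ∉ ({x} : Finset (Fin r))}
  have hJ : Fintype.card J = r - 1 := by
    rw [Fintype.card_subtype_compl, Fintype.card_fin, Fintype.card_coe, Finset.card_singleton]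
  let Φ : (J → KK p) →ₗ[KK p] V :=
    { toFun := fun a => ∑ j : J, a j • v j
      map_add' := by
        intro a b
        simp [Finset.sum_add_distrib, add_smul]
      map_smul' := by
        intro c a
        simp [Finset.smul_sum, mul_smul] }
  have hker : LinearMap.ker Φ ≠ ⊥ := by
    apply LinearMap.ker_ne_bot_of_finrank_lt
    rw [Module.finrank_pi, hJ]
    omega
  obtain ⟨a, ha, ha0⟩ := (Submodule.ne_bot_iff _).mp hker
  let a' : Fin r → KK p := fun z => if h : z ∉ ({x} : Finset (Fin r)) then a ⟨z, h⟩ else 0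
  have ha' : ∀ j : J, a' j = a j := fun j => dif_pos j.2
  have hsum : ∑ z ∈ Finset.univ \ {x}, a' z • v z = 0 := by
    rw [Finset.sum_subtype (p := fun z => z ∉ ({x} : Finset (Fin r)))
      (Finset.univ \ ({x} : Finset (Fin r))) (by simp) (fun z => a' z • v z)]
    refine Eq.trans ?_ (LinearMap.mem_ker.mp ha)
    exact Finset.sum_congr rfl fun j _ => by rw [ha' j]
  have hrel := f.rel a' hsum
  obtain ⟨j₀, hj₀⟩ : ∃ j, a j ≠ 0 := by
    by_contra h
    push Not at h
    exact ha0 (funext h)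
  have hj₀x : (j₀ : Fin r) ≠ x := by simpa using j₀.2
  have h1 : ∑ z ∈ Finset.univ \ {x}, a' z • v z = a' j₀ • ∑ z ∈ Finset.univ \ {x}, v z := by
    rw [Finset.smul_sum]
    refine Finset.sum_congr rfl fun z hz => ?_
    simp only [Finset.mem_sdiff, Finset.mem_univ, true_and, Finset.mem_singleton] at hz
    rw [hrel z j₀ hz hj₀x]
  rw [hsum] at h1
  have h2 : a' j₀ ≠ 0 := by rw [ha']; exact hj₀
  exact (smul_eq_zero.mp h1.symm).resolve_left h2

/-- vectors fixed by the lifts avoiding `x, e, f` -/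
theorem fix3 (f : Frame ρ π x v) (m : MinCfg ρ π) (hn : finrank (KK p) V + 2 = r)
    {e g : Fin r} (he : e ≠ x) (hg : g ≠ x) (heg : e ≠ g) {u : V} (hu : u ∈ XX ρ π {x, e, g}) :
    ∃ γ δ : KK p, u = γ • v e + δ • v g := by
  classical
  have hr := m.hr
  obtain ⟨β, hβ⟩ := f.span u
  have hconst : ∀ a b, a ≠ x → a ≠ e → a ≠ g → b ≠ x → b ≠ e → b ≠ g → β a = β b := by
    intro a b a1 a2 a3 b1 b2 b3
    by_cases hab : a = b
    · rw [hab]
    obtain ⟨c, c1, c2, c3, c4, c5⟩ := out5 hr a b x e g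
    have d : D3 a b c := ⟨hab, Ne.symm c2, Ne.symm c1⟩
    have h1 := hu a b c d (by simp [a1, a2, a3]) (by simp [b1, b2, b3]) (by simp [c3, c4, c5])
    have h2 : ∑ z ∈ Finset.univ \ {x}, β z • (ρ (L π a b c) (v z) - v z) = 0 := by
      rw [hβ, map_sum] at h1
      rw [← sub_eq_zero, ← Finset.sum_sub_distrib] at h1
      rw [← h1]
      refine Finset.sum_congr rfl fun z _ => ?_
      rw [map_smul, smul_sub]
    have h3 : ∑ z ∈ ({a, b, c} : Finset (Fin r)), β z • (ρ (L π a b c) (v z) - v z) = 0 := by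
      rw [← h2]
      apply Finset.sum_subset
      · intro z hz
        simp only [Finset.mem_insert, Finset.mem_singleton] at hz
        simp only [Finset.mem_sdiff, Finset.mem_univ, true_and, Finset.mem_singleton]
        rcases hz with rfl | rfl | rfl
        · exact a1
        · exact b1
        · exact c3
      · intro z hz hz'
        simp only [Finset.mem_insert, Finset.mem_singleton, not_or] at hz'
        simp only [Finset.mem_sdiff, Finset.mem_univ, true_and, Finset.mem_singleton] at hz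
        rw [f.act0 d a1 b1 c3 hz hz'.1 hz'.2.1 hz'.2.2, sub_self, smul_zero]
    rw [Finset.sum_insert (by simp [d.1, d.2.2]), Finset.sum_insert (by simp [d.2.1]),
      Finset.sum_singleton, f.act a b c d a1 b1 c3, f.act2 m d a1 b1 c3, f.act3 m d a1 b1 c3] at h3
    have h4 := f.ind3 hr d a1 b1 c3 (α := β c - β a) (β := β a - β b) (γ := β b - β c) (by
      rw [← h3, sub_smul, sub_smul, sub_smul, smul_sub, smul_sub, smul_sub]
      abel)
    exact sub_eq_zero.mp h4.2.1
  obtain ⟨a, a1, a2, a3, -⟩ := out4 hr x e g g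
  refine ⟨β e - β a, β g - β a, ?_⟩
  have h0 := f.sum_zero hr hn m.fd
  have h1 : u = ∑ z ∈ Finset.univ \ {x}, (β z - β a) • v z := by
    simp only [sub_smul]
    rw [Finset.sum_sub_distrib, ← Finset.smul_sum, h0, smul_zero, sub_zero]
    exact hβ
  have h2 : ∑ z ∈ ({e, g} : Finset (Fin r)), (β z - β a) • v z =
      ∑ z ∈ Finset.univ \ {x}, (β z - β a) • v z := by
    apply Finset.sum_subset
    · intro z hz
      simp only [Finset.mem_insert, Finset.mem_singleton] at hz
      simp only [Finset.mem_sdiff, Finset.mem_univ, true_and, Finset.mem_singleton]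
      rcases hz with rfl | rfl
      · exact he
      · exact hg
    · intro z hz hz'
      simp only [Finset.mem_insert, Finset.mem_singleton, not_or] at hz'
      simp only [Finset.mem_sdiff, Finset.mem_univ, true_and, Finset.mem_singleton] at hz
      rw [hconst z a hz hz'.1 hz'.2 a1 a2 a3, sub_self, zero_smul]
  rw [h1, ← h2, Finset.sum_insert (by simpa using heg), Finset.sum_singleton]

/-- `XX {x, e}` is spanned by `v e` -/
theorem fix2 (f : Frame ρ π x v) (m : MinCfg ρ π) (hn : finrank (KK p) V + 2 = r)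
    {e : Fin r} (he : e ≠ x) {u : V} (hu : u ∈ XX ρ π {e, x}) : ∃ γ : KK p, u = γ • v e := by
  classical
  have hr := m.hr
  obtain ⟨a, a1, a2, -, -⟩ := out4 hr x e e e
  obtain ⟨b, b1, b2, b3, -⟩ := out4 hr x e a a
  have hsub : ∀ c : Fin r, ({e, x} : Finset (Fin r)) ⊆ {x, e, c} := by
    intro c z hz
    simp only [Finset.mem_insert, Finset.mem_singleton] at hz ⊢
    tauto
  obtain ⟨γ, δ, h1⟩ := f.fix3 m hn he a1 (Ne.symm a2) (XX_mono (hsub a) hu)
  obtain ⟨γ', δ', h2⟩ := f.fix3 m hn he b1 (Ne.symm b2) (XX_mono (hsub b) hu)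
  have h3 := f.ind3 hr (a := e) (b := a) (c := b) ⟨Ne.symm a2, Ne.symm b3, Ne.symm b2⟩ he a1 b1
    (α := γ - γ') (β := δ) (γ := -δ') (by
      have : γ • v e + δ • v a = γ' • v e + δ' • v b := by rw [← h1, ← h2]
      rw [sub_smul, neg_smul]
      calc γ • v e - γ' • v e + δ • v a + -(δ' • v b)
          = (γ • v e + δ • v a) - (γ' • v e + δ' • v b) := by abel
        _ = 0 := by rw [this, sub_self])
  refine ⟨γ, ?_⟩
  rw [h1, h3.2.1, zero_smul, add_zero]

/-- moving `XX` -/
theorem mv {m : MinCfg ρ π} {a b a' b' : Fin r} {h : H} (ha : sg π h a = a') (hb : sg π h b = b')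
    {u : V} (hu : u ∈ XX ρ π {a, b}) : ρ h u ∈ XX ρ π {a', b'} := by
  classical
  refine m.XX_conj ?_ hu
  intro z hz hz'
  simp only [Finset.mem_insert, Finset.mem_singleton, not_or] at hz hz'
  rw [map_inv] at hz'
  rcases hz' with e | e
  · have : z = sg π h a := Equiv.Perm.inv_eq_iff_eq.mp e
    exact hz.1 (this.trans ha)
  · have : z = sg π h b := Equiv.Perm.inv_eq_iff_eq.mp e
    exact hz.2 (this.trans hb)

/-- all the spaces `XX {a, b}` are at most one-dimensional -/
theorem one (f : Frame ρ π x v) (m : MinCfg ρ π) (hn : finrank (KK p) V + 2 = r)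
    {a b : Fin r} (hab : a ≠ b) {u u' : V} (hu : u ∈ XX ρ π {a, b}) (hu0 : u ≠ 0)
    (hu' : u' ∈ XX ρ π {a, b}) : ∃ γ : KK p, u' = γ • u := by
  classical
  have hr := m.hr
  -- reduce to a common element moving `{a, b}` to `{e, x}`
  have key : ∀ (h : H) (e : Fin r), e ≠ x → sg π h a = e → sg π h b = x →
      ∃ γ : KK p, u' = γ • u := by
    intro h e he ha hb
    obtain ⟨γ, h1⟩ := f.fix2 m hn he (mv (m := m) ha hb hu)
    obtain ⟨γ', h2⟩ := f.fix2 m hn he (mv (m := m) ha hb hu')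
    have hγ : γ ≠ 0 := by
      intro e0
      rw [e0, zero_smul] at h1
      exact hu0 (rho_inj (ρ := ρ) h (by rw [h1, map_zero]))
    refine ⟨γ' * γ⁻¹, rho_inj (ρ := ρ) h ?_⟩
    rw [map_smul, h1, h2, smul_smul, mul_assoc, inv_mul_cancel₀ hγ, mul_one]
  by_cases hb : b = x
  · subst hb
    exact key 1 a hab (by rw [map_one]; rfl) (by rw [map_one]; rfl)
  · by_cases ha : a = x
    · -- swap: use the cycle `a → w → ...` with `b → x`
      subst ha
      obtain ⟨w, w1, w2, -, -⟩ := out4 hr a b b b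
      have d : D3 b a w := ⟨hab.symm, Ne.symm w1, Ne.symm w2⟩
      exact key (L π b a w) w w1 (m.L_y d) (m.L_x d)
    · obtain ⟨w, w1, w2, w3, -⟩ := out4 hr a b x x
      have d : D3 b x w := ⟨hb, Ne.symm w3, Ne.symm w2⟩
      exact key (L π b x w) a ha (m.L_o d hab ha (Ne.symm w1)) (m.L_x d)

/-- nonzero vectors -/
theorem exists_ne (f : Frame ρ π x v) (m : MinCfg ρ π) {e g : Fin r} (he : e ≠ x) (hg : g ≠ x)
    (heg : e ≠ g) : ∃ u, u ≠ 0 ∧ u ∈ XX ρ π {e, g} := by
  have hr := m.hr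
  obtain ⟨w, w1, w2, w3, -⟩ := out4 hr e g x x
  have d : D3 x e w := ⟨Ne.symm he, Ne.symm w1, Ne.symm w3⟩
  refine ⟨ρ (L π x e w) (v g), fun h => ?_, ?_⟩
  · apply f.ne_zero hr hg
    exact rho_inj (ρ := ρ) (L π x e w) (by rw [h, map_zero])
  · have h1 := f.mem g hg
    rw [Finset.pair_comm] at h1
    exact mv (m := m) (m.L_x d) (m.L_o d hg (Ne.symm heg) (Ne.symm w2)) h1

/-- the sign of a pair -/
theorem exists_sign (f : Frame ρ π x v) (m : MinCfg ρ π) (hn : finrank (KK p) V + 2 = r)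
    {e g : Fin r} (he : e ≠ x) (hg : g ≠ x) (heg : e ≠ g) :
    ∃ κ : KK p, κ * κ = 1 ∧ v e + κ • v g ∈ XX ρ π {e, g} := by
  classical
  have hr := m.hr
  obtain ⟨u, hu0, hu⟩ := f.exists_ne m he hg heg
  have hsub : ({e, g} : Finset (Fin r)) ⊆ {x, e, g} := by
    intro z hz
    simp only [Finset.mem_insert, Finset.mem_singleton] at hz ⊢
    tauto
  obtain ⟨γ, δ, h1⟩ := f.fix3 m hn he hg heg (XX_mono hsub hu)
  obtain ⟨a, a1, a2, a3, -⟩ := out4 hr e g x x
  obtain ⟨b, b1, b2, b3, b4⟩ := out4 hr e g x a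
  have d1 : D3 e g a := ⟨heg, Ne.symm a2, Ne.symm a1⟩
  have d2 : D3 g a b := ⟨Ne.symm a2, Ne.symm b4, Ne.symm b2⟩
  have s1 : sg π (L π e g a * L π g a b) e = g := by
    rw [map_mul, Equiv.Perm.mul_apply, m.L_o d2 heg (Ne.symm a1) (Ne.symm b1), m.L_x d1]
  have s2 : sg π (L π e g a * L π g a b) g = e := by
    rw [map_mul, Equiv.Perm.mul_apply, m.L_x d2, m.L_z d1]
  have h2 : ρ (L π e g a * L π g a b) u ∈ XX ρ π {g, e} := mv (m := m) s1 s2 hu
  rw [Finset.pair_comm] at h2
  obtain ⟨c, h3⟩ := f.one m hn heg hu hu0 h2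
  have h4 : ρ (L π e g a * L π g a b) u = γ • v g + δ • v e := by
    rw [rho_mul, h1, map_add, map_smul, map_smul, map_add, map_smul, map_smul,
      f.act0 d2 hg a3 b3 he heg (Ne.symm a1) (Ne.symm b1), f.act e g a d1 he hg a3,
      f.act g a b d2 hg a3 b3, f.act3 m d1 he hg a3]
  have h5 : (δ - c * γ) • v e + (γ - c * δ) • v g = 0 := by
    have : γ • v g + δ • v e = c • (γ • v e + δ • v g) := by rw [← h4, ← h1, h3]
    rw [smul_add, smul_smul, smul_smul] at this
    rw [sub_smul, sub_smul]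
    calc δ • v e - (c * γ) • v e + (γ • v g - (c * δ) • v g)
        = (γ • v g + δ • v e) - ((c * γ) • v e + (c * δ) • v g) := by abel
      _ = 0 := by rw [this, sub_self]
  obtain ⟨h6, h7⟩ := f.ind2 hr heg he hg h5
  have h8 : δ = c * γ := sub_eq_zero.mp h6
  have h9 : γ = c * δ := sub_eq_zero.mp h7
  have hγ : γ ≠ 0 := by
    intro e0
    apply hu0
    rw [h1, h8, e0, mul_zero, zero_smul, zero_smul, add_zero]
  refine ⟨c, ?_, ?_⟩
  · have : c * c * γ = 1 * γ := by
      rw [one_mul]; nth_rewrite 2 [h9]; rw [h8]; ring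
    exact mul_right_cancel₀ hγ this
  · have : v e + c • v g = γ⁻¹ • u := by
      rw [h1, h8, smul_add, smul_smul, smul_smul, inv_mul_cancel₀ hγ, one_smul, mul_comm c γ,
        ← mul_assoc, inv_mul_cancel₀ hγ, one_mul]
    rw [this]
    exact (XX ρ π {e, g}).smul_mem _ hu

/-- signs can be moved -/
theorem sign_move (f : Frame ρ π x v) (m : MinCfg ρ π) {κ : KK p} {e g e' : Fin r} (he : e ≠ x)
    (hg : g ≠ x) (he' : e' ≠ x) (heg : e ≠ g) (he'g : e' ≠ g)
    (h : v e + κ • v g ∈ XX ρ π {e, g}) : v e' + κ • v g ∈ XX ρ π {e', g} := by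
  have hr := m.hr
  by_cases hee : e' = e
  · rw [hee]; exact h
  obtain ⟨w, w1, w2, w3, w4⟩ := out4 hr e e' x g
  have d : D3 e e' w := ⟨Ne.symm hee, Ne.symm w2, Ne.symm w1⟩
  have h1 := mv (m := m) (m.L_x d) (m.L_o d (Ne.symm heg) (Ne.symm he'g) (Ne.symm w4)) h
  rw [map_add, map_smul, f.act e e' w d he he' w3,
    f.act0 d he he' w3 hg (Ne.symm heg) (Ne.symm he'g) (Ne.symm w4)] at h1
  exact h1

theorem sign_symm {κ : KK p} (hκ : κ * κ = 1) {e g : Fin r}
    (h : v e + κ • v g ∈ XX ρ π {e, g}) : v g + κ • v e ∈ XX ρ π {g, e} := by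
  have h1 := (XX ρ π {e, g}).smul_mem κ h
  rw [smul_add, smul_smul, hκ, one_smul, add_comm, Finset.pair_comm] at h1
  exact h1

/-- the uniform sign -/
theorem exists_kappa (f : Frame ρ π x v) (m : MinCfg ρ π) (hn : finrank (KK p) V + 2 = r) :
    ∃ κ : KK p, κ * κ = 1 ∧ ∀ e g, e ≠ x → g ≠ x → e ≠ g → v e + κ • v g ∈ XX ρ π {e, g} := by
  have hr := m.hr
  obtain ⟨e₀, a1, -, -, -⟩ := out4 hr x x x x
  obtain ⟨g₀, b1, b2, -, -⟩ := out4 hr x e₀ x x
  obtain ⟨κ, hκ, h0⟩ := f.exists_sign m hn a1 b1 (Ne.symm b2)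
  refine ⟨κ, hκ, fun e g he hg heg => ?_⟩
  obtain ⟨w, w1, w2, w3, w4, w5⟩ := out5 hr x e₀ g₀ e g
  -- (e₀,g₀) → (w,g₀) → (g₀,w) → (e,w) → (w,e) → (g,e) → (e,g)
  have h1 := f.sign_move m a1 b1 w1 (Ne.symm b2) w3 h0
  have h2 := sign_symm hκ h1
  have h3 := f.sign_move m b1 w1 he (Ne.symm w3) (Ne.symm w4) h2
  have h4 := sign_symm hκ h3
  have h5 := f.sign_move m w1 he hg w4 (Ne.symm heg) h4
  exact sign_symm hκ h5

/-- the final contradiction: `p` divides `r` -/
theorem p_dvd (f : Frame ρ π x v) (m : MinCfg ρ π) (hn : finrank (KK p) V + 2 = r) : p ∣ r := by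
  classical
  have hr := m.hr
  obtain ⟨κ, hκ, hk⟩ := f.exists_kappa m hn
  have hκ0 : κ ≠ 0 := by
    rintro rfl
    rw [mul_zero] at hκ
    exact zero_ne_one hκ
  obtain ⟨y, y1, -, -, -⟩ := out4 hr x x x x
  obtain ⟨z, z1, z2, -, -⟩ := out4 hr x y y y
  have d : D3 x y z := ⟨Ne.symm y1, Ne.symm z2, Ne.symm z1⟩
  set C := L π x y z with hC
  -- action on the other vectors
  have h1 : ∀ e g, e ≠ x → e ≠ y → e ≠ z → g ≠ x → g ≠ y → g ≠ z → e ≠ g →
      ρ C (v e) = v e + κ • v y ∧ κ = -1 := by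
    intro e g ex ey ez gx gy gz heg
    have a1 : ρ C (v e + κ • v g) = v e + κ • v g :=
      hk e g ex gx heg x y z d (by simp [Ne.symm ex, Ne.symm gx]) (by simp [Ne.symm ey, Ne.symm gy])
        (by simp [Ne.symm ez, Ne.symm gz])
    have a2 : ∀ u, u ≠ x → u ≠ y → u ≠ z → ∃ l : KK p, ρ C (v u) = l • (v u + κ • v y) := by
      intro u ux uy uz
      have b1 : ρ C (v u) ∈ XX ρ π {u, y} := mv (m := m) (m.L_o d ux uy uz) (m.L_x d) (f.mem u ux)
      refine f.one m hn uy (hk u y ux y1 uy) ?_ b1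
      intro e0
      have := f.ind2 hr uy ux y1 (α := 1) (β := κ) (by rw [one_smul]; exact e0)
      exact one_ne_zero this.1
    obtain ⟨l, hl⟩ := a2 e ex ey ez
    obtain ⟨l', hl'⟩ := a2 g gx gy gz
    rw [map_add, map_smul, hl, hl'] at a1
    have a3 := f.ind3 hr (a := e) (b := g) (c := y) ⟨heg, gy, ey⟩ ex gx y1
      (α := l - 1) (β := κ * l' - κ) (γ := l * κ + κ * l' * κ) (by
        rw [sub_smul, sub_smul, add_smul, one_smul]
        have : l • (v e + κ • v y) + κ • l' • (v g + κ • v y) =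
            l • v e + (κ * l') • v g + ((l * κ) • v y + (κ * l' * κ) • v y) := by
          rw [smul_add, smul_add, smul_add, smul_smul, smul_smul, smul_smul, smul_smul]
          abel
        rw [this] at a1
        calc l • v e - v e + ((κ * l') • v g - κ • v g) + ((l * κ) • v y + (κ * l' * κ) • v y)
            = (l • v e + (κ * l') • v g + ((l * κ) • v y + (κ * l' * κ) • v y)) -
              (v e + κ • v g) := by abel
          _ = 0 := by rw [a1, sub_self])
    obtain ⟨c1, c2, c3⟩ := a3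
    have e1 : l = 1 := sub_eq_zero.mp c1
    have e2 : l' = 1 := by
      have : κ * l' = κ * 1 := by rw [mul_one]; exact sub_eq_zero.mp c2
      exact mul_left_cancel₀ hκ0 this
    rw [e1, one_smul] at hl
    refine ⟨hl, ?_⟩
    rw [e1, e2, one_mul, mul_one, hκ] at c3
    exact eq_neg_of_add_eq_zero_left c3
  obtain ⟨e₀, q1, q2, q3, -⟩ := out4 hr x y z z
  obtain ⟨g₀, g1, g2, g3, g4⟩ := out4 hr x y z e₀
  have hκ1 : κ = -1 := (h1 e₀ g₀ q1 q2 q3 g1 g2 g3 (Ne.symm g4)).2
  have h2 : ∀ e, e ≠ x → e ≠ y → e ≠ z → ρ C (v e) = v e - v y := by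
    intro e ex ey ez
    obtain ⟨g, g1, g2, g3, g4⟩ := out4 hr x y z e
    rw [(h1 e g ex ey ez g1 g2 g3 (Ne.symm g4)).1, hκ1, neg_smul, one_smul, sub_eq_add_neg]
  -- `C v_z` and `C v_y`
  obtain ⟨c, hc⟩ : ∃ c : KK p, ρ C (v z) = c • v y := by
    have b1 : ρ C (v z) ∈ XX ρ π {x, y} := mv (m := m) (m.L_z d) (m.L_x d) (f.mem z z1)
    rw [Finset.pair_comm] at b1
    exact f.fix2 m hn y1 b1
  have hyz0 : v y + κ • v z ≠ 0 := by
    intro e0
    have := f.ind2 hr (Ne.symm z2) y1 z1 (α := 1) (β := κ) (by rw [one_smul]; exact e0)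
    exact one_ne_zero this.1
  obtain ⟨a, ha⟩ : ∃ a : KK p, ρ C (v y) = a • (v y + κ • v z) := by
    have b1 : ρ C (v y) ∈ XX ρ π {z, y} := mv (m := m) (m.L_y d) (m.L_x d) (f.mem y y1)
    rw [Finset.pair_comm] at b1
    exact f.one m hn (Ne.symm z2) (hk y z y1 z1 (Ne.symm z2)) hyz0 b1
  -- the relation
  have h0 := f.sum_zero hr hn m.fd
  have hsplit : ∀ w : Fin r → V, ∑ e ∈ Finset.univ \ {x}, w e =
      w y + w z + ∑ e ∈ Finset.univ \ {x, y, z}, w e := by
    intro w
    have e1 : (Finset.univ \ {x} : Finset (Fin r)) =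
        insert y (insert z (Finset.univ \ {x, y, z})) := by
      ext u
      simp only [Finset.mem_sdiff, Finset.mem_univ, true_and, Finset.mem_singleton,
        Finset.mem_insert, not_or]
      constructor
      · intro hu
        by_cases h1 : u = y
        · left; exact h1
        by_cases h2 : u = z
        · right; left; exact h2
        exact Or.inr (Or.inr ⟨hu, h1, h2⟩)
      · rintro (rfl | rfl | h)
        · exact y1
        · exact z1
        · exact h.1
    rw [e1, Finset.sum_insert (by simp [Ne.symm z2]), Finset.sum_insert (by simp), add_assoc]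
  have h3 := congrArg (ρ C) h0
  rw [map_zero, map_sum, hsplit] at h3
  have h4 : ∑ e ∈ Finset.univ \ {x, y, z}, ρ C (v e) =
      ∑ e ∈ Finset.univ \ {x, y, z}, v e - ((r - 3 : ℕ) : KK p) • v y := by
    have e1 : ∑ e ∈ Finset.univ \ {x, y, z}, ρ C (v e) =
        ∑ e ∈ Finset.univ \ {x, y, z}, (v e - v y) := by
      refine Finset.sum_congr rfl fun e he => ?_
      simp only [Finset.mem_sdiff, Finset.mem_univ, true_and, Finset.mem_singleton,
        Finset.mem_insert, not_or] at he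
      exact h2 e he.1 he.2.1 he.2.2
    rw [e1, Finset.sum_sub_distrib, Finset.sum_const]
    have e2 : (Finset.univ \ {x, y, z} : Finset (Fin r)).card = r - 3 := by
      rw [Finset.card_sdiff_of_subset (Finset.subset_univ _), Finset.card_univ, Fintype.card_fin]
      rw [Finset.card_eq_three.mpr ⟨x, y, z, d.1, d.2.2, d.2.1, rfl⟩]
    rw [e2, Nat.cast_smul_eq_nsmul]
  have h5 : ∑ e ∈ Finset.univ \ {x, y, z}, v e = -(v y + v z) := by
    rw [hsplit] at h0
    exact (neg_eq_of_add_eq_zero_right h0).symm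
  rw [h4, h5, hc, ha, hκ1] at h3
  obtain ⟨R, hR⟩ : ∃ R : KK p, R = ((r - 3 : ℕ) : KK p) := ⟨_, rfl⟩
  rw [← hR] at h3
  obtain ⟨k1, k2⟩ := f.ind2 hr (Ne.symm z2) y1 z1 (α := a + c - 1 - R) (β := -a - 1) (by
    rw [← h3]
    simp only [sub_smul, add_smul, neg_smul, smul_add, smul_neg, one_smul]
    abel)
  have ha1 : a = -1 := by
    have : -a = 1 := sub_eq_zero.mp k2
    rw [← this, neg_neg]
  -- apply `C` to `v_y - v_z`
  obtain ⟨b, hb⟩ : ∃ b : KK p, ρ C (v y + κ • v z) = b • v z := by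
    have b1 : ρ C (v y + κ • v z) ∈ XX ρ π {z, x} :=
      mv (m := m) (m.L_y d) (m.L_z d) (hk y z y1 z1 (Ne.symm z2))
    exact f.fix2 m hn z1 b1
  rw [map_add, map_smul, ha, hc, hκ1, ha1] at hb
  obtain ⟨k3, -⟩ := f.ind2 hr (Ne.symm z2) y1 z1 (α := -1 - c) (β := 1 - b) (by
    rw [sub_smul (1 : KK p) b (v z), ← hb]
    simp only [sub_smul, add_smul, neg_smul, smul_add, smul_neg, one_smul]
    abel)
  have h6 : ((r : ℕ) : KK p) = 0 := by
    have e1 : ((r : ℕ) : KK p) = R + 3 := by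
      rw [hR]
      have : r = (r - 3) + 3 := by omega
      nth_rewrite 1 [this]
      push_cast
      ring
    have e2 : c = -1 := by
      have := sub_eq_zero.mp k3
      exact this.symm
    rw [ha1, e2] at k1
    rw [e1]
    linear_combination -k1
  rwa [CharP.cast_eq_zero_iff (KK p) p] at h6

end Frame

theorem MinCfg.final (m : MinCfg ρ π) (h2 : NT2 ρ π)
    (hd : ∀ x y z, D3 x y z → 2 ≤ finrank (KK p) (LinearMap.range (ρ (L π x y z) - 1))) :
    finrank (KK p) V + 2 = r ∧ p ∣ r := by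
  obtain ⟨hn, x, v, f⟩ := m.exists_frame h2 hd
  exact ⟨hn, f.p_dvd m hn⟩

end Cfsg.Agent.AltSec
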