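import Cfsg.Agent.Lib.AltSecJ

/-! Alternating sections of linear groups (S2653), part K: spectra of the canonical lifts and the
degree of a three-cycle. -/

set_option autoImplicit false

namespace Cfsg.Agent.AltSec

open Module Equiv.Perm

variable {p : ℕ} [Fact p.Prime] {r : ℕ} {H : Type} [Group H] {V : Type}
    [AddCommGroup V] [Module (KK p) V]
    {ρ : H →* Module.End (KK p) V} {π : H →* alternatingGroup (Fin r)}

theorem card3 : Fintype.card {a : ZMod 3 // a ≠ 0} = 2 := by decide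

theorem card5 : Fintype.card {a : ZMod 5 // a ≠ 0} = 4 := by decide

/-- eigenspaces -/
noncomputable abbrev EE (ρ : H →* Module.End (KK p) V) {q : ℕ} (ψ : AddChar (ZMod q) (KK p)) (D : H)
    (a : ZMod q) : Submodule (KK p) V := Module.End.eigenspace (ρ D) (ψ a)

theorem mem_EE {q : ℕ} {ψ : AddChar (ZMod q) (KK p)} {D : H} {a : ZMod q} {v : V} :
    v ∈ EE ρ ψ D a ↔ ρ D v = ψ a • v := Module.End.mem_eigenspace_iff

theorem eig_pow {D : H} {v : V} {l : KK p} (h : ρ D v = l • v) (k : ℕ) :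
    ρ (D ^ k) v = l ^ k • v := by
  induction k with
  | zero => rw [pow_zero, pow_zero, map_one, one_smul]; rfl
  | succ k ih => rw [pow_succ, rho_mul, h, map_smul, ih, smul_smul, pow_succ, mul_comm]

theorem eig_conj {D D' h : H} (hD : h * D * h⁻¹ = D') {v : V} {l : KK p} (hv : ρ D v = l • v) :
    ρ D' (ρ h v) = l • ρ h v := by
  rw [← hD, rho_mul, rho_mul, rho_inv, hv, map_smul]

/-- transport of eigenvectors -/
theorem EE_mv {q : ℕ} [NeZero q] {ψ : AddChar (ZMod q) (KK p)} {D D' h : H} {k k' : ℕ}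
    (hD : h * D * h⁻¹ = D' ^ k) (hk : D' ^ (k * k') = D') {a : ZMod q} {v : V}
    (hv : v ∈ EE ρ ψ D a) : ρ h v ∈ EE ρ ψ D' ((k' : ZMod q) * a) := by
  rw [mem_EE] at hv ⊢
  have h1 := eig_pow (eig_conj hD hv) k'
  rw [← pow_mul, hk] at h1
  rw [h1, ← AddChar.map_nsmul_eq_pow, nsmul_eq_mul]

theorem EE_le [FiniteDimensional (KK p) V] {q : ℕ} [NeZero q] {ψ : AddChar (ZMod q) (KK p)}
    {D D' h : H} {k k' : ℕ}
    (hD : h * D * h⁻¹ = D' ^ k) (hk : D' ^ (k * k') = D') (a : ZMod q) :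
    finrank (KK p) (EE ρ ψ D a) ≤ finrank (KK p) (EE ρ ψ D' ((k' : ZMod q) * a)) := by
  let f : EE ρ ψ D a →ₗ[KK p] EE ρ ψ D' ((k' : ZMod q) * a) :=
    (ρ h).restrict fun v hv => EE_mv hD hk hv
  refine LinearMap.finrank_le_finrank_of_injective (f := f) ?_
  intro u v huv
  apply Subtype.ext
  exact rho_inj (ρ := ρ) h (congrArg Subtype.val huv)

namespace MinCfg

/-- the nontrivial eigenspaces of the lift of a three-cycle -/
theorem three (m : MinCfg ρ π) (hp : (3 : ℕ) ≠ p) {ψ : AddChar (ZMod 3) (KK p)}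
    (hψ : ψ.IsPrimitive) {x y z : Fin r} (d : D3 x y z) :
    ∃ δ, 1 ≤ δ ∧ (∀ a : ZMod 3, a ≠ 0 → finrank (KK p) (EE ρ ψ (L π x y z) a) = δ) ∧
      2 * δ ≤ finrank (KK p) V := by
  classical
  haveI := m.fd
  have hspec := m.lift_spec (tc_good d.1 d.2.1 d.2.2)
  obtain ⟨hs, G, hG⟩ := hspec
  have hG' : G * L π x y z * G⁻¹ = L π x y z ^ 2 := hG
  have h3 := m.L_cube d
  have h4 : L π x y z ^ (2 * 2) = L π x y z := by
    rw [show 2 * 2 = 3 + 1 by norm_num, pow_succ, h3, one_mul]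
  have e1 := EE_le (ρ := ρ) (ψ := ψ) hG' h4 1
  have e2 := EE_le (ρ := ρ) (ψ := ψ) hG' h4 2
  have c1 : ((2 : ℕ) : ZMod 3) * 1 = 2 := by decide
  have c2 : ((2 : ℕ) : ZMod 3) * 2 = 1 := by decide
  rw [c1] at e1
  rw [c2] at e2
  have hall : ∀ a : ZMod 3, a ≠ 0 → finrank (KK p) (EE ρ ψ (L π x y z) a) =
      finrank (KK p) (EE ρ ψ (L π x y z) 1) := by
    intro a ha
    fin_cases a
    · exact absurd rfl ha
    · rfl
    · exact le_antisymm e2 e1
  refine ⟨finrank (KK p) (EE ρ ψ (L π x y z) 1), ?_, hall, ?_⟩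
  · obtain ⟨v, hv⟩ := m.L_ne d
    haveI : Fact (Nat.Prime 3) := ⟨Nat.prime_three⟩
    have hq := (exists_psi p 3 hp).1
    obtain ⟨a, ha, w, -, hw0, hw⟩ := exists_eig hq hψ (ρ (L π x y z))
      (by rw [← map_pow, h3, map_one]) ⊤ (fun _ _ => trivial) v trivial hv
    rw [← hall a ha]
    have : Nontrivial (EE ρ ψ (L π x y z) a) :=
      ⟨⟨⟨w, mem_EE.mpr hw⟩, 0, fun e => hw0 (congrArg Subtype.val e)⟩⟩
    exact finrank_pos
  · have h5 := sum_finrank_le (fun _ : Unit => ρ (L π x y z))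
      (fun (a : {a : ZMod 3 // a ≠ 0}) (_ : Unit) => ψ a)
      (fun a b hab => Subtype.ext (psi_inj hψ (congrFun hab ())))
      (fun a => EE ρ ψ (L π x y z) a) (fun a w hw _ => mem_EE.mp hw) ⊤ (fun _ => le_top)
    rw [finrank_top, Finset.sum_congr rfl (fun a _ => hall a.1 a.2), Finset.sum_const,
      Finset.card_univ] at h5
    have h6 : Fintype.card {a : ZMod 3 // a ≠ 0} = 2 := by decide
    rw [h6, smul_eq_mul] at h5
    exact h5

/-- the nontrivial eigenspaces of the lift of a five-cycle -/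
theorem five (m : MinCfg ρ π) (hp : (5 : ℕ) ≠ p) {ψ : AddChar (ZMod 5) (KK p)}
    (hψ : ψ.IsPrimitive) {c : Equiv.Perm (Fin r)} (hc : Good c) (h5 : orderOf c = 5) :
    ∃ δ, 1 ≤ δ ∧ (∀ a : ZMod 5, a ≠ 0 → finrank (KK p) (EE ρ ψ (lift π c) a) = δ) ∧
      4 * δ ≤ finrank (KK p) V := by
  classical
  haveI := m.fd
  obtain ⟨hs, G, hG⟩ := m.lift_spec hc
  have ho := m.lift_order hc
  rw [h5] at ho
  set D := lift π c with hD
  have h4 : D ^ (2 * 3) = D := by
    rw [show 2 * 3 = 5 + 1 by norm_num, pow_succ, ho, one_mul]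
  have e : ∀ a, finrank (KK p) (EE ρ ψ D a) ≤ finrank (KK p) (EE ρ ψ D (((3 : ℕ) : ZMod 5) * a)) :=
    fun a => EE_le (ρ := ρ) (ψ := ψ) hG h4 a
  have e1 := e 1
  have e2 := e 2
  have e3 := e 3
  have e4 := e 4
  have c1 : ((3 : ℕ) : ZMod 5) * 1 = 3 := by decide
  have c2 : ((3 : ℕ) : ZMod 5) * 2 = 1 := by decide
  have c3 : ((3 : ℕ) : ZMod 5) * 3 = 4 := by decide
  have c4 : ((3 : ℕ) : ZMod 5) * 4 = 2 := by decide
  rw [c1] at e1
  rw [c2] at e2
  rw [c3] at e3
  rw [c4] at e4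
  have hall : ∀ a : ZMod 5, a ≠ 0 → finrank (KK p) (EE ρ ψ D a) =
      finrank (KK p) (EE ρ ψ D 1) := by
    intro a ha
    fin_cases a
    · exact absurd rfl ha
    · rfl
    · show finrank (KK p) (EE ρ ψ D 2) = _
      omega
    · show finrank (KK p) (EE ρ ψ D 3) = _
      omega
    · show finrank (KK p) (EE ρ ψ D 4) = _
      omega
  refine ⟨finrank (KK p) (EE ρ ψ D 1), ?_, hall, ?_⟩
  · obtain ⟨v, hv⟩ : ∃ v, ρ D v ≠ v := by
      by_contra h
      push Not at h
      have h1 : D = 1 := by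
        apply m.inj
        rw [map_one]
        ext v
        exact h v
      rw [h1, map_one] at hs
      rw [← hs, orderOf_one] at h5
      omega
    haveI : Fact (Nat.Prime 5) := ⟨Nat.prime_five⟩
    have hq := (exists_psi p 5 hp).1
    obtain ⟨a, ha, w, -, hw0, hw⟩ := exists_eig hq hψ (ρ D)
      (by rw [← map_pow, ho, map_one]) ⊤ (fun _ _ => trivial) v trivial hv
    rw [← hall a ha]
    have : Nontrivial (EE ρ ψ D a) :=
      ⟨⟨⟨w, mem_EE.mpr hw⟩, 0, fun e => hw0 (congrArg Subtype.val e)⟩⟩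
    exact finrank_pos
  · have h5 := sum_finrank_le (fun _ : Unit => ρ D)
      (fun (a : {a : ZMod 5 // a ≠ 0}) (_ : Unit) => ψ a)
      (fun a b hab => Subtype.ext (psi_inj hψ (congrFun hab ())))
      (fun a => EE ρ ψ D a) (fun a w hw _ => mem_EE.mp hw) ⊤ (fun _ => le_top)
    rw [finrank_top, Finset.sum_congr rfl (fun a _ => hall a.1 a.2), Finset.sum_const,
      Finset.card_univ] at h5
    have h6 : Fintype.card {a : ZMod 5 // a ≠ 0} = 4 := by decide
    rw [h6, smul_eq_mul] at h5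
    exact h5

end MinCfg

/-- many eigenvalues different from `1` -/
theorem rank_ge [FiniteDimensional (KK p) V] (D : Module.End (KK p) V) {J : Type*} [Fintype J]
    (μ : J → KK p)
    (hμ : Function.Injective μ) (h1 : ∀ j, μ j ≠ 1) (h : ∀ j, ∃ w, w ≠ 0 ∧ D w = μ j • w) :
    Fintype.card J ≤ finrank (KK p) (LinearMap.range (D - 1)) := by
  choose w hw0 hw using h
  have h5 := sum_finrank_le (fun _ : Unit => D) (fun (a : J) (_ : Unit) => μ a)
      (fun a b hab => hμ (congrFun hab ()))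
      (fun a => Submodule.span (KK p) {w a}) (fun a u hu _ => by
        obtain ⟨c, rfl⟩ := Submodule.mem_span_singleton.mp hu
        rw [map_smul, hw, smul_comm]) (LinearMap.range (D - 1)) (fun a => by
          rw [Submodule.span_singleton_le_iff_mem]
          refine ⟨(μ a - 1)⁻¹ • w a, ?_⟩
          rw [map_smul, LinearMap.sub_apply, hw, Module.End.one_apply]
          have h2 : μ a • w a - w a = (μ a - 1) • w a := by rw [sub_smul, one_smul]
          rw [h2, smul_smul, inv_mul_cancel₀ (sub_ne_zero.mpr (h1 a)), one_smul])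
  rw [Finset.sum_congr rfl (fun a _ => finrank_span_singleton (hw0 a)), Finset.sum_const,
    Finset.card_univ, smul_eq_mul, mul_one] at h5
  exact h5

theorem exists_of_finrank {W : Submodule (KK p) V} (h : 1 ≤ finrank (KK p) W) :
    ∃ w ∈ W, w ≠ 0 := by
  by_contra hcon
  push Not at hcon
  have : W = ⊥ := (Submodule.eq_bot_iff _).mpr hcon
  rw [this, finrank_bot] at h
  omega

namespace MinCfg

theorem rank_three (m : MinCfg ρ π) (hp : (3 : ℕ) ≠ p) {x y z : Fin r} (d : D3 x y z) :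
    2 ≤ finrank (KK p) (LinearMap.range (ρ (L π x y z) - 1)) := by
  classical
  haveI := m.fd
  haveI : Fact (Nat.Prime 3) := ⟨Nat.prime_three⟩
  obtain ⟨hq, ψ, hψ⟩ := exists_psi p 3 hp
  obtain ⟨δ, hδ, hall, -⟩ := m.three hp hψ d
  have h1 := rank_ge (ρ (L π x y z)) (fun a : {a : ZMod 3 // a ≠ 0} => ψ a)
    (fun a b hab => Subtype.ext (psi_inj hψ hab)) (fun a ha => a.2 (psi_inj hψ (by
      rw [ha, AddChar.map_zero_eq_one]))) (fun a => by
      obtain ⟨w, hw, hw0⟩ := exists_of_finrank (W := EE ρ ψ (L π x y z) a) (by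
        rw [hall a.1 a.2]; exact hδ)
      exact ⟨w, hw0, mem_EE.mp hw⟩)
  have h6 : Fintype.card {a : ZMod 3 // a ≠ 0} = 2 := by
    exact (Fintype.card_congr (Equiv.refl _)).trans card3
  rwa [h6] at h1

end MinCfg

/-- five distinct points -/
def D5 (a b c d e : Fin r) : Prop :=
  a ≠ b ∧ a ≠ c ∧ a ≠ d ∧ a ≠ e ∧ b ≠ c ∧ b ≠ d ∧ b ≠ e ∧ c ≠ d ∧ c ≠ e ∧ d ≠ e

theorem D5.inj {a b c d e : Fin r} (h : D5 a b c d e) :
    Function.Injective (![a, b, c, d, e] : Fin 5 → Fin r) := by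
  obtain ⟨h1, h2, h3, h4, h5, h6, h7, h8, h9, h10⟩ := h
  intro i j hij
  fin_cases i <;> fin_cases j <;> first | rfl | (exfalso; simp at hij; simp_all [eq_comm])

theorem vf_isCycle {m : ℕ} (x : Fin m → Fin r) (hx : Function.Injective x)
    {τ : Equiv.Perm (Fin m)} (h : τ.IsCycle) : (vf x hx τ).IsCycle := by
  obtain ⟨a, ha, h1⟩ := h
  refine ⟨x a, by rw [vf_apply]; exact hx.ne ha, fun y hy => ?_⟩
  by_cases hy' : ∃ i, x i = y
  · obtain ⟨i, rfl⟩ := hy'
    rw [vf_apply] at hy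
    obtain ⟨k, hk⟩ := h1 (fun e => hy (congrArg x e))
    have hz : ∀ k : ℤ, vf x hx (τ ^ k) = (vf x hx τ) ^ k := by
      intro k
      cases k with
      | ofNat n => simpa using vf_pow x hx τ n
      | negSucc n =>
        rw [zpow_negSucc, zpow_negSucc, vf_inv, vf_pow]
    refine ⟨k, ?_⟩
    rw [← hz, vf_apply, hk]
  · exact absurd (vf_out x hx τ y fun i hi => hy' ⟨i, hi⟩) hy

theorem vf_support {m : ℕ} (x : Fin m → Fin r) (hx : Function.Injective x)
    (τ : Equiv.Perm (Fin m)) : (vf x hx τ).support.card = τ.support.card := by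
  rw [← Finset.card_map ⟨x, hx⟩ (s := τ.support)]
  congr 1
  ext y
  simp only [mem_support, Finset.mem_map, Function.Embedding.coeFn_mk]
  constructor
  · intro hy
    by_cases hy' : ∃ i, x i = y
    · obtain ⟨i, rfl⟩ := hy'
      rw [vf_apply] at hy
      exact ⟨i, fun e => hy (congrArg x e), rfl⟩
    · exact absurd (vf_out x hx τ y fun i hi => hy' ⟨i, hi⟩) hy
  · rintro ⟨i, hi, rfl⟩
    rw [vf_apply]
    exact hx.ne hi

theorem vf_good5 {m : ℕ} (x : Fin m → Fin r) (hx : Function.Injective x)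
    {τ : Equiv.Perm (Fin m)} (h : τ.IsCycle) (h5 : τ.support.card = 5) : Good (vf x hx τ) :=
  ⟨vf_isCycle x hx h, Or.inr (by rw [vf_support, h5])⟩

end Cfsg.Agent.AltSec
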