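import Cfsg.Agent.Lib.AltSecK

/-! Alternating sections of linear groups (S2653), part L: five-cycles, and the case of three-cycles
with a large complement. -/

set_option autoImplicit false

namespace Cfsg.Agent.AltSec

open Module Equiv.Perm

variable {p : ℕ} [Fact p.Prime] {r : ℕ} {H : Type} [Group H] {V : Type}
    [AddCommGroup V] [Module (KK p) V]
    {ρ : H →* Module.End (KK p) V} {π : H →* alternatingGroup (Fin r)}

/-- the five-cycle -/
def c5 (a b c d e : Fin r) : Equiv.Perm (Fin r) := tc a b c * tc c d e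

theorem c5_conj (g : Equiv.Perm (Fin r)) (a b c d e : Fin r) :
    g * c5 a b c d e * g⁻¹ = c5 (g a) (g b) (g c) (g d) (g e) := by
  rw [c5, c5, ← tc_conj, ← tc_conj]
  group

theorem c5_vf {a b c d e : Fin r} (h : D5 a b c d e) :
    c5 a b c d e = vf ![a, b, c, d, e] h.inj (c5 0 1 2 3 4) := by
  rw [c5, c5, vf_mul, vf_tc _ _ (by decide) (by decide) (by decide),
    vf_tc _ _ (by decide) (by decide) (by decide)]
  rfl

theorem c5_base : (c5 0 1 2 3 4 : Equiv.Perm (Fin 5)) = finRotate 5 := by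
  decide

theorem c5_sq : (c5 0 1 2 3 4 : Equiv.Perm (Fin 5)) ^ 2 = c5 0 2 4 1 3 := by decide

theorem c5_four : (c5 0 1 2 3 4 : Equiv.Perm (Fin 5)) ^ 4 = c5 0 4 3 2 1 := by decide

theorem D5.good {a b c d e : Fin r} (h : D5 a b c d e) : Good (c5 a b c d e) := by
  rw [c5_vf h, c5_base]
  refine vf_good5 _ _ (isCycle_finRotate (n := 3)) ?_
  rw [support_finRotate (n := 3)]
  rfl

theorem D5.order {a b c d e : Fin r} (h : D5 a b c d e) : orderOf (c5 a b c d e) = 5 := by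
  rw [h.good.1.orderOf, c5_vf h, c5_base, vf_support, support_finRotate (n := 3)]
  rfl

theorem D5.sq {a b c d e : Fin r} (h : D5 a b c d e) : c5 a b c d e ^ 2 = c5 a c e b d := by
  rw [c5_vf h, ← vf_pow, c5_sq, c5, vf_mul, vf_tc _ _ (by decide) (by decide) (by decide),
    vf_tc _ _ (by decide) (by decide) (by decide)]
  rfl

theorem D5.four {a b c d e : Fin r} (h : D5 a b c d e) : c5 a b c d e ^ 4 = c5 a e d c b := by
  rw [c5_vf h, ← vf_pow, c5_four, c5, vf_mul, vf_tc _ _ (by decide) (by decide) (by decide),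
    vf_tc _ _ (by decide) (by decide) (by decide)]
  rfl

/-- the lift of a five-cycle -/
noncomputable def M (π : H →* alternatingGroup (Fin r)) (a b c d e : Fin r) : H :=
  lift π (c5 a b c d e)

theorem clos5 (Q : ZMod 5 → ZMod 5 → Prop) (h1 : ∀ a b, Q a b → Q (3 * a) (3 * b))
    (h2 : ∀ a b, Q a b → Q (4 * a) b) (h3 : ∀ a b, Q a b → Q (3 * b) a) {a b : ZMod 5}
    (ha : a ≠ 0) (hb : b ≠ 0) (h : Q a b) : ∀ a' b', a' ≠ 0 → b' ≠ 0 → Q a' b' := by
  let f1 : ZMod 5 × ZMod 5 → ZMod 5 × ZMod 5 := fun t => (3 * t.1, 3 * t.2)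
  let f2 : ZMod 5 × ZMod 5 → ZMod 5 × ZMod 5 := fun t => (4 * t.1, t.2)
  let f3 : ZMod 5 × ZMod 5 → ZMod 5 × ZMod 5 := fun t => (3 * t.2, t.1)
  have key : ∀ s : ZMod 5 × ZMod 5, s.1 ≠ 0 → s.2 ≠ 0 → ∀ t : ZMod 5 × ZMod 5, t.1 ≠ 0 →
      t.2 ≠ 0 → ∃ i : Fin 4, ∃ j k l : Fin 2,
        f1^[i] (f2^[j] ((f3 ∘ f2 ∘ f3)^[k] (f3^[l] s))) = t := by decide
  have it : ∀ (f : ZMod 5 × ZMod 5 → ZMod 5 × ZMod 5), (∀ t : ZMod 5 × ZMod 5, Q t.1 t.2 →
      Q (f t).1 (f t).2) → ∀ (n : ℕ) (t : ZMod 5 × ZMod 5), Q t.1 t.2 →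
      Q (f^[n] t).1 (f^[n] t).2 := by
    intro f hf n
    induction n with
    | zero => intro t ht; exact ht
    | succ n ih =>
      intro t ht
      rw [Function.iterate_succ_apply']
      exact hf _ (ih t ht)
  have g1 : ∀ t : ZMod 5 × ZMod 5, Q t.1 t.2 → Q (f1 t).1 (f1 t).2 := fun t ht => h1 _ _ ht
  have g2 : ∀ t : ZMod 5 × ZMod 5, Q t.1 t.2 → Q (f2 t).1 (f2 t).2 := fun t ht => h2 _ _ ht
  have g3 : ∀ t : ZMod 5 × ZMod 5, Q t.1 t.2 → Q (f3 t).1 (f3 t).2 := fun t ht => h3 _ _ ht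
  intro a' b' ha' hb'
  obtain ⟨i, j, k, l, e⟩ := key (a, b) ha hb (a', b') ha' hb'
  have := it f1 g1 i _ (it f2 g2 j _ (it (f3 ∘ f2 ∘ f3) (fun t ht => g3 _ (g2 _ (g3 _ ht))) k _
    (it f3 g3 l (a, b) h)))
  rw [e] at this
  exact this

theorem clos3 (Q : ZMod 3 → ZMod 3 → ZMod 3 → Prop)
    (h1 : ∀ a b c, Q a b c → Q (2 * a) (2 * b) c)
    (h2 : ∀ a b c, Q a b c → Q c a b) (h3 : ∀ a b c, Q a b c → Q b a (2 * c)) {a b c : ZMod 3}
    (h : Q a b c) {a' b' c' : ZMod 3}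
    (ht : (if a = 0 then 1 else 0) + (if b = 0 then 1 else 0) + (if c = 0 then 1 else 0) =
      (if a' = 0 then 1 else 0) + (if b' = 0 then 1 else 0) + (if c' = 0 then 1 else 0)) :
    Q a' b' c' := by
  let T := ZMod 3 × ZMod 3 × ZMod 3
  let f1 : ZMod 3 × ZMod 3 × ZMod 3 → ZMod 3 × ZMod 3 × ZMod 3 :=
    fun t => (2 * t.1, 2 * t.2.1, t.2.2)
  let f2 : ZMod 3 × ZMod 3 × ZMod 3 → ZMod 3 × ZMod 3 × ZMod 3 := fun t => (t.2.2, t.1, t.2.1)
  let f3 : ZMod 3 × ZMod 3 × ZMod 3 → ZMod 3 × ZMod 3 × ZMod 3 :=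
    fun t => (t.2.1, t.1, 2 * t.2.2)
  have key : ∀ a b c a' b' c' : ZMod 3,
      (if a = 0 then 1 else 0) + (if b = 0 then 1 else 0) + (if c = 0 then 1 else 0) =
      (if a' = 0 then 1 else 0) + (if b' = 0 then 1 else 0) + (if c' = 0 then 1 else 0) →
      ∃ i : Fin 3, ∃ j : Fin 2, ∃ k : Fin 3, ∃ l : Fin 2, ∃ m : Fin 3,
        f2^[i] (f1^[j] (f2^[k] (f3^[l] (f2^[m] (a, b, c))))) = (a', b', c') := by
    decide +kernel
  have it : ∀ (f : ZMod 3 × ZMod 3 × ZMod 3 → ZMod 3 × ZMod 3 × ZMod 3),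
      (∀ t : ZMod 3 × ZMod 3 × ZMod 3, Q t.1 t.2.1 t.2.2 →
      Q (f t).1 (f t).2.1 (f t).2.2) → ∀ (n : ℕ) (t : ZMod 3 × ZMod 3 × ZMod 3),
      Q t.1 t.2.1 t.2.2 → Q (f^[n] t).1 (f^[n] t).2.1 (f^[n] t).2.2 := by
    intro f hf n
    induction n with
    | zero => intro t ht; exact ht
    | succ n ih =>
      intro t ht
      rw [Function.iterate_succ_apply']
      exact hf _ (ih t ht)
  obtain ⟨i, j, k, l, m, e⟩ := key a b c a' b' c' ht
  have := it f2 (fun t ht => h2 _ _ _ ht) i _ (it f1 (fun t ht => h1 _ _ _ ht) j _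
    (it f2 (fun t ht => h2 _ _ _ ht) k _ (it f3 (fun t ht => h3 _ _ _ ht) l _
    (it f2 (fun t ht => h2 _ _ _ ht) m (a, b, c) h))))
  rw [e] at this
  exact this

namespace MinCfg

theorem M_conj (m : MinCfg ρ π) {a b c d e : Fin r} (h : D5 a b c d e) (X : H) :
    X * M π a b c d e * X⁻¹ = M π (sg π X a) (sg π X b) (sg π X c) (sg π X d) (sg π X e) := by
  rw [M, m.lift_conj h.good, c5_conj]; rfl

theorem M_sq (m : MinCfg ρ π) {a b c d e : Fin r} (h : D5 a b c d e) :
    M π a c e b d = M π a b c d e ^ 2 := by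
  rw [M, M, ← h.sq, m.lift_pow h.good (by rw [h.order]; decide)]

theorem M_four (m : MinCfg ρ π) {a b c d e : Fin r} (h : D5 a b c d e) :
    M π a e d c b = M π a b c d e ^ 4 := by
  rw [M, M, ← h.four, m.lift_pow h.good (by rw [h.order]; decide)]

theorem M_pow (m : MinCfg ρ π) {a b c d e : Fin r} (h : D5 a b c d e) :
    M π a b c d e ^ 5 = 1 := by
  have := m.lift_order h.good
  rwa [h.order] at this

theorem M_sg (m : MinCfg ρ π) {a b c d e : Fin r} (h : D5 a b c d e) :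
    sg π (M π a b c d e) = c5 a b c d e := m.lift_sg h.good

/-- elements fixing the five points commute with the lift -/
theorem M_comm (m : MinCfg ρ π) {a b c d e : Fin r} (h : D5 a b c d e) {X : H}
    (hX : X ∈ fx π {a, b, c, d, e}) : X * M π a b c d e = M π a b c d e * X := by
  apply m.lift_comm h.good
  have h1 : sg π X * c5 a b c d e * (sg π X)⁻¹ = c5 a b c d e := by
    rw [c5_conj, hX a (by simp), hX b (by simp), hX c (by simp), hX d (by simp), hX e (by simp)]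
  calc sg π X * c5 a b c d e = sg π X * c5 a b c d e * (sg π X)⁻¹ * sg π X := by group
    _ = _ := by rw [h1]

theorem L_comm (m : MinCfg ρ π) {a b c : Fin r} (h : D3 a b c) {X : H}
    (hX : X ∈ fx π {a, b, c}) : X * L π a b c = L π a b c * X := by
  apply m.lift_comm (tc_good h.1 h.2.1 h.2.2)
  have h1 : sg π X * tc a b c * (sg π X)⁻¹ = tc a b c := by
    rw [tc_conj, hX a (by simp), hX b (by simp), hX c (by simp)]
  calc sg π X * tc a b c = sg π X * tc a b c * (sg π X)⁻¹ * sg π X := by group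
    _ = _ := by rw [h1]

theorem exists_blk (m : MinCfg ρ π) {k : ℕ} (y : Fin k → Fin r) (hy : Function.Injective y)
    (τ : Equiv.Perm (Fin k)) (hτ : sign τ = 1) : ∃ h, ∀ i, sg π h (y i) = y (τ i) := by
  obtain ⟨h, hh⟩ := m.exists_vf y hy τ hτ
  exact ⟨h, fun i => by rw [hh, vf_apply]⟩

/-- the degree of a three-cycle is at least two, via five-cycles -/
theorem rank_five (m : MinCfg ρ π) (hp : (5 : ℕ) ≠ p) {x y z : Fin r} (d : D3 x y z) :
    2 ≤ finrank (KK p) (LinearMap.range (ρ (L π x y z) - 1)) := by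
  classical
  haveI := m.fd
  haveI : Fact (Nat.Prime 5) := ⟨Nat.prime_five⟩
  have hr := m.hr
  obtain ⟨hq, ψ, hψ⟩ := exists_psi p 5 hp
  obtain ⟨u, u1, u2, u3, -⟩ := out4 hr x y z z
  obtain ⟨w, w1, w2, w3, w4⟩ := out4 hr x y z u
  have h5 : D5 x y z u w := ⟨d.1, d.2.2, Ne.symm u1, Ne.symm w1, d.2.1, Ne.symm u2, Ne.symm w2,
    Ne.symm u3, Ne.symm w3, Ne.symm w4⟩
  have d' : D3 z u w := ⟨Ne.symm u3, Ne.symm w4, Ne.symm w3⟩
  obtain ⟨δ, hδ, hall, -⟩ := m.five hp hψ h5.good h5.order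
  -- the product of the two three-cycles
  have hsg : sg π (L π x y z * L π z u w * (M π x y z u w)⁻¹) = 1 := by
    rw [map_mul, map_mul, map_inv, m.L_sg d, m.L_sg d', m.M_sg h5, c5, mul_inv_cancel]
  obtain ⟨ζ, hζ⟩ := m.scal hsg
  have hprod : ∀ v, ρ (L π x y z * L π z u w) v = ζ • ρ (M π x y z u w) v := by
    intro v
    have : L π x y z * L π z u w =
        (L π x y z * L π z u w * (M π x y z u w)⁻¹) * M π x y z u w := by group
    rw [this, rho_mul, hζ]; rfl
  have hζ0 : ζ ≠ 0 := by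
    rintro rfl
    haveI := m.nontriv
    obtain ⟨v, hv⟩ := exists_ne (0 : V)
    have h1 := hprod v
    rw [zero_smul] at h1
    exact hv (rho_inj (ρ := ρ) _ (by rw [h1, map_zero]))
  let J := {a : ZMod 5 // a ≠ 0 ∧ ζ * ψ a ≠ 1}
  have hJ : 3 ≤ Fintype.card J := by
    have h1 : (Finset.univ.filter fun a : ZMod 5 => a ≠ 0 ∧ ζ * ψ a ≠ 1).card = Fintype.card J :=
      (Fintype.card_subtype _).symm
    rw [← h1]
    have h2 : (Finset.univ.filter fun a : ZMod 5 => a ≠ 0).card = 4 := by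
      rw [← Fintype.card_subtype]
      exact (Fintype.card_congr (Equiv.refl _)).trans card5
    have h3 : (Finset.univ.filter fun a : ZMod 5 => ζ * ψ a = 1).card ≤ 1 := by
      rw [Finset.card_le_one]
      intro a ha b hb
      simp only [Finset.mem_filter, Finset.mem_univ, true_and] at ha hb
      exact psi_inj hψ (mul_left_cancel₀ hζ0 (ha.trans hb.symm))
    have h4 : (Finset.univ.filter fun a : ZMod 5 => a ≠ 0) ⊆
        (Finset.univ.filter fun a : ZMod 5 => a ≠ 0 ∧ ζ * ψ a ≠ 1) ∪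
        (Finset.univ.filter fun a : ZMod 5 => ζ * ψ a = 1) := by
      intro a ha
      simp only [Finset.mem_union, Finset.mem_filter, Finset.mem_univ, true_and] at ha ⊢
      tauto
    have h5 := (Finset.card_le_card h4).trans (Finset.card_union_le _ _)
    omega
  have h1 := rank_ge (ρ (L π x y z * L π z u w)) (fun a : J => ζ * ψ a)
    (fun a b hab => Subtype.ext (psi_inj hψ (mul_left_cancel₀ hζ0 hab))) (fun a => a.2.2)
    (fun a => by
      obtain ⟨w', hw, hw0⟩ := exists_of_finrank (W := EE ρ ψ (M π x y z u w) a) (by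
        rw [M, hall a.1 a.2.1]; exact hδ)
      refine ⟨w', hw0, ?_⟩
      rw [hprod, mem_EE.mp hw, smul_smul])
  -- the rank of a product
  have h2 : LinearMap.range (ρ (L π x y z * L π z u w) - 1) ≤
      LinearMap.range (ρ (L π x y z) - 1) ⊔ LinearMap.range (ρ (L π z u w) - 1) := by
    rintro _ ⟨v, rfl⟩
    have : (ρ (L π x y z * L π z u w) - 1) v =
        (ρ (L π x y z) - 1) (ρ (L π z u w) v) + (ρ (L π z u w) - 1) v := by
      simp only [LinearMap.sub_apply, Module.End.one_apply, rho_mul]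
      abel
    rw [this]
    exact Submodule.add_mem_sup ⟨_, rfl⟩ ⟨_, rfl⟩
  have h3 := Submodule.finrank_mono h2
  have h4 := Submodule.finrank_add_le_finrank_add_finrank (LinearMap.range (ρ (L π x y z) - 1))
    (LinearMap.range (ρ (L π z u w) - 1))
  -- conjugacy
  have h6 : finrank (KK p) (LinearMap.range (ρ (L π z u w) - 1)) ≤
      finrank (KK p) (LinearMap.range (ρ (L π x y z) - 1)) := by
    have i1 : Function.Injective (![z, u, w] : Fin 3 → Fin r) := by
      intro i j hij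
      fin_cases i <;> fin_cases j <;> first | rfl | (exfalso; simp at hij; simp_all [eq_comm])
    have i2 : Function.Injective (![x, y, z] : Fin 3 → Fin r) := by
      obtain ⟨n1, n2, n3⟩ := d
      intro i j hij
      fin_cases i <;> fin_cases j <;> first | rfl | (exfalso; simp at hij; simp_all [eq_comm])
    obtain ⟨h, hh⟩ := m.exists_trans (by omega) ![z, u, w] ![x, y, z] i1 i2
    have g0 : sg π h z = x := hh 0
    have g1 : sg π h u = y := hh 1
    have g2 : sg π h w = z := hh 2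
    have hc : h * L π z u w * h⁻¹ = L π x y z := by rw [m.L_conj d', g0, g1, g2]
    let f : LinearMap.range (ρ (L π z u w) - 1) →ₗ[KK p] LinearMap.range (ρ (L π x y z) - 1) :=
      (ρ h).restrict (by
        rintro _ ⟨v, rfl⟩
        refine ⟨ρ h v, ?_⟩
        simp only [LinearMap.sub_apply, Module.End.one_apply, map_sub]
        rw [← hc, rho_mul, rho_mul, rho_inv])
    refine LinearMap.finrank_le_finrank_of_injective (f := f) ?_
    intro u v huv
    apply Subtype.ext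
    exact rho_inj (ρ := ρ) h (congrArg Subtype.val huv)
  omega

end MinCfg

end Cfsg.Agent.AltSec
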