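import Cfsg.Agent.Lib.AltSecL

/-! Alternating sections of linear groups (S2653), part M: disjoint three-cycles, the generic
cases. -/

set_option autoImplicit false

namespace Cfsg.Agent.AltSec

open Module Equiv.Perm

variable {p : ℕ} [Fact p.Prime] {r : ℕ} {H : Type} [Group H] {V : Type}
    [AddCommGroup V] [Module (KK p) V]
    {ρ : H →* Module.End (KK p) V} {π : H →* alternatingGroup (Fin r)}

theorem card16 : Fintype.card {t : ZMod 5 × ZMod 5 // t.1 ≠ 0 ∧ t.2 ≠ 0} = 16 := by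
  decide

theorem scal_of_one [FiniteDimensional (KK p) V] {W : Submodule (KK p) V}
    (h1 : finrank (KK p) W ≤ 1) {T : Module.End (KK p) V} (hT : ∀ w ∈ W, T w ∈ W) :
    ∃ l : KK p, ∀ w ∈ W, T w = l • w := by
  obtain ⟨u, hu⟩ := finrank_le_one_iff.mp h1
  obtain ⟨l, hl⟩ := hu ⟨T u, hT u u.2⟩
  refine ⟨l, fun w hw => ?_⟩
  obtain ⟨c, hc⟩ := hu ⟨w, hw⟩
  have e1 : c • (u : V) = w := congrArg Subtype.val hc
  have e2 : l • (u : V) = T u := congrArg Subtype.val hl
  rw [← e1, map_smul, ← e2, smul_comm]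

namespace MinCfg

theorem L_mem_fx (m : MinCfg ρ π) {x y z : Fin r} (d : D3 x y z) {F : Finset (Fin r)}
    (hx : x ∉ F) (hy : y ∉ F) (hz : z ∉ F) : L π x y z ∈ fx π F := by
  intro u hu
  exact m.L_o d (fun e => hx (e ▸ hu)) (fun e => hy (e ▸ hu)) (fun e => hz (e ▸ hu))

/-- large complement: three-cycles -/
theorem caseII_big (m : MinCfg ρ π) (hp : (3 : ℕ) ≠ p) (hr12 : 12 ≤ r)
    (hIH : ∀ r', 9 ≤ r' → r' < r → ∀ d N, Sec p r' d N → r' ≤ d + 2) : NT2 ρ π := by
  classical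
  haveI := m.fd
  haveI : Fact (Nat.Prime 3) := ⟨Nat.prime_three⟩
  obtain ⟨hq, ψ, hψ⟩ := exists_psi p 3 hp
  intro x y z d v x' y' z' d' h1 h2 h3
  have hle := m.le
  have hcard : ({x, y, z} : Finset (Fin r)).card = 3 :=
    Finset.card_eq_three.mpr ⟨x, y, z, d.1, d.2.2, d.2.1, rfl⟩
  obtain ⟨δ, hδ, hall, hδ2⟩ := m.three hp hψ d
  have hL : L π x' y' z' ∈ fx π {x, y, z} := m.L_mem_fx d' h1 h2 h3
  have key : ∀ a : ZMod 3, a ≠ 0 → ∀ w, ρ (L π x y z) w = ψ a • w →
      (ρ (L π x' y' z') - 1) w = 0 := by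
    intro a ha w hw
    have hW : ∀ h ∈ fx π {x, y, z}, ∀ w ∈ EE ρ ψ (L π x y z) a, ρ h w ∈ EE ρ ψ (L π x y z) a := by
      intro h hh w hw
      rw [mem_EE] at hw ⊢
      rw [← rho_mul, ← m.L_comm d hh, rho_mul, hw, map_smul]
    obtain ⟨l, hl⟩ := m.small_scal hIH {x, y, z} (by omega) (r - 3) (by omega) (by omega)
      (EE ρ ψ (L π x y z) a) hW (by rw [hall a ha]; omega) _ hL
    have := m.real_scal {x, y, z} (by omega) (EE ρ ψ (L π x y z) a) hW h1 h2 h3 d'.1 d'.2.1 d'.2.2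
      hl w (mem_EE.mpr hw)
    rw [LinearMap.sub_apply, Module.End.one_apply, sub_eq_zero]
    exact this
  have := kill hq hψ (ρ (L π x y z)) (by rw [← map_pow, m.L_cube d, map_one])
    (ρ (L π x' y' z') - 1) key v
  rw [LinearMap.sub_apply, Module.End.one_apply, sub_eq_zero] at this
  exact this

/-- two disjoint five-cycles -/
theorem two_blocks (m : MinCfg ρ π) (hp : (5 : ℕ) ≠ p) {ψ : AddChar (ZMod 5) (KK p)}
    (hψ : ψ.IsPrimitive) (hn : finrank (KK p) V ≤ 11) (hr10 : 10 ≤ r)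
    {a b c d e : Fin r} (h : D5 a b c d e) {α : ZMod 5} (hα : α ≠ 0) :
    finrank (KK p) (EE ρ ψ (M π a b c d e) α) ≤ 1 := by
  classical
  haveI := m.fd
  haveI : Fact (Nat.Prime 5) := ⟨Nat.prime_five⟩
  have hq := (exists_psi p 5 hp).1
  let y : Fin 10 → Fin r := Fin.castLE hr10
  have hy : Function.Injective y := Fin.castLE_injective hr10
  have hD1 : D5 (y 0) (y 1) (y 2) (y 3) (y 4) :=
    ⟨hy.ne (by decide), hy.ne (by decide), hy.ne (by decide), hy.ne (by decide), hy.ne (by decide),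
      hy.ne (by decide), hy.ne (by decide), hy.ne (by decide), hy.ne (by decide), hy.ne (by decide)⟩
  have hD2 : D5 (y 5) (y 6) (y 7) (y 8) (y 9) :=
    ⟨hy.ne (by decide), hy.ne (by decide), hy.ne (by decide), hy.ne (by decide), hy.ne (by decide),
      hy.ne (by decide), hy.ne (by decide), hy.ne (by decide), hy.ne (by decide), hy.ne (by decide)⟩
  set D := M π (y 0) (y 1) (y 2) (y 3) (y 4) with hDdef
  set D' := M π (y 5) (y 6) (y 7) (y 8) (y 9) with hD'def
  -- all lifts have the same spectrum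
  have hsame : ∀ {a b c d e a' b' c' d' e' : Fin r}, D5 a b c d e → D5 a' b' c' d' e' →
      ∀ β : ZMod 5, finrank (KK p) (EE ρ ψ (M π a b c d e) β) ≤
        finrank (KK p) (EE ρ ψ (M π a' b' c' d' e') β) := by
    intro a b c d e a' b' c' d' e' h h' β
    obtain ⟨g, hg⟩ := m.exists_trans (by omega) ![a, b, c, d, e] ![a', b', c', d', e'] h.inj h'.inj
    have g0 : sg π g a = a' := hg 0
    have g1 : sg π g b = b' := hg 1
    have g2 : sg π g c = c' := hg 2
    have g3 : sg π g d = d' := hg 3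
    have g4 : sg π g e = e' := hg 4
    have hc := m.M_conj h g
    rw [g0, g1, g2, g3, g4] at hc
    have := EE_le (ρ := ρ) (ψ := ψ) (D := M π a b c d e) (D' := M π a' b' c' d' e') (h := g)
      (k := 1) (k' := 1) (by rw [pow_one]; exact hc) (by simp) β
    rw [Nat.cast_one, one_mul] at this
    exact this
  have hcomm : D' * D = D * D' := by
    apply m.M_comm hD1
    intro u hu
    rw [m.M_sg hD2, c5, Equiv.Perm.mul_apply]
    simp only [Finset.mem_insert, Finset.mem_singleton] at hu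
    rcases hu with rfl | rfl | rfl | rfl | rfl <;>
    · rw [tc_o (hy.ne (by decide)) (hy.ne (by decide)) (hy.ne (by decide)),
        tc_o (hy.ne (by decide)) (hy.ne (by decide)) (hy.ne (by decide))]
  have hDp : D ^ 5 = 1 := m.M_pow hD1
  have hD'p : D' ^ 5 = 1 := m.M_pow hD2
  -- joint weights
  let Q : ZMod 5 → ZMod 5 → Prop := fun a b => ∃ v, v ≠ 0 ∧ v ∈ EE ρ ψ D a ∧ v ∈ EE ρ ψ D' b
  have hne : ∀ (g : H) (v : V), v ≠ 0 → ρ g v ≠ 0 := fun g v hv h0 =>
    hv (rho_inj (ρ := ρ) g (by rw [h0, map_zero]))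
  have hQ : ∀ a b, a ≠ 0 → b ≠ 0 → ¬ Q a b := by
    intro a b ha hb hab
    have hall : ∀ a' b', a' ≠ 0 → b' ≠ 0 → Q a' b' := by
      refine clos5 Q ?_ ?_ ?_ ha hb hab
      · -- both squared
        rintro a b ⟨v, hv0, hv, hv'⟩
        obtain ⟨g, hg⟩ := m.exists_blk y hy (Equiv.swap 1 2 * Equiv.swap 2 4 * Equiv.swap 4 3 *
          (Equiv.swap 6 7 * Equiv.swap 7 9 * Equiv.swap 9 8)) (by
            simp only [map_mul]
            rw [sign_swap (by decide), sign_swap (by decide), sign_swap (by decide),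
              sign_swap (by decide), sign_swap (by decide), sign_swap (by decide)]
            rfl)
        have c1 : g * D * g⁻¹ = D ^ 2 := by
          rw [hDdef, m.M_conj hD1, ← m.M_sq hD1, hg, hg, hg, hg, hg]
          rfl
        have c2 : g * D' * g⁻¹ = D' ^ 2 := by
          rw [hD'def, m.M_conj hD2, ← m.M_sq hD2, hg, hg, hg, hg, hg]
          rfl
        refine ⟨ρ g v, hne g v hv0, ?_, ?_⟩
        · exact EE_mv (k' := 3) c1 (by rw [show 2 * 3 = 5 + 1 by norm_num, pow_succ, hDp, one_mul]) hv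
        · exact EE_mv (k' := 3) c2 (by rw [show 2 * 3 = 5 + 1 by norm_num, pow_succ, hD'p, one_mul]) hv'
      · rintro a b ⟨v, hv0, hv, hv'⟩
        obtain ⟨g, hg⟩ := m.exists_blk y hy (Equiv.swap 1 4 * Equiv.swap 2 3) (by
            rw [map_mul, sign_swap (by decide), sign_swap (by decide)]
            rfl)
        have c1 : g * D * g⁻¹ = D ^ 4 := by
          rw [hDdef, m.M_conj hD1, ← m.M_four hD1, hg, hg, hg, hg, hg]
          rfl
        have c2 : g * D' * g⁻¹ = D' ^ 1 := by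
          rw [hD'def, m.M_conj hD2, pow_one, hg, hg, hg, hg, hg]
          rfl
        refine ⟨ρ g v, hne g v hv0, ?_, ?_⟩
        · exact EE_mv (k' := 4) c1 (by
            rw [show 4 * 4 = 5 * 3 + 1 by norm_num, pow_succ, pow_mul, hDp, one_pow, one_mul]) hv
        · have := EE_mv (k' := 1) c2 (by simp) hv'
          rw [Nat.cast_one, one_mul] at this
          exact this
      · rintro a b ⟨v, hv0, hv, hv'⟩
        obtain ⟨g, hg⟩ := m.exists_blk y hy ((Equiv.swap 1 2 * Equiv.swap 2 4 * Equiv.swap 4 3) *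
          (Equiv.swap 0 5 * Equiv.swap 1 6 * Equiv.swap 2 7 * Equiv.swap 3 8 * Equiv.swap 4 9)) (by
            simp only [map_mul]
            rw [sign_swap (by decide), sign_swap (by decide), sign_swap (by decide),
              sign_swap (by decide), sign_swap (by decide), sign_swap (by decide),
              sign_swap (by decide), sign_swap (by decide)]
            rfl)
        have c1 : g * D' * g⁻¹ = D ^ 2 := by
          rw [hDdef, hD'def, m.M_conj hD2, ← m.M_sq hD1, hg, hg, hg, hg, hg]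
          rfl
        have c2 : g * D * g⁻¹ = D' ^ 1 := by
          rw [hDdef, hD'def, m.M_conj hD1, pow_one, hg, hg, hg, hg, hg]
          rfl
        refine ⟨ρ g v, hne g v hv0, ?_, ?_⟩
        · exact EE_mv (k' := 3) c1 (by rw [show 2 * 3 = 5 + 1 by norm_num, pow_succ, hDp, one_mul]) hv'
        · have := EE_mv (k' := 1) c2 (by simp) hv
          rw [Nat.cast_one, one_mul] at this
          exact this
    let J := {t : ZMod 5 × ZMod 5 // t.1 ≠ 0 ∧ t.2 ≠ 0}
    have hJQ : ∀ t : J, Q t.1.1 t.1.2 := fun t => hall _ _ t.2.1 t.2.2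
    choose w hw0 hw hw' using hJQ
    have h1 := card_le_of_weights (V := V) (![ρ D, ρ D'] : Fin 2 → Module.End (KK p) V)
      (fun t : J => (![ψ t.1.1, ψ t.1.2] : Fin 2 → KK p)) (by
        intro s t hst
        have e0 := psi_inj hψ (congrFun hst 0)
        have e1 := psi_inj hψ (congrFun hst 1)
        exact Subtype.ext (Prod.ext e0 e1)) w hw0 (by
        intro t i
        fin_cases i
        · exact mem_EE.mp (hw t)
        · exact mem_EE.mp (hw' t))
    have h2 : Nat.card J = 16 := by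
      rw [Nat.card_eq_fintype_card]
      exact (Fintype.card_congr (Equiv.refl _)).trans card16
    omega
  -- the nontrivial eigenspaces of `D` are fixed by `D'` and conversely
  have hfix : ∀ a, a ≠ 0 → ∀ v ∈ EE ρ ψ D a, ρ D' v = v := by
    intro a ha v hv
    by_contra hne'
    obtain ⟨b, hb, w, hw, hw0, hw'⟩ := exists_eig hq hψ (ρ D') (by rw [← map_pow, hD'p, map_one])
      (EE ρ ψ D a) (by
        intro w hw
        rw [mem_EE] at hw ⊢
        rw [← rho_mul, ← hcomm, rho_mul, hw, map_smul]) v hv hne'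
    exact hQ a b ha hb ⟨w, hw0, hw, mem_EE.mpr hw'⟩
  have hfix' : ∀ b, b ≠ 0 → ∀ v ∈ EE ρ ψ D' b, ρ D v = v := by
    intro b hb v hv
    by_contra hne'
    obtain ⟨a, ha, w, hw, hw0, hw'⟩ := exists_eig hq hψ (ρ D) (by rw [← map_pow, hDp, map_one])
      (EE ρ ψ D' b) (by
        intro w hw
        rw [mem_EE] at hw ⊢
        rw [← rho_mul, hcomm, rho_mul, hw, map_smul]) v hv hne'
    exact hQ a b ha hb ⟨w, hw0, mem_EE.mpr hw', hw⟩
  obtain ⟨δ, hδ, hall0, -⟩ := m.five hp hψ hD1.good hD1.order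
  have hall : ∀ a : ZMod 5, a ≠ 0 → finrank (KK p) (EE ρ ψ D a) = δ := hall0
  have hall' : ∀ b : ZMod 5, b ≠ 0 → finrank (KK p) (EE ρ ψ D' b) = δ := by
    intro b hb
    rw [← hall b hb]
    exact le_antisymm (hsame hD2 hD1 b) (hsame hD1 hD2 b)
  let J := {a : ZMod 5 // a ≠ 0} ⊕ {b : ZMod 5 // b ≠ 0}
  have h5 := sum_finrank_le (![ρ D, ρ D'] : Fin 2 → Module.End (KK p) V)
      (fun t : J => Sum.elim (fun a => (![ψ a.1, 1] : Fin 2 → KK p))
        (fun b => (![1, ψ b.1] : Fin 2 → KK p)) t) (by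
        intro s t hst
        have h1 : ∀ a : {a : ZMod 5 // a ≠ 0}, ψ a.1 ≠ 1 := fun a ha => a.2 (psi_inj hψ (by
          rw [ha, AddChar.map_zero_eq_one]))
        rcases s with s | s <;> rcases t with t | t
        · exact congrArg Sum.inl (Subtype.ext (psi_inj hψ (congrFun hst 0)))
        · exact absurd (congrFun hst 0) (h1 s)
        · exact absurd (congrFun hst 0).symm (h1 t)
        · exact congrArg Sum.inr (Subtype.ext (psi_inj hψ (congrFun hst 1))))
      (fun t : J => Sum.elim (fun a => EE ρ ψ D a.1) (fun b => EE ρ ψ D' b.1) t) (by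
        intro t w hw i
        rcases t with t | t
        · fin_cases i
          · exact mem_EE.mp hw
          · show ρ D' w = (1 : KK p) • w
            rw [one_smul]; exact hfix t.1 t.2 w hw
        · fin_cases i
          · show ρ D w = (1 : KK p) • w
            rw [one_smul]; exact hfix' t.1 t.2 w hw
          · exact mem_EE.mp hw) ⊤ (fun _ => le_top)
  rw [finrank_top, Fintype.sum_sum_type] at h5
  simp only [Sum.elim_inl, Sum.elim_inr] at h5
  have h6 : Fintype.card {a : ZMod 5 // a ≠ 0} = 4 :=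
    (Fintype.card_congr (Equiv.refl _)).trans card5
  have s1 : ∑ a : {a : ZMod 5 // a ≠ 0}, finrank (KK p) (EE ρ ψ D a.1) = 4 * δ := by
    rw [Finset.sum_congr rfl (fun a _ => hall a.1 a.2), Finset.sum_const, Finset.card_univ, h6,
      smul_eq_mul]
  have s2 : ∑ a : {a : ZMod 5 // a ≠ 0}, finrank (KK p) (EE ρ ψ D' a.1) = 4 * δ := by
    rw [Finset.sum_congr rfl (fun a _ => hall' a.1 a.2), Finset.sum_const, Finset.card_univ, h6,
      smul_eq_mul]
  have h5' : 4 * δ + 4 * δ ≤ finrank (KK p) V := by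
    rw [← s1]; nth_rewrite 2 [s1]; rw [← s2]
    exact h5
  have h7 : finrank (KK p) (EE ρ ψ (M π a b c d e) α) ≤ finrank (KK p) (EE ρ ψ D α) :=
    hsame h hD1 α
  rw [hall α hα] at h7
  omega

/-- three-cycles act trivially on the nontrivial eigenspaces of a disjoint five-cycle -/
theorem five_triv (m : MinCfg ρ π) (hp : (5 : ℕ) ≠ p) (hr10 : 10 ≤ r)
    (hIH : ∀ r', 9 ≤ r' → r' < r → ∀ d N, Sec p r' d N → r' ≤ d + 2)
    {ψ : AddChar (ZMod 5) (KK p)} (hψ : ψ.IsPrimitive) {a b c d e : Fin r} (h : D5 a b c d e)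
    {x y z : Fin r} (d' : D3 x y z) (hx : x ∉ ({a, b, c, d, e} : Finset (Fin r)))
    (hy : y ∉ ({a, b, c, d, e} : Finset (Fin r))) (hz : z ∉ ({a, b, c, d, e} : Finset (Fin r)))
    {α : ZMod 5} (hα : α ≠ 0) {w : V} (hw : w ∈ EE ρ ψ (M π a b c d e) α) :
    ρ (L π x y z) w = w := by
  classical
  haveI := m.fd
  have hle := m.le
  obtain ⟨δ, hδ, hall0, hδ4⟩ := m.five hp hψ h.good h.order
  have hall : ∀ a' : ZMod 5, a' ≠ 0 → finrank (KK p) (EE ρ ψ (M π a b c d e) a') = δ := hall0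
  have hcard : ({a, b, c, d, e} : Finset (Fin r)).card = 5 := by
    obtain ⟨h1, h2, h3, h4, h5, h6, h7, h8, h9, h10⟩ := h
    rw [Finset.card_insert_of_notMem (by simp [h1, h2, h3, h4]),
      Finset.card_insert_of_notMem (by simp [h5, h6, h7]),
      Finset.card_insert_of_notMem (by simp [h8, h9]),
      Finset.card_insert_of_notMem (by simp [h10]), Finset.card_singleton]
  have hW : ∀ g ∈ fx π {a, b, c, d, e}, ∀ w ∈ EE ρ ψ (M π a b c d e) α,
      ρ g w ∈ EE ρ ψ (M π a b c d e) α := by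
    intro g hg w hw
    rw [mem_EE] at hw ⊢
    rw [← rho_mul, ← m.M_comm h hg, rho_mul, hw, map_smul]
  have hL : L π x y z ∈ fx π {a, b, c, d, e} := m.L_mem_fx d' hx hy hz
  obtain ⟨l, hl⟩ : ∃ l : KK p, ∀ w ∈ EE ρ ψ (M π a b c d e) α, ρ (L π x y z) w = l • w := by
    by_cases h14 : 14 ≤ r
    · exact m.small_scal hIH {a, b, c, d, e} (by omega) (r - 5) (by omega) (by omega)
        (EE ρ ψ (M π a b c d e) α) hW (by rw [hall α hα]; omega) _ hL
    · exact scal_of_one (m.two_blocks hp hψ (by omega) hr10 h hα) (hW _ hL)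
  exact m.real_scal {a, b, c, d, e} (by omega) (EE ρ ψ (M π a b c d e) α) hW hx hy hz
    d'.1 d'.2.1 d'.2.2 hl w hw

/-- the case of five-cycles -/
theorem caseI (m : MinCfg ρ π) (hp : (5 : ℕ) ≠ p) (hr10 : 10 ≤ r)
    (hIH : ∀ r', 9 ≤ r' → r' < r → ∀ d N, Sec p r' d N → r' ≤ d + 2) : NT2 ρ π := by
  classical
  haveI := m.fd
  haveI : Fact (Nat.Prime 5) := ⟨Nat.prime_five⟩
  have hr := m.hr
  obtain ⟨hq, ψ, hψ⟩ := exists_psi p 5 hp
  intro x y z d v x' y' z' d' h1 h2 h3
  simp only [Finset.mem_insert, Finset.mem_singleton, not_or] at h1 h2 h3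
  -- two further points
  obtain ⟨u, hu⟩ := out1 hr ({x, y, z, x', y', z'} : Finset (Fin r)) (by
    have c1 := card_ins (Finset.card_le_four (a := z) (b := x') (c := y') (d := z')) y
    have c2 := card_ins c1 x
    omega)
  obtain ⟨w, hw⟩ := out1 hr (insert u ({x, y, z, x', y', z'} : Finset (Fin r))) (by
    have c1 := card_ins (Finset.card_le_four (a := z) (b := x') (c := y') (d := z')) y
    have c2 := card_ins c1 x
    have c3 := card_ins c2 u
    omega)
  simp only [Finset.mem_insert, Finset.mem_singleton, not_or] at hu hw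
  obtain ⟨u1, u2, u3, u4, u5, u6⟩ := hu
  obtain ⟨w0, w1, w2, w3, w4, w5, w6⟩ := hw
  obtain ⟨a1, a2, a3⟩ := h1
  obtain ⟨b1, b2, b3⟩ := h2
  obtain ⟨e1, e2, e3⟩ := h3
  obtain ⟨d1, d2, d3⟩ := id d
  -- the two five-cycles `(x z y u w)` and `(x z w u y)`
  have hA : D5 x z y u w := ⟨d3, d1, Ne.symm u1, Ne.symm w1, Ne.symm d2, Ne.symm u3, Ne.symm w3,
    Ne.symm u2, Ne.symm w2, Ne.symm w0⟩
  have hB : D5 x z w u y := ⟨d3, Ne.symm w1, Ne.symm u1, d1, Ne.symm w3, Ne.symm u3, Ne.symm d2,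
    w0, w2, u2⟩
  have hprod : c5 x z y u w * c5 x z w u y = tc x y z := by
    have hinj : Function.Injective (![x, y, z, u, w] : Fin 5 → Fin r) :=
      D5.inj ⟨d1, d3, Ne.symm u1, Ne.symm w1, d2, Ne.symm u2, Ne.symm w2, Ne.symm u3, Ne.symm w3,
        Ne.symm w0⟩
    have k1 : (c5 0 2 1 3 4 * c5 0 2 4 3 1 : Equiv.Perm (Fin 5)) = tc 0 1 2 := by decide
    have k2 := congrArg (vf ![x, y, z, u, w] hinj) k1
    rw [c5, c5, vf_mul, vf_mul, vf_mul, vf_tc _ _ (by decide) (by decide) (by decide),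
      vf_tc _ _ (by decide) (by decide) (by decide), vf_tc _ _ (by decide) (by decide) (by decide),
      vf_tc _ _ (by decide) (by decide) (by decide),
      vf_tc _ _ (by decide) (by decide) (by decide)] at k2
    exact k2
  -- the five-cycles act trivially on `(C' - 1) V`
  have key : ∀ {a b c e f : Fin r} (hA : D5 a b c e f)
      (ha : ∀ t ∈ ({a, b, c, e, f} : Finset (Fin r)), t ≠ x' ∧ t ≠ y' ∧ t ≠ z'),
      ∀ v, ρ (M π a b c e f) (ρ (L π x' y' z') v - v) = ρ (L π x' y' z') v - v := by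
    intro a b c e f hA ha v
    have n1 : x' ∉ ({a, b, c, e, f} : Finset (Fin r)) := fun h => (ha _ h).1 rfl
    have n2 : y' ∉ ({a, b, c, e, f} : Finset (Fin r)) := fun h => (ha _ h).2.1 rfl
    have n3 : z' ∉ ({a, b, c, e, f} : Finset (Fin r)) := fun h => (ha _ h).2.2 rfl
    have h1 := kill hq hψ (ρ (M π a b c e f)) (by rw [← map_pow, m.M_pow hA, map_one])
      (ρ (L π x' y' z') - 1) (fun α hα w hw => by
        rw [LinearMap.sub_apply, Module.End.one_apply, sub_eq_zero]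
        exact m.five_triv hp hr10 hIH hψ hA d' n1 n2 n3 hα (mem_EE.mpr hw)) v
    have hc : L π x' y' z' * M π a b c e f = M π a b c e f * L π x' y' z' :=
      m.M_comm hA (m.L_mem_fx d' n1 n2 n3)
    have h2 : ρ (L π x' y' z') (ρ (M π a b c e f) v) = ρ (M π a b c e f) (ρ (L π x' y' z') v) := by
      rw [← rho_mul, hc, rho_mul]
    rw [LinearMap.sub_apply, Module.End.one_apply, map_sub, h2] at h1
    rw [map_sub, ← sub_eq_zero, ← h1]
    abel
  have mA : ∀ t ∈ ({x, z, y, u, w} : Finset (Fin r)), t ≠ x' ∧ t ≠ y' ∧ t ≠ z' := by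
    intro t ht
    simp only [Finset.mem_insert, Finset.mem_singleton] at ht
    rcases ht with rfl | rfl | rfl | rfl | rfl
    · exact ⟨Ne.symm a1, Ne.symm b1, Ne.symm e1⟩
    · exact ⟨Ne.symm a3, Ne.symm b3, Ne.symm e3⟩
    · exact ⟨Ne.symm a2, Ne.symm b2, Ne.symm e2⟩
    · exact ⟨u4, u5, u6⟩
    · exact ⟨w4, w5, w6⟩
  have mB : ∀ t ∈ ({x, z, w, u, y} : Finset (Fin r)), t ≠ x' ∧ t ≠ y' ∧ t ≠ z' := by
    intro t ht
    apply mA
    simp only [Finset.mem_insert, Finset.mem_singleton] at ht ⊢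
    tauto
  -- so `C` acts there as a scalar
  have hsg : sg π (L π x y z * (M π x z y u w * M π x z w u y)⁻¹) = 1 := by
    rw [map_mul, map_inv, map_mul, m.L_sg d, m.M_sg hA, m.M_sg hB, hprod, mul_inv_cancel]
  obtain ⟨ζ, hζ⟩ := m.scal hsg
  let W := LinearMap.range (ρ (L π x' y' z') - 1)
  have hlW : ∀ t ∈ W, ρ (L π x y z) t = ζ • t := by
    rintro _ ⟨t, rfl⟩
    have e1 : L π x y z = (L π x y z * (M π x z y u w * M π x z w u y)⁻¹) *
        (M π x z y u w * M π x z w u y) := by group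
    rw [e1, rho_mul, hζ, rho_mul]
    show ζ • ρ _ (ρ _ (ρ (L π x' y' z') t - t)) = _
    rw [key hB mB, key hA mA]
    rfl
  have hWinv : ∀ g ∈ fx π {x', y', z'}, ∀ t ∈ W, ρ g t ∈ W := by
    rintro g hg _ ⟨t, rfl⟩
    refine ⟨ρ g t, ?_⟩
    simp only [LinearMap.sub_apply, Module.End.one_apply, map_sub]
    rw [← rho_mul, ← m.L_comm d' hg, rho_mul]
  have hcard : ({x', y', z'} : Finset (Fin r)).card ≤ 3 := Finset.card_le_three
  have hfin := m.real_scal {x', y', z'} (by omega) W hWinv (x := x) (y := y) (z := z)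
    (by simp [Ne.symm a1, Ne.symm b1, Ne.symm e1]) (by simp [Ne.symm a2, Ne.symm b2, Ne.symm e2])
    (by simp [Ne.symm a3, Ne.symm b3, Ne.symm e3]) d1 d2 d3 hlW
    (ρ (L π x' y' z') v - v) ⟨v, rfl⟩
  have hfin' : ρ (L π x y z) (ρ (L π x' y' z') v - v) = ρ (L π x' y' z') v - v := hfin
  have hc : L π x' y' z' * L π x y z = L π x y z * L π x' y' z' :=
    m.L_comm d (m.L_mem_fx d' (by simp [a1, a2, a3]) (by simp [b1, b2, b3]) (by simp [e1, e2, e3]))
  have hc' : ρ (L π x' y' z') (ρ (L π x y z) v) = ρ (L π x y z) (ρ (L π x' y' z') v) := by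
    rw [← rho_mul, hc, rho_mul]
  rw [map_sub] at hfin' ⊢
  rw [hc', ← sub_eq_zero]
  rw [← sub_eq_zero] at hfin'
  rw [← hfin']
  abel

end MinCfg

end Cfsg.Agent.AltSec
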