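import Cfsg.Agent.Lib.AltSecM

/-! Alternating sections of linear groups (S2653), part N: three blocks and the four-group. -/

set_option autoImplicit false

namespace Cfsg.Agent.AltSec

open Module Equiv.Perm

variable {p : ℕ} [Fact p.Prime] {r : ℕ} {H : Type} [Group H] {V : Type}
    [AddCommGroup V] [Module (KK p) V]
    {ρ : H →* Module.End (KK p) V} {π : H →* alternatingGroup (Fin r)}

/-- number of zero coordinates -/
def nz (a b c : ZMod 3) : ℕ :=
  (if a = 0 then 1 else 0) + (if b = 0 then 1 else 0) + (if c = 0 then 1 else 0)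

/-- weights with a given number of zero coordinates -/
def wts (k : ℕ) : Finset (ZMod 3 × ZMod 3 × ZMod 3) :=
  Finset.univ.filter fun t => nz t.1 t.2.1 t.2.2 = k

theorem wts0 : (wts 0).card = 8 := by decide
theorem wts1 : (wts 1).card = 12 := by decide
theorem wts02 : (wts 0 ∪ wts 2).card = 14 := by decide

theorem mem_wts {k : ℕ} {t : ZMod 3 × ZMod 3 × ZMod 3} : t ∈ wts k ↔ nz t.1 t.2.1 t.2.2 = k := by
  simp [wts]

/-- joint weights of three elements of order three -/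
def Q3 (ρ : H →* Module.End (KK p) V) (ψ : AddChar (ZMod 3) (KK p)) (C₀ C₁ C₂ : H)
    (a b c : ZMod 3) : Prop :=
  ∃ v, v ≠ 0 ∧ v ∈ EE ρ ψ C₀ a ∧ v ∈ EE ρ ψ C₁ b ∧ v ∈ EE ρ ψ C₂ c

theorem rho_ne (g : H) {v : V} (hv : v ≠ 0) : ρ g v ≠ 0 := fun h0 =>
    hv (rho_inj (ρ := ρ) g (by rw [h0, map_zero]))

theorem Q3_card [FiniteDimensional (KK p) V] {ψ : AddChar (ZMod 3) (KK p)} (hψ : ψ.IsPrimitive)
    {C₀ C₁ C₂ : H} (S : Finset (ZMod 3 × ZMod 3 × ZMod 3))
    (hS : ∀ t ∈ S, Q3 ρ ψ C₀ C₁ C₂ t.1 t.2.1 t.2.2) : S.card ≤ finrank (KK p) V := by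
  classical
  have hS' : ∀ t : S, Q3 ρ ψ C₀ C₁ C₂ t.1.1 t.1.2.1 t.1.2.2 := fun t => hS t.1 t.2
  choose w hw0 hw hw' hw'' using hS'
  have h1 := card_le_of_weights (V := V) (![ρ C₀, ρ C₁, ρ C₂] : Fin 3 → Module.End (KK p) V)
      (fun t : S => (![ψ t.1.1, ψ t.1.2.1, ψ t.1.2.2] : Fin 3 → KK p)) (by
        intro s t hst
        have e0 := psi_inj hψ (congrFun hst 0)
        have e1 := psi_inj hψ (congrFun hst 1)
        have e2 := psi_inj hψ (congrFun hst 2)
        exact Subtype.ext (Prod.ext e0 (Prod.ext e1 e2))) w hw0 (by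
        intro t i
        fin_cases i
        · exact mem_EE.mp (hw t)
        · exact mem_EE.mp (hw' t)
        · exact mem_EE.mp (hw'' t))
  have h2 : Nat.card S = S.card := by simp
  omega

namespace MinCfg

theorem L_sq (m : MinCfg ρ π) {x y z : Fin r} (d : D3 x y z) : L π y x z = L π x y z ^ 2 := by
  rw [m.L_inv d]
  have := m.L_cube d
  rw [pow_succ] at this
  exact (eq_inv_of_mul_eq_one_left this).symm

theorem blk_D3 {y : Fin 9 → Fin r} (hy : Function.Injective y) {i j k : Fin 9} (h1 : i ≠ j)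
    (h2 : j ≠ k) (h3 : i ≠ k) : D3 (y i) (y j) (y k) := ⟨hy.ne h1, hy.ne h2, hy.ne h3⟩

theorem Q3_clos (m : MinCfg ρ π) {ψ : AddChar (ZMod 3) (KK p)}
    {y : Fin 9 → Fin r} (hy : Function.Injective y) {a b c : ZMod 3}
    (h : Q3 ρ ψ (L π (y 0) (y 1) (y 2)) (L π (y 3) (y 4) (y 5)) (L π (y 6) (y 7) (y 8)) a b c)
    {a' b' c' : ZMod 3}
    (ht : (if a = 0 then 1 else 0) + (if b = 0 then 1 else 0) + (if c = 0 then 1 else 0) =
      (if a' = 0 then 1 else 0) + (if b' = 0 then 1 else 0) + (if c' = 0 then 1 else 0)) :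
    Q3 ρ ψ (L π (y 0) (y 1) (y 2)) (L π (y 3) (y 4) (y 5)) (L π (y 6) (y 7) (y 8)) a' b' c' := by
  have D0 : D3 (y 0) (y 1) (y 2) := blk_D3 hy (by decide) (by decide) (by decide)
  have D1 : D3 (y 3) (y 4) (y 5) := blk_D3 hy (by decide) (by decide) (by decide)
  have D2 : D3 (y 6) (y 7) (y 8) := blk_D3 hy (by decide) (by decide) (by decide)
  have p4 : ∀ {x y z : Fin r}, D3 x y z → L π x y z ^ (2 * 2) = L π x y z := by
    intro x y z d
    rw [show 2 * 2 = 3 + 1 by norm_num, pow_succ, m.L_cube d, one_mul]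
  have one : ∀ {D D' g : H} {a : ZMod 3} {v : V}, g * D * g⁻¹ = D' → v ∈ EE ρ ψ D a →
      ρ g v ∈ EE ρ ψ D' a := by
    intro D D' g a v h1 h2
    have := EE_mv (k := 1) (k' := 1) (D' := D') (by rw [pow_one]; exact h1) (by simp) h2
    rwa [Nat.cast_one, one_mul] at this
  refine clos3 _ ?_ ?_ ?_ h ht
  · rintro a b c ⟨v, hv0, h0, h1, h2⟩
    obtain ⟨g, hg⟩ := m.exists_blk y hy (Equiv.swap 0 1 * Equiv.swap 3 4) (by
        rw [map_mul, sign_swap (by decide), sign_swap (by decide)]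
        rfl)
    have c0 : g * L π (y 0) (y 1) (y 2) * g⁻¹ = L π (y 0) (y 1) (y 2) ^ 2 := by
      rw [m.L_conj D0, ← m.L_sq D0, hg, hg, hg]; rfl
    have c1 : g * L π (y 3) (y 4) (y 5) * g⁻¹ = L π (y 3) (y 4) (y 5) ^ 2 := by
      rw [m.L_conj D1, ← m.L_sq D1, hg, hg, hg]; rfl
    have c2 : g * L π (y 6) (y 7) (y 8) * g⁻¹ = L π (y 6) (y 7) (y 8) := by
      rw [m.L_conj D2, hg, hg, hg]; rfl
    exact ⟨ρ g v, rho_ne g hv0, EE_mv c0 (p4 D0) h0, EE_mv c1 (p4 D1) h1, one c2 h2⟩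
  · rintro a b c ⟨v, hv0, h0, h1, h2⟩
    obtain ⟨g, hg⟩ := m.exists_blk y hy (tc 0 3 6 * tc 1 4 7 * tc 2 5 8) (by
        rw [map_mul, map_mul, tc_sign (by decide) (by decide), tc_sign (by decide) (by decide),
          tc_sign (by decide) (by decide)]
        rfl)
    have c0 : g * L π (y 0) (y 1) (y 2) * g⁻¹ = L π (y 3) (y 4) (y 5) := by
      rw [m.L_conj D0, hg, hg, hg]; rfl
    have c1 : g * L π (y 3) (y 4) (y 5) * g⁻¹ = L π (y 6) (y 7) (y 8) := by
      rw [m.L_conj D1, hg, hg, hg]; rfl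
    have c2 : g * L π (y 6) (y 7) (y 8) * g⁻¹ = L π (y 0) (y 1) (y 2) := by
      rw [m.L_conj D2, hg, hg, hg]; rfl
    exact ⟨ρ g v, rho_ne g hv0, one c2 h2, one c0 h0, one c1 h1⟩
  · rintro a b c ⟨v, hv0, h0, h1, h2⟩
    obtain ⟨g, hg⟩ := m.exists_blk y hy (Equiv.swap 0 3 * Equiv.swap 1 4 * Equiv.swap 2 5 *
        Equiv.swap 6 7) (by
        simp only [map_mul]
        rw [sign_swap (by decide), sign_swap (by decide), sign_swap (by decide),
          sign_swap (by decide)]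
        rfl)
    have c0 : g * L π (y 0) (y 1) (y 2) * g⁻¹ = L π (y 3) (y 4) (y 5) := by
      rw [m.L_conj D0, hg, hg, hg]; rfl
    have c1 : g * L π (y 3) (y 4) (y 5) * g⁻¹ = L π (y 0) (y 1) (y 2) := by
      rw [m.L_conj D1, hg, hg, hg]; rfl
    have c2 : g * L π (y 6) (y 7) (y 8) * g⁻¹ = L π (y 6) (y 7) (y 8) ^ 2 := by
      rw [m.L_conj D2, ← m.L_sq D2, hg, hg, hg]; rfl
    exact ⟨ρ g v, rho_ne g hv0, one c1 h1, one c0 h0, EE_mv c2 (p4 D2) h2⟩

/-- a joint eigenvector for two commuting elements extends to a third -/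
theorem Q3_third (m : MinCfg ρ π) (hp : (3 : ℕ) ≠ p) {ψ : AddChar (ZMod 3) (KK p)}
    (hψ : ψ.IsPrimitive) {C₀ C₁ C₂ : H} (h3 : C₂ ^ 3 = 1) (c0 : C₂ * C₀ = C₀ * C₂)
    (c1 : C₂ * C₁ = C₁ * C₂) {a b : ZMod 3} {v : V} (hv0 : v ≠ 0) (hv : v ∈ EE ρ ψ C₀ a)
    (hv' : v ∈ EE ρ ψ C₁ b) : ∃ c, Q3 ρ ψ C₀ C₁ C₂ a b c := by
  haveI : Fact (Nat.Prime 3) := ⟨Nat.prime_three⟩
  have hq := (exists_psi p 3 hp).1
  obtain ⟨f, f1, f2, f3⟩ := decomp hq hψ (ρ C₂) (by rw [← map_pow, h3, map_one]) v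
  obtain ⟨c, hc⟩ : ∃ c, f c ≠ 0 := by
    by_contra hcon
    push Not at hcon
    apply hv0
    rw [← f2]
    exact Finset.sum_eq_zero fun c _ => hcon c
  have inv : ∀ {C : H} {a : ZMod 3}, C₂ * C = C * C₂ → ∀ w ∈ EE ρ ψ C a, ρ C₂ w ∈ EE ρ ψ C a := by
    intro C a hC w hw
    rw [mem_EE] at hw ⊢
    rw [← rho_mul, ← hC, rho_mul, hw, map_smul]
  exact ⟨c, f c, hc, f3 _ (inv c0) hv c, f3 _ (inv c1) hv' c, mem_EE.mpr (f1 c)⟩

/-- lifts with disjoint supports commute -/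
theorem L_comm' (m : MinCfg ρ π) {x y z x' y' z' : Fin r} (d : D3 x y z) (d' : D3 x' y' z')
    (hx : x' ∉ ({x, y, z} : Finset (Fin r))) (hy : y' ∉ ({x, y, z} : Finset (Fin r)))
    (hz : z' ∉ ({x, y, z} : Finset (Fin r))) :
    L π x' y' z' * L π x y z = L π x y z * L π x' y' z' :=
  m.L_comm d (m.L_mem_fx d' hx hy hz)

/-- failure of `NT2` produces three blocks with a joint weight -/
theorem not_NT2 (m : MinCfg ρ π) (hp : (3 : ℕ) ≠ p) {ψ : AddChar (ZMod 3) (KK p)}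
    (hψ : ψ.IsPrimitive) (h : ¬ NT2 ρ π) : ∃ y : Fin 9 → Fin r, Function.Injective y ∧
      ∃ a b c : ZMod 3, a ≠ 0 ∧ b ≠ 0 ∧
      Q3 ρ ψ (L π (y 0) (y 1) (y 2)) (L π (y 3) (y 4) (y 5)) (L π (y 6) (y 7) (y 8)) a b c := by
  classical
  haveI : Fact (Nat.Prime 3) := ⟨Nat.prime_three⟩
  have hq := (exists_psi p 3 hp).1
  have hr := m.hr
  rw [NT2] at h
  push Not at h
  obtain ⟨x, y, z, d, v, hv⟩ := h
  have hv' : ∃ x' y' z', D3 x' y' z' ∧ x' ∉ ({x, y, z} : Finset (Fin r)) ∧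
      y' ∉ ({x, y, z} : Finset (Fin r)) ∧ z' ∉ ({x, y, z} : Finset (Fin r)) ∧
      ρ (L π x' y' z') (ρ (L π x y z) v - v) ≠ ρ (L π x y z) v - v := by
    by_contra hcon
    push Not at hcon
    exact hv fun x' y' z' d' h1 h2 h3 => hcon x' y' z' d' h1 h2 h3
  obtain ⟨x', y', z', d', h1, h2, h3, hne⟩ := hv'
  have hcm := m.L_comm' d d' h1 h2 h3
  -- a nontrivial joint weight for the first two
  obtain ⟨a, b, w, ha, hb, hw0, hw, hw'⟩ : ∃ a b : ZMod 3, ∃ w : V, a ≠ 0 ∧ b ≠ 0 ∧ w ≠ 0 ∧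
      w ∈ EE ρ ψ (L π x y z) a ∧ w ∈ EE ρ ψ (L π x' y' z') b := by
    by_contra hcon
    push Not at hcon
    apply hne
    have := kill hq hψ (ρ (L π x y z)) (by rw [← map_pow, m.L_cube d, map_one])
      (ρ (L π x' y' z') - 1) (fun a ha w hw => by
        rw [LinearMap.sub_apply, Module.End.one_apply, sub_eq_zero]
        by_contra hne'
        obtain ⟨b, hb, u, hu, hu0, hu'⟩ := exists_eig hq hψ (ρ (L π x' y' z'))
          (by rw [← map_pow, m.L_cube d', map_one]) (EE ρ ψ (L π x y z) a) (by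
            intro w hw
            rw [mem_EE] at hw ⊢
            rw [← rho_mul, ← hcm, rho_mul, hw, map_smul]) w (mem_EE.mpr hw) hne'
        exact hcon a b u ha hb hu0 hu (mem_EE.mpr hu')) v
    rwa [LinearMap.sub_apply, Module.End.one_apply, sub_eq_zero] at this
  simp only [Finset.mem_insert, Finset.mem_singleton, not_or] at h1 h2 h3
  -- three further points
  have c1 := card_ins (card_ins (Finset.card_le_four (a := z) (b := x') (c := y') (d := z')) y) x
  obtain ⟨s, hs⟩ := out1 hr ({x, y, z, x', y', z'} : Finset (Fin r)) (by omega)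
  have c2 := card_ins c1 s
  obtain ⟨t, ht⟩ := out1 hr (insert s ({x, y, z, x', y', z'} : Finset (Fin r))) (by omega)
  have c3 := card_ins c2 t
  obtain ⟨u, hu⟩ := out1 hr (insert t (insert s ({x, y, z, x', y', z'} : Finset (Fin r))))
    (by omega)
  simp only [Finset.mem_insert, Finset.mem_singleton, not_or] at hs ht hu
  obtain ⟨a1, a2, a3⟩ := h1
  obtain ⟨b1, b2, b3⟩ := h2
  obtain ⟨e1, e2, e3⟩ := h3
  obtain ⟨d1, d2, d3⟩ := id d
  obtain ⟨k1, k2, k3⟩ := id d'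
  obtain ⟨s1, s2, s3, s4, s5, s6⟩ := hs
  obtain ⟨t0, t1, t2, t3, t4, t5, t6⟩ := ht
  obtain ⟨u0, u00, u1, u2, u3, u4, u5, u6⟩ := hu
  have dd : D3 s t u := ⟨Ne.symm t0, Ne.symm u0, Ne.symm u00⟩
  have cc0 : L π s t u * L π x y z = L π x y z * L π s t u :=
    m.L_comm' d dd (by simp [s1, s2, s3]) (by simp [t1, t2, t3]) (by simp [u1, u2, u3])
  have cc1 : L π s t u * L π x' y' z' = L π x' y' z' * L π s t u :=
    m.L_comm' d' dd (by simp [s4, s5, s6]) (by simp [t4, t5, t6]) (by simp [u4, u5, u6])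
  obtain ⟨c, hc⟩ := m.Q3_third hp hψ (m.L_cube dd) cc0 cc1 hw0 hw hw'
  refine ⟨![x, y, z, x', y', z', s, t, u], ?_, a, b, c, ha, hb, hc⟩
  intro i j hij
  fin_cases i <;> fin_cases j <;> first | rfl | (exfalso; simp at hij; simp_all [eq_comm])

/-- small degree -/
theorem caseII_small (m : MinCfg ρ π) (hp : (3 : ℕ) ≠ p) (hn : finrank (KK p) V ≤ 7) :
    NT2 ρ π := by
  classical
  haveI := m.fd
  haveI : Fact (Nat.Prime 3) := ⟨Nat.prime_three⟩
  obtain ⟨hq, ψ, hψ⟩ := exists_psi p 3 hp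
  by_contra h
  obtain ⟨y, hy, a, b, c, ha, hb, hQ⟩ := m.not_NT2 hp hψ h
  have hcl := fun a' b' c' (ht : nz a b c = nz a' b' c') =>
    m.Q3_clos hy hQ (a' := a') (b' := b') (c' := c') ht
  by_cases hc : c = 0
  · have h1 := Q3_card hψ (wts 1) (fun t ht => hcl _ _ _ (by
        rw [mem_wts.mp ht, nz, if_neg ha, if_neg hb, if_pos hc]))
    rw [wts1] at h1
    omega
  · have h1 := Q3_card hψ (wts 0) (fun t ht => hcl _ _ _ (by
        rw [mem_wts.mp ht, nz, if_neg ha, if_neg hb, if_neg hc]))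
    rw [wts0] at h1
    omega

end MinCfg

/-- common eigenvector in an invariant subspace -/
theorem exists_common_in {K W ι : Type*} [Field K] [IsAlgClosed K] [AddCommGroup W] [Module K W]
    [FiniteDimensional K W] (f : ι → Module.End K W) (hf : ∀ i j, f i * f j = f j * f i)
    (U : Submodule K W) (hU0 : U ≠ ⊥) (hU : ∀ i, ∀ w ∈ U, f i w ∈ U) :
    ∃ v ∈ U, v ≠ 0 ∧ ∀ i, ∃ c : K, f i v = c • v := by
  haveI : Nontrivial U := Submodule.nontrivial_iff_ne_bot.mpr hU0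
  obtain ⟨v, hv0, hv⟩ := exists_common (V := U) (fun i => (f i).restrict (hU i)) (by
    intro i j
    ext u
    exact congrArg (fun g : Module.End K W => g u) (hf i j))
  refine ⟨v, v.2, fun e => hv0 (Subtype.ext e), fun i => ?_⟩
  obtain ⟨c, hc⟩ := hv i
  exact ⟨c, congrArg Subtype.val hc⟩

theorem eig_inv {D : H} {w : V} (hw : w ≠ 0) {l : KK p} (h : ρ D w = l • w) :
    ρ D⁻¹ w = l⁻¹ • w := by
  have hl : l ≠ 0 := by
    rintro rfl
    rw [zero_smul] at h
    exact rho_ne D hw h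
  have h1 := rho_inv (ρ := ρ) D w
  rw [h, map_smul] at h1
  have h2 := congrArg (fun u => l⁻¹ • u) h1
  simp only [smul_smul, inv_mul_cancel₀ hl, one_smul] at h2
  exact h2

theorem eig_ne {D : H} {w : V} (hw : w ≠ 0) {l : KK p} (h : ρ D w = l • w) : l ≠ 0 := by
  rintro rfl
  rw [zero_smul] at h
  exact rho_ne D hw h

/-- four distinct points -/
def D4 (a b c d : Fin r) : Prop := a ≠ b ∧ a ≠ c ∧ a ≠ d ∧ b ≠ c ∧ b ≠ d ∧ c ≠ d

theorem D4.inj {a b c d : Fin r} (h : D4 a b c d) :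
    Function.Injective (![a, b, c, d] : Fin 4 → Fin r) := by
  obtain ⟨h1, h2, h3, h4, h5, h6⟩ := h
  intro i j hij
  fin_cases i <;> fin_cases j <;> first | rfl | (exfalso; simp at hij; simp_all [eq_comm])

/-- the four-group argument -/
theorem MinCfg.v4 (m : MinCfg ρ π) (hp2 : p ≠ 2) {a b c d : Fin r} (h4 : D4 a b c d) (D : H)
    (hD : L π a b c * D = D * L π a b c) (hD' : L π a b d * D = D * L π a b d)
    {J : Type} [Fintype J] [hJ : Nonempty J] (δ : J → KK p) (hδ : Function.Injective δ)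
    (w : J → V) (hw0 : ∀ j, w j ≠ 0) (hw : ∀ j, ρ D (w j) = δ j • w j)
    (h1 : ∀ X : H, X * D = D * X → ∀ j, ∃ l : KK p, ρ X (w j) = l • w j) :
    Fintype.card J + 3 ≤ finrank (KK p) V := by
  classical
  haveI := m.fd
  haveI : CharP (KK p) p := inferInstance
  obtain ⟨j₀⟩ := hJ
  have hinj := h4.inj
  have d1 : D3 a b c := ⟨h4.1, h4.2.2.2.1, h4.2.1⟩
  have d2 : D3 a b d := ⟨h4.1, h4.2.2.2.2.1, h4.2.2.1⟩
  set F := L π a b c with hF
  set F' := L π a b d with hF'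
  let y : Fin 4 → Fin r := ![a, b, c, d]
  let s : Equiv.Perm (Fin 4) := tc 0 1 2
  let s' : Equiv.Perm (Fin 4) := tc 0 1 3
  let τ : Equiv.Perm (Fin 4) := s * s' * s⁻¹ * s'⁻¹
  have sF : sg π F = vf y hinj s := by
    rw [hF, m.L_sg d1, vf_tc _ _ (by decide) (by decide) (by decide)]; rfl
  have sF' : sg π F' = vf y hinj s' := by
    rw [hF', m.L_sg d2, vf_tc _ _ (by decide) (by decide) (by decide)]; rfl
  obtain ⟨t₁, ht₁⟩ : ∃ t, t = F * F' * F⁻¹ * F'⁻¹ := ⟨_, rfl⟩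
  obtain ⟨t₂, ht₂⟩ : ∃ t, t = F * t₁ * F⁻¹ := ⟨_, rfl⟩
  obtain ⟨t₃, ht₃⟩ : ∃ t, t = F * t₂ * F⁻¹ := ⟨_, rfl⟩
  have s1 : sg π t₁ = vf y hinj τ := by
    rw [ht₁, map_mul, map_mul, map_mul, map_inv, map_inv, sF, sF', ← vf_inv, ← vf_inv, ← vf_mul,
      ← vf_mul, ← vf_mul]
  have s2 : sg π t₂ = vf y hinj (s * τ * s⁻¹) := by
    rw [ht₂, map_mul, map_mul, map_inv, sF, s1, ← vf_inv, ← vf_mul, ← vf_mul]
  have s3 : sg π t₃ = vf y hinj (s * (s * τ * s⁻¹) * s⁻¹) := by
    rw [ht₃, map_mul, map_mul, map_inv, sF, s2, ← vf_inv, ← vf_mul, ← vf_mul]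
  -- all fix the vectors `w j`
  have g1 : ∀ j, ρ t₁ (w j) = w j := by
    intro j
    obtain ⟨l, hl⟩ := h1 F hD j
    obtain ⟨l', hl'⟩ := h1 F' hD' j
    have e1 := eig_inv (hw0 j) hl
    have e2 := eig_inv (hw0 j) hl'
    rw [ht₁, rho_mul, rho_mul, rho_mul, e2, map_smul, e1, smul_smul, map_smul, hl', smul_smul,
      map_smul, hl, smul_smul]
    have n1 := eig_ne (hw0 j) hl
    have n2 := eig_ne (hw0 j) hl'
    have : l'⁻¹ * l⁻¹ * l' * l = 1 := by field_simp
    rw [this, one_smul]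
  have gc : ∀ t, (∀ j, ρ t (w j) = w j) → ∀ j, ρ (F * t * F⁻¹) (w j) = w j := by
    intro t ht j
    obtain ⟨l, hl⟩ := h1 F hD j
    have e1 := eig_inv (hw0 j) hl
    rw [rho_mul, rho_mul, e1, map_smul, ht, map_smul, hl, smul_smul,
      inv_mul_cancel₀ (eig_ne (hw0 j) hl), one_smul]
  have g2 : ∀ j, ρ t₂ (w j) = w j := by rw [ht₂]; exact gc t₁ g1
  have g3 : ∀ j, ρ t₃ (w j) = w j := by rw [ht₃]; exact gc t₂ g2
  have gm : ∀ x y, (∀ j, ρ x (w j) = w j) → (∀ j, ρ y (w j) = w j) → ∀ j, ρ (x * y) (w j) = w j := by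
    intro x y hx hy j
    rw [rho_mul, hy, hx]
  have gone : ∀ j, ρ (1 : H) (w j) = w j := fun j => by rw [map_one]; rfl
  -- relations
  have r1 : t₁ * t₁ = 1 := m.eq_of (by
    rw [map_mul, s1, ← vf_mul, map_one]
    have : τ * τ = 1 := by decide
    rw [this, vf_one]) (hw0 j₀) (gm _ _ g1 g1 j₀) (gone j₀)
  have r2 : t₂ * t₂ = 1 := by rw [ht₂]; calc
    F * t₁ * F⁻¹ * (F * t₁ * F⁻¹) = F * (t₁ * t₁) * F⁻¹ := by group
    _ = 1 := by rw [r1]; group
  have r3 : t₃ = t₁ * t₂ := m.eq_of (by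
    rw [map_mul, s3, s1, s2, ← vf_mul]
    have : s * (s * τ * s⁻¹) * s⁻¹ = τ * (s * τ * s⁻¹) := by decide
    rw [this]) (hw0 j₀) (g3 j₀) (gm _ _ g1 g2 j₀)
  have r4 : t₁ * t₂ = t₂ * t₁ := m.eq_of (by
    rw [map_mul, map_mul, s1, s2, ← vf_mul, ← vf_mul]
    have : τ * (s * τ * s⁻¹) = (s * τ * s⁻¹) * τ := by decide
    rw [this]) (hw0 j₀) (gm _ _ g1 g2 j₀) (gm _ _ g2 g1 j₀)
  have r5 : F * t₃ * F⁻¹ = t₁ := m.eq_of (by
    rw [map_mul, map_mul, map_inv, s3, s1, sF, ← vf_inv, ← vf_mul, ← vf_mul]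
    have : s * (s * (s * τ * s⁻¹) * s⁻¹) * s⁻¹ = τ := by decide
    rw [this]) (hw0 j₀) (gc t₃ g3 j₀) (g1 j₀)
  -- everything commutes with `D`
  have cF : Commute F D := hD
  have cF' : Commute F' D := hD'
  have ct₁ : Commute t₁ D := by
    rw [ht₁]
    exact ((cF.mul_left cF').mul_left cF.inv_left).mul_left cF'.inv_left
  have ct₂ : Commute t₂ D := by
    rw [ht₂]
    exact (cF.mul_left ct₁).mul_left cF.inv_left
  have two : (2 : KK p) ≠ 0 := by
    intro e
    have : ((2 : ℕ) : KK p) = 0 := by exact_mod_cast e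
    rw [CharP.cast_eq_zero_iff (KK p) p] at this
    have hpp : p.Prime := Fact.out
    exact hp2 ((Nat.prime_dvd_prime_iff_eq hpp Nat.prime_two).mp this)
  have hneg : (-1 : KK p) ≠ 1 := by
    intro e
    apply two
    have : (1 : KK p) + 1 = 0 := by nth_rewrite 1 [← e]; ring
    rw [← this]; norm_num
  -- a `-1`-eigenvector of `t₁`
  let U : Submodule (KK p) V := Module.End.eigenspace (ρ t₁) (-1)
  have hU0 : U ≠ ⊥ := by
    obtain ⟨u, hu⟩ : ∃ u, ρ t₁ u ≠ u := by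
      by_contra hcon
      push Not at hcon
      have h2 : t₁ = 1 := by
        apply m.inj
        rw [map_one]
        ext v
        exact hcon v
      have h3 : vf y hinj τ = 1 := by rw [← s1, h2, map_one]
      have h5 : y (τ 0) = y 0 := by
        rw [← vf_apply y hinj τ 0, h3]; rfl
      exact absurd (hinj h5) (by decide)
    refine (Submodule.ne_bot_iff _).mpr ⟨ρ t₁ u - u, ?_, sub_ne_zero.mpr hu⟩
    rw [Module.End.mem_eigenspace_iff, map_sub, ← rho_mul, r1, map_one]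
    rw [neg_smul, one_smul, neg_sub]
    rfl
  obtain ⟨v, hvU, hv0, hv⟩ := exists_common_in (![ρ D, ρ t₂] : Fin 2 → Module.End (KK p) V) (by
      have e1 : ρ D * ρ t₂ = ρ t₂ * ρ D := by rw [← map_mul, ← map_mul, ct₂.eq]
      intro i j
      fin_cases i <;> fin_cases j
      · rfl
      · exact e1
      · exact e1.symm
      · rfl) U hU0 (by
      intro i u hu
      have hu' : ρ t₁ u = (-1 : KK p) • u := Module.End.mem_eigenspace_iff.mp hu
      fin_cases i
      · show ρ D u ∈ U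
        rw [Module.End.mem_eigenspace_iff, ← rho_mul, ct₁.eq, rho_mul, hu', map_smul]
      · show ρ t₂ u ∈ U
        rw [Module.End.mem_eigenspace_iff, ← rho_mul, r4, rho_mul, hu', map_smul])
  have hv1 : ρ t₁ v = (-1 : KK p) • v := Module.End.mem_eigenspace_iff.mp hvU
  obtain ⟨η, hη⟩ := hv 0
  obtain ⟨ε, hε⟩ := hv 1
  have hη' : ρ D v = η • v := hη
  have hε' : ρ t₂ v = ε • v := hε
  have hε2 : ε = 1 ∨ ε = -1 := by
    have h2 : ρ (t₂ * t₂) v = (ε * ε) • v := by rw [rho_mul, hε', map_smul, hε', smul_smul]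
    rw [r2, map_one] at h2
    have h3 : (ε * ε - 1) • v = 0 := by rw [sub_smul, one_smul, sub_eq_zero]; exact h2.symm
    have h5 := (smul_eq_zero.mp h3).resolve_right hv0
    have h6 : (ε - 1) * (ε + 1) = 0 := by rw [← h5]; ring
    rcases mul_eq_zero.mp h6 with h | h
    · left; exact sub_eq_zero.mp h
    · right; exact eq_neg_of_add_eq_zero_left h
  have hv3 : ρ t₃ v = (-ε) • v := by
    rw [r3, rho_mul, hε', map_smul, hv1, smul_smul]
    congr 1; ring
  -- the three vectors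
  have m1 : ∀ {x x' : H} {u : V} {l : KK p}, F * x * F⁻¹ = x' → ρ x u = l • u →
      ρ x' (ρ F u) = l • ρ F u := fun h h' => eig_conj h h'
  have a1 : ρ t₁ (ρ F v) = (-ε) • ρ F v := m1 r5 hv3
  have a2 : ρ t₂ (ρ F v) = (-1 : KK p) • ρ F v := m1 ht₂.symm hv1
  have a3 : ρ t₃ (ρ F v) = ε • ρ F v := m1 ht₃.symm hε'
  have aD : ρ D (ρ F v) = η • ρ F v := by rw [← rho_mul, ← cF.eq, rho_mul, hη', map_smul]
  have b1 : ρ t₁ (ρ F (ρ F v)) = ε • ρ F (ρ F v) := m1 r5 a3
  have b2 : ρ t₂ (ρ F (ρ F v)) = (-ε) • ρ F (ρ F v) := m1 ht₂.symm a1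
  have bD : ρ D (ρ F (ρ F v)) = η • ρ F (ρ F v) := by
    rw [← rho_mul, ← cF.eq, rho_mul, aD, map_smul]
  let f : Fin 3 → Module.End (KK p) V := ![ρ D, ρ t₁, ρ t₂]
  let χ : J ⊕ Fin 3 → Fin 3 → KK p := fun t => Sum.elim (fun j => ![δ j, 1, 1])
    (fun i => ![![η, -1, ε], ![η, -ε, -1], ![η, ε, -ε]] i) t
  let vv : J ⊕ Fin 3 → V := fun t => Sum.elim w ![v, ρ F v, ρ F (ρ F v)] t
  have hχ : Function.Injective χ := by
    have hl : ∀ (j : J) (i : Fin 3), χ (Sum.inl j) ≠ χ (Sum.inr i) := by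
      intro j i e
      have e1 := congrFun e 1
      have e2 := congrFun e 2
      fin_cases i
      · exact hneg e1.symm
      · exact hneg e2.symm
      · have q1 : (1 : KK p) = ε := e1
        have q2 : (1 : KK p) = -ε := e2
        rw [← q1] at q2
        exact hneg q2.symm
    have hr : ∀ (i j : Fin 3), χ (Sum.inr i) = χ (Sum.inr j) → i = j := by
      intro i j e
      have e1 := congrFun e 1
      have e2 := congrFun e 2
      have key : ∀ i j : Fin 3, i < j → χ (Sum.inr i) = χ (Sum.inr j) → False := by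
        intro i j hij e
        have e1 := congrFun e 1
        have e2 := congrFun e 2
        fin_cases i <;> fin_cases j <;> first | (exfalso; revert hij; decide) | skip
        · have q1 : (-1 : KK p) = -ε := e1
          have q2 : ε = (-1 : KK p) := e2
          rw [q2, neg_neg] at q1
          exact hneg q1
        · have q1 : (-1 : KK p) = ε := e1
          have q2 : ε = -ε := e2
          rw [← q1, neg_neg] at q2
          exact hneg q2
        · have q1 : -ε = ε := e1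
          have q2 : (-1 : KK p) = -ε := e2
          rw [← q2] at q1
          have : ε = 1 := by
            have := congrArg Neg.neg q2
            rw [neg_neg, neg_neg] at this
            exact this.symm
          rw [this] at q1
          exact hneg q1
      rcases lt_trichotomy i j with h | h | h
      · exact (key i j h e).elim
      · exact h
      · exact (key j i h e.symm).elim
    intro s t hst
    rcases s with s | s <;> rcases t with t | t
    · exact congrArg Sum.inl (hδ (congrFun hst 0))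
    · exact (hl s t hst).elim
    · exact (hl t s hst.symm).elim
    · exact congrArg Sum.inr (hr s t hst)
  have hfin := card_le_of_weights f χ hχ vv (by
    intro t
    rcases t with t | t
    · exact hw0 t
    · fin_cases t
      · exact hv0
      · exact rho_ne F hv0
      · exact rho_ne F (rho_ne F hv0)) (by
    intro t i
    rcases t with t | t
    · fin_cases i
      · exact hw t
      · show ρ t₁ (w t) = (1 : KK p) • w t
        rw [g1, one_smul]
      · show ρ t₂ (w t) = (1 : KK p) • w t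
        rw [g2, one_smul]
    · fin_cases t <;> fin_cases i
      · exact hη'
      · exact hv1
      · exact hε'
      · exact aD
      · exact a1
      · exact a2
      · exact bD
      · exact b1
      · exact b2)
  have hc := hfin.2
  rw [Nat.card_eq_fintype_card, Fintype.card_sum, Fintype.card_fin] at hc
  exact hc

end Cfsg.Agent.AltSec
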