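import Cfsg.Agent.Lib.AltSecN

/-! Alternating sections of linear groups (S2653), part O: the exceptional small cases. -/

set_option autoImplicit false

namespace Cfsg.Agent.AltSec

open Module Equiv.Perm

variable {p : ℕ} [Fact p.Prime] {r : ℕ} {H : Type} [Group H] {V : Type}
    [AddCommGroup V] [Module (KK p) V]
    {ρ : H →* Module.End (KK p) V} {π : H →* alternatingGroup (Fin r)}

theorem card7 : Fintype.card {a : ZMod 7 // a ≠ 0} = 6 := by decide

theorem key7 : ∀ b t : ZMod 7, ((5 : ℕ) : ZMod 7) * (2 * b + t) = 3 * b + 5 * t := by decide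

theorem rot7sq : (tc 1 2 4 * tc 3 6 5) * finRotate 7 * (tc 1 2 4 * tc 3 6 5)⁻¹ =
    (finRotate 7) ^ 2 := by decide

theorem rot7pow : (finRotate 7) ^ 7 = 1 := by decide

theorem rot7sign : sign (finRotate 7) = 1 := by
  rw [sign_finRotate]
  decide

theorem rot7cu : (Equiv.swap 1 3 * Equiv.swap 3 2 * Equiv.swap 2 6 * Equiv.swap 6 4 *
    Equiv.swap 4 5) * finRotate 7 * (Equiv.swap 1 3 * Equiv.swap 3 2 * Equiv.swap 2 6 *
    Equiv.swap 6 4 * Equiv.swap 4 5)⁻¹ = (finRotate 7) ^ 3 := by decide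

theorem exists_psi' (p : ℕ) [Fact p.Prime] (q : ℕ) [hq : Fact q.Prime] (h : q ≠ p) :
    ((q : ℕ) : KK p) ≠ 0 ∧ ∃ ψ : AddChar (ZMod q) (KK p), ψ.IsPrimitive ∧
      ∀ μ : KK p, μ ^ q = 1 → ∃ b, μ = ψ b := by
  haveI : NeZero q := ⟨hq.out.ne_zero⟩
  have h1 : ((q : ℕ) : KK p) ≠ 0 := by
    intro e
    rw [CharP.cast_eq_zero_iff (KK p) p] at e
    have hp : p.Prime := Fact.out
    exact h ((Nat.prime_dvd_prime_iff_eq hp hq.out).mp e).symm
  haveI : NeZero ((q : ℕ) : KK p) := ⟨h1⟩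
  obtain ⟨ζ, hζ⟩ := HasEnoughRootsOfUnity.exists_primitiveRoot (KK p) q
  refine ⟨h1, _, AddChar.zmodChar_primitive_of_primitive_root q hζ, ?_⟩
  intro μ hμ
  obtain ⟨i, hi, e⟩ := hζ.eq_pow_of_pow_eq_one hμ
  refine ⟨(i : ZMod q), ?_⟩
  rw [AddChar.zmodChar_apply', e]

namespace MinCfg

theorem exists_isL' (m : MinCfg ρ π) {c g : Equiv.Perm (Fin r)} (hc : sign c = 1)
    (hg : sign g = 1) (h : g * c * g⁻¹ = c ^ 2) : ∃ C, IsL π c C := by
  obtain ⟨G, hG⟩ := m.sg_surj g hg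
  obtain ⟨D, hD⟩ := m.sg_surj c hc
  have hz : sg π (G * D * G⁻¹ * (D ^ 2)⁻¹) = 1 := by
    rw [map_mul, map_mul, map_mul, map_inv, map_inv, map_pow, hD, hG, h, mul_inv_cancel]
  set z := G * D * G⁻¹ * (D ^ 2)⁻¹ with hzdef
  have hcen := m.cen hz
  have h5 : G * D * G⁻¹ = z * D ^ 2 := by rw [hzdef]; group
  refine ⟨z * D, by rw [map_mul, hz, one_mul, hD], G, ?_⟩
  calc G * (z * D) * G⁻¹ = (G * z) * D * G⁻¹ := by group
    _ = z * (G * D * G⁻¹) := by rw [← hcen G]; group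
    _ = z * (z * D) * D := by rw [h5, pow_two]; group
    _ = z * (D * z) * D := by rw [hcen D]
    _ = (z * D) ^ 2 := by rw [pow_two]; group

/-- degree nine in characteristic three -/
theorem caseIII (m : MinCfg ρ π) (hp : p = 3) (hn : finrank (KK p) V ≤ 6) : False := by
  classical
  haveI := m.fd
  haveI : Fact (Nat.Prime 5) := ⟨Nat.prime_five⟩
  have hp5 : (5 : ℕ) ≠ p := by omega
  obtain ⟨hq, ψ, hψ⟩ := exists_psi p 5 hp5
  let y : Fin 9 → Fin r := Fin.castLE m.hr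
  have hy : Function.Injective y := Fin.castLE_injective m.hr
  have h4 : D4 (y 0) (y 1) (y 2) (y 3) :=
    ⟨hy.ne (by decide), hy.ne (by decide), hy.ne (by decide), hy.ne (by decide), hy.ne (by decide),
      hy.ne (by decide)⟩
  have h5 : D5 (y 4) (y 5) (y 6) (y 7) (y 8) :=
    ⟨hy.ne (by decide), hy.ne (by decide), hy.ne (by decide), hy.ne (by decide), hy.ne (by decide),
      hy.ne (by decide), hy.ne (by decide), hy.ne (by decide), hy.ne (by decide), hy.ne (by decide)⟩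
  obtain ⟨δ, hδ, hall0, hδ4⟩ := m.five hp5 hψ h5.good h5.order
  have hall : ∀ a : ZMod 5, a ≠ 0 → finrank (KK p) (EE ρ ψ (M π (y 4) (y 5) (y 6) (y 7) (y 8)) a)
    = δ := hall0
  have hδ1 : δ = 1 := by omega
  have hex : ∀ a : {a : ZMod 5 // a ≠ 0}, ∃ w ∈ EE ρ ψ (M π (y 4) (y 5) (y 6) (y 7) (y 8)) a.1,
      w ≠ 0 := fun a => exists_of_finrank (by rw [hall a.1 a.2]; exact hδ)
  choose w hw hw0 using hex
  have hnot : ∀ i : Fin 9, i < 4 → y i ∉ ({y 4, y 5, y 6, y 7, y 8} : Finset (Fin r)) := by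
    intro i hi
    simp only [Finset.mem_insert, Finset.mem_singleton, hy.eq_iff]
    revert i
    decide
  have d1 : D3 (y 0) (y 1) (y 2) := ⟨h4.1, h4.2.2.2.1, h4.2.1⟩
  have d2 : D3 (y 0) (y 1) (y 3) := ⟨h4.1, h4.2.2.2.2.1, h4.2.2.1⟩
  have key := m.v4 (by omega) h4 (M π (y 4) (y 5) (y 6) (y 7) (y 8))
    (m.M_comm h5 (m.L_mem_fx d1 (hnot 0 (by decide)) (hnot 1 (by decide)) (hnot 2 (by decide))))
    (m.M_comm h5 (m.L_mem_fx d2 (hnot 0 (by decide)) (hnot 1 (by decide)) (hnot 3 (by decide))))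
    (J := {a : ZMod 5 // a ≠ 0}) (hJ := ⟨⟨1, one_ne_zero⟩⟩) (fun a => ψ a.1)
    (fun a b hab => Subtype.ext (psi_inj hψ hab)) w hw0 (fun a => mem_EE.mp (hw a)) (by
      intro X hX a
      obtain ⟨l, hl⟩ := scal_of_one (W := EE ρ ψ (M π (y 4) (y 5) (y 6) (y 7) (y 8)) a.1)
        (T := ρ X) (by rw [hall a.1 a.2]; omega) (by
          intro u hu
          rw [mem_EE] at hu ⊢
          rw [← rho_mul, ← hX, rho_mul, hu, map_smul])
      exact ⟨l, hl _ (hw a)⟩)
  have h6 : Fintype.card {a : ZMod 5 // a ≠ 0} = 4 :=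
    (Fintype.card_congr (Equiv.refl _)).trans card5
  rw [h6] at key
  omega

/-- the degree-eight obstruction: a seven-cycle and a four-group -/
theorem seven (m : MinCfg ρ π) (hr11 : 11 ≤ r) (hp7 : (7 : ℕ) ≠ p) (hp2 : p ≠ 2)
    (hn : finrank (KK p) V ≤ 8) : False := by
  classical
  haveI := m.fd
  haveI := m.nontriv
  obtain ⟨hq, ψ, hψ, hsurj⟩ := @exists_psi' p _ 7 ⟨by norm_num⟩ hp7
  let z : Fin 11 → Fin r := Fin.castLE hr11
  have hz : Function.Injective z := Fin.castLE_injective hr11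
  let y : Fin 7 → Fin r := fun i => z (Fin.natAdd 4 i)
  have hy : Function.Injective y := hz.comp (Fin.natAdd_injective 7 4)
  have hyz : ∀ i : Fin 7, ∀ j : Fin 11, j < 4 → y i ≠ z j := by
    intro i j hj e
    have e1 := hz e
    clear e
    revert e1 hj
    revert i j
    decide
  let c : Equiv.Perm (Fin r) := vf y hy (finRotate 7)
  have hcs : sign c = 1 := by
    rw [vf_sign]
    exact rot7sign
  have h2 : vf y hy (tc 1 2 4 * tc 3 6 5) * c * (vf y hy (tc 1 2 4 * tc 3 6 5))⁻¹ = c ^ 2 := by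
    rw [← vf_inv, ← vf_mul, ← vf_mul, ← vf_pow, rot7sq]
  obtain ⟨E, hE⟩ := m.exists_isL' hcs (by
    rw [vf_sign, map_mul, tc_sign (by decide) (by decide), tc_sign (by decide) (by decide)]
    rfl) h2
  have hE1 : sg π E = c := hE.1
  have hc7 : c ^ 7 = 1 := by
    rw [← vf_pow]
    rw [rot7pow, vf_one]
  have hE7 : E ^ 7 = 1 := hE.pow_eq_one m hc7
  have hcz : ∀ j : Fin 11, j < 4 → c (z j) = z j := fun j hj =>
    vf_out y hy _ _ fun i => hyz i j hj
  -- commuting with the three-cycles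
  have h4 : D4 (z 0) (z 1) (z 2) (z 3) :=
    ⟨hz.ne (by decide), hz.ne (by decide), hz.ne (by decide), hz.ne (by decide), hz.ne (by decide),
      hz.ne (by decide)⟩
  have d1 : D3 (z 0) (z 1) (z 2) := ⟨h4.1, h4.2.2.2.1, h4.2.1⟩
  have d2 : D3 (z 0) (z 1) (z 3) := ⟨h4.1, h4.2.2.2.2.1, h4.2.2.1⟩
  have k1 : E * L π (z 0) (z 1) (z 2) = L π (z 0) (z 1) (z 2) * E :=
    m.comm_three hE1 hE7 (Or.inl (by decide)) d1.1 d1.2.1 d1.2.2 (hcz 0 (by decide))
      (hcz 1 (by decide)) (hcz 2 (by decide)) (m.L_sg d1)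
  have k2 : E * L π (z 0) (z 1) (z 3) = L π (z 0) (z 1) (z 3) * E :=
    m.comm_three hE1 hE7 (Or.inl (by decide)) d2.1 d2.2.1 d2.2.2 (hcz 0 (by decide))
      (hcz 1 (by decide)) (hcz 3 (by decide)) (m.L_sg d2)
  -- the element of order six in the normalizer
  let τ : Equiv.Perm (Fin 7) := Equiv.swap 1 3 * Equiv.swap 3 2 * Equiv.swap 2 6 * Equiv.swap 6 4 *
    Equiv.swap 4 5
  have hτ : τ * finRotate 7 * τ⁻¹ = (finRotate 7) ^ 3 := rot7cu
  have hτs : sign τ = -1 := by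
    simp only [τ, map_mul]
    rw [sign_swap (by decide), sign_swap (by decide), sign_swap (by decide),
      sign_swap (by decide), sign_swap (by decide)]
    rfl
  obtain ⟨G, hG⟩ := m.sg_surj (vf y hy τ * Equiv.swap (z 0) (z 1)) (by
    rw [map_mul, vf_sign, hτs, sign_swap (hz.ne (by decide))]; rfl)
  have hGc : sg π G * c * (sg π G)⁻¹ = c ^ 3 := by
    have e1 : Equiv.swap (z 0) (z 1) * c * (Equiv.swap (z 0) (z 1))⁻¹ = c := by
      have e2 := Equiv.mul_swap_eq_swap_mul c (z 0) (z 1)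
      rw [hcz 0 (by decide), hcz 1 (by decide)] at e2
      rw [← e2]; group
    rw [hG]
    calc vf y hy τ * Equiv.swap (z 0) (z 1) * c * (vf y hy τ * Equiv.swap (z 0) (z 1))⁻¹
        = vf y hy τ * (Equiv.swap (z 0) (z 1) * c * (Equiv.swap (z 0) (z 1))⁻¹) * (vf y hy τ)⁻¹ := by
          group
      _ = c ^ 3 := by
          rw [e1, ← vf_inv, ← vf_mul, ← vf_mul, hτ, vf_pow]
  obtain ⟨u, hu⟩ : ∃ u, u = G * E * G⁻¹ * (E ^ 3)⁻¹ := ⟨_, rfl⟩
  have hu1 : sg π u = 1 := by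
    rw [hu, map_mul, map_mul, map_mul, map_inv, map_inv, map_pow, hE1, hGc, mul_inv_cancel]
  have huE : G * E * G⁻¹ = u * E ^ 3 := by rw [hu]; group
  obtain ⟨μ, hμ⟩ := m.scal hu1
  have hu7 : u ^ 7 = 1 := by
    have e1 : (G * E * G⁻¹) ^ 7 = 1 := by rw [conj_pow, hE7]; group
    have hcm : Commute u (E ^ 3) := m.cen hu1 _
    rw [huE, hcm.mul_pow, ← pow_mul, show 3 * 7 = 7 * 3 by norm_num, pow_mul, hE7, one_pow,
      mul_one] at e1
    exact e1
  have hμ7 : μ ^ 7 = 1 := by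
    have e1 : ρ (u ^ 7) = (μ ^ 7) • 1 := by
      rw [map_pow, hμ, smul_pow, one_pow]
    rw [hu7, map_one] at e1
    obtain ⟨v, hv⟩ := exists_ne (0 : V)
    have e2 := congrArg (fun g : Module.End (KK p) V => g v) e1
    have e3 : v = μ ^ 7 • v := e2
    have e4 : (μ ^ 7 - 1) • v = 0 := by rw [sub_smul, one_smul, ← e3, sub_self]
    exact sub_eq_zero.mp ((smul_eq_zero.mp e4).resolve_right hv)
  have hμ0 : μ ≠ 0 := by
    rintro rfl
    norm_num at hμ7
  obtain ⟨b, hb⟩ := hsurj μ hμ7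
  -- transport of eigenvectors
  have htr : ∀ t : ZMod 7, ∀ v ∈ EE ρ ψ E (3 * b + t), ρ G v ∈ EE ρ ψ E (3 * b + 5 * t) := by
    intro t v hv
    rw [mem_EE] at hv ⊢
    have e1 := eig_conj (ρ := ρ) (h := G) rfl hv
    rw [huE, rho_mul, hμ] at e1
    have e2 : μ • ρ (E ^ 3) (ρ G v) = ψ (3 * b + t) • ρ G v := e1
    have e3 : ρ (E ^ 3) (ρ G v) = (μ⁻¹ * ψ (3 * b + t)) • ρ G v := by
      rw [mul_smul, ← e2, smul_smul, inv_mul_cancel₀ hμ0, one_smul]
    have e4 := eig_pow e3 5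
    rw [← pow_mul, show 3 * 5 = 7 * 2 + 1 by norm_num, pow_succ, pow_mul, hE7, one_pow,
      one_mul] at e4
    rw [e4]
    congr 1
    have e5 : μ⁻¹ * ψ (3 * b + t) = ψ (2 * b + t) := by
      rw [hb, ← AddChar.map_neg_eq_inv, ← AddChar.map_add_eq_mul]
      congr 1
      ring
    rw [e5, ← AddChar.map_nsmul_eq_pow, nsmul_eq_mul]
    rw [key7]
  have hle : ∀ t : ZMod 7, finrank (KK p) (EE ρ ψ E (3 * b + t)) ≤
      finrank (KK p) (EE ρ ψ E (3 * b + 5 * t)) := by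
    intro t
    let f : EE ρ ψ E (3 * b + t) →ₗ[KK p] EE ρ ψ E (3 * b + 5 * t) :=
      (ρ G).restrict fun v hv => htr t v hv
    refine LinearMap.finrank_le_finrank_of_injective (f := f) ?_
    intro u v huv
    apply Subtype.ext
    exact rho_inj (ρ := ρ) G (congrArg Subtype.val huv)
  obtain ⟨e, he⟩ : ∃ e : ZMod 7 → ℕ, e = fun t => finrank (KK p) (EE ρ ψ E (3 * b + t)) :=
    ⟨_, rfl⟩
  have he' : ∀ t, e t ≤ e (5 * t) := by rw [he]; exact hle
  have hall : ∀ t : ZMod 7, t ≠ 0 → e t = e 1 := by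
    have q1 := he' 1
    have q2 := he' 2
    have q3 := he' 3
    have q4 := he' 4
    have q5 := he' 5
    have q6 := he' 6
    rw [show (5 : ZMod 7) * 1 = 5 by decide] at q1
    rw [show (5 : ZMod 7) * 2 = 3 by decide] at q2
    rw [show (5 : ZMod 7) * 3 = 1 by decide] at q3
    rw [show (5 : ZMod 7) * 4 = 6 by decide] at q4
    rw [show (5 : ZMod 7) * 5 = 4 by decide] at q5
    rw [show (5 : ZMod 7) * 6 = 2 by decide] at q6
    intro t ht
    fin_cases t
    · exact absurd rfl ht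
    · rfl
    · show e 2 = _
      omega
    · show e 3 = _
      omega
    · show e 4 = _
      omega
    · show e 5 = _
      omega
    · show e 6 = _
      omega
  have hsum := sum_finrank_le (fun _ : Unit => ρ E)
      (fun (a : {a : ZMod 7 // a ≠ 0}) (_ : Unit) => ψ (3 * b + a.1))
      (fun s t hst => Subtype.ext (add_left_cancel (psi_inj hψ (congrFun hst ()))))
      (fun a => EE ρ ψ E (3 * b + a.1)) (fun a w hw _ => mem_EE.mp hw) ⊤ (fun _ => le_top)
  have h6 : Fintype.card {a : ZMod 7 // a ≠ 0} = 6 :=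
    (Fintype.card_congr (Equiv.refl _)).trans card7
  have hal' : ∀ a : {a : ZMod 7 // a ≠ 0}, finrank (KK p) (EE ρ ψ E (3 * b + a.1)) = e 1 := by
    intro a
    have := hall a.1 a.2
    rw [he] at this ⊢
    exact this
  rw [finrank_top, Finset.sum_congr rfl (fun a _ => hal' a), Finset.sum_const, Finset.card_univ,
    h6, smul_eq_mul] at hsum
  have hpos : 1 ≤ e 1 := by
    by_contra hcon
    have hcon' : e 1 = 0 := by omega
    have hbot : ∀ a : ZMod 7, a ≠ 3 * b → EE ρ ψ E a = ⊥ := by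
      intro a ha
      have e1 : a = 3 * b + (a - 3 * b) := by ring
      have e2 := hal' ⟨a - 3 * b, sub_ne_zero.mpr ha⟩
      rw [hcon'] at e2
      rw [e1]
      exact Submodule.finrank_eq_zero.mp e2
    have hsc : ρ E = ψ (3 * b) • 1 := by
      ext v
      obtain ⟨f, f1, f2, -⟩ := decomp hq hψ (ρ E) (by rw [← map_pow, hE7, map_one]) v
      have e1 : v = f (3 * b) := by
        rw [← f2]
        refine Finset.sum_eq_single (3 * b) (fun a _ ha => ?_)
          (fun h => absurd (Finset.mem_univ _) h)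
        have : f a ∈ EE ρ ψ E a := mem_EE.mpr (f1 a)
        rw [hbot a ha, Submodule.mem_bot] at this
        exact this
      have e2 : ρ E v = ψ (3 * b) • v := by rw [e1]; exact f1 _
      exact e2
    have hcen : E ∈ Subgroup.center H := (m.mem_center_iff E).mpr ⟨_, hsc⟩
    have d3 : D3 (y 0) (z 0) (z 1) := ⟨hyz 0 0 (by decide), h4.1, hyz 0 1 (by decide)⟩
    have hcm := (Subgroup.mem_center_iff.mp hcen) (L π (y 0) (z 0) (z 1))
    have e1 := congrArg (fun g => sg π g (y 0)) hcm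
    simp only [map_mul, Equiv.Perm.mul_apply, hE1] at e1
    rw [m.L_x d3, hcz 0 (by decide)] at e1
    have e2 : c (y 0) = y 1 := by
      rw [vf_apply]; rfl
    rw [e2, m.L_o d3 (hy.ne (by decide)) (hyz 1 0 (by decide)) (hyz 1 1 (by decide))] at e1
    exact hyz 1 0 (by decide) e1
  have hex : ∀ a : {a : ZMod 7 // a ≠ 0}, ∃ w ∈ EE ρ ψ E (3 * b + a.1), w ≠ 0 :=
    fun a => exists_of_finrank (by rw [hal' a]; exact hpos)
  choose w hw hw0 using hex
  have key := m.v4 hp2 h4 E k1.symm k2.symm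
    (J := {a : ZMod 7 // a ≠ 0}) (hJ := ⟨⟨1, by decide⟩⟩) (fun a => ψ (3 * b + a.1))
    (fun s t hst => Subtype.ext (add_left_cancel (psi_inj hψ hst))) w hw0
    (fun a => mem_EE.mp (hw a)) (by
      intro X hX a
      obtain ⟨l, hl⟩ := scal_of_one (W := EE ρ ψ E (3 * b + a.1))
        (T := ρ X) (by rw [hal' a]; omega) (by
          intro u hu
          rw [mem_EE] at hu ⊢
          rw [← rho_mul, ← hX, rho_mul, hu, map_smul])
      exact ⟨l, hl _ (hw a)⟩)
  rw [h6] at key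
  omega

end MinCfg

end Cfsg.Agent.AltSec
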