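import Cfsg.Agent.Lib.AltSecO

/-! Alternating sections of linear groups (S2653), part P: the last case and the induction. -/

set_option autoImplicit false

namespace Cfsg.Agent.AltSec

open Module Equiv.Perm

variable {p : ℕ} [Fact p.Prime] {r : ℕ} {H : Type} [Group H] {V : Type}
    [AddCommGroup V] [Module (KK p) V]
    {ρ : H →* Module.End (KK p) V} {π : H →* alternatingGroup (Fin r)}

theorem D6inj {a b c d e f : Fin r} (h1 : D3 a b c) (h2 : D3 d e f) (hd : d ≠ a ∧ d ≠ b ∧ d ≠ c)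
    (he : e ≠ a ∧ e ≠ b ∧ e ≠ c) (hf : f ≠ a ∧ f ≠ b ∧ f ≠ c) :
    Function.Injective (![a, b, c, d, e, f] : Fin 6 → Fin r) := by
  obtain ⟨a1, a2, a3⟩ := h1
  obtain ⟨b1, b2, b3⟩ := h2
  obtain ⟨c1, c2, c3⟩ := hd
  obtain ⟨d1, d2, d3⟩ := he
  obtain ⟨e1, e2, e3⟩ := hf
  intro i j hij
  fin_cases i <;> fin_cases j <;> first | rfl | (exfalso; simp at hij; simp_all [eq_comm])

namespace MinCfg

/-- degree at most nine for `r ≥ 11` -/
theorem exc (m : MinCfg ρ π) (hp3 : (3 : ℕ) ≠ p) (hp7 : (7 : ℕ) ≠ p) (hp2 : p ≠ 2)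
    (hr11 : 11 ≤ r) (hn : finrank (KK p) V ≤ 9) : NT2 ρ π := by
  classical
  haveI := m.fd
  haveI : Fact (Nat.Prime 3) := ⟨Nat.prime_three⟩
  have hr := m.hr
  obtain ⟨hq, ψ, hψ⟩ := exists_psi p 3 hp3
  by_contra h
  obtain ⟨y, hy, a, b, c, ha, hb, hQ⟩ := m.not_NT2 hp3 hψ h
  have hcl := fun a' b' c' (ht : nz a b c = nz a' b' c') =>
    m.Q3_clos hy hQ (a' := a') (b' := b') (c' := c') ht
  have hc : c ≠ 0 := by
    intro hc
    have h1 := Q3_card hψ (wts 1) (fun t ht => hcl _ _ _ (by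
        rw [mem_wts.mp ht, nz, if_neg ha, if_neg hb, if_pos hc]))
    rw [wts1] at h1
    omega
  have h0 : nz a b c = 0 := by rw [nz, if_neg ha, if_neg hb, if_neg hc]
  have h8 : 8 ≤ finrank (KK p) V := by
    have h1 := Q3_card hψ (wts 0) (fun t ht => hcl _ _ _ (by rw [mem_wts.mp ht, h0]))
    rwa [wts0] at h1
  have D0 : D3 (y 0) (y 1) (y 2) := blk_D3 hy (by decide) (by decide) (by decide)
  have D1 : D3 (y 3) (y 4) (y 5) := blk_D3 hy (by decide) (by decide) (by decide)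
  have D2 : D3 (y 6) (y 7) (y 8) := blk_D3 hy (by decide) (by decide) (by decide)
  have c10 : L π (y 3) (y 4) (y 5) * L π (y 0) (y 1) (y 2) =
      L π (y 0) (y 1) (y 2) * L π (y 3) (y 4) (y 5) :=
    m.L_comm' D0 D1 (by simp [hy.eq_iff]) (by simp [hy.eq_iff]) (by simp [hy.eq_iff])
  have c20 : L π (y 6) (y 7) (y 8) * L π (y 0) (y 1) (y 2) =
      L π (y 0) (y 1) (y 2) * L π (y 6) (y 7) (y 8) :=
    m.L_comm' D0 D2 (by simp [hy.eq_iff]) (by simp [hy.eq_iff]) (by simp [hy.eq_iff])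
  have c21 : L π (y 6) (y 7) (y 8) * L π (y 3) (y 4) (y 5) =
      L π (y 3) (y 4) (y 5) * L π (y 6) (y 7) (y 8) :=
    m.L_comm' D1 D2 (by simp [hy.eq_iff]) (by simp [hy.eq_iff]) (by simp [hy.eq_iff])
  -- fixed vectors of the first block are fixed by the second
  have X1 : ∀ v, ρ (L π (y 0) (y 1) (y 2)) v = v → ρ (L π (y 3) (y 4) (y 5)) v = v := by
    intro v hv
    by_contra hne
    obtain ⟨b', hb', w, hw, hw0, hw'⟩ := exists_eig hq hψ (ρ (L π (y 3) (y 4) (y 5)))
      (by rw [← map_pow, m.L_cube D1, map_one]) (EE ρ ψ (L π (y 0) (y 1) (y 2)) 0) (by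
        intro w hw
        rw [mem_EE] at hw ⊢
        rw [← rho_mul, ← c10, rho_mul, hw, map_smul]) v
      (by rw [mem_EE, AddChar.map_zero_eq_one, one_smul]; exact hv) hne
    obtain ⟨c', hc'⟩ := m.Q3_third hp3 hψ (m.L_cube D2) c20 c21 hw0 hw (mem_EE.mpr hw')
    have hcl' := fun a'' b'' c'' (ht : nz 0 b' c' = nz a'' b'' c'') =>
      m.Q3_clos hy hc' (a' := a'') (b' := b'') (c' := c'') ht
    by_cases e : c' = 0
    · have h1 := Q3_card hψ (wts 0 ∪ wts 2) (fun t ht => by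
        rcases Finset.mem_union.mp ht with ht | ht
        · exact hcl _ _ _ (by rw [mem_wts.mp ht, h0])
        · exact hcl' _ _ _ (by rw [mem_wts.mp ht, nz, if_pos rfl, if_neg hb', if_pos e]))
      rw [wts02] at h1
      omega
    · have h1 := Q3_card hψ (wts 1) (fun t ht => hcl' _ _ _ (by
        rw [mem_wts.mp ht, nz, if_pos rfl, if_neg hb', if_neg e]))
      rw [wts1] at h1
      omega
  -- the same for all disjoint pairs
  have X2 : ∀ {a b c a' b' c' : Fin r}, D3 a b c → D3 a' b' c' → (a' ≠ a ∧ a' ≠ b ∧ a' ≠ c) →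
      (b' ≠ a ∧ b' ≠ b ∧ b' ≠ c) → (c' ≠ a ∧ c' ≠ b ∧ c' ≠ c) → ∀ v, ρ (L π a b c) v = v →
      ρ (L π a' b' c') v = v := by
    intro a b c a' b' c' d d' ha hb hc v hv
    obtain ⟨g, hg⟩ := m.exists_trans (by omega) ![y 0, y 1, y 2, y 3, y 4, y 5]
      ![a, b, c, a', b', c'] (D6inj D0 D1 ⟨hy.ne (by decide), hy.ne (by decide),
        hy.ne (by decide)⟩ ⟨hy.ne (by decide), hy.ne (by decide), hy.ne (by decide)⟩
        ⟨hy.ne (by decide), hy.ne (by decide), hy.ne (by decide)⟩) (D6inj d d' ha hb hc)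
    have g0 : sg π g (y 0) = a := hg 0
    have g1 : sg π g (y 1) = b := hg 1
    have g2 : sg π g (y 2) = c := hg 2
    have g3 : sg π g (y 3) = a' := hg 3
    have g4 : sg π g (y 4) = b' := hg 4
    have g5 : sg π g (y 5) = c' := hg 5
    have k0 : g * L π (y 0) (y 1) (y 2) * g⁻¹ = L π a b c := by rw [m.L_conj D0, g0, g1, g2]
    have k1 : g * L π (y 3) (y 4) (y 5) * g⁻¹ = L π a' b' c' := by rw [m.L_conj D1, g3, g4, g5]
    have e1 : ρ (L π (y 0) (y 1) (y 2)) (ρ g⁻¹ v) = ρ g⁻¹ v := by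
      rw [← k0, rho_mul, rho_mul] at hv
      have := congrArg (ρ g⁻¹) hv
      rwa [rho_inv] at this
    rw [← k1, rho_mul, rho_mul, X1 _ e1, rho_inv']
  have X3 : ∀ {a b c a' b' c' : Fin r}, D3 a b c → D3 a' b' c' → ∀ v, ρ (L π a b c) v = v →
      ρ (L π a' b' c') v = v := by
    intro a b c a' b' c' d d' v hv
    have k1 := card_ins (card_ins (Finset.card_le_four (a := c) (b := a') (c := b') (d := c')) b) a
    obtain ⟨s, hs⟩ := out1 hr ({a, b, c, a', b', c'} : Finset (Fin r)) (by omega)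
    have k2 := card_ins k1 s
    obtain ⟨t, ht⟩ := out1 hr (insert s ({a, b, c, a', b', c'} : Finset (Fin r))) (by omega)
    have k3 := card_ins k2 t
    obtain ⟨u, hu⟩ := out1 hr (insert t (insert s ({a, b, c, a', b', c'} : Finset (Fin r))))
      (by omega)
    simp only [Finset.mem_insert, Finset.mem_singleton, not_or] at hs ht hu
    obtain ⟨s1, s2, s3, s4, s5, s6⟩ := hs
    obtain ⟨t0, t1, t2, t3, t4, t5, t6⟩ := ht
    obtain ⟨u0, u00, u1, u2, u3, u4, u5, u6⟩ := hu
    have dd : D3 s t u := ⟨Ne.symm t0, Ne.symm u0, Ne.symm u00⟩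
    have e1 := X2 d dd ⟨s1, s2, s3⟩ ⟨t1, t2, t3⟩ ⟨u1, u2, u3⟩ v hv
    exact X2 dd d' ⟨Ne.symm s4, Ne.symm t4, Ne.symm u4⟩ ⟨Ne.symm s5, Ne.symm t5, Ne.symm u5⟩
      ⟨Ne.symm s6, Ne.symm t6, Ne.symm u6⟩ v e1
  have X4 : EE ρ ψ (L π (y 0) (y 1) (y 2)) 0 = ⊥ := by
    rw [Submodule.eq_bot_iff]
    intro v hv
    rw [mem_EE, AddChar.map_zero_eq_one, one_smul] at hv
    exact m.XX_two D0.1 (x := y 0) (y := y 1) (fun a b c d _ _ _ => X3 D0 d v hv)
      (fun a b c d _ _ _ => X3 D0 d v hv)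
  obtain ⟨δ, hδ, hall, hδ2⟩ := m.three hp3 hψ D0
  have hsum := le_sum_finrank hq hψ (ρ (L π (y 0) (y 1) (y 2)))
    (by rw [← map_pow, m.L_cube D0, map_one])
  have h2 : ∑ a : ZMod 3, finrank (KK p) (Module.End.eigenspace (ρ (L π (y 0) (y 1) (y 2))) (ψ a)) =
      2 * δ := by
    rw [← Finset.add_sum_erase Finset.univ _ (Finset.mem_univ (0 : ZMod 3))]
    have e0 : finrank (KK p) (Module.End.eigenspace (ρ (L π (y 0) (y 1) (y 2))) (ψ 0)) = 0 := by
      have := X4
      rw [show Module.End.eigenspace (ρ (L π (y 0) (y 1) (y 2))) (ψ 0) = ⊥ from this]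
      exact finrank_bot _ _
    rw [e0, zero_add, Finset.sum_congr rfl (fun a ha => hall a (Finset.ne_of_mem_erase ha)),
      Finset.sum_const, Finset.card_erase_of_mem (Finset.mem_univ _), Finset.card_univ, ZMod.card,
      smul_eq_mul]
  rw [h2] at hsum
  exact m.seven hr11 hp7 hp2 (by omega)

/-- there is no minimal configuration -/
theorem contra (m : MinCfg ρ π)
    (hIH : ∀ r', 9 ≤ r' → r' < r → ∀ d N, Sec p r' d N → r' ≤ d + 2)
    (hb : finrank (KK p) V + 1 + (if p ∣ r then 1 else 0) < r) : False := by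
  have hr := m.hr
  have hn1 : finrank (KK p) V + 1 < r := by omega
  have hnt : NT2 ρ π := by
    by_cases h5 : p = 5
    · by_cases h12 : 12 ≤ r
      · exact m.caseII_big (by omega) h12 hIH
      · by_cases h11 : r = 11
        · exact m.exc (by omega) (by omega) (by omega) (by omega) (by omega)
        · by_cases h10 : r = 10
          · have : p ∣ r := by rw [h5, h10]; decide
            rw [if_pos this] at hb
            exact m.caseII_small (by omega) (by omega)
          · exact m.caseII_small (by omega) (by omega)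
    · by_cases h10 : 10 ≤ r
      · exact m.caseI (by omega) h10 hIH
      · have h9 : r = 9 := by omega
        by_cases h3 : p = 3
        · have : p ∣ r := by rw [h3, h9]; decide
          rw [if_pos this] at hb
          exact (m.caseIII h3 (by omega)).elim
        · exact m.caseII_small (by omega) (by omega)
  have hd : ∀ x y z, D3 x y z → 2 ≤ finrank (KK p) (LinearMap.range (ρ (L π x y z) - 1)) := by
    intro x y z d
    by_cases h5 : p = 5
    · exact m.rank_three (by omega) d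
    · exact m.rank_five (by omega) d
  obtain ⟨h1, h2⟩ := m.final hnt hd
  rw [if_pos h2] at hb
  omega

end MinCfg

/-- the degree bound -/
theorem main (r : ℕ) (hr : 9 ≤ r) : ∀ (p : ℕ) [Fact p.Prime] (n N : ℕ), Sec p r n N →
    r ≤ n + 1 + (if p ∣ r then 1 else 0) := by
  classical
  induction r using Nat.strong_induction_on with
  | _ r ih =>
  intro p hp n N hsec
  by_contra hcon
  push Not at hcon
  -- a minimal degree
  obtain ⟨q, hq, n₁, N₁, hsec₁, hmin, hb⟩ : ∃ (q : ℕ) (_ : Fact q.Prime) (n₁ N₁ : ℕ),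
      Sec q r n₁ N₁ ∧ (∀ (q' : ℕ) [Fact q'.Prime] (m : ℕ), m < n₁ → ∀ N, ¬ Sec q' r m N) ∧
      n₁ + 1 + (if q ∣ r then 1 else 0) < r := by
    let P : ℕ → Prop := fun d => ∃ (q : ℕ) (_ : Fact q.Prime) (N : ℕ), Sec q r d N
    have hP : ∃ d, P d := ⟨n, p, hp, N, hsec⟩
    have hle : Nat.find hP ≤ n := Nat.find_min' hP ⟨p, hp, N, hsec⟩
    have hmin : ∀ (q' : ℕ) [Fact q'.Prime] (m : ℕ), m < Nat.find hP → ∀ N, ¬ Sec q' r m N :=
      fun q' _ m hm N hs => Nat.find_min hP hm ⟨q', inferInstance, N, hs⟩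
    by_cases e : Nat.find hP = n
    · rw [e] at hmin
      exact ⟨p, hp, n, N, hsec, hmin, hcon⟩
    · obtain ⟨q, hq, N₁, h1⟩ := Nat.find_spec hP
      refine ⟨q, hq, _, N₁, h1, hmin, ?_⟩
      have : Nat.find hP < n := lt_of_le_of_ne hle e
      split_ifs <;> omega
  haveI := hq
  have hex : ∃ N, Sec q r n₁ N := ⟨N₁, hsec₁⟩
  obtain ⟨H, hG, hF, ρ, π, hcard, hsurj, hker⟩ := Nat.find_spec hex
  letI := hG
  let ρ' : H →* Module.End (KK q) (Fin n₁ → KK q) :=
    ((Matrix.toLinAlgEquiv' (R := KK q) (n := Fin n₁) : _ →* _)).comp ρ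
  have hfin : finrank (KK q) (Fin n₁ → KK q) = n₁ := Module.finrank_fin_fun (KK q)
  have m : MinCfg ρ' π :=
    { hr := hr
      fin := hF
      fd := inferInstance
      surj := hsurj
      ker := by
        intro h hh
        apply hker
        have h1 : Matrix.toLinAlgEquiv' (ρ h) = Matrix.toLinAlgEquiv' 1 := by
          rw [map_one]; exact hh
        exact Matrix.toLinAlgEquiv'.injective h1
      min1 := by
        intro q' _ d hd N
        rw [hfin] at hd
        exact hmin q' d hd N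
      min2 := by
        intro N hN hs
        rw [hfin] at hs
        rw [hcard] at hN
        exact Nat.find_min hex hN hs
      le := by
        rw [hfin]
        split_ifs at hb <;> omega }
  refine m.contra ?_ (by rw [hfin]; exact hb)
  intro r' h9 hlt d N' hs
  have := ih r' hlt h9 q d N' hs
  split_ifs at this <;> omega

end Cfsg.Agent.AltSec
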