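import Mathlib.GroupTheory.SpecificGroups.Alternating
import Mathlib.GroupTheory.Sylow
import Mathlib.NumberTheory.Padics.PadicVal.Basic
import Mathlib.Data.Nat.Choose.Factorization
import Mathlib.Data.ZMod.Basic
import Mathlib.GroupTheory.Perm.Cycle.Type

set_option autoImplicit false

/-!
Sylow `p`-subgroups of symmetric groups as one-step wreath products: permutations of `(Y × ZMod p) ⊕ Z`,
`card Z < p`, of the shape `(i, y) ↦ (π i, y + a i)`, `π` in a Sylow `p`-subgroup of `Perm Y`; they are generated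
by their elements of order `p`.
-/

namespace Cfsg.Agent.Lib.AltWr

open Equiv Equiv.Perm

/-- the points -/
abbrev Om (p : ℕ) (Y Z : Type*) : Type _ := (Y × ZMod p) ⊕ Z

section basic

variable {p : ℕ} {Y Z : Type*}

/-- `(i, y) ↦ (σ i, f i y)` -/
def wr (f : Y → Perm (ZMod p)) (σ : Perm Y) : Perm (Om p Y Z) where
  toFun := fun x => match x with
    | Sum.inl (i, y) => Sum.inl (σ i, f i y)
    | Sum.inr z => Sum.inr z
  invFun := fun x => match x with
    | Sum.inl (i, y) => Sum.inl (σ.symm i, (f (σ.symm i)).symm y)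
    | Sum.inr z => Sum.inr z
  left_inv := by
    rintro (⟨i, y⟩ | z)
    · simp
    · rfl
  right_inv := by
    rintro (⟨i, y⟩ | z)
    · simp
    · rfl

@[simp] theorem wr_inl (f : Y → Perm (ZMod p)) (σ : Perm Y) (i : Y) (y : ZMod p) :
    (wr f σ : Perm (Om p Y Z)) (Sum.inl (i, y)) = Sum.inl (σ i, f i y) := rfl

@[simp] theorem wr_inr (f : Y → Perm (ZMod p)) (σ : Perm Y) (z : Z) :
    (wr f σ : Perm (Om p Y Z)) (Sum.inr z) = Sum.inr z := rfl

theorem ext_om {g h : Perm (Om p Y Z)} (h1 : ∀ i y, g (Sum.inl (i, y)) = h (Sum.inl (i, y)))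
    (h2 : ∀ z, g (Sum.inr z) = h (Sum.inr z)) : g = h := by
  apply Equiv.ext
  rintro (⟨i, y⟩ | z)
  · exact h1 i y
  · exact h2 z

theorem wr_mul (f g : Y → Perm (ZMod p)) (σ τ : Perm Y) :
    (wr f σ : Perm (Om p Y Z)) * wr g τ = wr (fun i => f (τ i) * g i) (σ * τ) :=
  ext_om (fun _ _ => rfl) (fun _ => rfl)

theorem wr_one : (wr (fun _ => 1) 1 : Perm (Om p Y Z)) = 1 :=
  ext_om (fun _ _ => rfl) (fun _ => rfl)

theorem wr_inj {f g : Y → Perm (ZMod p)} {σ τ : Perm Y} (h : (wr f σ : Perm (Om p Y Z)) = wr g τ) :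
    f = g ∧ σ = τ := by
  have h1 : ∀ i y, (σ i, f i y) = (τ i, g i y) := fun i y =>
    Sum.inl_injective (congrArg (fun q : Perm (Om p Y Z) => q (Sum.inl (i, y))) h)
  refine ⟨?_, ?_⟩
  · funext i
    apply Equiv.ext
    intro y
    exact congrArg Prod.snd (h1 i y)
  · ext i
    exact congrArg Prod.fst (h1 i 0)

/-- translations -/
def tr (a : Y → ZMod p) : Y → Perm (ZMod p) := fun i => Equiv.addRight (a i)

@[simp] theorem tr_apply (a : Y → ZMod p) (i : Y) (y : ZMod p) : tr a i y = y + a i := rfl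

/-- base group elements -/
def ee (a : Y → ZMod p) : Perm (Om p Y Z) := wr (tr a) 1

theorem ee_inl (a : Y → ZMod p) (i : Y) (y : ZMod p) :
    (ee a : Perm (Om p Y Z)) (Sum.inl (i, y)) = Sum.inl (i, y + a i) := rfl

theorem ee_inr (a : Y → ZMod p) (z : Z) : (ee a : Perm (Om p Y Z)) (Sum.inr z) = Sum.inr z := rfl

theorem ee_add (a b : Y → ZMod p) : (ee (a + b) : Perm (Om p Y Z)) = ee a * ee b := by
  refine ext_om (fun i y => ?_) (fun _ => rfl)
  rw [Perm.mul_apply, ee_inl, ee_inl, ee_inl, Pi.add_apply]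
  congr 2
  ring

theorem ee_zero : (ee 0 : Perm (Om p Y Z)) = 1 := by
  refine ext_om (fun i y => ?_) (fun _ => rfl)
  rw [ee_inl, Pi.zero_apply, add_zero]
  rfl

theorem ee_nsmul (a : Y → ZMod p) (n : ℕ) : (ee (n • a) : Perm (Om p Y Z)) = ee a ^ n := by
  induction n with
  | zero => rw [zero_smul, ee_zero, pow_zero]
  | succ n ih => rw [add_smul, one_smul, ee_add, ih, pow_succ]

theorem ee_neg (a : Y → ZMod p) : (ee (-a) : Perm (Om p Y Z)) = (ee a)⁻¹ := by
  rw [eq_inv_iff_mul_eq_one, ← ee_add, neg_add_cancel, ee_zero]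

theorem ee_pow_p (a : Y → ZMod p) : (ee a : Perm (Om p Y Z)) ^ p = 1 := by
  rw [← ee_nsmul]
  have : p • a = 0 := by
    funext i
    simp
  rw [this, ee_zero]

/-- the action on the blocks -/
def bb : Perm Y →* Perm (Om p Y Z) where
  toFun := fun σ => wr (fun _ => 1) σ
  map_one' := wr_one
  map_mul' := fun σ τ => by rw [wr_mul]; rfl

theorem bb_inl (σ : Perm Y) (i : Y) (y : ZMod p) : (bb σ : Perm (Om p Y Z)) (Sum.inl (i, y)) = Sum.inl (σ i, y) := rfl

theorem bb_inr (σ : Perm Y) (z : Z) : (bb σ : Perm (Om p Y Z)) (Sum.inr z) = Sum.inr z := rfl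

theorem bb_injective : Function.Injective (bb : Perm Y →* Perm (Om p Y Z)) := fun _ _ h => (wr_inj h).2

theorem wr_tr (a : Y → ZMod p) (σ : Perm Y) : (wr (tr a) σ : Perm (Om p Y Z)) = bb σ * ee a :=
  ext_om (fun _ _ => rfl) (fun _ => rfl)

theorem bb_ee (a : Y → ZMod p) (σ : Perm Y) :
    (bb σ * ee a * (bb σ)⁻¹ : Perm (Om p Y Z)) = ee (fun i => a (σ⁻¹ i)) := by
  rw [mul_inv_eq_iff_eq_mul]
  refine ext_om (fun i y => ?_) (fun _ => rfl)
  rw [Perm.mul_apply, Perm.mul_apply, ee_inl, bb_inl, bb_inl, ee_inl]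
  simp

theorem ee_bb (a : Y → ZMod p) (σ : Perm Y) :
    (ee a * bb σ : Perm (Om p Y Z)) = bb σ * ee (fun i => a (σ i)) := by
  refine ext_om (fun i y => ?_) (fun _ => rfl)
  rw [Perm.mul_apply, Perm.mul_apply, ee_inl, bb_inl, bb_inl, ee_inl]

/-- the base group -/
def base : Subgroup (Perm (Om p Y Z)) where
  carrier := {g | ∃ a : Y → ZMod p, g = ee a}
  mul_mem' := by
    rintro _ _ ⟨a, rfl⟩ ⟨b, rfl⟩
    exact ⟨a + b, (ee_add a b).symm⟩
  one_mem' := ⟨0, ee_zero.symm⟩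
  inv_mem' := by
    rintro _ ⟨a, rfl⟩
    exact ⟨-a, (ee_neg a).symm⟩

theorem mem_base {g : Perm (Om p Y Z)} : g ∈ (base : Subgroup (Perm (Om p Y Z))) ↔ ∃ a : Y → ZMod p, g = ee a :=
  Iff.rfl

/-- the wreath product with a subgroup of `Perm Y` -/
def WrS (P : Subgroup (Perm Y)) : Subgroup (Perm (Om p Y Z)) where
  carrier := {g | ∃ π ∈ P, ∃ a : Y → ZMod p, g = bb π * ee a}
  mul_mem' := by
    rintro _ _ ⟨π, hπ, a, rfl⟩ ⟨ρ, hρ, b, rfl⟩
    refine ⟨π * ρ, P.mul_mem hπ hρ, (fun i => a (ρ i)) + b, ?_⟩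
    calc bb π * ee a * (bb ρ * ee b) = bb π * (ee a * bb ρ) * ee b := by group
      _ = bb π * (bb ρ * ee (fun i => a (ρ i))) * ee b := by rw [ee_bb]
      _ = _ := by rw [ee_add, map_mul]; group
  one_mem' := ⟨1, P.one_mem, 0, by rw [map_one, ee_zero, one_mul]⟩
  inv_mem' := by
    rintro _ ⟨π, hπ, a, rfl⟩
    refine ⟨π⁻¹, P.inv_mem hπ, fun i => (-a) (π⁻¹ i), ?_⟩
    rw [mul_inv_rev, ← ee_neg, map_inv]
    rw [mul_inv_eq_iff_eq_mul, mul_assoc, ee_bb, ← mul_assoc, inv_mul_cancel, one_mul]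
    congr 1
    funext i
    simp

theorem mem_WrS {P : Subgroup (Perm Y)} {g : Perm (Om p Y Z)} :
    g ∈ (WrS P : Subgroup (Perm (Om p Y Z))) ↔ ∃ π ∈ P, ∃ a : Y → ZMod p, g = bb π * ee a := Iff.rfl

theorem base_le_WrS (P : Subgroup (Perm Y)) : (base : Subgroup (Perm (Om p Y Z))) ≤ WrS P := by
  rintro _ ⟨a, rfl⟩
  exact ⟨1, P.one_mem, a, by rw [map_one, one_mul]⟩

theorem bb_mem_WrS {P : Subgroup (Perm Y)} {π : Perm Y} (h : π ∈ P) : (bb π : Perm (Om p Y Z)) ∈ (WrS P : Subgroup (Perm (Om p Y Z))) :=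
  ⟨π, h, 0, by rw [ee_zero, mul_one]⟩

theorem ee_mem_WrS (P : Subgroup (Perm Y)) (a : Y → ZMod p) : (ee a : Perm (Om p Y Z)) ∈ (WrS P : Subgroup (Perm (Om p Y Z))) :=
  base_le_WrS P ⟨a, rfl⟩

theorem bb_ee_inj {π ρ : Perm Y} {a b : Y → ZMod p} (h : (bb π * ee a : Perm (Om p Y Z)) = bb ρ * ee b) :
    π = ρ ∧ a = b := by
  rw [← wr_tr, ← wr_tr] at h
  obtain ⟨h1, h2⟩ := wr_inj h
  refine ⟨h2, ?_⟩
  funext i
  have h3 := congrArg (fun f : Y → Perm (ZMod p) => f i 0) h1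
  simpa using h3

theorem card_WrS [Fintype Y] (P : Subgroup (Perm Y)) :
    Nat.card (WrS P : Subgroup (Perm (Om p Y Z))) = p ^ (Fintype.card Y) * Nat.card P := by
  let f : (Y → ZMod p) × P → (WrS P : Subgroup (Perm (Om p Y Z))) := fun x =>
    ⟨bb (x.2 : Perm Y) * ee x.1, x.2, x.2.2, x.1, rfl⟩
  have hf : Function.Bijective f := by
    constructor
    · rintro ⟨a, π⟩ ⟨b, ρ⟩ h
      obtain ⟨h1, h2⟩ := bb_ee_inj (congrArg Subtype.val h)
      exact Prod.ext h2 (Subtype.ext h1)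
    · rintro ⟨_, π, hπ, a, rfl⟩
      exact ⟨(a, ⟨π, hπ⟩), rfl⟩
  rw [← Nat.card_eq_of_bijective f hf, Nat.card_prod, Nat.card_fun, Nat.card_zmod, Nat.card_eq_fintype_card]

end basic

section sylow

variable {p : ℕ} [Fact p.Prime] {Y Z : Type*} [Fintype Y] [Fintype Z]

theorem card_om : Fintype.card (Om p Y Z) = p * Fintype.card Y + Fintype.card Z := by
  rw [Fintype.card_sum, Fintype.card_prod, ZMod.card, mul_comm]

theorem card_sylow_eq (P : Sylow p (Perm Y)) (hZ : Fintype.card Z < p) :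
    Nat.card (WrS (P : Subgroup (Perm Y)) : Subgroup (Perm (Om p Y Z))) =
      p ^ (Nat.card (Perm (Om p Y Z))).factorization p := by
  classical
  have hp : p.Prime := Fact.out
  rw [card_WrS, P.card_eq_multiplicity, ← pow_add]
  congr 1
  rw [Nat.card_eq_fintype_card (α := Perm Y), Nat.card_eq_fintype_card (α := Perm (Om p Y Z)),
    Fintype.card_perm, Fintype.card_perm, card_om, Nat.factorization_def _ hp, Nat.factorization_def _ hp,
    padicValNat_factorial_mul_add _ hZ, padicValNat_factorial_mul, add_comm]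

/-- The Sylow subgroup. -/
noncomputable def sylWr (P : Sylow p (Perm Y)) (hZ : Fintype.card Z < p) : Sylow p (Perm (Om p Y Z)) :=
  Sylow.ofCard (WrS (P : Subgroup (Perm Y))) (card_sylow_eq P hZ)

theorem coe_sylWr (P : Sylow p (Perm Y)) (hZ : Fintype.card Z < p) :
    (sylWr P hZ : Subgroup (Perm (Om p Y Z))) = WrS (P : Subgroup (Perm Y)) := rfl

end sylow

section gen

variable {p : ℕ}

/-- Sylow `p`-subgroups are generated by elements of exponent `p`. -/
def Gen (p : ℕ) (G : Type*) [Group G] : Prop :=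
  ∀ P : Sylow p G, ∀ x ∈ (P : Subgroup G), x ∈ Subgroup.closure {y : G | y ∈ (P : Subgroup G) ∧ y ^ p = 1}

theorem closure_map_mem {G H : Type*} [Group G] [Group H] (f : G →* H) {A : Set G} {B : Set H}
    (hAB : ∀ a ∈ A, f a ∈ B) {g : G} (hg : g ∈ Subgroup.closure A) : f g ∈ Subgroup.closure B := by
  have h1 : Subgroup.closure A ≤ (Subgroup.closure B).comap f := by
    rw [Subgroup.closure_le]
    intro a ha
    exact Subgroup.subset_closure (hAB a ha)
  exact h1 hg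

theorem gen_of_exists [Fact p.Prime] {G : Type*} [Group G] [Finite G] (P : Sylow p G)
    (h : ∀ x ∈ (P : Subgroup G), x ∈ Subgroup.closure {y : G | y ∈ (P : Subgroup G) ∧ y ^ p = 1}) : Gen p G := by
  intro Q x hx
  obtain ⟨g, rfl⟩ := MulAction.exists_smul_eq G P Q
  rw [Sylow.coe_subgroup_smul] at hx ⊢
  obtain ⟨y, hy, rfl⟩ := (Subgroup.mem_smul_pointwise_iff_exists _ _ _).mp hx
  refine closure_map_mem (MulAut.conj g).toMonoidHom ?_ (h y hy)
  rintro a ⟨ha, hap⟩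
  refine ⟨(Subgroup.mem_smul_pointwise_iff_exists _ _ _).mpr ⟨a, ha, rfl⟩, ?_⟩
  rw [← map_pow, hap, map_one]

theorem gen_of_equiv [Fact p.Prime] {G H : Type*} [Group G] [Finite G] [Group H] [Finite H] (e : G ≃* H)
    (h : Gen p G) : Gen p H := by
  obtain ⟨P⟩ : Nonempty (Sylow p G) := inferInstance
  apply gen_of_exists (P.mapSurjective (f := e.toMonoidHom) e.surjective)
  intro x hx
  obtain ⟨y, hy, rfl⟩ := hx
  refine closure_map_mem e.toMonoidHom ?_ (h P y hy)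
  rintro a ⟨ha, hap⟩
  refine ⟨⟨a, ha, rfl⟩, ?_⟩
  rw [← map_pow, hap, map_one]

theorem gen_perm [hp : Fact p.Prime] (n : ℕ) : Gen p (Perm (Fin n)) := by
  induction n using Nat.strong_induction_on with
  | _ n ih =>
  rcases Nat.eq_zero_or_pos n with h0 | h0
  · subst h0
    intro P x _
    rw [Subsingleton.elim x 1]
    exact Subgroup.one_mem _
  have h1 : n / p < n := Nat.div_lt_self h0 hp.out.one_lt
  have h2 := ih _ h1
  have hZ : Fintype.card (Fin (n % p)) < p := by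
    rw [Fintype.card_fin]; exact Nat.mod_lt _ hp.out.pos
  have e : Om p (Fin (n / p)) (Fin (n % p)) ≃ Fin n := Fintype.equivOfCardEq (by
    rw [card_om, Fintype.card_fin, Fintype.card_fin, Fintype.card_fin]
    exact Nat.div_add_mod n p)
  refine gen_of_equiv e.permCongrHom ?_
  obtain ⟨P⟩ : Nonempty (Sylow p (Perm (Fin (n / p)))) := inferInstance
  apply gen_of_exists (sylWr P hZ)
  rintro x hx
  rw [coe_sylWr] at hx ⊢
  obtain ⟨π, hπ, a, rfl⟩ := hx
  apply Subgroup.mul_mem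
  · refine closure_map_mem bb ?_ (h2 P π hπ)
    rintro ρ ⟨hρ, hρp⟩
    refine ⟨bb_mem_WrS hρ, ?_⟩
    rw [← map_pow, hρp, map_one]
  · exact Subgroup.subset_closure ⟨ee_mem_WrS _ a, ee_pow_p a⟩

theorem gen_perm' [Fact p.Prime] (Y : Type*) [Finite Y] : Gen p (Perm Y) := by
  obtain ⟨n, ⟨e⟩⟩ := Finite.exists_equiv_fin Y
  exact gen_of_equiv e.symm.permCongrHom (gen_perm n)

end gen

section sign

variable {p : ℕ} [NeZero p] {Y Z : Type*} [Fintype Y] [DecidableEq Y] [Fintype Z] [DecidableEq Z]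

theorem sign_base (f : Y → Perm (ZMod p)) : sign (wr f 1 : Perm (Om p Y Z)) = ∏ i, sign (f i) := by
  have h : (wr f 1 : Perm (Om p Y Z)) = Perm.sumCongr (prodCongrRight f) 1 :=
    ext_om (fun _ _ => rfl) (fun _ => rfl)
  rw [h, sign_sumCongr, sign_prodCongrRight, map_one, mul_one]

theorem sign_bb (σ : Perm Y) : sign (bb σ : Perm (Om p Y Z)) = sign σ ^ p := by
  have h : (bb σ : Perm (Om p Y Z)) = Perm.sumCongr (prodCongrLeft fun _ : ZMod p => σ) 1 :=
    ext_om (fun _ _ => rfl) (fun _ => rfl)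
  rw [h, sign_sumCongr, sign_prodCongrLeft, map_one, mul_one, Finset.prod_const, Finset.card_univ, ZMod.card]

theorem sign_wr (f : Y → Perm (ZMod p)) (σ : Perm Y) :
    sign (wr f σ : Perm (Om p Y Z)) = sign σ ^ p * ∏ i, sign (f i) := by
  have h : (wr f σ : Perm (Om p Y Z)) = bb σ * wr f 1 := ext_om (fun _ _ => rfl) (fun _ => rfl)
  rw [h, map_mul, sign_bb, sign_base]

end sign

end Cfsg.Agent.Lib.AltWr
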