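import Cfsg.Agent.Lib.AltWr
import Cfsg.Agent.Lib.FusionNormalSubgroup

set_option autoImplicit false

/-!
Abelian Sylow subgroups of alternating groups.
-/

namespace Cfsg.Agent.Lib.AltWrAb

open Equiv Equiv.Perm Cfsg.Agent.Lib.AltWr

/-- Sylow subgroups are commutative -/
def Com (p : ℕ) (G : Type*) [Group G] : Prop :=
  ∀ P : Sylow p G, ∀ x ∈ (P : Subgroup G), ∀ y ∈ (P : Subgroup G), x * y = y * x

theorem com_of_exists {p : ℕ} [Fact p.Prime] {G : Type*} [Group G] [Finite G] (P : Sylow p G)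
    (h : ∀ x ∈ (P : Subgroup G), ∀ y ∈ (P : Subgroup G), x * y = y * x) : Com p G := by
  intro Q x hx y hy
  obtain ⟨g, rfl⟩ := MulAction.exists_smul_eq G P Q
  rw [Sylow.coe_subgroup_smul] at hx hy
  obtain ⟨x, hx1, rfl⟩ := (Subgroup.mem_smul_pointwise_iff_exists _ _ _).mp hx
  obtain ⟨y, hy1, rfl⟩ := (Subgroup.mem_smul_pointwise_iff_exists _ _ _).mp hy
  rw [← smul_mul', h x hx1 y hy1, smul_mul']

theorem com_of_inj {p : ℕ} [Fact p.Prime] {G H : Type*} [Group G] [Finite G] [Group H] [Finite H] (e : G →* H)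
    (he : Function.Injective e) (h : Com p H) : Com p G := by
  intro P x hx y hy
  obtain ⟨Q, hQ⟩ := (P.isPGroup'.map e).exists_le_sylow
  apply he
  rw [map_mul, map_mul]
  exact h Q _ (hQ ⟨x, hx, rfl⟩) _ (hQ ⟨y, hy, rfl⟩)

theorem sylow_trivial {p : ℕ} [hp : Fact p.Prime] {Y : Type*} [Finite Y] (hY : Nat.card Y < p)
    (P : Sylow p (Perm Y)) : (P : Subgroup (Perm Y)) = ⊥ := by
  classical
  have := Fintype.ofFinite Y
  rw [Nat.card_eq_fintype_card] at hY
  apply Subgroup.eq_bot_of_card_eq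
  rw [P.card_eq_multiplicity, Nat.card_eq_fintype_card, Fintype.card_perm]
  rw [Nat.factorization_factorial_eq_zero_of_lt hY, pow_zero]

theorem com_perm {p n : ℕ} [hp : Fact p.Prime] (hn : n < p ^ 2) : Com p (Perm (Fin n)) := by
  have hZ : Fintype.card (Fin (n % p)) < p := by
    rw [Fintype.card_fin]; exact Nat.mod_lt _ hp.out.pos
  have hY : Nat.card (Fin (n / p)) < p := by
    rw [Nat.card_eq_fintype_card, Fintype.card_fin, Nat.div_lt_iff_lt_mul hp.out.pos, ← sq]; exact hn
  have e : Om p (Fin (n / p)) (Fin (n % p)) ≃ Fin n := Fintype.equivOfCardEq (by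
    rw [card_om, Fintype.card_fin, Fintype.card_fin, Fintype.card_fin]
    exact Nat.div_add_mod n p)
  refine com_of_inj e.symm.permCongrHom.toMonoidHom e.symm.permCongrHom.injective ?_
  obtain ⟨P⟩ : Nonempty (Sylow p (Perm (Fin (n / p)))) := inferInstance
  apply com_of_exists (sylWr P hZ)
  rw [coe_sylWr, sylow_trivial hY P]
  rintro _ ⟨π, hπ, a, rfl⟩ _ ⟨ρ, hρ, b, rfl⟩
  rw [Subgroup.mem_bot] at hπ hρ
  subst hπ; subst hρ
  rw [map_one, one_mul, one_mul, ← ee_add, ← ee_add, add_comm]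

section

variable {p : ℕ} [hp : Fact p.Prime] {Y Z : Type*} [Fintype Y] [DecidableEq Y] [Fintype Z] [DecidableEq Z]

theorem sign_eq_one_of_pow {α : Type*} [Fintype α] [DecidableEq α] {g : Perm α} {m : ℕ} (hm : Odd m) (h : g ^ m = 1) :
    sign g = 1 := by
  have h1 : sign g ^ m = 1 := by rw [← map_pow, h, map_one]
  rcases Int.units_eq_one_or (sign g) with h2 | h2
  · exact h2
  · rw [h2, hm.neg_one_pow] at h1
    exact absurd h1 (by decide)

/-- the even elements of the base group supported on two blocks -/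
theorem sign_ee_two {i j : Y} (c : ZMod p) :
    sign (ee (Pi.single i c + Pi.single j c) : Perm (Om p Y Z)) = 1 := by
  rw [ee_add, map_mul]
  have h1 : (ee (Pi.single j c) : Perm (Om p Y Z)) = bb (Equiv.swap i j) * ee (Pi.single i c) * (bb (Equiv.swap i j))⁻¹ := by
    rw [bb_ee]
    congr 1
    funext k
    rw [Equiv.swap_inv]
    by_cases hk : k = j
    · subst hk; simp
    · rw [Pi.single_eq_of_ne hk]
      by_cases hk2 : k = i
      · subst hk2
        rw [Equiv.swap_apply_left, Pi.single_eq_of_ne (Ne.symm hk)]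
      · rw [Equiv.swap_apply_of_ne_of_ne hk2 hk, Pi.single_eq_of_ne hk2]
  rw [h1, map_mul, map_mul, map_inv]
  rcases Int.units_eq_one_or (sign (ee (Pi.single i c) : Perm (Om p Y Z))) with h2 | h2 <;> rw [h2] <;> simp

theorem sign_bb_of_mem {P : Sylow p (Perm Y)} {π : Perm Y} (hπ : π ∈ (P : Subgroup (Perm Y))) :
    sign (bb π : Perm (Om p Y Z)) = 1 := by
  rcases hp.out.eq_two_or_odd' with h2 | hodd
  · subst h2
    rw [sign_bb]
    exact Int.units_sq _
  · obtain ⟨k, hk⟩ := P.isPGroup' ⟨π, hπ⟩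
    have h1 : π ^ p ^ k = 1 := congrArg Subtype.val hk
    apply sign_eq_one_of_pow (hodd.pow (n := k))
    rw [← map_pow, h1, map_one]

theorem not_com (hZ : Fintype.card Z < p) (hY : p ≤ Fintype.card Y) (hY3 : 3 ≤ Fintype.card Y) :
    ¬ Com p (alternatingGroup (Om p Y Z)) := by
  intro hcom
  obtain ⟨P⟩ : Nonempty (Sylow p (Perm Y)) := inferInstance
  obtain ⟨R, hR⟩ := FusionNormalSubgroup.exists_sylow_inf (sylWr P hZ) (alternatingGroup (Om p Y Z))
  have hP : (P : Subgroup (Perm Y)) ≠ ⊥ := by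
    apply P.ne_bot_of_dvd_card
    rw [Nat.card_eq_fintype_card, Fintype.card_perm]
    exact (Nat.Prime.dvd_factorial hp.out).mpr hY
  obtain ⟨⟨π, hπ⟩, hπ0⟩ := Subgroup.ne_bot_iff_exists_ne_one.mp hP
  have hπ1 : π ≠ 1 := fun h => hπ0 (Subtype.ext h)
  obtain ⟨i, hi⟩ : ∃ i, π i ≠ i := by
    by_contra h
    push Not at h
    exact hπ1 (Equiv.ext h)
  obtain ⟨j, hj⟩ : ∃ j, j ∉ ({i, π i} : Finset Y) := by
    by_contra h
    push Not at h
    have h1 : (Finset.univ : Finset Y) ⊆ {i, π i} := fun x _ => h x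
    have h2 := Finset.card_le_card h1
    rw [Finset.card_univ] at h2
    have := Finset.card_le_two (a := i) (b := π i)
    omega
  simp only [Finset.mem_insert, Finset.mem_singleton, not_or] at hj
  obtain ⟨hj1, hj2⟩ := hj
  set x : Perm (Om p Y Z) := bb π with hx
  set y : Perm (Om p Y Z) := ee (Pi.single i 1 + Pi.single j 1) with hy
  have hxA : x ∈ alternatingGroup (Om p Y Z) := by
    rw [mem_alternatingGroup]; exact sign_bb_of_mem hπ
  have hyA : y ∈ alternatingGroup (Om p Y Z) := by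
    rw [mem_alternatingGroup]; exact sign_ee_two 1
  have h1 := hcom R ⟨x, hxA⟩ (by
    rw [hR, Subgroup.mem_subgroupOf]
    exact ⟨bb_mem_WrS hπ, hxA⟩) ⟨y, hyA⟩ (by
    rw [hR, Subgroup.mem_subgroupOf]
    exact ⟨ee_mem_WrS _ _, hyA⟩)
  have h2 : x * y * x⁻¹ = y := by
    rw [mul_inv_eq_iff_eq_mul]
    exact congrArg Subtype.val h1
  rw [hx, hy, bb_ee] at h2
  have h3 := congrArg (fun q : Perm (Om p Y Z) => q (Sum.inl (π i, 0))) h2
  have h4 : π⁻¹ (π i) = i := π.symm_apply_apply i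
  simp only [ee_inl, zero_add, Sum.inl.injEq, Prod.mk.injEq, true_and, Pi.add_apply, h4,
    Pi.single_eq_same] at h3
  rw [Pi.single_eq_of_ne (Ne.symm hj1), Pi.single_eq_of_ne hi, Pi.single_eq_of_ne (Ne.symm hj2)] at h3
  simp at h3

end

theorem comm_iff {n p : ℕ} (hn : 6 ≤ n) [hp : Fact p.Prime] : Com p (alternatingGroup (Fin n)) ↔ n < p ^ 2 := by
  constructor
  · intro h
    by_contra hlt
    push Not at hlt
    have hZ : Fintype.card (Fin (n % p)) < p := by
      rw [Fintype.card_fin]; exact Nat.mod_lt _ hp.out.pos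
    have hY : p ≤ Fintype.card (Fin (n / p)) := by
      rw [Fintype.card_fin, Nat.le_div_iff_mul_le hp.out.pos, ← sq]; exact hlt
    have hY3 : 3 ≤ Fintype.card (Fin (n / p)) := by
      rcases hp.out.eq_two_or_odd' with h2 | hodd
      · subst h2; rw [Fintype.card_fin]; omega
      · have : 2 ≤ p := hp.out.two_le
        have h3 : p ≠ 2 := by rintro rfl; exact absurd hodd (by decide)
        omega
    have e : Om p (Fin (n / p)) (Fin (n % p)) ≃ Fin n := Fintype.equivOfCardEq (by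
      rw [card_om, Fintype.card_fin, Fintype.card_fin, Fintype.card_fin]
      exact Nat.div_add_mod n p)
    exact not_com hZ hY hY3 (com_of_inj (Equiv.altCongrHom e).toMonoidHom (Equiv.altCongrHom e).injective h)
  · intro h
    exact com_of_inj (alternatingGroup (Fin n)).subtype (Subgroup.subtype_injective _) (com_perm h)

end Cfsg.Agent.Lib.AltWrAb
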