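import Cfsg.Agent.Lib.AltWrSC

set_option autoImplicit false

/-!
The normalizer of the base group, and generation of its part of scaling `1` by `p`-elements.
-/

namespace Cfsg.Agent.Lib.AltWrNorm

open Equiv Equiv.Perm Cfsg.Agent.Lib.AltWr Cfsg.Agent.Lib.AltWrAb Cfsg.Agent.Lib.AltWrSC

section

variable {p : ℕ} [hp : Fact p.Prime] {Y Z : Type*}

/-- scalings of the blocks -/
def dd : (Y → (ZMod p)ˣ) →* Perm (Om p Y Z) where
  toFun := fun x => wr (fun i => (x i).mulLeft) 1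
  map_one' := by
    refine ext_om (fun i y => ?_) (fun _ => rfl)
    rw [wr_inl, Pi.one_apply]
    simp
  map_mul' := by
    intro x y
    refine ext_om (fun i z => ?_) (fun _ => rfl)
    rw [Perm.mul_apply, wr_inl, wr_inl, wr_inl, Pi.mul_apply]
    simp [mul_assoc]

theorem dd_inl (x : Y → (ZMod p)ˣ) (i : Y) (y : ZMod p) :
    (dd x : Perm (Om p Y Z)) (Sum.inl (i, y)) = Sum.inl (i, x i * y) := rfl

theorem dd_inr (x : Y → (ZMod p)ˣ) (z : Z) : (dd x : Perm (Om p Y Z)) (Sum.inr z) = Sum.inr z := rfl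

theorem dd_bb (x : Y → (ZMod p)ˣ) (σ : Perm Y) :
    (dd x * bb σ : Perm (Om p Y Z)) = bb σ * dd (fun i => x (σ i)) :=
  ext_om (fun _ _ => rfl) (fun _ => rfl)

theorem ee_dd (x : Y → (ZMod p)ˣ) (a : Y → ZMod p) :
    (ee a * dd x : Perm (Om p Y Z)) = dd x * ee (fun i => (((x i)⁻¹ : (ZMod p)ˣ) : ZMod p) * a i) := by
  refine ext_om (fun i y => ?_) (fun _ => rfl)
  rw [Perm.mul_apply, Perm.mul_apply, ee_inl, dd_inl, dd_inl, ee_inl, mul_add, ← mul_assoc, Units.mul_inv, one_mul]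

/-- `g` normalizes the base group with total scaling `l`. -/
def Lam (g : Perm (Om p Y Z)) (l : (ZMod p)ˣ) [Fintype Y] : Prop :=
  ∃ (σ : Perm Y) (x : Y → (ZMod p)ˣ) (a : Y → ZMod p), g = bb σ * dd x * ee a ∧ ∏ i, x i = l

variable [Fintype Y]

theorem Lam.mul {g h : Perm (Om p Y Z)} {l m : (ZMod p)ˣ} (hg : Lam g l) (hh : Lam h m) : Lam (g * h) (l * m) := by
  obtain ⟨σ, x, a, rfl, rfl⟩ := hg
  obtain ⟨τ, y, b, rfl, rfl⟩ := hh
  refine ⟨σ * τ, (fun i => x (τ i)) * y, (fun i => (((y i)⁻¹ : (ZMod p)ˣ) : ZMod p) * a (τ i)) + b, ?_, ?_⟩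
  · calc bb σ * dd x * ee a * (bb τ * dd y * ee b)
        = bb σ * dd x * (ee a * bb τ) * dd y * ee b := by group
      _ = bb σ * (dd x * bb τ) * (ee (fun i => a (τ i)) * dd y) * ee b := by rw [ee_bb]; group
      _ = bb σ * (bb τ * dd (fun i => x (τ i))) * (dd y * ee (fun i => (((y i)⁻¹ : (ZMod p)ˣ) : ZMod p) * a (τ i))) * ee b := by
        rw [dd_bb, ee_dd]
      _ = bb σ * bb τ * (dd (fun i => x (τ i)) * dd y) * (ee (fun i => (((y i)⁻¹ : (ZMod p)ˣ) : ZMod p) * a (τ i)) * ee b) := by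
        group
      _ = _ := by rw [← map_mul, ← map_mul, ← ee_add]
  · simp only [Pi.mul_apply]
    rw [Finset.prod_mul_distrib]
    congr 1
    exact Equiv.prod_comp τ x

theorem ee_base (a : Y → ZMod p) : (ee a : Perm (Om p Y Z)) ∈ (base : Subgroup (Perm (Om p Y Z))) := ⟨a, rfl⟩

theorem mem_norm_base_of {g : Perm (Om p Y Z)} (h1 : ∀ a : Y → ZMod p, g * ee a * g⁻¹ ∈ (base : Subgroup (Perm (Om p Y Z))))
    (h2 : ∀ a : Y → ZMod p, g⁻¹ * ee a * g ∈ (base : Subgroup (Perm (Om p Y Z)))) :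
    g ∈ Subgroup.normalizer ((base : Subgroup (Perm (Om p Y Z))) : Set (Perm (Om p Y Z))) := by
  rw [Subgroup.mem_normalizer_iff]
  intro x
  constructor
  · rintro ⟨a, rfl⟩
    exact h1 a
  · rintro ⟨a, ha⟩
    have h3 : x = g⁻¹ * ee a * g := by rw [← ha]; group
    rw [h3]; exact h2 a

theorem bb_norm (σ : Perm Y) : (bb σ : Perm (Om p Y Z)) ∈ Subgroup.normalizer ((base : Subgroup (Perm (Om p Y Z))) : Set (Perm (Om p Y Z))) := by
  apply mem_norm_base_of
  · intro a
    rw [bb_ee]; exact ee_base _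
  · intro a
    have : (bb σ)⁻¹ * ee a * bb σ = (ee (fun i => a (σ i)) : Perm (Om p Y Z)) := by
      rw [mul_assoc, ee_bb]; group
    rw [this]; exact ee_base _

theorem dd_norm (x : Y → (ZMod p)ˣ) : (dd x : Perm (Om p Y Z)) ∈ Subgroup.normalizer ((base : Subgroup (Perm (Om p Y Z))) : Set (Perm (Om p Y Z))) := by
  have h1 : ∀ (x : Y → (ZMod p)ˣ) (a : Y → ZMod p),
      (dd x)⁻¹ * ee a * dd x ∈ (base : Subgroup (Perm (Om p Y Z))) := by
    intro x a
    have : (dd x)⁻¹ * ee a * dd x = (ee (fun i => (((x i)⁻¹ : (ZMod p)ˣ) : ZMod p) * a i) : Perm (Om p Y Z)) := by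
      rw [mul_assoc, ee_dd]; group
    rw [this]; exact ee_base _
  apply mem_norm_base_of
  · intro a
    have h2 := h1 x⁻¹ a
    rwa [map_inv, inv_inv] at h2
  · exact h1 x

theorem Lam.norm {g : Perm (Om p Y Z)} {l : (ZMod p)ˣ} (hg : Lam g l) :
    g ∈ Subgroup.normalizer ((base : Subgroup (Perm (Om p Y Z))) : Set (Perm (Om p Y Z))) := by
  obtain ⟨σ, x, a, rfl, rfl⟩ := hg
  exact Subgroup.mul_mem _ (Subgroup.mul_mem _ (bb_norm σ) (dd_norm x)) (Subgroup.le_normalizer (ee_base a))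

variable [DecidableEq Y]

theorem ee_single_moves (i : Y) (q : Om p Y Z) :
    (ee (Pi.single i 1) : Perm (Om p Y Z)) q ≠ q ↔ ∃ y, q = Sum.inl (i, y) := by
  rcases q with ⟨j, y⟩ | z
  · rw [ee_inl]
    by_cases h : j = i
    · subst h
      rw [Pi.single_eq_same]
      constructor
      · intro _
        exact ⟨y, rfl⟩
      · intro _ h2
        have h3 := congrArg Prod.snd (Sum.inl_injective h2)
        simp at h3
    · rw [Pi.single_eq_of_ne h, add_zero]
      constructor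
      · intro h2; exact absurd rfl h2
      · rintro ⟨y', h2⟩
        exact absurd (congrArg Prod.fst (Sum.inl_injective h2)) h
  · rw [ee_inr]
    constructor
    · intro h2; exact absurd rfl h2
    · rintro ⟨y', h2⟩
      exact absurd h2 (by simp)

/-- structure of the elements normalizing the base group -/
theorem exists_lam [Finite Z] (hZ : Nat.card Z ≤ 1) {g : Perm (Om p Y Z)}
    (hg : g ∈ Subgroup.normalizer ((base : Subgroup (Perm (Om p Y Z))) : Set (Perm (Om p Y Z)))) :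
    ∃ l, Lam g l := by
  have hZ' : Subsingleton Z := (Finite.card_le_one_iff_subsingleton).mp hZ
  have h1 : ∀ i : Y, ∃ (j : Y) (y0 : ZMod p) (c : (ZMod p)ˣ), ∀ y, g (Sum.inl (i, y)) = Sum.inl (j, y0 + c * y) := by
    intro i
    obtain ⟨b, hb⟩ := (Subgroup.mem_normalizer_iff.mp hg _).mp (ee_base (Z := Z) (Pi.single i 1))
    have hgb : g * ee (Pi.single i 1) = ee b * g := by rw [← hb]; group
    have hpow : ∀ n : ℕ, g * ee (n • Pi.single i 1) = ee (n • b) * g := by
      intro n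
      rw [ee_nsmul, ee_nsmul, ← hb, conj_pow]
      group
    rcases hq : g (Sum.inl (i, 0)) with ⟨j, y0⟩ | z
    · have hbj : b j ≠ 0 := by
        intro h0
        have h2 := congrArg (fun q : Perm (Om p Y Z) => q (Sum.inl (i, 0))) hgb
        simp only [Perm.mul_apply, ee_inl, hq, h0, add_zero, Pi.single_eq_same, zero_add] at h2
        rw [← hq] at h2
        have h3 := congrArg Prod.snd (Sum.inl_injective (g.injective h2))
        exact one_ne_zero h3
      refine ⟨j, y0, Units.mk0 _ hbj, fun y => ?_⟩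
      have h2 := congrArg (fun q : Perm (Om p Y Z) => q (Sum.inl (i, 0))) (hpow y.val)
      have h3 : (y.val • (Pi.single i 1 : Y → ZMod p)) i = y := by
        rw [Pi.smul_apply, Pi.single_eq_same, nsmul_eq_mul, ZMod.natCast_val, ZMod.cast_id', id, mul_one]
      have h4 : (y.val • b) j = y * b j := by
        rw [Pi.smul_apply, nsmul_eq_mul, ZMod.natCast_val, ZMod.cast_id', id]
      simp only [Perm.mul_apply, ee_inl, hq, h3, h4, zero_add] at h2
      rw [h2, Units.val_mk0, mul_comm]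
    · exfalso
      have h2 := congrArg (fun q : Perm (Om p Y Z) => q (Sum.inl (i, 0))) hgb
      simp only [Perm.mul_apply, ee_inl, hq, ee_inr, Pi.single_eq_same, zero_add] at h2
      rw [← hq] at h2
      have h3 := congrArg Prod.snd (Sum.inl_injective (g.injective h2))
      exact one_ne_zero h3
  choose s y0 c hs using h1
  have hsi : Function.Injective s := by
    intro i i' hii
    -- the block s i = s i' is the image of both blocks
    have h2 : g (Sum.inl (i, 0)) = g (Sum.inl (i', (((c i')⁻¹ : (ZMod p)ˣ) : ZMod p) * (y0 i - y0 i'))) := by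
      rw [hs, hs, hii, ← mul_assoc, Units.mul_inv, one_mul, mul_zero, add_zero, add_sub_cancel]
    exact congrArg Prod.fst (Sum.inl_injective (g.injective h2))
  let σ : Perm Y := Equiv.ofBijective s (Finite.injective_iff_bijective.mp hsi)
  refine ⟨∏ i, c i, σ, c, fun i => (((c i)⁻¹ : (ZMod p)ˣ) : ZMod p) * y0 i, ?_, rfl⟩
  refine ext_om (fun i y => ?_) (fun z => ?_)
  · rw [hs, Perm.mul_apply, Perm.mul_apply, ee_inl, dd_inl, bb_inl, mul_add, ← mul_assoc, Units.mul_inv, one_mul,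
      add_comm]
    rfl
  · rw [Perm.mul_apply, Perm.mul_apply, ee_inr, dd_inr, bb_inr]
    rcases hq : g (Sum.inr z) with ⟨j, y⟩ | z'
    · exfalso
      obtain ⟨i, hi⟩ := (Finite.injective_iff_surjective.mp hsi) j
      have h2 : g (Sum.inl (i, (((c i)⁻¹ : (ZMod p)ˣ) : ZMod p) * (y - y0 i))) = Sum.inl (j, y) := by
        rw [hs, hi, ← mul_assoc, Units.mul_inv, one_mul, add_sub_cancel]
      rw [← hq] at h2
      exact Sum.inl_ne_inr (g.injective h2)
    · rw [Subsingleton.elim z' z]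

/-- the base group is self-centralizing -/
theorem base_cent [Finite Z] (hZ : Nat.card Z ≤ 1) {c : Perm (Om p Y Z)}
    (hc : ∀ r ∈ (base : Subgroup (Perm (Om p Y Z))), c * r = r * c) : c ∈ (base : Subgroup (Perm (Om p Y Z))) := by
  have hZ' : Subsingleton Z := (Finite.card_le_one_iff_subsingleton).mp hZ
  have h0 : ∀ (a : Y → ZMod p) (q : Om p Y Z), c (ee a q) = ee a (c q) := fun a q =>
    congrArg (fun g : Perm (Om p Y Z) => g q) (hc _ (ee_base a))
  have h1 : ∀ i : Y, ∃ y0 : ZMod p, c (Sum.inl (i, 0)) = Sum.inl (i, y0) := by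
    intro i
    rw [← ee_single_moves]
    intro h
    rw [← h0] at h
    exact (ee_single_moves i _).mpr ⟨0, rfl⟩ (c.injective h)
  choose a ha using h1
  refine ⟨a, ext_om (fun i y => ?_) (fun z => ?_)⟩
  · have h2 := h0 (fun _ => y) (Sum.inl (i, 0))
    rw [ee_inl, ha, ee_inl, zero_add] at h2
    rw [h2, ee_inl, add_comm]
  · rw [ee_inr]
    rcases hq : c (Sum.inr z) with ⟨j, y⟩ | z'
    · exfalso
      have h2 : (ee (Pi.single j 1) : Perm (Om p Y Z)) (c (Sum.inr z)) ≠ c (Sum.inr z) :=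
        (ee_single_moves j _).mpr ⟨y, hq⟩
      rw [← h0, ee_inr] at h2
      exact h2 rfl
    · rw [Subsingleton.elim z' z]

end

section gen

variable {p : ℕ} [hp : Fact p.Prime]

/-- For odd `p ≤ |Y|` the alternating group is generated by elements of exponent `p`. -/
theorem alt_gen (hodd : Odd p) {W : Type*} [Fintype W] [DecidableEq W] {σ : Perm (ZMod p ⊕ W)} (hσ : sign σ = 1) :
    σ ∈ Subgroup.closure {κ : Perm (ZMod p ⊕ W) | κ ^ p = 1} := by
  have h2 : (2 : ZMod p) ≠ 0 := by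
    intro h
    have h3 : (p : ℕ) ∣ 2 := (ZMod.natCast_eq_zero_iff 2 p).mp (by exact_mod_cast h)
    have h4 := (Nat.prime_dvd_prime_iff_eq hp.out Nat.prime_two).mp h3
    subst h4
    exact absurd hodd (by decide)
  set N := Subgroup.closure {κ : Perm (ZMod p ⊕ W) | κ ^ p = 1} with hN
  have hnorm : ∀ x ∈ N, ∀ g : Perm (ZMod p ⊕ W), g * x * g⁻¹ ∈ N := by
    intro x hx g
    refine closure_map_mem (MulAut.conj g).toMonoidHom ?_ hx
    intro a ha
    show (g * a * g⁻¹) ^ p = 1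
    rw [conj_pow, show a ^ p = 1 from ha]; group
  -- a p-cycle
  set κ : Perm (ZMod p ⊕ W) := Perm.sumCongr (Equiv.addRight 1) 1 with hκ
  have hκn : ∀ n : ℕ, κ ^ n = Perm.sumCongr (Equiv.addRight (n : ZMod p)) 1 := by
    intro n
    induction n with
    | zero =>
      ext q
      rcases q with a | w <;> simp
    | succ n ih =>
      rw [pow_succ, ih, hκ]
      ext q
      rcases q with a | w
      · simp only [Perm.mul_apply, Perm.sumCongr_apply, Sum.map_inl, Equiv.coe_addRight, Nat.cast_add, Nat.cast_one]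
        congr 1; ring
      · simp
  have hκp : κ ^ p = 1 := by
    rw [hκn]
    ext q
    rcases q with a | w <;> simp
  have hκN : κ ∈ N := Subgroup.subset_closure hκp
  set τ : Perm (ZMod p ⊕ W) := Equiv.swap (Sum.inl 1) (Sum.inl 0) with hτ
  have h3 : κ * (τ * κ⁻¹ * τ⁻¹) ∈ N := N.mul_mem hκN (hnorm _ (N.inv_mem hκN) _)
  have h4 : κ * (τ * κ⁻¹ * τ⁻¹) = Equiv.swap (Sum.inl 2) (Sum.inl 1) * Equiv.swap (Sum.inl 1) (Sum.inl 0) := by
    have h5 : κ * τ * κ⁻¹ = Equiv.swap (κ (Sum.inl 1)) (κ (Sum.inl 0)) := by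
      rw [hτ, Equiv.mul_swap_eq_swap_mul, mul_inv_cancel_right]
    have h6 : κ (Sum.inl 1) = Sum.inl 2 := by
      rw [hκ]; simp; norm_num
    have h7 : κ (Sum.inl 0) = Sum.inl 1 := by
      rw [hκ]; simp
    calc κ * (τ * κ⁻¹ * τ⁻¹) = (κ * τ * κ⁻¹) * τ⁻¹ := by group
      _ = _ := by rw [h5, h6, h7, hτ, Equiv.swap_inv]
  have h5 : IsThreeCycle (κ * (τ * κ⁻¹ * τ⁻¹)) := by
    rw [h4, Equiv.swap_comm (Sum.inl 2) (Sum.inl 1)]
    apply isThreeCycle_swap_mul_swap_same
    · intro h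
      have := Sum.inl_injective h
      have h8 : (1 : ZMod p) = 0 := by linear_combination this.symm
      exact one_ne_zero h8
    · intro h
      exact one_ne_zero (Sum.inl_injective h)
    · intro h
      exact h2 (Sum.inl_injective h)
  have h6 : σ ∈ alternatingGroup (ZMod p ⊕ W) := mem_alternatingGroup.mpr hσ
  rw [← closure_three_cycles_eq_alternating] at h6
  refine (Subgroup.closure_le N).mpr ?_ h6
  intro ρ hρ
  have h7 : IsConj (κ * (τ * κ⁻¹ * τ⁻¹)) ρ := by
    rw [isConj_iff_cycleType_eq]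
    exact h5.cycleType.trans (IsThreeCycle.cycleType hρ).symm
  obtain ⟨g, hg⟩ := isConj_iff.mp h7
  rw [← hg]
  exact hnorm _ h3 g

variable {W Z : Type*} [Fintype W] [DecidableEq W] [Fintype Z] [DecidableEq Z]

/-- the set of even `p`-elements normalizing the base group -/
def KK (p : ℕ) (W Z : Type*) [NeZero p] [Fintype W] [DecidableEq W] [Fintype Z] [DecidableEq Z] :
    Set (Perm (Om p (ZMod p ⊕ W) Z)) :=
  {x | x ∈ alternatingGroup (Om p (ZMod p ⊕ W) Z) ∧
    x ∈ Subgroup.normalizer ((base : Subgroup (Perm (Om p (ZMod p ⊕ W) Z))) : Set (Perm (Om p (ZMod p ⊕ W) Z))) ∧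
    ∃ k : ℕ, orderOf x = p ^ k}

theorem orderOf_of_pow {G : Type*} [Group G] {x : G} (h : x ^ p = 1) : ∃ k : ℕ, orderOf x = p ^ k := by
  obtain ⟨k, -, hk⟩ := (Nat.dvd_prime_pow hp.out (m := 1) (i := orderOf x)).mp (by
    rw [pow_one]; exact orderOf_dvd_of_pow_eq_one h)
  exact ⟨k, hk⟩

theorem sign_of_pow (hodd : Odd p) {α : Type*} [Fintype α] [DecidableEq α] {x : Perm α} (h : x ^ p = 1) :
    sign x = 1 := sign_eq_one_of_pow hodd h

theorem ee_KK (hodd : Odd p) (a : ZMod p ⊕ W → ZMod p) : (ee a : Perm (Om p (ZMod p ⊕ W) Z)) ∈ KK p W Z :=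
  ⟨mem_alternatingGroup.mpr (sign_of_pow hodd (ee_pow_p a)), Subgroup.le_normalizer (ee_base a),
    orderOf_of_pow (ee_pow_p a)⟩

theorem bb_KK (hodd : Odd p) {σ : Perm (ZMod p ⊕ W)} (hσ : sign σ = 1) :
    (bb σ : Perm (Om p (ZMod p ⊕ W) Z)) ∈ Subgroup.closure (KK p W Z) := by
  refine closure_map_mem bb ?_ (alt_gen hodd hσ)
  intro κ hκ
  have h1 : (bb κ : Perm (Om p (ZMod p ⊕ W) Z)) ^ p = 1 := by rw [← map_pow, show κ ^ p = 1 from hκ, map_one]
  exact ⟨mem_alternatingGroup.mpr (sign_of_pow hodd h1), bb_norm κ, orderOf_of_pow h1⟩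

theorem conj_KK {g : Perm (Om p (ZMod p ⊕ W) Z)}
    (hg : g ∈ Subgroup.normalizer ((base : Subgroup (Perm (Om p (ZMod p ⊕ W) Z))) : Set (Perm (Om p (ZMod p ⊕ W) Z))))
    {x : Perm (Om p (ZMod p ⊕ W) Z)} (hx : x ∈ Subgroup.closure (KK p W Z)) :
    g * x * g⁻¹ ∈ Subgroup.closure (KK p W Z) := by
  refine closure_map_mem (MulAut.conj g).toMonoidHom ?_ hx
  rintro a ⟨ha1, ha2, k, hk⟩
  refine ⟨?_, Subgroup.mul_mem _ (Subgroup.mul_mem _ hg ha2) (Subgroup.inv_mem _ hg), k, ?_⟩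
  · rw [mem_alternatingGroup] at ha1 ⊢
    show sign (g * a * g⁻¹) = 1
    rw [map_mul, map_mul, ha1, map_inv, mul_one, mul_inv_cancel]
  · rw [← hk]
    exact MulEquiv.orderOf_eq (MulAut.conj g) a

theorem dd_pair_KK (hodd : Odd p) (i j : ZMod p ⊕ W) (u : (ZMod p)ˣ) :
    (dd (Pi.mulSingle i u * Pi.mulSingle j u⁻¹) : Perm (Om p (ZMod p ⊕ W) Z)) ∈ Subgroup.closure (KK p W Z) := by
  by_cases hij : i = j
  · subst hij
    have : (Pi.mulSingle i u * Pi.mulSingle i u⁻¹ : (ZMod p ⊕ W) → (ZMod p)ˣ) = 1 := by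
      rw [← Pi.mulSingle_mul, mul_inv_cancel, Pi.mulSingle_one]
    rw [this, map_one]; exact Subgroup.one_mem _
  obtain ⟨k, hk⟩ : ∃ k, k ∉ ({i, j} : Finset (ZMod p ⊕ W)) := by
    by_contra h
    push Not at h
    have h1 : (Finset.univ : Finset (ZMod p ⊕ W)) ⊆ {i, j} := fun x _ => h x
    have h2 := Finset.card_le_card h1
    rw [Finset.card_univ, Fintype.card_sum, ZMod.card] at h2
    have h3 := Finset.card_le_two (a := i) (b := j)
    have h4 := hp.out.two_le
    have h5 : p ≠ 2 := by rintro rfl; exact absurd hodd (by decide)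
    omega
  simp only [Finset.mem_insert, Finset.mem_singleton, not_or] at hk
  obtain ⟨hki, hkj⟩ := hk
  set σ : Perm (ZMod p ⊕ W) := Equiv.swap k i * Equiv.swap i j with hσ
  have hσs : sign σ = 1 := by
    rw [hσ, map_mul, sign_swap hki, sign_swap hij]; decide
  have hσi : σ i = j := by
    rw [hσ, Perm.mul_apply, Equiv.swap_apply_left, Equiv.swap_apply_of_ne_of_ne (Ne.symm hkj) (Ne.symm hij)]
  clear_value σ
  have h1 := bb_KK (Z := Z) hodd hσs
  have h2 : (dd (Pi.mulSingle i u) * bb σ * (dd (Pi.mulSingle i u))⁻¹ : Perm (Om p (ZMod p ⊕ W) Z)) ∈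
      Subgroup.closure (KK p W Z) := conj_KK (dd_norm _) h1
  have h3 : (dd (Pi.mulSingle i u) * bb σ * (dd (Pi.mulSingle i u))⁻¹ * (bb σ)⁻¹ : Perm (Om p (ZMod p ⊕ W) Z)) =
      dd (Pi.mulSingle i u * Pi.mulSingle j u⁻¹) := by
    rw [map_mul, mul_assoc, mul_assoc]
    congr 1
    have h4 : (dd (Pi.mulSingle j u⁻¹) * bb σ : Perm (Om p (ZMod p ⊕ W) Z)) = bb σ * (dd (Pi.mulSingle i u))⁻¹ := by
      rw [dd_bb, ← map_inv]
      congr 2
      funext l
      by_cases hl : l = i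
      · subst hl
        rw [hσi, Pi.mulSingle_eq_same, Pi.inv_apply, Pi.mulSingle_eq_same]
      · have : σ l ≠ j := by
          intro h
          rw [← hσi] at h
          exact hl (σ.injective h)
        rw [Pi.mulSingle_eq_of_ne this, Pi.inv_apply, Pi.mulSingle_eq_of_ne hl, inv_one]
    rw [← mul_assoc, ← h4, mul_inv_cancel_right]
  rw [← h3]
  exact Subgroup.mul_mem _ h2 (Subgroup.inv_mem _ h1)

theorem dd_KK (hodd : Odd p) {x : ZMod p ⊕ W → (ZMod p)ˣ} (hx : ∏ i, x i = 1) :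
    (dd x : Perm (Om p (ZMod p ⊕ W) Z)) ∈ Subgroup.closure (KK p W Z) := by
  set i0 : ZMod p ⊕ W := Sum.inl 0 with hi0
  have h1 : x = ∏ j, (Pi.mulSingle j (x j) * Pi.mulSingle i0 (x j)⁻¹) := by
    rw [Finset.prod_mul_distrib, Finset.univ_prod_mulSingle]
    have h2 : (∏ j, Pi.mulSingle i0 (x j)⁻¹ : (ZMod p ⊕ W) → (ZMod p)ˣ) = 1 := by
      funext l
      rw [Finset.prod_apply, Pi.one_apply]
      by_cases hl : l = i0
      · subst hl
        simp [hx]
      · simp [Pi.mulSingle_eq_of_ne hl]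
    rw [h2, mul_one]
  rw [h1]
  have h3 : ∏ j, (Pi.mulSingle j (x j) * Pi.mulSingle i0 (x j)⁻¹) ∈
      (Subgroup.closure (KK p W Z)).comap (dd : ((ZMod p ⊕ W) → (ZMod p)ˣ) →* Perm (Om p (ZMod p ⊕ W) Z)) :=
    Subgroup.prod_mem _ fun j _ => dd_pair_KK hodd j i0 (x j)
  exact h3

/-- the sign of a scaling -/
theorem sign_dd {x : ZMod p ⊕ W → (ZMod p)ˣ} (hx : ∏ i, x i = 1) :
    sign (dd x : Perm (Om p (ZMod p ⊕ W) Z)) = 1 := by
  let χ : (ZMod p)ˣ →* ℤˣ :=
    { toFun := fun u => sign (u.mulLeft)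
      map_one' := by
        have : (1 : (ZMod p)ˣ).mulLeft = 1 := by ext y; simp
        rw [this, map_one]
      map_mul' := by
        intro u v
        have : (u * v).mulLeft = u.mulLeft * v.mulLeft := by ext y; simp [mul_assoc]
        rw [this, map_mul] }
  have h1 : sign (dd x : Perm (Om p (ZMod p ⊕ W) Z)) = ∏ i, χ (x i) := sign_base _
  rw [h1, ← map_prod, hx, map_one]

/-- Even elements of scaling `1` are products of `p`-elements of the normalizer of the base group. -/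
theorem Lam.mem_closure (hodd : Odd p) {g : Perm (Om p (ZMod p ⊕ W) Z)} (hg : Lam g 1) (hgs : sign g = 1) :
    g ∈ Subgroup.closure (KK p W Z) := by
  obtain ⟨σ, x, a, rfl, hx⟩ := hg
  rw [map_mul, map_mul, sign_dd hx, sign_of_pow hodd (ee_pow_p a), mul_one, mul_one, sign_bb] at hgs
  have hσ : sign σ = 1 := by
    rcases Int.units_eq_one_or (sign σ) with h | h
    · exact h
    · rw [h, hodd.neg_one_pow] at hgs
      exact absurd hgs (by decide)
  exact Subgroup.mul_mem _ (Subgroup.mul_mem _ (bb_KK hodd hσ) (dd_KK hodd hx)) (Subgroup.subset_closure (ee_KK hodd a))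

end gen

end Cfsg.Agent.Lib.AltWrNorm
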