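import Cfsg.Agent.Lib.FusionGood

set_option autoImplicit false

/-!
The criterion `CritG` for a group given as a subgroup `H` of an ambient group.
-/

namespace Cfsg.Agent.Lib.FusionGoodRel

open Cfsg Cfsg.FusionSystem Cfsg.Agent.Lib.FusionGood

variable {Γ : Type*} [Group Γ] {H : Subgroup Γ}

theorem mem_closure_of_map {A : Set Γ} {B : Set H} (hAB : ∀ a ∈ A, ∃ h : a ∈ H, (⟨a, h⟩ : H) ∈ B) {g : H}
    (hg : (g : Γ) ∈ Subgroup.closure A) : g ∈ Subgroup.closure B := by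
  have h1 : Subgroup.closure A ≤ (Subgroup.closure B).map H.subtype := by
    rw [Subgroup.closure_le]
    intro a ha
    obtain ⟨h, hB⟩ := hAB a ha
    exact ⟨⟨a, h⟩, Subgroup.subset_closure hB, rfl⟩
  obtain ⟨b, hb, hbg⟩ := h1 hg
  have : b = g := Subtype.ext hbg
  rwa [← this]

theorem mem_normalizer_subgroupOf {U : Subgroup Γ} (hU : U ≤ H) (g : H) :
    g ∈ Subgroup.normalizer ((U.subgroupOf H : Subgroup H) : Set H) ↔ (g : Γ) ∈ Subgroup.normalizer (U : Set Γ) := by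
  rw [Subgroup.mem_normalizer_iff, Subgroup.mem_normalizer_iff]
  constructor
  · intro h x
    constructor
    · intro hx
      exact (h ⟨x, hU hx⟩).mp hx
    · intro hx
      have h1 : x ∈ H := by
        have h2 := H.mul_mem (H.mul_mem (H.inv_mem g.2) (hU hx)) g.2
        have h3 : (g : Γ)⁻¹ * (g * x * (g : Γ)⁻¹) * g = x := by group
        rwa [h3] at h2
      exact (h ⟨x, h1⟩).mpr hx
  · intro h x
    exact h x

/-- The criterion, for `U ≤ H ≤ Γ`. -/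
theorem crit_of_rel {p : ℕ} {U : Subgroup Γ} (hUH : U ≤ H)
    (ha : ∀ T : Subgroup Γ, T ≤ U → (∀ x ∈ T, ∀ g ∈ H, g * x * g⁻¹ ∈ U → g * x * g⁻¹ ∈ T) → T = ⊥ ∨ T = U)
    {R : Subgroup Γ} (hRU : R ≤ U) (hRc : ∀ c ∈ H, (∀ r ∈ R, c * r = r * c) → c ∈ R)
    (hb : ∀ g ∈ H, g ∈ Subgroup.normalizer (U : Set Γ) → g ∈ Subgroup.normalizer (R : Set Γ) ∧
      g ∈ Subgroup.closure {h : Γ | h ∈ H ∧ h ∈ Subgroup.normalizer (R : Set Γ) ∧
        ∃ R₁ : Subgroup Γ, R₁ ≤ U ∧ (∀ c ∈ H, (∀ r ∈ R₁, c * r = r * c) → c ∈ R₁) ∧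
          h ∈ Subgroup.closure {x : Γ | x ∈ H ∧ x ∈ Subgroup.normalizer (R₁ : Set Γ) ∧ ∃ k : ℕ, orderOf x = p ^ k}}) :
    CritG p (U.subgroupOf H) := by
  refine ⟨?_, R.subgroupOf H, Subgroup.comap_mono hRU, ?_, ?_⟩
  · intro T hT hTc
    have h1 := ha (T.map H.subtype) (by
      rintro _ ⟨x, hx, rfl⟩
      exact hT hx) (by
      rintro _ ⟨x, hx, rfl⟩ g hg hgx
      exact ⟨⟨g, hg⟩ * x * ⟨g, hg⟩⁻¹, hTc x hx ⟨g, hg⟩ hgx, rfl⟩)
    rcases h1 with h1 | h1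
    · left
      rwa [Subgroup.map_eq_bot_iff_of_injective _ H.subtype_injective] at h1
    · right
      apply le_antisymm hT
      intro x hx
      have h2 : (x : Γ) ∈ T.map H.subtype := by rw [h1]; exact hx
      obtain ⟨y, hy, hyx⟩ := h2
      have : y = x := Subtype.ext hyx
      rwa [← this]
  · intro c hc
    exact hRc c c.2 fun r hr => congrArg Subtype.val (hc ⟨r, hUH (hRU hr)⟩ hr)
  · intro g hg
    rw [mem_normalizer_subgroupOf hUH] at hg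
    obtain ⟨h1, h2⟩ := hb g g.2 hg
    refine ⟨(mem_normalizer_subgroupOf (hRU.trans hUH) g).mpr h1, mem_closure_of_map ?_ h2⟩
    rintro a ⟨haH, haR, R₁, hR₁U, hR₁c, haR₁⟩
    refine ⟨haH, (mem_normalizer_subgroupOf (hRU.trans hUH) ⟨a, haH⟩).mpr haR, R₁.subgroupOf H,
      Subgroup.comap_mono hR₁U, ?_, ?_⟩
    · intro c hc
      exact hR₁c c c.2 fun r hr => congrArg Subtype.val (hc ⟨r, hUH (hR₁U hr)⟩ hr)
    · refine mem_closure_of_map (g := ⟨a, haH⟩) ?_ haR₁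
      rintro x ⟨hxH, hxR, k, hk⟩
      refine ⟨hxH, (mem_normalizer_subgroupOf (hR₁U.trans hUH) ⟨x, hxH⟩).mpr hxR, k, ?_⟩
      rw [Subgroup.orderOf_mk]; exact hk

end Cfsg.Agent.Lib.FusionGoodRel
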