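import Cfsg.Agent.Lib.AltWrNorm
import Cfsg.Agent.Lib.FusionGoodRel

set_option autoImplicit false

/-!
The regular elementary abelian subgroup on one `p²`-block and the diagonal elements of its normalizer.
-/

namespace Cfsg.Agent.Lib.AltWrR1

open Equiv Equiv.Perm Cfsg.Agent.Lib.AltWr Cfsg.Agent.Lib.AltWrAb Cfsg.Agent.Lib.AltWrSC Cfsg.Agent.Lib.AltWrNorm

section

variable {p : ℕ} [hp : Fact p.Prime] {W Z : Type*}

/-- permutations of the first `p²`-block -/
def blk : Perm (ZMod p × ZMod p) →* Perm (Om p (ZMod p ⊕ W) Z) where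
  toFun := fun M =>
    { toFun := fun q => match q with
        | Sum.inl (Sum.inl a, y) => Sum.inl (Sum.inl (M (a, y)).1, (M (a, y)).2)
        | Sum.inl (Sum.inr w, y) => Sum.inl (Sum.inr w, y)
        | Sum.inr z => Sum.inr z
      invFun := fun q => match q with
        | Sum.inl (Sum.inl a, y) => Sum.inl (Sum.inl (M.symm (a, y)).1, (M.symm (a, y)).2)
        | Sum.inl (Sum.inr w, y) => Sum.inl (Sum.inr w, y)
        | Sum.inr z => Sum.inr z
      left_inv := by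
        rintro (⟨a | w, y⟩ | z)
        · simp
        · rfl
        · rfl
      right_inv := by
        rintro (⟨a | w, y⟩ | z)
        · simp
        · rfl
        · rfl }
  map_one' := by
    apply Equiv.ext
    rintro (⟨a | w, y⟩ | z) <;> rfl
  map_mul' := by
    intro M N
    apply Equiv.ext
    rintro (⟨a | w, y⟩ | z) <;> rfl

theorem blk_l (M : Perm (ZMod p × ZMod p)) (a y : ZMod p) :
    (blk M : Perm (Om p (ZMod p ⊕ W) Z)) (Sum.inl (Sum.inl a, y)) = Sum.inl (Sum.inl (M (a, y)).1, (M (a, y)).2) := rfl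

theorem blk_r (M : Perm (ZMod p × ZMod p)) (w : W) (y : ZMod p) :
    (blk M : Perm (Om p (ZMod p ⊕ W) Z)) (Sum.inl (Sum.inr w, y)) = Sum.inl (Sum.inr w, y) := rfl

theorem blk_z (M : Perm (ZMod p × ZMod p)) (z : Z) :
    (blk M : Perm (Om p (ZMod p ⊕ W) Z)) (Sum.inr z) = Sum.inr z := rfl

theorem ext3 {g h : Perm (Om p (ZMod p ⊕ W) Z)}
    (h1 : ∀ a y, g (Sum.inl (Sum.inl a, y)) = h (Sum.inl (Sum.inl a, y)))
    (h2 : ∀ w y, g (Sum.inl (Sum.inr w, y)) = h (Sum.inl (Sum.inr w, y)))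
    (h3 : ∀ z, g (Sum.inr z) = h (Sum.inr z)) : g = h := by
  apply Equiv.ext
  rintro (⟨a | w, y⟩ | z)
  · exact h1 a y
  · exact h2 w y
  · exact h3 z

/-- translations of the first block, and the base group elsewhere -/
def rr (u v : ZMod p) (w : W → ZMod p) : Perm (Om p (ZMod p ⊕ W) Z) :=
  blk ((Equiv.addRight (u, v) : Perm (ZMod p × ZMod p))) * ee (Sum.elim 0 w)

theorem rr_l (u v : ZMod p) (w : W → ZMod p) (a y : ZMod p) :
    (rr u v w : Perm (Om p (ZMod p ⊕ W) Z)) (Sum.inl (Sum.inl a, y)) = Sum.inl (Sum.inl (a + u), y + v) := by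
  rw [rr, Perm.mul_apply, ee_inl, blk_l]
  simp

theorem rr_r (u v : ZMod p) (w : W → ZMod p) (j : W) (y : ZMod p) :
    (rr u v w : Perm (Om p (ZMod p ⊕ W) Z)) (Sum.inl (Sum.inr j, y)) = Sum.inl (Sum.inr j, y + w j) := by
  rw [rr, Perm.mul_apply, ee_inl, blk_r]
  simp

theorem rr_z (u v : ZMod p) (w : W → ZMod p) (z : Z) :
    (rr u v w : Perm (Om p (ZMod p ⊕ W) Z)) (Sum.inr z) = Sum.inr z := rfl

theorem rr_mul (u v : ZMod p) (w : W → ZMod p) (u' v' : ZMod p) (w' : W → ZMod p) :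
    (rr u v w * rr u' v' w' : Perm (Om p (ZMod p ⊕ W) Z)) = rr (u + u') (v + v') (w + w') := by
  refine ext3 (fun a y => ?_) (fun j y => ?_) (fun _ => rfl)
  · rw [Perm.mul_apply, rr_l, rr_l, rr_l]
    congr 2
    · congr 1; ring
    · ring
  · rw [Perm.mul_apply, rr_r, rr_r, rr_r, Pi.add_apply]
    congr 2
    ring

theorem rr_one : (rr 0 0 0 : Perm (Om p (ZMod p ⊕ W) Z)) = 1 := by
  refine ext3 (fun a y => ?_) (fun j y => ?_) (fun _ => rfl)
  · rw [rr_l, add_zero, add_zero]; rfl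
  · rw [rr_r, Pi.zero_apply, add_zero]; rfl

/-- the subgroup `R₁` -/
def R1 : Subgroup (Perm (Om p (ZMod p ⊕ W) Z)) where
  carrier := {g | ∃ (u v : ZMod p) (w : W → ZMod p), g = rr u v w}
  mul_mem' := by
    rintro _ _ ⟨u, v, w, rfl⟩ ⟨u', v', w', rfl⟩
    exact ⟨_, _, _, rr_mul _ _ _ _ _ _⟩
  one_mem' := ⟨0, 0, 0, rr_one.symm⟩
  inv_mem' := by
    rintro _ ⟨u, v, w, rfl⟩
    refine ⟨-u, -v, -w, ?_⟩
    rw [inv_eq_iff_mul_eq_one, rr_mul, add_neg_cancel, add_neg_cancel, add_neg_cancel, rr_one]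

theorem rr_mem (u v : ZMod p) (w : W → ZMod p) : (rr u v w : Perm (Om p (ZMod p ⊕ W) Z)) ∈ (R1 : Subgroup (Perm (Om p (ZMod p ⊕ W) Z))) :=
  ⟨u, v, w, rfl⟩

/-- the `p`-cycle on the blocks -/
def kap (u : ZMod p) : Perm (ZMod p ⊕ W) := Perm.sumCongr (Equiv.addRight u) 1

theorem rr_eq (u v : ZMod p) (w : W → ZMod p) : (rr u v w : Perm (Om p (ZMod p ⊕ W) Z)) =
    bb (kap u) * ee (Sum.elim (fun _ => v) w) := by
  refine ext3 (fun a y => ?_) (fun j y => ?_) (fun _ => rfl)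
  · rw [rr_l, Perm.mul_apply, ee_inl, bb_inl]; rfl
  · rw [rr_r, Perm.mul_apply, ee_inl, bb_inl]; rfl

theorem R1_le {P : Subgroup (Perm (ZMod p ⊕ W))} (hP : ∀ u, kap u ∈ P) :
    (R1 : Subgroup (Perm (Om p (ZMod p ⊕ W) Z))) ≤ WrS P := by
  rintro _ ⟨u, v, w, rfl⟩
  rw [rr_eq]
  exact ⟨_, hP u, _, rfl⟩

theorem R1_cent [Finite Z] [DecidableEq W] (hZ : Nat.card Z ≤ 1) {c : Perm (Om p (ZMod p ⊕ W) Z)}
    (hc : ∀ r ∈ (R1 : Subgroup (Perm (Om p (ZMod p ⊕ W) Z))), c * r = r * c) :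
    c ∈ (R1 : Subgroup (Perm (Om p (ZMod p ⊕ W) Z))) := by
  have hZ' : Subsingleton Z := (Finite.card_le_one_iff_subsingleton).mp hZ
  have h0 : ∀ (u v : ZMod p) (w : W → ZMod p) (q : Om p (ZMod p ⊕ W) Z), c (rr u v w q) = rr u v w (c q) :=
    fun u v w q => congrArg (fun g : Perm (Om p (ZMod p ⊕ W) Z) => g q) (hc _ (rr_mem u v w))
  -- moved points
  have hm1 : ∀ q : Om p (ZMod p ⊕ W) Z, (rr 1 0 0 : Perm (Om p (ZMod p ⊕ W) Z)) q ≠ q ↔
      ∃ a y, q = Sum.inl (Sum.inl a, y) := by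
    rintro (⟨a | j, y⟩ | z)
    · rw [rr_l]
      constructor
      · intro _; exact ⟨a, y, rfl⟩
      · intro _ h
        have h3 := Sum.inl_injective (congrArg Prod.fst (Sum.inl_injective h))
        simp at h3
    · rw [rr_r, Pi.zero_apply, add_zero]
      constructor
      · intro h; exact absurd rfl h
      · rintro ⟨a, y', h⟩
        exact absurd (congrArg Prod.fst (Sum.inl_injective h)) (by simp)
    · rw [rr_z]
      constructor
      · intro h; exact absurd rfl h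
      · rintro ⟨a, y', h⟩
        exact absurd h (by simp)
  have hm2 : ∀ (i : W) (q : Om p (ZMod p ⊕ W) Z), (rr 0 0 (Pi.single i 1) : Perm (Om p (ZMod p ⊕ W) Z)) q ≠ q ↔
      ∃ y, q = Sum.inl (Sum.inr i, y) := by
    rintro i (⟨a | j, y⟩ | z)
    · rw [rr_l, add_zero, add_zero]
      constructor
      · intro h; exact absurd rfl h
      · rintro ⟨y', h⟩
        exact absurd (congrArg Prod.fst (Sum.inl_injective h)) (by simp)
    · rw [rr_r]
      by_cases hj : j = i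
      · subst hj
        rw [Pi.single_eq_same]
        constructor
        · intro _; exact ⟨y, rfl⟩
        · intro _ h
          have h3 := congrArg Prod.snd (Sum.inl_injective h)
          simp at h3
      · rw [Pi.single_eq_of_ne hj, add_zero]
        constructor
        · intro h; exact absurd rfl h
        · rintro ⟨y', h⟩
          exact absurd (Sum.inr_injective (congrArg Prod.fst (Sum.inl_injective h))) hj
    · rw [rr_z]
      constructor
      · intro h; exact absurd rfl h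
      · rintro ⟨y', h⟩
        exact absurd h (by simp)
  obtain ⟨a0, y0, h1⟩ : ∃ a y, c (Sum.inl (Sum.inl 0, 0)) = Sum.inl (Sum.inl a, y) := by
    rw [← hm1]
    intro h
    rw [← h0] at h
    exact (hm1 _).mpr ⟨0, 0, rfl⟩ (c.injective h)
  have h2 : ∀ j : W, ∃ y, c (Sum.inl (Sum.inr j, 0)) = Sum.inl (Sum.inr j, y) := by
    intro j
    rw [← hm2]
    intro h
    rw [← h0] at h
    exact (hm2 j _).mpr ⟨0, rfl⟩ (c.injective h)
  choose w hw using h2
  refine ⟨a0, y0, w, ext3 (fun a y => ?_) (fun j y => ?_) (fun z => ?_)⟩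
  · have h3 := h0 a y 0 (Sum.inl (Sum.inl 0, 0))
    rw [rr_l, h1, rr_l, zero_add, zero_add] at h3
    rw [h3, rr_l, add_comm a, add_comm y]
  · have h3 := h0 0 0 (fun _ => y) (Sum.inl (Sum.inr j, 0))
    rw [rr_r, hw, rr_r, zero_add] at h3
    rw [h3, rr_r, add_comm]
  · rw [rr_z]
    rcases hq : c (Sum.inr z) with ⟨a | j, y⟩ | z'
    · exfalso
      have h3 : (rr 1 0 0 : Perm (Om p (ZMod p ⊕ W) Z)) (c (Sum.inr z)) ≠ c (Sum.inr z) := (hm1 _).mpr ⟨a, y, hq⟩
      rw [← h0, rr_z] at h3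
      exact h3 rfl
    · exfalso
      have h3 : (rr 0 0 (Pi.single j 1) : Perm (Om p (ZMod p ⊕ W) Z)) (c (Sum.inr z)) ≠ c (Sum.inr z) :=
        (hm2 j _).mpr ⟨y, hq⟩
      rw [← h0, rr_z] at h3
      exact h3 rfl
    · rw [Subsingleton.elim z' z]

/-- additive automorphisms of the block normalize `R₁` -/
theorem blk_norm {M : Perm (ZMod p × ZMod p)} (hM : ∀ x y, M (x + y) = M x + M y) :
    (blk M : Perm (Om p (ZMod p ⊕ W) Z)) ∈ Subgroup.normalizer
      ((R1 : Subgroup (Perm (Om p (ZMod p ⊕ W) Z))) : Set (Perm (Om p (ZMod p ⊕ W) Z))) := by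
  have h1 : ∀ (N : Perm (ZMod p × ZMod p)), (∀ x y, N (x + y) = N x + N y) → ∀ (u v : ZMod p) (w : W → ZMod p),
      (blk N * rr u v w : Perm (Om p (ZMod p ⊕ W) Z)) = rr (N (u, v)).1 (N (u, v)).2 w * blk N := by
    intro N hN u v w
    refine ext3 (fun a y => ?_) (fun j y => ?_) (fun _ => rfl)
    · rw [Perm.mul_apply, Perm.mul_apply, rr_l, blk_l, blk_l, rr_l]
      have : ((a + u, y + v) : ZMod p × ZMod p) = (a, y) + (u, v) := rfl
      rw [this, hN]
      rfl
    · rw [Perm.mul_apply, Perm.mul_apply, rr_r, blk_r, blk_r, rr_r]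
  have hMi : ∀ x y, M⁻¹ (x + y) = M⁻¹ x + M⁻¹ y := by
    intro x y
    have hM' : ∀ x, M (M⁻¹ x) = x := fun x => M.apply_symm_apply x
    apply M.injective
    rw [hM, hM', hM', hM']
  rw [Subgroup.mem_normalizer_iff]
  intro g
  constructor
  · rintro ⟨u, v, w, rfl⟩
    rw [h1 M hM, mul_inv_cancel_right]
    exact rr_mem _ _ _
  · rintro ⟨u, v, w, h⟩
    have h2 : g = (blk M)⁻¹ * rr u v w * blk M := by rw [← h]; group
    rw [h2, ← map_inv, h1 _ hMi, map_inv, inv_mul_cancel_right]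
    exact rr_mem _ _ _

/-- transvections -/
def e12 (c : ZMod p) : Perm (ZMod p × ZMod p) where
  toFun := fun x => (x.1 + c * x.2, x.2)
  invFun := fun x => (x.1 - c * x.2, x.2)
  left_inv := by intro x; simp
  right_inv := by intro x; simp

def e21 (c : ZMod p) : Perm (ZMod p × ZMod p) where
  toFun := fun x => (x.1, x.2 + c * x.1)
  invFun := fun x => (x.1, x.2 - c * x.1)
  left_inv := by intro x; simp
  right_inv := by intro x; simp

theorem e12_pow (c : ZMod p) : (e12 c) ^ p = 1 := by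
  have h : ∀ n : ℕ, (e12 c) ^ n = e12 ((n : ZMod p) * c) := by
    intro n
    induction n with
    | zero => ext x <;> simp [e12]
    | succ n ih =>
      rw [pow_succ, ih]
      ext x <;> simp [e12]
      ring
  rw [h]
  ext x <;> simp [e12]

theorem e21_pow (c : ZMod p) : (e21 c) ^ p = 1 := by
  have h : ∀ n : ℕ, (e21 c) ^ n = e21 ((n : ZMod p) * c) := by
    intro n
    induction n with
    | zero => ext x <;> simp [e21]
    | succ n ih =>
      rw [pow_succ, ih]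
      ext x <;> simp [e21]
      ring
  rw [h]
  ext x <;> simp [e21]

theorem e12_add (c : ZMod p) (x y : ZMod p × ZMod p) : e12 c (x + y) = e12 c x + e12 c y := by
  ext <;> simp [e12]
  ring

theorem e21_add (c : ZMod p) (x y : ZMod p × ZMod p) : e21 c (x + y) = e21 c x + e21 c y := by
  ext <;> simp [e21]
  ring

/-- the diagonal element -/
def tt (r : (ZMod p)ˣ) : Perm (Om p (ZMod p ⊕ W) Z) :=
  blk (e12 (r : ZMod p) * e21 (-((r⁻¹ : (ZMod p)ˣ) : ZMod p)) * e12 (r : ZMod p) * (e12 (-1) * e21 1 * e12 (-1)))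

theorem tt_l (r : (ZMod p)ˣ) (a y : ZMod p) :
    (tt r : Perm (Om p (ZMod p ⊕ W) Z)) (Sum.inl (Sum.inl a, y)) =
      Sum.inl (Sum.inl ((r : ZMod p) * a), ((r⁻¹ : (ZMod p)ˣ) : ZMod p) * y) := by
  have h : (r : ZMod p) * ((r⁻¹ : (ZMod p)ˣ) : ZMod p) = 1 := Units.mul_inv r
  rw [tt, blk_l]
  simp only [Perm.mul_apply, e12, e21, Equiv.coe_fn_mk]
  congr 3
  · linear_combination (y - a * r) * h
  · linear_combination (-a) * h

theorem tt_r (r : (ZMod p)ˣ) (w : W) (y : ZMod p) :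
    (tt r : Perm (Om p (ZMod p ⊕ W) Z)) (Sum.inl (Sum.inr w, y)) = Sum.inl (Sum.inr w, y) := rfl

theorem tt_z (r : (ZMod p)ˣ) (z : Z) : (tt r : Perm (Om p (ZMod p ⊕ W) Z)) (Sum.inr z) = Sum.inr z := rfl

end

end Cfsg.Agent.Lib.AltWrR1
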