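import Cfsg.Agent.Lib.AltWrAb
import Mathlib.GroupTheory.SpecificGroups.Alternating.Centralizer

set_option autoImplicit false

/-!
Strongly closed subgroups of Sylow subgroups of alternating groups.
-/

namespace Cfsg.Agent.Lib.AltWrSC

open Equiv Equiv.Perm Cfsg.Agent.Lib.AltWr Cfsg.Agent.Lib.AltWrAb

section conj

variable {p : ℕ} [hp : Fact p.Prime] {α : Type*} [Fintype α] [DecidableEq α]

theorem exists_k {g : Perm α} (hg : orderOf g = p) : ∃ k : ℕ, g.cycleType = Multiset.replicate (k + 1) p ∧
    g.support.card = (k + 1) * p := by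
  obtain ⟨k, hk⟩ := cycleType_prime_order (σ := g) (by rw [hg]; exact hp.out)
  rw [hg] at hk
  refine ⟨k, hk, ?_⟩
  rw [← sum_cycleType, hk, Multiset.sum_replicate, smul_eq_mul]

theorem isConj_alt (hα : p + 2 ≤ Fintype.card α) {σ τ : Perm α} (hσ : orderOf σ = p) (hτ : orderOf τ = p)
    (hc : σ.support.card = τ.support.card) : ∃ g : Perm α, sign g = 1 ∧ g * σ * g⁻¹ = τ := by
  obtain ⟨k, hk, hk'⟩ := exists_k hσ
  obtain ⟨l, hl, hl'⟩ := exists_k hτ
  have hkl : k = l := by
    rw [hk', hl'] at hc
    have := Nat.eq_of_mul_eq_mul_right hp.out.pos hc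
    omega
  subst hkl
  obtain ⟨g, hg⟩ := isConj_iff.1 (isConj_iff_cycleType_eq.2 (hk.trans hl.symm))
  rcases Int.units_eq_one_or (sign g) with h | h
  · exact ⟨g, h, hg⟩
  · have h1 : ¬ Subgroup.centralizer {σ} ≤ alternatingGroup α := by
      rw [centralizer_le_alternating_iff]
      rintro ⟨-, h2, h3⟩
      rcases Nat.eq_zero_or_pos k with h0 | h0
      · rw [hk, h0] at h2
        simp at h2
        omega
      · have h4 := h3 p
        rw [hk, Multiset.count_replicate_self] at h4
        omega
    obtain ⟨c, hc1, hc2⟩ := SetLike.not_le_iff_exists.mp h1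
    rw [mem_alternatingGroup] at hc2
    rw [Subgroup.mem_centralizer_singleton_iff] at hc1
    refine ⟨g * c, ?_, ?_⟩
    · rw [map_mul, h, (Int.units_eq_one_or (sign c)).resolve_left hc2]
      decide
    · rw [← hg]
      have : g * c * σ * (g * c)⁻¹ = g * (c * σ) * c⁻¹ * g⁻¹ := by group
      rw [this, hc1]
      group

end conj

section model

variable {p : ℕ} [hp : Fact p.Prime] {Y Z : Type*} [Fintype Y] [DecidableEq Y] [Fintype Z] [DecidableEq Z]

theorem support_ee (a : Y → ZMod p) : (ee a : Perm (Om p Y Z)).support.card =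
    (Finset.univ.filter fun i => a i ≠ 0).card * p := by
  have h : (ee a : Perm (Om p Y Z)).support =
      ((Finset.univ.filter fun i => a i ≠ 0) ×ˢ (Finset.univ : Finset (ZMod p))).map Function.Embedding.inl := by
    ext x
    rw [mem_support]
    rcases x with ⟨i, y⟩ | z
    · rw [ee_inl]
      simp
    · rw [ee_inr]
      simp
  rw [h, Finset.card_map, Finset.card_product, Finset.card_univ, ZMod.card]

theorem orderOf_ee {a : Y → ZMod p} (ha : a ≠ 0) : orderOf (ee a : Perm (Om p Y Z)) = p := by
  apply orderOf_eq_prime (ee_pow_p a)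
  intro h
  apply ha
  rw [← ee_zero] at h
  have h1 : (bb 1 * ee a : Perm (Om p Y Z)) = bb 1 * ee 0 := by rw [h]
  exact (bb_ee_inj h1).2

/-- indicator functions -/
def ind (A : Finset Y) : Y → ZMod p := fun i => if i ∈ A then 1 else 0

theorem ind_ne {A : Finset Y} (i : Y) : (ind A i : ZMod p) ≠ 0 ↔ i ∈ A := by
  unfold ind
  split_ifs with h <;> simp [h]

theorem card_ind (A : Finset Y) : (Finset.univ.filter fun i => (ind A i : ZMod p) ≠ 0).card = A.card := by
  congr 1
  ext i
  rw [Finset.mem_filter, ind_ne]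
  simp

theorem support_ind (A : Finset Y) : (ee (ind A) : Perm (Om p Y Z)).support.card = A.card * p := by
  rw [support_ee, card_ind]

theorem ind_ne_zero {A : Finset Y} (hA : A.Nonempty) : (ind A : Y → ZMod p) ≠ 0 := by
  obtain ⟨i, hi⟩ := hA
  intro h
  exact (ind_ne (p := p) i).mpr hi (congrFun h i)

variable {P : Sylow p (Perm Y)}

theorem mem_of_ind {T : Subgroup (Perm (Om p Y Z))} (hcard : p + 2 ≤ Fintype.card (Om p Y Z))
    (hcl : ∀ x ∈ T, ∀ g : Perm (Om p Y Z), sign g = 1 → g * x * g⁻¹ ∈ (WrS (P : Subgroup (Perm Y)) : Subgroup (Perm (Om p Y Z))) →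
      g * x * g⁻¹ ∈ T) {x y : Perm (Om p Y Z)} (hx : x ∈ T) (hy : y ∈ (WrS (P : Subgroup (Perm Y)) : Subgroup (Perm (Om p Y Z))))
    (hxo : orderOf x = p) (hyo : orderOf y = p) (hc : x.support.card = y.support.card) : y ∈ T := by
  obtain ⟨g, hg, rfl⟩ := isConj_alt hcard hxo hyo hc
  exact hcl x hx g hg hy

theorem card_k {t : Perm (Om p Y Z)} (hZ : Fintype.card Z < p) {k : ℕ} (h : t.support.card = k * p) :
    k ≤ Fintype.card Y := by
  have h1 := Finset.card_le_univ t.support
  rw [h, card_om] at h1
  by_contra h2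
  push Not at h2
  have h3 : (Fintype.card Y + 1) * p ≤ k * p := Nat.mul_le_mul_right p h2
  rw [add_mul, one_mul, mul_comm (Fintype.card Y)] at h3
  omega

theorem even_base_odd (hodd : Odd p) {T : Subgroup (Perm (Om p Y Z))} (hcard : p + 2 ≤ Fintype.card (Om p Y Z))
    (hZ : Fintype.card Z < p)
    (hcl : ∀ x ∈ T, ∀ g : Perm (Om p Y Z), sign g = 1 → g * x * g⁻¹ ∈ (WrS (P : Subgroup (Perm Y)) : Subgroup (Perm (Om p Y Z))) →
      g * x * g⁻¹ ∈ T) {t : Perm (Om p Y Z)} (ht : t ∈ T) (hto : orderOf t = p) (a : Y → ZMod p) : ee a ∈ T := by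
  obtain ⟨k, -, hk⟩ := exists_k hto
  obtain ⟨A, -, hA⟩ := Finset.exists_subset_card_eq (s := (Finset.univ : Finset Y)) (n := k + 1)
    (by rw [Finset.card_univ]; exact card_k hZ hk)
  have hAne : A.Nonempty := by
    rw [← Finset.card_pos]; omega
  obtain ⟨i, hi⟩ := hAne
  have h2 : (2 : ZMod p) ≠ 0 := by
    intro h
    have h3 : (p : ℕ) ∣ 2 := (ZMod.natCast_eq_zero_iff 2 p).mp (by exact_mod_cast h)
    have h4 := (Nat.prime_dvd_prime_iff_eq hp.out Nat.prime_two).mp h3
    subst h4
    exact absurd hodd (by decide)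
  have h1 : (ee (ind A) : Perm (Om p Y Z)) ∈ T := by
    refine mem_of_ind hcard hcl ht (ee_mem_WrS _ _) hto (orderOf_ee (ind_ne_zero ⟨i, hi⟩)) ?_
    rw [hk, support_ind, hA]
  set a' : Y → ZMod p := ind A - Pi.single i 2 with ha'
  have ha'ne : ∀ j, a' j ≠ 0 ↔ (ind A j : ZMod p) ≠ 0 := by
    intro j
    by_cases hj : j = i
    · subst hj
      rw [ind_ne, ha', Pi.sub_apply, Pi.single_eq_same, ind, if_pos hi]
      have : (1 - 2 : ZMod p) = -1 := by ring
      rw [this]
      simp [hi]
    · rw [ha', Pi.sub_apply, Pi.single_eq_of_ne hj, sub_zero]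
  have h3 : (ee a' : Perm (Om p Y Z)) ∈ T := by
    refine mem_of_ind hcard hcl ht (ee_mem_WrS _ _) hto (orderOf_ee ?_) ?_
    · intro h
      have := (ha'ne i).mpr ((ind_ne i).mpr hi)
      exact this (congrFun h i)
    · rw [hk, support_ee]
      have : (Finset.univ.filter fun i => a' i ≠ 0) = Finset.univ.filter fun i => (ind A i : ZMod p) ≠ 0 := by
        ext j; rw [Finset.mem_filter, Finset.mem_filter, ha'ne]
      rw [this, card_ind, hA]
  have h4 : (ee (Pi.single i 2) : Perm (Om p Y Z)) ∈ T := by
    have : (Pi.single i 2 : Y → ZMod p) = ind A + -a' := by rw [ha']; abel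
    rw [this, ee_add, ee_neg]
    exact T.mul_mem h1 (T.inv_mem h3)
  have h5 : ∀ (j : Y) (c : ZMod p), (ee (Pi.single j c) : Perm (Om p Y Z)) ∈ T := by
    intro j c
    by_cases hc : c = 0
    · rw [hc, Pi.single_zero, ee_zero]; exact T.one_mem
    have hcard1 : ∀ (j : Y) (c : ZMod p), c ≠ 0 →
        (ee (Pi.single j c) : Perm (Om p Y Z)).support.card = p := by
      intro j c hc
      rw [support_ee]
      have : (Finset.univ.filter fun i => (Pi.single j c : Y → ZMod p) i ≠ 0) = {j} := by
        ext l
        rw [Finset.mem_filter, Finset.mem_singleton]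
        by_cases hl : l = j
        · subst hl; simp [hc]
        · simp [hl]
      rw [this, Finset.card_singleton, one_mul]
    refine mem_of_ind hcard hcl h4 (ee_mem_WrS _ _) (orderOf_ee ?_) (orderOf_ee ?_) ?_
    · intro h
      have := congrFun h i
      rw [Pi.single_eq_same, Pi.zero_apply] at this
      exact h2 this
    · intro h
      have := congrFun h j
      rw [Pi.single_eq_same, Pi.zero_apply] at this
      exact hc this
    · rw [hcard1 i 2 h2, hcard1 j c hc]
  -- sums
  let B : AddSubgroup (Y → ZMod p) :=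
    { carrier := {a | (ee a : Perm (Om p Y Z)) ∈ T}
      add_mem' := by
        intro a b ha hb
        show ee (a + b) ∈ T
        rw [ee_add]; exact T.mul_mem ha hb
      zero_mem' := by
        show ee 0 ∈ T
        rw [ee_zero]; exact T.one_mem
      neg_mem' := by
        intro a ha
        show ee (-a) ∈ T
        rw [ee_neg]; exact T.inv_mem ha }
  have h6 : a ∈ B := by
    rw [← Finset.univ_sum_single a]
    exact B.sum_mem fun j _ => h5 j (a j)
  exact h6

end model

section two

variable {Y Z : Type*} [Fintype Y] [DecidableEq Y] [Fintype Z] [DecidableEq Z] {P : Sylow 2 (Perm Y)}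

theorem even_base_two {T : Subgroup (Perm (Om 2 Y Z))} (hcard : 2 + 2 ≤ Fintype.card (Om 2 Y Z))
    (hZ : Fintype.card Z < 2) (hsw : 3 ≤ Fintype.card Y → ∃ i j : Y, i ≠ j ∧ Equiv.swap i j ∈ (P : Subgroup (Perm Y)))
    (hTA : ∀ t ∈ T, sign t = 1)
    (hcl : ∀ x ∈ T, ∀ g : Perm (Om 2 Y Z), sign g = 1 → g * x * g⁻¹ ∈ (WrS (P : Subgroup (Perm Y)) : Subgroup (Perm (Om 2 Y Z))) →
      g * x * g⁻¹ ∈ T) {t : Perm (Om 2 Y Z)} (ht : t ∈ T) (hto : orderOf t = 2) (a : Y → ZMod 2)
    (ha : sign (ee a : Perm (Om 2 Y Z)) = 1) : ee a ∈ T := by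
  obtain ⟨k, hkt, hk⟩ := exists_k hto
  have hkY : k + 1 ≤ Fintype.card Y := card_k hZ hk
  have hk1 : 1 ≤ k := by
    by_contra h
    have h0 : k = 0 := by omega
    have h1 := hTA t ht
    rw [sign_of_cycleType, hkt, h0] at h1
    simp at h1
    exact absurd h1 (by decide)
  -- an element of T of order 2 with support of size 4
  obtain ⟨s, hs, hso, hsc⟩ : ∃ s ∈ T, orderOf s = 2 ∧ s.support.card = 4 := by
    by_cases hk2 : k = 1
    · exact ⟨t, ht, hto, by rw [hk, hk2]⟩
    obtain ⟨i, j, hij, hsw⟩ := hsw (by omega)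
    obtain ⟨A, hA1, -, hA⟩ := Finset.exists_subsuperset_card_eq (s := ({i, j} : Finset Y)) (t := Finset.univ)
      (n := k + 1) (Finset.subset_univ _) (by rw [Finset.card_pair hij]; omega) (by rw [Finset.card_univ]; exact hkY)
    have hi : i ∈ A := hA1 (by simp)
    have hj : j ∈ A := hA1 (by simp)
    have h1 : (ee (ind A) : Perm (Om 2 Y Z)) ∈ T := by
      refine mem_of_ind hcard hcl ht (ee_mem_WrS _ _) hto (orderOf_ee (ind_ne_zero ⟨i, hi⟩)) ?_
      rw [hk, support_ind, hA]
    -- the element t'
    set b : Y → ZMod 2 := ind (A \ {i, j}) with hb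
    set t' : Perm (Om 2 Y Z) := bb (Equiv.swap i j) * ee b with ht'
    have hbi : b i = 0 := by rw [hb, ind, if_neg]; simp
    have hbj : b j = 0 := by rw [hb, ind, if_neg]; simp
    have hbsw : (fun l => b (Equiv.swap i j l)) = b := by
      funext l
      by_cases hli : l = i
      · rw [hli, Equiv.swap_apply_left, hbi, hbj]
      by_cases hlj : l = j
      · rw [hlj, Equiv.swap_apply_right, hbi, hbj]
      rw [Equiv.swap_apply_of_ne_of_ne hli hlj]
    have ht'2 : t' ^ 2 = 1 := by
      rw [sq, ht']
      calc bb (Equiv.swap i j) * ee b * (bb (Equiv.swap i j) * ee b)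
          = bb (Equiv.swap i j) * (ee b * bb (Equiv.swap i j)) * ee b := by group
        _ = bb (Equiv.swap i j) * (bb (Equiv.swap i j) * ee b) * ee b := by rw [ee_bb, hbsw]
        _ = (bb (Equiv.swap i j) * bb (Equiv.swap i j)) * (ee b * ee b) := by group
        _ = 1 := by
          rw [← map_mul, Equiv.swap_mul_self, map_one, one_mul, ← ee_add]
          have : b + b = 0 := by
            funext l
            exact CharTwo.add_self_eq_zero (b l)
          rw [this, ee_zero]
    have ht'i : ∀ y, t' (Sum.inl (i, y)) = Sum.inl (j, y) := by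
      intro y
      rw [ht', Perm.mul_apply, ee_inl, bb_inl, hbi, add_zero, Equiv.swap_apply_left]
    have ht'1 : t' ≠ 1 := by
      intro h
      have h2 := ht'i 0
      rw [h, Perm.one_apply] at h2
      exact hij (congrArg Prod.fst (Sum.inl_injective h2))
    have ht'o : orderOf t' = 2 := orderOf_eq_prime ht'2 ht'1
    have ht'W : t' ∈ (WrS (P : Subgroup (Perm Y)) : Subgroup (Perm (Om 2 Y Z))) := ⟨_, hsw, b, rfl⟩
    have ht'c : t'.support.card = (ee (ind A) : Perm (Om 2 Y Z)).support.card := by
      congr 1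
      ext x
      rw [mem_support, mem_support, not_iff_not]
      rcases x with ⟨l, y⟩ | z
      · rw [ht', Perm.mul_apply, ee_inl, bb_inl, ee_inl]
        by_cases hli : l = i
        · subst hli
          rw [Equiv.swap_apply_left]
          constructor
          · intro h
            exact absurd (congrArg Prod.fst (Sum.inl_injective h)) (Ne.symm hij)
          · intro h
            have h2 := congrArg Prod.snd (Sum.inl_injective h)
            rw [ind, if_pos hi] at h2
            exact absurd (by simpa using h2) (one_ne_zero (α := ZMod 2))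
        by_cases hlj : l = j
        · subst hlj
          rw [Equiv.swap_apply_right]
          constructor
          · intro h
            exact absurd (congrArg Prod.fst (Sum.inl_injective h)) hij
          · intro h
            have h2 := congrArg Prod.snd (Sum.inl_injective h)
            rw [ind, if_pos hj] at h2
            exact absurd (by simpa using h2) (one_ne_zero (α := ZMod 2))
        rw [Equiv.swap_apply_of_ne_of_ne hli hlj]
        have : b l = ind A l := by
          rw [hb, ind, ind]
          simp [hli, hlj]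
        rw [this]
      · rw [ht', Perm.mul_apply, ee_inr, bb_inr, ee_inr]
    have h2 : t' ∈ T := by
      refine mem_of_ind hcard hcl h1 ht'W (orderOf_ee (ind_ne_zero ⟨i, hi⟩)) ht'o ht'c.symm
    refine ⟨ee (ind A) * t', T.mul_mem h1 h2, ?_, ?_⟩
    all_goals
      have hAsw : (fun l => (ind A : Y → ZMod 2) (Equiv.swap i j l)) = ind A := by
        funext l
        by_cases hli : l = i
        · rw [hli, Equiv.swap_apply_left, ind, ind, if_pos hi, if_pos hj]
        by_cases hlj : l = j
        · rw [hlj, Equiv.swap_apply_right, ind, ind, if_pos hi, if_pos hj]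
        rw [Equiv.swap_apply_of_ne_of_ne hli hlj]
      have h3 : (ee (ind A) * t' : Perm (Om 2 Y Z)) = bb (Equiv.swap i j) * ee (ind {i, j}) := by
        rw [ht', ← mul_assoc, ee_bb, hAsw, mul_assoc, ← ee_add]
        congr 2
        funext l
        rw [Pi.add_apply, hb, ind, ind, ind]
        by_cases hli : l = i
        · subst hli; simp [hi]
        by_cases hlj : l = j
        · subst hlj; simp [hj]
        by_cases hlA : l ∈ A
        · simp [hli, hlj, hlA]; decide
        · simp [hli, hlj, hlA]
      rw [h3]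
    · apply orderOf_eq_prime
      · rw [sq]
        calc bb (Equiv.swap i j) * ee (ind {i, j}) * (bb (Equiv.swap i j) * ee (ind {i, j}))
            = bb (Equiv.swap i j) * (ee (ind {i, j}) * bb (Equiv.swap i j)) * ee (ind {i, j}) := by group
          _ = bb (Equiv.swap i j) * (bb (Equiv.swap i j) * ee (ind {i, j})) * ee (ind {i, j}) := by
            have hf : (fun l => (ind {i, j} : Y → ZMod 2) (Equiv.swap i j l)) = ind {i, j} := by
              funext l
              by_cases hli : l = i
              · rw [hli, Equiv.swap_apply_left, ind, ind, if_pos (by simp), if_pos (by simp)]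
              by_cases hlj : l = j
              · rw [hlj, Equiv.swap_apply_right, ind, ind, if_pos (by simp), if_pos (by simp)]
              rw [Equiv.swap_apply_of_ne_of_ne hli hlj]
            rw [ee_bb, hf]
          _ = (bb (Equiv.swap i j) * bb (Equiv.swap i j)) * (ee (ind {i, j}) * ee (ind {i, j})) := by group
          _ = 1 := by
            rw [← map_mul, Equiv.swap_mul_self, map_one, one_mul, ← ee_add]
            have : (ind {i, j} : Y → ZMod 2) + ind {i, j} = 0 := by
              funext l
              exact CharTwo.add_self_eq_zero _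
            rw [this, ee_zero]
      · intro h
        have h4 := congrArg (fun q : Perm (Om 2 Y Z) => q (Sum.inl (i, 0))) h
        simp only [Perm.mul_apply, ee_inl, bb_inl, Equiv.swap_apply_left, Perm.one_apply] at h4
        exact hij (congrArg Prod.fst (Sum.inl_injective h4)).symm
    · have h5 : (bb (Equiv.swap i j) * ee (ind {i, j}) : Perm (Om 2 Y Z)).support =
          (({i, j} : Finset Y) ×ˢ (Finset.univ : Finset (ZMod 2))).map Function.Embedding.inl := by
        ext x
        rw [mem_support]
        rcases x with ⟨l, y⟩ | z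
        · rw [Perm.mul_apply, ee_inl, bb_inl]
          by_cases hli : l = i
          · subst hli
            simp [Ne.symm hij]
          by_cases hlj : l = j
          · subst hlj
            simp [hij]
          rw [Equiv.swap_apply_of_ne_of_ne hli hlj]
          have : (ind {i, j} : Y → ZMod 2) l = 0 := by
            rw [ind, if_neg]; simp [hli, hlj]
          rw [this, add_zero]
          simp [hli, hlj]
        · rw [Perm.mul_apply, ee_inr, bb_inr]
          simp
      rw [h5, Finset.card_map, Finset.card_product, Finset.card_univ, ZMod.card, Finset.card_pair hij]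
  -- all e(single i c + single j c)
  have h1 : ∀ (i j : Y) (c : ZMod 2), (ee (Pi.single i c + Pi.single j c) : Perm (Om 2 Y Z)) ∈ T := by
    intro i j c
    by_cases hc : c = 0
    · rw [hc, Pi.single_zero, Pi.single_zero, add_zero, ee_zero]; exact T.one_mem
    by_cases hij : i = j
    · subst hij
      have : (Pi.single i c + Pi.single i c : Y → ZMod 2) = 0 := by
        funext l
        exact CharTwo.add_self_eq_zero _
      rw [this, ee_zero]; exact T.one_mem
    have h2 : (Pi.single i c + Pi.single j c : Y → ZMod 2) i = c := by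
      rw [Pi.add_apply, Pi.single_eq_same, Pi.single_eq_of_ne hij, add_zero]
    refine mem_of_ind hcard hcl hs (ee_mem_WrS _ _) hso (orderOf_ee ?_) ?_
    · intro h
      rw [h] at h2
      exact hc h2.symm
    · rw [hsc, support_ee]
      have : (Finset.univ.filter fun l => (Pi.single i c + Pi.single j c : Y → ZMod 2) l ≠ 0) = {i, j} := by
        ext l
        rw [Finset.mem_filter, Finset.mem_insert, Finset.mem_singleton, Pi.add_apply]
        by_cases hli : l = i
        · subst hli
          rw [Pi.single_eq_same, Pi.single_eq_of_ne hij]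
          simp [hc]
        by_cases hlj : l = j
        · subst hlj
          rw [Pi.single_eq_same, Pi.single_eq_of_ne hli]
          simp [hc]
        rw [Pi.single_eq_of_ne hli, Pi.single_eq_of_ne hlj]
        simp [hli, hlj]
      rw [this, Finset.card_pair hij]
  -- reduce to one block
  rcases isEmpty_or_nonempty Y with hY | ⟨⟨i0⟩⟩
  · have : a = 0 := Subsingleton.elim _ _
    rw [this, ee_zero]; exact T.one_mem
  let B : AddSubgroup (Y → ZMod 2) :=
    { carrier := {a | (ee a : Perm (Om 2 Y Z)) ∈ T}
      add_mem' := by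
        intro a b ha hb
        show ee (a + b) ∈ T
        rw [ee_add]; exact T.mul_mem ha hb
      zero_mem' := by
        show ee 0 ∈ T
        rw [ee_zero]; exact T.one_mem
      neg_mem' := by
        intro a ha
        show ee (-a) ∈ T
        rw [ee_neg]; exact T.inv_mem ha }
  have h2 : a + Pi.single i0 (∑ j, a j) ∈ B := by
    have h3 : a + Pi.single i0 (∑ j, a j) = ∑ j, (Pi.single j (a j) + Pi.single i0 (a j)) := by
      rw [Finset.sum_add_distrib, Finset.univ_sum_single]
      congr 1
      funext l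
      rw [Finset.sum_apply]
      by_cases hl : l = i0
      · subst hl; simp
      · simp [hl]
    rw [h3]
    exact B.sum_mem fun j _ => h1 j i0 (a j)
  have h3 : (ee (a + Pi.single i0 (∑ j, a j)) : Perm (Om 2 Y Z)) ∈ T := h2
  have h4 := hTA _ h3
  rw [ee_add, map_mul, ha, one_mul] at h4
  rcases (by decide : ∀ c : ZMod 2, c = 0 ∨ c = 1) (∑ j, a j) with h5 | h5
  · rw [h5, Pi.single_zero, add_zero] at h3
    exact h3
  · exfalso
    rw [h5] at h4
    have h6 : orderOf (ee (Pi.single i0 1) : Perm (Om 2 Y Z)) = 2 := orderOf_ee (by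
      intro h
      have := congrFun h i0
      rw [Pi.single_eq_same, Pi.zero_apply] at this
      exact one_ne_zero this)
    obtain ⟨l, hl, hl'⟩ := exists_k h6
    have h7 : (Finset.univ.filter fun i => (Pi.single i0 1 : Y → ZMod 2) i ≠ 0) = {i0} := by
      ext l
      rw [Finset.mem_filter, Finset.mem_singleton]
      by_cases hl : l = i0
      · subst hl; simp
      · simp [hl]
    rw [support_ee, h7, Finset.card_singleton] at hl'
    have h8 : l = 0 := by omega
    rw [sign_of_cycleType, hl, h8] at h4
    simp at h4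
    exact absurd h4 (by decide)

end two

section main

variable {p : ℕ} [hp : Fact p.Prime] {Y Z : Type*} [Fintype Y] [DecidableEq Y] [Fintype Z] [DecidableEq Z]
  {P : Sylow p (Perm Y)}

/-- A nontrivial strongly closed subgroup of the Sylow subgroup of the alternating group is the whole Sylow subgroup. -/
theorem le_of_closed {T : Subgroup (Perm (Om p Y Z))} (hcard : p + 2 ≤ Fintype.card (Om p Y Z))
    (hZ : Fintype.card Z < p)
    (hsw : p = 2 → 3 ≤ Fintype.card Y → ∃ i j : Y, i ≠ j ∧ Equiv.swap i j ∈ (P : Subgroup (Perm Y)))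
    (hTW : T ≤ (WrS (P : Subgroup (Perm Y)) : Subgroup (Perm (Om p Y Z)))) (hT1 : T ≠ ⊥)
    (hTA : ∀ t ∈ T, sign t = 1)
    (hcl : ∀ x ∈ T, ∀ g : Perm (Om p Y Z), sign g = 1 → g * x * g⁻¹ ∈ (WrS (P : Subgroup (Perm Y)) : Subgroup (Perm (Om p Y Z))) →
      g * x * g⁻¹ ∈ T) {x : Perm (Om p Y Z)} (hx : x ∈ (WrS (P : Subgroup (Perm Y)) : Subgroup (Perm (Om p Y Z))))
    (hxs : sign x = 1) : x ∈ T := by
  have hpW : IsPGroup p (WrS (P : Subgroup (Perm Y)) : Subgroup (Perm (Om p Y Z))) := (sylWr P hZ).isPGroup'
  -- an element of order p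
  obtain ⟨t, ht, hto⟩ : ∃ t ∈ T, orderOf t = p := by
    have hTp : IsPGroup p T := hpW.to_le hTW
    obtain ⟨k, hk⟩ := IsPGroup.iff_card.mp hTp
    have h1 : p ∣ Nat.card T := by
      rw [hk]
      apply dvd_pow_self
      rintro rfl
      rw [pow_zero] at hk
      exact hT1 (Subgroup.eq_bot_of_card_eq _ hk)
    obtain ⟨t, ht⟩ := exists_prime_orderOf_dvd_card' p h1
    exact ⟨t, t.2, by rw [Subgroup.orderOf_coe]; exact ht⟩
  have hbase : ∀ a : Y → ZMod p, sign (ee a : Perm (Om p Y Z)) = 1 → (ee a : Perm (Om p Y Z)) ∈ T := by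
    intro a ha
    rcases hp.out.eq_two_or_odd' with h2 | hodd
    · subst h2
      exact even_base_two hcard hZ (hsw rfl) hTA hcl ht hto a ha
    · exact even_base_odd hodd hcard hZ hcl ht hto a
  have hord : ∀ y ∈ (WrS (P : Subgroup (Perm Y)) : Subgroup (Perm (Om p Y Z))), sign y = 1 → y ^ p = 1 → y ∈ T := by
    intro y hy hys hyp
    by_cases hy1 : y = 1
    · rw [hy1]; exact T.one_mem
    have hyo : orderOf y = p := orderOf_eq_prime hyp hy1
    obtain ⟨k, hkt, hk⟩ := exists_k hyo
    obtain ⟨A, -, hA⟩ := Finset.exists_subset_card_eq (s := (Finset.univ : Finset Y)) (n := k + 1)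
      (by rw [Finset.card_univ]; exact card_k hZ hk)
    have hAne : A.Nonempty := by
      rw [← Finset.card_pos]; omega
    have h1 : (ee (ind A) : Perm (Om p Y Z)) ∈ T := by
      apply hbase
      obtain ⟨l, hlt, hl⟩ := exists_k (orderOf_ee (Z := Z) (ind_ne_zero (p := p) hAne))
      rw [support_ind, hA] at hl
      have h2 : k = l := by
        have := Nat.eq_of_mul_eq_mul_right hp.out.pos hl
        omega
      rw [sign_of_cycleType, hlt, ← h2, ← hkt, ← sign_of_cycleType]
      exact hys
    refine mem_of_ind hcard hcl h1 hy (orderOf_ee (ind_ne_zero hAne)) hyo ?_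
    rw [hk, support_ind, hA]
  obtain ⟨π, hπ, a, rfl⟩ := hx
  have h1 : sign (bb π : Perm (Om p Y Z)) = 1 := sign_bb_of_mem hπ
  rw [map_mul, h1, one_mul] at hxs
  refine T.mul_mem ?_ (hbase a hxs)
  have h2 := gen_perm' (p := p) Y P π hπ
  have h3 := closure_map_mem (bb : Perm Y →* Perm (Om p Y Z)) (B := (T : Set (Perm (Om p Y Z)))) ?_ h2
  · rwa [Subgroup.closure_eq] at h3
  · rintro ρ ⟨hρ, hρp⟩
    exact hord _ (bb_mem_WrS hρ) (sign_bb_of_mem hρ) (by rw [← map_pow, hρp, map_one])

end main

end Cfsg.Agent.Lib.AltWrSC
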