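import Cfsg.Agent.Lib.AltWrR1
import Cfsg.Agent.Lib.SylowTwoAlt

set_option autoImplicit false

/-!
Simplicity of the `p`-fusion systems of alternating groups.
-/

namespace Cfsg.Agent.Lib.AltWrSimple

open Cfsg Equiv Equiv.Perm Cfsg.Agent.Lib.AltWr Cfsg.Agent.Lib.AltWrAb Cfsg.Agent.Lib.AltWrSC Cfsg.Agent.Lib.AltWrNorm
  Cfsg.Agent.Lib.AltWrR1 Cfsg.Agent.Lib.FusionGood

section norm

variable {p : ℕ} [hp : Fact p.Prime] {Y Z : Type*} [Fintype Y] [DecidableEq Y] [Fintype Z] [DecidableEq Z]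
  {P : Sylow p (Perm Y)}

theorem mem_base_of_support {x : Perm (Om p Y Z)} (hx : x ∈ (WrS (P : Subgroup (Perm Y)) : Subgroup (Perm (Om p Y Z))))
    (hxc : x.support.card = p) : x ∈ (base : Subgroup (Perm (Om p Y Z))) := by
  obtain ⟨π, hπ, a, rfl⟩ := hx
  by_cases h : π = 1
  · subst h
    rw [map_one, one_mul]; exact ee_base a
  exfalso
  obtain ⟨i, hi⟩ : ∃ i, π i ≠ i := by
    by_contra h2
    push Not at h2
    exact h (Equiv.ext h2)
  have h1 : (({i, π i} : Finset Y) ×ˢ (Finset.univ : Finset (ZMod p))).map Function.Embedding.inl ⊆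
      (bb π * ee a : Perm (Om p Y Z)).support := by
    intro q hq
    rw [Finset.mem_map] at hq
    obtain ⟨⟨j, y⟩, hj, rfl⟩ := hq
    rw [Finset.mem_product, Finset.mem_insert, Finset.mem_singleton] at hj
    rw [mem_support]
    show (bb π * ee a : Perm (Om p Y Z)) (Sum.inl (j, y)) ≠ Sum.inl (j, y)
    rw [Perm.mul_apply, ee_inl, bb_inl]
    intro h2
    have h3 : π j = j := congrArg Prod.fst (Sum.inl_injective h2)
    rcases hj.1 with h4 | h4
    · have h4' : j = i := h4
      rw [h4'] at h3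
      exact hi h3
    · have h4' : j = π i := h4
      rw [h4'] at h3
      exact hi (π.injective h3)
  have h2 := Finset.card_le_card h1
  rw [Finset.card_map, Finset.card_product, Finset.card_pair (Ne.symm hi), Finset.card_univ, ZMod.card, hxc] at h2
  have := hp.out.pos
  omega

theorem support_single {i : Y} {c : ZMod p} (hc : c ≠ 0) :
    (ee (Pi.single i c) : Perm (Om p Y Z)).support.card = p := by
  rw [support_ee]
  have : (Finset.univ.filter fun l => (Pi.single i c : Y → ZMod p) l ≠ 0) = {i} := by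
    ext l
    rw [Finset.mem_filter, Finset.mem_singleton]
    by_cases hl : l = i
    · subst hl; simp [hc]
    · simp [hl]
  rw [this, Finset.card_singleton, one_mul]

theorem norm_of_norm {g : Perm (Om p Y Z)} (hg : g ∈ Subgroup.normalizer
    ((WrS (P : Subgroup (Perm Y)) : Subgroup (Perm (Om p Y Z))) : Set (Perm (Om p Y Z)))) :
    g ∈ Subgroup.normalizer ((base : Subgroup (Perm (Om p Y Z))) : Set (Perm (Om p Y Z))) := by
  have key : ∀ h : Perm (Om p Y Z), h ∈ Subgroup.normalizer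
      ((WrS (P : Subgroup (Perm Y)) : Subgroup (Perm (Om p Y Z))) : Set (Perm (Om p Y Z))) →
      ∀ a : Y → ZMod p, h * ee a * h⁻¹ ∈ (base : Subgroup (Perm (Om p Y Z))) := by
    intro h hh a
    let B : AddSubgroup (Y → ZMod p) :=
      { carrier := {a | h * ee a * h⁻¹ ∈ (base : Subgroup (Perm (Om p Y Z)))}
        add_mem' := by
          intro a b ha hb
          show h * ee (a + b) * h⁻¹ ∈ (base : Subgroup (Perm (Om p Y Z)))
          have : h * ee (a + b) * h⁻¹ = h * ee a * h⁻¹ * (h * ee b * h⁻¹) := by rw [ee_add]; group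
          rw [this]; exact Subgroup.mul_mem _ ha hb
        zero_mem' := by
          show h * ee 0 * h⁻¹ ∈ (base : Subgroup (Perm (Om p Y Z)))
          rw [ee_zero, mul_one, mul_inv_cancel]; exact Subgroup.one_mem _
        neg_mem' := by
          intro a ha
          show h * ee (-a) * h⁻¹ ∈ (base : Subgroup (Perm (Om p Y Z)))
          have : h * ee (-a) * h⁻¹ = (h * ee a * h⁻¹)⁻¹ := by rw [ee_neg]; group
          rw [this]; exact Subgroup.inv_mem _ ha }
    have h1 : a ∈ B := by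
      rw [← Finset.univ_sum_single a]
      refine B.sum_mem fun j _ => ?_
      show h * ee (Pi.single j (a j)) * h⁻¹ ∈ (base : Subgroup (Perm (Om p Y Z)))
      by_cases hc : a j = 0
      · rw [hc, Pi.single_zero, ee_zero, mul_one, mul_inv_cancel]; exact Subgroup.one_mem _
      · apply mem_base_of_support (P := P)
        · exact (Subgroup.mem_normalizer_iff.mp hh _).mp (ee_mem_WrS _ _)
        · rw [card_support_conj]
          exact support_single hc
    exact h1
  apply mem_norm_base_of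
  · exact key g hg
  · intro a
    have := key g⁻¹ (Subgroup.inv_mem _ hg) a
    rwa [inv_inv] at this

end norm

section odd

variable {p : ℕ} [hp : Fact p.Prime] {W Z : Type*} [Fintype W] [DecidableEq W] [Fintype Z] [DecidableEq Z]

theorem tt_lam (r : (ZMod p)ˣ) : Lam (tt r : Perm (Om p (ZMod p ⊕ W) Z)) r⁻¹ := by
  refine ⟨Perm.sumCongr r.mulLeft 1, Sum.elim (fun _ => r⁻¹) 1, 0, ?_, ?_⟩
  · refine ext3 (fun a y => ?_) (fun j y => ?_) (fun z => ?_)
    · rw [tt_l, Perm.mul_apply, Perm.mul_apply, ee_inl, dd_inl, bb_inl, Pi.zero_apply, add_zero]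
      rfl
    · rw [tt_r, Perm.mul_apply, Perm.mul_apply, ee_inl, dd_inl, bb_inl, Pi.zero_apply, add_zero, Sum.elim_inr,
        Pi.one_apply, Units.val_one, one_mul]
      rfl
    · rfl
  · rw [Fintype.prod_sum_type]
    simp only [Sum.elim_inl, Sum.elim_inr, Pi.one_apply, Finset.prod_const_one, mul_one, Finset.prod_const,
      Finset.card_univ, ZMod.card]
    apply Units.ext
    rw [Units.val_pow_eq_pow_val]
    exact ZMod.pow_card _

theorem tt_closure (hodd : Odd p) (r : (ZMod p)ˣ) : (tt r : Perm (Om p (ZMod p ⊕ W) Z)) ∈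
    Subgroup.closure {x : Perm (Om p (ZMod p ⊕ W) Z) | x ∈ alternatingGroup (Om p (ZMod p ⊕ W) Z) ∧
      x ∈ Subgroup.normalizer ((R1 : Subgroup (Perm (Om p (ZMod p ⊕ W) Z))) : Set (Perm (Om p (ZMod p ⊕ W) Z))) ∧
      ∃ k : ℕ, orderOf x = p ^ k} := by
  have h12 : ∀ c : ZMod p, (blk (e12 c) : Perm (Om p (ZMod p ⊕ W) Z)) ∈
    Subgroup.closure {x : Perm (Om p (ZMod p ⊕ W) Z) | x ∈ alternatingGroup (Om p (ZMod p ⊕ W) Z) ∧
      x ∈ Subgroup.normalizer ((R1 : Subgroup (Perm (Om p (ZMod p ⊕ W) Z))) : Set (Perm (Om p (ZMod p ⊕ W) Z))) ∧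
      ∃ k : ℕ, orderOf x = p ^ k} := by
    intro c
    have h1 : (blk (e12 c) : Perm (Om p (ZMod p ⊕ W) Z)) ^ p = 1 := by rw [← map_pow, e12_pow, map_one]
    exact Subgroup.subset_closure ⟨mem_alternatingGroup.mpr (sign_of_pow hodd h1), blk_norm (e12_add c),
      orderOf_of_pow h1⟩
  have h21 : ∀ c : ZMod p, (blk (e21 c) : Perm (Om p (ZMod p ⊕ W) Z)) ∈
    Subgroup.closure {x : Perm (Om p (ZMod p ⊕ W) Z) | x ∈ alternatingGroup (Om p (ZMod p ⊕ W) Z) ∧
      x ∈ Subgroup.normalizer ((R1 : Subgroup (Perm (Om p (ZMod p ⊕ W) Z))) : Set (Perm (Om p (ZMod p ⊕ W) Z))) ∧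
      ∃ k : ℕ, orderOf x = p ^ k} := by
    intro c
    have h1 : (blk (e21 c) : Perm (Om p (ZMod p ⊕ W) Z)) ^ p = 1 := by rw [← map_pow, e21_pow, map_one]
    exact Subgroup.subset_closure ⟨mem_alternatingGroup.mpr (sign_of_pow hodd h1), blk_norm (e21_add c),
      orderOf_of_pow h1⟩
  rw [tt]
  simp only [map_mul]
  exact Subgroup.mul_mem _ (Subgroup.mul_mem _ (Subgroup.mul_mem _ (h12 _) (h21 _)) (h12 _))
    (Subgroup.mul_mem _ (Subgroup.mul_mem _ (h12 _) (h21 _)) (h12 _))

theorem WrS_le_alt (hodd : Odd p) (P : Sylow p (Perm (ZMod p ⊕ W))) :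
    (WrS (P : Subgroup (Perm (ZMod p ⊕ W))) : Subgroup (Perm (Om p (ZMod p ⊕ W) Z))) ≤
      alternatingGroup (Om p (ZMod p ⊕ W) Z) := by
  rintro _ ⟨π, hπ, a, rfl⟩
  rw [mem_alternatingGroup, map_mul, sign_bb_of_mem hπ, sign_of_pow hodd (ee_pow_p a), mul_one]

theorem strong {Y : Type*} [Fintype Y] [DecidableEq Y] {P : Sylow p (Perm Y)}
    (hcard : p + 2 ≤ Fintype.card (Om p Y Z)) (hZ : Fintype.card Z < p)
    (hsw : p = 2 → 3 ≤ Fintype.card Y → ∃ i j : Y, i ≠ j ∧ Equiv.swap i j ∈ (P : Subgroup (Perm Y)))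
    (T : Subgroup (Perm (Om p Y Z)))
    (hT : T ≤ (WrS (P : Subgroup (Perm Y)) : Subgroup (Perm (Om p Y Z))) ⊓ alternatingGroup (Om p Y Z))
    (hcl : ∀ x ∈ T, ∀ g ∈ alternatingGroup (Om p Y Z),
      g * x * g⁻¹ ∈ (WrS (P : Subgroup (Perm Y)) : Subgroup (Perm (Om p Y Z))) ⊓ alternatingGroup (Om p Y Z) →
      g * x * g⁻¹ ∈ T) :
    T = ⊥ ∨ T = (WrS (P : Subgroup (Perm Y)) : Subgroup (Perm (Om p Y Z))) ⊓ alternatingGroup (Om p Y Z) := by
  by_cases hT1 : T = ⊥
  · exact Or.inl hT1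
  right
  apply le_antisymm hT
  rintro x ⟨hx, hxA⟩
  refine le_of_closed hcard hZ hsw (hT.trans inf_le_left) hT1 ?_ ?_ hx (mem_alternatingGroup.mp hxA)
  · intro t ht
    exact mem_alternatingGroup.mp (hT ht).2
  · intro t ht g hg hgt
    refine hcl t ht g (mem_alternatingGroup.mpr hg) (Subgroup.mem_inf.mpr ⟨hgt, ?_⟩)
    rw [mem_alternatingGroup, map_mul, map_mul, mem_alternatingGroup.mp (hT ht).2, hg, map_inv, hg]
    rfl

theorem crit_odd (hodd : Odd p) (hZ : Fintype.card Z ≤ 1) (P : Sylow p (Perm (ZMod p ⊕ W)))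
    (hP : ∀ u, (kap u : Perm (ZMod p ⊕ W)) ∈ (P : Subgroup (Perm (ZMod p ⊕ W)))) :
    CritG p (((WrS (P : Subgroup (Perm (ZMod p ⊕ W))) : Subgroup (Perm (Om p (ZMod p ⊕ W) Z))) ⊓
      alternatingGroup (Om p (ZMod p ⊕ W) Z)).subgroupOf (alternatingGroup (Om p (ZMod p ⊕ W) Z))) := by
  have hp3 : 3 ≤ p := by
    have h4 := hp.out.two_le
    have h5 : p ≠ 2 := by rintro rfl; exact absurd hodd (by decide)
    omega
  have hZ' : Nat.card Z ≤ 1 := by rw [Nat.card_eq_fintype_card]; exact hZ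
  have hU : (WrS (P : Subgroup (Perm (ZMod p ⊕ W))) : Subgroup (Perm (Om p (ZMod p ⊕ W) Z))) ⊓
      alternatingGroup (Om p (ZMod p ⊕ W) Z) = WrS (P : Subgroup (Perm (ZMod p ⊕ W))) :=
    inf_eq_left.mpr (WrS_le_alt hodd P)
  refine FusionGoodRel.crit_of_rel (R := base) inf_le_right ?_ ?_ ?_ ?_
  · refine strong ?_ (by omega) (fun h => absurd h (by omega))
    rw [card_om, Fintype.card_sum, ZMod.card, mul_add]
    nlinarith
  · rw [hU]; exact base_le_WrS _
  · intro c _ hc
    exact base_cent hZ' hc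
  · intro g hgA hgU
    rw [hU] at hgU ⊢
    have hgN := norm_of_norm hgU
    refine ⟨hgN, ?_⟩
    obtain ⟨l, hl⟩ := exists_lam hZ' hgN
    have h1 : Lam (g * tt l : Perm (Om p (ZMod p ⊕ W) Z)) 1 := by
      have := hl.mul (tt_lam (Z := Z) (W := W) l)
      rwa [mul_inv_cancel] at this
    have httA : (tt l : Perm (Om p (ZMod p ⊕ W) Z)) ∈ alternatingGroup (Om p (ZMod p ⊕ W) Z) := by
      refine (Subgroup.closure_le _).mpr ?_ (tt_closure hodd l)
      rintro x ⟨hx, -⟩
      exact hx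
    have h2A : g * tt l ∈ alternatingGroup (Om p (ZMod p ⊕ W) Z) := Subgroup.mul_mem _ hgA httA
    have h2 := h1.mem_closure hodd (mem_alternatingGroup.mp h2A)
    have h3 : g = g * tt l * (tt l)⁻¹ := by group
    rw [h3]
    apply Subgroup.mul_mem
    · apply Subgroup.subset_closure
      exact ⟨h2A, h1.norm, base, base_le_WrS _, fun c _ hc => base_cent hZ' hc, h2⟩
    · apply Subgroup.inv_mem
      apply Subgroup.subset_closure
      exact ⟨httA, (tt_lam l).norm, R1, R1_le hP, fun c _ hc => R1_cent hZ' hc, tt_closure hodd l⟩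

end odd

section two

variable {Y Z : Type*} [Fintype Y] [DecidableEq Y] [Fintype Z] [DecidableEq Z]

theorem crit_two (hcard : 6 ≤ Fintype.card (Om 2 Y Z)) (hZ : Fintype.card Z < 2) (P : Sylow 2 (Perm Y))
    (hsw : ∃ i j : Y, i ≠ j ∧ Equiv.swap i j ∈ (P : Subgroup (Perm Y)))
    (R : Sylow 2 (alternatingGroup (Om 2 Y Z)))
    (hR : (R : Subgroup (alternatingGroup (Om 2 Y Z))) =
      ((WrS (P : Subgroup (Perm Y)) : Subgroup (Perm (Om 2 Y Z))) ⊓
      alternatingGroup (Om 2 Y Z)).subgroupOf (alternatingGroup (Om 2 Y Z))) :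
    CritG 2 (((WrS (P : Subgroup (Perm Y)) : Subgroup (Perm (Om 2 Y Z))) ⊓
      alternatingGroup (Om 2 Y Z)).subgroupOf (alternatingGroup (Om 2 Y Z))) := by
  have e : Fin (Fintype.card (Om 2 Y Z)) ≃ Om 2 Y Z := (Fintype.equivFin _).symm
  have hSN : SylowTwoAlt.SN (alternatingGroup (Om 2 Y Z)) :=
    SylowTwoAlt.SN_of_equiv (Equiv.altCongrHom e) (SylowTwoAlt.sn_alt hcard)
  have hN : ∀ g : Perm (Om 2 Y Z), g ∈ alternatingGroup (Om 2 Y Z) → g ∈ Subgroup.normalizer
      (((WrS (P : Subgroup (Perm Y)) : Subgroup (Perm (Om 2 Y Z))) ⊓ alternatingGroup (Om 2 Y Z) :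
        Subgroup (Perm (Om 2 Y Z))) : Set (Perm (Om 2 Y Z))) →
      g ∈ (WrS (P : Subgroup (Perm Y)) : Subgroup (Perm (Om 2 Y Z))) ⊓ alternatingGroup (Om 2 Y Z) := by
    intro g hgA hg
    have h1 : (⟨g, hgA⟩ : alternatingGroup (Om 2 Y Z)) ∈ Subgroup.normalizer ((R : Subgroup (alternatingGroup (Om 2 Y Z))) :
        Set (alternatingGroup (Om 2 Y Z))) := by
      rw [hR, FusionGoodRel.mem_normalizer_subgroupOf inf_le_right]
      exact hg
    have h2 := hSN R h1
    rw [hR] at h2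
    exact h2
  refine FusionGoodRel.crit_of_rel (R := (WrS (P : Subgroup (Perm Y)) : Subgroup (Perm (Om 2 Y Z))) ⊓
    alternatingGroup (Om 2 Y Z)) inf_le_right ?_ le_rfl ?_ ?_
  · exact strong (by omega) hZ (fun _ _ => hsw)
  · intro c hcA hc
    apply hN c hcA
    rw [Subgroup.mem_normalizer_iff]
    intro x
    constructor
    · intro hx
      rw [hc x hx, mul_inv_cancel_right]; exact hx
    · intro hx
      have h1 := hc _ hx
      have h2 : c * x * c⁻¹ = x := by
        have h3 : c * x = x * c := by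
          have h4 : c * (c * x * c⁻¹) = c * x * c⁻¹ * c := h1
          have h5 : c * (c * x * c⁻¹) = c * x := by rw [h4]; group
          have h6 : c * x * c⁻¹ = x := mul_left_cancel h5
          calc c * x = c * x * c⁻¹ * c := by group
            _ = x * c := by rw [h6]
        rw [h3, mul_inv_cancel_right]
      rwa [h2] at hx
  · intro g hgA hg
    refine ⟨hg, Subgroup.subset_closure ⟨hgA, hg, _, le_rfl, ?_, Subgroup.subset_closure ⟨hgA, hg, ?_⟩⟩⟩
    · intro c hcA hc
      apply hN c hcA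
      rw [Subgroup.mem_normalizer_iff]
      intro x
      constructor
      · intro hx
        rw [hc x hx, mul_inv_cancel_right]; exact hx
      · intro hx
        have h1 := hc _ hx
        have h4 : c * (c * x * c⁻¹) = c * x * c⁻¹ * c := h1
        have h5 : c * (c * x * c⁻¹) = c * x := by rw [h4]; group
        have h6 : c * x * c⁻¹ = x := mul_left_cancel h5
        rwa [h6] at hx
    · have h1 := hN g hgA hg
      have h2 : (⟨g, hgA⟩ : alternatingGroup (Om 2 Y Z)) ∈ (R : Subgroup (alternatingGroup (Om 2 Y Z))) := by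
        rw [hR]; exact h1
      obtain ⟨k, hk⟩ := (IsPGroup.iff_orderOf.mp R.isPGroup') ⟨_, h2⟩
      refine ⟨k, ?_⟩
      rw [← hk, Subgroup.orderOf_mk, Subgroup.orderOf_mk]

end two

theorem main {n p : ℕ} (hn : 6 ≤ n) [hp : Fact p.Prime] (hnp : p ^ 2 ≤ n) (hb : n % p ≤ 1)
    (S : Sylow p (alternatingGroup (Fin n))) :
    (Cfsg.groupFusionSystem (S : Subgroup (alternatingGroup (Fin n)))).IsSimple p := by
  have hm : p ≤ n / p := by
    rw [Nat.le_div_iff_mul_le hp.out.pos, ← sq]; exact hnp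
  have e : Om p (ZMod p ⊕ Fin (n / p - p)) (Fin (n % p)) ≃ Fin n := Fintype.equivOfCardEq (by
    rw [card_om, Fintype.card_sum, ZMod.card, Fintype.card_fin, Fintype.card_fin, Fintype.card_fin,
      Nat.add_sub_cancel' hm]
    exact Nat.div_add_mod n p)
  have hcardn : Fintype.card (Om p (ZMod p ⊕ Fin (n / p - p)) (Fin (n % p))) = n := by
    rw [Fintype.card_congr e, Fintype.card_fin]
  have hZ1 : Fintype.card (Fin (n % p)) ≤ 1 := by rw [Fintype.card_fin]; exact hb
  have hZ : Fintype.card (Fin (n % p)) < p := by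
    rw [Fintype.card_fin]; exact Nat.mod_lt _ hp.out.pos
  rcases hp.out.eq_two_or_odd' with h2 | hodd
  · subst h2
    -- a Sylow subgroup containing a transposition
    set i : ZMod 2 ⊕ Fin (n / 2 - 2) := Sum.inl 0 with hi
    set j : ZMod 2 ⊕ Fin (n / 2 - 2) := Sum.inl 1 with hj
    have hij : i ≠ j := by
      rw [hi, hj]; intro h; exact zero_ne_one (Sum.inl_injective h)
    have h1 : IsPGroup 2 (Subgroup.zpowers (Equiv.swap i j)) := by
      apply IsPGroup.of_card (n := 1)
      rw [Nat.card_zpowers, pow_one]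
      exact orderOf_eq_prime (by rw [sq, Equiv.swap_mul_self]) (by
        intro h
        exact hij ((Equiv.swap_eq_one_iff).mp h))
    obtain ⟨P, hP⟩ := h1.exists_le_sylow
    obtain ⟨R, hR⟩ := FusionNormalSubgroup.exists_sylow_inf (sylWr P hZ) (alternatingGroup (Om 2 _ _))
    have hsw : Equiv.swap i j ∈ (P : Subgroup (Perm (ZMod 2 ⊕ Fin (n / 2 - 2)))) := hP (Subgroup.mem_zpowers _)
    refine simple_of_equiv (Equiv.altCongrHom e) R ?_ ?_ S
    · intro h
      have h3 : (bb (Equiv.swap i j) : Perm (Om 2 (ZMod 2 ⊕ Fin (n / 2 - 2)) (Fin (n % 2)))) ∈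
          alternatingGroup (Om 2 (ZMod 2 ⊕ Fin (n / 2 - 2)) (Fin (n % 2))) := by
        rw [mem_alternatingGroup]
        exact sign_bb_of_mem hsw
      have h4 : (⟨_, h3⟩ : alternatingGroup (Om 2 (ZMod 2 ⊕ Fin (n / 2 - 2)) (Fin (n % 2)))) ∈
          (R : Subgroup (alternatingGroup (Om 2 (ZMod 2 ⊕ Fin (n / 2 - 2)) (Fin (n % 2))))) := by
        rw [hR, Subgroup.mem_subgroupOf]
        exact ⟨bb_mem_WrS hsw, h3⟩
      rw [h, Subgroup.mem_bot] at h4
      have h5 : (bb (Equiv.swap i j) : Perm (Om 2 (ZMod 2 ⊕ Fin (n / 2 - 2)) (Fin (n % 2)))) = bb 1 := by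
        rw [map_one]; exact congrArg Subtype.val h4
      exact hij ((Equiv.swap_eq_one_iff).mp (bb_injective h5))
    · have h3 := crit_two (by rw [hcardn]; exact hn) hZ P ⟨i, j, hij, hsw⟩ R hR
      rw [hR]
      exact h3
  · have h1 : IsPGroup p (Subgroup.zpowers (kap 1 : Perm (ZMod p ⊕ Fin (n / p - p)))) := by
      have hk : ∀ m : ℕ, (kap 1 : Perm (ZMod p ⊕ Fin (n / p - p))) ^ m = kap (m : ZMod p) := by
        intro m
        induction m with
        | zero => ext q; rcases q with a | w <;> simp [kap]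
        | succ m ih =>
          rw [pow_succ, ih]
          ext q
          rcases q with a | w
          · simp only [kap, Perm.mul_apply, Perm.sumCongr_apply, Sum.map_inl, Equiv.coe_addRight, Nat.cast_add,
              Nat.cast_one]
            congr 1; ring
          · simp [kap]
      have h2 : (kap 1 : Perm (ZMod p ⊕ Fin (n / p - p))) ^ p = 1 := by
        rw [hk]; ext q; rcases q with a | w <;> simp [kap]
      obtain ⟨k, hk'⟩ := orderOf_of_pow h2
      exact IsPGroup.of_card (n := k) (by rw [Nat.card_zpowers, hk'])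
    obtain ⟨P, hP⟩ := h1.exists_le_sylow
    have hkap : ∀ u, (kap u : Perm (ZMod p ⊕ Fin (n / p - p))) ∈ (P : Subgroup (Perm (ZMod p ⊕ Fin (n / p - p)))) := by
      intro u
      apply hP
      have hk : ∀ m : ℕ, (kap 1 : Perm (ZMod p ⊕ Fin (n / p - p))) ^ m = kap (m : ZMod p) := by
        intro m
        induction m with
        | zero => ext q; rcases q with a | w <;> simp [kap]
        | succ m ih =>
          rw [pow_succ, ih]
          ext q
          rcases q with a | w
          · simp only [kap, Perm.mul_apply, Perm.sumCongr_apply, Sum.map_inl, Equiv.coe_addRight, Nat.cast_add,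
              Nat.cast_one]
            congr 1; ring
          · simp [kap]
      have h3 := hk u.val
      rw [ZMod.natCast_val, ZMod.cast_id', id] at h3
      rw [← h3]
      exact Subgroup.pow_mem _ (Subgroup.mem_zpowers _) _
    obtain ⟨R, hR⟩ := FusionNormalSubgroup.exists_sylow_inf (sylWr P hZ) (alternatingGroup (Om p _ _))
    refine simple_of_equiv (Equiv.altCongrHom e) R ?_ ?_ S
    · intro h
      have h3 : (ee (Pi.single (Sum.inl 0) 1) : Perm (Om p (ZMod p ⊕ Fin (n / p - p)) (Fin (n % p)))) ∈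
          alternatingGroup (Om p (ZMod p ⊕ Fin (n / p - p)) (Fin (n % p))) := by
        rw [mem_alternatingGroup]
        exact sign_of_pow hodd (ee_pow_p _)
      have h4 : (⟨_, h3⟩ : alternatingGroup (Om p (ZMod p ⊕ Fin (n / p - p)) (Fin (n % p)))) ∈
          (R : Subgroup (alternatingGroup (Om p (ZMod p ⊕ Fin (n / p - p)) (Fin (n % p))))) := by
        rw [hR, Subgroup.mem_subgroupOf]
        exact ⟨ee_mem_WrS _ _, h3⟩
      rw [h, Subgroup.mem_bot] at h4
      have h5 := congrArg (fun q : Perm (Om p (ZMod p ⊕ Fin (n / p - p)) (Fin (n % p))) =>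
        q (Sum.inl (Sum.inl 0, 0))) (congrArg Subtype.val h4)
      simp only [ee_inl, Pi.single_eq_same, zero_add] at h5
      exact one_ne_zero (congrArg Prod.snd (Sum.inl_injective h5))
    · rw [hR]
      exact crit_odd hodd hZ1 P hkap

end Cfsg.Agent.Lib.AltWrSimple
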