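import Cfsg.Agent.Lib.AmM
import Cfsg.Agent.S2947

/-!
Existence of a second package.
-/

set_option autoImplicit false
set_option linter.unusedSectionVars false

namespace Cfsg.Agent.Lib.AmG

open Subgroup commutatorElement Cfsg.Agent.Lib.LocBase Cfsg.Agent.Lib.TvStruct Cfsg.Agent.Lib.ZN
open scoped Pointwise

universe u

variable {G : Type u} [Group G] [Finite G]

theorem straddling_conj {M T : Subgroup G} (hT : T ∈ Cfsg.straddlingTwoSubgroups M) {m : G} (hm : m ∈ M) :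
    cj m T ∈ Cfsg.straddlingTwoSubgroups M := by
  obtain ⟨h1, h2, h3, L, hL, hTL, hLM⟩ := hT
  have hcM : cj m M = M := map_conj_eq_of_mem (le_normalizer hm)
  refine ⟨isPGroup_map_conj h1 m, ?_, ?_, cj m L, twoLocal_conj hL m, map_conj_mono m hTL, ?_⟩
  · intro e
    exact h2 ((Subgroup.map_eq_bot_iff_of_injective T (MulAut.conj m).injective).mp e)
  · rw [← hcM]; exact map_conj_mono m h3
  · intro hle
    apply hLM
    rw [← hcM] at hle
    exact (map_conj_le_map_conj m).mp hle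

theorem maxElem_conj (m : G) (T : Subgroup G) : Cfsg.maxElemAbelianOrder (cj m T) = Cfsg.maxElemAbelianOrder T := by
  obtain ⟨A, hA⟩ := AA_nonempty T
  rw [maxElemAbelianOrder_eq (map_mem_AA m hA), maxElemAbelianOrder_eq hA, card_map_conj]

theorem maxStrad_conj {M T : Subgroup G} (hT : T ∈ Cfsg.maxStraddlingTwoSubgroups M) {m : G} (hm : m ∈ M) :
    cj m T ∈ Cfsg.maxStraddlingTwoSubgroups M := by
  refine ⟨straddling_conj hT.1 hm, ?_⟩
  intro T' hT'
  rw [maxElem_conj]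
  have h1 : Nat.card ↥(Cfsg.thompsonSubgroupOf 2 (cj m T)) = Nat.card ↥(Cfsg.thompsonSubgroupOf 2 T) := by
    have h0 : Cfsg.thompsonSubgroupOf 2 (cj m T) = cj m (Cfsg.thompsonSubgroupOf 2 T) := (JJ_conj m T).symm
    rw [h0]; exact card_map_conj _ _
  have h2 : Nat.card ↥(cj m T) = Nat.card ↥T := card_map_conj _ _
  rw [h1, h2]
  exact hT.2 T' hT'

theorem exists_maxStrad {M : Subgroup G} (h : (Cfsg.straddlingTwoSubgroups M).Nonempty) :
    (Cfsg.maxStraddlingTwoSubgroups M).Nonempty := by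
  classical
  have hfin : (Cfsg.straddlingTwoSubgroups M).Finite := Set.toFinite _
  obtain ⟨T, hT, hmax⟩ := Set.exists_max_image (Cfsg.straddlingTwoSubgroups M)
    (fun T => toLex (Cfsg.maxElemAbelianOrder T,
      toLex (Nat.card ↥(Cfsg.thompsonSubgroupOf 2 T), Nat.card ↥T))) hfin h
  refine ⟨T, hT, ?_⟩
  intro T' hT'
  have h1 := hmax T' hT'
  rw [Prod.Lex.toLex_le_toLex] at h1
  rcases h1 with h1 | ⟨h1, h2⟩
  · exact ⟨h1.le, fun e => absurd e h1.ne⟩
  · rw [Prod.Lex.toLex_le_toLex] at h2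
    refine ⟨h1.le, fun _ => ?_⟩
    rcases h2 with h2 | ⟨h2, h3⟩
    · exact ⟨h2.le, fun e => absurd e h2.ne⟩
    · exact ⟨h2.le, fun _ => h3⟩

section small

variable {T₁ K₁ : Subgroup G} {x : G} (h1 : PF T₁ K₁) (h2 : PF T₁ (cj x K₁)) (hx : x ∈ normalizer (T₁ : Set G))
  (hf : ∀ N ≤ T₁, K₁ ⊔ T₁ ≤ normalizer (N : Set G) → cj x K₁ ⊔ T₁ ≤ normalizer (N : Set G) → N = ⊥)
include h1 h2 hx hf

omit h1 h2 hf in
theorem QQ_cj : QQ T₁ (cj x K₁) = cj x (QQ T₁ K₁) := by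
  show T₁ ⊓ centralizer (Cfsg.wOf (cj x K₁) : Set G) = cj x (T₁ ⊓ centralizer (Cfsg.wOf K₁ : Set G))
  rw [wOf_conj, cj, cj, map_inf _ _ _ (MulAut.conj x).injective, map_conj_centralizer, map_conj_eq_of_mem hx]

/-- an involution in `Q₂` commuting with an element of `Q₁ ∖ Q₂` is in `Q₁` -/
theorem mem_QQ_of_comm {q r : G} (hq : q ∈ QQ T₁ K₁) (hq2 : q ∉ QQ T₁ (cj x K₁)) (hr : r ∈ QQ T₁ (cj x K₁))
    (hcomm : r * q = q * r) : r ∈ QQ T₁ K₁ := by
  have hc := pair_main h1 h2 hf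
  have hI := inf_Q_eq h1 h2 hc hf
  refine mem_inf.mpr ⟨(mem_inf.mp hr).1, ?_⟩
  intro y hy
  have hyQ : y ∈ QQ T₁ K₁ := h1.W_le_Q hy
  have hrT : r ∈ T₁ := (mem_inf.mp hr).1
  by_cases hy2 : y ∈ QQ T₁ (cj x K₁)
  · have h3 : y ∈ Cfsg.omegaCenterOf T₁ := by rw [← hI]; exact mem_inf.mpr ⟨hyQ, hy2⟩
    exact ((mem_omegaCenterOf.mp h3).2.1 r hrT).symm
  · have h3 := mul_mem_Q₂ h2 (mem_inf.mp hq).1 (mem_inf.mp hyQ).1 hq2 hy2
    have h4 : q⁻¹ * y ∈ Cfsg.omegaCenterOf T₁ := by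
      rw [← hI]; exact mem_inf.mpr ⟨mul_mem (inv_mem hq) hyQ, h3⟩
    have h5 := (mem_omegaCenterOf.mp h4).2.1 r hrT
    calc y * r = q * ((q⁻¹ * y) * r) := by group
      _ = q * (r * (q⁻¹ * y)) := by rw [h5]
      _ = (q * r) * (q⁻¹ * y) := by group
      _ = (r * q) * (q⁻¹ * y) := by rw [hcomm]
      _ = r * y := by group

/-- `x` is not in an elementary abelian group normalized by `T₁` -/
theorem small_A {V : Subgroup G} (hV : EA V) (hTV : T₁ ≤ normalizer (V : Set G)) (hxV : x ∈ V) : False := by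
  have hc := pair_main h1 h2 hf
  have hQsq := Q_sq h1 h2 hc hf
  obtain ⟨q, hqW, hq2⟩ := exists_w h1 h2 hc
  have hq : q ∈ QQ T₁ K₁ := h1.W_le_Q hqW
  have hVe := ThompsonJ.elemAb_iff.mp hV
  have hx2 : x * x = 1 := by rw [← pow_two]; exact hVe.2 x hxV
  have hxi : x⁻¹ = x := inv_eq_of_mul_eq_one_right hx2
  set q' := x * q * x⁻¹ with hq'
  have hq'2 : q' ∈ QQ T₁ (cj x K₁) := by rw [QQ_cj hx]; exact ⟨q, hq, rfl⟩
  have hqq : q * q = 1 := by rw [← pow_two]; exact hQsq q hq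
  have hqi : q⁻¹ = q := inv_eq_of_mul_eq_one_right hqq
  set v := q⁻¹ * q' with hv
  have hvV : v ∈ V := by
    have e : v = (q⁻¹ * x * q) * x⁻¹ := by rw [hv, hq']; group
    rw [e]
    exact mul_mem (conj_mem_of_le_normalizer' hTV (mem_inf.mp hq).1 hxV) (inv_mem hxV)
  have hvv : v * v = 1 := by rw [← pow_two]; exact hVe.2 v hvV
  have hq'q' : q' * q' = 1 := by
    rw [hq']
    calc x * q * x⁻¹ * (x * q * x⁻¹) = x * (q * q) * x⁻¹ := by group
      _ = 1 := by rw [hqq]; group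
  have hq'v : q' = q * v := by rw [hv]; group
  have hcomm : v * q = q * v := by
    -- `q v q v = 1`
    have h3 : q * v * (q * v) = 1 := by rw [← hq'v]; exact hq'q'
    have h4 : v⁻¹ = v := inv_eq_of_mul_eq_one_right hvv
    have h5 : (q * v)⁻¹ = q * v := inv_eq_of_mul_eq_one_right h3
    rw [mul_inv_rev, h4, hqi] at h5
    exact h5
  have h6 : q' * q = q * q' := by
    rw [hq'v]
    calc q * v * q = q * (v * q) := by group
      _ = q * (q * v) := by rw [hcomm]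
  have h7 := mem_QQ_of_comm h1 h2 hx hf hq hq2 hq'2 h6
  -- then `q = x⁻¹ q' x ∈ Q₂`
  apply hq2
  rw [QQ_cj hx]
  refine ⟨q', h7, ?_⟩
  show x * q' * x⁻¹ = q
  rw [hq', hxi]
  calc x * (x * q * x) * x = (x * x) * q * (x * x) := by group
    _ = q := by rw [hx2]; group

/-- an elementary abelian subgroup of `T₁` normalized by `x` lies in the center -/
theorem small_B {V : Subgroup G} (hV : EA V) (hVT : V ≤ T₁) (hxV : x ∈ normalizer (V : Set G)) :
    V ≤ Cfsg.omegaCenterOf T₁ := by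
  have hc := pair_main h1 h2 hf
  have hQsq := Q_sq h1 h2 hc hf
  have hI := inf_Q_eq h1 h2 hc hf
  have hf' : ∀ N ≤ T₁, cj x K₁ ⊔ T₁ ≤ normalizer (N : Set G) → K₁ ⊔ T₁ ≤ normalizer (N : Set G) → N = ⊥ :=
    fun N hN a b => hf N hN b a
  have hc' := pair_main h2 h1 hf'
  have hQsq2 := Q_sq h2 h1 hc' hf'
  obtain ⟨w, hwW, hw2⟩ := exists_w h1 h2 hc
  have hw : w ∈ QQ T₁ K₁ := h1.W_le_Q hwW
  have hVe := ThompsonJ.elemAb_iff.mp hV
  have key : ∀ t ∈ V, t ∈ QQ T₁ K₁ ∨ t ∈ QQ T₁ (cj x K₁) := by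
    intro t ht
    by_contra hcon
    push Not at hcon
    obtain ⟨ht1, ht2⟩ := hcon
    have h3 := mul_mem_Q₂ h2 (mem_inf.mp hw).1 (hVT ht) hw2 ht2
    set r := w⁻¹ * t with hr
    have hww : w * w = 1 := by rw [← pow_two]; exact hQsq w hw
    have hwi : w⁻¹ = w := inv_eq_of_mul_eq_one_right hww
    have hrr : r * r = 1 := by rw [← pow_two]; exact hQsq2 r h3
    have hri : r⁻¹ = r := inv_eq_of_mul_eq_one_right hrr
    have htt : t * t = 1 := by rw [← pow_two]; exact hVe.2 t ht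
    have e : t = w * r := by rw [hr]; group
    have hcomm : r * w = w * r := by
      have h4 : (w * r)⁻¹ = w * r := inv_eq_of_mul_eq_one_right (by rw [← e]; exact htt)
      rw [mul_inv_rev, hri, hwi] at h4
      exact h4
    have h5 := mem_QQ_of_comm h1 h2 hx hf hw hw2 h3 hcomm
    apply ht1
    rw [e]
    exact mul_mem hw h5
  have hle : V ≤ QQ T₁ K₁ ∨ V ≤ QQ T₁ (cj x K₁) := by
    by_contra hcon
    push Not at hcon
    obtain ⟨h3, h4⟩ := hcon
    obtain ⟨a, ha, ha1⟩ := SetLike.not_le_iff_exists.mp h3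
    obtain ⟨b, hb, hb2⟩ := SetLike.not_le_iff_exists.mp h4
    have ha2 := (key a ha).resolve_left ha1
    have hb1 := (key b hb).resolve_right hb2
    rcases key (a * b) (mul_mem ha hb) with h5 | h5
    · exact ha1 ((mul_mem_cancel_right hb1).mp h5)
    · exact hb2 ((mul_mem_cancel_left ha2).mp h5)
  have hVx : cj x V = V := map_conj_eq_of_mem hxV
  rw [← hI]
  rcases hle with h3 | h3
  · refine le_inf h3 ?_
    rw [QQ_cj hx, ← hVx]
    exact map_conj_mono x h3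
  · refine le_inf ?_ h3
    rw [QQ_cj hx, ← hVx] at h3
    exact (map_conj_le_map_conj x).mp h3

end small

/-- transitivity of `K` on `W` -/
theorem trans_W {J K : Subgroup G} (h : XFacts J K) {z b : G} (hz : z ∈ Cfsg.wOf K) (hb : b ∈ Cfsg.wOf K)
    (hz1 : z ≠ 1) (hb1 : b ≠ 1) : ∃ k ∈ K, k * z * k⁻¹ = b := by
  have hKW : K ≤ normalizer (Cfsg.wOf K : Set G) := le_normalizer.trans (normalizer_le_normalizer_wOf K)
  obtain ⟨k, hk, hkz⟩ : ∃ k ∈ K, k * z * k⁻¹ ≠ z := by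
    by_contra hcon
    push Not at hcon
    have : z ∈ Cfsg.wOf K ⊓ centralizer (K : Set G) := by
      refine mem_inf.mpr ⟨hz, ?_⟩
      intro k hk
      calc k * z = (k * z * k⁻¹) * k := by group
        _ = z * k := by rw [hcon k hk]
    rw [h.W_inf_centralizer, mem_bot] at this
    exact hz1 this
  have hk3 : k ^ 3 ∈ Cfsg.pCoreOf 2 K := by
    have h3 : ((Cfsg.pCoreOf 2 K).subgroupOf K).Normal := normal_subgroupOf_of_le_normalizer (le_normalizer_pCoreOf 2 K)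
    have h4 : ((Cfsg.pCoreOf 2 K).subgroupOf K).index = 3 := h.idx
    have h5 := Subgroup.pow_index_mem ((Cfsg.pCoreOf 2 K).subgroupOf K) ⟨k, hk⟩
    rw [h4, mem_subgroupOf] at h5
    exact h5
  have hfix : ∀ v ∈ Cfsg.wOf K, k ^ 3 * v * (k ^ 3)⁻¹ = v := by
    intro v hv
    have := core_le_centralizer_wOf K hk3 v hv
    rw [← this]; group
  set z1 := k * z * k⁻¹ with hz1'
  set z2 := k * z1 * k⁻¹ with hz2'
  have hz1W : z1 ∈ Cfsg.wOf K := conj_mem_of_le_normalizer hKW hk hz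
  have hz2W : z2 ∈ Cfsg.wOf K := conj_mem_of_le_normalizer hKW hk hz1W
  have hz3 : k * z2 * k⁻¹ = z := by
    have := hfix z hz
    rw [← this, hz2', hz1']; simp only [pow_succ, pow_zero]; group
  have hinj : ∀ u v : G, k * u * k⁻¹ = k * v * k⁻¹ → u = v := fun u v e => mul_left_cancel (mul_right_cancel e)
  have h12 : z1 ≠ z2 := by
    intro e
    apply hkz
    exact (hinj z z1 (by rw [← hz1', ← hz2']; exact e)).symm
  have h02 : z ≠ z2 := by
    intro e
    apply hkz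
    -- z = z2 → k z k⁻¹ = k z2 k⁻¹ = z
    rw [hz1']
    have : k * z * k⁻¹ = k * z2 * k⁻¹ := by rw [← e]
    rw [this, hz3]
  have hn1 : z1 ≠ 1 := by
    intro e
    apply hz1
    have : z = k⁻¹ * z1 * k := by rw [hz1']; group
    rw [this, e]; group
  have hn2 : z2 ≠ 1 := by
    intro e
    apply hn1
    have : z1 = k⁻¹ * z2 * k := by rw [hz2']; group
    rw [this, e]; group
  rcases mem_four h.Wcard hz hz1W hz2W hz1 hn1 hn2 (Ne.symm hkz) h12 h02 b hb with e | e | e | e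
  · exact absurd e hb1
  · exact ⟨1, one_mem _, by rw [e]; group⟩
  · exact ⟨k, hk, by rw [e]⟩
  · refine ⟨k * k, mul_mem hk hk, ?_⟩
    rw [e, hz2', hz1']; group

end Cfsg.Agent.Lib.AmG
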