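import Cfsg.Agent.Lib.AmN

/-!
Existence of a second package, II.
-/

set_option autoImplicit false
set_option linter.unusedSectionVars false

namespace Cfsg.Agent.Lib.AmG

open Subgroup commutatorElement Cfsg.Agent.Lib.LocBase Cfsg.Agent.Lib.TvStruct Cfsg.Agent.Lib.ZN
open scoped Pointwise

universe u

variable {G : Type u} [Group G] [Finite G]

theorem VL_conj_mem {S L : Subgroup G} {l z : G} (hl : l ∈ L) (hz : z ∈ Cfsg.omegaCenterOf S) :
    l * z * l⁻¹ ∈ VL S L :=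
  conj_mem_of_le_normalizer (le_normalizer_VL S L) hl (omega_le_VL S L hz)

theorem Pk.not_se {S : Sylow 2 G} {K L : Subgroup G} (h : Pk (S : Subgroup G) K L) :
    ¬ Cfsg.IsStronglyEmbedded L := by
  intro hse
  have hSne : (S : Subgroup G) ≠ ⊥ := by
    intro e
    have h1 : JJ (S : Subgroup G) ≤ ⊥ := by rw [← e]; exact JJ_le _
    exact h.X.not_J_le (h1.trans bot_le)
  have hZne : Cfsg.omegaCenterOf (S : Subgroup G) ≠ ⊥ := omegaCenterOf_ne_bot S.isPGroup' hSne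
  obtain ⟨z, hz, hz1⟩ : ∃ z ∈ Cfsg.omegaCenterOf (S : Subgroup G), z ≠ 1 := by
    by_contra hcon
    push Not at hcon
    exact hZne (eq_bot_iff.mpr fun x hx => mem_bot.mpr (hcon x hx))
  have hzo : orderOf z = 2 := orderOf_eq_prime (mem_omegaCenterOf.mp hz).2.2 hz1
  have hzL : z ∈ L := h.TL (omegaCenterOf_le _ hz)
  apply h.lh.notle
  rw [JJ_eq]
  apply sSup_le
  intro A hA
  refine le_trans ?_ h.lh.VL_le_core
  intro a ha
  by_cases ha1 : a = 1
  · rw [ha1]; exact one_mem _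
  · have ha2 : a ^ 2 = 1 := (ThompsonJ.elemAb_iff.mp hA.2.1).2 a ha
    obtain ⟨l, hl, e⟩ := se_conj hse hzL (h.TL (hA.1 ha)) hzo (orderOf_eq_prime ha2 ha1)
    rw [← e]
    exact VL_conj_mem hl hz

/-- an element of a 2-group `S` normalizing `T` and outside of `L` -/
theorem Pk.exists_g {T K L S : Subgroup G} (h : Pk T K L) (hS : IsPGroup 2 S) (hlt : T < S) :
    ∃ g ∈ S, g ∈ normalizer (T : Set G) ∧ g ∉ L := by
  have h1 := Cfsg.Agent.Lib.SylAmb.lt_inf_normalizer hS hlt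
  obtain ⟨g, hg, hgT⟩ := SetLike.exists_of_lt h1
  refine ⟨g, (mem_inf.mp hg).1, (mem_inf.mp hg).2, ?_⟩
  intro hgL
  have h2 : T ⊔ zpowers g ≤ S := sup_le hlt.le (by rw [zpowers_le]; exact (mem_inf.mp hg).1)
  have h3 := h.eq_of_le (S := T ⊔ zpowers g) (hS.to_le h2) le_sup_left
    (sup_le h.TL (by rw [zpowers_le]; exact hgL))
  apply hgT
  rw [h3]
  exact mem_sup_right (mem_zpowers g)

/-- from an element `g ∈ N(T) ∖ L`: -/
theorem Pk.conj_of_mem {T K L : Subgroup G} (h : Pk T K L) {g : G} (hg : g ∈ normalizer (T : Set G)) :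
    Pk T (cj g K) (cj g L) := by
  have := h.conj (g := g)
  rwa [cj, map_conj_eq_of_mem hg] at this

theorem Uq.conj_ne {J K L : Subgroup G} (h : Uq J K L) {g : G} (hg : g ∉ L) : cj g L ≠ L :=
  fun e => hg (h.normalizer_le (mem_normalizer_of_map_conj_eq e))

/-- In case (ii), `T₁ = S` -/
theorem case_two (hZN : ZNHyp G) {S : Sylow 2 G} {K L T₁ K₁ L₁ : Subgroup G} (h : Pk (S : Subgroup G) K L)
    (h₁ : Pk T₁ K₁ L₁) (hT₁ : T₁ ≤ S) : T₁ = S := by
  by_contra hne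
  have hlt : T₁ < S := lt_of_le_of_ne hT₁ hne
  set V := VL (S : Subgroup G) L with hV
  have hEV : EA V := h.lh.EA_VL
  have hLV : L ≤ normalizer (V : Set G) := le_normalizer_VL _ _
  have hVS : V ≤ S := h.lh.VL_le
  have hSL : (S : Subgroup G) ≤ L := h.TL
  -- the data from an element `x ∈ N_S(T₁) ∖ L₁`
  have data : ∀ x : G, x ∈ normalizer (T₁ : Set G) → x ∉ L₁ → PF T₁ K₁ ∧ PF T₁ (cj x K₁) ∧
      (∀ N ≤ T₁, K₁ ⊔ T₁ ≤ normalizer (N : Set G) → cj x K₁ ⊔ T₁ ≤ normalizer (N : Set G) → N = ⊥) := by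
    intro x hx hxL
    have h2 := h₁.conj_of_mem hx
    have hne' := h₁.uq.conj_ne hxL
    have hc := card_Z₀_le h₁.uq h2.uq hne'
    have hz := Z₀_cent hZN h₁ h2.uq hne' hT₁
    exact ⟨h₁.pf hZN hz hc, h2.pf hZN hz hc, pk_faith h₁ h2 (Ne.symm hne')⟩
  have hVT : V ≤ T₁ := by
    by_contra hVT
    -- `N_{T₁V}(T₁)`
    have hTV : T₁ ≤ normalizer (V : Set G) := (hT₁.trans hSL).trans hLV
    have hYS : V ⊔ T₁ ≤ S := sup_le hVS hT₁
    have hY : IsPGroup 2 (V ⊔ T₁ : Subgroup G) := S.isPGroup'.to_le hYS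
    have hlt' : T₁ < V ⊔ T₁ := by
      refine lt_of_le_of_ne le_sup_right ?_
      intro e
      exact hVT (by rw [e]; exact le_sup_left)
    obtain ⟨y, hyY, hyN, hyL⟩ := h₁.exists_g hY hlt'
    obtain ⟨v, hv, t, ht, rfl⟩ := exists_mul_of_mem_sup_of_le hTV hyY
    have hvN : v ∈ normalizer (T₁ : Set G) := by
      have : v = (v * t) * t⁻¹ := by group
      rw [this]
      exact mul_mem hyN (inv_mem (le_normalizer ht))
    have hvL : v ∉ L₁ := fun hvL => hyL (mul_mem hvL (h₁.TL ht))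
    obtain ⟨p1, p2, p3⟩ := data v hvN hvL
    exact small_A p1 p2 hvN p3 hEV hTV hv
  obtain ⟨x, hxS, hxN, hxL⟩ := h₁.exists_g S.isPGroup' hlt
  obtain ⟨p1, p2, p3⟩ := data x hxN hxL
  have hxV : x ∈ normalizer (V : Set G) := hLV (hSL hxS)
  have hVZ := small_B p1 p2 hxN p3 hEV hVT hxV
  -- `V = W_K = Ω(Z(T₁))`
  have hWV : Cfsg.wOf K ≤ V := by
    rw [h.lh.wOf_eq hZN ((isJComponent_iff S.isPGroup').mpr h.X) h.KL]
    exact commutator_le_left_of_le (h.KL.trans hLV)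
  have hWZ : Cfsg.wOf K = Cfsg.omegaCenterOf T₁ := by
    apply Subgroup.eq_of_le_of_card_ge (hWV.trans hVZ)
    rw [h.X.Wcard]
    exact p1.Zcard
  have hcZ : Nat.card (Cfsg.omegaCenterOf (JJ T₁)) = 4 := by rw [← p1.ZT, ← hWZ, h.X.Wcard]
  have hB := XFacts_card_B h₁.X
  have hBc : Nat.card (BK (JJ T₁) K₁) = 2 := by omega
  obtain ⟨b, hb, hb1⟩ := exists_gen_of_card_two hBc
  have hbW : b ∈ Cfsg.wOf K := by rw [hWZ, p1.ZT]; exact (mem_inf.mp hb).1
  have hSne : (S : Subgroup G) ≠ ⊥ := by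
    intro e
    have h1 : JJ (S : Subgroup G) ≤ ⊥ := by rw [← e]; exact JJ_le _
    exact h.X.not_J_le (h1.trans bot_le)
  have hZne : Cfsg.omegaCenterOf (S : Subgroup G) ≠ ⊥ := omegaCenterOf_ne_bot S.isPGroup' hSne
  obtain ⟨z, hz, hz1⟩ : ∃ z ∈ Cfsg.omegaCenterOf (S : Subgroup G), z ≠ 1 := by
    by_contra hcon
    push Not at hcon
    exact hZne (eq_bot_iff.mpr fun x hx => mem_bot.mpr (hcon x hx))
  have hzW : z ∈ Cfsg.wOf K := by
    have h1 : z ∈ V := omega_le_VL _ _ hz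
    rw [hWZ]; exact hVZ h1
  obtain ⟨k, hk, e⟩ := trans_W h.X hzW hbW hz1 hb1
  have hcent := h₁.uq.cent_le (mem_inf.mp hb).1 (mem_inf.mp hb).2 hb1
  have h3 : cj k (S : Subgroup G) ≤ L₁ := by
    refine le_trans ?_ hcent
    rintro _ ⟨s, hs, rfl⟩ y hy
    rw [Set.mem_singleton_iff.mp hy, ← e]
    show k * z * k⁻¹ * (k * s * k⁻¹) = k * s * k⁻¹ * (k * z * k⁻¹)
    have h4 := (mem_omegaCenterOf.mp hz).2.1 s hs
    calc k * z * k⁻¹ * (k * s * k⁻¹) = k * (z * s) * k⁻¹ := by group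
      _ = k * (s * z) * k⁻¹ := by rw [h4]
      _ = _ := by group
  have h4 := h₁.lh.syl.card_le (isPGroup_map_conj S.isPGroup' k) h3
  rw [card_map_conj] at h4
  have h5 := two_mul_card_le hlt
  have := Nat.card_pos (α := T₁)
  omega

/-- existence of a second component in the case `N_G(J(S)) ≤ L` -/
theorem second_S (hZN : ZNHyp G) (hO : Cfsg.pCore 2 G = ⊥) {S : Sylow 2 G} {K L : Subgroup G}
    (h : Pk (S : Subgroup G) K L) (hN : normalizer (JJ (S : Subgroup G) : Set G) ≤ L) :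
    ∃ K' L', Pk (S : Subgroup G) K' L' ∧ L' ≠ L := by
  have hM : MHyp G L S := ⟨h.uq.max.1, hN⟩
  have h1 : (Cfsg.straddlingTwoSubgroups L).Nonempty := by
    rw [Set.nonempty_iff_ne_empty]
    intro e
    exact h.not_se ((Cfsg.Agent.S2947.main hO L h.uq.max.1).mpr e)
  obtain ⟨T₀, hT₀⟩ := exists_maxStrad h1
  obtain ⟨l, hl, hle⟩ := h.lh.syl.exists_conj_le hT₀.1.1 hT₀.1.2.2.1
  have hT₁ := maxStrad_conj hT₀ hl
  set T₁ := cj l T₀ with hT₁d
  obtain ⟨L'', hL'', hTL'', hLn⟩ := hT₁.1.2.2.2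
  obtain ⟨K₁, hK₁L, hX₁, hK₁n, hK₁⟩ := exists_outside hZN hM hT₁ hL'' hTL'' hLn
  obtain ⟨L₁, h₁⟩ := exists_pk hZN hM hT₁ hK₁
  have e := case_two hZN h h₁ hle
  rw [e] at h₁
  refine ⟨K₁, L₁, h₁, ?_⟩
  intro e'
  apply hK₁n
  rw [← e']; exact h₁.KL

/-- existence of a second component for `J(T)` -/
theorem second (hZN : ZNHyp G) (hO : Cfsg.pCore 2 G = ⊥) {S : Sylow 2 G} {T K L : Subgroup G}
    (h : Pk T K L) (hTS : T ≤ S) : ∃ K' L', Uq (JJ T) K' L' ∧ L' ≠ L := by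
  by_cases hN : normalizer (JJ T : Set G) ≤ L
  · have hTS' : T = S := by
      apply h.eq_of_normalizer_le S.isPGroup' hTS
      exact (inf_le_right.trans (normalizer_le_normalizer_JJ T)).trans hN
    subst hTS'
    obtain ⟨K', L', h', hne⟩ := second_S hZN hO h hN
    exact ⟨K', L', h'.uq, hne⟩
  · obtain ⟨g, hg, hgL⟩ := SetLike.not_le_iff_exists.mp hN
    exact ⟨cj g K, cj g L, h.uq.conj_of_mem hg, h.uq.conj_ne hgL⟩

/-- the trichotomy -/
theorem tri (hZN : ZNHyp G) (hO : Cfsg.pCore 2 G = ⊥) {S : Sylow 2 G} {T K L : Subgroup G}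
    (h : Pk T K L) (hTS : T ≤ S) : Tri (S : Subgroup G) T L := by
  obtain ⟨K', L', h', hne⟩ := second hZN hO h hTS
  exact tri_of hZN h h' hne hTS

theorem pf_of (hZN : ZNHyp G) (hO : Cfsg.pCore 2 G = ⊥) {S : Sylow 2 G} {T K L : Subgroup G}
    (h : Pk T K L) (hTS : T ≤ S) : PF T K := by
  obtain ⟨K', L', h', hne⟩ := second hZN hO h hTS
  exact h.pf hZN (Z₀_cent hZN h h' hne hTS) (card_Z₀_le h.uq h' hne)

/-- the normalizer of `Ω(Z(S))` normalizes `S` -/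
theorem normalizer_omega_le (hZN : ZNHyp G) (S : Sylow 2 G) :
    normalizer (Cfsg.omegaCenterOf (S : Subgroup G) : Set G) ≤ normalizer ((S : Subgroup G) : Set G) := by
  have h1 := hZN.hZ S
  have hSC : (S : Subgroup G) ≤ centralizer (Cfsg.omegaCenterOf (S : Subgroup G) : Set G) := by
    rw [le_centralizer_iff]; exact omegaCenterOf_le_centralizer _
  intro g hg
  have hgC : g ∈ normalizer ((centralizer (Cfsg.omegaCenterOf (S : Subgroup G) : Set G) : Subgroup G) : Set G) :=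
    le_normalizer_centralizer le_rfl hg
  -- `S^g ≤ C(Z) ≤ N(S)`
  have h2 : cj g (S : Subgroup G) ≤ centralizer (Cfsg.omegaCenterOf (S : Subgroup G) : Set G) := by
    have := map_conj_mono g hSC
    rwa [map_conj_eq_of_mem hgC] at this
  have h3 : cj g (S : Subgroup G) ≤ normalizer ((S : Subgroup G) : Set G) := h2.trans h1
  have h4 : IsPGroup 2 ((S : Subgroup G) ⊔ cj g (S : Subgroup G) : Subgroup G) :=
    isPGroup_sup S.isPGroup' (isPGroup_map_conj S.isPGroup' g) h3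
  have h5 := S.is_maximal' h4 le_sup_left
  apply mem_normalizer_of_map_conj_eq
  have h6 : cj g (S : Subgroup G) ≤ (S : Subgroup G) := by
    conv_rhs => rw [← h5]
    exact le_sup_right
  exact Subgroup.eq_of_le_of_card_ge h6 (by rw [card_map_conj])

/-- existence of a second package -/
theorem second' (hZN : ZNHyp G) (hO : Cfsg.pCore 2 G = ⊥) {S : Sylow 2 G} {T K L : Subgroup G}
    (h : Pk T K L) (hTS : T ≤ S) : ∃ K' L', Pk T K' L' ∧ L' ≠ L := by
  by_cases hTS' : T = S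
  · subst hTS'
    by_cases hN : normalizer (JJ (S : Subgroup G) : Set G) ≤ L
    · exact second_S hZN hO h hN
    · obtain ⟨g, hg, hgL⟩ := SetLike.not_le_iff_exists.mp hN
      have h1 := (pf_of hZN hO h le_rfl).ZT
      have h2 : g ∈ normalizer (Cfsg.omegaCenterOf (S : Subgroup G) : Set G) := by
        rw [h1]; exact normalizer_le_normalizer_omegaCenterOf _ hg
      have h3 := normalizer_omega_le hZN S h2
      exact ⟨cj g K, cj g L, h.conj_of_mem h3, h.uq.conj_ne hgL⟩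
  · obtain ⟨g, _, hg, hgL⟩ := h.exists_g S.isPGroup' (lt_of_le_of_ne hTS hTS')
    exact ⟨cj g K, cj g L, h.conj_of_mem hg, h.uq.conj_ne hgL⟩

end Cfsg.Agent.Lib.AmG
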