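import Cfsg.Agent.Lib.AmO

/-!
`L = K T` for the packages.
-/

set_option autoImplicit false
set_option linter.unusedSectionVars false

namespace Cfsg.Agent.Lib.AmG

open Subgroup commutatorElement Cfsg.Agent.Lib.LocBase Cfsg.Agent.Lib.TvStruct Cfsg.Agent.Lib.ZN
open scoped Pointwise

universe u

variable {G : Type u} [Group G] [Finite G]

theorem PF.core_eq {T K : Subgroup G} (h : PF T K) (hsyl : IsSyl 2 T (K ⊔ T)) : Cfsg.pCoreOf 2 (K ⊔ T) = QQ T K := by
  apply le_antisymm
  · intro x hx
    rw [h.mem_Q_iff]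
    intro p hp
    have hle := hsyl.pCoreOf_le
    have h1 := le_normalizer_pCoreOf 2 (K ⊔ T) hp
    have h2 := map_conj_eq_of_mem h1
    have h3 : x ∈ cj p (Cfsg.pCoreOf 2 (K ⊔ T)) := by rw [cj, h2]; exact hx
    exact map_conj_mono p hle h3
  · exact le_pCoreOf (inf_le_left.trans le_sup_right) h.P_norm_Q (h.Tp.to_le inf_le_left)

theorem Pk.syl_P {T K L : Subgroup G} (h : Pk T K L) : IsSyl 2 T (K ⊔ T) :=
  h.lh.syl.of_le le_sup_right (sup_le h.KL h.TL)

theorem Pk.core_le_Q {T K L : Subgroup G} (h : Pk T K L) (hp : PF T K) : Cfsg.pCoreOf 2 L ≤ QQ T K := by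
  rw [← hp.core_eq h.syl_P]
  exact le_pCoreOf (h.lh.core_le.trans le_sup_right) ((sup_le h.KL h.TL).trans (le_normalizer_pCoreOf 2 L))
    (isPGroup_pCoreOf 2 L)

theorem Pk.cent_Q {T K L : Subgroup G} (h : Pk T K L) (hp : PF T K) :
    centralizer (QQ T K : Set G) ≤ QQ T K :=
  ((centralizer_le (SetLike.coe_subset_coe.mpr (h.core_le_Q hp))).trans h.lh.cent).trans (h.core_le_Q hp)

theorem cent_of_four {A R D : Subgroup G} (hA : EA A) (hRA : R ≤ A) (hR : Nat.card R = 2) (hc : Nat.card A ≤ 4)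
    (hDA : D ≤ normalizer (A : Set G)) (hDR : D ≤ normalizer (R : Set G)) (hD : pRes 2 D = D) :
    D ≤ centralizer (A : Set G) := by
  have h1 : D ≤ centralizer (R : Set G) := by
    rw [le_centralizer_iff]
    exact le_centralizer_of_card_le_two_pRes hD hDR (by rw [hR])
  have hdvd := Subgroup.card_dvd_of_le hRA
  rw [hR] at hdvd
  have hpos : 0 < Nat.card A := Nat.card_pos
  by_cases h2 : Nat.card A = 2
  · have : R = A := Subgroup.eq_of_le_of_card_ge hRA (by rw [h2, hR])
    rw [← this]; exact h1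
  · have h4 : Nat.card A = 4 := by omega
    have h5 : Nat.card A = 2 * Nat.card R := by rw [h4, hR]
    rw [← hD]
    apply pRes_le_centralizer_of_chain (Q := R) (ThompsonJ.elemAb_isPGroup hA) hDA
    · rw [hD, commutator_le]
      intro a ha d hd
      have e : ⁅a, d⁆ = a * (d * a⁻¹ * d⁻¹) := by rw [commutatorElement_def]; group
      rw [e]
      by_cases haR : a ∈ R
      · exact mul_mem haR (conj_mem_of_le_normalizer hDR hd (inv_mem haR))
      · have h6 : d * a⁻¹ * d⁻¹ ∉ R := by
          intro hm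
          have h7 := conj_mem_of_le_normalizer' hDR hd hm
          have e2 : d⁻¹ * (d * a⁻¹ * d⁻¹) * d = a⁻¹ := by group
          rw [e2] at h7
          exact haR (inv_mem_iff.mp h7)
        have h7 := mul_mem_of_index_two hRA h5 (inv_mem ha)
          (conj_mem_of_le_normalizer hDA hd (inv_mem ha)) (fun hm => haR (inv_mem_iff.mp hm)) h6
        rwa [inv_inv] at h7
    · rw [hD]; exact h1

/-- `L = K T` -/
theorem Pk.L_eq (hZN : ZNHyp G) {T K L : Subgroup G} (h : Pk T K L) (hp : PF T K) (hQ : QQ T K = ZZ T K) :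
    L = K ⊔ T := by
  have hX := h.X
  have hQc : Nat.card (QQ T K) ≤ 8 := by
    rw [hQ, hp.card_ZZ]
    have := hp.Zcard
    omega
  have hQe := ThompsonJ.elemAb_iff.mp hp.EA_ZZ
  have hcore : Cfsg.pCoreOf 2 L = QQ T K := by
    apply le_antisymm (h.core_le_Q hp)
    refine le_trans ?_ h.lh.cent
    have h1 : QQ T K ≤ centralizer (QQ T K : Set G) := by rw [hQ]; exact hQe.1
    exact h1.trans (centralizer_le (SetLike.coe_subset_coe.mpr (h.core_le_Q hp)))
  have hVQ : VL T L ≤ QQ T K := by rw [← hcore]; exact h.lh.VL_le_core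
  -- uniqueness of the component
  have huniq : ∀ K' ≤ L, XFacts (JJ T) K' → K' = K := by
    intro K' hK'L hX'
    by_contra hne
    have h1 := h.lh.comp_inf hZN hX.cl3 h.KL hX'.cl3 hK'L (Ne.symm hne)
    have e1 := h.lh.card_commutator hZN hX.cl3 h.KL
    have e2 := h.lh.card_commutator hZN hX'.cl3 hK'L
    have hn1 : ⁅VL T L, K⁆ ≤ VL T L := commutator_le_left_of_le (h.KL.trans (le_normalizer_VL T L))
    have hn2 : ⁅VL T L, K'⁆ ≤ VL T L := commutator_le_left_of_le (hK'L.trans (le_normalizer_VL T L))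
    have hVe := (ThompsonJ.elemAb_iff.mp h.lh.EA_VL).1
    have h2 : ⁅VL T L, K'⁆ ≤ normalizer ((⁅VL T L, K⁆ : Subgroup G) : Set G) :=
      ((hn2.trans hVe).trans (centralizer_le (SetLike.coe_subset_coe.mpr hn1))).trans (centralizer_le_normalizer _)
    have h3 := SubgroupTools.card_sup_mul_card_inf h2
    rw [h1, card_bot, mul_one, e1, e2] at h3
    have h4 := card_le_of_le ((sup_le hn1 hn2).trans hVQ)
    omega
  have hFL : FL (JJ T) L ≤ K := by
    unfold FL
    apply iSup₂_le
    intro K' hK'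
    rw [huniq K' hK'.1 hK'.2]
  -- `J(T) = T`
  have hJT : JJ T = T := by
    have h1 : QQ T K ≤ JJ T := by
      rw [hQ]
      refine sup_le ?_ hX.W_le_J
      rw [hp.ZT]; exact omegaCenterOf_le _
    have h2 : QQ T K < JJ T := by
      refine lt_of_le_of_ne h1 ?_
      intro e
      apply hX.not_J_le
      rw [← e]; exact inf_le_right
    have h3 := two_mul_card_le h2
    apply Subgroup.eq_of_le_of_card_ge (JJ_le T)
    rw [hp.card_T]
    exact h3
  -- `N_L(T) = T`
  have hN : L ⊓ normalizer (T : Set G) ≤ T := by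
    set N := L ⊓ normalizer (T : Set G) with hNd
    have hTN : T ≤ N := le_inf h.TL le_normalizer
    have hNJ : N ≤ normalizer (JJ T : Set G) := inf_le_right.trans (normalizer_le_normalizer_JJ T)
    have hNK : N ≤ normalizer (K : Set G) := by
      intro x hx
      apply mem_normalizer_of_map_conj_eq
      have h1 : cj x K ≤ L := by
        have := map_conj_mono x h.KL
        rwa [map_conj_eq_of_mem (le_normalizer (mem_inf.mp hx).1)] at this
      exact huniq _ h1 (hX.conj_of_mem (hNJ hx))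
    have hNW : N ≤ normalizer (Cfsg.wOf K : Set G) := hNK.trans (normalizer_le_normalizer_wOf K)
    have hNZ : N ≤ normalizer (Cfsg.omegaCenterOf T : Set G) :=
      inf_le_right.trans (normalizer_le_normalizer_omegaCenterOf T)
    have hNR : N ≤ normalizer (RR₀ T K : Set G) := le_normalizer_inf hNZ hNW
    set D := pRes 2 N with hD
    have hDN : D ≤ N := pRes_le 2 N
    have hDD : pRes 2 D = D := pRes_pRes 2 N
    have hDW : D ≤ centralizer (Cfsg.wOf K : Set G) :=
      cent_of_four EA_wOf (R := RR₀ T K) inf_le_right hp.card_R (by rw [hX.Wcard]) (hDN.trans hNW) (hDN.trans hNR) hDD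
    have hDZ : D ≤ centralizer (Cfsg.omegaCenterOf T : Set G) :=
      cent_of_four (EA_omegaCenterOf T) (R := RR₀ T K) inf_le_left hp.card_R hp.Zcard (hDN.trans hNZ) (hDN.trans hNR) hDD
    have hDQ : D ≤ QQ T K := by
      refine le_trans ?_ (h.cent_Q hp)
      rw [hQ, le_centralizer_iff]
      exact sup_le (le_centralizer_iff.mp hDZ) (le_centralizer_iff.mp hDW)
    have hDp : IsPGroup 2 D := hp.Tp.to_le (hDQ.trans inf_le_left)
    have hDb : D = ⊥ := by
      have := (isPGroup_iff_pRes_eq_bot (p := 2)).mp hDp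
      rwa [hDD] at this
    have hNp : IsPGroup 2 N := (isPGroup_iff_pRes_eq_bot (p := 2)).mpr hDb
    exact (h.lh.syl.eq_of_le hNp inf_le_left hTN).ge
  apply le_antisymm
  · refine (h.lh.le_FL_sup hZN).trans (sup_le (hFL.trans le_sup_left) ?_)
    rw [hJT]
    exact hN.trans le_sup_right
  · exact sup_le h.KL h.TL

end Cfsg.Agent.Lib.AmG
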