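import Cfsg.Agent.Lib.AschForms
set_option autoImplicit false
set_option linter.style.haveILetI false
set_option linter.unusedVariables false
set_option linter.unusedSectionVars false

namespace Cfsg.Agent.Lib.AschSubfield

open Cfsg Cfsg.Geo Cfsg.Agent.Lib.AschForms
open scoped Matrix MatrixGroups

variable {ι : Type} [Fintype ι] [DecidableEq ι] {F : Type*} [Field F]

/-- entrywise projection onto the subfield -/
noncomputable def entryProj (F₀ : Subfield F) (π : F →ₗ[F₀] F₀) : Matrix ι ι F →ₗ[F₀] Matrix ι ι F where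
  toFun M := fun i j => (π (M i j) : F)
  map_add' M N := by ext i j; simp; rfl
  map_smul' c M := by ext i j; simp [Matrix.smul_apply]; rfl

lemma entryProj_smul (F₀ : Subfield F) (π : F →ₗ[F₀] F₀) (c : F) (s : Matrix ι ι F) (hs : ∀ i j, s i j ∈ F₀) :
    entryProj F₀ π (c • s) = π c • s := by
  ext i j
  have h1 : c * s i j = (⟨s i j, hs i j⟩ : F₀) • c := by
    rw [Subfield.smul_def, smul_eq_mul, mul_comm]
  show ((π (c * s i j) : F₀) : F) = _
  rw [h1, map_smul, smul_eq_mul, Subfield.coe_mul, Matrix.smul_apply, Subfield.smul_def, smul_eq_mul, mul_comm]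

/-- matrices over the subfield lie in the `F₀`-span of a set of such matrices spanning over `F`. -/
lemma mem_span_subfield (F₀ : Subfield F) (S : Set (Matrix ι ι F)) (hS : ∀ s ∈ S, ∀ i j, s i j ∈ F₀)
    (M : Matrix ι ι F) (hM : ∀ i j, M i j ∈ F₀) (hMS : M ∈ Submodule.span F S) : M ∈ Submodule.span F₀ S := by
  classical
  obtain ⟨π, hπ⟩ : ∃ π : F →ₗ[F₀] F₀, π 1 = 1 := by
    obtain ⟨π, hπ⟩ := LinearMap.exists_leftInverse_of_injective (Algebra.linearMap F₀ F)
      (LinearMap.ker_eq_bot.2 (algebraMap F₀ F).injective)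
    exact ⟨π, by simpa using congrArg (fun g : F₀ →ₗ[F₀] F₀ => g 1) hπ⟩
  have key : ∀ x ∈ Submodule.span F S, ∀ c : F, entryProj F₀ π (c • x) ∈ Submodule.span F₀ S := by
    intro x hx
    induction hx using Submodule.span_induction with
    | mem s hs =>
      intro c
      rw [entryProj_smul F₀ π c s (hS s hs)]
      exact Submodule.smul_mem _ _ (Submodule.subset_span hs)
    | zero => intro c; rw [smul_zero, map_zero]; exact zero_mem _
    | add x y _ _ hx hy => intro c; rw [smul_add, map_add]; exact add_mem (hx c) (hy c)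
    | smul a x _ hx => intro c; rw [smul_smul]; exact hx _
  have h1 := key M hMS 1
  rw [entryProj_smul F₀ π 1 M hM, hπ, one_smul] at h1
  exact h1

/-- If conjugation by `g` maps all elementary matrices to matrices over `F₀` then `g` is a scalar times a matrix over `F₀`. -/
lemma mem_of_conj_single (F₀ : Subfield F) (g : GL ι F)
    (h : ∀ i j k l, (g : Matrix ι ι F) k i * ((g⁻¹ : GL ι F) : Matrix ι ι F) j l ∈ F₀) :
    g ∈ (Matrix.GeneralLinearGroup.map (n := ι) (F₀.subtype : F₀ →+* F)).range ⊔ scalars ι F := by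
  classical
  rcases isEmpty_or_nonempty ι with hι | hι
  · rw [Subsingleton.elim g 1]; exact one_mem _
  obtain ⟨j, l, hjl⟩ : ∃ j l, ((g⁻¹ : GL ι F) : Matrix ι ι F) j l ≠ 0 := by
    by_contra hcon
    push Not at hcon
    have h0 : ((g⁻¹ : GL ι F) : Matrix ι ι F) = 0 := by ext i j; exact hcon i j
    have h1 : (g : Matrix ι ι F) * ((g⁻¹ : GL ι F) : Matrix ι ι F) = 1 := by rw [← Units.val_mul]; simp
    rw [h0, mul_zero] at h1
    exact zero_ne_one h1
  set lam := ((g⁻¹ : GL ι F) : Matrix ι ι F) j l with hlam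
  let a : Matrix ι ι F₀ := fun k i => ⟨(g : Matrix ι ι F) k i * lam, h i j k l⟩
  have ha : a.map (F₀.subtype) = lam • (g : Matrix ι ι F) := by
    ext k i
    show (g : Matrix ι ι F) k i * lam = lam * (g : Matrix ι ι F) k i
    rw [mul_comm]
  have hdet : a.det ≠ 0 := by
    intro h0
    have h1 : (a.map (F₀.subtype)).det = F₀.subtype a.det := by
      rw [← RingHom.mapMatrix_apply, ← RingHom.map_det]
    rw [ha, h0, map_zero, Matrix.det_smul] at h1
    have h2 : IsUnit (g : Matrix ι ι F).det := (Matrix.isUnit_iff_isUnit_det _).1 g.isUnit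
    rcases mul_eq_zero.1 h1 with h3 | h3
    · exact hjl (pow_eq_zero_iff (Fintype.card_pos (α := ι)).ne' |>.1 h3)
    · exact h2.ne_zero h3
  let g₀ : GL ι F₀ := Matrix.GeneralLinearGroup.mkOfDetNeZero a hdet
  have hg : g = (Matrix.GeneralLinearGroup.map (n := ι) (F₀.subtype : F₀ →+* F)) g₀ *
      (Units.map (Matrix.scalar ι : F →+* Matrix ι ι F).toMonoidHom) (Units.mk0 lam hjl)⁻¹ := by
    apply Units.ext
    rw [Units.val_mul]
    have h3 : (((Matrix.GeneralLinearGroup.map (n := ι) (F₀.subtype : F₀ →+* F)) g₀ : GL ι F) : Matrix ι ι F) = lam • (g : Matrix ι ι F) := ha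
    rw [h3]
    have h4 : (((Units.map (Matrix.scalar ι : F →+* Matrix ι ι F).toMonoidHom) (Units.mk0 lam hjl)⁻¹ : GL ι F) : Matrix ι ι F)
        = lam⁻¹ • (1 : Matrix ι ι F) := by
      simp [Matrix.smul_one_eq_diagonal]
    rw [h4, Matrix.mul_smul, Matrix.mul_one, smul_smul, inv_mul_cancel₀ hjl, one_smul]
  rw [hg]
  exact mul_mem (Subgroup.mem_sup_left ⟨g₀, rfl⟩) (Subgroup.mem_sup_right ⟨_, rfl⟩)

/-- The normaliser of an absolutely irreducible group realisable over `F₀` is in a subfield group. -/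
theorem le_subfieldSubgroup {L H : Subgroup (GL ι F)} (hL : ActsAbsolutelyIrreducibly (matrixSet L))
    {F₀ : Subfield F} (hr : RealisableOver F₀ (matrixSet L)) (hH : ∀ g ∈ H, ∀ x ∈ L, g * x * g⁻¹ ∈ L) :
    ∃ P : GL ι F, H ≤ subfieldSubgroup F₀ P := by
  obtain ⟨B, hB⟩ := hr
  refine ⟨B⁻¹, fun g hg => ?_⟩
  have hB1 : (B : Matrix ι ι F) * ((B⁻¹ : GL ι F) : Matrix ι ι F) = 1 := by rw [← Units.val_mul]; simp
  have hB2 : ((B⁻¹ : GL ι F) : Matrix ι ι F) * (B : Matrix ι ι F) = 1 := by rw [← Units.val_mul]; simp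
  let S : Set (Matrix ι ι F) := (fun s => (B : Matrix ι ι F) * s * ((B⁻¹ : GL ι F) : Matrix ι ι F)) '' matrixSet L
  have hS : ∀ s ∈ S, ∀ i j, s i j ∈ F₀ := by
    rintro _ ⟨s, hs, rfl⟩ i j
    exact hB s hs i j
  -- everything is in the F-span
  have hspan : ∀ M : Matrix ι ι F, M ∈ Submodule.span F S := by
    intro M
    have h1 : ((B⁻¹ : GL ι F) : Matrix ι ι F) * M * (B : Matrix ι ι F) ∈ Submodule.span F (matrixSet L) := by
      rw [span_eq_top L hL]; trivial
    let c : Matrix ι ι F →ₗ[F] Matrix ι ι F :=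
      (LinearMap.mulRight F ((B⁻¹ : GL ι F) : Matrix ι ι F)).comp (LinearMap.mulLeft F (B : Matrix ι ι F))
    have h2 : c (((B⁻¹ : GL ι F) : Matrix ι ι F) * M * (B : Matrix ι ι F)) ∈ (Submodule.span F (matrixSet L)).map c :=
      ⟨_, h1, rfl⟩
    rw [Submodule.map_span] at h2
    have h3 : c (((B⁻¹ : GL ι F) : Matrix ι ι F) * M * (B : Matrix ι ι F)) = M := by
      show (B : Matrix ι ι F) * (((B⁻¹ : GL ι F) : Matrix ι ι F) * M * (B : Matrix ι ι F)) * ((B⁻¹ : GL ι F) : Matrix ι ι F) = M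
      calc _ = ((B : Matrix ι ι F) * ((B⁻¹ : GL ι F) : Matrix ι ι F)) * M * ((B : Matrix ι ι F) * ((B⁻¹ : GL ι F) : Matrix ι ι F)) := by
            simp only [Matrix.mul_assoc]
        _ = M := by rw [hB1, Matrix.one_mul, Matrix.mul_one]
    rw [h3] at h2
    exact h2
  -- conjugated element
  set g' : GL ι F := B * g * B⁻¹ with hg'
  have hconjS : ∀ s ∈ S, (g' : Matrix ι ι F) * s * ((g'⁻¹ : GL ι F) : Matrix ι ι F) ∈ S := by
    rintro _ ⟨_, ⟨x, hx, rfl⟩, rfl⟩
    refine ⟨_, coe_mem_matrixSet (hH g hg x hx), ?_⟩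
    simp only [← Units.val_mul]
    congr 1
    rw [hg']; group
  have hconj : ∀ M ∈ Submodule.span F₀ S, (g' : Matrix ι ι F) * M * ((g'⁻¹ : GL ι F) : Matrix ι ι F) ∈ Submodule.span F₀ S := by
    intro M hM
    induction hM using Submodule.span_induction with
    | mem s hs => exact Submodule.subset_span (hconjS s hs)
    | zero => simp
    | add x y _ _ hx hy => rw [Matrix.mul_add, Matrix.add_mul]; exact add_mem hx hy
    | smul a x _ hx =>
      rw [Matrix.mul_smul, Matrix.smul_mul]; exact Submodule.smul_mem _ _ hx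
  have hentries : ∀ M ∈ Submodule.span F₀ S, ∀ i j, M i j ∈ F₀ := by
    intro M hM
    induction hM using Submodule.span_induction with
    | mem s hs => exact hS s hs
    | zero => intro i j; exact zero_mem _
    | add x y _ _ hx hy => intro i j; exact add_mem (hx i j) (hy i j)
    | smul a x _ hx => intro i j; exact mul_mem a.2 (hx i j)
  have hmem : g' ∈ (Matrix.GeneralLinearGroup.map (n := ι) (F₀.subtype : F₀ →+* F)).range ⊔ scalars ι F := by
    apply mem_of_conj_single
    intro i j k l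
    have h1 : Matrix.single i j (1 : F) ∈ Submodule.span F₀ S :=
      mem_span_subfield F₀ S hS _ (fun a b => by
        rw [Matrix.single_apply]; split_ifs
        · exact one_mem _
        · exact zero_mem _) (hspan _)
    have h2 := hentries _ (hconj _ h1) k l
    have h3 : ((g' : Matrix ι ι F) * Matrix.single i j (1 : F) * ((g'⁻¹ : GL ι F) : Matrix ι ι F)) k l =
        (g' : Matrix ι ι F) k i * ((g'⁻¹ : GL ι F) : Matrix ι ι F) j l := by
      rw [Matrix.mul_assoc, Matrix.mul_apply, Finset.sum_eq_single i]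
      · rw [Matrix.single_mul_apply_same, one_mul]
      · intro b _ hb
        rw [Matrix.single_mul_apply_of_ne _ _ _ _ _ hb, mul_zero]
      · intro h; exact absurd (Finset.mem_univ i) h
    rw [← h3]; exact h2
  refine ⟨g', hmem, ?_⟩
  show B⁻¹ * g' * B⁻¹⁻¹ = g
  rw [hg']; group

lemma realisableOver_mono {F₀ F₁ : Subfield F} (h : F₀ ≤ F₁) {S : Set (Matrix ι ι F)} (hr : RealisableOver F₀ S) :
    RealisableOver F₁ S := by
  obtain ⟨B, hB⟩ := hr
  exact ⟨B, fun s hs i j => h (hB s hs i j)⟩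

/-- A proper subfield is contained in one of prime index. -/
lemma exists_prime_index [Fintype F] (F₀ : Subfield F) (h0 : F₀ ≠ ⊤) :
    ∃ (F₁ : Subfield F) (r : ℕ), F₀ ≤ F₁ ∧ r.Prime ∧ Fintype.card F = Nat.card F₁ ^ r := by
  classical
  haveI : Finite F₀ := inferInstance
  haveI : Module.Finite F₀ F := inferInstance
  have hd : Module.finrank F₀ F ≠ 1 := by
    intro h1
    apply h0
    rw [eq_top_iff]
    intro x _
    obtain ⟨y, hy⟩ := (finrank_eq_one_iff_of_nonzero' (1 : F) one_ne_zero).1 h1 x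
    rw [← hy, Subfield.smul_def, smul_eq_mul, mul_one]
    exact y.2
  obtain ⟨r, hr, hrd⟩ := Nat.exists_prime_and_dvd hd
  haveI : IsGalois F₀ F := inferInstance
  have hcard : Nat.card Gal(F/F₀) = Module.finrank F₀ F := IsGalois.card_aut_eq_finrank F₀ F
  haveI : Fact r.Prime := ⟨hr⟩
  haveI : Fintype Gal(F/F₀) := Fintype.ofFinite _
  obtain ⟨σ, hσ⟩ := exists_prime_orderOf_dvd_card (G := Gal(F/F₀)) r (by
    rw [← Nat.card_eq_fintype_card, hcard]; exact hrd)
  let C : Subgroup Gal(F/F₀) := Subgroup.zpowers σ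
  let K : IntermediateField F₀ F := IntermediateField.fixedField C
  have hK : Module.finrank K F = r := by
    rw [IntermediateField.finrank_fixedField_eq_card, Nat.card_zpowers, hσ]
  refine ⟨K.toSubfield, r, ?_, hr, ?_⟩
  · intro x hx
    exact K.algebraMap_mem ⟨x, hx⟩
  · have h1 : Nat.card F = Nat.card K ^ Module.finrank K F := Module.natCard_eq_pow_finrank
    rw [← Nat.card_eq_fintype_card, h1, hK]
    rfl

/-- Class 5 output: an absolutely irreducible group realisable over a proper subfield. -/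
theorem exists_le_subfieldSubgroup [Fintype F] {L H : Subgroup (GL ι F)} (hL : ActsAbsolutelyIrreducibly (matrixSet L))
    {F₀ : Subfield F} (h0 : F₀ ≠ ⊤) (hr : RealisableOver F₀ (matrixSet L)) (hH : ∀ g ∈ H, ∀ x ∈ L, g * x * g⁻¹ ∈ L) :
    ∃ (F₁ : Subfield F) (r : ℕ) (P : GL ι F), F₀ ≤ F₁ ∧ r.Prime ∧ Fintype.card F = Nat.card F₁ ^ r ∧
      H ≤ subfieldSubgroup F₁ P := by
  obtain ⟨F₁, r, hle, hrp, hc⟩ := exists_prime_index F₀ h0
  obtain ⟨P, hP⟩ := le_subfieldSubgroup hL (realisableOver_mono hle hr) hH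
  exact ⟨F₁, r, P, hle, hrp, hc, hP⟩

end Cfsg.Agent.Lib.AschSubfield
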