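import Cfsg.Agent.Lib.AschExtra2
import Cfsg.Agent.Lib.AschSubfield
set_option autoImplicit false
set_option linter.style.haveILetI false
set_option linter.unusedVariables false
set_option linter.unusedSectionVars false

namespace Cfsg.Agent.Lib.AschExtra

open Cfsg Cfsg.Geo Cfsg.Agent.Lib.AschForms Cfsg.Agent.Lib.AschRealise Cfsg.Agent.Lib.AschSubfield
open scoped Matrix MatrixGroups

variable {ι : Type} [Fintype ι] [DecidableEq ι] {F : Type*} [Field F]

/-- A group with an absolutely irreducible action, abelian mod scalars, is realisable over any subfield containing its scalars. -/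
theorem realisable_of_scalars [Finite F] [Nonempty ι] (F₀ : Subfield F) {R : Subgroup (GL ι F)}
    (habs : ActsAbsolutelyIrreducibly (matrixSet R)) (hcomm : ∀ x ∈ R, ∀ y ∈ R, x * y * x⁻¹ * y⁻¹ ∈ scalars ι F)
    (hsc : ∀ x ∈ R, ∀ c : F, (x : Matrix ι ι F) = c • (1 : Matrix ι ι F) → c ∈ F₀) :
    RealisableOver F₀ (matrixSet R) := by
  classical
  haveI : Finite R := inferInstance
  haveI : Finite (ProjQ R) := inferInstance
  have key : ∀ s ∈ R, ∃ c ∈ F₀, ∃ q : ProjQ R, (s : Matrix ι ι F) = c • cosetBasis R habs hcomm q := by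
    intro s hs
    set q : ProjQ R := QuotientGroup.mk (⟨s, hs⟩ : R) with hq
    have h1 : (Quotient.out q : R)⁻¹ * ⟨s, hs⟩ ∈ (scalars ι F).subgroupOf R := by
      rw [← QuotientGroup.eq, QuotientGroup.out_eq', hq]
    rw [Subgroup.mem_subgroupOf] at h1
    obtain ⟨c, hc⟩ := (mem_scalars_iff _).1 h1
    refine ⟨c, hsc _ ((Quotient.out q : R)⁻¹ * ⟨s, hs⟩ : R).2 c hc, q, ?_⟩
    have h2 : (s : Matrix ι ι F) = (rep R q : Matrix ι ι F) * (((Quotient.out q : R)⁻¹ * ⟨s, hs⟩ : R) : GL ι F) := by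
      rw [← Units.val_mul]
      congr 1
      simp [rep]
    rw [h2, hc, Matrix.mul_smul, Matrix.mul_one, cosetBasis_apply]
  have key2 : ∀ s ∈ R, ∀ k, (cosetBasis R habs hcomm).repr (s : Matrix ι ι F) k ∈ F₀ := by
    intro s hs k
    obtain ⟨c, hc, q, h⟩ := key s hs
    rw [h, map_smul, Module.Basis.repr_self, Finsupp.smul_apply, Finsupp.single_apply]
    split_ifs
    · simpa using hc
    · simp
  obtain ⟨B, hB⟩ := realisable_of_basis F₀ (cosetBasis R habs hcomm) (fun i j k => by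
    rw [cosetBasis_apply, cosetBasis_apply, ← Units.val_mul]
    exact key2 _ (mul_mem (rep_mem R i) (rep_mem R j)) k) (fun k => by
    have := key2 1 (one_mem R) k
    rwa [Units.val_one] at this)
  refine ⟨B, ?_⟩
  rintro _ ⟨s, hs, rfl⟩ i j
  obtain ⟨c, hc, q, h⟩ := key s hs
  show ((B : Matrix ι ι F) * (s : Matrix ι ι F) * ((B⁻¹ : GL ι F) : Matrix ι ι F)) i j ∈ F₀
  rw [h, Matrix.mul_smul, Matrix.smul_mul, Matrix.smul_apply, smul_eq_mul]
  exact mul_mem hc (hB q i j)

/-- the subfield `{x | x^(p^d) = x}` -/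
def fixField (p d : ℕ) [Fact p.Prime] [CharP F p] : Subfield F where
  carrier := {x | x ^ (p ^ d) = x}
  mul_mem' := by
    intro a b ha hb
    show (a * b) ^ (p ^ d) = a * b
    rw [mul_pow, show a ^ (p ^ d) = a from ha, show b ^ (p ^ d) = b from hb]
  one_mem' := one_pow _
  add_mem' := by
    intro a b ha hb
    show (a + b) ^ (p ^ d) = a + b
    rw [add_pow_char_pow, show a ^ (p ^ d) = a from ha, show b ^ (p ^ d) = b from hb]
  zero_mem' := zero_pow (pow_ne_zero _ (Fact.out : p.Prime).ne_zero)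
  neg_mem' := by
    intro a ha
    show (-a) ^ (p ^ d) = -a
    have h1 : ((-a) + a) ^ (p ^ d) = (-a) ^ (p ^ d) + a ^ (p ^ d) := add_pow_char_pow _ _ p d
    rw [neg_add_cancel, zero_pow (pow_ne_zero _ (Fact.out : p.Prime).ne_zero), show a ^ (p ^ d) = a from ha] at h1
    exact (neg_eq_of_add_eq_zero_left h1.symm).symm
  inv_mem' := by
    intro a ha
    show (a⁻¹) ^ (p ^ d) = a⁻¹
    rw [inv_pow, show a ^ (p ^ d) = a from ha]

lemma mem_fixField (p d : ℕ) [Fact p.Prime] [CharP F p] (x : F) : x ∈ fixField p d ↔ x ^ (p ^ d) = x := Iff.rfl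

lemma fixField_ne_top (p d : ℕ) [Fact p.Prime] [CharP F p] [Fintype F] (hd : 0 < d) (h : p ^ d < Fintype.card F) :
    (fixField p d : Subfield F) ≠ ⊤ := by
  classical
  intro htop
  have h1 : ∀ x : F, x ^ (p ^ d) = x := fun x => by
    have : x ∈ (fixField p d : Subfield F) := by rw [htop]; trivial
    exact this
  have h2 : (Finset.univ : Finset F).val ≤ (Polynomial.X ^ (p ^ d) - Polynomial.X : Polynomial F).roots := by
    rw [Multiset.le_iff_subset Finset.univ.nodup]
    intro x _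
    rw [Polynomial.mem_roots (FiniteField.X_pow_card_pow_sub_X_ne_zero F hd.ne' (Fact.out : p.Prime).one_lt)]
    simp [h1 x]
  have h3 := Multiset.card_le_card h2
  have h4 := Polynomial.card_roots' (Polynomial.X ^ (p ^ d) - Polynomial.X : Polynomial F)
  rw [FiniteField.X_pow_card_pow_sub_X_natDegree_eq F hd.ne' (Fact.out : p.Prime).one_lt] at h4
  have h5 : Multiset.card (Finset.univ : Finset F).val = Fintype.card F := rfl
  omega

lemma card_center_dvd [Fintype F] [Nonempty ι] {R : Subgroup (GL ι F)} (habs : ActsAbsolutelyIrreducibly (matrixSet R)) :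
    Nat.card (Subgroup.center R) ∣ Fintype.card F - 1 := by
  classical
  have h1 : Nat.card (scalars ι F) = Fintype.card F - 1 := by
    have : Nat.card (unitScalar ι F).range = Nat.card Fˣ :=
      (Nat.card_congr (MonoidHom.ofInjective (unitScalar_injective (ι := ι) (F := F))).toEquiv).symm
    rw [show scalars ι F = (unitScalar ι F).range from rfl, this, Nat.card_eq_fintype_card, Fintype.card_units]
  rw [center_eq habs, ← h1]
  let f : (scalars ι F).subgroupOf R →* scalars ι F :=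
    { toFun := fun x => ⟨((x : R) : GL ι F), Subgroup.mem_subgroupOf.1 x.2⟩
      map_one' := rfl
      map_mul' := fun _ _ => rfl }
  have hf : Function.Injective f := by
    intro a b h
    apply Subtype.ext; apply Subtype.ext
    exact congrArg (fun z : scalars ι F => (z : GL ι F)) h
  exact Subgroup.card_dvd_of_injective f hf

lemma scalar_pow_card [Finite F] [Nonempty ι] {R : Subgroup (GL ι F)} (habs : ActsAbsolutelyIrreducibly (matrixSet R))
    {x : GL ι F} (hx : x ∈ R) {c : F} (hc : (x : Matrix ι ι F) = c • (1 : Matrix ι ι F)) :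
    c ^ Nat.card (Subgroup.center R) = 1 := by
  have hc0 : c ≠ 0 := by
    rintro rfl
    rw [zero_smul] at hc
    exact x.ne_zero hc
  have h1 : (⟨x, hx⟩ : R) ∈ Subgroup.center R := by
    rw [center_eq habs, Subgroup.mem_subgroupOf]
    exact (mem_scalars_iff x).2 ⟨Units.mk0 c hc0, hc⟩
  have h3 : x ^ Nat.card (Subgroup.center R) = 1 := by
    generalize hz : Nat.card (Subgroup.center R) = z
    have h2 : (⟨⟨x, hx⟩, h1⟩ : Subgroup.center R) ^ z = 1 := by rw [← hz]; exact pow_card_eq_one'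
    have := congrArg (fun z : Subgroup.center R => ((z : R) : GL ι F)) h2
    simpa using this
  have h4 := congrArg (fun g : GL ι F => (g : Matrix ι ι F)) h3
  simp only [Units.val_pow_eq_pow_val, Units.val_one, hc, smul_pow, one_pow] at h4
  have h5 := congrArg (fun M : Matrix ι ι F => M (Classical.arbitrary ι) (Classical.arbitrary ι)) h4
  simpa using h5

/-- Either the field is minimal for the centre, or the group is realisable over a proper subfield. -/
theorem minimal_or_subfield [Fintype F] [Nonempty ι] {R : Subgroup (GL ι F)} (habs : ActsAbsolutelyIrreducibly (matrixSet R))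
    (hcomm : ∀ x ∈ R, ∀ y ∈ R, x * y * x⁻¹ * y⁻¹ ∈ scalars ι F) {p e : ℕ} (hp : p.Prime) (hchar : CharP F p)
    (hcard : Fintype.card F = p ^ e) :
    IsMinimalFieldFor (Nat.card (Subgroup.center R)) p e F ∨ ∃ F₀ : Subfield F, F₀ ≠ ⊤ ∧ RealisableOver F₀ (matrixSet R) := by
  classical
  haveI : Fact p.Prime := ⟨hp⟩
  by_cases h : ∀ d : ℕ, 0 < d → d < e → ¬ Nat.card (Subgroup.center R) ∣ p ^ d - 1
  · left
    refine ⟨hp, hchar, hcard, ?_, h⟩
    rw [← hcard]; exact card_center_dvd habs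
  · right
    push Not at h
    obtain ⟨d, hd0, hde, hdvd⟩ := h
    refine ⟨fixField p d, fixField_ne_top p d hd0 (by rw [hcard]; exact Nat.pow_lt_pow_right hp.one_lt hde), ?_⟩
    refine realisable_of_scalars _ habs hcomm (fun x hx c hc => ?_)
    rw [mem_fixField]
    have h1 := scalar_pow_card habs hx hc
    obtain ⟨k, hk⟩ := hdvd
    have h2 : c ^ (p ^ d - 1) = 1 := by rw [hk, pow_mul, h1, one_pow]
    have h3 : p ^ d = (p ^ d - 1) + 1 := (Nat.succ_pred_eq_of_pos (pow_pos hp.pos d)).symm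
    rw [h3, pow_succ, h2, one_mul]


/-- if `X` is non-zero and invariant under an irreducible group, it is invertible -/
lemma isUnit_of_invariant (σ : F →+* F) {R : Subgroup (GL ι F)} (hirr : ActsIrreducibly (matrixSet R))
    {X : Matrix ι ι F} (hX0 : X ≠ 0) (hX : ∀ s ∈ R, (s : Matrix ι ι F)ᵀ * X * (s : Matrix ι ι F).map σ = X) : IsUnit X := by
  rw [← Matrix.isUnit_transpose, ← Matrix.mulVec_injective_iff_isUnit]
  rw [← Matrix.coe_mulVecLin, ← LinearMap.ker_eq_bot]
  rcases hirr (LinearMap.ker (Matrix.mulVecLin Xᵀ)) (by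
    rintro _ ⟨s, hs, rfl⟩
    rintro _ ⟨w, hw, rfl⟩
    have hw' : Xᵀ *ᵥ w = 0 := hw
    show Xᵀ *ᵥ ((s : Matrix ι ι F) *ᵥ w) = 0
    set t : Matrix ι ι F := ((s⁻¹ : GL ι F) : Matrix ι ι F) with ht
    have hst : (s : Matrix ι ι F) * t = 1 := by rw [ht, ← Units.val_mul]; simp
    have h2 : (s : Matrix ι ι F).map σ * t.map σ = 1 := by
      rw [← Matrix.map_mul, hst]; exact Matrix.map_one _ (map_zero σ) (map_one σ)
    -- sᵀ X = X * t.map σ
    have h1 : (s : Matrix ι ι F)ᵀ * X = X * t.map σ := by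
      conv_rhs => rw [← hX s hs]
      rw [Matrix.mul_assoc, h2, Matrix.mul_one]
    have h3 : Xᵀ * (s : Matrix ι ι F) = (t.map σ)ᵀ * Xᵀ := by
      have := congrArg Matrix.transpose h1
      rwa [Matrix.transpose_mul, Matrix.transpose_mul, Matrix.transpose_transpose] at this
    rw [Matrix.mulVec_mulVec, h3, ← Matrix.mulVec_mulVec, hw', Matrix.mulVec_zero]) with h | h
  · exact h
  · exfalso
    apply hX0
    have h1 : Matrix.mulVecLin Xᵀ = 0 := LinearMap.ker_eq_top.1 h
    have h2 : Xᵀ = 0 := by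
      apply Matrix.toLin'.injective
      rw [map_zero]; exact h1
    rw [← Matrix.transpose_transpose X, h2, Matrix.transpose_zero]

/-- Existence of an invariant sesquilinear form. -/
theorem exists_form [Finite F] [Nonempty ι] (σ : F →+* F) {R : Subgroup (GL ι F)}
    (habs : ActsAbsolutelyIrreducibly (matrixSet R)) (hcomm : ∀ x ∈ R, ∀ y ∈ R, x * y * x⁻¹ * y⁻¹ ∈ scalars ι F)
    (hsc : ∀ x ∈ R, ∀ c : F, (x : Matrix ι ι F) = c • (1 : Matrix ι ι F) → σ c * c = 1) :
    ∃ X : Matrix ι ι F, IsUnit X ∧ ∀ s ∈ R, (s : Matrix ι ι F)ᵀ * X * (s : Matrix ι ι F).map σ = X := by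
  classical
  haveI : Finite R := inferInstance
  haveI : Finite (ProjQ R) := inferInstance
  haveI := Fintype.ofFinite (ProjQ R)
  have key : ∀ s : R, ∃ c : F, σ c * c = 1 ∧ ((s : GL ι F) : Matrix ι ι F) = c • (rep R (QuotientGroup.mk s : ProjQ R) : Matrix ι ι F) := by
    intro s
    set q : ProjQ R := QuotientGroup.mk s with hq
    have h1 : (Quotient.out q : R)⁻¹ * s ∈ (scalars ι F).subgroupOf R := by
      rw [← QuotientGroup.eq, QuotientGroup.out_eq', hq]
    rw [Subgroup.mem_subgroupOf] at h1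
    obtain ⟨c, hc⟩ := (mem_scalars_iff _).1 h1
    refine ⟨c, hsc _ ((Quotient.out q : R)⁻¹ * s : R).2 c hc, ?_⟩
    have h2 : ((s : GL ι F) : Matrix ι ι F) = (rep R q : Matrix ι ι F) * (((Quotient.out q : R)⁻¹ * s : R) : GL ι F) := by
      rw [← Units.val_mul]
      congr 1
      simp [rep]
    rw [h2, hc, Matrix.mul_smul, Matrix.mul_one]
  let T : Matrix ι ι F → Matrix ι ι F → Matrix ι ι F := fun E s => sᵀ * E * s.map σ
  have hT1 : ∀ (E : Matrix ι ι F) (s : R), T E ((s : GL ι F) : Matrix ι ι F) = T E (rep R (QuotientGroup.mk s : ProjQ R)) := by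
    intro E s
    obtain ⟨c, hc1, hc⟩ := key s
    simp only [T]
    rw [hc, Matrix.map_smul' _ _ _ (map_mul σ), Matrix.transpose_smul, Matrix.smul_mul, Matrix.smul_mul, Matrix.mul_smul, smul_smul,
      mul_comm, hc1, one_smul]
  let X : Matrix ι ι F → Matrix ι ι F := fun E => ∑ q : ProjQ R, T E (rep R q)
  have hXinv : ∀ E, ∀ s ∈ R, (s : Matrix ι ι F)ᵀ * X E * (s : Matrix ι ι F).map σ = X E := by
    intro E s hs
    simp only [X]
    rw [Matrix.mul_sum, Matrix.sum_mul]
    have h1 : ∀ q : ProjQ R, (s : Matrix ι ι F)ᵀ * T E (rep R q) * (s : Matrix ι ι F).map σ =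
        T E (rep R (q * (QuotientGroup.mk (⟨s, hs⟩ : R) : ProjQ R))) := by
      intro q
      have h2 : q * (QuotientGroup.mk (⟨s, hs⟩ : R) : ProjQ R) = (QuotientGroup.mk ((Quotient.out q : R) * ⟨s, hs⟩) : ProjQ R) := by
        rw [QuotientGroup.mk_mul, QuotientGroup.out_eq']
      rw [h2, ← hT1]
      simp only [T, rep, Subgroup.coe_mul, Units.val_mul, Matrix.transpose_mul, Matrix.map_mul, Matrix.mul_assoc]
    rw [Finset.sum_congr rfl (fun q _ => h1 q)]
    exact Fintype.sum_equiv (Equiv.mulRight (QuotientGroup.mk (⟨s, hs⟩ : R) : ProjQ R)) _ _ (fun q => rfl)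
  obtain ⟨E, hE⟩ : ∃ E, X E ≠ 0 := by
    by_contra hcon
    push Not at hcon
    have hli := (cosetBasis R habs hcomm).linearIndependent
    rw [Fintype.linearIndependent_iff] at hli
    have h1 : ∀ j l, ∑ q : ProjQ R, σ ((rep R q : Matrix ι ι F) j l) • cosetBasis R habs hcomm q = 0 := by
      intro j l
      ext i k
      have h2 := congrArg (fun M : Matrix ι ι F => M k l) (hcon (Matrix.single i j 1))
      simp only [X, T, Matrix.sum_apply, Matrix.zero_apply] at h2
      simp only [Matrix.sum_apply, Matrix.smul_apply, Matrix.zero_apply, cosetBasis_apply, smul_eq_mul]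
      rw [← h2]
      refine Finset.sum_congr rfl fun q _ => ?_
      rw [Matrix.mul_assoc, Matrix.mul_apply]
      rw [Finset.sum_eq_single i]
      · rw [Matrix.single_mul_apply_same, Matrix.transpose_apply, Matrix.map_apply, one_mul, mul_comm]
      · intro b _ hb
        rw [Matrix.single_mul_apply_of_ne _ _ _ _ _ hb, mul_zero]
      · intro h; exact absurd (Finset.mem_univ _) h
    have h3 : ∀ q : ProjQ R, (rep R q : Matrix ι ι F) = 0 := by
      intro q
      ext j l
      have := hli _ (h1 j l) q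
      rw [Matrix.zero_apply]
      exact (map_eq_zero σ).1 this
    exact (rep R (1 : ProjQ R)).ne_zero (h3 1)
  exact ⟨X E, isUnit_of_invariant σ habs.1 hE (hXinv E), hXinv E⟩

lemma nondeg_ofGram (σ : F →+* F) (hσ : Function.Surjective σ) {X : Matrix ι ι F} (hX : IsUnit X) :
    IsNondegenerateForm (fun u v : ι → F => u ⬝ᵥ (X *ᵥ fun i => σ (v i))) := by
  intro v hv
  constructor
  · have h1 : (X *ᵥ fun i => σ (v i)) ≠ 0 := by
      intro h
      apply hv
      have h2 : (fun i => σ (v i)) = 0 := by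
        apply (Matrix.mulVec_injective_iff_isUnit.2 hX)
        rw [h, Matrix.mulVec_zero]
      funext i
      exact (map_eq_zero σ).1 (congrFun h2 i)
    obtain ⟨i, hi⟩ := Function.ne_iff.1 h1
    refine ⟨Pi.single i 1, ?_⟩
    show (Pi.single i 1 : ι → F) ⬝ᵥ (X *ᵥ fun i => σ (v i)) ≠ 0
    rw [single_one_dotProduct]; exact hi
  · have h1 : (Xᵀ *ᵥ v) ≠ 0 := by
      intro h
      apply hv
      apply (Matrix.mulVec_injective_iff_isUnit.2 ((Matrix.isUnit_transpose _).2 hX))
      rw [h, Matrix.mulVec_zero]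
    obtain ⟨i, hi⟩ := Function.ne_iff.1 h1
    refine ⟨Pi.single i 1, ?_⟩
    show v ⬝ᵥ (X *ᵥ fun j => σ ((Pi.single i 1 : ι → F) j)) ≠ 0
    have : (fun j => σ ((Pi.single i 1 : ι → F) j)) = Pi.single i 1 := by
      funext j
      rcases eq_or_ne j i with h | h
      · subst h; simp
      · simp [Pi.single_eq_of_ne h]
    rw [this, Matrix.dotProduct_mulVec, ← Matrix.mulVec_transpose, dotProduct_single_one]
    exact hi

lemma fixesForm_ofGram (σ : F →+* F) {R : Subgroup (GL ι F)} {X : Matrix ι ι F}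
    (hX : ∀ s ∈ R, (s : Matrix ι ι F)ᵀ * X * (s : Matrix ι ι F).map σ = X) :
    FixesForm (matrixSet R) (fun u v : ι → F => u ⬝ᵥ (X *ᵥ fun i => σ (v i))) := by
  rintro _ ⟨s, hs, rfl⟩
  rw [(isSesq_ofGram σ X).fixes_iff, gram_of_gram]
  exact hX s hs

lemma isUnitaryForm_ofGram (σ : F ≃+* F) (hσ : σ ≠ RingEquiv.refl F) (hσ2 : ∀ a, σ (σ a) = a) {X : Matrix ι ι F} (hX : IsUnit X)
    (hherm : Xᵀ.map σ = X) : IsUnitaryForm σ (fun u v : ι → F => u ⬝ᵥ (X *ᵥ fun i => σ (v i))) where
  ne_refl := hσ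
  involutive := hσ2
  add_left := (isSesq_ofGram (σ : F →+* F) X).add_left
  smul_left := (isSesq_ofGram (σ : F →+* F) X).smul_left
  herm := by
    intro v w
    show v ⬝ᵥ (X *ᵥ fun i => σ (w i)) = σ (w ⬝ᵥ (X *ᵥ fun i => σ (v i)))
    have h1 : σ (w ⬝ᵥ (X *ᵥ fun i => σ (v i))) = (fun i => σ (w i)) ⬝ᵥ (X.map σ *ᵥ v) := by
      simp only [dotProduct, map_sum, map_mul]
      refine Finset.sum_congr rfl fun i _ => ?_
      congr 1
      simp only [Matrix.mulVec, dotProduct, map_sum, map_mul, Matrix.map_apply, hσ2]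
    rw [h1, Matrix.dotProduct_mulVec (fun i => σ (w i)), ← Matrix.mulVec_transpose, ← Matrix.transpose_map, hherm, dotProduct_comm]
  nondegenerate := nondeg_ofGram (σ : F →+* F) σ.surjective hX

/-- Existence of an invariant unitary form. -/
theorem exists_unitary [Finite F] [Nonempty ι] (σ : F ≃+* F) (hσ : σ ≠ RingEquiv.refl F) (hσ2 : ∀ a, σ (σ a) = a)
    {R : Subgroup (GL ι F)} (habs : ActsAbsolutelyIrreducibly (matrixSet R))
    (hcomm : ∀ x ∈ R, ∀ y ∈ R, x * y * x⁻¹ * y⁻¹ ∈ scalars ι F)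
    (hsc : ∀ x ∈ R, ∀ c : F, (x : Matrix ι ι F) = c • (1 : Matrix ι ι F) → σ c * c = 1) :
    ∃ f : (ι → F) → (ι → F) → F, IsUnitaryForm σ f ∧ FixesForm (matrixSet R) f := by
  obtain ⟨X, hXu, hX⟩ := exists_form (σ : F →+* F) habs hcomm hsc
  set Y : Matrix ι ι F := Xᵀ.map σ with hY
  have hσ2' : ∀ M : Matrix ι ι F, (M.map σ).map σ = M := by
    intro M; ext i j; simp [hσ2]
  have hYX : Yᵀ.map σ = X := by
    rw [hY, Matrix.transpose_map, hσ2', Matrix.transpose_transpose]
  have hYi : ∀ s ∈ R, (s : Matrix ι ι F)ᵀ * Y * (s : Matrix ι ι F).map σ = Y := by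
    intro s hs
    have h1 := congrArg (fun M : Matrix ι ι F => (Mᵀ).map σ) (hX s hs)
    simp only [Matrix.transpose_mul, Matrix.transpose_transpose] at h1
    rw [Matrix.map_mul, Matrix.map_mul] at h1
    rw [← hY] at h1
    have h2 : (((s : Matrix ι ι F).map (σ : F →+* F))ᵀ).map σ = (s : Matrix ι ι F)ᵀ := by
      rw [Matrix.transpose_map]
      congr 1
      exact hσ2' _
    rw [h2, ← Matrix.mul_assoc] at h1
    exact h1
  have hX0 : X ≠ 0 := hXu.ne_zero
  -- choose a
  obtain ⟨a, ha⟩ : ∃ a : F, a • X + σ a • Y ≠ 0 := by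
    by_contra hcon
    push Not at hcon
    have h1 := hcon 1
    rw [map_one, one_smul, one_smul] at h1
    have hYn : Y = -X := by rw [eq_neg_iff_add_eq_zero, add_comm]; exact h1
    apply hσ
    ext a
    have h2 := hcon a
    rw [hYn, smul_neg, ← sub_eq_add_neg, ← sub_smul, smul_eq_zero] at h2
    exact (sub_eq_zero.1 (h2.resolve_right hX0)).symm
  set Z : Matrix ι ι F := a • X + σ a • Y with hZ
  have hZi : ∀ s ∈ R, (s : Matrix ι ι F)ᵀ * Z * (s : Matrix ι ι F).map (σ : F →+* F) = Z := by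
    intro s hs
    rw [hZ, Matrix.mul_add, Matrix.add_mul, Matrix.mul_smul, Matrix.mul_smul, Matrix.smul_mul, Matrix.smul_mul, hX s hs]
    congr 2
    exact hYi s hs
  have hZh : Zᵀ.map σ = Z := by
    have h1 : Zᵀ.map σ = σ a • Xᵀ.map σ + σ (σ a) • Yᵀ.map σ := by
      rw [hZ]
      ext i j
      simp
    rw [h1, hYX, hσ2, ← hY, add_comm]
  have hZu := isUnit_of_invariant (σ : F →+* F) habs.1 ha hZi
  exact ⟨_, isUnitaryForm_ofGram σ hσ hσ2 hZu hZh, fixesForm_ofGram (σ : F →+* F) hZi⟩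

/-- Existence of an invariant bilinear form, symmetric or alternating, in odd characteristic. -/
theorem exists_symm_or_symp [Finite F] [Nonempty ι] (h2 : (2 : F) ≠ 0)
    {R : Subgroup (GL ι F)} (habs : ActsAbsolutelyIrreducibly (matrixSet R))
    (hcomm : ∀ x ∈ R, ∀ y ∈ R, x * y * x⁻¹ * y⁻¹ ∈ scalars ι F)
    (hsc : ∀ x ∈ R, ∀ c : F, (x : Matrix ι ι F) = c • (1 : Matrix ι ι F) → c * c = 1) :
    (∃ f : (ι → F) → (ι → F) → F, IsSymplecticForm f ∧ FixesForm (matrixSet R) f) ∨
    (∃ Q : (ι → F) → F, IsNondegenerateQuadraticForm Q ∧ FixesQuadForm (matrixSet R) Q) := by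
  obtain ⟨X, hXu, hX⟩ := exists_form (RingHom.id F) habs hcomm hsc
  have hXT : ∀ s ∈ R, (s : Matrix ι ι F)ᵀ * Xᵀ * (s : Matrix ι ι F).map (RingHom.id F) = Xᵀ := by
    intro s hs
    have h1 := congrArg Matrix.transpose (hX s hs)
    rw [Matrix.transpose_mul, Matrix.transpose_mul, Matrix.transpose_transpose, ← Matrix.mul_assoc] at h1
    have h2 : (s : Matrix ι ι F).map (RingHom.id F) = (s : Matrix ι ι F) := by ext i j; simp
    rw [h2] at h1 ⊢
    exact h1
  by_cases hsum : X + Xᵀ = 0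
  · left
    have hXn : Xᵀ = -X := by rw [eq_neg_iff_add_eq_zero, add_comm]; exact hsum
    refine ⟨fun u v => u ⬝ᵥ (X *ᵥ fun i => (RingHom.id F) (v i)), ?_, fixesForm_ofGram _ hX⟩
    have hskew : ∀ v w : ι → F, v ⬝ᵥ (X *ᵥ w) = - (w ⬝ᵥ (X *ᵥ v)) := by
      intro v w
      rw [Matrix.dotProduct_mulVec w X v, ← Matrix.mulVec_transpose, hXn, Matrix.neg_mulVec, neg_dotProduct, neg_neg, dotProduct_comm]
    have hb := isSesq_ofGram (RingHom.id F) X
    exact
      { bilinear := ⟨hb.add_left, hb.smul_left, hb.add_right, hb.smul_right⟩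
        skew := hskew
        alternating := fun v => by
          have h1 := hskew v v
          have h3 : (2 : F) * (v ⬝ᵥ (X *ᵥ v)) = 0 := by linear_combination h1
          exact (mul_eq_zero.1 h3).resolve_left h2
        nondegenerate := nondeg_ofGram (RingHom.id F) Function.surjective_id hXu }
  · right
    set Z : Matrix ι ι F := X + Xᵀ with hZ
    have hZT : Zᵀ = Z := by rw [hZ, Matrix.transpose_add, Matrix.transpose_transpose, add_comm]
    have hZi : ∀ s ∈ R, (s : Matrix ι ι F)ᵀ * Z * (s : Matrix ι ι F).map (RingHom.id F) = Z := by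
      intro s hs
      rw [hZ, Matrix.mul_add, Matrix.add_mul, hX s hs, hXT s hs]
    have hZu := isUnit_of_invariant (RingHom.id F) habs.1 hsum hZi
    have hnd := nondeg_ofGram (RingHom.id F) Function.surjective_id hZu
    have hfx := fixesForm_ofGram (RingHom.id F) hZi
    have hb := isSesq_ofGram (RingHom.id F) Z
    set f : (ι → F) → (ι → F) → F := fun u v => u ⬝ᵥ (Z *ᵥ fun i => (RingHom.id F) (v i)) with hf
    have hfsymm : ∀ u v, f u v = f v u := by
      intro u v
      show u ⬝ᵥ (Z *ᵥ v) = v ⬝ᵥ (Z *ᵥ u)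
      rw [Matrix.dotProduct_mulVec v Z u, ← Matrix.mulVec_transpose, hZT, dotProduct_comm]
    have hpol : QuadraticMap.polar (fun v => f v v) = fun u v => 2 * f u v := by
      funext u v
      simp only [QuadraticMap.polar]
      rw [hb.add_left, hb.add_right, hb.add_right, hfsymm v u]; ring
    refine ⟨fun v => f v v, ⟨?_, ?_, ?_⟩, ?_⟩
    · intro c v
      show f (c • v) (c • v) = _
      rw [hb.smul_left, hb.smul_right]; simp only [RingHom.id_apply]; ring
    · rw [hpol]
      exact ⟨fun x y v => by rw [hb.add_left]; ring, fun c x v => by rw [hb.smul_left]; ring,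
        fun v x y => by rw [hb.add_right]; ring, fun c v x => by rw [hb.smul_right]; simp only [RingHom.id_apply]; ring⟩
    · rw [hpol]
      intro v hv
      obtain ⟨⟨x, hx⟩, y, hy⟩ := hnd v hv
      exact ⟨⟨x, mul_ne_zero h2 hx⟩, y, mul_ne_zero h2 hy⟩
    · intro s hs v
      exact hfx s hs v v


/-- The data extracted from a normal subgroup `N` of `H` that is absolutely irreducible and an abelian chief factor mod scalars. -/
structure IsSympData (H N R : Subgroup (GL ι F)) (r m : ℕ) : Prop where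
  le : R ≤ N
  inv : InvBy H R
  gen : N ≤ R ⊔ scalars ι F
  absIrr : ActsAbsolutelyIrreducibly (matrixSet R)
  sympType : IsSymplecticTypeGroup r R
  comm : ∀ x ∈ R, ∀ y ∈ R, x * y * x⁻¹ * y⁻¹ ∈ scalars ι F
  pos : 1 ≤ m
  card_ι : Fintype.card ι = r ^ m
  card_R : Nat.card R = Fintype.card ι ^ 2 * Nat.card (Subgroup.center R)
  center : Nat.card (Subgroup.center R) = r ∨ (r = 2 ∧ Nat.card (Subgroup.center R) = 4)

theorem exists_sympData [Finite F] {H N : Subgroup (GL ι F)} (hn : 2 ≤ Fintype.card ι) (hinv : InvBy H N)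
    (habs : ActsAbsolutelyIrreducibly (matrixSet N)) (hcomm : ∀ x ∈ N, ∀ y ∈ N, x * y * x⁻¹ * y⁻¹ ∈ scalars ι F)
    (hchief : ∀ M : Subgroup (GL ι F), M ≤ N → InvBy H M → M ≤ scalars ι F ∨ N ≤ M ⊔ scalars ι F) :
    ∃ (R : Subgroup (GL ι F)) (r m : ℕ), IsSympData H N R r m := by
  classical
  haveI : Nonempty ι := Fintype.card_pos_iff.1 (by omega)
  obtain ⟨r, hr, hpow⟩ := exists_prime_pow_mem hn hinv habs hcomm hchief
  set R := Rsub N hcomm hr hpow with hRdef
  have hRN : R ≤ N := fun x hx => hx.1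
  have hRinv : InvBy H R := by
    rintro h hh x ⟨hx, hx'⟩
    refine ⟨hinv h hh x hx, ?_⟩
    rcases hx' with h1 | ⟨h2, h1⟩
    · left; rw [conj_pow, h1]; simp
    · right; refine ⟨h2, ?_⟩; rw [conj_pow, h1]; simp
  have hgen : N ≤ R ⊔ scalars ι F := (hchief R hRN hRinv).resolve_left (Rsub_not_le hn habs hcomm hr hpow)
  have habsR := absIrr_of_le_sup hgen habs
  have hcommR : ∀ x ∈ R, ∀ y ∈ R, x * y * x⁻¹ * y⁻¹ ∈ scalars ι F := fun x hx y hy => hcomm x (hRN hx) y (hRN hy)
  have hpowR : ∀ x ∈ R, x ^ r ∈ scalars ι F := fun x hx => hpow x (hRN hx)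
  have hcond : ∀ x ∈ R, RCond r x := fun x hx => hx.2
  obtain ⟨m, hm, hcard⟩ := card_index hn habsR hcommR hr hpowR
  exact ⟨R, r, m, hRN, hRinv, hgen, habsR, isSymplecticTypeGroup_R hn hRN habs habsR hRinv hchief hr hcond, hcommR, hm, hcard,
    card_eq habsR hcommR, card_center hn habsR hcommR hr hcond hpowR⟩

lemma exists_sigma [Fintype F] {p f : ℕ} (hp : p.Prime) (hchar : CharP F p) (hcard : Fintype.card F = p ^ (2 * f)) (hf : 0 < f) :
    ∃ σ : F ≃+* F, σ ≠ RingEquiv.refl F ∧ (∀ a, σ (σ a) = a) ∧ ∀ a, σ a = a ^ p ^ f := by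
  haveI : Fact p.Prime := ⟨hp⟩
  let φ : F →+* F := iterateFrobenius F p f
  have hφ : ∀ a, φ a = a ^ p ^ f := fun a => iterateFrobenius_def p f a
  let σ : F ≃+* F := RingEquiv.ofBijective φ ⟨φ.injective, Finite.injective_iff_surjective.1 φ.injective⟩
  have hσ : ∀ a, σ a = a ^ p ^ f := hφ
  refine ⟨σ, ?_, ?_, hσ⟩
  · intro h
    apply fixField_ne_top (F := F) p f hf (by rw [hcard]; exact Nat.pow_lt_pow_right hp.one_lt (by omega))
    rw [eq_top_iff]
    intro x _
    rw [mem_fixField, ← hσ, h]; rfl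
  · intro a
    rw [hσ, hσ, ← pow_mul, ← pow_add, ← two_mul, ← hcard, FiniteField.pow_card]

/-- The symplectic-type case of Aschbacher's theorem, linear version. -/
theorem linear_case [Fintype F] {H N : Subgroup (GL ι F)} (h3 : 3 ≤ Fintype.card ι) (hinv : InvBy H N)
    (habs : ActsAbsolutelyIrreducibly (matrixSet N)) (hcomm : ∀ x ∈ N, ∀ y ∈ N, x * y * x⁻¹ * y⁻¹ ∈ scalars ι F)
    (hchief : ∀ M : Subgroup (GL ι F), M ≤ N → InvBy H M → M ≤ scalars ι F ∨ N ≤ M ⊔ scalars ι F) :
    (∃ (r : ℕ) (R : Subgroup (GL ι F)), IsLinearSymplecticTypeData r R ∧ H ≤ subgroupNormalizer R) ∨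
    (∃ (F₀ : Subfield F) (r : ℕ) (P : GL ι F), r.Prime ∧ Fintype.card F = Nat.card F₀ ^ r ∧ H ≤ subfieldSubgroup F₀ P) ∨
    (∃ f : (ι → F) → (ι → F) → F, IsSymplecticForm f ∧ Even (Fintype.card ι) ∧ 4 ≤ Fintype.card ι ∧ H ≤ similarityGroup f) ∨
    (∃ (σ : F ≃+* F) (f : (ι → F) → (ι → F) → F), IsUnitaryForm σ f ∧ H ≤ similarityGroup f) ∨
    (∃ Q : (ι → F) → F, IsNondegenerateQuadraticForm Q ∧ Odd (Fintype.card F) ∧ H ≤ quadSimilarityGroup Q) := by
  classical
  haveI : Nonempty ι := Fintype.card_pos_iff.1 (by omega)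
  obtain ⟨R, r, m, hD⟩ := exists_sympData (by omega) hinv habs hcomm hchief
  obtain ⟨p, hchar⟩ := CharP.exists F
  obtain ⟨e, hp, hcard⟩ := FiniteField.card F p
  have he : 0 < (e : ℕ) := e.pos
  generalize (e : ℕ) = e at *
  have hr := hD.sympType.prime
  have hRinv : ∀ g ∈ H, ∀ x ∈ R, g * x * g⁻¹ ∈ R := hD.inv
  rcases minimal_or_subfield hD.absIrr hD.comm hp hchar hcard with hmin | ⟨F₀, hF₀, hreal⟩
  swap
  · right; left
    obtain ⟨F₁, s, P, _, hs, hc, hle⟩ := exists_le_subfieldSubgroup hD.absIrr hF₀ hreal hRinv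
    exact ⟨F₁, s, P, hs, hc, hle⟩
  have hnorm : H ≤ subgroupNormalizer R := by
    intro g hg
    show g ∈ Subgroup.normalizer (R : Set (GL ι F))
    rw [Subgroup.mem_normalizer_iff]
    intro x
    constructor
    · exact fun hx => hD.inv g hg x hx
    · intro hx
      have := hD.inv g⁻¹ (inv_mem hg) _ hx
      have h2 : g⁻¹ * (g * x * g⁻¹) * g⁻¹⁻¹ = x := by group
      rwa [h2] at this
  have hzdvd := hmin.2.2.2.1
  have hzmin := hmin.2.2.2.2
  set z := Nat.card (Subgroup.center R) with hz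
  have hpe : 1 ≤ p ^ e := Nat.one_le_pow _ _ hp.pos
  have hrp : r ≠ p := by
    rintro rfl
    have h1 : r ∣ z := by
      rcases hD.center with h | ⟨h, h'⟩
      · rw [← hz] at h; rw [h]
      · rw [← hz] at h'; rw [h', h]; norm_num
    have h2 : r ∣ r ^ e - 1 := h1.trans hzdvd
    have h3 : r ∣ r ^ e := dvd_pow_self r he.ne'
    have h4 : r ∣ r ^ e - (r ^ e - 1) := Nat.dvd_sub h3 h2
    rw [Nat.sub_sub_self hpe] at h4
    exact hr.one_lt.ne' (Nat.dvd_one.1 h4)
  have hsc : ∀ x ∈ R, ∀ c : F, (x : Matrix ι ι F) = c • (1 : Matrix ι ι F) → c ^ z = 1 := fun x hx c hc =>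
    scalar_pow_card hD.absIrr hx hc
  -- unitary conclusion
  have huni : ∀ f : ℕ, 0 < f → e = 2 * f → z ∣ p ^ f + 1 → ∃ (σ : F ≃+* F) (f : (ι → F) → (ι → F) → F), IsUnitaryForm σ f ∧ H ≤ similarityGroup f := by
    intro f hf hef hzf
    obtain ⟨σ, hσ1, hσ2, hσ⟩ := exists_sigma hp hchar (by rw [hcard, hef]) hf
    obtain ⟨φ, hφ, hfix⟩ := exists_unitary σ hσ1 hσ2 hD.absIrr hD.comm (fun x hx c hc => by
      rw [hσ, ← pow_succ]
      obtain ⟨k, hk⟩ := hzf
      rw [hk, pow_mul, hsc x hx c hc, one_pow])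
    exact ⟨σ, φ, hφ, le_similarity_unitary hD.absIrr hφ hfix hRinv⟩
  rcases hD.center with hzr | ⟨hr2, hz4⟩
  · rw [← hz] at hzr
    rcases eq_or_ne r 2 with hr2 | hr2
    · -- z = 2
      subst hr2
      right; right
      have h2 : (2 : F) ≠ 0 := by
        intro h
        have : p ∣ 2 := (CharP.cast_eq_zero_iff F p 2).1 (by exact_mod_cast h)
        exact hrp ((Nat.prime_dvd_prime_iff_eq hp Nat.prime_two).1 this).symm
      have hodd : Odd (Fintype.card F) := by
        rw [hcard]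
        exact (hp.odd_of_ne_two hrp.symm).pow
      have hm : 2 ≤ m := by
        by_contra hlt
        have h1 : m = 1 := by have := hD.pos; omega
        have h2 := hD.card_ι
        rw [h1, pow_one] at h2
        omega
      rcases exists_symm_or_symp h2 hD.absIrr hD.comm (fun x hx c hc => by
        have := hsc x hx c hc
        rw [hzr, pow_two] at this
        exact this) with ⟨f, hf, hfix⟩ | ⟨Q, hQ, hfix⟩
      · left
        refine ⟨f, hf, ?_, ?_, le_similarity_bilinear hD.absIrr hf.bilinear hf.nondegenerate hfix hRinv⟩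
        · rw [hD.card_ι]; exact (Nat.even_pow.2 ⟨even_two, by omega⟩)
        · rw [hD.card_ι]
          calc 4 = 2 ^ 2 := by norm_num
            _ ≤ 2 ^ m := Nat.pow_le_pow_right (by norm_num) hm
      · right; right
        exact ⟨Q, hQ, hodd, le_quadSimilarity hD.absIrr hQ hfix hRinv⟩
    · have hrodd : Odd r := hr.odd_of_ne_two hr2
      rcases Nat.even_or_odd e with heven | hodd
      · -- unitary
        right; right; right; left
        obtain ⟨f, hf⟩ := heven
        have hef : e = 2 * f := by omega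
        have hf0 : 0 < f := by omega
        refine huni f hf0 hef ?_
        have h1 : p ^ e - 1 = (p ^ f + 1) * (p ^ f - 1) := by
          rw [hef, mul_comm 2 f, pow_mul, ← one_pow 2, Nat.sq_sub_sq, one_pow]
        rw [h1, hzr] at hzdvd
        rcases (hr.dvd_mul).1 hzdvd with h | h
        · rw [hzr]; exact h
        · exfalso
          apply hzmin f hf0 (by omega)
          rw [hzr]; exact h
      · left
        refine ⟨r, R, ⟨hD.sympType, hD.absIrr, p, e, hrp, hmin, Or.inl ⟨hrodd, hodd, hzr, m, hD.pos, ?_⟩⟩, hnorm⟩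
        rw [hD.card_R, ← hz, hzr, hD.card_ι, ← pow_mul, ← pow_succ]
        congr 1; ring
  · subst hr2
    rw [← hz] at hz4
    have hm : 2 ≤ m := by
      by_contra hlt
      have h1 : m = 1 := by have := hD.pos; omega
      have h2 := hD.card_ι
      rw [h1, pow_one] at h2
      omega
    rcases Nat.lt_or_ge 1 e with he1 | he1
    · -- e = 2
      right; right; right; left
      have hpodd : p % 2 = 1 := Nat.odd_iff.1 (hp.odd_of_ne_two hrp.symm)
      have h1 : ¬ 4 ∣ p ^ 1 - 1 := by rw [← hz4]; exact hzmin 1 one_pos he1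
      rw [pow_one] at h1
      have hp1 := hp.one_lt
      have hp3 : p % 4 = 3 := by omega
      have h2 : 4 ∣ p ^ 2 - 1 := by
        have h4 : p ^ 2 - 1 = (p + 1) * (p - 1) := by
          have := Nat.sq_sub_sq p 1
          rwa [one_pow] at this
        rw [h4]
        exact Dvd.dvd.mul_right (by omega) _
      have he2 : e = 2 * 1 := by
        by_contra hne
        exact hzmin 2 (by norm_num) (by omega) (by rw [hz4]; exact h2)
      refine huni 1 one_pos he2 ?_
      rw [hz4, pow_one]; omega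
    · have he1' : e = 1 := by omega
      left
      refine ⟨2, R, ⟨hD.sympType, hD.absIrr, p, e, hrp, hmin, Or.inr (Or.inl ⟨rfl, he1', hz4, ?_, m, ?_⟩)⟩, hnorm⟩
      · rw [hD.card_ι]
        calc 4 = 2 ^ 2 := by norm_num
          _ ≤ 2 ^ m := Nat.pow_le_pow_right (by norm_num) hm
      · rw [hD.card_R, ← hz, hz4, hD.card_ι, ← pow_mul, pow_add, mul_comm]
        congr 1
        rw [mul_comm]

end Cfsg.Agent.Lib.AschExtra
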