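import Cfsg.Agent.Lib.AschNonab
import Cfsg.Agent.Lib.AschExtra3
set_option autoImplicit false
set_option linter.style.haveILetI false
set_option linter.unusedVariables false
set_option linter.unusedSectionVars false

/-!
Aschbacher's theorem relative to a form: adjoints, adjoint-closed subalgebras, first reductions.
-/

namespace Cfsg.Agent.Lib.AschAdj

open Cfsg Cfsg.Geo Cfsg.Agent.Lib.AschMU Cfsg.Agent.Lib.AschCore Cfsg.Agent.Lib.AschField Cfsg.Agent.Lib.AschAlg
  Cfsg.Agent.Lib.AschGroup Cfsg.Agent.Lib.AschGood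
open scoped Matrix MatrixGroups Kronecker

variable {ι : Type} [Fintype ι] [DecidableEq ι] {F : Type*} [Field F]

/-- Reflexive sesquilinear form data: `σ` of order at most two, `G` invertible with `σ(Gᵀ) = ε G`, `ε = ±1`. -/
structure RF (σ : F ≃+* F) (ε : F) (G : Matrix ι ι F) : Prop where
  inv : ∀ a, σ (σ a) = a
  unit : IsUnit G
  refl : Gᵀ.map σ = ε • G
  eps : ε = 1 ∨ ε = -1

/-- The form with Gram matrix `G`. -/
noncomputable def bf (σ : F ≃+* F) (G : Matrix ι ι F) (u v : ι → F) : F := u ⬝ᵥ (G *ᵥ fun i => σ (v i))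

/-- The adjoint of `x` with respect to the form `bf σ G`. -/
noncomputable def adj (σ : F ≃+* F) (G : Matrix ι ι F) (x : Matrix ι ι F) : Matrix ι ι F := (G⁻¹ * xᵀ * G).map σ

/-- `g` is an isometry. -/
def IsIso (σ : F ≃+* F) (G : Matrix ι ι F) (g : GL ι F) : Prop := adj σ G (g : Matrix ι ι F) = ((g⁻¹ : GL ι F) : Matrix ι ι F)

section basics

lemma map_mul' (σ : F ≃+* F) (x y : Matrix ι ι F) : (x * y).map σ = x.map σ * y.map σ := by
  have := Matrix.map_mul (L := x) (M := y) (f := (σ : F →+* F))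
  exact this

lemma map_one' (σ : F ≃+* F) : (1 : Matrix ι ι F).map σ = 1 := Matrix.map_one _ (map_zero σ) (map_one σ)

lemma map_smul'' (σ : F ≃+* F) (c : F) (x : Matrix ι ι F) : (c • x).map σ = σ c • x.map σ := by
  ext i j; simp

lemma map_add'' (σ : F ≃+* F) (x y : Matrix ι ι F) : (x + y).map σ = x.map σ + y.map σ := by
  ext i j; simp

lemma map_sum'' (σ : F ≃+* F) {κ : Type*} (s : Finset κ) (x : κ → Matrix ι ι F) : (∑ k ∈ s, x k).map σ = ∑ k ∈ s, (x k).map σ := by
  ext i j; simp [Matrix.sum_apply]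

lemma map_injective (σ : F ≃+* F) {x y : Matrix ι ι F} (h : x.map σ = y.map σ) : x = y := by
  ext i j
  have := congrArg (fun M : Matrix ι ι F => M i j) h
  exact σ.injective this

lemma mulVec_map (σ : F ≃+* F) (s : Matrix ι ι F) (v : ι → F) :
    (fun i => σ ((s *ᵥ v) i)) = (s.map σ) *ᵥ fun i => σ (v i) := by
  funext i
  simp [Matrix.mulVec, dotProduct, map_sum]

end basics

section form
variable {σ : F ≃+* F} {ε : F} {G : Matrix ι ι F}

lemma RF.mul_inv (h : RF σ ε G) : G * G⁻¹ = 1 := Matrix.mul_nonsing_inv _ ((Matrix.isUnit_iff_isUnit_det _).1 h.unit)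
lemma RF.inv_mul (h : RF σ ε G) : G⁻¹ * G = 1 := Matrix.nonsing_inv_mul _ ((Matrix.isUnit_iff_isUnit_det _).1 h.unit)
lemma RF.eps2 (h : RF σ ε G) : ε * ε = 1 := by rcases h.eps with h | h <;> rw [h] <;> ring
lemma RF.sigma_eps (h : RF σ ε G) : σ ε = ε := by rcases h.eps with h | h <;> rw [h] <;> simp
lemma RF.map_map (h : RF σ ε G) (x : Matrix ι ι F) : (x.map σ).map σ = x := by ext i j; simp [h.inv]

lemma adj_mul (h : RF σ ε G) (x y : Matrix ι ι F) : adj σ G (x * y) = adj σ G y * adj σ G x := by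
  unfold adj
  rw [← map_mul', Matrix.transpose_mul]
  congr 1
  calc G⁻¹ * (yᵀ * xᵀ) * G = G⁻¹ * yᵀ * 1 * xᵀ * G := by rw [mul_one]; simp only [mul_assoc]
    _ = G⁻¹ * yᵀ * (G * G⁻¹) * xᵀ * G := by rw [h.mul_inv]
    _ = _ := by simp only [mul_assoc]

lemma adj_add (x y : Matrix ι ι F) : adj σ G (x + y) = adj σ G x + adj σ G y := by
  unfold adj
  rw [Matrix.transpose_add, mul_add, add_mul, map_add'']

lemma adj_zero : adj σ G (0 : Matrix ι ι F) = 0 := by
  have := adj_add (σ := σ) (G := G) (0 : Matrix ι ι F) 0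
  rw [add_zero] at this
  exact left_eq_add.1 this

lemma adj_sum {κ : Type*} (s : Finset κ) (x : κ → Matrix ι ι F) : adj σ G (∑ k ∈ s, x k) = ∑ k ∈ s, adj σ G (x k) := by
  classical
  induction s using Finset.induction_on with
  | empty => rw [Finset.sum_empty, Finset.sum_empty, adj_zero]
  | insert a s ha ih => rw [Finset.sum_insert ha, Finset.sum_insert ha, adj_add, ih]

lemma adj_smul (c : F) (x : Matrix ι ι F) : adj σ G (c • x) = σ c • adj σ G x := by
  unfold adj
  rw [Matrix.transpose_smul, Matrix.mul_smul, Matrix.smul_mul, map_smul'']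

lemma adj_one (h : RF σ ε G) : adj σ G (1 : Matrix ι ι F) = 1 := by
  unfold adj
  rw [Matrix.transpose_one, mul_one, h.inv_mul, map_one']

lemma RF.inv_transpose_map (h : RF σ ε G) : (G⁻¹)ᵀ.map σ = ε • G⁻¹ := by
  have h1 : (G⁻¹)ᵀ.map σ * (ε • G) = 1 := by
    rw [← h.refl, ← map_mul', ← Matrix.transpose_mul, h.mul_inv, Matrix.transpose_one, map_one']
  calc (G⁻¹)ᵀ.map σ = (G⁻¹)ᵀ.map σ * (ε • G) * (ε • G⁻¹) := by
        have h2 : (ε • G) * (ε • G⁻¹) = 1 := by
          rw [Matrix.smul_mul, Matrix.mul_smul, h.mul_inv, smul_smul, h.eps2, one_smul]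
        rw [mul_assoc, h2, mul_one]
    _ = ε • G⁻¹ := by rw [h1, one_mul]

lemma adj_adj (h : RF σ ε G) (x : Matrix ι ι F) : adj σ G (adj σ G x) = x := by
  have h1 : (adj σ G x)ᵀ = G * x.map σ * G⁻¹ := by
    unfold adj
    rw [← Matrix.transpose_map, Matrix.transpose_mul, Matrix.transpose_mul, Matrix.transpose_transpose, map_mul', map_mul',
      h.refl, h.inv_transpose_map, Matrix.smul_mul, Matrix.mul_smul, Matrix.mul_smul, smul_smul, h.eps2, one_smul, mul_assoc]
  rw [show adj σ G (adj σ G x) = (G⁻¹ * (adj σ G x)ᵀ * G).map σ from rfl, h1]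
  have h2 : G⁻¹ * (G * x.map σ * G⁻¹) * G = x.map σ := by
    calc G⁻¹ * (G * x.map σ * G⁻¹) * G = (G⁻¹ * G) * x.map σ * (G⁻¹ * G) := by simp only [mul_assoc]
      _ = x.map σ := by rw [h.inv_mul, one_mul, mul_one]
  rw [h2, h.map_map]

lemma bf_adj (h : RF σ ε G) (x : Matrix ι ι F) (u v : ι → F) : bf σ G (x *ᵥ u) v = bf σ G u (adj σ G x *ᵥ v) := by
  unfold bf adj
  rw [mulVec_map, h.map_map, Matrix.mulVec_mulVec]
  have h1 : G * (G⁻¹ * xᵀ * G) = xᵀ * G := by
    calc G * (G⁻¹ * xᵀ * G) = (G * G⁻¹) * xᵀ * G := by simp only [mul_assoc]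
      _ = _ := by rw [h.mul_inv, one_mul]
  rw [h1, ← Matrix.mulVec_mulVec, Matrix.dotProduct_mulVec u, Matrix.vecMul_transpose]

lemma bf_adj' (h : RF σ ε G) (x : Matrix ι ι F) (u v : ι → F) : bf σ G u (x *ᵥ v) = bf σ G (adj σ G x *ᵥ u) v := by
  rw [bf_adj h, adj_adj h]

lemma bf_add_left (u v w : ι → F) : bf σ G (u + v) w = bf σ G u w + bf σ G v w := add_dotProduct _ _ _
lemma bf_smul_left (c : F) (u w : ι → F) : bf σ G (c • u) w = c * bf σ G u w := smul_dotProduct _ _ _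
lemma bf_add_right (u v w : ι → F) : bf σ G u (v + w) = bf σ G u v + bf σ G u w :=
  (Cfsg.Agent.Lib.AschForms.isSesq_ofGram (σ : F →+* F) G).add_right u v w
lemma bf_smul_right (c : F) (u w : ι → F) : bf σ G u (c • w) = σ c * bf σ G u w :=
  (Cfsg.Agent.Lib.AschForms.isSesq_ofGram (σ : F →+* F) G).smul_right c u w
lemma bf_zero_left (w : ι → F) : bf σ G 0 w = 0 := by
  have := bf_smul_left (σ := σ) (G := G) (0 : F) 0 w
  simpa using this
lemma bf_zero_right (w : ι → F) : bf σ G w 0 = 0 := by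
  have := bf_smul_right (σ := σ) (G := G) (0 : F) w 0
  simpa using this

lemma bf_refl (h : RF σ ε G) (u v : ι → F) : σ (bf σ G u v) = ε * bf σ G v u := by
  unfold bf
  have h1 : σ (u ⬝ᵥ (G *ᵥ fun i => σ (v i))) = (fun i => σ (u i)) ⬝ᵥ (G.map σ *ᵥ v) := by
    simp only [dotProduct, map_sum, map_mul]
    refine Finset.sum_congr rfl fun i _ => ?_
    congr 1
    simp only [Matrix.mulVec, dotProduct, map_sum, map_mul, Matrix.map_apply, h.inv]
  rw [h1, Matrix.dotProduct_mulVec (fun i => σ (u i)), ← Matrix.mulVec_transpose, ← Matrix.transpose_map, h.refl, dotProduct_comm,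
    Matrix.smul_mulVec, dotProduct_smul, smul_eq_mul]

lemma bf_eq_zero_comm (h : RF σ ε G) {u v : ι → F} (h0 : bf σ G u v = 0) : bf σ G v u = 0 := by
  have h1 := bf_refl h u v
  rw [h0, map_zero] at h1
  have h2 : ε ≠ 0 := by
    rintro rfl
    have := h.eps2
    rw [mul_zero] at this
    exact zero_ne_one this
  exact (mul_eq_zero.1 h1.symm).resolve_left h2

lemma bf_nondeg (h : RF σ ε G) : IsNondegenerateForm (bf σ G) :=
  Cfsg.Agent.Lib.AschExtra.nondeg_ofGram (σ : F →+* F) σ.surjective h.unit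

lemma isIso_iff (h : RF σ ε G) (g : GL ι F) : IsIso σ G g ↔ ∀ u v, bf σ G ((g : Matrix ι ι F) *ᵥ u) ((g : Matrix ι ι F) *ᵥ v) = bf σ G u v := by
  constructor
  · intro hg u v
    rw [bf_adj h, show adj σ G (g : Matrix ι ι F) = _ from hg, gl_inv_mulVec]
  · intro hg
    have h1 : ∀ u v, bf σ G u ((adj σ G (g : Matrix ι ι F) - ((g⁻¹ : GL ι F) : Matrix ι ι F)) *ᵥ v) = 0 := by
      intro u v
      have h2 := hg u (((g⁻¹ : GL ι F) : Matrix ι ι F) *ᵥ v)
      rw [gl_mulVec_inv, bf_adj h] at h2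
      rw [Matrix.sub_mulVec, sub_eq_add_neg, bf_add_right, h2, ← bf_add_right, add_neg_cancel, bf_zero_right]
    unfold IsIso
    rw [← sub_eq_zero]
    apply mulVec_eq_zero_of_rng_bot
    intro v
    by_contra hne
    obtain ⟨⟨x, hx⟩, _⟩ := bf_nondeg h _ hne
    exact hx (h1 x v)

/-- adjoint of a scalar times an isometry -/
lemma adj_gl (h : RF σ ε G) {g : GL ι F} (hg : IsIso σ G g) : adj σ G (g : Matrix ι ι F) = ((g⁻¹ : GL ι F) : Matrix ι ι F) := hg

/-! ### Perpendicular subspaces -/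

/-- The subspace perpendicular to `W`. -/
noncomputable def perp (σ : F ≃+* F) (G : Matrix ι ι F) (W : Submodule F (ι → F)) : Submodule F (ι → F) where
  carrier := {v | ∀ w ∈ W, bf σ G v w = 0}
  add_mem' := fun {a b} ha hb w hw => by rw [bf_add_left, ha w hw, hb w hw, add_zero]
  zero_mem' := fun w _ => bf_zero_left w
  smul_mem' := fun c v hv w hw => by rw [bf_smul_left, hv w hw, mul_zero]

lemma mem_perp {W : Submodule F (ι → F)} {v : ι → F} : v ∈ perp σ G W ↔ ∀ w ∈ W, bf σ G v w = 0 := Iff.rfl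

lemma le_finrank_perp (W : Submodule F (ι → F)) :
    Fintype.card ι ≤ Module.finrank F W + Module.finrank F (perp σ G W) := by
  classical
  let b := Module.finBasis F W
  let L : (ι → F) →ₗ[F] (Fin (Module.finrank F W) → F) :=
    { toFun := fun v j => bf σ G v (b j)
      map_add' := fun u v => by funext j; exact bf_add_left u v _
      map_smul' := fun c v => by funext j; exact bf_smul_left c v _ }
  have hker : LinearMap.ker L ≤ perp σ G W := by
    intro v hv w hw
    have hv' : ∀ j, bf σ G v (b j) = 0 := fun j => congrFun hv j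
    have h1 := b.sum_repr ⟨w, hw⟩
    have h2 : w = ∑ j, b.repr ⟨w, hw⟩ j • (b j : ι → F) := by
      have := congrArg Subtype.val h1
      push_cast at this
      exact this.symm
    rw [h2]
    have h3 : ∀ s : Finset (Fin (Module.finrank F W)), bf σ G v (∑ j ∈ s, b.repr ⟨w, hw⟩ j • (b j : ι → F)) = 0 := by
      intro s
      induction s using Finset.induction_on with
      | empty => rw [Finset.sum_empty, bf_zero_right]
      | insert a s ha ih => rw [Finset.sum_insert ha, bf_add_right, ih, bf_smul_right, hv' a, mul_zero, add_zero]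
    exact h3 _
  have h4 := LinearMap.finrank_range_add_finrank_ker L
  have h5 := Submodule.finrank_mono hker
  have h6 : Module.finrank F (LinearMap.range L) ≤ Module.finrank F W := by
    have := Submodule.finrank_le (LinearMap.range L)
    simpa using this
  rw [Module.finrank_fintype_fun_eq_card] at h4
  omega

lemma perp_inv (h : RF σ ε G) {H : Subgroup (GL ι F)} (hH : ∀ g ∈ H, IsIso σ G g) {W : Submodule F (ι → F)}
    (hW : ∀ g ∈ H, ∀ w ∈ W, (g : Matrix ι ι F) *ᵥ w ∈ W) : ∀ g ∈ H, ∀ w ∈ perp σ G W, (g : Matrix ι ι F) *ᵥ w ∈ perp σ G W := by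
  intro g hg v hv w hw
  rw [bf_adj h, adj_gl h (hH g hg)]
  exact hv _ (hW g⁻¹ (H.inv_mem hg) w hw)

lemma le_subspaceStabilizer {H : Subgroup (GL ι F)} {W : Submodule F (ι → F)}
    (hW : ∀ g ∈ H, ∀ w ∈ W, (g : Matrix ι ι F) *ᵥ w ∈ W) : H ≤ subspaceStabilizer W := by
  intro g hg v
  show v ∈ W ↔ (g : Matrix ι ι F) *ᵥ v ∈ W
  constructor
  · exact hW g hg v
  · intro hv
    have := hW g⁻¹ (H.inv_mem hg) _ hv
    rwa [gl_inv_mulVec] at this

/-- Reducible groups of isometries: a totally singular invariant subspace or an orthogonal decomposition. -/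
theorem red_cases (h : RF σ ε G) {H : Subgroup (GL ι F)} (hH : ∀ g ∈ H, IsIso σ G g) (hred : ¬ ActsIrreducibly (matrixSet H)) :
    (∃ W : Submodule F (ι → F), W ≠ ⊥ ∧ W ≠ ⊤ ∧ (∀ u ∈ W, ∀ v ∈ W, bf σ G u v = 0) ∧ (∀ g ∈ H, ∀ w ∈ W, (g : Matrix ι ι F) *ᵥ w ∈ W)) ∨
    (∃ W W' : Submodule F (ι → F), W ≠ ⊥ ∧ W' ≠ ⊥ ∧ IsCompl W W' ∧ (∀ u ∈ W, ∀ v ∈ W', bf σ G u v = 0) ∧
      IsNondegenerateOn (bf σ G) W ∧ IsNondegenerateOn (bf σ G) W' ∧
      (∀ g ∈ H, ∀ w ∈ W, (g : Matrix ι ι F) *ᵥ w ∈ W) ∧ (∀ g ∈ H, ∀ w ∈ W', (g : Matrix ι ι F) *ᵥ w ∈ W')) := by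
  classical
  unfold ActsIrreducibly at hred
  push Not at hred
  obtain ⟨W, hW, hWb, hWt⟩ := hred
  have hW' : ∀ g ∈ H, ∀ w ∈ W, (g : Matrix ι ι F) *ᵥ w ∈ W := by
    intro g hg w hw
    have := hW _ ⟨g, hg, rfl⟩ ⟨w, hw, rfl⟩
    rwa [Matrix.toLin'_apply] at this
  have hP := perp_inv h hH hW'
  by_cases hint : W ⊓ perp σ G W = ⊥
  · right
    have hdisj : Disjoint W (perp σ G W) := disjoint_iff.2 hint
    have hdim := le_finrank_perp (σ := σ) (G := G) W
    have hcod : W ⊔ perp σ G W = ⊤ := by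
      apply Submodule.eq_top_of_finrank_eq
      have h1 := Submodule.finrank_sup_add_finrank_inf_eq W (perp σ G W)
      rw [hint, finrank_bot, add_zero] at h1
      have h2 := Submodule.finrank_le (W ⊔ perp σ G W)
      rw [Module.finrank_fintype_fun_eq_card] at h2 ⊢
      omega
    have horth : ∀ u ∈ W, ∀ v ∈ perp σ G W, bf σ G u v = 0 := fun u hu v hv => bf_eq_zero_comm h (hv u hu)
    have hcod' : ∀ x : ι → F, ∃ a ∈ W, ∃ b ∈ perp σ G W, a + b = x := by
      intro x
      have : x ∈ W ⊔ perp σ G W := by rw [hcod]; trivial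
      exact Submodule.mem_sup.1 this
    refine ⟨W, perp σ G W, hWb, ?_, ⟨hdisj, codisjoint_iff.2 hcod⟩, horth, ?_, ?_, hW', hP⟩
    · intro h0
      rw [h0, sup_bot_eq] at hcod
      exact hWt hcod
    · intro w hw hw0
      obtain ⟨⟨x, hx⟩, ⟨y, hy⟩⟩ := bf_nondeg h w hw0
      constructor
      · obtain ⟨a, ha, b, hb, rfl⟩ := hcod' x
        refine ⟨a, ha, ?_⟩
        rw [bf_add_left, hb w hw, add_zero] at hx
        exact hx
      · obtain ⟨a, ha, b, hb, rfl⟩ := hcod' y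
        refine ⟨a, ha, ?_⟩
        rw [bf_add_right, horth w hw b hb, add_zero] at hy
        exact hy
    · intro w hw hw0
      obtain ⟨⟨x, hx⟩, ⟨y, hy⟩⟩ := bf_nondeg h w hw0
      constructor
      · obtain ⟨a, ha, b, hb, rfl⟩ := hcod' x
        refine ⟨b, hb, ?_⟩
        rw [bf_add_left, horth a ha w hw, zero_add] at hx
        exact hx
      · obtain ⟨a, ha, b, hb, rfl⟩ := hcod' y
        refine ⟨b, hb, ?_⟩
        rw [bf_add_right, hw a ha, zero_add] at hy
        exact hy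
  · left
    refine ⟨W ⊓ perp σ G W, hint, ?_, ?_, ?_⟩
    · intro h0
      apply hWt
      rw [eq_top_iff, ← h0]; exact inf_le_left
    · rintro u ⟨hu, hu'⟩ v ⟨hv, hv'⟩
      exact hu' v hv
    · rintro g hg w ⟨hw, hw'⟩
      exact ⟨hW' g hg w hw, hP g hg w hw'⟩

end form

end Cfsg.Agent.Lib.AschAdj
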