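import Mathlib
import Cfsg.Prelude.Def_GeometricClasses
set_option autoImplicit false
set_option linter.style.haveILetI false
set_option linter.unusedVariables false
set_option linter.unusedSectionVars false

namespace Cfsg.Agent.Lib.AschForms

open Cfsg Cfsg.Geo
open scoped Matrix MatrixGroups

section abstract
variable {F : Type*} [Field F] {V : Type*} [AddCommGroup V] [Module F V]

/-- Burnside's theorem, abstract form. -/
theorem burnside [FiniteDimensional F V] (A : Subalgebra F (Module.End F V))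
    (hirr : ∀ W : Submodule F V, (∀ a ∈ A, W.map a ≤ W) → W = ⊥ ∨ W = ⊤)
    (hcent : ∀ f : Module.End F V, (∀ a ∈ A, f * a = a * f) → ∃ c : F, f = c • 1) : A = ⊤ := by
  classical
  rcases subsingleton_or_nontrivial V with hV | hV
  · rw [eq_top_iff]; intro x _
    rw [Subsingleton.elim x 0]; exact zero_mem _
  have hsm : ∀ (a : A) (v : V), a • v = (a : Module.End F V) v := fun a v => rfl
  haveI : IsSimpleModule A V := by
    rw [isSimpleModule_iff, isSimpleOrder_iff]
    refine ⟨inferInstance, fun W => ?_⟩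
    let W' : Submodule F V := W.restrictScalars F
    have hW' := hirr W' (fun s hs => by
      rintro _ ⟨w, hw, rfl⟩
      have : (⟨s, hs⟩ : A) • w ∈ W := W.smul_mem _ hw
      exact this)
    rcases hW' with h0 | h0
    · left; rw [eq_bot_iff]; intro v hv
      have h1 : v ∈ W' := hv
      rw [h0] at h1; exact h1
    · right; rw [eq_top_iff]; intro v _
      have h1 : v ∈ W' := by rw [h0]; trivial
      exact h1
  have hscal : ∀ f : Module.End A V, ∃ c : F, ∀ v, f v = c • v := by
    intro f
    let f' : Module.End F V := f.restrictScalars F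
    obtain ⟨c, hc⟩ := hcent f' (fun a ha => by
      ext v
      exact f.map_smul (⟨a, ha⟩ : A) v)
    exact ⟨c, fun v => congrArg (fun g : Module.End F V => g v) hc⟩
  rw [eq_top_iff]
  intro M _
  let fM : Module.End (Module.End A V) V :=
    { toFun := fun v => M v
      map_add' := fun v w => map_add _ _ _
      map_smul' := fun f v => by
        obtain ⟨c, hc⟩ := hscal f
        simp only [Module.End.smul_def, RingHom.id_apply, hc, map_smul] }
  let b := Module.finBasis F V
  obtain ⟨r, hr⟩ := jacobson_density (R := A) (M := V) fM (Finset.univ.image b)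
  have : M = (r : Module.End F V) := by
    apply b.ext
    intro i
    exact hr _ (Finset.mem_image_of_mem _ (Finset.mem_univ i))
  rw [this]
  exact r.2

end abstract

variable {ι : Type} [Fintype ι] [DecidableEq ι] {F : Type*} [Field F]

lemma mem_matrixSet {L : Subgroup (GL ι F)} {s : Matrix ι ι F} :
    s ∈ matrixSet L ↔ ∃ g ∈ L, (g : Matrix ι ι F) = s := Iff.rfl

lemma coe_mem_matrixSet {L : Subgroup (GL ι F)} {g : GL ι F} (hg : g ∈ L) : (g : Matrix ι ι F) ∈ matrixSet L :=
  ⟨g, hg, rfl⟩

lemma mul_mem_span {L : Subgroup (GL ι F)} {a b : Matrix ι ι F} (ha : a ∈ Submodule.span F (matrixSet L))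
    (hb : b ∈ Submodule.span F (matrixSet L)) : a * b ∈ Submodule.span F (matrixSet L) := by
  have h : Submodule.span F (matrixSet L) * Submodule.span F (matrixSet L) ≤ Submodule.span F (matrixSet L) := by
    rw [Submodule.span_mul_span]
    refine Submodule.span_mono ?_
    rintro _ ⟨_, ⟨g, hg, rfl⟩, _, ⟨h, hh, rfl⟩, rfl⟩
    exact ⟨g * h, mul_mem hg hh, by simp⟩
  exact h (Submodule.mul_mem_mul ha hb)

lemma one_mem_span (L : Subgroup (GL ι F)) : (1 : Matrix ι ι F) ∈ Submodule.span F (matrixSet L) :=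
  Submodule.subset_span ⟨1, one_mem _, by simp⟩

/-- The enveloping algebra of a linear group. -/
def env (L : Subgroup (GL ι F)) : Subalgebra F (Matrix ι ι F) where
  carrier := Submodule.span F (matrixSet L)
  mul_mem' := fun ha hb => mul_mem_span ha hb
  add_mem' := fun ha hb => add_mem ha hb
  algebraMap_mem' := fun r => by
    rw [Algebra.algebraMap_eq_smul_one]; exact Submodule.smul_mem _ r (one_mem_span L)

lemma mem_env {L : Subgroup (GL ι F)} {x : Matrix ι ι F} : x ∈ env L ↔ x ∈ Submodule.span F (matrixSet L) := Iff.rfl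

lemma subset_env {L : Subgroup (GL ι F)} {g : GL ι F} (hg : g ∈ L) : (g : Matrix ι ι F) ∈ env L :=
  Submodule.subset_span (coe_mem_matrixSet hg)

/-- Burnside's theorem for subalgebras of the matrix algebra. -/
theorem subalgebra_eq_top (A : Subalgebra F (Matrix ι ι F)) (h : ActsAbsolutelyIrreducibly (A : Set (Matrix ι ι F))) :
    A = ⊤ := by
  have h1 := burnside (A.map (Matrix.toLinAlgEquiv' : Matrix ι ι F ≃ₐ[F] _).toAlgHom) (fun W hW => by
      refine h.1 W (fun s hs => ?_)
      exact hW _ ⟨s, hs, rfl⟩) (fun f hf => by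
      obtain ⟨c, hc⟩ := h.2 (LinearMap.toMatrix' f) (fun s hs => by
        apply Matrix.toLin'.injective
        rw [Matrix.toLin'_mul, Matrix.toLin'_mul, Matrix.toLin'_toMatrix']
        exact hf _ ⟨s, hs, rfl⟩)
      refine ⟨c, ?_⟩
      apply LinearMap.toMatrix'.injective
      rw [hc]; simp)
  rw [eq_top_iff]
  intro M _
  have h2 : (Matrix.toLinAlgEquiv' : Matrix ι ι F ≃ₐ[F] _) M ∈ A.map (Matrix.toLinAlgEquiv' : Matrix ι ι F ≃ₐ[F] _).toAlgHom := by
    rw [h1]; trivial
  obtain ⟨x, hx, hxM⟩ := h2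
  have : x = M := (Matrix.toLinAlgEquiv' : Matrix ι ι F ≃ₐ[F] _).injective hxM
  rw [← this]; exact hx

lemma absIrr_env {L : Subgroup (GL ι F)} (h : ActsAbsolutelyIrreducibly (matrixSet L)) :
    ActsAbsolutelyIrreducibly (env L : Set (Matrix ι ι F)) :=
  ⟨fun W hW => h.1 W (fun s hs => hW s (Submodule.subset_span hs)),
    fun M hM => h.2 M (fun s hs => hM s (Submodule.subset_span hs))⟩

/-- Burnside's theorem: an absolutely irreducible group spans the matrix algebra. -/
theorem span_eq_top (L : Subgroup (GL ι F)) (h : ActsAbsolutelyIrreducibly (matrixSet L)) :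
    Submodule.span F (matrixSet L) = ⊤ := by
  have h1 := subalgebra_eq_top (env L) (absIrr_env h)
  rw [eq_top_iff]
  intro x _
  have : x ∈ env L := by rw [h1]; trivial
  exact this

/-! ### Sesquilinear forms given as functions -/

/-- `f` is linear in the first and `σ`-semilinear in the second argument. -/
structure IsSesq (σ : F →+* F) (f : (ι → F) → (ι → F) → F) : Prop where
  add_left : ∀ x y v, f (x + y) v = f x v + f y v
  smul_left : ∀ (c : F) (x v : ι → F), f (c • x) v = c * f x v
  add_right : ∀ v x y, f v (x + y) = f v x + f v y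
  smul_right : ∀ (c : F) (v x : ι → F), f v (c • x) = σ c * f v x

omit [Fintype ι] [DecidableEq ι] in
lemma isSesq_of_bilinear {f : (ι → F) → (ι → F) → F} (h : IsBilinearForm f) : IsSesq (RingHom.id F) f :=
  ⟨h.add_left, h.smul_left, h.add_right, h.smul_right⟩

omit [Fintype ι] [DecidableEq ι] in
lemma isSesq_of_unitary {σ : F ≃+* F} {f : (ι → F) → (ι → F) → F} (h : IsUnitaryForm σ f) :
    IsSesq (σ : F →+* F) f :=
  ⟨h.add_left, h.smul_left, fun v x y => by rw [h.herm, h.add_left, map_add, ← h.herm, ← h.herm],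
    fun c v x => by rw [h.herm, h.smul_left, map_mul, ← h.herm]; rfl⟩

lemma IsSesq.eq_gram {σ : F →+* F} {f : (ι → F) → (ι → F) → F} (h : IsSesq σ f) (u v : ι → F) :
    f u v = u ⬝ᵥ (gramMatrix f *ᵥ fun i => σ (v i)) := by
  have hsumL : ∀ (s : Finset ι) (g : ι → (ι → F)) (v : ι → F), f (∑ i ∈ s, g i) v = ∑ i ∈ s, f (g i) v := by
    intro s g v
    induction s using Finset.induction_on with
    | empty =>
      simp only [Finset.sum_empty]
      have := h.smul_left 0 0 v
      simpa using this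
    | insert a s ha ih => rw [Finset.sum_insert ha, Finset.sum_insert ha, h.add_left, ih]
  have hsumR : ∀ (s : Finset ι) (g : ι → (ι → F)) (v : ι → F), f v (∑ i ∈ s, g i) = ∑ i ∈ s, f v (g i) := by
    intro s g v
    induction s using Finset.induction_on with
    | empty =>
      simp only [Finset.sum_empty]
      have := h.smul_right 0 v 0
      simpa using this
    | insert a s ha ih => rw [Finset.sum_insert ha, Finset.sum_insert ha, h.add_right, ih]
  have hu : u = ∑ i, u i • (Pi.single i 1 : ι → F) := by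
    ext j; simp [Finset.sum_apply, Pi.single_apply]
  have hv : v = ∑ i, v i • (Pi.single i 1 : ι → F) := by
    ext j; simp [Finset.sum_apply, Pi.single_apply]
  conv_lhs => rw [hu, hv]
  rw [hsumL]
  simp only [dotProduct, Matrix.mulVec, h.smul_left]
  refine Finset.sum_congr rfl fun i _ => ?_
  rw [hsumR]
  congr 1
  refine Finset.sum_congr rfl fun j _ => ?_
  rw [h.smul_right, gramMatrix, mul_comm]

lemma IsSesq.ext_gram {σ : F →+* F} {f f' : (ι → F) → (ι → F) → F} (h : IsSesq σ f) (h' : IsSesq σ f')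
    (hg : gramMatrix f = gramMatrix f') : f = f' := by
  funext u v
  rw [h.eq_gram, h'.eq_gram, hg]

/-- the form with given Gram matrix -/
lemma isSesq_ofGram (σ : F →+* F) (B : Matrix ι ι F) : IsSesq σ (fun u v => u ⬝ᵥ (B *ᵥ fun i => σ (v i))) where
  add_left x y v := add_dotProduct _ _ _
  smul_left c x v := smul_dotProduct _ _ _
  add_right v x y := by
    have : (fun i => σ ((x + y) i)) = (fun i => σ (x i)) + fun i => σ (y i) := by
      funext i; simp
    rw [this, Matrix.mulVec_add, dotProduct_add]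
  smul_right c v x := by
    have : (fun i => σ ((c • x) i)) = σ c • fun i => σ (x i) := by
      funext i; simp
    rw [this, Matrix.mulVec_smul, dotProduct_smul, smul_eq_mul]

lemma map_mulVec (σ : F →+* F) (s : Matrix ι ι F) (v : ι → F) :
    (fun i => σ ((s *ᵥ v) i)) = (s.map σ) *ᵥ fun i => σ (v i) := by
  funext i
  simp [Matrix.mulVec, dotProduct, map_sum]

lemma dot_mulVec_transpose (s : Matrix ι ι F) (u w : ι → F) : (s *ᵥ u) ⬝ᵥ w = u ⬝ᵥ (sᵀ *ᵥ w) := by
  rw [Matrix.dotProduct_mulVec, Matrix.vecMul_transpose]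

/-- invariance of a form in terms of the Gram matrix -/
lemma IsSesq.comp_eq {σ : F →+* F} {f : (ι → F) → (ι → F) → F} (h : IsSesq σ f) (s : Matrix ι ι F) (u v : ι → F) :
    f (s *ᵥ u) (s *ᵥ v) = u ⬝ᵥ ((sᵀ * gramMatrix f * s.map σ) *ᵥ fun i => σ (v i)) := by
  rw [h.eq_gram, map_mulVec, dot_mulVec_transpose, Matrix.mulVec_mulVec, Matrix.mulVec_mulVec, Matrix.mul_assoc]

lemma gram_of_gram (σ : F →+* F) (B : Matrix ι ι F) :
    gramMatrix (fun u v => u ⬝ᵥ (B *ᵥ fun i => σ (v i))) = B := by
  ext a b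
  simp only [gramMatrix]
  have : (fun i => σ ((Pi.single b 1 : ι → F) i)) = Pi.single b 1 := by
    funext i
    rcases eq_or_ne i b with h | h
    · subst h; simp
    · simp [Pi.single_eq_of_ne h]
  rw [this, Matrix.mulVec_single_one, single_one_dotProduct]
  rfl

lemma IsSesq.fixes_iff {σ : F →+* F} {f : (ι → F) → (ι → F) → F} (h : IsSesq σ f) (s : Matrix ι ι F) :
    (∀ u v, f (s *ᵥ u) (s *ᵥ v) = f u v) ↔ sᵀ * gramMatrix f * s.map σ = gramMatrix f := by
  constructor
  · intro hs
    rw [← gram_of_gram σ (sᵀ * gramMatrix f * s.map σ)]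
    ext a b
    simp only [gramMatrix]
    rw [← h.comp_eq, hs]
  · intro hs u v
    rw [h.comp_eq, hs, ← h.eq_gram]

lemma IsSesq.isUnit_gram {σ : F →+* F} {f : (ι → F) → (ι → F) → F} (h : IsSesq σ f)
    (hnd : IsNondegenerateForm f) : IsUnit (gramMatrix f) := by
  rw [← Matrix.isUnit_transpose, ← Matrix.mulVec_injective_iff_isUnit]
  rw [← Matrix.coe_mulVecLin, ← LinearMap.ker_eq_bot, LinearMap.ker_eq_bot']
  intro v hv
  by_contra hv0
  obtain ⟨_, x, hx⟩ := hnd v hv0
  apply hx
  rw [h.eq_gram, Matrix.dotProduct_mulVec, ← Matrix.mulVec_transpose]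
  rw [Matrix.mulVecLin_apply] at hv
  rw [hv, zero_dotProduct]

/-- Uniqueness of invariant forms up to scalars. -/
theorem form_unique {σ : F →+* F} {L : Subgroup (GL ι F)} (hL : ∀ M : Matrix ι ι F, (∀ s ∈ matrixSet L, M * s = s * M) → ∃ c : F, M = c • 1)
    {f f' : (ι → F) → (ι → F) → F} (h : IsSesq σ f) (h' : IsSesq σ f') (hnd : IsNondegenerateForm f)
    (hfix : FixesForm (matrixSet L) f) (hfix' : FixesForm (matrixSet L) f') :
    ∃ c : F, ∀ u v, f' u v = c * f u v := by
  set B := gramMatrix f with hB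
  set B' := gramMatrix f' with hB'
  have hBu : IsUnit B := h.isUnit_gram hnd
  have hBi : B * B⁻¹ = 1 := Matrix.mul_nonsing_inv _ ((Matrix.isUnit_iff_isUnit_det _).1 hBu)
  have hBi' : B⁻¹ * B = 1 := Matrix.nonsing_inv_mul _ ((Matrix.isUnit_iff_isUnit_det _).1 hBu)
  obtain ⟨c, hc⟩ := hL (B' * B⁻¹)ᵀ (fun s hs => by
    have h1 := (h.fixes_iff s).1 (hfix s hs)
    have h2 := (h'.fixes_iff s).1 (hfix' s hs)
    obtain ⟨g, hg, rfl⟩ := hs
    -- inverse of s transposed
    set t : Matrix ι ι F := ((g⁻¹ : GL ι F) : Matrix ι ι F) with ht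
    have hgt : (g : Matrix ι ι F) * t = 1 := by rw [ht, ← Units.val_mul]; simp
    have htg : t * (g : Matrix ι ι F) = 1 := by rw [ht, ← Units.val_mul]; simp
    have h3 : (g : Matrix ι ι F)ᵀ * (B' * B⁻¹) = B' * B⁻¹ * (g : Matrix ι ι F)ᵀ := by
      -- σ(g) = B⁻¹ tᵀ B
      have h4 : (g : Matrix ι ι F).map σ = B⁻¹ * tᵀ * B := by
        calc (g : Matrix ι ι F).map σ = B⁻¹ * (tᵀ * (g : Matrix ι ι F)ᵀ) * B * (g : Matrix ι ι F).map σ := by
              rw [← Matrix.transpose_mul, hgt, Matrix.transpose_one, Matrix.mul_one, hBi', Matrix.one_mul]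
          _ = B⁻¹ * tᵀ * ((g : Matrix ι ι F)ᵀ * B * (g : Matrix ι ι F).map σ) := by simp only [Matrix.mul_assoc]
          _ = B⁻¹ * tᵀ * B := by rw [h1]
      have h5 : (g : Matrix ι ι F)ᵀ * (B' * B⁻¹) * tᵀ = B' * B⁻¹ := by
        calc (g : Matrix ι ι F)ᵀ * (B' * B⁻¹) * tᵀ = ((g : Matrix ι ι F)ᵀ * B' * (B⁻¹ * tᵀ * B)) * B⁻¹ := by
              simp only [Matrix.mul_assoc]; rw [hBi, Matrix.mul_one]
          _ = B' * B⁻¹ := by rw [← h4, h2]
      calc (g : Matrix ι ι F)ᵀ * (B' * B⁻¹) = (g : Matrix ι ι F)ᵀ * (B' * B⁻¹) * (tᵀ * (g : Matrix ι ι F)ᵀ) := by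
            rw [← Matrix.transpose_mul, hgt, Matrix.transpose_one, Matrix.mul_one]
        _ = B' * B⁻¹ * (g : Matrix ι ι F)ᵀ := by rw [← Matrix.mul_assoc, h5]
    have h6 := congrArg Matrix.transpose h3
    rw [Matrix.transpose_mul, Matrix.transpose_transpose, Matrix.transpose_mul (B' * B⁻¹), Matrix.transpose_transpose] at h6
    exact h6)
  have hc' : B' = c • B := by
    have h7 := congrArg Matrix.transpose hc
    rw [Matrix.transpose_transpose, Matrix.transpose_smul, Matrix.transpose_one] at h7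
    calc B' = B' * B⁻¹ * B := by rw [Matrix.mul_assoc, hBi', Matrix.mul_one]
      _ = c • B := by rw [h7, Matrix.smul_mul, Matrix.one_mul]
  refine ⟨c, fun u v => ?_⟩
  rw [h'.eq_gram, h.eq_gram, ← hB', ← hB, hc', Matrix.smul_mulVec, dotProduct_smul, smul_eq_mul]

lemma fixes_conj {L : Subgroup (GL ι F)} {f : (ι → F) → (ι → F) → F} (hfix : FixesForm (matrixSet L) f)
    {g : GL ι F} (hg : ∀ x ∈ L, g * x * g⁻¹ ∈ L) :
    FixesForm (matrixSet L) (fun u v => f ((g : Matrix ι ι F) *ᵥ u) ((g : Matrix ι ι F) *ᵥ v)) := by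
  rintro _ ⟨x, hx, rfl⟩ u v
  have h1 := hfix _ (coe_mem_matrixSet (hg x hx)) ((g : Matrix ι ι F) *ᵥ u) ((g : Matrix ι ι F) *ᵥ v)
  have h2 : ∀ w : ι → F, ((g * x * g⁻¹ : GL ι F) : Matrix ι ι F) *ᵥ ((g : Matrix ι ι F) *ᵥ w) =
      (g : Matrix ι ι F) *ᵥ ((x : Matrix ι ι F) *ᵥ w) := by
    intro w
    rw [Matrix.mulVec_mulVec, Matrix.mulVec_mulVec, ← Units.val_mul, ← Units.val_mul]
    congr 2; group
  rw [h2, h2] at h1
  exact h1

lemma IsSesq.comp {σ : F →+* F} {f : (ι → F) → (ι → F) → F} (h : IsSesq σ f) (g : Matrix ι ι F) :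
    IsSesq σ (fun u v => f (g *ᵥ u) (g *ᵥ v)) where
  add_left x y v := by rw [Matrix.mulVec_add, h.add_left]
  smul_left c x v := by rw [Matrix.mulVec_smul, h.smul_left]
  add_right v x y := by rw [Matrix.mulVec_add, h.add_right]
  smul_right c v x := by rw [Matrix.mulVec_smul, h.smul_right]

/-- The normaliser of a group with scalar centraliser fixing a non-degenerate form is in the similarity group. -/
theorem mem_similarity {σ : F →+* F} {L : Subgroup (GL ι F)} (hL : ∀ M : Matrix ι ι F, (∀ s ∈ matrixSet L, M * s = s * M) → ∃ c : F, M = c • 1)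
    {f : (ι → F) → (ι → F) → F} (h : IsSesq σ f) (hnd : IsNondegenerateForm f)
    (hfix : FixesForm (matrixSet L) f) {g : GL ι F} (hg : ∀ x ∈ L, g * x * g⁻¹ ∈ L) : g ∈ similarityGroup f := by
  obtain ⟨c, hc⟩ := form_unique hL h (h.comp g) hnd hfix (fixes_conj hfix hg)
  rcases eq_or_ne c 0 with h0 | h0
  · -- then f = 0, so the space is zero
    have hf0 : ∀ u v, f u v = 0 := by
      intro u v
      have := hc (((g⁻¹ : GL ι F) : Matrix ι ι F) *ᵥ u) (((g⁻¹ : GL ι F) : Matrix ι ι F) *ᵥ v)
      simp only [Matrix.mulVec_mulVec, ← Units.val_mul, mul_inv_cancel, Units.val_one, Matrix.one_mulVec] at this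
      rw [this, h0, zero_mul]
    exact ⟨1, fun u v => by rw [hf0, hf0, mul_zero]⟩
  · exact ⟨Units.mk0 c h0, hc⟩

theorem le_similarity_bilinear {L H : Subgroup (GL ι F)} (hL : ActsAbsolutelyIrreducibly (matrixSet L))
    {f : (ι → F) → (ι → F) → F} (h : IsBilinearForm f) (hnd : IsNondegenerateForm f)
    (hfix : FixesForm (matrixSet L) f) (hH : ∀ g ∈ H, ∀ x ∈ L, g * x * g⁻¹ ∈ L) : H ≤ similarityGroup f :=
  fun g hg => mem_similarity hL.2 (isSesq_of_bilinear h) hnd hfix (hH g hg)

theorem le_similarity_unitary {L H : Subgroup (GL ι F)} (hL : ActsAbsolutelyIrreducibly (matrixSet L))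
    {σ : F ≃+* F} {f : (ι → F) → (ι → F) → F} (h : IsUnitaryForm σ f)
    (hfix : FixesForm (matrixSet L) f) (hH : ∀ g ∈ H, ∀ x ∈ L, g * x * g⁻¹ ∈ L) : H ≤ similarityGroup f :=
  fun g hg => mem_similarity hL.2 (isSesq_of_unitary h) h.nondegenerate hfix (hH g hg)

/-- The same for quadratic forms, in any characteristic. -/
theorem le_quadSimilarity [Finite F] {L H : Subgroup (GL ι F)} (hL : ActsAbsolutelyIrreducibly (matrixSet L))
    {Q : (ι → F) → F} (hQ : IsNondegenerateQuadraticForm Q)
    (hfix : FixesQuadForm (matrixSet L) Q) (hH : ∀ g ∈ H, ∀ x ∈ L, g * x * g⁻¹ ∈ L) : H ≤ quadSimilarityGroup Q := by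
  intro g hg
  have hb := hQ.polar_bilinear
  have hpfix : FixesForm (matrixSet L) (QuadraticMap.polar Q) := by
    intro s hs u v
    simp only [QuadraticMap.polar, ← Matrix.mulVec_add, hfix s hs]
  obtain ⟨c, hc⟩ := form_unique hL.2 (isSesq_of_bilinear hb) ((isSesq_of_bilinear hb).comp g) hQ.nondegenerate hpfix
    (fixes_conj hpfix (hH g hg))
  -- the difference
  set D : (ι → F) → F := fun v => Q ((g : Matrix ι ι F) *ᵥ v) - c * Q v with hD
  have hDadd : ∀ u v, D (u + v) = D u + D v := by
    intro u v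
    have h1 := hc u v
    simp only [QuadraticMap.polar] at h1
    simp only [hD, Matrix.mulVec_add]
    linear_combination h1
  have hDsmul : ∀ (a : F) v, D (a • v) = a ^ 2 * D v := by
    intro a v
    simp only [hD, Matrix.mulVec_smul, hQ.smul]; ring
  have hDfix : ∀ s ∈ matrixSet L, ∀ v, D (s *ᵥ v) = D v := by
    intro s hs v
    simp only [hD]
    rw [hfix s hs]
    congr 1
    obtain ⟨x, hx, rfl⟩ := hs
    have h1 := hfix _ (coe_mem_matrixSet (hH g hg x hx)) ((g : Matrix ι ι F) *ᵥ v)
    rw [← h1, Matrix.mulVec_mulVec, Matrix.mulVec_mulVec, ← Units.val_mul, ← Units.val_mul]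
    congr 3; group
  have hD0 : ∀ v, D v = 0 := by
    by_cases h2 : (2 : F) = 0
    · -- characteristic two
      let W : Submodule F (ι → F) :=
        { carrier := {v | D v = 0}
          add_mem' := fun {a b} ha hb => by
            show D (a + b) = 0
            rw [hDadd, show D a = 0 from ha, show D b = 0 from hb, add_zero]
          zero_mem' := by
            show D 0 = 0
            have := hDsmul 0 0
            simpa using this
          smul_mem' := fun a v hv => by
            show D (a • v) = 0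
            rw [hDsmul, show D v = 0 from hv, mul_zero] }
      rcases hL.1 W (fun s hs => by
        rintro _ ⟨w, hw, rfl⟩
        show D _ = 0
        rw [Matrix.toLin'_apply, hDfix s hs]; exact hw) with h | h
      · intro v
        by_contra hv
        have hv0 : v ≠ 0 := by
          rintro rfl
          exact hv W.zero_mem
        obtain ⟨⟨x, hx⟩, _⟩ := hQ.nondegenerate v hv0
        have hchar : ringChar F = 2 := by
          haveI : CharP F 2 := CharTwo.of_one_ne_zero_of_two_eq_zero one_ne_zero h2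
          exact ringChar.eq F 2 ▸ rfl
        haveI := Fintype.ofFinite F
        obtain ⟨a, ha⟩ := FiniteField.isSquare_of_char_two hchar (D x / D v)
        have h3 : x - a • v ∈ W := by
          show D _ = 0
          rw [sub_eq_add_neg, ← neg_smul, hDadd, hDsmul, neg_sq, pow_two, ← ha, div_mul_cancel₀ _ hv]
          rw [← two_mul, h2, zero_mul]
        rw [h, Submodule.mem_bot, sub_eq_zero] at h3
        apply hx
        rw [h3, hb.smul_left]
        have h4 : QuadraticMap.polar Q v v = 0 := by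
          have h5 : v + v = (2 : F) • v := (two_smul F v).symm
          rw [QuadraticMap.polar, h5, hQ.smul, h2]
          linear_combination (-(Q v)) * h2
        rw [h4, mul_zero]
      · intro v
        have : v ∈ W := by rw [h]; trivial
        exact this
    · intro v
      have h3 := hDadd v v
      have h4 := hDsmul 2 v
      rw [two_smul] at h4
      have h5 : (2 : F) * D v = 0 := by linear_combination h3 - h4
      rcases mul_eq_zero.1 h5 with h | h
      · exact absurd h h2
      · exact h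
  rcases eq_or_ne c 0 with h0 | h0
  · have hQ0 : ∀ v, Q v = 0 := by
      intro v
      have h1 := hD0 (((g⁻¹ : GL ι F) : Matrix ι ι F) *ᵥ v)
      simp only [hD, h0, zero_mul, sub_zero, Matrix.mulVec_mulVec, ← Units.val_mul, mul_inv_cancel, Units.val_one,
        Matrix.one_mulVec] at h1
      exact h1
    exact ⟨1, fun v => by rw [hQ0, hQ0, mul_zero]⟩
  · exact ⟨Units.mk0 c h0, fun v => by
      have := hD0 v
      simp only [hD] at this
      rw [Units.val_mk0]; linear_combination this⟩

end Cfsg.Agent.Lib.AschForms
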