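import Mathlib

/-!
Aschbacher's theorem: pure group theory. Minimal normal subgroups modulo a central subgroup `Z`.
-/

set_option autoImplicit false

namespace Cfsg.Agent.Lib.AschGroup

open scoped commutatorElement

variable {Γ : Type*} [Group Γ]

/-- `H` normalises `N`. -/
def NormBy (H N : Subgroup Γ) : Prop := ∀ h ∈ H, ∀ x ∈ N, h * x * h⁻¹ ∈ N

theorem NormBy.mono {H H' N : Subgroup Γ} (h : NormBy H N) (hle : H' ≤ H) : NormBy H' N :=
  fun g hg x hx => h g (hle hg) x hx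

theorem NormBy.inv_mem {H N : Subgroup Γ} (h : NormBy H N) {g : Γ} (hg : g ∈ H) {x : Γ} (hx : g * x * g⁻¹ ∈ N) : x ∈ N := by
  have := h g⁻¹ (H.inv_mem hg) _ hx
  simpa [mul_assoc] using this

theorem NormBy.sup_left {H K N : Subgroup Γ} (h : NormBy H N) (h' : NormBy K N) : NormBy (H ⊔ K) N := by
  have hH : H ≤ Subgroup.normalizer (N : Set Γ) := by
    intro g hg
    rw [Subgroup.mem_normalizer_iff]
    intro x
    exact ⟨h g hg x, h.inv_mem hg⟩
  have hK : K ≤ Subgroup.normalizer (N : Set Γ) := by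
    intro g hg
    rw [Subgroup.mem_normalizer_iff]
    intro x
    exact ⟨h' g hg x, h'.inv_mem hg⟩
  intro g hg x hx
  have := (sup_le hH hK) hg
  rw [Subgroup.mem_normalizer_iff] at this
  exact (this x).1 hx

theorem normBy_self (N : Subgroup Γ) : NormBy N N := fun _ hg _ hx => N.mul_mem (N.mul_mem hg hx) (N.inv_mem hg)

theorem normBy_of_central {H Z : Subgroup Γ} (hZ : Z ≤ Subgroup.center Γ) : NormBy H Z := by
  intro g _ x hx
  have := Subgroup.mem_center_iff.1 (hZ hx) g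
  rw [this, mul_inv_cancel_right]; exact hx

theorem normBy_central_left {Z N : Subgroup Γ} (hZ : Z ≤ Subgroup.center Γ) : NormBy Z N := by
  intro g hg x hx
  have := Subgroup.mem_center_iff.1 (hZ hg) x
  rw [← this, mul_inv_cancel_right]; exact hx

theorem NormBy.sup {H N K : Subgroup Γ} (h : NormBy H N) (h' : NormBy H K) : NormBy H (N ⊔ K) := by
  intro g hg x hx
  have h1 : (N ⊔ K).map (MulAut.conj g).toMonoidHom ≤ N ⊔ K := by
    rw [Subgroup.map_sup]
    apply sup_le_sup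
    · rintro _ ⟨y, hy, rfl⟩; exact h g hg y hy
    · rintro _ ⟨y, hy, rfl⟩; exact h' g hg y hy
  exact h1 ⟨x, hx, rfl⟩

theorem NormBy.inf {H N K : Subgroup Γ} (h : NormBy H N) (h' : NormBy H K) : NormBy H (N ⊓ K) :=
  fun g hg x hx => ⟨h g hg x hx.1, h' g hg x hx.2⟩

theorem NormBy.iSup {H : Subgroup Γ} {κ : Sort*} {N : κ → Subgroup Γ} (h : ∀ k, NormBy H (N k)) :
    NormBy H (⨆ k, N k) := by
  intro g hg x hx
  have h1 : (⨆ k, N k).map (MulAut.conj g).toMonoidHom ≤ ⨆ k, N k := by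
    rw [Subgroup.map_iSup]
    apply iSup_mono
    intro k
    rintro _ ⟨y, hy, rfl⟩; exact h k g hg y hy
  exact h1 ⟨x, hx, rfl⟩

theorem NormBy.commutator {H N K : Subgroup Γ} (h : NormBy H N) (h' : NormBy H K) : NormBy H ⁅N, K⁆ := by
  intro g hg x hx
  have h1 : (⁅N, K⁆).map (MulAut.conj g).toMonoidHom ≤ ⁅N, K⁆ := by
    rw [Subgroup.map_commutator]
    apply Subgroup.commutator_mono
    · rintro _ ⟨y, hy, rfl⟩; exact h g hg y hy
    · rintro _ ⟨y, hy, rfl⟩; exact h' g hg y hy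
  exact h1 ⟨x, hx, rfl⟩

/-- Elements commuting with `K` modulo a central subgroup `Z`. -/
def modCent (Z K : Subgroup Γ) (hZ : Z ≤ Subgroup.center Γ) : Subgroup Γ where
  carrier := {x | ∀ k ∈ K, x * k * x⁻¹ * k⁻¹ ∈ Z}
  one_mem' := by intro k _; simp [Z.one_mem]
  mul_mem' := by
    intro a b ha hb k hk
    have h1 := ha k hk
    have h2 := hb k hk
    have h3 : a * b * k * (a * b)⁻¹ * k⁻¹ = (a * (b * k * b⁻¹ * k⁻¹) * a⁻¹) * (a * k * a⁻¹ * k⁻¹) := by group
    rw [h3]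
    refine Z.mul_mem ?_ h1
    have h4 := Subgroup.mem_center_iff.1 (hZ h2) a
    rw [h4, mul_inv_cancel_right]; exact h2
  inv_mem' := by
    intro a ha k hk
    have h1 := ha k hk
    have h4 := Subgroup.mem_center_iff.1 (hZ h1) a
    have h3 : a⁻¹ * k * a⁻¹⁻¹ * k⁻¹ = (a⁻¹ * (a * k * a⁻¹ * k⁻¹)⁻¹ * a) := by group
    rw [h3]
    have h5 := Subgroup.mem_center_iff.1 (hZ (Z.inv_mem h1)) a⁻¹
    rw [h5, inv_mul_cancel_right]
    exact Z.inv_mem h1

theorem mem_modCent {Z K : Subgroup Γ} {hZ : Z ≤ Subgroup.center Γ} {x : Γ} :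
    x ∈ modCent Z K hZ ↔ ∀ k ∈ K, x * k * x⁻¹ * k⁻¹ ∈ Z := Iff.rfl

theorem le_modCent_symm {Z K L : Subgroup Γ} (hZ : Z ≤ Subgroup.center Γ) (h : K ≤ modCent Z L hZ) :
    L ≤ modCent Z K hZ := by
  intro l hl k hk
  have h1 := h hk l hl
  have h3 : l * k * l⁻¹ * k⁻¹ = (k * l * k⁻¹ * l⁻¹)⁻¹ := by group
  rw [h3]; exact Z.inv_mem h1

theorem commutator_le_iff {Z K L : Subgroup Γ} (hZ : Z ≤ Subgroup.center Γ) :
    ⁅K, L⁆ ≤ Z ↔ K ≤ modCent Z L hZ := by
  rw [Subgroup.commutator_le]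
  constructor
  · intro h k hk l hl; exact h k hk l hl
  · intro h k hk l hl; exact h hk l hl

/-- A perfect group commuting with `m` modulo the centre commutes with `m`. -/
theorem commute_of_perfect {Z P : Subgroup Γ} (hZ : Z ≤ Subgroup.center Γ) (hP : ⁅P, P⁆ = P) {m : Γ}
    (hm : ∀ x ∈ P, m * x * m⁻¹ * x⁻¹ ∈ Z) : ∀ x ∈ P, m * x = x * m := by
  -- the set of x ∈ P commuting with m contains all commutators
  let φ : P →* Z :=
    { toFun := fun x => ⟨m * x * m⁻¹ * (x : Γ)⁻¹, hm x x.2⟩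
      map_one' := by apply Subtype.ext; simp
      map_mul' := by
        intro x y
        apply Subtype.ext
        show m * (x * y) * m⁻¹ * ((x : Γ) * y)⁻¹ = (m * x * m⁻¹ * (x : Γ)⁻¹) * (m * y * m⁻¹ * (y : Γ)⁻¹)
        have h1 := Subgroup.mem_center_iff.1 (hZ (hm y y.2)) (x : Γ)
        calc m * (x * y) * m⁻¹ * ((x : Γ) * y)⁻¹ = (m * x * m⁻¹) * (m * y * m⁻¹ * (y : Γ)⁻¹) * (x : Γ)⁻¹ := by group
          _ = (m * x * m⁻¹) * ((x : Γ)⁻¹ * (x : Γ) * (m * y * m⁻¹ * (y : Γ)⁻¹)) * (x : Γ)⁻¹ := by group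
          _ = (m * x * m⁻¹ * (x : Γ)⁻¹) * ((x : Γ) * (m * y * m⁻¹ * (y : Γ)⁻¹)) * (x : Γ)⁻¹ := by group
          _ = (m * x * m⁻¹ * (x : Γ)⁻¹) * ((m * y * m⁻¹ * (y : Γ)⁻¹) * (x : Γ)) * (x : Γ)⁻¹ := by rw [h1]
          _ = _ := by group }
  have hker : commutator P ≤ φ.ker := by
    rw [commutator_def, Subgroup.commutator_le]
    intro a _ b _
    rw [MonoidHom.mem_ker, map_commutatorElement]
    have h2 : ∀ u v : Z, u * v = v * u := fun u v => Subtype.ext (Subgroup.mem_center_iff.1 (hZ v.2) u)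
    rw [commutatorElement_def, h2 (φ a) (φ b)]; group
  intro x hx
  have hx' : (⟨x, hx⟩ : P) ∈ commutator P := by
    have h3 : (commutator P).map P.subtype = P := by
      rw [commutator_def, Subgroup.map_commutator, ← MonoidHom.range_eq_map, Subgroup.range_subtype, hP]
    have h4 : x ∈ (commutator P).map P.subtype := by rw [h3]; exact hx
    obtain ⟨y, hy, hyx⟩ := h4
    have : y = ⟨x, hx⟩ := Subtype.ext hyx
    rwa [← this]
  have h5 := hker hx'
  rw [MonoidHom.mem_ker] at h5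
  have h6 : m * x * m⁻¹ * x⁻¹ = 1 := congrArg Subtype.val h5
  have h7 : m * x * m⁻¹ = x := by
    have := mul_eq_one_iff_eq_inv.1 h6
    simpa using this
  calc m * x = (m * x * m⁻¹) * m := by group
    _ = x * m := by rw [h7]

theorem commutator_sup_central {Z K : Subgroup Γ} (hZ : Z ≤ Subgroup.center Γ) : ⁅K ⊔ Z, K ⊔ Z⁆ = ⁅K, K⁆ := by
  apply le_antisymm
  · have hn : Z.Normal := ⟨fun x hx g => by
      have := Subgroup.mem_center_iff.1 (hZ hx) g
      rw [this, mul_inv_cancel_right]; exact hx⟩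
    rw [Subgroup.commutator_le]
    intro a ha b hb
    rw [← SetLike.mem_coe, Subgroup.mul_normal] at ha hb
    obtain ⟨k, hk, z, hz, rfl⟩ := ha
    obtain ⟨k', hk', z', hz', rfl⟩ := hb
    have h1 : ∀ g, g * z = z * g := Subgroup.mem_center_iff.1 (hZ hz)
    have h2 : ∀ g, g * z' = z' * g := Subgroup.mem_center_iff.1 (hZ hz')
    have h3 : ⁅k * z, k' * z'⁆ = ⁅k, k'⁆ := by
      rw [commutatorElement_def, commutatorElement_def]
      calc k * z * (k' * z') * (k * z)⁻¹ * (k' * z')⁻¹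
          = k * (z * k') * z' * z⁻¹ * k⁻¹ * z'⁻¹ * k'⁻¹ := by group
        _ = k * (k' * z) * z' * z⁻¹ * k⁻¹ * z'⁻¹ * k'⁻¹ := by rw [← h1 k']
        _ = k * k' * (z * z') * z⁻¹ * k⁻¹ * z'⁻¹ * k'⁻¹ := by group
        _ = k * k' * (z' * z) * z⁻¹ * k⁻¹ * z'⁻¹ * k'⁻¹ := by rw [h2 z]
        _ = k * k' * (z' * k⁻¹) * z'⁻¹ * k'⁻¹ := by group
        _ = k * k' * (k⁻¹ * z') * z'⁻¹ * k'⁻¹ := by rw [← h2 k⁻¹]
        _ = _ := by group
    rw [h3]
    exact Subgroup.commutator_mem_commutator hk hk'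
  · exact Subgroup.commutator_mono le_sup_left le_sup_left

/-- `N` is minimal among the subgroups strictly containing `Z` that are normalised by `H`. -/
structure IsMinOver (Z H N : Subgroup Γ) : Prop where
  le : Z ≤ N
  ne : N ≠ Z
  norm : NormBy H N
  min : ∀ M : Subgroup Γ, Z ≤ M → M ≤ N → NormBy H M → M = Z ∨ M = N

theorem exists_isMinOver [Finite Γ] {Z H K : Subgroup Γ} (hZK : Z ≤ K) (hne : K ≠ Z) (hK : NormBy H K) :
    ∃ N ≤ K, IsMinOver Z H N := by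
  classical
  let S : Set (Subgroup Γ) := {N | Z ≤ N ∧ N ≠ Z ∧ NormBy H N ∧ N ≤ K}
  have hS : S.Nonempty := ⟨K, hZK, hne, hK, le_rfl⟩
  obtain ⟨N, hN⟩ := (Set.toFinite S).exists_minimal hS
  refine ⟨N, hN.prop.2.2.2, hN.prop.1, hN.prop.2.1, hN.prop.2.2.1, fun M hZM hMN hM => ?_⟩
  by_cases h : M = Z
  · left; exact h
  · right
    exact le_antisymm hMN (hN.le_of_le ⟨hZM, h, hM, hMN.trans hN.prop.2.2.2⟩ hMN)

/-- The nonabelian case: the derived subgroup is perfect and covers. -/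
theorem perfect_of_min {Z H N : Subgroup Γ} (hZ : Z ≤ Subgroup.center Γ) (hN : IsMinOver Z H N)
    (hnab : ¬ ⁅N, N⁆ ≤ Z) : NormBy H ⁅N, N⁆ ∧ ⁅N, N⁆ ⊔ Z = N ∧ ⁅(⁅N, N⁆), ⁅N, N⁆⁆ = ⁅N, N⁆ := by
  have h1 : NormBy H ⁅N, N⁆ := hN.norm.commutator hN.norm
  have h2 : ⁅N, N⁆ ⊔ Z = N := by
    rcases hN.min (⁅N, N⁆ ⊔ Z) le_sup_right (sup_le (Subgroup.commutator_le_self N) hN.le)
      (h1.sup (normBy_of_central hZ)) with h | h
    · exfalso; apply hnab; rw [← h]; exact le_sup_left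
    · exact h
  refine ⟨h1, h2, ?_⟩
  conv_rhs => rw [← h2]
  rw [commutator_sup_central hZ]

/-- Conjugate of a subgroup. -/
def cjG (g : Γ) (M : Subgroup Γ) : Subgroup Γ := M.map (MulAut.conj g).toMonoidHom

theorem mem_cjG {g x : Γ} {M : Subgroup Γ} : x ∈ cjG g M ↔ g⁻¹ * x * g ∈ M := by
  constructor
  · rintro ⟨y, hy, rfl⟩
    show g⁻¹ * (g * y * g⁻¹) * g ∈ M
    simpa [mul_assoc] using hy
  · intro h
    refine ⟨_, h, ?_⟩
    show g * (g⁻¹ * x * g) * g⁻¹ = x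
    group

theorem cjG_mul (g h : Γ) (M : Subgroup Γ) : cjG (g * h) M = cjG g (cjG h M) := by
  ext x
  rw [mem_cjG, mem_cjG, mem_cjG]
  have : (g * h)⁻¹ * x * (g * h) = h⁻¹ * (g⁻¹ * x * g) * h := by group
  rw [this]

theorem cjG_one (M : Subgroup Γ) : cjG 1 M = M := by ext x; simp [mem_cjG]

theorem cjG_mono {g : Γ} {M N : Subgroup Γ} (h : M ≤ N) : cjG g M ≤ cjG g N := Subgroup.map_mono h

theorem cjG_injective (g : Γ) : Function.Injective (cjG g) := by
  intro M N h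
  have := congrArg (cjG g⁻¹) h
  rwa [← cjG_mul, ← cjG_mul, inv_mul_cancel, cjG_one, cjG_one] at this

theorem cjG_central {g : Γ} {Z : Subgroup Γ} (hZ : Z ≤ Subgroup.center Γ) : cjG g Z = Z := by
  ext x
  rw [mem_cjG]
  constructor
  · intro h
    have h1 := Subgroup.mem_center_iff.1 (hZ h) g
    have h2 : x = g⁻¹ * x * g := by
      calc x = (g * (g⁻¹ * x * g)) * g⁻¹ := by group
        _ = _ := by rw [h1]; group
    rw [h2]; exact h
  · intro h
    have h1 := Subgroup.mem_center_iff.1 (hZ h) g⁻¹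
    rw [h1, inv_mul_cancel_right]; exact h

theorem cjG_eq_of_normBy {H N : Subgroup Γ} (h : NormBy H N) {g : Γ} (hg : g ∈ H) : cjG g N = N := by
  ext x
  rw [mem_cjG]
  constructor
  · intro hx
    have := h g hg _ hx
    simpa [mul_assoc] using this
  · intro hx
    have := h g⁻¹ (H.inv_mem hg) _ hx
    simpa [mul_assoc] using this

theorem IsMinOver.cj {Z N M : Subgroup Γ} (hZ : Z ≤ Subgroup.center Γ) {g : Γ} (hgN : cjG g N = N)
    (hM : IsMinOver Z N M) : IsMinOver Z N (cjG g M) where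
  le := by rw [← cjG_central (g := g) hZ]; exact cjG_mono hM.le
  ne := by
    intro h
    apply hM.ne
    apply cjG_injective g
    rw [h, cjG_central hZ]
  norm := by
    intro n hn x hx
    rw [mem_cjG] at hx ⊢
    have hn' : g⁻¹ * n * g ∈ N := by rw [← hgN, mem_cjG] at hn; exact hn
    have := hM.norm _ hn' _ hx
    have h2 : g⁻¹ * (n * x * n⁻¹) * g = g⁻¹ * n * g * (g⁻¹ * x * g) * (g⁻¹ * n * g)⁻¹ := by group
    rw [h2]; exact this
  min := by
    intro K hZK hKM hK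
    have hgN' : cjG g⁻¹ N = N := by
      conv_lhs => rw [← hgN]
      rw [← cjG_mul, inv_mul_cancel, cjG_one]
    rcases hM.min (cjG g⁻¹ K) (by rw [← cjG_central (g := g⁻¹) hZ]; exact cjG_mono hZK)
      (by
        have := cjG_mono (g := g⁻¹) hKM
        rwa [← cjG_mul, inv_mul_cancel, cjG_one] at this)
      (by
        intro n hn x hx
        rw [mem_cjG] at hx ⊢
        rw [inv_inv] at hx ⊢
        have hn' : g * n * g⁻¹ ∈ N := by
          have h3 : n ∈ cjG g⁻¹ N := by rw [hgN']; exact hn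
          rw [mem_cjG, inv_inv] at h3; exact h3
        have := hK _ hn' _ hx
        have h2 : g * (n * x * n⁻¹) * g⁻¹ = g * n * g⁻¹ * (g * x * g⁻¹) * (g * n * g⁻¹)⁻¹ := by group
        rw [h2]; exact this) with h | h
    · left
      have := congrArg (cjG g) h
      rwa [← cjG_mul, mul_inv_cancel, cjG_one, cjG_central hZ] at this
    · right
      have := congrArg (cjG g) h
      rwa [← cjG_mul, mul_inv_cancel, cjG_one] at this

/-- Two distinct minimal subgroups commute modulo `Z`. -/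
theorem IsMinOver.commutator_le {Z N M M' : Subgroup Γ} (hM : IsMinOver Z N M) (hM' : IsMinOver Z N M')
    (hMN : M ≤ N) (hMN' : M' ≤ N) (hne : M ≠ M') : ⁅M, M'⁆ ≤ Z := by
  have h1 : ⁅M, M'⁆ ≤ M ⊓ M' := by
    rw [Subgroup.commutator_le]
    intro a ha b hb
    refine ⟨?_, ?_⟩
    · have h2 := hM.norm b (hMN' hb) _ (M.inv_mem ha)
      have h3 : ⁅a, b⁆ = a * (b * a⁻¹ * b⁻¹) := by rw [commutatorElement_def]; group
      rw [h3]; exact M.mul_mem ha h2
    · have h2 := hM'.norm a (hMN ha) _ hb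
      have h3 : ⁅a, b⁆ = (a * b * a⁻¹) * b⁻¹ := by rw [commutatorElement_def]
      rw [h3]; exact M'.mul_mem h2 (M'.inv_mem hb)
  rcases hM.min (M ⊓ M') (le_inf hM.le hM'.le) inf_le_left (hM.norm.inf hM'.norm) with h | h
  · exact h1.trans h.le
  · exfalso
    rcases hM'.min (M ⊓ M') (le_inf hM.le hM'.le) inf_le_right (hM.norm.inf hM'.norm) with h' | h'
    · rw [h] at h'; exact hM.ne h'
    · exact hne (h.symm.trans h')

/-- The structure of a minimal non-central-by-abelian normal subgroup: it is generated by the `H`-conjugates of a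
subgroup `M`, distinct conjugates commuting modulo `Z`, each `M` being a perfect group times `Z`. -/
theorem exists_component [Finite Γ] {Z H N : Subgroup Γ} (hZ : Z ≤ Subgroup.center Γ) (hN : IsMinOver Z H N)
    (hnab : ¬ ⁅N, N⁆ ≤ Z) :
    ∃ M ≤ N, IsMinOver Z N M ∧ (⨆ g : H, cjG (g : Γ) M) = N ∧ ¬ ⁅M, M⁆ ≤ Z ∧
      (∀ g ∈ H, ∀ h ∈ H, cjG g M ≠ cjG h M → ⁅cjG g M, cjG h M⁆ ≤ Z) := by
  obtain ⟨M, hMN, hM⟩ := exists_isMinOver (H := N) hN.le hN.ne (normBy_self N)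
  have hgN : ∀ g ∈ H, cjG g N = N := fun g hg => cjG_eq_of_normBy hN.norm hg
  have hle : ∀ g ∈ H, cjG g M ≤ N := fun g hg => by rw [← hgN g hg]; exact cjG_mono hMN
  have hcomm : ∀ g ∈ H, ∀ h ∈ H, cjG g M ≠ cjG h M → ⁅cjG g M, cjG h M⁆ ≤ Z := fun g hg h hh hne =>
    (hM.cj hZ (hgN g hg)).commutator_le (hM.cj hZ (hgN h hh)) (hle g hg) (hle h hh) hne
  have hsup : (⨆ g : H, cjG (g : Γ) M) = N := by
    have hnorm : NormBy H (⨆ g : H, cjG (g : Γ) M) := by
      intro h hh x hx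
      have h1 : cjG h (⨆ g : H, cjG (g : Γ) M) ≤ ⨆ g : H, cjG (g : Γ) M := by
        rw [cjG, Subgroup.map_iSup]
        refine iSup_le fun g => ?_
        have : (cjG (g : Γ) M).map (MulAut.conj h).toMonoidHom = cjG ((⟨h, hh⟩ * g : H) : Γ) M := by
          show cjG h (cjG (g : Γ) M) = _
          rw [← cjG_mul]; rfl
        rw [this]
        exact le_iSup (fun g : H => cjG (g : Γ) M) _
      exact h1 ⟨x, hx, rfl⟩
    have hMle : M ≤ ⨆ g : H, cjG (g : Γ) M := by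
      have := le_iSup (fun g : H => cjG (g : Γ) M) 1
      rwa [Subgroup.coe_one, cjG_one] at this
    rcases hN.min (⨆ g : H, cjG (g : Γ) M) (hM.le.trans hMle) (iSup_le fun g => hle g g.2) hnorm with h | h
    · exfalso
      apply hM.ne
      exact le_antisymm (hMle.trans h.le) hM.le
    · exact h
  refine ⟨M, hMN, hM, hsup, fun hab => hnab ?_, hcomm⟩
  -- if M is abelian mod Z, so is N
  have hab' : ∀ g ∈ H, ∀ h ∈ H, ⁅cjG g M, cjG h M⁆ ≤ Z := by
    intro g hg h hh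
    by_cases hne : cjG g M = cjG h M
    · rw [← hne]
      have : ⁅cjG g M, cjG g M⁆ = cjG g ⁅M, M⁆ := by rw [cjG, cjG, Subgroup.map_commutator]
      rw [this, ← cjG_central (g := g) hZ]
      exact cjG_mono hab
    · exact hcomm g hg h hh hne
  rw [commutator_le_iff hZ]
  have h1 : ∀ g : H, cjG (g : Γ) M ≤ modCent Z N hZ := by
    intro g
    apply le_modCent_symm
    rw [← hsup]
    refine iSup_le fun h => ?_
    exact (commutator_le_iff hZ).1 (hab' h h.2 g g.2)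
  have h2 : (⨆ g : H, cjG (g : Γ) M) ≤ modCent Z N hZ := iSup_le h1
  rwa [hsup] at h2

/-- `M = P Z` with `P` perfect, for `M` minimal over `Z` and non-abelian modulo `Z`. -/
theorem IsMinOver.perfect {Z N M : Subgroup Γ} (hZ : Z ≤ Subgroup.center Γ) (hM : IsMinOver Z N M)
    (hnab : ¬ ⁅M, M⁆ ≤ Z) : NormBy N ⁅M, M⁆ ∧ ⁅M, M⁆ ⊔ Z = M ∧ ⁅(⁅M, M⁆), ⁅M, M⁆⁆ = ⁅M, M⁆ :=
  perfect_of_min hZ hM hnab

/-- The quotient of the perfect part by the centre is simple when `N` itself is minimal for its own action. -/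
theorem isSimpleGroup_of_min {Z N P : Subgroup Γ} [Z.Normal] (hZ : Z ≤ Subgroup.center Γ) (hN : IsMinOver Z N N)
    (hPN : P ⊔ Z = N) : IsSimpleGroup (P ⧸ Z.subgroupOf P) := by
  have hPle : P ≤ N := by rw [← hPN]; exact le_sup_left
  have hPZ : ¬ P ≤ Z := by
    intro h
    apply hN.ne
    rw [← hPN, sup_eq_right.2 h]
  obtain ⟨x, hx, hxZ⟩ := Set.not_subset.1 hPZ
  have hnt : Nontrivial (P ⧸ Z.subgroupOf P) := by
    refine ⟨⟨QuotientGroup.mk ⟨x, hx⟩, 1, fun h => hxZ ?_⟩⟩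
    have := (QuotientGroup.eq_one_iff (N := Z.subgroupOf P) (⟨x, hx⟩ : P)).1 h
    exact (Subgroup.mem_subgroupOf).1 this
  refine { exists_pair_ne := hnt.exists_pair_ne, eq_bot_or_eq_top_of_normal := fun K' hK' => ?_ }
  let K₀ : Subgroup Γ := (K'.comap (QuotientGroup.mk' (Z.subgroupOf P))).map P.subtype
  have hmem : ∀ y : P, (y : Γ) ∈ K₀ ↔ (QuotientGroup.mk y : P ⧸ Z.subgroupOf P) ∈ K' := by
    intro y
    constructor
    · rintro ⟨w, hw, hwy⟩
      have : w = y := Subtype.ext hwy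
      rw [← this]; exact hw
    · intro hy; exact ⟨y, hy, rfl⟩
  have hK₀P : K₀ ≤ P := by
    rintro _ ⟨w, _, rfl⟩; exact w.2
  have hnormP : NormBy P K₀ := by
    intro g hg y hy
    have hyP := hK₀P hy
    have h1 := (hmem ⟨y, hyP⟩).1 hy
    have h2 := (hmem (⟨g, hg⟩ * ⟨y, hyP⟩ * ⟨g, hg⟩⁻¹)).2 (by
      show QuotientGroup.mk (⟨g, hg⟩ : P) * QuotientGroup.mk (⟨y, hyP⟩ : P) * (QuotientGroup.mk (⟨g, hg⟩ : P))⁻¹ ∈ K'
      exact hK'.conj_mem _ h1 _)
    exact h2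
  have hnormN : NormBy N K₀ := by
    rw [← hPN]
    exact hnormP.sup_left (normBy_central_left hZ)
  rcases hN.min (K₀ ⊔ Z) le_sup_right (sup_le (hK₀P.trans hPle) hN.le)
    (hnormN.sup (normBy_of_central hZ)) with h | h
  · left
    rw [Subgroup.eq_bot_iff_forall]
    intro q hq
    obtain ⟨y, rfl⟩ := QuotientGroup.mk_surjective q
    have h1 := (hmem y).2 hq
    have h2 : (y : Γ) ∈ Z := by rw [← h]; exact Subgroup.mem_sup_left h1
    rw [QuotientGroup.eq_one_iff]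
    exact Subgroup.mem_subgroupOf.2 h2
  · right
    rw [Subgroup.eq_top_iff']
    intro q
    obtain ⟨y, rfl⟩ := QuotientGroup.mk_surjective q
    have h1 : (y : Γ) ∈ K₀ ⊔ Z := by rw [h]; exact hPle y.2
    rw [← SetLike.mem_coe, Subgroup.mul_normal] at h1
    obtain ⟨k, hk, z, hz, hkz⟩ := h1
    have hkP : k ∈ P := hK₀P hk
    have hzP : z ∈ P := by
      have h2 : z = k⁻¹ * y := by rw [← hkz]; simp
      rw [h2]; exact P.mul_mem (P.inv_mem hkP) y.2
    have h3 : (QuotientGroup.mk (⟨z, hzP⟩ : P) : P ⧸ Z.subgroupOf P) = 1 := by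
      rw [QuotientGroup.eq_one_iff]
      exact Subgroup.mem_subgroupOf.2 hz
    have h4 : y = ⟨k, hkP⟩ * ⟨z, hzP⟩ := Subtype.ext hkz.symm
    rw [h4, QuotientGroup.mk_mul, h3, mul_one]
    exact (hmem ⟨k, hkP⟩).1 hk

theorem not_isMulCommutative_quot {Z P : Subgroup Γ} [Z.Normal] (hPZ : ¬ P ≤ Z) (hP : ⁅P, P⁆ = P) :
    ¬ IsMulCommutative (P ⧸ Z.subgroupOf P) := by
  intro h
  apply hPZ
  rw [← hP, Subgroup.commutator_le]
  intro a ha b hb
  have h1 := h.is_comm.comm (QuotientGroup.mk (⟨a, ha⟩ : P) : P ⧸ Z.subgroupOf P) (QuotientGroup.mk (⟨b, hb⟩ : P))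
  have h2 : (QuotientGroup.mk (⁅(⟨a, ha⟩ : P), (⟨b, hb⟩ : P)⁆) : P ⧸ Z.subgroupOf P) = 1 := by
    rw [commutatorElement_def, QuotientGroup.mk_mul, QuotientGroup.mk_mul, QuotientGroup.mk_mul,
      QuotientGroup.mk_inv, QuotientGroup.mk_inv, h1]
    group
  rw [QuotientGroup.eq_one_iff] at h2
  exact Subgroup.mem_subgroupOf.1 h2

end Cfsg.Agent.Lib.AschGroup
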