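import Cfsg.Agent.Lib.AschForm
import Cfsg.Agent.Lib.AschGroup

/-!
Aschbacher's theorem: the first dichotomies, and groups normalising no proper subalgebra.
-/

set_option autoImplicit false
set_option linter.unusedSectionVars false

namespace Cfsg.Agent.Lib.AschGood

open Cfsg Cfsg.Geo Cfsg.Agent.Lib.AschMU Cfsg.Agent.Lib.AschCore Cfsg.Agent.Lib.AschField Cfsg.Agent.Lib.AschAlg
  Cfsg.Agent.Lib.AschDescent Cfsg.Agent.Lib.AschForm Cfsg.Agent.Lib.AschGroup
open scoped Matrix MatrixGroups Kronecker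

variable {ι : Type} [Fintype ι] [DecidableEq ι] {F : Type*} [Field F]

/-- `H` is irreducible and normalises no proper non-scalar subalgebra of the matrix algebra. -/
structure Good (H : Subgroup (GL ι F)) : Prop where
  irr : ActsIrreducibly (matrixSet H)
  alg : ∀ A : Subalgebra F (Matrix ι ι F), H ≤ subalgebraNormalizer A → A = ⊥ ∨ A = ⊤

/-- The centre of a subalgebra, as a subalgebra of the matrix algebra. -/
def centre (A : Subalgebra F (Matrix ι ι F)) : Subalgebra F (Matrix ι ι F) where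
  carrier := {x | x ∈ A ∧ ∀ y ∈ A, x * y = y * x}
  mul_mem' := by
    rintro a b ⟨ha, ha'⟩ ⟨hb, hb'⟩
    refine ⟨A.mul_mem ha hb, fun y hy => ?_⟩
    rw [mul_assoc, hb' y hy, ← mul_assoc, ha' y hy, mul_assoc]
  one_mem' := ⟨A.one_mem, fun y _ => by rw [one_mul, mul_one]⟩
  add_mem' := by
    rintro a b ⟨ha, ha'⟩ ⟨hb, hb'⟩
    refine ⟨A.add_mem ha hb, fun y hy => ?_⟩
    rw [add_mul, mul_add, ha' y hy, hb' y hy]
  zero_mem' := ⟨A.zero_mem, fun y _ => by rw [zero_mul, mul_zero]⟩
  algebraMap_mem' := fun c => ⟨A.algebraMap_mem c, fun y _ => Algebra.commutes c y⟩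

theorem mem_centre {A : Subalgebra F (Matrix ι ι F)} {x : Matrix ι ι F} :
    x ∈ centre A ↔ x ∈ A ∧ ∀ y ∈ A, x * y = y * x := Iff.rfl

theorem centre_norm {H : Subgroup (GL ι F)} {A : Subalgebra F (Matrix ι ι F)} (hA : H ≤ subalgebraNormalizer A) :
    H ≤ subalgebraNormalizer (centre A) := by
  apply le_subalgebraNormalizer
  rintro g hg k ⟨hk, hk'⟩
  refine ⟨cj_mem_of_le hA hg hk, fun y hy => ?_⟩
  have h1 : cj g⁻¹ y ∈ A := cj_mem_of_le hA (H.inv_mem hg) hy
  rw [← cj_cj_inv g y, ← map_mul, hk' _ h1, map_mul]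

theorem eq_bot_of_scalar {A : Subalgebra F (Matrix ι ι F)} (h : ∀ x ∈ A, ∃ c : F, x = c • (1 : Matrix ι ι F)) : A = ⊥ := by
  rw [eq_bot_iff]
  intro x hx
  obtain ⟨c, rfl⟩ := h x hx
  rw [Algebra.mem_bot]
  exact ⟨c, Algebra.algebraMap_eq_smul_one c⟩

theorem scalar_of_mem_bot {x : Matrix ι ι F} (h : x ∈ (⊥ : Subalgebra F (Matrix ι ι F))) :
    ∃ c : F, x = c • (1 : Matrix ι ι F) := by
  rw [Algebra.mem_bot] at h
  obtain ⟨c, rfl⟩ := h
  exact ⟨c, Algebra.algebraMap_eq_smul_one c⟩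

/-- **First reduction** (classes 2, 3, 4). -/
theorem cases_of_irr [Fintype F] [Nonempty ι] {H : Subgroup (GL ι F)} (hH : ActsIrreducibly (matrixSet H)) :
    (∃ (t m : ℕ) (e : Fin t → Matrix ι ι F), IsIdemFamily e ∧ IsMDecomposition m (fun i => rng (e i)) ∧
      (∀ h ∈ H, ∃ π : Equiv.Perm (Fin t), ∀ i, cj h (e i) = e (π i))) ∨
    (∃ (r : ℕ) (K : Subalgebra F (Matrix ι ι F)), r.Prime ∧ r ∣ Fintype.card ι ∧ IsFieldSubalgebra r K ∧
      H ≤ subalgebraNormalizer K) ∨
    (∃ (d e : ℕ) (σ : ι ≃ Fin d × Fin e) (P : GL ι F), 2 ≤ d ∧ 2 ≤ e ∧ H ≤ tensorProductSubgroup d e σ P) ∨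
    Good H := by
  classical
  by_cases h1 : ∃ (t m : ℕ) (e : Fin t → Matrix ι ι F), IsIdemFamily e ∧ IsMDecomposition m (fun i => rng (e i)) ∧
      (∀ h ∈ H, ∃ π : Equiv.Perm (Fin t), ∀ i, cj h (e i) = e (π i))
  · exact Or.inl h1
  by_cases h2 : ∃ (r : ℕ) (K : Subalgebra F (Matrix ι ι F)), r.Prime ∧ r ∣ Fintype.card ι ∧ IsFieldSubalgebra r K ∧
      H ≤ subalgebraNormalizer K
  · exact Or.inr (Or.inl h2)
  by_cases h3 : ∃ (d e : ℕ) (σ : ι ≃ Fin d × Fin e) (P : GL ι F), 2 ≤ d ∧ 2 ≤ e ∧ H ≤ tensorProductSubgroup d e σ P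
  · exact Or.inr (Or.inr (Or.inl h3))
  refine Or.inr (Or.inr (Or.inr ⟨hH, fun A hA => ?_⟩))
  have hcomm : ∀ x ∈ centre A, ∀ y ∈ centre A, x * y = y * x := fun x hx y hy => hx.2 y hy.1
  have hcb : centre A = ⊥ := by
    rcases comm_cases hH (centre_norm hA) hcomm with h | h
    · exfalso; apply h1
      obtain ⟨t, e, ht, he, -, -, hp⟩ := h
      have hdim : ∀ i, Module.finrank F (rng (e i)) = Module.finrank F (rng (e ⟨0, by omega⟩)) :=
        fun i => he.finrank_eq_of_irr hH hp _ _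
      exact ⟨t, _, e, he, he.isMDecomposition ht hdim, hp⟩
    · by_contra hne
      apply h2
      obtain ⟨r, K, hr, hrn, -, hK, hK'⟩ := exists_prime_subfield' hcomm h hne
      exact ⟨r, K, hr, hrn, hK, le_normalizer_of_pow (centre_norm hA) hK'⟩
  obtain ⟨d, hd, ⟨φ⟩⟩ := exists_algEquiv_matrix hH hA (fun x hx hxc =>
    scalar_of_mem_bot (by rw [← hcb]; exact ⟨hx, hxc⟩))
  have : Nonempty (Fin d) := ⟨⟨0, Nat.pos_of_ne_zero hd⟩⟩
  obtain ⟨e, he⟩ := card_of_matrixUnits ((isMatrixUnits_single (Fin d) F).map (A.val.comp φ.toAlgHom).toRingHom)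
  rw [Fintype.card_fin] at he
  let σ : ι ≃ Fin d × Fin e := Fintype.equivOfCardEq (by rw [he, Fintype.card_prod, Fintype.card_fin, Fintype.card_fin])
  obtain ⟨P, -, hP⟩ := exists_tensorProductSubgroup hd φ σ
  by_cases hd1 : d = 1
  · left
    subst hd1
    apply eq_bot_of_scalar
    intro x hx
    obtain ⟨y, hy⟩ := φ.surjective ⟨x, hx⟩
    have hy1 : y = (y 0 0) • (1 : Matrix (Fin 1) (Fin 1) F) := by
      ext i j
      have hi : i = 0 := Subsingleton.elim _ _
      have hj : j = 0 := Subsingleton.elim _ _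
      subst hi hj; simp
    refine ⟨y 0 0, ?_⟩
    have h4 : φ y = (y 0 0) • (1 : A) := by
      rw [hy1, map_smul, map_one]; simp
    rw [hy] at h4
    exact congrArg Subtype.val h4
  by_cases he1 : e = 1
  · right
    subst he1
    have hfr : Module.finrank F A = Module.finrank F (Matrix ι ι F) := by
      rw [← LinearEquiv.finrank_eq φ.toLinearEquiv, Module.finrank_matrix, Module.finrank_matrix, he]
      simp
    rw [← Algebra.toSubmodule_eq_top]
    exact Submodule.eq_top_of_finrank_eq hfr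
  exfalso
  apply h3
  have he0 : e ≠ 0 := by
    rintro rfl
    rw [mul_zero] at he
    exact Fintype.card_ne_zero he
  exact ⟨d, e, σ, P, by omega, by omega, hA.trans hP⟩

/-- A group spanning the matrix algebra is absolutely irreducible. -/
theorem absIrr_of_env_top [Nonempty ι] {X : Subgroup (GL ι F)} (h : env X = ⊤) : ActsAbsolutelyIrreducibly (matrixSet X) := by
  constructor
  · intro W hW
    -- the algebra stabilising W
    let S : Subalgebra F (Matrix ι ι F) :=
      { carrier := {x | ∀ w ∈ W, x *ᵥ w ∈ W}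
        mul_mem' := fun {a b} ha hb w hw => by rw [← Matrix.mulVec_mulVec]; exact ha _ (hb w hw)
        one_mem' := fun w hw => by rw [Matrix.one_mulVec]; exact hw
        add_mem' := fun {a b} ha hb w hw => by rw [Matrix.add_mulVec]; exact W.add_mem (ha w hw) (hb w hw)
        zero_mem' := fun w _ => by rw [Matrix.zero_mulVec]; exact W.zero_mem
        algebraMap_mem' := fun c w hw => by
          rw [Algebra.algebraMap_eq_smul_one, Matrix.smul_mulVec, Matrix.one_mulVec]; exact W.smul_mem c hw }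
    have hS : S = ⊤ := by
      rw [eq_top_iff, ← h]
      apply Algebra.adjoin_le
      intro s hs w hw
      exact hW s hs ⟨w, hw, by rw [Matrix.toLin'_apply]⟩
    by_cases hW0 : W = ⊥
    · left; exact hW0
    right
    obtain ⟨w, hw, hw0⟩ := Submodule.exists_mem_ne_zero_of_ne_bot hW0
    obtain ⟨j, hj⟩ : ∃ j, w j ≠ 0 := by
      by_contra hcon
      push Not at hcon
      exact hw0 (funext hcon)
    rw [eq_top_iff]
    intro v _
    have h5 : (Matrix.of (fun i k => if k = j then v i * (w j)⁻¹ else 0)) ∈ S := by rw [hS]; trivial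
    have h6 := h5 w hw
    have h7 : (Matrix.of (fun i k => if k = j then v i * (w j)⁻¹ else 0)) *ᵥ w = v := by
      funext i
      simp only [Matrix.mulVec, dotProduct, Matrix.of_apply, ite_mul, zero_mul]
      rw [Finset.sum_ite_eq' Finset.univ j]
      simp [hj]
    rwa [h7] at h6
  · intro M hM
    apply commute_of_commute_single
    intro i j
    exact commute_env hM _ (by rw [h]; trivial)

theorem env_top_iff [Finite F] [Nonempty ι] {X : Subgroup (GL ι F)} : env X = ⊤ ↔ ActsAbsolutelyIrreducibly (matrixSet X) :=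
  ⟨absIrr_of_env_top, env_eq_top⟩

theorem scalars_le_center : scalars ι F ≤ Subgroup.center (GL ι F) := by
  intro z hz
  rw [Subgroup.mem_center_iff]
  intro g
  obtain ⟨c, hc⟩ := (mem_scalars_iff z).1 hz
  apply Units.ext
  rw [Units.val_mul, Units.val_mul, hc, Matrix.mul_smul, Matrix.smul_mul, mul_one, one_mul]

/-- A non-scalar subgroup normalised by a good group is absolutely irreducible. -/
theorem Good.absIrr [Nonempty ι] {H X : Subgroup (GL ι F)} (hH : Good H) (hX : NormBy H X)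
    (hns : ¬ X ≤ scalars ι F) : ActsAbsolutelyIrreducibly (matrixSet X) := by
  apply absIrr_of_env_top
  rcases hH.alg (env X) (normalizer_le_env X hX) with h | h
  · exfalso; apply hns
    intro x hx
    rw [mem_scalars_iff]
    obtain ⟨c, hc⟩ := scalar_of_mem_bot (h ▸ mem_env hx)
    have hc0 : c ≠ 0 := by
      rintro rfl
      rw [zero_smul] at hc
      have := x.isUnit
      rw [hc] at this
      exact not_isUnit_zero this
    exact ⟨Units.mk0 c hc0, hc⟩
  · exact h

end Cfsg.Agent.Lib.AschGood
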