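import Cfsg.Agent.Lib.AschForm
import Cfsg.Agent.Lib.AschForms
import Cfsg.Agent.Lib.AltForm
import Cfsg.Agent.Lib.AschGood

/-!
Aschbacher's theorem: from invariant Gram matrices to invariant symplectic, quadratic, unitary forms.
-/

set_option autoImplicit false
set_option linter.unusedSectionVars false

namespace Cfsg.Agent.Lib.AschForm2

open Cfsg Cfsg.Geo Cfsg.Agent.Lib.AschCore Cfsg.Agent.Lib.AschDescent Cfsg.Agent.Lib.AschForm Cfsg.Agent.Lib.AschGroup
open scoped Matrix MatrixGroups Kronecker

variable {ι : Type} [Fintype ι] [DecidableEq ι] {F : Type*} [Field F]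

/-- An involutive automorphism and an invariant Gram matrix give an invariant unitary form. -/
theorem exists_unitary [Nonempty ι] {σ : F ≃+* F} (hσ : σ ≠ RingEquiv.refl F) (hσ2 : ∀ a, σ (σ a) = a)
    {X : Subgroup (GL ι F)} (hX : ActsAbsolutelyIrreducibly (matrixSet X)) {G : Matrix ι ι F}
    (hG : Inv (σ : F →+* F) X G) (hdet : G.det ≠ 0) :
    ∃ f, IsUnitaryForm σ f ∧ FixesForm (matrixSet X) f := by
  have hsmsm : ∀ x : Matrix ι ι F, sm (σ : F →+* F) (sm (σ : F →+* F) x) = x := by
    intro x; ext i j; exact hσ2 _
  have hsmT : ∀ x : Matrix ι ι F, sm (σ : F →+* F) xᵀ = (sm (σ : F →+* F) x)ᵀ := fun x => rfl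
  have hG' : Inv (σ : F →+* F) X (sm (σ : F →+* F) G)ᵀ := by
    intro x hx
    have h1 := congrArg (fun z : Matrix ι ι F => (sm (σ : F →+* F) z)ᵀ) (hG x hx)
    simp only [sm_mul, Matrix.transpose_mul] at h1
    rw [hsmsm, hsmT, Matrix.transpose_transpose] at h1
    rw [Matrix.mul_assoc]
    exact h1
  obtain ⟨c, hc⟩ := inv_unique hX hG hG' hdet
  -- choose t with t + σ t * c ≠ 0
  obtain ⟨t, ht⟩ : ∃ t : F, t + σ t * c ≠ 0 := by
    by_contra hcon
    push Not at hcon
    have h1 := hcon 1
    rw [map_one, one_mul] at h1
    have hc1 : c = -1 := by linear_combination h1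
    apply hσ
    ext t
    have h2 := hcon t
    rw [hc1] at h2
    show σ t = t
    linear_combination -h2
  set G₁ : Matrix ι ι F := t • G + σ t • (sm (σ : F →+* F) G)ᵀ with hG₁
  have hG₁e : G₁ = (t + σ t * c) • G := by
    rw [hG₁, hc, smul_smul, ← add_smul]
  have hherm : (sm (σ : F →+* F) G₁)ᵀ = G₁ := by
    ext i j
    simp only [hG₁, Matrix.transpose_apply, Matrix.map_apply, Matrix.add_apply, Matrix.smul_apply, smul_eq_mul, map_add,
      map_mul, RingEquiv.coe_toRingHom]
    rw [hσ2, hσ2]
    ring
  have hdet₁ : G₁.det ≠ 0 := by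
    rw [hG₁e, Matrix.det_smul]
    exact mul_ne_zero (pow_ne_zero _ ht) hdet
  have hinv₁ : Inv (σ : F →+* F) X G₁ := by
    intro x hx
    rw [hG₁e, Matrix.mul_smul, Matrix.smul_mul, hG x hx]
  refine ⟨formOfGram (σ : F →+* F) G₁, ⟨hσ, hσ2, (isSesq_formOfGram _ _).add_left, (isSesq_formOfGram _ _).smul_left, ?_,
    isNondegenerateForm_iff.2 hdet₁⟩, inv_iff.1 hinv₁⟩
  intro v w
  have h2 : ∀ a b, σ (G₁ a b) = G₁ b a := fun a b => congrFun (congrFun hherm b) a
  simp only [formOfGram, map_sum, map_mul, RingEquiv.coe_toRingHom]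
  rw [Finset.sum_comm]
  refine Finset.sum_congr rfl fun a _ => Finset.sum_congr rfl fun b _ => ?_
  rw [hσ2, h2]
  ring

/-- A symplectic form lives in even dimension. -/
theorem even_of_symplectic {f : (ι → F) → (ι → F) → F} (hf : IsSymplecticForm f) : Even (Fintype.card ι) := by
  have h := AltForm.even_finrank (V := ι → F) (LinearMap.mk₂ F f hf.bilinear.add_left hf.bilinear.smul_left
    hf.bilinear.add_right hf.bilinear.smul_right) hf.alternating (fun v hv => by
      by_contra hv0
      obtain ⟨-, x, hx⟩ := hf.nondegenerate v hv0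
      exact hx (hv x))
  rwa [Module.finrank_fintype_fun_eq_card] at h

/-- An invariant Gram matrix (bilinear case) gives an invariant quadratic or symplectic form. -/
theorem exists_quad_or_symp [Finite F] [Nonempty ι] (hn : 2 ≤ Fintype.card ι)
    {X : Subgroup (GL ι F)} (hX : ActsAbsolutelyIrreducibly (matrixSet X)) {G : Matrix ι ι F}
    (hG : Inv (RingHom.id F) X G) (hdet : G.det ≠ 0) :
    ((2 : F) ≠ 0 ∧ ∃ Q, IsNondegenerateQuadraticForm Q ∧ FixesQuadForm (matrixSet X) Q) ∨
    (∃ f, IsSymplecticForm f ∧ FixesForm (matrixSet X) f) := by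
  have hnd : IsNondegenerateForm (formOfGram (RingHom.id F) G) :=
    (isNondegenerateForm_iff (σ := RingEquiv.refl F)).2 hdet
  have hbil := isSesq_formOfGram (RingHom.id F) G
  have hfix := inv_iff.1 hG
  set f := formOfGram (RingHom.id F) G with hf
  have hB : IsBilinearForm f := ⟨hbil.add_left, hbil.smul_left, hbil.add_right, hbil.smul_right⟩
  have hT : ∀ u v, formOfGram (RingHom.id F) Gᵀ u v = f v u := by
    intro u v
    simp only [hf, formOfGram, Matrix.transpose_apply, RingHom.id_apply]
    rw [Finset.sum_comm]
    refine Finset.sum_congr rfl fun a _ => Finset.sum_congr rfl fun b _ => by ring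
  have hneg : ∀ u v, formOfGram (RingHom.id F) (-G) u v = - f u v := by
    intro u v
    simp only [hf, formOfGram, Matrix.neg_apply, ← Finset.sum_neg_distrib]
    refine Finset.sum_congr rfl fun a _ => Finset.sum_congr rfl fun b _ => by ring
  by_cases h2 : (2 : F) = 0
  · -- characteristic two
    right
    have hneg1 : ∀ a : F, -a = a := fun a => by linear_combination (-a) * h2
    have hsymm : ∀ u v, f u v = f v u := by
      intro u v
      rcases symm_or_skew hX hG hdet with h | h
      · rw [← hT, h]
      · rw [← hT, h, hneg, hneg1]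
    refine ⟨f, ⟨hB, fun v w => by rw [hneg1, hsymm], ?_, hnd⟩, hfix⟩
    -- the alternating property
    have : CharP F 2 := by
      obtain ⟨p, hp⟩ := CharP.exists F
      have h3 : p ∣ 2 := by
        rw [← CharP.cast_eq_zero_iff F p]; exact_mod_cast h2
      rcases (Nat.dvd_prime Nat.prime_two).1 h3 with h4 | h4
      · subst h4
        exact absurd rfl (CharP.char_ne_one F 1)
      · exact h4 ▸ hp
    have hadd : ∀ u v, f (u + v) (u + v) = f u u + f v v := by
      intro u v
      rw [hB.add_left, hB.add_right, hB.add_right, hsymm v u]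
      linear_combination (f u v) * h2
    let W : Submodule F (ι → F) :=
      { carrier := {v | f v v = 0}
        add_mem' := fun {a b} ha hb => by
          show f (a + b) (a + b) = 0
          rw [hadd, ha, hb, add_zero]
        zero_mem' := by
          show f 0 0 = 0
          have := hB.smul_left 0 0 0
          simpa using this
        smul_mem' := fun c v hv => by
          show f (c • v) (c • v) = 0
          rw [hB.smul_left, hB.smul_right, hv, mul_zero, mul_zero] }
    rcases hX.1 W (by
      rintro s hs _ ⟨v, hv, rfl⟩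
      show f (Matrix.toLin' s v) (Matrix.toLin' s v) = 0
      rw [Matrix.toLin'_apply, hfix s hs]
      exact hv) with h | h
    · exfalso
      -- W = ⊥ but n ≥ 2
      obtain ⟨i, j, hij⟩ := Fintype.one_lt_card_iff.1 hn
      -- find a combination in W
      set a := f (Pi.single i 1) (Pi.single i 1) with ha
      set b := f (Pi.single j 1) (Pi.single j 1) with hb
      have hsq : Function.Surjective (fun x : F => x ^ 2) := by
        have := (frobenius_inj F 2)
        exact (Finite.injective_iff_surjective.1 this)
      obtain ⟨a', ha'⟩ := hsq a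
      obtain ⟨b', hb'⟩ := hsq b
      simp only at ha' hb'
      have ha0 : a ≠ 0 := by
        intro h0
        have h3 : (Pi.single i 1 : ι → F) ∈ W := h0
        rw [h, Submodule.mem_bot] at h3
        have := congrFun h3 i
        simp at this
      have hmem : b' • (Pi.single i 1 : ι → F) + a' • (Pi.single j 1 : ι → F) ∈ W := by
        show f _ _ = 0
        rw [hadd, hB.smul_left, hB.smul_right, hB.smul_left, hB.smul_right, ← ha, ← hb, ← ha', ← hb']
        linear_combination (a' ^ 2 * b' ^ 2) * h2
      rw [h, Submodule.mem_bot] at hmem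
      have h4 := congrFun hmem j
      simp [hij.symm] at h4
      apply ha0
      rw [← ha', h4]
      ring
    · intro v
      have : v ∈ W := by rw [h]; trivial
      exact this
  · rcases symm_or_skew hX hG hdet with h | h
    · left
      refine ⟨h2, fun v => (2 : F)⁻¹ * f v v, ?_, ?_⟩
      · have hsymm : ∀ u v, f u v = f v u := fun u v => by rw [← hT, h]
        have hpol : QuadraticMap.polar (fun v => (2 : F)⁻¹ * f v v) = f := by
          funext u v
          simp only [QuadraticMap.polar]
          rw [hB.add_left, hB.add_right, hB.add_right, hsymm v u]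
          field_simp
          ring
        refine ⟨?_, by rw [hpol]; exact hB, by rw [hpol]; exact hnd⟩
        intro c v
        rw [hB.smul_left, hB.smul_right]; ring
      · intro s hs v
        simp only
        rw [hfix s hs]
    · right
      refine ⟨f, ⟨hB, fun v w => by rw [← hT, h, hneg] , ?_, hnd⟩, hfix⟩
      intro v
      have h3 : f v v = - f v v := by
        conv_lhs => rw [← hT, h, hneg]
      have h4 : (2 : F) * f v v = 0 := by linear_combination h3
      exact (mul_eq_zero.1 h4).resolve_left h2

end Cfsg.Agent.Lib.AschForm2
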