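import Cfsg.Agent.Lib.AschSymp
import Cfsg.Agent.Lib.AschForm2

/-!
Aschbacher's theorem: the case of a minimal normal subgroup which is abelian modulo scalars, conclusion.
-/

set_option autoImplicit false
set_option linter.unusedSectionVars false

namespace Cfsg.Agent.Lib.AschSympC

open Cfsg Cfsg.Geo Cfsg.Agent.Lib.AschMU Cfsg.Agent.Lib.AschCore Cfsg.Agent.Lib.AschField Cfsg.Agent.Lib.AschAlg
  Cfsg.Agent.Lib.AschDescent Cfsg.Agent.Lib.AschForm Cfsg.Agent.Lib.AschGroup Cfsg.Agent.Lib.AschGood
  Cfsg.Agent.Lib.AschNonab Cfsg.Agent.Lib.AschReal Cfsg.Agent.Lib.AschSymp Cfsg.Agent.Lib.AschForm2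
open scoped Matrix MatrixGroups Kronecker commutatorElement

variable {ι : Type} [Fintype ι] [DecidableEq ι] {F : Type*} [Field F]

/-- A nonzero invariant Gram matrix of an irreducible group is invertible. -/
theorem det_ne_zero_of_inv {σ : F ≃+* F} {X : Subgroup (GL ι F)} (hX : ActsIrreducibly (matrixSet X))
    {G : Matrix ι ι F} (hG : Inv (σ : F →+* F) X G) (hG0 : G ≠ 0) : G.det ≠ 0 := by
  intro hdet
  let W : Submodule F (ι → F) :=
    { carrier := {v | G *ᵥ (σ ∘ v) = 0}
      add_mem' := fun {a b} ha hb => by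
        show G *ᵥ (σ ∘ (a + b)) = 0
        have : σ ∘ (a + b) = σ ∘ a + σ ∘ b := by ext i; simp
        rw [this, Matrix.mulVec_add, ha, hb, add_zero]
      zero_mem' := by
        show G *ᵥ (σ ∘ 0) = 0
        have : σ ∘ (0 : ι → F) = 0 := by ext i; simp
        rw [this, Matrix.mulVec_zero]
      smul_mem' := fun c v hv => by
        show G *ᵥ (σ ∘ (c • v)) = 0
        have : σ ∘ (c • v) = σ c • (σ ∘ v) := by ext i; simp
        rw [this, Matrix.mulVec_smul, hv, smul_zero] }
  rcases hX W (by
    rintro _ ⟨x, hx, rfl⟩ _ ⟨v, hv, rfl⟩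
    show G *ᵥ (σ ∘ (Matrix.toLin' (x : Matrix ι ι F) v)) = 0
    rw [Matrix.toLin'_apply]
    have h1 : σ ∘ ((x : Matrix ι ι F) *ᵥ v) = (sm (σ : F →+* F) (x : Matrix ι ι F)) *ᵥ (σ ∘ v) := by
      ext i
      simp [Matrix.mulVec, dotProduct, map_sum]
    rw [h1, Matrix.mulVec_mulVec]
    have h2 : G * sm (σ : F →+* F) (x : Matrix ι ι F) = (((x⁻¹ : GL ι F) : Matrix ι ι F))ᵀ * G := by
      conv_rhs => rw [← hG x hx]
      rw [← Matrix.mul_assoc, ← Matrix.mul_assoc, gl_inv_transpose_mul, Matrix.one_mul]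
    rw [h2, ← Matrix.mulVec_mulVec]
    have h3 : G *ᵥ (σ ∘ v) = 0 := hv
    rw [h3, Matrix.mulVec_zero]) with h | h
  · obtain ⟨v, hv0, hv⟩ := Matrix.exists_mulVec_eq_zero_iff.2 hdet
    have h1 : (fun i => σ.symm (v i)) ∈ W := by
      show G *ᵥ (σ ∘ (fun i => σ.symm (v i))) = 0
      have : σ ∘ (fun i => σ.symm (v i)) = v := by ext i; simp
      rw [this, hv]
    rw [h, Submodule.mem_bot] at h1
    apply hv0
    ext i
    have h2 := congrFun h1 i
    simpa using h2
  · apply hG0
    ext i j
    have h1 : (Pi.single j (1 : F) : ι → F) ∈ W := by rw [h]; trivial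
    have h2 : G *ᵥ (σ ∘ (Pi.single j (1 : F) : ι → F)) = 0 := h1
    have h3 : σ ∘ (Pi.single j (1 : F) : ι → F) = Pi.single j 1 := by
      ext i
      rcases eq_or_ne i j with hij | hij
      · subst hij; simp
      · simp [Pi.single_eq_of_ne hij]
    rw [h3, Matrix.mulVec_single_one] at h2
    exact congrFun h2 i

section

variable {H R : Subgroup (GL ι F)} {r : ℕ}

theorem exists_out [Nonempty ι] (R : Subgroup (GL ι F)) (x : R) : ∃ c : Fˣ, sc ι c ∈ R ∧
    (x : GL ι F) = sc ι c * (Quotient.out (QuotientGroup.mk x : R ⧸ (scalars ι F).subgroupOf R) : R) := by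
  set q : R ⧸ (scalars ι F).subgroupOf R := QuotientGroup.mk x with hq
  have h1 : (Quotient.out q : R)⁻¹ * x ∈ (scalars ι F).subgroupOf R := by
    apply QuotientGroup.eq.1
    rw [hq]
    exact QuotientGroup.out_eq' _
  rw [Subgroup.mem_subgroupOf] at h1
  obtain ⟨c, hc⟩ := mem_scalars.1 h1
  refine ⟨c, ?_, ?_⟩
  · rw [hc]; exact ((Quotient.out q : R)⁻¹ * x).2
  · rw [sc_comm, hc]
    push_cast
    group

/-- The basis of coset representatives multiplies by scalars in `R`. -/
theorem exists_invariant [Finite F] [Nonempty ι] (h : SympData H R r) (σ : F ≃+* F)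
    (hσ : ∀ c : Fˣ, sc ι c ∈ R → (c : F) * σ c = 1) : ∃ G : Matrix ι ι F, Inv (σ : F →+* F) R G ∧ G.det ≠ 0 := by
  classical
  have hfinM : Finite (Matrix ι ι F) := inferInstanceAs (Finite (ι → ι → F))
  have hfinGL : Finite (GL ι F) := inferInstance
  have : Fintype (R ⧸ (scalars ι F).subgroupOf R) := Fintype.ofFinite _
  obtain ⟨b, hb⟩ := h.exists_basis
  let B : Matrix ι ι F → Matrix ι ι F := fun C => ∑ q, (b q)ᵀ * C * sm (σ : F →+* F) (b q)
  have hinv : ∀ C, Inv (σ : F →+* F) R (B C) := by
    intro C y hy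
    have h1 : ∀ q, ∃ c : Fˣ, sc ι c ∈ R ∧ b q * (y : Matrix ι ι F) = (c : F) • b (q * QuotientGroup.mk ⟨y, hy⟩) := by
      intro q
      obtain ⟨c, hc, hce⟩ := exists_out R ((Quotient.out q : R) * ⟨y, hy⟩)
      have h2 : (QuotientGroup.mk ((Quotient.out q : R) * ⟨y, hy⟩) : R ⧸ (scalars ι F).subgroupOf R) =
          q * QuotientGroup.mk ⟨y, hy⟩ := by
        rw [QuotientGroup.mk_mul]
        congr 1
        exact QuotientGroup.out_eq' q
      rw [h2] at hce
      refine ⟨c, hc, ?_⟩
      have h3 := congrArg (fun z : GL ι F => (z : Matrix ι ι F)) hce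
      simp only [sc_mul_val] at h3
      rw [hb, hb, ← h3]
      rfl
    choose c hc hcb using h1
    have h2 : (y : Matrix ι ι F)ᵀ * B C * sm (σ : F →+* F) (y : Matrix ι ι F) =
        ∑ q, (b q * (y : Matrix ι ι F))ᵀ * C * sm (σ : F →+* F) (b q * (y : Matrix ι ι F)) := by
      simp only [B]
      rw [Finset.mul_sum, Finset.sum_mul]
      refine Finset.sum_congr rfl fun q _ => ?_
      rw [Matrix.transpose_mul, sm_mul]
      simp only [Matrix.mul_assoc]
    rw [h2]
    have hkey : ∀ q, (b q * (y : Matrix ι ι F))ᵀ * C * sm (σ : F →+* F) (b q * (y : Matrix ι ι F)) =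
        (b (q * QuotientGroup.mk ⟨y, hy⟩))ᵀ * C * sm (σ : F →+* F) (b (q * QuotientGroup.mk ⟨y, hy⟩)) := by
      intro q
      rw [hcb q]
      generalize b (q * QuotientGroup.mk ⟨y, hy⟩) = z
      have h3 : sm (σ : F →+* F) ((c q : F) • z) = σ (c q) • sm (σ : F →+* F) z := by
        ext i j; simp
      rw [h3, Matrix.transpose_smul, Matrix.smul_mul, Matrix.smul_mul, Matrix.mul_smul, smul_smul, hσ _ (hc q), one_smul]
    rw [Finset.sum_congr rfl (fun q _ => hkey q)]
    exact Equiv.sum_comp (Equiv.mulRight (QuotientGroup.mk ⟨y, hy⟩ : R ⧸ (scalars ι F).subgroupOf R))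
      (fun q => (b q)ᵀ * C * sm (σ : F →+* F) (b q))
  obtain ⟨C, hC⟩ : ∃ C, B C ≠ 0 := by
    by_contra hcon
    push Not at hcon
    have h1 : ∀ a b' j : ι, ∀ q, σ (b q b' j) = 0 := by
      intro a b' j
      have hli := Fintype.linearIndependent_iff.1 b.linearIndependent (fun q => σ (b q b' j))
      apply hli
      ext a i
      have h2 := congrFun (congrFun (hcon (Matrix.single a b' 1)) i) j
      simp only [B, Matrix.sum_apply, Matrix.zero_apply] at h2
      rw [Matrix.sum_apply, Matrix.zero_apply, ← h2]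
      refine Finset.sum_congr rfl fun q _ => ?_
      rw [Matrix.smul_apply, smul_eq_mul, Matrix.mul_apply]
      rw [Finset.sum_eq_single b']
      · rw [Matrix.mul_apply, Finset.sum_eq_single a]
        · simp [mul_comm]
        · intro k _ hk
          simp [Matrix.single_apply_of_row_ne hk.symm]
        · simp
      · intro k _ hk
        rw [Matrix.mul_apply, Finset.sum_eq_zero, zero_mul]
        intro l _
        simp [Matrix.single_apply_of_col_ne _ _ hk.symm]
      · simp
    obtain ⟨o⟩ := ‹Nonempty ι›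
    have h3 : ∀ q, b q = 0 := by
      intro q
      ext b' j
      have := h1 o b' j q
      simpa using this
    exact b.ne_zero (QuotientGroup.mk 1) (h3 _)
  exact ⟨B C, hinv C, det_ne_zero_of_inv h.absIrr.1 (hinv C) hC⟩

/-- Realisability over a subfield containing the scalars of `R`. -/
theorem realisable [Finite F] [Nonempty ι] (h : SympData H R r) {F₀ : Subfield F}
    (hF₀ : ∀ c : Fˣ, sc ι c ∈ R → (c : F) ∈ F₀) : RealisableOver F₀ (matrixSet R) := by
  classical
  have hfinM : Finite (Matrix ι ι F) := inferInstanceAs (Finite (ι → ι → F))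
  have hfinGL : Finite (GL ι F) := inferInstance
  have : Fintype (R ⧸ (scalars ι F).subgroupOf R) := Fintype.ofFinite _
  obtain ⟨b, hb⟩ := h.exists_basis
  have key : ∀ x : R, ∃ c : Fˣ, (c : F) ∈ F₀ ∧ ((x : GL ι F) : Matrix ι ι F) = (c : F) • b (QuotientGroup.mk x) := by
    intro x
    obtain ⟨c, hc, hce⟩ := exists_out R x
    refine ⟨c, hF₀ c hc, ?_⟩
    have h3 := congrArg (fun z : GL ι F => (z : Matrix ι ι F)) hce
    simp only [sc_mul_val] at h3
    rw [hb, ← h3]
  obtain ⟨B, hB⟩ := realisable_of_basis (F₀ := F₀) b (by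
      intro i j k
      obtain ⟨c, hc, hce⟩ := key ((Quotient.out i : R) * (Quotient.out j : R))
      have h1 : b i * b j = (c : F) • b (QuotientGroup.mk ((Quotient.out i : R) * (Quotient.out j : R))) := by
        rw [← hce, hb, hb]; rfl
      rw [h1, map_smul, Finsupp.smul_apply, b.repr_self, smul_eq_mul]
      apply F₀.mul_mem hc
      rw [Finsupp.single_apply]
      split_ifs
      · exact F₀.one_mem
      · exact F₀.zero_mem) (by
      intro k
      obtain ⟨c, hc, hce⟩ := key 1
      have h1 : (1 : Matrix ι ι F) = (c : F) • b (QuotientGroup.mk 1) := by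
        rw [← hce]; rfl
      rw [h1, map_smul, Finsupp.smul_apply, b.repr_self, smul_eq_mul]
      apply F₀.mul_mem hc
      rw [Finsupp.single_apply]
      split_ifs
      · exact F₀.one_mem
      · exact F₀.zero_mem)
  refine ⟨B, ?_⟩
  rintro _ ⟨x, hx, rfl⟩ i j
  obtain ⟨c, hc, hce⟩ := key ⟨x, hx⟩
  show ((B : Matrix ι ι F) * (x : Matrix ι ι F) * ((B⁻¹ : GL ι F) : Matrix ι ι F)) i j ∈ F₀
  have h2 : (x : Matrix ι ι F) = (c : F) • b (QuotientGroup.mk ⟨x, hx⟩) := hce
  rw [h2, Matrix.mul_smul, Matrix.smul_mul, Matrix.smul_apply, smul_eq_mul]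
  exact F₀.mul_mem hc (hB _ i j)

theorem isPGroup (h : SympData H R r) : IsPGroup r R := by
  intro x
  rcases h.prime.eq_two_or_odd' with h2 | hodd
  · subst h2
    refine ⟨2, Subtype.ext ?_⟩
    have := h.pow x x.2
    simpa using this
  · refine ⟨1, Subtype.ext ?_⟩
    have h3 := h.pow x x.2
    have hg : Nat.gcd 2 r = 1 := (Nat.coprime_two_left.2 hodd)
    rw [hg, mul_one] at h3
    simpa using h3

theorem exponent_eq [Nonempty ι] (h : SympData H R r) : Monoid.exponent R = r * Nat.gcd 2 r := by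
  have hdvd : Monoid.exponent R ∣ r * Nat.gcd 2 r := by
    apply Monoid.exponent_dvd_of_forall_pow_eq_one
    intro x
    exact Subtype.ext (h.pow x x.2)
  have hne1 : Monoid.exponent R ≠ 1 := by
    intro h1
    rw [Monoid.exp_eq_one_iff] at h1
    obtain ⟨x, hx, y, hy, hxy⟩ := h.nonab
    apply hxy
    have := Subsingleton.elim (⟨x, hx⟩ : R) 1
    have h2 : x = 1 := congrArg Subtype.val this
    rw [h2, one_mul, mul_one]
  rcases h.prime.eq_two_or_odd' with h2 | hodd
  · subst h2
    have h4 : 2 * Nat.gcd 2 2 = 2 ^ 2 := by norm_num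
    rw [h4] at hdvd ⊢
    obtain ⟨k, hk, hke⟩ := (Nat.dvd_prime_pow Nat.prime_two).1 hdvd
    interval_cases k
    · exact absurd hke hne1
    · exfalso
      obtain ⟨x, hx, y, hy, hxy⟩ := h.nonab
      apply hxy
      have hsq : ∀ z ∈ R, z * z = 1 := by
        intro z hz
        have h5 := Monoid.pow_exponent_eq_one (⟨z, hz⟩ : R)
        rw [hke] at h5
        have h6 := congrArg Subtype.val h5
        simpa [sq] using h6
      have h7 := hsq _ (R.mul_mem hx hy)
      have hxi : x⁻¹ = x := inv_eq_of_mul_eq_one_left (hsq x hx)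
      have hyi : y⁻¹ = y := inv_eq_of_mul_eq_one_left (hsq y hy)
      calc y * x = y⁻¹ * x⁻¹ := by rw [hxi, hyi]
        _ = (x * y)⁻¹ := by group
        _ = x * y := inv_eq_of_mul_eq_one_left h7
    · exact hke
  · have hg : Nat.gcd 2 r = 1 := (Nat.coprime_two_left.2 hodd)
    rw [hg, mul_one] at hdvd ⊢
    exact ((Nat.dvd_prime h.prime).1 hdvd).resolve_left hne1

theorem cyclic_of_characteristic [Finite F] [Nonempty ι] (hH : Good H) (h : SympData H R r) (A : Subgroup R)
    (hA : A.Characteristic) (hAc : IsMulCommutative A) : IsCyclic A := by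
  have hA' : NormBy H (A.map R.subtype) := by
    rintro g hg _ ⟨a, ha, rfl⟩
    -- conjugation by g as an automorphism of R
    let φ : R ≃* R :=
      { toFun := fun x => ⟨g * x * g⁻¹, h.norm g hg x x.2⟩
        invFun := fun x => ⟨g⁻¹ * x * g, by
          have := h.norm g⁻¹ (H.inv_mem hg) x x.2
          rwa [inv_inv] at this⟩
        left_inv := fun x => Subtype.ext (by show g⁻¹ * (g * x * g⁻¹) * g = x; group)
        right_inv := fun x => Subtype.ext (by show g * (g⁻¹ * x * g) * g⁻¹ = x; group)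
        map_mul' := fun x y => Subtype.ext (by show g * (x * y) * g⁻¹ = (g * x * g⁻¹) * (g * y * g⁻¹); group) }
    have h1 : φ a ∈ A := by
      have h2 := hA.fixed φ
      rw [← h2] at ha
      exact ha
    exact ⟨φ a, h1, rfl⟩
  have hAs : A.map R.subtype ≤ scalars ι F := by
    by_contra hns
    have hai := hH.absIrr hA' hns
    apply hns
    rintro _ ⟨a, ha, rfl⟩
    apply scalar_of_commute_gl hai
    rintro _ ⟨b, hb, rfl⟩
    have h1 := hAc.is_comm.comm (⟨a, ha⟩ : A) ⟨b, hb⟩
    have h2 := congrArg (fun z : A => ((z : R) : GL ι F)) h1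
    exact h2
  -- embed A in Fˣ
  have h1 : ∀ a : A, ∃ c : Fˣ, sc ι c = ((a : R) : GL ι F) := fun a => mem_scalars.1 (hAs ⟨a, a.2, rfl⟩)
  choose c hc using h1
  let φ : A →* Fˣ :=
    { toFun := c
      map_one' := by
        apply sc_injective (ι := ι)
        rw [hc, map_one]; rfl
      map_mul' := fun a b => by
        apply sc_injective (ι := ι)
        rw [map_mul, hc, hc, hc]; rfl }
  have hφ : Function.Injective φ := by
    intro a b hab
    apply Subtype.ext
    apply Subtype.ext
    rw [← hc a, ← hc b]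
    exact congrArg _ hab
  exact isCyclic_of_injective φ hφ

theorem card_pow [Finite F] [Nonempty ι] (h : SympData H R r) : ∃ m : ℕ, Fintype.card ι = r ^ m ∧
    Nat.card R = Nat.card (Subgroup.center R) * (r ^ m) ^ 2 := by
  have hfinM : Finite (Matrix ι ι F) := inferInstanceAs (Finite (ι → ι → F))
  have hfinGL : Finite (GL ι F) := inferInstance
  have := Fact.mk h.prime
  obtain ⟨k, hk⟩ := IsPGroup.iff_card.1 (isPGroup h)
  have h1 := h.card_eq
  have h2 : Fintype.card ι ∣ r ^ k := by
    rw [← hk, h1]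
    exact Dvd.dvd.mul_left (dvd_pow_self _ (by norm_num)) _
  obtain ⟨m, hm, hme⟩ := (Nat.dvd_prime_pow h.prime).1 h2
  exact ⟨m, hme, by rw [← hme]; exact h1⟩

/-- **Groups of symplectic type.** -/
theorem cases [Fintype F] [Nonempty ι] (hH : Good H) (h : SympData H R r) (hn : 3 ≤ Fintype.card ι) :
    IsLinearSymplecticTypeData r R ∨ (∃ F₀ : Subfield F, F₀ ≠ ⊤ ∧ RealisableOver F₀ (matrixSet R)) ∨
    ((2 : F) ≠ 0 ∧ ∃ Q, IsNondegenerateQuadraticForm Q ∧ FixesQuadForm (matrixSet R) Q) ∨
    (∃ f, IsSymplecticForm f ∧ FixesForm (matrixSet R) f) ∨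
    (∃ (σ : F ≃+* F) (f : (ι → F) → (ι → F) → F), IsUnitaryForm σ f ∧ FixesForm (matrixSet R) f) := by
  classical
  have hfinM : Finite (Matrix ι ι F) := inferInstanceAs (Finite (ι → ι → F))
  have hfinGL : Finite (GL ι F) := inferInstance
  obtain ⟨p, hp⟩ := CharP.exists F
  obtain ⟨e', hpp, hcard⟩ := FiniteField.card F p
  set e : ℕ := (e' : ℕ) with he
  have hepos : 0 < e := e'.pos
  have : Fact p.Prime := ⟨hpp⟩
  obtain ⟨hz1, hz2, hz3⟩ := h.center_card
  set z := Nat.card (Subgroup.center R) with hz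
  have hzd : z ∣ p ^ e - 1 := by
    rw [← hcard]; exact h.center_card_dvd
  have hrp : r ≠ p := by
    rintro rfl
    have h1 : r ∣ r ^ e - 1 := hz2.trans hzd
    have h2 : r ∣ r ^ e := dvd_pow_self _ hepos.ne'
    have h3 : r ∣ 1 := by
      have h4 : 1 ≤ r ^ e := Nat.one_le_pow _ _ hpp.pos
      have := (Nat.dvd_sub_iff_right h4 h2).1 h1
      exact this
    exact hpp.one_lt.ne' (Nat.dvd_one.1 h3)
  obtain ⟨g, hg⟩ := IsCyclic.exists_ofOrder_eq_natCard (α := Fˣ)
  rw [Nat.card_units, Nat.card_eq_fintype_card, hcard] at hg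
  -- elements of F fixed by Frobenius powers
  have hfixg : ∀ d, 0 < d → d < e → (g : F) ^ (p ^ d) ≠ g := by
    intro d hd hde hfix
    have h1 : g ^ (p ^ d - 1) = 1 := by
      apply Units.ext
      have h2 : (g : F) ^ (p ^ d - 1) * g = 1 * g := by
        rw [← pow_succ, Nat.sub_add_cancel (Nat.one_le_pow _ _ hpp.pos), one_mul, hfix]
      have h3 := mul_right_cancel₀ g.ne_zero h2
      push_cast
      exact h3
    have h2 := orderOf_dvd_of_pow_eq_one h1
    rw [hg] at h2
    have h3 : p ^ d < p ^ e := Nat.pow_lt_pow_right hpp.one_lt hde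
    have h4 : 1 < p ^ d := Nat.one_lt_pow hd.ne' hpp.one_lt
    have h5 := Nat.le_of_dvd (by omega) h2
    omega
  by_cases hmin : ∃ d, 0 < d ∧ d < e ∧ z ∣ p ^ d - 1
  · -- a subfield
    obtain ⟨d, hd, hde, hzdd⟩ := hmin
    right; left
    let F₀ : Subfield F := (iterateFrobenius F p d).eqLocusField (RingHom.id F)
    have hmem : ∀ x : F, x ∈ F₀ ↔ x ^ (p ^ d) = x := fun x => by
      show iterateFrobenius F p d x = x ↔ _
      rw [iterateFrobenius_def]
    refine ⟨F₀, ?_, realisable h ?_⟩
    · intro htop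
      exact hfixg d hd hde ((hmem g).1 (by rw [htop]; trivial))
    · intro c hc
      rw [hmem]
      have h1 := (hz3 c).2 hc
      obtain ⟨s, hs⟩ := hzdd
      have h2 : c ^ (p ^ d - 1) = 1 := by rw [hs, pow_mul, h1, one_pow]
      have h3 := congrArg (fun u : Fˣ => (u : F) * c) h2
      simp only [Units.val_pow_eq_pow_val, Units.val_one, one_mul] at h3
      rwa [← pow_succ, Nat.sub_add_cancel (Nat.one_le_pow _ _ hpp.pos)] at h3
  · push Not at hmin
    have hminF : IsMinimalFieldFor z p e F := ⟨hpp, hp, hcard, hzd, hmin⟩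
    obtain ⟨m, hm, hRm⟩ := card_pow h
    rw [← hz] at hRm
    -- the unitary case
    have hunit : ∀ k, 0 < k → e = 2 * k → z ∣ p ^ k + 1 → ∃ (σ : F ≃+* F) (f : (ι → F) → (ι → F) → F),
        IsUnitaryForm σ f ∧ FixesForm (matrixSet R) f := by
      intro k hk hek hzk
      have hperf : PerfectRing F p := inferInstance
      let σ : F ≃+* F := iterateFrobeniusEquiv F p k
      have hσ : ∀ x, σ x = x ^ (p ^ k) := fun x => iterateFrobeniusEquiv_apply F p k x
      have hσ1 : σ ≠ RingEquiv.refl F := by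
        intro h1
        apply hfixg k hk (by omega)
        rw [← hσ, h1]; rfl
      have hσ2 : ∀ a, σ (σ a) = a := by
        intro a
        rw [hσ, hσ, ← pow_mul, ← pow_add, ← two_mul, ← hek, ← hcard]
        exact FiniteField.pow_card a
      obtain ⟨G, hG, hdet⟩ := exists_invariant h σ (by
        intro c hc
        rw [hσ, ← pow_succ']
        have h1 := (hz3 c).2 hc
        obtain ⟨s, hs⟩ := hzk
        have h2 : c ^ (p ^ k + 1) = 1 := by rw [hs, pow_mul, h1, one_pow]
        have h3 := congrArg (fun u : Fˣ => (u : F)) h2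
        simpa using h3)
      obtain ⟨f, hf, hfix⟩ := exists_unitary hσ1 hσ2 h.absIrr hG hdet
      exact ⟨σ, f, hf, hfix⟩
    rcases h.prime.eq_two_or_odd' with h2 | hodd
    · subst h2
      have h4 : 2 * Nat.gcd 2 2 = 2 ^ 2 := by norm_num
      rw [h4] at hz1
      obtain ⟨k, hk, hke⟩ := (Nat.dvd_prime_pow Nat.prime_two).1 hz1
      have hpodd : p % 2 = 1 := by
        rcases hpp.eq_two_or_odd with h5 | h5
        · exact absurd h5.symm hrp
        · exact h5
      interval_cases k
      · rw [hke] at hz2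
        norm_num at hz2
      · -- z = 2
        right; right
        obtain ⟨G, hG, hdet⟩ := exists_invariant h (RingEquiv.refl F) (by
          intro c hc
          have h1 := (hz3 c).2 hc
          rw [hke, pow_one, sq] at h1
          exact congrArg (fun u : Fˣ => (u : F)) h1)
        rcases exists_quad_or_symp (by omega) h.absIrr hG hdet with h5 | h5
        · exact Or.inl h5
        · exact Or.inr (Or.inl h5)
      · -- z = 4
        by_cases he1 : e = 1
        · left
          refine ⟨⟨Nat.prime_two, isPGroup h, fun A hA hAc => cyclic_of_characteristic hH h A hA hAc, exponent_eq h⟩,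
            h.absIrr, p, e, hrp, hminF, Or.inr (Or.inl ⟨rfl, he1, by rw [← hz, hke]; norm_num, ?_, m, ?_⟩)⟩
          · rw [hm] at hn ⊢
            rcases m with _ | _ | m
            · norm_num at hn
            · norm_num at hn
            · have : 2 ^ 2 ≤ 2 ^ (m + 1 + 1) := Nat.pow_le_pow_right (by norm_num) (by omega)
              simpa using this
          · rw [hRm, hke]; ring
        · right; right; right; right
          have h5 := hmin 1 one_pos (by omega)
          rw [hke, pow_one] at h5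
          have h6 : p % 4 = 3 := by omega
          have he2 : e = 2 * 1 := by
            by_contra hne
            have h7 := hmin 2 (by norm_num) (by omega)
            apply h7
            rw [hke]
            obtain ⟨s, hs⟩ : ∃ s, p = 4 * s + 3 := ⟨p / 4, by omega⟩
            refine ⟨4 * s ^ 2 + 6 * s + 2, ?_⟩
            have : p ^ 2 = 16 * s ^ 2 + 24 * s + 9 := by rw [hs]; ring
            rw [this]; omega
          apply hunit 1 one_pos he2
          rw [hke, pow_one]
          omega
    · have hg : Nat.gcd 2 r = 1 := (Nat.coprime_two_left.2 hodd)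
      rw [hg, mul_one] at hz1
      have hzr : z = r := Nat.dvd_antisymm hz1 hz2
      rcases Nat.even_or_odd e with he2 | he2
      · right; right; right; right
        obtain ⟨k, hk⟩ := he2
        apply hunit k (by omega) (by omega)
        have h5 := hmin k (by omega) (by omega)
        have h6 : z ∣ (p ^ k - 1) * (p ^ k + 1) := by
          have h7 : (p ^ k - 1) * (p ^ k + 1) = p ^ e - 1 := by
            have h8 : 1 ≤ p ^ k := Nat.one_le_pow _ _ hpp.pos
            obtain ⟨s, hs⟩ := Nat.exists_eq_add_of_le h8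
            have h9 : p ^ e = (1 + s) * (1 + s) := by rw [hk, pow_add, hs]
            rw [h9, hs]
            have : (1 + s) * (1 + s) - 1 = s * (s + 2) := by
              have : (1 + s) * (1 + s) = s * (s + 2) + 1 := by ring
              rw [this, Nat.add_sub_cancel]
            rw [this, Nat.add_sub_cancel_left]
            ring
          rw [h7]; exact hzd
        have hzp : z.Prime := by rw [hzr]; exact h.prime
        rcases (Nat.Prime.dvd_mul hzp).1 h6 with h7 | h7
        · exact absurd h7 h5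
        · exact h7
      · left
        refine ⟨⟨h.prime, isPGroup h, fun A hA hAc => cyclic_of_characteristic hH h A hA hAc, exponent_eq h⟩,
          h.absIrr, p, e, hrp, hminF, Or.inl ⟨hodd, he2, hzr, m, ?_, ?_⟩⟩
        · by_contra hm0
          have : m = 0 := by omega
          rw [this, pow_zero] at hm
          omega
        · rw [hRm, hzr]; ring

end

end Cfsg.Agent.Lib.AschSympC
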