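import Cfsg.Agent.Lib.AschComp
import Cfsg.Agent.Lib.AschSympC

/-!
Aschbacher's theorem for the linear groups: every subgroup of `GL(ι, F)`, `|ι| ≥ 3`, lies in a member of one of the
eight classes, or is in the residual class.
-/

set_option autoImplicit false
set_option linter.unusedSectionVars false

namespace Cfsg.Agent.Lib.AschLinear

open Cfsg Cfsg.Geo Cfsg.Agent.Lib.AschMU Cfsg.Agent.Lib.AschCore Cfsg.Agent.Lib.AschField Cfsg.Agent.Lib.AschAlg
  Cfsg.Agent.Lib.AschDescent Cfsg.Agent.Lib.AschForm Cfsg.Agent.Lib.AschGroup Cfsg.Agent.Lib.AschGood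
  Cfsg.Agent.Lib.AschNonab Cfsg.Agent.Lib.AschTensor Cfsg.Agent.Lib.AschComp Cfsg.Agent.Lib.AschSymp
  Cfsg.Agent.Lib.AschForm2
open scoped Matrix MatrixGroups Kronecker commutatorElement

variable {ι : Type} [Fintype ι] [DecidableEq ι] {F : Type*} [Field F]

theorem mem_subspaceStabilizer {W : Submodule F (ι → F)} {g : GL ι F} :
    g ∈ subspaceStabilizer W ↔ ∀ v, v ∈ W ↔ (g : Matrix ι ι F) *ᵥ v ∈ W := Iff.rfl

theorem le_subspaceStabilizer {W : Submodule F (ι → F)} {H : Subgroup (GL ι F)}
    (h : ∀ s ∈ matrixSet H, W.map (Matrix.toLin' s) ≤ W) : H ≤ subspaceStabilizer W := by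
  have key : ∀ g ∈ H, ∀ v ∈ W, (g : Matrix ι ι F) *ᵥ v ∈ W := by
    intro g hg v hv
    apply h _ ⟨g, hg, rfl⟩
    exact ⟨v, hv, Matrix.toLin'_apply _ _⟩
  intro g hg
  rw [mem_subspaceStabilizer]
  intro v
  refine ⟨key g hg v, fun hv => ?_⟩
  have h1 := key g⁻¹ (H.inv_mem hg) _ hv
  rwa [Matrix.mulVec_mulVec, gl_inv_mul, Matrix.one_mulVec] at h1

theorem odd_card [Fintype F] (h : (2 : F) ≠ 0) : Odd (Fintype.card F) := by
  rw [← Nat.not_even_iff_odd]
  intro he
  have h1 : ringChar F = 2 := (FiniteField.even_card_iff_char_two).2 (Nat.even_iff.1 he)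
  apply h
  have h2 : ((ringChar F : ℕ) : F) = 0 := ringChar.Nat.cast_ringChar
  rw [h1] at h2
  exact_mod_cast h2

/-- The conclusion of Aschbacher's theorem in the linear case. -/
inductive LinCase [Fintype F] (H : Subgroup (GL ι F)) : Prop
  | reducible (W : Submodule F (ι → F)) (hb : W ≠ ⊥) (ht : W ≠ ⊤) (h : H ≤ subspaceStabilizer W)
  | imprimitive (t m : ℕ) (D : Fin t → Submodule F (ι → F)) (hD : IsMDecomposition m D) (h : H ≤ decompositionStabilizer D)
  | field (r : ℕ) (K : Subalgebra F (Matrix ι ι F)) (hr : r.Prime) (hrn : r ∣ Fintype.card ι) (hK : IsFieldSubalgebra r K)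
      (h : H ≤ subalgebraNormalizer K)
  | tensor (n₁ n₂ : ℕ) (e : ι ≃ Fin n₁ × Fin n₂) (P : GL ι F) (h1 : 2 ≤ n₁) (h2 : n₁ < n₂)
      (h : H ≤ tensorProductSubgroup n₁ n₂ e P)
  | subfield (F₀ : Subfield F) (r : ℕ) (P : GL ι F) (hr : r.Prime) (hc : Fintype.card F = Nat.card F₀ ^ r)
      (h : H ≤ subfieldSubgroup F₀ P)
  | symplecticType (r m : ℕ) (R : Subgroup (GL ι F)) (hm : Fintype.card ι = r ^ m) (hR : IsLinearSymplecticTypeData r R)
      (h : H ≤ subgroupNormalizer R)
  | tensorWreath (m t : ℕ) (e : ι ≃ (Fin t → Fin m)) (P : GL ι F) (hm : 3 ≤ m) (ht : 2 ≤ t)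
      (h : H ≤ tensorWreathSubgroup m t e P)
  | symplectic (f : (ι → F) → (ι → F) → F) (hf : IsSymplecticForm f) (h : H ≤ similarityGroup f)
  | unitary (σ : F ≃+* F) (f : (ι → F) → (ι → F) → F) (hf : IsUnitaryForm σ f) (h : H ≤ similarityGroup f)
  | quadratic (Q : (ι → F) → F) (hQ : IsNondegenerateQuadraticForm Q) (hodd : Odd (Fintype.card F))
      (h : H ≤ quadSimilarityGroup Q)
  | residual (h : InLinearResidualClass H)

/-- Realisability over a proper subfield gives class 5. -/
theorem LinCase.of_realisable [Fintype F] [Nonempty ι] {H X : Subgroup (GL ι F)} (hX : ActsAbsolutelyIrreducibly (matrixSet X))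
    (hn : NormBy H X) {F₀ : Subfield F} (hF₀ : F₀ ≠ ⊤) (h : RealisableOver F₀ (matrixSet X)) : LinCase H := by
  obtain ⟨B, hB⟩ := h
  obtain ⟨F₁, r, hle, -, hr, hc, -⟩ := exists_prime_index hF₀
  rw [Nat.card_eq_fintype_card (α := F)] at hc
  exact LinCase.subfield F₁ r B⁻¹ hr hc (AschDescent.le_subfieldSubgroup hX hn (fun s hs i j => hle (hB s hs i j)))

theorem LinCase.of_quad [Fintype F] {H X : Subgroup (GL ι F)} (hX : ActsAbsolutelyIrreducibly (matrixSet X))
    (hn : NormBy H X) (h2 : (2 : F) ≠ 0) {Q : (ι → F) → F} (hQ : IsNondegenerateQuadraticForm Q)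
    (hfix : FixesQuadForm (matrixSet X) Q) : LinCase H :=
  LinCase.quadratic Q hQ (odd_card h2) (AschForms.le_quadSimilarity hX hQ hfix hn)

theorem LinCase.of_symp [Fintype F] {H X : Subgroup (GL ι F)} (hX : ActsAbsolutelyIrreducibly (matrixSet X))
    (hn : NormBy H X) {f : (ι → F) → (ι → F) → F} (hf : IsSymplecticForm f)
    (hfix : FixesForm (matrixSet X) f) : LinCase H :=
  LinCase.symplectic f hf (AschForms.le_similarity_bilinear hX hf.bilinear hf.nondegenerate hfix hn)

theorem LinCase.of_unitary [Fintype F] {H X : Subgroup (GL ι F)} (hX : ActsAbsolutelyIrreducibly (matrixSet X))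
    (hn : NormBy H X) {σ : F ≃+* F} {f : (ι → F) → (ι → F) → F} (hf : IsUnitaryForm σ f)
    (hfix : FixesForm (matrixSet X) f) : LinCase H :=
  LinCase.unitary σ f hf (AschForms.le_similarity_unitary hX hf hfix hn)

theorem LinCase.of_gram [Fintype F] [Nonempty ι] {H X : Subgroup (GL ι F)} (hX : ActsAbsolutelyIrreducibly (matrixSet X))
    (hn : NormBy H X) (hι : 2 ≤ Fintype.card ι) {G : Matrix ι ι F} (hG : Inv (RingHom.id F) X G) (hdet : G.det ≠ 0) :
    LinCase H := by
  rcases exists_quad_or_symp hι hX hG hdet with ⟨h2, Q, hQ, hfix⟩ | ⟨f, hf, hfix⟩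
  · exact LinCase.of_quad hX hn h2 hQ hfix
  · exact LinCase.of_symp hX hn hf hfix

/-- A quadratic form in characteristic two gives a symplectic form. -/
theorem symp_of_quad_char_two {Q : (ι → F) → F} (hQ : IsNondegenerateQuadraticForm Q) (h2 : (2 : F) = 0) :
    IsSymplecticForm (QuadraticMap.polar Q) := by
  have hneg1 : ∀ a : F, -a = a := fun a => by linear_combination (-a) * h2
  refine ⟨hQ.polar_bilinear, ?_, ?_, hQ.nondegenerate⟩
  · intro v w
    rw [hneg1]
    simp only [QuadraticMap.polar]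
    rw [add_comm v w]; ring
  · intro v
    simp only [QuadraticMap.polar]
    have h3 : v + v = (2 : F) • v := by rw [two_smul]
    have h4 : Q (v + v) = 0 := by
      rw [h3, h2, hQ.smul]; ring
    rw [h4]
    linear_combination (-Q v) * h2

theorem fixes_polar {X : Subgroup (GL ι F)} {Q : (ι → F) → F} (h : FixesQuadForm (matrixSet X) Q) :
    FixesForm (matrixSet X) (QuadraticMap.polar Q) := by
  intro s hs u v
  simp only [QuadraticMap.polar]
  rw [← Matrix.mulVec_add, h s hs, h s hs, h s hs]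

/-- The tensor decomposition with two equal factors, as a tensor-power decomposition. -/
theorem tensorProduct_le_tensorWreath {d : ℕ} (σ : ι ≃ Fin d × Fin d) (P : GL ι F) :
    tensorProductSubgroup d d σ P ≤ tensorWreathSubgroup d 2 (σ.trans (finTwoArrowEquiv (Fin d)).symm) P := by
  intro g hg
  obtain ⟨a, b, hab⟩ := mem_tensorProductSubgroup.1 hg
  rw [mem_tensorWreathSubgroup]
  refine ⟨tpU ![a, b], Subgroup.subset_closure (Or.inl (isPureTensor_tpU _)), ?_⟩
  rw [hab, psi_apply]
  congr 2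
  ext i j
  simp [kronL, tpU, tp, Fin.prod_univ_two, finTwoArrowEquiv]

/-- The form on the tensor product of two two-dimensional spaces. -/
theorem tensorProduct_two_form {σ : ι ≃ Fin 2 × Fin 2} {P : GL ι F} {H : Subgroup (GL ι F)}
    (h : H ≤ tensorProductSubgroup 2 2 σ P) : ∃ G : Matrix ι ι F, G.det ≠ 0 ∧ Gᵀ = G ∧
      (∀ g ∈ H, ∃ c : Fˣ, (g : Matrix ι ι F)ᵀ * G * (g : Matrix ι ι F) = (c : F) • G) ∧
      (∀ v : ι → F, (2 : F) = 0 → v ⬝ᵥ (G *ᵥ v) = 0) := by
  set J : Matrix (Fin 2) (Fin 2) F := !![0, 1; -1, 0] with hJ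
  have hJm : ∀ m : Matrix (Fin 2) (Fin 2) F, mᵀ * J * m = m.det • J := by
    intro m
    ext i j
    fin_cases i <;> fin_cases j <;>
      simp [hJ, Matrix.mul_apply, Fin.sum_univ_two, Matrix.det_fin_two] <;> ring
  set K : Matrix (Fin 2 × Fin 2) (Fin 2 × Fin 2) F := J ⊗ₖ J with hK
  have hKdet : K.det ≠ 0 := by
    rw [hK, Matrix.det_kronecker]
    have : J.det = 1 := by rw [hJ]; simp [Matrix.det_fin_two]
    rw [this]; simp
  have hsm : ∀ {κ : Type} (y : Matrix κ κ F), y.map (RingHom.id F) = y := fun y => by ext; rfl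
  refine ⟨gramT (RingHom.id F) σ P K, gramT_det _ _ _ _ hKdet, ?_, ?_, ?_⟩
  · have hKT : Kᵀ = K := by
      ext ⟨a, b⟩ ⟨c, e⟩
      fin_cases a <;> fin_cases b <;> fin_cases c <;> fin_cases e <;> simp [hK, hJ]
    rw [gramT]
    simp only [sm, hsm]
    rw [Matrix.transpose_mul, Matrix.transpose_mul, Matrix.transpose_transpose, Matrix.transpose_reindex, hKT, mul_assoc]
  · intro g hg
    obtain ⟨a, b, hab⟩ := mem_tensorProductSubgroup.1 (h hg)
    have h1 := gramT_psi (RingHom.id F) σ P K ((a : Matrix (Fin 2) (Fin 2) F) ⊗ₖ (b : Matrix (Fin 2) (Fin 2) F))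
    have h2 : psi σ P ((a : Matrix (Fin 2) (Fin 2) F) ⊗ₖ (b : Matrix (Fin 2) (Fin 2) F)) = (g : Matrix ι ι F) := by
      rw [hab]; rfl
    simp only [sm, hsm] at h1
    rw [h2] at h1
    have h3 : ((a : Matrix (Fin 2) (Fin 2) F) ⊗ₖ (b : Matrix (Fin 2) (Fin 2) F))ᵀ * K *
        ((a : Matrix (Fin 2) (Fin 2) F) ⊗ₖ (b : Matrix (Fin 2) (Fin 2) F)) =
        ((a : Matrix (Fin 2) (Fin 2) F).det * (b : Matrix (Fin 2) (Fin 2) F).det) • K := by
      rw [hK, ← Matrix.kroneckerMap_transpose, ← Matrix.mul_kronecker_mul, ← Matrix.mul_kronecker_mul, hJm, hJm,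
        Matrix.smul_kronecker, Matrix.kronecker_smul, smul_smul]
    rw [h3] at h1
    refine ⟨Matrix.GeneralLinearGroup.det a * Matrix.GeneralLinearGroup.det b, ?_⟩
    rw [h1]
    simp only [gramT, Units.val_mul, Matrix.GeneralLinearGroup.val_det_apply]
    ext i j
    have h4 : Matrix.reindex σ.symm σ.symm (((a : Matrix (Fin 2) (Fin 2) F).det * (b : Matrix (Fin 2) (Fin 2) F).det) • K) =
        ((a : Matrix (Fin 2) (Fin 2) F).det * (b : Matrix (Fin 2) (Fin 2) F).det) • Matrix.reindex σ.symm σ.symm K := rfl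
    rw [h4, Matrix.mul_smul, Matrix.smul_mul]
  · intro v h2
    simp only [gramT, sm, hsm]
    have h3 : ∀ w : Fin 2 × Fin 2 → F, w ⬝ᵥ (K *ᵥ w) = 0 := by
      intro w
      simp [hK, hJ, dotProduct, Matrix.mulVec, Fintype.sum_prod_type, Fin.sum_univ_two]
      linear_combination (w (0, 0) * w (1, 1) - w (0, 1) * w (1, 0)) * h2
    rw [Matrix.mul_assoc, ← Matrix.mulVec_mulVec, Matrix.dotProduct_mulVec, ← Matrix.mulVec_transpose, Matrix.transpose_transpose,
      ← Matrix.mulVec_mulVec]
    set u := ((P⁻¹ : GL ι F) : Matrix ι ι F) *ᵥ v with hu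
    have h4 := h3 (u ∘ σ.symm)
    rw [← h4]
    simp only [dotProduct, Matrix.mulVec, Matrix.reindex_apply, Matrix.submatrix_apply, Equiv.symm_symm, Function.comp]
    rw [← Equiv.sum_comp σ.symm]
    refine Finset.sum_congr rfl fun i _ => ?_
    rw [← Equiv.sum_comp σ.symm]
    simp

/-- **Aschbacher's theorem, linear case.** -/
theorem linCase [Fintype F] (hι : 3 ≤ Fintype.card ι) (H : Subgroup (GL ι F)) : LinCase H := by
  classical
  have hne : Nonempty ι := Fintype.card_pos_iff.1 (by omega)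
  have hfinM : Finite (Matrix ι ι F) := inferInstanceAs (Finite (ι → ι → F))
  have hfinGL : Finite (GL ι F) := inferInstance
  by_cases hirr : ActsIrreducibly (matrixSet H)
  swap
  · unfold ActsIrreducibly at hirr
    push Not at hirr
    obtain ⟨W, hW, hb, ht⟩ := hirr
    exact LinCase.reducible W hb ht (le_subspaceStabilizer hW)
  rcases cases_of_irr hirr with ⟨t, m, e, he, hD, hp⟩ | ⟨r, K, hr, hrn, hK, hle⟩ | ⟨d, e, σ, P, hd, he, hle⟩ | hgood
  · exact LinCase.imprimitive t m _ hD (IsIdemFamily.le_decompositionStabilizer hp)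
  · exact LinCase.field r K hr hrn hK hle
  · rcases lt_trichotomy d e with h | h | h
    · exact LinCase.tensor d e σ P hd h hle
    · subst h
      rcases Nat.lt_or_ge 2 d with h3 | h3
      · exact LinCase.tensorWreath d 2 _ P h3 le_rfl (hle.trans (tensorProduct_le_tensorWreath σ P))
      · have : d = 2 := by omega
        subst this
        obtain ⟨G, hdet, hGT, hsim, halt⟩ := tensorProduct_two_form hle
        have hnd : IsNondegenerateForm (formOfGram (RingHom.id F) G) :=
          (isNondegenerateForm_iff (σ := RingEquiv.refl F)).2 hdet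
        have hs := isSesq_formOfGram (RingHom.id F) G
        have hB : IsBilinearForm (formOfGram (RingHom.id F) G) := ⟨hs.add_left, hs.smul_left, hs.add_right, hs.smul_right⟩
        have hsymm : ∀ u v, formOfGram (RingHom.id F) G u v = formOfGram (RingHom.id F) G v u := by
          intro u v
          conv_rhs => rw [← hGT]
          simp only [formOfGram, Matrix.transpose_apply, RingHom.id_apply]
          rw [Finset.sum_comm]
          refine Finset.sum_congr rfl fun a _ => Finset.sum_congr rfl fun b _ => by ring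
        have hsim' : ∀ g ∈ H, ∃ c : Fˣ, ∀ u v, formOfGram (RingHom.id F) G ((g : Matrix ι ι F) *ᵥ u) ((g : Matrix ι ι F) *ᵥ v) =
            (c : F) * formOfGram (RingHom.id F) G u v := by
          intro g hg
          obtain ⟨c, hc⟩ := hsim g hg
          refine ⟨c, (isSim_iff (RingHom.id F) G (g : Matrix ι ι F) c).2 ?_⟩
          have : sm (RingHom.id F) (g : Matrix ι ι F) = g := by ext; rfl
          rw [this]; exact hc
        set f := formOfGram (RingHom.id F) G with hf
        by_cases h2 : (2 : F) = 0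
        · have hneg1 : ∀ a : F, -a = a := fun a => by linear_combination (-a) * h2
          refine LinCase.symplectic f ⟨hB, fun v w => by rw [hneg1, hsymm], ?_, hnd⟩ hsim'
          intro v
          rw [hf, formOfGram_apply]
          exact halt v h2
        · have hpol : QuadraticMap.polar (fun v => (2 : F)⁻¹ * f v v) = f := by
            funext u v
            simp only [QuadraticMap.polar]
            rw [hB.add_left, hB.add_right, hB.add_right, hsymm v u]
            field_simp
            ring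
          refine LinCase.quadratic (fun v => (2 : F)⁻¹ * f v v) ⟨?_, by rw [hpol]; exact hB, by rw [hpol]; exact hnd⟩
            (odd_card h2) ?_
          · intro c v
            rw [hB.smul_left, hB.smul_right]; ring
          · intro g hg
            obtain ⟨c, hc⟩ := hsim' g hg
            refine ⟨c, fun v => ?_⟩
            show (2 : F)⁻¹ * f ((g : Matrix ι ι F) *ᵥ v) ((g : Matrix ι ι F) *ᵥ v) = c * ((2 : F)⁻¹ * f v v)
            rw [hc]; ring
    · rw [tensorProductSubgroup_swap] at hle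
      exact LinCase.tensor e d _ P he h hle
  · -- good groups
    have hnorm : NormBy H (H ⊔ scalars ι F) :=
      (normBy_self H).sup (normBy_of_central scalars_le_center)
    have hns : H ⊔ scalars ι F ≠ scalars ι F := by
      intro h
      have hle : H ≤ scalars ι F := by rw [← h]; exact le_sup_left
      -- irreducible scalar groups only in dimension one
      obtain ⟨i, j, hij⟩ := Fintype.one_lt_card_iff.1 (show 1 < Fintype.card ι by omega)
      rcases hirr (Submodule.span F {(Pi.single i 1 : ι → F)}) (by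
        rintro _ ⟨g, hg, rfl⟩ _ ⟨v, hv, rfl⟩
        obtain ⟨c, hc⟩ := (mem_scalars_iff g).1 (hle hg)
        show Matrix.toLin' (g : Matrix ι ι F) v ∈ _
        rw [Matrix.toLin'_apply, hc, Matrix.smul_mulVec, Matrix.one_mulVec]
        exact Submodule.smul_mem _ _ hv) with h1 | h1
      · rw [Submodule.span_singleton_eq_bot] at h1
        have := congrFun h1 i
        simp at this
      · have h2 : (Pi.single j 1 : ι → F) ∈ Submodule.span F {(Pi.single i 1 : ι → F)} := by rw [h1]; trivial
        rw [Submodule.mem_span_singleton] at h2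
        obtain ⟨a, ha⟩ := h2
        have := congrFun ha j
        simp [hij.symm] at this
    obtain ⟨N, hNle, hN⟩ := exists_isMinOver (H := H) (K := H ⊔ scalars ι F) le_sup_right hns hnorm
    by_cases hab : ⁅N, N⁆ ≤ scalars ι F
    · obtain ⟨R, r, hR, -, -⟩ := exists_sympData hgood hN hab
      rcases AschSympC.cases hgood hR hι with h | ⟨F₀, hF₀, h⟩ | ⟨h2, Q, hQ, hfix⟩ | ⟨f, hf, hfix⟩ | ⟨σ, f, hf, hfix⟩
      · obtain ⟨m, hm, -⟩ := AschSympC.card_pow hR
        refine LinCase.symplecticType r m R hm h ?_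
        intro g hg
        rw [subgroupNormalizer, Subgroup.mem_normalizer_iff]
        intro x
        refine ⟨hR.norm g hg x, fun hx => ?_⟩
        have h1 := hR.norm g⁻¹ (H.inv_mem hg) _ hx
        have h2 : g⁻¹ * (g * x * g⁻¹) * g⁻¹⁻¹ = x := by group
        rwa [h2] at h1
      · exact LinCase.of_realisable hR.absIrr hR.norm hF₀ h
      · exact LinCase.of_quad hR.absIrr hR.norm h2 hQ hfix
      · exact LinCase.of_symp hR.absIrr hR.norm hf hfix
      · exact LinCase.of_unitary hR.absIrr hR.norm hf hfix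
    · rcases nonab_cases hgood hNle hN hab with ⟨P, hP⟩ | ⟨t, P, hP⟩
      · by_cases hre : ∃ F₀ : Subfield F, F₀ ≠ ⊤ ∧ RealisableOver F₀ (matrixSet P)
        · obtain ⟨F₀, hF₀, h⟩ := hre
          exact LinCase.of_realisable hP.absIrred hP.normal hF₀ h
        push Not at hre
        by_cases hq : ∃ Q : (ι → F) → F, IsNondegenerateQuadraticForm Q ∧ FixesQuadForm (matrixSet P) Q
        · obtain ⟨Q, hQ, hfix⟩ := hq
          by_cases h2 : (2 : F) = 0
          · exact LinCase.of_symp hP.absIrred hP.normal (symp_of_quad_char_two hQ h2) (fixes_polar hfix)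
          · exact LinCase.of_quad hP.absIrred hP.normal h2 hQ hfix
        by_cases hs : ∃ f : (ι → F) → (ι → F) → F, IsSymplecticForm f ∧ FixesForm (matrixSet P) f
        · obtain ⟨f, hf, hfix⟩ := hs
          exact LinCase.of_symp hP.absIrred hP.normal hf hfix
        by_cases hu : ∃ (σ : F ≃+* F) (f : (ι → F) → (ι → F) → F), IsUnitaryForm σ f ∧ FixesForm (matrixSet P) f
        · obtain ⟨σ, f, hf, hfix⟩ := hu
          exact LinCase.of_unitary hP.absIrred hP.normal hf hfix
        exact LinCase.residual ⟨P, hP.isResidualCore hre, hq, hs, hu⟩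
      · rcases AschComp.cases_linear hP with ⟨m, t, e, B, hm, ht, hle⟩ | ⟨G, hG, hdet⟩
        · exact LinCase.tensorWreath m t e B hm ht hle
        · exact LinCase.of_gram hP.absIrred (normBy_iSup_comp hP) (by omega) hG hdet

end Cfsg.Agent.Lib.AschLinear
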