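import Cfsg.Agent.Lib.AschAdj9
import Cfsg.Agent.Lib.AschLinear
import Cfsg.Agent.Lib.HermClass
set_option autoImplicit false
set_option linter.style.haveILetI false
set_option linter.unusedVariables false
set_option linter.unusedSectionVars false

/-!
Aschbacher's theorem, unitary case: the tensor decompositions.
-/

namespace Cfsg.Agent.Lib.AschAdj

open Cfsg Cfsg.Geo Cfsg.Agent.Lib.AschMU Cfsg.Agent.Lib.AschCore Cfsg.Agent.Lib.AschField Cfsg.Agent.Lib.AschAlg
  Cfsg.Agent.Lib.AschGroup Cfsg.Agent.Lib.AschGood Cfsg.Agent.Lib.AschNonab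
open scoped Matrix MatrixGroups Kronecker

section orth
variable {F : Type*} [Field F] {σ : F ≃+* F}

/-- Orthonormal bases for hermitian matrices. -/
lemma exists_orth [Finite F] {d : ℕ} {G : Matrix (Fin d) (Fin d) F} (h : RF σ 1 G) (hne : σ ≠ RingEquiv.refl F) :
    ∃ C : GL (Fin d) F, gr σ G C = 1 := by
  have h2 := orderOf_sigma h.inv hne
  obtain ⟨g, hg⟩ := h.unit
  obtain ⟨x, hx⟩ := HermClass.hermitian_eq (σ := σ) h2 g (by
    rw [hg]
    have := h.refl
    rw [one_smul] at this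
    rw [← Matrix.transpose_map]
    exact this.symm)
  rw [hg] at hx
  refine ⟨⟨(x⁻¹).1ᵀ, x.1ᵀ, ?_, ?_⟩, ?_⟩
  · rw [← Matrix.transpose_mul, ← Units.val_mul, mul_inv_cancel]; simp
  · rw [← Matrix.transpose_mul, ← Units.val_mul, inv_mul_cancel]; simp
  · show ((x⁻¹).1ᵀ)ᵀ * G * ((x⁻¹).1ᵀ).map σ = 1
    rw [hx, Matrix.transpose_transpose]
    have h3 : (x.1.map σ)ᵀ * ((x⁻¹).1ᵀ).map σ = 1 := by
      rw [← Matrix.transpose_map, ← map_mul', ← Matrix.transpose_mul, ← Units.val_mul, inv_mul_cancel, Units.val_one,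
        Matrix.transpose_one, map_one']
    calc (x⁻¹).1 * (x.1 * (x.1.map σ)ᵀ) * ((x⁻¹).1ᵀ).map σ = ((x⁻¹).1 * x.1) * ((x.1.map σ)ᵀ * ((x⁻¹).1ᵀ).map σ) := by
          simp only [mul_assoc]
      _ = 1 := by rw [h3, ← Units.val_mul, inv_mul_cancel, Units.val_one, one_mul]

end orth

section tens
variable {ι : Type} [Fintype ι] [DecidableEq ι] {F : Type*} [Field F]
variable {σ : F ≃+* F} {G : Matrix ι ι F}

/-- The tensor factors of a hermitian form can be taken hermitian. -/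
theorem tensor_herm (h : RF σ 1 G) (hne : σ ≠ RingEquiv.refl F) {A : Subalgebra F (Matrix ι ι F)} (hA : AdjClosed σ G A) {d e : ℕ}
    (hd : d ≠ 0) (he : e ≠ 0) (φ : Matrix (Fin d) (Fin d) F ≃ₐ[F] A) (ρ : ι ≃ Fin d × Fin e) (P : GL ι F)
    (hP : ∀ x, (φ x : Matrix ι ι F) = (P : Matrix ι ι F) * kronL ρ x 1 * ((P⁻¹ : GL ι F) : Matrix ι ι F)) :
    ∃ (G₁ : Matrix (Fin d) (Fin d) F) (G₂ : Matrix (Fin e) (Fin e) F), gr σ G P = kronL ρ G₁ G₂ ∧ RF σ 1 G₁ ∧ RF σ 1 G₂ := by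
  obtain ⟨G₁, G₂, hG, h1, h2⟩ := tensor_gram h hA hd he φ ρ P hP
  have hrf := (h.gr P).refl
  rw [hG, transpose_kronL, map_kronL, one_smul] at hrf
  obtain ⟨c, hc, e1, e2⟩ := kronL_eq hd he ρ h1 h2 hrf.symm
  -- e1 : G₁ᵀ.map σ = c • G₁
  have h3 : σ c * c = 1 := by
    have h4 : (G₁ᵀ.map σ)ᵀ.map σ = G₁ := by ext i j; simp [h.inv]
    rw [e1, Matrix.transpose_smul, map_smul'', e1, smul_smul] at h4
    obtain ⟨i, j, hij⟩ : ∃ i j, G₁ i j ≠ 0 := by
      by_contra hcon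
      push Not at hcon
      have h00 : G₁ = 0 := by ext i j; exact hcon i j
      haveI : Nonempty (Fin d) := ⟨⟨0, Nat.pos_of_ne_zero hd⟩⟩
      rw [h00, Matrix.isUnit_iff_isUnit_det, Matrix.det_zero] at h1
      exact not_isUnit_zero h1
    have h5 := congrArg (fun M : Matrix (Fin d) (Fin d) F => M i j) h4
    simp only [Matrix.smul_apply, smul_eq_mul] at h5
    exact mul_right_cancel₀ hij (by rw [h5, one_mul])
  obtain ⟨m, hm, hcm⟩ := hilbert90_scalar h.inv hne (by rw [mul_comm]; exact h3)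
  -- c σ(m) = m ; G₁' = m • G₁ has G₁'ᵀ.map σ = σ(m) c G₁ = m G₁
  have r1 : RF σ 1 (m • G₁) := by
    refine ⟨h.inv, ?_, ?_, Or.inl rfl⟩
    · have := h1.smul (Units.mk0 m hm)
      exact this
    · rw [Matrix.transpose_smul, map_smul'', e1, smul_smul, one_smul, mul_comm, hcm]
  have r2 : RF σ 1 (m⁻¹ • G₂) := by
    refine ⟨h.inv, ?_, ?_, Or.inl rfl⟩
    · have := h2.smul (Units.mk0 m⁻¹ (inv_ne_zero hm))
      exact this
    · rw [Matrix.transpose_smul, map_smul'', e2, smul_smul, one_smul]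
      congr 1
      rw [map_inv₀, ← mul_inv, mul_comm, hcm]
  refine ⟨m • G₁, m⁻¹ • G₂, ?_, r1, r2⟩
  rw [hG, smul_kronL, kronL_smul, smul_smul, mul_inv_cancel₀ hm, one_smul]

lemma gr_mul (P Q : GL ι F) : gr σ G (P * Q) = gr σ (gr σ G P) Q := by
  unfold gr
  rw [Units.val_mul, Matrix.transpose_mul, map_mul']
  simp only [mul_assoc]

/-- Kronecker products of invertible matrices. -/
def kronU {d e : ℕ} (ρ : ι ≃ Fin d × Fin e) (a : GL (Fin d) F) (b : GL (Fin e) F) : GL ι F where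
  val := kronL ρ a b
  inv := kronL ρ ((a⁻¹ : GL (Fin d) F) : Matrix (Fin d) (Fin d) F) ((b⁻¹ : GL (Fin e) F) : Matrix (Fin e) (Fin e) F)
  val_inv := by rw [kronL_mul, ← Units.val_mul, ← Units.val_mul, mul_inv_cancel, mul_inv_cancel, Units.val_one, Units.val_one, kronL_one]
  inv_val := by rw [kronL_mul, ← Units.val_mul, ← Units.val_mul, inv_mul_cancel, inv_mul_cancel, Units.val_one, Units.val_one, kronL_one]

lemma kronU_val {d e : ℕ} (ρ : ι ≃ Fin d × Fin e) (a : GL (Fin d) F) (b : GL (Fin e) F) :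
    ((kronU ρ a b : GL ι F) : Matrix ι ι F) = kronL ρ a b := rfl

lemma kronU_inv {d e : ℕ} (ρ : ι ≃ Fin d × Fin e) (a : GL (Fin d) F) (b : GL (Fin e) F) :
    (kronU ρ a b)⁻¹ = kronU ρ a⁻¹ b⁻¹ := rfl

lemma kronU_mul {d e : ℕ} (ρ : ι ≃ Fin d × Fin e) (a a' : GL (Fin d) F) (b b' : GL (Fin e) F) :
    kronU ρ a b * kronU ρ a' b' = kronU ρ (a * a') (b * b') := by
  ext1
  rw [Units.val_mul, kronU_val, kronU_val, kronL_mul]
  rfl

lemma mem_tps {d e : ℕ} {ρ : ι ≃ Fin d × Fin e} {P g : GL ι F} :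
    g ∈ tensorProductSubgroup d e ρ P ↔ ∃ (a : GL (Fin d) F) (b : GL (Fin e) F), g = P * kronU ρ a b * P⁻¹ := by
  rw [mem_tensorProductSubgroup]
  constructor
  · rintro ⟨a, b, h⟩
    exact ⟨a, b, Units.ext h⟩
  · rintro ⟨a, b, h⟩
    exact ⟨a, b, by rw [h]; rfl⟩

lemma tps_kronU {d e : ℕ} {ρ : ι ≃ Fin d × Fin e} {P : GL ι F} (a : GL (Fin d) F) (b : GL (Fin e) F) :
    tensorProductSubgroup d e ρ P ≤ tensorProductSubgroup d e ρ (P * kronU ρ a b) := by
  intro g hg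
  rw [mem_tps] at hg ⊢
  obtain ⟨x, y, rfl⟩ := hg
  refine ⟨a⁻¹ * x * a, b⁻¹ * y * b, ?_⟩
  rw [← kronU_mul, ← kronU_mul, ← kronU_inv]
  group

lemma kronL_swap {d e : ℕ} (ρ : ι ≃ Fin d × Fin e) (a : Matrix (Fin d) (Fin d) F) (b : Matrix (Fin e) (Fin e) F) :
    kronL ρ a b = kronL (ρ.trans (Equiv.prodComm _ _)) b a := by
  ext i j
  simp [kronL, mul_comm]

/-- Index two subfields from tensor products of two-dimensional spaces. -/
theorem rat2_of_tensor [Finite F] (hinv : ∀ a, σ (σ a) = a) (hne : σ ≠ RingEquiv.refl F) {ρ : ι ≃ Fin 2 × Fin 2} {P : GL ι F}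
    {H : Subgroup (GL ι F)} (hle : H ≤ tensorProductSubgroup 2 2 ρ P) (hI : ∀ g ∈ H, IsIso σ 1 g)
    {G₁ G₂ : Matrix (Fin 2) (Fin 2) F} (hG : gr σ (1 : Matrix ι ι F) P = kronL ρ G₁ G₂) (h1 : RF σ 1 G₁) (h2 : RF σ 1 G₂) :
    Rat2 σ (1 : Matrix ι ι F) H := by
  haveI : Nonempty ι := ⟨ρ.symm (0, 0)⟩
  set J : Matrix (Fin 2) (Fin 2) F := !![0, 1; -1, 0] with hJ
  have hJm : ∀ m : Matrix (Fin 2) (Fin 2) F, mᵀ * J * m = m.det • J := by
    intro m
    ext i j
    fin_cases i <;> fin_cases j <;>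
      simp [hJ, Matrix.mul_apply, Fin.sum_univ_two, Matrix.det_fin_two] <;> ring
  have hJJ : J * J = -1 := by
    ext i j
    fin_cases i <;> fin_cases j <;> simp [hJ, Matrix.mul_apply, Fin.sum_univ_two]
  have hJT : Jᵀ = -J := by
    ext i j
    fin_cases i <;> fin_cases j <;> simp [hJ]
  have hJσ : J.map σ = J := by
    ext i j
    fin_cases i <;> fin_cases j <;> simp [hJ]
  have hJinv : ∀ m : Matrix (Fin 2) (Fin 2) F, IsUnit m → J * m⁻¹ * J = (-(m.det)⁻¹) • mᵀ := by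
    intro m hm
    have hdet : IsUnit m.det := (Matrix.isUnit_iff_isUnit_det m).1 hm
    have h3 : J * m⁻¹ = (m.det)⁻¹ • (mᵀ * J) := by
      calc J * m⁻¹ = (m.det)⁻¹ • (m.det • J) * m⁻¹ := by rw [smul_smul, inv_mul_cancel₀ hdet.ne_zero, one_smul]
        _ = (m.det)⁻¹ • (mᵀ * J * m) * m⁻¹ := by rw [hJm]
        _ = (m.det)⁻¹ • (mᵀ * J * (m * m⁻¹)) := by rw [Matrix.smul_mul]; simp only [mul_assoc]
        _ = _ := by rw [Matrix.mul_nonsing_inv _ hdet, mul_one]
    rw [h3, Matrix.smul_mul, mul_assoc, hJJ, mul_neg, mul_one, smul_neg, neg_smul]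
  set Pi : Matrix ι ι F := ((P⁻¹ : GL ι F) : Matrix ι ι F) with hPi
  have hPPi : (P : Matrix ι ι F) * Pi = 1 := by rw [hPi, ← Units.val_mul, mul_inv_cancel, Units.val_one]
  have hPiP : Pi * (P : Matrix ι ι F) = 1 := by rw [hPi, ← Units.val_mul, inv_mul_cancel, Units.val_one]
  set B : Matrix ι ι F := Piᵀ * kronL ρ J J * Pi with hB
  have hJu : IsUnit J := by
    rw [Matrix.isUnit_iff_isUnit_det]
    simp [hJ, Matrix.det_fin_two]
  have hkk : kronL ρ J J * kronL ρ J J = 1 := by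
    rw [kronL_mul, hJJ]
    have : kronL ρ (-1 : Matrix (Fin 2) (Fin 2) F) (-1 : Matrix (Fin 2) (Fin 2) F) = kronL ρ 1 1 := by
      ext i j
      simp only [kronL, Matrix.reindex_apply, Matrix.submatrix_apply, Matrix.kroneckerMap_apply, Matrix.neg_apply, neg_mul_neg]
    rw [this, kronL_one]
  have hPiu : IsUnit Pi := (P⁻¹).isUnit
  have hBu : IsUnit B := by
    rw [hB]
    refine ((((Matrix.isUnit_transpose _).2 hPiu).mul ?_).mul hPiu)
    exact IsUnit.of_mul_eq_one (kronL ρ J J) hkk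
  have hBT : Bᵀ = B := by
    rw [hB, Matrix.transpose_mul, Matrix.transpose_mul, Matrix.transpose_transpose, transpose_kronL, hJT, mul_assoc]
    congr 2
    ext i j
    simp [kronL]
  -- the relation (Pᵀ σ(P)) = kronL G₁ G₂
  have hg : (P : Matrix ι ι F)ᵀ * (P : Matrix ι ι F).map σ = kronL ρ G₁ G₂ := by
    have := hG
    unfold gr at this
    rwa [mul_one] at this
  have hg' : Pi.map σ * Piᵀ = kronL ρ G₁⁻¹ G₂⁻¹ := by
    have e1 : kronL ρ G₁ G₂ * kronL ρ G₁⁻¹ G₂⁻¹ = 1 := by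
      rw [kronL_mul, h1.mul_inv, h2.mul_inv, kronL_one]
    have e2 : (Pi.map σ * Piᵀ) * kronL ρ G₁ G₂ = 1 := by
      rw [← hg]
      calc Pi.map σ * Piᵀ * ((P : Matrix ι ι F)ᵀ * (P : Matrix ι ι F).map σ) =
          Pi.map σ * (Piᵀ * (P : Matrix ι ι F)ᵀ) * (P : Matrix ι ι F).map σ := by simp only [mul_assoc]
        _ = 1 := by rw [← Matrix.transpose_mul, hPPi, Matrix.transpose_one, mul_one, ← map_mul', hPiP, map_one']
    calc Pi.map σ * Piᵀ = (Pi.map σ * Piᵀ) * (kronL ρ G₁ G₂ * kronL ρ G₁⁻¹ G₂⁻¹) := by rw [e1, mul_one]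
      _ = ((Pi.map σ * Piᵀ) * kronL ρ G₁ G₂) * kronL ρ G₁⁻¹ G₂⁻¹ := by simp only [mul_assoc]
      _ = _ := by rw [e2, one_mul]
  have hgT : kronL ρ G₁ᵀ G₂ᵀ = ((P : Matrix ι ι F).map σ)ᵀ * (P : Matrix ι ι F) := by
    rw [← transpose_kronL, ← hg, Matrix.transpose_mul, Matrix.transpose_transpose]
  refine rat2_of_descent (σ := σ) (G := (1 : Matrix ι ι F)) ⟨hinv, isUnit_one, by rw [Matrix.transpose_one, map_one', one_smul], Or.inl rfl⟩
    hne (B := B) hBu hI ?_ (l := (G₁.det)⁻¹ * (G₂.det)⁻¹) ?_ ?_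
  · intro g hg
    obtain ⟨a, b, hab⟩ := mem_tensorProductSubgroup.1 (hle hg)
    refine ⟨(a : Matrix (Fin 2) (Fin 2) F).det * (b : Matrix (Fin 2) (Fin 2) F).det, ?_⟩
    rw [hab, hB]
    have e1 : (((P : Matrix ι ι F) * kronL ρ (a : Matrix (Fin 2) (Fin 2) F) (b : Matrix (Fin 2) (Fin 2) F) * Pi)ᵀ * (Piᵀ * kronL ρ J J * Pi) *
        ((P : Matrix ι ι F) * kronL ρ (a : Matrix (Fin 2) (Fin 2) F) (b : Matrix (Fin 2) (Fin 2) F) * Pi)) =
        Piᵀ * (kronL ρ (a : Matrix (Fin 2) (Fin 2) F)ᵀ (b : Matrix (Fin 2) (Fin 2) F)ᵀ * (((P : Matrix ι ι F)ᵀ * Piᵀ) * kronL ρ J J * (Pi * (P : Matrix ι ι F))) *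
          kronL ρ (a : Matrix (Fin 2) (Fin 2) F) (b : Matrix (Fin 2) (Fin 2) F)) * Pi := by
      rw [Matrix.transpose_mul, Matrix.transpose_mul, transpose_kronL]
      simp only [mul_assoc]
    rw [e1, ← Matrix.transpose_mul, hPiP, Matrix.transpose_one, one_mul, mul_one, kronL_mul, kronL_mul, hJm, hJm, smul_kronL,
      kronL_smul, smul_smul, Matrix.mul_smul, Matrix.smul_mul]
  · rw [inv_one, one_mul, hB, map_mul', map_mul', map_kronL, hJσ]
    calc Piᵀ.map σ * kronL ρ J J * Pi.map σ * (Piᵀ * kronL ρ J J * Pi) =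
        Piᵀ.map σ * (kronL ρ J J * (Pi.map σ * Piᵀ) * kronL ρ J J) * Pi := by simp only [mul_assoc]
      _ = ((G₁.det)⁻¹ * (G₂.det)⁻¹) • (Piᵀ.map σ * (((P : Matrix ι ι F).map σ)ᵀ * (P : Matrix ι ι F)) * Pi) := by
        rw [hg', kronL_mul, kronL_mul, hJinv _ h1.unit, hJinv _ h2.unit, smul_kronL, kronL_smul, smul_smul, hgT, Matrix.mul_smul,
          Matrix.smul_mul]
        congr 1
        ring
      _ = _ := by
        congr 1
        calc Piᵀ.map σ * (((P : Matrix ι ι F).map σ)ᵀ * (P : Matrix ι ι F)) * Pi =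
            (Piᵀ.map σ * ((P : Matrix ι ι F)ᵀ.map σ)) * ((P : Matrix ι ι F) * Pi) := by
              rw [Matrix.transpose_map (M := (P : Matrix ι ι F))]; simp only [mul_assoc]
          _ = 1 := by rw [hPPi, mul_one, ← map_mul', ← Matrix.transpose_mul, hPPi, Matrix.transpose_one, map_one']
  · by_cases hc : (2 : F) = 0
    · right
      refine ⟨?_, ?_⟩
      · rw [hBT]
        ext i j
        simp only [Matrix.neg_apply]
        linear_combination (B i j) * hc
      · intro v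
        have h3 : ∀ w : Fin 2 × Fin 2 → F, w ⬝ᵥ ((J ⊗ₖ J) *ᵥ w) = 0 := by
          intro w
          simp [hJ, dotProduct, Matrix.mulVec, Fintype.sum_prod_type, Fin.sum_univ_two]
          linear_combination (w (0, 0) * w (1, 1) - w (0, 1) * w (1, 0)) * hc
        rw [hB, Matrix.mul_assoc, ← Matrix.mulVec_mulVec, Matrix.dotProduct_mulVec, ← Matrix.mulVec_transpose, Matrix.transpose_transpose,
          ← Matrix.mulVec_mulVec]
        set u := Pi *ᵥ v with hu
        have h4 := h3 (u ∘ ρ.symm)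
        rw [← h4]
        simp only [dotProduct, Matrix.mulVec, kronL, Matrix.reindex_apply, Matrix.submatrix_apply, Equiv.symm_symm, Function.comp]
        rw [← Equiv.sum_comp ρ.symm]
        refine Finset.sum_congr rfl fun i _ => ?_
        rw [← Equiv.sum_comp ρ.symm]
        simp
    · left
      exact ⟨hc, hBT⟩

end tens

section unitary
variable {F : Type*} [Field F] [Fintype F] {n q : ℕ} (hF : Fintype.card F = q ^ 2)

lemma pow_form {d : ℕ} {G : Matrix (Fin d) (Fin d) F} (h : RF (sg hF) 1 G) : IsUnitaryFormPow q (bf (sg hF) G) where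
  add_left x y v := by unfold bf; rw [add_dotProduct]
  smul_left c x v := by unfold bf; rw [smul_dotProduct, smul_eq_mul]
  herm v w := by
    rw [← sg_apply hF, bf_refl h, one_mul]
  nondegenerate := bf_nondeg h

lemma gram_bf {ι : Type} [Fintype ι] [DecidableEq ι] {σ : F ≃+* F} (G : Matrix ι ι F) : gramMatrix (bf σ G) = G :=
  AschForms.gram_of_gram (σ : F →+* F) G

/-- **The tensor decompositions.** -/
theorem ucase_tensor {H : Subgroup (GL (Fin n) F)} (hI : H ≤ GU n F q) {A : Subalgebra F (Matrix (Fin n) (Fin n) F)} {d e : ℕ}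
    (hd : 2 ≤ d) (he : 2 ≤ e) (φ : Matrix (Fin d) (Fin d) F ≃ₐ[F] A) (ρ : Fin n ≃ Fin d × Fin e)
    (hle : H ≤ subalgebraNormalizer A) (hA : AdjClosed (sg hF) 1 A) : UCase n q H := by
  classical
  haveI : Nonempty (Fin n) := ⟨ρ.symm (⟨0, by omega⟩, ⟨0, by omega⟩)⟩
  obtain ⟨P, hP, hle'⟩ := exists_tensorProductSubgroup (by omega) φ ρ
  obtain ⟨G₁, G₂, hG, h1, h2⟩ := tensor_herm (rf_one hF) (sg_ne hF) hA (by omega) (by omega) φ ρ P hP
  have hHP := hle.trans hle'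
  have hform : ∀ x y : Fin d × Fin e → F, hermForm n F q ((P : Matrix (Fin n) (Fin n) F) *ᵥ (x ∘ ρ)) ((P : Matrix (Fin n) (Fin n) F) *ᵥ (y ∘ ρ)) =
      formOfGram (fun x : F => x ^ q) (G₁ ⊗ₖ G₂) x y := by
    intro x y
    rw [herm_eq hF, bf_gr, hG]
    unfold kronL
    rw [bf_reindex]
    unfold formOfGram
    simp only [sg_apply]
  have hcard : d * e = n := by
    have := Fintype.card_congr ρ
    rw [Fintype.card_prod, Fintype.card_fin, Fintype.card_fin, Fintype.card_fin] at this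
    exact this.symm
  rcases lt_trichotomy d e with h | h | h
  · refine UCase.c4 d e ρ P (bf (sg hF) G₁) (bf (sg hF) G₂) hd h hcard (pow_form hF h1) (pow_form hF h2) ⟨1, one_ne_zero, ?_⟩ hHP
    intro x y
    rw [one_mul, gram_bf, gram_bf]
    exact hform x y
  · subst h
    rcases Nat.lt_or_ge 2 d with h3 | h3
    · obtain ⟨C₁, hC₁⟩ := exists_orth h1 (sg_ne hF)
      obtain ⟨C₂, hC₂⟩ := exists_orth h2 (sg_ne hF)
      have hgr : gr (sg hF) 1 (P * kronU ρ C₁ C₂) = 1 := by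
        rw [gr_mul, hG]
        unfold gr
        rw [kronU_val, transpose_kronL, map_kronL, kronL_mul, kronL_mul]
        unfold gr at hC₁ hC₂
        rw [hC₁, hC₂, kronL_one]
      have hHP' := hHP.trans (tps_kronU C₁ C₂)
      set Q := P * kronU ρ C₁ C₂ with hQ
      by_cases hex : q = 2 ∧ d = 3
      · obtain ⟨rfl, rfl⟩ := hex
        refine UCase.exc rfl ρ Q ?_ hHP'
        intro u v
        rw [herm_eq hF, bf_gr, hgr]
      · refine UCase.c7 d 2 (ρ.trans (finTwoArrowEquiv (Fin d)).symm) Q (bf (sg hF) 1) h3 le_rfl (by rw [← hcard]; ring) hex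
          (pow_form hF (rf_one hF)) ⟨1, one_ne_zero, ?_⟩ (hHP'.trans (AschLinear.tensorProduct_le_tensorWreath ρ Q))
        intro x y
        rw [one_mul, gram_bf, herm_eq hF, bf_gr, hgr]
        unfold bf
        rw [Matrix.one_mulVec]
        have key : ∀ a b : Fin 2 → Fin d, (∏ i, (1 : Matrix (Fin d) (Fin d) F) (a i) (b i)) = if a = b then 1 else 0 := by
          intro a b
          split_ifs with hab
          · subst hab
            exact Finset.prod_eq_one fun i _ => Matrix.one_apply_eq _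
          · obtain ⟨i, hi⟩ := Function.ne_iff.1 hab
            exact Finset.prod_eq_zero (Finset.mem_univ i) (Matrix.one_apply_ne hi)
        simp only [key, mul_ite, mul_one, mul_zero, ite_mul, zero_mul, Finset.sum_ite_eq, Finset.mem_univ, if_true]
        rw [← Equiv.sum_comp (ρ.trans (finTwoArrowEquiv (Fin d)).symm)]
        simp only [dotProduct, Function.comp_apply, sg_apply]
    · have h22 : d = 2 := by omega
      subst h22
      exact ucase_rat2 hF (rat2_of_tensor (sg_inv hF) (sg_ne hF) hHP (fun g hg => (mem_GU hF).1 (hI hg)) hG h1 h2)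
  · rw [tensorProductSubgroup_swap] at hHP
    refine UCase.c4 e d _ P (bf (sg hF) G₂) (bf (sg hF) G₁) he h (by rw [← hcard, mul_comm]) (pow_form hF h2) (pow_form hF h1)
      ⟨1, one_ne_zero, ?_⟩ hHP
    intro x y
    rw [one_mul, gram_bf, gram_bf, herm_eq hF, bf_gr, hG, kronL_swap]
    unfold kronL
    rw [bf_reindex]
    unfold formOfGram
    simp only [sg_apply]

end unitary

end Cfsg.Agent.Lib.AschAdj
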