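import Cfsg.Agent.Lib.AschAdj10
import Cfsg.Agent.Lib.Burnside
import Cfsg.Agent.Lib.ClUnitary
set_option autoImplicit false
set_option linter.style.haveILetI false
set_option linter.unusedVariables false
set_option linter.unusedSectionVars false

/-!
Aschbacher's theorem, unitary case: groups all of whose non-scalar normal subgroups are absolutely irreducible.
-/

namespace Cfsg.Agent.Lib.AschAdj

open Cfsg Cfsg.Geo Cfsg.Agent.Lib.AschMU Cfsg.Agent.Lib.AschCore Cfsg.Agent.Lib.AschField Cfsg.Agent.Lib.AschAlg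
  Cfsg.Agent.Lib.AschGroup Cfsg.Agent.Lib.AschGood Cfsg.Agent.Lib.AschNonab Cfsg.Agent.Lib.AschTensor Cfsg.Agent.Lib.AschComp
open Cfsg.Agent.Lib.AschDescent (env mem_env)
open Cfsg.Agent.Lib.AschForm (sm)
open scoped Matrix MatrixGroups Kronecker commutatorElement

section unitary
variable {F : Type*} [Field F] [Fintype F] {n q : ℕ} (hF : Fintype.card F = q ^ 2)
include hF

/-- The symplectic-type case. -/
theorem ucase_symp (hn : 2 ≤ n) {H N R : Subgroup (GL (Fin n) F)} {r m : ℕ} (hI : H ≤ GU n F q) (hRH : R ≤ H)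
    (hD : AschExtra.IsSympData H N R r m) : UCase n q H := by
  haveI : Nonempty (Fin n) := ⟨⟨0, by omega⟩⟩
  obtain ⟨p, hchar⟩ := CharP.exists F
  obtain ⟨e, hp, hcard⟩ := FiniteField.card F p
  have he : 0 < (e : ℕ) := e.pos
  generalize (e : ℕ) = e at *
  have hr := hD.sympType.prime
  have hRinv : ∀ g ∈ H, ∀ x ∈ R, g * x * g⁻¹ ∈ R := hD.inv
  rcases AschExtra.minimal_or_subfield hD.absIrr hD.comm hp hchar hcard with hmin | ⟨F₀, hF₀, hreal⟩
  swap
  · exact ucase_real hF hn hD.absIrr (hRH.trans hI) hI hRinv hF₀ hreal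
  have hnorm : H ≤ subgroupNormalizer R := by
    intro g hg
    show g ∈ Subgroup.normalizer (R : Set (GL (Fin n) F))
    rw [Subgroup.mem_normalizer_iff]
    intro x
    constructor
    · exact fun hx => hD.inv g hg x hx
    · intro hx
      have := hD.inv g⁻¹ (inv_mem hg) _ hx
      have h2 : g⁻¹ * (g * x * g⁻¹) * g⁻¹⁻¹ = x := by group
      rwa [h2] at this
  have hzdvd := hmin.2.2.2.1
  have hzmin := hmin.2.2.2.2
  set z := Nat.card (Subgroup.center R) with hz
  have hpe : 1 ≤ p ^ e := Nat.one_le_pow _ _ hp.pos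
  have hrp : r ≠ p := by
    rintro rfl
    have h1 : r ∣ z := by
      rcases hD.center with h | ⟨h, h'⟩
      · rw [← hz] at h; rw [h]
      · rw [← hz] at h'; rw [h', h]; norm_num
    have h2 : r ∣ r ^ e - 1 := h1.trans hzdvd
    have h3 : r ∣ r ^ e := dvd_pow_self r he.ne'
    have h4 : r ∣ r ^ e - (r ^ e - 1) := Nat.dvd_sub h3 h2
    rw [Nat.sub_sub_self hpe] at h4
    exact hr.one_lt.ne' (Nat.dvd_one.1 h4)
  -- e is even
  obtain ⟨k, hk⟩ : ∃ k, e = 2 * k := by
    have h1 : q ∣ p ^ e := by rw [← hcard, hF]; exact dvd_pow_self q (by norm_num)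
    obtain ⟨k, -, hk⟩ := (Nat.dvd_prime_pow hp).1 h1
    refine ⟨k, ?_⟩
    rw [hcard, hk, ← pow_mul] at hF
    have := Nat.pow_right_injective hp.two_le hF
    omega
  have hk0 : 0 < k := by omega
  have hnk : n = r ^ m := by
    have := hD.card_ι
    rwa [Fintype.card_fin] at this
  rcases hD.center with hzr | ⟨hr2, hz4⟩
  · rw [← hz] at hzr
    have hodd : Odd r := by
      rcases hr.eq_two_or_odd' with h2 | h2
      · exfalso
        subst h2
        apply hzmin 1 one_pos (by omega)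
        rw [hzr, pow_one]
        have := hp.odd_of_ne_two hrp.symm
        obtain ⟨j, hj⟩ := this
        exact ⟨j, by omega⟩
      · exact h2
    refine UCase.c6 r R p e m hD.sympType hD.absIrr (hRH.trans hI) hrp hnk hD.pos hmin (Or.inl ⟨hodd, hzr, ?_⟩) hnorm
    rw [hD.card_R, ← hz, hzr, hD.card_ι, ← pow_mul, ← pow_succ]
    congr 1; ring
  · subst hr2
    rw [← hz] at hz4
    have hpodd : p % 2 = 1 := Nat.odd_iff.1 (hp.odd_of_ne_two hrp.symm)
    have he2 : e = 2 := by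
      by_contra hne
      apply hzmin 2 (by norm_num) (by omega)
      have h4 : p ^ 2 - 1 = (p + 1) * (p - 1) := by
        have := Nat.sq_sub_sq p 1
        rwa [one_pow] at this
      rw [h4, hz4]
      have hp1 := hp.one_lt
      rcases (show p % 4 = 1 ∨ p % 4 = 3 by omega) with h | h
      · exact Dvd.dvd.mul_left (by omega) _
      · exact Dvd.dvd.mul_right (by omega) _
    refine UCase.c6 2 R p e m hD.sympType hD.absIrr (hRH.trans hI) hrp hnk hD.pos hmin (Or.inr ⟨rfl, he2, hz4, ?_⟩) hnorm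
    rw [hD.card_R, ← hz, hz4, hD.card_ι, ← pow_mul, pow_add, mul_comm]
    congr 1
    rw [mul_comm]

end unitary

section fac
variable {ι : Type} [Fintype ι] [DecidableEq ι] {F : Type*} [Field F]

/-- The group acting on one tensor factor. -/
def facGrp {d : ℕ} (φ : Matrix (Fin d) (Fin d) F →ₐ[F] Matrix ι ι F) (P : Subgroup (GL ι F)) : Subgroup (GL (Fin d) F) :=
  P.comap (Units.map (φ : Matrix (Fin d) (Fin d) F →* Matrix ι ι F))

lemma mem_facGrp {d : ℕ} {φ : Matrix (Fin d) (Fin d) F →ₐ[F] Matrix ι ι F} {P : Subgroup (GL ι F)} {a : GL (Fin d) F} :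
    a ∈ facGrp φ P ↔ ∃ x ∈ P, (x : Matrix ι ι F) = φ (a : Matrix (Fin d) (Fin d) F) := by
  constructor
  · intro h
    exact ⟨_, h, rfl⟩
  · rintro ⟨x, hx, h⟩
    have : Units.map (φ : Matrix (Fin d) (Fin d) F →* Matrix ι ι F) a = x := Units.ext h.symm
    show Units.map (φ : Matrix (Fin d) (Fin d) F →* Matrix ι ι F) a ∈ P
    rw [this]; exact hx

lemma exists_facGrp {d : ℕ} {φ : Matrix (Fin d) (Fin d) F →ₐ[F] Matrix ι ι F} (hinj : Function.Injective φ) {P : Subgroup (GL ι F)}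
    (hr : φ.range = env P) {x : GL ι F} (hx : x ∈ P) : ∃ a ∈ facGrp φ P, (x : Matrix ι ι F) = φ (a : Matrix (Fin d) (Fin d) F) := by
  have h1 : (x : Matrix ι ι F) ∈ φ.range := by rw [hr]; exact mem_env hx
  have h2 : ((x⁻¹ : GL ι F) : Matrix ι ι F) ∈ φ.range := by rw [hr]; exact mem_env (P.inv_mem hx)
  obtain ⟨m, hm⟩ := h1
  obtain ⟨m', hm'⟩ := h2
  have hm1 : φ m = (x : Matrix ι ι F) := hm
  have hm2 : φ m' = ((x⁻¹ : GL ι F) : Matrix ι ι F) := hm'
  let a : GL (Fin d) F := ⟨m, m', hinj (by rw [map_mul, hm1, hm2, map_one, gl_mul_inv]), hinj (by rw [map_mul, hm1, hm2, map_one, gl_inv_mul])⟩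
  exact ⟨a, mem_facGrp.2 ⟨x, hx, hm1.symm⟩, hm1.symm⟩

lemma env_facGrp {d : ℕ} {φ : Matrix (Fin d) (Fin d) F →ₐ[F] Matrix ι ι F} (hinj : Function.Injective φ) {P : Subgroup (GL ι F)}
    (hr : φ.range = env P) : env (facGrp φ P) = ⊤ := by
  have h1 : φ '' (matrixSet (facGrp φ P)) = matrixSet P := by
    ext y
    constructor
    · rintro ⟨_, ⟨a, ha, rfl⟩, rfl⟩
      obtain ⟨x, hx, e⟩ := mem_facGrp.1 ha
      exact ⟨x, hx, e⟩
    · rintro ⟨x, hx, rfl⟩
      obtain ⟨a, ha, e⟩ := exists_facGrp hinj hr hx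
      exact ⟨_, ⟨a, ha, rfl⟩, e.symm⟩
  have h2 : (env (facGrp φ P)).map φ = (⊤ : Subalgebra F (Matrix (Fin d) (Fin d) F)).map φ := by
    rw [Algebra.map_top, hr]
    unfold AschDescent.env
    rw [AlgHom.map_adjoin, h1]
  rw [eq_top_iff]
  intro y _
  have h3 : φ y ∈ (env (facGrp φ P)).map φ := by rw [h2]; exact ⟨y, trivial, rfl⟩
  obtain ⟨z, hz, e⟩ := h3
  rw [← hinj e]; exact hz

/-- The hermitian form on one tensor factor. -/
theorem fac_herm [Finite F] [Nonempty ι] {σ : F ≃+* F} {G : Matrix ι ι F} (h : RF σ 1 G) (hne : σ ≠ RingEquiv.refl F)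
    {P : Subgroup (GL ι F)} (hPI : ∀ g ∈ P, IsIso σ G g) {d : ℕ} (hd : d ≠ 0) {φ : Matrix (Fin d) (Fin d) F →ₐ[F] Matrix ι ι F}
    (hinj : Function.Injective φ) (hr : φ.range = env P) (hdvd : d ∣ Fintype.card ι) :
    ∃ X : Matrix (Fin d) (Fin d) F, RF σ 1 X ∧
      ∀ a ∈ facGrp φ P, (a : Matrix (Fin d) (Fin d) F)ᵀ * X * (a : Matrix (Fin d) (Fin d) F).map σ = X := by
  obtain ⟨e, he⟩ := hdvd
  have he0 : e ≠ 0 := by
    rintro rfl
    rw [mul_zero] at he
    exact Fintype.card_ne_zero he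
  have ρ : ι ≃ Fin d × Fin e := Fintype.equivOfCardEq (by rw [Fintype.card_prod, Fintype.card_fin, Fintype.card_fin, he])
  have hA : AdjClosed σ G φ.range := by rw [hr]; exact adjClosed_env h hPI le_sup_left
  obtain ⟨Q, hQ, -⟩ := exists_tensorProductSubgroup hd (AlgEquiv.ofInjective φ hinj) ρ
  obtain ⟨G₁, G₂, hG, h1, h2⟩ := tensor_herm h hne hA hd he0 (AlgEquiv.ofInjective φ hinj) ρ Q hQ
  refine ⟨G₁, h1, ?_⟩
  intro a ha
  obtain ⟨x, hx, e1⟩ := mem_facGrp.1 ha
  have h3 := gr_invariant h (hPI x hx) Q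
  have h4 : ((Q⁻¹ : GL ι F) : Matrix ι ι F) * (x : Matrix ι ι F) * (Q : Matrix ι ι F) = kronL ρ (a : Matrix (Fin d) (Fin d) F) 1 := by
    have h5 : (x : Matrix ι ι F) = (Q : Matrix ι ι F) * kronL ρ (a : Matrix (Fin d) (Fin d) F) 1 * ((Q⁻¹ : GL ι F) : Matrix ι ι F) := by
      rw [e1, ← hQ]; rfl
    rw [h5]
    calc ((Q⁻¹ : GL ι F) : Matrix ι ι F) * ((Q : Matrix ι ι F) * kronL ρ (a : Matrix (Fin d) (Fin d) F) 1 * ((Q⁻¹ : GL ι F) : Matrix ι ι F)) * (Q : Matrix ι ι F) =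
        (((Q⁻¹ : GL ι F) : Matrix ι ι F) * (Q : Matrix ι ι F)) * kronL ρ (a : Matrix (Fin d) (Fin d) F) 1 *
          (((Q⁻¹ : GL ι F) : Matrix ι ι F) * (Q : Matrix ι ι F)) := by simp only [mul_assoc]
      _ = _ := by rw [gl_inv_mul, one_mul, mul_one]
  rw [h4, hG, transpose_kronL, map_kronL, kronL_mul, kronL_mul, Matrix.transpose_one, map_one', one_mul, mul_one] at h3
  obtain ⟨c, hc, e2, e3⟩ := kronL_eq hd he0 ρ h1.unit h2.unit h3.symm
  have hc1 : c = 1 := by
    haveI : Nonempty (Fin e) := ⟨⟨0, Nat.pos_of_ne_zero he0⟩⟩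
    obtain ⟨i, j, hij⟩ : ∃ i j, G₂ i j ≠ 0 := by
      by_contra hcon
      push Not at hcon
      have h00 : G₂ = 0 := by ext i j; exact hcon i j
      have := h2.unit
      rw [h00, Matrix.isUnit_iff_isUnit_det, Matrix.det_zero] at this
      exact not_isUnit_zero this
    have h6 := congrArg (fun M : Matrix (Fin e) (Fin e) F => M i j) e3
    simp only [Matrix.smul_apply, smul_eq_mul] at h6
    have h7 : c⁻¹ = 1 := mul_right_cancel₀ hij (by rw [← h6, one_mul])
    rw [← inv_inv c, h7, inv_one]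
  rw [e2, hc1, one_smul]

/-- Orthonormal version of the tensor power decomposition. -/
theorem comp_orth [Finite F] [Nonempty ι] {σ : F ≃+* F} (hinv : ∀ a, σ (σ a) = a) (hne : σ ≠ RingEquiv.refl F)
    {H : Subgroup (GL ι F)} {t d : ℕ} {P : Fin t → Subgroup (GL ι F)} (h : CompData H P) (hHI : ∀ g ∈ H, IsIso σ (1 : Matrix ι ι F) g)
    {ρ : ι ≃ (Fin t → Fin d)} {B : GL ι F} {φ : Fin t → Matrix (Fin d) (Fin d) F →ₐ[F] Matrix ι ι F} (hd : 2 ≤ d)
    (hinj : ∀ i, Function.Injective (φ i)) (hr : ∀ i, (φ i).range = env (P i))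
    (hφ : ∀ i x, φ i x = psi ρ B (tp (Function.update (fun _ => 1) i x)))
    (X : Fin t → Matrix (Fin d) (Fin d) F) (hX : ∀ i, RF σ 1 (X i))
    (hXI : ∀ i, ∀ a ∈ facGrp (φ i) (P i), (a : Matrix (Fin d) (Fin d) F)ᵀ * X i * (a : Matrix (Fin d) (Fin d) F).map σ = X i) :
    ∃ (D : GL (Fin t → Fin d) F) (c : F), D ∈ tensorWreathStandard d t F ∧ c ≠ 0 ∧
      ∀ B' : GL ι F, (B' : Matrix ι ι F) = (B : Matrix ι ι F) * Matrix.reindex ρ.symm ρ.symm (D : Matrix _ _ F) →
      gr σ (1 : Matrix ι ι F) B' = c • 1 := by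
  have hrf1 : RF σ 1 (1 : Matrix ι ι F) := ⟨hinv, isUnit_one, by rw [Matrix.transpose_one, map_one', one_smul], Or.inl rfl⟩
  have hsm : ∀ {κ : Type} (y : Matrix κ κ F), sm (σ : F →+* F) y = y.map σ := fun y => rfl
  set K : Matrix (Fin t → Fin d) (Fin t → Fin d) F := tp X with hK
  -- invariance
  have hinvK : (⨆ i, P i) ≤ isom (σ : F →+* F) (gramT (σ : F →+* F) ρ B K) := by
    rw [iSup_le_iff]
    intro i x hx
    obtain ⟨a, ha, e⟩ := exists_facGrp (hinj i) (hr i) hx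
    rw [mem_isom, e, hφ, gramT_psi]
    congr 1
    rw [hsm, tp_transpose, hK, tp_mul]
    have : (tp (Function.update (fun _ => (1 : Matrix (Fin d) (Fin d) F)) i (a : Matrix (Fin d) (Fin d) F))).map σ =
        tp (fun j => (Function.update (fun _ => (1 : Matrix (Fin d) (Fin d) F)) i (a : Matrix (Fin d) (Fin d) F) j).map σ) :=
      tp_map (σ : F →+* F) _
    rw [this, tp_mul]
    congr 1
    funext j
    by_cases hj : j = i
    · subst hj
      simp only [Function.update_self]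
      exact hXI j a ha
    · simp only [Function.update_of_ne hj]
      rw [Matrix.transpose_one, one_mul, map_one', mul_one]
  have hone : ∀ s ∈ (⨆ i, P i), (s : Matrix ι ι F)ᵀ * (1 : Matrix ι ι F) * (s : Matrix ι ι F).map σ = 1 := by
    have h1 : (⨆ i, P i) ≤ H := iSup_le h.le
    intro s hs
    exact iso_gram hrf1 (hHI s (h1 hs))
  obtain ⟨c, hc⟩ := uniq σ h.absIrred hone (fun s hs => hinvK hs) isUnit_one
  -- hc : gramT = c • 1
  have hKu : IsUnit K := by
    have e1 : K * tp (fun i => (X i)⁻¹) = 1 := by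
      rw [hK, tp_mul, ← tp_one]
      congr 1
      funext i
      exact (hX i).mul_inv
    exact IsUnit.of_mul_eq_one _ e1
  have hc0 : c ≠ 0 := by
    rintro rfl
    rw [zero_smul] at hc
    have := gramT_det (σ : F →+* F) ρ B K ((Matrix.isUnit_iff_isUnit_det _).1 hKu).ne_zero
    rw [hc, Matrix.det_zero] at this
    exact this rfl
  -- reindex K = c • Bᵀ σ(B)
  have hKB : Matrix.reindex ρ.symm ρ.symm K = c • ((B : Matrix ι ι F)ᵀ * (B : Matrix ι ι F).map σ) := by
    have e1 : (B : Matrix ι ι F)ᵀ * gramT (σ : F →+* F) ρ B K * (B : Matrix ι ι F).map σ = Matrix.reindex ρ.symm ρ.symm K := by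
      unfold gramT
      rw [hsm]
      calc (B : Matrix ι ι F)ᵀ * (((B⁻¹ : GL ι F) : Matrix ι ι F)ᵀ * Matrix.reindex ρ.symm ρ.symm K * ((B⁻¹ : GL ι F) : Matrix ι ι F).map σ) *
            (B : Matrix ι ι F).map σ = ((B : Matrix ι ι F)ᵀ * ((B⁻¹ : GL ι F) : Matrix ι ι F)ᵀ) * Matrix.reindex ρ.symm ρ.symm K *
            (((B⁻¹ : GL ι F) : Matrix ι ι F).map σ * (B : Matrix ι ι F).map σ) := by simp only [mul_assoc]
        _ = _ := by
          rw [← Matrix.transpose_mul, ← map_mul', gl_inv_mul, Matrix.transpose_one, map_one', one_mul, mul_one]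
    rw [← e1, hc, Matrix.mul_smul, Matrix.smul_mul, mul_one]
  choose C hC using fun i => exists_orth (hX i) hne
  refine ⟨tpU C, c⁻¹, Subgroup.subset_closure (Or.inl (isPureTensor_tpU C)), inv_ne_zero hc0, ?_⟩
  intro B' hB'
  have hcoe : ((tpU C : GL (Fin t → Fin d) F) : Matrix _ _ F) = tp (fun i => (C i : Matrix (Fin d) (Fin d) F)) := rfl
  unfold gr
  rw [hB', mul_one, Matrix.transpose_mul, map_mul']
  have e2 : (B : Matrix ι ι F)ᵀ * (B : Matrix ι ι F).map σ = c⁻¹ • Matrix.reindex ρ.symm ρ.symm K := by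
    rw [hKB, smul_smul, inv_mul_cancel₀ hc0, one_smul]
  have e3 : (Matrix.reindex ρ.symm ρ.symm ((tpU C : GL (Fin t → Fin d) F) : Matrix _ _ F))ᵀ * Matrix.reindex ρ.symm ρ.symm K *
      (Matrix.reindex ρ.symm ρ.symm ((tpU C : GL (Fin t → Fin d) F) : Matrix _ _ F)).map σ = 1 := by
    have e4 : (tp (fun i => (C i : Matrix (Fin d) (Fin d) F)))ᵀ * K * (tp (fun i => (C i : Matrix (Fin d) (Fin d) F))).map σ = 1 := by
      have : (tp (fun i => (C i : Matrix (Fin d) (Fin d) F))).map σ = tp (fun i => (C i : Matrix (Fin d) (Fin d) F).map σ) :=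
        tp_map (σ : F →+* F) _
      rw [this, tp_transpose, hK, tp_mul, tp_mul, ← tp_one]
      congr 1
      funext i
      exact hC i
    have e5 : Matrix.reindex ρ.symm ρ.symm ((tp (fun i => (C i : Matrix (Fin d) (Fin d) F)))ᵀ * K * (tp (fun i => (C i : Matrix (Fin d) (Fin d) F))).map σ) =
      (Matrix.reindex ρ.symm ρ.symm ((tpU C : GL (Fin t → Fin d) F) : Matrix _ _ F))ᵀ * Matrix.reindex ρ.symm ρ.symm K *
      (Matrix.reindex ρ.symm ρ.symm ((tpU C : GL (Fin t → Fin d) F) : Matrix _ _ F)).map σ := by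
      rw [hcoe]
      have hre : ∀ x y : Matrix (Fin t → Fin d) (Fin t → Fin d) F, Matrix.reindex ρ.symm ρ.symm (x * y) =
          Matrix.reindex ρ.symm ρ.symm x * Matrix.reindex ρ.symm ρ.symm y := fun x y => by
        simp [Matrix.reindex_apply, Matrix.submatrix_mul_equiv]
      rw [hre, hre]
      rfl
    rw [← e5, e4]
    simp
  calc (Matrix.reindex ρ.symm ρ.symm ((tpU C : GL (Fin t → Fin d) F) : Matrix _ _ F))ᵀ * (B : Matrix ι ι F)ᵀ *
      ((B : Matrix ι ι F).map σ * (Matrix.reindex ρ.symm ρ.symm ((tpU C : GL (Fin t → Fin d) F) : Matrix _ _ F)).map σ) =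
      (Matrix.reindex ρ.symm ρ.symm ((tpU C : GL (Fin t → Fin d) F) : Matrix _ _ F))ᵀ * ((B : Matrix ι ι F)ᵀ * (B : Matrix ι ι F).map σ) *
        (Matrix.reindex ρ.symm ρ.symm ((tpU C : GL (Fin t → Fin d) F) : Matrix _ _ F)).map σ := by simp only [mul_assoc]
    _ = _ := by rw [e2, Matrix.mul_smul, Matrix.smul_mul, e3]

end fac

section wreath
variable {ι : Type} [Fintype ι] [DecidableEq ι] {F : Type*} [Field F]

lemma reindex_mul' {κ : Type} [Fintype κ] [DecidableEq κ] (ρ : ι ≃ κ) (x y : Matrix κ κ F) :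
    Matrix.reindex ρ.symm ρ.symm (x * y) = Matrix.reindex ρ.symm ρ.symm x * Matrix.reindex ρ.symm ρ.symm y := by
  simp [Matrix.reindex_apply, Matrix.submatrix_mul_equiv]

/-- An element of the standard tensor-wreath group as a matrix of size `ι`. -/
def reU {κ : Type} [Fintype κ] [DecidableEq κ] (ρ : ι ≃ κ) (D : GL κ F) : GL ι F where
  val := Matrix.reindex ρ.symm ρ.symm (D : Matrix κ κ F)
  inv := Matrix.reindex ρ.symm ρ.symm ((D⁻¹ : GL κ F) : Matrix κ κ F)
  val_inv := by rw [← reindex_mul', gl_mul_inv]; simp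
  inv_val := by rw [← reindex_mul', gl_inv_mul]; simp

lemma wreath_le {t d : ℕ} {ρ : ι ≃ (Fin t → Fin d)} {B : GL ι F} {D : GL (Fin t → Fin d) F} (hD : D ∈ tensorWreathStandard d t F) :
    tensorWreathSubgroup d t ρ B ≤ tensorWreathSubgroup d t ρ (B * reU ρ D) := by
  intro g hg
  rw [mem_tensorWreathSubgroup] at hg ⊢
  obtain ⟨k, hk, e⟩ := hg
  refine ⟨D⁻¹ * k * D, mul_mem (mul_mem (inv_mem hD) hk) hD, ?_⟩
  rw [e, psi_apply, psi_apply, mul_inv_rev]
  have e1 : (((reU ρ D)⁻¹ : GL ι F) : Matrix ι ι F) = Matrix.reindex ρ.symm ρ.symm ((D⁻¹ : GL (Fin t → Fin d) F) : Matrix _ _ F) := rfl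
  have e2 : ((reU ρ D : GL ι F) : Matrix ι ι F) = Matrix.reindex ρ.symm ρ.symm ((D : GL (Fin t → Fin d) F) : Matrix _ _ F) := rfl
  have e3 : ((reU ρ D : GL ι F) : Matrix ι ι F) * (((reU ρ D)⁻¹ : GL ι F) : Matrix ι ι F) = 1 := gl_mul_inv _
  rw [Units.val_mul, Units.val_mul, Units.val_mul, Units.val_mul, reindex_mul', reindex_mul', ← e1, ← e2]
  calc (B : Matrix ι ι F) * Matrix.reindex ρ.symm ρ.symm (k : Matrix _ _ F) * ((B⁻¹ : GL ι F) : Matrix ι ι F) =
      (B : Matrix ι ι F) * (1 * Matrix.reindex ρ.symm ρ.symm (k : Matrix _ _ F) * 1) * ((B⁻¹ : GL ι F) : Matrix ι ι F) := by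
        rw [one_mul, mul_one]
    _ = _ := by rw [← e3]; simp only [mul_assoc]

end wreath

section unitary2
variable {F : Type*} [Field F] [Fintype F] {n q : ℕ} (hF : Fintype.card F = q ^ 2)

lemma card_GU_three_two (hF : Fintype.card F = 2 ^ 2) : Nat.card (GU 3 F 2) = 2 ^ 3 * 3 ^ 4 := by
  rw [ClUnitary.card_GU hF]
  decide

/-- Perfect subgroups of `GL_3(4)` fixing a hermitian form are trivial. -/
lemma isSolvable_isom (hF : Fintype.card F = 2 ^ 2) {X : Matrix (Fin 3) (Fin 3) F} (hX : RF (sg hF) 1 X) {L : Subgroup (GL (Fin 3) F)}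
    (hL : ∀ a ∈ L, (a : Matrix (Fin 3) (Fin 3) F)ᵀ * X * (a : Matrix (Fin 3) (Fin 3) F).map (sg hF) = X) :
    ∃ a b : ℕ, Nat.card L = 2 ^ a * 3 ^ b := by
  obtain ⟨C, hC⟩ := exists_orth hX (sg_ne hF)
  have h1 : L.map (MulAut.conj C⁻¹).toMonoidHom ≤ GU 3 F 2 := by
    rintro _ ⟨a, ha, rfl⟩
    rw [mem_GU hF]
    apply iso_of_gram (rf_one hF)
    have h2 := gr_invariant hX (iso_of_gram hX (hL a ha)) C
    rw [hC] at h2
    have h3 : (((MulAut.conj C⁻¹).toMonoidHom a : GL (Fin 3) F) : Matrix (Fin 3) (Fin 3) F) =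
        ((C⁻¹ : GL (Fin 3) F) : Matrix (Fin 3) (Fin 3) F) * (a : Matrix (Fin 3) (Fin 3) F) * (C : Matrix (Fin 3) (Fin 3) F) := by
      show ((C⁻¹ * a * C⁻¹⁻¹ : GL (Fin 3) F) : Matrix (Fin 3) (Fin 3) F) = _
      rw [inv_inv, Units.val_mul, Units.val_mul]
    rw [h3]; exact h2
  have h2 : Nat.card L ∣ 2 ^ 3 * 3 ^ 4 := by
    rw [← card_GU_three_two hF, Nat.card_congr (Subgroup.equivMapOfInjective L (MulAut.conj C⁻¹).toMonoidHom (MulAut.conj C⁻¹).injective).toEquiv]
    exact Subgroup.card_dvd_of_le h1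
  obtain ⟨x, y, hx, hy, e⟩ := (Nat.dvd_mul.1 h2)
  obtain ⟨a, -, rfl⟩ := (Nat.dvd_prime_pow Nat.prime_two).1 hx
  obtain ⟨b, -, rfl⟩ := (Nat.dvd_prime_pow Nat.prime_three).1 hy
  exact ⟨a, b, e.symm⟩

include hF

/-- Several commuting components. -/
theorem ucase_comp (hn : 2 ≤ n) {H : Subgroup (GL (Fin n) F)} (hI : H ≤ GU n F q) {t : ℕ} {P : Fin t → Subgroup (GL (Fin n) F)}
    (h : CompData H P) : UCase n q H := by
  classical
  haveI : Nonempty (Fin n) := ⟨⟨0, by omega⟩⟩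
  obtain ⟨d, ρ, B, φ, hd, hinj, hr, hB, htop, hle⟩ := exists_tensorWreath h
  have hHI : ∀ g ∈ H, IsIso (sg hF) 1 g := fun g hg => (mem_GU hF).1 (hI hg)
  have hPH : (⨆ i, P i) ≤ H := iSup_le h.le
  have hcard : n = d ^ t := by
    have := Fintype.card_congr ρ
    rwa [Fintype.card_fin, Fintype.card_fun, Fintype.card_fin, Fintype.card_fin] at this
  have ht := h.two_le
  rcases Nat.lt_or_ge 2 d with hd3 | hd2
  · have hX : ∀ i, ∃ X : Matrix (Fin d) (Fin d) F, RF (sg hF) 1 X ∧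
      ∀ a ∈ facGrp (φ i) (P i), (a : Matrix (Fin d) (Fin d) F)ᵀ * X * (a : Matrix (Fin d) (Fin d) F).map (sg hF) = X := fun i =>
      fac_herm (rf_one hF) (sg_ne hF) (fun g hg => hHI g (h.le i hg)) (by omega) (hinj i) (hr i) (by
        rw [Fintype.card_fin, hcard]; exact dvd_pow_self d (by omega))
    choose X hX hXI using hX
    obtain ⟨D, c, hD, hc, hgr⟩ := comp_orth (sg_inv hF) (sg_ne hF) h hHI hd hinj hr hB X hX hXI
    have hgr' := hgr (B * reU ρ D) rfl
    refine UCase.c7 d t ρ (B * reU ρ D) (bf (sg hF) 1) hd3 ht hcard.symm ?_ (pow_form hF (rf_one hF)) ⟨c, hc, ?_⟩ (hle.trans (wreath_le hD))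
    · rintro ⟨rfl, rfl⟩
      let i₀ : Fin t := ⟨0, by omega⟩
      obtain ⟨a, b, hab⟩ := isSolvable_isom hF (hX i₀) (hXI i₀)
      have h1 : (facGrp (φ i₀) (P i₀)).map (Units.map (φ i₀ : Matrix (Fin 3) (Fin 3) F →* Matrix (Fin n) (Fin n) F)) = P i₀ := by
        ext x
        constructor
        · rintro ⟨a, ha, rfl⟩
          exact ha
        · intro hx
          obtain ⟨a, ha, e⟩ := exists_facGrp (hinj i₀) (hr i₀) hx
          exact ⟨a, ha, Units.ext e.symm⟩
      have h2 : Nat.card (P i₀) = 2 ^ a * 3 ^ b := by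
        rw [← hab, Nat.card_congr (Subgroup.equivMapOfInjective (facGrp (φ i₀) (P i₀))
          (Units.map (φ i₀ : Matrix (Fin 3) (Fin 3) F →* Matrix (Fin n) (Fin n) F)) (by
            intro u v huv
            apply Units.ext
            exact hinj i₀ (congrArg (fun w : GL (Fin n) F => (w : Matrix (Fin n) (Fin n) F)) huv))).toEquiv, h1]
      have h3 := Burnside.isSolvable_of_card_eq _ 2 3 a b Nat.prime_two Nat.prime_three h2 rfl
      apply h.nonscalar i₀
      have h4 : ¬ Nontrivial (P i₀) := by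
        intro hnt
        have h5 := Group.IsSolvable.commutator_lt_top_of_nontrivial (P i₀)
        apply h5.ne
        rw [eq_top_iff]
        rintro ⟨x, hx⟩ -
        have h6 : x ∈ ⁅P i₀, P i₀⁆ := by rw [h.perfect]; exact hx
        have h7 : (commutator (P i₀)).map (P i₀).subtype = ⁅P i₀, P i₀⁆ := by
          rw [commutator_def, Subgroup.map_commutator, ← MonoidHom.range_eq_map, Subgroup.range_subtype]
        rw [← h7] at h6
        obtain ⟨y, hy, e⟩ := h6
        have : y = ⟨x, hx⟩ := Subtype.ext e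
        rwa [← this]
      rw [not_nontrivial_iff_subsingleton] at h4
      intro x hx
      have : x = 1 := congrArg Subtype.val (h4.elim ⟨x, hx⟩ (1 : P i₀))
      rw [this]; exact one_mem _
    · intro x y
      rw [gram_bf, herm_eq hF, bf_gr, hgr']
      unfold bf
      rw [Matrix.smul_mulVec, Matrix.one_mulVec]
      have key : ∀ a b : Fin t → Fin d, (∏ i, (1 : Matrix (Fin d) (Fin d) F) (a i) (b i)) = if a = b then 1 else 0 := by
        intro a b
        split_ifs with hab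
        · subst hab
          exact Finset.prod_eq_one fun i _ => Matrix.one_apply_eq _
        · obtain ⟨i, hi⟩ := Function.ne_iff.1 hab
          exact Finset.prod_eq_zero (Finset.mem_univ i) (Matrix.one_apply_ne hi)
      simp only [key, mul_ite, mul_one, mul_zero, ite_mul, zero_mul, Finset.sum_ite_eq, Finset.mem_univ, if_true]
      rw [← Equiv.sum_comp ρ, dotProduct_smul, smul_eq_mul]
      simp only [dotProduct, Function.comp_apply, sg_apply]
  · have : d = 2 := by omega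
    subst this
    have h1 := exists_form_of_two h hinj hr hB
    have h2 := gramT_det (RingHom.id F) ρ B _ (det_tpJ (F := F) t)
    refine ucase_rat2 hF (rat2_of_invariant (rf_one hF) (sg_ne hF) (by rw [Fintype.card_fin]; exact hn) h.absIrred
      (fun g hg => hHI g (hPH hg)) hHI (normBy_iSup_comp h) ((Matrix.isUnit_iff_isUnit_det _).2 (isUnit_iff_ne_zero.2 h2)) ?_)
    intro s hs
    exact h1 s hs

end unitary2

end Cfsg.Agent.Lib.AschAdj
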