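import Cfsg.Agent.Lib.AschAdj11
set_option autoImplicit false
set_option linter.style.haveILetI false
set_option linter.unusedVariables false
set_option linter.unusedSectionVars false

/-!
Aschbacher's theorem, unitary case: the refined list of cases is complete.
-/

namespace Cfsg.Agent.Lib.AschAdj

open Cfsg Cfsg.Geo Cfsg.Agent.Lib.AschMU Cfsg.Agent.Lib.AschCore Cfsg.Agent.Lib.AschField Cfsg.Agent.Lib.AschAlg
  Cfsg.Agent.Lib.AschGroup Cfsg.Agent.Lib.AschGood Cfsg.Agent.Lib.AschNonab Cfsg.Agent.Lib.AschTensor Cfsg.Agent.Lib.AschComp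
open Cfsg.Agent.Lib.AschDescent (env mem_env)
open Cfsg.Agent.Lib.AschForm (sm)
open scoped Matrix MatrixGroups Kronecker commutatorElement

section unitary
variable {F : Type*} [Field F] [Fintype F] {n q : ℕ} (hF : Fintype.card F = q ^ 2)
include hF

/-- An absolutely irreducible normal subgroup fixing a bilinear form. -/
lemma ucase_bilinear (hn : 2 ≤ n) {H P : Subgroup (GL (Fin n) F)} (hI : H ≤ GU n F q) (hPH : P ≤ H) (hnorm : NormBy H P)
    (habs : ActsAbsolutelyIrreducibly (matrixSet P)) {f : (Fin n → F) → (Fin n → F) → F} (hb : IsBilinearForm f)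
    (hnd : IsNondegenerateForm f) (hfix : FixesForm (matrixSet P) f) : UCase n q H := by
  have hHI : ∀ g ∈ H, IsIso (sg hF) 1 g := fun g hg => (mem_GU hF).1 (hI hg)
  have hs := AschForms.isSesq_of_bilinear hb
  refine ucase_rat2 hF (rat2_of_invariant (rf_one hF) (sg_ne hF) (by rw [Fintype.card_fin]; exact hn) habs
      (fun g hg => hHI g (hPH hg)) hHI hnorm (hs.isUnit_gram hnd) ?_)
  intro s hs'
  have h1 := (hs.fixes_iff (s : Matrix (Fin n) (Fin n) F)).1 (fun u v => hfix _ ⟨s, hs', rfl⟩ u v)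
  have h2 : (s : Matrix (Fin n) (Fin n) F).map (RingHom.id F) = (s : Matrix (Fin n) (Fin n) F) := by ext; rfl
  rwa [h2] at h1

/-- Good groups. -/
theorem ucase_good (hn : 2 ≤ n) {H : Subgroup (GL (Fin n) F)} (hI : H ≤ GU n F q) (hgood : FGood H) : UCase n q H := by
  classical
  haveI hne : Nonempty (Fin n) := ⟨⟨0, by omega⟩⟩
  have hfinM : Finite (Matrix (Fin n) (Fin n) F) := inferInstanceAs (Finite (Fin n → Fin n → F))
  have hirr := hgood.irr
  have hnorm : NormBy H (H ⊔ scalars (Fin n) F) :=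
    (normBy_self H).sup (normBy_of_central scalars_le_center)
  have hns : H ⊔ scalars (Fin n) F ≠ scalars (Fin n) F := by
    intro h
    have hle : H ≤ scalars (Fin n) F := by rw [← h]; exact le_sup_left
    obtain ⟨i, j, hij⟩ := Fintype.one_lt_card_iff.1 (show 1 < Fintype.card (Fin n) by rw [Fintype.card_fin]; omega)
    rcases hirr (Submodule.span F {(Pi.single i 1 : Fin n → F)}) (by
      rintro _ ⟨g, hg, rfl⟩ _ ⟨v, hv, rfl⟩
      obtain ⟨c, hc⟩ := (mem_scalars_iff g).1 (hle hg)
      show Matrix.toLin' (g : Matrix (Fin n) (Fin n) F) v ∈ _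
      rw [Matrix.toLin'_apply, hc, Matrix.smul_mulVec, Matrix.one_mulVec]
      exact Submodule.smul_mem _ _ hv) with h1 | h1
    · rw [Submodule.span_singleton_eq_bot] at h1
      have := congrFun h1 i
      simp at this
    · have h2 : (Pi.single j 1 : Fin n → F) ∈ Submodule.span F {(Pi.single i 1 : Fin n → F)} := by rw [h1]; trivial
      rw [Submodule.mem_span_singleton] at h2
      obtain ⟨a, ha⟩ := h2
      have := congrFun ha j
      simp [hij.symm] at this
  obtain ⟨N, hNle, hN⟩ := exists_isMinOver (H := H) (K := H ⊔ scalars (Fin n) F) le_sup_right hns hnorm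
  by_cases hab : ⁅N, N⁆ ≤ scalars (Fin n) F
  · obtain ⟨R, r, m, hRH, hD⟩ := fabel_case (by rw [Fintype.card_fin]; exact hn) hgood hNle hN hab
    exact ucase_symp hF hn hI hRH hD
  · rcases fnonab_cases hgood hNle hN hab with ⟨P, hP⟩ | ⟨t, P, hP⟩
    · by_cases hre : ∃ F₀ : Subfield F, F₀ ≠ ⊤ ∧ RealisableOver F₀ (matrixSet P)
      · obtain ⟨F₀, hF₀, h⟩ := hre
        exact ucase_real hF hn hP.absIrred (hP.le.trans hI) hI hP.normal hF₀ h
      push Not at hre
      by_cases hq : ∃ Q : (Fin n → F) → F, IsNondegenerateQuadraticForm Q ∧ FixesQuadForm (matrixSet P) Q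
      · obtain ⟨Q, hQ, hfix⟩ := hq
        exact ucase_bilinear hF hn hI hP.le hP.normal hP.absIrred hQ.polar_bilinear hQ.nondegenerate (AschLinear.fixes_polar hfix)
      by_cases hs : ∃ f : (Fin n → F) → (Fin n → F) → F, IsSymplecticForm f ∧ FixesForm (matrixSet P) f
      · obtain ⟨f, hf, hfix⟩ := hs
        exact ucase_bilinear hF hn hI hP.le hP.normal hP.absIrred hf.bilinear hf.nondegenerate hfix
      exact UCase.res ⟨P, hP.isResidualCore hre, hq, hs⟩
    · exact ucase_comp hF hn hI hP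

/-- **Aschbacher's theorem, unitary case, refined form.** -/
theorem ucase (hn : 2 ≤ n) {H : Subgroup (GL (Fin n) F)} (hI : H ≤ GU n F q) : UCase n q H := by
  classical
  haveI hne : Nonempty (Fin n) := ⟨⟨0, by omega⟩⟩
  by_cases hirr : ActsIrreducibly (matrixSet H)
  swap
  · exact ucase_red hF hI hirr
  have hHI : ∀ g ∈ H, IsIso (sg hF) 1 g := fun g hg => (mem_GU hF).1 (hI hg)
  rcases form_cases (rf_one hF) hHI hirr with ⟨t, e, he⟩ | ⟨r, K, hr, hrn, hK, hle, hA⟩ | ⟨A, d, e, φ, ρ, hd, he, hle, hA⟩ | hgood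
  · exact ucase_idem hF hirr he
  · exact ucase_field hF (by omega) hr hrn hK hle hA
  · exact ucase_tensor hF hI hd he φ ρ hle hA
  · exact ucase_good hF hn hI hgood

end unitary

end Cfsg.Agent.Lib.AschAdj
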