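import Cfsg.Agent.Lib.AschAdj12
set_option autoImplicit false
set_option linter.style.haveILetI false
set_option linter.unusedVariables false
set_option linter.unusedSectionVars false

/-!
Aschbacher's theorem, unitary case: the group `GU_3(2)`.
-/

namespace Cfsg.Agent.Lib.AschAdj

open Cfsg Cfsg.Geo Cfsg.Agent.Lib.AschMU Cfsg.Agent.Lib.AschCore Cfsg.Agent.Lib.AschField Cfsg.Agent.Lib.AschAlg
  Cfsg.Agent.Lib.AschGroup Cfsg.Agent.Lib.AschGood Cfsg.Agent.Lib.AschNonab Cfsg.Agent.Lib.AschTensor Cfsg.Agent.Lib.AschComp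
open Cfsg.Agent.Lib.AschDescent (env mem_env)
open Cfsg.Agent.Lib.AschForm (sm)
open scoped Matrix MatrixGroups Kronecker commutatorElement

/-- Perfect subgroups of order `2^a 3^b` are trivial. -/
lemma perfect_bot {Γ : Type*} [Group Γ] {P : Subgroup Γ} [Finite P] (hP : ⁅P, P⁆ = P) {a b : ℕ} (h2 : Nat.card P = 2 ^ a * 3 ^ b) :
    P = ⊥ := by
  have h3 := Burnside.isSolvable_of_card_eq _ 2 3 a b Nat.prime_two Nat.prime_three h2 rfl
  have h4 : ¬ Nontrivial P := by
    intro hnt
    have h5 := Group.IsSolvable.commutator_lt_top_of_nontrivial P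
    apply h5.ne
    rw [eq_top_iff]
    rintro ⟨x, hx⟩ -
    have h6 : x ∈ ⁅P, P⁆ := by rw [hP]; exact hx
    have h7 : (commutator P).map P.subtype = ⁅P, P⁆ := by
      rw [commutator_def, Subgroup.map_commutator, ← MonoidHom.range_eq_map, Subgroup.range_subtype]
    rw [← h7] at h6
    obtain ⟨y, hy, e⟩ := h6
    have : y = ⟨x, hx⟩ := Subtype.ext e
    rwa [← this]
  rw [not_nontrivial_iff_subsingleton] at h4
  rw [eq_bot_iff]
  intro x hx
  exact congrArg Subtype.val (h4.elim ⟨x, hx⟩ (1 : P))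

section three
variable {F : Type*} [Field F] [Fintype F] (hF : Fintype.card F = 2 ^ 2)

/-- transitivity of `GU` on vectors of the same norm -/
lemma gu_trans {n q : ℕ} (hF : Fintype.card F = q ^ 2) {u v : Fin n → F} (hu : u ≠ 0) (hv : v ≠ 0)
    (h : hermForm n F q u u = hermForm n F q v v) : ∃ g ∈ GU n F q, (g : Matrix (Fin n) (Fin n) F) *ᵥ u = v := by
  obtain ⟨g, hg⟩ := ClUnitary.exists_map hF hu hv h
  let g' := (ClIso.preservingEquiv (hermForm n F q)).symm g
  refine ⟨(g' : GL (Fin n) F), g'.2, ?_⟩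
  rw [← ClIso.preservingEquiv_apply]
  show ((ClIso.preservingEquiv (hermForm n F q)) ((ClIso.preservingEquiv (hermForm n F q)).symm g) : (Fin n → F) ≃ₗ[F] (Fin n → F)) u = v
  rw [MulEquiv.apply_symm_apply, hg]

include hF

lemma two_zero : (2 : F) = 0 := by
  have h1 : (Fintype.card F : F) = 0 := Nat.cast_card_eq_zero F
  rw [hF] at h1
  have h2 : (2 : F) * 2 = 0 := by
    have : ((2 ^ 2 : ℕ) : F) = 2 * 2 := by push_cast; ring
    rw [← this, h1]
  rcases mul_eq_zero.1 h2 with h | h <;> exact h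

lemma cube_one {x : F} (hx : x ≠ 0) : x ^ 3 = 1 := by
  have := FiniteField.pow_card_sub_one_eq_one x hx
  rw [hF] at this
  exact this

lemma exists_omega : ∃ w : F, w ≠ 0 ∧ w ≠ 1 ∧ w ^ 3 = 1 := by
  classical
  by_contra hcon
  push Not at hcon
  have h1 : ∀ x : F, x = 0 ∨ x = 1 := by
    intro x
    by_cases h0 : x = 0
    · exact Or.inl h0
    · right
      by_contra h1
      exact hcon x h0 h1 (cube_one hF h0)
  have h2 : Fintype.card F ≤ 2 := by
    rw [← Finset.card_univ]
    calc (Finset.univ : Finset F).card ≤ ({0, 1} : Finset F).card := Finset.card_le_card (by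
          intro x _
          rcases h1 x with h | h <;> simp [h])
      _ ≤ 2 := Finset.card_le_two
  rw [hF] at h2
  norm_num at h2

lemma herm3 (u v : Fin 3 → F) : hermForm 3 F 2 u v = u 0 * v 0 ^ 2 + u 1 * v 1 ^ 2 + u 2 * v 2 ^ 2 := by
  unfold hermForm
  rw [Fin.sum_univ_three]

/-- `GU_3(2)` is irreducible. -/
lemma gu3_irr : ActsIrreducibly (matrixSet (GU 3 F 2)) := by
  intro W hW
  by_cases hb : W = ⊥
  · exact Or.inl hb
  right
  obtain ⟨w, hw, hw0⟩ := Submodule.exists_mem_ne_zero_of_ne_bot hb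
  have key : ∀ v : Fin 3 → F, v ≠ 0 → hermForm 3 F 2 w w = hermForm 3 F 2 v v → v ∈ W := by
    intro v hv h
    obtain ⟨g, hg, e⟩ := gu_trans hF hw0 hv h
    rw [← e]
    have := hW _ ⟨g, hg, rfl⟩ ⟨w, hw, rfl⟩
    rwa [Matrix.toLin'_apply] at this
  have h20 := two_zero hF
  obtain ⟨ω, hω0, hω1, hω3⟩ := exists_omega hF
  -- norm one vectors
  have hone : ∀ i, (∃ v ∈ W, hermForm 3 F 2 v v = 1) → (Pi.single i 1 : Fin 3 → F) ∈ W := by
    rintro i ⟨v, hv, hv1⟩
    have hv0 : v ≠ 0 := by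
      rintro rfl
      rw [herm3 hF] at hv1
      simp at hv1
    have hs0 : (Pi.single i 1 : Fin 3 → F) ≠ 0 := by
      intro h
      have := congrFun h i
      simp at this
    obtain ⟨g, hg, e⟩ := gu_trans hF hv0 hs0 (by
      rw [hv1, herm3 hF]
      fin_cases i <;> simp)
    rw [← e]
    have := hW _ ⟨g, hg, rfl⟩ ⟨v, hv, rfl⟩
    rwa [Matrix.toLin'_apply] at this
  have hall : (∃ v ∈ W, hermForm 3 F 2 v v = 1) → W = ⊤ := by
    intro h
    rw [eq_top_iff]
    intro v _
    have : v = ∑ i, v i • (Pi.single i 1 : Fin 3 → F) := by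
      ext j
      simp [Finset.sum_apply, Pi.single_apply]
    rw [this]
    exact Submodule.sum_mem _ fun i _ => Submodule.smul_mem _ _ (hone i h)
  have hc : hermForm 3 F 2 w w = 0 ∨ hermForm 3 F 2 w w = 1 := by
    have h1 : (hermForm 3 F 2 w w) ^ 2 = hermForm 3 F 2 w w := ClUnitary.fixed_norm hF w
    have h2 : hermForm 3 F 2 w w * (hermForm 3 F 2 w w - 1) = 0 := by rw [mul_sub, mul_one, ← pow_two, h1, sub_self]
    rcases mul_eq_zero.1 h2 with h | h
    · exact Or.inl h
    · exact Or.inr (sub_eq_zero.1 h)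
  rcases hc with hc | hc
  · have h1 : (![1, 1, 0] : Fin 3 → F) ∈ W := by
      apply key
      · intro h
        have := congrFun h 0
        simp at this
      · rw [hc, herm3 hF]
        simp
        linear_combination (-1 : F) * h20
    have h2 : (![1, ω, 0] : Fin 3 → F) ∈ W := by
      apply key
      · intro h
        have := congrFun h 0
        simp at this
      · rw [hc, herm3 hF]
        simp
        linear_combination (-1 : F) * h20 - hω3
    have h3 := W.sub_mem h1 h2
    have h4 := W.smul_mem (1 - ω)⁻¹ h3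
    have hne : (1 - ω) ≠ 0 := sub_ne_zero.2 (Ne.symm hω1)
    apply hall
    refine ⟨_, h4, ?_⟩
    rw [herm3 hF]
    simp [inv_mul_cancel₀ hne]
  · exact hall ⟨w, hw, hc⟩

/-- `GU_3(2)` is primitive. -/
lemma gu3_prim {t : ℕ} {D : Fin t → Submodule F (Fin 3 → F)} (hD : IsNondegenerateMDecomposition (hermForm 3 F 2) 1 D) (ht : t = 3)
    (hle : GU 3 F 2 ≤ decompositionStabilizer D) : False := by
  subst ht
  have h20 := two_zero hF
  -- a norm one vector in D 0
  have h0 := hD.decomp.finrank_eq 0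
  obtain ⟨w, hw, hw0⟩ := Submodule.exists_mem_ne_zero_of_ne_bot (p := D 0) (by
    intro h
    rw [h, finrank_bot] at h0
    exact zero_ne_one h0)
  have hsp : ∀ i (v : Fin 3 → F), v ∈ D i → v ≠ 0 → ∀ u ∈ D i, ∃ c : F, u = c • v := by
    intro i v hv hv0 u hu
    obtain ⟨c, hc⟩ := (finrank_eq_one_iff_of_nonzero' (⟨v, hv⟩ : D i) (by
      intro h; exact hv0 (congrArg Subtype.val h))).1 (hD.decomp.finrank_eq i) ⟨u, hu⟩
    exact ⟨c, (congrArg Subtype.val hc).symm⟩
  have hww : hermForm 3 F 2 w w ≠ 0 := by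
    obtain ⟨⟨x, hx, hxw⟩, -⟩ := hD.nondegenerate 0 w hw hw0
    obtain ⟨c, rfl⟩ := hsp 0 w hw hw0 x hx
    intro h
    apply hxw
    rw [herm_eq hF, bf_smul_left, ← herm_eq hF, h, mul_zero]
  have hc : hermForm 3 F 2 w w = 1 := by
    have h1 : (hermForm 3 F 2 w w) ^ 2 = hermForm 3 F 2 w w := ClUnitary.fixed_norm hF w
    have h2 : hermForm 3 F 2 w w * (hermForm 3 F 2 w w - 1) = 0 := by rw [mul_sub, mul_one, ← pow_two, h1, sub_self]
    rcases mul_eq_zero.1 h2 with h | h
    · exact absurd h hww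
    · exact sub_eq_zero.1 h
  have hall : ∀ v : Fin 3 → F, v ≠ 0 → hermForm 3 F 2 v v = 1 → ∃ j, v ∈ D j := by
    intro v hv h
    obtain ⟨g, hg, e⟩ := gu_trans hF hw0 hv (by rw [hc, h])
    obtain ⟨π, hπ⟩ := hle hg
    refine ⟨π 0, ?_⟩
    rw [← hπ 0]
    exact ⟨w, hw, by rw [Matrix.toLin'_apply, e]⟩
  let V : Fin 4 → (Fin 3 → F) := ![![1, 0, 0], ![0, 1, 0], ![0, 0, 1], ![1, 1, 1]]
  have hV0 : ∀ i, V i ≠ 0 := by
    intro i h
    fin_cases i
    · have := congrFun h 0; simp [V] at this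
    · have := congrFun h 1; simp [V] at this
    · have := congrFun h 2; simp [V] at this
    · have := congrFun h 0; simp [V] at this
  have hV1 : ∀ i, hermForm 3 F 2 (V i) (V i) = 1 := by
    intro i
    rw [herm3 hF]
    fin_cases i
    · simp [V]
    · simp [V]
    · simp [V]
    · simp [V]
      linear_combination h20
  choose j hj using fun i => hall (V i) (hV0 i) (hV1 i)
  obtain ⟨a, b, hab, hjab⟩ := Fintype.exists_ne_map_eq_of_card_lt j (by simp)
  obtain ⟨c, hcab⟩ := hsp (j a) (V a) (hj a) (hV0 a) (V b) (by rw [hjab]; exact hj b)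
  have e0 := congrFun hcab 0
  have e1 := congrFun hcab 1
  have e2 := congrFun hcab 2
  fin_cases a <;> fin_cases b <;> simp [V] at e0 e1 e2 hab
  · exact one_ne_zero (e0.trans e1.symm)
  · exact one_ne_zero (e1.trans e0.symm)
  · exact one_ne_zero (e2.trans e0.symm)

/-- `GU_3(2)` preserves no cubic field. -/
lemma gu3_field {K : Subalgebra F (Matrix (Fin 3) (Fin 3) F)} (hK : IsFieldSubalgebra 3 K) (hle : GU 3 F 2 ≤ subalgebraNormalizer K) :
    False := by
  have h20 := two_zero hF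
  -- a non-scalar element of K
  obtain ⟨k, hk, hks⟩ : ∃ k ∈ K, ∀ c : F, k ≠ c • (1 : Matrix (Fin 3) (Fin 3) F) := by
    by_contra hcon
    push Not at hcon
    have h1 : K = ⊥ := by
      rw [eq_bot_iff]
      intro k hk
      obtain ⟨c, hc⟩ := hcon k hk
      rw [hc]
      exact Subalgebra.smul_mem _ (one_mem _) c
    have h2 := hK.finrank_eq
    rw [h1, Subalgebra.finrank_bot] at h2
    norm_num at h2
  have hunit : ∀ x ∈ K, (∃ v : Fin 3 → F, v ≠ 0 ∧ x *ᵥ v = 0) → x = 0 := by
    rintro x hx ⟨v, hv, hxv⟩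
    by_contra h0
    obtain ⟨y, hy, hxy⟩ := hK.inv x hx h0
    apply hv
    calc v = (y * x) *ᵥ v := by rw [hK.comm y hy x hx, hxy, Matrix.one_mulVec]
      _ = 0 := by rw [← Matrix.mulVec_mulVec, hxv, Matrix.mulVec_zero]
  -- the transposition
  let S : Matrix (Fin 3) (Fin 3) F := !![0, 1, 0; 1, 0, 0; 0, 0, 1]
  have hSS : S * S = 1 := by
    ext i j
    fin_cases i <;> fin_cases j <;> simp [S, Matrix.mul_apply, Fin.sum_univ_three]
  let s : GL (Fin 3) F := ⟨S, S, hSS, hSS⟩
  have hs : s ∈ GU 3 F 2 := by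
    intro u v
    rw [herm3 hF, herm3 hF]
    have e0 : ∀ w : Fin 3 → F, (S *ᵥ w) 0 = w 1 := fun w => by simp [S, Matrix.mulVec, dotProduct, Fin.sum_univ_three]
    have e1 : ∀ w : Fin 3 → F, (S *ᵥ w) 1 = w 0 := fun w => by simp [S, Matrix.mulVec, dotProduct, Fin.sum_univ_three]
    have e2 : ∀ w : Fin 3 → F, (S *ᵥ w) 2 = w 2 := fun w => by simp [S, Matrix.mulVec, dotProduct, Fin.sum_univ_three]
    show (S *ᵥ u) 0 * (S *ᵥ v) 0 ^ 2 + (S *ᵥ u) 1 * (S *ᵥ v) 1 ^ 2 + (S *ᵥ u) 2 * (S *ᵥ v) 2 ^ 2 = _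
    rw [e0, e1, e2, e0, e1, e2]
    ring
  have hk' : S * k * S ∈ K := ((hle hs) k).1 hk
  -- S k - k S kills a vector
  have hcomm : S * k * S - k = 0 := by
    apply hunit _ (K.sub_mem hk' hk)
    -- find v with S v = v (so (SkS - k) v' where v' = ...)
    -- N = S - 1, want v with S v = v and (S - 1) k v = 0
    obtain ⟨v, hv, hSv, hSkv⟩ : ∃ v : Fin 3 → F, v ≠ 0 ∧ S *ᵥ v = v ∧ S *ᵥ (k *ᵥ v) = k *ᵥ v := by
      by_cases hl : k 0 2 = k 1 2 ∧ k 0 0 + k 0 1 = k 1 0 + k 1 1
      · refine ⟨![1, 1, 0], ?_, ?_, ?_⟩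
        · intro h
          have := congrFun h 0
          simp at this
        · ext i
          fin_cases i <;> simp [S, Matrix.mulVec, dotProduct, Fin.sum_univ_three]
        · ext i
          fin_cases i
          · simp [S, Matrix.mulVec, dotProduct, Fin.sum_univ_three]
            exact hl.2.symm
          · simp [S, Matrix.mulVec, dotProduct, Fin.sum_univ_three]
            exact hl.2
          · simp [S, Matrix.mulVec, dotProduct, Fin.sum_univ_three]
      · refine ⟨![k 0 2 - k 1 2, k 0 2 - k 1 2, (k 1 0 + k 1 1) - (k 0 0 + k 0 1)], ?_, ?_, ?_⟩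
        · intro h
          apply hl
          have h0 := congrFun h 0
          have h2 := congrFun h 2
          simp at h0 h2
          exact ⟨sub_eq_zero.1 h0, (sub_eq_zero.1 h2).symm⟩
        · ext i
          fin_cases i <;> simp [S, Matrix.mulVec, dotProduct, Fin.sum_univ_three]
        · ext i
          fin_cases i
          · simp [S, Matrix.mulVec, dotProduct, Fin.sum_univ_three]
            ring
          · simp [S, Matrix.mulVec, dotProduct, Fin.sum_univ_three]
            ring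
          · simp [S, Matrix.mulVec, dotProduct, Fin.sum_univ_three]
    refine ⟨v, hv, ?_⟩
    rw [Matrix.sub_mulVec, ← Matrix.mulVec_mulVec, hSv, ← Matrix.mulVec_mulVec, hSkv, sub_self]
  have hcomm' : S * k = k * S := by
    have h1 : S * k * S = k := sub_eq_zero.1 hcomm
    calc S * k = S * k * (S * S) := by rw [hSS, mul_one]
      _ = (S * k * S) * S := by simp only [mul_assoc]
      _ = k * S := by rw [h1]
  -- k fixes the line spanned by (1, -1, 0)
  have h1 : S *ᵥ (k *ᵥ ![1, -1, 0]) = - (k *ᵥ ![1, -1, 0]) := by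
    rw [Matrix.mulVec_mulVec, hcomm', ← Matrix.mulVec_mulVec, ← Matrix.mulVec_neg]
    congr 1
    ext i
    fin_cases i <;> simp [S, Matrix.mulVec, dotProduct, Fin.sum_univ_three]
  -- use (S + 1) k = k (S + 1) applied to e_0
  have h3 : k *ᵥ ![1, 1, 0] = ((k 0 0 + k 1 0)) • ![1, 1, 0] := by
    have e1 : (S + 1) *ᵥ ![1, 0, 0] = (![1, 1, 0] : Fin 3 → F) := by
      ext i
      fin_cases i <;> simp [S, Matrix.mulVec, dotProduct, Fin.sum_univ_three, Matrix.add_apply]
    rw [← e1, Matrix.mulVec_mulVec, mul_add, mul_one, ← hcomm', ← one_mul k, ← mul_assoc, mul_one, ← add_mul, one_mul, ← Matrix.mulVec_mulVec]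
    have e2 : k *ᵥ ![1, 0, 0] = ![k 0 0, k 1 0, k 2 0] := by
      ext i
      fin_cases i <;> simp [Matrix.mulVec, dotProduct, Fin.sum_univ_three]
    rw [e2, e1]
    ext i
    fin_cases i
    · simp [S, Matrix.mulVec, dotProduct, Fin.sum_univ_three, Matrix.add_apply]
      try ring
    · simp [S, Matrix.mulVec, dotProduct, Fin.sum_univ_three, Matrix.add_apply]
      try ring
    · simp [S, Matrix.mulVec, dotProduct, Fin.sum_univ_three, Matrix.add_apply]
      exact Or.inl (by linear_combination h20)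
  have h4 : k - (k 0 0 + k 1 0) • (1 : Matrix (Fin 3) (Fin 3) F) = 0 := by
    apply hunit _ (K.sub_mem hk (Subalgebra.smul_mem _ (one_mem _) _))
    refine ⟨![1, 1, 0], ?_, ?_⟩
    · intro h
      have := congrFun h 0
      simp at this
    · rw [Matrix.sub_mulVec, h3, Matrix.smul_mulVec, Matrix.one_mulVec, sub_self]
  exact hks _ (sub_eq_zero.1 h4)

/-- `GU_3(2)` is good. -/
lemma gu3_good : FGood (GU 3 F 2) := by
  have hHI : ∀ g ∈ GU 3 F 2, IsIso (sg hF) 1 g := fun g hg => (mem_GU hF).1 hg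
  have hirr := gu3_irr hF
  rcases form_cases (rf_one hF) hHI hirr with ⟨t, e, he⟩ | ⟨r, K, hr, hrn, hK, hle, hA⟩ | ⟨A, d, e, φ, ρ, hd, he, hle, hA⟩ | hgood
  · exfalso
    rcases he.star with hs | ⟨ht, hs⟩
    · have hD := he.nondeg (rf_one hF) hs hirr
      rw [← herm_eq hF] at hD
      have h1 := card_of_decomp hD.decomp
      rw [Fintype.card_fin] at h1
      have h2 := hD.decomp.two_le
      have h3 := hD.decomp.pos
      have hle := (he.decomp hirr).2
      revert hD h1 h3 hle
      generalize Module.finrank F (rng (e ⟨0, by have := he.two_le; omega⟩)) = m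
      intro hD h1 h3 hle
      have h4 : m = 1 := by
        by_contra hne
        have : 2 * 2 ≤ t * m := Nat.mul_le_mul h2 (by omega)
        omega
      subst h4
      exact gu3_prim hF hD (by omega) hle
    · subst ht
      have hD := (he.decomp hirr).1
      have h1 := card_of_decomp hD
      rw [Fintype.card_fin] at h1
      omega
  · exfalso
    rw [Fintype.card_fin] at hrn
    have h3 : r = 3 := (Nat.prime_dvd_prime_iff_eq hr Nat.prime_three).1 hrn
    subst h3
    exact gu3_field hF hK hle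
  · exfalso
    have h1 := Fintype.card_congr ρ
    rw [Fintype.card_prod, Fintype.card_fin, Fintype.card_fin, Fintype.card_fin] at h1
    have h2 : d ∣ 3 := ⟨e, h1⟩
    rcases (Nat.dvd_prime Nat.prime_three).1 h2 with h | h
    · omega
    · rw [h] at h1; omega
  · exact hgood

end three

end Cfsg.Agent.Lib.AschAdj
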