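import Cfsg.Agent.Lib.AschAdj13
set_option autoImplicit false
set_option linter.style.haveILetI false
set_option linter.unusedVariables false
set_option linter.unusedSectionVars false

/-!
Aschbacher's theorem, unitary case: the exceptional tensor decomposition for `q = 2`, `n = 9`.
-/

namespace Cfsg.Agent.Lib.AschAdj

open Cfsg Cfsg.Geo Cfsg.Agent.Lib.AschMU Cfsg.Agent.Lib.AschCore Cfsg.Agent.Lib.AschField Cfsg.Agent.Lib.AschAlg
  Cfsg.Agent.Lib.AschGroup Cfsg.Agent.Lib.AschGood Cfsg.Agent.Lib.AschNonab Cfsg.Agent.Lib.AschTensor Cfsg.Agent.Lib.AschComp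
open Cfsg.Agent.Lib.AschDescent (env mem_env)
open Cfsg.Agent.Lib.AschForm (sm)
open Cfsg.Agent.Lib.AschExtra (ProjQ card_projQ mem_sup_scalars InvBy mem_scalars_of_comm exists_sympData)
open scoped Matrix MatrixGroups Kronecker commutatorElement

section gen
variable {ι : Type} [Fintype ι] [DecidableEq ι] {F : Type*} [Field F]

instance scalars_normal : (scalars ι F).Normal := by
  constructor
  intro z hz g
  have := Subgroup.mem_center_iff.1 (scalars_le_center hz) g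
  rw [this, mul_assoc, mul_inv_cancel, mul_one]
  exact hz

/-- An absolutely irreducible subgroup of a group abelian modulo scalars is everything modulo scalars. -/
lemma le_sup_of_absIrr [Finite F] [Nonempty ι] {M E : Subgroup (GL ι F)} (hle : M ≤ E) (hM : ActsAbsolutelyIrreducibly (matrixSet M))
    (hE : ActsAbsolutelyIrreducibly (matrixSet E)) (hcomm : ∀ x ∈ E, ∀ y ∈ E, x * y * x⁻¹ * y⁻¹ ∈ scalars ι F) :
    E ≤ M ⊔ scalars ι F := by
  have h1 := card_projQ M hM (fun x hx y hy => hcomm x (hle hx) y (hle hy))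
  have h2 := card_projQ E hE hcomm
  have h3 : (scalars ι F).relIndex M = (scalars ι F).relIndex E := by
    show Nat.card (ProjQ M) = Nat.card (ProjQ E)
    rw [h1, h2]
  have h4 : (scalars ι F).relIndex (M ⊔ scalars ι F) * (M ⊔ scalars ι F).relIndex (E ⊔ scalars ι F) =
      (scalars ι F).relIndex (E ⊔ scalars ι F) :=
    Subgroup.relIndex_mul_relIndex _ _ _ le_sup_right (sup_le_sup_right hle _)
  rw [Subgroup.relIndex_sup_right, Subgroup.relIndex_sup_right, h3] at h4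
  have h5 : (scalars ι F).relIndex E ≠ 0 := by
    show Nat.card (ProjQ E) ≠ 0
    rw [h2]
    exact pow_ne_zero _ Fintype.card_ne_zero
  have h6 : (M ⊔ scalars ι F).relIndex (E ⊔ scalars ι F) = 1 := by
    have := Nat.eq_of_mul_eq_mul_left (Nat.pos_of_ne_zero h5) (h4.trans (mul_one _).symm)
    exact this
  exact le_sup_left.trans (Subgroup.relIndex_eq_one.1 h6)

end gen

section E
variable {F : Type*} [Field F] [Fintype F] (hF : Fintype.card F = 2 ^ 2)
include hF

/-- The extraspecial normal subgroup of `GU_3(2)`. -/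
lemma gu3_E : ∃ E : Subgroup (GL (Fin 3) F), E ≤ GU 3 F 2 ∧ NormBy (GU 3 F 2) E ∧ ActsAbsolutelyIrreducibly (matrixSet E) ∧
    ∀ x ∈ E, ∀ y ∈ E, x * y * x⁻¹ * y⁻¹ ∈ scalars (Fin 3) F := by
  classical
  have hgood := gu3_good hF
  set H := GU 3 F 2 with hH
  have hfinM : Finite (Matrix (Fin 3) (Fin 3) F) := inferInstanceAs (Finite (Fin 3 → Fin 3 → F))
  have hnorm : NormBy H (H ⊔ scalars (Fin 3) F) := (normBy_self H).sup (normBy_of_central scalars_le_center)
  have hns : H ⊔ scalars (Fin 3) F ≠ scalars (Fin 3) F := by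
    intro h
    have hle : H ≤ scalars (Fin 3) F := by rw [← h]; exact le_sup_left
    have h1 : Nat.card H = 2 ^ 3 * 3 ^ 4 := card_GU_three_two hF
    have h2 := Subgroup.card_le_of_le hle
    have h3 : Nat.card (scalars (Fin 3) F) ≤ Nat.card Fˣ := by
      rw [AschExtra.scalars_eq_range]
      exact Nat.card_le_card_of_surjective _ (MonoidHom.rangeRestrict_surjective (AschExtra.unitScalar (Fin 3) F))
    rw [Nat.card_eq_fintype_card (α := Fˣ), Fintype.card_units, hF] at h3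
    rw [h1] at h2
    norm_num at h2 h3
    omega
  obtain ⟨N, hNle, hN⟩ := exists_isMinOver (H := H) (K := H ⊔ scalars (Fin 3) F) le_sup_right hns hnorm
  have hperf : ∀ P : Subgroup (GL (Fin 3) F), P ≤ H → ⁅P, P⁆ = P → P = ⊥ := by
    intro P hP hPP
    have h2 : Nat.card P ∣ 2 ^ 3 * 3 ^ 4 := by
      rw [← card_GU_three_two hF]
      exact Subgroup.card_dvd_of_le hP
    obtain ⟨x, y, hx, hy, e⟩ := (Nat.dvd_mul.1 h2)
    obtain ⟨a, -, rfl⟩ := (Nat.dvd_prime_pow Nat.prime_two).1 hx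
    obtain ⟨b, -, rfl⟩ := (Nat.dvd_prime_pow Nat.prime_three).1 hy
    exact perfect_bot hPP e.symm
  by_cases hab : ⁅N, N⁆ ≤ scalars (Fin 3) F
  · obtain ⟨R, r, m, hRH, hD⟩ := fabel_case (by rw [Fintype.card_fin]; norm_num) hgood hNle hN hab
    exact ⟨R, hRH, hD.inv, hD.absIrr, hD.comm⟩
  · exfalso
    rcases fnonab_cases hgood hNle hN hab with ⟨P, hP⟩ | ⟨t, P, hP⟩
    · have h1 := hperf P hP.le hP.perfect
      apply hP.nonabelian
      subst h1
      haveI : Subsingleton ((⊥ : Subgroup (GL (Fin 3) F)) ⧸ (scalars (Fin 3) F).subgroupOf ⊥) := by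
        constructor
        intro x y
        obtain ⟨x, rfl⟩ := QuotientGroup.mk_surjective x
        obtain ⟨y, rfl⟩ := QuotientGroup.mk_surjective y
        rw [Subsingleton.elim x y]
      exact ⟨⟨fun a b => Subsingleton.elim _ _⟩⟩
    · have h0 : 0 < t := by have := hP.two_le; omega
      have h1 := hperf (P ⟨0, h0⟩) (hP.le _) (hP.perfect _)
      apply hP.nonscalar ⟨0, h0⟩
      rw [h1]; exact bot_le

end E

section kr
variable {ι : Type} [Fintype ι] [DecidableEq ι] {F : Type*} [Field F]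

/-- conjugated Kronecker product as a homomorphism -/
def kh {d : ℕ} (ρ : ι ≃ Fin d × Fin d) (P : GL ι F) : GL (Fin d) F × GL (Fin d) F →* GL ι F where
  toFun x := P * kronU ρ x.1 x.2 * P⁻¹
  map_one' := by
    have : kronU ρ (1 : GL (Fin d) F) (1 : GL (Fin d) F) = 1 := by
      ext1
      rw [kronU_val, Units.val_one, kronL_one, Units.val_one]
    rw [Prod.fst_one, Prod.snd_one, this, mul_one, mul_inv_cancel]
  map_mul' x y := by
    rw [Prod.fst_mul, Prod.snd_mul, ← kronU_mul]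
    group

lemma kh_apply {d : ℕ} (ρ : ι ≃ Fin d × Fin d) (P : GL ι F) (a b : GL (Fin d) F) : kh ρ P (a, b) = P * kronU ρ a b * P⁻¹ := rfl

/-- the swap matrix -/
def swpM {d : ℕ} (F : Type*) [Field F] (ρ : ι ≃ Fin d × Fin d) : Matrix ι ι F := Matrix.of fun i j => if ρ j = (ρ i).swap then 1 else 0

lemma swpM_sq {d : ℕ} (ρ : ι ≃ Fin d × Fin d) : swpM F ρ * swpM F ρ = 1 := by
  ext i j
  rw [Matrix.mul_apply, Finset.sum_eq_single (ρ.symm (ρ i).swap)]
  · simp only [swpM, Matrix.of_apply, Equiv.apply_symm_apply, if_true, one_mul, Prod.swap_swap, Matrix.one_apply,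
      EmbeddingLike.apply_eq_iff_eq]
    by_cases h : i = j
    · subst h; simp
    · rw [if_neg (Ne.symm h), if_neg h]
  · intro k _ hk
    rw [swpM, Matrix.of_apply, if_neg, zero_mul]
    intro h
    apply hk
    rw [← h, Equiv.symm_apply_apply]
  · intro h; exact absurd (Finset.mem_univ _) h

/-- the swap of the two tensor factors -/
def swp {d : ℕ} (ρ : ι ≃ Fin d × Fin d) : GL ι F where
  val := swpM F ρ
  inv := swpM F ρ
  val_inv := swpM_sq ρ
  inv_val := swpM_sq ρ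

lemma swp_inv {d : ℕ} (ρ : ι ≃ Fin d × Fin d) : (swp ρ : GL ι F)⁻¹ = swp ρ := rfl

lemma swp_mul {d : ℕ} (ρ : ι ≃ Fin d × Fin d) (X : Matrix ι ι F) (i j : ι) :
    (((swp ρ : GL ι F) : Matrix ι ι F) * X) i j = X (ρ.symm (ρ i).swap) j := by
  rw [Matrix.mul_apply, Finset.sum_eq_single (ρ.symm (ρ i).swap)]
  · show (if ρ (ρ.symm (ρ i).swap) = (ρ i).swap then (1 : F) else 0) * _ = _
    rw [Equiv.apply_symm_apply, if_pos rfl, one_mul]
  · intro k _ hk
    show (if ρ k = (ρ i).swap then (1 : F) else 0) * _ = _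
    rw [if_neg, zero_mul]
    intro h
    apply hk
    rw [← h, Equiv.symm_apply_apply]
  · intro h; exact absurd (Finset.mem_univ _) h

lemma mul_swp {d : ℕ} (ρ : ι ≃ Fin d × Fin d) (X : Matrix ι ι F) (i j : ι) :
    (X * ((swp ρ : GL ι F) : Matrix ι ι F)) i j = X i (ρ.symm (ρ j).swap) := by
  rw [Matrix.mul_apply, Finset.sum_eq_single (ρ.symm (ρ j).swap)]
  · show _ * (if ρ j = (ρ (ρ.symm (ρ j).swap)).swap then (1 : F) else 0) = _
    rw [Equiv.apply_symm_apply, Prod.swap_swap, if_pos rfl, mul_one]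
  · intro k _ hk
    show _ * (if ρ j = (ρ k).swap then (1 : F) else 0) = _
    rw [if_neg, mul_zero]
    intro h
    apply hk
    rw [h, Prod.swap_swap, Equiv.symm_apply_apply]
  · intro h; exact absurd (Finset.mem_univ _) h

lemma swp_kronU {d : ℕ} (ρ : ι ≃ Fin d × Fin d) (a b : GL (Fin d) F) : (swp ρ : GL ι F) * kronU ρ a b * (swp ρ)⁻¹ = kronU ρ b a := by
  rw [swp_inv]
  ext i j
  rw [Units.val_mul, Units.val_mul, mul_swp, swp_mul]
  simp [kronU_val, kronL, mul_comm]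

lemma kh_swap {d : ℕ} (ρ : ι ≃ Fin d × Fin d) (P : GL ι F) (a b : GL (Fin d) F) :
    (P * swp ρ * P⁻¹) * kh ρ P (a, b) * (P * swp ρ * P⁻¹)⁻¹ = kh ρ P (b, a) := by
  rw [kh_apply, kh_apply, ← swp_kronU ρ a b]
  group

lemma kh_scalar {d : ℕ} (ρ : ι ≃ Fin d × Fin d) (P : GL ι F) {a b : GL (Fin d) F} (ha : a ∈ scalars (Fin d) F) (hb : b ∈ scalars (Fin d) F) :
    kh ρ P (a, b) ∈ scalars ι F := by
  obtain ⟨c, hc⟩ := (mem_scalars_iff a).1 ha
  obtain ⟨c', hc'⟩ := (mem_scalars_iff b).1 hb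
  rw [mem_scalars_iff]
  refine ⟨c * c', ?_⟩
  rw [kh_apply, Units.val_mul, Units.val_mul, kronU_val, hc, hc', smul_kronL, kronL_smul, kronL_one, smul_smul, Matrix.mul_smul, mul_one,
    Matrix.smul_mul, gl_mul_inv]
  rfl

/-- The Kronecker product of two absolutely irreducible groups. -/
lemma absIrr_kh [Finite F] [Nonempty ι] {d : ℕ} (hd : d ≠ 0) (ρ : ι ≃ Fin d × Fin d) (P : GL ι F) {E : Subgroup (GL (Fin d) F)}
    (hE : ActsAbsolutelyIrreducibly (matrixSet E)) : ActsAbsolutelyIrreducibly (matrixSet ((E.prod E).map (kh ρ P))) := by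
  haveI : Nonempty (Fin d) := ⟨⟨0, Nat.pos_of_ne_zero hd⟩⟩
  apply absIrr_of_env_top
  set N := (E.prod E).map (kh ρ P) with hN
  have hspan := AschForms.span_eq_top E hE
  have h1 : ∀ a ∈ E, ∀ b ∈ E, (P : Matrix ι ι F) * kronL ρ (a : Matrix (Fin d) (Fin d) F) (b : Matrix (Fin d) (Fin d) F) *
      ((P⁻¹ : GL ι F) : Matrix ι ι F) ∈ env N := by
    intro a ha b hb
    exact mem_env (g := kh ρ P (a, b)) ⟨(a, b), ⟨ha, hb⟩, rfl⟩
  have h2 : ∀ a ∈ E, ∀ y : Matrix (Fin d) (Fin d) F, (P : Matrix ι ι F) * kronL ρ (a : Matrix (Fin d) (Fin d) F) y *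
      ((P⁻¹ : GL ι F) : Matrix ι ι F) ∈ env N := by
    intro a ha y
    have hy : y ∈ Submodule.span F (matrixSet E) := by rw [hspan]; trivial
    induction hy using Submodule.span_induction with
    | mem y hy => obtain ⟨b, hb, rfl⟩ := hy; exact h1 a ha b hb
    | zero =>
      have : kronL ρ (a : Matrix (Fin d) (Fin d) F) (0 : Matrix (Fin d) (Fin d) F) = 0 := by ext i j; simp [kronL]
      rw [this, mul_zero, zero_mul]; exact zero_mem _
    | add x y _ _ hx hy =>
      have : kronL ρ (a : Matrix (Fin d) (Fin d) F) (x + y) = kronL ρ (a : Matrix (Fin d) (Fin d) F) x + kronL ρ (a : Matrix (Fin d) (Fin d) F) y := by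
        ext i j; simp [kronL, mul_add]
      rw [this, mul_add, add_mul]; exact add_mem hx hy
    | smul c x _ hx =>
      rw [kronL_smul, Matrix.mul_smul, Matrix.smul_mul]; exact Subalgebra.smul_mem _ hx c
  have h3 : ∀ x y : Matrix (Fin d) (Fin d) F, (P : Matrix ι ι F) * kronL ρ x y * ((P⁻¹ : GL ι F) : Matrix ι ι F) ∈ env N := by
    intro x y
    have hx : x ∈ Submodule.span F (matrixSet E) := by rw [hspan]; trivial
    induction hx using Submodule.span_induction with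
    | mem x hx => obtain ⟨a, ha, rfl⟩ := hx; exact h2 a ha y
    | zero =>
      have : kronL ρ (0 : Matrix (Fin d) (Fin d) F) y = 0 := by ext i j; simp [kronL]
      rw [this, mul_zero, zero_mul]; exact zero_mem _
    | add x x' _ _ hx hx' =>
      have : kronL ρ (x + x') y = kronL ρ x y + kronL ρ x' y := by
        ext i j; simp [kronL, add_mul]
      rw [this, mul_add, add_mul]; exact add_mem hx hx'
    | smul c x _ hx =>
      rw [smul_kronL, Matrix.mul_smul, Matrix.smul_mul]; exact Subalgebra.smul_mem _ hx c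
  rw [eq_top_iff]
  intro X _
  have h4 : X = (P : Matrix ι ι F) * ((((P⁻¹ : GL ι F) : Matrix ι ι F) * X * (P : Matrix ι ι F))) * ((P⁻¹ : GL ι F) : Matrix ι ι F) := by
    calc X = ((P : Matrix ι ι F) * ((P⁻¹ : GL ι F) : Matrix ι ι F)) * X * ((P : Matrix ι ι F) * ((P⁻¹ : GL ι F) : Matrix ι ι F)) := by
          rw [gl_mul_inv, one_mul, mul_one]
      _ = _ := by simp only [mul_assoc]
  set Y := ((P⁻¹ : GL ι F) : Matrix ι ι F) * X * (P : Matrix ι ι F) with hY
  have h5 : Y = ∑ i, ∑ j, Y i j • kronL ρ (Matrix.single (ρ i).1 (ρ j).1 (1 : F)) (Matrix.single (ρ i).2 (ρ j).2 (1 : F)) := by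
    have h6 : ∀ i j, kronL ρ (Matrix.single (ρ i).1 (ρ j).1 (1 : F)) (Matrix.single (ρ i).2 (ρ j).2 (1 : F)) = Matrix.single i j (1 : F) := by
      intro i j
      ext k l
      have hik : (i = k) ↔ ((ρ i).1 = (ρ k).1 ∧ (ρ i).2 = (ρ k).2) := by rw [← Prod.ext_iff, ρ.injective.eq_iff]
      have hjl : (j = l) ↔ ((ρ j).1 = (ρ l).1 ∧ (ρ j).2 = (ρ l).2) := by rw [← Prod.ext_iff, ρ.injective.eq_iff]
      simp only [kronL, Matrix.reindex_apply, Matrix.submatrix_apply, Equiv.symm_symm, Matrix.kroneckerMap_apply, Matrix.single_apply, hik, hjl]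
      by_cases a1 : (ρ i).1 = (ρ k).1 <;> by_cases a2 : (ρ i).2 = (ρ k).2 <;> by_cases a3 : (ρ j).1 = (ρ l).1 <;>
        by_cases a4 : (ρ j).2 = (ρ l).2 <;> simp [a1, a2, a3, a4]
    simp only [h6]
    conv_lhs => rw [Matrix.matrix_eq_sum_single Y]
    refine Finset.sum_congr rfl fun i _ => Finset.sum_congr rfl fun j _ => ?_
    rw [Matrix.smul_single, smul_eq_mul, mul_one]
  rw [h4, h5, Finset.mul_sum, Finset.sum_mul]
  refine sum_mem fun i _ => ?_
  rw [Finset.mul_sum, Finset.sum_mul]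
  refine sum_mem fun j _ => ?_
  rw [Matrix.mul_smul, Matrix.smul_mul]
  exact Subalgebra.smul_mem _ (h3 _ _) _

end kr

section exc
variable {F : Type*} [Field F] [Fintype F] {n : ℕ}

lemma gram_iff {n q : ℕ} (hF : Fintype.card F = q ^ 2) {g : GL (Fin n) F} :
    g ∈ GU n F q ↔ (g : Matrix (Fin n) (Fin n) F)ᵀ * (g : Matrix (Fin n) (Fin n) F).map (sg hF) = 1 := by
  rw [mem_GU hF]
  constructor
  · intro h
    have := iso_gram (rf_one hF) h
    rwa [mul_one] at this
  · intro h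
    apply iso_of_gram (rf_one hF)
    rwa [mul_one]

lemma kronU_mem_GU {q d : ℕ} (hF : Fintype.card F = q ^ 2) (ρ : Fin n ≃ Fin d × Fin d) {a b : GL (Fin d) F} (ha : a ∈ GU d F q)
    (hb : b ∈ GU d F q) : kronU ρ a b ∈ GU n F q := by
  rw [gram_iff hF] at ha hb ⊢
  rw [kronU_val, transpose_kronL, map_kronL, kronL_mul, ha, hb, kronL_one]

lemma swp_mem_GU {q d : ℕ} (hF : Fintype.card F = q ^ 2) (ρ : Fin n ≃ Fin d × Fin d) : swp ρ ∈ GU n F q := by
  rw [gram_iff hF]
  have h1 : ((swp ρ : GL (Fin n) F) : Matrix (Fin n) (Fin n) F)ᵀ = swpM F ρ := by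
    ext i j
    show (if ρ i = (ρ j).swap then (1 : F) else 0) = if ρ j = (ρ i).swap then 1 else 0
    have : (ρ i = (ρ j).swap) ↔ (ρ j = (ρ i).swap) := by
      constructor
      · intro h; rw [h, Prod.swap_swap]
      · intro h; rw [h, Prod.swap_swap]
    simp only [this]
  have h2 : ((swp ρ : GL (Fin n) F) : Matrix (Fin n) (Fin n) F).map (sg hF) = swpM F ρ := by
    ext i j
    show sg hF (if ρ j = (ρ i).swap then (1 : F) else 0) = if ρ j = (ρ i).swap then 1 else 0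
    split_ifs <;> simp
  rw [h1, h2, swpM_sq]

lemma mem_of_kronU (hF : Fintype.card F = 2 ^ 2) (ρ : Fin n ≃ Fin 3 × Fin 3) {a b : GL (Fin 3) F} (h : kronU ρ a b ∈ GU n F 2) :
    a ∈ GU 3 F 2 ∧ b ∈ GU 3 F 2 := by
  rw [gram_iff hF] at h
  rw [kronU_val, transpose_kronL, map_kronL, kronL_mul, ← kronL_one ρ] at h
  obtain ⟨c, hc, e1, e2⟩ := kronL_eq (by norm_num) (by norm_num) ρ isUnit_one isUnit_one h.symm
  -- c is fixed by σ
  have h1 : sg hF c = c := by
    have h2 := congrArg (fun M : Matrix (Fin 3) (Fin 3) F => Mᵀ.map (sg hF)) e1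
    simp only [Matrix.transpose_mul, map_mul', Matrix.transpose_smul, Matrix.transpose_one, map_smul'', map_one'] at h2
    have h3 : ((a : Matrix (Fin 3) (Fin 3) F).map (sg hF))ᵀ.map (sg hF) = (a : Matrix (Fin 3) (Fin 3) F)ᵀ := by
      ext i j
      simp [sg_inv]
    have h4 : ((a : Matrix (Fin 3) (Fin 3) F)ᵀ)ᵀ.map (sg hF) = (a : Matrix (Fin 3) (Fin 3) F).map (sg hF) := by
      rw [Matrix.transpose_transpose]
    rw [h3, h4, e1] at h2
    have h5 := congrArg (fun M : Matrix (Fin 3) (Fin 3) F => M 0 0) h2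
    simp at h5
    exact h5.symm
  have hc1 : c = 1 := by
    rw [sg_apply] at h1
    have : c * (c - 1) = 0 := by rw [mul_sub, mul_one, ← pow_two, h1, sub_self]
    rcases mul_eq_zero.1 this with h | h
    · exact absurd h hc
    · exact sub_eq_zero.1 h
  rw [gram_iff hF, gram_iff hF]
  exact ⟨by rw [e1, hc1, one_smul], by rw [e2, hc1, inv_one, one_smul]⟩

/-- **The exceptional tensor decomposition reduces to class 6.** -/
theorem exc_c6 (hF : Fintype.card F = 2 ^ 2) (ρ : Fin n ≃ Fin 3 × Fin 3) (P : GL (Fin n) F) (hP : P ∈ GU n F 2)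
    {H : Subgroup (GL (Fin n) F)} (hI : H ≤ GU n F 2) (hle : H ≤ tensorProductSubgroup 3 3 ρ P) :
    ∃ (R : Subgroup (GL (Fin n) F)) (k : ℕ), IsSymplecticTypeGroup 3 R ∧
      ActsAbsolutelyIrreducibly (matrixSet R) ∧ R ≤ GU n F 2 ∧ n = 3 ^ k ∧ 1 ≤ k ∧
      IsMinimalFieldFor (Nat.card (Subgroup.center R)) 2 2 F ∧
      Nat.card (Subgroup.center R) = 3 ∧ Nat.card R = 3 ^ (1 + 2 * k) ∧ H ≤ subgroupNormalizer R := by
  classical
  have hn9 : n = 9 := by
    have := Fintype.card_congr ρ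
    simpa using this
  haveI : Nonempty (Fin n) := ⟨⟨0, by omega⟩⟩
  obtain ⟨E, hEG, hEn, hEirr, hEcomm⟩ := gu3_E hF
  have hgood := gu3_good hF
  set N := (E.prod E).map (kh ρ P) with hN
  have hNirr : ActsAbsolutelyIrreducibly (matrixSet N) := absIrr_kh (by norm_num) ρ P hEirr
  have hmemN : ∀ a ∈ E, ∀ b ∈ E, kh ρ P (a, b) ∈ N := fun a ha b hb => ⟨(a, b), ⟨ha, hb⟩, rfl⟩
  have hNcomm : ∀ x ∈ N, ∀ y ∈ N, x * y * x⁻¹ * y⁻¹ ∈ scalars (Fin n) F := by
    rintro _ ⟨⟨a, b⟩, ⟨ha, hb⟩, rfl⟩ _ ⟨⟨a', b'⟩, ⟨ha', hb'⟩, rfl⟩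
    rw [← map_mul, ← map_inv, ← map_mul, ← map_inv, ← map_mul]
    exact kh_scalar ρ P (hEcomm a ha a' ha') (hEcomm b hb b' hb')
  have hkGU : ∀ a ∈ GU 3 F 2, ∀ b ∈ GU 3 F 2, kh ρ P (a, b) ∈ GU n F 2 := fun a ha b hb =>
    mul_mem (mul_mem hP (kronU_mem_GU hF ρ ha hb)) (inv_mem hP)
  have hNGU : N ≤ GU n F 2 := by
    rintro _ ⟨⟨a, b⟩, ⟨ha, hb⟩, rfl⟩
    exact hkGU a (hEG ha) b (hEG hb)
  -- the big group
  set H' : Subgroup (GL (Fin n) F) := Subgroup.normalizer (N : Set (GL (Fin n) F)) ⊓ GU n F 2 with hH'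
  have hk' : ∀ a ∈ GU 3 F 2, ∀ b ∈ GU 3 F 2, kh ρ P (a, b) ∈ H' := by
    intro a ha b hb
    refine Subgroup.mem_inf.2 ⟨?_, hkGU a ha b hb⟩
    rw [Subgroup.mem_normalizer_iff]
    have key : ∀ a ∈ GU 3 F 2, ∀ b ∈ GU 3 F 2, ∀ x ∈ N, kh ρ P (a, b) * x * (kh ρ P (a, b))⁻¹ ∈ N := by
      rintro a ha b hb _ ⟨⟨c, d⟩, ⟨hc, hd⟩, rfl⟩
      rw [← map_inv, ← map_mul, ← map_mul]
      exact ⟨_, ⟨hEn a ha c hc, hEn b hb d hd⟩, rfl⟩
    intro x
    refine ⟨key a ha b hb x, fun hx => ?_⟩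
    have h1 := key a⁻¹ (inv_mem ha) b⁻¹ (inv_mem hb) _ hx
    have h2 : kh ρ P (a⁻¹, b⁻¹) = (kh ρ P (a, b))⁻¹ := by rw [← map_inv]; rfl
    rw [h2] at h1
    have h3 : (kh ρ P (a, b))⁻¹ * (kh ρ P (a, b) * x * (kh ρ P (a, b))⁻¹) * (kh ρ P (a, b))⁻¹⁻¹ = x := by group
    rwa [h3] at h1
  set w : GL (Fin n) F := P * swp ρ * P⁻¹ with hw
  have hwH : w ∈ H' := by
    refine Subgroup.mem_inf.2 ⟨?_, mul_mem (mul_mem hP (swp_mem_GU hF ρ)) (inv_mem hP)⟩
    rw [Subgroup.mem_normalizer_iff]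
    have key : ∀ x ∈ N, w * x * w⁻¹ ∈ N := by
      rintro _ ⟨⟨c, d⟩, ⟨hc, hd⟩, rfl⟩
      rw [kh_swap]
      exact hmemN d hd c hc
    have hw2 : w⁻¹ = w := by
      rw [hw]
      have : (swp ρ : GL (Fin n) F)⁻¹ = swp ρ := swp_inv ρ
      rw [mul_inv_rev, mul_inv_rev, inv_inv, this, mul_assoc]
    intro x
    refine ⟨key x, fun hx => ?_⟩
    have h1 := key _ hx
    rw [hw2] at h1
    have h3 : w * (w * x * w) * w = x := by
      have h4 : w * w = 1 := by nth_rewrite 1 [← hw2]; rw [inv_mul_cancel]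
      calc w * (w * x * w) * w = (w * w) * x * (w * w) := by group
        _ = x := by rw [h4, one_mul, mul_one]
    rwa [h3] at h1
  have hHH' : H ≤ H' := by
    intro g hg
    obtain ⟨a, b, hab⟩ := mem_tps.1 (hle hg)
    have h1 : kronU ρ a b ∈ GU n F 2 := by
      have h2 : kronU ρ a b = P⁻¹ * g * P := by rw [hab]; group
      rw [h2]
      exact mul_mem (mul_mem (inv_mem hP) (hI hg)) hP
    obtain ⟨ha, hb⟩ := mem_of_kronU hF ρ h1
    rw [hab]
    exact hk' a ha b hb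
  have hinv : InvBy H' N := fun h hh x hx => (Subgroup.mem_normalizer_iff.1 hh.1 x).1 hx
  -- the chief property
  have hchief : ∀ M : Subgroup (GL (Fin n) F), M ≤ N → InvBy H' M → M ≤ scalars (Fin n) F ∨ N ≤ M ⊔ scalars (Fin n) F := by
    intro M hMN hMinv
    by_cases hMs : M ≤ scalars (Fin n) F
    · exact Or.inl hMs
    right
    set MZ := M ⊔ scalars (Fin n) F with hMZ
    have hMZinv : ∀ h ∈ H', ∀ x ∈ MZ, h * x * h⁻¹ ∈ MZ := by
      have : NormBy H' MZ := NormBy.sup (show NormBy H' M from hMinv) (normBy_of_central scalars_le_center)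
      exact this
    -- the first factor
    let i₁ : GL (Fin 3) F →* GL (Fin n) F := (kh ρ P).comp (MonoidHom.inl _ _)
    have hi₁ : ∀ a, i₁ a = kh ρ P (a, 1) := fun a => rfl
    let M₁ : Subgroup (GL (Fin 3) F) := E ⊓ MZ.comap i₁
    have hM₁ : ∀ a, a ∈ M₁ ↔ a ∈ E ∧ kh ρ P (a, 1) ∈ MZ := fun a => Iff.rfl
    have hM₁n : NormBy (GU 3 F 2) M₁ := by
      intro g hg a ha
      rw [hM₁] at ha ⊢
      refine ⟨hEn g hg a ha.1, ?_⟩
      have h1 := hMZinv _ (hk' g hg 1 (one_mem _)) _ ha.2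
      rw [← map_inv, ← map_mul, ← map_mul] at h1
      have h2 : ((g, (1 : GL (Fin 3) F)) * (a, 1) * (g, (1 : GL (Fin 3) F))⁻¹ : GL (Fin 3) F × GL (Fin 3) F) = (g * a * g⁻¹, 1) := by
        ext1 <;> simp
      rwa [h2] at h1
    have hM₁s : ¬ M₁ ≤ scalars (Fin 3) F := by
      intro hs
      -- a non-scalar element of M
      obtain ⟨x, hxM, hxs⟩ := Set.not_subset.1 hMs
      have key : ∀ a b : GL (Fin 3) F, a ∈ E → b ∈ E → kh ρ P (a, b) ∈ M → a ∈ scalars (Fin 3) F := by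
        intro a b ha hb hab
        by_contra has
        -- commutators
        have h1 : ∀ g ∈ GU 3 F 2, g * a * g⁻¹ * a⁻¹ ∈ scalars (Fin 3) F := by
          intro g hg
          apply hs
          rw [hM₁]
          refine ⟨mul_mem (hEn g hg a ha) (inv_mem ha), ?_⟩
          have h2 := hMinv _ (hk' g hg 1 (one_mem _)) _ hab
          have h3 := mul_mem h2 (inv_mem hab)
          rw [← map_inv, ← map_inv, ← map_mul, ← map_mul, ← map_mul] at h3
          have h4 : ((g, (1 : GL (Fin 3) F)) * (a, b) * (g, (1 : GL (Fin 3) F))⁻¹ * (a, b)⁻¹ : GL (Fin 3) F × GL (Fin 3) F) =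
              (g * a * g⁻¹ * a⁻¹, 1) := by
            ext1 <;> simp
          rw [h4] at h3
          exact Subgroup.mem_sup_left h3
        set X := Subgroup.zpowers a ⊔ scalars (Fin 3) F with hX
        have hXn : NormBy (GU 3 F 2) X := by
          intro g hg x hx
          obtain ⟨y, hy, z, hz, rfl⟩ := mem_sup_scalars hx
          obtain ⟨j, rfl⟩ := Subgroup.mem_zpowers_iff.1 hy
          have h5 : g * (a ^ j * z) * g⁻¹ = (g * a * g⁻¹) ^ j * (g * z * g⁻¹) := by
            rw [conj_zpow]; group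
          rw [h5]
          refine mul_mem (zpow_mem ?_ j) (Subgroup.mem_sup_right (scalars_normal.conj_mem z hz g))
          have h6 : g * a * g⁻¹ = (g * a * g⁻¹ * a⁻¹) * a := by group
          rw [h6]
          exact mul_mem (Subgroup.mem_sup_right (h1 g hg)) (Subgroup.mem_sup_left (Subgroup.mem_zpowers a))
        have hXle : X ≤ GU 3 F 2 ⊔ scalars (Fin 3) F :=
          sup_le_sup_right ((Subgroup.zpowers_le).2 (hEG ha)) _
        have hXa := hgood.absIrr X hXle hXn (fun h => has (h (Subgroup.mem_sup_left (Subgroup.mem_zpowers a))))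
        apply has
        apply mem_scalars_of_comm hXa
        intro x hx
        obtain ⟨y, hy, z, hz, rfl⟩ := mem_sup_scalars hx
        obtain ⟨j, rfl⟩ := Subgroup.mem_zpowers_iff.1 hy
        have hz' := Subgroup.mem_center_iff.1 (scalars_le_center hz) a
        rw [← mul_assoc, mul_assoc (a ^ j), ← hz', ← mul_assoc, (Commute.self_zpow a j).eq]
      obtain ⟨⟨a, b⟩, ⟨ha, hb⟩, rfl⟩ := hMN hxM
      apply hxs
      refine kh_scalar ρ P (key a b ha hb hxM) (key b a hb ha ?_)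
      have := hMinv w hwH _ hxM
      rwa [kh_swap] at this
    have hM₁a : ActsAbsolutelyIrreducibly (matrixSet M₁) :=
      hgood.absIrr M₁ ((inf_le_left.trans hEG).trans le_sup_left) hM₁n hM₁s
    have hEM : E ≤ M₁ ⊔ scalars (Fin 3) F := le_sup_of_absIrr inf_le_left hM₁a hEirr hEcomm
    have h1 : ∀ a ∈ E, kh ρ P (a, 1) ∈ MZ := by
      intro a ha
      obtain ⟨m, hm, z, hz, rfl⟩ := mem_sup_scalars (hEM ha)
      have h2 : ((m * z, (1 : GL (Fin 3) F)) : GL (Fin 3) F × GL (Fin 3) F) = (m, 1) * (z, 1) := by ext1 <;> simp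
      rw [h2, map_mul]
      exact mul_mem ((hM₁ m).1 hm).2 (Subgroup.mem_sup_right (kh_scalar ρ P hz (one_mem _)))
    rintro _ ⟨⟨a, b⟩, ⟨ha, hb⟩, rfl⟩
    have h2 : ((a, b) : GL (Fin 3) F × GL (Fin 3) F) = (a, 1) * (1, b) := by ext1 <;> simp
    rw [h2, map_mul]
    refine mul_mem (h1 a ha) ?_
    have h3 := hMZinv w hwH _ (h1 b hb)
    rwa [kh_swap] at h3
  obtain ⟨R, r, m, hD⟩ := exists_sympData (by rw [Fintype.card_fin, hn9]; norm_num) hinv hNirr hNcomm hchief
  have hr3 : r = 3 := by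
    have h1 := hD.card_ι
    rw [Fintype.card_fin, hn9] at h1
    have h2 : r ∣ 3 ^ 2 := by
      rw [show (3 : ℕ) ^ 2 = 9 by norm_num, h1]
      exact dvd_pow_self r (by have := hD.pos; omega)
    exact (Nat.prime_dvd_prime_iff_eq hD.sympType.prime Nat.prime_three).1 (hD.sympType.prime.dvd_of_dvd_pow h2)
  subst hr3
  have hc3 : Nat.card (Subgroup.center R) = 3 := by
    rcases hD.center with h | ⟨h, -⟩
    · exact h
    · norm_num at h
  have hnm : n = 3 ^ m := by
    have := hD.card_ι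
    rwa [Fintype.card_fin] at this
  refine ⟨R, m, hD.sympType, hD.absIrr, hD.le.trans hNGU, hnm, hD.pos, ?_, hc3, ?_, ?_⟩
  · rw [hc3]
    refine ⟨Nat.prime_two, ?_, hF, by norm_num, ?_⟩
    · have h1 : ringChar F = 2 := (FiniteField.even_card_iff_char_two).2 (by rw [hF]; norm_num)
      rw [← h1]; exact ringChar.charP F
    · intro d hd0 hd2
      have : d = 1 := by omega
      subst this
      norm_num
  · rw [hD.card_R, hc3, Fintype.card_fin, hnm, ← pow_mul, ← pow_succ]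
    congr 1; ring
  · intro g hg
    rw [subgroupNormalizer, Subgroup.mem_normalizer_iff]
    intro x
    refine ⟨hD.inv g (hHH' hg) x, fun hx => ?_⟩
    have h1 := hD.inv g⁻¹ (inv_mem (hHH' hg)) _ hx
    have h2 : g⁻¹ * (g * x * g⁻¹) * g⁻¹⁻¹ = x := by group
    rwa [h2] at h1

end exc

end Cfsg.Agent.Lib.AschAdj
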