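import Cfsg.Agent.Lib.AschAdj
set_option autoImplicit false
set_option linter.style.haveILetI false
set_option linter.unusedVariables false
set_option linter.unusedSectionVars false

/-!
Aschbacher's theorem relative to a form: idempotent families, fields.
-/

namespace Cfsg.Agent.Lib.AschAdj

open Cfsg Cfsg.Geo Cfsg.Agent.Lib.AschMU Cfsg.Agent.Lib.AschCore Cfsg.Agent.Lib.AschField Cfsg.Agent.Lib.AschAlg
  Cfsg.Agent.Lib.AschGroup Cfsg.Agent.Lib.AschGood
open scoped Matrix MatrixGroups Kronecker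

variable {ι : Type} [Fintype ι] [DecidableEq ι] {F : Type*} [Field F]
variable {σ : F ≃+* F} {ε : F} {G : Matrix ι ι F}

lemma adj_inv_gl (h : RF σ ε G) {g : GL ι F} (hg : IsIso σ G g) : adj σ G ((g⁻¹ : GL ι F) : Matrix ι ι F) = (g : Matrix ι ι F) := by
  rw [← adj_gl h hg, adj_adj h]

lemma adj_cj (h : RF σ ε G) {g : GL ι F} (hg : IsIso σ G g) (x : Matrix ι ι F) : adj σ G (cj g x) = cj g (adj σ G x) := by
  rw [cj_apply, cj_apply, adj_mul h, adj_mul h, adj_inv_gl h hg, adj_gl h hg, mul_assoc]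

/-- `E` is closed under adjoints. -/
def AdjClosed (σ : F ≃+* F) (G : Matrix ι ι F) (E : Subalgebra F (Matrix ι ι F)) : Prop := ∀ x ∈ E, adj σ G x ∈ E

lemma isPrim_adj (h : RF σ ε G) {E : Subalgebra F (Matrix ι ι F)} (hE : AdjClosed σ G E)
    (hcomm : ∀ x ∈ E, ∀ y ∈ E, x * y = y * x) {e : Matrix ι ι F} (he : IsPrim E e) : IsPrim E (adj σ G e) := by
  obtain ⟨h1, h2, h3, h4⟩ := he
  refine ⟨hE e h1, fun h0 => h2 ?_, by rw [← adj_mul h, h3], fun f hf hff => ?_⟩
  · rw [← adj_adj h e, h0, adj_zero]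
  · rcases h4 (adj σ G f) (hE f hf) (by rw [← adj_mul h, hff]) with h5 | h5
    · left
      rw [hcomm f hf _ (hE e h1)]
      have := congrArg (adj σ G) h5
      rwa [adj_mul h, adj_adj h, adj_zero] at this
    · right
      rw [hcomm f hf _ (hE e h1)]
      have := congrArg (adj σ G) h5
      rwa [adj_mul h, adj_adj h] at this

/-- An invariant property of the members of a permuted idempotent family. -/
lemma forall_of_exists {t : ℕ} {e : Fin t → Matrix ι ι F} (he : IsIdemFamily e)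
    {H : Subgroup (GL ι F)} (hH : ActsIrreducibly (matrixSet H)) (p : Fin t → Prop)
    (hp : ∀ h ∈ H, ∃ π : Equiv.Perm (Fin t), (∀ i, cj h (e i) = e (π i)) ∧ ∀ i, p i ↔ p (π i))
    (hex : ∃ i, p i) : ∀ i, p i := by
  classical
  set f : Matrix ι ι F := ∑ k ∈ Finset.univ.filter p, e k with hf
  have hfinv : ∀ h ∈ H, cj h f = f := by
    intro h hh
    obtain ⟨π, hπ, hπp⟩ := hp h hh
    rw [hf, map_sum]
    simp only [hπ]
    apply Finset.sum_bijective π π.bijective
    · intro k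
      simp only [Finset.mem_filter, Finset.mem_univ, true_and]
      exact hπp k
    · intro k _; rfl
  have hmulf : ∀ k, e k * f = if p k then e k else 0 := by
    intro k
    rw [hf, Finset.mul_sum]
    simp only [he.mul]
    rw [Finset.sum_ite_eq]
    simp
  obtain ⟨i, hi⟩ := hex
  rcases irr_cases hH (rng f) (by
    intro h hh w hw
    obtain ⟨u, rfl⟩ := mem_rng.1 hw
    rw [← cj_mulVec, hfinv h hh]
    exact mem_rng.2 ⟨_, rfl⟩) with h1 | h1
  · exfalso
    rw [rng_eq_bot] at h1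
    have := hmulf i
    rw [h1, mul_zero, if_pos hi] at this
    exact he.ne_zero i this.symm
  · intro j
    by_contra hne
    have h2 := hmulf j
    rw [if_neg hne] at h2
    apply he.ne_zero j
    apply mulVec_eq_zero_of_rng_bot
    intro v
    have hv : v ∈ rng f := by rw [h1]; trivial
    obtain ⟨u, rfl⟩ := mem_rng.1 hv
    rw [Matrix.mulVec_mulVec, h2, Matrix.zero_mulVec]

lemma IsIdemFamily_inj {t : ℕ} {e : Fin t → Matrix ι ι F} (he : IsIdemFamily e) : Function.Injective e := by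
  intro i j hij
  by_contra hne
  have h1 := he.mul i j
  rw [if_neg hne, ← hij] at h1
  have h2 := he.mul i i
  rw [if_pos rfl, h1] at h2
  exact he.ne_zero i h2.symm

/-- A permuted idempotent family adapted to the form. -/
structure FIdem (σ : F ≃+* F) (G : Matrix ι ι F) (H : Subgroup (GL ι F)) {t : ℕ} (e : Fin t → Matrix ι ι F) : Prop where
  two_le : 2 ≤ t
  idem : IsIdemFamily e
  perm : ∀ h ∈ H, ∃ π : Equiv.Perm (Fin t), ∀ i, cj h (e i) = e (π i)
  star : (∀ i, adj σ G (e i) = e i) ∨ (t = 2 ∧ ∀ i j, i ≠ j → adj σ G (e i) = e j)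

theorem exists_FIdem (h : RF σ ε G) {H : Subgroup (GL ι F)} (hI : ∀ g ∈ H, IsIso σ G g) (hH : ActsIrreducibly (matrixSet H))
    {E : Subalgebra F (Matrix ι ι F)} (hEa : AdjClosed σ G E) (hcomm : ∀ x ∈ E, ∀ y ∈ E, x * y = y * x)
    {t : ℕ} {e : Fin t → Matrix ι ι F} (ht : 2 ≤ t) (he : IsIdemFamily e) (hprim : ∀ i, IsPrim E (e i))
    (hall : ∀ x, IsPrim E x → ∃ i, x = e i)
    (hp : ∀ h ∈ H, ∃ π : Equiv.Perm (Fin t), ∀ i, cj h (e i) = e (π i)) :
    ∃ (t' : ℕ) (e' : Fin t' → Matrix ι ι F), FIdem σ G H e' := by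
  classical
  have hinj := IsIdemFamily_inj he
  have hst : ∀ i, ∃ j, adj σ G (e i) = e j := fun i => hall _ (isPrim_adj h hEa hcomm (hprim i))
  choose st hst using hst
  have hst2 : ∀ i, st (st i) = i := by
    intro i
    apply hinj
    rw [← hst, ← hst, adj_adj h]
  by_cases h1 : ∀ i, st i = i
  · exact ⟨t, e, ht, he, hp, Or.inl fun i => by rw [hst, h1]⟩
  push Not at h1
  have h2 : ∀ i, st i ≠ i := by
    refine forall_of_exists he hH (fun i => st i ≠ i) (fun g hg => ?_) h1
    obtain ⟨π, hπ⟩ := hp g hg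
    refine ⟨π, hπ, fun i => ?_⟩
    have h3 : st (π i) = π (st i) := by
      apply hinj
      rw [← hst, ← hπ, adj_cj h (hI g hg), hst, hπ]
    rw [h3]
    exact not_congr (by rw [π.apply_eq_iff_eq])
  -- the paired family
  by_cases ht2 : t = 2
  · refine ⟨t, e, ht, he, hp, Or.inr ⟨ht2, fun i j hij => ?_⟩⟩
    rw [hst]
    congr 1
    have h4 := h2 i
    subst ht2
    omega
  let S : Finset (Matrix ι ι F) := Finset.univ.image (fun i => e i + e (st i))
  have hS : ∀ f, f ∈ S ↔ ∃ i, e i + e (st i) = f := fun f => by simp [S]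
  have hei : ∀ k i, e k * (e i + e (st i)) = if k = i ∨ k = st i then e k else 0 := by
    intro k i
    rw [mul_add, he.mul, he.mul]
    by_cases h3 : k = i
    · subst h3
      rw [if_pos rfl, if_neg (Ne.symm (h2 k)), if_pos (Or.inl rfl), add_zero]
    · by_cases h4 : k = st i
      · subst h4
        rw [if_neg h3, if_pos rfl, if_pos (Or.inr rfl), zero_add]
      · rw [if_neg h3, if_neg h4, if_neg (by tauto), add_zero]
  have hsame : ∀ k i, (k = i ∨ k = st i) → e k + e (st k) = e i + e (st i) := by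
    rintro k i (rfl | rfl)
    · rfl
    · rw [hst2, add_comm]
  have hff : ∀ f ∈ S, f * f = f := by
    intro f hf
    obtain ⟨i, rfl⟩ := (hS f).1 hf
    conv_lhs => rw [add_mul, hei, hei, if_pos (Or.inl rfl), if_pos (Or.inr rfl)]
  have hfg : ∀ f ∈ S, ∀ g ∈ S, f ≠ g → f * g = 0 := by
    intro f hf g hg hne
    obtain ⟨i, rfl⟩ := (hS f).1 hf
    obtain ⟨j, rfl⟩ := (hS g).1 hg
    have h3 : ¬ (i = j ∨ i = st j) := fun h3 => hne (hsame i j h3)
    have h4 : ¬ (st i = j ∨ st i = st j) := by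
      rintro (h4 | h4)
      · apply h3; right; rw [← h4, hst2]
      · apply h3; left; rw [← hst2 i, h4, hst2]
    rw [add_mul, hei, hei, if_neg h3, if_neg h4, add_zero]
  have hS0 : ∀ f ∈ S, f ≠ 0 := by
    intro f hf h0
    obtain ⟨i, rfl⟩ := (hS f).1 hf
    have h3 := hei i i
    rw [h0, mul_zero, if_pos (Or.inl rfl)] at h3
    exact he.ne_zero i h3.symm
  have hsum : ∑ f ∈ S, f = 1 := by
    have h3 : ∀ k, e k * ∑ f ∈ S, f = e k := by
      intro k
      rw [Finset.mul_sum, Finset.sum_eq_single (e k + e (st k))]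
      · rw [hei, if_pos (Or.inl rfl)]
      · intro f hf hne
        obtain ⟨i, rfl⟩ := (hS f).1 hf
        rw [hei, if_neg]
        intro h4
        exact hne (hsame k i h4).symm
      · intro h4; exact absurd ((hS _).2 ⟨k, rfl⟩) h4
    calc ∑ f ∈ S, f = (∑ k, e k) * ∑ f ∈ S, f := by rw [he.sum, one_mul]
      _ = ∑ k, e k := by rw [Finset.sum_mul]; exact Finset.sum_congr rfl fun k _ => h3 k
      _ = 1 := he.sum
  let eqv := S.equivFin
  have hcard : 2 ≤ S.card := by
    by_contra hlt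
    have hpos : 0 < S.card := Finset.card_pos.2 ⟨_, (hS _).2 ⟨⟨0, by omega⟩, rfl⟩⟩
    have h1 : S.card = 1 := by omega
    obtain ⟨f, hf⟩ := Finset.card_eq_one.1 h1
    have h3 : ∀ i, e i + e (st i) = f := fun i => by
      have := (hS _).2 ⟨i, rfl⟩
      rw [hf, Finset.mem_singleton] at this
      exact this
    have h5 : ∃ k : Fin t, k ≠ ⟨0, by omega⟩ ∧ k ≠ st ⟨0, by omega⟩ := by
      by_contra hcon
      push Not at hcon
      have h6 : (Finset.univ : Finset (Fin t)) ⊆ {⟨0, by omega⟩, st ⟨0, by omega⟩} := by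
        intro k _
        rw [Finset.mem_insert, Finset.mem_singleton]
        by_cases hk : k = ⟨0, by omega⟩
        · left; exact hk
        · right; exact hcon k hk
      have h7 := Finset.card_le_card h6
      rw [Finset.card_univ, Fintype.card_fin] at h7
      have h8 : ({⟨0, by omega⟩, st ⟨0, by omega⟩} : Finset (Fin t)).card ≤ 2 := Finset.card_le_two
      omega
    obtain ⟨k, hk1, hk2⟩ := h5
    have h6 := hei k ⟨0, by omega⟩
    rw [if_neg (by tauto), h3, ← h3 k, hei, if_pos (Or.inl rfl)] at h6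
    exact he.ne_zero k h6
  refine ⟨S.card, fun i => ((eqv.symm i : S) : Matrix ι ι F), hcard, ⟨?_, ?_, ?_⟩, ?_, Or.inl ?_⟩
  · intro i j
    by_cases hij : i = j
    · subst hij
      rw [if_pos rfl]; exact hff _ (eqv.symm i).2
    · rw [if_neg hij]
      exact hfg _ (eqv.symm i).2 _ (eqv.symm j).2 (fun heq => hij (eqv.symm.injective (Subtype.ext heq)))
  · rw [← hsum, ← Finset.sum_coe_sort S (fun x => x)]
    exact Fintype.sum_equiv eqv.symm _ _ (fun i => rfl)
  · intro i; exact hS0 _ (eqv.symm i).2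
  · intro g hg
    obtain ⟨π, hπ⟩ := hp g hg
    have hst' : ∀ i, st (π i) = π (st i) := by
      intro i
      apply hinj
      rw [← hst, ← hπ, adj_cj h (hI g hg), hst, hπ]
    have hmem : ∀ x : S, cj g (x : Matrix ι ι F) ∈ S := by
      intro x
      obtain ⟨i, hi⟩ := (hS _).1 x.2
      rw [← hi, map_add, hπ, hπ, ← hst']
      exact (hS _).2 ⟨π i, rfl⟩
    let ρ : S → S := fun x => ⟨cj g x, hmem x⟩
    have hρ : Function.Injective ρ := by
      intro x y hxy
      have : cj g (x : Matrix ι ι F) = cj g (y : Matrix ι ι F) := congrArg Subtype.val hxy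
      exact Subtype.ext ((cj g).injective this)
    let ρ' : Equiv.Perm S := Equiv.ofBijective ρ (Finite.injective_iff_bijective.1 hρ)
    refine ⟨(eqv.symm.trans ρ').trans eqv, fun i => ?_⟩
    simp only [Equiv.trans_apply, Equiv.symm_apply_apply]
    rfl
  · intro i
    obtain ⟨k, hk⟩ := (hS _).1 (eqv.symm i).2
    rw [← hk, adj_add, hst, hst, hst2, add_comm]

/-- the decomposition attached to an adapted family -/
lemma FIdem.decomp {H : Subgroup (GL ι F)} {t : ℕ} {e : Fin t → Matrix ι ι F} (hf : FIdem σ G H e)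
    (hH : ActsIrreducibly (matrixSet H)) :
    IsMDecomposition (Module.finrank F (rng (e ⟨0, by have := hf.two_le; omega⟩))) (fun i => rng (e i)) ∧
      H ≤ decompositionStabilizer (fun i => rng (e i)) :=
  ⟨hf.idem.isMDecomposition hf.two_le (fun i => hf.idem.finrank_eq_of_irr hH hf.perm _ _),
    IsIdemFamily.le_decompositionStabilizer hf.perm⟩

lemma FIdem.nondeg (h : RF σ ε G) {H : Subgroup (GL ι F)} {t : ℕ} {e : Fin t → Matrix ι ι F} (hf : FIdem σ G H e)
    (hs : ∀ i, adj σ G (e i) = e i) (hH : ActsIrreducibly (matrixSet H)) :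
    IsNondegenerateMDecomposition (bf σ G) (Module.finrank F (rng (e ⟨0, by have := hf.two_le; omega⟩))) (fun i => rng (e i)) where
  decomp := (hf.decomp hH).1
  nondegenerate := by
    intro i w hw hw0
    rw [hf.idem.mulVec_mem] at hw
    obtain ⟨⟨x, hx⟩, ⟨y, hy⟩⟩ := bf_nondeg h w hw0
    refine ⟨⟨e i *ᵥ x, mem_rng.2 ⟨x, rfl⟩, ?_⟩, ⟨e i *ᵥ y, mem_rng.2 ⟨y, rfl⟩, ?_⟩⟩
    · rw [bf_adj h, hs, hw]; exact hx
    · rw [bf_adj' h, hs, hw]; exact hy
  orthogonal := by
    intro i j hij u hu v hv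
    rw [hf.idem.mulVec_mem] at hu hv
    rw [← hu, ← hv, bf_adj h, hs, Matrix.mulVec_mulVec, hf.idem.mul, if_neg hij, Matrix.zero_mulVec, bf_zero_right]

lemma FIdem.singular (h : RF σ ε G) {H : Subgroup (GL ι F)} {t : ℕ} {e : Fin t → Matrix ι ι F} (hf : FIdem σ G H e)
    (hs : ∀ i j, i ≠ j → adj σ G (e i) = e j) (i : Fin t) : IsTotallySingularFor (bf σ G) (rng (e i)) := by
  intro u hu v hv
  rw [hf.idem.mulVec_mem] at hu hv
  obtain ⟨j, hj⟩ : ∃ j, i ≠ j := by
    by_cases h0 : i = ⟨0, by have := hf.two_le; omega⟩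
    · exact ⟨⟨1, by have := hf.two_le; omega⟩, by rw [h0]; simp⟩
    · exact ⟨_, h0⟩
  rw [← hu, ← hv, bf_adj h, hs i j hj, Matrix.mulVec_mulVec, hf.idem.mul, if_neg (Ne.symm hj), Matrix.zero_mulVec, bf_zero_right]

/-- The centre of an adjoint-closed algebra is adjoint-closed. -/
lemma AdjClosed.centre (h : RF σ ε G) {A : Subalgebra F (Matrix ι ι F)} (hA : AdjClosed σ G A) : AdjClosed σ G (centre A) := by
  rintro x ⟨hx, hx'⟩
  refine ⟨hA x hx, fun y hy => ?_⟩
  have h1 := congrArg (adj σ G) (hx' (adj σ G y) (hA y hy))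
  rw [adj_mul h, adj_mul h, adj_adj h] at h1
  exact h1.symm

lemma adj_pow (h : RF σ ε G) (x : Matrix ι ι F) (n : ℕ) : adj σ G (x ^ n) = adj σ G x ^ n := by
  induction n with
  | zero => rw [pow_zero, pow_zero, adj_one h]
  | succ n ih => rw [pow_succ, adj_mul h, ih, pow_succ']

lemma AdjClosed.of_pow (h : RF σ ε G) {E K : Subalgebra F (Matrix ι ι F)} (hE : AdjClosed σ G E) {m : ℕ}
    (hK : ∀ x, x ∈ K ↔ x ∈ E ∧ x ^ m = x) : AdjClosed σ G K := by
  intro x hx
  rw [hK] at hx ⊢
  exact ⟨hE x hx.1, by rw [← adj_pow h, hx.2]⟩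

lemma isAdjointClosedFor (h : RF σ ε G) {K : Subalgebra F (Matrix ι ι F)} (hK : AdjClosed σ G K) :
    IsAdjointClosedFor (bf σ G) K := fun k hk => ⟨adj σ G k, hK k hk, fun u v => bf_adj h k u v⟩

/-- The enveloping algebra of a group of similarities-by-scalars is adjoint closed. -/
lemma adjClosed_env (h : RF σ ε G) {H X : Subgroup (GL ι F)} (hI : ∀ g ∈ H, IsIso σ G g) (hX : X ≤ H ⊔ scalars ι F) :
    AdjClosed σ G (AschDescent.env X) := by
  have h1 : ∀ x ∈ X, adj σ G (x : Matrix ι ι F) ∈ AschDescent.env X := by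
    intro x hx
    obtain ⟨g, hg, z, hz, rfl⟩ := Cfsg.Agent.Lib.AschExtra.mem_sup_scalars (hX hx)
    obtain ⟨c, hc⟩ := (mem_scalars_iff z).1 hz
    -- adj (g z) = σ c • g⁻¹ ; g⁻¹ = c • (g z)⁻¹
    have h2 : adj σ G ((g * z : GL ι F) : Matrix ι ι F) = (σ c * c) • (((g * z)⁻¹ : GL ι F) : Matrix ι ι F) := by
      have h3 : ((g * z : GL ι F) : Matrix ι ι F) = (c : F) • (g : Matrix ι ι F) := by
        rw [Units.val_mul, hc, Matrix.mul_smul, mul_one]
      have h4 : (((g * z)⁻¹ : GL ι F) : Matrix ι ι F) = ((c : F)⁻¹) • ((g⁻¹ : GL ι F) : Matrix ι ι F) := by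
        have h5 : ((g * z : GL ι F) : Matrix ι ι F) * (((c : F)⁻¹) • ((g⁻¹ : GL ι F) : Matrix ι ι F)) = 1 := by
          rw [h3, Matrix.smul_mul, Matrix.mul_smul, gl_mul_inv, smul_smul, mul_inv_cancel₀ c.ne_zero, one_smul]
        calc (((g * z)⁻¹ : GL ι F) : Matrix ι ι F) = (((g * z)⁻¹ : GL ι F) : Matrix ι ι F) *
              (((g * z : GL ι F) : Matrix ι ι F) * (((c : F)⁻¹) • ((g⁻¹ : GL ι F) : Matrix ι ι F))) := by rw [h5, mul_one]
          _ = _ := by rw [← mul_assoc, gl_inv_mul, one_mul]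
      rw [h3, adj_smul, adj_gl h (hI g hg), h4, smul_smul, mul_assoc, mul_inv_cancel₀ c.ne_zero, mul_one]
    rw [h2]
    exact (AschDescent.env X).smul_mem (AschDescent.mem_env (X.inv_mem hx)) _
  intro x hx
  have hx' : x ∈ (AschDescent.env X).toSubmodule := hx
  rw [AschDescent.env_eq_span] at hx'
  induction hx' using Submodule.span_induction with
  | mem y hy => obtain ⟨g, hg, rfl⟩ := hy; exact h1 g hg
  | zero => rw [adj_zero]; exact (AschDescent.env X).zero_mem
  | add y z hy hz ihy ihz =>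
    rw [adj_add]
    exact (AschDescent.env X).add_mem (ihy (by
      have : y ∈ (AschDescent.env X).toSubmodule := by rw [AschDescent.env_eq_span]; exact hy
      exact this)) (ihz (by
      have : z ∈ (AschDescent.env X).toSubmodule := by rw [AschDescent.env_eq_span]; exact hz
      exact this))
  | smul c y hy ih =>
    rw [adj_smul]
    exact (AschDescent.env X).smul_mem (ih (by
      have : y ∈ (AschDescent.env X).toSubmodule := by rw [AschDescent.env_eq_span]; exact hy
      exact this)) _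

end Cfsg.Agent.Lib.AschAdj
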