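import Cfsg.Agent.Lib.AschAdj2
set_option autoImplicit false
set_option linter.style.haveILetI false
set_option linter.unusedVariables false
set_option linter.unusedSectionVars false

/-!
Aschbacher's theorem relative to a form: the first reduction, groups all of whose normal subgroups are absolutely irreducible.
-/

namespace Cfsg.Agent.Lib.AschAdj

open Cfsg Cfsg.Geo Cfsg.Agent.Lib.AschMU Cfsg.Agent.Lib.AschCore Cfsg.Agent.Lib.AschField Cfsg.Agent.Lib.AschAlg
  Cfsg.Agent.Lib.AschGroup Cfsg.Agent.Lib.AschGood Cfsg.Agent.Lib.AschNonab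
open scoped Matrix MatrixGroups Kronecker

variable {ι : Type} [Fintype ι] [DecidableEq ι] {F : Type*} [Field F]
variable {σ : F ≃+* F} {ε : F} {G : Matrix ι ι F}

/-- `H` is irreducible and every non-scalar subgroup of `H` times scalars normalised by `H` is absolutely irreducible. -/
structure FGood (H : Subgroup (GL ι F)) : Prop where
  irr : ActsIrreducibly (matrixSet H)
  absIrr : ∀ X : Subgroup (GL ι F), X ≤ H ⊔ scalars ι F → NormBy H X → ¬ X ≤ scalars ι F → ActsAbsolutelyIrreducibly (matrixSet X)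

/-- First reduction relative to a form. -/
theorem form_cases [Fintype F] [Nonempty ι] (h : RF σ ε G) {H : Subgroup (GL ι F)} (hI : ∀ g ∈ H, IsIso σ G g)
    (hH : ActsIrreducibly (matrixSet H)) :
    (∃ (t : ℕ) (e : Fin t → Matrix ι ι F), FIdem σ G H e) ∨
    (∃ (r : ℕ) (K : Subalgebra F (Matrix ι ι F)), r.Prime ∧ r ∣ Fintype.card ι ∧ IsFieldSubalgebra r K ∧
      H ≤ subalgebraNormalizer K ∧ AdjClosed σ G K) ∨
    (∃ (A : Subalgebra F (Matrix ι ι F)) (d e : ℕ) (φ : Matrix (Fin d) (Fin d) F ≃ₐ[F] A) (ρ : ι ≃ Fin d × Fin e), 2 ≤ d ∧ 2 ≤ e ∧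
      H ≤ subalgebraNormalizer A ∧ AdjClosed σ G A) ∨
    FGood H := by
  classical
  by_cases h1 : ∃ (t : ℕ) (e : Fin t → Matrix ι ι F), FIdem σ G H e
  · exact Or.inl h1
  by_cases h2 : ∃ (r : ℕ) (K : Subalgebra F (Matrix ι ι F)), r.Prime ∧ r ∣ Fintype.card ι ∧ IsFieldSubalgebra r K ∧
      H ≤ subalgebraNormalizer K ∧ AdjClosed σ G K
  · exact Or.inr (Or.inl h2)
  by_cases h3 : ∃ (A : Subalgebra F (Matrix ι ι F)) (d e : ℕ) (φ : Matrix (Fin d) (Fin d) F ≃ₐ[F] A) (ρ : ι ≃ Fin d × Fin e), 2 ≤ d ∧ 2 ≤ e ∧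
      H ≤ subalgebraNormalizer A ∧ AdjClosed σ G A
  · exact Or.inr (Or.inr (Or.inl h3))
  refine Or.inr (Or.inr (Or.inr ⟨hH, fun X hXH hXn hXs => ?_⟩))
  set A := AschDescent.env X with hAdef
  have hA : H ≤ subalgebraNormalizer A := AschDescent.normalizer_le_env X hXn
  have hAa : AdjClosed σ G A := adjClosed_env h hI hXH
  have hcomm : ∀ x ∈ centre A, ∀ y ∈ centre A, x * y = y * x := fun x hx y hy => hx.2 y hy.1
  have hcb : centre A = ⊥ := by
    rcases comm_cases hH (centre_norm hA) hcomm with h4 | h4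
    · exfalso; apply h1
      obtain ⟨t, e, ht, he, hprim, hall, hp⟩ := h4
      exact exists_FIdem h hI hH (hAa.centre h) hcomm ht he hprim hall hp
    · by_contra hne
      apply h2
      obtain ⟨r, K, hr, hrn, -, hK, hK'⟩ := exists_prime_subfield' hcomm h4 hne
      exact ⟨r, K, hr, hrn, hK, le_normalizer_of_pow (centre_norm hA) hK', (hAa.centre h).of_pow h hK'⟩
  obtain ⟨d, hd, ⟨φ⟩⟩ := exists_algEquiv_matrix hH hA (fun x hx hxc =>
    scalar_of_mem_bot (by rw [← hcb]; exact ⟨hx, hxc⟩))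
  have : Nonempty (Fin d) := ⟨⟨0, Nat.pos_of_ne_zero hd⟩⟩
  obtain ⟨e, he⟩ := card_of_matrixUnits ((isMatrixUnits_single (Fin d) F).map (A.val.comp φ.toAlgHom).toRingHom)
  rw [Fintype.card_fin] at he
  let ρ : ι ≃ Fin d × Fin e := Fintype.equivOfCardEq (by rw [he, Fintype.card_prod, Fintype.card_fin, Fintype.card_fin])
  by_cases hd1 : d = 1
  · exfalso
    subst hd1
    apply hXs
    have hAb : A = ⊥ := by
      apply eq_bot_of_scalar
      intro x hx
      obtain ⟨y, hy⟩ := φ.surjective ⟨x, hx⟩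
      have hy1 : y = (y 0 0) • (1 : Matrix (Fin 1) (Fin 1) F) := by
        ext i j
        have hi : i = 0 := Subsingleton.elim _ _
        have hj : j = 0 := Subsingleton.elim _ _
        subst hi hj; simp
      refine ⟨y 0 0, ?_⟩
      have h4 : φ y = (y 0 0) • (1 : A) := by
        rw [hy1, map_smul, map_one]; simp
      rw [hy] at h4
      exact congrArg Subtype.val h4
    intro x hx
    rw [mem_scalars_iff]
    have hxA : (x : Matrix ι ι F) ∈ A := AschDescent.mem_env hx
    rw [hAb] at hxA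
    obtain ⟨c, hc⟩ := scalar_of_mem_bot hxA
    have hc0 : c ≠ 0 := by
      rintro rfl
      rw [zero_smul] at hc
      have := x.isUnit
      rw [hc] at this
      exact not_isUnit_zero this
    exact ⟨Units.mk0 c hc0, hc⟩
  by_cases he1 : e = 1
  · apply absIrr_of_env_top
    subst he1
    have hfr : Module.finrank F A = Module.finrank F (Matrix ι ι F) := by
      rw [← LinearEquiv.finrank_eq φ.toLinearEquiv, Module.finrank_matrix, Module.finrank_matrix, he]
      simp
    rw [← Algebra.toSubmodule_eq_top]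
    exact Submodule.eq_top_of_finrank_eq hfr
  exfalso
  apply h3
  have he0 : e ≠ 0 := by
    rintro rfl
    rw [mul_zero] at he
    exact Fintype.card_ne_zero he
  exact ⟨A, d, e, φ, ρ, by omega, by omega, hA, hAa⟩

/-- **The non-abelian case.** -/
theorem fnonab_cases [Finite F] [Nonempty ι] {H N : Subgroup (GL ι F)} (hH : FGood H)
    (hNH : N ≤ H ⊔ scalars ι F) (hN : IsMinOver (scalars ι F) H N) (hnab : ¬ ⁅N, N⁆ ≤ scalars ι F) :
    (∃ P, PreCore H P) ∨ (∃ (t : ℕ) (P : Fin t → Subgroup (GL ι F)), CompData H P) := by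
  classical
  have hfinM : Finite (Matrix ι ι F) := inferInstanceAs (Finite (ι → ι → F))
  have hfinGL : Finite (GL ι F) := inferInstance
  have hZ : scalars ι F ≤ Subgroup.center (GL ι F) := scalars_le_center
  obtain ⟨M, hMN, hM, hsup, hMnab, hcomm⟩ := exists_component hZ hN hnab
  obtain ⟨hP1, hP2, hP3⟩ := hM.perfect hZ hMnab
  have hNle : ⁅N, N⁆ ≤ H := by
    have h1 : ⁅N, N⁆ ≤ ⁅H ⊔ scalars ι F, H ⊔ scalars ι F⁆ := Subgroup.commutator_mono hNH hNH
    rw [commutator_sup_central hZ] at h1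
    exact h1.trans (Subgroup.commutator_le_self H)
  have hNai : ActsAbsolutelyIrreducibly (matrixSet N) := hH.absIrr N hNH hN.norm (fun h => hN.ne (le_antisymm h hN.le))
  by_cases hsingle : ∀ g ∈ H, cjG g M = M
  · -- one component
    left
    have hNM : M = N := by
      rw [← hsup]
      apply le_antisymm
      · have := le_iSup (fun g : H => cjG (g : GL ι F) M) 1
        rwa [Subgroup.coe_one, cjG_one] at this
      · exact iSup_le fun g => (hsingle g g.2).le
    subst hNM
    obtain ⟨hL1, hL2, hL3⟩ := perfect_of_min hZ hN hnab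
    have hLZ : ¬ ⁅M, M⁆ ≤ scalars ι F := hnab
    have hLai : ActsAbsolutelyIrreducibly (matrixSet ⁅M, M⁆) := hH.absIrr _ (hNle.trans le_sup_left) hL1 hLZ
    refine ⟨⁅M, M⁆, hNle, hL1, hL3, isSimpleGroup_of_min hZ hM hL2,
      not_isMulCommutative_quot hLZ hL3, fun h _ hc => ?_, hLai⟩
    exact scalar_of_commute_gl hLai (commute_of_perfect hZ hL3 hc)
  · right
    push Not at hsingle
    obtain ⟨g₀, hg₀, hg₀M⟩ := hsingle
    let S : Set (Subgroup (GL ι F)) := Set.range (fun g : H => cjG (g : GL ι F) M)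
    have hSfin : Fintype S := Fintype.ofFinite S
    let eqv := Fintype.equivFin S
    set t := Fintype.card S with ht
    have hMS : M ∈ S := ⟨1, by show cjG ((1 : H) : GL ι F) M = M; rw [Subgroup.coe_one, cjG_one]⟩
    have hS2 : 2 ≤ t := by
      by_contra hlt
      have h1 : Fintype.card S ≤ 1 := by omega
      have h2 := Fintype.card_le_one_iff.1 h1 ⟨M, hMS⟩ ⟨cjG g₀ M, ⟨g₀, hg₀⟩, rfl⟩
      exact hg₀M (congrArg Subtype.val h2).symm
    let MM : Fin t → Subgroup (GL ι F) := fun i => ((eqv.symm i : S) : Subgroup (GL ι F))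
    have hMM : ∀ i, ∃ g ∈ H, MM i = cjG g M := by
      intro i
      obtain ⟨g, hg⟩ := (eqv.symm i).2
      exact ⟨g, g.2, hg.symm⟩
    have hMMinj : Function.Injective MM := fun i j h => eqv.symm.injective (Subtype.ext h)
    have hMMsurj : ∀ g ∈ H, ∃ i, MM i = cjG g M := fun g hg => ⟨eqv ⟨cjG g M, ⟨g, hg⟩, rfl⟩, by simp [MM]⟩
    have hcjcomm : ∀ (g : GL ι F) (K : Subgroup (GL ι F)), cjG g ⁅K, K⁆ = ⁅cjG g K, cjG g K⁆ := by
      intro g K; rw [cjG, cjG, Subgroup.map_commutator]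
    let P : Fin t → Subgroup (GL ι F) := fun i => ⁅MM i, MM i⁆
    have hperf : ∀ i, ⁅P i, P i⁆ = P i := by
      intro i
      obtain ⟨g, hg, hgi⟩ := hMM i
      show ⁅⁅MM i, MM i⁆, ⁅MM i, MM i⁆⁆ = ⁅MM i, MM i⁆
      rw [hgi, ← hcjcomm, ← hcjcomm, hP3]
    have hPM : ∀ i, P i ⊔ scalars ι F = MM i := by
      intro i
      obtain ⟨g, hg, hgi⟩ := hMM i
      show ⁅MM i, MM i⁆ ⊔ scalars ι F = MM i
      rw [hgi, ← hcjcomm]
      conv_rhs => rw [← hP2]
      rw [cjG, cjG, Subgroup.map_sup]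
      congr 1
      exact (cjG_central (g := g) hZ).symm
    have hPle : ∀ i, P i ≤ MM i := fun i => by rw [← hPM i]; exact le_sup_left
    have hMMN : ∀ i, MM i ≤ N := by
      intro i
      obtain ⟨g, hg, hgi⟩ := hMM i
      rw [hgi, ← hsup]
      exact le_iSup (fun g : H => cjG (g : GL ι F) M) ⟨g, hg⟩
    have hPns : ∀ i, ¬ P i ≤ scalars ι F := by
      intro i h
      obtain ⟨g, hg, hgi⟩ := hMM i
      have h1 := hPM i
      rw [sup_eq_right.2 h, hgi] at h1
      apply hM.ne
      apply cjG_injective g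
      rw [← h1, cjG_central hZ]
    refine ⟨t, P, hS2, ?_, ?_, hperf, hPns, ?_, ?_, ?_⟩
    · -- permutation
      intro g hg
      let ρ : S → S := fun K => ⟨cjG g K, by
        obtain ⟨k, hk⟩ := K.2
        refine ⟨⟨g, hg⟩ * k, ?_⟩
        show cjG (((⟨g, hg⟩ * k : H)) : GL ι F) M = cjG g (K : Subgroup (GL ι F))
        rw [← hk]
        show cjG (g * (k : GL ι F)) M = _
        rw [cjG_mul]⟩
      have hρ : Function.Injective ρ := by
        intro K K' h
        exact Subtype.ext (cjG_injective g (congrArg Subtype.val h))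
      let ρ' : Equiv.Perm S := Equiv.ofBijective ρ (Finite.injective_iff_bijective.1 hρ)
      refine ⟨(eqv.symm.trans ρ').trans eqv, fun i => ?_⟩
      have h1 : cjG g (MM i) = MM (((eqv.symm.trans ρ').trans eqv) i) := by
        simp only [MM, Equiv.trans_apply, Equiv.symm_apply_apply]
        rfl
      show cjG g ⁅MM i, MM i⁆ = ⁅MM _, MM _⁆
      rw [hcjcomm, h1]
    · intro i j
      obtain ⟨g, hg, hgi⟩ := hMM i
      obtain ⟨g', hg', hgj⟩ := hMM j
      refine ⟨g' * g⁻¹, H.mul_mem hg' (H.inv_mem hg), ?_⟩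
      show cjG (g' * g⁻¹) ⁅MM i, MM i⁆ = ⁅MM j, MM j⁆
      rw [hcjcomm, hgi, hgj, ← cjG_mul]
      have : g' * g⁻¹ * g = g' := by group
      rw [this]
    · intro i j hij x hx y hy
      obtain ⟨g, hg, hgi⟩ := hMM i
      obtain ⟨g', hg', hgj⟩ := hMM j
      have hne : cjG g M ≠ cjG g' M := by
        rw [← hgi, ← hgj]; exact fun h => hij (hMMinj h)
      have h1 : ⁅MM i, MM j⁆ ≤ scalars ι F := by rw [hgi, hgj]; exact hcomm g hg g' hg' hne
      refine commute_of_perfect hZ (hperf j) (m := x) ?_ y hy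
      intro z hz
      have h2 := h1 (Subgroup.commutator_mem_commutator (hPle i hx) (hPle j hz))
      exact h2
    · apply absIrr_sup_scalars
      have h1 : (⨆ i, P i) ⊔ scalars ι F = N := by
        apply le_antisymm
        · exact sup_le (iSup_le fun i => (hPle i).trans (hMMN i)) hN.le
        · rw [← hsup]
          refine iSup_le fun g => ?_
          obtain ⟨i, hi⟩ := hMMsurj g g.2
          rw [← hi, ← hPM i]
          exact sup_le_sup_right (le_iSup P i) _
      rw [h1]; exact hNai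
    · intro i
      exact (Subgroup.commutator_mono (hMMN i) (hMMN i)).trans hNle


/-- The abelian case: apply the symplectic-type analysis inside `H`. -/
theorem fabel_case [Finite F] {H N : Subgroup (GL ι F)} (hn : 2 ≤ Fintype.card ι) (hH : FGood H)
    (hNH : N ≤ H ⊔ scalars ι F) (hN : IsMinOver (scalars ι F) H N) (hab : ⁅N, N⁆ ≤ scalars ι F) :
    ∃ (R : Subgroup (GL ι F)) (r m : ℕ), R ≤ H ∧ AschExtra.IsSympData H (N ⊓ H) R r m := by
  classical
  have hmod : N = (N ⊓ H) ⊔ scalars ι F := by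
    apply le_antisymm
    · intro x hx
      obtain ⟨g, hg, z, hz, rfl⟩ := Cfsg.Agent.Lib.AschExtra.mem_sup_scalars (hNH hx)
      have hgN : g ∈ N := by
        have := N.mul_mem hx (N.inv_mem (hN.le hz))
        rwa [mul_inv_cancel_right] at this
      exact mul_mem ((le_sup_left : N ⊓ H ≤ _) ⟨hgN, hg⟩) ((le_sup_right : scalars ι F ≤ _) hz)
    · exact sup_le inf_le_left hN.le
  have hnorm : NormBy H (N ⊓ H) := hN.norm.inf (normBy_self H)
  have hns : ¬ N ⊓ H ≤ scalars ι F := by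
    intro hle
    apply hN.ne
    rw [sup_eq_right.2 hle] at hmod
    exact hmod
  have habs : ActsAbsolutelyIrreducibly (matrixSet (N ⊓ H)) :=
    hH.absIrr _ (inf_le_right.trans le_sup_left) hnorm hns
  have hcomm : ∀ x ∈ N ⊓ H, ∀ y ∈ N ⊓ H, x * y * x⁻¹ * y⁻¹ ∈ scalars ι F := fun x hx y hy =>
    hab (Subgroup.commutator_mem_commutator hx.1 hy.1)
  have hchief : ∀ M : Subgroup (GL ι F), M ≤ N ⊓ H → AschExtra.InvBy H M → M ≤ scalars ι F ∨ N ⊓ H ≤ M ⊔ scalars ι F := by
    intro M hM hMi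
    have h1 : NormBy H (M ⊔ scalars ι F) := NormBy.sup (show NormBy H M from hMi) (normBy_of_central scalars_le_center)
    rcases hN.min (M ⊔ scalars ι F) le_sup_right (sup_le (hM.trans inf_le_left) hN.le) h1 with h2 | h2
    · left; exact (le_sup_left : M ≤ _).trans h2.le
    · right; rw [h2]; exact inf_le_left
  obtain ⟨R, r, m, hD⟩ := AschExtra.exists_sympData hn hnorm habs hcomm hchief
  exact ⟨R, r, m, hD.le.trans inf_le_right, hD⟩

end Cfsg.Agent.Lib.AschAdj
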