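import Cfsg.Agent.Lib.AschAdj3
set_option autoImplicit false
set_option linter.style.haveILetI false
set_option linter.unusedVariables false
set_option linter.unusedSectionVars false

/-!
Aschbacher's theorem relative to a form: tensor decompositions of forms.
-/

namespace Cfsg.Agent.Lib.AschAdj

open Cfsg Cfsg.Geo Cfsg.Agent.Lib.AschMU Cfsg.Agent.Lib.AschCore Cfsg.Agent.Lib.AschField Cfsg.Agent.Lib.AschAlg
  Cfsg.Agent.Lib.AschGroup Cfsg.Agent.Lib.AschGood Cfsg.Agent.Lib.AschNonab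
open scoped Matrix MatrixGroups Kronecker

variable {ι : Type} [Fintype ι] [DecidableEq ι] {F : Type*} [Field F]
variable {σ : F ≃+* F} {ε : F} {G : Matrix ι ι F}

/-- Gram matrix in the basis given by the columns of `P`. -/
def gr (σ : F ≃+* F) (G : Matrix ι ι F) (P : GL ι F) : Matrix ι ι F := (P : Matrix ι ι F)ᵀ * G * (P : Matrix ι ι F).map σ

lemma bf_gr (P : GL ι F) (u v : ι → F) :
    bf σ G ((P : Matrix ι ι F) *ᵥ u) ((P : Matrix ι ι F) *ᵥ v) = bf σ (gr σ G P) u v := by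
  unfold bf gr
  rw [mulVec_map, Matrix.mulVec_mulVec, ← Matrix.mulVec_mulVec, ← Matrix.mulVec_mulVec, ← Matrix.mulVec_mulVec,
    Matrix.dotProduct_mulVec u, Matrix.vecMul_transpose, Matrix.mulVec_mulVec]

lemma isUnit_map {x : Matrix ι ι F} (hx : IsUnit x) : IsUnit (x.map σ) := by
  have := hx.map (RingHom.mapMatrix (m := ι) (σ : F →+* F))
  exact this

lemma RF.gr (h : RF σ ε G) (P : GL ι F) : RF σ ε (gr σ G P) where
  inv := h.inv
  unit := by
    unfold AschAdj.gr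
    exact ((((Matrix.isUnit_transpose _).2 P.isUnit).mul h.unit).mul (isUnit_map P.isUnit))
  refl := by
    unfold AschAdj.gr
    rw [Matrix.transpose_mul, Matrix.transpose_mul, Matrix.transpose_transpose, map_mul', map_mul', h.refl, Matrix.transpose_map,
      h.map_map, Matrix.smul_mul, Matrix.mul_smul, mul_assoc]
  eps := h.eps

lemma map_kronL {d e : ℕ} (ρ : ι ≃ Fin d × Fin e) (x : Matrix (Fin d) (Fin d) F) (y : Matrix (Fin e) (Fin e) F) :
    (kronL ρ x y).map σ = kronL ρ (x.map σ) (y.map σ) := by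
  ext i j
  simp [kronL]

lemma transpose_kronL {d e : ℕ} (ρ : ι ≃ Fin d × Fin e) (x : Matrix (Fin d) (Fin d) F) (y : Matrix (Fin e) (Fin e) F) :
    (kronL ρ x y)ᵀ = kronL ρ xᵀ yᵀ := by
  ext i j
  simp [kronL]

lemma smul_kronL {d e : ℕ} (ρ : ι ≃ Fin d × Fin e) (c : F) (x : Matrix (Fin d) (Fin d) F) (y : Matrix (Fin e) (Fin e) F) :
    kronL ρ (c • x) y = c • kronL ρ x y := by
  ext i j
  simp [kronL, mul_assoc]

lemma kronL_smul {d e : ℕ} (ρ : ι ≃ Fin d × Fin e) (c : F) (x : Matrix (Fin d) (Fin d) F) (y : Matrix (Fin e) (Fin e) F) :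
    kronL ρ x (c • y) = c • kronL ρ x y := by
  ext i j
  simp [kronL, mul_left_comm]

lemma isUnit_kronL_right {d e : ℕ} (hd : d ≠ 0) (ρ : ι ≃ Fin d × Fin e) {x : Matrix (Fin d) (Fin d) F} {y : Matrix (Fin e) (Fin e) F}
    (h : IsUnit (kronL ρ x y)) : IsUnit y := by
  rw [Matrix.isUnit_iff_isUnit_det, isUnit_iff_ne_zero] at h ⊢
  intro h0
  apply h
  rw [kronL, Matrix.det_reindex_self, Matrix.det_kronecker, h0]
  simp [hd]

lemma isUnit_kronL_left {d e : ℕ} (he : e ≠ 0) (ρ : ι ≃ Fin d × Fin e) {x : Matrix (Fin d) (Fin d) F} {y : Matrix (Fin e) (Fin e) F}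
    (h : IsUnit (kronL ρ x y)) : IsUnit x := by
  rw [Matrix.isUnit_iff_isUnit_det, isUnit_iff_ne_zero] at h ⊢
  intro h0
  apply h
  rw [kronL, Matrix.det_reindex_self, Matrix.det_kronecker, h0]
  simp [he]

/-- The Gram matrix of the form in a basis adapted to an adjoint-closed full matrix subalgebra is a Kronecker product. -/
theorem tensor_gram (h : RF σ ε G) {A : Subalgebra F (Matrix ι ι F)} (hA : AdjClosed σ G A) {d e : ℕ} (hd : d ≠ 0) (he : e ≠ 0)
    (φ : Matrix (Fin d) (Fin d) F ≃ₐ[F] A) (ρ : ι ≃ Fin d × Fin e) (P : GL ι F)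
    (hP : ∀ x, (φ x : Matrix ι ι F) = (P : Matrix ι ι F) * kronL ρ x 1 * ((P⁻¹ : GL ι F) : Matrix ι ι F)) :
    ∃ (G₁ : Matrix (Fin d) (Fin d) F) (G₂ : Matrix (Fin e) (Fin e) F), gr σ G P = kronL ρ G₁ G₂ ∧ IsUnit G₁ ∧ IsUnit G₂ := by
  classical
  have hd' : ∀ x : Matrix (Fin d) (Fin d) F, (x.map σ).map σ = x := by intro x; ext i j; simp [h.inv]
  let ψf : Matrix (Fin d) (Fin d) F → Matrix (Fin d) (Fin d) F := fun x =>
    (φ.symm ⟨adj σ G (φ xᵀ : Matrix ι ι F), hA _ (φ xᵀ).2⟩).map σ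
  have hψf : ∀ x, (φ ((ψf x).map σ) : Matrix ι ι F) = adj σ G (φ xᵀ : Matrix ι ι F) := by
    intro x
    simp only [ψf]
    rw [hd', AlgEquiv.apply_symm_apply]
  have hinj : ∀ x y : Matrix (Fin d) (Fin d) F, (φ (x.map σ) : Matrix ι ι F) = (φ (y.map σ) : Matrix ι ι F) → x = y := by
    intro x y hxy
    exact map_injective σ (φ.injective (Subtype.ext hxy))
  let ψ : Matrix (Fin d) (Fin d) F →ₐ[F] Matrix (Fin d) (Fin d) F := AlgHom.ofLinearMap
    { toFun := ψf
      map_add' := fun x y => by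
        apply hinj
        rw [map_add'', hψf, map_add, Subalgebra.coe_add, hψf, hψf, Matrix.transpose_add, map_add, Subalgebra.coe_add, adj_add]
      map_smul' := fun c x => by
        apply hinj
        rw [RingHom.id_apply, map_smul'', hψf, map_smul, Subalgebra.coe_smul, hψf, Matrix.transpose_smul, map_smul, Subalgebra.coe_smul,
          adj_smul] }
    (by
      show ψf 1 = 1
      apply hinj
      rw [hψf, map_one', Matrix.transpose_one, map_one, Subalgebra.coe_one, adj_one h])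
    (by
      intro x y
      show ψf (x * y) = ψf x * ψf y
      apply hinj
      rw [map_mul', hψf, map_mul, Subalgebra.coe_mul, hψf, hψf, Matrix.transpose_mul, map_mul, Subalgebra.coe_mul, adj_mul h])
  obtain ⟨Q, hQ⟩ := exists_conj_algEnd ψ
  set Γ := gr σ G P with hΓ
  have hPinv : ((P⁻¹ : GL ι F) : Matrix ι ι F).map σ * (P : Matrix ι ι F).map σ = 1 := by
    rw [← map_mul', gl_inv_mul, map_one']
  have key : ∀ x, kronL ρ x 1 * Γ = Γ * kronL ρ (ψf x) 1 := by
    intro x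
    have h1 := hψf x
    rw [hP, hP] at h1
    -- adj X with X = P K(xᵀ) P⁻¹
    have h2 : (((P : Matrix ι ι F) * kronL ρ xᵀ 1 * ((P⁻¹ : GL ι F) : Matrix ι ι F))ᵀ) * G =
        G * (adj σ G ((P : Matrix ι ι F) * kronL ρ xᵀ 1 * ((P⁻¹ : GL ι F) : Matrix ι ι F))).map σ := by
      unfold adj
      rw [h.map_map, ← mul_assoc, ← mul_assoc, h.mul_inv, one_mul]
    rw [← h1, map_mul', map_mul', map_kronL, hd', map_one', Matrix.transpose_mul, Matrix.transpose_mul, transpose_kronL,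
      Matrix.transpose_transpose, Matrix.transpose_one] at h2
    have h3 : (P : Matrix ι ι F)ᵀ * (((P⁻¹ : GL ι F) : Matrix ι ι F))ᵀ = 1 := by
      rw [← Matrix.transpose_mul, gl_inv_mul, Matrix.transpose_one]
    calc kronL ρ x 1 * Γ = (P : Matrix ι ι F)ᵀ * ((((P⁻¹ : GL ι F) : Matrix ι ι F))ᵀ * (kronL ρ x 1 * (P : Matrix ι ι F)ᵀ) * G) * (P : Matrix ι ι F).map σ := by
          rw [hΓ, gr]
          calc kronL ρ x 1 * ((P : Matrix ι ι F)ᵀ * G * (P : Matrix ι ι F).map σ)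
              = ((P : Matrix ι ι F)ᵀ * (((P⁻¹ : GL ι F) : Matrix ι ι F))ᵀ) * (kronL ρ x 1 * ((P : Matrix ι ι F)ᵀ * G * (P : Matrix ι ι F).map σ)) := by
                rw [h3, one_mul]
            _ = _ := by simp only [mul_assoc]
      _ = (P : Matrix ι ι F)ᵀ * (G * ((P : Matrix ι ι F).map σ * kronL ρ (ψf x) 1 * ((P⁻¹ : GL ι F) : Matrix ι ι F).map σ)) * (P : Matrix ι ι F).map σ := by
          rw [h2]
      _ = Γ * kronL ρ (ψf x) 1 * (((P⁻¹ : GL ι F) : Matrix ι ι F).map σ * (P : Matrix ι ι F).map σ) := by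
          rw [hΓ, gr]; simp only [mul_assoc]
      _ = Γ * kronL ρ (ψf x) 1 := by rw [hPinv, mul_one]
  have hΓK : ∀ x, (Γ * kronL ρ (Q : Matrix (Fin d) (Fin d) F) 1) * kronL ρ x 1 = kronL ρ x 1 * (Γ * kronL ρ (Q : Matrix (Fin d) (Fin d) F) 1) := by
    intro x
    have h1 : ψf x = (Q : Matrix (Fin d) (Fin d) F) * x * ((Q⁻¹ : GL (Fin d) F) : Matrix (Fin d) (Fin d) F) := hQ x
    rw [← mul_assoc (kronL ρ x 1), key, h1, mul_assoc, mul_assoc, kronL_mul, kronL_mul, mul_assoc, mul_assoc, gl_inv_mul, mul_one, mul_one]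
  obtain ⟨G₂, hG₂⟩ := exists_kronL_of_commute hd ρ hΓK
  have hΓeq : Γ = kronL ρ ((Q⁻¹ : GL (Fin d) F) : Matrix (Fin d) (Fin d) F) G₂ := by
    calc Γ = (Γ * kronL ρ (Q : Matrix (Fin d) (Fin d) F) 1) * kronL ρ ((Q⁻¹ : GL (Fin d) F) : Matrix (Fin d) (Fin d) F) 1 := by
          rw [mul_assoc, kronL_mul, gl_mul_inv, mul_one, kronL_one, mul_one]
      _ = _ := by rw [hG₂, kronL_mul, one_mul, mul_one]
  have hu := (h.gr P).unit
  rw [← hΓ, hΓeq] at hu
  exact ⟨_, G₂, hΓeq, isUnit_kronL_left he ρ hu, isUnit_kronL_right hd ρ hu⟩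

/-- Equality of Kronecker products. -/
lemma kronL_eq {d e : ℕ} (hd : d ≠ 0) (he : e ≠ 0) (ρ : ι ≃ Fin d × Fin e) {x x' : Matrix (Fin d) (Fin d) F} {y y' : Matrix (Fin e) (Fin e) F}
    (hx : IsUnit x) (hy : IsUnit y) (h : kronL ρ x y = kronL ρ x' y') : ∃ c : F, c ≠ 0 ∧ x' = c • x ∧ y' = c⁻¹ • y := by
  have : Nonempty (Fin d) := ⟨⟨0, Nat.pos_of_ne_zero hd⟩⟩
  have : Nonempty (Fin e) := ⟨⟨0, Nat.pos_of_ne_zero he⟩⟩
  have hent : ∀ i j k l, x i j * y k l = x' i j * y' k l := by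
    intro i j k l
    have := congrFun (congrFun h (ρ.symm (i, k))) (ρ.symm (j, l))
    simpa [kronL] using this
  obtain ⟨a, b, hab⟩ : ∃ a b, x a b ≠ 0 := by
    by_contra hcon
    push Not at hcon
    have : x = 0 := by ext i j; exact hcon i j
    exact hx.ne_zero this
  obtain ⟨p, q, hpq⟩ : ∃ p q, y p q ≠ 0 := by
    by_contra hcon
    push Not at hcon
    have : y = 0 := by ext i j; exact hcon i j
    exact hy.ne_zero this
  have h1 : x' a b * y' p q ≠ 0 := by rw [← hent]; exact mul_ne_zero hab hpq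
  have hy'pq : y' p q ≠ 0 := right_ne_zero_of_mul h1
  have hx'ab : x' a b ≠ 0 := left_ne_zero_of_mul h1
  refine ⟨y p q / y' p q, div_ne_zero hpq hy'pq, ?_, ?_⟩
  · ext i j
    rw [Matrix.smul_apply, smul_eq_mul]
    have := hent i j p q
    field_simp
    linear_combination -this
  · ext k l
    rw [Matrix.smul_apply, smul_eq_mul, inv_div]
    have h2 := hent a b k l
    have h3 := hent a b p q
    field_simp
    have h4 : x' a b * (y' k l * y p q) = x' a b * (y' p q * y k l) := by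
      calc x' a b * (y' k l * y p q) = (x' a b * y' k l) * y p q := by ring
        _ = (x a b * y k l) * y p q := by rw [← h2]
        _ = (x a b * y p q) * y k l := by ring
        _ = (x' a b * y' p q) * y k l := by rw [h3]
        _ = _ := by ring
    have := mul_left_cancel₀ hx'ab h4
    linear_combination this

end Cfsg.Agent.Lib.AschAdj
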