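import Cfsg.Agent.Lib.AschAdj4
import Cfsg.Agent.Lib.Descent
import Cfsg.Agent.Lib.UnBridge
set_option autoImplicit false
set_option linter.style.haveILetI false
set_option linter.unusedVariables false
set_option linter.unusedSectionVars false

/-!
Aschbacher's theorem relative to a form: hermitian forms, descent.
-/

namespace Cfsg.Agent.Lib.AschAdj

open Cfsg Cfsg.Geo Cfsg.Agent.Lib.AschMU Cfsg.Agent.Lib.AschCore Cfsg.Agent.Lib.AschField Cfsg.Agent.Lib.AschAlg
  Cfsg.Agent.Lib.AschGroup Cfsg.Agent.Lib.AschGood Cfsg.Agent.Lib.AschNonab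
open scoped Matrix MatrixGroups Kronecker

variable {ι : Type} [Fintype ι] [DecidableEq ι] {F : Type*} [Field F]
variable {σ : F ≃+* F} {ε : F} {G : Matrix ι ι F}

/-- The fixed field of `σ`. -/
def fx (σ : F ≃+* F) : Subfield F where
  carrier := {x | σ x = x}
  mul_mem' := fun {a b} ha hb => by show σ (a * b) = a * b; rw [map_mul, show σ a = a from ha, show σ b = b from hb]
  one_mem' := map_one σ
  add_mem' := fun {a b} ha hb => by show σ (a + b) = a + b; rw [map_add, show σ a = a from ha, show σ b = b from hb]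
  zero_mem' := map_zero σ
  neg_mem' := fun {a} ha => by show σ (-a) = -a; rw [map_neg, show σ a = a from ha]
  inv_mem' := fun a ha => by show σ (a⁻¹) = a⁻¹; rw [map_inv₀, show σ a = a from ha]

lemma mem_fx {x : F} : x ∈ fx σ ↔ σ x = x := Iff.rfl

lemma exists_ne (hne : σ ≠ RingEquiv.refl F) : ∃ θ : F, σ θ ≠ θ := by
  by_contra hcon
  push Not at hcon
  exact hne (RingEquiv.ext hcon)

/-- An involution halves the degree. -/
lemma card_fx [Finite F] (hinv : ∀ a, σ (σ a) = a) (hne : σ ≠ RingEquiv.refl F) : Nat.card F = Nat.card (fx σ) ^ 2 := by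
  obtain ⟨θ, hθ⟩ := exists_ne hne
  have hd : σ θ - θ ≠ 0 := sub_ne_zero.2 hθ
  have hinj : Function.Injective (fun p : fx σ × fx σ => (p.1 : F) + p.2 * θ) := by
    rintro ⟨⟨a, ha⟩, ⟨b, hb⟩⟩ ⟨⟨c, hc⟩, ⟨d, hdd⟩⟩ h
    have h' : a + b * θ = c + d * θ := h
    have h1 : σ (a + b * θ) = σ (c + d * θ) := by rw [h']
    rw [map_add, map_add, map_mul, map_mul, mem_fx.1 ha, mem_fx.1 hb, mem_fx.1 hc, mem_fx.1 hdd] at h1
    have h2 : (b - d) * (σ θ - θ) = 0 := by linear_combination h1 - h'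
    have h3 : b = d := sub_eq_zero.1 ((mul_eq_zero.1 h2).resolve_right hd)
    subst h3
    have h4 : a = c := by linear_combination h'
    subst h4
    rfl
  have hsurj : Function.Surjective (fun p : fx σ × fx σ => (p.1 : F) + p.2 * θ) := by
    intro x
    have hb : σ ((σ x - x) / (σ θ - θ)) = (σ x - x) / (σ θ - θ) := by
      rw [map_div₀, map_sub, map_sub, hinv, hinv, ← neg_sub, ← neg_sub (σ θ), neg_div_neg_eq]
    set b := (σ x - x) / (σ θ - θ) with hbdef
    have hbe : b * (σ θ - θ) = σ x - x := by rw [hbdef]; field_simp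
    refine ⟨(⟨x - b * θ, ?_⟩, ⟨b, hb⟩), ?_⟩
    · rw [mem_fx, map_sub, map_mul, hb]; linear_combination -hbe
    · show x - b * θ + b * θ = x
      ring
  have := Nat.card_congr (Equiv.ofBijective _ ⟨hinj, hsurj⟩)
  rw [Nat.card_prod] at this
  rw [← this, pow_two]

lemma orderOf_sigma (hinv : ∀ a, σ (σ a) = a) (hne : σ ≠ RingEquiv.refl F) : orderOf σ = 2 := by
  haveI : Fact (Nat.Prime 2) := ⟨Nat.prime_two⟩
  apply orderOf_eq_prime
  · apply RingEquiv.ext; intro a
    rw [pow_two]; exact hinv a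
  · exact hne

lemma hilbert90_scalar (hinv : ∀ a, σ (σ a) = a) (hne : σ ≠ RingEquiv.refl F) {c : F} (hc : c * σ c = 1) :
    ∃ m : F, m ≠ 0 ∧ c * σ m = m := by
  have hc0 : c ≠ 0 := left_ne_zero_of_mul_eq_one hc
  obtain ⟨b, hb⟩ := Descent.hilbert90_units (orderOf_sigma hinv hne) (by norm_num) (a := Units.mk0 c hc0) (by
    rw [Finset.prod_range_succ, Finset.prod_range_one, pow_zero, pow_one]
    exact hc)
  exact ⟨b, b.ne_zero, hb⟩

lemma norm_surj' [Finite F] (hinv : ∀ a, σ (σ a) = a) (hne : σ ≠ RingEquiv.refl F) {c : F} (hc : σ c = c) (hc0 : c ≠ 0) :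
    ∃ m : F, m ≠ 0 ∧ m * σ m = c := by
  obtain ⟨a, ha⟩ := Descent.exists_norm (orderOf_sigma hinv hne) (by norm_num) (c := Units.mk0 c hc0) hc
  rw [Finset.prod_range_succ, Finset.prod_range_one, pow_zero, pow_one] at ha
  exact ⟨a, a.ne_zero, ha⟩

lemma hilbert90_mat (hinv : ∀ a, σ (σ a) = a) (hne : σ ≠ RingEquiv.refl F) {M : GL ι F}
    (hM : (M : Matrix ι ι F) * (M : Matrix ι ι F).map σ = 1) :
    ∃ C : GL ι F, (M : Matrix ι ι F) * (C : Matrix ι ι F).map σ = (C : Matrix ι ι F) := by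
  obtain ⟨C, hC⟩ := Descent.hilbert90 (orderOf_sigma hinv hne) (by norm_num) (g := M) (by
    apply Units.ext
    rw [Descent.nk_succ, Descent.nk_succ, Descent.nk_zero, map_one, mul_one]
    exact hM)
  refine ⟨C, ?_⟩
  have : M * Descent.mp σ C = C := by rw [hC, inv_mul_cancel_right]
  have h2 := congrArg (fun g : GL ι F => (g : Matrix ι ι F)) this
  simp only [Units.val_mul] at h2
  exact h2

/-- descent of a matrix fixed up to a scalar -/
lemma exists_smul_fixed (hinv : ∀ a, σ (σ a) = a) (hne : σ ≠ RingEquiv.refl F) {y : Matrix ι ι F} (hy : y ≠ 0) {b : F}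
    (h : y = b • y.map σ) : ∃ c : F, c ≠ 0 ∧ ∀ i j, σ ((c • y) i j) = (c • y) i j := by
  have hb : b * σ b = 1 := by
    have h1 : y = (b * σ b) • y := by
      conv_lhs => rw [h]
      have h2 : y.map σ = σ b • y := by
        conv_lhs => rw [h]
        rw [map_smul'']
        congr 1
        ext i j; simp [hinv]
      rw [h2, smul_smul]
    have h3 : (b * σ b - 1) • y = 0 := by rw [sub_smul, one_smul, ← h1, sub_self]
    rcases smul_eq_zero.1 h3 with h4 | h4
    · exact sub_eq_zero.1 h4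
    · exact absurd h4 hy
  obtain ⟨m, hm, hbm⟩ := hilbert90_scalar hinv hne hb
  have hb0 : b ≠ 0 := left_ne_zero_of_mul_eq_one hb
  have hsm : σ m ≠ 0 := by
    intro h0; rw [h0, mul_zero] at hbm; exact hm hbm.symm
  refine ⟨m⁻¹, inv_ne_zero hm, fun i j => ?_⟩
  have h5 : y i j = b * σ (y i j) := by
    have := congrArg (fun M : Matrix ι ι F => M i j) h
    simpa using this
  rw [Matrix.smul_apply, smul_eq_mul, map_mul, map_inv₀]
  have h6 : σ (y i j) = b⁻¹ * y i j := by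
    rw [eq_inv_mul_iff_mul_eq₀ hb0]; exact h5.symm
  rw [h6, ← mul_assoc, ← mul_inv, mul_comm (σ m) b, hbm]

/-- **Semilinear descent.** `H` consists of isometries of the hermitian form `G` that are similarities of a bilinear form `B`,
with `G⁻¹ B` semilinear of square scalar. -/
theorem descent_of_bilinear [Finite F] [Nonempty ι] (h : RF σ 1 G) (hne : σ ≠ RingEquiv.refl F) {B : Matrix ι ι F} (hB : IsUnit B)
    {H : Subgroup (GL ι F)} (hI : ∀ g ∈ H, IsIso σ G g)
    (hBH : ∀ g ∈ H, ∃ b : F, (g : Matrix ι ι F)ᵀ * B * (g : Matrix ι ι F) = b • B)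
    {l : F} (hl : (G⁻¹ * B).map σ * (G⁻¹ * B) = l • 1) :
    ∃ (P : GL ι F) (m : F), m ≠ 0 ∧ H ≤ subfieldSubgroup (fx σ) P ∧ gr σ G P = m • ((P : Matrix ι ι F)ᵀ * B * (P : Matrix ι ι F)) := by
  obtain ⟨M, hMdef⟩ : ∃ M, M = G⁻¹ * B := ⟨_, rfl⟩
  rw [← hMdef] at hl
  have hMu : IsUnit M := by
    rw [hMdef]
    refine IsUnit.mul ?_ hB
    exact (Matrix.isUnit_nonsing_inv_iff).2 h.unit
  have hl0 : l ≠ 0 := by
    rintro rfl
    rw [zero_smul] at hl
    exact ((isUnit_map hMu).mul hMu).ne_zero hl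
  have hMinv : M * M⁻¹ = 1 := Matrix.mul_nonsing_inv _ ((Matrix.isUnit_iff_isUnit_det _).1 hMu)
  have hMinv' : M⁻¹ * M = 1 := Matrix.nonsing_inv_mul _ ((Matrix.isUnit_iff_isUnit_det _).1 hMu)
  have hl' : M * M.map σ = l • 1 := by
    have h1 : M.map σ = l • M⁻¹ := by
      calc M.map σ = M.map σ * (M * M⁻¹) := by rw [hMinv, mul_one]
        _ = _ := by rw [← mul_assoc, hl, Matrix.smul_mul, one_mul]
    rw [h1, Matrix.mul_smul, hMinv]
  have hsl : σ l = l := by
    have h1 : (M * M.map σ).map σ = (l • (1 : Matrix ι ι F)).map σ := by rw [hl']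
    rw [map_mul', h.map_map, hl, map_smul'', map_one'] at h1
    have h2 := congrArg (fun N : Matrix ι ι F => N (Classical.arbitrary ι) (Classical.arbitrary ι)) h1
    simpa using h2.symm
  obtain ⟨m, hm0, hm⟩ := norm_surj' h.inv hne hsl hl0
  have hsm0 : σ m ≠ 0 := by rw [Ne, map_eq_zero_iff σ σ.injective]; exact hm0
  -- M' = m⁻¹ M
  have hMu' : IsUnit (m⁻¹ • M) := by
    rw [Matrix.isUnit_iff_isUnit_det] at hMu ⊢
    rw [Matrix.det_smul]
    exact ((IsUnit.mk0 _ (inv_ne_zero hm0)).pow _).mul hMu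
  obtain ⟨M', hM'⟩ := hMu'
  obtain ⟨C, hC⟩ := hilbert90_mat h.inv hne (M := M') (by
    rw [hM', map_smul'', Matrix.smul_mul, Matrix.mul_smul, hl', smul_smul, smul_smul, map_inv₀, ← mul_inv, hm, inv_mul_cancel₀ hl0, one_smul])
  rw [hM', Matrix.smul_mul] at hC
  have hC' : M * (C : Matrix ι ι F).map σ = m • (C : Matrix ι ι F) := by
    conv_rhs => rw [← hC]
    rw [smul_smul, mul_inv_cancel₀ hm0, one_smul]
  -- P = σ(C)
  set P : GL ι F := Descent.mp σ C with hPdef
  have hP : (P : Matrix ι ι F) = (C : Matrix ι ι F).map σ := rfl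
  have hPσ : (P : Matrix ι ι F).map σ = (C : Matrix ι ι F) := by rw [hP, h.map_map]
  have hPi : ((P⁻¹ : GL ι F) : Matrix ι ι F) = ((C⁻¹ : GL ι F) : Matrix ι ι F).map σ := by
    have : P⁻¹ = Descent.mp σ C⁻¹ := by rw [hPdef, map_inv]
    rw [this]; rfl
  refine ⟨P, m⁻¹, inv_ne_zero hm0, ?_, ?_⟩
  · intro g hg
    obtain ⟨b, hb⟩ := hBH g hg
    have hiso : (g : Matrix ι ι F)ᵀ * G * (g : Matrix ι ι F).map σ = G := by
      have h1 : (adj σ G (g : Matrix ι ι F)).map σ = ((g⁻¹ : GL ι F) : Matrix ι ι F).map σ := by rw [adj_gl h (hI g hg)]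
      unfold adj at h1
      rw [h.map_map] at h1
      calc (g : Matrix ι ι F)ᵀ * G * (g : Matrix ι ι F).map σ = G * (G⁻¹ * (g : Matrix ι ι F)ᵀ * G) * (g : Matrix ι ι F).map σ := by
            rw [← mul_assoc, ← mul_assoc, h.mul_inv, one_mul]
        _ = G * ((((g⁻¹ : GL ι F) : Matrix ι ι F)) * (g : Matrix ι ι F)).map σ := by rw [h1, mul_assoc, ← map_mul']
        _ = G := by rw [gl_inv_mul, map_one', mul_one]
    -- M g = b σ(g) M
    have hgM : M * (g : Matrix ι ι F) = b • ((g : Matrix ι ι F).map σ * M) := by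
      -- gᵀ B g = b B; gᵀ G σ(g) = G → gᵀ = G σ(g)⁻¹ G⁻¹
      have h1 : (g : Matrix ι ι F)ᵀ * (G * (M * (g : Matrix ι ι F))) = (g : Matrix ι ι F)ᵀ * (G * (b • ((g : Matrix ι ι F).map σ * M))) := by
        have hGM : G * M = B := by rw [hMdef, ← mul_assoc, h.mul_inv, one_mul]
        calc (g : Matrix ι ι F)ᵀ * (G * (M * (g : Matrix ι ι F))) = (g : Matrix ι ι F)ᵀ * (G * M) * (g : Matrix ι ι F) := by simp only [mul_assoc]
          _ = b • B := by rw [hGM, hb]
          _ = b • (((g : Matrix ι ι F)ᵀ * G * (g : Matrix ι ι F).map σ) * M) := by rw [hiso, hGM]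
          _ = _ := by simp only [Matrix.mul_smul, mul_assoc]
      have h2 : ∀ X Y : Matrix ι ι F, (g : Matrix ι ι F)ᵀ * X = (g : Matrix ι ι F)ᵀ * Y → X = Y := by
        intro X Y hXY
        have : (((g⁻¹ : GL ι F) : Matrix ι ι F))ᵀ * ((g : Matrix ι ι F)ᵀ * X) = (((g⁻¹ : GL ι F) : Matrix ι ι F))ᵀ * ((g : Matrix ι ι F)ᵀ * Y) := by rw [hXY]
        rwa [← mul_assoc, ← mul_assoc, ← Matrix.transpose_mul, gl_mul_inv, Matrix.transpose_one, one_mul, one_mul] at this
      have h3 : G⁻¹ * (G * (M * (g : Matrix ι ι F))) = G⁻¹ * (G * (b • ((g : Matrix ι ι F).map σ * M))) := by rw [h2 _ _ h1]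
      rwa [← mul_assoc, h.inv_mul, one_mul, ← mul_assoc, h.inv_mul, one_mul] at h3
    -- y = P⁻¹ g P
    set y : Matrix ι ι F := ((P⁻¹ : GL ι F) : Matrix ι ι F) * (g : Matrix ι ι F) * (P : Matrix ι ι F) with hy
    have hyσ : y.map σ = ((C⁻¹ : GL ι F) : Matrix ι ι F) * (g : Matrix ι ι F).map σ * (C : Matrix ι ι F) := by
      rw [hy, map_mul', map_mul', hPσ, hPi, h.map_map]
    have hyb : y = b • y.map σ := by
      rw [hyσ]
      have h4 : (C : Matrix ι ι F) * y = b • ((g : Matrix ι ι F).map σ * (C : Matrix ι ι F)) := by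
        have h5 : M * ((P : Matrix ι ι F) * y) = b • ((g : Matrix ι ι F).map σ * (M * (P : Matrix ι ι F))) := by
          rw [hy]
          calc M * ((P : Matrix ι ι F) * (((P⁻¹ : GL ι F) : Matrix ι ι F) * (g : Matrix ι ι F) * (P : Matrix ι ι F)))
              = (M * (g : Matrix ι ι F)) * (P : Matrix ι ι F) := by
                rw [mul_assoc ((P⁻¹ : GL ι F) : Matrix ι ι F), gl_mul_inv_cancel_left, mul_assoc]
            _ = _ := by rw [hgM, Matrix.smul_mul, mul_assoc]
        rw [← mul_assoc, hP, hC', Matrix.smul_mul, Matrix.mul_smul, smul_comm b m] at h5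
        exact smul_right_injective _ hm0 h5
      calc y = ((C⁻¹ : GL ι F) : Matrix ι ι F) * ((C : Matrix ι ι F) * y) := by rw [gl_inv_mul_cancel_left]
        _ = _ := by rw [h4, Matrix.mul_smul, mul_assoc]
    have hyu : IsUnit y := by rw [hy]; exact (((P⁻¹).isUnit.mul g.isUnit).mul P.isUnit)
    obtain ⟨c, hc0, hc⟩ := exists_smul_fixed h.inv hne hyu.ne_zero hyb
    rw [AschDescent.mem_subfieldSubgroup]
    -- a = c y over the fixed field
    let a₀ : Matrix ι ι (fx σ) := fun i j => ⟨(c • y) i j, hc i j⟩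
    have ha₀ : a₀.map (fx σ).subtype = c • y := by ext i j; rfl
    have ha₀u : IsUnit a₀ := by
      rw [Matrix.isUnit_iff_isUnit_det, isUnit_iff_ne_zero]
      intro h0
      have h1 : (a₀.map (fx σ).subtype).det = 0 := by
        have := RingHom.map_det (fx σ).subtype a₀
        rw [h0, map_zero] at this
        exact this.symm
      rw [ha₀, Matrix.det_smul] at h1
      rcases mul_eq_zero.1 h1 with h2 | h2
      · exact hc0 ((pow_eq_zero_iff Fintype.card_ne_zero).1 h2)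
      · rw [Matrix.isUnit_iff_isUnit_det, h2] at hyu
        exact not_isUnit_zero hyu
    obtain ⟨a, ha⟩ := ha₀u
    refine ⟨Units.mk0 c⁻¹ (inv_ne_zero hc0), a, ?_⟩
    rw [ha, ha₀, Units.val_mk0, Matrix.mul_smul, Matrix.smul_mul, smul_smul, inv_mul_cancel₀ hc0, one_smul, hy]
    simp only [mul_assoc, gl_mul_inv_cancel_left, gl_mul_inv, mul_one]
  · -- the Gram matrix
    have hGM : G * M = B := by rw [hMdef, ← mul_assoc, h.mul_inv, one_mul]
    unfold gr
    rw [hPσ]
    have h1 : (C : Matrix ι ι F) = m⁻¹ • (M * (P : Matrix ι ι F)) := by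
      rw [hP, hC', smul_smul, inv_mul_cancel₀ hm0, one_smul]
    rw [h1, Matrix.mul_smul, ← mul_assoc, mul_assoc (P : Matrix ι ι F)ᵀ, hGM]

end Cfsg.Agent.Lib.AschAdj
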