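import Cfsg.Agent.Lib.AschDescent

/-!
Aschbacher's theorem, core part 5: invariant forms of absolutely irreducible groups.
-/

set_option autoImplicit false
set_option linter.unusedSectionVars false

namespace Cfsg.Agent.Lib.AschForm

open Cfsg Cfsg.Geo Cfsg.Agent.Lib.AschMU Cfsg.Agent.Lib.AschCore Cfsg.Agent.Lib.AschField Cfsg.Agent.Lib.AschAlg
  Cfsg.Agent.Lib.AschDescent
open scoped Matrix MatrixGroups Kronecker

variable {ι : Type} [Fintype ι] [DecidableEq ι] {F : Type*} [Field F]

/-- Sesquilinear forms: linear in the first argument, σ-semilinear in the second. -/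
structure IsSesq (σ : F →+* F) (f : (ι → F) → (ι → F) → F) : Prop where
  add_left : ∀ x y v, f (x + y) v = f x v + f y v
  smul_left : ∀ (c : F) (x v : ι → F), f (c • x) v = c * f x v
  add_right : ∀ v x y, f v (x + y) = f v x + f v y
  smul_right : ∀ (c : F) (v x : ι → F), f v (c • x) = σ c * f v x

omit [Fintype ι] [DecidableEq ι] in
theorem IsSesq.of_bilinear {f : (ι → F) → (ι → F) → F} (h : IsBilinearForm f) : IsSesq (RingHom.id F) f :=
  ⟨h.add_left, h.smul_left, h.add_right, h.smul_right⟩

omit [Fintype ι] [DecidableEq ι] in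
theorem IsSesq.of_unitary {σ : F ≃+* F} {f : (ι → F) → (ι → F) → F} (h : IsUnitaryForm σ f) :
    IsSesq (σ : F →+* F) f where
  add_left := h.add_left
  smul_left := h.smul_left
  add_right v x y := by rw [h.herm, h.add_left, map_add, ← h.herm, ← h.herm]
  smul_right c v x := by
    rw [h.herm, h.smul_left, map_mul, ← h.herm]; rfl

/-- The entrywise application of σ. -/
abbrev sm (σ : F →+* F) (x : Matrix ι ι F) : Matrix ι ι F := x.map σ

theorem sm_mul (σ : F →+* F) (x y : Matrix ι ι F) : sm σ (x * y) = sm σ x * sm σ y := Matrix.map_mul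

theorem formOfGram_apply (σ : F →+* F) (G : Matrix ι ι F) (u v : ι → F) :
    formOfGram σ G u v = u ⬝ᵥ (G *ᵥ (σ ∘ v)) := by
  simp only [formOfGram, dotProduct, Matrix.mulVec, Finset.mul_sum, Function.comp, mul_assoc]

theorem isSesq_formOfGram (σ : F →+* F) (G : Matrix ι ι F) : IsSesq σ (formOfGram σ G) where
  add_left x y v := by simp only [formOfGram_apply, add_dotProduct]
  smul_left c x v := by simp only [formOfGram_apply, smul_dotProduct, smul_eq_mul]
  add_right v x y := by
    have : σ ∘ (x + y) = σ ∘ x + σ ∘ y := by ext i; simp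
    simp only [formOfGram_apply, this, Matrix.mulVec_add, dotProduct_add]
  smul_right c v x := by
    have : σ ∘ (c • x) = σ c • (σ ∘ x) := by ext i; simp
    simp only [formOfGram_apply, this, Matrix.mulVec_smul, dotProduct_smul, smul_eq_mul]

theorem IsSesq.map_sum_left {σ : F →+* F} {f : (ι → F) → (ι → F) → F} (hf : IsSesq σ f) {κ : Type*} (s : Finset κ)
    (u : κ → (ι → F)) (v : ι → F) : f (∑ k ∈ s, u k) v = ∑ k ∈ s, f (u k) v := by
  classical
  induction s using Finset.induction_on with
  | empty =>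
    have := hf.smul_left 0 0 v
    simpa using this
  | insert a s ha ih => rw [Finset.sum_insert ha, Finset.sum_insert ha, hf.add_left, ih]

theorem IsSesq.map_sum_right {σ : F →+* F} {f : (ι → F) → (ι → F) → F} (hf : IsSesq σ f) {κ : Type*} (s : Finset κ)
    (u : κ → (ι → F)) (v : ι → F) : f v (∑ k ∈ s, u k) = ∑ k ∈ s, f v (u k) := by
  classical
  induction s using Finset.induction_on with
  | empty =>
    have := hf.smul_right 0 v 0
    simpa using this
  | insert a s ha ih => rw [Finset.sum_insert ha, Finset.sum_insert ha, hf.add_right, ih]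

/-- A sesquilinear form is determined by its Gram matrix. -/
theorem IsSesq.eq_formOfGram {σ : F →+* F} {f : (ι → F) → (ι → F) → F} (hf : IsSesq σ f) (u v : ι → F) :
    f u v = formOfGram σ (gramMatrix f) u v := by
  have hu : ∀ w : ι → F, w = ∑ a, w a • Pi.single a (1 : F) := fun w => by
    ext i
    simp [Finset.sum_apply, Pi.single_apply]
  conv_lhs => rw [hu u, hu v]
  rw [hf.map_sum_left]
  simp only [formOfGram]
  refine Finset.sum_congr rfl fun a _ => ?_
  rw [hf.map_sum_right]
  refine Finset.sum_congr rfl fun b _ => ?_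
  rw [hf.smul_left, hf.smul_right, gramMatrix]
  ring

theorem formOfGram_single (σ : F →+* F) (G : Matrix ι ι F) (a b : ι) :
    formOfGram σ G (Pi.single a 1) (Pi.single b 1) = G a b := by
  simp [formOfGram, Pi.single_apply]

/-- How matrices transform a form. -/
theorem formOfGram_mulVec (σ : F →+* F) (G x y : Matrix ι ι F) (u v : ι → F) :
    formOfGram σ G (x *ᵥ u) (y *ᵥ v) = formOfGram σ (xᵀ * G * sm σ y) u v := by
  have h1 : σ ∘ (y *ᵥ v) = (sm σ y) *ᵥ (σ ∘ v) := by
    ext i
    simp [Matrix.mulVec, dotProduct, map_sum]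
  simp only [formOfGram_apply]
  rw [h1, Matrix.mulVec_mulVec, ← Matrix.mulVec_mulVec, ← Matrix.vecMul_transpose, ← Matrix.dotProduct_mulVec,
    Matrix.mulVec_mulVec, Matrix.mulVec_mulVec]

theorem formOfGram_injective (σ : F →+* F) {G G' : Matrix ι ι F} (h : ∀ u v, formOfGram σ G u v = formOfGram σ G' u v) :
    G = G' := by
  ext a b
  rw [← formOfGram_single σ G, h, formOfGram_single]

theorem formOfGram_smul (σ : F →+* F) (c : F) (G : Matrix ι ι F) (u v : ι → F) :
    formOfGram σ (c • G) u v = c * formOfGram σ G u v := by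
  simp only [formOfGram_apply, Matrix.smul_mulVec, dotProduct_smul, smul_eq_mul]

/-- `x` multiplies the form by `c` iff its Gram matrix transforms accordingly. -/
theorem isSim_iff (σ : F →+* F) (G x : Matrix ι ι F) (c : F) :
    (∀ u v, formOfGram σ G (x *ᵥ u) (x *ᵥ v) = c * formOfGram σ G u v) ↔ xᵀ * G * sm σ x = c • G := by
  constructor
  · intro h
    apply formOfGram_injective σ
    intro u v
    rw [← formOfGram_mulVec, h, formOfGram_smul]
  · intro h u v
    rw [formOfGram_mulVec, h, formOfGram_smul]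

theorem isIso_iff (σ : F →+* F) (G x : Matrix ι ι F) :
    (∀ u v, formOfGram σ G (x *ᵥ u) (x *ᵥ v) = formOfGram σ G u v) ↔ xᵀ * G * sm σ x = G := by
  have := isSim_iff σ G x 1
  simpa using this

/-- Nondegenerate iff the Gram matrix is invertible. -/
theorem isNondegenerateForm_iff {σ : F ≃+* F} {G : Matrix ι ι F} :
    IsNondegenerateForm (formOfGram (σ : F →+* F) G) ↔ G.det ≠ 0 := by
  constructor
  · intro h hdet
    obtain ⟨v, hv0, hv⟩ := Matrix.exists_mulVec_eq_zero_iff.2 hdet
    have hw0 : (fun i => σ.symm (v i)) ≠ 0 := by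
      intro h0
      apply hv0
      funext i
      have := congrFun h0 i
      simpa using this
    obtain ⟨⟨x, hx⟩, -⟩ := h _ hw0
    apply hx
    rw [formOfGram_apply]
    have : (σ : F →+* F) ∘ (fun i => σ.symm (v i)) = v := by ext i; simp
    rw [this, hv, dotProduct_zero]
  · intro hdet v hv
    constructor
    · by_contra hcon
      push Not at hcon
      have h1 : G *ᵥ ((σ : F →+* F) ∘ v) = 0 := by
        funext i
        have := hcon (Pi.single i 1)
        rw [formOfGram_apply, single_one_dotProduct] at this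
        exact this
      have h2 : ((σ : F →+* F) ∘ v) = 0 := by
        by_contra hne
        exact hdet (Matrix.exists_mulVec_eq_zero_iff.1 ⟨_, hne, h1⟩)
      apply hv
      funext i
      have := congrFun h2 i
      simpa using this
    · by_contra hcon
      push Not at hcon
      have h1 : v ᵥ* G = 0 := by
        funext i
        have := hcon (Pi.single i 1)
        rw [formOfGram_apply, Matrix.dotProduct_mulVec] at this
        have h3 : ((σ : F →+* F) ∘ (Pi.single i (1 : F))) = Pi.single i 1 := by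
          ext j; simp [Pi.single_apply]
        rw [h3, dotProduct_single_one] at this
        exact this
      have h2 : v = 0 := by
        by_contra hne
        exact hdet (Matrix.exists_vecMul_eq_zero_iff.1 ⟨_, hne, h1⟩)
      exact hv h2

/-! ### Uniqueness and existence -/

/-- Invariance of the form with Gram matrix `G` under a set of matrices, in matrix form. -/
def Inv (σ : F →+* F) (X : Subgroup (GL ι F)) (G : Matrix ι ι F) : Prop :=
  ∀ x ∈ X, (x : Matrix ι ι F)ᵀ * G * sm σ (x : Matrix ι ι F) = G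

theorem inv_iff {σ : F →+* F} {X : Subgroup (GL ι F)} {G : Matrix ι ι F} :
    Inv σ X G ↔ FixesForm (matrixSet X) (formOfGram σ G) := by
  constructor
  · rintro h _ ⟨x, hx, rfl⟩
    exact (isIso_iff σ G x).2 (h x hx)
  · intro h x hx
    exact (isIso_iff σ G x).1 (h _ ⟨x, hx, rfl⟩)

theorem gl_transpose_mul_inv (x : GL ι F) : (x : Matrix ι ι F)ᵀ * (((x⁻¹ : GL ι F) : Matrix ι ι F))ᵀ = 1 := by
  rw [← Matrix.transpose_mul, gl_inv_mul, Matrix.transpose_one]

theorem gl_inv_transpose_mul (x : GL ι F) : (((x⁻¹ : GL ι F) : Matrix ι ι F))ᵀ * (x : Matrix ι ι F)ᵀ = 1 := by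
  rw [← Matrix.transpose_mul, gl_mul_inv, Matrix.transpose_one]

/-- Commutant of the σ-twist of an absolutely irreducible group. -/
theorem scalar_of_commute_sm {σ : F ≃+* F} {X : Subgroup (GL ι F)} (hX : ActsAbsolutelyIrreducibly (matrixSet X))
    {M : Matrix ι ι F} (hM : ∀ x ∈ X, M * sm (σ : F →+* F) (x : Matrix ι ι F) = sm (σ : F →+* F) (x : Matrix ι ι F) * M) :
    ∃ c : F, M = c • (1 : Matrix ι ι F) := by
  obtain ⟨c, hc⟩ := hX.2 (M.map (σ.symm : F ≃+* F)) (by
    rintro _ ⟨x, hx, rfl⟩
    have h1 := congrArg (fun z : Matrix ι ι F => z.map (σ.symm : F ≃+* F)) (hM x hx)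
    have h2 : ((x : Matrix ι ι F).map (σ : F →+* F)).map (σ.symm : F ≃+* F) = (x : Matrix ι ι F) := by
      ext i j; simp
    simp only [Matrix.map_mul] at h1
    simp only [h2] at h1
    exact h1)
  refine ⟨σ c, ?_⟩
  ext i j
  have h3 := congrArg σ (congrFun (congrFun hc i) j)
  simp only [Matrix.map_apply, RingEquiv.apply_symm_apply, Matrix.smul_apply, smul_eq_mul, map_mul] at h3
  rw [h3, Matrix.smul_apply, smul_eq_mul, Matrix.one_apply]
  split_ifs <;> simp

/-- Two invariant forms of an absolutely irreducible group are proportional. -/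
theorem inv_unique {σ : F ≃+* F} {X : Subgroup (GL ι F)} (hX : ActsAbsolutelyIrreducibly (matrixSet X))
    {G G' : Matrix ι ι F} (hG : Inv (σ : F →+* F) X G) (hG' : Inv (σ : F →+* F) X G') (hdet : G.det ≠ 0) :
    ∃ c : F, G' = c • G := by
  have hu : IsUnit G.det := isUnit_iff_ne_zero.2 hdet
  have key : ∀ {G : Matrix ι ι F}, Inv (σ : F →+* F) X G → ∀ x ∈ X,
      G * sm (σ : F →+* F) (x : Matrix ι ι F) = (((x⁻¹ : GL ι F) : Matrix ι ι F))ᵀ * G := by
    intro G hG x hx
    conv_rhs => rw [← hG x hx]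
    rw [← mul_assoc, ← mul_assoc, gl_inv_transpose_mul, one_mul]
  obtain ⟨c, hc⟩ := scalar_of_commute_sm hX (M := G⁻¹ * G') (by
    intro x hx
    have h1 := key hG x hx
    have h2 := key hG' x hx
    have h3 : G⁻¹ * (((x⁻¹ : GL ι F) : Matrix ι ι F))ᵀ = sm (σ : F →+* F) (x : Matrix ι ι F) * G⁻¹ := by
      have h4 := congrArg (fun z => G⁻¹ * (z * G⁻¹)) h1
      simp only [mul_assoc] at h4
      rw [Matrix.nonsing_inv_mul_cancel_left _ _ hu, Matrix.mul_nonsing_inv _ hu, mul_one] at h4
      exact h4.symm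
    rw [mul_assoc, h2, ← mul_assoc, h3, mul_assoc])
  refine ⟨c, ?_⟩
  have h5 : G * (G⁻¹ * G') = G * (c • (1 : Matrix ι ι F)) := congrArg (fun z => G * z) hc
  rw [Matrix.mul_nonsing_inv_cancel_left _ _ hu, Matrix.mul_smul, mul_one] at h5
  exact h5

/-- Normalising elements are similarities. -/
theorem normalizer_sim [Nonempty ι] {σ : F ≃+* F} {X : Subgroup (GL ι F)} (hX : ActsAbsolutelyIrreducibly (matrixSet X))
    {G : Matrix ι ι F} (hG : Inv (σ : F →+* F) X G) (hdet : G.det ≠ 0) {g : GL ι F}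
    (hg : ∀ x ∈ X, g * x * g⁻¹ ∈ X) :
    ∃ c : Fˣ, (g : Matrix ι ι F)ᵀ * G * sm (σ : F →+* F) (g : Matrix ι ι F) = (c : F) • G := by
  have h1 : Inv (σ : F →+* F) X ((g : Matrix ι ι F)ᵀ * G * sm (σ : F →+* F) (g : Matrix ι ι F)) := by
    intro x hx
    have h2 := hG _ (hg x hx)
    have h3 : (g : Matrix ι ι F) * (x : Matrix ι ι F) = ((g * x * g⁻¹ : GL ι F) : Matrix ι ι F) * (g : Matrix ι ι F) := by
      rw [← Units.val_mul, ← Units.val_mul]; congr 1; group
    calc (x : Matrix ι ι F)ᵀ * ((g : Matrix ι ι F)ᵀ * G * sm (σ : F →+* F) (g : Matrix ι ι F)) * sm (σ : F →+* F) (x : Matrix ι ι F)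
        = ((g : Matrix ι ι F) * (x : Matrix ι ι F))ᵀ * G * sm (σ : F →+* F) ((g : Matrix ι ι F) * (x : Matrix ι ι F)) := by
          rw [Matrix.transpose_mul, sm_mul]; simp only [mul_assoc]
      _ = (g : Matrix ι ι F)ᵀ * ((((g * x * g⁻¹ : GL ι F) : Matrix ι ι F))ᵀ * G * sm (σ : F →+* F) ((g * x * g⁻¹ : GL ι F) : Matrix ι ι F)) * sm (σ : F →+* F) (g : Matrix ι ι F) := by
          rw [h3, Matrix.transpose_mul, sm_mul]; simp only [mul_assoc]
      _ = _ := by rw [h2]
  obtain ⟨c, hc⟩ := inv_unique hX hG h1 hdet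
  have hc0 : c ≠ 0 := by
    rintro rfl
    rw [zero_smul] at hc
    have h4 := congrArg Matrix.det hc
    rw [Matrix.det_mul, Matrix.det_mul, Matrix.det_transpose] at h4
    rw [Matrix.det_zero] at h4
    have hgdet : (g : Matrix ι ι F).det ≠ 0 := ((Matrix.isUnit_iff_isUnit_det _).1 g.isUnit).ne_zero
    have hsdet : (sm (σ : F →+* F) (g : Matrix ι ι F)).det ≠ 0 := by
      have : (sm (σ : F →+* F) (g : Matrix ι ι F)).det = (σ : F →+* F) (g : Matrix ι ι F).det := by
        rw [RingHom.map_det]; rfl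
      rw [this]
      simpa using hgdet
    exact mul_ne_zero (mul_ne_zero hgdet hdet) hsdet h4
  exact ⟨Units.mk0 c hc0, hc⟩

/-- Normalising elements are similarities of any invariant nondegenerate sesquilinear form. -/
theorem le_similarityGroup [Nonempty ι] {σ : F ≃+* F} {X H : Subgroup (GL ι F)} (hX : ActsAbsolutelyIrreducibly (matrixSet X))
    {f : (ι → F) → (ι → F) → F} (hf : IsSesq (σ : F →+* F) f) (hnd : IsNondegenerateForm f)
    (hfix : FixesForm (matrixSet X) f) (hn : ∀ g ∈ H, ∀ x ∈ X, g * x * g⁻¹ ∈ X) : H ≤ similarityGroup f := by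
  have hfe : f = formOfGram (σ : F →+* F) (gramMatrix f) := by
    funext u v; exact hf.eq_formOfGram u v
  rw [hfe] at hnd hfix ⊢
  intro g hg
  obtain ⟨c, hc⟩ := normalizer_sim hX (inv_iff.2 hfix) (isNondegenerateForm_iff.1 hnd) (hn g hg)
  exact ⟨c, (isSim_iff _ _ _ _).2 hc⟩

/-- An invariant bilinear form is symmetric or skew. -/
theorem symm_or_skew {X : Subgroup (GL ι F)} (hX : ActsAbsolutelyIrreducibly (matrixSet X)) [Nonempty ι]
    {G : Matrix ι ι F} (hG : Inv (RingHom.id F) X G) (hdet : G.det ≠ 0) : Gᵀ = G ∨ Gᵀ = -G := by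
  have hG0 : G ≠ 0 := by
    rintro rfl
    exact hdet Matrix.det_zero
  have hid : ((RingEquiv.refl F : F ≃+* F) : F →+* F) = RingHom.id F := rfl
  have hsm : ∀ x : Matrix ι ι F, sm (RingHom.id F) x = x := fun x => by ext; rfl
  have h1 : Inv (RingHom.id F) X Gᵀ := by
    intro x hx
    have h2 := congrArg Matrix.transpose (hG x hx)
    rw [hsm] at h2 ⊢
    rw [Matrix.transpose_mul, Matrix.transpose_mul, Matrix.transpose_transpose, ← mul_assoc] at h2
    exact h2
  obtain ⟨c, hc⟩ := inv_unique (σ := RingEquiv.refl F) hX hG h1 hdet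
  have hc2 : c * c = 1 := by
    have h3 : G = (c * c) • G := by
      conv_lhs => rw [← Matrix.transpose_transpose G, hc, Matrix.transpose_smul, hc, smul_smul]
    by_contra hne
    have h4 : ((c * c) - 1) • G = 0 := by
      rw [sub_smul, one_smul, ← h3, sub_self]
    rcases smul_eq_zero.1 h4 with h5 | h5
    · exact hne (sub_eq_zero.1 h5)
    · exact hG0 h5
  rcases mul_self_eq_one_iff.1 hc2 with h | h
  · left; rw [hc, h, one_smul]
  · right; rw [hc, h, neg_smul, one_smul]

end Cfsg.Agent.Lib.AschForm
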