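import Cfsg.Agent.Lib.AschAdj5
import Cfsg.Agent.Lib.AschForm
set_option autoImplicit false
set_option linter.style.haveILetI false
set_option linter.unusedVariables false
set_option linter.unusedSectionVars false

/-!
Aschbacher's theorem relative to a hermitian form: subfield classes.
-/

namespace Cfsg.Agent.Lib.AschAdj

open Cfsg Cfsg.Geo Cfsg.Agent.Lib.AschMU Cfsg.Agent.Lib.AschCore Cfsg.Agent.Lib.AschField Cfsg.Agent.Lib.AschAlg
  Cfsg.Agent.Lib.AschGroup Cfsg.Agent.Lib.AschGood Cfsg.Agent.Lib.AschNonab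
open scoped Matrix MatrixGroups Kronecker

variable {ι : Type} [Fintype ι] [DecidableEq ι] {F : Type*} [Field F]
variable {σ : F ≃+* F} {ε : F} {G : Matrix ι ι F}

lemma iso_gram (h : RF σ ε G) {g : GL ι F} (hg : IsIso σ G g) :
    (g : Matrix ι ι F)ᵀ * G * (g : Matrix ι ι F).map σ = G := by
  have h1 : (adj σ G (g : Matrix ι ι F)).map σ = ((g⁻¹ : GL ι F) : Matrix ι ι F).map σ := by rw [adj_gl h hg]
  unfold adj at h1
  rw [h.map_map] at h1
  calc (g : Matrix ι ι F)ᵀ * G * (g : Matrix ι ι F).map σ = G * (G⁻¹ * (g : Matrix ι ι F)ᵀ * G) * (g : Matrix ι ι F).map σ := by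
        rw [← mul_assoc, ← mul_assoc, h.mul_inv, one_mul]
    _ = G * ((((g⁻¹ : GL ι F) : Matrix ι ι F)) * (g : Matrix ι ι F)).map σ := by rw [h1, mul_assoc, ← map_mul']
    _ = G := by rw [gl_inv_mul, map_one', mul_one]

lemma iso_of_gram (h : RF σ ε G) {g : GL ι F} (hg : (g : Matrix ι ι F)ᵀ * G * (g : Matrix ι ι F).map σ = G) : IsIso σ G g := by
  unfold IsIso adj
  have h1 : (g : Matrix ι ι F)ᵀ * G = G * ((g⁻¹ : GL ι F) : Matrix ι ι F).map σ := by
    calc (g : Matrix ι ι F)ᵀ * G = (g : Matrix ι ι F)ᵀ * G * ((g : Matrix ι ι F) * ((g⁻¹ : GL ι F) : Matrix ι ι F)).map σ := by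
          rw [gl_mul_inv, map_one', mul_one]
      _ = G * ((g⁻¹ : GL ι F) : Matrix ι ι F).map σ := by rw [map_mul', ← mul_assoc, hg]
  rw [mul_assoc, h1, ← mul_assoc, h.inv_mul, one_mul, h.map_map]

lemma cancelT (s : GL ι F) {X Y : Matrix ι ι F} (h : (s : Matrix ι ι F)ᵀ * X = (s : Matrix ι ι F)ᵀ * Y) : X = Y := by
  have key : ∀ Z : Matrix ι ι F, (((s⁻¹ : GL ι F) : Matrix ι ι F))ᵀ * ((s : Matrix ι ι F)ᵀ * Z) = Z := by
    intro Z
    rw [← mul_assoc, ← Matrix.transpose_mul, gl_mul_inv, Matrix.transpose_one, one_mul]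
  rw [← key X, h, key]

/-- Uniqueness of invariant Gram matrices. -/
lemma uniq (σ : F ≃+* F) {L : Subgroup (GL ι F)} (hL : ActsAbsolutelyIrreducibly (matrixSet L)) {X Y : Matrix ι ι F}
    (hX : ∀ s ∈ L, (s : Matrix ι ι F)ᵀ * X * (s : Matrix ι ι F).map σ = X)
    (hY : ∀ s ∈ L, (s : Matrix ι ι F)ᵀ * Y * (s : Matrix ι ι F).map σ = Y) (hu : IsUnit X) : ∃ c : F, Y = c • X :=
  AschForm.inv_unique (σ := σ) hL hX hY (isUnit_iff_ne_zero.1 ((Matrix.isUnit_iff_isUnit_det _).1 hu))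

lemma uniq' {L : Subgroup (GL ι F)} (hL : ActsAbsolutelyIrreducibly (matrixSet L)) {X Y : Matrix ι ι F}
    (hX : ∀ s ∈ L, (s : Matrix ι ι F)ᵀ * X * (s : Matrix ι ι F) = X)
    (hY : ∀ s ∈ L, (s : Matrix ι ι F)ᵀ * Y * (s : Matrix ι ι F) = Y) (hu : IsUnit X) : ∃ c : F, Y = c • X :=
  uniq (RingEquiv.refl F) hL hX hY hu

/-- conjugate of an invariant Gram matrix by a normalising element -/
lemma conj_invariant {L H : Subgroup (GL ι F)} (hn : NormBy H L) {B : Matrix ι ι F}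
    (hfix : ∀ s ∈ L, (s : Matrix ι ι F)ᵀ * B * (s : Matrix ι ι F) = B) {g : GL ι F} (hg : g ∈ H) :
    ∀ s ∈ L, (s : Matrix ι ι F)ᵀ * ((g : Matrix ι ι F)ᵀ * B * (g : Matrix ι ι F)) * (s : Matrix ι ι F) = (g : Matrix ι ι F)ᵀ * B * (g : Matrix ι ι F) := by
  intro s hs
  have h1 := hfix _ (hn g hg s hs)
  have h2 : (g : Matrix ι ι F) * (s : Matrix ι ι F) = ((g * s * g⁻¹ : GL ι F) : Matrix ι ι F) * (g : Matrix ι ι F) := by
    rw [← Units.val_mul, ← Units.val_mul]; congr 1; group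
  calc (s : Matrix ι ι F)ᵀ * ((g : Matrix ι ι F)ᵀ * B * (g : Matrix ι ι F)) * (s : Matrix ι ι F)
      = ((g : Matrix ι ι F) * (s : Matrix ι ι F))ᵀ * B * ((g : Matrix ι ι F) * (s : Matrix ι ι F)) := by
        rw [Matrix.transpose_mul]; simp only [mul_assoc]
    _ = (g : Matrix ι ι F)ᵀ * ((((g * s * g⁻¹ : GL ι F) : Matrix ι ι F))ᵀ * B * ((g * s * g⁻¹ : GL ι F) : Matrix ι ι F)) * (g : Matrix ι ι F) := by
        rw [h2, Matrix.transpose_mul]; simp only [mul_assoc]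
    _ = _ := by rw [h1]

/-- An invariant bilinear form of an absolutely irreducible group: symmetric (odd characteristic) or alternating. -/
lemma symm_or_alt [Finite F] {L : Subgroup (GL ι F)} (h2 : 2 ≤ Fintype.card ι) (hL : ActsAbsolutelyIrreducibly (matrixSet L)) {B : Matrix ι ι F}
    (hfix : ∀ s ∈ L, (s : Matrix ι ι F)ᵀ * B * (s : Matrix ι ι F) = B) (hu : IsUnit B) :
    ((2 : F) ≠ 0 ∧ Bᵀ = B) ∨ (Bᵀ = -B ∧ ∀ v : ι → F, v ⬝ᵥ (B *ᵥ v) = 0) := by
  classical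
  haveI : Nonempty ι := Fintype.card_pos_iff.1 (by omega)
  have hfixT : ∀ s ∈ L, (s : Matrix ι ι F)ᵀ * Bᵀ * (s : Matrix ι ι F) = Bᵀ := by
    intro s hs
    have := congrArg Matrix.transpose (hfix s hs)
    rwa [Matrix.transpose_mul, Matrix.transpose_mul, Matrix.transpose_transpose, ← mul_assoc] at this
  obtain ⟨c, hc⟩ := uniq' hL hfix hfixT hu
  have hcc : c * c = 1 := by
    have h1 := congrArg Matrix.transpose hc
    rw [Matrix.transpose_transpose, Matrix.transpose_smul, hc, smul_smul] at h1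
    have h3 : (c * c - 1) • B = 0 := by rw [sub_smul, one_smul, ← h1, sub_self]
    rcases smul_eq_zero.1 h3 with h4 | h4
    · exact sub_eq_zero.1 h4
    · exact absurd h4 hu.ne_zero
  have hskew : ∀ v w : ι → F, Bᵀ = -B → v ⬝ᵥ (B *ᵥ w) = - (w ⬝ᵥ (B *ᵥ v)) := by
    intro v w hB
    rw [Matrix.dotProduct_mulVec w B v, ← Matrix.mulVec_transpose, hB, Matrix.neg_mulVec, neg_dotProduct, neg_neg, dotProduct_comm]
  by_cases h20 : (2 : F) = 0
  · right
    have hc1 : c = -1 := by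
      have h3 : (c + 1) * (c + 1) = 0 := by linear_combination hcc + (c + 1) * h20
      have h4 := mul_self_eq_zero.1 h3
      exact eq_neg_of_add_eq_zero_left h4
    have hBn : Bᵀ = -B := by rw [hc, hc1, neg_smul, one_smul]
    refine ⟨hBn, ?_⟩
    -- the subspace of isotropic vectors
    have hadd : ∀ u v : ι → F, (u + v) ⬝ᵥ (B *ᵥ (u + v)) = u ⬝ᵥ (B *ᵥ u) + v ⬝ᵥ (B *ᵥ v) := by
      intro u v
      rw [Matrix.mulVec_add, add_dotProduct, dotProduct_add, dotProduct_add, hskew v u hBn]; ring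
    have hsm : ∀ (a : F) (u : ι → F), (a • u) ⬝ᵥ (B *ᵥ (a • u)) = a ^ 2 * (u ⬝ᵥ (B *ᵥ u)) := by
      intro a u
      rw [Matrix.mulVec_smul, smul_dotProduct, dotProduct_smul, smul_eq_mul, smul_eq_mul]; ring
    let W : Submodule F (ι → F) :=
      { carrier := {v | v ⬝ᵥ (B *ᵥ v) = 0}
        add_mem' := fun {a b} ha hb => by
          show (a + b) ⬝ᵥ (B *ᵥ (a + b)) = 0
          rw [hadd, show a ⬝ᵥ (B *ᵥ a) = 0 from ha, show b ⬝ᵥ (B *ᵥ b) = 0 from hb, add_zero]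
        zero_mem' := by show (0 : ι → F) ⬝ᵥ (B *ᵥ 0) = 0; rw [zero_dotProduct]
        smul_mem' := fun a v hv => by
          show (a • v) ⬝ᵥ (B *ᵥ (a • v)) = 0
          rw [hsm, show v ⬝ᵥ (B *ᵥ v) = 0 from hv, mul_zero] }
    rcases irr_cases hL.1 W (by
      intro s hs w hw
      show ((s : Matrix ι ι F) *ᵥ w) ⬝ᵥ (B *ᵥ ((s : Matrix ι ι F) *ᵥ w)) = 0
      have h3 : ((s : Matrix ι ι F) *ᵥ w) ⬝ᵥ (B *ᵥ ((s : Matrix ι ι F) *ᵥ w)) = w ⬝ᵥ (((s : Matrix ι ι F)ᵀ * B * (s : Matrix ι ι F)) *ᵥ w) := by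
        rw [Matrix.mulVec_mulVec, ← Matrix.vecMul_transpose, ← Matrix.dotProduct_mulVec, Matrix.mulVec_mulVec, mul_assoc]
      rw [h3, hfix s hs]; exact hw) with h3 | h3
    · exfalso
      -- one-dimensional
      have hval : ∀ v : ι → F, v ≠ 0 → v ⬝ᵥ (B *ᵥ v) ≠ 0 := by
        intro v hv h4
        apply hv
        have : v ∈ W := h4
        rwa [h3, Submodule.mem_bot] at this
      obtain ⟨i, j, hij⟩ : ∃ i j : ι, i ≠ j := by
        rw [← Fintype.one_lt_card_iff]; omega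
      have hi : (Pi.single i 1 : ι → F) ≠ 0 := by
        intro h4; have := congrFun h4 i; simp at this
      have hchar : ringChar F = 2 := by
        haveI : CharP F 2 := CharTwo.of_one_ne_zero_of_two_eq_zero one_ne_zero h20
        exact ringChar.eq F 2 ▸ rfl
      haveI := Fintype.ofFinite F
      set x : ι → F := Pi.single j 1
      set w : ι → F := Pi.single i 1
      obtain ⟨a, ha⟩ := FiniteField.isSquare_of_char_two hchar ((x ⬝ᵥ (B *ᵥ x)) / (w ⬝ᵥ (B *ᵥ w)))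
      have h5 : x + a • w ∈ W := by
        show (x + a • w) ⬝ᵥ (B *ᵥ (x + a • w)) = 0
        rw [hadd, hsm, pow_two, ← ha, div_mul_cancel₀ _ (hval _ hi), ← two_mul, h20, zero_mul]
      rw [h3, Submodule.mem_bot] at h5
      have h6 := congrFun h5 j
      simp [x, w, Pi.single_eq_of_ne hij.symm] at h6
    · intro v
      have : v ∈ W := by rw [h3]; trivial
      exact this
  · have : (c - 1) * (c + 1) = 0 := by linear_combination hcc
    rcases mul_eq_zero.1 this with h3 | h3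
    · left
      have hc1 : c = 1 := sub_eq_zero.1 h3
      exact ⟨h20, by rw [hc, hc1, one_smul]⟩
    · right
      have hc1 : c = -1 := eq_neg_of_add_eq_zero_left h3
      have hBn : Bᵀ = -B := by rw [hc, hc1, neg_smul, one_smul]
      refine ⟨hBn, fun v => ?_⟩
      have h4 := hskew v v hBn
      have h5 : (2 : F) * (v ⬝ᵥ (B *ᵥ v)) = 0 := by linear_combination h4
      exact (mul_eq_zero.1 h5).resolve_left h20

/-- The conclusion of the index two subfield case. -/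
def Rat2 (σ : F ≃+* F) (G : Matrix ι ι F) (H : Subgroup (GL ι F)) : Prop :=
  ∃ P : GL ι F, H ≤ subfieldSubgroup (fx σ) P ∧
    (((2 : F) ≠ 0 ∧ ∀ i j, σ (gr σ G P i j) = gr σ G P i j) ∨
     ((∀ i j, σ (gr σ G P i j) = - gr σ G P i j) ∧ (gr σ G P)ᵀ = - gr σ G P ∧ ∀ i, gr σ G P i i = 0))

lemma rat2_of_descent [Finite F] [Nonempty ι] (h : RF σ 1 G) (hne : σ ≠ RingEquiv.refl F) {B : Matrix ι ι F} (hB : IsUnit B)
    {H : Subgroup (GL ι F)} (hI : ∀ g ∈ H, IsIso σ G g)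
    (hBH : ∀ g ∈ H, ∃ b : F, (g : Matrix ι ι F)ᵀ * B * (g : Matrix ι ι F) = b • B)
    {l : F} (hl : (G⁻¹ * B).map σ * (G⁻¹ * B) = l • 1)
    (hs : ((2 : F) ≠ 0 ∧ Bᵀ = B) ∨ (Bᵀ = -B ∧ ∀ v : ι → F, v ⬝ᵥ (B *ᵥ v) = 0)) : Rat2 σ G H := by
  obtain ⟨P, m, hm, hP, hgr⟩ := descent_of_bilinear h hne hB hI hBH hl
  refine ⟨P, hP, ?_⟩
  have hherm := (h.gr P).refl
  rw [one_smul] at hherm
  have hT : (gr σ G P)ᵀ = m • ((P : Matrix ι ι F)ᵀ * Bᵀ * (P : Matrix ι ι F)) := by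
    rw [hgr, Matrix.transpose_smul, Matrix.transpose_mul, Matrix.transpose_mul, Matrix.transpose_transpose, mul_assoc]
  rcases hs with ⟨h2, hs⟩ | ⟨hs, halt⟩
  · left
    refine ⟨h2, fun i j => ?_⟩
    rw [hs, ← hgr] at hT
    rw [hT] at hherm
    exact congrFun (congrFun hherm i) j
  · right
    have hT' : (gr σ G P)ᵀ = - gr σ G P := by
      rw [hT, hs, hgr]
      simp
    refine ⟨fun i j => ?_, hT', fun i => ?_⟩
    · rw [hT'] at hherm
      have := congrFun (congrFun hherm i) j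
      rw [Matrix.map_apply, Matrix.neg_apply, map_neg] at this
      linear_combination -this
    · rw [hgr, Matrix.smul_apply]
      have h3 : ((P : Matrix ι ι F)ᵀ * B * (P : Matrix ι ι F)) i i =
          (fun k => (P : Matrix ι ι F) k i) ⬝ᵥ (B *ᵥ (fun k => (P : Matrix ι ι F) k i)) := by
        rw [mul_assoc, Matrix.mul_apply]
        simp only [dotProduct, Matrix.transpose_apply]
        rfl
      rw [h3, halt, smul_zero]

/-- Invariant bilinear form together with the hermitian form: index two subfield. -/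
theorem rat2_of_invariant [Finite F] (h : RF σ 1 G) (hne : σ ≠ RingEquiv.refl F) (h2 : 2 ≤ Fintype.card ι)
    {L H : Subgroup (GL ι F)} (hL : ActsAbsolutelyIrreducibly (matrixSet L)) (hLI : ∀ g ∈ L, IsIso σ G g)
    (hI : ∀ g ∈ H, IsIso σ G g) (hn : NormBy H L) {B : Matrix ι ι F} (hB : IsUnit B)
    (hfix : ∀ s ∈ L, (s : Matrix ι ι F)ᵀ * B * (s : Matrix ι ι F) = B) : Rat2 σ G H := by
  haveI : Nonempty ι := Fintype.card_pos_iff.1 (by omega)
  -- σ(s) M = M s for s ∈ L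
  have hM : ∀ s ∈ L, (s : Matrix ι ι F).map σ * (G⁻¹ * B) = (G⁻¹ * B) * (s : Matrix ι ι F) := by
    intro s hs
    have h1 := iso_gram h (hLI s hs)
    have h3 := hfix s hs
    -- sᵀ (G σ(s) M) = G M = B = sᵀ B s
    have h4 : (s : Matrix ι ι F)ᵀ * (G * ((s : Matrix ι ι F).map σ * (G⁻¹ * B))) = (s : Matrix ι ι F)ᵀ * (B * (s : Matrix ι ι F)) := by
      calc (s : Matrix ι ι F)ᵀ * (G * ((s : Matrix ι ι F).map σ * (G⁻¹ * B))) = ((s : Matrix ι ι F)ᵀ * G * (s : Matrix ι ι F).map σ) * (G⁻¹ * B) := by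
            simp only [mul_assoc]
        _ = B := by rw [h1, ← mul_assoc, h.mul_inv, one_mul]
        _ = _ := by rw [← mul_assoc, h3]
    have h5 : G * ((s : Matrix ι ι F).map σ * (G⁻¹ * B)) = B * (s : Matrix ι ι F) := cancelT s h4
    calc (s : Matrix ι ι F).map σ * (G⁻¹ * B) = G⁻¹ * (G * ((s : Matrix ι ι F).map σ * (G⁻¹ * B))) := by
          rw [← mul_assoc G⁻¹ G, h.inv_mul, one_mul]
      _ = _ := by rw [h5, mul_assoc]
  obtain ⟨l, hl⟩ := hL.2 ((G⁻¹ * B).map σ * (G⁻¹ * B)) (by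
    rintro _ ⟨s, hs, rfl⟩
    show (G⁻¹ * B).map σ * (G⁻¹ * B) * (s : Matrix ι ι F) = (s : Matrix ι ι F) * ((G⁻¹ * B).map σ * (G⁻¹ * B))
    have h4 := hM s hs
    have h5 : (s : Matrix ι ι F) * (G⁻¹ * B).map σ = (G⁻¹ * B).map σ * (s : Matrix ι ι F).map σ := by
      have := congrArg (fun N : Matrix ι ι F => N.map σ) h4
      simp only [map_mul', h.map_map] at this
      rw [map_mul', mul_assoc]
      rw [mul_assoc] at this
      exact this
    rw [mul_assoc, ← h4, ← mul_assoc, ← h5, mul_assoc])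
  exact rat2_of_descent h hne hB hI (fun g hg => uniq' hL hfix (conj_invariant hn hfix hg) hB) hl (symm_or_alt h2 hL hfix hB)

end Cfsg.Agent.Lib.AschAdj
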