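import Cfsg.Agent.Lib.AschAdj6
set_option autoImplicit false
set_option linter.style.haveILetI false
set_option linter.unusedVariables false
set_option linter.unusedSectionVars false

/-!
Aschbacher's theorem relative to a hermitian form: subfield classes, realisable case.
-/

namespace Cfsg.Agent.Lib.AschAdj

open Cfsg Cfsg.Geo Cfsg.Agent.Lib.AschMU Cfsg.Agent.Lib.AschCore Cfsg.Agent.Lib.AschField Cfsg.Agent.Lib.AschAlg
  Cfsg.Agent.Lib.AschGroup Cfsg.Agent.Lib.AschGood Cfsg.Agent.Lib.AschNonab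
open scoped Matrix MatrixGroups Kronecker

variable {ι : Type} [Fintype ι] [DecidableEq ι] {F : Type*} [Field F]
variable {σ : F ≃+* F} {ε : F} {G : Matrix ι ι F}

/-- Elements of a subfield of a finite field. -/
lemma mem_subfield_iff [Finite F] (F₁ : Subfield F) (x : F) : x ∈ F₁ ↔ x ^ Nat.card F₁ = x := by
  classical
  haveI := Fintype.ofFinite F
  haveI : Finite F₁ := inferInstance
  haveI := Fintype.ofFinite F₁
  set k := Nat.card F₁ with hk
  have hk1 : 1 < k := Finite.one_lt_card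
  have h1 : ∀ y : F, y ∈ F₁ → y ^ k = y := by
    intro y hy
    have h2 : (⟨y, hy⟩ : F₁) ^ Fintype.card F₁ = ⟨y, hy⟩ := FiniteField.pow_card _
    rw [← Nat.card_eq_fintype_card, ← hk] at h2
    exact congrArg Subtype.val h2
  constructor
  · exact h1 x
  · intro hx
    by_contra hxn
    let p : Polynomial F := Polynomial.X ^ k - Polynomial.X
    have hp0 : p ≠ 0 := by
      intro h0
      have : p.natDegree = k := by
        rw [show p = Polynomial.X ^ k - Polynomial.X from rfl]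
        rw [Polynomial.natDegree_sub_eq_left_of_natDegree_lt]
        · exact Polynomial.natDegree_X_pow k
        · rw [Polynomial.natDegree_X, Polynomial.natDegree_X_pow]; exact hk1
      rw [h0, Polynomial.natDegree_zero] at this
      omega
    have hdeg : p.natDegree = k := by
      rw [show p = Polynomial.X ^ k - Polynomial.X from rfl]
      rw [Polynomial.natDegree_sub_eq_left_of_natDegree_lt]
      · exact Polynomial.natDegree_X_pow k
      · rw [Polynomial.natDegree_X, Polynomial.natDegree_X_pow]; exact hk1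
    let S : Finset F := insert x (Finset.univ.image (fun y : F₁ => (y : F)))
    have hS : S.card = k + 1 := by
      rw [Finset.card_insert_of_notMem]
      · rw [Finset.card_image_of_injective _ Subtype.val_injective, Finset.card_univ, hk, Nat.card_eq_fintype_card]
      · rw [Finset.mem_image]
        rintro ⟨y, _, hy⟩
        exact hxn (hy ▸ y.2)
    have hsub : S.val ≤ p.roots := by
      rw [Multiset.le_iff_subset S.nodup]
      intro y hy
      rw [Polynomial.mem_roots hp0]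
      have hy' : y ^ k = y := by
        rcases Finset.mem_insert.1 hy with rfl | hy
        · exact hx
        · obtain ⟨z, _, rfl⟩ := Finset.mem_image.1 hy
          exact h1 _ z.2
      simp [p, hy']
    have h3 := Multiset.card_le_card hsub
    have h4 := Polynomial.card_roots' p
    have h5 : Multiset.card S.val = k + 1 := hS
    omega

lemma subfield_stable [Finite F] (F₁ : Subfield F) (τ : F ≃+* F) {x : F} (hx : x ∈ F₁) : τ x ∈ F₁ := by
  rw [mem_subfield_iff] at hx ⊢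
  rw [← map_pow, hx]

lemma subfield_eq_of_card [Finite F] {F₁ F₂ : Subfield F} (h : Nat.card F₁ = Nat.card F₂) : F₁ = F₂ := by
  ext x
  rw [mem_subfield_iff, mem_subfield_iff, h]

lemma subfieldSubgroup_smul {F₀ : Subfield F} {P Q : GL ι F} {c : F} (hc : c ≠ 0) (hQ : (Q : Matrix ι ι F) = c • (P : Matrix ι ι F)) :
    subfieldSubgroup F₀ P ≤ subfieldSubgroup F₀ Q := by
  intro g hg
  rw [AschDescent.mem_subfieldSubgroup] at hg ⊢
  obtain ⟨d, a, hda⟩ := hg
  refine ⟨d, a, ?_⟩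
  rw [hda]
  have hQi : ((Q⁻¹ : GL ι F) : Matrix ι ι F) = c⁻¹ • ((P⁻¹ : GL ι F) : Matrix ι ι F) := by
    have h1 : (Q : Matrix ι ι F) * (c⁻¹ • ((P⁻¹ : GL ι F) : Matrix ι ι F)) = 1 := by
      rw [hQ, Matrix.smul_mul, Matrix.mul_smul, gl_mul_inv, smul_smul, mul_inv_cancel₀ hc, one_smul]
    calc ((Q⁻¹ : GL ι F) : Matrix ι ι F) = ((Q⁻¹ : GL ι F) : Matrix ι ι F) * ((Q : Matrix ι ι F) * (c⁻¹ • ((P⁻¹ : GL ι F) : Matrix ι ι F))) := by rw [h1, mul_one]
      _ = _ := by rw [← mul_assoc, gl_inv_mul, one_mul]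
  have h2 : ∀ A : Matrix ι ι F, (Q : Matrix ι ι F) * A * ((Q⁻¹ : GL ι F) : Matrix ι ι F) = (P : Matrix ι ι F) * A * ((P⁻¹ : GL ι F) : Matrix ι ι F) := by
    intro A
    rw [hQ, hQi, Matrix.smul_mul, Matrix.smul_mul, Matrix.mul_smul, smul_smul, mul_inv_cancel₀ hc, one_smul]
  rw [h2]

/-- The transported invariance. -/
lemma gr_invariant (h : RF σ ε G) {s : GL ι F} (hs : IsIso σ G s) (P : GL ι F) :
    (((P⁻¹ : GL ι F) : Matrix ι ι F) * (s : Matrix ι ι F) * (P : Matrix ι ι F))ᵀ * gr σ G P *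
      (((P⁻¹ : GL ι F) : Matrix ι ι F) * (s : Matrix ι ι F) * (P : Matrix ι ι F)).map σ = gr σ G P := by
  have h1 := iso_gram (h.gr P) (g := P⁻¹ * s * P) (by
    rw [isIso_iff (h.gr P)]
    intro u v
    rw [← bf_gr, ← bf_gr]
    have h2 : ∀ w : ι → F, (P : Matrix ι ι F) *ᵥ (((P⁻¹ * s * P : GL ι F) : Matrix ι ι F) *ᵥ w) = (s : Matrix ι ι F) *ᵥ ((P : Matrix ι ι F) *ᵥ w) := by
      intro w
      rw [Matrix.mulVec_mulVec, Matrix.mulVec_mulVec, ← Units.val_mul, ← Units.val_mul]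
      congr 2; group
    rw [h2, h2]
    exact (isIso_iff h s).1 hs _ _)
  simpa only [Units.val_mul] using h1

/-- Realisable over the fixed field. -/
theorem rat2_of_realisable [Finite F] (h : RF σ 1 G) (hne : σ ≠ RingEquiv.refl F) (h2 : 2 ≤ Fintype.card ι)
    {L H : Subgroup (GL ι F)} (hL : ActsAbsolutelyIrreducibly (matrixSet L)) (hLI : ∀ g ∈ L, IsIso σ G g)
    (hI : ∀ g ∈ H, IsIso σ G g) (hn : NormBy H L) {F₁ : Subfield F} (hcard : Nat.card F = Nat.card F₁ ^ 2)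
    (hreal : RealisableOver F₁ (matrixSet L)) : Rat2 σ G H := by
  have hF₁ : F₁ = fx σ := by
    apply subfield_eq_of_card
    have := card_fx h.inv hne
    rw [hcard] at this
    exact Nat.pow_left_injective (n := 2) (by norm_num) this
  subst hF₁
  obtain ⟨B, hB⟩ := hreal
  set P : GL ι F := B⁻¹ with hP
  have hPi : ((P⁻¹ : GL ι F) : Matrix ι ι F) = (B : Matrix ι ι F) := by rw [hP, inv_inv]
  set C : Matrix ι ι F := (((P⁻¹ : GL ι F) : Matrix ι ι F))ᵀ * gr σ G P * ((P⁻¹ : GL ι F) : Matrix ι ι F) with hC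
  have hCu : IsUnit C := by
    rw [hC]
    exact (((Matrix.isUnit_transpose _).2 (P⁻¹).isUnit).mul (h.gr P).unit).mul (P⁻¹).isUnit
  refine rat2_of_invariant h hne h2 hL hLI hI hn hCu (fun s hs => ?_)
  have h3 := gr_invariant h (hLI s hs) P
  have h4 : (((P⁻¹ : GL ι F) : Matrix ι ι F) * (s : Matrix ι ι F) * (P : Matrix ι ι F)).map σ =
      (((P⁻¹ : GL ι F) : Matrix ι ι F) * (s : Matrix ι ι F) * (P : Matrix ι ι F)) := by
    ext i j
    have := hB _ ⟨s, hs, rfl⟩ i j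
    rw [hPi]
    exact this
  rw [h4, Matrix.transpose_mul, Matrix.transpose_mul] at h3
  have h5 : ∀ X : Matrix ι ι F, (((P⁻¹ : GL ι F) : Matrix ι ι F))ᵀ * ((P : Matrix ι ι F)ᵀ * X) = X := by
    intro X
    rw [← mul_assoc, ← Matrix.transpose_mul, gl_mul_inv, Matrix.transpose_one, one_mul]
  calc (s : Matrix ι ι F)ᵀ * C * (s : Matrix ι ι F)
      = (((P⁻¹ : GL ι F) : Matrix ι ι F))ᵀ * (((P : Matrix ι ι F)ᵀ * ((s : Matrix ι ι F)ᵀ * (((P⁻¹ : GL ι F) : Matrix ι ι F))ᵀ)) * gr σ G P *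
          (((P⁻¹ : GL ι F) : Matrix ι ι F) * (s : Matrix ι ι F) * (P : Matrix ι ι F))) * ((P⁻¹ : GL ι F) : Matrix ι ι F) := by
        rw [hC]
        simp only [mul_assoc, gl_mul_inv, mul_one]
        rw [h5]
    _ = C := by rw [h3, hC]

/-- Realisable over a subfield of odd prime index. -/
theorem ratodd_of_realisable [Finite F] (h : RF σ 1 G) (hne : σ ≠ RingEquiv.refl F) (h1 : 1 ≤ Fintype.card ι)
    {L H : Subgroup (GL ι F)} (hL : ActsAbsolutelyIrreducibly (matrixSet L)) (hLI : ∀ g ∈ L, IsIso σ G g)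
    (hn : NormBy H L) {F₁ : Subfield F} {r : ℕ} (hr : Odd r) (hcard : Nat.card F = Nat.card F₁ ^ r)
    (hreal : RealisableOver F₁ (matrixSet L)) : ∃ P : GL ι F, H ≤ subfieldSubgroup F₁ P ∧ ∀ i j, gr σ G P i j ∈ F₁ := by
  classical
  haveI : Nonempty ι := Fintype.card_pos_iff.1 (by omega)
  haveI : Finite F₁ := inferInstance
  haveI : Finite (fx σ) := inferInstance
  haveI := Fintype.ofFinite F
  haveI := Fintype.ofFinite F₁
  haveI := Fintype.ofFinite (fx σ)
  -- an element of F₁ moved by σ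
  obtain ⟨c, hc, hcσ⟩ : ∃ c ∈ F₁, σ c ≠ c := by
    by_contra hcon
    push Not at hcon
    have hle : F₁ ≤ fx σ := fun x hx => hcon x hx
    letI : Algebra F₁ (fx σ) := (Subfield.inclusion hle).toAlgebra
    have h3 := Module.card_eq_pow_finrank (K := F₁) (V := fx σ)
    rw [← Nat.card_eq_fintype_card, ← Nat.card_eq_fintype_card] at h3
    have h4 := card_fx h.inv hne
    rw [h3, hcard, ← pow_mul] at h4
    have h5 := Nat.pow_right_injective (Finite.one_lt_card (α := F₁)) h4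
    rw [h5] at hr
    have : Even (Module.finrank F₁ (fx σ) * 2) := ⟨Module.finrank F₁ (fx σ), by ring⟩
    exact (Nat.not_even_iff_odd.2 hr) this
  obtain ⟨B, hB⟩ := hreal
  set P : GL ι F := B⁻¹ with hP
  have hPi : ((P⁻¹ : GL ι F) : Matrix ι ι F) = (B : Matrix ι ι F) := by rw [hP, inv_inv]
  have hHP : H ≤ subfieldSubgroup F₁ P := AschDescent.le_subfieldSubgroup hL hn hB
  set Γ := gr σ G P with hΓ
  have hΓF := h.gr P
  rw [← hΓ] at hΓF
  -- a vector over F₁ of non-zero norm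
  obtain ⟨u, huF, hu⟩ : ∃ u : ι → F, (∀ i, u i ∈ F₁) ∧ bf σ Γ u u ≠ 0 := by
    by_contra hcon
    push Not at hcon
    have h3 : ∀ u v : ι → F, (∀ i, u i ∈ F₁) → (∀ i, v i ∈ F₁) → bf σ Γ u v = 0 := by
      intro u v hu hv
      have e1 := hcon (u + v) (fun i => add_mem (hu i) (hv i))
      have e2 := hcon (u + c • v) (fun i => add_mem (hu i) (mul_mem hc (hv i)))
      rw [bf_add_left, bf_add_right, bf_add_right, hcon u hu, hcon v hv, zero_add, add_zero] at e1
      rw [bf_add_left, bf_add_right, bf_add_right, bf_smul_left, bf_smul_left, bf_smul_right, bf_smul_right, hcon u hu, hcon v hv] at e2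
      have e3 : (σ c - c) * bf σ Γ u v = 0 := by linear_combination e2 - c * e1
      exact (mul_eq_zero.1 e3).resolve_left (sub_ne_zero.2 hcσ)
    have h4 : ∀ i j, Γ i j = 0 := by
      intro i j
      have h5 := h3 (Pi.single i 1) (Pi.single j 1) (fun k => by
        by_cases hk : k = i
        · subst hk; rw [Pi.single_eq_same]; exact one_mem _
        · rw [Pi.single_eq_of_ne hk]; exact zero_mem _) (fun k => by
        by_cases hk : k = j
        · subst hk; rw [Pi.single_eq_same]; exact one_mem _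
        · rw [Pi.single_eq_of_ne hk]; exact zero_mem _)
      have h6 := congrFun (congrFun (Cfsg.Agent.Lib.AschForms.gram_of_gram (σ : F →+* F) Γ) i) j
      rw [← h6]; exact h5
    have h5 : Γ = 0 := by ext i j; exact h4 i j
    exact hΓF.unit.ne_zero h5
  set κ := bf σ Γ u u with hκ
  have hκσ : σ κ = κ := by
    have := bf_refl hΓF u u
    rw [one_mul] at this; exact this
  obtain ⟨m, hm0, hm⟩ := norm_surj' h.inv hne hκσ hu
  -- the Frobenius of F over F₁
  obtain ⟨p, hchar⟩ := CharP.exists F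
  haveI hpf : Fact p.Prime := ⟨(CharP.char_is_prime_or_zero F p).resolve_right (CharP.char_ne_zero_of_finite F p)⟩
  haveI : CharP F₁ p := by
    refine ⟨fun x => ?_⟩
    rw [← CharP.cast_eq_zero_iff F p x]
    constructor
    · intro hx; have := congrArg (fun z : F₁ => (z : F)) hx; simpa using this
    · intro hx; apply Subtype.ext; simpa using hx
  obtain ⟨a, -, ha⟩ := FiniteField.card F₁ p
  rw [← Nat.card_eq_fintype_card] at ha
  let φ : F →+* F := iterateFrobenius F p a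
  have hφ : ∀ x, φ x = x ^ Nat.card F₁ := fun x => by rw [ha]; exact iterateFrobenius_def p a x
  let ρ : F ≃+* F := RingEquiv.ofBijective φ ⟨φ.injective, Finite.injective_iff_surjective.1 φ.injective⟩
  have hρ : ∀ x, x ∈ F₁ ↔ ρ x = x := fun x => by
    rw [mem_subfield_iff, ← hφ]; rfl
  have hρσ : ∀ x, ρ (σ x) = σ (ρ x) := fun x => by
    show φ (σ x) = σ (φ x)
    rw [hφ, hφ, map_pow]
  -- Γ₁ = κ⁻¹ Γ
  set Γ₁ := κ⁻¹ • Γ with hΓ₁
  have hnorm1 : bf σ Γ₁ u u = 1 := by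
    have : bf σ Γ₁ u u = κ⁻¹ * bf σ Γ u u := by
      unfold bf; rw [hΓ₁, Matrix.smul_mulVec, dotProduct_smul, smul_eq_mul]
    rw [this, ← hκ, inv_mul_cancel₀ hu]
  have hinvΓ : ∀ s ∈ L, (((P⁻¹ : GL ι F) : Matrix ι ι F) * (s : Matrix ι ι F) * (P : Matrix ι ι F))ᵀ * Γ *
      (((P⁻¹ : GL ι F) : Matrix ι ι F) * (s : Matrix ι ι F) * (P : Matrix ι ι F)).map σ = Γ := fun s hs => gr_invariant h (hLI s hs) P
  have hsF : ∀ s ∈ L, ∀ i j, (((P⁻¹ : GL ι F) : Matrix ι ι F) * (s : Matrix ι ι F) * (P : Matrix ι ι F)) i j ∈ F₁ := by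
    intro s hs i j
    rw [hPi]; exact hB _ ⟨s, hs, rfl⟩ i j
  -- transport to L-invariants
  have htr : ∀ X : Matrix ι ι F, (∀ s ∈ L, (((P⁻¹ : GL ι F) : Matrix ι ι F) * (s : Matrix ι ι F) * (P : Matrix ι ι F))ᵀ * X *
      (((P⁻¹ : GL ι F) : Matrix ι ι F) * (s : Matrix ι ι F) * (P : Matrix ι ι F)).map σ = X) → ∃ c : F, X = c • Γ := by
    intro X hX
    set Y : Matrix ι ι F := (((P⁻¹ : GL ι F) : Matrix ι ι F))ᵀ * X * ((P⁻¹ : GL ι F) : Matrix ι ι F).map σ with hY
    have hPσ : ((P⁻¹ : GL ι F) : Matrix ι ι F).map σ * (P : Matrix ι ι F).map σ = 1 := by rw [← map_mul', gl_inv_mul, map_one']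
    have hPσ' : (P : Matrix ι ι F).map σ * ((P⁻¹ : GL ι F) : Matrix ι ι F).map σ = 1 := by rw [← map_mul', gl_mul_inv, map_one']
    have hPT : ∀ Z : Matrix ι ι F, (((P⁻¹ : GL ι F) : Matrix ι ι F))ᵀ * ((P : Matrix ι ι F)ᵀ * Z) = Z := by
      intro Z
      rw [← mul_assoc, ← Matrix.transpose_mul, gl_mul_inv, Matrix.transpose_one, one_mul]
    have hPT' : ∀ Z : Matrix ι ι F, (P : Matrix ι ι F)ᵀ * ((((P⁻¹ : GL ι F) : Matrix ι ι F))ᵀ * Z) = Z := by
      intro Z
      rw [← mul_assoc, ← Matrix.transpose_mul, gl_inv_mul, Matrix.transpose_one, one_mul]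
    obtain ⟨c, hc⟩ := uniq σ hL (X := G) (Y := Y) (fun s hs => iso_gram h (hLI s hs)) (fun s hs => by
      have h3 := hX s hs
      rw [Matrix.transpose_mul, Matrix.transpose_mul, map_mul', map_mul'] at h3
      calc (s : Matrix ι ι F)ᵀ * Y * (s : Matrix ι ι F).map σ
          = (((P⁻¹ : GL ι F) : Matrix ι ι F))ᵀ * (((P : Matrix ι ι F)ᵀ * ((s : Matrix ι ι F)ᵀ * (((P⁻¹ : GL ι F) : Matrix ι ι F))ᵀ)) * X *
              (((P⁻¹ : GL ι F) : Matrix ι ι F).map σ * (s : Matrix ι ι F).map σ * (P : Matrix ι ι F).map σ)) * ((P⁻¹ : GL ι F) : Matrix ι ι F).map σ := by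
            rw [hY]
            simp only [mul_assoc, hPσ', mul_one]
            rw [hPT]
        _ = Y := by rw [h3, hY]) h.unit
    refine ⟨c, ?_⟩
    rw [hΓ, gr, ← Matrix.smul_mul, ← Matrix.mul_smul, ← hc, hY]
    calc X = ((P : Matrix ι ι F)ᵀ * ((((P⁻¹ : GL ι F) : Matrix ι ι F))ᵀ * X)) * (((P⁻¹ : GL ι F) : Matrix ι ι F).map σ * (P : Matrix ι ι F).map σ) := by
          rw [hPT', hPσ, mul_one]
      _ = _ := by simp only [mul_assoc]
  have hfixρ : ∀ M : Matrix ι ι F, (∀ i j, M i j ∈ F₁) → M.map ρ = M := by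
    intro M hM; ext i j; exact (hρ _).1 (hM i j)
  obtain ⟨d, hd⟩ := htr (Γ₁.map ρ) (fun s hs => by
    have e1 : (((P⁻¹ : GL ι F) : Matrix ι ι F) * (s : Matrix ι ι F) * (P : Matrix ι ι F))ᵀ * Γ₁ *
      (((P⁻¹ : GL ι F) : Matrix ι ι F) * (s : Matrix ι ι F) * (P : Matrix ι ι F)).map σ = Γ₁ := by
      rw [hΓ₁, Matrix.mul_smul, Matrix.smul_mul, hinvΓ s hs]
    have e2 := congrArg (fun M : Matrix ι ι F => M.map ρ) e1
    simp only [map_mul' ρ] at e2
    rw [hfixρ ((((P⁻¹ : GL ι F) : Matrix ι ι F) * (s : Matrix ι ι F) * (P : Matrix ι ι F)).map σ)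
      (fun i j => subfield_stable F₁ σ (hsF s hs i j))] at e2
    rw [hfixρ ((((P⁻¹ : GL ι F) : Matrix ι ι F) * (s : Matrix ι ι F) * (P : Matrix ι ι F))ᵀ) (fun i j => hsF s hs j i)] at e2
    exact e2)
  have hd1 : d * κ = 1 := by
    have e1 : bf σ (Γ₁.map ρ) u u = ρ (bf σ Γ₁ u u) := by
      have e2 : ∀ i, ρ (u i) = u i := fun i => (hρ _).1 (huF i)
      have e3 : ∀ i, ρ (σ (u i)) = σ (u i) := fun i => (hρ _).1 (subfield_stable F₁ σ (huF i))
      unfold bf
      simp only [dotProduct, Matrix.mulVec, map_sum, map_mul, e2, e3, Matrix.map_apply]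
    rw [hnorm1, map_one, hd] at e1
    have e4 : bf σ (d • Γ) u u = d * bf σ Γ u u := by
      unfold bf; rw [Matrix.smul_mulVec, dotProduct_smul, smul_eq_mul]
    rw [e4, ← hκ] at e1
    exact e1
  have hdκ : d = κ⁻¹ := eq_inv_of_mul_eq_one_left hd1
  have hΓ₁F : ∀ i j, Γ₁ i j ∈ F₁ := by
    intro i j
    rw [hρ]
    have := congrFun (congrFun hd i) j
    rw [hdκ, ← hΓ₁] at this
    exact this
  -- rescale
  let Q : GL ι F := (AschExtra.unitScalar ι F (Units.mk0 m⁻¹ (inv_ne_zero hm0))) * P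
  have hQ : (Q : Matrix ι ι F) = m⁻¹ • (P : Matrix ι ι F) := by
    show (AschExtra.unitScalar ι F (Units.mk0 m⁻¹ (inv_ne_zero hm0)) : Matrix ι ι F) * (P : Matrix ι ι F) = _
    have : (AschExtra.unitScalar ι F (Units.mk0 m⁻¹ (inv_ne_zero hm0)) : Matrix ι ι F) = m⁻¹ • 1 := by
      simp [AschExtra.unitScalar, Matrix.smul_one_eq_diagonal]
    rw [this, Matrix.smul_mul, one_mul]
  refine ⟨Q, hHP.trans (subfieldSubgroup_smul (inv_ne_zero hm0) hQ), fun i j => ?_⟩
  have hgQ : gr σ G Q = Γ₁ := by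
    rw [hΓ₁, hΓ, gr, gr, hQ, Matrix.transpose_smul, map_smul'', Matrix.smul_mul, Matrix.mul_smul, Matrix.smul_mul, smul_smul, map_inv₀,
      ← mul_inv, mul_comm (σ m), hm]
  rw [hgQ]; exact hΓ₁F i j

end Cfsg.Agent.Lib.AschAdj
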