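import Cfsg.Agent.Lib.AschTensor
import Cfsg.Agent.Lib.AschForm2

/-!
Aschbacher's theorem: several commuting components (class 7).
-/

set_option autoImplicit false
set_option linter.unusedSectionVars false

namespace Cfsg.Agent.Lib.AschComp

open Cfsg Cfsg.Geo Cfsg.Agent.Lib.AschMU Cfsg.Agent.Lib.AschCore Cfsg.Agent.Lib.AschField Cfsg.Agent.Lib.AschAlg
  Cfsg.Agent.Lib.AschDescent Cfsg.Agent.Lib.AschForm Cfsg.Agent.Lib.AschGroup Cfsg.Agent.Lib.AschGood
  Cfsg.Agent.Lib.AschNonab Cfsg.Agent.Lib.AschTensor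
open scoped Matrix MatrixGroups Kronecker commutatorElement

variable {ι : Type} [Fintype ι] [DecidableEq ι] {F : Type*} [Field F]

/-- The invertible matrices commuting with `M`. -/
def cent (M : Matrix ι ι F) : Subgroup (GL ι F) where
  carrier := {g | M * (g : Matrix ι ι F) = (g : Matrix ι ι F) * M}
  mul_mem' := by
    intro a b ha hb
    show M * ((a * b : GL ι F) : Matrix ι ι F) = _
    rw [Units.val_mul, ← mul_assoc, (show M * (a : Matrix ι ι F) = _ from ha), mul_assoc,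
      (show M * (b : Matrix ι ι F) = _ from hb), ← mul_assoc]
  one_mem' := by
    show M * ((1 : GL ι F) : Matrix ι ι F) = ((1 : GL ι F) : Matrix ι ι F) * M
    rw [Units.val_one, one_mul, mul_one]
  inv_mem' := by
    intro a ha
    show M * ((a⁻¹ : GL ι F) : Matrix ι ι F) = ((a⁻¹ : GL ι F) : Matrix ι ι F) * M
    have h : M * (a : Matrix ι ι F) = (a : Matrix ι ι F) * M := ha
    calc M * ((a⁻¹ : GL ι F) : Matrix ι ι F) = (((a⁻¹ : GL ι F) : Matrix ι ι F) * (a : Matrix ι ι F)) * M * ((a⁻¹ : GL ι F) : Matrix ι ι F) := by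
          rw [gl_inv_mul, one_mul]
      _ = ((a⁻¹ : GL ι F) : Matrix ι ι F) * (M * (a : Matrix ι ι F)) * ((a⁻¹ : GL ι F) : Matrix ι ι F) := by
          rw [h]; simp only [mul_assoc]
      _ = ((a⁻¹ : GL ι F) : Matrix ι ι F) * M := by
          rw [← mul_assoc, mul_assoc, gl_mul_inv, mul_one]

theorem mem_cent {M : Matrix ι ι F} {g : GL ι F} : g ∈ cent M ↔ M * (g : Matrix ι ι F) = (g : Matrix ι ι F) * M := Iff.rfl

/-- The invertible elements of a subalgebra whose inverse also lies in it. -/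
def unitsOf (A : Subalgebra F (Matrix ι ι F)) : Subgroup (GL ι F) where
  carrier := {g | (g : Matrix ι ι F) ∈ A ∧ ((g⁻¹ : GL ι F) : Matrix ι ι F) ∈ A}
  mul_mem' := by
    rintro a b ⟨ha, ha'⟩ ⟨hb, hb'⟩
    refine ⟨by rw [Units.val_mul]; exact A.mul_mem ha hb, ?_⟩
    rw [mul_inv_rev, Units.val_mul]; exact A.mul_mem hb' ha'
  one_mem' := ⟨by rw [Units.val_one]; exact A.one_mem, by rw [inv_one, Units.val_one]; exact A.one_mem⟩
  inv_mem' := by
    rintro a ⟨ha, ha'⟩
    exact ⟨ha', by rw [inv_inv]; exact ha⟩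

theorem le_unitsOf {X : Subgroup (GL ι F)} {A : Subalgebra F (Matrix ι ι F)} (h : env X ≤ A) : X ≤ unitsOf A :=
  fun _ hg => ⟨h (mem_env hg), h (mem_env (X.inv_mem hg))⟩

theorem env_le_of_le_unitsOf {X : Subgroup (GL ι F)} {A : Subalgebra F (Matrix ι ι F)} (h : X ≤ unitsOf A) : env X ≤ A := by
  apply Algebra.adjoin_le
  rintro _ ⟨x, hx, rfl⟩
  exact (h hx).1

theorem env_iSup {κ : Type*} (P : κ → Subgroup (GL ι F)) : env (⨆ i, P i) = ⨆ i, env (P i) := by
  apply le_antisymm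
  · apply env_le_of_le_unitsOf
    rw [iSup_le_iff]
    intro i
    exact le_unitsOf (le_iSup (fun i => env (P i)) i)
  · rw [iSup_le_iff]
    intro i
    apply Algebra.adjoin_mono
    rintro _ ⟨x, hx, rfl⟩
    exact ⟨x, (le_iSup P i) hx, rfl⟩

theorem env_cjG (g : GL ι F) (X : Subgroup (GL ι F)) : env (cjG g X) = (env X).map (cj g).toAlgHom := by
  rw [env, env, AlgHom.map_adjoin]
  congr 1
  ext y
  constructor
  · rintro ⟨_, ⟨x, hx, rfl⟩, rfl⟩
    exact ⟨_, ⟨x, hx, rfl⟩, rfl⟩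
  · rintro ⟨_, ⟨x, hx, rfl⟩, rfl⟩
    exact ⟨_, ⟨x, hx, rfl⟩, rfl⟩

/-- The isometries of a Gram matrix. -/
def isom (σ : F →+* F) (G : Matrix ι ι F) : Subgroup (GL ι F) where
  carrier := {x | (x : Matrix ι ι F)ᵀ * G * sm σ (x : Matrix ι ι F) = G}
  mul_mem' := by
    intro a b ha hb
    show ((a * b : GL ι F) : Matrix ι ι F)ᵀ * G * sm σ ((a * b : GL ι F) : Matrix ι ι F) = G
    have ha' : (a : Matrix ι ι F)ᵀ * G * sm σ (a : Matrix ι ι F) = G := ha
    have hb' : (b : Matrix ι ι F)ᵀ * G * sm σ (b : Matrix ι ι F) = G := hb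
    rw [Units.val_mul, Matrix.transpose_mul, sm_mul]
    calc (b : Matrix ι ι F)ᵀ * (a : Matrix ι ι F)ᵀ * G * (sm σ (a : Matrix ι ι F) * sm σ (b : Matrix ι ι F))
        = (b : Matrix ι ι F)ᵀ * ((a : Matrix ι ι F)ᵀ * G * sm σ (a : Matrix ι ι F)) * sm σ (b : Matrix ι ι F) := by
          simp only [mul_assoc]
      _ = G := by rw [ha', hb']
  one_mem' := by
    show ((1 : GL ι F) : Matrix ι ι F)ᵀ * G * sm σ ((1 : GL ι F) : Matrix ι ι F) = G
    rw [Units.val_one, Matrix.transpose_one, one_mul]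
    have : sm σ (1 : Matrix ι ι F) = 1 := by
      simp [sm]
    rw [this, mul_one]
  inv_mem' := by
    intro a ha
    have ha' : (a : Matrix ι ι F)ᵀ * G * sm σ (a : Matrix ι ι F) = G := ha
    show ((a⁻¹ : GL ι F) : Matrix ι ι F)ᵀ * G * sm σ ((a⁻¹ : GL ι F) : Matrix ι ι F) = G
    conv_lhs => rw [← ha']
    have h1 : sm σ (a : Matrix ι ι F) * sm σ ((a⁻¹ : GL ι F) : Matrix ι ι F) = 1 := by
      rw [← sm_mul, gl_mul_inv]; simp [sm]
    calc ((a⁻¹ : GL ι F) : Matrix ι ι F)ᵀ * ((a : Matrix ι ι F)ᵀ * G * sm σ (a : Matrix ι ι F)) * sm σ ((a⁻¹ : GL ι F) : Matrix ι ι F)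
        = (((a⁻¹ : GL ι F) : Matrix ι ι F)ᵀ * (a : Matrix ι ι F)ᵀ) * G * (sm σ (a : Matrix ι ι F) * sm σ ((a⁻¹ : GL ι F) : Matrix ι ι F)) := by
          simp only [mul_assoc]
      _ = G := by rw [gl_inv_transpose_mul, h1, one_mul, mul_one]

theorem mem_isom {σ : F →+* F} {G : Matrix ι ι F} {x : GL ι F} :
    x ∈ isom σ G ↔ (x : Matrix ι ι F)ᵀ * G * sm σ (x : Matrix ι ι F) = G := Iff.rfl

/-- Transport of a Gram matrix. -/
def gramT {κ : Type} [Fintype κ] [DecidableEq κ] (τ : F →+* F) (σ : ι ≃ κ) (B : GL ι F) (K : Matrix κ κ F) : Matrix ι ι F :=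
  ((B⁻¹ : GL ι F) : Matrix ι ι F)ᵀ * Matrix.reindex σ.symm σ.symm K * sm τ ((B⁻¹ : GL ι F) : Matrix ι ι F)

theorem gramT_psi {κ : Type} [Fintype κ] [DecidableEq κ] (τ : F →+* F) (σ : ι ≃ κ) (B : GL ι F) (K Y : Matrix κ κ F) :
    (psi σ B Y)ᵀ * gramT τ σ B K * sm τ (psi σ B Y) = gramT τ σ B (Yᵀ * K * sm τ Y) := by
  rw [psi_apply, gramT, gramT, sm_mul, sm_mul, Matrix.transpose_mul, Matrix.transpose_mul]
  have h1 : (B : Matrix ι ι F)ᵀ * ((B⁻¹ : GL ι F) : Matrix ι ι F)ᵀ = 1 := gl_transpose_mul_inv B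
  have h2 : sm τ ((B⁻¹ : GL ι F) : Matrix ι ι F) * sm τ (B : Matrix ι ι F) = 1 := by
    rw [← sm_mul, gl_inv_mul]; simp [sm]
  have h3 : Matrix.reindex σ.symm σ.symm (Yᵀ * K * sm τ Y) =
      (Matrix.reindex σ.symm σ.symm Y)ᵀ * Matrix.reindex σ.symm σ.symm K * sm τ (Matrix.reindex σ.symm σ.symm Y) := by
    simp only [Matrix.reindex_apply, Matrix.transpose_submatrix, sm, ← Matrix.submatrix_map]
    rw [Matrix.submatrix_mul_equiv, Matrix.submatrix_mul_equiv]
  rw [h3]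
  calc ((B⁻¹ : GL ι F) : Matrix ι ι F)ᵀ * ((Matrix.reindex σ.symm σ.symm Y)ᵀ * (B : Matrix ι ι F)ᵀ) *
        (((B⁻¹ : GL ι F) : Matrix ι ι F)ᵀ * Matrix.reindex σ.symm σ.symm K * sm τ ((B⁻¹ : GL ι F) : Matrix ι ι F)) *
        (sm τ (B : Matrix ι ι F) * sm τ (Matrix.reindex σ.symm σ.symm Y) * sm τ ((B⁻¹ : GL ι F) : Matrix ι ι F))
      = ((B⁻¹ : GL ι F) : Matrix ι ι F)ᵀ * (Matrix.reindex σ.symm σ.symm Y)ᵀ * ((B : Matrix ι ι F)ᵀ *
        ((B⁻¹ : GL ι F) : Matrix ι ι F)ᵀ) * Matrix.reindex σ.symm σ.symm K * (sm τ ((B⁻¹ : GL ι F) : Matrix ι ι F) *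
        sm τ (B : Matrix ι ι F)) * sm τ (Matrix.reindex σ.symm σ.symm Y) * sm τ ((B⁻¹ : GL ι F) : Matrix ι ι F) := by
        simp only [mul_assoc]
    _ = _ := by rw [h1, h2, mul_one, mul_one]; simp only [mul_assoc]

theorem gramT_det {κ : Type} [Fintype κ] [DecidableEq κ] (τ : F →+* F) (σ : ι ≃ κ) (B : GL ι F) (K : Matrix κ κ F)
    (hK : K.det ≠ 0) : (gramT τ σ B K).det ≠ 0 := by
  rw [gramT, Matrix.det_mul, Matrix.det_mul, Matrix.det_transpose, Matrix.det_reindex_self]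
  have h1 : ((B⁻¹ : GL ι F) : Matrix ι ι F).det ≠ 0 := by
    intro h0
    have h2 := congrArg Matrix.det (gl_inv_mul B)
    rw [Matrix.det_mul, h0, zero_mul, Matrix.det_one] at h2
    exact zero_ne_one h2
  have h2 : (sm τ ((B⁻¹ : GL ι F) : Matrix ι ι F)).det ≠ 0 := by
    have : (sm τ ((B⁻¹ : GL ι F) : Matrix ι ι F)).det = τ (((B⁻¹ : GL ι F) : Matrix ι ι F).det) := by
      rw [RingHom.map_det]; rfl
    rw [this]
    exact (map_ne_zero τ).2 h1
  exact mul_ne_zero (mul_ne_zero h1 hK) h2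

/-- A homomorphism from a perfect subgroup to a commutative group is trivial. -/
theorem hom_eq_one_of_perfect {Γ A : Type*} [Group Γ] [CommGroup A] {P : Subgroup Γ} (hP : ⁅P, P⁆ = P) (f : P →* A) (x : P) :
    f x = 1 := by
  have h1 : commutator P = ⊤ := by
    have h2 := Subgroup.map_subtype_commutator P
    rw [hP] at h2
    apply Subgroup.map_injective P.subtype_injective
    rw [h2, ← MonoidHom.range_eq_map, Subgroup.range_subtype]
  have h2 : x ∈ commutator P := by rw [h1]; trivial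
  exact Abelianization.commutator_subset_ker f h2

section Structure

variable {H : Subgroup (GL ι F)} {t : ℕ} {P : Fin t → Subgroup (GL ι F)}

theorem normBy_iSup_comp (h : CompData H P) : NormBy H (⨆ i, P i) := by
  rintro g hg x hx
  obtain ⟨π, hπ⟩ := h.perm g hg
  have h1 : cjG g (⨆ i, P i) ≤ ⨆ i, P i := by
    rw [cjG, Subgroup.map_iSup, iSup_le_iff]
    intro i
    have := hπ i
    rw [cjG] at this
    rw [this]
    exact le_iSup P (π i)
  exact h1 ⟨x, hx, rfl⟩

theorem commute_env_env {X Y : Subgroup (GL ι F)} (h : ∀ x ∈ X, ∀ y ∈ Y, x * y = y * x) :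
    ∀ x ∈ env X, ∀ y ∈ env Y, x * y = y * x := by
  intro x hx
  apply commute_env
  rintro _ ⟨y, hy, rfl⟩
  have h1 := commute_env (X := X) (M := (y : Matrix ι ι F)) (by
    rintro _ ⟨z, hz, rfl⟩
    show (y : Matrix ι ι F) * (z : Matrix ι ι F) = (z : Matrix ι ι F) * (y : Matrix ι ι F)
    rw [← Units.val_mul, ← Units.val_mul, h z hz y hy]) x hx
  exact h1.symm

/-- The enveloping algebras of the components are commuting matrix algebras of the same degree. -/
theorem exists_structure [Finite F] [Nonempty ι] (h : CompData H P) :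
    ∃ (d : ℕ) (φ : Fin t → Matrix (Fin d) (Fin d) F →ₐ[F] Matrix ι ι F), 2 ≤ d ∧
      (∀ i, Function.Injective (φ i)) ∧ (∀ i, (φ i).range = env (P i)) ∧
      (∀ i j, i ≠ j → ∀ x y, φ i x * φ j y = φ j y * φ i x) ∧ (⨆ i, (φ i).range) = ⊤ := by
  classical
  let i₀ : Fin t := ⟨0, by have := h.two_le; omega⟩
  have hnorm : (⨆ i, P i) ≤ subalgebraNormalizer (env (P i₀)) := by
    rw [iSup_le_iff]
    intro j
    by_cases hj : j = i₀
    · rw [hj]; exact self_le_env _
    · apply normalizer_le_env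
      intro g hg x hx
      rw [h.comm j i₀ hj g hg x hx, mul_inv_cancel_right]
      exact hx
  obtain ⟨d, hd, ⟨φ₀⟩⟩ := exists_algEquiv_matrix h.absIrred.1 hnorm (by
    intro x hx hc
    apply h.absIrred.2
    rintro _ ⟨g, hg, rfl⟩
    have h1 : (⨆ i, P i) ≤ cent x := by
      rw [iSup_le_iff]
      intro j g hg
      rw [mem_cent]
      by_cases hj : j = i₀
      · subst hj
        exact hc _ (mem_env hg)
      · exact commute_env_env (fun a ha b hb => (h.comm j i₀ hj b hb a ha).symm) x hx _ (mem_env hg)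
    exact h1 hg)
  have hg : ∀ i, ∃ g : GL ι F, cjG g (P i₀) = P i := fun i => by
    obtain ⟨g, -, hg⟩ := h.trans i₀ i
    exact ⟨g, hg⟩
  choose g hg using hg
  let φ : Fin t → Matrix (Fin d) (Fin d) F →ₐ[F] Matrix ι ι F := fun i =>
    (cj (g i)).toAlgHom.comp ((env (P i₀)).val.comp φ₀.toAlgHom)
  have hφ : ∀ i x, φ i x = cj (g i) (φ₀ x : Matrix ι ι F) := fun i x => rfl
  have hrange : ∀ i, (φ i).range = env (P i) := by
    intro i
    rw [← hg i, env_cjG]
    ext y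
    constructor
    · rintro ⟨x, rfl⟩
      exact ⟨φ₀ x, (φ₀ x).2, rfl⟩
    · rintro ⟨z, hz, rfl⟩
      refine ⟨φ₀.symm ⟨z, hz⟩, ?_⟩
      show cj (g i) (φ₀ (φ₀.symm ⟨z, hz⟩) : Matrix ι ι F) = cj (g i) z
      rw [AlgEquiv.apply_symm_apply]
  refine ⟨d, φ, ?_, ?_, hrange, ?_, ?_⟩
  · by_contra hlt
    have hd1 : d = 1 := by omega
    subst hd1
    apply h.nonscalar i₀
    intro x hx
    have h1 : (x : Matrix ι ι F) ∈ (φ i₀).range := by rw [hrange]; exact mem_env hx
    obtain ⟨m, hm⟩ := h1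
    have h2 : m = (m 0 0) • (1 : Matrix (Fin 1) (Fin 1) F) := by
      ext i j
      have hi : i = 0 := Subsingleton.elim _ _
      have hj : j = 0 := Subsingleton.elim _ _
      subst hi; subst hj; simp
    have h3 : (x : Matrix ι ι F) = (m 0 0) • (1 : Matrix ι ι F) := by
      rw [← hm]
      show φ i₀ m = _
      rw [h2, map_smul, map_one]; simp
    have h4 : m 0 0 ≠ 0 := by
      intro h0
      rw [h0, zero_smul] at h3
      have := x.isUnit
      rw [h3] at this
      exact not_isUnit_zero this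
    rw [mem_scalars_iff]
    exact ⟨Units.mk0 _ h4, h3⟩
  · intro i x y hxy
    rw [hφ, hφ] at hxy
    exact φ₀.injective (Subtype.ext ((cj (g i)).injective hxy))
  · intro i j hij x y
    apply commute_env_env (X := P i) (Y := P j) (h.comm i j hij)
    · rw [← hrange]; exact ⟨x, rfl⟩
    · rw [← hrange]; exact ⟨y, rfl⟩
  · have h1 : (⨆ i, (φ i).range) = ⨆ i, env (P i) := by
      congr 1; funext i; exact hrange i
    rw [h1, ← env_iSup, env_eq_top h.absIrred]

theorem exists_conj_comp {d : ℕ} {φ : Fin t → Matrix (Fin d) (Fin d) F →ₐ[F] Matrix ι ι F}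
    (hinj : ∀ i, Function.Injective (φ i)) (hr : ∀ i, (φ i).range = env (P i)) {g : GL ι F} {π : Equiv.Perm (Fin t)}
    (hπ : ∀ i, cjG g (P i) = P (π i)) : ∃ u : Fin t → GL (Fin d) F,
      ∀ i x, cj g (φ i x) = φ (π i) ((u i : Matrix (Fin d) (Fin d) F) * x * (((u i)⁻¹ : GL (Fin d) F) : Matrix (Fin d) (Fin d) F)) := by
  have key : ∀ i, ∃ u : GL (Fin d) F, ∀ x, cj g (φ i x) = φ (π i) ((u : Matrix (Fin d) (Fin d) F) * x * ((u⁻¹ : GL (Fin d) F) : Matrix (Fin d) (Fin d) F)) := by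
    intro i
    have hmem : ∀ x, (cj g).toAlgHom.comp (φ i) x ∈ (φ (π i)).range := by
      intro x
      rw [hr, ← hπ, env_cjG, ← hr]
      exact ⟨_, ⟨x, rfl⟩, rfl⟩
    let θ : Matrix (Fin d) (Fin d) F →ₐ[F] Matrix (Fin d) (Fin d) F :=
      (AlgEquiv.ofInjective (φ (π i)) (hinj _)).symm.toAlgHom.comp (((cj g).toAlgHom.comp (φ i)).codRestrict (φ (π i)).range hmem)
    obtain ⟨u, hu⟩ := exists_conj_algEnd θ
    refine ⟨u, fun x => ?_⟩
    rw [← hu]
    have h1 : (AlgEquiv.ofInjective (φ (π i)) (hinj _)) (θ x) = ((cj g).toAlgHom.comp (φ i)).codRestrict (φ (π i)).range hmem x :=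
      AlgEquiv.apply_symm_apply _ _
    have h2 := congrArg Subtype.val h1
    exact h2.symm
  choose u hu using key
  exact ⟨u, hu⟩

/-- The components are described by an explicit tensor decomposition stabilised by `H`. -/
theorem exists_tensorWreath [Finite F] [Nonempty ι] (h : CompData H P) :
    ∃ (d : ℕ) (σ : ι ≃ (Fin t → Fin d)) (B : GL ι F) (φ : Fin t → Matrix (Fin d) (Fin d) F →ₐ[F] Matrix ι ι F), 2 ≤ d ∧
      (∀ i, Function.Injective (φ i)) ∧ (∀ i, (φ i).range = env (P i)) ∧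
      (∀ i x, φ i x = psi σ B (tp (Function.update (fun _ => 1) i x))) ∧ (⨆ i, (φ i).range) = ⊤ ∧
      H ≤ tensorWreathSubgroup d t σ B := by
  obtain ⟨d, φ, hd, hinj, hr, hcomm, htop⟩ := exists_structure h
  have hcard := card_eq_of_top φ hcomm htop (by omega)
  have σ : ι ≃ (Fin t → Fin d) := Fintype.equivOfCardEq (by
    rw [hcard, Fintype.card_fun, Fintype.card_fin, Fintype.card_fin])
  obtain ⟨B, hB⟩ := exists_psi φ hcomm σ
  have hB' : ∀ i x, φ i x = psi σ B (tp (Function.update (fun _ => 1) i x)) := fun i x => by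
    rw [← hB, bigPi_update]
  refine ⟨d, σ, B, φ, hd, hinj, hr, hB', htop, ?_⟩
  intro g hg
  obtain ⟨π, hπ⟩ := h.perm g hg
  obtain ⟨u, hu⟩ := exists_conj_comp hinj hr hπ
  exact mem_tensorWreath_of_perm (by have := h.two_le; omega) htop hB' π u hu

/-- For two-dimensional factors there is an invariant bilinear form. -/
theorem exists_form_of_two [Finite F] [Nonempty ι] (h : CompData H P) {σ : ι ≃ (Fin t → Fin 2)} {B : GL ι F}
    {φ : Fin t → Matrix (Fin 2) (Fin 2) F →ₐ[F] Matrix ι ι F} (hinj : ∀ i, Function.Injective (φ i))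
    (hr : ∀ i, (φ i).range = env (P i)) (hB : ∀ i x, φ i x = psi σ B (tp (Function.update (fun _ => 1) i x))) :
    Inv (RingHom.id F) (⨆ i, P i) (gramT (RingHom.id F) σ B (tp (fun _ => !![0, 1; -1, 0]))) := by
  set J : Matrix (Fin 2) (Fin 2) F := !![0, 1; -1, 0] with hJ
  have hJm : ∀ m : Matrix (Fin 2) (Fin 2) F, mᵀ * J * m = m.det • J := by
    intro m
    ext i j
    fin_cases i <;> fin_cases j <;>
      simp [hJ, Matrix.mul_apply, Fin.sum_univ_two, Matrix.det_fin_two] <;> ring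
  have h1 : (⨆ i, P i) ≤ isom (RingHom.id F) (gramT (RingHom.id F) σ B (tp (fun _ => J))) := by
    rw [iSup_le_iff]
    intro i
    -- the determinant homomorphism
    have hex : ∀ x : P i, ∃ m : Matrix (Fin 2) (Fin 2) F, φ i m = ((x : GL ι F) : Matrix ι ι F) := by
      intro x
      have : ((x : GL ι F) : Matrix ι ι F) ∈ (φ i).range := by rw [hr]; exact mem_env x.2
      exact this
    choose m hm using hex
    have hm1 : m 1 = 1 := by
      apply hinj i
      rw [hm, map_one]; rfl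
    have hmm : ∀ x y, m (x * y) = m x * m y := by
      intro x y
      apply hinj i
      rw [hm, map_mul, hm, hm]; rfl
    let f₀ : P i →* F :=
      { toFun := fun x => (m x).det
        map_one' := by rw [hm1, Matrix.det_one]
        map_mul' := fun x y => by rw [hmm, Matrix.det_mul] }
    have hdet : ∀ x, (m x).det = 1 := by
      intro x
      have h2 := hom_eq_one_of_perfect (h.perfect i) f₀.toHomUnits x
      have h3 := congrArg (fun u : Fˣ => (u : F)) h2
      exact h3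
    intro x hx
    rw [mem_isom, ← hm ⟨x, hx⟩, hB, gramT_psi]
    congr 1
    have hsm : ∀ y : Matrix (Fin t → Fin 2) (Fin t → Fin 2) F, sm (RingHom.id F) y = y := fun y => by ext; rfl
    rw [hsm, tp_transpose, tp_mul, tp_mul]
    congr 1
    funext j
    by_cases hj : j = i
    · subst hj
      simp only [Function.update_self]
      rw [hJm, hdet, one_smul]
    · simp only [Function.update_of_ne hj]
      rw [Matrix.transpose_one, one_mul, mul_one]
  exact fun x hx => h1 hx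

theorem det_tpJ (t : ℕ) : (tp (fun _ : Fin t => (!![0, 1; -1, 0] : Matrix (Fin 2) (Fin 2) F))).det ≠ 0 := by
  intro h0
  have h1 : tp (fun _ : Fin t => (!![0, 1; -1, 0] : Matrix (Fin 2) (Fin 2) F)) *
      tp (fun _ : Fin t => (!![0, -1; 1, 0] : Matrix (Fin 2) (Fin 2) F)) = 1 := by
    rw [tp_mul, ← tp_one]
    congr 1
    funext j
    ext a b
    fin_cases a <;> fin_cases b <;> simp [Matrix.mul_apply, Fin.sum_univ_two]
  have h2 := congrArg Matrix.det h1
  rw [Matrix.det_mul, h0, zero_mul, Matrix.det_one] at h2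
  exact zero_ne_one h2

/-- **Class 7 (linear case).** -/
theorem cases_linear [Finite F] [Nonempty ι] (h : CompData H P) :
    (∃ (m t : ℕ) (e : ι ≃ (Fin t → Fin m)) (B : GL ι F), 3 ≤ m ∧ 2 ≤ t ∧ H ≤ tensorWreathSubgroup m t e B) ∨
    (∃ G : Matrix ι ι F, Inv (RingHom.id F) (⨆ i, P i) G ∧ G.det ≠ 0) := by
  obtain ⟨d, σ, B, φ, hd, hinj, hr, hB, htop, hle⟩ := exists_tensorWreath h
  rcases Nat.lt_or_ge 2 d with hd3 | hd2
  · left
    exact ⟨d, t, σ, B, hd3, h.two_le, hle⟩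
  · right
    have : d = 2 := by omega
    subst this
    exact ⟨_, exists_form_of_two h hinj hr hB, gramT_det _ _ _ _ (det_tpJ t)⟩

end Structure

end Cfsg.Agent.Lib.AschComp
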