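import Mathlib
import Cfsg.Prelude.Def_GeometricClasses
import Cfsg.Agent.Lib.SLGeom

/-!
Decompositions of `F^ι` into subspaces of equal dimension: coordinates, the weight function, and the
non-maximality over small fields.
-/

set_option autoImplicit false

namespace Cfsg.Agent.Lib.DecompStab

open Matrix

variable {ι : Type} [Fintype ι] [DecidableEq ι] {F : Type*} [Field F]

/-- coordinates adapted to a decomposition -/
theorem exists_coord {t m : ℕ} (D : Fin t → Submodule F (ι → F)) (hD : Cfsg.Geo.IsMDecomposition m D) :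
    ∃ E : (ι → F) ≃ₗ[F] (Fin t → Fin m → F), ∀ i x, x ∈ D i ↔ ∀ j, j ≠ i → E x j = 0 := by
  classical
  have hint : DirectSum.IsInternal D :=
    (DirectSum.isInternal_submodule_iff_iSupIndep_and_iSup_eq_top D).2 ⟨hD.indep, hD.iSup_eq_top⟩
  let e1 : (DirectSum (Fin t) fun i => D i) ≃ₗ[F] (ι → F) :=
    LinearEquiv.ofBijective (DirectSum.coeLinearMap D) hint
  have e2 : ∀ i, Nonempty (D i ≃ₗ[F] (Fin m → F)) := by
    intro i
    apply FiniteDimensional.nonempty_linearEquiv_of_finrank_eq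
    rw [hD.finrank_eq, Module.finrank_fin_fun]
  let e3 : ∀ i, D i ≃ₗ[F] (Fin m → F) := fun i => (e2 i).some
  let e4 : (DirectSum (Fin t) fun i => D i) ≃ₗ[F] (∀ i, D i) := DirectSum.linearEquivFunOnFintype F (Fin t) _
  let e5 : (∀ i, D i) ≃ₗ[F] (Fin t → Fin m → F) := LinearEquiv.piCongrRight e3
  refine ⟨e1.symm.trans (e4.trans e5), ?_⟩
  intro i x
  have hval : ∀ j, (e1.symm.trans (e4.trans e5)) x j = e3 j ((e1.symm x) j) := by
    intro j
    rfl
  constructor
  · intro hx j hj
    rw [hval]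
    have h1 : e1.symm x = DirectSum.of (fun i => D i) i ⟨x, hx⟩ := by
      rw [LinearEquiv.symm_apply_eq]
      change x = DirectSum.coeLinearMap D _
      rw [DirectSum.coeLinearMap_of]
    rw [h1, DirectSum.of_eq_of_ne _ _ _ hj, map_zero]
  · intro h
    have h1 : ∀ j, j ≠ i → (e1.symm x) j = 0 := by
      intro j hj
      have := h j hj
      rw [hval] at this
      exact (e3 j).map_eq_zero_iff.1 this
    have h2 : e1.symm x = DirectSum.of (fun i => D i) i ((e1.symm x) i) := by
      apply DFinsupp.ext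
      intro j
      by_cases hj : j = i
      · subst hj
        rw [DirectSum.of_eq_same]
      · rw [DirectSum.of_eq_of_ne _ _ _ hj]
        exact h1 j hj
    have h3 : x = e1 (DirectSum.of (fun i => D i) i ((e1.symm x) i)) := by
      rw [← h2, LinearEquiv.apply_symm_apply]
    rw [h3]
    change DirectSum.coeLinearMap D _ ∈ D i
    rw [DirectSum.coeLinearMap_of]
    exact Submodule.coe_mem _

open Classical in
/-- the weight, with values in the field -/
noncomputable def wt {t m : ℕ} (E : (ι → F) ≃ₗ[F] (Fin t → Fin m → F)) (x : ι → F) : F :=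
  ∑ i, if E x i = 0 then 0 else 1

/-- invertible matrices preserving the weight -/
def wtGroup {t m : ℕ} (E : (ι → F) ≃ₗ[F] (Fin t → Fin m → F)) : Subgroup (GL ι F) where
  carrier := {g | ∀ x, wt E ((g : Matrix ι ι F) *ᵥ x) = wt E x}
  mul_mem' {a b} ha hb := by
    intro x
    rw [Units.val_mul, ← Matrix.mulVec_mulVec, ha, hb]
  one_mem' := by
    intro x
    rw [Units.val_one, Matrix.one_mulVec]
  inv_mem' {a} ha := by
    intro x
    have h := ha (((a⁻¹ : GL ι F) : Matrix ι ι F) *ᵥ x)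
    rw [Matrix.mulVec_mulVec, ← Units.val_mul, mul_inv_cancel, Units.val_one, Matrix.one_mulVec] at h
    exact h.symm

theorem gl_inj (g : GL ι F) {x y : ι → F} (h : (g : Matrix ι ι F) *ᵥ x = (g : Matrix ι ι F) *ᵥ y) : x = y := by
  have := congrArg (fun z => ((g⁻¹ : GL ι F) : Matrix ι ι F) *ᵥ z) h
  simpa only [Matrix.mulVec_mulVec, ← Units.val_mul, inv_mul_cancel, Units.val_one, Matrix.one_mulVec] using this

/-- the inclusion of the decomposition stabiliser in the weight group -/
theorem stab_le_wtGroup {t m : ℕ} (D : Fin t → Submodule F (ι → F)) (E : (ι → F) ≃ₗ[F] (Fin t → Fin m → F))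
    (hE : ∀ i x, x ∈ D i ↔ ∀ j, j ≠ i → E x j = 0) :
    Cfsg.Geo.decompositionStabilizer D ≤ wtGroup E := by
  classical
  rintro g ⟨σ, hσ⟩ x
  have hmap : ∀ i, ∀ y ∈ D i, (g : Matrix ι ι F) *ᵥ y ∈ D (σ i) := by
    intro i y hy
    rw [← hσ i]
    exact ⟨y, hy, Matrix.toLin'_apply _ _⟩
  -- components
  let c : Fin t → (ι → F) := fun i => E.symm (Pi.single i (E x i))
  have hc : ∀ i, c i ∈ D i := by
    intro i
    rw [hE]
    intro j hj
    rw [LinearEquiv.apply_symm_apply, Pi.single_eq_of_ne hj]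
  have hsum : ∑ i, c i = x := by
    apply E.injective
    rw [map_sum]
    conv_rhs => rw [← Finset.univ_sum_single (E x)]
    apply Finset.sum_congr rfl
    intro i _
    rw [LinearEquiv.apply_symm_apply]
  have hcomp : ∀ i, E ((g : Matrix ι ι F) *ᵥ x) (σ i) = E ((g : Matrix ι ι F) *ᵥ (c i)) (σ i) := by
    intro i
    conv_lhs => rw [← hsum]
    rw [Matrix.mulVec_sum, map_sum, Finset.sum_apply, Finset.sum_eq_single i]
    · intro j _ hj
      exact (hE (σ j) _).1 (hmap j _ (hc j)) (σ i) (fun h => hj (σ.injective h).symm)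
    · intro h; exact absurd (Finset.mem_univ i) h
  have hzero : ∀ i, E ((g : Matrix ι ι F) *ᵥ x) (σ i) = 0 ↔ E x i = 0 := by
    intro i
    rw [hcomp i]
    constructor
    · intro h
      have h1 : E ((g : Matrix ι ι F) *ᵥ (c i)) = 0 := by
        funext j
        by_cases hj : j = σ i
        · rw [hj, h]; rfl
        · exact (hE (σ i) _).1 (hmap i _ (hc i)) j hj
      have h2 : (g : Matrix ι ι F) *ᵥ (c i) = 0 := by
        rwa [LinearEquiv.map_eq_zero_iff] at h1
      have h3 : c i = 0 := gl_inj g (by rw [h2, Matrix.mulVec_zero])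
      have h4 : (Pi.single i (E x i) : Fin t → Fin m → F) = 0 := by
        rwa [LinearEquiv.map_eq_zero_iff] at h3
      have h5 := congrFun h4 i
      rwa [Pi.single_eq_same] at h5
    · intro h
      have : c i = 0 := by
        change E.symm (Pi.single i (E x i)) = 0
        rw [h, Pi.single_zero, map_zero]
      rw [this, Matrix.mulVec_zero, map_zero]; rfl
  rw [wt, wt, ← Equiv.sum_comp σ]
  apply Finset.sum_congr rfl
  intro i _
  simp only [hzero]

/-- generalised transvections and reflections -/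
theorem exists_gl (φ : (ι → F) →ₗ[F] F) (v : ι → F) (h : 1 + φ v ≠ 0) :
    ∃ g : GL ι F, ((Matrix.GeneralLinearGroup.det g : Fˣ) : F) = 1 + φ v ∧
      ∀ x, (g : Matrix ι ι F) *ᵥ x = x + φ x • v := by
  let w : ι → F := fun i => φ (Pi.single i 1)
  have key : ∀ x, w ⬝ᵥ x = φ x := by
    intro x
    conv_rhs => rw [← Finset.univ_sum_single x]
    rw [map_sum, dotProduct]
    apply Finset.sum_congr rfl
    intro i _
    have : (Pi.single i (x i) : ι → F) = x i • Pi.single i 1 := by
      rw [← Pi.single_smul, smul_eq_mul, mul_one]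
    rw [this, map_smul, smul_eq_mul, mul_comm]
  have hdet : (1 + vecMulVec v w).det = 1 + φ v := by
    rw [Matrix.vecMulVec_eq Unit, Matrix.det_one_add_replicateCol_mul_replicateRow, key]
  refine ⟨Matrix.GeneralLinearGroup.mkOfDetNeZero (1 + vecMulVec v w) (by rw [hdet]; exact h), hdet, fun x => ?_⟩
  change (1 + vecMulVec v w) *ᵥ x = _
  rw [Matrix.add_mulVec, Matrix.one_mulVec, Matrix.vecMulVec_mulVec, key]
  congr 1
  ext i
  simp [mul_comm]

theorem exists_sl (φ : (ι → F) →ₗ[F] F) (v : ι → F) (h : φ v = 0) :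
    ∃ g ∈ Cfsg.Geo.specialLinear ι F, ∀ x, (g : Matrix ι ι F) *ᵥ x = x + φ x • v := by
  obtain ⟨g, hg, hx⟩ := exists_gl φ v (by rw [h, add_zero]; exact one_ne_zero)
  refine ⟨g, ?_, hx⟩
  change Matrix.GeneralLinearGroup.det g = 1
  apply Units.ext
  rw [hg, h, add_zero]; rfl

/-- coordinate functionals -/
def cf {t m : ℕ} (E : (ι → F) ≃ₗ[F] (Fin t → Fin m → F)) (i : Fin t) (k : Fin m) : (ι → F) →ₗ[F] F :=
  (LinearMap.proj k).comp ((LinearMap.proj i).comp E.toLinearMap)

theorem cf_apply {t m : ℕ} (E : (ι → F) ≃ₗ[F] (Fin t → Fin m → F)) (i : Fin t) (k : Fin m) (x : ι → F) :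
    cf E i k x = E x i k := rfl

/-- the weight group is proper -/
theorem wt_lt {t m : ℕ} (E : (ι → F) ≃ₗ[F] (Fin t → Fin m → F)) (ht : 2 ≤ t) (hm : 0 < m) :
    wtGroup E ⊓ Cfsg.Geo.specialLinear ι F < Cfsg.Geo.specialLinear ι F := by
  classical
  refine lt_of_le_of_ne inf_le_right ?_
  intro heq
  let i0 : Fin t := ⟨0, by omega⟩
  let i1 : Fin t := ⟨1, by omega⟩
  let k0 : Fin m := ⟨0, hm⟩
  have hi : i1 ≠ i0 := by
    intro h
    have := congrArg Fin.val h
    simp [i0, i1] at this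
  let v : ι → F := E.symm (Pi.single i1 (Pi.single k0 1))
  let u : ι → F := E.symm (Pi.single i0 (Pi.single k0 1))
  have hφ : cf E i0 k0 v = 0 := by
    rw [cf_apply, LinearEquiv.apply_symm_apply, Pi.single_eq_of_ne hi.symm]; rfl
  obtain ⟨g, hg, hx⟩ := exists_sl (cf E i0 k0) v hφ
  have hg' : g ∈ wtGroup E ⊓ Cfsg.Geo.specialLinear ι F := by rw [heq]; exact hg
  have h1 := hg'.1 u
  rw [hx] at h1
  have h2 : cf E i0 k0 u = 1 := by
    rw [cf_apply, LinearEquiv.apply_symm_apply, Pi.single_eq_same, Pi.single_eq_same]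
  rw [h2, one_smul, wt, wt] at h1
  have hne : (Pi.single k0 1 : Fin m → F) ≠ 0 := by
    intro h
    have := congrFun h k0
    rw [Pi.single_eq_same] at this
    exact one_ne_zero this
  have h3 : ∑ i, (if E u i = 0 then (0 : F) else 1) = 1 := by
    rw [Finset.sum_eq_single i0]
    · rw [LinearEquiv.apply_symm_apply, Pi.single_eq_same, if_neg hne]
    · intro j _ hj
      rw [LinearEquiv.apply_symm_apply, Pi.single_eq_of_ne hj, if_pos rfl]
    · intro h; exact absurd (Finset.mem_univ _) h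
  have h4 : ∑ i, (if E (u + v) i = 0 then (0 : F) else 1) = 1 + 1 := by
    rw [← Finset.add_sum_erase _ _ (Finset.mem_univ i0), ← Finset.add_sum_erase _ _
      (Finset.mem_erase.2 ⟨hi, Finset.mem_univ i1⟩), Finset.sum_eq_zero]
    · rw [add_zero]
      congr 1
      · rw [map_add, LinearEquiv.apply_symm_apply, LinearEquiv.apply_symm_apply, Pi.add_apply, Pi.single_eq_same,
          Pi.single_eq_of_ne hi.symm, add_zero, if_neg hne]
      · rw [map_add, LinearEquiv.apply_symm_apply, LinearEquiv.apply_symm_apply, Pi.add_apply, Pi.single_eq_same,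
          Pi.single_eq_of_ne hi, zero_add, if_neg hne]
    · intro j hj
      rw [Finset.mem_erase, Finset.mem_erase] at hj
      rw [map_add, LinearEquiv.apply_symm_apply, LinearEquiv.apply_symm_apply, Pi.add_apply,
          Pi.single_eq_of_ne hj.1, Pi.single_eq_of_ne hj.2.1, add_zero, if_pos rfl]
  rw [h3, h4] at h1
  exact one_ne_zero (add_eq_left.1 h1)

/-- strictness, given a suitable element: some vector of `D i` is mapped outside all `D j` -/
theorem not_mem_stab {t m : ℕ} (D : Fin t → Submodule F (ι → F)) (E : (ι → F) ≃ₗ[F] (Fin t → Fin m → F))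
    (hE : ∀ i x, x ∈ D i ↔ ∀ j, j ≠ i → E x j = 0) (g : GL ι F) (i : Fin t) (x : ι → F) (hx : x ∈ D i)
    (j k : Fin t) (hjk : j ≠ k) (hj : E ((g : Matrix ι ι F) *ᵥ x) j ≠ 0) (hk : E ((g : Matrix ι ι F) *ᵥ x) k ≠ 0) :
    g ∉ Cfsg.Geo.decompositionStabilizer D := by
  rintro ⟨σ, hσ⟩
  have h1 : (g : Matrix ι ι F) *ᵥ x ∈ D (σ i) := by
    rw [← hσ i]
    exact ⟨x, hx, Matrix.toLin'_apply _ _⟩
  rw [hE] at h1
  by_cases h : j = σ i
  · exact hk (h1 k (fun h' => hjk (h.trans h'.symm)))
  · exact hj (h1 j h)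

theorem two_elts [Fintype F] (hq : Fintype.card F = 2) (x : F) : x = 0 ∨ x = 1 := by
  classical
  by_contra hcon
  push Not at hcon
  have h1 : ({0, 1, x} : Finset F).card = 3 := by
    rw [Finset.card_insert_of_notMem, Finset.card_insert_of_notMem, Finset.card_singleton]
    · simpa using hcon.2.symm
    · simpa using hcon.1.symm
  have h2 : ({0, 1, x} : Finset F).card ≤ Fintype.card F := Finset.card_le_univ _
  omega

/-- the weight for `m = 1` -/
theorem wt_one [Fintype F] {t : ℕ} (E : (ι → F) ≃ₗ[F] (Fin t → Fin 1 → F)) (x : ι → F) :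
    wt E x = ∑ i, (E x i 0) ^ (Fintype.card F - 1) := by
  classical
  rw [wt]
  apply Finset.sum_congr rfl
  intro i _
  have hcard : 1 < Fintype.card F := Fintype.one_lt_card
  by_cases h : E x i = 0
  · rw [if_pos h, h, Pi.zero_apply, zero_pow (by omega)]
  · rw [if_neg h, FiniteField.pow_card_sub_one_eq_one]
    intro h0
    apply h
    funext k
    rw [Subsingleton.elim k 0, h0]; rfl

/-- the weight for `m = 2` over two elements -/
theorem wt_two [Fintype F] (hq : Fintype.card F = 2) {t : ℕ} (E : (ι → F) ≃ₗ[F] (Fin t → Fin 2 → F)) (x : ι → F) :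
    wt E x = ∑ i, ((E x i 0) ^ 2 + (E x i 0) * (E x i 1) + (E x i 1) ^ 2) := by
  classical
  rw [wt]
  apply Finset.sum_congr rfl
  intro i _
  have h2 : (1 : F) + 1 = 0 := by
    rcases two_elts hq ((1 : F) + 1) with h | h
    · exact h
    · exact absurd (add_eq_left.1 h) one_ne_zero
  have hz : E x i = 0 ↔ E x i 0 = 0 ∧ E x i 1 = 0 := by
    constructor
    · intro h; rw [h]; exact ⟨rfl, rfl⟩
    · rintro ⟨h0, h1⟩
      funext k
      fin_cases k
      · exact h0
      · exact h1
  by_cases h : E x i = 0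
  · rw [if_pos h, h]; simp
  · rw [if_neg h]
    rcases two_elts hq (E x i 0) with h0 | h0 <;> rcases two_elts hq (E x i 1) with h1 | h1
    · exact absurd (hz.2 ⟨h0, h1⟩) h
    · rw [h0, h1]; ring
    · rw [h0, h1]; ring
    · rw [h0, h1]; linear_combination (-1 : F) * h2

/-- the vector `Σ_{i ∈ S} b (i, 0)` -/
noncomputable def vS {t m : ℕ} (E : (ι → F) ≃ₗ[F] (Fin t → Fin m → F)) (k : Fin m) (S : Finset (Fin t)) : ι → F :=
  E.symm (fun i => if i ∈ S then Pi.single k 1 else 0)

theorem E_vS {t m : ℕ} (E : (ι → F) ≃ₗ[F] (Fin t → Fin m → F)) (k : Fin m) (S : Finset (Fin t)) (i : Fin t) (l : Fin m) :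
    E (vS E k S) i l = if i ∈ S ∧ l = k then 1 else 0 := by
  rw [vS, LinearEquiv.apply_symm_apply]
  by_cases h : i ∈ S
  · rw [if_pos h]
    by_cases hl : l = k
    · rw [if_pos ⟨h, hl⟩, hl, Pi.single_eq_same]
    · rw [if_neg (fun h' => hl h'.2), Pi.single_eq_of_ne hl]
  · rw [if_neg h, if_neg (fun h' => h h'.1)]; rfl

theorem sum_split {t : ℕ} {f g : Fin t → F} (S : Finset (Fin t)) (h : ∀ i, i ∉ S → f i = g i)
    (hS : ∑ i ∈ S, f i = ∑ i ∈ S, g i) : ∑ i, f i = ∑ i, g i := by
  classical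
  rw [← Finset.sum_add_sum_compl S f, ← Finset.sum_add_sum_compl S g, hS]
  congr 1
  apply Finset.sum_congr rfl
  intro i hi
  exact h i (Finset.mem_compl.1 hi)

/-- the case `m = 1` -/
theorem case_one [Fintype F] {t : ℕ} (D : Fin t → Submodule F (ι → F)) (E : (ι → F) ≃ₗ[F] (Fin t → Fin 1 → F))
    (hE : ∀ i x, x ∈ D i ↔ ∀ j, j ≠ i → E x j = 0) (ht : 5 ≤ t) (hq : Fintype.card F ≤ 4) :
    Cfsg.Geo.decompositionStabilizer D ⊓ Cfsg.Geo.specialLinear ι F < wtGroup E ⊓ Cfsg.Geo.specialLinear ι F := by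
  classical
  refine lt_of_le_of_ne (inf_le_inf_right _ (stab_le_wtGroup D E hE)) ?_
  intro heq
  let i0 : Fin t := ⟨0, by omega⟩
  let i1 : Fin t := ⟨1, by omega⟩
  let i2 : Fin t := ⟨2, by omega⟩
  let i3 : Fin t := ⟨3, by omega⟩
  let i4 : Fin t := ⟨4, by omega⟩
  have h01 : i0 ≠ i1 := by intro h; have := congrArg Fin.val h; simp [i0, i1] at this
  have h02 : i0 ≠ i2 := by intro h; have := congrArg Fin.val h; simp [i0, i2] at this
  have h03 : i0 ≠ i3 := by intro h; have := congrArg Fin.val h; simp [i0, i3] at this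
  have h04 : i0 ≠ i4 := by intro h; have := congrArg Fin.val h; simp [i0, i4] at this
  have h12 : i1 ≠ i2 := by intro h; have := congrArg Fin.val h; simp [i1, i2] at this
  have h13 : i1 ≠ i3 := by intro h; have := congrArg Fin.val h; simp [i1, i3] at this
  have h23 : i2 ≠ i3 := by intro h; have := congrArg Fin.val h; simp [i2, i3] at this
  let S : Finset (Fin t) := {i0, i1, i2, i3}
  have hsumS : ∀ f : Fin t → F, ∑ i ∈ S, f i = f i0 + f i1 + f i2 + f i3 := by
    intro f
    rw [Finset.sum_insert, Finset.sum_insert, Finset.sum_insert, Finset.sum_singleton]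
    · ring
    · simpa using h23
    · simp only [Finset.mem_insert, Finset.mem_singleton, not_or]; exact ⟨h12, h13⟩
    · simp only [Finset.mem_insert, Finset.mem_singleton, not_or]; exact ⟨h01, h02, h03⟩
  let φ : (ι → F) →ₗ[F] F := ∑ i ∈ S, cf E i 0
  have hφ : ∀ x, φ x = E x i0 0 + E x i1 0 + E x i2 0 + E x i3 0 := by
    intro x
    rw [LinearMap.sum_apply, hsumS]
    rfl
  have mem0 : i0 ∈ S := by simp [S]
  have mem1 : i1 ∈ S := by simp [S]
  have mem2 : i2 ∈ S := by simp [S]
  have mem3 : i3 ∈ S := by simp [S]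
  let v := vS E 0 S
  have hv : ∀ i, i ∈ S → E v i 0 = 1 := by
    intro i hi
    rw [E_vS, if_pos ⟨hi, rfl⟩]
  have hv' : ∀ i, i ∉ S → E v i 0 = 0 := by
    intro i hi
    rw [E_vS, if_neg (fun h => hi h.1)]
  have hφv : φ v = 1 + 1 + 1 + 1 := by
    rw [hφ, hv i0 mem0, hv i1 mem1, hv i2 mem2, hv i3 mem3]
  -- the characteristic
  have hchar : (Fintype.card F = 2 ∧ (1 : F) + 1 = 0) ∨ (Fintype.card F = 4 ∧ (1 : F) + 1 = 0) ∨
      (Fintype.card F = 3 ∧ (1 : F) + 1 + 1 = 0) := by
    have hcard : 1 < Fintype.card F := Fintype.one_lt_card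
    have hc : Fintype.card F = 2 ∨ Fintype.card F = 3 ∨ Fintype.card F = 4 := by omega
    have h0 : ((Fintype.card F : ℕ) : F) = 0 := by simp
    rcases hc with h | h | h
    · left; refine ⟨h, ?_⟩
      rw [h] at h0; push_cast at h0; rw [← h0]; norm_num
    · right; right; refine ⟨h, ?_⟩
      rw [h] at h0; push_cast at h0; rw [← h0]; norm_num
    · right; left; refine ⟨h, ?_⟩
      rw [h] at h0; push_cast at h0
      have : ((1 : F) + 1) * (1 + 1) = 0 := by rw [← h0]; norm_num
      rcases mul_eq_zero.1 this with h | h <;> exact h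
  have hne : 1 + φ v ≠ 0 := by
    rw [hφv]
    rcases hchar with ⟨-, h⟩ | ⟨-, h⟩ | ⟨-, h⟩
    · have : (1 : F) + (1 + 1 + 1 + 1) = 1 := by linear_combination (2 : F) * h
      rw [this]; exact one_ne_zero
    · have : (1 : F) + (1 + 1 + 1 + 1) = 1 := by linear_combination (2 : F) * h
      rw [this]; exact one_ne_zero
    · have : (1 : F) + (1 + 1 + 1 + 1) = -1 := by linear_combination (2 : F) * h
      rw [this]; exact neg_ne_zero.2 one_ne_zero
  obtain ⟨g, hgdet, hg⟩ := exists_gl φ v hne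
  have hgw : g ∈ wtGroup E := by
    intro x
    rw [wt_one, wt_one]
    have hval : ∀ i, E ((g : Matrix ι ι F) *ᵥ x) i 0 = E x i 0 + φ x * E v i 0 := by
      intro i
      rw [hg, map_add, map_smul]; rfl
    apply sum_split S
    · intro i hi
      rw [hval, hv' i hi, mul_zero, add_zero]
    · rw [hsumS, hsumS, hval, hval, hval, hval, hv i0 mem0, hv i1 mem1, hv i2 mem2, hv i3 mem3, hφ]
      generalize E x i0 0 = a
      generalize E x i1 0 = b
      generalize E x i2 0 = c
      generalize E x i3 0 = d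
      rcases hchar with ⟨hc, h⟩ | ⟨hc, h⟩ | ⟨hc, h⟩
      · rw [hc]
        linear_combination (2 * (a + b + c + d)) * h
      · rw [hc]
        linear_combination (5 * (a + b + c + d) * (a ^ 2 + b ^ 2 + c ^ 2 + d ^ 2) +
          7 * (a + b + c + d) * (a * b + a * c + a * d + b * c + b * d + c * d)) * h
      · rw [hc]
        linear_combination (2 * (a + b + c + d) ^ 2) * h
  -- the moved vector
  let u : ι → F := vS E 0 {i0}
  have hu : ∀ i, E u i 0 = if i = i0 then 1 else 0 := by
    intro i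
    rw [E_vS]; simp
  have huD : u ∈ D i0 := by
    rw [hE]
    intro j hj
    funext k
    rw [Subsingleton.elim k 0, hu, if_neg hj]; rfl
  have hφu : φ u = 1 := by
    rw [hφ, hu, hu, hu, hu, if_pos rfl, if_neg h01.symm, if_neg h02.symm, if_neg h03.symm]; ring
  have hgu1 : E ((g : Matrix ι ι F) *ᵥ u) i1 ≠ 0 := by
    intro h
    have := congrFun h 0
    rw [hg, hφu, one_smul, map_add, Pi.add_apply, Pi.add_apply, hu, if_neg h01.symm, zero_add, hv i1 mem1] at this
    exact one_ne_zero this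
  have hgu2 : E ((g : Matrix ι ι F) *ᵥ u) i2 ≠ 0 := by
    intro h
    have := congrFun h 0
    rw [hg, hφu, one_smul, map_add, Pi.add_apply, Pi.add_apply, hu, if_neg h02.symm, zero_add, hv i2 mem2] at this
    exact one_ne_zero this
  have fin : ∀ r : GL ι F, r ∈ wtGroup E → (r : Matrix ι ι F) *ᵥ u = u →
      g * r ∈ Cfsg.Geo.specialLinear ι F → False := by
    intro r hr hru hdet
    have h1 : g * r ∈ wtGroup E ⊓ Cfsg.Geo.specialLinear ι F := ⟨(wtGroup E).mul_mem hgw hr, hdet⟩
    rw [← heq] at h1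
    refine not_mem_stab D E hE (g * r) i0 u huD i1 i2 h12 ?_ ?_ h1.1
    · rw [Units.val_mul, ← Matrix.mulVec_mulVec, hru]; exact hgu1
    · rw [Units.val_mul, ← Matrix.mulVec_mulVec, hru]; exact hgu2
  by_cases h2 : (1 : F) + 1 = 0
  · apply fin 1 (Subgroup.one_mem _) (by rw [Units.val_one, Matrix.one_mulVec])
    rw [mul_one]
    change Matrix.GeneralLinearGroup.det g = 1
    apply Units.ext
    rw [hgdet, hφv, Units.val_one]
    linear_combination (2 : F) * h2
  · have h3 : (1 : F) + 1 + 1 = 0 ∧ Fintype.card F = 3 := by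
      rcases hchar with ⟨-, h⟩ | ⟨-, h⟩ | ⟨h', h⟩
      · exact absurd h h2
      · exact absurd h h2
      · exact ⟨h, h'⟩
    have hcf : cf E i4 0 (vS E 0 {i4}) = 1 := by
      rw [cf_apply, E_vS]; simp
    obtain ⟨r, hrdet, hr⟩ := exists_gl (cf E i4 0) (vS E 0 {i4}) (by rw [hcf]; exact h2)
    apply fin r
    · intro x
      rw [wt_one, wt_one]
      apply Finset.sum_congr rfl
      intro i _
      rw [hr, map_add, map_smul, Pi.add_apply, Pi.add_apply, Pi.smul_apply, Pi.smul_apply, E_vS, cf_apply, h3.2]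
      by_cases hi : i = i4
      · subst hi
        rw [if_pos ⟨Finset.mem_singleton_self _, rfl⟩, smul_eq_mul]
        linear_combination (E x i4 0) ^ 2 * h3.1
      · rw [if_neg (fun h => hi (Finset.mem_singleton.1 h.1)), smul_zero, add_zero]
    · rw [hr, cf_apply, hu, if_neg h04.symm, zero_smul, add_zero]
    · change Matrix.GeneralLinearGroup.det (g * r) = 1
      apply Units.ext
      rw [map_mul, Units.val_mul, hgdet, hrdet, hφv, hcf, Units.val_one]
      linear_combination (3 : F) * h3.1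

/-- the case `m = 2` -/
theorem case_two [Fintype F] {t : ℕ} (D : Fin t → Submodule F (ι → F)) (E : (ι → F) ≃ₗ[F] (Fin t → Fin 2 → F))
    (hE : ∀ i x, x ∈ D i ↔ ∀ j, j ≠ i → E x j = 0) (ht : 5 ≤ t) (hq : Fintype.card F = 2) :
    Cfsg.Geo.decompositionStabilizer D ⊓ Cfsg.Geo.specialLinear ι F < wtGroup E ⊓ Cfsg.Geo.specialLinear ι F := by
  classical
  refine lt_of_le_of_ne (inf_le_inf_right _ (stab_le_wtGroup D E hE)) ?_
  intro heq
  let i0 : Fin t := ⟨0, by omega⟩
  let i1 : Fin t := ⟨1, by omega⟩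
  let i2 : Fin t := ⟨2, by omega⟩
  have h01 : i0 ≠ i1 := by intro h; have := congrArg Fin.val h; simp [i0, i1] at this
  have h02 : i0 ≠ i2 := by intro h; have := congrArg Fin.val h; simp [i0, i2] at this
  have h12 : i1 ≠ i2 := by intro h; have := congrArg Fin.val h; simp [i1, i2] at this
  let S : Finset (Fin t) := {i0, i1, i2}
  have hsumS : ∀ f : Fin t → F, ∑ i ∈ S, f i = f i0 + f i1 + f i2 := by
    intro f
    rw [Finset.sum_insert, Finset.sum_insert, Finset.sum_singleton]
    · ring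
    · simpa using h12
    · simp only [Finset.mem_insert, Finset.mem_singleton, not_or]; exact ⟨h01, h02⟩
  let φ : (ι → F) →ₗ[F] F := ∑ i ∈ S, cf E i 1
  have hφ : ∀ x, φ x = E x i0 1 + E x i1 1 + E x i2 1 := by
    intro x
    rw [LinearMap.sum_apply, hsumS]
    rfl
  have mem0 : i0 ∈ S := by simp [S]
  have mem1 : i1 ∈ S := by simp [S]
  have mem2 : i2 ∈ S := by simp [S]
  let v := vS E 0 S
  have hv0 : ∀ i, i ∈ S → E v i 0 = 1 := by
    intro i hi
    rw [E_vS, if_pos ⟨hi, rfl⟩]
  have hv1 : ∀ i, E v i 1 = 0 := by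
    intro i
    rw [E_vS, if_neg (fun h => absurd h.2 (by decide))]
  have hv' : ∀ i, i ∉ S → E v i 0 = 0 := by
    intro i hi
    rw [E_vS, if_neg (fun h => hi h.1)]
  have hφv : φ v = 0 := by
    rw [hφ, hv1, hv1, hv1, add_zero, add_zero]
  have h2 : (1 : F) + 1 = 0 := by
    rcases two_elts hq ((1 : F) + 1) with h | h
    · exact h
    · exact absurd (add_eq_left.1 h) one_ne_zero
  obtain ⟨g, hgdet, hg⟩ := exists_sl φ v hφv
  have hgw : g ∈ wtGroup E := by
    intro x
    rw [wt_two hq, wt_two hq]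
    have hval : ∀ i k, E ((g : Matrix ι ι F) *ᵥ x) i k = E x i k + φ x * E v i k := by
      intro i k
      rw [hg, map_add, map_smul]; rfl
    apply sum_split S
    · intro i hi
      simp only [hval, hv' i hi, hv1, mul_zero, add_zero]
    · rw [hsumS, hsumS]
      simp only [hval, hv0 i0 mem0, hv0 i1 mem1, hv0 i2 mem2, hv1, hφ]
      generalize E x i0 0 = a
      generalize E x i1 0 = b
      generalize E x i2 0 = c
      generalize E x i0 1 = a'
      generalize E x i1 1 = b'
      generalize E x i2 1 = c'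
      linear_combination ((a + b + c) * (a' + b' + c') + 2 * (a' + b' + c') ^ 2) * h2
  -- the moved vector
  let u : ι → F := vS E 1 {i0}
  have huD : u ∈ D i0 := by
    rw [hE]
    intro j hj
    funext k
    rw [E_vS, if_neg (fun h => hj (Finset.mem_singleton.1 h.1))]; rfl
  have hφu : φ u = 1 := by
    rw [hφ, E_vS, E_vS, E_vS, if_pos ⟨Finset.mem_singleton_self _, rfl⟩, if_neg (fun h => h01 (Finset.mem_singleton.1 h.1).symm),
      if_neg (fun h => h02 (Finset.mem_singleton.1 h.1).symm)]; ring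
  have hgu1 : E ((g : Matrix ι ι F) *ᵥ u) i1 ≠ 0 := by
    intro h
    have := congrFun h 0
    rw [hg, hφu, one_smul, map_add, Pi.add_apply, Pi.add_apply, E_vS,
      if_neg (fun h => h01 (Finset.mem_singleton.1 h.1).symm), zero_add, hv0 i1 mem1] at this
    exact one_ne_zero this
  have hgu2 : E ((g : Matrix ι ι F) *ᵥ u) i2 ≠ 0 := by
    intro h
    have := congrFun h 0
    rw [hg, hφu, one_smul, map_add, Pi.add_apply, Pi.add_apply, E_vS,
      if_neg (fun h => h02 (Finset.mem_singleton.1 h.1).symm), zero_add, hv0 i2 mem2] at this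
    exact one_ne_zero this
  have h1 : g ∈ wtGroup E ⊓ Cfsg.Geo.specialLinear ι F := ⟨hgw, hgdet⟩
  rw [← heq] at h1
  exact not_mem_stab D E hE g i0 u huD i1 i2 h12 hgu1 hgu2 h1.1

/-- `S5635` -/
theorem decomposition_not_maximal [Fintype F] (n : ℕ) (hn : 13 ≤ n) {t : ℕ} (m : ℕ)
    (D : Fin t → Submodule F (Fin n → F)) (hD : Cfsg.Geo.IsMDecomposition m D)
    (h : (m = 1 ∧ Fintype.card F ≤ 4) ∨ (m = 2 ∧ Fintype.card F = 2)) :
    ∃ K : Subgroup (Matrix.GeneralLinearGroup (Fin n) F),
      Cfsg.Geo.decompositionStabilizer D ⊓ Cfsg.Geo.specialLinear (Fin n) F < K ∧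
      K < Cfsg.Geo.specialLinear (Fin n) F := by
  obtain ⟨E, hE⟩ := exists_coord D hD
  have hdim : n = t * m := by
    have h1 := E.finrank_eq
    rw [Module.finrank_fin_fun, Module.finrank_pi_fintype] at h1
    simpa using h1
  have ht := hD.two_le
  rcases h with ⟨rfl, hq⟩ | ⟨rfl, hq⟩
  · exact ⟨wtGroup E ⊓ Cfsg.Geo.specialLinear (Fin n) F, case_one D E hE (by omega) hq, wt_lt E ht hD.pos⟩
  · exact ⟨wtGroup E ⊓ Cfsg.Geo.specialLinear (Fin n) F, case_two D E hE (by omega) hq, wt_lt E ht hD.pos⟩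

end Cfsg.Agent.Lib.DecompStab
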