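import Cfsg.Agent.Lib.AschAdj7
import Cfsg.Agent.Lib.DecompStab
import Cfsg.Agent.Lib.AschComp
import Cfsg.Agent.Lib.AschLinear
set_option autoImplicit false
set_option linter.style.haveILetI false
set_option linter.unusedVariables false
set_option linter.unusedSectionVars false

/-!
Aschbacher's theorem, unitary case: bridge to `hermForm`, preliminary facts.
-/

namespace Cfsg.Agent.Lib.AschAdj

open Cfsg Cfsg.Geo Cfsg.Agent.Lib.AschMU Cfsg.Agent.Lib.AschCore Cfsg.Agent.Lib.AschField Cfsg.Agent.Lib.AschAlg
  Cfsg.Agent.Lib.AschGroup Cfsg.Agent.Lib.AschGood Cfsg.Agent.Lib.AschNonab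
open scoped Matrix MatrixGroups Kronecker

/-- An alternating invertible matrix has even size. -/
lemma even_of_alt {ι : Type} [Fintype ι] [DecidableEq ι] {F : Type*} [Field F] {A : Matrix ι ι F} (hA : IsUnit A)
    (hT : Aᵀ = -A) (hd : ∀ i, A i i = 0) : Even (Fintype.card ι) := by
  classical
  by_contra hodd
  rw [Nat.not_even_iff_odd] at hodd
  have hent : ∀ i j, A j i = - A i j := fun i j => congrFun (congrFun hT i) j
  have hdet : A.det = 0 := by
    rw [Matrix.det_apply]
    refine Finset.sum_involution (fun π _ => π⁻¹) ?_ ?_ ?_ ?_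
    · intro π _
      have h1 : ∏ i, A (π⁻¹ i) i = ∏ i, A i (π i) := by
        rw [← Equiv.prod_comp π]
        simp
      rw [Equiv.Perm.sign_inv, h1]
      have h2 : ∏ i, A (π i) i = (-1) ^ Fintype.card ι * ∏ i, A i (π i) := by
        rw [← Finset.card_univ, ← Finset.prod_const, ← Finset.prod_mul_distrib]
        refine Finset.prod_congr rfl fun i _ => ?_
        rw [hent i (π i)]; ring
      rw [h2, hodd.neg_one_pow, neg_one_mul, smul_neg, neg_add_cancel]
    · intro π _ hne heq
      have h1 : π * π = 1 := by
        have := congrArg (fun x => x * π) heq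
        simpa using this.symm
      apply hne
      -- fixed point
      obtain ⟨i, hi⟩ : ∃ i, π i = i := by
        by_contra hcon
        push Not at hcon
        have h2 : π.support = Finset.univ := by
          ext i; simp [Equiv.Perm.mem_support, hcon i]
        have h3 : 2 ∣ π.support.card := Equiv.Perm.two_dvd_card_support (by rw [pow_two]; exact h1)
        rw [h2, Finset.card_univ] at h3
        exact (Nat.not_even_iff_odd.2 hodd) (even_iff_two_dvd.2 h3)
      rw [Finset.prod_eq_zero (Finset.mem_univ i) (by rw [hi]; exact hd i), smul_zero]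
    · intro π _; exact Finset.mem_univ _
    · intro π _; exact inv_inv π
  rw [Matrix.isUnit_iff_isUnit_det, hdet] at hA
  exact not_isUnit_zero hA

section general
variable {ι : Type} [Fintype ι] [DecidableEq ι] {F : Type*} [Field F]
variable {σ : F ≃+* F} {ε : F} {G : Matrix ι ι F}

lemma card_of_decomp {t m : ℕ} {D : Fin t → Submodule F (ι → F)} (hD : IsMDecomposition m D) : t * m = Fintype.card ι := by
  obtain ⟨E, -⟩ := DecompStab.exists_coord D hD
  have := E.finrank_eq
  rw [Module.finrank_fintype_fun_eq_card, Module.finrank_pi_fintype] at this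
  simp only [Module.finrank_fintype_fun_eq_card, Fintype.card_fin, Finset.sum_const, Finset.card_univ, smul_eq_mul] at this
  exact this.symm

/-- A pair of complementary subspaces of the same dimension is a decomposition. -/
lemma isMDecomp_pair {W W' : Submodule F (ι → F)} (hc : IsCompl W W') (hpos : 0 < Module.finrank F W)
    (heq : Module.finrank F W = Module.finrank F W') : IsMDecomposition (Module.finrank F W) ![W, W'] where
  two_le := le_rfl
  pos := hpos
  finrank_eq := by intro i; fin_cases i; · rfl
                   · exact heq.symm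
  indep := by
    intro i
    fin_cases i
    · refine hc.disjoint.mono_right (iSup_le fun j => iSup_le fun hj => ?_)
      fin_cases j
      · exact absurd rfl hj
      · exact le_rfl
    · refine hc.disjoint.symm.mono_right (iSup_le fun j => iSup_le fun hj => ?_)
      fin_cases j
      · exact le_rfl
      · exact absurd rfl hj
  iSup_eq_top := by
    rw [eq_top_iff, ← hc.sup_eq_top]
    exact sup_le (le_iSup ![W, W'] 0) (le_iSup ![W, W'] 1)

/-- The form in a reindexed basis. -/
lemma bf_reindex {κ : Type} [Fintype κ] [DecidableEq κ] (e : ι ≃ κ) (M : Matrix κ κ F) (x y : κ → F) :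
    bf σ (Matrix.reindex e.symm e.symm M) (x ∘ e) (y ∘ e) = formOfGram σ M x y := by
  unfold bf formOfGram
  simp only [dotProduct, Matrix.mulVec, Matrix.reindex_apply, Equiv.symm_symm, Matrix.submatrix_apply, Function.comp_apply]
  rw [← Equiv.sum_comp e]
  refine Finset.sum_congr rfl fun i _ => ?_
  rw [← Equiv.sum_comp e (fun b => x (e i) * M (e i) b * σ (y b)), Finset.mul_sum]
  refine Finset.sum_congr rfl fun j _ => ?_
  rw [mul_assoc]

/-- The degree of an adjoint closed field is odd when `σ` is non-trivial. -/
theorem odd_of_adjClosed [Fintype F] [Nonempty ι] (h : RF σ ε G) (hne : σ ≠ RingEquiv.refl F) {r : ℕ} (hr : r.Prime)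
    {K : Subalgebra F (Matrix ι ι F)} (hK : IsFieldSubalgebra r K) (hA : AdjClosed σ G K) : Odd r := by
  classical
  rcases hr.eq_two_or_odd' with h2 | h2
  swap
  · exact h2
  exfalso
  subst h2
  haveI : Nontrivial (Matrix ι ι F) := inferInstance
  haveI : Finite (Matrix ι ι F) := inferInstanceAs (Finite (ι → ι → F))
  haveI : Finite K := Finite.of_injective (fun a : K => (a : Matrix ι ι F)) Subtype.coe_injective
  letI cr : CommRing K := { (inferInstance : Ring K) with mul_comm := fun a b => Subtype.ext (hK.comm a a.2 b b.2) }
  have hfield : IsField K :=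
    { exists_pair_ne := ⟨0, 1, zero_ne_one⟩
      mul_comm := mul_comm
      mul_inv_cancel := by
        intro a ha
        obtain ⟨y, hy, hay⟩ := hK.inv a a.2 (fun h0 => ha (Subtype.ext h0))
        exact ⟨⟨y, hy⟩, Subtype.ext hay⟩ }
  letI fl : Field K := hfield.toField
  let τf : K → K := fun a => ⟨adj σ G a, hA a a.2⟩
  have hτinv : ∀ a, τf (τf a) = a := fun a => Subtype.ext (adj_adj h a)
  let τ : K ≃+* K :=
    { toFun := τf
      invFun := τf
      left_inv := hτinv
      right_inv := hτinv
      map_mul' := fun a b => Subtype.ext (by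
        show adj σ G ((a : Matrix ι ι F) * b) = adj σ G a * adj σ G b
        rw [adj_mul h]
        exact hK.comm _ (hA b b.2) _ (hA a a.2))
      map_add' := fun a b => Subtype.ext (adj_add _ _) }
  have hτalg : ∀ c : F, τ (algebraMap F K c) = algebraMap F K (σ c) := by
    intro c
    apply Subtype.ext
    show adj σ G ((algebraMap F K c : K) : Matrix ι ι F) = ((algebraMap F K (σ c) : K) : Matrix ι ι F)
    have hc : ∀ c : F, ((algebraMap F K c : K) : Matrix ι ι F) = c • (1 : Matrix ι ι F) := fun c => Algebra.algebraMap_eq_smul_one c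
    rw [hc, hc, adj_smul, adj_one h]
  have hinj : Function.Injective (algebraMap F K) := (algebraMap F K).injective
  have hτne : τ ≠ RingEquiv.refl K := by
    intro h0
    apply hne
    apply RingEquiv.ext
    intro c
    have h1 := hτalg c
    rw [h0] at h1
    exact (hinj h1).symm
  have hcard := card_fx (σ := τ) hτinv hτne
  have hcardK : Nat.card K = Nat.card F ^ 2 := by
    have := Module.natCard_eq_pow_finrank (K := F) (V := K)
    rw [hK.finrank_eq] at this
    exact this
  rw [hcardK] at hcard
  have h3 : Nat.card F = Nat.card (fx τ) := Nat.pow_left_injective (n := 2) (by norm_num) hcard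
  have h4 : Nat.card ((algebraMap F K).fieldRange) = Nat.card F := by
    exact (Nat.card_congr (Equiv.ofInjective _ hinj)).symm
  have h5 : (algebraMap F K).fieldRange = fx τ := subfield_eq_of_card (by rw [h4, h3])
  apply hne
  apply RingEquiv.ext
  intro c
  have h6 : algebraMap F K c ∈ fx τ := by rw [← h5]; exact ⟨c, rfl⟩
  rw [mem_fx, hτalg] at h6
  exact hinj h6

end general

end Cfsg.Agent.Lib.AschAdj
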