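import Cfsg.Agent.Lib.AschAdj8
set_option autoImplicit false
set_option linter.style.haveILetI false
set_option linter.unusedVariables false
set_option linter.unusedSectionVars false

/-!
Aschbacher's theorem, unitary case: the refined list of cases.
-/

namespace Cfsg.Agent.Lib.AschAdj

open Cfsg Cfsg.Geo Cfsg.Agent.Lib.AschMU Cfsg.Agent.Lib.AschCore Cfsg.Agent.Lib.AschField Cfsg.Agent.Lib.AschAlg
  Cfsg.Agent.Lib.AschGroup Cfsg.Agent.Lib.AschGood Cfsg.Agent.Lib.AschNonab
open scoped Matrix MatrixGroups Kronecker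

/-- The refined list of cases for a subgroup `H` of `GU_n(q)`. -/
inductive UCase (n : ℕ) {F : Type*} [Field F] [Fintype F] (q : ℕ) (H : Subgroup (GL (Fin n) F)) : Prop
  | c1a (W : Submodule F (Fin n → F)) (h0 : W ≠ ⊥) (hs : IsTotallySingularFor (hermForm n F q) W) (hle : H ≤ subspaceStabilizer W)
  | c1b (W : Submodule F (Fin n → F)) (h0 : W ≠ ⊥) (hs : IsNondegenerateOn (hermForm n F q) W) (hd : 2 * Module.finrank F W < n)
      (hle : H ≤ subspaceStabilizer W)
  | c2a (t k : ℕ) (D : Fin t → Submodule F (Fin n → F)) (htk : t * k = n) (hD : IsNondegenerateMDecomposition (hermForm n F q) k D)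
      (hle : H ≤ decompositionStabilizer D)
  | c2b (k : ℕ) (D : Fin 2 → Submodule F (Fin n → F)) (hk : 2 * k = n) (hD : IsMDecomposition k D)
      (hs : ∀ i, IsTotallySingularFor (hermForm n F q) (D i)) (hle : H ≤ decompositionStabilizer D)
  | c3 (r : ℕ) (K : Subalgebra F (Matrix (Fin n) (Fin n) F)) (hr : r.Prime) (hodd : Odd r) (hrn : r ∣ n) (hK : IsFieldSubalgebra r K)
      (hadj : IsAdjointClosedFor (hermForm n F q) K) (hle : H ≤ subalgebraNormalizer K)
  | c4 (n₁ n₂ : ℕ) (e : Fin n ≃ Fin n₁ × Fin n₂) (P : GL (Fin n) F)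
      (f₁ : (Fin n₁ → F) → (Fin n₁ → F) → F) (f₂ : (Fin n₂ → F) → (Fin n₂ → F) → F)
      (h2 : 2 ≤ n₁) (hlt : n₁ < n₂) (hn : n₁ * n₂ = n) (h₁ : IsUnitaryFormPow q f₁) (h₂ : IsUnitaryFormPow q f₂)
      (hst : IsTensorFormStructure (fun x : F => x ^ q) (hermForm n F q) f₁ f₂ e P) (hle : H ≤ tensorProductSubgroup n₁ n₂ e P)
  | c5a (F₀ : Subfield F) (r : ℕ) (P : GL (Fin n) F) (hr : r.Prime) (hodd : Odd r) (hc : Fintype.card F = Nat.card F₀ ^ r)
      (hst : IsFormRationalStructure (hermForm n F q) F₀ 1 P) (hle : H ≤ subfieldSubgroup F₀ P)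
  | c5b (F₀ : Subfield F) (P : GL (Fin n) F) (hq : Odd q) (hc : Fintype.card F = Nat.card F₀ ^ 2)
      (hst : IsFormRationalStructure (hermForm n F q) F₀ 1 P) (hle : H ≤ subfieldSubgroup F₀ P)
  | c5c (F₀ : Subfield F) (P : GL (Fin n) F) (ζ : F) (hn : Even n) (hc : Fintype.card F = Nat.card F₀ ^ 2) (hζ : ζ ≠ 0)
      (hζq : ζ + ζ ^ q = 0) (hst : IsFormRationalStructure (hermForm n F q) F₀ ζ P)
      (halt : ∀ u : Fin n → F, (∀ i, u i ∈ F₀) → (hermForm n F q) ((P : Matrix (Fin n) (Fin n) F) *ᵥ u) ((P : Matrix (Fin n) (Fin n) F) *ᵥ u) = 0)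
      (hle : H ≤ subfieldSubgroup F₀ P)
  | c6 (r : ℕ) (R : Subgroup (GL (Fin n) F)) (p e k : ℕ) (hsy : IsSymplecticTypeGroup r R)
      (hirr : ActsAbsolutelyIrreducibly (matrixSet R)) (hRG : R ≤ GU n F q) (hrp : r ≠ p) (hnk : n = r ^ k) (hk : 1 ≤ k)
      (hmin : IsMinimalFieldFor (Nat.card (Subgroup.center R)) p e F)
      (hcases : (Odd r ∧ Nat.card (Subgroup.center R) = r ∧ Nat.card R = r ^ (1 + 2 * k)) ∨
       (r = 2 ∧ e = 2 ∧ Nat.card (Subgroup.center R) = 4 ∧ Nat.card R = 2 ^ (2 + 2 * k)))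
      (hle : H ≤ subgroupNormalizer R)
  | c7 (k t : ℕ) (e : Fin n ≃ (Fin t → Fin k)) (P : GL (Fin n) F) (f₁ : (Fin k → F) → (Fin k → F) → F)
      (hk : 3 ≤ k) (ht : 2 ≤ t) (hkt : k ^ t = n) (hex : ¬ (q = 2 ∧ k = 3)) (h₁ : IsUnitaryFormPow q f₁)
      (hst : IsTensorPowerFormStructure (fun x : F => x ^ q) (hermForm n F q) f₁ e P) (hle : H ≤ tensorWreathSubgroup k t e P)
  | exc (hq : q = 2) (ρ : Fin n ≃ Fin 3 × Fin 3) (P : GL (Fin n) F)
      (hst : ∀ u v : Fin n → F, hermForm n F q ((P : Matrix (Fin n) (Fin n) F) *ᵥ u) ((P : Matrix (Fin n) (Fin n) F) *ᵥ v) = hermForm n F q u v)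
      (hle : H ≤ tensorProductSubgroup 3 3 ρ P)
  | res (h : InUnitaryResidualClass H)

lemma dot_mem {ι : Type} [Fintype ι] [DecidableEq ι] {F : Type*} [Field F] (F₀ : Subfield F) (u v : ι → F) (A : Matrix ι ι F)
    (hu : ∀ i, u i ∈ F₀) (hA : ∀ i j, A i j ∈ F₀) (hv : ∀ i, v i ∈ F₀) : u ⬝ᵥ (A *ᵥ v) ∈ F₀ := by
  simp only [dotProduct, Matrix.mulVec]
  exact sum_mem fun i _ => mul_mem (hu i) (sum_mem fun j _ => mul_mem (hA i j) (hv j))

section unitary
variable {F : Type*} [Field F] [Fintype F] {n q : ℕ} (hF : Fintype.card F = q ^ 2)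

/-- The automorphism `x ↦ x^q`. -/
noncomputable def sg : F ≃+* F :=
  RingEquiv.ofBijective (UnBridge.sig hF) ⟨(UnBridge.sig hF).injective, Finite.injective_iff_surjective.1 (UnBridge.sig hF).injective⟩

lemma sg_apply (x : F) : sg hF x = x ^ q := UnBridge.sig_apply hF x

lemma sg_inv (x : F) : sg hF (sg hF x) = x := UnBridge.sig_inv hF x

lemma sg_ne : sg hF ≠ RingEquiv.refl F := by
  intro h
  obtain ⟨x, hx⟩ := UnBridge.sig_ne hF
  apply hx
  have := congrArg (fun τ : F ≃+* F => τ x) h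
  exact this

lemma rf_one {ι : Type} [Fintype ι] [DecidableEq ι] : RF (sg hF) 1 (1 : Matrix ι ι F) where
  inv := sg_inv hF
  unit := isUnit_one
  refl := by rw [Matrix.transpose_one, map_one', one_smul]
  eps := Or.inl rfl

lemma bf_one (u v : Fin n → F) : bf (sg hF) 1 u v = hermForm n F q u v := by
  unfold bf hermForm
  rw [Matrix.one_mulVec]
  simp only [dotProduct, sg_apply]

lemma herm_eq : hermForm n F q = bf (sg hF) (1 : Matrix (Fin n) (Fin n) F) := by
  funext u v; rw [bf_one]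

lemma mem_GU {g : GL (Fin n) F} : g ∈ GU n F q ↔ IsIso (sg hF) 1 g := by
  rw [isIso_iff (rf_one hF)]
  simp only [bf_one]
  exact Iff.rfl

include hF

lemma one_lt_q : 1 < q := UnBridge.one_lt_q hF

lemma odd_q (h2 : (2 : F) ≠ 0) : Odd q := by
  by_contra hcon
  rw [Nat.not_odd_iff_even] at hcon
  have h1 : (Fintype.card F : F) = 0 := Nat.cast_card_eq_zero F
  rw [hF] at h1
  obtain ⟨p, hchar⟩ := CharP.exists F
  have h3 : p ∣ q ^ 2 := (CharP.cast_eq_zero_iff F p _).1 h1
  obtain ⟨e, hp, hcard⟩ := FiniteField.card F p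
  rw [hF] at hcard
  have h4 : 2 ∣ p ^ (e : ℕ) := by
    rw [← hcard]
    exact dvd_pow (even_iff_two_dvd.1 hcon) (by norm_num)
  have h5 : 2 ∣ p := Nat.Prime.dvd_of_dvd_pow Nat.prime_two h4
  have h6 : p = 2 := ((Nat.prime_dvd_prime_iff_eq Nat.prime_two hp).1 h5).symm
  subst h6
  apply h2
  have := CharP.cast_eq_zero F 2
  exact_mod_cast this

/-- Reducible subgroups. -/
theorem ucase_red {H : Subgroup (GL (Fin n) F)} (hH : H ≤ GU n F q) (hred : ¬ ActsIrreducibly (matrixSet H)) : UCase n q H := by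
  have hI : ∀ g ∈ H, IsIso (sg hF) 1 g := fun g hg => (mem_GU hF).1 (hH hg)
  rcases red_cases (rf_one hF) hI hred with ⟨W, hWb, hWt, hs, hinv⟩ | ⟨W, W', hWb, hWb', hc, horth, hn, hn', hinv, hinv'⟩
  · exact UCase.c1a W hWb (by rw [herm_eq hF]; exact hs) (le_subspaceStabilizer hinv)
  · have hdim := Submodule.finrank_add_eq_of_isCompl hc
    rw [Module.finrank_fintype_fun_eq_card, Fintype.card_fin] at hdim
    rcases lt_trichotomy (2 * Module.finrank F W) n with h1 | h1 | h1
    · exact UCase.c1b W hWb (by rw [herm_eq hF]; exact hn) h1 (le_subspaceStabilizer hinv)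
    · have hpos : 0 < Module.finrank F W := by
        rw [pos_iff_ne_zero, Ne, Submodule.finrank_eq_zero]; exact hWb
      refine UCase.c2a 2 (Module.finrank F W) ![W, W'] h1 ⟨isMDecomp_pair hc hpos (by omega), ?_, ?_⟩ ?_
      · intro i
        rw [herm_eq hF]
        fin_cases i
        · exact hn
        · exact hn'
      · intro i j hij
        rw [herm_eq hF]
        fin_cases i <;> fin_cases j
        · exact absurd rfl hij
        · exact horth
        · intro u hu v hv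
          exact bf_eq_zero_comm (rf_one hF) (horth v hv u hu)
        · exact absurd rfl hij
      · intro g hg
        refine ⟨Equiv.refl _, fun i => ?_⟩
        have key : ∀ U : Submodule F (Fin n → F), (∀ g ∈ H, ∀ w ∈ U, (g : Matrix (Fin n) (Fin n) F) *ᵥ w ∈ U) →
            U.map (Matrix.toLin' (g : Matrix (Fin n) (Fin n) F)) = U := by
          intro U hU
          apply le_antisymm
          · rintro _ ⟨w, hw, rfl⟩
            rw [Matrix.toLin'_apply]; exact hU g hg w hw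
          · intro w hw
            refine ⟨((g⁻¹ : GL (Fin n) F) : Matrix (Fin n) (Fin n) F) *ᵥ w, hU g⁻¹ (H.inv_mem hg) w hw, ?_⟩
            rw [Matrix.toLin'_apply, gl_mulVec_inv]
        fin_cases i
        · exact key W hinv
        · exact key W' hinv'
    · exact UCase.c1b W' hWb' (by rw [herm_eq hF]; exact hn') (by omega) (le_subspaceStabilizer hinv')

/-- Adapted idempotent families. -/
theorem ucase_idem {H : Subgroup (GL (Fin n) F)} (hirr : ActsIrreducibly (matrixSet H)) {t : ℕ} {e : Fin t → Matrix (Fin n) (Fin n) F}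
    (hf : FIdem (sg hF) 1 H e) : UCase n q H := by
  rcases hf.star with hs | ⟨ht, hs⟩
  · have hD := hf.nondeg (rf_one hF) hs hirr
    rw [← herm_eq hF] at hD
    have := card_of_decomp hD.decomp
    rw [Fintype.card_fin] at this
    exact UCase.c2a t _ _ this hD (hf.decomp hirr).2
  · subst ht
    have hD := (hf.decomp hirr).1
    have := card_of_decomp hD
    rw [Fintype.card_fin] at this
    refine UCase.c2b _ _ this hD (fun i => ?_) (hf.decomp hirr).2
    rw [herm_eq hF]
    exact hf.singular (rf_one hF) hs i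

theorem ucase_field {H : Subgroup (GL (Fin n) F)} (hn : 1 ≤ n) {r : ℕ} {K : Subalgebra F (Matrix (Fin n) (Fin n) F)} (hr : r.Prime)
    (hrn : r ∣ Fintype.card (Fin n)) (hK : IsFieldSubalgebra r K) (hle : H ≤ subalgebraNormalizer K) (hA : AdjClosed (sg hF) 1 K) :
    UCase n q H := by
  haveI : Nonempty (Fin n) := ⟨⟨0, hn⟩⟩
  rw [Fintype.card_fin] at hrn
  refine UCase.c3 r K hr (odd_of_adjClosed (rf_one hF) (sg_ne hF) hr hK hA) hrn hK ?_ hle
  rw [herm_eq hF]
  exact isAdjointClosedFor (rf_one hF) hA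

/-- Index two subfields. -/
theorem ucase_rat2 {H : Subgroup (GL (Fin n) F)} (h : Rat2 (sg hF) 1 H) : UCase n q H := by
  classical
  obtain ⟨P, hP, hcase⟩ := h
  have hcard : Fintype.card F = Nat.card (fx (sg hF)) ^ 2 := by
    rw [← Nat.card_eq_fintype_card]; exact card_fx (sg_inv hF) (sg_ne hF)
  have hgr : ∀ u v : Fin n → F, hermForm n F q ((P : Matrix (Fin n) (Fin n) F) *ᵥ u) ((P : Matrix (Fin n) (Fin n) F) *ᵥ v) =
      bf (sg hF) (gr (sg hF) 1 P) u v := by
    intro u v; rw [herm_eq hF, bf_gr]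
  have hσfix : ∀ v : Fin n → F, (∀ i, v i ∈ fx (sg hF)) → (fun i => sg hF (v i)) = v := by
    intro v hv; funext i; exact hv i
  rcases hcase with ⟨h2, hfix⟩ | ⟨hfix, hT, hd⟩
  · refine UCase.c5b (fx (sg hF)) P (odd_q hF h2) hcard ?_ hP
    intro u v hu hv
    rw [one_mul, hgr]
    unfold bf
    rw [hσfix v hv]
    exact dot_mem _ _ _ _ hu hfix hv
  · obtain ⟨θ, hθ⟩ := exists_ne (sg_ne hF)
    set ζ := θ - sg hF θ with hζ
    have hζ0 : ζ ≠ 0 := sub_ne_zero.2 (Ne.symm hθ)
    have hζσ : sg hF ζ = -ζ := by rw [hζ, map_sub, sg_inv]; ring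
    refine UCase.c5c (fx (sg hF)) P ζ ?_ hcard hζ0 ?_ ?_ ?_ hP
    · have := even_of_alt ((rf_one hF).gr P).unit hT hd
      rwa [Fintype.card_fin] at this
    · rw [← sg_apply hF, hζσ, add_neg_cancel]
    · intro u v hu hv
      rw [hgr]
      unfold bf
      rw [hσfix v hv]
      have h3 : ζ * (u ⬝ᵥ (gr (sg hF) 1 P *ᵥ v)) = ∑ i, u i * ∑ j, (ζ * gr (sg hF) 1 P i j) * v j := by
        simp only [dotProduct, Matrix.mulVec, Finset.mul_sum]
        refine Finset.sum_congr rfl fun i _ => Finset.sum_congr rfl fun j _ => ?_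
        ring
      rw [h3]
      refine sum_mem fun i _ => mul_mem (hu i) (sum_mem fun j _ => mul_mem ?_ (hv j))
      rw [mem_fx, map_mul, hfix, hζσ, neg_mul_neg]
    · intro u hu
      rw [hgr]
      unfold bf
      rw [hσfix u hu]
      -- alternating
      set A := gr (sg hF) 1 P
      have h3 : ∑ i, ∑ j, u i * A i j * u j = 0 := by
        rw [← Finset.sum_product']
        refine Finset.sum_involution (fun p _ => (p.2, p.1)) ?_ ?_ ?_ ?_
        · rintro ⟨i, j⟩ _
          have : A j i = - A i j := congrFun (congrFun hT i) j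
          simp only [this]; ring
        · rintro ⟨i, j⟩ _ hne heq
          apply hne
          have hij : j = i := congrArg Prod.fst heq
          subst hij
          simp only
          rw [hd j]; ring
        · rintro p _; exact Finset.mem_univ _
        · rintro ⟨i, j⟩ _; rfl
      rw [← h3]
      simp only [dotProduct, Matrix.mulVec, Finset.mul_sum, mul_assoc]

/-- Realisable over a proper subfield. -/
theorem ucase_real (hn : 2 ≤ n) {L H : Subgroup (GL (Fin n) F)} (hL : ActsAbsolutelyIrreducibly (matrixSet L)) (hLI : L ≤ GU n F q)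
    (hI : H ≤ GU n F q) (hnorm : NormBy H L) {F₀ : Subfield F} (hF₀ : F₀ ≠ ⊤) (hreal : RealisableOver F₀ (matrixSet L)) : UCase n q H := by
  obtain ⟨F₁, r, hle, hr, hc⟩ := Cfsg.Agent.Lib.AschSubfield.exists_prime_index F₀ hF₀
  have hreal' := Cfsg.Agent.Lib.AschSubfield.realisableOver_mono hle hreal
  have hLI' : ∀ g ∈ L, IsIso (sg hF) 1 g := fun g hg => (mem_GU hF).1 (hLI hg)
  have hI' : ∀ g ∈ H, IsIso (sg hF) 1 g := fun g hg => (mem_GU hF).1 (hI hg)
  rcases hr.eq_two_or_odd' with h2 | h2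
  · subst h2
    exact ucase_rat2 hF (rat2_of_realisable (rf_one hF) (sg_ne hF) (by rw [Fintype.card_fin]; exact hn) hL hLI' hI' hnorm
      (by rw [Nat.card_eq_fintype_card]; exact hc) hreal')
  · obtain ⟨P, hP, hent⟩ := ratodd_of_realisable (rf_one hF) (sg_ne hF) (by rw [Fintype.card_fin]; omega) hL hLI' hnorm h2
      (by rw [Nat.card_eq_fintype_card]; exact hc) hreal'
    refine UCase.c5a F₁ r P hr h2 hc ?_ hP
    intro u v hu hv
    rw [one_mul, herm_eq hF, bf_gr]
    exact dot_mem _ _ _ _ hu hent (fun j => subfield_stable F₁ (sg hF) (hv j))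

end unitary

end Cfsg.Agent.Lib.AschAdj
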