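import Cfsg.Agent.Lib.AschField

/-!
Aschbacher's theorem, core part 3: a subalgebra with scalar centre normalised by an irreducible group is a full
matrix algebra; tensor decompositions.
-/

set_option autoImplicit false

namespace Cfsg.Agent.Lib.AschAlg

open Cfsg Cfsg.Geo Cfsg.Agent.Lib.AschMU Cfsg.Agent.Lib.AschCore Cfsg.Agent.Lib.AschField
open scoped Matrix MatrixGroups Kronecker

/-- A finite-dimensional semisimple algebra over a finite field whose centre is the base field is a matrix algebra. -/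
theorem exists_algEquiv_of_center {F A : Type*} [Field F] [Finite F] [Ring A] [Algebra F A] [Module.Finite F A]
    [Nontrivial A] [IsSemisimpleRing A] (hc : ∀ x : A, (∀ y, x * y = y * x) → ∃ c : F, x = algebraMap F A c) :
    ∃ d : ℕ, d ≠ 0 ∧ Nonempty (Matrix (Fin d) (Fin d) F ≃ₐ[F] A) := by
  classical
  obtain ⟨n, D, d, hD, hAl, hfin, hd, ⟨e⟩⟩ := IsSemisimpleRing.exists_algEquiv_pi_matrix_divisionRing_finite F A
  have hn : n ≠ 0 := by
    rintro rfl
    have : Subsingleton A := e.toEquiv.subsingleton_congr.2 inferInstance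
    exact not_subsingleton A this
  have hone : ∀ i j : Fin n, i = j := by
    intro i j
    by_contra hij
    let z : A := e.symm (Pi.single i 1)
    have hz : ∀ y, z * y = y * z := by
      intro y
      apply e.injective
      rw [map_mul, map_mul, AlgEquiv.apply_symm_apply]
      funext k
      by_cases hk : k = i
      · subst hk; simp
      · simp [hk]
    obtain ⟨c, hcz⟩ := hc z hz
    have h1 : e z = algebraMap F _ c := by rw [hcz]; exact e.commutes c
    rw [AlgEquiv.apply_symm_apply] at h1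
    have hi := congrFun h1 i
    have hj := congrFun h1 j
    rw [Pi.single_eq_same] at hi
    rw [Pi.single_eq_of_ne (Ne.symm hij)] at hj
    have hj' : (algebraMap F (Matrix (Fin (d j)) (Fin (d j)) (D j))) c = 0 := by
      rw [hj]; rfl
    have hc0 : c = 0 := by
      have := hd j
      by_contra hc0
      have h2 : (algebraMap F (Matrix (Fin (d j)) (Fin (d j)) (D j))) (c⁻¹ * c) = 0 := by
        rw [map_mul, hj', mul_zero]
      rw [inv_mul_cancel₀ hc0, map_one] at h2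
      exact one_ne_zero h2
    rw [hc0, map_zero] at hi
    have := hd i
    exact one_ne_zero hi
  let i₀ : Fin n := ⟨0, Nat.pos_of_ne_zero hn⟩
  have := hd i₀
  let D₀ := D i₀
  let φ : A →ₐ[F] Matrix (Fin (d i₀)) (Fin (d i₀)) D₀ :=
    (Pi.evalAlgHom F (fun i => Matrix (Fin (d i)) (Fin (d i)) (D i)) i₀).comp e.toAlgHom
  have hφ : Function.Bijective φ := by
    constructor
    · intro x y hxy
      apply e.injective
      funext k
      obtain rfl := hone i₀ k
      exact hxy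
    · intro y
      refine ⟨e.symm (fun k => (hone i₀ k) ▸ y), ?_⟩
      show (e (e.symm _)) i₀ = y
      rw [AlgEquiv.apply_symm_apply]
  let e₁ : A ≃ₐ[F] Matrix (Fin (d i₀)) (Fin (d i₀)) D₀ := AlgEquiv.ofBijective φ hφ
  have hDfin : Finite D₀ := Module.finite_of_finite F
  have hcommD : ∀ x y : D₀, x * y = y * x := by
    intro x y
    let _ := littleWedderburn D₀
    exact mul_comm x y
  have hsurj : Function.Surjective (algebraMap F D₀) := by
    intro x
    have hz : ∀ y, e₁.symm (Matrix.scalar (Fin (d i₀)) x) * y = y * e₁.symm (Matrix.scalar (Fin (d i₀)) x) := by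
      intro y
      apply e₁.injective
      rw [map_mul, map_mul, AlgEquiv.apply_symm_apply]
      ext a b
      simp [Matrix.scalar_apply, Matrix.diagonal_mul, Matrix.mul_diagonal, hcommD x]
    obtain ⟨c, hcz⟩ := hc _ hz
    refine ⟨c, ?_⟩
    have h1 : Matrix.scalar (Fin (d i₀)) x = algebraMap F _ c := by
      rw [← AlgEquiv.apply_symm_apply e₁ (Matrix.scalar (Fin (d i₀)) x), hcz]
      exact e₁.commutes c
    have h2 := congrFun (congrFun h1 0) 0
    simp [Matrix.scalar_apply, Matrix.algebraMap_matrix_apply] at h2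
    exact h2.symm
  let e₂ : F ≃ₐ[F] D₀ := AlgEquiv.ofBijective (Algebra.ofId F D₀) ⟨(algebraMap F D₀).injective, hsurj⟩
  exact ⟨d i₀, NeZero.ne _, ⟨(e₂.mapMatrix).trans e₁.symm⟩⟩

variable {ι : Type} [Fintype ι] [DecidableEq ι] {F : Type*} [Field F]

/-- Conjugation restricted to a normalised subalgebra. -/
def cjRes {A : Subalgebra F (Matrix ι ι F)} {g : GL ι F} (hg : g ∈ subalgebraNormalizer A) : A →ₐ[F] A :=
  ((cj g).toAlgHom.comp A.val).codRestrict A (fun x => ((mem_subalgebraNormalizer.1 hg) x).1 x.2)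

theorem cjRes_coe {A : Subalgebra F (Matrix ι ι F)} {g : GL ι F} (hg : g ∈ subalgebraNormalizer A) (x : A) :
    ((cjRes hg x : A) : Matrix ι ι F) = cj g x := rfl

theorem cjRes_surjective {A : Subalgebra F (Matrix ι ι F)} {g : GL ι F} (hg : g ∈ subalgebraNormalizer A) :
    Function.Surjective (cjRes hg) := by
  intro y
  refine ⟨⟨cj g⁻¹ y, ?_⟩, Subtype.ext (cj_cj_inv g y)⟩
  rw [(mem_subalgebraNormalizer.1 hg), cj_cj_inv]
  exact y.2

/-- A subalgebra normalised by an irreducible group is semisimple. -/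
theorem isSemisimpleRing_of_irr [Finite F] [Nonempty ι] {H : Subgroup (GL ι F)} (hH : ActsIrreducibly (matrixSet H))
    {A : Subalgebra F (Matrix ι ι F)} (hA : H ≤ subalgebraNormalizer A) : IsSemisimpleRing A := by
  classical
  have hfinM : Finite (Matrix ι ι F) := inferInstanceAs (Finite (ι → ι → F))
  have hfin : Finite A := Finite.of_injective (fun a : A => (a : Matrix ι ι F)) Subtype.coe_injective
  have : IsArtinianRing A := inferInstance
  rw [IsArtinianRing.isSemisimpleRing_iff_jacobson]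
  obtain ⟨k, hk⟩ : IsNilpotent (Ring.jacobson A) := IsSemiprimaryRing.isNilpotent
  by_contra hne
  have hex : ∃ k, Ring.jacobson A ^ k = ⊥ := ⟨k, hk⟩
  let k₀ := Nat.find hex
  have hk₀ : Ring.jacobson A ^ k₀ = ⊥ := Nat.find_spec hex
  have hk₀pos : k₀ ≠ 0 := by
    intro h0
    rw [h0, Submodule.pow_zero, Ideal.one_eq_top] at hk₀
    apply hne
    rw [eq_bot_iff, ← hk₀]; exact le_top
  have hk₁ : Ring.jacobson A ^ (k₀ - 1) ≠ ⊥ := Nat.find_min hex (by omega)
  obtain ⟨y, hy, hy0⟩ := Submodule.exists_mem_ne_zero_of_ne_bot hk₁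
  have hprod : ∀ z : A, z ∈ Ring.jacobson A → z * y = 0 := by
    intro z hz
    have : z * y ∈ Ring.jacobson A ^ k₀ := by
      have h1 : k₀ = (k₀ - 1) + 1 := by omega
      rw [h1, Ideal.IsTwoSided.pow_succ]
      exact Ideal.mul_mem_mul hz hy
    rw [hk₀] at this
    exact this
  let W : Submodule F (ι → F) :=
    { carrier := {v | ∀ z : A, z ∈ Ring.jacobson A → (z : Matrix ι ι F) *ᵥ v = 0}
      add_mem' := fun {a b} ha hb z hz => by rw [Matrix.mulVec_add, ha z hz, hb z hz, add_zero]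
      zero_mem' := fun z _ => Matrix.mulVec_zero _
      smul_mem' := fun c v hv z hz => by rw [Matrix.mulVec_smul, hv z hz, smul_zero] }
  rcases irr_cases hH W (by
    intro h hh w hw z hz
    have hn : h⁻¹ ∈ subalgebraNormalizer A := hA (inv_mem hh)
    have hs : RingHomSurjective (cjRes hn).toRingHom := ⟨cjRes_surjective hn⟩
    have h1 := Ring.le_comap_jacobson (cjRes hn).toRingHom hz
    have h2 := hw _ h1
    have h3 : ((cjRes hn z : A) : Matrix ι ι F) *ᵥ w = 0 := h2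
    rw [cjRes_coe] at h3
    rw [← cj_cj_inv h z, cj_mulVec, h3, Matrix.mulVec_zero]) with h1 | h1
  · apply hy0
    apply Subtype.ext
    apply mulVec_eq_zero_of_rng_bot
    intro v
    have : (y : Matrix ι ι F) *ᵥ v ∈ W := by
      intro z hz
      have h3 : (z : Matrix ι ι F) * (y : Matrix ι ι F) = 0 := congrArg Subtype.val (hprod z hz)
      rw [Matrix.mulVec_mulVec, h3, Matrix.zero_mulVec]
    rw [h1] at this
    exact this
  · apply hne
    rw [eq_bot_iff]
    intro x hx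
    rw [Ideal.mem_bot]
    apply Subtype.ext
    apply mulVec_eq_zero_of_rng_bot
    intro v
    have : v ∈ W := by rw [h1]; trivial
    exact this x hx

/-- A subalgebra with scalar centre normalised by an irreducible group is a full matrix algebra. -/
theorem exists_algEquiv_matrix [Finite F] [Nonempty ι] {H : Subgroup (GL ι F)} (hH : ActsIrreducibly (matrixSet H))
    {A : Subalgebra F (Matrix ι ι F)} (hA : H ≤ subalgebraNormalizer A)
    (hc : ∀ x ∈ A, (∀ y ∈ A, x * y = y * x) → ∃ c : F, x = c • (1 : Matrix ι ι F)) :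
    ∃ d : ℕ, d ≠ 0 ∧ Nonempty (Matrix (Fin d) (Fin d) F ≃ₐ[F] A) := by
  have := isSemisimpleRing_of_irr hH hA
  apply exists_algEquiv_of_center
  intro x hx
  obtain ⟨c, hcx⟩ := hc x x.2 (fun y hy => congrArg Subtype.val (hx ⟨y, hy⟩))
  refine ⟨c, Subtype.ext ?_⟩
  rw [hcx, Subalgebra.coe_algebraMap, Algebra.algebraMap_eq_smul_one]

/-! ### Tensor decompositions -/

/-- The standard embedding of `M_d` in `M_ι` for `ι ≃ Fin d × κ`. -/
def kronL {d e : ℕ} (σ : ι ≃ Fin d × Fin e) (x : Matrix (Fin d) (Fin d) F) (y : Matrix (Fin e) (Fin e) F) : Matrix ι ι F :=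
  Matrix.reindex σ.symm σ.symm (x ⊗ₖ y)

omit [DecidableEq ι] in
theorem kronL_mul {d e : ℕ} (σ : ι ≃ Fin d × Fin e) (x x' : Matrix (Fin d) (Fin d) F) (y y' : Matrix (Fin e) (Fin e) F) :
    kronL σ x y * kronL σ x' y' = kronL σ (x * x') (y * y') := by
  simp only [kronL, Matrix.reindex_apply, Equiv.symm_symm, Matrix.mul_kronecker_mul]
  rw [Matrix.submatrix_mul_equiv]

omit [Fintype ι] in
theorem kronL_one {d e : ℕ} (σ : ι ≃ Fin d × Fin e) :
    kronL σ (1 : Matrix (Fin d) (Fin d) F) (1 : Matrix (Fin e) (Fin e) F) = 1 := by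
  simp [kronL]

theorem mem_tensorProductSubgroup {n₁ n₂ : ℕ} {e : ι ≃ Fin n₁ × Fin n₂} {P g : GL ι F} :
    g ∈ tensorProductSubgroup n₁ n₂ e P ↔ ∃ (a : GL (Fin n₁) F) (b : GL (Fin n₂) F),
      (g : Matrix ι ι F) = (P : Matrix ι ι F) * kronL e (a : Matrix (Fin n₁) (Fin n₁) F) (b : Matrix (Fin n₂) (Fin n₂) F) *
        ((P⁻¹ : GL ι F) : Matrix ι ι F) := by
  constructor
  · rintro ⟨_, ⟨k, ⟨a, b, hk⟩, rfl⟩, rfl⟩
    refine ⟨a, b, ?_⟩
    show (P : Matrix ι ι F) * (Matrix.reindexAlgEquiv F F e.symm (k : Matrix _ _ F)) * ((P⁻¹ : GL ι F) : Matrix ι ι F) = _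
    rw [hk]
    rfl
  · rintro ⟨a, b, hg⟩
    have hinv : (a : Matrix (Fin n₁) (Fin n₁) F) ⊗ₖ (b : Matrix (Fin n₂) (Fin n₂) F) *
        (((a⁻¹ : GL (Fin n₁) F) : Matrix (Fin n₁) (Fin n₁) F) ⊗ₖ ((b⁻¹ : GL (Fin n₂) F) : Matrix (Fin n₂) (Fin n₂) F)) = 1 := by
      rw [← Matrix.mul_kronecker_mul, gl_mul_inv, gl_mul_inv, Matrix.one_kronecker_one]
    have hinv' : (((a⁻¹ : GL (Fin n₁) F) : Matrix (Fin n₁) (Fin n₁) F) ⊗ₖ ((b⁻¹ : GL (Fin n₂) F) : Matrix (Fin n₂) (Fin n₂) F)) *
        ((a : Matrix (Fin n₁) (Fin n₁) F) ⊗ₖ (b : Matrix (Fin n₂) (Fin n₂) F)) = 1 := by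
      rw [← Matrix.mul_kronecker_mul, gl_inv_mul, gl_inv_mul, Matrix.one_kronecker_one]
    refine ⟨_, ⟨⟨_, _, hinv, hinv'⟩, ⟨a, b, rfl⟩, rfl⟩, ?_⟩
    apply Units.ext
    rw [hg]
    rfl

omit [DecidableEq ι] in
/-- The commutant of `M_d ⊗ 1`. -/
theorem exists_kronL_of_commute {d e : ℕ} (hd : d ≠ 0) (σ : ι ≃ Fin d × Fin e) {y : Matrix ι ι F}
    (hy : ∀ x : Matrix (Fin d) (Fin d) F, y * kronL σ x 1 = kronL σ x 1 * y) :
    ∃ b : Matrix (Fin e) (Fin e) F, y = kronL σ 1 b := by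
  have h0 : 0 < d := Nat.pos_of_ne_zero hd
  let z : Fin d := ⟨0, h0⟩
  refine ⟨fun k l => y (σ.symm (z, k)) (σ.symm (z, l)), ?_⟩
  ext i j
  obtain ⟨⟨i₁, i₂⟩, rfl⟩ := σ.symm.surjective i
  obtain ⟨⟨j₁, j₂⟩, rfl⟩ := σ.symm.surjective j
  have key : ∀ a b : Fin d, ∀ i₁ j₁ : Fin d, ∀ i₂ j₂ : Fin e,
      (if j₁ = b then y (σ.symm (i₁, i₂)) (σ.symm (a, j₂)) else 0)
        = (if i₁ = a then y (σ.symm (b, i₂)) (σ.symm (j₁, j₂)) else 0) := by
    intro a b i₁ j₁ i₂ j₂
    have h := congrFun (congrFun (hy (Matrix.single a b 1)) (σ.symm (i₁, i₂))) (σ.symm (j₁, j₂))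
    rw [Matrix.mul_apply, Matrix.mul_apply] at h
    rw [← Equiv.sum_comp σ.symm, ← Equiv.sum_comp σ.symm] at h
    simp only [kronL, Matrix.reindex_apply, Equiv.symm_symm, Matrix.submatrix_apply, Equiv.apply_symm_apply,
      Matrix.kroneckerMap_apply, Matrix.single_apply, Matrix.one_apply] at h
    rw [Fintype.sum_prod_type, Fintype.sum_prod_type] at h
    rw [Finset.sum_eq_single a, Finset.sum_eq_single j₂, Finset.sum_eq_single b, Finset.sum_eq_single i₂] at h
    · by_cases h1 : j₁ = b <;> by_cases h2 : i₁ = a <;> simp_all [eq_comm]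
    · intro c _ hc; rw [if_neg (Ne.symm hc)]; simp
    · intro h; exact absurd (Finset.mem_univ _) h
    · intro c _ hc; apply Finset.sum_eq_zero; intro c' _
      rw [if_neg (fun h => hc h.2.symm)]; simp
    · intro h; exact absurd (Finset.mem_univ _) h
    · intro c _ hc; rw [if_neg hc]; simp
    · intro h; exact absurd (Finset.mem_univ _) h
    · intro c _ hc; apply Finset.sum_eq_zero; intro c' _
      rw [if_neg (fun h => hc h.1.symm)]; simp
    · intro h; exact absurd (Finset.mem_univ _) h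
  have hR : kronL σ (1 : Matrix (Fin d) (Fin d) F) (fun k l => y (σ.symm (z, k)) (σ.symm (z, l)))
      (σ.symm (i₁, i₂)) (σ.symm (j₁, j₂)) = (if i₁ = j₁ then 1 else 0) * y (σ.symm (z, i₂)) (σ.symm (z, j₂)) := by
    simp only [kronL, Matrix.reindex_apply, Equiv.symm_symm, Matrix.submatrix_apply, Equiv.apply_symm_apply]
    rfl
  rw [hR]
  by_cases h : i₁ = j₁
  · subst h
    rw [if_pos rfl, one_mul]
    have := key i₁ z i₁ z i₂ j₂
    rw [if_pos rfl, if_pos rfl] at this
    exact this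
  · rw [if_neg h, zero_mul]
    have := key j₁ z i₁ z i₂ j₂
    rw [if_pos rfl, if_neg h] at this
    exact this

/-- If `A ≅ M_d(F)` then everything normalising `A` lies in the tensor product subgroup. -/
theorem exists_tensorProductSubgroup [Nonempty ι] {A : Subalgebra F (Matrix ι ι F)} {d e : ℕ} (hd : d ≠ 0)
    (φ : Matrix (Fin d) (Fin d) F ≃ₐ[F] A) (σ : ι ≃ Fin d × Fin e) :
    ∃ P : GL ι F, (∀ x, (φ x : Matrix ι ι F) = (P : Matrix ι ι F) * kronL σ x 1 * ((P⁻¹ : GL ι F) : Matrix ι ι F)) ∧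
      subalgebraNormalizer A ≤ tensorProductSubgroup d e σ P := by
  have : Nonempty (Fin d) := ⟨⟨0, Nat.pos_of_ne_zero hd⟩⟩
  obtain ⟨P, hP⟩ := exists_conj_algHom (A.val.comp φ.toAlgHom) σ
  have hP' : ∀ x, (φ x : Matrix ι ι F) = (P : Matrix ι ι F) * kronL σ x 1 * ((P⁻¹ : GL ι F) : Matrix ι ι F) := hP
  refine ⟨P, hP', fun g hg => ?_⟩
  obtain ⟨a, ha⟩ := exists_conj_algEnd ((φ.symm.toAlgHom.comp (cjRes hg)).comp φ.toAlgHom)
  have ha' : ∀ x, cj g (φ x : Matrix ι ι F) = (φ ((a : Matrix (Fin d) (Fin d) F) * x * ((a⁻¹ : GL (Fin d) F) : Matrix (Fin d) (Fin d) F)) : Matrix ι ι F) := by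
    intro x
    rw [← ha]
    show _ = ((φ (φ.symm (cjRes hg (φ x))) : A) : Matrix ι ι F)
    rw [AlgEquiv.apply_symm_apply]
    rfl
  -- y := P⁻¹ φ(a)⁻¹ g P commutes with everything in M_d ⊗ 1
  set y : Matrix ι ι F := kronL σ ((a⁻¹ : GL (Fin d) F) : Matrix (Fin d) (Fin d) F) 1 * (((P⁻¹ : GL ι F) : Matrix ι ι F) * (g : Matrix ι ι F) * (P : Matrix ι ι F)) with hy
  have hcomm : ∀ x : Matrix (Fin d) (Fin d) F, y * kronL σ x 1 = kronL σ x 1 * y := by
    intro x
    have h1 := ha' x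
    rw [hP', hP', cj_apply] at h1
    -- g P K(x) P⁻¹ g⁻¹ = P K(a x a⁻¹) P⁻¹
    have h2 : (((P⁻¹ : GL ι F) : Matrix ι ι F) * (g : Matrix ι ι F) * (P : Matrix ι ι F)) * kronL σ x 1
        = kronL σ ((a : Matrix (Fin d) (Fin d) F) * x * ((a⁻¹ : GL (Fin d) F) : Matrix (Fin d) (Fin d) F)) 1 * (((P⁻¹ : GL ι F) : Matrix ι ι F) * (g : Matrix ι ι F) * (P : Matrix ι ι F)) := by
      have h3 := congrArg (fun z => ((P⁻¹ : GL ι F) : Matrix ι ι F) * (z * ((g : Matrix ι ι F) * (P : Matrix ι ι F)))) h1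
      simp only [mul_assoc, gl_inv_mul_cancel_left, gl_inv_mul, mul_one] at h3
      simpa only [mul_assoc] using h3
    rw [hy, mul_assoc, h2, ← mul_assoc, kronL_mul, ← mul_assoc (kronL σ x 1), kronL_mul]
    simp only [mul_assoc, gl_inv_mul_cancel_left, one_mul]
  obtain ⟨b, hb⟩ := exists_kronL_of_commute hd σ hcomm
  have hgP : ((P⁻¹ : GL ι F) : Matrix ι ι F) * (g : Matrix ι ι F) * (P : Matrix ι ι F) = kronL σ (a : Matrix (Fin d) (Fin d) F) b := by
    have h4 : kronL σ (a : Matrix (Fin d) (Fin d) F) 1 * y = ((P⁻¹ : GL ι F) : Matrix ι ι F) * (g : Matrix ι ι F) * (P : Matrix ι ι F) := by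
      rw [hy, ← mul_assoc, kronL_mul, gl_mul_inv, mul_one, kronL_one, one_mul]
    rw [← h4, hb, kronL_mul, mul_one, one_mul]
  have hgval : (g : Matrix ι ι F) = (P : Matrix ι ι F) * kronL σ (a : Matrix (Fin d) (Fin d) F) b * ((P⁻¹ : GL ι F) : Matrix ι ι F) := by
    rw [← hgP]
    simp only [mul_assoc, gl_mul_inv_cancel_left]
    rw [gl_mul_inv, mul_one]
  -- b is invertible
  have hbdet : b.det ≠ 0 := by
    intro hb0
    have h5 : (kronL σ (a : Matrix (Fin d) (Fin d) F) b).det = 0 := by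
      rw [kronL, Matrix.det_reindex_self, Matrix.det_kronecker, hb0]
      simp [hd]
    have h6 : (g : Matrix ι ι F).det = 0 := by
      rw [hgval, Matrix.det_mul, Matrix.det_mul, h5]; simp
    have h7 : IsUnit (g : Matrix ι ι F).det := (Matrix.isUnit_iff_isUnit_det _).1 g.isUnit
    rw [h6] at h7
    exact not_isUnit_zero h7
  rw [mem_tensorProductSubgroup]
  refine ⟨a, Matrix.GeneralLinearGroup.mkOfDetNeZero b hbdet, ?_⟩
  rw [hgval]
  rfl

/-- Swapping the factors. -/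
theorem tensorProductSubgroup_swap {n₁ n₂ : ℕ} (e : ι ≃ Fin n₁ × Fin n₂) (P : GL ι F) :
    tensorProductSubgroup n₁ n₂ e P = tensorProductSubgroup n₂ n₁ (e.trans (Equiv.prodComm _ _)) P := by
  have hk : ∀ (a : Matrix (Fin n₁) (Fin n₁) F) (b : Matrix (Fin n₂) (Fin n₂) F),
      kronL e a b = kronL (e.trans (Equiv.prodComm _ _)) b a := by
    intro a b
    ext i j
    simp [kronL, mul_comm]
  ext g
  rw [mem_tensorProductSubgroup, mem_tensorProductSubgroup]
  constructor
  · rintro ⟨a, b, h⟩; exact ⟨b, a, by rw [h, hk]⟩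
  · rintro ⟨a, b, h⟩; exact ⟨b, a, by rw [h, ← hk]⟩

end Cfsg.Agent.Lib.AschAlg
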