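import Cfsg.Prelude.Def_GeometricClasses
import Cfsg.Agent.Lib.AschMU

/-!
Aschbacher's theorem, core part 1: commutative subalgebras of the matrix algebra normalised by an irreducible
group are scalar, or give an imprimitivity decomposition, or a field extension.
-/

set_option autoImplicit false

namespace Cfsg.Agent.Lib.AschCore

open Cfsg Cfsg.Geo Cfsg.Agent.Lib.AschMU
open scoped Matrix MatrixGroups

variable {ι : Type} [Fintype ι] [DecidableEq ι] {F : Type*} [Field F]

/-! ### Generalities -/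

theorem gl_inv_mul (g : GL ι F) : ((g⁻¹ : GL ι F) : Matrix ι ι F) * (g : Matrix ι ι F) = 1 := by
  rw [← Units.val_mul, inv_mul_cancel, Units.val_one]

theorem gl_mul_inv (g : GL ι F) : (g : Matrix ι ι F) * ((g⁻¹ : GL ι F) : Matrix ι ι F) = 1 := by
  rw [← Units.val_mul, mul_inv_cancel, Units.val_one]

theorem gl_inv_mul_cancel_left (g : GL ι F) (x : Matrix ι ι F) :
    ((g⁻¹ : GL ι F) : Matrix ι ι F) * ((g : Matrix ι ι F) * x) = x := by
  rw [← mul_assoc, gl_inv_mul, one_mul]

theorem gl_mul_inv_cancel_left (g : GL ι F) (x : Matrix ι ι F) :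
    (g : Matrix ι ι F) * (((g⁻¹ : GL ι F) : Matrix ι ι F) * x) = x := by
  rw [← mul_assoc, gl_mul_inv, one_mul]

theorem gl_mulVec_inv (g : GL ι F) (v : ι → F) :
    (g : Matrix ι ι F) *ᵥ (((g⁻¹ : GL ι F) : Matrix ι ι F) *ᵥ v) = v := by
  rw [Matrix.mulVec_mulVec, gl_mul_inv, Matrix.one_mulVec]

theorem gl_inv_mulVec (g : GL ι F) (v : ι → F) :
    ((g⁻¹ : GL ι F) : Matrix ι ι F) *ᵥ ((g : Matrix ι ι F) *ᵥ v) = v := by
  rw [Matrix.mulVec_mulVec, gl_inv_mul, Matrix.one_mulVec]

/-- Conjugation by `g` as an algebra automorphism of the matrix algebra. -/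
def cj (g : GL ι F) : Matrix ι ι F ≃ₐ[F] Matrix ι ι F :=
  AlgEquiv.ofAlgHom
    (AlgHom.ofLinearMap
      { toFun := fun x => (g : Matrix ι ι F) * x * ((g⁻¹ : GL ι F) : Matrix ι ι F)
        map_add' := fun x y => by rw [mul_add, add_mul]
        map_smul' := fun c x => by rw [Matrix.mul_smul, Matrix.smul_mul, RingHom.id_apply] }
      (by show (g : Matrix ι ι F) * 1 * _ = 1; rw [mul_one, gl_mul_inv])
      (by intro x y
          show (g : Matrix ι ι F) * (x * y) * ((g⁻¹ : GL ι F) : Matrix ι ι F)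
            = (g : Matrix ι ι F) * x * ((g⁻¹ : GL ι F) : Matrix ι ι F) * ((g : Matrix ι ι F) * y * ((g⁻¹ : GL ι F) : Matrix ι ι F))
          simp only [mul_assoc, gl_inv_mul_cancel_left]))
    (AlgHom.ofLinearMap
      { toFun := fun x => ((g⁻¹ : GL ι F) : Matrix ι ι F) * x * (g : Matrix ι ι F)
        map_add' := fun x y => by rw [mul_add, add_mul]
        map_smul' := fun c x => by rw [Matrix.mul_smul, Matrix.smul_mul, RingHom.id_apply] }
      (by show ((g⁻¹ : GL ι F) : Matrix ι ι F) * 1 * _ = 1; rw [mul_one, gl_inv_mul])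
      (by intro x y
          show ((g⁻¹ : GL ι F) : Matrix ι ι F) * (x * y) * (g : Matrix ι ι F)
            = ((g⁻¹ : GL ι F) : Matrix ι ι F) * x * (g : Matrix ι ι F) * (((g⁻¹ : GL ι F) : Matrix ι ι F) * y * (g : Matrix ι ι F))
          simp only [mul_assoc, gl_mul_inv_cancel_left]))
    (by
      apply AlgHom.ext; intro x
      show (g : Matrix ι ι F) * (((g⁻¹ : GL ι F) : Matrix ι ι F) * x * (g : Matrix ι ι F)) * ((g⁻¹ : GL ι F) : Matrix ι ι F) = x
      simp only [mul_assoc, gl_mul_inv_cancel_left]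
      rw [gl_mul_inv, mul_one])
    (by
      apply AlgHom.ext; intro x
      show ((g⁻¹ : GL ι F) : Matrix ι ι F) * ((g : Matrix ι ι F) * x * ((g⁻¹ : GL ι F) : Matrix ι ι F)) * (g : Matrix ι ι F) = x
      simp only [mul_assoc, gl_inv_mul_cancel_left]
      rw [gl_inv_mul, mul_one])

theorem cj_apply (g : GL ι F) (x : Matrix ι ι F) :
    cj g x = (g : Matrix ι ι F) * x * ((g⁻¹ : GL ι F) : Matrix ι ι F) := rfl

theorem cj_mul_apply (g h : GL ι F) (x : Matrix ι ι F) : cj (g * h) x = cj g (cj h x) := by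
  simp only [cj_apply, mul_inv_rev, Units.val_mul, mul_assoc]

theorem cj_inv_cj (g : GL ι F) (x : Matrix ι ι F) : cj g⁻¹ (cj g x) = x := by
  simp only [cj_apply, inv_inv, mul_assoc, gl_inv_mul_cancel_left]
  rw [gl_inv_mul, mul_one]

theorem cj_cj_inv (g : GL ι F) (x : Matrix ι ι F) : cj g (cj g⁻¹ x) = x := by
  simp only [cj_apply, inv_inv, mul_assoc, gl_mul_inv_cancel_left]
  rw [gl_mul_inv, mul_one]

theorem cj_coe (g h : GL ι F) : cj g (h : Matrix ι ι F) = ((g * h * g⁻¹ : GL ι F) : Matrix ι ι F) := by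
  simp only [cj_apply, Units.val_mul]

theorem cj_mulVec (g : GL ι F) (x : Matrix ι ι F) (v : ι → F) :
    cj g x *ᵥ ((g : Matrix ι ι F) *ᵥ v) = (g : Matrix ι ι F) *ᵥ (x *ᵥ v) := by
  rw [cj_apply, Matrix.mulVec_mulVec, Matrix.mulVec_mulVec, mul_assoc, gl_inv_mul, mul_one]

theorem mem_subalgebraNormalizer {K : Subalgebra F (Matrix ι ι F)} {g : GL ι F} :
    g ∈ subalgebraNormalizer K ↔ ∀ k, k ∈ K ↔ cj g k ∈ K := Iff.rfl

theorem mem_matrixSet {R : Subgroup (GL ι F)} {x : Matrix ι ι F} :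
    x ∈ matrixSet R ↔ ∃ g ∈ R, (g : Matrix ι ι F) = x := Iff.rfl

/-- If `H` normalises `E` elementwise in one direction then `H ≤ subalgebraNormalizer E`. -/
theorem le_subalgebraNormalizer {H : Subgroup (GL ι F)} {E : Subalgebra F (Matrix ι ι F)}
    (h : ∀ g ∈ H, ∀ k ∈ E, cj g k ∈ E) : H ≤ subalgebraNormalizer E := by
  intro g hg
  rw [mem_subalgebraNormalizer]
  intro k
  refine ⟨h g hg k, fun hk => ?_⟩
  have := h g⁻¹ (inv_mem hg) _ hk
  rwa [cj_inv_cj] at this

theorem cj_mem_of_le {H : Subgroup (GL ι F)} {E : Subalgebra F (Matrix ι ι F)}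
    (h : H ≤ subalgebraNormalizer E) {g : GL ι F} (hg : g ∈ H) {k : Matrix ι ι F} (hk : k ∈ E) : cj g k ∈ E :=
  ((mem_subalgebraNormalizer.1 (h hg)) k).1 hk

/-- Irreducibility, in terms of `mulVec`. -/
theorem irr_cases {H : Subgroup (GL ι F)} (hH : ActsIrreducibly (matrixSet H)) (W : Submodule F (ι → F))
    (hW : ∀ h ∈ H, ∀ w ∈ W, (h : Matrix ι ι F) *ᵥ w ∈ W) : W = ⊥ ∨ W = ⊤ := by
  apply hH W
  rintro _ ⟨h, hh, rfl⟩
  rintro _ ⟨w, hw, rfl⟩
  exact hW h hh w hw

/-- The range of a matrix. -/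
def rng (x : Matrix ι ι F) : Submodule F (ι → F) := LinearMap.range (Matrix.toLin' x)

theorem mem_rng {x : Matrix ι ι F} {v : ι → F} : v ∈ rng x ↔ ∃ w, x *ᵥ w = v := by
  simp only [rng, LinearMap.mem_range, Matrix.toLin'_apply]

theorem rng_eq_bot {x : Matrix ι ι F} : rng x = ⊥ ↔ x = 0 := by
  rw [rng, LinearMap.range_eq_bot]
  constructor
  · intro h; exact Matrix.toLin'.map_eq_zero_iff.1 h
  · rintro rfl; simp

theorem mulVec_eq_zero_of_rng_bot {x : Matrix ι ι F} (h : ∀ v, x *ᵥ v = 0) : x = 0 := by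
  rw [← rng_eq_bot, Submodule.eq_bot_iff]
  intro v hv
  obtain ⟨w, rfl⟩ := mem_rng.1 hv
  exact h w

theorem map_rng (g : GL ι F) (x : Matrix ι ι F) :
    (rng x).map (Matrix.toLin' (g : Matrix ι ι F)) = rng (cj g x) := by
  ext v
  rw [Submodule.mem_map, mem_rng]
  constructor
  · rintro ⟨w, hw, rfl⟩
    obtain ⟨u, rfl⟩ := mem_rng.1 hw
    exact ⟨(g : Matrix ι ι F) *ᵥ u, by rw [cj_mulVec, Matrix.toLin'_apply]⟩
  · rintro ⟨w, rfl⟩
    refine ⟨x *ᵥ (((g⁻¹ : GL ι F) : Matrix ι ι F) *ᵥ w), mem_rng.2 ⟨_, rfl⟩, ?_⟩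
    rw [Matrix.toLin'_apply, ← cj_mulVec, gl_mulVec_inv]

theorem toLin'_injective (g : GL ι F) : Function.Injective (Matrix.toLin' (g : Matrix ι ι F)) := by
  intro x y h
  simp only [Matrix.toLin'_apply] at h
  rw [← gl_inv_mulVec g x, h, gl_inv_mulVec]

theorem finrank_map_gl (g : GL ι F) (W : Submodule F (ι → F)) :
    Module.finrank F (W.map (Matrix.toLin' (g : Matrix ι ι F))) = Module.finrank F W :=
  (LinearEquiv.finrank_eq (Submodule.equivMapOfInjective _ (toLin'_injective g) W)).symm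

theorem finrank_rng_cj (g : GL ι F) (x : Matrix ι ι F) :
    Module.finrank F (rng (cj g x)) = Module.finrank F (rng x) := by
  rw [← map_rng, finrank_map_gl]

/-! ### Idempotent families -/

/-- A family of orthogonal non-zero idempotents with sum `1`. -/
structure IsIdemFamily {t : ℕ} (e : Fin t → Matrix ι ι F) : Prop where
  mul : ∀ i j, e i * e j = if i = j then e i else 0
  sum : ∑ i, e i = 1
  ne_zero : ∀ i, e i ≠ 0

theorem IsIdemFamily.mulVec_mem {t : ℕ} {e : Fin t → Matrix ι ι F} (he : IsIdemFamily e) {i : Fin t} {v : ι → F} :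
    v ∈ rng (e i) ↔ e i *ᵥ v = v := by
  rw [mem_rng]
  constructor
  · rintro ⟨w, rfl⟩
    rw [Matrix.mulVec_mulVec, he.mul, if_pos rfl]
  · intro h; exact ⟨v, h⟩

theorem IsIdemFamily.iSup_eq_top {t : ℕ} {e : Fin t → Matrix ι ι F} (he : IsIdemFamily e) :
    (⨆ i, rng (e i)) = ⊤ := by
  rw [eq_top_iff]
  intro v _
  have : v = ∑ i, e i *ᵥ v := by rw [← Matrix.sum_mulVec, he.sum, Matrix.one_mulVec]
  rw [this]
  exact Submodule.sum_mem _ fun i _ => Submodule.mem_iSup_of_mem i (mem_rng.2 ⟨_, rfl⟩)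

theorem IsIdemFamily.iSupIndep {t : ℕ} {e : Fin t → Matrix ι ι F} (he : IsIdemFamily e) :
    iSupIndep (fun i => rng (e i)) := by
  intro i
  rw [Submodule.disjoint_def]
  intro v hv hv'
  rw [he.mulVec_mem] at hv
  have hker : (⨆ j, ⨆ (_ : j ≠ i), rng (e j)) ≤ LinearMap.ker (Matrix.toLin' (e i)) := by
    refine iSup_le fun j => iSup_le fun hj => ?_
    intro w hw
    obtain ⟨u, rfl⟩ := mem_rng.1 hw
    rw [LinearMap.mem_ker, Matrix.toLin'_apply, Matrix.mulVec_mulVec, he.mul, if_neg (Ne.symm hj),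
      Matrix.zero_mulVec]
  have := hker hv'
  rw [LinearMap.mem_ker, Matrix.toLin'_apply, hv] at this
  exact this

/-- An idempotent family with ranges of equal dimension is a decomposition. -/
theorem IsIdemFamily.isMDecomposition {t m : ℕ} {e : Fin t → Matrix ι ι F} (he : IsIdemFamily e) (ht : 2 ≤ t)
    (hm : ∀ i, Module.finrank F (rng (e i)) = m) : IsMDecomposition m (fun i => rng (e i)) where
  two_le := ht
  pos := by
    rw [← hm ⟨0, by omega⟩]
    by_contra h
    have h0 : Module.finrank F (rng (e ⟨0, by omega⟩)) = 0 := by omega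
    rw [Submodule.finrank_eq_zero, rng_eq_bot] at h0
    exact he.ne_zero _ h0
  finrank_eq := hm
  indep := he.iSupIndep
  iSup_eq_top := he.iSup_eq_top

/-- If an irreducible group permutes the members of an idempotent family by conjugation then their ranges have
equal dimension. -/
theorem IsIdemFamily.finrank_eq_of_irr {t : ℕ} {e : Fin t → Matrix ι ι F} (he : IsIdemFamily e)
    {H : Subgroup (GL ι F)} (hH : ActsIrreducibly (matrixSet H))
    (hp : ∀ h ∈ H, ∃ π : Equiv.Perm (Fin t), ∀ i, cj h (e i) = e (π i)) (i j : Fin t) :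
    Module.finrank F (rng (e i)) = Module.finrank F (rng (e j)) := by
  classical
  set f : Matrix ι ι F := ∑ k ∈ Finset.univ.filter (fun k => Module.finrank F (rng (e k)) = Module.finrank F (rng (e i))), e k with hf
  have hfinv : ∀ h ∈ H, cj h f = f := by
    intro h hh
    obtain ⟨π, hπ⟩ := hp h hh
    rw [hf, map_sum]
    simp only [hπ]
    apply Finset.sum_bijective π π.bijective
    · intro k
      simp only [Finset.mem_filter, Finset.mem_univ, true_and]
      rw [← hπ k, finrank_rng_cj]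
    · intro k _; rfl
  have hmulf : ∀ k, e k * f = if Module.finrank F (rng (e k)) = Module.finrank F (rng (e i)) then e k else 0 := by
    intro k
    rw [hf, Finset.mul_sum]
    simp only [he.mul]
    rw [Finset.sum_ite_eq]
    simp
  rcases irr_cases hH (rng f) (by
    intro h hh w hw
    obtain ⟨u, rfl⟩ := mem_rng.1 hw
    rw [← cj_mulVec, hfinv h hh]
    exact mem_rng.2 ⟨_, rfl⟩) with h1 | h1
  · exfalso
    rw [rng_eq_bot] at h1
    have := hmulf i
    rw [h1, mul_zero, if_pos rfl] at this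
    exact he.ne_zero i this.symm
  · by_contra hne
    have h2 := hmulf j
    rw [if_neg (fun h => hne h.symm)] at h2
    apply he.ne_zero j
    apply mulVec_eq_zero_of_rng_bot
    intro v
    have hv : v ∈ rng f := by rw [h1]; trivial
    obtain ⟨u, rfl⟩ := mem_rng.1 hv
    rw [Matrix.mulVec_mulVec, h2, Matrix.zero_mulVec]

theorem IsIdemFamily.le_decompositionStabilizer {t : ℕ} {e : Fin t → Matrix ι ι F}
    {H : Subgroup (GL ι F)} (hp : ∀ h ∈ H, ∃ π : Equiv.Perm (Fin t), ∀ i, cj h (e i) = e (π i)) :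
    H ≤ decompositionStabilizer (fun i => rng (e i)) := by
  intro h hh
  obtain ⟨π, hπ⟩ := hp h hh
  exact ⟨π, fun i => by rw [map_rng, hπ]⟩

/-! ### Commutative subalgebras -/

/-- In a finite monoid every element has an idempotent positive power. -/
theorem exists_pow_idem {M : Type*} [Monoid M] [Finite M] (x : M) : ∃ n : ℕ, 0 < n ∧ x ^ n * x ^ n = x ^ n := by
  obtain ⟨a, b, hab, heq⟩ := Finite.exists_ne_map_eq_of_infinite (fun n : ℕ => x ^ (n + 1))
  wlog hlt : a < b generalizing a b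
  · exact this b a (Ne.symm hab) heq.symm (by omega)
  obtain ⟨d, rfl⟩ := Nat.exists_eq_add_of_lt hlt
  have key : ∀ k m, a + 1 ≤ m → x ^ (m + k * (d + 1)) = x ^ m := by
    intro k
    induction k with
    | zero => intro m _; simp
    | succ k ih =>
      intro m hm
      obtain ⟨c, rfl⟩ := Nat.exists_eq_add_of_le hm
      have h1 : a + 1 + c + (k + 1) * (d + 1) = (a + 1 + c + (d + 1)) + k * (d + 1) := by ring
      rw [h1, ih _ (by omega)]
      have h2 : a + 1 + c + (d + 1) = (a + d + 1 + 1) + c := by ring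
      rw [h2, pow_add, ← heq, ← pow_add]
  refine ⟨(a + 1) * (d + 1), by positivity, ?_⟩
  rw [← pow_add]
  apply key
  nlinarith

theorem isNilpotent_cj {g : GL ι F} {x : Matrix ι ι F} (hx : IsNilpotent x) : IsNilpotent (cj g x) := hx.map (cj g)

/-- A commutative subalgebra normalised by an irreducible group is reduced. -/
theorem eq_zero_of_isNilpotent [Finite F] {H : Subgroup (GL ι F)} (hH : ActsIrreducibly (matrixSet H))
    {E : Subalgebra F (Matrix ι ι F)} (hE : H ≤ subalgebraNormalizer E) (hcomm : ∀ x ∈ E, ∀ y ∈ E, x * y = y * x)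
    {x : Matrix ι ι F} (hx : x ∈ E) (hnil : IsNilpotent x) : x = 0 := by
  classical
  let _ : CommRing E := { (inferInstance : Ring E) with mul_comm := fun a b => Subtype.ext (hcomm a a.2 b b.2) }
  have hfin : Finite E := by
    have : Finite (Matrix ι ι F) := inferInstanceAs (Finite (ι → ι → F))
    exact Finite.of_injective (fun a : E => (a : Matrix ι ι F)) Subtype.coe_injective
  have : IsNoetherianRing E := inferInstance
  obtain ⟨k, hk⟩ := IsNoetherianRing.isNilpotent_nilradical E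
  by_contra hne
  have hxn : (⟨x, hx⟩ : E) ∈ nilradical E := by
    rw [mem_nilradical]
    obtain ⟨n, hn⟩ := hnil
    exact ⟨n, Subtype.ext (by simpa using hn)⟩
  have hex : ∃ k, nilradical E ^ k = ⊥ := ⟨k, hk⟩
  let k₀ := Nat.find hex
  have hk₀ : nilradical E ^ k₀ = ⊥ := Nat.find_spec hex
  have hk₀pos : k₀ ≠ 0 := by
    intro h0
    rw [h0, pow_zero, Ideal.one_eq_top] at hk₀
    apply hne
    have : (⟨x, hx⟩ : E) ∈ (⊥ : Ideal E) := by rw [← hk₀]; trivial
    rw [Ideal.mem_bot] at this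
    exact congrArg Subtype.val this
  have hk₁ : nilradical E ^ (k₀ - 1) ≠ ⊥ := Nat.find_min hex (by omega)
  obtain ⟨y, hy, hy0⟩ := Submodule.exists_mem_ne_zero_of_ne_bot hk₁
  have hprod : ∀ z : E, z ∈ nilradical E → z * y = 0 := by
    intro z hz
    have : z * y ∈ nilradical E ^ k₀ := by
      have h1 : k₀ = 1 + (k₀ - 1) := by omega
      rw [h1, pow_add, pow_one]
      exact Ideal.mul_mem_mul hz hy
    rw [hk₀] at this
    exact this
  let W : Submodule F (ι → F) :=
    { carrier := {v | ∀ z ∈ E, IsNilpotent z → z *ᵥ v = 0}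
      add_mem' := fun {a b} ha hb z hz hn => by rw [Matrix.mulVec_add, ha z hz hn, hb z hz hn, add_zero]
      zero_mem' := fun z _ _ => Matrix.mulVec_zero z
      smul_mem' := fun c v hv z hz hn => by rw [Matrix.mulVec_smul, hv z hz hn, smul_zero] }
  rcases irr_cases hH W (by
    intro h hh w hw z hz hn
    have h1 : cj h⁻¹ z ∈ E := cj_mem_of_le hE (inv_mem hh) hz
    have h2 := hw _ h1 (isNilpotent_cj hn)
    rw [← cj_cj_inv h z, cj_mulVec, h2, Matrix.mulVec_zero]) with h1 | h1
  · apply hy0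
    apply Subtype.ext
    apply mulVec_eq_zero_of_rng_bot
    intro v
    have : (y : Matrix ι ι F) *ᵥ v ∈ W := by
      intro z hz hn
      have h2 := hprod ⟨z, hz⟩ (by
        rw [mem_nilradical]
        obtain ⟨n, hn⟩ := hn
        exact ⟨n, Subtype.ext (by simpa using hn)⟩)
      have h3 : z * (y : Matrix ι ι F) = 0 := congrArg Subtype.val h2
      rw [Matrix.mulVec_mulVec, h3, Matrix.zero_mulVec]
    rw [h1] at this
    exact this
  · apply hne
    apply mulVec_eq_zero_of_rng_bot
    intro v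
    have : v ∈ W := by rw [h1]; trivial
    exact this x hx hnil

/-- Primitive idempotents of a subalgebra. -/
def IsPrim (E : Subalgebra F (Matrix ι ι F)) (e : Matrix ι ι F) : Prop :=
  e ∈ E ∧ e ≠ 0 ∧ e * e = e ∧ ∀ f ∈ E, f * f = f → f * e = 0 ∨ f * e = e

theorem IsPrim.cj {E : Subalgebra F (Matrix ι ι F)} {H : Subgroup (GL ι F)} (hE : H ≤ subalgebraNormalizer E)
    {h : GL ι F} (hh : h ∈ H) {e : Matrix ι ι F} (he : IsPrim E e) : IsPrim E (cj h e) := by
  obtain ⟨h1, h2, h3, h4⟩ := he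
  refine ⟨cj_mem_of_le hE hh h1, fun h0 => h2 ?_, by rw [← map_mul, h3], fun f hf hff => ?_⟩
  · rw [← cj_inv_cj h e, h0, map_zero]
  · have h5 : AschCore.cj h⁻¹ f ∈ E := cj_mem_of_le hE (inv_mem hh) hf
    rcases h4 _ h5 (by rw [← map_mul, hff]) with h6 | h6
    · left
      rw [← cj_cj_inv h f, ← map_mul, h6, map_zero]
    · right
      rw [← cj_cj_inv h f, ← map_mul, h6]

theorem exists_prim_le [Finite F] {E : Subalgebra F (Matrix ι ι F)} (hcomm : ∀ x ∈ E, ∀ y ∈ E, x * y = y * x)
    {g : Matrix ι ι F} (hg : g ∈ E) (hg0 : g ≠ 0) (hgg : g * g = g) : ∃ e, IsPrim E e ∧ e * g = e := by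
  classical
  have hfin : Finite (Matrix ι ι F) := inferInstanceAs (Finite (ι → ι → F))
  -- strong induction on the number of idempotents below g
  suffices H : ∀ n : ℕ, ∀ g ∈ E, g ≠ 0 → g * g = g →
      Set.ncard {f | f ∈ E ∧ f * f = f ∧ f * g = f} = n → ∃ e, IsPrim E e ∧ e * g = e from H _ g hg hg0 hgg rfl
  intro n
  induction n using Nat.strong_induction_on with
  | _ n ih =>
    intro g hg hg0 hgg hn
    by_cases hp : IsPrim E g
    · exact ⟨g, hp, hgg⟩
    · have : ∃ f ∈ E, f * f = f ∧ f * g ≠ 0 ∧ f * g ≠ g := by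
        by_contra hcon
        push_neg at hcon
        apply hp
        refine ⟨hg, hg0, hgg, fun f hf hff => ?_⟩
        by_cases h : f * g = 0
        · left; exact h
        · right; exact hcon f hf hff h
      obtain ⟨f, hf, hff, hfg0, hfg1⟩ := this
      have hfgE : f * g ∈ E := E.mul_mem hf hg
      have hidem : f * g * (f * g) = f * g := by
        calc f * g * (f * g) = f * (g * f) * g := by simp only [mul_assoc]
          _ = f * (f * g) * g := by rw [hcomm g hg f hf]
          _ = (f * f) * (g * g) := by simp only [mul_assoc]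
          _ = f * g := by rw [hff, hgg]
      have hfgg : f * g * g = f * g := by rw [mul_assoc, hgg]
      obtain ⟨e, he, heg⟩ := ih (Set.ncard {x | x ∈ E ∧ x * x = x ∧ x * (f * g) = x}) (by
        rw [← hn]
        apply Set.ncard_lt_ncard _ (Set.toFinite _)
        rw [Set.ssubset_iff_of_subset]
        · refine ⟨g, ⟨hg, hgg, hgg⟩, fun h => hfg1 ?_⟩
          have h2 : g * (f * g) = g := h.2.2
          rw [← mul_assoc, hcomm g hg f hf, mul_assoc, hgg] at h2
          exact h2
        · rintro x ⟨hx, hxx, hxf⟩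
          refine ⟨hx, hxx, ?_⟩
          rw [← hxf, mul_assoc, hfgg]) (f * g) hfgE hfg0 hidem rfl
      refine ⟨e, he, ?_⟩
      rw [← heg, mul_assoc, hfgg]

/-- **Commutative subalgebra lemma.** A commutative subalgebra normalised by an irreducible group either contains
a family of at least two orthogonal idempotents permuted by the group, or is a field. -/
theorem comm_cases [Finite F] [Nonempty ι] {H : Subgroup (GL ι F)} (hH : ActsIrreducibly (matrixSet H))
    {E : Subalgebra F (Matrix ι ι F)} (hE : H ≤ subalgebraNormalizer E) (hcomm : ∀ x ∈ E, ∀ y ∈ E, x * y = y * x) :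
    (∃ (t : ℕ) (e : Fin t → Matrix ι ι F), 2 ≤ t ∧ IsIdemFamily e ∧ (∀ i, IsPrim E (e i)) ∧
      (∀ x, IsPrim E x → ∃ i, x = e i) ∧
      ∀ h ∈ H, ∃ π : Equiv.Perm (Fin t), ∀ i, cj h (e i) = e (π i)) ∨
    (∀ x ∈ E, x ≠ 0 → ∃ y ∈ E, x * y = 1) := by
  classical
  have hfin : Finite (Matrix ι ι F) := inferInstanceAs (Finite (ι → ι → F))
  let S : Finset (Matrix ι ι F) := (Set.toFinite {e | IsPrim E e}).toFinset
  have hS : ∀ e, e ∈ S ↔ IsPrim E e := fun e => by simp [S]
  have horth : ∀ e f, IsPrim E e → IsPrim E f → e ≠ f → e * f = 0 := by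
    intro e f he hf hne
    rcases hf.2.2.2 e he.1 he.2.2.1 with h1 | h1
    · exact h1
    · rcases he.2.2.2 f hf.1 hf.2.2.1 with h2 | h2
      · rw [hcomm e he.1 f hf.1, h2]
      · exfalso; apply hne
        rw [← h2, hcomm f hf.1 e he.1, h1]
  have hmulS : ∀ e, IsPrim E e → e * ∑ f ∈ S, f = e := by
    intro e he
    rw [Finset.mul_sum, Finset.sum_eq_single e]
    · exact he.2.2.1
    · intro f hf hne
      exact horth e f he ((hS f).1 hf) (Ne.symm hne)
    · intro h; exact absurd ((hS e).2 he) h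
  have hsE : (∑ f ∈ S, f) ∈ E := E.sum_mem fun f hf => ((hS f).1 hf).1
  have hss : (∑ f ∈ S, f) * (∑ f ∈ S, f) = ∑ f ∈ S, f := by
    conv_lhs => rw [Finset.sum_mul]
    exact Finset.sum_congr rfl fun f hf => hmulS f ((hS f).1 hf)
  have hsum : ∑ f ∈ S, f = 1 := by
    by_contra hne
    set s := ∑ f ∈ S, f
    have h1 : (1 - s) ∈ E := E.sub_mem E.one_mem hsE
    have h2 : 1 - s ≠ 0 := fun h => hne (sub_eq_zero.1 h).symm
    have h3 : (1 - s) * (1 - s) = 1 - s := by
      rw [mul_sub, mul_one, sub_mul, one_mul, hss, sub_self, sub_zero]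
    obtain ⟨e, he, hes⟩ := exists_prim_le hcomm h1 h2 h3
    rw [mul_sub, mul_one, hmulS e he, sub_self] at hes
    exact he.2.1 hes.symm
  by_cases ht : 2 ≤ S.card
  · left
    let eqv := S.equivFin
    refine ⟨S.card, fun i => ((eqv.symm i : S) : Matrix ι ι F), ht, ⟨?_, ?_, ?_⟩, ?_, ?_, ?_⟩
    · intro i j
      by_cases h : i = j
      · subst h
        rw [if_pos rfl]
        exact ((hS _).1 (eqv.symm i).2).2.2.1
      · rw [if_neg h]
        apply horth _ _ ((hS _).1 (eqv.symm i).2) ((hS _).1 (eqv.symm j).2)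
        intro heq
        exact h (eqv.symm.injective (Subtype.ext heq))
    · rw [← hsum]
      rw [← Finset.sum_coe_sort S (fun x => x)]
      exact Fintype.sum_equiv eqv.symm _ _ (fun i => rfl)
    · intro i
      exact ((hS _).1 (eqv.symm i).2).2.1
    · intro i
      exact (hS _).1 (eqv.symm i).2
    · intro x hx
      exact ⟨eqv ⟨x, (hS x).2 hx⟩, by simp⟩
    · intro h hh
      have hmem : ∀ x : S, cj h (x : Matrix ι ι F) ∈ S := fun x =>
        (hS _).2 (((hS _).1 x.2).cj hE hh)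
      let ρ : S → S := fun x => ⟨cj h x, hmem x⟩
      have hinj : Function.Injective ρ := by
        intro x y hxy
        have : cj h (x : Matrix ι ι F) = cj h (y : Matrix ι ι F) := congrArg Subtype.val hxy
        exact Subtype.ext ((cj h).injective this)
      let ρ' : Equiv.Perm S := Equiv.ofBijective ρ (Finite.injective_iff_bijective.1 hinj)
      refine ⟨(eqv.symm.trans ρ').trans eqv, fun i => ?_⟩
      simp only [Equiv.trans_apply, Equiv.symm_apply_apply]
      rfl
  · right
    -- exactly one primitive idempotent, which is 1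
    have hS1 : S.card = 1 := by
      have : S.card ≠ 0 := by
        intro h0
        rw [Finset.card_eq_zero] at h0
        rw [h0, Finset.sum_empty] at hsum
        exact zero_ne_one hsum
      omega
    obtain ⟨e, he⟩ := Finset.card_eq_one.1 hS1
    rw [he, Finset.sum_singleton] at hsum
    have hprim1 : IsPrim E (1 : Matrix ι ι F) := by
      rw [← hsum]; exact (hS e).1 (by rw [he]; exact Finset.mem_singleton_self e)
    intro x hx hx0
    obtain ⟨n, hn, hidem⟩ := exists_pow_idem x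
    rcases hprim1.2.2.2 (x ^ n) (E.pow_mem hx n) hidem with h1 | h1
    · rw [mul_one] at h1
      exact absurd (eq_zero_of_isNilpotent hH hE hcomm hx ⟨n, h1⟩) hx0
    · rw [mul_one] at h1
      refine ⟨x ^ (n - 1), E.pow_mem hx _, ?_⟩
      rw [← pow_succ']
      have : n - 1 + 1 = n := by omega
      rw [this, h1]

end Cfsg.Agent.Lib.AschCore
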