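import Cfsg.Agent.Lib.AschAlg

/-!
Aschbacher's theorem, core part 4: absolutely irreducible groups span the matrix algebra; descent to subfields and
the subfield groups.
-/

set_option autoImplicit false

namespace Cfsg.Agent.Lib.AschDescent

open Cfsg Cfsg.Geo Cfsg.Agent.Lib.AschMU Cfsg.Agent.Lib.AschCore Cfsg.Agent.Lib.AschField Cfsg.Agent.Lib.AschAlg
open scoped Matrix MatrixGroups Kronecker

variable {ι : Type} [Fintype ι] [DecidableEq ι] {F : Type*} [Field F]

/-- The enveloping algebra of a group of matrices. -/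
def env (X : Subgroup (GL ι F)) : Subalgebra F (Matrix ι ι F) := Algebra.adjoin F (matrixSet X)

theorem mem_env {X : Subgroup (GL ι F)} {g : GL ι F} (hg : g ∈ X) : (g : Matrix ι ι F) ∈ env X :=
  Algebra.subset_adjoin ⟨g, hg, rfl⟩

theorem env_eq_span (X : Subgroup (GL ι F)) : (env X).toSubmodule = Submodule.span F (matrixSet X) := by
  have hS : (matrixSet X : Set (Matrix ι ι F)) = (X.toSubmonoid.map (Units.coeHom (Matrix ι ι F)) : Submonoid _) := by
    ext x
    simp [mem_matrixSet]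
  rw [env, hS, Algebra.adjoin_eq_span, Submonoid.closure_eq]

/-- Whatever normalises `X` normalises its enveloping algebra. -/
theorem normalizer_le_env (X : Subgroup (GL ι F)) {H : Subgroup (GL ι F)}
    (h : ∀ g ∈ H, ∀ x ∈ X, g * x * g⁻¹ ∈ X) : H ≤ subalgebraNormalizer (env X) := by
  apply le_subalgebraNormalizer
  intro g hg k hk
  have : (env X).map (cj g).toAlgHom ≤ env X := by
    rw [env, AlgHom.map_adjoin]
    apply Algebra.adjoin_mono
    rintro _ ⟨_, ⟨x, hx, rfl⟩, rfl⟩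
    refine ⟨g * x * g⁻¹, h g hg x hx, ?_⟩
    show ((g * x * g⁻¹ : GL ι F) : Matrix ι ι F) = cj g x
    rw [cj_coe]
  exact this ⟨k, hk, rfl⟩

theorem self_le_env (X : Subgroup (GL ι F)) : X ≤ subalgebraNormalizer (env X) :=
  normalizer_le_env X fun _ hg _ hx => X.mul_mem (X.mul_mem hg hx) (X.inv_mem hg)

theorem commute_env {X : Subgroup (GL ι F)} {M : Matrix ι ι F} (hM : ∀ s ∈ matrixSet X, M * s = s * M) :
    ∀ y ∈ env X, M * y = y * M := by
  intro y hy
  have : env X ≤ Subalgebra.centralizer F {M} := by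
    apply Algebra.adjoin_le
    intro s hs
    rw [SetLike.mem_coe, Subalgebra.mem_centralizer_iff]
    intro z hz
    rw [Set.mem_singleton_iff] at hz
    rw [hz]; exact hM s hs
  have h2 := this hy
  rw [Subalgebra.mem_centralizer_iff] at h2
  exact h2 M rfl

/-- Burnside: an absolutely irreducible group spans the matrix algebra. -/
theorem env_eq_top [Finite F] [Nonempty ι] {X : Subgroup (GL ι F)} (hX : ActsAbsolutelyIrreducibly (matrixSet X)) :
    env X = ⊤ := by
  obtain ⟨d, hd, ⟨φ⟩⟩ := exists_algEquiv_matrix hX.1 (self_le_env X) (fun x _ hx => by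
    apply hX.2 x
    intro s hs
    exact hx s (Algebra.subset_adjoin hs))
  have : Nonempty (Fin d) := ⟨⟨0, Nat.pos_of_ne_zero hd⟩⟩
  obtain ⟨e, he⟩ := card_of_matrixUnits ((isMatrixUnits_single (Fin d) F).map ((env X).val.comp φ.toAlgHom).toRingHom)
  rw [Fintype.card_fin] at he
  let σ : ι ≃ Fin d × Fin e := Fintype.equivOfCardEq (by rw [he, Fintype.card_prod, Fintype.card_fin, Fintype.card_fin])
  obtain ⟨P, hP, -⟩ := exists_tensorProductSubgroup hd φ σ
  -- the commutant contains P (1 ⊗ M_e) P⁻¹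
  have hcomm : ∀ b : Matrix (Fin e) (Fin e) F, ∃ c : F, kronL σ (1 : Matrix (Fin d) (Fin d) F) b = c • (1 : Matrix ι ι F) := by
    intro b
    obtain ⟨c, hc⟩ := hX.2 ((P : Matrix ι ι F) * kronL σ 1 b * ((P⁻¹ : GL ι F) : Matrix ι ι F)) (by
      intro s hs
      obtain ⟨x, hx⟩ := φ.surjective ⟨s, Algebra.subset_adjoin hs⟩
      have hs' : s = (P : Matrix ι ι F) * kronL σ x 1 * ((P⁻¹ : GL ι F) : Matrix ι ι F) := by
        rw [← hP, hx]
      rw [hs']
      simp only [mul_assoc, gl_inv_mul_cancel_left]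
      rw [← mul_assoc (kronL σ 1 b), kronL_mul, ← mul_assoc (kronL σ x 1), kronL_mul]
      simp)
    refine ⟨c, ?_⟩
    have h2 := congrArg (fun z => ((P⁻¹ : GL ι F) : Matrix ι ι F) * z * (P : Matrix ι ι F)) hc
    simp only [mul_assoc, gl_inv_mul_cancel_left, gl_inv_mul, mul_one] at h2
    rw [h2, Matrix.smul_mul, Matrix.one_mul, Matrix.mul_smul, gl_inv_mul]
  have he1 : e = 1 := by
    have he0 : e ≠ 0 := by
      rintro rfl
      rw [mul_zero] at he
      exact Fintype.card_ne_zero he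
    by_contra hne
    have h2 : 1 < e := by omega
    let o : Fin e := ⟨0, by omega⟩
    let o' : Fin e := ⟨1, h2⟩
    let z : Fin d := ⟨0, Nat.pos_of_ne_zero hd⟩
    obtain ⟨c, hc⟩ := hcomm (Matrix.single o o 1)
    have h3 := congrFun (congrFun hc (σ.symm (z, o))) (σ.symm (z, o))
    have h4 := congrFun (congrFun hc (σ.symm (z, o'))) (σ.symm (z, o'))
    have hoo : o ≠ o' := by
      intro h; have := congrArg Fin.val h; simp [o, o'] at this
    simp only [kronL, Matrix.reindex_apply, Equiv.symm_symm, Matrix.submatrix_apply, Equiv.apply_symm_apply,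
      Matrix.kroneckerMap_apply, Matrix.one_apply_eq, Matrix.smul_apply, smul_eq_mul, mul_one, Matrix.single_apply,
      one_mul] at h3 h4
    rw [if_pos (by simp)] at h3
    rw [if_neg (by simp [hoo])] at h4
    rw [← h4] at h3
    exact one_ne_zero h3
  subst he1
  rw [eq_top_iff]
  intro y _
  have hcard : Fintype.card ι = d := by rw [he, mul_one]
  -- every matrix is P (x ⊗ 1) P⁻¹
  let x : Matrix (Fin d) (Fin d) F := fun a b =>
    (((P⁻¹ : GL ι F) : Matrix ι ι F) * y * (P : Matrix ι ι F)) (σ.symm (a, 0)) (σ.symm (b, 0))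
  have hy : y = (φ x : Matrix ι ι F) := by
    rw [hP]
    have h5 : kronL σ x 1 = ((P⁻¹ : GL ι F) : Matrix ι ι F) * y * (P : Matrix ι ι F) := by
      ext i j
      obtain ⟨⟨i₁, i₂⟩, rfl⟩ := σ.symm.surjective i
      obtain ⟨⟨j₁, j₂⟩, rfl⟩ := σ.symm.surjective j
      have hi : i₂ = 0 := Subsingleton.elim _ _
      have hj : j₂ = 0 := Subsingleton.elim _ _
      subst hi hj
      have hR : kronL σ x (1 : Matrix (Fin 1) (Fin 1) F) (σ.symm (i₁, 0)) (σ.symm (j₁, 0)) = x i₁ j₁ * 1 := by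
        simp only [kronL, Matrix.reindex_apply, Equiv.symm_symm, Matrix.submatrix_apply, Equiv.apply_symm_apply]
        rfl
      rw [hR, mul_one]
    rw [h5]
    simp only [mul_assoc, gl_mul_inv_cancel_left]
    rw [gl_mul_inv, mul_one]
  rw [hy]
  exact (φ x).2

theorem span_eq_top [Finite F] [Nonempty ι] {X : Subgroup (GL ι F)} (hX : ActsAbsolutelyIrreducibly (matrixSet X)) :
    Submodule.span F (matrixSet X) = ⊤ := by
  rw [← env_eq_span, env_eq_top hX]; rfl

/-! ### Matrices over a subfield -/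

/-- The matrices with entries in `F₀`. -/
def ratMat (ι : Type) [Fintype ι] [DecidableEq ι] {F : Type*} [Field F] (F₀ : Subfield F) : Set (Matrix ι ι F) :=
  {x | ∀ i j, x i j ∈ F₀}

theorem mem_ratMat {F₀ : Subfield F} {x : Matrix ι ι F} :
    x ∈ ratMat ι F₀ ↔ ∃ y : Matrix ι ι F₀, y.map (F₀.subtype) = x := by
  constructor
  · intro h
    exact ⟨fun i j => ⟨x i j, h i j⟩, by ext i j; rfl⟩
  · rintro ⟨y, rfl⟩ i j
    exact (y i j).2

theorem commute_of_commute_single {x : Matrix ι ι F} (h : ∀ i j, x * Matrix.single i j 1 = Matrix.single i j 1 * x) :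
    ∃ c : F, x = c • (1 : Matrix ι ι F) := by
  rcases isEmpty_or_nonempty ι with hι | ⟨⟨o⟩⟩
  · exact ⟨0, by ext i; exact (hι.false i).elim⟩
  refine ⟨x o o, ?_⟩
  have key : ∀ a b i j : ι, (if b = j then x i a else 0) = (if i = a then x b j else 0) := by
    intro a b i j
    have h1 := congrFun (congrFun (h a b) i) j
    rw [Matrix.mul_apply, Matrix.mul_apply] at h1
    rw [Finset.sum_eq_single a, Finset.sum_eq_single b] at h1
    · simp only [Matrix.single_apply] at h1
      by_cases h2 : b = j <;> by_cases h3 : i = a <;> simp_all [eq_comm]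
    · intro c _ hc; rw [Matrix.single_apply, if_neg (fun h => hc h.2.symm), zero_mul]
    · intro h; exact absurd (Finset.mem_univ _) h
    · intro c _ hc; rw [Matrix.single_apply, if_neg (fun h => hc h.1.symm), mul_zero]
    · intro h; exact absurd (Finset.mem_univ _) h
  ext i j
  rw [Matrix.smul_apply, Matrix.one_apply, smul_eq_mul]
  by_cases hij : i = j
  · subst hij
    rw [if_pos rfl, mul_one]
    have := key i o i o
    rw [if_pos rfl, if_pos rfl] at this
    exact this
  · rw [if_neg hij, mul_zero]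
    have := key j o i o
    rw [if_pos rfl, if_neg hij] at this
    exact this

/-- Whatever normalises `M_n(F₀)` is a scalar times an element of `GL_n(F₀)`. -/
theorem exists_of_normalizes_ratMat {F₀ : Subfield F} {g : GL ι F} (hg : ∀ x ∈ ratMat ι F₀, cj g x ∈ ratMat ι F₀) :
    ∃ (c : Fˣ) (a : GL ι F₀), (g : Matrix ι ι F) = (c : F) • ((a : Matrix ι ι F₀).map F₀.subtype) := by
  classical
  let φ₀ : Matrix ι ι F₀ →+* Matrix ι ι F := F₀.subtype.mapMatrix
  have hφ₀ : Function.Injective φ₀ := by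
    intro x y h
    ext i j
    exact congrFun (congrFun h i) j
  have hmem : ∀ x : Matrix ι ι F₀, ∀ i j, cj g (φ₀ x) i j ∈ F₀ := fun x => hg _ (mem_ratMat.2 ⟨x, rfl⟩)
  let t : Matrix ι ι F₀ → Matrix ι ι F₀ := fun x => Matrix.of fun i j => ⟨cj g (φ₀ x) i j, hmem x i j⟩
  have ht : ∀ x, φ₀ (t x) = cj g (φ₀ x) := fun x => by ext i j; rfl
  let ψ : Matrix ι ι F₀ →ₐ[F₀] Matrix ι ι F₀ :=
    { toFun := t
      map_one' := by
        apply hφ₀; rw [ht, map_one, map_one]
      map_mul' := fun x y => by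
        apply hφ₀
        rw [ht, map_mul φ₀, map_mul (cj g), map_mul φ₀, ht, ht]
      map_zero' := by
        apply hφ₀; rw [ht, map_zero, map_zero]
      map_add' := fun x y => by
        apply hφ₀
        rw [ht, map_add φ₀, map_add (cj g), map_add φ₀, ht, ht]
      commutes' := fun c => by
        apply hφ₀
        have h1 : φ₀ (algebraMap F₀ _ c) = algebraMap F _ (c : F) := by
          ext i j
          simp [φ₀, Matrix.algebraMap_matrix_apply]
          split_ifs <;> simp
        rw [ht, h1, AlgEquiv.commutes] }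
  have hψ : ∀ x, φ₀ (ψ x) = cj g (φ₀ x) := fun x => by ext i j; rfl
  obtain ⟨a, ha⟩ := exists_conj_algEnd ψ
  let a' : GL ι F := Matrix.GeneralLinearGroup.map (F₀.subtype : F₀ →+* F) a
  have ha' : (a' : Matrix ι ι F) = φ₀ a := rfl
  have ha'' : ((a'⁻¹ : GL ι F) : Matrix ι ι F) = φ₀ ((a⁻¹ : GL ι F₀) : Matrix ι ι F₀) := rfl
  have hcent : ∀ i j, (((a'⁻¹ : GL ι F) : Matrix ι ι F) * (g : Matrix ι ι F)) * Matrix.single i j 1
      = Matrix.single i j 1 * (((a'⁻¹ : GL ι F) : Matrix ι ι F) * (g : Matrix ι ι F)) := by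
    intro i j
    have h1 : φ₀ (Matrix.single i j 1) = Matrix.single i j (1 : F) := by
      ext k l
      simp only [φ₀, RingHom.mapMatrix_apply, Matrix.map_apply, Matrix.single_apply]
      split_ifs <;> simp
    have h2 := hψ (Matrix.single i j 1)
    rw [ha, map_mul, map_mul, ← ha', ← ha'', h1, cj_apply] at h2
    -- a' E a'⁻¹ = g E g⁻¹
    have h3 := congrArg (fun z => ((a'⁻¹ : GL ι F) : Matrix ι ι F) * (z * (g : Matrix ι ι F))) h2
    simp only [mul_assoc, gl_inv_mul_cancel_left, gl_inv_mul, mul_one] at h3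
    rw [mul_assoc, ← h3]
  obtain ⟨c, hc⟩ := commute_of_commute_single hcent
  have hg1 : (g : Matrix ι ι F) = c • (a' : Matrix ι ι F) := by
    rw [← gl_mul_inv_cancel_left a' (g : Matrix ι ι F), hc, Matrix.mul_smul, mul_one]
  rcases isEmpty_or_nonempty ι with hι | hι
  · exact ⟨1, a, by ext i; exact (hι.false i).elim⟩
  have hc0 : c ≠ 0 := by
    rintro rfl
    rw [zero_smul] at hg1
    have := g.isUnit
    rw [hg1] at this
    exact not_isUnit_zero this
  exact ⟨Units.mk0 c hc0, a, hg1⟩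

theorem mem_subfieldSubgroup {F₀ : Subfield F} {P g : GL ι F} :
    g ∈ subfieldSubgroup F₀ P ↔ ∃ (c : Fˣ) (a : GL ι F₀), (g : Matrix ι ι F) =
      (c : F) • ((P : Matrix ι ι F) * ((a : Matrix ι ι F₀).map F₀.subtype) * ((P⁻¹ : GL ι F) : Matrix ι ι F)) := by
  constructor
  · rintro ⟨y, hy, rfl⟩
    have hy' : y ∈ (((Matrix.GeneralLinearGroup.map (F₀.subtype : F₀ →+* F)).range ⊔ scalars ι F : Subgroup (GL ι F)) : Set (GL ι F)) := hy
    rw [Subgroup.mul_normal] at hy'
    obtain ⟨_, ⟨a, rfl⟩, s, hs, rfl⟩ := hy'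
    obtain ⟨c, hc⟩ := (mem_scalars_iff s).1 hs
    refine ⟨c, a, ?_⟩
    show (P : Matrix ι ι F) * (((a : Matrix ι ι F₀).map F₀.subtype) * (s : Matrix ι ι F)) * ((P⁻¹ : GL ι F) : Matrix ι ι F) = _
    rw [hc, Matrix.mul_smul, mul_one, Matrix.mul_smul, Matrix.smul_mul]
  · rintro ⟨c, a, hg⟩
    have hs : (Units.map (Matrix.scalar ι : F →+* Matrix ι ι F).toMonoidHom c) ∈ scalars ι F := ⟨c, rfl⟩
    refine ⟨Matrix.GeneralLinearGroup.map (F₀.subtype : F₀ →+* F) a * Units.map (Matrix.scalar ι : F →+* Matrix ι ι F).toMonoidHom c, ?_, ?_⟩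
    · exact Subgroup.mul_mem_sup ⟨a, rfl⟩ hs
    · apply Units.ext
      rw [hg]
      show (P : Matrix ι ι F) * (((a : Matrix ι ι F₀).map F₀.subtype) * (Matrix.scalar ι (c : F))) * ((P⁻¹ : GL ι F) : Matrix ι ι F) = _
      have : (Matrix.scalar ι (c : F)) = (c : F) • (1 : Matrix ι ι F) := by
        simp [Matrix.smul_one_eq_diagonal]
      rw [this, Matrix.mul_smul, mul_one, Matrix.mul_smul, Matrix.smul_mul]

/-- Coordinates of a matrix over `F₀` in a basis of matrices over `F₀` lie in `F₀`. -/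
theorem repr_mem [Finite F] {F₀ : Subfield F} {κ : Type*} [Fintype κ] (b : Module.Basis κ F (Matrix ι ι F))
    (hb : ∀ k, b k ∈ ratMat ι F₀) {x : Matrix ι ι F} (hx : x ∈ ratMat ι F₀) (k : κ) : b.repr x k ∈ F₀ := by
  classical
  let Φ : (κ → F₀) → ratMat ι F₀ := fun c => ⟨∑ k, (c k : F) • b k, by
    intro i j
    rw [Matrix.sum_apply]
    refine F₀.sum_mem fun k _ => ?_
    rw [Matrix.smul_apply, smul_eq_mul]
    exact F₀.mul_mem (c k).2 (hb k i j)⟩
  have hinj : Function.Injective Φ := by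
    intro c c' h
    have h1 : ∑ k, (c k : F) • b k = ∑ k, (c' k : F) • b k := congrArg Subtype.val h
    funext k
    have h2 := congrArg (fun z => b.repr z k) h1
    simp only [Module.Basis.repr_sum_self] at h2
    exact Subtype.ext h2
  have hcard : Nat.card (κ → F₀) = Nat.card (ratMat ι F₀) := by
    have e1 : ratMat ι F₀ ≃ (ι → ι → F₀) :=
      { toFun := fun x i j => ⟨(x : Matrix ι ι F) i j, x.2 i j⟩
        invFun := fun y => ⟨fun i j => (y i j : F), fun i j => (y i j).2⟩
        left_inv := fun x => rfl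
        right_inv := fun y => rfl }
    rw [Nat.card_congr e1]
    have e2 : κ ≃ ι × ι := (Matrix.stdBasis F ι ι).indexEquiv b |>.symm
    have e3 : (ι → ι → F₀) ≃ (κ → F₀) := (Equiv.curry ι ι F₀).symm.trans (Equiv.arrowCongr e2.symm (Equiv.refl _))
    rw [Nat.card_congr e3]
  have hfin : Finite (ratMat ι F₀) := by
    have : Finite (Matrix ι ι F) := inferInstanceAs (Finite (ι → ι → F))
    exact Subtype.finite
  have hbij : Function.Bijective Φ := (Nat.bijective_iff_injective_and_card Φ).2 ⟨hinj, hcard⟩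
  obtain ⟨c, hc⟩ := hbij.2 ⟨x, hx⟩
  have h1 : ∑ k, (c k : F) • b k = x := congrArg Subtype.val hc
  rw [← h1, Module.Basis.repr_sum_self]
  exact (c k).2

/-- **Class 5.** If an absolutely irreducible group `X` is realisable over `F₀`, everything normalising `X` lies in a
subfield group. -/
theorem le_subfieldSubgroup [Finite F] [Nonempty ι] {X H : Subgroup (GL ι F)} (hX : ActsAbsolutelyIrreducibly (matrixSet X))
    (hn : ∀ g ∈ H, ∀ x ∈ X, g * x * g⁻¹ ∈ X) {F₀ : Subfield F} {B : GL ι F}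
    (hB : ∀ s ∈ matrixSet X, ∀ i j, ((B : Matrix ι ι F) * s * ((B⁻¹ : GL ι F) : Matrix ι ι F)) i j ∈ F₀) :
    H ≤ subfieldSubgroup F₀ B⁻¹ := by
  classical
  intro g hg
  have hsp : ⊤ ≤ Submodule.span F (matrixSet X) := (span_eq_top hX).ge
  let b₀ := Module.Basis.ofSpan hsp
  have hb₀ : ∀ k, b₀ k ∈ matrixSet X := fun k => Module.Basis.ofSpan_subset hsp ⟨k, rfl⟩
  have : Fintype ((linearIndepOn_empty F id).extend (Set.empty_subset (matrixSet X)) : Set (Matrix ι ι F)) :=
    FiniteDimensional.fintypeBasisIndex b₀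
  let b := b₀.map (cj B).toLinearEquiv
  have hb : ∀ k, b k = cj B (b₀ k) := fun k => by simp [b]
  have hbr : ∀ k, b k ∈ ratMat ι F₀ := fun k => by rw [hb]; exact hB _ (hb₀ k)
  have hg' : ∀ x ∈ ratMat ι F₀, cj (B * g * B⁻¹) x ∈ ratMat ι F₀ := by
    intro x hx
    have h1 : x = ∑ k, b.repr x k • b k := (b.sum_repr x).symm
    rw [h1, map_sum]
    intro i j
    rw [Matrix.sum_apply]
    refine F₀.sum_mem fun k _ => ?_
    rw [map_smul, Matrix.smul_apply, smul_eq_mul]
    refine F₀.mul_mem (repr_mem b hbr hx k) ?_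
    rw [hb, ← cj_mul_apply, inv_mul_cancel_right, cj_mul_apply]
    obtain ⟨y, hy, hy'⟩ := hb₀ k
    rw [← hy']
    show cj B (cj g (y : Matrix ι ι F)) i j ∈ F₀
    rw [cj_coe]
    exact hB _ ⟨_, hn g hg y hy, rfl⟩ i j
  obtain ⟨c, a, h⟩ := exists_of_normalizes_ratMat hg'
  rw [mem_subfieldSubgroup]
  refine ⟨c, a, ?_⟩
  have h2 : (g : Matrix ι ι F) = ((B⁻¹ : GL ι F) : Matrix ι ι F) * ((B * g * B⁻¹ : GL ι F) : Matrix ι ι F) * (B : Matrix ι ι F) := by
    rw [← Units.val_mul, ← Units.val_mul]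
    congr 1
    group
  rw [h2, h, Matrix.mul_smul, Matrix.smul_mul, inv_inv]

/-- Every proper subfield lies in one of prime index. -/
theorem exists_prime_index [Finite F] {F₀ : Subfield F} (h : F₀ ≠ ⊤) :
    ∃ (F₁ : Subfield F) (r : ℕ), F₀ ≤ F₁ ∧ F₁ ≠ ⊤ ∧ r.Prime ∧ Nat.card F = Nat.card F₁ ^ r ∧
      r ∣ Module.finrank F₀ F := by
  classical
  have hfin : Fintype F₀ := Fintype.ofFinite _
  set d := Module.finrank F₀ F with hd
  have hd1 : d ≠ 1 := by
    intro h1
    apply h
    rw [eq_top_iff]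
    intro x _
    have h2 := finrank_eq_one_iff_of_nonzero' (K := F₀) (V := F) (1 : F) one_ne_zero
    obtain ⟨c, hc⟩ := h2.1 h1 x
    rw [← hc]
    show (c : F) * 1 ∈ F₀
    rw [mul_one]; exact c.2
  have hdpos : 0 < d := Module.finrank_pos
  set r := d.minFac with hr
  have hrp : r.Prime := Nat.minFac_prime hd1
  obtain ⟨m, hm⟩ : r ∣ d := Nat.minFac_dvd d
  have hmpos : 0 < m := by
    rcases Nat.eq_zero_or_pos m with h0 | h0
    · rw [h0, mul_zero] at hm; omega
    · exact h0
  obtain ⟨h1, -⟩ := fixedField_frob F₀ F m ⟨r, by rw [← hd, hm, mul_comm]⟩ hmpos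
  set K := IntermediateField.fixedField (Subgroup.zpowers (FiniteField.frobeniusAlgEquivOfAlgebraic F₀ F ^ m)) with hK
  have hcardK : Nat.card K = Nat.card F₀ ^ m := by
    rw [← h1]; exact Module.natCard_eq_pow_finrank
  have hcardF : Nat.card F = Nat.card F₀ ^ d := Module.natCard_eq_pow_finrank
  have hcK : Nat.card K.toSubfield = Nat.card F₀ ^ m := hcardK
  have hF0 : 1 < Nat.card F₀ := Finite.one_lt_card
  refine ⟨K.toSubfield, r, ?_, ?_, hrp, ?_, ⟨m, hm⟩⟩
  · intro x hx
    exact K.algebraMap_mem ⟨x, hx⟩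
  · intro htop
    rw [htop] at hcK
    have h3 : Nat.card (⊤ : Subfield F) = Nat.card F := Nat.card_congr Subfield.topEquiv.toEquiv
    rw [h3, hcardF] at hcK
    have h4 := Nat.pow_right_injective hF0 hcK
    have h5 := hrp.two_le
    nlinarith
  · rw [hcK, hcardF, ← pow_mul, hm, mul_comm]

end Cfsg.Agent.Lib.AschDescent
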