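import Cfsg.Agent.Lib.AschSp10
set_option autoImplicit false
set_option linter.style.haveILetI false
set_option linter.unusedVariables false
set_option linter.unusedSectionVars false

/-!
Systems of matrices that commute or anticommute: extraspecial 2-groups.
-/

namespace Cfsg.Agent.Lib.AschESys

open Cfsg Cfsg.Geo Cfsg.Agent.Lib.AschMU Cfsg.Agent.Lib.AschCore Cfsg.Agent.Lib.AschField Cfsg.Agent.Lib.AschAlg
  Cfsg.Agent.Lib.AschGroup Cfsg.Agent.Lib.AschGood Cfsg.Agent.Lib.AschAdj Cfsg.Agent.Lib.AschNonab Cfsg.Agent.Lib.AschTensor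
  Cfsg.Agent.Lib.AschComp Cfsg.Agent.Lib.AschSp
open Cfsg.Agent.Lib.AschDescent (env mem_env)
open scoped Matrix MatrixGroups Kronecker

variable {ι : Type} [Fintype ι] [DecidableEq ι] {F : Type*} [Field F]

/-- A system of matrices, closed under multiplication up to sign, any two of which commute or anticommute. -/
structure Sys {Λ : Type} (B : Λ → Matrix ι ι F) (o : Λ) : Prop where
  one : B o = 1
  mul : ∀ x y, ∃ z, B x * B y = B z ∨ B x * B y = -B z
  sq : ∀ x, B x * B x = 1 ∨ B x * B x = -1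
  comm : ∀ x y, B x * B y = B y * B x ∨ B x * B y = -(B y * B x)
  sep : ∀ x y, x ≠ y → ∃ z, (B x * B z = B z * B x ∧ B y * B z = -(B z * B y)) ∨ (B x * B z = -(B z * B x) ∧ B y * B z = B z * B y)
  wit : ∀ x, x ≠ o → ∃ w, B w * B w = -1 ∧ B w * B x = -(B x * B w)

section
variable {Λ : Type} [Fintype Λ] [DecidableEq Λ] {B : Λ → Matrix ι ι F} {o : Λ} (hB : Sys B o) (h2 : (2 : F) ≠ 0) [Nonempty ι]
include hB

lemma Sys.isUnit (x : Λ) : IsUnit (B x) := by
  rcases hB.sq x with h | h
  · exact IsUnit.of_mul_eq_one _ h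
  · exact IsUnit.of_mul_eq_one (-(B x)) (by rw [mul_neg, h, neg_neg])

omit hB in
include h2 in
lemma ne_neg {X : Matrix ι ι F} (hX : X ≠ 0) : X ≠ -X := by
  intro h
  apply hX
  have h3 : (2 : F) • X = 0 := by
    rw [two_smul]
    nth_rewrite 1 [h]
    exact neg_add_cancel _
  exact (smul_eq_zero.1 h3).resolve_left h2

include h2 in
/-- Elements of the system are different up to sign. -/
lemma Sys.inj {x y : Λ} (h : B x = B y ∨ B x = -B y) : x = y := by
  by_contra hne
  obtain ⟨z, hz⟩ := hB.sep x y hne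
  have hu : B z * B y ≠ 0 := ((hB.isUnit z).mul (hB.isUnit y)).ne_zero
  rcases hz with ⟨h1, h3⟩ | ⟨h1, h3⟩
  · rcases h with h | h
    · rw [h] at h1
      exact ne_neg h2 hu (h1.symm.trans h3)
    · rw [h, neg_mul, mul_neg] at h1
      exact ne_neg h2 hu ((neg_injective h1).symm.trans h3)
  · rcases h with h | h
    · rw [h, h3] at h1
      exact ne_neg h2 hu h1
    · rw [h, neg_mul, mul_neg, h3] at h1
      exact ne_neg h2 hu (neg_injective h1)

include h2 in
lemma Sys.trace_eq_zero {x : Λ} (hx : x ≠ o) : (B x).trace = 0 := by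
  obtain ⟨w, hw, hwx⟩ := hB.wit x hx
  have h1 : (B w * B x * B w).trace = (B x).trace * (-1) := by
    rw [Matrix.trace_mul_comm, ← mul_assoc, hw, neg_mul, one_mul, Matrix.trace_neg]; ring
  have h3 : (B w * B x * B w).trace = (B x).trace := by
    rw [hwx, neg_mul, mul_assoc, hw, mul_neg, mul_one, neg_neg]
  have h4 : (2 : F) * (B x).trace = 0 := by linear_combination h1 - h3
  exact (mul_eq_zero.1 h4).resolve_left h2

include h2 in
lemma Sys.trace_mul_eq_zero {x y : Λ} (hxy : x ≠ y) : (B x * B y).trace = 0 := by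
  obtain ⟨z, hz⟩ := hB.mul x y
  have hz0 : z ≠ o := by
    rintro rfl
    rw [hB.one] at hz
    apply hxy
    apply hB.inj h2
    rcases hB.sq y with h | h
    · rcases hz with h' | h'
      · left; exact (hB.isUnit y).mul_right_cancel (h'.trans h.symm)
      · right; exact (hB.isUnit y).mul_right_cancel (by rw [h', neg_mul, h])
    · rcases hz with h' | h'
      · right; exact (hB.isUnit y).mul_right_cancel (by rw [h', neg_mul, h, neg_neg])
      · left; exact (hB.isUnit y).mul_right_cancel (h'.trans h.symm)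
  rcases hz with h | h
  · rw [h, hB.trace_eq_zero h2 hz0]
  · rw [h, Matrix.trace_neg, hB.trace_eq_zero h2 hz0, neg_zero]

include h2 in
lemma Sys.trace_sq_ne_zero (hn : (Fintype.card ι : F) ≠ 0) (x : Λ) : (B x * B x).trace ≠ 0 := by
  rcases hB.sq x with h | h
  · rw [h, Matrix.trace_one]; exact hn
  · rw [h, Matrix.trace_neg, Matrix.trace_one]; exact neg_ne_zero.2 hn

include h2 in
lemma Sys.linearIndependent (hn : (Fintype.card ι : F) ≠ 0) : LinearIndependent F B := by
  rw [Fintype.linearIndependent_iff]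
  intro c hc y
  have h1 := congrArg (fun X => (X * B y).trace) hc
  simp only [zero_mul, Matrix.trace_zero] at h1
  rw [Finset.sum_mul, Matrix.trace_sum, Finset.sum_eq_single y] at h1
  · rw [Matrix.smul_mul, Matrix.trace_smul, smul_eq_mul] at h1
    exact (mul_eq_zero.1 h1).resolve_right (hB.trace_sq_ne_zero h2 hn y)
  · intro x _ hx
    rw [Matrix.smul_mul, Matrix.trace_smul, hB.trace_mul_eq_zero h2 hx, smul_zero]
  · intro h; exact absurd (Finset.mem_univ y) h

include h2 in
lemma Sys.span_eq_top (hn : (Fintype.card ι : F) ≠ 0) (hcard : Fintype.card Λ = Fintype.card ι ^ 2) : Submodule.span F (Set.range B) = ⊤ := by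
  apply (hB.linearIndependent h2 hn).span_eq_top_of_card_eq_finrank'
  rw [hcard, Module.finrank_matrix, Module.finrank_self, mul_one, pow_two]

/-- The group of all `± B x`. -/
def Sys.grp : Subgroup (GL ι F) where
  carrier := {g | ∃ x, (g : Matrix ι ι F) = B x ∨ (g : Matrix ι ι F) = -B x}
  mul_mem' := by
    rintro a b ⟨x, hx⟩ ⟨y, hy⟩
    obtain ⟨z, hz⟩ := hB.mul x y
    refine ⟨z, ?_⟩
    rw [Units.val_mul]
    rcases hx with hx | hx <;> rcases hy with hy | hy <;> rcases hz with hz | hz <;> rw [hx, hy] <;> simp [hz]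
  one_mem' := ⟨o, Or.inl (by rw [hB.one, Units.val_one])⟩
  inv_mem' := by
    rintro a ⟨x, hx⟩
    refine ⟨x, ?_⟩
    have key : ∀ X : Matrix ι ι F, (a : Matrix ι ι F) * X = 1 → ((a⁻¹ : GL ι F) : Matrix ι ι F) = X := by
      intro X hX
      calc ((a⁻¹ : GL ι F) : Matrix ι ι F) = ((a⁻¹ : GL ι F) : Matrix ι ι F) * ((a : Matrix ι ι F) * X) := by rw [hX, mul_one]
        _ = X := by rw [← mul_assoc, gl_inv_mul, one_mul]
    rcases hx with hx | hx <;> rcases hB.sq x with h | h
    · left; apply key; rw [hx, h]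
    · right; apply key; rw [hx, mul_neg, h, neg_neg]
    · right; apply key; rw [hx, neg_mul_neg, h]
    · left; apply key; rw [hx, neg_mul, h, neg_neg]

lemma Sys.mem_grp {g : GL ι F} : g ∈ hB.grp ↔ ∃ x, (g : Matrix ι ι F) = B x ∨ (g : Matrix ι ι F) = -B x := Iff.rfl

lemma Sys.exists_mem (x : Λ) : ∃ g ∈ hB.grp, (g : Matrix ι ι F) = B x := by
  obtain ⟨g, hg⟩ := hB.isUnit x
  exact ⟨g, ⟨x, Or.inl hg⟩, hg⟩

include h2 in
lemma Sys.card_grp : Nat.card hB.grp = 2 * Fintype.card Λ := by
  classical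
  let f : Λ × Bool → hB.grp := fun p =>
    if p.2 then ⟨(hB.isUnit p.1).unit, p.1, Or.inl rfl⟩ else ⟨-(hB.isUnit p.1).unit, p.1, Or.inr rfl⟩
  have hf : Function.Bijective f := by
    constructor
    · rintro ⟨x, a⟩ ⟨y, b⟩ h
      have hxy : x = y := by
        apply hB.inj h2
        cases a <;> cases b
        · have := congrArg (fun z : hB.grp => ((z : GL ι F) : Matrix ι ι F)) h
          left; exact neg_injective this
        · have := congrArg (fun z : hB.grp => ((z : GL ι F) : Matrix ι ι F)) h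
          right
          have h3 : -B x = B y := this
          rw [← h3, neg_neg]
        · have := congrArg (fun z : hB.grp => ((z : GL ι F) : Matrix ι ι F)) h
          right; exact this
        · have := congrArg (fun z : hB.grp => ((z : GL ι F) : Matrix ι ι F)) h
          left; exact this
      subst hxy
      cases a <;> cases b
      · rfl
      · have : -B x = B x := congrArg (fun z : hB.grp => ((z : GL ι F) : Matrix ι ι F)) h
        exact absurd this.symm (ne_neg h2 (hB.isUnit x).ne_zero)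
      · have : B x = -B x := congrArg (fun z : hB.grp => ((z : GL ι F) : Matrix ι ι F)) h
        exact absurd this (ne_neg h2 (hB.isUnit x).ne_zero)
      · rfl
    · rintro ⟨g, x, hx | hx⟩
      · exact ⟨(x, true), Subtype.ext (Units.ext hx.symm)⟩
      · exact ⟨(x, false), Subtype.ext (Units.ext hx.symm)⟩
  rw [← Nat.card_congr (Equiv.ofBijective f hf), Nat.card_eq_fintype_card, Fintype.card_prod, Fintype.card_bool, mul_comm]

include h2 in
lemma Sys.absIrr (hn : (Fintype.card ι : F) ≠ 0) (hcard : Fintype.card Λ = Fintype.card ι ^ 2) : ActsAbsolutelyIrreducibly (matrixSet hB.grp) := by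
  apply absIrr_of_env_top
  rw [eq_top_iff]
  intro X _
  have h1 : X ∈ Submodule.span F (Set.range B) := by rw [hB.span_eq_top h2 hn hcard]; trivial
  have h3 : Submodule.span F (Set.range B) ≤ Subalgebra.toSubmodule (env hB.grp) := by
    rw [Submodule.span_le]
    rintro _ ⟨x, rfl⟩
    obtain ⟨g, hg, hgx⟩ := hB.exists_mem x
    rw [← hgx]
    exact mem_env hg
  exact h3 h1

lemma Sys.comm_mem {x y : GL ι F} (hx : x ∈ hB.grp) (hy : y ∈ hB.grp) : x * y = y * x ∨ x * y = -(y * x) := by
  obtain ⟨a, ha⟩ := hx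
  obtain ⟨b, hb⟩ := hy
  have key : (x : Matrix ι ι F) * (y : Matrix ι ι F) = (y : Matrix ι ι F) * (x : Matrix ι ι F) ∨
      (x : Matrix ι ι F) * (y : Matrix ι ι F) = -((y : Matrix ι ι F) * (x : Matrix ι ι F)) := by
    rcases hB.comm a b with h | h <;> rcases ha with ha | ha <;> rcases hb with hb | hb <;> rw [ha, hb] <;> simp [h]
  rcases key with h | h
  · left; exact Units.ext h
  · right; exact Units.ext h

lemma Sys.comm_scalar {x y : GL ι F} (hx : x ∈ hB.grp) (hy : y ∈ hB.grp) : x * y * x⁻¹ * y⁻¹ ∈ scalars ι F := by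
  have h1 : (1 : GL ι F) ∈ scalars ι F := one_mem _
  have h3 : (-1 : GL ι F) ∈ scalars ι F := (mem_scalars_iff _).2 ⟨-1, by simp⟩
  rcases hB.comm_mem hx hy with h | h
  · have : x * y * x⁻¹ * y⁻¹ = 1 := by rw [h]; group
    rw [this]; exact h1
  · have : x * y * x⁻¹ * y⁻¹ = -1 := by
      rw [h, neg_mul, neg_mul]; congr 1; group
    rw [this]; exact h3

lemma Sys.sq_mem {x : GL ι F} (hx : x ∈ hB.grp) : x * x = 1 ∨ x * x = -1 := by
  obtain ⟨a, ha⟩ := hx
  have key : (x : Matrix ι ι F) * (x : Matrix ι ι F) = 1 ∨ (x : Matrix ι ι F) * (x : Matrix ι ι F) = -1 := by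
    rcases hB.sq a with h | h <;> rcases ha with ha | ha <;> rw [ha] <;> simp [h]
  rcases key with h | h
  · left; exact Units.ext h
  · right; exact Units.ext h

lemma Sys.neg_one_mem : (-1 : GL ι F) ∈ hB.grp := ⟨o, Or.inr (by rw [hB.one, Units.val_neg, Units.val_one])⟩

/-- Non-central elements anticommute with some element of square `-1`. -/
lemma Sys.exists_wit {x : GL ι F} (hx : x ∈ hB.grp) (hx1 : x ≠ 1) (hx2 : x ≠ -1) :
    ∃ w ∈ hB.grp, w * w = -1 ∧ w * x = -(x * w) := by
  obtain ⟨a, ha⟩ := hx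
  have hao : a ≠ o := by
    rintro rfl
    rw [hB.one] at ha
    rcases ha with ha | ha
    · exact hx1 (Units.ext ha)
    · exact hx2 (Units.ext ha)
  obtain ⟨w, hw, hwa⟩ := hB.wit a hao
  obtain ⟨g, hg, hgw⟩ := hB.exists_mem w
  refine ⟨g, hg, Units.ext (by rw [Units.val_mul, hgw, hw]; rfl), Units.ext ?_⟩
  rw [Units.val_mul, Units.val_neg, Units.val_mul, hgw]
  rcases ha with ha | ha
  · rw [ha, hwa]
  · rw [ha, mul_neg, neg_mul, hwa]

include h2 in
lemma Sys.center_le {x : GL ι F} (hx : x ∈ hB.grp) (hc : ∀ y ∈ hB.grp, x * y = y * x) : x = 1 ∨ x = -1 := by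
  by_contra hcon
  push Not at hcon
  obtain ⟨w, hw, -, hwx⟩ := hB.exists_wit hx hcon.1 hcon.2
  rw [← hc w hw] at hwx
  exact SpNot.two_ne h2 _ hwx

include h2 in
lemma Sys.card_center : Nat.card (Subgroup.center hB.grp) = 2 := by
  classical
  rw [Nat.card_eq_two_iff]
  have hneg : (⟨-1, hB.neg_one_mem⟩ : hB.grp) ∈ Subgroup.center hB.grp := by
    rw [Subgroup.mem_center_iff]
    intro g
    apply Subtype.ext
    show (g : GL ι F) * (-1) = (-1) * (g : GL ι F)
    rw [mul_neg, neg_mul, mul_one, one_mul]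
  refine ⟨1, ⟨⟨-1, hB.neg_one_mem⟩, hneg⟩, ?_, ?_⟩
  · intro h
    have : (1 : GL ι F) = -1 := congrArg (fun z : Subgroup.center hB.grp => ((z : hB.grp) : GL ι F)) h
    exact SpNot.two_ne h2 _ this
  · rw [Set.eq_univ_iff_forall]
    intro z
    have h1 : ∀ y ∈ hB.grp, ((z : hB.grp) : GL ι F) * y = y * ((z : hB.grp) : GL ι F) := by
      intro y hy
      have := Subgroup.mem_center_iff.1 z.2 ⟨y, hy⟩
      exact (congrArg Subtype.val this).symm
    rcases hB.center_le h2 (z : hB.grp).2 h1 with h | h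
    · left; exact Subtype.ext (Subtype.ext h)
    · right; exact Subtype.ext (Subtype.ext h)

include h2 in
/-- Conjugation by `1 + w`. -/
lemma Sys.exists_aut {w x : GL ι F} (hw : w ∈ hB.grp) (hww : w * w = -1) :
    ∃ φ : hB.grp ≃* hB.grp, ∀ x : hB.grp, w * (x : GL ι F) = -((x : GL ι F) * w) → ((φ x : hB.grp) : GL ι F) = w * (x : GL ι F) := by
  classical
  have hwm : (w : Matrix ι ι F) * (w : Matrix ι ι F) = -1 := by
    rw [← Units.val_mul, hww]; rfl
  -- the unit 1 + w
  have h22 : (2 : F)⁻¹ * 2 = 1 := inv_mul_cancel₀ h2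
  have e1 : (1 + (w : Matrix ι ι F)) * ((2 : F)⁻¹ • (1 - (w : Matrix ι ι F))) = 1 := by
    rw [Matrix.mul_smul]
    have : (1 + (w : Matrix ι ι F)) * (1 - (w : Matrix ι ι F)) = (2 : F) • 1 := by
      rw [add_mul, mul_sub, mul_sub, hwm, one_mul, one_mul, mul_one, two_smul]; abel
    rw [this, smul_smul, h22, one_smul]
  have e2 : ((2 : F)⁻¹ • (1 - (w : Matrix ι ι F))) * (1 + (w : Matrix ι ι F)) = 1 := by
    rw [Matrix.smul_mul]
    have : (1 - (w : Matrix ι ι F)) * (1 + (w : Matrix ι ι F)) = (2 : F) • 1 := by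
      rw [sub_mul, mul_add, mul_add, hwm, one_mul, one_mul, mul_one, two_smul]; abel
    rw [this, smul_smul, h22, one_smul]
  let u : GL ι F := ⟨1 + (w : Matrix ι ι F), (2 : F)⁻¹ • (1 - (w : Matrix ι ι F)), e1, e2⟩
  have hu : (u : Matrix ι ι F) = 1 + (w : Matrix ι ι F) := rfl
  have hconj : ∀ x ∈ hB.grp, (w * x = x * w ∧ u * x * u⁻¹ = x) ∨ (w * x = -(x * w) ∧ u * x * u⁻¹ = w * x) := by
    intro x hx
    rcases hB.comm_mem hw hx with h | h
    · left
      refine ⟨h, ?_⟩
      rw [mul_inv_eq_iff_eq_mul]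
      apply Units.ext
      rw [Units.val_mul, Units.val_mul, hu, add_mul, mul_add, one_mul, mul_one]
      congr 1
      rw [← Units.val_mul, h, Units.val_mul]
    · right
      refine ⟨h, ?_⟩
      rw [mul_inv_eq_iff_eq_mul]
      apply Units.ext
      have h3 : (w : Matrix ι ι F) * (x : Matrix ι ι F) = -((x : Matrix ι ι F) * (w : Matrix ι ι F)) := by
        have := congrArg (fun z : GL ι F => (z : Matrix ι ι F)) h
        simpa using this
      rw [Units.val_mul, Units.val_mul, Units.val_mul, hu, add_mul, mul_add, one_mul, mul_one]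
      have h4 : (w : Matrix ι ι F) * (x : Matrix ι ι F) * (w : Matrix ι ι F) = (x : Matrix ι ι F) := by
        rw [h3, neg_mul, mul_assoc, hwm, mul_neg, mul_one, neg_neg]
      rw [h4, add_comm]
  have hmem : ∀ x ∈ hB.grp, u * x * u⁻¹ ∈ hB.grp := by
    intro x hx
    rcases hconj x hx with ⟨-, h⟩ | ⟨-, h⟩
    · rw [h]; exact hx
    · rw [h]; exact mul_mem hw hx
  let f : hB.grp →* hB.grp :=
    { toFun := fun x => ⟨u * x * u⁻¹, hmem x x.2⟩
      map_one' := by apply Subtype.ext; simp
      map_mul' := by intro a b; apply Subtype.ext; simp }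
  have hfi : Function.Injective f := by
    intro a b hab
    apply Subtype.ext
    have := congrArg Subtype.val hab
    simpa [f] using this
  have hfin : Finite hB.grp := by
    have hcg := hB.card_grp h2
    haveI : Nonempty Λ := ⟨o⟩
    exact Nat.finite_of_card_ne_zero (by rw [hcg]; exact (Nat.mul_pos two_pos Fintype.card_pos).ne')
  refine ⟨MulEquiv.ofBijective f (Finite.injective_iff_bijective.1 hfi), ?_⟩
  intro x hx
  rcases hconj x x.2 with ⟨h, -⟩ | ⟨-, h⟩
  · rw [h] at hx
    exact absurd hx (SpNot.two_ne h2 _)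
  · exact h

include h2 in
theorem Sys.symplecticType [Fintype F] {k : ℕ} (hcard : Fintype.card Λ = 2 ^ (2 * k)) (h4 : ∃ x y : Λ, x ≠ o ∧ y ≠ x) :
    IsSymplecticTypeGroup 2 hB.grp where
  prime := Nat.prime_two
  pGroup := by
    haveI : Fact (Nat.Prime 2) := ⟨Nat.prime_two⟩
    apply IsPGroup.of_card (n := 2 * k + 1)
    rw [hB.card_grp h2, hcard, pow_succ, mul_comm]
  cyclic_of_characteristic := by
    intro A hA hAc
    have hle : ∀ x ∈ A, (x : GL ι F) = 1 ∨ (x : GL ι F) = -1 := by
      intro x hx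
      by_contra hcon
      push Not at hcon
      obtain ⟨w, hw, hww, hwx⟩ := hB.exists_wit x.2 hcon.1 hcon.2
      obtain ⟨φ, hφ⟩ := hB.exists_aut h2 (x := x) hw hww
      have h1 : φ x ∈ A := (Subgroup.characteristic_iff_le_comap.1 hA) φ hx
      have h3 := hAc.is_comm.comm (⟨φ x, h1⟩ : A) ⟨x, hx⟩
      have h5 : ((φ x : hB.grp) : GL ι F) * (x : GL ι F) = (x : GL ι F) * ((φ x : hB.grp) : GL ι F) :=
        congrArg (fun z : A => ((z : hB.grp) : GL ι F)) h3
      rw [hφ x hwx, hwx, mul_neg, neg_mul, mul_assoc, hwx, mul_neg] at h5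
      exact SpNot.two_ne h2 _ h5.symm
    -- A has order at most two
    have hfin : Finite hB.grp := by
      have hcg := hB.card_grp h2
      haveI : Nonempty Λ := ⟨o⟩
      exact Nat.finite_of_card_ne_zero (by rw [hcg]; exact (Nat.mul_pos two_pos Fintype.card_pos).ne')
    have hAle : Nat.card A ≤ 2 := by
      classical
      have hinj : Function.Injective (fun z : A => if ((z : hB.grp) : GL ι F) = 1 then (0 : Fin 2) else 1) := by
        intro a b hab
        apply Subtype.ext; apply Subtype.ext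
        simp only at hab
        split_ifs at hab with h1 h2 h2
        · rw [h1, h2]
        · exact absurd hab (by decide)
        · exact absurd hab (by decide)
        · rw [(hle a a.2).resolve_left h1, (hle b b.2).resolve_left h2]
      have := Nat.card_le_card_of_injective _ hinj
      rwa [Nat.card_fin] at this
    rcases (show Nat.card A = 0 ∨ Nat.card A = 1 ∨ Nat.card A = 2 by omega) with h | h | h
    · exact absurd h (Nat.card_pos (α := A)).ne'
    · haveI := (Nat.card_eq_one_iff_unique.1 h).1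
      infer_instance
    · haveI : Fact (Nat.Prime 2) := ⟨Nat.prime_two⟩
      exact isCyclic_of_prime_card h
  exponent_eq := by
    obtain ⟨a, -, ha, -⟩ := h4
    obtain ⟨w, hw, -⟩ := hB.wit a ha
    obtain ⟨g, hg, hgw⟩ := hB.exists_mem w
    have hgg : g * g = -1 := Units.ext (by rw [Units.val_mul, hgw, hw]; rfl)
    have hdvd : Monoid.exponent hB.grp ∣ 4 := by
      apply Monoid.exponent_dvd_of_forall_pow_eq_one
      intro x
      apply Subtype.ext
      show ((x : GL ι F)) ^ 4 = 1
      rw [show 4 = 2 * 2 from rfl, pow_mul, pow_two (x : GL ι F)]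
      rcases hB.sq_mem x.2 with h | h
      · rw [h, one_pow]
      · rw [h]; simp
    have hne2 : ¬ Monoid.exponent hB.grp ∣ 2 := by
      intro h
      have h1 : (⟨g, hg⟩ : hB.grp) ^ 2 = 1 := Monoid.exponent_dvd_iff_forall_pow_eq_one.1 h _
      have h3 : g ^ 2 = 1 := congrArg Subtype.val h1
      rw [pow_two, hgg] at h3
      exact SpNot.two_ne h2 _ h3.symm
    have h5 : Monoid.exponent hB.grp ≤ 4 := Nat.le_of_dvd (by norm_num) hdvd
    have h6 : Nat.gcd 2 2 = 2 := rfl
    rw [h6]
    interval_cases h7 : Monoid.exponent hB.grp <;> omega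

end

end Cfsg.Agent.Lib.AschESys
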