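import Cfsg.Agent.Lib.AschESys
set_option autoImplicit false
set_option linter.style.haveILetI false
set_option linter.unusedVariables false
set_option linter.unusedSectionVars false

/-!
Systems of matrices that commute or anticommute, with the fourth roots of unity adjoined.
-/

namespace Cfsg.Agent.Lib.AschESys

open Cfsg Cfsg.Geo Cfsg.Agent.Lib.AschMU Cfsg.Agent.Lib.AschCore Cfsg.Agent.Lib.AschField Cfsg.Agent.Lib.AschAlg
  Cfsg.Agent.Lib.AschGroup Cfsg.Agent.Lib.AschGood Cfsg.Agent.Lib.AschAdj Cfsg.Agent.Lib.AschNonab Cfsg.Agent.Lib.AschTensor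
  Cfsg.Agent.Lib.AschComp Cfsg.Agent.Lib.AschSp
open Cfsg.Agent.Lib.AschDescent (env mem_env)
open scoped Matrix MatrixGroups Kronecker

variable {ι : Type} [Fintype ι] [DecidableEq ι] {F : Type*} [Field F]

lemma fourth_root {i : F} (hi : i * i = -1) {c : F} (hc : c ^ 4 = 1) : ∃ k : Fin 4, c = i ^ (k : ℕ) := by
  have h1 : (c ^ 2 - 1) * (c ^ 2 + 1) = 0 := by linear_combination hc
  rcases mul_eq_zero.1 h1 with h | h
  · have h2 : (c - 1) * (c + 1) = 0 := by linear_combination h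
    rcases mul_eq_zero.1 h2 with h3 | h3
    · exact ⟨0, by simp; linear_combination h3⟩
    · exact ⟨2, by simp; linear_combination h3 - hi⟩
  · have h2 : (c - i) * (c + i) = 0 := by linear_combination h - hi
    rcases mul_eq_zero.1 h2 with h3 | h3
    · exact ⟨1, by simp; linear_combination h3⟩
    · exact ⟨3, by simp; linear_combination h3 - i * hi⟩

lemma i_pow_four {i : F} (hi : i * i = -1) : i ^ 4 = 1 := by linear_combination (i ^ 2 - 1) * hi

lemma i_ne_zero {i : F} (hi : i * i = -1) : i ≠ 0 := by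
  rintro rfl
  rw [mul_zero] at hi
  exact neg_ne_zero.2 one_ne_zero hi.symm

lemma i_pow_pow {i : F} (hi : i * i = -1) (k : ℕ) : (i ^ k) ^ 4 = 1 := by
  rw [← pow_mul, mul_comm, pow_mul, i_pow_four hi, one_pow]

lemma i_pow_inj {i : F} (h2 : (2 : F) ≠ 0) (hi : i * i = -1) {k l : Fin 4} (h : i ^ (k : ℕ) = i ^ (l : ℕ)) : k = l := by
  have h1 : i ≠ 1 := by
    rintro rfl
    apply h2; linear_combination hi
  have h3 : i ≠ -1 := by
    rintro rfl
    apply h2; linear_combination hi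
  have h4 : (1 : F) ≠ -1 := by
    intro h; apply h2; linear_combination h
  have h0 := i_ne_zero hi
  have e2 : i ^ 2 = -1 := by rw [sq, hi]
  have e3 : i ^ 3 = -i := by rw [pow_succ, e2]; ring
  have h5 : i ≠ -i := by
    intro h
    apply h0
    have : (2 : F) * i = 0 := by linear_combination h
    exact (mul_eq_zero.1 this).resolve_left h2
  fin_cases k <;> fin_cases l <;> simp [e2, e3] at h ⊢ <;>
    first
    | exact h1 h
    | exact h1 h.symm
    | exact h3 h
    | exact h3 h.symm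
    | exact h4 h
    | exact h4 h.symm
    | exact h5 h
    | exact h5 h.symm
    | (apply h1; linear_combination -h)
    | (apply h3; linear_combination -h)
    | (apply h1; linear_combination h)
    | (apply h3; linear_combination h)

section
variable {Λ : Type} [Fintype Λ] [DecidableEq Λ] {B : Λ → Matrix ι ι F} {o : Λ} (hB : Sys B o) (h2 : (2 : F) ≠ 0) [Nonempty ι]
variable {i : F} (hi : i * i = -1)
include hB

/-- The group of all `c • B x` with `c` a fourth root of unity. -/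
def Sys.grpI : Subgroup (GL ι F) where
  carrier := {g | ∃ x, ∃ c : F, c ^ 4 = 1 ∧ (g : Matrix ι ι F) = c • B x}
  mul_mem' := by
    rintro a b ⟨x, c, hc, hx⟩ ⟨y, d, hd, hy⟩
    obtain ⟨z, hz⟩ := hB.mul x y
    rcases hz with hz | hz
    · exact ⟨z, c * d, by rw [mul_pow, hc, hd, one_mul], by
        rw [Units.val_mul, hx, hy, Matrix.smul_mul, Matrix.mul_smul, smul_smul, hz]⟩
    · exact ⟨z, -(c * d), by rw [neg_pow, mul_pow, hc, hd]; norm_num, by
        rw [Units.val_mul, hx, hy, Matrix.smul_mul, Matrix.mul_smul, smul_smul, hz, smul_neg, neg_smul]⟩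
  one_mem' := ⟨o, 1, one_pow _, by rw [hB.one, Units.val_one, one_smul]⟩
  inv_mem' := by
    rintro a ⟨x, c, hc, hx⟩
    have hc0 : c ≠ 0 := by
      rintro rfl
      rw [zero_pow (by norm_num)] at hc
      exact zero_ne_one hc
    have key : ∀ X : Matrix ι ι F, (a : Matrix ι ι F) * X = 1 → ((a⁻¹ : GL ι F) : Matrix ι ι F) = X := by
      intro X hX
      calc ((a⁻¹ : GL ι F) : Matrix ι ι F) = ((a⁻¹ : GL ι F) : Matrix ι ι F) * ((a : Matrix ι ι F) * X) := by rw [hX, mul_one]
        _ = X := by rw [← mul_assoc, gl_inv_mul, one_mul]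
    rcases hB.sq x with h | h
    · refine ⟨x, c⁻¹, by rw [inv_pow, hc, inv_one], key _ ?_⟩
      rw [hx, Matrix.smul_mul, Matrix.mul_smul, smul_smul, mul_inv_cancel₀ hc0, one_smul, h]
    · refine ⟨x, -c⁻¹, by rw [neg_pow, inv_pow, hc, inv_one]; norm_num, key _ ?_⟩
      rw [hx, Matrix.smul_mul, Matrix.mul_smul, smul_smul, mul_neg, mul_inv_cancel₀ hc0, h, neg_one_smul, neg_neg]

lemma Sys.mem_grpI {g : GL ι F} : g ∈ hB.grpI ↔ ∃ x, ∃ c : F, c ^ 4 = 1 ∧ (g : Matrix ι ι F) = c • B x := Iff.rfl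

lemma Sys.grp_le_grpI : hB.grp ≤ hB.grpI := by
  rintro g ⟨x, h | h⟩
  · exact ⟨x, 1, one_pow _, by rw [h, one_smul]⟩
  · exact ⟨x, -1, by norm_num, by rw [h, neg_one_smul]⟩

/-- A scalar as an element of `GL`. -/
noncomputable def sc (c : Fˣ) : GL ι F := Units.map (Matrix.scalar ι : F →+* Matrix ι ι F).toMonoidHom c

omit hB in
lemma sc_val (c : Fˣ) : ((sc c : GL ι F) : Matrix ι ι F) = (c : F) • 1 := by
  show Matrix.scalar ι (c : F) = _
  rw [Matrix.scalar_apply, Matrix.smul_one_eq_diagonal]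

lemma Sys.sc_mem {c : Fˣ} (hc : (c : F) ^ 4 = 1) : sc c ∈ hB.grpI := ⟨o, c, hc, by rw [sc_val, hB.one]⟩

include h2 hi in
lemma Sys.card_grpI : Nat.card hB.grpI = 4 * Fintype.card Λ := by
  classical
  have hu : ∀ p : Λ × Fin 4, IsUnit (i ^ (p.2 : ℕ) • B p.1) := by
    intro p
    have h := hB.isUnit p.1
    rw [Matrix.isUnit_iff_isUnit_det] at h ⊢
    rw [Matrix.det_smul]
    exact ((IsUnit.mk0 _ (pow_ne_zero _ (i_ne_zero hi))).pow _).mul h
  let f : Λ × Fin 4 → hB.grpI := fun p => ⟨(hu p).unit, p.1, i ^ (p.2 : ℕ), i_pow_pow hi _, rfl⟩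
  have hf : Function.Bijective f := by
    constructor
    · rintro ⟨x, a⟩ ⟨y, b⟩ h
      have hm : i ^ (a : ℕ) • B x = i ^ (b : ℕ) • B y := congrArg (fun z : hB.grpI => ((z : GL ι F) : Matrix ι ι F)) h
      have ha0 : i ^ (a : ℕ) ≠ 0 := pow_ne_zero _ (i_ne_zero hi)
      have hb0 : i ^ (b : ℕ) ≠ 0 := pow_ne_zero _ (i_ne_zero hi)
      have hxy : x = y := by
        by_contra hne
        obtain ⟨z, hz⟩ := hB.sep x y hne
        have hzy : B z * B y ≠ 0 := ((hB.isUnit z).mul (hB.isUnit y)).ne_zero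
        have hzx : B z * B x ≠ 0 := ((hB.isUnit z).mul (hB.isUnit x)).ne_zero
        have e1 : (i ^ (a : ℕ) • B x) * B z = (i ^ (b : ℕ) • B y) * B z := by rw [hm]
        have e2 : B z * (i ^ (a : ℕ) • B x) = B z * (i ^ (b : ℕ) • B y) := by rw [hm]
        rw [Matrix.smul_mul, Matrix.smul_mul] at e1
        rw [Matrix.mul_smul, Matrix.mul_smul] at e2
        rcases hz with ⟨h1, h3⟩ | ⟨h1, h3⟩
        · rw [h1, e2, h3, smul_neg] at e1
          exact ne_neg h2 (smul_ne_zero hb0 hzy) e1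
        · rw [h1, h3, smul_neg, e2] at e1
          exact ne_neg h2 (smul_ne_zero hb0 hzy) e1.symm
      subst hxy
      have hab : i ^ (a : ℕ) = i ^ (b : ℕ) := by
        have h3 : (i ^ (a : ℕ) - i ^ (b : ℕ)) • B x = 0 := by rw [sub_smul, hm, sub_self]
        rcases smul_eq_zero.1 h3 with h4 | h4
        · exact sub_eq_zero.1 h4
        · exact absurd h4 (hB.isUnit x).ne_zero
      rw [i_pow_inj h2 hi hab]
    · rintro ⟨g, x, c, hc, hx⟩
      obtain ⟨k, rfl⟩ := fourth_root hi hc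
      exact ⟨(x, k), Subtype.ext (Units.ext hx.symm)⟩
  rw [← Nat.card_congr (Equiv.ofBijective f hf), Nat.card_eq_fintype_card, Fintype.card_prod, Fintype.card_fin, mul_comm]

include h2 in
lemma Sys.absIrrI (hn : (Fintype.card ι : F) ≠ 0) (hcard : Fintype.card Λ = Fintype.card ι ^ 2) : ActsAbsolutelyIrreducibly (matrixSet hB.grpI) := by
  obtain ⟨h1, h3⟩ := hB.absIrr h2 hn hcard
  refine ⟨fun W hW => h1 W ?_, fun M hM => h3 M ?_⟩
  · rintro _ ⟨g, hg, rfl⟩
    exact hW _ ⟨g, hB.grp_le_grpI hg, rfl⟩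
  · rintro _ ⟨g, hg, rfl⟩
    exact hM _ ⟨g, hB.grp_le_grpI hg, rfl⟩

lemma Sys.comm_memI {x y : GL ι F} (hx : x ∈ hB.grpI) (hy : y ∈ hB.grpI) : x * y = y * x ∨ x * y = -(y * x) := by
  obtain ⟨a, c, -, ha⟩ := hx
  obtain ⟨b, d, -, hb⟩ := hy
  have key : (x : Matrix ι ι F) * (y : Matrix ι ι F) = (y : Matrix ι ι F) * (x : Matrix ι ι F) ∨
      (x : Matrix ι ι F) * (y : Matrix ι ι F) = -((y : Matrix ι ι F) * (x : Matrix ι ι F)) := by
    rw [ha, hb]
    simp only [Matrix.smul_mul, Matrix.mul_smul]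
    rcases hB.comm a b with h | h
    · left; rw [h, smul_comm]
    · right; rw [h, smul_neg, smul_neg, smul_comm]
  rcases key with h | h
  · left; exact Units.ext h
  · right; exact Units.ext h

include hi in
/-- Elements that are not scalar anticommute with some element of square `-1`. -/
lemma Sys.exists_witI {x : GL ι F} (hx : x ∈ hB.grpI) (hx1 : x ∉ scalars ι F) :
    ∃ w ∈ hB.grpI, w * w = -1 ∧ w * x = -(x * w) := by
  obtain ⟨a, c, hc, ha⟩ := hx
  have hc0 : c ≠ 0 := by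
    rintro rfl
    rw [zero_pow (by norm_num)] at hc
    exact zero_ne_one hc
  have hao : a ≠ o := by
    rintro rfl
    rw [hB.one] at ha
    exact hx1 ((mem_scalars_iff _).2 ⟨Units.mk0 c hc0, ha⟩)
  obtain ⟨w, hw, hwa⟩ := hB.wit a hao
  obtain ⟨g, hg, hgw⟩ := hB.exists_mem w
  refine ⟨g, hB.grp_le_grpI hg, Units.ext (by rw [Units.val_mul, hgw, hw]; rfl), Units.ext ?_⟩
  rw [Units.val_mul, Units.val_neg, Units.val_mul, hgw, ha, Matrix.mul_smul, hwa, Matrix.smul_mul, smul_neg]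

omit hB in
lemma exists_sc {x : GL ι F} (hx : x ∈ scalars ι F) : ∃ c : Fˣ, x = sc c := by
  obtain ⟨c, hc⟩ := (mem_scalars_iff _).1 hx
  exact ⟨c, Units.ext (by rw [hc, sc_val])⟩

omit hB in
lemma sc_pow (c : Fˣ) (k : ℕ) : (sc c : GL ι F) ^ k = sc (c ^ k) := by
  show (Units.map _ c) ^ k = Units.map _ (c ^ k)
  rw [map_pow]

lemma Sys.fourth_of_mem {c : Fˣ} (h2 : (2 : F) ≠ 0) (h : sc c ∈ hB.grpI) : (c : F) ^ 4 = 1 := by
  obtain ⟨x, d, hd, hx⟩ := h
  rw [sc_val] at hx
  have hxo : x = o := by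
    by_contra hne
    obtain ⟨w, -, hw⟩ := hB.wit x hne
    have hd0 : d ≠ 0 := by
      rintro rfl
      rw [zero_pow (by norm_num)] at hd
      exact zero_ne_one hd
    have e1 : B w * ((c : F) • 1) = ((c : F) • (1 : Matrix ι ι F)) * B w := by
      rw [Matrix.mul_smul, Matrix.smul_mul, mul_one, one_mul]
    rw [hx, Matrix.mul_smul, Matrix.smul_mul, hw] at e1
    have e2 : B x * B w ≠ 0 := ((hB.isUnit x).mul (hB.isUnit w)).ne_zero
    rw [smul_neg] at e1
    exact ne_neg h2 (smul_ne_zero hd0 e2) e1.symm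
  subst hxo
  rw [hB.one] at hx
  have h3 := congrArg (fun M : Matrix ι ι F => M (Classical.arbitrary ι) (Classical.arbitrary ι)) hx
  simp at h3
  rw [h3, hd]

include h2 hi in
lemma Sys.center_leI {x : GL ι F} (hx : x ∈ hB.grpI) (hc : ∀ y ∈ hB.grpI, x * y = y * x) : x ∈ scalars ι F := by
  by_contra hcon
  obtain ⟨w, hw, -, hwx⟩ := hB.exists_witI hi hx hcon
  rw [← hc w hw] at hwx
  exact SpNot.two_ne h2 _ hwx

include h2 hi in
lemma Sys.exists_gen : ∃ z : hB.grpI, orderOf z = 4 ∧ Subgroup.zpowers z = Subgroup.center hB.grpI := by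
  classical
  have hi4 : ((Units.mk0 i (i_ne_zero hi) : Fˣ) : F) ^ 4 = 1 := i_pow_four hi
  set u : Fˣ := Units.mk0 i (i_ne_zero hi) with hu
  refine ⟨⟨sc u, hB.sc_mem hi4⟩, ?_, ?_⟩
  · have h4 : (⟨sc u, hB.sc_mem hi4⟩ : hB.grpI) ^ 2 ^ (1 + 1) = 1 := by
      apply Subtype.ext
      show (sc u : GL ι F) ^ 4 = 1
      rw [sc_pow]
      apply Units.ext
      rw [sc_val, Units.val_pow_eq_pow_val, hi4, one_smul, Units.val_one]
    have h2' : ¬ (⟨sc u, hB.sc_mem hi4⟩ : hB.grpI) ^ 2 ^ 1 = 1 := by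
      intro h
      have h3 : (sc u : GL ι F) ^ 2 = 1 := congrArg Subtype.val h
      rw [sc_pow] at h3
      have h5 := congrArg (fun g : GL ι F => (g : Matrix ι ι F) (Classical.arbitrary ι) (Classical.arbitrary ι)) h3
      simp only [sc_val, Units.val_one, Matrix.smul_apply, Matrix.one_apply_eq, smul_eq_mul, mul_one, Units.val_pow_eq_pow_val] at h5
      have h6 : i * i = 1 := by rw [← pow_two]; exact h5
      rw [hi] at h6
      apply h2
      linear_combination -h6
    exact orderOf_eq_prime_pow (p := 2) (n := 1) h2' h4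
  · apply le_antisymm
    · rw [Subgroup.zpowers_le, Subgroup.mem_center_iff]
      intro g
      apply Subtype.ext
      show (g : GL ι F) * sc u = sc u * (g : GL ι F)
      apply Units.ext
      rw [Units.val_mul, Units.val_mul, sc_val, Matrix.mul_smul, Matrix.smul_mul, mul_one, one_mul]
    · intro z hz
      have h1 : ∀ y ∈ hB.grpI, (z : GL ι F) * y = y * (z : GL ι F) := by
        intro y hy
        have := Subgroup.mem_center_iff.1 hz ⟨y, hy⟩
        exact (congrArg Subtype.val this).symm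
      obtain ⟨c, hc⟩ := exists_sc (hB.center_leI h2 hi z.2 h1)
      have hc4 : (c : F) ^ 4 = 1 := hB.fourth_of_mem h2 (by rw [← hc]; exact z.2)
      obtain ⟨k, hk⟩ := fourth_root hi hc4
      refine ⟨(k : ℕ), ?_⟩
      apply Subtype.ext
      show ((⟨sc u, hB.sc_mem hi4⟩ : hB.grpI) ^ ((k : ℕ) : ℤ) : hB.grpI).1 = z.1
      rw [zpow_natCast]
      show (sc u : GL ι F) ^ (k : ℕ) = z.1
      rw [sc_pow, hc]
      apply Units.ext
      rw [sc_val, sc_val, Units.val_pow_eq_pow_val, hk]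
      rfl

include h2 hi in
lemma Sys.card_centerI : Nat.card (Subgroup.center hB.grpI) = 4 := by
  obtain ⟨z, hz, hzc⟩ := hB.exists_gen h2 hi
  rw [← hzc, Nat.card_zpowers, hz]

include h2 in
/-- Conjugation by `1 + w`. -/
lemma Sys.exists_autI {w : GL ι F} (hw : w ∈ hB.grpI) (hww : w * w = -1) (hi : i * i = -1) :
    ∃ φ : hB.grpI ≃* hB.grpI, ∀ x : hB.grpI, w * (x : GL ι F) = -((x : GL ι F) * w) → ((φ x : hB.grpI) : GL ι F) = w * (x : GL ι F) := by
  classical
  have hwm : (w : Matrix ι ι F) * (w : Matrix ι ι F) = -1 := by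
    rw [← Units.val_mul, hww]; rfl
  have h22 : (2 : F)⁻¹ * 2 = 1 := inv_mul_cancel₀ h2
  have e1 : (1 + (w : Matrix ι ι F)) * ((2 : F)⁻¹ • (1 - (w : Matrix ι ι F))) = 1 := by
    rw [Matrix.mul_smul]
    have : (1 + (w : Matrix ι ι F)) * (1 - (w : Matrix ι ι F)) = (2 : F) • 1 := by
      rw [add_mul, mul_sub, mul_sub, hwm, one_mul, one_mul, mul_one, two_smul]; abel
    rw [this, smul_smul, h22, one_smul]
  have e2 : ((2 : F)⁻¹ • (1 - (w : Matrix ι ι F))) * (1 + (w : Matrix ι ι F)) = 1 := by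
    rw [Matrix.smul_mul]
    have : (1 - (w : Matrix ι ι F)) * (1 + (w : Matrix ι ι F)) = (2 : F) • 1 := by
      rw [sub_mul, mul_add, mul_add, hwm, one_mul, one_mul, mul_one, two_smul]; abel
    rw [this, smul_smul, h22, one_smul]
  let u : GL ι F := ⟨1 + (w : Matrix ι ι F), (2 : F)⁻¹ • (1 - (w : Matrix ι ι F)), e1, e2⟩
  have hu : (u : Matrix ι ι F) = 1 + (w : Matrix ι ι F) := rfl
  have hconj : ∀ x ∈ hB.grpI, (w * x = x * w ∧ u * x * u⁻¹ = x) ∨ (w * x = -(x * w) ∧ u * x * u⁻¹ = w * x) := by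
    intro x hx
    rcases hB.comm_memI hw hx with h | h
    · left
      refine ⟨h, ?_⟩
      rw [mul_inv_eq_iff_eq_mul]
      apply Units.ext
      rw [Units.val_mul, Units.val_mul, hu, add_mul, mul_add, one_mul, mul_one]
      congr 1
      rw [← Units.val_mul, h, Units.val_mul]
    · right
      refine ⟨h, ?_⟩
      rw [mul_inv_eq_iff_eq_mul]
      apply Units.ext
      have h3 : (w : Matrix ι ι F) * (x : Matrix ι ι F) = -((x : Matrix ι ι F) * (w : Matrix ι ι F)) := by
        have := congrArg (fun z : GL ι F => (z : Matrix ι ι F)) h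
        simpa using this
      rw [Units.val_mul, Units.val_mul, Units.val_mul, hu, add_mul, mul_add, one_mul, mul_one]
      have h4 : (w : Matrix ι ι F) * (x : Matrix ι ι F) * (w : Matrix ι ι F) = (x : Matrix ι ι F) := by
        rw [h3, neg_mul, mul_assoc, hwm, mul_neg, mul_one, neg_neg]
      rw [h4, add_comm]
  have hmem : ∀ x ∈ hB.grpI, u * x * u⁻¹ ∈ hB.grpI := by
    intro x hx
    rcases hconj x hx with ⟨-, h⟩ | ⟨-, h⟩
    · rw [h]; exact hx
    · rw [h]; exact mul_mem hw hx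
  let f : hB.grpI →* hB.grpI :=
    { toFun := fun x => ⟨u * x * u⁻¹, hmem x x.2⟩
      map_one' := by apply Subtype.ext; simp
      map_mul' := by intro a b; apply Subtype.ext; simp }
  have hfi : Function.Injective f := by
    intro a b hab
    apply Subtype.ext
    have := congrArg Subtype.val hab
    simpa [f] using this
  have hfin : Finite hB.grpI := by
    have hcg := hB.card_grpI h2 hi
    haveI : Nonempty Λ := ⟨o⟩
    exact Nat.finite_of_card_ne_zero (by rw [hcg]; exact (Nat.mul_pos (by norm_num) Fintype.card_pos).ne')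
  refine ⟨MulEquiv.ofBijective f (Finite.injective_iff_bijective.1 hfi), ?_⟩
  intro x hx
  rcases hconj x x.2 with ⟨h, -⟩ | ⟨-, h⟩
  · rw [h] at hx
    exact absurd hx (SpNot.two_ne h2 _)
  · exact h

include h2 hi in
theorem Sys.symplecticTypeI [Fintype F] {k : ℕ} (hcard : Fintype.card Λ = 2 ^ (2 * k)) :
    IsSymplecticTypeGroup 2 hB.grpI where
  prime := Nat.prime_two
  pGroup := by
    haveI : Fact (Nat.Prime 2) := ⟨Nat.prime_two⟩
    apply IsPGroup.of_card (n := 2 * k + 2)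
    rw [hB.card_grpI h2 hi, hcard, pow_succ, pow_succ]
    ring
  cyclic_of_characteristic := by
    intro A hA hAc
    have hle : A ≤ Subgroup.center hB.grpI := by
      intro x hx
      have hxs : (x : GL ι F) ∈ scalars ι F := by
        by_contra hcon
        obtain ⟨w, hw, hww, hwx⟩ := hB.exists_witI hi x.2 hcon
        obtain ⟨φ, hφ⟩ := hB.exists_autI h2 hw hww hi
        have h1 : φ x ∈ A := (Subgroup.characteristic_iff_le_comap.1 hA) φ hx
        have h3 := hAc.is_comm.comm (⟨φ x, h1⟩ : A) ⟨x, hx⟩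
        have h5 : ((φ x : hB.grpI) : GL ι F) * (x : GL ι F) = (x : GL ι F) * ((φ x : hB.grpI) : GL ι F) :=
          congrArg (fun z : A => ((z : hB.grpI) : GL ι F)) h3
        rw [hφ x hwx, hwx, mul_neg, neg_mul, mul_assoc, hwx, mul_neg] at h5
        exact SpNot.two_ne h2 _ h5.symm
      rw [Subgroup.mem_center_iff]
      intro g
      apply Subtype.ext
      show (g : GL ι F) * (x : GL ι F) = (x : GL ι F) * (g : GL ι F)
      obtain ⟨c, hc⟩ := (mem_scalars_iff _).1 hxs
      apply Units.ext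
      rw [Units.val_mul, Units.val_mul, hc, Matrix.mul_smul, Matrix.smul_mul, mul_one, one_mul]
    obtain ⟨z, hz, hzc⟩ := hB.exists_gen h2 hi
    rw [← hzc] at hle
    haveI : IsCyclic (Subgroup.zpowers z) := inferInstance
    exact isCyclic_of_injective (Subgroup.inclusion hle) (Subgroup.inclusion_injective hle)
  exponent_eq := by
    obtain ⟨z, hz, -⟩ := hB.exists_gen h2 hi
    have h6 : 2 * Nat.gcd 2 2 = 4 := rfl
    rw [h6]
    apply Nat.dvd_antisymm
    · apply Monoid.exponent_dvd_of_forall_pow_eq_one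
      intro x
      apply Subtype.ext
      show ((x : GL ι F)) ^ 4 = 1
      obtain ⟨a, c, hc, ha⟩ := x.2
      apply Units.ext
      rw [Units.val_pow_eq_pow_val, ha, smul_pow, hc, one_smul, show 4 = 2 * 2 from rfl, pow_mul, pow_two (B a)]
      rcases hB.sq a with h | h
      · rw [h, one_pow]; rfl
      · rw [h]; simp
    · rw [← hz]
      exact Monoid.order_dvd_exponent z

end

end Cfsg.Agent.Lib.AschESys
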