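import Cfsg.Agent.Lib.AschSubfield
set_option autoImplicit false
set_option linter.style.haveILetI false
set_option linter.unusedVariables false
set_option linter.unusedSectionVars false

namespace Cfsg.Agent.Lib.AschExtra

open Cfsg Cfsg.Geo Cfsg.Agent.Lib.AschForms
open scoped Matrix MatrixGroups

/-! ### A class 2 power formula -/
section cls2
variable {G : Type*} [Group G]

/-- if `y x = c x y` with `c` commuting with `x`, `y`, then `(x y)^n = x^n y^n c^(n(n-1)/2)` -/
lemma mul_pow_class_two {x y c : G} (hc : y * x = c * (x * y)) (hcx : c * x = x * c) (hcy : c * y = y * c) (n : ℕ) :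
    (x * y) ^ n = x ^ n * y ^ n * c ^ (n * (n - 1) / 2) := by
  have hyx : ∀ k : ℕ, y ^ k * x = c ^ k * x * y ^ k := by
    intro k
    induction k with
    | zero => simp
    | succ k ih =>
      have hcyk : y * c ^ k = c ^ k * y := ((show Commute y c from hcy.symm).pow_right k).eq
      calc y ^ (k + 1) * x = y * (y ^ k * x) := by rw [pow_succ']; group
        _ = y * (c ^ k * x * y ^ k) := by rw [ih]
        _ = (y * c ^ k) * x * y ^ k := by group
        _ = c ^ k * (y * x) * y ^ k := by rw [hcyk]; group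
        _ = c ^ k * (c * (x * y)) * y ^ k := by rw [hc]
        _ = c ^ (k + 1) * x * y ^ (k + 1) := by rw [pow_succ, pow_succ']; group
  induction n with
  | zero => simp
  | succ n ih =>
    have h1 : (n + 1) * (n + 1 - 1) / 2 = n * (n - 1) / 2 + n := by
      rcases n with _ | n
      · simp
      · have : (n + 1 + 1) * (n + 1 + 1 - 1) = (n + 1) * (n + 1 - 1) + (n + 1) * 2 := by
          simp only [Nat.add_sub_cancel]; ring
        rw [this, Nat.add_mul_div_right _ _ (by norm_num)]
    have hcx' : ∀ k : ℕ, Commute (c ^ k) x := fun k => (show Commute c x from hcx).pow_left k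
    have hcy' : ∀ k : ℕ, Commute (c ^ k) y := fun k => (show Commute c y from hcy).pow_left k
    have h2 : c ^ (n * (n - 1) / 2) * (x * y) = x * y * c ^ (n * (n - 1) / 2) := by
      rw [← mul_assoc, (hcx' _).eq, mul_assoc, (hcy' _).eq, mul_assoc]
    calc (x * y) ^ (n + 1) = x ^ n * y ^ n * c ^ (n * (n - 1) / 2) * (x * y) := by rw [pow_succ, ih]
      _ = x ^ n * (y ^ n * x) * y * c ^ (n * (n - 1) / 2) := by
          rw [mul_assoc _ (c ^ _), h2]; group
      _ = x ^ n * (c ^ n * x * y ^ n) * y * c ^ (n * (n - 1) / 2) := by rw [hyx]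
      _ = x ^ n * x * c ^ n * y ^ n * y * c ^ (n * (n - 1) / 2) := by rw [(hcx' n).eq]; group
      _ = x ^ n * x * (y ^ n * c ^ n) * y * c ^ (n * (n - 1) / 2) := by rw [← ((hcy' n).pow_right n).eq]; group
      _ = x ^ n * x * y ^ n * (c ^ n * y) * c ^ (n * (n - 1) / 2) := by group
      _ = x ^ n * x * y ^ n * (y * c ^ n) * c ^ (n * (n - 1) / 2) := by rw [(hcy' n).eq]
      _ = x ^ (n + 1) * y ^ (n + 1) * c ^ ((n + 1) * (n + 1 - 1) / 2) := by
          rw [h1, add_comm (n * (n - 1) / 2) n, pow_add c n, pow_succ x n, pow_succ y n]; simp only [mul_assoc]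

end cls2

variable {ι : Type} [Fintype ι] [DecidableEq ι] {F : Type*} [Field F]

lemma scalar_comm {z : GL ι F} (hz : z ∈ scalars ι F) (g : GL ι F) : z * g = g * z := by
  obtain ⟨c, hc⟩ := (mem_scalars_iff z).1 hz
  apply Units.ext
  rw [Units.val_mul, Units.val_mul, hc, Matrix.smul_mul, Matrix.one_mul, Matrix.mul_smul, Matrix.mul_one]

/-- elements of an absolutely irreducible group commuting with the group are scalars -/
lemma mem_scalars_of_comm {S : Subgroup (GL ι F)} (habs : ActsAbsolutelyIrreducibly (matrixSet S)) {g : GL ι F}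
    (hg : ∀ s ∈ S, g * s = s * g) : g ∈ scalars ι F := by
  classical
  rcases isEmpty_or_nonempty ι with hι | hι
  · rw [Subsingleton.elim g 1]; exact one_mem _
  obtain ⟨c, hc⟩ := habs.2 (g : Matrix ι ι F) (by
    rintro _ ⟨s, hs, rfl⟩
    rw [← Units.val_mul, hg s hs, Units.val_mul])
  rw [mem_scalars_iff]
  have hc0 : c ≠ 0 := by
    rintro rfl
    rw [zero_smul] at hc
    exact g.ne_zero hc
  exact ⟨Units.mk0 c hc0, by simpa using hc⟩

/-- linear independence of elements of a group which is abelian modulo scalars -/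
theorem linearIndependent_of_abelian_mod_scalars {S : Subgroup (GL ι F)}
    (habs : ActsAbsolutelyIrreducibly (matrixSet S)) (hcomm : ∀ x ∈ S, ∀ y ∈ S, x * y * x⁻¹ * y⁻¹ ∈ scalars ι F)
    {J : Type*} (T : J → GL ι F) (hT : ∀ j, T j ∈ S) (hne : ∀ j k, j ≠ k → (T j)⁻¹ * T k ∉ scalars ι F)
    [hι : Nonempty ι] :
    LinearIndependent F (fun j => (T j : Matrix ι ι F)) := by
  classical
  -- commutation scalars
  have hchi : ∀ y ∈ S, ∀ j, ∃ c : F, c ≠ 0 ∧ (y : Matrix ι ι F) * (T j : Matrix ι ι F) * ((y⁻¹ : GL ι F) : Matrix ι ι F) = c • (T j : Matrix ι ι F) := by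
    intro y hy j
    obtain ⟨c, hc⟩ := (mem_scalars_iff _).1 (hcomm y hy (T j) (hT j))
    refine ⟨c, c.ne_zero, ?_⟩
    calc (y : Matrix ι ι F) * (T j : Matrix ι ι F) * ((y⁻¹ : GL ι F) : Matrix ι ι F)
        = ((y * T j * y⁻¹ * (T j)⁻¹ : GL ι F) : Matrix ι ι F) * (T j : Matrix ι ι F) := by
          rw [← Units.val_mul, ← Units.val_mul, ← Units.val_mul]; congr 1; group
      _ = (c : F) • (T j : Matrix ι ι F) := by rw [hc, Matrix.smul_mul, Matrix.one_mul]
  choose! χ hχ0 hχ using hchi
  rw [linearIndependent_iff']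
  intro s
  induction s using Finset.induction_on with
  | empty => simp
  | insert a t ha ih =>
    intro g hg
    have hkey : ∀ k ∈ t, g k = 0 := by
      intro k hk
      have hak : a ≠ k := by rintro rfl; exact ha hk
      -- find y
      have h1 := hne a k hak
      obtain ⟨y, hy, hyc⟩ : ∃ y ∈ S, ((T a)⁻¹ * T k) * y ≠ y * ((T a)⁻¹ * T k) := by
        by_contra hcon
        push Not at hcon
        exact h1 (mem_scalars_of_comm habs hcon)
      have hχne : χ y k ≠ χ y a := by
        intro heq
        apply hyc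
        have e1 := hχ y hy k
        have e2 := hχ y hy a
        rw [heq] at e1
        apply Units.ext
        -- T k y⁻¹-conjugate
        set Y : Matrix ι ι F := (y : Matrix ι ι F)
        set Y' : Matrix ι ι F := ((y⁻¹ : GL ι F) : Matrix ι ι F)
        have hYY' : Y' * Y = 1 := by
          show ((y⁻¹ : GL ι F) : Matrix ι ι F) * (y : Matrix ι ι F) = 1
          rw [← Units.val_mul]; simp
        have e3 : Y * (T k : Matrix ι ι F) = χ y a • (T k : Matrix ι ι F) * Y := by
          rw [← e1, Matrix.mul_assoc, hYY', Matrix.mul_one]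
        have e4 : Y * (T a : Matrix ι ι F) = χ y a • (T a : Matrix ι ι F) * Y := by
          rw [← e2, Matrix.mul_assoc, hYY', Matrix.mul_one]
        -- y * T a⁻¹ = (χ)⁻¹ T a⁻¹ y
        set A' : Matrix ι ι F := (((T a)⁻¹ : GL ι F) : Matrix ι ι F)
        have hA1 : (T a : Matrix ι ι F) * A' = 1 := by
          show (T a : Matrix ι ι F) * (((T a)⁻¹ : GL ι F) : Matrix ι ι F) = 1
          rw [← Units.val_mul]; simp
        have hA2 : A' * (T a : Matrix ι ι F) = 1 := by
          show (((T a)⁻¹ : GL ι F) : Matrix ι ι F) * (T a : Matrix ι ι F) = 1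
          rw [← Units.val_mul]; simp
        have e5 : A' * Y = χ y a • Y * A' := by
          calc A' * Y = A' * (Y * (T a : Matrix ι ι F)) * A' := by
                rw [Matrix.mul_assoc, Matrix.mul_assoc, hA1, Matrix.mul_one]
            _ = A' * (χ y a • (T a : Matrix ι ι F) * Y) * A' := by rw [e4]
            _ = χ y a • ((A' * (T a : Matrix ι ι F)) * Y * A') := by
                simp only [Matrix.smul_mul, Matrix.mul_smul, Matrix.mul_assoc]
            _ = χ y a • Y * A' := by rw [hA2, Matrix.one_mul, Matrix.smul_mul]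
        have h0 := hχ0 y hy a
        show A' * (T k : Matrix ι ι F) * Y = Y * (A' * (T k : Matrix ι ι F))
        have e6 : χ y a • (A' * (T k : Matrix ι ι F) * Y) = χ y a • (Y * (A' * (T k : Matrix ι ι F))) := by
          calc χ y a • (A' * (T k : Matrix ι ι F) * Y) = A' * (χ y a • (T k : Matrix ι ι F) * Y) := by
                simp only [Matrix.smul_mul, Matrix.mul_smul, Matrix.mul_assoc]
            _ = A' * (Y * (T k : Matrix ι ι F)) := by rw [e3]
            _ = (A' * Y) * (T k : Matrix ι ι F) := by rw [Matrix.mul_assoc]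
            _ = _ := by rw [e5]; simp only [Matrix.smul_mul, Matrix.mul_assoc]
        exact smul_right_injective _ h0 e6
      -- the new relation
      have h2 : ∑ j ∈ t, (g j * (χ y j - χ y a)) • (T j : Matrix ι ι F) = 0 := by
        have h3 : ∑ j ∈ insert a t, (g j * χ y j) • (T j : Matrix ι ι F) = 0 := by
          have h4 := congrArg (fun M : Matrix ι ι F => (y : Matrix ι ι F) * M * ((y⁻¹ : GL ι F) : Matrix ι ι F)) hg
          simp only [Matrix.mul_zero, Matrix.zero_mul, Matrix.mul_sum, Matrix.sum_mul] at h4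
          rw [← h4]
          refine Finset.sum_congr rfl fun j _ => ?_
          rw [Matrix.mul_smul, Matrix.smul_mul, hχ y hy j, smul_smul]
        have h5 : ∑ j ∈ insert a t, (g j * χ y a) • (T j : Matrix ι ι F) = 0 := by
          have : ∑ j ∈ insert a t, (g j * χ y a) • (T j : Matrix ι ι F) = χ y a • ∑ j ∈ insert a t, g j • (T j : Matrix ι ι F) := by
            rw [Finset.smul_sum]
            refine Finset.sum_congr rfl fun j _ => ?_
            rw [smul_smul, mul_comm]
          rw [this, hg, smul_zero]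
        have h6 : ∑ j ∈ insert a t, (g j * (χ y j - χ y a)) • (T j : Matrix ι ι F) = 0 := by
          rw [← sub_eq_zero.2 (h3.trans h5.symm), ← Finset.sum_sub_distrib]
          refine Finset.sum_congr rfl fun j _ => ?_
          rw [← sub_smul, mul_sub]
        rw [Finset.sum_insert ha, sub_self, mul_zero, zero_smul, zero_add] at h6
        exact h6
      have h7 := ih _ h2 k hk
      rcases mul_eq_zero.1 h7 with h | h
      · exact h
      · exact absurd (sub_eq_zero.1 h) hχne
    intro i hi
    rcases Finset.mem_insert.1 hi with rfl | hi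
    · rw [Finset.sum_insert ha, Finset.sum_eq_zero (fun j hj => by rw [hkey j hj, zero_smul]), add_zero] at hg
      rcases smul_eq_zero.1 hg with h | h
      · exact h
      · exact absurd h (T i).ne_zero
    · exact hkey i hi

/-- The quotient of a linear group by its scalars. -/
abbrev ProjQ (S : Subgroup (GL ι F)) : Type _ := S ⧸ (scalars ι F).subgroupOf S

/-- chosen representatives -/
noncomputable def rep (S : Subgroup (GL ι F)) (q : ProjQ S) : GL ι F := (Quotient.out q : S)

lemma rep_mem (S : Subgroup (GL ι F)) (q : ProjQ S) : rep S q ∈ S := (Quotient.out q : S).2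

lemma rep_ne (S : Subgroup (GL ι F)) {q q' : ProjQ S} (h : q ≠ q') : (rep S q)⁻¹ * rep S q' ∉ scalars ι F := by
  intro h1
  apply h
  rw [← QuotientGroup.out_eq' q, ← QuotientGroup.out_eq' q', QuotientGroup.eq, Subgroup.mem_subgroupOf]
  exact h1

lemma exists_smul_rep (S : Subgroup (GL ι F)) {s : GL ι F} (hs : s ∈ S) :
    ∃ c : F, c ≠ 0 ∧ (s : Matrix ι ι F) = c • (rep S (QuotientGroup.mk (⟨s, hs⟩ : S) : ProjQ S) : Matrix ι ι F) := by
  set q : ProjQ S := QuotientGroup.mk (⟨s, hs⟩ : S) with hq
  have h1 : (Quotient.out q : S)⁻¹ * ⟨s, hs⟩ ∈ (scalars ι F).subgroupOf S := by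
    rw [← QuotientGroup.eq, QuotientGroup.out_eq', hq]
  rw [Subgroup.mem_subgroupOf] at h1
  obtain ⟨c, hc⟩ := (mem_scalars_iff _).1 h1
  refine ⟨c, c.ne_zero, ?_⟩
  have h2 : (s : Matrix ι ι F) = (rep S q : Matrix ι ι F) * (((Quotient.out q : S)⁻¹ * ⟨s, hs⟩ : S) : GL ι F) := by
    rw [← Units.val_mul]
    congr 1
    simp [rep]
  rw [h2, hc, Matrix.mul_smul, Matrix.mul_one]

/-- Coset representatives of the scalars form a basis of the matrix algebra. -/
noncomputable def cosetBasis [Nonempty ι] (S : Subgroup (GL ι F)) (habs : ActsAbsolutelyIrreducibly (matrixSet S))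
    (hcomm : ∀ x ∈ S, ∀ y ∈ S, x * y * x⁻¹ * y⁻¹ ∈ scalars ι F) : Module.Basis (ProjQ S) F (Matrix ι ι F) :=
  Module.Basis.mk (v := fun q : ProjQ S => (rep S q : Matrix ι ι F))
    (linearIndependent_of_abelian_mod_scalars habs hcomm (rep S) (rep_mem S) (fun _ _ h => rep_ne S h))
    (by
      rw [← span_eq_top S habs, Submodule.span_le]
      rintro _ ⟨s, hs, rfl⟩
      obtain ⟨c, _, hc⟩ := exists_smul_rep S hs
      rw [SetLike.mem_coe]
      show (s : Matrix ι ι F) ∈ _
      rw [hc]
      exact Submodule.smul_mem _ _ (Submodule.subset_span ⟨_, rfl⟩))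

lemma cosetBasis_apply [Nonempty ι] (S : Subgroup (GL ι F)) (habs : ActsAbsolutelyIrreducibly (matrixSet S))
    (hcomm : ∀ x ∈ S, ∀ y ∈ S, x * y * x⁻¹ * y⁻¹ ∈ scalars ι F) (q : ProjQ S) :
    cosetBasis S habs hcomm q = (rep S q : Matrix ι ι F) := by
  simp [cosetBasis]

/-- the order of a group abelian modulo scalars and absolutely irreducible, modulo scalars, is the square of the degree -/
theorem card_projQ [Nonempty ι] (S : Subgroup (GL ι F)) (habs : ActsAbsolutelyIrreducibly (matrixSet S))
    (hcomm : ∀ x ∈ S, ∀ y ∈ S, x * y * x⁻¹ * y⁻¹ ∈ scalars ι F) : Nat.card (ProjQ S) = Fintype.card ι ^ 2 := by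
  have h1 := Module.finrank_eq_nat_card_basis (cosetBasis S habs hcomm)
  rw [← h1, Module.finrank_matrix]
  simp [pow_two]

end Cfsg.Agent.Lib.AschExtra
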