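import Mathlib
set_option autoImplicit false
set_option linter.style.haveILetI false
set_option linter.unusedVariables false

namespace Cfsg.Agent.Lib.PrimLin

variable {F : Type*} [Field F] {V : Type*} [AddCommGroup V] [Module F V]
variable {G : Type*} [Group G]

/-- double centralizer style description -/
def InDC (ρ : G →* Module.End F V) (A : Subgroup G) (x : Module.End F V) : Prop :=
  ∀ c : Module.End F V, (∀ a ∈ A, c * ρ a = ρ a * c) → x * c = c * x

lemma inDC_rho (ρ : G →* Module.End F V) (A : Subgroup G) {a : G} (ha : a ∈ A) : InDC ρ A (ρ a) :=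
  fun c hc => (hc a ha).symm

lemma inDC_one (ρ : G →* Module.End F V) (A : Subgroup G) : InDC ρ A 1 :=
  fun c _ => by simp

lemma InDC.mul {ρ : G →* Module.End F V} {A : Subgroup G} {x y : Module.End F V}
    (hx : InDC ρ A x) (hy : InDC ρ A y) : InDC ρ A (x * y) := fun c hc => by
  rw [mul_assoc, hy c hc, ← mul_assoc, hx c hc, mul_assoc]

lemma InDC.sub {ρ : G →* Module.End F V} {A : Subgroup G} {x y : Module.End F V}
    (hx : InDC ρ A x) (hy : InDC ρ A y) : InDC ρ A (x - y) := fun c hc => by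
  rw [sub_mul, mul_sub, hy c hc, hx c hc]

lemma InDC.pow {ρ : G →* Module.End F V} {A : Subgroup G} {x : Module.End F V}
    (hx : InDC ρ A x) (n : ℕ) : InDC ρ A (x ^ n) := by
  induction n with
  | zero => simpa using inDC_one ρ A
  | succ n ih => rw [pow_succ]; exact ih.mul hx

lemma InDC.comm {ρ : G →* Module.End F V} {A : Subgroup G} (hA : ∀ a ∈ A, ∀ b ∈ A, a * b = b * a)
    {x y : Module.End F V} (hx : InDC ρ A x) (hy : InDC ρ A y) : x * y = y * x := by
  refine hx y (fun a ha => ?_)
  exact hy (ρ a) (fun b hb => by rw [← map_mul, ← map_mul, hA a ha b hb])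

lemma InDC.conj {ρ : G →* Module.End F V} {A : Subgroup G} [hN : A.Normal]
    {x : Module.End F V} (hx : InDC ρ A x) (g : G) : InDC ρ A (ρ g * x * ρ g⁻¹) := by
  intro c hc
  have h1 : x * (ρ g⁻¹ * c * ρ g) = (ρ g⁻¹ * c * ρ g) * x := by
    refine hx _ (fun a ha => ?_)
    have h2 := hc (g * a * g⁻¹) (hN.conj_mem a ha g)
    calc ρ g⁻¹ * c * ρ g * ρ a = ρ g⁻¹ * (c * ρ (g * a * g⁻¹)) * ρ g := by
          simp only [mul_assoc, ← map_mul]; simp
      _ = ρ g⁻¹ * (ρ (g * a * g⁻¹) * c) * ρ g := by rw [h2]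
      _ = ρ a * (ρ g⁻¹ * c * ρ g) := by
          simp only [← mul_assoc, ← map_mul]; simp
  have hg : ρ g * ρ g⁻¹ = 1 := by rw [← map_mul]; simp
  have hg' : ρ g⁻¹ * ρ g = 1 := by rw [← map_mul]; simp
  calc ρ g * x * ρ g⁻¹ * c = ρ g * x * ρ g⁻¹ * c * (ρ g * ρ g⁻¹) := by rw [hg, mul_one]
    _ = ρ g * (x * (ρ g⁻¹ * c * ρ g)) * ρ g⁻¹ := by simp only [mul_assoc]
    _ = ρ g * ((ρ g⁻¹ * c * ρ g) * x) * ρ g⁻¹ := by rw [h1]
    _ = (ρ g * ρ g⁻¹) * c * (ρ g * x * ρ g⁻¹) := by simp only [mul_assoc]
    _ = c * (ρ g * x * ρ g⁻¹) := by rw [hg, one_mul]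

/-- irreducible -/
def Irr (ρ : G →* Module.End F V) : Prop :=
  ∀ W : Submodule F V, (∀ g, W.map (ρ g) ≤ W) → W = ⊥ ∨ W = ⊤

/-- primitivity: no decomposition into t ≥ 2 independent subspaces of equal positive dimension which are permuted -/
def Prim (ρ : G →* Module.End F V) : Prop :=
  ∀ (m t : ℕ) (D : Fin t → Submodule F V), 2 ≤ t → 0 < m → (∀ i, Module.finrank F (D i) = m) →
    iSupIndep D → iSup D = ⊤ → ¬ ∀ g, ∃ σ : Equiv.Perm (Fin t), ∀ i, (D i).map (ρ g) = D (σ i)

lemma rho_mul_inv (ρ : G →* Module.End F V) (g : G) : ρ g * ρ g⁻¹ = 1 := by rw [← map_mul]; simp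
lemma rho_inv_mul (ρ : G →* Module.End F V) (g : G) : ρ g⁻¹ * ρ g = 1 := by rw [← map_mul]; simp

/-- the linear automorphism given by a group element -/
def rhoEquiv (ρ : G →* Module.End F V) (g : G) : V ≃ₗ[F] V :=
  LinearEquiv.ofLinearMap (ρ g) (ρ g⁻¹) (rho_mul_inv ρ g) (rho_inv_mul ρ g)

lemma rhoEquiv_coe (ρ : G →* Module.End F V) (g : G) : ((rhoEquiv ρ g : V ≃ₗ[F] V) : V →ₗ[F] V) = ρ g := rfl

lemma finrank_map_rho (ρ : G →* Module.End F V) (g : G) (W : Submodule F V) :
    Module.finrank F (W.map (ρ g)) = Module.finrank F W := by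
  rw [← rhoEquiv_coe]
  exact LinearEquiv.finrank_map_eq _ _

lemma range_conj (ρ : G →* Module.End F V) (g : G) (e : Module.End F V) :
    LinearMap.range (ρ g * e * ρ g⁻¹) = (LinearMap.range e).map (ρ g) := by
  ext v
  simp only [LinearMap.mem_range, Submodule.mem_map, Module.End.mul_apply]
  constructor
  · rintro ⟨w, rfl⟩; exact ⟨_, ⟨_, rfl⟩, rfl⟩
  · rintro ⟨_, ⟨w, rfl⟩, rfl⟩
    refine ⟨ρ g w, ?_⟩
    rw [← Module.End.mul_apply (ρ g⁻¹), rho_inv_mul, Module.End.one_apply]

lemma finrank_range_conj (ρ : G →* Module.End F V) (g : G) (e : Module.End F V) :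
    Module.finrank F (LinearMap.range (ρ g * e * ρ g⁻¹)) = Module.finrank F (LinearMap.range e) := by
  rw [range_conj, finrank_map_rho]

lemma conj_mul_conj (ρ : G →* Module.End F V) (g : G) (x y : Module.End F V) :
    (ρ g * x * ρ g⁻¹) * (ρ g * y * ρ g⁻¹) = ρ g * (x * y) * ρ g⁻¹ := by
  calc _ = ρ g * x * (ρ g⁻¹ * ρ g) * y * ρ g⁻¹ := by simp only [mul_assoc]
    _ = _ := by rw [rho_inv_mul]; simp only [mul_assoc, one_mul]

lemma conj_conj (ρ : G →* Module.End F V) (g h : G) (x : Module.End F V) :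
    ρ g * (ρ h * x * ρ h⁻¹) * ρ g⁻¹ = ρ (g * h) * x * ρ (g * h)⁻¹ := by
  rw [mul_inv_rev, map_mul, map_mul]; simp only [mul_assoc]

lemma conj_eq_zero (ρ : G →* Module.End F V) (g : G) {x : Module.End F V} (h : ρ g * x * ρ g⁻¹ = 0) : x = 0 := by
  have := congrArg (fun y => ρ g⁻¹ * y * ρ g) h
  simp only [mul_zero, zero_mul] at this
  calc x = (ρ g⁻¹ * ρ g) * x * (ρ g⁻¹ * ρ g) := by rw [rho_inv_mul]; simp
    _ = ρ g⁻¹ * (ρ g * x * ρ g⁻¹) * ρ g := by simp only [mul_assoc]
    _ = 0 := this

/-- idempotent endomorphisms that commute, one of minimal rank -/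
lemma idem_mul_eq_of_rank_le [FiniteDimensional F V] {e f : Module.End F V} (he : e * e = e) (hf : f * f = f)
    (hc : e * f = f * e)
    (hr : Module.finrank F (LinearMap.range e) ≤ Module.finrank F (LinearMap.range (e * f))) : e * f = e := by
  have hle : LinearMap.range (e * f) ≤ LinearMap.range e := by
    rintro _ ⟨v, rfl⟩; exact ⟨f v, rfl⟩
  have heq : LinearMap.range (e * f) = LinearMap.range e := Submodule.eq_of_le_of_finrank_le hle hr
  have hsub : LinearMap.range e ≤ LinearMap.range f := by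
    rw [← heq, hc]; rintro _ ⟨v, rfl⟩; exact ⟨e v, rfl⟩
  rw [hc]
  ext v
  obtain ⟨w, hw⟩ := hsub ⟨v, rfl⟩
  rw [Module.End.mul_apply, ← hw, ← Module.End.mul_apply, hf]

/-- The key lemma: if `P` is a conjugation invariant multiplicatively closed set of commuting endomorphisms, `G` irreducible
and primitive, then every idempotent of `P` is `0` or `1`. -/
lemma idem_eq_zero_or_one [Finite F] [FiniteDimensional F V] [Nontrivial V] (ρ : G →* Module.End F V) (hirr : Irr ρ) (hprim : Prim ρ)
    (P : Module.End F V → Prop) (hmul : ∀ x y, P x → P y → P (x * y)) (hcomm : ∀ x y, P x → P y → x * y = y * x)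
    (hconj : ∀ x g, P x → P (ρ g * x * ρ g⁻¹)) (f : Module.End F V) (hPf : P f) (hf : f * f = f) :
    f = 0 ∨ f = 1 := by
  classical
  by_contra hcon
  push Not at hcon
  -- set of nonzero idempotents in P
  let S : Set (Module.End F V) := {e | P e ∧ e * e = e ∧ e ≠ 0}
  have hSne : S.Nonempty := ⟨f, hPf, hf, hcon.1⟩
  obtain ⟨e, heS, hmin⟩ := WellFounded.has_min
    (measure (fun e : Module.End F V => Module.finrank F (LinearMap.range e))).wf S hSne
  have hmin' : ∀ x ∈ S, Module.finrank F (LinearMap.range e) ≤ Module.finrank F (LinearMap.range x) := by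
    intro x hx
    exact not_lt.1 (hmin x hx)
  obtain ⟨hPe, hee, he0⟩ := heS
  -- conjugates
  have hcS : ∀ g, ρ g * e * ρ g⁻¹ ∈ S := fun g =>
    ⟨hconj e g hPe, by rw [conj_mul_conj, hee], fun h => he0 (conj_eq_zero ρ g h)⟩
  -- any idempotent x of P : conj e * x = 0 or conj e
  have key : ∀ g x, P x → x * x = x → (ρ g * e * ρ g⁻¹) * x = 0 ∨ (ρ g * e * ρ g⁻¹) * x = ρ g * e * ρ g⁻¹ := by
    intro g x hPx hx
    by_cases h0 : (ρ g * e * ρ g⁻¹) * x = 0
    · exact Or.inl h0
    · right
      have hc := hcomm _ _ (hcS g).1 hPx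
      have hm : (ρ g * e * ρ g⁻¹) * x ∈ S := by
        refine ⟨hmul _ _ (hcS g).1 hPx, ?_, h0⟩
        calc (ρ g * e * ρ g⁻¹) * x * ((ρ g * e * ρ g⁻¹) * x)
            = (ρ g * e * ρ g⁻¹) * (x * (ρ g * e * ρ g⁻¹)) * x := by simp only [mul_assoc]
          _ = ((ρ g * e * ρ g⁻¹) * (ρ g * e * ρ g⁻¹)) * (x * x) := by rw [← hc]; simp only [mul_assoc]
          _ = _ := by rw [(hcS g).2.1, hx]
      refine idem_mul_eq_of_rank_le (hcS g).2.1 hx hc ?_
      rw [finrank_range_conj]
      exact hmin' _ hm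
  -- Omega
  let Om : Set (Module.End F V) := {x | ∃ g, x = ρ g * e * ρ g⁻¹}
  haveI : Finite (Module.End F V) := by
    haveI : Finite V := Module.finite_of_finite F
    exact Finite.of_injective (fun f : Module.End F V => (f : V → V)) DFunLike.coe_injective
  have hOmfin : Om.Finite := Set.toFinite _
  have horth : ∀ x ∈ Om, ∀ y ∈ Om, x ≠ y → x * y = 0 := by
    rintro _ ⟨g, rfl⟩ _ ⟨h, rfl⟩ hne
    rcases key g _ (hcS h).1 (hcS h).2.1 with h0 | h1
    · exact h0
    · exfalso
      rcases key h _ (hcS g).1 (hcS g).2.1 with h0' | h1'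
      · rw [hcomm _ _ (hcS h).1 (hcS g).1, h1] at h0'
        exact (hcS g).2.2 h0'
      · rw [hcomm _ _ (hcS h).1 (hcS g).1, h1] at h1'
        exact hne h1'
  -- enumeration
  let n := Nat.card Om
  haveI : Finite Om := hOmfin
  let en : Om ≃ Fin n := Finite.equivFin Om
  let D : Fin n → Submodule F V := fun i => LinearMap.range ((en.symm i : Om) : Module.End F V)
  have hid : ∀ x ∈ Om, x * x = x := by
    rintro _ ⟨g, rfl⟩; exact (hcS g).2.1
  have hrank : ∀ x ∈ Om, Module.finrank F (LinearMap.range x) = Module.finrank F (LinearMap.range e) := by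
    rintro _ ⟨g, rfl⟩; exact finrank_range_conj ρ g e
  have hindep : iSupIndep D := by
    intro i
    rw [Submodule.disjoint_def]
    intro v hv hv'
    have h1 : ⨆ j, ⨆ (_ : j ≠ i), D j ≤ LinearMap.ker ((en.symm i : Om) : Module.End F V) := by
      refine iSup_le fun j => iSup_le fun hj => ?_
      rintro _ ⟨w, rfl⟩
      rw [LinearMap.mem_ker, ← Module.End.mul_apply, horth _ (en.symm i).2 _ (en.symm j).2, LinearMap.zero_apply]
      intro h
      exact hj (en.symm.injective (Subtype.ext h)).symm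
    obtain ⟨w, hw⟩ := hv
    have h2 := h1 hv'
    rw [LinearMap.mem_ker, ← hw, ← Module.End.mul_apply, hid _ (en.symm i).2] at h2
    rw [← hw, h2]
  have hpermOm : ∀ g, ∀ x ∈ Om, ρ g * x * ρ g⁻¹ ∈ Om := by
    rintro g _ ⟨h, rfl⟩
    exact ⟨g * h, conj_conj ρ g h e⟩
  have hinv : ∀ g, (iSup D).map (ρ g) ≤ iSup D := by
    intro g
    rw [Submodule.map_iSup]
    refine iSup_le fun i => ?_
    show (LinearMap.range ((en.symm i : Om) : Module.End F V)).map (ρ g) ≤ _
    rw [← range_conj]
    have := le_iSup D (en ⟨_, hpermOm g _ (en.symm i).2⟩)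
    simpa [D] using this
  have hem : e ∈ Om := ⟨1, by simp⟩
  have hle1 : LinearMap.range e ≤ iSup D := by
    have := le_iSup D (en ⟨e, hem⟩)
    simpa [D] using this
  have hDtop : iSup D = ⊤ := by
    rcases hirr _ hinv with h | h
    · exfalso
      rw [h, le_bot_iff, LinearMap.range_eq_bot] at hle1
      exact he0 hle1
    · exact h
  have hm : 0 < Module.finrank F (LinearMap.range e) := by
    rw [Module.finrank_pos_iff, Submodule.nontrivial_iff_ne_bot]
    intro h; exact he0 (LinearMap.range_eq_bot.1 h)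
  by_cases hn : 2 ≤ n
  · refine hprim _ n D hn hm (fun i => hrank _ (en.symm i).2) hindep hDtop (fun g => ?_)
    let π : Om ≃ Om :=
      { toFun := fun x => ⟨ρ g * x * ρ g⁻¹, hpermOm g _ x.2⟩
        invFun := fun x => ⟨ρ g⁻¹ * x * ρ g⁻¹⁻¹, hpermOm g⁻¹ _ x.2⟩
        left_inv := fun x => Subtype.ext (by
          show ρ g⁻¹ * (ρ g * x * ρ g⁻¹) * ρ g⁻¹⁻¹ = x
          rw [conj_conj]; simp)
        right_inv := fun x => Subtype.ext (by
          show ρ g * (ρ g⁻¹ * x * ρ g⁻¹⁻¹) * ρ g⁻¹ = x
          rw [conj_conj]; simp) }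
    refine ⟨(en.symm.trans π).trans en, fun i => ?_⟩
    show (LinearMap.range ((en.symm i : Om) : Module.End F V)).map (ρ g) = LinearMap.range ((en.symm (en (π (en.symm i))) : Om) : Module.End F V)
    rw [← range_conj, Equiv.symm_apply_apply]
    rfl
  · -- n ≤ 1 : Om = {e}
    have hn1 : n ≤ 1 := by omega
    haveI : Subsingleton Om := by
      rw [← Finite.card_le_one_iff_subsingleton]; exact hn1
    have hall : ∀ x ∈ Om, x = e := fun x hx => congrArg Subtype.val (Subsingleton.elim (⟨x, hx⟩ : Om) ⟨e, hem⟩)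
    have htop : LinearMap.range e = ⊤ := by
      rw [eq_top_iff, ← hDtop]
      refine iSup_le fun i => ?_
      show LinearMap.range ((en.symm i : Om) : Module.End F V) ≤ _
      rw [hall _ (en.symm i).2]
    have he1 : e = 1 := by
      ext v
      obtain ⟨w, hw⟩ := (by rw [htop]; trivial : v ∈ LinearMap.range e)
      rw [← hw, ← Module.End.mul_apply, hee]; simp
    subst he1
    rcases key 1 f hPf hf with h | h
    · simp at h; exact hcon.1 h
    · simp at h; exact hcon.2 h

/-- some power is idempotent in a finite monoid -/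
lemma exists_pow_idem {M : Type*} [Monoid M] [Finite M] (b : M) : ∃ n : ℕ, 0 < n ∧ b ^ n * b ^ n = b ^ n := by
  obtain ⟨i, j, hij, h⟩ := Finite.exists_ne_map_eq_of_infinite (fun n : ℕ => b ^ (n + 1))
  wlog hlt : i < j generalizing i j
  · exact this j i hij.symm h.symm (lt_of_le_of_ne (not_lt.1 hlt) hij.symm)
  -- b^(i+1) = b^(j+1), d = j - i
  have h' : b ^ (i + 1) = b ^ (j + 1) := h
  obtain ⟨d, hd, rfl⟩ : ∃ d, 0 < d ∧ j = i + d := ⟨j - i, by omega, by omega⟩
  have h1 : ∀ k, b ^ (i + 1 + k * d) = b ^ (i + 1) := by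
    intro k
    induction k with
    | zero => simp
    | succ k ih =>
      calc b ^ (i + 1 + (k + 1) * d) = b ^ (i + 1 + k * d) * b ^ d := by rw [← pow_add]; ring_nf
        _ = b ^ (i + 1) * b ^ d := by rw [ih]
        _ = b ^ (i + d + 1) := by rw [← pow_add]; ring_nf
        _ = b ^ (i + 1) := h'.symm
  have h2 : ∀ m k, i + 1 ≤ m → b ^ (m + k * d) = b ^ m := by
    intro m k hm
    obtain ⟨r, rfl⟩ : ∃ r, m = i + 1 + r := ⟨m - (i + 1), by omega⟩
    calc b ^ (i + 1 + r + k * d) = b ^ (i + 1 + k * d) * b ^ r := by rw [← pow_add]; ring_nf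
      _ = _ := by rw [h1, ← pow_add]
  refine ⟨(i + 1) * d, by positivity, ?_⟩
  rw [← pow_add]
  exact h2 _ _ (Nat.le_mul_of_pos_right _ hd)

/-- abelian normal subgroups act fixed point freely or have nilpotent `ρ y - 1`. -/
lemma fixed_or_nilp [Finite F] [FiniteDimensional F V] [Nontrivial V] (ρ : G →* Module.End F V)
    (hirr : Irr ρ) (hprim : Prim ρ) (A : Subgroup G) [A.Normal] (hA : ∀ a ∈ A, ∀ b ∈ A, a * b = b * a)
    (y : G) (hy : y ∈ A) : (∀ v, ρ y v = v → v = 0) ∨ ∃ n : ℕ, 0 < n ∧ (ρ y - 1) ^ n = 0 := by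
  haveI : Finite (Module.End F V) := by
    haveI : Finite V := Module.finite_of_finite F
    exact Finite.of_injective (fun f : Module.End F V => (f : V → V)) DFunLike.coe_injective
  obtain ⟨n, hn, hid⟩ := exists_pow_idem (ρ y - 1)
  have hD : InDC ρ A ((ρ y - 1) ^ n) := ((inDC_rho ρ A hy).sub (inDC_one ρ A)).pow n
  rcases idem_eq_zero_or_one ρ hirr hprim (InDC ρ A) (fun x y hx hy => hx.mul hy)
    (fun x y hx hy => hx.comm hA hy) (fun x g hx => hx.conj g) _ hD hid with h | h
  · exact Or.inr ⟨n, hn, h⟩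
  · left
    intro v hv
    have h1 : (ρ y - 1) v = 0 := by simp [hv]
    have h2 : ((ρ y - 1) ^ n) v = 0 := by
      obtain ⟨k, rfl⟩ : ∃ k, n = k + 1 := ⟨n - 1, by omega⟩
      rw [pow_succ, Module.End.mul_apply, h1, map_zero]
    rw [h] at h2
    simpa using h2

/-- A normal subgroup which is a `p`-group, `p` the characteristic, is trivial in a faithful irreducible group. -/
lemma normal_pgroup_trivial [Finite F] [FiniteDimensional F V] [Nontrivial V] (ρ : G →* Module.End F V)
    (hirr : Irr ρ) (hfaith : Function.Injective ρ) (p : ℕ) [Fact p.Prime] [CharP F p] (P : Subgroup G) [P.Normal]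
    (hP : IsPGroup p P) : P = ⊥ := by
  letI : MulAction P V :=
    { smul := fun g v => ρ g v
      one_smul := fun v => by show ρ ((1 : P) : G) v = v; simp
      mul_smul := fun g h v => by show ρ ((g * h : P) : G) v = ρ g (ρ h v); simp }
  have hsm : ∀ (g : P) (v : V), g • v = ρ g v := fun _ _ => rfl
  haveI : Finite V := Module.finite_of_finite F
  have hcard : p ∣ Nat.card V := by
    have h1 : Nat.card V = Nat.card F ^ Module.finrank F V := Module.natCard_eq_pow_finrank
    have h2 : p ∣ Nat.card F := by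
      haveI := Fintype.ofFinite F
      rw [Nat.card_eq_fintype_card]
      obtain ⟨k, hk, hk'⟩ := FiniteField.card F p
      rw [hk']
      exact dvd_pow_self p k.ne_zero
    rw [h1]
    exact h2.trans (dvd_pow_self _ (Module.finrank_pos).ne')
  obtain ⟨v, hv, hv0⟩ := hP.exists_fixed_point_of_prime_dvd_card_of_fixed_point V hcard
    (a := 0) (fun g => by rw [hsm, map_zero])
  let W : Submodule F V :=
    { carrier := {v | ∀ g ∈ P, ρ g v = v}
      add_mem' := fun ha hb g hg => by rw [map_add, ha g hg, hb g hg]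
      zero_mem' := fun g _ => map_zero _
      smul_mem' := fun c v hv g hg => by rw [map_smul, hv g hg] }
  have hW : W = ⊥ ∨ W = ⊤ := by
    refine hirr W (fun g => ?_)
    rintro _ ⟨w, hw, rfl⟩ x hx
    have h1 : g⁻¹ * x * g ∈ P := by
      simpa using (inferInstance : P.Normal).conj_mem x hx g⁻¹
    calc ρ x (ρ g w) = ρ g (ρ (g⁻¹ * x * g) w) := by
          rw [← Module.End.mul_apply, ← Module.End.mul_apply, ← map_mul, ← map_mul]; congr 2; group
      _ = ρ g w := by rw [hw _ h1]
  rcases hW with h | h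
  · exfalso
    have : v ∈ W := fun g hg => hv ⟨g, hg⟩
    rw [h, Submodule.mem_bot] at this
    exact hv0 this.symm
  · rw [eq_bot_iff]
    intro g hg
    rw [Subgroup.mem_bot]
    apply hfaith
    ext v
    have : v ∈ W := by rw [h]; trivial
    rw [this g hg]; simp

/-- In a faithful irreducible primitive group every non-identity element of an abelian normal subgroup acts without
non-zero fixed vectors. -/
lemma fixed_eq_zero [Finite F] [FiniteDimensional F V] [Nontrivial V] (ρ : G →* Module.End F V)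
    (hirr : Irr ρ) (hprim : Prim ρ) (hfaith : Function.Injective ρ)
    (A : Subgroup G) [hAn : A.Normal] (hA : ∀ a ∈ A, ∀ b ∈ A, a * b = b * a)
    (y : G) (hy : y ∈ A) (hy1 : y ≠ 1) (v : V) (hv : ρ y v = v) : v = 0 := by
  rcases fixed_or_nilp ρ hirr hprim A hA y hy with h | ⟨n, hn, h⟩
  · exact h v hv
  exfalso
  obtain ⟨p, hp⟩ := CharP.exists F
  have hpp : p.Prime := by
    haveI := Fintype.ofFinite F
    exact CharP.char_is_prime F p
  haveI : Fact p.Prime := ⟨hpp⟩
  let P : Subgroup G :=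
    { carrier := {a | a ∈ A ∧ ∃ k : ℕ, a ^ p ^ k = 1}
      one_mem' := ⟨one_mem _, 0, by simp⟩
      mul_mem' := by
        rintro a b ⟨ha, k, hk⟩ ⟨hb, l, hl⟩
        refine ⟨mul_mem ha hb, k + l, ?_⟩
        rw [(show Commute a b from hA a ha b hb).mul_pow, pow_add, pow_mul, hk, one_pow, one_mul, mul_comm, pow_mul, hl, one_pow]
      inv_mem' := by
        rintro a ⟨ha, k, hk⟩
        exact ⟨inv_mem ha, k, by rw [inv_pow, hk, inv_one]⟩ }
  haveI : P.Normal := ⟨by
    rintro a ⟨ha, k, hk⟩ g
    exact ⟨hAn.conj_mem a ha g, k, by rw [conj_pow, hk]; simp⟩⟩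
  have hP : IsPGroup p P := by
    rintro ⟨a, ha, k, hk⟩
    exact ⟨k, Subtype.ext (by simpa using hk)⟩
  have hbot := normal_pgroup_trivial ρ hirr hfaith p P hP
  have hyP : y ∈ P := by
    refine ⟨hy, n, ?_⟩
    apply hfaith
    have hpn : n ≤ p ^ n := (Nat.lt_pow_self hpp.one_lt).le
    haveI : CharP (Module.End F V) p := by
      exact charP_of_injective_algebraMap (algebraMap F (Module.End F V)).injective p
    have h1 : (ρ y - 1) ^ p ^ n = 0 := by
      obtain ⟨r, hr⟩ := Nat.exists_eq_add_of_le hpn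
      rw [hr, pow_add, h, zero_mul]
    rw [map_one, map_pow]
    have h2 : (ρ y) ^ p ^ n = (ρ y - 1) ^ p ^ n + 1 := by
      have h3 := add_pow_char_pow_of_commute (p := p) (n := n) (x := ρ y - 1) (y := 1) (Commute.one_right _)
      rw [sub_add_cancel, one_pow] at h3
      exact h3
    rw [h2, h1, zero_add]
  rw [hbot, Subgroup.mem_bot] at hyP
  exact hy1 hyP

/-- commutator trick -/
lemma two_mul_fix_le [FiniteDimensional F V] (ρ : G →* Module.End F V) (y z : G) :
    2 * Module.finrank F (Module.End.eigenspace (ρ y) 1) ≤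
      Module.finrank F V + Module.finrank F (Module.End.eigenspace (ρ (y * z * y⁻¹ * z⁻¹)) 1) := by
  set E := Module.End.eigenspace (ρ y) 1 with hE
  have h1 : E ⊓ E.map (ρ z) ≤ Module.End.eigenspace (ρ (y * z * y⁻¹ * z⁻¹)) 1 := by
    rintro _ ⟨hv, ⟨w, hw, rfl⟩⟩
    rw [SetLike.mem_coe, Module.End.mem_eigenspace_iff, one_smul] at hv hw
    rw [Module.End.mem_eigenspace_iff, one_smul]
    have hw' : ρ y⁻¹ w = w := by
      conv_lhs => rw [← hw]
      rw [← Module.End.mul_apply, ← map_mul]; simp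
    calc ρ (y * z * y⁻¹ * z⁻¹) (ρ z w) = ρ y (ρ z (ρ y⁻¹ (ρ z⁻¹ (ρ z w)))) := by
          simp only [← Module.End.mul_apply, ← map_mul, mul_assoc]
      _ = ρ y (ρ z (ρ y⁻¹ w)) := by
          rw [← Module.End.mul_apply (ρ z⁻¹), ← map_mul, inv_mul_cancel, map_one, Module.End.one_apply]
      _ = ρ z w := by rw [hw', hv]
  have h2 := Submodule.finrank_sup_add_finrank_inf_eq E (E.map (ρ z))
  have h3 := finrank_map_rho ρ z E
  have h4 := Submodule.finrank_mono h1
  have h5 := Submodule.finrank_le (E ⊔ E.map (ρ z))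
  omega

/-- Elements of nilpotent normal subgroups. -/
lemma nilpotent_fix_le [Finite F] [FiniteDimensional F V] [Nontrivial V] [Finite G] (ρ : G →* Module.End F V)
    (hirr : Irr ρ) (hprim : Prim ρ) (hfaith : Function.Injective ρ) :
    ∀ (k : ℕ) (N : Subgroup G), N.Normal → Group.IsNilpotent N → Nat.card N ≤ k → ∀ y ∈ N, y ≠ 1 →
      2 * Module.finrank F (Module.End.eigenspace (ρ y) 1) ≤ Module.finrank F V := by
  intro k
  induction k with
  | zero =>
    intro N _ _ hk
    exact absurd hk (by have := Nat.card_pos (α := N); omega)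
  | succ k ih =>
    intro N hN hnil hk y hy hy1
    -- centre of N, as a subgroup of G
    let Z : Subgroup G :=
      { carrier := {z | z ∈ N ∧ ∀ x ∈ N, z * x = x * z}
        one_mem' := ⟨one_mem _, fun x _ => by simp⟩
        mul_mem' := by
          rintro a b ⟨ha, ha'⟩ ⟨hb, hb'⟩
          exact ⟨mul_mem ha hb, fun x hx => by rw [mul_assoc, hb' x hx, ← mul_assoc, ha' x hx, mul_assoc]⟩
        inv_mem' := by
          rintro a ⟨ha, ha'⟩
          refine ⟨inv_mem ha, fun x hx => ?_⟩
          have := ha' x hx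
          calc a⁻¹ * x = a⁻¹ * (x * a) * a⁻¹ := by group
            _ = a⁻¹ * (a * x) * a⁻¹ := by rw [this]
            _ = x * a⁻¹ := by group }
    have hZn : Z.Normal := ⟨by
      rintro a ⟨ha, ha'⟩ g
      refine ⟨hN.conj_mem a ha g, fun x hx => ?_⟩
      have h1 : g⁻¹ * x * g ∈ N := by simpa using hN.conj_mem x hx g⁻¹
      have h2 := ha' _ h1
      calc g * a * g⁻¹ * x = g * (a * (g⁻¹ * x * g)) * g⁻¹ := by group
        _ = g * ((g⁻¹ * x * g) * a) * g⁻¹ := by rw [h2]
        _ = x * (g * a * g⁻¹) := by group⟩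
    have hZfix : ∀ z ∈ Z, z ≠ 1 → Module.finrank F (Module.End.eigenspace (ρ z) 1) = 0 := by
      intro z hz hz1
      rw [Submodule.finrank_eq_zero, eq_bot_iff]
      intro v hv
      rw [Module.End.mem_eigenspace_iff, one_smul] at hv
      rw [Submodule.mem_bot]
      exact fixed_eq_zero ρ hirr hprim hfaith Z (fun a ha b hb => ha.2 b hb.1) z hz hz1 v hv
    -- second centre
    let Z2 : Set G := {z | z ∈ N ∧ ∀ x ∈ N, z * x * z⁻¹ * x⁻¹ ∈ Z}
    by_cases hcase : ∀ z ∈ Z2, y * z = z * y
    · -- y centralises Z2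
      let M : Subgroup G :=
        { carrier := {a | a ∈ N ∧ ∀ z ∈ Z2, a * z = z * a}
          one_mem' := ⟨one_mem _, fun x _ => by simp⟩
          mul_mem' := by
            rintro a b ⟨ha, ha'⟩ ⟨hb, hb'⟩
            exact ⟨mul_mem ha hb, fun x hx => by rw [mul_assoc, hb' x hx, ← mul_assoc, ha' x hx, mul_assoc]⟩
          inv_mem' := by
            rintro a ⟨ha, ha'⟩
            refine ⟨inv_mem ha, fun x hx => ?_⟩
            have := ha' x hx
            calc a⁻¹ * x = a⁻¹ * (x * a) * a⁻¹ := by group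
              _ = a⁻¹ * (a * x) * a⁻¹ := by rw [this]
              _ = x * a⁻¹ := by group }
      have hZ2conj : ∀ z ∈ Z2, ∀ g, g⁻¹ * z * g ∈ Z2 := by
        rintro z ⟨hz, hz'⟩ g
        refine ⟨by simpa using hN.conj_mem z hz g⁻¹, fun x hx => ?_⟩
        have h1 := hz' (g * x * g⁻¹) (hN.conj_mem x hx g)
        have h2 := hZn.conj_mem _ h1 g⁻¹
        convert h2 using 1
        group
      have hMn : M.Normal := ⟨by
        rintro a ⟨ha, ha'⟩ g
        refine ⟨hN.conj_mem a ha g, fun x hx => ?_⟩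
        have h2 := ha' _ (hZ2conj x hx g)
        calc g * a * g⁻¹ * x = g * (a * (g⁻¹ * x * g)) * g⁻¹ := by group
          _ = g * ((g⁻¹ * x * g) * a) * g⁻¹ := by rw [h2]
          _ = x * (g * a * g⁻¹) := by group⟩
      have hMN : M ≤ N := fun a ha => ha.1
      have hyM : y ∈ M := ⟨hy, hcase⟩
      by_cases hMlt : M = N
      · -- N = M : then Z2 ≤ Z and N abelian
        have hZ2Z : ∀ z ∈ Z2, z ∈ Z := by
          intro z hz
          refine ⟨hz.1, fun x hx => ?_⟩
          have : x ∈ M := by rw [hMlt]; exact hx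
          exact (this.2 z hz).symm
        have hup : Subgroup.upperCentralSeries N 1 = Subgroup.upperCentralSeries N 2 := by
          apply le_antisymm (Subgroup.upperCentralSeries_mono N (by norm_num))
          intro z hz
          rw [Subgroup.mem_upperCentralSeries_succ_iff] at hz
          rw [Subgroup.upperCentralSeries_one] at hz ⊢
          have h3 : (z : G) ∈ Z2 := by
            refine ⟨z.2, fun x hx => ?_⟩
            have h4 := hz ⟨x, hx⟩
            rw [Subgroup.mem_center_iff] at h4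
            refine ⟨mul_mem (mul_mem (mul_mem z.2 hx) (inv_mem z.2)) (inv_mem hx), fun w hw => ?_⟩
            exact (congrArg Subtype.val (h4 ⟨w, hw⟩)).symm
          have h5 := hZ2Z _ h3
          rw [Subgroup.mem_center_iff]
          intro g
          exact Subtype.ext (h5.2 g g.2).symm
        have htop := Subgroup.upperCentralSeries.eq_top (G := N) (by norm_num : (1 : ℕ) ≠ 2) hup
        have hyZ : y ∈ Z := by
          refine ⟨hy, fun x hx => ?_⟩
          have : (⟨y, hy⟩ : N) ∈ Subgroup.upperCentralSeries N 1 := by rw [htop]; trivial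
          rw [Subgroup.upperCentralSeries_one, Subgroup.mem_center_iff] at this
          exact congrArg Subtype.val (this ⟨x, hx⟩).symm
        rw [hZfix y hyZ hy1]; omega
      · have hlt : Nat.card M < Nat.card N := by
          by_contra hcon
          exact hMlt (Subgroup.eq_of_le_of_card_ge hMN (not_lt.1 hcon))
        have hMnil : Group.IsNilpotent M := by
          have : Group.IsNilpotent (M.subgroupOf N) := inferInstance
          exact Group.nilpotent_of_mulEquiv (Subgroup.subgroupOfEquivOfLe hMN)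
        exact ih M hMn hMnil (by omega) y hyM hy1
    · push Not at hcase
      obtain ⟨z, hz, hne⟩ := hcase
      have hc : y * z * y⁻¹ * z⁻¹ ∈ Z := by
        have := inv_mem (hz.2 y hy)
        convert this using 1
        group
      have hc1 : y * z * y⁻¹ * z⁻¹ ≠ 1 := by
        intro h
        apply hne
        calc y * z = (y * z * y⁻¹ * z⁻¹) * (z * y) := by group
          _ = z * y := by rw [h, one_mul]
      have := two_mul_fix_le ρ y z
      rw [hZfix _ hc hc1] at this
      omega

/-- In a finite solvable group there is a nilpotent normal subgroup containing its own centralizer. -/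
lemma exists_nilpotent_centralizer_le {G : Type*} [Group G] [Finite G] [hs : Group.IsSolvable G] :
    ∃ N : Subgroup G, N.Normal ∧ Group.IsNilpotent N ∧ Subgroup.centralizer (N : Set G) ≤ N := by
  classical
  -- nilpotent normal subgroup of maximal order
  obtain ⟨N, ⟨hN, hnil⟩, hmax⟩ : ∃ N ∈ {N : Subgroup G | N.Normal ∧ Group.IsNilpotent N},
      ∀ M ∈ {N : Subgroup G | N.Normal ∧ Group.IsNilpotent N}, Nat.card M ≤ Nat.card N := by
    apply Set.exists_max_image _ (fun N : Subgroup G => Nat.card N) (Set.toFinite _)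
    exact ⟨⊥, inferInstance, Group.isNilpotent_of_subsingleton⟩
  refine ⟨N, hN, hnil, ?_⟩
  by_contra hcon
  set C : Subgroup G := Subgroup.centralizer (N : Set G) with hC
  haveI : N.Normal := hN
  haveI hCn : C.Normal := by rw [hC]; infer_instance
  -- derived series of C inside G
  let Cs : ℕ → Subgroup G := fun k => (derivedSeries C k).map C.subtype
  have hCsn : ∀ k, (Cs k).Normal := fun k => by
    show ((derivedSeries C k).map C.subtype).Normal
    exact ConjAct.normal_of_characteristic_of_normal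
  have h0 : Cs 0 = C := by
    show (derivedSeries C 0).map C.subtype = C
    rw [derivedSeries_zero, ← MonoidHom.range_eq_map, Subgroup.range_subtype]
  have hsucc : ∀ k, Cs (k + 1) = ⁅Cs k, Cs k⁆ := fun k => by
    show (derivedSeries C (k + 1)).map C.subtype = _
    rw [derivedSeries_succ, Subgroup.map_commutator]
  obtain ⟨n, hn⟩ : ∃ n, Cs n = ⊥ := by
    haveI : Group.IsSolvable C := inferInstance
    obtain ⟨n, hn⟩ := (Group.isSolvable_def C).1 inferInstance
    exact ⟨n, by show (derivedSeries C n).map C.subtype = ⊥; rw [hn, Subgroup.map_bot]⟩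
  obtain ⟨k, hk1, hk2⟩ : ∃ k, ¬ Cs k ≤ N ∧ Cs (k + 1) ≤ N := by
    by_contra hno
    push Not at hno
    have : ∀ k, ¬ Cs k ≤ N := by
      intro k
      induction k with
      | zero => rw [h0]; exact hcon
      | succ k ih => exact hno k ih
    exact this n (by rw [hn]; exact bot_le)
  set K := Cs k with hK
  haveI hKn : K.Normal := hCsn k
  have hKC : K ≤ C := by
    rw [hK]; exact Subgroup.map_subtype_le _
  -- elements of K commute with elements of N
  have hcomm : ∀ x ∈ K, ∀ y ∈ N, x * y = y * x := fun x hx y hy =>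
    ((Subgroup.mem_centralizer_iff.1 (hKC hx)) y hy).symm
  have hKnil : Group.IsNilpotent K := by
    -- commutator of K is central
    rw [Subgroup.nilpotent_iff_lowerCentralSeries]
    refine ⟨2, ?_⟩
    rw [Subgroup.lowerCentralSeries_succ, Subgroup.top_lowerCentralSeries_one, eq_bot_iff, Subgroup.commutator_le]
    intro a ha b _
    rw [Subgroup.mem_bot, commutatorElement_eq_one_iff_mul_comm]
    have haN : (a : G) ∈ N := by
      apply hk2
      rw [hsucc]
      have : (a : G) ∈ (commutator K).map K.subtype := ⟨a, ha, rfl⟩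
      rw [commutator_def, Subgroup.map_commutator, ← MonoidHom.range_eq_map, Subgroup.range_subtype] at this
      exact this
    exact Subtype.ext (hcomm b b.2 a haN).symm
  -- K ⊔ N nilpotent
  let f : K × N →* G :=
    { toFun := fun x => (x.1 : G) * (x.2 : G)
      map_one' := by simp
      map_mul' := by
        rintro ⟨a, b⟩ ⟨c, d⟩
        simp only [Prod.mk_mul_mk, Subgroup.coe_mul]
        rw [mul_assoc, ← mul_assoc (c : G), hcomm c c.2 b b.2]
        simp only [mul_assoc] }
  have hfr : f.range = K ⊔ N := by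
    apply le_antisymm
    · rintro _ ⟨⟨a, b⟩, rfl⟩
      exact mul_mem (Subgroup.mem_sup_left a.2) (Subgroup.mem_sup_right b.2)
    · refine sup_le (fun a ha => ⟨(⟨a, ha⟩, 1), by simp [f]⟩) (fun a ha => ⟨(1, ⟨a, ha⟩), by simp [f]⟩)
  have hKN : Group.IsNilpotent (K ⊔ N : Subgroup G) := by
    rw [← hfr]
    haveI := hKnil
    haveI := hnil
    exact Group.nilpotent_of_surjective f.rangeRestrict f.rangeRestrict_surjective
  have h1 := hmax (K ⊔ N) ⟨inferInstance, hKN⟩
  have h2 : N = K ⊔ N := Subgroup.eq_of_le_of_card_ge le_sup_right h1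
  exact hk1 (by rw [h2]; exact le_sup_left)

/-- Fixed-point spaces in primitive soluble linear groups (abstract version). -/
theorem solvable_fix_le [Finite F] [FiniteDimensional F V] [Nontrivial V] [Finite G] [Group.IsSolvable G]
    (ρ : G →* Module.End F V) (hirr : Irr ρ) (hprim : Prim ρ) (hfaith : Function.Injective ρ)
    (g : G) (hg : g ≠ 1) :
    4 * Module.finrank F (Module.End.eigenspace (ρ g) 1) ≤ 3 * Module.finrank F V := by
  obtain ⟨N, hN, hnil, hC⟩ := exists_nilpotent_centralizer_le (G := G)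
  by_cases hgN : g ∈ N
  · have := nilpotent_fix_le ρ hirr hprim hfaith (Nat.card N) N hN hnil le_rfl g hgN hg
    omega
  · have hgC : g ∉ Subgroup.centralizer (N : Set G) := fun h => hgN (hC h)
    rw [Subgroup.mem_centralizer_iff] at hgC
    push Not at hgC
    obtain ⟨b, hb, hne⟩ := hgC
    have h1 : g * b * g⁻¹ * b⁻¹ ∈ N := mul_mem (hN.conj_mem b hb g) (inv_mem hb)
    have h2 : g * b * g⁻¹ * b⁻¹ ≠ 1 := by
      intro h
      apply hne
      calc b * g = 1 * (b * g) := by rw [one_mul]
        _ = (g * b * g⁻¹ * b⁻¹) * (b * g) := by rw [h]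
        _ = g * b := by group
    have h3 := nilpotent_fix_le ρ hirr hprim hfaith (Nat.card N) N hN hnil le_rfl _ h1 h2
    have h4 := two_mul_fix_le ρ g b
    omega

end Cfsg.Agent.Lib.PrimLin
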