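import Cfsg.Agent.Lib.AschSubfield
import Cfsg.Agent.Lib.PrimLin
set_option autoImplicit false
set_option linter.style.haveILetI false
set_option linter.unusedVariables false
set_option linter.unusedSectionVars false

namespace Cfsg.Agent.Lib.AschRealise

open Cfsg Cfsg.Geo Cfsg.Agent.Lib.AschForms
open scoped Matrix MatrixGroups

section abstract
variable {F : Type*} [Field F] {V : Type*} [AddCommGroup V] [Module F V]

/-- rank of an endomorphism -/
noncomputable def rk (b : Module.End F V) : ℕ := Module.finrank F (LinearMap.range b)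

lemma rk_mul_le_left [FiniteDimensional F V] (a b : Module.End F V) : rk (a * b) ≤ rk a := by
  apply Submodule.finrank_mono
  rintro _ ⟨v, rfl⟩
  exact ⟨b v, rfl⟩

lemma rk_pos [FiniteDimensional F V] {b : Module.End F V} (hb : b ≠ 0) : 0 < rk b := by
  rw [rk, Module.finrank_pos_iff, Submodule.nontrivial_iff_ne_bot]
  intro h; exact hb (LinearMap.range_eq_bot.1 h)

lemma finite_end [Finite F] [FiniteDimensional F V] : Finite (Module.End F V) := by
  haveI : Finite V := Module.finite_of_finite F
  exact Finite.of_injective (fun f : Module.End F V => (f : V → V)) DFunLike.coe_injective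

/-- A rank one idempotent in a subring of `End V` (finite field) whose linear span is everything. -/
theorem exists_rank_one_idem [Finite F] [FiniteDimensional F V] [Nontrivial V] (A : Subring (Module.End F V))
    (hspan : Submodule.span F (A : Set (Module.End F V)) = ⊤) :
    ∃ e ∈ A, e * e = e ∧ rk e = 1 := by
  classical
  haveI : Finite (Module.End F V) := finite_end
  have hextend : ∀ P : Module.End F V → Prop, (∀ x ∈ A, P x) → P 0 → (∀ x y, P x → P y → P (x + y)) →
      (∀ (c : F) x, P x → P (c • x)) → ∀ M, P M := by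
    intro P h1 h2 h3 h4 M
    have hM : M ∈ Submodule.span F (A : Set (Module.End F V)) := by rw [hspan]; trivial
    induction hM using Submodule.span_induction with
    | mem x hx => exact h1 x hx
    | zero => exact h2
    | add x y _ _ hx hy => exact h3 x y hx hy
    | smul c x _ hx => exact h4 c x hx
  -- minimal rank nonzero element
  have hne : ({b : Module.End F V | b ∈ A ∧ b ≠ 0} : Set _).Nonempty := ⟨1, one_mem _, one_ne_zero⟩
  obtain ⟨b, ⟨hbA, hb0⟩, hmin⟩ := WellFounded.has_min (measure (rk : Module.End F V → ℕ)).wf _ hne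
  have hmin' : ∀ x ∈ A, x ≠ 0 → rk b ≤ rk x := fun x hx hx0 => not_lt.1 (hmin x ⟨hx, hx0⟩)
  -- b A b ≠ 0
  obtain ⟨a, haA, hbab⟩ : ∃ a ∈ A, b * a * b ≠ 0 := by
    by_contra hcon
    push Not at hcon
    have hall : ∀ M : Module.End F V, b * M * b = 0 := by
      refine hextend _ hcon (by simp) (fun x y hx hy => by rw [mul_add, add_mul, hx, hy, add_zero])
        (fun c x hx => by rw [mul_smul_comm, smul_mul_assoc, hx, smul_zero])
    -- choose v with b v ≠ 0
    obtain ⟨v, hv⟩ : ∃ v, b v ≠ 0 := by
      by_contra h; push Not at h; exact hb0 (LinearMap.ext h)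
    obtain ⟨φ, hφ⟩ := Module.Projective.exists_dual_eq_one F hv
    have := congrArg (fun g : Module.End F V => g v) (hall (φ.smulRight v))
    simp only [Module.End.mul_apply, LinearMap.smulRight_apply, hφ, one_smul, LinearMap.zero_apply] at this
    exact hv this
  -- c = b a
  set c := b * a with hc
  have hcA : c ∈ A := mul_mem hbA haA
  set U := LinearMap.range b with hU
  have hcU : (LinearMap.range (c * b)) = U := by
    apply Submodule.eq_of_le_of_finrank_le
    · rintro _ ⟨v, rfl⟩; exact ⟨a (b v), rfl⟩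
    · exact hmin' _ (mul_mem hcA hbA) hbab
  have hcinj : ∀ u ∈ U, c u = 0 → u = 0 := by
    -- c maps U onto U
    have hmap : U.map c = U := by
      rw [hU, ← LinearMap.range_comp]; exact hcU
    intro u hu hcu
    have h1 : Module.finrank F (U.map c) = Module.finrank F U := by rw [hmap]
    have h2 := LinearMap.finrank_range_add_finrank_ker (c.domRestrict U)
    rw [LinearMap.range_domRestrict, h1] at h2
    have h3 : LinearMap.ker (c.domRestrict U) = ⊥ := by
      rw [← Submodule.finrank_eq_zero (R := F)]; omega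
    have h4 : (⟨u, hu⟩ : U) ∈ LinearMap.ker (c.domRestrict U) := by
      rw [LinearMap.mem_ker]; exact hcu
    rw [h3, Submodule.mem_bot] at h4
    exact congrArg Subtype.val h4
  have hcmapU : ∀ v, c v ∈ U := fun v => ⟨a v, rfl⟩
  obtain ⟨N, hN, hid⟩ := PrimLin.exists_pow_idem c
  set e := c ^ N with he
  have heA : e ∈ A := pow_mem hcA N
  have heinj : ∀ (k : ℕ), ∀ u ∈ U, (c ^ k) u = 0 → u = 0 := by
    intro k
    induction k with
    | zero => intro u _ h; simpa using h
    | succ k ih =>
      intro u hu h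
      rw [pow_succ, Module.End.mul_apply] at h
      exact hcinj u hu (ih _ (hcmapU u) h)
  have heU : ∀ u ∈ U, e u = u := by
    intro u hu
    have h1 : e (e u - u) = 0 := by
      rw [map_sub, ← Module.End.mul_apply, hid, sub_self]
    have h2 : e u ∈ U := by
      obtain ⟨M, rfl⟩ : ∃ M, N = M + 1 := ⟨N - 1, by omega⟩
      rw [he, pow_succ', Module.End.mul_apply]
      exact hcmapU _
    exact sub_eq_zero.1 (heinj N _ (sub_mem h2 hu) h1)
  have herange : ∀ v, e v ∈ U := by
    intro v
    obtain ⟨M, rfl⟩ : ∃ M, N = M + 1 := ⟨N - 1, by omega⟩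
    rw [he, pow_succ', Module.End.mul_apply]
    exact hcmapU _
  have heRU : LinearMap.range e = U := by
    apply le_antisymm
    · rintro _ ⟨v, rfl⟩; exact herange v
    · intro u hu; exact ⟨u, heU u hu⟩
  have hee : e * e = e := hid
  -- elements exe are zero or injective on U
  have hexe : ∀ x ∈ A, e * x * e ≠ 0 → ∀ u ∈ U, (e * x * e) u = 0 → u = 0 := by
    intro x hx h0 u hu hxu
    have h1 : LinearMap.range (e * x * e) = U := by
      apply Submodule.eq_of_le_of_finrank_le
      · rintro _ ⟨v, rfl⟩; rw [mul_assoc, Module.End.mul_apply]; exact herange _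
      · exact hmin' _ (mul_mem (mul_mem heA hx) heA) h0
    have hmap : U.map (e * x * e) = U := by
      apply le_antisymm
      · rintro _ ⟨v, _, rfl⟩; rw [← h1]; exact ⟨v, rfl⟩
      · intro w hw
        rw [← h1] at hw
        obtain ⟨v, rfl⟩ := hw
        refine ⟨e v, herange v, ?_⟩
        rw [← Module.End.mul_apply, mul_assoc _ e e, hee]
    have h2 := LinearMap.finrank_range_add_finrank_ker ((e * x * e).domRestrict U)
    rw [LinearMap.range_domRestrict, hmap] at h2
    have h3 : LinearMap.ker ((e * x * e).domRestrict U) = ⊥ := by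
      rw [← Submodule.finrank_eq_zero (R := F)]; omega
    have h4 : (⟨u, hu⟩ : U) ∈ LinearMap.ker ((e * x * e).domRestrict U) := by
      rw [LinearMap.mem_ker]; exact hxu
    rw [h3, Submodule.mem_bot] at h4
    exact congrArg Subtype.val h4
  -- the corner ring
  let e' : A := ⟨e, heA⟩
  have hidem : IsIdempotentElem e' := Subtype.ext hee
  let D := hidem.Corner
  have hDmem : ∀ x : D, ∃ y ∈ A, ((x.1 : A) : Module.End F V) = e * y * e := by
    intro x
    obtain ⟨y, hy⟩ := x.2
    exact ⟨y, y.2, (congrArg Subtype.val hy).symm⟩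
  have hbne : ∃ u ∈ U, u ≠ 0 := by
    obtain ⟨v, hv⟩ : ∃ v, b v ≠ 0 := by
      by_contra h; push Not at h; exact hb0 (LinearMap.ext h)
    exact ⟨b v, ⟨v, rfl⟩, hv⟩
  obtain ⟨u₀, hu₀, hu₀0⟩ := hbne
  haveI : Finite D := Finite.of_injective (fun x : D => ((x.1 : A) : Module.End F V))
    (fun x y h => Subtype.ext (Subtype.ext h))
  haveI : Nontrivial D := by
    refine ⟨⟨0, 1, fun h => hu₀0 ?_⟩⟩
    have h1 : (0 : Module.End F V) = e := congrArg (fun x : D => ((x.1 : A) : Module.End F V)) h
    rw [← heU u₀ hu₀, ← h1, LinearMap.zero_apply]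
  haveI : NoZeroDivisors D := by
    refine ⟨fun {x y} hxy => ?_⟩
    by_contra hcon
    push Not at hcon
    obtain ⟨hx, hy⟩ := hcon
    obtain ⟨x', hx'A, hx'⟩ := hDmem x
    obtain ⟨y', hy'A, hy'⟩ := hDmem y
    have hx0 : e * x' * e ≠ 0 := fun h => hx (Subtype.ext (Subtype.ext (hx'.trans h)))
    have hy0 : e * y' * e ≠ 0 := fun h => hy (Subtype.ext (Subtype.ext (hy'.trans h)))
    have h1 : (e * x' * e) * (e * y' * e) = 0 := by
      rw [← hx', ← hy']; exact congrArg (fun x : D => ((x.1 : A) : Module.End F V)) hxy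
    have h2 : (e * y' * e) u₀ ≠ 0 := fun h => hu₀0 (hexe y' hy'A hy0 u₀ hu₀ h)
    apply h2
    refine hexe x' hx'A hx0 _ ?_ ?_
    · rw [mul_assoc, Module.End.mul_apply]; exact herange _
    · rw [← Module.End.mul_apply, h1, LinearMap.zero_apply]
  haveI : IsDomain D := NoZeroDivisors.to_isDomain D
  have hcommD : ∀ x y : D, x * y = y * x := (Finite.isDomain_to_isField D).mul_comm
  have hcommA : ∀ x ∈ A, ∀ y ∈ A, (e * x * e) * (e * y * e) = (e * y * e) * (e * x * e) := by
    intro x hx y hy
    let X : D := ⟨e' * ⟨x, hx⟩ * e', ⟨⟨x, hx⟩, rfl⟩⟩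
    let Y : D := ⟨e' * ⟨y, hy⟩ * e', ⟨⟨y, hy⟩, rfl⟩⟩
    exact congrArg (fun x : D => ((x.1 : A) : Module.End F V)) (hcommD X Y)
  have hcommAll : ∀ x y : Module.End F V, (e * x * e) * (e * y * e) = (e * y * e) * (e * x * e) := by
    refine hextend _ (fun x hx => ?_) ?_ ?_ ?_
    · refine hextend _ (fun y hy => hcommA x hx y hy) (by simp) (fun y z hy hz => ?_) (fun c y hy => ?_)
      · simp only [mul_add, add_mul] at hy hz ⊢; rw [hy, hz]
      · simp only [mul_smul_comm, smul_mul_assoc, hy]
    · intro y; simp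
    · intro x z hx hz y; simp only [mul_add, add_mul]; rw [hx y, hz y]
    · intro c x hx y; simp only [mul_smul_comm, smul_mul_assoc, hx y]
  refine ⟨e, heA, hee, ?_⟩
  rw [rk, heRU]
  -- dimension one
  rw [finrank_eq_one_iff']
  refine ⟨⟨u₀, hu₀⟩, fun h => hu₀0 (congrArg Subtype.val h), fun w => ?_⟩
  by_contra hcon
  push Not at hcon
  have hw : (w : V) ∉ Submodule.span F {u₀} := by
    intro h
    obtain ⟨c, hc⟩ := Submodule.mem_span_singleton.1 h
    exact hcon c (Subtype.ext hc)
  have hwq : (Submodule.span F {u₀}).mkQ (w : V) ≠ 0 := by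
    rw [Submodule.mkQ_apply, Ne, Submodule.Quotient.mk_eq_zero]; exact hw
  obtain ⟨φ₀, hφ₀⟩ := Module.Projective.exists_dual_eq_one F hwq
  set φ : Module.Dual F V := φ₀.comp (Submodule.span F {u₀}).mkQ with hφdef
  have hφ1 : φ w = 1 := hφ₀
  have hφ : φ w ≠ 0 := by rw [hφ1]; exact one_ne_zero
  have hφu : φ u₀ = 0 := by
    have : (Submodule.span F {u₀}).mkQ u₀ = 0 := by
      rw [Submodule.mkQ_apply, Submodule.Quotient.mk_eq_zero]; exact Submodule.mem_span_singleton_self _
    rw [hφdef, LinearMap.comp_apply, this, map_zero]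
  obtain ⟨ψ, hψ⟩ := Module.Projective.exists_dual_eq_one F hu₀0
  -- ψ' = ψ - (ψ w / φ w) φ : ψ' u₀ = 1, ψ' w = 0
  set ψ' : Module.Dual F V := ψ - (ψ w / φ w) • φ with hψ'
  have h1 : ψ' u₀ = 1 := by simp [hψ', hφu, hψ]
  have h2 : ψ' w = 0 := by
    simp only [hψ', LinearMap.sub_apply, LinearMap.smul_apply, smul_eq_mul]
    rw [div_mul_cancel₀ _ hφ, sub_self]
  have h3 := congrArg (fun g : Module.End F V => g w) (hcommAll (ψ'.smulRight (w : V)) (φ.smulRight u₀))
  simp only [Module.End.mul_apply, LinearMap.smulRight_apply, heU _ w.2, map_smul, heU _ hu₀, h1, h2, one_smul, zero_smul,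
    map_zero] at h3
  have hw0 : (w : V) ≠ 0 := by
    intro h; apply hw; rw [h]; exact zero_mem _
  exact (smul_ne_zero hφ hw0) h3

/-- A subring of `End V`, "`F₀`-linearly disjoint from `F`", has a basis of `V` in which all its matrices are over `F₀`. -/
theorem exists_basis [Finite F] [FiniteDimensional F V] [Nontrivial V] (F₀ : Subfield F) (A : Subring (Module.End F V))
    (hspan : Submodule.span F (A : Set (Module.End F V)) = ⊤)
    (hLD : ∀ T : Set (Module.End F V), T ⊆ A → ∀ x ∈ A, x ∈ Submodule.span F T → x ∈ Submodule.span F₀ T) :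
    ∃ v : Module.Basis (Fin (Module.finrank F V)) F V, ∀ a ∈ A, ∀ i j, v.repr (a (v j)) i ∈ F₀ := by
  classical
  obtain ⟨e, heA, hee, hrk⟩ := exists_rank_one_idem A hspan
  obtain ⟨w, hw, hw0⟩ : ∃ w ∈ LinearMap.range e, w ≠ 0 := by
    by_contra hcon
    push Not at hcon
    have : LinearMap.range e = ⊥ := by rw [eq_bot_iff]; intro x hx; exact hcon x hx
    rw [rk, this, finrank_bot] at hrk
    exact zero_ne_one hrk
  have hew : e w = w := by
    obtain ⟨u, rfl⟩ := hw
    rw [← Module.End.mul_apply, hee]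
  have hell : ∀ v, ∃ c : F, e v = c • w := by
    intro v
    obtain ⟨c, hc⟩ := (finrank_eq_one_iff_of_nonzero' (⟨w, hw⟩ : LinearMap.range e) (fun h => hw0 (congrArg Subtype.val h))).1 hrk
      ⟨e v, ⟨v, rfl⟩⟩
    exact ⟨c, (congrArg Subtype.val hc).symm⟩
  let Sw : Set V := {v | ∃ a ∈ A, v = a w}
  have hSw : ⊤ ≤ Submodule.span F Sw := by
    intro v _
    obtain ⟨φ, hφ⟩ := Module.Projective.exists_dual_eq_one F hw0
    have hM : (φ.smulRight v : Module.End F V) ∈ Submodule.span F (A : Set (Module.End F V)) := by rw [hspan]; trivial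
    have h1 : ∀ M ∈ Submodule.span F (A : Set (Module.End F V)), M w ∈ Submodule.span F Sw := by
      intro M hM
      induction hM using Submodule.span_induction with
      | mem x hx => exact Submodule.subset_span ⟨x, hx, rfl⟩
      | zero => exact zero_mem _
      | add x y _ _ hx hy => exact add_mem hx hy
      | smul c x _ hx => exact Submodule.smul_mem _ _ hx
    have h2 := h1 _ hM
    rw [LinearMap.smulRight_apply, hφ, one_smul] at h2
    exact h2
  let v₀ := Module.Basis.ofSpan hSw
  have hv₀ : ∀ i, v₀ i ∈ Sw := fun i => Module.Basis.ofSpan_subset hSw ⟨i, rfl⟩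
  haveI : Finite ((linearIndepOn_empty F (id : V → V)).extend (Set.empty_subset Sw)) := Module.Finite.finite_basis v₀
  haveI := Fintype.ofFinite ((linearIndepOn_empty F (id : V → V)).extend (Set.empty_subset Sw))
  let en : ((linearIndepOn_empty F (id : V → V)).extend (Set.empty_subset Sw)) ≃ Fin (Module.finrank F V) :=
    Fintype.equivFinOfCardEq (Module.finrank_eq_card_basis v₀).symm
  let v := v₀.reindex en
  refine ⟨v, fun a ha i j => ?_⟩
  have hv : ∀ i, ∃ a ∈ A, v i = a w := fun i => by
    rw [Module.Basis.reindex_apply]; exact hv₀ _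
  choose α hαA hα using hv
  -- the relation
  have hrel : a * α j * e = ∑ i, v.repr (a (v j)) i • (α i * e) := by
    ext x
    obtain ⟨c, hc⟩ := hell x
    simp only [Module.End.mul_apply, LinearMap.sum_apply, LinearMap.smul_apply, hc, map_smul, ← hα]
    rw [← (v.sum_repr (a (v j)))]
    rw [Finset.smul_sum]
    refine Finset.sum_congr rfl fun i _ => ?_
    rw [v.sum_repr, smul_comm]
  let T : Set (Module.End F V) := Set.range fun i => α i * e
  have hTA : T ⊆ A := by
    rintro _ ⟨i, rfl⟩; exact mul_mem (hαA i) heA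
  have hmemT : a * α j * e ∈ Submodule.span F T := by
    rw [hrel]
    exact Submodule.sum_mem _ fun i _ => Submodule.smul_mem _ _ (Submodule.subset_span ⟨i, rfl⟩)
  have h3 := hLD T hTA _ (mul_mem (mul_mem ha (hαA j)) heA) hmemT
  rw [Submodule.mem_span_range_iff_exists_fun] at h3
  obtain ⟨μ, hμ⟩ := h3
  have h4 : a (v j) = ∑ i, (μ i : F) • v i := by
    have h5 := congrArg (fun g : Module.End F V => g w) hμ
    simp only [LinearMap.sum_apply, Module.End.mul_apply, hew, ← hα] at h5
    rw [← h5]
    refine Finset.sum_congr rfl fun i _ => ?_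
    show (μ i : F) • ((α i) (e w)) = (μ i : F) • v i
    rw [hew, ← hα]
  have h6 : v.repr (a (v j)) i = μ i := by
    rw [h4, map_sum]
    simp [Finsupp.single_apply]
  rw [h6]
  exact (μ i).2

end abstract

variable {ι : Type} [Fintype ι] [DecidableEq ι] {F : Type*} [Field F]

/-- Matrix version: a set `S` of matrices closed under multiplication, containing 1, spanning the matrix algebra over `F`,
such that some `F`-basis of the matrix algebra has the property that all elements of `S` have coordinates in `F₀` and every basis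
vector is in the additive closure ... : here we simply use the set of all matrices with coordinates in `F₀`. -/
theorem realisable_of_basis [Finite F] (F₀ : Subfield F) {J : Type*} [Finite J] (b : Module.Basis J F (Matrix ι ι F))
    (hmul : ∀ i j k, b.repr (b i * b j) k ∈ F₀) (hone : ∀ k, b.repr 1 k ∈ F₀) :
    ∃ B : GL ι F, ∀ i, ∀ k l, ((B : Matrix ι ι F) * b i * ((B⁻¹ : GL ι F) : Matrix ι ι F)) k l ∈ F₀ := by
  classical
  rcases isEmpty_or_nonempty ι with hι | hι
  · exact ⟨1, fun i k => (hι.false k).elim⟩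
  haveI := Fintype.ofFinite J
  haveI : Nontrivial (ι → F) := inferInstance
  -- the subring of matrices with coordinates in F₀
  have hmulmem : ∀ x y : Matrix ι ι F, (∀ k, b.repr x k ∈ F₀) → (∀ k, b.repr y k ∈ F₀) → ∀ k, b.repr (x * y) k ∈ F₀ := by
    intro x y hx hy k
    rw [← b.sum_repr x, ← b.sum_repr y, Finset.sum_mul, map_sum, Finsupp.finsetSum_apply]
    refine sum_mem fun i _ => ?_
    rw [Finset.mul_sum, map_sum, Finsupp.finsetSum_apply]
    refine sum_mem fun j _ => ?_
    rw [smul_mul_assoc, mul_smul_comm, map_smul, map_smul, Finsupp.smul_apply, Finsupp.smul_apply, smul_eq_mul, smul_eq_mul]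
    exact mul_mem (hx i) (mul_mem (hy j) (hmul i j k))
  let A₁ : Subring (Matrix ι ι F) :=
    { carrier := {x | ∀ k, b.repr x k ∈ F₀}
      mul_mem' := fun {x y} hx hy => hmulmem x y hx hy
      one_mem' := hone
      add_mem' := fun {x y} hx hy k => by
        rw [map_add, Finsupp.add_apply]; exact add_mem (hx k) (hy k)
      zero_mem' := fun k => by rw [map_zero, Finsupp.zero_apply]; exact zero_mem _
      neg_mem' := fun {x} hx k => by
        rw [map_neg, Finsupp.neg_apply]; exact neg_mem (hx k) }
  let φ : Matrix ι ι F ≃ₐ[F] Module.End F (ι → F) := Matrix.toLinAlgEquiv'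
  let A : Subring (Module.End F (ι → F)) := A₁.map (φ : Matrix ι ι F →+* Module.End F (ι → F))
  have hbA : ∀ i, b i ∈ A₁ := by
    intro i k
    rw [b.repr_self, Finsupp.single_apply]
    split_ifs
    · exact one_mem _
    · exact zero_mem _
  have hspan : Submodule.span F (A : Set (Module.End F (ι → F))) = ⊤ := by
    rw [eq_top_iff]
    intro M _
    have h1 : M = φ (φ.symm M) := by simp
    rw [h1, ← b.sum_repr (φ.symm M), map_sum]
    refine Submodule.sum_mem _ fun i _ => ?_
    rw [map_smul]
    exact Submodule.smul_mem _ _ (Submodule.subset_span ⟨b i, hbA i, rfl⟩)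
  have hLD : ∀ T : Set (Module.End F (ι → F)), T ⊆ A → ∀ x ∈ A, x ∈ Submodule.span F T → x ∈ Submodule.span F₀ T := by
    intro T hT x hx hxT
    -- coordinatewise projection
    obtain ⟨π, hπ⟩ : ∃ π : F →ₗ[F₀] F₀, π 1 = 1 := by
      obtain ⟨π, hπ⟩ := LinearMap.exists_leftInverse_of_injective (Algebra.linearMap F₀ F)
        (LinearMap.ker_eq_bot.2 (algebraMap F₀ F).injective)
      exact ⟨π, by simpa using congrArg (fun g : F₀ →ₗ[F₀] F₀ => g 1) hπ⟩
    let P : Module.End F (ι → F) →ₗ[F₀] Module.End F (ι → F) :=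
      { toFun := fun M => ∑ i, (π (b.repr (φ.symm M) i) : F) • φ (b i)
        map_add' := fun M N => by
          rw [← Finset.sum_add_distrib]
          refine Finset.sum_congr rfl fun i _ => ?_
          rw [map_add, map_add, Finsupp.add_apply, map_add, Subfield.coe_add, add_smul]
        map_smul' := fun c M => by
          rw [RingHom.id_apply, Finset.smul_sum]
          refine Finset.sum_congr rfl fun i _ => ?_
          have h1 : φ.symm (c • M) = (c : F) • φ.symm M := by
            rw [← map_smul]; rfl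
          rw [h1, map_smul, Finsupp.smul_apply]
          have h2 : (c : F) • (b.repr (φ.symm M)) i = c • (b.repr (φ.symm M)) i := rfl
          rw [h2, map_smul, smul_eq_mul, Subfield.coe_mul, mul_smul]
          rfl }
    have hP : ∀ (c : F), ∀ t ∈ A, P (c • t) = π c • t := by
      intro c t ht
      obtain ⟨s, hs, rfl⟩ := ht
      have hs' : ∀ k, b.repr s k ∈ F₀ := hs
      show ∑ i, (π (b.repr (φ.symm (c • φ s)) i) : F) • φ (b i) = (π c : F) • φ s
      rw [map_smul, AlgEquiv.symm_apply_apply]
      conv_rhs => rw [← b.sum_repr s]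
      rw [map_sum, Finset.smul_sum]
      refine Finset.sum_congr rfl fun i _ => ?_
      rw [map_smul, map_smul, Finsupp.smul_apply, smul_smul]
      congr 1
      have h1 : c • b.repr s i = (⟨b.repr s i, hs' i⟩ : F₀) • c := by
        rw [Subfield.smul_def, smul_eq_mul, smul_eq_mul, mul_comm]
      rw [h1, map_smul, smul_eq_mul, Subfield.coe_mul, mul_comm]
    have key : ∀ y ∈ Submodule.span F T, ∀ c : F, P (c • y) ∈ Submodule.span F₀ T := by
      intro y hy
      induction hy using Submodule.span_induction with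
      | mem s hs =>
        intro c
        rw [hP c s (hT hs)]
        exact Submodule.smul_mem _ _ (Submodule.subset_span hs)
      | zero => intro c; rw [smul_zero, map_zero]; exact zero_mem _
      | add x y _ _ hx hy => intro c; rw [smul_add, map_add]; exact add_mem (hx c) (hy c)
      | smul a x _ hx => intro c; rw [smul_smul]; exact hx _
    have h1 := key x hxT 1
    rw [hP 1 x hx, hπ, one_smul] at h1
    exact h1
  obtain ⟨v, hv⟩ := exists_basis F₀ A hspan hLD
  have hcard : Module.finrank F (ι → F) = Fintype.card ι := by simp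
  let en : Fin (Module.finrank F (ι → F)) ≃ ι := (finCongr hcard).trans (Fintype.equivFin ι).symm
  let w : Module.Basis ι F (ι → F) := v.reindex en
  have hw : ∀ a ∈ A, ∀ i j, w.repr (a (w j)) i ∈ F₀ := by
    intro a ha i j
    have := hv a ha (en.symm i) (en.symm j)
    simpa [w] using this
  -- change of basis matrix
  let Bi : Matrix ι ι F := fun i j => w j i
  have hBi : ∀ j, Bi *ᵥ Pi.single j 1 = w j := by
    intro j; rw [Matrix.mulVec_single_one]; rfl
  let Bm : Matrix ι ι F := fun i j => w.repr (Pi.single j 1) i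
  have hmul1 : Bi * Bm = 1 := by
    apply Matrix.ext_of_mulVec_single
    intro j
    rw [← Matrix.mulVec_mulVec, Matrix.one_mulVec]
    have h1 : Bm *ᵥ Pi.single j 1 = fun i => w.repr (Pi.single j 1) i := by
      rw [Matrix.mulVec_single_one]; rfl
    rw [h1]
    conv_rhs => rw [← w.sum_repr (Pi.single j 1)]
    have h2 : (fun i => w.repr (Pi.single j 1 : ι → F) i) = ∑ i, w.repr (Pi.single j 1 : ι → F) i • (Pi.single i 1 : ι → F) := by
      ext k; simp [Finset.sum_apply, Pi.single_apply]
    rw [h2, Matrix.mulVec_sum]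
    refine Finset.sum_congr rfl fun i _ => ?_
    rw [Matrix.mulVec_smul, hBi]
  have hmul2 : Bm * Bi = 1 := mul_eq_one_comm.1 hmul1
  let B : GL ι F := ⟨Bm, Bi, hmul2, hmul1⟩
  have hBinv : ((B⁻¹ : GL ι F) : Matrix ι ι F) = Bi := rfl
  refine ⟨B, fun i k l => ?_⟩
  have h1 := hw (φ (b i)) ⟨b i, hbA i, rfl⟩ k l
  rw [hBinv]
  show (Bm * b i * Bi) k l ∈ F₀
  have h2 : (Bm * b i * Bi) k l = w.repr (φ (b i) (w l)) k := by
    have h3 : (Bm * b i * Bi) k l = ((Bm * b i * Bi) *ᵥ Pi.single l 1) k := by
      rw [Matrix.mulVec_single_one]; rfl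
    rw [h3, ← Matrix.mulVec_mulVec, hBi, ← Matrix.mulVec_mulVec]
    have h4 : ∀ u : ι → F, Bm *ᵥ u = fun i => w.repr u i := by
      intro u
      have h5 : u = Bi *ᵥ (fun i => w.repr u i) := by
        have h6 : (fun i => w.repr u i) = ∑ i, w.repr u i • (Pi.single i 1 : ι → F) := by
          ext k; simp [Finset.sum_apply, Pi.single_apply]
        rw [h6, Matrix.mulVec_sum]
        simp only [Matrix.mulVec_smul, hBi]
        exact (w.sum_repr u).symm
      conv_lhs => rw [h5]
      rw [Matrix.mulVec_mulVec, hmul2, Matrix.one_mulVec]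
    rw [h4]
    rfl
  rw [h2]
  exact h1

end Cfsg.Agent.Lib.AschRealise
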