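import Cfsg.Agent.Lib.AschExtra
import Cfsg.Agent.Lib.AschRealise
set_option autoImplicit false
set_option linter.style.haveILetI false
set_option linter.unusedVariables false
set_option linter.unusedSectionVars false

namespace Cfsg.Agent.Lib.AschExtra

open Cfsg Cfsg.Geo Cfsg.Agent.Lib.AschForms
open scoped Matrix MatrixGroups

variable {ι : Type} [Fintype ι] [DecidableEq ι] {F : Type*} [Field F]

lemma mem_sup_scalars {M : Subgroup (GL ι F)} {x : GL ι F} (hx : x ∈ M ⊔ scalars ι F) :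
    ∃ m ∈ M, ∃ z ∈ scalars ι F, m * z = x := by
  have h : x ∈ ((M ⊔ scalars ι F : Subgroup (GL ι F)) : Set (GL ι F)) := hx
  rw [Subgroup.mul_normal] at h
  obtain ⟨m, hm, z, hz, h⟩ := h
  exact ⟨m, hm, z, hz, h⟩

/-- `M` is invariant under conjugation by `H`. -/
def InvBy (H M : Subgroup (GL ι F)) : Prop := ∀ h ∈ H, ∀ x ∈ M, h * x * h⁻¹ ∈ M

lemma pow_conj (h x : GL ι F) (k : ℕ) : (h * x * h⁻¹) ^ k = h * x ^ k * h⁻¹ := conj_pow

lemma scalars_conj {z : GL ι F} (hz : z ∈ scalars ι F) (h : GL ι F) : h * z * h⁻¹ = z := by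
  rw [← scalar_comm hz h, mul_inv_cancel_right]

/-- the commutator `y x y⁻¹ x⁻¹` -/
lemma comm_rel (x y : GL ι F) : y * x = (y * x * y⁻¹ * x⁻¹) * (x * y) := by group

section
variable {N : Subgroup (GL ι F)} (hcomm : ∀ x ∈ N, ∀ y ∈ N, x * y * x⁻¹ * y⁻¹ ∈ scalars ι F)
include hcomm

lemma mul_pow_N {x y : GL ι F} (hx : x ∈ N) (hy : y ∈ N) (n : ℕ) :
    (x * y) ^ n = x ^ n * y ^ n * (y * x * y⁻¹ * x⁻¹) ^ (n * (n - 1) / 2) :=
  mul_pow_class_two (comm_rel x y) (scalar_comm (hcomm y hy x hx) x) (scalar_comm (hcomm y hy x hx) y) n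

lemma comm_pow {x y : GL ι F} (hx : x ∈ N) (hy : y ∈ N) {r : ℕ} (hr : x ^ r ∈ scalars ι F) :
    (y * x * y⁻¹ * x⁻¹) ^ r = 1 := by
  have hc := hcomm y hy x hx
  have h1 : (y * x * y⁻¹) ^ r = x ^ r := by rw [conj_pow, scalars_conj hr]
  have h2 : y * x * y⁻¹ = (y * x * y⁻¹ * x⁻¹) * x := by group
  have h3 : (y * x * y⁻¹) ^ r = (y * x * y⁻¹ * x⁻¹) ^ r * x ^ r := by
    conv_lhs => rw [h2]
    exact (show Commute (y * x * y⁻¹ * x⁻¹) x from scalar_comm hc x).mul_pow r
  rw [h1] at h3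
  exact (mul_eq_right.1 h3.symm)

/-- commutator with a power -/
lemma comm_pow_right {x y : GL ι F} (hx : x ∈ N) (hy : y ∈ N) (k : ℕ) :
    y * x ^ k * y⁻¹ = (y * x * y⁻¹ * x⁻¹) ^ k * x ^ k := by
  have hc := hcomm y hy x hx
  rw [← conj_pow]
  have h2 : y * x * y⁻¹ = (y * x * y⁻¹ * x⁻¹) * x := by group
  conv_lhs => rw [h2]
  exact (show Commute (y * x * y⁻¹ * x⁻¹) x from scalar_comm hc x).mul_pow k

end

/-- Given `N` normalised by `H`, absolutely irreducible, abelian mod scalars and a chief factor mod scalars: exponent `r` mod scalars. -/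
theorem exists_prime_pow_mem [Finite F] {H N : Subgroup (GL ι F)} (hn : 2 ≤ Fintype.card ι) (hinv : InvBy H N)
    (habs : ActsAbsolutelyIrreducibly (matrixSet N)) (hcomm : ∀ x ∈ N, ∀ y ∈ N, x * y * x⁻¹ * y⁻¹ ∈ scalars ι F)
    (hchief : ∀ M : Subgroup (GL ι F), M ≤ N → InvBy H M → M ≤ scalars ι F ∨ N ≤ M ⊔ scalars ι F) :
    ∃ r : ℕ, r.Prime ∧ ∀ x ∈ N, x ^ r ∈ scalars ι F := by
  classical
  haveI : Nonempty ι := Fintype.card_pos_iff.1 (by omega)
  have hcard := card_projQ N habs hcomm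
  obtain ⟨r, hr, hrd⟩ := Nat.exists_prime_and_dvd (n := Nat.card (ProjQ N)) (by rw [hcard]; nlinarith)
  haveI : Fact r.Prime := ⟨hr⟩
  haveI : Finite N := inferInstance
  obtain ⟨q, hq⟩ := exists_prime_orderOf_dvd_card' r hrd
  refine ⟨r, hr, ?_⟩
  let M : Subgroup (GL ι F) :=
    { carrier := {x | x ∈ N ∧ x ^ r ∈ scalars ι F}
      one_mem' := ⟨one_mem _, by rw [one_pow]; exact one_mem _⟩
      mul_mem' := by
        rintro a b ⟨ha, ha'⟩ ⟨hb, hb'⟩
        refine ⟨mul_mem ha hb, ?_⟩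
        rw [mul_pow_N hcomm ha hb]
        exact mul_mem (mul_mem ha' hb') (pow_mem (hcomm b hb a ha) _)
      inv_mem' := by
        rintro a ⟨ha, ha'⟩
        exact ⟨inv_mem ha, by rw [inv_pow]; exact inv_mem ha'⟩ }
  have hMmem : ∀ x, x ∈ M ↔ x ∈ N ∧ x ^ r ∈ scalars ι F := fun x => Iff.rfl
  have hMinv : InvBy H M := by
    rintro h hh x ⟨hx, hx'⟩
    exact ⟨hinv h hh x hx, by rw [conj_pow, scalars_conj hx']; exact hx'⟩
  have hMns : ¬ M ≤ scalars ι F := by
    intro hle
    have h1 : q ^ r = 1 := by rw [← hq]; exact pow_orderOf_eq_one q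
    obtain ⟨x, rfl⟩ := QuotientGroup.mk_surjective q
    rw [← QuotientGroup.mk_pow, QuotientGroup.eq_one_iff, Subgroup.mem_subgroupOf] at h1
    rw [Subgroup.coe_pow] at h1
    have h2 : (x : GL ι F) ∈ M := (hMmem x).2 ⟨x.2, h1⟩
    have h3 := (QuotientGroup.eq_one_iff (N := (scalars ι F).subgroupOf N) x).2 (Subgroup.mem_subgroupOf.2 (hle h2))
    rw [h3, orderOf_one] at hq
    exact hr.one_lt.ne hq
  rcases hchief M (fun x hx => hx.1) hMinv with h | h
  · exact absurd h hMns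
  · intro x hx
    obtain ⟨m, hm, z, hz, rfl⟩ := mem_sup_scalars (h hx)
    rw [(show Commute m z from (scalar_comm hz m).symm).mul_pow]
    exact mul_mem hm.2 (pow_mem hz r)

lemma scalar_sq_one [Nonempty ι] {z : GL ι F} (hz : z ∈ scalars ι F) (h : z ^ 2 = 1) : z = 1 ∨ z = -1 := by
  obtain ⟨c, hc⟩ := (mem_scalars_iff z).1 hz
  have h1 : ((c : F) • (1 : Matrix ι ι F)) * ((c : F) • (1 : Matrix ι ι F)) = 1 := by
    rw [← hc, ← Units.val_mul, ← pow_two, h, Units.val_one]
  rw [Matrix.smul_mul, Matrix.one_mul, smul_smul] at h1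
  have h2 : (c : F) * c = 1 := by
    have h3 := congrArg (fun M : Matrix ι ι F => M (Classical.arbitrary ι) (Classical.arbitrary ι)) h1
    simpa using h3
  rcases mul_self_eq_one_iff.1 h2 with h3 | h3
  · left; apply Units.ext; rw [hc, h3, one_smul, Units.val_one]
  · right; apply Units.ext; rw [hc, h3, Units.val_neg, Units.val_one, neg_smul, one_smul]

lemma two_cond_mul {a b c : GL ι F} (ha : a = 1 ∨ a = -1) (hb : b = 1 ∨ b = -1) (hc : c = 1 ∨ c = -1) :
    a * b * c = 1 ∨ a * b * c = -1 := by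
  rcases ha with rfl | rfl <;> rcases hb with rfl | rfl <;> rcases hc with rfl | rfl <;> simp

/-- The condition `x^r = 1`, or `x^2 = ±1` when `r = 2`. -/
def RCond (r : ℕ) (x : GL ι F) : Prop := x ^ r = 1 ∨ (r = 2 ∧ x ^ r = -1)

lemma rcond_mul [Nonempty ι] {N : Subgroup (GL ι F)} (hcomm : ∀ x ∈ N, ∀ y ∈ N, x * y * x⁻¹ * y⁻¹ ∈ scalars ι F)
    {r : ℕ} (hr : r.Prime) (hpow : ∀ x ∈ N, x ^ r ∈ scalars ι F) {x y : GL ι F} (hx : x ∈ N) (hy : y ∈ N)
    (hx' : RCond r x) (hy' : RCond r y) : RCond r (x * y) := by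
  have h1 := mul_pow_N hcomm hx hy r
  have h2 := comm_pow hcomm hx hy (hpow x hx)
  unfold RCond at *
  rcases eq_or_ne r 2 with rfl | h
  · have h3 := scalar_sq_one (hcomm y hy x hx) h2
    rw [h1]
    simp only [true_and] at hx' hy' ⊢
    have : (2 * (2 - 1) / 2 : ℕ) = 1 := by norm_num
    rw [this, pow_one]
    exact two_cond_mul hx' hy' h3
  · have hx'' : x ^ r = 1 := hx'.resolve_right (fun h' => h h'.1)
    have hy'' : y ^ r = 1 := hy'.resolve_right (fun h' => h h'.1)
    left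
    have hodd : Odd r := hr.odd_of_ne_two h
    obtain ⟨k, hk⟩ := hodd
    have : r * (r - 1) / 2 = r * k := by
      rw [hk]; simp only [Nat.add_sub_cancel]
      rw [mul_comm 2 k, ← mul_assoc, Nat.mul_div_cancel _ (by norm_num)]
    rw [h1, hx'', hy'', this, pow_mul, h2]; simp

/-- The subgroup R. -/
def Rsub [Nonempty ι] (N : Subgroup (GL ι F)) (hcomm : ∀ x ∈ N, ∀ y ∈ N, x * y * x⁻¹ * y⁻¹ ∈ scalars ι F)
    {r : ℕ} (hr : r.Prime) (hpow : ∀ x ∈ N, x ^ r ∈ scalars ι F) : Subgroup (GL ι F) where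
  carrier := {x | x ∈ N ∧ RCond r x}
  one_mem' := ⟨one_mem _, Or.inl (one_pow _)⟩
  mul_mem' := fun {a b} ha hb => ⟨mul_mem ha.1 hb.1, rcond_mul hcomm hr hpow ha.1 hb.1 ha.2 hb.2⟩
  inv_mem' := fun {a} ha => ⟨inv_mem ha.1, by
    rcases ha.2 with h | ⟨h2, h⟩
    · left; rw [inv_pow, h, inv_one]
    · right; refine ⟨h2, ?_⟩; rw [inv_pow, h]
      apply inv_eq_of_mul_eq_one_right; simp⟩

lemma mem_Rsub [Nonempty ι] {N : Subgroup (GL ι F)} {hcomm : ∀ x ∈ N, ∀ y ∈ N, x * y * x⁻¹ * y⁻¹ ∈ scalars ι F}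
    {r : ℕ} {hr : r.Prime} {hpow : ∀ x ∈ N, x ^ r ∈ scalars ι F} {x : GL ι F} :
    x ∈ Rsub N hcomm hr hpow ↔ x ∈ N ∧ RCond r x := Iff.rfl

lemma exists_noncomm [Finite F] {N : Subgroup (GL ι F)} (hn : 2 ≤ Fintype.card ι) (habs : ActsAbsolutelyIrreducibly (matrixSet N)) :
    ∃ x ∈ N, ∃ y ∈ N, x * y ≠ y * x := by
  classical
  by_contra hcon
  push Not at hcon
  haveI : Nonempty ι := Fintype.card_pos_iff.1 (by omega)
  have hsc : ∀ x ∈ N, x ∈ scalars ι F := fun x hx => mem_scalars_of_comm habs (fun s hs => hcon x hx s hs)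
  have h1 := span_eq_top N habs
  have h2 : Submodule.span F (matrixSet N) ≤ Submodule.span F {(1 : Matrix ι ι F)} := by
    rw [Submodule.span_le]
    rintro _ ⟨x, hx, rfl⟩
    obtain ⟨c, hc⟩ := (mem_scalars_iff x).1 (hsc x hx)
    show (x : Matrix ι ι F) ∈ _
    rw [hc]
    exact Submodule.smul_mem _ _ (Submodule.mem_span_singleton_self _)
  rw [h1] at h2
  have h3 := Submodule.finrank_mono h2
  rw [finrank_top, Module.finrank_matrix] at h3
  have h4 := finrank_span_singleton (K := F) (v := (1 : Matrix ι ι F)) one_ne_zero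
  rw [h4] at h3
  simp only [Module.finrank_self, mul_one] at h3
  nlinarith

/-- R is not contained in the scalars. -/
lemma Rsub_not_le [Finite F] [Nonempty ι] {N : Subgroup (GL ι F)} (hn : 2 ≤ Fintype.card ι)
    (habs : ActsAbsolutelyIrreducibly (matrixSet N)) (hcomm : ∀ x ∈ N, ∀ y ∈ N, x * y * x⁻¹ * y⁻¹ ∈ scalars ι F)
    {r : ℕ} (hr : r.Prime) (hpow : ∀ x ∈ N, x ^ r ∈ scalars ι F) : ¬ Rsub N hcomm hr hpow ≤ scalars ι F := by
  classical
  intro hle
  obtain ⟨x, hx, y, hy, hne⟩ := exists_noncomm hn habs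
  -- c of order r
  set c := y * x * y⁻¹ * x⁻¹ with hc
  have hcs : c ∈ scalars ι F := hcomm y hy x hx
  have hcr : c ^ r = 1 := comm_pow hcomm hx hy (hpow x hx)
  have hc1 : c ≠ 1 := by
    intro h
    apply hne
    have := comm_rel x y
    rw [← hc, h, one_mul] at this
    exact this.symm
  haveI : Fact r.Prime := ⟨hr⟩
  have hord : orderOf c = r := orderOf_eq_prime hcr hc1
  -- generator of Fˣ
  haveI : Finite Fˣ := inferInstance
  obtain ⟨g, hg⟩ := IsCyclic.exists_generator (α := Fˣ)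
  let sc : Fˣ →* GL ι F := (Units.map (Matrix.scalar ι : F →+* Matrix ι ι F).toMonoidHom)
  have hsc : ∀ z ∈ scalars ι F, ∃ k : ℕ, z = sc g ^ k := by
    rintro _ ⟨u, rfl⟩
    obtain ⟨k, hk⟩ := (Submonoid.mem_powers_iff u g).1 ((mem_powers_iff_mem_zpowers).2 (hg u))
    exact ⟨k, by rw [← hk, map_pow]⟩
  obtain ⟨a, ha⟩ := hsc _ (hpow x hx)
  obtain ⟨b, hb⟩ := hsc _ (hpow y hy)
  have key : ∀ i j : ℕ, (x ^ r) ^ i = (y ^ r) ^ j → r ∣ i ∧ r ∣ j := by
    intro i j hij
    -- w = x^i y^(-j)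
    set w := x ^ i * (y⁻¹) ^ j with hw
    have hwN : w ∈ N := mul_mem (pow_mem hx i) (pow_mem (inv_mem hy) j)
    have hwr : RCond r w := by
      have h1 := mul_pow_N hcomm (pow_mem hx i) (pow_mem (inv_mem hy) j) r
      have h2 := comm_pow hcomm (pow_mem hx i) (pow_mem (inv_mem hy) j) (hpow _ (pow_mem hx i))
      have h3 : (x ^ i) ^ r * ((y⁻¹) ^ j) ^ r = 1 := by
        rw [← pow_mul, mul_comm i r, pow_mul, hij, ← pow_mul, ← pow_mul, inv_pow, mul_comm r j, mul_inv_cancel]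
      rw [h3, one_mul] at h1
      unfold RCond
      rcases eq_or_ne r 2 with rfl | h
      · have : (2 * (2 - 1) / 2 : ℕ) = 1 := by norm_num
        rw [this, pow_one] at h1
        have h4 := scalar_sq_one (hcomm _ (pow_mem (inv_mem hy) j) _ (pow_mem hx i)) h2
        rw [hw, h1]
        simpa using h4
      · left
        obtain ⟨k, hk⟩ := hr.odd_of_ne_two h
        have : r * (r - 1) / 2 = r * k := by
          rw [hk]; simp only [Nat.add_sub_cancel]
          rw [mul_comm 2 k, ← mul_assoc, Nat.mul_div_cancel _ (by norm_num)]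
        rw [hw, h1, this, pow_mul, h2, one_pow]
    have hwS : w ∈ scalars ι F := hle (mem_Rsub.2 ⟨hwN, hwr⟩)
    constructor
    · -- commute with y : c^i = 1
      rw [← hord, orderOf_dvd_iff_pow_eq_one]
      have h1 : y * w * y⁻¹ = w := scalars_conj hwS y
      have h2 : y * w * y⁻¹ = (y * x ^ i * y⁻¹) * (y⁻¹) ^ j := by
        rw [hw]
        calc y * (x ^ i * y⁻¹ ^ j) * y⁻¹ = y * x ^ i * (y⁻¹ ^ j * y⁻¹) := by group
          _ = y * x ^ i * (y⁻¹ * y⁻¹ ^ j) := by rw [(Commute.pow_self y⁻¹ j).eq]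
          _ = _ := by group
      rw [h2, comm_pow_right hcomm hx hy, ← hc] at h1
      have h3 : c ^ i * w = w := by rw [hw] at h1 ⊢; rw [← mul_assoc]; exact h1
      exact mul_eq_right.1 h3
    · rw [← hord, orderOf_dvd_iff_pow_eq_one]
      -- commute with x : x w x⁻¹ = w
      have h1 : x * w⁻¹ * x⁻¹ = w⁻¹ := scalars_conj (inv_mem hwS) x
      have h1' : x * (x ^ i * y⁻¹ ^ j) * x⁻¹ = x ^ i * y⁻¹ ^ j := scalars_conj hwS x
      have h2 : x * y ^ j * x⁻¹ = y ^ j := by
        have h3 : x ^ i * (x * y⁻¹ ^ j * x⁻¹) = x ^ i * y⁻¹ ^ j := by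
          calc x ^ i * (x * y⁻¹ ^ j * x⁻¹) = (x ^ i * x) * y⁻¹ ^ j * x⁻¹ := by group
            _ = (x * x ^ i) * y⁻¹ ^ j * x⁻¹ := by rw [(Commute.pow_self x i).eq]
            _ = x * (x ^ i * y⁻¹ ^ j) * x⁻¹ := by group
            _ = _ := h1'
        have h4 : x * y⁻¹ ^ j * x⁻¹ = y⁻¹ ^ j := mul_left_cancel h3
        have h5 : (x * y⁻¹ ^ j * x⁻¹)⁻¹ = (y⁻¹ ^ j)⁻¹ := by rw [h4]
        rw [inv_pow] at h5
        calc x * y ^ j * x⁻¹ = (x * (y ^ j)⁻¹ * x⁻¹)⁻¹ := by group
          _ = ((y ^ j)⁻¹)⁻¹ := h5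
          _ = y ^ j := inv_inv _
      rw [comm_pow_right hcomm hy hx] at h2
      have h3 := mul_eq_right.1 h2
      -- x y x⁻¹ y⁻¹ = c⁻¹
      have h4 : x * y * x⁻¹ * y⁻¹ = c⁻¹ := by rw [hc]; group
      rw [h4, inv_pow, inv_eq_one] at h3
      exact h3
  rcases Nat.eq_zero_or_pos (Nat.gcd a b) with h0 | h0
  · -- a = b = 0
    have ha0 : a = 0 := Nat.eq_zero_of_gcd_eq_zero_left h0
    have := key 1 0 (by rw [ha, ha0]; simp)
    exact hr.one_lt.ne' (Nat.dvd_one.1 this.1)
  · obtain ⟨a', b', hcop, ha', hb'⟩ := Nat.exists_coprime a b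
    have := key b' a' (by
      rw [ha, hb, ← pow_mul, ← pow_mul]
      congr 1
      conv_lhs => rw [ha']
      conv_rhs => rw [hb']
      ring)
    exact Nat.Prime.not_coprime_iff_dvd.2 ⟨r, hr, this.2, this.1⟩ hcop


/-- Absolute irreducibility passes to a subgroup that generates the group modulo scalars. -/
lemma absIrr_of_le_sup {N R : Subgroup (GL ι F)} (h : N ≤ R ⊔ scalars ι F)
    (habs : ActsAbsolutelyIrreducibly (matrixSet N)) : ActsAbsolutelyIrreducibly (matrixSet R) := by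
  have key : ∀ s ∈ matrixSet N, ∃ t ∈ matrixSet R, ∃ c : F, s = c • t := by
    rintro _ ⟨x, hx, rfl⟩
    obtain ⟨m, hm, z, hz, rfl⟩ := mem_sup_scalars (h hx)
    obtain ⟨c, hc⟩ := (mem_scalars_iff z).1 hz
    exact ⟨m, ⟨m, hm, rfl⟩, c, by simp [hc]⟩
  constructor
  · intro W hW
    refine habs.1 W (fun s hs => ?_)
    obtain ⟨t, ht, c, rfl⟩ := key s hs
    rintro _ ⟨w, hw, rfl⟩
    have h1 : Matrix.toLin' t w ∈ W := hW t ht ⟨w, hw, rfl⟩
    have h2 : Matrix.toLin' (c • t) w = c • Matrix.toLin' t w := by simp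
    show Matrix.toLin' (c • t) w ∈ W
    rw [h2]; exact W.smul_mem c h1
  · intro M hM
    refine habs.2 M (fun s hs => ?_)
    obtain ⟨t, ht, c, rfl⟩ := key s hs
    rw [Matrix.mul_smul, Matrix.smul_mul, hM t ht]

/-- The centre of an absolutely irreducible group consists of its scalars. -/
lemma center_eq {R : Subgroup (GL ι F)} (habs : ActsAbsolutelyIrreducibly (matrixSet R)) :
    Subgroup.center R = (scalars ι F).subgroupOf R := by
  ext x
  rw [Subgroup.mem_center_iff, Subgroup.mem_subgroupOf]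
  constructor
  · intro h
    exact mem_scalars_of_comm habs (fun s hs => by
      have := congrArg (Subgroup.subtype R) (h ⟨s, hs⟩)
      simpa using this.symm)
  · intro h g
    apply Subtype.ext
    simpa using (scalar_comm h g).symm

/-- The scalar of a scalar matrix, as a homomorphism. -/
noncomputable def unitScalar (ι : Type) [Fintype ι] [DecidableEq ι] (F : Type*) [Field F] : Fˣ →* GL ι F :=
  Units.map (Matrix.scalar ι : F →+* Matrix ι ι F).toMonoidHom

lemma unitScalar_injective [Nonempty ι] : Function.Injective (unitScalar ι F) := by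
  intro a b h
  have h1 := congrArg (fun g : GL ι F => (g : Matrix ι ι F) (Classical.arbitrary ι) (Classical.arbitrary ι)) h
  apply Units.ext
  simpa [unitScalar] using h1

lemma scalars_eq_range : scalars ι F = (unitScalar ι F).range := rfl

instance isCyclic_scalars_subgroupOf [Finite F] [Nonempty ι] (R : Subgroup (GL ι F)) :
    IsCyclic ((scalars ι F).subgroupOf R) := by
  haveI : Finite Fˣ := inferInstance
  haveI h1 : IsCyclic (unitScalar ι F).range :=
    isCyclic_of_surjective (unitScalar ι F).rangeRestrict (unitScalar ι F).rangeRestrict_surjective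
  haveI h2 : IsCyclic (scalars ι F) := h1
  let f : (scalars ι F).subgroupOf R →* scalars ι F :=
    { toFun := fun x => ⟨((x : R) : GL ι F), Subgroup.mem_subgroupOf.1 x.2⟩
      map_one' := rfl
      map_mul' := fun _ _ => rfl }
  have hf : Function.Injective f := by
    intro a b h
    apply Subtype.ext; apply Subtype.ext
    exact congrArg (fun z : scalars ι F => (z : GL ι F)) h
  exact isCyclic_of_injective f hf


section main
variable [Finite F]

/-- In a nonabelian (mod scalars abelian) absolutely irreducible group `R` satisfying `RCond`, the centre has order `r`, or 2 or 4. -/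
lemma card_center {R : Subgroup (GL ι F)} (hn : 2 ≤ Fintype.card ι)
  (habs : ActsAbsolutelyIrreducibly (matrixSet R)) (hcomm : ∀ x ∈ R, ∀ y ∈ R, x * y * x⁻¹ * y⁻¹ ∈ scalars ι F)
  {r : ℕ} (hr : r.Prime) (hR : ∀ x ∈ R, RCond r x) (hpow : ∀ x ∈ R, x ^ r ∈ scalars ι F) :
    (Nat.card (Subgroup.center R) = r ∨ (r = 2 ∧ Nat.card (Subgroup.center R) = 4)) := by
  classical
  haveI : Nonempty ι := Fintype.card_pos_iff.1 (by omega)
  haveI : Finite (Subgroup.center R) := inferInstance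
  haveI : IsCyclic (Subgroup.center R) := by rw [center_eq habs]; infer_instance
  obtain ⟨g, hg⟩ := IsCyclic.exists_generator (α := Subgroup.center R)
  have hcardg : orderOf g = Nat.card (Subgroup.center R) := orderOf_eq_card_of_forall_mem_zpowers hg
  -- an element of order r
  obtain ⟨x, hx, y, hy, hne⟩ := exists_noncomm hn habs
  set c := y * x * y⁻¹ * x⁻¹ with hc
  have hcs : c ∈ scalars ι F := hcomm y hy x hx
  have hcr : c ^ r = 1 := comm_pow hcomm hx hy (hpow x hx)
  have hc1 : c ≠ 1 := by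
    intro h
    apply hne
    have := comm_rel x y
    rw [← hc, h, one_mul] at this
    exact this.symm
  haveI : Fact r.Prime := ⟨hr⟩
  have hord : orderOf c = r := orderOf_eq_prime hcr hc1
  have hcR : c ∈ R := mul_mem (mul_mem (mul_mem hy hx) (inv_mem hy)) (inv_mem hx)
  have hcc : (⟨c, hcR⟩ : R) ∈ Subgroup.center R := by
    rw [center_eq habs, Subgroup.mem_subgroupOf]; exact hcs
  have hdvd : r ∣ Nat.card (Subgroup.center R) := by
    have h1 : orderOf (⟨⟨c, hcR⟩, hcc⟩ : Subgroup.center R) = r := by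
      rw [← hord, ← orderOf_injective (Subgroup.center R).subtype (Subgroup.subtype_injective _),
        ← orderOf_injective R.subtype (Subgroup.subtype_injective _)]
      rfl
    rw [← h1]; exact orderOf_dvd_natCard _
  rcases hR _ (g : R).2 with h | ⟨h2, h⟩
  · left
    have h1 : g ^ r = 1 := by
      apply Subtype.ext; apply Subtype.ext
      simpa using h
    have h2 : orderOf g ∣ r := orderOf_dvd_of_pow_eq_one h1
    rw [hcardg] at h2
    exact Nat.dvd_antisymm h2 hdvd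
  · subst h2
    have h1 : g ^ 4 = 1 := by
      apply Subtype.ext; apply Subtype.ext
      have : ((g : R) : GL ι F) ^ 4 = 1 := by
        rw [show 4 = 2 * 2 from rfl, pow_mul, h]; simp
      simpa using this
    have h2 : orderOf g ∣ 4 := orderOf_dvd_of_pow_eq_one h1
    rw [hcardg] at h2
    have h3 : Nat.card (Subgroup.center R) ≤ 4 := Nat.le_of_dvd (by norm_num) h2
    have h4 : 0 < Nat.card (Subgroup.center R) := Nat.card_pos
    interval_cases h5 : Nat.card (Subgroup.center R) <;> omega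

end main

/-- The order of the group. -/
lemma card_eq {R : Subgroup (GL ι F)} [Nonempty ι] (habs : ActsAbsolutelyIrreducibly (matrixSet R))
    (hcomm : ∀ x ∈ R, ∀ y ∈ R, x * y * x⁻¹ * y⁻¹ ∈ scalars ι F) :
    Nat.card R = Fintype.card ι ^ 2 * Nat.card (Subgroup.center R) := by
  rw [center_eq habs, ← card_projQ R habs hcomm]
  exact Subgroup.card_eq_card_quotient_mul_card_subgroup _

lemma isPGroup_projQ {R : Subgroup (GL ι F)} {r : ℕ} (hpow : ∀ x ∈ R, x ^ r ∈ scalars ι F) :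
    IsPGroup r (ProjQ R) := by
  intro q
  obtain ⟨x, rfl⟩ := QuotientGroup.mk_surjective q
  refine ⟨1, ?_⟩
  rw [pow_one, ← QuotientGroup.mk_pow, QuotientGroup.eq_one_iff, Subgroup.mem_subgroupOf]
  exact hpow x x.2

/-- The degree is a power of r. -/
lemma card_index {R : Subgroup (GL ι F)} [Finite F] [Nonempty ι] (hn : 2 ≤ Fintype.card ι) (habs : ActsAbsolutelyIrreducibly (matrixSet R))
    (hcomm : ∀ x ∈ R, ∀ y ∈ R, x * y * x⁻¹ * y⁻¹ ∈ scalars ι F) {r : ℕ} (hr : r.Prime) (hpow : ∀ x ∈ R, x ^ r ∈ scalars ι F) :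
    ∃ m : ℕ, 1 ≤ m ∧ Fintype.card ι = r ^ m := by
  haveI : Fact r.Prime := ⟨hr⟩
  obtain ⟨k, hk⟩ := (IsPGroup.iff_card (p := r) (G := ProjQ R)).1 (isPGroup_projQ hpow)
  rw [card_projQ R habs hcomm] at hk
  obtain ⟨m, _, hm⟩ := (Nat.dvd_prime_pow hr).1 (Dvd.intro_left (Fintype.card ι) (by rw [← pow_two]; exact hk) : Fintype.card ι ∣ r ^ k)
  refine ⟨m, ?_, hm⟩
  rcases Nat.eq_zero_or_pos m with h | h
  · rw [h, pow_zero] at hm; omega
  · exact h

lemma isPGroup_R {R : Subgroup (GL ι F)} {r : ℕ} (hR : ∀ x ∈ R, RCond r x) : IsPGroup r R := by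
  intro x
  rcases hR x x.2 with h | ⟨h2, h⟩
  · exact ⟨1, by apply Subtype.ext; simpa using h⟩
  · subst h2
    refine ⟨2, ?_⟩
    apply Subtype.ext
    have : (x : GL ι F) ^ 4 = 1 := by
      rw [show 4 = 2 * 2 from rfl, pow_mul, h]; simp
    simpa using this

lemma exponent_R {R : Subgroup (GL ι F)} [Finite F] (hn : 2 ≤ Fintype.card ι)
    (habs : ActsAbsolutelyIrreducibly (matrixSet R)) {r : ℕ} (hr : r.Prime) (hR : ∀ x ∈ R, RCond r x) :
    Monoid.exponent R = r * Nat.gcd 2 r := by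
  obtain ⟨x, hx, y, hy, hne⟩ := exists_noncomm hn habs
  have hne1 : Monoid.exponent R ≠ 1 := by
    intro h
    have h1 := Monoid.exp_eq_one_iff.1 h
    have := h1.elim (⟨x, hx⟩ * ⟨y, hy⟩ : R) (⟨y, hy⟩ * ⟨x, hx⟩)
    exact hne (congrArg Subtype.val this)
  rcases eq_or_ne r 2 with rfl | h2
  · have h4 : Monoid.exponent R ∣ 4 := by
      apply Monoid.exponent_dvd_of_forall_pow_eq_one
      intro g
      apply Subtype.ext
      have : (g : GL ι F) ^ 4 = 1 := by
        rcases hR g g.2 with h | ⟨_, h⟩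
        · rw [show 4 = 2 * 2 from rfl, pow_mul, h]; simp
        · rw [show 4 = 2 * 2 from rfl, pow_mul, h]; simp
      simpa using this
    have hne2 : Monoid.exponent R ≠ 2 := by
      intro h
      have h1 : ∀ a b : R, a * b = b * a := mul_comm_of_exponent_two h
      exact hne (congrArg Subtype.val (h1 ⟨x, hx⟩ ⟨y, hy⟩))
    have h3 := Nat.le_of_dvd (by norm_num) h4
    have h5 : Monoid.exponent R ≠ 0 := by
      intro h; rw [h] at h4; omega
    simp only [Nat.gcd_self]
    interval_cases h6 : Monoid.exponent R <;> omega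
  · have h1 : Monoid.exponent R ∣ r := by
      apply Monoid.exponent_dvd_of_forall_pow_eq_one
      intro g
      apply Subtype.ext
      have := (hR g g.2).resolve_right (fun h => h2 h.1)
      simpa using this
    have h3 := (Nat.dvd_prime hr).1 h1
    have h4 : Nat.gcd 2 r = 1 := by
      rw [← Nat.coprime_iff_gcd_eq_one]
      exact (Nat.coprime_primes Nat.prime_two hr).2 h2.symm
    rw [h4, mul_one]
    exact h3.resolve_left hne1

/-- Characteristic abelian subgroups are cyclic. -/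
lemma cyclic_of_char [Finite F] [Nonempty ι] {H N R : Subgroup (GL ι F)} (hn : 2 ≤ Fintype.card ι) (hRN : R ≤ N)
    (habsN : ActsAbsolutelyIrreducibly (matrixSet N)) (habs : ActsAbsolutelyIrreducibly (matrixSet R))
    (hinv : InvBy H R)
    (hchief : ∀ M : Subgroup (GL ι F), M ≤ N → InvBy H M → M ≤ scalars ι F ∨ N ≤ M ⊔ scalars ι F)
    (A : Subgroup R) (hA : A.Characteristic) (hAc : IsMulCommutative A) : IsCyclic A := by
  have hmem : ∀ x : GL ι F, x ∈ A.map R.subtype ↔ ∃ h : x ∈ R, (⟨x, h⟩ : R) ∈ A := by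
    intro x
    rw [Subgroup.mem_map]
    constructor
    · rintro ⟨y, hy, rfl⟩; exact ⟨y.2, hy⟩
    · rintro ⟨h, hx⟩; exact ⟨⟨x, h⟩, hx, rfl⟩
  have hAcomm : ∀ a ∈ A.map R.subtype, ∀ b ∈ A.map R.subtype, a * b = b * a := by
    intro a ha b hb
    obtain ⟨ha', ha⟩ := (hmem a).1 ha
    obtain ⟨hb', hb⟩ := (hmem b).1 hb
    have h1 := hAc.is_comm.comm (⟨⟨a, ha'⟩, ha⟩ : A) ⟨⟨b, hb'⟩, hb⟩
    exact congrArg (fun z : A => ((z : R) : GL ι F)) h1
  rcases hchief (A.map R.subtype) (le_trans (Subgroup.map_subtype_le A) hRN) (by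
    intro h hh x hx
    obtain ⟨hx', hxA⟩ := (hmem x).1 hx
    rw [hmem]
    refine ⟨hinv h hh x hx', ?_⟩
    let φ : R →* R :=
      { toFun := fun z => ⟨h * z * h⁻¹, hinv h hh z z.2⟩
        map_one' := by apply Subtype.ext; simp
        map_mul' := by intro a b; apply Subtype.ext; simp }
    have hφi : Function.Injective φ := by
      intro a b hab
      apply Subtype.ext
      have := congrArg Subtype.val hab
      simpa [φ] using this
    haveI : Finite R := inferInstance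
    let e : R ≃* R := MulEquiv.ofBijective φ (Finite.injective_iff_bijective.1 hφi)
    have h1 := (Subgroup.characteristic_iff_le_comap.1 hA) e hxA
    exact h1) with h | h
  · -- A ≤ scalars
    let f : A →* (scalars ι F).subgroupOf R :=
      { toFun := fun x => ⟨(x : R), Subgroup.mem_subgroupOf.2 (h ((hmem _).2 ⟨(x : R).2, x.2⟩))⟩
        map_one' := rfl
        map_mul' := fun _ _ => rfl }
    have hf : Function.Injective f := by
      intro a b hab
      apply Subtype.ext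
      exact congrArg (fun z : (scalars ι F).subgroupOf R => (z : R)) hab
    exact isCyclic_of_injective f hf
  · exfalso
    obtain ⟨x, hx, y, hy, hne⟩ := exists_noncomm hn habsN
    apply hne
    obtain ⟨m, hm, z, hz, rfl⟩ := mem_sup_scalars (h hx)
    obtain ⟨m', hm', z', hz', rfl⟩ := mem_sup_scalars (h hy)
    have h1 := hAcomm m hm m' hm'
    calc m * z * (m' * z') = m * (z * m') * z' := by group
      _ = m * m' * z * z' := by rw [scalar_comm hz]; group
      _ = m' * m * (z * z') := by rw [h1]; group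
      _ = m' * m * (z' * z) := by rw [scalar_comm hz]
      _ = m' * (m * z') * z := by group
      _ = _ := by rw [← scalar_comm hz' m]; group

theorem isSymplecticTypeGroup_R [Finite F] [Nonempty ι] {H N R : Subgroup (GL ι F)} (hn : 2 ≤ Fintype.card ι) (hRN : R ≤ N)
    (habsN : ActsAbsolutelyIrreducibly (matrixSet N)) (habs : ActsAbsolutelyIrreducibly (matrixSet R))
    (hinv : InvBy H R)
    (hchief : ∀ M : Subgroup (GL ι F), M ≤ N → InvBy H M → M ≤ scalars ι F ∨ N ≤ M ⊔ scalars ι F)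
    {r : ℕ} (hr : r.Prime) (hR : ∀ x ∈ R, RCond r x) : IsSymplecticTypeGroup r R where
  prime := hr
  pGroup := isPGroup_R hR
  cyclic_of_characteristic := cyclic_of_char hn hRN habsN habs hinv hchief
  exponent_eq := exponent_R hn habs hr hR

end Cfsg.Agent.Lib.AschExtra
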