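import Cfsg.Agent.Lib.AschCore

/-!
Aschbacher's theorem, core part 2: subfields of the matrix algebra, subfields of prime degree.
-/

set_option autoImplicit false

namespace Cfsg.Agent.Lib.AschField

open Cfsg Cfsg.Geo Cfsg.Agent.Lib.AschMU Cfsg.Agent.Lib.AschCore
open scoped Matrix MatrixGroups

theorem fixedField_frob (K L : Type*) [Field K] [Fintype K] [Field L] [Finite L] [Algebra K L] (r : ℕ) (hr : r ∣ Module.finrank K L) (hr0 : 0 < r) :
    Module.finrank K (IntermediateField.fixedField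
      (Subgroup.zpowers (FiniteField.frobeniusAlgEquivOfAlgebraic K L ^ r))) = r ∧
    ∀ x : L, x ∈ IntermediateField.fixedField
      (Subgroup.zpowers (FiniteField.frobeniusAlgEquivOfAlgebraic K L ^ r)) ↔ x ^ (Fintype.card K ^ r) = x := by
  constructor
  · have h1 := IntermediateField.finrank_fixedField_eq_card (F := K) (E := L)
      (Subgroup.zpowers (FiniteField.frobeniusAlgEquivOfAlgebraic K L ^ r))
    rw [Nat.card_zpowers, orderOf_pow, FiniteField.orderOf_frobeniusAlgEquivOfAlgebraic,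
      Nat.gcd_eq_right hr] at h1
    have h2 := Module.finrank_mul_finrank K (IntermediateField.fixedField
      (Subgroup.zpowers (FiniteField.frobeniusAlgEquivOfAlgebraic K L ^ r))) L
    rw [h1] at h2
    obtain ⟨d, hd⟩ := hr
    have hpos : 0 < Module.finrank K L := Module.finrank_pos
    rw [hd, Nat.mul_div_cancel_left _ hr0] at h2
    have hd0 : 0 < d := by
      rcases Nat.eq_zero_or_pos d with h | h
      · rw [hd, h, mul_zero] at hpos; exact absurd hpos (lt_irrefl 0)
      · exact h
    exact Nat.eq_of_mul_eq_mul_right hd0 h2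
  · intro x
    have hfr : ∀ y : L, (FiniteField.frobeniusAlgEquivOfAlgebraic K L ^ r) y = y ^ (Fintype.card K ^ r) := by
      intro y
      rw [AlgEquiv.coe_pow, FiniteField.coe_frobeniusAlgEquivOfAlgebraic_iterate]
    constructor
    · intro hx
      have := hx ⟨_, Subgroup.mem_zpowers _⟩
      rw [← hfr]
      exact this
    · rintro hx ⟨g, hg⟩
      rw [← hfr] at hx
      have h1 : Subgroup.zpowers (FiniteField.frobeniusAlgEquivOfAlgebraic K L ^ r) ≤ MulAction.stabilizer _ x := by
        rw [Subgroup.zpowers_le]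
        exact hx
      exact h1 hg

variable {ι : Type} [Fintype ι] [DecidableEq ι] {F : Type*} [Field F]

/-- The subfield of prime degree, with an equational description. -/
theorem exists_prime_subfield [Fintype F] [Nonempty ι] {E : Subalgebra F (Matrix ι ι F)}
    (hcomm : ∀ x ∈ E, ∀ y ∈ E, x * y = y * x) (hinv : ∀ x ∈ E, x ≠ 0 → ∃ y ∈ E, x * y = 1)
    (r : ℕ) (hr0 : 0 < r) (hr : r ∣ Module.finrank F E) :
    ∃ K : Subalgebra F (Matrix ι ι F), IsFieldSubalgebra r K ∧ ∀ x, x ∈ K ↔ x ∈ E ∧ x ^ (Fintype.card F ^ r) = x := by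
  classical
  have hfinM : Finite (Matrix ι ι F) := inferInstanceAs (Finite (ι → ι → F))
  have hfin : Finite E := Finite.of_injective (fun a : E => (a : Matrix ι ι F)) Subtype.coe_injective
  have hE : IsField E :=
    { exists_pair_ne := ⟨0, 1, fun h => zero_ne_one (congrArg Subtype.val h)⟩
      mul_comm := fun a b => Subtype.ext (hcomm a a.2 b b.2)
      mul_inv_cancel := fun {a} ha => by
        obtain ⟨y, hy, hxy⟩ := hinv a a.2 (fun h => ha (Subtype.ext h))
        exact ⟨⟨y, hy⟩, Subtype.ext hxy⟩ }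
  let _ : Field E := hE.toField
  obtain ⟨h1, h2⟩ := fixedField_frob F E r hr hr0
  refine ⟨(IntermediateField.fixedField
      (Subgroup.zpowers (FiniteField.frobeniusAlgEquivOfAlgebraic F E ^ r))).toSubalgebra.map E.val, ?_, ?_⟩
  swap
  · intro x
    rw [Subalgebra.mem_map]
    constructor
    · rintro ⟨y, hy, rfl⟩
      refine ⟨y.2, ?_⟩
      exact congrArg Subtype.val ((h2 y).1 hy)
    · rintro ⟨hx, hx'⟩
      exact ⟨⟨x, hx⟩, (h2 _).2 (Subtype.ext hx'), rfl⟩
  · have hmem : ∀ x, x ∈ (IntermediateField.fixedField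
      (Subgroup.zpowers (FiniteField.frobeniusAlgEquivOfAlgebraic F E ^ r))).toSubalgebra.map E.val ↔
        x ∈ E ∧ x ^ (Fintype.card F ^ r) = x := by
      intro x
      rw [Subalgebra.mem_map]
      constructor
      · rintro ⟨y, hy, rfl⟩
        refine ⟨y.2, ?_⟩
        exact congrArg Subtype.val ((h2 y).1 hy)
      · rintro ⟨hx, hx'⟩
        exact ⟨⟨x, hx⟩, (h2 _).2 (Subtype.ext hx'), rfl⟩
    refine ⟨fun x hx y hy => hcomm x ((hmem x).1 hx).1 y ((hmem y).1 hy).1, fun x hx hx0 => ?_, ?_⟩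
    · obtain ⟨hxE, hxp⟩ := (hmem x).1 hx
      obtain ⟨y, hy, hxy⟩ := hinv x hxE hx0
      refine ⟨y, (hmem y).2 ⟨hy, ?_⟩, hxy⟩
      have h3 : x * y ^ (Fintype.card F ^ r) = 1 := by
        conv_lhs => rw [← hxp]
        have : Commute x y := hcomm x hxE y hy
        rw [← this.mul_pow, hxy, one_pow]
      calc y ^ (Fintype.card F ^ r) = (y * x) * y ^ (Fintype.card F ^ r) := by
            rw [hcomm y hy x hxE, hxy, one_mul]
        _ = y * (x * y ^ (Fintype.card F ^ r)) := by rw [mul_assoc]
        _ = y := by rw [h3, mul_one]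
    · conv_rhs => rw [← h1]
      exact (LinearEquiv.finrank_eq (Subalgebra.equivMapOfInjective _ E.val Subtype.coe_injective).toLinearEquiv).symm

theorem dvd_abstract (F L V : Type*) [Field F] [Field L] [Algebra F L] [AddCommGroup V] [Module F V]
    (φ : L →ₐ[F] Module.End F V) : Module.finrank F L ∣ Module.finrank F V := by
  let _ : Module L V := Module.compHom V φ.toRingHom
  have : IsScalarTower F L V := ⟨fun a x v => by
    show φ (a • x) v = a • φ x v
    rw [map_smul]; rfl⟩
  exact ⟨_, (Module.finrank_mul_finrank F L V).symm⟩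

/-- The degree of a subfield of the matrix algebra divides the dimension. -/
theorem dvd_card_of_field [Nonempty ι] {E : Subalgebra F (Matrix ι ι F)}
    (hcomm : ∀ x ∈ E, ∀ y ∈ E, x * y = y * x) (hinv : ∀ x ∈ E, x ≠ 0 → ∃ y ∈ E, x * y = 1) :
    Module.finrank F E ∣ Fintype.card ι := by
  classical
  have hE : IsField E :=
    { exists_pair_ne := ⟨0, 1, fun h => zero_ne_one (congrArg Subtype.val h)⟩
      mul_comm := fun a b => Subtype.ext (hcomm a a.2 b b.2)
      mul_inv_cancel := fun {a} ha => by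
        obtain ⟨y, hy, hxy⟩ := hinv a a.2 (fun h => ha (Subtype.ext h))
        exact ⟨⟨y, hy⟩, Subtype.ext hxy⟩ }
  let _ : Field E := hE.toField
  have h := dvd_abstract F E (ι → F) ((Matrix.toLinAlgEquiv' (R := F) (n := ι)).toAlgHom.comp E.val)
  rwa [Module.finrank_fintype_fun_eq_card] at h

/-- A non-scalar commutative subalgebra in which non-zero elements are invertible contains a subfield of prime degree,
described by an equation inside `E` (hence preserved by everything preserving `E`). -/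
theorem exists_prime_subfield' [Fintype F] [Nonempty ι] {E : Subalgebra F (Matrix ι ι F)}
    (hcomm : ∀ x ∈ E, ∀ y ∈ E, x * y = y * x) (hinv : ∀ x ∈ E, x ≠ 0 → ∃ y ∈ E, x * y = 1) (hbot : E ≠ ⊥) :
    ∃ (r : ℕ) (K : Subalgebra F (Matrix ι ι F)), r.Prime ∧ r ∣ Fintype.card ι ∧ r ∣ Module.finrank F E ∧
      IsFieldSubalgebra r K ∧ ∀ x, x ∈ K ↔ x ∈ E ∧ x ^ (Fintype.card F ^ r) = x := by
  have hd : Module.finrank F E ≠ 1 := by
    intro h
    exact hbot (Subalgebra.eq_bot_of_finrank_one h)
  have hr : (Module.finrank F E).minFac.Prime := Nat.minFac_prime hd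
  obtain ⟨K, hK, hK'⟩ := exists_prime_subfield hcomm hinv _ hr.pos (Nat.minFac_dvd _)
  exact ⟨_, K, hr, (Nat.minFac_dvd _).trans (dvd_card_of_field hcomm hinv), Nat.minFac_dvd _, hK, hK'⟩

/-- Consequence for normalisers. -/
theorem le_normalizer_of_pow {H : Subgroup (GL ι F)} {E K : Subalgebra F (Matrix ι ι F)} {m : ℕ}
    (hE : H ≤ subalgebraNormalizer E) (hK : ∀ x, x ∈ K ↔ x ∈ E ∧ x ^ m = x) : H ≤ subalgebraNormalizer K := by
  apply le_subalgebraNormalizer
  intro g hg k hk
  obtain ⟨h1, h2⟩ := (hK k).1 hk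
  exact (hK _).2 ⟨cj_mem_of_le hE hg h1, by rw [← map_pow, h2]⟩

end Cfsg.Agent.Lib.AschField
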