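import Cfsg.Agent.Lib.SLNotSymp

/-!
Maximal subgroups of `SL_n(F)`, `n ≥ 3`: the list of types.
-/

set_option autoImplicit false
set_option linter.unusedSectionVars false

namespace Cfsg.Agent.Lib.AschLinMax

open Cfsg Cfsg.Geo Cfsg.Agent.Lib.AschMU Cfsg.Agent.Lib.AschCore Cfsg.Agent.Lib.AschField Cfsg.Agent.Lib.AschAlg
  Cfsg.Agent.Lib.AschDescent Cfsg.Agent.Lib.AschForm Cfsg.Agent.Lib.AschGroup Cfsg.Agent.Lib.AschGood
  Cfsg.Agent.Lib.AschNonab Cfsg.Agent.Lib.AschTensor Cfsg.Agent.Lib.AschComp Cfsg.Agent.Lib.AschSymp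
  Cfsg.Agent.Lib.AschForm2 Cfsg.Agent.Lib.AschLinear Cfsg.Agent.Lib.SLGeom Cfsg.Agent.Lib.SLNot Cfsg.Agent.Lib.SLNotSymp
open scoped Matrix MatrixGroups Kronecker commutatorElement
open Matrix (vecMulVec)

variable {ι : Type} [Fintype ι] [DecidableEq ι] {F : Type*} [Field F]

/-- The possible types of a maximal subgroup of the special linear group. -/
inductive LinMax [Fintype F] (H : Subgroup (GL ι F)) : Prop
  | reducible (W : Submodule F (ι → F)) (hb : W ≠ ⊥) (ht : W ≠ ⊤) (h : H = subspaceStabilizer W ⊓ specialLinear ι F)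
  | imprimitive (t m : ℕ) (D : Fin t → Submodule F (ι → F)) (hD : IsMDecomposition m D)
      (h : H = decompositionStabilizer D ⊓ specialLinear ι F)
  | field (r : ℕ) (K : Subalgebra F (Matrix ι ι F)) (hr : r.Prime) (hrn : r ∣ Fintype.card ι) (hK : IsFieldSubalgebra r K)
      (h : H = subalgebraNormalizer K ⊓ specialLinear ι F)
  | tensor (n₁ n₂ : ℕ) (e : ι ≃ Fin n₁ × Fin n₂) (P : GL ι F) (h1 : 2 ≤ n₁) (h2 : n₁ < n₂)
      (h : H = tensorProductSubgroup n₁ n₂ e P ⊓ specialLinear ι F)
  | subfield (F₀ : Subfield F) (r : ℕ) (P : GL ι F) (hr : r.Prime) (hc : Fintype.card F = Nat.card F₀ ^ r)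
      (h : H = subfieldSubgroup F₀ P ⊓ specialLinear ι F)
  | symplecticType (r m : ℕ) (R : Subgroup (GL ι F)) (hm : Fintype.card ι = r ^ m) (hR : IsLinearSymplecticTypeData r R)
      (h : H = subgroupNormalizer R ⊓ specialLinear ι F)
  | tensorWreath (m t : ℕ) (e : ι ≃ (Fin t → Fin m)) (P : GL ι F) (hm : 3 ≤ m) (ht : 2 ≤ t)
      (h : H = tensorWreathSubgroup m t e P ⊓ specialLinear ι F)
  | symplectic (f : (ι → F) → (ι → F) → F) (hf : IsSymplecticForm f) (h : H = similarityGroup f ⊓ specialLinear ι F)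
  | unitary (σ : F ≃+* F) (f : (ι → F) → (ι → F) → F) (hf : IsUnitaryForm σ f)
      (h : H = similarityGroup f ⊓ specialLinear ι F)
  | quadratic (Q : (ι → F) → F) (hQ : IsNondegenerateQuadraticForm Q) (hodd : Odd (Fintype.card F))
      (h : H = quadSimilarityGroup Q ⊓ specialLinear ι F)
  | residual (h : InLinearResidualClass H)

theorem symplectic_eq [Fintype F] (hι : 3 ≤ Fintype.card ι) {H : Subgroup (GL ι F)} (hH : IsMaximalIn (specialLinear ι F) H)
    {f : (ι → F) → (ι → F) → F} (hf : IsSymplecticForm f) (h : H ≤ similarityGroup f) :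
    H = similarityGroup f ⊓ specialLinear ι F := by
  have hne : Nonempty ι := Fintype.card_pos_iff.1 (by omega)
  exact eq_inf_of_maximal hH h (not_le_similarity hι hf.bilinear.add_left (exists_ne_of_nondeg hf.nondegenerate))

theorem unitary_eq [Fintype F] (hι : 3 ≤ Fintype.card ι) {H : Subgroup (GL ι F)} (hH : IsMaximalIn (specialLinear ι F) H)
    {σ : F ≃+* F} {f : (ι → F) → (ι → F) → F} (hf : IsUnitaryForm σ f) (h : H ≤ similarityGroup f) :
    H = similarityGroup f ⊓ specialLinear ι F := by
  have hne : Nonempty ι := Fintype.card_pos_iff.1 (by omega)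
  exact eq_inf_of_maximal hH h (not_le_similarity hι hf.add_left (exists_ne_of_nondeg hf.nondegenerate))

theorem quad_eq [Fintype F] (hι : 3 ≤ Fintype.card ι) {H : Subgroup (GL ι F)} (hH : IsMaximalIn (specialLinear ι F) H)
    {Q : (ι → F) → F} (hQ : IsNondegenerateQuadraticForm Q) (h : H ≤ quadSimilarityGroup Q) :
    H = quadSimilarityGroup Q ⊓ specialLinear ι F :=
  eq_inf_of_maximal hH h (not_le_quad hι hQ)

/-- **Maximal subgroups of `SL_n(F)`.** -/
theorem linMax [Fintype F] (hι : 3 ≤ Fintype.card ι) {H : Subgroup (GL ι F)} (hH : IsMaximalIn (specialLinear ι F) H) :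
    LinMax H := by
  have hne : Nonempty ι := Fintype.card_pos_iff.1 (by omega)
  cases linCase hι H with
  | reducible W hb ht h => exact .reducible W hb ht (eq_inf_of_maximal hH h (not_le_subspace hb ht))
  | imprimitive t m D hD h => exact .imprimitive t m D hD (eq_inf_of_maximal hH h (not_le_decomposition hD))
  | field r K hr hrn hK h => exact .field r K hr hrn hK (eq_inf_of_maximal hH h (not_le_field hι hr.two_le hK))
  | tensor n₁ n₂ e P h1 h2 h =>
    exact .tensor n₁ n₂ e P h1 h2 (eq_inf_of_maximal hH h (not_le_tensor h1 (by omega) e P))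
  | subfield F₀ r P hr hc h =>
    exact .subfield F₀ r P hr hc (eq_inf_of_maximal hH h (not_le_subfield (by omega) (ne_top_of_card hr hc) P))
  | symplecticType r m R hm hR h => exact .symplecticType r m R hm hR (eq_inf_of_maximal hH h (not_le_symplecticType hι hR))
  | tensorWreath m t e P hm ht h =>
    exact .tensorWreath m t e P hm ht (eq_inf_of_maximal hH h (not_le_tensorWreath (by omega) ht e P))
  | symplectic f hf h => exact .symplectic f hf (symplectic_eq hι hH hf h)
  | unitary σ f hf h => exact .unitary σ f hf (unitary_eq hι hH hf h)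
  | quadratic Q hQ hodd h => exact .quadratic Q hQ hodd (quad_eq hι hH hQ h)
  | residual h => exact .residual h

/-! ### Decompositions into lines over small fields -/

section Lines

variable {t : ℕ} {D : Fin t → Submodule F (ι → F)}

theorem card_eq_mul {m : ℕ} (hD : IsMDecomposition m D) : Fintype.card ι = t * m := by
  classical
  have h1 : DirectSum.IsInternal D :=
    (DirectSum.isInternal_submodule_iff_iSupIndep_and_iSup_eq_top D).2 ⟨hD.indep, hD.iSup_eq_top⟩
  have h2 := (h1.collectedBasis (fun i => Module.finBasis F (D i)))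
  have h3 := Module.finrank_eq_card_basis h2
  rw [Module.finrank_fintype_fun_eq_card, Fintype.card_sigma] at h3
  simp only [Fintype.card_fin, hD.finrank_eq, Finset.sum_const, Finset.card_univ, smul_eq_mul] at h3
  exact h3

/-- A basis adapted to a decomposition into lines. -/
theorem exists_basis_of_lines (hD : IsMDecomposition 1 D) :
    ∃ b : Module.Basis (Fin t) F (ι → F), (∀ i, D i = F ∙ (b i)) ∧
      ∀ g ∈ decompositionStabilizer D, ∃ (σ : Equiv.Perm (Fin t)) (c : Fin t → F), (∀ i, c i ≠ 0) ∧
        ∀ i, (g : Matrix ι ι F) *ᵥ b i = c i • b (σ i) := by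
  classical
  have h0 : ∀ i, ∃ v : ι → F, v ≠ 0 ∧ D i = F ∙ v := by
    intro i
    obtain ⟨⟨v, hv⟩, hv0, hspan⟩ := finrank_eq_one_iff'.1 (hD.finrank_eq i)
    have hv0' : v ≠ 0 := fun h => hv0 (Subtype.ext h)
    refine ⟨v, hv0', le_antisymm ?_ ?_⟩
    · intro w hw
      obtain ⟨c, hc⟩ := hspan ⟨w, hw⟩
      rw [Submodule.mem_span_singleton]
      exact ⟨c, congrArg Subtype.val hc⟩
    · rw [Submodule.span_singleton_le_iff_mem]
      exact hv
  choose v hv0 hv using h0
  have hli : LinearIndependent F v := hD.indep.linearIndependent D (fun i => by rw [hv]; exact Submodule.mem_span_singleton_self _) hv0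
  have hsp : ⊤ ≤ Submodule.span F (Set.range v) := by
    rw [← hD.iSup_eq_top, iSup_le_iff]
    intro i
    rw [hv, Submodule.span_singleton_le_iff_mem]
    exact Submodule.subset_span ⟨i, rfl⟩
  refine ⟨Module.Basis.mk hli hsp, fun i => by rw [Module.Basis.mk_apply]; exact hv i, ?_⟩
  rintro g ⟨σ, hσ⟩
  have h1 : ∀ i, ∃ c : F, c • v (σ i) = (g : Matrix ι ι F) *ᵥ v i := by
    intro i
    rw [← Submodule.mem_span_singleton, ← hv, ← hσ]
    exact ⟨v i, by rw [hv]; exact Submodule.mem_span_singleton_self _, Matrix.toLin'_apply _ _⟩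
  choose c hc using h1
  refine ⟨σ, c, ?_, fun i => ?_⟩
  · intro i h0
    have h2 := hc i
    rw [h0, zero_smul] at h2
    apply hv0 i
    have h3 := congrArg (fun z => ((g⁻¹ : GL ι F) : Matrix ι ι F) *ᵥ z) h2.symm
    simp only [Matrix.mulVec_mulVec, gl_inv_mul, Matrix.one_mulVec, Matrix.mulVec_zero] at h3
    exact h3
  · rw [Module.Basis.mk_apply, Module.Basis.mk_apply, hc]

/-- Coordinates of `g u`. -/
theorem repr_mulVec (b : Module.Basis (Fin t) F (ι → F)) {g : GL ι F} {σ : Equiv.Perm (Fin t)} {c : Fin t → F}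
    (hg : ∀ i, (g : Matrix ι ι F) *ᵥ b i = c i • b (σ i)) (u : ι → F) (i : Fin t) :
    b.repr ((g : Matrix ι ι F) *ᵥ u) (σ i) = c i * b.repr u i := by
  have h1 : (g : Matrix ι ι F) *ᵥ u = ∑ j, (b.repr u j * c j) • b (σ j) := by
    conv_lhs => rw [← b.sum_repr u]
    rw [Matrix.mulVec_sum]
    refine Finset.sum_congr rfl fun j _ => ?_
    rw [Matrix.mulVec_smul, hg, smul_smul]
  rw [h1, map_sum, Finsupp.finsetSum_apply, Finset.sum_eq_single i]
  · rw [map_smul, Finsupp.smul_apply, b.repr_self, Finsupp.single_eq_same, smul_eq_mul, mul_one, mul_comm]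
  · intro j _ hj
    rw [map_smul, Finsupp.smul_apply, b.repr_self, Finsupp.single_eq_of_ne (fun h => hj (σ.injective h).symm), smul_zero]
  · simp

/-- The sesquilinear form making the basis orthonormal. -/
noncomputable def onForm (σ : F →+* F) (b : Module.Basis (Fin t) F (ι → F)) (u v : ι → F) : F :=
  ∑ i, b.repr u i * σ (b.repr v i)

theorem onForm_isSesq (σ : F →+* F) (b : Module.Basis (Fin t) F (ι → F)) : IsSesq σ (onForm σ b) where
  add_left x y v := by simp [onForm, add_mul, Finset.sum_add_distrib]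
  smul_left c x v := by simp [onForm, mul_assoc, Finset.mul_sum]
  add_right v x y := by simp [onForm, mul_add, Finset.sum_add_distrib]
  smul_right c v x := by
    simp only [onForm, map_smul, Finsupp.smul_apply, smul_eq_mul, map_mul, Finset.mul_sum]
    refine Finset.sum_congr rfl fun i _ => by ring

theorem onForm_single (σ : F →+* F) (b : Module.Basis (Fin t) F (ι → F)) (u : ι → F) (i : Fin t) :
    onForm σ b u (b i) = b.repr u i ∧ onForm σ b (b i) u = σ (b.repr u i) := by
  constructor
  · simp only [onForm, b.repr_self]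
    rw [Finset.sum_eq_single i]
    · simp
    · intro j _ hj; simp [Finsupp.single_eq_of_ne hj]
    · simp
  · simp only [onForm, b.repr_self]
    rw [Finset.sum_eq_single i]
    · simp
    · intro j _ hj; simp [Finsupp.single_eq_of_ne hj]
    · simp

theorem onForm_nondeg (σ : F →+* F) (b : Module.Basis (Fin t) F (ι → F)) : IsNondegenerateForm (onForm σ b) := by
  intro v hv
  obtain ⟨i, hi⟩ : ∃ i, b.repr v i ≠ 0 := by
    by_contra hcon
    push Not at hcon
    apply hv
    apply b.repr.injective
    ext i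
    rw [hcon i]; simp
  refine ⟨⟨b i, ?_⟩, ⟨b i, ?_⟩⟩
  · rw [(onForm_single σ b v i).2]
    exact (map_ne_zero σ).2 hi
  · rw [(onForm_single σ b v i).1]
    exact hi

theorem onForm_mulVec (τ : F →+* F) (b : Module.Basis (Fin t) F (ι → F)) {g : GL ι F} {σ : Equiv.Perm (Fin t)} {c : Fin t → F}
    (hg : ∀ i, (g : Matrix ι ι F) *ᵥ b i = c i • b (σ i)) (hc : ∀ i, c i * τ (c i) = 1) (u v : ι → F) :
    onForm τ b ((g : Matrix ι ι F) *ᵥ u) ((g : Matrix ι ι F) *ᵥ v) = onForm τ b u v := by
  simp only [onForm]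
  rw [← Equiv.sum_comp σ]
  refine Finset.sum_congr rfl fun i _ => ?_
  rw [repr_mulVec b hg, repr_mulVec b hg, map_mul]
  calc c i * b.repr u i * (τ (c i) * τ (b.repr v i)) = (c i * τ (c i)) * (b.repr u i * τ (b.repr v i)) := by ring
    _ = _ := by rw [hc, one_mul]

end Lines

/-- Decompositions into lines over the fields with 2, 3 or 4 elements do not give maximal subgroups of a new type. -/
theorem lines [Fintype F] (hι : 3 ≤ Fintype.card ι) {H : Subgroup (GL ι F)} (hH : IsMaximalIn (specialLinear ι F) H)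
    {t : ℕ} {D : Fin t → Submodule F (ι → F)} (hD : IsMDecomposition 1 D) (h : H ≤ decompositionStabilizer D) :
    5 ≤ Fintype.card F ∨ (∃ W : Submodule F (ι → F), W ≠ ⊥ ∧ W ≠ ⊤ ∧ H = subspaceStabilizer W ⊓ specialLinear ι F) ∨
    (Odd (Fintype.card F) ∧ ∃ Q : (ι → F) → F, IsNondegenerateQuadraticForm Q ∧ H = quadSimilarityGroup Q ⊓ specialLinear ι F) ∨
    (∃ (σ : F ≃+* F) (f : (ι → F) → (ι → F) → F), IsUnitaryForm σ f ∧ H = similarityGroup f ⊓ specialLinear ι F) := by
  classical
  have hne : Nonempty ι := Fintype.card_pos_iff.1 (by omega)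
  obtain ⟨b, -, hb⟩ := exists_basis_of_lines hD
  by_cases h5 : 5 ≤ Fintype.card F
  · exact Or.inl h5
  have h2 : 2 ≤ Fintype.card F := Fintype.one_lt_card
  have hpow : ∀ a : F, a ≠ 0 → a ^ (Fintype.card F - 1) = 1 := fun a ha => FiniteField.pow_card_sub_one_eq_one a ha
  have hF : ∀ a : F, a ^ Fintype.card F = a := fun a => FiniteField.pow_card a
  right
  obtain hq | hq | hq : Fintype.card F = 2 ∨ Fintype.card F = 3 ∨ Fintype.card F = 4 := by omega
  · -- q = 2
    left
    rw [hq] at hpow
    have hsum : (∑ i, b i) ≠ 0 := by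
      intro h0
      have h1 := Fintype.linearIndependent_iff.1 b.linearIndependent (fun _ => 1) (by simpa using h0)
      have ht : 0 < t := by have := hD.two_le; omega
      exact one_ne_zero (h1 ⟨0, ht⟩)
    have hW1 : (F ∙ (∑ i, b i)) ≠ ⊥ := by
      rw [Ne, Submodule.span_singleton_eq_bot]; exact hsum
    have hW2 : (F ∙ (∑ i, b i)) ≠ ⊤ := by
      intro h0
      have h1 := finrank_span_singleton (K := F) hsum
      rw [h0, finrank_top, Module.finrank_fintype_fun_eq_card] at h1
      omega
    refine ⟨_, hW1, hW2, eq_inf_of_maximal hH ?_ (not_le_subspace hW1 hW2)⟩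
    apply le_subspaceStabilizer
    rintro _ ⟨g, hg, rfl⟩ _ ⟨v, hv, rfl⟩
    obtain ⟨a, rfl⟩ := Submodule.mem_span_singleton.1 hv
    obtain ⟨σ, c, hc0, hc⟩ := hb g (h hg)
    show Matrix.toLin' (g : Matrix ι ι F) _ ∈ _
    rw [Matrix.toLin'_apply, Matrix.mulVec_smul, Matrix.mulVec_sum]
    have h1 : ∑ i, (g : Matrix ι ι F) *ᵥ b i = ∑ i, b i := by
      rw [← Equiv.sum_comp σ (fun i => b i)]
      refine Finset.sum_congr rfl fun i _ => ?_
      have h2 : c i ^ 1 = 1 := hpow (c i) (hc0 i)
      rw [pow_one] at h2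
      rw [hc, h2, one_smul]
    rw [h1]
    exact Submodule.smul_mem _ _ (Submodule.mem_span_singleton_self _)
  · -- q = 3
    right; left
    rw [hq] at hpow hF
    have h2 : (2 : F) ≠ 0 := by
      intro h0
      have h3 : (3 : F) = 0 := by
        have := FiniteField.cast_card_eq_zero F
        rw [hq] at this
        exact_mod_cast this
      have : (1 : F) = 0 := by linear_combination h3 - h0
      exact one_ne_zero this
    refine ⟨by rw [hq]; decide, ?_⟩
    set f := onForm (RingHom.id F) b with hf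
    have hs := onForm_isSesq (RingHom.id F) b
    have hB : IsBilinearForm f := ⟨hs.add_left, hs.smul_left, hs.add_right, hs.smul_right⟩
    have hsymm : ∀ u v, f u v = f v u := by
      intro u v
      simp only [hf, onForm, RingHom.id_apply]
      exact Finset.sum_congr rfl fun i _ => mul_comm _ _
    have hpol : QuadraticMap.polar (fun v => (2 : F)⁻¹ * f v v) = f := by
      funext u v
      simp only [QuadraticMap.polar]
      rw [hB.add_left, hB.add_right, hB.add_right, hsymm v u]
      field_simp
      ring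
    have hQ : IsNondegenerateQuadraticForm (fun v => (2 : F)⁻¹ * f v v) := by
      refine ⟨?_, by rw [hpol]; exact hB, by rw [hpol]; exact onForm_nondeg _ b⟩
      intro c v
      rw [hB.smul_left, hB.smul_right]; ring
    refine ⟨_, hQ, quad_eq hι hH hQ ?_⟩
    intro g hg
    obtain ⟨σ, c, hc0, hc⟩ := hb g (h hg)
    refine ⟨1, fun v => ?_⟩
    show (2 : F)⁻¹ * f ((g : Matrix ι ι F) *ᵥ v) ((g : Matrix ι ι F) *ᵥ v) = _
    rw [hf, onForm_mulVec (RingHom.id F) b hc]
    · simp
    · intro i
      have h3 : c i ^ 2 = 1 := hpow (c i) (hc0 i)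
      show c i * c i = 1
      rw [← h3]; ring
  · -- q = 4
    right; right
    rw [hq] at hpow hF
    have h2 : (2 : F) = 0 := by
      have h4 : (4 : F) = 0 := by
        have := FiniteField.cast_card_eq_zero F
        rw [hq] at this
        exact_mod_cast this
      have : (2 : F) * 2 = 0 := by linear_combination h4
      rcases mul_eq_zero.1 this with h | h <;> exact h
    let σ : F ≃+* F :=
      { toFun := fun x => x ^ 2
        invFun := fun x => x ^ 2
        left_inv := fun x => by
          show (x ^ 2) ^ 2 = x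
          rw [← pow_mul]; exact hF x
        right_inv := fun x => by
          show (x ^ 2) ^ 2 = x
          rw [← pow_mul]; exact hF x
        map_mul' := fun x y => mul_pow x y 2
        map_add' := fun x y => by
          show (x + y) ^ 2 = x ^ 2 + y ^ 2
          linear_combination (x * y) * h2 }
    have hσ : ∀ x, σ x = x ^ 2 := fun x => rfl
    have hσ1 : σ ≠ RingEquiv.refl F := by
      intro h0
      have h1 : ∀ x : F, x ^ 2 = x := fun x => by
        rw [← hσ, h0]; rfl
      have h3 : Fintype.card F ≤ 2 := by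
        have h4 : ∀ x : F, x = 0 ∨ x = 1 := by
          intro x
          have : x * (x - 1) = 0 := by linear_combination h1 x
          rcases mul_eq_zero.1 this with h | h
          · exact Or.inl h
          · exact Or.inr (sub_eq_zero.1 h)
        have h5 : (Finset.univ : Finset F) ⊆ {0, 1} := by
          intro x _
          rcases h4 x with h | h <;> simp [h]
        have h6 := Finset.card_le_card h5
        rw [Finset.card_univ] at h6
        exact h6.trans (Finset.card_insert_le _ _)
      omega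
    have hs := onForm_isSesq (σ : F →+* F) b
    have hf : IsUnitaryForm σ (onForm (σ : F →+* F) b) := by
      refine ⟨hσ1, fun a => ?_, hs.add_left, hs.smul_left, ?_, onForm_nondeg _ b⟩
      · rw [hσ, hσ, ← pow_mul]; exact hF a
      · intro v w
        simp only [onForm, map_sum, map_mul, RingEquiv.coe_toRingHom]
        refine Finset.sum_congr rfl fun i _ => ?_
        rw [hσ (σ _), hσ ((b.repr v) i), ← pow_mul, hF, mul_comm]
    refine ⟨σ, _, hf, unitary_eq hι hH hf ?_⟩
    intro g hg
    obtain ⟨π, c, hc0, hc⟩ := hb g (h hg)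
    refine ⟨1, fun u v => ?_⟩
    rw [onForm_mulVec (σ : F →+* F) b hc]
    · simp
    · intro i
      have h3 : c i ^ 3 = 1 := hpow (c i) (hc0 i)
      show c i * (c i) ^ 2 = 1
      rw [← h3]; ring

end Cfsg.Agent.Lib.AschLinMax
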