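import Cfsg.Agent.Lib.AschGood

/-!
Aschbacher's theorem: the case of a non-abelian minimal normal subgroup modulo scalars.
-/

set_option autoImplicit false
set_option linter.unusedSectionVars false

namespace Cfsg.Agent.Lib.AschNonab

open Cfsg Cfsg.Geo Cfsg.Agent.Lib.AschMU Cfsg.Agent.Lib.AschCore Cfsg.Agent.Lib.AschField Cfsg.Agent.Lib.AschAlg
  Cfsg.Agent.Lib.AschDescent Cfsg.Agent.Lib.AschForm Cfsg.Agent.Lib.AschGroup Cfsg.Agent.Lib.AschGood
open scoped Matrix MatrixGroups Kronecker commutatorElement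

variable {ι : Type} [Fintype ι] [DecidableEq ι] {F : Type*} [Field F]

/-- The residual core conditions without the subfield condition. -/
structure PreCore (H P : Subgroup (GL ι F)) : Prop where
  le : P ≤ H
  normal : NormBy H P
  perfect : ⁅P, P⁆ = P
  simple : IsSimpleGroup (P ⧸ (scalars ι F).subgroupOf P)
  nonabelian : ¬ IsMulCommutative (P ⧸ (scalars ι F).subgroupOf P)
  centralizer_scalar : ∀ h ∈ H, (∀ x ∈ P, h * x * h⁻¹ * x⁻¹ ∈ scalars ι F) → h ∈ scalars ι F
  absIrred : ActsAbsolutelyIrreducibly (matrixSet P)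

theorem PreCore.isResidualCore {H P : Subgroup (GL ι F)} (h : PreCore H P)
    (hs : ∀ F₀ : Subfield F, F₀ ≠ ⊤ → ¬ RealisableOver F₀ (matrixSet P)) : IsResidualCore H P :=
  ⟨h.le, h.normal, h.perfect, h.simple, h.nonabelian, h.centralizer_scalar, h.absIrred, hs⟩

/-- Several commuting perfect groups permuted transitively. -/
structure CompData (H : Subgroup (GL ι F)) {t : ℕ} (P : Fin t → Subgroup (GL ι F)) : Prop where
  two_le : 2 ≤ t
  perm : ∀ g ∈ H, ∃ π : Equiv.Perm (Fin t), ∀ i, cjG g (P i) = P (π i)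
  trans : ∀ i j, ∃ g ∈ H, cjG g (P i) = P j
  perfect : ∀ i, ⁅P i, P i⁆ = P i
  nonscalar : ∀ i, ¬ P i ≤ scalars ι F
  comm : ∀ i j, i ≠ j → ∀ x ∈ P i, ∀ y ∈ P j, x * y = y * x
  absIrred : ActsAbsolutelyIrreducibly (matrixSet (⨆ i, P i))
  le : ∀ i, P i ≤ H

theorem scalar_of_commute_gl {P : Subgroup (GL ι F)} (hP : ActsAbsolutelyIrreducibly (matrixSet P)) {h : GL ι F}
    (hc : ∀ x ∈ P, h * x = x * h) : h ∈ scalars ι F := by
  rcases isEmpty_or_nonempty ι with hι | hι
  · rw [mem_scalars_iff]; exact ⟨1, by ext i; exact (hι.false i).elim⟩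
  obtain ⟨c, hc'⟩ := hP.2 (h : Matrix ι ι F) (by
    rintro _ ⟨x, hx, rfl⟩
    show (h : Matrix ι ι F) * (x : Matrix ι ι F) = (x : Matrix ι ι F) * (h : Matrix ι ι F)
    rw [← Units.val_mul, hc x hx, Units.val_mul])
  rw [mem_scalars_iff]
  have hc0 : c ≠ 0 := by
    rintro rfl
    rw [zero_smul] at hc'
    have := h.isUnit
    rw [hc'] at this
    exact not_isUnit_zero this
  exact ⟨Units.mk0 c hc0, hc'⟩

theorem absIrr_sup_scalars [Nonempty ι] {X : Subgroup (GL ι F)}
    (h : ActsAbsolutelyIrreducibly (matrixSet (X ⊔ scalars ι F))) : ActsAbsolutelyIrreducibly (matrixSet X) := by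
  have hmem : ∀ y ∈ X ⊔ scalars ι F, ∃ x ∈ X, ∃ c : Fˣ, (y : Matrix ι ι F) = (c : F) • (x : Matrix ι ι F) := by
    intro y hy
    rw [← SetLike.mem_coe, Subgroup.mul_normal] at hy
    obtain ⟨x, hx, z, hz, rfl⟩ := hy
    obtain ⟨c, hc⟩ := (mem_scalars_iff z).1 hz
    exact ⟨x, hx, c, by show (x : Matrix ι ι F) * (z : Matrix ι ι F) = _; rw [hc, Matrix.mul_smul, mul_one]⟩
  constructor
  · intro W hW
    apply h.1 W
    rintro _ ⟨y, hy, rfl⟩
    obtain ⟨x, hx, c, hxc⟩ := hmem y hy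
    rintro _ ⟨w, hw, rfl⟩
    show Matrix.toLin' (y : Matrix ι ι F) w ∈ W
    rw [hxc, Matrix.toLin'_apply, Matrix.smul_mulVec]
    exact W.smul_mem _ (hW _ ⟨x, hx, rfl⟩ ⟨w, hw, by rw [Matrix.toLin'_apply]⟩)
  · intro M hM
    apply h.2 M
    rintro _ ⟨y, hy, rfl⟩
    obtain ⟨x, hx, c, hxc⟩ := hmem y hy
    show M * (y : Matrix ι ι F) = (y : Matrix ι ι F) * M
    rw [hxc, Matrix.mul_smul, Matrix.smul_mul, hM _ ⟨x, hx, rfl⟩]

/-- **The non-abelian case.** -/
theorem nonab_cases [Finite F] [Nonempty ι] {H N : Subgroup (GL ι F)} (hH : Good H)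
    (hNH : N ≤ H ⊔ scalars ι F) (hN : IsMinOver (scalars ι F) H N) (hnab : ¬ ⁅N, N⁆ ≤ scalars ι F) :
    (∃ P, PreCore H P) ∨ (∃ (t : ℕ) (P : Fin t → Subgroup (GL ι F)), CompData H P) := by
  classical
  have hfinM : Finite (Matrix ι ι F) := inferInstanceAs (Finite (ι → ι → F))
  have hfinGL : Finite (GL ι F) := inferInstance
  have hZ : scalars ι F ≤ Subgroup.center (GL ι F) := scalars_le_center
  obtain ⟨M, hMN, hM, hsup, hMnab, hcomm⟩ := exists_component hZ hN hnab
  obtain ⟨hP1, hP2, hP3⟩ := hM.perfect hZ hMnab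
  have hNle : ⁅N, N⁆ ≤ H := by
    have h1 : ⁅N, N⁆ ≤ ⁅H ⊔ scalars ι F, H ⊔ scalars ι F⁆ := Subgroup.commutator_mono hNH hNH
    rw [commutator_sup_central hZ] at h1
    exact h1.trans (Subgroup.commutator_le_self H)
  have hNai : ActsAbsolutelyIrreducibly (matrixSet N) := hH.absIrr hN.norm (fun h => hN.ne (le_antisymm h hN.le))
  by_cases hsingle : ∀ g ∈ H, cjG g M = M
  · -- one component
    left
    have hNM : M = N := by
      rw [← hsup]
      apply le_antisymm
      · have := le_iSup (fun g : H => cjG (g : GL ι F) M) 1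
        rwa [Subgroup.coe_one, cjG_one] at this
      · exact iSup_le fun g => (hsingle g g.2).le
    subst hNM
    obtain ⟨hL1, hL2, hL3⟩ := perfect_of_min hZ hN hnab
    have hLZ : ¬ ⁅M, M⁆ ≤ scalars ι F := hnab
    have hLai : ActsAbsolutelyIrreducibly (matrixSet ⁅M, M⁆) := hH.absIrr hL1 hLZ
    refine ⟨⁅M, M⁆, hNle, hL1, hL3, isSimpleGroup_of_min hZ hM hL2,
      not_isMulCommutative_quot hLZ hL3, fun h _ hc => ?_, hLai⟩
    exact scalar_of_commute_gl hLai (commute_of_perfect hZ hL3 hc)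
  · right
    push Not at hsingle
    obtain ⟨g₀, hg₀, hg₀M⟩ := hsingle
    let S : Set (Subgroup (GL ι F)) := Set.range (fun g : H => cjG (g : GL ι F) M)
    have hSfin : Fintype S := Fintype.ofFinite S
    let eqv := Fintype.equivFin S
    set t := Fintype.card S with ht
    have hMS : M ∈ S := ⟨1, by show cjG ((1 : H) : GL ι F) M = M; rw [Subgroup.coe_one, cjG_one]⟩
    have hS2 : 2 ≤ t := by
      by_contra hlt
      have h1 : Fintype.card S ≤ 1 := by omega
      have h2 := Fintype.card_le_one_iff.1 h1 ⟨M, hMS⟩ ⟨cjG g₀ M, ⟨g₀, hg₀⟩, rfl⟩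
      exact hg₀M (congrArg Subtype.val h2).symm
    let MM : Fin t → Subgroup (GL ι F) := fun i => ((eqv.symm i : S) : Subgroup (GL ι F))
    have hMM : ∀ i, ∃ g ∈ H, MM i = cjG g M := by
      intro i
      obtain ⟨g, hg⟩ := (eqv.symm i).2
      exact ⟨g, g.2, hg.symm⟩
    have hMMinj : Function.Injective MM := fun i j h => eqv.symm.injective (Subtype.ext h)
    have hMMsurj : ∀ g ∈ H, ∃ i, MM i = cjG g M := fun g hg => ⟨eqv ⟨cjG g M, ⟨g, hg⟩, rfl⟩, by simp [MM]⟩
    have hcjcomm : ∀ (g : GL ι F) (K : Subgroup (GL ι F)), cjG g ⁅K, K⁆ = ⁅cjG g K, cjG g K⁆ := by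
      intro g K; rw [cjG, cjG, Subgroup.map_commutator]
    let P : Fin t → Subgroup (GL ι F) := fun i => ⁅MM i, MM i⁆
    have hperf : ∀ i, ⁅P i, P i⁆ = P i := by
      intro i
      obtain ⟨g, hg, hgi⟩ := hMM i
      show ⁅⁅MM i, MM i⁆, ⁅MM i, MM i⁆⁆ = ⁅MM i, MM i⁆
      rw [hgi, ← hcjcomm, ← hcjcomm, hP3]
    have hPM : ∀ i, P i ⊔ scalars ι F = MM i := by
      intro i
      obtain ⟨g, hg, hgi⟩ := hMM i
      show ⁅MM i, MM i⁆ ⊔ scalars ι F = MM i
      rw [hgi, ← hcjcomm]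
      conv_rhs => rw [← hP2]
      rw [cjG, cjG, Subgroup.map_sup]
      congr 1
      exact (cjG_central (g := g) hZ).symm
    have hPle : ∀ i, P i ≤ MM i := fun i => by rw [← hPM i]; exact le_sup_left
    have hMMN : ∀ i, MM i ≤ N := by
      intro i
      obtain ⟨g, hg, hgi⟩ := hMM i
      rw [hgi, ← hsup]
      exact le_iSup (fun g : H => cjG (g : GL ι F) M) ⟨g, hg⟩
    have hPns : ∀ i, ¬ P i ≤ scalars ι F := by
      intro i h
      obtain ⟨g, hg, hgi⟩ := hMM i
      have h1 := hPM i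
      rw [sup_eq_right.2 h, hgi] at h1
      apply hM.ne
      apply cjG_injective g
      rw [← h1, cjG_central hZ]
    refine ⟨t, P, hS2, ?_, ?_, hperf, hPns, ?_, ?_, ?_⟩
    · -- permutation
      intro g hg
      let ρ : S → S := fun K => ⟨cjG g K, by
        obtain ⟨k, hk⟩ := K.2
        refine ⟨⟨g, hg⟩ * k, ?_⟩
        show cjG (((⟨g, hg⟩ * k : H)) : GL ι F) M = cjG g (K : Subgroup (GL ι F))
        rw [← hk]
        show cjG (g * (k : GL ι F)) M = _
        rw [cjG_mul]⟩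
      have hρ : Function.Injective ρ := by
        intro K K' h
        exact Subtype.ext (cjG_injective g (congrArg Subtype.val h))
      let ρ' : Equiv.Perm S := Equiv.ofBijective ρ (Finite.injective_iff_bijective.1 hρ)
      refine ⟨(eqv.symm.trans ρ').trans eqv, fun i => ?_⟩
      have h1 : cjG g (MM i) = MM (((eqv.symm.trans ρ').trans eqv) i) := by
        simp only [MM, Equiv.trans_apply, Equiv.symm_apply_apply]
        rfl
      show cjG g ⁅MM i, MM i⁆ = ⁅MM _, MM _⁆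
      rw [hcjcomm, h1]
    · intro i j
      obtain ⟨g, hg, hgi⟩ := hMM i
      obtain ⟨g', hg', hgj⟩ := hMM j
      refine ⟨g' * g⁻¹, H.mul_mem hg' (H.inv_mem hg), ?_⟩
      show cjG (g' * g⁻¹) ⁅MM i, MM i⁆ = ⁅MM j, MM j⁆
      rw [hcjcomm, hgi, hgj, ← cjG_mul]
      have : g' * g⁻¹ * g = g' := by group
      rw [this]
    · intro i j hij x hx y hy
      obtain ⟨g, hg, hgi⟩ := hMM i
      obtain ⟨g', hg', hgj⟩ := hMM j
      have hne : cjG g M ≠ cjG g' M := by
        rw [← hgi, ← hgj]; exact fun h => hij (hMMinj h)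
      have h1 : ⁅MM i, MM j⁆ ≤ scalars ι F := by rw [hgi, hgj]; exact hcomm g hg g' hg' hne
      refine commute_of_perfect hZ (hperf j) (m := x) ?_ y hy
      intro z hz
      have h2 := h1 (Subgroup.commutator_mem_commutator (hPle i hx) (hPle j hz))
      exact h2
    · apply absIrr_sup_scalars
      have h1 : (⨆ i, P i) ⊔ scalars ι F = N := by
        apply le_antisymm
        · exact sup_le (iSup_le fun i => (hPle i).trans (hMMN i)) hN.le
        · rw [← hsup]
          refine iSup_le fun g => ?_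
          obtain ⟨i, hi⟩ := hMMsurj g g.2
          rw [← hi, ← hPM i]
          exact sup_le_sup_right (le_iSup P i) _
      rw [h1]; exact hNai
    · intro i
      exact (Subgroup.commutator_mono (hMMN i) (hMMN i)).trans hNle

end Cfsg.Agent.Lib.AschNonab
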