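import Cfsg.Agent.Lib.AschSp9
import Cfsg.Agent.Lib.QuadBridge

/-!
Aschbacher's theorem for the orthogonal groups: the list of cases; reducible groups, idempotents.
-/

set_option autoImplicit false
set_option linter.style.haveILetI false
set_option linter.unusedVariables false
set_option linter.unusedSectionVars false

namespace Cfsg.Agent.Lib.AschO

open Cfsg Cfsg.Geo Cfsg.Agent.Lib.AschMU Cfsg.Agent.Lib.AschCore Cfsg.Agent.Lib.AschField Cfsg.Agent.Lib.AschAlg
  Cfsg.Agent.Lib.AschGroup Cfsg.Agent.Lib.AschGood Cfsg.Agent.Lib.AschAdj Cfsg.Agent.Lib.AschSp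
open scoped Matrix MatrixGroups Kronecker

/-- The refined list of cases for a subgroup `H` of the isometry group of a quadratic form `Q`. -/
inductive OCase {ι : Type} [Fintype ι] [DecidableEq ι] {F : Type*} [Field F] [Fintype F] (Q : (ι → F) → F)
    (H : Subgroup (GL ι F)) : Prop
  | ts (W : Submodule F (ι → F)) (h0 : W ≠ ⊥) (hs : IsTotallySingularQuad Q W) (hle : H ≤ subspaceStabilizer W)
  | nd (W : Submodule F (ι → F)) (h0 : W ≠ ⊥) (h1 : W ≠ ⊤) (hs : IsNondegenerateOn (QuadraticMap.polar Q) W)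
      (hle : H ≤ subspaceStabilizer W)
  | ns (v : ι → F) (h2 : (2 : F) = 0) (hv : Q v ≠ 0) (hle : H ≤ subspaceStabilizer (Submodule.span F {v}))
  | dec (t k : ℕ) (D : Fin t → Submodule F (ι → F)) (ht : 2 ≤ t) (htk : t * k = Fintype.card ι)
      (hD : IsOrthogonalMDecomposition Q k D) (hle : H ≤ decompositionStabilizer D)
  | sing (k : ℕ) (D : Fin 2 → Submodule F (ι → F)) (htk : 2 * k = Fintype.card ι) (hD : IsMDecomposition k D)
      (hs : ∀ i, IsTotallySingularQuad Q (D i)) (hle : H ≤ decompositionStabilizer D)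
  | sa (r : ℕ) (K : Subalgebra F (Matrix ι ι F)) (hr : r.Prime) (hrn : r ∣ Fintype.card ι) (hne : r = 2 ∨ r ≠ Fintype.card ι)
      (hK : IsFieldSubalgebra r K) (hsa : IsSelfAdjointFor (QuadraticMap.polar Q) K) (hle : H ≤ subalgebraNormalizer K)
  | her (K : Subalgebra F (Matrix ι ι F)) (hrn : 2 ∣ Fintype.card ι) (hK : IsFieldSubalgebra 2 K)
      (hac : IsAdjointClosedFor (QuadraticMap.polar Q) K) (hns : ¬ IsSelfAdjointFor (QuadraticMap.polar Q) K)
      (hsim : ∀ k ∈ K, ∃ c : F, ∀ v : ι → F, Q (k *ᵥ v) = c * Q v) (hle : H ≤ subalgebraNormalizer K)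
  | tsym (d e : ℕ) (ρ : ι ≃ Fin d × Fin e) (P : GL ι F) (f₁ : (Fin d → F) → (Fin d → F) → F) (f₂ : (Fin e → F) → (Fin e → F) → F)
      (hodd : Odd (Fintype.card F)) (hd : 3 ≤ d) (hde : d ≤ e) (hf₁ : IsSymmetricForm f₁) (hf₂ : IsSymmetricForm f₂)
      (hst : IsTensorFormStructure id (QuadraticMap.polar Q) f₁ f₂ ρ P) (hle : H ≤ tensorProductSubgroup d e ρ P)
  | talt (d e : ℕ) (ρ : ι ≃ Fin d × Fin e) (P : GL ι F) (f₁ : (Fin d → F) → (Fin d → F) → F) (f₂ : (Fin e → F) → (Fin e → F) → F)
      (hd : 2 ≤ d) (hde : d ≤ e) (hf₁ : IsSymplecticForm f₁) (hf₂ : IsSymplecticForm f₂)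
      (hst : IsTensorFormStructure id (QuadraticMap.polar Q) f₁ f₂ ρ P)
      (hpure : ∀ (x₁ : Fin d → F) (x₂ : Fin e → F), Q ((P : Matrix ι ι F) *ᵥ ((fun a : Fin d × Fin e => x₁ a.1 * x₂ a.2) ∘ ρ)) = 0)
      (hle : H ≤ tensorProductSubgroup d e ρ P)
  | rat (F₀ : Subfield F) (r : ℕ) (P : GL ι F) (ζ : F) (hr : r.Prime) (hc : Fintype.card F = Nat.card F₀ ^ r) (hζ : ζ ≠ 0)
      (hrs : IsQuadFormRationalStructure (fun v : ι → F => ζ * Q v) F₀ P) (hle : H ≤ subfieldSubgroup F₀ P)
  | symp (R : Subgroup (GL ι F)) (k : ℕ) (hodd : Odd (Fintype.card F)) (hR : R ≤ isometryGroup F Q)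
      (habs : ActsAbsolutelyIrreducibly (matrixSet R)) (hcomm : ∀ x ∈ R, ∀ y ∈ R, x * y * x⁻¹ * y⁻¹ ∈ scalars ι F)
      (hk : Fintype.card ι = 2 ^ k)
  | psym (k t : ℕ) (e : ι ≃ (Fin t → Fin k)) (P : GL ι F) (f₁ : (Fin k → F) → (Fin k → F) → F) (hodd : Odd (Fintype.card F))
      (hk : 3 ≤ k) (ht : 2 ≤ t) (hne : ¬ (Fintype.card F = 3 ∧ k = 3)) (hcard : Fintype.card ι = k ^ t) (hf₁ : IsSymmetricForm f₁)
      (hst : IsTensorPowerFormStructure id (QuadraticMap.polar Q) f₁ e P) (hle : H ≤ tensorWreathSubgroup k t e P)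
  | palt (k t : ℕ) (hk : 2 ≤ k) (ht : 2 ≤ t) (hcard : Fintype.card ι = k ^ t) (hev : Even k) (hplus : k = 2 → IsPlusTypeOn Q ⊤)
  | res (h : InOrthogonalResidualClass H)

section basic
variable {ι : Type} [Fintype ι] [DecidableEq ι] {F : Type*} [Field F] {Q : (ι → F) → F}

/-- The Gram matrix of the polar form. -/
def gm (Q : (ι → F) → F) : Matrix ι ι F := gramMatrix (QuadraticMap.polar Q)

lemma polar_eq (hQ : IsNondegenerateQuadraticForm Q) : QuadraticMap.polar Q = bf (RingEquiv.refl F) (gm Q) := by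
  classical
  funext u v
  have hsum : ∀ (s : Finset ι) (w : ι → ι → F), ∀ x, QuadraticMap.polar Q (∑ i ∈ s, w i) x = ∑ i ∈ s, QuadraticMap.polar Q (w i) x := by
    intro s w x
    induction s using Finset.induction_on with
    | empty =>
      rw [Finset.sum_empty, Finset.sum_empty]
      have := hQ.polar_bilinear.smul_left 0 0 x
      rwa [zero_smul, zero_mul] at this
    | insert a s ha ih => rw [Finset.sum_insert ha, Finset.sum_insert ha, hQ.polar_bilinear.add_left, ih]
  have hsum' : ∀ (s : Finset ι) (w : ι → ι → F), ∀ x, QuadraticMap.polar Q x (∑ i ∈ s, w i) = ∑ i ∈ s, QuadraticMap.polar Q x (w i) := by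
    intro s w x
    induction s using Finset.induction_on with
    | empty =>
      rw [Finset.sum_empty, Finset.sum_empty]
      have := hQ.polar_bilinear.smul_right 0 x 0
      rwa [zero_smul, zero_mul] at this
    | insert a s ha ih => rw [Finset.sum_insert ha, Finset.sum_insert ha, hQ.polar_bilinear.add_right, ih]
  have hu : u = ∑ i, u i • (Pi.single i 1 : ι → F) := by
    ext j; simp [Finset.sum_apply, Pi.single_apply]
  have hv : v = ∑ i, v i • (Pi.single i 1 : ι → F) := by
    ext j; simp [Finset.sum_apply, Pi.single_apply]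
  conv_lhs => rw [hu, hv, hsum]
  rw [bf_rf]
  simp only [dotProduct, Matrix.mulVec, Finset.mul_sum, gm, gramMatrix]
  refine Finset.sum_congr rfl fun i _ => ?_
  rw [hsum']
  refine Finset.sum_congr rfl fun j _ => ?_
  rw [hQ.polar_bilinear.smul_left, hQ.polar_bilinear.smul_right]; ring

lemma rfQ (hQ : IsNondegenerateQuadraticForm Q) : RF (RingEquiv.refl F) (1 : F) (gm Q) where
  inv a := rfl
  unit := by
    rw [Matrix.isUnit_iff_isUnit_det, isUnit_iff_ne_zero]
    intro h0
    obtain ⟨v, hv, hv0⟩ := Matrix.exists_mulVec_eq_zero_iff.2 h0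
    obtain ⟨⟨x, hx⟩, -⟩ := hQ.nondegenerate v hv
    apply hx
    rw [polar_eq hQ, bf_rf, hv0, dotProduct_zero]
  refl := by
    rw [map_rf, one_smul]
    ext i j
    simp only [Matrix.transpose_apply, gm, gramMatrix]
    exact QuadraticMap.polar_comm Q _ _
  eps := Or.inl rfl

lemma Q_add (Q : (ι → F) → F) (u v : ι → F) : Q (u + v) = Q u + Q v + QuadraticMap.polar Q u v := by
  unfold QuadraticMap.polar; ring

lemma Q_smul (hQ : IsNondegenerateQuadraticForm Q) (c : F) (v : ι → F) : Q (c • v) = c ^ 2 * Q v := hQ.smul c v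

lemma Q_zero (hQ : IsNondegenerateQuadraticForm Q) : Q 0 = 0 := by
  have := hQ.smul 0 0
  rwa [zero_smul, zero_pow two_ne_zero, zero_mul] at this

lemma Q_self (hQ : IsNondegenerateQuadraticForm Q) (v : ι → F) : QuadraticMap.polar Q v v = 2 * Q v := by
  unfold QuadraticMap.polar
  have : Q (v + v) = 4 * Q v := by
    rw [← two_smul F v, hQ.smul]; ring
  rw [this]; ring

lemma Q_neg (hQ : IsNondegenerateQuadraticForm Q) (v : ι → F) : Q (-v) = Q v := by
  rw [← neg_one_smul F v, hQ.smul]; ring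

lemma Q_sum_eq (hQ : IsNondegenerateQuadraticForm Q) {κ : Type*} [DecidableEq κ] (s : Finset κ) (w : κ → ι → F)
    (h0 : ∀ i ∈ s, Q (w i) = 0) (h1 : ∀ i ∈ s, ∀ j ∈ s, i ≠ j → QuadraticMap.polar Q (w i) (w j) = 0) : Q (∑ i ∈ s, w i) = 0 := by
  induction s using Finset.induction_on with
  | empty => rw [Finset.sum_empty, Q_zero hQ]
  | insert a s ha ih =>
    rw [Finset.sum_insert ha, Q_add Q, h0 a (Finset.mem_insert_self a s),
      ih (fun i hi => h0 i (Finset.mem_insert_of_mem hi)) (fun i hi j hj => h1 i (Finset.mem_insert_of_mem hi) j (Finset.mem_insert_of_mem hj))]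
    have : ∀ s' : Finset κ, s' ⊆ s → QuadraticMap.polar Q (w a) (∑ i ∈ s', w i) = 0 := by
      intro s' hs'
      induction s' using Finset.induction_on with
      | empty =>
        rw [Finset.sum_empty]
        have := hQ.polar_bilinear.smul_right 0 (w a) 0
        rwa [zero_smul, zero_mul] at this
      | insert b s' hb ih' =>
        rw [Finset.sum_insert hb, hQ.polar_bilinear.add_right, ih' ((Finset.subset_insert b s').trans hs'), add_zero]
        have hbs : b ∈ s := hs' (Finset.mem_insert_self b s')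
        exact h1 a (Finset.mem_insert_self a s) b (Finset.mem_insert_of_mem hbs) (fun h => ha (h ▸ hbs))
    rw [this s subset_rfl]; ring

lemma isQ {g : GL ι F} (hg : g ∈ isometryGroup F Q) (v : ι → F) : Q ((g : Matrix ι ι F) *ᵥ v) = Q v :=
  Cfsg.Agent.Lib.Quad.mem_isometryGroup.1 hg v

lemma isoQ (hQ : IsNondegenerateQuadraticForm Q) {g : GL ι F} (hg : g ∈ isometryGroup F Q) : IsIso (RingEquiv.refl F) (gm Q) g := by
  rw [isIso_iff (rfQ hQ)]
  intro u v
  rw [← polar_eq hQ]
  unfold QuadraticMap.polar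
  rw [← Matrix.mulVec_add, isQ hg, isQ hg, isQ hg]

/-- In odd characteristic isometries of the polar form are isometries. -/
lemma mem_of_iso (hQ : IsNondegenerateQuadraticForm Q) (h2 : (2 : F) ≠ 0) {g : GL ι F} (hg : IsIso (RingEquiv.refl F) (gm Q) g) :
    g ∈ isometryGroup F Q := by
  rw [Cfsg.Agent.Lib.Quad.mem_isometryGroup]
  intro v
  have h1 := (isIso_iff (rfQ hQ) g).1 hg v v
  rw [← polar_eq hQ, Q_self hQ, Q_self hQ] at h1
  exact mul_left_cancel₀ h2 h1

/-- The difference of two quadratic forms with the same polar form, in characteristic two: kernel subspace. -/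
def diffKer (Q Q' : (ι → F) → F) (hs : ∀ (c : F) v, Q (c • v) = c ^ 2 * Q v) (hs' : ∀ (c : F) v, Q' (c • v) = c ^ 2 * Q' v)
    (hp : ∀ u v, QuadraticMap.polar Q u v = QuadraticMap.polar Q' u v) : Submodule F (ι → F) where
  carrier := {v | Q v = Q' v}
  zero_mem' := by
    have h1 := hs 0 0; have h2 := hs' 0 0
    rw [zero_smul, zero_pow two_ne_zero, zero_mul] at h1 h2
    show Q 0 = Q' 0
    rw [h1, h2]
  add_mem' {u v} hu hv := by
    show Q (u + v) = Q' (u + v)
    have h1 : Q u = Q' u := hu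
    have h2 : Q v = Q' v := hv
    rw [Q_add Q, Q_add Q', h1, h2, hp]
  smul_mem' c v hv := by
    show Q (c • v) = Q' (c • v)
    have h1 : Q v = Q' v := hv
    rw [hs, hs', h1]

/-- Two invariant quadratic forms with the same polar form agree. -/
lemma quad_uniq [Finite F] [Nonempty ι] {Q Q' : (ι → F) → F} (hs : ∀ (c : F) v, Q (c • v) = c ^ 2 * Q v) (hs' : ∀ (c : F) v, Q' (c • v) = c ^ 2 * Q' v)
    (hp : ∀ u v, QuadraticMap.polar Q u v = QuadraticMap.polar Q' u v) {L : Subgroup (GL ι F)} (hL : ActsIrreducibly (matrixSet L))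
    (hn : 2 ≤ Fintype.card ι)
    (hI : ∀ g ∈ L, ∀ v, Q ((g : Matrix ι ι F) *ᵥ v) = Q v) (hI' : ∀ g ∈ L, ∀ v, Q' ((g : Matrix ι ι F) *ᵥ v) = Q' v) : Q = Q' := by
  classical
  haveI := Fintype.ofFinite F
  by_cases h2 : (2 : F) = 0
  · have hker : diffKer Q Q' hs hs' hp = ⊤ := by
      rcases hL (diffKer Q Q' hs hs' hp) (by
        rintro _ ⟨g, hg, rfl⟩
        rintro _ ⟨v, hv, rfl⟩
        show Q _ = Q' _
        rw [Matrix.toLin'_apply]
        have h1 : Q v = Q' v := hv
        rw [hI g hg, hI' g hg, h1]) with h | h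
      · exfalso
        -- two independent vectors
        obtain ⟨i, j, hij⟩ := Fintype.exists_pair_of_one_lt_card (show 1 < Fintype.card ι by omega)
        let D : (ι → F) → F := fun v => Q v - Q' v
        have hD : ∀ u v, D (u + v) = D u + D v := by
          intro u v
          show Q (u + v) - Q' (u + v) = _
          rw [Q_add Q, Q_add Q', hp]; ring
        have hDs : ∀ (c : F) v, D (c • v) = c ^ 2 * D v := by
          intro c v
          show Q (c • v) - Q' (c • v) = _
          rw [hs, hs']; ring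
        obtain ⟨a, ha⟩ := exists_sqrt h2 (D (Pi.single i 1))
        obtain ⟨b, hb⟩ := exists_sqrt h2 (D (Pi.single j 1))
        have hm : b • (Pi.single i 1 : ι → F) + a • (Pi.single j 1 : ι → F) ∈ diffKer Q Q' hs hs' hp := by
          show Q _ = Q' _
          rw [← sub_eq_zero]
          show D _ = 0
          rw [hD, hDs, hDs, ← ha, ← hb]
          linear_combination b ^ 2 * (a * a) * h2
        rw [h, Submodule.mem_bot] at hm
        have e1 := congrFun hm i
        have e2 := congrFun hm j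
        simp only [Pi.add_apply, Pi.smul_apply, Pi.single_apply, smul_eq_mul, if_pos, if_neg hij, if_neg (Ne.symm hij), mul_one, mul_zero,
          add_zero, zero_add, Pi.zero_apply] at e1 e2
        have h3 : (Pi.single i 1 : ι → F) ∈ diffKer Q Q' hs hs' hp := by
          show Q _ = Q' _
          rw [← sub_eq_zero]
          show D _ = 0
          rw [← ha, e2, zero_mul]
        rw [h, Submodule.mem_bot] at h3
        have := congrFun h3 i
        simp at this
      · exact h
    funext v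
    have : v ∈ diffKer Q Q' hs hs' hp := by rw [hker]; exact Submodule.mem_top
    exact this
  · funext v
    have h1 : ∀ (R : (ι → F) → F) (hR : ∀ (c : F) v, R (c • v) = c ^ 2 * R v), QuadraticMap.polar R v v = 2 * R v := by
      intro R hR
      unfold QuadraticMap.polar
      have : R (v + v) = 4 * R v := by rw [← two_smul F v, hR]; ring
      rw [this]; ring
    have h3 := hp v v
    rw [h1 Q hs, h1 Q' hs'] at h3
    exact mul_left_cancel₀ h2 h3

end basic

section red
variable {ι : Type} [Fintype ι] [DecidableEq ι] {F : Type*} [Field F] [Fintype F] {Q : (ι → F) → F}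

/-- Totally isotropic invariant subspaces. -/
theorem ocase_ti (hQ : IsNondegenerateQuadraticForm Q) {H : Subgroup (GL ι F)} (hH : H ≤ isometryGroup F Q)
    {W : Submodule F (ι → F)} (hWb : W ≠ ⊥) (hs : ∀ u ∈ W, ∀ v ∈ W, QuadraticMap.polar Q u v = 0)
    (hinv : ∀ g ∈ H, ∀ w ∈ W, (g : Matrix ι ι F) *ᵥ w ∈ W) : OCase Q H := by
  classical
  by_cases h2 : (2 : F) = 0
  · -- the kernel of Q on W
    let W₀ : Submodule F (ι → F) :=
      { carrier := {w | w ∈ W ∧ Q w = 0}
        zero_mem' := ⟨W.zero_mem, Q_zero hQ⟩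
        add_mem' := by
          rintro u v ⟨hu, hu0⟩ ⟨hv, hv0⟩
          exact ⟨W.add_mem hu hv, by rw [Q_add Q, hu0, hv0, hs u hu v hv]; ring⟩
        smul_mem' := by
          rintro c u ⟨hu, hu0⟩
          exact ⟨W.smul_mem c hu, by rw [hQ.smul, hu0, mul_zero]⟩ }
    have hmem : ∀ w, w ∈ W₀ ↔ w ∈ W ∧ Q w = 0 := fun w => Iff.rfl
    by_cases h0 : W₀ = ⊥
    · obtain ⟨v, hv, hv0⟩ := (Submodule.ne_bot_iff W).1 hWb
      have hQv : Q v ≠ 0 := by
        intro h
        have : v ∈ W₀ := ⟨hv, h⟩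
        rw [h0] at this
        exact hv0 ((Submodule.mem_bot F).1 this)
      have hW : W = Submodule.span F {v} := by
        apply le_antisymm
        · intro w hw
          obtain ⟨c, hc⟩ := exists_sqrt h2 (Q w * (Q v)⁻¹)
          have : w + c • v ∈ W₀ := by
            refine ⟨W.add_mem hw (W.smul_mem c hv), ?_⟩
            rw [Q_add Q, hQ.smul, hs w hw _ (W.smul_mem c hv), pow_two, hc]
            field_simp
            linear_combination (Q w) * h2
          rw [h0, Submodule.mem_bot] at this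
          rw [Submodule.mem_span_singleton]
          refine ⟨-c, ?_⟩
          rw [neg_smul]
          exact (eq_neg_of_add_eq_zero_left this).symm
        · rw [Submodule.span_singleton_le_iff_mem]; exact hv
      refine OCase.ns v h2 hQv ?_
      rw [← hW]
      exact le_subspaceStabilizer hinv
    · refine OCase.ts W₀ h0 (fun w hw => hw.2) (le_subspaceStabilizer ?_)
      intro g hg w hw
      exact ⟨hinv g hg w hw.1, by rw [isQ (hH hg)]; exact hw.2⟩
  · refine OCase.ts W hWb ?_ (le_subspaceStabilizer hinv)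
    intro w hw
    have := hs w hw w hw
    rw [Q_self hQ] at this
    exact (mul_eq_zero.1 this).resolve_left h2

/-- Reducible subgroups. -/
theorem ocase_red (hQ : IsNondegenerateQuadraticForm Q) {H : Subgroup (GL ι F)} (hH : H ≤ isometryGroup F Q)
    (hred : ¬ ActsIrreducibly (matrixSet H)) : OCase Q H := by
  have hI : ∀ g ∈ H, IsIso (RingEquiv.refl F) (gm Q) g := fun g hg => isoQ hQ (hH hg)
  rcases red_cases (rfQ hQ) hI hred with ⟨W, hWb, hWt, hs, hinv⟩ | ⟨W, W', hWb, hWb', hc, horth, hn, hn', hinv, hinv'⟩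
  · rw [← polar_eq hQ] at hs
    exact ocase_ti hQ hH hWb hs hinv
  · rw [← polar_eq hQ] at hn
    refine OCase.nd W hWb ?_ hn (le_subspaceStabilizer hinv)
    rintro rfl
    apply hWb'
    have := hc.inf_eq_bot
    rwa [top_inf_eq] at this

/-- Adapted idempotent families. -/
theorem ocase_idem (hQ : IsNondegenerateQuadraticForm Q) {H : Subgroup (GL ι F)} (hH : H ≤ isometryGroup F Q)
    (hirr : ActsIrreducibly (matrixSet H)) {t : ℕ}
    {e : Fin t → Matrix ι ι F} (hf : FIdem (RingEquiv.refl F) (gm Q) H e) : OCase Q H := by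
  classical
  obtain ⟨hDD, hle⟩ := hf.decomp hirr
  have hcard := card_of_decomp hDD
  rcases hf.star with hs | ⟨ht, hs⟩
  · have hD := hf.nondeg (rfQ hQ) hs hirr
    rw [← polar_eq hQ] at hD
    refine OCase.dec t _ _ hf.two_le hcard ⟨hD, ?_⟩ hle
    -- isometric
    set i₀ : Fin t := ⟨0, by have := hf.two_le; omega⟩ with hi₀
    have key : ∀ i, AreIsometricFor Q (rng (e i₀)) (rng (e i)) := by
      refine forall_of_exists hf.idem hirr (fun i => AreIsometricFor Q (rng (e i₀)) (rng (e i))) ?_ ⟨i₀, LinearEquiv.refl F _, fun w => rfl⟩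
      intro h hh
      obtain ⟨π, hπ⟩ := hf.perm h hh
      refine ⟨π, hπ, fun i => ?_⟩
      have hmap : (rng (e i)).map (Matrix.toLin' (h : Matrix ι ι F)) = rng (e (π i)) := by rw [map_rng, hπ]
      have hinj : Function.Injective (Matrix.toLin' (h : Matrix ι ι F)) := toLin'_injective h
      let ψ : rng (e i) ≃ₗ[F] rng (e (π i)) :=
        (Submodule.equivMapOfInjective (Matrix.toLin' (h : Matrix ι ι F)) hinj (rng (e i))).trans (LinearEquiv.ofEq _ _ hmap)
      have hψ : ∀ w : rng (e i), ((ψ w : rng (e (π i))) : ι → F) = (h : Matrix ι ι F) *ᵥ (w : ι → F) := fun w => rfl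
      constructor
      · rintro ⟨φ, hφ⟩
        exact ⟨φ.trans ψ, fun w => by rw [LinearEquiv.trans_apply, hψ, isQ (hH hh), hφ]⟩
      · rintro ⟨φ, hφ⟩
        refine ⟨φ.trans ψ.symm, fun w => ?_⟩
        have h1 := hψ (ψ.symm (φ w))
        rw [LinearEquiv.apply_symm_apply] at h1
        rw [LinearEquiv.trans_apply, ← hφ w, h1, isQ (hH hh)]
    intro i j
    obtain ⟨φ, hφ⟩ := key i
    obtain ⟨ψ, hψ⟩ := key j
    refine ⟨φ.symm.trans ψ, fun w => ?_⟩
    rw [LinearEquiv.trans_apply, hψ, ← hφ, LinearEquiv.apply_symm_apply]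
  · subst ht
    have hts : ∀ i, IsTotallySingularFor (QuadraticMap.polar Q) (rng (e i)) := by
      intro i; rw [polar_eq hQ]; exact hf.singular (rfQ hQ) hs i
    by_cases hz : ∀ i, IsTotallySingularQuad Q (rng (e i))
    · exact OCase.sing _ _ hcard hDD hz hle
    · -- characteristic two and `Q` not zero on the two subspaces
      have h2 : (2 : F) = 0 := by
        by_contra h2
        apply hz
        intro i w hw
        have := hts i w hw w hw
        rw [Q_self hQ] at this
        exact (mul_eq_zero.1 this).resolve_left h2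
      exfalso
      -- the quadratic form with the same polar form and zero on both members
      let R : (ι → F) → F := fun v => QuadraticMap.polar Q (e 0 *ᵥ v) (e 1 *ᵥ v)
      have hsum : e 0 + e 1 = 1 := by
        have := hf.idem.sum
        rwa [Fin.sum_univ_two] at this
      have hdec : ∀ v, v = e 0 *ᵥ v + e 1 *ᵥ v := by
        intro v; rw [← Matrix.add_mulVec, hsum, Matrix.one_mulVec]
      have hQe : ∀ v, Q v = Q (e 0 *ᵥ v) + Q (e 1 *ᵥ v) + R v := by
        intro v; conv_lhs => rw [hdec v, Q_add Q]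
      have hpz : ∀ i (u v : ι → F), QuadraticMap.polar Q (e i *ᵥ u) (e i *ᵥ v) = 0 := by
        intro i u v
        exact hts i _ (mem_rng.2 ⟨u, rfl⟩) _ (mem_rng.2 ⟨v, rfl⟩)
      have hRs : ∀ (c : F) v, R (c • v) = c ^ 2 * R v := by
        intro c v
        show QuadraticMap.polar Q (e 0 *ᵥ (c • v)) (e 1 *ᵥ (c • v)) = _
        rw [Matrix.mulVec_smul, Matrix.mulVec_smul, hQ.polar_bilinear.smul_left, hQ.polar_bilinear.smul_right]; ring
      have hRp : ∀ u v, QuadraticMap.polar Q u v = QuadraticMap.polar R u v := by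
        intro u v
        have e1 : QuadraticMap.polar R u v = QuadraticMap.polar Q (e 0 *ᵥ u) (e 1 *ᵥ v) + QuadraticMap.polar Q (e 0 *ᵥ v) (e 1 *ᵥ u) := by
          show R (u + v) - R u - R v = _
          show QuadraticMap.polar Q (e 0 *ᵥ (u + v)) (e 1 *ᵥ (u + v)) - QuadraticMap.polar Q (e 0 *ᵥ u) (e 1 *ᵥ u) -
            QuadraticMap.polar Q (e 0 *ᵥ v) (e 1 *ᵥ v) = _
          rw [Matrix.mulVec_add, Matrix.mulVec_add, hQ.polar_bilinear.add_left, hQ.polar_bilinear.add_right, hQ.polar_bilinear.add_right]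
          ring
        rw [e1]
        conv_lhs => rw [hdec u, hdec v, hQ.polar_bilinear.add_left, hQ.polar_bilinear.add_right, hQ.polar_bilinear.add_right,
          hpz, hpz, QuadraticMap.polar_comm Q (e 1 *ᵥ u)]
        ring
      haveI : Nonempty ι := by
        by_contra hne
        rw [not_nonempty_iff] at hne
        have hc0 : Fintype.card ι = 0 := Fintype.card_eq_zero
        apply hz
        intro i w hw
        rw [show w = 0 from Subsingleton.elim _ _, Q_zero hQ]
      have hn2 : 2 ≤ Fintype.card ι := by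
        have : 0 < Fintype.card ι := Fintype.card_pos
        omega
      have hRI : ∀ g ∈ H, ∀ v, R ((g : Matrix ι ι F) *ᵥ v) = R v := by
        intro g hg v
        obtain ⟨π, hπ⟩ := hf.perm g⁻¹ (H.inv_mem hg)
        have hgi : ∀ i, e i *ᵥ ((g : Matrix ι ι F) *ᵥ v) = (g : Matrix ι ι F) *ᵥ (e (π i) *ᵥ v) := by
          intro i
          rw [← hπ i, ← cj_mulVec, cj_cj_inv]
        have hpol : ∀ u w, QuadraticMap.polar Q ((g : Matrix ι ι F) *ᵥ u) ((g : Matrix ι ι F) *ᵥ w) = QuadraticMap.polar Q u w := by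
          intro u w
          unfold QuadraticMap.polar
          rw [← Matrix.mulVec_add, isQ (hH hg), isQ (hH hg), isQ (hH hg)]
        show QuadraticMap.polar Q (e 0 *ᵥ _) (e 1 *ᵥ _) = QuadraticMap.polar Q (e 0 *ᵥ v) (e 1 *ᵥ v)
        rw [hgi, hgi, hpol]
        have h01 : π 0 ≠ π 1 := fun h => absurd (π.injective h) (by decide)
        revert h01
        generalize π 0 = a
        generalize π 1 = b
        intro h01
        fin_cases a <;> fin_cases b
        · exact absurd rfl h01
        · rfl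
        · exact QuadraticMap.polar_comm Q _ _
        · exact absurd rfl h01
      have hQR := quad_uniq hQ.smul hRs hRp hirr hn2 (fun g hg v => isQ (hH hg) v) hRI
      apply hz
      intro i w hw
      obtain ⟨u, rfl⟩ := mem_rng.1 hw
      rw [hQR]
      show QuadraticMap.polar Q (e 0 *ᵥ (e i *ᵥ u)) (e 1 *ᵥ (e i *ᵥ u)) = 0
      have horth : ∀ i j, i ≠ j → e i * e j = 0 := fun i j hij => by rw [hf.idem.mul, if_neg hij]
      have h00 := hQ.polar_bilinear.smul_left 0 0 (e 1 *ᵥ (e i *ᵥ u))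
      have h11 := hQ.polar_bilinear.smul_right 0 (e 0 *ᵥ (e i *ᵥ u)) 0
      rw [zero_smul, zero_mul] at h00 h11
      fin_cases i
      · show QuadraticMap.polar Q (e 0 *ᵥ (e 0 *ᵥ u)) (e 1 *ᵥ (e 0 *ᵥ u)) = 0
        rw [Matrix.mulVec_mulVec u (e 1), horth 1 0 (by decide), Matrix.zero_mulVec]
        exact h11
      · show QuadraticMap.polar Q (e 0 *ᵥ (e 1 *ᵥ u)) (e 1 *ᵥ (e 1 *ᵥ u)) = 0
        rw [Matrix.mulVec_mulVec u (e 0), horth 0 1 (by decide), Matrix.zero_mulVec]
        exact h00

end red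

end Cfsg.Agent.Lib.AschO
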