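import Cfsg.Agent.Lib.AschO1

/-!
Aschbacher's theorem for the orthogonal groups: fields and commutative algebras.
-/

set_option autoImplicit false
set_option linter.style.haveILetI false
set_option linter.unusedVariables false
set_option linter.unusedSectionVars false

namespace Cfsg.Agent.Lib.AschO

open Cfsg Cfsg.Geo Cfsg.Agent.Lib.AschMU Cfsg.Agent.Lib.AschCore Cfsg.Agent.Lib.AschField Cfsg.Agent.Lib.AschAlg
  Cfsg.Agent.Lib.AschGroup Cfsg.Agent.Lib.AschGood Cfsg.Agent.Lib.AschAdj Cfsg.Agent.Lib.AschSp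
open Cfsg.Agent.Lib.AschDescent (env mem_env)
open scoped Matrix MatrixGroups Kronecker

section field
variable {ι : Type} [Fintype ι] [DecidableEq ι] {F : Type*} [Field F]

/-- A primitive element of a field of matrices. -/
lemma exists_gen [Finite F] [Nonempty ι] {r : ℕ} {K : Subalgebra F (Matrix ι ι F)} (hK : IsFieldSubalgebra r K) :
    ∃ γ ∈ K, ∀ k ∈ K, k ≠ 0 → ∃ j : ℕ, k = γ ^ j := by
  classical
  have hfinM : Finite (Matrix ι ι F) := inferInstanceAs (Finite (ι → ι → F))
  haveI : Finite K := Finite.of_injective (fun a : K => (a : Matrix ι ι F)) Subtype.coe_injective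
  have hE : IsField K :=
    { exists_pair_ne := ⟨0, 1, fun h => zero_ne_one (congrArg Subtype.val h)⟩
      mul_comm := fun a b => Subtype.ext (hK.comm a a.2 b b.2)
      mul_inv_cancel := fun {a} ha => by
        obtain ⟨y, hy, hxy⟩ := hK.inv a a.2 (fun h => ha (Subtype.ext h))
        exact ⟨⟨y, hy⟩, Subtype.ext hxy⟩ }
  letI : Field K := hE.toField
  obtain ⟨g, hg⟩ := IsCyclic.exists_generator (α := Kˣ)
  refine ⟨((g : K) : Matrix ι ι F), (g : K).2, fun k hk hk0 => ?_⟩
  let u : Kˣ := Units.mk0 ⟨k, hk⟩ (fun h => hk0 (congrArg Subtype.val h))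
  have h1 := hg u
  rw [← mem_powers_iff_mem_zpowers] at h1
  obtain ⟨j, hj⟩ := h1
  refine ⟨j, ?_⟩
  have h2 : ((g ^ j : Kˣ) : K) = (u : K) := congrArg Units.val hj
  rw [Units.val_pow_eq_pow_val] at h2
  have h3 := congrArg Subtype.val h2
  exact h3.symm

/-- A field of full degree is its own centraliser. -/
lemma mem_of_commute_full [Nonempty ι] {K : Subalgebra F (Matrix ι ι F)} (hK : IsFieldSubalgebra (Fintype.card ι) K)
    {x : Matrix ι ι F} (hx : ∀ k ∈ K, x * k = k * x) : x ∈ K := by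
  classical
  let v : ι → F := Pi.single (Classical.arbitrary ι) 1
  have hv : v ≠ 0 := by
    intro h
    have := congrFun h (Classical.arbitrary ι)
    simp [v] at this
  let φ : K →ₗ[F] (ι → F) := ((Matrix.mulVecBilin F F).flip v).comp (Subalgebra.toSubmodule K).subtype
  have hφ : ∀ k : K, φ k = (k : Matrix ι ι F) *ᵥ v := fun k => rfl
  have hinj : Function.Injective φ := by
    rw [injective_iff_map_eq_zero]
    intro k hk
    by_contra hne
    obtain ⟨y, hy, hky⟩ := hK.inv k k.2 (fun h => hne (Subtype.ext h))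
    apply hv
    rw [hφ] at hk
    calc v = (y * (k : Matrix ι ι F)) *ᵥ v := by rw [hK.comm y hy k k.2, hky, Matrix.one_mulVec]
      _ = 0 := by rw [← Matrix.mulVec_mulVec, hk, Matrix.mulVec_zero]
  have hsurj : Function.Surjective φ := by
    apply (LinearMap.injective_iff_surjective_of_finrank_eq_finrank _).1 hinj
    rw [Module.finrank_fintype_fun_eq_card]
    exact hK.finrank_eq
  obtain ⟨k, hk⟩ := hsurj (x *ᵥ v)
  have : x = (k : Matrix ι ι F) := by
    rw [← sub_eq_zero]
    apply mulVec_eq_zero_of_rng_bot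
    intro w
    obtain ⟨l, rfl⟩ := hsurj w
    rw [hφ] at hk ⊢
    rw [Matrix.sub_mulVec, Matrix.mulVec_mulVec, hx l l.2, ← Matrix.mulVec_mulVec, ← hk, Matrix.mulVec_mulVec, Matrix.mulVec_mulVec,
      hK.comm l l.2 k k.2, sub_self]
  rw [this]; exact k.2

/-- A group normalising a field of matrices acts on it abelianly. -/
lemma cj_comm [Finite F] [Nonempty ι] {r : ℕ} {K : Subalgebra F (Matrix ι ι F)} (hK : IsFieldSubalgebra r K)
    {g h : GL ι F} (hg : ∀ k ∈ K, cj g k ∈ K) (hh : ∀ k ∈ K, cj h k ∈ K) : ∀ k ∈ K, cj (g * h) k = cj (h * g) k := by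
  obtain ⟨γ, hγ, hgen⟩ := exists_gen hK
  intro k hk
  by_cases hk0 : k = 0
  · rw [hk0, map_zero, map_zero]
  obtain ⟨j, rfl⟩ := hgen k hk hk0
  rw [map_pow, map_pow]
  congr 1
  have hne : ∀ g : GL ι F, γ ≠ 0 → cj g γ ≠ 0 := by
    intro g h0 h
    apply h0
    rw [← cj_inv_cj g γ, h, map_zero]
  by_cases h0 : γ = 0
  · rw [h0, map_zero, map_zero]
  obtain ⟨a, ha⟩ := hgen _ (hg γ hγ) (hne g h0)
  obtain ⟨b, hb⟩ := hgen _ (hh γ hγ) (hne h h0)
  rw [cj_mul_apply, cj_mul_apply, ha, hb, map_pow, map_pow, ha, hb, ← pow_mul, ← pow_mul, mul_comm]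

variable {ε : F} {G : Matrix ι ι F}

/-- The two kinds of adjoint closed fields of prime degree. -/
lemma field_dich [Finite F] [Nonempty ι] (h : RF (RingEquiv.refl F) ε G) {r : ℕ} (hr : r.Prime) {K : Subalgebra F (Matrix ι ι F)}
    (hK : IsFieldSubalgebra r K) (hA : AdjClosed (RingEquiv.refl F) G K) :
    (∀ k ∈ K, adj (RingEquiv.refl F) G k = k) ∨
    (r = 2 ∧ (∀ k ∈ K, adj (RingEquiv.refl F) G k = k → ∃ c : F, k = c • 1) ∧
      ∃ (x : Matrix ι ι F) (t n : F), x ∈ K ∧ adj (RingEquiv.refl F) G x ≠ x ∧ x + adj (RingEquiv.refl F) G x = t • 1 ∧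
      x * adj (RingEquiv.refl F) G x = n • 1 ∧ ∀ k ∈ K, ∃ a b : F, k = a • 1 + b • x) := by
  by_cases hsa : ∀ k ∈ K, adj (RingEquiv.refl F) G k = k
  · exact Or.inl hsa
  right
  push Not at hsa
  obtain ⟨x, hx, hxa⟩ := hsa
  let K₀ : Subalgebra F (Matrix ι ι F) :=
    { carrier := {k | k ∈ K ∧ adj (RingEquiv.refl F) G k = k}
      mul_mem' := by
        rintro a b ⟨ha, ha'⟩ ⟨hb, hb'⟩
        exact ⟨K.mul_mem ha hb, by rw [adj_mul h, ha', hb', hK.comm b hb a ha]⟩
      one_mem' := ⟨K.one_mem, adj_one h⟩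
      add_mem' := by
        rintro a b ⟨ha, ha'⟩ ⟨hb, hb'⟩
        exact ⟨K.add_mem ha hb, by rw [adj_add, ha', hb']⟩
      zero_mem' := ⟨K.zero_mem, adj_zero⟩
      algebraMap_mem' := fun c => ⟨K.algebraMap_mem c, by
        rw [Algebra.algebraMap_eq_smul_one, adj_smul, adj_one h]; rfl⟩ }
  have hbot : K₀ = ⊥ := by
    rcases eq_bot_or_eq hr hK (fun k hk => hk.1 : K₀ ≤ K) with h | h
    · exact h
    · exfalso
      have : x ∈ K₀ := by rw [h]; exact hx
      exact hxa this.2
  have hscal : ∀ k ∈ K, adj (RingEquiv.refl F) G k = k → ∃ c : F, k = c • 1 := by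
    intro k hk hk'
    have : k ∈ K₀ := ⟨hk, hk'⟩
    rw [hbot] at this
    exact scalar_of_mem_bot this
  have hadx := hA x hx
  obtain ⟨t, ht⟩ := hscal (x + adj (RingEquiv.refl F) G x) (K.add_mem hx hadx) (by rw [adj_add, adj_adj h, add_comm])
  obtain ⟨n, hn⟩ := hscal (x * adj (RingEquiv.refl F) G x) (K.mul_mem hx hadx) (by rw [adj_mul h, adj_adj h])
  have hadj : adj (RingEquiv.refl F) G x = t • 1 - x := by rw [← ht]; abel
  have hxx : x * x = t • x + (-n) • 1 := by
    rw [hadj, mul_sub, Matrix.mul_smul, mul_one] at hn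
    rw [neg_smul, ← hn]; abel
  have hxns : ∀ c : F, x ≠ c • 1 := by
    intro c hc
    apply hxa
    rw [hc, adj_smul, adj_one h]; rfl
  have h1 : quadAlg x t (-n) hxx ≤ K := by
    rintro _ ⟨a, b, rfl⟩
    exact K.add_mem (K.smul_mem K.one_mem _) (K.smul_mem hx _)
  rcases eq_bot_or_eq hr hK h1 with h' | h'
  · exfalso
    have h3 : x ∈ quadAlg x t (-n) hxx := self_mem_quadAlg
    rw [h'] at h3
    obtain ⟨c, hc⟩ := scalar_of_mem_bot h3
    exact hxns c hc
  · have h3 : Module.finrank F (quadAlg x t (-n) hxx) ≤ 2 := finrank_quadAlg_le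
    have h3' := h3
    rw [h', hK.finrank_eq] at h3'
    refine ⟨le_antisymm h3' hr.two_le, hscal, x, t, n, hx, hxa, ht, hn, ?_⟩
    intro k hk
    rw [← h'] at hk
    exact hk

/-- no zero divisors in a field of matrices -/
lemma field_mul_eq_zero {r : ℕ} {K : Subalgebra F (Matrix ι ι F)} (hK : IsFieldSubalgebra r K) {a b : Matrix ι ι F} (ha : a ∈ K) (hb : b ∈ K)
    (hab : a * b = 0) : a = 0 ∨ b = 0 := by
  by_cases h : a = 0
  · exact Or.inl h
  · right
    obtain ⟨y, hy, hay⟩ := hK.inv a ha h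
    calc b = (a * y) * b := by rw [hay, one_mul]
      _ = y * (a * b) := by rw [hK.comm a ha y hy, mul_assoc]
      _ = 0 := by rw [hab, mul_zero]

end field

section ocase
variable {ι : Type} [Fintype ι] [DecidableEq ι] {F : Type*} [Field F] [Fintype F] {Q : (ι → F) → F}

lemma adjQ (hQ : IsNondegenerateQuadraticForm Q) (x : Matrix ι ι F) (u v : ι → F) :
    QuadraticMap.polar Q (x *ᵥ u) v = QuadraticMap.polar Q u (adj (RingEquiv.refl F) (gm Q) x *ᵥ v) := by
  rw [polar_eq hQ]; exact bf_adj (rfQ hQ) x u v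

lemma selfAdj_iff (hQ : IsNondegenerateQuadraticForm Q) {K : Subalgebra F (Matrix ι ι F)} :
    IsSelfAdjointFor (QuadraticMap.polar Q) K ↔ ∀ k ∈ K, adj (RingEquiv.refl F) (gm Q) k = k := by
  constructor
  · intro hself k hk
    have h1 : ∀ u v, QuadraticMap.polar Q u ((adj (RingEquiv.refl F) (gm Q) k - k) *ᵥ v) = 0 := by
      intro u v
      rw [Matrix.sub_mulVec, sub_eq_add_neg, hQ.polar_bilinear.add_right, ← adjQ hQ, hself k hk]
      have : QuadraticMap.polar Q u (-(k *ᵥ v)) = - QuadraticMap.polar Q u (k *ᵥ v) := by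
        rw [← neg_one_smul F (k *ᵥ v), hQ.polar_bilinear.smul_right]; ring
      rw [this, add_neg_cancel]
    rw [← sub_eq_zero]
    apply mulVec_eq_zero_of_rng_bot
    intro v
    by_contra hne
    obtain ⟨⟨u, hu⟩, -⟩ := hQ.nondegenerate _ hne
    exact hu (h1 u v)
  · intro h k hk u v
    rw [adjQ hQ, h k hk]

/-- A self-adjoint field of full odd degree: impossible or idempotents. -/
theorem ocase_full (hQ : IsNondegenerateQuadraticForm Q) {H : Subgroup (GL ι F)} (hH : H ≤ isometryGroup F Q)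
    (hirr : ActsIrreducibly (matrixSet H)) (hodd : Odd (Fintype.card ι)) (hp : (Fintype.card ι).Prime)
    {K : Subalgebra F (Matrix ι ι F)} (hK : IsFieldSubalgebra (Fintype.card ι) K)
    (hle : H ≤ subalgebraNormalizer K) (hsa : ∀ k ∈ K, adj (RingEquiv.refl F) (gm Q) k = k) : OCase Q H := by
  classical
  haveI : Nonempty ι := Fintype.card_pos_iff.1 hp.pos
  have h := rfQ hQ
  have hI : ∀ g ∈ H, IsIso (RingEquiv.refl F) (gm Q) g := fun g hg => isoQ hQ (hH hg)
  -- isometries in a self-adjoint field are `±1`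
  have hpm : ∀ (K : Subalgebra F (Matrix ι ι F)), IsFieldSubalgebra (Fintype.card ι) K → (∀ k ∈ K, adj (RingEquiv.refl F) (gm Q) k = k) →
      ∀ g : GL ι F, IsIso (RingEquiv.refl F) (gm Q) g → (g : Matrix ι ι F) ∈ K → (g : Matrix ι ι F) = 1 ∨ (g : Matrix ι ι F) = -1 := by
    intro K hK hsa g hg hgK
    have h1 : (g : Matrix ι ι F) * (g : Matrix ι ι F) = 1 := by
      have h2 : adj (RingEquiv.refl F) (gm Q) (g : Matrix ι ι F) = ((g⁻¹ : GL ι F) : Matrix ι ι F) := hg
      have h3 := hsa _ hgK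
      rw [h2] at h3
      conv_lhs => rw [← h3]
      rw [h3]
      conv_lhs => enter [1]; rw [← h3]
      exact gl_inv_mul g
    have h4 : ((g : Matrix ι ι F) - 1) * ((g : Matrix ι ι F) + 1) = 0 := by
      rw [sub_mul, mul_add, h1, mul_one, one_mul]; abel
    rcases field_mul_eq_zero hK (K.sub_mem hgK K.one_mem) (K.add_mem hgK K.one_mem) h4 with h5 | h5
    · exact Or.inl (sub_eq_zero.1 h5)
    · exact Or.inr (eq_neg_of_add_eq_zero_left h5)
  have hnorm : ∀ g ∈ H, ∀ k ∈ K, cj g k ∈ K := fun g hg k hk => cj_mem_of_le hle hg hk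
  -- commutators are scalars ±1, of determinant 1
  have hHc : ∀ g ∈ H, ∀ k ∈ H, g * k = k * g := by
    intro g hg k hk
    have h1 := cj_comm hK (hnorm g hg) (hnorm k hk)
    set c := (k * g)⁻¹ * (g * k) with hc
    have hcH : c ∈ H := H.mul_mem (H.inv_mem (H.mul_mem hk hg)) (H.mul_mem hg hk)
    have hcK : (c : Matrix ι ι F) ∈ K := by
      apply mem_of_commute_full hK
      intro l hl
      have h2 : cj c l = l := by rw [hc, cj_mul_apply, h1 l hl, cj_inv_cj]
      rw [cj_apply] at h2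
      calc (c : Matrix ι ι F) * l = ((c : Matrix ι ι F) * l * ((c⁻¹ : GL ι F) : Matrix ι ι F)) * (c : Matrix ι ι F) := by
            rw [mul_assoc _ _ (c : Matrix ι ι F), gl_inv_mul, mul_one]
        _ = l * (c : Matrix ι ι F) := by rw [h2]
    have hc1 : c = 1 := by
      rcases hpm K hK hsa c (hI c hcH) hcK with h3 | h3
      · exact Units.ext h3
      · have hdet : Matrix.det (c : Matrix ι ι F) = 1 := by
          have h4 : Matrix.GeneralLinearGroup.det c = 1 := by
            rw [hc, map_mul, map_inv, map_mul, map_mul, mul_comm (Matrix.GeneralLinearGroup.det g)]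
            simp
          exact congrArg Units.val h4
        rw [h3, Matrix.det_neg, Matrix.det_one, mul_one, hodd.neg_one_pow] at hdet
        apply Units.ext
        rw [h3]
        show -(1 : Matrix ι ι F) = 1
        rw [show (-1 : Matrix ι ι F) = (-1 : F) • 1 by rw [neg_one_smul], hdet, one_smul]
    have := mul_eq_of_eq_inv_mul (hc.symm.trans hc1).symm
    rw [mul_one] at this
    exact this.symm
  -- the commutative envelope
  have hEcomm : ∀ x ∈ env H, ∀ y ∈ env H, x * y = y * x := by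
    intro x hx y hy
    have key : ∀ a ∈ matrixSet H, ∀ b ∈ matrixSet H, a * b = b * a := by
      rintro _ ⟨a, ha, rfl⟩ _ ⟨b, hb, rfl⟩
      have := congrArg Units.val (hHc a ha b hb)
      exact this
    exact Algebra.commute_of_mem_adjoin_of_forall_mem_commute hx (fun a ha =>
      (Algebra.commute_of_mem_adjoin_of_forall_mem_commute hy (fun b hb => (key a ha b hb))).symm) |>.symm
  have hEn : H ≤ subalgebraNormalizer (env H) := Cfsg.Agent.Lib.AschDescent.normalizer_le_env H (normBy_self H)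
  have hEa : AdjClosed (RingEquiv.refl F) (gm Q) (env H) := adjClosed_env h hI le_sup_left
  rcases comm_cases hirr hEn hEcomm with h4 | h4
  · obtain ⟨t, e, ht, he, hprim, hall, hp⟩ := h4
    obtain ⟨t', e', hf⟩ := exists_FIdem h hI hirr hEa hEcomm ht he hprim hall hp
    exact ocase_idem hQ hH hirr hf
  · exfalso
    have hn2 : 2 ≤ Fintype.card ι := hp.two_le
    have hscal : ¬ ∀ g ∈ H, ∃ c : F, (g : Matrix ι ι F) = c • 1 := by
      intro hs
      obtain ⟨i, j, hij⟩ := Fintype.exists_pair_of_one_lt_card (show 1 < Fintype.card ι by omega)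
      rcases hirr (Submodule.span F {(Pi.single i 1 : ι → F)}) (by
        rintro _ ⟨g, hg, rfl⟩
        obtain ⟨c, hc⟩ := hs g hg
        rintro _ ⟨v, hv, rfl⟩
        rw [Matrix.toLin'_apply]
        show (g : Matrix ι ι F) *ᵥ v ∈ _
        rw [hc, Matrix.smul_mulVec, Matrix.one_mulVec]
        exact Submodule.smul_mem _ _ hv) with h5 | h5
      · rw [Submodule.span_singleton_eq_bot] at h5
        have := congrFun h5 i
        simp at this
      · have h6 : (Pi.single j 1 : ι → F) ∈ Submodule.span F {(Pi.single i 1 : ι → F)} := by rw [h5]; exact Submodule.mem_top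
        obtain ⟨c, hc⟩ := Submodule.mem_span_singleton.1 h6
        have := congrFun hc j
        simp [Ne.symm hij] at this
    have hEne : env H ≠ ⊥ := by
      intro hb
      apply hscal
      intro g hg
      have := mem_env hg
      rw [hb] at this
      exact scalar_of_mem_bot this
    obtain ⟨r, K', hr, hrn, -, hK', hK''⟩ := exists_prime_subfield' hEcomm h4 hEne
    have hrn' : r = Fintype.card ι := (Nat.prime_dvd_prime_iff_eq hr hp).1 hrn
    subst hrn'
    have hK'E : K' ≤ env H := fun x hx => ((hK'' x).1 hx).1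
    have hEeq : K' = env H := by
      have h5 := dvd_card_of_field hEcomm h4
      apply Subalgebra.eq_of_le_of_finrank_le hK'E
      rw [hK'.finrank_eq]
      exact Nat.le_of_dvd Fintype.card_pos h5
    rcases field_dich h hp hK' (hEa.of_pow h hK'') with h6 | ⟨h6, -⟩
    · apply hscal
      intro g hg
      rcases hpm K' hK' h6 g (hI g hg) (by rw [hEeq]; exact mem_env hg) with h7 | h7
      · exact ⟨1, by rw [h7, one_smul]⟩
      · exact ⟨-1, by rw [h7, neg_one_smul]⟩
    · rw [h6] at hodd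
      exact absurd hodd (by decide)

/-- In the non-self-adjoint case the quadratic field acts by similarities. -/
lemma her_sim (hQ : IsNondegenerateQuadraticForm Q) {H : Subgroup (GL ι F)} (hH : H ≤ isometryGroup F Q)
    (hirr : ActsIrreducibly (matrixSet H)) (hn : 2 ≤ Fintype.card ι) {K : Subalgebra F (Matrix ι ι F)} (hK : IsFieldSubalgebra 2 K)
    (hle : H ≤ subalgebraNormalizer K) (hA : AdjClosed (RingEquiv.refl F) (gm Q) K)
    (hscal : ∀ k ∈ K, adj (RingEquiv.refl F) (gm Q) k = k → ∃ c : F, k = c • 1)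
    {x : Matrix ι ι F} {t n : F} (hx : x ∈ K) (hxt : x + adj (RingEquiv.refl F) (gm Q) x = t • 1)
    (hxn : x * adj (RingEquiv.refl F) (gm Q) x = n • 1) (hgen : ∀ k ∈ K, ∃ a b : F, k = a • 1 + b • x) :
    ∀ k ∈ K, ∃ c : F, ∀ v : ι → F, Q (k *ᵥ v) = c * Q v := by
  classical
  haveI : Nonempty ι := Fintype.card_pos_iff.1 (by omega)
  have h := rfQ hQ
  have hI : ∀ g ∈ H, IsIso (RingEquiv.refl F) (gm Q) g := fun g hg => isoQ hQ (hH hg)
  intro k hk
  obtain ⟨N, hN⟩ := hscal (k * adj (RingEquiv.refl F) (gm Q) k) (K.mul_mem hk (hA k hk)) (by rw [adj_mul h, adj_adj h])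
  have hpol : ∀ u v, QuadraticMap.polar Q (k *ᵥ u) (k *ᵥ v) = N * QuadraticMap.polar Q u v := by
    intro u v
    rw [adjQ hQ, Matrix.mulVec_mulVec, hK.comm _ (hA k hk) _ hk, hN, Matrix.smul_mulVec, Matrix.one_mulVec, hQ.polar_bilinear.smul_right]
  refine ⟨N, ?_⟩
  by_cases h2 : (2 : F) = 0
  swap
  · intro v
    have := hpol v v
    rw [Q_self hQ, Q_self hQ] at this
    apply mul_left_cancel₀ h2
    rw [this]; ring
  -- characteristic two
  by_cases hN0 : N = 0
  · have hk0 : k = 0 := by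
      rw [hN0, zero_smul] at hN
      rcases field_mul_eq_zero hK hk (hA k hk) hN with h3 | h3
      · exact h3
      · rw [← adj_adj h k, h3, adj_zero]
    intro v
    rw [hk0, Matrix.zero_mulVec, Q_zero hQ, hN0, zero_mul]
  let D : (ι → F) → F := fun v => Q (k *ᵥ v) - N * Q v
  have hDadd : ∀ u v, D (u + v) = D u + D v := by
    intro u v
    show Q (k *ᵥ (u + v)) - N * Q (u + v) = (Q (k *ᵥ u) - N * Q u) + (Q (k *ᵥ v) - N * Q v)
    rw [Matrix.mulVec_add, Q_add Q, Q_add Q, hpol]; ring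
  have hDsmul : ∀ (c : F) v, D (c • v) = c ^ 2 * D v := by
    intro c v
    show Q (k *ᵥ (c • v)) - N * Q (c • v) = c ^ 2 * (Q (k *ᵥ v) - N * Q v)
    rw [Matrix.mulVec_smul, hQ.smul, hQ.smul]; ring
  suffices hD0 : ∀ v, D v = 0 by
    intro v
    exact sub_eq_zero.1 (hD0 v)
  -- centralising elements
  have hDinv : ∀ g ∈ H, cj g x = x → ∀ v, D ((g : Matrix ι ι F) *ᵥ v) = D v := by
    intro g hg hgx v
    have hgk : cj g⁻¹ k = k := by
      obtain ⟨a, b, hab⟩ := hgen k hk
      have : cj g⁻¹ x = x := by conv_lhs => rw [← hgx, cj_inv_cj]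
      rw [hab, map_add, map_smul, map_smul, map_one, this]
    show Q (k *ᵥ ((g : Matrix ι ι F) *ᵥ v)) - N * Q ((g : Matrix ι ι F) *ᵥ v) = Q (k *ᵥ v) - N * Q v
    have e1 : k *ᵥ ((g : Matrix ι ι F) *ᵥ v) = (g : Matrix ι ι F) *ᵥ (k *ᵥ v) := by
      conv_rhs => rw [← hgk, ← cj_mulVec, cj_cj_inv]
    rw [e1, isQ (hH hg), isQ (hH hg)]
  let M : Submodule F (ι → F) :=
    { carrier := {v | ∀ g ∈ H, D ((g : Matrix ι ι F) *ᵥ v) = 0}
      zero_mem' := by
        intro g hg
        rw [Matrix.mulVec_zero]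
        have := hDsmul 0 0
        rwa [zero_smul, zero_pow two_ne_zero, zero_mul] at this
      add_mem' := by
        intro u v hu hv g hg
        rw [Matrix.mulVec_add, hDadd, hu g hg, hv g hg, add_zero]
      smul_mem' := by
        intro c v hv g hg
        rw [Matrix.mulVec_smul, hDsmul, hv g hg, mul_zero] }
  have hmem : ∀ v, v ∈ M ↔ ∀ g ∈ H, D ((g : Matrix ι ι F) *ᵥ v) = 0 := fun v => Iff.rfl
  rcases hirr M (by
    rintro _ ⟨g, hg, rfl⟩
    rintro _ ⟨v, hv, rfl⟩
    rw [Matrix.toLin'_apply, hmem]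
    intro g' hg'
    show D ((g' : Matrix ι ι F) *ᵥ ((g : Matrix ι ι F) *ᵥ v)) = 0
    rw [Matrix.mulVec_mulVec]
    exact (hmem v).1 hv (g' * g) (H.mul_mem hg' hg)) with hM | hM
  swap
  · intro v
    have : v ∈ M := by rw [hM]; exact Submodule.mem_top
    have := (hmem v).1 this 1 H.one_mem
    rwa [Units.val_one, Matrix.one_mulVec] at this
  exfalso
  -- elements centralising `x` are trivial
  have htriv : ∀ g ∈ H, cj g x = x → g = 1 := by
    intro g hg hgx
    have hx' : ∀ h' ∈ H, cj h' x = x ∨ cj h' x = adj (RingEquiv.refl F) (gm Q) x := by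
      intro h' hh'
      set y := cj h' x with hy
      have hyK : y ∈ K := cj_mem_of_le hle hh' hx
      have hy1 : y + adj (RingEquiv.refl F) (gm Q) y = t • 1 := by rw [hy, adj_cj h (hI h' hh'), ← map_add, hxt, map_smul, map_one]
      have hyn : y * adj (RingEquiv.refl F) (gm Q) y = n • 1 := by rw [hy, adj_cj h (hI h' hh'), ← map_mul, hxn, map_smul, map_one]
      have hadx : adj (RingEquiv.refl F) (gm Q) x = t • 1 - x := by rw [← hxt]; abel
      have hady : adj (RingEquiv.refl F) (gm Q) y = t • 1 - y := by rw [← hy1]; abel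
      have h3 : (y - x) * (y - adj (RingEquiv.refl F) (gm Q) x) = 0 := by
        have e1 : (y - x) * (y - adj (RingEquiv.refl F) (gm Q) x) = y * y - y * adj (RingEquiv.refl F) (gm Q) x - x * y + x * adj (RingEquiv.refl F) (gm Q) x := by
          rw [sub_mul, mul_sub, mul_sub]; abel
        rw [e1, hxn, ← hyn, hady, hadx, mul_sub, mul_sub, hK.comm x hx y hyK]
        abel
      rcases field_mul_eq_zero hK (K.sub_mem hyK hx) (K.sub_mem hyK (hA x hx)) h3 with h4 | h4
      · exact Or.inl (sub_eq_zero.1 h4)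
      · exact Or.inr (sub_eq_zero.1 h4)
    have hfix : ∀ v, (g : Matrix ι ι F) *ᵥ v = v := by
      intro v
      have : (g : Matrix ι ι F) *ᵥ v + v ∈ M := by
        rw [hmem]
        intro h' hh'
        rw [Matrix.mulVec_add, hDadd]
        have e1 : (h' : Matrix ι ι F) *ᵥ ((g : Matrix ι ι F) *ᵥ v) = ((h' * g * h'⁻¹ : GL ι F) : Matrix ι ι F) *ᵥ ((h' : Matrix ι ι F) *ᵥ v) := by
          rw [Matrix.mulVec_mulVec, Matrix.mulVec_mulVec, ← Units.val_mul, ← Units.val_mul]
          congr 2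
          group
        have e2 : cj (h' * g * h'⁻¹) x = x := by
          rw [cj_mul_apply, cj_mul_apply]
          have h3 : cj g (cj h'⁻¹ x) = cj h'⁻¹ x := by
            rcases hx' h'⁻¹ (H.inv_mem hh') with h4 | h4
            · rw [h4, hgx]
            · rw [h4, ← adj_cj h (hI g hg), hgx]
          rw [h3, cj_cj_inv]
        rw [e1, hDinv _ (H.mul_mem (H.mul_mem hh' hg) (H.inv_mem hh')) e2]
        linear_combination D ((h' : Matrix ι ι F) *ᵥ v) * h2
      rw [hM, Submodule.mem_bot] at this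
      rw [eq_neg_of_add_eq_zero_left this]
      ext i
      exact neg_eq_of_two h2 _
    apply Units.ext
    rw [Units.val_one, ← sub_eq_zero]
    apply mulVec_eq_zero_of_rng_bot
    intro v
    rw [Matrix.sub_mulVec, hfix, Matrix.one_mulVec, sub_self]
  -- `H` has at most two elements
  obtain ⟨i, j, hij⟩ := Fintype.exists_pair_of_one_lt_card (show 1 < Fintype.card ι by omega)
  have hline : ∀ v : ι → F, v ≠ 0 → (∀ g ∈ H, (g : Matrix ι ι F) *ᵥ v = v) → False := by
    intro v hv hg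
    rcases hirr (Submodule.span F {v}) (by
      rintro _ ⟨g, hgH, rfl⟩
      rintro _ ⟨w, hw, rfl⟩
      rw [Matrix.toLin'_apply]
      show (g : Matrix ι ι F) *ᵥ w ∈ _
      obtain ⟨c, rfl⟩ := Submodule.mem_span_singleton.1 hw
      rw [Matrix.mulVec_smul, hg g hgH]
      exact hw) with h5 | h5
    · rw [Submodule.span_singleton_eq_bot] at h5
      exact hv h5
    · have h6 := finrank_span_singleton (K := F) hv
      rw [h5, finrank_top, Module.finrank_fintype_fun_eq_card] at h6
      omega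
  by_cases hH1 : ∀ g ∈ H, g = 1
  · refine hline (Pi.single i 1) (fun h0 => ?_) (fun g hg => by rw [hH1 g hg, Units.val_one, Matrix.one_mulVec])
    have := congrFun h0 i
    simp at this
  push Not at hH1
  obtain ⟨g, hg, hg1⟩ := hH1
  have hx' : ∀ h' ∈ H, cj h' x = x ∨ cj h' x = adj (RingEquiv.refl F) (gm Q) x := by
    intro h' hh'
    set y := cj h' x with hy
    have hyK : y ∈ K := cj_mem_of_le hle hh' hx
    have hy1 : y + adj (RingEquiv.refl F) (gm Q) y = t • 1 := by rw [hy, adj_cj h (hI h' hh'), ← map_add, hxt, map_smul, map_one]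
    have hyn : y * adj (RingEquiv.refl F) (gm Q) y = n • 1 := by rw [hy, adj_cj h (hI h' hh'), ← map_mul, hxn, map_smul, map_one]
    have hadx : adj (RingEquiv.refl F) (gm Q) x = t • 1 - x := by rw [← hxt]; abel
    have hady : adj (RingEquiv.refl F) (gm Q) y = t • 1 - y := by rw [← hy1]; abel
    have h3 : (y - x) * (y - adj (RingEquiv.refl F) (gm Q) x) = 0 := by
      have e1 : (y - x) * (y - adj (RingEquiv.refl F) (gm Q) x) = y * y - y * adj (RingEquiv.refl F) (gm Q) x - x * y + x * adj (RingEquiv.refl F) (gm Q) x := by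
        rw [sub_mul, mul_sub, mul_sub]; abel
      rw [e1, hxn, ← hyn, hady, hadx, mul_sub, mul_sub, hK.comm x hx y hyK]
      abel
    rcases field_mul_eq_zero hK (K.sub_mem hyK hx) (K.sub_mem hyK (hA x hx)) h3 with h4 | h4
    · exact Or.inl (sub_eq_zero.1 h4)
    · exact Or.inr (sub_eq_zero.1 h4)
  have hprod : ∀ g' ∈ H, g' ≠ 1 → ∀ g ∈ H, g ≠ 1 → g' * g = 1 := by
    intro g' hg' hg'1 g hg hg1
    apply htriv _ (H.mul_mem hg' hg)
    rw [cj_mul_apply]
    rcases hx' g hg with h3 | h3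
    · exact absurd (htriv g hg h3) hg1
    rcases hx' g' hg' with h4 | h4
    · exact absurd (htriv g' hg' h4) hg'1
    rw [h3, ← adj_cj h (hI g' hg'), h4, adj_adj h]
  have hgg : g * g = 1 := hprod g hg hg1 g hg hg1
  have hall : ∀ g' ∈ H, g' = 1 ∨ g' = g := by
    intro g' hg'
    by_cases h3 : g' = 1
    · exact Or.inl h3
    · right
      have h4 := hprod g' hg' h3 g hg hg1
      rw [← hgg] at h4
      exact mul_right_cancel h4
  by_cases hv : ∃ v : ι → F, v + (g : Matrix ι ι F) *ᵥ v ≠ 0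
  · obtain ⟨v, hv⟩ := hv
    refine hline _ hv ?_
    intro g' hg'
    rcases hall g' hg' with rfl | rfl
    · rw [Units.val_one, Matrix.one_mulVec]
    · rw [Matrix.mulVec_add, Matrix.mulVec_mulVec, ← Units.val_mul, hgg, Units.val_one, Matrix.one_mulVec, add_comm]
  · push Not at hv
    apply hg1
    apply Units.ext
    rw [Units.val_one, ← sub_eq_zero]
    apply mulVec_eq_zero_of_rng_bot
    intro v
    rw [Matrix.sub_mulVec, Matrix.one_mulVec]
    have h3 := hv v
    rw [add_comm] at h3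
    rw [eq_neg_of_add_eq_zero_left h3]
    ext i
    rw [Pi.sub_apply, Pi.neg_apply, Pi.zero_apply]
    linear_combination -(v i) * h2

/-- Adjoint closed fields. -/
theorem ocase_field (hQ : IsNondegenerateQuadraticForm Q) {H : Subgroup (GL ι F)} (hH : H ≤ isometryGroup F Q)
    (hirr : ActsIrreducibly (matrixSet H)) (hn : 2 ≤ Fintype.card ι) {r : ℕ}
    {K : Subalgebra F (Matrix ι ι F)} (hr : r.Prime) (hrn : r ∣ Fintype.card ι) (hK : IsFieldSubalgebra r K)
    (hle : H ≤ subalgebraNormalizer K) (hA : AdjClosed (RingEquiv.refl F) (gm Q) K) : OCase Q H := by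
  haveI : Nonempty ι := Fintype.card_pos_iff.1 (by omega)
  rcases field_dich (rfQ hQ) hr hK hA with hsa | ⟨hr2, hscal, x, t, n, hx, hxa, hxt, hxn, hgen⟩
  · by_cases h2 : r = 2
    · exact OCase.sa r K hr hrn (Or.inl h2) hK ((selfAdj_iff hQ).2 hsa) hle
    · by_cases h3 : r = Fintype.card ι
      · subst h3
        exact ocase_full hQ hH hirr (hr.eq_two_or_odd'.resolve_left h2) hr hK hle hsa
      · exact OCase.sa r K hr hrn (Or.inr h3) hK ((selfAdj_iff hQ).2 hsa) hle
  · subst hr2
    refine OCase.her K hrn hK ?_ ?_ (her_sim hQ hH hirr hn hK hle hA hscal hx hxt hxn hgen) hle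
    · rw [polar_eq hQ]; exact isAdjointClosedFor (rfQ hQ) hA
    · intro hself
      exact hxa ((selfAdj_iff hQ).1 hself x hx)

/-- Adjoint closed commutative algebras. -/
theorem ocase_comm (hQ : IsNondegenerateQuadraticForm Q) {H : Subgroup (GL ι F)} (hH : H ≤ isometryGroup F Q)
    (hirr : ActsIrreducibly (matrixSet H)) (hn : 2 ≤ Fintype.card ι)
    {E : Subalgebra F (Matrix ι ι F)} (hE : H ≤ subalgebraNormalizer E)
    (hEa : AdjClosed (RingEquiv.refl F) (gm Q) E) (hcomm : ∀ x ∈ E, ∀ y ∈ E, x * y = y * x) (hne : E ≠ ⊥) : OCase Q H := by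
  haveI : Nonempty ι := Fintype.card_pos_iff.1 (by omega)
  have hI : ∀ g ∈ H, IsIso (RingEquiv.refl F) (gm Q) g := fun g hg => isoQ hQ (hH hg)
  rcases comm_cases hirr hE hcomm with h4 | h4
  · obtain ⟨t, e, ht, he, hprim, hall, hp⟩ := h4
    obtain ⟨t', e', hf⟩ := exists_FIdem (rfQ hQ) hI hirr hEa hcomm ht he hprim hall hp
    exact ocase_idem hQ hH hirr hf
  · obtain ⟨r, K, hr, hrn, -, hK, hK'⟩ := exists_prime_subfield' hcomm h4 hne
    exact ocase_field hQ hH hirr hn hr hrn hK (le_normalizer_of_pow hE hK') (hEa.of_pow (rfQ hQ) hK')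

end ocase

end Cfsg.Agent.Lib.AschO
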