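import Cfsg.Agent.Lib.AschO2

/-!
Aschbacher's theorem for the orthogonal groups: subfields and tensor products.
-/

set_option autoImplicit false
set_option linter.style.haveILetI false
set_option linter.unusedVariables false
set_option linter.unusedSectionVars false

namespace Cfsg.Agent.Lib.AschO

open Cfsg Cfsg.Geo Cfsg.Agent.Lib.AschMU Cfsg.Agent.Lib.AschCore Cfsg.Agent.Lib.AschField Cfsg.Agent.Lib.AschAlg
  Cfsg.Agent.Lib.AschGroup Cfsg.Agent.Lib.AschGood Cfsg.Agent.Lib.AschAdj Cfsg.Agent.Lib.AschSp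
open Cfsg.Agent.Lib.AschDescent (env mem_env)
open scoped Matrix MatrixGroups Kronecker

variable {ι : Type} [Fintype ι] [DecidableEq ι] {F : Type*} [Field F] [Fintype F] {Q : (ι → F) → F}

/-- Realisable over a proper subfield. -/
theorem ocase_real (hQ : IsNondegenerateQuadraticForm Q) (hn : 2 ≤ Fintype.card ι) {L H : Subgroup (GL ι F)}
    (hL : ActsAbsolutelyIrreducibly (matrixSet L)) (hLI : L ≤ isometryGroup F Q)
    (hnorm : NormBy H L) {F₀ : Subfield F} (hF₀ : F₀ ≠ ⊤) (hreal : RealisableOver F₀ (matrixSet L)) : OCase Q H := by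
  haveI : Nonempty ι := Fintype.card_pos_iff.1 (by omega)
  have h := rfQ hQ
  obtain ⟨F₁, r, hle, hr, hc⟩ := Cfsg.Agent.Lib.AschSubfield.exists_prime_index F₀ hF₀
  obtain ⟨B, hB⟩ := Cfsg.Agent.Lib.AschSubfield.realisableOver_mono hle hreal
  obtain ⟨ζ, hζ, hζF⟩ := rational_gram h hL (fun g hg => isoQ hQ (hLI hg)) hB
  refine OCase.rat F₁ r B⁻¹ ζ hr hc hζ ?_ (AschDescent.le_subfieldSubgroup hL hnorm hB)
  have hpolar : ∀ u v, (∀ i, u i ∈ F₁) → (∀ i, v i ∈ F₁) →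
      ζ * QuadraticMap.polar Q (((B⁻¹ : GL ι F) : Matrix ι ι F) *ᵥ u) (((B⁻¹ : GL ι F) : Matrix ι ι F) *ᵥ v) ∈ F₁ := by
    intro u v hu hv
    rw [polar_eq hQ, bf_gr, bf_rf]
    have h1 : ζ * (u ⬝ᵥ (gr (RingEquiv.refl F) (gm Q) B⁻¹ *ᵥ v)) = u ⬝ᵥ ((ζ • gr (RingEquiv.refl F) (gm Q) B⁻¹) *ᵥ v) := by
      rw [Matrix.smul_mulVec, dotProduct_smul, smul_eq_mul]
    rw [h1]
    exact dot_mem F₁ u v _ hu (fun i j => hζF i j) hv
  by_cases h2 : (2 : F) = 0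
  swap
  · intro u hu
    show ζ * Q _ ∈ F₁
    have h3 := hpolar u u hu hu
    rw [Q_self hQ] at h3
    have h4 : ((2 : F))⁻¹ ∈ F₁ := F₁.inv_mem (by
      have : ((1 : F) + 1) ∈ F₁ := F₁.add_mem F₁.one_mem F₁.one_mem
      rwa [one_add_one_eq_two] at this)
    have h5 := F₁.mul_mem h4 h3
    rwa [show (2 : F)⁻¹ * (ζ * (2 * Q (((B⁻¹ : GL ι F) : Matrix ι ι F) *ᵥ u))) = ζ * Q (((B⁻¹ : GL ι F) : Matrix ι ι F) *ᵥ u) by
      field_simp] at h5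
  -- characteristic two
  obtain ⟨ρ, hρ⟩ := exists_frob F₁
  set P : GL ι F := B⁻¹ with hPdef
  have hPB : B = P⁻¹ := by rw [hPdef, inv_inv]
  let tw : (ι → F) → (ι → F) := fun v => (P : Matrix ι ι F) *ᵥ (fun i => ρ.symm ((((P⁻¹ : GL ι F) : Matrix ι ι F) *ᵥ v) i))
  have htw_add : ∀ u v, tw (u + v) = tw u + tw v := by
    intro u v
    show (P : Matrix ι ι F) *ᵥ _ = (P : Matrix ι ι F) *ᵥ _ + (P : Matrix ι ι F) *ᵥ _
    rw [← Matrix.mulVec_add]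
    congr 1
    ext i
    rw [Matrix.mulVec_add, Pi.add_apply, Pi.add_apply, map_add]
  have htw_smul : ∀ (c : F) v, tw (c • v) = ρ.symm c • tw v := by
    intro c v
    show (P : Matrix ι ι F) *ᵥ _ = ρ.symm c • ((P : Matrix ι ι F) *ᵥ _)
    rw [← Matrix.mulVec_smul]
    congr 1
    ext i
    rw [Matrix.mulVec_smul, Pi.smul_apply, Pi.smul_apply, smul_eq_mul, smul_eq_mul, map_mul]
  let R : (ι → F) → F := fun v => ζ⁻¹ * ρ (ζ * Q (tw v))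
  have hRs : ∀ (c : F) v, R (c • v) = c ^ 2 * R v := by
    intro c v
    show ζ⁻¹ * ρ (ζ * Q (tw (c • v))) = c ^ 2 * (ζ⁻¹ * ρ (ζ * Q (tw v)))
    rw [htw_smul, hQ.smul, ← mul_assoc, mul_comm ζ, mul_assoc, map_mul, map_pow, RingEquiv.apply_symm_apply]; ring
  have hRp : ∀ u v, QuadraticMap.polar Q u v = QuadraticMap.polar R u v := by
    intro u v
    have e1 : QuadraticMap.polar R u v = ζ⁻¹ * ρ (ζ * QuadraticMap.polar Q (tw u) (tw v)) := by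
      show ζ⁻¹ * ρ (ζ * Q (tw (u + v))) - ζ⁻¹ * ρ (ζ * Q (tw u)) - ζ⁻¹ * ρ (ζ * Q (tw v)) = _
      unfold QuadraticMap.polar
      rw [htw_add]
      simp only [mul_sub, map_sub]
    rw [e1, polar_eq hQ]
    have e2 : ζ * bf (RingEquiv.refl F) (gm Q) (tw u) (tw v) =
        (fun i => ρ.symm ((((P⁻¹ : GL ι F) : Matrix ι ι F) *ᵥ u) i)) ⬝ᵥ ((ζ • gr (RingEquiv.refl F) (gm Q) P) *ᵥ
          (fun i => ρ.symm ((((P⁻¹ : GL ι F) : Matrix ι ι F) *ᵥ v) i))) := by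
      show ζ * bf (RingEquiv.refl F) (gm Q) ((P : Matrix ι ι F) *ᵥ _) ((P : Matrix ι ι F) *ᵥ _) = _
      rw [bf_gr, bf_rf, Matrix.smul_mulVec, dotProduct_smul, smul_eq_mul]
    rw [e2]
    have e3 : ρ ((fun i => ρ.symm ((((P⁻¹ : GL ι F) : Matrix ι ι F) *ᵥ u) i)) ⬝ᵥ ((ζ • gr (RingEquiv.refl F) (gm Q) P) *ᵥ
          (fun i => ρ.symm ((((P⁻¹ : GL ι F) : Matrix ι ι F) *ᵥ v) i)))) =
        (((P⁻¹ : GL ι F) : Matrix ι ι F) *ᵥ u) ⬝ᵥ ((ζ • gr (RingEquiv.refl F) (gm Q) P) *ᵥ (((P⁻¹ : GL ι F) : Matrix ι ι F) *ᵥ v)) := by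
      simp only [dotProduct, Matrix.mulVec, map_sum, map_mul, Matrix.smul_apply, smul_eq_mul]
      refine Finset.sum_congr rfl fun i _ => ?_
      simp only [RingEquiv.apply_symm_apply]
      congr 1
      refine Finset.sum_congr rfl fun j _ => ?_
      rw [← map_mul, (hρ _).1 (hζF i j)]
    rw [e3]
    have e4 : (((P⁻¹ : GL ι F) : Matrix ι ι F) *ᵥ u) ⬝ᵥ ((ζ • gr (RingEquiv.refl F) (gm Q) P) *ᵥ (((P⁻¹ : GL ι F) : Matrix ι ι F) *ᵥ v)) =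
        ζ * bf (RingEquiv.refl F) (gm Q) u v := by
      rw [Matrix.smul_mulVec, dotProduct_smul, smul_eq_mul, ← bf_rf, ← bf_gr, gl_mulVec_inv, gl_mulVec_inv]
    rw [e4, ← mul_assoc, inv_mul_cancel₀ hζ, one_mul]
  have hRI : ∀ g ∈ L, ∀ v, R ((g : Matrix ι ι F) *ᵥ v) = R v := by
    intro g hg v
    have hrat : ∀ i j, (((P⁻¹ : GL ι F) : Matrix ι ι F) * (g : Matrix ι ι F) * (P : Matrix ι ι F)) i j ∈ F₁ := by
      intro i j
      have := hB (g : Matrix ι ι F) ⟨g, hg, rfl⟩ i j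
      rwa [hPB, inv_inv] at this
    have e1 : tw ((g : Matrix ι ι F) *ᵥ v) = (g : Matrix ι ι F) *ᵥ tw v := by
      show (P : Matrix ι ι F) *ᵥ _ = (g : Matrix ι ι F) *ᵥ ((P : Matrix ι ι F) *ᵥ _)
      have e2 : ∀ w : ι → F, (g : Matrix ι ι F) *ᵥ ((P : Matrix ι ι F) *ᵥ w) =
          (P : Matrix ι ι F) *ᵥ ((((P⁻¹ : GL ι F) : Matrix ι ι F) * (g : Matrix ι ι F) * (P : Matrix ι ι F)) *ᵥ w) := by
        intro w
        simp only [Matrix.mulVec_mulVec, ← mul_assoc, gl_mul_inv, one_mul]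
      rw [e2]
      congr 1
      have e3 : ((P⁻¹ : GL ι F) : Matrix ι ι F) *ᵥ ((g : Matrix ι ι F) *ᵥ v) =
          (((P⁻¹ : GL ι F) : Matrix ι ι F) * (g : Matrix ι ι F) * (P : Matrix ι ι F)) *ᵥ (((P⁻¹ : GL ι F) : Matrix ι ι F) *ᵥ v) := by
        simp only [Matrix.mulVec_mulVec, mul_assoc, gl_mul_inv, mul_one]
      rw [e3]
      revert hrat
      generalize ((P⁻¹ : GL ι F) : Matrix ι ι F) * (g : Matrix ι ι F) * (P : Matrix ι ι F) = Y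
      generalize ((P⁻¹ : GL ι F) : Matrix ι ι F) *ᵥ v = w
      intro hrat
      ext i
      simp only [Matrix.mulVec, dotProduct, map_sum, map_mul]
      refine Finset.sum_congr rfl fun j _ => ?_
      congr 1
      rw [← (hρ _).1 (hrat i j), RingEquiv.symm_apply_apply, (hρ _).1 (hrat i j)]
    show ζ⁻¹ * ρ (ζ * Q (tw _)) = ζ⁻¹ * ρ (ζ * Q (tw v))
    rw [e1, isQ (hLI hg)]
  have hQR := quad_uniq hQ.smul hRs hRp hL.1 hn (fun g hg v => isQ (hLI hg) v) hRI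
  intro u hu
  show ζ * Q _ ∈ F₁
  rw [hρ]
  have e1 : tw ((P : Matrix ι ι F) *ᵥ u) = (P : Matrix ι ι F) *ᵥ u := by
    show (P : Matrix ι ι F) *ᵥ _ = _
    rw [gl_inv_mulVec]
    congr 1
    ext i
    conv_lhs => rw [← (hρ _).1 (hu i), RingEquiv.symm_apply_apply]
  have e2 : Q ((P : Matrix ι ι F) *ᵥ u) = ζ⁻¹ * ρ (ζ * Q ((P : Matrix ι ι F) *ᵥ u)) := by
    conv_lhs => rw [hQR]
    show ζ⁻¹ * ρ (ζ * Q (tw _)) = _
    rw [e1]
  conv_rhs => rw [e2]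
  rw [← mul_assoc, mul_inv_cancel₀ hζ, one_mul]

/-- The pure tensor vector. -/
lemma kron_pure {d e : ℕ} (ρ : ι ≃ Fin d × Fin e) (A : Matrix (Fin d) (Fin d) F) (B : Matrix (Fin e) (Fin e) F)
    (x : Fin d → F) (y : Fin e → F) :
    kronL ρ A B *ᵥ ((fun a : Fin d × Fin e => x a.1 * y a.2) ∘ ρ) = (fun a : Fin d × Fin e => (A *ᵥ x) a.1 * (B *ᵥ y) a.2) ∘ ρ := by
  ext i
  simp only [Matrix.mulVec, dotProduct, Function.comp_apply]
  rw [← Equiv.sum_comp ρ.symm, Fintype.sum_prod_type, Finset.sum_mul_sum]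
  refine Finset.sum_congr rfl fun j _ => Finset.sum_congr rfl fun l _ => ?_
  simp only [Equiv.apply_symm_apply, kronL, Matrix.reindex_apply, Equiv.symm_symm, Matrix.submatrix_apply, Matrix.kroneckerMap_apply]
  ring

lemma dot_pure {d e : ℕ} (ρ : ι ≃ Fin d × Fin e) (x x' : Fin d → F) (y y' : Fin e → F) :
    ((fun a : Fin d × Fin e => x a.1 * y a.2) ∘ ρ) ⬝ᵥ ((fun a : Fin d × Fin e => x' a.1 * y' a.2) ∘ ρ) = (x ⬝ᵥ x') * (y ⬝ᵥ y') := by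
  simp only [dotProduct, Function.comp_apply]
  rw [← Equiv.sum_comp ρ.symm, Fintype.sum_prod_type, Finset.sum_mul_sum]
  refine Finset.sum_congr rfl fun j _ => Finset.sum_congr rfl fun l _ => ?_
  simp only [Equiv.apply_symm_apply]
  ring

/-- `Q` vanishes on pure tensors when both factors are alternating. -/
lemma pure_zero (hQ : IsNondegenerateQuadraticForm Q) {H : Subgroup (GL ι F)} (hH : H ≤ isometryGroup F Q)
    (hirr : ActsIrreducibly (matrixSet H)) (hn : 2 ≤ Fintype.card ι) {d e : ℕ} (hd : 2 ≤ d) (he : 2 ≤ e) {ρ : ι ≃ Fin d × Fin e}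
    {P : GL ι F} (hle : H ≤ tensorProductSubgroup d e ρ P) {G₁ : Matrix (Fin d) (Fin d) F} {G₂ : Matrix (Fin e) (Fin e) F}
    (hG : gr (RingEquiv.refl F) (gm Q) P = kronL ρ G₁ G₂) (h1 : IsUnit G₁) (h1' : IsUnit G₂) (hT₁ : G₁ᵀ = -G₁) (hT₂ : G₂ᵀ = -G₂)
    (hd₁ : ∀ i, G₁ i i = 0) (hd₂ : ∀ i, G₂ i i = 0) (x₁ : Fin d → F) (x₂ : Fin e → F) :
    Q ((P : Matrix ι ι F) *ᵥ ((fun a : Fin d × Fin e => x₁ a.1 * x₂ a.2) ∘ ρ)) = 0 := by
  classical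
  haveI : Nonempty ι := Fintype.card_pos_iff.1 (by omega)
  by_cases h2 : (2 : F) = 0
  swap
  · have h3 := Q_self hQ ((P : Matrix ι ι F) *ᵥ ((fun a : Fin d × Fin e => x₁ a.1 * x₂ a.2) ∘ ρ))
    rw [polar_eq hQ, bf_gr, hG, bf_rf, kron_pure, dot_pure, alt_of_diag hT₁ hd₁, zero_mul] at h3
    exact (mul_eq_zero.1 h3.symm).resolve_left h2
  have hT₁' : G₁ᵀ = G₁ := by rw [hT₁, neg_mat_of_two h2]
  obtain ⟨A, hA⟩ := exists_half h2 hT₁' hd₁
  let R : (ι → F) → F := fun v => (((P⁻¹ : GL ι F) : Matrix ι ι F) *ᵥ v) ⬝ᵥ (kronL ρ A G₂ *ᵥ (((P⁻¹ : GL ι F) : Matrix ι ι F) *ᵥ v))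
  have hRs : ∀ (c : F) v, R (c • v) = c ^ 2 * R v := by
    intro c v
    show (((P⁻¹ : GL ι F) : Matrix ι ι F) *ᵥ (c • v)) ⬝ᵥ (kronL ρ A G₂ *ᵥ (((P⁻¹ : GL ι F) : Matrix ι ι F) *ᵥ (c • v))) = _
    rw [Matrix.mulVec_smul, Matrix.mulVec_smul, dotProduct_smul, smul_dotProduct, smul_eq_mul, smul_eq_mul]
    show _ = c ^ 2 * ((((P⁻¹ : GL ι F) : Matrix ι ι F) *ᵥ v) ⬝ᵥ (kronL ρ A G₂ *ᵥ (((P⁻¹ : GL ι F) : Matrix ι ι F) *ᵥ v)))
    ring
  have hMT : kronL ρ A G₂ + (kronL ρ A G₂)ᵀ = kronL ρ G₁ G₂ := by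
    rw [transpose_kronL, hT₂, neg_mat_of_two h2, ← kronL_add, hA]
  have hRp : ∀ u v, QuadraticMap.polar Q u v = QuadraticMap.polar R u v := by
    intro u v
    have e1 : QuadraticMap.polar Q u v = (((P⁻¹ : GL ι F) : Matrix ι ι F) *ᵥ u) ⬝ᵥ (kronL ρ G₁ G₂ *ᵥ (((P⁻¹ : GL ι F) : Matrix ι ι F) *ᵥ v)) := by
      rw [← hG, ← bf_rf, ← bf_gr, gl_mulVec_inv, gl_mulVec_inv, polar_eq hQ]
    rw [e1]
    show _ = (((P⁻¹ : GL ι F) : Matrix ι ι F) *ᵥ (u + v)) ⬝ᵥ (kronL ρ A G₂ *ᵥ (((P⁻¹ : GL ι F) : Matrix ι ι F) *ᵥ (u + v))) -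
      (((P⁻¹ : GL ι F) : Matrix ι ι F) *ᵥ u) ⬝ᵥ (kronL ρ A G₂ *ᵥ (((P⁻¹ : GL ι F) : Matrix ι ι F) *ᵥ u)) -
      (((P⁻¹ : GL ι F) : Matrix ι ι F) *ᵥ v) ⬝ᵥ (kronL ρ A G₂ *ᵥ (((P⁻¹ : GL ι F) : Matrix ι ι F) *ᵥ v))
    rw [Matrix.mulVec_add]
    generalize ((P⁻¹ : GL ι F) : Matrix ι ι F) *ᵥ u = u'
    generalize ((P⁻¹ : GL ι F) : Matrix ι ι F) *ᵥ v = v'
    rw [Matrix.mulVec_add, add_dotProduct, dotProduct_add, dotProduct_add, ← hMT, Matrix.add_mulVec, dotProduct_add,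
      Matrix.mulVec_transpose, dotProduct_comm u' (v' ᵥ* kronL ρ A G₂), ← Matrix.dotProduct_mulVec]
    ring
  have hRI : ∀ g ∈ H, ∀ v, R ((g : Matrix ι ι F) *ᵥ v) = R v := by
    intro g hg v
    obtain ⟨a, b, c, hgab, hc, ha, hb⟩ := tensor_elt (rfQ hQ) (by omega) (by omega) hG h1 h1' (hle hg) (isoQ hQ (hH hg))
    set w := ((P⁻¹ : GL ι F) : Matrix ι ι F) *ᵥ v with hw
    have e1 : ((P⁻¹ : GL ι F) : Matrix ι ι F) *ᵥ ((g : Matrix ι ι F) *ᵥ v) = kronL ρ (a : Matrix (Fin d) (Fin d) F) b *ᵥ w := by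
      rw [hw, Matrix.mulVec_mulVec, Matrix.mulVec_mulVec, ← kronU_val, ← Units.val_mul, ← Units.val_mul, hgab]
      congr 2; group
    show (((P⁻¹ : GL ι F) : Matrix ι ι F) *ᵥ _) ⬝ᵥ (kronL ρ A G₂ *ᵥ (((P⁻¹ : GL ι F) : Matrix ι ι F) *ᵥ _)) = w ⬝ᵥ (kronL ρ A G₂ *ᵥ w)
    rw [e1]
    have e2 : (kronL ρ (a : Matrix (Fin d) (Fin d) F) b *ᵥ w) ⬝ᵥ (kronL ρ A G₂ *ᵥ (kronL ρ (a : Matrix (Fin d) (Fin d) F) b *ᵥ w)) =
        w ⬝ᵥ ((kronL ρ ((a : Matrix (Fin d) (Fin d) F)ᵀ * A * a) (c⁻¹ • G₂)) *ᵥ w) := by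
      rw [← hb, ← kronL_mul, ← kronL_mul, ← transpose_kronL, dotProduct_comm, Matrix.dotProduct_mulVec, ← Matrix.mulVec_transpose,
        Matrix.mulVec_mulVec, Matrix.mulVec_mulVec, dotProduct_comm]
    rw [e2]
    have hD : ∀ S : Matrix (Fin d) (Fin d) F, Sᵀ = S → w ⬝ᵥ (kronL ρ S G₂ *ᵥ w) = 0 := by
      intro S hS
      apply alt_of_diag
      · rw [transpose_kronL, hS, hT₂, neg_mat_of_two h2, neg_mat_of_two h2]
      · intro i
        simp only [kronL, Matrix.reindex_apply, Equiv.symm_symm, Matrix.submatrix_apply, Matrix.kroneckerMap_apply, hd₂, mul_zero]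
    have hsym : ((a : Matrix (Fin d) (Fin d) F)ᵀ * A * (a : Matrix (Fin d) (Fin d) F) - c • A)ᵀ =
        (a : Matrix (Fin d) (Fin d) F)ᵀ * A * (a : Matrix (Fin d) (Fin d) F) - c • A := by
      rw [Matrix.transpose_sub, Matrix.transpose_mul, Matrix.transpose_mul, Matrix.transpose_transpose, Matrix.transpose_smul]
      have e4 : Aᵀ = G₁ - A := by rw [← hA]; abel
      rw [e4]
      calc (a : Matrix (Fin d) (Fin d) F)ᵀ * ((G₁ - A) * (a : Matrix (Fin d) (Fin d) F)) - c • (G₁ - A)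
          = ((a : Matrix (Fin d) (Fin d) F)ᵀ * G₁ * (a : Matrix (Fin d) (Fin d) F) - c • G₁) -
              ((a : Matrix (Fin d) (Fin d) F)ᵀ * A * (a : Matrix (Fin d) (Fin d) F) - c • A) := by
            rw [sub_mul, mul_sub, smul_sub, mul_assoc, mul_assoc]; abel
        _ = -((a : Matrix (Fin d) (Fin d) F)ᵀ * A * (a : Matrix (Fin d) (Fin d) F) - c • A) := by rw [ha, sub_self, zero_sub]
        _ = _ := neg_mat_of_two h2 _
    have e3 : (a : Matrix (Fin d) (Fin d) F)ᵀ * A * a = c • A + ((a : Matrix (Fin d) (Fin d) F)ᵀ * A * a - c • A) := by abel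
    rw [e3, kronL_add, Matrix.add_mulVec, dotProduct_add, kronL_smul, kronL_smul, smul_kronL, smul_smul, inv_mul_cancel₀ hc, one_smul,
      Matrix.smul_mulVec, dotProduct_smul, hD _ hsym, smul_zero, add_zero]
  have hQR := quad_uniq hQ.smul hRs hRp hirr hn (fun g hg v => isQ (hH hg) v) hRI
  rw [hQR]
  show (((P⁻¹ : GL ι F) : Matrix ι ι F) *ᵥ _) ⬝ᵥ (kronL ρ A G₂ *ᵥ (((P⁻¹ : GL ι F) : Matrix ι ι F) *ᵥ _)) = 0
  rw [gl_inv_mulVec, kron_pure, dot_pure, alt_of_diag hT₂ hd₂, mul_zero]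

/-- **The tensor decompositions.** -/
theorem ocase_tensor' (hQ : IsNondegenerateQuadraticForm Q) {H : Subgroup (GL ι F)} (hH : H ≤ isometryGroup F Q)
    (hirr : ActsIrreducibly (matrixSet H)) (hn : 2 ≤ Fintype.card ι) {d e : ℕ} (hd : 2 ≤ d) (hde : d ≤ e) {ρ : ι ≃ Fin d × Fin e}
    {P : GL ι F} (hle : H ≤ tensorProductSubgroup d e ρ P) {G₁ : Matrix (Fin d) (Fin d) F} {G₂ : Matrix (Fin e) (Fin e) F}
    (hG : gr (RingEquiv.refl F) (gm Q) P = kronL ρ G₁ G₂) (h1 : IsUnit G₁) (h1' : IsUnit G₂) : OCase Q H := by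
  classical
  haveI : Nonempty ι := Fintype.card_pos_iff.1 (by omega)
  have hI : ∀ g ∈ H, IsIso (RingEquiv.refl F) (gm Q) g := fun g hg => isoQ hQ (hH hg)
  have hrf := ((rfQ hQ).gr P).refl
  rw [hG, map_rf] at hrf
  have hs := signs (Or.inl rfl) (by omega) (by omega) h1 h1' hrf
  rw [one_smul, neg_smul, one_smul] at hs
  by_cases h2 : (2 : F) = 0
  · have hs' : G₁ᵀ = G₁ ∧ G₂ᵀ = G₂ := by
      rcases hs with ⟨a, b⟩ | ⟨a, b⟩
      · exact ⟨a, b⟩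
      · exact ⟨by rw [a, neg_mat_of_two h2], by rw [b, neg_mat_of_two h2]⟩
    have hdiag₂ := diag_zero (rfQ hQ) h2 (exists_sqrt h2) hI hirr hd (by omega) hle hG h1 h1' hs'.2
    have hdiag₁ : ∀ k, G₁ k k = 0 := by
      refine diag_zero (rfQ hQ) h2 (exists_sqrt h2) hI hirr (ρ := ρ.trans (Equiv.prodComm _ _)) (P := P) (by omega) hd ?_ ?_ h1' h1 hs'.1
      · rw [← tensorProductSubgroup_swap]; exact hle
      · rw [hG, kronL_swap]
    have hT₁ : G₁ᵀ = -G₁ := by rw [hs'.1, neg_mat_of_two h2]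
    have hT₂ : G₂ᵀ = -G₂ := by rw [hs'.2, neg_mat_of_two h2]
    refine OCase.talt d e ρ P _ _ hd hde (symp_form h1 hT₁ hdiag₁) (symp_form h1' hT₂ hdiag₂) ?_
      (pure_zero hQ hH hirr hn hd (by omega) hle hG h1 h1' hT₁ hT₂ hdiag₁ hdiag₂) hle
    rw [polar_eq hQ]; exact tensor_structure hG
  · have hskew : ∀ {k : ℕ} {X : Matrix (Fin k) (Fin k) F}, Xᵀ = -X → ∀ i, X i i = 0 := by
      intro k X hX i
      have h3 : X i i = - X i i := congrFun (congrFun hX i) i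
      have h4 : (2 : F) * X i i = 0 := by linear_combination h3
      exact (mul_eq_zero.1 h4).resolve_left h2
    rcases hs with ⟨a, b⟩ | ⟨a, b⟩
    · -- symmetric factors
      by_cases he2 : e = 2
      · subst he2
        obtain ⟨E, hE, hEa, hcomm, hne⟩ := tensor_two (rfQ hQ) h2 hI (by omega) hle hG h1 h1' b
        exact ocase_comm hQ hH hirr hn hE hEa hcomm hne
      by_cases hd2 : d = 2
      · subst hd2
        obtain ⟨E, hE, hEa, hcomm, hne⟩ := tensor_two (rfQ hQ) h2 hI (d := e) (by omega) (ρ := ρ.trans (Equiv.prodComm _ _)) (P := P)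
          (by rw [← tensorProductSubgroup_swap]; exact hle) (by rw [hG, kronL_swap]) h1' h1 a
        exact ocase_comm hQ hH hirr hn hE hEa hcomm hne
      refine OCase.tsym d e ρ P _ _ (odd_of_two_ne h2) (by omega) hde (symm_form h1 a) (symm_form h1' b) ?_ hle
      rw [polar_eq hQ]; exact tensor_structure hG
    · refine OCase.talt d e ρ P _ _ hd hde (symp_form h1 a (hskew a)) (symp_form h1' b (hskew b)) ?_
        (pure_zero hQ hH hirr hn hd (by omega) hle hG h1 h1' a b (hskew a) (hskew b)) hle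
      rw [polar_eq hQ]; exact tensor_structure hG

theorem ocase_tensor (hQ : IsNondegenerateQuadraticForm Q) {H : Subgroup (GL ι F)} (hH : H ≤ isometryGroup F Q)
    (hirr : ActsIrreducibly (matrixSet H)) (hn : 2 ≤ Fintype.card ι)
    {A : Subalgebra F (Matrix ι ι F)} {d e : ℕ} (hd : 2 ≤ d) (he : 2 ≤ e)
    (φ : Matrix (Fin d) (Fin d) F ≃ₐ[F] A) (ρ : ι ≃ Fin d × Fin e) (hle : H ≤ subalgebraNormalizer A)
    (hA : AdjClosed (RingEquiv.refl F) (gm Q) A) : OCase Q H := by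
  classical
  haveI : Nonempty ι := Fintype.card_pos_iff.1 (by omega)
  obtain ⟨P, hP, hle'⟩ := exists_tensorProductSubgroup (by omega) φ ρ
  obtain ⟨G₁, G₂, hG, h1, h1'⟩ := tensor_gram (rfQ hQ) hA (by omega) (by omega) φ ρ P hP
  have hHP := hle.trans hle'
  rcases le_total d e with h | h
  · exact ocase_tensor' hQ hH hirr hn hd h hHP hG h1 h1'
  · exact ocase_tensor' hQ hH hirr hn he h (ρ := ρ.trans (Equiv.prodComm _ _)) (P := P)
      (by rw [← tensorProductSubgroup_swap]; exact hHP) (by rw [hG, kronL_swap]) h1' h1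

end Cfsg.Agent.Lib.AschO
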