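import Mathlib

set_option autoImplicit false
set_option linter.unusedSectionVars false

/-!
Three-dimensional nondegenerate symmetric bilinear spaces over the field with three elements have a canonical
orthogonal frame.
-/

namespace Cfsg.Agent.Lib.O33

open Module

variable {F V : Type*} [Field F] [Fintype F] [AddCommGroup V] [Module F V]

/-- a symmetric bilinear form, as a function -/
structure SB (f : V → V → F) : Prop where
  add_left : ∀ x y z, f (x + y) z = f x z + f y z
  smul_left : ∀ (c : F) (x y : V), f (c • x) y = c * f x y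
  symm : ∀ x y, f x y = f y x

namespace SB
variable {f : V → V → F} (H : SB f)
include H

theorem add_right (x y z : V) : f x (y + z) = f x y + f x z := by
  rw [H.symm, H.add_left, H.symm y, H.symm z]

theorem smul_right (c : F) (x y : V) : f x (c • y) = c * f x y := by
  rw [H.symm, H.smul_left, H.symm]

theorem zero_left (y : V) : f 0 y = 0 := by
  have := H.smul_left 0 0 y; simpa using this

theorem zero_right (x : V) : f x 0 = 0 := by rw [H.symm, H.zero_left]

theorem neg_left (x y : V) : f (-x) y = - f x y := by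
  have := H.smul_left (-1) x y; simpa using this

theorem neg_right (x y : V) : f x (-y) = - f x y := by rw [H.symm, H.neg_left, H.symm]

theorem sub_left (x y z : V) : f (x - y) z = f x z - f y z := by
  rw [sub_eq_add_neg, H.add_left, H.neg_left, sub_eq_add_neg]

theorem sub_right (x y z : V) : f x (y - z) = f x y - f x z := by
  rw [sub_eq_add_neg, H.add_right, H.neg_right, sub_eq_add_neg]

theorem sum_left {κ : Type*} (s : Finset κ) (u : κ → V) (z : V) :
    f (∑ i ∈ s, u i) z = ∑ i ∈ s, f (u i) z := by
  classical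
  induction s using Finset.induction_on with
  | empty => simpa using H.zero_left z
  | insert a s ha ih => rw [Finset.sum_insert ha, Finset.sum_insert ha, H.add_left, ih]

end SB

theorem sq_one (hq : Fintype.card F = 3) {a : F} (ha : a ≠ 0) : a * a = 1 := by
  have h1 := FiniteField.pow_card_sub_one_eq_one a ha
  rw [hq] at h1
  linear_combination h1

theorem three_zero (hq : Fintype.card F = 3) : (3 : F) = 0 := by
  have h1 : ((Fintype.card F : ℕ) : F) = 0 := Nat.cast_card_eq_zero F
  rw [hq] at h1; exact_mod_cast h1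

theorem two_ne_zero' (hq : Fintype.card F = 3) : (2 : F) ≠ 0 := by
  intro h
  have := three_zero hq
  have h1 : (1 : F) = 0 := by linear_combination this - h
  exact one_ne_zero h1

theorem pm_one (hq : Fintype.card F = 3) {a : F} (ha : a ≠ 0) : a = 1 ∨ a = -1 := by
  have h1 := sq_one hq ha
  have h2 : (a - 1) * (a + 1) = 0 := by linear_combination h1
  rcases mul_eq_zero.1 h2 with h | h
  · left; linear_combination h
  · right; linear_combination h

/-- expansion in a frame -/
theorem frame_exp (hq : Fintype.card F = 3) {f : V → V → F} (H : SB f) {W : Submodule F V}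
    (hW : finrank F W = 3) {ε : F} (hε : ε ≠ 0) {e : Fin 3 → V} (he : ∀ i, e i ∈ W)
    (hg : ∀ i j, f (e i) (e j) = if i = j then ε else 0) :
    ∀ x ∈ W, x = ∑ i, (ε * f x (e i)) • e i := by
  have : FiniteDimensional F W := FiniteDimensional.of_finrank_pos (by omega)
  have hli : LinearIndependent F e := by
    rw [Fintype.linearIndependent_iff]
    intro g hg0 j
    have h1 : f (∑ i, g i • e i) (e j) = 0 := by rw [hg0, H.zero_left]
    rw [H.sum_left] at h1
    simp only [H.smul_left, hg, mul_ite, mul_zero, Finset.sum_ite_eq', Finset.mem_univ, if_true] at h1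
    exact (mul_eq_zero.1 h1).resolve_right hε
  have hspan : Submodule.span F (Set.range e) = W := by
    apply Submodule.eq_of_le_of_finrank_eq
    · rw [Submodule.span_le]
      rintro _ ⟨i, rfl⟩
      exact he i
    · rw [finrank_span_eq_card hli, hW]; simp
  intro x hx
  rw [← hspan, Submodule.mem_span_range_iff_exists_fun] at hx
  obtain ⟨c, rfl⟩ := hx
  refine Finset.sum_congr rfl fun j _ => ?_
  congr 1
  rw [H.sum_left]
  simp only [H.smul_left, hg, mul_ite, mul_zero, Finset.sum_ite_eq', Finset.mem_univ, if_true]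
  linear_combination -c j * sq_one hq hε

/-- existence of the frame -/
theorem exists_frame (hq : Fintype.card F = 3) {f : V → V → F} (H : SB f) {W : Submodule F V}
    (hW : finrank F W = 3) (hnd : ∀ x ∈ W, x ≠ 0 → ∃ y ∈ W, f x y ≠ 0) :
    ∃ ε : F, ε ≠ 0 ∧ ∃ e : Fin 3 → V, (∀ i, e i ∈ W) ∧ ∀ i j, f (e i) (e j) = if i = j then ε else 0 := by
  have : FiniteDimensional F W := FiniteDimensional.of_finrank_pos (by omega)
  let B : LinearMap.BilinForm F W := LinearMap.mk₂ F (fun x y : W => f x y)
    (fun x y z => H.add_left _ _ _) (fun c x y => H.smul_left _ _ _) (fun x y z => H.add_right _ _ _)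
    (fun c x y => H.smul_right _ _ _)
  have hB : LinearMap.IsSymm B := ⟨fun x y => H.symm _ _⟩
  have h2 : Invertible (2 : F) := invertibleOfNonzero (two_ne_zero' hq)
  obtain ⟨b0, hb0⟩ := LinearMap.BilinForm.exists_orthogonal_basis (B := B) hB
  let b : Basis (Fin 3) F W := b0.reindex (finCongr hW)
  have hb : ∀ i j, i ≠ j → f (b i) (b j) = 0 := by
    intro i j hij
    have := (LinearMap.isOrthoᵢ_def.1 hb0) ((finCongr hW).symm i) ((finCongr hW).symm j) (by simpa using hij)
    have e : ∀ i, b i = b0 ((finCongr hW).symm i) := fun i => Basis.reindex_apply _ _ _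
    rw [e, e]
    exact this
  have hbb : ∀ i, f (b i) (b i) ≠ 0 := by
    intro i h0
    obtain ⟨y, hy, hxy⟩ := hnd (b i) (b i).2 (by simpa using b.ne_zero i)
    apply hxy
    have h1 : (⟨y, hy⟩ : W) = ∑ j, b.repr ⟨y, hy⟩ j • b j := (b.sum_repr _).symm
    have h3 : y = ∑ j, b.repr ⟨y, hy⟩ j • (b j : V) := by
      have := congrArg (Submodule.subtype W) h1
      rw [map_sum] at this
      exact this
    rw [h3, H.symm, H.sum_left]
    apply Finset.sum_eq_zero
    intro j _
    rw [H.smul_left]
    by_cases hij : j = i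
    · rw [hij, h0, mul_zero]
    · rw [hb j i hij, mul_zero]
  -- the key lemma
  have key : ∀ u v w : V, u ∈ W → v ∈ W → w ∈ W → f u v = 0 → f u w = 0 → f v w = 0 → f u u ≠ 0 →
      f v v = f u u → f w w = - f u u →
      ∃ ε : F, ε ≠ 0 ∧ ∃ e : Fin 3 → V, (∀ i, e i ∈ W) ∧ ∀ i j, f (e i) (e j) = if i = j then ε else 0 := by
    intro u v w hu hv hw huv huw hvw huu hvv hww
    have hvu : f v u = 0 := by rw [H.symm]; exact huv
    have hwu : f w u = 0 := by rw [H.symm]; exact huw
    have hwv : f w v = 0 := by rw [H.symm]; exact hvw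
    have h3 := three_zero hq
    refine ⟨-f u u, neg_ne_zero.2 huu, ![u + v, u - v, w], ?_, ?_⟩
    · intro i
      fin_cases i
      · exact W.add_mem hu hv
      · exact W.sub_mem hu hv
      · exact hw
    · intro i j
      fin_cases i <;> fin_cases j <;>
        simp [H.add_left, H.add_right, H.sub_left, H.sub_right, huv, huw, hvw, hvu, hwu, hwv, hvv, hww]
      · linear_combination (f u u) * h3
      · linear_combination (f u u) * h3
  by_cases h01 : f (b 0) (b 0) = f (b 1) (b 1)
  · by_cases h02 : f (b 0) (b 0) = f (b 2) (b 2)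
    · refine ⟨f (b 0) (b 0), hbb 0, fun i => b i, fun i => (b i).2, ?_⟩
      intro i j
      by_cases hij : i = j
      · subst hij
        rw [if_pos rfl]
        fin_cases i
        · rfl
        · exact h01.symm
        · exact h02.symm
      · rw [if_neg hij]; exact hb i j hij
    · refine key (b 0) (b 1) (b 2) (b 0).2 (b 1).2 (b 2).2 (hb 0 1 (by decide)) (hb 0 2 (by decide))
        (hb 1 2 (by decide)) (hbb 0) h01.symm ?_
      rcases pm_one hq (hbb 0) with h | h <;> rcases pm_one hq (hbb 2) with h' | h'
      · exact absurd (h.trans h'.symm) h02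
      · rw [h, h']
      · rw [h, h']; ring
      · exact absurd (h.trans h'.symm) h02
  · by_cases h02 : f (b 0) (b 0) = f (b 2) (b 2)
    · refine key (b 0) (b 2) (b 1) (b 0).2 (b 2).2 (b 1).2 (hb 0 2 (by decide)) (hb 0 1 (by decide))
        (hb 2 1 (by decide)) (hbb 0) h02.symm ?_
      rcases pm_one hq (hbb 0) with h | h <;> rcases pm_one hq (hbb 1) with h' | h'
      · exact absurd (h.trans h'.symm) h01
      · rw [h, h']
      · rw [h, h']; ring
      · exact absurd (h.trans h'.symm) h01
    · refine key (b 1) (b 2) (b 0) (b 1).2 (b 2).2 (b 0).2 (hb 1 2 (by decide)) (hb 1 0 (by decide))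
        (hb 2 0 (by decide)) (hbb 1) ?_ ?_
      · rcases pm_one hq (hbb 0) with h | h <;> rcases pm_one hq (hbb 1) with h' | h' <;>
          rcases pm_one hq (hbb 2) with h'' | h''
        · exact absurd (h.trans h'.symm) h01
        · exact absurd (h.trans h'.symm) h01
        · exact absurd (h.trans h''.symm) h02
        · rw [h', h'']
        · rw [h', h'']
        · exact absurd (h.trans h''.symm) h02
        · exact absurd (h.trans h'.symm) h01
        · exact absurd (h.trans h'.symm) h01
      · rcases pm_one hq (hbb 0) with h | h <;> rcases pm_one hq (hbb 1) with h' | h'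
        · exact absurd (h.trans h'.symm) h01
        · rw [h, h']; ring
        · rw [h, h']
        · exact absurd (h.trans h'.symm) h01

/-- vectors of norm `ε` are multiples of frame vectors -/
theorem eq_of_norm (hq : Fintype.card F = 3) {f : V → V → F} (H : SB f) {W : Submodule F V}
    (hW : finrank F W = 3) {ε : F} (hε : ε ≠ 0) {e : Fin 3 → V} (he : ∀ i, e i ∈ W)
    (hg : ∀ i j, f (e i) (e j) = if i = j then ε else 0) {x : V} (hx : x ∈ W) (hxx : f x x = ε) :
    ∃ i, ∃ a : F, a ≠ 0 ∧ x = a • e i := by
  have hexp := frame_exp hq H hW hε he hg x hx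
  have h3 := three_zero hq
  have hεε := sq_one hq hε
  have h1 : f x x = ∑ i, ε * f x (e i) * f x (e i) := by
    conv_lhs => rw [H.symm]; arg 1; rw [hexp]
    rw [H.sum_left]
    refine Finset.sum_congr rfl fun i _ => ?_
    rw [H.smul_left, H.symm (e i) x]
  have hsq : ∀ a : F, a * a = 0 ∨ a * a = 1 := by
    intro a
    by_cases h : a = 0
    · left; rw [h]; ring
    · right; exact sq_one hq h
  have h2 : f x (e 0) * f x (e 0) + f x (e 1) * f x (e 1) + f x (e 2) * f x (e 2) = 1 := by
    rw [Fin.sum_univ_three, hxx] at h1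
    linear_combination -ε * h1 + (1 - (f x (e 0) * f x (e 0) + f x (e 1) * f x (e 1) + f x (e 2) * f x (e 2))) * hεε
  have hz : ∀ a : F, a * a = 0 → a = 0 := fun a h => mul_self_eq_zero.1 h
  have hx0 : x ≠ 0 := by rintro rfl; rw [H.zero_left] at hxx; exact hε hxx.symm
  have h12 := two_ne_zero' hq
  rw [Fin.sum_univ_three] at hexp
  rcases hsq (f x (e 0)) with a0 | a0 <;> rcases hsq (f x (e 1)) with a1 | a1 <;>
    rcases hsq (f x (e 2)) with a2 | a2 <;> rw [a0, a1, a2] at h2
  · exfalso; simp at h2
  · rw [hz _ a0, hz _ a1, mul_zero, zero_smul, zero_smul, zero_add, zero_add] at hexp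
    exact ⟨2, _, fun h => hx0 (by rw [hexp, h, zero_smul]), hexp⟩
  · rw [hz _ a0, hz _ a2, mul_zero, zero_smul, zero_smul, zero_add, add_zero] at hexp
    exact ⟨1, _, fun h => hx0 (by rw [hexp, h, zero_smul]), hexp⟩
  · exfalso; have : (1 : F) = 0 := by linear_combination h2
    exact one_ne_zero this
  · rw [hz _ a1, hz _ a2, mul_zero, zero_smul, zero_smul, add_zero, add_zero] at hexp
    exact ⟨0, _, fun h => hx0 (by rw [hexp, h, zero_smul]), hexp⟩
  · exfalso; have : (1 : F) = 0 := by linear_combination h2
    exact one_ne_zero this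
  · exfalso; have : (1 : F) = 0 := by linear_combination h2
    exact one_ne_zero this
  · exfalso
    exact h12 (by linear_combination h2)

/-- a similarity between three-dimensional spaces with frames of the same norm has factor `1`. -/
theorem factor_one (hq : Fintype.card F = 3) {f : V → V → F} (H : SB f) {W : Submodule F V}
    (hW : finrank F W = 3) {ε : F} (hε : ε ≠ 0) {e : Fin 3 → V} (he : ∀ i, e i ∈ W)
    (hg : ∀ i j, f (e i) (e j) = if i = j then ε else 0) {μ : F} (hμ : μ ≠ 0) {u : Fin 3 → V}
    (hu : ∀ i, u i ∈ W) (huu : ∀ i j, f (u i) (u j) = μ * (if i = j then ε else 0)) : μ = 1 := by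
  let M : Matrix (Fin 3) (Fin 3) F := fun i j => ε * f (u j) (e i)
  have h1 : M.transpose * M = μ • (1 : Matrix (Fin 3) (Fin 3) F) := by
    ext i j
    rw [Matrix.mul_apply, Matrix.smul_apply, Matrix.one_apply]
    have hexp := frame_exp hq H hW hε he hg (u i) (hu i)
    have h2 : f (u i) (u j) = ∑ k, ε * f (u i) (e k) * f (e k) (u j) := by
      conv_lhs => rw [hexp]
      rw [H.sum_left]
      refine Finset.sum_congr rfl fun k _ => ?_
      rw [H.smul_left]
    rw [huu] at h2
    have hεε := sq_one hq hε
    have h3 : ∑ k, M.transpose i k * M k j = ε * ∑ k, ε * f (u i) (e k) * f (e k) (u j) := by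
      rw [Finset.mul_sum]
      refine Finset.sum_congr rfl fun k _ => ?_
      rw [Matrix.transpose_apply, H.symm (e k) (u j)]
      show (ε * f (u i) (e k)) * (ε * f (u j) (e k)) = _
      ring
    rw [h3, ← h2]
    by_cases hij : i = j
    · simp only [hij, if_true, smul_eq_mul]; linear_combination μ * hεε
    · simp [hij]
  have h2 := congrArg Matrix.det h1
  rw [Matrix.det_mul, Matrix.det_transpose, Matrix.det_smul, Matrix.det_one, Fintype.card_fin] at h2
  have h3 : μ ^ 3 = μ := by
    have := sq_one hq hμ
    linear_combination μ * this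
  rw [h3, mul_one] at h2
  have h4 : M.det ≠ 0 := by intro h; rw [h, zero_mul] at h2; exact hμ h2.symm
  rw [sq_one hq h4] at h2
  exact h2.symm

end Cfsg.Agent.Lib.O33
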