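import Mathlib
import Cfsg.Prelude.Def_GeometricClasses
import Cfsg.Agent.Lib.GeoBridge

set_option autoImplicit false

/-!
The tensor product subgroups `tensorProductSubgroup n₁ n₂ e P`: pure tensors, membership criterion,
the value of a tensor product form on pure tensors.
-/

namespace Cfsg.Agent.Lib.TensorGeo

open Cfsg Cfsg.Geo Cfsg.Agent.Lib.GeoBridge
open scoped MatrixGroups Matrix Kronecker

variable {ι : Type} [Fintype ι] [DecidableEq ι] {F : Type*} [Field F] {n₁ n₂ : ℕ}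
  (e : ι ≃ Fin n₁ × Fin n₂) (P : GL ι F)

/-- pure tensors -/
def tp (x₁ : Fin n₁ → F) (x₂ : Fin n₂ → F) : ι → F :=
  (P : Matrix ι ι F) *ᵥ ((fun a : Fin n₁ × Fin n₂ => x₁ a.1 * x₂ a.2) ∘ e)

theorem tp_add_left (x y : Fin n₁ → F) (z : Fin n₂ → F) : tp e P (x + y) z = tp e P x z + tp e P y z := by
  rw [tp, tp, tp, ← Matrix.mulVec_add]
  congr 1; ext i; simp [add_mul]

theorem tp_add_right (x : Fin n₁ → F) (y z : Fin n₂ → F) : tp e P x (y + z) = tp e P x y + tp e P x z := by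
  rw [tp, tp, tp, ← Matrix.mulVec_add]
  congr 1; ext i; simp [mul_add]

theorem tp_smul_left (c : F) (x : Fin n₁ → F) (z : Fin n₂ → F) : tp e P (c • x) z = c • tp e P x z := by
  rw [tp, tp, ← Matrix.mulVec_smul]
  congr 1; ext i; simp [mul_assoc]

theorem tp_smul_right (c : F) (x : Fin n₁ → F) (z : Fin n₂ → F) : tp e P x (c • z) = c • tp e P x z := by
  rw [tp, tp, ← Matrix.mulVec_smul]
  congr 1; ext i; simp; ring

theorem tp_zero_left (z : Fin n₂ → F) : tp e P 0 z = 0 := by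
  have := tp_smul_left e P 0 0 z
  simpa using this

theorem tp_zero_right (x : Fin n₁ → F) : tp e P x 0 = 0 := by
  have := tp_smul_right e P 0 x 0
  simpa using this

/-- `tp` as a bilinear map -/
def tpB : (Fin n₁ → F) →ₗ[F] (Fin n₂ → F) →ₗ[F] (ι → F) :=
  LinearMap.mk₂ F (tp e P) (tp_add_left e P) (tp_smul_left e P) (tp_add_right e P) (tp_smul_right e P)

@[simp] theorem tpB_apply (x : Fin n₁ → F) (y : Fin n₂ → F) : tpB e P x y = tp e P x y := rfl

/-- every vector is a sum of pure tensors with standard basis vectors on the left -/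
theorem exists_sum_left (v : ι → F) : ∃ w : Fin n₁ → Fin n₂ → F,
    v = ∑ a, tp e P (Pi.single a 1) (w a) := by
  set u := ((P⁻¹ : GL ι F) : Matrix ι ι F) *ᵥ v with hu
  refine ⟨fun a b => u (e.symm (a, b)), ?_⟩
  have hv : v = (P : Matrix ι ι F) *ᵥ u := by
    rw [hu, Matrix.mulVec_mulVec, ← Units.val_mul, mul_inv_cancel, Units.val_one, Matrix.one_mulVec]
  rw [hv]
  simp only [tp]
  rw [← Matrix.mulVec_sum]
  congr 1
  ext i
  rw [Finset.sum_apply]
  simp only [Function.comp_apply, Pi.single_apply, ite_mul, one_mul, zero_mul]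
  rw [Finset.sum_ite_eq]
  simp

theorem span_tp : Submodule.span F {v | ∃ x₁ x₂, v = tp e P x₁ x₂} = ⊤ := by
  rw [eq_top_iff]
  intro v _
  obtain ⟨w, rfl⟩ := exists_sum_left e P v
  exact Submodule.sum_mem _ fun a _ => Submodule.subset_span ⟨_, _, rfl⟩

variable {e P}

theorem ext_tp {g h : (ι → F) ≃ₗ[F] (ι → F)} (H : ∀ x₁ x₂, g (tp e P x₁ x₂) = h (tp e P x₁ x₂)) :
    g = h := by
  have : (g : (ι → F) →ₗ[F] (ι → F)) = h := by
    apply LinearMap.ext_on (span_tp e P)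
    rintro _ ⟨x₁, x₂, rfl⟩
    exact H x₁ x₂
  ext x
  exact congrFun (LinearMap.congr_fun this x) _

theorem kron_mulVec (A : Matrix (Fin n₁) (Fin n₁) F) (B : Matrix (Fin n₂) (Fin n₂) F) (x₁ : Fin n₁ → F)
    (x₂ : Fin n₂ → F) : (A ⊗ₖ B) *ᵥ (fun a : Fin n₁ × Fin n₂ => x₁ a.1 * x₂ a.2) =
      fun a : Fin n₁ × Fin n₂ => (A *ᵥ x₁) a.1 * (B *ᵥ x₂) a.2 := by
  ext ⟨a, b⟩
  simp only [Matrix.mulVec, dotProduct, Matrix.kroneckerMap_apply, Fintype.sum_prod_type,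
    Finset.sum_mul_sum]
  refine Finset.sum_congr rfl fun i _ => Finset.sum_congr rfl fun j _ => ?_
  ring

theorem reindex_mulVec (k : GL (Fin n₁ × Fin n₂) F) (x : Fin n₁ × Fin n₂ → F) :
    ((glReindex e.symm k : GL ι F) : Matrix ι ι F) *ᵥ (x ∘ e) =
      ((k : Matrix (Fin n₁ × Fin n₂) (Fin n₁ × Fin n₂) F) *ᵥ x) ∘ e := by
  ext i
  have h1 : ((glReindex e.symm k : GL ι F) : Matrix ι ι F) =
      (k : Matrix (Fin n₁ × Fin n₂) (Fin n₁ × Fin n₂) F).submatrix e e := by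
    show Matrix.reindexAlgEquiv F F e.symm (k : Matrix (Fin n₁ × Fin n₂) (Fin n₁ × Fin n₂) F) = _
    rw [Matrix.coe_reindexAlgEquiv]
    simp [Matrix.reindex_apply]
  rw [h1]
  simp only [Matrix.mulVec, dotProduct, Matrix.submatrix_apply, Function.comp_apply]
  exact Equiv.sum_comp e (fun j => (k : Matrix (Fin n₁ × Fin n₂) (Fin n₁ × Fin n₂) F) (e i) j * x j)

theorem mem_tensor_iff (g : GL ι F) : g ∈ tensorProductSubgroup n₁ n₂ e P ↔
    ∃ (a : GL (Fin n₁) F) (b : GL (Fin n₂) F), ∀ x₁ x₂, le g (tp e P x₁ x₂) =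
      tp e P ((a : Matrix (Fin n₁) (Fin n₁) F) *ᵥ x₁) ((b : Matrix (Fin n₂) (Fin n₂) F) *ᵥ x₂) := by
  have key : ∀ (k : GL (Fin n₁ × Fin n₂) F) (a : GL (Fin n₁) F) (b : GL (Fin n₂) F),
      (k : Matrix (Fin n₁ × Fin n₂) (Fin n₁ × Fin n₂) F) =
        (a : Matrix (Fin n₁) (Fin n₁) F) ⊗ₖ (b : Matrix (Fin n₂) (Fin n₂) F) → ∀ x₁ x₂,
      le (P * glReindex e.symm k * P⁻¹) (tp e P x₁ x₂) =
      tp e P ((a : Matrix (Fin n₁) (Fin n₁) F) *ᵥ x₁) ((b : Matrix (Fin n₂) (Fin n₂) F) *ᵥ x₂) := by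
    intro k a b hk x₁ x₂
    rw [le_apply, tp, Matrix.mulVec_mulVec, ← Units.val_mul, inv_mul_cancel_right, Units.val_mul,
      ← Matrix.mulVec_mulVec, reindex_mulVec, hk, kron_mulVec, tp]
  constructor
  · rintro ⟨y, ⟨k, ⟨a, b, hk⟩, rfl⟩, rfl⟩
    exact ⟨a, b, fun x₁ x₂ => key k a b hk x₁ x₂⟩
  · rintro ⟨a, b, h⟩
    have h1 : ((a : Matrix (Fin n₁) (Fin n₁) F) ⊗ₖ (b : Matrix (Fin n₂) (Fin n₂) F)) *
        (((a⁻¹ : GL (Fin n₁) F) : Matrix (Fin n₁) (Fin n₁) F) ⊗ₖ ((b⁻¹ : GL (Fin n₂) F) : Matrix (Fin n₂) (Fin n₂) F)) = 1 := by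
      rw [← Matrix.mul_kronecker_mul, ← Units.val_mul, ← Units.val_mul, mul_inv_cancel, mul_inv_cancel,
        Units.val_one, Units.val_one, Matrix.one_kronecker_one]
    have h2 : (((a⁻¹ : GL (Fin n₁) F) : Matrix (Fin n₁) (Fin n₁) F) ⊗ₖ ((b⁻¹ : GL (Fin n₂) F) : Matrix (Fin n₂) (Fin n₂) F)) *
        ((a : Matrix (Fin n₁) (Fin n₁) F) ⊗ₖ (b : Matrix (Fin n₂) (Fin n₂) F)) = 1 := by
      rw [← Matrix.mul_kronecker_mul, ← Units.val_mul, ← Units.val_mul, inv_mul_cancel, inv_mul_cancel,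
        Units.val_one, Units.val_one, Matrix.one_kronecker_one]
    let k : GL (Fin n₁ × Fin n₂) F := ⟨_, _, h1, h2⟩
    refine ⟨glReindex e.symm k, ⟨k, ⟨a, b, rfl⟩, rfl⟩, ?_⟩
    show P * glReindex e.symm k * P⁻¹ = g
    apply (le : GL ι F ≃* _).injective
    apply ext_tp (e := e) (P := P)
    intro x₁ x₂
    rw [key k a b rfl, h]

/-- expansion of a sesquilinear form by its Gram matrix -/
theorem eq_formOfGram {n : ℕ} {σ : F → F} {f : (Fin n → F) → (Fin n → F) → F}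
    (h1 : ∀ x y z, f (x + y) z = f x z + f y z) (h2 : ∀ (c : F) x y, f (c • x) y = c * f x y)
    (h3 : ∀ x y z, f x (y + z) = f x y + f x z) (h4 : ∀ (c : F) x y, f x (c • y) = σ c * f x y)
    (x y : Fin n → F) : f x y = formOfGram σ (gramMatrix f) x y := by
  have e1 : ∀ (s : Finset (Fin n)) (u : Fin n → Fin n → F) (z : Fin n → F),
      f (∑ i ∈ s, u i) z = ∑ i ∈ s, f (u i) z := by
    intro s u z
    have h0 : f 0 z = 0 := by have := h2 0 0 z; simpa using this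
    classical
    induction s using Finset.induction_on with
    | empty => simpa using h0
    | insert a s ha ih => rw [Finset.sum_insert ha, Finset.sum_insert ha, h1, ih]
  have e2 : ∀ (s : Finset (Fin n)) (u : Fin n → Fin n → F) (z : Fin n → F),
      f z (∑ i ∈ s, u i) = ∑ i ∈ s, f z (u i) := by
    intro s u z
    have h0 : f z 0 = 0 := by have := h3 z 0 0; simpa using this
    classical
    induction s using Finset.induction_on with
    | empty => simpa using h0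
    | insert a s ha ih => rw [Finset.sum_insert ha, Finset.sum_insert ha, h3, ih]
  have hx : ∀ x : Fin n → F, x = ∑ i, x i • (Pi.single i 1 : Fin n → F) := by
    intro x; ext j; simp [Finset.sum_apply, Pi.single_apply]
  conv_lhs => rw [hx x, hx y]
  rw [e1, formOfGram]
  refine Finset.sum_congr rfl fun i _ => ?_
  rw [e2]
  refine Finset.sum_congr rfl fun j _ => ?_
  rw [h2, h4, gramMatrix]; ring

theorem form_tp {σ : F → F} (hσ : ∀ a b, σ (a * b) = σ a * σ b)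
    {f₁ : (Fin n₁ → F) → (Fin n₁ → F) → F} {f₂ : (Fin n₂ → F) → (Fin n₂ → F) → F}
    (hf₁ : ∀ x y, f₁ x y = formOfGram σ (gramMatrix f₁) x y)
    (hf₂ : ∀ x y, f₂ x y = formOfGram σ (gramMatrix f₂) x y) {f : (ι → F) → (ι → F) → F} {c : F}
    (hc : ∀ x y : Fin n₁ × Fin n₂ → F,
      f ((P : Matrix ι ι F) *ᵥ (x ∘ e)) ((P : Matrix ι ι F) *ᵥ (y ∘ e)) =
        c * formOfGram σ (gramMatrix f₁ ⊗ₖ gramMatrix f₂) x y)
    (x₁ y₁ : Fin n₁ → F) (x₂ y₂ : Fin n₂ → F) :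
    f (tp e P x₁ x₂) (tp e P y₁ y₂) = c * (f₁ x₁ y₁ * f₂ x₂ y₂) := by
  rw [tp, tp, hc, hf₁ x₁ y₁, hf₂ x₂ y₂]
  congr 1
  simp only [formOfGram, Fintype.sum_prod_type, Matrix.kroneckerMap_apply, hσ]
  rw [Finset.sum_mul_sum]
  refine Finset.sum_congr rfl fun a _ => Finset.sum_congr rfl fun a' _ => ?_
  rw [Finset.sum_mul_sum]
  refine Finset.sum_congr rfl fun b _ => Finset.sum_congr rfl fun b' _ => ?_
  ring

end Cfsg.Agent.Lib.TensorGeo
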