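import Cfsg.Agent.Lib.AschO3
import Cfsg.Agent.Lib.O33
import Cfsg.Agent.Lib.TensorGeo

/-!
Aschbacher's theorem for the orthogonal groups: tensor powers, symplectic-type groups, the main theorem.
-/

set_option autoImplicit false
set_option linter.style.haveILetI false
set_option linter.unusedVariables false
set_option linter.unusedSectionVars false

namespace Cfsg.Agent.Lib.AschO

open Cfsg Cfsg.Geo Cfsg.Agent.Lib.AschMU Cfsg.Agent.Lib.AschCore Cfsg.Agent.Lib.AschField Cfsg.Agent.Lib.AschAlg
  Cfsg.Agent.Lib.AschGroup Cfsg.Agent.Lib.AschGood Cfsg.Agent.Lib.AschAdj Cfsg.Agent.Lib.AschSp Cfsg.Agent.Lib.AschNonab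
open Cfsg.Agent.Lib.AschDescent (env mem_env)
open Cfsg.Agent.Lib.AschComp (commute_env_env)
open scoped Matrix MatrixGroups Kronecker

variable {ι : Type} [Fintype ι] [DecidableEq ι] {F : Type*} [Field F] [Fintype F] {Q : (ι → F) → F}

/-- Scalars in the isometry group. -/
lemma scalar_sq (hQ : IsNondegenerateQuadraticForm Q) [Nonempty ι] {g : GL ι F} (hg : g ∈ isometryGroup F Q) {c : F}
    (hc : (g : Matrix ι ι F) = c • 1) : c * c = 1 := by
  have hne : (Pi.single (Classical.arbitrary ι) 1 : ι → F) ≠ 0 := by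
    intro h
    have := congrFun h (Classical.arbitrary ι)
    simp at this
  obtain ⟨⟨u, hu⟩, -⟩ := hQ.nondegenerate _ hne
  have h1 := (isIso_iff (rfQ hQ) g).1 (isoQ hQ hg) u (Pi.single (Classical.arbitrary ι) 1)
  rw [← polar_eq hQ, hc, Matrix.smul_mulVec, Matrix.smul_mulVec, Matrix.one_mulVec, Matrix.one_mulVec, hQ.polar_bilinear.smul_left,
    hQ.polar_bilinear.smul_right, ← mul_assoc] at h1
  exact mul_right_cancel₀ hu (by rw [h1, one_mul])

/-- The symplectic-type case. -/
theorem ocase_symp (hQ : IsNondegenerateQuadraticForm Q) (hn : 2 ≤ Fintype.card ι) {H N R : Subgroup (GL ι F)} {r k : ℕ}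
    (hI : H ≤ isometryGroup F Q) (hRH : R ≤ H) (hD : AschExtra.IsSympData H N R r k) : OCase Q H := by
  classical
  haveI : Nonempty ι := Fintype.card_pos_iff.1 (by omega)
  obtain ⟨p, hchar⟩ := CharP.exists F
  obtain ⟨e, hp, hcard⟩ := FiniteField.card F p
  have he : 0 < (e : ℕ) := e.pos
  generalize (e : ℕ) = e at *
  have hr := hD.sympType.prime
  rcases AschExtra.minimal_or_subfield hD.absIrr hD.comm hp hchar hcard with hmin | ⟨F₀, hF₀, hreal⟩
  swap
  · exact ocase_real hQ hn hD.absIrr (hRH.trans hI) hD.inv hF₀ hreal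
  have hzdvd := hmin.2.2.2.1
  have hz2 : Nat.card (Subgroup.center R) ≤ 2 := by
    have hsc : ∀ z : Subgroup.center R, ((z : R) : GL ι F) = 1 ∨ ((z : R) : GL ι F) = -1 := by
      intro z
      have h1 : ((z : R) : GL ι F) ∈ scalars ι F := by
        have h0 : (z : R) ∈ (scalars ι F).subgroupOf R := by
          rw [← AschExtra.center_eq hD.absIrr]; exact z.2
        exact Subgroup.mem_subgroupOf.1 h0
      apply AschExtra.scalar_sq_one h1
      obtain ⟨c, hc⟩ := (mem_scalars_iff _).1 h1
      have h4 := scalar_sq hQ (hI (hRH (z : R).2)) hc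
      apply Units.ext
      rw [pow_two, Units.val_mul, hc, Matrix.smul_mul, Matrix.one_mul, smul_smul, h4, one_smul, Units.val_one]
    have hinj : Function.Injective (fun z : Subgroup.center R =>
        if ((z : R) : GL ι F) = 1 then (0 : Fin 2) else 1) := by
      intro a b hab
      apply Subtype.ext; apply Subtype.ext
      simp only at hab
      split_ifs at hab with h1 h2 h2
      · rw [h1, h2]
      · exact absurd hab (by decide)
      · exact absurd hab (by decide)
      · rw [(hsc a).resolve_left h1, (hsc b).resolve_left h2]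
    have := Nat.card_le_card_of_injective _ hinj
    rwa [Nat.card_fin] at this
  have hr2 : r = 2 ∧ Nat.card (Subgroup.center R) = 2 := by
    have := hr.two_le
    rcases hD.center with h | ⟨h, h'⟩
    · omega
    · omega
  obtain ⟨rfl, hz⟩ := hr2
  rw [hz] at hzdvd
  have hpodd : Odd p := by
    rcases hp.eq_two_or_odd' with h2 | h2
    · exfalso
      subst h2
      have h3 : 2 ∣ 2 ^ e := dvd_pow_self 2 he.ne'
      have h4 : 1 ≤ 2 ^ e := Nat.one_le_two_pow
      omega
    · exact h2
  exact OCase.symp R k (by rw [hcard]; exact hpodd.pow) (hRH.trans hI) hD.absIrr hD.comm hD.card_ι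

/-- `Q` vanishing on pure tensors `2 ⊗ e`: plus type. -/
lemma plus_of_pure (hQ : IsNondegenerateQuadraticForm Q) {e : ℕ} (ρ : ι ≃ Fin 2 × Fin e) (P : GL ι F)
    (h : ∀ (x₁ : Fin 2 → F) (x₂ : Fin e → F), Q ((P : Matrix ι ι F) *ᵥ ((fun a : Fin 2 × Fin e => x₁ a.1 * x₂ a.2) ∘ ρ)) = 0) :
    IsPlusTypeOn Q ⊤ := by
  classical
  let φ : (Fin e → F) →ₗ[F] (ι → F) :=
    { toFun := fun y => (P : Matrix ι ι F) *ᵥ ((fun a : Fin 2 × Fin e => (Pi.single 0 1 : Fin 2 → F) a.1 * y a.2) ∘ ρ)
      map_add' := by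
        intro y z
        rw [← Matrix.mulVec_add]
        congr 1
        ext i
        simp only [Function.comp_apply, Pi.add_apply]; ring
      map_smul' := by
        intro c y
        rw [RingHom.id_apply, ← Matrix.mulVec_smul]
        congr 1
        ext i
        simp only [Function.comp_apply, Pi.smul_apply, smul_eq_mul]; ring }
  have hφ : ∀ y, φ y = (P : Matrix ι ι F) *ᵥ ((fun a : Fin 2 × Fin e => (Pi.single 0 1 : Fin 2 → F) a.1 * y a.2) ∘ ρ) := fun y => rfl
  have hinj : Function.Injective φ := by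
    rw [injective_iff_map_eq_zero]
    intro y hy
    have h1 : (fun a : Fin 2 × Fin e => (Pi.single 0 1 : Fin 2 → F) a.1 * y a.2) ∘ ρ = 0 := by
      rw [← gl_inv_mulVec P ((fun a : Fin 2 × Fin e => (Pi.single 0 1 : Fin 2 → F) a.1 * y a.2) ∘ ρ), ← hφ, hy, Matrix.mulVec_zero]
    ext j
    have := congrFun h1 (ρ.symm (0, j))
    simpa using this
  refine ⟨LinearMap.range φ, le_top, ?_, ?_⟩
  · rintro _ ⟨y, rfl⟩
    rw [hφ]; exact h _ _
  · rw [LinearMap.finrank_range_of_inj hinj, finrank_top, Module.finrank_fin_fun, Module.finrank_fintype_fun_eq_card,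
      Fintype.card_congr ρ, Fintype.card_prod, Fintype.card_fin, Fintype.card_fin]

/-- Perfect groups have determinant one. -/
lemma det_one_of_perfect {κ : Type} [Fintype κ] [DecidableEq κ] {L : Subgroup (GL κ F)} (hL : ⁅L, L⁆ = L) {a : GL κ F} (ha : a ∈ L) :
    (a : Matrix κ κ F).det = 1 := by
  have h1 : L ≤ (Matrix.GeneralLinearGroup.det : GL κ F →* Fˣ).ker := by
    conv_lhs => rw [← hL]
    rw [Subgroup.commutator_le]
    intro x _ y _
    rw [MonoidHom.mem_ker, map_commutatorElement, commutatorElement_eq_one_iff_mul_comm, mul_comm]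
  exact congrArg Units.val (MonoidHom.mem_ker.1 (h1 ha))

lemma perfect_facGrp {d : ℕ} {φ : Matrix (Fin d) (Fin d) F →ₐ[F] Matrix ι ι F} (hinj : Function.Injective φ) {P : Subgroup (GL ι F)}
    (hr : φ.range = env P) (hP : ⁅P, P⁆ = P) : ⁅facGrp φ P, facGrp φ P⁆ = facGrp φ P := by
  have hminj : Function.Injective (Units.map (φ : Matrix (Fin d) (Fin d) F →* Matrix ι ι F)) := by
    intro u v huv
    apply Units.ext
    exact hinj (congrArg (fun w : GL ι F => (w : Matrix ι ι F)) huv)
  have h1 : (facGrp φ P).map (Units.map (φ : Matrix (Fin d) (Fin d) F →* Matrix ι ι F)) = P := by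
    ext x
    constructor
    · rintro ⟨a, ha, rfl⟩
      exact ha
    · intro hx
      obtain ⟨a, ha, e⟩ := exists_facGrp hinj hr hx
      exact ⟨a, ha, Units.ext e.symm⟩
  apply Subgroup.map_injective hminj
  rw [Subgroup.map_commutator, h1, hP]

/-- Invariant forms of a perfect group with full envelope in dimension two are alternating. -/
lemma alt_of_two {L : Subgroup (GL (Fin 2) F)} (hL : ⁅L, L⁆ = L) (habs : ActsAbsolutelyIrreducibly (matrixSet L))
    {X : Matrix (Fin 2) (Fin 2) F} (hX : ∀ a ∈ L, (a : Matrix (Fin 2) (Fin 2) F)ᵀ * X * (a : Matrix (Fin 2) (Fin 2) F) = X) :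
    Xᵀ = -X ∧ ∀ i, X i i = 0 := by
  have hW : IsUnit (!![0, 1; -1, 0] : Matrix (Fin 2) (Fin 2) F) := by
    rw [Matrix.isUnit_iff_isUnit_det, Matrix.det_fin_two_of]; simp
  obtain ⟨c, hc⟩ := uniq' habs (X := (!![0, 1; -1, 0] : Matrix (Fin 2) (Fin 2) F)) (Y := X) (fun s hs => by
    have hdet := det_one_of_perfect hL hs
    rw [Matrix.det_fin_two] at hdet
    ext i j
    fin_cases i <;> fin_cases j <;> simp [Matrix.mul_apply, Fin.sum_univ_two, Matrix.transpose_apply] <;>
      first | linear_combination hdet | linear_combination -hdet | ring) hX hW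
  rw [hc]
  constructor
  · ext i j
    fin_cases i <;> fin_cases j <;> simp
  · intro i
    fin_cases i <;> simp

/-- No perfect group acts on a three-dimensional symmetric factor over the field with three elements. -/
lemma not_three_three [Nonempty ι] (hF : Fintype.card F = 3) {φ : Matrix (Fin 3) (Fin 3) F →ₐ[F] Matrix ι ι F}
    (hinj : Function.Injective φ) {P : Subgroup (GL ι F)} (hr : φ.range = env P) (hP : ⁅P, P⁆ = P) (hns : ¬ P ≤ scalars ι F)
    {X : Matrix (Fin 3) (Fin 3) F} (hXu : IsUnit X) (hXT : Xᵀ = X)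
    (hX : ∀ a ∈ facGrp φ P, (a : Matrix (Fin 3) (Fin 3) F)ᵀ * X * (a : Matrix (Fin 3) (Fin 3) F) = X) : False := by
  classical
  set L := facGrp φ P with hLdef
  have hf := symm_form hXu hXT
  have HS : Cfsg.Agent.Lib.O33.SB (bf (RingEquiv.refl F) X) := ⟨hf.bilinear.add_left, hf.bilinear.smul_left, hf.symm⟩
  have hfr3 : Module.finrank F (⊤ : Submodule F (Fin 3 → F)) = 3 := by rw [finrank_top, Module.finrank_fin_fun]
  obtain ⟨ε, hε, E, -, hE⟩ := Cfsg.Agent.Lib.O33.exists_frame hF HS hfr3 (fun x _ hx => by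
    obtain ⟨y, hy⟩ := (hf.nondegenerate x hx).2
    exact ⟨y, trivial, hy⟩)
  have hnorm : ∀ x, bf (RingEquiv.refl F) X x x = ε → ∃ i, ∃ a : F, a ≠ 0 ∧ x = a • E i := fun x hx =>
    Cfsg.Agent.Lib.O33.eq_of_norm hF HS hfr3 hε (fun _ => trivial) hE trivial hx
  let S : Set (Fin 3 → F) := {x | bf (RingEquiv.refl F) X x x = ε}
  have hLS : ∀ a ∈ L, ∀ x ∈ S, (a : Matrix (Fin 3) (Fin 3) F) *ᵥ x ∈ S := by
    intro a ha x hx
    show bf (RingEquiv.refl F) X _ _ = ε
    have h1 : bf (RingEquiv.refl F) X ((a : Matrix (Fin 3) (Fin 3) F) *ᵥ x) ((a : Matrix (Fin 3) (Fin 3) F) *ᵥ x) =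
        bf (RingEquiv.refl F) X x x := by
      rw [bf_gr]
      congr 1
      unfold AschAdj.gr
      rw [map_rf]
      exact hX a ha
    rw [h1]; exact hx
  -- the permutation action
  let act : L →* Equiv.Perm S :=
    { toFun := fun a =>
        { toFun := fun x => ⟨((a : GL (Fin 3) F) : Matrix (Fin 3) (Fin 3) F) *ᵥ (x : Fin 3 → F), hLS a a.2 x x.2⟩
          invFun := fun x => ⟨(((a⁻¹ : L) : GL (Fin 3) F) : Matrix (Fin 3) (Fin 3) F) *ᵥ (x : Fin 3 → F), hLS _ (a⁻¹).2 x x.2⟩
          left_inv := fun x => Subtype.ext (by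
            show (((a⁻¹ : L) : GL (Fin 3) F) : Matrix (Fin 3) (Fin 3) F) *ᵥ (((a : GL (Fin 3) F) : Matrix (Fin 3) (Fin 3) F) *ᵥ (x : Fin 3 → F)) = x
            exact gl_inv_mulVec (a : GL (Fin 3) F) _)
          right_inv := fun x => Subtype.ext (by
            show ((a : GL (Fin 3) F) : Matrix (Fin 3) (Fin 3) F) *ᵥ ((((a⁻¹ : L) : GL (Fin 3) F) : Matrix (Fin 3) (Fin 3) F) *ᵥ (x : Fin 3 → F)) = x
            exact gl_mulVec_inv (a : GL (Fin 3) F) _) }
      map_one' := by
        ext x : 2
        show ((1 : GL (Fin 3) F) : Matrix (Fin 3) (Fin 3) F) *ᵥ (x : Fin 3 → F) = x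
        rw [Units.val_one, Matrix.one_mulVec]
      map_mul' := by
        intro a b
        ext x : 2
        show (((a : GL (Fin 3) F) * (b : GL (Fin 3) F) : GL (Fin 3) F) : Matrix (Fin 3) (Fin 3) F) *ᵥ (x : Fin 3 → F) = _
        rw [Units.val_mul, ← Matrix.mulVec_mulVec]
        rfl }
  have hES : ∀ i, E i ∈ S := fun i => by show _ = ε; rw [hE, if_pos rfl]
  have hactinj : Function.Injective act := by
    rw [injective_iff_map_eq_one]
    intro a ha
    have h1 : ∀ i, ((a : GL (Fin 3) F) : Matrix (Fin 3) (Fin 3) F) *ᵥ (E i) = E i := by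
      intro i
      have := congrArg (fun π : Equiv.Perm S => ((π ⟨E i, hES i⟩ : S) : Fin 3 → F)) ha
      exact this
    have h2 : ∀ x, ((a : GL (Fin 3) F) : Matrix (Fin 3) (Fin 3) F) *ᵥ x = x := by
      intro x
      have h3 := Cfsg.Agent.Lib.O33.frame_exp hF HS hfr3 hε (fun _ => trivial) hE x trivial
      conv_lhs => rw [h3, Matrix.mulVec_sum]
      conv_rhs => rw [h3]
      refine Finset.sum_congr rfl fun i _ => ?_
      rw [Matrix.mulVec_smul, h1]
    apply Subtype.ext
    apply Units.ext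
    show ((a : GL (Fin 3) F) : Matrix (Fin 3) (Fin 3) F) = 1
    rw [← sub_eq_zero]
    apply mulVec_eq_zero_of_rng_bot
    intro v
    rw [Matrix.sub_mulVec, h2, Matrix.one_mulVec, sub_self]
  haveI : Finite S := inferInstance
  have hScard : Nat.card S ≤ 6 := by
    have hsurj : ∃ f : Fin 3 × Fin 2 → S, Function.Surjective f := by
      have hmem : ∀ (p : Fin 3 × Fin 2), (if p.2 = 0 then E p.1 else -E p.1) ∈ S := by
        intro p
        split_ifs
        · exact hES _
        · show bf (RingEquiv.refl F) X (-E p.1) (-E p.1) = ε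
          rw [HS.neg_left, HS.neg_right, neg_neg]; exact hES _
      refine ⟨fun p => ⟨_, hmem p⟩, ?_⟩
      rintro ⟨x, hx⟩
      obtain ⟨i, a, ha, rfl⟩ := hnorm x hx
      rcases Cfsg.Agent.Lib.O33.pm_one hF ha with rfl | rfl
      · exact ⟨(i, 0), Subtype.ext (by simp)⟩
      · exact ⟨(i, 1), Subtype.ext (by simp)⟩
    obtain ⟨f, hf⟩ := hsurj
    have := Nat.card_le_card_of_surjective f hf
    rwa [Nat.card_prod, Nat.card_fin, Nat.card_fin] at this
  have hd1 : Nat.card L ∣ 720 := by
    have h1 : Nat.card L ∣ Nat.card (Equiv.Perm S) := by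
      rw [Nat.card_congr (MonoidHom.ofInjective hactinj).toEquiv]
      exact Subgroup.card_subgroup_dvd_card _
    rw [Nat.card_perm] at h1
    refine h1.trans ?_
    have h2 : (Nat.card S).factorial ∣ (6).factorial := Nat.factorial_dvd_factorial hScard
    exact h2
  have hd2 : Nat.card L ∣ 11232 := by
    have h3 : Nat.card (GL (Fin 3) F) = 11232 := by
      rw [Matrix.card_GL_field, Fin.prod_univ_three, hF]
      norm_num
    rw [← h3]; exact Subgroup.card_subgroup_dvd_card _
  have hd3 : Nat.card L ∣ 2 ^ 4 * 3 ^ 2 := by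
    have := Nat.dvd_gcd hd1 hd2
    norm_num at this ⊢
    exact this
  obtain ⟨x, y, hx, hy, e⟩ := (Nat.dvd_mul.1 hd3)
  obtain ⟨a, -, rfl⟩ := (Nat.dvd_prime_pow Nat.prime_two).1 hx
  obtain ⟨b, -, rfl⟩ := (Nat.dvd_prime_pow Nat.prime_three).1 hy
  haveI : Finite (Matrix (Fin 3) (Fin 3) F) := inferInstanceAs (Finite (Fin 3 → Fin 3 → F))
  have hLbot := eq_bot_of_perfect (perfect_facGrp hinj hr hP) e.symm
  apply hns
  intro x hx
  obtain ⟨a, ha, e⟩ := exists_facGrp hinj hr hx
  have : a ∈ (⊥ : Subgroup (GL (Fin 3) F)) := by rw [← hLbot]; exact ha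
  rw [Subgroup.mem_bot] at this
  rw [this, Units.val_one, map_one] at e
  have hx1 : x = 1 := Units.ext e
  rw [hx1]; exact one_mem _

/-- Several commuting components. -/
theorem ocase_comp (hQ : IsNondegenerateQuadraticForm Q) (hn : 2 ≤ Fintype.card ι) {H : Subgroup (GL ι F)}
    (hI : H ≤ isometryGroup F Q) {t : ℕ} {P : Fin t → Subgroup (GL ι F)} (hc : CompData H P) : OCase Q H := by
  classical
  haveI : Nonempty ι := Fintype.card_pos_iff.1 (by omega)
  have h := rfQ hQ
  have hI' : ∀ g ∈ H, IsIso (RingEquiv.refl F) (gm Q) g := fun g hg => isoQ hQ (hI hg)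
  have hPH : (⨆ i, P i) ≤ H := iSup_le hc.le
  have ht := hc.two_le
  obtain ⟨d, ρ, B, X, c, i₀, φ, hd, hle, hc0, hXu, hXs, hG, hinj, hr, hinv⟩ := comp_common h hc hI'
  have hcard : Fintype.card ι = d ^ t := by
    have := Fintype.card_congr ρ
    rwa [Fintype.card_fun, Fintype.card_fin, Fintype.card_fin] at this
  haveI : Nonempty (Fin d) := ⟨⟨0, by omega⟩⟩
  have hLT : env (facGrp φ (P i₀)) = ⊤ := env_facGrp hinj hr
  have hLabs : ActsAbsolutelyIrreducibly (matrixSet (facGrp φ (P i₀))) := absIrr_of_env_top hLT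
  have hLperf := perfect_facGrp hinj hr (hc.perfect i₀)
  -- plus type in the case `d = 2`
  have hplus : d = 2 → IsPlusTypeOn Q ⊤ := by
    intro hd2
    subst hd2
    set L := ⨆ i, P i with hL
    have hLI := hPH.trans hI
    have hLirr := hc.absIrred.1
    obtain ⟨s, rfl⟩ : ∃ s, t = s + 2 := ⟨t - 2, by omega⟩
    have he2 : 2 ≤ 2 ^ (s + 1) := Nat.le_self_pow (by omega) 2
    have ρ₂ : ι ≃ Fin 2 × Fin (2 ^ (s + 1)) := Fintype.equivOfCardEq (by
      rw [Fintype.card_prod, Fintype.card_fin, Fintype.card_fin, hcard, pow_succ' 2 (s + 1)])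
    have hA : AdjClosed (RingEquiv.refl F) (gm Q) φ.range := by
      rw [hr]
      exact adjClosed_env h (fun g hg => hI' g (hc.le i₀ hg)) le_sup_left
    have hnorm : L ≤ subalgebraNormalizer φ.range := by
      rw [hr, hL, iSup_le_iff]
      intro j
      by_cases hj : j = i₀
      · rw [hj]; exact AschDescent.self_le_env _
      · apply le_subalgebraNormalizer
        intro g hg k hk
        have h3 := commute_env_env (X := P j) (Y := P i₀) (fun x hx y hy => hc.comm j i₀ hj x hx y hy) g (mem_env hg) k hk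
        rw [cj_apply, h3, mul_assoc, gl_mul_inv, mul_one]
        exact hk
    obtain ⟨P', hP', hle'⟩ := exists_tensorProductSubgroup (by omega) (AlgEquiv.ofInjective φ hinj) ρ₂
    obtain ⟨G₁, G₂, hG', h1, h1'⟩ := tensor_gram h hA (by omega) (by omega) (AlgEquiv.ofInjective φ hinj) ρ₂ P' hP'
    have hinvG : ∀ a ∈ facGrp φ (P i₀), (a : Matrix (Fin 2) (Fin 2) F)ᵀ * G₁ * (a : Matrix (Fin 2) (Fin 2) F) = G₁ := by
      intro a ha
      obtain ⟨x, hx, hxa⟩ := mem_facGrp.1 ha
      have h3 := gr_invariant h (hI' x (hc.le i₀ hx)) P'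
      rw [map_rf, hG'] at h3
      have h4 : ((P'⁻¹ : GL ι F) : Matrix ι ι F) * (x : Matrix ι ι F) * (P' : Matrix ι ι F) = kronL ρ₂ (a : Matrix (Fin 2) (Fin 2) F) 1 := by
        have h5 := hP' (a : Matrix (Fin 2) (Fin 2) F)
        have h6 : ((AlgEquiv.ofInjective φ hinj (a : Matrix (Fin 2) (Fin 2) F) : φ.range) : Matrix ι ι F) = φ (a : Matrix (Fin 2) (Fin 2) F) := rfl
        rw [h6, ← hxa] at h5
        rw [h5]
        simp only [mul_assoc, gl_inv_mul, mul_one]
        rw [← mul_assoc, gl_inv_mul, one_mul]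
      rw [h4, transpose_kronL, kronL_mul, kronL_mul, Matrix.transpose_one, one_mul, mul_one] at h3
      obtain ⟨c', hc', h7, h8⟩ := kronL_eq (by omega) (by omega) ρ₂ h1 h1' h3.symm
      have h9 : c' = 1 := by
        have h10 : (c'⁻¹ - 1) • G₂ = 0 := by rw [sub_smul, one_smul, ← h8, sub_self]
        haveI : Nonempty (Fin (2 ^ (s + 1))) := ⟨⟨0, by omega⟩⟩
        rcases smul_eq_zero.1 h10 with h11 | h11
        · exact inv_eq_one.1 (sub_eq_zero.1 h11)
        · exact absurd h11 h1'.ne_zero
      rw [h7, h9, one_smul]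
    obtain ⟨hT₁, hd₁⟩ := alt_of_two hLperf hLabs hinvG
    have hrf := (h.gr P').refl
    rw [hG', map_rf] at hrf
    have hs := signs (Or.inl rfl) (by omega) (by omega) h1 h1' hrf
    rw [one_smul, neg_smul, one_smul] at hs
    have hT₂ : G₂ᵀ = -G₂ ∧ ∀ i, G₂ i i = 0 := by
      by_cases h2 : (2 : F) = 0
      · have hT₂ : G₂ᵀ = G₂ := by
          rcases hs with ⟨a, b⟩ | ⟨a, b⟩
          · exact b
          · rw [b, neg_mat_of_two h2]
        exact ⟨by rw [hT₂, neg_mat_of_two h2], diag_zero h h2 (exists_sqrt h2) (fun g hg => hI' g (hPH hg)) hLirr le_rfl he2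
          (hnorm.trans hle') hG' h1 h1' hT₂⟩
      · have hT : G₂ᵀ = -G₂ := by
          rcases hs with ⟨a, b⟩ | ⟨a, b⟩
          · exfalso
            rw [hT₁] at a
            have h3 : (2 : F) • G₁ = 0 := by
              rw [two_smul]
              conv_lhs => lhs; rw [← a]
              exact neg_add_cancel _
            rcases smul_eq_zero.1 h3 with h4 | h4
            · exact h2 h4
            · exact h1.ne_zero h4
          · exact b
        refine ⟨hT, fun i => ?_⟩
        have h3 : G₂ i i = - G₂ i i := congrFun (congrFun hT i) i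
        have h4 : (2 : F) * G₂ i i = 0 := by linear_combination h3
        exact (mul_eq_zero.1 h4).resolve_left h2
    exact plus_of_pure hQ ρ₂ P' (pure_zero hQ hLI hLirr hn le_rfl he2 (hnorm.trans hle') hG' h1 h1' hT₁ hT₂.1 hd₁ hT₂.2)
  by_cases hd2 : d = 2
  · exact OCase.palt d t hd ht hcard (by rw [hd2]; exact even_two) hplus
  by_cases h2 : (2 : F) = 0
  · -- characteristic two: alternating
    have hXT : Xᵀ = X := by
      rcases hXs with hXT | hXT
      · exact hXT
      · rw [hXT, neg_mat_of_two h2]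
    · have hdiag : ∀ i, X i i = 0 := by
        -- the diagonal functional is invariant
        let s : Fin d → F := fun i => Classical.choose (exists_sqrt h2 (X i i))
        have hs : ∀ i, s i * s i = X i i := fun i => Classical.choose_spec (exists_sqrt h2 (X i i))
        have hinvs : ∀ a ∈ facGrp φ (P i₀), ∃ ν : F, ∀ l, ∑ k, s k * (a : Matrix (Fin d) (Fin d) F) k l = ν * s l := by
          intro a ha
          exact diag_sim h2 (exists_sqrt h2) hXT hs (b := (a : Matrix (Fin d) (Fin d) F)) (c := 1) (by rw [one_smul]; exact hinv a ha)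
        by_contra hcon
        push Not at hcon
        obtain ⟨k₀, hk₀⟩ := hcon
        have hsk : s k₀ ≠ 0 := by
          intro h0; apply hk₀; rw [← hs, h0, zero_mul]
        let W : Submodule F (Fin d → F) := LinearMap.ker (Fintype.linearCombination F s : (Fin d → F) →ₗ[F] F)
        have hW : ∀ v, v ∈ W ↔ ∑ k, s k * v k = 0 := by
          intro v
          rw [LinearMap.mem_ker, Fintype.linearCombination_apply]
          simp only [smul_eq_mul, mul_comm]
        rcases hLabs.1 W (by
          rintro _ ⟨a, ha, rfl⟩ _ ⟨v, hv, rfl⟩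
          obtain ⟨ν, hν⟩ := hinvs a ha
          rw [Matrix.toLin'_apply, hW]
          have hv' := (hW v).1 hv
          calc ∑ k, s k * ((a : Matrix (Fin d) (Fin d) F) *ᵥ v) k = ∑ l, (∑ k, s k * (a : Matrix (Fin d) (Fin d) F) k l) * v l := by
                simp only [Matrix.mulVec, dotProduct, Finset.mul_sum, Finset.sum_mul]
                rw [Finset.sum_comm]
                exact Finset.sum_congr rfl fun l _ => Finset.sum_congr rfl fun k _ => by ring
            _ = ν * ∑ l, s l * v l := by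
                rw [Finset.mul_sum]
                exact Finset.sum_congr rfl fun l _ => by rw [hν]; ring
            _ = 0 := by rw [hv', mul_zero]) with h0 | h0
        · obtain ⟨k₁, hk₁⟩ : ∃ k₁ : Fin d, k₁ ≠ k₀ := by
            haveI : Nontrivial (Fin d) := Fin.nontrivial_iff_two_le.2 hd
            exact exists_ne k₀
          have hm : (Pi.single k₀ (s k₁) + Pi.single k₁ (- s k₀) : Fin d → F) ∈ W := by
            rw [hW]
            simp only [Pi.add_apply, mul_add, Finset.sum_add_distrib, Pi.single_apply, mul_ite, mul_zero, Finset.sum_ite_eq',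
              Finset.mem_univ, if_true]
            ring
          rw [h0, Submodule.mem_bot] at hm
          have := congrFun hm k₁
          simp only [Pi.add_apply, Pi.single_apply, if_pos, if_neg hk₁, Pi.zero_apply, zero_add] at this
          exact hsk (neg_eq_zero.1 this)
        · have hm : (Pi.single k₀ 1 : Fin d → F) ∈ W := by rw [h0]; trivial
          rw [hW] at hm
          simp only [Pi.single_apply, mul_ite, mul_one, mul_zero, Finset.sum_ite_eq', Finset.mem_univ, if_true] at hm
          exact hsk hm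
      have hev := even_of_alt hXu (by rw [hXT, neg_mat_of_two h2]) hdiag
      rw [Fintype.card_fin] at hev
      exact OCase.palt d t hd ht hcard hev hplus
  rcases hXs with hXT | hXT
  · -- symmetric
    refine OCase.psym d t ρ B (bf (RingEquiv.refl F) X) (odd_of_two_ne h2) (by omega) ht ?_ hcard (symm_form hXu hXT) ?_ hle
    · rintro ⟨hF3, rfl⟩
      exact not_three_three hF3 hinj hr (hc.perfect i₀) (hc.nonscalar i₀) hXu hXT hinv
    · rw [polar_eq hQ]; exact power_structure hc0 hG
  · have hdiag : ∀ i, X i i = 0 := by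
      intro i
      have h3 : X i i = - X i i := congrFun (congrFun hXT i) i
      have h4 : (2 : F) * X i i = 0 := by linear_combination h3
      exact (mul_eq_zero.1 h4).resolve_left h2
    have hev := even_of_alt hXu hXT hdiag
    rw [Fintype.card_fin] at hev
    exact OCase.palt d t hd ht hcard hev hplus

/-- A perfect absolutely irreducible isometry group fixing a unitary form is realisable over a subfield. -/
theorem realisable_of_unitaryQ (hQ : IsNondegenerateQuadraticForm Q) (hn : 2 ≤ Fintype.card ι) {P : Subgroup (GL ι F)}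
    (hI : P ≤ isometryGroup F Q) (habs : ActsAbsolutelyIrreducibly (matrixSet P)) (hperf : ⁅P, P⁆ = P) {σ : F ≃+* F}
    {f : (ι → F) → (ι → F) → F}
    (hf : IsUnitaryForm σ f) (hfix : FixesForm (matrixSet P) f) : ∃ F₀ : Subfield F, F₀ ≠ ⊤ ∧ RealisableOver F₀ (matrixSet P) := by
  classical
  haveI : Nonempty ι := Fintype.card_pos_iff.1 (by omega)
  have hs := AschForms.isSesq_of_unitary hf
  have hu := hs.isUnit_gram hf.nondegenerate
  have hRF : RF σ 1 (gramMatrix f) := by
    refine ⟨hf.involutive, hu, ?_, Or.inl rfl⟩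
    ext i j
    rw [one_smul]
    exact (hf.herm _ _).symm
  have hiso : ∀ g ∈ P, IsIso σ (gramMatrix f) g := by
    intro g hg
    apply iso_of_gram hRF
    exact (hs.fixes_iff (g : Matrix ι ι F)).1 (fun u v => hfix _ ⟨g, hg, rfl⟩ u v)
  obtain ⟨P', hP', -⟩ := rat2_of_invariant hRF hf.ne_refl hn habs hiso hiso (normBy_self P)
    (rfQ hQ).unit (fun s hs' => by
      have := iso_gram (rfQ hQ) (isoQ hQ (hI hs'))
      rwa [map_rf] at this)
  refine ⟨fx σ, ?_, realisable_of_perfect hperf hP'⟩
  intro htop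
  obtain ⟨θ, hθ⟩ := exists_ne hf.ne_refl
  apply hθ
  have : θ ∈ fx σ := by rw [htop]; trivial
  exact this

/-- Good groups. -/
theorem ocase_good (hQ : IsNondegenerateQuadraticForm Q) (hn : 2 ≤ Fintype.card ι) {H : Subgroup (GL ι F)}
    (hI : H ≤ isometryGroup F Q) (hgood : FGood H) : OCase Q H := by
  classical
  haveI hne : Nonempty ι := Fintype.card_pos_iff.1 (by omega)
  have hirr := hgood.irr
  have hnorm : NormBy H (H ⊔ scalars ι F) :=
    (normBy_self H).sup (normBy_of_central scalars_le_center)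
  have hns : H ⊔ scalars ι F ≠ scalars ι F := by
    intro h
    have hle : H ≤ scalars ι F := by rw [← h]; exact le_sup_left
    obtain ⟨i, j, hij⟩ := Fintype.one_lt_card_iff.1 (show 1 < Fintype.card ι by omega)
    rcases hirr (Submodule.span F {(Pi.single i 1 : ι → F)}) (by
      rintro _ ⟨g, hg, rfl⟩ _ ⟨v, hv, rfl⟩
      obtain ⟨c, hc⟩ := (mem_scalars_iff g).1 (hle hg)
      show Matrix.toLin' (g : Matrix ι ι F) v ∈ _
      rw [Matrix.toLin'_apply, hc, Matrix.smul_mulVec, Matrix.one_mulVec]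
      exact Submodule.smul_mem _ _ hv) with h1 | h1
    · rw [Submodule.span_singleton_eq_bot] at h1
      have := congrFun h1 i
      simp at this
    · have h2 : (Pi.single j 1 : ι → F) ∈ Submodule.span F {(Pi.single i 1 : ι → F)} := by rw [h1]; trivial
      rw [Submodule.mem_span_singleton] at h2
      obtain ⟨a, ha⟩ := h2
      have := congrFun ha j
      simp [hij.symm] at this
  obtain ⟨N, hNle, hN⟩ := exists_isMinOver (H := H) (K := H ⊔ scalars ι F) le_sup_right hns hnorm
  by_cases hab : ⁅N, N⁆ ≤ scalars ι F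
  · obtain ⟨R, r, k, hRH, hD⟩ := fabel_case hn hgood hNle hN hab
    exact ocase_symp hQ hn hI hRH hD
  · rcases fnonab_cases hgood hNle hN hab with ⟨P, hP⟩ | ⟨t, P, hP⟩
    · by_cases hre : ∃ F₀ : Subfield F, F₀ ≠ ⊤ ∧ RealisableOver F₀ (matrixSet P)
      · obtain ⟨F₀, hF₀, h⟩ := hre
        exact ocase_real hQ hn hP.absIrred (hP.le.trans hI) hP.normal hF₀ h
      by_cases hu : ∃ (σ : F ≃+* F) (f : (ι → F) → (ι → F) → F), IsUnitaryForm σ f ∧ FixesForm (matrixSet P) f
      · obtain ⟨σ, f, hf, hfix⟩ := hu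
        exact absurd (realisable_of_unitaryQ hQ hn (hP.le.trans hI) hP.absIrred hP.perfect hf hfix) hre
      push Not at hre
      exact OCase.res ⟨P, hP.isResidualCore hre, hu⟩
    · exact ocase_comp hQ hn hI hP

/-- **Aschbacher's theorem, orthogonal case, refined form.** -/
theorem ocase (hQ : IsNondegenerateQuadraticForm Q) (hn : 2 ≤ Fintype.card ι) {H : Subgroup (GL ι F)}
    (hI : H ≤ isometryGroup F Q) : OCase Q H := by
  classical
  haveI hne : Nonempty ι := Fintype.card_pos_iff.1 (by omega)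
  by_cases hirr : ActsIrreducibly (matrixSet H)
  swap
  · exact ocase_red hQ hI hirr
  have hHI : ∀ g ∈ H, IsIso (RingEquiv.refl F) (gm Q) g := fun g hg => isoQ hQ (hI hg)
  rcases form_cases (rfQ hQ) hHI hirr with ⟨t, e, he⟩ | ⟨r, K, hr, hrn, hK, hle, hA⟩ | ⟨A, d, e, φ, ρ, hd, he, hle, hA⟩ | hgood
  · exact ocase_idem hQ hI hirr he
  · exact ocase_field hQ hI hirr hn hr hrn hK hle hA
  · exact ocase_tensor hQ hI hirr hn hd he φ ρ hle hA
  · exact ocase_good hQ hn hI hgood

end Cfsg.Agent.Lib.AschO
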