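import Mathlib
import Cfsg.Prelude.Def_GeometricClasses
import Cfsg.Agent.Lib.GeoBridge

set_option autoImplicit false

/-!
The subfield subgroups of `GL ι F`: rational vectors, the semilinear lemma.
-/

namespace Cfsg.Agent.Lib.SubfieldGeo

open Cfsg Cfsg.Geo Cfsg.Agent.Lib.GeoBridge
open scoped MatrixGroups Matrix

variable {ι : Type} [Fintype ι] [DecidableEq ι] {F : Type*} [Field F]

/-- the rational vectors -/
def rat (F₀ : Subfield F) (P : GL ι F) : AddSubgroup (ι → F) where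
  carrier := {v | ∃ u : ι → F, (∀ i, u i ∈ F₀) ∧ v = (P : Matrix ι ι F) *ᵥ u}
  add_mem' := by
    rintro _ _ ⟨u, hu, rfl⟩ ⟨v, hv, rfl⟩
    exact ⟨u + v, fun i => F₀.add_mem (hu i) (hv i), (Matrix.mulVec_add _ _ _).symm⟩
  zero_mem' := ⟨0, fun i => F₀.zero_mem, (Matrix.mulVec_zero _).symm⟩
  neg_mem' := by
    rintro _ ⟨u, hu, rfl⟩
    exact ⟨-u, fun i => F₀.neg_mem (hu i), (Matrix.mulVec_neg _ _).symm⟩

variable {F₀ : Subfield F} {P : GL ι F}

theorem mem_rat {v : ι → F} : v ∈ rat F₀ P ↔ ∃ u : ι → F, (∀ i, u i ∈ F₀) ∧ v = (P : Matrix ι ι F) *ᵥ u :=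
  Iff.rfl

theorem rat_smul {v : ι → F} (hv : v ∈ rat F₀ P) {c : F} (hc : c ∈ F₀) : c • v ∈ rat F₀ P := by
  obtain ⟨u, hu, rfl⟩ := hv
  exact ⟨c • u, fun i => F₀.mul_mem hc (hu i), (Matrix.mulVec_smul _ _ _).symm⟩

theorem mem_rat_iff {v : ι → F} :
    v ∈ rat F₀ P ↔ ∀ i, (((P⁻¹ : GL ι F) : Matrix ι ι F) *ᵥ v) i ∈ F₀ := by
  constructor
  · rintro ⟨u, hu, rfl⟩ i
    rw [Matrix.mulVec_mulVec, ← Units.val_mul, inv_mul_cancel, Units.val_one, Matrix.one_mulVec]
    exact hu i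
  · intro h
    refine ⟨((P⁻¹ : GL ι F) : Matrix ι ι F) *ᵥ v, h, ?_⟩
    rw [Matrix.mulVec_mulVec, ← Units.val_mul, mul_inv_cancel, Units.val_one, Matrix.one_mulVec]

theorem span_rat : Submodule.span F (rat F₀ P : Set (ι → F)) = ⊤ := by
  rw [eq_top_iff]
  intro v _
  have h1 : v = (P : Matrix ι ι F) *ᵥ (((P⁻¹ : GL ι F) : Matrix ι ι F) *ᵥ v) := by
    rw [Matrix.mulVec_mulVec, ← Units.val_mul, mul_inv_cancel, Units.val_one, Matrix.one_mulVec]
  set w := ((P⁻¹ : GL ι F) : Matrix ι ι F) *ᵥ v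
  have h2 : w = ∑ i, w i • (Pi.single i 1 : ι → F) := by
    ext j; simp [Finset.sum_apply, Pi.single_apply]
  rw [h1, h2, Matrix.mulVec_sum]
  refine Submodule.sum_mem _ fun i _ => ?_
  rw [Matrix.mulVec_smul]
  refine Submodule.smul_mem _ _ (Submodule.subset_span ⟨Pi.single i 1, fun j => ?_, rfl⟩)
  by_cases h : j = i
  · subst h; simp [F₀.one_mem]
  · simp [h, F₀.zero_mem]

/-- rational functionals separate -/
theorem exists_functional {x y : ι → F} (hx : x ∈ rat F₀ P) (hy : y ∈ rat F₀ P) (hx0 : x ≠ 0)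
    (h : ∀ c ∈ F₀, y ≠ c • x) : ∃ φ : Module.Dual F (ι → F), (∀ v ∈ rat F₀ P, φ v ∈ F₀) ∧
      φ x = 0 ∧ φ y ≠ 0 := by
  set a := ((P⁻¹ : GL ι F) : Matrix ι ι F) *ᵥ x with ha
  set b := ((P⁻¹ : GL ι F) : Matrix ι ι F) *ᵥ y with hb
  have ha1 := mem_rat_iff.1 hx
  have hb1 := mem_rat_iff.1 hy
  rw [← ha] at ha1
  rw [← hb] at hb1
  have hPa : x = (P : Matrix ι ι F) *ᵥ a := by
    rw [ha, Matrix.mulVec_mulVec, ← Units.val_mul, mul_inv_cancel, Units.val_one, Matrix.one_mulVec]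
  have hPb : y = (P : Matrix ι ι F) *ᵥ b := by
    rw [hb, Matrix.mulVec_mulVec, ← Units.val_mul, mul_inv_cancel, Units.val_one, Matrix.one_mulVec]
  have ha0 : a ≠ 0 := by
    intro h0; apply hx0; rw [hPa, h0, Matrix.mulVec_zero]
  obtain ⟨i, hi⟩ := Function.ne_iff.1 ha0
  have hi : a i ≠ 0 := hi
  obtain ⟨j, hj⟩ : ∃ j, a i * b j - a j * b i ≠ 0 := by
    by_contra hcon
    push Not at hcon
    refine h (b i / a i) (F₀.div_mem (hb1 i) (ha1 i)) ?_
    rw [hPa, hPb, ← Matrix.mulVec_smul]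
    congr 1
    ext j
    rw [Pi.smul_apply, smul_eq_mul]
    field_simp
    linear_combination hcon j
  let φ0 : Module.Dual F (ι → F) := a i • LinearMap.proj j - a j • LinearMap.proj i
  refine ⟨φ0 ∘ₗ Matrix.mulVecLin ((P⁻¹ : GL ι F) : Matrix ι ι F), ?_, ?_, ?_⟩
  · intro v hv
    have h1 := mem_rat_iff.1 hv
    show a i * _ - a j * _ ∈ F₀
    exact F₀.sub_mem (F₀.mul_mem (ha1 i) (h1 j)) (F₀.mul_mem (ha1 j) (h1 i))
  · show a i * (((P⁻¹ : GL ι F) : Matrix ι ι F) *ᵥ x) j - a j * (((P⁻¹ : GL ι F) : Matrix ι ι F) *ᵥ x) i = 0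
    rw [← ha]; ring
  · show a i * (((P⁻¹ : GL ι F) : Matrix ι ι F) *ᵥ y) j - a j * (((P⁻¹ : GL ι F) : Matrix ι ι F) *ᵥ y) i ≠ 0
    rw [← hb]; exact hj

/-- there is a rational functional not vanishing on a given nonzero rational vector. -/
theorem exists_functional_ne {x : ι → F} (hx0 : x ≠ 0) :
    ∃ φ : Module.Dual F (ι → F), (∀ v ∈ rat F₀ P, φ v ∈ F₀) ∧ φ x ≠ 0 := by
  set a := ((P⁻¹ : GL ι F) : Matrix ι ι F) *ᵥ x with ha
  have hPa : x = (P : Matrix ι ι F) *ᵥ a := by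
    rw [ha, Matrix.mulVec_mulVec, ← Units.val_mul, mul_inv_cancel, Units.val_one, Matrix.one_mulVec]
  have ha0 : a ≠ 0 := by
    intro h0; apply hx0; rw [hPa, h0, Matrix.mulVec_zero]
  obtain ⟨i, hi⟩ := Function.ne_iff.1 ha0
  refine ⟨LinearMap.proj i ∘ₗ Matrix.mulVecLin ((P⁻¹ : GL ι F) : Matrix ι ι F), ?_, ?_⟩
  · intro v hv; exact mem_rat_iff.1 hv i
  · exact hi

theorem mem_of_smul_mem {x : ι → F} (hx : x ∈ rat F₀ P) (hx0 : x ≠ 0) {c : F}
    (h : c • x ∈ rat F₀ P) : c ∈ F₀ := by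
  obtain ⟨φ, h1, h2⟩ := exists_functional_ne (F₀ := F₀) (P := P) hx0
  have h3 := h1 _ h
  rw [map_smul, smul_eq_mul] at h3
  have := F₀.div_mem h3 (h1 _ hx)
  rwa [mul_div_assoc, div_self h2, mul_one] at this

/-- a proper `F`-combination of independent rational vectors is not a multiple of a rational vector. -/
theorem add_smul_ne {x y : ι → F} (hx : x ∈ rat F₀ P) (hy : y ∈ rat F₀ P) (hx0 : x ≠ 0)
    (h : ∀ c ∈ F₀, y ≠ c • x) {τ : F} (hτ : τ ∉ F₀) (c : F) {v : ι → F} (hv : v ∈ rat F₀ P) :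
    x + τ • y ≠ c • v := by
  intro he
  have hy0 : y ≠ 0 := by
    intro h0; exact h 0 F₀.zero_mem (by rw [h0, zero_smul])
  have h' : ∀ c ∈ F₀, x ≠ c • y := by
    intro a ha hxy
    have ha0 : a ≠ 0 := by rintro rfl; rw [zero_smul] at hxy; exact hx0 hxy
    refine h a⁻¹ (F₀.inv_mem ha) ?_
    rw [hxy, smul_smul, inv_mul_cancel₀ ha0, one_smul]
  obtain ⟨φ, h1, h2, h3⟩ := exists_functional hx hy hx0 h
  obtain ⟨ψ, h1', h2', h3'⟩ := exists_functional hy hx hy0 h'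
  have e1 : τ * φ y = c * φ v := by
    have := congrArg φ he
    simpa [h2] using this
  have e2 : ψ x = c * ψ v := by
    have := congrArg ψ he
    simpa [h2'] using this
  have hψv : ψ v ≠ 0 := by intro h0; rw [h0, mul_zero] at e2; exact h3' e2
  have hc : c ∈ F₀ := by
    have : c = ψ x / ψ v := by field_simp; linear_combination -e2
    rw [this]; exact F₀.div_mem (h1' _ hx) (h1' _ hv)
  apply hτ
  have : τ = c * φ v / φ y := by field_simp; linear_combination e1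
  rw [this]
  exact F₀.div_mem (F₀.mul_mem hc (h1 _ hv)) (h1 _ hy)

/-- The semilinear lemma: a linear map sending rational vectors to multiples of rational vectors is
a scalar times a rational map. -/
theorem exists_uniform (g : (ι → F) ≃ₗ[F] (ι → F))
    (h : ∀ v ∈ rat F₀ P, ∃ c : F, ∃ v' ∈ rat F₀ P, g v = c • v') :
    ∃ c : F, c ≠ 0 ∧ ∀ v ∈ rat F₀ P, ∃ v' ∈ rat F₀ P, g v = c • v' := by
  by_cases hne : ∃ v0 ∈ rat F₀ P, v0 ≠ 0
  swap
  · push Not at hne
    refine ⟨1, one_ne_zero, fun v hv => ⟨0, (rat F₀ P).zero_mem, ?_⟩⟩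
    rw [hne v hv]; simp
  obtain ⟨v0, hv0, hv00⟩ := hne
  obtain ⟨c, v0', hv0', hc⟩ := h v0 hv0
  have hgv0 : g v0 ≠ 0 := by simpa using hv00
  have hc0 : c ≠ 0 := by rintro rfl; apply hgv0; rw [hc, zero_smul]
  have hv0'0 : v0' ≠ 0 := by rintro rfl; apply hgv0; rw [hc, smul_zero]
  refine ⟨c, hc0, fun v hv => ?_⟩
  by_cases hdep : ∃ a ∈ F₀, v = a • v0
  · obtain ⟨a, ha, rfl⟩ := hdep
    refine ⟨a • v0', rat_smul hv0' ha, ?_⟩
    rw [LinearEquiv.map_smul, hc, smul_comm]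
  push Not at hdep
  have hvne : v ≠ 0 := by
    intro h0; exact hdep 0 F₀.zero_mem (by rw [h0, zero_smul])
  obtain ⟨d, v', hv', hd⟩ := h v hv
  have hgv : g v ≠ 0 := by simpa using hvne
  have hd0 : d ≠ 0 := by rintro rfl; apply hgv; rw [hd, zero_smul]
  have hv'0 : v' ≠ 0 := by rintro rfl; apply hgv; rw [hd, smul_zero]
  obtain ⟨e, s, hs, he⟩ := h (v + v0) ((rat F₀ P).add_mem hv hv0)
  have hsum : d • v' + c • v0' = e • s := by rw [← hd, ← hc, ← map_add, he]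
  -- independence
  have hindep : ∀ a ∈ F₀, v' ≠ a • v0' := by
    intro a _ hav
    have h1 : g v = g ((d * a / c) • v0) := by
      rw [hd, LinearEquiv.map_smul, hc, hav, smul_smul, smul_smul]
      congr 1; field_simp
    have h2 := g.injective h1
    exact hdep _ (mem_of_smul_mem hv0 hv00 (h2 ▸ hv)) h2
  have hindep' : ∀ a ∈ F₀, v0' ≠ a • v' := by
    intro a ha hav
    have ha0 : a ≠ 0 := by rintro rfl; rw [zero_smul] at hav; exact hv0'0 hav
    refine hindep a⁻¹ (F₀.inv_mem ha) ?_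
    rw [hav, smul_smul, inv_mul_cancel₀ ha0, one_smul]
  have he0 : e ≠ 0 := by
    rintro rfl
    rw [zero_smul, ← hd, ← hc, ← map_add, LinearEquiv.map_eq_zero_iff] at hsum
    refine hdep (-1) (F₀.neg_mem F₀.one_mem) ?_
    rw [neg_smul, one_smul]; exact eq_neg_of_add_eq_zero_left hsum
  obtain ⟨φ, h1, h2, h3⟩ := exists_functional hv0' hv' hv0'0 hindep
  obtain ⟨ψ, h1', h2', h3'⟩ := exists_functional hv' hv0' hv'0 hindep'
  have e1 : d * φ v' = e * φ s := by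
    have := congrArg φ hsum
    simpa [h2] using this
  have e2 : c * ψ v0' = e * ψ s := by
    have := congrArg ψ hsum
    simpa [h2'] using this
  have k1 : d / e ∈ F₀ := by
    have : d / e = φ s / φ v' := by field_simp; linear_combination e1
    rw [this]; exact F₀.div_mem (h1 _ hs) (h1 _ hv')
  have k2 : c / e ∈ F₀ := by
    have : c / e = ψ s / ψ v0' := by field_simp; linear_combination e2
    rw [this]; exact F₀.div_mem (h1' _ hs) (h1' _ hv0')
  have k3 : d / c ∈ F₀ := by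
    have : d / c = (d / e) / (c / e) := by field_simp
    rw [this]; exact F₀.div_mem k1 k2
  refine ⟨(d / c) • v', rat_smul hv' k3, ?_⟩
  rw [smul_smul, mul_div_cancel₀ _ hc0, hd]

theorem scalars_comm {s : GL ι F} (hs : s ∈ scalars ι F) (g : GL ι F) : g * s = s * g := by
  obtain ⟨c, hc⟩ := (mem_scalars_iff s).1 hs
  apply Units.ext
  rw [Units.val_mul, Units.val_mul, hc]
  simp

instance : (scalars ι F).Normal := ⟨fun n hn g => by
  rw [scalars_comm hn g, mul_assoc, mul_inv_cancel, mul_one]; exact hn⟩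

/-- membership in the subfield group -/
theorem mem_subfieldSubgroup_iff (g : GL ι F) :
    g ∈ subfieldSubgroup F₀ P ↔ ∃ c : F, c ≠ 0 ∧ ∀ v ∈ rat F₀ P, ∃ v' ∈ rat F₀ P, le g v = c • v' := by
  constructor
  · rintro ⟨y, hy, rfl⟩
    obtain ⟨h, ⟨h0, rfl⟩, s, hs, rfl⟩ := Subgroup.mem_sup_of_normal_right.1 hy
    obtain ⟨c, hc⟩ := (mem_scalars_iff s).1 hs
    refine ⟨c, c.ne_zero, ?_⟩
    rintro _ ⟨u, hu, rfl⟩
    refine ⟨(P : Matrix ι ι F) *ᵥ ((Matrix.GeneralLinearGroup.map (F₀.subtype : F₀ →+* F) h0 : GL ι F) : Matrix ι ι F) *ᵥ u,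
      ⟨_, fun i => ?_, rfl⟩, ?_⟩
    · show ∑ j, _ ∈ F₀
      exact F₀.sum_mem fun j _ => F₀.mul_mem (SetLike.coe_mem _) (hu j)
    · rw [le_apply]
      show ((P * (Matrix.GeneralLinearGroup.map (F₀.subtype : F₀ →+* F) h0 * s) * P⁻¹ : GL ι F) : Matrix ι ι F) *ᵥ _ = _
      rw [Units.val_mul, Units.val_mul, Units.val_mul, hc, Matrix.mulVec_mulVec, mul_assoc,
        ← Units.val_mul, inv_mul_cancel, Units.val_one, mul_one]
      rw [← Matrix.mulVec_mulVec, ← Matrix.mulVec_mulVec, Matrix.smul_mulVec, Matrix.one_mulVec,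
        Matrix.mulVec_smul, Matrix.mulVec_smul]
  · rintro ⟨c, hc, h⟩
    -- the conjugated matrix
    set y : GL ι F := P⁻¹ * g * P with hy
    have hcol : ∀ i j, c⁻¹ * (y : Matrix ι ι F) i j ∈ F₀ := by
      intro i j
      obtain ⟨v', hv', hv⟩ := h ((P : Matrix ι ι F) *ᵥ Pi.single j 1) ⟨Pi.single j 1, fun k => by
        by_cases hk : k = j
        · subst hk; simp [F₀.one_mem]
        · simp [hk, F₀.zero_mem], rfl⟩
      obtain ⟨u', hu', rfl⟩ := hv'
      have e1 : (y : Matrix ι ι F) *ᵥ Pi.single j 1 = c • u' := by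
        rw [hy, Units.val_mul, Units.val_mul, ← Matrix.mulVec_mulVec, ← Matrix.mulVec_mulVec]
        rw [le_apply] at hv
        rw [hv, Matrix.mulVec_smul, Matrix.mulVec_mulVec, ← Units.val_mul, inv_mul_cancel,
          Units.val_one, Matrix.one_mulVec]
      have e2 : (y : Matrix ι ι F) i j = c * u' i := by
        have := congrFun e1 i
        simpa using this
      rw [e2, ← mul_assoc, inv_mul_cancel₀ hc, one_mul]
      exact hu' i
    let A : Matrix ι ι F₀ := fun i j => ⟨c⁻¹ * (y : Matrix ι ι F) i j, hcol i j⟩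
    have hA : A.map (F₀.subtype : F₀ →+* F) = c⁻¹ • (y : Matrix ι ι F) := by
      ext i j; rfl
    have hdet : A.det ≠ 0 := by
      intro h0
      have h1 : (F₀.subtype : F₀ →+* F) A.det = 0 := by rw [h0, map_zero]
      rw [RingHom.map_det, RingHom.mapMatrix_apply, hA, Matrix.det_smul] at h1
      rcases mul_eq_zero.1 h1 with h2 | h2
      · exact pow_ne_zero _ (inv_ne_zero hc) h2
      · have := (Matrix.isUnit_iff_isUnit_det _).1 y.isUnit
        rw [h2] at this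
        exact not_isUnit_zero this
    let A' : GL ι F₀ := Matrix.GeneralLinearGroup.mkOfDetNeZero A hdet
    let s : GL ι F := Units.map (Matrix.scalar ι : F →+* Matrix ι ι F).toMonoidHom (Units.mk0 c hc)
    have hs : s ∈ scalars ι F := ⟨_, rfl⟩
    have hsv : (s : Matrix ι ι F) = c • 1 := by simp [s, Matrix.smul_one_eq_diagonal]
    refine ⟨Matrix.GeneralLinearGroup.map (F₀.subtype : F₀ →+* F) A' * s,
      Subgroup.mul_mem_sup ⟨_, rfl⟩ hs, ?_⟩
    have hys : Matrix.GeneralLinearGroup.map (F₀.subtype : F₀ →+* F) A' * s = y := by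
      apply Units.ext
      rw [Units.val_mul, hsv]
      have : ((Matrix.GeneralLinearGroup.map (F₀.subtype : F₀ →+* F) A' : GL ι F) : Matrix ι ι F) =
        c⁻¹ • (y : Matrix ι ι F) := hA
      rw [this, Matrix.mul_smul, mul_one, smul_smul, mul_inv_cancel₀ hc, one_smul]
    show P * (Matrix.GeneralLinearGroup.map (F₀.subtype : F₀ →+* F) A' * s) * P⁻¹ = g
    rw [hys, hy]; group

theorem mem_subfieldSubgroup_of (g : GL ι F)
    (h : ∀ v ∈ rat F₀ P, ∃ c : F, ∃ v' ∈ rat F₀ P, le g v = c • v') : g ∈ subfieldSubgroup F₀ P := by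
  rw [mem_subfieldSubgroup_iff]
  exact exists_uniform (le g) h

end Cfsg.Agent.Lib.SubfieldGeo
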