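import Cfsg.Agent.Lib.AschO4
import Cfsg.Agent.Lib.SubfieldGeo
import Cfsg.Agent.Lib.QuadGram
import Cfsg.Agent.Lib.OrthBridge

/-!
Aschbacher's theorem for the orthogonal groups: odd characteristic refinements, the odd-dimensional case.
-/

set_option autoImplicit false
set_option linter.style.haveILetI false
set_option linter.unusedVariables false
set_option linter.unusedSectionVars false

namespace Cfsg.Agent.Lib.AschO

open Cfsg Cfsg.Geo Cfsg.Agent.Lib.AschMU Cfsg.Agent.Lib.AschCore Cfsg.Agent.Lib.AschField Cfsg.Agent.Lib.AschAlg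
  Cfsg.Agent.Lib.AschGroup Cfsg.Agent.Lib.AschGood Cfsg.Agent.Lib.AschAdj Cfsg.Agent.Lib.AschSp Cfsg.Agent.Lib.AschNonab
open Cfsg.Agent.Lib.AschDescent (env mem_env)
open scoped Matrix MatrixGroups Kronecker

section gen
variable {ι : Type} [Fintype ι] [DecidableEq ι] {F : Type*} [Field F] {Q : (ι → F) → F}

/-- An invertible matrix with prescribed independent columns. -/
lemma exists_cols {t : ℕ} (τ : ι ≃ Fin t) (E : Fin t → ι → F) (hE : ∀ a : Fin t → F, ∑ j, a j • E j = 0 → a = 0) :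
    ∃ P : GL ι F, ∀ u : ι → F, (P : Matrix ι ι F) *ᵥ u = ∑ j, u (τ.symm j) • E j := by
  let M : Matrix ι ι F := Matrix.of fun i j => E (τ j) i
  have hM : ∀ u : ι → F, M *ᵥ u = ∑ j, u (τ.symm j) • E j := by
    intro u
    rw [← Equiv.sum_comp τ]
    ext i
    simp only [Matrix.mulVec, dotProduct, M, Matrix.of_apply, Finset.sum_apply, Pi.smul_apply, smul_eq_mul, Equiv.symm_apply_apply]
    exact Finset.sum_congr rfl fun j _ => mul_comm _ _
  have hdet : M.det ≠ 0 := by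
    intro h0
    obtain ⟨v, hv, hv0⟩ := Matrix.exists_mulVec_eq_zero_iff.2 h0
    rw [hM] at hv0
    have := hE _ hv0
    apply hv
    ext i
    have := congrFun this (τ i)
    simpa using this
  exact ⟨Matrix.GeneralLinearGroup.mkOfDetNeZero M hdet, hM⟩

/-- In odd dimension the scalar in a rational structure can be removed. -/
lemma rat_one (hQ : IsNondegenerateQuadraticForm Q) (hodd : Odd (Fintype.card ι)) {F₀ : Subfield F} (hdet : (gm Q).det ∈ F₀)
    {P : GL ι F} {ζ : F} (hζ : ζ ≠ 0) (hrs : IsQuadFormRationalStructure (fun v : ι → F => ζ * Q v) F₀ P) :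
    ∃ P' : GL ι F, IsQuadFormRationalStructure Q F₀ P' ∧ subfieldSubgroup F₀ P ≤ subfieldSubgroup F₀ P' := by
  obtain ⟨k, hk⟩ := hodd
  have hdet0 : (gm Q).det ≠ 0 := by
    have := (Matrix.isUnit_iff_isUnit_det _).1 (rfQ hQ).unit
    exact this.ne_zero
  have hP0 : (P : Matrix ι ι F).det ≠ 0 := by
    have := (Matrix.isUnit_iff_isUnit_det _).1 P.isUnit
    exact this.ne_zero
  -- the Gram matrix
  have hent : ∀ i j, (ζ • ((P : Matrix ι ι F)ᵀ * gm Q * (P : Matrix ι ι F))) i j ∈ F₀ := by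
    intro i j
    have h1 : ∀ u v : ι → F, (∀ i, u i ∈ F₀) → (∀ i, v i ∈ F₀) →
        ζ * QuadraticMap.polar Q ((P : Matrix ι ι F) *ᵥ u) ((P : Matrix ι ι F) *ᵥ v) ∈ F₀ := by
      intro u v hu hv
      have e1 := hrs (u + v) (fun i => F₀.add_mem (hu i) (hv i))
      have e2 := hrs u hu
      have e3 := hrs v hv
      have e4 := F₀.sub_mem (F₀.sub_mem e1 e2) e3
      simp only [Matrix.mulVec_add] at e4
      have e5 : ζ * QuadraticMap.polar Q ((P : Matrix ι ι F) *ᵥ u) ((P : Matrix ι ι F) *ᵥ v) =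
          ζ * Q ((P : Matrix ι ι F) *ᵥ u + (P : Matrix ι ι F) *ᵥ v) - ζ * Q ((P : Matrix ι ι F) *ᵥ u) - ζ * Q ((P : Matrix ι ι F) *ᵥ v) := by
        unfold QuadraticMap.polar; ring
      rw [e5]; exact e4
    have hsing : ∀ i : ι, ∀ j, (Pi.single i 1 : ι → F) j ∈ F₀ := by
      intro i j
      by_cases h : j = i
      · subst h; rw [Pi.single_eq_same]; exact F₀.one_mem
      · rw [Pi.single_eq_of_ne h]; exact F₀.zero_mem
    have h2 := h1 (Pi.single i 1) (Pi.single j 1) (hsing i) (hsing j)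
    rw [polar_eq hQ, bf_gr, bf_rf] at h2
    unfold AschAdj.gr at h2
    rw [map_rf] at h2
    rw [Matrix.smul_apply, smul_eq_mul]
    convert h2 using 2
    simp
  have hdF : (ζ • ((P : Matrix ι ι F)ᵀ * gm Q * (P : Matrix ι ι F))).det ∈ F₀ := by
    rw [Matrix.det_apply]
    refine F₀.sum_mem fun σ _ => ?_
    rcases Int.units_eq_one_or (Equiv.Perm.sign σ) with h | h <;> rw [h]
    · rw [one_smul]; exact F₀.prod_mem fun i _ => hent _ _
    · rw [Units.neg_smul, one_smul]; exact F₀.neg_mem (F₀.prod_mem fun i _ => hent _ _)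
  rw [Matrix.det_smul, Matrix.det_mul, Matrix.det_mul, Matrix.det_transpose] at hdF
  set μ : F := ζ ^ k * (P : Matrix ι ι F).det with hμ
  have hμ0 : μ ≠ 0 := mul_ne_zero (pow_ne_zero _ hζ) hP0
  have h1 : ζ * (μ * μ) ∈ F₀ := by
    have h2 := F₀.mul_mem hdF (F₀.inv_mem hdet)
    have h3 : ζ ^ Fintype.card ι * ((P : Matrix ι ι F).det * (gm Q).det * (P : Matrix ι ι F).det) * (gm Q).det⁻¹ = ζ * (μ * μ) := by
      rw [hk, hμ]
      field_simp
      ring
    rwa [h3] at h2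
  let P' : GL ι F := ⟨μ⁻¹ • (P : Matrix ι ι F), μ • ((P⁻¹ : GL ι F) : Matrix ι ι F), by
      rw [Matrix.smul_mul, Matrix.mul_smul, smul_smul, inv_mul_cancel₀ hμ0, one_smul, gl_mul_inv], by
      rw [Matrix.smul_mul, Matrix.mul_smul, smul_smul, mul_inv_cancel₀ hμ0, one_smul, gl_inv_mul]⟩
  refine ⟨P', ?_, subfieldSubgroup_smul (inv_ne_zero hμ0) rfl⟩
  intro u hu
  have e1 : Q ((P' : Matrix ι ι F) *ᵥ u) = (ζ * (μ * μ))⁻¹ * (ζ * Q ((P : Matrix ι ι F) *ᵥ u)) := by
    show Q ((μ⁻¹ • (P : Matrix ι ι F)) *ᵥ u) = _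
    rw [Matrix.smul_mulVec, hQ.smul]
    field_simp
  rw [e1]
  exact F₀.mul_mem (F₀.inv_mem h1) (hrs u hu)

end gen

section fin
variable {ι : Type} [Fintype ι] [DecidableEq ι] {F : Type*} [Field F] [Fintype F] {Q : (ι → F) → F}

/-- A non-prime finite field has a proper subfield. -/
lemma exists_proper_subfield (hF : ¬ (Fintype.card F).Prime) : ∃ F₀ : Subfield F, F₀ ≠ ⊤ := by
  refine ⟨⊥, fun h => hF ?_⟩
  obtain ⟨p, hchar⟩ := CharP.exists F
  obtain ⟨e, hp, hcard⟩ := FiniteField.card F p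
  haveI : Fact p.Prime := ⟨hp⟩
  have h1 := Subfield.card_bot F p
  rw [h] at h1
  have h2 : Nat.card (⊤ : Subfield F) = Nat.card F := Nat.card_congr Subfield.topEquiv.toEquiv
  rw [h2, Nat.card_eq_fintype_card] at h1
  rw [h1]; exact hp

/-- Frames over non-prime fields: subfield groups. -/
theorem frame_rat (hQ : IsNondegenerateQuadraticForm Q) (h2 : (2 : F) ≠ 0) {H : Subgroup (GL ι F)} (hH : H ≤ isometryGroup F Q)
    (hF : ¬ (Fintype.card F).Prime) {t : ℕ} {D : Fin t → Submodule F (ι → F)} (htk : t = Fintype.card ι) (ht : 0 < t)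
    (hD : IsOrthogonalMDecomposition Q 1 D) (hle : H ≤ decompositionStabilizer D) :
    ∃ (F₀ : Subfield F) (r : ℕ) (P : GL ι F) (ζ : F), r.Prime ∧ Fintype.card F = Nat.card F₀ ^ r ∧ ζ ≠ 0 ∧
      IsQuadFormRationalStructure (fun v : ι → F => ζ * Q v) F₀ P ∧ H ≤ subfieldSubgroup F₀ P := by
  classical
  obtain ⟨F₀, hF₀⟩ := exists_proper_subfield hF
  obtain ⟨F₁, r, -, hr, hc⟩ := Cfsg.Agent.Lib.AschSubfield.exists_prime_index F₀ hF₀
  have hfin : ∀ i, Module.finrank F (D i) = 1 := hD.decomp.decomp.finrank_eq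
  obtain ⟨e₀, he₀, hspan₀⟩ := finrank_eq_one_iff'.1 (hfin ⟨0, ht⟩)
  choose φ hφ using fun i => hD.isometric ⟨0, ht⟩ i
  let E : Fin t → ι → F := fun i => ((φ i e₀ : D i) : ι → F)
  have hED : ∀ i, E i ∈ D i := fun i => (φ i e₀).2
  have hE0 : ∀ i, E i ≠ 0 := by
    intro i h
    apply he₀
    apply (φ i).injective
    rw [map_zero]; exact Subtype.ext h
  set lam := Q (e₀ : ι → F) with hlam
  have hQE : ∀ i, Q (E i) = lam := fun i => hφ i e₀
  have hspan : ∀ i, ∀ v ∈ D i, ∃ c : F, v = c • E i := by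
    intro i v hv
    obtain ⟨w, hw⟩ := (finrank_eq_one_iff_of_nonzero' (φ i e₀) (fun h => hE0 i (congrArg Subtype.val h))).1 (hfin i) ⟨v, hv⟩
    exact ⟨w, (congrArg Subtype.val hw).symm⟩
  have horth : ∀ i j, i ≠ j → QuadraticMap.polar Q (E i) (E j) = 0 := fun i j hij => hD.decomp.orthogonal i j hij _ (hED i) _ (hED j)
  have hlam0 : lam ≠ 0 := by
    intro h0
    obtain ⟨⟨x, hx, hne⟩, -⟩ := hD.decomp.nondegenerate ⟨0, ht⟩ (E ⟨0, ht⟩) (hED _) (hE0 _)
    obtain ⟨c, rfl⟩ := hspan _ x hx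
    apply hne
    rw [hQ.polar_bilinear.smul_left, Q_self hQ, hQE, h0]; ring
  have hself : ∀ i, QuadraticMap.polar Q (E i) (E i) = 2 * lam := fun i => by rw [Q_self hQ, hQE]
  have hsumL : ∀ (a : Fin t → F) (k : Fin t), QuadraticMap.polar Q (∑ j, a j • E j) (E k) = a k * (2 * lam) := by
    intro a k
    have hadd : ∀ s : Finset (Fin t), QuadraticMap.polar Q (∑ j ∈ s, a j • E j) (E k) = ∑ j ∈ s, QuadraticMap.polar Q (a j • E j) (E k) := by
      intro s
      induction s using Finset.induction_on with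
      | empty =>
        rw [Finset.sum_empty, Finset.sum_empty]
        have := hQ.polar_bilinear.smul_left 0 0 (E k)
        rwa [zero_smul, zero_mul] at this
      | insert b s hb ih => rw [Finset.sum_insert hb, Finset.sum_insert hb, hQ.polar_bilinear.add_left, ih]
    rw [hadd, Finset.sum_eq_single k]
    · rw [hQ.polar_bilinear.smul_left, hself]
    · intro j _ hj; rw [hQ.polar_bilinear.smul_left, horth j k hj, mul_zero]
    · intro h; exact absurd (Finset.mem_univ _) h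
  let τ : ι ≃ Fin t := (Fintype.equivFin ι).trans (finCongr htk.symm)
  obtain ⟨P, hP⟩ := exists_cols τ E (by
    intro a ha
    ext k
    have := hsumL a k
    rw [ha] at this
    have h0 := hQ.polar_bilinear.smul_left 0 0 (E k)
    rw [zero_smul, zero_mul] at h0
    rw [h0] at this
    exact ((mul_eq_zero.1 this.symm).resolve_right (mul_ne_zero h2 hlam0)))
  have hQP : ∀ u : ι → F, Q ((P : Matrix ι ι F) *ᵥ u) = lam * ∑ j, u (τ.symm j) ^ 2 := by
    intro u
    apply mul_left_cancel₀ h2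
    rw [← Q_self hQ]
    have hadd : ∀ s : Finset (Fin t), QuadraticMap.polar Q ((P : Matrix ι ι F) *ᵥ u) (∑ j ∈ s, u (τ.symm j) • E j) =
        ∑ j ∈ s, QuadraticMap.polar Q ((P : Matrix ι ι F) *ᵥ u) (u (τ.symm j) • E j) := by
      intro s
      induction s using Finset.induction_on with
      | empty =>
        rw [Finset.sum_empty, Finset.sum_empty]
        have := hQ.polar_bilinear.smul_right 0 ((P : Matrix ι ι F) *ᵥ u) 0
        rwa [zero_smul, zero_mul] at this
      | insert b s hb ih => rw [Finset.sum_insert hb, Finset.sum_insert hb, hQ.polar_bilinear.add_right, ih]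
    conv_lhs => arg 3; rw [hP u]
    rw [hadd, Finset.mul_sum, Finset.mul_sum]
    refine Finset.sum_congr rfl fun j _ => ?_
    rw [hQ.polar_bilinear.smul_right, hP u, hsumL]; ring
  refine ⟨F₁, r, P, lam⁻¹, hr, hc, inv_ne_zero hlam0, ?_, ?_⟩
  · intro u hu
    show lam⁻¹ * Q _ ∈ F₁
    rw [hQP, ← mul_assoc, inv_mul_cancel₀ hlam0, one_mul]
    exact F₁.sum_mem fun j _ => F₁.pow_mem (hu _) 2
  · intro g hg
    obtain ⟨π, hπ⟩ := hle hg
    have hgE : ∀ i, ∃ a : F, (g : Matrix ι ι F) *ᵥ (E i) = a • E (π i) ∧ (a = 1 ∨ a = -1) := by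
      intro i
      have h1 : (g : Matrix ι ι F) *ᵥ (E i) ∈ D (π i) := by
        rw [← hπ i]; exact ⟨E i, hED i, rfl⟩
      obtain ⟨a, ha⟩ := hspan _ _ h1
      refine ⟨a, ha, ?_⟩
      have h3 := isQ (hH hg) (E i)
      rw [ha, hQ.smul, hQE, hQE] at h3
      have h4 : (a ^ 2 - 1) * lam = 0 := by linear_combination h3
      have h5 := (mul_eq_zero.1 h4).resolve_right hlam0
      have h6 : (a - 1) * (a + 1) = 0 := by linear_combination h5
      rcases mul_eq_zero.1 h6 with h | h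
      · exact Or.inl (sub_eq_zero.1 h)
      · exact Or.inr (eq_neg_of_add_eq_zero_left h)
    choose a ha hapm using hgE
    apply Cfsg.Agent.Lib.SubfieldGeo.mem_subfieldSubgroup_of
    rintro _ ⟨u, hu, rfl⟩
    refine ⟨1, (g : Matrix ι ι F) *ᵥ ((P : Matrix ι ι F) *ᵥ u), ?_, by rw [one_smul]; rfl⟩
    refine ⟨fun i => a (π.symm (τ i)) * u (τ.symm (π.symm (τ i))), fun i => ?_, ?_⟩
    · refine F₁.mul_mem ?_ (hu _)
      rcases hapm (π.symm (τ i)) with h | h <;> rw [h]
      · exact F₁.one_mem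
      · exact F₁.neg_mem F₁.one_mem
    · rw [hP, hP, Matrix.mulVec_sum]
      conv_rhs => rw [← Equiv.sum_comp π]
      refine Finset.sum_congr rfl fun j _ => ?_
      rw [Matrix.mulVec_smul, ha, smul_smul, Equiv.apply_symm_apply, Equiv.symm_apply_apply, mul_comm]

/-- Pairwise orthogonal nondegenerate subspaces of the right dimension form a decomposition. -/
theorem o_decomp (hQ : IsNondegenerateQuadraticForm Q) {t m : ℕ} (ht : 2 ≤ t) (hm : 0 < m) (htm : t * m = Fintype.card ι)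
    {D : Fin t → Submodule F (ι → F)} (hfr : ∀ i, Module.finrank F (D i) = m)
    (hnd : ∀ i, IsNondegenerateOn (QuadraticMap.polar Q) (D i))
    (hort : ∀ i j, i ≠ j → AreOrthogonalFor (QuadraticMap.polar Q) (D i) (D j)) :
    IsNondegenerateMDecomposition (QuadraticMap.polar Q) m D := by
  classical
  have hind : iSupIndep D := by
    intro i
    rw [Submodule.disjoint_def]
    intro x hx hx'
    by_contra hx0
    obtain ⟨y, hy, hxy⟩ := (hnd i x hx hx0).2
    let K : Submodule F (ι → F) :=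
      { carrier := {z | QuadraticMap.polar Q z y = 0}
        zero_mem' := by
          have := hQ.polar_bilinear.smul_left 0 0 y
          rwa [zero_smul, zero_mul] at this
        add_mem' := fun {a b} ha hb => by
          show QuadraticMap.polar Q (a + b) y = 0
          have ha' : QuadraticMap.polar Q a y = 0 := ha
          have hb' : QuadraticMap.polar Q b y = 0 := hb
          rw [hQ.polar_bilinear.add_left, ha', hb', add_zero]
        smul_mem' := fun c a ha => by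
          show QuadraticMap.polar Q (c • a) y = 0
          have ha' : QuadraticMap.polar Q a y = 0 := ha
          rw [hQ.polar_bilinear.smul_left, ha', mul_zero] }
    have h1 : (⨆ j, ⨆ (_ : j ≠ i), D j) ≤ K := by
      refine iSup_le fun j => iSup_le fun hj => ?_
      intro z hz
      exact hort j i hj z hz y hy
    exact hxy (h1 hx')
  refine ⟨⟨ht, hm, hfr, hind, ?_⟩, hnd, hort⟩
  have h1 := hind.dfinsupp_lsum_injective
  have h2 : Module.finrank F (Π₀ i, D i) = Fintype.card ι := by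
    rw [LinearEquiv.finrank_eq (DFinsupp.linearEquivFunOnFintype (R := F) (M := fun i => D i)), Module.finrank_pi_fintype]
    simp only [hfr, Finset.sum_const, Finset.card_univ, Fintype.card_fin, smul_eq_mul]
    exact htm
  rw [Submodule.iSup_eq_range_dfinsupp_lsum]
  apply Submodule.eq_top_of_finrank_eq
  rw [LinearMap.finrank_range_of_inj h1, h2, Module.finrank_fintype_fun_eq_card]

/-- The Gram matrix from a tensor form structure. -/
lemma gr_of_structure (hQ : IsNondegenerateQuadraticForm Q) {d e : ℕ} {ρ : ι ≃ Fin d × Fin e} {P : GL ι F}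
    {f₁ : (Fin d → F) → (Fin d → F) → F} {f₂ : (Fin e → F) → (Fin e → F) → F}
    (hst : IsTensorFormStructure id (QuadraticMap.polar Q) f₁ f₂ ρ P) :
    ∃ c : F, c ≠ 0 ∧ gr (RingEquiv.refl F) (gm Q) P = c • kronL ρ (gramMatrix f₁) (gramMatrix f₂) := by
  obtain ⟨c, hc, h⟩ := hst
  refine ⟨c, hc, ?_⟩
  ext i j
  have h1 := h (Pi.single (ρ i) 1) (Pi.single (ρ j) 1)
  have e1 : ∀ i : ι, (Pi.single (ρ i) 1 : Fin d × Fin e → F) ∘ ρ = Pi.single i 1 := by
    intro i
    ext k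
    by_cases hk : k = i
    · subst hk; simp
    · rw [Function.comp_apply, Pi.single_eq_of_ne hk, Pi.single_eq_of_ne (fun h => hk (ρ.injective h))]
  rw [e1, e1, polar_eq hQ, bf_gr, bf_rf] at h1
  have e2 : (Pi.single i 1 : ι → F) ⬝ᵥ (gr (RingEquiv.refl F) (gm Q) P *ᵥ Pi.single j 1) = gr (RingEquiv.refl F) (gm Q) P i j := by simp
  rw [e2] at h1
  rw [h1, Matrix.smul_apply, smul_eq_mul]
  congr 1
  unfold formOfGram
  rw [Finset.sum_eq_single (ρ i), Finset.sum_eq_single (ρ j)]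
  · simp [kronL]
  · intro b _ hb; simp [hb]
  · intro h; exact absurd (Finset.mem_univ _) h
  · intro b _ hb
    exact Finset.sum_eq_zero fun c _ => by simp [hb]
  · intro h; exact absurd (Finset.mem_univ _) h

/-- The quadratic form of a symmetric bilinear form. -/
lemma quad_of_symm {d : ℕ} (h2 : (2 : F) ≠ 0) {f : (Fin d → F) → (Fin d → F) → F} (hf : IsSymmetricForm f) {δ : F} (hδ : δ ≠ 0) :
    IsNondegenerateQuadraticForm (fun v => δ * f v v) ∧ ∀ u v, QuadraticMap.polar (fun v => δ * f v v) u v = 2 * δ * f u v := by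
  have hpol : ∀ u v, QuadraticMap.polar (fun v => δ * f v v) u v = 2 * δ * f u v := by
    intro u v
    show δ * f (u + v) (u + v) - δ * f u u - δ * f v v = _
    rw [hf.bilinear.add_left, hf.bilinear.add_right, hf.bilinear.add_right, hf.symm v u]; ring
  refine ⟨⟨?_, ?_, ?_⟩, hpol⟩
  · intro c v
    show δ * f (c • v) (c • v) = _
    rw [hf.bilinear.smul_left, hf.bilinear.smul_right]; ring
  · refine ⟨?_, ?_, ?_, ?_⟩
    · intro x y v; rw [hpol, hpol, hpol, hf.bilinear.add_left]; ring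
    · intro c x v; rw [hpol, hpol, hf.bilinear.smul_left]; ring
    · intro v x y; rw [hpol, hpol, hpol, hf.bilinear.add_right]; ring
    · intro c v x; rw [hpol, hpol, hf.bilinear.smul_right]; ring
  · intro v hv
    obtain ⟨⟨x, hx⟩, ⟨y, hy⟩⟩ := hf.nondegenerate v hv
    exact ⟨⟨x, by rw [hpol]; exact mul_ne_zero (mul_ne_zero h2 hδ) hx⟩, ⟨y, by rw [hpol]; exact mul_ne_zero (mul_ne_zero h2 hδ) hy⟩⟩

/-- Symmetric forms in odd dimension are similar. -/
theorem sim_of_odd {d : ℕ} (hd : Odd d) (h2 : (2 : F) ≠ 0) {f₁ f₂ : (Fin d → F) → (Fin d → F) → F} (hf₁ : IsSymmetricForm f₁)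
    (hf₂ : IsSymmetricForm f₂) : ∃ (C : GL (Fin d) F) (c : F), c ≠ 0 ∧
      ∀ u v, f₂ ((C : Matrix (Fin d) (Fin d) F) *ᵥ u) ((C : Matrix (Fin d) (Fin d) F) *ᵥ v) = c * f₁ u v := by
  obtain ⟨hq₁, hp₁⟩ := quad_of_symm h2 hf₁ (one_ne_zero)
  have hu₁ := (AschForms.isSesq_of_bilinear hf₁.bilinear).isUnit_gram hf₁.nondegenerate
  have hu₂ := (AschForms.isSesq_of_bilinear hf₂.bilinear).isUnit_gram hf₂.nondegenerate
  have hdet₁ : (gramMatrix f₁).det ≠ 0 := ((Matrix.isUnit_iff_isUnit_det _).1 hu₁).ne_zero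
  have hdet₂ : (gramMatrix f₂).det ≠ 0 := ((Matrix.isUnit_iff_isUnit_det _).1 hu₂).ne_zero
  set δ : F := (gramMatrix f₁).det * (gramMatrix f₂).det with hδ
  have hδ0 : δ ≠ 0 := mul_ne_zero hdet₁ hdet₂
  obtain ⟨hq₂, hp₂⟩ := quad_of_symm h2 hf₂ hδ0
  have hg : ∀ {f : (Fin d → F) → (Fin d → F) → F} (hf : IsSymmetricForm f) {δ : F} (hδ : δ ≠ 0)
      (hq : IsNondegenerateQuadraticForm (fun v => δ * f v v)) (hp : ∀ u v, QuadraticMap.polar (fun v => δ * f v v) u v = 2 * δ * f u v),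
      (LinearMap.BilinForm.toMatrix (Pi.basisFun F (Fin d)) (QuadraticMap.polarBilin (OrthBridge.qf hq))) = (2 * δ) • gramMatrix f := by
    intro f hf δ hδ hq hp
    ext i j
    rw [LinearMap.BilinForm.toMatrix_apply, Matrix.smul_apply, smul_eq_mul]
    show QuadraticMap.polar (fun v => δ * f v v) _ _ = _
    rw [hp, Pi.basisFun_apply, Pi.basisFun_apply]
    rfl
  obtain ⟨g, hgg⟩ := Cfsg.Agent.Lib.Quad.exists_isometry_of_disc h2 (OrthBridge.nd_qf hq₁) (OrthBridge.nd_qf hq₂) rfl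
    (Pi.basisFun F (Fin d)) (Pi.basisFun F (Fin d)) (by
      rw [hg hf₁ one_ne_zero hq₁ hp₁, hg hf₂ hδ0 hq₂ hp₂, Matrix.det_smul, Matrix.det_smul, Fintype.card_fin]
      obtain ⟨k, hk⟩ := hd
      refine ⟨2 ^ d * δ ^ (k + 1), ?_⟩
      have hpow : ∀ x : F, x ^ d = x ^ (2 * k + 1) := fun x => by rw [hk]
      simp only [hpow, mul_one]
      rw [mul_pow 2 δ]
      linear_combination (-(2 ^ (2 * k + 1) * 2 ^ (2 * k + 1) * δ ^ (2 * k + 1))) * hδ)
  refine ⟨GeoBridge.le.symm g, δ⁻¹, inv_ne_zero hδ0, fun u v => ?_⟩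
  rw [GeoBridge.le_symm_mulVec, GeoBridge.le_symm_mulVec]
  have h1 : ∀ v, δ * f₂ (g v) (g v) = 1 * f₁ v v := hgg
  have h3 : QuadraticMap.polar (fun v => δ * f₂ v v) (g u) (g v) = QuadraticMap.polar (fun v => 1 * f₁ v v) u v := by
    unfold QuadraticMap.polar
    simp only
    rw [← map_add, h1, h1, h1]
  rw [hp₁, hp₂] at h3
  field_simp
  have h4 := mul_left_cancel₀ h2 (show 2 * (δ * f₂ (g u) (g v)) = 2 * (f₁ u v) by linear_combination h3)
  linear_combination h4

/-- Tensor squares. -/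
theorem tsym_sq (hQ : IsNondegenerateQuadraticForm Q) (h2 : (2 : F) ≠ 0) {d : ℕ} (hd : Odd d) {ρ : ι ≃ Fin d × Fin d} {P : GL ι F}
    {f₁ : (Fin d → F) → (Fin d → F) → F} {f₂ : (Fin d → F) → (Fin d → F) → F} (hf₁ : IsSymmetricForm f₁) (hf₂ : IsSymmetricForm f₂)
    (hst : IsTensorFormStructure id (QuadraticMap.polar Q) f₁ f₂ ρ P) :
    ∃ (e : ι ≃ (Fin 2 → Fin d)) (P' : GL ι F), IsTensorPowerFormStructure id (QuadraticMap.polar Q) f₁ e P' ∧
      tensorProductSubgroup d d ρ P ≤ tensorWreathSubgroup d 2 e P' := by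
  obtain ⟨c, hc, hG⟩ := gr_of_structure hQ hst
  obtain ⟨C, c', hc', hC⟩ := sim_of_odd hd h2 hf₁ hf₂
  have hCm : (C : Matrix (Fin d) (Fin d) F)ᵀ * gramMatrix f₂ * (C : Matrix (Fin d) (Fin d) F) = c' • gramMatrix f₁ := by
    have hs₂ := AschForms.isSesq_of_bilinear hf₂.bilinear
    have hs₁ := AschForms.isSesq_of_bilinear hf₁.bilinear
    ext i j
    have h1 := hC (Pi.single i 1) (Pi.single j 1)
    rw [hs₂.eq_gram] at h1
    rw [Matrix.smul_apply, smul_eq_mul]
    show _ = c' * f₁ (Pi.single i 1) (Pi.single j 1)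
    rw [← h1]
    show _ = ((C : Matrix (Fin d) (Fin d) F) *ᵥ Pi.single i 1) ⬝ᵥ (gramMatrix f₂ *ᵥ ((C : Matrix (Fin d) (Fin d) F) *ᵥ Pi.single j 1))
    rw [Matrix.mulVec_single_one, Matrix.mulVec_single_one, mul_assoc]
    rfl
  set P' := P * kronU ρ 1 C with hP'
  have hgr : gr (RingEquiv.refl F) (gm Q) P' = (c * c') • kronL ρ (gramMatrix f₁) (gramMatrix f₁) := by
    rw [hP', gr_mul, hG]
    unfold AschAdj.gr
    rw [map_rf, kronU_val, transpose_kronL, Matrix.mul_smul, Matrix.smul_mul, kronL_mul, kronL_mul, Units.val_one, Matrix.transpose_one,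
      one_mul, mul_one, hCm, kronL_smul, smul_smul]
  refine ⟨ρ.trans (finTwoArrowEquiv (Fin d)).symm, P', ⟨c * c', mul_ne_zero hc hc', fun x y => ?_⟩,
    (tps_kronU 1 C).trans (AschLinear.tensorProduct_le_tensorWreath ρ P')⟩
  rw [polar_eq hQ, bf_gr, hgr]
  have e1 : ∀ (M : Matrix ι ι F) (u v : ι → F), bf (RingEquiv.refl F) ((c * c') • M) u v = (c * c') * bf (RingEquiv.refl F) M u v := by
    intro M u v
    rw [bf_rf, bf_rf, Matrix.smul_mulVec, dotProduct_smul, smul_eq_mul]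
  rw [e1]
  congr 1
  have e2 : ∀ x : (Fin 2 → Fin d) → F, x ∘ (ρ.trans (finTwoArrowEquiv (Fin d)).symm) = (x ∘ (finTwoArrowEquiv (Fin d)).symm) ∘ ρ := fun x => rfl
  rw [e2, e2]
  unfold kronL
  rw [bf_reindex]
  unfold formOfGram
  rw [← Equiv.sum_comp (finTwoArrowEquiv (Fin d))]
  refine Finset.sum_congr rfl fun a _ => ?_
  rw [← Equiv.sum_comp (finTwoArrowEquiv (Fin d))]
  refine Finset.sum_congr rfl fun b _ => ?_
  have e3 : ∀ a : Fin 2 → Fin d, ![a 0, a 1] = a := by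
    intro a; ext i; fin_cases i <;> rfl
  simp [Fin.prod_univ_two, Matrix.kroneckerMap_apply, finTwoArrowEquiv, e3]

end fin

end Cfsg.Agent.Lib.AschO
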