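import Cfsg.Agent.Lib.AschO5

/-!
Aschbacher's theorem for the orthogonal groups: tensor products with a three-dimensional factor over the field with three
elements.
-/

set_option autoImplicit false
set_option linter.style.haveILetI false
set_option linter.unusedVariables false
set_option linter.unusedSectionVars false

namespace Cfsg.Agent.Lib.AschO

open Cfsg Cfsg.Geo Cfsg.Agent.Lib.AschMU Cfsg.Agent.Lib.AschCore Cfsg.Agent.Lib.AschField Cfsg.Agent.Lib.AschAlg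
  Cfsg.Agent.Lib.AschGroup Cfsg.Agent.Lib.AschGood Cfsg.Agent.Lib.AschAdj Cfsg.Agent.Lib.AschSp Cfsg.Agent.Lib.AschNonab
open Cfsg.Agent.Lib.AschDescent (env mem_env)
open Cfsg.Agent.Lib.O33 (SB exists_frame frame_exp eq_of_norm factor_one sq_one pm_one)
open Cfsg.Agent.Lib.TensorGeo (tp tpB tpB_apply form_tp eq_formOfGram tp_smul_left tp_smul_right tp_add_left mem_tensor_iff)
open Cfsg.Agent.Lib.GeoBridge (le)
open scoped Matrix MatrixGroups Kronecker

variable {ι : Type} [Fintype ι] [DecidableEq ι] {F : Type*} [Field F] [Fintype F] {Q : (ι → F) → F}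

/-- A tensor product with a three-dimensional symmetric factor over `F₃` preserves an orthogonal decomposition. -/
theorem tsym3_dec (hq : Fintype.card F = 3) (hQ : IsNondegenerateQuadraticForm Q) {H : Subgroup (GL ι F)} (hH : H ≤ isometryGroup F Q)
    {n₂ : ℕ} (h2 : 1 ≤ n₂) {e : ι ≃ Fin 3 × Fin n₂} {P : GL ι F}
    {f₁ : (Fin 3 → F) → (Fin 3 → F) → F} {f₂ : (Fin n₂ → F) → (Fin n₂ → F) → F}
    (hf₁ : IsSymmetricForm f₁) (hf₂ : IsSymmetricForm f₂)
    (hT : IsTensorFormStructure id (QuadraticMap.polar Q) f₁ f₂ e P) (hle : H ≤ tensorProductSubgroup 3 n₂ e P) :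
    ∃ D : Fin 3 → Submodule F (ι → F), IsOrthogonalMDecomposition Q n₂ D ∧ H ≤ decompositionStabilizer D := by
  classical
  obtain ⟨c, hc0, hc⟩ := hT
  have hform : ∀ x₁ y₁ x₂ y₂, QuadraticMap.polar Q (tp e P x₁ x₂) (tp e P y₁ y₂) = c * (f₁ x₁ y₁ * f₂ x₂ y₂) := by
    refine form_tp (σ := id) (fun a b => rfl) ?_ ?_ hc
    · exact eq_formOfGram hf₁.bilinear.add_left hf₁.bilinear.smul_left hf₁.bilinear.add_right
        hf₁.bilinear.smul_right
    · exact eq_formOfGram hf₂.bilinear.add_left hf₂.bilinear.smul_left hf₂.bilinear.add_right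
        hf₂.bilinear.smul_right
  have H1 : SB f₁ := ⟨hf₁.bilinear.add_left, hf₁.bilinear.smul_left, hf₁.symm⟩
  have H2 : SB f₂ := ⟨hf₂.bilinear.add_left, hf₂.bilinear.smul_left, hf₂.symm⟩
  have hfr3 : Module.finrank F (⊤ : Submodule F (Fin 3 → F)) = 3 := by
    rw [finrank_top, Module.finrank_fin_fun]
  obtain ⟨ε, hε, E, -, hE⟩ := exists_frame hq H1 hfr3 (fun x _ hx => by
    obtain ⟨y, hy⟩ := (hf₁.nondegenerate x hx).2
    exact ⟨y, trivial, hy⟩)
  have hnorm : ∀ x, f₁ x x = ε → ∃ i, ∃ a : F, a ≠ 0 ∧ x = a • E i := fun x hx =>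
    eq_of_norm hq H1 hfr3 hε (fun _ => trivial) hE trivial hx
  have hf2nd : ∀ x, (∀ z, f₂ x z = 0) → x = 0 := by
    intro x hx
    by_contra hne
    obtain ⟨z, hz⟩ := (hf₂.nondegenerate x hne).2
    exact hz (hx z)
  let T : Fin 3 → Submodule F (ι → F) := fun i => LinearMap.range (tpB e P (E i))
  have hTmem : ∀ i y, tp e P (E i) y ∈ T i := fun i y => ⟨y, rfl⟩
  have hTor : ∀ i j, i ≠ j → AreOrthogonalFor (QuadraticMap.polar Q) (T i) (T j) := by
    rintro i j hij _ ⟨x, rfl⟩ _ ⟨y, rfl⟩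
    rw [tpB_apply, tpB_apply, hform, hE, if_neg hij]; ring
  have hTinj : ∀ i, Function.Injective (tpB e P (E i)) := by
    intro i x y hxy
    rw [tpB_apply, tpB_apply] at hxy
    have h1 : x - y = 0 := by
      apply hf2nd
      intro z
      have h2 : QuadraticMap.polar Q (tp e P (E i) x) (tp e P (E i) z) = QuadraticMap.polar Q (tp e P (E i) y) (tp e P (E i) z) := by
        rw [hxy]
      rw [hform, hform, hE, if_pos rfl] at h2
      have h4 := mul_left_cancel₀ hε (mul_left_cancel₀ hc0 h2)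
      rw [H2.sub_left, h4, sub_self]
    exact sub_eq_zero.1 h1
  have hTnd : ∀ i, IsNondegenerateOn (QuadraticMap.polar Q) (T i) := by
    rintro i _ ⟨x, rfl⟩ hx
    have hx0 : x ≠ 0 := by rintro rfl; exact hx (map_zero _)
    obtain ⟨⟨y, hy⟩, ⟨z, hz⟩⟩ := hf₂.nondegenerate x hx0
    refine ⟨⟨tp e P (E i) y, hTmem i y, ?_⟩, ⟨tp e P (E i) z, hTmem i z, ?_⟩⟩
    · rw [tpB_apply, hform, hE, if_pos rfl]; exact mul_ne_zero hc0 (mul_ne_zero hε hy)
    · rw [tpB_apply, hform, hE, if_pos rfl]; exact mul_ne_zero hc0 (mul_ne_zero hε hz)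
  have hTdim : ∀ i, Module.finrank F (T i) = n₂ := by
    intro i
    rw [LinearMap.finrank_range_of_inj (hTinj i), Module.finrank_fin_fun]
  have htwo : (2 : F) ≠ 0 := Cfsg.Agent.Lib.O33.two_ne_zero' hq
  have hQT : ∀ i x, 2 * Q (tp e P (E i) x) = c * (ε * f₂ x x) := by
    intro i x
    rw [← Q_self hQ, hform, hE, if_pos rfl]
  refine ⟨T, ⟨o_decomp hQ (by norm_num) (by omega) ?_ hTdim hTnd hTor, ?_⟩, ?_⟩
  · rw [Fintype.card_congr e, Fintype.card_prod, Fintype.card_fin, Fintype.card_fin]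
  · intro i j
    let φi := LinearEquiv.ofInjective (tpB e P (E i)) (hTinj i)
    let φj := LinearEquiv.ofInjective (tpB e P (E j)) (hTinj j)
    refine ⟨φi.symm.trans φj, fun w => ?_⟩
    obtain ⟨x, rfl⟩ := φi.surjective w
    rw [LinearEquiv.trans_apply, LinearEquiv.symm_apply_apply]
    have e1 : ((φi x : T i) : ι → F) = tp e P (E i) x := rfl
    have e2 : ((φj x : T j) : ι → F) = tp e P (E j) x := rfl
    rw [e1, e2]
    apply mul_left_cancel₀ htwo
    rw [hQT, hQT]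
  · intro g hg
    obtain ⟨A, B, hAB⟩ := (mem_tensor_iff g).1 (hle hg)
    have hgi : ∀ x y, QuadraticMap.polar Q (le g x) (le g y) = QuadraticMap.polar Q x y := by
      intro x y
      have := (isIso_iff (rfQ hQ) g).1 (isoQ hQ (hH hg)) x y
      rw [← polar_eq hQ] at this
      exact this
    have h1 : ∀ x₁ y₁ x₂ y₂, f₁ (A.1 *ᵥ x₁) (A.1 *ᵥ y₁) * f₂ (B.1 *ᵥ x₂) (B.1 *ᵥ y₂) =
        f₁ x₁ y₁ * f₂ x₂ y₂ := by
      intro x₁ y₁ x₂ y₂
      have h2 := hgi (tp e P x₁ x₂) (tp e P y₁ y₂)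
      rw [hAB, hAB, hform, hform] at h2
      exact mul_left_cancel₀ hc0 h2
    obtain ⟨w0, hw0⟩ : ∃ w0 : Fin n₂ → F, w0 ≠ 0 := by
      have : Nontrivial (Fin n₂ → F) := Module.nontrivial_of_finrank_pos (R := F) (by
        rw [Module.finrank_fin_fun]; omega)
      exact exists_ne _
    obtain ⟨y0, hy0⟩ : ∃ y0, f₂ y0 w0 ≠ 0 := (hf₂.nondegenerate w0 hw0).1
    have hne : f₂ (B.1 *ᵥ y0) (B.1 *ᵥ w0) ≠ 0 := by
      intro h0
      have := h1 (E 0) (E 0) y0 w0
      rw [h0, mul_zero, hE, if_pos rfl] at this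
      exact mul_ne_zero hε hy0 this.symm
    have h2' : ∀ x y, f₁ (A.1 *ᵥ x) (A.1 *ᵥ y) = (f₂ y0 w0 / f₂ (B.1 *ᵥ y0) (B.1 *ᵥ w0)) * f₁ x y := by
      intro x y
      have := h1 x y y0 w0
      field_simp
      linear_combination this
    have hμ := factor_one hq H1 hfr3 hε (fun _ => trivial) hE (div_ne_zero hy0 hne)
      (u := fun i => A.1 *ᵥ (E i)) (fun _ => trivial) (fun i j => by rw [h2', hE])
    have hAE : ∀ i, ∃ j, ∃ a : F, a ≠ 0 ∧ A.1 *ᵥ (E i) = a • E j := by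
      intro i
      apply hnorm
      rw [h2', hμ, one_mul, hE, if_pos rfl]
    choose π a ha haE using hAE
    have hπ : Function.Injective π := by
      intro i j hij
      by_contra hne'
      have h3 := h2' (E i) (E j)
      rw [hE, if_neg hne', mul_zero, haE, haE, hf₁.bilinear.smul_left, hf₁.bilinear.smul_right, hE, if_pos hij] at h3
      exact mul_ne_zero (ha i) (mul_ne_zero (ha j) hε) h3
    refine ⟨Equiv.ofBijective π (Finite.injective_iff_bijective.1 hπ), fun i => ?_⟩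
    have hfr : Module.finrank F ((T i).map (Matrix.toLin' (g : Matrix ι ι F))) = Module.finrank F (T (π i)) := by
      rw [finrank_map_gl, hTdim, hTdim]
    apply Submodule.eq_of_le_of_finrank_eq
    · rintro _ ⟨_, ⟨x, rfl⟩, rfl⟩
      show Matrix.toLin' (g : Matrix ι ι F) (tpB e P (E i) x) ∈ T (π i)
      rw [Matrix.toLin'_apply, tpB_apply]
      have h3 : (g : Matrix ι ι F) *ᵥ (tp e P (E i) x) = tp e P (A.1 *ᵥ (E i)) (B.1 *ᵥ x) := hAB (E i) x
      rw [h3, haE, tp_smul_left]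
      exact (T (π i)).smul_mem _ (hTmem _ _)
    · exact hfr

/-- The standard odd-dimensional form. -/
lemma nd_odd {m : ℕ} (h2 : (2 : F) ≠ 0) : IsNondegenerateQuadraticForm (quadFormOdd m F) := by
  have h := Cfsg.Agent.Lib.Quad.nd_quadOdd (m := m) h2
  have hQ : ∀ v, Cfsg.Agent.Lib.Quad.quadOdd m F v = quadFormOdd m F v := fun v => rfl
  refine ⟨fun c v => ?_, ⟨?_, ?_, ?_, ?_⟩, ?_⟩
  · rw [← hQ, ← hQ, QuadraticMap.map_smul, smul_eq_mul]; ring
  · intro x y v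
    exact QuadraticMap.polar_add_left (Cfsg.Agent.Lib.Quad.quadOdd m F) x y v
  · intro c x v
    exact QuadraticMap.polar_smul_left (Cfsg.Agent.Lib.Quad.quadOdd m F) c x v
  · intro v x y
    exact QuadraticMap.polar_add_right (Cfsg.Agent.Lib.Quad.quadOdd m F) v x y
  · intro c v x
    exact QuadraticMap.polar_smul_right (Cfsg.Agent.Lib.Quad.quadOdd m F) c v x
  · intro v hv
    by_contra hcon
    apply hv
    rw [not_and_or] at hcon
    rcases hcon with h0 | h0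
    · push Not at h0
      exact h.eq_zero (fun x => by rw [QuadraticMap.polar_comm]; exact h0 x)
    · push Not at h0
      exact h.eq_zero h0

lemma det_odd_mem {m : ℕ} (F₀ : Subfield F) : (gm (quadFormOdd m F)).det ∈ F₀ := by
  have h1 := Cfsg.Agent.Lib.Quad.det_gram_odd (F := F) (m := m)
  have h2 : gm (quadFormOdd m F) = LinearMap.BilinForm.toMatrix
      (Pi.basisFun F (Unit ⊕ (Fin m ⊕ Fin m))) (QuadraticMap.polarBilin (Cfsg.Agent.Lib.Quad.quadOdd m F)) := by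
    ext i j
    rw [LinearMap.BilinForm.toMatrix_apply, Pi.basisFun_apply, Pi.basisFun_apply]
    rfl
  rw [h2, h1]
  refine F₀.mul_mem ?_ (F₀.pow_mem (F₀.neg_mem F₀.one_mem) _)
  rw [← one_add_one_eq_two]
  exact F₀.add_mem F₀.one_mem F₀.one_mem

lemma omega_le {Q : (ι → F) → F} : omegaGL Q ≤ isometryGroup F Q := Subgroup.map_subtype_le _

lemma even_of_symp {d : ℕ} {f : (Fin d → F) → (Fin d → F) → F} (hf : IsSymplecticForm f) : Even d := by
  have hu := (AschForms.isSesq_of_bilinear hf.bilinear).isUnit_gram hf.nondegenerate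
  have := even_of_alt hu (by ext i j; exact hf.skew _ _) (fun i => hf.alternating _)
  rwa [Fintype.card_fin] at this

/-- **Aschbacher's theorem, odd-dimensional orthogonal case.** -/
theorem odd_case (hodd : Odd (Fintype.card F)) {m : ℕ} (hm : 1 ≤ m) {H : Subgroup (GL (Unit ⊕ (Fin m ⊕ Fin m)) F)}
    (hH : H ≤ isometryGroup F (quadFormOdd m F)) :
    (∃ M : Subgroup (GL (Unit ⊕ (Fin m ⊕ Fin m)) F), InOrthogonalOddClass m F M ∧ H ≤ M) ∨ InOrthogonalResidualClass H := by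
  classical
  have h2 := two_ne_of_odd hodd
  have hQ := nd_odd (m := m) h2
  have hcard : Fintype.card (Unit ⊕ (Fin m ⊕ Fin m)) = 2 * m + 1 := by
    rw [Fintype.card_sum, Fintype.card_sum, Fintype.card_fin, Fintype.card_unit]; ring
  have hnodd : Odd (Fintype.card (Unit ⊕ (Fin m ⊕ Fin m))) := ⟨m, hcard⟩
  have hrat : ∀ (F₀ : Subfield F) (r : ℕ) (P : GL (Unit ⊕ (Fin m ⊕ Fin m)) F) (ζ : F), r.Prime → Fintype.card F = Nat.card F₀ ^ r → ζ ≠ 0 →
      IsQuadFormRationalStructure (fun v => ζ * quadFormOdd m F v) F₀ P → H ≤ subfieldSubgroup F₀ P →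
      ∃ M : Subgroup (GL (Unit ⊕ (Fin m ⊕ Fin m)) F), InOrthogonalOddClass m F M ∧ H ≤ M := by
    intro F₀ r P ζ hr hc hζ hrs hle
    obtain ⟨P', hP', hle'⟩ := rat_one hQ hnodd (det_odd_mem F₀) hζ hrs
    exact ⟨_, Or.inr (Or.inr (Or.inr (Or.inr (Or.inr (Or.inr (Or.inl ⟨F₀, r, P', hr, hc, hP', rfl⟩)))))), le_inf (hle.trans hle') hH⟩
  rcases ocase hQ (by omega) hH with ⟨W, h0, hs, hle⟩ | ⟨W, h0, h1, hs, hle⟩ | ⟨v, h2', hv, hle⟩ | ⟨t, k, D, ht, htk, hD, hle⟩ |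
    ⟨k, D, htk, hD, hs, hle⟩ | ⟨r, K, hr, hrn, hne, hK, hsa, hle⟩ | ⟨K, hrn, hK, hac, hns, hsim, hle⟩ |
    ⟨d, e, ρ, P, f₁, f₂, ho, hd, hde, hf₁, hf₂, hst, hle⟩ | ⟨d, e, ρ, P, f₁, f₂, hd, hde, hf₁, hf₂, hst, hpure, hle⟩ |
    ⟨F₀, r, P, ζ, hr, hc, hζ, hrs, hle⟩ | ⟨R, k, ho, hR, habs, hcomm, hk⟩ | ⟨k, t, e, P, f₁, ho, hk, ht, hne, hc, hf₁, hst, hle⟩ |
    ⟨k, t, hk, ht, hc, hev, hplus⟩ | h
  · exact Or.inl ⟨_, Or.inl ⟨W, h0, hs, rfl⟩, le_inf hle hH⟩
  · exact Or.inl ⟨_, Or.inr (Or.inl ⟨W, h0, h1, hs, rfl⟩), le_inf hle hH⟩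
  · exact absurd h2' h2
  · left
    rcases Nat.lt_or_ge 1 k with hk | hk
    · exact ⟨_, Or.inr (Or.inr (Or.inl ⟨t, k, D, hk, hD, rfl⟩)), le_inf hle hH⟩
    · have hk1 : k = 1 := le_antisymm hk hD.decomp.decomp.pos
      subst hk1
      by_cases hp : (Fintype.card F).Prime
      · exact ⟨_, Or.inr (Or.inr (Or.inr (Or.inl ⟨t, D, hp, hD, rfl⟩))), le_inf hle hH⟩
      · obtain ⟨F₀, r, P, ζ, hr, hc, hζ, hrs, hle'⟩ := frame_rat hQ h2 hH hp (by rw [← htk, mul_one]) (by omega) hD hle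
        exact hrat F₀ r P ζ hr hc hζ hrs hle'
  · omega
  · rcases hne with rfl | hne
    · omega
    · exact Or.inl ⟨_, Or.inr (Or.inr (Or.inr (Or.inr (Or.inl ⟨r, K, hr, by rw [← hcard]; exact Ne.symm hne, hK, hsa, rfl⟩)))), le_inf hle hH⟩
  · omega
  · left
    rcases lt_or_eq_of_le hde with hlt | heq
    · exact ⟨_, Or.inr (Or.inr (Or.inr (Or.inr (Or.inr (Or.inl ⟨d, e, ρ, P, f₁, f₂, hd, hlt, hf₁, hf₂, hst, rfl⟩))))), le_inf hle hH⟩
    · subst heq
      have hdodd : Odd d := by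
        have h3 := Fintype.card_congr ρ
        rw [Fintype.card_prod, Fintype.card_fin, hcard] at h3
        by_contra hcon
        rw [Nat.not_odd_iff_even] at hcon
        have h4 : Even (2 * m + 1) := by rw [h3]; exact hcon.mul_right d
        exact absurd h4 (by rw [Nat.not_even_iff_odd]; exact ⟨m, rfl⟩)
      by_cases hex : Fintype.card F = 3 ∧ d = 3
      · obtain ⟨hq, rfl⟩ := hex
        obtain ⟨D, hD, hle'⟩ := tsym3_dec hq hQ hH (by omega) hf₁ hf₂ hst hle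
        exact ⟨_, Or.inr (Or.inr (Or.inl ⟨3, 3, D, by norm_num, hD, rfl⟩)), le_inf hle' hH⟩
      · obtain ⟨e, P', hst', hle'⟩ := tsym_sq hQ h2 hdodd hf₁ hf₂ hst
        exact ⟨_, Or.inr (Or.inr (Or.inr (Or.inr (Or.inr (Or.inr (Or.inr ⟨d, 2, e, P', f₁, hd, le_rfl, hex, hf₁, hst', rfl⟩)))))),
          le_inf (hle.trans hle') hH⟩
  · exfalso
    have h3 := Fintype.card_congr ρ
    rw [Fintype.card_prod, Fintype.card_fin, Fintype.card_fin, hcard] at h3
    have h4 : Even (2 * m + 1) := by rw [h3]; exact (even_of_symp hf₁).mul_right e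
    exact absurd h4 (by rw [Nat.not_even_iff_odd]; exact ⟨m, rfl⟩)
  · exact Or.inl (hrat F₀ r P ζ hr hc hζ hrs hle)
  · exfalso
    rw [hcard] at hk
    rcases Nat.eq_zero_or_pos k with rfl | hk0
    · omega
    · have h4 : Even (2 * m + 1) := by rw [hk]; exact (even_two).pow_of_ne_zero (by omega)
      exact absurd h4 (by rw [Nat.not_even_iff_odd]; exact ⟨m, rfl⟩)
  · exact Or.inl ⟨_, Or.inr (Or.inr (Or.inr (Or.inr (Or.inr (Or.inr (Or.inr ⟨k, t, e, P, f₁, hk, ht, hne, hf₁, hst, rfl⟩)))))),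
      le_inf hle hH⟩
  · exfalso
    have h4 : Even (2 * m + 1) := by rw [← hcard, hc]; exact hev.pow_of_ne_zero (by omega)
    exact absurd h4 (by rw [Nat.not_even_iff_odd]; exact ⟨m, rfl⟩)
  · exact Or.inr h

end Cfsg.Agent.Lib.AschO
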