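import Cfsg.Agent.Lib.AschGood

/-!
Aschbacher's theorem: realisability over subfields from a basis with structure constants in the subfield.
-/

set_option autoImplicit false
set_option linter.unusedSectionVars false

namespace Cfsg.Agent.Lib.AschReal

open Cfsg Cfsg.Geo Cfsg.Agent.Lib.AschMU Cfsg.Agent.Lib.AschCore Cfsg.Agent.Lib.AschField Cfsg.Agent.Lib.AschAlg
  Cfsg.Agent.Lib.AschDescent Cfsg.Agent.Lib.AschForm Cfsg.Agent.Lib.AschGroup Cfsg.Agent.Lib.AschGood
open scoped Matrix MatrixGroups Kronecker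

variable {ι : Type} [Fintype ι] [DecidableEq ι] {F : Type*} [Field F]

theorem bot_or_top_of_all (W : Submodule F (ι → F)) (hW : ∀ x : Matrix ι ι F, ∀ w ∈ W, x *ᵥ w ∈ W) : W = ⊥ ∨ W = ⊤ := by
  by_cases hW0 : W = ⊥
  · left; exact hW0
  right
  obtain ⟨w, hw, hw0⟩ := Submodule.exists_mem_ne_zero_of_ne_bot hW0
  obtain ⟨j, hj⟩ : ∃ j, w j ≠ 0 := by
    by_contra hcon
    push Not at hcon
    exact hw0 (funext hcon)
  rw [eq_top_iff]
  intro v _
  have h6 := hW (Matrix.of (fun i k => if k = j then v i * (w j)⁻¹ else 0)) w hw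
  have h7 : (Matrix.of (fun i k => if k = j then v i * (w j)⁻¹ else 0)) *ᵥ w = v := by
    funext i
    simp only [Matrix.mulVec, dotProduct, Matrix.of_apply, ite_mul, zero_mul]
    rw [Finset.sum_ite_eq' Finset.univ j]
    simp [hj]
  rwa [h7] at h6

/-- Semisimplicity from the dichotomy on the annihilated subspace. -/
theorem isSemisimpleRing_of_ann {A : Type*} [Ring A] [IsArtinianRing A] [Nonempty ι] (ρ : A →+* Matrix ι ι F)
    (hρ : Function.Injective ρ)
    (h : ∀ W : Submodule F (ι → F), (∀ a : A, ∀ w ∈ W, ρ a *ᵥ w ∈ W) → W = ⊥ ∨ W = ⊤) : IsSemisimpleRing A := by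
  classical
  rw [IsArtinianRing.isSemisimpleRing_iff_jacobson]
  obtain ⟨k, hk⟩ : IsNilpotent (Ring.jacobson A) := IsSemiprimaryRing.isNilpotent
  by_contra hne
  have hex : ∃ k, Ring.jacobson A ^ k = ⊥ := ⟨k, hk⟩
  let k₀ := Nat.find hex
  have hk₀ : Ring.jacobson A ^ k₀ = ⊥ := Nat.find_spec hex
  have hk₀pos : k₀ ≠ 0 := by
    intro h0
    rw [h0, Submodule.pow_zero, Ideal.one_eq_top] at hk₀
    apply hne
    rw [eq_bot_iff, ← hk₀]; exact le_top
  have hk₁ : Ring.jacobson A ^ (k₀ - 1) ≠ ⊥ := Nat.find_min hex (by omega)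
  obtain ⟨y, hy, hy0⟩ := Submodule.exists_mem_ne_zero_of_ne_bot hk₁
  have hprod : ∀ z : A, z ∈ Ring.jacobson A → z * y = 0 := by
    intro z hz
    have : z * y ∈ Ring.jacobson A ^ k₀ := by
      have h1 : k₀ = (k₀ - 1) + 1 := by omega
      rw [h1, Ideal.IsTwoSided.pow_succ]
      exact Ideal.mul_mem_mul hz hy
    rw [hk₀] at this
    exact this
  let W : Submodule F (ι → F) :=
    { carrier := {v | ∀ z : A, z ∈ Ring.jacobson A → ρ z *ᵥ v = 0}
      add_mem' := fun {a b} ha hb z hz => by rw [Matrix.mulVec_add, ha z hz, hb z hz, add_zero]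
      zero_mem' := fun z _ => Matrix.mulVec_zero _
      smul_mem' := fun c v hv z hz => by rw [Matrix.mulVec_smul, hv z hz, smul_zero] }
  rcases h W (by
    intro a w hw z hz
    rw [Matrix.mulVec_mulVec, ← map_mul]
    exact hw _ (Ideal.mul_mem_right a _ hz)) with h1 | h1
  · apply hy0
    apply hρ
    rw [map_zero]
    apply mulVec_eq_zero_of_rng_bot
    intro v
    have : ρ y *ᵥ v ∈ W := by
      intro z hz
      rw [Matrix.mulVec_mulVec, ← map_mul, hprod z hz, map_zero, Matrix.zero_mulVec]
    rw [h1] at this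
    exact this
  · apply hne
    rw [eq_bot_iff]
    intro x hx
    rw [Ideal.mem_bot]
    apply hρ
    rw [map_zero]
    apply mulVec_eq_zero_of_rng_bot
    intro v
    have : v ∈ W := by rw [h1]; trivial
    exact this x hx

/-- **Descent.** A basis of the matrix algebra with structure constants in `F₀` can be conjugated into `M_n(F₀)`. -/
theorem realisable_of_basis [Finite F] [Nonempty ι] {F₀ : Subfield F} {κ : Type*} [Fintype κ]
    (b : Module.Basis κ F (Matrix ι ι F)) (hmul : ∀ i j k, b.repr (b i * b j) k ∈ F₀) (hone : ∀ k, b.repr 1 k ∈ F₀) :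
    ∃ B : GL ι F, ∀ i, (B : Matrix ι ι F) * b i * ((B⁻¹ : GL ι F) : Matrix ι ι F) ∈ ratMat ι F₀ := by
  classical
  have hfinM : Finite (Matrix ι ι F) := inferInstanceAs (Finite (ι → ι → F))
  let A₀ : Subalgebra F₀ (Matrix ι ι F) :=
    { carrier := {x | ∀ k, b.repr x k ∈ F₀}
      mul_mem' := by
        intro x y hx hy k
        have h1 : x * y = ∑ i, ∑ j, (b.repr x i * b.repr y j) • (b i * b j) := by
          conv_lhs => rw [← b.sum_repr x, ← b.sum_repr y]
          rw [Finset.sum_mul]
          refine Finset.sum_congr rfl fun i _ => ?_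
          rw [Finset.mul_sum]
          refine Finset.sum_congr rfl fun j _ => ?_
          rw [smul_mul_smul_comm]
        rw [h1]
        simp only [map_sum, map_smul, Finsupp.coe_finsetSum, Finset.sum_apply, Finsupp.smul_apply, smul_eq_mul]
        exact F₀.sum_mem fun i _ => F₀.sum_mem fun j _ => F₀.mul_mem (F₀.mul_mem (hx i) (hy j)) (hmul i j k)
      one_mem' := hone
      add_mem' := by
        intro x y hx hy k
        rw [map_add, Finsupp.add_apply]; exact F₀.add_mem (hx k) (hy k)
      zero_mem' := by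
        intro k; rw [map_zero, Finsupp.zero_apply]; exact F₀.zero_mem
      algebraMap_mem' := by
        intro c k
        rw [Algebra.algebraMap_eq_smul_one]
        have h1 : (c • (1 : Matrix ι ι F)) = (c : F) • (1 : Matrix ι ι F) := rfl
        rw [h1, map_smul, Finsupp.smul_apply, smul_eq_mul]
        exact F₀.mul_mem c.2 (hone k) }
  have hA₀ : ∀ x, x ∈ A₀ ↔ ∀ k, b.repr x k ∈ F₀ := fun x => Iff.rfl
  have hbA : ∀ i, b i ∈ A₀ := by
    intro i k
    rw [b.repr_self, Finsupp.single_apply]
    split_ifs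
    · exact F₀.one_mem
    · exact F₀.zero_mem
  have hfinA : Finite A₀ := Finite.of_injective (fun a : A₀ => (a : Matrix ι ι F)) Subtype.coe_injective
  have : IsArtinianRing A₀ := inferInstance
  have hfinF₀ : Finite F₀ := inferInstance
  have hmodfin : Module.Finite F₀ A₀ := Module.Finite.of_finite
  have hss : IsSemisimpleRing A₀ := by
    apply isSemisimpleRing_of_ann (ι := ι) (F := F) A₀.val.toRingHom Subtype.coe_injective
    intro W hW
    apply bot_or_top_of_all
    intro x w hw
    rw [← b.sum_repr x, Matrix.sum_mulVec]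
    refine W.sum_mem fun i _ => ?_
    rw [Matrix.smul_mulVec]
    exact W.smul_mem _ (hW ⟨b i, hbA i⟩ w hw)
  have hcent : ∀ x : A₀, (∀ y, x * y = y * x) → ∃ c : F₀, x = algebraMap F₀ A₀ c := by
    intro x hx
    obtain ⟨c, hc⟩ := commute_of_commute_single (x := (x : Matrix ι ι F)) (by
      intro i j
      rw [← b.sum_repr (Matrix.single i j 1), Finset.mul_sum, Finset.sum_mul]
      refine Finset.sum_congr rfl fun k _ => ?_
      rw [Matrix.mul_smul, Matrix.smul_mul]
      congr 1
      exact congrArg Subtype.val (hx ⟨b k, hbA k⟩))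
    obtain ⟨k, hk⟩ : ∃ k, b.repr 1 k ≠ 0 := by
      by_contra hcon
      push Not at hcon
      have : b.repr (1 : Matrix ι ι F) = 0 := Finsupp.ext hcon
      rw [LinearEquiv.map_eq_zero_iff] at this
      exact one_ne_zero this
    have h1 := x.2 k
    rw [hc, map_smul, Finsupp.smul_apply, smul_eq_mul] at h1
    have hcF : c ∈ F₀ := by
      have h2 := F₀.mul_mem h1 (F₀.inv_mem (hone k))
      rwa [mul_assoc, mul_inv_cancel₀ hk, mul_one] at h2
    exact ⟨⟨c, hcF⟩, Subtype.ext (by rw [hc, Subalgebra.coe_algebraMap, Algebra.algebraMap_eq_smul_one]; rfl)⟩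
  obtain ⟨d, hd, ⟨φ⟩⟩ := exists_algEquiv_of_center hcent
  have hcardκ : Fintype.card κ = Fintype.card ι * Fintype.card ι := by
    have h1 := Module.finrank_eq_card_basis b
    rw [Module.finrank_matrix, Module.finrank_self, mul_one] at h1
    exact h1.symm
  have hdn : d = Fintype.card ι := by
    let Φ : A₀ ≃ₗ[F₀] (κ → F₀) :=
      { toFun := fun x k => ⟨b.repr x k, x.2 k⟩
        map_add' := fun x y => by
          funext k; apply Subtype.ext
          show b.repr ((x : Matrix ι ι F) + y) k = _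
          rw [map_add]; rfl
        map_smul' := fun c x => by
          funext k; apply Subtype.ext
          show b.repr ((c : F) • (x : Matrix ι ι F)) k = _
          rw [map_smul]; rfl
        invFun := fun c => ⟨∑ k, (c k : F) • b k, fun k => by rw [b.repr_sum_self]; exact (c k).2⟩
        left_inv := fun x => Subtype.ext (b.sum_repr (x : Matrix ι ι F))
        right_inv := fun c => by
          funext k; apply Subtype.ext
          show b.repr (∑ k, (c k : F) • b k) k = c k
          rw [b.repr_sum_self] }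
    have h1 := LinearEquiv.finrank_eq (φ.toLinearEquiv.trans Φ)
    rw [Module.finrank_matrix, Module.finrank_self, mul_one, Module.finrank_fintype_fun_eq_card, hcardκ,
      Fintype.card_fin] at h1
    exact Nat.mul_self_inj.1 h1
  let τ : ι ≃ Fin d := Fintype.equivOfCardEq (by rw [Fintype.card_fin, hdn])
  let ψ : Matrix ι ι F₀ ≃ₐ[F₀] A₀ := (Matrix.reindexAlgEquiv F₀ F₀ τ).trans φ
  have hMU : IsMatrixUnits (fun a c : ι => ((ψ (Matrix.single a c 1) : A₀) : Matrix ι ι F)) :=
    (isMatrixUnits_single ι F₀).map (A₀.val.comp ψ.toAlgHom).toRingHom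
  obtain ⟨P, hP⟩ := exists_conj_of_matrixUnits' hMU
  refine ⟨P⁻¹, fun i => ?_⟩
  rw [inv_inv]
  obtain ⟨y, hy⟩ := ψ.surjective ⟨b i, hbA i⟩
  have hkey : b i * (P : Matrix ι ι F) = (P : Matrix ι ι F) * (y.map F₀.subtype) := by
    have h1 : b i = ∑ a, ∑ c, (y a c : F) • ((ψ (Matrix.single a c 1) : A₀) : Matrix ι ι F) := by
      have h2 : (ψ y : A₀) = ∑ a, ∑ c, y a c • ψ (Matrix.single a c 1) := by
        conv_lhs => rw [matrix_eq_sum_units y]
        simp only [map_sum, map_smul]
      rw [hy] at h2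
      have h3 := congrArg Subtype.val h2
      push_cast at h3
      exact h3
    rw [h1, Finset.sum_mul]
    have h4 : y.map F₀.subtype = ∑ a, ∑ c, (y a c : F) • (Matrix.single a c (1 : F) : Matrix ι ι F) :=
      matrix_eq_sum_units (y.map F₀.subtype)
    rw [h4, Finset.mul_sum]
    refine Finset.sum_congr rfl fun a _ => ?_
    rw [Finset.sum_mul, Finset.mul_sum]
    refine Finset.sum_congr rfl fun c _ => ?_
    rw [Matrix.smul_mul, Matrix.mul_smul, hP]
  rw [mul_assoc, hkey, gl_inv_mul_cancel_left]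
  exact mem_ratMat.2 ⟨y, rfl⟩

end Cfsg.Agent.Lib.AschReal
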