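import Cfsg.Agent.Lib.AschSmall

/-!
The exception in `SL_3(4)`: the normaliser of a subfield of degree three lies in a subfield group.
-/

set_option autoImplicit false
set_option linter.unusedSectionVars false

namespace Cfsg.Agent.Lib.AschSL3

open Cfsg Cfsg.Geo Cfsg.Agent.Lib.AschMU Cfsg.Agent.Lib.AschCore Cfsg.Agent.Lib.AschField Cfsg.Agent.Lib.AschAlg
  Cfsg.Agent.Lib.AschDescent Cfsg.Agent.Lib.AschForm Cfsg.Agent.Lib.AschGroup Cfsg.Agent.Lib.AschGood
  Cfsg.Agent.Lib.AschNonab Cfsg.Agent.Lib.AschTensor Cfsg.Agent.Lib.AschComp Cfsg.Agent.Lib.AschSymp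
  Cfsg.Agent.Lib.AschForm2 Cfsg.Agent.Lib.AschLinear Cfsg.Agent.Lib.SLGeom Cfsg.Agent.Lib.SLNot Cfsg.Agent.Lib.SLNotSymp
  Cfsg.Agent.Lib.AschLinMax Cfsg.Agent.Lib.AschSmall
open scoped Matrix MatrixGroups Kronecker commutatorElement
open Matrix (vecMulVec)

/-- companion matrix of `X^3 + X + 1` -/
def C₀ (R : Type*) [CommRing R] : Matrix (Fin 3) (Fin 3) R := !![0, 0, 1; 1, 0, 1; 0, 1, 0]

/-- the matrices of the three field automorphisms -/
def G₀ (R : Type*) [CommRing R] (s : Fin 3) : Matrix (Fin 3) (Fin 3) R :=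
  ![1, !![1, 0, 0; 0, 0, 1; 0, 1, 1], !![1, 0, 0; 0, 1, 1; 0, 1, 0]] s

theorem det_C₀ (R : Type*) [CommRing R] : (C₀ R).det = 1 := by
  simp [C₀, Matrix.det_fin_three]

theorem det_G₀ (R : Type*) [CommRing R] (h2 : (2 : R) = 0) (s : Fin 3) : (G₀ R s).det = 1 := by
  fin_cases s
  · simp [G₀]
  · simp [G₀, Matrix.det_fin_three]; linear_combination -h2
  · simp [G₀, Matrix.det_fin_three]; linear_combination -h2

theorem map_C₀ {R S : Type*} [CommRing R] [CommRing S] (f : R →+* S) : (C₀ R).map f = C₀ S := by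
  ext i j; fin_cases i <;> fin_cases j <;> simp [C₀]

theorem map_G₀ {R S : Type*} [CommRing R] [CommRing S] (f : R →+* S) (s : Fin 3) : (G₀ R s).map f = G₀ S s := by
  fin_cases s
  · simp [G₀]
  · ext i j; fin_cases i <;> fin_cases j <;> simp [G₀]
  · ext i j; fin_cases i <;> fin_cases j <;> simp [G₀]

variable {F : Type*} [Field F]

theorem field_three_four [Fintype F] (hq : Fintype.card F = 4) {H : Subgroup (GL (Fin 3) F)}
    (hH : IsMaximalIn (specialLinear (Fin 3) F) H) {K : Subalgebra F (Matrix (Fin 3) (Fin 3) F)} (hK : IsFieldSubalgebra 3 K)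
    (h : H ≤ subalgebraNormalizer K) :
    ∃ (F₀ : Subfield F) (r : ℕ) (P : GL (Fin 3) F), r.Prime ∧ Fintype.card F = Nat.card F₀ ^ r ∧
      H = subfieldSubgroup F₀ P ⊓ specialLinear (Fin 3) F := by
  classical
  have hfinM : Finite (Matrix (Fin 3) (Fin 3) F) := inferInstanceAs (Finite (Fin 3 → Fin 3 → F))
  have hι : 3 ≤ Fintype.card (Fin 3) := by simp
  have h2 : (2 : F) = 0 := by
    have h4 : (4 : F) = 0 := by
      have := FiniteField.cast_card_eq_zero F
      rw [hq] at this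
      exact_mod_cast this
    have : (2 : F) * 2 = 0 := by linear_combination h4
    rcases mul_eq_zero.1 this with h | h <;> exact h
  have hF4 : ∀ a : F, a ^ 4 = a := fun a => by
    have := FiniteField.pow_card a
    rwa [hq] at this
  have hF3 : ∀ a : F, a ≠ 0 → a ^ 3 = 1 := fun a ha => by
    have := FiniteField.pow_card_sub_one_eq_one a ha
    rwa [hq] at this
  have hnos : ∀ s : F, s ^ 3 ≠ s + 1 := by
    intro s hs
    by_cases hs0 : s = 0
    · rw [hs0] at hs; norm_num at hs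
    · rw [hF3 s hs0] at hs
      apply hs0
      linear_combination -hs
  -- the prime field
  let F₀ : Subfield F :=
    { carrier := {y | y = 0 ∨ y = 1}
      mul_mem' := by
        rintro a b (rfl | rfl) (rfl | rfl) <;> simp
      one_mem' := Or.inr rfl
      add_mem' := by
        rintro a b (rfl | rfl) (rfl | rfl)
        · left; simp
        · right; simp
        · right; simp
        · left; linear_combination h2
      zero_mem' := Or.inl rfl
      neg_mem' := by
        rintro a (rfl | rfl)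
        · left; simp
        · right; linear_combination -h2
      inv_mem' := by
        rintro a (rfl | rfl)
        · left; simp
        · right; simp }
  have hF₀ : ∀ y : F, y ∈ F₀ ↔ y = 0 ∨ y = 1 := fun y => Iff.rfl
  have hF₀card : Nat.card F₀ = 2 := by
    rw [Nat.card_eq_two_iff]
    refine ⟨⟨0, Or.inl rfl⟩, ⟨1, Or.inr rfl⟩, fun h => zero_ne_one (congrArg Subtype.val h), ?_⟩
    ext ⟨y, hy⟩
    simp only [Set.mem_insert_iff, Set.mem_singleton_iff, Set.mem_univ, iff_true, Subtype.mk.injEq]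
    exact hy
  have h2₀ : (2 : F₀) = 0 := Subtype.ext h2
  -- an element of order three
  obtain ⟨a, ha0, ha1⟩ : ∃ a : F, a ≠ 0 ∧ a ≠ 1 := by
    by_contra hcon
    push Not at hcon
    have h5 : (Finset.univ : Finset F) ⊆ {0, 1} := by
      intro x _
      by_cases hx : x = 0
      · simp [hx]
      · simp [hcon x hx]
    have h6 := Finset.card_le_card h5
    rw [Finset.card_univ, hq] at h6
    have h7 := h6.trans (Finset.card_insert_le _ _)
    simp at h7
  -- K as a field
  have hKF : IsField K :=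
    { exists_pair_ne := ⟨0, 1, fun h => zero_ne_one (congrArg Subtype.val h)⟩
      mul_comm := fun a b => Subtype.ext (hK.comm a a.2 b b.2)
      mul_inv_cancel := fun {a} ha => by
        obtain ⟨y, hy, hxy⟩ := hK.inv a a.2 (fun h => ha (Subtype.ext h))
        exact ⟨⟨y, hy⟩, Subtype.ext hxy⟩ }
  let _ : Field K := hKF.toField
  have hfinK : Finite K := Finite.of_injective (fun a : K => (a : Matrix (Fin 3) (Fin 3) F)) Subtype.coe_injective
  have : Fintype K := Fintype.ofFinite _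
  have hcardK : Fintype.card K = 64 := by
    have h1 : Fintype.card K = Fintype.card F ^ Module.finrank F K := Module.card_eq_pow_finrank
    rw [h1, hK.finrank_eq, hq]
    norm_num
  have hcardKu : Fintype.card Kˣ = 63 := by
    rw [Fintype.card_units, hcardK]
  have h2K : (2 : K) = 0 := by
    have : algebraMap F K 2 = 0 := by rw [h2, map_zero]
    rw [← this]
    exact (map_ofNat (algebraMap F K) 2).symm
  -- the element z
  obtain ⟨z, hz⟩ : ∃ z : K, z ^ 3 = z + 1 := by
    have : Fact (Nat.Prime 7) := ⟨by norm_num⟩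
    obtain ⟨x₀, hx₀⟩ := exists_prime_orderOf_dvd_card (G := Kˣ) 7 (by rw [hcardKu]; norm_num)
    set x : K := (x₀ : K) with hx
    have hx7 : x ^ 7 = 1 := by
      have := pow_orderOf_eq_one x₀
      rw [hx₀] at this
      have := congrArg (fun u : Kˣ => (u : K)) this
      simpa using this
    have hx1 : x ≠ 1 := by
      intro h1
      have : x₀ = 1 := Units.ext h1
      rw [this, orderOf_one] at hx₀
      norm_num at hx₀
    have h3 : (x - 1) * ((x ^ 3 + x + 1) * (x ^ 3 + x ^ 2 + 1)) = 0 := by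
      linear_combination hx7 + (x ^ 4 - x ^ 3) * h2K
    rcases mul_eq_zero.1 h3 with h4 | h4
    · exact absurd (sub_eq_zero.1 h4) hx1
    rcases mul_eq_zero.1 h4 with h5 | h5
    · exact ⟨x, by linear_combination h5 - (x + 1) * h2K⟩
    · refine ⟨x ^ 6, ?_⟩
      have e3 : x ^ 3 = x ^ 2 + 1 := by linear_combination h5 - (x ^ 2 + 1) * h2K
      have e4 : x ^ 4 = x ^ 2 + x + 1 := by linear_combination (x + 1) * e3
      have e5 : x ^ 5 = x + 1 := by linear_combination x * e4 + e3 + x ^ 2 * h2K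
      have e6 : x ^ 6 = x ^ 2 + x := by linear_combination x * e5
      have e18 : (x ^ 6) ^ 3 = x ^ 4 := by
        calc (x ^ 6) ^ 3 = (x ^ 7) ^ 2 * x ^ 4 := by ring
          _ = x ^ 4 := by rw [hx7, one_pow, one_mul]
      rw [e18, e6, e4]
  have hz7 : z ^ 7 = 1 := by
    linear_combination (z ^ 4 + z ^ 2 + z + 1) * hz + (z ^ 2 + z) * h2K
  have hz1 : z ≠ 1 := by
    rintro rfl
    norm_num at hz
    exact one_ne_zero (hz.trans h2K)
  have hzprim : IsPrimitiveRoot z 7 := by
    have : Fact (Nat.Prime 7) := ⟨by norm_num⟩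
    rw [IsPrimitiveRoot.iff_orderOf]
    exact orderOf_eq_prime hz7 hz1
  set Z : Matrix (Fin 3) (Fin 3) F := (z : Matrix (Fin 3) (Fin 3) F) with hZ
  have hZK : Z ∈ K := z.2
  have hZ3 : Z * Z * Z = Z + 1 := by
    have := congrArg (fun u : K => (u : Matrix (Fin 3) (Fin 3) F)) hz
    have h3 : ((z ^ 3 : K) : Matrix (Fin 3) (Fin 3) F) = Z * Z * Z := by
      rw [pow_succ, pow_two]; rfl
    rw [h3] at this
    exact this
  have hZns : ∀ s : F, Z ≠ s • (1 : Matrix (Fin 3) (Fin 3) F) := by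
    intro s hs
    rw [hs] at hZ3
    simp only [Matrix.smul_mul, one_mul, smul_smul] at hZ3
    have h3 := congrFun (congrFun hZ3 0) 0
    simp at h3
    apply hnos s
    rw [← h3]; ring
  -- independence
  have hindep : ∀ c : Fin 3 → F, c 0 • (1 : Matrix (Fin 3) (Fin 3) F) + c 1 • Z + c 2 • (Z * Z) = 0 → c = 0 := by
    intro c hc
    have hc2 : c 2 = 0 := by
      by_contra hc2
      set α := -(c 1 / c 2) with hα
      set β := -(c 0 / c 2) with hβ
      have hZZ : Z * Z = α • Z + β • (1 : Matrix (Fin 3) (Fin 3) F) := by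
        have h3 := congrArg (fun y => (c 2)⁻¹ • y) hc
        simp only [smul_add, smul_smul, inv_mul_cancel₀ hc2, one_smul, smul_zero] at h3
        have h4 : Z * Z = -(((c 2)⁻¹ * c 0) • (1 : Matrix (Fin 3) (Fin 3) F)) - ((c 2)⁻¹ * c 1) • Z := by
          rw [eq_sub_iff_add_eq, eq_neg_iff_add_eq_zero, ← h3]; abel
        rw [h4, hα, hβ, neg_smul, neg_smul, div_eq_inv_mul, div_eq_inv_mul]; abel
      have h5 : (α ^ 2 + β - 1) • Z = (1 - α * β) • (1 : Matrix (Fin 3) (Fin 3) F) := by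
        have h6 : Z * Z * Z = (α ^ 2 + β) • Z + (α * β) • (1 : Matrix (Fin 3) (Fin 3) F) := by
          rw [hZZ, add_mul, Matrix.smul_mul, Matrix.smul_mul, one_mul, hZZ, smul_add, smul_smul, smul_smul, add_smul, sq]
          abel
        rw [hZ3] at h6
        rw [sub_smul, sub_smul, one_smul, one_smul, sub_eq_sub_iff_add_eq_add, ← h6]
        abel
      by_cases h7 : α ^ 2 + β - 1 = 0
      · rw [h7, zero_smul] at h5
        have h8 := (smul_eq_zero.1 h5.symm).resolve_right one_ne_zero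
        apply hnos α
        linear_combination α * h7 + h8 - (1 : F) * h2
      · apply hZns ((α ^ 2 + β - 1)⁻¹ * (1 - α * β))
        rw [← smul_smul, ← h5, smul_smul, inv_mul_cancel₀ h7, one_smul]
    rw [hc2, zero_smul, add_zero] at hc
    have hc1 : c 1 = 0 := by
      by_contra hc1
      apply hZns (-((c 1)⁻¹ * c 0))
      have h3 := congrArg (fun y => (c 1)⁻¹ • y) hc
      simp only [smul_add, smul_smul, inv_mul_cancel₀ hc1, one_smul, smul_zero] at h3
      rw [neg_smul]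
      exact eq_neg_of_add_eq_zero_right h3
    rw [hc1, zero_smul, add_zero] at hc
    have hc0 := (smul_eq_zero.1 hc).resolve_right one_ne_zero
    funext i
    fin_cases i
    · exact hc0
    · exact hc1
    · exact hc2
  -- the base vector
  set v₀ : Fin 3 → F := Pi.single 0 1 with hv₀
  have hv₀0 : v₀ ≠ 0 := by
    intro h0
    have := congrFun h0 0
    simp [hv₀] at this
  have hKv : ∀ Y ∈ K, Y *ᵥ v₀ = 0 → Y = 0 := by
    intro Y hY hYv
    by_contra hne
    obtain ⟨W, hW, hYW⟩ := hK.inv Y hY hne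
    rw [hK.comm Y hY W hW] at hYW
    apply hv₀0
    rw [← Matrix.one_mulVec v₀, ← hYW, ← Matrix.mulVec_mulVec, hYv, Matrix.mulVec_zero]
  let cols : Matrix (Fin 3) (Fin 3) F → Matrix (Fin 3) (Fin 3) F := fun Y => Matrix.of fun i j => (![v₀, Y *ᵥ v₀, (Y * Y) *ᵥ v₀] j) i
  have hcols : ∀ Y c, cols Y *ᵥ c = (c 0 • (1 : Matrix (Fin 3) (Fin 3) F) + c 1 • Y + c 2 • (Y * Y)) *ᵥ v₀ := by
    intro Y c
    rw [Matrix.add_mulVec, Matrix.add_mulVec, Matrix.smul_mulVec, Matrix.smul_mulVec, Matrix.smul_mulVec, Matrix.one_mulVec]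
    ext i
    simp [cols, Matrix.mulVec, dotProduct, Fin.sum_univ_three]
    ring
  have hPdet : (cols Z).det ≠ 0 := by
    intro hdet
    obtain ⟨c, hc0, hc⟩ := Matrix.exists_mulVec_eq_zero_iff.2 hdet
    rw [hcols] at hc
    apply hc0
    apply hindep
    apply hKv _ _ hc
    exact K.add_mem (K.add_mem (K.smul_mem K.one_mem _) (K.smul_mem hZK _)) (K.smul_mem (K.mul_mem hZK hZK) _)
  let P : GL (Fin 3) F := Matrix.GeneralLinearGroup.mkOfDetNeZero (cols Z) hPdet
  have hP : (P : Matrix (Fin 3) (Fin 3) F) = cols Z := rfl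
  have hcolmul : ∀ X Y : Matrix (Fin 3) (Fin 3) F, ∀ i j, (X * cols Y) i j = (X *ᵥ (![v₀, Y *ᵥ v₀, (Y * Y) *ᵥ v₀] j)) i := by
    intro X Y i j
    rfl
  have hZP : Z * (P : Matrix (Fin 3) (Fin 3) F) = (P : Matrix (Fin 3) (Fin 3) F) * C₀ F := by
    rw [hP]
    ext i j
    rw [hcolmul]
    have h3 : (cols Z * C₀ F) i j = (cols Z *ᵥ (fun k => C₀ F k j)) i := rfl
    rw [h3, hcols]
    fin_cases j
    · simp [C₀]
    · simp [C₀]
    · simp only [C₀]
      simp [← hZ3, Matrix.mul_assoc, add_comm]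
  have hdetP : (P : Matrix (Fin 3) (Fin 3) F).det ≠ 0 := hPdet
  -- every element of K of determinant one is a scalar times a power of Z
  have hker : ∀ k ∈ K, k.det = 1 → ∃ (c : F) (m : ℕ), c ≠ 0 ∧ k = c • Z ^ m := by
    intro k hk hkdet
    let detK : K →* F :=
      { toFun := fun x => (x : Matrix (Fin 3) (Fin 3) F).det
        map_one' := Matrix.det_one
        map_mul' := fun x y => Matrix.det_mul _ _ }
    let detKu : Kˣ →* Fˣ := Units.map detK
    obtain ⟨y, hy⟩ := IsCyclic.exists_generator (α := Kˣ)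
    have hyord : orderOf y = 63 := by
      rw [orderOf_eq_card_of_forall_mem_zpowers hy, Nat.card_eq_fintype_card, hcardKu]
    -- det (a - Z) = a
    have hdeta : (a • (1 : Matrix (Fin 3) (Fin 3) F) - Z).det = a := by
      have h3 : (a • (1 : Matrix (Fin 3) (Fin 3) F) - Z) * (P : Matrix (Fin 3) (Fin 3) F) =
          (P : Matrix (Fin 3) (Fin 3) F) * (a • (1 : Matrix (Fin 3) (Fin 3) F) - C₀ F) := by
        rw [sub_mul, mul_sub, hZP, Matrix.smul_mul, one_mul, Matrix.mul_smul, mul_one]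
      have h4 := congrArg Matrix.det h3
      rw [Matrix.det_mul, Matrix.det_mul, mul_comm] at h4
      have h5 := mul_left_cancel₀ hdetP h4
      rw [h5, Matrix.det_fin_three]
      simp [C₀]
      have h6 := hF3 a ha0
      linear_combination h6 - a * h2
    have ha1' : (Units.mk0 a ha0) ≠ 1 := by
      intro h0
      exact ha1 (congrArg (fun u : Fˣ => (u : F)) h0)
    have hylt : detKu y ≠ 1 := by
      intro h0
      have h3 : ∀ u : Kˣ, detKu u = 1 := by
        intro u
        obtain ⟨n, rfl⟩ := hy u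
        simp only
        rw [map_zpow, h0, one_zpow]
      have h4 : (⟨a • (1 : Matrix (Fin 3) (Fin 3) F) - Z, K.sub_mem (K.smul_mem K.one_mem _) hZK⟩ : K) ≠ 0 := by
        intro h5
        have h6 := congrArg Subtype.val h5
        apply hZns a
        exact (sub_eq_zero.1 h6).symm
      have h5 := h3 (Units.mk0 _ h4)
      have h6 := congrArg (fun u : Fˣ => (u : F)) h5
      have h7 : (a • (1 : Matrix (Fin 3) (Fin 3) F) - Z).det = 1 := h6
      rw [hdeta] at h7
      exact ha1 h7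
    have hk0 : (⟨k, hk⟩ : K) ≠ 0 := by
      intro h5
      have h6 : k = 0 := congrArg Subtype.val h5
      rw [h6, Matrix.det_zero] at hkdet
      exact zero_ne_one hkdet
    set ku : Kˣ := Units.mk0 _ hk0 with hku
    have hku1 : detKu ku = 1 := Units.ext hkdet
    obtain ⟨n, hn⟩ := hy ku
    simp only at hn
    have hdety3 : (detKu y) ^ 3 = 1 := by
      apply Units.ext
      rw [Units.val_pow_eq_pow_val]
      exact hF3 _ (detKu y).ne_zero
    have hordy : orderOf (detKu y) = 3 := by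
      have : Fact (Nat.Prime 3) := ⟨by norm_num⟩
      exact orderOf_eq_prime hdety3 hylt
    have h3n : (3 : ℤ) ∣ n := by
      have h3 : (detKu y) ^ n = 1 := by rw [← map_zpow, hn, hku1]
      have h4 := orderOf_dvd_iff_zpow_eq_one.2 h3
      rw [hordy] at h4
      exact_mod_cast h4
    have hku21 : ku ^ 21 = 1 := by
      obtain ⟨l, hl⟩ := h3n
      rw [← hn, hl, ← zpow_natCast, ← zpow_mul]
      have h4 : (3 * l * ((21 : ℕ) : ℤ)) = ((63 : ℕ) : ℤ) * l := by push_cast; ring
      rw [h4, zpow_mul, zpow_natCast, ← hyord, pow_orderOf_eq_one, one_zpow]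
    have hk21 : (⟨k, hk⟩ : K) ^ 21 = 1 := by
      have := congrArg (fun u : Kˣ => (u : K)) hku21
      simp only [Units.val_pow_eq_pow_val, Units.val_one] at this
      exact this
    set κ : K := ⟨k, hk⟩ with hκ
    -- the scalar part
    obtain ⟨c, hc⟩ : ∃ c : F, κ ^ 7 = algebraMap F K c := by
      have hprim : IsPrimitiveRoot (algebraMap F K a) 3 := by
        have : Fact (Nat.Prime 3) := ⟨by norm_num⟩
        rw [IsPrimitiveRoot.iff_orderOf]
        apply orderOf_eq_prime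
        · rw [← map_pow, hF3 a ha0, map_one]
        · intro h0
          apply ha1
          apply (algebraMap F K).injective
          rw [h0, map_one]
      obtain ⟨i, -, hi⟩ := hprim.eq_pow_of_pow_eq_one (ξ := κ ^ 7) (by rw [← pow_mul]; exact hk21)
      exact ⟨a ^ i, by rw [map_pow, hi]⟩
    obtain ⟨m, -, hm⟩ := hzprim.eq_pow_of_pow_eq_one (ξ := κ ^ 15) (by
      rw [← pow_mul]
      calc κ ^ (15 * 7) = (κ ^ 21) ^ 5 := by rw [← pow_mul]
        _ = 1 := by rw [hk21, one_pow])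
    have hκe : κ = algebraMap F K c * z ^ m := by
      rw [← hc, hm, ← pow_add]
      calc κ = κ ^ 21 * κ := by rw [hk21, one_mul]
        _ = κ ^ (7 + 15) := by ring
    have hke : k = c • Z ^ m := by
      have h3 := congrArg (fun u : K => (u : Matrix (Fin 3) (Fin 3) F)) hκe
      rw [← Algebra.smul_def] at h3
      exact h3
    refine ⟨c, m, ?_, hke⟩
    rintro rfl
    rw [zero_smul] at hke
    rw [hke, Matrix.det_zero] at hkdet
    exact zero_ne_one hkdet
  refine ⟨F₀, 2, P, Nat.prime_two, by rw [hF₀card, hq]; norm_num, eq_inf_of_maximal hH ?_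
    (not_le_subfield (by simp) (by
      intro htop
      have h3 : a ∈ F₀ := by rw [htop]; trivial
      rcases (hF₀ a).1 h3 with h4 | h4
      · exact ha0 h4
      · exact ha1 h4) P)⟩
  intro g hg
  have hgdet : (g : Matrix (Fin 3) (Fin 3) F).det = 1 := by
    have h1 : Matrix.GeneralLinearGroup.det g = 1 := hH.1.le hg
    exact congrArg (fun u : Fˣ => (u : F)) h1
  -- the image of Z
  have hYK : cj g Z ∈ K := cj_mem_of_le h hg hZK
  set Y := cj g Z with hY
  set y : K := ⟨Y, hYK⟩ with hy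
  have hy3 : y ^ 3 = y + 1 := by
    apply Subtype.ext
    have h3 : ((y ^ 3 : K) : Matrix (Fin 3) (Fin 3) F) = Y * Y * Y := by
      rw [pow_succ, pow_two]; rfl
    rw [h3]
    show Y * Y * Y = Y + 1
    rw [hY, ← map_mul, ← map_mul, hZ3, map_add, map_one]
  have hcases : y = z ∨ y = z ^ 2 ∨ y = z ^ 2 + z := by
    have h3 : (y - z) * ((y - z ^ 2) * (y - (z ^ 2 + z))) = 0 := by
      linear_combination hy3 + ((z + 3) * y - (z ^ 2 + z + 1)) * hz +
        (2 * y + (z ^ 2 + 2 * z) * y - (z ^ 2 + z) * y ^ 2 - z ^ 2 - z) * h2K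
    rcases mul_eq_zero.1 h3 with h4 | h4
    · left; exact sub_eq_zero.1 h4
    rcases mul_eq_zero.1 h4 with h5 | h5
    · right; left; exact sub_eq_zero.1 h5
    · right; right; exact sub_eq_zero.1 h5
  obtain ⟨s, hs⟩ : ∃ s : Fin 3, cols Y = (P : Matrix (Fin 3) (Fin 3) F) * G₀ F s := by
    have hZ4 : Z * Z * (Z * Z) = Z * Z + Z := by
      have : Z * Z * (Z * Z) = (Z * Z * Z) * Z := by simp only [Matrix.mul_assoc]
      rw [this, hZ3, add_mul, one_mul]
    have h2M : ∀ X : Matrix (Fin 3) (Fin 3) F, X + X = 0 := fun X => by rw [← two_smul F X, h2, zero_smul]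
    have hgen : ∀ s : Fin 3, (∀ c : Fin 3 → F, ∀ j, (fun k => G₀ F s k j) = c →
        (![v₀, Y *ᵥ v₀, (Y * Y) *ᵥ v₀] j) = (c 0 • (1 : Matrix (Fin 3) (Fin 3) F) + c 1 • Z + c 2 • (Z * Z)) *ᵥ v₀) →
        cols Y = (P : Matrix (Fin 3) (Fin 3) F) * G₀ F s := by
      intro s hs
      ext i j
      have h3 : ((P : Matrix (Fin 3) (Fin 3) F) * G₀ F s) i j = (cols Z *ᵥ (fun k => G₀ F s k j)) i := rfl
      rw [h3, hcols]
      exact congrFun (hs _ j rfl) i
    rcases hcases with h3 | h3 | h3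
    · have hYZ : Y = Z := congrArg Subtype.val h3
      refine ⟨0, hgen 0 ?_⟩
      rintro c j rfl
      rw [hYZ]
      fin_cases j <;> simp [G₀]
    · have hYZ : Y = Z * Z := by
        have := congrArg Subtype.val h3
        rw [pow_two] at this
        exact this
      refine ⟨1, hgen 1 ?_⟩
      rintro c j rfl
      rw [hYZ]
      fin_cases j
      · simp [G₀]
      · simp [G₀]
      · simp [G₀, hZ4, add_comm]
    · have hYZ : Y = Z * Z + Z := by
        have := congrArg Subtype.val h3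
        rw [pow_two] at this
        exact this
      have hYY : Y * Y = Z := by
        rw [hYZ, add_mul, mul_add, mul_add, hZ4, ← Matrix.mul_assoc Z Z Z, hZ3]
        have e1 : Z * Z + Z + (Z + 1) + (Z + 1 + Z * Z) = (Z * Z + Z * Z) + ((Z + Z) + ((1 + 1) + Z)) := by abel
        rw [e1, h2M, h2M, h2M, zero_add, zero_add, zero_add]
      refine ⟨2, hgen 2 ?_⟩
      rintro c j rfl
      fin_cases j
      · simp [G₀]
      · simp [G₀, hYZ, add_comm]
      · simp [G₀, hYY]
  -- the element k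
  set c := ((P⁻¹ : GL (Fin 3) F) : Matrix (Fin 3) (Fin 3) F) *ᵥ ((g : Matrix (Fin 3) (Fin 3) F) *ᵥ v₀) with hc
  set k : Matrix (Fin 3) (Fin 3) F := c 0 • (1 : Matrix (Fin 3) (Fin 3) F) + c 1 • Z + c 2 • (Z * Z) with hk
  have hkK : k ∈ K := K.add_mem (K.add_mem (K.smul_mem K.one_mem _) (K.smul_mem hZK _)) (K.smul_mem (K.mul_mem hZK hZK) _)
  have hkv : k *ᵥ v₀ = (g : Matrix (Fin 3) (Fin 3) F) *ᵥ v₀ := by
    rw [hk, ← hcols, hc, ← hP, Matrix.mulVec_mulVec, gl_mul_inv, Matrix.one_mulVec]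
  have hgZ : ∀ X ∈ K, (g : Matrix (Fin 3) (Fin 3) F) *ᵥ (X *ᵥ v₀) = k *ᵥ (cj g X *ᵥ v₀) := by
    intro X hX
    have h3 : (g : Matrix (Fin 3) (Fin 3) F) * X = cj g X * (g : Matrix (Fin 3) (Fin 3) F) := by
      rw [cj_apply, Matrix.mul_assoc, gl_inv_mul, mul_one]
    rw [Matrix.mulVec_mulVec, h3, ← Matrix.mulVec_mulVec, ← hkv, Matrix.mulVec_mulVec, Matrix.mulVec_mulVec,
      hK.comm _ (cj_mem_of_le h hg hX) _ hkK]
  have hgP : (g : Matrix (Fin 3) (Fin 3) F) * (P : Matrix (Fin 3) (Fin 3) F) = k * cols Y := by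
    rw [hP]
    ext i j
    rw [hcolmul, hcolmul]
    fin_cases j
    · show ((g : Matrix (Fin 3) (Fin 3) F) *ᵥ v₀) i = (k *ᵥ v₀) i
      rw [hkv]
    · show ((g : Matrix (Fin 3) (Fin 3) F) *ᵥ (Z *ᵥ v₀)) i = (k *ᵥ (Y *ᵥ v₀)) i
      rw [hgZ Z hZK]
    · show ((g : Matrix (Fin 3) (Fin 3) F) *ᵥ ((Z * Z) *ᵥ v₀)) i = (k *ᵥ ((Y * Y) *ᵥ v₀)) i
      rw [hgZ (Z * Z) (K.mul_mem hZK hZK), map_mul]
  rw [hs, ← Matrix.mul_assoc] at hgP
  have hkdet : k.det = 1 := by
    have h3 := congrArg Matrix.det hgP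
    rw [Matrix.det_mul, Matrix.det_mul, Matrix.det_mul, det_G₀ F h2, mul_one, hgdet, one_mul] at h3
    have h4 : k.det * (P : Matrix (Fin 3) (Fin 3) F).det = 1 * (P : Matrix (Fin 3) (Fin 3) F).det := by rw [one_mul, ← h3]
    exact mul_right_cancel₀ hdetP h4
  obtain ⟨d, m, hd0, hkd⟩ := hker k hkK hkdet
  rw [mem_subfieldSubgroup]
  have hdet₀ : (C₀ F₀ ^ m * G₀ F₀ s).det ≠ 0 := by
    rw [Matrix.det_mul, Matrix.det_pow, det_C₀, det_G₀ F₀ h2₀, one_pow, one_mul]
    exact one_ne_zero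
  refine ⟨Units.mk0 d hd0, Matrix.GeneralLinearGroup.mkOfDetNeZero _ hdet₀, ?_⟩
  have hmap : ((Matrix.GeneralLinearGroup.mkOfDetNeZero _ hdet₀ : GL (Fin 3) F₀) : Matrix (Fin 3) (Fin 3) F₀).map F₀.subtype =
      C₀ F ^ m * G₀ F s := by
    show (C₀ F₀ ^ m * G₀ F₀ s).map F₀.subtype = _
    have h3 : (C₀ F₀ ^ m * G₀ F₀ s).map F₀.subtype = F₀.subtype.mapMatrix (C₀ F₀ ^ m * G₀ F₀ s) := rfl
    rw [h3, map_mul, map_pow]
    show (C₀ F₀).map F₀.subtype ^ m * (G₀ F₀ s).map F₀.subtype = _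
    rw [map_C₀, map_G₀]
  rw [hmap]
  have hZm : ∀ m : ℕ, Z ^ m * (P : Matrix (Fin 3) (Fin 3) F) = (P : Matrix (Fin 3) (Fin 3) F) * C₀ F ^ m := by
    intro m
    induction m with
    | zero => rw [pow_zero, pow_zero, one_mul, mul_one]
    | succ m ih => rw [pow_succ, Matrix.mul_assoc, hZP, ← Matrix.mul_assoc, ih, pow_succ, Matrix.mul_assoc]
  have h5 : (g : Matrix (Fin 3) (Fin 3) F) = (g : Matrix (Fin 3) (Fin 3) F) * (P : Matrix (Fin 3) (Fin 3) F) * ((P⁻¹ : GL (Fin 3) F) : Matrix (Fin 3) (Fin 3) F) := by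
    rw [Matrix.mul_assoc, gl_mul_inv, mul_one]
  rw [h5, hgP, hkd, Matrix.smul_mul, hZm, Units.val_mk0, Matrix.smul_mul, Matrix.smul_mul]
  simp only [Matrix.mul_assoc]

end Cfsg.Agent.Lib.AschSL3
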