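import Cfsg.Agent.Lib.AschSmall

/-!
The exceptions in `SL_4(F)`: two planes over the field with three elements, four lines over the field with five elements.
-/

set_option autoImplicit false
set_option linter.unusedSectionVars false

namespace Cfsg.Agent.Lib.AschSL4

open Cfsg Cfsg.Geo Cfsg.Agent.Lib.AschMU Cfsg.Agent.Lib.AschCore Cfsg.Agent.Lib.AschField Cfsg.Agent.Lib.AschAlg
  Cfsg.Agent.Lib.AschDescent Cfsg.Agent.Lib.AschForm Cfsg.Agent.Lib.AschGroup Cfsg.Agent.Lib.AschGood
  Cfsg.Agent.Lib.AschNonab Cfsg.Agent.Lib.AschTensor Cfsg.Agent.Lib.AschComp Cfsg.Agent.Lib.AschSymp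
  Cfsg.Agent.Lib.AschForm2 Cfsg.Agent.Lib.AschLinear Cfsg.Agent.Lib.SLGeom Cfsg.Agent.Lib.SLNot Cfsg.Agent.Lib.SLNotSymp
  Cfsg.Agent.Lib.AschLinMax Cfsg.Agent.Lib.AschSmall
open scoped Matrix MatrixGroups Kronecker commutatorElement
open Matrix (vecMulVec)

variable {ι : Type} [Fintype ι] [DecidableEq ι] {F : Type*} [Field F]

/-! ### The determinant of an element stabilising two planes -/

theorem det_eq_prod_of_decomp (b : Module.Basis (Fin 2 × Fin 2) F (ι → F)) {g : GL ι F} {σ : Equiv.Perm (Fin 2)}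
    {A : Fin 2 → Matrix (Fin 2) (Fin 2) F}
    (hg : ∀ i j, (g : Matrix ι ι F) *ᵥ b (i, j) = ∑ k, A i k j • b (σ i, k)) :
    (g : Matrix ι ι F).det = (A 0).det * (A 1).det := by
  have h1 : (g : Matrix ι ι F).det = (LinearMap.toMatrix b b (Matrix.toLin' (g : Matrix ι ι F))).det := by
    rw [LinearMap.det_toMatrix, LinearMap.det_toLin']
  rw [h1]
  have hent : ∀ i k i' j, (LinearMap.toMatrix b b (Matrix.toLin' (g : Matrix ι ι F))) (i', k) (i, j) =
      if i' = σ i then A i k j else 0 := by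
    intro i k i' j
    rw [LinearMap.toMatrix_apply, Matrix.toLin'_apply, hg]
    simp only [map_sum, map_smul, Finsupp.finsetSum_apply, Finsupp.smul_apply, b.repr_self, smul_eq_mul, Finsupp.single_apply,
      Prod.mk.injEq]
    by_cases h : i' = σ i
    · subst h
      rw [Finset.sum_eq_single k]
      · simp
      · intro k' _ hk'; simp [hk']
      · simp
    · rw [if_neg h]
      apply Finset.sum_eq_zero
      intro k' _
      rw [if_neg (fun h' => h h'.1.symm), mul_zero]
  set M := LinearMap.toMatrix b b (Matrix.toLin' (g : Matrix ι ι F)) with hM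
  let e : Fin 2 × Fin 2 ≃ Fin 4 := finProdFinEquiv
  have h2 : M.det = (Matrix.reindex e e M).det := (Matrix.det_reindex_self e M).symm
  have hs : σ = 1 ∨ σ = Equiv.swap 0 1 := by
    have : ∀ σ : Equiv.Perm (Fin 2), σ = 1 ∨ σ = Equiv.swap 0 1 := by decide
    exact this σ
  have hd : ∀ X : Matrix (Fin 2) (Fin 2) F, X.det = X 0 0 * X 1 1 - X 0 1 * X 1 0 := fun X => Matrix.det_fin_two X
  rw [h2]
  rcases hs with rfl | rfl
  · have h3 : Matrix.reindex e e M = !![A 0 0 0, A 0 0 1, 0, 0; A 0 1 0, A 0 1 1, 0, 0; 0, 0, A 1 0 0, A 1 0 1;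
        0, 0, A 1 1 0, A 1 1 1] := by
      ext i j
      fin_cases i <;> fin_cases j <;> exact (hent _ _ _ _).trans (by rfl)
    rw [h3, hd, hd]
    simp [Matrix.det_succ_row_zero, Fin.sum_univ_succ, Fin.succAbove]
    ring
  · have h3 : Matrix.reindex e e M = !![0, 0, A 1 0 0, A 1 0 1; 0, 0, A 1 1 0, A 1 1 1; A 0 0 0, A 0 0 1, 0, 0; A 0 1 0, A 0 1 1, 0, 0] := by
      ext i j
      fin_cases i <;> fin_cases j <;> exact (hent _ _ _ _).trans (by rfl)
    rw [h3, hd, hd]
    simp [Matrix.det_succ_row_zero, Fin.sum_univ_succ, Fin.succAbove]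
    ring

theorem planes_three [Fintype F] (hι : 3 ≤ Fintype.card ι) {H : Subgroup (GL ι F)} (hH : IsMaximalIn (specialLinear ι F) H)
    {D : Fin 2 → Submodule F (ι → F)} (hD : IsMDecomposition 2 D) (h : H ≤ decompositionStabilizer D) :
    4 ≤ Fintype.card F ∨ (∃ f : (ι → F) → (ι → F) → F, IsSymplecticForm f ∧ H = similarityGroup f ⊓ specialLinear ι F) := by
  by_cases h4 : 4 ≤ Fintype.card F
  · exact Or.inl h4
  right
  rcases planes_two hι hH hD h with h3 | h3
  swap
  · exact h3
  have hq : Fintype.card F = 3 := by omega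
  obtain ⟨b, -, hb⟩ := exists_basis_of_decomp hD
  refine ⟨_, plForm_isSymplectic b, symplectic_eq hι hH (plForm_isSymplectic b) ?_⟩
  intro g hg
  obtain ⟨σ, A, hA, hgA⟩ := hb g (h hg)
  have hdet : (g : Matrix ι ι F).det = 1 := by
    have h1 : Matrix.GeneralLinearGroup.det g = 1 := hH.1.le hg
    exact congrArg (fun u : Fˣ => (u : F)) h1
  rw [det_eq_prod_of_decomp b hgA] at hdet
  have hsq : ∀ x : F, x ≠ 0 → x ^ 2 = 1 := fun x hx => by
    have := FiniteField.pow_card_sub_one_eq_one x hx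
    rwa [hq] at this
  have h01 : (A 1).det = (A 0).det := by
    have h1 := hsq _ (hA 0)
    calc (A 1).det = (A 0).det ^ 2 * (A 1).det := by rw [h1, one_mul]
      _ = (A 0).det * ((A 0).det * (A 1).det) := by ring
      _ = (A 0).det := by rw [hdet, mul_one]
  refine ⟨Units.mk0 _ (hA 0), fun u v => ?_⟩
  rw [plForm_mulVec b hgA, Fin.sum_univ_two, h01, ← mul_add]
  simp only [plForm, Fin.sum_univ_two, Units.val_mk0]

/-! ### Four lines over the field with five elements -/

/-- Characteristic abelian subgroups of the group `R` for `r = 2` with a centre of order four are cyclic. -/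
theorem cyclic_of_sympData_two [Finite F] [Nonempty ι] {H R : Subgroup (GL ι F)} (h : SympData H R 2) {i : F} (hi : i * i = -1)
    (h2 : (2 : F) ≠ 0) (A : Subgroup R) (hA : A.Characteristic) (hAc : IsMulCommutative A) : IsCyclic A := by
  have hi0 : i ≠ 0 := by
    rintro rfl
    rw [mul_zero] at hi
    have : (1 : F) = 0 := by linear_combination hi
    exact one_ne_zero this
  set iu : Fˣ := Units.mk0 i hi0 with hiu
  have hiuR : sc ι iu ∈ R := h.big iu (by
    have : iu * iu = -1 := Units.ext hi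
    calc iu ^ (2 * Nat.gcd 2 2) = (iu * iu) * (iu * iu) := by
          rw [show 2 * Nat.gcd 2 2 = 4 by norm_num]
          apply Units.ext
          push_cast
          ring
      _ = 1 := by rw [this]; simp)
  -- commutators are ± 1
  have hcomm : ∀ x ∈ R, ∀ y ∈ R, (y : Matrix ι ι F) * (x : Matrix ι ι F) = (x : Matrix ι ι F) * (y : Matrix ι ι F) ∨
      (y : Matrix ι ι F) * (x : Matrix ι ι F) = -((x : Matrix ι ι F) * (y : Matrix ι ι F)) := by
    intro x hx y hy
    obtain ⟨c, hc, hxy⟩ := h.comm x hx y hy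
    have h1 : (y : Matrix ι ι F) * (x : Matrix ι ι F) = (c : F) • ((x : Matrix ι ι F) * (y : Matrix ι ι F)) := by
      rw [← Units.val_mul, hxy, sc_mul_val, Units.val_mul]
    have h2 : (c : F) * c = 1 := by
      have := congrArg (fun u : Fˣ => (u : F)) hc
      simpa [sq] using this
    rcases mul_self_eq_one_iff.1 h2 with h3 | h3
    · left; rw [h1, h3, one_smul]
    · right; rw [h1, h3, neg_smul, one_smul]
  -- squares are ± 1
  have hsq : ∀ x ∈ R, ∃ c : F, c * c = 1 ∧ (x : Matrix ι ι F) * (x : Matrix ι ι F) = c • (1 : Matrix ι ι F) := by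
    intro x hx
    obtain ⟨c, hc⟩ := h.powr x hx
    refine ⟨c, ?_, ?_⟩
    · have h1 := h.pow x hx
      have h3 : x ^ (2 * Nat.gcd 2 2) = sc ι (c * c) := by
        rw [show 2 * Nat.gcd 2 2 = 2 * 2 by norm_num, pow_mul, hc, sq, map_mul]
      rw [h3] at h1
      have h4 := sc_injective (h1.trans (map_one _).symm)
      exact congrArg (fun u : Fˣ => (u : F)) h4
    · have h1 := congrArg (fun z : GL ι F => (z : Matrix ι ι F)) hc
      simp only [sc_val] at h1
      rw [← h1, sq]; rfl
  have hAs : A.map R.subtype ≤ scalars ι F := by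
    rintro _ ⟨a, ha, rfl⟩
    apply scalar_of_commute_gl h.absIrr
    intro y₀ hy₀
    by_contra hne
    -- y₀ anticommutes with a; correct it to y with y² = -1
    have hanti₀ : (y₀ : Matrix ι ι F) * ((a : GL ι F) : Matrix ι ι F) = -(((a : GL ι F) : Matrix ι ι F) * (y₀ : Matrix ι ι F)) := by
      rcases hcomm a a.2 y₀ hy₀ with h1 | h1
      · exact absurd (Units.ext h1.symm) hne
      · exact h1
    obtain ⟨y, hy, hyy, hanti⟩ : ∃ y ∈ R, (y : Matrix ι ι F) * (y : Matrix ι ι F) = -1 ∧
        (y : Matrix ι ι F) * ((a : GL ι F) : Matrix ι ι F) = -(((a : GL ι F) : Matrix ι ι F) * (y : Matrix ι ι F)) := by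
      obtain ⟨c, hc, hcy⟩ := hsq y₀ hy₀
      rcases mul_self_eq_one_iff.1 hc with h3 | h3
      · refine ⟨sc ι iu * y₀, R.mul_mem hiuR hy₀, ?_, ?_⟩
        · rw [sc_mul_val, Matrix.smul_mul, Matrix.mul_smul, smul_smul, hcy, h3, one_smul]
          show (i * i) • (1 : Matrix ι ι F) = -1
          rw [hi, neg_smul, one_smul]
        · rw [sc_mul_val, Matrix.smul_mul, Matrix.mul_smul, hanti₀, smul_neg]
      · exact ⟨y₀, hy₀, by rw [hcy, h3, neg_smul, one_smul], hanti₀⟩
    -- conjugation by 1 + y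
    set Y : Matrix ι ι F := (y : Matrix ι ι F) with hY
    have hinv1 : (1 + Y) * ((2 : F)⁻¹ • (1 - Y)) = 1 := by
      rw [Matrix.mul_smul, mul_sub, mul_one, add_mul, one_mul, hyy]
      have : (1 + Y - (Y + -1)) = (2 : F) • (1 : Matrix ι ι F) := by rw [two_smul]; abel
      rw [this, smul_smul, inv_mul_cancel₀ h2, one_smul]
    have hinv2 : ((2 : F)⁻¹ • (1 - Y)) * (1 + Y) = 1 := by
      rw [Matrix.smul_mul, sub_mul, one_mul, mul_add, mul_one, hyy]
      have : (1 + Y - (Y + -1)) = (2 : F) • (1 : Matrix ι ι F) := by rw [two_smul]; abel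
      rw [this, smul_smul, inv_mul_cancel₀ h2, one_smul]
    let u : GL ι F := ⟨1 + Y, (2 : F)⁻¹ • (1 - Y), hinv1, hinv2⟩
    have hu : (u : Matrix ι ι F) = 1 + Y := rfl
    -- action on R
    have hact : ∀ x ∈ R, u * x * u⁻¹ = x ∨ u * x * u⁻¹ = y * x := by
      intro x hx
      rcases hcomm x hx y hy with h1 | h1
      · left
        have h3 : u * x = x * u := by
          apply Units.ext
          rw [Units.val_mul, Units.val_mul, hu, add_mul, one_mul, mul_add, mul_one, h1]
        rw [h3, mul_inv_cancel_right]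
      · right
        have h3 : u * x = (y * x) * u := by
          apply Units.ext
          rw [Units.val_mul, Units.val_mul, Units.val_mul, hu, add_mul, one_mul, mul_add, mul_one]
          have h4 : Y * (x : Matrix ι ι F) * Y = x := by
            have h5 : (x : Matrix ι ι F) * Y = -(Y * (x : Matrix ι ι F)) := by rw [hY, h1, neg_neg]
            rw [Matrix.mul_assoc, h5, mul_neg, ← Matrix.mul_assoc, hyy, neg_mul, one_mul, neg_neg]
          rw [h4, add_comm]
        rw [h3, mul_inv_cancel_right]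
    have hact' : ∀ x ∈ R, u⁻¹ * x * u ∈ R := by
      intro x hx
      rcases hcomm x hx y hy with h1 | h1
      · have h3 : u * x = x * u := by
          apply Units.ext
          rw [Units.val_mul, Units.val_mul, hu, add_mul, one_mul, mul_add, mul_one, h1]
        rw [mul_assoc, ← h3, inv_mul_cancel_left]
        exact hx
      · have h3 : x * u = u * (y⁻¹ * x) := by
          have h4 : u * (y⁻¹ * x) = y * (y⁻¹ * x) * u := by
            rcases hact (y⁻¹ * x) (R.mul_mem (R.inv_mem hy) hx) with h5 | h5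
            · exfalso
              -- y⁻¹ x anticommutes with y as well
              have h6 : u * (y⁻¹ * x) = (y⁻¹ * x) * u := by
                calc u * (y⁻¹ * x) = (u * (y⁻¹ * x) * u⁻¹) * u := by group
                  _ = _ := by rw [h5]
              have h7 := congrArg (fun z : GL ι F => (z : Matrix ι ι F)) h6
              simp only [Units.val_mul, hu] at h7
              rw [add_mul, one_mul, mul_add, mul_one, add_right_inj] at h7
              have h8 : Y * ((y⁻¹ : GL ι F) : Matrix ι ι F) = 1 := gl_mul_inv y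
              have h8' : ((y⁻¹ : GL ι F) : Matrix ι ι F) * Y = 1 := gl_inv_mul y
              rw [← Matrix.mul_assoc, h8, one_mul, Matrix.mul_assoc, show (x : Matrix ι ι F) * Y = -(Y * (x : Matrix ι ι F)) by
                rw [hY, h1, neg_neg], mul_neg, ← Matrix.mul_assoc, h8', one_mul] at h7
              have h9 : (2 : F) • (x : Matrix ι ι F) = 0 := by
                rw [two_smul]; nth_rewrite 1 [h7]; exact neg_add_cancel _
              rw [smul_eq_zero] at h9
              have h10 := h9.resolve_left h2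
              have h11 := x.isUnit
              rw [h10] at h11
              exact not_isUnit_zero h11
            · calc u * (y⁻¹ * x) = (u * (y⁻¹ * x) * u⁻¹) * u := by group
                _ = _ := by rw [h5]
          rw [h4]; group
        rw [mul_assoc, h3, inv_mul_cancel_left]
        exact R.mul_mem (R.inv_mem hy) hx
    let φ : R ≃* R :=
      { toFun := fun x => ⟨u * x * u⁻¹, by
          rcases hact x x.2 with h3 | h3
          · rw [h3]; exact x.2
          · rw [h3]; exact R.mul_mem hy x.2⟩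
        invFun := fun x => ⟨u⁻¹ * x * u, hact' x x.2⟩
        left_inv := fun x => Subtype.ext (by show u⁻¹ * (u * x * u⁻¹) * u = x; group)
        right_inv := fun x => Subtype.ext (by show u * (u⁻¹ * x * u) * u⁻¹ = x; group)
        map_mul' := fun x z => Subtype.ext (by show u * (x * z) * u⁻¹ = (u * x * u⁻¹) * (u * z * u⁻¹); group) }
    have hφA : φ a ∈ A := by
      have h3 := hA.fixed φ
      rw [← h3] at ha
      exact ha
    have hφa : ((φ a : R) : GL ι F) = y * a := by
      rcases hact a a.2 with h3 | h3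
      · exfalso
        have h6 : u * (a : GL ι F) = (a : GL ι F) * u := by
          calc u * (a : GL ι F) = (u * a * u⁻¹) * u := by group
            _ = _ := by rw [h3]
        have h7 := congrArg (fun z : GL ι F => (z : Matrix ι ι F)) h6
        simp only [Units.val_mul, hu] at h7
        rw [add_mul, one_mul, mul_add, mul_one, add_right_inj, hanti] at h7
        have h9 : (2 : F) • (((a : GL ι F) : Matrix ι ι F) * Y) = 0 := by
          rw [two_smul]; nth_rewrite 1 [← h7]; exact neg_add_cancel _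
        rw [smul_eq_zero] at h9
        have h10 := h9.resolve_left h2
        have h11 := ((a : GL ι F) * y).isUnit
        rw [Units.val_mul, h10] at h11
        exact not_isUnit_zero h11
      · exact h3
    have h12 := hAc.is_comm.comm (⟨φ a, hφA⟩ : A) ⟨a, ha⟩
    have h13 := congrArg (fun z : A => (((z : R) : GL ι F) : Matrix ι ι F)) h12
    have h14 : (((φ a : R) : GL ι F) : Matrix ι ι F) * ((a : GL ι F) : Matrix ι ι F) =
        ((a : GL ι F) : Matrix ι ι F) * (((φ a : R) : GL ι F) : Matrix ι ι F) := h13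
    rw [hφa, Units.val_mul] at h14
    -- Y a a = a Y a = - Y a a
    have h15 : Y * ((a : GL ι F) : Matrix ι ι F) * ((a : GL ι F) : Matrix ι ι F) =
        -(Y * ((a : GL ι F) : Matrix ι ι F) * ((a : GL ι F) : Matrix ι ι F)) := by
      conv_lhs => rw [h14]
      rw [← Matrix.mul_assoc, ← neg_mul, hanti, neg_neg]
    have h9 : (2 : F) • (Y * ((a : GL ι F) : Matrix ι ι F) * ((a : GL ι F) : Matrix ι ι F)) = 0 := by
      rw [two_smul]; nth_rewrite 1 [h15]; exact neg_add_cancel _
    rw [smul_eq_zero] at h9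
    have h10 := h9.resolve_left h2
    have h11 := (y * (a : GL ι F) * (a : GL ι F)).isUnit
    rw [Units.val_mul, Units.val_mul, h10] at h11
    exact not_isUnit_zero h11
  -- embed A in Fˣ
  have h1 : ∀ a : A, ∃ c : Fˣ, sc ι c = ((a : R) : GL ι F) := fun a => mem_scalars.1 (hAs ⟨a, a.2, rfl⟩)
  choose c hc using h1
  let φ : A →* Fˣ :=
    { toFun := c
      map_one' := by
        apply sc_injective (ι := ι)
        rw [hc, map_one]; rfl
      map_mul' := fun a b => by
        apply sc_injective (ι := ι)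
        rw [map_mul, hc, hc, hc]; rfl }
  have hφ : Function.Injective φ := by
    intro a b hab
    apply Subtype.ext
    apply Subtype.ext
    rw [← hc a, ← hc b]
    exact congrArg _ hab
  exact isCyclic_of_injective φ hφ

/-! #### The four-group -/

/-- Membership in the normal four-group of the symmetric group of degree four. -/
def IsV (π : Equiv.Perm (Fin 4)) : Prop := π * π = 1 ∧ (π = 1 ∨ ∀ i, π i ≠ i)

instance (π : Equiv.Perm (Fin 4)) : Decidable (IsV π) := by unfold IsV; infer_instance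

theorem isV_one : IsV 1 := by decide

set_option maxRecDepth 100000 in
theorem isV_mul : ∀ π ρ, IsV π → IsV ρ → IsV (π * ρ) := by decide +kernel

set_option maxRecDepth 100000 in
theorem isV_comm : ∀ π ρ, IsV π → IsV ρ → π * ρ = ρ * π := by decide +kernel

theorem isV_inv : ∀ π, IsV π → IsV π⁻¹ := by decide +kernel

set_option maxRecDepth 100000 in
theorem isV_conj : ∀ σ π, IsV π → IsV (σ * π * σ⁻¹) := by decide +kernel

theorem isV_trans : ∀ i j, ∃ π, IsV π ∧ π i = j := by decide +kernel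

theorem isV_cases : ∀ π, IsV π → π = 1 ∨ ∀ u w : Fin 4, w = u ∨ (w = π u ∧ π w = u) ∨
    ((Finset.univ : Finset (Fin 4)) = {u, π u, w, π w} ∧ u ∉ ({π u, w, π w} : Finset (Fin 4)) ∧ π u ∉ ({w, π w} : Finset (Fin 4)) ∧
      w ∉ ({π w} : Finset (Fin 4))) := by decide +kernel

theorem const_of {Γ : Type*} [CommGroup Γ] {a : Fin 4 → Γ} (h2 : ∀ u w, a u ^ 2 = a w ^ 2) (h4 : ∀ u, a u ^ 4 = 1)
    (hp : ∏ u, a u = 1) {π : Equiv.Perm (Fin 4)} (hπ : IsV π) (u w : Fin 4) : a u * a (π u) = a w * a (π w) := by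
  rcases isV_cases π hπ with rfl | h
  · simp only [Equiv.Perm.coe_one, id_eq, ← sq]
    exact h2 u w
  rcases h u w with rfl | ⟨h1, h3⟩ | ⟨h1, h3, h5, h6⟩
  · rfl
  · rw [h3, h1, mul_comm]
  · rw [h1, Finset.prod_insert h3, Finset.prod_insert h5, Finset.prod_insert h6, Finset.prod_singleton] at hp
    -- m_u m_w = 1 and m_u^2 = 1
    have h7 : (a u * a (π u)) * (a w * a (π w)) = 1 := by rw [← hp]; simp only [mul_assoc]
    have h8 : (a u * a (π u)) * (a u * a (π u)) = 1 := by
      calc (a u * a (π u)) * (a u * a (π u)) = a u ^ 2 * a (π u) ^ 2 := by rw [sq, sq]; exact mul_mul_mul_comm _ _ _ _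
        _ = a u ^ 2 * a u ^ 2 := by rw [h2 (π u) u]
        _ = a u ^ 4 := by rw [← pow_add]
        _ = 1 := h4 u
    exact mul_left_cancel (h8.trans h7.symm)

/-! #### Monomial elements -/

theorem exists_mono {t : ℕ} (b : Module.Basis (Fin t) F (ι → F)) (π : Equiv.Perm (Fin t)) (a : Fin t → Fˣ) :
    ∃ g : GL ι F, ∀ u, (g : Matrix ι ι F) *ᵥ b u = (a u : F) • b (π u) := by
  classical
  let b' := b.unitsSMul (fun i => a (π.symm i))
  let E : (ι → F) ≃ₗ[F] (ι → F) := b.equiv b' π
  have hE : ∀ u, E (b u) = (a u : F) • b (π u) := by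
    intro u
    rw [show E (b u) = b' (π u) from Module.Basis.equiv_apply _ _ _ _, Module.Basis.unitsSMul_apply, Equiv.symm_apply_apply]
    rfl
  let g : GL ι F :=
    { val := LinearMap.toMatrix' (E : (ι → F) →ₗ[F] (ι → F))
      inv := LinearMap.toMatrix' (E.symm : (ι → F) →ₗ[F] (ι → F))
      val_inv := by
        rw [← LinearMap.toMatrix'_comp]
        have : (E : (ι → F) →ₗ[F] (ι → F)).comp (E.symm : (ι → F) →ₗ[F] (ι → F)) = LinearMap.id := by
          ext1; ext1; simp
        rw [this, LinearMap.toMatrix'_id]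
      inv_val := by
        rw [← LinearMap.toMatrix'_comp]
        have : (E.symm : (ι → F) →ₗ[F] (ι → F)).comp (E : (ι → F) →ₗ[F] (ι → F)) = LinearMap.id := by
          ext1; ext1; simp
        rw [this, LinearMap.toMatrix'_id] }
  refine ⟨g, fun u => ?_⟩
  rw [← hE]
  show LinearMap.toMatrix' (E : (ι → F) →ₗ[F] (ι → F)) *ᵥ b u = E (b u)
  rw [LinearMap.toMatrix'_mulVec]
  rfl

theorem eq_of_basis {t : ℕ} (b : Module.Basis (Fin t) F (ι → F)) {x y : Matrix ι ι F} (h : ∀ u, x *ᵥ b u = y *ᵥ b u) : x = y := by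
  have h1 : Matrix.toLin' x = Matrix.toLin' y := b.ext fun u => by rw [Matrix.toLin'_apply, Matrix.toLin'_apply, h]
  exact Matrix.toLin'.injective h1

theorem det_mono {t : ℕ} (b : Module.Basis (Fin t) F (ι → F)) {g : GL ι F} {σ : Equiv.Perm (Fin t)} {c : Fin t → F}
    (hg : ∀ i, (g : Matrix ι ι F) *ᵥ b i = c i • b (σ i)) : (g : Matrix ι ι F).det ^ 2 = (∏ i, c i) ^ 2 := by
  classical
  have h1 : (g : Matrix ι ι F).det = (LinearMap.toMatrix b b (Matrix.toLin' (g : Matrix ι ι F))).det := by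
    rw [LinearMap.det_toMatrix, LinearMap.det_toLin']
  have h2 : LinearMap.toMatrix b b (Matrix.toLin' (g : Matrix ι ι F)) = (Matrix.diagonal c).submatrix σ.symm id := by
    ext i j
    rw [LinearMap.toMatrix_apply, Matrix.toLin'_apply, hg, map_smul, Finsupp.smul_apply, b.repr_self, smul_eq_mul,
      Matrix.submatrix_apply, Matrix.diagonal_apply, Finsupp.single_apply]
    by_cases h : σ j = i
    · subst h; simp
    · rw [if_neg h, if_neg, mul_zero]
      intro h'
      apply h
      have h'' : j = σ.symm i := h'.symm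
      rw [h'']; simp
  rw [h1, h2, Matrix.det_permute, Matrix.det_diagonal, mul_pow]
  have h3 : ((Equiv.Perm.sign σ.symm : ℤ) : F) ^ 2 = 1 := by
    rcases Int.units_eq_one_or (Equiv.Perm.sign σ.symm) with h | h <;> rw [h] <;> norm_num
  rw [h3, one_mul]

section Five

variable [Fintype F] (b : Module.Basis (Fin 4) F (ι → F))

/-- The group `4 ∘ 2^{1+4}` attached to a basis of a four-dimensional space over the field with five elements. -/
def RR (b : Module.Basis (Fin 4) F (ι → F)) : Subgroup (GL ι F) where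
  carrier := {g | ∃ (π : Equiv.Perm (Fin 4)) (a : Fin 4 → Fˣ), IsV π ∧ (∀ u w, a u ^ 2 = a w ^ 2) ∧ ∏ u, a u = 1 ∧
    ∀ u, (g : Matrix ι ι F) *ᵥ b u = (a u : F) • b (π u)}
  mul_mem' := by
    rintro x y ⟨π, a, hπ, ha, hap, hx⟩ ⟨ρ, d, hρ, hd, hdp, hy⟩
    refine ⟨π * ρ, fun u => d u * a (ρ u), isV_mul _ _ hπ hρ, ?_, ?_, ?_⟩
    · intro u w
      rw [mul_pow, mul_pow, hd u w, ha (ρ u) (ρ w)]
    · rw [Finset.prod_mul_distrib, hdp, Equiv.prod_comp ρ a, hap, one_mul]
    · intro u
      rw [Units.val_mul, ← Matrix.mulVec_mulVec, hy, Matrix.mulVec_smul, hx, smul_smul, Units.val_mul]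
      rfl
  one_mem' := ⟨1, fun _ => 1, isV_one, fun _ _ => rfl, by simp, fun u => by simp⟩
  inv_mem' := by
    rintro x ⟨π, a, hπ, ha, hap, hx⟩
    refine ⟨π⁻¹, fun u => (a (π⁻¹ u))⁻¹, isV_inv _ hπ, ?_, ?_, ?_⟩
    · intro u w
      rw [inv_pow, inv_pow, ha (π⁻¹ u) (π⁻¹ w)]
    · rw [Finset.prod_inv_distrib, Equiv.prod_comp π⁻¹ a, hap, inv_one]
    · intro u
      have h1 := hx (π⁻¹ u)
      rw [← Equiv.Perm.mul_apply, mul_inv_cancel, Equiv.Perm.one_apply] at h1
      have h2 := congrArg (fun z => (((a (π⁻¹ u))⁻¹ : Fˣ) : F) • (((x⁻¹ : GL ι F) : Matrix ι ι F) *ᵥ z)) h1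
      simp only [Matrix.mulVec_mulVec, gl_inv_mul, Matrix.one_mulVec, Matrix.mulVec_smul, smul_smul, Units.inv_mul, one_smul] at h2
      exact h2.symm

theorem mem_RR {g : GL ι F} : g ∈ RR b ↔ ∃ (π : Equiv.Perm (Fin 4)) (a : Fin 4 → Fˣ), IsV π ∧ (∀ u w, a u ^ 2 = a w ^ 2) ∧
    ∏ u, a u = 1 ∧ ∀ u, (g : Matrix ι ι F) *ᵥ b u = (a u : F) • b (π u) := Iff.rfl

/-- The sign vectors. -/
theorem exists_sign {i j : Fin 4} (hij : i ≠ j) : ∃ ε : Fin 4 → Fˣ, (∀ u w, ε u ^ 2 = ε w ^ 2) ∧ ∏ u, ε u = 1 ∧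
    ∀ k, ε k = if k = i ∨ k = j then 1 else -1 := by
  refine ⟨fun k => if k = i ∨ k = j then 1 else -1, ?_, ?_, fun k => rfl⟩
  · intro u w
    show (if u = i ∨ u = j then (1 : Fˣ) else -1) ^ 2 = (if w = i ∨ w = j then (1 : Fˣ) else -1) ^ 2
    split_ifs <;> simp
  · have h : ∀ i j : Fin 4, i ≠ j → ((Finset.univ : Finset (Fin 4)).filter (fun k => ¬ (k = i ∨ k = j))).card = 2 := by decide
    rw [Finset.prod_ite, Finset.prod_const_one, one_mul, Finset.prod_const, h i j hij]
    simp

theorem sympData_RR (hq : Fintype.card F = 5) [Nonempty ι] {H : Subgroup (GL ι F)} (hH : H ≤ specialLinear ι F)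
    (hb : ∀ g ∈ H, ∃ (σ : Equiv.Perm (Fin 4)) (c : Fin 4 → F), (∀ i, c i ≠ 0) ∧
        ∀ i, (g : Matrix ι ι F) *ᵥ b i = c i • b (σ i)) : SympData H (RR b) 2 := by
  classical
  have h4 : ∀ x : Fˣ, x ^ 4 = 1 := by
    intro x
    have h1 : x ^ Fintype.card Fˣ = 1 := pow_card_eq_one
    rwa [Fintype.card_units, hq] at h1
  have h2 : (2 : F) ≠ 0 := by
    intro h0
    have h5 : (5 : F) = 0 := by
      have := FiniteField.cast_card_eq_zero F
      rw [hq] at this
      exact_mod_cast this
    have : (1 : F) = 0 := by linear_combination h5 - 2 * h0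
    exact one_ne_zero this
  have hneg : (-1 : Fˣ) ≠ 1 := by
    intro h0
    have h1 := congrArg (fun u : Fˣ => (u : F)) h0
    simp only [Units.val_neg, Units.val_one] at h1
    exact h2 (by linear_combination -h1)
  have hbnz : ∀ u, b u ≠ 0 := fun u => b.ne_zero u
  refine ⟨Nat.prime_two, ?_, ⟨?_, ?_⟩, ?_, ?_, ?_, ?_, ?_⟩
  · -- norm
    rintro g hg x ⟨π, a, hπ, ha, hap, hx⟩
    obtain ⟨σ, c, hc0, hc⟩ := hb g hg
    let c' : Fin 4 → Fˣ := fun i => Units.mk0 (c i) (hc0 i)
    have hgb : ∀ i, (g : Matrix ι ι F) *ᵥ b i = (c' i : F) • b (σ i) := hc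
    have hdet : (∏ i, c' i) ^ 2 = 1 := by
      apply Units.ext
      have h1 : (g : Matrix ι ι F).det = 1 := by
        have h1 : Matrix.GeneralLinearGroup.det g = 1 := hH hg
        exact congrArg (fun u : Fˣ => (u : F)) h1
      have h3 := det_mono b hc
      rw [h1, one_pow] at h3
      rw [Units.val_pow_eq_pow_val, Units.coe_prod, Units.val_one]
      exact h3.symm
    refine ⟨σ * π * σ⁻¹, fun w => (c' (σ⁻¹ w))⁻¹ * a (σ⁻¹ w) * c' (π (σ⁻¹ w)), isV_conj _ _ hπ, ?_, ?_, ?_⟩
    · have key : ∀ u w, c' u ^ 2 * c' (π u) ^ 2 = c' w ^ 2 * c' (π w) ^ 2 := by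
        intro u w
        refine const_of (a := fun u => c' u ^ 2) ?_ ?_ ?_ hπ u w
        · intro u w
          show (c' u ^ 2) ^ 2 = (c' w ^ 2) ^ 2
          rw [← pow_mul, ← pow_mul, h4, h4]
        · intro u
          show (c' u ^ 2) ^ 4 = 1
          exact h4 _
        · show ∏ u, c' u ^ 2 = 1
          rw [Finset.prod_pow, hdet]
      intro u w
      have h5 : ∀ v, ((c' v)⁻¹) ^ 2 = c' v ^ 2 := by
        intro v
        rw [inv_pow, inv_eq_iff_mul_eq_one, ← pow_add]
        exact h4 _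
      rw [mul_pow, mul_pow, mul_pow, mul_pow, h5, h5, ha (σ⁻¹ u) (σ⁻¹ w), mul_right_comm, key (σ⁻¹ u) (σ⁻¹ w), mul_right_comm]
    · rw [Finset.prod_mul_distrib, Finset.prod_mul_distrib, Finset.prod_inv_distrib]
      rw [Equiv.prod_comp σ⁻¹ (fun v => c' v), Equiv.prod_comp σ⁻¹ (fun v => a v), Equiv.prod_comp σ⁻¹ (fun v => c' (π v)),
        Equiv.prod_comp π (fun v => c' v), hap, mul_one, inv_mul_cancel]
    · intro w
      have h6 : ((g⁻¹ : GL ι F) : Matrix ι ι F) *ᵥ b w = (((c' (σ⁻¹ w))⁻¹ : Fˣ) : F) • b (σ⁻¹ w) := by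
        have h1 := hgb (σ⁻¹ w)
        rw [← Equiv.Perm.mul_apply, mul_inv_cancel, Equiv.Perm.one_apply] at h1
        have h2 := congrArg (fun z => (((c' (σ⁻¹ w))⁻¹ : Fˣ) : F) • (((g⁻¹ : GL ι F) : Matrix ι ι F) *ᵥ z)) h1
        simp only [Matrix.mulVec_mulVec, gl_inv_mul, Matrix.one_mulVec, Matrix.mulVec_smul, smul_smul, Units.inv_mul, one_smul] at h2
        exact h2.symm
      rw [Units.val_mul, Units.val_mul, ← Matrix.mulVec_mulVec, h6, Matrix.mulVec_smul, ← Matrix.mulVec_mulVec, hx,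
        Matrix.mulVec_smul, hgb, smul_smul, smul_smul, Units.val_mul, Units.val_mul]
      rfl
  · -- irreducible
    intro W hW
    by_cases hW0 : W = ⊥
    · left; exact hW0
    right
    have hWR : ∀ x ∈ RR b, ∀ w ∈ W, (x : Matrix ι ι F) *ᵥ w ∈ W := by
      intro x hx w hw
      exact hW _ ⟨x, hx, rfl⟩ ⟨w, hw, Matrix.toLin'_apply _ _⟩
    obtain ⟨w, hw, hw0⟩ := Submodule.exists_mem_ne_zero_of_ne_bot hW0
    obtain ⟨i, hi⟩ : ∃ i, b.repr w i ≠ 0 := by
      by_contra hcon
      push Not at hcon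
      apply hw0
      apply b.repr.injective
      ext i
      rw [hcon i]; simp
    have hpair : ∀ j, j ≠ i → b.repr w i • b i + b.repr w j • b j ∈ W := by
      intro j hj
      obtain ⟨ε, hε, hεp, hεv⟩ := exists_sign (F := F) hj.symm
      obtain ⟨x, hx⟩ := exists_mono b 1 ε
      have hxR : x ∈ RR b := ⟨1, ε, isV_one, hε, hεp, hx⟩
      have h5 : w + (x : Matrix ι ι F) *ᵥ w = (2 : F) • (b.repr w i • b i + b.repr w j • b j) := by
        have h6 : w = ∑ k, b.repr w k • b k := (b.sum_repr w).symm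
        conv_lhs => rw [h6]
        rw [Matrix.mulVec_sum, ← Finset.sum_add_distrib]
        have h7 : ∀ k, b.repr w k • b k + (x : Matrix ι ι F) *ᵥ (b.repr w k • b k) =
            if k = i ∨ k = j then (2 : F) • (b.repr w k • b k) else 0 := by
          intro k
          rw [Matrix.mulVec_smul, hx, hεv]
          by_cases hk : k = i ∨ k = j
          · rw [if_pos hk, if_pos hk, Units.val_one, one_smul, two_smul]; rfl
          · rw [if_neg hk, if_neg hk, Units.val_neg, Units.val_one, neg_smul, one_smul, smul_neg]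
            exact add_neg_cancel _
        rw [Finset.sum_congr rfl fun k _ => h7 k, ← Finset.sum_filter]
        have h8 : (Finset.univ.filter fun k : Fin 4 => k = i ∨ k = j) = {i, j} := by
          ext k; simp
        rw [h8, Finset.sum_pair hj.symm, smul_add]
      have h9 : (2 : F)⁻¹ • (w + (x : Matrix ι ι F) *ᵥ w) ∈ W := W.smul_mem _ (W.add_mem hw (hWR x hxR w hw))
      rwa [h5, smul_smul, inv_mul_cancel₀ h2, one_smul] at h9
    have hbi : b i ∈ W := by
      have h5 : ∑ j ∈ Finset.univ.erase i, (b.repr w i • b i + b.repr w j • b j) ∈ W :=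
        W.sum_mem fun j hj => hpair j (Finset.ne_of_mem_erase hj)
      rw [Finset.sum_add_distrib, Finset.sum_const, Finset.card_erase_of_mem (Finset.mem_univ _), Finset.card_univ,
        Fintype.card_fin] at h5
      have h6 : ∑ j ∈ Finset.univ.erase i, b.repr w j • b j = w - b.repr w i • b i := by
        rw [eq_sub_iff_add_eq, add_comm, Finset.add_sum_erase _ (fun j => b.repr w j • b j) (Finset.mem_univ i), b.sum_repr]
      rw [h6] at h5
      have h7 : (4 - 1) • (b.repr w i • b i) + (w - b.repr w i • b i) = w + (2 : F) • (b.repr w i • b i) := by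
        rw [show (4 - 1 : ℕ) = 3 by rfl, two_smul]
        rw [show (3 : ℕ) • (b.repr w i • b i) = b.repr w i • b i + b.repr w i • b i + b.repr w i • b i by
          rw [succ_nsmul, two_nsmul]]
        abel
      rw [h7] at h5
      have h8 := W.sub_mem h5 hw
      rw [add_sub_cancel_left, smul_smul] at h8
      have h9 := W.smul_mem ((2 : F) * b.repr w i)⁻¹ h8
      rwa [smul_smul, inv_mul_cancel₀ (mul_ne_zero h2 hi), one_smul] at h9
    rw [eq_top_iff, ← b.span_eq, Submodule.span_le]
    rintro _ ⟨j, rfl⟩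
    obtain ⟨π, hπ, hπi⟩ := isV_trans i j
    obtain ⟨x, hx⟩ := exists_mono b π (fun _ => 1)
    have hxR : x ∈ RR b := ⟨π, fun _ => 1, hπ, fun _ _ => rfl, by simp, hx⟩
    have h5 := hWR x hxR _ hbi
    rw [hx, hπi, Units.val_one, one_smul] at h5
    exact h5
  · -- commutant
    intro M hM
    have hM' : ∀ x ∈ RR b, M * (x : Matrix ι ι F) = (x : Matrix ι ι F) * M := fun x hx => hM _ ⟨x, hx, rfl⟩
    have hdiag : ∀ i j, j ≠ i → b.repr (M *ᵥ b i) j = 0 := by
      intro i j hji
      obtain ⟨k, hki, hkj⟩ : ∃ k : Fin 4, k ≠ i ∧ k ≠ j := by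
        have : ∀ i j : Fin 4, ∃ k, k ≠ i ∧ k ≠ j := by decide
        exact this i j
      obtain ⟨ε, hε, hεp, hεv⟩ := exists_sign (F := F) hki.symm
      obtain ⟨x, hx⟩ := exists_mono b 1 ε
      have hxR : x ∈ RR b := ⟨1, ε, isV_one, hε, hεp, hx⟩
      have h5 := congrArg (fun z : Matrix ι ι F => b.repr (z *ᵥ b i) j) (hM' x hxR)
      simp only [← Matrix.mulVec_mulVec] at h5
      rw [hx, Matrix.mulVec_smul] at h5
      have h6 := repr_mulVec b (g := x) (σ := 1) (c := fun k => (ε k : F)) hx (M *ᵥ b i) j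
      simp only [Equiv.Perm.coe_one, id_eq] at h6
      rw [h6, map_smul, Finsupp.smul_apply, smul_eq_mul, Equiv.Perm.coe_one, id_eq, hεv, hεv, if_pos (Or.inl rfl),
        if_neg (by rintro (h | h); exact hji h; exact hkj h.symm), Units.val_one, one_mul, Units.val_neg, Units.val_one] at h5
      have h7 : (2 : F) * b.repr (M *ᵥ b i) j = 0 := by linear_combination h5
      exact (mul_eq_zero.1 h7).resolve_left h2
    let i₀ : Fin 4 := 0
    refine ⟨b.repr (M *ᵥ b i₀) i₀, eq_of_basis b fun j => ?_⟩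
    have hMi : ∀ i, M *ᵥ b i = b.repr (M *ᵥ b i) i • b i := by
      intro i
      conv_lhs => rw [← b.sum_repr (M *ᵥ b i)]
      rw [Finset.sum_eq_single i]
      · intro j _ hj
        rw [hdiag i j hj, zero_smul]
      · simp
    obtain ⟨π, hπ, hπi⟩ := isV_trans i₀ j
    obtain ⟨x, hx⟩ := exists_mono b π (fun _ => 1)
    have hxR : x ∈ RR b := ⟨π, fun _ => 1, hπ, fun _ _ => rfl, by simp, hx⟩
    have h5 := congrArg (fun z : Matrix ι ι F => z *ᵥ b i₀) (hM' x hxR)
    simp only [← Matrix.mulVec_mulVec] at h5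
    rw [hx, hπi, Units.val_one, one_smul, hMi i₀, Matrix.mulVec_smul, hx, hπi, Units.val_one, one_smul] at h5
    rw [h5, Matrix.smul_mulVec, Matrix.one_mulVec]
  · -- fourth powers
    rintro x ⟨π, a, hπ, ha, hap, hx⟩
    have h5 : (x : Matrix ι ι F) * (x : Matrix ι ι F) = ((a 0 * a (π 0) : Fˣ) : F) • (1 : Matrix ι ι F) := by
      apply eq_of_basis b
      intro u
      rw [← Matrix.mulVec_mulVec, hx, Matrix.mulVec_smul, hx, smul_smul, ← Units.val_mul, ← Equiv.Perm.mul_apply, hπ.1,
        Matrix.smul_mulVec, Matrix.one_mulVec, Equiv.Perm.one_apply, const_of ha (fun u => h4 _) hap hπ u 0]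
    have h6 : x * x = sc ι (a 0 * a (π 0)) := Units.ext (by rw [Units.val_mul, h5, sc_val])
    rw [show 2 * Nat.gcd 2 2 = 2 * 2 by norm_num, pow_mul, pow_two x, h6, ← map_pow]
    have h7 : (a 0 * a (π 0)) ^ 2 = 1 := by
      rw [mul_pow, ha (π 0) 0, ← pow_add]
      exact h4 _
    rw [h7, map_one]
  · -- squares
    rintro x ⟨π, a, hπ, ha, hap, hx⟩
    refine ⟨a 0 * a (π 0), Units.ext ?_⟩
    rw [sc_val, sq, Units.val_mul]
    apply eq_of_basis b
    intro u
    rw [← Matrix.mulVec_mulVec, hx, Matrix.mulVec_smul, hx, smul_smul, ← Units.val_mul, ← Equiv.Perm.mul_apply, hπ.1,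
      Matrix.smul_mulVec, Matrix.one_mulVec, Equiv.Perm.one_apply, const_of ha (fun u => h4 _) hap hπ u 0]
  · -- commutators
    rintro x ⟨π, a, hπ, ha, hap, hx⟩ y ⟨ρ, d, hρ, hd, hdp, hy⟩
    -- the constant
    have hconst : ∀ u, a u * d (π u) * (d u * a (ρ u))⁻¹ = a 0 * d (π 0) * (d 0 * a (ρ 0))⁻¹ := by
      intro u
      have e1 := const_of ha (fun u => h4 _) hap hρ u 0
      have e2 := const_of hd (fun u => h4 _) hdp hπ u 0
      have key : ∀ v, a v * d (π v) * (d v * a (ρ v))⁻¹ = (a v * a (ρ v)) * (d v * d (π v)) * ((a (ρ v)) ^ 2)⁻¹ * ((d v) ^ 2)⁻¹ := by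
        intro v
        rw [sq, sq]
        apply Units.ext
        simp only [Units.val_mul, Units.val_inv_eq_inv_val]
        have := (a (ρ v)).ne_zero
        have := (d v).ne_zero
        field_simp
      rw [key u, key 0, e1, e2, ha (ρ u) (ρ 0), hd u 0]
    refine ⟨a 0 * d (π 0) * (d 0 * a (ρ 0))⁻¹, ?_, ?_⟩
    · have e1 := ha (ρ 0) 0
      have e2 := hd (π 0) 0
      rw [mul_pow, mul_pow, inv_pow, mul_pow, e1, e2, mul_comm (d 0 ^ 2), mul_inv_cancel]
    · apply Units.ext
      rw [sc_mul_val]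
      apply eq_of_basis b
      intro u
      have e1 : ((y * x : GL ι F) : Matrix ι ι F) = (y : Matrix ι ι F) * (x : Matrix ι ι F) := rfl
      have e2 : ((x * y : GL ι F) : Matrix ι ι F) = (x : Matrix ι ι F) * (y : Matrix ι ι F) := rfl
      rw [e1, e2, Matrix.smul_mulVec, ← Matrix.mulVec_mulVec, ← Matrix.mulVec_mulVec, hx, hy, Matrix.mulVec_smul, Matrix.mulVec_smul,
        hx, hy, smul_smul, smul_smul, smul_smul, ← hconst u, ← Equiv.Perm.mul_apply, ← Equiv.Perm.mul_apply,
        isV_comm _ _ hπ hρ]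
      congr 1
      rw [← Units.val_mul, ← Units.val_mul, ← Units.val_mul]
      congr 1
      rw [mul_assoc _ (d u), inv_mul_cancel_right]
  · -- scalars
    intro c _
    refine ⟨1, fun _ => c, isV_one, fun _ _ => rfl, ?_, ?_⟩
    · rw [Finset.prod_const, Finset.card_univ, Fintype.card_fin]
      exact h4 c
    · intro u
      rw [sc_val, Matrix.smul_mulVec, Matrix.one_mulVec]; rfl
  · -- non-commuting pair
    obtain ⟨π, hπ, hπ0⟩ := isV_trans 0 1
    obtain ⟨x, hx⟩ := exists_mono b π (fun _ => 1)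
    have hxR : x ∈ RR b := ⟨π, fun _ => 1, hπ, fun _ _ => rfl, by simp, hx⟩
    obtain ⟨ε, hε, hεp, hεv⟩ := exists_sign (F := F) (show (0 : Fin 4) ≠ 2 by decide)
    obtain ⟨y, hy⟩ := exists_mono b 1 ε
    have hyR : y ∈ RR b := ⟨1, ε, isV_one, hε, hεp, hy⟩
    refine ⟨x, hxR, y, hyR, ?_⟩
    intro hxy
    have h5 := congrArg (fun z : GL ι F => (z : Matrix ι ι F) *ᵥ b 0) hxy
    simp only [Units.val_mul, ← Matrix.mulVec_mulVec] at h5
    rw [hx, hy, Matrix.mulVec_smul, Matrix.mulVec_smul, hx, hπ0, hy, hεv, hεv] at h5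
    rw [Equiv.Perm.one_apply, Equiv.Perm.one_apply, hπ0] at h5
    simp at h5
    have h6 := congrArg (fun z => b.repr z 1) h5
    simp at h6
    apply h2
    linear_combination -h6

end Five

theorem lines_five [Fintype F] (hι : 4 = Fintype.card ι) {H : Subgroup (GL ι F)} (hH : IsMaximalIn (specialLinear ι F) H)
    {D : Fin 4 → Submodule F (ι → F)} (hD : IsMDecomposition 1 D) (h : H ≤ decompositionStabilizer D)
    (hq : Fintype.card F = 5) :
    ∃ R : Subgroup (GL ι F), IsLinearSymplecticTypeData 2 R ∧ H = subgroupNormalizer R ⊓ specialLinear ι F := by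
  classical
  have hne : Nonempty ι := Fintype.card_pos_iff.1 (by omega)
  obtain ⟨b, -, hb⟩ := exists_basis_of_lines hD
  have hS := sympData_RR b hq hH.1.le (fun g hg => hb g (h hg))
  have h2 : (2 : F) ≠ 0 := by
    intro h0
    have h5 : (5 : F) = 0 := by
      have := FiniteField.cast_card_eq_zero F
      rw [hq] at this
      exact_mod_cast this
    have : (1 : F) = 0 := by linear_combination h5 - 2 * h0
    exact one_ne_zero this
  have hi : (2 : F) * 2 = -1 := by
    have h5 : (5 : F) = 0 := by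
      have := FiniteField.cast_card_eq_zero F
      rw [hq] at this
      exact_mod_cast this
    linear_combination h5
  have hcyc := cyclic_of_sympData_two hS hi h2
  have hp5 : CharP F 5 := by
    obtain ⟨p, hp⟩ := CharP.exists F
    have h3 : p ∣ 5 := by
      rw [← CharP.cast_eq_zero_iff F p]
      have := FiniteField.cast_card_eq_zero F
      rw [hq] at this
      exact this
    rcases (Nat.dvd_prime (by norm_num)).1 h3 with h4 | h4
    · subst h4
      exact absurd rfl (CharP.char_ne_one F 1)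
    · exact h4 ▸ hp
  have hz : Nat.card (Subgroup.center (RR b)) = 4 := by
    obtain ⟨hz1, hz2, hz3⟩ := hS.center_card
    have h4 : 2 * Nat.gcd 2 2 = 2 ^ 2 := by norm_num
    rw [h4] at hz1
    obtain ⟨k, hk, hke⟩ := (Nat.dvd_prime_pow Nat.prime_two).1 hz1
    interval_cases k
    · rw [hke] at hz2; norm_num at hz2
    · exfalso
      have h5 := (hz3 (Units.mk0 2 h2)).2 (hS.big _ (by
        apply Units.ext
        have h5 : (5 : F) = 0 := by
          have := FiniteField.cast_card_eq_zero F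
          rw [hq] at this
          exact_mod_cast this
        simp only [Units.val_pow_eq_pow_val, Units.val_mk0, Units.val_one]
        norm_num
        linear_combination 3 * h5))
      rw [hke, pow_one] at h5
      have h6 := congrArg (fun u : Fˣ => (u : F)) h5
      simp only [Units.val_pow_eq_pow_val, Units.val_mk0, Units.val_one] at h6
      have h7 : (2 : F) = 0 := by linear_combination hi - h6
      exact h2 h7
    · rw [hke]; norm_num
  obtain ⟨m, hm, hRm⟩ := AschSympC.card_pow hS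
  have hdata : IsLinearSymplecticTypeData 2 (RR b) := by
    refine ⟨⟨Nat.prime_two, AschSympC.isPGroup hS, hcyc, AschSympC.exponent_eq hS⟩, hS.absIrr, 5, 1, by norm_num, ?_,
      Or.inr (Or.inl ⟨rfl, rfl, hz, hι.le, m, ?_⟩)⟩
    · refine ⟨by norm_num, hp5, by rw [hq, pow_one], by rw [hz]; norm_num, ?_⟩
      intro d hd hd1; omega
    · rw [hRm, hz]; ring
  refine ⟨RR b, hdata, eq_inf_of_maximal hH ?_ (not_le_symplecticType (by omega) hdata)⟩
  intro g hg
  rw [subgroupNormalizer, Subgroup.mem_normalizer_iff]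
  intro x
  refine ⟨hS.norm g hg x, fun hx => ?_⟩
  have h1 := hS.norm g⁻¹ (H.inv_mem hg) _ hx
  have h2 : g⁻¹ * (g * x * g⁻¹) * g⁻¹⁻¹ = x := by group
  rwa [h2] at h1

end Cfsg.Agent.Lib.AschSL4
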