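import Cfsg.Agent.Lib.AschLinMax

/-!
Small exceptions for the maximal subgroups of `SL_n(F)`: planes and tensor products over the field with two elements;
arithmetic of the groups of symplectic type.
-/

set_option autoImplicit false
set_option linter.unusedSectionVars false

namespace Cfsg.Agent.Lib.AschSmall

open Cfsg Cfsg.Geo Cfsg.Agent.Lib.AschMU Cfsg.Agent.Lib.AschCore Cfsg.Agent.Lib.AschField Cfsg.Agent.Lib.AschAlg
  Cfsg.Agent.Lib.AschDescent Cfsg.Agent.Lib.AschForm Cfsg.Agent.Lib.AschGroup Cfsg.Agent.Lib.AschGood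
  Cfsg.Agent.Lib.AschNonab Cfsg.Agent.Lib.AschTensor Cfsg.Agent.Lib.AschComp Cfsg.Agent.Lib.AschSymp
  Cfsg.Agent.Lib.AschForm2 Cfsg.Agent.Lib.AschLinear Cfsg.Agent.Lib.SLGeom Cfsg.Agent.Lib.SLNot Cfsg.Agent.Lib.SLNotSymp
  Cfsg.Agent.Lib.AschLinMax
open scoped Matrix MatrixGroups Kronecker commutatorElement
open Matrix (vecMulVec)

variable {ι : Type} [Fintype ι] [DecidableEq ι] {F : Type*} [Field F]

/-! ### Arithmetic -/

theorem odd_data [Fintype F] {r : ℕ} (hr : r ≠ 2) {R : Subgroup (GL ι F)} (h : IsLinearSymplecticTypeData r R) :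
    ∃ p e : ℕ, p.Prime ∧ CharP F p ∧ Fintype.card F = p ^ e ∧ Odd e ∧ e ∣ r - 1 ∧ r ∣ p ^ e - 1 ∧
      ∀ d : ℕ, 0 < d → d < e → ¬ r ∣ p ^ d - 1 := by
  obtain ⟨p, e, hrp, ⟨hp, hch, hcard, hz, hmin⟩, hcase⟩ := h.field
  rcases hcase with ⟨hodd, he, hc, -⟩ | ⟨h2, -⟩ | ⟨h2, -⟩
  · rw [hc] at hz hmin
    refine ⟨p, e, hp, hch, hcard, he, ?_, hz, hmin⟩
    have hrprime := h.symplecticType.prime
    have h1 : r ∣ p ^ (r - 1) - 1 := by
      have hcop : Nat.Coprime p r := (Nat.coprime_primes hp hrprime).2 (Ne.symm hrp)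
      have h2 := Nat.ModEq.pow_totient hcop
      rw [Nat.totient_prime hrprime] at h2
      exact (Nat.modEq_iff_dvd' (Nat.one_le_pow _ _ hp.pos)).1 h2.symm
    have h2 : r ∣ p ^ Nat.gcd e (r - 1) - 1 := by
      rw [← Nat.pow_sub_one_gcd_pow_sub_one]
      exact Nat.dvd_gcd hz h1
    have hepos : 0 < e := he.pos
    have h3 : 0 < Nat.gcd e (r - 1) := Nat.gcd_pos_of_pos_left _ hepos
    rcases Nat.lt_or_ge (Nat.gcd e (r - 1)) e with h4 | h4
    · exact absurd h2 (hmin _ h3 h4)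
    · have h5 : Nat.gcd e (r - 1) = e := le_antisymm (Nat.gcd_le_left _ hepos) h4
      rw [← h5]; exact Nat.gcd_dvd_right _ _
  · exact absurd h2 hr
  · exact absurd h2 hr

theorem two_data [Fintype F] {R : Subgroup (GL ι F)} (h : IsLinearSymplecticTypeData 2 R) (hι : 3 ≤ Fintype.card ι) :
    ∃ p : ℕ, p.Prime ∧ Fintype.card F = p ∧ p % 4 = 1 := by
  obtain ⟨p, e, hrp, ⟨hp, hch, hcard, hz, hmin⟩, hcase⟩ := h.field
  rcases hcase with ⟨hodd, he, hc, -⟩ | ⟨-, he, hc, -⟩ | ⟨-, -, hn, -⟩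
  · exact absurd hodd (by decide)
  · refine ⟨p, hp, by rw [hcard, he, pow_one], ?_⟩
    rw [hc, he, pow_one] at hz
    have := hp.two_le
    omega
  · omega

theorem arith3 [Fintype F] {R : Subgroup (GL ι F)} (h : IsLinearSymplecticTypeData 3 R) :
    ∃ p : ℕ, p.Prime ∧ Fintype.card F = p ∧ p % 3 = 1 := by
  obtain ⟨p, e, hp, -, hcard, hodd, hdvd, hz, -⟩ := odd_data (by decide) h
  have hle : e ≤ 2 := Nat.le_of_dvd (by norm_num) hdvd
  have := hp.two_le
  interval_cases e
  · exact absurd hodd (by decide)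
  · refine ⟨p, hp, by rw [hcard, pow_one], ?_⟩
    rw [pow_one] at hz; omega
  · exact absurd hodd (by decide)

theorem arith5 [Fintype F] {R : Subgroup (GL ι F)} (h : IsLinearSymplecticTypeData 5 R) :
    ∃ p : ℕ, p.Prime ∧ Fintype.card F = p ∧ p % 5 = 1 := by
  obtain ⟨p, e, hp, -, hcard, hodd, hdvd, hz, -⟩ := odd_data (by decide) h
  have hle : e ≤ 4 := Nat.le_of_dvd (by norm_num) hdvd
  have := hp.two_le
  interval_cases e
  · exact absurd hodd (by decide)
  · refine ⟨p, hp, by rw [hcard, pow_one], ?_⟩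
    rw [pow_one] at hz; omega
  · exact absurd hodd (by decide)
  · norm_num at hdvd
  · exact absurd hodd (by decide)

theorem arith7 [Fintype F] {R : Subgroup (GL ι F)} (h : IsLinearSymplecticTypeData 7 R) :
    ∃ p : ℕ, p.Prime ∧ CharP F p ∧ ((Fintype.card F = p ∧ p % 7 = 1) ∨
      (Fintype.card F = p ^ 3 ∧ (p % 7 = 2 ∨ p % 7 = 4))) := by
  obtain ⟨p, e, hp, hch, hcard, hodd, hdvd, hz, hmin⟩ := odd_data (by decide) h
  have hle : e ≤ 6 := Nat.le_of_dvd (by norm_num) hdvd
  have := hp.two_le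
  refine ⟨p, hp, hch, ?_⟩
  interval_cases e
  · exact absurd hodd (by decide)
  · left
    refine ⟨by rw [hcard, pow_one], ?_⟩
    rw [pow_one] at hz; omega
  · exact absurd hodd (by decide)
  · right
    refine ⟨hcard, ?_⟩
    have h1 := hmin 1 one_pos (by norm_num)
    rw [pow_one] at h1
    have h2 : p ^ 3 % 7 = 1 := by
      have : 1 ≤ p ^ 3 := Nat.one_le_pow _ _ hp.pos
      omega
    rw [Nat.pow_mod] at h2
    have h3 : p % 7 < 7 := Nat.mod_lt _ (by norm_num)
    generalize hs : p % 7 = s at h2 h3 ⊢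
    interval_cases s <;> simp at h2 ⊢
    omega
  · exact absurd hodd (by decide)
  · norm_num at hdvd
  · exact absurd hodd (by decide)

theorem arith11 [Fintype F] {R : Subgroup (GL ι F)} (h : IsLinearSymplecticTypeData 11 R) :
    ∃ p : ℕ, p.Prime ∧ CharP F p ∧ ((Fintype.card F = p ∧ p % 11 = 1) ∨
      (Fintype.card F = p ^ 5 ∧ (p % 11 = 3 ∨ p % 11 = 4 ∨ p % 11 = 5 ∨ p % 11 = 9))) := by
  obtain ⟨p, e, hp, hch, hcard, hodd, hdvd, hz, hmin⟩ := odd_data (by decide) h
  have hle : e ≤ 10 := Nat.le_of_dvd (by norm_num) hdvd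
  have := hp.two_le
  refine ⟨p, hp, hch, ?_⟩
  interval_cases e
  · exact absurd hodd (by decide)
  · left
    refine ⟨by rw [hcard, pow_one], ?_⟩
    rw [pow_one] at hz; omega
  · exact absurd hodd (by decide)
  · norm_num at hdvd
  · exact absurd hodd (by decide)
  · right
    refine ⟨hcard, ?_⟩
    have h1 := hmin 1 one_pos (by norm_num)
    rw [pow_one] at h1
    have h2 : p ^ 5 % 11 = 1 := by
      have : 1 ≤ p ^ 5 := Nat.one_le_pow _ _ hp.pos
      omega
    rw [Nat.pow_mod] at h2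
    have h3 : p % 11 < 11 := Nat.mod_lt _ (by norm_num)
    generalize hs : p % 11 = s at h2 h3 ⊢
    interval_cases s <;> simp at h2 ⊢
    omega
  · exact absurd hodd (by decide)
  · norm_num at hdvd
  · exact absurd hodd (by decide)
  · norm_num at hdvd
  · exact absurd hodd (by decide)

/-- the prime of a group of symplectic type from the degree -/
theorem eq_of_pow_eq {n r m q k : ℕ} (hq : q.Prime) (hr : r.Prime) (hn : n = q ^ k) (hm : n = r ^ m) (hk : k ≠ 0) : r = q := by
  have h1 : q ∣ r ^ m := by rw [← hm, hn]; exact dvd_pow_self _ hk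
  exact ((Nat.prime_dvd_prime_iff_eq hq hr).1 (hq.dvd_of_dvd_pow h1)).symm

theorem false_of_two_primes {n r m q₁ q₂ : ℕ} (hr : r.Prime) (hm : n = r ^ m) (h1 : q₁.Prime) (h2 : q₂.Prime)
    (h12 : q₁ ≠ q₂) (hd1 : q₁ ∣ n) (hd2 : q₂ ∣ n) : False := by
  rw [hm] at hd1 hd2
  have e1 := (Nat.prime_dvd_prime_iff_eq h1 hr).1 (h1.dvd_of_dvd_pow hd1)
  have e2 := (Nat.prime_dvd_prime_iff_eq h2 hr).1 (h2.dvd_of_dvd_pow hd2)
  exact h12 (e1.trans e2.symm)

theorem wreath_small {n m t : ℕ} (hm : 3 ≤ m) (ht : 2 ≤ t) (h : n = m ^ t) (hn : n ≤ 12) : m = 3 ∧ t = 2 := by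
  have h1 : m ^ 2 ≤ m ^ t := Nat.pow_le_pow_right (by omega) ht
  have h2 : m < 4 := by
    by_contra hlt
    have : 4 ^ 2 ≤ m ^ 2 := Nat.pow_le_pow_left (by omega) 2
    omega
  have h3 : m = 3 := by omega
  refine ⟨h3, ?_⟩
  subst h3
  by_contra hne
  have h4 : 3 ^ 3 ≤ 3 ^ t := Nat.pow_le_pow_right (by omega) (by omega)
  omega

/-! ### Decompositions into subspaces of dimension `m` -/

section Decomp

variable {t m : ℕ} {D : Fin t → Submodule F (ι → F)}

/-- A basis adapted to a decomposition. -/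
theorem exists_basis_of_decomp (hD : IsMDecomposition m D) :
    ∃ b : Module.Basis (Fin t × Fin m) F (ι → F), (∀ i j, b (i, j) ∈ D i) ∧
      ∀ g ∈ decompositionStabilizer D, ∃ (σ : Equiv.Perm (Fin t)) (A : Fin t → Matrix (Fin m) (Fin m) F),
        (∀ i, (A i).det ≠ 0) ∧ ∀ i j, (g : Matrix ι ι F) *ᵥ b (i, j) = ∑ k, A i k j • b (σ i, k) := by
  classical
  have h1 : DirectSum.IsInternal D :=
    (DirectSum.isInternal_submodule_iff_iSupIndep_and_iSup_eq_top D).2 ⟨hD.indep, hD.iSup_eq_top⟩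
  let v : ∀ i, Module.Basis (Fin m) F (D i) := fun i => Module.finBasisOfFinrankEq F (D i) (hD.finrank_eq i)
  let b₀ := h1.collectedBasis v
  let b := b₀.reindex (Equiv.sigmaEquivProd (Fin t) (Fin m))
  have hb : ∀ i j, b (i, j) = (v i j : ι → F) := by
    intro i j
    show b₀.reindex (Equiv.sigmaEquivProd (Fin t) (Fin m)) (i, j) = _
    rw [Module.Basis.reindex_apply]
    show b₀ ⟨i, j⟩ = _
    rw [h1.collectedBasis_coe]
  refine ⟨b, fun i j => by rw [hb]; exact (v i j).2, ?_⟩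
  have hex : ∀ i, ∀ w ∈ D i, ∃ a : Fin m → F, w = ∑ k, a k • b (i, k) := by
    intro i w hw
    refine ⟨fun k => (v i).repr ⟨w, hw⟩ k, ?_⟩
    have h2 := (v i).sum_repr ⟨w, hw⟩
    have h3 := congrArg Subtype.val h2
    simp only [Submodule.coe_sum, Submodule.coe_smul] at h3
    simp only [hb]
    exact h3.symm
  rintro g ⟨σ, hσ⟩
  have hmem : ∀ i j, (g : Matrix ι ι F) *ᵥ b (i, j) ∈ D (σ i) := by
    intro i j
    rw [← hσ i]
    exact ⟨b (i, j), by rw [hb]; exact (v i j).2, Matrix.toLin'_apply _ _⟩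
  choose A hA using fun i j => hex (σ i) _ (hmem i j)
  refine ⟨σ, fun i k j => A i j k, ?_, hA⟩
  intro i hdet
  obtain ⟨x, hx0, hx⟩ := Matrix.exists_mulVec_eq_zero_iff.2 hdet
  have h4 : (g : Matrix ι ι F) *ᵥ (∑ j, x j • b (i, j)) = 0 := by
    rw [Matrix.mulVec_sum]
    have h5 : ∀ j, (g : Matrix ι ι F) *ᵥ (x j • b (i, j)) = ∑ k, (x j * A i j k) • b (σ i, k) := by
      intro j
      rw [Matrix.mulVec_smul, hA, Finset.smul_sum]
      exact Finset.sum_congr rfl fun k _ => by rw [smul_smul]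
    simp only [h5]
    rw [Finset.sum_comm]
    apply Finset.sum_eq_zero
    intro k _
    rw [← Finset.sum_smul]
    have h7 : ∑ j, x j * A i j k = 0 := by
      have h6 : ∑ j, A i j k * x j = 0 := congrFun hx k
      rw [← h6]
      exact Finset.sum_congr rfl fun j _ => mul_comm _ _
    rw [h7, zero_smul]
  have h8 : (∑ j, x j • b (i, j)) = 0 := by
    have h3 := congrArg (fun z => ((g⁻¹ : GL ι F) : Matrix ι ι F) *ᵥ z) h4
    simp only [Matrix.mulVec_mulVec, gl_inv_mul, Matrix.one_mulVec, Matrix.mulVec_zero] at h3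
    exact h3
  apply hx0
  have hli : LinearIndependent F (fun j : Fin m => b (i, j)) :=
    b.linearIndependent.comp _ (fun a c h => congrArg Prod.snd h)
  funext j
  exact Fintype.linearIndependent_iff.1 hli x h8 j

theorem repr_mulVec_decomp (b : Module.Basis (Fin t × Fin m) F (ι → F)) {g : GL ι F} {σ : Equiv.Perm (Fin t)}
    {A : Fin t → Matrix (Fin m) (Fin m) F}
    (hg : ∀ i j, (g : Matrix ι ι F) *ᵥ b (i, j) = ∑ k, A i k j • b (σ i, k)) (u : ι → F) (i : Fin t) (k : Fin m) :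
    b.repr ((g : Matrix ι ι F) *ᵥ u) (σ i, k) = ∑ j, A i k j * b.repr u (i, j) := by
  classical
  have h1 : (g : Matrix ι ι F) *ᵥ u = ∑ i', ∑ j, ∑ k', (b.repr u (i', j) * A i' k' j) • b (σ i', k') := by
    conv_lhs => rw [← b.sum_repr u]
    rw [Matrix.mulVec_sum, Fintype.sum_prod_type]
    refine Finset.sum_congr rfl fun i' _ => Finset.sum_congr rfl fun j _ => ?_
    rw [Matrix.mulVec_smul, hg, Finset.smul_sum]
    exact Finset.sum_congr rfl fun k' _ => by rw [smul_smul]
  rw [h1]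
  simp only [map_sum, map_smul, Finsupp.finsetSum_apply, Finsupp.smul_apply, b.repr_self, smul_eq_mul]
  rw [Finset.sum_eq_single i]
  · refine Finset.sum_congr rfl fun j _ => ?_
    rw [Finset.sum_eq_single k]
    · rw [Finsupp.single_eq_same]; ring
    · intro k' _ hk'
      rw [Finsupp.single_eq_of_ne (fun h => hk' (congrArg Prod.snd h).symm), mul_zero]
    · simp
  · intro i' _ hi'
    apply Finset.sum_eq_zero; intro j _
    apply Finset.sum_eq_zero; intro k' _
    rw [Finsupp.single_eq_of_ne (fun h => hi' (σ.injective (congrArg Prod.fst h)).symm), mul_zero]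
  · simp

/-- The sum of the determinant forms of the planes. -/
noncomputable def plForm (b : Module.Basis (Fin t × Fin 2) F (ι → F)) (u v : ι → F) : F :=
  ∑ i, (b.repr u (i, 0) * b.repr v (i, 1) - b.repr u (i, 1) * b.repr v (i, 0))

theorem plForm_isSymplectic (b : Module.Basis (Fin t × Fin 2) F (ι → F)) : IsSymplecticForm (plForm b) := by
  classical
  refine ⟨⟨?_, ?_, ?_, ?_⟩, ?_, ?_, ?_⟩
  · intro x y v
    simp only [plForm, map_add, Finsupp.add_apply, ← Finset.sum_add_distrib]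
    exact Finset.sum_congr rfl fun i _ => by ring
  · intro c x v
    simp only [plForm, map_smul, Finsupp.smul_apply, smul_eq_mul, Finset.mul_sum]
    exact Finset.sum_congr rfl fun i _ => by ring
  · intro v x y
    simp only [plForm, map_add, Finsupp.add_apply, ← Finset.sum_add_distrib]
    exact Finset.sum_congr rfl fun i _ => by ring
  · intro c v x
    simp only [plForm, map_smul, Finsupp.smul_apply, smul_eq_mul, Finset.mul_sum]
    exact Finset.sum_congr rfl fun i _ => by ring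
  · intro v w
    simp only [plForm, ← Finset.sum_neg_distrib]
    exact Finset.sum_congr rfl fun i _ => by ring
  · intro v
    simp only [plForm]
    exact Finset.sum_eq_zero fun i _ => by ring
  · have h0 : ∀ (v : ι → F) (i : Fin t), plForm b v (b (i, 1)) = b.repr v (i, 0) ∧ plForm b v (b (i, 0)) = - b.repr v (i, 1) ∧
        plForm b (b (i, 1)) v = - b.repr v (i, 0) ∧ plForm b (b (i, 0)) v = b.repr v (i, 1) := by
      intro v i
      have h2 : ∀ (i' : Fin t) (j j' : Fin 2), b.repr (b (i, j)) (i', j') = if i' = i ∧ j' = j then 1 else 0 := by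
        intro i' j j'
        rw [b.repr_self, Finsupp.single_apply]
        congr 1
        rw [Prod.mk.injEq]
        exact propext ⟨fun h => ⟨h.1.symm, h.2.symm⟩, fun h => ⟨h.1.symm, h.2.symm⟩⟩
      refine ⟨?_, ?_, ?_, ?_⟩ <;>
      · simp only [plForm, h2]
        simp
    intro v hv
    have h1 : ∃ i, b.repr v (i, 0) ≠ 0 ∨ b.repr v (i, 1) ≠ 0 := by
      by_contra hcon
      push Not at hcon
      apply hv
      apply b.repr.injective
      ext ⟨i, j⟩
      rw [map_zero]
      fin_cases j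
      · exact (hcon i).1
      · exact (hcon i).2
    obtain ⟨i, hi | hi⟩ := h1
    · exact ⟨⟨b (i, 1), by rw [(h0 v i).2.2.1]; exact neg_ne_zero.2 hi⟩, ⟨b (i, 1), by rw [(h0 v i).1]; exact hi⟩⟩
    · exact ⟨⟨b (i, 0), by rw [(h0 v i).2.2.2]; exact hi⟩, ⟨b (i, 0), by rw [(h0 v i).2.1]; exact neg_ne_zero.2 hi⟩⟩

theorem plForm_mulVec (b : Module.Basis (Fin t × Fin 2) F (ι → F)) {g : GL ι F} {σ : Equiv.Perm (Fin t)}
    {A : Fin t → Matrix (Fin 2) (Fin 2) F}
    (hg : ∀ i j, (g : Matrix ι ι F) *ᵥ b (i, j) = ∑ k, A i k j • b (σ i, k)) (u v : ι → F) :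
    plForm b ((g : Matrix ι ι F) *ᵥ u) ((g : Matrix ι ι F) *ᵥ v) =
      ∑ i, (A i).det * (b.repr u (i, 0) * b.repr v (i, 1) - b.repr u (i, 1) * b.repr v (i, 0)) := by
  simp only [plForm]
  rw [← Equiv.sum_comp σ]
  refine Finset.sum_congr rfl fun i _ => ?_
  rw [repr_mulVec_decomp b hg, repr_mulVec_decomp b hg, repr_mulVec_decomp b hg, repr_mulVec_decomp b hg, Matrix.det_fin_two]
  simp only [Fin.sum_univ_two]
  ring

end Decomp

/-- Decompositions into planes over the field with two elements. -/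
theorem planes_two [Fintype F] (hι : 3 ≤ Fintype.card ι) {H : Subgroup (GL ι F)} (hH : IsMaximalIn (specialLinear ι F) H)
    {t : ℕ} {D : Fin t → Submodule F (ι → F)} (hD : IsMDecomposition 2 D) (h : H ≤ decompositionStabilizer D) :
    3 ≤ Fintype.card F ∨ (∃ f : (ι → F) → (ι → F) → F, IsSymplecticForm f ∧ H = similarityGroup f ⊓ specialLinear ι F) := by
  obtain ⟨b, -, hb⟩ := exists_basis_of_decomp hD
  by_cases h3 : 3 ≤ Fintype.card F
  · exact Or.inl h3
  right
  have h2 : 2 ≤ Fintype.card F := Fintype.one_lt_card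
  have hq : Fintype.card F = 2 := by omega
  refine ⟨_, plForm_isSymplectic b, symplectic_eq hι hH (plForm_isSymplectic b) ?_⟩
  intro g hg
  obtain ⟨σ, A, hA, hgA⟩ := hb g (h hg)
  refine ⟨1, fun u v => ?_⟩
  rw [plForm_mulVec b hgA]
  have h1 : ∀ i, (A i).det = 1 := by
    intro i
    have := FiniteField.pow_card_sub_one_eq_one _ (hA i)
    rw [hq] at this
    simpa using this
  simp only [h1, one_mul, Units.val_one, plForm]

/-! ### Tensor products with a plane over the field with two elements -/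

section TensorTwo

theorem tensor_two [Fintype F] (hι : 3 ≤ Fintype.card ι) {H : Subgroup (GL ι F)} (hH : IsMaximalIn (specialLinear ι F) H)
    {n₂ : ℕ} {e : ι ≃ Fin 2 × Fin n₂} {P : GL ι F} (h : H ≤ tensorProductSubgroup 2 n₂ e P) :
    3 ≤ Fintype.card F ∨ (∃ K : Subalgebra F (Matrix ι ι F), IsFieldSubalgebra 2 K ∧ H = subalgebraNormalizer K ⊓ specialLinear ι F) := by
  classical
  by_cases h3 : 3 ≤ Fintype.card F
  · exact Or.inl h3
  right
  have hq2 : 2 ≤ Fintype.card F := Fintype.one_lt_card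
  have hq : Fintype.card F = 2 := by omega
  have hne : Nonempty ι := Fintype.card_pos_iff.1 (by omega)
  have h2 : (2 : F) = 0 := by
    have := FiniteField.cast_card_eq_zero F
    rw [hq] at this
    exact_mod_cast this
  have h01 : ∀ x : F, x = 0 ∨ x = 1 := by
    intro x
    have h1 : x ^ 2 = x := by rw [← hq]; exact FiniteField.pow_card x
    have : x * (x - 1) = 0 := by linear_combination h1
    rcases mul_eq_zero.1 this with h | h
    · exact Or.inl h
    · exact Or.inr (sub_eq_zero.1 h)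
  set ω : Matrix (Fin 2) (Fin 2) F := !![0, 1; 1, 1] with hω
  have hωω : ω * ω = ω + 1 := by
    ext i j
    fin_cases i <;> fin_cases j <;> simp [hω, Matrix.mul_apply, Fin.sum_univ_two]
  set Ω : Matrix ι ι F := kLeft e P ω with hΩ
  have hΩΩ : Ω * Ω = Ω + 1 := by
    rw [hΩ, ← map_mul, hωω, map_add, map_one]
  -- matrices with the same minimal polynomial
  have hclass : ∀ M : Matrix (Fin 2) (Fin 2) F, M * M = M + 1 → ∃ x : F, M = ω + x • (1 : Matrix (Fin 2) (Fin 2) F) := by
    intro M hM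
    have e00 := congrFun (congrFun hM 0) 0
    have e11 := congrFun (congrFun hM 1) 1
    have e01 := congrFun (congrFun hM 0) 1
    have e10 := congrFun (congrFun hM 1) 0
    simp [Matrix.mul_apply, Fin.sum_univ_two] at e00 e11 e01 e10
    refine ⟨M 0 0, ?_⟩
    have hb : M 0 1 = 1 ∧ M 1 0 = 1 := by
      rcases h01 (M 0 0) with h | h <;> rcases h01 (M 0 1) with h' | h' <;> rcases h01 (M 1 0) with h'' | h'' <;>
        rw [h, h', h''] at e00 <;> simp [h', h''] at e00 ⊢ 
    have hd : M 1 1 = M 0 0 + 1 := by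
      have h5 : M 0 1 * (M 0 0 + M 1 1 - 1) = 0 := by linear_combination e01
      rw [hb.1, one_mul] at h5
      linear_combination h5 - (M 0 0) * h2
    ext i j
    fin_cases i <;> fin_cases j <;> simp [hω, hb.1, hb.2, hd]
    ring
  let K : Subalgebra F (Matrix ι ι F) :=
    { carrier := {M | ∃ x y : F, M = x • (1 : Matrix ι ι F) + y • Ω}
      mul_mem' := by
        rintro _ _ ⟨x, y, rfl⟩ ⟨z, w, rfl⟩
        refine ⟨x * z + y * w, x * w + y * z + y * w, ?_⟩
        have : (x • (1 : Matrix ι ι F) + y • Ω) * (z • (1 : Matrix ι ι F) + w • Ω) =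
            (x * z) • (1 : Matrix ι ι F) + (x * w + y * z) • Ω + (y * w) • (Ω * Ω) := by
          simp only [add_mul, mul_add, Matrix.smul_mul, Matrix.mul_smul, one_mul, mul_one, smul_smul, add_smul]
          rw [mul_comm z x, mul_comm w x, mul_comm z y, mul_comm w y]
          abel
        rw [this, hΩΩ]
        simp only [add_smul, smul_add]
        abel
      one_mem' := ⟨1, 0, by simp⟩
      add_mem' := by
        rintro _ _ ⟨x, y, rfl⟩ ⟨z, w, rfl⟩
        exact ⟨x + z, y + w, by simp only [add_smul]; abel⟩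
      zero_mem' := ⟨0, 0, by simp⟩
      algebraMap_mem' := fun c => ⟨c, 0, by rw [Algebra.algebraMap_eq_smul_one]; simp⟩ }
  have hmemK : ∀ M, M ∈ K ↔ ∃ x y : F, M = x • (1 : Matrix ι ι F) + y • Ω := fun M => Iff.rfl
  have hΩns : ∀ x y : F, x • (1 : Matrix ι ι F) + y • Ω = 0 → x = 0 ∧ y = 0 := by
    intro x y hxy
    have hy : y = 0 := by
      by_contra hy0
      have h4 : Ω = (-(y⁻¹ * x)) • (1 : Matrix ι ι F) := by
        have h5 := congrArg (fun z => y⁻¹ • z) hxy
        simp only [smul_add, smul_smul, inv_mul_cancel₀ hy0, one_smul, smul_zero] at h5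
        rw [neg_smul]
        exact eq_neg_of_add_eq_zero_right h5
      set c := -(y⁻¹ * x)
      have h6 : (c * c - c - 1) • (1 : Matrix ι ι F) = 0 := by
        have h7 := hΩΩ
        rw [h4, Matrix.smul_mul, one_mul, smul_smul] at h7
        rw [sub_smul, sub_smul, h7, one_smul]
        abel
      rw [smul_eq_zero] at h6
      have h8 := h6.resolve_right one_ne_zero
      rcases h01 c with h9 | h9
      · rw [h9] at h8; norm_num at h8
      · rw [h9] at h8; norm_num at h8
    rw [hy, zero_smul, add_zero, smul_eq_zero] at hxy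
    exact ⟨hxy.resolve_right one_ne_zero, hy⟩
  have hKf : IsFieldSubalgebra 2 K := by
    refine ⟨?_, ?_, ?_⟩
    · rintro _ ⟨x, y, rfl⟩ _ ⟨z, w, rfl⟩
      simp only [add_mul, mul_add, Matrix.smul_mul, Matrix.mul_smul, one_mul, mul_one, smul_smul]
      rw [mul_comm z x, mul_comm w x, mul_comm z y, mul_comm w y]
      abel
    · rintro _ ⟨x, y, rfl⟩ hne0
      rcases h01 x with hx | hx <;> rcases h01 y with hy | hy
      · exact absurd (by rw [hx, hy]; simp) hne0
      · refine ⟨(1 : F) • (1 : Matrix ι ι F) + (1 : F) • Ω, ⟨1, 1, rfl⟩, ?_⟩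
        rw [hx, hy]
        simp only [zero_smul, one_smul, zero_add, mul_add, mul_one, hΩΩ]
        have h5 : Ω + Ω = 0 := by rw [← two_smul F Ω, h2, zero_smul]
        rw [← add_assoc, h5, zero_add]
      · refine ⟨1, ⟨1, 0, by simp⟩, ?_⟩
        rw [hx, hy]; simp
      · refine ⟨(0 : F) • (1 : Matrix ι ι F) + (1 : F) • Ω, ⟨0, 1, rfl⟩, ?_⟩
        rw [hx, hy]
        simp only [zero_smul, one_smul, zero_add, add_mul, one_mul, hΩΩ]
        have h5 : Ω + Ω = 0 := by rw [← two_smul F Ω, h2, zero_smul]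
        rw [← add_assoc, h5, zero_add]
    · have hb : Module.Basis (Fin 2) F K := by
        refine Module.Basis.mk (v := ![⟨1, 1, 0, by simp⟩, ⟨Ω, 0, 1, by simp⟩]) ?_ ?_
        · rw [Fintype.linearIndependent_iff]
          intro g hg
          rw [Fin.sum_univ_two] at hg
          have h5 := congrArg Subtype.val hg
          have h6 := hΩns (g 0) (g 1) h5
          intro i
          fin_cases i
          · exact h6.1
          · exact h6.2
        · rintro ⟨_, x, y, rfl⟩ -
          have h5 : (⟨x • (1 : Matrix ι ι F) + y • Ω, ⟨x, y, rfl⟩⟩ : K) = x • (⟨1, 1, 0, by simp⟩ : K) + y • (⟨Ω, 0, 1, by simp⟩ : K) := rfl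
          rw [h5]
          apply Submodule.add_mem
          · exact Submodule.smul_mem _ _ (Submodule.subset_span ⟨0, rfl⟩)
          · exact Submodule.smul_mem _ _ (Submodule.subset_span ⟨1, rfl⟩)
      rw [Module.finrank_eq_card_basis hb]; simp
  refine ⟨K, hKf, eq_inf_of_maximal hH ?_ (not_le_field hι le_rfl hKf)⟩
  apply le_subalgebraNormalizer
  intro g hg k hk
  obtain ⟨x, y, rfl⟩ := hk
  obtain ⟨a, c, hac⟩ := mem_tensorProductSubgroup.1 (h hg)
  obtain ⟨z, hz⟩ := hclass ((a : Matrix (Fin 2) (Fin 2) F) * ω * ((a⁻¹ : GL (Fin 2) F) : Matrix (Fin 2) (Fin 2) F)) (by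
    have h5 : (a : Matrix (Fin 2) (Fin 2) F) * ω * ((a⁻¹ : GL (Fin 2) F) : Matrix (Fin 2) (Fin 2) F) *
        ((a : Matrix (Fin 2) (Fin 2) F) * ω * ((a⁻¹ : GL (Fin 2) F) : Matrix (Fin 2) (Fin 2) F)) =
        (a : Matrix (Fin 2) (Fin 2) F) * (ω * ω) * ((a⁻¹ : GL (Fin 2) F) : Matrix (Fin 2) (Fin 2) F) := by
      calc _ = (a : Matrix (Fin 2) (Fin 2) F) * ω * (((a⁻¹ : GL (Fin 2) F) : Matrix (Fin 2) (Fin 2) F) *
        (a : Matrix (Fin 2) (Fin 2) F)) * ω * ((a⁻¹ : GL (Fin 2) F) : Matrix (Fin 2) (Fin 2) F) := by simp only [Matrix.mul_assoc]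
        _ = _ := by rw [gl_inv_mul, mul_one]; simp only [Matrix.mul_assoc]
    rw [h5, hωω, mul_add, mul_one, add_mul, gl_mul_inv])
  have hΩg : cj g Ω = z • (1 : Matrix ι ι F) + Ω := by
    have h5 : (g : Matrix ι ι F) = cj P (kronL e (a : Matrix (Fin 2) (Fin 2) F) (c : Matrix (Fin n₂) (Fin n₂) F)) := by
      rw [hac, cj_apply]
    have h6 : (g : Matrix ι ι F) * Ω = (kLeft e P (ω + z • (1 : Matrix (Fin 2) (Fin 2) F))) * (g : Matrix ι ι F) := by
      rw [← hz, h5, hΩ]
      show cj P (kronL e (a : Matrix (Fin 2) (Fin 2) F) (c : Matrix (Fin n₂) (Fin n₂) F)) * cj P (kronL e ω 1) =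
        cj P (kronL e _ 1) * cj P (kronL e (a : Matrix (Fin 2) (Fin 2) F) (c : Matrix (Fin n₂) (Fin n₂) F))
      rw [← map_mul, ← map_mul, kronL_mul, kronL_mul, mul_one, one_mul, Matrix.mul_assoc _ _ (a : Matrix (Fin 2) (Fin 2) F),
        gl_inv_mul, mul_one]
    rw [cj_apply, h6, Matrix.mul_assoc, gl_mul_inv, mul_one, map_add, map_smul, map_one, add_comm]
  rw [map_add, map_smul, map_smul, map_one, hΩg, hmemK]
  exact ⟨x + y * z, y, by rw [smul_add, smul_smul, add_smul]; abel⟩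

end TensorTwo

end Cfsg.Agent.Lib.AschSmall
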