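import Cfsg.Agent.Lib.AschAdj12
import Cfsg.Agent.Lib.AltForm
import Cfsg.Agent.Lib.SympAux

/-!
Aschbacher's theorem for the symplectic groups: the list of cases; reducible groups, idempotents, fields, quadratic forms
in characteristic two.
-/

set_option autoImplicit false
set_option linter.style.haveILetI false
set_option linter.unusedVariables false
set_option linter.unusedSectionVars false

namespace Cfsg.Agent.Lib.AschSp

open Cfsg Cfsg.Geo Cfsg.Agent.Lib.AschMU Cfsg.Agent.Lib.AschCore Cfsg.Agent.Lib.AschField Cfsg.Agent.Lib.AschAlg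
  Cfsg.Agent.Lib.AschGroup Cfsg.Agent.Lib.AschGood Cfsg.Agent.Lib.AschAdj
open scoped Matrix MatrixGroups Kronecker

/-- The refined list of cases for a subgroup `H` of `Sp_2m(q)`. -/
inductive SpCase (m : ℕ) {F : Type*} [Field F] [Fintype F] (H : Subgroup (GL (Fin m ⊕ Fin m) F)) : Prop
  | c1a (W : Submodule F (Fin m ⊕ Fin m → F)) (h0 : W ≠ ⊥) (hs : IsTotallySingularFor (sympForm m F) W) (hle : H ≤ subspaceStabilizer W)
  | c1b (W : Submodule F (Fin m ⊕ Fin m → F)) (h0 : W ≠ ⊥) (hs : IsNondegenerateOn (sympForm m F) W) (hd : Module.finrank F W < m)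
      (hle : H ≤ subspaceStabilizer W)
  | c2a (t k : ℕ) (D : Fin t → Submodule F (Fin m ⊕ Fin m → F)) (htk : t * k = m + m) (hk : Even k)
      (hD : IsNondegenerateMDecomposition (sympForm m F) k D) (hle : H ≤ decompositionStabilizer D)
  | c2b (D : Fin 2 → Submodule F (Fin m ⊕ Fin m → F)) (hodd : Odd (Fintype.card F)) (hD : IsMDecomposition m D)
      (hs : ∀ i, IsTotallySingularFor (sympForm m F) (D i)) (hle : H ≤ decompositionStabilizer D)
  | c3a (r : ℕ) (K : Subalgebra F (Matrix (Fin m ⊕ Fin m) (Fin m ⊕ Fin m) F)) (hr : r.Prime) (hrm : r ∣ m) (hK : IsFieldSubalgebra r K)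
      (hsa : IsSelfAdjointFor (sympForm m F) K) (hz : ∀ k ∈ K, ∀ v, sympForm m F (k *ᵥ v) v = 0) (hle : H ≤ subalgebraNormalizer K)
  | c3b (K : Subalgebra F (Matrix (Fin m ⊕ Fin m) (Fin m ⊕ Fin m) F)) (hodd : Odd (Fintype.card F)) (hK : IsFieldSubalgebra 2 K)
      (hac : IsAdjointClosedFor (sympForm m F) K) (hns : ¬ IsSelfAdjointFor (sympForm m F) K) (hle : H ≤ subalgebraNormalizer K)
  | c4 (n₁ n₂ : ℕ) (e : (Fin m ⊕ Fin m) ≃ Fin n₁ × Fin n₂) (P : GL (Fin m ⊕ Fin m) F)
      (f₁ : (Fin n₁ → F) → (Fin n₁ → F) → F) (f₂ : (Fin n₂ → F) → (Fin n₂ → F) → F) (hodd : Odd (Fintype.card F)) (h2 : 2 ≤ n₁)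
      (h3 : 3 ≤ n₂) (hev : Even n₁) (hf₁ : IsSymplecticForm f₁) (hf₂ : IsSymmetricForm f₂)
      (hst : IsTensorFormStructure id (sympForm m F) f₁ f₂ e P) (hle : H ≤ tensorProductSubgroup n₁ n₂ e P)
  | c5 (F₀ : Subfield F) (r : ℕ) (P : GL (Fin m ⊕ Fin m) F) (ζ : F) (hr : r.Prime) (hc : Fintype.card F = Nat.card F₀ ^ r) (hζ : ζ ≠ 0)
      (hrs : IsFormRationalStructure (sympForm m F) F₀ ζ P) (hle : H ≤ subfieldSubgroup F₀ P)
  | c6 (R : Subgroup (GL (Fin m ⊕ Fin m) F)) (p k : ℕ) (hR : IsSymplecticTypeGroup 2 R) (habs : ActsAbsolutelyIrreducibly (matrixSet R))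
      (hRI : R ≤ spGL m F) (hp : p.Prime) (hodd : Odd p) (hc : Fintype.card F = p) (hcard : Nat.card R = 2 ^ (1 + 2 * k))
      (hk : m + m = 2 ^ k) (hz : Nat.card (Subgroup.center R) = 2) (hmin : IsOfMinusType k R) (hle : H ≤ subgroupNormalizer R)
  | c7 (k t : ℕ) (e : (Fin m ⊕ Fin m) ≃ (Fin t → Fin k)) (P : GL (Fin m ⊕ Fin m) F) (f₁ : (Fin k → F) → (Fin k → F) → F)
      (hodd : Odd (Fintype.card F)) (ht : Odd t) (h3 : 3 ≤ t) (hk : 2 ≤ k) (hne : ¬ (Fintype.card F = 3 ∧ k = 2)) (hcard : k ^ t = m + m)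
      (hf₁ : IsSymplecticForm f₁) (hst : IsTensorPowerFormStructure id (sympForm m F) f₁ e P) (hle : H ≤ tensorWreathSubgroup k t e P)
  | c8 (Q : (Fin m ⊕ Fin m → F) → F) (heven : ¬ Odd (Fintype.card F)) (hQ : IsNondegenerateQuadraticForm Q)
      (hpol : ∀ u v, QuadraticMap.polar Q u v = sympForm m F u v) (hle : H ≤ quadSimilarityGroup Q)
  | res (h : InSymplecticResidualClass H)

section general
variable {ι : Type} [Fintype ι] [DecidableEq ι] {F : Type*} [Field F]

lemma map_rf (x : Matrix ι ι F) : x.map (RingEquiv.refl F) = x := by ext; rfl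

lemma adj_rf (G x : Matrix ι ι F) : adj (RingEquiv.refl F) G x = G⁻¹ * xᵀ * G := map_rf _

lemma bf_rf (G : Matrix ι ι F) (u v : ι → F) : bf (RingEquiv.refl F) G u v = u ⬝ᵥ (G *ᵥ v) := rfl

/-- The form with Gram matrix `G` is bilinear. -/
lemma bilin (G : Matrix ι ι F) : IsBilinearForm (bf (RingEquiv.refl F) G) where
  add_left := bf_add_left
  smul_left := bf_smul_left
  add_right v x y := bf_add_right v x y
  smul_right c v x := bf_smul_right c v x

/-- An antisymmetric matrix with zero diagonal is alternating. -/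
lemma alt_of_diag {G : Matrix ι ι F} (hT : Gᵀ = -G) (hd : ∀ i, G i i = 0) (v : ι → F) : v ⬝ᵥ (G *ᵥ v) = 0 := by
  classical
  have hent : ∀ i j, G j i = - G i j := fun i j => congrFun (congrFun hT i) j
  have h1 : v ⬝ᵥ (G *ᵥ v) = ∑ p : ι × ι, v p.1 * G p.1 p.2 * v p.2 := by
    rw [Fintype.sum_prod_type]
    simp only [dotProduct, Matrix.mulVec, Finset.mul_sum, mul_assoc]
  rw [h1]
  apply Finset.sum_involution (fun p _ => (p.2, p.1))
  · rintro ⟨i, j⟩ -
    simp only
    rw [hent i j]; ring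
  · rintro ⟨i, j⟩ - hne h
    simp only [Prod.mk.injEq] at h
    apply hne
    obtain ⟨h, -⟩ := h
    subst h
    simp only
    rw [hd]; ring
  · rintro ⟨i, j⟩ -; exact Finset.mem_univ _
  · rintro ⟨i, j⟩ -; rfl

lemma diag_of_alt {G : Matrix ι ι F} (h : ∀ v : ι → F, v ⬝ᵥ (G *ᵥ v) = 0) (i : ι) : G i i = 0 := by
  have := h (Pi.single i 1)
  simpa using this

lemma skew_of_alt {G : Matrix ι ι F} (h : ∀ v : ι → F, v ⬝ᵥ (G *ᵥ v) = 0) : Gᵀ = -G := by
  ext i j
  have h1 := h (Pi.single i 1 + Pi.single j 1)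
  rw [Matrix.mulVec_add, add_dotProduct, dotProduct_add, dotProduct_add, h, h] at h1
  rw [Matrix.transpose_apply, Matrix.neg_apply]
  have e1 : (Pi.single i 1 : ι → F) ⬝ᵥ (G *ᵥ Pi.single j 1) = G i j := by simp
  have e2 : (Pi.single j 1 : ι → F) ⬝ᵥ (G *ᵥ Pi.single i 1) = G j i := by simp
  rw [e1, e2] at h1
  linear_combination h1

/-- A symplectic form from an alternating invertible Gram matrix. -/
lemma symp_form {G : Matrix ι ι F} (hu : IsUnit G) (hT : Gᵀ = -G) (hd : ∀ i, G i i = 0) : IsSymplecticForm (bf (RingEquiv.refl F) G) where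
  bilinear := bilin G
  skew v w := by
    rw [bf_rf, bf_rf, Matrix.dotProduct_mulVec w G v, ← Matrix.mulVec_transpose, hT, Matrix.neg_mulVec, neg_dotProduct, neg_neg, dotProduct_comm]
  alternating v := alt_of_diag hT hd v
  nondegenerate := Cfsg.Agent.Lib.AschExtra.nondeg_ofGram (RingEquiv.refl F : F →+* F) (RingEquiv.refl F).surjective hu

/-- A symmetric form from a symmetric invertible Gram matrix. -/
lemma symm_form {G : Matrix ι ι F} (hu : IsUnit G) (hT : Gᵀ = G) : IsSymmetricForm (bf (RingEquiv.refl F) G) where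
  bilinear := bilin G
  symm v w := by
    rw [bf_rf, bf_rf, Matrix.dotProduct_mulVec w G v, ← Matrix.mulVec_transpose, hT, dotProduct_comm]
  nondegenerate := Cfsg.Agent.Lib.AschExtra.nondeg_ofGram (RingEquiv.refl F : F →+* F) (RingEquiv.refl F).surjective hu

lemma two_ne_of_odd [Fintype F] (h : Odd (Fintype.card F)) : (2 : F) ≠ 0 := by
  intro h2
  have h1 : (Fintype.card F : F) = 0 := Nat.cast_card_eq_zero F
  obtain ⟨k, hk⟩ := h
  rw [hk] at h1
  push_cast at h1
  rw [h2] at h1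
  simp at h1

lemma two_eq_of_even [Fintype F] (h : ¬ Odd (Fintype.card F)) : (2 : F) = 0 := by
  obtain ⟨p, hchar⟩ := CharP.exists F
  obtain ⟨e, hp, hcard⟩ := FiniteField.card F p
  have hp2 : p = 2 := by
    rcases hp.eq_two_or_odd' with h | h'
    · exact h
    · exfalso; apply h; rw [hcard]; exact h'.pow
  subst hp2
  exact_mod_cast CharP.cast_eq_zero F 2

lemma odd_of_two_ne [Fintype F] (h : (2 : F) ≠ 0) : Odd (Fintype.card F) := by
  by_contra hcon
  exact h (two_eq_of_even hcon)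

lemma neg_eq_of_two (h : (2 : F) = 0) (a : F) : -a = a := by linear_combination -a * h

lemma neg_mat_of_two (h : (2 : F) = 0) (x : Matrix ι ι F) : -x = x := by ext i j; exact neg_eq_of_two h _

end general

section sp
variable {F : Type*} [Field F] {m : ℕ}

lemma rfJ : RF (RingEquiv.refl F) (-1 : F) (Matrix.J (Fin m) F) where
  inv a := rfl
  unit := (Matrix.isUnit_iff_isUnit_det _).2 (Matrix.isUnit_det_J (Fin m) F)
  refl := by rw [map_rf, Matrix.J_transpose, neg_smul, one_smul]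
  eps := Or.inr rfl

lemma symp_eq : sympForm m F = bf (RingEquiv.refl F) (Matrix.J (Fin m) F) := rfl

lemma mem_sp {g : GL (Fin m ⊕ Fin m) F} : g ∈ spGL m F ↔ IsIso (RingEquiv.refl F) (Matrix.J (Fin m) F) g := by
  rw [isIso_iff rfJ]
  exact Iff.rfl

lemma sp_self (v : Fin m ⊕ Fin m → F) : sympForm m F v v = 0 := SympAux.sympForm_self v
lemma sp_swap (u v : Fin m ⊕ Fin m → F) : sympForm m F u v = - sympForm m F v u := SympAux.sympForm_swap u v

lemma sp_adj (x : Matrix (Fin m ⊕ Fin m) (Fin m ⊕ Fin m) F) (u v : Fin m ⊕ Fin m → F) :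
    sympForm m F (x *ᵥ u) v = sympForm m F u (adj (RingEquiv.refl F) (Matrix.J (Fin m) F) x *ᵥ v) := bf_adj rfJ x u v

/-- A non-degenerate subspace has even dimension. -/
lemma even_of_nondeg {W : Submodule F (Fin m ⊕ Fin m → F)} (hW : IsNondegenerateOn (sympForm m F) W) : Even (Module.finrank F W) := by
  let B : W →ₗ[F] W →ₗ[F] F := (SympAux.bform m F).compl₁₂ W.subtype W.subtype
  refine AltForm.even_finrank B (fun v => sp_self _) (fun v hv => ?_)
  by_contra hne
  obtain ⟨-, x, hx, h⟩ := hW v v.2 (fun h => hne (Subtype.ext h))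
  exact h (hv ⟨x, hx⟩)

/-! ### Quadratic forms in characteristic two -/

/-- The quadratic form `v ↦ f(v, x v)`. -/
def qx (x : Matrix (Fin m ⊕ Fin m) (Fin m ⊕ Fin m) F) (v : Fin m ⊕ Fin m → F) : F := sympForm m F v (x *ᵥ v)

lemma qx_polar (h2 : (2 : F) = 0) {x : Matrix (Fin m ⊕ Fin m) (Fin m ⊕ Fin m) F}
    (hx : x + adj (RingEquiv.refl F) (Matrix.J (Fin m) F) x = 1) (u v : Fin m ⊕ Fin m → F) :
    QuadraticMap.polar (qx x) u v = sympForm m F u v := by
  unfold QuadraticMap.polar qx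
  rw [Matrix.mulVec_add, SympAux.sympForm_add_left, SympAux.sympForm_add_right, SympAux.sympForm_add_right]
  have h1 : sympForm m F v (x *ᵥ u) = sympForm m F u (adj (RingEquiv.refl F) (Matrix.J (Fin m) F) x *ᵥ v) := by
    rw [sp_swap, sp_adj, neg_eq_of_two h2]
  have h3 : sympForm m F u v = sympForm m F u (x *ᵥ v) + sympForm m F u (adj (RingEquiv.refl F) (Matrix.J (Fin m) F) x *ᵥ v) := by
    rw [← SympAux.sympForm_add_right, ← Matrix.add_mulVec, hx, Matrix.one_mulVec]
  rw [h1, h3]; ring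

lemma sp_bilin : IsBilinearForm (sympForm m F) := bilin _
lemma sp_nondeg : IsNondegenerateForm (sympForm m F) := bf_nondeg rfJ

lemma qx_nondeg (h2 : (2 : F) = 0) {x : Matrix (Fin m ⊕ Fin m) (Fin m ⊕ Fin m) F}
    (hx : x + adj (RingEquiv.refl F) (Matrix.J (Fin m) F) x = 1) : IsNondegenerateQuadraticForm (qx x) where
  smul c v := by
    unfold qx
    rw [Matrix.mulVec_smul, SympAux.sympForm_smul_left, SympAux.sympForm_smul_right]; ring
  polar_bilinear := by
    have : QuadraticMap.polar (qx x) = sympForm m F := by funext u v; exact qx_polar h2 hx u v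
    rw [this]; exact sp_bilin
  nondegenerate := by
    have : QuadraticMap.polar (qx x) = sympForm m F := by funext u v; exact qx_polar h2 hx u v
    rw [this]; exact sp_nondeg

lemma qx_gl {g : GL (Fin m ⊕ Fin m) F} (hg : g ∈ spGL m F) (x : Matrix (Fin m ⊕ Fin m) (Fin m ⊕ Fin m) F) (v : Fin m ⊕ Fin m → F) :
    qx x ((g : Matrix (Fin m ⊕ Fin m) (Fin m ⊕ Fin m) F) *ᵥ v) = qx (cj g⁻¹ x) v := by
  unfold qx
  have h1 := hg v ((cj g⁻¹ x) *ᵥ v)
  have h2 : (g : Matrix (Fin m ⊕ Fin m) (Fin m ⊕ Fin m) F) *ᵥ ((cj g⁻¹ x) *ᵥ v) = x *ᵥ ((g : Matrix (Fin m ⊕ Fin m) (Fin m ⊕ Fin m) F) *ᵥ v) := by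
    rw [← cj_mulVec, cj_cj_inv]
  rw [← h1, ← h2]; rfl

lemma qx_adj (h2 : (2 : F) = 0) (x : Matrix (Fin m ⊕ Fin m) (Fin m ⊕ Fin m) F) (v : Fin m ⊕ Fin m → F) :
    qx (adj (RingEquiv.refl F) (Matrix.J (Fin m) F) x) v = qx x v := by
  unfold qx
  rw [← sp_adj, sp_swap, neg_eq_of_two h2]

end sp

section cases
variable {F : Type*} [Field F] [Fintype F] {m : ℕ}

/-- Class 8 from an element with `x + x* = 1`. -/
theorem spcase_qx (h2 : (2 : F) = 0) {H : Subgroup (GL (Fin m ⊕ Fin m) F)} (hI : H ≤ spGL m F)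
    {x : Matrix (Fin m ⊕ Fin m) (Fin m ⊕ Fin m) F} (hx : x + adj (RingEquiv.refl F) (Matrix.J (Fin m) F) x = 1)
    (hinv : ∀ g ∈ H, ∀ v, qx (cj g x) v = qx x v) : SpCase m H := by
  refine SpCase.c8 (qx x) (fun hodd => two_ne_of_odd hodd h2) (qx_nondeg h2 hx) (qx_polar h2 hx) ?_
  intro g hg
  refine ⟨1, fun v => ?_⟩
  rw [qx_gl (hI hg), hinv g⁻¹ (H.inv_mem hg), Units.val_one, one_mul]

/-- Reducible subgroups. -/
theorem spcase_red {H : Subgroup (GL (Fin m ⊕ Fin m) F)} (hH : H ≤ spGL m F) (hred : ¬ ActsIrreducibly (matrixSet H)) : SpCase m H := by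
  have hI : ∀ g ∈ H, IsIso (RingEquiv.refl F) (Matrix.J (Fin m) F) g := fun g hg => mem_sp.1 (hH hg)
  rcases red_cases rfJ hI hred with ⟨W, hWb, hWt, hs, hinv⟩ | ⟨W, W', hWb, hWb', hc, horth, hn, hn', hinv, hinv'⟩
  · exact SpCase.c1a W hWb hs (le_subspaceStabilizer hinv)
  · have hdim := Submodule.finrank_add_eq_of_isCompl hc
    rw [Module.finrank_fintype_fun_eq_card, Fintype.card_sum, Fintype.card_fin] at hdim
    rcases lt_trichotomy (Module.finrank F W) m with h1 | h1 | h1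
    · exact SpCase.c1b W hWb hn h1 (le_subspaceStabilizer hinv)
    · have hpos : 0 < Module.finrank F W := Nat.pos_of_ne_zero (fun h => hWb (Submodule.finrank_eq_zero.1 h))
      refine SpCase.c2a 2 (Module.finrank F W) ![W, W'] (by omega) (even_of_nondeg hn) ⟨isMDecomp_pair hc hpos (by omega), ?_, ?_⟩ ?_
      · intro i; fin_cases i
        · exact hn
        · exact hn'
      · intro i j hij
        fin_cases i <;> fin_cases j
        · exact absurd rfl hij
        · exact horth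
        · intro u hu v hv
          exact bf_eq_zero_comm rfJ (horth v hv u hu)
        · exact absurd rfl hij
      · intro g hg
        refine ⟨1, fun i => ?_⟩
        have key : ∀ U : Submodule F (Fin m ⊕ Fin m → F), (∀ g ∈ H, ∀ w ∈ U, (g : Matrix (Fin m ⊕ Fin m) (Fin m ⊕ Fin m) F) *ᵥ w ∈ U) →
            U.map (Matrix.toLin' (g : Matrix (Fin m ⊕ Fin m) (Fin m ⊕ Fin m) F)) = U := by
          intro U hU
          apply Submodule.eq_of_le_of_finrank_eq
          · rintro _ ⟨w, hw, rfl⟩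
            rw [Matrix.toLin'_apply]
            exact hU g hg w hw
          · exact finrank_map_gl g U
        fin_cases i
        · exact key W hinv
        · exact key W' hinv'
    · exact SpCase.c1b W' hWb' hn' (by omega) (le_subspaceStabilizer hinv')

/-- Adapted idempotent families. -/
theorem spcase_idem {H : Subgroup (GL (Fin m ⊕ Fin m) F)} (hI : H ≤ spGL m F) (hirr : ActsIrreducibly (matrixSet H)) {t : ℕ}
    {e : Fin t → Matrix (Fin m ⊕ Fin m) (Fin m ⊕ Fin m) F} (hf : FIdem (RingEquiv.refl F) (Matrix.J (Fin m) F) H e) : SpCase m H := by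
  rcases hf.star with hs | ⟨ht, hs⟩
  · have hD := hf.nondeg rfJ hs hirr
    rw [← symp_eq] at hD
    have := card_of_decomp hD.decomp
    rw [Fintype.card_sum, Fintype.card_fin] at this
    exact SpCase.c2a t _ _ this (even_of_nondeg (hD.nondegenerate _)) hD (hf.decomp hirr).2
  · subst ht
    by_cases h2 : (2 : F) = 0
    · have h01 : adj (RingEquiv.refl F) (Matrix.J (Fin m) F) (e 1) = e 0 := hs 1 0 (by decide)
      have h10 : adj (RingEquiv.refl F) (Matrix.J (Fin m) F) (e 0) = e 1 := hs 0 1 (by decide)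
      have hsum : e 1 + e 0 = 1 := by
        have := hf.idem.sum
        rw [Fin.sum_univ_two, add_comm] at this
        exact this
      refine spcase_qx h2 hI (x := e 1) (by rw [h01, hsum]) ?_
      intro g hg v
      obtain ⟨π, hπ⟩ := hf.perm g hg
      rw [hπ 1]
      generalize π 1 = j
      fin_cases j
      · show qx (e 0) v = _
        rw [← h01, qx_adj h2]
      · rfl
    · obtain ⟨hD, hle⟩ := hf.decomp hirr
      have hc := card_of_decomp hD
      rw [Fintype.card_sum, Fintype.card_fin] at hc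
      have hkm : Module.finrank F (rng (e ⟨0, by have := hf.two_le; omega⟩)) = m := by omega
      rw [hkm] at hD
      exact SpCase.c2b _ (odd_of_two_ne h2) hD (fun i => hf.singular rfJ hs i) hle

end cases

end Cfsg.Agent.Lib.AschSp
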