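import Cfsg.Agent.Lib.SLGeom
import Cfsg.Agent.Lib.AschLinear

/-!
`SL_n(F)`, `n ≥ 3`, is contained in none of the stabilisers of the geometric classes (arguments with transvections).
-/

set_option autoImplicit false
set_option linter.unusedSectionVars false

namespace Cfsg.Agent.Lib.SLNot

open Cfsg Cfsg.Geo Cfsg.Agent.Lib.AschMU Cfsg.Agent.Lib.AschCore Cfsg.Agent.Lib.AschField Cfsg.Agent.Lib.AschAlg
  Cfsg.Agent.Lib.AschDescent Cfsg.Agent.Lib.AschForm Cfsg.Agent.Lib.AschGroup Cfsg.Agent.Lib.AschGood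
  Cfsg.Agent.Lib.AschNonab Cfsg.Agent.Lib.AschTensor Cfsg.Agent.Lib.AschComp Cfsg.Agent.Lib.AschSymp
  Cfsg.Agent.Lib.AschForm2 Cfsg.Agent.Lib.AschLinear Cfsg.Agent.Lib.SLGeom
open scoped Matrix MatrixGroups Kronecker commutatorElement
open Matrix (vecMulVec)

variable {ι : Type} [Fintype ι] [DecidableEq ι] {F : Type*} [Field F]

/-! ### Linear algebra -/

theorem tv_inv_val (v w : ι → F) (h : w ⬝ᵥ v = 0) : (((tv v w h)⁻¹ : GL ι F) : Matrix ι ι F) = 1 - vecMulVec v w := by
  have h1 : (tv v w h : GL ι F) * (tv (-v) w (by rw [dotProduct_neg, h, neg_zero])) = 1 := by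
    apply Units.ext
    rw [Units.val_mul, tv_val, tv_val, Units.val_one, Matrix.neg_vecMulVec, ← sub_eq_add_neg, mul_sub, mul_one, add_mul,
      vecMulVec_sq v w h, one_mul]
    abel
  rw [inv_eq_of_mul_eq_one_right h1, tv_val, Matrix.neg_vecMulVec, sub_eq_add_neg]

/-- The conjugate of a matrix by a transvection. -/
theorem cj_tv (v w : ι → F) (h : w ⬝ᵥ v = 0) (x : Matrix ι ι F) :
    cj (tv v w h) x = x + vecMulVec v (w ᵥ* x) - vecMulVec (x *ᵥ v) w - (w ⬝ᵥ (x *ᵥ v)) • vecMulVec v w := by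
  rw [cj_apply, tv_inv_val, tv_val]
  rw [add_mul, one_mul, mul_sub, mul_one, add_mul, Matrix.vecMulVec_mul, Matrix.mul_vecMulVec,
    Matrix.vecMulVec_mul_vecMulVec]
  have : vecMulVec (v) ((w ᵥ* x ⬝ᵥ v) • w) = (w ⬝ᵥ (x *ᵥ v)) • vecMulVec v w := by
    rw [Matrix.vecMulVec_smul, Matrix.dotProduct_mulVec]
  rw [this]
  abel

theorem exists_ne_zero_dot₂ (hι : 3 ≤ Fintype.card ι) (a b : ι → F) : ∃ x : ι → F, x ≠ 0 ∧ a ⬝ᵥ x = 0 ∧ b ⬝ᵥ x = 0 := by
  let f : (ι → F) →ₗ[F] F × F :=
    { toFun := fun x => (a ⬝ᵥ x, b ⬝ᵥ x)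
      map_add' := fun x y => by simp [dotProduct_add]
      map_smul' := fun c x => by simp [dotProduct_smul] }
  have h1 : LinearMap.ker f ≠ ⊥ := by
    apply LinearMap.ker_ne_bot_of_finrank_lt
    rw [Module.finrank_prod, Module.finrank_self, Module.finrank_fintype_fun_eq_card]
    omega
  obtain ⟨x, hx, hx0⟩ := Submodule.exists_mem_ne_zero_of_ne_bot h1
  have h2 : (a ⬝ᵥ x, b ⬝ᵥ x) = (0 : F × F) := hx
  exact ⟨x, hx0, congrArg Prod.fst h2, congrArg Prod.snd h2⟩

/-- A non-zero functional vanishing on two given vectors. -/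
theorem exists_functional₂ (hι : 3 ≤ Fintype.card ι) (u v : ι → F) :
    ∃ (w u' : ι → F), w ⬝ᵥ u = 0 ∧ w ⬝ᵥ v = 0 ∧ w ⬝ᵥ u' = 1 := by
  obtain ⟨w, hw0, h1, h2⟩ := exists_ne_zero_dot₂ hι u v
  obtain ⟨i, hi⟩ : ∃ i, w i ≠ 0 := by
    by_contra hcon
    push Not at hcon
    exact hw0 (funext hcon)
  refine ⟨w, Pi.single i (w i)⁻¹, by rw [dotProduct_comm]; exact h1, by rw [dotProduct_comm]; exact h2, ?_⟩
  rw [dotProduct_single, mul_inv_cancel₀ hi]

/-- If every functional killing `w` kills the range of `y`, then `y` has rank at most one. -/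
theorem eq_vecMulVec_of {w : ι → F} {y : Matrix ι ι F}
    (h : ∀ η : ι → F, η ⬝ᵥ w = 0 → η ᵥ* y = 0) : ∃ ζ : ι → F, y = vecMulVec w ζ := by
  have h1 : ∀ v : ι → F, ∃ c : F, c • w = y *ᵥ v := by
    intro v
    rw [← Submodule.mem_span_singleton]
    by_contra hcon
    obtain ⟨η, hη, hη1⟩ := exists_dot hcon
    have h2 := h η (hη w (Submodule.mem_span_singleton_self w))
    rw [Matrix.dotProduct_mulVec, h2, zero_dotProduct] at hη1
    exact zero_ne_one hη1
  choose c hc using fun j : ι => h1 (Pi.single j 1)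
  refine ⟨c, ?_⟩
  ext i j
  have h2 := congrFun (hc j) i
  rw [Matrix.mulVec_single_one] at h2
  rw [Matrix.vecMulVec_apply, mul_comm]
  exact h2.symm

/-- A matrix for which every vector is an eigenvector is scalar. -/
theorem exists_not_eigen {y : Matrix ι ι F} (hy : ∀ c : F, y ≠ c • (1 : Matrix ι ι F)) :
    ∃ v : ι → F, y *ᵥ v ∉ F ∙ v := by
  by_contra hcon
  push Not at hcon
  rcases isEmpty_or_nonempty ι with hι | ⟨⟨o⟩⟩
  · exact hy 0 (by ext i; exact (hι.false i).elim)
  have h1 : ∀ i : ι, ∃ c : F, c • (Pi.single i (1 : F) : ι → F) = y *ᵥ Pi.single i 1 := fun i =>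
    Submodule.mem_span_singleton.1 (hcon _)
  choose c hc using h1
  have h2 : ∀ i, c i = c o := by
    intro i
    by_cases hio : i = o
    · rw [hio]
    obtain ⟨d, hd⟩ := Submodule.mem_span_singleton.1 (hcon ((Pi.single i 1 : ι → F) + Pi.single o 1))
    rw [Matrix.mulVec_add, ← hc, ← hc] at hd
    have h3 := congrFun hd i
    have h4 := congrFun hd o
    simp [hio, Ne.symm hio] at h3 h4
    rw [← h3, ← h4]
  apply hy (c o)
  ext i j
  have h3 := congrFun (hc j) i
  rw [Matrix.mulVec_single_one] at h3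
  have h4 : y i j = c j * (Pi.single j (1 : F) : ι → F) i := h3.symm
  rw [h4, h2 j, Matrix.smul_apply, Matrix.one_apply, smul_eq_mul, Pi.single_apply]

/-! ### Maximality -/

theorem eq_inf_of_maximal {Γ : Type*} [Group Γ] {K H M : Subgroup Γ} (hH : IsMaximalIn K H) (h : H ≤ M) (hn : ¬ K ≤ M) :
    H = M ⊓ K := by
  rcases hH.2 (M ⊓ K) (le_inf h hH.1.le) inf_le_right with h1 | h1
  · exact h1.symm
  · exact absurd (by rw [← h1]; exact inf_le_left) hn

/-! ### Subspaces and decompositions -/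

theorem not_le_subspace {W : Submodule F (ι → F)} (h0 : W ≠ ⊥) (h1 : W ≠ ⊤) : ¬ specialLinear ι F ≤ subspaceStabilizer W := by
  intro h
  have h2 := stab_lt_sl W h0 h1
  rw [inf_eq_right.2 h] at h2
  exact lt_irrefl _ h2

theorem not_le_decomposition {t m : ℕ} {D : Fin t → Submodule F (ι → F)} (hD : IsMDecomposition m D) :
    ¬ specialLinear ι F ≤ decompositionStabilizer D := by
  intro hle
  have ht := hD.two_le
  let i₀ : Fin t := ⟨0, by omega⟩
  let i₁ : Fin t := ⟨1, by omega⟩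
  have h01 : i₁ ≠ i₀ := by
    intro h
    have := congrArg Fin.val h
    simp [i₀, i₁] at this
  have hne : ∀ i, D i ≠ ⊥ := by
    intro i h
    have h1 := hD.finrank_eq i
    rw [h, finrank_bot] at h1
    exact hD.pos.ne h1
  obtain ⟨u, hu, hu0⟩ := Submodule.exists_mem_ne_zero_of_ne_bot (hne i₀)
  obtain ⟨w, hw, hw0⟩ := Submodule.exists_mem_ne_zero_of_ne_bot (hne i₁)
  have hdis : ∀ i j, i ≠ j → ∀ x, x ∈ D i → x ∈ D j → x = 0 := by
    intro i j hij x hi hj
    have h1 : Disjoint (D i) (D j) := hD.indep.pairwiseDisjoint hij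
    exact (Submodule.disjoint_def.1 h1) x hi hj
  have huw : u ∉ F ∙ w := by
    intro h
    obtain ⟨c, hc⟩ := Submodule.mem_span_singleton.1 h
    apply hu0
    apply hdis i₀ i₁ h01.symm u hu
    rw [← hc]; exact (D i₁).smul_mem _ hw
  obtain ⟨g, hg, -, hgu⟩ := exists_tv huw (Submodule.mem_span_singleton_self w)
  obtain ⟨σ, hσ⟩ := hle hg
  have hmem : u + w ∈ D (σ i₀) := by
    rw [← hσ, ← hgu]
    exact ⟨u, hu, Matrix.toLin'_apply _ _⟩
  by_cases h0 : σ i₀ = i₀
  · rw [h0] at hmem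
    have h1 : w ∈ D i₀ := by
      have := (D i₀).sub_mem hmem hu
      rwa [add_sub_cancel_left] at this
    exact hw0 (hdis _ _ h01 w hw h1)
  by_cases h1 : σ i₀ = i₁
  · rw [h1] at hmem
    have h2 : u ∈ D i₁ := by
      have := (D i₁).sub_mem hmem hw
      rwa [add_sub_cancel_right] at this
    exact hu0 (hdis _ _ h01.symm u hu h2)
  · have h2 := (hD.indep (σ i₀))
    have h3 : u + w ∈ ⨆ (j) (_ : j ≠ σ i₀), D j := by
      apply Submodule.add_mem
      · exact (le_iSup₂_of_le (f := fun j (_ : j ≠ σ i₀) => D j) i₀ (Ne.symm h0) le_rfl) hu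
      · exact (le_iSup₂_of_le (f := fun j (_ : j ≠ σ i₀) => D j) i₁ (Ne.symm h1) le_rfl) hw
    have h4 := (Submodule.disjoint_def.1 h2) _ hmem h3
    have h5 : u = -w := eq_neg_of_add_eq_zero_left h4
    apply hu0
    apply hdis i₀ i₁ h01.symm u hu
    rw [h5]; exact (D i₁).neg_mem hw

/-! ### Fields -/

theorem not_le_field (hι : 3 ≤ Fintype.card ι) {r : ℕ} (hr : 2 ≤ r) {K : Subalgebra F (Matrix ι ι F)}
    (hK : IsFieldSubalgebra r K) : ¬ specialLinear ι F ≤ subalgebraNormalizer K := by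
  intro hle
  obtain ⟨k, hk, hks⟩ : ∃ k ∈ K, ∀ c : F, k ≠ c • (1 : Matrix ι ι F) := by
    by_contra hcon
    push Not at hcon
    have h1 : K = ⊥ := eq_bot_of_scalar hcon
    have h2 := hK.finrank_eq
    have hne : Nonempty ι := Fintype.card_pos_iff.1 (by omega)
    rw [h1, Subalgebra.finrank_bot] at h2
    omega
  obtain ⟨w, hw⟩ := exists_not_eigen hks
  obtain ⟨η, hη, hη1⟩ := exists_dot hw
  have hηw := hη w (Submodule.mem_span_singleton_self w)
  have hY : cj (tv w η hηw) k - k ∈ K := K.sub_mem (cj_mem_of_le hle (tv_mem w η hηw) hk) hk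
  obtain ⟨x, hx0, hx1, hx2⟩ := exists_ne_zero_dot₂ hι η (η ᵥ* k)
  have hYw : (cj (tv w η hηw) k - k) *ᵥ w = w := by
    rw [cj_tv, hη1, one_smul]
    simp only [Matrix.sub_mulVec, Matrix.add_mulVec, Matrix.vecMulVec_mulVec, hηw]
    rw [← Matrix.dotProduct_mulVec, hη1]
    ext i
    simp
  have hYx : (cj (tv w η hηw) k - k) *ᵥ x = 0 := by
    rw [cj_tv, hη1, one_smul]
    simp only [Matrix.sub_mulVec, Matrix.add_mulVec, Matrix.vecMulVec_mulVec, hx1, hx2]
    ext i
    simp
  have hY0 : cj (tv w η hηw) k - k ≠ 0 := by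
    intro h0
    rw [h0, Matrix.zero_mulVec] at hYw
    rw [← hYw, Matrix.mulVec_zero] at hw
    exact hw (Submodule.zero_mem _)
  obtain ⟨z, hz, hz1⟩ := hK.inv _ hY hY0
  rw [hK.comm _ hY _ hz] at hz1
  apply hx0
  have h3 := congrArg (fun y => z *ᵥ y) hYx
  simp only [Matrix.mulVec_mulVec, hz1, Matrix.one_mulVec, Matrix.mulVec_zero] at h3
  exact h3

/-! ### Tensor decompositions -/

/-- No rank one matrix commutes with a matrix algebra of degree at least two. -/
theorem no_rank_one {k : ℕ} (hk : 2 ≤ k) (ψ : Matrix (Fin k) (Fin k) F →ₐ[F] Matrix ι ι F) {w η : ι → F} (hw : w ≠ 0)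
    (hη : η ≠ 0) (hcomm : ∀ y, ψ y * vecMulVec w η = vecMulVec w η * ψ y) : False := by
  obtain ⟨i, hi⟩ : ∃ i, η i ≠ 0 := by
    by_contra hcon
    push Not at hcon
    exact hη (funext hcon)
  have h1 : ∀ y, ∃ c : F, ψ y *ᵥ w = c • w := by
    intro y
    have h2 := congrArg (fun z : Matrix ι ι F => z *ᵥ Pi.single i (η i)⁻¹) (hcomm y)
    simp only [← Matrix.mulVec_mulVec, Matrix.vecMulVec_mulVec] at h2
    rw [dotProduct_single, mul_inv_cancel₀ hi] at h2
    refine ⟨η ⬝ᵥ (ψ y *ᵥ Pi.single i (η i)⁻¹), ?_⟩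
    have h3 : (MulOpposite.op (1 : F)) • w = w := by ext; simp
    rw [h3] at h2
    rw [h2]
    ext; simp [mul_comm]
  choose c hc using h1
  have hoff : ∀ a b : Fin k, a ≠ b → ψ (Matrix.single a b 1) *ᵥ w = 0 := by
    intro a b hab
    have h2 : ψ (Matrix.single a b 1) *ᵥ (ψ (Matrix.single a b 1) *ᵥ w) = 0 := by
      rw [Matrix.mulVec_mulVec, ← map_mul, Matrix.single_mul_single_of_ne _ _ _ _ hab.symm, map_zero, Matrix.zero_mulVec]
    rw [hc, Matrix.mulVec_smul, hc, smul_smul] at h2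
    rcases smul_eq_zero.1 h2 with h3 | h3
    · rw [hc, mul_self_eq_zero.1 h3, zero_smul]
    · exact absurd h3 hw
  have hdiag : ∀ a : Fin k, ψ (Matrix.single a a 1) *ᵥ w = 0 := by
    intro a
    obtain ⟨b, hb⟩ : ∃ b : Fin k, b ≠ a := by
      by_cases ha : a = ⟨0, by omega⟩
      · exact ⟨⟨1, by omega⟩, by rw [ha]; intro h; simpa using congrArg Fin.val h⟩
      · exact ⟨⟨0, by omega⟩, Ne.symm ha⟩
    have h2 : (Matrix.single a a 1 : Matrix (Fin k) (Fin k) F) = Matrix.single a b 1 * Matrix.single b a 1 := by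
      rw [Matrix.single_mul_single_same, mul_one]
    rw [h2, map_mul, ← Matrix.mulVec_mulVec, hoff b a hb, Matrix.mulVec_zero]
  apply hw
  have h3 : ψ (∑ a, Matrix.single a a 1) *ᵥ w = 0 := by
    rw [map_sum, Matrix.sum_mulVec]
    exact Finset.sum_eq_zero fun a _ => hdiag a
  rwa [(isMatrixUnits_single (Fin k) F).one, map_one, Matrix.one_mulVec] at h3

/-- The key lemma: a group containing all transvections cannot normalise (or move to a commuting position) a matrix
algebra of degree at least two commuting with another one. -/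
theorem false_of_two_algebras [Nonempty ι] {m k : ℕ} (hm : 2 ≤ m) (hk : 2 ≤ k) (φ : Matrix (Fin m) (Fin m) F →ₐ[F] Matrix ι ι F)
    (ψ : Matrix (Fin k) (Fin k) F →ₐ[F] Matrix ι ι F) (hφψ : ∀ x y, ψ y * φ x = φ x * ψ y)
    (h : ∀ (v w : ι → F) (hvw : w ⬝ᵥ v = 0), (∀ x, ∃ x', cj (tv v w hvw) (φ x) = φ x') ∨
      (∀ x y, cj (tv v w hvw) (φ x) * φ y = φ y * cj (tv v w hvw) (φ x))) : False := by
  let a : Fin m := ⟨0, by omega⟩
  let b : Fin m := ⟨1, by omega⟩
  have hab : a ≠ b := by intro h; simpa [a, b] using congrArg Fin.val h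
  set x₀ : Matrix (Fin m) (Fin m) F := Matrix.single a a 1 with hx₀
  have hxx : x₀ * x₀ = x₀ := by rw [hx₀, Matrix.single_mul_single_same, mul_one]
  have hne : ∀ c : Fin m, φ (Matrix.single c c 1) ≠ 0 := by
    intro c h0
    have h1 : (1 : Matrix ι ι F) = 0 := by
      rw [← map_one φ, ← (isMatrixUnits_single (Fin m) F).one, map_sum]
      apply Finset.sum_eq_zero
      intro e _
      have : (Matrix.single e e 1 : Matrix (Fin m) (Fin m) F) = Matrix.single e c 1 * Matrix.single c c 1 * Matrix.single c e 1 := by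
        simp
      rw [this, map_mul, map_mul, h0, mul_zero, zero_mul]
    exact one_ne_zero h1
  set X := φ x₀ with hX
  have hXX : X * X = X := by rw [hX, ← map_mul, hxx]
  obtain ⟨v, hv⟩ : ∃ v : ι → F, X *ᵥ v ≠ 0 := by
    by_contra hcon
    push Not at hcon
    apply hne a
    ext i j
    have := congrFun (hcon (Pi.single j 1)) i
    rwa [Matrix.mulVec_single_one] at this
  set w := X *ᵥ v with hw
  have hXw : X *ᵥ w = w := by rw [hw, Matrix.mulVec_mulVec, hXX]
  have key : ∀ η : ι → F, η ⬝ᵥ w = 0 → η ᵥ* (X - 1) = 0 := by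
    intro η hη
    rw [Matrix.vecMul_sub, Matrix.vecMul_one, sub_eq_zero]
    have hcjX : cj (tv w η hη) X = X + vecMulVec w (η ᵥ* X - η) := by
      rw [cj_tv, hXw, hη, zero_smul, sub_zero, Matrix.vecMulVec_sub, add_sub_assoc]
    have hZ : η ᵥ* X - η = 0 := by
      rcases h w η hη with h1 | h1
      · obtain ⟨x', hx'⟩ := h1 x₀
        rw [← hX, hcjX] at hx'
        by_contra hne0
        apply no_rank_one hk ψ hv hne0
        intro y
        have h2 : vecMulVec w (η ᵥ* X - η) = φ (x' - x₀) := by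
          rw [map_sub, ← hx', ← hX]; abel
        rw [h2, hφψ]
      · have h2 := h1 x₀ x₀
        rw [← hX, hcjX, add_mul, mul_add, hXX, Matrix.vecMulVec_mul, Matrix.mul_vecMulVec, hXw, add_right_inj,
          Matrix.sub_vecMul, Matrix.vecMul_vecMul, hXX, sub_self, Matrix.vecMulVec_zero] at h2
        have h3 := h2.symm
        rw [Matrix.vecMulVec_eq_zero] at h3
        exact h3.resolve_left hv
    exact sub_eq_zero.1 hZ
  obtain ⟨ζ, hζ⟩ := eq_vecMulVec_of key
  have hζ0 : ζ = 0 := by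
    by_contra hne0
    apply no_rank_one hk ψ hv hne0
    intro y
    have h2 : vecMulVec w ζ = φ (x₀ - 1) := by
      rw [map_sub, map_one, ← hX, ← hζ]
    rw [h2, hφψ]
  rw [hζ0, Matrix.vecMulVec_zero, sub_eq_zero] at hζ
  apply hne b
  have h2 : x₀ * Matrix.single b b 1 = 0 := by
    rw [hx₀, Matrix.single_mul_single_of_ne _ _ _ _ hab]
  have h3 := congrArg φ h2
  rwa [map_mul, ← hX, hζ, one_mul, map_zero] at h3

theorem kronL_smul {d e : ℕ} (σ : ι ≃ Fin d × Fin e) (c : F) (x : Matrix (Fin d) (Fin d) F) (y : Matrix (Fin e) (Fin e) F) :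
    kronL σ (c • x) y = c • kronL σ x y ∧ kronL σ x (c • y) = c • kronL σ x y := by
  constructor
  · ext i j
    show (c * x _ _) * y _ _ = c * (x _ _ * y _ _)
    ring
  · ext i j
    show x _ _ * (c * y _ _) = c * (x _ _ * y _ _)
    ring

/-- The left factor of a tensor decomposition. -/
noncomputable def kLeft {d e : ℕ} (σ : ι ≃ Fin d × Fin e) (P : GL ι F) : Matrix (Fin d) (Fin d) F →ₐ[F] Matrix ι ι F where
  toFun x := cj P (kronL σ x 1)
  map_one' := by rw [kronL_one, map_one]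
  map_mul' x y := by rw [← map_mul, kronL_mul, one_mul]
  map_zero' := by
    have : kronL σ (0 : Matrix (Fin d) (Fin d) F) 1 = 0 := by
      ext i j; simp [kronL]
    rw [this, map_zero]
  map_add' x y := by
    have : kronL σ (x + y) 1 = kronL σ x 1 + kronL σ y 1 := by
      ext i j; simp [kronL, add_mul]
    rw [this, map_add]
  commutes' c := by
    have : kronL σ (algebraMap F (Matrix (Fin d) (Fin d) F) c) 1 = algebraMap F (Matrix ι ι F) c := by
      rw [Algebra.algebraMap_eq_smul_one, Algebra.algebraMap_eq_smul_one, ← kronL_one σ]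
      exact (kronL_smul σ c 1 1).1
    rw [this, AlgEquiv.commutes]

/-- The right factor of a tensor decomposition. -/
noncomputable def kRight {d e : ℕ} (σ : ι ≃ Fin d × Fin e) (P : GL ι F) : Matrix (Fin e) (Fin e) F →ₐ[F] Matrix ι ι F where
  toFun x := cj P (kronL σ 1 x)
  map_one' := by rw [kronL_one, map_one]
  map_mul' x y := by rw [← map_mul, kronL_mul, one_mul]
  map_zero' := by
    have : kronL σ 1 (0 : Matrix (Fin e) (Fin e) F) = 0 := by
      ext i j; simp [kronL]
    rw [this, map_zero]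
  map_add' x y := by
    have : kronL σ 1 (x + y) = kronL σ 1 x + kronL σ 1 y := by
      ext i j; simp [kronL, mul_add]
    rw [this, map_add]
  commutes' c := by
    have : kronL σ 1 (algebraMap F (Matrix (Fin e) (Fin e) F) c) = algebraMap F (Matrix ι ι F) c := by
      rw [Algebra.algebraMap_eq_smul_one, Algebra.algebraMap_eq_smul_one, ← kronL_one σ]
      exact (kronL_smul σ c 1 1).2
    rw [this, AlgEquiv.commutes]

theorem not_le_tensor [Nonempty ι] {d e : ℕ} (hd : 2 ≤ d) (he : 2 ≤ e) (σ : ι ≃ Fin d × Fin e) (P : GL ι F) :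
    ¬ specialLinear ι F ≤ tensorProductSubgroup d e σ P := by
  intro hle
  refine false_of_two_algebras hd he (kLeft σ P) (kRight σ P) ?_ ?_
  · intro x y
    show cj P (kronL σ 1 y) * cj P (kronL σ x 1) = cj P (kronL σ x 1) * cj P (kronL σ 1 y)
    rw [← map_mul, ← map_mul, kronL_mul, kronL_mul, one_mul, mul_one, one_mul, mul_one]
  · intro v w hvw
    left
    intro x
    obtain ⟨a, b, hab⟩ := mem_tensorProductSubgroup.1 (hle (tv_mem v w hvw))
    refine ⟨(a : Matrix (Fin d) (Fin d) F) * x * ((a⁻¹ : GL (Fin d) F) : Matrix (Fin d) (Fin d) F), ?_⟩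
    show cj (tv v w hvw) (cj P (kronL σ x 1)) = cj P (kronL σ _ 1)
    have h1 : cj (tv v w hvw) (cj P (kronL σ x 1)) * ((tv v w hvw : GL ι F) : Matrix ι ι F) =
        cj P (kronL σ ((a : Matrix (Fin d) (Fin d) F) * x * ((a⁻¹ : GL (Fin d) F) : Matrix (Fin d) (Fin d) F)) 1) *
          ((tv v w hvw : GL ι F) : Matrix ι ι F) := by
      rw [cj_apply (g := tv v w hvw), Matrix.mul_assoc, gl_inv_mul, mul_one]
      have h2 : ((tv v w hvw : GL ι F) : Matrix ι ι F) = cj P (kronL σ (a : Matrix (Fin d) (Fin d) F) (b : Matrix (Fin e) (Fin e) F)) := by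
        rw [hab, cj_apply]
      rw [h2, ← map_mul, ← map_mul, kronL_mul, kronL_mul, one_mul, mul_one, Matrix.mul_assoc _ _ (a : Matrix (Fin d) (Fin d) F),
        gl_inv_mul, mul_one]
    have h3 := congrArg (fun z : Matrix ι ι F => z * (((tv v w hvw)⁻¹ : GL ι F) : Matrix ι ι F)) h1
    simp only [Matrix.mul_assoc, gl_mul_inv, mul_one] at h3
    simp only [Matrix.mul_assoc]
    exact h3

/-- The `i`-th factor of a tensor power decomposition. -/
noncomputable def phiT {t d : ℕ} (σ : ι ≃ (Fin t → Fin d)) (B : GL ι F) (i : Fin t) :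
    Matrix (Fin d) (Fin d) F →ₐ[F] Matrix ι ι F where
  toFun x := psi σ B (tp (Function.update (fun _ => 1) i x))
  map_one' := by
    have : Function.update (fun _ : Fin t => (1 : Matrix (Fin d) (Fin d) F)) i 1 = fun _ => 1 := Function.update_eq_self i _
    rw [this, tp_one, map_one]
  map_mul' x y := by rw [← map_mul, tp_update_mul]
  map_zero' := by
    rw [← tpM_apply]
    have : (tpM F t d) (Function.update (fun _ => 1) i 0) = 0 := MultilinearMap.map_update_zero _ _ _
    rw [this, map_zero]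
  map_add' x y := by
    rw [← tpM_apply, ← tpM_apply, ← tpM_apply, MultilinearMap.map_update_add, map_add]
  commutes' c := by
    rw [Algebra.algebraMap_eq_smul_one, ← tpM_apply, MultilinearMap.map_update_smul, map_smul, tpM_apply]
    have : Function.update (fun _ : Fin t => (1 : Matrix (Fin d) (Fin d) F)) i 1 = fun _ => 1 := Function.update_eq_self i _
    rw [this, tp_one, map_one, Algebra.algebraMap_eq_smul_one]

theorem phiT_apply {t d : ℕ} (σ : ι ≃ (Fin t → Fin d)) (B : GL ι F) (i : Fin t) (x : Matrix (Fin d) (Fin d) F) :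
    phiT σ B i x = psi σ B (tp (Function.update (fun _ => 1) i x)) := rfl

theorem phiT_comm {t d : ℕ} (σ : ι ≃ (Fin t → Fin d)) (B : GL ι F) {i j : Fin t} (hij : i ≠ j) (x y : Matrix (Fin d) (Fin d) F) :
    phiT σ B i x * phiT σ B j y = phiT σ B j y * phiT σ B i x := by
  rw [phiT_apply, phiT_apply, ← map_mul, ← map_mul, tp_mul, tp_mul]
  congr 2
  funext k
  by_cases hk : k = i
  · subst hk
    rw [Function.update_of_ne hij, mul_one, one_mul]
  · rw [Function.update_of_ne hk, one_mul, mul_one]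

/-- Elements of the tensor wreath subgroup permute the factors. -/
theorem perm_of_mem_standard {t d : ℕ} {k : GL (Fin t → Fin d) F} (hk : k ∈ tensorWreathStandard d t F) :
    ∃ (π : Equiv.Perm (Fin t)) (u : Fin t → GL (Fin d) F), ∀ i x,
      (k : Matrix (Fin t → Fin d) (Fin t → Fin d) F) * tp (Function.update (fun _ => 1) i x) =
        tp (Function.update (fun _ => 1) (π i) ((u i : Matrix (Fin d) (Fin d) F) * x * (((u i)⁻¹ : GL (Fin d) F) : Matrix (Fin d) (Fin d) F))) *
          (k : Matrix (Fin t → Fin d) (Fin t → Fin d) F) := by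
  -- closure under products and inverses
  let S : Subgroup (GL (Fin t → Fin d) F) :=
    { carrier := {k | ∃ (π : Equiv.Perm (Fin t)) (u : Fin t → GL (Fin d) F), ∀ i x,
        (k : Matrix (Fin t → Fin d) (Fin t → Fin d) F) * tp (Function.update (fun _ => 1) i x) =
        tp (Function.update (fun _ => 1) (π i) ((u i : Matrix (Fin d) (Fin d) F) * x * (((u i)⁻¹ : GL (Fin d) F) : Matrix (Fin d) (Fin d) F))) *
          (k : Matrix (Fin t → Fin d) (Fin t → Fin d) F)}
      one_mem' := by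
        refine ⟨1, fun _ => 1, fun i x => ?_⟩
        simp
      mul_mem' := by
        rintro k₁ k₂ ⟨π, u, h1⟩ ⟨ρ, v, h2⟩
        refine ⟨ρ.trans π, fun i => u (ρ i) * v i, fun i x => ?_⟩
        rw [Units.val_mul, Matrix.mul_assoc, h2, ← Matrix.mul_assoc, h1, Matrix.mul_assoc]
        congr 3
        rw [Units.val_mul, mul_inv_rev, Units.val_mul]
        simp only [Matrix.mul_assoc]
      inv_mem' := by
        rintro k ⟨π, u, h1⟩
        refine ⟨π.symm, fun i => (u (π.symm i))⁻¹, fun i x => ?_⟩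
        have h2 := h1 (π.symm i) ((((u (π.symm i))⁻¹ : GL (Fin d) F) : Matrix (Fin d) (Fin d) F) * x * (u (π.symm i) : Matrix (Fin d) (Fin d) F))
        rw [Equiv.apply_symm_apply] at h2
        have h3 : ((u (π.symm i) : Matrix (Fin d) (Fin d) F) * ((((u (π.symm i))⁻¹ : GL (Fin d) F) : Matrix (Fin d) (Fin d) F) * x * (u (π.symm i) : Matrix (Fin d) (Fin d) F)) *
          (((u (π.symm i))⁻¹ : GL (Fin d) F) : Matrix (Fin d) (Fin d) F)) = x := by
          rw [Matrix.mul_assoc, Matrix.mul_assoc, Matrix.mul_assoc, gl_mul_inv, mul_one, ← Matrix.mul_assoc, gl_mul_inv, one_mul]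
        rw [h3] at h2
        rw [inv_inv]
        have h4 := congrArg (fun z => ((k⁻¹ : GL (Fin t → Fin d) F) : Matrix (Fin t → Fin d) (Fin t → Fin d) F) * z *
          ((k⁻¹ : GL (Fin t → Fin d) F) : Matrix (Fin t → Fin d) (Fin t → Fin d) F)) h2
        simp only [← Matrix.mul_assoc, gl_inv_mul, one_mul] at h4
        rw [Matrix.mul_assoc _ (k : Matrix (Fin t → Fin d) (Fin t → Fin d) F), gl_mul_inv, mul_one] at h4
        rw [← h4] }
  have hle : tensorWreathStandard d t F ≤ S := by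
    rw [tensorWreathStandard, Subgroup.closure_le]
    rintro k (⟨u, hu⟩ | ⟨π, hπ⟩)
    · refine ⟨1, u, fun i x => ?_⟩
      have hk' : (k : Matrix (Fin t → Fin d) (Fin t → Fin d) F) = tp (fun i => (u i : Matrix (Fin d) (Fin d) F)) := by
        ext a b; exact hu a b
      rw [hk', tp_mul, tp_mul]
      congr 1
      funext j
      by_cases hj : j = i
      · subst hj
        simp only [Equiv.Perm.coe_one, id_eq, Function.update_self]
        rw [Matrix.mul_assoc, gl_inv_mul, mul_one]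
      · simp only [Equiv.Perm.coe_one, id_eq]
        rw [Function.update_of_ne hj, Function.update_of_ne hj, mul_one, one_mul]
    · refine ⟨π, fun _ => 1, fun i x => ?_⟩
      have hk' : (k : Matrix (Fin t → Fin d) (Fin t → Fin d) F) = fp F d π := by
        ext a b; exact hπ a b
      rw [hk', fp_mul_tp]
      congr 2
      funext j
      by_cases hj : j = π i
      · subst hj
        simp
      · have hj' : π.symm j ≠ i := by
          rintro rfl
          exact hj (by simp)
        rw [Function.update_of_ne hj, Function.update_of_ne hj']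
  exact hle hk

theorem not_le_tensorWreath [Nonempty ι] {t d : ℕ} (hd : 2 ≤ d) (ht : 2 ≤ t) (σ : ι ≃ (Fin t → Fin d)) (B : GL ι F) :
    ¬ specialLinear ι F ≤ tensorWreathSubgroup d t σ B := by
  intro hle
  let i₀ : Fin t := ⟨0, by omega⟩
  let i₁ : Fin t := ⟨1, by omega⟩
  have h01 : i₁ ≠ i₀ := by intro h; simpa [i₀, i₁] using congrArg Fin.val h
  refine false_of_two_algebras hd hd (phiT σ B i₀) (phiT σ B i₁) (fun x y => phiT_comm σ B h01 y x) ?_
  intro v w hvw
  obtain ⟨k, hk, hkg⟩ := mem_tensorWreathSubgroup.1 (hle (tv_mem v w hvw))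
  obtain ⟨π, u, hπ⟩ := perm_of_mem_standard hk
  have key : ∀ x, cj (tv v w hvw) (phiT σ B i₀ x) = phiT σ B (π i₀) ((u i₀ : Matrix (Fin d) (Fin d) F) * x * (((u i₀)⁻¹ : GL (Fin d) F) : Matrix (Fin d) (Fin d) F)) := by
    intro x
    have h1 : ((tv v w hvw : GL ι F) : Matrix ι ι F) * phiT σ B i₀ x =
        phiT σ B (π i₀) ((u i₀ : Matrix (Fin d) (Fin d) F) * x * (((u i₀)⁻¹ : GL (Fin d) F) : Matrix (Fin d) (Fin d) F)) *
          ((tv v w hvw : GL ι F) : Matrix ι ι F) := by
      rw [hkg, phiT_apply, phiT_apply, ← map_mul, ← map_mul, hπ]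
    rw [cj_apply, h1, Matrix.mul_assoc, gl_mul_inv, mul_one]
  by_cases h : π i₀ = i₀
  · left
    intro x
    exact ⟨_, by rw [key, h]⟩
  · right
    intro x y
    rw [key]
    exact phiT_comm σ B h _ _

/-! ### Subfields -/

theorem not_le_subfield (hι : 2 ≤ Fintype.card ι) {F₀ : Subfield F} (hF₀ : F₀ ≠ ⊤) (P : GL ι F) :
    ¬ specialLinear ι F ≤ subfieldSubgroup F₀ P := by
  intro hle
  obtain ⟨i, j, hij⟩ := Fintype.one_lt_card_iff.1 hι
  obtain ⟨t, ht⟩ : ∃ t : F, t ∉ F₀ := by
    by_contra hcon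
    push Not at hcon
    exact hF₀ (eq_top_iff.2 fun x _ => hcon x)
  have hd : (Pi.single j (1 : F) : ι → F) ⬝ᵥ (Pi.single i t : ι → F) = 0 := by
    simp [hij]
  set T : GL ι F := tv (Pi.single i t) (Pi.single j 1) hd with hT
  have hmem : P * T * P⁻¹ ∈ specialLinear ι F := by
    have h1 : T ∈ specialLinear ι F := tv_mem _ _ _
    have h2 : Matrix.GeneralLinearGroup.det T = 1 := h1
    show Matrix.GeneralLinearGroup.det (P * T * P⁻¹) = 1
    rw [map_mul, map_mul, map_inv, h2, mul_one, mul_inv_cancel]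
  obtain ⟨c, a, hca⟩ := mem_subfieldSubgroup.1 (hle hmem)
  have h3 : (T : Matrix ι ι F) = (c : F) • ((a : Matrix ι ι F₀).map F₀.subtype) := by
    have h4 := congrArg (fun z : Matrix ι ι F => ((P⁻¹ : GL ι F) : Matrix ι ι F) * z * (P : Matrix ι ι F)) hca
    simp only [Units.val_mul] at h4
    have h5 : ((P⁻¹ : GL ι F) : Matrix ι ι F) * ((P : Matrix ι ι F) * (T : Matrix ι ι F) * ((P⁻¹ : GL ι F) : Matrix ι ι F)) * (P : Matrix ι ι F) = T := by
      simp only [← Matrix.mul_assoc]
      rw [gl_inv_mul, one_mul, Matrix.mul_assoc, gl_inv_mul, mul_one]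
    rw [h5] at h4
    rw [h4, Matrix.mul_smul, Matrix.smul_mul]
    congr 1
    simp only [← Matrix.mul_assoc]
    rw [gl_inv_mul, one_mul, Matrix.mul_assoc, gl_inv_mul, mul_one]
  have h6 := congrFun (congrFun h3 i) i
  have h7 := congrFun (congrFun h3 i) j
  rw [hT, tv_val] at h6 h7
  simp [Matrix.vecMulVec_apply, hij] at h6 h7
  have hc : (c : F) ∈ F₀ := by
    have h8 : (c : F) = ((a i i : F₀) : F)⁻¹ := by
      have h9 : ((a i i : F₀) : F) ≠ 0 := by
        intro h0
        rw [h0, mul_zero] at h6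
        exact one_ne_zero h6
      field_simp
      exact h6.symm
    rw [h8]
    exact F₀.inv_mem (a i i).2
  apply ht
  rw [h7]
  exact F₀.mul_mem hc (a i j).2

theorem ne_top_of_card [Fintype F] {F₀ : Subfield F} {r : ℕ} (hr : r.Prime) (h : Fintype.card F = Nat.card F₀ ^ r) : F₀ ≠ ⊤ := by
  rintro rfl
  have h1 : Nat.card (⊤ : Subfield F) = Fintype.card F := by
    rw [← Nat.card_eq_fintype_card]
    exact Nat.card_congr (Subfield.topEquiv (K := F)).toEquiv
  rw [h1] at h
  have h2 := Fintype.one_lt_card (α := F)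
  have h3 : Fintype.card F ^ 1 < Fintype.card F ^ r := Nat.pow_lt_pow_right h2 hr.one_lt
  rw [pow_one] at h3
  omega

/-! ### Forms -/

theorem not_le_similarity (hι : 3 ≤ Fintype.card ι) {f : (ι → F) → (ι → F) → F} (hadd : ∀ x y v, f (x + y) v = f x v + f y v)
    (hne : ∃ u v, f u v ≠ 0) : ¬ specialLinear ι F ≤ similarityGroup f := by
  intro hle
  obtain ⟨u, v, huv⟩ := hne
  obtain ⟨w, u', hwu, hwv, hwu'⟩ := exists_functional₂ hι u v
  obtain ⟨c, hc⟩ := hle (tv_mem u w hwu)
  have h1 := hc u v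
  simp only [tv_mulVec, hwu, hwv, zero_smul, add_zero] at h1
  have hc1 : (c : F) = 1 := by
    have h2 : ((c : F) - 1) * f u v = 0 := by linear_combination -h1
    rcases mul_eq_zero.1 h2 with h3 | h3
    · exact sub_eq_zero.1 h3
    · exact absurd h3 huv
  have h2 := hc u' v
  rw [tv_mulVec, tv_mulVec, hwu', hwv, zero_smul, one_smul, add_zero, hadd, hc1, one_mul] at h2
  exact huv (by linear_combination h2)

theorem exists_ne_of_nondeg [Nonempty ι] {f : (ι → F) → (ι → F) → F} (h : IsNondegenerateForm f) : ∃ u v, f u v ≠ 0 := by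
  obtain ⟨o⟩ := ‹Nonempty ι›
  obtain ⟨⟨x, hx⟩, -⟩ := h (Pi.single o 1) (by
    intro h0
    have := congrFun h0 o
    simp at this)
  exact ⟨x, _, hx⟩

theorem not_le_quad (hι : 3 ≤ Fintype.card ι) {Q : (ι → F) → F} (hQ : IsNondegenerateQuadraticForm Q) :
    ¬ specialLinear ι F ≤ quadSimilarityGroup Q := by
  intro hle
  have : Nonempty ι := Fintype.card_pos_iff.1 (by omega)
  apply not_le_similarity hι hQ.polar_bilinear.add_left (exists_ne_of_nondeg hQ.nondegenerate)
  intro g hg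
  obtain ⟨c, hc⟩ := hle hg
  refine ⟨c, fun u v => ?_⟩
  simp only [QuadraticMap.polar]
  rw [← Matrix.mulVec_add, hc, hc, hc]
  ring

end Cfsg.Agent.Lib.SLNot
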