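import Cfsg.Agent.Lib.AschSp1
import Cfsg.Agent.Lib.SLNot
set_option autoImplicit false
set_option linter.style.haveILetI false
set_option linter.unusedVariables false
set_option linter.unusedSectionVars false

/-!
`Sp_2m(F)`, `m ≥ 2`, is contained in none of the stabilisers of the geometric classes (arguments with transvections).
-/

namespace Cfsg.Agent.Lib.SpNot

open Cfsg Cfsg.Geo Cfsg.Agent.Lib.AschMU Cfsg.Agent.Lib.AschCore Cfsg.Agent.Lib.AschField Cfsg.Agent.Lib.AschAlg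
  Cfsg.Agent.Lib.AschGroup Cfsg.Agent.Lib.AschGood Cfsg.Agent.Lib.AschAdj Cfsg.Agent.Lib.AschNonab Cfsg.Agent.Lib.AschTensor
  Cfsg.Agent.Lib.AschComp Cfsg.Agent.Lib.AschSp Cfsg.Agent.Lib.SLNot Cfsg.Agent.Lib.SLGeom
open scoped Matrix MatrixGroups Kronecker
open Matrix (vecMulVec)

variable {F : Type*} [Field F] {m : ℕ}

/-- The functional `x ↦ f(v, x)` as a vector. -/
def wv (v : Fin m ⊕ Fin m → F) : Fin m ⊕ Fin m → F := (Matrix.J (Fin m) F)ᵀ *ᵥ v

lemma wv_dot (v x : Fin m ⊕ Fin m → F) : wv v ⬝ᵥ x = sympForm m F v x := by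
  rw [wv, Matrix.mulVec_transpose, ← Matrix.dotProduct_mulVec]
  rfl

/-- The symplectic transvection `x ↦ x + a f(v, x) v`. -/
def st (v : Fin m ⊕ Fin m → F) (a : F) : GL (Fin m ⊕ Fin m) F :=
  tv (a • v) (wv v) (by rw [wv_dot, SympAux.sympForm_smul_right, sp_self, mul_zero])

lemma st_mulVec (v : Fin m ⊕ Fin m → F) (a : F) (x : Fin m ⊕ Fin m → F) :
    (st v a : Matrix (Fin m ⊕ Fin m) (Fin m ⊕ Fin m) F) *ᵥ x = x + (a * sympForm m F v x) • v := by
  rw [st, tv_mulVec, wv_dot, smul_smul, mul_comm a]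

lemma st_mem (v : Fin m ⊕ Fin m → F) (a : F) : st v a ∈ spGL m F := by
  intro x y
  show sympForm m F ((st v a : Matrix (Fin m ⊕ Fin m) (Fin m ⊕ Fin m) F) *ᵥ x) ((st v a : Matrix (Fin m ⊕ Fin m) (Fin m ⊕ Fin m) F) *ᵥ y) = _
  rw [st_mulVec, st_mulVec]
  simp only [SympAux.sympForm_add_left, SympAux.sympForm_add_right, SympAux.sympForm_smul_left, SympAux.sympForm_smul_right, sp_self]
  rw [sp_swap x v]
  ring

lemma exists_pair {v : Fin m ⊕ Fin m → F} (hv : v ≠ 0) : ∃ y, sympForm m F v y = 1 := by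
  obtain ⟨-, y, hy⟩ := sp_nondeg v hv
  exact ⟨(sympForm m F v y)⁻¹ • y, by rw [SympAux.sympForm_smul_right, inv_mul_cancel₀ hy]⟩

lemma wv_ne {v : Fin m ⊕ Fin m → F} (hv : v ≠ 0) : wv v ≠ 0 := by
  intro h
  obtain ⟨y, hy⟩ := exists_pair hv
  rw [← wv_dot, h, zero_dotProduct] at hy
  exact zero_ne_one hy

/-! ### Subspaces and decompositions -/

theorem eq_top_of_invariant {W : Submodule F (Fin m ⊕ Fin m → F)} (h0 : W ≠ ⊥)
    (h : ∀ (v : Fin m ⊕ Fin m → F) (a : F), ∀ w ∈ W, (st v a : Matrix (Fin m ⊕ Fin m) (Fin m ⊕ Fin m) F) *ᵥ w ∈ W) : W = ⊤ := by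
  obtain ⟨w, hw, hw0⟩ := Submodule.exists_mem_ne_zero_of_ne_bot h0
  obtain ⟨y, hy⟩ := exists_pair hw0
  have key : ∀ u, sympForm m F u w ≠ 0 → u ∈ W := by
    intro u hu
    have h1 := h u (sympForm m F u w)⁻¹ w hw
    rw [st_mulVec, inv_mul_cancel₀ hu, one_smul] at h1
    have h2 := W.sub_mem h1 hw
    rwa [add_sub_cancel_left] at h2
  have hyw : sympForm m F y w ≠ 0 := by
    rw [sp_swap, hy]; exact neg_ne_zero.2 one_ne_zero
  rw [eq_top_iff]
  intro u _
  by_cases hu : sympForm m F u w = 0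
  · have h1 : u + y ∈ W := key _ (by rw [SympAux.sympForm_add_left, hu, zero_add]; exact hyw)
    have h2 := W.sub_mem h1 (key y hyw)
    rwa [add_sub_cancel_right] at h2
  · exact key u hu

theorem not_le_subspace {W : Submodule F (Fin m ⊕ Fin m → F)} (h0 : W ≠ ⊥) (h1 : W ≠ ⊤) : ¬ spGL m F ≤ subspaceStabilizer W := by
  intro h
  apply h1
  apply eq_top_of_invariant h0
  intro v a w hw
  exact ((mem_stab W (st v a)).1 (h (st_mem v a)) w).1 hw

theorem not_le_decomposition {t k : ℕ} (hk : 2 ≤ k) {D : Fin t → Submodule F (Fin m ⊕ Fin m → F)} (hD : IsMDecomposition k D) :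
    ¬ spGL m F ≤ decompositionStabilizer D := by
  intro hle
  have ht := hD.two_le
  let i₀ : Fin t := ⟨0, by omega⟩
  let i₁ : Fin t := ⟨1, by omega⟩
  have h01 : i₁ ≠ i₀ := by
    intro h
    have := congrArg Fin.val h
    simp [i₀, i₁] at this
  have hne : ∀ i, D i ≠ ⊥ := by
    intro i h
    have h1 := hD.finrank_eq i
    rw [h, finrank_bot] at h1
    omega
  have hdis : ∀ i j, i ≠ j → ∀ x, x ∈ D i → x ∈ D j → x = 0 := by
    intro i j hij x hi hj
    have h1 : Disjoint (D i) (D j) := hD.indep.pairwiseDisjoint hij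
    exact (Submodule.disjoint_def.1 h1) x hi hj
  have htop : D i₀ = ⊤ := by
    apply eq_top_of_invariant (hne i₀)
    intro v a w hw
    obtain ⟨σ, hσ⟩ := hle (st_mem v a)
    have hmem : ∀ x ∈ D i₀, (st v a : Matrix (Fin m ⊕ Fin m) (Fin m ⊕ Fin m) F) *ᵥ x ∈ D (σ i₀) := by
      intro x hx
      rw [← hσ]
      exact ⟨x, hx, Matrix.toLin'_apply _ _⟩
    by_cases h : σ i₀ = i₀
    · have := hmem w hw
      rwa [h] at this
    exfalso
    -- the map x ↦ T x - x is injective on D i₀ into a line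
    let φ : D i₀ →ₗ[F] F :=
      { toFun := fun x => a * sympForm m F v x
        map_add' := fun x y => by rw [Submodule.coe_add, SympAux.sympForm_add_right, mul_add]
        map_smul' := fun c x => by rw [Submodule.coe_smul, SympAux.sympForm_smul_right, RingHom.id_apply, smul_eq_mul]; ring }
    have hinj : Function.Injective φ := by
      rw [injective_iff_map_eq_zero]
      intro x hx
      have h1 := hmem x x.2
      have h2 : a * sympForm m F v x = 0 := hx
      rw [st_mulVec, h2, zero_smul, add_zero] at h1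
      exact Subtype.ext (hdis _ _ (Ne.symm h) _ x.2 h1)
    have h1 := LinearMap.finrank_le_finrank_of_injective hinj
    rw [hD.finrank_eq, Module.finrank_self] at h1
    omega
  obtain ⟨w, hw, hw0⟩ := Submodule.exists_mem_ne_zero_of_ne_bot (hne i₁)
  exact hw0 (hdis i₁ i₀ h01 w hw (by rw [htop]; trivial))

/-! ### Fields -/

/-- If a transvection centralises `k`, its centre is an eigenvector. -/
lemma eigen_of_comm {v : Fin m ⊕ Fin m → F} (hv : v ≠ 0) {k : Matrix (Fin m ⊕ Fin m) (Fin m ⊕ Fin m) F}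
    (h : cj (st v 1) k = k) : k *ᵥ v ∈ F ∙ v := by
  obtain ⟨y, hy⟩ := exists_pair hv
  have h1 : (st v 1 : Matrix (Fin m ⊕ Fin m) (Fin m ⊕ Fin m) F) * k = k * (st v 1 : Matrix (Fin m ⊕ Fin m) (Fin m ⊕ Fin m) F) := by
    conv_rhs => rw [← h]
    rw [cj_apply, mul_assoc, mul_assoc, gl_inv_mul, mul_one]
  have h2 := congrArg (fun z => z *ᵥ y) h1
  simp only [← Matrix.mulVec_mulVec, st_mulVec, hy, one_mul, one_smul, Matrix.mulVec_add] at h2
  rw [Submodule.mem_span_singleton]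
  refine ⟨sympForm m F v (k *ᵥ y), ?_⟩
  exact add_left_cancel h2

theorem not_le_field (hm : 2 ≤ m) {r : ℕ} (hr : 2 ≤ r) {K : Subalgebra F (Matrix (Fin m ⊕ Fin m) (Fin m ⊕ Fin m) F)}
    (hK : IsFieldSubalgebra r K) : ¬ spGL m F ≤ subalgebraNormalizer K := by
  intro hle
  haveI : Nonempty (Fin m ⊕ Fin m) := ⟨Sum.inl ⟨0, by omega⟩⟩
  have hι : 3 ≤ Fintype.card (Fin m ⊕ Fin m) := by rw [Fintype.card_sum, Fintype.card_fin]; omega
  obtain ⟨k, hk, hks⟩ : ∃ k ∈ K, ∀ c : F, k ≠ c • (1 : Matrix (Fin m ⊕ Fin m) (Fin m ⊕ Fin m) F) := by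
    by_contra hcon
    push Not at hcon
    have h1 : K = ⊥ := eq_bot_of_scalar hcon
    have h2 := hK.finrank_eq
    rw [h1, Subalgebra.finrank_bot] at h2
    omega
  obtain ⟨v, hv⟩ := exists_not_eigen hks
  have hv0 : v ≠ 0 := by
    rintro rfl
    rw [Matrix.mulVec_zero] at hv
    exact hv (Submodule.zero_mem _)
  apply hv
  apply eigen_of_comm hv0
  have hY : cj (st v 1) k - k ∈ K := K.sub_mem (cj_mem_of_le hle (st_mem v 1) hk) hk
  obtain ⟨x, hx0, hx1, hx2⟩ := exists_ne_zero_dot₂ hι (wv v) (wv v ᵥ* k)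
  have hYx : (cj (st v 1) k - k) *ᵥ x = 0 := by
    rw [st, cj_tv]
    simp only [Matrix.sub_mulVec, Matrix.add_mulVec, Matrix.vecMulVec_mulVec, hx1, hx2, Matrix.smul_mulVec]
    ext i
    simp
  by_contra hne
  obtain ⟨z, hz, hz1⟩ := hK.inv _ hY (sub_ne_zero.2 hne)
  rw [hK.comm _ hY _ hz] at hz1
  apply hx0
  have h3 := congrArg (fun y => z *ᵥ y) hYx
  simp only [Matrix.mulVec_mulVec, hz1, Matrix.one_mulVec, Matrix.mulVec_zero] at h3
  exact h3

/-! ### Tensor decompositions -/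

section rank
variable {ι : Type} [Fintype ι] [DecidableEq ι]

/-- Three orthogonal idempotents commuting with a matrix of rank at most two: one of the products vanishes. -/
theorem rank_three {Λ : Type*} [Fintype Λ] (hΛ : 3 ≤ Fintype.card Λ) {p : Λ → Matrix ι ι F} {Y : Matrix ι ι F}
    (hid : ∀ a, p a * p a = p a) (horth : ∀ a b, a ≠ b → p a * p b = 0) (hcomm : ∀ a, p a * Y = Y * p a)
    {v β : ι → F} (hY : ∀ x, Y *ᵥ x ∈ Submodule.span F {v, β}) : ∃ a, p a * Y = 0 := by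
  classical
  by_contra hcon
  push Not at hcon
  have h1 : ∀ a, ∃ z, (p a * Y) *ᵥ z ≠ 0 := by
    intro a
    by_contra h
    push Not at h
    apply hcon a
    ext i j
    have := congrFun (h (Pi.single j 1)) i
    rwa [Matrix.mulVec_single_one] at this
  choose z hz using h1
  let u : Λ → (ι → F) := fun a => (p a * Y) *ᵥ z a
  have hu : ∀ a, u a ∈ Submodule.span F {v, β} := by
    intro a
    show (p a * Y) *ᵥ z a ∈ _
    rw [hcomm, ← Matrix.mulVec_mulVec]
    exact hY _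
  have hli : LinearIndependent F u := by
    rw [Fintype.linearIndependent_iff]
    intro c hc a
    have h2 := congrArg (fun x => p a *ᵥ x) hc
    simp only [Matrix.mulVec_zero] at h2
    rw [Matrix.mulVec_sum, Finset.sum_eq_single a] at h2
    · rw [Matrix.mulVec_smul] at h2
      have h3 : p a *ᵥ u a = u a := by
        show p a *ᵥ ((p a * Y) *ᵥ z a) = (p a * Y) *ᵥ z a
        rw [Matrix.mulVec_mulVec, ← mul_assoc, hid]
      rw [h3] at h2
      exact (smul_eq_zero.1 h2).resolve_right (hz a)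
    · intro b _ hb
      rw [Matrix.mulVec_smul]
      have h3 : p a *ᵥ u b = 0 := by
        show p a *ᵥ ((p b * Y) *ᵥ z b) = 0
        rw [Matrix.mulVec_mulVec, ← mul_assoc, horth a b (Ne.symm hb), zero_mul, Matrix.zero_mulVec]
      rw [h3, smul_zero]
    · intro h; exact absurd (Finset.mem_univ a) h
  let u' : Λ → Submodule.span F {v, β} := fun a => ⟨u a, hu a⟩
  have hli' : LinearIndependent F u' := LinearIndependent.of_comp (Submodule.span F {v, β}).subtype hli
  have h4 := hli'.fintype_card_le_finrank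
  have h5 : Module.finrank F (Submodule.span F ({v, β} : Set (ι → F))) ≤ 2 := by
    have := finrank_span_le_card (R := F) ({v, β} : Set (ι → F))
    refine this.trans ?_
    rw [Set.toFinset_card, ← Set.toFinset_card]
    exact (Finset.card_le_card (by intro x hx; simpa using hx : ({v, β} : Set (ι → F)).toFinset ⊆ ({v, β} : Finset (ι → F)))).trans Finset.card_le_two
  omega

/-- Matrix units commuting with `Y`: if `E_aa Y = 0` then `Y = 0`. -/
lemma eq_zero_of_units {κ : Type} [Fintype κ] [DecidableEq κ] {E : κ → κ → Matrix ι ι F} (hE : IsMatrixUnits E)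
    {Y : Matrix ι ι F} (hcomm : ∀ a b, E a b * Y = Y * E a b) {a : κ} (h : E a a * Y = 0) : Y = 0 := by
  rw [← one_mul Y, ← hE.one, Finset.sum_mul]
  apply Finset.sum_eq_zero
  intro b _
  have h1 : E b b = E b a * E a a * E a b := by
    rw [hE.mul, if_pos rfl, hE.mul, if_pos rfl]
  rw [h1, mul_assoc, mul_assoc, hcomm, ← mul_assoc (E a a), h, zero_mul, mul_zero]

lemma units_map {κ : Type} [Fintype κ] [DecidableEq κ] {R S : Type*} [Ring R] [Ring S] (f : R →+* S) {E : κ → κ → R} (hE : IsMatrixUnits E) :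
    IsMatrixUnits (fun a b => f (E a b)) where
  mul a b c d := by
    rw [← map_mul, hE.mul]
    split_ifs
    · rfl
    · exact map_zero f
  one := by rw [← map_sum, hE.one, map_one]

end rank


/-- Diagonal matrix units are not scalar. -/
lemma unit_not_scalar {ι' : Type} [Fintype ι'] [DecidableEq ι'] [Nonempty ι'] {κ : Type} [Fintype κ] [DecidableEq κ] {E : κ → κ → Matrix ι' ι' F} (hE : IsMatrixUnits E) {a b : κ}
    (hab : a ≠ b) (c : F) (h : E a a = c • (1 : Matrix ι' ι' F)) : False := by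
  have h1 : ∀ a : κ, E a a ≠ 0 := by
    intro a h0
    have h8 : (1 : Matrix ι' ι' F) = 0 := by
      apply eq_zero_of_units hE (Y := 1) (fun _ _ => by rw [mul_one, one_mul]) (a := a)
      rw [mul_one]; exact h0
    exact one_ne_zero h8
  have h5 := hE.mul b b a a
  rw [if_neg hab.symm, h, Matrix.mul_smul, mul_one] at h5
  rcases smul_eq_zero.1 h5 with h6 | h6
  · exact h1 a (by rw [h, h6, zero_smul])
  · exact h1 b h6

/-- The conjugate of `k` by a transvection differs from `k` by a matrix of rank at most two. -/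
lemma range_cj (v : Fin m ⊕ Fin m → F) (k : Matrix (Fin m ⊕ Fin m) (Fin m ⊕ Fin m) F) (x : Fin m ⊕ Fin m → F) :
    (cj (st v 1) k - k) *ᵥ x ∈ Submodule.span F {v, k *ᵥ v} := by
  have h1 : (cj (st v 1) k - k) *ᵥ x = ((wv v ᵥ* k) ⬝ᵥ x - (wv v ⬝ᵥ (k *ᵥ v)) * (wv v ⬝ᵥ x)) • v - (wv v ⬝ᵥ x) • (k *ᵥ v) := by
    rw [st, cj_tv]
    simp only [Matrix.sub_mulVec, Matrix.add_mulVec, Matrix.vecMulVec_mulVec, Matrix.smul_mulVec, one_smul]
    ext i
    simp
    ring
  rw [h1]
  refine Submodule.sub_mem _ (Submodule.smul_mem _ _ (Submodule.subset_span (by simp))) (Submodule.smul_mem _ _ (Submodule.subset_span (by simp)))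

theorem not_le_tensor (hm : 1 ≤ m) {d e : ℕ} (hd : 2 ≤ d) (he : 3 ≤ e) (σ : Fin m ⊕ Fin m ≃ Fin d × Fin e) (P : GL (Fin m ⊕ Fin m) F) :
    ¬ spGL m F ≤ tensorProductSubgroup d e σ P := by
  intro hle
  haveI : Nonempty (Fin m ⊕ Fin m) := ⟨Sum.inl ⟨0, by omega⟩⟩
  let a : Fin d := ⟨0, by omega⟩
  let b : Fin d := ⟨1, by omega⟩
  have hab : a ≠ b := by intro h; simpa [a, b] using congrArg Fin.val h
  set k : Matrix (Fin m ⊕ Fin m) (Fin m ⊕ Fin m) F := kLeft σ P (Matrix.single a a 1) with hk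
  have hcomm : ∀ x y, kRight σ P y * kLeft σ P x = kLeft σ P x * kRight σ P y := by
    intro x y
    show cj P (kronL σ 1 y) * cj P (kronL σ x 1) = cj P (kronL σ x 1) * cj P (kronL σ 1 y)
    rw [← map_mul, ← map_mul, kronL_mul, kronL_mul, one_mul, mul_one, one_mul, mul_one]
  have hE := units_map (kRight σ P : Matrix (Fin e) (Fin e) F →+* Matrix (Fin m ⊕ Fin m) (Fin m ⊕ Fin m) F) (isMatrixUnits_single (Fin e) F)
  have hfix : ∀ v : Fin m ⊕ Fin m → F, v ≠ 0 → cj (st v 1) k = k := by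
    intro v hv
    -- the transvection normalises the left factor
    obtain ⟨g₁, g₂, hg⟩ := mem_tensorProductSubgroup.1 (hle (st_mem v 1))
    have h1 : cj (st v 1) k = kLeft σ P ((g₁ : Matrix (Fin d) (Fin d) F) * Matrix.single a a 1 * ((g₁⁻¹ : GL (Fin d) F) : Matrix (Fin d) (Fin d) F)) := by
      have h1 : cj (st v 1) k * ((st v 1 : GL (Fin m ⊕ Fin m) F) : Matrix (Fin m ⊕ Fin m) (Fin m ⊕ Fin m) F) =
          cj P (kronL σ ((g₁ : Matrix (Fin d) (Fin d) F) * Matrix.single a a 1 * ((g₁⁻¹ : GL (Fin d) F) : Matrix (Fin d) (Fin d) F)) 1) *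
          ((st v 1 : GL (Fin m ⊕ Fin m) F) : Matrix (Fin m ⊕ Fin m) (Fin m ⊕ Fin m) F) := by
        rw [cj_apply (g := st v 1), Matrix.mul_assoc, gl_inv_mul, mul_one]
        have h2 : ((st v 1 : GL (Fin m ⊕ Fin m) F) : Matrix (Fin m ⊕ Fin m) (Fin m ⊕ Fin m) F) = cj P (kronL σ (g₁ : Matrix (Fin d) (Fin d) F) (g₂ : Matrix (Fin e) (Fin e) F)) := by
          rw [hg, cj_apply]
        have hk' : k = cj P (kronL σ (Matrix.single a a 1) 1) := rfl
        rw [h2, hk', ← map_mul, ← map_mul, kronL_mul, kronL_mul, one_mul, mul_one, Matrix.mul_assoc _ _ (g₁ : Matrix (Fin d) (Fin d) F),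
          gl_inv_mul, mul_one]
      have h3 := congrArg (fun z : Matrix (Fin m ⊕ Fin m) (Fin m ⊕ Fin m) F => z * (((st v 1)⁻¹ : GL (Fin m ⊕ Fin m) F) : Matrix (Fin m ⊕ Fin m) (Fin m ⊕ Fin m) F)) h1
      simp only [Matrix.mul_assoc, gl_mul_inv, mul_one] at h3
      simp only [Matrix.mul_assoc]
      exact h3
    have hYc : ∀ y, kRight σ P y * (cj (st v 1) k - k) = (cj (st v 1) k - k) * kRight σ P y := by
      intro y
      rw [mul_sub, sub_mul, h1, hcomm, hk, hcomm]
    obtain ⟨c, hc⟩ := rank_three (Λ := Fin e) (by rw [Fintype.card_fin]; exact he) (p := fun c => kRight σ P (Matrix.single c c 1))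
      (Y := cj (st v 1) k - k) (fun c => by rw [← map_mul, Matrix.single_mul_single_same, mul_one])
      (fun c c' hcc => by rw [← map_mul, Matrix.single_mul_single_of_ne _ _ _ _ hcc, map_zero]) (fun c => hYc _) (range_cj v k)
    have := eq_zero_of_units hE (Y := cj (st v 1) k - k) (fun _ _ => hYc _) (a := c) hc
    exact sub_eq_zero.1 this
  -- so k is scalar
  have hsc : ∃ c : F, k = c • (1 : Matrix (Fin m ⊕ Fin m) (Fin m ⊕ Fin m) F) := by
    by_contra hcon
    push Not at hcon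
    obtain ⟨v, hv⟩ := exists_not_eigen hcon
    have hv0 : v ≠ 0 := by
      rintro rfl
      rw [Matrix.mulVec_zero] at hv
      exact hv (Submodule.zero_mem _)
    exact hv (eigen_of_comm hv0 (hfix v hv0))
  obtain ⟨c, hc⟩ := hsc
  have hE' := units_map (kLeft σ P : Matrix (Fin d) (Fin d) F →+* Matrix (Fin m ⊕ Fin m) (Fin m ⊕ Fin m) F) (isMatrixUnits_single (Fin d) F)
  exact unit_not_scalar hE' hab c hc

theorem not_le_tensorWreath (hm : 1 ≤ m) {t d : ℕ} (hd : 2 ≤ d) (ht : 3 ≤ t) (σ : Fin m ⊕ Fin m ≃ (Fin t → Fin d)) (B : GL (Fin m ⊕ Fin m) F) :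
    ¬ spGL m F ≤ tensorWreathSubgroup d t σ B := by
  intro hle
  haveI : Nonempty (Fin m ⊕ Fin m) := ⟨Sum.inl ⟨0, by omega⟩⟩
  let a : Fin d := ⟨0, by omega⟩
  let b : Fin d := ⟨1, by omega⟩
  have hab : a ≠ b := by intro h; simpa [a, b] using congrArg Fin.val h
  let i₀ : Fin t := ⟨0, by omega⟩
  let i₁ : Fin t := ⟨1, by omega⟩
  let i₂ : Fin t := ⟨2, by omega⟩
  have h01 : i₁ ≠ i₀ := by intro h; simpa [i₀, i₁] using congrArg Fin.val h
  have h02 : i₂ ≠ i₀ := by intro h; simpa [i₀, i₂] using congrArg Fin.val h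
  have h12 : i₁ ≠ i₂ := by intro h; simpa [i₁, i₂] using congrArg Fin.val h
  have hE : ∀ i : Fin t, IsMatrixUnits (fun a b => phiT σ B i (Matrix.single a b (1 : F))) := fun i =>
    units_map (phiT σ B i : Matrix (Fin d) (Fin d) F →+* Matrix (Fin m ⊕ Fin m) (Fin m ⊕ Fin m) F) (isMatrixUnits_single (Fin d) F)
  set k : Matrix (Fin m ⊕ Fin m) (Fin m ⊕ Fin m) F := phiT σ B i₀ (Matrix.single a a 1) with hk
  have hkn : ∀ c : F, k ≠ c • (1 : Matrix (Fin m ⊕ Fin m) (Fin m ⊕ Fin m) F) := fun c hc => unit_not_scalar (hE i₀) hab c hc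
  have hcommP : ∀ {i j : Fin t}, i ≠ j → ∀ x y, phiT σ B i x * phiT σ B j y = phiT σ B j y * phiT σ B i x := fun hij x y => phiT_comm σ B hij x y
  have hcard : 3 ≤ Fintype.card (Fin d × Fin d) := by rw [Fintype.card_prod, Fintype.card_fin]; nlinarith
  -- products of diagonal units
  have hpid : ∀ {i j : Fin t}, i ≠ j → ∀ q : Fin d × Fin d, (phiT σ B i (Matrix.single q.1 q.1 1) * phiT σ B j (Matrix.single q.2 q.2 1)) *
      (phiT σ B i (Matrix.single q.1 q.1 1) * phiT σ B j (Matrix.single q.2 q.2 1)) =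
      phiT σ B i (Matrix.single q.1 q.1 1) * phiT σ B j (Matrix.single q.2 q.2 1) := by
    intro i j hij q
    rw [mul_assoc, ← mul_assoc (phiT σ B j _), ← hcommP hij, mul_assoc, ← mul_assoc, ← map_mul, ← map_mul]
    simp
  have hporth : ∀ {i j : Fin t}, i ≠ j → ∀ q q' : Fin d × Fin d, q ≠ q' → (phiT σ B i (Matrix.single q.1 q.1 1) * phiT σ B j (Matrix.single q.2 q.2 1)) *
      (phiT σ B i (Matrix.single q'.1 q'.1 1) * phiT σ B j (Matrix.single q'.2 q'.2 1)) = 0 := by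
    intro i j hij q q' hq
    rw [mul_assoc, ← mul_assoc (phiT σ B j _), ← hcommP hij, mul_assoc, ← mul_assoc, ← map_mul, ← map_mul]
    by_cases h1 : q.1 = q'.1
    · have h2 : q.2 ≠ q'.2 := fun h => hq (Prod.ext h1 h)
      rw [Matrix.single_mul_single_of_ne _ _ _ _ h2, map_zero, mul_zero]
    · rw [Matrix.single_mul_single_of_ne _ _ _ _ h1, map_zero, zero_mul]
  have hfix : ∀ v : Fin m ⊕ Fin m → F, v ≠ 0 → cj (st v 1) k = k := by
    intro v hv
    obtain ⟨g, hg, hgT⟩ := mem_tensorWreathSubgroup.1 (hle (st_mem v 1))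
    obtain ⟨π, u, hπ⟩ := perm_of_mem_standard hg
    set x' : Matrix (Fin d) (Fin d) F := (u i₀ : Matrix (Fin d) (Fin d) F) * Matrix.single a a 1 * (((u i₀)⁻¹ : GL (Fin d) F) : Matrix (Fin d) (Fin d) F) with hx'
    have key : cj (st v 1) k = phiT σ B (π i₀) x' := by
      have h1 : ((st v 1 : GL (Fin m ⊕ Fin m) F) : Matrix (Fin m ⊕ Fin m) (Fin m ⊕ Fin m) F) * phiT σ B i₀ (Matrix.single a a 1) =
          phiT σ B (π i₀) x' * ((st v 1 : GL (Fin m ⊕ Fin m) F) : Matrix (Fin m ⊕ Fin m) (Fin m ⊕ Fin m) F) := by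
        rw [hgT, phiT_apply, phiT_apply, ← map_mul, ← map_mul, hπ]
      rw [cj_apply, hk, h1, Matrix.mul_assoc, gl_mul_inv, mul_one]
    by_cases hj : π i₀ = i₀
    · rw [hj] at key
      have hY : ∀ {i : Fin t}, i ≠ i₀ → ∀ y, phiT σ B i y * (cj (st v 1) k - k) = (cj (st v 1) k - k) * phiT σ B i y := by
        intro i hi y
        rw [mul_sub, sub_mul, key, hcommP hi, hk, hcommP hi]
      obtain ⟨q, hq⟩ := rank_three hcard (p := fun q : Fin d × Fin d => phiT σ B i₁ (Matrix.single q.1 q.1 1) * phiT σ B i₂ (Matrix.single q.2 q.2 1))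
        (Y := cj (st v 1) k - k) (hpid h12) (hporth h12) (fun q => by
          show phiT σ B i₁ (Matrix.single q.1 q.1 1) * phiT σ B i₂ (Matrix.single q.2 q.2 1) * (cj (st v 1) k - k) = _
          rw [mul_assoc, hY h02, ← mul_assoc, hY h01, mul_assoc]) (range_cj v k)
      have h3 : phiT σ B i₂ (Matrix.single q.2 q.2 1) * (cj (st v 1) k - k) = 0 := by
        apply eq_zero_of_units (hE i₁) (a := q.1)
        · intro c c'
          rw [← mul_assoc, hcommP h12, mul_assoc, hY h01, ← mul_assoc]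
        · rw [← mul_assoc]; exact hq
      have h4 := eq_zero_of_units (hE i₂) (a := q.2) (fun c c' => hY h02 _) h3
      exact sub_eq_zero.1 h4
    · exfalso
      obtain ⟨l, hl0, hlj⟩ : ∃ l : Fin t, l ≠ i₀ ∧ l ≠ π i₀ := by
        by_cases h : π i₀ = i₁
        · exact ⟨i₂, h02, by rw [h]; exact h12.symm⟩
        · exact ⟨i₁, h01, Ne.symm h⟩
      have hYl : ∀ y, phiT σ B l y * (cj (st v 1) k - k) = (cj (st v 1) k - k) * phiT σ B l y := by
        intro y
        rw [mul_sub, sub_mul, key, hcommP hlj, hk, hcommP hl0]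
      have hY0 : ∀ c : Fin d, phiT σ B i₀ (Matrix.single c c 1) * (cj (st v 1) k - k) = (cj (st v 1) k - k) * phiT σ B i₀ (Matrix.single c c 1) := by
        intro c
        rw [mul_sub, sub_mul, key, hcommP (Ne.symm hj), hk, ← map_mul, ← map_mul]
        congr 2
        by_cases hca : c = a
        · rw [hca]
        · rw [Matrix.single_mul_single_of_ne _ _ _ _ hca, Matrix.single_mul_single_of_ne _ _ _ _ (Ne.symm hca)]
      obtain ⟨q, hq⟩ := rank_three hcard (p := fun q : Fin d × Fin d => phiT σ B i₀ (Matrix.single q.1 q.1 1) * phiT σ B l (Matrix.single q.2 q.2 1))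
        (Y := cj (st v 1) k - k) (hpid hl0.symm) (hporth hl0.symm) (fun q => by
          show phiT σ B i₀ (Matrix.single q.1 q.1 1) * phiT σ B l (Matrix.single q.2 q.2 1) * (cj (st v 1) k - k) = _
          rw [mul_assoc, hYl, ← mul_assoc, hY0, mul_assoc]) (range_cj v k)
      have h3 : phiT σ B i₀ (Matrix.single q.1 q.1 1) * (cj (st v 1) k - k) = 0 := by
        apply eq_zero_of_units (hE l) (a := q.2)
        · intro c c'
          rw [← mul_assoc, hcommP hl0, mul_assoc, hYl, ← mul_assoc]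
        · rw [← mul_assoc, hcommP hl0]; exact hq
      rw [key, mul_sub, hk, ← map_mul] at h3
      by_cases hqa : q.1 = a
      · rw [hqa, Matrix.single_mul_single_same, mul_one] at h3
        have h4 : phiT σ B i₀ (Matrix.single a a 1) * (phiT σ B (π i₀) x' - 1) = 0 := by rw [mul_sub, mul_one]; exact h3
        have h5 := eq_zero_of_units (hE i₀) (a := a) (fun c c' => by rw [mul_sub, sub_mul, hcommP (Ne.symm hj), mul_one, one_mul]) h4
        rw [← key, sub_eq_zero] at h5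
        apply hkn 1
        rw [one_smul]
        have h6 := congrArg (cj (st v 1)⁻¹) h5
        rwa [map_one, cj_inv_cj] at h6
      · rw [Matrix.single_mul_single_of_ne _ _ _ _ hqa, map_zero, sub_zero] at h3
        have h5 := eq_zero_of_units (hE i₀) (a := q.1) (fun c c' => hcommP (Ne.symm hj) _ _) h3
        rw [← key] at h5
        apply hkn 0
        rw [zero_smul]
        have h6 := congrArg (cj (st v 1)⁻¹) h5
        rwa [map_zero, cj_inv_cj] at h6
  obtain ⟨v, hv⟩ := exists_not_eigen hkn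
  have hv0 : v ≠ 0 := by
    rintro rfl
    rw [Matrix.mulVec_zero] at hv
    exact hv (Submodule.zero_mem _)
  exact hv (eigen_of_comm hv0 (hfix v hv0))

/-! ### Subfields -/

theorem not_le_subfield (hm : 1 ≤ m) {F₀ : Subfield F} (hF₀ : F₀ ≠ ⊤) (P : GL (Fin m ⊕ Fin m) F) :
    ¬ spGL m F ≤ subfieldSubgroup F₀ P := by
  intro hle
  obtain ⟨t, ht⟩ : ∃ t : F, t ∉ F₀ := by
    by_contra hcon
    push Not at hcon
    exact hF₀ (eq_top_iff.2 fun x _ => hcon x)
  let j : Fin m ⊕ Fin m := Sum.inl ⟨0, by omega⟩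
  let o : Fin m ⊕ Fin m := Sum.inr ⟨0, by omega⟩
  have hoj : o ≠ j := by simp [o, j]
  set v : Fin m ⊕ Fin m → F := (P : Matrix (Fin m ⊕ Fin m) (Fin m ⊕ Fin m) F) *ᵥ Pi.single j 1 with hv
  have hPv : ((P⁻¹ : GL (Fin m ⊕ Fin m) F) : Matrix (Fin m ⊕ Fin m) (Fin m ⊕ Fin m) F) *ᵥ v = Pi.single j 1 := by
    rw [hv, Matrix.mulVec_mulVec, gl_inv_mul, Matrix.one_mulVec]
  have hv0 : v ≠ 0 := by
    intro h
    rw [h, Matrix.mulVec_zero] at hPv
    have := congrFun hPv j
    simp at this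
  -- a coordinate vector not orthogonal to v
  obtain ⟨i, hi⟩ : ∃ i, sympForm m F v ((P : Matrix (Fin m ⊕ Fin m) (Fin m ⊕ Fin m) F) *ᵥ Pi.single i 1) ≠ 0 := by
    by_contra hcon
    push Not at hcon
    obtain ⟨y, hy⟩ := exists_pair hv0
    have h1 : wv v ᵥ* (P : Matrix (Fin m ⊕ Fin m) (Fin m ⊕ Fin m) F) = 0 := by
      funext i
      have h2 := hcon i
      rw [← wv_dot, Matrix.dotProduct_mulVec, dotProduct_single, mul_one] at h2
      exact h2
    have h3 : wv v ⬝ᵥ y = 0 := by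
      have : y = (P : Matrix (Fin m ⊕ Fin m) (Fin m ⊕ Fin m) F) *ᵥ (((P⁻¹ : GL (Fin m ⊕ Fin m) F) : Matrix (Fin m ⊕ Fin m) (Fin m ⊕ Fin m) F) *ᵥ y) := by
        rw [Matrix.mulVec_mulVec, gl_mul_inv, Matrix.one_mulVec]
      rw [this, Matrix.dotProduct_mulVec, h1, zero_dotProduct]
    rw [wv_dot, hy] at h3
    exact one_ne_zero h3
  set f₀ := sympForm m F v ((P : Matrix (Fin m ⊕ Fin m) (Fin m ⊕ Fin m) F) *ᵥ Pi.single i 1) with hf₀
  have hij : i ≠ j := by
    rintro rfl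
    exact hi (sp_self v)
  set T : GL (Fin m ⊕ Fin m) F := st v (t * f₀⁻¹) with hT
  obtain ⟨c, a, hca⟩ := AschDescent.mem_subfieldSubgroup.1 (hle (st_mem v (t * f₀⁻¹)))
  have h3 : ((P⁻¹ : GL (Fin m ⊕ Fin m) F) : Matrix (Fin m ⊕ Fin m) (Fin m ⊕ Fin m) F) * (T : Matrix (Fin m ⊕ Fin m) (Fin m ⊕ Fin m) F) *
      (P : Matrix (Fin m ⊕ Fin m) (Fin m ⊕ Fin m) F) = (c : F) • ((a : Matrix (Fin m ⊕ Fin m) (Fin m ⊕ Fin m) F₀).map F₀.subtype) := by
    rw [hT, hca, Matrix.mul_smul, Matrix.smul_mul]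
    congr 1
    simp only [← Matrix.mul_assoc]
    rw [gl_inv_mul, one_mul, Matrix.mul_assoc, gl_inv_mul, mul_one]
  have h4 : ∀ (l : Fin m ⊕ Fin m), (((P⁻¹ : GL (Fin m ⊕ Fin m) F) : Matrix (Fin m ⊕ Fin m) (Fin m ⊕ Fin m) F) * (T : Matrix (Fin m ⊕ Fin m) (Fin m ⊕ Fin m) F) *
      (P : Matrix (Fin m ⊕ Fin m) (Fin m ⊕ Fin m) F)) *ᵥ Pi.single l 1 = Pi.single l 1 + ((t * f₀⁻¹) * sympForm m F v ((P : Matrix (Fin m ⊕ Fin m) (Fin m ⊕ Fin m) F) *ᵥ Pi.single l 1)) • Pi.single j 1 := by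
    intro l
    rw [← Matrix.mulVec_mulVec, ← Matrix.mulVec_mulVec, hT, st_mulVec, Matrix.mulVec_add, Matrix.mulVec_smul, hPv, Matrix.mulVec_mulVec,
      gl_inv_mul, Matrix.one_mulVec]
  have h6 := congrFun (h4 o) o
  have h7 := congrFun (h4 i) j
  rw [h3, Matrix.mulVec_single_one] at h6 h7
  simp only [Matrix.col_apply, Matrix.smul_apply, Matrix.map_apply, smul_eq_mul, Pi.add_apply, Pi.smul_apply, Pi.single_eq_same,
    Pi.single_eq_of_ne hoj, mul_zero, add_zero, Pi.single_eq_of_ne hij.symm, zero_add, mul_one, ← hf₀] at h6 h7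
  rw [mul_assoc, inv_mul_cancel₀ hi, mul_one] at h7
  have hc : (c : F) ∈ F₀ := by
    have h8 : (c : F) = ((a o o : F₀) : F)⁻¹ := by
      have h9 : ((a o o : F₀) : F) ≠ 0 := by
        intro h0
        have h6' : (c : F) * ((a o o : F₀) : F) = 1 := h6
        rw [h0, mul_zero] at h6'
        exact zero_ne_one h6'
      exact eq_inv_of_mul_eq_one_left h6
    rw [h8]
    exact F₀.inv_mem (a o o).2
  apply ht
  rw [← h7]
  exact F₀.mul_mem hc (a j i).2

/-! ### Quadratic forms -/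

theorem not_le_quad (hm : 2 ≤ m) {Q : (Fin m ⊕ Fin m → F) → F} (hQ : IsNondegenerateQuadraticForm Q)
    (hpol : ∀ u v, QuadraticMap.polar Q u v = sympForm m F u v) : ¬ spGL m F ≤ quadSimilarityGroup Q := by
  intro hle
  have hadd : ∀ u v, Q (u + v) = Q u + Q v + sympForm m F u v := by
    intro u v
    rw [← hpol, QuadraticMap.polar]; ring
  have key : ∀ v : Fin m ⊕ Fin m → F, v ≠ 0 → Q v = 1 := by
    intro v hv
    obtain ⟨c, hc⟩ := hle (st_mem v 1)
    obtain ⟨y, hy⟩ := exists_pair hv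
    have hc1 : (c : F) = 1 := by
      have h1 := hc (v + y)
      rw [Matrix.mulVec_add, hadd, hadd, hc v, hc y] at h1
      have h2 : sympForm m F ((st v 1 : GL (Fin m ⊕ Fin m) F) *ᵥ v) ((st v 1 : GL (Fin m ⊕ Fin m) F) *ᵥ y) = sympForm m F v y := st_mem v 1 v y
      rw [h2, hy] at h1
      linear_combination -h1
    have h1 := hc y
    rw [st_mulVec, hy, hadd, hc1, mul_one, one_smul, one_mul, sp_swap, hy] at h1
    linear_combination h1
  let u : Fin m ⊕ Fin m → F := Pi.single (Sum.inl ⟨0, by omega⟩) 1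
  let w : Fin m ⊕ Fin m → F := Pi.single (Sum.inl ⟨1, by omega⟩) 1
  have hu : u ≠ 0 := by
    intro h
    have := congrFun h (Sum.inl ⟨0, by omega⟩)
    simp [u] at this
  have hw : w ≠ 0 := by
    intro h
    have := congrFun h (Sum.inl ⟨1, by omega⟩)
    simp [w] at this
  have huw : u + w ≠ 0 := by
    intro h
    have := congrFun h (Sum.inl ⟨0, by omega⟩)
    simp [u, w] at this
  have hf : sympForm m F u w = 0 := by
    rw [SympAux.sympForm_eq]
    apply Finset.sum_eq_zero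
    intro i _
    simp [u, w]
  have h := hadd u w
  rw [key _ hu, key _ hw, key _ huw, hf, add_zero] at h
  exact one_ne_zero (show (1 : F) = 0 by linear_combination -h)

/-! ### Normalisers of 2-groups -/

lemma st_mul (v : Fin m ⊕ Fin m → F) (a b : F) : st v a * st v b = st v (a + b) := by
  apply gl_ext
  intro x
  rw [Units.val_mul, ← Matrix.mulVec_mulVec, st_mulVec, st_mulVec, st_mulVec, SympAux.sympForm_add_right, SympAux.sympForm_smul_right, sp_self,
    mul_zero, add_zero, add_mul, add_smul]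
  abel

lemma st_zero (v : Fin m ⊕ Fin m → F) : st v (0 : F) = 1 := by
  apply gl_ext
  intro x
  rw [st_mulVec, zero_mul, zero_smul, add_zero, Units.val_one, Matrix.one_mulVec]

lemma st_pow (v : Fin m ⊕ Fin m → F) (a : F) (n : ℕ) : st v a ^ n = st v (n * a) := by
  induction n with
  | zero => rw [pow_zero, Nat.cast_zero, zero_mul, st_zero]
  | succ n ih => rw [pow_succ, ih, st_mul]; congr 1; push_cast; ring

lemma st_comm {u v : Fin m ⊕ Fin m → F} (h : sympForm m F u v = 0) (a b : F) : st u a * st v b = st v b * st u a := by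
  apply gl_ext
  intro x
  rw [Units.val_mul, Units.val_mul, ← Matrix.mulVec_mulVec, ← Matrix.mulVec_mulVec]
  simp only [st_mulVec, SympAux.sympForm_add_right, SympAux.sympForm_smul_right, h, sp_swap v u, neg_zero, mul_zero, add_zero]
  abel

lemma st_conj {g : GL (Fin m ⊕ Fin m) F} (hg : g ∈ spGL m F) (v : Fin m ⊕ Fin m → F) (a : F) :
    g * st v a * g⁻¹ = st ((g : Matrix (Fin m ⊕ Fin m) (Fin m ⊕ Fin m) F) *ᵥ v) a := by
  apply gl_ext
  intro x
  have h1 : sympForm m F ((g : Matrix (Fin m ⊕ Fin m) (Fin m ⊕ Fin m) F) *ᵥ v) x = sympForm m F v (((g⁻¹ : GL (Fin m ⊕ Fin m) F) : Matrix (Fin m ⊕ Fin m) (Fin m ⊕ Fin m) F) *ᵥ x) := by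
    have h2 : sympForm m F ((g : Matrix (Fin m ⊕ Fin m) (Fin m ⊕ Fin m) F) *ᵥ v) ((g : Matrix (Fin m ⊕ Fin m) (Fin m ⊕ Fin m) F) *ᵥ (((g⁻¹ : GL (Fin m ⊕ Fin m) F) : Matrix (Fin m ⊕ Fin m) (Fin m ⊕ Fin m) F) *ᵥ x)) = _ := hg v _
    rw [← h2, Matrix.mulVec_mulVec _ (g : Matrix (Fin m ⊕ Fin m) (Fin m ⊕ Fin m) F), gl_mul_inv, Matrix.one_mulVec]
  rw [Units.val_mul, Units.val_mul, ← Matrix.mulVec_mulVec, ← Matrix.mulVec_mulVec, st_mulVec, st_mulVec, Matrix.mulVec_add, Matrix.mulVec_smul,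
    Matrix.mulVec_mulVec, gl_mul_inv, Matrix.one_mulVec, h1]

lemma two_ne {ι' : Type} [Fintype ι'] [DecidableEq ι'] [Nonempty ι'] (h2 : (2 : F) ≠ 0) (g : GL ι' F) : g ≠ -g := by
  intro h
  have h1 : (g : Matrix ι' ι' F) = -(g : Matrix ι' ι' F) := by
    conv_lhs => rw [h]
    rw [Units.val_neg]
  have h3 : (2 : F) • (g : Matrix ι' ι' F) = 0 := by
    rw [two_smul]
    nth_rewrite 1 [h1]
    exact neg_add_cancel _
  exact g.ne_zero ((smul_eq_zero.1 h3).resolve_left h2)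

theorem not_le_normalizer [Fintype F] (hm : 2 ≤ m) (hodd : Odd (Fintype.card F)) {R : Subgroup (GL (Fin m ⊕ Fin m) F)}
    (hR : IsSymplecticTypeGroup 2 R) (hRI : R ≤ spGL m F) (hcard : 8 < Nat.card R) :
    ¬ spGL m F ≤ subgroupNormalizer R := by
  classical
  intro hle
  haveI : Nonempty (Fin m ⊕ Fin m) := ⟨Sum.inl ⟨0, by omega⟩⟩
  have h2 := two_ne_of_odd hodd
  obtain ⟨p, hchar⟩ := CharP.exists F
  obtain ⟨e, hp, hpcard⟩ := FiniteField.card F p
  have hpodd : p ≠ 2 := by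
    rintro rfl
    apply h2
    have : ((2 : ℕ) : F) = 0 := (CharP.cast_eq_zero_iff F 2 2).2 dvd_rfl
    exact_mod_cast this
  have hexp : ∀ x ∈ R, x ^ 4 = 1 := by
    intro x hx
    have h3 : Monoid.exponent R = 4 := by
      have := hR.exponent_eq
      rwa [show Nat.gcd 2 2 = 2 by rfl] at this
    have h4 : (⟨x, hx⟩ : R) ^ 4 = 1 := by rw [← h3]; exact Monoid.pow_exponent_eq_one _
    exact congrArg Subtype.val h4
  -- involutions are scalar
  have hinv : ∀ x ∈ R, x ^ 2 = 1 → x = 1 ∨ x = -1 := by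
    intro x hx hx2
    have hxx : (x : Matrix (Fin m ⊕ Fin m) (Fin m ⊕ Fin m) F) * (x : Matrix (Fin m ⊕ Fin m) (Fin m ⊕ Fin m) F) = 1 := by
      rw [← Units.val_mul, ← pow_two, hx2, Units.val_one]
    have horth : ∀ v, sympForm m F v ((x : Matrix (Fin m ⊕ Fin m) (Fin m ⊕ Fin m) F) *ᵥ v) = 0 := by
      intro v
      have h3 : sympForm m F ((x : Matrix (Fin m ⊕ Fin m) (Fin m ⊕ Fin m) F) *ᵥ v) ((x : Matrix (Fin m ⊕ Fin m) (Fin m ⊕ Fin m) F) *ᵥ ((x : Matrix (Fin m ⊕ Fin m) (Fin m ⊕ Fin m) F) *ᵥ v)) =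
        sympForm m F v ((x : Matrix (Fin m ⊕ Fin m) (Fin m ⊕ Fin m) F) *ᵥ v) := hRI hx v _
      rw [Matrix.mulVec_mulVec, hxx, Matrix.one_mulVec, sp_swap] at h3
      have h4 : (2 : F) * sympForm m F v ((x : Matrix (Fin m ⊕ Fin m) (Fin m ⊕ Fin m) F) *ᵥ v) = 0 := by linear_combination -h3
      exact (mul_eq_zero.1 h4).resolve_left h2
    have hfix : ∀ v : Fin m ⊕ Fin m → F, v ≠ 0 → cj (st v 1) (x : Matrix (Fin m ⊕ Fin m) (Fin m ⊕ Fin m) F) = x := by
      intro v hv
      have hmem : st v 1 * x * (st v 1)⁻¹ ∈ R := ((Subgroup.mem_normalizer_iff.1 (hle (st_mem v 1))) x).1 hx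
      set z := st v 1 * x * (st v 1)⁻¹ * x⁻¹ with hz
      have hzR : z ∈ R := R.mul_mem hmem (R.inv_mem hx)
      have hz1 : z = st v 1 * (st ((x : Matrix (Fin m ⊕ Fin m) (Fin m ⊕ Fin m) F) *ᵥ v) 1)⁻¹ := by
        rw [← st_conj (hRI hx), hz]; group
      have hzp : z ^ p = 1 := by
        have hco : Commute (st v 1) (st ((x : Matrix (Fin m ⊕ Fin m) (Fin m ⊕ Fin m) F) *ᵥ v) 1)⁻¹ :=
          (show Commute (st v 1) (st ((x : Matrix (Fin m ⊕ Fin m) (Fin m ⊕ Fin m) F) *ᵥ v) 1) from st_comm (horth v) 1 1).inv_right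
        rw [hz1, hco.mul_pow, inv_pow, st_pow, st_pow, mul_one, CharP.cast_eq_zero, st_zero, st_zero, inv_one, mul_one]
      have hz4 := hexp z hzR
      have hcop : Nat.Coprime p 4 := by
        have : Nat.Coprime p 2 := (Nat.coprime_primes hp Nat.prime_two).2 hpodd
        exact Nat.Coprime.pow_right 2 this
      have hz0 : z = 1 := by
        rw [← orderOf_eq_one_iff]
        exact Nat.eq_one_of_dvd_coprimes hcop (orderOf_dvd_of_pow_eq_one hzp) (orderOf_dvd_of_pow_eq_one hz4)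
      have h5 : st v 1 * x * (st v 1)⁻¹ = x := by
        rw [hz, mul_inv_eq_one] at hz0
        exact hz0
      rw [cj_apply, ← Units.val_mul, ← Units.val_mul, h5]
    have hsc : ∃ c : F, (x : Matrix (Fin m ⊕ Fin m) (Fin m ⊕ Fin m) F) = c • 1 := by
      by_contra hcon
      push Not at hcon
      obtain ⟨v, hv⟩ := exists_not_eigen hcon
      have hv0 : v ≠ 0 := by
        rintro rfl
        rw [Matrix.mulVec_zero] at hv
        exact hv (Submodule.zero_mem _)
      exact hv (eigen_of_comm hv0 (hfix v hv0))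
    obtain ⟨c, hc⟩ := hsc
    have hc0 : c ≠ 0 := by
      rintro rfl
      rw [zero_smul] at hc
      exact x.ne_zero hc
    exact AschExtra.scalar_sq_one ((mem_scalars_iff x).2 ⟨Units.mk0 c hc0, hc⟩) hx2
  -- the squares
  have hsq : ∀ x ∈ R, ¬ (x = 1 ∨ x = -1) → x * x = -1 := by
    intro x hx hne
    have h3 : (x ^ 2) ^ 2 = 1 := by rw [← pow_mul]; exact hexp x hx
    rcases hinv _ (R.pow_mem hx 2) h3 with h4 | h4
    · exact absurd (hinv x hx h4) hne
    · rw [← pow_two]; exact h4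
  have hanti : ∀ x ∈ R, ∀ y ∈ R, ¬ (x = 1 ∨ x = -1) → ¬ (y = 1 ∨ y = -1) → ¬ (y = x ∨ y = -x) → y * x = -(x * y) := by
    intro x hx y hy hx1 hy1 hxy
    have hxs := hsq x hx hx1
    have hys := hsq y hy hy1
    have hxi : x⁻¹ = -x := inv_eq_of_mul_eq_one_right (by rw [mul_neg, hxs, neg_neg])
    have hyi : y⁻¹ = -y := inv_eq_of_mul_eq_one_right (by rw [mul_neg, hys, neg_neg])
    have hxy1 : ¬ (x * y = 1 ∨ x * y = -1) := by
      rintro (h | h)
      · apply hxy; right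
        rw [← hxi]; exact (eq_inv_of_mul_eq_one_right h)
      · apply hxy; left
        have : x * (-y) = 1 := by rw [mul_neg, h, neg_neg]
        have h5 := eq_inv_of_mul_eq_one_right this
        rw [hxi] at h5
        exact neg_injective h5
    have h3 := hsq _ (R.mul_mem hx hy) hxy1
    -- x y x y = -1
    have h4 : y * x = x⁻¹ * (x * y * (x * y)) * y⁻¹ := by group
    rw [h4, h3, hxi, hyi]
    simp
  -- choose elements
  have hch : ∀ S : Finset (GL (Fin m ⊕ Fin m) F), S.card ≤ 8 → ∃ z ∈ R, z ∉ S := by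
    intro S hS
    by_contra hcon
    push Not at hcon
    have h3 : Nat.card R ≤ S.card := by
      have : (R : Set (GL (Fin m ⊕ Fin m) F)) ⊆ (S : Set (GL (Fin m ⊕ Fin m) F)) := fun z hz => hcon z hz
      have h4 := Set.ncard_le_ncard this S.finite_toSet
      rwa [Set.ncard_coe_finset, ← Nat.card_coe_set_eq] at h4
    omega
  obtain ⟨x, hx, hx1⟩ := hch {1, -1} ((Finset.card_le_two).trans (by norm_num))
  obtain ⟨y, hy, hy1⟩ := hch {1, -1, x, -x} ((Finset.card_le_four).trans (by norm_num))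
  obtain ⟨z, hz, hz1⟩ := hch ({1, -1, x, -x} ∪ {y, -y, x * y, -(x * y)})
    ((Finset.card_union_le _ _).trans (by
      have h3 := Finset.card_le_four (a := (1 : GL (Fin m ⊕ Fin m) F)) (b := -1) (c := x) (d := -x)
      have h4 := Finset.card_le_four (a := y) (b := -y) (c := x * y) (d := -(x * y))
      omega))
  simp only [Finset.mem_insert, Finset.mem_singleton, Finset.mem_union, not_or] at hx1 hy1 hz1
  obtain ⟨⟨hz1, hz2, hz3, hz4⟩, hz5, hz6, hz7, hz8⟩ := hz1
  obtain ⟨hy1, hy2, hy3, hy4⟩ := hy1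
  have hxn : ¬ (x = 1 ∨ x = -1) := by rintro (h | h); exacts [hx1.1 h, hx1.2 h]
  have hyn : ¬ (y = 1 ∨ y = -1) := by rintro (h | h); exacts [hy1 h, hy2 h]
  have hzn : ¬ (z = 1 ∨ z = -1) := by rintro (h | h); exacts [hz1 h, hz2 h]
  have hxyn : ¬ (x * y = 1 ∨ x * y = -1) := by
    have hxs := hsq x hx hxn
    have hxi : x⁻¹ = -x := inv_eq_of_mul_eq_one_right (by rw [mul_neg, hxs, neg_neg])
    rintro (h | h)
    · apply hy4; rw [← hxi]; exact (eq_inv_of_mul_eq_one_right h)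
    · apply hy3
      have : x * (-y) = 1 := by rw [mul_neg, h, neg_neg]
      have h5 := eq_inv_of_mul_eq_one_right this
      rw [hxi] at h5
      exact neg_injective h5
  have a1 := hanti x hx z hz hxn hzn (by rintro (h | h); exacts [hz3 h, hz4 h])
  have a2 := hanti y hy z hz hyn hzn (by rintro (h | h); exacts [hz5 h, hz6 h])
  have a3 := hanti (x * y) (R.mul_mem hx hy) z hz hxyn hzn (by rintro (h | h); exacts [hz7 h, hz8 h])
  have a4 : z * (x * y) = x * y * z := by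
    rw [← mul_assoc, a1, neg_mul, mul_assoc, a2, mul_neg, neg_neg, mul_assoc]
  rw [a4] at a3
  exact two_ne h2 _ a3

end Cfsg.Agent.Lib.SpNot
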