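import Cfsg.Agent.Lib.AschSp9
import Cfsg.Agent.Lib.SpNot
import Cfsg.Agent.Lib.SpMax
set_option autoImplicit false
set_option linter.style.haveILetI false
set_option linter.unusedVariables false
set_option linter.unusedSectionVars false

/-!
Maximal subgroups of the symplectic groups: two exceptional containments (fields with two and three elements).
-/

namespace Cfsg.Agent.Lib.AschSp

open Cfsg Cfsg.Geo Cfsg.Agent.Lib.AschMU Cfsg.Agent.Lib.AschCore Cfsg.Agent.Lib.AschField Cfsg.Agent.Lib.AschAlg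
  Cfsg.Agent.Lib.AschGroup Cfsg.Agent.Lib.AschGood Cfsg.Agent.Lib.AschAdj Cfsg.Agent.Lib.AschNonab Cfsg.Agent.Lib.AschTensor
  Cfsg.Agent.Lib.AschComp
open scoped Matrix MatrixGroups Kronecker

section two
variable {F : Type*} [Field F] [Fintype F] {m : ℕ}

lemma eq_zero_or_one (hF : Fintype.card F = 2) (x : F) : x = 0 ∨ x = 1 := by
  classical
  by_contra hcon
  push Not at hcon
  have h1 : ({0, 1, x} : Finset F).card ≤ Fintype.card F := Finset.card_le_univ _
  rw [Finset.card_insert_of_notMem (by simp [hcon.1.symm]), Finset.card_insert_of_notMem (by simp [hcon.2.symm]),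
    Finset.card_singleton, hF] at h1
  omega

/-- Over the field with two elements, a decomposition into non-degenerate planes preserves a quadratic form. -/
theorem spcase_planes (hF : Fintype.card F = 2) {H : Subgroup (GL (Fin m ⊕ Fin m) F)} (hI : H ≤ spGL m F) {t : ℕ}
    {D : Fin t → Submodule F (Fin m ⊕ Fin m → F)} (hD : IsNondegenerateMDecomposition (sympForm m F) 2 D) (hle : H ≤ decompositionStabilizer D) :
    ∃ Q : (Fin m ⊕ Fin m → F) → F, ¬ Odd (Fintype.card F) ∧ IsNondegenerateQuadraticForm Q ∧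
      (∀ u v, QuadraticMap.polar Q u v = sympForm m F u v) ∧ H ≤ quadSimilarityGroup Q := by
  classical
  have h01 := eq_zero_or_one hF
  have h2 : (2 : F) = 0 := two_eq_of_even (by rw [hF]; decide)
  obtain ⟨π, hπD, hπid, hπ0, hπs⟩ := SpMax.exists_comps hD.decomp.indep hD.decomp.iSup_eq_top
  let χ : (Fin m ⊕ Fin m → F) → F := fun v => if v = 0 then 0 else 1
  let Q : (Fin m ⊕ Fin m → F) → F := fun v => ∑ i, χ (π i v)
  have hχ0 : χ 0 = 0 := if_pos rfl
  have hχ1 : ∀ v, v ≠ 0 → χ v = 1 := fun v hv => if_neg hv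
  -- the form on a plane
  have hloc : ∀ i, ∀ a ∈ D i, ∀ b ∈ D i, χ (a + b) = χ a + χ b + sympForm m F a b := by
    intro i a ha b hb
    by_cases ha0 : a = 0
    · subst ha0
      rw [zero_add, hχ0, zero_add]
      have : sympForm m F 0 b = 0 := by
        have := SympAux.sympForm_smul_left (F := F) (m := m) 0 b b
        rw [zero_smul, zero_mul] at this
        exact this
      rw [this, add_zero]
    by_cases hb0 : b = 0
    · subst hb0
      rw [add_zero, hχ0, add_zero]
      have : sympForm m F a 0 = 0 := by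
        have := SympAux.sympForm_smul_right (F := F) (m := m) 0 a a
        rw [zero_smul, zero_mul] at this
        exact this
      rw [this, add_zero]
    by_cases hab : a = b
    · subst hab
      have : a + a = 0 := by rw [← two_smul F a, h2, zero_smul]
      rw [this, hχ0, hχ1 a ha0, sp_self]
      linear_combination -h2
    have hab0 : a + b ≠ 0 := by
      intro h
      apply hab
      have h3 := eq_neg_of_add_eq_zero_left h
      rw [h3]
      ext j
      exact neg_eq_of_two h2 _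
    have hf : sympForm m F a b = 1 := by
      rcases h01 (sympForm m F a b) with h | h
      swap
      · exact h
      exfalso
      -- a, b is a basis of D i
      have hli : LinearIndependent F ![a, b] := by
        rw [LinearIndependent.pair_iff]
        intro s t' hst
        rcases h01 s with rfl | rfl
        · rw [zero_smul, zero_add] at hst
          exact ⟨rfl, (smul_eq_zero.1 hst).resolve_right hb0⟩
        · rcases h01 t' with rfl | rfl
          · rw [one_smul, zero_smul, add_zero] at hst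
            exact absurd hst ha0
          · rw [one_smul, one_smul] at hst
            exact absurd hst hab0
      have hspan : Submodule.span F (Set.range ![a, b]) = D i := by
        apply Submodule.eq_of_le_of_finrank_eq
        · rw [Submodule.span_le]
          rintro _ ⟨j, rfl⟩
          fin_cases j
          · exact ha
          · exact hb
        · rw [finrank_span_eq_card hli, Fintype.card_fin, hD.decomp.finrank_eq]
      obtain ⟨-, x, hx, hx0⟩ := hD.nondegenerate i a ha ha0
      rw [← hspan] at hx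
      apply hx0
      clear hx0
      induction hx using Submodule.span_induction with
      | mem x hx =>
        obtain ⟨j, rfl⟩ := hx
        fin_cases j
        · exact sp_self a
        · exact h
      | zero =>
        have := SympAux.sympForm_smul_right (F := F) (m := m) 0 a a
        rw [zero_smul, zero_mul] at this
        exact this
      | add x y _ _ hx hy => rw [SympAux.sympForm_add_right, hx, hy, add_zero]
      | smul c x _ hx => rw [SympAux.sympForm_smul_right, hx, mul_zero]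
    rw [hχ1 _ hab0, hχ1 a ha0, hχ1 b hb0, hf]
    linear_combination -h2
  -- the polar form
  have hsum : ∀ u v, sympForm m F u v = ∑ i, sympForm m F (π i u) (π i v) := by
    intro u v
    have hr : ∀ (w : Fin m ⊕ Fin m → F) (x : Fin t → (Fin m ⊕ Fin m → F)), sympForm m F w (∑ i, x i) = ∑ i, sympForm m F w (x i) := by
      intro w x
      exact map_sum (SympAux.bform m F w) _ _
    have hl : ∀ (w : Fin m ⊕ Fin m → F) (x : Fin t → (Fin m ⊕ Fin m → F)), sympForm m F (∑ i, x i) w = ∑ i, sympForm m F (x i) w := by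
      intro w x
      rw [sp_swap, hr, ← Finset.sum_neg_distrib]
      exact Finset.sum_congr rfl fun i _ => (sp_swap _ _).symm
    conv_lhs => rw [← hπs u, ← hπs v]
    rw [hl]
    apply Finset.sum_congr rfl
    intro i _
    rw [hr, Finset.sum_eq_single i]
    · intro j _ hj
      exact hD.orthogonal i j (Ne.symm hj) _ (hπD i u) _ (hπD j v)
    · intro h; exact absurd (Finset.mem_univ i) h
  have hpol : ∀ u v, QuadraticMap.polar Q u v = sympForm m F u v := by
    intro u v
    rw [hsum, QuadraticMap.polar]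
    show ∑ i, χ (π i (u + v)) - ∑ i, χ (π i u) - ∑ i, χ (π i v) = _
    rw [← Finset.sum_sub_distrib, ← Finset.sum_sub_distrib]
    apply Finset.sum_congr rfl
    intro i _
    rw [map_add, hloc i _ (hπD i u) _ (hπD i v)]; ring
  have hpe : QuadraticMap.polar Q = sympForm m F := by funext u v; exact hpol u v
  refine ⟨Q, by rw [hF]; decide, ⟨?_, by rw [hpe]; exact sp_bilin, by rw [hpe]; exact sp_nondeg⟩, hpol, ?_⟩
  · intro c v
    rcases h01 c with rfl | rfl
    · show ∑ i, χ (π i ((0 : F) • v)) = _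
      have : ∀ i, χ (π i ((0 : F) • v)) = 0 := fun i => by rw [zero_smul, map_zero, hχ0]
      rw [Finset.sum_congr rfl fun i _ => this i, Finset.sum_const_zero]
      ring
    · rw [one_smul]; ring
  · intro g hg
    obtain ⟨σ, hσ⟩ := hle hg
    refine ⟨1, fun v => ?_⟩
    rw [Units.val_one, one_mul]
    have hmem : ∀ i, (g : Matrix (Fin m ⊕ Fin m) (Fin m ⊕ Fin m) F) *ᵥ (π i v) ∈ D (σ i) := by
      intro i
      rw [← hσ i]
      exact ⟨π i v, hπD i v, Matrix.toLin'_apply _ _⟩
    have hcomp : ∀ i, π (σ i) ((g : Matrix (Fin m ⊕ Fin m) (Fin m ⊕ Fin m) F) *ᵥ v) = (g : Matrix (Fin m ⊕ Fin m) (Fin m ⊕ Fin m) F) *ᵥ (π i v) := by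
      intro i
      have h3 : (g : Matrix (Fin m ⊕ Fin m) (Fin m ⊕ Fin m) F) *ᵥ v = ∑ k, (g : Matrix (Fin m ⊕ Fin m) (Fin m ⊕ Fin m) F) *ᵥ (π k v) := by
        conv_lhs => rw [← hπs v]
        rw [Matrix.mulVec_sum]
      rw [h3, map_sum, Finset.sum_eq_single i]
      · exact hπid _ _ (hmem i)
      · intro k _ hk
        exact hπ0 (σ k) (σ i) (fun h => hk (σ.injective h)) _ (hmem k)
      · intro h; exact absurd (Finset.mem_univ i) h
    show ∑ i, χ (π i ((g : Matrix (Fin m ⊕ Fin m) (Fin m ⊕ Fin m) F) *ᵥ v)) = ∑ i, χ (π i v)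
    rw [← Equiv.sum_comp σ]
    apply Finset.sum_congr rfl
    intro i _
    rw [hcomp]
    by_cases h0 : π i v = 0
    · rw [h0, Matrix.mulVec_zero]
    · rw [hχ1 _ h0, hχ1]
      intro h
      apply h0
      have h3 := congrArg (fun z => ((g⁻¹ : GL (Fin m ⊕ Fin m) F) : Matrix (Fin m ⊕ Fin m) (Fin m ⊕ Fin m) F) *ᵥ z) h
      simpa only [Matrix.mulVec_mulVec, gl_inv_mul, Matrix.one_mulVec, Matrix.mulVec_zero] using h3

end two

section three
variable {F : Type*} [Field F] [Fintype F] {m : ℕ}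

lemma three_cases (hF : Fintype.card F = 3) (x : F) : x = 0 ∨ x = 1 ∨ x = -1 := by
  classical
  have h2 : (2 : F) ≠ 0 := two_ne_of_odd (by rw [hF]; decide)
  by_contra hcon
  push Not at hcon
  have h11 : (1 : F) ≠ -1 := by
    intro h; apply h2; linear_combination h
  have h1 : ({0, 1, -1, x} : Finset F).card ≤ Fintype.card F := Finset.card_le_univ _
  rw [Finset.card_insert_of_notMem (by simp [hcon.1.symm]), Finset.card_insert_of_notMem (by simp [hcon.2.1.symm, h11]),
    Finset.card_insert_of_notMem (by simp [hcon.2.2.symm]), Finset.card_singleton, hF] at h1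
  omega

lemma three_eq_zero (hF : Fintype.card F = 3) : (3 : F) = 0 := by
  have : (Fintype.card F : F) = 0 := Nat.cast_card_eq_zero F
  rw [hF] at this
  exact_mod_cast this

/-- Over the field with three elements, two orthogonal vectors of norm `a` and one of norm `b` give three orthogonal vectors of the same norm. -/
lemma frame_of (hF : Fintype.card F = 3) {ι : Type} [Fintype ι] [DecidableEq ι] {G : Matrix ι ι F} (hG : Gᵀ = G) {x y z : ι → F} {a b : F}
    (ha : a ≠ 0) (hb : b ≠ 0) (hx : bf (RingEquiv.refl F) G x x = a) (hy : bf (RingEquiv.refl F) G y y = a) (hz : bf (RingEquiv.refl F) G z z = b)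
    (hxy : bf (RingEquiv.refl F) G x y = 0) (hxz : bf (RingEquiv.refl F) G x z = 0) (hyz : bf (RingEquiv.refl F) G y z = 0) :
    ∃ (u : Fin 3 → ι → F) (ε : F), ε ≠ 0 ∧ ∀ i j, bf (RingEquiv.refl F) G (u i) (u j) = if i = j then ε else 0 := by
  have h3 := three_eq_zero hF
  have hsymm : ∀ v w : ι → F, bf (RingEquiv.refl F) G v w = bf (RingEquiv.refl F) G w v := by
    intro v w
    rw [bf_rf, bf_rf, Matrix.dotProduct_mulVec w G v, ← Matrix.mulVec_transpose, hG, dotProduct_comm]
  by_cases hab : a = b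
  · subst hab
    refine ⟨![x, y, z], a, ha, ?_⟩
    intro i j
    fin_cases i <;> fin_cases j <;> simp [hx, hy, hz, hxy, hxz, hyz, hsymm y x, hsymm z x, hsymm z y]
  · have hba : b = -a := by
      rcases three_cases hF a with h | h | h <;> rcases three_cases hF b with h' | h' | h'
      all_goals first | exact absurd h ha | exact absurd h' hb | exact absurd (h.trans h'.symm) hab | (rw [h, h'] ; done) | (rw [h, h', neg_neg])
    refine ⟨![x + y, x - y, z], b, hb, ?_⟩
    have e1 : bf (RingEquiv.refl F) G (x + y) (x + y) = b := by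
      rw [bf_add_left, bf_add_right, bf_add_right, hx, hy, hxy, hsymm y x, hxy, hba]; linear_combination a * h3
    have hsub : ∀ u v w : ι → F, bf (RingEquiv.refl F) G u (v - w) = bf (RingEquiv.refl F) G u v - bf (RingEquiv.refl F) G u w := by
      intro u v w
      rw [bf_rf, bf_rf, bf_rf, Matrix.mulVec_sub, dotProduct_sub]
    have hsub' : ∀ u v w : ι → F, bf (RingEquiv.refl F) G (v - w) u = bf (RingEquiv.refl F) G v u - bf (RingEquiv.refl F) G w u := by
      intro u v w
      rw [bf_rf, bf_rf, bf_rf, sub_dotProduct]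
    have e2 : bf (RingEquiv.refl F) G (x - y) (x - y) = b := by
      rw [hsub', hsub, hsub, hx, hy, hxy, hsymm y x, hxy, hba]; linear_combination a * h3
    have e3 : bf (RingEquiv.refl F) G (x + y) (x - y) = 0 := by
      rw [bf_add_left, hsub, hsub, hx, hy, hxy, hsymm y x, hxy]; ring
    have e4 : bf (RingEquiv.refl F) G (x + y) z = 0 := by rw [bf_add_left, hxz, hyz, add_zero]
    have e5 : bf (RingEquiv.refl F) G (x - y) z = 0 := by rw [hsub', hxz, hyz, sub_zero]
    intro i j
    fin_cases i <;> fin_cases j <;> simp [e1, e2, hz, e3, e4, e5, hsymm (x - y) (x + y), hsymm z (x + y), hsymm z (x - y)]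

/-- A symmetric form on `F_3^3` is proportional to a form with an orthonormal basis. -/
lemma exists_frame (hF : Fintype.card F = 3) {G : Matrix (Fin 3) (Fin 3) F} (hG : Gᵀ = G) (hu : IsUnit G) :
    ∃ (U : GL (Fin 3) F) (ε : F), ε ≠ 0 ∧ gr (RingEquiv.refl F) G U = ε • 1 := by
  classical
  have h2 : (2 : F) ≠ 0 := two_ne_of_odd (by rw [hF]; decide)
  have hsymm : ∀ v w : Fin 3 → F, bf (RingEquiv.refl F) G v w = bf (RingEquiv.refl F) G w v := by
    intro v w
    rw [bf_rf, bf_rf, Matrix.dotProduct_mulVec w G v, ← Matrix.mulVec_transpose, hG, dotProduct_comm]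
  have hnd : IsNondegenerateForm (bf (RingEquiv.refl F) G) := (symm_form hu hG).nondegenerate
  let B : LinearMap.BilinForm F (Fin 3 → F) := LinearMap.mk₂ F (bf (RingEquiv.refl F) G) (fun _ _ _ => bf_add_left _ _ _) (fun _ _ _ => bf_smul_left _ _ _)
    (fun _ _ _ => bf_add_right _ _ _) (fun _ _ _ => bf_smul_right _ _ _)
  have hB : ∀ v w, B v w = bf (RingEquiv.refl F) G v w := fun _ _ => rfl
  haveI : Invertible (2 : F) := invertibleOfNonzero h2
  have hBs : LinearMap.IsSymm B := ⟨fun v w => hsymm v w⟩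
  obtain ⟨v, hv⟩ := LinearMap.BilinForm.exists_orthogonal_basis hBs
  have hcard : Module.finrank F (Fin 3 → F) = 3 := by rw [Module.finrank_fintype_fun_eq_card, Fintype.card_fin]
  let w : Module.Basis (Fin 3) F (Fin 3 → F) := v.reindex (finCongr hcard)
  have hw : ∀ i j, i ≠ j → bf (RingEquiv.refl F) G (w i) (w j) = 0 := by
    intro i j hij
    have h1 : (finCongr hcard).symm i ≠ (finCongr hcard).symm j := fun h => hij ((finCongr hcard).symm.injective h)
    have h3 := hv h1
    show bf (RingEquiv.refl F) G (v.reindex (finCongr hcard) i) (v.reindex (finCongr hcard) j) = 0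
    rw [Module.Basis.reindex_apply, Module.Basis.reindex_apply]
    exact h3
  have hww : ∀ i, bf (RingEquiv.refl F) G (w i) (w i) ≠ 0 := by
    intro i h0
    obtain ⟨-, x, hx⟩ := hnd (w i) (w.ne_zero i)
    apply hx
    have h1 : B (w i) = 0 := by
      apply w.ext
      intro j
      rw [LinearMap.zero_apply]
      by_cases hij : i = j
      · subst hij; exact h0
      · exact hw i j hij
    rw [← hB, h1, LinearMap.zero_apply]
  obtain ⟨u, ε, hε, hu'⟩ : ∃ (u : Fin 3 → Fin 3 → F) (ε : F), ε ≠ 0 ∧ ∀ i j, bf (RingEquiv.refl F) G (u i) (u j) = if i = j then ε else 0 := by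
    have key : ∀ i j k : Fin 3, i ≠ j → i ≠ k → j ≠ k → bf (RingEquiv.refl F) G (w i) (w i) = bf (RingEquiv.refl F) G (w j) (w j) →
        ∃ (u : Fin 3 → Fin 3 → F) (ε : F), ε ≠ 0 ∧ ∀ i j, bf (RingEquiv.refl F) G (u i) (u j) = if i = j then ε else 0 := by
      intro i j k hij hik hjk h
      exact frame_of hF hG (hww i) (hww k) rfl h.symm rfl (hw i j hij) (hw i k hik) (hw j k hjk)
    by_cases h01 : bf (RingEquiv.refl F) G (w 0) (w 0) = bf (RingEquiv.refl F) G (w 1) (w 1)
    · exact key 0 1 2 (by decide) (by decide) (by decide) h01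
    by_cases h02 : bf (RingEquiv.refl F) G (w 0) (w 0) = bf (RingEquiv.refl F) G (w 2) (w 2)
    · exact key 0 2 1 (by decide) (by decide) (by decide) h02
    refine key 1 2 0 (by decide) (by decide) (by decide) ?_
    have a0 := (three_cases hF (bf (RingEquiv.refl F) G (w 0) (w 0))).resolve_left (hww 0)
    have a1 := (three_cases hF (bf (RingEquiv.refl F) G (w 1) (w 1))).resolve_left (hww 1)
    have a2 := (three_cases hF (bf (RingEquiv.refl F) G (w 2) (w 2))).resolve_left (hww 2)
    rcases a0 with a0 | a0 <;> rcases a1 with a1 | a1 <;> rcases a2 with a2 | a2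
    all_goals first | exact absurd (a0.trans a1.symm) h01 | exact absurd (a0.trans a2.symm) h02 | exact a1.trans a2.symm
  let M : Matrix (Fin 3) (Fin 3) F := Matrix.of fun i j => u j i
  have hM : Mᵀ * G * M = ε • 1 := by
    ext i j
    have h1 : (Mᵀ * G * M) i j = bf (RingEquiv.refl F) G (u i) (u j) := by
      rw [bf_rf, Matrix.dotProduct_mulVec, Matrix.mul_apply]
      rfl
    rw [h1, hu', Matrix.smul_apply, Matrix.one_apply]
    split_ifs <;> simp
  have hMu : IsUnit M := by
    rw [Matrix.isUnit_iff_isUnit_det, isUnit_iff_ne_zero]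
    intro h0
    have h1 := congrArg Matrix.det hM
    rw [Matrix.det_mul, h0, mul_zero, Matrix.det_smul, Matrix.det_one, mul_one, Fintype.card_fin] at h1
    exact (pow_ne_zero 3 hε) h1.symm
  obtain ⟨U, hU⟩ := hMu
  refine ⟨U, ε, hε, ?_⟩
  unfold gr
  rw [map_rf, hU]
  exact hM

/-- An orthogonal matrix over the field with three elements, of degree three, is monomial. -/
lemma monomial_of_orth (hF : Fintype.card F = 3) {b : Matrix (Fin 3) (Fin 3) F} (hb : bᵀ * b = 1) (i : Fin 3) :
    ∃ (j : Fin 3) (c : F), c ≠ 0 ∧ b *ᵥ Pi.single i 1 = c • Pi.single j 1 := by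
  have h3 := three_eq_zero hF
  have h1 : b 0 i * b 0 i + b 1 i * b 1 i + b 2 i * b 2 i = 1 := by
    have := congrFun (congrFun hb i) i
    rw [Matrix.mul_apply, Fin.sum_univ_three, Matrix.one_apply_eq] at this
    exact this
  have hsq : ∀ x : F, x ≠ 0 → x * x = 1 := by
    intro x hx
    rcases three_cases hF x with h | h | h
    · exact absurd h hx
    · rw [h, one_mul]
    · rw [h]; ring
  have h10 : (1 : F) ≠ 0 := one_ne_zero
  have h2 : (2 : F) ≠ 0 := two_ne_of_odd (by rw [hF]; decide)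
  have key : ∀ (j : Fin 3), b j i ≠ 0 → (∀ k, k ≠ j → b k i = 0) → ∃ (j : Fin 3) (c : F), c ≠ 0 ∧ b *ᵥ Pi.single i 1 = c • Pi.single j 1 := by
    intro j hj hk
    refine ⟨j, b j i, hj, ?_⟩
    funext k
    rw [Matrix.mulVec_single_one, Matrix.col_apply, Pi.smul_apply, smul_eq_mul]
    by_cases h : k = j
    · subst h; simp
    · rw [hk k h, Pi.single_eq_of_ne h, mul_zero]
  by_cases a0 : b 0 i = 0 <;> by_cases a1 : b 1 i = 0 <;> by_cases a2 : b 2 i = 0
  · rw [a0, a1, a2] at h1; exfalso; apply h10; rw [← h1]; ring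
  · exact key 2 a2 (by intro k hk; fin_cases k <;> simp_all)
  · exact key 1 a1 (by intro k hk; fin_cases k <;> simp_all)
  · exfalso
    rw [a0, hsq _ a1, hsq _ a2] at h1
    apply h10; linear_combination h1
  · exact key 0 a0 (by intro k hk; fin_cases k <;> simp_all)
  · exfalso
    rw [a1, hsq _ a0, hsq _ a2] at h1
    apply h10; linear_combination h1
  · exfalso
    rw [a2, hsq _ a0, hsq _ a1] at h1
    apply h10; linear_combination h1
  · exfalso
    rw [hsq _ a0, hsq _ a1, hsq _ a2] at h1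
    apply h2; linear_combination h1

/-- The Gram matrix of a form with a tensor structure. -/
lemma gram_of_structure {ι : Type} [Fintype ι] [DecidableEq ι] {G : Matrix ι ι F} {d e : ℕ} {ρ : ι ≃ Fin d × Fin e} {P : GL ι F}
    {f₁ : (Fin d → F) → (Fin d → F) → F} {f₂ : (Fin e → F) → (Fin e → F) → F}
    (h : IsTensorFormStructure id (bf (RingEquiv.refl F) G) f₁ f₂ ρ P) :
    ∃ c : F, c ≠ 0 ∧ gr (RingEquiv.refl F) G P = kronL ρ (c • gramMatrix f₁) (gramMatrix f₂) := by
  obtain ⟨c, hc, h⟩ := h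
  refine ⟨c, hc, ?_⟩
  ext i j
  have h1 := h (Pi.single (ρ i) 1) (Pi.single (ρ j) 1)
  have e1 : ∀ i : ι, (Pi.single (ρ i) (1 : F) : Fin d × Fin e → F) ∘ ρ = Pi.single i 1 := by
    intro i
    funext k
    simp only [Function.comp_apply, Pi.single_apply, EmbeddingLike.apply_eq_iff_eq]
  rw [e1, e1, bf_gr, bf_rf] at h1
  have h2 : (Pi.single i (1 : F) : ι → F) ⬝ᵥ (gr (RingEquiv.refl F) G P *ᵥ Pi.single j 1) = gr (RingEquiv.refl F) G P i j := by
    rw [Matrix.mulVec_single_one, single_dotProduct, one_mul]; rfl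
  rw [h2] at h1
  rw [h1, formOfGram, Finset.sum_eq_single (ρ i), Finset.sum_eq_single (ρ j)]
  · simp only [Pi.single_eq_same, one_mul, id_eq, mul_one]
    show c * (gramMatrix f₁ _ _ * gramMatrix f₂ _ _) = (c * gramMatrix f₁ _ _) * gramMatrix f₂ _ _
    rw [mul_assoc]
    rfl
  · intro k _ hk
    rw [Pi.single_eq_of_ne hk, id_eq, mul_zero]
  · intro h; exact absurd (Finset.mem_univ _) h
  · intro k _ hk
    apply Finset.sum_eq_zero
    intro l _
    rw [Pi.single_eq_of_ne hk, zero_mul, zero_mul]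
  · intro h; exact absurd (Finset.mem_univ _) h

lemma single_mulVec_single {κ : Type} [Fintype κ] [DecidableEq κ] (i k : κ) :
    (Matrix.single i i (1 : F) : Matrix κ κ F) *ᵥ Pi.single k 1 = if i = k then Pi.single k 1 else 0 := by
  rw [Matrix.mulVec_single_one]
  ext l
  rw [Matrix.col_apply, Matrix.single_apply]
  by_cases h : i = k
  · subst h
    rw [if_pos rfl, Pi.single_apply]
    by_cases h' : i = l
    · subst h'; simp
    · rw [if_neg (fun h => h' h.1), if_neg (Ne.symm h')]
  · rw [if_neg h, if_neg (fun h' => h h'.2)]; rfl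

lemma cj_single_of_monomial {b : GL (Fin 3) F} {π : Fin 3 → Fin 3} {c : Fin 3 → F}
    (hb : ∀ i, (b : Matrix (Fin 3) (Fin 3) F) *ᵥ Pi.single i 1 = c i • Pi.single (π i) 1) (hc : ∀ i, c i ≠ 0) :
    Function.Injective π ∧ ∀ i, cj b (Matrix.single i i (1 : F)) = Matrix.single (π i) (π i) 1 := by
  have hinj : Function.Injective π := by
    intro i j hij
    by_contra hne
    have h1 : (b : Matrix (Fin 3) (Fin 3) F) *ᵥ (c j • Pi.single i 1 - c i • Pi.single j 1) = 0 := by
      rw [Matrix.mulVec_sub, Matrix.mulVec_smul, Matrix.mulVec_smul, hb, hb, hij, smul_smul, smul_smul, mul_comm, sub_self]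
    have h2 : (c j • Pi.single i 1 - c i • Pi.single j 1 : Fin 3 → F) = 0 := by
      have := congrArg (fun z => ((b⁻¹ : GL (Fin 3) F) : Matrix (Fin 3) (Fin 3) F) *ᵥ z) h1
      simpa only [Matrix.mulVec_mulVec, gl_inv_mul, Matrix.one_mulVec, Matrix.mulVec_zero] using this
    have h3 := congrFun h2 i
    simp only [Pi.sub_apply, Pi.smul_apply, Pi.single_eq_same, Pi.single_eq_of_ne hne, smul_eq_mul, mul_one, mul_zero, sub_zero, Pi.zero_apply] at h3
    exact hc j h3
  refine ⟨hinj, fun i => ?_⟩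
  have h1 : (b : Matrix (Fin 3) (Fin 3) F) * Matrix.single i i (1 : F) = Matrix.single (π i) (π i) 1 * (b : Matrix (Fin 3) (Fin 3) F) := by
    apply Matrix.ext_of_mulVec_single
    intro k
    rw [← Matrix.mulVec_mulVec, ← Matrix.mulVec_mulVec, hb, Matrix.mulVec_smul, single_mulVec_single, single_mulVec_single]
    by_cases hk : i = k
    · subst hk
      rw [if_pos rfl, if_pos rfl, hb]
    · have hk' : π i ≠ π k := fun h => hk (hinj h)
      rw [if_neg hk, if_neg hk', Matrix.mulVec_zero, smul_zero]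
  rw [cj_apply, h1, mul_assoc, gl_mul_inv, mul_one]

/-- Over the field with three elements, a tensor factor with a symmetric form in dimension three gives three orthogonal subspaces. -/
theorem tensor_three (hF : Fintype.card F = 3) (hm : 1 ≤ m) {H : Subgroup (GL (Fin m ⊕ Fin m) F)} (hI : H ≤ spGL m F) {d : ℕ} (hd : 1 ≤ d)
    {ρ : (Fin m ⊕ Fin m) ≃ Fin d × Fin 3} {P : GL (Fin m ⊕ Fin m) F} {f₁ : (Fin d → F) → (Fin d → F) → F}
    {f₂ : (Fin 3 → F) → (Fin 3 → F) → F} (hf₁ : IsSymplecticForm f₁) (hf₂ : IsSymmetricForm f₂)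
    (hst : IsTensorFormStructure id (sympForm m F) f₁ f₂ ρ P) (hle : H ≤ tensorProductSubgroup d 3 ρ P) :
    ∃ e : Fin 3 → Matrix (Fin m ⊕ Fin m) (Fin m ⊕ Fin m) F, FIdem (RingEquiv.refl F) (Matrix.J (Fin m) F) H e ∧
      ∀ i, adj (RingEquiv.refl F) (Matrix.J (Fin m) F) (e i) = e i := by
  classical
  haveI : Nonempty (Fin m ⊕ Fin m) := ⟨Sum.inl ⟨0, by omega⟩⟩
  obtain ⟨c₀, hc₀, hG⟩ := gram_of_structure hst
  set G₂ := gramMatrix f₂ with hG₂
  have hu₂ : IsUnit G₂ := (AschForms.isSesq_of_bilinear hf₂.bilinear).isUnit_gram hf₂.nondegenerate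
  have hu₁' : IsUnit (gramMatrix f₁) := (AschForms.isSesq_of_bilinear hf₁.bilinear).isUnit_gram hf₁.nondegenerate
  have hu₁ : IsUnit (c₀ • gramMatrix f₁) := by
    rw [Matrix.isUnit_iff_isUnit_det] at hu₁' ⊢
    rw [Matrix.det_smul]
    exact (IsUnit.mk0 _ hc₀).pow _ |>.mul hu₁'
  set G₁ := c₀ • gramMatrix f₁ with hG₁
  have hT₂ : G₂ᵀ = G₂ := by ext i j; exact hf₂.symm _ _
  have hRF₂ : RF (RingEquiv.refl F) 1 G₂ := ⟨fun a => rfl, hu₂, by rw [map_rf, hT₂, one_smul], Or.inl rfl⟩
  obtain ⟨U, ε, hε, hU⟩ := exists_frame hF hT₂ hu₂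
  have hE := SpNot.units_map ((SLNot.kRight ρ P : Matrix (Fin 3) (Fin 3) F →+* Matrix (Fin m ⊕ Fin m) (Fin m ⊕ Fin m) F).comp (cj U : Matrix (Fin 3) (Fin 3) F →+* Matrix (Fin 3) (Fin 3) F))
    (isMatrixUnits_single (Fin 3) F)
  have happ : ∀ x, ((SLNot.kRight ρ P : Matrix (Fin 3) (Fin 3) F →+* Matrix (Fin m ⊕ Fin m) (Fin m ⊕ Fin m) F).comp (cj U : Matrix (Fin 3) (Fin 3) F →+* Matrix (Fin 3) (Fin 3) F)) x =
    cj P (kronL ρ 1 (cj U x)) := fun x => rfl
  have hself : ∀ i : Fin 3, adj (RingEquiv.refl F) (Matrix.J (Fin m) F) (cj P (kronL ρ 1 (cj U (Matrix.single i i 1)))) = cj P (kronL ρ 1 (cj U (Matrix.single i i 1))) := by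
    intro i
    rw [adj_cj_gr rfJ, hG, adj_kronL ρ hu₁ hu₂, adj_cj_gr hRF₂, hU]
    have h1 : adj (RingEquiv.refl F) G₁ (1 : Matrix (Fin d) (Fin d) F) = 1 := by
      rw [adj_rf, Matrix.transpose_one, mul_one, Matrix.nonsing_inv_mul _ ((Matrix.isUnit_iff_isUnit_det _).1 hu₁)]
    have h2 : adj (RingEquiv.refl F) (ε • (1 : Matrix (Fin 3) (Fin 3) F)) (Matrix.single i i 1) = Matrix.single i i 1 := by
      have h3 : (ε • (1 : Matrix (Fin 3) (Fin 3) F))⁻¹ = ε⁻¹ • 1 := by
        apply Matrix.inv_eq_right_inv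
        rw [Matrix.smul_mul, Matrix.mul_smul, one_mul, smul_smul, mul_inv_cancel₀ hε, one_smul]
      rw [adj_rf, h3, Matrix.transpose_single, Matrix.smul_mul, one_mul, Matrix.mul_smul, mul_one, smul_smul, mul_inv_cancel₀ hε, one_smul]
    rw [h1, h2]
  refine ⟨fun i => cj P (kronL ρ 1 (cj U (Matrix.single i i 1))), ⟨by norm_num, ⟨?_, ?_, ?_⟩, ?_, Or.inl hself⟩, hself⟩
  · intro i j
    have h := hE.mul i i j j
    by_cases hij : i = j
    · subst hij
      rw [if_pos rfl] at h ⊢
      exact h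
    · rw [if_neg hij] at h ⊢
      exact h
  · exact hE.one
  · intro i h0
    have h8 : (1 : Matrix (Fin m ⊕ Fin m) (Fin m ⊕ Fin m) F) = 0 := by
      apply SpNot.eq_zero_of_units hE (Y := 1) (fun _ _ => by rw [mul_one, one_mul]) (a := i)
      rw [mul_one]; exact h0
    exact one_ne_zero h8
  · intro g hg
    obtain ⟨a, b, c, hgab, hc, -, hB⟩ := tensor_elt rfJ (by omega) (by norm_num) hG hu₁ hu₂ (hle hg) (mem_sp.1 (hI hg))
    -- the matrix in the orthonormal basis
    set b' : GL (Fin 3) F := U⁻¹ * b * U with hb'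
    have hb'1 : (b' : Matrix (Fin 3) (Fin 3) F)ᵀ * (b' : Matrix (Fin 3) (Fin 3) F) = c⁻¹ • 1 := by
      have h1 : (U : Matrix (Fin 3) (Fin 3) F)ᵀ * G₂ * (U : Matrix (Fin 3) (Fin 3) F) = ε • 1 := by
        have := hU
        unfold gr at this
        rwa [map_rf] at this
      have h2 : (U : Matrix (Fin 3) (Fin 3) F) * (b' : Matrix (Fin 3) (Fin 3) F) = (b : Matrix (Fin 3) (Fin 3) F) * (U : Matrix (Fin 3) (Fin 3) F) := by
        rw [← Units.val_mul, ← Units.val_mul]; congr 1; rw [hb']; group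
      have h3 : (b' : Matrix (Fin 3) (Fin 3) F)ᵀ * (ε • (1 : Matrix (Fin 3) (Fin 3) F)) * (b' : Matrix (Fin 3) (Fin 3) F) = c⁻¹ • (ε • 1) := by
        rw [← h1]
        calc (b' : Matrix (Fin 3) (Fin 3) F)ᵀ * ((U : Matrix (Fin 3) (Fin 3) F)ᵀ * G₂ * (U : Matrix (Fin 3) (Fin 3) F)) * (b' : Matrix (Fin 3) (Fin 3) F)
            = ((U : Matrix (Fin 3) (Fin 3) F) * (b' : Matrix (Fin 3) (Fin 3) F))ᵀ * G₂ * ((U : Matrix (Fin 3) (Fin 3) F) * (b' : Matrix (Fin 3) (Fin 3) F)) := by
              rw [Matrix.transpose_mul]; simp only [mul_assoc]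
          _ = (U : Matrix (Fin 3) (Fin 3) F)ᵀ * ((b : Matrix (Fin 3) (Fin 3) F)ᵀ * G₂ * (b : Matrix (Fin 3) (Fin 3) F)) * (U : Matrix (Fin 3) (Fin 3) F) := by
              rw [h2, Matrix.transpose_mul]; simp only [mul_assoc]
          _ = _ := by rw [hB, Matrix.mul_smul, Matrix.smul_mul]
      rw [Matrix.mul_smul, Matrix.smul_mul, mul_one, smul_comm] at h3
      exact smul_right_injective _ hε h3
    have hc1 : c⁻¹ = 1 := by
      have h1 := congrArg Matrix.det hb'1
      rw [Matrix.det_mul, Matrix.det_transpose, Matrix.det_smul, Matrix.det_one, mul_one, Fintype.card_fin] at h1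
      have hd0 : (b' : Matrix (Fin 3) (Fin 3) F).det ≠ 0 := (Matrix.isUnits_det_units b').ne_zero
      rcases three_cases hF c⁻¹ with h | h | h
      · exact absurd h (inv_ne_zero hc)
      · exact h
      · exfalso
        rw [h] at h1
        rcases three_cases hF (b' : Matrix (Fin 3) (Fin 3) F).det with h' | h' | h'
        · exact hd0 h'
        · rw [h'] at h1
          apply two_ne_of_odd (F := F) (by rw [hF]; decide)
          linear_combination h1
        · rw [h'] at h1
          apply two_ne_of_odd (F := F) (by rw [hF]; decide)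
          linear_combination h1
    rw [hc1, one_smul] at hb'1
    choose π cc hcc hπ using monomial_of_orth hF hb'1
    obtain ⟨hinj, hcj⟩ := cj_single_of_monomial hπ hcc
    refine ⟨Equiv.ofBijective π (Finite.injective_iff_bijective.1 hinj), fun i => ?_⟩
    show cj g (cj P (kronL ρ 1 (cj U (Matrix.single i i 1)))) = cj P (kronL ρ 1 (cj U (Matrix.single (π i) (π i) 1)))
    rw [← hcj i, ← cj_mul_apply U b']
    have h5 : U * b' = b * U := by rw [hb']; group
    rw [h5, cj_mul_apply b U, hgab, ← cj_mul_apply]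
    have h6 : P * kronU ρ a b * P⁻¹ * P = P * kronU ρ a b := by group
    rw [h6, cj_mul_apply]
    congr 1
    rw [cj_apply, kronU_inv, kronU_val, kronU_val, kronL_mul, kronL_mul, mul_one, gl_mul_inv]
    rfl

end three

section red
variable {F : Type*} [Field F] [Fintype F] {m : ℕ}

/-- Reducible subgroups, explicit form. -/
theorem red_explicit {H : Subgroup (GL (Fin m ⊕ Fin m) F)} (hH : H ≤ spGL m F) (hred : ¬ ActsIrreducibly (matrixSet H)) :
    (∃ W : Submodule F (Fin m ⊕ Fin m → F), W ≠ ⊥ ∧ IsTotallySingularFor (sympForm m F) W ∧ H ≤ subspaceStabilizer W) ∨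
    (∃ W : Submodule F (Fin m ⊕ Fin m → F), W ≠ ⊥ ∧ IsNondegenerateOn (sympForm m F) W ∧ Module.finrank F W < m ∧ H ≤ subspaceStabilizer W) ∨
    (∃ D : Fin 2 → Submodule F (Fin m ⊕ Fin m → F), Even m ∧ IsNondegenerateMDecomposition (sympForm m F) m D ∧ H ≤ decompositionStabilizer D) := by
  have hI : ∀ g ∈ H, IsIso (RingEquiv.refl F) (Matrix.J (Fin m) F) g := fun g hg => mem_sp.1 (hH hg)
  rcases red_cases rfJ hI hred with ⟨W, hWb, hWt, hs, hinv⟩ | ⟨W, W', hWb, hWb', hc, horth, hn, hn', hinv, hinv'⟩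
  · exact Or.inl ⟨W, hWb, hs, le_subspaceStabilizer hinv⟩
  · have hdim := Submodule.finrank_add_eq_of_isCompl hc
    rw [Module.finrank_fintype_fun_eq_card, Fintype.card_sum, Fintype.card_fin] at hdim
    rcases lt_trichotomy (Module.finrank F W) m with h1 | h1 | h1
    · exact Or.inr (Or.inl ⟨W, hWb, hn, h1, le_subspaceStabilizer hinv⟩)
    · have hpos : 0 < Module.finrank F W := Nat.pos_of_ne_zero (fun h => hWb (Submodule.finrank_eq_zero.1 h))
      have hev : Even m := by rw [← h1]; exact even_of_nondeg hn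
      refine Or.inr (Or.inr ⟨![W, W'], hev, ⟨?_, ?_, ?_⟩, ?_⟩)
      · have := isMDecomp_pair hc hpos (show Module.finrank F W = Module.finrank F W' by omega)
        rwa [h1] at this
      · intro i; fin_cases i
        · exact hn
        · exact hn'
      · intro i j hij
        fin_cases i <;> fin_cases j
        · exact absurd rfl hij
        · exact horth
        · intro u hu v hv
          exact bf_eq_zero_comm rfJ (horth v hv u hu)
        · exact absurd rfl hij
      · intro g hg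
        refine ⟨1, fun i => ?_⟩
        have key : ∀ U : Submodule F (Fin m ⊕ Fin m → F), (∀ g ∈ H, ∀ w ∈ U, (g : Matrix (Fin m ⊕ Fin m) (Fin m ⊕ Fin m) F) *ᵥ w ∈ U) →
            U.map (Matrix.toLin' (g : Matrix (Fin m ⊕ Fin m) (Fin m ⊕ Fin m) F)) = U := by
          intro U hU
          apply Submodule.eq_of_le_of_finrank_eq
          · rintro _ ⟨w, hw, rfl⟩
            rw [Matrix.toLin'_apply]
            exact hU g hg w hw
          · exact finrank_map_gl g U
        fin_cases i
        · exact key W hinv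
        · exact key W' hinv'
    · exact Or.inr (Or.inl ⟨W', hWb', hn', by omega, le_subspaceStabilizer hinv'⟩)

/-- Maximal subgroups of `Sp_2m(q)`: the list of possibilities. -/
inductive SpMaxl (m : ℕ) {F : Type*} [Field F] [Fintype F] (H : Subgroup (GL (Fin m ⊕ Fin m) F)) : Prop
  | c1a (W : Submodule F (Fin m ⊕ Fin m → F)) (h0 : W ≠ ⊥) (hs : IsTotallySingularFor (sympForm m F) W)
      (heq : H = subspaceStabilizer W ⊓ spGL m F)
  | c1b (W : Submodule F (Fin m ⊕ Fin m → F)) (h0 : W ≠ ⊥) (hs : IsNondegenerateOn (sympForm m F) W) (hd : Module.finrank F W < m)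
      (heq : H = subspaceStabilizer W ⊓ spGL m F)
  | c2a (t k : ℕ) (D : Fin t → Submodule F (Fin m ⊕ Fin m → F)) (ht : 2 ≤ t) (htk : t * k = m + m) (hk : Even k)
      (hq : k = 2 → 3 ≤ Fintype.card F)
      (hD : IsNondegenerateMDecomposition (sympForm m F) k D) (heq : H = decompositionStabilizer D ⊓ spGL m F)
  | c2b (D : Fin 2 → Submodule F (Fin m ⊕ Fin m → F)) (hodd : Odd (Fintype.card F)) (hD : IsMDecomposition m D)
      (hs : ∀ i, IsTotallySingularFor (sympForm m F) (D i)) (heq : H = decompositionStabilizer D ⊓ spGL m F)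
  | c3a (r : ℕ) (K : Subalgebra F (Matrix (Fin m ⊕ Fin m) (Fin m ⊕ Fin m) F)) (hr : r.Prime) (hrm : r ∣ m) (hK : IsFieldSubalgebra r K)
      (hsa : IsSelfAdjointFor (sympForm m F) K) (hz : ∀ k ∈ K, ∀ v, sympForm m F (k *ᵥ v) v = 0)
      (heq : H = subalgebraNormalizer K ⊓ spGL m F)
  | c3b (K : Subalgebra F (Matrix (Fin m ⊕ Fin m) (Fin m ⊕ Fin m) F)) (hodd : Odd (Fintype.card F)) (hK : IsFieldSubalgebra 2 K)
      (hac : IsAdjointClosedFor (sympForm m F) K) (hns : ¬ IsSelfAdjointFor (sympForm m F) K)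
      (heq : H = subalgebraNormalizer K ⊓ spGL m F)
  | c4 (n₁ n₂ : ℕ) (e : (Fin m ⊕ Fin m) ≃ Fin n₁ × Fin n₂) (P : GL (Fin m ⊕ Fin m) F)
      (f₁ : (Fin n₁ → F) → (Fin n₁ → F) → F) (f₂ : (Fin n₂ → F) → (Fin n₂ → F) → F) (hodd : Odd (Fintype.card F)) (h2 : 2 ≤ n₁)
      (h3 : 3 ≤ n₂) (hn : n₁ * n₂ = m + m) (hev : Even n₁) (hq : n₂ = 3 → 5 ≤ Fintype.card F) (hf₁ : IsSymplecticForm f₁) (hf₂ : IsSymmetricForm f₂)
      (hst : IsTensorFormStructure id (sympForm m F) f₁ f₂ e P) (heq : H = tensorProductSubgroup n₁ n₂ e P ⊓ spGL m F)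
  | c5 (F₀ : Subfield F) (r : ℕ) (P : GL (Fin m ⊕ Fin m) F) (ζ : F) (hr : r.Prime) (hc : Fintype.card F = Nat.card F₀ ^ r) (hζ : ζ ≠ 0)
      (hrs : IsFormRationalStructure (sympForm m F) F₀ ζ P) (heq : H = subfieldSubgroup F₀ P ⊓ spGL m F)
  | c6 (R : Subgroup (GL (Fin m ⊕ Fin m) F)) (p k : ℕ) (hR : IsSymplecticTypeGroup 2 R) (habs : ActsAbsolutelyIrreducibly (matrixSet R))
      (hRI : R ≤ similarityGroup (sympForm m F)) (hp : p.Prime) (hodd : Odd p) (hc : Fintype.card F = p) (hcard : Nat.card R = 2 ^ (1 + 2 * k))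
      (hk : m + m = 2 ^ k) (hz : Nat.card (Subgroup.center R) = 2) (hmin : IsOfMinusType k R) (heq : H = subgroupNormalizer R ⊓ spGL m F)
  | c7 (k t : ℕ) (e : (Fin m ⊕ Fin m) ≃ (Fin t → Fin k)) (P : GL (Fin m ⊕ Fin m) F) (f₁ : (Fin k → F) → (Fin k → F) → F)
      (hodd : Odd (Fintype.card F)) (ht : Odd t) (h3 : 3 ≤ t) (hk : 2 ≤ k) (hne : ¬ (Fintype.card F = 3 ∧ k = 2)) (hcard : k ^ t = m + m)
      (hf₁ : IsSymplecticForm f₁) (hst : IsTensorPowerFormStructure id (sympForm m F) f₁ e P)
      (heq : H = tensorWreathSubgroup k t e P ⊓ spGL m F)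
  | c8 (Q : (Fin m ⊕ Fin m → F) → F) (heven : ¬ Odd (Fintype.card F)) (hQ : IsNondegenerateQuadraticForm Q)
      (hpol : ∀ u v, QuadraticMap.polar Q u v = sympForm m F u v) (heq : H = quadSimilarityGroup Q ⊓ spGL m F)
  | res (h : InSymplecticResidualClass H)

lemma similarity_of_sp {R : Subgroup (GL (Fin m ⊕ Fin m) F)} (h : R ≤ spGL m F) : R ≤ similarityGroup (sympForm m F) :=
  fun g hg => ⟨1, fun u v => by rw [Units.val_one, one_mul]; exact h hg u v⟩

lemma ne_top_of_finrank (hm : 1 ≤ m) {W : Submodule F (Fin m ⊕ Fin m → F)} (h : Module.finrank F W < m) : W ≠ ⊤ := by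
  rintro rfl
  rw [finrank_top, Module.finrank_fintype_fun_eq_card, Fintype.card_sum, Fintype.card_fin] at h
  omega

lemma ne_top_of_ts (hm : 1 ≤ m) {W : Submodule F (Fin m ⊕ Fin m → F)} (h : IsTotallySingularFor (sympForm m F) W) : W ≠ ⊤ := by
  rintro rfl
  have hne : (Pi.single (Sum.inl ⟨0, by omega⟩) 1 : Fin m ⊕ Fin m → F) ≠ 0 := by
    intro h
    have := congrFun h (Sum.inl ⟨0, by omega⟩)
    simp at this
  obtain ⟨⟨u, hu⟩, -⟩ := sp_nondeg (F := F) (m := m) _ hne
  exact hu (h _ trivial _ trivial)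

open SLNot (eq_inf_of_maximal) in
/-- **Maximal subgroups of the symplectic groups.** -/
theorem spMaxl (hm : 2 ≤ m) {H : Subgroup (GL (Fin m ⊕ Fin m) F)} (hH : IsMaximalIn (spGL m F) H) : SpMaxl m H := by
  classical
  have hI : H ≤ spGL m F := hH.1.le
  have h2a : ∀ {t k : ℕ} {D : Fin t → Submodule F (Fin m ⊕ Fin m → F)}, 2 ≤ t → t * k = m + m → Even k →
      IsNondegenerateMDecomposition (sympForm m F) k D → H ≤ decompositionStabilizer D → SpMaxl m H := by
    intro t k D ht htk hk hD hle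
    have hkp := hD.decomp.pos
    have hk2 : 2 ≤ k := by obtain ⟨j, hj⟩ := hk; omega
    by_cases hq : k = 2 ∧ Fintype.card F < 3
    · obtain ⟨rfl, hq⟩ := hq
      have hq2 : Fintype.card F = 2 := by have := Fintype.one_lt_card (α := F); omega
      obtain ⟨Q, heven, hQ, hpol, hle'⟩ := spcase_planes hq2 hI hD hle
      exact SpMaxl.c8 Q heven hQ hpol (eq_inf_of_maximal hH hle' (SpNot.not_le_quad hm hQ hpol))
    · exact SpMaxl.c2a t k D ht htk hk (fun h => by by_contra h'; exact hq ⟨h, by omega⟩) hD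
        (eq_inf_of_maximal hH hle (SpNot.not_le_decomposition hk2 hD.decomp))
  rcases spcase (by omega) hI with ⟨W, h0, hs, hle⟩ | ⟨W, h0, hs, hd, hle⟩ | ⟨t, k, D, htk, hk, hD, hle⟩ |
    ⟨D, hodd, hD, hs, hle⟩ | ⟨r, K, hr, hrm, hK, hsa, hz, hle⟩ | ⟨K, hodd, hK, hac, hns, hle⟩ |
    ⟨n₁, n₂, e, P, f₁, f₂, hodd, h2, h3, hev, hf₁, hf₂, hst, hle⟩ | ⟨F₀, r, P, ζ, hr, hc, hζ, hrs, hle⟩ |
    ⟨R, p, k, hR, habs, hRI, hp, hodd, hc, hcard, hk, hz, hmin, hle⟩ |
    ⟨k, t, e, P, f₁, hodd, ht, h3, hk, hne, hcard, hf₁, hst, hle⟩ | ⟨Q, heven, hQ, hpol, hle⟩ | h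
  · exact SpMaxl.c1a W h0 hs (eq_inf_of_maximal hH hle (SpNot.not_le_subspace h0 (ne_top_of_ts (by omega) hs)))
  · exact SpMaxl.c1b W h0 hs hd (eq_inf_of_maximal hH hle (SpNot.not_le_subspace h0 (ne_top_of_finrank (by omega) hd)))
  · exact h2a hD.decomp.two_le htk hk hD hle
  · exact SpMaxl.c2b D hodd hD hs (eq_inf_of_maximal hH hle (SpNot.not_le_decomposition hm hD))
  · exact SpMaxl.c3a r K hr hrm hK hsa hz (eq_inf_of_maximal hH hle (SpNot.not_le_field hm hr.two_le hK))
  · exact SpMaxl.c3b K hodd hK hac hns (eq_inf_of_maximal hH hle (SpNot.not_le_field hm le_rfl hK))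
  · have hn : n₁ * n₂ = m + m := by
      have := Fintype.card_congr e
      rw [Fintype.card_sum, Fintype.card_prod, Fintype.card_fin, Fintype.card_fin, Fintype.card_fin] at this
      exact this.symm
    by_cases hq : n₂ = 3 ∧ Fintype.card F < 5
    · obtain ⟨rfl, hq⟩ := hq
      have hq3 : Fintype.card F = 3 := by
        have := Fintype.one_lt_card (α := F)
        obtain ⟨j, hj⟩ := hodd
        omega
      by_cases hirr : ActsIrreducibly (matrixSet H)
      · obtain ⟨ε, hε, hself⟩ := tensor_three hq3 (by omega) hI (by omega) hf₁ hf₂ hst hle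
        have hD := hε.nondeg rfJ hself hirr
        have hdec := hε.decomp hirr
        rw [← symp_eq] at hD
        have hc3 := card_of_decomp hD.decomp
        rw [Fintype.card_sum, Fintype.card_fin] at hc3
        exact h2a (by norm_num) hc3 (even_of_nondeg (hD.nondegenerate _)) hD hdec.2
      · rcases red_explicit hI hirr with ⟨W, h0, hs, hle⟩ | ⟨W, h0, hs, hd, hle⟩ | ⟨D, hev, hD, hle⟩
        · exact SpMaxl.c1a W h0 hs (eq_inf_of_maximal hH hle (SpNot.not_le_subspace h0 (ne_top_of_ts (by omega) hs)))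
        · exact SpMaxl.c1b W h0 hs hd (eq_inf_of_maximal hH hle (SpNot.not_le_subspace h0 (ne_top_of_finrank (by omega) hd)))
        · exact h2a le_rfl (by ring) hev hD hle
    · exact SpMaxl.c4 n₁ n₂ e P f₁ f₂ hodd h2 h3 hn hev (fun h => by by_contra h'; exact hq ⟨h, by omega⟩) hf₁ hf₂ hst
        (eq_inf_of_maximal hH hle (SpNot.not_le_tensor (by omega) h2 h3 e P))
  · exact SpMaxl.c5 F₀ r P ζ hr hc hζ hrs (eq_inf_of_maximal hH hle (SpNot.not_le_subfield (by omega) (SLNot.ne_top_of_card hr hc) P))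
  · refine SpMaxl.c6 R p k hR habs (similarity_of_sp hRI) hp hodd hc hcard hk hz hmin
      (eq_inf_of_maximal hH hle (SpNot.not_le_normalizer hm (by rw [hc]; exact hodd) hR hRI ?_))
    rw [hcard]
    have hk2 : 2 ≤ k := by
      by_contra hlt
      have : k = 0 ∨ k = 1 := by omega
      rcases this with rfl | rfl <;> omega
    calc 8 < 2 ^ 5 := by norm_num
      _ ≤ 2 ^ (1 + 2 * k) := Nat.pow_le_pow_right (by norm_num) (by omega)
  · exact SpMaxl.c7 k t e P f₁ hodd ht h3 hk hne hcard hf₁ hst (eq_inf_of_maximal hH hle (SpNot.not_le_tensorWreath (by omega) hk h3 e P))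
  · exact SpMaxl.c8 Q heven hQ hpol (eq_inf_of_maximal hH hle (SpNot.not_le_quad hm hQ hpol))
  · exact SpMaxl.res h

end red

end Cfsg.Agent.Lib.AschSp
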