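import Cfsg.Agent.Lib.AschSp10
import Cfsg.Agent.Lib.DecompStab
set_option autoImplicit false
set_option linter.style.haveILetI false
set_option linter.unusedVariables false
set_option linter.unusedSectionVars false

/-!
Maximal subgroups of `Sp_4(3)`: pairs of totally singular planes.
-/

namespace Cfsg.Agent.Lib.AschSp

open Cfsg Cfsg.Geo Cfsg.Agent.Lib.AschMU Cfsg.Agent.Lib.AschCore Cfsg.Agent.Lib.AschField Cfsg.Agent.Lib.AschAlg
  Cfsg.Agent.Lib.AschGroup Cfsg.Agent.Lib.AschGood Cfsg.Agent.Lib.AschAdj Cfsg.Agent.Lib.AschNonab Cfsg.Agent.Lib.AschTensor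
  Cfsg.Agent.Lib.AschComp
open scoped Matrix MatrixGroups Kronecker

section invol
variable {ι : Type} [Fintype ι] [DecidableEq ι] {F : Type*} [Field F]

/-- The idempotents of a self-adjoint involution preserved up to sign. -/
theorem fidem_of_invol {σ : F ≃+* F} {ε : F} {G : Matrix ι ι F} (h : RF σ ε G) (h2 : (2 : F) ≠ 0) {H : Subgroup (GL ι F)} {j : Matrix ι ι F}
    (hjj : j * j = 1) (hj1 : j ≠ 1) (hj2 : j ≠ -1) (hadj : adj σ G j = j) (hH : ∀ g ∈ H, cj g j = j ∨ cj g j = -j) :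
    ∃ e : Fin 2 → Matrix ι ι F, FIdem σ G H e ∧ ∀ i, adj σ G (e i) = e i := by
  have h22 : (2 : F)⁻¹ * 2 = 1 := inv_mul_cancel₀ h2
  have hσ : σ (2 : F)⁻¹ = (2 : F)⁻¹ := by rw [map_inv₀, map_ofNat]
  have ha1 : adj σ G (1 : Matrix ι ι F) = 1 := adj_one h
  have hneg : adj σ G (-j) = -j := by
    have : (-j : Matrix ι ι F) = (-1 : F) • j := by rw [neg_smul, one_smul]
    rw [this, adj_smul, hadj, map_neg, map_one]
  have hself : ∀ i : Fin 2, adj σ G ((![(2 : F)⁻¹ • (1 + j), (2 : F)⁻¹ • (1 + -j)] : Fin 2 → Matrix ι ι F) i) =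
      (![(2 : F)⁻¹ • (1 + j), (2 : F)⁻¹ • (1 + -j)] : Fin 2 → Matrix ι ι F) i := by
    intro i
    fin_cases i
    · show adj σ G ((2 : F)⁻¹ • (1 + j)) = (2 : F)⁻¹ • (1 + j)
      rw [adj_smul, adj_add, ha1, hadj, hσ]
    · show adj σ G ((2 : F)⁻¹ • (1 + -j)) = (2 : F)⁻¹ • (1 + -j)
      rw [adj_smul, adj_add, ha1, hneg, hσ]
  have m1 : ((2 : F)⁻¹ • (1 + j)) * ((2 : F)⁻¹ • (1 + j)) = (2 : F)⁻¹ • (1 + j) := by
    have : (1 + j) * (1 + j) = (2 : F) • (1 + j) := by
      rw [add_mul, mul_add, mul_add, hjj, one_mul, one_mul, mul_one, two_smul]; abel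
    rw [Matrix.smul_mul, Matrix.mul_smul, this, smul_smul, smul_smul, mul_assoc, h22, mul_one]
  have m2 : ((2 : F)⁻¹ • (1 + -j)) * ((2 : F)⁻¹ • (1 + -j)) = (2 : F)⁻¹ • (1 + -j) := by
    have : (1 + -j) * (1 + -j) = (2 : F) • (1 + -j) := by
      rw [add_mul, mul_add, mul_add, neg_mul_neg, hjj, one_mul, one_mul, mul_one, two_smul]; abel
    rw [Matrix.smul_mul, Matrix.mul_smul, this, smul_smul, smul_smul, mul_assoc, h22, mul_one]
  have m3 : ((2 : F)⁻¹ • (1 + j)) * ((2 : F)⁻¹ • (1 + -j)) = 0 := by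
    have : (1 + j) * (1 + -j) = 0 := by
      rw [add_mul, mul_add, mul_add, mul_neg, mul_neg, hjj, one_mul, one_mul, mul_one]; abel
    rw [Matrix.smul_mul, Matrix.mul_smul, this, smul_zero, smul_zero]
  have m4 : ((2 : F)⁻¹ • (1 + -j)) * ((2 : F)⁻¹ • (1 + j)) = 0 := by
    have : (1 + -j) * (1 + j) = 0 := by
      rw [add_mul, mul_add, mul_add, neg_mul, neg_mul, hjj, one_mul, one_mul, mul_one]; abel
    rw [Matrix.smul_mul, Matrix.mul_smul, this, smul_zero, smul_zero]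
  refine ⟨![(2 : F)⁻¹ • (1 + j), (2 : F)⁻¹ • (1 + -j)], ⟨le_rfl, ⟨?_, ?_, ?_⟩, ?_, Or.inl hself⟩, hself⟩
  · intro i k
    fin_cases i <;> fin_cases k
    · exact m1
    · exact m3
    · exact m4
    · exact m2
  · rw [Fin.sum_univ_two]
    show (2 : F)⁻¹ • (1 + j) + (2 : F)⁻¹ • (1 + -j) = 1
    rw [← smul_add]
    have : (1 + j) + (1 + -j) = (2 : F) • (1 : Matrix ι ι F) := by rw [two_smul]; abel
    rw [this, smul_smul, h22, one_smul]
  · intro i
    fin_cases i
    · show (2 : F)⁻¹ • (1 + j) ≠ 0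
      intro h0
      apply hj2
      have := (smul_eq_zero.1 h0).resolve_left (inv_ne_zero h2)
      exact (eq_neg_of_add_eq_zero_right this)
    · show (2 : F)⁻¹ • (1 + -j) ≠ 0
      intro h0
      apply hj1
      have := (smul_eq_zero.1 h0).resolve_left (inv_ne_zero h2)
      rw [← sub_eq_add_neg, sub_eq_zero] at this
      exact this.symm
  · intro g hg
    rcases hH g hg with h1 | h1
    · refine ⟨1, fun i => ?_⟩
      fin_cases i
      · show cj g ((2 : F)⁻¹ • (1 + j)) = (2 : F)⁻¹ • (1 + j)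
        rw [map_smul, map_add, map_one, h1]
      · show cj g ((2 : F)⁻¹ • (1 + -j)) = (2 : F)⁻¹ • (1 + -j)
        rw [map_smul, map_add, map_neg, map_one, h1]
    · refine ⟨Equiv.swap 0 1, fun i => ?_⟩
      fin_cases i
      · show cj g ((2 : F)⁻¹ • (1 + j)) = (2 : F)⁻¹ • (1 + -j)
        rw [map_smul, map_add, map_one, h1]
      · show cj g ((2 : F)⁻¹ • (1 + -j)) = (2 : F)⁻¹ • (1 + j)
        rw [map_smul, map_add, map_neg, map_one, h1, neg_neg]

end invol

section pair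
variable {F : Type*} [Field F] {m : ℕ}

/-- A pair of complementary totally singular subspaces is standard in some symplectic basis. -/
theorem exists_sympl_pair {D : Fin 2 → Submodule F (Fin m ⊕ Fin m → F)} (hD : IsMDecomposition m D)
    (hs : ∀ i, IsTotallySingularFor (sympForm m F) (D i)) :
    ∃ P : GL (Fin m ⊕ Fin m) F, gr (RingEquiv.refl F) (Matrix.J (Fin m) F) P = Matrix.J (Fin m) F ∧
      (∀ x, x ∈ D 0 ↔ ∀ a, (((P⁻¹ : GL (Fin m ⊕ Fin m) F) : Matrix (Fin m ⊕ Fin m) (Fin m ⊕ Fin m) F) *ᵥ x) (Sum.inr a) = 0) ∧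
      (∀ x, x ∈ D 1 ↔ ∀ a, (((P⁻¹ : GL (Fin m ⊕ Fin m) F) : Matrix (Fin m ⊕ Fin m) (Fin m ⊕ Fin m) F) *ᵥ x) (Sum.inl a) = 0) := by
  classical
  obtain ⟨E, hE⟩ := DecompStab.exists_coord D hD
  -- coordinates
  let C : (Fin m ⊕ Fin m → F) ≃ₗ[F] (Fin 2 → Fin m → F) :=
    { toFun := fun x => ![fun a => x (Sum.inl a), fun a => x (Sum.inr a)]
      map_add' := by intro x y; ext i a; fin_cases i <;> rfl
      map_smul' := by intro c x; ext i a; fin_cases i <;> rfl
      invFun := fun y => Sum.elim (y 0) (y 1)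
      left_inv := by intro x; ext i; rcases i with a | a <;> rfl
      right_inv := by intro y; ext i a; fin_cases i <;> rfl }
  let T : (Fin m ⊕ Fin m → F) ≃ₗ[F] (Fin m ⊕ Fin m → F) := C.trans E.symm
  let P₀ : GL (Fin m ⊕ Fin m) F := ⟨LinearMap.toMatrix' T.toLinearMap, LinearMap.toMatrix' T.symm.toLinearMap,
    by rw [← LinearMap.toMatrix'_comp]; simp, by rw [← LinearMap.toMatrix'_comp]; simp⟩
  have hP₀ : ∀ x, (P₀ : Matrix (Fin m ⊕ Fin m) (Fin m ⊕ Fin m) F) *ᵥ x = T x := fun x => by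
    show LinearMap.toMatrix' T.toLinearMap *ᵥ x = T x
    rw [← Matrix.toLin'_apply, Matrix.toLin'_toMatrix']; rfl
  have hP₀i : ∀ x, ((P₀⁻¹ : GL (Fin m ⊕ Fin m) F) : Matrix (Fin m ⊕ Fin m) (Fin m ⊕ Fin m) F) *ᵥ x = T.symm x := fun x => by
    show LinearMap.toMatrix' T.symm.toLinearMap *ᵥ x = T.symm x
    rw [← Matrix.toLin'_apply, Matrix.toLin'_toMatrix']; rfl
  have hD0 : ∀ x, x ∈ D 0 ↔ ∀ a, (T.symm x) (Sum.inr a) = 0 := by
    intro x
    rw [hE 0 x]
    have : ∀ a, (T.symm x) (Sum.inr a) = E x 1 a := fun a => rfl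
    simp only [this]
    constructor
    · intro h a; rw [h 1 (by decide)]; rfl
    · intro h j hj
      fin_cases j
      · exact absurd rfl hj
      · funext a; exact h a
  have hD1 : ∀ x, x ∈ D 1 ↔ ∀ a, (T.symm x) (Sum.inl a) = 0 := by
    intro x
    rw [hE 1 x]
    have : ∀ a, (T.symm x) (Sum.inl a) = E x 0 a := fun a => rfl
    simp only [this]
    constructor
    · intro h a; rw [h 0 (by decide)]; rfl
    · intro h j hj
      fin_cases j
      · funext a; exact h a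
      · exact absurd rfl hj
  -- Gram matrix
  have hcol0 : ∀ a, T (Pi.single (Sum.inl a) 1) ∈ D 0 := by
    intro a
    rw [hD0]; intro b; rw [LinearEquiv.symm_apply_apply]; simp
  have hcol1 : ∀ a, T (Pi.single (Sum.inr a) 1) ∈ D 1 := by
    intro a
    rw [hD1]; intro b; rw [LinearEquiv.symm_apply_apply]; simp
  have hentry : ∀ i j, gr (RingEquiv.refl F) (Matrix.J (Fin m) F) P₀ i j = sympForm m F (T (Pi.single i 1)) (T (Pi.single j 1)) := by
    intro i j
    rw [← hP₀, ← hP₀, symp_eq, bf_gr, bf_rf, Matrix.mulVec_single_one, single_dotProduct, one_mul]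
    rfl
  set X : Matrix (Fin m) (Fin m) F := Matrix.of fun a b => sympForm m F (T (Pi.single (Sum.inl a) 1)) (T (Pi.single (Sum.inr b) 1)) with hX
  have hgr : gr (RingEquiv.refl F) (Matrix.J (Fin m) F) P₀ = Matrix.fromBlocks 0 X (-Xᵀ) 0 := by
    ext i j
    rw [hentry]
    rcases i with a | a <;> rcases j with b | b
    · exact hs 0 _ (hcol0 a) _ (hcol0 b)
    · rfl
    · show _ = - sympForm m F _ _
      rw [sp_swap]
    · exact hs 1 _ (hcol1 a) _ (hcol1 b)
  have hXu : IsUnit X.det := by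
    have h1 := ((rfJ (F := F) (m := m)).gr P₀).unit
    rw [hgr, Matrix.isUnit_iff_isUnit_det] at h1
    rw [isUnit_iff_ne_zero] at h1 ⊢
    intro h0
    apply h1
    obtain ⟨v, hv, hv0⟩ := Matrix.exists_mulVec_eq_zero_iff.2 h0
    apply Matrix.exists_mulVec_eq_zero_iff.1
    refine ⟨Sum.elim 0 v, ?_, ?_⟩
    · intro h
      apply hv
      funext a
      exact congrFun h (Sum.inr a)
    · rw [Matrix.fromBlocks_mulVec]
      ext i
      rcases i with a | a
      · simp [Function.comp_def, hv0]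
      · have e1 : (Sum.elim (0 : Fin m → F) v) ∘ Sum.inl = 0 := rfl
        have e2 : (Sum.elim (0 : Fin m → F) v) ∘ Sum.inr = v := rfl
        rw [Sum.elim_inr, e1, e2, Matrix.mulVec_zero, Matrix.zero_mulVec, add_zero]
        rfl
  have hX1 : X * X⁻¹ = 1 := Matrix.mul_nonsing_inv _ hXu
  have hX2 : X⁻¹ * X = 1 := Matrix.nonsing_inv_mul _ hXu
  let Y : GL (Fin m ⊕ Fin m) F := ⟨Matrix.fromBlocks 1 0 0 (-X⁻¹), Matrix.fromBlocks 1 0 0 (-X), by
    rw [Matrix.fromBlocks_multiply]; simp [hX2], by rw [Matrix.fromBlocks_multiply]; simp [hX1]⟩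
  have hY : (Y : Matrix (Fin m ⊕ Fin m) (Fin m ⊕ Fin m) F) = Matrix.fromBlocks 1 0 0 (-X⁻¹) := rfl
  have hYi : ((Y⁻¹ : GL (Fin m ⊕ Fin m) F) : Matrix (Fin m ⊕ Fin m) (Fin m ⊕ Fin m) F) = Matrix.fromBlocks 1 0 0 (-X) := rfl
  refine ⟨P₀ * Y, ?_, ?_, ?_⟩
  · have h1 : gr (RingEquiv.refl F) (Matrix.J (Fin m) F) (P₀ * Y) =
        (Y : Matrix (Fin m ⊕ Fin m) (Fin m ⊕ Fin m) F)ᵀ * gr (RingEquiv.refl F) (Matrix.J (Fin m) F) P₀ * (Y : Matrix (Fin m ⊕ Fin m) (Fin m ⊕ Fin m) F) := by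
      unfold gr
      rw [map_rf, map_rf, Units.val_mul, Matrix.transpose_mul]
      simp only [mul_assoc]
    rw [h1, hgr, hY, Matrix.fromBlocks_transpose, Matrix.fromBlocks_multiply, Matrix.fromBlocks_multiply]
    have h3 : (X⁻¹)ᵀ * Xᵀ = 1 := by rw [← Matrix.transpose_mul, hX1, Matrix.transpose_one]
    simp only [Matrix.transpose_one, Matrix.transpose_zero, Matrix.transpose_neg, mul_zero, zero_mul, mul_one, one_mul, add_zero, zero_add,
      mul_neg, neg_mul, neg_zero, neg_neg, hX1, h3]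
    rfl
  · intro x
    rw [hD0, mul_inv_rev, Units.val_mul, ← Matrix.mulVec_mulVec, hP₀i, hYi, Matrix.fromBlocks_mulVec]
    constructor
    · intro h a
      have : (T.symm x) ∘ Sum.inr = 0 := by funext b; exact h b
      simp [this]
    · intro h
      have h1 : X *ᵥ ((T.symm x) ∘ Sum.inr) = 0 := by
        funext a
        have := h a
        simpa [Matrix.neg_mulVec] using this
      have h3 : (T.symm x) ∘ Sum.inr = 0 := by
        have := congrArg (fun z => X⁻¹ *ᵥ z) h1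
        simpa [Matrix.mulVec_mulVec, hX2] using this
      intro a
      exact congrFun h3 a
  · intro x
    rw [hD1, mul_inv_rev, Units.val_mul, ← Matrix.mulVec_mulVec, hP₀i, hYi, Matrix.fromBlocks_mulVec]
    constructor
    · intro h a
      have : (T.symm x) ∘ Sum.inl = 0 := by funext b; exact h b
      simp [this]
    · intro h a
      have := h a
      simpa using this

end pair

section three
variable {F : Type*} [Field F] [Fintype F]

lemma conj_W (A : Matrix (Fin 2) (Fin 2) F) : A * !![0, 1; -1, 0] * Aᵀ = A.det • (!![0, 1; -1, 0] : Matrix (Fin 2) (Fin 2) F) := by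
  ext i j
  fin_cases i <;> fin_cases j <;> simp [Matrix.mul_apply, Fin.sum_univ_two, Matrix.det_fin_two] <;> ring

/-- Pairs of totally singular planes over the field with three elements. -/
theorem ts_pair_three (hF : Fintype.card F = 3) {H : Subgroup (GL (Fin 2 ⊕ Fin 2) F)} (hI : H ≤ spGL 2 F)
    {D : Fin 2 → Submodule F (Fin 2 ⊕ Fin 2 → F)} (hD : IsMDecomposition 2 D)
    (hs : ∀ i, IsTotallySingularFor (sympForm 2 F) (D i)) (hle : H ≤ decompositionStabilizer D) :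
    ∃ e : Fin 2 → Matrix (Fin 2 ⊕ Fin 2) (Fin 2 ⊕ Fin 2) F, FIdem (RingEquiv.refl F) (Matrix.J (Fin 2) F) H e ∧
      ∀ i, adj (RingEquiv.refl F) (Matrix.J (Fin 2) F) (e i) = e i := by
  classical
  have h2 : (2 : F) ≠ 0 := two_ne_of_odd (by rw [hF]; decide)
  obtain ⟨P, hP, hP0, hP1⟩ := exists_sympl_pair hD hs
  obtain ⟨W, hW⟩ : ∃ W : Matrix (Fin 2) (Fin 2) F, W = !![0, 1; -1, 0] := ⟨_, rfl⟩
  have hWc : ∀ A : Matrix (Fin 2) (Fin 2) F, A * W * Aᵀ = A.det • W := by rw [hW]; exact conj_W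
  have hWW : W * W = -1 := by
    rw [hW]; ext i j; fin_cases i <;> fin_cases j <;> simp [Matrix.mul_apply, Fin.sum_univ_two]
  have hWT : Wᵀ = -W := by
    rw [hW]; ext i j; fin_cases i <;> fin_cases j <;> simp
  set j₀ : Matrix (Fin 2 ⊕ Fin 2) (Fin 2 ⊕ Fin 2) F := Matrix.fromBlocks 0 W (-W) 0 with hj₀
  have hjj : j₀ * j₀ = 1 := by
    rw [hj₀, Matrix.fromBlocks_multiply]
    simp [hWW]
  have hadj0 : adj (RingEquiv.refl F) (Matrix.J (Fin 2) F) j₀ = j₀ := by
    rw [adj_rf]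
    have hu := (rfJ (F := F) (m := 2)).unit
    have h1 : j₀ᵀ * Matrix.J (Fin 2) F = Matrix.J (Fin 2) F * j₀ := by
      rw [hj₀, Matrix.J, Matrix.fromBlocks_transpose, Matrix.fromBlocks_multiply, Matrix.fromBlocks_multiply]
      simp [hWT]
    rw [mul_assoc, h1, ← mul_assoc, Matrix.nonsing_inv_mul _ ((Matrix.isUnit_iff_isUnit_det _).1 hu), one_mul]
  have hne1 : j₀ ≠ 1 := by
    intro h
    have := congrFun (congrFun h (Sum.inl 0)) (Sum.inl 0)
    simp [hj₀] at this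
  have hne2 : j₀ ≠ -1 := by
    intro h
    have := congrFun (congrFun h (Sum.inl 0)) (Sum.inl 0)
    simp [hj₀] at this
  refine fidem_of_invol (rfJ (F := F) (m := 2)) h2 (j := cj P j₀) (by rw [← map_mul, hjj, map_one])
    (fun h => hne1 (by have := congrArg (cj P⁻¹) h; rwa [cj_inv_cj, map_one] at this))
    (fun h => hne2 (by have := congrArg (cj P⁻¹) h; rwa [cj_inv_cj, map_neg, map_one] at this))
    (by rw [adj_cj_gr rfJ, hP, hadj0]) ?_
  intro g hg
  -- the matrix in the symplectic basis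
  obtain ⟨g', hg'⟩ : ∃ g' : GL (Fin 2 ⊕ Fin 2) F, g' = P⁻¹ * g * P := ⟨_, rfl⟩
  have hgram : (g' : Matrix (Fin 2 ⊕ Fin 2) (Fin 2 ⊕ Fin 2) F)ᵀ * Matrix.J (Fin 2) F * (g' : Matrix (Fin 2 ⊕ Fin 2) (Fin 2 ⊕ Fin 2) F) = Matrix.J (Fin 2) F := by
    have := gr_invariant rfJ (mem_sp.1 (hI hg)) P
    rw [hP, map_rf] at this
    rw [hg', Units.val_mul, Units.val_mul]
    exact this
  -- it suffices to show the relation for g'
  suffices hkey : (g' : Matrix (Fin 2 ⊕ Fin 2) (Fin 2 ⊕ Fin 2) F) * j₀ = j₀ * g' ∨ (g' : Matrix (Fin 2 ⊕ Fin 2) (Fin 2 ⊕ Fin 2) F) * j₀ = -(j₀ * g') by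
    have h1 : cj g (cj P j₀) = cj P (cj g' j₀) := by
      rw [← cj_mul_apply, ← cj_mul_apply]
      congr 2
      rw [hg']; group
    rw [h1]
    rcases hkey with h | h
    · left
      rw [cj_apply g', h, mul_assoc, gl_mul_inv, mul_one]
    · right
      rw [cj_apply g', h, neg_mul, mul_assoc, gl_mul_inv, mul_one, map_neg]
  obtain ⟨A, B, C, E, hblk⟩ : ∃ A B C E, (g' : Matrix (Fin 2 ⊕ Fin 2) (Fin 2 ⊕ Fin 2) F) = Matrix.fromBlocks A B C E :=
    ⟨_, _, _, _, (Matrix.fromBlocks_toBlocks _).symm⟩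
  rw [hblk, Matrix.J, Matrix.fromBlocks_transpose, Matrix.fromBlocks_multiply, Matrix.fromBlocks_multiply, Matrix.fromBlocks_inj] at hgram
  simp only [mul_zero, mul_one, mul_neg, zero_add, add_zero, neg_mul] at hgram
  obtain ⟨r1, r2, r3, r4⟩ := hgram
  -- images of the columns
  obtain ⟨σ, hσ⟩ := hle hg
  have hcol : ∀ (i : Fin 2) x, x ∈ D i → (g : Matrix (Fin 2 ⊕ Fin 2) (Fin 2 ⊕ Fin 2) F) *ᵥ x ∈ D (σ i) := by
    intro i x hx
    rw [← hσ]; exact ⟨x, hx, Matrix.toLin'_apply _ _⟩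
  have hPg : ∀ x, ((P⁻¹ : GL (Fin 2 ⊕ Fin 2) F) : Matrix (Fin 2 ⊕ Fin 2) (Fin 2 ⊕ Fin 2) F) *ᵥ ((g : Matrix (Fin 2 ⊕ Fin 2) (Fin 2 ⊕ Fin 2) F) *ᵥ ((P : Matrix (Fin 2 ⊕ Fin 2) (Fin 2 ⊕ Fin 2) F) *ᵥ x)) =
      (g' : Matrix (Fin 2 ⊕ Fin 2) (Fin 2 ⊕ Fin 2) F) *ᵥ x := by
    intro x
    rw [hg', Units.val_mul, Units.val_mul, Matrix.mulVec_mulVec, Matrix.mulVec_mulVec, mul_assoc]
  have hPi : ∀ x, ((P⁻¹ : GL (Fin 2 ⊕ Fin 2) F) : Matrix (Fin 2 ⊕ Fin 2) (Fin 2 ⊕ Fin 2) F) *ᵥ ((P : Matrix (Fin 2 ⊕ Fin 2) (Fin 2 ⊕ Fin 2) F) *ᵥ x) = x := by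
    intro x
    rw [Matrix.mulVec_mulVec, gl_inv_mul, Matrix.one_mulVec]
  have hm0 : ∀ a, (P : Matrix (Fin 2 ⊕ Fin 2) (Fin 2 ⊕ Fin 2) F) *ᵥ Pi.single (Sum.inl a) 1 ∈ D 0 := by
    intro a; rw [hP0]; intro b; rw [hPi]; simp
  have hm1 : ∀ a, (P : Matrix (Fin 2 ⊕ Fin 2) (Fin 2 ⊕ Fin 2) F) *ᵥ Pi.single (Sum.inr a) 1 ∈ D 1 := by
    intro a; rw [hP1]; intro b; rw [hPi]; simp
  have hdet : ∀ X : Matrix (Fin 2) (Fin 2) F, X.det ≠ 0 → X.det = 1 ∨ X.det = -1 := fun X hX => (three_cases hF X.det).resolve_left hX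
  have hent : ∀ i j, (g' : Matrix (Fin 2 ⊕ Fin 2) (Fin 2 ⊕ Fin 2) F) i j = ((g' : Matrix (Fin 2 ⊕ Fin 2) (Fin 2 ⊕ Fin 2) F) *ᵥ Pi.single j 1) i := by
    intro i j; rw [Matrix.mulVec_single_one]; rfl
  by_cases h0 : σ 0 = 0
  · have h1 : σ 1 = 1 := by
      have : σ 1 ≠ σ 0 := fun h => absurd (σ.injective h) (by decide)
      rw [h0] at this
      revert this
      generalize σ 1 = z
      fin_cases z <;> simp
    have hC : C = 0 := by
      ext a b
      have h3 := (hP0 _).1 (by have := hcol 0 _ (hm0 b); rw [h0] at this; exact this) a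
      rw [hPg, ← hent, hblk] at h3
      exact h3
    have hB : B = 0 := by
      ext a b
      have h3 := (hP1 _).1 (by have := hcol 1 _ (hm1 b); rw [h1] at this; exact this) a
      rw [hPg, ← hent, hblk] at h3
      exact h3
    subst hC; subst hB
    simp only [Matrix.transpose_zero, zero_mul, mul_zero, neg_zero, zero_add, add_zero] at r1 r2 r3 r4
    have hAE : Aᵀ * E = 1 := neg_injective r2
    have hEA : Eᵀ * A = 1 := r3
    have hdA : A.det * E.det = 1 := by rw [← Matrix.det_transpose, ← Matrix.det_mul, hAE, Matrix.det_one]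
    have hdA0 : A.det ≠ 0 := fun h => by rw [h, zero_mul] at hdA; exact zero_ne_one hdA
    have e1 : A * W = A.det • (W * E) := by
      calc A * W = A * W * (Aᵀ * E) := by rw [hAE, mul_one]
        _ = (A * W * Aᵀ) * E := by simp only [mul_assoc]
        _ = _ := by rw [hWc, Matrix.smul_mul]
    have e2 : E * W = E.det • (W * A) := by
      calc E * W = E * W * (Eᵀ * A) := by rw [hEA, mul_one]
        _ = (E * W * Eᵀ) * A := by simp only [mul_assoc]
        _ = _ := by rw [hWc, Matrix.smul_mul]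
    rw [hblk, hj₀, Matrix.fromBlocks_multiply, Matrix.fromBlocks_multiply]
    simp only [mul_zero, zero_mul, zero_add, add_zero, mul_neg, neg_mul]
    rw [e1, e2]
    rcases hdet A hdA0 with h | h
    · left
      have h' : E.det = 1 := by rw [h, one_mul] at hdA; exact hdA
      rw [h, h', one_smul, one_smul, neg_zero]
    · right
      have h' : E.det = -1 := by rw [h] at hdA; linear_combination -hdA
      rw [h, h', neg_smul, one_smul, neg_smul, one_smul, Matrix.fromBlocks_neg, neg_neg, neg_zero]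
  · have h0' : σ 0 = 1 := by
      revert h0
      generalize σ 0 = z
      fin_cases z <;> simp
    have h1 : σ 1 = 0 := by
      have : σ 1 ≠ σ 0 := fun h => absurd (σ.injective h) (by decide)
      rw [h0'] at this
      revert this
      generalize σ 1 = z
      fin_cases z <;> simp
    have hA : A = 0 := by
      ext a b
      have h3 := (hP1 _).1 (by have := hcol 0 _ (hm0 b); rw [h0'] at this; exact this) a
      rw [hPg, ← hent, hblk] at h3
      exact h3
    have hE : E = 0 := by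
      ext a b
      have h3 := (hP0 _).1 (by have := hcol 1 _ (hm1 b); rw [h1] at this; exact this) a
      rw [hPg, ← hent, hblk] at h3
      exact h3
    subst hA; subst hE
    simp only [Matrix.transpose_zero, zero_mul, mul_zero, neg_zero, zero_add, add_zero] at r1 r2 r3 r4
    have hCB : Cᵀ * B = -1 := r2
    have hBC : Bᵀ * C = -1 := by rw [← neg_neg (Bᵀ * C), r3]
    have hdB : C.det * B.det = 1 := by
      rw [← Matrix.det_transpose, ← Matrix.det_mul, hCB, Matrix.det_neg, Matrix.det_one]; simp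
    have hdB0 : B.det ≠ 0 := fun h => by rw [h, mul_zero] at hdB; exact zero_ne_one hdB
    have e1 : B * W = B.det • -(W * C) := by
      calc B * W = -(B * W * (Bᵀ * C)) := by rw [hBC, mul_neg, mul_one, neg_neg]
        _ = -((B * W * Bᵀ) * C) := by simp only [mul_assoc]
        _ = _ := by rw [hWc, Matrix.smul_mul, smul_neg]
    have e2 : C * W = C.det • -(W * B) := by
      calc C * W = -(C * W * (Cᵀ * B)) := by rw [hCB, mul_neg, mul_one, neg_neg]
        _ = -((C * W * Cᵀ) * B) := by simp only [mul_assoc]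
        _ = _ := by rw [hWc, Matrix.smul_mul, smul_neg]
    rw [hblk, hj₀, Matrix.fromBlocks_multiply, Matrix.fromBlocks_multiply]
    simp only [mul_zero, zero_mul, zero_add, add_zero, mul_neg, neg_mul]
    rw [e1, e2]
    rcases hdet B hdB0 with h | h
    · left
      have h' : C.det = 1 := by rw [h, mul_one] at hdB; exact hdB
      rw [h, h', one_smul, one_smul, neg_neg]
      simp
    · right
      have h' : C.det = -1 := by rw [h] at hdB; linear_combination -hdB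
      rw [h, h', neg_smul, one_smul, neg_smul, one_smul, Matrix.fromBlocks_neg, neg_neg, neg_neg, neg_zero]

end three

end Cfsg.Agent.Lib.AschSp
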