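import Cfsg.Agent.Lib.AschESys
import Cfsg.Agent.Lib.AschSp11
set_option autoImplicit false
set_option linter.style.haveILetI false
set_option linter.unusedVariables false
set_option linter.unusedSectionVars false

/-!
Maximal subgroups of `Sp_4(3)`: the unitary extension field subgroup lies in the normaliser of an extraspecial group.
-/

namespace Cfsg.Agent.Lib.AschESys

open Cfsg Cfsg.Geo Cfsg.Agent.Lib.AschMU Cfsg.Agent.Lib.AschCore Cfsg.Agent.Lib.AschField Cfsg.Agent.Lib.AschAlg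
  Cfsg.Agent.Lib.AschGroup Cfsg.Agent.Lib.AschGood Cfsg.Agent.Lib.AschAdj Cfsg.Agent.Lib.AschNonab Cfsg.Agent.Lib.AschTensor
  Cfsg.Agent.Lib.AschComp Cfsg.Agent.Lib.AschSp
open scoped Matrix MatrixGroups Kronecker

section q4
variable {ι : Type} [Fintype ι] [DecidableEq ι] {F : Type*} [Field F]

/-- The four products of two matrices. -/
def q4 (a b : Matrix ι ι F) : Fin 4 → Matrix ι ι F := ![1, a, b, a * b]

/-- The commutation rule. -/
def c4 (x y : Fin 4) : Bool := decide (x = 0 ∨ y = 0 ∨ x = y)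

lemma q4_comm {a b : Matrix ι ι F} (hab : b * a = -(a * b)) (ha : a * a = 1 ∨ a * a = -1) (hb : b * b = 1 ∨ b * b = -1) (x y : Fin 4) :
    (c4 x y = true → q4 a b x * q4 a b y = q4 a b y * q4 a b x) ∧ (c4 x y = false → q4 a b x * q4 a b y = -(q4 a b y * q4 a b x)) := by
  have h1 : a * (a * b) = -(a * b * a) := by rw [mul_assoc a b a, hab, mul_neg, neg_neg]
  have h2 : b * (a * b) = -(a * b * b) := by rw [← mul_assoc, hab, neg_mul]
  have h3 : a * b = -(b * a) := by rw [hab, neg_neg]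
  have h1' : a * b * a = -(a * (a * b)) := by rw [h1, neg_neg]
  have h2' : a * b * b = -(b * (a * b)) := by rw [h2, neg_neg]
  fin_cases x <;> fin_cases y <;> refine ⟨fun h => ?_, fun h => ?_⟩ <;> first | (exact absurd h (by decide)) | skip
  · rfl
  · show 1 * a = a * 1; rw [one_mul, mul_one]
  · show 1 * b = b * 1; rw [one_mul, mul_one]
  · show 1 * (a * b) = (a * b) * 1; rw [one_mul, mul_one]
  · show a * 1 = 1 * a; rw [one_mul, mul_one]
  · rfl
  · exact h3
  · exact h1
  · show b * 1 = 1 * b; rw [one_mul, mul_one]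
  · exact hab
  · rfl
  · exact h2
  · show (a * b) * 1 = 1 * (a * b); rw [one_mul, mul_one]
  · exact h1'
  · exact h2'
  · rfl

lemma q4_mul {a b : Matrix ι ι F} (hab : b * a = -(a * b)) (ha : a * a = 1 ∨ a * a = -1) (hb : b * b = 1 ∨ b * b = -1) (x y : Fin 4) :
    ∃ z, q4 a b x * q4 a b y = q4 a b z ∨ q4 a b x * q4 a b y = -q4 a b z := by
  have one_l : ∀ X : Matrix ι ι F, (1 : Matrix ι ι F) * X = X := one_mul
  have e1 : (a * b) * a = -((a * a) * b) := by rw [mul_assoc a b a, hab, mul_neg, mul_assoc]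
  have e2 : b * (a * b) = -(a * (b * b)) := by rw [← mul_assoc, hab, neg_mul, mul_assoc]
  have e3 : (a * b) * (a * b) = -((a * a) * (b * b)) := by
    rw [mul_assoc a b (a * b), e2, mul_neg, mul_assoc]
  fin_cases x <;> fin_cases y
  · exact ⟨0, Or.inl (one_mul _)⟩
  · exact ⟨1, Or.inl (one_mul _)⟩
  · exact ⟨2, Or.inl (one_mul _)⟩
  · exact ⟨3, Or.inl (one_mul _)⟩
  · exact ⟨1, Or.inl (mul_one _)⟩
  · exact ⟨0, ha⟩
  · exact ⟨3, Or.inl rfl⟩
  · refine ⟨2, ?_⟩
    show a * (a * b) = b ∨ a * (a * b) = -b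
    rw [← mul_assoc]
    rcases ha with h | h <;> rw [h] <;> simp
  · exact ⟨2, Or.inl (mul_one _)⟩
  · exact ⟨3, Or.inr hab⟩
  · exact ⟨0, hb⟩
  · refine ⟨1, ?_⟩
    show b * (a * b) = a ∨ b * (a * b) = -a
    rw [e2]
    rcases hb with h | h <;> rw [h] <;> simp
  · exact ⟨3, Or.inl (mul_one _)⟩
  · refine ⟨2, ?_⟩
    show (a * b) * a = b ∨ (a * b) * a = -b
    rw [e1]
    rcases ha with h | h <;> rw [h] <;> simp
  · refine ⟨1, ?_⟩
    show (a * b) * b = a ∨ (a * b) * b = -a
    rw [mul_assoc]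
    rcases hb with h | h <;> rw [h] <;> simp
  · refine ⟨0, ?_⟩
    show (a * b) * (a * b) = 1 ∨ (a * b) * (a * b) = -1
    rw [e3]
    rcases ha with h | h <;> rcases hb with h' | h' <;> rw [h, h'] <;> simp

lemma q4_sq {a b : Matrix ι ι F} (hab : b * a = -(a * b)) (ha : a * a = 1 ∨ a * a = -1) (hb : b * b = 1 ∨ b * b = -1) (x : Fin 4) :
    q4 a b x * q4 a b x = 1 ∨ q4 a b x * q4 a b x = -1 := by
  have e3 : (a * b) * (a * b) = -((a * a) * (b * b)) := by
    have e2 : b * (a * b) = -(a * (b * b)) := by rw [← mul_assoc, hab, neg_mul, mul_assoc]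
    rw [mul_assoc a b (a * b), e2, mul_neg, mul_assoc]
  fin_cases x
  · left; exact one_mul _
  · exact ha
  · exact hb
  · show (a * b) * (a * b) = 1 ∨ (a * b) * (a * b) = -1
    rw [e3]
    rcases ha with h | h <;> rcases hb with h' | h' <;> rw [h, h'] <;> simp

lemma q4_sq_neg {a b : Matrix ι ι F} (hab : b * a = -(a * b)) (ha : a * a = -1) (hb : b * b = -1) (x : Fin 4) (hx : x ≠ 0) :
    q4 a b x * q4 a b x = -1 := by
  have e3 : (a * b) * (a * b) = -((a * a) * (b * b)) := by
    have e2 : b * (a * b) = -(a * (b * b)) := by rw [← mul_assoc, hab, neg_mul, mul_assoc]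
    rw [mul_assoc a b (a * b), e2, mul_neg, mul_assoc]
  fin_cases x
  · exact absurd rfl hx
  · exact ha
  · exact hb
  · show (a * b) * (a * b) = -1
    rw [e3, ha, hb]; simp

lemma q4_commute {a b c d : Matrix ι ι F} (hac : a * c = c * a) (had : a * d = d * a) (hbc : b * c = c * b) (hbd : b * d = d * b) (x y : Fin 4) :
    q4 a b x * q4 c d y = q4 c d y * q4 a b x := by
  have h1 : Commute a c := hac
  have h2 : Commute a d := had
  have h3 : Commute b c := hbc
  have h4 : Commute b d := hbd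
  have key : ∀ z : Matrix ι ι F, Commute a z → Commute b z → Commute (q4 a b x) z := by
    intro z hz hz'
    fin_cases x
    · exact Commute.one_left _
    · exact hz
    · exact hz'
    · exact hz.mul_left hz'
  have h5 := key c h1 h3
  have h6 := key d h2 h4
  show Commute (q4 a b x) (q4 c d y)
  fin_cases y
  · exact Commute.one_right _
  · exact h5
  · exact h6
  · exact h5.mul_right h6

/-- A system without the condition on squares. -/
structure PreSys {Λ : Type} (B : Λ → Matrix ι ι F) (o : Λ) : Prop where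
  one : B o = 1
  mul : ∀ x y, ∃ z, B x * B y = B z ∨ B x * B y = -B z
  sq : ∀ x, B x * B x = 1 ∨ B x * B x = -1
  comm : ∀ x y, B x * B y = B y * B x ∨ B x * B y = -(B y * B x)
  sep : ∀ x y, x ≠ y → ∃ z, (B x * B z = B z * B x ∧ B y * B z = -(B z * B y)) ∨ (B x * B z = -(B z * B x) ∧ B y * B z = B z * B y)

lemma Sys.pre {Λ : Type} {B : Λ → Matrix ι ι F} {o : Λ} (h : Sys B o) : PreSys B o := ⟨h.one, h.mul, h.sq, h.comm, h.sep⟩

lemma preSys_q4 {a b : Matrix ι ι F} (hab : b * a = -(a * b)) (ha : a * a = 1 ∨ a * a = -1) (hb : b * b = 1 ∨ b * b = -1) :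
    PreSys (q4 a b) 0 where
  one := rfl
  mul := q4_mul hab ha hb
  sq := q4_sq hab ha hb
  comm x y := by
    rcases h : c4 x y with _ | _
    · right; exact (q4_comm hab ha hb x y).2 h
    · left; exact (q4_comm hab ha hb x y).1 h
  sep x y hxy := by
    have key : ∀ x y : Fin 4, x ≠ y → ∃ z, (c4 x z = true ∧ c4 y z = false) ∨ (c4 x z = false ∧ c4 y z = true) := by decide
    obtain ⟨z, hz⟩ := key x y hxy
    refine ⟨z, ?_⟩
    rcases hz with ⟨h1, h2⟩ | ⟨h1, h2⟩
    · left; exact ⟨(q4_comm hab ha hb x z).1 h1, (q4_comm hab ha hb y z).2 h2⟩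
    · right; exact ⟨(q4_comm hab ha hb x z).2 h1, (q4_comm hab ha hb y z).1 h2⟩

/-- The product of a quaternion system and a commuting system. -/
theorem PreSys.prod [Nonempty ι] (h2 : (2 : F) ≠ 0) {Λ : Type} {B : Λ → Matrix ι ι F} {o : Λ} (h : PreSys B o) {a b : Matrix ι ι F} (hab : b * a = -(a * b))
    (ha : a * a = -1) (hb : b * b = -1) (hc : ∀ x y, q4 a b x * B y = B y * q4 a b x) :
    Sys (fun p : Fin 4 × Λ => q4 a b p.1 * B p.2) (0, o) := by
  have hq := preSys_q4 hab (Or.inr ha) (Or.inr hb)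
  have hmul : ∀ (x : Fin 4) (y : Λ) (w : Fin 4) (z : Λ), (q4 a b x * B y) * (q4 a b w * B z) = (q4 a b x * q4 a b w) * (B y * B z) := by
    intro x y w z
    rw [mul_assoc, ← mul_assoc (B y), ← hc, mul_assoc, mul_assoc]
  have hqo : ∀ x, q4 a b x * B o = q4 a b x := fun x => by rw [h.one, mul_one]
  have hq0 : ∀ y, q4 a b 0 * B y = B y := fun y => one_mul _
  have hantiq : ∀ (x w : Fin 4) (y : Λ), q4 a b x * q4 a b w = -(q4 a b w * q4 a b x) →
      (q4 a b x * B y) * (q4 a b w * B o) = -((q4 a b w * B o) * (q4 a b x * B y)) := by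
    intro x w y hxw
    have := hmul x y w o
    have h' := hmul w o x y
    rw [this, h', hxw, h.one, mul_one, one_mul, neg_mul]
  have hcommq : ∀ (x w : Fin 4) (y : Λ), q4 a b x * q4 a b w = q4 a b w * q4 a b x →
      (q4 a b x * B y) * (q4 a b w * B o) = (q4 a b w * B o) * (q4 a b x * B y) := by
    intro x w y hxw
    have := hmul x y w o
    have h' := hmul w o x y
    rw [this, h', hxw, h.one, mul_one, one_mul]
  have hantiB : ∀ (x w : Fin 4) (y z : Λ), q4 a b x * q4 a b w = q4 a b w * q4 a b x → B y * B z = -(B z * B y) →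
      (q4 a b x * B y) * (q4 a b w * B z) = -((q4 a b w * B z) * (q4 a b x * B y)) := by
    intro x w y z hxw hyz
    have := hmul x y w z
    have h' := hmul w z x y
    rw [this, h', hxw, hyz, mul_neg]
  have hcommB : ∀ (x w : Fin 4) (y z : Λ), q4 a b x * q4 a b w = q4 a b w * q4 a b x → B y * B z = B z * B y →
      (q4 a b x * B y) * (q4 a b w * B z) = (q4 a b w * B z) * (q4 a b x * B y) := by
    intro x w y z hxw hyz
    have := hmul x y w z
    have h' := hmul w z x y
    rw [this, h', hxw, hyz]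
  refine ⟨?_, ?_, ?_, ?_, ?_, ?_⟩
  · show q4 a b 0 * B o = 1
    rw [hq0, h.one]
  · intro p q
    obtain ⟨z, hz⟩ := hq.mul p.1 q.1
    obtain ⟨w, hw⟩ := h.mul p.2 q.2
    refine ⟨(z, w), ?_⟩
    simp only
    rw [hmul p.1 p.2 q.1 q.2]
    rcases hz with hz | hz <;> rcases hw with hw | hw <;> rw [hz, hw] <;> simp
  · intro p
    rw [hmul p.1 p.2 p.1 p.2]
    rcases hq.sq p.1 with hz | hz <;> rcases h.sq p.2 with hw | hw <;> rw [hz, hw] <;> simp
  · intro p q
    rw [hmul p.1 p.2 q.1 q.2, hmul q.1 q.2 p.1 p.2]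
    rcases hq.comm p.1 q.1 with hz | hz <;> rcases h.comm p.2 q.2 with hw | hw <;> rw [hz, hw] <;> simp
  · rintro ⟨x, y⟩ ⟨x', y'⟩ hne
    by_cases hx : x = x'
    · have hy : y ≠ y' := fun h' => hne (by rw [hx, h'])
      obtain ⟨z, hz⟩ := h.sep y y' hy
      have h0 : ∀ x, q4 a b x * q4 a b 0 = q4 a b 0 * q4 a b x := fun x => by
        show q4 a b x * 1 = 1 * q4 a b x
        rw [mul_one, one_mul]
      refine ⟨(0, z), ?_⟩
      rcases hz with ⟨h1, h3⟩ | ⟨h1, h3⟩
      · left; exact ⟨hcommB _ _ _ _ (h0 x) h1, hantiB _ _ _ _ (h0 x') h3⟩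
      · right; exact ⟨hantiB _ _ _ _ (h0 x) h1, hcommB _ _ _ _ (h0 x') h3⟩
    · obtain ⟨z, hz⟩ := hq.sep x x' hx
      refine ⟨(z, o), ?_⟩
      rcases hz with ⟨h1, h3⟩ | ⟨h1, h3⟩
      · left; exact ⟨hcommq _ _ _ h1, hantiq _ _ _ h3⟩
      · right; exact ⟨hantiq _ _ _ h1, hcommq _ _ _ h3⟩
  · rintro ⟨x, y⟩ hne
    by_cases hx : x = 0
    · subst hx
      have hy : y ≠ o := fun h' => hne (by rw [h'])
      obtain ⟨z, hz⟩ := h.sep y o hy
      have hu : IsUnit (B z) := by
        rcases h.sq z with h' | h'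
        · exact IsUnit.of_mul_eq_one _ h'
        · exact IsUnit.of_mul_eq_one (-(B z)) (by rw [mul_neg, h', neg_neg])
      have hyz : B y * B z = -(B z * B y) := by
        rcases hz with ⟨-, h1⟩ | ⟨h1, -⟩
        · exfalso
          rw [h.one, one_mul, mul_one] at h1
          exact ne_neg h2 hu.ne_zero h1
        · exact h1
      have hzy : B z * B y = -(B y * B z) := by rw [hyz, neg_neg]
      have h0 : ∀ x, q4 a b x * q4 a b 0 = q4 a b 0 * q4 a b x := fun x => by
        show q4 a b x * 1 = 1 * q4 a b x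
        rw [mul_one, one_mul]
      rcases h.sq z with hs | hs
      · refine ⟨(1, z), ?_, ?_⟩
        · have := hmul 1 z 1 z
          refine this.trans ?_
          show (a * a) * (B z * B z) = -1
          rw [ha, hs, mul_one]
        · exact hantiB _ _ _ _ (h0 1) hzy
      · refine ⟨(0, z), ?_, ?_⟩
        · have := hmul 0 z 0 z
          refine this.trans ?_
          show (1 * 1) * (B z * B z) = -1
          rw [one_mul, one_mul, hs]
        · exact hantiB _ _ _ _ rfl hzy
    · have key : ∀ x : Fin 4, x ≠ 0 → ∃ w, w ≠ 0 ∧ c4 w x = false := by decide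
      obtain ⟨w, hw0, hw⟩ := key x hx
      have hwx := (q4_comm hab (Or.inr ha) (Or.inr hb) w x).2 hw
      refine ⟨(w, o), ?_, ?_⟩
      · refine (hmul w o w o).trans ?_
        rw [q4_sq_neg hab ha hb w hw0, h.one, mul_one, mul_one]
      · have := hmul w o x y
        have h' := hmul x y w o
        show q4 a b w * B o * (q4 a b x * B y) = -(q4 a b x * B y * (q4 a b w * B o))
        rw [this, h', hwx, h.one, one_mul, mul_one, neg_mul]

end q4

end Cfsg.Agent.Lib.AschESys
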