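import Cfsg.Agent.Lib.AschSp12
set_option autoImplicit false
set_option linter.style.haveILetI false
set_option linter.unusedVariables false
set_option linter.unusedSectionVars false

/-!
Maximal subgroups of `Sp_4(3)`: the unitary extension field subgroup lies in the normaliser of an extraspecial group
(computations in coordinates).
-/

namespace Cfsg.Agent.Lib.AschE4

open Cfsg Cfsg.Geo Cfsg.Agent.Lib.AschMU Cfsg.Agent.Lib.AschCore Cfsg.Agent.Lib.AschField Cfsg.Agent.Lib.AschAlg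
  Cfsg.Agent.Lib.AschGroup Cfsg.Agent.Lib.AschGood Cfsg.Agent.Lib.AschAdj Cfsg.Agent.Lib.AschNonab Cfsg.Agent.Lib.AschTensor
  Cfsg.Agent.Lib.AschComp Cfsg.Agent.Lib.AschSp Cfsg.Agent.Lib.AschESys
open scoped Matrix MatrixGroups Kronecker

variable {F : Type*} [Field F]

/-- The first quaternion generator. -/
def a1 (F : Type*) [Field F] : Matrix (Fin 2 ⊕ Fin 2) (Fin 2 ⊕ Fin 2) F := Matrix.fromBlocks !![0, -1; 1, 0] 0 0 !![0, -1; 1, 0]
/-- The second quaternion generator. -/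
def a2 (F : Type*) [Field F] : Matrix (Fin 2 ⊕ Fin 2) (Fin 2 ⊕ Fin 2) F := Matrix.fromBlocks 0 !![-1, 0; 0, 1] !![1, 0; 0, -1] 0
/-- The product of the quaternion generators. -/
def a3 (F : Type*) [Field F] : Matrix (Fin 2 ⊕ Fin 2) (Fin 2 ⊕ Fin 2) F := Matrix.fromBlocks 0 !![0, -1; -1, 0] !![0, 1; 1, 0] 0
/-- The involution. -/
def s0 (F : Type*) [Field F] : Matrix (Fin 2 ⊕ Fin 2) (Fin 2 ⊕ Fin 2) F :=
  Matrix.fromBlocks !![0, -1; 1, 0] !![0, -1; 1, 0] !![0, -1; 1, 0] !![0, 1; -1, 0]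
/-- The matrix of the form. -/
def j0 (F : Type*) [Field F] : Matrix (Fin 2 ⊕ Fin 2) (Fin 2 ⊕ Fin 2) F := Matrix.fromBlocks 0 !![-1, 0; 0, -1] !![1, 0; 0, 1] 0

lemma j0_eq : j0 F = Matrix.J (Fin 2) F := by
  rw [Matrix.J, j0]
  congr 1 <;> (ext i j; fin_cases i <;> fin_cases j <;> simp)

lemma ext4 {X Y : Matrix (Fin 2 ⊕ Fin 2) (Fin 2 ⊕ Fin 2) F}
    (h1 : ∀ i j : Fin 2, X (Sum.inl i) (Sum.inl j) = Y (Sum.inl i) (Sum.inl j))
    (h2 : ∀ i j : Fin 2, X (Sum.inl i) (Sum.inr j) = Y (Sum.inl i) (Sum.inr j))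
    (h3 : ∀ i j : Fin 2, X (Sum.inr i) (Sum.inl j) = Y (Sum.inr i) (Sum.inl j))
    (h4 : ∀ i j : Fin 2, X (Sum.inr i) (Sum.inr j) = Y (Sum.inr i) (Sum.inr j)) : X = Y := by
  ext i j
  rcases i with i | i <;> rcases j with j | j
  · exact h1 i j
  · exact h2 i j
  · exact h3 i j
  · exact h4 i j

lemma a1_sq : a1 F * a1 F = -1 := by
  apply ext4 <;> intro i j <;> fin_cases i <;> fin_cases j <;> simp [a1, Matrix.mul_apply, Fintype.sum_sum_type, Fin.sum_univ_two]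

lemma a2_sq : a2 F * a2 F = -1 := by
  apply ext4 <;> intro i j <;> fin_cases i <;> fin_cases j <;> simp [a2, Matrix.mul_apply, Fintype.sum_sum_type, Fin.sum_univ_two]

lemma a12 : a1 F * a2 F = a3 F := by
  apply ext4 <;> intro i j <;> fin_cases i <;> fin_cases j <;> simp [a1, a2, a3, Matrix.mul_apply, Fintype.sum_sum_type, Fin.sum_univ_two]

lemma a21 : a2 F * a1 F = -(a1 F * a2 F) := by
  rw [a12]
  apply ext4 <;> intro i j <;> fin_cases i <;> fin_cases j <;> simp [a1, a2, a3, Matrix.mul_apply, Fintype.sum_sum_type, Fin.sum_univ_two]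

lemma s0_sq (h3 : (3 : F) = 0) : s0 F * s0 F = 1 := by
  have h : (-1 : F) + -1 = 1 := by linear_combination -h3
  apply ext4 <;> intro i j <;> fin_cases i <;> fin_cases j <;> simp [s0, Matrix.mul_apply, Fintype.sum_sum_type, Fin.sum_univ_two, h]

lemma j0_sq : j0 F * j0 F = -1 := by
  apply ext4 <;> intro i j <;> fin_cases i <;> fin_cases j <;> simp [j0, Matrix.mul_apply, Fintype.sum_sum_type, Fin.sum_univ_two]

lemma sj : s0 F * j0 F = -(j0 F * s0 F) := by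
  apply ext4 <;> intro i j <;> fin_cases i <;> fin_cases j <;> simp [j0, s0, Matrix.mul_apply, Fintype.sum_sum_type, Fin.sum_univ_two]

lemma a1j : a1 F * j0 F = j0 F * a1 F := by
  apply ext4 <;> intro i j <;> fin_cases i <;> fin_cases j <;> simp [j0, a1, Matrix.mul_apply, Fintype.sum_sum_type, Fin.sum_univ_two]

lemma a2j : a2 F * j0 F = j0 F * a2 F := by
  apply ext4 <;> intro i j <;> fin_cases i <;> fin_cases j <;> simp [j0, a2, Matrix.mul_apply, Fintype.sum_sum_type, Fin.sum_univ_two]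

lemma a1s : a1 F * s0 F = s0 F * a1 F := by
  apply ext4 <;> intro i j <;> fin_cases i <;> fin_cases j <;> simp [s0, a1, Matrix.mul_apply, Fintype.sum_sum_type, Fin.sum_univ_two]

lemma a2s : a2 F * s0 F = s0 F * a2 F := by
  apply ext4 <;> intro i j <;> fin_cases i <;> fin_cases j <;> simp [s0, a2, Matrix.mul_apply, Fintype.sum_sum_type, Fin.sum_univ_two]

lemma a1_tr : (a1 F)ᵀ = -a1 F := by
  apply ext4 <;> intro i j <;> fin_cases i <;> fin_cases j <;> simp [a1]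

lemma a2_tr : (a2 F)ᵀ = -a2 F := by
  apply ext4 <;> intro i j <;> fin_cases i <;> fin_cases j <;> simp [a2]

lemma j0_tr : (j0 F)ᵀ = -j0 F := by
  apply ext4 <;> intro i j <;> fin_cases i <;> fin_cases j <;> simp [j0]

lemma tr_a1j : (a1 F * j0 F).trace = 0 := by
  simp [a1, j0, Matrix.trace, Matrix.mul_apply, Fintype.sum_sum_type, Fin.sum_univ_two]

lemma tr_a2j : (a2 F * j0 F).trace = 0 := by
  simp [a2, j0, Matrix.trace, Matrix.mul_apply, Fintype.sum_sum_type, Fin.sum_univ_two]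

/-- The elements of the quaternion part. -/
theorem quat_part (h2 : (2 : F) ≠ 0) {X : Matrix (Fin 2 ⊕ Fin 2) (Fin 2 ⊕ Fin 2) F} (hJ : X * j0 F = j0 F * X) (hT : Xᵀ = -X)
    (htr : (X * j0 F).trace = 0) : ∃ α β γ : F, X = α • a1 F + β • a2 F + γ • a3 F := by
  have hskew : ∀ i j, X j i = -X i j := fun i j => congrFun (congrFun hT i) j
  have hdiag : ∀ i, X i i = 0 := fun i => by
    have := hskew i i
    have h : 2 * X i i = 0 := by linear_combination this
    exact (mul_eq_zero.1 h).resolve_left h2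
  have hJ1 : ∀ i j : Fin 2, (X * j0 F) (Sum.inl i) (Sum.inl j) = (j0 F * X) (Sum.inl i) (Sum.inl j) := fun i j => by rw [hJ]
  have hJ2 : ∀ i j : Fin 2, (X * j0 F) (Sum.inl i) (Sum.inr j) = (j0 F * X) (Sum.inl i) (Sum.inr j) := fun i j => by rw [hJ]
  simp only [j0, Matrix.mul_apply, Fintype.sum_sum_type, Fin.sum_univ_two, Fin.forall_fin_two, Matrix.fromBlocks_apply₁₁, Matrix.fromBlocks_apply₁₂,
    Matrix.fromBlocks_apply₂₁, Matrix.fromBlocks_apply₂₂, Matrix.trace, Matrix.diag_apply] at hJ1 hJ2 htr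
  simp at hJ1 hJ2 htr
  obtain ⟨⟨r1, r2⟩, r3, r4⟩ := hJ1
  obtain ⟨⟨r5, r6⟩, r7, r8⟩ := hJ2
  have hp : X (Sum.inr 1) (Sum.inl 1) = -X (Sum.inr 0) (Sum.inl 0) := by
    have h : 2 * (X (Sum.inr 1) (Sum.inl 1) + X (Sum.inr 0) (Sum.inl 0)) = 0 := by
      rw [r1, r4] at htr
      linear_combination -htr
    linear_combination (mul_eq_zero.1 h).resolve_left h2
  have hsym : X (Sum.inr 1) (Sum.inl 0) = X (Sum.inr 0) (Sum.inl 1) := by
    rw [hskew (Sum.inl 0) (Sum.inr 1), r2, neg_neg]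
  refine ⟨X (Sum.inl 1) (Sum.inl 0), X (Sum.inr 0) (Sum.inl 0), X (Sum.inr 0) (Sum.inl 1), ?_⟩
  have s1 := hskew (Sum.inl 1) (Sum.inl 0)
  apply ext4 <;> intro i j <;> fin_cases i <;> fin_cases j <;> simp [a1, a2, a3]
  · exact hdiag _
  · exact s1
  · exact hdiag _
  · exact r1
  · exact r2
  · rw [r3, hsym]
  · rw [r4, hp, neg_neg]
  · exact hsym
  · exact hp
  · exact hdiag _
  · rw [← r6]; exact s1
  · exact r7.symm
  · exact hdiag _

/-- Unit vectors. -/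
lemma three_squares [Fintype F] (hF : Fintype.card F = 3) {α β γ : F} (h : α * α + β * β + γ * γ = 1) :
    (β = 0 ∧ γ = 0 ∧ (α = 1 ∨ α = -1)) ∨ (α = 0 ∧ γ = 0 ∧ (β = 1 ∨ β = -1)) ∨ (α = 0 ∧ β = 0 ∧ (γ = 1 ∨ γ = -1)) := by
  have h3 := three_eq_zero hF
  have h2 : (2 : F) ≠ 0 := two_ne_of_odd (by rw [hF]; decide)
  have hsq : ∀ x : F, x ≠ 0 → x * x = 1 := by
    intro x hx
    rcases (three_cases hF x).resolve_left hx with h | h <;> rw [h] <;> ring
  have hc : ∀ x : F, x ≠ 0 → x = 1 ∨ x = -1 := fun x hx => (three_cases hF x).resolve_left hx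
  by_cases ha : α = 0 <;> by_cases hb : β = 0 <;> by_cases hg : γ = 0
  · exfalso; rw [ha, hb, hg] at h; simp at h
  · right; right; exact ⟨ha, hb, hc _ hg⟩
  · right; left; exact ⟨ha, hg, hc _ hb⟩
  · exfalso; rw [ha, hsq _ hb, hsq _ hg] at h; apply one_ne_zero (α := F); linear_combination h
  · left; exact ⟨hb, hg, hc _ ha⟩
  · exfalso; rw [hsq _ ha, hb, hsq _ hg] at h; apply one_ne_zero (α := F); linear_combination h
  · exfalso; rw [hsq _ ha, hsq _ hb, hg] at h; apply one_ne_zero (α := F); linear_combination h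
  · exfalso; rw [hsq _ ha, hsq _ hb, hsq _ hg] at h; apply h2; linear_combination h

/-- The elements of the quaternion part with square `-1` over the field with three elements. -/
theorem quat_cases [Fintype F] (hF : Fintype.card F = 3) {X : Matrix (Fin 2 ⊕ Fin 2) (Fin 2 ⊕ Fin 2) F} (hJ : X * j0 F = j0 F * X) (hT : Xᵀ = -X)
    (htr : (X * j0 F).trace = 0) (hsq : X * X = -1) : ∃ z : Fin 4, X = q4 (a1 F) (a2 F) z ∨ X = -q4 (a1 F) (a2 F) z := by
  have h2 : (2 : F) ≠ 0 := two_ne_of_odd (by rw [hF]; decide)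
  obtain ⟨α, β, γ, rfl⟩ := quat_part h2 hJ hT htr
  have hnorm : α * α + β * β + γ * γ = 1 := by
    have h1 := congrFun (congrFun hsq (Sum.inl 0)) (Sum.inl 0)
    simp [a1, a2, a3, Matrix.mul_apply, Fintype.sum_sum_type, Fin.sum_univ_two] at h1
    linear_combination -h1
  have e3 : a3 F = q4 (a1 F) (a2 F) 3 := a12.symm
  rcases three_squares hF hnorm with ⟨rfl, rfl, h⟩ | ⟨rfl, rfl, h⟩ | ⟨rfl, rfl, h⟩
  · refine ⟨1, ?_⟩
    rcases h with rfl | rfl
    · left; simp only [one_smul, zero_smul, add_zero]; rfl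
    · right; simp only [neg_smul, one_smul, zero_smul, add_zero]; rfl
  · refine ⟨2, ?_⟩
    rcases h with rfl | rfl
    · left; simp only [one_smul, zero_smul, add_zero, zero_add]; rfl
    · right; simp only [neg_smul, one_smul, zero_smul, add_zero, zero_add]; rfl
  · refine ⟨3, ?_⟩
    rcases h with rfl | rfl
    · left; simp only [one_smul, zero_smul, add_zero, zero_add, e3]
    · right; simp only [neg_smul, one_smul, zero_smul, add_zero, zero_add, e3]

/-- The matrix `[[p M, r M], [r M, -p M]]`. -/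
def dm (p r : F) : Matrix (Fin 2 ⊕ Fin 2) (Fin 2 ⊕ Fin 2) F :=
  Matrix.fromBlocks !![0, -p; p, 0] !![0, -r; r, 0] !![0, -r; r, 0] !![0, p; -p, 0]

lemma dm_sq (p r : F) : (dm p r * dm p r) (Sum.inl 0) (Sum.inl 0) = -(p * p + r * r) := by
  simp [dm, Matrix.mul_apply, Fintype.sum_sum_type, Fin.sum_univ_two]
  ring

lemma dm_11 : dm (1 : F) 1 = s0 F := rfl

lemma dm_neg (p r : F) : dm (-p) (-r) = -dm p r := by
  apply ext4 <;> intro i j <;> fin_cases i <;> fin_cases j <;> simp [dm]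

lemma dm_js : dm (-1 : F) 1 = j0 F * s0 F := by
  apply ext4 <;> intro i j <;> fin_cases i <;> fin_cases j <;> simp [dm, j0, s0, Matrix.mul_apply, Fintype.sum_sum_type, Fin.sum_univ_two]

/-- The elements of the dihedral part. -/
theorem dih_cases [Fintype F] (hF : Fintype.card F = 3) {X : Matrix (Fin 2 ⊕ Fin 2) (Fin 2 ⊕ Fin 2) F} (hJ : X * j0 F = -(j0 F * X))
    (h1 : X * a1 F = a1 F * X) (h2 : X * a2 F = a2 F * X) (hsq : X * X = 1) :
    ∃ z : Fin 4, X = q4 (j0 F) (s0 F) z ∨ X = -q4 (j0 F) (s0 F) z := by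
  have htwo : (2 : F) ≠ 0 := two_ne_of_odd (by rw [hF]; decide)
  have h3 := three_eq_zero hF
  have hJ1 : ∀ i j : Fin 2, (X * j0 F) (Sum.inl i) (Sum.inl j) = (-(j0 F * X)) (Sum.inl i) (Sum.inl j) := fun i j => by rw [hJ]
  have hJ2 : ∀ i j : Fin 2, (X * j0 F) (Sum.inl i) (Sum.inr j) = (-(j0 F * X)) (Sum.inl i) (Sum.inr j) := fun i j => by rw [hJ]
  have hA1 : ∀ i j : Fin 2, (X * a1 F) (Sum.inl i) (Sum.inl j) = (a1 F * X) (Sum.inl i) (Sum.inl j) := fun i j => by rw [h1]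
  have hA2 : ∀ i j : Fin 2, (X * a1 F) (Sum.inl i) (Sum.inr j) = (a1 F * X) (Sum.inl i) (Sum.inr j) := fun i j => by rw [h1]
  have hB1 : ∀ i j : Fin 2, (X * a2 F) (Sum.inl i) (Sum.inl j) = (a2 F * X) (Sum.inl i) (Sum.inl j) := fun i j => by rw [h2]
  have hB2 : ∀ i j : Fin 2, (X * a2 F) (Sum.inl i) (Sum.inr j) = (a2 F * X) (Sum.inl i) (Sum.inr j) := fun i j => by rw [h2]
  simp only [a1, a2, j0, Matrix.neg_apply, Matrix.mul_apply, Fintype.sum_sum_type, Fin.sum_univ_two, Fin.forall_fin_two, Matrix.fromBlocks_apply₁₁, Matrix.fromBlocks_apply₁₂,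
    Matrix.fromBlocks_apply₂₁, Matrix.fromBlocks_apply₂₂] at hJ1 hJ2 hA1 hA2 hB1 hB2
  simp at hJ1 hJ2 hA1 hA2 hB1 hB2
  obtain ⟨⟨r1, r2⟩, r3, r4⟩ := hJ1
  obtain ⟨⟨r5, r6⟩, r7, r8⟩ := hJ2
  obtain ⟨⟨a1', a2'⟩, a3', a4'⟩ := hA1
  obtain ⟨⟨a5, a6⟩, a7, a8⟩ := hA2
  obtain ⟨⟨b1, b2⟩, b3, b4⟩ := hB1
  obtain ⟨⟨b5, b6⟩, b7, b8⟩ := hB2
  have z1 : X (Sum.inl 0) (Sum.inl 0) = 0 := by
    have h : 2 * X (Sum.inl 0) (Sum.inl 0) = 0 := by linear_combination b5 - r5
    exact (mul_eq_zero.1 h).resolve_left htwo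
  have z2 : X (Sum.inl 0) (Sum.inr 0) = 0 := by
    have h : 2 * X (Sum.inl 0) (Sum.inr 0) = 0 := by linear_combination b1 + r1
    exact (mul_eq_zero.1 h).resolve_left htwo
  obtain ⟨p, hp⟩ : ∃ p, X (Sum.inl 1) (Sum.inl 0) = p := ⟨_, rfl⟩
  obtain ⟨r, hr⟩ : ∃ r, X (Sum.inl 1) (Sum.inr 0) = r := ⟨_, rfl⟩
  have hX : X = dm p r := by
    apply ext4 <;> intro i j <;> fin_cases i <;> fin_cases j <;> simp [dm]
    · exact z1
    · rw [← hp]; exact a1'
    · exact hp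
    · rw [a3', z1]
    · exact z2
    · rw [← hr]; exact a5
    · exact hr
    · rw [a7, z2]
    · rw [← r1, z2]
    · rw [← r2, ← hr]; exact a5
    · rw [← r3]; exact hr
    · rw [← r4, a7, z2]
    · rw [← b5, z1]
    · rw [← r6, a1', neg_neg]; exact hp
    · rw [← r7, hp]
    · rw [← b8, a3', z1]
  have hnorm : p * p + r * r = 2 := by
    have h := congrFun (congrFun hsq (Sum.inl 0)) (Sum.inl 0)
    rw [hX, dm_sq, Matrix.one_apply_eq] at h
    linear_combination -h - h3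
  have hsq' : ∀ x : F, x ≠ 0 → x * x = 1 := by
    intro x hx
    rcases (three_cases hF x).resolve_left hx with h | h <;> rw [h] <;> ring
  have hp0 : p ≠ 0 := by
    rintro rfl
    by_cases hr0 : r = 0
    · subst hr0; apply htwo; linear_combination -hnorm
    · rw [hsq' r hr0] at hnorm; apply one_ne_zero (α := F); linear_combination -hnorm
  have hr0 : r ≠ 0 := by
    rintro rfl
    rw [hsq' p hp0] at hnorm; apply one_ne_zero (α := F); linear_combination -hnorm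
  rw [hX]
  rcases (three_cases hF p).resolve_left hp0 with rfl | rfl <;> rcases (three_cases hF r).resolve_left hr0 with rfl | rfl
  · exact ⟨2, Or.inl dm_11⟩
  · refine ⟨3, Or.inr ?_⟩
    have := dm_neg (-1 : F) 1
    rw [neg_neg] at this
    rw [this, dm_js]; rfl
  · exact ⟨3, Or.inl dm_js⟩
  · refine ⟨2, Or.inr ?_⟩
    rw [dm_neg, dm_11]; rfl

end Cfsg.Agent.Lib.AschE4
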