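import Cfsg.Agent.Lib.AschSp13
set_option autoImplicit false
set_option linter.style.haveILetI false
set_option linter.unusedVariables false
set_option linter.unusedSectionVars false

/-!
Maximal subgroups of `Sp_4(3)`: the unitary extension field subgroup lies in the normaliser of an extraspecial group.
-/

namespace Cfsg.Agent.Lib.AschESys

open Cfsg Cfsg.Geo Cfsg.Agent.Lib.AschMU Cfsg.Agent.Lib.AschCore Cfsg.Agent.Lib.AschField Cfsg.Agent.Lib.AschAlg
  Cfsg.Agent.Lib.AschGroup Cfsg.Agent.Lib.AschGood Cfsg.Agent.Lib.AschAdj Cfsg.Agent.Lib.AschNonab Cfsg.Agent.Lib.AschTensor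
  Cfsg.Agent.Lib.AschComp Cfsg.Agent.Lib.AschSp
open scoped Matrix MatrixGroups Kronecker

section sys
variable {ι : Type} [Fintype ι] [DecidableEq ι] [Nonempty ι] {F : Type*} [Field F] {Λ : Type} {B : Λ → Matrix ι ι F} {o : Λ}

/-- Conjugate systems. -/
theorem Sys.conj (hB : Sys B o) (P : GL ι F) : Sys (fun z => cj P (B z)) o where
  one := by rw [hB.one, map_one]
  mul x y := by
    obtain ⟨z, hz⟩ := hB.mul x y
    refine ⟨z, ?_⟩
    rw [← map_mul]
    rcases hz with h | h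
    · left; rw [h]
    · right; rw [h, map_neg]
  sq x := by
    rw [← map_mul]
    rcases hB.sq x with h | h
    · left; rw [h, map_one]
    · right; rw [h, map_neg, map_one]
  comm x y := by
    rw [← map_mul, ← map_mul]
    rcases hB.comm x y with h | h
    · left; rw [h]
    · right; rw [h, map_neg]
  sep x y hxy := by
    obtain ⟨z, hz⟩ := hB.sep x y hxy
    refine ⟨z, ?_⟩
    simp only [← map_mul]
    rcases hz with ⟨h1, h2⟩ | ⟨h1, h2⟩
    · left; exact ⟨by rw [h1], by rw [h2, map_neg]⟩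
    · right; exact ⟨by rw [h1, map_neg], by rw [h2]⟩
  wit x hx := by
    obtain ⟨w, h1, h2⟩ := hB.wit x hx
    refine ⟨w, ?_, ?_⟩
    · rw [← map_mul, h1, map_neg, map_one]
    · rw [← map_mul, ← map_mul, h2, map_neg]

/-- The normaliser of the group of a system. -/
theorem Sys.le_normalizer (hB : Sys B o) {H : Subgroup (GL ι F)} (h : ∀ g ∈ H, ∀ z, ∃ z', cj g (B z) = B z' ∨ cj g (B z) = -B z') :
    H ≤ subgroupNormalizer hB.grp := by
  have key : ∀ g ∈ H, ∀ x ∈ hB.grp, g * x * g⁻¹ ∈ hB.grp := by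
    rintro g hg x ⟨z, hz⟩
    obtain ⟨z', hz'⟩ := h g hg z
    refine ⟨z', ?_⟩
    rw [← cj_coe]
    rcases hz with hz | hz <;> rcases hz' with hz' | hz' <;> rw [hz]
    · left; exact hz'
    · right; exact hz'
    · right; rw [map_neg, hz']
    · left; rw [map_neg, hz', neg_neg]
  intro g hg
  rw [subgroupNormalizer, Subgroup.mem_normalizer_iff]
  intro x
  constructor
  · exact key g hg x
  · intro hx
    have := key g⁻¹ (H.inv_mem hg) _ hx
    have e : g⁻¹ * (g * x * g⁻¹) * g⁻¹⁻¹ = x := by group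
    rwa [e] at this

end sys

end Cfsg.Agent.Lib.AschESys

namespace Cfsg.Agent.Lib.AschE4

open Cfsg Cfsg.Geo Cfsg.Agent.Lib.AschMU Cfsg.Agent.Lib.AschCore Cfsg.Agent.Lib.AschField Cfsg.Agent.Lib.AschAlg
  Cfsg.Agent.Lib.AschGroup Cfsg.Agent.Lib.AschGood Cfsg.Agent.Lib.AschAdj Cfsg.Agent.Lib.AschNonab Cfsg.Agent.Lib.AschTensor
  Cfsg.Agent.Lib.AschComp Cfsg.Agent.Lib.AschSp Cfsg.Agent.Lib.AschESys
open scoped Matrix MatrixGroups Kronecker

section iso
variable {ι : Type} [Fintype ι] [DecidableEq ι] {F : Type*} [Field F]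

/-- Isometries as matrices. -/
def IsoM (G X : Matrix ι ι F) : Prop := adj (RingEquiv.refl F) G X * X = 1

lemma IsoM.mul {G X Y : Matrix ι ι F} {ε : F} (h : RF (RingEquiv.refl F) ε G) (hX : IsoM G X) (hY : IsoM G Y) : IsoM G (X * Y) := by
  unfold IsoM at *
  rw [adj_mul h, mul_assoc, ← mul_assoc _ X, hX, one_mul, hY]

lemma IsoM.one {G : Matrix ι ι F} {ε : F} (h : RF (RingEquiv.refl F) ε G) : IsoM G 1 := by
  unfold IsoM
  rw [adj_one h, one_mul]

lemma IsoM.q4 {G a b : Matrix ι ι F} {ε : F} (h : RF (RingEquiv.refl F) ε G) (ha : IsoM G a) (hb : IsoM G b) (z : Fin 4) :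
    IsoM G (AschESys.q4 a b z) := by
  fin_cases z
  · exact IsoM.one h
  · exact ha
  · exact hb
  · exact ha.mul h hb

lemma IsoM.neg {G X : Matrix ι ι F} (hX : IsoM G X) : IsoM G (-X) := by
  unfold IsoM at *
  have : adj (RingEquiv.refl F) G (-X) = -adj (RingEquiv.refl F) G X := by
    have : (-X : Matrix ι ι F) = (-1 : F) • X := by rw [neg_smul, one_smul]
    rw [this, adj_smul, map_neg, map_one, neg_smul, one_smul]
  rw [this, neg_mul_neg, hX]

lemma IsoM.cj {G X : Matrix ι ι F} {ε : F} (h : RF (RingEquiv.refl F) ε G) (P : GL ι F) (hP : gr (RingEquiv.refl F) G P = G) (hX : IsoM G X) :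
    IsoM G (AschCore.cj P X) := by
  unfold IsoM at *
  rw [adj_cj_gr h, hP, ← map_mul, hX, map_one]

lemma IsoM.isIso {G : Matrix ι ι F} {g : GL ι F} (hX : IsoM G (g : Matrix ι ι F)) : IsIso (RingEquiv.refl F) G g := by
  unfold IsoM at hX
  unfold IsIso
  calc adj (RingEquiv.refl F) G (g : Matrix ι ι F) = adj (RingEquiv.refl F) G (g : Matrix ι ι F) * ((g : Matrix ι ι F) * ((g⁻¹ : GL ι F) : Matrix ι ι F)) := by
        rw [gl_mul_inv, mul_one]
    _ = _ := by rw [← mul_assoc, hX, one_mul]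

end iso

section basis
variable {F : Type*} [Field F] [Fintype F]

/-- The form is invariant under `i`. -/
lemma f_i {m : ℕ} {i : Matrix (Fin m ⊕ Fin m) (Fin m ⊕ Fin m) F} (hadj : adj (RingEquiv.refl F) (Matrix.J (Fin m) F) i = -i) (u v : Fin m ⊕ Fin m → F) :
    sympForm m F (i *ᵥ u) v = -sympForm m F u (i *ᵥ v) := by
  rw [sp_adj, hadj, Matrix.neg_mulVec, symp_eq, bf_rf, bf_rf, Matrix.mulVec_neg, dotProduct_neg]

lemma sp_neg_right {m : ℕ} (u v : Fin m ⊕ Fin m → F) : sympForm m F u (-v) = -sympForm m F u v := by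
  rw [symp_eq, bf_rf, bf_rf, Matrix.mulVec_neg, dotProduct_neg]

lemma sp_neg_left {m : ℕ} (u v : Fin m ⊕ Fin m → F) : sympForm m F (-u) v = -sympForm m F u v := by
  rw [sp_swap, sp_neg_right, ← sp_swap, sp_swap]

/-- A vector of norm `-1` in an invariant non-degenerate subspace. -/
theorem exists_norm (hF : Fintype.card F = 3) {m : ℕ} {i : Matrix (Fin m ⊕ Fin m) (Fin m ⊕ Fin m) F} (hii : i * i = -1)
    (hadj : adj (RingEquiv.refl F) (Matrix.J (Fin m) F) i = -i) {W : Submodule F (Fin m ⊕ Fin m → F)} (hW : ∀ w ∈ W, i *ᵥ w ∈ W)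
    (hn : IsNondegenerateOn (sympForm m F) W) (hb : W ≠ ⊥) : ∃ w ∈ W, sympForm m F w (i *ᵥ w) = -1 := by
  have h3 := three_eq_zero hF
  have h2 : (2 : F) ≠ 0 := two_ne_of_odd (by rw [hF]; decide)
  have hiv : ∀ v, i *ᵥ (i *ᵥ v) = -v := fun v => by rw [Matrix.mulVec_mulVec, hii, Matrix.neg_mulVec, Matrix.one_mulVec]
  have hsymm : ∀ u v, sympForm m F u (i *ᵥ v) = sympForm m F v (i *ᵥ u) := by
    intro u v
    rw [sp_swap, f_i hadj, neg_neg]
  obtain ⟨v, hv, hv0⟩ : ∃ v ∈ W, sympForm m F v (i *ᵥ v) ≠ 0 := by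
    by_contra hcon
    push Not at hcon
    have hzero : ∀ u ∈ W, ∀ v ∈ W, sympForm m F u (i *ᵥ v) = 0 := by
      intro u hu v hv
      have h1 := hcon (u + v) (W.add_mem hu hv)
      rw [Matrix.mulVec_add, SympAux.sympForm_add_left, SympAux.sympForm_add_right, SympAux.sympForm_add_right, hcon u hu, hcon v hv, hsymm v u] at h1
      have h4 : 2 * sympForm m F u (i *ᵥ v) = 0 := by linear_combination h1
      exact (mul_eq_zero.1 h4).resolve_left h2
    obtain ⟨w, hw, hw0⟩ := (Submodule.ne_bot_iff _).1 hb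
    obtain ⟨-, x, hx, hx0⟩ := hn w hw hw0
    apply hx0
    have := hzero w hw (i *ᵥ x) (hW x hx)
    rw [hiv, sp_neg_right, neg_eq_zero] at this
    exact this
  rcases (three_cases hF _).resolve_left hv0 with h | h
  · refine ⟨v + i *ᵥ v, W.add_mem hv (hW v hv), ?_⟩
    rw [Matrix.mulVec_add, hiv, SympAux.sympForm_add_left, SympAux.sympForm_add_right, SympAux.sympForm_add_right, h, sp_neg_right, sp_neg_right,
      sp_self, sp_self, sp_swap, h]
    linear_combination h3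
  · exact ⟨v, hv, h⟩

/-- Standard form of a complex structure. -/
theorem exists_basis (hF : Fintype.card F = 3) {i : Matrix (Fin 2 ⊕ Fin 2) (Fin 2 ⊕ Fin 2) F} (hii : i * i = -1)
    (hadj : adj (RingEquiv.refl F) (Matrix.J (Fin 2) F) i = -i) :
    ∃ P : GL (Fin 2 ⊕ Fin 2) F, gr (RingEquiv.refl F) (Matrix.J (Fin 2) F) P = Matrix.J (Fin 2) F ∧
      i * (P : Matrix (Fin 2 ⊕ Fin 2) (Fin 2 ⊕ Fin 2) F) = P * Matrix.J (Fin 2) F := by
  classical
  have hiv : ∀ v, i *ᵥ (i *ᵥ v) = -v := fun v => by rw [Matrix.mulVec_mulVec, hii, Matrix.neg_mulVec, Matrix.one_mulVec]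
  have hsymm : ∀ u v, sympForm 2 F u (i *ᵥ v) = sympForm 2 F v (i *ᵥ u) := by
    intro u v
    rw [sp_swap, f_i hadj, neg_neg]
  have hinv : ∀ u v, sympForm 2 F (i *ᵥ u) (i *ᵥ v) = sympForm 2 F u v := by
    intro u v
    rw [f_i hadj, hiv, sp_neg_right, neg_neg]
  have htop : IsNondegenerateOn (sympForm 2 F) ⊤ := by
    intro w _ hw
    obtain ⟨⟨x, hx⟩, ⟨y, hy⟩⟩ := sp_nondeg (F := F) (m := 2) w hw
    exact ⟨⟨x, trivial, hx⟩, ⟨y, trivial, hy⟩⟩
  have hne : (⊤ : Submodule F (Fin 2 ⊕ Fin 2 → F)) ≠ ⊥ := by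
    intro h
    have h1 : (Pi.single (Sum.inl 0) 1 : Fin 2 ⊕ Fin 2 → F) ∈ (⊤ : Submodule F (Fin 2 ⊕ Fin 2 → F)) := trivial
    rw [h, Submodule.mem_bot] at h1
    have := congrFun h1 (Sum.inl 0)
    simp at this
  obtain ⟨v, -, hv⟩ := exists_norm hF hii hadj (W := ⊤) (fun w _ => trivial) htop hne
  -- the perpendicular space
  set W₀ : Submodule F (Fin 2 ⊕ Fin 2 → F) := Submodule.span F (Set.range ![v, i *ᵥ v]) with hW₀
  set W := perp (RingEquiv.refl F) (Matrix.J (Fin 2) F) W₀ with hW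
  have hmem : ∀ x, x ∈ W ↔ sympForm 2 F x v = 0 ∧ sympForm 2 F x (i *ᵥ v) = 0 := by
    intro x
    constructor
    · intro hx
      exact ⟨hx v (Submodule.subset_span ⟨0, rfl⟩), hx (i *ᵥ v) (Submodule.subset_span ⟨1, rfl⟩)⟩
    · rintro ⟨h1, h2⟩ w hw
      rw [← symp_eq]
      induction hw using Submodule.span_induction with
      | mem y hy =>
        obtain ⟨k, rfl⟩ := hy
        fin_cases k
        · exact h1
        · exact h2
      | zero => rw [symp_eq, bf_zero_right]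
      | add y z _ _ hy hz => rw [SympAux.sympForm_add_right, hy, hz, add_zero]
      | smul c y _ hy => rw [SympAux.sympForm_smul_right, hy, mul_zero]
  have hWi : ∀ w ∈ W, i *ᵥ w ∈ W := by
    intro w hw
    rw [hmem] at hw ⊢
    refine ⟨?_, ?_⟩
    · rw [f_i hadj, hw.2, neg_zero]
    · rw [hinv, hw.1]
  have hfr : 2 ≤ Module.finrank F W := by
    have h1 := le_finrank_perp (σ := RingEquiv.refl F) (G := Matrix.J (Fin 2) F) W₀
    have h2 : Module.finrank F W₀ ≤ 2 := by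
      have := finrank_range_le_card (R := F) (b := ![v, i *ᵥ v])
      simpa [Set.finrank] using this
    have h3 : Fintype.card (Fin 2 ⊕ Fin 2) = 4 := rfl
    rw [← hW, h3] at h1
    omega
  have hWb : W ≠ ⊥ := by
    intro h
    rw [h, finrank_bot] at hfr
    exact absurd hfr (by decide)
  have hv' : sympForm 2 F (i *ᵥ v) v = 1 := by rw [sp_swap, hv, neg_neg]
  have hproj : ∀ u : Fin 2 ⊕ Fin 2 → F, ∃ u' ∈ W, ∀ w ∈ W, sympForm 2 F w u' = sympForm 2 F w u := by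
    intro u
    refine ⟨u + (sympForm 2 F u (i *ᵥ v) • v + (-sympForm 2 F u v) • (i *ᵥ v)), ?_, ?_⟩
    · rw [hmem]
      constructor
      · rw [SympAux.sympForm_add_left, SympAux.sympForm_add_left, SympAux.sympForm_smul_left, SympAux.sympForm_smul_left, sp_self, hv']
        ring
      · rw [SympAux.sympForm_add_left, SympAux.sympForm_add_left, SympAux.sympForm_smul_left, SympAux.sympForm_smul_left, sp_self, hv]
        ring
    · intro w hw
      rw [hmem] at hw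
      rw [SympAux.sympForm_add_right, SympAux.sympForm_add_right, SympAux.sympForm_smul_right, SympAux.sympForm_smul_right, hw.1, hw.2]
      ring
  have hWn : IsNondegenerateOn (sympForm 2 F) W := by
    intro w hw hw0
    obtain ⟨-, ⟨y, hy⟩⟩ := sp_nondeg (F := F) (m := 2) w hw0
    obtain ⟨u', hu', hu⟩ := hproj y
    have h1 : sympForm 2 F w u' ≠ 0 := by rw [hu w hw]; exact hy
    exact ⟨⟨u', hu', by rw [sp_swap]; exact neg_ne_zero.2 h1⟩, ⟨u', hu', h1⟩⟩
  obtain ⟨w, hw, hww⟩ := exists_norm hF hii hadj hWi hWn hWb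
  rw [hmem] at hw
  have hww' : sympForm 2 F (i *ᵥ w) w = 1 := by rw [sp_swap, hww, neg_neg]
  -- the matrix
  let col : Fin 2 ⊕ Fin 2 → (Fin 2 ⊕ Fin 2 → F) := Sum.elim ![v, w] ![i *ᵥ v, i *ᵥ w]
  let M : Matrix (Fin 2 ⊕ Fin 2) (Fin 2 ⊕ Fin 2) F := Matrix.of fun r c => col c r
  have hM : Mᵀ * Matrix.J (Fin 2) F * M = Matrix.J (Fin 2) F := by
    ext a b
    have h1 : (Mᵀ * Matrix.J (Fin 2) F * M) a b = sympForm 2 F (col a) (col b) := by
      rw [symp_eq, bf_rf, Matrix.dotProduct_mulVec, Matrix.mul_apply]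
      rfl
    rw [h1, ← j0_eq]
    have e1 : sympForm 2 F v w = 0 := by rw [sp_swap, hw.1, neg_zero]
    have e2 : sympForm 2 F v (i *ᵥ w) = 0 := by rw [hsymm, hw.2]
    have e3 : sympForm 2 F (i *ᵥ v) w = 0 := by rw [sp_swap, hw.2, neg_zero]
    have e4 : sympForm 2 F (i *ᵥ v) (i *ᵥ w) = 0 := by rw [hinv, e1]
    have e5 : sympForm 2 F (i *ᵥ w) v = 0 := by rw [sp_swap, e2, neg_zero]
    have e6 : sympForm 2 F (i *ᵥ w) (i *ᵥ v) = 0 := by rw [hinv, hw.1]
    rcases a with a | a <;> rcases b with b | b <;> fin_cases a <;> fin_cases b <;>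
      simp [col, j0, sp_self, hv, hv', hww, hww', hw.1, hw.2, e1, e2, e3, e4, e5, e6]
  have hJJ : Matrix.J (Fin 2) F * Matrix.J (Fin 2) F = -1 := by rw [← j0_eq, j0_sq]
  have hM1 : (-(Matrix.J (Fin 2) F * Mᵀ * Matrix.J (Fin 2) F)) * M = 1 := by
    rw [neg_mul, mul_assoc (Matrix.J (Fin 2) F), mul_assoc (Matrix.J (Fin 2) F), hM, hJJ, neg_neg]
  have hM2 : M * (-(Matrix.J (Fin 2) F * Mᵀ * Matrix.J (Fin 2) F)) = 1 := mul_eq_one_comm.1 hM1
  let P : GL (Fin 2 ⊕ Fin 2) F := ⟨M, _, hM2, hM1⟩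
  refine ⟨P, ?_, ?_⟩
  · unfold gr
    rw [map_rf]
    exact hM
  · show i * M = M * _
    rw [← j0_eq]
    ext a b
    have h1 : (i * M) a b = (i *ᵥ col b) a := rfl
    rw [h1, Matrix.mul_apply, Fintype.sum_sum_type, Fin.sum_univ_two, Fin.sum_univ_two]
    rcases b with b | b <;> fin_cases b <;> simp [col, j0, M, hiv]

end basis

section main
variable {F : Type*} [Field F] [Fintype F]

/-- The system in standard coordinates. -/
theorem sys0 (hF : Fintype.card F = 3) : Sys (fun p : Fin 4 × Fin 4 => q4 (a1 F) (a2 F) p.1 * q4 (j0 F) (s0 F) p.2) (0, 0) :=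
  PreSys.prod (two_ne_of_odd (by rw [hF]; decide)) (preSys_q4 sj (Or.inr j0_sq) (Or.inl (s0_sq (three_eq_zero hF)))) a21 a1_sq a2_sq
    (q4_commute a1j a1s a2j a2s)

lemma adj_J (X : Matrix (Fin 2 ⊕ Fin 2) (Fin 2 ⊕ Fin 2) F) : adj (RingEquiv.refl F) (Matrix.J (Fin 2) F) X = -(j0 F * Xᵀ * j0 F) := by
  have hJJ : j0 F * j0 F = -1 := j0_sq
  have hinv : (Matrix.J (Fin 2) F)⁻¹ = -(j0 F) := by
    rw [← j0_eq]
    apply Matrix.inv_eq_left_inv
    rw [neg_mul, hJJ, neg_neg]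
  rw [adj_rf, hinv, ← j0_eq, neg_mul, neg_mul]

theorem iso0 (hF : Fintype.card F = 3) (p : Fin 4 × Fin 4) : IsoM (Matrix.J (Fin 2) F) (q4 (a1 F) (a2 F) p.1 * q4 (j0 F) (s0 F) p.2) := by
  have h := rfJ (F := F) (m := 2)
  have h1 : IsoM (Matrix.J (Fin 2) F) (a1 F) := by
    unfold IsoM
    rw [adj_J, a1_tr]
    simp only [mul_neg, neg_mul, neg_neg, mul_assoc]
    rw [← mul_assoc (a1 F), a1j, mul_assoc, ← mul_assoc (j0 F), j0_sq, a1_sq, neg_mul_neg, one_mul]
  have h2 : IsoM (Matrix.J (Fin 2) F) (a2 F) := by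
    unfold IsoM
    rw [adj_J, a2_tr]
    simp only [mul_neg, neg_mul, neg_neg, mul_assoc]
    rw [← mul_assoc (a2 F), a2j, mul_assoc, ← mul_assoc (j0 F), j0_sq, a2_sq, neg_mul_neg, one_mul]
  have h3 : IsoM (Matrix.J (Fin 2) F) (j0 F) := by
    unfold IsoM
    rw [adj_J, j0_tr]
    simp only [mul_neg, neg_mul, neg_neg, mul_assoc]
    rw [← mul_assoc (j0 F) (j0 F), j0_sq, neg_mul_neg, one_mul]
  have h4 : IsoM (Matrix.J (Fin 2) F) (s0 F) := by
    have hT : (s0 F)ᵀ = -(s0 F) := by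
      apply ext4 <;> intro i j <;> fin_cases i <;> fin_cases j <;> simp [s0]
    unfold IsoM
    rw [adj_J, hT]
    simp only [mul_neg, neg_mul, neg_neg, mul_assoc]
    rw [← mul_assoc (s0 F), sj, neg_mul, mul_assoc, s0_sq (three_eq_zero hF), mul_one, mul_neg, j0_sq, neg_neg]
  exact (h1.q4 h h2 p.1).mul h (h3.q4 h h4 p.2)

lemma adj_a1 : adj (RingEquiv.refl F) (Matrix.J (Fin 2) F) (a1 F) = -a1 F := by
  rw [adj_J, a1_tr]
  simp only [mul_neg, neg_mul, neg_neg]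
  rw [mul_assoc, a1j, ← mul_assoc, j0_sq, neg_mul, one_mul]

lemma adj_a2 : adj (RingEquiv.refl F) (Matrix.J (Fin 2) F) (a2 F) = -a2 F := by
  rw [adj_J, a2_tr]
  simp only [mul_neg, neg_mul, neg_neg]
  rw [mul_assoc, a2j, ← mul_assoc, j0_sq, neg_mul, one_mul]

omit [Fintype F] in
/-- Closure of a quaternion system under conjugation. -/
lemma q4_cj {ι : Type} [Fintype ι] [DecidableEq ι] {g : GL ι F} {a b : Matrix ι ι F} (hab : b * a = -(a * b)) (ha : a * a = 1 ∨ a * a = -1)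
    (hb : b * b = 1 ∨ b * b = -1)
    (ca : ∃ z, cj g a = q4 a b z ∨ cj g a = -q4 a b z) (cb : ∃ z, cj g b = q4 a b z ∨ cj g b = -q4 a b z) (z : Fin 4) :
    ∃ z', cj g (q4 a b z) = q4 a b z' ∨ cj g (q4 a b z) = -q4 a b z' := by
  fin_cases z
  · exact ⟨0, Or.inl (map_one (cj g))⟩
  · exact ca
  · exact cb
  · obtain ⟨x, hx⟩ := ca
    obtain ⟨y, hy⟩ := cb
    obtain ⟨w, hw⟩ := q4_mul hab ha hb x y
    refine ⟨w, ?_⟩
    show cj g (a * b) = _ ∨ cj g (a * b) = _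
    rw [map_mul]
    rcases hx with hx | hx <;> rcases hy with hy | hy <;> rcases hw with hw | hw <;> rw [hx, hy] <;> simp [hw]

/-- Conjugates of the quaternion generators. -/
lemma quat_cj (hF : Fintype.card F = 3) {g : GL (Fin 2 ⊕ Fin 2) F} (hg : g ∈ spGL 2 F) (hj : cj g (j0 F) = j0 F ∨ cj g (j0 F) = -j0 F)
    {a : Matrix (Fin 2 ⊕ Fin 2) (Fin 2 ⊕ Fin 2) F} (haj : a * j0 F = j0 F * a) (hadj : adj (RingEquiv.refl F) (Matrix.J (Fin 2) F) a = -a)
    (htr : (a * j0 F).trace = 0) (hsq : a * a = -1) : ∃ z, cj g a = q4 (a1 F) (a2 F) z ∨ cj g a = -q4 (a1 F) (a2 F) z := by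
  have hJ : cj g a * j0 F = j0 F * cj g a := by
    have h1 : cj g a * cj g (j0 F) = cj g (j0 F) * cj g a := by rw [← map_mul, ← map_mul, haj]
    rcases hj with h | h
    · rwa [h] at h1
    · rw [h, mul_neg, neg_mul] at h1
      exact neg_injective h1
  apply quat_cases hF hJ
  · have h1 : adj (RingEquiv.refl F) (Matrix.J (Fin 2) F) (cj g a) = -cj g a := by
      rw [adj_cj rfJ (mem_sp.1 hg), hadj, map_neg]
    rw [adj_J] at h1
    have h2 : j0 F * (cj g a)ᵀ * j0 F = cj g a := neg_injective h1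
    calc (cj g a)ᵀ = (j0 F * j0 F) * (cj g a)ᵀ * (j0 F * j0 F) := by rw [j0_sq]; simp
      _ = j0 F * (j0 F * (cj g a)ᵀ * j0 F) * j0 F := by simp only [mul_assoc]
      _ = j0 F * cj g a * j0 F := by rw [h2]
      _ = -cj g a := by rw [← hJ, mul_assoc, j0_sq, mul_neg, mul_one]
  · have hc : ∀ X : Matrix (Fin 2 ⊕ Fin 2) (Fin 2 ⊕ Fin 2) F, (cj g X).trace = X.trace := by
      intro X
      rw [cj_apply, Matrix.trace_mul_comm, ← mul_assoc, gl_inv_mul, one_mul]
    rcases hj with h | h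
    · have h1 := hc (a * j0 F)
      rw [map_mul, h, htr] at h1
      exact h1
    · have h1 := hc (a * j0 F)
      rw [map_mul, h, htr, mul_neg, Matrix.trace_neg, neg_eq_zero] at h1
      exact h1
  · rw [← map_mul, hsq, map_neg, map_one]

/-- Conjugates of the involution. -/
lemma dih_cj (hF : Fintype.card F = 3) {g : GL (Fin 2 ⊕ Fin 2) F} (hg : g ∈ spGL 2 F) (hj : cj g (j0 F) = j0 F ∨ cj g (j0 F) = -j0 F) :
    ∃ z, cj g (s0 F) = q4 (j0 F) (s0 F) z ∨ cj g (s0 F) = -q4 (j0 F) (s0 F) z := by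
  have hj' : cj g⁻¹ (j0 F) = j0 F ∨ cj g⁻¹ (j0 F) = -j0 F := by
    rcases hj with h | h
    · left
      have := cj_inv_cj g (j0 F)
      rwa [h] at this
    · right
      have := cj_inv_cj g (j0 F)
      rw [h, map_neg] at this
      exact neg_eq_iff_eq_neg.1 this
  have hcomm : ∀ a, (a * j0 F = j0 F * a) → adj (RingEquiv.refl F) (Matrix.J (Fin 2) F) a = -a → (a * j0 F).trace = 0 → a * a = -1 →
      cj g (s0 F) * a = a * cj g (s0 F) := by
    intro a h1 h2 h4 h5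
    obtain ⟨z, hz⟩ := quat_cj hF ((spGL 2 F).inv_mem hg) hj' h1 h2 h4 h5
    have hqs : s0 F * q4 (a1 F) (a2 F) z = q4 (a1 F) (a2 F) z * s0 F := (q4_commute (F := F) a1j a1s a2j a2s z 2).symm
    have hkey : s0 F * cj g⁻¹ a = cj g⁻¹ a * s0 F := by
      rcases hz with hz | hz
      · rw [hz, hqs]
      · rw [hz, mul_neg, neg_mul, hqs]
    have := congrArg (cj g) hkey
    rwa [map_mul, map_mul, cj_cj_inv] at this
  apply dih_cases hF
  · have h1 : cj g (s0 F) * cj g (j0 F) = -(cj g (j0 F) * cj g (s0 F)) := by rw [← map_mul, ← map_mul, sj, map_neg]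
    rcases hj with h | h
    · rwa [h] at h1
    · rw [h, mul_neg, neg_mul, neg_neg] at h1
      rw [← h1, neg_neg]
  · exact hcomm _ a1j adj_a1 tr_a1j a1_sq
  · exact hcomm _ a2j adj_a2 tr_a2j a2_sq
  · rw [← map_mul, s0_sq (three_eq_zero hF), map_one]

/-- **The unitary extension field subgroup of `Sp_4(3)`.** -/
theorem unitary_three (hF : Fintype.card F = 3) {H : Subgroup (GL (Fin 2 ⊕ Fin 2) F)} (hI : H ≤ spGL 2 F)
    {i : Matrix (Fin 2 ⊕ Fin 2) (Fin 2 ⊕ Fin 2) F} (hii : i * i = -1) (hadj : adj (RingEquiv.refl F) (Matrix.J (Fin 2) F) i = -i)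
    (hH : ∀ g ∈ H, cj g i = i ∨ cj g i = -i) :
    ∃ R : Subgroup (GL (Fin 2 ⊕ Fin 2) F), IsSymplecticTypeGroup 2 R ∧ ActsAbsolutelyIrreducibly (matrixSet R) ∧ R ≤ spGL 2 F ∧
      Nat.card R = 32 ∧ Nat.card (Subgroup.center R) = 2 ∧ IsOfMinusType 2 R ∧ H ≤ subgroupNormalizer R := by
  classical
  have h2 : (2 : F) ≠ 0 := two_ne_of_odd (by rw [hF]; decide)
  obtain ⟨P, hP, hiP⟩ := exists_basis hF hii hadj
  have hiP' : i = cj P (j0 F) := by
    rw [cj_apply, j0_eq, ← hiP, mul_assoc, gl_mul_inv, mul_one]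
  have hPsp : P ∈ spGL 2 F := by
    intro u v
    show bf (RingEquiv.refl F) (Matrix.J (Fin 2) F) ((P : Matrix (Fin 2 ⊕ Fin 2) (Fin 2 ⊕ Fin 2) F) *ᵥ u) ((P : Matrix (Fin 2 ⊕ Fin 2) (Fin 2 ⊕ Fin 2) F) *ᵥ v) = sympForm 2 F u v
    rw [symp_eq, bf_gr, hP]
  obtain ⟨hB, -⟩ : ∃ hB : Sys (fun p : Fin 4 × Fin 4 => cj P (q4 (a1 F) (a2 F) p.1 * q4 (j0 F) (s0 F) p.2)) (0, 0), True := ⟨(sys0 hF).conj P, trivial⟩
  have hn : (Fintype.card (Fin 2 ⊕ Fin 2) : F) ≠ 0 := by
    have h3 := three_eq_zero hF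
    have : (Fintype.card (Fin 2 ⊕ Fin 2) : F) = 1 := by
      have h4 : Fintype.card (Fin 2 ⊕ Fin 2) = 4 := rfl
      rw [h4]; push_cast; linear_combination h3
    rw [this]; exact one_ne_zero
  have hcard : Fintype.card (Fin 4 × Fin 4) = Fintype.card (Fin 2 ⊕ Fin 2) ^ 2 := rfl
  have habs := hB.absIrr h2 hn hcard
  have hsp : hB.grp ≤ spGL 2 F := by
    rintro g ⟨z, hz⟩
    rw [mem_sp]
    apply IsoM.isIso
    have h1 := (iso0 hF z).cj rfJ P hP
    rcases hz with hz | hz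
    · rw [hz]; exact h1
    · rw [hz]; exact h1.neg
  refine ⟨hB.grp, hB.symplecticType h2 (k := 2) rfl ⟨(1, 0), (0, 0), by decide, by decide⟩, habs, hsp, ?_, hB.card_center h2, ?_, ?_⟩
  · rw [hB.card_grp h2]; rfl
  · exact minus_type (by decide) (by rw [hF]; decide) hsp habs (fun x hx y hy => hB.comm_scalar hx hy) rfl
  · apply hB.le_normalizer
    intro g hg z
    obtain ⟨g', hg'⟩ : ∃ g', g' = P⁻¹ * g * P := ⟨_, rfl⟩
    have hconj : ∀ X, cj g (cj P X) = cj P (cj g' X) := by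
      intro X
      rw [← cj_mul_apply, ← cj_mul_apply, hg']
      congr 2
      group
    have hg'sp : g' ∈ spGL 2 F := by
      rw [hg']
      exact (spGL 2 F).mul_mem ((spGL 2 F).mul_mem ((spGL 2 F).inv_mem hPsp) (hI hg)) hPsp
    have hj : cj g' (j0 F) = j0 F ∨ cj g' (j0 F) = -j0 F := by
      have h1 : cj P (cj g' (j0 F)) = cj g i := by rw [← hconj, ← hiP']
      rcases hH g hg with h | h
      · left
        rw [h, hiP'] at h1
        exact (cj P).injective h1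
      · right
        rw [h, hiP', ← map_neg] at h1
        exact (cj P).injective h1
    have hq1 := q4_cj (g := g') (F := F) a21 (Or.inr a1_sq) (Or.inr a2_sq) (quat_cj hF hg'sp hj a1j adj_a1 tr_a1j a1_sq)
      (quat_cj hF hg'sp hj a2j adj_a2 tr_a2j a2_sq) z.1
    have hq2 := q4_cj (g := g') (F := F) sj (Or.inr j0_sq) (Or.inl (s0_sq (three_eq_zero hF))) ⟨1, hj⟩ (dih_cj hF hg'sp hj) z.2
    obtain ⟨x, hx⟩ := hq1
    obtain ⟨y, hy⟩ := hq2
    refine ⟨(x, y), ?_⟩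
    simp only
    rw [hconj, map_mul]
    rcases hx with hx | hx <;> rcases hy with hy | hy <;> rw [hx, hy]
    · left; rfl
    · right; rw [mul_neg, map_neg]
    · right; rw [neg_mul, map_neg]
    · left; rw [neg_mul_neg]

end main

end Cfsg.Agent.Lib.AschE4
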