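import Cfsg.Agent.Lib.AschSp14
set_option autoImplicit false
set_option linter.style.haveILetI false
set_option linter.unusedVariables false
set_option linter.unusedSectionVars false

/-!
Maximal subgroups of `Sp_4(q)`, `q` odd: the exceptional cases for the field with three elements.
-/

namespace Cfsg.Agent.Lib.AschE4

open Cfsg Cfsg.Geo Cfsg.Agent.Lib.AschMU Cfsg.Agent.Lib.AschCore Cfsg.Agent.Lib.AschField Cfsg.Agent.Lib.AschAlg
  Cfsg.Agent.Lib.AschGroup Cfsg.Agent.Lib.AschGood Cfsg.Agent.Lib.AschAdj Cfsg.Agent.Lib.AschNonab Cfsg.Agent.Lib.AschTensor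
  Cfsg.Agent.Lib.AschComp Cfsg.Agent.Lib.AschSp Cfsg.Agent.Lib.AschESys
open scoped Matrix MatrixGroups Kronecker

variable {F : Type*} [Field F] [Fintype F] {m : ℕ}

lemma adj_mem {K : Subalgebra F (Matrix (Fin m ⊕ Fin m) (Fin m ⊕ Fin m) F)} (hac : IsAdjointClosedFor (sympForm m F) K)
    {k : Matrix (Fin m ⊕ Fin m) (Fin m ⊕ Fin m) F} (hk : k ∈ K) : adj (RingEquiv.refl F) (Matrix.J (Fin m) F) k ∈ K := by
  obtain ⟨k', hk', h⟩ := hac k hk
  have : adj (RingEquiv.refl F) (Matrix.J (Fin m) F) k = k' := by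
    rw [← sub_eq_zero]
    apply mulVec_eq_zero_of_rng_bot
    intro v
    by_contra hne
    obtain ⟨⟨u, hu⟩, -⟩ := sp_nondeg (F := F) (m := m) _ hne
    apply hu
    have h1 : sympForm m F u (adj (RingEquiv.refl F) (Matrix.J (Fin m) F) k *ᵥ v) = sympForm m F u (k' *ᵥ v) := by rw [← sp_adj, h]
    rw [Matrix.sub_mulVec, sub_eq_add_neg, SympAux.sympForm_add_right, sp_neg_right, h1, add_neg_cancel]
  rw [this]; exact hk'

/-- The imaginary unit in a field of degree two over the field with three elements. -/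
theorem exists_i (hF : Fintype.card F = 3) {K : Subalgebra F (Matrix (Fin m ⊕ Fin m) (Fin m ⊕ Fin m) F)} (hK : IsFieldSubalgebra 2 K)
    (hac : IsAdjointClosedFor (sympForm m F) K) (hns : ¬ IsSelfAdjointFor (sympForm m F) K) :
    ∃ i ∈ K, i * i = -1 ∧ adj (RingEquiv.refl F) (Matrix.J (Fin m) F) i = -i ∧ ∀ x ∈ K, ∃ a b : F, x = a • 1 + b • i := by
  have h2 : (2 : F) ≠ 0 := two_ne_of_odd (by rw [hF]; decide)
  have hJ := rfJ (F := F) (m := m)
  obtain ⟨k, hk, hne⟩ : ∃ k ∈ K, adj (RingEquiv.refl F) (Matrix.J (Fin m) F) k ≠ k := by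
    by_contra hcon
    push Not at hcon
    exact hns (fun k hk u v => by rw [sp_adj, hcon k hk])
  have hsm : ∀ (c : F) x, adj (RingEquiv.refl F) (Matrix.J (Fin m) F) (c • x) = c • adj (RingEquiv.refl F) (Matrix.J (Fin m) F) x :=
    fun c x => adj_smul c x
  have hneg : ∀ x, adj (RingEquiv.refl F) (Matrix.J (Fin m) F) (-x) = -adj (RingEquiv.refl F) (Matrix.J (Fin m) F) x := by
    intro x
    have : (-x : Matrix (Fin m ⊕ Fin m) (Fin m ⊕ Fin m) F) = (-1 : F) • x := by rw [neg_smul, one_smul]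
    rw [this, hsm, neg_smul, one_smul]
  obtain ⟨d, hd⟩ : ∃ d, d = k - adj (RingEquiv.refl F) (Matrix.J (Fin m) F) k := ⟨_, rfl⟩
  have hd0 : d ≠ 0 := by rw [hd]; exact fun h => hne (sub_eq_zero.1 h).symm
  have hdK : d ∈ K := by rw [hd]; exact K.sub_mem hk (adj_mem hac hk)
  have hdadj : adj (RingEquiv.refl F) (Matrix.J (Fin m) F) d = -d := by
    rw [hd, sub_eq_add_neg, adj_add, hneg, adj_adj hJ, neg_add_rev, neg_neg]
  have hli : ∀ s t : F, s • (1 : Matrix (Fin m ⊕ Fin m) (Fin m ⊕ Fin m) F) + t • d = 0 → s = 0 ∧ t = 0 := by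
    intro s t h
    have h1 := congrArg (adj (RingEquiv.refl F) (Matrix.J (Fin m) F)) h
    rw [adj_add, hsm, hsm, adj_one hJ, hdadj, adj_zero] at h1
    have h3 : t • d = 0 := by
      have : (2 : F) • (t • d) = 0 := by
        rw [two_smul]
        calc t • d + t • d = (s • (1 : Matrix (Fin m ⊕ Fin m) (Fin m ⊕ Fin m) F) + t • d) - (s • (1 : Matrix (Fin m ⊕ Fin m) (Fin m ⊕ Fin m) F) + t • -d) := by
              rw [smul_neg]; abel
          _ = 0 := by rw [h, h1, sub_zero]
      exact (smul_eq_zero.1 this).resolve_left h2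
    have ht : t = 0 := (smul_eq_zero.1 h3).resolve_right hd0
    refine ⟨?_, ht⟩
    rw [h3, add_zero] at h
    haveI : Nonempty (Fin m ⊕ Fin m) := by
      by_contra hcon
      rw [not_nonempty_iff] at hcon
      exact hd0 (by ext i j; exact (hcon.false i).elim)
    exact (smul_eq_zero.1 h).resolve_right one_ne_zero
  have hspan : ∀ x ∈ K, ∃ a b : F, x = a • (1 : Matrix (Fin m ⊕ Fin m) (Fin m ⊕ Fin m) F) + b • d := by
    have hlin : LinearIndependent F ![(1 : Matrix (Fin m ⊕ Fin m) (Fin m ⊕ Fin m) F), d] := LinearIndependent.pair_iff.2 hli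
    have hle : Submodule.span F (Set.range ![(1 : Matrix (Fin m ⊕ Fin m) (Fin m ⊕ Fin m) F), d]) ≤ Subalgebra.toSubmodule K := by
      rw [Submodule.span_le]
      rintro _ ⟨j, rfl⟩
      fin_cases j
      · exact K.one_mem
      · exact hdK
    have heq := Submodule.eq_of_le_of_finrank_eq hle (by
      rw [finrank_span_eq_card hlin]
      exact hK.finrank_eq.symm)
    intro x hx
    have hx' : x ∈ Submodule.span F (Set.range ![(1 : Matrix (Fin m ⊕ Fin m) (Fin m ⊕ Fin m) F), d]) := by rw [heq]; exact hx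
    rw [Submodule.mem_span_range_iff_exists_fun] at hx'
    obtain ⟨c, hc⟩ := hx'
    rw [Fin.sum_univ_two] at hc
    exact ⟨c 0, c 1, hc.symm⟩
  refine ⟨d, hdK, ?_, hdadj, hspan⟩
  obtain ⟨a, b, hab⟩ := hspan _ (K.mul_mem hdK hdK)
  have h1 := congrArg (adj (RingEquiv.refl F) (Matrix.J (Fin m) F)) hab
  rw [adj_mul hJ, hdadj, neg_mul_neg, adj_add, hsm, hsm, adj_one hJ, hdadj, hab] at h1
  have hb : b = 0 := by
    have h4 := hli 0 (2 * b) (by
      rw [zero_smul, zero_add, two_mul, add_smul]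
      calc b • d + b • d = (a • (1 : Matrix (Fin m ⊕ Fin m) (Fin m ⊕ Fin m) F) + b • d) - (a • (1 : Matrix (Fin m ⊕ Fin m) (Fin m ⊕ Fin m) F) + b • -d) := by
            rw [smul_neg]; abel
        _ = 0 := by rw [← h1, sub_self])
    exact (mul_eq_zero.1 h4.2).resolve_left h2
  rw [hb, zero_smul, add_zero] at hab
  rcases three_cases hF a with h | h | h
  · exfalso
    rw [h, zero_smul] at hab
    obtain ⟨y, -, hy⟩ := hK.inv d hdK hd0
    apply hd0
    calc d = d * (d * y) := by rw [hy, mul_one]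
      _ = 0 := by rw [← mul_assoc, hab, zero_mul]
  · exfalso
    rw [h, one_smul] at hab
    have hne1 : d - 1 ≠ 0 := by
      intro h0
      have := hli (-1) 1 (by rw [neg_smul, one_smul, one_smul, ← h0]; abel)
      exact one_ne_zero this.2
    obtain ⟨y, hyK, hy⟩ := hK.inv (d - 1) (K.sub_mem hdK K.one_mem) hne1
    have h4 : d + 1 = 0 := by
      calc d + 1 = (d - 1) * y * (d + 1) := by rw [hy, one_mul]
        _ = y * ((d - 1) * (d + 1)) := by rw [hK.comm _ (K.sub_mem hdK K.one_mem) _ hyK, mul_assoc]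
        _ = 0 := by
            have : (d - 1) * (d + 1) = 0 := by rw [sub_mul, mul_add, mul_add, hab, mul_one, one_mul, mul_one]; abel
            rw [this, mul_zero]
    have := hli 1 1 (by rw [one_smul, one_smul, ← h4]; abel)
    exact one_ne_zero this.2
  · rw [hab, h, neg_smul, one_smul]

/-- The imaginary unit is normalised up to sign. -/
theorem cj_i (hF : Fintype.card F = 3) {K : Subalgebra F (Matrix (Fin m ⊕ Fin m) (Fin m ⊕ Fin m) F)}
    {i : Matrix (Fin m ⊕ Fin m) (Fin m ⊕ Fin m) F} (hiK : i ∈ K) (hii : i * i = -1) (hadj : adj (RingEquiv.refl F) (Matrix.J (Fin m) F) i = -i)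
    (hsp : ∀ x ∈ K, ∃ a b : F, x = a • 1 + b • i) {H : Subgroup (GL (Fin m ⊕ Fin m) F)} (hI : H ≤ spGL m F) (hle : H ≤ subalgebraNormalizer K) :
    ∀ g ∈ H, cj g i = i ∨ cj g i = -i := by
  have h2 : (2 : F) ≠ 0 := two_ne_of_odd (by rw [hF]; decide)
  intro g hg
  have hJ := rfJ (F := F) (m := m)
  rcases isEmpty_or_nonempty (Fin m ⊕ Fin m) with he | hne
  · left; ext a; exact (he.false a).elim
  obtain ⟨a, b, hab⟩ := hsp _ (cj_mem_of_le hle hg hiK)
  have hadj' : adj (RingEquiv.refl F) (Matrix.J (Fin m) F) (cj g i) = -cj g i := by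
    rw [adj_cj hJ (mem_sp.1 (hI hg)), hadj, map_neg]
  have hsm : ∀ (c : F) x, adj (RingEquiv.refl F) (Matrix.J (Fin m) F) (c • x) = c • adj (RingEquiv.refl F) (Matrix.J (Fin m) F) x :=
    fun c x => adj_smul c x
  rw [hab, adj_add, hsm, hsm, adj_one hJ, hadj] at hadj'
  have ha : a = 0 := by
    have h1 : (2 * a) • (1 : Matrix (Fin m ⊕ Fin m) (Fin m ⊕ Fin m) F) = 0 := by
      rw [two_mul, add_smul]
      calc a • (1 : Matrix (Fin m ⊕ Fin m) (Fin m ⊕ Fin m) F) + a • 1 = (a • 1 + b • -i) + (a • 1 + b • i) := by rw [smul_neg]; abel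
        _ = 0 := by rw [hadj']; abel
    exact (mul_eq_zero.1 ((smul_eq_zero.1 h1).resolve_right one_ne_zero)).resolve_left h2
  rw [ha, zero_smul, zero_add] at hab
  have hb : b * b = 1 := by
    have h1 : cj g i * cj g i = -1 := by rw [← map_mul, hii, map_neg, map_one]
    rw [hab, Matrix.smul_mul, Matrix.mul_smul, hii, smul_smul] at h1
    have h3 : (b * b - 1) • (1 : Matrix (Fin m ⊕ Fin m) (Fin m ⊕ Fin m) F) = 0 := by
      rw [sub_smul, one_smul]
      have : (b * b) • (1 : Matrix (Fin m ⊕ Fin m) (Fin m ⊕ Fin m) F) = 1 := by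
        rw [smul_neg] at h1
        exact neg_injective h1
      rw [this, sub_self]
    exact sub_eq_zero.1 ((smul_eq_zero.1 h3).resolve_right one_ne_zero)
  rcases mul_self_eq_one_iff.1 hb with h | h
  · left; rw [hab, h, one_smul]
  · right; rw [hab, h, neg_smul, one_smul]

end Cfsg.Agent.Lib.AschE4
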