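import Cfsg.Agent.Lib.AschSp15
set_option autoImplicit false
set_option linter.style.haveILetI false
set_option linter.unusedVariables false
set_option linter.unusedSectionVars false

/-!
Similitudes of the form `W ⊗ W` on a four-dimensional space: products of two-by-two matrices and the swap.
-/

namespace Cfsg.Agent.Lib.AschE5

open Cfsg Cfsg.Geo Cfsg.Agent.Lib.AschMU Cfsg.Agent.Lib.AschCore Cfsg.Agent.Lib.AschField Cfsg.Agent.Lib.AschAlg
  Cfsg.Agent.Lib.AschGroup Cfsg.Agent.Lib.AschGood Cfsg.Agent.Lib.AschAdj Cfsg.Agent.Lib.AschNonab Cfsg.Agent.Lib.AschTensor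
  Cfsg.Agent.Lib.AschComp Cfsg.Agent.Lib.AschSp Cfsg.Agent.Lib.AschESys
open scoped Matrix MatrixGroups Kronecker

section basic
variable {F : Type*} [Field F]

/-- The standard alternating matrix. -/
def W2 (F : Type*) [Field F] : Matrix (Fin 2) (Fin 2) F := !![0, 1; -1, 0]

/-- Skew elements. -/
theorem skew_form (h2 : (2 : F) ≠ 0) {Z : Matrix (Fin 2 × Fin 2) (Fin 2 × Fin 2) F} (hZ : Zᵀ * (W2 F ⊗ₖ W2 F) = -((W2 F ⊗ₖ W2 F) * Z)) :
    ∃ x y : Matrix (Fin 2) (Fin 2) F, x.trace = 0 ∧ y.trace = 0 ∧ Z = x ⊗ₖ 1 + 1 ⊗ₖ y := by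
  have hent : ∀ p q : Fin 2 × Fin 2, (Zᵀ * (W2 F ⊗ₖ W2 F)) p q = (-((W2 F ⊗ₖ W2 F) * Z)) p q := fun p q => by rw [hZ]
  simp only [W2, Matrix.neg_apply, Matrix.mul_apply, Fintype.sum_prod_type, Fin.sum_univ_two, Prod.forall, Fin.forall_fin_two, Matrix.transpose_apply,
    Matrix.kroneckerMap_apply] at hent
  simp at hent
  obtain ⟨⟨⟨⟨c1, c2⟩, c3, c4⟩, ⟨c5, c6⟩, c7, c8⟩, ⟨⟨c9, c10⟩, c11, c12⟩, ⟨c13, c14⟩, c15, c16⟩ := hent
  have zero_of : ∀ a : F, a = -a → a = 0 := by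
    intro a h
    have h' : 2 * a = 0 := by linear_combination h
    exact (mul_eq_zero.1 h').resolve_left h2
  have z1 := zero_of _ c1
  have z2 := zero_of _ c6.symm
  have z3 := zero_of _ c11.symm
  have z4 := zero_of _ c16
  have hh : (2 : F)⁻¹ * 2 = 1 := inv_mul_cancel₀ h2
  refine ⟨!![(2 : F)⁻¹ * (Z (0, 0) (0, 0) + Z (0, 1) (0, 1)), Z (0, 0) (1, 0); Z (1, 0) (0, 0), -((2 : F)⁻¹ * (Z (0, 0) (0, 0) + Z (0, 1) (0, 1)))],
    !![(2 : F)⁻¹ * (Z (0, 0) (0, 0) - Z (0, 1) (0, 1)), Z (0, 0) (0, 1); Z (0, 1) (0, 0), -((2 : F)⁻¹ * (Z (0, 0) (0, 0) - Z (0, 1) (0, 1)))], ?_, ?_, ?_⟩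
  · rw [Matrix.trace_fin_two]; simp
  · rw [Matrix.trace_fin_two]; simp
  · ext ⟨i, j⟩ ⟨k, l⟩
    fin_cases i <;> fin_cases j <;> fin_cases k <;> fin_cases l <;> simp
    · linear_combination -Z (0, 0) (0, 0) * hh
    · exact z4
    · linear_combination -Z (0, 1) (0, 1) * hh
    · exact z3
    · exact c12.symm
    · exact z2
    · linear_combination -c10 + Z (0, 1) (0, 1) * hh
    · exact c8.symm
    · exact z1
    · exact c2.symm
    · exact c3.symm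
    · linear_combination c13 + Z (0, 0) (0, 0) * hh

/-- Elements with scalar square. -/
theorem sq_scalar (h2 : (2 : F) ≠ 0) {x y : Matrix (Fin 2) (Fin 2) F} (hx : x.trace = 0) (hy : y.trace = 0) {c : F}
    (h : (x ⊗ₖ 1 + 1 ⊗ₖ y) * (x ⊗ₖ 1 + 1 ⊗ₖ y) = c • (1 : Matrix (Fin 2 × Fin 2) (Fin 2 × Fin 2) F)) : x = 0 ∨ y = 0 := by
  rw [Matrix.trace_fin_two] at hx hy
  have hx' : x 1 1 = -x 0 0 := by linear_combination hx
  have hy' : y 1 1 = -y 0 0 := by linear_combination hy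
  have hent : ∀ p q : Fin 2 × Fin 2, (((x ⊗ₖ (1 : Matrix (Fin 2) (Fin 2) F) + (1 : Matrix (Fin 2) (Fin 2) F) ⊗ₖ y) *
      (x ⊗ₖ (1 : Matrix (Fin 2) (Fin 2) F) + (1 : Matrix (Fin 2) (Fin 2) F) ⊗ₖ y) : Matrix (Fin 2 × Fin 2) (Fin 2 × Fin 2) F)) p q =
        (c • (1 : Matrix (Fin 2 × Fin 2) (Fin 2 × Fin 2) F)) p q :=
    fun p q => by rw [h]
  simp only [Matrix.add_apply, Matrix.smul_apply, Matrix.mul_apply, Fintype.sum_prod_type, Fin.sum_univ_two, Prod.forall, Fin.forall_fin_two,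
    Matrix.kroneckerMap_apply, Matrix.one_apply] at hent
  simp [hx', hy'] at hent
  obtain ⟨⟨⟨⟨e1, e2⟩, e3, e4⟩, ⟨e5, e6⟩, e7, -⟩, ⟨⟨e9, e10⟩, -, -⟩, ⟨e13, -⟩, -, -⟩ := hent
  have half : ∀ z : F, 2 * z = 0 → z = 0 := fun z hz => (mul_eq_zero.1 hz).resolve_left h2
  have p1 : x 0 0 * y 0 1 = 0 := half _ (by linear_combination e2)
  have p2 : x 0 1 * y 0 0 = 0 := half _ (by linear_combination e3)
  have p3 : x 0 1 * y 0 1 = 0 := half _ (by linear_combination e4)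
  have p4 : x 0 0 * y 1 0 = 0 := half _ (by linear_combination e5)
  have p5 : x 0 1 * y 1 0 = 0 := half _ (by linear_combination e7)
  have p6 : x 1 0 * y 0 0 = 0 := half _ (by linear_combination e9)
  have p7 : x 1 0 * y 0 1 = 0 := half _ (by linear_combination e10)
  have p8 : x 1 0 * y 1 0 = 0 := half _ (by linear_combination e13)
  have p9 : x 0 0 * y 0 0 = 0 := half _ (half _ (by linear_combination e1 - e6))
  by_cases hy0 : y = 0
  · exact Or.inr hy0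
  · left
    have hne : y 0 0 ≠ 0 ∨ y 0 1 ≠ 0 ∨ y 1 0 ≠ 0 := by
      by_contra hcon
      push Not at hcon
      obtain ⟨q1, q2, q3⟩ := hcon
      apply hy0
      ext i j
      fin_cases i <;> fin_cases j
      · exact q1
      · exact q2
      · exact q3
      · show y 1 1 = 0
        rw [hy', q1, neg_zero]
    have hzero : x 0 0 = 0 ∧ x 0 1 = 0 ∧ x 1 0 = 0 := by
      rcases hne with h | h | h
      · exact ⟨(mul_eq_zero.1 p9).resolve_right h, (mul_eq_zero.1 p2).resolve_right h, (mul_eq_zero.1 p6).resolve_right h⟩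
      · exact ⟨(mul_eq_zero.1 p1).resolve_right h, (mul_eq_zero.1 p3).resolve_right h, (mul_eq_zero.1 p7).resolve_right h⟩
      · exact ⟨(mul_eq_zero.1 p4).resolve_right h, (mul_eq_zero.1 p5).resolve_right h, (mul_eq_zero.1 p8).resolve_right h⟩
    ext i j
    fin_cases i <;> fin_cases j
    · exact hzero.1
    · exact hzero.2.1
    · exact hzero.2.2
    · show x 1 1 = 0
      rw [hx', hzero.1, neg_zero]

lemma W2_sq : W2 F * W2 F = -1 := by
  ext i j; fin_cases i <;> fin_cases j <;> simp [W2, Matrix.mul_apply, Fin.sum_univ_two]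

lemma W2_tr : (W2 F)ᵀ = -W2 F := by
  ext i j; fin_cases i <;> fin_cases j <;> simp [W2]

lemma W2_inv : (W2 F)⁻¹ = -W2 F := by
  apply Matrix.inv_eq_right_inv
  rw [mul_neg, W2_sq, neg_neg]

lemma W2_unit : IsUnit (W2 F) := IsUnit.of_mul_eq_one (-W2 F) (by rw [mul_neg, W2_sq, neg_neg])

/-- The adjoint for `W`. -/
lemma adj_W2 (x : Matrix (Fin 2) (Fin 2) F) : adj (RingEquiv.refl F) (W2 F) x = x.trace • 1 - x := by
  rw [adj_rf, W2_inv, Matrix.trace_fin_two]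
  ext i j
  fin_cases i <;> fin_cases j <;> simp [W2, Matrix.mul_apply, Fin.sum_univ_two, Matrix.vecMul, dotProduct]

lemma sq_traceless {x : Matrix (Fin 2) (Fin 2) F} (hx : x.trace = 0) : x * x = (-x.det) • 1 := by
  rw [Matrix.trace_fin_two] at hx
  have hx' : x 1 1 = -x 0 0 := by linear_combination hx
  ext i j
  fin_cases i <;> fin_cases j <;> simp [Matrix.mul_apply, Fin.sum_univ_two, Matrix.det_fin_two, hx'] <;> ring

/-- A matrix algebra mapping to the union of two subalgebras. -/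
theorem union_sub (h2 : (2 : F) ≠ 0) {ι : Type} [Fintype ι] [DecidableEq ι] (φ : Matrix (Fin 2) (Fin 2) F →ₐ[F] Matrix ι ι F)
    (S₁ S₂ : Subalgebra F (Matrix ι ι F)) (h : ∀ x : Matrix (Fin 2) (Fin 2) F, x.trace = 0 → φ x ∈ S₁ ∨ φ x ∈ S₂) :
    (∀ x, φ x ∈ S₁) ∨ (∀ x, φ x ∈ S₂) := by
  have hext : ∀ S : Subalgebra F (Matrix ι ι F), (∀ x : Matrix (Fin 2) (Fin 2) F, x.trace = 0 → φ x ∈ S) → ∀ x, φ x ∈ S := by
    intro S hS x
    have h1 : x = ((2 : F)⁻¹ * x.trace) • 1 + (x - ((2 : F)⁻¹ * x.trace) • 1) := by abel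
    rw [h1, map_add]
    apply S.add_mem
    · rw [map_smul, map_one]
      exact S.smul_mem S.one_mem _
    · apply hS
      rw [Matrix.trace_sub, Matrix.trace_smul, Matrix.trace_one, Fintype.card_fin, smul_eq_mul]
      push_cast
      field_simp
      ring
  by_contra hcon
  rw [not_or] at hcon
  obtain ⟨n1, n2⟩ := hcon
  have n1' : ¬ ∀ x : Matrix (Fin 2) (Fin 2) F, x.trace = 0 → φ x ∈ S₁ := fun h => n1 (hext S₁ h)
  have n2' : ¬ ∀ x : Matrix (Fin 2) (Fin 2) F, x.trace = 0 → φ x ∈ S₂ := fun h => n2 (hext S₂ h)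
  push Not at n1' n2'
  obtain ⟨x, hx, hx1⟩ := n1'
  obtain ⟨y, hy, hy2⟩ := n2'
  have hx2 := (h x hx).resolve_left hx1
  have hy1 := (h y hy).resolve_right hy2
  have hxy : (x + y).trace = 0 := by rw [Matrix.trace_add, hx, hy, add_zero]
  rcases h (x + y) hxy with h3 | h3
  · apply hx1
    have := S₁.sub_mem h3 hy1
    rwa [map_add, add_sub_cancel_right] at this
  · apply hy2
    have := S₂.sub_mem h3 hx2
    rwa [map_add, add_sub_cancel_left] at this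

/-- Two homomorphisms with the same image differ by an inner automorphism. -/
theorem inner_of_range {ι : Type} [Fintype ι] [DecidableEq ι] [Nonempty ι] (φ ψ : Matrix (Fin 2) (Fin 2) F →ₐ[F] Matrix ι ι F)
    (h : ∀ x, φ x ∈ ψ.range) :
    ∃ u : GL (Fin 2) F, ∀ x, φ x = ψ ((u : Matrix (Fin 2) (Fin 2) F) * x * ((u⁻¹ : GL (Fin 2) F) : Matrix (Fin 2) (Fin 2) F)) := by
  have hinj : Function.Injective ψ := RingHom.injective (ψ : Matrix (Fin 2) (Fin 2) F →+* Matrix ι ι F)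
  let θ : Matrix (Fin 2) (Fin 2) F →ₐ[F] Matrix (Fin 2) (Fin 2) F :=
    ((AlgEquiv.ofInjective ψ hinj).symm : ψ.range →ₐ[F] Matrix (Fin 2) (Fin 2) F).comp (φ.codRestrict ψ.range h)
  have hθ : ∀ x, ψ (θ x) = φ x := by
    intro x
    have := (AlgEquiv.ofInjective ψ hinj).apply_symm_apply ⟨φ x, h x⟩
    exact congrArg Subtype.val this
  obtain ⟨u, hu⟩ := exists_conj_algEnd θ
  exact ⟨u, fun x => by rw [← hθ, hu]⟩

/-- Commuting images are different. -/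
theorem not_comm_range {ι : Type} [Fintype ι] [DecidableEq ι] [Nonempty ι] (φ φ' ψ : Matrix (Fin 2) (Fin 2) F →ₐ[F] Matrix ι ι F)
    (hc : ∀ x y, φ x * φ' y = φ' y * φ x) (h : ∀ x, φ x ∈ ψ.range) (h' : ∀ x, φ' x ∈ ψ.range) : False := by
  have hinj : Function.Injective ψ := RingHom.injective (ψ : Matrix (Fin 2) (Fin 2) F →+* Matrix ι ι F)
  obtain ⟨u, hu⟩ := inner_of_range φ ψ h
  obtain ⟨v, hv⟩ := inner_of_range φ' ψ h'
  have hcomm : ∀ x y : Matrix (Fin 2) (Fin 2) F, x * y = y * x := by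
    intro x y
    have h1 := hc (((u⁻¹ : GL (Fin 2) F) : Matrix (Fin 2) (Fin 2) F) * x * (u : Matrix (Fin 2) (Fin 2) F))
      (((v⁻¹ : GL (Fin 2) F) : Matrix (Fin 2) (Fin 2) F) * y * (v : Matrix (Fin 2) (Fin 2) F))
    rw [hu, hv] at h1
    have e1 : ∀ (w : GL (Fin 2) F) (z : Matrix (Fin 2) (Fin 2) F), (w : Matrix (Fin 2) (Fin 2) F) * (((w⁻¹ : GL (Fin 2) F) : Matrix (Fin 2) (Fin 2) F) * z *
        (w : Matrix (Fin 2) (Fin 2) F)) * ((w⁻¹ : GL (Fin 2) F) : Matrix (Fin 2) (Fin 2) F) = z := by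
      intro w z
      calc _ = ((w : Matrix (Fin 2) (Fin 2) F) * ((w⁻¹ : GL (Fin 2) F) : Matrix (Fin 2) (Fin 2) F)) * z *
            ((w : Matrix (Fin 2) (Fin 2) F) * ((w⁻¹ : GL (Fin 2) F) : Matrix (Fin 2) (Fin 2) F)) := by simp only [mul_assoc]
        _ = z := by rw [gl_mul_inv, one_mul, mul_one]
    rw [e1, e1, ← map_mul, ← map_mul] at h1
    exact hinj h1
  have := congrFun (congrFun (hcomm !![0, 1; 0, 0] !![0, 0; 1, 0]) 0) 0
  simp at this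

/-- The two conjugates of the factors: skew elements with scalar square. -/
theorem skew_cases (h2 : (2 : F) ≠ 0) {ε : Fin 4 ≃ Fin 2 × Fin 2} {Z : Matrix (Fin 4) (Fin 4) F}
    (hZ : adj (RingEquiv.refl F) (kronL ε (W2 F) (W2 F)) Z = -Z) {c : F} (hc : Z * Z = c • 1) :
    (∃ x, Z = kronL ε x 1) ∨ (∃ y, Z = kronL ε 1 y) := by
  obtain ⟨Y, rfl⟩ : ∃ Y : Matrix (Fin 2 × Fin 2) (Fin 2 × Fin 2) F, Z = Matrix.reindex ε.symm ε.symm Y :=
    ⟨Matrix.reindex ε ε Z, by simp⟩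
  have hK : kronL ε (W2 F) (W2 F) * kronL ε (W2 F) (W2 F) = 1 := by
    have h1 : kronL ε (-1 : Matrix (Fin 2) (Fin 2) F) (-1) = kronL ε 1 1 := by
      ext i j
      simp only [kronL, Matrix.reindex_apply, Matrix.submatrix_apply, Matrix.kroneckerMap_apply, Matrix.neg_apply, neg_mul_neg]
    rw [kronL_mul, W2_sq, h1, kronL_one]
  have hK' : (kronL ε (W2 F) (W2 F))⁻¹ = kronL ε (W2 F) (W2 F) := Matrix.inv_eq_right_inv hK
  have hsk : Yᵀ * (W2 F ⊗ₖ W2 F) = -((W2 F ⊗ₖ W2 F) * Y) := by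
    rw [adj_rf, hK'] at hZ
    have h1 : (Matrix.reindex ε.symm ε.symm Y)ᵀ * kronL ε (W2 F) (W2 F) = -(kronL ε (W2 F) (W2 F) * Matrix.reindex ε.symm ε.symm Y) := by
      calc (Matrix.reindex ε.symm ε.symm Y)ᵀ * kronL ε (W2 F) (W2 F)
          = kronL ε (W2 F) (W2 F) * (kronL ε (W2 F) (W2 F) * (Matrix.reindex ε.symm ε.symm Y)ᵀ * kronL ε (W2 F) (W2 F)) := by
            rw [← mul_assoc, ← mul_assoc, hK, one_mul]
        _ = _ := by rw [hZ, mul_neg]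
    have h3 : Matrix.reindex ε.symm ε.symm (Yᵀ * (W2 F ⊗ₖ W2 F)) = Matrix.reindex ε.symm ε.symm (-((W2 F ⊗ₖ W2 F) * Y)) := by
      have e1 : Matrix.reindex ε.symm ε.symm (Yᵀ * (W2 F ⊗ₖ W2 F)) = (Matrix.reindex ε.symm ε.symm Y)ᵀ * kronL ε (W2 F) (W2 F) := by
        simp only [kronL, Matrix.reindex_apply, Equiv.symm_symm, Matrix.transpose_submatrix]
        rw [Matrix.submatrix_mul_equiv]
      have e2 : Matrix.reindex ε.symm ε.symm (-((W2 F ⊗ₖ W2 F) * Y)) = -(kronL ε (W2 F) (W2 F) * Matrix.reindex ε.symm ε.symm Y) := by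
        simp only [kronL, Matrix.reindex_apply, Equiv.symm_symm]
        rw [Matrix.submatrix_mul_equiv]
        rfl
      rw [e1, e2, h1]
    exact (Matrix.reindex ε.symm ε.symm).injective h3
  obtain ⟨x, y, hx, hy, rfl⟩ := skew_form h2 hsk
  have hsq : (x ⊗ₖ 1 + 1 ⊗ₖ y) * (x ⊗ₖ 1 + 1 ⊗ₖ y) = c • (1 : Matrix (Fin 2 × Fin 2) (Fin 2 × Fin 2) F) := by
    have e1 : Matrix.reindex ε.symm ε.symm ((x ⊗ₖ 1 + 1 ⊗ₖ y) * (x ⊗ₖ 1 + 1 ⊗ₖ y)) =
        Matrix.reindex ε.symm ε.symm (c • (1 : Matrix (Fin 2 × Fin 2) (Fin 2 × Fin 2) F)) := by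
      have e2 : Matrix.reindex ε.symm ε.symm (c • (1 : Matrix (Fin 2 × Fin 2) (Fin 2 × Fin 2) F)) = c • 1 := by
        ext i j; simp [Matrix.one_apply]
      rw [e2, ← hc]
      simp only [Matrix.reindex_apply, Equiv.symm_symm]
      rw [Matrix.submatrix_mul_equiv]
    exact (Matrix.reindex ε.symm ε.symm).injective e1
  rcases sq_scalar h2 hx hy hsq with h | h
  · right
    refine ⟨y, ?_⟩
    rw [h, Matrix.zero_kronecker, zero_add]; rfl
  · left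
    refine ⟨x, ?_⟩
    rw [h, Matrix.kronecker_zero, add_zero]; rfl

end basic

section sim
variable {F : Type*} [Field F]

/-- Adjoints under similitudes. -/
lemma adj_cj_sim {ι : Type} [Fintype ι] [DecidableEq ι] {G : Matrix ι ι F} (hG : IsUnit G) {b : GL ι F} {c : F} (hc : c ≠ 0)
    (hb : (b : Matrix ι ι F)ᵀ * G * (b : Matrix ι ι F) = c • G) (x : Matrix ι ι F) :
    adj (RingEquiv.refl F) G (cj b x) = cj b (adj (RingEquiv.refl F) G x) := by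
  have h1 : G⁻¹ * G = 1 := Matrix.nonsing_inv_mul _ ((Matrix.isUnit_iff_isUnit_det _).1 hG)
  have h2 : G * G⁻¹ = 1 := Matrix.mul_nonsing_inv _ ((Matrix.isUnit_iff_isUnit_det _).1 hG)
  have hb1 : (b : Matrix ι ι F)ᵀ * G = c • (G * ((b⁻¹ : GL ι F) : Matrix ι ι F)) := by
    calc (b : Matrix ι ι F)ᵀ * G = (b : Matrix ι ι F)ᵀ * G * (b : Matrix ι ι F) * ((b⁻¹ : GL ι F) : Matrix ι ι F) := by
          rw [mul_assoc _ (b : Matrix ι ι F), gl_mul_inv, mul_one]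
      _ = _ := by rw [hb, Matrix.smul_mul]
  have hbt : ((b⁻¹ : GL ι F) : Matrix ι ι F)ᵀ * (b : Matrix ι ι F)ᵀ = 1 := by rw [← Matrix.transpose_mul, gl_mul_inv, Matrix.transpose_one]
  have hb2 : G * (b : Matrix ι ι F) = c • (((b⁻¹ : GL ι F) : Matrix ι ι F)ᵀ * G) := by
    calc G * (b : Matrix ι ι F) = ((b⁻¹ : GL ι F) : Matrix ι ι F)ᵀ * ((b : Matrix ι ι F)ᵀ * G * (b : Matrix ι ι F)) := by
          rw [← mul_assoc, ← mul_assoc, hbt, one_mul]
      _ = _ := by rw [hb, Matrix.mul_smul]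
  have hb3 : G⁻¹ * ((b⁻¹ : GL ι F) : Matrix ι ι F)ᵀ = c⁻¹ • ((b : Matrix ι ι F) * G⁻¹) := by
    have h3 : ((b⁻¹ : GL ι F) : Matrix ι ι F)ᵀ = c⁻¹ • (G * (b : Matrix ι ι F) * G⁻¹) := by
      rw [hb2, Matrix.smul_mul, smul_smul, inv_mul_cancel₀ hc, one_smul, mul_assoc, h2, mul_one]
    rw [h3, Matrix.mul_smul, ← mul_assoc, ← mul_assoc, h1, one_mul]
  rw [adj_rf, adj_rf, cj_apply, cj_apply, Matrix.transpose_mul, Matrix.transpose_mul]
  calc G⁻¹ * (((b⁻¹ : GL ι F) : Matrix ι ι F)ᵀ * (xᵀ * (b : Matrix ι ι F)ᵀ)) * G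
      = (G⁻¹ * ((b⁻¹ : GL ι F) : Matrix ι ι F)ᵀ) * xᵀ * ((b : Matrix ι ι F)ᵀ * G) := by simp only [mul_assoc]
    _ = (b : Matrix ι ι F) * (G⁻¹ * xᵀ * G) * ((b⁻¹ : GL ι F) : Matrix ι ι F) := by
        rw [hb3, hb1, Matrix.smul_mul, Matrix.smul_mul, Matrix.mul_smul, smul_smul, inv_mul_cancel₀ hc, one_smul]
        simp only [mul_assoc]

/-- The two factors. -/
noncomputable def fac (ε : Fin 4 ≃ Fin 2 × Fin 2) (Q : GL (Fin 4) F) : Fin 2 → (Matrix (Fin 2) (Fin 2) F →ₐ[F] Matrix (Fin 4) (Fin 4) F) :=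
  ![SLNot.kLeft ε Q, SLNot.kRight ε Q]

lemma fac_comm (ε : Fin 4 ≃ Fin 2 × Fin 2) (Q : GL (Fin 4) F) (x y : Matrix (Fin 2) (Fin 2) F) :
    fac ε Q 0 x * fac ε Q 1 y = fac ε Q 1 y * fac ε Q 0 x := by
  show cj Q (kronL ε x 1) * cj Q (kronL ε 1 y) = cj Q (kronL ε 1 y) * cj Q (kronL ε x 1)
  rw [← map_mul, ← map_mul, kronL_mul, kronL_mul, one_mul, mul_one, one_mul, mul_one]

/-- Adjoints in the factors. -/
lemma fac_adj {G : Matrix (Fin 4) (Fin 4) F} (hT : Gᵀ = G) (hu : IsUnit G) {ε : Fin 4 ≃ Fin 2 × Fin 2} {Q : GL (Fin 4) F}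
    (hQ : gr (RingEquiv.refl F) G Q = kronL ε (W2 F) (W2 F)) (i : Fin 2) (x : Matrix (Fin 2) (Fin 2) F) :
    adj (RingEquiv.refl F) G (fac ε Q i x) = fac ε Q i (adj (RingEquiv.refl F) (W2 F) x) := by
  have hRF : RF (RingEquiv.refl F) 1 G := ⟨fun a => rfl, hu, by rw [map_rf, hT, one_smul], Or.inl rfl⟩
  have hRW : RF (RingEquiv.refl F) (-1) (W2 F) := ⟨fun a => rfl, W2_unit, by rw [map_rf, W2_tr, neg_smul, one_smul], Or.inr rfl⟩
  fin_cases i
  · show adj (RingEquiv.refl F) G (cj Q (kronL ε x 1)) = cj Q (kronL ε (adj (RingEquiv.refl F) (W2 F) x) 1)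
    rw [adj_cj_gr hRF, hQ, adj_kronL ε W2_unit W2_unit, adj_one hRW]
  · show adj (RingEquiv.refl F) G (cj Q (kronL ε 1 x)) = cj Q (kronL ε 1 (adj (RingEquiv.refl F) (W2 F) x))
    rw [adj_cj_gr hRF, hQ, adj_kronL ε W2_unit W2_unit, adj_one hRW]

/-- **Similitudes of a hyperbolic four-dimensional form.** -/
theorem sim_factors (h2 : (2 : F) ≠ 0) {G : Matrix (Fin 4) (Fin 4) F} (hT : Gᵀ = G) (hu : IsUnit G) {ε : Fin 4 ≃ Fin 2 × Fin 2} {Q : GL (Fin 4) F}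
    (hQ : gr (RingEquiv.refl F) G Q = kronL ε (W2 F) (W2 F)) {b : GL (Fin 4) F} {c : F} (hc : c ≠ 0)
    (hb : (b : Matrix (Fin 4) (Fin 4) F)ᵀ * G * (b : Matrix (Fin 4) (Fin 4) F) = c • G) :
    ∃ (π : Equiv.Perm (Fin 2)) (u : Fin 2 → GL (Fin 2) F), ∀ i x, cj b (fac ε Q i x) =
      fac ε Q (π i) ((u i : Matrix (Fin 2) (Fin 2) F) * x * (((u i)⁻¹ : GL (Fin 2) F) : Matrix (Fin 2) (Fin 2) F)) := by
  have hRF : RF (RingEquiv.refl F) 1 G := ⟨fun a => rfl, hu, by rw [map_rf, hT, one_smul], Or.inl rfl⟩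
  have hcase : ∀ i, ∀ x : Matrix (Fin 2) (Fin 2) F, x.trace = 0 → cj b (fac ε Q i x) ∈ (fac ε Q 0).range ∨ cj b (fac ε Q i x) ∈ (fac ε Q 1).range := by
    intro i x hx
    have h1 : adj (RingEquiv.refl F) G (cj b (fac ε Q i x)) = -cj b (fac ε Q i x) := by
      rw [adj_cj_sim hu hc hb, fac_adj hT hu hQ, adj_W2, hx, zero_smul, zero_sub, map_neg, map_neg]
    have h3 : cj b (fac ε Q i x) * cj b (fac ε Q i x) = (-x.det) • 1 := by
      rw [← map_mul, ← map_mul, sq_traceless hx, map_smul, map_one, map_smul, map_one]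
    have h4 : adj (RingEquiv.refl F) (kronL ε (W2 F) (W2 F)) (cj Q⁻¹ (cj b (fac ε Q i x))) = -cj Q⁻¹ (cj b (fac ε Q i x)) := by
      have := h1
      conv_lhs at this => rw [← cj_cj_inv Q (cj b (fac ε Q i x))]
      rw [adj_cj_gr hRF, hQ] at this
      have h5 := congrArg (cj Q⁻¹) this
      rwa [cj_inv_cj, map_neg] at h5
    have h5 : cj Q⁻¹ (cj b (fac ε Q i x)) * cj Q⁻¹ (cj b (fac ε Q i x)) = (-x.det) • 1 := by
      rw [← map_mul, h3, map_smul, map_one]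
    rcases skew_cases h2 h4 h5 with ⟨y, hy⟩ | ⟨y, hy⟩
    · left
      refine ⟨y, ?_⟩
      show cj Q (kronL ε y 1) = _
      rw [← hy, cj_cj_inv]
    · right
      refine ⟨y, ?_⟩
      show cj Q (kronL ε 1 y) = _
      rw [← hy, cj_cj_inv]
  let φ : Fin 2 → (Matrix (Fin 2) (Fin 2) F →ₐ[F] Matrix (Fin 4) (Fin 4) F) := fun i => ((cj b : Matrix (Fin 4) (Fin 4) F ≃ₐ[F] Matrix (Fin 4) (Fin 4) F) : Matrix (Fin 4) (Fin 4) F →ₐ[F] Matrix (Fin 4) (Fin 4) F).comp (fac ε Q i)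
  have hφ : ∀ i x, φ i x = cj b (fac ε Q i x) := fun i x => rfl
  have h0 := union_sub h2 (φ 0) (fac ε Q 0).range (fac ε Q 1).range (fun x hx => hcase 0 x hx)
  have h1 := union_sub h2 (φ 1) (fac ε Q 0).range (fac ε Q 1).range (fun x hx => hcase 1 x hx)
  have hcomm : ∀ x y, φ 0 x * φ 1 y = φ 1 y * φ 0 x := by
    intro x y
    rw [hφ, hφ, ← map_mul, ← map_mul, fac_comm]
  rcases h0 with h0 | h0 <;> rcases h1 with h1 | h1
  · exact (not_comm_range _ _ _ hcomm h0 h1).elim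
  · obtain ⟨u, hu'⟩ := inner_of_range _ _ h0
    obtain ⟨v, hv⟩ := inner_of_range _ _ h1
    refine ⟨1, ![u, v], ?_⟩
    intro i x
    fin_cases i
    · exact hu' x
    · exact hv x
  · obtain ⟨u, hu'⟩ := inner_of_range _ _ h0
    obtain ⟨v, hv⟩ := inner_of_range _ _ h1
    refine ⟨Equiv.swap 0 1, ![u, v], ?_⟩
    intro i x
    fin_cases i
    · exact hu' x
    · exact hv x
  · exact (not_comm_range _ _ _ hcomm h0 h1).elim

end sim

end Cfsg.Agent.Lib.AschE5
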