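import Cfsg.Agent.Lib.AschSp16
set_option autoImplicit false
set_option linter.style.haveILetI false
set_option linter.unusedVariables false
set_option linter.unusedSectionVars false

/-!
Maximal subgroups of `Sp_8(q)`: tensor products with a symmetric form of plus type in dimension four.
-/

namespace Cfsg.Agent.Lib.AschE5

open Cfsg Cfsg.Geo Cfsg.Agent.Lib.AschMU Cfsg.Agent.Lib.AschCore Cfsg.Agent.Lib.AschField Cfsg.Agent.Lib.AschAlg
  Cfsg.Agent.Lib.AschGroup Cfsg.Agent.Lib.AschGood Cfsg.Agent.Lib.AschAdj Cfsg.Agent.Lib.AschNonab Cfsg.Agent.Lib.AschTensor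
  Cfsg.Agent.Lib.AschComp Cfsg.Agent.Lib.AschSp Cfsg.Agent.Lib.AschESys
open scoped Matrix MatrixGroups Kronecker

section hyp
variable {F : Type*} [Field F]

/-- Hyperbolic bases in dimension four. -/
theorem exists_hyp (h2 : (2 : F) ≠ 0) {G : Matrix (Fin 4) (Fin 4) F} (hT : Gᵀ = G) (hu : IsUnit G) {U : Submodule F (Fin 4 → F)}
    (hU : Module.finrank F U = 2) (hs : ∀ u ∈ U, bf (RingEquiv.refl F) G u u = 0) (ε : Fin 4 ≃ Fin 2 × Fin 2) :
    ∃ Q : GL (Fin 4) F, gr (RingEquiv.refl F) G Q = kronL ε (W2 F) (W2 F) := by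
  classical
  obtain ⟨B, hB⟩ : ∃ B : (Fin 4 → F) → (Fin 4 → F) → F, B = bf (RingEquiv.refl F) G := ⟨_, rfl⟩
  have hal : ∀ x y z, B (x + y) z = B x z + B y z := by rw [hB]; exact bf_add_left
  have har : ∀ x y z, B x (y + z) = B x y + B x z := by rw [hB]; exact bf_add_right
  have hsl : ∀ (c : F) x y, B (c • x) y = c * B x y := by rw [hB]; exact bf_smul_left
  have hsr : ∀ (c : F) x y, B x (c • y) = c * B x y := by rw [hB]; intro c x y; exact bf_smul_right c x y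
  have hsym : ∀ x y, B x y = B y x := by
    intro x y
    rw [hB, bf_rf, bf_rf, Matrix.dotProduct_mulVec y G x, ← Matrix.mulVec_transpose, hT, dotProduct_comm]
  rw [← hB] at hs
  have hUU : ∀ x ∈ U, ∀ y ∈ U, B x y = 0 := by
    intro x hx y hy
    have h := hs (x + y) (U.add_mem hx hy)
    rw [hal, har, har, hs x hx, hs y hy, hsym y x] at h
    have h' : 2 * B x y = 0 := by linear_combination h
    exact (mul_eq_zero.1 h').resolve_left h2
  let b := Module.finBasisOfFinrankEq F U hU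
  let T : (Fin 2 → F) →ₗ[F] (Fin 4 → F) := U.subtype.comp b.equivFun.symm.toLinearMap
  have hTi : LinearMap.ker T = ⊥ := by
    rw [LinearMap.ker_eq_bot]
    exact (Subtype.val_injective).comp b.equivFun.symm.injective
  obtain ⟨S, hS⟩ := LinearMap.exists_leftInverse_of_injective T hTi
  let u : Fin 2 → (Fin 4 → F) := fun i => T (Pi.single i 1)
  have huU : ∀ i, u i ∈ U := fun i => (b.equivFun.symm (Pi.single i 1)).2
  let s : Fin 2 → (Fin 4 → F) := fun j k => S (Pi.single k 1) j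
  have hxs : ∀ (x : Fin 4 → F) j, x ⬝ᵥ s j = S x j := by
    intro x j
    have h1 : x = ∑ k, x k • (Pi.single k 1 : Fin 4 → F) := by
      ext l
      simp [Finset.sum_apply, Pi.single_apply]
    conv_rhs => rw [h1, map_sum]
    rw [Finset.sum_apply]
    simp only [map_smul, Pi.smul_apply, smul_eq_mul]
    rfl
  let w : Fin 2 → (Fin 4 → F) := fun j => G⁻¹ *ᵥ s j
  have hxw : ∀ (x : Fin 4 → F) j, B x (w j) = S x j := by
    intro x j
    rw [hB, bf_rf, Matrix.mulVec_mulVec, Matrix.mul_nonsing_inv _ ((Matrix.isUnit_iff_isUnit_det _).1 hu), Matrix.one_mulVec, hxs]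
  have huw : ∀ i j, B (u i) (w j) = (Pi.single i 1 : Fin 2 → F) j := by
    intro i j
    rw [hxw]
    show S (T (Pi.single i 1)) j = _
    have := LinearMap.congr_fun hS (Pi.single i 1)
    rw [LinearMap.comp_apply] at this
    rw [this]; rfl
  have d00 : B (u 0) (w 0) = 1 := by rw [huw]; simp
  have d01 : B (u 0) (w 1) = 0 := by rw [huw]; simp
  have d10 : B (u 1) (w 0) = 0 := by rw [huw]; simp
  have d11 : B (u 1) (w 1) = 1 := by rw [huw]; simp
  have e00 : B (w 0) (u 0) = 1 := by rw [hsym, d00]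
  have e10 : B (w 1) (u 0) = 0 := by rw [hsym, d01]
  have e01 : B (w 0) (u 1) = 0 := by rw [hsym, d10]
  have e11 : B (w 1) (u 1) = 1 := by rw [hsym, d11]
  have z : ∀ i j, B (u i) (u j) = 0 := fun i j => hUU _ (huU i) _ (huU j)
  have hw10 : B (w 1) (w 0) = B (w 0) (w 1) := hsym _ _
  have hh : (2 : F)⁻¹ * 2 = 1 := inv_mul_cancel₀ h2
  obtain ⟨v0, hv0⟩ : ∃ v, v = w 0 + (-((2 : F)⁻¹ * B (w 0) (w 0))) • u 0 := ⟨_, rfl⟩
  obtain ⟨v1, hv1⟩ : ∃ v, v = w 1 + ((-((2 : F)⁻¹ * B (w 1) (w 1))) • u 1 + (-B (w 0) (w 1)) • u 0) := ⟨_, rfl⟩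
  have a00 : B v0 v0 = 0 := by
    rw [hv0]; simp only [hal, har, hsl, hsr, d00, e00, z]; linear_combination -B (w 0) (w 0) * hh
  have a01 : B v0 v1 = 0 := by
    rw [hv0, hv1]; simp only [hal, har, hsl, hsr, d00, e00, d01, e01, z]; ring
  have a11 : B v1 v1 = 0 := by
    rw [hv1]; simp only [hal, har, hsl, hsr, d11, e11, d10, e10, d01, e01, z]; linear_combination -B (w 1) (w 1) * hh
  have b00 : B (u 0) v0 = 1 := by rw [hv0]; simp only [har, hsr, d00, z]; ring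
  have b01 : B (u 0) v1 = 0 := by rw [hv1]; simp only [har, hsr, d01, z]; ring
  have b10 : B (u 1) v0 = 0 := by rw [hv0]; simp only [har, hsr, d10, z]; ring
  have b11 : B (u 1) v1 = 1 := by rw [hv1]; simp only [har, hsr, d11, z]; ring
  have hn : ∀ x y, B x (-y) = -B x y := by
    intro x y
    have := hsr (-1) x y
    rw [neg_smul, one_smul] at this
    rw [this]; ring
  have hn' : ∀ x y, B (-x) y = -B x y := by
    intro x y
    rw [hsym, hn, hsym]
  let col : Fin 2 × Fin 2 → (Fin 4 → F) := fun p => (![![u 0, u 1], ![-v1, v0]] : Fin 2 → Fin 2 → (Fin 4 → F)) p.1 p.2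
  have hcol : ∀ p q, B (col p) (col q) = W2 F p.1 q.1 * W2 F p.2 q.2 := by
    rintro ⟨i, j⟩ ⟨k, l⟩
    fin_cases i <;> fin_cases j <;> fin_cases k <;> fin_cases l <;>
      simp [col, W2, z, a00, a01, a11, b00, b01, b10, b11, hn, hn', hsym v0, hsym v1]
  let M : Matrix (Fin 4) (Fin 4) F := Matrix.of fun r c => col (ε c) r
  have hM : Mᵀ * G * M = kronL ε (W2 F) (W2 F) := by
    ext i j
    have h1 : (Mᵀ * G * M) i j = B (col (ε i)) (col (ε j)) := by
      rw [hB, bf_rf, Matrix.dotProduct_mulVec, Matrix.mul_apply]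
      rfl
    rw [h1, hcol]
    rfl
  have hdet : M.det ≠ 0 := by
    intro h0
    have h1 : IsUnit (kronL ε (W2 F) (W2 F)) := by
      have h1 : kronL ε (-1 : Matrix (Fin 2) (Fin 2) F) (-1) = kronL ε 1 1 := by
        ext i j
        simp only [kronL, Matrix.reindex_apply, Matrix.submatrix_apply, Matrix.kroneckerMap_apply, Matrix.neg_apply, neg_mul_neg]
      exact IsUnit.of_mul_eq_one (kronL ε (W2 F) (W2 F)) (by rw [kronL_mul, W2_sq, h1, kronL_one])
    rw [← hM, Matrix.isUnit_iff_isUnit_det, Matrix.det_mul, h0, mul_zero] at h1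
    exact not_isUnit_zero h1
  refine ⟨Matrix.GeneralLinearGroup.mkOfDetNeZero M hdet, ?_⟩
  unfold gr
  rw [map_rf]
  exact hM

end hyp

section tri
variable {ι : Type} [Fintype ι] [DecidableEq ι] {F : Type*} [Field F]

lemma single_kron {d e : ℕ} (σ : ι ≃ Fin d × Fin e) (i j : ι) :
    (Matrix.single i j (1 : F) : Matrix ι ι F) = kronL σ (Matrix.single (σ i).1 (σ j).1 1) 1 * kronL σ 1 (Matrix.single (σ i).2 (σ j).2 1) := by
  rw [kronL_mul, mul_one, one_mul]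
  ext k l
  have h1 : kronL σ (Matrix.single (σ i).1 (σ j).1 (1 : F)) (Matrix.single (σ i).2 (σ j).2 1) k l =
      (Matrix.single (σ i).1 (σ j).1 (1 : F) : Matrix (Fin d) (Fin d) F) (σ k).1 (σ l).1 * (Matrix.single (σ i).2 (σ j).2 (1 : F) : Matrix (Fin e) (Fin e) F) (σ k).2 (σ l).2 := rfl
  rw [h1, Matrix.single_apply, Matrix.single_apply, Matrix.single_apply]
  by_cases hi : i = k
  · by_cases hj : j = l
    · subst hi; subst hj; simp
    · have hj' : ¬ ((σ j).1 = (σ l).1 ∧ (σ j).2 = (σ l).2) := fun h => hj (σ.injective (Prod.ext h.1 h.2))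
      rw [if_neg (fun h => hj h.2)]
      by_cases h1 : (σ j).1 = (σ l).1
      · rw [if_neg (c := (σ i).2 = (σ k).2 ∧ (σ j).2 = (σ l).2) (fun h => hj' ⟨h1, h.2⟩), mul_zero]
      · rw [if_neg (c := (σ i).1 = (σ k).1 ∧ (σ j).1 = (σ l).1) (fun h => h1 h.2), zero_mul]
  · have hi' : ¬ ((σ i).1 = (σ k).1 ∧ (σ i).2 = (σ k).2) := fun h => hi (σ.injective (Prod.ext h.1 h.2))
    rw [if_neg (fun h => hi h.1)]
    by_cases h1 : (σ i).1 = (σ k).1
    · rw [if_neg (c := (σ i).2 = (σ k).2 ∧ (σ j).2 = (σ l).2) (fun h => hi' ⟨h1, h.1⟩), mul_zero]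
    · rw [if_neg (c := (σ i).1 = (σ k).1 ∧ (σ j).1 = (σ l).1) (fun h => h1 h.1), zero_mul]

/-- The two factors generate. -/
theorem sup_range_top {d e : ℕ} (σ : ι ≃ Fin d × Fin e) (P : GL ι F) : (SLNot.kLeft σ P).range ⊔ (SLNot.kRight σ P).range = ⊤ := by
  rw [eq_top_iff]
  intro x _
  rw [← cj_cj_inv P x]
  generalize cj P⁻¹ x = y
  rw [matrix_eq_sum_units y]
  rw [map_sum]
  apply Subalgebra.sum_mem
  intro i _
  rw [map_sum]
  apply Subalgebra.sum_mem
  intro j _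
  rw [map_smul]
  apply Subalgebra.smul_mem
  rw [single_kron σ i j, map_mul]
  apply Subalgebra.mul_mem
  · exact (le_sup_left : (SLNot.kLeft σ P).range ≤ _) ⟨_, rfl⟩
  · exact (le_sup_right : (SLNot.kRight σ P).range ≤ _) ⟨_, rfl⟩

/-- The three factors. -/
noncomputable def tri (ρ : ι ≃ Fin 2 × Fin 4) (P : GL ι F) (ε : Fin 4 ≃ Fin 2 × Fin 2) (Q : GL (Fin 4) F) :
    Fin 3 → (Matrix (Fin 2) (Fin 2) F →ₐ[F] Matrix ι ι F) :=
  ![SLNot.kLeft ρ P, (SLNot.kRight ρ P).comp (fac ε Q 0), (SLNot.kRight ρ P).comp (fac ε Q 1)]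

lemma kLR_comm {d e : ℕ} (ρ : ι ≃ Fin d × Fin e) (P : GL ι F) (x : Matrix (Fin d) (Fin d) F) (y : Matrix (Fin e) (Fin e) F) :
    SLNot.kLeft ρ P x * SLNot.kRight ρ P y = SLNot.kRight ρ P y * SLNot.kLeft ρ P x := by
  show cj P (kronL ρ x 1) * cj P (kronL ρ 1 y) = cj P (kronL ρ 1 y) * cj P (kronL ρ x 1)
  rw [← map_mul, ← map_mul, kronL_mul, kronL_mul, one_mul, mul_one, one_mul, mul_one]

variable (ρ : ι ≃ Fin 2 × Fin 4) (P : GL ι F) (ε : Fin 4 ≃ Fin 2 × Fin 2) (Q : GL (Fin 4) F)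

lemma tri_comm (i j : Fin 3) (hij : i ≠ j) (x y : Matrix (Fin 2) (Fin 2) F) : tri ρ P ε Q i x * tri ρ P ε Q j y = tri ρ P ε Q j y * tri ρ P ε Q i x := by
  fin_cases i <;> fin_cases j
  · exact absurd rfl hij
  · exact kLR_comm ρ P x _
  · exact kLR_comm ρ P x _
  · exact (kLR_comm ρ P y _).symm
  · exact absurd rfl hij
  · show SLNot.kRight ρ P (fac ε Q 0 x) * SLNot.kRight ρ P (fac ε Q 1 y) = SLNot.kRight ρ P (fac ε Q 1 y) * SLNot.kRight ρ P (fac ε Q 0 x)
    rw [← map_mul, ← map_mul, fac_comm]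
  · exact (kLR_comm ρ P y _).symm
  · show SLNot.kRight ρ P (fac ε Q 1 x) * SLNot.kRight ρ P (fac ε Q 0 y) = SLNot.kRight ρ P (fac ε Q 0 y) * SLNot.kRight ρ P (fac ε Q 1 x)
    rw [← map_mul, ← map_mul, fac_comm]
  · exact absurd rfl hij

lemma tri_top : (⨆ i, (tri ρ P ε Q i).range) = ⊤ := by
  rw [eq_top_iff, ← sup_range_top ρ P]
  apply sup_le
  · exact le_iSup (fun i => (tri ρ P ε Q i).range) 0
  · have h1 : (SLNot.kRight ρ P).range = (⊤ : Subalgebra F (Matrix (Fin 4) (Fin 4) F)).map (SLNot.kRight ρ P) := by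
      rw [Algebra.map_top]
    rw [h1, ← sup_range_top ε Q, Algebra.map_sup]
    apply sup_le
    · rw [← AlgHom.range_comp]
      exact le_iSup (fun i => (tri ρ P ε Q i).range) 1
    · rw [← AlgHom.range_comp]
      exact le_iSup (fun i => (tri ρ P ε Q i).range) 2

/-- Adjoints in the three factors. -/
lemma tri_adj {e' : F} {G : Matrix ι ι F} (h : RF (RingEquiv.refl F) e' G) {c : F} (hc : c ≠ 0) {G₂ : Matrix (Fin 4) (Fin 4) F}
    (hG : gr (RingEquiv.refl F) G P = kronL ρ (c • W2 F) G₂) (hT : G₂ᵀ = G₂) (hu : IsUnit G₂)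
    (hQ : gr (RingEquiv.refl F) G₂ Q = kronL ε (W2 F) (W2 F)) (i : Fin 3) (x : Matrix (Fin 2) (Fin 2) F) :
    adj (RingEquiv.refl F) G (tri ρ P ε Q i x) = tri ρ P ε Q i (adj (RingEquiv.refl F) (W2 F) x) := by
  have hcW : IsUnit (c • W2 F) := by
    apply IsUnit.of_mul_eq_one (-(c⁻¹ • W2 F))
    rw [mul_neg, Matrix.smul_mul, Matrix.mul_smul, W2_sq, smul_smul, mul_inv_cancel₀ hc, one_smul, neg_neg]
  have hRF : RF (RingEquiv.refl F) 1 G₂ := ⟨fun a => rfl, hu, by rw [map_rf, hT, one_smul], Or.inl rfl⟩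
  have hinv : (c • W2 F)⁻¹ = c⁻¹ • (W2 F)⁻¹ := by
    apply Matrix.inv_eq_right_inv
    rw [W2_inv, Matrix.smul_mul, Matrix.mul_smul, mul_neg, W2_sq, neg_neg, smul_smul, mul_inv_cancel₀ hc, one_smul]
  have hadj : ∀ z : Matrix (Fin 2) (Fin 2) F, adj (RingEquiv.refl F) (c • W2 F) z = adj (RingEquiv.refl F) (W2 F) z := by
    intro z
    rw [adj_rf, adj_rf, hinv, Matrix.smul_mul, Matrix.smul_mul, Matrix.mul_smul, smul_smul, inv_mul_cancel₀ hc, one_smul]
  have hone : adj (RingEquiv.refl F) (c • W2 F) (1 : Matrix (Fin 2) (Fin 2) F) = 1 := by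
    rw [hadj, adj_W2, Matrix.trace_one, Fintype.card_fin, sub_eq_iff_eq_add]
    push_cast
    rw [two_smul]
  have hL : ∀ z, adj (RingEquiv.refl F) G (SLNot.kLeft ρ P z) = SLNot.kLeft ρ P (adj (RingEquiv.refl F) (W2 F) z) := by
    intro z
    show adj (RingEquiv.refl F) G (cj P (kronL ρ z 1)) = cj P (kronL ρ (adj (RingEquiv.refl F) (W2 F) z) 1)
    rw [adj_cj_gr h, hG, adj_kronL ρ hcW hu, adj_one hRF, hadj]
  have hR : ∀ z, adj (RingEquiv.refl F) G (SLNot.kRight ρ P z) = SLNot.kRight ρ P (adj (RingEquiv.refl F) G₂ z) := by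
    intro z
    show adj (RingEquiv.refl F) G (cj P (kronL ρ 1 z)) = cj P (kronL ρ 1 (adj (RingEquiv.refl F) G₂ z))
    rw [adj_cj_gr h, hG, adj_kronL ρ hcW hu, hone]
  fin_cases i
  · exact hL x
  · show adj (RingEquiv.refl F) G (SLNot.kRight ρ P (fac ε Q 0 x)) = SLNot.kRight ρ P (fac ε Q 0 (adj (RingEquiv.refl F) (W2 F) x))
    rw [hR, fac_adj hT hu hQ]
  · show adj (RingEquiv.refl F) G (SLNot.kRight ρ P (fac ε Q 1 x)) = SLNot.kRight ρ P (fac ε Q 1 (adj (RingEquiv.refl F) (W2 F) x))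
    rw [hR, fac_adj hT hu hQ]

end tri

end Cfsg.Agent.Lib.AschE5
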