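import Cfsg.Agent.Lib.AschSp17
set_option autoImplicit false
set_option linter.style.haveILetI false
set_option linter.unusedVariables false
set_option linter.unusedSectionVars false

/-!
Maximal subgroups of `Sp_8(q)`: tensor products with a symmetric form of plus type in dimension four, continued.
-/

namespace Cfsg.Agent.Lib.AschE5

open Cfsg Cfsg.Geo Cfsg.Agent.Lib.AschMU Cfsg.Agent.Lib.AschCore Cfsg.Agent.Lib.AschField Cfsg.Agent.Lib.AschAlg
  Cfsg.Agent.Lib.AschGroup Cfsg.Agent.Lib.AschGood Cfsg.Agent.Lib.AschAdj Cfsg.Agent.Lib.AschNonab Cfsg.Agent.Lib.AschTensor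
  Cfsg.Agent.Lib.AschComp Cfsg.Agent.Lib.AschSp Cfsg.Agent.Lib.AschESys
open scoped Matrix MatrixGroups Kronecker

section gram
variable {ι : Type} [Fintype ι] [DecidableEq ι] [Nonempty ι] {F : Type*} [Field F]
  (ρ : ι ≃ Fin 2 × Fin 4) (P : GL ι F) (ε : Fin 4 ≃ Fin 2 × Fin 2) (Q : GL (Fin 4) F)

lemma bigPi_three (φ : Fin 3 → (Matrix (Fin 2) (Fin 2) F →ₐ[F] Matrix ι ι F)) (x : Fin 3 → Matrix (Fin 2) (Fin 2) F) :
    bigPi φ x = φ 0 (x 0) * (φ 1 (x 1) * φ 2 (x 2)) := by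
  rw [bigPi_apply]
  simp [List.ofFn_succ]

/-- Adjoints of products. -/
lemma adj_bigPi {e' : F} {G : Matrix ι ι F} (h : RF (RingEquiv.refl F) e' G)
    (hadj : ∀ i x, adj (RingEquiv.refl F) G (tri ρ P ε Q i x) = tri ρ P ε Q i (adj (RingEquiv.refl F) (W2 F) x)) (x : Fin 3 → Matrix (Fin 2) (Fin 2) F) :
    adj (RingEquiv.refl F) G (bigPi (tri ρ P ε Q) x) = bigPi (tri ρ P ε Q) (fun i => adj (RingEquiv.refl F) (W2 F) (x i)) := by
  rw [bigPi_three, bigPi_three, adj_mul h, adj_mul h, hadj, hadj, hadj, tri_comm ρ P ε Q 2 1 (by decide), mul_assoc,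
    tri_comm ρ P ε Q 2 0 (by decide), ← mul_assoc, tri_comm ρ P ε Q 1 0 (by decide), mul_assoc]

/-- The Gram matrix in the tensor basis. -/
theorem tri_gram {e' : F} {G : Matrix ι ι F} (h : RF (RingEquiv.refl F) e' G)
    (hadj : ∀ i x, adj (RingEquiv.refl F) G (tri ρ P ε Q i x) = tri ρ P ε Q i (adj (RingEquiv.refl F) (W2 F) x)) (σ : ι ≃ (Fin 3 → Fin 2)) :
    ∃ (B : GL ι F) (c : F), c ≠ 0 ∧ (∀ i x, tri ρ P ε Q i x = psi σ B (tp (Function.update (fun _ => 1) i x))) ∧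
      gr (RingEquiv.refl F) G B = c • Matrix.reindex σ.symm σ.symm (tp (fun _ : Fin 3 => W2 F)) := by
  classical
  obtain ⟨B, hB⟩ := exists_psi (tri ρ P ε Q) (tri_comm ρ P ε Q) σ
  obtain ⟨K, hK⟩ : ∃ K : Matrix ι ι F, K = Matrix.reindex σ.symm σ.symm (tp (fun _ : Fin 3 => W2 F)) := ⟨_, rfl⟩
  have hre : ∀ x y : Matrix (Fin 3 → Fin 2) (Fin 3 → Fin 2) F, Matrix.reindex σ.symm σ.symm x * Matrix.reindex σ.symm σ.symm y =
      Matrix.reindex σ.symm σ.symm (x * y) := fun x y => (reindex_mul' σ x y).symm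
  have hre1 : Matrix.reindex σ.symm σ.symm (1 : Matrix (Fin 3 → Fin 2) (Fin 3 → Fin 2) F) = 1 := by
    ext i j; simp [Matrix.one_apply]
  have hKinv : K⁻¹ = Matrix.reindex σ.symm σ.symm (tp (fun _ : Fin 3 => (W2 F)⁻¹)) := by
    apply Matrix.inv_eq_right_inv
    rw [hK, hre, tp_mul]
    have : (fun _ : Fin 3 => W2 F * (W2 F)⁻¹) = fun _ => (1 : Matrix (Fin 2) (Fin 2) F) := by
      funext _
      exact Matrix.mul_nonsing_inv _ ((Matrix.isUnit_iff_isUnit_det _).1 W2_unit)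
    rw [this, tp_one, hre1]
  have hKK : K * K⁻¹ = 1 := by
    rw [hKinv, hK, hre, tp_mul]
    have : (fun _ : Fin 3 => W2 F * (W2 F)⁻¹) = fun _ => (1 : Matrix (Fin 2) (Fin 2) F) := by
      funext _
      exact Matrix.mul_nonsing_inv _ ((Matrix.isUnit_iff_isUnit_det _).1 W2_unit)
    rw [this, tp_one, hre1]
  have hKK' : K⁻¹ * K = 1 := mul_eq_one_comm.1 hKK
  obtain ⟨G', hG'⟩ : ∃ G', G' = gr (RingEquiv.refl F) G B := ⟨_, rfl⟩
  have hRF' := h.gr B
  rw [← hG'] at hRF'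
  have hGG : G' * G'⁻¹ = 1 := hRF'.mul_inv
  have hGG' : G'⁻¹ * G' = 1 := hRF'.inv_mul
  have key : ∀ x : Fin 3 → Matrix (Fin 2) (Fin 2) F, adj (RingEquiv.refl F) G' (Matrix.reindex σ.symm σ.symm (tp x)) =
      K⁻¹ * (Matrix.reindex σ.symm σ.symm (tp x))ᵀ * K := by
    intro x
    have h1 : cj B (adj (RingEquiv.refl F) G' (Matrix.reindex σ.symm σ.symm (tp x))) =
        cj B (Matrix.reindex σ.symm σ.symm (tp (fun i => adj (RingEquiv.refl F) (W2 F) (x i)))) := by
      rw [hG', ← adj_cj_gr h]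
      have e1 : cj B (Matrix.reindex σ.symm σ.symm (tp x)) = bigPi (tri ρ P ε Q) x := (hB x).symm
      have e2 : cj B (Matrix.reindex σ.symm σ.symm (tp (fun i => adj (RingEquiv.refl F) (W2 F) (x i)))) =
          bigPi (tri ρ P ε Q) (fun i => adj (RingEquiv.refl F) (W2 F) (x i)) := (hB _).symm
      rw [e1, e2, adj_bigPi ρ P ε Q h hadj]
    rw [(cj B).injective h1, hKinv, hK]
    have e3 : (Matrix.reindex σ.symm σ.symm (tp x))ᵀ = Matrix.reindex σ.symm σ.symm (tp (fun i => (x i)ᵀ)) := by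
      rw [← tp_transpose]; rfl
    rw [e3, hre, hre, tp_mul, tp_mul]
    congr 2
  have hcomm : ∀ i j, (K * G'⁻¹) * Matrix.single i j 1 = Matrix.single i j 1 * (K * G'⁻¹) := by
    intro i j
    have h1 := key (fun k => Matrix.single (σ j k) (σ i k) (1 : F))
    rw [tp_single] at h1
    have e1 : (Matrix.reindex σ.symm σ.symm (Matrix.single (fun k => σ j k) (fun k => σ i k) (1 : F) : Matrix (Fin 3 → Fin 2) (Fin 3 → Fin 2) F)) =
        Matrix.single j i 1 := by
      ext k l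
      simp only [Matrix.reindex_apply, Equiv.symm_symm, Matrix.submatrix_apply, Matrix.single_apply]
      have f1 : ((fun k => σ j k) = σ k) ↔ j = k := ⟨fun h => σ.injective h, fun h => by rw [h]⟩
      have f2 : ((fun k => σ i k) = σ l) ↔ i = l := ⟨fun h => σ.injective h, fun h => by rw [h]⟩
      simp only [f1, f2]
    rw [e1, Matrix.transpose_single, adj_rf, Matrix.transpose_single] at h1
    calc K * G'⁻¹ * Matrix.single i j 1 = K * (G'⁻¹ * Matrix.single i j 1 * G') * G'⁻¹ := by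
          simp only [mul_assoc]; rw [hGG, mul_one]
      _ = K * (K⁻¹ * Matrix.single i j 1 * K) * G'⁻¹ := by rw [h1]
      _ = (K * K⁻¹) * (Matrix.single i j 1 * (K * G'⁻¹)) := by simp only [mul_assoc]
      _ = _ := by rw [hKK, one_mul]
  obtain ⟨c, hc⟩ := AschDescent.commute_of_commute_single hcomm
  have hKc : K = c • G' := by
    calc K = K * G'⁻¹ * G' := by rw [mul_assoc, hGG', mul_one]
      _ = c • G' := by rw [hc, Matrix.smul_mul, one_mul]
  have hc0 : c ≠ 0 := by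
    rintro rfl
    rw [hKc, zero_smul, zero_mul] at hKK
    exact zero_ne_one hKK
  refine ⟨B, c⁻¹, inv_ne_zero hc0, fun i x => ?_, ?_⟩
  · rw [← hB, bigPi_update]
  · rw [← hK, hKc, smul_smul, inv_mul_cancel₀ hc0, one_smul, hG']

/-- Elements of the tensor product group act on the three factors. -/
theorem tri_act (h2 : (2 : F) ≠ 0) {G₂ : Matrix (Fin 4) (Fin 4) F} (hT : G₂ᵀ = G₂) (hu : IsUnit G₂)
    (hQ : gr (RingEquiv.refl F) G₂ Q = kronL ε (W2 F) (W2 F)) {a : GL (Fin 2) F} {b : GL (Fin 4) F} {c : F} (hc : c ≠ 0)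
    (hb : (b : Matrix (Fin 4) (Fin 4) F)ᵀ * G₂ * (b : Matrix (Fin 4) (Fin 4) F) = c • G₂) {g : GL ι F} (hg : g = P * kronU ρ a b * P⁻¹) :
    ∃ (π : Equiv.Perm (Fin 3)) (u : Fin 3 → GL (Fin 2) F), (π = 1 ∨ π = Equiv.swap 1 2) ∧ ∀ i x, cj g (tri ρ P ε Q i x) =
      tri ρ P ε Q (π i) ((u i : Matrix (Fin 2) (Fin 2) F) * x * (((u i)⁻¹ : GL (Fin 2) F) : Matrix (Fin 2) (Fin 2) F)) := by
  obtain ⟨π, u, hπ⟩ := sim_factors h2 hT hu hQ hc hb
  have hL : ∀ x, cj g (SLNot.kLeft ρ P x) = SLNot.kLeft ρ P ((a : Matrix (Fin 2) (Fin 2) F) * x * ((a⁻¹ : GL (Fin 2) F) : Matrix (Fin 2) (Fin 2) F)) := by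
    intro x
    show cj g (cj P (kronL ρ x 1)) = cj P (kronL ρ _ 1)
    rw [hg, ← cj_mul_apply]
    have h1 : P * kronU ρ a b * P⁻¹ * P = P * kronU ρ a b := by group
    rw [h1, cj_mul_apply]
    congr 1
    rw [cj_apply, kronU_inv, kronU_val, kronU_val, kronL_mul, kronL_mul, mul_one, gl_mul_inv]
  have hR : ∀ y, cj g (SLNot.kRight ρ P y) = SLNot.kRight ρ P (cj b y) := by
    intro y
    show cj g (cj P (kronL ρ 1 y)) = cj P (kronL ρ 1 (cj b y))
    rw [hg, ← cj_mul_apply]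
    have h1 : P * kronU ρ a b * P⁻¹ * P = P * kronU ρ a b := by group
    rw [h1, cj_mul_apply]
    congr 1
    rw [cj_apply, kronU_inv, kronU_val, kronU_val, kronL_mul, kronL_mul, mul_one, gl_mul_inv]
    rfl
  have hcase : π 0 = 0 ∧ π 1 = 1 ∨ π 0 = 1 ∧ π 1 = 0 := by
    have hne : π 0 ≠ π 1 := fun h => absurd (π.injective h) (by decide)
    revert hne
    generalize π 0 = x
    generalize π 1 = y
    fin_cases x <;> fin_cases y <;> simp
  rcases hcase with ⟨h0, h1⟩ | ⟨h0, h1⟩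
  · refine ⟨1, ![a, u 0, u 1], Or.inl rfl, ?_⟩
    intro i x
    fin_cases i
    · exact hL x
    · show cj g (SLNot.kRight ρ P (fac ε Q 0 x)) = SLNot.kRight ρ P (fac ε Q 0 _)
      rw [hR, hπ 0 x, h0]; rfl
    · show cj g (SLNot.kRight ρ P (fac ε Q 1 x)) = SLNot.kRight ρ P (fac ε Q 1 _)
      rw [hR, hπ 1 x, h1]; rfl
  · refine ⟨Equiv.swap 1 2, ![a, u 0, u 1], Or.inr rfl, ?_⟩
    intro i x
    fin_cases i
    · exact hL x
    · show cj g (SLNot.kRight ρ P (fac ε Q 0 x)) = SLNot.kRight ρ P (fac ε Q 1 _)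
      rw [hR, hπ 0 x, h0]; rfl
    · show cj g (SLNot.kRight ρ P (fac ε Q 1 x)) = SLNot.kRight ρ P (fac ε Q 0 _)
      rw [hR, hπ 1 x, h1]; rfl

end gram

section quat
variable {F : Type*} [Field F]

/-- The first quaternion generator. -/
def qi (F : Type*) [Field F] : Matrix (Fin 2) (Fin 2) F := !![0, -1; 1, 0]
/-- The second quaternion generator. -/
def qj (F : Type*) [Field F] : Matrix (Fin 2) (Fin 2) F := !![1, 1; 1, -1]

lemma qi_sq : qi F * qi F = -1 := by
  ext i j; fin_cases i <;> fin_cases j <;> simp [qi, Matrix.mul_apply, Fin.sum_univ_two]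

lemma qj_sq (h3 : (3 : F) = 0) : qj F * qj F = -1 := by
  have h : (1 : F) + 1 = -1 := by linear_combination h3
  ext i j; fin_cases i <;> fin_cases j <;> simp [qj, Matrix.mul_apply, Fin.sum_univ_two, h]

lemma qji : qj F * qi F = -(qi F * qj F) := by
  ext i j; fin_cases i <;> fin_cases j <;> simp [qi, qj, Matrix.mul_apply, Fin.sum_univ_two]

lemma qij : qi F * qj F = !![-1, 1; 1, 1] := by
  ext i j; fin_cases i <;> fin_cases j <;> simp [qi, qj, Matrix.mul_apply, Fin.sum_univ_two]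

/-- The square roots of `-1` over the field with three elements. -/
theorem roots (F : Type*) [Field F] [Fintype F] (hF : Fintype.card F = 3) {X : Matrix (Fin 2) (Fin 2) F} (hX : X * X = -1) :
    ∃ z, X = q4 (qi F) (qj F) z ∨ X = -q4 (qi F) (qj F) z := by
  have h3 := three_eq_zero hF
  have h2 : (2 : F) ≠ 0 := two_ne_of_odd (by rw [hF]; decide)
  have hsq : ∀ x : F, x ≠ 0 → x * x = 1 := by
    intro x hx
    rcases (three_cases hF x).resolve_left hx with h | h <;> rw [h] <;> ring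
  have e00 := congrFun (congrFun hX 0) 0
  have e01 := congrFun (congrFun hX 0) 1
  have e10 := congrFun (congrFun hX 1) 0
  have e11 := congrFun (congrFun hX 1) 1
  simp only [Matrix.mul_apply, Fin.sum_univ_two, Matrix.neg_apply, Matrix.one_apply_eq, Matrix.one_apply_ne (show (0 : Fin 2) ≠ 1 by decide),
    Matrix.one_apply_ne (show (1 : Fin 2) ≠ 0 by decide), neg_zero] at e00 e01 e10 e11
  have htr : X 1 1 = -X 0 0 := by
    by_contra hne
    have hs : X 0 0 + X 1 1 ≠ 0 := fun h => hne (by linear_combination h)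
    have h01 : X 0 1 = 0 := by
      have : X 0 1 * (X 0 0 + X 1 1) = 0 := by linear_combination e01
      exact (mul_eq_zero.1 this).resolve_right hs
    rw [h01, zero_mul, add_zero] at e00
    by_cases h : X 0 0 = 0
    · rw [h, zero_mul] at e00
      exact neg_ne_zero.2 one_ne_zero e00.symm
    · rw [hsq _ h] at e00
      apply h2; linear_combination e00
  have hXe : X = !![X 0 0, X 0 1; X 1 0, -X 0 0] := by
    ext i j; fin_cases i <;> fin_cases j
    · rfl
    · rfl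
    · rfl
    · exact htr
  obtain ⟨a, ha⟩ : ∃ a, a = X 0 0 := ⟨_, rfl⟩
  obtain ⟨b, hb⟩ : ∃ b, b = X 0 1 := ⟨_, rfl⟩
  obtain ⟨c, hc⟩ : ∃ c, c = X 1 0 := ⟨_, rfl⟩
  rw [← ha, ← hb, ← hc] at hXe
  rw [← ha, ← hb, ← hc] at e00
  have hz : ∀ {Y : Matrix (Fin 2) (Fin 2) F}, X = Y → ∀ z, (Y = q4 (qi F) (qj F) z ∨ Y = -q4 (qi F) (qj F) z) → ∃ z, X = q4 (qi F) (qj F) z ∨ X = -q4 (qi F) (qj F) z :=
    fun h z hz => ⟨z, by rw [h]; exact hz⟩
  have r1 : q4 (qi F) (qj F) 1 = !![0, -1; 1, 0] := rfl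
  have r2 : q4 (qi F) (qj F) 2 = !![1, 1; 1, -1] := rfl
  have r3 : q4 (qi F) (qj F) 3 = !![-1, 1; 1, 1] := qij
  rw [hXe]
  have h11 : (1 : F) + 1 ≠ 0 := by rw [one_add_one_eq_two]; exact h2
  rcases three_cases hF a with ha | ha | ha <;> rcases three_cases hF b with hb | hb | hb <;> rcases three_cases hF c with hc | hc | hc <;>
    subst ha <;> subst hb <;> subst hc
  all_goals first
    | (exfalso; apply one_ne_zero (α := F); linear_combination e00; done)
    | (exfalso; apply one_ne_zero (α := F); linear_combination -e00; done)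
    | (exfalso; apply h2; linear_combination e00; done)
    | (exfalso; apply one_ne_zero (α := F); linear_combination e00 - h3; done)
    | (exfalso; apply one_ne_zero (α := F); linear_combination -e00 + h3; done)
    | (refine ⟨1, Or.inl ?_⟩; rw [r1]; ext i j; fin_cases i <;> fin_cases j <;> simp; done)
    | (refine ⟨1, Or.inr ?_⟩; rw [r1]; ext i j; fin_cases i <;> fin_cases j <;> simp; done)
    | (refine ⟨2, Or.inl ?_⟩; rw [r2]; done)
    | (refine ⟨2, Or.inr ?_⟩; rw [r2]; ext i j; fin_cases i <;> fin_cases j <;> simp; done)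
    | (refine ⟨3, Or.inl ?_⟩; rw [r3]; ext i j; fin_cases i <;> fin_cases j <;> simp; done)
    | (refine ⟨3, Or.inr ?_⟩; rw [r3]; ext i j; fin_cases i <;> fin_cases j <;> simp; done)

end quat

end Cfsg.Agent.Lib.AschE5
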