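import Cfsg.Agent.Lib.AschSp18
set_option autoImplicit false
set_option linter.style.haveILetI false
set_option linter.unusedVariables false
set_option linter.unusedSectionVars false

/-!
Maximal subgroups of `Sp_8(q)`: the tensor products `Sp_2 ⊗ O_4^+` lie in `Sp_2 wr S_3` and, for three elements, in the normaliser
of an extraspecial group.
-/

namespace Cfsg.Agent.Lib.AschE5

open Cfsg Cfsg.Geo Cfsg.Agent.Lib.AschMU Cfsg.Agent.Lib.AschCore Cfsg.Agent.Lib.AschField Cfsg.Agent.Lib.AschAlg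
  Cfsg.Agent.Lib.AschGroup Cfsg.Agent.Lib.AschGood Cfsg.Agent.Lib.AschAdj Cfsg.Agent.Lib.AschNonab Cfsg.Agent.Lib.AschTensor
  Cfsg.Agent.Lib.AschComp Cfsg.Agent.Lib.AschSp Cfsg.Agent.Lib.AschESys
open scoped Matrix MatrixGroups Kronecker

section setup
variable {F : Type*} [Field F] [Fintype F]

/-- The three commuting quaternion algebras. -/
theorem exists_tri (h2 : (2 : F) ≠ 0) {H : Subgroup (GL (Fin 4 ⊕ Fin 4) F)} (hI : H ≤ spGL 4 F)
    {ρ : (Fin 4 ⊕ Fin 4) ≃ Fin 2 × Fin 4} {P : GL (Fin 4 ⊕ Fin 4) F}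
    {f₁ : (Fin 2 → F) → (Fin 2 → F) → F} {f₂ : (Fin 4 → F) → (Fin 4 → F) → F} (hf₁ : IsSymplecticForm f₁) (hf₂ : IsSymmetricForm f₂)
    (hplus : IsPlusTypeOn (fun v : Fin 4 → F => f₂ v v) ⊤)
    (hst : IsTensorFormStructure id (sympForm 4 F) f₁ f₂ ρ P) (hle : H ≤ tensorProductSubgroup 2 4 ρ P) :
    ∃ (ε : Fin 4 ≃ Fin 2 × Fin 2) (Q : GL (Fin 4) F),
      (∀ i x, adj (RingEquiv.refl F) (Matrix.J (Fin 4) F) (tri ρ P ε Q i x) = tri ρ P ε Q i (adj (RingEquiv.refl F) (W2 F) x)) ∧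
      ∀ g ∈ H, ∃ (π : Equiv.Perm (Fin 3)) (u : Fin 3 → GL (Fin 2) F), (π = 1 ∨ π = Equiv.swap 1 2) ∧ ∀ i x, cj g (tri ρ P ε Q i x) =
        tri ρ P ε Q (π i) ((u i : Matrix (Fin 2) (Fin 2) F) * x * (((u i)⁻¹ : GL (Fin 2) F) : Matrix (Fin 2) (Fin 2) F)) := by
  obtain ⟨c₀, hc₀, hG⟩ := gram_of_structure hst
  obtain ⟨G₂, hG₂⟩ : ∃ G₂, G₂ = gramMatrix f₂ := ⟨_, rfl⟩
  have hu₂ : IsUnit G₂ := by rw [hG₂]; exact (AschForms.isSesq_of_bilinear hf₂.bilinear).isUnit_gram hf₂.nondegenerate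
  have hT₂ : G₂ᵀ = G₂ := by rw [hG₂]; ext i j; exact hf₂.symm _ _
  have hu₁ : IsUnit (gramMatrix f₁) := (AschForms.isSesq_of_bilinear hf₁.bilinear).isUnit_gram hf₁.nondegenerate
  obtain ⟨d, hd⟩ : ∃ d, d = gramMatrix f₁ 0 1 := ⟨_, rfl⟩
  have hg₁ : gramMatrix f₁ = d • W2 F := by
    ext i j
    fin_cases i <;> fin_cases j
    · show f₁ _ _ = d * 0
      rw [mul_zero]; exact hf₁.alternating _
    · show gramMatrix f₁ 0 1 = d * 1
      rw [mul_one, hd]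
    · show f₁ _ _ = d * (-1)
      rw [hf₁.skew, mul_neg, mul_one, hd]
      rfl
    · show f₁ _ _ = d * 0
      rw [mul_zero]; exact hf₁.alternating _
  have hd0 : d ≠ 0 := by
    rintro rfl
    rw [hg₁, zero_smul] at hu₁
    exact not_isUnit_zero hu₁
  rw [hg₁, smul_smul, ← hG₂] at hG
  have hcd : c₀ * d ≠ 0 := mul_ne_zero hc₀ hd0
  -- the hyperbolic basis
  obtain ⟨U, -, hUs, hUd⟩ := hplus
  have hU2 : Module.finrank F U = 2 := by
    rw [finrank_top, Module.finrank_fintype_fun_eq_card, Fintype.card_fin] at hUd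
    omega
  have hUs' : ∀ u ∈ U, bf (RingEquiv.refl F) G₂ u u = 0 := by
    intro u hu
    have h1 := hUs u hu
    simp only at h1
    rw [(AschForms.isSesq_of_bilinear hf₂.bilinear).eq_gram, ← hG₂] at h1
    exact h1
  have ε : Fin 4 ≃ Fin 2 × Fin 2 := Fintype.equivOfCardEq (by simp)
  obtain ⟨Q, hQ⟩ := exists_hyp h2 hT₂ hu₂ hU2 hUs' ε
  have hJ := rfJ (F := F) (m := 4)
  refine ⟨ε, Q, tri_adj ρ P ε Q hJ hcd hG hT₂ hu₂ hQ, ?_⟩
  intro g hg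
  have hcW : IsUnit ((c₀ * d) • W2 F) := by
    apply IsUnit.of_mul_eq_one (-((c₀ * d)⁻¹ • W2 F))
    rw [mul_neg, Matrix.smul_mul, Matrix.mul_smul, W2_sq, smul_smul, mul_inv_cancel₀ hcd, one_smul, neg_neg]
  obtain ⟨a, b, c, hgab, hc, -, hB⟩ := tensor_elt hJ (by norm_num) (by norm_num) hG hcW hu₂ (hle hg) (mem_sp.1 (hI hg))
  exact tri_act ρ P ε Q h2 hT₂ hu₂ hQ (inv_ne_zero hc) hB hgab

/-- **`Sp_2 ⊗ O_4^+` lies in a tensor wreath product.** -/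
theorem plus_wreath (h2 : (2 : F) ≠ 0) {H : Subgroup (GL (Fin 4 ⊕ Fin 4) F)} (hI : H ≤ spGL 4 F)
    {ρ : (Fin 4 ⊕ Fin 4) ≃ Fin 2 × Fin 4} {P : GL (Fin 4 ⊕ Fin 4) F}
    {f₁ : (Fin 2 → F) → (Fin 2 → F) → F} {f₂ : (Fin 4 → F) → (Fin 4 → F) → F} (hf₁ : IsSymplecticForm f₁) (hf₂ : IsSymmetricForm f₂)
    (hplus : IsPlusTypeOn (fun v : Fin 4 → F => f₂ v v) ⊤)
    (hst : IsTensorFormStructure id (sympForm 4 F) f₁ f₂ ρ P) (hle : H ≤ tensorProductSubgroup 2 4 ρ P) :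
    ∃ (e : (Fin 4 ⊕ Fin 4) ≃ (Fin 3 → Fin 2)) (P' : GL (Fin 4 ⊕ Fin 4) F) (f : (Fin 2 → F) → (Fin 2 → F) → F),
      IsSymplecticForm f ∧ IsTensorPowerFormStructure id (sympForm 4 F) f e P' ∧ H ≤ tensorWreathSubgroup 2 3 e P' := by
  obtain ⟨ε, Q, hadj, hact⟩ := exists_tri h2 hI hf₁ hf₂ hplus hst hle
  have σ : (Fin 4 ⊕ Fin 4) ≃ (Fin 3 → Fin 2) := Fintype.equivOfCardEq (by simp)
  haveI : Nonempty (Fin 4 ⊕ Fin 4) := ⟨Sum.inl 0⟩
  obtain ⟨B, c, hc, hB, hgr⟩ := tri_gram ρ P ε Q rfJ hadj σ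
  refine ⟨σ, B, bf (RingEquiv.refl F) (W2 F), symp_form W2_unit W2_tr (fun i => by fin_cases i <;> rfl), power_structure hc hgr, ?_⟩
  intro g hg
  obtain ⟨π, u, -, hπ⟩ := hact g hg
  exact mem_tensorWreath_of_perm (by norm_num) (tri_top ρ P ε Q) hB π u hπ

end setup

section three
variable {F : Type*} [Field F] [Fintype F]

omit [Fintype F] in
lemma q4_map {ι : Type} [Fintype ι] [DecidableEq ι] (φ : Matrix (Fin 2) (Fin 2) F →ₐ[F] Matrix ι ι F) (a b : Matrix (Fin 2) (Fin 2) F) (x : Fin 4) :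
    q4 (φ a) (φ b) x = φ (q4 a b x) := by
  fin_cases x
  · exact (map_one φ).symm
  · rfl
  · rfl
  · exact (map_mul φ a b).symm

/-- Isometries in the quaternion group. -/
lemma isoM_q (hF : Fintype.card F = 3) (x : Fin 4) : AschE4.IsoM (W2 F) (q4 (qi F) (qj F) x) := by
  have hRW : RF (RingEquiv.refl F) (-1) (W2 F) := ⟨fun a => rfl, W2_unit, by rw [map_rf, W2_tr, neg_smul, one_smul], Or.inr rfl⟩
  have h1 : AschE4.IsoM (W2 F) (qi F) := by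
    unfold AschE4.IsoM
    have : (qi F).trace = 0 := by rw [Matrix.trace_fin_two]; simp [qi]
    rw [adj_W2, this, zero_smul, zero_sub, neg_mul, qi_sq, neg_neg]
  have h2 : AschE4.IsoM (W2 F) (qj F) := by
    unfold AschE4.IsoM
    have : (qj F).trace = 0 := by rw [Matrix.trace_fin_two]; simp [qj]
    rw [adj_W2, this, zero_smul, zero_sub, neg_mul, qj_sq (three_eq_zero hF), neg_neg]
  exact h1.q4 hRW h2 x

/-- Conjugates in the quaternion group. -/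
lemma conj_q (hF : Fintype.card F = 3) (u : GL (Fin 2) F) (x : Fin 4) :
    ∃ y, (u : Matrix (Fin 2) (Fin 2) F) * q4 (qi F) (qj F) x * ((u⁻¹ : GL (Fin 2) F) : Matrix (Fin 2) (Fin 2) F) = q4 (qi F) (qj F) y ∨
      (u : Matrix (Fin 2) (Fin 2) F) * q4 (qi F) (qj F) x * ((u⁻¹ : GL (Fin 2) F) : Matrix (Fin 2) (Fin 2) F) = -q4 (qi F) (qj F) y := by
  have hi : cj u (qi F) * cj u (qi F) = -1 := by rw [← map_mul, qi_sq, map_neg, map_one]
  have hj : cj u (qj F) * cj u (qj F) = -1 := by rw [← map_mul, qj_sq (three_eq_zero hF), map_neg, map_one]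
  exact AschE4.q4_cj (F := F) qji (Or.inr qi_sq) (Or.inr (qj_sq (three_eq_zero hF))) (roots F hF hi) (roots F hF hj) x

/-- **`Sp_2(3) ⊗ O_4^+(3)` lies in the normaliser of an extraspecial group.** -/
theorem plus_three (hF : Fintype.card F = 3) {H : Subgroup (GL (Fin 4 ⊕ Fin 4) F)} (hI : H ≤ spGL 4 F)
    {ρ : (Fin 4 ⊕ Fin 4) ≃ Fin 2 × Fin 4} {P : GL (Fin 4 ⊕ Fin 4) F}
    {f₁ : (Fin 2 → F) → (Fin 2 → F) → F} {f₂ : (Fin 4 → F) → (Fin 4 → F) → F} (hf₁ : IsSymplecticForm f₁) (hf₂ : IsSymmetricForm f₂)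
    (hplus : IsPlusTypeOn (fun v : Fin 4 → F => f₂ v v) ⊤)
    (hst : IsTensorFormStructure id (sympForm 4 F) f₁ f₂ ρ P) (hle : H ≤ tensorProductSubgroup 2 4 ρ P) :
    ∃ R : Subgroup (GL (Fin 4 ⊕ Fin 4) F), IsSymplecticTypeGroup 2 R ∧ ActsAbsolutelyIrreducibly (matrixSet R) ∧ R ≤ spGL 4 F ∧
      Nat.card R = 128 ∧ Nat.card (Subgroup.center R) = 2 ∧ IsOfMinusType 3 R ∧ H ≤ subgroupNormalizer R := by
  classical
  have h2 : (2 : F) ≠ 0 := two_ne_of_odd (by rw [hF]; decide)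
  have h3 := three_eq_zero hF
  haveI : Nonempty (Fin 4 ⊕ Fin 4) := ⟨Sum.inl 0⟩
  obtain ⟨ε, Q, hadj, hact⟩ := exists_tri h2 hI hf₁ hf₂ hplus hst hle
  obtain ⟨φ, hφ⟩ : ∃ φ, φ = tri ρ P ε Q := ⟨_, rfl⟩
  have hcomm : ∀ i j, i ≠ j → ∀ x y, φ i x * φ j y = φ j y * φ i x := by rw [hφ]; exact tri_comm ρ P ε Q
  rw [← hφ] at hadj hact
  have rel1 : ∀ i, φ i (qj F) * φ i (qi F) = -(φ i (qi F) * φ i (qj F)) := fun i => by rw [← map_mul, qji, map_neg, map_mul]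
  have rel2 : ∀ i, φ i (qi F) * φ i (qi F) = -1 := fun i => by rw [← map_mul, qi_sq, map_neg, map_one]
  have rel3 : ∀ i, φ i (qj F) * φ i (qj F) = -1 := fun i => by rw [← map_mul, qj_sq h3, map_neg, map_one]
  have S2 := preSys_q4 (rel1 2) (Or.inr (rel2 2)) (Or.inr (rel3 2))
  have S1 := PreSys.prod h2 S2 (rel1 1) (rel2 1) (rel3 1) (fun x y => by rw [q4_map, q4_map, hcomm 1 2 (by decide)])
  have S0 := PreSys.prod h2 S1.pre (rel1 0) (rel2 0) (rel3 0) (fun x y => by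
    rw [q4_map, q4_map, q4_map, ← mul_assoc, hcomm 0 1 (by decide), mul_assoc, hcomm 0 2 (by decide), mul_assoc])
  have hn : (Fintype.card (Fin 4 ⊕ Fin 4) : F) ≠ 0 := by
    have : (Fintype.card (Fin 4 ⊕ Fin 4) : F) = -1 := by
      have h4 : Fintype.card (Fin 4 ⊕ Fin 4) = 8 := rfl
      rw [h4]; push_cast; linear_combination 3 * h3
    rw [this]; exact neg_ne_zero.2 one_ne_zero
  have hcard : Fintype.card (Fin 4 × (Fin 4 × Fin 4)) = Fintype.card (Fin 4 ⊕ Fin 4) ^ 2 := rfl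
  have habs := S0.absIrr h2 hn hcard
  have hJ := rfJ (F := F) (m := 4)
  have hiso : ∀ i x, AschE4.IsoM (Matrix.J (Fin 4) F) (q4 (φ i (qi F)) (φ i (qj F)) x) := by
    intro i x
    have h := isoM_q hF x
    unfold AschE4.IsoM at h ⊢
    rw [q4_map, hadj, ← map_mul, h, map_one]
  have hsp : S0.grp ≤ spGL 4 F := by
    rintro g ⟨z, hz⟩
    rw [mem_sp]
    apply AschE4.IsoM.isIso
    have h1 := (hiso 0 z.1).mul hJ ((hiso 1 z.2.1).mul hJ (hiso 2 z.2.2))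
    rcases hz with hz | hz
    · rw [hz]; exact h1
    · rw [hz]; exact h1.neg
  refine ⟨S0.grp, S0.symplecticType h2 (k := 3) rfl ⟨(1, (0, 0)), (0, (0, 0)), by decide, by decide⟩, habs, hsp, ?_, S0.card_center h2, ?_, ?_⟩
  · rw [S0.card_grp h2]; rfl
  · exact minus_type (by decide) (by rw [hF]; decide) hsp habs (fun x hx y hy => S0.comm_scalar hx hy) rfl
  · apply S0.le_normalizer
    rintro g hg ⟨x, y, z⟩
    obtain ⟨π, u, hπ1, hπ⟩ := hact g hg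
    obtain ⟨x', hx'⟩ := conj_q hF (u 0) x
    obtain ⟨y', hy'⟩ := conj_q hF (u 1) y
    obtain ⟨z', hz'⟩ := conj_q hF (u 2) z
    have e0 : cj g (q4 (φ 0 (qi F)) (φ 0 (qj F)) x) = φ (π 0) (q4 (qi F) (qj F) x') ∨ cj g (q4 (φ 0 (qi F)) (φ 0 (qj F)) x) = -φ (π 0) (q4 (qi F) (qj F) x') := by
      rw [q4_map, hπ]
      rcases hx' with h | h
      · left; rw [h]
      · right; rw [h, map_neg]
    have e1 : cj g (q4 (φ 1 (qi F)) (φ 1 (qj F)) y) = φ (π 1) (q4 (qi F) (qj F) y') ∨ cj g (q4 (φ 1 (qi F)) (φ 1 (qj F)) y) = -φ (π 1) (q4 (qi F) (qj F) y') := by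
      rw [q4_map, hπ]
      rcases hy' with h | h
      · left; rw [h]
      · right; rw [h, map_neg]
    have e2 : cj g (q4 (φ 2 (qi F)) (φ 2 (qj F)) z) = φ (π 2) (q4 (qi F) (qj F) z') ∨ cj g (q4 (φ 2 (qi F)) (φ 2 (qj F)) z) = -φ (π 2) (q4 (qi F) (qj F) z') := by
      rw [q4_map, hπ]
      rcases hz' with h | h
      · left; rw [h]
      · right; rw [h, map_neg]
    rcases hπ1 with rfl | rfl
    · refine ⟨(x', (y', z')), ?_⟩
      simp only [map_mul]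
      rw [q4_map (φ 0) (qi F) (qj F) x', q4_map (φ 1) (qi F) (qj F) y', q4_map (φ 2) (qi F) (qj F) z']
      rcases e0 with e0 | e0 <;> rcases e1 with e1 | e1 <;> rcases e2 with e2 | e2 <;> rw [e0, e1, e2] <;> simp
    · refine ⟨(x', (z', y')), ?_⟩
      simp only [map_mul]
      rw [q4_map (φ 0) (qi F) (qj F) x', q4_map (φ 1) (qi F) (qj F) z', q4_map (φ 2) (qi F) (qj F) y']
      have p0 : (Equiv.swap 1 2 : Equiv.Perm (Fin 3)) 0 = 0 := by decide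
      have p1 : (Equiv.swap 1 2 : Equiv.Perm (Fin 3)) 1 = 2 := by decide
      have p2 : (Equiv.swap 1 2 : Equiv.Perm (Fin 3)) 2 = 1 := by decide
      rw [p0] at e0; rw [p1] at e1; rw [p2] at e2
      have hc := hcomm 2 1 (by decide) (q4 (qi F) (qj F) y') (q4 (qi F) (qj F) z')
      rcases e0 with e0 | e0 <;> rcases e1 with e1 | e1 <;> rcases e2 with e2 | e2 <;> rw [e0, e1, e2] <;> simp [hc]

end three

end Cfsg.Agent.Lib.AschE5
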