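import Cfsg.Agent.Lib.AschSp1

/-!
Aschbacher's theorem for the symplectic groups: adjoint-closed fields.
-/

set_option autoImplicit false
set_option linter.style.haveILetI false
set_option linter.unusedVariables false
set_option linter.unusedSectionVars false

namespace Cfsg.Agent.Lib.AschSp

open Cfsg Cfsg.Geo Cfsg.Agent.Lib.AschMU Cfsg.Agent.Lib.AschCore Cfsg.Agent.Lib.AschField Cfsg.Agent.Lib.AschAlg
  Cfsg.Agent.Lib.AschGroup Cfsg.Agent.Lib.AschGood Cfsg.Agent.Lib.AschAdj
open scoped Matrix MatrixGroups Kronecker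

section field
variable {ι : Type} [Fintype ι] [DecidableEq ι] {F : Type*} [Field F]

/-- The dimension of a subspace invariant under a field of matrices is a multiple of the degree. -/
theorem dvd_finrank_of_field [Nonempty ι] {E : Subalgebra F (Matrix ι ι F)}
    (hcomm : ∀ x ∈ E, ∀ y ∈ E, x * y = y * x) (hinv : ∀ x ∈ E, x ≠ 0 → ∃ y ∈ E, x * y = 1)
    {W : Submodule F (ι → F)} (hW : ∀ k ∈ E, ∀ w ∈ W, k *ᵥ w ∈ W) : Module.finrank F E ∣ Module.finrank F W := by
  classical
  have hE : IsField E :=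
    { exists_pair_ne := ⟨0, 1, fun h => zero_ne_one (congrArg Subtype.val h)⟩
      mul_comm := fun a b => Subtype.ext (hcomm a a.2 b b.2)
      mul_inv_cancel := fun {a} ha => by
        obtain ⟨y, hy, hxy⟩ := hinv a a.2 (fun h => ha (Subtype.ext h))
        exact ⟨⟨y, hy⟩, Subtype.ext hxy⟩ }
  let _ : Field E := hE.toField
  let φ : E →ₐ[F] Module.End F W := AlgHom.ofLinearMap
    { toFun := fun k => (Matrix.toLin' (k : Matrix ι ι F)).restrict (fun w hw => by
        rw [Matrix.toLin'_apply]; exact hW k k.2 w hw)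
      map_add' := fun k l => by
        ext w
        simp [Matrix.add_mulVec]
      map_smul' := fun c k => by
        ext w
        simp [Matrix.smul_mulVec] }
    (by
      ext w
      simp)
    (by
      intro k l
      ext w
      simp [Matrix.mulVec_mulVec])
  exact dvd_abstract F E W φ

/-- The degree of a smaller field of matrices divides the degree. -/
theorem dvd_of_le [Nonempty ι] {E K : Subalgebra F (Matrix ι ι F)} (hle : E ≤ K)
    (hcomm : ∀ x ∈ E, ∀ y ∈ E, x * y = y * x) (hinv : ∀ x ∈ E, x ≠ 0 → ∃ y ∈ E, x * y = 1) :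
    Module.finrank F E ∣ Module.finrank F K := by
  classical
  have hE : IsField E :=
    { exists_pair_ne := ⟨0, 1, fun h => zero_ne_one (congrArg Subtype.val h)⟩
      mul_comm := fun a b => Subtype.ext (hcomm a a.2 b b.2)
      mul_inv_cancel := fun {a} ha => by
        obtain ⟨y, hy, hxy⟩ := hinv a a.2 (fun h => ha (Subtype.ext h))
        exact ⟨⟨y, hy⟩, Subtype.ext hxy⟩ }
  let _ : Field E := hE.toField
  let φ : E →ₐ[F] Module.End F K := (Algebra.lmul F K).comp (Subalgebra.inclusion hle)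
  exact dvd_abstract F E K φ

/-- A subalgebra of a field of prime degree is trivial. -/
theorem eq_bot_or_eq [Finite F] [Nonempty ι] {r : ℕ} (hr : r.Prime) {E K : Subalgebra F (Matrix ι ι F)} (hK : IsFieldSubalgebra r K)
    (hle : E ≤ K) : E = ⊥ ∨ E = K := by
  classical
  have hfinM : Finite (Matrix ι ι F) := inferInstanceAs (Finite (ι → ι → F))
  have hcomm : ∀ x ∈ E, ∀ y ∈ E, x * y = y * x := fun x hx y hy => hK.comm x (hle hx) y (hle hy)
  have hinv : ∀ x ∈ E, x ≠ 0 → ∃ y ∈ E, x * y = 1 := by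
    intro x hx hx0
    obtain ⟨y, hy, hxy⟩ := hK.inv x (hle hx) hx0
    obtain ⟨n, hn, hid⟩ := exists_pow_idem x
    have hxn : x ^ n = 1 := by
      have h1 : x ^ n * y ^ n = 1 := by
        have : Commute x y := hK.comm x (hle hx) y hy
        rw [← this.mul_pow, hxy, one_pow]
      calc x ^ n = x ^ n * (x ^ n * y ^ n) := by rw [h1, mul_one]
        _ = (x ^ n * x ^ n) * y ^ n := by rw [mul_assoc]
        _ = 1 := by rw [hid, h1]
    refine ⟨x ^ (n - 1), E.pow_mem hx _, ?_⟩
    rw [← pow_succ', Nat.sub_add_cancel hn, hxn]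
  have h := dvd_of_le hle hcomm hinv
  rw [hK.finrank_eq, Nat.dvd_prime hr] at h
  rcases h with h | h
  · left; exact Subalgebra.eq_bot_of_finrank_one h
  · right
    have h1 : Subalgebra.toSubmodule E = Subalgebra.toSubmodule K := by
      apply Submodule.eq_of_le_of_finrank_eq (Subalgebra.toSubmodule.monotone hle)
      show Module.finrank F E = Module.finrank F K
      rw [h, hK.finrank_eq]
    exact Subalgebra.toSubmodule_injective h1

/-- The algebra spanned by `1` and a quadratic element. -/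
def quadAlg (x : Matrix ι ι F) (t n : F) (h : x * x = t • x + n • 1) : Subalgebra F (Matrix ι ι F) where
  carrier := {y | ∃ a b : F, y = a • 1 + b • x}
  mul_mem' := by
    rintro _ _ ⟨a, b, rfl⟩ ⟨c, d, rfl⟩
    refine ⟨a * c + b * d * n, a * d + b * c + b * d * t, ?_⟩
    simp only [add_mul, mul_add, Matrix.smul_mul, Matrix.mul_smul, one_mul, mul_one, h, smul_add, smul_smul, add_smul]
    have e1 : d * (b * t) = b * d * t := by ring
    have e2 : d * (b * n) = b * d * n := by ring
    have e3 : c * a = a * c := by ring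
    have e4 : c * b = b * c := by ring
    have e5 : d * a = a * d := by ring
    rw [e1, e2, e3, e4, e5]
    abel
  one_mem' := ⟨1, 0, by simp⟩
  add_mem' := by
    rintro _ _ ⟨a, b, rfl⟩ ⟨c, d, rfl⟩
    exact ⟨a + c, b + d, by rw [add_smul, add_smul]; abel⟩
  zero_mem' := ⟨0, 0, by simp⟩
  algebraMap_mem' := fun c => ⟨c, 0, by rw [zero_smul, add_zero, Algebra.algebraMap_eq_smul_one]⟩

lemma mem_quadAlg {x : Matrix ι ι F} {t n : F} {h : x * x = t • x + n • 1} {y : Matrix ι ι F} :
    y ∈ quadAlg x t n h ↔ ∃ a b : F, y = a • 1 + b • x := Iff.rfl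

lemma quadAlg_comm {x : Matrix ι ι F} {t n : F} {h : x * x = t • x + n • 1} :
    ∀ y ∈ quadAlg x t n h, ∀ z ∈ quadAlg x t n h, y * z = z * y := by
  rintro _ ⟨a, b, rfl⟩ _ ⟨c, d, rfl⟩
  simp only [add_mul, mul_add, Matrix.smul_mul, Matrix.mul_smul, one_mul, mul_one, smul_smul]
  have e1 : d * b = b * d := by ring
  have e3 : c * a = a * c := by ring
  have e4 : c * b = b * c := by ring
  have e5 : d * a = a * d := by ring
  rw [e1, e3, e4, e5]
  abel

lemma self_mem_quadAlg {x : Matrix ι ι F} {t n : F} {h : x * x = t • x + n • 1} : x ∈ quadAlg x t n h := ⟨0, 1, by simp⟩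

lemma finrank_quadAlg_le {x : Matrix ι ι F} {t n : F} {h : x * x = t • x + n • 1} : Module.finrank F (quadAlg x t n h) ≤ 2 := by
  classical
  have h1 : Subalgebra.toSubmodule (quadAlg x t n h) ≤ Submodule.span F ((({1, x} : Finset (Matrix ι ι F))) : Set (Matrix ι ι F)) := by
    rintro y ⟨a, b, rfl⟩
    refine Submodule.add_mem _ (Submodule.smul_mem _ _ (Submodule.subset_span ?_)) (Submodule.smul_mem _ _ (Submodule.subset_span ?_))
    · simp
    · simp
  calc Module.finrank F (quadAlg x t n h) ≤ Module.finrank F (Submodule.span F ((({1, x} : Finset (Matrix ι ι F))) : Set (Matrix ι ι F))) :=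
        Submodule.finrank_mono h1
    _ ≤ (({1, x} : Finset (Matrix ι ι F))).card := finrank_span_finset_le_card _
    _ ≤ 2 := Finset.card_le_two

end field

section sp
variable {F : Type*} [Field F] [Fintype F] {m : ℕ}

local notation "adJ" => adj (RingEquiv.refl F) (Matrix.J (Fin m) F)

/-- Self-adjoint fields: the form vanishes on `(k v, v)`. -/
lemma sa_zero {r : ℕ} {K : Subalgebra F (Matrix (Fin m ⊕ Fin m) (Fin m ⊕ Fin m) F)} (hm : 1 ≤ m) (hK : IsFieldSubalgebra r K)
    (hsa : ∀ k ∈ K, adJ k = k) : ∀ k ∈ K, ∀ v, sympForm m F (k *ᵥ v) v = 0 := by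
  classical
  haveI : Nonempty (Fin m ⊕ Fin m) := ⟨Sum.inl ⟨0, by omega⟩⟩
  have hfinM : Finite (Matrix (Fin m ⊕ Fin m) (Fin m ⊕ Fin m) F) := inferInstanceAs (Finite (Fin m ⊕ Fin m → Fin m ⊕ Fin m → F))
  intro k hk v
  by_cases h2 : (2 : F) = 0
  · -- k is a square
    have hinj : Function.Injective (fun x : K => x * x) := by
      intro x y hxy
      have h1 : (x : Matrix (Fin m ⊕ Fin m) (Fin m ⊕ Fin m) F) * x = y * y := congrArg Subtype.val hxy
      have hc := hK.comm x x.2 y y.2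
      by_contra hne
      obtain ⟨z, hz, hzz⟩ := hK.inv (x - y) (K.sub_mem x.2 y.2) (fun h => hne (Subtype.ext (sub_eq_zero.1 h)))
      have h3 : ((x : Matrix (Fin m ⊕ Fin m) (Fin m ⊕ Fin m) F) - y) * (x - y) = 0 := by
        have h4 : (2 : F) • (x * y : Matrix (Fin m ⊕ Fin m) (Fin m ⊕ Fin m) F) = 0 := by rw [h2, zero_smul]
        rw [two_smul] at h4
        calc ((x : Matrix (Fin m ⊕ Fin m) (Fin m ⊕ Fin m) F) - y) * (x - y) = (x * x - y * y) + (2 : F) • (y * y : Matrix (Fin m ⊕ Fin m) (Fin m ⊕ Fin m) F) - (x * y + x * y) := by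
              rw [sub_mul, mul_sub, mul_sub, ← hc, two_smul]; abel
          _ = 0 := by rw [h1, sub_self, h2, zero_smul, h4]; simp
      have h5 : (x : Matrix (Fin m ⊕ Fin m) (Fin m ⊕ Fin m) F) - y = 0 := by
        calc (x : Matrix (Fin m ⊕ Fin m) (Fin m ⊕ Fin m) F) - y = (x - y) * ((x - y) * z) := by rw [hzz, mul_one]
          _ = 0 := by rw [← mul_assoc, h3, zero_mul]
      exact hne (Subtype.ext (sub_eq_zero.1 h5))
    haveI : Finite K := Finite.of_injective (fun a : K => (a : Matrix (Fin m ⊕ Fin m) (Fin m ⊕ Fin m) F)) Subtype.coe_injective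
    obtain ⟨⟨l, hl⟩, hll⟩ := Finite.injective_iff_surjective.1 hinj ⟨k, hk⟩
    have h6 : l * l = k := congrArg Subtype.val hll
    rw [← h6, ← Matrix.mulVec_mulVec, sp_adj, hsa l hl]
    exact sp_self _
  · have h1 : sympForm m F (k *ᵥ v) v = - sympForm m F (k *ᵥ v) v := by
      conv_lhs => rw [sp_adj, hsa k hk, sp_swap]
    have h3 : (2 : F) * sympForm m F (k *ᵥ v) v = 0 := by linear_combination h1
    exact (mul_eq_zero.1 h3).resolve_left h2

/-- The degree of a self-adjoint field divides `m`. -/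
lemma sa_dvd {r : ℕ} {K : Subalgebra F (Matrix (Fin m ⊕ Fin m) (Fin m ⊕ Fin m) F)} (hm : 1 ≤ m) (hK : IsFieldSubalgebra r K)
    (hsa : IsSelfAdjointFor (sympForm m F) K) (hz : ∀ k ∈ K, ∀ v, sympForm m F (k *ᵥ v) v = 0) : r ∣ m := by
  classical
  haveI : Nonempty (Fin m ⊕ Fin m) := ⟨Sum.inl ⟨0, by omega⟩⟩
  let S : Set (Submodule F (Fin m ⊕ Fin m → F)) :=
    {W | (∀ k ∈ K, ∀ w ∈ W, k *ᵥ w ∈ W) ∧ ∀ u ∈ W, ∀ v ∈ W, sympForm m F u v = 0}
  have hS : S.Nonempty := ⟨⊥, fun k _ w hw => by rw [(Submodule.mem_bot F).1 hw, Matrix.mulVec_zero]; exact Submodule.zero_mem _,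
    fun u hu v _ => by rw [(Submodule.mem_bot F).1 hu]; exact bf_zero_left (σ := RingEquiv.refl F) (G := Matrix.J (Fin m) F) v⟩
  obtain ⟨W, hW⟩ := (Set.toFinite S).exists_maximal hS
  obtain ⟨hWK, hWs⟩ := hW.prop
  have hperp : ∀ v, (∀ w ∈ W, sympForm m F w v = 0) → v ∈ W := by
    intro v hv
    -- K v
    let Kv : Submodule F (Fin m ⊕ Fin m → F) :=
      (Subalgebra.toSubmodule K).map ((Matrix.mulVecBilin F F).flip v)
    have hmem : ∀ u, u ∈ Kv ↔ ∃ k ∈ K, k *ᵥ v = u := by
      intro u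
      simp only [Kv, Submodule.mem_map, Subalgebra.mem_toSubmodule]
      rfl
    have h1 : W ⊔ Kv ∈ S := by
      constructor
      · intro k hk w hw
        obtain ⟨a, ha, b, hb, rfl⟩ := Submodule.mem_sup.1 hw
        obtain ⟨l, hl, rfl⟩ := (hmem b).1 hb
        rw [Matrix.mulVec_add, Matrix.mulVec_mulVec]
        exact Submodule.add_mem_sup (hWK k hk a ha) ((hmem _).2 ⟨k * l, K.mul_mem hk hl, rfl⟩)
      · intro x hx y hy
        obtain ⟨a, ha, b, hb, rfl⟩ := Submodule.mem_sup.1 hx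
        obtain ⟨c, hc, d, hd, rfl⟩ := Submodule.mem_sup.1 hy
        obtain ⟨k, hk, rfl⟩ := (hmem b).1 hb
        obtain ⟨l, hl, rfl⟩ := (hmem d).1 hd
        have e1 : sympForm m F a (l *ᵥ v) = 0 := by rw [← hsa l hl]; exact hv _ (hWK l hl a ha)
        have e2 : sympForm m F (k *ᵥ v) c = 0 := by
          rw [sp_swap, ← hsa k hk, hv _ (hWK k hk c hc), neg_zero]
        have e3 : sympForm m F (k *ᵥ v) (l *ᵥ v) = 0 := by
          rw [← hsa l hl, Matrix.mulVec_mulVec]; exact hz _ (K.mul_mem hl hk) v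
        rw [SympAux.sympForm_add_left, SympAux.sympForm_add_right, SympAux.sympForm_add_right, hWs a ha c hc, e1, e2, e3]
        ring
    have h2 : W ⊔ Kv ≤ W := hW.le_of_ge h1 le_sup_left
    exact h2 (Submodule.mem_sup_right ((hmem v).2 ⟨1, K.one_mem, Matrix.one_mulVec v⟩))
  have horth : (SympAux.bform m F).orthogonal W = W := by
    ext v
    rw [LinearMap.BilinForm.mem_orthogonal_iff]
    constructor
    · intro h; exact hperp v fun w hw => h w hw
    · intro hv w hw; exact hWs w hw v hv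
  have hfr := LinearMap.BilinForm.finrank_orthogonal (B := SympAux.bform m F) SympAux.bform_nondegenerate W
  rw [horth, Module.finrank_fintype_fun_eq_card, Fintype.card_sum, Fintype.card_fin] at hfr
  have hle := Submodule.finrank_le W
  rw [Module.finrank_fintype_fun_eq_card, Fintype.card_sum, Fintype.card_fin] at hle
  have hdim : Module.finrank F W = m := by omega
  rw [← hdim, ← hK.finrank_eq]
  exact dvd_finrank_of_field hK.comm hK.inv hWK

/-- Adjoint closed fields. -/
theorem spcase_field {H : Subgroup (GL (Fin m ⊕ Fin m) F)} (hm : 1 ≤ m) (hI : H ≤ spGL m F) {r : ℕ}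
    {K : Subalgebra F (Matrix (Fin m ⊕ Fin m) (Fin m ⊕ Fin m) F)} (hr : r.Prime) (hK : IsFieldSubalgebra r K)
    (hle : H ≤ subalgebraNormalizer K) (hA : AdjClosed (RingEquiv.refl F) (Matrix.J (Fin m) F) K) : SpCase m H := by
  classical
  haveI : Nonempty (Fin m ⊕ Fin m) := ⟨Sum.inl ⟨0, by omega⟩⟩
  by_cases hsa : ∀ k ∈ K, adJ k = k
  · have hsa' : IsSelfAdjointFor (sympForm m F) K := fun k hk u v => by rw [sp_adj, hsa k hk]
    have hz := sa_zero hm hK hsa
    exact SpCase.c3a r K hr (sa_dvd hm hK hsa' hz) hK hsa' hz hle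
  push Not at hsa
  obtain ⟨x, hx, hxa⟩ := hsa
  -- self-adjoint elements are scalars
  let K₀ : Subalgebra F (Matrix (Fin m ⊕ Fin m) (Fin m ⊕ Fin m) F) :=
    { carrier := {k | k ∈ K ∧ adJ k = k}
      mul_mem' := by
        rintro a b ⟨ha, ha'⟩ ⟨hb, hb'⟩
        exact ⟨K.mul_mem ha hb, by rw [adj_mul rfJ, ha', hb', hK.comm b hb a ha]⟩
      one_mem' := ⟨K.one_mem, adj_one rfJ⟩
      add_mem' := by
        rintro a b ⟨ha, ha'⟩ ⟨hb, hb'⟩
        exact ⟨K.add_mem ha hb, by rw [adj_add, ha', hb']⟩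
      zero_mem' := ⟨K.zero_mem, adj_zero⟩
      algebraMap_mem' := fun c => ⟨K.algebraMap_mem c, by
        rw [Algebra.algebraMap_eq_smul_one, adj_smul, adj_one rfJ]; rfl⟩ }
  have hK₀ : ∀ k, k ∈ K₀ ↔ k ∈ K ∧ adJ k = k := fun k => Iff.rfl
  have hbot : K₀ = ⊥ := by
    rcases eq_bot_or_eq hr hK (fun k hk => hk.1 : K₀ ≤ K) with h | h
    · exact h
    · exfalso
      have : x ∈ K₀ := by rw [h]; exact hx
      exact hxa this.2
  have hscal : ∀ k ∈ K, adJ k = k → ∃ c : F, k = c • 1 := by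
    intro k hk hk'
    have : k ∈ K₀ := ⟨hk, hk'⟩
    rw [hbot] at this
    exact scalar_of_mem_bot this
  have hadx := hA x hx
  obtain ⟨t, ht⟩ := hscal (x + adJ x) (K.add_mem hx hadx) (by rw [adj_add, adj_adj rfJ, add_comm])
  obtain ⟨n, hn⟩ := hscal (x * adJ x) (K.mul_mem hx hadx) (by rw [adj_mul rfJ, adj_adj rfJ])
  have hadj : adJ x = t • 1 - x := by rw [← ht]; abel
  have hxx : x * x = t • x + (-n) • 1 := by
    rw [hadj, mul_sub, Matrix.mul_smul, mul_one] at hn
    rw [neg_smul, ← hn]; abel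
  have hxns : ∀ c : F, x ≠ c • 1 := by
    intro c hc
    apply hxa
    rw [hc, adj_smul, adj_one rfJ]; rfl
  have hr2 : r = 2 := by
    have h1 : quadAlg x t (-n) hxx ≤ K := by
      rintro _ ⟨a, b, rfl⟩
      exact K.add_mem (K.smul_mem K.one_mem _) (K.smul_mem hx _)
    rcases eq_bot_or_eq hr hK h1 with h | h
    · exfalso
      have h3 : x ∈ quadAlg x t (-n) hxx := self_mem_quadAlg
      rw [h] at h3
      obtain ⟨c, hc⟩ := scalar_of_mem_bot h3
      exact hxns c hc
    · have h3 : Module.finrank F (quadAlg x t (-n) hxx) ≤ 2 := finrank_quadAlg_le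
      rw [h, hK.finrank_eq] at h3
      exact le_antisymm h3 hr.two_le
  subst hr2
  by_cases h2 : (2 : F) = 0
  · -- even characteristic
    have ht0 : t ≠ 0 := by
      rintro rfl
      apply hxa
      rw [hadj, zero_smul, zero_sub, neg_mat_of_two h2]
    set k := t⁻¹ • x with hk
    have hkK : k ∈ K := K.smul_mem hx _
    have hk1 : k + adJ k = 1 := by
      rw [hk, adj_smul]
      show t⁻¹ • x + t⁻¹ • adJ x = 1
      rw [← smul_add, ht, smul_smul, inv_mul_cancel₀ ht0, one_smul]
    have hkn : k * adJ k = (t⁻¹ * t⁻¹ * n) • 1 := by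
      rw [hk, adj_smul]
      show (t⁻¹ • x) * (t⁻¹ • adJ x) = _
      rw [Matrix.smul_mul, Matrix.mul_smul, hn, smul_smul, smul_smul, mul_assoc]
    refine spcase_qx h2 hI hk1 ?_
    intro g hg v
    have hgi := mem_sp.1 (hI hg)
    set y := cj g k with hy
    have hyK : y ∈ K := cj_mem_of_le hle hg hkK
    have hy1 : y + adJ y = 1 := by rw [hy, adj_cj rfJ hgi, ← map_add, hk1, map_one]
    have hyn : y * adJ y = (t⁻¹ * t⁻¹ * n) • 1 := by
      rw [hy, adj_cj rfJ hgi, ← map_mul, hkn, map_smul, map_one]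
    have hadk : adJ k = 1 - k := by rw [← hk1]; abel
    have hady : adJ y = 1 - y := by rw [← hy1]; abel
    obtain ⟨c, hc⟩ := hscal (y - k) (K.sub_mem hyK hkK) (by
      rw [show y - k = y + (-1 : F) • k by rw [neg_smul, one_smul, sub_eq_add_neg], adj_add, adj_smul, hadk, hady]
      show (1 - y) + (-1 : F) • (1 - k) = _
      rw [neg_smul, one_smul, neg_smul, one_smul]
      calc 1 - y + -(1 - k) = -(y - k) := by abel
        _ = y - k := neg_mat_of_two h2 _
        _ = _ := by abel)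
    have hyk : y = k + c • 1 := by rw [← hc]; abel
    have hcc : c * (c + 1) = 0 := by
      have e1 : y * adJ y = k * adJ k + (c * (1 - c) + c * 0) • 1 := by
        rw [hady, hadk, hyk]
        simp only [mul_sub, add_mul, sub_mul, mul_add, Matrix.smul_mul, Matrix.mul_smul, one_mul, mul_one, sub_smul, smul_smul, mul_zero, add_zero]
        have e2 : (2 : F) • (c • k) = 0 := by rw [h2, zero_smul]
        rw [two_smul] at e2
        have e3 : c • k = - (c • k) := eq_neg_of_add_eq_zero_left e2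
        calc k + c • (1 : Matrix (Fin m ⊕ Fin m) (Fin m ⊕ Fin m) F) - (k * k + c • k + (c • k + (c * c) • 1)) =
            k - k * k + (c • 1 - (c * c) • 1) - (c • k + c • k) := by abel
          _ = _ := by rw [e2, sub_zero]
      rw [hyn, hkn] at e1
      have e2 : (c * (1 - c) + c * 0) • (1 : Matrix (Fin m ⊕ Fin m) (Fin m ⊕ Fin m) F) = 0 := by
        exact left_eq_add.1 e1
      have e3 := congrFun (congrFun e2 (Classical.arbitrary _)) (Classical.arbitrary _)
      simp only [Matrix.smul_apply, Matrix.one_apply_eq, smul_eq_mul, mul_one, Matrix.zero_apply] at e3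
      linear_combination e3 + c * c * h2
    rcases mul_eq_zero.1 hcc with h0 | h0
    · rw [hyk, h0, zero_smul, add_zero]
    · have hc1 : c = 1 := by linear_combination h0 - h2
      have : y = adJ k := by
        rw [hadk, hyk, hc1, one_smul, add_comm, sub_eq_add_neg, neg_mat_of_two h2]
      rw [this, qx_adj h2]
  · refine SpCase.c3b K (odd_of_two_ne h2) hK (fun k hk => ⟨adJ k, hA k hk, fun u v => sp_adj k u v⟩) ?_ hle
    intro hself
    apply hxa
    have h1 : ∀ u v, sympForm m F u ((adJ x - x) *ᵥ v) = 0 := by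
      intro u v
      rw [Matrix.sub_mulVec, sub_eq_add_neg, SympAux.sympForm_add_right, ← sp_adj, hself x hx]
      have : sympForm m F u (-(x *ᵥ v)) = - sympForm m F u (x *ᵥ v) := by
        rw [← neg_one_smul F (x *ᵥ v), SympAux.sympForm_smul_right]; ring
      rw [this, add_neg_cancel]
    rw [← sub_eq_zero]
    apply mulVec_eq_zero_of_rng_bot
    intro v
    by_contra hne
    obtain ⟨⟨u, hu⟩, -⟩ := sp_nondeg _ hne
    exact hu (h1 u v)

/-- Adjoint closed commutative algebras. -/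
theorem spcase_comm {H : Subgroup (GL (Fin m ⊕ Fin m) F)} (hm : 1 ≤ m) (hI : H ≤ spGL m F) (hirr : ActsIrreducibly (matrixSet H))
    {E : Subalgebra F (Matrix (Fin m ⊕ Fin m) (Fin m ⊕ Fin m) F)} (hE : H ≤ subalgebraNormalizer E)
    (hEa : AdjClosed (RingEquiv.refl F) (Matrix.J (Fin m) F) E) (hcomm : ∀ x ∈ E, ∀ y ∈ E, x * y = y * x) (hne : E ≠ ⊥) : SpCase m H := by
  haveI : Nonempty (Fin m ⊕ Fin m) := ⟨Sum.inl ⟨0, by omega⟩⟩
  have hI' : ∀ g ∈ H, IsIso (RingEquiv.refl F) (Matrix.J (Fin m) F) g := fun g hg => mem_sp.1 (hI hg)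
  rcases comm_cases hirr hE hcomm with h4 | h4
  · obtain ⟨t, e, ht, he, hprim, hall, hp⟩ := h4
    obtain ⟨t', e', hf⟩ := exists_FIdem rfJ hI' hirr hEa hcomm ht he hprim hall hp
    exact spcase_idem hI hirr hf
  · obtain ⟨r, K, hr, hrn, -, hK, hK'⟩ := exists_prime_subfield' hcomm h4 hne
    exact spcase_field hm hI hr hK (le_normalizer_of_pow hE hK') (hEa.of_pow rfJ hK')

end sp

end Cfsg.Agent.Lib.AschSp
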