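import Cfsg.Agent.Lib.AschSp2

/-!
Aschbacher's theorem for the symplectic groups: subfields and tensor products.
-/

set_option autoImplicit false
set_option linter.style.haveILetI false
set_option linter.unusedVariables false
set_option linter.unusedSectionVars false

namespace Cfsg.Agent.Lib.AschSp

open Cfsg Cfsg.Geo Cfsg.Agent.Lib.AschMU Cfsg.Agent.Lib.AschCore Cfsg.Agent.Lib.AschField Cfsg.Agent.Lib.AschAlg
  Cfsg.Agent.Lib.AschGroup Cfsg.Agent.Lib.AschGood Cfsg.Agent.Lib.AschAdj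
open scoped Matrix MatrixGroups Kronecker

section rational
variable {ι : Type} [Fintype ι] [DecidableEq ι] {F : Type*} [Field F]

/-- A subfield of a finite field is the fixed field of an automorphism. -/
lemma exists_frob [Finite F] (F₁ : Subfield F) : ∃ ρ : F ≃+* F, ∀ x, x ∈ F₁ ↔ ρ x = x := by
  classical
  haveI := Fintype.ofFinite F
  haveI := Fintype.ofFinite F₁
  obtain ⟨p, hchar⟩ := CharP.exists F
  haveI hpf : Fact p.Prime := ⟨(CharP.char_is_prime_or_zero F p).resolve_right (CharP.char_ne_zero_of_finite F p)⟩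
  haveI : CharP F₁ p := by
    refine ⟨fun x => ?_⟩
    rw [← CharP.cast_eq_zero_iff F p x]
    constructor
    · intro hx; have := congrArg (fun z : F₁ => (z : F)) hx; simpa using this
    · intro hx; apply Subtype.ext; simpa using hx
  obtain ⟨a, -, ha⟩ := FiniteField.card F₁ p
  rw [← Nat.card_eq_fintype_card] at ha
  let φ : F →+* F := iterateFrobenius F p a
  have hφ : ∀ x, φ x = x ^ Nat.card F₁ := fun x => by rw [ha]; exact iterateFrobenius_def p a x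
  refine ⟨RingEquiv.ofBijective φ ⟨φ.injective, Finite.injective_iff_surjective.1 φ.injective⟩, fun x => ?_⟩
  rw [mem_subfield_iff, ← hφ]; rfl

/-- The Gram matrix of an invariant form of an absolutely irreducible group over a subfield is rational up to a scalar. -/
theorem rational_gram [Finite F] [Nonempty ι] {ε : F} {G : Matrix ι ι F} (h : RF (RingEquiv.refl F) ε G) {L : Subgroup (GL ι F)}
    (hL : ActsAbsolutelyIrreducibly (matrixSet L)) (hLI : ∀ g ∈ L, IsIso (RingEquiv.refl F) G g) {F₁ : Subfield F} {B : GL ι F}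
    (hB : ∀ s ∈ matrixSet L, ∀ i j, ((B : Matrix ι ι F) * s * ((B⁻¹ : GL ι F) : Matrix ι ι F)) i j ∈ F₁) :
    ∃ ζ : F, ζ ≠ 0 ∧ ∀ i j, ζ * gr (RingEquiv.refl F) G B⁻¹ i j ∈ F₁ := by
  classical
  set P : GL ι F := B⁻¹ with hP
  have hPi : ((P⁻¹ : GL ι F) : Matrix ι ι F) = (B : Matrix ι ι F) := by rw [hP, inv_inv]
  set Γ := gr (RingEquiv.refl F) G P with hΓ
  have hΓF := h.gr P
  rw [← hΓ] at hΓF
  obtain ⟨ρ, hρ⟩ := exists_frob F₁
  have hinvΓ : ∀ s ∈ L, (((P⁻¹ : GL ι F) : Matrix ι ι F) * (s : Matrix ι ι F) * (P : Matrix ι ι F))ᵀ * Γ *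
      (((P⁻¹ : GL ι F) : Matrix ι ι F) * (s : Matrix ι ι F) * (P : Matrix ι ι F)) = Γ := fun s hs => gr_invariant h (hLI s hs) P
  have hsF : ∀ s ∈ L, ∀ i j, (((P⁻¹ : GL ι F) : Matrix ι ι F) * (s : Matrix ι ι F) * (P : Matrix ι ι F)) i j ∈ F₁ := by
    intro s hs i j
    rw [hPi]; exact hB _ ⟨s, hs, rfl⟩ i j
  have htr : ∀ X : Matrix ι ι F, (∀ s ∈ L, (((P⁻¹ : GL ι F) : Matrix ι ι F) * (s : Matrix ι ι F) * (P : Matrix ι ι F))ᵀ * X *
      (((P⁻¹ : GL ι F) : Matrix ι ι F) * (s : Matrix ι ι F) * (P : Matrix ι ι F)) = X) → ∃ c : F, X = c • Γ := by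
    intro X hX
    set Y : Matrix ι ι F := (((P⁻¹ : GL ι F) : Matrix ι ι F))ᵀ * X * ((P⁻¹ : GL ι F) : Matrix ι ι F) with hY
    have hPT : ∀ Z : Matrix ι ι F, (((P⁻¹ : GL ι F) : Matrix ι ι F))ᵀ * ((P : Matrix ι ι F)ᵀ * Z) = Z := by
      intro Z
      rw [← mul_assoc, ← Matrix.transpose_mul, gl_mul_inv, Matrix.transpose_one, one_mul]
    have hPT' : ∀ Z : Matrix ι ι F, (P : Matrix ι ι F)ᵀ * ((((P⁻¹ : GL ι F) : Matrix ι ι F))ᵀ * Z) = Z := by
      intro Z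
      rw [← mul_assoc, ← Matrix.transpose_mul, gl_inv_mul, Matrix.transpose_one, one_mul]
    obtain ⟨c, hc⟩ := uniq' hL (X := G) (Y := Y) (fun s hs => iso_gram h (hLI s hs)) (fun s hs => by
      have h3 := hX s hs
      rw [Matrix.transpose_mul, Matrix.transpose_mul] at h3
      calc (s : Matrix ι ι F)ᵀ * Y * (s : Matrix ι ι F)
          = (((P⁻¹ : GL ι F) : Matrix ι ι F))ᵀ * (((P : Matrix ι ι F)ᵀ * ((s : Matrix ι ι F)ᵀ * (((P⁻¹ : GL ι F) : Matrix ι ι F))ᵀ)) * X *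
              (((P⁻¹ : GL ι F) : Matrix ι ι F) * (s : Matrix ι ι F) * (P : Matrix ι ι F))) * ((P⁻¹ : GL ι F) : Matrix ι ι F) := by
            rw [hY]
            simp only [mul_assoc, gl_mul_inv, mul_one]
            rw [hPT]
        _ = Y := by rw [h3, hY]) h.unit
    refine ⟨c, ?_⟩
    have hΓ' : Γ = (P : Matrix ι ι F)ᵀ * G * (P : Matrix ι ι F) := rfl
    rw [hΓ', ← Matrix.smul_mul, ← Matrix.mul_smul, ← hc, hY]
    calc X = ((P : Matrix ι ι F)ᵀ * ((((P⁻¹ : GL ι F) : Matrix ι ι F))ᵀ * X)) * (((P⁻¹ : GL ι F) : Matrix ι ι F) * (P : Matrix ι ι F)) := by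
          rw [hPT', gl_inv_mul, mul_one]
      _ = _ := by simp only [mul_assoc]
  have hfixρ : ∀ M : Matrix ι ι F, (∀ i j, M i j ∈ F₁) → M.map ρ = M := by
    intro M hM; ext i j; exact (hρ _).1 (hM i j)
  obtain ⟨d, hd⟩ := htr (Γ.map ρ) (fun s hs => by
    have e0 := hinvΓ s hs
    have e3 := hsF s hs
    revert e0 e3
    generalize ((P⁻¹ : GL ι F) : Matrix ι ι F) * (s : Matrix ι ι F) * (P : Matrix ι ι F) = Y
    intro e0 e3
    have e2 := congrArg (fun M : Matrix ι ι F => M.map ρ) e0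
    simp only [map_mul' ρ] at e2
    rw [hfixρ Y e3, hfixρ Yᵀ (fun i j => e3 j i)] at e2
    exact e2)
  obtain ⟨a, b, hab⟩ : ∃ a b, Γ a b ≠ 0 := by
    by_contra hcon
    push Not at hcon
    have : Γ = 0 := by ext i j; exact hcon i j
    exact hΓF.unit.ne_zero this
  have hent : ∀ i j, ρ (Γ i j) = d * Γ i j := fun i j => congrFun (congrFun hd i) j
  have hd0 : d ≠ 0 := by
    rintro rfl
    have := hent a b
    rw [zero_mul, map_eq_zero_iff ρ ρ.injective] at this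
    exact hab this
  refine ⟨(Γ a b)⁻¹, inv_ne_zero hab, fun i j => ?_⟩
  rw [hρ, map_mul, map_inv₀, hent, hent]
  field_simp

end rational

section real
variable {F : Type*} [Field F] [Fintype F] {m : ℕ}

/-- Realisable over a proper subfield. -/
theorem spcase_real (hm : 1 ≤ m) {L H : Subgroup (GL (Fin m ⊕ Fin m) F)} (hL : ActsAbsolutelyIrreducibly (matrixSet L)) (hLI : L ≤ spGL m F)
    (hnorm : NormBy H L) {F₀ : Subfield F} (hF₀ : F₀ ≠ ⊤) (hreal : RealisableOver F₀ (matrixSet L)) : SpCase m H := by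
  haveI : Nonempty (Fin m ⊕ Fin m) := ⟨Sum.inl ⟨0, by omega⟩⟩
  obtain ⟨F₁, r, hle, hr, hc⟩ := Cfsg.Agent.Lib.AschSubfield.exists_prime_index F₀ hF₀
  obtain ⟨B, hB⟩ := Cfsg.Agent.Lib.AschSubfield.realisableOver_mono hle hreal
  obtain ⟨ζ, hζ, hζF⟩ := rational_gram rfJ hL (fun g hg => mem_sp.1 (hLI hg)) hB
  refine SpCase.c5 F₁ r B⁻¹ ζ hr hc hζ ?_ (AschDescent.le_subfieldSubgroup hL hnorm hB)
  intro u v hu hv
  rw [symp_eq, bf_gr, bf_rf]
  have h1 : ζ * (u ⬝ᵥ (gr (RingEquiv.refl F) (Matrix.J (Fin m) F) B⁻¹ *ᵥ v)) =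
      u ⬝ᵥ ((ζ • gr (RingEquiv.refl F) (Matrix.J (Fin m) F) B⁻¹) *ᵥ v) := by
    rw [Matrix.smul_mulVec, dotProduct_smul, smul_eq_mul]
  rw [h1]
  exact dot_mem F₁ u v _ hu (fun i j => hζF i j) hv

end real

section tensor
variable {ι : Type} [Fintype ι] [DecidableEq ι] {F : Type*} [Field F]

/-- Adjoints in another basis. -/
lemma adj_cj_gr {σ : F ≃+* F} {ε : F} {G : Matrix ι ι F} (h : RF σ ε G) (P : GL ι F) (x : Matrix ι ι F) :
    adj σ G (cj P x) = cj P (adj σ (gr σ G P) x) := by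
  have hg := h.gr P
  have key : ∀ v : ι → F, (adj σ G (cj P x) * (P : Matrix ι ι F)) *ᵥ v = ((P : Matrix ι ι F) * adj σ (gr σ G P) x) *ᵥ v := by
    intro v
    by_contra hne
    obtain ⟨⟨u, hu⟩, -⟩ := bf_nondeg h _ (sub_ne_zero.2 hne)
    apply hu
    rw [sub_eq_add_neg, bf_add_right]
    have e1 : bf σ G u (-(((P : Matrix ι ι F) * adj σ (gr σ G P) x) *ᵥ v)) = - bf σ G u (((P : Matrix ι ι F) * adj σ (gr σ G P) x) *ᵥ v) := by
      rw [← neg_one_smul F, bf_smul_right, map_neg, map_one, neg_one_mul]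
    rw [e1, ← Matrix.mulVec_mulVec, ← Matrix.mulVec_mulVec, ← bf_adj h]
    have e2 : u = (P : Matrix ι ι F) *ᵥ (((P⁻¹ : GL ι F) : Matrix ι ι F) *ᵥ u) := (gl_mulVec_inv P u).symm
    rw [e2]
    generalize ((P⁻¹ : GL ι F) : Matrix ι ι F) *ᵥ u = w
    rw [cj_mulVec, bf_gr, bf_gr, bf_adj hg, add_neg_cancel]
  have h1 : adj σ G (cj P x) * (P : Matrix ι ι F) = (P : Matrix ι ι F) * adj σ (gr σ G P) x := by
    rw [← sub_eq_zero]
    apply mulVec_eq_zero_of_rng_bot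
    intro v
    rw [Matrix.sub_mulVec, key, sub_self]
  calc adj σ G (cj P x) = adj σ G (cj P x) * (P : Matrix ι ι F) * ((P⁻¹ : GL ι F) : Matrix ι ι F) := by
        rw [mul_assoc, gl_mul_inv, mul_one]
    _ = _ := by rw [h1, cj_apply]

lemma inv_kronL {d e : ℕ} (ρ : ι ≃ Fin d × Fin e) {x : Matrix (Fin d) (Fin d) F} {y : Matrix (Fin e) (Fin e) F}
    (hx : IsUnit x) (hy : IsUnit y) : (kronL ρ x y)⁻¹ = kronL ρ x⁻¹ y⁻¹ := by
  apply Matrix.inv_eq_right_inv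
  rw [kronL_mul, Matrix.mul_nonsing_inv _ ((Matrix.isUnit_iff_isUnit_det _).1 hx),
    Matrix.mul_nonsing_inv _ ((Matrix.isUnit_iff_isUnit_det _).1 hy), kronL_one]

/-- Adjoints for a tensor product. -/
lemma adj_kronL {d e : ℕ} (ρ : ι ≃ Fin d × Fin e) {G₁ : Matrix (Fin d) (Fin d) F} {G₂ : Matrix (Fin e) (Fin e) F}
    (h1 : IsUnit G₁) (h2 : IsUnit G₂) (x : Matrix (Fin d) (Fin d) F) (y : Matrix (Fin e) (Fin e) F) :
    adj (RingEquiv.refl F) (kronL ρ G₁ G₂) (kronL ρ x y) =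
      kronL ρ (adj (RingEquiv.refl F) G₁ x) (adj (RingEquiv.refl F) G₂ y) := by
  rw [adj_rf, adj_rf, adj_rf, inv_kronL ρ h1 h2, transpose_kronL, kronL_mul, kronL_mul]

lemma kronL_add {d e : ℕ} (ρ : ι ≃ Fin d × Fin e) (x x' : Matrix (Fin d) (Fin d) F) (y : Matrix (Fin e) (Fin e) F) :
    kronL ρ (x + x') y = kronL ρ x y + kronL ρ x' y := by
  ext i j
  simp [kronL, add_mul]

lemma kronL_neg {d e : ℕ} (ρ : ι ≃ Fin d × Fin e) (x : Matrix (Fin d) (Fin d) F) (y : Matrix (Fin e) (Fin e) F) :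
    kronL ρ (-x) y = - kronL ρ x y := by
  ext i j
  simp [kronL]

lemma kronL_injective {d e : ℕ} (he : e ≠ 0) (ρ : ι ≃ Fin d × Fin e) {x x' : Matrix (Fin d) (Fin d) F}
    (h : kronL ρ x 1 = kronL ρ x' (1 : Matrix (Fin e) (Fin e) F)) : x = x' := by
  ext i j
  have := congrFun (congrFun h (ρ.symm (i, ⟨0, Nat.pos_of_ne_zero he⟩))) (ρ.symm (j, ⟨0, Nat.pos_of_ne_zero he⟩))
  simpa [kronL] using this

/-- Isometries of a tensor product form are products of similarities. -/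
lemma factors {d e : ℕ} (hd : d ≠ 0) (he : e ≠ 0) {ρ : ι ≃ Fin d × Fin e} {G₁ : Matrix (Fin d) (Fin d) F} {G₂ : Matrix (Fin e) (Fin e) F}
    (h1 : IsUnit G₁) (h2 : IsUnit G₂) {a : Matrix (Fin d) (Fin d) F} {b : Matrix (Fin e) (Fin e) F}
    (h : (kronL ρ a b)ᵀ * kronL ρ G₁ G₂ * kronL ρ a b = kronL ρ G₁ G₂) :
    ∃ c : F, c ≠ 0 ∧ aᵀ * G₁ * a = c • G₁ ∧ bᵀ * G₂ * b = c⁻¹ • G₂ := by
  rw [transpose_kronL, kronL_mul, kronL_mul] at h
  exact kronL_eq hd he ρ h1 h2 h.symm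

end tensor

end Cfsg.Agent.Lib.AschSp
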