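import Cfsg.Agent.Lib.AschSp3

/-!
Aschbacher's theorem for the symplectic groups: tensor products.
-/

set_option autoImplicit false
set_option linter.style.haveILetI false
set_option linter.unusedVariables false
set_option linter.unusedSectionVars false

namespace Cfsg.Agent.Lib.AschSp

open Cfsg Cfsg.Geo Cfsg.Agent.Lib.AschMU Cfsg.Agent.Lib.AschCore Cfsg.Agent.Lib.AschField Cfsg.Agent.Lib.AschAlg
  Cfsg.Agent.Lib.AschGroup Cfsg.Agent.Lib.AschGood Cfsg.Agent.Lib.AschAdj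
open scoped Matrix MatrixGroups Kronecker

section tensor
variable {ι : Type} [Fintype ι] [DecidableEq ι] {F : Type*} [Field F]

/-- An element of the tensor product group preserving the form, in the adapted basis. -/
lemma tensor_elt {ε : F} {G : Matrix ι ι F} (h : RF (RingEquiv.refl F) ε G) {d e : ℕ} (hd : d ≠ 0) (he : e ≠ 0)
    {ρ : ι ≃ Fin d × Fin e} {P : GL ι F}
    {G₁ : Matrix (Fin d) (Fin d) F} {G₂ : Matrix (Fin e) (Fin e) F} (hG : gr (RingEquiv.refl F) G P = kronL ρ G₁ G₂) (h1 : IsUnit G₁)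
    (h2 : IsUnit G₂) {g : GL ι F} (hg : g ∈ tensorProductSubgroup d e ρ P) (hi : IsIso (RingEquiv.refl F) G g) :
    ∃ (a : GL (Fin d) F) (b : GL (Fin e) F) (c : F), g = P * kronU ρ a b * P⁻¹ ∧ c ≠ 0 ∧
      (a : Matrix (Fin d) (Fin d) F)ᵀ * G₁ * (a : Matrix (Fin d) (Fin d) F) = c • G₁ ∧
      (b : Matrix (Fin e) (Fin e) F)ᵀ * G₂ * (b : Matrix (Fin e) (Fin e) F) = c⁻¹ • G₂ := by
  obtain ⟨a, b, hab⟩ := mem_tps.1 hg
  have h3 := gr_invariant h hi P
  have h4 : ((P⁻¹ : GL ι F) : Matrix ι ι F) * (g : Matrix ι ι F) * (P : Matrix ι ι F) = kronL ρ (a : Matrix (Fin d) (Fin d) F) b := by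
    rw [← kronU_val, ← Units.val_mul, ← Units.val_mul, hab]
    congr 1; group
  rw [h4, hG, map_rf] at h3
  obtain ⟨c, hc, e1, e2⟩ := factors hd he h1 h2 h3
  exact ⟨a, b, c, hab, hc, e1, e2⟩

/-- In characteristic two a similarity of a symmetric form is a similarity of its diagonal functional. -/
lemma diag_sim {e : ℕ} (h2 : (2 : F) = 0) (hsq : ∀ x : F, ∃ y, y * y = x) {G : Matrix (Fin e) (Fin e) F} (hT : Gᵀ = G)
    {s : Fin e → F} (hs : ∀ k, s k * s k = G k k) {b : Matrix (Fin e) (Fin e) F} {c : F} (hb : bᵀ * G * b = c • G) :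
    ∃ ν : F, ∀ l, ∑ k, s k * b k l = ν * s l := by
  classical
  obtain ⟨ν, hν⟩ := hsq c
  refine ⟨ν, fun l => ?_⟩
  haveI : CharP F 2 := CharTwo.of_one_ne_zero_of_two_eq_zero one_ne_zero h2
  -- squares are injective
  have hinj : ∀ x y : F, x * x = y * y → x = y := by
    intro x y hxy
    have h3 : (x - y) * (x - y) = 0 := by linear_combination hxy + (y * y - x * y) * h2
    exact sub_eq_zero.1 (mul_self_eq_zero.1 h3)
  apply hinj
  -- the (l,l) entry
  have h3 : (bᵀ * G * b) l l = ∑ k, (b k l * b k l) * G k k := by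
    set v : Fin e → F := fun k => b k l with hv
    have h4 : (bᵀ * G * b) l l = ∑ p : Fin e × Fin e, v p.1 * G p.1 p.2 * v p.2 := by
      rw [Matrix.mul_apply, Fintype.sum_prod_type_right]
      refine Finset.sum_congr rfl fun j _ => ?_
      rw [Matrix.mul_apply, Finset.sum_mul]
      rfl
    rw [h4, ← Finset.sum_filter_add_sum_filter_not Finset.univ (fun p : Fin e × Fin e => p.1 = p.2)]
    have h5 : ∑ p ∈ Finset.univ.filter (fun p : Fin e × Fin e => ¬ p.1 = p.2), v p.1 * G p.1 p.2 * v p.2 = 0 := by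
      apply Finset.sum_involution (fun p _ => (p.2, p.1))
      · rintro ⟨i, j⟩ -
        have : G j i = G i j := congrFun (congrFun hT i) j
        simp only
        rw [this]
        linear_combination v i * G i j * v j * h2
      · rintro ⟨i, j⟩ hij - h
        simp only [Prod.mk.injEq] at h
        rw [Finset.mem_filter] at hij
        exact hij.2 h.2
      · rintro ⟨i, j⟩ hij
        rw [Finset.mem_filter] at hij ⊢
        exact ⟨Finset.mem_univ _, fun h => hij.2 h.symm⟩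
      · rintro ⟨i, j⟩ -; rfl
    rw [h5, add_zero]
    have h6 : Finset.univ.filter (fun p : Fin e × Fin e => p.1 = p.2) = Finset.univ.image (fun k : Fin e => (k, k)) := by
      ext ⟨i, j⟩
      simp only [Finset.mem_filter, Finset.mem_univ, true_and, Finset.mem_image, Prod.mk.injEq]
      constructor
      · rintro rfl; exact ⟨i, rfl, rfl⟩
      · rintro ⟨k, rfl, rfl⟩; rfl
    rw [h6, Finset.sum_image (by intro x _ y _ h; exact congrArg Prod.fst h)]
    refine Finset.sum_congr rfl fun k _ => ?_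
    simp only [hv]; ring
  rw [hb, Matrix.smul_apply, smul_eq_mul] at h3
  -- square of the sum
  have h7 : (∑ k, s k * b k l) * (∑ k, s k * b k l) = ∑ k, (b k l * b k l) * G k k := by
    rw [← pow_two, CharTwo.sum_sq]
    refine Finset.sum_congr rfl fun k _ => ?_
    rw [← hs]; ring
  rw [h7, ← h3, ← hs, ← hν]; ring

/-- Irreducibility forces the tensor factors to be alternating in characteristic two. -/
lemma diag_zero {ε : F} {G : Matrix ι ι F} (h : RF (RingEquiv.refl F) ε G) (h2 : (2 : F) = 0) (hsq : ∀ x : F, ∃ y, y * y = x)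
    {H : Subgroup (GL ι F)} (hI : ∀ g ∈ H, IsIso (RingEquiv.refl F) G g) (hirr : ActsIrreducibly (matrixSet H)) {d e : ℕ} (hd : 2 ≤ d)
    (he : 2 ≤ e) {ρ : ι ≃ Fin d × Fin e} {P : GL ι F} (hle : H ≤ tensorProductSubgroup d e ρ P)
    {G₁ : Matrix (Fin d) (Fin d) F} {G₂ : Matrix (Fin e) (Fin e) F} (hG : gr (RingEquiv.refl F) G P = kronL ρ G₁ G₂) (h1 : IsUnit G₁)
    (h1' : IsUnit G₂) (hT : G₂ᵀ = G₂) : ∀ k, G₂ k k = 0 := by
  classical
  by_contra hcon
  push Not at hcon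
  obtain ⟨k₀, hk₀⟩ := hcon
  choose s hs using fun k => hsq (G₂ k k)
  have hsk : s k₀ ≠ 0 := by
    intro h0
    apply hk₀
    rw [← hs, h0, zero_mul]
  -- row sums
  let T : (ι → F) → Fin d → F := fun v i => ∑ k, s k * (((P⁻¹ : GL ι F) : Matrix ι ι F) *ᵥ v) (ρ.symm (i, k))
  let W : Submodule F (ι → F) :=
    { carrier := {v | ∀ i, T v i = 0}
      add_mem' := fun {a b} ha hb i => by
        show ∑ k, s k * (((P⁻¹ : GL ι F) : Matrix ι ι F) *ᵥ (a + b)) (ρ.symm (i, k)) = 0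
        have ha' : ∑ k, s k * (((P⁻¹ : GL ι F) : Matrix ι ι F) *ᵥ a) (ρ.symm (i, k)) = 0 := ha i
        have hb' : ∑ k, s k * (((P⁻¹ : GL ι F) : Matrix ι ι F) *ᵥ b) (ρ.symm (i, k)) = 0 := hb i
        simp only [Matrix.mulVec_add, Pi.add_apply, mul_add, Finset.sum_add_distrib, ha', hb', add_zero]
      zero_mem' := fun i => by
        show ∑ k, s k * (((P⁻¹ : GL ι F) : Matrix ι ι F) *ᵥ (0 : ι → F)) (ρ.symm (i, k)) = 0
        simp only [Matrix.mulVec_zero, Pi.zero_apply, mul_zero, Finset.sum_const_zero]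
      smul_mem' := fun c v hv i => by
        show ∑ k, s k * (((P⁻¹ : GL ι F) : Matrix ι ι F) *ᵥ (c • v)) (ρ.symm (i, k)) = 0
        have hv' : ∑ k, s k * (((P⁻¹ : GL ι F) : Matrix ι ι F) *ᵥ v) (ρ.symm (i, k)) = 0 := hv i
        simp only [Matrix.mulVec_smul, Pi.smul_apply, smul_eq_mul]
        rw [show (0 : F) = c * ∑ k, s k * (((P⁻¹ : GL ι F) : Matrix ι ι F) *ᵥ v) (ρ.symm (i, k)) by rw [hv', mul_zero], Finset.mul_sum]
        exact Finset.sum_congr rfl fun k _ => by ring }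
  have hW : ∀ g ∈ H, ∀ w ∈ W, (g : Matrix ι ι F) *ᵥ w ∈ W := by
    intro g hg w hw i
    obtain ⟨a, b, c, hgab, hc, -, hb⟩ := tensor_elt h (by omega) (by omega) hG h1 h1' (hle hg) (hI g hg)
    obtain ⟨ν, hν⟩ := diag_sim h2 hsq hT hs hb
    show ∑ k, s k * (((P⁻¹ : GL ι F) : Matrix ι ι F) *ᵥ ((g : Matrix ι ι F) *ᵥ w)) (ρ.symm (i, k)) = 0
    set u := ((P⁻¹ : GL ι F) : Matrix ι ι F) *ᵥ w with hu
    have hgu : ((P⁻¹ : GL ι F) : Matrix ι ι F) *ᵥ ((g : Matrix ι ι F) *ᵥ w) = kronL ρ (a : Matrix (Fin d) (Fin d) F) b *ᵥ u := by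
      rw [hu, Matrix.mulVec_mulVec, Matrix.mulVec_mulVec, ← kronU_val, ← Units.val_mul, ← Units.val_mul, hgab]
      congr 2; group
    have hw' : ∀ j, ∑ k, s k * u (ρ.symm (j, k)) = 0 := hw
    have hval : ∀ k, (kronL ρ (a : Matrix (Fin d) (Fin d) F) b *ᵥ u) (ρ.symm (i, k)) =
        ∑ j, ∑ l, (a : Matrix (Fin d) (Fin d) F) i j * (b : Matrix (Fin e) (Fin e) F) k l * u (ρ.symm (j, l)) := by
      intro k
      simp only [Matrix.mulVec, dotProduct]
      rw [← Equiv.sum_comp ρ.symm, Fintype.sum_prod_type]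
      refine Finset.sum_congr rfl fun j _ => Finset.sum_congr rfl fun l _ => ?_
      simp [kronL]
    rw [hgu]
    calc ∑ k, s k * (kronL ρ (a : Matrix (Fin d) (Fin d) F) b *ᵥ u) (ρ.symm (i, k))
        = ∑ k, ∑ j, ∑ l, s k * ((a : Matrix (Fin d) (Fin d) F) i j * (b : Matrix (Fin e) (Fin e) F) k l * u (ρ.symm (j, l))) := by
          refine Finset.sum_congr rfl fun k _ => ?_
          rw [hval, Finset.mul_sum]
          exact Finset.sum_congr rfl fun j _ => Finset.mul_sum _ _ _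
      _ = ∑ j, (a : Matrix (Fin d) (Fin d) F) i j * ∑ l, (∑ k, s k * (b : Matrix (Fin e) (Fin e) F) k l) * u (ρ.symm (j, l)) := by
          rw [Finset.sum_comm]
          refine Finset.sum_congr rfl fun j _ => ?_
          rw [Finset.sum_comm, Finset.mul_sum]
          refine Finset.sum_congr rfl fun l _ => ?_
          rw [Finset.sum_mul, Finset.mul_sum]
          exact Finset.sum_congr rfl fun k _ => by ring
      _ = 0 := by
          apply Finset.sum_eq_zero
          intro j _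
          have : ∑ l, (∑ k, s k * (b : Matrix (Fin e) (Fin e) F) k l) * u (ρ.symm (j, l)) = ν * ∑ l, s l * u (ρ.symm (j, l)) := by
            rw [Finset.mul_sum]
            refine Finset.sum_congr rfl fun l _ => ?_
            rw [hν]; ring
          rw [this, hw', mul_zero, mul_zero]
  obtain ⟨k₁, hk₁⟩ : ∃ k₁ : Fin e, k₁ ≠ k₀ := by
    haveI : Nontrivial (Fin e) := Fin.nontrivial_iff_two_le.2 he
    exact exists_ne k₀
  have hd0 : 0 < d := by omega
  have hTs : ∀ u : ι → F, ∀ i, T ((P : Matrix ι ι F) *ᵥ u) i = ∑ k, s k * u (ρ.symm (i, k)) := by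
    intro u i
    show ∑ k, s k * (((P⁻¹ : GL ι F) : Matrix ι ι F) *ᵥ ((P : Matrix ι ι F) *ᵥ u)) (ρ.symm (i, k)) = _
    rw [gl_inv_mulVec]
  rcases irr_cases hirr W hW with h0 | h0
  · -- W = ⊥
    let u : ι → F := fun x => if (ρ x).1 = ⟨0, hd0⟩ then (if (ρ x).2 = k₀ then s k₁ else if (ρ x).2 = k₁ then - s k₀ else 0) else 0
    have hu : (P : Matrix ι ι F) *ᵥ u ∈ W := by
      intro i
      rw [hTs]
      simp only [u, Equiv.apply_symm_apply]
      by_cases hi : i = ⟨0, hd0⟩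
      · simp only [hi, if_true]
        rw [← Finset.add_sum_erase _ _ (Finset.mem_univ k₀), if_pos rfl,
          ← Finset.add_sum_erase _ _ (Finset.mem_erase.2 ⟨hk₁, Finset.mem_univ k₁⟩), if_neg hk₁, if_pos rfl]
        rw [Finset.sum_eq_zero]
        · ring
        · intro k hk
          rw [Finset.mem_erase, Finset.mem_erase] at hk
          rw [if_neg hk.2.1, if_neg hk.1, mul_zero]
      · simp [hi]
    rw [h0, Submodule.mem_bot] at hu
    have hu0 : u = 0 := by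
      rw [← gl_inv_mulVec P u, hu, Matrix.mulVec_zero]
    have := congrFun hu0 (ρ.symm (⟨0, hd0⟩, k₁))
    simp only [u, Equiv.apply_symm_apply, if_true, Pi.zero_apply, if_neg hk₁] at this
    exact hsk (neg_eq_zero.1 this)
  · let u : ι → F := Pi.single (ρ.symm (⟨0, hd0⟩, k₀)) 1
    have hu : (P : Matrix ι ι F) *ᵥ u ∈ W := by rw [h0]; trivial
    have hu' := hu ⟨0, hd0⟩
    rw [hTs] at hu'
    rw [Finset.sum_eq_single k₀] at hu'
    · simp only [u, Pi.single_eq_same, mul_one] at hu'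
      exact hsk hu'
    · intro k _ hk
      have : ρ.symm (⟨0, hd0⟩, k) ≠ ρ.symm (⟨0, hd0⟩, k₀) := by
        intro h3
        have := ρ.symm.injective h3
        exact hk (congrArg Prod.snd this)
      simp only [u, Pi.single_eq_of_ne this, mul_zero]
    · intro h3; exact absurd (Finset.mem_univ _) h3

/-- The upper triangular half of an alternating matrix. -/
lemma exists_half {d : ℕ} {G : Matrix (Fin d) (Fin d) F} (h2 : (2 : F) = 0) (hT : Gᵀ = G) (hd : ∀ i, G i i = 0) :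
    ∃ A : Matrix (Fin d) (Fin d) F, A + Aᵀ = G := by
  refine ⟨Matrix.of fun i j => if i < j then G i j else 0, ?_⟩
  ext i j
  have hij : G j i = G i j := congrFun (congrFun hT i) j
  rw [Matrix.add_apply, Matrix.transpose_apply, Matrix.of_apply, Matrix.of_apply]
  rcases lt_trichotomy i j with h | h | h
  · simp [h, not_lt.2 h.le]
  · subst h; simp [hd]
  · simp [h, not_lt.2 h.le, hij]

end tensor

section sp
variable {F : Type*} [Field F] [Fintype F] {m : ℕ}

lemma exists_sqrt (h2 : (2 : F) = 0) (x : F) : ∃ y, y * y = x := by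
  have hchar : ringChar F = 2 := by
    haveI : CharP F 2 := CharTwo.of_one_ne_zero_of_two_eq_zero one_ne_zero h2
    exact ringChar.eq F 2 ▸ rfl
  obtain ⟨y, hy⟩ := FiniteField.isSquare_of_char_two hchar x
  exact ⟨y, hy.symm⟩

/-- Tensor products in characteristic two: an invariant quadratic form. -/
theorem tensor_even (h2 : (2 : F) = 0) {H : Subgroup (GL (Fin m ⊕ Fin m) F)} (hI : H ≤ spGL m F) (hirr : ActsIrreducibly (matrixSet H))
    {d e : ℕ} (hd : 2 ≤ d) (he : 2 ≤ e) {ρ : (Fin m ⊕ Fin m) ≃ Fin d × Fin e} {P : GL (Fin m ⊕ Fin m) F}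
    (hle : H ≤ tensorProductSubgroup d e ρ P) {G₁ : Matrix (Fin d) (Fin d) F} {G₂ : Matrix (Fin e) (Fin e) F}
    (hG : gr (RingEquiv.refl F) (Matrix.J (Fin m) F) P = kronL ρ G₁ G₂) (h1 : IsUnit G₁) (h1' : IsUnit G₂) (hT₁ : G₁ᵀ = G₁) (hT₂ : G₂ᵀ = G₂) :
    ∃ x, x + adj (RingEquiv.refl F) (Matrix.J (Fin m) F) x = 1 ∧ ∀ g ∈ H, ∀ v, qx (cj g x) v = qx x v := by
  classical
  have hI' : ∀ g ∈ H, IsIso (RingEquiv.refl F) (Matrix.J (Fin m) F) g := fun g hg => mem_sp.1 (hI hg)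
  have hd0 : d ≠ 0 := by omega
  have he0 : e ≠ 0 := by omega
  have hdiag₂ := diag_zero rfJ h2 (exists_sqrt h2) hI' hirr hd he hle hG h1 h1' hT₂
  have hdiag₁ : ∀ k, G₁ k k = 0 := by
    refine diag_zero rfJ h2 (exists_sqrt h2) hI' hirr (ρ := ρ.trans (Equiv.prodComm _ _)) (P := P) he hd ?_ ?_ h1' h1 hT₁
    · rw [← tensorProductSubgroup_swap]; exact hle
    · rw [hG, kronL_swap]
  obtain ⟨A, hA⟩ := exists_half h2 hT₁ hdiag₁
  have hG₁i : G₁⁻¹ * G₁ = 1 := Matrix.nonsing_inv_mul _ ((Matrix.isUnit_iff_isUnit_det _).1 h1)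
  have hG₁i' : G₁ * G₁⁻¹ = 1 := Matrix.mul_nonsing_inv _ ((Matrix.isUnit_iff_isUnit_det _).1 h1)
  set X : Matrix (Fin d) (Fin d) F := G₁⁻¹ * A with hX
  have hadX : adj (RingEquiv.refl F) G₁ X = G₁⁻¹ * Aᵀ := by
    rw [adj_rf, hX, Matrix.transpose_mul, Matrix.transpose_nonsing_inv, hT₁]
    calc G₁⁻¹ * (Aᵀ * G₁⁻¹) * G₁ = G₁⁻¹ * Aᵀ * (G₁⁻¹ * G₁) := by simp only [mul_assoc]
      _ = _ := by rw [hG₁i, mul_one]
  have hX1 : X + adj (RingEquiv.refl F) G₁ X = 1 := by
    rw [hadX, hX, ← mul_add, hA, hG₁i]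
  have hadj : ∀ Y : Matrix (Fin d) (Fin d) F, adj (RingEquiv.refl F) (Matrix.J (Fin m) F) (cj P (kronL ρ Y 1)) =
      cj P (kronL ρ (adj (RingEquiv.refl F) G₁ Y) 1) := by
    intro Y
    rw [adj_cj_gr rfJ, hG, adj_kronL ρ h1 h1']
    congr 2
    rw [adj_rf, Matrix.transpose_one, mul_one, Matrix.nonsing_inv_mul _ ((Matrix.isUnit_iff_isUnit_det _).1 h1')]
  have hsum : ∀ Y : Matrix (Fin d) (Fin d) F, cj P (kronL ρ Y (1 : Matrix (Fin e) (Fin e) F)) +
      adj (RingEquiv.refl F) (Matrix.J (Fin m) F) (cj P (kronL ρ Y 1)) = 1 ↔ Y + adj (RingEquiv.refl F) G₁ Y = 1 := by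
    intro Y
    rw [hadj, ← map_add, ← kronL_add]
    constructor
    · intro h
      have h3 : kronL ρ (Y + adj (RingEquiv.refl F) G₁ Y) (1 : Matrix (Fin e) (Fin e) F) = kronL ρ 1 1 := by
        rw [kronL_one]
        apply (cj P).injective
        rw [h, map_one]
      exact kronL_injective he0 ρ h3
    · intro h
      rw [h, kronL_one, map_one]
  refine ⟨cj P (kronL ρ X 1), (hsum X).2 hX1, ?_⟩
  intro g hg v
  obtain ⟨a, b, c, hgab, hc, -, -⟩ := tensor_elt rfJ hd0 he0 hG h1 h1' (hle hg) (hI' g hg)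
  set X' : Matrix (Fin d) (Fin d) F := (a : Matrix (Fin d) (Fin d) F) * X * ((a⁻¹ : GL (Fin d) F) : Matrix (Fin d) (Fin d) F) with hX'
  have hcj : cj g (cj P (kronL ρ X 1)) = cj P (kronL ρ X' 1) := by
    rw [hgab, ← cj_mul_apply]
    have : P * kronU ρ a b * P⁻¹ * P = P * kronU ρ a b := by group
    rw [this, cj_mul_apply]
    congr 1
    rw [cj_apply, kronU_inv, kronU_val, kronU_val, kronL_mul, kronL_mul, mul_one, gl_mul_inv]
  have hX'1 : X' + adj (RingEquiv.refl F) G₁ X' = 1 := by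
    rw [← hsum, ← hcj, adj_cj rfJ (hI' g hg), ← map_add, (hsum X).2 hX1, map_one]
  rw [hcj]
  -- difference
  set D := X' - X with hD
  have hXD : X' = X + D := by rw [hD]; abel
  have hadD : adj (RingEquiv.refl F) G₁ D = D := by
    rw [hXD, adj_add] at hX'1
    have h3 : (X + adj (RingEquiv.refl F) G₁ X) + (D + adj (RingEquiv.refl F) G₁ D) = 1 := by rw [← hX'1]; abel
    rw [hX1] at h3
    have h4 : D + adj (RingEquiv.refl F) G₁ D = 0 := by
      have : (1 : Matrix (Fin d) (Fin d) F) + (D + adj (RingEquiv.refl F) G₁ D) = 1 + 0 := by rw [h3, add_zero]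
      exact add_left_cancel this
    rw [eq_neg_of_add_eq_zero_right h4, neg_mat_of_two h2]
  have hGD : (G₁ * D)ᵀ = G₁ * D := by
    rw [adj_rf] at hadD
    rw [Matrix.transpose_mul, hT₁]
    calc Dᵀ * G₁ = (G₁ * G₁⁻¹) * Dᵀ * G₁ := by rw [hG₁i', one_mul]
      _ = G₁ * (G₁⁻¹ * Dᵀ * G₁) := by simp only [mul_assoc]
      _ = _ := by rw [hadD]
  have hsplit : qx (cj P (kronL ρ X' 1)) v = qx (cj P (kronL ρ X 1)) v + qx (cj P (kronL ρ D 1)) v := by
    unfold qx
    rw [hXD, kronL_add, map_add, Matrix.add_mulVec, SympAux.sympForm_add_right]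
  rw [hsplit]
  have hzero : qx (cj P (kronL ρ D 1)) v = 0 := by
    unfold qx
    set u := ((P⁻¹ : GL (Fin m ⊕ Fin m) F) : Matrix (Fin m ⊕ Fin m) (Fin m ⊕ Fin m) F) *ᵥ v with hu
    have hv : v = (P : Matrix (Fin m ⊕ Fin m) (Fin m ⊕ Fin m) F) *ᵥ u := (gl_mulVec_inv P v).symm
    rw [hv, cj_mulVec, symp_eq, bf_gr, hG, bf_rf, Matrix.mulVec_mulVec, kronL_mul, mul_one]
    apply alt_of_diag
    · rw [transpose_kronL, hGD, hT₂, neg_mat_of_two h2]
    · intro i
      simp only [kronL, Matrix.reindex_apply, Equiv.symm_symm, Matrix.submatrix_apply, Matrix.kroneckerMap_apply, hdiag₂, mul_zero]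
  rw [hzero, add_zero]

end sp

end Cfsg.Agent.Lib.AschSp
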