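import Cfsg.Agent.Lib.AschSp4

/-!
Aschbacher's theorem for the symplectic groups: tensor products, all cases.
-/

set_option autoImplicit false
set_option linter.style.haveILetI false
set_option linter.unusedVariables false
set_option linter.unusedSectionVars false

namespace Cfsg.Agent.Lib.AschSp

open Cfsg Cfsg.Geo Cfsg.Agent.Lib.AschMU Cfsg.Agent.Lib.AschCore Cfsg.Agent.Lib.AschField Cfsg.Agent.Lib.AschAlg
  Cfsg.Agent.Lib.AschGroup Cfsg.Agent.Lib.AschGood Cfsg.Agent.Lib.AschAdj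
open scoped Matrix MatrixGroups Kronecker

section gen
variable {ι : Type} [Fintype ι] [DecidableEq ι] {F : Type*} [Field F]

lemma ne_zero_of_unit {κ : Type} [Fintype κ] [DecidableEq κ] [Nonempty κ] {G : Matrix κ κ F} (h : IsUnit G) : G ≠ 0 := h.ne_zero

/-- A reflexive Kronecker product: the signs of the factors. -/
lemma signs {ε : F} (hε : ε = 1 ∨ ε = -1) {d e : ℕ} (hd : d ≠ 0) (he : e ≠ 0) {ρ : ι ≃ Fin d × Fin e} {G₁ : Matrix (Fin d) (Fin d) F}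
    {G₂ : Matrix (Fin e) (Fin e) F} (h1 : IsUnit G₁) (h2 : IsUnit G₂) (h : (kronL ρ G₁ G₂)ᵀ = ε • kronL ρ G₁ G₂) :
    (G₁ᵀ = G₁ ∧ G₂ᵀ = ε • G₂) ∨ (G₁ᵀ = -G₁ ∧ G₂ᵀ = (-ε) • G₂) := by
  haveI : Nonempty (Fin d) := ⟨⟨0, Nat.pos_of_ne_zero hd⟩⟩
  have hεu : IsUnit (ε • G₂) := by
    rcases hε with rfl | rfl
    · rwa [one_smul]
    · rw [neg_smul, one_smul]; exact h2.neg
  rw [transpose_kronL, ← kronL_smul] at h
  obtain ⟨c, hc, e1, e2⟩ := kronL_eq hd he ρ h1 hεu h.symm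
  have hcc : c * c = 1 := by
    have h3 := congrArg Matrix.transpose e1
    rw [Matrix.transpose_transpose, Matrix.transpose_smul, e1, smul_smul] at h3
    have h4 : (c * c - 1) • G₁ = 0 := by rw [sub_smul, one_smul, ← h3, sub_self]
    rcases smul_eq_zero.1 h4 with h5 | h5
    · exact sub_eq_zero.1 h5
    · exact absurd h5 h1.ne_zero
  have h5 : (c - 1) * (c + 1) = 0 := by linear_combination hcc
  rcases mul_eq_zero.1 h5 with h6 | h6
  · left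
    have hc1 : c = 1 := sub_eq_zero.1 h6
    subst hc1
    rw [one_smul] at e1
    rw [inv_one, one_smul] at e2
    exact ⟨e1, e2⟩
  · right
    have hc1 : c = -1 := eq_neg_of_add_eq_zero_left h6
    subst hc1
    refine ⟨by rw [e1, neg_smul, one_smul], ?_⟩
    rw [e2, smul_smul]
    congr 1
    rw [inv_neg, inv_one]; ring

/-- A two-dimensional symmetric factor gives a quadratic element. -/
theorem tensor_two {ε : F} {G : Matrix ι ι F} (h : RF (RingEquiv.refl F) ε G) (h2 : (2 : F) ≠ 0) {H : Subgroup (GL ι F)}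
    (hI : ∀ g ∈ H, IsIso (RingEquiv.refl F) G g) {d : ℕ} (hd : 1 ≤ d)
    {ρ : ι ≃ Fin d × Fin 2} {P : GL ι F} (hle : H ≤ tensorProductSubgroup d 2 ρ P)
    {G₁ : Matrix (Fin d) (Fin d) F} {G₂ : Matrix (Fin 2) (Fin 2) F} (hG : gr (RingEquiv.refl F) G P = kronL ρ G₁ G₂) (h1 : IsUnit G₁)
    (h1' : IsUnit G₂) (hT : G₂ᵀ = G₂) :
    ∃ E : Subalgebra F (Matrix ι ι F), H ≤ subalgebraNormalizer E ∧ AdjClosed (RingEquiv.refl F) G E ∧
      (∀ x ∈ E, ∀ y ∈ E, x * y = y * x) ∧ E ≠ ⊥ := by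
  classical
  haveI : Nonempty ι := ⟨ρ.symm (⟨0, by omega⟩, 0)⟩
  haveI : Nonempty (Fin d) := ⟨⟨0, by omega⟩⟩
  obtain ⟨W, hWdef⟩ : ∃ W : Matrix (Fin 2) (Fin 2) F, W = !![0, 1; -1, 0] := ⟨_, rfl⟩
  have hWm : ∀ m : Matrix (Fin 2) (Fin 2) F, mᵀ * W * m = m.det • W := by
    intro m
    ext i j
    fin_cases i <;> fin_cases j <;>
      simp [hWdef, Matrix.mul_apply, Fin.sum_univ_two, Matrix.det_fin_two] <;> ring
  have hWT : Wᵀ = -W := by
    rw [hWdef]; ext i j; fin_cases i <;> fin_cases j <;> simp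
  have hWW : W * W = -1 := by
    rw [hWdef]; ext i j; fin_cases i <;> fin_cases j <;> simp [Matrix.mul_apply, Fin.sum_univ_two]
  have hdet : G₂.det ≠ 0 := ((Matrix.isUnit_iff_isUnit_det _).1 h1').ne_zero
  have hinv : G₂⁻¹ * G₂ = 1 := Matrix.nonsing_inv_mul _ ((Matrix.isUnit_iff_isUnit_det _).1 h1')
  have hinv' : G₂ * G₂⁻¹ = 1 := Matrix.mul_nonsing_inv _ ((Matrix.isUnit_iff_isUnit_det _).1 h1')
  obtain ⟨X, hX⟩ : ∃ X, X = G₂⁻¹ * W := ⟨_, rfl⟩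
  have hX2 : X = (G₂.det)⁻¹ • (W * G₂) := by
    have h3 := hWm G₂
    rw [hT] at h3
    have h4 : W = (G₂.det)⁻¹ • (G₂ * W * G₂) := by rw [h3, smul_smul, inv_mul_cancel₀ hdet, one_smul]
    rw [hX]
    conv_lhs => rw [h4]
    rw [Matrix.mul_smul]
    congr 1
    rw [mul_assoc, ← mul_assoc, hinv, one_mul]
  have hXX : X * X = (-(G₂.det)⁻¹) • 1 := by
    have : W * G₂ * (G₂⁻¹ * W) = -1 := by
      calc W * G₂ * (G₂⁻¹ * W) = W * (G₂ * G₂⁻¹) * W := by simp only [mul_assoc]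
        _ = -1 := by rw [hinv', mul_one, hWW]
    calc X * X = ((G₂.det)⁻¹ • (W * G₂)) * (G₂⁻¹ * W) := by rw [← hX2, ← hX]
      _ = _ := by rw [Matrix.smul_mul, this, neg_smul, smul_neg]
  have hadX : adj (RingEquiv.refl F) G₂ X = -X := by
    rw [adj_rf, hX, Matrix.transpose_mul, Matrix.transpose_nonsing_inv, hT, hWT]
    calc G₂⁻¹ * (-W * G₂⁻¹) * G₂ = -(G₂⁻¹ * W * (G₂⁻¹ * G₂)) := by
          simp only [neg_mul, mul_neg, mul_assoc]
      _ = _ := by rw [hinv, mul_one]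
  obtain ⟨x, hx⟩ : ∃ x, x = cj P (kronL ρ 1 X) := ⟨_, rfl⟩
  have hxx : x * x = (0 : F) • x + (-(G₂.det)⁻¹) • 1 := by
    rw [zero_smul, zero_add, hx, ← map_mul, kronL_mul, hXX, one_mul, kronL_smul, kronL_one, map_smul, map_one]
  have hadx : adj (RingEquiv.refl F) G x = -x := by
    rw [hx, adj_cj_gr h, hG, adj_kronL ρ h1 h1', hadX]
    have : adj (RingEquiv.refl F) G₁ (1 : Matrix (Fin d) (Fin d) F) = 1 := by
      rw [adj_rf, Matrix.transpose_one, mul_one, Matrix.nonsing_inv_mul _ ((Matrix.isUnit_iff_isUnit_det _).1 h1)]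
    rw [this]
    have h3 : kronL ρ (1 : Matrix (Fin d) (Fin d) F) (-X) = -kronL ρ 1 X := by
      ext i j; simp [kronL]
    rw [h3, map_neg]
  have hx0 : x * x ≠ 0 := by
    rw [hxx, zero_smul, zero_add]
    intro h3
    have := congrFun (congrFun h3 (Classical.arbitrary ι)) (Classical.arbitrary ι)
    simp only [Matrix.smul_apply, Matrix.one_apply_eq, smul_eq_mul, mul_one, Matrix.zero_apply] at this
    exact hdet (inv_eq_zero.1 (neg_eq_zero.1 this))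
  refine ⟨quadAlg x 0 (-(G₂.det)⁻¹) hxx, ?_, ?_, quadAlg_comm, ?_⟩
  · apply le_subalgebraNormalizer
    rintro g hg _ ⟨a, b, rfl⟩
    obtain ⟨A, B, c, hgab, hc, -, hB⟩ := tensor_elt h (by omega) (by norm_num) hG h1 h1' (hle hg) (hI g hg)
    have hcj : cj g x = cj P (kronL ρ 1 ((B : Matrix (Fin 2) (Fin 2) F) * X * ((B⁻¹ : GL (Fin 2) F) : Matrix (Fin 2) (Fin 2) F))) := by
      rw [hx, hgab, ← cj_mul_apply]
      have : P * kronU ρ A B * P⁻¹ * P = P * kronU ρ A B := by group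
      rw [this, cj_mul_apply]
      congr 1
      rw [cj_apply, kronU_inv, kronU_val, kronU_val, kronL_mul, kronL_mul, mul_one, gl_mul_inv]
    have hBX : (B : Matrix (Fin 2) (Fin 2) F) * X * ((B⁻¹ : GL (Fin 2) F) : Matrix (Fin 2) (Fin 2) F) =
        (c⁻¹ * ((B⁻¹ : GL (Fin 2) F) : Matrix (Fin 2) (Fin 2) F).det) • X := by
      have h3 := hWm ((B⁻¹ : GL (Fin 2) F) : Matrix (Fin 2) (Fin 2) F)
      have h4 : (B : Matrix (Fin 2) (Fin 2) F) * G₂⁻¹ = c⁻¹ • (G₂⁻¹ * ((B⁻¹ : GL (Fin 2) F) : Matrix (Fin 2) (Fin 2) F)ᵀ) := by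
        have h5 : ((B⁻¹ : GL (Fin 2) F) : Matrix (Fin 2) (Fin 2) F)ᵀ * (B : Matrix (Fin 2) (Fin 2) F)ᵀ = 1 := by
          rw [← Matrix.transpose_mul, gl_mul_inv, Matrix.transpose_one]
        have h6 : G₂ * (B : Matrix (Fin 2) (Fin 2) F) = c⁻¹ • (((B⁻¹ : GL (Fin 2) F) : Matrix (Fin 2) (Fin 2) F)ᵀ * G₂) := by
          calc G₂ * (B : Matrix (Fin 2) (Fin 2) F) = (((B⁻¹ : GL (Fin 2) F) : Matrix (Fin 2) (Fin 2) F)ᵀ * (B : Matrix (Fin 2) (Fin 2) F)ᵀ) * (G₂ * (B : Matrix (Fin 2) (Fin 2) F)) := by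
                rw [h5, one_mul]
            _ = ((B⁻¹ : GL (Fin 2) F) : Matrix (Fin 2) (Fin 2) F)ᵀ * ((B : Matrix (Fin 2) (Fin 2) F)ᵀ * G₂ * (B : Matrix (Fin 2) (Fin 2) F)) := by
                simp only [mul_assoc]
            _ = _ := by rw [hB, Matrix.mul_smul]
        calc (B : Matrix (Fin 2) (Fin 2) F) * G₂⁻¹ = G₂⁻¹ * (G₂ * (B : Matrix (Fin 2) (Fin 2) F)) * G₂⁻¹ := by
              rw [← mul_assoc, hinv, one_mul]
          _ = c⁻¹ • (G₂⁻¹ * ((B⁻¹ : GL (Fin 2) F) : Matrix (Fin 2) (Fin 2) F)ᵀ * (G₂ * G₂⁻¹)) := by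
              rw [h6, Matrix.mul_smul, Matrix.smul_mul]; simp only [mul_assoc]
          _ = _ := by rw [hinv', mul_one]
      rw [hX, ← mul_assoc, h4, Matrix.smul_mul, Matrix.smul_mul, mul_smul]
      congr 1
      calc G₂⁻¹ * ((B⁻¹ : GL (Fin 2) F) : Matrix (Fin 2) (Fin 2) F)ᵀ * W * ((B⁻¹ : GL (Fin 2) F) : Matrix (Fin 2) (Fin 2) F)
          = G₂⁻¹ * (((B⁻¹ : GL (Fin 2) F) : Matrix (Fin 2) (Fin 2) F)ᵀ * W * ((B⁻¹ : GL (Fin 2) F) : Matrix (Fin 2) (Fin 2) F)) := by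
            simp only [mul_assoc]
        _ = _ := by rw [h3, Matrix.mul_smul]
    refine ⟨a, b * (c⁻¹ * ((B⁻¹ : GL (Fin 2) F) : Matrix (Fin 2) (Fin 2) F).det), ?_⟩
    rw [map_add, map_smul, map_one, map_smul, hcj, hBX, kronL_smul, map_smul, ← hx, smul_smul]
  · rintro _ ⟨a, b, rfl⟩
    refine ⟨a, -b, ?_⟩
    rw [adj_add, adj_smul, adj_smul, adj_one h, hadx]
    show a • (1 : Matrix ι ι F) + b • (-x) = _
    rw [smul_neg, neg_smul]
  · intro hbot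
    have h3 : x ∈ quadAlg x 0 (-(G₂.det)⁻¹) hxx := self_mem_quadAlg
    rw [hbot] at h3
    obtain ⟨c, hc⟩ := scalar_of_mem_bot h3
    have h4 : x = -x := by
      conv_lhs => rw [hc]
      rw [← hadx, hc, adj_smul, adj_one h]; rfl
    have h5 : (2 : F) • x = 0 := by rw [two_smul]; conv_lhs => lhs; rw [h4]
                                    exact neg_add_cancel x
    rcases smul_eq_zero.1 h5 with h6 | h6
    · exact h2 h6
    · exact hx0 (by rw [h6, zero_mul])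

end gen

section sp
variable {F : Type*} [Field F] [Fintype F] {m : ℕ}

/-- The tensor form structure from the Gram matrix. -/
lemma tensor_structure {ι : Type} [Fintype ι] [DecidableEq ι] {F : Type*} [Field F] [Fintype F] {G : Matrix ι ι F} {d e : ℕ}
    {ρ : ι ≃ Fin d × Fin e} {P : GL ι F} {G₁ : Matrix (Fin d) (Fin d) F} {G₂ : Matrix (Fin e) (Fin e) F}
    (hG : gr (RingEquiv.refl F) G P = kronL ρ G₁ G₂) :
    IsTensorFormStructure id (bf (RingEquiv.refl F) G) (bf (RingEquiv.refl F) G₁) (bf (RingEquiv.refl F) G₂) ρ P := by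
  refine ⟨1, one_ne_zero, fun x y => ?_⟩
  rw [gram_bf, gram_bf, one_mul, bf_gr, hG]
  exact bf_reindex (σ := RingEquiv.refl F) ρ (G₁ ⊗ₖ G₂) x y

/-- Tensor products with a skew first factor, odd characteristic. -/
theorem spcase_tensor_odd (hm : 1 ≤ m) (h2 : (2 : F) ≠ 0) {H : Subgroup (GL (Fin m ⊕ Fin m) F)} (hI : H ≤ spGL m F)
    (hirr : ActsIrreducibly (matrixSet H)) {d e : ℕ} (hd : 2 ≤ d) (he : 2 ≤ e) {ρ : (Fin m ⊕ Fin m) ≃ Fin d × Fin e}
    {P : GL (Fin m ⊕ Fin m) F} (hle : H ≤ tensorProductSubgroup d e ρ P) {G₁ : Matrix (Fin d) (Fin d) F} {G₂ : Matrix (Fin e) (Fin e) F}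
    (hG : gr (RingEquiv.refl F) (Matrix.J (Fin m) F) P = kronL ρ G₁ G₂) (h1 : IsUnit G₁) (h1' : IsUnit G₂) (hT₁ : G₁ᵀ = -G₁) (hT₂ : G₂ᵀ = G₂) :
    SpCase m H := by
  have hI' : ∀ g ∈ H, IsIso (RingEquiv.refl F) (Matrix.J (Fin m) F) g := fun g hg => mem_sp.1 (hI hg)
  have hdiag : ∀ i, G₁ i i = 0 := by
    intro i
    have h3 : G₁ i i = - G₁ i i := congrFun (congrFun hT₁ i) i
    have h4 : (2 : F) * G₁ i i = 0 := by linear_combination h3
    exact (mul_eq_zero.1 h4).resolve_left h2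
  rcases Nat.lt_or_ge 2 e with he3 | he2
  · refine SpCase.c4 d e ρ P (bf (RingEquiv.refl F) G₁) (bf (RingEquiv.refl F) G₂) (odd_of_two_ne h2) hd he3 ?_ (symp_form h1 hT₁ hdiag)
      (symm_form h1' hT₂) (tensor_structure hG) hle
    have := even_of_alt h1 hT₁ hdiag
    rwa [Fintype.card_fin] at this
  · obtain rfl : e = 2 := by omega
    obtain ⟨E, hE, hEa, hcomm, hne⟩ := tensor_two rfJ h2 hI' (by omega) hle hG h1 h1' hT₂
    exact spcase_comm hm hI hirr hE hEa hcomm hne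

/-- **The tensor decompositions.** -/
theorem spcase_tensor (hm : 1 ≤ m) {H : Subgroup (GL (Fin m ⊕ Fin m) F)} (hI : H ≤ spGL m F) (hirr : ActsIrreducibly (matrixSet H))
    {A : Subalgebra F (Matrix (Fin m ⊕ Fin m) (Fin m ⊕ Fin m) F)} {d e : ℕ} (hd : 2 ≤ d) (he : 2 ≤ e)
    (φ : Matrix (Fin d) (Fin d) F ≃ₐ[F] A) (ρ : (Fin m ⊕ Fin m) ≃ Fin d × Fin e) (hle : H ≤ subalgebraNormalizer A)
    (hA : AdjClosed (RingEquiv.refl F) (Matrix.J (Fin m) F) A) : SpCase m H := by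
  classical
  haveI : Nonempty (Fin m ⊕ Fin m) := ⟨Sum.inl ⟨0, by omega⟩⟩
  obtain ⟨P, hP, hle'⟩ := exists_tensorProductSubgroup (by omega) φ ρ
  obtain ⟨G₁, G₂, hG, h1, h1'⟩ := tensor_gram rfJ hA (by omega) (by omega) φ ρ P hP
  have hHP := hle.trans hle'
  have hrf := (rfJ (F := F) (m := m)).gr P |>.refl
  rw [hG, map_rf] at hrf
  have hs := signs (Or.inr rfl) (by omega) (by omega) h1 h1' hrf
  rw [neg_smul, one_smul, neg_neg, one_smul] at hs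
  by_cases h2 : (2 : F) = 0
  · have hs' : G₁ᵀ = G₁ ∧ G₂ᵀ = G₂ := by
      rcases hs with ⟨a, b⟩ | ⟨a, b⟩
      · exact ⟨a, by rw [b, neg_mat_of_two h2]⟩
      · exact ⟨by rw [a, neg_mat_of_two h2], b⟩
    obtain ⟨x, hx, hxH⟩ := tensor_even h2 hI hirr hd he hHP hG h1 h1' hs'.1 hs'.2
    exact spcase_qx h2 hI hx hxH
  · rcases hs with ⟨a, b⟩ | ⟨a, b⟩
    · exact spcase_tensor_odd hm h2 hI hirr he hd (ρ := ρ.trans (Equiv.prodComm _ _)) (by rw [← tensorProductSubgroup_swap]; exact hHP)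
        (by rw [hG, kronL_swap]) h1' h1 b a
    · exact spcase_tensor_odd hm h2 hI hirr hd he hHP hG h1 h1' a b

end sp

end Cfsg.Agent.Lib.AschSp
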