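import Cfsg.Agent.Lib.AschSp5
import Cfsg.Agent.Lib.Burnside

/-!
Aschbacher's theorem for the symplectic groups: several commuting components.
-/

set_option autoImplicit false
set_option linter.style.haveILetI false
set_option linter.unusedVariables false
set_option linter.unusedSectionVars false

namespace Cfsg.Agent.Lib.AschSp

open Cfsg Cfsg.Geo Cfsg.Agent.Lib.AschMU Cfsg.Agent.Lib.AschCore Cfsg.Agent.Lib.AschField Cfsg.Agent.Lib.AschAlg
  Cfsg.Agent.Lib.AschGroup Cfsg.Agent.Lib.AschGood Cfsg.Agent.Lib.AschAdj Cfsg.Agent.Lib.AschNonab Cfsg.Agent.Lib.AschTensor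
  Cfsg.Agent.Lib.AschComp
open Cfsg.Agent.Lib.AschDescent (env mem_env)
open Cfsg.Agent.Lib.AschForm (sm)
open scoped Matrix MatrixGroups Kronecker

section quad
variable {F : Type*} [Field F] [Fintype F] {m : ℕ}

/-- In characteristic two, whatever normalises an irreducible group preserving a quadratic form also preserves it. -/
theorem extend_quad (hm : 1 ≤ m) (h2 : (2 : F) = 0) {L H : Subgroup (GL (Fin m ⊕ Fin m) F)} (hL : ActsIrreducibly (matrixSet L))
    (hI : H ≤ spGL m F) (hn : NormBy H L) {Q : (Fin m ⊕ Fin m → F) → F} (hQ : IsNondegenerateQuadraticForm Q)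
    (hpol : ∀ u v, QuadraticMap.polar Q u v = sympForm m F u v)
    (hfix : ∀ g ∈ L, ∀ v, Q ((g : Matrix (Fin m ⊕ Fin m) (Fin m ⊕ Fin m) F) *ᵥ v) = Q v) :
    ∀ g ∈ H, ∀ v, Q ((g : Matrix (Fin m ⊕ Fin m) (Fin m ⊕ Fin m) F) *ᵥ v) = Q v := by
  classical
  intro g hg
  have hadd : ∀ u v, Q (u + v) = Q u + Q v + sympForm m F u v := by
    intro u v
    rw [← hpol]
    unfold QuadraticMap.polar
    ring
  have hQ0 : Q 0 = 0 := by
    have := hQ.smul 0 0
    rw [zero_smul] at this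
    rw [this]; ring
  let W : Submodule F (Fin m ⊕ Fin m → F) :=
    { carrier := {v | Q ((g : Matrix (Fin m ⊕ Fin m) (Fin m ⊕ Fin m) F) *ᵥ v) = Q v}
      add_mem' := fun {a b} ha hb => by
        show Q ((g : Matrix (Fin m ⊕ Fin m) (Fin m ⊕ Fin m) F) *ᵥ (a + b)) = Q (a + b)
        rw [Matrix.mulVec_add, hadd, hadd a b, show Q ((g : Matrix (Fin m ⊕ Fin m) (Fin m ⊕ Fin m) F) *ᵥ a) = Q a from ha,
          show Q ((g : Matrix (Fin m ⊕ Fin m) (Fin m ⊕ Fin m) F) *ᵥ b) = Q b from hb]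
        have := hI hg a b
        rw [show sympForm m F ((g : Matrix (Fin m ⊕ Fin m) (Fin m ⊕ Fin m) F) *ᵥ a) ((g : Matrix (Fin m ⊕ Fin m) (Fin m ⊕ Fin m) F) *ᵥ b) = sympForm m F a b from this]
      zero_mem' := by
        show Q ((g : Matrix (Fin m ⊕ Fin m) (Fin m ⊕ Fin m) F) *ᵥ 0) = Q 0
        rw [Matrix.mulVec_zero]
      smul_mem' := fun c v hv => by
        show Q ((g : Matrix (Fin m ⊕ Fin m) (Fin m ⊕ Fin m) F) *ᵥ (c • v)) = Q (c • v)
        rw [Matrix.mulVec_smul, hQ.smul, hQ.smul, show Q ((g : Matrix (Fin m ⊕ Fin m) (Fin m ⊕ Fin m) F) *ᵥ v) = Q v from hv] }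
  have hWL : ∀ s ∈ L, ∀ w ∈ W, (s : Matrix (Fin m ⊕ Fin m) (Fin m ⊕ Fin m) F) *ᵥ w ∈ W := by
    intro s hs w hw
    show Q ((g : Matrix (Fin m ⊕ Fin m) (Fin m ⊕ Fin m) F) *ᵥ ((s : Matrix (Fin m ⊕ Fin m) (Fin m ⊕ Fin m) F) *ᵥ w)) = _
    have h3 : (g : Matrix (Fin m ⊕ Fin m) (Fin m ⊕ Fin m) F) *ᵥ ((s : Matrix (Fin m ⊕ Fin m) (Fin m ⊕ Fin m) F) *ᵥ w) =
        ((g * s * g⁻¹ : GL (Fin m ⊕ Fin m) F) : Matrix (Fin m ⊕ Fin m) (Fin m ⊕ Fin m) F) *ᵥ ((g : Matrix (Fin m ⊕ Fin m) (Fin m ⊕ Fin m) F) *ᵥ w) := by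
      rw [Matrix.mulVec_mulVec, Matrix.mulVec_mulVec, ← Units.val_mul, ← Units.val_mul]
      congr 2; group
    rw [h3, hfix _ (hn g hg s hs), hfix s hs]
    exact hw
  rcases irr_cases hL W hWL with h0 | h0
  · exfalso
    have hval : ∀ v : Fin m ⊕ Fin m → F, v ≠ 0 → Q ((g : Matrix (Fin m ⊕ Fin m) (Fin m ⊕ Fin m) F) *ᵥ v) ≠ Q v := by
      intro v hv h4
      apply hv
      have : v ∈ W := h4
      rwa [h0, Submodule.mem_bot] at this
    set w : Fin m ⊕ Fin m → F := Pi.single (Sum.inl ⟨0, by omega⟩) 1 with hw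
    set x : Fin m ⊕ Fin m → F := Pi.single (Sum.inr ⟨0, by omega⟩) 1 with hx
    have hw0 : w ≠ 0 := by
      intro h; have := congrFun h (Sum.inl ⟨0, by omega⟩); rw [hw, Pi.single_eq_same] at this; exact one_ne_zero this
    set D : (Fin m ⊕ Fin m → F) → F := fun v => Q ((g : Matrix (Fin m ⊕ Fin m) (Fin m ⊕ Fin m) F) *ᵥ v) - Q v with hD
    have hDadd : ∀ u v, D (u + v) = D u + D v := by
      intro u v
      simp only [hD]
      rw [Matrix.mulVec_add, hadd, hadd u v, show sympForm m F ((g : Matrix (Fin m ⊕ Fin m) (Fin m ⊕ Fin m) F) *ᵥ u)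
        ((g : Matrix (Fin m ⊕ Fin m) (Fin m ⊕ Fin m) F) *ᵥ v) = sympForm m F u v from hI hg u v]
      ring
    have hDsm : ∀ (c : F) v, D (c • v) = c ^ 2 * D v := by
      intro c v
      simp only [hD]
      rw [Matrix.mulVec_smul, hQ.smul, hQ.smul]; ring
    have hDw : D w ≠ 0 := sub_ne_zero.2 (hval w hw0)
    obtain ⟨a, ha⟩ := exists_sqrt h2 (D x / D w)
    have h5 : D (x + a • w) = 0 := by
      rw [hDadd, hDsm, pow_two, ha, div_mul_cancel₀ _ hDw, ← two_mul, h2, zero_mul]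
    have h6 : x + a • w ∈ W := sub_eq_zero.1 h5
    rw [h0, Submodule.mem_bot] at h6
    have h7 := congrFun h6 (Sum.inr ⟨0, by omega⟩)
    rw [Pi.add_apply, Pi.smul_apply, hx, hw, Pi.single_eq_same, Pi.single_eq_of_ne (by simp), smul_zero, add_zero] at h7
    exact one_ne_zero h7
  · intro v
    have : v ∈ W := by rw [h0]; trivial
    exact this

/-- Class 8 from a normal subgroup. -/
theorem spcase_quad (hm : 1 ≤ m) (h2 : (2 : F) = 0) {L H : Subgroup (GL (Fin m ⊕ Fin m) F)} (hL : ActsIrreducibly (matrixSet L))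
    (hI : H ≤ spGL m F) (hn : NormBy H L) {Q : (Fin m ⊕ Fin m → F) → F} (hQ : IsNondegenerateQuadraticForm Q)
    (hpol : ∀ u v, QuadraticMap.polar Q u v = sympForm m F u v)
    (hfix : ∀ g ∈ L, ∀ v, Q ((g : Matrix (Fin m ⊕ Fin m) (Fin m ⊕ Fin m) F) *ᵥ v) = Q v) : SpCase m H := by
  refine SpCase.c8 Q (fun hodd => two_ne_of_odd hodd h2) hQ hpol ?_
  intro g hg
  exact ⟨1, fun v => by rw [extend_quad hm h2 hL hI hn hQ hpol hfix g hg, Units.val_one, one_mul]⟩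

end quad

section fac
variable {ι : Type} [Fintype ι] [DecidableEq ι] {F : Type*} [Field F]

/-- The form on one tensor factor. -/
theorem fac_form [Finite F] [Nonempty ι] {ε : F} {G : Matrix ι ι F} (h : RF (RingEquiv.refl F) ε G)
    {P : Subgroup (GL ι F)} (hPI : ∀ g ∈ P, IsIso (RingEquiv.refl F) G g) {d : ℕ} (hd : d ≠ 0)
    {φ : Matrix (Fin d) (Fin d) F →ₐ[F] Matrix ι ι F}
    (hinj : Function.Injective φ) (hr : φ.range = env P) (hdvd : d ∣ Fintype.card ι) :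
    ∃ X : Matrix (Fin d) (Fin d) F, IsUnit X ∧ (Xᵀ = X ∨ Xᵀ = -X) ∧
      ∀ a ∈ facGrp φ P, (a : Matrix (Fin d) (Fin d) F)ᵀ * X * (a : Matrix (Fin d) (Fin d) F) = X := by
  obtain ⟨e, he⟩ := hdvd
  have he0 : e ≠ 0 := by
    rintro rfl
    rw [mul_zero] at he
    exact Fintype.card_ne_zero he
  have ρ : ι ≃ Fin d × Fin e := Fintype.equivOfCardEq (by rw [Fintype.card_prod, Fintype.card_fin, Fintype.card_fin, he])
  have hA : AdjClosed (RingEquiv.refl F) G φ.range := by rw [hr]; exact adjClosed_env h hPI le_sup_left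
  obtain ⟨Q, hQ, -⟩ := exists_tensorProductSubgroup hd (AlgEquiv.ofInjective φ hinj) ρ
  obtain ⟨G₁, G₂, hG, h1, h2⟩ := tensor_gram h hA hd he0 (AlgEquiv.ofInjective φ hinj) ρ Q hQ
  have hrf := (h.gr Q).refl
  rw [hG, map_rf] at hrf
  have hs := signs h.eps hd he0 h1 h2 hrf
  refine ⟨G₁, h1, ?_, ?_⟩
  · rcases hs with hs | hs
    · exact Or.inl hs.1
    · exact Or.inr hs.1
  intro a ha
  obtain ⟨x, hx, e1⟩ := mem_facGrp.1 ha
  have h3 := gr_invariant h (hPI x hx) Q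
  have h4 : ((Q⁻¹ : GL ι F) : Matrix ι ι F) * (x : Matrix ι ι F) * (Q : Matrix ι ι F) = kronL ρ (a : Matrix (Fin d) (Fin d) F) 1 := by
    have h5 : (x : Matrix ι ι F) = (Q : Matrix ι ι F) * kronL ρ (a : Matrix (Fin d) (Fin d) F) 1 * ((Q⁻¹ : GL ι F) : Matrix ι ι F) := by
      rw [e1, ← hQ]; rfl
    rw [h5]
    calc ((Q⁻¹ : GL ι F) : Matrix ι ι F) * ((Q : Matrix ι ι F) * kronL ρ (a : Matrix (Fin d) (Fin d) F) 1 * ((Q⁻¹ : GL ι F) : Matrix ι ι F)) * (Q : Matrix ι ι F) =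
        (((Q⁻¹ : GL ι F) : Matrix ι ι F) * (Q : Matrix ι ι F)) * kronL ρ (a : Matrix (Fin d) (Fin d) F) 1 *
          (((Q⁻¹ : GL ι F) : Matrix ι ι F) * (Q : Matrix ι ι F)) := by simp only [mul_assoc]
      _ = _ := by rw [gl_inv_mul, one_mul, mul_one]
  rw [h4, hG, transpose_kronL, map_rf, kronL_mul, kronL_mul, Matrix.transpose_one, one_mul, mul_one] at h3
  obtain ⟨c, hc, e2, e3⟩ := kronL_eq hd he0 ρ h1 h2 h3.symm
  have hc1 : c = 1 := by
    haveI : Nonempty (Fin e) := ⟨⟨0, Nat.pos_of_ne_zero he0⟩⟩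
    obtain ⟨i, j, hij⟩ : ∃ i j, G₂ i j ≠ 0 := by
      by_contra hcon
      push Not at hcon
      have h00 : G₂ = 0 := by ext i j; exact hcon i j
      exact h2.ne_zero h00
    have h6 := congrArg (fun M : Matrix (Fin e) (Fin e) F => M i j) e3
    simp only [Matrix.smul_apply, smul_eq_mul] at h6
    have h7 : c⁻¹ = 1 := mul_right_cancel₀ hij (by rw [← h6, one_mul])
    rw [← inv_inv c, h7, inv_one]
  rw [e2, hc1, one_smul]

lemma tp_smul {t d : ℕ} (c : Fin t → F) (x : Fin t → Matrix (Fin d) (Fin d) F) : tp (fun i => c i • x i) = (∏ i, c i) • tp x := by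
  ext a b
  simp only [tp, Matrix.smul_apply, smul_eq_mul, Finset.prod_mul_distrib]

lemma tp_neg {t d : ℕ} (X : Matrix (Fin d) (Fin d) F) : tp (fun _ : Fin t => -X) = (-1 : F) ^ t • tp (fun _ : Fin t => X) := by
  have := tp_smul (fun _ : Fin t => (-1 : F)) (fun _ => X)
  simp only [neg_smul, one_smul, Finset.prod_const, Finset.card_univ, Fintype.card_fin] at this
  exact this

/-- Common form on the tensor factors. -/
theorem comp_common [Finite F] [Nonempty ι] {ε : F} {G : Matrix ι ι F} (h : RF (RingEquiv.refl F) ε G) {H : Subgroup (GL ι F)} {t : ℕ}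
    {P : Fin t → Subgroup (GL ι F)} (hc : CompData H P) (hHI : ∀ g ∈ H, IsIso (RingEquiv.refl F) G g) :
    ∃ (d : ℕ) (ρ : ι ≃ (Fin t → Fin d)) (B : GL ι F) (X : Matrix (Fin d) (Fin d) F) (c : F) (i₀ : Fin t)
      (φ : Matrix (Fin d) (Fin d) F →ₐ[F] Matrix ι ι F), 2 ≤ d ∧ H ≤ tensorWreathSubgroup d t ρ B ∧ c ≠ 0 ∧ IsUnit X ∧
      (Xᵀ = X ∨ Xᵀ = -X) ∧ gr (RingEquiv.refl F) G B = c • Matrix.reindex ρ.symm ρ.symm (tp (fun _ : Fin t => X)) ∧
      Function.Injective φ ∧ φ.range = env (P i₀) ∧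
      ∀ a ∈ facGrp φ (P i₀), (a : Matrix (Fin d) (Fin d) F)ᵀ * X * (a : Matrix (Fin d) (Fin d) F) = X := by
  classical
  obtain ⟨d, ρ, B, φ, hd, hinj, hr, hB, htop, hle⟩ := exists_tensorWreath hc
  haveI : Nonempty (Fin d) := ⟨⟨0, by omega⟩⟩
  have ht := hc.two_le
  have hcard : Fintype.card ι = d ^ t := by
    have := Fintype.card_congr ρ
    rwa [Fintype.card_fun, Fintype.card_fin, Fintype.card_fin] at this
  have hX : ∀ i, ∃ X : Matrix (Fin d) (Fin d) F, IsUnit X ∧ (Xᵀ = X ∨ Xᵀ = -X) ∧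
      ∀ a ∈ facGrp (φ i) (P i), (a : Matrix (Fin d) (Fin d) F)ᵀ * X * (a : Matrix (Fin d) (Fin d) F) = X := fun i =>
    fac_form h (fun g hg => hHI g (hc.le i hg)) (by omega) (hinj i) (hr i) (by rw [hcard]; exact dvd_pow_self d (by omega))
  choose X hXu hXs hXI using hX
  let i₀ : Fin t := ⟨0, by omega⟩
  -- common form
  have hu : ∀ j, ∃ (u : GL (Fin d) F) (c : F), c ≠ 0 ∧ (u : Matrix (Fin d) (Fin d) F)ᵀ * X j * (u : Matrix (Fin d) (Fin d) F) = c • X i₀ := by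
    intro j
    obtain ⟨g, hg, hgj⟩ := hc.trans i₀ j
    obtain ⟨π, hπ⟩ := hc.perm g hg
    obtain ⟨u, hu⟩ := exists_conj_comp hinj hr hπ
    have hPπ : P (π i₀) = P j := by rw [← hπ, hgj]
    have hπj : π i₀ = j := by
      by_contra hne
      -- P j commutes with itself, hence abelian and perfect
      apply hc.nonscalar j
      have hself : ∀ x ∈ P j, ∀ y ∈ P j, x * y = y * x := by
        intro x hx y hy
        rw [← hPπ] at hx
        exact hc.comm _ _ hne x hx y hy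
      have h1 : ⁅P j, P j⁆ = ⊥ := by
        rw [Subgroup.commutator_eq_bot_iff_le_centralizer]
        intro x hx
        rw [Subgroup.mem_centralizer_iff]
        intro y hy
        exact hself y hy x hx
      rw [← hc.perfect, h1]; exact bot_le
    have huφ : ∀ x, cj g (φ i₀ x) = φ j ((u i₀ : Matrix (Fin d) (Fin d) F) * x * (((u i₀)⁻¹ : GL (Fin d) F) : Matrix (Fin d) (Fin d) F)) := by
      intro x; rw [← hπj]; exact hu i₀ x
    have hirr : ActsAbsolutelyIrreducibly (matrixSet (facGrp (φ i₀) (P i₀))) := absIrr_of_env_top (env_facGrp (hinj i₀) (hr i₀))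
    have hinv : ∀ a ∈ facGrp (φ i₀) (P i₀), (a : Matrix (Fin d) (Fin d) F)ᵀ *
        ((u i₀ : Matrix (Fin d) (Fin d) F)ᵀ * X j * (u i₀ : Matrix (Fin d) (Fin d) F)) * (a : Matrix (Fin d) (Fin d) F) =
        (u i₀ : Matrix (Fin d) (Fin d) F)ᵀ * X j * (u i₀ : Matrix (Fin d) (Fin d) F) := by
      intro a ha
      obtain ⟨x, hx, e⟩ := mem_facGrp.1 ha
      have hmem : u i₀ * a * (u i₀)⁻¹ ∈ facGrp (φ j) (P j) := by
        rw [mem_facGrp]
        refine ⟨g * x * g⁻¹, ?_, ?_⟩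
        · rw [← hgj]; exact ⟨x, hx, rfl⟩
        · rw [← cj_coe, e, huφ, Units.val_mul, Units.val_mul]
      have h3 := hXI j _ hmem
      have h4 : ((u i₀ * a * (u i₀)⁻¹ : GL (Fin d) F) : Matrix (Fin d) (Fin d) F) * (u i₀ : Matrix (Fin d) (Fin d) F) =
          (u i₀ : Matrix (Fin d) (Fin d) F) * (a : Matrix (Fin d) (Fin d) F) := by
        rw [← Units.val_mul, ← Units.val_mul]; congr 1; group
      calc (a : Matrix (Fin d) (Fin d) F)ᵀ * ((u i₀ : Matrix (Fin d) (Fin d) F)ᵀ * X j * (u i₀ : Matrix (Fin d) (Fin d) F)) * (a : Matrix (Fin d) (Fin d) F)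
          = ((u i₀ : Matrix (Fin d) (Fin d) F) * (a : Matrix (Fin d) (Fin d) F))ᵀ * X j * ((u i₀ : Matrix (Fin d) (Fin d) F) * (a : Matrix (Fin d) (Fin d) F)) := by
            rw [Matrix.transpose_mul]; simp only [mul_assoc]
        _ = (u i₀ : Matrix (Fin d) (Fin d) F)ᵀ * ((((u i₀ * a * (u i₀)⁻¹ : GL (Fin d) F) : Matrix (Fin d) (Fin d) F))ᵀ * X j *
              ((u i₀ * a * (u i₀)⁻¹ : GL (Fin d) F) : Matrix (Fin d) (Fin d) F)) * (u i₀ : Matrix (Fin d) (Fin d) F) := by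
            rw [← h4, Matrix.transpose_mul]; simp only [mul_assoc]
        _ = _ := by rw [h3]
    obtain ⟨c, hcc⟩ := uniq' hirr (hXI i₀) hinv (hXu i₀)
    refine ⟨u i₀, c, ?_, hcc⟩
    rintro rfl
    have h5 : IsUnit ((u i₀ : Matrix (Fin d) (Fin d) F)ᵀ * X j * (u i₀ : Matrix (Fin d) (Fin d) F)) :=
      (((Matrix.isUnit_transpose _).2 (u i₀).isUnit).mul (hXu j)).mul (u i₀).isUnit
    rw [hcc, zero_smul] at h5
    exact not_isUnit_zero h5
  choose C c hc0 hC using hu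
  -- Gram matrix
  set K : Matrix (Fin t → Fin d) (Fin t → Fin d) F := tp X with hK
  have hsm : ∀ {κ : Type} (y : Matrix κ κ F), sm (RingHom.id F) y = y := fun y => by ext; rfl
  have hinvK : (⨆ i, P i) ≤ isom (RingHom.id F) (gramT (RingHom.id F) ρ B K) := by
    rw [iSup_le_iff]
    intro i x hx
    obtain ⟨a, ha, e⟩ := exists_facGrp (hinj i) (hr i) hx
    rw [mem_isom, e, hB, gramT_psi]
    congr 1
    rw [hsm, tp_transpose, hK, tp_mul, tp_mul]
    congr 1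
    funext j
    by_cases hj : j = i
    · subst hj
      simp only [Function.update_self]
      exact hXI j a ha
    · simp only [Function.update_of_ne hj]
      rw [Matrix.transpose_one, one_mul, mul_one]
  have hKu : IsUnit K := by
    have e1 : K * tp (fun i => (X i)⁻¹) = 1 := by
      rw [hK, tp_mul, ← tp_one]
      congr 1
      funext i
      exact Matrix.mul_nonsing_inv _ ((Matrix.isUnit_iff_isUnit_det _).1 (hXu i))
    exact IsUnit.of_mul_eq_one _ e1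
  have hgu : IsUnit (gramT (RingHom.id F) ρ B K) := by
    rw [Matrix.isUnit_iff_isUnit_det, isUnit_iff_ne_zero]
    exact gramT_det (RingHom.id F) ρ B K ((Matrix.isUnit_iff_isUnit_det _).1 hKu).ne_zero
  obtain ⟨b, hb⟩ := uniq' hc.absIrred (X := gramT (RingHom.id F) ρ B K) (Y := G) (fun s hs => by
      have := mem_isom.1 (hinvK hs)
      rwa [hsm] at this) (fun s hs => by
      have h1 : (⨆ i, P i) ≤ H := iSup_le hc.le
      have := iso_gram h (hHI s (h1 hs))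
      rwa [map_rf] at this) hgu
  have hb0 : b ≠ 0 := by
    rintro rfl
    rw [zero_smul] at hb
    exact h.unit.ne_zero hb
  have hgrB : gr (RingEquiv.refl F) G B = b • Matrix.reindex ρ.symm ρ.symm K := by
    have e1 : (B : Matrix ι ι F)ᵀ * gramT (RingHom.id F) ρ B K * (B : Matrix ι ι F) = Matrix.reindex ρ.symm ρ.symm K := by
      unfold gramT
      rw [hsm]
      calc (B : Matrix ι ι F)ᵀ * (((B⁻¹ : GL ι F) : Matrix ι ι F)ᵀ * Matrix.reindex ρ.symm ρ.symm K * ((B⁻¹ : GL ι F) : Matrix ι ι F)) *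
            (B : Matrix ι ι F) = ((B : Matrix ι ι F)ᵀ * ((B⁻¹ : GL ι F) : Matrix ι ι F)ᵀ) * Matrix.reindex ρ.symm ρ.symm K *
            (((B⁻¹ : GL ι F) : Matrix ι ι F) * (B : Matrix ι ι F)) := by simp only [mul_assoc]
        _ = _ := by
          rw [← Matrix.transpose_mul, gl_inv_mul, Matrix.transpose_one, one_mul, mul_one]
    unfold gr
    rw [map_rf, ← e1, hb, Matrix.mul_smul, Matrix.smul_mul]
  refine ⟨d, ρ, B * reU ρ (tpU C), X i₀, b * ∏ i, c i, i₀, φ i₀, hd, hle.trans (wreath_le (Subgroup.subset_closure (Or.inl (isPureTensor_tpU C)))),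
    mul_ne_zero hb0 (Finset.prod_ne_zero_iff.2 fun i _ => hc0 i), hXu i₀, hXs i₀, ?_, hinj i₀, hr i₀, hXI i₀⟩
  rw [gr_mul, hgrB]
  have hcoe : ((reU ρ (tpU C) : GL ι F) : Matrix ι ι F) = Matrix.reindex ρ.symm ρ.symm (tp (fun i => (C i : Matrix (Fin d) (Fin d) F))) := rfl
  unfold gr
  rw [map_rf, hcoe, Matrix.mul_smul, Matrix.smul_mul, mul_smul]
  congr 1
  have e5 : (Matrix.reindex ρ.symm ρ.symm (tp (fun i => (C i : Matrix (Fin d) (Fin d) F))))ᵀ =
      Matrix.reindex ρ.symm ρ.symm (tp (fun i => (C i : Matrix (Fin d) (Fin d) F)))ᵀ := rfl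
  rw [e5, ← reindex_mul', ← reindex_mul', tp_transpose, hK, tp_mul, tp_mul]
  have e6 : (fun i => (C i : Matrix (Fin d) (Fin d) F)ᵀ * X i * (C i : Matrix (Fin d) (Fin d) F)) = fun i => c i • X i₀ := by
    funext i; exact hC i
  rw [e6, tp_smul]
  rfl

end fac

end Cfsg.Agent.Lib.AschSp
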