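import Cfsg.Agent.Lib.AschSp6

/-!
Aschbacher's theorem for the symplectic groups: several commuting components, continued.
-/

set_option autoImplicit false
set_option linter.style.haveILetI false
set_option linter.unusedVariables false
set_option linter.unusedSectionVars false

namespace Cfsg.Agent.Lib.AschSp

open Cfsg Cfsg.Geo Cfsg.Agent.Lib.AschMU Cfsg.Agent.Lib.AschCore Cfsg.Agent.Lib.AschField Cfsg.Agent.Lib.AschAlg
  Cfsg.Agent.Lib.AschGroup Cfsg.Agent.Lib.AschGood Cfsg.Agent.Lib.AschAdj Cfsg.Agent.Lib.AschNonab Cfsg.Agent.Lib.AschTensor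
  Cfsg.Agent.Lib.AschComp
open Cfsg.Agent.Lib.AschDescent (env mem_env)
open scoped Matrix MatrixGroups Kronecker

section gen
variable {ι : Type} [Fintype ι] [DecidableEq ι] {F : Type*} [Field F]

/-- A perfect group of order `2^a 3^b` is trivial. -/
lemma eq_bot_of_perfect {Γ : Type*} [Group Γ] [Finite Γ] {P : Subgroup Γ} (hP : ⁅P, P⁆ = P) {a b : ℕ} (h : Nat.card P = 2 ^ a * 3 ^ b) :
    P = ⊥ := by
  have h3 := Burnside.isSolvable_of_card_eq _ 2 3 a b Nat.prime_two Nat.prime_three h rfl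
  have h4 : ¬ Nontrivial P := by
    intro hnt
    have h5 := Group.IsSolvable.commutator_lt_top_of_nontrivial P
    apply h5.ne
    rw [eq_top_iff]
    rintro ⟨x, hx⟩ -
    have h6 : x ∈ ⁅P, P⁆ := by rw [hP]; exact hx
    have h7 : (commutator P).map P.subtype = ⁅P, P⁆ := by
      rw [commutator_def, Subgroup.map_commutator, ← MonoidHom.range_eq_map, Subgroup.range_subtype]
    rw [← h7] at h6
    obtain ⟨y, hy, e⟩ := h6
    have : y = ⟨x, hx⟩ := Subtype.ext e
    rwa [← this]
  rw [not_nontrivial_iff_subsingleton] at h4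
  rw [eq_bot_iff]
  intro x hx
  have : x = 1 := congrArg Subtype.val (h4.elim ⟨x, hx⟩ (1 : P))
  rw [this]; exact one_mem _

/-- No perfect group acts faithfully on a two-dimensional factor over the field with three elements. -/
lemma not_three_two [Fintype F] [Nonempty ι] (hF : Fintype.card F = 3) {φ : Matrix (Fin 2) (Fin 2) F →ₐ[F] Matrix ι ι F}
    (hinj : Function.Injective φ) {P : Subgroup (GL ι F)} (hr : φ.range = env P) (hP : ⁅P, P⁆ = P) (hns : ¬ P ≤ scalars ι F) : False := by
  classical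
  have h1 : (facGrp φ P).map (Units.map (φ : Matrix (Fin 2) (Fin 2) F →* Matrix ι ι F)) = P := by
    ext x
    constructor
    · rintro ⟨a, ha, rfl⟩
      exact ha
    · intro hx
      obtain ⟨a, ha, e⟩ := exists_facGrp hinj hr hx
      exact ⟨a, ha, Units.ext e.symm⟩
  have h2 : Nat.card P = Nat.card (facGrp φ P) := by
    conv_lhs => rw [← h1]
    exact (Nat.card_congr (Subgroup.equivMapOfInjective (facGrp φ P)
      (Units.map (φ : Matrix (Fin 2) (Fin 2) F →* Matrix ι ι F)) (by
        intro u v huv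
        apply Units.ext
        exact hinj (congrArg (fun w : GL ι F => (w : Matrix ι ι F)) huv))).toEquiv).symm
  have h3 : Nat.card (GL (Fin 2) F) = 2 ^ 4 * 3 ^ 1 := by
    rw [Matrix.card_GL_field, Fin.prod_univ_two, hF]
    norm_num
  have h4 : Nat.card P ∣ 2 ^ 4 * 3 ^ 1 := by rw [h2, ← h3]; exact Subgroup.card_subgroup_dvd_card _
  obtain ⟨x, y, hx, hy, e⟩ := (Nat.dvd_mul.1 h4)
  obtain ⟨a, -, rfl⟩ := (Nat.dvd_prime_pow Nat.prime_two).1 hx
  obtain ⟨b, -, rfl⟩ := (Nat.dvd_prime_pow Nat.prime_three).1 hy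
  haveI : Finite (Matrix ι ι F) := inferInstanceAs (Finite (ι → ι → F))
  apply hns
  rw [eq_bot_of_perfect hP e.symm]
  exact bot_le

/-- The tensor power structure from the Gram matrix. -/
lemma power_structure [Fintype F] {G : Matrix ι ι F} {d t : ℕ} {ρ : ι ≃ (Fin t → Fin d)} {B : GL ι F} {X : Matrix (Fin d) (Fin d) F} {c : F}
    (hc : c ≠ 0) (hG : gr (RingEquiv.refl F) G B = c • Matrix.reindex ρ.symm ρ.symm (tp (fun _ : Fin t => X))) :
    IsTensorPowerFormStructure id (bf (RingEquiv.refl F) G) (bf (RingEquiv.refl F) X) ρ B := by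
  refine ⟨c, hc, fun x y => ?_⟩
  rw [gram_bf, bf_gr, hG]
  have h1 : bf (RingEquiv.refl F) (c • Matrix.reindex ρ.symm ρ.symm (tp (fun _ : Fin t => X))) (x ∘ ρ) (y ∘ ρ) =
      c * bf (RingEquiv.refl F) (Matrix.reindex ρ.symm ρ.symm (tp (fun _ : Fin t => X))) (x ∘ ρ) (y ∘ ρ) := by
    rw [bf_rf, bf_rf, Matrix.smul_mulVec, dotProduct_smul, smul_eq_mul]
  rw [h1, bf_reindex]
  rfl

end gen

section sp
variable {F : Type*} [Field F] [Fintype F] {m : ℕ}

/-- Several commuting components. -/
theorem spcase_comp (hm : 1 ≤ m) {H : Subgroup (GL (Fin m ⊕ Fin m) F)} (hI : H ≤ spGL m F) {t : ℕ}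
    {P : Fin t → Subgroup (GL (Fin m ⊕ Fin m) F)} (hc : CompData H P) : SpCase m H := by
  classical
  haveI : Nonempty (Fin m ⊕ Fin m) := ⟨Sum.inl ⟨0, by omega⟩⟩
  have hI' : ∀ g ∈ H, IsIso (RingEquiv.refl F) (Matrix.J (Fin m) F) g := fun g hg => mem_sp.1 (hI hg)
  have hPH : (⨆ i, P i) ≤ H := iSup_le hc.le
  have ht := hc.two_le
  obtain ⟨d, ρ, B, X, c, i₀, φ, hd, hle, hc0, hXu, hXs, hG, hinj, hr, hinv⟩ := comp_common rfJ hc hI'
  have hcard : d ^ t = m + m := by
    have := Fintype.card_congr ρ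
    rw [Fintype.card_fun, Fintype.card_fin, Fintype.card_fin, Fintype.card_sum, Fintype.card_fin] at this
    exact this.symm
  haveI : Nonempty (Fin d) := ⟨⟨0, by omega⟩⟩
  by_cases h2 : (2 : F) = 0
  · set L := ⨆ i, P i with hL
    have hLI := hPH.trans hI
    have hLirr := hc.absIrred.1
    obtain ⟨s, rfl⟩ : ∃ s, t = s + 2 := ⟨t - 2, by omega⟩
    have he2 : 2 ≤ d ^ (s + 1) := hd.trans (Nat.le_self_pow (by omega) d)
    have ρ₂ : (Fin m ⊕ Fin m) ≃ Fin d × Fin (d ^ (s + 1)) := Fintype.equivOfCardEq (by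
      rw [Fintype.card_prod, Fintype.card_fin, Fintype.card_fin, Fintype.card_sum, Fintype.card_fin, ← hcard, pow_succ' d (s + 1)])
    have hA : AdjClosed (RingEquiv.refl F) (Matrix.J (Fin m) F) φ.range := by
      rw [hr]
      exact adjClosed_env rfJ (fun g hg => hI' g (hc.le i₀ hg)) le_sup_left
    have hnorm : L ≤ subalgebraNormalizer φ.range := by
      rw [hr, hL, iSup_le_iff]
      intro j
      by_cases hj : j = i₀
      · rw [hj]; exact AschDescent.self_le_env _
      · apply le_subalgebraNormalizer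
        intro g hg k hk
        have h3 := commute_env_env (X := P j) (Y := P i₀) (fun x hx y hy => hc.comm j i₀ hj x hx y hy) g (mem_env hg) k hk
        rw [cj_apply, h3, mul_assoc, gl_mul_inv, mul_one]
        exact hk
    obtain ⟨Q, hQ, hle'⟩ := exists_tensorProductSubgroup (by omega) (AlgEquiv.ofInjective φ hinj) ρ₂
    obtain ⟨G₁, G₂, hG', h1, h1'⟩ := tensor_gram rfJ hA (by omega) (by omega) (AlgEquiv.ofInjective φ hinj) ρ₂ Q hQ
    have hrf := (rfJ (F := F) (m := m)).gr Q |>.refl
    rw [hG', map_rf] at hrf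
    have hs := signs (Or.inr rfl) (by omega) (by omega) h1 h1' hrf
    rw [neg_smul, one_smul, neg_neg, one_smul] at hs
    have hs' : G₁ᵀ = G₁ ∧ G₂ᵀ = G₂ := by
      rcases hs with ⟨a, b⟩ | ⟨a, b⟩
      · exact ⟨a, by rw [b, neg_mat_of_two h2]⟩
      · exact ⟨by rw [a, neg_mat_of_two h2], b⟩
    obtain ⟨x, hx, hxL⟩ := tensor_even h2 hLI hLirr hd he2 (hnorm.trans hle') hG' h1 h1' hs'.1 hs'.2
    refine spcase_quad hm h2 hLirr hI (normBy_iSup_comp hc) (qx_nondeg h2 hx) (qx_polar h2 hx) ?_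
    intro g hg v
    rw [qx_gl (hLI hg), hxL g⁻¹ (L.inv_mem hg)]
  · have hrf := (rfJ (F := F) (m := m)).gr B |>.refl
    rw [hG, map_rf, Matrix.transpose_smul, smul_comm (-1 : F) c] at hrf
    have hrf2 := smul_right_injective _ hc0 hrf
    have hrf3 : (tp (fun _ : Fin t => X))ᵀ = (-1 : F) • tp (fun _ : Fin t => X) := by
      apply (Matrix.reindex ρ.symm ρ.symm).injective
      exact hrf2
    rw [tp_transpose] at hrf3
    have hKu : IsUnit (tp (fun _ : Fin t => X)) := by
      have e1 : tp (fun _ : Fin t => X) * tp (fun _ : Fin t => X⁻¹) = 1 := by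
        rw [tp_mul, ← tp_one]
        congr 1
        funext i
        exact Matrix.mul_nonsing_inv _ ((Matrix.isUnit_iff_isUnit_det _).1 hXu)
      exact IsUnit.of_mul_eq_one _ e1
    haveI : Nonempty (Fin t → Fin d) := ⟨fun _ => Classical.arbitrary _⟩
    have hKne : tp (fun _ : Fin t => X) ≠ 0 := hKu.ne_zero
    have hXneg : Xᵀ = -X := by
      rcases hXs with h3 | h3
      · exfalso
        rw [h3] at hrf3
        have h4 : (2 : F) • tp (fun _ : Fin t => X) = 0 := by
          rw [two_smul]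
          conv_lhs => lhs; rw [hrf3]
          rw [neg_smul, one_smul, neg_add_cancel]
        rcases smul_eq_zero.1 h4 with h5 | h5
        · exact h2 h5
        · exact hKne h5
      · exact h3
    have hodd : Odd t := by
      rw [hXneg, tp_neg] at hrf3
      have h4 : ((-1 : F) ^ t - (-1)) • tp (fun _ : Fin t => X) = 0 := by rw [sub_smul, hrf3, sub_self]
      rcases smul_eq_zero.1 h4 with h5 | h5
      · by_contra hcon
        rw [Nat.not_odd_iff_even] at hcon
        rw [hcon.neg_one_pow] at h5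
        apply h2
        linear_combination h5
      · exact absurd h5 hKne
    have hdiag : ∀ i, X i i = 0 := by
      intro i
      have h3 : X i i = - X i i := congrFun (congrFun hXneg i) i
      have h4 : (2 : F) * X i i = 0 := by linear_combination h3
      exact (mul_eq_zero.1 h4).resolve_left h2
    refine SpCase.c7 d t ρ B (bf (RingEquiv.refl F) X) (odd_of_two_ne h2) hodd ?_ hd ?_ hcard (symp_form hXu hXneg hdiag)
      (power_structure hc0 hG) hle
    · obtain ⟨k, hk⟩ := hodd
      omega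
    · rintro ⟨hF3, rfl⟩
      exact not_three_two hF3 hinj hr (hc.perfect i₀) (hc.nonscalar i₀)

end sp

end Cfsg.Agent.Lib.AschSp
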