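import Cfsg.Agent.Lib.AschSp7
set_option autoImplicit false
set_option linter.style.haveILetI false
set_option linter.unusedVariables false
set_option linter.unusedSectionVars false

/-!
Aschbacher's theorem for the symplectic groups: normalisers of 2-groups of symplectic type; good groups.
-/

namespace Cfsg.Agent.Lib.AschSp

open Cfsg Cfsg.Geo Cfsg.Agent.Lib.AschMU Cfsg.Agent.Lib.AschCore Cfsg.Agent.Lib.AschField Cfsg.Agent.Lib.AschAlg
  Cfsg.Agent.Lib.AschGroup Cfsg.Agent.Lib.AschGood Cfsg.Agent.Lib.AschAdj Cfsg.Agent.Lib.AschNonab Cfsg.Agent.Lib.AschTensor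
  Cfsg.Agent.Lib.AschComp
open Cfsg.Agent.Lib.AschDescent (env mem_env)
open scoped Matrix MatrixGroups Kronecker

section vec
variable {ι : Type} [Fintype ι] [DecidableEq ι] {F : Type*} [Field F]

/-- A commutative algebra in which `b ^ q = b` has a vector with trivial annihilator. -/
theorem exists_cyclic {B : Subalgebra F (Matrix ι ι F)} (hcomm : ∀ a ∈ B, ∀ b ∈ B, a * b = b * a) {q : ℕ} (hq : 2 ≤ q)
    (hpow : ∀ b ∈ B, b ^ q = b) : ∃ x : ι → F, ∀ b ∈ B, b *ᵥ x = 0 → b = 0 := by
  classical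
  -- the annihilator of a vector
  let ann : (ι → F) → Submodule F (Matrix ι ι F) := fun x =>
    { carrier := {b | b ∈ B ∧ b *ᵥ x = 0}
      add_mem' := fun {a b} ha hb => ⟨B.add_mem ha.1 hb.1, by rw [Matrix.add_mulVec, ha.2, hb.2, add_zero]⟩
      zero_mem' := ⟨B.zero_mem, Matrix.zero_mulVec _⟩
      smul_mem' := fun c b hb => ⟨B.smul_mem hb.1 c, by rw [Matrix.smul_mulVec, hb.2, smul_zero]⟩ }
  have hann : ∀ x b, b ∈ ann x ↔ b ∈ B ∧ b *ᵥ x = 0 := fun _ _ => Iff.rfl
  have hmin : ∃ x : ι → F, ∀ y : ι → F, Module.finrank F (ann x) ≤ Module.finrank F (ann y) := by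
    have hne : (Set.range fun x => Module.finrank F (ann x)).Nonempty := ⟨_, 0, rfl⟩
    obtain ⟨x, hx⟩ := Nat.sInf_mem hne
    exact ⟨x, fun y => by
      have hx' : Module.finrank F (ann x) = sInf (Set.range fun x => Module.finrank F (ann x)) := hx
      rw [hx']; exact Nat.sInf_le ⟨y, rfl⟩⟩
  obtain ⟨x, hx⟩ := hmin
  refine ⟨x, fun b hb hbx => ?_⟩
  by_contra hb0
  set e := b ^ (q - 1) with he
  have heB : e ∈ B := B.pow_mem hb _
  have hbe : b * e = b := by
    rw [he, ← pow_succ', Nat.sub_add_cancel (by omega)]; exact hpow b hb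
  have hee : e * e = e := by
    have h1 : e * e = b ^ (q - 2) * (b * e) := by
      rw [← mul_assoc, ← pow_succ, show q - 2 + 1 = q - 1 by omega]
    rw [h1, hbe, ← pow_succ, show q - 2 + 1 = q - 1 by omega]
  have he0 : e ≠ 0 := by
    intro h
    rw [h, mul_zero] at hbe
    exact hb0 hbe.symm
  have hex : e *ᵥ x = 0 := by
    have : e = b ^ (q - 2) * b := by rw [← pow_succ, show q - 2 + 1 = q - 1 by omega]
    rw [this, ← Matrix.mulVec_mulVec, hbx, Matrix.mulVec_zero]
  obtain ⟨y, hy⟩ : ∃ y, e *ᵥ y ≠ 0 := by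
    by_contra hcon
    push Not at hcon
    apply he0
    apply Matrix.toLin'.injective
    ext y i
    have := hcon (Pi.single y 1)
    simpa using congrFun this i
  have hlt : ann (x + e *ᵥ y) < ann x := by
    refine lt_of_le_of_ne ?_ ?_
    · intro c hc
      rw [hann] at hc ⊢
      refine ⟨hc.1, ?_⟩
      have h1 : (1 - e) *ᵥ (c *ᵥ (x + e *ᵥ y)) = 0 := by rw [hc.2, Matrix.mulVec_zero]
      rw [Matrix.mulVec_mulVec, Matrix.mulVec_add, Matrix.mulVec_mulVec] at h1
      have h2 : (1 - e) * c = c * (1 - e) := by rw [sub_mul, mul_sub, one_mul, mul_one, hcomm e heB c hc.1]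
      rw [h2, mul_assoc, sub_mul, one_mul, hee, sub_self, mul_zero, Matrix.zero_mulVec, add_zero, ← Matrix.mulVec_mulVec,
        Matrix.sub_mulVec, Matrix.one_mulVec, hex, sub_zero] at h1
      exact h1
    · intro h
      have h1 : e ∈ ann x := (hann _ _).2 ⟨heB, hex⟩
      rw [← h, hann, Matrix.mulVec_add, hex, zero_add, Matrix.mulVec_mulVec, hee] at h1
      exact hy h1.2
  exact absurd (Submodule.finrank_lt_finrank_of_lt hlt) (not_lt.2 (hx _))

end vec

section adjinv
variable {F : Type*} [Field F] [Fintype F] {m : ℕ}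

/-- The envelope of an elementary abelian group of isometries. -/
lemma env_props (hm : 1 ≤ m) (hodd : Odd (Fintype.card F)) {A : Subgroup (GL (Fin m ⊕ Fin m) F)} (hA : A ≤ spGL m F)
    (hcomm : ∀ a ∈ A, ∀ b ∈ A, a * b = b * a) (hsq : ∀ a ∈ A, a * a = 1) :
    (∀ a ∈ env A, ∀ b ∈ env A, a * b = b * a) ∧ (∀ b ∈ env A, b ^ Fintype.card F = b) ∧
    (∀ b ∈ env A, adj (RingEquiv.refl F) (Matrix.J (Fin m) F) b = b) := by
  haveI : Nonempty (Fin m ⊕ Fin m) := ⟨Sum.inl ⟨0, by omega⟩⟩
  have h1 : ∀ a ∈ env A, ∀ b ∈ env A, a * b = b * a := by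
    intro a ha b hb
    have : Commute a b := by
      apply Algebra.commute_of_mem_adjoin_of_forall_mem_commute (s := matrixSet A) (R := F) hb
      rintro _ ⟨y, hy, rfl⟩
      apply Commute.symm
      apply Algebra.commute_of_mem_adjoin_of_forall_mem_commute (s := matrixSet A) (R := F) ha
      rintro _ ⟨x, hx, rfl⟩
      show (y : Matrix (Fin m ⊕ Fin m) (Fin m ⊕ Fin m) F) * (x : Matrix (Fin m ⊕ Fin m) (Fin m ⊕ Fin m) F) = _
      rw [← Units.val_mul, hcomm y hy x hx, Units.val_mul]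
    exact this
  refine ⟨h1, ?_, ?_⟩
  · obtain ⟨p, hchar⟩ := CharP.exists F
    obtain ⟨e, hp, hcard⟩ := FiniteField.card F p
    haveI : Fact p.Prime := ⟨hp⟩
    haveI : CharP (Matrix (Fin m ⊕ Fin m) (Fin m ⊕ Fin m) F) p := inferInstance
    intro b hb
    induction hb using Algebra.adjoin_induction with
    | mem x hx =>
      obtain ⟨a, ha, rfl⟩ := hx
      obtain ⟨k, hk⟩ := hodd
      rw [hk, pow_succ, pow_mul, pow_two]
      have : (a : Matrix (Fin m ⊕ Fin m) (Fin m ⊕ Fin m) F) * (a : Matrix (Fin m ⊕ Fin m) (Fin m ⊕ Fin m) F) = 1 := by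
        rw [← Units.val_mul, hsq a ha, Units.val_one]
      rw [this, one_pow, one_mul]
    | algebraMap r => rw [← map_pow, FiniteField.pow_card]
    | add x y hx hy ihx ihy =>
      rw [hcard] at ihx ihy ⊢
      rw [add_pow_char_pow_of_commute p _ (show Commute x y from h1 x hx y hy), ihx, ihy]
    | mul x y hx hy ihx ihy =>
      rw [(show Commute x y from h1 x hx y hy).mul_pow, ihx, ihy]
  · intro b hb
    induction hb using Algebra.adjoin_induction with
    | mem x hx =>
      obtain ⟨a, ha, rfl⟩ := hx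
      rw [adj_gl rfJ (mem_sp.1 (hA ha))]
      rw [inv_eq_of_mul_eq_one_right (hsq a ha)]
    | algebraMap r =>
      rw [Algebra.algebraMap_eq_smul_one, adj_smul, adj_one rfJ]; rfl
    | add x y hx hy ihx ihy => rw [adj_add, ihx, ihy]
    | mul x y hx hy ihx ihy =>
      rw [adj_mul rfJ, ihx, ihy, h1 y hy x hx]

/-- Elementary abelian subgroups of a symplectic 2-group of isometries are small. -/
theorem minus_type (hm : 1 ≤ m) (hodd : Odd (Fintype.card F)) {R : Subgroup (GL (Fin m ⊕ Fin m) F)} (hR : R ≤ spGL m F)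
    (habs : ActsAbsolutelyIrreducibly (matrixSet R)) (hcomm : ∀ x ∈ R, ∀ y ∈ R, x * y * x⁻¹ * y⁻¹ ∈ scalars (Fin m ⊕ Fin m) F)
    {k : ℕ} (hk : m + m = 2 ^ k) : IsOfMinusType k R := by
  classical
  haveI : Nonempty (Fin m ⊕ Fin m) := ⟨Sum.inl ⟨0, by omega⟩⟩
  intro A hAc hsq
  by_contra hcon
  rw [not_lt] at hcon
  set A' := A.map R.subtype with hA'
  have hA'R : A' ≤ R := Subgroup.map_subtype_le A
  have hc' : ∀ a ∈ A', ∀ b ∈ A', a * b = b * a := by
    rintro _ ⟨a, ha, rfl⟩ _ ⟨b, hb, rfl⟩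
    have := hAc.is_comm.comm ⟨a, ha⟩ ⟨b, hb⟩
    exact congrArg (fun z : A => ((z : R) : GL (Fin m ⊕ Fin m) F)) this
  have hs' : ∀ a ∈ A', a * a = 1 := by
    rintro _ ⟨a, ha, rfl⟩
    exact congrArg (fun z : R => (z : GL (Fin m ⊕ Fin m) F)) (hsq a ha)
  have hcard' : Nat.card A' = Nat.card A := Nat.card_congr (Subgroup.equivMapOfInjective A R.subtype R.subtype_injective).symm.toEquiv
  obtain ⟨h1, h2, h3⟩ := env_props hm hodd (hA'R.trans hR) hc' hs'
  -- dimension of the envelope
  have hfin : Finite A' := inferInstance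
  have hli := AschExtra.linearIndependent_of_abelian_mod_scalars habs hcomm (AschExtra.rep A')
    (fun j => hA'R (AschExtra.rep_mem A' j)) (fun j k hjk => AschExtra.rep_ne A' hjk)
  have hJ : Fintype.card (AschExtra.ProjQ A') = Nat.card (AschExtra.ProjQ A') := Fintype.card_eq_nat_card
  have hmul : Nat.card A' = Nat.card (AschExtra.ProjQ A') * Nat.card ((scalars (Fin m ⊕ Fin m) F).subgroupOf A') :=
    Subgroup.card_eq_card_quotient_mul_card_subgroup _
  have hle2 : Nat.card ((scalars (Fin m ⊕ Fin m) F).subgroupOf A') ≤ 2 := by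
    have hinj : Function.Injective (fun z : (scalars (Fin m ⊕ Fin m) F).subgroupOf A' =>
        if ((z : A') : GL (Fin m ⊕ Fin m) F) = 1 then (0 : Fin 2) else 1) := by
      intro a b hab
      have ha := AschExtra.scalar_sq_one (Subgroup.mem_subgroupOf.1 a.2) (by rw [pow_two]; exact hs' _ (a : A').2)
      have hb := AschExtra.scalar_sq_one (Subgroup.mem_subgroupOf.1 b.2) (by rw [pow_two]; exact hs' _ (b : A').2)
      apply Subtype.ext; apply Subtype.ext
      simp only at hab
      split_ifs at hab with h1 h2 h2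
      · rw [h1, h2]
      · exact absurd hab (by decide)
      · exact absurd hab (by decide)
      · rw [ha.resolve_left h1, hb.resolve_left h2]
    have := Nat.card_le_card_of_injective _ hinj
    rwa [Nat.card_fin] at this
  have hJcard : m + m ≤ Nat.card (AschExtra.ProjQ A') := by
    rw [hk]
    have : 2 ^ (k + 1) ≤ Nat.card (AschExtra.ProjQ A') * 2 := by
      calc 2 ^ (k + 1) ≤ Nat.card A := hcon
        _ = Nat.card (AschExtra.ProjQ A') * Nat.card ((scalars (Fin m ⊕ Fin m) F).subgroupOf A') := by rw [← hcard', hmul]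
        _ ≤ _ := Nat.mul_le_mul_left _ hle2
    rw [pow_succ] at this
    omega
  obtain ⟨x, hx⟩ := exists_cyclic h1 (Fintype.one_lt_card (α := F)) h2
  -- evaluation at x
  let ev : (env A') →ₗ[F] (Fin m ⊕ Fin m → F) :=
    { toFun := fun b => (b : Matrix (Fin m ⊕ Fin m) (Fin m ⊕ Fin m) F) *ᵥ x
      map_add' := fun a b => Matrix.add_mulVec _ _ _
      map_smul' := fun c b => Matrix.smul_mulVec _ _ _ }
  have hinj : Function.Injective ev := by
    rw [injective_iff_map_eq_zero]
    intro b hb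
    exact Subtype.ext (hx b b.2 hb)
  have hsurj : Function.Surjective ev := by
    have hfr : Module.finrank F (env A') = Module.finrank F (Fin m ⊕ Fin m → F) := by
      apply le_antisymm
      · exact LinearMap.finrank_le_finrank_of_injective hinj
      · rw [Module.finrank_fintype_fun_eq_card, Fintype.card_sum, Fintype.card_fin]
        have hli' : LinearIndependent F (fun j : AschExtra.ProjQ A' => (⟨_, mem_env (AschExtra.rep_mem A' j)⟩ : env A')) := by
          apply LinearIndependent.of_comp (env A').val.toLinearMap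
          exact hli
        have := hli'.fintype_card_le_finrank
        omega
    exact (LinearMap.injective_iff_surjective_of_finrank_eq_finrank hfr).1 hinj
  have hzero : ∀ u v, sympForm m F u v = 0 := by
    intro u v
    obtain ⟨b, rfl⟩ := hsurj u
    obtain ⟨c, rfl⟩ := hsurj v
    show sympForm m F ((b : Matrix (Fin m ⊕ Fin m) (Fin m ⊕ Fin m) F) *ᵥ x) ((c : Matrix (Fin m ⊕ Fin m) (Fin m ⊕ Fin m) F) *ᵥ x) = 0
    rw [sp_adj, h3 b b.2, Matrix.mulVec_mulVec]
    have h4 : sympForm m F x (((b : Matrix (Fin m ⊕ Fin m) (Fin m ⊕ Fin m) F) * (c : Matrix (Fin m ⊕ Fin m) (Fin m ⊕ Fin m) F)) *ᵥ x) =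
        - sympForm m F x (((b : Matrix (Fin m ⊕ Fin m) (Fin m ⊕ Fin m) F) * (c : Matrix (Fin m ⊕ Fin m) (Fin m ⊕ Fin m) F)) *ᵥ x) := by
      conv_lhs => rw [sp_swap, sp_adj, h3 _ ((env A').mul_mem b.2 c.2)]
    have h5 : (2 : F) * sympForm m F x (((b : Matrix (Fin m ⊕ Fin m) (Fin m ⊕ Fin m) F) * (c : Matrix (Fin m ⊕ Fin m) (Fin m ⊕ Fin m) F)) *ᵥ x) = 0 := by
      linear_combination h4
    exact (mul_eq_zero.1 h5).resolve_left (two_ne_of_odd hodd)
  have hne : (Pi.single (Sum.inl ⟨0, by omega⟩) 1 : Fin m ⊕ Fin m → F) ≠ 0 := by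
    intro h
    have := congrFun h (Sum.inl ⟨0, by omega⟩)
    simp at this
  obtain ⟨⟨u, hu⟩, -⟩ := sp_nondeg (F := F) (m := m) _ hne
  exact hu (hzero _ _)

/-- The symplectic-type case. -/
theorem spcase_symp (hm : 1 ≤ m) {H N R : Subgroup (GL (Fin m ⊕ Fin m) F)} {r k : ℕ} (hI : H ≤ spGL m F) (hRH : R ≤ H)
    (hD : AschExtra.IsSympData H N R r k) : SpCase m H := by
  classical
  haveI : Nonempty (Fin m ⊕ Fin m) := ⟨Sum.inl ⟨0, by omega⟩⟩
  obtain ⟨p, hchar⟩ := CharP.exists F
  obtain ⟨e, hp, hcard⟩ := FiniteField.card F p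
  have he : 0 < (e : ℕ) := e.pos
  generalize (e : ℕ) = e at *
  have hr := hD.sympType.prime
  have hRinv : ∀ g ∈ H, ∀ x ∈ R, g * x * g⁻¹ ∈ R := hD.inv
  rcases AschExtra.minimal_or_subfield hD.absIrr hD.comm hp hchar hcard with hmin | ⟨F₀, hF₀, hreal⟩
  swap
  · exact spcase_real hm hD.absIrr (hRH.trans hI) hRinv hF₀ hreal
  have hnorm : H ≤ subgroupNormalizer R := by
    intro g hg
    show g ∈ Subgroup.normalizer (R : Set (GL (Fin m ⊕ Fin m) F))
    rw [Subgroup.mem_normalizer_iff]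
    intro x
    constructor
    · exact fun hx => hD.inv g hg x hx
    · intro hx
      have := hD.inv g⁻¹ (inv_mem hg) _ hx
      have h2 : g⁻¹ * (g * x * g⁻¹) * g⁻¹⁻¹ = x := by group
      rwa [h2] at this
  have hzdvd := hmin.2.2.2.1
  have hzmin := hmin.2.2.2.2
  -- the centre
  have hz2 : Nat.card (Subgroup.center R) ≤ 2 := by
    have hsc : ∀ z : Subgroup.center R, ((z : R) : GL (Fin m ⊕ Fin m) F) = 1 ∨ ((z : R) : GL (Fin m ⊕ Fin m) F) = -1 := by
      intro z
      have h1 : ((z : R) : GL (Fin m ⊕ Fin m) F) ∈ scalars (Fin m ⊕ Fin m) F := by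
        have h0 : (z : R) ∈ (scalars (Fin m ⊕ Fin m) F).subgroupOf R := by
          rw [← AschExtra.center_eq hD.absIrr]; exact z.2
        exact Subgroup.mem_subgroupOf.1 h0
      apply AschExtra.scalar_sq_one h1
      obtain ⟨c, hc⟩ := (mem_scalars_iff _).1 h1
      have h2 := hI (hRH (z : R).2)
      have hne : (Pi.single (Sum.inl ⟨0, by omega⟩) 1 : Fin m ⊕ Fin m → F) ≠ 0 := by
        intro h
        have := congrFun h (Sum.inl ⟨0, by omega⟩)
        simp at this
      obtain ⟨⟨u, hu⟩, -⟩ := sp_nondeg (F := F) (m := m) _ hne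
      have h3 : sympForm m F ((((z : R) : GL (Fin m ⊕ Fin m) F) : Matrix (Fin m ⊕ Fin m) (Fin m ⊕ Fin m) F) *ᵥ u)
          ((((z : R) : GL (Fin m ⊕ Fin m) F) : Matrix (Fin m ⊕ Fin m) (Fin m ⊕ Fin m) F) *ᵥ (Pi.single (Sum.inl ⟨0, by omega⟩) 1)) =
          sympForm m F u (Pi.single (Sum.inl ⟨0, by omega⟩) 1) := h2 u (Pi.single (Sum.inl ⟨0, by omega⟩) 1)
      rw [hc, Matrix.smul_mulVec, Matrix.smul_mulVec, Matrix.one_mulVec, Matrix.one_mulVec, SympAux.sympForm_smul_left,
        SympAux.sympForm_smul_right, ← mul_assoc] at h3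
      have h4 : (c : F) * c = 1 := mul_right_cancel₀ hu (by rw [h3, one_mul])
      apply Units.ext
      rw [pow_two, Units.val_mul, hc, Matrix.smul_mul, Matrix.one_mul, smul_smul, h4, one_smul, Units.val_one]
    have hinj : Function.Injective (fun z : Subgroup.center R =>
        if ((z : R) : GL (Fin m ⊕ Fin m) F) = 1 then (0 : Fin 2) else 1) := by
      intro a b hab
      apply Subtype.ext; apply Subtype.ext
      simp only at hab
      split_ifs at hab with h1 h2 h2
      · rw [h1, h2]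
      · exact absurd hab (by decide)
      · exact absurd hab (by decide)
      · rw [(hsc a).resolve_left h1, (hsc b).resolve_left h2]
    have := Nat.card_le_card_of_injective _ hinj
    rwa [Nat.card_fin] at this
  have hr2 : r = 2 ∧ Nat.card (Subgroup.center R) = 2 := by
    have := hr.two_le
    rcases hD.center with h | ⟨h, h'⟩
    · omega
    · omega
  obtain ⟨rfl, hz⟩ := hr2
  rw [hz] at hzdvd hzmin
  have hpodd : Odd p := by
    rcases hp.eq_two_or_odd' with h2 | h2
    · exfalso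
      subst h2
      have h3 : 2 ∣ 2 ^ e := dvd_pow_self 2 he.ne'
      have h4 : 1 ≤ 2 ^ e := Nat.one_le_two_pow
      omega
    · exact h2
  have he1 : e = 1 := by
    by_contra hne
    apply hzmin 1 one_pos (by omega)
    obtain ⟨j, hj⟩ := hpodd
    rw [pow_one]
    exact ⟨j, by omega⟩
  subst he1
  have hk : m + m = 2 ^ k := by
    have := hD.card_ι
    rwa [Fintype.card_sum, Fintype.card_fin] at this
  rw [pow_one] at hcard
  have hFodd : Odd (Fintype.card F) := by rw [hcard]; exact hpodd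
  refine SpCase.c6 R p k hD.sympType hD.absIrr (hRH.trans hI) hp hpodd hcard ?_ hk hz
    (minus_type hm hFodd (hRH.trans hI) hD.absIrr hD.comm hk) hnorm
  rw [hD.card_R, hz, hD.card_ι, ← pow_mul, ← pow_succ]
  congr 1; ring

end adjinv

end Cfsg.Agent.Lib.AschSp
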