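import Cfsg.Agent.Lib.AschSp8
set_option autoImplicit false
set_option linter.style.haveILetI false
set_option linter.unusedVariables false
set_option linter.unusedSectionVars false

/-!
Aschbacher's theorem for the symplectic groups: good groups; the list of cases is complete.
-/

namespace Cfsg.Agent.Lib.AschSp

open Cfsg Cfsg.Geo Cfsg.Agent.Lib.AschMU Cfsg.Agent.Lib.AschCore Cfsg.Agent.Lib.AschField Cfsg.Agent.Lib.AschAlg
  Cfsg.Agent.Lib.AschGroup Cfsg.Agent.Lib.AschGood Cfsg.Agent.Lib.AschAdj Cfsg.Agent.Lib.AschNonab Cfsg.Agent.Lib.AschTensor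
  Cfsg.Agent.Lib.AschComp
open Cfsg.Agent.Lib.AschDescent (env mem_env)
open scoped Matrix MatrixGroups Kronecker commutatorElement

section real
variable {ι : Type} [Fintype ι] [DecidableEq ι] {F : Type*} [Field F]

/-- A perfect subgroup of a subfield group is realisable over the subfield. -/
theorem realisable_of_perfect {F₀ : Subfield F} {Q : GL ι F} {P : Subgroup (GL ι F)} (hP : ⁅P, P⁆ = P)
    (hle : P ≤ subfieldSubgroup F₀ Q) : RealisableOver F₀ (matrixSet P) := by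
  have hmem : ∀ x ∈ P, ∃ a ∈ (Matrix.GeneralLinearGroup.map (n := ι) (F₀.subtype : F₀ →+* F)).range, ∃ z ∈ scalars ι F,
      x = Q * (a * z) * Q⁻¹ := by
    intro x hx
    obtain ⟨y, hy, rfl⟩ := hle hx
    have hy' : y ∈ (((Matrix.GeneralLinearGroup.map (F₀.subtype : F₀ →+* F)).range ⊔ scalars ι F : Subgroup (GL ι F)) : Set (GL ι F)) := hy
    rw [Subgroup.mul_normal] at hy'
    obtain ⟨a, ha, s, hs, rfl⟩ := hy'
    exact ⟨a, ha, s, hs, rfl⟩
  have hle2 : P ≤ ((Matrix.GeneralLinearGroup.map (n := ι) (F₀.subtype : F₀ →+* F)).range).map (MulAut.conj Q).toMonoidHom := by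
    conv_lhs => rw [← hP]
    rw [Subgroup.commutator_le]
    intro x hx y hy
    obtain ⟨a, ha, z, hz, rfl⟩ := hmem x hx
    obtain ⟨b, hb, w, hw, rfl⟩ := hmem y hy
    have hz' : ∀ g, z * g = g * z := fun g => AschExtra.scalar_comm hz g
    have hw' : ∀ g, w * g = g * w := fun g => AschExtra.scalar_comm hw g
    refine ⟨a * b * a⁻¹ * b⁻¹, mul_mem (mul_mem (mul_mem ha hb) (inv_mem ha)) (inv_mem hb), ?_⟩
    show Q * (a * b * a⁻¹ * b⁻¹) * Q⁻¹ = _
    rw [commutatorElement_def]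
    have h1 : (a * z) * (b * w) * (a * z)⁻¹ * (b * w)⁻¹ = a * b * a⁻¹ * b⁻¹ := by
      calc (a * z) * (b * w) * (a * z)⁻¹ * (b * w)⁻¹ = a * (z * (b * w)) * z⁻¹ * a⁻¹ * w⁻¹ * b⁻¹ := by group
        _ = a * b * (w * a⁻¹) * w⁻¹ * b⁻¹ := by rw [hz' (b * w)]; group
        _ = _ := by rw [hw' a⁻¹]; group
    rw [← h1]; group
  refine ⟨Q⁻¹, ?_⟩
  rintro _ ⟨x, hx, rfl⟩ i j
  obtain ⟨t, ⟨a, rfl⟩, rfl⟩ := hle2 hx
  have h2 : (((Q⁻¹ : GL ι F) : Matrix ι ι F)) * (((MulAut.conj Q).toMonoidHom (Matrix.GeneralLinearGroup.map (F₀.subtype : F₀ →+* F) a) : GL ι F) : Matrix ι ι F) *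
      ((Q⁻¹⁻¹ : GL ι F) : Matrix ι ι F) = ((Matrix.GeneralLinearGroup.map (F₀.subtype : F₀ →+* F) a : GL ι F) : Matrix ι ι F) := by
    rw [← Units.val_mul, ← Units.val_mul]
    congr 1
    show Q⁻¹ * (Q * _ * Q⁻¹) * Q⁻¹⁻¹ = _
    group
  show ((((Q⁻¹ : GL ι F) : Matrix ι ι F)) * (((MulAut.conj Q).toMonoidHom (Matrix.GeneralLinearGroup.map (F₀.subtype : F₀ →+* F) a) : GL ι F) : Matrix ι ι F) *
      ((Q⁻¹⁻¹ : GL ι F) : Matrix ι ι F)) i j ∈ F₀
  rw [h2]
  exact ((a : Matrix ι ι F₀) i j).2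

end real

section good
variable {F : Type*} [Field F] [Fintype F] {m : ℕ}

lemma mem_sp_gram {g : GL (Fin m ⊕ Fin m) F} (hg : g ∈ spGL m F) :
    (g : Matrix (Fin m ⊕ Fin m) (Fin m ⊕ Fin m) F)ᵀ * Matrix.J (Fin m) F * (g : Matrix (Fin m ⊕ Fin m) (Fin m ⊕ Fin m) F) = Matrix.J (Fin m) F := by
  have := iso_gram rfJ (mem_sp.1 hg)
  rwa [map_rf] at this

/-- An absolutely irreducible subgroup fixing a quadratic form. -/
theorem spcase_fixquad (hm : 1 ≤ m) {H P : Subgroup (GL (Fin m ⊕ Fin m) F)} (hI : H ≤ spGL m F) (hPH : P ≤ H) (hnorm : NormBy H P)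
    (habs : ActsAbsolutelyIrreducibly (matrixSet P)) {Q : (Fin m ⊕ Fin m → F) → F} (hQ : IsNondegenerateQuadraticForm Q)
    (hfix : FixesQuadForm (matrixSet P) Q) : SpCase m H := by
  classical
  haveI : Nonempty (Fin m ⊕ Fin m) := ⟨Sum.inl ⟨0, by omega⟩⟩
  have hs := AschForms.isSesq_of_bilinear hQ.polar_bilinear
  have hu := hs.isUnit_gram hQ.nondegenerate
  have hpf := AschLinear.fixes_polar hfix
  obtain ⟨c, hc⟩ := uniq' habs (X := Matrix.J (Fin m) F) (Y := gramMatrix (QuadraticMap.polar Q)) (fun s hs' => mem_sp_gram (hI (hPH hs')))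
    (fun s hs' => by
      have h1 := (hs.fixes_iff (s : Matrix (Fin m ⊕ Fin m) (Fin m ⊕ Fin m) F)).1 (fun u v => hpf _ ⟨s, hs', rfl⟩ u v)
      have h2 : (s : Matrix (Fin m ⊕ Fin m) (Fin m ⊕ Fin m) F).map (RingHom.id F) = (s : Matrix (Fin m ⊕ Fin m) (Fin m ⊕ Fin m) F) := by ext; rfl
      rwa [h2] at h1) (rfJ (F := F) (m := m)).unit
  have hc0 : c ≠ 0 := by
    rintro rfl
    rw [zero_smul] at hc
    rw [hc] at hu
    exact not_isUnit_zero hu
  have hpol : ∀ u v, QuadraticMap.polar Q u v = c * sympForm m F u v := by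
    intro u v
    rw [hs.eq_gram, hc, symp_eq, bf_rf, Matrix.smul_mulVec, dotProduct_smul]
    rfl
  have hsymm : ∀ u v, QuadraticMap.polar Q u v = QuadraticMap.polar Q v u := fun u v => QuadraticMap.polar_comm Q u v
  have h2 : (2 : F) = 0 := by
    by_contra h2
    have hne : (Pi.single (Sum.inl ⟨0, by omega⟩) 1 : Fin m ⊕ Fin m → F) ≠ 0 := by
      intro h
      have := congrFun h (Sum.inl ⟨0, by omega⟩)
      simp at this
    obtain ⟨⟨u, hu'⟩, -⟩ := sp_nondeg (F := F) (m := m) _ hne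
    have h3 := hsymm u (Pi.single (Sum.inl ⟨0, by omega⟩) 1)
    rw [hpol, hpol, sp_swap (Pi.single (Sum.inl ⟨0, by omega⟩) 1) u] at h3
    have h4 : (2 : F) * c * sympForm m F u (Pi.single (Sum.inl ⟨0, by omega⟩) 1) = 0 := by linear_combination h3
    rcases mul_eq_zero.1 h4 with h5 | h5
    · exact (mul_ne_zero h2 hc0) h5
    · exact hu' h5
  -- rescale
  have hpol' : ∀ u v, QuadraticMap.polar (fun v => c⁻¹ * Q v) u v = sympForm m F u v := by
    intro u v
    have : QuadraticMap.polar (fun v => c⁻¹ * Q v) u v = c⁻¹ * QuadraticMap.polar Q u v := by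
      unfold QuadraticMap.polar; ring
    rw [this, hpol, ← mul_assoc, inv_mul_cancel₀ hc0, one_mul]
  have hpe : QuadraticMap.polar (fun v => c⁻¹ * Q v) = sympForm m F := by funext u v; exact hpol' u v
  refine spcase_quad hm h2 habs.1 hI hnorm (Q := fun v => c⁻¹ * Q v) ⟨?_, ?_, ?_⟩ hpol' ?_
  · intro a v
    show c⁻¹ * Q (a • v) = _
    rw [hQ.smul]; ring
  · rw [hpe]; exact sp_bilin
  · rw [hpe]; exact sp_nondeg
  · intro g hg v
    show c⁻¹ * Q _ = c⁻¹ * Q v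
    rw [hfix _ ⟨g, hg, rfl⟩]

/-- A perfect absolutely irreducible isometry group fixing a unitary form is realisable over a subfield. -/
theorem realisable_of_unitary (hm : 1 ≤ m) {P : Subgroup (GL (Fin m ⊕ Fin m) F)} (hI : P ≤ spGL m F)
    (habs : ActsAbsolutelyIrreducibly (matrixSet P)) (hperf : ⁅P, P⁆ = P) {σ : F ≃+* F} {f : (Fin m ⊕ Fin m → F) → (Fin m ⊕ Fin m → F) → F}
    (hf : IsUnitaryForm σ f) (hfix : FixesForm (matrixSet P) f) : ∃ F₀ : Subfield F, F₀ ≠ ⊤ ∧ RealisableOver F₀ (matrixSet P) := by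
  classical
  haveI : Nonempty (Fin m ⊕ Fin m) := ⟨Sum.inl ⟨0, by omega⟩⟩
  have hs := AschForms.isSesq_of_unitary hf
  have hu := hs.isUnit_gram hf.nondegenerate
  have hRF : RF σ 1 (gramMatrix f) := by
    refine ⟨hf.involutive, hu, ?_, Or.inl rfl⟩
    ext i j
    rw [one_smul]
    exact (hf.herm _ _).symm
  have hiso : ∀ g ∈ P, IsIso σ (gramMatrix f) g := by
    intro g hg
    apply iso_of_gram hRF
    exact (hs.fixes_iff (g : Matrix (Fin m ⊕ Fin m) (Fin m ⊕ Fin m) F)).1 (fun u v => hfix _ ⟨g, hg, rfl⟩ u v)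
  obtain ⟨Q, hQ, -⟩ := rat2_of_invariant hRF hf.ne_refl (by rw [Fintype.card_sum, Fintype.card_fin]; omega) habs hiso hiso (normBy_self P)
    (rfJ (F := F) (m := m)).unit (fun s hs' => mem_sp_gram (hI hs'))
  refine ⟨fx σ, ?_, realisable_of_perfect hperf hQ⟩
  intro htop
  obtain ⟨θ, hθ⟩ := exists_ne hf.ne_refl
  apply hθ
  have : θ ∈ fx σ := by rw [htop]; trivial
  exact this

/-- Good groups. -/
theorem spcase_good (hm : 1 ≤ m) {H : Subgroup (GL (Fin m ⊕ Fin m) F)} (hI : H ≤ spGL m F) (hgood : FGood H) : SpCase m H := by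
  classical
  haveI hne : Nonempty (Fin m ⊕ Fin m) := ⟨Sum.inl ⟨0, by omega⟩⟩
  have hcard2 : 2 ≤ Fintype.card (Fin m ⊕ Fin m) := by rw [Fintype.card_sum, Fintype.card_fin]; omega
  have hirr := hgood.irr
  have hnorm : NormBy H (H ⊔ scalars (Fin m ⊕ Fin m) F) :=
    (normBy_self H).sup (normBy_of_central scalars_le_center)
  have hns : H ⊔ scalars (Fin m ⊕ Fin m) F ≠ scalars (Fin m ⊕ Fin m) F := by
    intro h
    have hle : H ≤ scalars (Fin m ⊕ Fin m) F := by rw [← h]; exact le_sup_left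
    obtain ⟨i, j, hij⟩ := Fintype.one_lt_card_iff.1 (show 1 < Fintype.card (Fin m ⊕ Fin m) by omega)
    rcases hirr (Submodule.span F {(Pi.single i 1 : Fin m ⊕ Fin m → F)}) (by
      rintro _ ⟨g, hg, rfl⟩ _ ⟨v, hv, rfl⟩
      obtain ⟨c, hc⟩ := (mem_scalars_iff g).1 (hle hg)
      show Matrix.toLin' (g : Matrix (Fin m ⊕ Fin m) (Fin m ⊕ Fin m) F) v ∈ _
      rw [Matrix.toLin'_apply, hc, Matrix.smul_mulVec, Matrix.one_mulVec]
      exact Submodule.smul_mem _ _ hv) with h1 | h1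
    · rw [Submodule.span_singleton_eq_bot] at h1
      have := congrFun h1 i
      simp at this
    · have h2 : (Pi.single j 1 : Fin m ⊕ Fin m → F) ∈ Submodule.span F {(Pi.single i 1 : Fin m ⊕ Fin m → F)} := by rw [h1]; trivial
      rw [Submodule.mem_span_singleton] at h2
      obtain ⟨a, ha⟩ := h2
      have := congrFun ha j
      simp [hij.symm] at this
  obtain ⟨N, hNle, hN⟩ := exists_isMinOver (H := H) (K := H ⊔ scalars (Fin m ⊕ Fin m) F) le_sup_right hns hnorm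
  by_cases hab : ⁅N, N⁆ ≤ scalars (Fin m ⊕ Fin m) F
  · obtain ⟨R, r, k, hRH, hD⟩ := fabel_case hcard2 hgood hNle hN hab
    exact spcase_symp hm hI hRH hD
  · rcases fnonab_cases hgood hNle hN hab with ⟨P, hP⟩ | ⟨t, P, hP⟩
    · by_cases hre : ∃ F₀ : Subfield F, F₀ ≠ ⊤ ∧ RealisableOver F₀ (matrixSet P)
      · obtain ⟨F₀, hF₀, h⟩ := hre
        exact spcase_real hm hP.absIrred (hP.le.trans hI) hP.normal hF₀ h
      by_cases hq : ∃ Q : (Fin m ⊕ Fin m → F) → F, IsNondegenerateQuadraticForm Q ∧ FixesQuadForm (matrixSet P) Q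
      · obtain ⟨Q, hQ, hfix⟩ := hq
        exact spcase_fixquad hm hI hP.le hP.normal hP.absIrred hQ hfix
      by_cases hu : ∃ (σ : F ≃+* F) (f : (Fin m ⊕ Fin m → F) → (Fin m ⊕ Fin m → F) → F), IsUnitaryForm σ f ∧ FixesForm (matrixSet P) f
      · obtain ⟨σ, f, hf, hfix⟩ := hu
        exact absurd (realisable_of_unitary hm (hP.le.trans hI) hP.absIrred hP.perfect hf hfix) hre
      push Not at hre
      exact SpCase.res ⟨P, hP.isResidualCore hre, hq, hu⟩
    · exact spcase_comp hm hI hP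

/-- **Aschbacher's theorem, symplectic case, refined form.** -/
theorem spcase (hm : 1 ≤ m) {H : Subgroup (GL (Fin m ⊕ Fin m) F)} (hI : H ≤ spGL m F) : SpCase m H := by
  classical
  haveI hne : Nonempty (Fin m ⊕ Fin m) := ⟨Sum.inl ⟨0, by omega⟩⟩
  by_cases hirr : ActsIrreducibly (matrixSet H)
  swap
  · exact spcase_red hI hirr
  have hHI : ∀ g ∈ H, IsIso (RingEquiv.refl F) (Matrix.J (Fin m) F) g := fun g hg => mem_sp.1 (hI hg)
  rcases form_cases rfJ hHI hirr with ⟨t, e, he⟩ | ⟨r, K, hr, hrn, hK, hle, hA⟩ | ⟨A, d, e, φ, ρ, hd, he, hle, hA⟩ | hgood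
  · exact spcase_idem hI hirr he
  · exact spcase_field hm hI hr hK hle hA
  · exact spcase_tensor hm hI hirr hd he φ ρ hle hA
  · exact spcase_good hm hI hgood

end good

end Cfsg.Agent.Lib.AschSp
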