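import Cfsg.Agent.Lib.AschNonab
import Cfsg.Agent.Lib.AschReal

/-!
Aschbacher's theorem: the case of a minimal normal subgroup which is abelian modulo scalars (groups of symplectic
type).
-/

set_option autoImplicit false
set_option linter.unusedSectionVars false

namespace Cfsg.Agent.Lib.AschSymp

open Cfsg Cfsg.Geo Cfsg.Agent.Lib.AschMU Cfsg.Agent.Lib.AschCore Cfsg.Agent.Lib.AschField Cfsg.Agent.Lib.AschAlg
  Cfsg.Agent.Lib.AschDescent Cfsg.Agent.Lib.AschForm Cfsg.Agent.Lib.AschGroup Cfsg.Agent.Lib.AschGood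
  Cfsg.Agent.Lib.AschNonab Cfsg.Agent.Lib.AschReal
open scoped Matrix MatrixGroups Kronecker commutatorElement

/-! ### Class two computations -/

section ClassTwo

variable {Γ : Type*} [Group Γ]

theorem mul_pow_class_two {x y c : Γ} (hc : ∀ z : Γ, c * z = z * c) (h : y * x = c * (x * y)) (n : ℕ) :
    (x * y) ^ n = c ^ (n * (n - 1) / 2) * (x ^ n * y ^ n) := by
  have hyn : ∀ n : ℕ, y ^ n * x = c ^ n * (x * y ^ n) := by
    intro n
    induction n with
    | zero => simp
    | succ n ih =>
      have hcn : ∀ z : Γ, c ^ n * z = z * c ^ n := fun z => by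
        have : Commute c z := hc z
        exact (this.pow_left n)
      calc y ^ (n + 1) * x = y * (y ^ n * x) := by rw [pow_succ']; group
        _ = y * (c ^ n * (x * y ^ n)) := by rw [ih]
        _ = c ^ n * (y * x) * y ^ n := by
            rw [← mul_assoc y, ← hcn y]; group
        _ = c ^ n * (c * (x * y)) * y ^ n := by rw [h]
        _ = c ^ (n + 1) * (x * y ^ (n + 1)) := by rw [pow_succ c, pow_succ' y]; group
  induction n with
  | zero => simp
  | succ n ih =>
    have hcn : ∀ (k : ℕ) (z : Γ), c ^ k * z = z * c ^ k := fun k z => by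
      have : Commute c z := hc z
      exact (this.pow_left k)
    have htri : (n + 1) * (n + 1 - 1) / 2 = n * (n - 1) / 2 + n := by
      rw [Nat.add_sub_cancel]
      rcases n with _ | m
      · rfl
      · rw [Nat.add_sub_cancel]
        have h1 : (m + 1 + 1) * (m + 1) = (m + 1) * m + (m + 1) * 2 := by ring
        rw [h1, Nat.add_mul_div_right _ _ (by norm_num)]
    calc (x * y) ^ (n + 1) = (x * y) ^ n * (x * y) := pow_succ _ _
      _ = c ^ (n * (n - 1) / 2) * (x ^ n * y ^ n) * (x * y) := by rw [ih]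
      _ = c ^ (n * (n - 1) / 2) * (x ^ n * (y ^ n * x) * y) := by group
      _ = c ^ (n * (n - 1) / 2) * (x ^ n * (c ^ n * (x * y ^ n)) * y) := by rw [hyn]
      _ = c ^ (n * (n - 1) / 2) * (c ^ n * x ^ n * (x * y ^ n) * y) := by rw [← mul_assoc (x ^ n), ← hcn n]
      _ = c ^ ((n + 1) * (n + 1 - 1) / 2) * (x ^ (n + 1) * y ^ (n + 1)) := by
          rw [htri, pow_add, pow_succ x, pow_succ y]; group

end ClassTwo

variable {ι : Type} [Fintype ι] [DecidableEq ι] {F : Type*} [Field F]

/-- The scalar matrix of a unit. -/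
def sc (ι : Type) [Fintype ι] [DecidableEq ι] {F : Type*} [Field F] : Fˣ →* GL ι F :=
  Units.map (Matrix.scalar ι : F →+* Matrix ι ι F).toMonoidHom

theorem sc_val (c : Fˣ) : ((sc ι c : GL ι F) : Matrix ι ι F) = (c : F) • (1 : Matrix ι ι F) := by
  simp [sc, Matrix.smul_one_eq_diagonal]

theorem mem_scalars {z : GL ι F} : z ∈ scalars ι F ↔ ∃ c : Fˣ, sc ι c = z := Iff.rfl

theorem sc_comm (c : Fˣ) (g : GL ι F) : sc ι c * g = g * sc ι c := by
  have := Subgroup.mem_center_iff.1 (scalars_le_center (mem_scalars.2 ⟨c, rfl⟩)) g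
  exact this.symm

theorem sc_mul_val (c : Fˣ) (g : GL ι F) : ((sc ι c * g : GL ι F) : Matrix ι ι F) = (c : F) • (g : Matrix ι ι F) := by
  rw [Units.val_mul, sc_val, Matrix.smul_mul, one_mul]

theorem sc_injective [Nonempty ι] : Function.Injective (sc ι : Fˣ →* GL ι F) := by
  intro a b h
  have h1 := congrArg (fun z : GL ι F => (z : Matrix ι ι F)) h
  simp only [sc_val] at h1
  obtain ⟨o⟩ := ‹Nonempty ι›
  have h2 := congrFun (congrFun h1 o) o
  simp at h2
  exact Units.ext h2

/-- Data of a symplectic-type normal subgroup. -/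
structure SympData (H R : Subgroup (GL ι F)) (r : ℕ) : Prop where
  prime : r.Prime
  norm : NormBy H R
  absIrr : ActsAbsolutelyIrreducibly (matrixSet R)
  pow : ∀ x ∈ R, x ^ (r * Nat.gcd 2 r) = 1
  powr : ∀ x ∈ R, ∃ c : Fˣ, x ^ r = sc ι c
  comm : ∀ x ∈ R, ∀ y ∈ R, ∃ c : Fˣ, c ^ r = 1 ∧ y * x = sc ι c * (x * y)
  big : ∀ c : Fˣ, c ^ (r * Nat.gcd 2 r) = 1 → sc ι c ∈ R
  nonab : ∃ x ∈ R, ∃ y ∈ R, y * x ≠ x * y

/-- **Abelian case**: existence of the symplectic-type group. -/
theorem exists_sympData [Finite F] [Nonempty ι] {H N : Subgroup (GL ι F)} (hH : Good H)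
    (hN : IsMinOver (scalars ι F) H N) (hab : ⁅N, N⁆ ≤ scalars ι F) :
    ∃ (R : Subgroup (GL ι F)) (r : ℕ), SympData H R r ∧ R ≤ N ∧ R ⊔ scalars ι F = N := by
  classical
  have hfinM : Finite (Matrix ι ι F) := inferInstanceAs (Finite (ι → ι → F))
  have hfinGL : Finite (GL ι F) := inferInstance
  have hZ : scalars ι F ≤ Subgroup.center (GL ι F) := scalars_le_center
  have hNns : ¬ N ≤ scalars ι F := fun h => hN.ne (le_antisymm h hN.le)
  have hNai : ActsAbsolutelyIrreducibly (matrixSet N) := hH.absIrr hN.norm hNns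
  -- commutators are scalars
  have hcomm : ∀ x ∈ N, ∀ y ∈ N, ∃ c : Fˣ, y * x = sc ι c * (x * y) := by
    intro x hx y hy
    have h1 := hab (Subgroup.commutator_mem_commutator hy hx)
    obtain ⟨c, hc⟩ := mem_scalars.1 h1
    refine ⟨c, ?_⟩
    rw [hc, commutatorElement_def]; group
  -- prime exponent
  obtain ⟨r, hr, hNr⟩ : ∃ r : ℕ, r.Prime ∧ ∀ x ∈ N, ∃ c : Fˣ, x ^ r = sc ι c := by
    obtain ⟨x, hx, hxZ⟩ := Set.not_subset.1 hNns
    have hex : ∃ k : ℕ, 0 < k ∧ x ^ k ∈ scalars ι F := ⟨orderOf x, orderOf_pos x, by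
      rw [pow_orderOf_eq_one]; exact Subgroup.one_mem _⟩
    set k := Nat.find hex with hk
    obtain ⟨hkpos, hkx⟩ := Nat.find_spec hex
    rw [← hk] at hkpos hkx
    have hk1 : k ≠ 1 := by
      intro h1
      rw [h1, pow_one] at hkx
      exact hxZ hkx
    have hr := Nat.minFac_prime hk1
    set r := k.minFac with hrdef
    obtain ⟨l, hl⟩ := Nat.minFac_dvd k
    rw [← hrdef] at hl
    have hlpos : 0 < l := by
      rcases Nat.eq_zero_or_pos l with h0 | h0
      · rw [h0, mul_zero] at hl; omega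
      · exact h0
    have hllt : l < k := by
      have := hr.two_le
      rw [hl]; nlinarith
    have hxl : x ^ l ∉ scalars ι F := fun h => Nat.find_min hex (hk ▸ hllt) ⟨hlpos, h⟩
    refine ⟨r, hr, ?_⟩
    let K : Subgroup (GL ι F) :=
      { carrier := {y | y ∈ N ∧ y ^ r ∈ scalars ι F}
        one_mem' := ⟨N.one_mem, by rw [one_pow]; exact Subgroup.one_mem _⟩
        mul_mem' := by
          rintro a b ⟨ha, ha'⟩ ⟨hb, hb'⟩
          refine ⟨N.mul_mem ha hb, ?_⟩
          obtain ⟨c, hc⟩ := hcomm a ha b hb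
          rw [mul_pow_class_two (sc_comm c) hc]
          exact Subgroup.mul_mem _ (Subgroup.pow_mem _ (mem_scalars.2 ⟨c, rfl⟩) _) (Subgroup.mul_mem _ ha' hb')
        inv_mem' := by
          rintro a ⟨ha, ha'⟩
          exact ⟨N.inv_mem ha, by rw [inv_pow]; exact Subgroup.inv_mem _ ha'⟩ }
    have hK : K = N := by
      rcases hN.min K (fun z hz => ⟨hN.le hz, Subgroup.pow_mem _ hz _⟩) (fun y hy => hy.1) (by
        rintro h hh y ⟨hy, hy'⟩
        refine ⟨hN.norm h hh y hy, ?_⟩
        rw [conj_pow]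
        exact normBy_of_central hZ h hh _ hy') with h | h
      · exfalso
        apply hxl
        rw [← h]
        refine ⟨N.pow_mem hx _, ?_⟩
        rw [← pow_mul, mul_comm, ← hl]; exact hkx
      · exact h
    intro y hy
    have : y ∈ K := by rw [hK]; exact hy
    obtain ⟨c, hc⟩ := mem_scalars.1 this.2
    exact ⟨c, hc.symm⟩
  -- commutators have order dividing r
  have hcomm' : ∀ x ∈ N, ∀ y ∈ N, ∃ c : Fˣ, c ^ r = 1 ∧ y * x = sc ι c * (x * y) := by
    intro x hx y hy
    obtain ⟨c, hc⟩ := hcomm x hx y hy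
    refine ⟨c, ?_, hc⟩
    obtain ⟨a, ha⟩ := hNr x hx
    -- y x y⁻¹ = c x  ⟹  y x^r y⁻¹ = c^r x^r
    have h1 : y * x * y⁻¹ = sc ι c * x := by rw [hc]; group
    have h2 : (y * x * y⁻¹) ^ r = (sc ι c * x) ^ r := by rw [h1]
    rw [conj_pow] at h2
    have h3 : Commute (sc ι c) x := sc_comm c x
    rw [h3.mul_pow, ha, ← sc_comm, mul_inv_cancel_right] at h2
    have h4 : sc ι c ^ r = 1 := by
      have := (mul_eq_right.1 h2.symm)
      exact this
    rw [← map_pow] at h4
    exact sc_injective (h4.trans (map_one _).symm)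
  -- noncommuting pair
  have hnonab : ∃ x ∈ N, ∃ y ∈ N, y * x ≠ x * y := by
    by_contra hcon
    push Not at hcon
    apply hNns
    intro x hx
    exact scalar_of_commute_gl hNai (fun y hy => hcon y hy x hx)
  set m := r * Nat.gcd 2 r with hm
  have hmr : r ∣ m := ⟨_, hm⟩
  have hmpos : 0 < m := Nat.mul_pos hr.pos (Nat.gcd_pos_of_pos_left _ (by norm_num))
  have htri : r ∣ m * (m - 1) / 2 := by
    rcases hr.eq_two_or_odd' with h2 | hodd
    · rw [hm, h2]; decide
    · have hg : Nat.gcd 2 r = 1 := (Nat.coprime_two_left.2 hodd)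
      rw [hm, hg, mul_one]
      obtain ⟨s, hs⟩ := hodd
      refine ⟨s, ?_⟩
      have : r - 1 = 2 * s := by omega
      rw [this, ← mul_assoc, mul_comm r 2, mul_assoc, Nat.mul_div_cancel_left _ (by norm_num)]
  have hmulpow : ∀ x ∈ N, ∀ y ∈ N, (x * y) ^ m = x ^ m * y ^ m := by
    intro x hx y hy
    obtain ⟨c, hc1, hc⟩ := hcomm' x hx y hy
    rw [mul_pow_class_two (sc_comm c) hc]
    obtain ⟨s, hs⟩ := htri
    rw [hs, pow_mul, ← map_pow, hc1, map_one, one_pow, one_mul]
  -- the subgroup N₀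
  let N₀ : Subgroup (GL ι F) :=
    { carrier := {y | y ∈ N ∧ ∃ z : Fˣ, y ^ m = sc ι z ^ m}
      one_mem' := ⟨N.one_mem, 1, by rw [map_one]⟩
      mul_mem' := by
        rintro a b ⟨ha, z, hz⟩ ⟨hb, w, hw⟩
        refine ⟨N.mul_mem ha hb, z * w, ?_⟩
        rw [hmulpow a ha b hb, hz, hw, map_mul]
        have : Commute (sc ι z) (sc ι w) := sc_comm z _
        rw [this.mul_pow]
      inv_mem' := by
        rintro a ⟨ha, z, hz⟩
        exact ⟨N.inv_mem ha, z⁻¹, by rw [inv_pow, hz, map_inv, inv_pow]⟩ }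
  have hN₀ : N₀ = N := by
    rcases hN.min N₀ (fun z hz => by
        obtain ⟨c, hc⟩ := mem_scalars.1 hz
        exact ⟨hN.le hz, c, by rw [hc]⟩) (fun y hy => hy.1) (by
        rintro h hh y ⟨hy, z, hz⟩
        refine ⟨hN.norm h hh y hy, z, ?_⟩
        rw [conj_pow, hz, ← map_pow, ← sc_comm, mul_inv_cancel_right]) with h | h
    · exfalso
      obtain ⟨x, hx, y, hy, hxy⟩ := hnonab
      obtain ⟨a, ha⟩ := hNr x hx
      obtain ⟨b, hb⟩ := hNr y hy
      obtain ⟨g, hg⟩ := IsCyclic.exists_generator (α := Fˣ)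
      obtain ⟨i, hi⟩ := hg a
      obtain ⟨j, hj⟩ := hg b
      simp only at hi hj
      have hi' : ¬ (r : ℤ) ∣ i := by
        rintro ⟨l, hl⟩
        have h1 : x ∈ N₀ := by
          refine ⟨hx, g ^ l, ?_⟩
          obtain ⟨s, hs⟩ := hmr
          rw [hs, pow_mul, ha, pow_mul, ← map_pow (sc ι) (g ^ l), ← hi, hl]
          congr 2
          rw [← zpow_natCast, ← zpow_mul, mul_comm]
        rw [h] at h1
        exact hxy (Subgroup.mem_center_iff.1 (hZ h1) y)
      obtain ⟨k, hk⟩ : ∃ k : ℕ, (r : ℤ) ∣ j + k * i := by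
        have hcop : IsCoprime (r : ℤ) i := by
          rw [Int.isCoprime_iff_gcd_eq_one]
          have := (Nat.Prime.coprime_iff_not_dvd hr (n := i.natAbs)).2 (fun hd => hi' (Int.natCast_dvd.2 hd))
          simpa [Int.gcd] using this
        obtain ⟨u, v, huv⟩ := hcop
        -- v i ≡ 1
        refine ⟨((-j * v) % r).toNat, ?_⟩
        have hrpos : (0 : ℤ) < r := by exact_mod_cast hr.pos
        have h2 : (((-j * v) % r).toNat : ℤ) = (-j * v) % r := Int.toNat_of_nonneg (Int.emod_nonneg _ hrpos.ne')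
        rw [h2]
        have h3 : (-j * v) % r = -j * v - r * ((-j * v) / r) := by
          have := Int.emod_add_mul_ediv (-j * v) r
          linarith
        rw [h3]
        refine ⟨j * u - ((-j * v) / r) * i, ?_⟩
        have h4 : v * i = 1 - u * r := by linarith
        calc j + (-j * v - r * (-j * v / r)) * i = j - j * (v * i) - r * ((-j * v / r) * i) := by ring
          _ = j - j * (1 - u * r) - r * ((-j * v / r) * i) := by rw [h4]
          _ = r * (j * u - -j * v / r * i) := by ring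
      obtain ⟨l, hl⟩ := hk
      have h1 : y * x ^ k ∈ N₀ := by
        refine ⟨N.mul_mem hy (N.pow_mem hx k), g ^ l, ?_⟩
        rw [hmulpow y hy _ (N.pow_mem hx k)]
        obtain ⟨s, hs⟩ := hmr
        have h5 : (x ^ k) ^ m = (sc ι a ^ k) ^ s := by
          rw [hs, ← pow_mul, mul_comm k, mul_assoc, pow_mul, ha, ← pow_mul, mul_comm s k]
        have h6 : y ^ m = (sc ι b) ^ s := by rw [hs, pow_mul, hb]
        have h7 : sc ι (g ^ l) ^ m = (sc ι ((g ^ l) ^ r)) ^ s := by rw [hs, pow_mul, ← map_pow]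
        rw [h5, h6, h7]
        have h8 : Commute (sc ι b) (sc ι a ^ k) := sc_comm b _
        rw [← h8.mul_pow]
        congr 1
        rw [← map_pow, ← map_mul]
        congr 1
        rw [← hi, ← hj, ← zpow_natCast (g ^ l), ← zpow_mul, ← zpow_natCast (g ^ i), ← zpow_mul, ← zpow_add]
        congr 1
        rw [mul_comm i, mul_comm l]; exact hl
      rw [h] at h1
      have h2 : ∀ g', g' * (y * x ^ k) = (y * x ^ k) * g' := Subgroup.mem_center_iff.1 (hZ h1)
      apply hxy
      have h3 := h2 x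
      -- x y x^k = y x^k x = y x x^k
      have h4 : x * y * x ^ k = y * x * x ^ k := by
        calc x * y * x ^ k = x * (y * x ^ k) := by group
          _ = (y * x ^ k) * x := h3
          _ = y * x * x ^ k := by
            rw [mul_assoc, mul_assoc, ← pow_succ, ← pow_succ']
      exact (mul_right_cancel h4).symm
    · exact h
  -- the group R
  let R : Subgroup (GL ι F) :=
    { carrier := {y | y ∈ N ∧ y ^ m = 1}
      one_mem' := ⟨N.one_mem, one_pow _⟩
      mul_mem' := by
        rintro a b ⟨ha, ha'⟩ ⟨hb, hb'⟩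
        exact ⟨N.mul_mem ha hb, by rw [hmulpow a ha b hb, ha', hb', one_mul]⟩
      inv_mem' := by
        rintro a ⟨ha, ha'⟩
        exact ⟨N.inv_mem ha, by rw [inv_pow, ha', inv_one]⟩ }
  have hRN : R ≤ N := fun y hy => hy.1
  have hRZ : R ⊔ scalars ι F = N := by
    apply le_antisymm (sup_le hRN hN.le)
    intro y hy
    have : y ∈ N₀ := by rw [hN₀]; exact hy
    obtain ⟨-, z, hz⟩ := this
    have h1 : y * (sc ι z)⁻¹ ∈ R := by
      refine ⟨N.mul_mem hy (N.inv_mem (hN.le (mem_scalars.2 ⟨z, rfl⟩))), ?_⟩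
      have h2 : Commute y (sc ι z)⁻¹ := by
        rw [← map_inv]; exact (sc_comm z⁻¹ y).symm
      rw [h2.mul_pow, hz, inv_pow, mul_inv_cancel]
    have h3 : y = (y * (sc ι z)⁻¹) * sc ι z := by group
    rw [h3]
    exact Subgroup.mul_mem_sup h1 (mem_scalars.2 ⟨z, rfl⟩)
  have hRnorm : NormBy H R := by
    rintro h hh y ⟨hy, hy'⟩
    exact ⟨hN.norm h hh y hy, by rw [conj_pow, hy', mul_one, mul_inv_cancel]⟩
  have hRns : ¬ R ≤ scalars ι F := fun h => hN.ne (by rw [← hRZ, sup_eq_right.2 h])
  have hRai := hH.absIrr hRnorm hRns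
  refine ⟨R, r, ⟨hr, hRnorm, hRai, fun x hx => hx.2, fun x hx => hNr x hx.1,
    fun x hx y hy => hcomm' x hx.1 y hy.1, fun c hc => ⟨hN.le (mem_scalars.2 ⟨c, rfl⟩), by rw [← map_pow, hc, map_one]⟩, ?_⟩, hRN, hRZ⟩
  by_contra hcon
  push Not at hcon
  exact hRns fun x hx => scalar_of_commute_gl hRai (fun y hy => hcon y hy x hx)

/-! ### Consequences of the symplectic-type data -/

section Data

variable {H R : Subgroup (GL ι F)} {r : ℕ}

theorem sc_mul_left_cancel [Nonempty ι] {a b : Fˣ} {g : GL ι F} (h : sc ι a * g = sc ι b * g) : a = b :=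
  sc_injective (mul_right_cancel h)

/-- The character attached to an element of `R`. -/
noncomputable def SympData.chi [Nonempty ι] (h : SympData H R r) (x : R) : R →* Fˣ where
  toFun y := (h.comm x x.2 y y.2).choose
  map_one' := by
    have h1 := (h.comm x x.2 (1 : R) (1 : R).2).choose_spec.2
    generalize (h.comm x x.2 (1 : R) (1 : R).2).choose = c at h1 ⊢
    apply sc_mul_left_cancel (g := (x : GL ι F))
    rw [map_one, one_mul]
    rw [Subgroup.coe_one, one_mul, mul_one] at h1
    exact h1.symm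
  map_mul' y z := by
    have h1 := (h.comm x x.2 (y * z : R) (y * z : R).2).choose_spec.2
    have h2 := (h.comm x x.2 y y.2).choose_spec.2
    have h3 := (h.comm x x.2 z z.2).choose_spec.2
    generalize (h.comm x x.2 (y * z : R) (y * z : R).2).choose = a at h1 ⊢
    generalize (h.comm x x.2 y y.2).choose = b at h2 ⊢
    generalize (h.comm x x.2 z z.2).choose = c at h3 ⊢
    apply sc_mul_left_cancel (g := (x : GL ι F) * ((y : GL ι F) * (z : GL ι F)))
    rw [Subgroup.coe_mul] at h1
    rw [← h1, map_mul]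
    calc (y : GL ι F) * z * x = y * (z * x) := by group
      _ = y * (sc ι c * (x * z)) := by rw [h3]
      _ = (y * sc ι c) * (x * z) := by group
      _ = (sc ι c * y) * (x * z) := by rw [← sc_comm]
      _ = sc ι c * (y * x) * z := by group
      _ = sc ι c * (sc ι b * (x * y)) * z := by rw [h2]
      _ = (sc ι c * sc ι b) * (x * (y * z)) := by group
      _ = _ := by rw [sc_comm c (sc ι b)]

theorem SympData.chi_spec [Nonempty ι] (h : SympData H R r) (x y : R) :
    (y : GL ι F) * x = sc ι (h.chi x y) * (x * y) := (h.comm x x.2 y y.2).choose_spec.2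

theorem SympData.chi_pow [Nonempty ι] (h : SympData H R r) (x y : R) : (h.chi x y) ^ r = 1 :=
  (h.comm x x.2 y y.2).choose_spec.1

/-- Equal characters means equal cosets. -/
theorem SympData.chi_inj [Nonempty ι] (h : SympData H R r) {x x' : R} (hxx : h.chi x = h.chi x') :
    (x : GL ι F)⁻¹ * x' ∈ scalars ι F := by
  apply scalar_of_commute_gl h.absIrr
  intro y hy
  have h1 := h.chi_spec x ⟨y, hy⟩
  have h2 := h.chi_spec x' ⟨y, hy⟩
  rw [← hxx] at h2
  simp only at h1 h2
  -- y x = c x y, y x' = c x' y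
  have h3 : y * (x : GL ι F) * y⁻¹ = sc ι (h.chi x ⟨y, hy⟩) * x := by rw [h1]; group
  have h4 : y * (x' : GL ι F) * y⁻¹ = sc ι (h.chi x ⟨y, hy⟩) * x' := by rw [h2]; group
  have h5 : y * ((x : GL ι F)⁻¹ * x') * y⁻¹ = (x : GL ι F)⁻¹ * x' := by
    calc y * ((x : GL ι F)⁻¹ * x') * y⁻¹ = (y * (x : GL ι F) * y⁻¹)⁻¹ * (y * (x' : GL ι F) * y⁻¹) := by group
      _ = _ := by rw [h3, h4]; group
  calc (x : GL ι F)⁻¹ * x' * y = (y * ((x : GL ι F)⁻¹ * x') * y⁻¹) * y := by rw [h5]
    _ = _ := by group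

/-- The set of coset representatives is a basis of the matrix algebra. -/
theorem SympData.exists_basis [Finite F] [Nonempty ι] (h : SympData H R r) :
    ∃ b : Module.Basis (R ⧸ (scalars ι F).subgroupOf R) F (Matrix ι ι F),
      ∀ q, b q = (((Quotient.out q : R) : GL ι F) : Matrix ι ι F) := by
  classical
  have hfinM : Finite (Matrix ι ι F) := inferInstanceAs (Finite (ι → ι → F))
  have hfinGL : Finite (GL ι F) := inferInstance
  have : Fintype (R ⧸ (scalars ι F).subgroupOf R) := Fintype.ofFinite _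
  let v : (R ⧸ (scalars ι F).subgroupOf R) → Matrix ι ι F := fun q => (((Quotient.out q : R) : GL ι F) : Matrix ι ι F)
  have hli : LinearIndependent F v := by
    rw [Fintype.linearIndependent_iff]
    intro g hg q
    let X : (R ⧸ (scalars ι F).subgroupOf R) → (R →* F) := fun q => (Units.coeHom F).comp (h.chi (Quotient.out q))
    have hX : Function.Injective X := by
      intro q q' hqq
      have h1 : h.chi (Quotient.out q) = h.chi (Quotient.out q') := by
        ext y
        exact DFunLike.congr_fun hqq y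
      have h2 := h.chi_inj h1
      have h3 : (Quotient.out q : R)⁻¹ * (Quotient.out q' : R) ∈ (scalars ι F).subgroupOf R := by
        rw [Subgroup.mem_subgroupOf]; exact h2
      rw [← QuotientGroup.out_eq' q, ← QuotientGroup.out_eq' q']
      exact QuotientGroup.eq.2 h3
    have hind : LinearIndependent F (fun q => ((X q : R →* F) : R → F)) :=
      (linearIndependent_monoidHom R F).comp X hX
    -- conjugating the relation
    have hrel : ∀ y : R, ∑ q, (g q * X q y) • v q = 0 := by
      intro y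
      have h1 : (((y : GL ι F)) : Matrix ι ι F) * (∑ q, g q • v q) * ((((y : GL ι F))⁻¹ : GL ι F) : Matrix ι ι F) = 0 := by
        rw [hg, mul_zero, zero_mul]
      rw [Finset.mul_sum, Finset.sum_mul] at h1
      rw [← h1]
      refine Finset.sum_congr rfl fun q _ => ?_
      rw [Matrix.mul_smul, Matrix.smul_mul, mul_smul]
      congr 1
      have h2 := h.chi_spec (Quotient.out q) y
      have h3 : ((y : GL ι F) * (Quotient.out q : R) * (y : GL ι F)⁻¹ : GL ι F) = sc ι (h.chi (Quotient.out q) y) * (Quotient.out q : R) := by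
        rw [h2]; group
      have h4 := congrArg (fun z : GL ι F => (z : Matrix ι ι F)) h3
      simp only [sc_mul_val] at h4
      exact h4.symm
    have hentry : ∀ a b, ∑ q, (g q * v q a b) • ((X q : R →* F) : R → F) = 0 := by
      intro a b
      funext y
      have h1 := congrFun (congrFun (hrel y) a) b
      rw [Matrix.sum_apply] at h1
      rw [Finset.sum_apply]
      simp only [Matrix.smul_apply, smul_eq_mul, Matrix.zero_apply, Pi.smul_apply, Pi.zero_apply] at h1 ⊢
      rw [← h1]
      refine Finset.sum_congr rfl fun q _ => ?_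
      ring
    by_contra hgq
    have hv0 : v q = 0 := by
      ext a b
      have h1 := Fintype.linearIndependent_iff.1 hind (fun q => g q * v q a b) (hentry a b) q
      rcases mul_eq_zero.1 h1 with h2 | h2
      · exact absurd h2 hgq
      · exact h2
    have h5 := ((Quotient.out q : R) : GL ι F).isUnit
    have h6 : v q = (((Quotient.out q : R) : GL ι F) : Matrix ι ι F) := rfl
    rw [← h6, hv0] at h5
    exact not_isUnit_zero h5
  have hsp : ⊤ ≤ Submodule.span F (Set.range v) := by
    rw [← span_eq_top h.absIrr, Submodule.span_le]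
    rintro _ ⟨x, hx, rfl⟩
    set q : R ⧸ (scalars ι F).subgroupOf R := QuotientGroup.mk ⟨x, hx⟩ with hq
    have h1 : (Quotient.out q : R)⁻¹ * ⟨x, hx⟩ ∈ (scalars ι F).subgroupOf R := by
      apply QuotientGroup.eq.1
      rw [hq]
      exact QuotientGroup.out_eq' _
    rw [Subgroup.mem_subgroupOf] at h1
    obtain ⟨c, hc⟩ := mem_scalars.1 h1
    have h2 : x = sc ι c * (Quotient.out q : R) := by
      rw [hc, ← hc, sc_comm, hc]
      push_cast
      group
    have h3 : (x : Matrix ι ι F) = (c : F) • v q := by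
      rw [h2, sc_mul_val]
    show (x : Matrix ι ι F) ∈ _
    rw [h3]
    exact Submodule.smul_mem _ _ (Submodule.subset_span ⟨q, rfl⟩)
  exact ⟨Module.Basis.mk hli hsp, fun q => by simp [v]⟩

/-- The index of the centre. -/
theorem SympData.card_quot [Finite F] [Nonempty ι] (h : SympData H R r) :
    Nat.card (R ⧸ (scalars ι F).subgroupOf R) = Fintype.card ι ^ 2 := by
  classical
  have hfinM : Finite (Matrix ι ι F) := inferInstanceAs (Finite (ι → ι → F))
  have hfinGL : Finite (GL ι F) := inferInstance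
  have : Fintype (R ⧸ (scalars ι F).subgroupOf R) := Fintype.ofFinite _
  obtain ⟨b, -⟩ := h.exists_basis
  have h1 := Module.finrank_eq_card_basis b
  rw [Module.finrank_matrix, Module.finrank_self, mul_one] at h1
  rw [Nat.card_eq_fintype_card, ← h1, sq]

theorem SympData.center_eq [Nonempty ι] (h : SympData H R r) : Subgroup.center R = (scalars ι F).subgroupOf R := by
  ext x
  rw [Subgroup.mem_center_iff, Subgroup.mem_subgroupOf]
  constructor
  · intro hx
    exact scalar_of_commute_gl h.absIrr (fun y hy => (congrArg Subtype.val (hx ⟨y, hy⟩)).symm)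
  · intro hx y
    exact Subtype.ext (Subgroup.mem_center_iff.1 (scalars_le_center hx) y)

theorem SympData.card_eq [Finite F] [Nonempty ι] (h : SympData H R r) :
    Nat.card R = Nat.card (Subgroup.center R) * Fintype.card ι ^ 2 := by
  rw [h.center_eq, ← h.card_quot, mul_comm]
  exact Subgroup.card_eq_card_quotient_mul_card_subgroup _

theorem SympData.card_comap [Finite F] [Nonempty ι] (h : SympData H R r) :
    Nat.card (R.comap (sc ι) : Subgroup Fˣ) = Nat.card (Subgroup.center R) := by
  apply Nat.card_congr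
  refine Equiv.ofBijective (fun c : (R.comap (sc ι) : Subgroup Fˣ) => (⟨⟨sc ι (c : Fˣ), c.2⟩, by
    rw [h.center_eq, Subgroup.mem_subgroupOf]; exact ⟨_, rfl⟩⟩ : Subgroup.center R)) ⟨?_, ?_⟩
  · intro a b hab
    have h1 := congrArg (fun x : Subgroup.center R => ((x : R) : GL ι F)) hab
    exact Subtype.ext (sc_injective h1)
  · rintro ⟨⟨x, hx⟩, hx'⟩
    rw [h.center_eq, Subgroup.mem_subgroupOf] at hx'
    obtain ⟨c, hc⟩ := mem_scalars.1 hx'
    exact ⟨⟨c, by show sc ι c ∈ R; rw [hc]; exact hx⟩, Subtype.ext (Subtype.ext hc)⟩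

theorem SympData.center_card_dvd [Fintype F] [Nonempty ι] (h : SympData H R r) :
    Nat.card (Subgroup.center R) ∣ Fintype.card F - 1 := by
  rw [← h.card_comap]
  have h1 := Subgroup.card_subgroup_dvd_card (R.comap (sc ι) : Subgroup Fˣ)
  rwa [Nat.card_units, Nat.card_eq_fintype_card (α := F)] at h1

/-- The order `z` of the centre. -/
theorem SympData.center_card [Finite F] [Nonempty ι] (h : SympData H R r) :
    Nat.card (Subgroup.center R) ∣ r * Nat.gcd 2 r ∧ r ∣ Nat.card (Subgroup.center R) ∧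
      (∀ c : Fˣ, c ^ Nat.card (Subgroup.center R) = 1 ↔ sc ι c ∈ R) := by
  classical
  have hfinGL : Finite (GL ι F) := by
    have hfinM : Finite (Matrix ι ι F) := inferInstanceAs (Finite (ι → ι → F))
    infer_instance
  set m := r * Nat.gcd 2 r with hm
  have hmpos : 0 < m := Nat.mul_pos h.prime.pos (Nat.gcd_pos_of_pos_left _ (by norm_num))
  -- K = {c | c^m = 1} ≅ centre
  let K : Subgroup Fˣ := R.comap (sc ι)
  have hK : ∀ c, c ∈ K ↔ c ^ m = 1 := by
    intro c
    constructor
    · intro hc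
      have h1 := h.pow _ hc
      rw [← map_pow] at h1
      exact sc_injective (h1.trans (map_one _).symm)
    · intro hc; exact h.big c hc
  have hcardK : Nat.card K = Nat.card (Subgroup.center R) := by
    apply Nat.card_congr
    refine Equiv.ofBijective (fun c : K => (⟨⟨sc ι (c : Fˣ), c.2⟩, by
      rw [h.center_eq, Subgroup.mem_subgroupOf]; exact ⟨_, rfl⟩⟩ : Subgroup.center R)) ⟨?_, ?_⟩
    · intro a b hab
      have h1 := congrArg (fun x : Subgroup.center R => ((x : R) : GL ι F)) hab
      exact Subtype.ext (sc_injective h1)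
    · rintro ⟨⟨x, hx⟩, hx'⟩
      rw [h.center_eq, Subgroup.mem_subgroupOf] at hx'
      obtain ⟨c, hc⟩ := mem_scalars.1 hx'
      exact ⟨⟨c, by show sc ι c ∈ R; rw [hc]; exact hx⟩, Subtype.ext (Subtype.ext hc)⟩
  rw [← hcardK]
  have hcyc : IsCyclic K := inferInstance
  obtain ⟨g, hg⟩ := IsCyclic.exists_ofOrder_eq_natCard (α := K)
  have h1 : Nat.card K ∣ m := by
    rw [← hg, orderOf_dvd_iff_pow_eq_one]
    exact Subtype.ext ((hK g).1 g.2)
  refine ⟨h1, ?_, ?_⟩
  · obtain ⟨x, hx, y, hy, hxy⟩ := h.nonab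
    obtain ⟨c, hc1, hc⟩ := h.comm x hx y hy
    have hcne : c ≠ 1 := by
      rintro rfl
      rw [map_one, one_mul] at hc
      exact hxy hc
    have := Fact.mk h.prime
    have hord : orderOf c = r := orderOf_eq_prime hc1 hcne
    have hcK : c ∈ K := by
      rw [hK, hm, pow_mul, hc1, one_pow]
    have h2 : orderOf (⟨c, hcK⟩ : K) = r := by rw [← hord]; exact Subgroup.orderOf_mk c hcK
    rw [← h2]
    exact orderOf_dvd_natCard _
  · intro c
    constructor
    · intro hc
      apply h.big
      rw [← hm]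
      obtain ⟨s, hs⟩ := h1
      rw [hs, pow_mul, hc, one_pow]
    · intro hc
      have : (⟨c, hc⟩ : K) ^ Nat.card K = 1 := pow_card_eq_one'
      exact congrArg Subtype.val this

end Data

end Cfsg.Agent.Lib.AschSymp
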