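import Cfsg.Agent.Lib.AschNonab

/-!
Aschbacher's theorem: tensor powers. Commuting copies of a matrix algebra inside a matrix algebra.
-/

set_option autoImplicit false
set_option linter.unusedSectionVars false

namespace Cfsg.Agent.Lib.AschTensor

open Cfsg Cfsg.Geo Cfsg.Agent.Lib.AschMU Cfsg.Agent.Lib.AschCore Cfsg.Agent.Lib.AschField Cfsg.Agent.Lib.AschAlg
  Cfsg.Agent.Lib.AschDescent Cfsg.Agent.Lib.AschForm Cfsg.Agent.Lib.AschGroup Cfsg.Agent.Lib.AschGood
  Cfsg.Agent.Lib.AschNonab
open scoped Matrix MatrixGroups Kronecker commutatorElement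

/-! ### Ordered products -/

section Prod

variable {M : Type*} [Monoid M]

theorem commute_prod_ofFn {t : ℕ} (u : Fin t → M) (y : M) (h : ∀ i, y * u i = u i * y) :
    y * (List.ofFn u).prod = (List.ofFn u).prod * y := by
  induction t with
  | zero => simp
  | succ t ih =>
    rw [List.ofFn_succ, List.prod_cons, ← mul_assoc, h 0, mul_assoc, ih (fun i => u i.succ) (fun i => h i.succ),
      mul_assoc]

theorem prod_ofFn_mul : ∀ {t : ℕ} (u v : Fin t → M), (∀ i j, i ≠ j → u i * v j = v j * u i) →
    (List.ofFn (fun i => u i * v i)).prod = (List.ofFn u).prod * (List.ofFn v).prod := by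
  intro t
  induction t with
  | zero => intro u v _; simp
  | succ t ih =>
    intro u v h
    rw [List.ofFn_succ, List.prod_cons, List.ofFn_succ (f := u), List.prod_cons, List.ofFn_succ (f := v),
      List.prod_cons]
    have h1 := ih (fun i => u i.succ) (fun i => v i.succ) (fun i j hij => h _ _ (fun h' => hij (Fin.succ_injective _ h')))
    rw [h1]
    have h2 : v 0 * (List.ofFn fun i : Fin t => u i.succ).prod = (List.ofFn fun i : Fin t => u i.succ).prod * v 0 :=
      commute_prod_ofFn _ _ (fun i => (h i.succ 0 (Fin.succ_ne_zero i)).symm)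
    calc u 0 * v 0 * ((List.ofFn fun i : Fin t => u i.succ).prod * (List.ofFn fun i : Fin t => v i.succ).prod)
        = u 0 * (v 0 * (List.ofFn fun i : Fin t => u i.succ).prod) * (List.ofFn fun i : Fin t => v i.succ).prod := by
          simp only [mul_assoc]
      _ = _ := by rw [h2]; simp only [mul_assoc]

theorem prod_ofFn_one (t : ℕ) : (List.ofFn (fun _ : Fin t => (1 : M))).prod = 1 := by
  induction t with
  | zero => simp
  | succ t ih => rw [List.ofFn_succ, List.prod_cons, ih, mul_one]

theorem prod_ofFn_update : ∀ {t : ℕ} (i : Fin t) (x : M),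
    (List.ofFn (Function.update (fun _ : Fin t => (1 : M)) i x)).prod = x := by
  intro t
  induction t with
  | zero => intro i; exact i.elim0
  | succ t ih =>
    intro i x
    rw [List.ofFn_succ, List.prod_cons]
    refine Fin.cases ?_ (fun i => ?_) i
    · rw [Function.update_self]
      have : (fun j : Fin t => Function.update (fun _ : Fin (t + 1) => (1 : M)) 0 x j.succ) = fun _ => 1 := by
        funext j
        rw [Function.update_of_ne (Fin.succ_ne_zero j)]
      rw [this, prod_ofFn_one, mul_one]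
    · rw [Function.update_of_ne (Fin.succ_ne_zero i).symm, one_mul]
      have : (fun j : Fin t => Function.update (fun _ : Fin (t + 1) => (1 : M)) i.succ x j.succ) =
          Function.update (fun _ : Fin t => (1 : M)) i x := by
        funext j
        by_cases hj : j = i
        · subst hj; rw [Function.update_self, Function.update_self]
        · rw [Function.update_of_ne hj, Function.update_of_ne (fun h => hj (Fin.succ_injective _ h))]
      rw [this, ih]

end Prod

/-! ### Tensor products of `t` matrices -/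

section Tp

variable {F : Type*} [Field F] {t d : ℕ}

/-- The tensor product of `t` square matrices. -/
def tp (x : Fin t → Matrix (Fin d) (Fin d) F) : Matrix (Fin t → Fin d) (Fin t → Fin d) F :=
  fun a b => ∏ i, x i (a i) (b i)

theorem tp_mul (x y : Fin t → Matrix (Fin d) (Fin d) F) : tp x * tp y = tp (fun i => x i * y i) := by
  ext a b
  simp only [Matrix.mul_apply, tp]
  rw [Finset.prod_univ_sum, Fintype.piFinset_univ]
  refine Finset.sum_congr rfl fun c _ => ?_
  rw [← Finset.prod_mul_distrib]

theorem tp_one : tp (fun _ : Fin t => (1 : Matrix (Fin d) (Fin d) F)) = 1 := by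
  ext a b
  simp only [tp, Matrix.one_apply]
  by_cases h : a = b
  · subst h; simp
  · rw [if_neg h]
    obtain ⟨i, hi⟩ := Function.ne_iff.1 h
    exact Finset.prod_eq_zero (Finset.mem_univ i) (if_neg hi)

theorem tp_transpose (x : Fin t → Matrix (Fin d) (Fin d) F) : (tp x)ᵀ = tp (fun i => (x i)ᵀ) := rfl

theorem tp_map (σ : F →+* F) (x : Fin t → Matrix (Fin d) (Fin d) F) : (tp x).map σ = tp (fun i => (x i).map σ) := by
  ext a b
  simp [tp, map_prod]

theorem tp_single (a b : Fin t → Fin d) :
    tp (fun i => (Matrix.single (a i) (b i) (1 : F) : Matrix (Fin d) (Fin d) F)) = Matrix.single a b 1 := by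
  ext c e
  simp only [tp, Matrix.single_apply]
  by_cases h : a = c ∧ b = e
  · rw [if_pos h]
    obtain ⟨rfl, rfl⟩ := h
    simp
  · rw [if_neg h]
    have : ∃ i, ¬ (a i = c i ∧ b i = e i) := by
      by_contra hcon
      push Not at hcon
      exact h ⟨funext fun i => (hcon i).1, funext fun i => (hcon i).2⟩
    obtain ⟨i, hi⟩ := this
    exact Finset.prod_eq_zero (Finset.mem_univ i) (if_neg hi)

/-- The tensor product as a multilinear map. -/
def tpM (F : Type*) [Field F] (t d : ℕ) :
    MultilinearMap F (fun _ : Fin t => Matrix (Fin d) (Fin d) F) (Matrix (Fin t → Fin d) (Fin t → Fin d) F) where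
  toFun := tp
  map_update_add' := by
    intro hdec x i u v
    ext a b
    simp only [tp, Matrix.add_apply]
    rw [← Finset.mul_prod_erase _ _ (Finset.mem_univ i), ← Finset.mul_prod_erase _ _ (Finset.mem_univ i),
      ← Finset.mul_prod_erase _ _ (Finset.mem_univ i)]
    rw [Function.update_self, Function.update_self, Function.update_self, Matrix.add_apply, add_mul]
    have h1 : ∀ w : Matrix (Fin d) (Fin d) F, ∏ j ∈ Finset.univ.erase i, (Function.update x i w) j (a j) (b j) =
        ∏ j ∈ Finset.univ.erase i, x j (a j) (b j) := fun w =>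
      Finset.prod_congr rfl fun j hj => by rw [Function.update_of_ne (Finset.ne_of_mem_erase hj)]
    rw [h1, h1, h1]
  map_update_smul' := by
    intro hdec x i c u
    ext a b
    simp only [tp, Matrix.smul_apply]
    rw [← Finset.mul_prod_erase _ _ (Finset.mem_univ i), ← Finset.mul_prod_erase _ _ (Finset.mem_univ i)]
    rw [Function.update_self, Function.update_self, Matrix.smul_apply, smul_eq_mul, smul_eq_mul, mul_assoc]
    have h1 : ∀ w : Matrix (Fin d) (Fin d) F, ∏ j ∈ Finset.univ.erase i, (Function.update x i w) j (a j) (b j) =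
        ∏ j ∈ Finset.univ.erase i, x j (a j) (b j) := fun w =>
      Finset.prod_congr rfl fun j hj => by rw [Function.update_of_ne (Finset.ne_of_mem_erase hj)]
    rw [h1, h1]

theorem tpM_apply (x : Fin t → Matrix (Fin d) (Fin d) F) : tpM F t d x = tp x := rfl

theorem tp_update_mul (i : Fin t) (x y : Matrix (Fin d) (Fin d) F) :
    tp (Function.update (fun _ => 1) i x) * tp (Function.update (fun _ => 1) i y) =
      tp (Function.update (fun _ => 1) i (x * y)) := by
  rw [tp_mul]
  congr 1
  funext j
  by_cases h : j = i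
  · subst h; simp
  · rw [Function.update_of_ne h, Function.update_of_ne h, Function.update_of_ne h, one_mul]

end Tp

/-! ### Permutations of the factors -/

section Perm

variable {F : Type*} [Field F] {t d : ℕ}

/-- The matrix permuting the tensor factors. -/
def fp (F : Type*) [Field F] {t : ℕ} (d : ℕ) (π : Equiv.Perm (Fin t)) : Matrix (Fin t → Fin d) (Fin t → Fin d) F :=
  fun x y => if y = x ∘ π then 1 else 0

theorem fp_mul_apply (π : Equiv.Perm (Fin t)) (M : Matrix (Fin t → Fin d) (Fin t → Fin d) F) (x y : Fin t → Fin d) :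
    (fp F d π * M) x y = M (x ∘ π) y := by
  rw [Matrix.mul_apply, Finset.sum_eq_single (x ∘ π)]
  · simp [fp]
  · intro b _ hb
    simp [fp, hb]
  · simp

theorem mul_fp_apply (π : Equiv.Perm (Fin t)) (M : Matrix (Fin t → Fin d) (Fin t → Fin d) F) (x y : Fin t → Fin d) :
    (M * fp F d π) x (y ∘ π) = M x y := by
  rw [Matrix.mul_apply, Finset.sum_eq_single y]
  · simp [fp]
  · intro b _ hb
    have : ¬ (y ∘ π = b ∘ π) := by
      intro h
      apply hb
      funext i
      have := congrFun h (π.symm i)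
      simpa using this.symm
    simp [fp, this]
  · simp

theorem fp_mul_fp (π ρ : Equiv.Perm (Fin t)) : fp F d π * fp F d ρ = fp F d (ρ.trans π) := by
  ext x y
  rw [fp_mul_apply]
  simp only [fp]
  rfl

theorem fp_one : fp F d (Equiv.refl (Fin t)) = 1 := by
  ext x y
  simp only [fp, Matrix.one_apply, Equiv.coe_refl, Function.comp_id]
  congr 1
  exact propext eq_comm

/-- The permutation matrix as an invertible matrix. -/
def fpU (F : Type*) [Field F] {t : ℕ} (d : ℕ) (π : Equiv.Perm (Fin t)) : GL (Fin t → Fin d) F where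
  val := fp F d π
  inv := fp F d π.symm
  val_inv := by rw [fp_mul_fp, Equiv.symm_trans_self, fp_one]
  inv_val := by rw [fp_mul_fp, Equiv.self_trans_symm, fp_one]

theorem isFactorPermutation_fpU (π : Equiv.Perm (Fin t)) : IsFactorPermutation d t (fpU F d π) := ⟨π, fun _ _ => rfl⟩

/-- Permuting the factors of a pure tensor. -/
theorem fp_mul_tp (π : Equiv.Perm (Fin t)) (x : Fin t → Matrix (Fin d) (Fin d) F) :
    fp F d π * tp x = tp (fun j => x (π.symm j)) * fp F d π := by
  ext a b
  obtain ⟨b', rfl⟩ : ∃ b', b = b' ∘ π := ⟨b ∘ π.symm, by funext i; simp⟩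
  rw [fp_mul_apply, mul_fp_apply]
  have h := Equiv.prod_comp π (fun j => x (π.symm j) (a j) (b' j))
  show ∏ i, x i (a (π i)) (b' (π i)) = ∏ j, x (π.symm j) (a j) (b' j)
  rw [← h]
  simp

end Perm

/-! ### Commuting copies of a matrix algebra -/

variable {ι : Type} [Fintype ι] [DecidableEq ι] {F : Type*} [Field F]

section Big

variable {t d : ℕ} (φ : Fin t → Matrix (Fin d) (Fin d) F →ₐ[F] Matrix ι ι F)

/-- The ordered product of the images. -/
noncomputable def bigPi : MultilinearMap F (fun _ : Fin t => Matrix (Fin d) (Fin d) F) (Matrix ι ι F) :=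
  (MultilinearMap.mkPiAlgebraFin F t (Matrix ι ι F)).compLinearMap (fun i => (φ i).toLinearMap)

theorem bigPi_apply (x : Fin t → Matrix (Fin d) (Fin d) F) : bigPi φ x = (List.ofFn fun i => φ i (x i)).prod := rfl

theorem bigPi_one : bigPi φ (fun _ => 1) = 1 := by
  rw [bigPi_apply]
  have : (fun i => φ i 1) = fun _ => (1 : Matrix ι ι F) := by funext i; rw [map_one]
  rw [this, prod_ofFn_one]

theorem bigPi_update (i : Fin t) (x : Matrix (Fin d) (Fin d) F) :
    bigPi φ (Function.update (fun _ => 1) i x) = φ i x := by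
  rw [bigPi_apply]
  have : (fun j => φ j (Function.update (fun _ => (1 : Matrix (Fin d) (Fin d) F)) i x j)) =
      Function.update (fun _ => (1 : Matrix ι ι F)) i (φ i x) := by
    funext j
    by_cases h : j = i
    · subst h; rw [Function.update_self, Function.update_self]
    · rw [Function.update_of_ne h, Function.update_of_ne h, map_one]
  rw [this, prod_ofFn_update]

variable (hφ : ∀ i j, i ≠ j → ∀ x y, φ i x * φ j y = φ j y * φ i x)
include hφ

theorem bigPi_mul (x y : Fin t → Matrix (Fin d) (Fin d) F) : bigPi φ x * bigPi φ y = bigPi φ (fun i => x i * y i) := by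
  rw [bigPi_apply, bigPi_apply, bigPi_apply, ← prod_ofFn_mul _ _ (fun i j hij => hφ i j hij _ _)]
  congr 2
  funext i
  rw [map_mul]

theorem isMatrixUnits_bigPi : IsMatrixUnits (fun a b : Fin t → Fin d =>
    bigPi φ (fun i => (Matrix.single (a i) (b i) (1 : F) : Matrix (Fin d) (Fin d) F))) where
  mul a b c e := by
    show bigPi φ _ * bigPi φ _ = _
    rw [bigPi_mul φ hφ]
    by_cases h : b = c
    · subst h
      simp
    · rw [if_neg h]
      obtain ⟨i, hi⟩ := Function.ne_iff.1 h
      apply MultilinearMap.map_coord_zero _ i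
      exact Matrix.single_mul_single_of_ne _ _ _ _ hi _
  one := by
    have h1 := MultilinearMap.map_sum (f := bigPi φ)
      (g := fun (_ : Fin t) (j : Fin d) => (Matrix.single j j (1 : F) : Matrix (Fin d) (Fin d) F))
    rw [← h1, (isMatrixUnits_single (Fin d) F).one, bigPi_one]

omit hφ in
/-- Expansion of the ordered product. -/
theorem bigPi_mem_span (x : Fin t → Matrix (Fin d) (Fin d) F) :
    bigPi φ x ∈ Submodule.span F (Set.range fun p : (Fin t → Fin d) × (Fin t → Fin d) =>
      bigPi φ (fun i => (Matrix.single (p.1 i) (p.2 i) (1 : F) : Matrix (Fin d) (Fin d) F))) := by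
  have h1 : x = fun i => ∑ p : Fin d × Fin d, x i p.1 p.2 • (Matrix.single p.1 p.2 (1 : F) : Matrix (Fin d) (Fin d) F) := by
    funext i
    conv_lhs => rw [matrix_eq_sum_units (x i)]
    rw [Fintype.sum_prod_type]
  rw [h1, MultilinearMap.map_sum]
  apply Submodule.sum_mem
  intro r _
  rw [MultilinearMap.map_smul_univ]
  apply Submodule.smul_mem
  exact Submodule.subset_span ⟨(fun i => (r i).1, fun i => (r i).2), rfl⟩

variable (htop : (⨆ i, (φ i).range) = ⊤)
include htop

theorem span_eq_top : Submodule.span F (Set.range fun p : (Fin t → Fin d) × (Fin t → Fin d) =>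
      bigPi φ (fun i => (Matrix.single (p.1 i) (p.2 i) (1 : F) : Matrix (Fin d) (Fin d) F))) = ⊤ := by
  let M₀ : Submonoid (Matrix ι ι F) :=
    { carrier := Set.range (bigPi φ)
      mul_mem' := by
        rintro _ _ ⟨x, rfl⟩ ⟨y, rfl⟩
        exact ⟨_, (bigPi_mul φ hφ x y).symm⟩
      one_mem' := ⟨_, bigPi_one φ⟩ }
  have h1 : Algebra.adjoin F (M₀ : Set (Matrix ι ι F)) = ⊤ := by
    rw [eq_top_iff, ← htop, iSup_le_iff]
    rintro i _ ⟨x, rfl⟩
    apply Algebra.subset_adjoin
    exact ⟨_, bigPi_update φ i x⟩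
  have h2 : Subalgebra.toSubmodule (Algebra.adjoin F (M₀ : Set (Matrix ι ι F))) = Submodule.span F (M₀ : Set (Matrix ι ι F)) := by
    rw [Algebra.adjoin_eq_span, Submonoid.closure_eq]
  rw [h1] at h2
  rw [eq_top_iff, ← Algebra.top_toSubmodule, h2, Submodule.span_le]
  rintro _ ⟨x, rfl⟩
  exact bigPi_mem_span φ x

theorem card_eq_of_top [Nonempty ι] (hd : d ≠ 0) : Fintype.card ι = d ^ t := by
  have : Nonempty (Fin t → Fin d) := ⟨fun _ => ⟨0, Nat.pos_of_ne_zero hd⟩⟩
  obtain ⟨e, he⟩ := card_of_matrixUnits (isMatrixUnits_bigPi φ hφ)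
  rw [Fintype.card_fun, Fintype.card_fin, Fintype.card_fin] at he
  have h1 := finrank_range_le_card (R := F) (fun p : (Fin t → Fin d) × (Fin t → Fin d) =>
      bigPi φ (fun i => (Matrix.single (p.1 i) (p.2 i) (1 : F) : Matrix (Fin d) (Fin d) F)))
  rw [Set.finrank, span_eq_top φ hφ htop, finrank_top, Module.finrank_matrix, Module.finrank_self, mul_one,
    Fintype.card_prod, Fintype.card_fun, Fintype.card_fin, Fintype.card_fin] at h1
  have h2 : Fintype.card ι ≤ d ^ t := by
    by_contra hlt
    push Not at hlt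
    exact absurd (Nat.mul_lt_mul'' hlt hlt) (not_lt.2 h1)
  have h3 : 0 < Fintype.card ι := Fintype.card_pos
  rcases Nat.lt_or_ge e 1 with h4 | h4
  · have : e = 0 := by omega
    rw [this, mul_zero] at he; omega
  · rcases Nat.lt_or_ge 1 e with h5 | h5
    · have h6 : 0 < d ^ t := Nat.pow_pos (Nat.pos_of_ne_zero hd)
      nlinarith
    · have : e = 1 := by omega
      rw [he, this, mul_one]

end Big

/-- Reindexing followed by conjugation. -/
def psi {κ : Type} [Fintype κ] [DecidableEq κ] (σ : ι ≃ κ) (B : GL ι F) : Matrix κ κ F ≃ₐ[F] Matrix ι ι F :=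
  (Matrix.reindexAlgEquiv F F σ.symm).trans (cj B)

theorem psi_apply {κ : Type} [Fintype κ] [DecidableEq κ] (σ : ι ≃ κ) (B : GL ι F) (x : Matrix κ κ F) :
    psi σ B x = (B : Matrix ι ι F) * (Matrix.reindex σ.symm σ.symm x) * ((B⁻¹ : GL ι F) : Matrix ι ι F) := rfl

section Big2

variable {t d : ℕ} (φ : Fin t → Matrix (Fin d) (Fin d) F →ₐ[F] Matrix ι ι F)
  (hφ : ∀ i j, i ≠ j → ∀ x y, φ i x * φ j y = φ j y * φ i x) (htop : (⨆ i, (φ i).range) = ⊤)
include hφ

/-- Simultaneous description of the commuting matrix algebras. -/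
theorem exists_psi (σ : ι ≃ (Fin t → Fin d)) :
    ∃ B : GL ι F, ∀ x, bigPi φ x = psi σ B (tp x) := by
  have hE' : IsMatrixUnits (fun i j : ι => bigPi φ (fun k => (Matrix.single (σ i k) (σ j k) (1 : F) : Matrix (Fin d) (Fin d) F))) := by
    have hE := isMatrixUnits_bigPi φ hφ
    constructor
    · intro a b c e
      rw [hE.mul (σ a) (σ b) (σ c) (σ e)]
      simp only [σ.injective.eq_iff]
    · rw [← hE.one]
      exact Equiv.sum_comp σ (fun a => bigPi φ (fun k => (Matrix.single (a k) (a k) (1 : F) : Matrix (Fin d) (Fin d) F)))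
  obtain ⟨B, hB⟩ := exists_conj_of_matrixUnits' hE'
  refine ⟨B, fun x => ?_⟩
  have h1 : bigPi φ = (psi σ B).toLinearMap.compMultilinearMap (tpM F t d) := by
    apply Module.Basis.ext_multilinear (fun _ => Matrix.stdBasis F (Fin d) (Fin d))
    intro v
    have h2 : (fun i => Matrix.stdBasis F (Fin d) (Fin d) (v i)) =
        fun i => (Matrix.single (v i).1 (v i).2 (1 : F) : Matrix (Fin d) (Fin d) F) := by
      funext i
      exact Matrix.stdBasis_eq_single F _ _
    rw [h2]
    show bigPi φ _ = psi σ B (tp (fun i => (Matrix.single (v i).1 (v i).2 (1 : F) : Matrix (Fin d) (Fin d) F)))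
    rw [tp_single (fun i => (v i).1) (fun i => (v i).2), psi_apply]
    obtain ⟨a, ha⟩ := σ.surjective (fun i => (v i).1)
    obtain ⟨b, hb⟩ := σ.surjective (fun i => (v i).2)
    have h3 := hB a b
    have h4 : (Matrix.reindex σ.symm σ.symm (Matrix.single (fun i => (v i).1) (fun i => (v i).2) (1 : F) :
        Matrix (Fin t → Fin d) (Fin t → Fin d) F)) = Matrix.single a b 1 := by
      rw [← ha, ← hb]
      ext i j
      simp [Matrix.single_apply]
    rw [h4, ← h3]
    rw [Matrix.mul_assoc, gl_mul_inv, mul_one]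
    congr 1
    funext i
    rw [ha, hb]
  rw [h1]; rfl

end Big2

theorem mem_tensorWreathSubgroup {m t : ℕ} {e : ι ≃ (Fin t → Fin m)} {P g : GL ι F} :
    g ∈ tensorWreathSubgroup m t e P ↔ ∃ k ∈ tensorWreathStandard m t F, (g : Matrix ι ι F) = psi e P k := by
  constructor
  · rintro ⟨_, ⟨k, hk, rfl⟩, rfl⟩
    exact ⟨k, hk, rfl⟩
  · rintro ⟨k, hk, hg⟩
    exact ⟨_, ⟨k, hk, rfl⟩, Units.ext hg.symm⟩

/-- pure tensors as invertible matrices -/
def tpU {t d : ℕ} (u : Fin t → GL (Fin d) F) : GL (Fin t → Fin d) F where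
  val := tp (fun i => (u i : Matrix (Fin d) (Fin d) F))
  inv := tp (fun i => ((u i)⁻¹ : GL (Fin d) F))
  val_inv := by
    rw [tp_mul, ← tp_one]; congr 1; funext i; exact gl_mul_inv _
  inv_val := by
    rw [tp_mul, ← tp_one]; congr 1; funext i; exact gl_inv_mul _

theorem isPureTensor_tpU {t d : ℕ} (u : Fin t → GL (Fin d) F) : IsPureTensor d t (tpU u) := ⟨u, fun _ _ => rfl⟩

/-- An element permuting the factors lies in the tensor wreath subgroup. -/
theorem mem_tensorWreath_of_perm {t d : ℕ} (ht : t ≠ 0) {φ : Fin t → Matrix (Fin d) (Fin d) F →ₐ[F] Matrix ι ι F}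
    (htop : (⨆ i, (φ i).range) = ⊤) {σ : ι ≃ (Fin t → Fin d)} {B : GL ι F}
    (hB : ∀ i x, φ i x = psi σ B (tp (Function.update (fun _ => 1) i x)))
    {g : GL ι F} (π : Equiv.Perm (Fin t)) (u : Fin t → GL (Fin d) F)
    (hg : ∀ i x, cj g (φ i x) = φ (π i) ((u i : Matrix (Fin d) (Fin d) F) * x * (((u i)⁻¹ : GL (Fin d) F) : Matrix (Fin d) (Fin d) F))) :
    g ∈ tensorWreathSubgroup d t σ B := by
  classical
  set U : GL (Fin t → Fin d) F := tpU (fun j => u (π.symm j)) with hU
  set T : GL (Fin t → Fin d) F := fpU F d π with hT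
  set k : GL (Fin t → Fin d) F := U * T with hk
  let k' : GL ι F := Units.map (psi σ B).toAlgHom.toRingHom.toMonoidHom k
  have hk' : (k' : Matrix ι ι F) = psi σ B (k : Matrix _ _ F) := rfl
  have h1 : ∀ i x, (k' : Matrix ι ι F) * φ i x = cj g (φ i x) * (k' : Matrix ι ι F) := by
    intro i x
    rw [hg, hB, hB, hk', ← map_mul, ← map_mul]
    congr 1
    have hkv : (k : Matrix (Fin t → Fin d) (Fin t → Fin d) F) =
        tp (fun j => (u (π.symm j) : Matrix (Fin d) (Fin d) F)) * fp F d π := rfl
    rw [hkv, Matrix.mul_assoc, fp_mul_tp, ← Matrix.mul_assoc, ← Matrix.mul_assoc, tp_mul, tp_mul]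
    congr 2
    funext j
    by_cases hj : j = π i
    · subst hj
      simp only [Equiv.symm_apply_apply, Function.update_self]
      rw [Matrix.mul_assoc, gl_inv_mul, mul_one]
    · have hj' : π.symm j ≠ i := by
        rintro rfl
        exact hj (by simp)
      rw [Function.update_of_ne hj, Function.update_of_ne hj', mul_one, one_mul]
  -- the element g⁻¹ k' is central
  obtain ⟨c, hc⟩ : ∃ c : F, ((g⁻¹ : GL ι F) : Matrix ι ι F) * (k' : Matrix ι ι F) = c • (1 : Matrix ι ι F) := by
    have h2 : ∀ y : Matrix ι ι F, y ∈ (⨆ i, (φ i).range) →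
        (((g⁻¹ : GL ι F) : Matrix ι ι F) * (k' : Matrix ι ι F)) * y = y * (((g⁻¹ : GL ι F) : Matrix ι ι F) * (k' : Matrix ι ι F)) := by
      have h3 : (⨆ i, (φ i).range) ≤ Subalgebra.centralizer F {(((g⁻¹ : GL ι F) : Matrix ι ι F) * (k' : Matrix ι ι F))} := by
        rw [iSup_le_iff]
        rintro i _ ⟨x, rfl⟩
        rw [Subalgebra.mem_centralizer_iff]
        intro z hz
        rw [Set.mem_singleton_iff] at hz
        subst hz
        show (((g⁻¹ : GL ι F) : Matrix ι ι F) * (k' : Matrix ι ι F)) * φ i x = φ i x * (((g⁻¹ : GL ι F) : Matrix ι ι F) * (k' : Matrix ι ι F))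
        rw [Matrix.mul_assoc, h1, cj_apply]
        simp only [← Matrix.mul_assoc]
        rw [gl_inv_mul, one_mul]
      intro y hy
      have := (Subalgebra.mem_centralizer_iff F).1 (h3 hy) _ rfl
      exact this
    rw [htop] at h2
    exact commute_of_commute_single fun i j => h2 _ trivial
  have hk'g : (k' : Matrix ι ι F) = c • (g : Matrix ι ι F) := by
    have h3 := congrArg (fun z => (g : Matrix ι ι F) * z) hc
    simp only [← Matrix.mul_assoc] at h3
    rw [gl_mul_inv, one_mul, Matrix.mul_smul, mul_one] at h3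
    exact h3
  rcases isEmpty_or_nonempty ι with hι | hι
  · rw [mem_tensorWreathSubgroup]
    refine ⟨1, Subgroup.one_mem _, ?_⟩
    ext i
    exact (hι.false i).elim
  have hc0 : c ≠ 0 := by
    rintro rfl
    have h4 := k'.isUnit
    rw [hk'g, zero_smul] at h4
    exact not_isUnit_zero h4
  rw [mem_tensorWreathSubgroup]
  -- scale one factor
  let i₀ : Fin t := ⟨0, Nat.pos_of_ne_zero ht⟩
  let s : GL (Fin d) F := Units.map (Matrix.scalar (Fin d) : F →+* Matrix (Fin d) (Fin d) F).toMonoidHom (Units.mk0 c hc0)⁻¹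
  have hs : (s : Matrix (Fin d) (Fin d) F) = c⁻¹ • 1 := by
    simp [s, Matrix.smul_one_eq_diagonal]
  refine ⟨tpU (Function.update (fun _ => 1) i₀ s) * k, ?_, ?_⟩
  · apply Subgroup.mul_mem
    · exact Subgroup.subset_closure (Or.inl (isPureTensor_tpU _))
    · exact Subgroup.mul_mem _ (Subgroup.subset_closure (Or.inl (isPureTensor_tpU _)))
        (Subgroup.subset_closure (Or.inr (isFactorPermutation_fpU _)))
  · rw [Units.val_mul, map_mul, ← hk', hk'g]
    have h5 : ((tpU (Function.update (fun _ => 1) i₀ s) : GL (Fin t → Fin d) F) : Matrix (Fin t → Fin d) (Fin t → Fin d) F) = c⁻¹ • 1 := by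
      show tp (fun i => ((Function.update (fun _ => (1 : GL (Fin d) F)) i₀ s i : GL (Fin d) F) : Matrix (Fin d) (Fin d) F)) = _
      have h6 : (fun i => ((Function.update (fun _ => (1 : GL (Fin d) F)) i₀ s i : GL (Fin d) F) : Matrix (Fin d) (Fin d) F)) =
          Function.update (fun _ => 1) i₀ (c⁻¹ • (1 : Matrix (Fin d) (Fin d) F)) := by
        funext i
        by_cases hi : i = i₀
        · subst hi; rw [Function.update_self, Function.update_self, hs]
        · rw [Function.update_of_ne hi, Function.update_of_ne hi]; rfl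
      rw [h6, ← tpM_apply, MultilinearMap.map_update_smul, tpM_apply]
      have h7 : Function.update (fun _ => (1 : Matrix (Fin d) (Fin d) F)) i₀ 1 = fun _ => 1 := by
        funext i
        by_cases hi : i = i₀
        · subst hi; rw [Function.update_self]
        · rw [Function.update_of_ne hi]
      rw [h7, tp_one]
    rw [h5, map_smul, map_one, Matrix.smul_mul, one_mul, smul_smul, inv_mul_cancel₀ hc0, one_smul]

end Cfsg.Agent.Lib.AschTensor
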