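import Mathlib

/-!
The Diophantine part of Jordan's class equation argument.
-/

set_option autoImplicit false

namespace Cfsg.Agent.Lib.BFJ

universe u v

theorem egypt (r : ℕ) : ∀ L : ℕ, 0 < L → ∃ B : ℕ, ∀ g : ℕ, 0 < g → ∀ A : Multiset ℕ,
    A.card = r → (∀ a ∈ A, 0 < a ∧ a < g) → ∀ z : ℤ,
    (z : ℚ) / L + (A.map (fun a : ℕ => (1 : ℚ) / a)).sum = 1 / g → g ≤ B := by
  induction r with
  | zero =>
    intro L hL
    refine ⟨L, fun g hg A hA _ z h => ?_⟩
    rw [Multiset.card_eq_zero] at hA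
    subst hA
    simp only [Multiset.map_zero, Multiset.sum_zero, add_zero] at h
    have hg' : (g : ℚ) ≠ 0 := by positivity
    have hL' : (L : ℚ) ≠ 0 := by positivity
    rw [div_eq_div_iff hL' hg', one_mul] at h
    have h1 : z * g = L := by exact_mod_cast h
    have h2 : (g : ℤ) ∣ L := ⟨z, by rw [mul_comm]; exact h1.symm⟩
    exact Nat.le_of_dvd hL (by exact_mod_cast h2)
  | succ r ih =>
    intro L hL
    set F := ((r + 1) * L).factorial with hF
    have hFpos : 0 < F := Nat.factorial_pos _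
    obtain ⟨B, hB⟩ := ih (L * F) (Nat.mul_pos hL hFpos)
    refine ⟨B, fun g hg A hA hag z h => ?_⟩
    have hgQ : (0 : ℚ) < g := by exact_mod_cast hg
    have hLQ : (0 : ℚ) < L := by exact_mod_cast hL
    have hne : A ≠ 0 := by
      rintro rfl; simp at hA
    have hpos : ∀ x ∈ A.map (fun a : ℕ => (1 : ℚ) / a), 0 ≤ x := by
      intro x hx
      rw [Multiset.mem_map] at hx
      obtain ⟨a, _, rfl⟩ := hx
      positivity
    -- z < 0
    have hz : z < 0 := by
      by_contra hcon
      push Not at hcon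
      obtain ⟨a, ha⟩ := Multiset.exists_mem_of_ne_zero hne
      have h1 : (1 : ℚ) / a ≤ (A.map (fun a : ℕ => (1 : ℚ) / a)).sum :=
        Multiset.single_le_sum hpos _ (Multiset.mem_map_of_mem (fun a : ℕ => (1 : ℚ) / a) ha)
      have h2 : (1 : ℚ) / g < 1 / a := by
        apply one_div_lt_one_div_of_lt
        · exact_mod_cast (hag a ha).1
        · exact_mod_cast (hag a ha).2
      have h3 : (0 : ℚ) ≤ (z : ℚ) / L := by
        apply div_nonneg
        · exact_mod_cast hcon
        · positivity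
      linarith
    have hz1 : (z : ℚ) ≤ -1 := by
      have : z ≤ -1 := by omega
      exact_mod_cast this
    have hz2 : (z : ℚ) / L ≤ - (1 / L) := by
      rw [← neg_div]
      exact div_le_div_of_nonneg_right hz1 hLQ.le
    -- a small member
    obtain ⟨a, ha, hasm⟩ : ∃ a ∈ A, a ≤ (r + 1) * L := by
      by_contra hcon
      push Not at hcon
      have h1 : (A.map (fun a : ℕ => (1 : ℚ) / a)).sum ≤ (A.map (fun a : ℕ => (1 : ℚ) / a)).card • ((1 : ℚ) / ((r + 1) * L)) := by
        apply Multiset.sum_le_card_nsmul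
        intro x hx
        rw [Multiset.mem_map] at hx
        obtain ⟨a, ha, rfl⟩ := hx
        apply one_div_le_one_div_of_le
        · positivity
        · have := hcon a ha
          exact_mod_cast this.le
      rw [Multiset.card_map, hA, nsmul_eq_mul] at h1
      have h2 : ((r + 1 : ℕ) : ℚ) * (1 / ((r + 1) * L)) = 1 / L := by
        push_cast
        field_simp
      rw [h2] at h1
      have h3 : (0 : ℚ) < 1 / g := by positivity
      linarith
    obtain ⟨A', rfl⟩ := Multiset.exists_cons_of_mem ha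
    have hapos : 0 < a := (hag a ha).1
    have haF : a ∣ F := Nat.dvd_factorial hapos hasm
    obtain ⟨d, hd⟩ := haF
    refine hB g hg A' (by simpa using hA) (fun x hx => hag x (Multiset.mem_cons_of_mem hx))
      (z * F + L * d) ?_
    rw [← h, Multiset.map_cons, Multiset.sum_cons, ← add_assoc]
    congr 1
    have haQ : (a : ℚ) ≠ 0 := by positivity
    have hdQ : (d : ℚ) ≠ 0 := by
      intro h0
      have : d = 0 := by exact_mod_cast h0
      rw [this, mul_zero] at hd
      omega
    push_cast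
    rw [hd]
    push_cast
    field_simp

/-- The bound on the order of a group from its class equation. -/
theorem egypt' (W M : ℕ) : ∃ B : ℕ, ∀ g : ℕ, 0 < g → ∀ {ι : Type u} {κ : Type v} (s : Finset ι) (t : Finset κ)
    (w₁ w a : ι → ℕ) (c : κ → ℕ), (∀ i ∈ s, 0 < w₁ i) → (∀ i ∈ s, 0 < w i ∧ w i ≤ W) →
    (∀ i ∈ s, 2 * w i ≤ a i ∧ a i < g) → (∀ j ∈ t, 0 < c j ∧ c j ≤ M) →
    (1 : ℚ) = 1 / g + ∑ i ∈ s, ((w₁ i : ℚ) / w i - 1 / a i) + ∑ j ∈ t, (1 : ℚ) / c j → g ≤ B := by
  classical
  set L := W.factorial * M.factorial with hL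
  have hLpos : 0 < L := Nat.mul_pos (Nat.factorial_pos _) (Nat.factorial_pos _)
  choose B hB using fun r => egypt r L hLpos
  refine ⟨(Finset.range (2 * W + 1)).sup B, ?_⟩
  intro g hg ι κ s t w₁ w a c hw₁ hw ha hc h
  have hterm : ∀ i ∈ s, (1 : ℚ) / (2 * W) ≤ (w₁ i : ℚ) / w i - 1 / a i := by
    intro i hi
    have h1 : (0 : ℚ) < w i := by exact_mod_cast (hw i hi).1
    have h2 : (w i : ℚ) ≤ W := by exact_mod_cast (hw i hi).2
    have h3 : (1 : ℚ) ≤ w₁ i := by exact_mod_cast hw₁ i hi
    have h4 : (2 : ℚ) * w i ≤ a i := by exact_mod_cast (ha i hi).1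
    have h5 : (1 : ℚ) / w i ≤ w₁ i / w i := div_le_div_of_nonneg_right h3 h1.le
    have h6 : (1 : ℚ) / a i ≤ 1 / (2 * w i) := one_div_le_one_div_of_le (by positivity) h4
    have h7 : (1 : ℚ) / (2 * W) ≤ 1 / (2 * w i) := one_div_le_one_div_of_le (by positivity) (by linarith)
    have h8 : (1 : ℚ) / w i = 1 / (2 * w i) + 1 / (2 * w i) := by field_simp; norm_num
    linarith
  have hcard : s.card ≤ 2 * W := by
    have h1 : s.card • ((1 : ℚ) / (2 * W)) ≤ ∑ i ∈ s, ((w₁ i : ℚ) / w i - 1 / a i) :=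
      Finset.card_nsmul_le_sum _ _ _ hterm
    have h2 : (0 : ℚ) ≤ ∑ j ∈ t, (1 : ℚ) / c j := Finset.sum_nonneg fun j _ => by positivity
    have h3 : (0 : ℚ) ≤ 1 / g := by positivity
    have h4 : (s.card : ℚ) * (1 / (2 * W)) ≤ 1 := by
      rw [nsmul_eq_mul] at h1
      linarith
    by_cases hW : W = 0
    · have : s = ∅ := by
        by_contra hne
        obtain ⟨i, hi⟩ := Finset.nonempty_iff_ne_empty.2 hne
        have := hw i hi
        omega
      rw [this]; simp
    · have hWQ : (0 : ℚ) < 2 * W := by positivity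
      rw [mul_one_div, div_le_one hWQ] at h4
      exact_mod_cast h4
  have hle : g ≤ B s.card := by
    refine hB s.card g hg (s.val.map a) (by simp) ?_ (L - ∑ i ∈ s, w₁ i * (L / w i : ℕ) - ∑ j ∈ t, (L / c j : ℕ)) ?_
    · intro x hx
      rw [Multiset.mem_map] at hx
      obtain ⟨i, hi, rfl⟩ := hx
      have := ha i hi
      have := hw i hi
      omega
    · rw [Multiset.map_map]
      have e1 : (s.val.map ((fun a : ℕ => (1 : ℚ) / a) ∘ a)).sum = ∑ i ∈ s, (1 : ℚ) / a i := rfl
      rw [e1]
      have hLQ : (L : ℚ) ≠ 0 := by positivity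
      have e2 : ((L - ∑ i ∈ s, w₁ i * (L / w i : ℕ) - ∑ j ∈ t, (L / c j : ℕ) : ℤ) : ℚ) / L =
          1 - ∑ i ∈ s, (w₁ i : ℚ) / w i - ∑ j ∈ t, (1 : ℚ) / c j := by
        push_cast
        rw [sub_div, sub_div, div_self hLQ, Finset.sum_div, Finset.sum_div]
        congr 1
        · congr 1
          apply Finset.sum_congr rfl
          intro i hi
          have hdvd : w i ∣ L := (Nat.dvd_factorial (hw i hi).1 (hw i hi).2).trans (Dvd.intro _ rfl)
          have hwQ : (w i : ℚ) ≠ 0 := by exact_mod_cast (hw i hi).1.ne'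
          rw [Int.cast_div (by exact_mod_cast hdvd) (by exact_mod_cast hwQ)]
          push_cast
          field_simp
        · apply Finset.sum_congr rfl
          intro j hj
          have hdvd : c j ∣ L := (Nat.dvd_factorial (hc j hj).1 (hc j hj).2).trans (Dvd.intro_left _ rfl)
          have hwQ : (c j : ℚ) ≠ 0 := by exact_mod_cast (hc j hj).1.ne'
          rw [Int.cast_div (by exact_mod_cast hdvd) (by exact_mod_cast hwQ)]
          push_cast
          field_simp
      rw [e2]
      rw [Finset.sum_sub_distrib] at h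
      linarith
  exact hle.trans (Finset.le_sup (f := B) (Finset.mem_range.2 (by omega)))

end Cfsg.Agent.Lib.BFJ
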