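import Cfsg.Agent.Lib.BFJ1
import Cfsg.Agent.Lib.BFJ2

/-!
Jordan's class equation: a finite group with a conjugation-invariant family of "tori" with bounded
Weyl groups, such that all remaining elements have bounded centralizers, has bounded order unless a
torus is normal.
-/

set_option autoImplicit false

namespace Cfsg.Agent.Lib.BFJ

universe u

section Range

variable {H : Type*} [Group H] [Finite H]

theorem range_card {α : Type*} (f : H → α) (N : Subgroup H)
    (h : ∀ g g', f g = f g' ↔ g⁻¹ * g' ∈ N) : (Set.range f).ncard * Nat.card N = Nat.card H := by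
  have e : (H ⧸ N) ≃ Set.range f := by
    refine Equiv.ofBijective (fun q => ⟨f q.out, q.out, rfl⟩) ⟨?_, ?_⟩
    · intro q q' hq
      have h1 : f q.out = f q'.out := congrArg Subtype.val hq
      rw [← QuotientGroup.out_eq' q, ← QuotientGroup.out_eq' q']
      exact QuotientGroup.eq.2 ((h _ _).1 h1)
    · rintro ⟨_, g, rfl⟩
      refine ⟨(g : H ⧸ N), Subtype.ext ?_⟩
      change f _ = f g
      rw [h]
      have : ((Quotient.out (g : H ⧸ N) : H) : H ⧸ N) = (g : H ⧸ N) := QuotientGroup.out_eq' _
      exact QuotientGroup.eq.1 this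
  rw [← Nat.card_coe_set_eq, ← Nat.card_congr e]
  have := N.card_mul_index
  rw [mul_comm] at this
  exact this

/-- A set stable under right multiplication by `E` has cardinality divisible by `|E|`. -/
theorem exists_card_eq (E : Subgroup H) (X : Finset H) (hX : ∀ x ∈ X, ∀ e ∈ E, x * e ∈ X) :
    ∃ k : ℕ, X.card = k * Nat.card E := by
  classical
  have := Fintype.ofFinite H
  have := Fintype.ofFinite (H ⧸ E)
  refine ⟨(X.image (fun x : H => (x : H ⧸ E))).card, ?_⟩
  rw [Finset.card_eq_sum_card_fiberwise (f := fun x : H => (x : H ⧸ E)) (t := X.image (fun x : H => (x : H ⧸ E)))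
    (fun x hx => by simpa using ⟨x, hx, rfl⟩), Finset.sum_congr rfl (g := fun _ => Nat.card E),
    Finset.sum_const, smul_eq_mul]
  intro q hq
  rw [Finset.mem_image] at hq
  obtain ⟨x, hx, rfl⟩ := hq
  rw [Nat.card_eq_fintype_card, ← Finset.card_univ]
  symm
  refine Finset.card_bij (fun (e : E) _ => x * (e : H)) ?_ ?_ ?_
  · intro e _
    rw [Finset.mem_filter]
    refine ⟨hX x hx e e.2, ?_⟩
    symm
    rw [QuotientGroup.eq]
    simp
  · intro a _ b _ h
    exact Subtype.ext (mul_left_cancel h)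
  · intro y hy
    rw [Finset.mem_filter] at hy
    have h1 : x⁻¹ * y ∈ E := QuotientGroup.eq.1 hy.2.symm
    exact ⟨⟨x⁻¹ * y, h1⟩, Finset.mem_univ _, by simp⟩

end Range

/-- The conjugation relation on subgroups. -/
def conjSetoid (H : Type u) [Group H] : Setoid (Subgroup H) where
  r E E' := ∃ g : H, E.map (MulAut.conj g).toMonoidHom = E'
  iseqv := by
    refine ⟨fun E => ⟨1, ?_⟩, ?_, ?_⟩
    · ext x; simp
    · rintro E _ ⟨g, rfl⟩
      refine ⟨g⁻¹, ?_⟩
      rw [Subgroup.map_map]
      ext x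
      simp [Subgroup.mem_map, MulAut.conj_apply, mul_assoc]
    · rintro E _ _ ⟨g, rfl⟩ ⟨h, rfl⟩
      refine ⟨h * g, ?_⟩
      rw [Subgroup.map_map]
      congr 1
      ext x
      simp [MulAut.conj_apply, mul_assoc]

theorem map_conj_eq_iff {H : Type*} [Group H] (E : Subgroup H) (g g' : H) :
    E.map (MulAut.conj g).toMonoidHom = E.map (MulAut.conj g').toMonoidHom ↔
      g⁻¹ * g' ∈ Subgroup.normalizer (E : Set H) := by
  have key : ∀ x : H, x ∈ E.map (MulAut.conj g).toMonoidHom ↔ g⁻¹ * x * g ∈ E := by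
    intro x
    rw [Subgroup.mem_map]
    constructor
    · rintro ⟨y, hy, rfl⟩
      simpa [MulAut.conj_apply, mul_assoc] using hy
    · intro h
      exact ⟨_, h, by simp [MulAut.conj_apply, mul_assoc]⟩
  have key' : ∀ x : H, x ∈ E.map (MulAut.conj g').toMonoidHom ↔ g'⁻¹ * x * g' ∈ E := by
    intro x
    rw [Subgroup.mem_map]
    constructor
    · rintro ⟨y, hy, rfl⟩
      simpa [MulAut.conj_apply, mul_assoc] using hy
    · intro h
      exact ⟨_, h, by simp [MulAut.conj_apply, mul_assoc]⟩
  rw [Subgroup.mem_normalizer_iff]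
  constructor
  · intro h x
    have h1 : g' * x * g'⁻¹ ∈ E.map (MulAut.conj g').toMonoidHom ↔ g' * x * g'⁻¹ ∈ E.map (MulAut.conj g).toMonoidHom := by
      rw [h]
    rw [key, key'] at h1
    have e1 : g'⁻¹ * (g' * x * g'⁻¹) * g' = x := by group
    have e2 : g⁻¹ * (g' * x * g'⁻¹) * g = g⁻¹ * g' * x * (g⁻¹ * g')⁻¹ := by group
    rw [e1, e2] at h1
    exact h1
  · intro h
    ext y
    rw [key, key']
    have := h (g'⁻¹ * y * g')
    have e2 : g⁻¹ * g' * (g'⁻¹ * y * g') * (g⁻¹ * g')⁻¹ = g⁻¹ * y * g := by group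
    rw [e2] at this
    exact this.symm

theorem conj_mem_normalizer_map {H : Type*} [Group H] [Finite H] (E : Subgroup H) (g : H) :
    Nat.card (Subgroup.normalizer ((E.map (MulAut.conj g).toMonoidHom : Subgroup H) : Set H)) =
      Nat.card (Subgroup.normalizer (E : Set H)) := by
  have h1 := range_card (fun x : H => E.map (MulAut.conj x).toMonoidHom) _ (map_conj_eq_iff E)
  have h2 := range_card (fun x : H => (E.map (MulAut.conj g).toMonoidHom).map (MulAut.conj x).toMonoidHom) _
    (map_conj_eq_iff (E.map (MulAut.conj g).toMonoidHom))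
  have h3 : Set.range (fun x : H => E.map (MulAut.conj x).toMonoidHom) =
      Set.range (fun x : H => (E.map (MulAut.conj g).toMonoidHom).map (MulAut.conj x).toMonoidHom) := by
    have key : ∀ x : H, (E.map (MulAut.conj g).toMonoidHom).map (MulAut.conj x).toMonoidHom =
        E.map (MulAut.conj (x * g)).toMonoidHom := by
      intro x
      rw [Subgroup.map_map]
      congr 1
      ext y
      simp [MulAut.conj_apply, mul_assoc]
    ext F
    constructor
    · rintro ⟨x, rfl⟩
      refine ⟨x * g⁻¹, ?_⟩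
      simp only [key]
      rw [inv_mul_cancel_right]
    · rintro ⟨x, rfl⟩
      exact ⟨x * g, (key x).symm⟩
  rw [← h3] at h2
  have hpos : 0 < (Set.range (fun x : H => E.map (MulAut.conj x).toMonoidHom)).ncard := by
    rw [Set.ncard_pos]
    exact ⟨_, 1, rfl⟩
  exact Nat.eq_of_mul_eq_mul_left hpos (h2.trans h1.symm)

set_option maxHeartbeats 1000000 in
theorem count (W M : ℕ) : ∃ B : ℕ, ∀ (H : Type u) [Group H] [Finite H] (T : Set (Subgroup H))
    (X : Subgroup H → Set H),
    (∀ E ∈ T, ∀ g : H, E.map (MulAut.conj g).toMonoidHom ∈ T) →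
    (∀ E ∈ T, ∀ g x : H, x ∈ X E → g * x * g⁻¹ ∈ X (E.map (MulAut.conj g).toMonoidHom)) →
    (∀ E ∈ T, ∀ e ∈ E, e ∈ X E) →
    (∀ E ∈ T, ∀ x ∈ X E, ∀ e ∈ E, x * e ∈ X E) →
    (∀ E ∈ T, 1 < Nat.card E ∧ E.relIndex (Subgroup.normalizer (E : Set H)) ≤ W) →
    (∀ E ∈ T, ∀ E' ∈ T, ∀ x : H, x ≠ 1 → x ∈ X E → x ∈ X E' → E = E') →
    (∀ x : H, x ≠ 1 → (∀ E ∈ T, x ∉ X E) → Nat.card (Subgroup.centralizer {x} : Subgroup H) ≤ M) →
    (∃ E ∈ T, E.Normal) ∨ Nat.card H ≤ B := by
  classical
  obtain ⟨B, hB⟩ := egypt'.{u, u} W M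
  refine ⟨B, fun H _ _ T X h1 h2 h3 h4 h5 h6 h7 => ?_⟩
  by_cases hnorm : ∃ E ∈ T, E.Normal
  · left; exact hnorm
  right
  have := Fintype.ofFinite H
  set TF : Finset (Subgroup H) := T.toFinite.toFinset with hTF
  have hTFm : ∀ E, E ∈ TF ↔ E ∈ T := fun E => by simp [hTF]
  set XE : Subgroup H → Finset H := fun E => Finset.univ.filter (fun x => x ∈ X E) with hXE
  have hXEm : ∀ E x, x ∈ XE E ↔ x ∈ X E := fun E x => by simp [hXE]
  set S : Finset H := Finset.univ.filter (fun x => x ≠ 1 ∧ ∀ E ∈ T, x ∉ X E) with hS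
  have hSm : ∀ x, x ∈ S ↔ x ≠ 1 ∧ ∀ E ∈ T, x ∉ X E := fun x => by simp [hS]
  -- the partition
  have hpart : Nat.card H = 1 + ∑ E ∈ TF, ((XE E).erase 1).card + S.card := by
    have hdis : ∀ E ∈ TF, ∀ E' ∈ TF, E ≠ E' → Disjoint ((XE E).erase 1) ((XE E').erase 1) := by
      intro E hE E' hE' hne
      rw [Finset.disjoint_left]
      intro x hx hx'
      rw [Finset.mem_erase, hXEm] at hx hx'
      exact hne (h6 E ((hTFm E).1 hE) E' ((hTFm E').1 hE') x hx.1 hx.2 hx'.2)
    rw [← Finset.card_biUnion hdis]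
    have hu : (Finset.univ : Finset H) = ({1} ∪ TF.biUnion (fun E => (XE E).erase 1)) ∪ S := by
      ext x
      simp only [Finset.mem_univ, Finset.mem_union, Finset.mem_singleton, Finset.mem_biUnion,
        Finset.mem_erase, hXEm, hSm, hTFm, true_iff]
      by_cases hx : x = 1
      · left; left; exact hx
      · by_cases hex : ∃ E ∈ T, x ∈ X E
        · obtain ⟨E, hE, hxE⟩ := hex
          left; right; exact ⟨E, hE, hx, hxE⟩
        · push Not at hex
          right; exact ⟨hx, hex⟩
    have hd1 : Disjoint ({1} ∪ TF.biUnion (fun E => (XE E).erase 1)) S := by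
      rw [Finset.disjoint_left]
      intro x hx hxS
      rw [hSm] at hxS
      rw [Finset.mem_union, Finset.mem_singleton, Finset.mem_biUnion] at hx
      rcases hx with hx | ⟨E, hE, hx⟩
      · exact hxS.1 hx
      · rw [Finset.mem_erase, hXEm] at hx
        exact hxS.2 E ((hTFm E).1 hE) hx.2
    have hd2 : Disjoint ({1} : Finset H) (TF.biUnion (fun E => (XE E).erase 1)) := by
      rw [Finset.disjoint_left]
      intro x hx hx'
      rw [Finset.mem_singleton] at hx
      rw [Finset.mem_biUnion] at hx'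
      obtain ⟨E, _, hx'⟩ := hx'
      rw [Finset.mem_erase] at hx'
      exact hx'.1 hx
    rw [Nat.card_eq_fintype_card, ← Finset.card_univ, hu, Finset.card_union_of_disjoint hd1,
      Finset.card_union_of_disjoint hd2, Finset.card_singleton]
  -- invariance of the cardinalities
  have hXinv : ∀ E ∈ T, ∀ g : H, ((XE (E.map (MulAut.conj g).toMonoidHom)).erase 1).card =
      ((XE E).erase 1).card := by
    intro E hE g
    symm
    refine Finset.card_bij (fun x _ => g * x * g⁻¹) ?_ ?_ ?_
    · intro x hx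
      rw [Finset.mem_erase, hXEm] at hx ⊢
      refine ⟨fun h => hx.1 ?_, h2 E hE g x hx.2⟩
      have : x = g⁻¹ * (g * x * g⁻¹) * g := by group
      rw [this, h]; group
    · intro x _ y _ h
      simpa using h
    · intro y hy
      rw [Finset.mem_erase, hXEm] at hy
      refine ⟨g⁻¹ * y * g, ?_, by group⟩
      rw [Finset.mem_erase, hXEm]
      refine ⟨fun h => hy.1 ?_, ?_⟩
      · have : y = g * (g⁻¹ * y * g) * g⁻¹ := by group
        rw [this, h]; group
      · have h8 := h2 _ (h1 E hE g) g⁻¹ y hy.2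
        have e1 : (E.map (MulAut.conj g).toMonoidHom).map (MulAut.conj g⁻¹).toMonoidHom = E := by
          rw [Subgroup.map_map]
          ext x
          simp [Subgroup.mem_map, MulAut.conj_apply, mul_assoc]
        rw [e1, inv_inv] at h8
        exact h8
  -- orbit sums over tori
  let I : Finset (Quotient (conjSetoid H)) := TF.image (Quotient.mk (conjSetoid H))
  have hrep : ∀ q ∈ I, q.out ∈ T := by
    intro q hq
    rw [Finset.mem_image] at hq
    obtain ⟨E, hE, rfl⟩ := hq
    obtain ⟨g, hg⟩ := Quotient.exact (Quotient.out_eq (Quotient.mk (conjSetoid H) E)).symm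
    rw [← hg]
    exact h1 E ((hTFm E).1 hE) g
  have hcard0 : (0 : ℚ) < Nat.card H := by exact_mod_cast Nat.card_pos
  have hsum1 : ((∑ E ∈ TF, ((XE E).erase 1).card : ℕ) : ℚ) =
      ∑ q ∈ I, (Nat.card H : ℚ) * (((XE q.out).erase 1).card / Nat.card (Subgroup.normalizer (q.out : Set H))) := by
    rw [← Finset.sum_fiberwise_of_maps_to (s := TF) (t := I) (g := Quotient.mk (conjSetoid H))
      (fun E hE => Finset.mem_image_of_mem _ hE)]
    push_cast
    apply Finset.sum_congr rfl
    intro q hq
    have hq' := hrep q hq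
    have hN := range_card (fun x : H => (q.out).map (MulAut.conj x).toMonoidHom) _ (map_conj_eq_iff q.out)
    have hset : ((TF.filter (fun E => Quotient.mk (conjSetoid H) E = q)) : Set (Subgroup H)) =
        Set.range (fun x : H => (q.out).map (MulAut.conj x).toMonoidHom) := by
      ext E
      simp only [Finset.coe_filter, hTFm, Set.mem_range]
      constructor
      · rintro ⟨hE, hEq⟩
        have : Quotient.mk (conjSetoid H) q.out = Quotient.mk (conjSetoid H) E := by
          rw [Quotient.out_eq, hEq]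
        obtain ⟨g, hg⟩ := Quotient.exact this
        exact ⟨g, hg⟩
      · rintro ⟨g, rfl⟩
        refine ⟨h1 _ hq' g, ?_⟩
        have : Quotient.mk (conjSetoid H) q.out = Quotient.mk (conjSetoid H) ((q.out).map (MulAut.conj g).toMonoidHom) :=
          Quotient.sound ⟨g, rfl⟩
        rw [← this, Quotient.out_eq]
    have hval : ∀ E ∈ TF.filter (fun E => Quotient.mk (conjSetoid H) E = q),
        (((XE E).erase 1).card : ℚ) = ((XE q.out).erase 1).card := by
      intro E hE
      have : E ∈ ((TF.filter (fun E => Quotient.mk (conjSetoid H) E = q)) : Set (Subgroup H)) := hE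
      rw [hset] at this
      obtain ⟨g, rfl⟩ := this
      exact_mod_cast hXinv _ hq' g
    rw [Finset.sum_congr rfl hval, Finset.sum_const, nsmul_eq_mul]
    rw [← hset, Set.ncard_coe_finset] at hN
    have hNpos : (0 : ℚ) < Nat.card (Subgroup.normalizer (q.out : Set H)) := by exact_mod_cast Nat.card_pos
    rw [← hN]
    push_cast
    field_simp
  let J : Finset (ConjClasses H) := S.image ConjClasses.mk
  have hSconj : ∀ x ∈ S, ∀ g : H, g * x * g⁻¹ ∈ S := by
    intro x hx g
    rw [hSm] at hx ⊢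
    refine ⟨fun h => hx.1 ?_, fun E hE hmem => ?_⟩
    · have : x = g⁻¹ * (g * x * g⁻¹) * g := by group
      rw [this, h]; group
    · have h8 := h2 _ hE g⁻¹ _ hmem
      have e : g⁻¹ * (g * x * g⁻¹) * g⁻¹⁻¹ = x := by group
      rw [e] at h8
      exact hx.2 _ (h1 E hE g⁻¹) h8
  have hrepJ : ∀ c ∈ J, Quotient.out c ∈ S := by
    intro c hc
    rw [Finset.mem_image] at hc
    obtain ⟨x, hx, rfl⟩ := hc
    have : IsConj x (Quotient.out (ConjClasses.mk x)) := by
      apply ConjClasses.mk_eq_mk_iff_isConj.1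
      exact (Quotient.out_eq (ConjClasses.mk x)).symm
    obtain ⟨g, hg⟩ := isConj_iff.1 this
    rw [← hg]
    exact hSconj x hx g
  have hsum2 : (S.card : ℚ) = ∑ c ∈ J, (Nat.card H : ℚ) * (1 / Nat.card (Subgroup.centralizer {(Quotient.out c : H)} : Subgroup H)) := by
    rw [Finset.card_eq_sum_card_fiberwise (f := ConjClasses.mk) (t := J) (fun x hx => Finset.mem_image_of_mem _ hx)]
    push_cast
    apply Finset.sum_congr rfl
    intro c hc
    have hc' := hrepJ c hc
    have hN := range_card (fun g : H => g * (Quotient.out c : H) * g⁻¹) (Subgroup.centralizer {(Quotient.out c : H)}) (by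
      intro g g'
      rw [Subgroup.mem_centralizer_singleton_iff]
      constructor
      · intro h
        calc g⁻¹ * g' * (Quotient.out c : H) = g⁻¹ * (g' * (Quotient.out c : H) * g'⁻¹) * g' := by group
          _ = g⁻¹ * (g * (Quotient.out c : H) * g⁻¹) * g' := by rw [← h]
          _ = (Quotient.out c : H) * (g⁻¹ * g') := by group
      · intro h
        calc g * (Quotient.out c : H) * g⁻¹ = g * ((Quotient.out c : H) * (g⁻¹ * g')) * g'⁻¹ := by group
          _ = g * (g⁻¹ * g' * (Quotient.out c : H)) * g'⁻¹ := by rw [← h]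
          _ = g' * (Quotient.out c : H) * g'⁻¹ := by group)
    have hset : ((S.filter (fun x => ConjClasses.mk x = c)) : Set H) =
        Set.range (fun g : H => g * (Quotient.out c : H) * g⁻¹) := by
      ext x
      simp only [Finset.coe_filter, Set.mem_range]
      constructor
      · rintro ⟨hx, hxc⟩
        have : IsConj (Quotient.out c) x := by
          apply ConjClasses.mk_eq_mk_iff_isConj.1
          rw [hxc]
          exact Quotient.out_eq c
        obtain ⟨g, hg⟩ := isConj_iff.1 this
        exact ⟨g, hg⟩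
      · rintro ⟨g, rfl⟩
        refine ⟨hSconj _ hc' g, ?_⟩
        have : ConjClasses.mk (g * (Quotient.out c : H) * g⁻¹) = ConjClasses.mk (Quotient.out c) :=
          ConjClasses.mk_eq_mk_iff_isConj.2 (isConj_iff.2 ⟨g⁻¹, by group⟩)
        rw [this]
        exact Quotient.out_eq c
    rw [← hset, Set.ncard_coe_finset] at hN
    have hNpos : (0 : ℚ) < Nat.card (Subgroup.centralizer {(Quotient.out c : H)} : Subgroup H) := by
      exact_mod_cast Nat.card_pos
    rw [← hN]
    push_cast
    field_simp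
  -- the data for `egypt'`
  have hE0 : ∀ E ∈ T, 1 < Nat.card E ∧ 0 < E.relIndex (Subgroup.normalizer (E : Set H)) ∧
      E.relIndex (Subgroup.normalizer (E : Set H)) ≤ W ∧
      Nat.card (Subgroup.normalizer (E : Set H)) = Nat.card E * E.relIndex (Subgroup.normalizer (E : Set H)) ∧
      Nat.card (Subgroup.normalizer (E : Set H)) < Nat.card H := by
    intro E hE
    refine ⟨(h5 E hE).1, Nat.pos_of_ne_zero (relIndex_ne _ _), (h5 E hE).2, ?_, ?_⟩
    · have := card_inf_mul E (Subgroup.normalizer (E : Set H))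
      rw [inf_of_le_left Subgroup.le_normalizer] at this
      exact this.symm
    · have hle : Nat.card (Subgroup.normalizer (E : Set H)) ≤ Nat.card H := Subgroup.card_le_card_group _
      refine lt_of_le_of_ne hle fun h => hnorm ⟨E, hE, ?_⟩
      have htop := Subgroup.eq_top_of_card_eq _ h
      exact Subgroup.normalizer_eq_top_iff.1 htop
  have hX1 : ∀ E ∈ T, ((XE E).erase 1).card = ((XE E).card / Nat.card E) * Nat.card E - 1 ∧
      0 < (XE E).card / Nat.card E := by
    intro E hE
    have hmem : (1 : H) ∈ XE E := (hXEm E 1).2 (h3 E hE 1 E.one_mem)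
    obtain ⟨k, hk⟩ := exists_card_eq E (XE E) (fun x hx e he => (hXEm _ _).2 (h4 E hE x ((hXEm _ _).1 hx) e he))
    have hEpos : 0 < Nat.card E := Nat.card_pos
    have hkdiv : (XE E).card / Nat.card E = k := by rw [hk, Nat.mul_div_cancel _ hEpos]
    rw [Finset.card_erase_of_mem hmem, hkdiv, hk]
    refine ⟨rfl, Nat.pos_of_ne_zero ?_⟩
    rintro rfl
    rw [zero_mul, Finset.card_eq_zero] at hk
    rw [hk] at hmem
    simp at hmem
  refine hB (Nat.card H) Nat.card_pos I J (fun q => (XE q.out).card / Nat.card q.out)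
    (fun q => (q.out).relIndex (Subgroup.normalizer (q.out : Set H)))
    (fun q => Nat.card (Subgroup.normalizer (q.out : Set H)))
    (fun c => Nat.card (Subgroup.centralizer {(Quotient.out c : H)} : Subgroup H)) ?_ ?_ ?_ ?_ ?_
  · intro q hq; exact (hX1 _ (hrep q hq)).2
  · intro q hq
    obtain ⟨a1, a2, a3, a4, a5⟩ := hE0 _ (hrep q hq)
    exact ⟨a2, a3⟩
  · intro q hq
    obtain ⟨a1, a2, a3, a4, a5⟩ := hE0 _ (hrep q hq)
    refine ⟨?_, a5⟩
    rw [a4]
    exact Nat.mul_le_mul_right _ a1
  · intro c hc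
    have := hrepJ c hc
    rw [hSm] at this
    exact ⟨Nat.card_pos, h7 _ this.1 this.2⟩
  · have h8 : (Nat.card H : ℚ) = 1 + ∑ q ∈ I, (Nat.card H : ℚ) * (((XE q.out).erase 1).card / Nat.card (Subgroup.normalizer (q.out : Set H))) +
        ∑ c ∈ J, (Nat.card H : ℚ) * (1 / Nat.card (Subgroup.centralizer {(Quotient.out c : H)} : Subgroup H)) := by
      rw [← hsum1, ← hsum2]
      exact_mod_cast hpart
    rw [← Finset.mul_sum, ← Finset.mul_sum] at h8
    have h9 : ∀ q ∈ I, ((((XE q.out).card / Nat.card q.out : ℕ) : ℚ) / ((q.out).relIndex (Subgroup.normalizer (q.out : Set H)) : ℕ) -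
        1 / (Nat.card (Subgroup.normalizer (q.out : Set H)) : ℕ)) =
        (((XE q.out).erase 1).card / Nat.card (Subgroup.normalizer (q.out : Set H)) : ℚ) := by
      intro q hq
      obtain ⟨a1, a2, a3, a4, a5⟩ := hE0 _ (hrep q hq)
      obtain ⟨b1, b2⟩ := hX1 _ (hrep q hq)
      set w := (q.out).relIndex (Subgroup.normalizer (q.out : Set H))
      set k := (XE q.out).card / Nat.card q.out
      rw [b1, a4]
      have e1 : ((k * Nat.card q.out - 1 : ℕ) : ℚ) = k * Nat.card q.out - 1 := by
        rw [Nat.cast_sub (Nat.succ_le_of_lt (Nat.mul_pos b2 Nat.card_pos))]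
        push_cast; rfl
      rw [e1]
      have hw0 : (w : ℚ) ≠ 0 := by exact_mod_cast a2.ne'
      have hc0 : (Nat.card q.out : ℚ) ≠ 0 := by exact_mod_cast Nat.card_pos.ne'
      push_cast
      field_simp
    rw [Finset.sum_congr rfl h9]
    have hne : (Nat.card H : ℚ) ≠ 0 := hcard0.ne'
    have alg : ∀ c A B : ℚ, c ≠ 0 → c = 1 + c * A + c * B → 1 = 1 / c + A + B := by
      intro c A B hc h
      field_simp
      linarith
    exact alg _ _ _ hne h8

end Cfsg.Agent.Lib.BFJ
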