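import Cfsg.Agent.Lib.BFJ3

/-!
Structure part of the Brauer–Feit theorem: groups in which centralizers of nontrivial elements
are boundedly close to abelian `p'`-groups of bounded rank.
-/

set_option autoImplicit false

namespace Cfsg.Agent.Lib.BFJ

universe u

open Subgroup

section

variable {H : Type u} [Group H] [Finite H]

/-- conjugation -/
abbrev cj (g : H) : H →* H := (MulAut.conj g).toMonoidHom

omit [Finite H] in
theorem cj_apply (g x : H) : cj g x = g * x * g⁻¹ := by simp [cj, MulAut.conj_apply]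

omit [Finite H] in
theorem cj_inj (g : H) : Function.Injective (cj g) := (MulAut.conj g).injective

omit [Finite H] in
theorem mem_map_cj {E : Subgroup H} {g x : H} : x ∈ E.map (cj g) ↔ g⁻¹ * x * g ∈ E := by
  rw [Subgroup.mem_map]
  constructor
  · rintro ⟨y, hy, rfl⟩
    have : g⁻¹ * cj g y * g = y := by rw [cj_apply]; group
    rwa [this]
  · intro h
    exact ⟨_, h, by rw [cj_apply]; group⟩

omit [Finite H] in
theorem map_cj_centralizer (g y : H) : (centralizer {y} : Subgroup H).map (cj g) = centralizer {g * y * g⁻¹} := by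
  ext x
  rw [mem_map_cj, mem_centralizer_singleton_iff, mem_centralizer_singleton_iff]
  constructor
  · intro h
    calc x * (g * y * g⁻¹) = g * (g⁻¹ * x * g * y) * g⁻¹ := by group
      _ = g * (y * (g⁻¹ * x * g)) * g⁻¹ := by rw [h]
      _ = g * y * g⁻¹ * x := by group
  · intro h
    calc g⁻¹ * x * g * y = g⁻¹ * (x * (g * y * g⁻¹)) * g := by group
      _ = g⁻¹ * (g * y * g⁻¹ * x) * g := by rw [h]
      _ = y * (g⁻¹ * x * g) := by group

theorem card_map_cj (E : Subgroup H) (g : H) : Nat.card (E.map (cj g)) = Nat.card E :=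
  (Nat.card_congr (E.equivMapOfInjective _ (cj_inj g)).toEquiv).symm

omit [Finite H] in
theorem Good.map_cj {p : ℕ} {A : Subgroup H} (hA : Good p A) (g : H) : Good p (A.map (cj g)) := hA.map _

omit [Finite H] in
theorem map_inf_cj (A B : Subgroup H) (g : H) : (A ⊓ B).map (cj g) = A.map (cj g) ⊓ B.map (cj g) :=
  Subgroup.map_inf _ _ _ (cj_inj g)

omit [Finite H] in
theorem map_cj_ne_bot {A : Subgroup H} (h : A ≠ ⊥) (g : H) : A.map (cj g) ≠ ⊥ := by
  intro h1
  rw [Subgroup.map_eq_bot_iff_of_injective _ (cj_inj g)] at h1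
  exact h h1

omit [Finite H] in
theorem map_cj_inv (A : Subgroup H) (g : H) : (A.map (cj g)).map (cj g⁻¹) = A := by
  ext x
  rw [mem_map_cj, mem_map_cj]
  have : g⁻¹ * (g⁻¹⁻¹ * x * g⁻¹) * g = x := by group
  rw [this]

omit [Finite H] in
theorem map_cj_inv' (A : Subgroup H) (g : H) : (A.map (cj g⁻¹)).map (cj g) = A := by
  have := map_cj_inv A g⁻¹
  rwa [inv_inv] at this

/-- the number of elements of order dividing `r` in abelian `p'`-subgroups is at most `r ^ N` -/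
def RankLe (H : Type u) [Group H] (p N : ℕ) : Prop :=
  ∀ A : Subgroup H, Good p A → ∀ r : ℕ, 0 < r → ({u : H | u ∈ A ∧ u ^ r = 1} : Set H).ncard ≤ r ^ N

theorem relIndex_le_of_pow {p N : ℕ} (hr : RankLe H p N) {D E : Subgroup H} (hD : Good p D) (hED : E ≤ D)
    {β : ℕ} (hβ : 0 < β) (h : ∀ u ∈ D, u ^ β ∈ E) : E.relIndex D ≤ β ^ N := by
  classical
  have := Fintype.ofFinite H
  set DF : Finset H := Finset.univ.filter (· ∈ D) with hDF
  set EF : Finset H := Finset.univ.filter (· ∈ E) with hEF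
  have h1 : DF.card ≤ β ^ N * EF.card := by
    refine Finset.card_le_mul_card_image_of_maps_to (f := fun u : H => u ^ β) (t := EF) ?_ _ ?_
    · intro u hu
      simp only [hDF, hEF, Finset.mem_filter, Finset.mem_univ, true_and] at hu ⊢
      exact h u hu
    · intro v _
      by_cases hex : ∃ u₀ ∈ DF, u₀ ^ β = v
      · obtain ⟨u₀, hu₀, hv⟩ := hex
        simp only [hDF, Finset.mem_filter, Finset.mem_univ, true_and] at hu₀
        refine le_trans ?_ (hr D hD β hβ)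
        rw [Set.ncard_eq_toFinset_card']
        refine Finset.card_le_card_of_injOn (fun u => u₀⁻¹ * u) ?_ (fun a _ b _ hab => mul_left_cancel hab)
        intro u hu
        simp only [hDF, Finset.coe_filter, Finset.mem_filter, Finset.mem_univ, true_and, Set.mem_setOf_eq,
          Set.coe_toFinset] at hu ⊢
        refine ⟨D.mul_mem (D.inv_mem hu₀) hu.1, ?_⟩
        have hc : Commute u₀⁻¹ u := by
          have : Commute u₀ u := hD.1 u₀ hu₀ u hu.1
          exact this.inv_left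
        rw [hc.mul_pow, inv_pow, hv, hu.2, inv_mul_cancel]
      · have : DF.filter (fun u : H => u ^ β = v) = ∅ := by
          rw [Finset.filter_eq_empty_iff]
          intro u hu huv
          exact hex ⟨u, hu, huv⟩
        rw [this]; simp
  have e1 : DF.card = Nat.card D := by
    rw [Nat.card_eq_fintype_card, Fintype.card_subtype]
  have e2 : EF.card = Nat.card E := by
    rw [Nat.card_eq_fintype_card, Fintype.card_subtype]
  rw [e1, e2] at h1
  have h2 := card_inf_mul E D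
  rw [inf_of_le_left hED] at h2
  rw [← h2, mul_comm] at h1
  exact Nat.le_of_mul_le_mul_right h1 Nat.card_pos

/-- the family of large tori -/
def FF (H : Type u) [Group H] (p b τ : ℕ) : Set (Subgroup H) :=
  {D | Good p D ∧ τ < Nat.card D ∧ ∀ y ∈ D, y ≠ 1 → D.relIndex (centralizer {y}) ≤ b}

/-- the canonical torus in the class of `D` -/
def Eof (p b τ : ℕ) (D : Subgroup H) : Subgroup H :=
  sInf {D' | D' ∈ FF H p b τ ∧ D' ⊓ D ≠ ⊥}

/-- the elements attached to the torus `E` -/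
def XX (q : ℕ) (E : Subgroup H) : Set H :=
  {x | x ∈ normalizer (E : Set H) ∧ q < Nat.card (E ⊓ centralizer {x} : Subgroup H)}

theorem FF_cj {p b τ : ℕ} {D : Subgroup H} (hD : D ∈ FF H p b τ) (g : H) : D.map (cj g) ∈ FF H p b τ := by
  obtain ⟨h1, h2, h3⟩ := hD
  refine ⟨h1.map_cj g, by rwa [card_map_cj], ?_⟩
  intro y hy hy1
  rw [mem_map_cj] at hy
  have h4 := h3 _ hy (fun h => hy1 (by
    have : y = g * (g⁻¹ * y * g) * g⁻¹ := by group
    rw [this, h]; group))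
  have h5 : (centralizer {y} : Subgroup H) = (centralizer {g⁻¹ * y * g} : Subgroup H).map (cj g) := by
    rw [map_cj_centralizer]
    congr 2
    group
  rw [h5, relIndex_map_map_of_injective _ _ (cj_inj g)]
  exact h4

section Fam

variable {p b τ : ℕ}

theorem FF_rel {D D' : Subgroup H} (hD : D ∈ FF H p b τ) (hD' : D' ∈ FF H p b τ) (h : D' ⊓ D ≠ ⊥) :
    D'.relIndex D ≤ b := by
  obtain ⟨y, hy, hy1⟩ := (Subgroup.ne_bot_iff_exists_ne_one).1 h |> fun ⟨a, ha⟩ => (⟨a.1, a.2, fun h => ha (Subtype.ext h)⟩ : ∃ y ∈ D' ⊓ D, y ≠ 1)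
  exact (relIndex_le_of_le_right (hD.1.le_centralizer hy.2) (relIndex_ne _ _)).trans (hD'.2.2 y hy.1 hy1)

theorem ne_bot_of_card {A : Subgroup H} (h : 1 < Nat.card A) : A ≠ ⊥ := by
  rintro rfl
  rw [Subgroup.card_bot] at h
  omega

theorem FF_trans (hτ : b * b ≤ τ) {D₁ D₂ D₃ : Subgroup H} (h1 : D₁ ∈ FF H p b τ) (h2 : D₂ ∈ FF H p b τ)
    (h3 : D₃ ∈ FF H p b τ) (h12 : D₁ ⊓ D₂ ≠ ⊥) (h32 : D₃ ⊓ D₂ ≠ ⊥) : D₁ ⊓ D₃ ≠ ⊥ := by
  have h4 : (D₁ ⊓ D₃).relIndex D₂ ≤ b * b :=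
    relIndex_inf_le.trans (Nat.mul_le_mul (FF_rel h2 h1 h12) (FF_rel h2 h3 h32))
  have h5 := card_le_of_relIndex h4
  have h6 : τ < Nat.card D₂ := h2.2.1
  have h7 : 1 < Nat.card ((D₁ ⊓ D₃) ⊓ D₂ : Subgroup H) := by
    by_contra hcon
    have : Nat.card ((D₁ ⊓ D₃) ⊓ D₂ : Subgroup H) ≤ 1 := by omega
    have := Nat.mul_le_mul_left (b * b) this
    omega
  intro h8
  rw [h8, bot_inf_eq, Subgroup.card_bot] at h7
  omega

theorem Eof_eq (hτ : b * b ≤ τ) {D D' : Subgroup H} (hD : D ∈ FF H p b τ) (hD' : D' ∈ FF H p b τ)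
    (h : D' ⊓ D ≠ ⊥) : Eof p b τ D = Eof p b τ D' := by
  have h' : D ⊓ D' ≠ ⊥ := by rwa [inf_comm]
  have : {D'' | D'' ∈ FF H p b τ ∧ D'' ⊓ D ≠ ⊥} = {D'' | D'' ∈ FF H p b τ ∧ D'' ⊓ D' ≠ ⊥} := by
    ext D''
    constructor
    · rintro ⟨h1, h2⟩
      exact ⟨h1, FF_trans hτ h1 hD hD' h2 h⟩
    · rintro ⟨h1, h2⟩
      exact ⟨h1, FF_trans hτ h1 hD' hD h2 h'⟩
  unfold Eof
  rw [this]

theorem Eof_le {D : Subgroup H} (hD : D ∈ FF H p b τ) (h1 : D ≠ ⊥) : Eof p b τ D ≤ D :=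
  sInf_le ⟨hD, by rwa [inf_idem]⟩

theorem pow_mem_Eof {D : Subgroup H} (hD : D ∈ FF H p b τ) {u : H} (hu : u ∈ D) :
    u ^ b.factorial ∈ Eof p b τ D := by
  unfold Eof
  rw [Subgroup.mem_sInf]
  rintro D' ⟨hD', hne⟩
  exact pow_factorial_mem (FF_rel hD hD' hne) hu

theorem Eof_relIndex {N : ℕ} (hr : RankLe H p N) {D : Subgroup H} (hD : D ∈ FF H p b τ) (h1 : D ≠ ⊥) :
    (Eof p b τ D).relIndex D ≤ b.factorial ^ N :=
  relIndex_le_of_pow hr hD.1 (Eof_le hD h1) (Nat.factorial_pos _) fun _ hu => pow_mem_Eof hD hu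

theorem Eof_cj_le {D : Subgroup H} (g : H) :
    (Eof p b τ D).map (cj g) ≤ Eof p b τ (D.map (cj g)) := by
  intro x hx
  rw [mem_map_cj] at hx
  unfold Eof at hx ⊢
  rw [Subgroup.mem_sInf] at hx ⊢
  rintro D' ⟨hD', hne⟩
  have h1 := hx (D'.map (cj g⁻¹)) ⟨FF_cj hD' g⁻¹, by
    have h2 := map_cj_ne_bot hne g⁻¹
    rwa [map_inf_cj, map_cj_inv] at h2⟩
  rw [mem_map_cj] at h1
  have : g⁻¹⁻¹ * (g⁻¹ * x * g) * g⁻¹ = x := by group
  rwa [this] at h1

theorem Eof_cj {D : Subgroup H} (g : H) :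
    (Eof p b τ D).map (cj g) = Eof p b τ (D.map (cj g)) := by
  apply le_antisymm (Eof_cj_le g)
  have h1 := Eof_cj_le (p := p) (b := b) (τ := τ) (D := D.map (cj g)) g⁻¹
  rw [map_cj_inv] at h1
  have h2 := Subgroup.map_mono (f := cj g) h1
  rwa [map_cj_inv'] at h2

end Fam

end

end Cfsg.Agent.Lib.BFJ
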