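import Cfsg.Agent.Lib.BFJ4

/-!
The structure theorem behind the Brauer–Feit theorem.
-/

set_option autoImplicit false

namespace Cfsg.Agent.Lib.BFJ

universe u

open Subgroup

section

variable {H : Type u} [Group H] [Finite H]

omit [Finite H] in
theorem centralizer_le_normalizer' (E : Subgroup H) :
    centralizer (E : Set H) ≤ normalizer (E : Set H) := by
  intro x hx
  rw [Subgroup.mem_centralizer_iff] at hx
  rw [Subgroup.mem_normalizer_iff]
  intro e
  constructor
  · intro he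
    have := hx e he
    have h2 : x * e * x⁻¹ = e := by rw [← this]; group
    rwa [h2]
  · intro he
    have := hx _ he
    have h2 : x * e * x⁻¹ = e := by
      have h3 : x * e * x⁻¹ * x = x * (x * e * x⁻¹) := this
      have h4 : e = x * e * x⁻¹ := by
        calc e = x⁻¹ * (x * e * x⁻¹ * x) := by group
          _ = x⁻¹ * (x * (x * e * x⁻¹)) := by rw [h3]
          _ = x * e * x⁻¹ := by group
      exact h4.symm
    rwa [h2] at he

theorem XX_cj {q : ℕ} {E : Subgroup H} (g : H) {x : H} (hx : x ∈ XX q E) :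
    g * x * g⁻¹ ∈ XX q (E.map (cj g)) := by
  obtain ⟨h1, h2⟩ := hx
  constructor
  · rw [Subgroup.mem_normalizer_iff] at h1 ⊢
    intro e
    rw [mem_map_cj, mem_map_cj, h1]
    have : x * (g⁻¹ * e * g) * x⁻¹ = g⁻¹ * (g * x * g⁻¹ * e * (g * x * g⁻¹)⁻¹) * g := by group
    rw [this]
  · rw [← map_cj_centralizer, ← map_inf_cj, card_map_cj]
    exact h2

variable {p c N W₀ D₀ : ℕ}

theorem XX_dis {b q τ : ℕ} (hq : b * c ≤ q) (hcb : 1 ≤ b) (hτ : b * b ≤ τ) (hτ1 : 1 ≤ τ)
    (hS1 : ∀ x : H, x ≠ 1 → ∃ A : Subgroup H, Good p A ∧ A ≤ centralizer {x} ∧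
      A.relIndex (centralizer {x}) ≤ c)
    {D D' : Subgroup H} (hD : D ∈ FF H p b τ) (hD' : D' ∈ FF H p b τ) {x : H} (hx1 : x ≠ 1)
    (hx : x ∈ XX q (Eof p b τ D)) (hx' : x ∈ XX q (Eof p b τ D')) :
    Eof p b τ D = Eof p b τ D' := by
  obtain ⟨A, hA, hAx, hAi⟩ := hS1 x hx1
  have hDne : D ≠ ⊥ := ne_bot_of_card (lt_of_le_of_lt hτ1 hD.2.1)
  have hDne' : D' ≠ ⊥ := ne_bot_of_card (lt_of_le_of_lt hτ1 hD'.2.1)
  set E := Eof p b τ D with hE
  set E' := Eof p b τ D' with hE'
  have hED : E ≤ D := Eof_le hD hDne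
  have hED' : E' ≤ D' := Eof_le hD' hDne'
  set U := E ⊓ centralizer {x} with hU
  set U' := E' ⊓ centralizer {x} with hU'
  have i1 : A.relIndex U ≤ c := (relIndex_le_of_le_right inf_le_right (relIndex_ne _ _)).trans hAi
  have i2 : A.relIndex U' ≤ c := (relIndex_le_of_le_right inf_le_right (relIndex_ne _ _)).trans hAi
  have j1 := card_le_of_relIndex i1
  have j2 := card_le_of_relIndex i2
  have k1 : q < Nat.card U := hx.2
  have k2 : q < Nat.card U' := hx'.2
  have l1 : 1 < Nat.card (A ⊓ U : Subgroup H) := by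
    by_contra hcon
    have h1 : Nat.card (A ⊓ U : Subgroup H) ≤ 1 := by omega
    have h2 := Nat.mul_le_mul_left c h1
    have h3 : c ≤ b * c := Nat.le_mul_of_pos_left c hcb
    omega
  obtain ⟨y, hy, hy1⟩ := exists_ne_of_card l1
  have hyD : y ∈ D := hED hy.2.1
  -- A ⊓ U' centralizes y
  have l2 : (A ⊓ U' : Subgroup H) ≤ centralizer {y} := fun u hu =>
    (hA.le_centralizer hy.1) hu.1
  have l3 : D.relIndex (A ⊓ U') ≤ b :=
    (relIndex_le_of_le_right l2 (relIndex_ne _ _)).trans (hD.2.2 y hyD hy1)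
  have l4 := card_le_of_relIndex l3
  have l5 : 1 < Nat.card (D ⊓ (A ⊓ U') : Subgroup H) := by
    by_contra hcon
    have h1 : Nat.card (D ⊓ (A ⊓ U') : Subgroup H) ≤ 1 := by omega
    have h2 := Nat.mul_le_mul_left b h1
    have h3 : Nat.card (A ⊓ U' : Subgroup H) ≤ b := by omega
    have h4 := Nat.mul_le_mul_left c h3
    have h5 : c * b = b * c := mul_comm _ _
    omega
  obtain ⟨z, hz, hz1⟩ := exists_ne_of_card l5
  apply Eof_eq hτ hD hD'
  intro hbot
  have : z ∈ D' ⊓ D := ⟨hED' hz.2.2.1, hz.1⟩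
  rw [hbot, Subgroup.mem_bot] at this
  exact hz1 this

set_option maxHeartbeats 800000 in
theorem XX_large {b q τ : ℕ} (hb : b = c * c) (hc : 1 ≤ c) (hτ1 : 1 ≤ τ) (hτ : b * b ≤ τ)
    (hS1 : ∀ x : H, x ≠ 1 → ∃ A : Subgroup H, Good p A ∧ A ≤ centralizer {x} ∧
      A.relIndex (centralizer {x}) ≤ c)
    (hS2 : RankLe H p N)
    (hS4 : ∀ (y : H) (k : ℕ), ∃ j ≤ D₀, (centralizer {y ^ (k ^ j)} : Subgroup H) =
      centralizer {y ^ (k ^ (j + 1))})
    {x : H} (hx1 : x ≠ 1)
    (hx : c * ((c.factorial ^ (D₀ + 1)) ^ N + c * τ + (c * b.factorial ^ N) * q + c) <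
      Nat.card (centralizer {x} : Subgroup H)) :
    ∃ D ∈ FF H p b τ, x ∈ XX q (Eof p b τ D) := by
  obtain ⟨A, hA, hAx, hAi⟩ := hS1 x hx1
  set k := c.factorial with hk
  set R := k ^ (D₀ + 1) with hR
  have hkpos : 0 < k := Nat.factorial_pos _
  have hRpos : 0 < R := Nat.pow_pos hkpos
  have hcA := card_le_of_relIndex hAi
  rw [inf_of_le_left hAx] at hcA
  have hAc : R ^ N + c * τ + (c * b.factorial ^ N) * q + c < Nat.card A := by
    by_contra hcon
    push Not at hcon
    have := Nat.mul_le_mul_left c hcon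
    omega
  -- a deep element
  obtain ⟨y₀, hy₀, hy₀R⟩ : ∃ y ∈ A, y ^ R ≠ 1 := by
    by_contra hcon
    push Not at hcon
    have h1 : ({u : H | u ∈ A ∧ u ^ R = 1} : Set H) = (A : Set H) := by
      ext u
      exact ⟨fun h => h.1, fun h => ⟨h, hcon u h⟩⟩
    have h2 := hS2 A hA R hRpos
    rw [h1] at h2
    have h3 : (A : Set H).ncard = Nat.card A := rfl
    omega
  obtain ⟨j, hj, hjc⟩ := hS4 y₀ k
  set y := y₀ ^ (k ^ j) with hy
  have hyk : y ^ k = y₀ ^ (k ^ (j + 1)) := by rw [hy, ← pow_mul, pow_succ]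
  have hyk1 : y ^ k ≠ 1 := by
    intro h
    apply hy₀R
    rw [hyk] at h
    have h2 : k ^ (j + 1) ∣ R := pow_dvd_pow k (by omega)
    obtain ⟨d, hd⟩ := h2
    rw [hd, pow_mul, h, one_pow]
  have hy1 : y ≠ 1 := by
    rintro h
    apply hyk1
    rw [h, one_pow]
  have hyA : y ∈ A := A.pow_mem hy₀ _
  have hCy : (centralizer {y} : Subgroup H) = centralizer {y ^ k} := by rw [hyk]; exact hjc
  obtain ⟨D, hD, hDy, hDi⟩ := hS1 y hy1
  have hAy : A ≤ centralizer {y} := hA.le_centralizer hyA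
  have hDA : D.relIndex A ≤ c := (relIndex_le_of_le_right hAy (relIndex_ne _ _)).trans hDi
  have hDAc := card_le_of_relIndex hDA
  have hbpos : 1 ≤ b := by rw [hb]; exact Nat.mul_pos hc hc
  have hcard1 : τ < Nat.card (D ⊓ A : Subgroup H) := by
    by_contra hcon
    push Not at hcon
    have := Nat.mul_le_mul_left c hcon
    omega
  have hDF : D ∈ FF H p b τ := by
    refine ⟨hD, lt_of_lt_of_le hcard1 ?_, ?_⟩
    · exact Subgroup.card_le_of_le inf_le_left
    · intro y' hy' hy'1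
      obtain ⟨B, hB, hBy, hBi⟩ := hS1 y' hy'1
      -- y centralizes y'
      have h1 : y ∈ (centralizer {y'} : Subgroup H) := by
        have := hDy hy'
        rw [mem_centralizer_singleton_iff] at this ⊢
        exact this.symm
      have h2 : y ^ k ∈ B := pow_factorial_mem hBi h1
      have h3 : B ≤ centralizer {y} := by
        rw [hCy]
        exact hB.le_centralizer h2
      have h4 : D.relIndex B ≤ c := (relIndex_le_of_le_right h3 (relIndex_ne _ _)).trans hDi
      have h5 : (D ⊓ B).relIndex (centralizer {y'}) = (D ⊓ B).relIndex B * B.relIndex (centralizer {y'}) :=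
        (relIndex_mul_relIndex _ _ _ inf_le_right hBy).symm
      rw [inf_relIndex_right] at h5
      calc D.relIndex (centralizer {y'}) ≤ (D ⊓ B).relIndex (centralizer {y'}) :=
            relIndex_le_of_le_left inf_le_left (relIndex_ne _ _)
        _ = _ := h5
        _ ≤ c * c := Nat.mul_le_mul h4 hBi
        _ = b := hb.symm
  have hDne : D ≠ ⊥ := ne_bot_of_card (lt_of_le_of_lt hτ1 hDF.2.1)
  refine ⟨D, hDF, ?_, ?_⟩
  · -- x normalizes the torus
    have h1 : D.map (cj x) ⊓ D ≠ ⊥ := by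
      obtain ⟨z, hz, hz1⟩ := exists_ne_of_card (lt_of_le_of_lt hτ1 hcard1)
      intro hbot
      have h2 : z ∈ D.map (cj x) ⊓ D := by
        refine Subgroup.mem_inf.2 ⟨?_, hz.1⟩
        rw [mem_map_cj]
        have h3 := hAx hz.2
        rw [mem_centralizer_singleton_iff] at h3
        have : x⁻¹ * z * x = z := by rw [mul_assoc, h3]; group
        rw [this]; exact hz.1
      rw [hbot, Subgroup.mem_bot] at h2
      exact hz1 h2
    have h2 : (Eof p b τ D).map (cj x) = Eof p b τ D := by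
      rw [Eof_cj]
      exact (Eof_eq hτ hDF (FF_cj hDF x) h1).symm
    rw [Subgroup.mem_normalizer_iff]
    intro e
    constructor
    · intro he
      rw [← h2, mem_map_cj]
      have : x⁻¹ * (x * e * x⁻¹) * x = e := by group
      rwa [this]
    · intro he
      rw [← h2, mem_map_cj] at he
      have : x⁻¹ * (x * e * x⁻¹) * x = e := by group
      rwa [this] at he
  · have h1 : (Eof p b τ D).relIndex D ≤ b.factorial ^ N := Eof_relIndex hS2 hDF hDne
    have h2 : (Eof p b τ D).relIndex A ≤ c * b.factorial ^ N := by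
      have h3 : (Eof p b τ D).relIndex (D ⊓ A) ≤ b.factorial ^ N :=
        (relIndex_le_of_le_right inf_le_left (relIndex_ne _ _)).trans h1
      calc (Eof p b τ D).relIndex A ≤ (Eof p b τ D ⊓ (D ⊓ A)).relIndex A :=
            relIndex_le_of_le_left inf_le_left (relIndex_ne _ _)
        _ = (Eof p b τ D ⊓ (D ⊓ A)).relIndex (D ⊓ A) * (D ⊓ A).relIndex A :=
            (relIndex_mul_relIndex _ _ _ inf_le_right inf_le_right).symm
        _ = (Eof p b τ D).relIndex (D ⊓ A) * D.relIndex A := by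
            rw [inf_relIndex_right, inf_relIndex_right]
        _ ≤ b.factorial ^ N * c := Nat.mul_le_mul h3 hDA
        _ = c * b.factorial ^ N := mul_comm _ _
    have h3 := card_le_of_relIndex h2
    have h4 : q < Nat.card (Eof p b τ D ⊓ A : Subgroup H) := by
      by_contra hcon
      push Not at hcon
      have := Nat.mul_le_mul_left (c * b.factorial ^ N) hcon
      omega
    exact lt_of_lt_of_le h4 (Subgroup.card_le_of_le (inf_le_inf_left _ hAx))

end

set_option maxHeartbeats 800000 in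
theorem structure_thm (p c N W₀ D₀ : ℕ) (hp : p.Prime) (hc : 1 ≤ c) : ∃ B : ℕ, ∀ (H : Type u) [Group H] [Finite H],
    (∀ x : H, x ≠ 1 → ∃ A : Subgroup H, Good p A ∧ A ≤ centralizer {x} ∧
      A.relIndex (centralizer {x}) ≤ c) →
    RankLe H p N →
    (∀ E : Subgroup H, Good p E → (centralizer (E : Set H)).relIndex (normalizer (E : Set H)) ≤ W₀) →
    (∀ (y : H) (k : ℕ), ∃ j ≤ D₀, (centralizer {y ^ (k ^ j)} : Subgroup H) =
      centralizer {y ^ (k ^ (j + 1))}) →
    ∃ E : Subgroup H, E.Normal ∧ Good p E ∧ E.index ≤ B := by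
  set b := c * c with hb
  set q := b * c with hq
  set β := b.factorial with hβ
  set τ := β ^ N * q + b * b + 1 with hτ
  set W := β ^ N * b * W₀ with hW
  set K := c * ((c.factorial ^ (D₀ + 1)) ^ N + c * τ + (c * β ^ N) * q + c) with hK
  obtain ⟨B, hB⟩ := count.{u} W K
  refine ⟨max W B + 1, ?_⟩
  intro H _ _ hS1 hS2 hS3 hS4
  have hb1 : 1 ≤ b := Nat.mul_pos hc hc
  have hq1 : 1 ≤ q := Nat.mul_pos hb1 hc
  have hτ1 : 1 ≤ τ := by omega
  have hτb : b * b ≤ τ := by omega
  have hne : ∀ D ∈ FF H p b τ, D ≠ ⊥ := fun D hD => ne_bot_of_card (lt_of_le_of_lt hτ1 hD.2.1)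
  have hEcard : ∀ D ∈ FF H p b τ, q < Nat.card (Eof p b τ D) := by
    intro D hD
    have h1 := card_le_of_relIndex (Eof_relIndex hS2 hD (hne D hD))
    rw [inf_of_le_left (Eof_le hD (hne D hD)), ← hβ] at h1
    by_contra hcon
    push Not at hcon
    have h2 := Nat.mul_le_mul_left (β ^ N) hcon
    have h3 := hD.2.1
    omega
  have hEgood : ∀ D ∈ FF H p b τ, Good p (Eof p b τ D) := fun D hD => hD.1.mono (Eof_le hD (hne D hD))
  have hWbd : ∀ D ∈ FF H p b τ, (Eof p b τ D).relIndex (normalizer ((Eof p b τ D : Subgroup H) : Set H)) ≤ W := by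
    intro D hD
    set E := Eof p b τ D with hE
    have hEG : Good p E := hEgood D hD
    have hED : E ≤ D := Eof_le hD (hne D hD)
    have hEC : E ≤ centralizer (E : Set H) := by
      intro x hx
      rw [Subgroup.mem_centralizer_iff]
      intro y hy
      exact hEG.1 y hy x hx
    rw [← relIndex_mul_relIndex E (centralizer (E : Set H)) _ hEC (centralizer_le_normalizer' E)]
    refine Nat.mul_le_mul ?_ (hS3 E hEG)
    obtain ⟨y, hy, hy1⟩ := exists_ne_of_card (lt_of_le_of_lt hq1 (hEcard D hD))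
    have h1 : centralizer (E : Set H) ≤ centralizer {y} := by
      intro x hx
      rw [Subgroup.mem_centralizer_iff] at hx
      rw [mem_centralizer_singleton_iff]
      exact (hx y hy).symm
    calc E.relIndex (centralizer (E : Set H)) ≤ E.relIndex (centralizer {y}) :=
          relIndex_le_of_le_right h1 (relIndex_ne _ _)
      _ = E.relIndex D * D.relIndex (centralizer {y}) :=
          (relIndex_mul_relIndex _ _ _ hED (hD.1.le_centralizer (hED hy))).symm
      _ ≤ β ^ N * b := Nat.mul_le_mul (Eof_relIndex hS2 hD (hne D hD)) (hD.2.2 y (hED hy) hy1)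
  have key : (∃ E ∈ {E | ∃ D ∈ FF H p b τ, E = Eof p b τ D}, E.Normal) ∨ Nat.card H ≤ B := by
    refine hB H {E | ∃ D ∈ FF H p b τ, E = Eof p b τ D} (XX q) ?_ ?_ ?_ ?_ ?_ ?_ ?_
    · rintro _ ⟨D, hD, rfl⟩ g
      exact ⟨_, FF_cj hD g, Eof_cj g⟩
    · intro E _ g x hx
      exact XX_cj g hx
    · rintro _ ⟨D, hD, rfl⟩ e he
      refine ⟨Subgroup.le_normalizer he, ?_⟩
      rw [inf_of_le_left ((hEgood D hD).le_centralizer he)]
      exact hEcard D hD
    · rintro _ ⟨D, hD, rfl⟩ x ⟨hx1, hx2⟩ e he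
      refine ⟨Subgroup.mul_mem _ hx1 (Subgroup.le_normalizer he), lt_of_lt_of_le hx2 (Subgroup.card_le_of_le ?_)⟩
      rintro u ⟨hu1, hu2⟩
      refine ⟨hu1, ?_⟩
      have h1 := (hEgood D hD).1 u hu1 e he
      change u ∈ centralizer {x} at hu2
      change u ∈ centralizer {x * e}
      rw [mem_centralizer_singleton_iff] at hu2 ⊢
      rw [← mul_assoc, hu2, mul_assoc, h1, ← mul_assoc]
    · rintro _ ⟨D, hD, rfl⟩
      exact ⟨lt_of_le_of_lt hq1 (hEcard D hD), hWbd D hD⟩
    · rintro _ ⟨D, hD, rfl⟩ _ ⟨D', hD', rfl⟩ x hx1 hx hx'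
      exact XX_dis (le_refl q) hb1 hτb hτ1 hS1 hD hD' hx1 hx hx'
    · intro x hx1 hx
      by_contra hcon
      push Not at hcon
      obtain ⟨D, hD, hDx⟩ := XX_large (b := b) (q := q) (τ := τ) rfl hc hτ1 hτb hS1 hS2 hS4 hx1 hcon
      exact hx _ ⟨D, hD, rfl⟩ hDx
  rcases key with h | h
  · obtain ⟨E, ⟨D, hD, rfl⟩, hEn⟩ := h
    refine ⟨_, hEn, hEgood D hD, ?_⟩
    have h1 := hWbd D hD
    rw [Subgroup.normalizer_eq_top_iff.2 hEn, Subgroup.relIndex_top_right] at h1
    omega
  · refine ⟨⊥, inferInstance, ⟨?_, ?_⟩, ?_⟩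
    · intro x hx y hy
      rw [Subgroup.mem_bot] at hx hy
      rw [hx, hy]
    · intro x hx
      rw [Subgroup.mem_bot] at hx
      rw [hx, orderOf_one]
      exact fun h => hp.one_lt.ne' (Nat.dvd_one.1 h)
    · rw [Subgroup.index_bot]
      omega

end Cfsg.Agent.Lib.BFJ
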