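import Cfsg.Agent.Lib.BFJ5

/-!
Linear algebra facts for the Brauer–Feit theorem.
-/

set_option autoImplicit false

namespace Cfsg.Agent.Lib.BFJ

universe u v

open Subgroup Module

section Eigen

variable {F : Type*} [Field F] [IsAlgClosed F] {V : Type*} [AddCommGroup V] [Module F V]
  [FiniteDimensional F V]

/-- A commuting family of endomorphisms of finite order prime to the characteristic has a common
eigenbasis. -/
theorem exists_common_eigenbasis {ι : Type*} (f : ι → Module.End F V)
    (hc : ∀ i j, Commute (f i) (f j)) (hf : ∀ i, ∃ m : ℕ, (m : F) ≠ 0 ∧ f i ^ m = 1) :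
    ∃ (b : Basis (Fin (finrank F V)) F V) (μ : Fin (finrank F V) → ι → F),
      ∀ j i, f i (b j) = μ j i • b j := by
  have hss : ∀ i, (f i).IsSemisimple := fun i => by
    obtain ⟨m, hm, h⟩ := hf i
    refine Module.End.isSemisimple_of_squarefree_aeval_eq_zero (p := Polynomial.X ^ m - Polynomial.C 1) ?_ ?_
    · exact (Polynomial.separable_X_pow_sub_C (1 : F) hm one_ne_zero).squarefree
    · simp [h]
  have htop : ⨆ χ : ι → F, ⨅ i, (f i).maxGenEigenspace (χ i) = ⊤ :=
    Module.End.iSup_iInf_maxGenEigenspace_eq_top_of_iSup_maxGenEigenspace_eq_top_of_commute f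
      (fun i j _ => hc i j) (fun i => Module.End.iSup_maxGenEigenspace_eq_top (f i))
  have hspan : Submodule.span F {v : V | ∃ χ : ι → F, ∀ i, f i v = χ i • v} = ⊤ := by
    rw [eq_top_iff, ← htop]
    refine iSup_le fun χ v hv => Submodule.subset_span ⟨χ, fun i => ?_⟩
    have h1 := (Submodule.mem_iInf _).mp hv i
    rw [Module.End.IsFinitelySemisimple.maxGenEigenspace_eq_eigenspace
      (hss i).isFinitelySemisimple] at h1
    exact Module.End.mem_eigenspace_iff.mp h1
  classical
  let b := Basis.ofSpan hspan.ge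
  let b' := b.reindex (b.indexEquiv (finBasis F V))
  have hb' : ∀ i, b' i ∈ {v : V | ∃ χ : ι → F, ∀ i, f i v = χ i • v} := fun i => by
    rw [Basis.reindex_apply]
    exact Basis.ofSpan_subset hspan.ge ⟨_, rfl⟩
  choose χ hχ using hb'
  exact ⟨b', χ, hχ⟩

end Eigen

section Rep

variable {H : Type*} [Group H] [Finite H] {F : Type*} [Field F] [IsAlgClosed F] {p : ℕ} [CharP F p]
  {V : Type*} [AddCommGroup V] [Module F V] [FiniteDimensional F V]

/-- weights of an abelian `p'`-subgroup -/
theorem exists_weights (ρ : Representation F H V) {A : Subgroup H} (hA : Good p A) :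
    ∃ (b : Basis (Fin (finrank F V)) F V) (μ : Fin (finrank F V) → A → F),
      ∀ j (a : A), ρ a (b j) = μ j a • b j := by
  refine exists_common_eigenbasis (fun a : A => ρ a) ?_ ?_
  · intro a a'
    change ρ a * ρ a' = ρ a' * ρ a
    rw [← map_mul, ← map_mul, hA.1 a a.2 a' a'.2]
  · intro a
    refine ⟨orderOf (a : H), ?_, ?_⟩
    · rw [Ne, CharP.cast_eq_zero_iff F p]
      exact hA.2 a a.2
    · rw [← map_pow, pow_orderOf_eq_one, map_one]

omit [Finite H] [IsAlgClosed F] in
theorem eq_of_weights {ρ : Representation F H V} (hρ : Function.Injective ρ) {A : Subgroup H}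
    {n : ℕ} {b : Basis (Fin n) F V} {μ : Fin n → A → F}
    (h : ∀ j (a : A), ρ a (b j) = μ j a • b j) {a a' : A} (haa : ∀ j, μ j a = μ j a') : a = a' := by
  apply Subtype.ext
  apply hρ
  apply b.ext
  intro j
  rw [h, h, haa]

omit [IsAlgClosed F] in
theorem weight_pow {ρ : Representation F H V} {A : Subgroup H}
    {n : ℕ} {b : Basis (Fin n) F V} {μ : Fin n → A → F}
    (h : ∀ j (a : A), ρ a (b j) = μ j a • b j) {a : A} {r : ℕ} (ha : (a : H) ^ r = 1) (j : Fin n) :
    μ j a ^ r = 1 := by
  have h1 : ∀ k : ℕ, ρ ((a : H) ^ k) (b j) = (μ j a) ^ k • b j := by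
    intro k
    induction k with
    | zero => simp
    | succ k ih =>
      rw [pow_succ, map_mul, Module.End.mul_apply, h, map_smul, ih, smul_smul, pow_succ, mul_comm]
  have h2 := h1 r
  rw [ha, map_one, Module.End.one_apply] at h2
  have h3 : (1 - μ j a ^ r) • b j = 0 := by
    rw [sub_smul, one_smul, ← h2, sub_self]
  rcases smul_eq_zero.mp h3 with h4 | h4
  · exact (sub_eq_zero.mp h4).symm
  · exact absurd h4 (b.ne_zero j)

theorem rankLe {ρ : Representation F H V} (hρ : Function.Injective ρ) :
    RankLe H p (finrank F V) := by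
  classical
  intro A hA r hr
  obtain ⟨b, μ, hb⟩ := exists_weights ρ hA
  let S : Finset F := (Polynomial.nthRoots r (1 : F)).toFinset
  have hS : S.card ≤ r := (Multiset.toFinset_card_le _).trans (Polynomial.card_nthRoots r 1)
  have hSm : ∀ z : F, z ^ r = 1 → z ∈ S := fun z hz => by
    rw [Multiset.mem_toFinset, Polynomial.mem_nthRoots hr]; exact hz
  let φ : {u : H | u ∈ A ∧ u ^ r = 1} → (Fin (finrank F V) → S) := fun u j =>
    ⟨μ j ⟨u.1, u.2.1⟩, hSm _ (weight_pow hb u.2.2 j)⟩
  have hφ : Function.Injective φ := by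
    intro u u' huu
    have h1 : (⟨u.1, u.2.1⟩ : A) = ⟨u'.1, u'.2.1⟩ := by
      apply eq_of_weights hρ hb
      intro j
      exact congrArg Subtype.val (congrFun huu j)
    have h2 : u.1 = u'.1 := congrArg (fun z : A => (z : H)) h1
    exact Subtype.ext h2
  have h2 := Nat.card_le_card_of_injective φ hφ
  rw [Nat.card_coe_set_eq] at h2
  refine h2.trans ?_
  rw [Nat.card_eq_fintype_card, Fintype.card_fun, Fintype.card_fin, Fintype.card_coe]
  exact Nat.pow_le_pow_left hS _

omit [IsAlgClosed F] in
theorem weight_mem {ρ : Representation F H V} {A : Subgroup H}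
    {n : ℕ} {b : Basis (Fin n) F V} {μ : Fin n → A → F}
    (h : ∀ j (a : A), ρ a (b j) = μ j a • b j) {v : V} (hv : v ≠ 0) {l : A → F}
    (hl : ∀ a : A, ρ a v = l a • v) : ∃ j, ∀ a, l a = μ j a := by
  obtain ⟨j, hj⟩ : ∃ j, b.repr v j ≠ 0 := by
    by_contra hcon
    push Not at hcon
    apply hv
    apply b.repr.injective
    ext j
    rw [hcon j]; simp
  refine ⟨j, fun a => ?_⟩
  have h1 : ρ a v = ∑ i, (b.repr v i * μ i a) • b i := by
    conv_lhs => rw [← b.sum_repr v]
    rw [map_sum]
    apply Finset.sum_congr rfl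
    intro i _
    rw [map_smul, h, smul_smul]
  have h2 : b.repr (ρ a v) j = b.repr v j * μ j a := by
    rw [h1, b.repr_sum_self]
  rw [hl, map_smul, Finsupp.smul_apply, smul_eq_mul, mul_comm] at h2
  exact mul_left_cancel₀ hj h2

theorem weyl_le {ρ : Representation F H V} (hρ : Function.Injective ρ) (E : Subgroup H) (hE : Good p E) :
    (centralizer (E : Set H)).relIndex (normalizer (E : Set H)) ≤ (finrank F V) ^ (finrank F V) := by
  classical
  obtain ⟨b, μ, hb⟩ := exists_weights ρ hE
  have key : ∀ g : H, ∃ σ : Fin (finrank F V) → Fin (finrank F V), ∀ (hg : g ∈ normalizer (E : Set H)) (i : Fin (finrank F V)) (e : E),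
      μ i ⟨g * e * g⁻¹, (Subgroup.mem_normalizer_iff.1 hg e).1 e.2⟩ = μ (σ i) e := by
    intro g
    by_cases hg : g ∈ normalizer (E : Set H)
    · have h1 : ∀ i : Fin (finrank F V), ∃ j : Fin (finrank F V), ∀ e : E,
          μ i ⟨g * e * g⁻¹, (Subgroup.mem_normalizer_iff.1 hg e).1 e.2⟩ = μ j e := by
        intro i
        refine weight_mem hb (v := ρ g⁻¹ (b i)) ?_ ?_
        · intro h0
          apply b.ne_zero i
          have : ρ g (ρ g⁻¹ (b i)) = b i := by
            rw [← Module.End.mul_apply, ← map_mul, mul_inv_cancel, map_one]; rfl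
          rw [← this, h0, map_zero]
        · intro e
          have h2 := hb i ⟨g * e * g⁻¹, (Subgroup.mem_normalizer_iff.1 hg e).1 e.2⟩
          rw [← map_smul, ← h2, ← Module.End.mul_apply, ← Module.End.mul_apply, ← map_mul, ← map_mul]
          congr 2
          simp only
          group
      choose σ hσ using h1
      exact ⟨σ, fun _ i e => hσ i e⟩
    · exact ⟨id, fun h => absurd h hg⟩
  choose σ hσ using key
  have := relIndex_le_of_inj (centralizer (E : Set H)) (normalizer (E : Set H)) σ ?_
  · simpa using this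
  · intro x hx y hy hxy
    rw [Subgroup.mem_centralizer_iff]
    intro e he
    have h1 : (⟨x * e * x⁻¹, (Subgroup.mem_normalizer_iff.1 hx e).1 he⟩ : E) =
        ⟨y * e * y⁻¹, (Subgroup.mem_normalizer_iff.1 hy e).1 he⟩ := by
      apply eq_of_weights hρ hb
      intro i
      have a1 := hσ x hx i ⟨e, he⟩
      have a2 := hσ y hy i ⟨e, he⟩
      rw [hxy] at a1
      exact a1.trans a2.symm
    have h2 : x * e * x⁻¹ = y * e * y⁻¹ := congrArg Subtype.val h1
    calc e * (x⁻¹ * y) = x⁻¹ * (x * e * x⁻¹) * y := by group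
      _ = x⁻¹ * (y * e * y⁻¹) * y := by rw [h2]
      _ = x⁻¹ * y * e := by group

omit [Finite H] [IsAlgClosed F] in
theorem chain {ρ : Representation F H V} (hρ : Function.Injective ρ) (y : H) (k : ℕ) :
    ∃ j ≤ finrank F V * finrank F V, (centralizer {y ^ (k ^ j)} : Subgroup H) =
      centralizer {y ^ (k ^ (j + 1))} := by
  let f : ℕ → Submodule F (Module.End F V) := fun j =>
    Subalgebra.toSubmodule (Subalgebra.centralizer F {ρ (y ^ (k ^ j))})
  have hmem : ∀ j (t : Module.End F V), t ∈ f j ↔ ρ (y ^ (k ^ j)) * t = t * ρ (y ^ (k ^ j)) := by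
    intro j t
    change t ∈ Subalgebra.centralizer F {ρ (y ^ (k ^ j))} ↔ _
    rw [Subalgebra.mem_centralizer_iff]
    simp
  have hmono : ∀ j, f j ≤ f (j + 1) := by
    intro j t ht
    rw [hmem] at ht ⊢
    rw [pow_succ, pow_mul, map_pow]
    exact (Commute.pow_left ht k)
  have hbd : ∀ j, finrank F (f j) ≤ finrank F V * finrank F V := by
    intro j
    refine (Submodule.finrank_le _).trans ?_
    rw [Module.finrank_linearMap]
  obtain ⟨j, hj, hjj⟩ : ∃ j ≤ finrank F V * finrank F V, f j = f (j + 1) := by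
    by_contra hcon
    push Not at hcon
    have h1 : ∀ j ≤ finrank F V * finrank F V + 1, j ≤ finrank F (f j) := by
      intro j
      induction j with
      | zero => intro _; exact Nat.zero_le _
      | succ j ih =>
        intro hj
        have h2 := ih (by omega)
        have h3 : f j < f (j + 1) := lt_of_le_of_ne (hmono j) (hcon j (by omega))
        have h4 := Submodule.finrank_lt_finrank_of_lt h3
        omega
    have h5 := h1 _ le_rfl
    have h6 := hbd (finrank F V * finrank F V + 1)
    omega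
  refine ⟨j, hj, ?_⟩
  ext x
  have hx : ∀ i, x ∈ (centralizer {y ^ (k ^ i)} : Subgroup H) ↔ ρ x ∈ f i := by
    intro i
    rw [mem_centralizer_singleton_iff, hmem, ← map_mul, ← map_mul, hρ.eq_iff]
    exact eq_comm
  rw [hx, hx, hjj]

end Rep

end Cfsg.Agent.Lib.BFJ
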