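import Cfsg.Agent.Lib.BFJ6

/-!
The reducible case of the Brauer–Feit theorem.
-/

set_option autoImplicit false

namespace Cfsg.Agent.Lib.BFJ

universe u v

open Subgroup Module

/-- The Brauer–Feit bound in degree `n`. -/
def BF (p n m c : ℕ) : Prop :=
  ∀ (G : Type u) [Group G] [Finite G] (F : Type v) [Field F] [IsAlgClosed F] [CharP F p]
    (V : Type v) [AddCommGroup V] [Module F V] [FiniteDimensional F V], finrank F V = n →
    ∀ ρ : Representation F G V, Function.Injective ρ → (Nat.card G).factorization p ≤ m →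
    ∃ A : Subgroup G, A.Normal ∧ Good p A ∧ A.index ≤ c

section Rep

variable {G : Type u} [Group G] [Finite G] {F : Type v} [Field F]
  {V : Type v} [AddCommGroup V] [Module F V]

/-- restriction to an invariant subspace -/
def resRep (ρ : Representation F G V) (W : Submodule F V) (hW : ∀ g, ∀ w ∈ W, ρ g w ∈ W) :
    Representation F G W where
  toFun g := (ρ g).restrict (hW g)
  map_one' := by ext w; simp
  map_mul' g h := by ext w; simp

/-- action on the quotient -/
def quotRep (ρ : Representation F G V) (W : Submodule F V) (hW : ∀ g, ∀ w ∈ W, ρ g w ∈ W) :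
    Representation F G (V ⧸ W) where
  toFun g := W.mapQ W (ρ g) (hW g)
  map_one' := by
    apply Submodule.linearMap_qext
    ext v; simp
  map_mul' g h := by
    apply Submodule.linearMap_qext
    ext v; simp

omit [Finite G] in
theorem mem_resRep_ker (ρ : Representation F G V) (W : Submodule F V) (hW : ∀ g, ∀ w ∈ W, ρ g w ∈ W)
    (g : G) : g ∈ (resRep ρ W hW).ker ↔ ∀ w ∈ W, ρ g w = w := by
  rw [MonoidHom.mem_ker]
  constructor
  · intro h w hw
    have := congrArg (fun f : Module.End F W => ((f ⟨w, hw⟩ : W) : V)) h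
    exact this
  · intro h
    ext w
    exact h w w.2

omit [Finite G] in
theorem mem_quotRep_ker (ρ : Representation F G V) (W : Submodule F V) (hW : ∀ g, ∀ w ∈ W, ρ g w ∈ W)
    (g : G) : g ∈ (quotRep ρ W hW).ker ↔ ∀ v, ρ g v - v ∈ W := by
  rw [MonoidHom.mem_ker]
  constructor
  · intro h v
    have := congrArg (fun f : Module.End F (V ⧸ W) => f (Submodule.Quotient.mk v)) h
    exact (Submodule.Quotient.eq W).1 this
  · intro h
    apply Submodule.linearMap_qext
    ext v
    exact (Submodule.Quotient.eq W).2 (h v)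

/-- the faithful representation of the quotient by the kernel -/
def liftRep {F : Type*} [Field F] {U : Type*} [AddCommGroup U] [Module F U] (σ : Representation F G U) :
    Representation F (G ⧸ σ.ker) U := QuotientGroup.lift σ.ker σ le_rfl

omit [Finite G] in
theorem liftRep_mk {F : Type*} [Field F] {U : Type*} [AddCommGroup U] [Module F U]
    (σ : Representation F G U) (g : G) : liftRep σ (g : G ⧸ σ.ker) = σ g := rfl

omit [Finite G] in
theorem liftRep_inj {F : Type*} [Field F] {U : Type*} [AddCommGroup U] [Module F U]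
    (σ : Representation F G U) : Function.Injective (liftRep σ) := by
  intro q q'
  induction q using QuotientGroup.induction_on with
  | H a =>
    induction q' using QuotientGroup.induction_on with
    | H b =>
      intro h
      rw [liftRep_mk, liftRep_mk] at h
      refine QuotientGroup.eq.2 ?_
      rw [MonoidHom.mem_ker, map_mul, ← h, ← map_mul, inv_mul_cancel, map_one]

theorem kerLift_data {p m k c : ℕ} [FiniteDimensional F V] [IsAlgClosed F] [CharP F p]
    (hBF : BF.{u, v} p k m c) {U : Type v} [AddCommGroup U] [Module F U] [FiniteDimensional F U]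
    (hU : finrank F U = k) (σ : Representation F G U) (hm : (Nat.card G).factorization p ≤ m) :
    ∃ B : Subgroup G, B.Normal ∧ B.index ≤ c ∧ ∀ x ∈ B, ∀ y ∈ B, x * y * x⁻¹ * y⁻¹ ∈ σ.ker := by
  have hcard : (Nat.card (G ⧸ σ.ker)).factorization p ≤ m := by
    refine le_trans ?_ hm
    have hd : Nat.card (G ⧸ σ.ker) ∣ Nat.card G := Subgroup.card_quotient_dvd_card _
    exact (Nat.factorization_le_iff_dvd Nat.card_pos.ne' Nat.card_pos.ne').2 hd p
  obtain ⟨A, hA1, hA2, hA3⟩ := hBF (G ⧸ σ.ker) F U hU (liftRep σ) (liftRep_inj σ) hcard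
  refine ⟨A.comap (QuotientGroup.mk' σ.ker), hA1.comap _, ?_, ?_⟩
  · rw [Subgroup.index_comap_of_surjective _ (QuotientGroup.mk'_surjective _)]
    exact hA3
  · intro x hx y hy
    rw [Subgroup.mem_comap] at hx hy
    have h1 : (x : G ⧸ σ.ker) * (y : G ⧸ σ.ker) = (y : G ⧸ σ.ker) * (x : G ⧸ σ.ker) := hA2.1 _ hx _ hy
    refine (QuotientGroup.eq_one_iff _).1 ?_
    have h2 : ((x * y * x⁻¹ * y⁻¹ : G) : G ⧸ σ.ker) =
        (x : G ⧸ σ.ker) * (y : G ⧸ σ.ker) * (x : G ⧸ σ.ker)⁻¹ * (y : G ⧸ σ.ker)⁻¹ := rfl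
    rw [h2, h1]
    group

end Rep

theorem reducible {p n m c : ℕ} (hp : p.Prime) (hc : ∀ k < n, BF.{u, v} p k m c)
    {G : Type u} [Group G] [Finite G] {F : Type v} [Field F] [IsAlgClosed F] [CharP F p]
    {V : Type v} [AddCommGroup V] [Module F V] [FiniteDimensional F V] (hn : finrank F V = n)
    (ρ : Representation F G V) (hρ : Function.Injective ρ) (hm : (Nat.card G).factorization p ≤ m)
    (W : Submodule F V) (hW : ∀ g, ∀ w ∈ W, ρ g w ∈ W) (hW0 : W ≠ ⊥) (hW1 : W ≠ ⊤) :
    ∃ A : Subgroup G, A.Normal ∧ Good p A ∧ A.index ≤ p ^ m * ((c * c) * (p ^ m) ^ (p ^ m)) := by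
  classical
  have := Fact.mk hp
  have hlt : finrank F W < n := hn ▸ Submodule.finrank_lt hW1
  have hlt2 : finrank F (V ⧸ W) < n := by
    have h1 := Submodule.finrank_quotient_add_finrank W
    have h2 : 0 < finrank F W := Module.finrank_pos_iff.2 ((Submodule.nontrivial_iff_ne_bot).2 hW0)
    omega
  obtain ⟨B₁, hB₁n, hB₁i, hB₁⟩ := kerLift_data (V := V) (hc _ hlt) rfl (resRep ρ W hW) hm
  obtain ⟨B₂, hB₂n, hB₂i, hB₂⟩ := kerLift_data (V := V) (hc _ hlt2) rfl (quotRep ρ W hW) hm
  set K : Subgroup G := (resRep ρ W hW).ker ⊓ (quotRep ρ W hW).ker with hK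
  have hKn : K.Normal := inferInstance
  have hKp : ∀ g ∈ K, g ^ p = 1 := by
    intro g hg
    obtain ⟨hg1, hg2⟩ := Subgroup.mem_inf.1 hg
    rw [mem_resRep_ker] at hg1
    rw [mem_quotRep_ker] at hg2
    apply hρ
    rw [map_pow, map_one]
    have h1 : (ρ g - 1) ^ 2 = 0 := by
      ext v
      rw [pow_two, Module.End.mul_apply]
      change (ρ g - 1) (ρ g v - v) = 0
      change ρ g (ρ g v - v) - (ρ g v - v) = 0
      rw [hg1 _ (hg2 v), sub_self]
    have h2 : (ρ g - 1) ^ p = 0 := by
      obtain ⟨d, hd⟩ : ∃ d, p = 2 + d := ⟨p - 2, by have := hp.two_le; omega⟩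
      rw [hd, pow_add, h1, zero_mul]
    have : CharP (Module.End F V) p ∨ Subsingleton (Module.End F V) := by
      rcases subsingleton_or_nontrivial V with h | h
      · right; infer_instance
      · left
        exact charP_of_injective_algebraMap (algebraMap F (Module.End F V)).injective p
    rcases this with h | h
    · have h3 : (ρ g) ^ p - 1 ^ p = (ρ g - 1) ^ p := (sub_pow_char_of_commute p (Commute.one_right (ρ g))).symm
      rw [h2, one_pow, sub_eq_zero] at h3
      exact h3
    · exact Subsingleton.elim _ _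
  have hKcard : Nat.card K ≤ p ^ m := by
    have hpg : IsPGroup p K := fun g => ⟨1, by
      apply Subtype.ext
      simpa using hKp g g.2⟩
    obtain ⟨j, hj⟩ := IsPGroup.iff_card.1 hpg
    rw [hj]
    apply Nat.pow_le_pow_right hp.pos
    refine le_trans ?_ hm
    have : p ^ j ∣ Nat.card G := hj ▸ Subgroup.card_subgroup_dvd_card K
    exact (hp.pow_dvd_iff_le_factorization Nat.card_pos.ne').1 this
  have hCi : (centralizer (K : Set G)).index ≤ (p ^ m) ^ (p ^ m) := by
    have := Fintype.ofFinite K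
    have h1 := relIndex_le_of_inj (centralizer (K : Set G)) ⊤
      (fun g : G => fun k : K => (⟨g * k * g⁻¹, hKn.conj_mem k k.2 g⟩ : K)) (by
        intro x _ y _ hxy
        rw [Subgroup.mem_centralizer_iff]
        intro e he
        have h2 : x * e * x⁻¹ = y * e * y⁻¹ := congrArg Subtype.val (congrFun hxy ⟨e, he⟩)
        calc e * (x⁻¹ * y) = x⁻¹ * (x * e * x⁻¹) * y := by group
          _ = x⁻¹ * (y * e * y⁻¹) * y := by rw [h2]
          _ = x⁻¹ * y * e := by group)
    rw [relIndex_top_right, Fintype.card_fun, ← Nat.card_eq_fintype_card] at h1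
    refine h1.trans ?_
    have hppos : 0 < p ^ m := Nat.pow_pos hp.pos
    exact (Nat.pow_le_pow_left hKcard _).trans (Nat.pow_le_pow_right hppos hKcard)
  set C : Subgroup G := centralizer (K : Set G) with hC
  have hCn : C.Normal := by
    refine ⟨fun x hx g => ?_⟩
    rw [hC, Subgroup.mem_centralizer_iff] at hx ⊢
    intro k hk
    have h1 := hx (g⁻¹ * k * g) (by
      have := hKn.conj_mem k hk g⁻¹
      rwa [inv_inv] at this)
    calc k * (g * x * g⁻¹) = g * (g⁻¹ * k * g * x) * g⁻¹ := by group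
      _ = g * (x * (g⁻¹ * k * g)) * g⁻¹ := by rw [h1]
      _ = g * x * g⁻¹ * k := by group
  set B : Subgroup G := (B₁ ⊓ B₂) ⊓ C with hB
  have hBn : B.Normal := inferInstance
  have hBi : B.index ≤ (c * c) * (p ^ m) ^ (p ^ m) := by
    refine (Subgroup.index_inf_le).trans (Nat.mul_le_mul ?_ hCi)
    exact (Subgroup.index_inf_le).trans (Nat.mul_le_mul hB₁i hB₂i)
  have hcomm : ∀ x ∈ B, ∀ y ∈ B, ¬ p ∣ orderOf x → ¬ p ∣ orderOf y → x * y = y * x := by
    intro x hx y hy hxp _
    set z := x * y * x⁻¹ * y⁻¹ with hz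
    have hzK : z ∈ K := ⟨hB₁ x hx.1.1 y hy.1.1, hB₂ x hx.1.2 y hy.1.2⟩
    have hxz : z * x = x * z := Subgroup.mem_centralizer_iff.1 hx.2 z hzK
    have h1 : ∀ k : ℕ, x ^ k * y * (x ^ k)⁻¹ = z ^ k * y := by
      intro k
      induction k with
      | zero => simp
      | succ k ih =>
        have e1 : x ^ (k + 1) * y * (x ^ (k + 1))⁻¹ = x * (x ^ k * y * (x ^ k)⁻¹) * x⁻¹ := by
          rw [pow_succ']; group
        have hxzk : x * z ^ k = z ^ k * x := by
          have hcxz : Commute x z := hxz.symm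
          exact (hcxz.pow_right k).eq
        rw [e1, ih]
        calc x * (z ^ k * y) * x⁻¹ = x * z ^ k * y * x⁻¹ := by group
          _ = z ^ k * x * y * x⁻¹ := by rw [hxzk]
          _ = z ^ k * (x * y * x⁻¹ * y⁻¹) * y := by group
          _ = z ^ (k + 1) * y := by rw [← hz, ← pow_succ]
    have h2 := h1 (orderOf x)
    rw [pow_orderOf_eq_one, one_mul, inv_one, mul_one] at h2
    have h3 : z ^ orderOf x = 1 := by
      have := h2.symm
      exact mul_eq_right.1 this
    have h4 : orderOf z ∣ orderOf x := orderOf_dvd_of_pow_eq_one h3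
    have h5 : orderOf z ∣ p := orderOf_dvd_of_pow_eq_one (hKp z hzK)
    have h6 : orderOf z = 1 := by
      rcases (Nat.dvd_prime hp).1 h5 with h | h
      · exact h
      · exact absurd (h ▸ h4) hxp
    rw [orderOf_eq_one_iff] at h6
    rw [hz] at h6
    calc x * y = x * y * x⁻¹ * y⁻¹ * (y * x) := by group
      _ = y * x := by rw [h6, one_mul]
  obtain ⟨A, hAn, hAB, hAG, hAi⟩ := exists_ppart hp hBn hcomm hm
  refine ⟨A, hAn, hAG, ?_⟩
  rw [← Subgroup.relIndex_mul_index hAB]
  exact Nat.mul_le_mul hAi hBi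

end Cfsg.Agent.Lib.BFJ
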