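import Cfsg.Agent.Lib.BFJ7

/-!
The Brauer–Feit analogue of Jordan's theorem.
-/

set_option autoImplicit false

namespace Cfsg.Agent.Lib.BFJ

universe u v

open Subgroup Module

section Conj

variable {G : Type u} [Group G] {F : Type v} [Field F]
  {V : Type v} [AddCommGroup V] [Module F V]

/-- the conjugation representation on `End V` -/
def conjRep (ρ : Representation F G V) : Representation F G (Module.End F V) where
  toFun g := (LinearMap.mulLeft F (ρ g)).comp (LinearMap.mulRight F (ρ g⁻¹))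
  map_one' := by ext t v; simp
  map_mul' g h := by
    ext t v
    simp [mul_inv_rev, map_mul, mul_assoc]

theorem conjRep_apply (ρ : Representation F G V) (g : G) (t : Module.End F V) :
    conjRep ρ g t = ρ g * t * ρ g⁻¹ := by
  simp [conjRep, mul_assoc]

theorem mem_ker_conjRep (ρ : Representation F G V) (g : G) :
    g ∈ (conjRep ρ).ker ↔ ∀ t : Module.End F V, ρ g * t = t * ρ g := by
  have h1 : ρ g⁻¹ * ρ g = 1 := by rw [← map_mul, inv_mul_cancel, map_one]
  have h2 : ρ g * ρ g⁻¹ = 1 := by rw [← map_mul, mul_inv_cancel, map_one]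
  rw [MonoidHom.mem_ker]
  constructor
  · intro h t
    have h3 := congrArg (fun f : Module.End F (Module.End F V) => f t) h
    simp only [conjRep_apply, Module.End.one_apply] at h3
    calc ρ g * t = ρ g * t * (ρ g⁻¹ * ρ g) := by rw [h1, mul_one]
      _ = (ρ g * t * ρ g⁻¹) * ρ g := by simp only [mul_assoc]
      _ = t * ρ g := by rw [h3]
  · intro h
    apply LinearMap.ext
    intro t
    rw [conjRep_apply, h, mul_assoc, h2, mul_one]; rfl

theorem ker_central {ρ : Representation F G V} (hρ : Function.Injective ρ) {z : G}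
    (hz : z ∈ (conjRep ρ).ker) (g : G) : z * g = g * z := by
  apply hρ
  rw [map_mul, map_mul]
  exact (mem_ker_conjRep ρ z).1 hz (ρ g)

theorem scalar_of_mem_ker [FiniteDimensional F V] {ρ : Representation F G V} {z : G}
    (hz : z ∈ (conjRep ρ).ker) : ∃ ζ : F, ρ z = ζ • (1 : Module.End F V) := by
  rw [mem_ker_conjRep] at hz
  have h1 : ρ z ∈ Subalgebra.center F (Module.End F V) := by
    rw [Subalgebra.mem_center_iff]
    intro t
    exact (hz t).symm
  rw [Algebra.IsCentral.center_eq_bot, Algebra.mem_bot] at h1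
  obtain ⟨ζ, hζ⟩ := h1
  exact ⟨ζ, by rw [← hζ, Algebra.algebraMap_eq_smul_one]⟩

/-- a scalar commutator is an `n`-th root of unity -/
theorem root_of_comm [FiniteDimensional F V] {ρ : Representation F G V} {x g : G} {ζ : F}
    (h : ρ (g * x * g⁻¹ * x⁻¹) = ζ • (1 : Module.End F V)) : ζ ^ (finrank F V) = 1 := by
  have h1 : LinearMap.det (ρ (g * x * g⁻¹ * x⁻¹)) = 1 := by
    have e : ∀ a b : G, LinearMap.det (ρ (a * b)) = LinearMap.det (ρ a) * LinearMap.det (ρ b) := by
      intro a b
      rw [map_mul, map_mul]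
    have e2 : ∀ a : G, LinearMap.det (ρ a) * LinearMap.det (ρ a⁻¹) = 1 := by
      intro a
      rw [← e, mul_inv_cancel, map_one, map_one]
    rw [e, e, e]
    calc LinearMap.det (ρ g) * LinearMap.det (ρ x) * LinearMap.det (ρ g⁻¹) * LinearMap.det (ρ x⁻¹)
        = (LinearMap.det (ρ g) * LinearMap.det (ρ g⁻¹)) * (LinearMap.det (ρ x) * LinearMap.det (ρ x⁻¹)) := by ring
      _ = 1 := by rw [e2, e2, one_mul]
  rw [h] at h1
  have h2 : LinearMap.det (ζ • (1 : Module.End F V)) = ζ ^ (finrank F V) := by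
    rw [LinearMap.det_smul]
    simp
  rw [h2] at h1
  exact h1

end Conj

set_option maxHeartbeats 1000000 in
theorem centralizer_data {p n m c : ℕ} (hp : p.Prime) (hc : ∀ k < n, BF.{u, v} p k m c)
    {G : Type u} [Group G] [Finite G] {F : Type v} [Field F] [IsAlgClosed F] [CharP F p]
    {V : Type v} [AddCommGroup V] [Module F V] [FiniteDimensional F V] (hn : finrank F V = n)
    (ρ : Representation F G V) (hρ : Function.Injective ρ) (hm : (Nat.card G).factorization p ≤ m)
    (x : G ⧸ (conjRep ρ).ker) (hx : x ≠ 1) :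
    ∃ A : Subgroup (G ⧸ (conjRep ρ).ker), Good p A ∧ A ≤ centralizer {x} ∧
      A.relIndex (centralizer {x}) ≤ (p ^ m * ((c * c) * (p ^ m) ^ (p ^ m))) * n := by
  classical
  obtain ⟨x, rfl⟩ := QuotientGroup.mk'_surjective _ x
  set Z := (conjRep ρ).ker with hZ
  have hxZ : x ∉ Z := fun h => hx ((QuotientGroup.eq_one_iff x).2 h)
  have hV : Nontrivial V := by
    by_contra hV
    rw [not_nontrivial_iff_subsingleton] at hV
    apply hxZ
    rw [hZ, mem_ker_conjRep]
    intro t
    exact Subsingleton.elim _ _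
  have hnpos : 0 < n := by rw [← hn]; exact Module.finrank_pos
  -- an eigenspace
  obtain ⟨μ, hμ⟩ := Module.End.exists_eigenvalue (ρ x)
  set W := Module.End.eigenspace (ρ x) μ with hW
  have hW0 : W ≠ ⊥ := hμ
  have hW1 : W ≠ ⊤ := by
    intro htop
    apply hxZ
    rw [hZ, mem_ker_conjRep]
    intro t
    have h1 : ρ x = μ • (1 : Module.End F V) := by
      ext v
      have : v ∈ W := by rw [htop]; trivial
      rw [hW, Module.End.mem_eigenspace_iff] at this
      simpa using this
    rw [h1]; simp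
  set Cx : Subgroup G := centralizer {x} with hCx
  let σ : Representation F Cx V := ρ.comp Cx.subtype
  have hσ : Function.Injective σ := hρ.comp Cx.subtype_injective
  have hWσ : ∀ g, ∀ w ∈ W, σ g w ∈ W := by
    intro g w hw
    rw [hW, Module.End.mem_eigenspace_iff] at hw ⊢
    change ρ x (ρ (g : G) w) = μ • ρ (g : G) w
    have h1 : (g : G) * x = x * g := mem_centralizer_singleton_iff.1 g.2
    rw [← Module.End.mul_apply, ← map_mul, ← h1, map_mul, Module.End.mul_apply, hw, map_smul]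
  have hmC : (Nat.card Cx).factorization p ≤ m := by
    refine le_trans ?_ hm
    exact (Nat.factorization_le_iff_dvd Nat.card_pos.ne' Nat.card_pos.ne').2 (Subgroup.card_subgroup_dvd_card Cx) p
  obtain ⟨A, hAn, hAG, hAi⟩ := reducible hp hc hn σ hσ hmC W hWσ hW0 hW1
  set c1 := p ^ m * ((c * c) * (p ^ m) ^ (p ^ m)) with hc1
  set A' : Subgroup G := A.map Cx.subtype with hA'
  have hA'G : Good p A' := hAG.map _
  have hA'C : A' ≤ Cx := by
    rintro _ ⟨a, _, rfl⟩
    exact a.2
  have hA'i : A'.relIndex Cx ≤ c1 := by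
    have : A'.subgroupOf Cx = A := by
      rw [hA']
      exact Subgroup.comap_map_eq_self_of_injective Cx.subtype_injective A
    unfold Subgroup.relIndex
    rw [this]; exact hAi
  set π := QuotientGroup.mk' Z with hπ
  have hπs : Function.Surjective π := QuotientGroup.mk'_surjective Z
  set Cs : Subgroup G := (centralizer {π x}).comap π with hCs
  have hCsmem : ∀ g, g ∈ Cs ↔ g * x * g⁻¹ * x⁻¹ ∈ Z := by
    intro g
    rw [hCs, Subgroup.mem_comap, mem_centralizer_singleton_iff, ← map_mul, ← map_mul, ← QuotientGroup.eq_one_iff]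
    change ((g * x : G) : G ⧸ Z) = ((x * g : G) : G ⧸ Z) ↔ _
    have e : ((g * x * g⁻¹ * x⁻¹ : G) : G ⧸ Z) = ((g * x : G) : G ⧸ Z) * ((x * g : G) : G ⧸ Z)⁻¹ := by
      rw [← QuotientGroup.mk_inv, ← QuotientGroup.mk_mul]
      congr 1
      group
    rw [e, mul_inv_eq_one]
  have hCCs : Cx ≤ Cs := by
    intro g hg
    rw [hCsmem]
    have h1 : g * x = x * g := mem_centralizer_singleton_iff.1 hg
    have : g * x * g⁻¹ * x⁻¹ = 1 := by rw [h1]; group
    rw [this]; exact Z.one_mem
  have hidx : Cx.relIndex Cs ≤ n := by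
    let S : Finset F := (Polynomial.nthRoots n (1 : F)).toFinset
    have hS : S.card ≤ n := (Multiset.toFinset_card_le _).trans (Polynomial.card_nthRoots n 1)
    have hSm : ∀ z : F, z ^ n = 1 → z ∈ S := fun z hz => by
      rw [Multiset.mem_toFinset, Polynomial.mem_nthRoots hnpos]; exact hz
    have key : ∀ g : G, ∃ s : S, g ∈ Cs → ρ (g * x * g⁻¹ * x⁻¹) = (s : F) • (1 : Module.End F V) := by
      intro g
      by_cases hg : g ∈ Cs
      · obtain ⟨ζ, hζ⟩ := scalar_of_mem_ker ((hCsmem g).1 hg)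
        have h1 := root_of_comm hζ
        rw [hn] at h1
        exact ⟨⟨ζ, hSm ζ h1⟩, fun _ => hζ⟩
      · exact ⟨⟨1, hSm 1 (one_pow n)⟩, fun h => absurd h hg⟩
    choose f hf using key
    refine (relIndex_le_of_inj Cx Cs f ?_).trans ?_
    · intro g hg g' hg' hgg
      have h1 := hf g hg
      have h2 := hf g' hg'
      rw [hgg, ← h2] at h1
      have h3 := hρ h1
      have h4 : g * x * g⁻¹ = g' * x * g'⁻¹ := mul_right_cancel h3
      rw [hCx, mem_centralizer_singleton_iff]
      calc g⁻¹ * g' * x = g⁻¹ * (g' * x * g'⁻¹) * g' := by group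
        _ = g⁻¹ * (g * x * g⁻¹) * g' := by rw [h4]
        _ = x * (g⁻¹ * g') := by group
    · rw [Fintype.card_coe]; exact hS
  refine ⟨A'.map π, hA'G.map π, ?_, ?_⟩
  · rintro _ ⟨a, ha, rfl⟩
    have h1 : a * x = x * a := mem_centralizer_singleton_iff.1 (hA'C ha)
    rw [mem_centralizer_singleton_iff, ← map_mul, ← map_mul, h1]
  · have h1 : Cs.map π = centralizer {π x} := Subgroup.map_comap_eq_self_of_surjective hπs _
    change (A'.map π).relIndex (centralizer {π x}) ≤ _
    rw [← h1, ← Subgroup.relIndex_comap]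
    calc ((A'.map π).comap π).relIndex Cs ≤ A'.relIndex Cs :=
          relIndex_le_of_le_left (Subgroup.le_comap_map π A') (relIndex_ne _ _)
      _ = A'.relIndex Cx * Cx.relIndex Cs := (relIndex_mul_relIndex _ _ _ hA'C hCCs).symm
      _ ≤ c1 * n := Nat.mul_le_mul hA'i hidx

set_option maxHeartbeats 1000000 in
theorem step {p n m c : ℕ} (hp : p.Prime) (hc : ∀ k < n, BF.{u, v} p k m c) :
    ∃ c' : ℕ, BF.{u, v} p n m c' := by
  set c2 := (p ^ m * ((c * c) * (p ^ m) ^ (p ^ m))) * n + 1 with hc2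
  obtain ⟨B, hB⟩ := structure_thm.{u} p c2 (n * n) ((n * n) ^ (n * n)) ((n * n) * (n * n)) hp (by omega)
  refine ⟨p ^ m * (n ^ (n * n) * B) + 1, ?_⟩
  intro G _ _ F _ _ _ V _ _ _ hn ρ hρ hm
  rcases Nat.eq_zero_or_pos n with hn0 | hnpos
  · rw [hn0] at hn
    have hV : Subsingleton V := Module.finrank_zero_iff.1 hn
    have hG : Subsingleton G := ⟨fun a b => hρ (Subsingleton.elim _ _)⟩
    refine ⟨⊥, inferInstance, ⟨?_, ?_⟩, ?_⟩
    · intro x _ y _; exact Subsingleton.elim _ _
    · intro x _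
      rw [Subsingleton.elim x 1, orderOf_one]
      exact fun h => hp.one_lt.ne' (Nat.dvd_one.1 h)
    · rw [Subgroup.index_bot]
      have : Nat.card G = 1 := Nat.card_of_subsingleton 1
      omega
  have hfr : finrank F (Module.End F V) = n * n := by
    rw [← hn]; exact Module.finrank_linearMap F F V V
  have hinj := liftRep_inj (conjRep ρ)
  obtain ⟨E, hEn, hEG, hEi⟩ := hB (G ⧸ (conjRep ρ).ker) (fun x hx => by
      obtain ⟨A, h1, h2, h3⟩ := centralizer_data hp hc hn ρ hρ hm x hx
      exact ⟨A, h1, h2, h3.trans (by omega)⟩)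
    (by
      have := rankLe (p := p) hinj
      rwa [hfr] at this)
    (fun E hE => by
      have := weyl_le (p := p) hinj E hE
      rwa [hfr] at this)
    (fun y k => by
      have := chain hinj y k
      rwa [hfr] at this)
  set Z := (conjRep ρ).ker with hZ
  set π := QuotientGroup.mk' Z with hπ
  have hπs : Function.Surjective π := QuotientGroup.mk'_surjective Z
  have hrank : RankLe (G ⧸ Z) p (n * n) := by
    have := rankLe (p := p) hinj
    rwa [hfr] at this
  have hZc : ∀ z ∈ Z, ∀ g : G, z * g = g * z := fun z hz g => ker_central hρ hz g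
  set Eh : Subgroup G := E.comap π with hEh
  have hEhn : Eh.Normal := hEn.comap π
  have hEhi : Eh.index ≤ B := by
    rw [hEh, Subgroup.index_comap_of_surjective _ hπs]; exact hEi
  have hZE : Z ≤ Eh := by
    intro z hz
    rw [hEh, Subgroup.mem_comap]
    have : π z = 1 := (QuotientGroup.eq_one_iff z).2 hz
    rw [this]; exact E.one_mem
  set A₀ : Subgroup G := Eh ⊓ centralizer (Eh : Set G) with hA₀
  have hA₀n : A₀.Normal := by
    refine ⟨fun x hx g => ?_⟩
    obtain ⟨hx1, hx2⟩ := Subgroup.mem_inf.1 hx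
    refine Subgroup.mem_inf.2 ⟨hEhn.conj_mem x hx1 g, ?_⟩
    rw [Subgroup.mem_centralizer_iff] at hx2 ⊢
    intro k hk
    have h1 := hx2 (g⁻¹ * k * g) (by
      have := hEhn.conj_mem k hk g⁻¹
      rwa [inv_inv] at this)
    calc k * (g * x * g⁻¹) = g * (g⁻¹ * k * g * x) * g⁻¹ := by group
      _ = g * (x * (g⁻¹ * k * g)) * g⁻¹ := by rw [h1]
      _ = g * x * g⁻¹ * k := by group
  have hZA : Z ≤ A₀ := by
    intro z hz
    refine Subgroup.mem_inf.2 ⟨hZE hz, ?_⟩
    rw [Subgroup.mem_centralizer_iff]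
    intro k _
    exact (hZc z hz k).symm
  -- n-th powers are central in Eh
  have hpow : ∀ g ∈ Eh, g ^ n ∈ A₀ := by
    intro g hg
    refine Subgroup.mem_inf.2 ⟨Eh.pow_mem hg n, ?_⟩
    rw [Subgroup.mem_centralizer_iff]
    intro e he
    -- z = g e g⁻¹ e⁻¹
    set z := g * e * g⁻¹ * e⁻¹ with hz
    have hzZ : z ∈ Z := by
      rw [← QuotientGroup.eq_one_iff]
      have h1 : π g * π e = π e * π g := hEG.1 _ hg _ he
      have h2 : ((g * e * g⁻¹ * e⁻¹ : G) : G ⧸ Z) = π g * π e * (π g)⁻¹ * (π e)⁻¹ := rfl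
      rw [hz, h2, h1]
      group
    obtain ⟨ζ, hζ⟩ := scalar_of_mem_ker hzZ
    have hroot := root_of_comm hζ
    rw [hn] at hroot
    have hzn : z ^ n = 1 := by
      apply hρ
      rw [map_pow, hζ, map_one, smul_pow, one_pow, hroot, one_smul]
    have h1 : ∀ k : ℕ, g ^ k * e * (g ^ k)⁻¹ = z ^ k * e := by
      intro k
      induction k with
      | zero => simp
      | succ k ih =>
        have e1 : g ^ (k + 1) * e * (g ^ (k + 1))⁻¹ = g * (g ^ k * e * (g ^ k)⁻¹) * g⁻¹ := by
          rw [pow_succ']; group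
        have hc1 : Commute g z := (hZc z hzZ g).symm
        have hgz : g * z ^ k = z ^ k * g := (hc1.pow_right k).eq
        rw [e1, ih]
        calc g * (z ^ k * e) * g⁻¹ = g * z ^ k * e * g⁻¹ := by group
          _ = z ^ k * g * e * g⁻¹ := by rw [hgz]
          _ = z ^ k * (g * e * g⁻¹ * e⁻¹) * e := by group
          _ = z ^ (k + 1) * e := by rw [← hz, ← pow_succ]
    have h2 := h1 n
    rw [hzn, one_mul] at h2
    calc e * g ^ n = (g ^ n * e * (g ^ n)⁻¹) * g ^ n := by rw [h2]
      _ = g ^ n * e := by group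
  have hA₀i : A₀.relIndex Eh ≤ n ^ (n * n) := by
    have h1 : (A₀.map π).relIndex E ≤ n ^ (n * n) := by
      refine relIndex_le_of_pow hrank hEG ?_ hnpos ?_
      · rintro _ ⟨a, ha, rfl⟩
        exact (Subgroup.mem_inf.1 ha).1
      · intro u hu
        obtain ⟨g, rfl⟩ := hπs u
        exact ⟨g ^ n, hpow g hu, map_pow π g n⟩
    have h2 : Eh.map π = E := Subgroup.map_comap_eq_self_of_surjective hπs _
    rw [← h2, ← Subgroup.relIndex_comap, Subgroup.comap_map_eq_self] at h1
    · exact h1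
    · rw [hπ, QuotientGroup.ker_mk']; exact hZA
  have hA₀idx : A₀.index ≤ n ^ (n * n) * B := by
    rw [← Subgroup.relIndex_mul_index (inf_le_left : A₀ ≤ Eh)]
    exact Nat.mul_le_mul hA₀i hEhi
  have hcomm : ∀ x ∈ A₀, ∀ y ∈ A₀, ¬ p ∣ orderOf x → ¬ p ∣ orderOf y → x * y = y * x := by
    intro x hx y hy _ _
    exact Subgroup.mem_centralizer_iff.1 (Subgroup.mem_inf.1 hy).2 x (Subgroup.mem_inf.1 hx).1
  obtain ⟨A, hAn, hAB, hAG, hAi⟩ := exists_ppart hp hA₀n hcomm hm
  refine ⟨A, hAn, hAG, ?_⟩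
  rw [← Subgroup.relIndex_mul_index hAB]
  exact (Nat.mul_le_mul hAi hA₀idx).trans (Nat.le_succ _)

theorem BF_mono {p n m c c' : ℕ} (h : BF.{u, v} p n m c) (hc : c ≤ c') : BF.{u, v} p n m c' := by
  intro G _ _ F _ _ _ V _ _ _ hn ρ hρ hm
  obtain ⟨A, h1, h2, h3⟩ := h G F V hn ρ hρ hm
  exact ⟨A, h1, h2, h3.trans hc⟩

theorem exists_BF {p : ℕ} (hp : p.Prime) (m n : ℕ) : ∃ c : ℕ, BF.{u, v} p n m c := by
  have key : ∀ n : ℕ, ∃ c : ℕ, ∀ k < n, BF.{u, v} p k m c := by
    intro n
    induction n with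
    | zero => exact ⟨0, fun k hk => absurd hk (Nat.not_lt_zero k)⟩
    | succ n ih =>
      obtain ⟨c, hc⟩ := ih
      obtain ⟨c', hc'⟩ := step hp hc
      refine ⟨max c c', fun k hk => ?_⟩
      rcases Nat.lt_succ_iff_lt_or_eq.1 hk with h | h
      · exact BF_mono (hc k h) (le_max_left _ _)
      · rw [h]; exact BF_mono hc' (le_max_right _ _)
  obtain ⟨c, hc⟩ := key n
  exact step hp hc

/-- the base change of a representation on `Fin n → F` to the algebraic closure -/
theorem main (p : ℕ) [Fact p.Prime] : ∃ f : ℕ → ℕ → ℕ, ∀ (G : Type u) [Group G] [Finite G]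
    (F : Type v) [Field F] [CharP F p] (n : ℕ) (ρ : Representation F G (Fin n → F)),
    Function.Injective ρ → ∀ m : ℕ, (Nat.card G).factorization p = m →
    ∃ A : Subgroup G, A.Normal ∧ IsMulCommutative A ∧ A.index < f m n := by
  have hp : p.Prime := Fact.out
  choose f hf using fun m n => exists_BF.{u, v} hp m n
  refine ⟨fun m n => f m n + 1, ?_⟩
  intro G _ _ F _ _ n ρ hρ m hm
  let K := AlgebraicClosure F
  have : CharP K p := charP_of_injective_algebraMap (algebraMap F K).injective p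
  let M : G →* Matrix (Fin n) (Fin n) F := (LinearMap.toMatrixAlgEquiv' (R := F) (n := Fin n)).toMonoidHom.comp ρ
  let M' : G →* Matrix (Fin n) (Fin n) K := ((algebraMap F K).mapMatrix : Matrix (Fin n) (Fin n) F →+* _).toMonoidHom.comp M
  let ρ' : Representation K G (Fin n → K) := (LinearMap.toMatrixAlgEquiv' (R := K) (n := Fin n)).symm.toMonoidHom.comp M'
  have hinj : Function.Injective ρ' := by
    intro a b h
    have h1 : M' a = M' b := (LinearMap.toMatrixAlgEquiv' (R := K) (n := Fin n)).symm.injective h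
    have h2 : M a = M b := by
      ext i j
      apply (algebraMap F K).injective
      exact congrFun (congrFun h1 i) j
    exact hρ ((LinearMap.toMatrixAlgEquiv' (R := F) (n := Fin n)).injective h2)
  obtain ⟨A, h1, h2, h3⟩ := hf m n G K (Fin n → K) (by simp) ρ' hinj hm.le
  exact ⟨A, h1, ⟨⟨fun a b => Subtype.ext (h2.1 a a.2 b b.2)⟩⟩, Nat.lt_succ_of_le h3⟩

end Cfsg.Agent.Lib.BFJ
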