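import Mathlib

/-!
# The Baer trick (helper62)

On a group of class at most two in which the commutators have odd exponent, `x ∘ y = x * y * ⁅y, x⁆ ^ h` is an abelian
group structure on which the automorphisms act. Application: for a `p`-group `K` (p odd) of class at most 2 and exponent
`p`, a `p`-group `P` and a `p'`-group `Q` of automorphisms with `P` normalizing `Q`, `Q ≠ 1`: some `P`-fixed element is
not fixed by `Q`.
-/

set_option autoImplicit false

namespace Cfsg.Agent.Lib.BaerTrick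

open Subgroup
open scoped commutatorElement

universe u

variable {K : Type u} [Group K]

theorem comm_mul_left (h : ∀ x y : K, ⁅x, y⁆ ∈ center K) (x y w : K) : ⁅x * y, w⁆ = ⁅x, w⁆ * ⁅y, w⁆ := by
  have e : ⁅x * y, w⁆ = x * ⁅y, w⁆ * x⁻¹ * ⁅x, w⁆ := by simp only [commutatorElement_def]; group
  have e2 : x * ⁅y, w⁆ * x⁻¹ = ⁅y, w⁆ := by rw [mem_center_iff.mp (h y w) x]; group
  rw [e, e2, mem_center_iff.mp (h x w)]

theorem comm_mul_right (h : ∀ x y : K, ⁅x, y⁆ ∈ center K) (w x y : K) : ⁅w, x * y⁆ = ⁅w, x⁆ * ⁅w, y⁆ := by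
  rw [← inv_inj, commutatorElement_inv, comm_mul_left h, mul_inv_rev, commutatorElement_inv, commutatorElement_inv,
    mem_center_iff.mp (h y w)]

/-- A copy of `K` for the abelian structure. -/
def BK (K : Type u) : Type u := K

/-- the operation -/
def bmul (n : ℕ) (x y : K) : K := x * y * ⁅y, x⁆ ^ n

theorem comm_central_left (h : ∀ x y : K, ⁅x, y⁆ ∈ center K) (z w x : K) (hz : z ∈ center K) : ⁅x * z, w⁆ = ⁅x, w⁆ := by
  rw [comm_mul_left h]
  have : ⁅z, w⁆ = 1 := by
    rw [commutatorElement_def, ← mem_center_iff.mp hz w]; group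
  rw [this, mul_one]

theorem comm_central_right (h : ∀ x y : K, ⁅x, y⁆ ∈ center K) (z w x : K) (hz : z ∈ center K) : ⁅w, x * z⁆ = ⁅w, x⁆ := by
  rw [comm_mul_right h]
  have : ⁅w, z⁆ = 1 := by
    rw [commutatorElement_def, mem_center_iff.mp hz w]; group
  rw [this, mul_one]

theorem bmul_assoc (h : ∀ x y : K, ⁅x, y⁆ ∈ center K) (n : ℕ) (x y z : K) :
    bmul n (bmul n x y) z = bmul n x (bmul n y z) := by
  unfold bmul
  have hz : ∀ a b : K, ⁅a, b⁆ ^ n ∈ center K := fun a b => pow_mem (h a b) n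
  rw [comm_central_right h _ _ _ (hz y x), comm_central_left h _ _ _ (hz z y), comm_mul_right h, comm_mul_left h]
  have hc : ∀ a b c d : K, ⁅a, b⁆ ^ n * ⁅c, d⁆ ^ n = ⁅c, d⁆ ^ n * ⁅a, b⁆ ^ n := fun a b c d =>
    mem_center_iff.mp (hz c d) _
  have hc1 : ∀ a b c d : K, Commute ⁅a, b⁆ ⁅c, d⁆ := fun a b c d => mem_center_iff.mp (h c d) _
  have hc2 : ∀ a b w : K, ⁅a, b⁆ ^ n * w = w * ⁅a, b⁆ ^ n := fun a b w => (mem_center_iff.mp (hz a b) w).symm
  rw [(hc1 z x z y).mul_pow, (hc1 y x z x).mul_pow]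
  have e1 : x * y * ⁅y, x⁆ ^ n * z = x * y * z * ⁅y, x⁆ ^ n := by
    rw [mul_assoc (x * y), hc2 y x z, ← mul_assoc]
  rw [e1]
  have e2 : x * (y * z * ⁅z, y⁆ ^ n) = x * y * z * ⁅z, y⁆ ^ n := by group
  rw [e2]
  rw [mul_assoc (x * y * z), mul_assoc (x * y * z)]
  congr 1
  rw [← mul_assoc, ← mul_assoc, hc z y y x, mul_assoc (⁅y, x⁆ ^ n), mul_assoc (⁅y, x⁆ ^ n), hc z y z x]

theorem bmul_comm (h : ∀ x y : K, ⁅x, y⁆ ∈ center K) (n : ℕ) (hn : ∀ x y : K, ⁅x, y⁆ ^ (2 * n) = ⁅x, y⁆) (x y : K) :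
    bmul n x y = bmul n y x := by
  unfold bmul
  have h1 : x * y = y * x * ⁅x, y⁆ := by
    rw [mem_center_iff.mp (h x y) (y * x), commutatorElement_def]; group
  have h2 : ⁅y, x⁆ = ⁅x, y⁆⁻¹ := (commutatorElement_inv x y).symm
  rw [h1, mul_assoc, h2]
  congr 1
  rw [inv_pow, mul_inv_eq_iff_eq_mul, ← pow_add, ← two_mul, hn]

theorem one_bmul (n : ℕ) (x : K) : bmul n 1 x = x := by
  unfold bmul
  rw [commutatorElement_one_right, one_pow, one_mul, mul_one]

theorem bmul_one (n : ℕ) (x : K) : bmul n x 1 = x := by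
  unfold bmul
  rw [commutatorElement_one_left, one_pow, mul_one, mul_one]

theorem inv_bmul (n : ℕ) (x : K) : bmul n x⁻¹ x = 1 := by
  unfold bmul
  have h1 : ⁅x, x⁻¹⁆ = 1 := by rw [commutatorElement_def]; group
  rw [h1, one_pow, mul_one, inv_mul_cancel]

/-- The abelian group structure. -/
@[reducible] def baer (h : ∀ x y : K, ⁅x, y⁆ ∈ center K) (n : ℕ) (hn : ∀ x y : K, ⁅x, y⁆ ^ (2 * n) = ⁅x, y⁆) :
    CommGroup (BK K) where
  mul x y := bmul (K := K) n x y
  mul_assoc x y z := bmul_assoc h n x y z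
  one := (1 : K)
  one_mul x := one_bmul (K := K) n x
  mul_one x := bmul_one (K := K) n x
  inv x := Inv.inv (α := K) x
  inv_mul_cancel x := inv_bmul (K := K) n x
  mul_comm x y := bmul_comm h n hn x y

theorem map_bmul (f : K →* K) (n : ℕ) (x y : K) : f (bmul n x y) = bmul n (f x) (f y) := by
  unfold bmul
  rw [map_mul, map_mul, map_pow, map_commutatorElement]

theorem main [Finite K] {p : ℕ} [hp : Fact p.Prime] (hp2 : p ≠ 2) (hK : IsPGroup p K)
    (hc : ∀ x y : K, ⁅x, y⁆ ∈ center K) (hexp : ∀ x : K, x ^ p = 1) (P Q : Subgroup (MulAut K)) (hP : IsPGroup p P)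
    (hQ : (Nat.card Q).Coprime p) (hPQ : P ≤ normalizer (Q : Set (MulAut K))) (hne : ∃ a ∈ Q, ∃ x : K, a x ≠ x) :
    ∃ x : K, (∀ g ∈ P, g x = x) ∧ ∃ a ∈ Q, a x ≠ x := by
  classical
  have _ := Fintype.ofFinite Q
  obtain ⟨m, hm⟩ := hp.out.odd_of_ne_two hp2
  have hn : ∀ x y : K, ⁅x, y⁆ ^ (2 * (m + 1)) = ⁅x, y⁆ := by
    intro x y
    have : 2 * (m + 1) = p + 1 := by omega
    rw [this, pow_succ, hexp, one_mul]
  letI inst : CommGroup (BK K) := baer hc (m + 1) hn
  have hmul : ∀ x y : BK K, x * y = bmul (K := K) (m + 1) x y := fun _ _ => rfl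
  have hone : (1 : BK K) = (1 : K) := rfl
  -- automorphisms
  let τ : MulAut K → (BK K →* BK K) := fun a =>
    { toFun := fun x => (a : K → K) x
      map_one' := map_one a
      map_mul' := fun x y => map_bmul a.toMonoidHom (m + 1) x y }
  have hτ : ∀ (a : MulAut K) (x : BK K), τ a x = (a : K → K) x := fun _ _ => rfl
  have hτmul : ∀ (a b : MulAut K) (x : BK K), τ (a * b) x = τ a (τ b x) := fun _ _ _ => rfl
  let N : BK K →* BK K := ∏ a : Q, τ (a : MulAut K)
  have hN : ∀ x : BK K, N x = ∏ a : Q, τ (a : MulAut K) x := fun x => by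
    simp only [N, MonoidHom.finsetProd_apply]
  -- `a (N x) = N x`
  have hfix : ∀ b ∈ Q, ∀ x : BK K, τ b (N x) = N x := by
    intro b hb x
    rw [hN, map_prod]
    refine Fintype.prod_equiv (Equiv.mulLeft (⟨b, hb⟩ : Q)) _ _ (fun a => ?_)
    rw [Equiv.coe_mulLeft, Subgroup.coe_mul, hτmul]
  have hnorm : ∀ g ∈ P, ∀ x : BK K, τ g (N x) = N (τ g x) := by
    intro g hg x
    rw [hN, hN, map_prod]
    have hgn := hPQ hg
    let e : Q ≃ Q :=
      { toFun := fun a => ⟨g * a * g⁻¹, (mem_normalizer_iff.mp hgn _).mp a.2⟩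
        invFun := fun a => ⟨g⁻¹ * a * g, (mem_normalizer_iff''.mp hgn _).mp a.2⟩
        left_inv := fun a => Subtype.ext (by simp [mul_assoc])
        right_inv := fun a => Subtype.ext (by simp [mul_assoc]) }
    refine Fintype.prod_equiv e _ _ (fun a => ?_)
    change τ g (τ a x) = τ (g * a * g⁻¹) (τ g x)
    rw [← hτmul, ← hτmul]
    congr 2
    group
  have hcardBK : Nat.card (BK K) = Nat.card K := rfl
  have hfinBK : Finite (BK K) := inferInstanceAs (Finite K)
  obtain ⟨k, hk⟩ := IsPGroup.iff_card.mp hK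
  have hpBK : IsPGroup p (BK K) := IsPGroup.of_card (n := k) (by rw [hcardBK, hk])
  have hker : N.ker ≠ ⊥ := by
    intro hbot
    have hinj : Function.Injective N := (MonoidHom.ker_eq_bot_iff N).mp hbot
    have hsur : Function.Surjective N := Finite.injective_iff_surjective.mp hinj
    obtain ⟨a, ha, x, hx⟩ := hne
    obtain ⟨y, hy⟩ := hsur x
    apply hx
    have := hfix a ha y
    rw [hy] at this
    exact this
  have hkp : p ∣ Nat.card N.ker := by
    rcases (hpBK.to_subgroup N.ker).card_eq_or_dvd with h | h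
    · exact absurd (Subgroup.card_eq_one.mp h) hker
    · exact h
  letI act : MulAction P N.ker :=
    { smul := fun g x => ⟨τ g x, by
        rw [MonoidHom.mem_ker, ← hnorm g g.2, MonoidHom.mem_ker.mp x.2, map_one]⟩
      one_smul := fun x => Subtype.ext rfl
      mul_smul := fun g h x => Subtype.ext rfl }
  have hsmul : ∀ (g : P) (x : N.ker), ((g • x : N.ker) : BK K) = τ g x := fun _ _ => rfl
  have h1 : (1 : N.ker) ∈ MulAction.fixedPoints P N.ker := by
    intro g
    apply Subtype.ext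
    rw [hsmul]
    exact map_one _
  obtain ⟨b, hb, hb1⟩ := hP.exists_fixed_point_of_prime_dvd_card_of_fixed_point N.ker hkp h1
  refine ⟨(b : BK K), ?_, ?_⟩
  · intro g hg
    have := congrArg Subtype.val (hb ⟨g, hg⟩)
    rw [hsmul] at this
    exact this
  · by_contra hcon
    push Not at hcon
    have h2 : N (b : BK K) = (b : BK K) ^ (Nat.card Q) := by
      rw [hN, Finset.prod_congr rfl (fun (a : Q) _ => show τ (a : MulAut K) (b : BK K) = (b : BK K) from hcon a.1 a.2),
        Finset.prod_const, Finset.card_univ, Nat.card_eq_fintype_card]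
    rw [MonoidHom.mem_ker.mp b.2] at h2
    have h3 : orderOf (b : BK K) ∣ Nat.card Q := orderOf_dvd_of_pow_eq_one h2.symm
    obtain ⟨j, hj⟩ := (IsPGroup.iff_orderOf.mp hpBK) (b : BK K)
    have h4 : orderOf (b : BK K) = 1 := by
      have h5 : (orderOf (b : BK K)).Coprime (Nat.card Q) := by
        rw [hj]; exact Nat.Coprime.pow_left j hQ.symm
      exact Nat.Coprime.eq_one_of_dvd h5 h3
    rw [orderOf_eq_one_iff] at h4
    exact hb1 (Subtype.ext h4.symm)

end Cfsg.Agent.Lib.BaerTrick
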