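import Mathlib.RingTheory.PowerSeries.Derivative
import Mathlib.Analysis.Complex.Basic
set_option autoImplicit false
open PowerSeries
namespace Cfsg.Agent.Lib.Bk4489

noncomputable abbrev d (Q : PowerSeries ℂ) : PowerSeries ℂ := PowerSeries.derivative ℂ Q

/-- logarithmic derivative relation -/
def LD (Q S : PowerSeries ℂ) : Prop := X * d Q = -(S * Q)

theorem LD.mul {Q R S T : PowerSeries ℂ} (h : LD Q S) (h' : LD R T) : LD (Q * R) (S + T) := by
  unfold LD at *
  have : d (Q * R) = Q * d R + R * d Q := by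
    simp [d, Derivation.leibniz]
  rw [this]
  linear_combination Q * h' + R * h

theorem LD.one : LD 1 0 := by
  unfold LD
  simp [d]

theorem LD.prod {ι : Type*} (s : Finset ι) (Q S : ι → PowerSeries ℂ) (h : ∀ i ∈ s, LD (Q i) (S i)) :
    LD (∏ i ∈ s, Q i) (∑ i ∈ s, S i) := by
  classical
  induction s using Finset.induction_on with
  | empty => simpa using LD.one
  | insert a s ha ih =>
    rw [Finset.prod_insert ha, Finset.sum_insert ha]
    exact LD.mul (h a (Finset.mem_insert_self _ _)) (ih fun i hi => h i (Finset.mem_insert_of_mem hi))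

theorem coeff_X_mul_d (Q : PowerSeries ℂ) (k : ℕ) : coeff k (X * d Q) = (k : ℂ) * coeff k Q := by
  cases k with
  | zero => simp
  | succ n =>
    rw [coeff_succ_X_mul]
    simp [d, coeff_derivative]
    ring

theorem LD.unique {Q R S : PowerSeries ℂ} (hS : coeff 0 S = 0) (h : LD Q S) (h' : LD R S)
    (h0 : coeff 0 Q = coeff 0 R) : Q = R := by
  ext k
  induction k using Nat.strong_induction_on with
  | _ k ih =>
    rcases Nat.eq_zero_or_pos k with rfl | hk
    · exact h0
    · have e1 := congrArg (coeff k) h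
      have e2 := congrArg (coeff k) h'
      rw [coeff_X_mul_d] at e1 e2
      have e3 : coeff k (S * Q) = coeff k (S * R) := by
        rw [coeff_mul, coeff_mul]
        refine Finset.sum_congr rfl fun x hx' => ?_
        have hx := Finset.HasAntidiagonal.mem_antidiagonal.1 hx'
        rcases Nat.eq_zero_or_pos x.1 with h1 | h1
        · rw [h1, hS]; simp
        · rw [ih x.2 (by omega)]
      rw [map_neg] at e1 e2
      rw [e3, ← e2] at e1
      have hk' : (k : ℂ) ≠ 0 := by exact_mod_cast hk.ne'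
      exact mul_left_cancel₀ hk' e1

/-- The series `Σ_{m ∣ k, k > 0} m μ^{k/m} X^k`. -/
noncomputable def ser (m : ℕ) (μ : ℂ) : PowerSeries ℂ :=
  PowerSeries.mk fun k => if k ≠ 0 ∧ m ∣ k then (m : ℂ) * μ ^ (k / m) else 0

theorem LD.factor {m : ℕ} (hm : 0 < m) (μ : ℂ) : LD (1 - C μ * X ^ m) (ser m μ) := by
  unfold LD
  ext k
  rw [coeff_X_mul_d, map_neg, mul_sub, mul_one, map_sub, map_sub, coeff_one, coeff_C_mul, coeff_X_pow,
    ser, coeff_mk]
  have h2 : coeff k ((PowerSeries.mk fun k => if k ≠ 0 ∧ m ∣ k then (m : ℂ) * μ ^ (k / m) else 0) * (C μ * X ^ m)) =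
      if m ≤ k then (if k - m ≠ 0 ∧ m ∣ k - m then (m : ℂ) * μ ^ ((k - m) / m) else 0) * μ else 0 := by
    rw [← mul_assoc, coeff_mul_X_pow', mul_comm _ (C μ)]
    split_ifs <;> simp_all [mul_comm]
  rw [h2]
  by_cases hmk : m ∣ k
  · obtain ⟨j, rfl⟩ := hmk
    rcases Nat.eq_zero_or_pos j with rfl | hj
    · simp [hm.ne]
    · have h3 : m * j ≠ 0 := by positivity
      have h4 : m ≤ m * j := Nat.le_mul_of_pos_right m hj
      have h5 : m * j - m = m * (j - 1) := by rw [Nat.mul_sub, mul_one]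
      have h9 : (if m * j = 0 then (1 : ℂ) else 0) = 0 := if_neg h3
      have h10 : (if m * j ≠ 0 ∧ m ∣ m * j then (m : ℂ) * μ ^ (m * j / m) else 0) = m * μ ^ j := by
        rw [if_pos ⟨h3, dvd_mul_right _ _⟩, Nat.mul_div_cancel_left _ hm]
      rw [h9, h10, if_pos h4, h5, Nat.mul_div_cancel_left _ hm]
      rcases Nat.lt_or_ge 1 j with h6 | h6
      · have h7 : m * (j - 1) ≠ 0 := by
          apply Nat.mul_ne_zero hm.ne'
          omega
        have h8 : m * j ≠ m := by
          intro h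
          have : j = 1 := Nat.eq_of_mul_eq_mul_left hm (by rw [h, mul_one])
          omega
        have h11 : (if m * j = m then (1 : ℂ) else 0) = 0 := if_neg h8
        have h12 : (if m * (j - 1) ≠ 0 ∧ m ∣ m * (j - 1) then (m : ℂ) * μ ^ (j - 1) else 0) = m * μ ^ (j - 1) :=
          if_pos ⟨h7, dvd_mul_right _ _⟩
        rw [h11, h12]
        obtain ⟨i, rfl⟩ : ∃ i, j = i + 1 := ⟨j - 1, by omega⟩
        rw [Nat.add_sub_cancel, pow_succ]
        ring
      · have h7 : j = 1 := by omega
        subst h7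
        simp
  · have h3 : k ≠ 0 := by rintro rfl; exact hmk (dvd_zero _)
    have h4 : k ≠ m := by rintro rfl; exact hmk dvd_rfl
    have h5 : ¬ (k - m ≠ 0 ∧ m ∣ k - m ∧ m ≤ k) := by
      rintro ⟨-, h5, h6⟩
      exact hmk ((Nat.dvd_sub_iff_left h6 dvd_rfl).1 h5)
    rw [if_neg h3, if_neg h4, if_neg (fun h => hmk h.2)]
    by_cases h6 : m ≤ k
    · rw [if_pos h6, if_neg (fun h => h5 ⟨h.1, h.2, h6⟩)]
      simp
    · rw [if_neg h6]
      simp

end Cfsg.Agent.Lib.Bk4489
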