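import Mathlib.GroupTheory.GroupAction.Quotient
import Mathlib.Analysis.Complex.Basic
import Mathlib.Dynamics.PeriodicPts.Lemmas
set_option autoImplicit false
set_option linter.unusedSectionVars false
namespace Cfsg.Agent.Lib.Bk4489

open MulAction

section cyc
variable {P : Type*} [Group P] {I : Type*} [Fintype I] [DecidableEq I] [MulAction P I]
variable (c : P → I → ℂ)

/-- quotient by the cyclic group generated by `g` -/
abbrev Orb (I : Type*) [MulAction P I] (g : P) : Type _ := orbitRel.Quotient (Subgroup.zpowers g) I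

def toOrb (g : P) (i : I) : Orb I g := Quotient.mk _ i

theorem toOrb_eq_iff (g : P) (i j : I) : toOrb g i = toOrb g j ↔ ∃ k : ℤ, g ^ k • j = i := by
  unfold toOrb
  rw [Quotient.eq, orbitRel_apply, mem_orbit_iff]
  constructor
  · rintro ⟨⟨x, k, rfl⟩, hx⟩
    exact ⟨k, hx⟩
  · rintro ⟨k, hk⟩
    exact ⟨⟨g ^ k, k, rfl⟩, hk⟩

noncomputable instance (g : P) : Fintype (Orb I g) := Fintype.ofFinite _
noncomputable instance (g : P) : DecidableEq (Orb I g) := Classical.decEq _

/-- product over an orbit -/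
noncomputable def mu (g : P) (O : Orb I g) : ℂ := ∏ i ∈ Finset.univ.filter (fun i => toOrb g i = O), c g i

/-- length of an orbit -/
noncomputable def len (g : P) (O : Orb I g) : ℕ := (Finset.univ.filter (fun i => toOrb g i = O)).card

theorem len_pos (g : P) (O : Orb I g) : 0 < len g O := by
  obtain ⟨i, rfl⟩ := Quotient.exists_rep O
  exact Finset.card_pos.2 ⟨i, Finset.mem_filter.2 ⟨Finset.mem_univ _, rfl⟩⟩

variable (hcm : ∀ g h i, c (g * h) i = c g (h • i) * c h i) (hc1 : ∀ i, c 1 i = 1)

include hcm hc1 in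
theorem c_pow (g : P) (i : I) (n : ℕ) : c (g ^ n) i = ∏ k ∈ Finset.range n, c g (g ^ k • i) := by
  induction n with
  | zero => simp [hc1]
  | succ n ih =>
    rw [pow_succ', hcm, ih, Finset.prod_range_succ, mul_comm]

variable [Finite P]

theorem filter_eq (g : P) (i : I) : Finset.univ.filter (fun j => toOrb g j = toOrb g i) =
    (Finset.range (Function.minimalPeriod (g • ·) i)).image (fun k => g ^ k • i) := by
  ext j
  simp only [Finset.mem_filter, Finset.mem_univ, true_and, Finset.mem_image, Finset.mem_range]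
  rw [toOrb_eq_iff]
  have hpos : 0 < Function.minimalPeriod (g • ·) i :=
    Function.minimalPeriod_pos_of_mem_periodicPts ⟨orderOf g, orderOf_pos g, by
      show (g • ·)^[orderOf g] i = i
      rw [smul_iterate]
      simp [pow_orderOf_eq_one]⟩
  constructor
  · rintro ⟨k, rfl⟩
    set m := Function.minimalPeriod (g • ·) i with hm
    refine ⟨(k % m).toNat, ?_, ?_⟩
    · have := Int.emod_lt_of_pos k (by exact_mod_cast hpos : (0 : ℤ) < m)
      have h2 := Int.emod_nonneg k (by exact_mod_cast hpos.ne' : (m : ℤ) ≠ 0)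
      omega
    · have h2 := Int.emod_nonneg k (by exact_mod_cast hpos.ne' : (m : ℤ) ≠ 0)
      have h3 : g ^ (k % m).toNat = g ^ (k % (m : ℤ)) := by
        rw [← zpow_natCast, Int.toNat_of_nonneg h2]
      rw [h3]
      exact MulAction.zpow_smul_mod_minimalPeriod g i k
  · rintro ⟨k, -, rfl⟩
    exact ⟨k, by rw [zpow_natCast]⟩

theorem inj_range (g : P) (i : I) : Set.InjOn (fun k : ℕ => g ^ k • i)
    (Finset.range (Function.minimalPeriod (g • ·) i)) := by
  intro a ha b hb hab
  simp only [Finset.coe_range, Set.mem_Iio] at ha hb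
  have h : (g • ·)^[a] i = (g • ·)^[b] i := by
    rw [smul_iterate, smul_iterate]
    exact hab
  exact (Function.iterate_eq_iterate_iff_of_lt_minimalPeriod ha hb).1 h

theorem len_eq (g : P) (i : I) : len g (toOrb g i) = Function.minimalPeriod (g • ·) i := by
  unfold len
  rw [filter_eq, Finset.card_image_of_injOn (inj_range g i), Finset.card_range]

include hcm hc1 in
theorem mu_eq (g : P) (i : I) : mu c g (toOrb g i) = c (g ^ len g (toOrb g i)) i := by
  unfold mu
  rw [c_pow c hcm hc1, filter_eq, Finset.prod_image (inj_range g i), len_eq]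

theorem fix_iff (g : P) (i : I) (k : ℕ) : g ^ k • i = i ↔ len g (toOrb g i) ∣ k := by
  rw [len_eq]
  exact MulAction.pow_smul_eq_iff_minimalPeriod_dvd

include hcm hc1 in
theorem c_pow_mul (g : P) (i : I) (j : ℕ) :
    c (g ^ (len g (toOrb g i) * j)) i = mu c g (toOrb g i) ^ j := by
  rw [mu_eq c hcm hc1]
  have hfix : g ^ len g (toOrb g i) • i = i := (fix_iff g i _).2 dvd_rfl
  induction j with
  | zero => simp [hc1]
  | succ j ih =>
    rw [Nat.mul_succ, pow_add, hcm, hfix, ih, pow_succ]

/-- the trace function of the monomial representation -/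
noncomputable def tr (g : P) : ℂ := ∑ i : I, if g • i = i then c g i else 0

include hcm hc1 in
theorem tr_pow (g : P) (k : ℕ) : tr c (g ^ k) =
    ∑ O : Orb I g, if len g O ∣ k then (len g O : ℂ) * mu c g O ^ (k / len g O) else 0 := by
  unfold tr
  rw [← Finset.sum_fiberwise Finset.univ (toOrb g)]
  refine Finset.sum_congr rfl fun O _ => ?_
  have h1 : ∀ i ∈ Finset.univ.filter (fun i => toOrb g i = O),
      (if g ^ k • i = i then c (g ^ k) i else 0) =
      if len g O ∣ k then mu c g O ^ (k / len g O) else 0 := by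
    intro i hi
    obtain ⟨-, rfl⟩ := Finset.mem_filter.1 hi
    simp only [fix_iff]
    split_ifs with h
    · obtain ⟨j, rfl⟩ := h
      rw [c_pow_mul c hcm hc1, Nat.mul_div_cancel_left _ (len_pos g _)]
    · rfl
  rw [Finset.sum_congr rfl h1, Finset.sum_const, nsmul_eq_mul]
  split_ifs
  · rfl
  · simp

/-- the `L`-truncated symmetric trace -/
noncomputable def th (L : ℕ) (g : P) : ℂ :=
  ∑ φ : I → Fin L, if (fun i => φ (g⁻¹ • i)) = φ then ∏ i, c g i ^ (φ i : ℕ) else 0

omit [Finite P] in
theorem th_eq (L : ℕ) (g : P) : th c L g = ∏ O : Orb I g, ∑ j ∈ Finset.range L, mu c g O ^ j := by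
  classical
  have h1 : ∀ O : Orb I g, ∑ j ∈ Finset.range L, mu c g O ^ j = ∑ j : Fin L, mu c g O ^ (j : ℕ) := by
    intro O
    rw [Fin.sum_univ_eq_sum_range (fun j => mu c g O ^ j)]
  simp only [h1]
  rw [Finset.prod_univ_sum, Fintype.piFinset_univ]
  unfold th
  rw [← Finset.sum_filter]
  symm
  refine Finset.sum_bij (fun (ψ : Orb I g → Fin L) _ => fun i => ψ (toOrb g i)) ?_ ?_ ?_ ?_
  · intro ψ _
    rw [Finset.mem_filter]
    refine ⟨Finset.mem_univ _, ?_⟩
    funext i
    have : toOrb g (g⁻¹ • i) = toOrb g i := by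
      rw [toOrb_eq_iff]
      exact ⟨-1, by rw [zpow_neg_one]⟩
    simp only [this]
  · intro ψ _ ψ' _ h
    funext O
    obtain ⟨i, rfl⟩ := Quotient.exists_rep O
    exact congrFun h i
  · intro φ hφ
    obtain ⟨-, hφ⟩ := Finset.mem_filter.1 hφ
    have hz : ∀ k : ℤ, ∀ i, φ (g ^ k • i) = φ i := by
      have hs : ∀ i, φ (g • i) = φ i := by
        intro i
        have := congrFun hφ (g • i)
        simp only [inv_smul_smul] at this
        exact this.symm
      have hn : ∀ n : ℕ, ∀ i, φ (g ^ n • i) = φ i := by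
        intro n
        induction n with
        | zero => simp
        | succ n ih => intro i; rw [pow_succ', mul_smul, hs, ih]
      intro k i
      obtain ⟨n, rfl | rfl⟩ := k.eq_nat_or_neg
      · rw [zpow_natCast, hn]
      · rw [zpow_neg, zpow_natCast, ← hn n ((g ^ n)⁻¹ • i), smul_inv_smul]
    refine ⟨fun O => φ (Quotient.out O), Finset.mem_univ _, ?_⟩
    funext i
    have h2 : toOrb g (Quotient.out (toOrb g i)) = toOrb g i := Quotient.out_eq _
    obtain ⟨k, hk⟩ := (toOrb_eq_iff g _ _).1 h2
    show φ (Quotient.out (toOrb g i)) = φ i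
    rw [← hk, hz]
  · intro ψ _
    show _ = ∏ i, c g i ^ (ψ (toOrb g i) : ℕ)
    rw [← Finset.prod_fiberwise Finset.univ (toOrb g) (fun i => c g i ^ (ψ (toOrb g i) : ℕ))]
    refine Finset.prod_congr rfl fun O _ => ?_
    unfold mu
    rw [← Finset.prod_pow]
    refine Finset.prod_congr rfl fun i hi => ?_
    obtain ⟨-, rfl⟩ := Finset.mem_filter.1 hi
    rfl

end cyc
end Cfsg.Agent.Lib.Bk4489
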