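import Mathlib.Algebra.Polynomial.BigOperators
import Cfsg.Agent.Lib.Bk4489a
import Cfsg.Agent.Lib.Bk4489b
set_option autoImplicit false
set_option linter.unusedSectionVars false
namespace Cfsg.Agent.Lib.Bk4489

open MulAction

variable {P : Type*} [Group P] {I : Type*} [Fintype I] [DecidableEq I] [MulAction P I]
variable (c : P → I → ℂ)
variable (hcm : ∀ g h i, c (g * h) i = c g (h • i) * c h i) (hc1 : ∀ i, c 1 i = 1)
variable [Finite P]

/-- the polynomial `Π (1 - ν(O) X^{m_O})` -/
noncomputable def pol (g : P) (ν : Orb I g → ℂ) : Polynomial ℂ :=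
  ∏ O : Orb I g, (1 - Polynomial.C (ν O) * Polynomial.X ^ len g O)

theorem pol_LD (g : P) (ν : Orb I g → ℂ) :
    LD ((pol g ν : Polynomial ℂ) : PowerSeries ℂ) (∑ O : Orb I g, ser (len g O) (ν O)) := by
  have h1 : ((pol g ν : Polynomial ℂ) : PowerSeries ℂ) =
      ∏ O : Orb I g, (1 - PowerSeries.C (ν O) * PowerSeries.X ^ len g O) := by
    unfold pol
    rw [← Polynomial.coeToPowerSeries.ringHom_apply, map_prod]
    refine Finset.prod_congr rfl fun O _ => ?_
    simp
  rw [h1]
  exact LD.prod _ _ _ fun O _ => LD.factor (len_pos g O) _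

theorem pol_coeff_zero (g : P) (ν : Orb I g → ℂ) : PowerSeries.coeff 0 ((pol g ν : Polynomial ℂ) : PowerSeries ℂ) = 1 := by
  rw [Polynomial.coeff_coe, Polynomial.coeff_zero_eq_eval_zero]
  unfold pol
  rw [Polynomial.eval_prod]
  refine Finset.prod_eq_one fun O _ => ?_
  simp [(len_pos g O).ne']

theorem len_dvd (g : P) (O : Orb I g) : len g O ∣ orderOf g := by
  obtain ⟨i, rfl⟩ := Quotient.exists_rep O
  show len g (toOrb g i) ∣ _
  rw [← fix_iff, pow_orderOf_eq_one, one_smul]

include hcm hc1 in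
theorem pol_eq (g : P) (L : ℕ) (hL : L.Coprime (orderOf g)) (htr : ∀ k, tr c (g ^ (k * L)) = tr c (g ^ k)) :
    pol g (fun O => mu c g O ^ L) = pol g (mu c g) := by
  rw [← Polynomial.coe_inj]
  have hser : ∑ O : Orb I g, ser (len g O) (mu c g O ^ L) = ∑ O : Orb I g, ser (len g O) (mu c g O) := by
    ext k
    rw [map_sum, map_sum]
    simp only [ser, PowerSeries.coeff_mk]
    rcases Nat.eq_zero_or_pos k with rfl | hk
    · simp
    · have h := htr k
      rw [tr_pow c hcm hc1, tr_pow c hcm hc1] at h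
      have e1 : ∀ O : Orb I g, (if k ≠ 0 ∧ len g O ∣ k then (len g O : ℂ) * (mu c g O ^ L) ^ (k / len g O) else 0) =
          if len g O ∣ k * L then (len g O : ℂ) * mu c g O ^ (k * L / len g O) else 0 := by
        intro O
        have hco : (len g O).Coprime L := (Nat.Coprime.coprime_dvd_right (len_dvd g O) hL).symm
        by_cases hd : len g O ∣ k
        · rw [if_pos ⟨hk.ne', hd⟩, if_pos (hd.mul_right L), ← pow_mul, mul_comm k L, Nat.mul_div_assoc _ hd]
        · rw [if_neg (fun h => hd h.2), if_neg (fun h => hd (hco.dvd_of_dvd_mul_right h))]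
      have e2 : ∀ O : Orb I g, (if k ≠ 0 ∧ len g O ∣ k then (len g O : ℂ) * mu c g O ^ (k / len g O) else 0) =
          if len g O ∣ k then (len g O : ℂ) * mu c g O ^ (k / len g O) else 0 := by
        intro O
        by_cases hd : len g O ∣ k
        · rw [if_pos ⟨hk.ne', hd⟩, if_pos hd]
        · rw [if_neg (fun h => hd h.2), if_neg hd]
      rw [Finset.sum_congr rfl fun O _ => e1 O, Finset.sum_congr rfl fun O _ => e2 O]
      exact h
  refine LD.unique (S := ∑ O : Orb I g, ser (len g O) (mu c g O)) ?_ ?_ (pol_LD g _) ?_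
  · rw [map_sum]
    refine Finset.sum_eq_zero fun O _ => ?_
    simp [ser]
  · rw [← hser]
    exact pol_LD g _
  · rw [pol_coeff_zero, pol_coeff_zero]

/-- number of orbits with trivial monodromy -/
noncomputable def nn (g : P) : ℕ := (Finset.univ.filter (fun O : Orb I g => mu c g O = 1)).card

include hcm hc1 in
theorem th_eq_pow (g : P) (L : ℕ) (hL : L.Coprime (orderOf g))
    (htr : ∀ k, tr c (g ^ (k * L)) = tr c (g ^ k)) : th c L g = (L : ℂ) ^ nn c g := by
  classical
  have h := pol_eq c hcm hc1 g L hL htr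
  unfold pol at h
  set A := Finset.univ.filter (fun O : Orb I g => mu c g O = 1) with hA
  set B := Finset.univ.filter (fun O : Orb I g => ¬ mu c g O = 1) with hB
  rw [← Finset.prod_filter_mul_prod_filter_not Finset.univ (fun O : Orb I g => mu c g O = 1),
    ← Finset.prod_filter_mul_prod_filter_not Finset.univ (fun O : Orb I g => mu c g O = 1)
      (fun O => (1 - Polynomial.C (mu c g O) * Polynomial.X ^ len g O)), ← hA, ← hB] at h
  have e1 : ∏ O ∈ A, (1 - Polynomial.C (mu c g O ^ L) * Polynomial.X ^ len g O) =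
      ∏ O ∈ A, (1 - Polynomial.C (mu c g O) * Polynomial.X ^ len g O) := by
    refine Finset.prod_congr rfl fun O hO => ?_
    have : mu c g O = 1 := (Finset.mem_filter.1 hO).2
    rw [this, one_pow]
  have e2 : ∏ O ∈ A, (1 - Polynomial.C (mu c g O) * Polynomial.X ^ len g O) ≠ 0 := by
    rw [Finset.prod_ne_zero_iff]
    intro O _ h0
    have := congrArg (Polynomial.eval 0) h0
    simp [(len_pos g O).ne'] at this
  rw [e1] at h
  have h2 := mul_left_cancel₀ e2 h
  have h3 := congrArg (Polynomial.eval 1) h2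
  rw [Polynomial.eval_prod, Polynomial.eval_prod] at h3
  simp only [Polynomial.eval_sub, Polynomial.eval_one, Polynomial.eval_mul, Polynomial.eval_C,
    Polynomial.eval_pow, Polynomial.eval_X, one_pow, mul_one] at h3
  rw [th_eq, ← Finset.prod_filter_mul_prod_filter_not Finset.univ (fun O : Orb I g => mu c g O = 1),
    ← hA, ← hB]
  have e3 : ∏ O ∈ A, ∑ j ∈ Finset.range L, mu c g O ^ j = (L : ℂ) ^ nn c g := by
    have : ∀ O ∈ A, ∑ j ∈ Finset.range L, mu c g O ^ j = (L : ℂ) := by
      intro O hO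
      rw [(Finset.mem_filter.1 hO).2]
      simp
    rw [Finset.prod_congr rfl this, Finset.prod_const]
    rfl
  have e4 : ∏ O ∈ B, ∑ j ∈ Finset.range L, mu c g O ^ j = 1 := by
    have e5 : (∏ O ∈ B, ∑ j ∈ Finset.range L, mu c g O ^ j) * ∏ O ∈ B, (1 - mu c g O) =
        ∏ O ∈ B, (1 - mu c g O) := by
      rw [← Finset.prod_mul_distrib, ← h3]
      refine Finset.prod_congr rfl fun O _ => ?_
      exact geom_sum_mul_neg (mu c g O) L
    have e6 : ∏ O ∈ B, (1 - mu c g O) ≠ 0 := by
      rw [Finset.prod_ne_zero_iff]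
      intro O hO h0
      exact (Finset.mem_filter.1 hO).2 (sub_eq_zero.1 h0).symm
    exact mul_right_cancel₀ e6 (by rw [e5, one_mul])
  rw [e3, e4, mul_one]

end Cfsg.Agent.Lib.Bk4489
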