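import Cfsg.Agent.Lib.CharBasic
import Cfsg.Agent.Lib.IndFun
import Cfsg.Agent.Lib.Bk4489c
set_option autoImplicit false
set_option linter.unusedSectionVars false
open Cfsg Cfsg.Agent.Lib.CharBasic
namespace Cfsg.Agent.Lib.Bk4489
open MulAction
open scoped ComplexConjugate

universe u
variable {P : Type u} [Group P]

section rep
variable {Φ : Type*} [Fintype Φ] [DecidableEq Φ] [MulAction P Φ] (C : P → Φ → ℂ)
  (hCm : ∀ g h φ, C (g * h) φ = C g (h • φ) * C h φ) (hC1 : ∀ φ, C 1 φ = 1)

/-- the monomial representation -/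
noncomputable def mrep : Representation ℂ P (Φ → ℂ) where
  toFun g := { toFun := fun f φ => C g (g⁻¹ • φ) * f (g⁻¹ • φ)
               map_add' := fun f f' => by funext φ; simp [mul_add]
               map_smul' := fun a f => by funext φ; simp; ring }
  map_one' := by
    ext f φ
    simp [hC1]
  map_mul' g h := by
    ext f φ
    simp [hCm, mul_smul, mul_assoc]

theorem mrep_character (g : P) : (mrep C hCm hC1).character g = ∑ φ, if g • φ = φ then C g φ else 0 := by
  rw [Representation.character, LinearMap.trace_eq_matrix_trace ℂ (Pi.basisFun ℂ Φ), Matrix.trace]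
  refine Finset.sum_congr rfl fun φ _ => ?_
  rw [Matrix.diag_apply, LinearMap.toMatrix_apply]
  simp only [Pi.basisFun_apply, Pi.basisFun_repr]
  show C g (g⁻¹ • φ) * (Pi.single φ 1 : Φ → ℂ) (g⁻¹ • φ) = _
  by_cases h : g • φ = φ
  · have h' : g⁻¹ • φ = φ := by rw [inv_smul_eq_iff, h]
    rw [h', if_pos h, Pi.single_eq_same, mul_one]
  · have h' : g⁻¹ • φ ≠ φ := by
      intro h1
      apply h
      rw [inv_smul_eq_iff] at h1
      exact h1.symm
    rw [if_neg h, Pi.single_eq_of_ne h', mul_zero]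

include hCm hC1 in
theorem avg [Fintype P] : ∃ n : ℕ, ∑ g : P, (∑ φ, if g • φ = φ then C g φ else 0) = (Nat.card P : ℂ) * n := by
  have h1 : IsCharacter P (mrep C hCm hC1).character := isCharacter_of_rep _
  obtain ⟨n, hn⟩ := h1.classInner_nat isCharacter_one
  refine ⟨n, ?_⟩
  rw [← hn, classInner, mul_inv_cancel_left₀ (Nat.cast_ne_zero.2 Nat.card_pos.ne')]
  refine Finset.sum_congr rfl fun g _ => ?_
  rw [mrep_character]
  simp
end rep

section bl
variable {I : Type*} [Fintype I] [DecidableEq I] [MulAction P I]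
variable (c : P → I → ℂ)
variable (hcm : ∀ g h i, c (g * h) i = c g (h • i) * c h i) (hc1 : ∀ i, c 1 i = 1)

include hcm hc1 in
theorem avg_th [Fintype P] (L : ℕ) : ∃ n : ℕ, ∑ g : P, th c L g = (Nat.card P : ℂ) * n := by
  let _ : MulAction P (I → Fin L) := arrowAction
  obtain ⟨n, hn⟩ := avg (P := P) (Φ := I → Fin L) (fun g φ => ∏ i, c g i ^ (φ i : ℕ)) (by
      intro g h φ
      simp only [hcm, mul_pow, Finset.prod_mul_distrib]
      congr 1
      rw [← Equiv.prod_comp (MulAction.toPerm h) (fun i => c g i ^ (((h • φ) i : Fin L) : ℕ))]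
      refine Finset.prod_congr rfl fun i _ => ?_
      show _ = c g (h • i) ^ ((φ (h⁻¹ • (h • i)) : Fin L) : ℕ)
      rw [inv_smul_smul]) (by intro φ; simp [hc1])
  refine ⟨n, ?_⟩
  rw [← hn]
  rfl

variable [Finite P]

theorem sum_len (g : P) : ∑ O : Orb I g, len g O = Fintype.card I := by
  unfold len
  rw [← Finset.card_univ, Finset.card_eq_sum_card_fiberwise (f := toOrb g) (t := Finset.univ)]
  intro i _
  exact Finset.mem_univ _

theorem nn_one (hc1 : ∀ i, c 1 i = 1) : nn c 1 = Fintype.card I := by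
  classical
  have h1 : ∀ i j : I, toOrb (1 : P) i = toOrb 1 j → i = j := by
    intro i j h
    obtain ⟨k, hk⟩ := (toOrb_eq_iff _ _ _).1 h
    rw [one_zpow, one_smul] at hk
    exact hk.symm
  have h2 : ∀ O : Orb I (1 : P), mu c 1 O = 1 := by
    intro O
    unfold mu
    exact Finset.prod_eq_one fun i _ => hc1 i
  unfold nn
  rw [Finset.filter_true_of_mem (fun O _ => h2 O), Finset.card_univ]
  have h3 : ∀ O : Orb I (1 : P), len 1 O = 1 := by
    intro O
    obtain ⟨i, rfl⟩ := Quotient.exists_rep O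
    unfold len
    rw [Finset.card_eq_one]
    refine ⟨i, ?_⟩
    ext j
    rw [Finset.mem_filter, Finset.mem_singleton]
    constructor
    · rintro ⟨-, h⟩
      exact h1 j i h
    · rintro rfl
      exact ⟨Finset.mem_univ _, rfl⟩
  rw [← sum_len (I := I) (1 : P), Finset.sum_congr rfl (fun O _ => h3 O)]
  simp

include hcm hc1 in
theorem nn_lt (g : P) (h : tr c g ≠ (Fintype.card I : ℂ)) : nn c g < Fintype.card I := by
  classical
  have h1 : nn c g ≤ Fintype.card (Orb I g) := by
    unfold nn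
    exact Finset.card_filter_le _ _
  have h2 : Fintype.card (Orb I g) ≤ Fintype.card I := by
    rw [← sum_len (I := I) g, ← Finset.card_univ, Finset.card_eq_sum_ones]
    exact Finset.sum_le_sum fun O _ => len_pos g O
  by_contra hcon
  have h3 : nn c g = Fintype.card (Orb I g) := by omega
  have h4 : Fintype.card (Orb I g) = Fintype.card I := by omega
  have h5 : ∀ O : Orb I g, mu c g O = 1 := by
    unfold nn at h3
    rw [← Finset.card_univ, Finset.card_filter_eq_iff] at h3
    exact fun O => h3 O (Finset.mem_univ _)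
  have h6 : ∀ O : Orb I g, len g O = 1 := by
    intro O
    by_contra hO
    have hlt : ∑ O : Orb I g, 1 < ∑ O : Orb I g, len g O := by
      refine Finset.sum_lt_sum (fun O _ => len_pos g O) ⟨O, Finset.mem_univ _, ?_⟩
      have := len_pos g O
      omega
    rw [sum_len, ← Finset.card_eq_sum_ones, Finset.card_univ] at hlt
    omega
  apply h
  have h7 := tr_pow c hcm hc1 g 1
  rw [pow_one] at h7
  rw [h7]
  simp only [h5, h6]
  simp [h4]

include hcm hc1 in
/-- The main divisibility. -/
theorem card_dvd (u : ℕ) (hu : u.Coprime (Nat.card P)) (htr : ∀ g, tr c (g ^ u) = tr c g)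
    (hf : ∀ g, tr c g = (Fintype.card I : ℂ) → g = 1) :
    (Nat.card P : ℤ) ∣ ∏ i ∈ Finset.range (Fintype.card I), ((u : ℤ) ^ Fintype.card I - (u : ℤ) ^ i) := by
  classical
  haveI := Fintype.ofFinite P
  set f := Fintype.card I with hfdef
  have htk : ∀ k : ℕ, ∀ g, tr c (g ^ (u ^ k)) = tr c g := by
    intro k
    induction k with
    | zero => simp
    | succ k ih => intro g; rw [pow_succ, pow_mul, htr, ih]
  have h1 : ∀ k : ℕ, (Nat.card P : ℤ) ∣ ∑ g : P, ((u : ℤ) ^ nn c g) ^ k := by
    intro k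
    obtain ⟨n, hn⟩ := avg_th c hcm hc1 (u ^ k)
    have h2 : ∀ g : P, th c (u ^ k) g = ((u ^ k : ℕ) : ℂ) ^ nn c g := by
      intro g
      refine th_eq_pow c hcm hc1 g (u ^ k) ((Nat.Coprime.coprime_dvd_right (orderOf_dvd_natCard g) hu).pow_left k) ?_
      intro j
      rw [pow_mul, htk]
    rw [Finset.sum_congr rfl (fun g _ => h2 g)] at hn
    refine ⟨n, ?_⟩
    have h3 : ((∑ g : P, ((u : ℤ) ^ nn c g) ^ k : ℤ) : ℂ) = (((Nat.card P : ℤ) * n : ℤ) : ℂ) := by
      push_cast
      rw [← hn]
      refine Finset.sum_congr rfl fun g _ => ?_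
      push_cast
      rw [← pow_mul, ← pow_mul, mul_comm]
    exact_mod_cast h3
  let q : Polynomial ℤ := ∏ i ∈ Finset.range f, (Polynomial.X - Polynomial.C ((u : ℤ) ^ i))
  have hq : ∀ x : ℤ, q.eval x = ∏ i ∈ Finset.range f, (x - (u : ℤ) ^ i) := by
    intro x
    simp [q, Polynomial.eval_prod]
  have h2 : ∑ g : P, q.eval ((u : ℤ) ^ nn c g) = ∏ i ∈ Finset.range f, ((u : ℤ) ^ f - (u : ℤ) ^ i) := by
    rw [Finset.sum_eq_single (1 : P)]
    · rw [hq, nn_one c hc1]
    · intro g _ hg
      rw [hq]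
      have hlt := nn_lt c hcm hc1 g (fun h => hg (hf g h))
      exact Finset.prod_eq_zero (Finset.mem_range.2 hlt) (sub_self _)
    · intro h
      exact absurd (Finset.mem_univ _) h
  rw [← h2]
  simp only [Polynomial.eval_eq_sum_range]
  rw [Finset.sum_comm]
  refine Finset.dvd_sum fun k _ => ?_
  rw [← Finset.mul_sum]
  exact (h1 k).mul_left _

end bl

section ind
variable (H : Subgroup P) (lam : H →* ℂˣ)

theorem out_mem (g : P) (x : P ⧸ H) : (Quotient.out (g • x))⁻¹ * (g * Quotient.out x) ∈ H := by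
  rw [← QuotientGroup.eq]
  rw [QuotientGroup.out_eq', ← smul_eq_mul, ← MulAction.Quotient.smul_coe, QuotientGroup.out_eq']

noncomputable def cc (g : P) (x : P ⧸ H) : ℂ :=
  lam ⟨(Quotient.out (g • x))⁻¹ * (g * Quotient.out x), out_mem H g x⟩

theorem cc_mul (g h : P) (x : P ⧸ H) : cc H lam (g * h) x = cc H lam g (h • x) * cc H lam h x := by
  unfold cc
  rw [← Units.val_mul, ← map_mul]
  congr 2
  apply Subtype.ext
  simp only [Subgroup.coe_mul, mul_smul]
  group

theorem cc_one (x : P ⧸ H) : cc H lam 1 x = 1 := by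
  unfold cc
  have : (⟨(Quotient.out ((1 : P) • x))⁻¹ * (1 * Quotient.out x), out_mem H 1 x⟩ : H) = 1 := by
    apply Subtype.ext
    simp
  rw [this]
  simp

theorem fix_iff_mem (g : P) (x : P ⧸ H) : g • x = x ↔ (Quotient.out x)⁻¹ * g * Quotient.out x ∈ H := by
  rw [mul_assoc, ← QuotientGroup.eq]
  rw [QuotientGroup.out_eq', ← smul_eq_mul, ← MulAction.Quotient.smul_coe, QuotientGroup.out_eq']
  exact eq_comm

theorem tr_cc [Fintype P] [Fintype (P ⧸ H)] [DecidableEq (P ⧸ H)] (g : P) :
    tr (cc H lam) g = indFun H (fun h => (lam h : ℂ)) g := by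
  classical
  rw [IndFun.indFun_eq_sum_quotient]
  · unfold tr
    refine Finset.sum_congr rfl fun x _ => ?_
    by_cases h : g • x = x
    · rw [if_pos h]
      have h1 := (fix_iff_mem H g x).1 h
      rw [IndFun.extendByZero_mem H _ h1]
      unfold cc
      congr 2
      apply Subtype.ext
      simp only [h, mul_assoc]
    · rw [if_neg h, IndFun.extendByZero_not_mem]
      exact fun h1 => h ((fix_iff_mem H g x).2 h1)
  · intro x y
    simp [mul_comm]

end ind
end Cfsg.Agent.Lib.Bk4489
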