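import Cfsg.Agent.Lib.Bk4506
import Cfsg.Agent.Lib.CharValues
set_option autoImplicit false
set_option linter.all false
open Cfsg Cfsg.Agent.Lib.CharBasic Cfsg.Agent.Lib
namespace Cfsg.Agent.Lib.Bk4489
open MulAction
open IntermediateField (adjoin)

universe u
variable {G : Type u} [Group G] [Finite G]

theorem character_mem_cyc {χ : G → ℂ} (hχ : IsCharacter G χ) (g : G) :
    χ g ∈ adjoin ℚ ({Complex.exp (2 * Real.pi * Complex.I / (Nat.card G : ℕ))} : Set ℂ) := by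
  obtain ⟨N0, ρ, rfl⟩ := hχ
  have hn0 : NeZero (Nat.card G) := ⟨Nat.card_pos.ne'⟩
  have hζ : IsPrimitiveRoot (Complex.exp (2 * Real.pi * Complex.I / (Nat.card G : ℕ))) (Nat.card G) :=
    Complex.isPrimitiveRoot_exp _ Nat.card_pos.ne'
  obtain ⟨μ, hμ1, hμ2⟩ := CharValues.exists_eigenvalues ρ g
  have h1 := hμ2 1
  simp only [pow_one] at h1
  rw [h1]
  refine sum_mem fun i _ => ?_
  obtain ⟨j, _, hj⟩ := hζ.eq_pow_of_pow_eq_one (ξ := μ i) (by
    obtain ⟨m, hm⟩ := orderOf_dvd_natCard g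
    rw [hm, pow_mul, hμ1 i, one_pow])
  rw [← hj]
  exact pow_mem (IntermediateField.mem_adjoin_of_mem ℚ (Set.mem_singleton _)) j

theorem finrank_eq (χ : IrrCharacter G)
    (hfin : 0 < Module.finrank ℚ (adjoin ℚ (Set.range (χ : G → ℂ)))) :
    (MulAction.stabilizer (ZMod (Nat.card G))ˣ χ).index =
      Module.finrank ℚ (adjoin ℚ (Set.range (χ : G → ℂ))) := by
  classical
  haveI : NeZero (Nat.card G) := ⟨Nat.card_pos.ne'⟩
  set ζ : ℂ := Complex.exp (2 * Real.pi * Complex.I / (Nat.card G : ℕ)) with hζd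
  have hζ : IsPrimitiveRoot ζ (Nat.card G) := Complex.isPrimitiveRoot_exp _ Nat.card_pos.ne'
  have hint : IsIntegral ℚ ζ := (hζ.isIntegral Nat.card_pos).tower_top
  have hKL : adjoin ℚ (Set.range (χ : G → ℂ)) ≤ adjoin ℚ ({ζ} : Set ℂ) := by
    rw [IntermediateField.adjoin_le_iff]
    rintro _ ⟨g, rfl⟩
    exact character_mem_cyc χ.2.isCharacter g
  have hmem : ∀ g : G, (χ : G → ℂ) g ∈ adjoin ℚ (Set.range (χ : G → ℂ)) := fun g =>
    IntermediateField.mem_adjoin_of_mem ℚ (Set.mem_range_self g)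
  haveI hfd : FiniteDimensional ℚ (adjoin ℚ (Set.range (χ : G → ℂ))) :=
    FiniteDimensional.of_finrank_pos hfin
  let Ψ : (adjoin ℚ (Set.range (χ : G → ℂ)) →ₐ[ℚ] ℂ) → (G → ℂ) := fun φ g => φ ⟨(χ : G → ℂ) g, hmem g⟩
  have hΨ : Function.Injective Ψ := by
    intro φ1 φ2 h
    apply IntermediateField.adjoin_algHom_ext
    rintro x ⟨g, rfl⟩
    exact congrFun h g
  have hvals : ∀ (σ : ℂ →+* ℂ) (k : ℕ), (∀ μ : ℂ, μ ^ Nat.card G = 1 → σ μ = μ ^ k) → ∀ g : G,
      σ ((χ : G → ℂ) g) = (χ : G → ℂ) (g ^ k) := by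
    intro σ k h g
    apply CharGalois.map_apply_eq χ.2.isCharacter
    intro μ hμ
    apply h
    obtain ⟨m, hm⟩ := orderOf_dvd_natCard g
    rw [hm, pow_mul, hμ, one_pow]
  have hrange : Set.range Ψ = (fun ψ : IrrCharacter G => (ψ : G → ℂ)) '' (orbit (ZMod (Nat.card G))ˣ χ) := by
    ext F
    constructor
    · rintro ⟨φ, rfl⟩
      obtain ⟨φ', hφ'⟩ := IntermediateField.exists_algHom_adjoin_of_splits (F := ℚ) (E := ℂ) (K := ℂ)
        (S := ({ζ} : Set ℂ)) (by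
          intro s hs
          rw [Set.mem_singleton_iff.1 hs]
          exact ⟨hint, IsAlgClosed.splits _⟩) φ hKL
      have hζm : ζ ∈ adjoin ℚ ({ζ} : Set ℂ) := IntermediateField.mem_adjoin_of_mem ℚ (Set.mem_singleton _)
      have hζ' : IsPrimitiveRoot (⟨ζ, hζm⟩ : adjoin ℚ ({ζ} : Set ℂ)) (Nat.card G) := by
        apply IsPrimitiveRoot.of_map_of_injective (f := (adjoin ℚ ({ζ} : Set ℂ)).val) _
          (adjoin ℚ ({ζ} : Set ℂ)).val.toRingHom.injective
        exact hζ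
      have h1 : IsPrimitiveRoot (φ' ⟨ζ, hζm⟩) (Nat.card G) :=
        hζ'.map_of_injective φ'.toRingHom.injective
      obtain ⟨k, _, hk, hk2⟩ := hζ.isPrimitiveRoot_iff.mp h1
      obtain ⟨σ, hσ⟩ := CharGalois.exists_ringHom_pow (n := Nat.card G) Nat.card_pos hk
      have h2 : φ' = (RingHom.toRatAlgHom σ).comp (adjoin ℚ ({ζ} : Set ℂ)).val := by
        apply IntermediateField.adjoin_algHom_ext
        intro x hx
        have hx' : x = ζ := Set.mem_singleton_iff.1 hx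
        subst hx'
        show φ' ⟨ζ, hζm⟩ = σ ζ
        rw [hσ ζ hζ.pow_eq_one, hk2]
      refine ⟨(ZMod.unitOfCoprime k hk) • χ, ⟨_, rfl⟩, ?_⟩
      funext g
      show (χ : G → ℂ) (g ^ ((ZMod.unitOfCoprime k hk : (ZMod (Nat.card G))ˣ) : ZMod (Nat.card G)).val) = _
      rw [ZMod.coe_unitOfCoprime, Bk4506.pow_val_natCast, ← hvals σ k hσ g]
      have h3 := DFunLike.congr_fun hφ' ⟨(χ : G → ℂ) g, hmem g⟩
      refine Eq.trans ?_ h3
      rw [h2]
      rfl
    · rintro ⟨_, ⟨u, rfl⟩, rfl⟩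
      obtain ⟨σ, hσ⟩ := CharGalois.exists_ringHom_pow (n := Nat.card G) Nat.card_pos
        (ZMod.val_coe_unit_coprime u)
      refine ⟨(RingHom.toRatAlgHom σ).comp (adjoin ℚ (Set.range (χ : G → ℂ))).val, ?_⟩
      funext g
      exact hvals σ _ hσ g
  rw [MulAction.index_stabilizer]
  rw [← AlgHom.card ℚ (adjoin ℚ (Set.range (χ : G → ℂ))) ℂ, ← Nat.card_eq_fintype_card]
  have h1 : (Set.range Ψ).ncard = (orbit (ZMod (Nat.card G))ˣ χ).ncard := by
    rw [hrange]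
    exact Set.ncard_image_of_injective _ Subtype.val_injective
  rw [← h1]
  rw [← Set.image_univ, Set.ncard_image_of_injective _ hΨ, Set.ncard_univ]

end Cfsg.Agent.Lib.Bk4489
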