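import Mathlib
set_option autoImplicit false
set_option linter.all false
namespace Cfsg.Agent.Lib.Bk4489
open Finset

theorem le_sum {p a U f : ℕ} (hp : p.Prime) (hU : 1 < U) (hUp : ¬ p ∣ U)
    (h : ((p ^ a : ℕ) : ℤ) ∣ ∏ i ∈ range f, ((U : ℤ) ^ f - (U : ℤ) ^ i)) :
    a ≤ ∑ i ∈ range f, padicValNat p (U ^ (i + 1) - 1) := by
  haveI := Fact.mk hp
  have h1 : ∏ i ∈ range f, ((U : ℤ) ^ f - (U : ℤ) ^ i) =
      ((∏ i ∈ range f, (U ^ i * (U ^ (f - i) - 1)) : ℕ) : ℤ) := by
    rw [Nat.cast_prod]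
    refine prod_congr rfl fun i hi => ?_
    rw [mem_range] at hi
    have h2 : 1 ≤ U ^ (f - i) := Nat.one_le_pow _ _ (by omega)
    rw [Nat.cast_mul, Nat.cast_sub h2]
    push_cast
    rw [mul_sub, ← pow_add, Nat.add_sub_cancel' hi.le, mul_one]
  rw [h1, Int.natCast_dvd_natCast, prod_mul_distrib] at h
  have hc : Nat.Coprime (p ^ a) (∏ i ∈ range f, U ^ i) := by
    apply Nat.Coprime.pow_left
    apply Nat.Coprime.prod_right
    intro i _
    exact ((Nat.Prime.coprime_iff_not_dvd hp).2 hUp).pow_right i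
  have h2 := hc.dvd_of_dvd_mul_left h
  have h3 : ∏ i ∈ range f, (U ^ (f - i) - 1) = ∏ i ∈ range f, (U ^ (i + 1) - 1) := by
    rw [← prod_range_reflect]
    refine prod_congr rfl fun i hi => ?_
    rw [mem_range] at hi
    congr 2
    omega
  rw [h3] at h2
  have hne : ∀ i ∈ range f, U ^ (i + 1) - 1 ≠ 0 := by
    intro i _
    have := Nat.one_lt_pow (show i + 1 ≠ 0 by omega) hU
    omega
  rw [hp.pow_dvd_iff_le_factorization (prod_ne_zero_iff.2 hne), Nat.factorization_prod_apply hne] at h2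
  refine h2.trans (le_of_eq ?_)
  refine sum_congr rfl fun i hi => ?_
  rw [Nat.factorization_def _ hp]

theorem sum_val {p : ℕ} [Fact p.Prime] (f : ℕ) :
    ∑ i ∈ range f, padicValNat p (i + 1) = padicValNat p f.factorial := by
  induction f with
  | zero => simp
  | succ f ih =>
    rw [sum_range_succ, ih, Nat.factorial_succ, padicValNat.mul (Nat.succ_ne_zero f) (Nat.factorial_ne_zero f), add_comm]

theorem fac_bound {p : ℕ} [hp : Fact p.Prime] (f : ℕ) (hf : 0 < f) :
    (p - 1) * padicValNat p f.factorial ≤ f - 1 := by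
  have := sub_one_mul_padicValNat_factorial_lt_of_ne_zero p hf.ne'
  omega

/-- the good case -/
theorem bound_of_val {p a f t U : ℕ} (hp : p.Prime) (hf : 0 < f)
    (hval : ∀ i, padicValNat p (U ^ (i + 1) - 1) ≤ (t + 1) + padicValNat p (i + 1))
    (h : a ≤ ∑ i ∈ range f, padicValNat p (U ^ (i + 1) - 1)) :
    (p - 1) * a ≤ (f - 1) + (p - 1) * (t + 1) * f := by
  haveI := Fact.mk hp
  have h1 : a ≤ f * (t + 1) + padicValNat p f.factorial := by
    refine h.trans ((sum_le_sum fun i _ => hval i).trans (le_of_eq ?_))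
    rw [sum_add_distrib, sum_val, sum_const, card_range, smul_eq_mul]
  have h2 := fac_bound (p := p) f hf
  calc (p - 1) * a ≤ (p - 1) * (f * (t + 1) + padicValNat p f.factorial) := Nat.mul_le_mul_left _ h1
    _ = (p - 1) * padicValNat p f.factorial + (p - 1) * (t + 1) * f := by ring
    _ ≤ _ := Nat.add_le_add_right h2 _

theorem val_odd_prime {p t U : ℕ} (hp : p.Prime) (hp2 : p ≠ 2) (hU : 1 < U) (hUp : p ∣ U - 1)
    (hv : ¬ p ^ (t + 2) ∣ U - 1) (i : ℕ) :
    padicValNat p (U ^ (i + 1) - 1) ≤ (t + 1) + padicValNat p (i + 1) := by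
  haveI := Fact.mk hp
  have h1 : ¬ p ∣ U := by
    intro h
    have h2 : p ∣ U - (U - 1) := Nat.dvd_sub h hUp
    have h3 : U - (U - 1) = 1 := by omega
    rw [h3, Nat.dvd_one] at h2
    exact hp.one_lt.ne' h2
  have h2 := padicValNat.pow_sub_pow (p := p) (hp.odd_of_ne_two hp2) hU hUp h1 (show i + 1 ≠ 0 by omega)
  rw [one_pow] at h2
  rw [h2]
  rw [padicValNat_dvd_iff_le (by omega)] at hv
  omega

theorem val_two_odd {U n : ℕ} (hU : 1 < U) (hUo : Odd U) (hn : Odd n) :
    padicValNat 2 (U ^ n - 1) = padicValNat 2 (U - 1) := by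
  have h1 : (U - 1) * (∑ i ∈ range n, U ^ i) = U ^ n - 1 := by
    rw [mul_comm]
    have := Nat.geomSum_eq (m := U) hU n
    rw [this]
    refine Nat.div_mul_cancel ?_
    simpa using Nat.sub_dvd_pow_sub_pow U 1 n
  have h2 : Odd (∑ i ∈ range n, U ^ i) := by
    rw [Finset.odd_sum_iff_odd_card_odd, Finset.filter_true_of_mem (fun i _ => hUo.pow), card_range]
    exact hn
  have h3 : padicValNat 2 (∑ i ∈ range n, U ^ i) = 0 := by
    apply padicValNat.eq_zero_of_not_dvd
    intro h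
    exact (Nat.not_even_iff_odd.2 h2) (even_iff_two_dvd.2 h)
  rw [← h1, padicValNat.mul (by omega) (by rintro h; rw [h] at h2; exact absurd h2 (by decide)), h3, add_zero]

theorem val_two_even {U n : ℕ} (hU : 1 < U) (hUo : Odd U) (hn : Even n) (hn0 : n ≠ 0) :
    padicValNat 2 (U ^ n - 1) + 1 = padicValNat 2 (U + 1) + padicValNat 2 (U - 1) + padicValNat 2 n := by
  have h1 : 2 ∣ U - 1 := by
    obtain ⟨k, hk⟩ := hUo
    exact ⟨k, by omega⟩
  have h2 : ¬ 2 ∣ U := by
    obtain ⟨k, hk⟩ := hUo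
    omega
  have h3 := padicValNat.pow_two_sub_pow hU h1 h2 hn0 hn
  rwa [one_pow] at h3

theorem val_two_one {x : ℕ} (h1 : 2 ∣ x) (h2 : ¬ 4 ∣ x) : padicValNat 2 x = 1 := by
  have hx : x ≠ 0 := by rintro rfl; exact h2 (dvd_zero 4)
  have e1 : 1 ≤ padicValNat 2 x := by
    rw [← padicValNat_dvd_iff_le hx]; simpa using h1
  have e2 : ¬ 2 ≤ padicValNat 2 x := by
    rw [← padicValNat_dvd_iff_le hx]; simpa using h2
  omega

theorem val_two_good {t U : ℕ} (hU : 1 < U) (hUp : 4 ∣ U - 1)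
    (hv : ¬ 2 ^ (t + 2) ∣ U - 1) (i : ℕ) :
    padicValNat 2 (U ^ (i + 1) - 1) ≤ (t + 1) + padicValNat 2 (i + 1) := by
  rw [padicValNat_dvd_iff_le (by omega)] at hv
  have hUo : Odd U := by
    obtain ⟨k, hk⟩ := hUp
    exact ⟨2 * k, by omega⟩
  have h1 : padicValNat 2 (U + 1) = 1 := val_two_one (by omega) (by omega)
  rcases Nat.even_or_odd (i + 1) with he | ho
  · have := val_two_even hU hUo he (show i + 1 ≠ 0 by omega)
    omega
  · rw [val_two_odd hU hUo ho]
    omega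

/-- the second case for `p = 2` -/
theorem bound_two {a f t U : ℕ} (hf : 0 < f) (ht : 1 ≤ t) (hU : 1 < U) (hU3 : U % 4 = 3)
    (hv : ¬ 2 ^ (t + 3) ∣ U + 1)
    (h : a ≤ ∑ i ∈ range f, padicValNat 2 (U ^ (i + 1) - 1)) :
    a ≤ (f - 1) + (t + 1) * f := by
  rw [padicValNat_dvd_iff_le (by omega)] at hv
  have hUo : Odd U := Nat.odd_iff.2 (by omega)
  have h1 : padicValNat 2 (U - 1) = 1 := val_two_one (by omega) (by omega)
  have key : ∀ f, ∑ i ∈ range f, padicValNat 2 (U ^ (i + 1) - 1) ≤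
      (f - f / 2) + (f / 2) * (t + 2) + padicValNat 2 f.factorial := by
    intro f
    induction f with
    | zero => simp
    | succ f ih =>
      rw [sum_range_succ, Nat.factorial_succ, padicValNat.mul (show f + 1 ≠ 0 by omega) (Nat.factorial_ne_zero f)]
      rcases Nat.even_or_odd (f + 1) with he | ho
      · have h2 := val_two_even hU hUo he (show f + 1 ≠ 0 by omega)
        have h3 : (f + 1) / 2 = f / 2 + 1 := by
          obtain ⟨k, hk⟩ := he
          omega
        rw [h3]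
        have h4 : (f / 2 + 1) * (t + 2) = f / 2 * (t + 2) + (t + 2) := by ring
        rw [h4]
        obtain ⟨k, hk⟩ := he
        omega
      · have h2 := val_two_odd hU hUo ho
        have h3 : (f + 1) / 2 = f / 2 := by
          obtain ⟨k, hk⟩ := ho
          omega
        rw [h3, h2, h1]
        omega
  have h2 := fac_bound (p := 2) f hf
  rw [show 2 - 1 = 1 from rfl, one_mul] at h2
  have h3 := h.trans (key f)
  have h4 : (f / 2) * (t + 2) + (f - f / 2) ≤ (t + 1) * f := by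
    obtain ⟨s, rfl⟩ : ∃ s, t = s + 1 := ⟨t - 1, by omega⟩
    have h5 : 2 * (f / 2) ≤ f := Nat.mul_div_le f 2
    obtain ⟨r, hr⟩ : ∃ r, f = 2 * (f / 2) + r := ⟨f - 2 * (f / 2), by omega⟩
    set k := f / 2 with hk
    have h6 : f - k = k + r := by omega
    rw [h6, hr]
    nlinarith [Nat.zero_le (s * k), Nat.zero_le (s * r), Nat.zero_le k, Nat.zero_le r]
  omega

/-- Legendre sum for the Schur bound -/
theorem schur_sum {f : ℕ} (hf : 0 < f) :
    ∑ i ∈ range (f + 1), f / ((2 - 1) * 2 ^ i) ≤ f + (f - 1) := by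
  have h1 : Nat.log 2 f < f + 1 := lt_of_lt_of_le (Nat.log_lt_self 2 hf.ne') (Nat.le_succ f)
  have h2 := padicValNat_factorial (p := 2) h1
  have h3 := fac_bound (p := 2) f hf
  rw [show 2 - 1 = 1 from rfl, one_mul] at h3
  have h4 : ∑ i ∈ range (f + 1), f / ((2 - 1) * 2 ^ i) = f + ∑ i ∈ Finset.Ico 1 (f + 1), f / 2 ^ i := by
    rw [Finset.range_eq_Ico, Finset.sum_eq_sum_Ico_succ_bot (Nat.succ_pos f)]
    simp
  rw [h4, ← h2]
  omega

end Cfsg.Agent.Lib.Bk4489
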