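import Cfsg.Agent.Lib.Bk4489d
import Cfsg.Agent.Lib.Bk4489e
import Cfsg.Agent.Lib.Bk4489f
import Cfsg.Agent.Lib.SchurBound
import Cfsg.Agent.Lib.MGroups
set_option autoImplicit false
set_option linter.all false
open Cfsg Cfsg.Agent.Lib.CharBasic Cfsg.Agent.Lib
namespace Cfsg.Agent.Lib.Bk4489
open MulAction

theorem card_A {n d : ℕ} (hn : n ≠ 0) (h : d ∣ n) :
    Nat.card (Bk4506.A n d h) * d.totient = n.totient := by
  haveI : NeZero n := ⟨hn⟩
  haveI : NeZero d := ⟨fun h0 => hn (by rw [h0] at h; exact Nat.eq_zero_of_zero_dvd h)⟩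
  have h1 := Subgroup.card_mul_index (ZMod.unitsMap h).ker
  rw [Subgroup.index_ker, MonoidHom.range_eq_top.2 (ZMod.unitsMap_surjective h), Subgroup.card_top,
    Nat.card_eq_fintype_card (α := (ZMod d)ˣ), Nat.card_eq_fintype_card (α := (ZMod n)ˣ),
    ZMod.card_units_eq_totient, ZMod.card_units_eq_totient] at h1
  exact h1

section units
variable {n p a t : ℕ} (hp : p.Prime) (S : Subgroup (ZMod n)ˣ) (hn : n = p ^ a)
  (hS : Nat.card S * p ^ t = p ^ (a - 1))

include hp in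
theorem card_A_pow {k : ℕ} (hk : k + 1 ≤ a) (hn : n = p ^ a) (h : p ^ (k + 1) ∣ n) :
    Nat.card (Bk4506.A n (p ^ (k + 1)) h) * p ^ k = p ^ (a - 1) := by
  have h1 := card_A (by rw [hn]; exact pow_ne_zero _ hp.ne_zero) h
  have hp1 : 0 < p - 1 := by have := hp.two_le; omega
  have h2 : (p ^ (k + 1)).totient = p ^ k * (p - 1) := by
    rw [Nat.totient_prime_pow hp (Nat.succ_pos k)]
    rfl
  have h3 : n.totient = p ^ (a - 1) * (p - 1) := by
    rw [hn, Nat.totient_prime_pow hp (by omega)]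
  rw [h2, h3, ← mul_assoc] at h1
  exact Nat.eq_of_mul_eq_mul_right hp1 h1

include hp hS in
theorem not_le (hat : t + 2 ≤ a) (hn : n = p ^ a) (h : p ^ (t + 1 + 1) ∣ n) : ¬ S ≤ Bk4506.A n (p ^ (t + 1 + 1)) h := by
  haveI : NeZero n := ⟨by rw [hn]; exact pow_ne_zero _ hp.ne_zero⟩
  intro hle
  have h1 := card_A_pow (k := t + 1) hp (by omega) hn h
  have h2 : Nat.card S ≤ Nat.card (Bk4506.A n (p ^ (t + 1 + 1)) h) := Subgroup.card_le_of_le hle
  have h4 : 0 < Nat.card (Bk4506.A n (p ^ (t + 1 + 1)) h) := Nat.card_pos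
  have e : p ^ (t + 1) = p * p ^ t := pow_succ' p t
  generalize Nat.card (Bk4506.A n (p ^ (t + 1 + 1)) h) = c at h1 h2 h4
  rw [← hS, e, ← mul_assoc] at h1
  have h3 := Nat.eq_of_mul_eq_mul_right (pow_pos hp.pos t) h1
  have := hp.two_le
  nlinarith

theorem val_pos [NeZero n] (hn1 : 1 < n) (u : (ZMod n)ˣ) : 0 < (u : ZMod n).val := by
  rcases Nat.eq_zero_or_pos (u : ZMod n).val with h | h
  · have h1 := ZMod.val_coe_unit_coprime u
    rw [h, Nat.coprime_zero_left] at h1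
    omega
  · exact h

theorem mem_A_iff [NeZero n] (hn1 : 1 < n) {d : ℕ} (h : d ∣ n) (u : (ZMod n)ˣ) :
    u ∈ Bk4506.A n d h ↔ d ∣ (u : ZMod n).val - 1 := by
  rw [Bk4506.mem_A]
  constructor
  · intro h1
    exact (Nat.modEq_iff_dvd' (val_pos hn1 u)).1 h1.symm
  · intro h1
    exact ((Nat.modEq_iff_dvd' (val_pos hn1 u)).2 h1).symm

include hp hS hn in
theorem exists_odd (hat : t + 2 ≤ a) : ∃ u ∈ S, 1 < (u : ZMod n).val ∧
    p ∣ (u : ZMod n).val - 1 ∧ ¬ p ^ (t + 2) ∣ (u : ZMod n).val - 1 := by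
  haveI := Fact.mk hp
  haveI : NeZero n := ⟨by rw [hn]; exact pow_ne_zero _ hp.ne_zero⟩
  have hn1 : 1 < n := by rw [hn]; exact Nat.one_lt_pow (by omega) hp.one_lt
  have hd : p ^ (t + 1 + 1) ∣ n := by rw [hn]; exact pow_dvd_pow p (by omega)
  have h1 := not_le hp S hS hat hn hd
  rw [SetLike.not_le_iff_exists] at h1
  obtain ⟨u, huS, huA⟩ := h1
  rw [mem_A_iff hn1] at huA
  have h0 := val_pos hn1 u
  refine ⟨u, huS, ?_, ?_, huA⟩
  · rcases Nat.lt_or_ge 1 (u : ZMod n).val with h | h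
    · exact h
    · exfalso
      apply huA
      have : (u : ZMod n).val - 1 = 0 := by omega
      rw [this]
      exact dvd_zero _
  · have hcS : Nat.card S = p ^ (a - 1 - t) := by
      have h2 : Nat.card S * p ^ t = p ^ (a - 1 - t) * p ^ t := by
        rw [hS, ← pow_add]
        congr 1
        omega
      exact Nat.eq_of_mul_eq_mul_right (pow_pos hp.pos t) h2
    have h2 : u ^ p ^ (a - 1 - t) = 1 := by
      rw [← hcS]
      have h9 := congrArg (Subtype.val : S → (ZMod n)ˣ) (pow_card_eq_one' (G := S) (x := ⟨u, huS⟩))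
      rwa [Subgroup.coe_pow, Subgroup.coe_one] at h9
    have h3 : (((u : ZMod n).val : ℕ) : ZMod n) ^ p ^ (a - 1 - t) = 1 := by
      rw [ZMod.natCast_val, ZMod.cast_id]
      simpa using congrArg Units.val h2
    have hpn : p ∣ n := by rw [hn]; exact dvd_pow_self p (by omega)
    have h4 : (((u : ZMod n).val : ℕ) : ZMod p) ^ p ^ (a - 1 - t) = 1 := by
      have := congrArg (ZMod.castHom hpn (ZMod p)) h3
      rw [map_pow, map_natCast, map_one] at this
      exact this
    rw [ZMod.pow_card_pow] at h4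
    have h5 : (1 : ℕ) ≡ (u : ZMod n).val [MOD p] := by
      rw [← ZMod.natCast_eq_natCast_iff, h4, Nat.cast_one]
    exact (Nat.modEq_iff_dvd' h0).1 h5
end units

section two
variable {n a t : ℕ} (S : Subgroup (ZMod n)ˣ)

theorem neg_iff [NeZero n] {d : ℕ} (h : d ∣ n) (u : (ZMod n)ˣ) :
    ZMod.unitsMap h u = -1 ↔ d ∣ (u : ZMod n).val + 1 := by
  rw [Units.ext_iff, ZMod.unitsMap_val]
  have : (u : ZMod n).cast = (((u : ZMod n).val : ℕ) : ZMod d) := by
    rw [ZMod.natCast_val]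
  rw [this, ← ZMod.natCast_eq_zero_iff]
  push_cast
  exact eq_neg_iff_add_eq_zero

theorem exists_two (hn : n = 2 ^ a) (hS : Nat.card S * 2 ^ t = 2 ^ (a - 1)) (hat : t + 2 ≤ a) :
    (∃ u ∈ S, 1 < (u : ZMod n).val ∧ 4 ∣ (u : ZMod n).val - 1 ∧ ¬ 2 ^ (t + 2) ∣ (u : ZMod n).val - 1) ∨
    (∃ u ∈ S, 1 < (u : ZMod n).val ∧ (u : ZMod n).val % 4 = 3 ∧ ¬ 2 ^ (t + 3) ∣ (u : ZMod n).val + 1) := by
  haveI : NeZero n := ⟨by rw [hn]; exact pow_ne_zero _ (by norm_num)⟩
  have hn1 : 1 < n := by rw [hn]; exact Nat.one_lt_pow (by omega) (by norm_num)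
  have hd : 2 ^ (t + 1 + 1) ∣ n := by rw [hn]; exact pow_dvd_pow 2 (by omega)
  have hd4 : 4 ∣ n := by rw [hn]; exact (pow_dvd_pow 2 (by omega : 2 ≤ a))
  have h1 := not_le Nat.prime_two S hS hat hn hd
  by_contra hcon
  rw [not_or] at hcon
  obtain ⟨hc1, hc2⟩ := hcon
  have k1 : ∀ u ∈ S, 4 ∣ (u : ZMod n).val - 1 → 2 ^ (t + 2) ∣ (u : ZMod n).val - 1 := by
    intro u hu h4
    by_contra hh
    apply hc1
    have h0 := val_pos hn1 u
    refine ⟨u, hu, ?_, h4, hh⟩
    rcases Nat.lt_or_ge 1 (u : ZMod n).val with h | h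
    · exact h
    · exfalso
      apply hh
      have : (u : ZMod n).val - 1 = 0 := by omega
      rw [this]
      exact dvd_zero _
  have k2 : ∀ u ∈ S, (u : ZMod n).val % 4 = 3 → 2 ^ (t + 3) ∣ (u : ZMod n).val + 1 := by
    intro u hu h4
    by_contra hh
    exact hc2 ⟨u, hu, by omega, h4, hh⟩
  have hodd : ∀ u : (ZMod n)ˣ, (u : ZMod n).val % 2 = 1 := by
    intro u
    have h2 := ZMod.val_coe_unit_coprime u
    have h3 : 2 ∣ n := by rw [hn]; exact dvd_pow_self 2 (by omega)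
    have h4 := Nat.Coprime.coprime_dvd_right h3 h2
    exact Nat.odd_iff.1 (Nat.coprime_two_right.1 h4)
  by_cases hall : ∀ u ∈ S, 4 ∣ (u : ZMod n).val - 1
  · apply h1
    intro u hu
    rw [mem_A_iff hn1]
    exact k1 u hu (hall u hu)
  · obtain ⟨u0, hu0, hu04⟩ : ∃ u ∈ S, ¬ 4 ∣ (u : ZMod n).val - 1 := by
      by_contra hh
      exact hall fun u hu => by
        by_contra h4
        exact hh ⟨u, hu, h4⟩
    have hu0v := hodd u0
    have e1 : (u0 : ZMod n).val % 4 = 3 := by omega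
    have e2 := k2 u0 hu0 e1
    have hat3 : t + 3 ≤ a := by
      by_contra hlt
      have h2 : a < t + 3 := by omega
      have h3 : (u0 : ZMod n).val + 1 ≤ 2 ^ a := by
        rw [← hn]; exact ZMod.val_lt _
      have h4 := Nat.le_of_dvd (by omega) e2
      have h5 : 2 ^ a < 2 ^ (t + 3) := Nat.pow_lt_pow_right (by norm_num) h2
      omega
    have hd3 : 2 ^ (t + 2 + 1) ∣ n := by rw [hn]; exact pow_dvd_pow 2 (by omega)
    have hd34 : 4 ∣ 2 ^ (t + 2 + 1) := pow_dvd_pow 2 (by omega : 2 ≤ t + 2 + 1)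
    have w0 := (neg_iff hd3 u0).2 e2
    have key : ∀ v ∈ S, v ∈ Bk4506.A n (2 ^ (t + 2 + 1)) hd3 ∨ u0⁻¹ * v ∈ Bk4506.A n (2 ^ (t + 2 + 1)) hd3 := by
      intro v hv
      by_cases hv4 : (v : ZMod n).val % 4 = 3
      · right
        have w1 := (neg_iff hd3 v).2 (k2 v hv hv4)
        rw [Bk4506.A, MonoidHom.mem_ker, map_mul, map_inv, w0, w1]
        simp
      · left
        have hvo := hodd v
        have hv1 : 4 ∣ (v : ZMod n).val - 1 := by omega
        -- u0 * v is 3 mod 4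
        have w2 : ZMod.unitsMap hd4 (u0 * v) = -1 := by
          rw [map_mul, (neg_iff hd4 u0).2 (by omega)]
          have : v ∈ Bk4506.A n 4 hd4 := (mem_A_iff hn1 hd4 v).2 hv1
          rw [Bk4506.A, MonoidHom.mem_ker] at this
          rw [this, mul_one]
        rw [neg_iff hd4] at w2
        have w3 := (neg_iff hd3 (u0 * v)).2 (k2 _ (S.mul_mem hu0 hv) (by omega))
        rw [map_mul, w0] at w3
        rw [Bk4506.A, MonoidHom.mem_ker]
        simpa using w3
    have hsub : (S : Set (ZMod n)ˣ) ⊆ (Bk4506.A n (2 ^ (t + 2 + 1)) hd3 : Set (ZMod n)ˣ) ∪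
        (fun x => u0 * x) '' (Bk4506.A n (2 ^ (t + 2 + 1)) hd3 : Set (ZMod n)ˣ) := by
      intro v hv
      rcases key v hv with h | h
      · exact Or.inl h
      · exact Or.inr ⟨_, h, by simp⟩
    have hcard := (Set.ncard_le_ncard hsub (Set.toFinite _)).trans (Set.ncard_union_le _ _)
    rw [Set.ncard_image_of_injective _ (mul_right_injective u0)] at hcard
    have hc : (S : Set (ZMod n)ˣ).ncard = Nat.card S := rfl
    have hc' : (Bk4506.A n (2 ^ (t + 2 + 1)) hd3 : Set (ZMod n)ˣ).ncard =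
      Nat.card (Bk4506.A n (2 ^ (t + 2 + 1)) hd3) := rfl
    rw [hc, hc'] at hcard
    have h2 := card_A_pow (k := t + 2) Nat.prime_two (by omega) hn hd3
    have h4 : 0 < Nat.card (Bk4506.A n (2 ^ (t + 2 + 1)) hd3) := Nat.card_pos
    generalize Nat.card (Bk4506.A n (2 ^ (t + 2 + 1)) hd3) = c at h2 h4 hcard
    rw [← hS, show 2 ^ (t + 2) = 4 * 2 ^ t by ring, ← mul_assoc] at h2
    have h5 := Nat.eq_of_mul_eq_mul_right (pow_pos (by norm_num) t) h2
    omega

end two

universe u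
variable {P : Type u} [Group P] [Finite P]

theorem div_of_fixed {p a : ℕ} (hp : p.Prime) (hP : Nat.card P = p ^ a) (χ : IrrCharacter P)
    (hfaith : ∀ g : P, (χ : P → ℂ) g = (χ : P → ℂ) 1 → g = 1) {f : ℕ} (hf : charDegree (χ : P → ℂ) = f)
    (U : ℕ) (hU : U.Coprime (Nat.card P)) (hfix : ∀ g : P, (χ : P → ℂ) (g ^ U) = (χ : P → ℂ) g) :
    ((p ^ a : ℕ) : ℤ) ∣ ∏ i ∈ Finset.range f, ((U : ℤ) ^ f - (U : ℤ) ^ i) := by
  classical
  haveI := Fintype.ofFinite P
  haveI := Fact.mk hp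
  have hPG : IsPGroup p P := IsPGroup.of_card hP
  obtain ⟨H, lam, hlam⟩ := MGroups.monomial_of_nilpotent hPG.isNilpotent χ.2
  haveI := Fintype.ofFinite (P ⧸ H)
  have htr : ∀ g, tr (cc H lam) g = (χ : P → ℂ) g := by
    intro g
    rw [tr_cc, hlam]
  have h1 : tr (cc H lam) (1 : P) = (Fintype.card (P ⧸ H) : ℂ) := by
    unfold tr
    simp [cc_one]
  have hcard : Fintype.card (P ⧸ H) = f := by
    have h2 := (BlockDefect.charDegree_spec χ.2).1
    rw [← htr, h1, hf] at h2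
    exact_mod_cast h2
  have h2 := card_dvd (cc H lam) (cc_mul H lam) (cc_one H lam) U hU (by
      intro g
      rw [htr, htr, hfix]) (by
      intro g hg
      apply hfaith
      rw [← htr, ← htr, hg, h1])
  rw [hcard, hP] at h2
  exact h2

theorem main (p a : ℕ) (hp : p.Prime) (ha : 0 < a) (hP : Nat.card P = p ^ a) (χ : Cfsg.IrrCharacter P)
    (hfaith : ∀ g : P, (χ : P → ℂ) g = (χ : P → ℂ) 1 → g = 1) (f t : ℕ)
    (hf : Cfsg.charDegree (χ : P → ℂ) = f)
    (hfield : Module.finrank ℚ (IntermediateField.adjoin ℚ (Set.range (χ : P → ℂ))) = (p - 1) * p ^ t) :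
    (p - 1) * a ≤ (f - 1) + (p - 1) * (t + 1) * f := by
  classical
  haveI := Fact.mk hp
  have hp1 : 0 < p - 1 := by have := hp.two_le; omega
  have hf0 : 0 < f := by
    have := (BlockDefect.charDegree_spec χ.2).2
    rw [hf] at this
    omega
  rcases Nat.lt_or_ge a (t + 2) with hlt | hat
  · have h1 : a ≤ t + 1 := by omega
    have h2 : (p - 1) * a ≤ (p - 1) * (t + 1) := Nat.mul_le_mul_left _ h1
    have h3 : (p - 1) * (t + 1) ≤ (p - 1) * (t + 1) * f := Nat.le_mul_of_pos_right _ hf0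
    omega
  have hfin : 0 < Module.finrank ℚ (IntermediateField.adjoin ℚ (Set.range (χ : P → ℂ))) := by
    rw [hfield]; exact Nat.mul_pos hp1 (pow_pos hp.pos t)
  have hidx := finrank_eq χ hfin
  rw [hfield] at hidx
  have hcS := Subgroup.card_mul_index (MulAction.stabilizer (ZMod (Nat.card P))ˣ χ)
  haveI : NeZero (Nat.card P) := ⟨Nat.card_pos.ne'⟩
  rw [hidx, Nat.card_eq_fintype_card (α := (ZMod (Nat.card P))ˣ), ZMod.card_units_eq_totient] at hcS
  have htot : (Nat.card P).totient = p ^ (a - 1) * (p - 1) := by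
    rw [hP, Nat.totient_prime_pow hp ha]
  have hS : Nat.card (MulAction.stabilizer (ZMod (Nat.card P))ˣ χ) * p ^ t = p ^ (a - 1) := by
    rw [htot] at hcS
    apply Nat.eq_of_mul_eq_mul_right hp1
    rw [← hcS]
    ring
  have hfix : ∀ u ∈ MulAction.stabilizer (ZMod (Nat.card P))ˣ χ, ∀ g : P,
      (χ : P → ℂ) (g ^ (u : ZMod (Nat.card P)).val) = (χ : P → ℂ) g := by
    intro u hu g
    have h1 : u • χ = χ := hu
    conv_rhs => rw [← h1]
    rfl
  have hnp : ∀ u : (ZMod (Nat.card P))ˣ, ¬ p ∣ (u : ZMod (Nat.card P)).val := by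
    intro u h
    have h1 := ZMod.val_coe_unit_coprime u
    have h2 : p ∣ Nat.card P := by rw [hP]; exact dvd_pow_self p ha.ne'
    have h3 := Nat.dvd_gcd h h2
    rw [h1, Nat.dvd_one] at h3
    exact hp.one_lt.ne' h3
  have hsum : ∀ u ∈ MulAction.stabilizer (ZMod (Nat.card P))ˣ χ, 1 < (u : ZMod (Nat.card P)).val →
      a ≤ ∑ i ∈ Finset.range f, padicValNat p ((u : ZMod (Nat.card P)).val ^ (i + 1) - 1) := by
    intro u hu h1
    exact le_sum hp h1 (hnp u) (div_of_fixed hp hP χ hfaith hf _ (ZMod.val_coe_unit_coprime u) (hfix u hu))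
  by_cases hp2 : p = 2
  · subst hp2
    rw [show 2 - 1 = 1 from rfl, one_mul, one_mul]
    rcases Nat.eq_zero_or_pos t with ht | ht
    · -- rational
      subst ht
      have hall : ∀ u : (ZMod (Nat.card P))ˣ, u ∈ MulAction.stabilizer (ZMod (Nat.card P))ˣ χ := by
        intro u
        have : MulAction.stabilizer (ZMod (Nat.card P))ˣ χ = ⊤ := by
          rw [← Subgroup.index_eq_one, hidx]
          norm_num
        rw [this]
        exact Subgroup.mem_top u
      obtain ⟨N0, ρ, hρ⟩ := χ.2.isCharacter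
      have hN0 : N0 = f := by
        have h2 := (BlockDefect.charDegree_spec χ.2).1
        rw [hf, ← hρ] at h2
        simp at h2
        exact_mod_cast h2
      have h3 := SchurBound.schur ρ Nat.prime_two (by
        intro g _ k hk
        have hkc : k.Coprime (Nat.card P) := by
          rw [hP]
          exact Nat.Coprime.pow_right _ (((Nat.Prime.coprime_iff_not_dvd Nat.prime_two).2 hk).symm)
        have h4 := hfix (ZMod.unitOfCoprime k hkc) (hall _) g
        rw [ZMod.coe_unitOfCoprime, Bk4506.pow_val_natCast, ← hρ] at h4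
        exact h4) (by
        intro g hg
        apply hfaith
        rw [← hρ]
        exact hg)
      rw [hN0, hP, Nat.factorization_pow, Nat.Prime.factorization Nat.prime_two] at h3
      have h5 := schur_sum hf0
      simp at h3
      simp at h5
      omega
    · rcases exists_two _ hP hS hat with ⟨u, hu, h1, h4, hv⟩ | ⟨u, hu, h1, h4, hv⟩
      · have := bound_of_val (p := 2) (t := t) Nat.prime_two hf0 (val_two_good h1 h4 hv) (hsum u hu h1)
        simpa using this
      · exact bound_two hf0 ht h1 h4 hv (hsum u hu h1)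
  · obtain ⟨u, hu, h1, hpu, hv⟩ := exists_odd hp _ hP hS hat
    exact bound_of_val hp hf0 (val_odd_prime hp hp2 h1 hpu hv) (hsum u hu h1)

end Cfsg.Agent.Lib.Bk4489
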