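import Cfsg.Agent.Lib.Contrib
import Cfsg.Agent.Lib.BlockVal
import Cfsg.Agent.Lib.GalAutC
import Cfsg.Agent.Lib.H76Char

/-!
# The number of `p`-conjugates of an irreducible character
-/

set_option autoImplicit false
set_option linter.all false

namespace Cfsg.Agent.Lib.Bk4506

open Cfsg Cfsg.Agent.Lib.BlockRing Cfsg.Agent.Lib.BlockGA Cfsg.Agent.Lib.BlockDefect
  Cfsg.Agent.Lib.BlockIdem Cfsg.Agent.Lib.BlockPair Cfsg.Agent.Lib.Contrib Cfsg.Agent.Lib.BlockVal
open scoped ComplexConjugate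

universe u

variable {G : Type u} [Group G] [Finite G] {p : ℕ} {M : Ideal AlgInt}

/-- a character vanishing on all elements whose `p`-part has order `p` has defect zero -/
theorem defect_zero_of_vanish (hM : IsPModular p M) {χ : IrrCharacter G}
    (h : ∀ z : G, p ∣ orderOf z → z ^ (p * (Nat.card G / p ^ (Nat.card G).factorization p)) = 1 →
      (χ : G → ℂ) z = 0) : (Nat.card G).factorization p ≤ vdeg p χ := by
  haveI := isPrime hM
  haveI : Fact p.Prime := ⟨hM.1⟩
  have hp := hM.1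
  set B := blockOf M (χ : G → ℂ) with hBd
  have hB : IsPBlock M B := isPBlock_blockOf χ
  have hχ : χ ∈ B := mem_blockOf_self χ
  obtain ⟨y, hy⟩ := exists_defectClass hM hB
  obtain ⟨P, hP⟩ := sylIn_exists (p := p) (Subgroup.centralizer ({y} : Set G))
  have hPp := sylIn_isPGroup hP
  by_cases hP1 : P = ⊥
  · have h1 := sylC_card hP
    rw [hP1, Subgroup.card_bot] at h1
    have h2 : (Nat.card (Subgroup.centralizer ({y} : Set G))).factorization p = 0 := by
      by_contra h0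
      exact absurd h1.symm (Nat.one_lt_pow h0 hp.one_lt).ne'
    have h3 := fact_card_centralizer (p := p) y
    rw [h2, fact_centralizer_defectClass hM hB hy] at h3
    have h4 := vmin_le (p := p) hχ
    omega
  · exfalso
    haveI : Nontrivial P := (Subgroup.nontrivial_iff_ne_bot P).2 hP1
    haveI := hPp.center_nontrivial
    obtain ⟨k, hk⟩ := IsPGroup.iff_card.1 (hPp.to_subgroup (Subgroup.center P))
    have hk0 : k ≠ 0 := by
      rintro rfl
      rw [pow_zero] at hk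
      have := Finite.one_lt_card (α := Subgroup.center P)
      omega
    obtain ⟨c, hc⟩ := exists_prime_orderOf_dvd_card' (G := Subgroup.center P) p (by
      rw [hk]; exact dvd_pow_self p hk0)
    set x : G := ((c : P) : G) with hx
    have hxo : orderOf x = p := by
      rw [hx, Subgroup.orderOf_coe, Subgroup.orderOf_coe, hc]
    have hxP : x ∈ P := (c : P).2
    have hxc : ∀ w ∈ P, x * w = w * x := by
      intro w hw
      have := Subgroup.mem_center_iff.1 c.2 ⟨w, hw⟩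
      exact (congrArg Subtype.val this).symm
    have h1 := not_idl_centralChar_mul hM hB hy hP hxP hxc hχ
    have hyr : ¬ p ∣ orderOf y := defectClass_regular hM hB hy
    have hcm : Commute x y := by
      have := Subgroup.mem_centralizer_singleton_iff.1 (sylIn_le hP hxP)
      exact this
    have hco : Nat.Coprime (orderOf x) (orderOf y) := by
      rw [hxo]; exact (Nat.Prime.coprime_iff_not_dvd hp).2 hyr
    have ho := hcm.orderOf_mul_eq_mul_orderOf_of_coprime hco
    have hG : Nat.card G = p ^ (Nat.card G).factorization p *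
      (Nat.card G / p ^ (Nat.card G).factorization p) := (Nat.ordProj_mul_ordCompl_eq_self _ p).symm
    have hyg : orderOf y ∣ Nat.card G / p ^ (Nat.card G).factorization p := by
      have h2 : orderOf y ∣ Nat.card G := orderOf_dvd_natCard y
      rw [hG] at h2
      refine Nat.Coprime.dvd_of_dvd_mul_left ?_ h2
      exact Nat.Coprime.pow_right _ (Nat.Coprime.symm ((Nat.Prime.coprime_iff_not_dvd hp).2 hyr))
    have h2 : (χ : G → ℂ) (x * y) = 0 := by
      apply h
      · rw [ho, hxo]; exact dvd_mul_right _ _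
      · apply orderOf_dvd_iff_pow_eq_one.1
        rw [ho, hxo]
        exact mul_dvd_mul_left p hyg
    apply h1
    rw [centralChar, h2, mul_zero, zero_div]
    exact idl_zero

/-- the integers `|G|_p [χ,ψ]⁰` -/
theorem exists_row (hM : IsPModular p M) [Fintype G] (χ : IrrCharacter G) :
    ∃ N : IrrCharacter G → ℤ,
      (∀ ψ, (N ψ : ℂ) = (p : ℂ) ^ (Nat.card G).factorization p * contrib p (χ : G → ℂ) (ψ : G → ℂ)) ∧
      0 < N χ ∧ (p : ℤ) ^ vdeg p χ ∣ N χ ∧
      ∑ ψ : IrrCharacter G, N ψ * N ψ = (p : ℤ) ^ (Nat.card G).factorization p * N χ := by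
  haveI := isPrime hM
  haveI : Fact p.Prime := ⟨hM.1⟩
  have hp := hM.1
  have hp0 : (p : ℂ) ≠ 0 := by exact_mod_cast hp.ne_zero
  choose N hN using fun ψ : IrrCharacter G => contrib_int hp χ ψ
  refine ⟨N, hN, ?_, ?_, ?_⟩
  · obtain ⟨r, hr, hr0, -, -⟩ := contrib_self_bounds hp χ
    have h1 := hN χ
    rw [hr] at h1
    have h2 : ((N χ : ℤ) : ℝ) = (p : ℝ) ^ (Nat.card G).factorization p * r := by
      exact_mod_cast h1
    have h3 : (0 : ℝ) < (N χ : ℤ) := by
      rw [h2]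
      have : (0 : ℝ) < p := by exact_mod_cast hp.pos
      positivity
    exact_mod_cast h3
  · set B := blockOf M (χ : G → ℂ) with hBd
    have hB : IsPBlock M B := isPBlock_blockOf χ
    have hχ : χ ∈ B := mem_blockOf_self χ
    obtain ⟨m, hm, hmd, -, -⟩ := exists_int hM hB hχ hχ
    have h1 : N χ = (p : ℤ) ^ vmin p B * m := by
      have h2 : ((N χ : ℤ) : ℂ) = (p : ℂ) ^ vmin p B * (m : ℂ) := by
        rw [hN χ, hm, ← mul_assoc, ← pow_add]
        congr 2
        rw [blockDefect_eq]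
        have := vmin_le_fact hM hB
        omega
      exact_mod_cast h2
    rw [h1]
    have h3 : vdeg p χ = vmin p B + blockHeight p B (χ : G → ℂ) := by
      rw [blockHeight_eq]
      have := vmin_le (p := p) hχ
      omega
    rw [h3, pow_add]
    exact mul_dvd_mul_left _ hmd
  · have h1 := contrib_idem (p := p) χ χ
    have h2 : ((∑ ψ : IrrCharacter G, N ψ * N ψ : ℤ) : ℂ) =
        (((p : ℤ) ^ (Nat.card G).factorization p * N χ : ℤ) : ℂ) := by
      push_cast
      rw [hN χ, ← h1, Finset.mul_sum, Finset.mul_sum]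
      refine Finset.sum_congr rfl fun ψ _ => ?_
      rw [hN ψ, contrib_comm (ψ : G → ℂ) (χ : G → ℂ)]
      ring
    exact_mod_cast h2

/-! ### the action of the units -/

theorem pow_val_natCast (g : G) (k : ℕ) : g ^ ((k : ZMod (Nat.card G)).val) = g ^ k := by
  rw [ZMod.val_natCast, pow_mod_natCard]

theorem pow_val_mul (g : G) (a b : ZMod (Nat.card G)) : g ^ ((a * b).val) = (g ^ a.val) ^ b.val := by
  rw [ZMod.val_mul, pow_mod_natCard, pow_mul]

noncomputable instance act : MulAction (ZMod (Nat.card G))ˣ (IrrCharacter G) where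
  smul u χ := ⟨fun g => (χ : G → ℂ) (g ^ (u : ZMod (Nat.card G)).val),
    CharGalois.isIrrCharacter_pow χ.2 (ZMod.val_coe_unit_coprime u)⟩
  one_smul χ := by
    apply Subtype.ext
    funext g
    show (χ : G → ℂ) (g ^ ((1 : (ZMod (Nat.card G))ˣ) : ZMod (Nat.card G)).val) = _
    have h := pow_val_natCast g 1
    rw [Nat.cast_one, pow_one] at h
    rw [Units.val_one, h]
  mul_smul u v χ := by
    apply Subtype.ext
    funext g
    show (χ : G → ℂ) (g ^ ((u * v : (ZMod (Nat.card G))ˣ) : ZMod (Nat.card G)).val) =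
      (χ : G → ℂ) ((g ^ (u : ZMod (Nat.card G)).val) ^ (v : ZMod (Nat.card G)).val)
    rw [Units.val_mul, pow_val_mul]

theorem smul_apply (u : (ZMod (Nat.card G))ˣ) (χ : IrrCharacter G) (g : G) :
    ((u • χ : IrrCharacter G) : G → ℂ) g = (χ : G → ℂ) (g ^ (u : ZMod (Nat.card G)).val) := rfl

/-- the units congruent to one modulo `d` -/
def A (n d : ℕ) (h : d ∣ n) : Subgroup (ZMod n)ˣ := (ZMod.unitsMap h).ker

theorem mem_A {n d : ℕ} [NeZero n] (h : d ∣ n) (u : (ZMod n)ˣ) :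
    u ∈ A n d h ↔ (u : ZMod n).val ≡ 1 [MOD d] := by
  rw [A, MonoidHom.mem_ker, Units.ext_iff, ZMod.unitsMap_val, Units.val_one]
  rw [← ZMod.natCast_eq_natCast_iff, Nat.cast_one]
  have : (((u : ZMod n).val : ℕ) : ZMod d) = (u : ZMod n).cast := by
    rw [ZMod.natCast_val]
  rw [this]

theorem smul_apply_eq {p : ℕ} (hp : p.Prime) {d : ℕ} (hd : d ∣ Nat.card G) (hpd : Nat.Coprime p d)
    (hpG : p ∣ Nat.card G)
    {j : ℕ} {χ : IrrCharacter G} (hr : (MulAction.stabilizer (A (Nat.card G) d hd) χ).index = p ^ j)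
    {z : G} (hz : z ^ (p * d) = 1) (u : A (Nat.card G) d hd) :
    ((u • χ : IrrCharacter G) : G → ℂ) z = (χ : G → ℂ) z := by
  haveI : NeZero (Nat.card G) := ⟨Nat.card_pos.ne'⟩
  haveI : Fact p.Prime := ⟨hp⟩
  have hco : Nat.Coprime (p - 1) (p ^ j) := by
    apply Nat.Coprime.pow_right
    exact (Nat.coprime_self_sub_left hp.one_lt.le).2 (Nat.coprime_one_left p)
  obtain ⟨e, he1, he2⟩ := Nat.chineseRemainder hco 1 0
  obtain ⟨t, ht⟩ := Nat.modEq_zero_iff_dvd.1 he2
  have h1 : u ^ e ∈ MulAction.stabilizer (A (Nat.card G) d hd) χ := by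
    rw [ht, pow_mul, ← hr]
    exact pow_mem (Subgroup.pow_index_mem _ u) t
  have h2 : (u ^ e) • χ = χ := h1
  have h3 : ((u ^ e • χ : IrrCharacter G) : G → ℂ) z = (χ : G → ℂ) z := by rw [h2]
  rw [← h3]
  have e1 : ((u • χ : IrrCharacter G) : G → ℂ) z =
      (χ : G → ℂ) (z ^ ((u : (ZMod (Nat.card G))ˣ) : ZMod (Nat.card G)).val) := rfl
  have e2 : ((u ^ e • χ : IrrCharacter G) : G → ℂ) z =
      (χ : G → ℂ) (z ^ (((u ^ e : A (Nat.card G) d hd) : (ZMod (Nat.card G))ˣ) : ZMod (Nat.card G)).val) := rfl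
  rw [e1, e2]
  congr 1
  set k := ((u : (ZMod (Nat.card G))ˣ) : ZMod (Nat.card G)).val with hk
  have e3 : (((u ^ e : A (Nat.card G) d hd) : (ZMod (Nat.card G))ˣ) : ZMod (Nat.card G)) =
      ((k ^ e : ℕ) : ZMod (Nat.card G)) := by
    rw [Subgroup.coe_pow, Units.val_pow_eq_pow_val, Nat.cast_pow, hk, ZMod.natCast_val, ZMod.cast_id]
  rw [e3, pow_val_natCast]
  have hkc : Nat.Coprime k (Nat.card G) := ZMod.val_coe_unit_coprime (u : (ZMod (Nat.card G))ˣ)
  have m1 : k ≡ k ^ e [MOD p] := by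
    rw [← ZMod.natCast_eq_natCast_iff]
    have hkp : Nat.Coprime k p := Nat.Coprime.coprime_dvd_right hpG hkc
    set w : (ZMod p)ˣ := ZMod.unitOfCoprime k hkp with hw
    have hw1 : w ^ e = w ^ 1 := by
      rw [pow_eq_pow_iff_modEq]
      exact he1.of_dvd (ZMod.orderOf_units_dvd_card_sub_one w)
    have := congrArg (fun x : (ZMod p)ˣ => (x : ZMod p)) hw1
    simp only [Units.val_pow_eq_pow_val, hw, ZMod.coe_unitOfCoprime, pow_one] at this
    push_cast
    exact this.symm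
  have m2 : k ≡ k ^ e [MOD d] := by
    have hk1 : k ≡ 1 [MOD d] := (mem_A hd _).1 u.2
    have := hk1.pow e
    rw [one_pow] at this
    exact hk1.trans this.symm
  have m3 : k ≡ k ^ e [MOD p * d] := (Nat.modEq_and_modEq_iff_modEq_mul hpd).1 ⟨m1, m2⟩
  have m4 : z ^ k = z ^ k ^ e := by
    rw [pow_eq_pow_iff_modEq]
    exact m3.of_dvd (orderOf_dvd_of_pow_eq_one hz)
  rw [m4]

theorem root_pow_eq {ζ : ℂ} {d : ℕ} (hd : d ≠ 0) (hζ : IsPrimitiveRoot ζ d) (k l : ℕ) :
    ζ ^ k = ζ ^ l ↔ k ≡ l [MOD d] := by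
  obtain ⟨v, hv⟩ := hζ.isUnit hd
  have h1 : orderOf v = d := by
    rw [← orderOf_units, hv, hζ.eq_orderOf]
  rw [← h1, ← pow_eq_pow_iff_modEq, Units.ext_iff, Units.val_pow_eq_pow_val, Units.val_pow_eq_pow_val, hv]

theorem set_eq {d : ℕ} (hd : d ∣ Nat.card G) (χ ψ : IrrCharacter G) :
    (∃ σ : ℂ ≃+* ℂ, σ (Complex.exp (2 * Real.pi * Complex.I / (d : ℕ))) =
      Complex.exp (2 * Real.pi * Complex.I / (d : ℕ)) ∧ (ψ : G → ℂ) = fun g => σ ((χ : G → ℂ) g)) ↔
    ψ ∈ MulAction.orbit (A (Nat.card G) d hd) χ := by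
  haveI : NeZero (Nat.card G) := ⟨Nat.card_pos.ne'⟩
  have hd0 : d ≠ 0 := by
    rintro rfl
    exact Nat.card_pos.ne' (Nat.eq_zero_of_zero_dvd hd)
  have hζ : IsPrimitiveRoot (Complex.exp (2 * Real.pi * Complex.I / d)) d :=
    Complex.isPrimitiveRoot_exp d hd0
  have hζn : Complex.exp (2 * Real.pi * Complex.I / d) ^ Nat.card G = 1 := by
    obtain ⟨m, hm⟩ := hd
    rw [hm, pow_mul, hζ.pow_eq_one, one_pow]
  have hvals : ∀ (σ : ℂ →+* ℂ) (k : ℕ), (∀ μ : ℂ, μ ^ Nat.card G = 1 → σ μ = μ ^ k) → ∀ g : G,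
      σ ((χ : G → ℂ) g) = (χ : G → ℂ) (g ^ k) := by
    intro σ k h g
    apply CharGalois.map_apply_eq χ.2.isCharacter
    intro μ hμ
    apply h
    obtain ⟨m, hm⟩ := orderOf_dvd_natCard g
    rw [hm, pow_mul, hμ, one_pow]
  constructor
  · rintro ⟨σ, hσ, hψ⟩
    obtain ⟨k, hk, hσk⟩ := CharGalois.exists_pow_of_ringHom (n := Nat.card G) Nat.card_pos (σ : ℂ →+* ℂ)
    have h1 : Complex.exp (2 * Real.pi * Complex.I / d) ^ k =
        Complex.exp (2 * Real.pi * Complex.I / d) ^ 1 := by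
      rw [← hσk _ hζn, pow_one]; exact hσ
    have h2 : k ≡ 1 [MOD d] := (root_pow_eq hd0 hζ _ _).1 h1
    have hu : ZMod.unitOfCoprime k hk ∈ A (Nat.card G) d hd := by
      rw [mem_A, ZMod.coe_unitOfCoprime, ZMod.val_natCast]
      exact ((Nat.mod_modEq k (Nat.card G)).of_dvd hd).trans h2
    refine ⟨⟨ZMod.unitOfCoprime k hk, hu⟩, ?_⟩
    apply Subtype.ext
    rw [hψ]
    funext g
    show (χ : G → ℂ) (g ^ ((ZMod.unitOfCoprime k hk : (ZMod (Nat.card G))ˣ) : ZMod (Nat.card G)).val) = _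
    rw [ZMod.coe_unitOfCoprime, pow_val_natCast]
    exact (hvals (σ : ℂ →+* ℂ) k hσk g).symm
  · rintro ⟨u, hu⟩
    obtain ⟨σ, hσ⟩ := GalAutC.exists_ringEquiv_pow (n := Nat.card G) Nat.card_pos
      (ZMod.val_coe_unit_coprime (u : (ZMod (Nat.card G))ˣ))
    refine ⟨σ, ?_, ?_⟩
    · rw [hσ _ hζn]
      have h1 := (mem_A hd (u : (ZMod (Nat.card G))ˣ)).1 u.2
      have h2 : Complex.exp (2 * Real.pi * Complex.I / d) ^
          ((u : (ZMod (Nat.card G))ˣ) : ZMod (Nat.card G)).val =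
          Complex.exp (2 * Real.pi * Complex.I / d) ^ 1 := (root_pow_eq hd0 hζ _ _).2 h1
      rw [h2, pow_one]
    · rw [← hu]
      funext g
      exact (hvals (σ : ℂ →+* ℂ) _ hσ g).symm

theorem regular_eq {d : ℕ} (hd : d ∣ Nat.card G) (χ : IrrCharacter G)
    (u : A (Nat.card G) d hd) {g : G} (hg : g ^ d = 1) :
    ((u • χ : IrrCharacter G) : G → ℂ) g = (χ : G → ℂ) g := by
  haveI : NeZero (Nat.card G) := ⟨Nat.card_pos.ne'⟩
  show (χ : G → ℂ) (g ^ ((u : (ZMod (Nat.card G))ˣ) : ZMod (Nat.card G)).val) = _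
  have h1 := (mem_A hd (u : (ZMod (Nat.card G))ˣ)).1 u.2
  have h2 : g ^ ((u : (ZMod (Nat.card G))ˣ) : ZMod (Nat.card G)).val = g ^ 1 := by
    rw [pow_eq_pow_iff_modEq]
    exact h1.of_dvd (orderOf_dvd_of_pow_eq_one hg)
  rw [h2, pow_one]

theorem main {p : ℕ} (hp : p.Prime) (χ : IrrCharacter G) (r : ℕ)
    (hr : Nat.card {ψ : IrrCharacter G // ∃ σ : ℂ ≃+* ℂ,
      σ (Complex.exp (2 * Real.pi * Complex.I / ((Nat.card G / p ^ (Nat.card G).factorization p) : ℕ))) =
      Complex.exp (2 * Real.pi * Complex.I / ((Nat.card G / p ^ (Nat.card G).factorization p) : ℕ)) ∧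
      (ψ : G → ℂ) = fun g => σ ((χ : G → ℂ) g)} = r) :
    (r * charDegree (χ : G → ℂ)).factorization p ≤ (Nat.card G).factorization p ∧
    (p ^ (Nat.card G).factorization p ∣ r * charDegree (χ : G → ℂ) →
      p ^ (Nat.card G).factorization p ∣ charDegree (χ : G → ℂ)) := by
  classical
  haveI : Fact p.Prime := ⟨hp⟩
  haveI := Fintype.ofFinite G
  obtain ⟨M, hM⟩ := H76Char.exists_isPModular p
  haveI := isPrime hM
  set a := (Nat.card G).factorization p with ha
  set d := Nat.card G / p ^ a with hdd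
  have hG : Nat.card G = p ^ a * d := (Nat.ordProj_mul_ordCompl_eq_self _ p).symm
  have hd : d ∣ Nat.card G := ⟨p ^ a, by rw [hG]; ring⟩
  have hpd : Nat.Coprime p d := (Nat.Prime.coprime_iff_not_dvd hp).2 (Nat.not_dvd_ordCompl hp Nat.card_pos.ne')
  set Or := MulAction.orbit (A (Nat.card G) d hd) χ with hOr
  have hr' : Or.ncard = r := by
    rw [← hr]
    have : {ψ : IrrCharacter G | ∃ σ : ℂ ≃+* ℂ,
      σ (Complex.exp (2 * Real.pi * Complex.I / (d : ℕ))) =
      Complex.exp (2 * Real.pi * Complex.I / (d : ℕ)) ∧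
      (ψ : G → ℂ) = fun g => σ ((χ : G → ℂ) g)} = Or := by
      ext ψ
      exact set_eq hd χ ψ
    rw [← this]
    rfl
  have hidx : (MulAction.stabilizer (A (Nat.card G) d hd) χ).index = r := by
    rw [MulAction.index_stabilizer, hr']
  set Of : Finset (IrrCharacter G) := Or.toFinset with hOf
  have hOc : Of.card = r := by rw [hOf, ← Set.ncard_eq_toFinset_card', hr']
  have hχO : χ ∈ Or := MulAction.mem_orbit_self χ
  have hr0 : 0 < r := by
    rw [← hOc]
    exact Finset.card_pos.2 ⟨χ, by rw [hOf, Set.mem_toFinset]; exact hχO⟩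
  obtain ⟨N, hN, hN0, hNd, hNs⟩ := exists_row hM χ
  have hNO : ∀ ψ ∈ Or, N ψ = N χ := by
    rintro ψ ⟨u, rfl⟩
    have h1 : ((N (u • χ) : ℤ) : ℂ) = ((N χ : ℤ) : ℂ) := by
      rw [hN, hN, contrib, contrib, pair_def, pair_def]
      congr 2
      refine Finset.sum_congr rfl fun x _ => ?_
      split_ifs with hx
      · rfl
      · rw [regular_eq hd χ u]
        apply orderOf_dvd_iff_pow_eq_one.1
        rw [orderOf_inv]
        have h2 : orderOf x ∣ Nat.card G := orderOf_dvd_natCard x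
        rw [hG] at h2
        refine Nat.Coprime.dvd_of_dvd_mul_left ?_ h2
        exact Nat.Coprime.pow_right _ (Nat.Coprime.symm ((Nat.Prime.coprime_iff_not_dvd hp).2 hx))
    exact_mod_cast h1
  have hsO : ∑ ψ ∈ Of, N ψ * N ψ = r * (N χ * N χ) := by
    rw [Finset.sum_congr rfl (g := fun _ => N χ * N χ), Finset.sum_const, hOc, nsmul_eq_mul]
    intro ψ hψ
    rw [hNO ψ (by rw [hOf, Set.mem_toFinset] at hψ; exact hψ)]
  have hle : (r : ℤ) * (N χ * N χ) ≤ (p : ℤ) ^ a * N χ := by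
    rw [← hsO, ← hNs]
    exact Finset.sum_le_sum_of_subset_of_nonneg (Finset.subset_univ _) fun ψ _ _ => mul_self_nonneg _
  have hle2 : (r : ℤ) * N χ ≤ (p : ℤ) ^ a := by
    have : (r : ℤ) * N χ * N χ ≤ (p : ℤ) ^ a * N χ := by linarith
    exact le_of_mul_le_mul_right this hN0
  have hge : (p : ℤ) ^ vdeg p χ ≤ N χ := Int.le_of_dvd hN0 hNd
  have hle3 : (r : ℤ) * (p : ℤ) ^ vdeg p χ ≤ (p : ℤ) ^ a := by
    have : (r : ℤ) * (p : ℤ) ^ vdeg p χ ≤ (r : ℤ) * N χ := by
      apply mul_le_mul_of_nonneg_left hge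
      positivity
    linarith
  have hle4 : r * p ^ vdeg p χ ≤ p ^ a := by exact_mod_cast hle3
  have hdeg := charDegree_spec χ.2
  have hfac : (r * charDegree (χ : G → ℂ)).factorization p = r.factorization p + vdeg p χ := by
    rw [Nat.factorization_mul hr0.ne' hdeg.2]
    rfl
  have hrle : p ^ r.factorization p ≤ r := Nat.ordProj_le p hr0.ne'
  have hi : r.factorization p + vdeg p χ ≤ a := by
    rw [← Nat.pow_le_pow_iff_right hp.one_lt, pow_add]
    exact (Nat.mul_le_mul_right _ hrle).trans hle4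
  refine ⟨by rw [hfac]; exact hi, ?_⟩
  intro hdvd
  have hii : a ≤ r.factorization p + vdeg p χ := by
    rw [← hfac]
    exact (hp.pow_dvd_iff_le_factorization (Nat.mul_ne_zero hr0.ne' hdeg.2)).1 hdvd
  have hae : a = r.factorization p + vdeg p χ := le_antisymm hii hi
  have hrp : r = p ^ r.factorization p := by
    refine le_antisymm ?_ hrle
    have h1 : r * p ^ vdeg p χ ≤ p ^ r.factorization p * p ^ vdeg p χ := by
      rw [← pow_add, ← hae]; exact hle4
    exact Nat.le_of_mul_le_mul_right h1 (pow_pos hp.pos _)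
  have hpa : (p : ℤ) ^ a = (r : ℤ) * (p : ℤ) ^ vdeg p χ := by
    have : p ^ a = r * p ^ vdeg p χ := by
      conv_rhs => rw [hrp]
      rw [← pow_add, ← hae]
    exact_mod_cast this
  have hNe : N χ = (p : ℤ) ^ vdeg p χ := by
    refine le_antisymm ?_ hge
    rw [hpa] at hle2
    have : (0 : ℤ) < r := by exact_mod_cast hr0
    exact le_of_mul_le_mul_left hle2 this
  have hzero : ∀ ψ, ψ ∉ Or → N ψ = 0 := by
    intro ψ hψ
    have h1 : ∑ ψ ∈ Finset.univ \ Of, N ψ * N ψ = 0 := by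
      have h2 := Finset.sum_sdiff (Finset.subset_univ Of) (f := fun ψ => N ψ * N ψ)
      rw [hsO, hNs] at h2
      have h3 : (p : ℤ) ^ a * N χ = (r : ℤ) * (N χ * N χ) := by
        rw [hpa, hNe]; ring
      linarith
    rw [Finset.sum_eq_zero_iff_of_nonneg (fun ψ _ => mul_self_nonneg _)] at h1
    have h2 := h1 ψ (by
      rw [Finset.mem_sdiff, hOf, Set.mem_toFinset]
      exact ⟨Finset.mem_univ _, hψ⟩)
    exact mul_self_eq_zero.1 h2
  have hp0 : (p : ℂ) ^ a ≠ 0 := pow_ne_zero _ (by exact_mod_cast hp.ne_zero)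
  have hcO : ∀ ψ ∈ Or, contrib p (χ : G → ℂ) (ψ : G → ℂ) = contrib p (χ : G → ℂ) (χ : G → ℂ) := by
    intro ψ hψ
    have h1 := hN ψ
    rw [hNO ψ hψ, hN χ] at h1
    exact (mul_left_cancel₀ hp0 h1).symm
  have hc0 : ∀ ψ, ψ ∉ Or → contrib p (χ : G → ℂ) (ψ : G → ℂ) = 0 := by
    intro ψ hψ
    have h1 := hN ψ
    rw [hzero ψ hψ, Int.cast_zero] at h1
    rcases mul_eq_zero.1 h1.symm with h | h
    · exact absurd h hp0
    · exact h
  have hcne : contrib p (χ : G → ℂ) (χ : G → ℂ) ≠ 0 := by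
    intro h
    have h1 := hN χ
    rw [h, mul_zero] at h1
    have : N χ = 0 := by exact_mod_cast h1
    omega
  have key := defect_zero_of_vanish hM (χ := χ) ?_
  · exact (hp.pow_dvd_iff_le_factorization hdeg.2).2 key
  intro z hz1 hz2
  have hpG : p ∣ Nat.card G := hz1.trans (orderOf_dvd_natCard z)
  have h1 := preg_expansion (p := p) χ z
  have h2 : preg p (χ : G → ℂ) z = 0 := by
    rw [preg, if_pos hz1]
  rw [h2] at h1
  have h3 : ∑ ψ : IrrCharacter G, contrib p (χ : G → ℂ) (ψ : G → ℂ) * (ψ : G → ℂ) z =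
      ∑ ψ ∈ Of, contrib p (χ : G → ℂ) (χ : G → ℂ) * (χ : G → ℂ) z := by
    rw [← Finset.sum_subset (Finset.subset_univ Of)]
    · refine Finset.sum_congr rfl fun ψ hψ => ?_
      have hψ' : ψ ∈ Or := by rw [hOf, Set.mem_toFinset] at hψ; exact hψ
      rw [hcO ψ hψ']
      obtain ⟨u, rfl⟩ := hψ'
      have := smul_apply_eq hp hd hpd hpG (χ := χ) (by rw [hidx]; exact hrp) hz2 u
      congr 1
    · intro ψ _ hψ
      rw [hc0 ψ (by rw [hOf, Set.mem_toFinset] at hψ; exact hψ), zero_mul]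
  rw [h3, Finset.sum_const, hOc, nsmul_eq_mul] at h1
  rcases mul_eq_zero.1 h1.symm with h | h
  · exact absurd (by exact_mod_cast h) hr0.ne'
  · rcases mul_eq_zero.1 h with h | h
    · exact absurd h hcne
    · exact h

end Cfsg.Agent.Lib.Bk4506
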