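import Cfsg.Agent.Lib.CharSpec54

/-!
# The determinant of a character vanishing on the non-identity powers of an element
-/

set_option autoImplicit false
set_option linter.all false

namespace Cfsg.Agent.Lib.Bk4508

open Cfsg Cfsg.Agent.Lib.DetChar Cfsg.Agent.Lib.CharSpec54 Cfsg.Agent.Lib.CharBasic
open scoped ComplexConjugate

universe u

theorem prod_roots {m : ℕ} (hm0 : m ≠ 0) (hm : Even m) :
    ∏ μ ∈ Polynomial.nthRootsFinset m (1 : ℂ), μ = -1 := by
  have hζ := Complex.isPrimitiveRoot_exp m hm0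
  have h1 := Polynomial.X_pow_sub_one_eq_prod (Nat.pos_of_ne_zero hm0) hζ
  have h2 := congrArg (Polynomial.eval (0 : ℂ)) h1
  rw [Polynomial.eval_prod] at h2
  simp only [Polynomial.eval_sub, Polynomial.eval_pow, Polynomial.eval_X, Polynomial.eval_one,
    Polynomial.eval_C, zero_sub, zero_pow hm0] at h2
  rw [Finset.prod_neg, hζ.card_nthRootsFinset, hm.neg_one_pow, one_mul] at h2
  exact h2.symm

theorem sum_swap (E : Multiset ℂ) (s : Finset ℕ) (f : ℕ → ℂ → ℂ) :
    ∑ k ∈ s, (E.map (f k)).sum = (E.map (fun μ => ∑ k ∈ s, f k μ)).sum := by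
  induction E using Multiset.induction_on with
  | empty => simp
  | cons a E ih =>
    simp only [Multiset.map_cons, Multiset.sum_cons]
    rw [Finset.sum_add_distrib, ih]

theorem sum_count (E : Multiset ℂ) (ν c : ℂ) [DecidableEq ℂ] :
    (E.map (fun μ => if μ = ν then c else 0)).sum = (E.count ν : ℂ) * c := by
  induction E using Multiset.induction_on with
  | empty => simp
  | cons a E ih =>
    rw [Multiset.map_cons, Multiset.sum_cons, ih, Multiset.count_cons]
    by_cases h : a = ν
    · rw [if_pos h, if_pos h.symm]; push_cast; ring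
    · rw [if_neg h, if_neg (Ne.symm h)]; simp

theorem prod_eq {m r : ℕ} (hm0 : m ≠ 0) (hm : Even m) (hr : Odd r) (E : Multiset ℂ)
    (hE : ∀ μ ∈ E, μ ^ m = 1) (hc : E.card = r * m)
    (hs : ∀ k : ℕ, 0 < k → k < m → (E.map (fun μ => μ ^ k)).sum = 0) : E.prod = -1 := by
  classical
  have hmc : (m : ℂ) ≠ 0 := by exact_mod_cast hm0
  have hcount : ∀ ν ∈ Polynomial.nthRootsFinset m (1 : ℂ), E.count ν = r := by
    intro ν hν
    rw [Polynomial.mem_nthRootsFinset (Nat.pos_of_ne_zero hm0)] at hν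
    have hν0 : ν ≠ 0 := by
      rintro rfl
      rw [zero_pow hm0] at hν
      exact zero_ne_one hν
    have h1 : ∑ k ∈ Finset.range m, (ν⁻¹) ^ k * (E.map (fun μ => μ ^ k)).sum = (E.card : ℂ) := by
      rw [Finset.sum_eq_single_of_mem 0 (Finset.mem_range.2 (Nat.pos_of_ne_zero hm0))]
      · simp
      · intro k hk hk0
        rw [hs k (Nat.pos_of_ne_zero hk0) (Finset.mem_range.1 hk), mul_zero]
    have h2 : ∑ k ∈ Finset.range m, (ν⁻¹) ^ k * (E.map (fun μ => μ ^ k)).sum =
        (E.map (fun μ => if μ = ν then (m : ℂ) else 0)).sum := by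
      have h3 : ∀ k, (ν⁻¹) ^ k * (E.map (fun μ => μ ^ k)).sum = (E.map (fun μ => (ν⁻¹ * μ) ^ k)).sum := by
        intro k
        rw [← Multiset.sum_map_mul_left]
        congr 1
        refine Multiset.map_congr rfl fun μ _ => ?_
        rw [mul_pow]
      rw [Finset.sum_congr rfl (fun k _ => h3 k), sum_swap E (Finset.range m) (fun k μ => (ν⁻¹ * μ) ^ k)]
      congr 1
      refine Multiset.map_congr rfl fun μ hμ => ?_
      by_cases h : μ = ν
      · rw [if_pos h, h, inv_mul_cancel₀ hν0]
        simp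
      · rw [if_neg h]
        have hx : ν⁻¹ * μ ≠ 1 := by
          intro h4
          apply h
          rw [inv_mul_eq_one₀ hν0] at h4
          exact h4.symm
        have hx1 : (ν⁻¹ * μ) ^ m = 1 := by
          rw [mul_pow, hE μ hμ, inv_pow, hν, inv_one, one_mul]
        rw [geom_sum_eq hx, hx1, sub_self, zero_div]
    rw [h2, sum_count, hc] at h1
    have h4 : (E.count ν : ℂ) = (r : ℂ) := by
      apply mul_right_cancel₀ hmc
      rw [h1]; push_cast; ring
    exact_mod_cast h4
  have hsub : E.toFinset = Polynomial.nthRootsFinset m (1 : ℂ) := by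
    ext μ
    rw [Multiset.mem_toFinset]
    constructor
    · intro h
      rw [Polynomial.mem_nthRootsFinset (Nat.pos_of_ne_zero hm0)]
      exact hE μ h
    · intro h
      rw [← Multiset.count_pos, hcount μ h]
      exact hr.pos
  rw [Finset.prod_multiset_count, hsub, Finset.prod_congr rfl (fun μ hμ => by rw [hcount μ hμ]),
    Finset.prod_pow, prod_roots hm0 hm, hr.neg_one_pow]

theorem even_index {G : Type u} [Group G] [Finite G] {χ : G → ℂ} (hχ : IsCharacter G χ) {m r : ℕ}
    (hm0 : m ≠ 0) (hm : Even m) (hr : Odd r) (h1 : χ 1 = ((r * m : ℕ) : ℂ)) {y : G} (hy : y ^ m = 1)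
    (hv : ∀ k : ℕ, 0 < k → k < m → χ (y ^ k) = 0) : Even (commutator G).index := by
  obtain ⟨E, hE1, hE2, hE3, hE4⟩ := CharSpec54.spectrum hχ y
  have hdet : E.prod = -1 := by
    refine prod_eq hm0 hm hr E ?_ ?_ ?_
    · intro μ hμ
      obtain ⟨k, hk⟩ := orderOf_dvd_of_pow_eq_one hy
      rw [hk, pow_mul, hE2 μ hμ, one_pow]
    · rw [h1] at hE3
      exact_mod_cast hE3
    · intro k hk0 hkm
      rw [← hE1, hv k hk0 hkm]
  rw [← hE4] at hdet
  obtain ⟨δ, hδ⟩ := exists_detHom hχ
  rw [hδ] at hdet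
  have h2 : (δ y) ^ (commutator G).index = 1 := by
    have h3 : y ^ (commutator G).index ∈ commutator G := Subgroup.pow_index_mem _ y
    have h4 : commutator G ≤ δ.ker := Abelianization.commutator_subset_ker δ
    have h5 := h4 h3
    rw [MonoidHom.mem_ker, map_pow] at h5
    exact h5
  have h3 : (-1 : ℂ) ^ (commutator G).index = 1 := by
    rw [← hdet, ← Units.val_pow_eq_pow_val, h2, Units.val_one]
  by_contra hodd
  rw [Nat.not_even_iff_odd] at hodd
  rw [hodd.neg_one_pow] at h3
  norm_num at h3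

end Cfsg.Agent.Lib.Bk4508
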