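import Cfsg.Agent.Lib.BlockInd
import Cfsg.Agent.Lib.BlockDefect
import Cfsg.Agent.Lib.CharBasic2
import Cfsg.Agent.Lib.IndFun

/-!
# Multiplicities of height zero characters in characters induced from a block of the same defect
-/

set_option autoImplicit false
set_option linter.all false

namespace Cfsg.Agent.Lib.Bk4725

open Cfsg Cfsg.Agent.Lib.BlockRing Cfsg.Agent.Lib.BlockGA Cfsg.Agent.Lib.BlockRes
  Cfsg.Agent.Lib.BlockDefect Cfsg.Agent.Lib.BlockIdem
open scoped ComplexConjugate

universe u

variable {G : Type u} [Group G] [Fintype G]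

open scoped Classical in
theorem lin_eB (B : Set (IrrCharacter G)) (θ : G → ℂ) :
    lin θ (eB B) = ∑ χ : IrrCharacter G,
      if χ ∈ B then (χ : G → ℂ) 1 * classInner θ (χ : G → ℂ) else 0 := by
  rw [lin_apply]
  simp only [coeff_eB, blockCoeff_eq_sum, Finset.mul_sum, Finset.sum_mul]
  rw [Finset.sum_comm]
  refine Finset.sum_congr rfl fun χ _ => ?_
  split_ifs
  · rw [classInner, Finset.mul_sum, Finset.mul_sum]
    refine Finset.sum_congr rfl fun g _ => ?_
    ring
  · simp

theorem lin_indFun (H : Subgroup G) (θ : H → ℂ) {z : GA G}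
    (hz : z ∈ Subalgebra.center ℂ (GA G)) :
    lin (indFun H θ) z = (H.index : ℂ) * lin θ (resH H z) := by
  classical
  haveI : Fintype H := Fintype.ofFinite H
  have h1 := Cfsg.Agent.Lib.IndFun.sum_indFun_mul H θ (fun g => z.coeff g) (fun g h => by
    exact (mem_center_iff.1 hz) g h)
  have hH : (Nat.card H : ℂ) ≠ 0 := by exact_mod_cast Nat.card_pos.ne'
  have hG : (Nat.card G : ℂ) ≠ 0 := by exact_mod_cast Nat.card_pos.ne'
  have hi : (Nat.card G : ℂ) = (Nat.card H : ℂ) * (H.index : ℂ) := by
    exact_mod_cast (Subgroup.card_mul_index H).symm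
  have e1 : lin (indFun H θ) z = ∑ g : G, indFun H θ g * z.coeff g := by
    rw [lin_apply]; exact Finset.sum_congr rfl fun g _ => mul_comm _ _
  have e2 : lin θ (resH H z) = ∑ h : H, θ h * z.coeff (h : G) := by
    rw [lin_apply]; exact Finset.sum_congr rfl fun g _ => by rw [coeff_resH, mul_comm]
  rw [e1, e2]
  have h2 : ∑ g : G, indFun H θ g * z.coeff g =
      (Nat.card G : ℂ) * ((Nat.card H : ℂ)⁻¹ * ∑ h : H, θ h * z.coeff (h : G)) := by
    rw [← h1]; field_simp
  rw [h2, hi]
  field_simp

/-- Main theorem. -/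
theorem main {p : ℕ} [Fact p.Prime] {M : Ideal AlgInt} (hM : IsPModular p M) (H : Subgroup G)
    {b : Set (IrrCharacter H)} {B : Set (IrrCharacter G)} (hind : IsInducedBlock M H b B)
    (hdef : blockDefect p b = blockDefect p B) (ζ : IrrCharacter H) (hζ : ζ ∈ b)
    (hζ0 : blockHeight p b (ζ : H → ℂ) = 0) :
    ∃ χ ∈ B, blockHeight p B (χ : G → ℂ) = 0 ∧
      ∃ a : ℕ, classInner (indFun H (ζ : H → ℂ)) (χ : G → ℂ) = (a : ℂ) ∧ ¬ p ∣ a := by
  classical
  haveI := isPrime hM
  haveI : Fintype H := Fintype.ofFinite H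
  have hp : p.Prime := hM.1
  have hb := hind.1
  have hB := hind.2.1
  have hnat : ∀ χ : IrrCharacter G, ∃ a : ℕ,
      classInner (indFun H (ζ : H → ℂ)) (χ : G → ℂ) = (a : ℂ) := fun χ =>
    (ζ.2.isCharacter.indFun H).classInner_nat χ.2.isCharacter
  choose a ha using hnat
  by_contra hcon
  have hcon' : ∀ χ ∈ B, blockHeight p B (χ : G → ℂ) = 0 → p ∣ a χ := by
    intro χ hχ h0
    by_contra h1
    exact hcon ⟨χ, hχ, h0, a χ, ha χ, h1⟩
  obtain ⟨χ₀, hχ₀⟩ := isPBlock_nonempty hB
  set u := omega (ζ : H → ℂ) (resH H (eB B)) with hu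
  have h1 : MemLocalIdeal M (u - 1) := by
    have := BlockInd.induced_omega hind hζ hχ₀ (eB_mem_center B)
      (locA_eB_of_union (unionOfBlocks_of_isPBlock hB))
    rwa [omega_eB_mem hχ₀] at this
  set N : ℕ := ∑ χ : IrrCharacter G, if χ ∈ B then charDegree (χ : G → ℂ) * a χ else 0 with hN
  have hζ1 := charDegree_spec ζ.2
  set D : ℕ := H.index * charDegree (ζ : H → ℂ) with hD
  have hD0 : D ≠ 0 := Nat.mul_ne_zero Subgroup.index_ne_zero_of_finite hζ1.2
  have h2 : u = (N : ℂ) / (D : ℂ) := by
    have e1 := lin_indFun H (ζ : H → ℂ) (eB_mem_center B)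
    rw [lin_eB] at e1
    have e2 : (∑ χ : IrrCharacter G, if χ ∈ B then (χ : G → ℂ) 1 *
        classInner (indFun H (ζ : H → ℂ)) (χ : G → ℂ) else 0) = (N : ℂ) := by
      rw [hN]
      push_cast
      refine Finset.sum_congr rfl fun χ _ => ?_
      split_ifs
      · rw [ha χ, (charDegree_spec χ.2).1]
      · rfl
    rw [e2] at e1
    have hi : (H.index : ℂ) ≠ 0 := by exact_mod_cast Subgroup.index_ne_zero_of_finite
    have hz : (charDegree (ζ : H → ℂ) : ℂ) ≠ 0 := by exact_mod_cast hζ1.2
    rw [hu, omega, e1, hζ1.1, hD]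
    push_cast
    field_simp
  have h3 : p ^ (vmin p B + 1) ∣ N := by
    rw [hN]
    refine Finset.dvd_sum fun χ _ => ?_
    split_ifs with hχ
    · by_cases h0 : blockHeight p B (χ : G → ℂ) = 0
      · rw [pow_succ]
        refine mul_dvd_mul ?_ (hcon' χ hχ h0)
        refine (pow_dvd_pow p (vmin_le hχ)).trans ?_
        exact Nat.ordProj_dvd _ _
      · refine Dvd.dvd.mul_right ?_ _
        have h4 : vmin p B + 1 ≤ vdeg p χ := by
          rw [height_zero_iff hχ] at h0
          have := vmin_le (p := p) hχ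
          omega
        exact (pow_dvd_pow p h4).trans (Nat.ordProj_dvd _ _)
    · exact dvd_zero _
  have h4 : D.factorization p = vmin p B := by
    have e1 : D.factorization p = H.index.factorization p +
        (charDegree (ζ : H → ℂ)).factorization p := by
      rw [hD, Nat.factorization_mul Subgroup.index_ne_zero_of_finite hζ1.2]
      rfl
    have e2 : (Nat.card G).factorization p = (Nat.card H).factorization p +
        H.index.factorization p := by
      rw [← Subgroup.card_mul_index H, Nat.factorization_mul Nat.card_pos.ne'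
        Subgroup.index_ne_zero_of_finite]
      rfl
    have e3 : (charDegree (ζ : H → ℂ)).factorization p = vmin p b :=
      (height_zero_iff hζ).1 hζ0
    have e4 := vmin_le_fact hM hB
    have e5 := vmin_le_fact hM hb
    rw [blockDefect_eq, blockDefect_eq] at hdef
    omega
  have h5 : MemLocalIdeal M u := by
    by_cases hN0 : N = 0
    · rw [h2, hN0, Nat.cast_zero, zero_div]
      exact idl_zero
    · rw [h2, idl_div_natCast_iff hM hN0 hD0, h4]
      have := (hp.pow_dvd_iff_le_factorization hN0).1 h3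
      omega
  have h6 := idl_sub h5 h1
  rw [sub_sub_cancel] at h6
  exact one_not_idl (M := M) h6

end Cfsg.Agent.Lib.Bk4725
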