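import Cfsg.Agent.Lib.BlkNilIn
import Cfsg.Agent.Lib.BlockDefZero
import Cfsg.Agent.Lib.BlockNormP
import Cfsg.Agent.Lib.BlockOsima
import Cfsg.Agent.Lib.DefectZeroVanish
import Cfsg.Agent.Lib.DegRatio
import Cfsg.Agent.Lib.PF9Inf
import Cfsg.Agent.Lib.DefZeroCount

/-!
# Blocks containing a defect-zero character of the quotient by a normal `p`-subgroup
-/

set_option autoImplicit false

namespace Cfsg.Agent.Lib.BlkWeight

open Cfsg Cfsg.Agent.Lib.BlockRing Cfsg.Agent.Lib.BlockGA Cfsg.Agent.Lib.BlockIdem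
open Cfsg.Agent.Lib.CharBasic Cfsg.Agent.Lib.BlockNormP Cfsg.Agent.Lib.BlockDefZero
open scoped ComplexConjugate

universe u

variable {p : ℕ} [hp : Fact p.Prime] {M : Ideal AlgInt} {G : Type u} [Group G] [Finite G]

/-- the coefficients of the idempotent of a block of defect zero -/
theorem idl_blockCoeff_of_defzero (hM : IsPModular p M) (ψ : IrrCharacter G)
    (h : (charDegree (ψ : G → ℂ)).factorization p = (Nat.card G).factorization p) {g : G}
    (hg : p ∣ Nat.card (Subgroup.centralizer ({g} : Set G))) :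
    MemLocalIdeal M (blockCoeff ({ψ} : Set (IrrCharacter G)) g) := by
  classical
  have := isPrime hM
  have := Fintype.ofFinite G
  have hdvd := DefectZero.charDegree_dvd ψ.2
  obtain ⟨m, hm⟩ := hdvd
  have hdpos := DefectZero.charDegree_pos ψ.2
  have hm0 : m ≠ 0 := by
    rintro rfl
    rw [mul_zero] at hm
    exact Nat.card_pos.ne' hm
  have hpm : ¬ p ∣ m := by
    intro hpm
    rw [hm, Nat.factorization_mul hdpos.ne' hm0, Finsupp.add_apply] at h
    have h1 : 0 < m.factorization p := hp.out.factorization_pos_of_dvd hm0 hpm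
    omega
  have hd : ((charDegree (ψ : G → ℂ) : ℕ) : ℂ) = (ψ : G → ℂ) 1 := DefectZero.charDegree_eq ψ.2.isCharacter
  have h1 : blockCoeff ({ψ} : Set (IrrCharacter G)) g =
      (Nat.card G : ℂ)⁻¹ * ((ψ : G → ℂ) 1 * (ψ : G → ℂ) g⁻¹) := by
    rw [blockCoeff, finsum_mem_singleton, ψ.2.inv g]
  have hcent : Subgroup.centralizer ({g⁻¹} : Set G) = Subgroup.centralizer ({g} : Set G) := by
    ext x
    rw [Subgroup.mem_centralizer_singleton_iff, Subgroup.mem_centralizer_singleton_iff]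
    constructor
    · intro h
      have h2 : x⁻¹ * (x * g⁻¹) * x⁻¹ = x⁻¹ * (g⁻¹ * x) * x⁻¹ := by rw [h]
      have h3 : g⁻¹ * x⁻¹ = x⁻¹ * g⁻¹ := by
        calc g⁻¹ * x⁻¹ = x⁻¹ * (x * g⁻¹) * x⁻¹ := by group
          _ = x⁻¹ * g⁻¹ := by rw [h2]; group
      have h4 := congrArg Inv.inv h3
      simpa [mul_inv_rev] using h4
    · intro h
      have h2 : g⁻¹ * (x * g) * g⁻¹ = g⁻¹ * (g * x) * g⁻¹ := by rw [h]
      calc x * g⁻¹ = g⁻¹ * (g * x) * g⁻¹ := by group
        _ = g⁻¹ * x := by rw [← h2]; group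
  have hidx : (Nat.card (Subgroup.centralizer ({g} : Set G)) : ℂ) *
      ((Subgroup.centralizer ({g⁻¹} : Set G)).index : ℂ) = Nat.card G := by
    rw [hcent]
    exact_mod_cast Subgroup.card_mul_index _
  have hm0' : (m : ℂ) ≠ 0 := by exact_mod_cast hm0
  have hψ0 : (ψ : G → ℂ) 1 ≠ 0 := ψ.2.one_ne_zero
  have hG : (Nat.card G : ℂ) = (ψ : G → ℂ) 1 * m := by rw [← hd]; exact_mod_cast hm
  have hcc : centralChar (ψ : G → ℂ) g⁻¹ =
      ((Subgroup.centralizer ({g⁻¹} : Set G)).index : ℂ) * (ψ : G → ℂ) g⁻¹ / (ψ : G → ℂ) 1 := rfl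
  have hG0 : (Nat.card G : ℂ) ≠ 0 := by exact_mod_cast Nat.card_pos.ne'
  have h2 : blockCoeff ({ψ} : Set (IrrCharacter G)) g =
      ((Nat.card (Subgroup.centralizer ({g} : Set G)) : ℂ)) *
        (((m : ℂ)⁻¹) ^ 2 * centralChar (ψ : G → ℂ) g⁻¹) := by
    rw [h1, hcc]
    have hC0 : (Nat.card (Subgroup.centralizer ({g} : Set G)) : ℂ) ≠ 0 := by
      exact_mod_cast Nat.card_pos.ne'
    have hix : ((Subgroup.centralizer ({g⁻¹} : Set G)).index : ℂ) =
        (ψ : G → ℂ) 1 * m / Nat.card (Subgroup.centralizer ({g} : Set G)) := by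
      rw [eq_div_iff hC0, mul_comm, hidx, hG]
    rw [hix, hG]
    field_simp
  rw [h2]
  refine idl_mul_right ((idl_natCast_iff hM _).mpr hg) ?_
  exact loc_mul (loc_pow (loc_inv_natCast hM hpm) 2) (loc_centralChar ψ.2 _)

/-- an element of the regular part acts: unique `p`-regular lift -/
theorem regular_lift_unique {N : Subgroup G} (hN : IsPGroup p N) {y x : G}
    (hy : ¬ p ∣ orderOf y) (hyC : y ∈ Subgroup.centralizer (N : Set G)) (hx : ¬ p ∣ orderOf x)
    (hxy : y⁻¹ * x ∈ N) : x = y := by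
  set u := y⁻¹ * x with hu
  have hcomm : Commute y u := (Subgroup.mem_centralizer_iff.mp hyC u hxy).symm
  have hx' : x = y * u := by rw [hu]; group
  have h1 : u ^ (orderOf y * orderOf x) = 1 := by
    have h2 : x ^ (orderOf y * orderOf x) = 1 := by
      rw [mul_comm, pow_mul, pow_orderOf_eq_one, one_pow]
    rw [hx', hcomm.mul_pow, pow_mul, pow_orderOf_eq_one, one_pow, one_mul, ← hx'] at h2
    exact h2
  obtain ⟨n, hn⟩ := hN ⟨u, hxy⟩
  have hn' : u ^ p ^ n = 1 := congrArg Subtype.val hn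
  have h3 : orderOf u = 1 := by
    refine Nat.eq_one_of_dvd_coprimes (a := p ^ n) (b := orderOf y * orderOf x) ?_
      (orderOf_dvd_of_pow_eq_one hn') (orderOf_dvd_of_pow_eq_one h1)
    refine Nat.Coprime.pow_left _ ?_
    exact Nat.Coprime.mul_right ((Nat.Prime.coprime_iff_not_dvd hp.out).mpr hy)
      ((Nat.Prime.coprime_iff_not_dvd hp.out).mpr hx)
  rw [orderOf_eq_one_iff] at h3
  rw [hx', h3, mul_one]

theorem defectGroup_eq_of_defzero (hM : IsPModular p M) {N : Subgroup G} [hNn : N.Normal]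
    (hN : IsPGroup p N) (hG : ∀ x : G, ∃ q ∈ N, q⁻¹ * x ∈ Subgroup.centralizer (N : Set G))
    {B : Set (IrrCharacter G)} (hB : IsPBlock M B) {ψ : IrrCharacter G} (hψ : ψ ∈ B)
    (hψN : ∀ u ∈ N, (ψ : G → ℂ) u = (ψ : G → ℂ) 1)
    (hdeg : (Nat.card G).factorization p ≤
      (charDegree (ψ : G → ℂ)).factorization p + (Nat.card N).factorization p)
    {D : Subgroup G} (hD : IsDefectGroup p M B D) : D = N := by
  classical
  have := isPrime hM
  have := Fintype.ofFinite G
  have hND : N ≤ D := le_defectGroup hM hN hB hD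
  -- `p`-regular elements centralize `N`
  have hreg : ∀ x : G, ¬ p ∣ orderOf x → x ∈ Subgroup.centralizer (N : Set G) := by
    intro x hx
    obtain ⟨q, hq, hqx⟩ := hG x
    obtain ⟨n, hn⟩ := hN ⟨q, hq⟩
    exact BlkNil.centralizes_of_act hx (by rw [Subgroup.normalizer_eq_top]; trivial)
      (congrArg Subtype.val hn : q ^ p ^ n = 1) hqx
  obtain ⟨ψ₀, hψ₀, hψψ⟩ := ψ.2.deflate N hψN
  set ψ' : IrrCharacter (G ⧸ N) := ⟨ψ₀, hψ₀⟩ with hψ'
  have hdeg1 : charDegree (ψ' : G ⧸ N → ℂ) = charDegree (ψ : G → ℂ) := by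
    have h1 := DefectZero.charDegree_eq ψ'.2.isCharacter
    have h2 := DefectZero.charDegree_eq ψ.2.isCharacter
    have h3 : (ψ' : G ⧸ N → ℂ) 1 = (ψ : G → ℂ) 1 := hψψ 1
    rw [h3, ← h2] at h1
    exact_mod_cast h1
  have hdz : (charDegree (ψ' : G ⧸ N → ℂ)).factorization p = (Nat.card (G ⧸ N)).factorization p := by
    refine le_antisymm (factorization_charDegree_le p ψ'.2) ?_
    rw [hdeg1]
    have h1 : Nat.card G = Nat.card (G ⧸ N) * Nat.card N := Subgroup.card_eq_card_quotient_mul_card_subgroup N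
    rw [h1, Nat.factorization_mul Nat.card_pos.ne' Nat.card_pos.ne', Finsupp.add_apply] at hdeg
    omega
  have hsing := blockOf_eq_singleton hM ψ' hdz
  have hBs : IsPBlock M ({ψ'} : Set (IrrCharacter (G ⧸ N))) := ⟨ψ', hsing.symm⟩
  set bc := blockCoeff ({ψ'} : Set (IrrCharacter (G ⧸ N))) with hbc
  have hbcl : ∀ y, MemLocalRing M (bc y) := fun y => locA_eB (M := M) hBs y
  -- the regular lift of the idempotent
  set w : GA G := ofFun (fun x => if p ∣ orderOf x then 0 else bc (x : G ⧸ N)) with hw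
  have hwc : w ∈ Subalgebra.center ℂ (GA G) := by
    apply ofFun_mem_center
    intro x h
    have h1 : orderOf (h * x * h⁻¹) = orderOf x := MulEquiv.orderOf_eq (MulAut.conj h) x
    have h2 : bc ((h * x * h⁻¹ : G) : G ⧸ N) = bc (x : G ⧸ N) :=
      isClassFunction_blockCoeff ({ψ'} : Set (IrrCharacter (G ⧸ N))) (x : G ⧸ N) (h : G ⧸ N)
    simp only [h1, h2]
  have hwl : LocA M w := by
    intro x
    rw [hw, coeff_ofFun]
    split_ifs
    · exact loc_zero
    · exact hbcl _
  -- orders in the quotient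
  have hsingq : ∀ x : G, ¬ p ∣ orderOf x → ¬ p ∣ orderOf (x : G ⧸ N) := by
    intro x hx h
    exact hx (h.trans (orderOf_map_dvd (QuotientGroup.mk' N) x))
  have hregq : ∀ y : G ⧸ N, ¬ p ∣ orderOf y → ∃ x : G, ¬ p ∣ orderOf x ∧ (x : G ⧸ N) = y := by
    intro y hy
    obtain ⟨x, rfl⟩ := QuotientGroup.mk_surjective y
    obtain ⟨u, s, hus, hc, hu, hs, _, _⟩ := BlockOsima.exists_p_decomp hp.out (orderOf_pos x).ne'
    refine ⟨s, hs, ?_⟩
    have h1 : ((x : G) : G ⧸ N) = (u : G ⧸ N) * (s : G ⧸ N) := by rw [← hus]; rfl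
    -- the image of `u` is both `p`-element and power of a `p`-regular element
    have h2 : (u : G ⧸ N) = 1 := by
      have hcq : Commute (u : G ⧸ N) (s : G ⧸ N) := hc.map (QuotientGroup.mk' N)
      have h3 : (u : G ⧸ N) ^ (orderOf s * orderOf ((x : G) : G ⧸ N)) = 1 := by
        have h4 : ((x : G) : G ⧸ N) ^ (orderOf s * orderOf ((x : G) : G ⧸ N)) = 1 := by
          rw [mul_comm, pow_mul, pow_orderOf_eq_one, one_pow]
        have h5 : (s : G ⧸ N) ^ (orderOf s * orderOf ((x : G) : G ⧸ N)) = 1 := by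
          rw [pow_mul]
          have : (s : G ⧸ N) ^ orderOf s = 1 := by
            rw [← QuotientGroup.mk_pow, pow_orderOf_eq_one]; rfl
          rw [this, one_pow]
        have h6 := hcq.mul_pow (orderOf s * orderOf ((x : G) : G ⧸ N))
        rw [← h1, h4, h5, mul_one] at h6
        exact h6.symm
      have h7 : (u : G ⧸ N) ^ p ^ (orderOf x).factorization p = 1 := by
        rw [← QuotientGroup.mk_pow, ← hu, pow_orderOf_eq_one]; rfl
      have h8 : orderOf (u : G ⧸ N) = 1 := by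
        refine Nat.eq_one_of_dvd_coprimes (a := p ^ (orderOf x).factorization p)
          (b := orderOf s * orderOf ((x : G) : G ⧸ N)) ?_
          (orderOf_dvd_of_pow_eq_one h7) (orderOf_dvd_of_pow_eq_one h3)
        refine Nat.Coprime.pow_left _ ?_
        exact Nat.Coprime.mul_right ((Nat.Prime.coprime_iff_not_dvd hp.out).mpr hs)
          ((Nat.Prime.coprime_iff_not_dvd hp.out).mpr hy)
      exact orderOf_eq_one_iff.mp h8
    rw [h1, h2, one_mul]
  -- projection of functions supported on regular elements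
  have hproj : ∀ (z : GA G), (∀ x : G, p ∣ orderOf x → z.coeff x = 0) → ∀ x : G, ¬ p ∣ orderOf x →
      (projQ N z).coeff (x : G ⧸ N) = z.coeff x := by
    intro z hz x hx
    rw [coeff_projQ, Finset.sum_eq_single x]
    · rw [if_pos rfl]
    · intro x' _ hne
      split_ifs with h1
      · by_contra h2
        apply hne
        have hx' : ¬ p ∣ orderOf x' := fun h3 => h2 (hz x' h3)
        have h3 : x⁻¹ * x' ∈ N := by
          rw [← QuotientGroup.eq]; exact h1.symm
        exact regular_lift_unique hN hx (hreg x hx) hx' h3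
      · rfl
    · intro h; exact absurd (Finset.mem_univ x) h
  have hproj' : ∀ (z : GA G), (∀ x : G, p ∣ orderOf x → z.coeff x = 0) → ∀ y : G ⧸ N,
      p ∣ orderOf y → (projQ N z).coeff y = 0 := by
    intro z hz y hy
    rw [coeff_projQ]
    refine Finset.sum_eq_zero fun x _ => ?_
    split_ifs with h1
    · apply hz
      rw [← h1] at hy
      exact hy.trans (orderOf_map_dvd (QuotientGroup.mk' N) x)
    · rfl
  have hprojw : projQ N w = eB ({ψ'} : Set (IrrCharacter (G ⧸ N))) := by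
    have hw0 : ∀ x : G, p ∣ orderOf x → w.coeff x = 0 := by
      intro x hx
      rw [hw, coeff_ofFun, if_pos hx]
    rw [← ofFun_coeff (projQ N w), ← ofFun_coeff (eB ({ψ'} : Set (IrrCharacter (G ⧸ N))))]
    congr 1
    funext y
    by_cases hy : p ∣ orderOf y
    · rw [hproj' w hw0 y hy, coeff_eB]
      exact (BlockOsima.blockCoeff_eq_zero hM hBs hy).symm
    · obtain ⟨x, hx, rfl⟩ := hregq y hy
      rw [hproj w hw0 x hx, hw, coeff_ofFun, if_neg hx, coeff_eB]
  have hone : ¬ MemLocalIdeal M (1 : ℂ) := by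
    intro h
    have h1 : MemLocalIdeal M ((1 : ℕ) : ℂ) := by exact_mod_cast h
    rw [idl_natCast_iff hM] at h1
    exact hp.out.one_lt.ne' (Nat.dvd_one.mp h1)
  have hinf : (fun x : G => (ψ' : G ⧸ N → ℂ) (x : G ⧸ N)) = (ψ : G → ℂ) := funext hψψ
  have hmem : ∀ χ : IrrCharacter (G ⧸ N),
      (⟨fun x : G => (χ : G ⧸ N → ℂ) (x : G ⧸ N), χ.2.inflate N⟩ : IrrCharacter G) ∈ B ↔ χ = ψ' := by
    intro χ
    constructor
    · intro hχ
      by_contra hne
      have h1 := sameBlock_of_mem hB hχ hψ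
      have h2 := sameBlock_omega (χ.2.inflate N).isClassFunction ψ.2.isClassFunction h1 hwc hwl
      have h3 : omega (fun x : G => (χ : G ⧸ N → ℂ) (x : G ⧸ N)) w = 0 := by
        rw [← omega_projQ, hprojw]
        exact omega_eB_not_mem (by simpa using hne)
      have h4 : omega (ψ : G → ℂ) w = 1 := by
        rw [← hinf, ← omega_projQ, hprojw]
        exact omega_eB_mem (Set.mem_singleton _)
      have h5 : MemLocalIdeal M (0 - 1 : ℂ) := by
        rw [h4] at h2
        have : omega (fun x : G => (χ : G ⧸ N → ℂ) (x : G ⧸ N)) w - 1 = 0 - 1 := by rw [h3]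
        rw [← this]; exact h2
      rw [zero_sub] at h5
      apply hone
      have := idl_neg h5
      rwa [neg_neg] at this
    · rintro rfl
      have : (⟨fun x : G => (ψ' : G ⧸ N → ℂ) (x : G ⧸ N), ψ'.2.inflate N⟩ : IrrCharacter G) = ψ :=
        Subtype.ext hinf
      rw [this]; exact hψ
  have hprojB : projQ N (eB B) = eB ({ψ'} : Set (IrrCharacter (G ⧸ N))) := by
    apply center_ext (projQ_mem_center N (eB_mem_center B)) (eB_mem_center _)
    intro χ
    rw [omega_projQ]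
    have h1 := omega_eB B (⟨fun x : G => (χ : G ⧸ N → ℂ) (x : G ⧸ N), χ.2.inflate N⟩ : IrrCharacter G)
    have h2 := omega_eB ({ψ'} : Set (IrrCharacter (G ⧸ N))) χ
    rw [h2]
    refine h1.trans ?_
    by_cases hc : χ = ψ'
    · rw [if_pos ((hmem χ).mpr hc), if_pos (by rw [hc]; exact Set.mem_singleton _)]
    · rw [if_neg (fun h => hc ((hmem χ).mp h)), if_neg (by simpa using hc)]
  obtain ⟨g, hg, P, hP⟩ := hD
  have hgreg : ¬ p ∣ orderOf g := by
    intro h
    apply hg.2.1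
    rw [BlockOsima.blockCoeff_eq_zero hM hB h]
    exact idl_zero
  have hB0 : ∀ x : G, p ∣ orderOf x → (eB B).coeff x = 0 := fun x hx =>
    BlockOsima.blockCoeff_eq_zero hM hB hx
  have h1 : blockCoeff B g = bc (g : G ⧸ N) := by
    have h2 := hproj (eB B) hB0 g hgreg
    rw [hprojB] at h2
    exact h2.symm
  refine le_antisymm ?_ hND
  intro d hd
  by_contra hdN
  apply hg.2.1
  rw [h1]
  apply idl_blockCoeff_of_defzero hM ψ' hdz
  -- the image of `d` is a nontrivial `p`-element of the centralizer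
  have hd' := hd
  rw [hP] at hd'
  obtain ⟨⟨d', hd'C⟩, hd'P, hd'e⟩ := hd'
  have hdd : d' = d := hd'e
  subst hdd
  obtain ⟨n, hn⟩ := P.isPGroup' ⟨_, hd'P⟩
  have hn' : d' ^ p ^ n = 1 := by
    have := congrArg (fun z => ((z : Subgroup.centralizer ({g} : Set G)) : G)) (congrArg Subtype.val hn)
    exact this
  have hdq : ((d' : G) : G ⧸ N) ≠ 1 := by
    intro h
    exact hdN ((QuotientGroup.eq_one_iff d').mp h)
  have hcen : ((d' : G) : G ⧸ N) ∈ Subgroup.centralizer ({(g : G ⧸ N)} : Set (G ⧸ N)) := by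
    rw [Subgroup.mem_centralizer_singleton_iff]
    have h3 := Subgroup.mem_centralizer_singleton_iff.mp hd'C
    rw [← QuotientGroup.mk_mul, ← QuotientGroup.mk_mul, h3]
  have h4 : orderOf ((d' : G) : G ⧸ N) ∣ p ^ n := by
    apply orderOf_dvd_of_pow_eq_one
    rw [← QuotientGroup.mk_pow, hn']; rfl
  obtain ⟨m, _, hm⟩ := (Nat.dvd_prime_pow hp.out).mp h4
  have hm0 : m ≠ 0 := by
    rintro rfl
    rw [pow_zero, orderOf_eq_one_iff] at hm
    exact hdq hm
  have h5 : p ∣ orderOf ((d' : G) : G ⧸ N) := by rw [hm]; exact dvd_pow_self p hm0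
  refine h5.trans ?_
  have h6 := orderOf_dvd_natCard (⟨_, hcen⟩ : Subgroup.centralizer ({(g : G ⧸ N)} : Set (G ⧸ N)))
  rwa [Subgroup.orderOf_mk] at h6

/-- a normal `p`-subgroup lies in `N` when `G/N` has a character of defect zero -/
theorem pgroup_le_of_defzero {N : Subgroup G} [hNn : N.Normal] {χ : IrrCharacter G}
    (hχN : ∀ u ∈ N, (χ : G → ℂ) u = (χ : G → ℂ) 1)
    (hdeg : (Nat.card G).factorization p ≤
      (charDegree (χ : G → ℂ)).factorization p + (Nat.card N).factorization p)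
    {R : Subgroup G} [hRn : R.Normal] (hR : IsPGroup p R) : R ≤ N := by
  classical
  obtain ⟨ψ₀, hψ₀, hψψ⟩ := χ.2.deflate N hχN
  set ψ' : IrrCharacter (G ⧸ N) := ⟨ψ₀, hψ₀⟩ with hψ'
  have hdeg1 : charDegree (ψ' : G ⧸ N → ℂ) = charDegree (χ : G → ℂ) := by
    have h1 := DefectZero.charDegree_eq ψ'.2.isCharacter
    have h2 := DefectZero.charDegree_eq χ.2.isCharacter
    have h3 : (ψ' : G ⧸ N → ℂ) 1 = (χ : G → ℂ) 1 := hψψ 1
    rw [h3, ← h2] at h1
    exact_mod_cast h1
  have hdz : (Nat.card (G ⧸ N)).factorization p ≤ (charDegree (ψ' : G ⧸ N → ℂ)).factorization p := by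
    rw [hdeg1]
    have h1 : Nat.card G = Nat.card (G ⧸ N) * Nat.card N := Subgroup.card_eq_card_quotient_mul_card_subgroup N
    rw [h1, Nat.factorization_mul Nat.card_pos.ne' Nat.card_pos.ne', Finsupp.add_apply] at hdeg
    omega
  have hvan : ∀ y : G ⧸ N, p ∣ orderOf y → (ψ' : G ⧸ N → ℂ) y = 0 := fun y hy =>
    DefZeroCount.vanish hp.out ψ'.2 hdz hy
  have := Fintype.ofFinite (R.map (QuotientGroup.mk' N))
  have hRq : IsPGroup p (R.map (QuotientGroup.mk' N)) := hR.map _
  have hnorm : (R.map (QuotientGroup.mk' N)).Normal :=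
    Subgroup.Normal.map hRn _ (QuotientGroup.mk'_surjective N)
  have hz : ∀ y ∈ R.map (QuotientGroup.mk' N), y ≠ 1 → (ψ' : G ⧸ N → ℂ) y = 0 := fun y hy hy1 =>
    hvan y (dvd_orderOf_of_isPGroup hp.out hRq hy hy1)
  have hsum : ∑ n : R.map (QuotientGroup.mk' N), (ψ' : G ⧸ N → ℂ) n = (ψ' : G ⧸ N → ℂ) 1 := by
    rw [Finset.sum_eq_single 1]
    · rfl
    · intro b _ hb
      exact hz b b.2 (fun h => hb (Subtype.ext h))
    · intro h; exact absurd (Finset.mem_univ _) h
  have h1 := trivial_of_constituent (N := R.map (QuotientGroup.mk' N)) (χ := ψ')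
    (by rw [hsum]; exact ψ'.2.one_ne_zero)
  intro r hr
  by_contra hrN
  have hne : ((r : G) : G ⧸ N) ≠ 1 := fun h => hrN ((QuotientGroup.eq_one_iff r).mp h)
  have hmem : ((r : G) : G ⧸ N) ∈ R.map (QuotientGroup.mk' N) := ⟨r, hr, rfl⟩
  have h2 := h1 _ hmem
  rw [hz _ hmem hne] at h2
  exact ψ'.2.one_ne_zero h2.symm

/-- a constituent of the restriction which is trivial on `N` -/
theorem exists_constituent_trivial {N X : Subgroup G} [hNn : N.Normal] [Fintype X]
    {χ : IrrCharacter G} (hχN : ∀ u ∈ N, (χ : G → ℂ) u = (χ : G → ℂ) 1) :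
    ∃ θ : IrrCharacter X, classInner (fun x : X => (χ : G → ℂ) x) (θ : X → ℂ) ≠ 0 ∧
      ∀ u : X, (u : G) ∈ N → (θ : X → ℂ) u = (θ : X → ℂ) 1 := by
  classical
  set N' := N.subgroupOf X with hN'
  have hN'n : N'.Normal := inferInstance
  have := Fintype.ofFinite (X ⧸ N')
  obtain ⟨a, ha, haa⟩ := (χ.2.isCharacter.restrict X).deflate N' (fun n hn => by
    have := hχN n (Subgroup.mem_subgroupOf.mp hn)
    simpa using this)
  have ha0 : a ≠ 0 := by
    rintro rfl
    have h1 := haa 1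
    simp only [Pi.zero_apply, Subgroup.coe_one] at h1
    exact χ.2.one_ne_zero h1.symm
  obtain ⟨θ₀, hθ₀, hc⟩ := ha.exists_constituent ha0
  refine ⟨⟨fun x : X => θ₀ (x : X ⧸ N'), hθ₀.inflate N'⟩, ?_, ?_⟩
  · have h1 := PF9.classInner_comp_hom (QuotientGroup.mk'_surjective N') a θ₀
    have h2 : (fun x : X => a (QuotientGroup.mk' N' x)) = fun x : X => (χ : G → ℂ) x := funext haa
    rw [h2] at h1
    rw [← h1] at hc
    exact hc
  · intro u hu
    show θ₀ (u : X ⧸ N') = θ₀ ((1 : X) : X ⧸ N')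
    congr 1
    exact (QuotientGroup.eq_one_iff u).mpr (Subgroup.mem_subgroupOf.mpr hu)

end Cfsg.Agent.Lib.BlkWeight
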