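import Cfsg.Agent.Lib.BlockTransfer
import Cfsg.Agent.Lib.BlockCore
import Cfsg.Agent.Lib.H32Cores
import Cfsg.Agent.Lib.PiCoreOf

/-!
# Block induction along injective homomorphisms; kernels of induced blocks
-/

set_option autoImplicit false
set_option linter.all false

namespace Cfsg.Agent.Lib.BlockAlong

open Cfsg Cfsg.Agent.Lib.BlockRing Cfsg.Agent.Lib.BlockGA Cfsg.Agent.Lib.BlockIdem
open Cfsg.Agent.Lib.CharBasic Cfsg.Agent.Lib.BlockNormP Cfsg.Agent.Lib.BlockHom Cfsg.Agent.Lib.BlockDefect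
open Cfsg.Agent.Lib.BlockFirst Cfsg.Agent.Lib.BlockCover Cfsg.Agent.Lib.BlockTransfer
open Cfsg.Agent.Lib.BlockRes (resH coeff_resH brH coeff_brH)
open Cfsg.Agent.Lib.BlockInd Cfsg.Agent.Lib.BlockCore
open scoped ComplexConjugate

universe u

section pull

variable {A B C : Type u} [Group A] [Group B] [Group C] {M : Ideal AlgInt} {p : ℕ}

/-- Pull back the coefficients along a homomorphism. -/
noncomputable def pull [Finite A] (f : A →* C) : GA C →ₗ[ℂ] GA A where
  toFun z := ofFun (fun a : A => z.coeff (f a))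
  map_add' z w := by ext h; simp
  map_smul' c z := by ext h; simp

@[simp] theorem coeff_pull [Finite A] (f : A →* C) (z : GA C) (a : A) : (pull f z).coeff a = z.coeff (f a) := rfl

theorem pull_subtype [Finite C] (H : Subgroup C) (z : GA C) : pull H.subtype z = resH H z := rfl

theorem pull_comp [Finite A] [Finite B] (f : A →* B) (g : B →* C) (z : GA C) :
    pull (g.comp f) z = pull f (pull g z) := rfl

theorem pull_center [Finite A] (f : A →* C) {z : GA C} (hz : z ∈ Subalgebra.center ℂ (GA C)) :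
    pull f z ∈ Subalgebra.center ℂ (GA A) := by
  rw [mem_center_iff] at hz ⊢
  intro g h
  change z.coeff (f (h * g * h⁻¹)) = z.coeff (f g)
  rw [map_mul f, map_mul f, map_inv f]
  exact hz (f g) (f h)

theorem locA_pull [Finite A] (f : A →* C) {z : GA C} (hz : LocA M z) : LocA M (pull f z) :=
  fun a => hz (f a)

/-- Block induction along a homomorphism. -/
def IndAlong (M : Ideal AlgInt) [Finite A] (f : A →* C) (b : Set (IrrCharacter A))
    (β : Set (IrrCharacter C)) : Prop :=
  IsPBlock M b ∧ IsPBlock M β ∧ ∀ ξ ∈ b, ∀ χ ∈ β, ∀ z ∈ Subalgebra.center ℂ (GA C), LocA M z →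
    MemLocalIdeal M (omega (ξ : A → ℂ) (pull f z) - omega (χ : C → ℂ) z)

theorem indAlong_subtype_iff [M.IsPrime] [Finite C] {H : Subgroup C} {b : Set (IrrCharacter H)}
    {β : Set (IrrCharacter C)} : IndAlong M H.subtype b β ↔ IsInducedBlock M H b β := by
  constructor
  · rintro ⟨h1, h2, h3⟩
    obtain ⟨ξ, hξ⟩ := isPBlock_nonempty h1
    obtain ⟨χ, hχ⟩ := isPBlock_nonempty h2
    exact isInducedBlock_of_omega h1 h2 hξ hχ fun g => h3 ξ hξ χ hχ _ (classSum_mem_center g) (locA_classSum g)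
  · intro h
    exact ⟨h.1, h.2.1, fun ξ hξ χ hχ z hz hl => induced_omega h hξ hχ hz hl⟩

theorem IndAlong.comp [M.IsPrime] [Finite A] [Finite B] {f : A →* B} {g : B →* C} {a : Set (IrrCharacter A)}
    {b : Set (IrrCharacter B)} {c : Set (IrrCharacter C)} (h1 : IndAlong M f a b) (h2 : IndAlong M g b c) :
    IndAlong M (g.comp f) a c := by
  refine ⟨h1.1, h2.2.1, fun ξ hξ χ hχ z hz hl => ?_⟩
  obtain ⟨ζ, hζ⟩ := isPBlock_nonempty h1.2.1
  have h3 := h1.2.2 ξ hξ ζ hζ _ (pull_center g hz) (locA_pull g hl)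
  have h4 := h2.2.2 ζ hζ χ hχ z hz hl
  exact idl_sub_trans h3 h4

theorem IndAlong.factor [M.IsPrime] [Finite A] [Finite B] {f : A →* B} {g : B →* C} {a : Set (IrrCharacter A)}
    {b : Set (IrrCharacter B)} {c : Set (IrrCharacter C)} (h1 : IndAlong M f a b)
    (h2 : IndAlong M (g.comp f) a c) : IndAlong M g b c := by
  refine ⟨h1.2.1, h2.2.1, fun ζ hζ χ hχ z hz hl => ?_⟩
  obtain ⟨ξ, hξ⟩ := isPBlock_nonempty h1.1
  have h3 := h1.2.2 ξ hξ ζ hζ _ (pull_center g hz) (locA_pull g hl)
  have h4 := h2.2.2 ξ hξ χ hχ z hz hl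
  exact idl_sub_trans (idl_sub_symm h3) h4

theorem omega_pull_equiv [Finite A] [Finite C] (e : A ≃* C) (θ : C → ℂ) (z : GA C) :
    omega (fun a => θ (e a)) (pull e.toMonoidHom z) = omega θ z := by
  classical
  haveI := Fintype.ofFinite A
  haveI := Fintype.ofFinite C
  rw [omega, omega, map_one, lin_apply, lin_apply]
  congr 1
  rw [← Equiv.sum_comp e.toEquiv]
  rfl

/-- Along an isomorphism. -/
theorem indAlong_equiv [M.IsPrime] [Finite A] [Finite C] (e : A ≃* C) {b : Set (IrrCharacter C)}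
    (hb : IsPBlock M b) : IndAlong M e.toMonoidHom (trB e b) b := by
  refine ⟨isPBlock_tr hb, hb, fun ξ hξ χ hχ z hz hl => ?_⟩
  obtain ⟨θ, hθ, rfl⟩ := hξ
  rw [coe_trI, omega_pull_equiv]
  exact sameBlock_omega θ.2.isClassFunction χ.2.isClassFunction (sameBlock_of_mem hb hθ hχ) hz hl

theorem trB_conj (x : C) (b : Set (IrrCharacter C)) : trB (MulAut.conj x) b = b := by
  have h : ∀ θ : IrrCharacter C, trI (MulAut.conj x) θ = θ := by
    intro θ
    apply Subtype.ext
    funext c
    rw [trI_apply, MulAut.conj_apply]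
    exact θ.2.isClassFunction c x
  ext θ
  constructor
  · rintro ⟨η, hη, rfl⟩
    rw [h]; exact hη
  · intro hθ
    exact ⟨θ, hθ, h θ⟩

theorem indAlong_conj [M.IsPrime] [Finite C] (x : C) {b : Set (IrrCharacter C)} (hb : IsPBlock M b) :
    IndAlong M (MulAut.conj x).toMonoidHom b b := by
  have h := indAlong_equiv (MulAut.conj x) hb
  rwa [trB_conj] at h

/-- the averaging idempotent of a subgroup pulls back to a multiple of the one of the preimage. -/
theorem pull_normE [Finite A] [Finite C] (f : A →* C) (W : Subgroup C) :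
    pull f (normE W) = ((Nat.card (W.comap f) : ℂ) / (Nat.card W : ℂ)) • normE (W.comap f) := by
  classical
  ext a
  rw [coeff_pull, MonoidAlgebra.coeff_smul, Finsupp.smul_apply, smul_eq_mul]
  change (if f a ∈ W then ((Nat.card W : ℂ))⁻¹ else 0) =
    (Nat.card (W.comap f) : ℂ) / (Nat.card W : ℂ) *
      (if a ∈ W.comap f then ((Nat.card (W.comap f) : ℂ))⁻¹ else 0)
  have h0 : (Nat.card (W.comap f) : ℂ) ≠ 0 := by exact_mod_cast Nat.card_pos.ne'
  have h1 : (Nat.card W : ℂ) ≠ 0 := by exact_mod_cast Nat.card_pos.ne'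
  by_cases h : f a ∈ W
  · rw [if_pos h, if_pos (show a ∈ W.comap f from h)]
    field_simp
  · rw [if_neg h, if_neg (show ¬ a ∈ W.comap f from h), mul_zero]

theorem normal_le_blockKer_iff (hM : IsPModular p M) [Finite A] [Finite C] {f : A →* C}
    (hf : Function.Injective f) {b : Set (IrrCharacter A)} {β : Set (IrrCharacter C)}
    (h : IndAlong M f b β) {W : Subgroup C} [W.Normal] (hW : ¬ p ∣ Nat.card W) :
    (∀ w ∈ W, w ∈ blockKer β) ↔ ∀ a : A, f a ∈ W → a ∈ blockKer b := by
  haveI := isPrime hM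
  have hdvd : Nat.card (W.comap f) ∣ Nat.card W := by
    have h1 : Nat.card ((W.comap f).map f) = Nat.card (W.comap f) := Subgroup.card_map_of_injective hf
    rw [← h1]
    exact Subgroup.card_dvd_of_le (Subgroup.map_comap_le _ _)
  obtain ⟨k, hk⟩ := hdvd
  have hWa : ¬ p ∣ Nat.card (W.comap f) := fun h => hW (h.trans ⟨k, hk⟩)
  have hc0 : (Nat.card (W.comap f) : ℂ) ≠ 0 := by exact_mod_cast Nat.card_pos.ne'
  have hW0 : (Nat.card W : ℂ) ≠ 0 := by exact_mod_cast Nat.card_pos.ne'
  set c : ℂ := (Nat.card (W.comap f) : ℂ) / (Nat.card W : ℂ) with hc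
  have hcl : ¬ MemLocalIdeal M c := by
    intro h1
    have h2 : MemLocalIdeal M (c * (Nat.card W : ℂ)) := idl_mul_right h1 (loc_natCast _)
    rw [hc, div_mul_cancel₀ _ hW0] at h2
    have h3 := (idl_natCast_iff hM _).1 h2
    exact hWa h3
  have key : ∀ ξ ∈ b, ∀ χ ∈ β, (omega (χ : C → ℂ) (normE W) = 1 ↔
      omega (ξ : A → ℂ) (normE (W.comap f)) = 1) := by
    intro ξ hξ χ hχ
    have h1 := h.2.2 ξ hξ χ hχ _ (normE_mem_center W) (locA_normE hM hW)
    rw [pull_normE, omega_smul] at h1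
    rcases omega_normE_zero_or_one W χ.2 with h2 | h2 <;>
      rcases omega_normE_zero_or_one (W.comap f) ξ.2 with h3 | h3
    · rw [h2, h3]
    · rw [h2, h3, mul_one, sub_zero] at h1
      exact absurd h1 hcl
    · rw [h2, h3, mul_zero, zero_sub] at h1
      have h4 := idl_neg h1
      rw [neg_neg] at h4
      exact absurd h4 one_not_idl
    · rw [h2, h3]
  constructor
  · intro h1 a ha ξ hξ
    obtain ⟨χ, hχ⟩ := isPBlock_nonempty h.2.1
    have h2 := (omega_normE_eq_one_iff W χ.2).2 (fun n hn => h1 n hn χ hχ)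
    exact (omega_normE_eq_one_iff (W.comap f) ξ.2).1 ((key ξ hξ χ hχ).1 h2) a ha
  · intro h1 w hw χ hχ
    obtain ⟨ξ, hξ⟩ := isPBlock_nonempty h.1
    have h2 := (omega_normE_eq_one_iff (W.comap f) ξ.2).2 (fun n hn => h1 n hn ξ hξ)
    exact (omega_normE_eq_one_iff W χ.2).1 ((key ξ hξ χ hχ).2 h2) w hw

end pull

section local_step

variable {A G : Type u} [Group A] [Finite A] [Group G] [Finite G] {p : ℕ} {M : Ideal AlgInt}

/-- One step of localisation: a block `b` of `A` (embedded in `G` by `f`), inducing `B`, with defect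
group `Q` whose centraliser lies in `A`, gives a block `c` of `N_G(Q)` inducing `B` whose kernel
controls the kernel of `b`. -/
theorem local_step (hM : IsPModular p M) {f : A →* G} (hf : Function.Injective f)
    {b : Set (IrrCharacter A)} {B : Set (IrrCharacter G)} (h : IndAlong M f b B)
    {Q : Subgroup A} (hQ : IsDefectGroup p M b Q)
    (hC : Subgroup.centralizer ((Q.map f : Subgroup G) : Set G) ≤ f.range) :
    ∃ c : Set (IrrCharacter (Subgroup.normalizer ((Q.map f : Subgroup G) : Set G))),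
      IsInducedBlock M (Subgroup.normalizer ((Q.map f : Subgroup G) : Set G)) c B ∧
      ∀ π : Set ℕ, p ∈ π →
        (∀ n ∈ piCore {q | q ∉ π} (Subgroup.normalizer ((Q.map f : Subgroup G) : Set G)), n ∈ blockKer c) →
        ∀ a ∈ piCore {q | q ∉ π} A, a ∈ blockKer b := by
  haveI := isPrime hM
  haveI : Fact p.Prime := ⟨hM.1⟩
  have hQp : IsPGroup p Q := defectGroup_isPGroup hQ
  set K : Subgroup A := Subgroup.normalizer (Q : Set A) with hK
  have hQK : Q ≤ K := Subgroup.le_normalizer
  have hCK : Subgroup.centralizer (Q : Set A) ≤ K := Subgroup.centralizer_le_normalizer _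
  obtain ⟨b', hb'⟩ : ∃ b' : Set (IrrCharacter K), IsInducedBlock M K b' b := by
    obtain ⟨g, hg, hgQ⟩ := (isDefectGroup_iff.1 hQ)
    have hgC : g ∈ Subgroup.centralizer (Q : Set A) := by
      rw [Subgroup.mem_centralizer_iff]
      intro d hd
      exact Subgroup.mem_centralizer_singleton_iff.1 (sylIn_le hgQ hd)
    exact exists_inducing_block hM hQp hQK hCK le_rfl h.1 hgC hg.2.1
  set N : Subgroup G := Subgroup.normalizer ((Q.map f : Subgroup G) : Set G) with hN
  have hfN : ∀ k : K, (f.comp K.subtype) k ∈ N := by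
    intro k
    have hk := Subgroup.mem_normalizer_iff.1 k.2
    show f (k : A) ∈ N
    rw [hN, Subgroup.mem_normalizer_iff]
    intro y
    constructor
    · rintro ⟨q, hq, rfl⟩
      exact ⟨_, (hk q).1 hq, by simp⟩
    · rintro ⟨q, hq, hqy⟩
      have hk' := Subgroup.mem_normalizer_iff.1 (K.inv_mem k.2)
      refine ⟨_, (hk' q).1 hq, ?_⟩
      rw [map_mul, map_mul, hqy]
      simp [mul_assoc]
  set g : K →* N := (f.comp K.subtype).codRestrict N hfN with hg
  have hgcoe : ∀ k : K, ((g k : N) : G) = f (k : A) := fun k => rfl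
  have hginj : Function.Injective g := by
    intro a c hac
    have := congrArg Subtype.val hac
    rw [hgcoe, hgcoe] at this
    exact Subtype.ext (hf this)
  set P₂ : Subgroup N := (Q.map f).subgroupOf N with hP₂
  have hQN : Q.map f ≤ N := Subgroup.le_normalizer
  haveI : P₂.Normal := Subgroup.normal_in_normalizer
  have hP₂p : IsPGroup p P₂ := (hQp.map f).of_equiv (Subgroup.subgroupOfEquivOfLe hQN).symm
  have hPR : P₂ ≤ g.range := by
    intro x hx
    rw [hP₂, Subgroup.mem_subgroupOf] at hx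
    obtain ⟨q, hq, hqx⟩ := hx
    exact ⟨⟨q, hQK hq⟩, Subtype.ext hqx⟩
  have hcent : ∀ x : N, x ∈ Subgroup.centralizer (P₂ : Set N) →
      ∃ a ∈ Subgroup.centralizer (Q : Set A), f a = (x : G) := by
    intro x hx
    have hx' : (x : G) ∈ Subgroup.centralizer ((Q.map f : Subgroup G) : Set G) := by
      rw [Subgroup.mem_centralizer_iff] at hx ⊢
      intro y hy
      have := hx ⟨y, hQN hy⟩ (by rw [SetLike.mem_coe, hP₂, Subgroup.mem_subgroupOf]; exact hy)
      exact congrArg Subtype.val this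
    obtain ⟨a, ha⟩ := hC hx'
    refine ⟨a, ?_, ha⟩
    rw [Subgroup.mem_centralizer_iff]
    intro q hq
    apply hf
    rw [map_mul, map_mul, ha]
    exact Subgroup.mem_centralizer_iff.1 hx' _ ⟨q, hq, rfl⟩
  have hCR : Subgroup.centralizer (P₂ : Set N) ≤ g.range := by
    intro x hx
    obtain ⟨a, ha, hax⟩ := hcent x hx
    exact ⟨⟨a, hCK ha⟩, Subtype.ext hax⟩
  have hRN : g.range ≤ Subgroup.normalizer (P₂ : Set N) := by
    rw [Subgroup.normalizer_eq_top]
    exact le_top
  set e : K ≃* g.range := MonoidHom.ofInjective hginj with he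
  obtain ⟨c, hc⟩ := inducedBlockDefined hM hP₂p hPR hCR hRN (isPBlock_tr (e := e.symm) hb'.1)
  have hgc : IndAlong M g b' c := by
    have h1 := (indAlong_equiv e (isPBlock_tr (e := e.symm) hb'.1)).comp (indAlong_subtype_iff.2 hc)
    rw [trB_symm_trB] at h1
    have h2 : g.range.subtype.comp e.toMonoidHom = g := by
      ext k
      rfl
    rwa [h2] at h1
  have hcB : IndAlong M N.subtype c B := by
    have h1 := (indAlong_subtype_iff.2 hb').comp h
    have h2 : f.comp K.subtype = N.subtype.comp g := by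
      ext k
      rfl
    rw [h2] at h1
    exact hgc.factor h1
  refine ⟨c, indAlong_subtype_iff.1 hcB, ?_⟩
  intro π hπ hker
  have hcop : ∀ (X : Type u) [Group X] [Finite X], ¬ p ∣ Nat.card (piCore {q | q ∉ π} X) := by
    intro X _ _ hd
    exact H32Cores.piCore_primes {q | q ∉ π} X p hM.1 hd hπ
  have h5 := (normal_le_blockKer_iff hM hginj hgc (hcop N)).1 hker
  rw [normal_le_blockKer_iff hM K.subtype_injective (indAlong_subtype_iff.2 hb') (hcop A)]
  intro k hk
  apply h5
  -- the image of `O_{π'}(A) ∩ K`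
  set W : Subgroup A := piCore {q | q ∉ π} A with hW
  set V : Subgroup N := (W.subgroupOf K).map g with hV
  have hWQ : W ⊓ Q = ⊥ := by
    apply PiCoreOf.inf_eq_bot_of_isPi (π := {q | q ∉ π}) (π' := π)
    · rw [Set.disjoint_left]
      intro a ha ha'
      exact ha ha'
    · exact H32Cores.piCore_primes {q | q ∉ π} A
    · exact PiCoreOf.isPi_of_isPGroup hM.1 hπ hQp
  have hWc : ∀ w : A, w ∈ W → w ∈ K → w ∈ Subgroup.centralizer (Q : Set A) := by
    intro w hw hwK
    rw [Subgroup.mem_centralizer_iff]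
    intro q hq
    have h6 : w * q * w⁻¹ * q⁻¹ ∈ W ⊓ Q := by
      refine ⟨?_, ?_⟩
      · have : q * w⁻¹ * q⁻¹ ∈ W := (inferInstance : W.Normal).conj_mem _ (W.inv_mem hw) q
        have h7 := W.mul_mem hw this
        simpa [mul_assoc] using h7
      · exact Q.mul_mem ((Subgroup.mem_normalizer_iff.1 hwK q).1 hq) (Q.inv_mem hq)
    rw [hWQ, Subgroup.mem_bot] at h6
    have h7 : w * q = q * w := by
      have := mul_inv_eq_one.1 h6
      have h8 := mul_inv_eq_iff_eq_mul.1 this
      exact h8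
    exact h7.symm
  have hVmem : g k ∈ V := ⟨k, by rw [SetLike.mem_coe, Subgroup.mem_subgroupOf]; exact hk, rfl⟩
  have hVC : V ≤ Subgroup.centralizer (P₂ : Set N) := by
    rintro _ ⟨w, hw, rfl⟩
    rw [SetLike.mem_coe, Subgroup.mem_subgroupOf] at hw
    have h6 := hWc _ hw w.2
    rw [Subgroup.mem_centralizer_iff] at h6 ⊢
    intro y hy
    rw [SetLike.mem_coe, hP₂, Subgroup.mem_subgroupOf] at hy
    obtain ⟨q, hq, hqy⟩ := hy
    apply Subtype.ext
    show (y : G) * f (w : A) = f (w : A) * (y : G)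
    rw [← hqy, ← map_mul, ← map_mul, h6 q hq]
  have hVsub : V.IsSubnormal := by
    refine Subgroup.IsSubnormal.step _ (Subgroup.centralizer (P₂ : Set N)) hVC
      (Subgroup.Normal.isSubnormal ?_) ?_
    · infer_instance
    · constructor
      intro v hv x
      rw [Subgroup.mem_subgroupOf] at hv ⊢
      obtain ⟨a, ha, hax⟩ := hcent _ x.2
      obtain ⟨w, hw, hwv⟩ := hv
      rw [SetLike.mem_coe, Subgroup.mem_subgroupOf] at hw
      refine ⟨⟨a, hCK ha⟩ * w * ⟨a, hCK ha⟩⁻¹, ?_, ?_⟩
      · rw [SetLike.mem_coe, Subgroup.mem_subgroupOf]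
        exact (inferInstance : W.Normal).conj_mem _ hw a
      · rw [map_mul, map_mul, map_inv]
        have h6 : g ⟨a, hCK ha⟩ = (x : N) := Subtype.ext hax
        rw [h6, hwv]
        rfl
  refine H32Cores.subnormal_le_piCore {q | q ∉ π} hVsub ?_ hVmem
  intro q hq hd
  have h6 : Nat.card V ∣ Nat.card W := by
    have h7 : Nat.card V = Nat.card (W.subgroupOf K) := Subgroup.card_map_of_injective hginj
    rw [h7]
    have h8 : Nat.card ((W.subgroupOf K).map K.subtype) = Nat.card (W.subgroupOf K) :=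
      Subgroup.card_map_of_injective K.subtype_injective
    rw [← h8]
    apply Subgroup.card_dvd_of_le
    rw [Subgroup.subgroupOf_map_subtype]
    exact inf_le_left
  exact H32Cores.piCore_primes {q | q ∉ π} A q hq (hd.trans h6)

end local_step

end Cfsg.Agent.Lib.BlockAlong
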