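import Cfsg.Agent.Lib.BlockVal
import Cfsg.Agent.Lib.PermLemma

/-!
# The number of blocks of a group with a normal Sylow subgroup
-/

set_option autoImplicit false
set_option linter.all false

namespace Cfsg.Agent.Lib.BlockCountH16

open Cfsg Cfsg.Agent.Lib.BlockRing Cfsg.Agent.Lib.BlockGA Cfsg.Agent.Lib.BlockIdem
open Cfsg.Agent.Lib.CharBasic Cfsg.Agent.Lib.BlockNormP Cfsg.Agent.Lib.BlockCover Cfsg.Agent.Lib.BlockPPrime
open Cfsg.Agent.Lib.Clifford
open scoped ComplexConjugate

universe u

section act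

variable {G : Type u} [Group G] (K : Subgroup G) [hK : K.Normal]

/-- conjugation action on the irreducible characters of a normal subgroup -/
@[reducible] noncomputable def irrAction : MulAction G (IrrCharacter K) where
  smul g θ := ⟨cj K g⁻¹ θ, isIrrCharacter_cj θ.2 g⁻¹⟩
  one_smul θ := Subtype.ext (by
    show cj K 1⁻¹ (θ : K → ℂ) = θ
    rw [inv_one, cj_one])
  mul_smul g h θ := Subtype.ext (by
    show cj K (g * h)⁻¹ (θ : K → ℂ) = cj K g⁻¹ (cj K h⁻¹ (θ : K → ℂ))
    rw [cj_cj, mul_inv_rev])

/-- conjugation action on the conjugacy classes of a normal subgroup -/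
@[reducible] noncomputable def classAction : MulAction G (ConjClasses K) where
  smul g C := ConjClasses.map (MulAut.conjNormal g : K ≃* K).toMonoidHom C
  one_smul C := by
    obtain ⟨x, rfl⟩ := ConjClasses.mk_surjective C
    show ConjClasses.mk (MulAut.conjNormal (1 : G) x) = ConjClasses.mk x
    simp
  mul_smul g h C := by
    obtain ⟨x, rfl⟩ := ConjClasses.mk_surjective C
    show ConjClasses.mk (MulAut.conjNormal (g * h) x) = ConjClasses.mk (MulAut.conjNormal g (MulAut.conjNormal h x))
    rw [map_mul]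
    rfl

variable [Finite G]

theorem card_orbits_eq :
    letI := irrAction K
    letI := classAction K
    Nat.card (MulAction.orbitRel.Quotient G (IrrCharacter K)) =
      Nat.card (MulAction.orbitRel.Quotient G (ConjClasses K)) := by
  classical
  letI := irrAction K
  letI := classAction K
  haveI := Fintype.ofFinite G
  haveI := Fintype.ofFinite (ConjClasses K)
  haveI := Fintype.ofFinite (IrrCharacter K)
  haveI := Fintype.ofFinite (MulAction.orbitRel.Quotient G (IrrCharacter K))
  haveI := Fintype.ofFinite (MulAction.orbitRel.Quotient G (ConjClasses K))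
  have h1 := MulAction.sum_card_fixedBy_eq_card_orbits_mul_card_group G (IrrCharacter K)
  have h2 := MulAction.sum_card_fixedBy_eq_card_orbits_mul_card_group G (ConjClasses K)
  have h3 : ∀ g : G, Fintype.card (MulAction.fixedBy (IrrCharacter K) g) =
      Fintype.card (MulAction.fixedBy (ConjClasses K) g) := by
    intro g
    rw [← Nat.card_eq_fintype_card, ← Nat.card_eq_fintype_card]
    apply PermLemma.brauer_permutation_lemma (G := K) (A := G)
    intro a χ x x' hx
    show (χ : K → ℂ) ⟨a⁻¹ * x' * a⁻¹⁻¹, _⟩ = (χ : K → ℂ) x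
    have h4 : IsConj x' (MulAut.conjNormal a x) := ConjClasses.mk_eq_mk_iff_isConj.1 hx
    apply χ.2.isClassFunction.conj_eq
    obtain ⟨c, hc⟩ := isConj_iff.1 h4
    rw [isConj_iff]
    refine ⟨(MulAut.conjNormal a⁻¹ c : K), ?_⟩
    apply Subtype.ext
    have h5 := congrArg (fun t : K => a⁻¹ * (t : G) * a) hc
    simp only [MulAut.conjNormal_apply, Subgroup.coe_mul, InvMemClass.coe_inv] at h5 ⊢
    calc a⁻¹ * (c : G) * a⁻¹⁻¹ * (a⁻¹ * (x' : G) * a⁻¹⁻¹) * (a⁻¹ * (c : G) * a⁻¹⁻¹)⁻¹
        = a⁻¹ * ((c : G) * x' * (c : G)⁻¹) * a := by group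
      _ = a⁻¹ * (a * x * a⁻¹) * a := h5
      _ = x := by group
  rw [Finset.sum_congr rfl fun g _ => h3 g, h2] at h1
  have h4 : 0 < Fintype.card G := Fintype.card_pos
  rw [Nat.card_eq_fintype_card, Nat.card_eq_fintype_card]
  exact (Nat.eq_of_mul_eq_mul_right h4 h1).symm

/-- orbits on classes of `K` correspond to the classes of `G` inside `K` -/
theorem card_orbits_classes :
    letI := classAction K
    Nat.card (MulAction.orbitRel.Quotient G (ConjClasses K)) =
      Nat.card {C : ConjClasses G // ∀ g : G, ConjClasses.mk g = C → g ∈ K} := by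
  classical
  letI := classAction K
  let f : ConjClasses K → {C : ConjClasses G // ∀ g : G, ConjClasses.mk g = C → g ∈ K} := fun C =>
    ⟨ConjClasses.map K.subtype C, by
      intro g hg
      obtain ⟨x, rfl⟩ := ConjClasses.mk_surjective C
      have h1 : IsConj g (x : G) := ConjClasses.mk_eq_mk_iff_isConj.1 hg
      obtain ⟨c, hc⟩ := isConj_iff.1 h1
      have h2 := hK.conj_mem (x : G) x.2 c⁻¹
      rw [← hc] at h2
      simpa [mul_assoc] using h2⟩
  have hf : ∀ C D : ConjClasses K, f C = f D ↔ MulAction.orbitRel G (ConjClasses K) C D := by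
    intro C D
    obtain ⟨x, rfl⟩ := ConjClasses.mk_surjective C
    obtain ⟨y, rfl⟩ := ConjClasses.mk_surjective D
    rw [MulAction.orbitRel_apply, MulAction.mem_orbit_iff]
    constructor
    · intro h
      have h1 : IsConj (x : G) (y : G) := ConjClasses.mk_eq_mk_iff_isConj.1 (congrArg Subtype.val h)
      obtain ⟨c, hc⟩ := isConj_iff.1 h1.symm
      refine ⟨c, ?_⟩
      show ConjClasses.mk (MulAut.conjNormal c y) = ConjClasses.mk x
      congr 1
      apply Subtype.ext
      rw [MulAut.conjNormal_apply]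
      exact hc
    · rintro ⟨c, hc⟩
      apply Subtype.ext
      show ConjClasses.mk (x : G) = ConjClasses.mk (y : G)
      rw [ConjClasses.mk_eq_mk_iff_isConj]
      have h1 : IsConj (MulAut.conjNormal c y) x := ConjClasses.mk_eq_mk_iff_isConj.1 hc
      obtain ⟨d, hd⟩ := isConj_iff.1 h1
      apply IsConj.symm
      rw [isConj_iff]
      refine ⟨(d : G) * c, ?_⟩
      have h2 := congrArg Subtype.val hd
      simp only [MulAut.conjNormal_apply, Subgroup.coe_mul, InvMemClass.coe_inv] at h2
      rw [← h2]; group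
  apply Nat.card_congr
  refine Equiv.ofBijective (Quotient.lift f fun a b h => (hf a b).2 h) ⟨?_, ?_⟩
  · intro a b
    induction a using Quotient.inductionOn
    induction b using Quotient.inductionOn
    intro h
    exact Quotient.sound ((hf _ _).1 h)
  · rintro ⟨C, hC⟩
    obtain ⟨x, rfl⟩ := ConjClasses.mk_surjective C
    exact ⟨Quotient.mk _ (ConjClasses.mk ⟨x, hC x rfl⟩), rfl⟩

end act

variable {G : Type u} [Group G] [Finite G] {p : ℕ} {M : Ideal AlgInt}

/-- the `p`-regular elements centralizing a normal Sylow subgroup form a normal subgroup -/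
theorem exists_regular_subgroup (hp : p.Prime) {P : Subgroup G} [hPn : P.Normal] (hP : IsPGroup p P)
    (hPi : ¬ p ∣ P.index) : ∃ K : Subgroup G, K.Normal ∧ (∀ x, x ∈ K ↔ (¬ p ∣ orderOf x ∧
      x ∈ Subgroup.centralizer (P : Set G))) ∧ ¬ p ∣ Nat.card K := by
  haveI : Fact p.Prime := ⟨hp⟩
  set C := Subgroup.centralizer (P : Set G) with hC
  have hCn : C.Normal := inferInstance
  obtain ⟨k, hk⟩ := (IsPGroup.iff_card.1 hP)
  have hZp : IsPGroup p (P.subgroupOf C) := hP.comap_subtype
  obtain ⟨k', hk'⟩ := IsPGroup.iff_card.1 hZp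
  have hidx : ¬ p ∣ (P.subgroupOf C).index := by
    intro h
    apply hPi
    have h1 : (P.subgroupOf C).index ∣ P.index := Subgroup.relIndex_dvd_index_of_normal P C
    exact h.trans h1
  have hcop : Nat.Coprime (Nat.card (P.subgroupOf C)) (P.subgroupOf C).index := by
    rw [hk']
    exact Nat.Coprime.pow_left k' ((Nat.Prime.coprime_iff_not_dvd hp).2 hidx)
  obtain ⟨H, hH⟩ := Subgroup.exists_right_complement'_of_coprime hcop
  have hHcard : Nat.card H = (P.subgroupOf C).index := (hH.symm.index_eq_card).symm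
  have hmem : ∀ x, x ∈ H.map C.subtype ↔ (¬ p ∣ orderOf x ∧ x ∈ C) := by
    intro x
    constructor
    · rintro ⟨h, hh, rfl⟩
      refine ⟨?_, h.2⟩
      intro hd
      apply hidx
      rw [← hHcard]
      refine hd.trans ?_
      have h1 : orderOf (⟨h, hh⟩ : H) ∣ Nat.card H := orderOf_dvd_natCard _
      rw [Subgroup.orderOf_mk] at h1
      show orderOf ((h : C) : G) ∣ _
      rw [Subgroup.orderOf_coe]
      exact h1
    · rintro ⟨hx, hxC⟩
      obtain ⟨⟨z, h⟩, hzh⟩ := hH.surjective ⟨x, hxC⟩
      have hzh' : ((z : C) : G) * ((h : C) : G) = x := congrArg Subtype.val hzh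
      have hzP : ((z : C) : G) ∈ P := by
        have h0 : (z : C) ∈ P.subgroupOf C := z.2
        rwa [Subgroup.mem_subgroupOf] at h0
      have hcomm : Commute ((z : C) : G) ((h : C) : G) :=
        Subgroup.mem_centralizer_iff.1 (h : C).2 _ hzP
      obtain ⟨m, hm⟩ := (IsPGroup.iff_orderOf.1 hP) ⟨_, hzP⟩
      rw [Subgroup.orderOf_mk] at hm
      have hho : ¬ p ∣ orderOf ((h : C) : G) := by
        intro hd
        apply hidx
        rw [← hHcard]
        refine hd.trans ?_
        have h1 : orderOf h ∣ Nat.card H := orderOf_dvd_natCard _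
        rwa [← Subgroup.orderOf_coe, ← Subgroup.orderOf_coe] at h1
      have h2 := BlockSecond.eq_of_comm_of_orders hp hcomm (Commute.one_left x) (by rw [hzh', one_mul]) hm
        (k' := 0) (by simp) hho hx
      exact ⟨h, h.2, h2.2⟩
  refine ⟨H.map C.subtype, ⟨fun x hx g => ?_⟩, hmem, ?_⟩
  · rw [hmem] at hx ⊢
    refine ⟨?_, hCn.conj_mem x hx.2 g⟩
    rw [show orderOf (g * x * g⁻¹) = orderOf x from MulEquiv.orderOf_eq (MulAut.conj g) x]
    exact hx.1
  · rw [Subgroup.card_map_of_injective C.subtype_injective, hHcard]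
    exact hidx

/-- two characters above the same character of `K` are in the same block. -/
theorem sameBlock_of_common (hM : IsPModular p M) {P : Subgroup G} [hPn : P.Normal] (hP : IsPGroup p P)
    {K : Subgroup G} [K.Normal] [Fintype K]
    (hK : ∀ x, ¬ p ∣ orderOf x → x ∈ Subgroup.centralizer (P : Set G) → x ∈ K)
    {χ ψ : IrrCharacter G} {θ : IrrCharacter K}
    (h1 : classInner (fun n : K => (χ : G → ℂ) n) (θ : K → ℂ) ≠ 0)
    (h2 : classInner (fun n : K => (ψ : G → ℂ) n) (θ : K → ℂ) ≠ 0) :
    SameBlock M (χ : G → ℂ) (ψ : G → ℂ) := by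
  classical
  haveI := isPrime hM
  haveI := Fintype.ofFinite (ConjClasses G)
  set B := blockOf M (χ : G → ℂ) with hBdef
  have hB : IsPBlock M B := isPBlock_blockOf χ
  have h3 : MemLocalIdeal M (omega (χ : G → ℂ) (eB B) - omega (ψ : G → ℂ) (eB B)) := by
    rw [omega_eq_sum χ.2.isClassFunction (eB_mem_center B), omega_eq_sum ψ.2.isClassFunction (eB_mem_center B),
      ← Finset.sum_sub_distrib]
    refine idl_sum fun C _ => ?_
    set c := Quotient.out C
    rw [← mul_sub]
    by_cases hc : p ∣ orderOf c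
    · rw [coeff_eB, Cfsg.Agent.Lib.BlockOsima.blockCoeff_eq_zero hM hB hc, zero_mul]
      exact idl_zero
    · apply idl_mul_left (locA_eB hB c)
      by_cases hcC : c ∈ Subgroup.centralizer (P : Set G)
      · have hcK := hK c hc hcC
        rw [centralChar_eq_inducedCentralChar h1 hcK, centralChar_eq_inducedCentralChar h2 hcK, sub_self]
        exact idl_zero
      · exact idl_sub (idl_centralChar_of_not_mem hM hP χ hcC) (idl_centralChar_of_not_mem hM hP ψ hcC)
  rw [omega_eB_mem (mem_blockOf_self χ)] at h3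
  have h5 : ψ ∈ B := by
    by_contra h
    rw [omega_eB_not_mem h, sub_zero] at h3
    exact one_not_idl h3
  exact h5

/-- the number of blocks of a group with a normal Sylow `p`-subgroup `P` is the number of classes of
`p`-regular elements centralizing `P`. -/
theorem card_blocks_normal_sylow (hM : IsPModular p M) {P : Subgroup G} [hPn : P.Normal] (hP : IsPGroup p P)
    (hPi : ¬ p ∣ P.index) :
    Nat.card {B : Set (IrrCharacter G) // IsPBlock M B} =
      Nat.card {C : ConjClasses G // ∀ g : G, ConjClasses.mk g = C →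
        ¬ p ∣ orderOf g ∧ g ∈ Subgroup.centralizer (P : Set G)} := by
  classical
  haveI := isPrime hM
  haveI := Fintype.ofFinite G
  obtain ⟨K, hKn, hKmem, hKcard⟩ := exists_regular_subgroup hM.1 hP hPi
  haveI := Fintype.ofFinite K
  have hK : ∀ x, ¬ p ∣ orderOf x → x ∈ Subgroup.centralizer (P : Set G) → x ∈ K :=
    fun x h1 h2 => (hKmem x).2 ⟨h1, h2⟩
  letI := irrAction K
  choose χ hχ using fun θ : IrrCharacter K => exists_above (G := G) θ
  let F : IrrCharacter K → {B : Set (IrrCharacter G) // IsPBlock M B} := fun θ =>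
    ⟨blockOf M (χ θ : G → ℂ), isPBlock_blockOf (χ θ)⟩
  have hF : ∀ θ θ' : IrrCharacter K, F θ = F θ' ↔ MulAction.orbitRel G (IrrCharacter K) θ θ' := by
    intro θ θ'
    rw [MulAction.orbitRel_apply, MulAction.mem_orbit_iff]
    constructor
    · intro h
      have h1 : SameBlock M (χ θ : G → ℂ) (χ θ' : G → ℂ) := by
        have h2 : χ θ' ∈ blockOf M (χ θ : G → ℂ) := by
          rw [show blockOf M (χ θ : G → ℂ) = blockOf M (χ θ' : G → ℂ) from congrArg Subtype.val h]
          exact mem_blockOf_self _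
        exact h2
      have h2 := constituent_of_sameBlock hM hKcard h1 (hχ θ)
      obtain ⟨g, hg⟩ := exists_cj_eq (χ θ').2 θ'.2 θ.2 (hχ θ') h2
      refine ⟨g⁻¹, Subtype.ext ?_⟩
      show cj K g⁻¹⁻¹ (θ' : K → ℂ) = θ
      rw [inv_inv, hg]
    · rintro ⟨g, hg⟩
      have h1 : (θ : K → ℂ) = cj K g⁻¹ (θ' : K → ℂ) := (congrArg Subtype.val hg).symm
      have h2 : classInner (fun x : K => (χ θ' : G → ℂ) x) (θ : K → ℂ) ≠ 0 := by
        rw [h1, classInner_cj_res (χ θ').2.isClassFunction]
        exact hχ θ'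
      have h3 := sameBlock_of_common hM hP hK (hχ θ) h2
      exact Subtype.ext (blockOf_eq h3)
  have hsurj : Function.Surjective F := by
    rintro ⟨B, hB⟩
    obtain ⟨ψ, hψ⟩ := isPBlock_nonempty hB
    obtain ⟨θ, hθ⟩ := exists_constituent_res K ψ
    refine ⟨θ, Subtype.ext ?_⟩
    have h1 := sameBlock_of_common hM hP hK (hχ θ) hθ
    show blockOf M (χ θ : G → ℂ) = B
    rw [blockOf_eq h1]
    exact (eq_blockOf hB hψ).symm
  have h1 : Nat.card {B : Set (IrrCharacter G) // IsPBlock M B} =
      Nat.card (MulAction.orbitRel.Quotient G (IrrCharacter K)) := by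
    symm
    apply Nat.card_congr
    refine Equiv.ofBijective (Quotient.lift F fun a b h => (hF a b).2 h) ⟨?_, ?_⟩
    · intro a b
      induction a using Quotient.inductionOn
      induction b using Quotient.inductionOn
      intro h
      exact Quotient.sound ((hF _ _).1 h)
    · intro B
      obtain ⟨θ, hθ⟩ := hsurj B
      exact ⟨Quotient.mk _ θ, hθ⟩
  rw [h1, card_orbits_eq K, card_orbits_classes K]
  apply Nat.card_congr
  apply Equiv.subtypeEquivRight
  intro C
  simp only [hKmem]

end Cfsg.Agent.Lib.BlockCountH16
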