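import Cfsg.Agent.Lib.H16Reynolds
import Cfsg.Agent.Lib.BlockExtFM

/-!
# The extended first main theorem: the inertial index criterion (helper74)
-/

set_option autoImplicit false
set_option linter.unusedSectionVars false

namespace Cfsg.Agent.Lib.BlockExtStab

open Cfsg Cfsg.Agent.Lib.BlockRing Cfsg.Agent.Lib.BlockGA Cfsg.Agent.Lib.BlockIdem Cfsg.Agent.Lib.BlockDefect
  Cfsg.Agent.Lib.BlockDeg Cfsg.Agent.Lib.PPart Cfsg.Agent.Lib.IndFun
  Cfsg.Agent.Lib.BlockPC Cfsg.Agent.Lib.BlockCover Cfsg.Agent.Lib.Clifford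
  Cfsg.Agent.Lib.CliffordCorr Cfsg.Agent.Lib.CharBasic Cfsg.Agent.Lib.H16Reynolds
open Cfsg.Agent.Lib.BlockTransfer Cfsg.Agent.Lib.BlockFirst Cfsg.Agent.Lib.BlockHom
open scoped ComplexConjugate

universe u
variable {G : Type u} [Group G] [Finite G] {p : ℕ} {M : Ideal AlgInt}

/-- every character over a member of `b` is in the induced block, if `C_G(P) ≤ L` -/
theorem over_mem (hM : IsPModular p M) {P L : Subgroup G} [hPn : P.Normal] [hLn : L.Normal]
    [Fintype L] (hP : IsPGroup p P) (hCL : Subgroup.centralizer (P : Set G) ≤ L)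
    {B : Set (IrrCharacter G)} {b : Set (IrrCharacter L)} (hind : IsInducedBlock M L b B)
    {χ : IrrCharacter G} {θ : IrrCharacter L} (hθ : θ ∈ b)
    (h : classInner (fun l : L => (χ : G → ℂ) l) (θ : L → ℂ) ≠ 0) : χ ∈ B := by
  have := isPrime hM
  obtain ⟨χ₀, hχ₀⟩ := isPBlock_nonempty hind.2.1
  apply mem_of_sameBlock hind.2.1 hχ₀
  intro g
  by_cases hg : g ∈ Subgroup.centralizer (P : Set G)
  · have h1 := hind.2.2 θ hθ χ₀ hχ₀ g
    rw [centralChar_eq_inducedCentralChar h (hCL hg)]
    exact idl_sub_symm h1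
  · exact idl_sub (BlockNormP.idl_centralChar_of_not_mem hM hP χ₀ hg)
      (BlockNormP.idl_centralChar_of_not_mem hM hP χ hg)

/-- the criterion in a group with `P` normal -/
theorem core [Fintype G] (hM : IsPModular p M) {P L : Subgroup G} [hPn : P.Normal] [hLn : L.Normal]
    [Fintype L] (hPL : P ≤ L)
    (hsup : P.subgroupOf L ⊔ Subgroup.centralizer ((P.subgroupOf L : Subgroup L) : Set L) = ⊤)
    {B : Set (IrrCharacter G)} (hB : IsPBlock M B) {b : Set (IrrCharacter L)} (hb : IsPBlock M b)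
    (hbD : IsDefectGroup p M b (P.subgroupOf L))
    (hover : ∀ χ : IrrCharacter G, ∀ θ ∈ b,
      classInner (fun l : L => (χ : G → ℂ) l) (θ : L → ℂ) ≠ 0 → χ ∈ B)
    (hunder : ∀ χ ∈ B, ∃ θ ∈ b, classInner (fun l : L => (χ : G → ℂ) l) (θ : L → ℂ) ≠ 0)
    {T : Subgroup G} (hT : ∀ g : G, g ∈ T ↔ ∀ θ ∈ b, ∀ θ' : IrrCharacter L,
      (θ' : L → ℂ) = cj L g⁻¹ (θ : L → ℂ) → θ' ∈ b) :
    IsDefectGroup p M B P ↔ ¬ p ∣ L.relIndex T := by
  classical
  have := isPrime hM
  have : Fact p.Prime := ⟨hM.1⟩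
  have hP' : IsPGroup p (P.subgroupOf L) := defectGroup_isPGroup hbD
  have hPp : IsPGroup p P := hP'.of_equiv (Subgroup.subgroupOfEquivOfLe hPL)
  obtain ⟨θ, hθ, hθP⟩ := BlockNormP.exists_trivial hM hP' (unionOfBlocks_of_isPBlock hb)
    (isPBlock_nonempty hb)
  have hθdeg := degree_eq hM hb hbD hθ hθP
  have hPidx : P.index.factorization p =
      (P.subgroupOf L).index.factorization p + L.index.factorization p := by
    have h1 : P.index = (P.subgroupOf L).index * L.index := (Subgroup.relIndex_mul_index hPL).symm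
    rw [h1, Nat.factorization_mul Subgroup.index_ne_zero_of_finite Subgroup.index_ne_zero_of_finite,
      Finsupp.add_apply]
  -- uniqueness of `θ`
  have huniq : ∀ g : G, ∀ η ∈ b, cj L g (η : L → ℂ) = η → cj L g (θ : L → ℂ) = θ := by
    intro g η hη hg
    have h1 := sameBlock_cj (N := L) (sameBlock_of_mem hb hη hθ) g
    rw [hg] at h1
    have h2 : (⟨cj L g θ, isIrrCharacter_cj θ.2 g⟩ : IrrCharacter L) ∈ b := mem_of_sameBlock hb hη h1
    have h3 := trivial_unique hM hP' hsup hb hbD hθ hθP h2 (by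
      intro x hx
      show cj L g (θ : L → ℂ) x = cj L g (θ : L → ℂ) 1
      rw [cj_apply, cj_apply]
      rw [hθP ⟨g * x * g⁻¹, _⟩ (hPn.conj_mem (x : G) hx g)]
      have h5 : (⟨g * ((1 : L) : G) * g⁻¹, hLn.conj_mem ((1 : L) : G) (1 : L).2 g⟩ : L) = 1 := by
        apply Subtype.ext
        show g * (1 : G) * g⁻¹ = 1
        group
      rw [h5])
    exact congrArg Subtype.val h3
  have hle : ∀ η ∈ b, inertia L (η : L → ℂ) ≤ inertia L (θ : L → ℂ) := by
    intro η hη g hg
    rw [mem_inertia] at hg ⊢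
    exact huniq g η hη hg
  -- `T` is the inertia group of `θ`
  have hTI : T = inertia L (θ : L → ℂ) := by
    ext g
    rw [hT]
    constructor
    · intro h
      have h2 : (⟨cj L g⁻¹ θ, isIrrCharacter_cj θ.2 g⁻¹⟩ : IrrCharacter L) ∈ b := h θ hθ _ rfl
      have h3 := trivial_unique hM hP' hsup hb hbD hθ hθP h2 (by
        intro x hx
        show cj L g⁻¹ (θ : L → ℂ) x = cj L g⁻¹ (θ : L → ℂ) 1
        rw [cj_apply, cj_apply]
        rw [hθP ⟨g⁻¹ * x * g⁻¹⁻¹, _⟩ (hPn.conj_mem (x : G) hx g⁻¹)]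
        have h5 : (⟨g⁻¹ * ((1 : L) : G) * g⁻¹⁻¹, hLn.conj_mem ((1 : L) : G) (1 : L).2 g⁻¹⟩ : L) = 1 := by
          apply Subtype.ext
          show g⁻¹ * (1 : G) * g⁻¹⁻¹ = 1
          group
        rw [h5])
      have h4 : cj L g⁻¹ (θ : L → ℂ) = θ := congrArg Subtype.val h3
      have h5 : g⁻¹ ∈ inertia L (θ : L → ℂ) := h4
      exact (inv_mem_iff).mp h5
    · intro hg η hη η' hη'
      have hg' : cj L g⁻¹ (θ : L → ℂ) = θ := (inv_mem_iff (H := inertia L (θ : L → ℂ))).mpr hg
      have h1 := sameBlock_cj (N := L) (sameBlock_of_mem hb hθ hη) g⁻¹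
      rw [hg', ← hη'] at h1
      exact mem_of_sameBlock hb hθ h1
  have hNI : L ≤ inertia L (θ : L → ℂ) := le_inertia θ.2.isClassFunction
  have hI0 : (inertia L (θ : L → ℂ)).index ≠ 0 := Subgroup.index_ne_zero_of_finite
  have hr0 : L.relIndex (inertia L (θ : L → ℂ)) ≠ 0 :=
    (Subgroup.index_ne_zero_of_finite : (L.subgroupOf (inertia L (θ : L → ℂ))).index ≠ 0)
  have hfac : L.index.factorization p = (L.relIndex (inertia L (θ : L → ℂ))).factorization p +
      (inertia L (θ : L → ℂ)).index.factorization p := by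
    rw [← Subgroup.relIndex_mul_index hNI, Nat.factorization_mul hr0 hI0, Finsupp.add_apply]
  have hdvd : p ∣ L.relIndex T ↔ (L.relIndex (inertia L (θ : L → ℂ))).factorization p ≠ 0 := by
    rw [hTI]
    constructor
    · intro h
      exact (hM.1.factorization_pos_of_dvd hr0 h).ne'
    · intro h
      exact Nat.dvd_of_factorization_pos h
  rw [hdvd, not_not]
  constructor
  · intro hD
    have h1 : L.index.factorization p = (inertia L (θ : L → ℂ)).index.factorization p := by
      apply not_dvd_inertia hM.1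
      intro χ hχ
      have h2 := index_le_degree hM hB hD (hover χ θ hθ hχ)
      rw [hPidx, ← hθdeg, add_comm] at h2
      exact h2
    omega
  · intro h0
    obtain ⟨D, hD⟩ := exists_defectGroup hM hB
    have hPD : P ≤ D := BlockNormP.le_defectGroup hM hPp hB hD
    obtain ⟨χ, hχ, hχ0⟩ := exists_vmin (p := p) (isPBlock_nonempty hB)
    obtain ⟨η, hη, hη1⟩ := hunder χ hχ
    obtain ⟨n, hn0, -, hn⟩ := degree_nat χ η hη1
    have hJ0 : (inertia L (η : L → ℂ)).index ≠ 0 := Subgroup.index_ne_zero_of_finite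
    have h2 : (inertia L (θ : L → ℂ)).index.factorization p ≤
        (inertia L (η : L → ℂ)).index.factorization p :=
      (Nat.factorization_le_iff_dvd Subgroup.index_ne_zero_of_finite hJ0).2
        (Subgroup.index_dvd_of_le (hle η hη)) p
    have h3 := index_le_degree hM hb hbD hη
    have h4 := hn
    have h5 : P.index.factorization p ≤ (charDegree (χ : G → ℂ)).factorization p := by
      rw [hn, Nat.factorization_mul hn0 (mul_ne_zero hJ0 (charDegree_spec η.2).2),
        Nat.factorization_mul hJ0 (charDegree_spec η.2).2, Finsupp.add_apply, Finsupp.add_apply, hPidx]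
      omega
    have hcardD := defectGroup_card hM hB hD
    have h6 : D.index.factorization p = (charDegree (χ : G → ℂ)).factorization p := by
      apply le_antisymm (index_le_degree hM hB hD hχ)
      have hDi : D.index ≠ 0 := Subgroup.index_ne_zero_of_finite
      have h5 := congrArg (fun n => n.factorization p) D.card_mul_index
      rw [Nat.factorization_mul Nat.card_pos.ne' hDi, Finsupp.add_apply, hcardD,
        hM.1.factorization_pow, Finsupp.single_eq_same, BlockDefect.blockDefect_eq] at h5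
      have h6 := vmin_le_fact hM hB
      have h7 : vdeg p χ = vmin p B := hχ0
      have h8 : vdeg p χ = (charDegree (χ : G → ℂ)).factorization p := rfl
      omega
    have h7 : Nat.card D ≤ Nat.card P := by
      obtain ⟨k, hk⟩ := IsPGroup.iff_card.1 hPp
      rw [hcardD, hk]
      apply Nat.pow_le_pow_right hM.1.pos
      have hPi : P.index ≠ 0 := Subgroup.index_ne_zero_of_finite
      have hDi : D.index ≠ 0 := Subgroup.index_ne_zero_of_finite
      have h8 := congrArg (fun n => n.factorization p) P.card_mul_index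
      have h9 := congrArg (fun n => n.factorization p) D.card_mul_index
      rw [Nat.factorization_mul Nat.card_pos.ne' hPi, Finsupp.add_apply, hk,
        hM.1.factorization_pow, Finsupp.single_eq_same] at h8
      rw [Nat.factorization_mul Nat.card_pos.ne' hDi, Finsupp.add_apply, hcardD,
        hM.1.factorization_pow, Finsupp.single_eq_same] at h9
      omega
    have h8 : P = D := Subgroup.eq_of_le_of_card_ge hPD h7
    rw [h8]
    exact hD

/-- **S4437** -/
theorem main (hM : IsPModular p M) {P L : Subgroup G} (hPp : IsPGroup p P)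
    (hL : L = P ⊔ Subgroup.centralizer (P : Set G))
    {b : Set (IrrCharacter L)} (hb : IsPBlock M b)
    (hbP : IsDefectGroup p M b (P.subgroupOf L))
    {B : Set (IrrCharacter G)} (hind : IsInducedBlock M L b B) {T : Subgroup G}
    (hT : ∀ g : G, g ∈ T ↔ (g ∈ Subgroup.normalizer (P : Set G) ∧ ∀ θ ∈ b,
      ∀ θ' : IrrCharacter L, (∀ h h' : L, (h' : G) = g * h * g⁻¹ →
          (θ' : L → ℂ) h' = (θ : L → ℂ) h) → θ' ∈ b)) :
    IsDefectGroup p M B P ↔ ¬ p ∣ L.relIndex T := by
  classical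
  have := isPrime hM
  have : Fact p.Prime := ⟨hM.1⟩
  set N := Subgroup.normalizer (P : Set G) with hN
  have hLN : L ≤ N := by rw [hL]; exact BlockExtFM.sup_centralizer_le_normalizer P
  have hPL : P ≤ L := by rw [hL]; exact le_sup_left
  have hCL : Subgroup.centralizer (P : Set G) ≤ L := by rw [hL]; exact le_sup_right
  have hPN : P ≤ N := Subgroup.le_normalizer
  have hCN : Subgroup.centralizer (P : Set G) ≤ N := Subgroup.centralizer_le_normalizer _
  have hTN : T ≤ N := fun g hg => ((hT g).mp hg).1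
  have hnorm : (P.subgroupOf N).Normal := Subgroup.normal_in_normalizer
  have hPp' : IsPGroup p (P.subgroupOf N) :=
    hPp.of_equiv (Subgroup.subgroupOfEquivOfLe hPN).symm
  have h1 : P.subgroupOf N ≤ L.subgroupOf N := by
    intro x hx
    rw [Subgroup.mem_subgroupOf] at hx ⊢
    exact hPL hx
  have h2 : Subgroup.centralizer ((P.subgroupOf N : Subgroup N) : Set N) ≤ L.subgroupOf N := by
    intro x hx
    rw [Subgroup.mem_subgroupOf]
    apply hCL
    rw [Subgroup.mem_centralizer_iff] at hx ⊢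
    intro u hu
    exact congrArg Subtype.val (hx ⟨u, hPN hu⟩ (by rwa [SetLike.mem_coe, Subgroup.mem_subgroupOf]))
  have h3 : L.subgroupOf N ≤ Subgroup.normalizer ((P.subgroupOf N : Subgroup N) : Set N) := by
    rw [Subgroup.normalizer_eq_top]; exact le_top
  obtain ⟨β, hβ⟩ := inducedBlockDefined (G := N) hM hPp' h1 h2 h3
    (isPBlock_tr (e := subE hLN) hb)
  obtain ⟨B', hB'⟩ := inducedBlockDefined (G := G) (P := P) (H := N) hM hPp hPN hCN le_rfl hβ.2.1
  have h4 := isInducedBlock_trans hLN hβ hB'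
  have hBB' : B = B' := BlockInd.induced_unique hind h4
  subst hBB'
  have hred : IsDefectGroup p M B P ↔ IsDefectGroup p M β (P.subgroupOf N) :=
    ⟨fun h => defectGroup_of_induced hM hPN le_rfl hB' h, fun h => first_main_defect hM hPp hB' h⟩
  rw [hred]
  have hLn : (L.subgroupOf N).Normal := by
    constructor
    intro x hx n
    rw [Subgroup.mem_subgroupOf, hL] at hx ⊢
    exact BlockExtFM.conj_mem_sup n.2 hx
  have := Fintype.ofFinite N
  have := Fintype.ofFinite (L.subgroupOf N)
  have hsup : (P.subgroupOf N).subgroupOf (L.subgroupOf N) ⊔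
      Subgroup.centralizer (((P.subgroupOf N).subgroupOf (L.subgroupOf N) :
        Subgroup ↥(L.subgroupOf N)) : Set ↥(L.subgroupOf N)) = ⊤ := by
    rw [eq_top_iff]
    intro x _
    have hx : ((x : N) : G) ∈ L := x.2
    obtain ⟨a, ha, c, hc, hac⟩ : ∃ a ∈ P, ∃ c ∈ Subgroup.centralizer (P : Set G),
        a * c = ((x : N) : G) := by
      have h5 : (x : N) ∈ P.subgroupOf N ⊔ (Subgroup.centralizer (P : Set G)).subgroupOf N := by
        rw [← Subgroup.subgroupOf_sup hPN hCN, Subgroup.mem_subgroupOf, ← hL]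
        exact hx
      obtain ⟨a, ha, c, hc, hac⟩ := Subgroup.mem_sup_of_normal_left.1 h5
      exact ⟨a, ha, c, hc, congrArg Subtype.val hac⟩
    have haN : a ∈ N := hPN ha
    have hcN : c ∈ N := hCN hc
    have h6 : x = ⟨⟨a, haN⟩, hPL ha⟩ * ⟨⟨c, hcN⟩, hCL hc⟩ :=
      Subtype.ext (Subtype.ext hac.symm)
    rw [h6]
    apply Subgroup.mul_mem_sup
    · exact ha
    · rw [Subgroup.mem_centralizer_iff]
      intro y hy
      exact Subtype.ext (Subtype.ext (Subgroup.mem_centralizer_iff.1 hc (((y : N)) : G) hy))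
  have hbD : IsDefectGroup p M (trB (subE hLN) b) ((P.subgroupOf N).subgroupOf (L.subgroupOf N)) := by
    rw [isDefectGroup_tr_iff]
    convert hbP using 1
    ext x
    rw [Subgroup.mem_map]
    constructor
    · rintro ⟨y, hy, rfl⟩
      exact hy
    · intro hx
      exact ⟨⟨⟨x, hLN x.2⟩, x.2⟩, hx, rfl⟩
  have hover : ∀ χ : IrrCharacter N, ∀ θ ∈ trB (subE hLN) b,
      classInner (fun l : L.subgroupOf N => (χ : N → ℂ) l) (θ : L.subgroupOf N → ℂ) ≠ 0 → χ ∈ β :=
    fun χ θ hθ h => over_mem hM hPp' h2 hβ hθ h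
  have hunder : ∀ χ ∈ β, ∃ θ ∈ trB (subE hLN) b,
      classInner (fun l : L.subgroupOf N => (χ : N → ℂ) l) (θ : L.subgroupOf N → ℂ) ≠ 0 :=
    fun χ hχ => covers_all hβ.2.1 (unionOfBlocks_of_isPBlock hβ.1)
      (BlockExtFM.covers_of_induced hβ) hχ
  rw [core hM h1 hsup hβ.2.1 hβ.1 hbD hover hunder (T := T.subgroupOf N)]
  · rw [Subgroup.relIndex_subgroupOf hTN]
  · intro g
    rw [Subgroup.mem_subgroupOf, hT]
    constructor
    · rintro ⟨-, h5⟩ θ hθ θ' hθ'
      rw [mem_trB] at hθ ⊢
      refine h5 _ hθ _ ?_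
      intro h h' hh
      rw [trI_apply, trI_apply, hθ', cj_apply]
      refine congrArg (θ : L.subgroupOf N → ℂ) ?_
      apply Subtype.ext
      apply Subtype.ext
      change ((g : N) : G)⁻¹ * (h' : G) * ((g : N) : G)⁻¹⁻¹ = (h : G)
      rw [hh]
      group
    · intro h5
      refine ⟨g.2, fun θ hθ θ' hθ' => ?_⟩
      have h6 := h5 (trI (subE hLN) θ) (trI_mem_trB.2 hθ) (trI (subE hLN) θ') ?_
      · exact trI_mem_trB.1 h6
      · funext x
        rw [cj_apply, trI_apply, trI_apply]
        apply hθ'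
        change ((x : N) : G) = ((g : N) : G) * (((g : N) : G)⁻¹ * ((x : N) : G) * ((g : N) : G)⁻¹⁻¹) *
          ((g : N) : G)⁻¹
        group

end Cfsg.Agent.Lib.BlockExtStab
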