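import Cfsg.Agent.Lib.BlockGraded

/-!
# The graded nilpotency argument of `BlockGraded`, with a general "good" predicate (helper74)
-/

set_option autoImplicit false
set_option linter.all false

namespace Cfsg.Agent.Lib.BlockGraded4

open Cfsg.Agent.Lib.BrauerMap Cfsg.Agent.Lib.BlockGraded
open scoped Pointwise

universe u v
variable {G : Type u} [Group G] [Finite G] {k : Type v} [Field k]
variable {N : Subgroup G} [hN : N.Normal]

theorem good_list (P : MonoidAlgebra k G → Prop) (hmul : ∀ x y, x ∈ fixAlg k N → y ∈ fixAlg k N → P x → P y → P (x * y))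
    (l : List (MonoidAlgebra k G)) (hl : l ≠ []) (h : ∀ x ∈ l, x ∈ fixAlg k N) (h' : ∀ x ∈ l, P x) : P l.prod := by
  induction l with
  | nil => exact absurd rfl hl
  | cons a l ih =>
    rw [List.prod_cons]
    by_cases h0 : l = []
    · subst h0
      rw [List.prod_nil, mul_one]
      exact h' a List.mem_cons_self
    · exact hmul _ _ (h a List.mem_cons_self) (list_mem l fun x hx => h x (List.mem_cons_of_mem _ hx))
        (h' a List.mem_cons_self) (ih h0 (fun x hx => h x (List.mem_cons_of_mem _ hx))
          fun x hx => h' x (List.mem_cons_of_mem _ hx))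

/-- the graded nilpotency argument: `P` is a multiplicatively closed predicate satisfied by the homogeneous
components of the idempotent `u`, and elements of `Z(k[N])` satisfying `P` act nilpotently on `e`. -/
theorem main_gen {e u : MonoidAlgebra k G} (he : e ∈ ZAlg k N) (P : MonoidAlgebra k G → Prop)
    (hmul : ∀ x y, x ∈ fixAlg k N → y ∈ fixAlg k N → P x → P y → P (x * y))
    (hn : ∀ z ∈ ZAlg k N, P z → IsNilpotent (z * e))
    (hu : u ∈ fixAlg k N) (hPu : ∀ q : G ⧸ N, P (trunc {g : G | (g : G ⧸ N) = q} u))
    (huu : u * u = u) (hue : u * e = u) : u = 0 := by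
  classical
  have := Fintype.ofFinite G
  have := Fintype.ofFinite (G ⧸ N)
  -- the commutative ring
  letI instC : CommRing (ZAlg k N) :=
    { (inferInstance : Ring (ZAlg k N)) with
      mul_comm := fun a b => Subtype.ext (ZAlg_comm a.2 b.2) }
  haveI : IsNoetherianRing (ZAlg k N) := IsNoetherianRing.of_finite k (ZAlg k N)
  let f : (ZAlg k N) →+* MonoidAlgebra k G := (ZAlg k N).val.toRingHom
  have hf : ∀ z : ZAlg k N, f z = (z : MonoidAlgebra k G) := fun z => rfl
  apply eq_zero_of_L (N := N) f (fun z => z.2) huu
  -- homogeneous elements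
  set S : Set (MonoidAlgebra k G) := {x | x ∈ fixAlg k N ∧ P x ∧ ∃ q, Sup N q x} with hS
  have huS : u ∈ Submodule.span k S := by
    rw [← sum_trunc (N := N) u]
    refine Submodule.sum_mem _ fun q _ => Submodule.subset_span ⟨trunc_mem_fixAlg hu q, hPu q, q, ?_⟩
    intro g hg
    by_contra h
    exact hg (trunc_coeff_not_mem (S := {g : G | (g : G ⧸ N) = q}) h u)
  set n := Fintype.card (G ⧸ N) with hnn
  have hpow : u ^ (n + 1) = u := IsIdempotentElem.pow_succ_eq n huu
  have h1 : u ^ (n + 1) ∈ Submodule.span k (S ^ (n + 1)) := by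
    rw [← Submodule.span_pow]
    exact Submodule.pow_mem_pow _ huS _
  have key : ∀ x ∈ S ^ (n + 1), x * e ∈ L N (ZAlg k N) f 1 := by
    intro x hx
    obtain ⟨F, hF⟩ := Set.mem_pow.1 hx
    set l : List (MonoidAlgebra k G) := List.ofFn fun i => (F i : MonoidAlgebra k G) with hl
    have hlen : l.length = n + 1 := by rw [hl, List.length_ofFn]
    have hlS : ∀ y ∈ l, y ∈ S := by
      intro y hy
      rw [hl, List.mem_ofFn] at hy
      obtain ⟨i, hi⟩ := hy
      rw [← hi]
      exact (F i).2
    let d : MonoidAlgebra k G → G ⧸ N := fun y => if h : ∃ q, Sup N q y then h.choose else 1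
    have hd : ∀ y ∈ l, Sup N (d y) y := by
      intro y hy
      have h2 := (hlS y hy).2.2
      simp only [d, dif_pos h2]
      exact h2.choose_spec
    obtain ⟨i, j, hij, hFij⟩ := Fintype.exists_ne_map_eq_of_card_lt
      (fun j : Fin (n + 2) => ((l.take j).map d).prod) (by rw [Fintype.card_fin]; omega)
    have h3 : ∃ i j : ℕ, i < j ∧ j ≤ n + 1 ∧ ((l.take i).map d).prod = ((l.take j).map d).prod := by
      rcases lt_or_gt_of_ne hij with h | h
      · exact ⟨i, j, h, Nat.lt_succ_iff.1 j.2, hFij⟩
      · exact ⟨j, i, h, Nat.lt_succ_iff.1 i.2, hFij.symm⟩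
    obtain ⟨i, j, hij, hj, hprod⟩ := h3
    set mid := (l.take j).drop i with hmid
    have e1 : l.take j = l.take i ++ mid := by
      have h4 := List.take_append_drop i (l.take j)
      rw [List.take_take, min_eq_left hij.le] at h4
      exact h4.symm
    have e2 : l = l.take j ++ l.drop j := (List.take_append_drop j l).symm
    have e3 : (mid.map d).prod = 1 := by
      have h4 := hprod
      rw [e1, List.map_append, List.prod_append] at h4
      exact (mul_eq_left.1 h4.symm)
    have hsub : ∀ y ∈ mid, y ∈ l := fun y hy => by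
      have h4 : y ∈ l.take j := List.mem_of_mem_drop hy
      exact List.mem_of_mem_take h4
    have hmid0 : mid ≠ [] := by
      intro h4
      have h5 : mid.length = 0 := by rw [h4]; rfl
      rw [hmid, List.length_drop, List.length_take, hlen] at h5
      omega
    have hz1 : mid.prod ∈ fixAlg k N := list_mem mid fun y hy => (hlS y (hsub y hy)).1
    have hz2 : Sup N 1 mid.prod := by
      rw [← e3]
      exact sup_list mid d fun y hy => hd y (hsub y hy)
    have hz : mid.prod ∈ ZAlg k N := ⟨mem_suppAlg_of_sup hz2, hz1⟩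
    have hz3 : P mid.prod := good_list P hmul mid hmid0 (fun y hy => (hlS y (hsub y hy)).1)
      (fun y hy => (hlS y (hsub y hy)).2.1)
    have ha : (l.take i).prod ∈ fixAlg k N := list_mem _ fun y hy => (hlS y (List.mem_of_mem_take hy)).1
    have hb : (l.drop j).prod ∈ fixAlg k N := list_mem _ fun y hy => (hlS y (List.mem_of_mem_drop hy)).1
    have hxe : x * e = (mid.prod * e) * ((l.take i).prod * (l.drop j).prod) := by
      rw [← hF]
      conv_lhs => rw [e2, e1, List.prod_append, List.prod_append]
      have c1 : mid.prod * (l.take i).prod = (l.take i).prod * mid.prod := comm_of_supp_fix hz.1 ha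
      have c2 : e * (l.drop j).prod = (l.drop j).prod * e := comm_of_supp_fix he.1 hb
      have c3 : e * (l.take i).prod = (l.take i).prod * e := comm_of_supp_fix he.1 ha
      calc (l.take i).prod * mid.prod * (l.drop j).prod * e
          = ((l.take i).prod * mid.prod) * ((l.drop j).prod * e) := by noncomm_ring
        _ = (mid.prod * (l.take i).prod) * (e * (l.drop j).prod) := by rw [c1, c2]
        _ = mid.prod * ((l.take i).prod * e) * (l.drop j).prod := by noncomm_ring
        _ = mid.prod * (e * (l.take i).prod) * (l.drop j).prod := by rw [c3]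
        _ = _ := by noncomm_ring
    rw [hxe]
    apply Submodule.subset_span
    refine ⟨⟨mid.prod * e, (ZAlg k N).mul_mem hz he⟩, ?_, _, (fixAlg k N).mul_mem ha hb, rfl⟩
    rw [pow_one, mem_nilradical]
    obtain ⟨m, hm⟩ := hn _ hz hz3
    exact ⟨m, Subtype.ext (by rw [Subalgebra.coe_pow]; exact hm)⟩
  rw [hpow] at h1
  have h2 : ∀ y ∈ Submodule.span k (S ^ (n + 1)), y * e ∈ L N (ZAlg k N) f 1 := by
    intro y hy
    induction hy using Submodule.span_induction with
    | mem x hx => exact key x hx
    | zero => rw [zero_mul]; exact Submodule.zero_mem _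
    | add a b _ _ ha hb => rw [add_mul]; exact Submodule.add_mem _ ha hb
    | smul c a _ ha => rw [smul_mul_assoc]; exact Submodule.smul_mem _ c ha
  have h3 := h2 u h1
  rwa [hue] at h3

end Cfsg.Agent.Lib.BlockGraded4
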