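import Cfsg.Agent.Lib.BlockDefect

/-!
# Blocks do not depend on the maximal ideal (helper74)
-/

set_option autoImplicit false
set_option linter.unusedSectionVars false

namespace Cfsg.Agent.Lib.BlockIndep

open Cfsg Cfsg.Agent.Lib.BlockRing Cfsg.Agent.Lib.BlockGA Cfsg.Agent.Lib.BlockIdem
open Cfsg.Agent.Lib.BlockOsima Cfsg.Agent.Lib.CharBasic
open scoped ComplexConjugate

universe u

variable {G : Type u} [Group G] [Finite G] {p : ℕ} {M M' : Ideal AlgInt}

/-- the idempotent of an `M`-block has `M'`-integral coefficients -/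
theorem locA_eB_other (hM : IsPModular p M) (hM' : IsPModular p M') {B : Set (IrrCharacter G)}
    (hB : IsPBlock M B) : LocA M' (eB B) := by
  classical
  have := isPrime hM
  have := isPrime hM'
  have : Fact p.Prime := ⟨hM.1⟩
  intro y
  rw [coeff_eB]
  by_cases hy : p ∣ orderOf y
  · rw [blockCoeff_eq_zero hM hB hy]
    exact loc_zero
  obtain ⟨P⟩ : Nonempty (Sylow p G) := inferInstance
  have := Fintype.ofFinite (P : Subgroup G)
  rw [blockCoeff, finsum_mem_eq_finite_toFinset_sum _ (Set.toFinite _)]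
  set S := (Set.toFinite B).toFinset with hS
  have hcard : (Nat.card (P : Subgroup G) : ℂ) ≠ 0 := by exact_mod_cast Nat.card_pos.ne'
  have horth : ∀ u : (P : Subgroup G), u ≠ 1 →
      ∑ χ ∈ S, (χ : G → ℂ) (u : G) * conj ((χ : G → ℂ) y) = 0 := by
    intro u hu
    have hpu : p ∣ orderOf (u : G) := by
      rw [Subgroup.orderOf_coe]
      obtain ⟨k, hk⟩ := P.isPGroup' u
      have h1 : orderOf u ∣ p ^ k := orderOf_dvd_of_pow_eq_one hk
      obtain ⟨j, -, hj⟩ := (Nat.dvd_prime_pow hM.1).mp h1
      rw [hj]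
      rcases j with _ | j
      · exfalso
        apply hu
        rw [pow_zero] at hj
        exact orderOf_eq_one_iff.mp hj
      · exact dvd_pow_self p (Nat.succ_ne_zero j)
    have h2 := weak_orthogonality hM hB hy hpu
    rw [finsum_mem_eq_finite_toFinset_sum _ (Set.toFinite _)] at h2
    have h3 := congrArg (starRingEnd ℂ) h2
    rw [map_sum, map_zero] at h3
    rw [← h3]
    refine Finset.sum_congr rfl fun χ _ => ?_
    rw [map_mul, Complex.conj_conj, mul_comm]
  have key : ∑ χ ∈ S, (χ : G → ℂ) 1 * conj ((χ : G → ℂ) y) =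
      (Nat.card (P : Subgroup G) : ℂ) * ∑ χ ∈ S, conj ((χ : G → ℂ) y) *
        classInner (fun u : (P : Subgroup G) => (χ : G → ℂ) u) 1 := by
    have h1 : ∀ χ ∈ S, conj ((χ : G → ℂ) y) *
        classInner (fun u : (P : Subgroup G) => (χ : G → ℂ) u) 1 =
        (Nat.card (P : Subgroup G) : ℂ)⁻¹ *
          ∑ u : (P : Subgroup G), (χ : G → ℂ) u * conj ((χ : G → ℂ) y) := by
      intro χ _
      rw [classInner, mul_left_comm, Finset.mul_sum]
      congr 1
      refine Finset.sum_congr rfl fun u _ => ?_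
      simp [mul_comm]
    rw [Finset.sum_congr rfl h1, ← Finset.mul_sum, ← mul_assoc, mul_inv_cancel₀ hcard, one_mul,
      Finset.sum_comm, Finset.sum_eq_single (1 : (P : Subgroup G))]
    · rfl
    · intro u _ hu
      exact horth u hu
    · intro h
      exact absurd (Finset.mem_univ _) h
  rw [key]
  have hidx : (Nat.card G : ℂ)⁻¹ * (Nat.card (P : Subgroup G) : ℂ) =
      ((P : Subgroup G).index : ℂ)⁻¹ := by
    rw [← (P : Subgroup G).card_mul_index]
    push_cast
    have : ((P : Subgroup G).index : ℂ) ≠ 0 := by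
      exact_mod_cast Subgroup.index_ne_zero_of_finite
    field_simp
  rw [← mul_assoc, hidx]
  refine loc_mul (loc_inv_natCast hM' P.not_dvd_index) (loc_sum fun χ _ => loc_mul ?_ ?_)
  · exact BlockDefect.loc_conj_value χ.2.isCharacter y
  · obtain ⟨n, hn⟩ := (χ.2.isCharacter.restrict (P : Subgroup G)).classInner_nat
      (isIrrCharacter_one (G := (P : Subgroup G))).isCharacter
    rw [hn]
    exact loc_natCast n

/-- **S0902** -/
theorem sameBlock_other (hM : IsPModular p M) (hM' : IsPModular p M') {χ ψ : IrrCharacter G}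
    (h : SameBlock M (χ : G → ℂ) (ψ : G → ℂ)) : SameBlock M' (χ : G → ℂ) (ψ : G → ℂ) := by
  have := isPrime hM
  have := isPrime hM'
  have h1 := locA_eB_other hM' hM (isPBlock_blockOf (M := M') χ)
  have h2 := sameBlock_omega χ.2.isClassFunction ψ.2.isClassFunction h (eB_mem_center _) h1
  rw [omega_eB_mem (mem_blockOf_self χ)] at h2
  by_contra h3
  have h4 : ψ ∉ blockOf M' (χ : G → ℂ) := fun h5 => h3 (mem_blockOf.mp h5)
  rw [omega_eB_not_mem h4, sub_zero] at h2
  exact one_not_idl h2

end Cfsg.Agent.Lib.BlockIndep
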