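import Mathlib
import Cfsg.Agent.Lib.BlockQuat
import Cfsg.Agent.Lib.BlockSection
import Cfsg.Agent.Lib.ExtraChar
import Cfsg.Agent.S0941

/-! The principal 2-block of a group with quaternion Sylow 2-subgroups of order 8. -/

set_option autoImplicit false
set_option maxHeartbeats 400000

namespace Cfsg.Agent.Lib.BlockQuat2

open Cfsg Cfsg.Agent.Lib.CharBasic Cfsg.Agent.Lib.BlockThird Cfsg.Agent.Lib.BlockRing Cfsg.Agent.Lib.BlockGA
open scoped ComplexConjugate

universe u

variable {G : Type u} [Group G] [Finite G]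

/-- Characters in the principal block with `Z` in the kernel, for a normal `p`-subgroup `Z` with centralizer
of `p`-power index. -/
theorem card_principal_quot {p : ℕ} {M : Ideal AlgInt} (hM : IsPModular p M) (Z : Subgroup G) [Z.Normal]
    (hZ : IsPGroup p Z) (hC : ∃ k : ℕ, (Subgroup.centralizer (Z : Set G)).index = p ^ k) :
    Nat.card (principalBlock M (G ⧸ Z)) =
      Nat.card {χ : IrrCharacter G // χ ∈ principalBlock M G ∧ ∀ n ∈ Z, (χ : G → ℂ) n = (χ : G → ℂ) 1} := by
  have : Fact p.Prime := ⟨hM.1⟩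
  obtain ⟨h1, -⟩ := S0941.result p M hM Z hZ hC
  have htriv : ((triv (G ⧸ Z) : G ⧸ Z → ℂ) ∘ QuotientGroup.mk) = fun _ : G => (1 : ℂ) := rfl
  apply Nat.card_congr
  refine Equiv.ofBijective (fun χ => ⟨⟨fun g => (χ.1 : G ⧸ Z → ℂ) g, χ.1.2.inflate Z⟩, ?_, ?_⟩) ⟨?_, ?_⟩
  · have h2 := (h1 (triv (G ⧸ Z)) χ.1).1 χ.2
    exact h2
  · intro n hn
    show (χ.1 : G ⧸ Z → ℂ) n = (χ.1 : G ⧸ Z → ℂ) (1 : G)
    rw [(QuotientGroup.eq_one_iff n).2 hn]; rfl
  · intro χ ψ h
    apply Subtype.ext
    apply Subtype.ext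
    funext x
    obtain ⟨g, rfl⟩ := QuotientGroup.mk_surjective x
    have h2 := congrArg (fun w : {χ : IrrCharacter G // χ ∈ principalBlock M G ∧
      ∀ n ∈ Z, (χ : G → ℂ) n = (χ : G → ℂ) 1} => ((w.1 : IrrCharacter G) : G → ℂ) g) h
    exact h2
  · rintro ⟨χ, hχ, hn⟩
    obtain ⟨ψ, hψ, hψχ⟩ := χ.2.deflate Z hn
    refine ⟨⟨⟨ψ, hψ⟩, ?_⟩, ?_⟩
    · refine (h1 (triv (G ⧸ Z)) ⟨ψ, hψ⟩).2 ?_
      have h3 : (ψ ∘ QuotientGroup.mk : G → ℂ) = χ := funext hψχ
      show SameBlock M ((triv (G ⧸ Z) : G ⧸ Z → ℂ) ∘ QuotientGroup.mk) (ψ ∘ QuotientGroup.mk)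
      rw [h3]
      exact hχ
    · apply Subtype.ext
      apply Subtype.ext
      exact funext hψχ

/-- Multiplication by a central involution. -/
theorem apply_central {z : G} (hz : z * z = 1) (hzc : ∀ g, g * z = z * g) (χ : IrrCharacter G) :
    ((χ : G → ℂ) z = (χ : G → ℂ) 1 ∧ ∀ g, (χ : G → ℂ) (z * g) = (χ : G → ℂ) g) ∨
    ((χ : G → ℂ) z = -(χ : G → ℂ) 1 ∧ ∀ g, (χ : G → ℂ) (z * g) = -(χ : G → ℂ) g) := by
  obtain ⟨μ, hμ⟩ := ExtraChar.exists_central_hom χ.2
  set z' : Subgroup.center G := ⟨z, Subgroup.mem_center_iff.2 hzc⟩ with hz'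
  have h1 : (μ z' : ℂ) * μ z' = 1 := by
    rw [← Units.val_mul, ← map_mul]
    have : z' * z' = 1 := Subtype.ext hz
    rw [this, map_one]; rfl
  have h2 : ∀ g, (χ : G → ℂ) (z * g) = μ z' * (χ : G → ℂ) g := by
    intro g
    rw [← hzc g]
    exact hμ z' g
  rcases mul_self_eq_one_iff.1 h1 with h3 | h3
  · left
    have h4 : ∀ g, (χ : G → ℂ) (z * g) = (χ : G → ℂ) g := fun g => by rw [h2, h3, one_mul]
    refine ⟨?_, h4⟩
    have := h4 1
    rwa [mul_one] at this
  · right
    have h4 : ∀ g, (χ : G → ℂ) (z * g) = -(χ : G → ℂ) g := fun g => by rw [h2, h3]; ring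
    refine ⟨?_, h4⟩
    have := h4 1
    rwa [mul_one] at this

open scoped ComplexOrder in
theorem rank_eq_of_gram {I J Y : Type*} [Fintype I] [Fintype J] [Fintype Y]
    (A : Matrix I Y ℂ) (B : Matrix J Y ℂ)
    (hAB : ∀ y y' : Y, ∑ i, conj (A i y) * A i y' = ∑ j, conj (B j y) * B j y') : A.rank = B.rank := by
  have h1 : A.conjTranspose * A = B.conjTranspose * B := by
    ext y y'
    rw [Matrix.mul_apply, Matrix.mul_apply]
    exact hAB y y'
  rw [← Matrix.rank_conjTranspose_mul_self A, h1, Matrix.rank_conjTranspose_mul_self]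

theorem rank_add_finrank_ker {K Y : Type*} [Fintype K] [Fintype Y] (C : Matrix K Y ℂ) :
    C.rank + Module.finrank ℂ (LinearMap.ker C.transpose.mulVecLin) = Fintype.card K := by
  rw [← Matrix.rank_transpose, Matrix.rank, LinearMap.finrank_range_add_finrank_ker]
  simp

theorem card_eq_of_gram {I J Y : Type*} [Fintype I] [Fintype J] [Fintype Y]
    (A : Matrix I Y ℂ) (B : Matrix J Y ℂ)
    (hAB : ∀ y y' : Y, ∑ i, conj (A i y) * A i y' = ∑ j, conj (B j y) * B j y')
    (hB : ∀ b : J → ℂ, (∀ y, ∑ j, b j * B j y = 0) → b = 0)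
    (w : I → ℂ) (hw : w ≠ 0) (hwA : ∀ y, ∑ i, w i * A i y = 0)
    (hker : ∀ a : I → ℂ, (∀ y, ∑ i, a i * A i y = 0) → ∃ c : ℂ, a = c • w) :
    Fintype.card I = Fintype.card J + 1 := by
  classical
  have h2 : A.rank = B.rank := rank_eq_of_gram A B hAB
  have h4 : LinearMap.ker B.transpose.mulVecLin = ⊥ := by
    rw [eq_bot_iff]
    intro b hb
    rw [LinearMap.mem_ker] at hb
    rw [Submodule.mem_bot]
    apply hB
    intro y
    have := congrFun hb y
    rw [Matrix.mulVecLin_apply, Matrix.mulVec, dotProduct] at this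
    simp only [Matrix.transpose_apply, Pi.zero_apply] at this
    rw [← this]
    exact Finset.sum_congr rfl fun j _ => mul_comm _ _
  have h5 : LinearMap.ker A.transpose.mulVecLin = Submodule.span ℂ {w} := by
    apply le_antisymm
    · intro a ha
      rw [LinearMap.mem_ker] at ha
      obtain ⟨c, hc⟩ := hker a (fun y => by
        have := congrFun ha y
        rw [Matrix.mulVecLin_apply, Matrix.mulVec, dotProduct] at this
        simp only [Matrix.transpose_apply, Pi.zero_apply] at this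
        rw [← this]
        exact Finset.sum_congr rfl fun j _ => mul_comm _ _)
      rw [hc]
      exact Submodule.smul_mem _ _ (Submodule.mem_span_singleton_self w)
    · rw [Submodule.span_singleton_le_iff_mem, LinearMap.mem_ker]
      funext y
      rw [Matrix.mulVecLin_apply, Matrix.mulVec, dotProduct, Pi.zero_apply, ← hwA y]
      exact Finset.sum_congr rfl fun j _ => mul_comm _ _
  have h6 := rank_add_finrank_ker A
  have h7 := rank_add_finrank_ker B
  rw [h4, finrank_bot] at h7
  rw [h5, finrank_span_singleton hw] at h6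
  omega

theorem card_principal (M : Ideal AlgInt) (hM : IsPModular 2 M) (S : Sylow 2 G)
    (e : (S : Subgroup G) ≃* QuaternionGroup 2)
    (hO : ∀ N : Subgroup G, N.Normal → Odd (Nat.card N) → N = ⊥) (hG : (S : Subgroup G) ≠ ⊤) :
    Nat.card (principalBlock M G) = 7 := by
  classical
  have := isPrime hM
  have := Fintype.ofFinite G
  have hf2 : Fact (Nat.Prime 2) := ⟨Nat.prime_two⟩
  obtain ⟨z, hz, hzc⟩ := BlockQuat.exists_z S e hO
  have hz2 : z * z = 1 := by rw [← pow_two, ← hz, pow_orderOf_eq_one]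
  have hz1 : z ≠ 1 := by rintro rfl; rw [orderOf_one] at hz; omega
  -- the quotient
  have hn : (Subgroup.zpowers z).Normal := by
    refine ⟨fun n hn g => ?_⟩
    obtain ⟨m, rfl⟩ := Subgroup.mem_zpowers_iff.1 hn
    have : g * z ^ m * g⁻¹ = z ^ m := by
      rw [((show Commute g z from hzc g).zpow_right m).eq]; group
    rw [this]; exact hn
  have hI4 : Nat.card {χ : IrrCharacter G // χ ∈ principalBlock M G ∧
      ∀ n ∈ Subgroup.zpowers z, (χ : G → ℂ) n = (χ : G → ℂ) 1} = 4 := by
    rw [← card_principal_quot hM]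
    · obtain ⟨P⟩ : Nonempty (Sylow 2 (G ⧸ Subgroup.zpowers z)) := inferInstance
      obtain ⟨a, ζ₂, ζ₃, ζ₄, -, -, -, ⟨h12, h13, h14, h23, h24, h34⟩, hS, -⟩ :=
        BlockKlein.klein_block hM P (BlockQuat.quot_klein S e hz hzc P) (BlockQuat.quot_hone S e hz hzc hO hG)
      have hset : principalBlock M (G ⧸ Subgroup.zpowers z) = {triv (G ⧸ Subgroup.zpowers z), ζ₂, ζ₃, ζ₄} := by
        ext χ
        rw [← Set.Finite.mem_toFinset (Set.toFinite (principalBlock M (G ⧸ Subgroup.zpowers z))), hS]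
        simp
      rw [hset, Nat.card_coe_set_eq, Set.ncard_insert_of_notMem, Set.ncard_insert_of_notMem,
        Set.ncard_insert_of_notMem, Set.ncard_singleton]
      · rw [Set.mem_singleton_iff]; exact h34
      · rw [Set.mem_insert_iff, Set.mem_singleton_iff]
        rintro (h | h)
        · exact h23 h
        · exact h24 h
      · rw [Set.mem_insert_iff, Set.mem_insert_iff, Set.mem_singleton_iff]
        rintro (h | h | h)
        · exact h12 h
        · exact h13 h
        · exact h14 h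
    · rw [IsPGroup.iff_card]
      exact ⟨1, by rw [Nat.card_zpowers, hz]; rfl⟩
    · refine ⟨0, ?_⟩
      rw [pow_zero, Subgroup.index_eq_one, eq_top_iff]
      intro g _
      rw [Subgroup.mem_centralizer_iff]
      intro w hw
      obtain ⟨m, rfl⟩ := Subgroup.mem_zpowers_iff.1 hw
      exact ((show Commute z g from (hzc g).symm).zpow_left m).eq
  -- the two sets of characters
  set P : IrrCharacter G → Prop := fun χ => ∀ n ∈ Subgroup.zpowers z, (χ : G → ℂ) n = (χ : G → ℂ) 1 with hP
  have hI : ∀ χ : IrrCharacter G, P χ → ∀ g, (χ : G → ℂ) (z * g) = (χ : G → ℂ) g := by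
    intro χ hχ
    rcases apply_central hz2 hzc χ with h | h
    · exact h.2
    · exfalso
      have h1 := hχ z (Subgroup.mem_zpowers z)
      rw [h.1] at h1
      have h2 : (χ : G → ℂ) 1 = 0 := by linear_combination -(1/2 : ℂ) * h1
      exact χ.2.one_ne_zero h2
  have hJ : ∀ χ : IrrCharacter G, ¬ P χ → ∀ g, (χ : G → ℂ) (z * g) = -(χ : G → ℂ) g := by
    intro χ hχ
    rcases apply_central hz2 hzc χ with h | h
    · exfalso
      apply hχ
      intro n hn
      obtain ⟨m, rfl⟩ := Subgroup.mem_zpowers_iff.1 hn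
      have h1 : ∀ m : ℤ, ∀ g, (χ : G → ℂ) (z ^ m * g) = (χ : G → ℂ) g := by
        intro m
        induction m using Int.induction_on with
        | zero => intro g; simp
        | succ n ih =>
          intro g
          rw [zpow_add_one, mul_assoc, ih, h.2]
        | pred n ih =>
          intro g
          rw [zpow_sub_one, mul_assoc, ih]
          have h3 : z⁻¹ = z := inv_eq_of_mul_eq_one_right hz2
          rw [h3, h.2]
      have := h1 m 1
      rwa [mul_one] at this
    · exact h.2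
  -- an element of order 4
  obtain ⟨x, hx⟩ : ∃ x : G, orderOf x = 4 := by
    set x' := e.symm (QuaternionGroup.a 1) with hx'
    have h1 : x' * x' ≠ 1 := by
      intro h
      have h2 : e (x' * x') = 1 := by rw [h, map_one]
      rw [map_mul, hx', MulEquiv.apply_symm_apply] at h2
      exact absurd h2 (by decide)
    have h2 : ((x' : G) * x') ≠ 1 := fun h => h1 (Subtype.ext h)
    obtain ⟨k, hk⟩ := S.2.exists_orderOf_eq_pow x' 
    rcases BlockQuat.ppart_cases S e hz hzc (x := (x' : G)) ⟨k, by rw [Subgroup.orderOf_coe]; exact hk⟩ with h3 | h3 | h3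
    · exact absurd (by rw [h3, mul_one]) h2
    · exact absurd (by rw [h3, hz2]) h2
    · exact ⟨x', h3⟩
  -- sections of elements of order 4
  have hsec : ∀ u s : G, orderOf u = 4 → ¬ 2 ∣ orderOf s → Commute u s → ∀ χ ∈ principalBlock M G,
      (χ : G → ℂ) (u * s) = (χ : G → ℂ) u := by
    intro u s hu hs hus χ hχ
    set H := Subgroup.centralizer ({u} : Set G) with hH
    have hmem : ∀ g, g ∈ H ↔ Commute u g := by
      intro g
      rw [hH, Subgroup.mem_centralizer_singleton_iff]
      exact ⟨fun h => h.symm, fun h => h.symm⟩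
    obtain ⟨N, hN1, hN2, hN3⟩ := BlockQuat.centralizer_complement S e hu hmem
    have h1 : (⟨s, (hmem s).2 hus⟩ : H) ∈ N :=
      BlockCore.mem_of_regular Nat.prime_two hN3 (by rw [Subgroup.orderOf_mk]; exact hs)
    exact BlockSection.eq_of_mem_core hM (k := 2) (by rw [hu]; rfl) hmem hN2 h1 hχ
  have hJx : ∀ χ : IrrCharacter G, ¬ P χ → ∀ u : G, orderOf u = 4 → (χ : G → ℂ) u = 0 := by
    intro χ hχ u hu
    have h1 := χ.2.isClassFunction.conj_eq (BlockQuat.conj_inv S e hz hzc hu)
    rw [hJ χ hχ u] at h1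
    linear_combination (1/2 : ℂ) * h1
  -- decomposition of a function
  have hdecomp : ∀ f : IrrCharacter G → ℂ,
      (∀ s : G, ¬ 2 ∣ orderOf s → ∑ᶠ χ ∈ principalBlock M G, f χ * (χ : G → ℂ) s = 0) →
      (∀ s : G, ¬ 2 ∣ orderOf s → ∑ᶠ χ ∈ principalBlock M G, f χ * (χ : G → ℂ) (z * s) = 0) →
      (∑ᶠ χ ∈ principalBlock M G, f χ * (χ : G → ℂ) x = 0) →
      ∀ χ ∈ principalBlock M G, f χ = 0 := by
    intro f h1 h2 h3
    have h4 : ∀ g : G, ∑ᶠ χ ∈ principalBlock M G, f χ * (χ : G → ℂ) g = 0 := by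
      intro g
      obtain ⟨u, s, hus, hc, hu, hs, -, -⟩ := BlockSecond.exists_ppart Nat.prime_two g
      rcases BlockQuat.ppart_cases S e hz hzc hu with h5 | h5 | h5
      · rw [h5, one_mul] at hus
        rw [← hus]; exact h1 s hs
      · rw [h5] at hus
        rw [← hus]; exact h2 s hs
      · rw [← h3]
        refine finsum_mem_congr rfl fun χ hχ => ?_
        rw [← hus, hsec u s h5 hs hc χ hχ, χ.2.isClassFunction.conj_eq (BlockQuat.order_four_conj S e hz hzc hO hG h5 hx)]
    have h5 := Fintype.linearIndependent_iff.1 (irr_linearIndependent (G := G))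
      (fun χ => if χ ∈ principalBlock M G then f χ else 0) (by
        funext g
        rw [Finset.sum_apply, Pi.zero_apply]
        refine Eq.trans ?_ (h4 g)
        rw [finsum_mem_eq_finite_toFinset_sum _ (Set.toFinite _)]
        have h6 : (Set.toFinite (principalBlock M G)).toFinset =
            Finset.univ.filter (fun χ => χ ∈ principalBlock M G) := by ext; simp
        rw [h6, Finset.sum_filter]
        refine Finset.sum_congr rfl fun χ _ => ?_
        rw [Pi.smul_apply, smul_eq_mul]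
        split_ifs <;> simp)
    intro χ hχ
    have := h5 χ
    rwa [if_pos hχ] at this
  -- splitting sums
  have hsplit : ∀ f : IrrCharacter G → ℂ, ∑ᶠ χ ∈ principalBlock M G, f χ =
      ∑ χ : {χ : IrrCharacter G // χ ∈ principalBlock M G ∧ P χ}, f χ +
      ∑ χ : {χ : IrrCharacter G // χ ∈ principalBlock M G ∧ ¬ P χ}, f χ := by
    intro f
    rw [finsum_mem_eq_finite_toFinset_sum _ (Set.toFinite _)]
    rw [← Finset.sum_filter_add_sum_filter_not _ P]
    congr 1
    · apply Finset.sum_subtype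
      intro χ
      simp
    · apply Finset.sum_subtype
      intro χ
      simp
  have hzord : ∀ s : G, ¬ 2 ∣ orderOf s → 2 ∣ orderOf (z * s) := by
    intro s hs
    have h1 : Commute z s := (hzc s).symm
    have h2 : (orderOf z).Coprime (orderOf s) := by
      rw [hz]; exact (Nat.Prime.coprime_iff_not_dvd Nat.prime_two).2 hs
    rw [h1.orderOf_mul_eq_mul_orderOf_of_coprime h2, hz]
    exact dvd_mul_right _ _
  have hwA : ∀ y : G, ¬ 2 ∣ orderOf y → ∑ χ : {χ : IrrCharacter G // χ ∈ principalBlock M G ∧ P χ},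
      conj (((χ : IrrCharacter G) : G → ℂ) x) * ((χ : IrrCharacter G) : G → ℂ) y = 0 := by
    intro y hy
    have h1 := BlockOsima.weak_orthogonality hM isPBlock_principal (B := principalBlock M G) hy
      (y := x) (by rw [hx]; norm_num)
    rw [hsplit] at h1
    have h3 : ∑ χ : {χ : IrrCharacter G // χ ∈ principalBlock M G ∧ ¬ P χ},
        ((χ : IrrCharacter G) : G → ℂ) y * conj (((χ : IrrCharacter G) : G → ℂ) x) = 0 := by
      apply Finset.sum_eq_zero
      intro χ _
      rw [hJx χ.1 χ.2.2 x hx, map_zero, mul_zero]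
    rw [h3, add_zero] at h1
    rw [← h1]
    exact Finset.sum_congr rfl fun χ _ => mul_comm _ _
  have hcard := card_eq_of_gram (I := {χ : IrrCharacter G // χ ∈ principalBlock M G ∧ P χ})
    (J := {χ : IrrCharacter G // χ ∈ principalBlock M G ∧ ¬ P χ}) (Y := {y : G // ¬ 2 ∣ orderOf y})
    (Matrix.of fun χ y => ((χ : IrrCharacter G) : G → ℂ) (y : G))
    (Matrix.of fun χ y => ((χ : IrrCharacter G) : G → ℂ) (y : G)) ?_ ?_
    (fun χ => conj (((χ : IrrCharacter G) : G → ℂ) x)) ?_ ?_ ?_
  · have h7 : Nat.card (principalBlock M G) =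
        Nat.card {χ : IrrCharacter G // χ ∈ principalBlock M G ∧ P χ} +
        Nat.card {χ : IrrCharacter G // χ ∈ principalBlock M G ∧ ¬ P χ} := by
      have h8 := hsplit (fun _ => 1)
      rw [finsum_mem_eq_finite_toFinset_sum _ (Set.toFinite _), Finset.sum_const, Finset.sum_const, Finset.sum_const,
        nsmul_eq_mul, nsmul_eq_mul, nsmul_eq_mul, mul_one, mul_one, mul_one, Finset.card_univ, Finset.card_univ,
        ← Nat.card_eq_fintype_card, ← Nat.card_eq_fintype_card, ← Set.ncard_eq_toFinset_card _ (Set.toFinite _)] at h8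
      rw [Nat.card_coe_set_eq]
      exact_mod_cast h8
    have h8 : Nat.card {χ : IrrCharacter G // χ ∈ principalBlock M G ∧ P χ} = 4 := hI4
    rw [Nat.card_eq_fintype_card] at h8
    rw [h7, Nat.card_eq_fintype_card, Nat.card_eq_fintype_card]
    omega
  · rintro ⟨y, hy⟩ ⟨y', hy'⟩
    have h1 := BlockOsima.weak_orthogonality hM isPBlock_principal (B := principalBlock M G) hy' (hzord y hy)
    rw [hsplit] at h1
    simp only [Matrix.of_apply]
    have h2 : ∀ χ : {χ : IrrCharacter G // χ ∈ principalBlock M G ∧ P χ},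
        ((χ : IrrCharacter G) : G → ℂ) y' * conj (((χ : IrrCharacter G) : G → ℂ) (z * y)) =
        conj (((χ : IrrCharacter G) : G → ℂ) y) * ((χ : IrrCharacter G) : G → ℂ) y' := by
      intro χ
      rw [hI χ.1 χ.2.2]; ring
    have h3 : ∀ χ : {χ : IrrCharacter G // χ ∈ principalBlock M G ∧ ¬ P χ},
        ((χ : IrrCharacter G) : G → ℂ) y' * conj (((χ : IrrCharacter G) : G → ℂ) (z * y)) =
        -(conj (((χ : IrrCharacter G) : G → ℂ) y) * ((χ : IrrCharacter G) : G → ℂ) y') := by
      intro χ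
      rw [hJ χ.1 χ.2.2, map_neg]; ring
    simp only [h2, h3, Finset.sum_neg_distrib] at h1
    linear_combination h1
  · intro b hb
    -- extend `b` by zero
    have h1 := hdecomp (fun χ => if h : χ ∈ principalBlock M G ∧ ¬ P χ then b ⟨χ, h⟩ else 0) ?_ ?_ ?_
    · funext χ
      have := h1 χ.1 χ.2.1
      rw [dif_pos χ.2] at this
      exact this
    · intro s hs
      rw [hsplit, Finset.sum_eq_zero, zero_add]
      · rw [← hb ⟨s, hs⟩]
        refine Finset.sum_congr rfl fun χ _ => ?_
        rw [dif_pos χ.2]; rfl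
      · intro χ _
        rw [dif_neg (fun h => h.2 χ.2.2), zero_mul]
    · intro s hs
      rw [hsplit, Finset.sum_eq_zero, zero_add]
      · rw [← neg_eq_zero, ← Finset.sum_neg_distrib, ← hb ⟨s, hs⟩]
        refine Finset.sum_congr rfl fun χ _ => ?_
        rw [dif_pos χ.2, hJ χ.1 χ.2.2]
        simp
      · intro χ _
        rw [dif_neg (fun h => h.2 χ.2.2), zero_mul]
    · rw [hsplit, Finset.sum_eq_zero, zero_add]
      · apply Finset.sum_eq_zero
        intro χ _
        rw [hJx χ.1 χ.2.2 x hx, mul_zero]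
      · intro χ _
        rw [dif_neg (fun h => h.2 χ.2.2), zero_mul]
  · intro h
    have h1 : P (triv G) := fun n _ => rfl
    have := congrFun h ⟨triv G, triv_mem, h1⟩
    simp only [Pi.zero_apply] at this
    have h2 : (triv G : G → ℂ) x = 1 := rfl
    rw [h2, map_one] at this
    exact one_ne_zero this
  · rintro ⟨y, hy⟩
    exact hwA y hy
  · intro a ha
    set W : ℂ := ∑ χ : {χ : IrrCharacter G // χ ∈ principalBlock M G ∧ P χ},
      conj (((χ : IrrCharacter G) : G → ℂ) x) * ((χ : IrrCharacter G) : G → ℂ) x with hW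
    have hW0 : W ≠ 0 := by
      have h1 : W = ((∑ χ : {χ : IrrCharacter G // χ ∈ principalBlock M G ∧ P χ},
          ‖((χ : IrrCharacter G) : G → ℂ) x‖ ^ 2 : ℝ) : ℂ) := by
        rw [hW]; push_cast
        refine Finset.sum_congr rfl fun χ _ => ?_
        rw [Complex.conj_mul']
      rw [h1]
      have h2 : (0 : ℝ) < ∑ χ : {χ : IrrCharacter G // χ ∈ principalBlock M G ∧ P χ},
          ‖((χ : IrrCharacter G) : G → ℂ) x‖ ^ 2 := by
        apply Finset.sum_pos' (fun χ _ => by positivity)
        refine ⟨⟨triv G, triv_mem, fun n _ => rfl⟩, Finset.mem_univ _, ?_⟩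
        have h3 : (triv G : G → ℂ) x = 1 := rfl
        show 0 < ‖(triv G : G → ℂ) x‖ ^ 2
        rw [h3]; norm_num
      exact_mod_cast h2.ne'
    set c : ℂ := (∑ χ : {χ : IrrCharacter G // χ ∈ principalBlock M G ∧ P χ},
      a χ * ((χ : IrrCharacter G) : G → ℂ) x) / W with hc
    refine ⟨c, ?_⟩
    have hs1 : ∀ s : G, ¬ 2 ∣ orderOf s → ∑ χ : {χ : IrrCharacter G // χ ∈ principalBlock M G ∧ P χ},
        (a χ - c * conj (((χ : IrrCharacter G) : G → ℂ) x)) * ((χ : IrrCharacter G) : G → ℂ) s = 0 := by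
      intro s hs
      have h1 := ha ⟨s, hs⟩
      simp only [Matrix.of_apply] at h1
      simp only [sub_mul, Finset.sum_sub_distrib, mul_assoc, ← Finset.mul_sum]
      rw [h1, hwA s hs, mul_zero, sub_zero]
    have h1 := hdecomp (fun χ => if h : χ ∈ principalBlock M G ∧ P χ then
      a ⟨χ, h⟩ - c * conj ((χ : G → ℂ) x) else 0) ?_ ?_ ?_
    · funext χ
      have := h1 χ.1 χ.2.1
      rw [dif_pos χ.2] at this
      exact sub_eq_zero.1 this
    · intro s hs
      rw [hsplit, add_comm, Finset.sum_eq_zero, zero_add]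
      · rw [← hs1 s hs]
        refine Finset.sum_congr rfl fun χ _ => ?_
        rw [dif_pos χ.2]
      · intro χ _
        rw [dif_neg (fun h => χ.2.2 h.2), zero_mul]
    · intro s hs
      rw [hsplit, add_comm, Finset.sum_eq_zero, zero_add]
      · rw [← hs1 s hs]
        refine Finset.sum_congr rfl fun χ _ => ?_
        rw [dif_pos χ.2, hI χ.1 χ.2.2]
      · intro χ _
        rw [dif_neg (fun h => χ.2.2 h.2), zero_mul]
    · rw [hsplit, add_comm, Finset.sum_eq_zero, zero_add]
      · have h2 : ∑ χ : {χ : IrrCharacter G // χ ∈ principalBlock M G ∧ P χ},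
            (a χ - c * conj (((χ : IrrCharacter G) : G → ℂ) x)) * ((χ : IrrCharacter G) : G → ℂ) x = 0 := by
          simp only [sub_mul, Finset.sum_sub_distrib, mul_assoc, ← Finset.mul_sum]
          rw [← hW, hc, div_mul_cancel₀ _ hW0, sub_self]
        rw [← h2]
        refine Finset.sum_congr rfl fun χ _ => ?_
        rw [dif_pos χ.2]
      · intro χ _
        rw [dif_neg (fun h => χ.2.2 h.2), zero_mul]

end Cfsg.Agent.Lib.BlockQuat2
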