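import Cfsg.Agent.Lib.BlockAlg
import Cfsg.Agent.Lib.BlockNormP
import Cfsg.Agent.Lib.BlockDefect
import Cfsg.Agent.Lib.Contrib2

/-!
# The number of blocks with a normal defect group as the rank of a matrix (helper74)
-/

set_option autoImplicit false
set_option linter.all false

namespace Cfsg.Agent.Lib.BlockRank

open Cfsg Cfsg.Agent.Lib.BlockRing Cfsg.Agent.Lib.BlockGA Cfsg.Agent.Lib.BlockIdem
open Cfsg.Agent.Lib.BlockOsima Cfsg.Agent.Lib.CharBasic Cfsg.Agent.Lib.BlockDefect
open Cfsg.Agent.Lib.BlockAlg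
open scoped ComplexConjugate

universe u

/-! ### linear algebra -/

section linalg

theorem rank_map {K F : Type*} [Field K] [Field F] (f : K →+* F) {m : Type*} [Fintype m]
    [DecidableEq m] (A : Matrix m m K) : (A.map f).rank = A.rank := by
  classical
  obtain ⟨L, L', D, hA⟩ :=
    Matrix.Pivot.exists_list_transvec_mul_diagonal_mul_list_transvec A
  set P := (L.map Matrix.TransvectionStruct.toMatrix).prod with hP
  set Q := (L'.map Matrix.TransvectionStruct.toMatrix).prod with hQ
  have hPd : P.det = 1 := Matrix.TransvectionStruct.det_toMatrix_prod L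
  have hQd : Q.det = 1 := Matrix.TransvectionStruct.det_toMatrix_prod L'
  have hPd' : (P.map f).det = 1 := by
    have h := (RingHom.map_det f P).symm
    rw [hPd, map_one] at h
    exact h
  have hQd' : (Q.map f).det = 1 := by
    have h := (RingHom.map_det f Q).symm
    rw [hQd, map_one] at h
    exact h
  have h1 : A.rank = (Matrix.diagonal D).rank := by
    rw [hA, Matrix.rank_mul_eq_left_of_isUnit_det Q _ (by rw [hQd]; exact isUnit_one),
      Matrix.rank_mul_eq_right_of_isUnit_det P _ (by rw [hPd]; exact isUnit_one)]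
  have h2 : (A.map f).rank = (Matrix.diagonal (fun i => f (D i))).rank := by
    rw [hA, Matrix.map_mul, Matrix.map_mul,
      Matrix.rank_mul_eq_left_of_isUnit_det _ _ (by rw [hQd']; exact isUnit_one),
      Matrix.rank_mul_eq_right_of_isUnit_det _ _ (by rw [hPd']; exact isUnit_one),
      Matrix.diagonal_map (map_zero f)]
  rw [h1, h2, Matrix.rank_diagonal, Matrix.rank_diagonal]
  refine Fintype.card_congr (Equiv.subtypeEquivRight fun i => ?_)
  rw [Ne, Ne, map_eq_zero]

theorem rank_eq_card {F : Type*} [Field F] {ι β : Type*} [Fintype ι] [DecidableEq ι] [Fintype β]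
    [DecidableEq β] (A : Matrix ι ι F) (L L' : Matrix β ι F) (N N' : Matrix ι β F) (c : β → F)
    (hc : ∀ b, c b ≠ 0) (hL : L * N = 1) (hL' : L' * N' = 1)
    (hA : A = L.transpose * Matrix.diagonal c * L') : A.rank = Fintype.card β := by
  classical
  apply le_antisymm
  · rw [hA, Matrix.mul_assoc]
    exact (Matrix.rank_mul_le_left _ _).trans (Matrix.rank_le_card_width _)
  · have h1 : N.transpose * A * N' = Matrix.diagonal c := by
      rw [hA]
      calc N.transpose * (L.transpose * Matrix.diagonal c * L') * N'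
          = (N.transpose * L.transpose) * Matrix.diagonal c * (L' * N') := by
            simp only [Matrix.mul_assoc]
        _ = Matrix.diagonal c := by
            rw [hL', ← Matrix.transpose_mul, hL, Matrix.transpose_one, Matrix.one_mul,
              Matrix.mul_one]
    have h2 : (Matrix.diagonal c).rank = Fintype.card β := by
      rw [Matrix.rank_diagonal]
      refine Fintype.card_congr (Equiv.subtypeUnivEquiv hc)
    rw [← h2, ← h1]
    exact (Matrix.rank_mul_le_left _ _).trans (Matrix.rank_mul_le_right _ _)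

theorem entry_formula {F : Type*} [Field F] {ι β : Type*} [Fintype β] [DecidableEq β]
    (L L' : Matrix β ι F) (c : β → F) (i j : ι) :
    (L.transpose * Matrix.diagonal c * L') i j = ∑ b, L b i * c b * L' b j := by
  rw [Matrix.mul_apply]
  refine Finset.sum_congr rfl fun b _ => ?_
  rw [Matrix.mul_diagonal, Matrix.transpose_apply]

end linalg

variable {G : Type u} [Group G] [Finite G] {p : ℕ} {M : Ideal AlgInt}

/-! ### the counting formula -/

theorem coeff_one (w : GA G) :
    w.coeff 1 = (Nat.card G : ℂ)⁻¹ * ∑ χ : IrrCharacter G, (χ : G → ℂ) 1 * lin (χ : G → ℂ) w := by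
  classical
  have := Fintype.ofFinite G
  have hG : (Nat.card G : ℂ) ≠ 0 := by exact_mod_cast Nat.card_pos.ne'
  have h1 : ∑ χ : IrrCharacter G, (χ : G → ℂ) 1 * lin (χ : G → ℂ) w =
      ∑ g : G, w.coeff g * ∑ χ : IrrCharacter G, (χ : G → ℂ) 1 * (χ : G → ℂ) g := by
    simp only [lin_apply, Finset.mul_sum]
    rw [Finset.sum_comm]
    refine Finset.sum_congr rfl fun g _ => Finset.sum_congr rfl fun χ _ => ?_
    ring
  rw [h1, Finset.sum_eq_single (1 : G)]
  · have h2 := sum_degree_sq (G := G)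
    have h3 : ∑ χ : IrrCharacter G, (χ : G → ℂ) 1 * (χ : G → ℂ) 1 = (Nat.card G : ℂ) := by
      rw [← h2]
      exact Finset.sum_congr rfl fun χ _ => (sq _).symm
    rw [h3]
    field_simp
  · intro g _ hg
    rw [sum_degree_mul g hg, mul_zero]
  · intro h
    exact absurd (Finset.mem_univ _) h

theorem card_formula (x y : G) (S : Subgroup G) [Fintype S] :
    (Nat.card {yz : G × G // IsConj x yz.1 ∧ IsConj y yz.2 ∧ yz.2 * yz.1⁻¹ ∈ S} : ℂ) =
      (Nat.card G : ℂ)⁻¹ * ∑ χ : IrrCharacter G, (χ : G → ℂ) 1 * ((∑ u : S, (χ : G → ℂ) u) *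
        (centralChar (χ : G → ℂ) x * centralChar (χ : G → ℂ) y⁻¹)) := by
  classical
  have := Fintype.ofFinite G
  set s : GA G := ofFun (fun g => if g ∈ S then (1 : ℂ) else 0) with hs
  set w : GA G := classSum x * classSum y⁻¹ with hw
  have hwc : w ∈ Subalgebra.center ℂ (GA G) :=
    Subalgebra.mul_mem _ (classSum_mem_center x) (classSum_mem_center y⁻¹)
  have h1 : (s * w).coeff 1 =
      (Nat.card {yz : G × G // IsConj x yz.1 ∧ IsConj y yz.2 ∧ yz.2 * yz.1⁻¹ ∈ S} : ℂ) := by
    rw [coeff_mul_fintype]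
    have h2 : ∀ h : G, s.coeff h * w.coeff (h⁻¹ * 1) =
        ∑ a : G, if (h ∈ S ∧ IsConj x a ∧ IsConj y (h * a)) then (1 : ℂ) else 0 := by
      intro h
      rw [hw, coeff_mul_fintype, hs, coeff_ofFun, Finset.mul_sum]
      refine Finset.sum_congr rfl fun a _ => ?_
      rw [coeff_classSum, coeff_classSum]
      have h3 : IsConj y⁻¹ (a⁻¹ * (h⁻¹ * 1)) ↔ IsConj y (h * a) := by
        have h4 : a⁻¹ * (h⁻¹ * 1) = (h * a)⁻¹ := by group
        rw [h4]
        constructor
        · intro h5
          obtain ⟨c, hc⟩ := isConj_iff.mp h5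
          refine isConj_iff.mpr ⟨c, ?_⟩
          have h6 := congrArg (fun z => z⁻¹) hc
          simp only [mul_inv_rev, inv_inv] at h6
          rw [← mul_assoc] at h6
          have h7 : c * y * c⁻¹ = h * a := by
            rw [← h6]
          exact h7
        · intro h5
          obtain ⟨c, hc⟩ := isConj_iff.mp h5
          refine isConj_iff.mpr ⟨c, ?_⟩
          rw [← hc]
          group
      have h3' : IsConj y⁻¹ (a⁻¹ * h⁻¹) = IsConj y (h * a) := by
        rw [mul_one] at h3
        exact propext h3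
      by_cases c1 : h ∈ S <;> by_cases c2 : IsConj x a <;> by_cases c3 : IsConj y (h * a) <;>
        simp only [h3', c1, c2, c3, if_true, if_false, and_true, and_false, mul_one, mul_zero,
          zero_mul, true_and, false_and]
    rw [Finset.sum_congr rfl fun h _ => h2 h, Finset.sum_comm]
    have h3 : ∀ a : G, ∑ h : G, (if (h ∈ S ∧ IsConj x a ∧ IsConj y (h * a)) then (1 : ℂ) else 0) =
        ∑ z : G, if (IsConj x a ∧ IsConj y z ∧ z * a⁻¹ ∈ S) then (1 : ℂ) else 0 := by
      intro a
      refine Fintype.sum_equiv (Equiv.mulRight a) _ _ fun h => ?_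
      simp only [Equiv.coe_mulRight, mul_inv_cancel_right]
      congr 1
      exact propext ⟨fun ⟨h1, h2, h3⟩ => ⟨h2, h3, h1⟩, fun ⟨h1, h2, h3⟩ => ⟨h3, h1, h2⟩⟩
    rw [Finset.sum_congr rfl fun a _ => h3 a, ← Fintype.sum_prod_type'
      (f := fun a z : G => if (IsConj x a ∧ IsConj y z ∧ z * a⁻¹ ∈ S) then (1 : ℂ) else 0)]
    rw [Nat.card_eq_fintype_card, Fintype.card_subtype, Finset.card_filter]
    push_cast
    rfl
  rw [← h1, coeff_one]
  congr 1
  refine Finset.sum_congr rfl fun χ _ => ?_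
  rw [lin_mul' χ.2 hwc, hw, omega_mul χ.2 (classSum_mem_center x),
    omega_classSum χ.2.isClassFunction, omega_classSum χ.2.isClassFunction]
  have h2 : lin (χ : G → ℂ) s = ∑ u : S, (χ : G → ℂ) u := by
    rw [lin_apply]
    simp only [hs, coeff_ofFun, ite_mul, one_mul, zero_mul]
    rw [← Finset.sum_filter]
    refine (Finset.sum_subtype (Finset.univ.filter (fun g => g ∈ S)) (by simp) _)
  rw [h2]
  ring

/-! ### the dual bases -/

section dual

variable [hMm : M.IsMaximal]

/-- the Sylow condition on the support of a block idempotent, modulo the kernel of the Brauer map -/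
theorem sylC_of_units (hM : IsPModular p M) {D : Subgroup G} [D.Normal]
    {B' : Set (IrrCharacter G)} (hB' : IsPBlock M B') (hD' : IsDefectGroup p M B' D)
    {χ : IrrCharacter G} {g : G} (h1 : ¬ MemLocalIdeal M (blockCoeff B' g))
    (h2 : ¬ MemLocalIdeal M (centralChar (χ : G → ℂ) g)) : ¬ p ∣ orderOf g ∧ SylC p g D := by
  have := isPrime hM
  have : Fact p.Prime := ⟨hM.1⟩
  have hDp := defectGroup_isPGroup hD'
  refine ⟨fun h => h1 (by rw [blockCoeff_eq_zero hM hB' h]; exact idl_zero), ?_⟩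
  have hgC : g ∈ Subgroup.centralizer (D : Set G) := by
    by_contra h
    exact h2 (BlockNormP.idl_centralChar_of_not_mem hM hDp χ h)
  have hDC : D ≤ Subgroup.centralizer ({g} : Set G) := by
    intro d hd
    rw [Subgroup.mem_centralizer_singleton_iff]
    exact (Subgroup.mem_centralizer_iff.mp hgC d hd)
  obtain ⟨x, P, hP, hle⟩ := minmax_coeff hM hB' hD' h1
  have hmap : D.map (MulAut.conj x).toMonoidHom = D := by
    ext y
    rw [mem_map_conj]
    constructor
    · intro h
      have h3 := (inferInstance : D.Normal).conj_mem _ h x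
      have h4 : x * (x⁻¹ * y * x) * x⁻¹ = y := by group
      rwa [h4] at h3
    · intro h
      have h3 := (inferInstance : D.Normal).conj_mem _ h x⁻¹
      rwa [inv_inv] at h3
  rw [hmap] at hle
  have h5 := (sylIn_iff.mp hP).2.2 D hDC hDp hle
  rw [h5]
  exact hP

theorem dual (hM : IsPModular p M) {D : Subgroup G} [D.Normal] {ι : Type*} [Fintype ι] (x : ι → G)
    (hinj : Function.Injective (fun i => ConjClasses.mk (x i)))
    (hx : ∀ g, ¬ p ∣ orderOf g → SylC p g D → ∃ i, ConjClasses.mk (x i) = ConjClasses.mk g)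
    {B B' : Set (IrrCharacter G)} (hB : IsPBlock M B) (hB' : IsPBlock M B')
    (hD' : IsDefectGroup p M B' D) {χ : IrrCharacter G} (hχ : χ ∈ B) [Decidable (B = B')] :
    ∑ i, red M (centralChar (χ : G → ℂ) (x i)) * red M (blockCoeff B' (x i)) =
      if B = B' then 1 else 0 := by
  classical
  have := isPrime hM
  have := Fintype.ofFinite (ConjClasses G)
  have hloc : ∀ g, MemLocalRing M (blockCoeff B' g) := fun g => locA_eB hB' g
  have h1 : omega (χ : G → ℂ) (eB B') = if B = B' then 1 else 0 := by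
    by_cases h : B = B'
    · rw [if_pos h, omega_eB_mem (h ▸ hχ)]
    · rw [if_neg h, omega_eB_not_mem]
      intro h2
      apply h
      obtain ⟨θ, rfl⟩ := hB
      obtain ⟨θ', rfl⟩ := hB'
      rw [blockOf_eq (mem_blockOf.mp hχ), blockOf_eq (mem_blockOf.mp h2)]
  have h2 : red M (omega (χ : G → ℂ) (eB B')) = if B = B' then 1 else 0 := by
    rw [h1]
    split_ifs
    · exact red_one
    · exact red_zero
  rw [← h2, omega_eq_sum χ.2.isClassFunction (eB_mem_center B')]
  rw [red_sum fun C _ => by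
    rw [coeff_eB]
    exact loc_mul (hloc _) (loc_centralChar χ.2 _)]
  refine Fintype.sum_of_injective (fun i => ConjClasses.mk (x i)) hinj _ _ ?_ ?_
  · intro C hC
    rw [coeff_eB, red_mul (hloc _) (loc_centralChar χ.2 _)]
    by_contra hne
    rw [mul_eq_zero, not_or] at hne
    obtain ⟨h3, h4⟩ := sylC_of_units hM (χ := χ) hB' hD' (g := Quotient.out C)
      (fun h => hne.1 (red_eq_zero h)) (fun h => hne.2 (red_eq_zero h))
    obtain ⟨i, hi⟩ := hx _ h3 h4
    apply hC
    refine ⟨i, ?_⟩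
    change ConjClasses.mk (x i) = C
    rw [hi]
    exact Quotient.out_eq C
  · intro i
    have hconj : IsConj (Quotient.out (ConjClasses.mk (x i)) : G) (x i) :=
      ConjClasses.mk_eq_mk_iff_isConj.mp (Quotient.out_eq (ConjClasses.mk (x i)))
    rw [coeff_eB, red_mul (hloc _) (loc_centralChar χ.2 _), mul_comm]
    rw [(isClassFunction_blockCoeff B').conj_eq hconj,
      centralChar_conj χ.2.isClassFunction hconj]

end dual

/-! ### the terms of the counting formula -/

section terms

theorem sum_sylow (S : Subgroup G) [Fintype S] (χ : IrrCharacter G) :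
    ∃ m : ℕ, ∑ u : S, (χ : G → ℂ) u = (Nat.card S : ℂ) * m := by
  obtain ⟨n, hn⟩ := (χ.2.isCharacter.restrict S).classInner_nat
    (isIrrCharacter_one (G := S)).isCharacter
  refine ⟨n, ?_⟩
  have hS : (Nat.card S : ℂ) ≠ 0 := by exact_mod_cast Nat.card_pos.ne'
  rw [← hn, classInner, ← mul_assoc, mul_inv_cancel₀ hS, one_mul]
  refine Finset.sum_congr rfl fun u _ => ?_
  simp

/-- the exponent -/
noncomputable def qq (p : ℕ) (D : Subgroup G) : ℕ :=
  p ^ ((Nat.card G).factorization p - (Nat.card D).factorization p)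

theorem loc_term (hM : IsPModular p M) {D : Subgroup G} (S : Sylow p G)
    [Fintype (S : Subgroup G)] {B : Set (IrrCharacter G)} (hB : IsPBlock M B)
    (hD : IsDefectGroup p M B D) {χ : IrrCharacter G} (hχ : χ ∈ B) :
    MemLocalRing M ((χ : G → ℂ) 1 * (∑ u : (S : Subgroup G), (χ : G → ℂ) u) /
      ((Nat.card G : ℂ) * (qq p D : ℂ))) := by
  have := isPrime hM
  have : Fact p.Prime := ⟨hM.1⟩
  obtain ⟨m, hm⟩ := sum_sylow (S : Subgroup G) χ
  have h1 : qq p D ∣ charDegree (χ : G → ℂ) := by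
    have h2 := pow_dvd_degree hM hB hχ
    have h3 := defectGroup_card hM hB hD
    unfold qq
    rw [h3, hM.1.factorization_pow, Finsupp.single_eq_same]
    exact h2
  obtain ⟨k, hk⟩ := h1
  have hq : (qq p D : ℂ) ≠ 0 := by
    unfold qq
    exact_mod_cast pow_ne_zero _ hM.1.ne_zero
  have hS : (Nat.card (S : Subgroup G) : ℂ) ≠ 0 := by exact_mod_cast Nat.card_pos.ne'
  have hI : ((S : Subgroup G).index : ℂ) ≠ 0 := by
    exact_mod_cast Subgroup.index_ne_zero_of_finite
  have h4 : (χ : G → ℂ) 1 * (∑ u : (S : Subgroup G), (χ : G → ℂ) u) /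
      ((Nat.card G : ℂ) * (qq p D : ℂ)) =
      (((S : Subgroup G).index : ℂ))⁻¹ * ((m : ℂ) * (k : ℂ)) := by
    rw [hm, (charDegree_spec χ.2).1, hk, ← (S : Subgroup G).card_mul_index]
    push_cast
    field_simp
  rw [h4]
  exact loc_mul (loc_inv_natCast hM S.not_dvd_index) (loc_mul (loc_natCast _) (loc_natCast _))

theorem sylC_inv {D : Subgroup G} {y : G} (h : SylC p y D) : SylC p y⁻¹ D := by
  have h1 : Subgroup.centralizer ({y⁻¹} : Set G) = Subgroup.centralizer ({y} : Set G) := by
    ext z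
    rw [Subgroup.mem_centralizer_singleton_iff, Subgroup.mem_centralizer_singleton_iff]
    constructor
    · intro h
      have h2 : Commute z y⁻¹ := h
      exact (Commute.inv_right_iff.mp h2)
    · intro h
      have h2 : Commute z y := h
      exact (Commute.inv_right_iff.mpr h2)
  rw [SylC, h1]
  exact h

theorem idl_term (hM : IsPModular p M) {D : Subgroup G} [D.Normal] (hDp : IsPGroup p D)
    (S : Sylow p G) [Fintype (S : Subgroup G)] {B : Set (IrrCharacter G)} (hB : IsPBlock M B)
    (hD : ¬ IsDefectGroup p M B D) {χ : IrrCharacter G} (hχ : χ ∈ B) {x y : G}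
    (hx : SylC p x D) (hy : SylC p y D) :
    MemLocalIdeal M ((χ : G → ℂ) 1 * (∑ u : (S : Subgroup G), (χ : G → ℂ) u) /
      ((Nat.card G : ℂ) * (qq p D : ℂ)) *
      (centralChar (χ : G → ℂ) x * centralChar (χ : G → ℂ) y⁻¹)) := by
  have := isPrime hM
  have : Fact p.Prime := ⟨hM.1⟩
  have hω : MemLocalIdeal M (centralChar (χ : G → ℂ) y⁻¹) := by
    by_contra hcon
    apply hD
    obtain ⟨D', hD'⟩ := exists_defectGroup hM hB
    have h1 : D ≤ D' := BlockNormP.le_defectGroup hM hDp hB hD'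
    obtain ⟨z, hz⟩ := minmax_omega hM hB hD' ⟨χ, hχ, hcon⟩ (sylC_inv hy)
    have hmap : D.map (MulAut.conj z).toMonoidHom = D := by
      ext y
      rw [mem_map_conj]
      constructor
      · intro h
        have h3 := (inferInstance : D.Normal).conj_mem _ h z
        have h4 : z * (z⁻¹ * y * z) * z⁻¹ = y := by group
        rwa [h4] at h3
      · intro h
        have h3 := (inferInstance : D.Normal).conj_mem _ h z⁻¹
        rwa [inv_inv] at h3
    rw [hmap] at hz
    rw [le_antisymm h1 hz]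
    exact hD'
  obtain ⟨m, hm⟩ := sum_sylow (S : Subgroup G) χ
  have hq : (qq p D : ℂ) ≠ 0 := by
    unfold qq
    exact_mod_cast pow_ne_zero _ hM.1.ne_zero
  have hS : (Nat.card (S : Subgroup G) : ℂ) ≠ 0 := by exact_mod_cast Nat.card_pos.ne'
  have hI : ((S : Subgroup G).index : ℂ) ≠ 0 := by
    exact_mod_cast Subgroup.index_ne_zero_of_finite
  have h1 : (χ : G → ℂ) 1 ≠ 0 := χ.2.one_ne_zero
  have hidx : qq p D ∣ (Subgroup.centralizer ({x} : Set G)).index := by
    have h2 := sylC_card hx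
    have hi0 : (Subgroup.centralizer ({x} : Set G)).index ≠ 0 := Subgroup.index_ne_zero_of_finite
    have h3 := congrArg (fun n => n.factorization p)
      (Subgroup.centralizer ({x} : Set G)).card_mul_index
    rw [Nat.factorization_mul Nat.card_pos.ne' hi0, Finsupp.add_apply] at h3
    unfold qq
    rw [hM.1.pow_dvd_iff_le_factorization hi0, h2, hM.1.factorization_pow,
      Finsupp.single_eq_same]
    omega
  obtain ⟨k, hk⟩ := hidx
  have h4 : (χ : G → ℂ) 1 * (∑ u : (S : Subgroup G), (χ : G → ℂ) u) /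
      ((Nat.card G : ℂ) * (qq p D : ℂ)) *
      (centralChar (χ : G → ℂ) x * centralChar (χ : G → ℂ) y⁻¹) =
      ((((S : Subgroup G).index : ℂ))⁻¹ * ((m : ℂ) * (k : ℂ) * (χ : G → ℂ) x)) *
        centralChar (χ : G → ℂ) y⁻¹ := by
    rw [hm, ← (S : Subgroup G).card_mul_index, centralChar, hk]
    push_cast
    field_simp
  rw [h4]
  exact idl_mul_left (loc_mul (loc_inv_natCast hM S.not_dvd_index)
    (loc_mul (loc_mul (loc_natCast _) (loc_natCast _)) (loc_irr χ x))) hω

theorem not_idl_sum (hM : IsPModular p M) {D : Subgroup G} (S : Sylow p G)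
    [Fintype (S : Subgroup G)] {B : Set (IrrCharacter G)} (hB : IsPBlock M B)
    (hD : IsDefectGroup p M B D) :
    ¬ MemLocalIdeal M (∑ᶠ χ ∈ B, ((χ : G → ℂ) 1 * (∑ u : (S : Subgroup G), (χ : G → ℂ) u) /
      ((Nat.card G : ℂ) * (qq p D : ℂ)))) := by
  classical
  have := isPrime hM
  have : Fact p.Prime := ⟨hM.1⟩
  have hN : ∑ᶠ χ ∈ B, ((χ : G → ℂ) 1 * (∑ u : (S : Subgroup G), (χ : G → ℂ) u) /
      ((Nat.card G : ℂ) * (qq p D : ℂ))) =
      ((∑ᶠ χ ∈ B, charDegree (χ : G → ℂ) ^ 2 : ℕ) : ℂ) / ((Nat.card G * qq p D : ℕ) : ℂ) := by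
    rw [finsum_mem_eq_finite_toFinset_sum _ (Set.toFinite _),
      finsum_mem_eq_finite_toFinset_sum _ (Set.toFinite _), ← Finset.sum_div]
    push_cast
    congr 1
    rw [Finset.sum_congr rfl fun χ _ => Finset.mul_sum _ _ _, Finset.sum_comm,
      Finset.sum_eq_single (1 : (S : Subgroup G))]
    · refine Finset.sum_congr rfl fun χ _ => ?_
      rw [← (charDegree_spec χ.2).1]
      simp [sq]
    · intro u _ hu
      have hpu : p ∣ orderOf (u : G) := by
        rw [Subgroup.orderOf_coe]
        obtain ⟨k, hk⟩ := S.isPGroup' u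
        have h1 : orderOf u ∣ p ^ k := orderOf_dvd_of_pow_eq_one hk
        obtain ⟨j, -, hj⟩ := (Nat.dvd_prime_pow hM.1).mp h1
        rw [hj]
        rcases j with _ | j
        · exfalso
          apply hu
          rw [pow_zero] at hj
          exact orderOf_eq_one_iff.mp hj
        · exact dvd_pow_self p (Nat.succ_ne_zero j)
      have h2 := weak_orthogonality hM hB (x := 1) (by
        rw [orderOf_one]
        exact fun h => hM.1.one_lt.ne' (Nat.dvd_one.mp h)) hpu
      rw [finsum_mem_eq_finite_toFinset_sum _ (Set.toFinite _)] at h2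
      have h3 := congrArg (starRingEnd ℂ) h2
      rw [map_sum, map_zero] at h3
      rw [← h3]
      refine Finset.sum_congr rfl fun χ _ => ?_
      rw [map_mul, Complex.conj_conj]
      congr 1
      rw [(charDegree_spec χ.2).1]
      simp
    · intro h
      exact absurd (Finset.mem_univ _) h
  rw [hN]
  obtain ⟨χ₀, hχ₀⟩ := isPBlock_nonempty hB
  have hn0 : (∑ᶠ χ ∈ B, charDegree (χ : G → ℂ) ^ 2 : ℕ) ≠ 0 := by
    rw [finsum_mem_eq_finite_toFinset_sum _ (Set.toFinite _)]
    intro h
    rw [Finset.sum_eq_zero_iff] at h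
    exact (charDegree_spec χ₀.2).2 (pow_eq_zero_iff (two_ne_zero) |>.mp
      (h χ₀ (by simpa using hχ₀)))
  have hq0 : qq p D ≠ 0 := by
    unfold qq
    exact pow_ne_zero _ hM.1.ne_zero
  have hg0 : Nat.card G * qq p D ≠ 0 := mul_ne_zero Nat.card_pos.ne' hq0
  have hf1 := Contrib2.dim_block hM hB
  have hcard := defectGroup_card hM hB hD
  have hle : blockDefect p B ≤ (Nat.card G).factorization p := by
    rw [blockDefect_eq]
    omega
  have hf2 : (Nat.card G * qq p D).factorization p =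
      2 * (Nat.card G).factorization p - blockDefect p B := by
    rw [Nat.factorization_mul Nat.card_pos.ne' hq0, Finsupp.add_apply]
    unfold qq
    rw [hM.1.factorization_pow, Finsupp.single_eq_same, hcard, hM.1.factorization_pow,
      Finsupp.single_eq_same]
    omega
  have hloc : MemLocalRing M (((Nat.card G * qq p D : ℕ) : ℂ) /
      ((∑ᶠ χ ∈ B, charDegree (χ : G → ℂ) ^ 2 : ℕ) : ℂ)) :=
    (loc_div_natCast_iff hM hg0 hn0).mpr (by rw [hf1, hf2])
  have h5 := not_idl_inv hloc (div_ne_zero (by exact_mod_cast hg0) (by exact_mod_cast hn0))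
  rw [inv_div] at h5
  exact h5

end terms

/-! ### the theorem -/

section final

theorem red_natCast [hMm : M.IsMaximal] (n : ℕ) : red M (n : ℂ) = (n : Kf M) := by
  have h := red_coe (M := M) (n : AlgInt)
  rw [map_natCast] at h
  rw [← h]
  simp

theorem entry (hM : IsPModular p M) [hMm : M.IsMaximal] {D : Subgroup G} [D.Normal]
    (hDp : IsPGroup p D) (S : Sylow p G)
    [Fintype (S : Subgroup G)] {x y : G} (hx : SylC p x D) (hy : SylC p y D)
    [Fintype {B : Set (IrrCharacter G) // IsPBlock M B ∧ IsDefectGroup p M B D}]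
    (rep : {B : Set (IrrCharacter G) // IsPBlock M B ∧ IsDefectGroup p M B D} → IrrCharacter G)
    (hrep : ∀ b, rep b ∈ b.1) :
    qq p D ∣ Nat.card {yz : G × G // IsConj x yz.1 ∧ IsConj y yz.2 ∧
      yz.2 * yz.1⁻¹ ∈ (S : Subgroup G)} ∧
    ((Nat.card {yz : G × G // IsConj x yz.1 ∧ IsConj y yz.2 ∧
      yz.2 * yz.1⁻¹ ∈ (S : Subgroup G)} / qq p D : ℕ) : Kf M) =
      ∑ b, red M (centralChar (rep b : G → ℂ) x) *
        red M (∑ᶠ χ ∈ b.1, ((χ : G → ℂ) 1 * (∑ u : (S : Subgroup G), (χ : G → ℂ) u) /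
          ((Nat.card G : ℂ) * (qq p D : ℂ)))) * red M (centralChar (rep b : G → ℂ) y⁻¹) := by
  classical
  have := isPrime hM
  have : Fact p.Prime := ⟨hM.1⟩
  set n := Nat.card {yz : G × G // IsConj x yz.1 ∧ IsConj y yz.2 ∧
      yz.2 * yz.1⁻¹ ∈ (S : Subgroup G)} with hn
  have hq0 : qq p D ≠ 0 := by
    unfold qq
    exact pow_ne_zero _ hM.1.ne_zero
  set c : IrrCharacter G → ℂ := fun χ =>
    (χ : G → ℂ) 1 * (∑ u : (S : Subgroup G), (χ : G → ℂ) u) /
      ((Nat.card G : ℂ) * (qq p D : ℂ)) with hc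
  have h1 : (n : ℂ) / (qq p D : ℂ) = ∑ χ : IrrCharacter G, c χ *
      (centralChar (χ : G → ℂ) x * centralChar (χ : G → ℂ) y⁻¹) := by
    rw [hn, card_formula x y (S : Subgroup G), Finset.mul_sum, Finset.sum_div]
    refine Finset.sum_congr rfl fun χ _ => ?_
    rw [hc]
    simp only
    have hG : (Nat.card G : ℂ) ≠ 0 := by exact_mod_cast Nat.card_pos.ne'
    have hq : (qq p D : ℂ) ≠ 0 := by exact_mod_cast hq0
    field_simp
  have hgood : ∀ χ : IrrCharacter G, IsDefectGroup p M (blockOf M (χ : G → ℂ)) D →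
      MemLocalRing M (c χ) := fun χ h =>
    loc_term hM S (isPBlock_blockOf χ) h (mem_blockOf_self χ)
  have hbad : ∀ χ : IrrCharacter G, ¬ IsDefectGroup p M (blockOf M (χ : G → ℂ)) D →
      MemLocalIdeal M (c χ * (centralChar (χ : G → ℂ) x * centralChar (χ : G → ℂ) y⁻¹)) :=
    fun χ h => idl_term hM hDp S (isPBlock_blockOf χ) h (mem_blockOf_self χ) hx hy
  have hloc : ∀ χ : IrrCharacter G, MemLocalRing M
      (c χ * (centralChar (χ : G → ℂ) x * centralChar (χ : G → ℂ) y⁻¹)) := by
    intro χ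
    by_cases h : IsDefectGroup p M (blockOf M (χ : G → ℂ)) D
    · exact loc_mul (hgood χ h) (loc_mul (loc_centralChar χ.2 _) (loc_centralChar χ.2 _))
    · exact loc_of_idl (hbad χ h)
  have hdvd : qq p D ∣ n := by
    by_cases hn0 : n = 0
    · rw [hn0]
      exact dvd_zero _
    · have h2 : MemLocalRing M ((n : ℂ) / (qq p D : ℂ)) := by
        rw [h1]
        exact loc_sum fun χ _ => hloc χ
      have h3 := (loc_div_natCast_iff hM hn0 hq0).mp h2
      unfold qq at h3 ⊢
      rw [hM.1.factorization_pow, Finsupp.single_eq_same] at h3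
      exact (hM.1.pow_dvd_iff_le_factorization hn0).mpr h3
  refine ⟨hdvd, ?_⟩
  obtain ⟨k, hk⟩ := hdvd
  have h2 : (n : ℂ) / (qq p D : ℂ) = (k : ℂ) := by
    rw [hk]
    push_cast
    have hq : (qq p D : ℂ) ≠ 0 := by exact_mod_cast hq0
    field_simp
  have h3 : n / qq p D = k := by
    rw [hk]
    exact Nat.mul_div_cancel_left k (Nat.pos_of_ne_zero hq0)
  rw [h3, ← red_natCast, ← h2, h1, red_sum fun χ _ => hloc χ]
  -- distribute over blocks
  have hblk : ∀ b : {B : Set (IrrCharacter G) // IsPBlock M B ∧ IsDefectGroup p M B D},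
      ∀ χ ∈ b.1, blockOf M (χ : G → ℂ) = b.1 := by
    rintro ⟨B, hB, hBD⟩ χ hχ
    obtain ⟨θ, rfl⟩ := hB
    exact (blockOf_eq (mem_blockOf.mp hχ)).symm
  have h4 : ∀ χ : IrrCharacter G,
      red M (c χ * (centralChar (χ : G → ℂ) x * centralChar (χ : G → ℂ) y⁻¹)) =
      ∑ b : {B : Set (IrrCharacter G) // IsPBlock M B ∧ IsDefectGroup p M B D},
        if χ ∈ b.1 then red M (c χ) * (red M (centralChar (rep b : G → ℂ) x) *
          red M (centralChar (rep b : G → ℂ) y⁻¹)) else 0 := by
    intro χ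
    by_cases h : IsDefectGroup p M (blockOf M (χ : G → ℂ)) D
    · rw [Finset.sum_eq_single ⟨blockOf M (χ : G → ℂ), isPBlock_blockOf χ, h⟩]
      · rw [if_pos (mem_blockOf_self χ), red_mul (hgood χ h)
          (loc_mul (loc_centralChar χ.2 _) (loc_centralChar χ.2 _)),
          red_mul (loc_centralChar χ.2 _) (loc_centralChar χ.2 _)]
        have hr := hrep ⟨blockOf M (χ : G → ℂ), isPBlock_blockOf χ, h⟩
        have hsb : SameBlock M (χ : G → ℂ)
          (rep ⟨blockOf M (χ : G → ℂ), isPBlock_blockOf χ, h⟩ : G → ℂ) := mem_blockOf.mp hr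
        rw [(red_eq_iff (loc_centralChar χ.2 _) (loc_centralChar (rep _).2 _)).mpr (hsb x),
          (red_eq_iff (loc_centralChar χ.2 _) (loc_centralChar (rep _).2 _)).mpr (hsb y⁻¹)]
      · intro b _ hb
        rw [if_neg]
        intro h5
        apply hb
        exact Subtype.ext (hblk b χ h5).symm
      · intro h5
        exact absurd (Finset.mem_univ _) h5
    · rw [red_eq_zero (hbad χ h)]
      symm
      apply Finset.sum_eq_zero
      intro b _
      rw [if_neg]
      intro h5
      apply h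
      rw [hblk b χ h5]
      exact b.2.2
  rw [Finset.sum_congr rfl fun χ _ => h4 χ, Finset.sum_comm]
  refine Finset.sum_congr rfl fun b _ => ?_
  rw [← Finset.sum_filter, finsum_mem_eq_finite_toFinset_sum _ (Set.toFinite _)]
  have h6 : ∑ a ∈ Finset.univ.filter (fun χ : IrrCharacter G => χ ∈ b.1),
      red M (c a) * (red M (centralChar (rep b : G → ℂ) x) *
        red M (centralChar (rep b : G → ℂ) y⁻¹)) =
      (∑ a ∈ Finset.univ.filter (fun χ : IrrCharacter G => χ ∈ b.1), red M (c a)) *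
        (red M (centralChar (rep b : G → ℂ) x) * red M (centralChar (rep b : G → ℂ) y⁻¹)) :=
    (Finset.sum_mul _ _ _).symm
  rw [h6]
  have h5 : (Set.toFinite b.1).toFinset = Finset.univ.filter (fun χ : IrrCharacter G => χ ∈ b.1) := by
    ext; simp
  rw [h5, red_sum (fun χ hχ => hgood χ (by
    rw [hblk b χ (Finset.mem_filter.mp hχ).2]
    exact b.2.2))]
  ring

theorem main (hM : IsPModular p M) {D : Subgroup G} [D.Normal]
    (hDp : IsPGroup p D) (S : Sylow p G) {ι : Type*} [Fintype ι] [DecidableEq ι] (x : ι → G)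
    (hinj : Function.Injective (fun i => ConjClasses.mk (x i)))
    (hsyl : ∀ i, SylC p (x i) D)
    (hx : ∀ g, ¬ p ∣ orderOf g → SylC p g D → ∃ i, ConjClasses.mk (x i) = ConjClasses.mk g)
    (A : Matrix ι ι (ZMod p))
    (hA : ∀ i j, A i j = ((Nat.card {yz : G × G // IsConj (x i) yz.1 ∧ IsConj (x j) yz.2 ∧
      yz.2 * yz.1⁻¹ ∈ (S : Subgroup G)} / qq p D : ℕ) : ZMod p)) [Fact p.Prime] :
    Nat.card {B : Set (IrrCharacter G) // IsPBlock M B ∧ IsDefectGroup p M B D} = A.rank := by
  classical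
  have := isPrime hM
  have hMm : M.IsMaximal := hM.2.1
  have := Fintype.ofFinite (S : Subgroup G)
  have hcp : CharP (Kf M) p := charP_Kf hM
  have := Fintype.ofFinite {B : Set (IrrCharacter G) // IsPBlock M B ∧ IsDefectGroup p M B D}
  have hne : ∀ b : {B : Set (IrrCharacter G) // IsPBlock M B ∧ IsDefectGroup p M B D},
    ∃ χ, χ ∈ b.1 := fun b => isPBlock_nonempty b.2.1
  choose rep hrep using hne
  let f : ZMod p →+* Kf M := ZMod.castHom (dvd_refl p) (Kf M)
  rw [← rank_map f A, Nat.card_eq_fintype_card]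
  symm
  have hinj' : Function.Injective (fun i => ConjClasses.mk (x i)⁻¹) := by
    intro i j h
    apply hinj
    have h1 : IsConj (x i)⁻¹ (x j)⁻¹ := ConjClasses.mk_eq_mk_iff_isConj.mp h
    obtain ⟨c, hc⟩ := isConj_iff.mp h1
    apply ConjClasses.mk_eq_mk_iff_isConj.mpr
    refine isConj_iff.mpr ⟨c, ?_⟩
    have h2 := congrArg (fun z => z⁻¹) hc
    simp only [mul_inv_rev, inv_inv] at h2
    rw [← h2, mul_assoc]
  have hx' : ∀ g, ¬ p ∣ orderOf g → SylC p g D →
      ∃ i, ConjClasses.mk (x i)⁻¹ = ConjClasses.mk g := by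
    intro g hg hgD
    obtain ⟨i, hi⟩ := hx g⁻¹ (by rwa [orderOf_inv]) (sylC_inv hgD)
    refine ⟨i, ?_⟩
    have h1 : IsConj (x i) g⁻¹ := ConjClasses.mk_eq_mk_iff_isConj.mp hi
    obtain ⟨c, hc⟩ := isConj_iff.mp h1
    apply ConjClasses.mk_eq_mk_iff_isConj.mpr
    refine isConj_iff.mpr ⟨c, ?_⟩
    have h2 := congrArg (fun z => z⁻¹) hc
    simp only [mul_inv_rev, inv_inv] at h2
    rw [← h2, mul_assoc]
  refine rank_eq_card (A.map f) (Matrix.of fun b i => red M (centralChar (rep b : G → ℂ) (x i)))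
    (Matrix.of fun b i => red M (centralChar (rep b : G → ℂ) (x i)⁻¹))
    (Matrix.of fun i b => red M (blockCoeff b.1 (x i)))
    (Matrix.of fun i b => red M (blockCoeff b.1 (x i)⁻¹))
    (fun b => red M (∑ᶠ χ ∈ b.1, ((χ : G → ℂ) 1 * (∑ u : (S : Subgroup G), (χ : G → ℂ) u) /
          ((Nat.card G : ℂ) * (qq p D : ℂ))))) ?_ ?_ ?_ ?_
  · intro b h
    refine not_idl_sum hM S b.2.1 b.2.2 ((red_eq_zero_iff ?_).mp h)
    rw [finsum_mem_eq_finite_toFinset_sum _ (Set.toFinite _)]
    exact loc_sum fun χ hχ => loc_term hM S b.2.1 b.2.2 (by simpa using hχ)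
  · ext b b'
    rw [Matrix.mul_apply, Matrix.one_apply]
    simp only [Matrix.of_apply]
    rw [dual hM x hinj hx b.2.1 b'.2.1 b'.2.2 (hrep b)]
    exact if_congr Subtype.ext_iff.symm rfl rfl
  · ext b b'
    rw [Matrix.mul_apply, Matrix.one_apply]
    simp only [Matrix.of_apply]
    rw [dual hM (fun i => (x i)⁻¹) hinj' hx' b.2.1 b'.2.1 b'.2.2 (hrep b)]
    exact if_congr Subtype.ext_iff.symm rfl rfl
  · ext i j
    rw [Matrix.map_apply, hA, map_natCast, entry_formula]
    exact (entry hM hDp S (hsyl i) (hsyl j) rep hrep).2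

end final

end Cfsg.Agent.Lib.BlockRank
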