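import Mathlib
import Cfsg.Agent.Lib.BlockFirst
import Cfsg.Agent.Lib.InducedPair
import Cfsg.Agent.Lib.BlkTransport
import Cfsg.Agent.Lib.BlockTransfer

set_option autoImplicit false
set_option linter.all false

/-!
# The Brauer correspondence in terms of the Brauer map
-/

namespace Cfsg.Agent.Lib.BrCorr

open Cfsg Cfsg.Agent.Lib.BlockRing Cfsg.Agent.Lib.BlockGA Cfsg.Agent.Lib.BlockIdem
open Cfsg.Agent.Lib.BlockAlg Cfsg.Agent.Lib.BlkIdem Cfsg.Agent.Lib.BrauerPairs
open Cfsg.Agent.Lib.BlockRes (resH coeff_resH brH coeff_brH)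

universe u

variable {G : Type u} [Group G] [Finite G] {p : ℕ} [hp : Fact p.Prime] {M : Ideal AlgInt} [hMm : M.IsMaximal]
  {P N : Subgroup G}

omit hp in
theorem inc_redA_brH (hCN : Subgroup.centralizer (P : Set G) ≤ N) (z : GA G) :
    inc N (redA M (brH P N z)) = BrauerMap.br P (redA M z) := by
  apply BrauerMap.ext_coeff; intro g
  by_cases hg : g ∈ Subgroup.centralizer (P : Set G)
  · rw [BrauerMap.br_coeff_mem hg]
    have h1 := inc_coeff_coe (M := M) N (redA M (brH P N z)) ⟨g, hCN hg⟩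
    rw [h1, redA_coeff, redA_coeff, BlockRes.coeff_brH_mem hg]
  · rw [BrauerMap.br_coeff_not_mem hg]
    by_cases hgN : g ∈ N
    · have h1 := inc_coeff_coe (M := M) N (redA M (brH P N z)) ⟨g, hgN⟩
      rw [h1, redA_coeff, BlockRes.coeff_brH_not_mem hg, red_zero]
    · exact inc_coeff_not_mem N _ hgN

omit hp in
theorem bidG_fix (B : Set (IrrCharacter G)) (K : Subgroup G) : bidG M B ∈ BrauerMap.fixAlg (Kf M) K := by
  intro x _
  exact (bidG_mem B).2 x (Subgroup.mem_top x)

theorem br_idem (hM : IsPModular p M) (hP : IsPGroup p P) {B : Set (IrrCharacter G)} (hB : IsPBlock M B) :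
    BrauerMap.br P (bidG M B) * BrauerMap.br P (bidG M B) = BrauerMap.br P (bidG M B) := by
  haveI := charP_Kf hM
  have := hMm.isPrime
  rw [← BrauerMap.br_mul hP (bidG_fix B P) (bidG_fix B P)]
  congr 1
  unfold bidG
  rw [← redA_mul (locA_eB hB) (locA_eB hB), eB_mul_self]

theorem induced_iff_br (hM : IsPModular p M) (hP : IsPGroup p P) (hPN : P ≤ N)
    (hCN : Subgroup.centralizer (P : Set G) ≤ N) (hNN : N ≤ Subgroup.normalizer (P : Set G))
    {b : Set (IrrCharacter N)} (hb : IsPBlock M b) {B : Set (IrrCharacter G)} (hB : IsPBlock M B) :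
    IsInducedBlock M N b B ↔ BrauerMap.br P (bidG M B) * bid M N b = bid M N b := by
  have hMP : M.IsPrime := hMm.isPrime
  obtain ⟨ξ, hξ⟩ := isPBlock_nonempty hb
  obtain ⟨χ, hχ⟩ := isPBlock_nonempty hB
  have hz : inc N (redA M (brH P N (eB B))) = BrauerMap.br P (bidG M B) := inc_redA_brH hCN _
  have hc : brH P N (eB B) ∈ Subalgebra.center ℂ (GA N) := BlockRes.brH_center hNN (eB_mem_center B)
  have hl : LocA M (brH P N (eB B)) := BlockRes.locA_brH (locA_eB hB)
  have key := idem_mul_bid_iff hb hξ hc hl (by rw [hz]; exact br_idem hM hP hB)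
  rw [hz] at key
  rw [key]
  constructor
  · intro h
    have h1 := BlockHom.induced_brF hM hP hPN hNN h hξ hχ (eB_mem_center B) (locA_eB hB)
    rw [omega_eB_mem hχ, BlockHom.brF_apply] at h1
    exact h1
  · intro h
    apply BlockHom.isInducedBlock_of_not_idl hM hP hPN hCN hNN hb hξ hB
    intro h1
    rw [BlockHom.brF_apply] at h1
    have h2 := idl_sub h1 h
    rw [sub_sub_cancel] at h2
    exact one_not_idl h2

theorem br_mem_ZAlg (hCN : Subgroup.centralizer (P : Set G) ≤ N) (hNN : N ≤ Subgroup.normalizer (P : Set G))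
    (B : Set (IrrCharacter G)) : BrauerMap.br P (bidG M B) ∈ BrauerMap.ZAlg (Kf M) N := by
  have := hMm.isPrime
  refine ⟨BrauerMap.suppAlg_mono hCN (BrauerMap.br_mem_suppAlg P _), ?_⟩
  apply BrauerMap.mem_fixAlg_iff_coeff.2
  intro h hh g
  have h1 : (h * g * h⁻¹ ∈ Subgroup.centralizer (P : Set G)) ↔ g ∈ Subgroup.centralizer (P : Set G) :=
    BlockRes.conj_mem_centralizer_iff (hNN hh)
  by_cases hg : g ∈ Subgroup.centralizer (P : Set G)
  · rw [BrauerMap.br_coeff_mem hg, BrauerMap.br_coeff_mem (h1.2 hg)]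
    exact BrauerMap.coeff_conj (bidG_fix B N) hh g
  · rw [BrauerMap.br_coeff_not_mem hg, BrauerMap.br_coeff_not_mem (fun h => hg (h1.1 h))]

/-- the Brauer map sends the idempotent of `B` to that of its Brauer correspondent -/
theorem br_eq_bid (hM : IsPModular p M) (hN : N = Subgroup.normalizer (P : Set G)) {β : Set (IrrCharacter N)}
    {B : Set (IrrCharacter G)} (hind : IsInducedBlock M N β B) (hP : IsDefectGroup p M B P) :
    BrauerMap.br P (bidG M B) = bid M N β := by
  classical
  have := hMm.isPrime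
  have hPp : IsPGroup p P := BlockDefect.defectGroup_isPGroup hP
  have hPN : P ≤ N := by rw [hN]; exact Subgroup.le_normalizer
  have hCN : Subgroup.centralizer (P : Set G) ≤ N := by rw [hN]; exact Subgroup.centralizer_le_normalizer _
  have hNN : N ≤ Subgroup.normalizer (P : Set G) := hN.le
  haveI := Fintype.ofFinite {b : Set (IrrCharacter N) // IsPBlock M b}
  have h1 : BrauerMap.br P (bidG M B) * ∑ b : {b : Set (IrrCharacter N) // IsPBlock M b}, bid M N b.1 =
      BrauerMap.br P (bidG M B) := by rw [sum_bid, mul_one]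
  rw [← h1, Finset.mul_sum, Finset.sum_eq_single (⟨β, hind.1⟩ : {b : Set (IrrCharacter N) // IsPBlock M b})]
  · exact (induced_iff_br hM hPp hPN hCN hNN hind.1 hind.2.1).1 hind
  · intro b _ hb
    rcases (isBlk_bid b.2).mul_idem (br_mem_ZAlg hCN hNN B) (br_idem hM hPp hind.2.1) with h2 | h2
    · exfalso
      apply hb
      apply Subtype.ext
      change b.1 = β
      have h3 := (induced_iff_br hM hPp hPN hCN hNN b.2 hind.2.1).2 h2
      subst hN
      exact BlockFirst.first_main_unique hM hPp h3 (BlockFirst.defectGroup_of_induced hM hPN hNN h3 hP) hind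
        (BlockFirst.defectGroup_of_induced hM hPN hNN hind hP)
    · exact h2
  · intro h; exact absurd (Finset.mem_univ _) h

theorem first_main_exists (hM : IsPModular p M) (hN : N = Subgroup.normalizer (P : Set G))
    {B : Set (IrrCharacter G)} (hB : IsPBlock M B) (hP : IsDefectGroup p M B P) :
    ∃ β : Set (IrrCharacter N), IsPBlock M β ∧ IsDefectGroup p M β (P.subgroupOf N) ∧
      BrauerMap.br P (bidG M B) = bid M N β := by
  have := hMm.isPrime
  have hPp : IsPGroup p P := BlockDefect.defectGroup_isPGroup hP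
  have hPN : P ≤ N := by rw [hN]; exact Subgroup.le_normalizer
  have hCN : Subgroup.centralizer (P : Set G) ≤ N := by rw [hN]; exact Subgroup.centralizer_le_normalizer _
  have hNN : N ≤ Subgroup.normalizer (P : Set G) := hN.le
  obtain ⟨g, hg, P', hP'⟩ := hP
  have hgC : g ∈ Subgroup.centralizer (P : Set G) := by
    rw [Subgroup.mem_centralizer_iff]
    intro x hx
    have hx' : x ∈ P := hx
    rw [hP'] at hx'
    obtain ⟨y, -, rfl⟩ := hx'
    exact Subgroup.mem_centralizer_singleton_iff.1 y.2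
  obtain ⟨β, hβ⟩ := BlockFirst.exists_inducing_block hM hPp hPN hCN hNN hB hgC hg.2.1
  have hP0 : IsDefectGroup p M B P := ⟨g, hg, P', hP'⟩
  exact ⟨β, hβ.1, BlockFirst.defectGroup_of_induced hM hPN hNN hβ hP0, br_eq_bid hM hN hβ hP0⟩

theorem first_main_exists' (hM : IsPModular p M) (hN : N = Subgroup.normalizer (P : Set G)) (hPp : IsPGroup p P)
    {β : Set (IrrCharacter N)} (hβ : IsPBlock M β) (hP : IsDefectGroup p M β (P.subgroupOf N)) :
    ∃ B : Set (IrrCharacter G), IsPBlock M B ∧ IsDefectGroup p M B P ∧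
      BrauerMap.br P (bidG M B) = bid M N β := by
  have := hMm.isPrime
  have hPN : P ≤ N := by rw [hN]; exact Subgroup.le_normalizer
  have hCN : Subgroup.centralizer (P : Set G) ≤ N := by rw [hN]; exact Subgroup.centralizer_le_normalizer _
  have hNN : N ≤ Subgroup.normalizer (P : Set G) := hN.le
  obtain ⟨B, hB⟩ := BlockHom.inducedBlockDefined hM hPp hPN hCN hNN hβ
  have hP0 : IsDefectGroup p M B P := by
    subst hN
    exact BlockFirst.first_main_defect hM hPp hB hP
  exact ⟨B, hB.2.1, hP0, br_eq_bid hM hN hB hP0⟩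

/-- injectivity -/
theorem br_inj (hM : IsPModular p M) (hPp : IsPGroup p P) {B B' : Set (IrrCharacter G)} (hB : IsPBlock M B)
    (hB' : IsPBlock M B') (h0 : BrauerMap.br P (bidG M B) ≠ 0)
    (h : BrauerMap.br P (bidG M B) = BrauerMap.br P (bidG M B')) : B = B' := by
  haveI := charP_Kf hM
  have := hMm.isPrime
  by_contra hne
  apply h0
  have h1 : bidG M B * bidG M B' = 0 := by
    unfold bidG
    rw [← redA_mul (locA_eB hB) (locA_eB hB'), eB_mul_eB,
      (block_disjoint hB hB' hne).inter_eq, eB_empty, redA_zero]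
  calc BrauerMap.br P (bidG M B) = BrauerMap.br P (bidG M B) * BrauerMap.br P (bidG M B) := (br_idem hM hPp hB).symm
    _ = BrauerMap.br P (bidG M B) * BrauerMap.br P (bidG M B') := by rw [← h]
    _ = BrauerMap.br P (bidG M B * bidG M B') := (BrauerMap.br_mul hPp (bidG_fix B P) (bidG_fix B' P)).symm
    _ = 0 := by rw [h1, BrauerMap.br_zero]

/-! ### transport to an overgroup of the normalizer -/

section transport

variable {H : Subgroup G}

omit hp in
theorem irrMap_eq_trB {K H : Subgroup G} (hKH : K ≤ H) (b : Set (IrrCharacter K)) :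
    irrMap (InducedPair.subEquiv hKH) '' b = BlockTransfer.trB (BlockTransfer.subE hKH) b := rfl

omit [Finite G] hp in
theorem map_subE {P N H : Subgroup G} (hNH : N ≤ H) (hPN : P ≤ N) :
    ((P.subgroupOf H).subgroupOf (N.subgroupOf H)).map (BlockTransfer.subE hNH).toMonoidHom = P.subgroupOf N := by
  ext x
  constructor
  · rintro ⟨y, hy, rfl⟩
    exact hy
  · intro hx
    refine ⟨(BlockTransfer.subE hNH).symm x, ?_, (BlockTransfer.subE hNH).apply_symm_apply x⟩
    exact hx

omit [Finite G] hp in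
theorem normalizer_subgroupOf' {P N H : Subgroup G} (hN : N = Subgroup.normalizer (P : Set G)) (hNH : N ≤ H)
    (hPN : P ≤ N) : N.subgroupOf H = Subgroup.normalizer ((P.subgroupOf H : Subgroup H) : Set H) := by
  ext x
  rw [BlkTransport.mem_normalizer_subgroupOf (hPN.trans hNH), Subgroup.mem_subgroupOf, hN]

theorem main_down (hM : IsPModular p M) (hN : N = Subgroup.normalizer (P : Set G)) (hNH : N ≤ H)
    {B : Set (IrrCharacter G)} (hB : IsPBlock M B) (hP : IsDefectGroup p M B P) :
    ∃ c : Set (IrrCharacter H), IsPBlock M c ∧ IsDefectGroup p M c (P.subgroupOf H) ∧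
      BrauerMap.br P (bidG M B) = BrauerMap.br P (bid M H c) := by
  have hPp : IsPGroup p P := BlockDefect.defectGroup_isPGroup hP
  have hPN : P ≤ N := by rw [hN]; exact Subgroup.le_normalizer
  obtain ⟨β, hβ, hβD, h1⟩ := first_main_exists hM hN hB hP
  have hβ' : IsPBlock M (BlockTransfer.trB (BlockTransfer.subE hNH) β) := BlockTransfer.isPBlock_tr hβ
  have hβD' : IsDefectGroup p M (BlockTransfer.trB (BlockTransfer.subE hNH) β)
      ((P.subgroupOf H).subgroupOf (N.subgroupOf H)) := by
    rw [BlockTransfer.isDefectGroup_tr_iff, map_subE hNH hPN]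
    exact hβD
  obtain ⟨c, hc, hcD, h2⟩ := first_main_exists' (G := H) (P := P.subgroupOf H) (N := N.subgroupOf H) hM
    (normalizer_subgroupOf' hN hNH hPN) (hPp.comap_of_injective H.subtype H.subtype_injective) hβ' hβD'
  refine ⟨c, hc, hcD, ?_⟩
  have h3 := congrArg (inc H) h2
  rw [InducedPair.inc_br (hPN.trans hNH), ← irrMap_eq_trB, InducedPair.inc_bid hNH] at h3
  rw [h1, ← h3]
  rfl

theorem main_up (hM : IsPModular p M) (hN : N = Subgroup.normalizer (P : Set G)) (hNH : N ≤ H)
    (hPp : IsPGroup p P) {c : Set (IrrCharacter H)} (hc : IsPBlock M c) (hP : IsDefectGroup p M c (P.subgroupOf H)) :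
    ∃ B : Set (IrrCharacter G), IsPBlock M B ∧ IsDefectGroup p M B P ∧
      BrauerMap.br P (bidG M B) = BrauerMap.br P (bid M H c) := by
  have hPN : P ≤ N := by rw [hN]; exact Subgroup.le_normalizer
  obtain ⟨β', hβ', hβD', h2⟩ := first_main_exists (G := H) (P := P.subgroupOf H) (N := N.subgroupOf H) hM
    (normalizer_subgroupOf' hN hNH hPN) hc hP
  set β : Set (IrrCharacter N) := BlockTransfer.trB (BlockTransfer.subE hNH).symm β' with hβdef
  have hβ'' : BlockTransfer.trB (BlockTransfer.subE hNH) β = β' := BlockTransfer.trB_symm_trB _ _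
  have hβ : IsPBlock M β := BlockTransfer.isPBlock_tr hβ'
  have hβD : IsDefectGroup p M β (P.subgroupOf N) := by
    rw [← map_subE hNH hPN, ← BlockTransfer.isDefectGroup_tr_iff, hβ'']
    exact hβD'
  obtain ⟨B, hB, hBD, h1⟩ := first_main_exists' hM hN hPp hβ hβD
  refine ⟨B, hB, hBD, ?_⟩
  rw [← hβ''] at h2
  have h3 := congrArg (inc H) h2
  rw [InducedPair.inc_br (hPN.trans hNH), ← irrMap_eq_trB, InducedPair.inc_bid hNH] at h3
  rw [h1, ← h3]
  rfl

theorem br_eq_iff (hM : IsPModular p M) {B : Set (IrrCharacter G)} (hB : IsPBlock M B) {c : Set (IrrCharacter H)}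
    (hc : IsPBlock M c) : BrauerMap.br P (bidG M B) = BrauerMap.br P (bid M H c) ↔
      ∀ x : G, x ∈ Subgroup.centralizer (P : Set G) →
        MemLocalIdeal M (blockCoeff B x - subgroupBlockCoeff H c x) := by
  have := hMm.isPrime
  have hl1 : ∀ x, MemLocalRing M (blockCoeff B x) := fun x => locA_eB hB x
  have hl2 : ∀ x, MemLocalRing M (subgroupBlockCoeff H c x) := by
    intro x
    unfold subgroupBlockCoeff
    split_ifs with h
    · exact locA_eB hc _
    · exact loc_zero
  constructor
  · intro h x hx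
    have h1 := BrauerMap.coeff_eq_of_eq h x
    rw [BrauerMap.br_coeff_mem hx, BrauerMap.br_coeff_mem hx, bid_coeff, bidG_coeff] at h1
    exact (red_eq_iff (hl1 x) (hl2 x)).1 h1
  · intro h
    apply BrauerMap.ext_coeff; intro x
    by_cases hx : x ∈ Subgroup.centralizer (P : Set G)
    · rw [BrauerMap.br_coeff_mem hx, BrauerMap.br_coeff_mem hx, bid_coeff, bidG_coeff]
      exact (red_eq_iff (hl1 x) (hl2 x)).2 (h x hx)
    · rw [BrauerMap.br_coeff_not_mem hx, BrauerMap.br_coeff_not_mem hx]

theorem br_ne_zero (hM : IsPModular p M) {B : Set (IrrCharacter G)} (hB : IsPBlock M B) (hP : IsDefectGroup p M B P) :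
    BrauerMap.br P (bidG M B) ≠ 0 := by
  obtain ⟨β, hβ, -, h1⟩ := first_main_exists hM rfl hB hP
  rw [h1]
  exact (isBlk_bid hβ).ne_zero

theorem br_inj' (hM : IsPModular p M) (hPp : IsPGroup p P) (hPH : P ≤ H) {c c' : Set (IrrCharacter H)} (hc : IsPBlock M c)
    (hc' : IsPBlock M c') (h0 : BrauerMap.br P (bid M H c) ≠ 0)
    (h : BrauerMap.br P (bid M H c) = BrauerMap.br P (bid M H c')) : c = c' := by
  have h1 : ∀ c : Set (IrrCharacter H), BrauerMap.br P (bid M H c) = inc H (BrauerMap.br (P.subgroupOf H) (bidG M c)) := by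
    intro c
    rw [InducedPair.inc_br hPH]; rfl
  rw [h1, h1] at h
  rw [h1] at h0
  apply br_inj (G := H) (P := P.subgroupOf H) hM (hPp.comap_of_injective H.subtype H.subtype_injective) hc hc'
  · intro h2
    apply h0
    rw [h2, map_zero]
  · exact inc_injective H h

theorem result (hM : IsPModular p M) (P H : Subgroup G) (hP : IsPGroup p P)
    (hH : Subgroup.normalizer (P : Set G) ≤ H) :
    (∀ B : Set (IrrCharacter G), IsPBlock M B → IsDefectGroup p M B P →
      ∃! c : Set (IrrCharacter H), IsPBlock M c ∧ IsDefectGroup p M c (P.subgroupOf H) ∧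
        ∀ x : G, x ∈ Subgroup.centralizer (P : Set G) → MemLocalIdeal M (blockCoeff B x - subgroupBlockCoeff H c x)) ∧
    (∀ c : Set (IrrCharacter H), IsPBlock M c → IsDefectGroup p M c (P.subgroupOf H) →
      ∃! B : Set (IrrCharacter G), IsPBlock M B ∧ IsDefectGroup p M B P ∧
        ∀ x : G, x ∈ Subgroup.centralizer (P : Set G) →
          MemLocalIdeal M (blockCoeff B x - subgroupBlockCoeff H c x)) := by
  have hPH : P ≤ H := Subgroup.le_normalizer.trans hH
  constructor
  · intro B hB hBP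
    obtain ⟨c, hc, hcP, h1⟩ := main_down hM rfl hH hB hBP
    refine ⟨c, ⟨hc, hcP, (br_eq_iff hM hB hc).1 h1⟩, ?_⟩
    rintro c' ⟨hc', hcP', h2⟩
    have h3 := (br_eq_iff hM hB hc').2 h2
    have h0 := br_ne_zero hM hB hBP
    rw [h3] at h0
    exact br_inj' hM hP hPH hc' hc h0 (h3.symm.trans h1)
  · intro c hc hcP
    obtain ⟨B, hB, hBP, h1⟩ := main_up hM rfl hH hP hc hcP
    refine ⟨B, ⟨hB, hBP, (br_eq_iff hM hB hc).1 h1⟩, ?_⟩
    rintro B' ⟨hB', hBP', h2⟩
    have h3 := (br_eq_iff hM hB' hc).2 h2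
    exact br_inj hM hP hB' hB (br_ne_zero hM hB' hBP') (h3.trans h1.symm)

end transport

end Cfsg.Agent.Lib.BrCorr
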