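import Mathlib.GroupTheory.GroupAction.MultipleTransitivity
import Mathlib.GroupTheory.GroupAction.Primitive
import Mathlib.GroupTheory.GroupAction.ConjAct
import Mathlib.GroupTheory.Sylow
import Mathlib.Tactic
import Cfsg.Agent.Lib.NormalMT

/-!
Burnside's theorem on minimal normal subgroups of doubly transitive groups (helper12).
-/

set_option autoImplicit false

namespace Cfsg.Agent.Lib.BurnsideTwo

open MulAction

open scoped Pointwise

variable {G α : Type*} [Group G] [MulAction G α]

/-- half-transitivity: orbits of `N_a` have size dividing `n - 1`. -/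
theorem orbit_dvd (h2 : IsMultiplyPretransitive G α 2) [Finite α] (N : Subgroup G) [N.Normal]
    {a b : α} (hab : b ≠ a) :
    Set.ncard {y : α | ∃ n ∈ N, n • a = a ∧ n • b = y} ∣ Nat.card α - 1 := by
  have htr : IsPretransitive G α := isPretransitive_of_is_two_pretransitive (h2 := h2)
  have h1 : IsMultiplyPretransitive (stabilizer G a) (SubMulAction.ofStabilizer G a) 1 :=
    (SubMulAction.ofStabilizer.isMultiplyPretransitive (a := a)).mp h2
  have h1' : IsPretransitive (stabilizer G a) (SubMulAction.ofStabilizer G a) :=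
    is_one_pretransitive_iff.mp h1
  let x : SubMulAction.ofStabilizer G a := ⟨b, hab⟩
  have hB : IsBlock (stabilizer G a) (orbit (N.subgroupOf (stabilizer G a)) x) :=
    IsBlock.orbit_of_normal x
  have h3 := hB.ncard_dvd_card ⟨x, mem_orbit_self x⟩
  have h4 := SubMulAction.nat_card_ofStabilizer_add_one_eq G a
  have h5 : Nat.card (SubMulAction.ofStabilizer G a) = Nat.card α - 1 := by omega
  rw [h5] at h3
  have h6 : Set.ncard {y : α | ∃ n ∈ N, n • a = a ∧ n • b = y} =
      (orbit (N.subgroupOf (stabilizer G a)) x).ncard := by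
    rw [← Set.ncard_image_of_injective _ (Subtype.val_injective)]
    congr 1
    ext y
    constructor
    · rintro ⟨n, hn, hna, rfl⟩
      exact ⟨(⟨⟨n, hna⟩, hn⟩ : N.subgroupOf (stabilizer G a)) • x, mem_orbit _ _, rfl⟩
    · rintro ⟨_, ⟨w, rfl⟩, rfl⟩
      exact ⟨((w : stabilizer G a) : G), w.2, (w : stabilizer G a).2, rfl⟩
  rw [h6]; exact h3

/-- If `N` is not primitive then two-point stabilisers are trivial. -/
theorem two_point_trivial [Finite α] [FaithfulSMul G α]
    (h2 : ∀ {a b c d : α}, a ≠ b → c ≠ d → ∃ g : G, g • a = c ∧ g • b = d)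
    (N : Subgroup G) [hN : N.Normal] {B0 : Set α} (hB0 : IsBlock N B0) (hB0s : ¬ B0.Subsingleton)
    (hB0u : B0 ≠ Set.univ) {n : G} (hn : n ∈ N) {a b : α} (hab : a ≠ b) (ha : n • a = a)
    (hb : n • b = b) : n = 1 := by
  classical
  -- minimal block
  have hex : ∃ k : ℕ, ∃ B : Set α, IsBlock N B ∧ ¬ B.Subsingleton ∧ B.ncard = k :=
    ⟨_, B0, hB0, hB0s, rfl⟩
  obtain ⟨B, hB, hBs, hBk⟩ := Nat.find_spec hex
  have hmin : ∀ C : Set α, IsBlock N C → ¬ C.Subsingleton → B.ncard ≤ C.ncard := by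
    intro C hC hCs
    rw [hBk]
    exact Nat.find_min' hex ⟨C, hC, hCs, rfl⟩
  set k := B.ncard with hk
  have hkn : k < Nat.card α := by
    have h1 := hmin B0 hB0 hB0s
    have h3 : B0.ncard < Nat.card α := by
      rw [← Set.ncard_univ]
      exact Set.ncard_lt_ncard (Set.ssubset_univ_iff.mpr hB0u) (Set.toFinite _)
    omega
  -- lines
  have htrans : ∀ (g : G), IsBlock N (g • B) := by
    intro g
    rw [isBlock_iff_smul_eq_or_disjoint]
    intro m
    have hm : g⁻¹ * (m : G) * g ∈ N := by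
      have := hN.conj_mem m m.2 g⁻¹
      rwa [inv_inv] at this
    have h1 : m • (g • B) = g • ((⟨_, hm⟩ : N) • B) := by
      show (m : G) • (g • B) = g • ((g⁻¹ * (m : G) * g) • B)
      rw [smul_smul, smul_smul]; congr 1; group
    rcases (isBlock_iff_smul_eq_or_disjoint.mp hB) ⟨_, hm⟩ with h | h
    · left; rw [h1, h]
    · right; rw [h1]; exact Set.disjoint_smul_set.mpr h
  have hline : ∀ {a b : α}, a ≠ b → ∃ L : Set α, IsBlock N L ∧ L.ncard = k ∧ a ∈ L ∧ b ∈ L := by
    intro a b hab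
    obtain ⟨x, hx, y, hy, hxy⟩ := Set.not_subsingleton_iff.mp hBs
    obtain ⟨g, hga, hgb⟩ := h2 hxy hab
    exact ⟨g • B, htrans g, Set.ncard_smul_set g B, hga ▸ Set.smul_mem_smul_set hx,
      hgb ▸ Set.smul_mem_smul_set hy⟩
  have huniq : ∀ {L1 L2 : Set α}, IsBlock N L1 → L1.ncard = k → IsBlock N L2 → L2.ncard = k →
      ∀ {a b : α}, a ≠ b → a ∈ L1 → b ∈ L1 → a ∈ L2 → b ∈ L2 → L1 = L2 := by
    intro L1 L2 h1 h1k h3 h3k a b hab ha1 hb1 ha2 hb2
    have hi := hmin (L1 ∩ L2) (h1.inter h3) (Set.not_subsingleton_iff.mpr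
      ⟨a, ⟨ha1, ha2⟩, b, ⟨hb1, hb2⟩, hab⟩)
    have e1 : L1 ∩ L2 = L1 := Set.eq_of_subset_of_ncard_le Set.inter_subset_left
      (by rw [h1k]; exact hi) (Set.toFinite _)
    have e2 : L1 ∩ L2 = L2 := Set.eq_of_subset_of_ncard_le Set.inter_subset_right
      (by rw [h3k]; exact hi) (Set.toFinite _)
    rw [← e1, e2]
  have hfixL : ∀ {L : Set α}, IsBlock N L → ∀ {a c : α}, a ∈ L → n • a = a → c ∈ L → n • c ∈ L := by
    intro L hL a c haL hna hc
    rcases (isBlock_iff_smul_eq_or_disjoint.mp hL) (⟨n, hn⟩ : N) with h | h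
    · have : (⟨n, hn⟩ : N) • c ∈ (⟨n, hn⟩ : N) • L := Set.smul_mem_smul_set hc
      rw [h] at this; exact this
    · exfalso
      have h1 : a ∈ (⟨n, hn⟩ : N) • L := by
        have : (⟨n, hn⟩ : N) • a ∈ (⟨n, hn⟩ : N) • L := Set.smul_mem_smul_set haL
        rwa [show (⟨n, hn⟩ : N) • a = a from hna] at this
      exact Set.disjoint_left.mp h h1 haL
  have claim1 : ∀ {a b c : α} {L : Set α}, a ≠ b → n • a = a → n • b = b → IsBlock N L →
      L.ncard = k → a ∈ L → b ∈ L → c ∉ L → n • c = c := by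
    intro a b c L hab ha hb hL hLk haL hbL hcL
    have hac : a ≠ c := by rintro rfl; exact hcL haL
    have hbc : b ≠ c := by rintro rfl; exact hcL hbL
    obtain ⟨La, hLa, hLak, haLa, hcLa⟩ := hline hac
    obtain ⟨Lb, hLb, hLbk, hbLb, hcLb⟩ := hline hbc
    by_contra hne
    have h1 := hfixL hLa haLa ha hcLa
    have h3 := hfixL hLb hbLb hb hcLb
    have h4 := huniq hLa hLak hLb hLbk (Ne.symm hne) hcLa h1 hcLb h3
    have h5 := huniq hLa hLak hL hLk hab haLa (h4 ▸ hbLb) haL hbL
    exact hcL (h5 ▸ hcLa)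
  obtain ⟨L, hL, hLk, haL, hbL⟩ := hline hab
  obtain ⟨c, hc⟩ : ∃ c, c ∉ L := by
    by_contra hcon
    push Not at hcon
    have : L = Set.univ := Set.eq_univ_of_forall hcon
    rw [this, Set.ncard_univ] at hLk
    omega
  have hnc := claim1 hab ha hb hL hLk haL hbL hc
  have hac : a ≠ c := by rintro rfl; exact hc haL
  obtain ⟨La, hLa, hLak, haLa, hcLa⟩ := hline hac
  apply FaithfulSMul.eq_of_smul_eq_smul (α := α)
  intro d
  rw [one_smul]
  by_cases hd : d ∈ L
  · by_cases hda : d = a
    · rw [hda]; exact ha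
    · apply claim1 hac ha hnc hLa hLak haLa hcLa
      intro hdLa
      have := huniq hLa hLak hL hLk (Ne.symm hda) haLa hdLa haL hd
      exact hc (this ▸ hcLa)
  · exact claim1 hab ha hb hL hLk haL hbL hd

/-- Counting fixed-point-free elements in a transitive group with trivial two-point stabilisers. -/
theorem card_fpf {H : Type*} [Group H] [MulAction H α] [Finite H] [Finite α]
    (htr : IsPretransitive H α) (hα : 2 ≤ Nat.card α)
    (h : ∀ g : H, ∀ a b : α, a ≠ b → g • a = a → g • b = b → g = 1) :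
    Set.ncard {g : H | g = 1 ∨ ∀ x : α, g • x ≠ x} = Nat.card α := by
  classical
  have : Fintype H := Fintype.ofFinite H
  have : Fintype α := Fintype.ofFinite α
  have hne : Nonempty α := (Nat.card_pos_iff.mp (by omega)).1
  have hburn := sum_card_fixedBy_eq_card_orbits_mul_card_group H α
  have horb : Fintype.card (Quotient (orbitRel H α)) = 1 := by
    rw [Fintype.card_eq_one_iff]
    obtain ⟨a⟩ := hne
    refine ⟨Quotient.mk _ a, fun y => ?_⟩
    induction y using Quotient.inductionOn with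
    | _ b =>
      apply Quotient.sound
      obtain ⟨g, hg⟩ := htr.exists_smul_eq a b
      exact ⟨g, hg⟩
  rw [horb, one_mul] at hburn
  -- split the sum
  have hle : ∀ g : H, g ≠ 1 → Fintype.card (fixedBy α g) ≤ 1 := by
    intro g hg
    rw [Fintype.card_le_one_iff]
    rintro ⟨a, ha⟩ ⟨b, hb⟩
    by_contra hab
    exact hg (h g a b (fun h => hab (Subtype.ext h)) ha hb)
  have h1 : Fintype.card (fixedBy α (1 : H)) = Fintype.card α := by
    apply Fintype.card_congr
    exact ⟨fun x => x.1, fun x => ⟨x, one_smul H x⟩, fun x => rfl, fun x => rfl⟩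
  have h3 : ∀ g : H, Fintype.card (fixedBy α g) =
      (if g = 1 then Fintype.card α else (if ∃ x : α, g • x = x then 1 else 0)) := by
    intro g
    by_cases hg : g = 1
    · rw [if_pos hg, hg, h1]
    · rw [if_neg hg]
      by_cases hx : ∃ x : α, g • x = x
      · rw [if_pos hx]
        obtain ⟨x, hx⟩ := hx
        apply le_antisymm (hle g hg)
        rw [Nat.one_le_iff_ne_zero, ← Nat.pos_iff_ne_zero, Fintype.card_pos_iff]
        exact ⟨⟨x, hx⟩⟩
      · rw [if_neg hx, Fintype.card_eq_zero_iff]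
        exact ⟨fun y => hx ⟨y.1, y.2⟩⟩
  rw [Finset.sum_congr rfl (fun g _ => h3 g), Finset.sum_ite, Finset.sum_const, Finset.sum_ite,
    Finset.sum_const, Finset.sum_const_zero, add_zero, smul_eq_mul, smul_eq_mul, mul_one] at hburn
  have h4 : (Finset.univ.filter (fun g : H => g = 1)).card = 1 := by
    rw [Finset.card_eq_one]
    exact ⟨1, by ext g; simp⟩
  rw [h4, one_mul] at hburn
  have h5 : Set.ncard {g : H | g = 1 ∨ ∀ x : α, g • x ≠ x} =
      (Finset.univ.filter (fun g : H => g = 1 ∨ ∀ x : α, g • x ≠ x)).card := by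
    rw [← Set.ncard_coe_finset]
    congr 1
    ext g; simp
  rw [h5, Nat.card_eq_fintype_card]
  have h6 := Finset.card_filter_add_card_filter_not (s := (Finset.univ : Finset H))
    (fun g : H => g = 1 ∨ ∀ x : α, g • x ≠ x)
  rw [Finset.card_univ] at h6
  have h7 : (Finset.univ.filter (fun g : H => ¬ (g = 1 ∨ ∀ x : α, g • x ≠ x))).card =
      ((Finset.univ.filter (fun g : H => ¬ g = 1)).filter (fun g => ∃ x : α, g • x = x)).card := by
    congr 1
    ext g
    simp only [Finset.mem_filter, Finset.mem_univ, true_and, not_or, not_forall, not_not]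
  omega

/-- A nonregular minimal normal subgroup is primitive. -/
theorem primitive [Finite G] [Finite α] [FaithfulSMul G α] (hα : 2 ≤ Nat.card α)
    (h2 : ∀ {a b c d : α}, a ≠ b → c ≠ d → ∃ g : G, g • a = c ∧ g • b = d)
    (N : Subgroup G) [hN : N.Normal] (htr : IsPretransitive N α)
    (hmin : ∀ M : Subgroup G, M.Normal → M ≤ N → M = ⊥ ∨ M = N)
    (hreg : ¬ ∀ a : α, stabilizer N a = ⊥) : IsPreprimitive N α := by
  classical
  refine { htr with isTrivialBlock_of_isBlock := ?_ }
  intro B0 hB0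
  by_contra hcon
  rw [IsTrivialBlock, not_or] at hcon
  have h3 : ∀ g : N, ∀ a b : α, a ≠ b → g • a = a → g • b = b → g = 1 := by
    intro g a b hab ha hb
    exact Subtype.ext (two_point_trivial h2 N hB0 hcon.1 hcon.2 g.2 hab ha hb)
  have hcard := card_fpf htr hα h3
  set S : Set N := {g : N | g = 1 ∨ ∀ x : α, g • x ≠ x} with hS
  -- evaluation map
  let Ψ : S × α → α × α := fun x => (x.2, (x.1 : N) • x.2)
  have hsurj : Function.Surjective Ψ := by
    rintro ⟨a, b⟩
    by_cases hab : a = b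
    · exact ⟨(⟨1, Or.inl rfl⟩, a), by rw [← hab]; exact Prod.ext rfl (one_smul N a)⟩
    · -- a fixed-point-free element
      have hex : ∃ f ∈ S, f ≠ 1 := by
        by_contra hno
        push Not at hno
        have : S ⊆ {1} := fun x hx => hno x hx
        have := Set.ncard_le_ncard this
        rw [Set.ncard_singleton, hcard] at this
        omega
      obtain ⟨f, hfS, hf1⟩ := hex
      have hff : ∀ x : α, f • x ≠ x := by
        rcases hfS with h | h
        · exact absurd h hf1
        · exact h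
      obtain ⟨g, hga, hgb⟩ := h2 (hff a).symm hab
      let f' : N := ⟨g * f * g⁻¹, hN.conj_mem f f.2 g⟩
      have hf' : ∀ x : α, f' • x = g • (f • (g⁻¹ • x)) := by
        intro x
        show (g * (f : G) * g⁻¹) • x = g • ((f : G) • (g⁻¹ • x))
        rw [mul_smul, mul_smul]
      refine ⟨(⟨f', Or.inr ?_⟩, a), ?_⟩
      · intro x hx
        rw [hf'] at hx
        exact hff _ (eq_inv_smul_iff.mpr hx)
      · refine Prod.ext rfl ?_
        show f' • a = b
        rw [hf']
        have : g⁻¹ • a = a := by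
          conv_lhs => rw [← hga]
          rw [inv_smul_smul]
        rw [this, hgb]
  have hcards : Nat.card (S × α) = Nat.card (α × α) := by
    rw [Nat.card_prod, Nat.card_prod]
    congr 1
  have hbij : Function.Bijective Ψ :=
    (Nat.bijective_iff_surjective_and_card Ψ).mpr ⟨hsurj, hcards⟩
  have hdiff : ∀ x ∈ S, ∀ y ∈ S, x⁻¹ * y ∈ S := by
    intro x hx y hy
    by_cases h : ∃ a : α, (x⁻¹ * y) • a = a
    · obtain ⟨a, ha⟩ := h
      have h4 : Ψ (⟨x, hx⟩, a) = Ψ (⟨y, hy⟩, a) := by
        refine Prod.ext rfl ?_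
        show x • a = y • a
        rw [mul_smul, inv_smul_eq_iff] at ha
        exact ha.symm
      have h5 := hbij.1 h4
      have h6 : x = y := congrArg (fun z => (z.1 : N)) h5
      left
      rw [h6, inv_mul_cancel]
    · push Not at h
      exact Or.inr h
  have h1S : (1 : N) ∈ S := Or.inl rfl
  have hinvS : ∀ x ∈ S, x⁻¹ ∈ S := fun x hx => by
    have := hdiff x hx 1 h1S
    rwa [mul_one] at this
  let K : Subgroup G :=
    { carrier := {g | ∃ h : g ∈ N, (⟨g, h⟩ : N) ∈ S}
      one_mem' := ⟨N.one_mem, h1S⟩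
      mul_mem' := by
        rintro x y ⟨hx, hxS⟩ ⟨hy, hyS⟩
        refine ⟨N.mul_mem hx hy, ?_⟩
        have := hdiff _ (hinvS _ hxS) _ hyS
        rwa [inv_inv] at this
      inv_mem' := by
        rintro x ⟨hx, hxS⟩
        exact ⟨N.inv_mem hx, hinvS _ hxS⟩ }
  have hKN : K ≤ N := fun x hx => hx.1
  have hKn : K.Normal := by
    constructor
    rintro x ⟨hx, hxS⟩ g
    refine ⟨hN.conj_mem x hx g, ?_⟩
    rcases hxS with h | h
    · left
      apply Subtype.ext
      have : x = 1 := congrArg Subtype.val h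
      show g * x * g⁻¹ = 1
      rw [this]; group
    · right
      intro y hy
      have h4 : (g * x * g⁻¹) • y = y := hy
      apply h (g⁻¹ • y)
      show x • (g⁻¹ • y) = g⁻¹ • y
      rw [mul_smul, mul_smul, smul_eq_iff_eq_inv_smul] at h4
      exact h4
  rcases hmin K hKn hKN with h | h
  · have hsub : S ⊆ {1} := by
      intro x hx
      have h4 : (x : G) ∈ K := ⟨x.2, hx⟩
      rw [h, Subgroup.mem_bot] at h4
      exact Subtype.ext h4
    have := Set.ncard_le_ncard hsub
    rw [Set.ncard_singleton, hcard] at this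
    omega
  · apply hreg
    intro a
    rw [eq_bot_iff]
    intro x hx
    rw [Subgroup.mem_bot]
    have h4 : (x : G) ∈ K := by rw [h]; exact x.2
    obtain ⟨_, h5⟩ := h4
    rcases h5 with h6 | h6
    · exact h6
    · exact absurd hx (h6 a)

/-- A primitive nonregular minimal normal subgroup is simple. -/
theorem simple [Finite G] [Finite α] [FaithfulSMul G α] (hα : 2 ≤ Nat.card α)
    (h2 : IsMultiplyPretransitive G α 2) (N : Subgroup G) [hN : N.Normal] (hNne : N ≠ ⊥)
    (hprim : IsPreprimitive N α)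
    (hmin : ∀ M : Subgroup G, M.Normal → M ≤ N → M = ⊥ ∨ M = N)
    (hreg : ¬ ∀ a : α, stabilizer N a = ⊥) : IsSimpleGroup N := by
  classical
  have hnt : Nontrivial N := (Subgroup.nontrivial_iff_ne_bot N).mpr hNne
  by_contra hsimple
  have hex : ∃ K : Subgroup N, K.Normal ∧ K ≠ ⊥ ∧ K ≠ ⊤ := by
    by_contra hno
    push Not at hno
    apply hsimple
    refine ⟨fun K hK => ?_⟩
    by_cases h : K = ⊥
    · exact Or.inl h
    · exact Or.inr (hno K hK h)
  -- predicate: N-invariant subgroups of N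
  let Q : Subgroup G → Prop := fun M => M ≤ N ∧ M ≠ ⊥ ∧ ∀ n ∈ N, ∀ m ∈ M, n * m * n⁻¹ ∈ M
  obtain ⟨K0, hK0n, hK0b, hK0t⟩ := hex
  have hQ0 : Q (K0.map N.subtype) := by
    refine ⟨Subgroup.map_subtype_le K0, ?_, ?_⟩
    · rw [Ne, Subgroup.map_eq_bot_iff_of_injective _ N.subtype_injective]
      exact hK0b
    · rintro n hn _ ⟨m, hm, rfl⟩
      exact ⟨⟨n, hn⟩ * m * ⟨n, hn⟩⁻¹, hK0n.conj_mem m hm _, rfl⟩
  have hex2 : ∃ k : ℕ, ∃ M : Subgroup G, Q M ∧ Nat.card M = k := ⟨_, _, hQ0, rfl⟩
  obtain ⟨M, hM, hMk⟩ := Nat.find_spec hex2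
  have hMmin : ∀ M' : Subgroup G, Q M' → Nat.card M ≤ Nat.card M' := by
    intro M' hM'
    rw [hMk]
    exact Nat.find_min' hex2 ⟨M', hM', rfl⟩
  have hMlt : Nat.card M < Nat.card N := by
    have h1 := hMmin _ hQ0
    have h3 : Nat.card (K0.map N.subtype) = Nat.card K0 :=
      (Nat.card_congr (K0.equivMapOfInjective _ N.subtype_injective).toEquiv).symm
    have h4 : Nat.card K0 < Nat.card N := by
      apply lt_of_le_of_ne (Nat.le_of_dvd Nat.card_pos (Subgroup.card_subgroup_dvd_card K0))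
      intro h; exact hK0t (Subgroup.eq_top_of_card_eq K0 h)
    omega
  -- conjugates
  have hconj : ∀ g : G, Q (M.map (MulAut.conj g).toMonoidHom) ∧
      Nat.card (M.map (MulAut.conj g).toMonoidHom) = Nat.card M := by
    intro g
    refine ⟨⟨?_, ?_, ?_⟩, ?_⟩
    · rintro _ ⟨m, hm, rfl⟩
      exact hN.conj_mem m (hM.1 hm) g
    · rw [Ne, Subgroup.map_eq_bot_iff_of_injective _ (MulAut.conj g).injective]
      exact hM.2.1
    · rintro n hn _ ⟨m, hm, rfl⟩
      have h1 : g⁻¹ * n * g ∈ N := by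
        have := hN.conj_mem n hn g⁻¹
        rwa [inv_inv] at this
      refine ⟨(g⁻¹ * n * g) * m * (g⁻¹ * n * g)⁻¹, hM.2.2 _ h1 m hm, ?_⟩
      show g * ((g⁻¹ * n * g) * m * (g⁻¹ * n * g)⁻¹) * g⁻¹ = n * (g * m * g⁻¹) * n⁻¹
      group
    · exact (Nat.card_congr (M.equivMapOfInjective _ (MulAut.conj g).injective).toEquiv).symm
  -- two different minimal ones commute
  have hcomm : ∀ M1 M2 : Subgroup G, Q M1 → Q M2 → Nat.card M1 = Nat.card M →
      Nat.card M2 = Nat.card M → M1 ≠ M2 → ∀ x ∈ M1, ∀ y ∈ M2, x * y = y * x := by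
    intro M1 M2 h1 h3 h1k h3k hne x hx y hy
    have hbot : M1 ⊓ M2 = ⊥ := by
      by_contra hb
      have hQi : Q (M1 ⊓ M2) := ⟨inf_le_left.trans h1.1, hb, fun n hn m hm =>
        ⟨h1.2.2 n hn m hm.1, h3.2.2 n hn m hm.2⟩⟩
      have h4 := hMmin _ hQi
      apply hne
      have e1 : M1 ⊓ M2 = M1 := Subgroup.eq_of_le_of_card_ge inf_le_left (by rw [h1k]; exact h4)
      have e2 : M1 ⊓ M2 = M2 := Subgroup.eq_of_le_of_card_ge inf_le_right (by rw [h3k]; exact h4)
      rw [← e1, e2]
    have h4 : x * y * x⁻¹ * y⁻¹ ∈ M1 ⊓ M2 := by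
      constructor
      · have : x * y * x⁻¹ * y⁻¹ = x * (y * x⁻¹ * y⁻¹) := by group
        rw [this]
        exact M1.mul_mem hx (h1.2.2 y (h3.1 hy) _ (M1.inv_mem hx))
      · exact M2.mul_mem (h3.2.2 x (h1.1 hx) y hy) (M2.inv_mem hy)
    rw [hbot, Subgroup.mem_bot] at h4
    have : x * y = (x * y * x⁻¹ * y⁻¹) * (y * x) := by group
    rw [this, h4, one_mul]
  -- Q-subgroups are transitive
  have htrans : ∀ M' : Subgroup G, Q M' → ∀ a b : α, ∃ m ∈ M', m • a = b := by
    intro M' hM' a b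
    have hn : (M'.subgroupOf N).Normal := by
      constructor
      intro m hm n
      exact hM'.2.2 n n.2 m hm
    have hne : M'.subgroupOf N ≠ ⊥ := by
      rw [Ne, Subgroup.subgroupOf_eq_bot, disjoint_iff, inf_eq_left.mpr hM'.1]
      exact hM'.2.1
    have := NormalMT.normal_transitive hprim (M'.subgroupOf N) hne
    obtain ⟨m, hm⟩ := this.exists_smul_eq a b
    exact ⟨((m : N) : G), m.2, hm⟩
  -- M is not normal in G
  obtain ⟨g0, hg0⟩ : ∃ g : G, M.map (MulAut.conj g).toMonoidHom ≠ M := by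
    by_contra hno
    push Not at hno
    have hMn : M.Normal := by
      constructor
      intro m hm g
      have : g * m * g⁻¹ ∈ M.map (MulAut.conj g).toMonoidHom := ⟨m, hm, rfl⟩
      rwa [hno g] at this
    rcases hmin M hMn hM.1 with h | h
    · exact hM.2.1 h
    · rw [h] at hMlt; exact lt_irrefl _ hMlt
  set M' := M.map (MulAut.conj g0).toMonoidHom with hM'def
  obtain ⟨hM'Q, hM'card⟩ := hconj g0
  have hMM' : ∀ x ∈ M, ∀ y ∈ M', x * y = y * x := hcomm M M' hM hM'Q rfl hM'card hg0.symm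
  -- an element commuting with a transitive group and fixing a point is trivial
  have hsemi : ∀ M1 : Subgroup G, Q M1 → ∀ x : G, (∀ y ∈ M1, x * y = y * x) → ∀ a : α, x • a = a →
      x = 1 := by
    intro M1 hM1 x hx a ha
    apply FaithfulSMul.eq_of_smul_eq_smul (α := α)
    intro b
    obtain ⟨y, hy, rfl⟩ := htrans M1 hM1 a b
    rw [one_smul, ← mul_smul, hx y hy, mul_smul, ha]
  -- every conjugate of M is M or M'
  have hconj2 : ∀ g : G, M.map (MulAut.conj g).toMonoidHom = M ∨
      M.map (MulAut.conj g).toMonoidHom = M' := by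
    intro g
    by_cases h : M.map (MulAut.conj g).toMonoidHom = M
    · exact Or.inl h
    · right
      obtain ⟨hgQ, hgcard⟩ := hconj g
      have hc := hcomm M _ hM hgQ rfl hgcard (Ne.symm h)
      apply Subgroup.eq_of_le_of_card_ge
      · intro x hx
        obtain ⟨a⟩ : Nonempty α := (Nat.card_pos_iff.mp (by omega)).1
        obtain ⟨y, hy, hya⟩ := htrans M' hM'Q a (x • a)
        have h5 : y⁻¹ * x = 1 := by
          apply hsemi M hM _ _ a
          · rw [mul_smul, ← hya, inv_smul_smul]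
          · intro m hm
            have e1 : m * x = x * m := hc m hm x hx
            have e2 : m * y = y * m := hMM' m hm y hy
            have e3 : y⁻¹ * m = m * y⁻¹ := by
              rw [inv_mul_eq_iff_eq_mul, ← mul_assoc, ← e2, mul_inv_cancel_right]
            rw [mul_assoc, ← e1, ← mul_assoc, e3, mul_assoc]
        have h6 : x = y := by
          rw [inv_mul_eq_one] at h5; exact h5.symm
        rw [h6]; exact hy
      · rw [hM'card, hgcard]
  have hsup : M ⊔ M' = N := by
    have hn : (M ⊔ M').Normal := by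
      have hmapM : ∀ g : G, M.map (MulAut.conj g).toMonoidHom ≤ M ⊔ M' := by
        intro g
        rcases hconj2 g with h | h
        · rw [h]; exact le_sup_left
        · rw [h]; exact le_sup_right
      have hmapM' : ∀ g : G, M'.map (MulAut.conj g).toMonoidHom ≤ M ⊔ M' := by
        intro g
        have : M'.map (MulAut.conj g).toMonoidHom = M.map (MulAut.conj (g * g0)).toMonoidHom := by
          rw [hM'def, Subgroup.map_map]
          congr 1
          ext x
          simp [mul_assoc]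
        rw [this]
        exact hmapM _
      constructor
      intro x hx g
      have h1 : (M ⊔ M').map (MulAut.conj g).toMonoidHom ≤ M ⊔ M' := by
        rw [Subgroup.map_sup]
        exact sup_le (hmapM g) (hmapM' g)
      exact h1 ⟨x, hx, rfl⟩
    rcases hmin _ hn (sup_le hM.1 hM'Q.1) with h | h
    · exfalso
      apply hM.2.1
      rw [eq_bot_iff, ← h]; exact le_sup_left
    · exact h
  have hdecomp : ∀ n ∈ N, ∃ m ∈ M, ∃ m' ∈ M', n = m * m' := by
    intro n hn
    rw [← hsup] at hn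
    have hle : M ≤ Subgroup.normalizer (M' : Set G) := by
      intro m hm
      rw [Subgroup.mem_normalizer_iff]
      intro y
      constructor
      · intro hy
        exact hM'Q.2.2 m (hM.1 hm) y hy
      · intro hy
        have := hM'Q.2.2 m⁻¹ (N.inv_mem (hM.1 hm)) _ hy
        have e : m⁻¹ * (m * y * m⁻¹) * m⁻¹⁻¹ = y := by group
        rwa [e] at this
    have hset := Subgroup.coe_mul_of_left_le_normalizer_right _ _ hle
    have h1 : n ∈ ((M ⊔ M' : Subgroup G) : Set G) := hn
    rw [hset] at h1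
    obtain ⟨m, hm, m', hm', h⟩ := h1
    exact ⟨m, hm, m', hm', h.symm⟩
  -- regularity of M
  have hMreg : ∀ m ∈ M, ∀ a : α, m • a = a → m = 1 := fun m hm a ha =>
    hsemi M' hM'Q m (fun y hy => hMM' m hm y hy) a ha
  have hMcard : Nat.card M = Nat.card α := by
    obtain ⟨a⟩ : Nonempty α := (Nat.card_pos_iff.mp (by omega)).1
    apply Nat.card_congr
    apply Equiv.ofBijective (fun m : M => (m : G) • a)
    constructor
    · intro x y hxy
      have : ((y : G)⁻¹ * x) • a = a := by
        have hxy' : (x : G) • a = (y : G) • a := hxy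
        rw [mul_smul, hxy', inv_smul_smul]
      have h1 := hMreg _ (M.mul_mem (M.inv_mem y.2) x.2) a this
      rw [inv_mul_eq_one] at h1
      exact (Subtype.ext h1).symm
    · intro b
      obtain ⟨m, hm, hmb⟩ := htrans M hM a b
      exact ⟨⟨m, hm⟩, hmb⟩
  -- the stabiliser acts trivially
  apply hreg
  intro a
  rw [eq_bot_iff]
  intro n hn
  rw [Subgroup.mem_bot]
  have hna : (n : G) • a = a := hn
  apply Subtype.ext
  apply FaithfulSMul.eq_of_smul_eq_smul (α := α)
  intro b
  show (n : G) • b = (1 : G) • b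
  rw [one_smul]
  by_cases hba : b = a
  · rw [hba]; exact hna
  obtain ⟨x, hx, hxb⟩ := htrans M hM a b
  have hd1 := orbit_dvd h2 N hba
  -- the orbit is in bijection with a conjugacy class of M
  have hd2 : Set.ncard {y : α | ∃ n ∈ N, n • a = a ∧ n • b = y} ∣ Nat.card α := by
    have e1 : {y : α | ∃ n ∈ N, n • a = a ∧ n • b = y} =
        (fun z : M => (z : G) • a) '' (MulAction.orbit (ConjAct M) (⟨x, hx⟩ : M)) := by
      ext y
      constructor
      · rintro ⟨n, hn, hna, rfl⟩
        obtain ⟨m, hm, m', hm', rfl⟩ := hdecomp n hn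
        refine ⟨⟨m, hm⟩ * ⟨x, hx⟩ * ⟨m, hm⟩⁻¹, ⟨ConjAct.toConjAct ⟨m, hm⟩, rfl⟩, ?_⟩
        show (m * x * m⁻¹) • a = (m * m') • b
        have h5 : x * m' = m' * x := hMM' x hx m' hm'
        have h6 : (m * m') • b = (m * x * m⁻¹) • ((m * m') • a) := by
          rw [← hxb, ← mul_smul, ← mul_smul]
          congr 1
          calc m * m' * x = m * (m' * x) := by group
            _ = m * (x * m') := by rw [h5]
            _ = m * x * m⁻¹ * (m * m') := by group
        rw [h6, hna]
      · rintro ⟨_, ⟨c, rfl⟩, rfl⟩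
        set m : M := ConjAct.ofConjAct c with hm
        obtain ⟨m', hm', hm'a⟩ := htrans M' hM'Q a ((m : G)⁻¹ • a)
        have h5 : x * m' = m' * x := hMM' x hx m' hm'
        have h7 : ((m : G) * m') • a = a := by rw [mul_smul, hm'a, smul_inv_smul]
        refine ⟨(m : G) * m', N.mul_mem (hM.1 m.2) (hM'Q.1 hm'), h7, ?_⟩
        show ((m : G) * m') • b = ((m : G) * x * (m : G)⁻¹) • a
        have h6 : ((m : G) * m') • b = ((m : G) * x * (m : G)⁻¹) • (((m : G) * m') • a) := by
          rw [← hxb, ← mul_smul, ← mul_smul]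
          congr 1
          calc (m : G) * m' * x = m * (m' * x) := by group
            _ = m * (x * m') := by rw [h5]
            _ = m * x * (m : G)⁻¹ * (m * m') := by group
        rw [h6, h7]
    rw [e1, Set.ncard_image_of_injective, ← hMcard]
    · have h8 := MulAction.index_stabilizer (ConjAct M) (⟨x, hx⟩ : M)
      rw [← h8]
      have h9 := Subgroup.index_dvd_card (stabilizer (ConjAct M) (⟨x, hx⟩ : M))
      exact h9
    · intro y z hyz
      have hyz' : (y : G) • a = (z : G) • a := hyz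
      have : ((z : G)⁻¹ * y) • a = a := by rw [mul_smul, hyz', inv_smul_smul]
      have h1 := hMreg _ (M.mul_mem (M.inv_mem z.2) y.2) a this
      rw [inv_mul_eq_one] at h1
      exact (Subtype.ext h1).symm
  have hone : Set.ncard {y : α | ∃ n ∈ N, n • a = a ∧ n • b = y} = 1 := by
    have h3 := Nat.dvd_sub hd2 hd1
    rw [show Nat.card α - (Nat.card α - 1) = 1 by omega] at h3
    exact Nat.dvd_one.mp h3
  obtain ⟨z, hz⟩ := Set.ncard_eq_one.mp hone
  have hb1 : b ∈ {y : α | ∃ n ∈ N, n • a = a ∧ n • b = y} :=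
    ⟨1, N.one_mem, one_smul _ _, one_smul _ _⟩
  have hb2 : (n : G) • b ∈ {y : α | ∃ n ∈ N, n • a = a ∧ n • b = y} := ⟨n, n.2, hna, rfl⟩
  rw [hz] at hb1 hb2
  rw [Set.mem_singleton_iff] at hb1 hb2
  rw [hb2, hb1]

/-- A regular minimal normal subgroup is elementary abelian. -/
theorem elementary [Finite G] [Finite α] [FaithfulSMul G α] (hα : 2 ≤ Nat.card α)
    (h2 : ∀ {a b c d : α}, a ≠ b → c ≠ d → ∃ g : G, g • a = c ∧ g • b = d)
    (N : Subgroup G) [hN : N.Normal] (hNne : N ≠ ⊥)
    (hmin : ∀ M : Subgroup G, M.Normal → M ≤ N → M = ⊥ ∨ M = N)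
    (hreg : ∀ a : α, stabilizer N a = ⊥) :
    (∀ x ∈ N, ∀ y ∈ N, x * y = y * x) ∧ ∃ p : ℕ, p.Prime ∧ ∀ n ∈ N, n ^ p = 1 := by
  classical
  obtain ⟨a⟩ : Nonempty α := (Nat.card_pos_iff.mp (by omega)).1
  have hreg' : ∀ x ∈ N, ∀ a : α, x • a = a → x = 1 := by
    intro x hx a ha
    have : (⟨x, hx⟩ : N) ∈ stabilizer N a := ha
    rw [hreg a, Subgroup.mem_bot] at this
    exact congrArg Subtype.val this
  -- all non-identity elements are conjugate
  have hconj : ∀ x ∈ N, x ≠ 1 → ∀ y ∈ N, y ≠ 1 → ∃ g : G, g * x * g⁻¹ = y := by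
    intro x hx hx1 y hy hy1
    have hxa : a ≠ x • a := fun h => hx1 (hreg' x hx a h.symm)
    have hya : a ≠ y • a := fun h => hy1 (hreg' y hy a h.symm)
    obtain ⟨g, hga, hgb⟩ := h2 hxa hya
    refine ⟨g, ?_⟩
    have h3 : (y⁻¹ * (g * x * g⁻¹)) • a = a := by
      have hga' : g⁻¹ • a = a := by
        conv_lhs => rw [← hga]
        rw [inv_smul_smul]
      rw [mul_smul, mul_smul, mul_smul, hga', hgb, inv_smul_smul]
    have h4 := hreg' _ (N.mul_mem (N.inv_mem hy) (hN.conj_mem x hx g)) a h3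
    rw [inv_mul_eq_one] at h4
    exact h4.symm
  have hnt : Nontrivial N := (Subgroup.nontrivial_iff_ne_bot N).mpr hNne
  obtain ⟨p, hp, hpd⟩ := Nat.exists_prime_and_dvd (n := Nat.card N) (by
    have := Finite.one_lt_card_iff_nontrivial.mpr hnt
    omega)
  have hpF := Fact.mk hp
  obtain ⟨y, hy⟩ := exists_prime_orderOf_dvd_card' (G := N) p hpd
  have hy1 : (y : G) ≠ 1 := by
    intro h
    have : y = 1 := Subtype.ext h
    rw [this, orderOf_one] at hy
    exact hp.one_lt.ne hy
  have hpow : ∀ n ∈ N, n ^ p = 1 := by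
    intro n hn
    by_cases hn1 : n = 1
    · rw [hn1, one_pow]
    obtain ⟨g, hg⟩ := hconj y y.2 hy1 n hn hn1
    rw [← hg, conj_pow]
    have : (y : G) ^ p = 1 := by
      rw [← hy]
      have := pow_orderOf_eq_one y
      exact congrArg Subtype.val this
    rw [this, mul_one, mul_inv_cancel]
  refine ⟨?_, p, hp, hpow⟩
  have hpg : IsPGroup p N := fun n => ⟨1, by
    rw [pow_one]; exact Subtype.ext (hpow n n.2)⟩
  have hZ : Nontrivial (Subgroup.center N) := hpg.center_nontrivial
  have hZn : ((Subgroup.center N).map N.subtype).Normal :=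
    ConjAct.normal_of_characteristic_of_normal
  rcases hmin _ hZn (Subgroup.map_subtype_le _) with h | h
  · exfalso
    rw [Subgroup.map_eq_bot_iff_of_injective _ N.subtype_injective] at h
    exact (Subgroup.nontrivial_iff_ne_bot _).mp hZ h
  · intro x hx z hz
    have hx' : x ∈ (Subgroup.center N).map N.subtype := by rw [h]; exact hx
    obtain ⟨c, hc, rfl⟩ := hx'
    have := Subgroup.mem_center_iff.mp hc ⟨z, hz⟩
    exact (congrArg Subtype.val this).symm

end Cfsg.Agent.Lib.BurnsideTwo
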