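import Cfsg.Agent.Lib.CFApps
import Cfsg.Prelude.Def_PLocal
import Cfsg.Prelude.Def_TwoFusion

/-!
Triple factorizations.
-/

set_option autoImplicit false

namespace Cfsg.Agent.Lib.CFTriple

open Cfsg.Agent.Lib.CFSylow Cfsg.Agent.Lib.CFFusion Cfsg.Agent.Lib.CFControl
  Cfsg.Agent.Lib.CFLocal Cfsg.Agent.Lib.CFCore Cfsg.Agent.Lib.CFSection Cfsg.Agent.Lib.CFMin
  Cfsg.Agent.Lib.CFMain Cfsg.Agent.Lib.CFRed Cfsg.Agent.Lib.CFStmt Cfsg.Agent.Lib.CFApps

universe u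

/-- factorization `X = C(Ω₁ Z(T)) N(W(T))` -/
def FacC (p : ℕ) (W : ∀ (Q : Type u) [Group Q], Subgroup Q) (X : Type u) [Group X] : Prop :=
  ∀ T : Subgroup X, SylIn p T ⊤ → ∀ x : X, ∃ a ∈ cz (Cfsg.omegaOne p (T ⊓ cz T)),
    ∃ b ∈ nz (Cfsg.inducedFunctor W T), x = a * b

section
variable {p : ℕ} {X Y : Type*} [Group X] [Group Y]

theorem mem_cz_omega {B : Subgroup X} {a : X} :
    a ∈ cz (Cfsg.omegaOne p B) ↔ ∀ z ∈ B, z ^ p = 1 → a * z * a⁻¹ = z := by
  constructor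
  · intro h z hz hzp
    exact mem_centralizer.1 h z (Subgroup.subset_closure ⟨hz, hzp⟩)
  · intro h
    have h1 : Cfsg.omegaOne p B ≤ Subgroup.centralizer {a} := by
      rw [Cfsg.omegaOne, Subgroup.closure_le]
      rintro z ⟨hz, hzp⟩
      rw [SetLike.mem_coe, Subgroup.mem_centralizer_singleton_iff]
      have := h z hz hzp
      exact (eq_mul_of_mul_inv_eq this).symm
    rw [mem_centralizer]
    intro z hz
    have := Subgroup.mem_centralizer_singleton_iff.1 (h1 hz)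
    rw [← this]; group

end

section
variable {p : ℕ} [Fact p.Prime] {H : Type u} [Group H] [Finite H]
  {W : ∀ (Q : Type u) [Group Q], Subgroup Q}

theorem facC_of_constrained (hW : Cfsg.IsCharPFunctor.{u} p W) {Q S : Subgroup H}
    (hQn : Q.Normal) (hS : SylIn p S ⊤) (hQS : Q ≤ S) (hZ : Cfsg.omegaOne p (S ⊓ cz S) ≤ Q)
    (hfac : ∀ (X : Type u) [Group X] [Finite X], IsSec X H →
      cz (Cfsg.pCore p X) ≤ Cfsg.pCore p X → FacC p W X) (x : H) :
    ∃ a ∈ cz (Cfsg.omegaOne p (S ⊓ cz S)), ∃ b ∈ nz (Cfsg.inducedFunctor W S), x = a * b := by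
  set L := nz (S ⊓ (Q ⊔ cz Q)) with hL
  have hOn : (Cfsg.pPrimeCore p ↥L).Normal := pPrimeCore_normal p ↥L
  obtain ⟨hcl, hSL, hOc, hcon⟩ := frattini_constrained hQn hS hQS L hL
  set O := Cfsg.pPrimeCore p ↥L with hO
  set π := QuotientGroup.mk' O with hπ
  have hpi : Function.Surjective π := QuotientGroup.mk'_surjective O
  obtain ⟨c, hc, l, hl, rfl⟩ := hcl x
  have hS' : SylIn p (S.subgroupOf L) ⊤ := by
    have := SylIn.comap_inj (f := L.subtype) L.subtype_injective (S := S)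
      (by rw [Subgroup.range_subtype]; exact hS.of_le hSL le_top)
    exact this
  have hS'' : SylIn p ((S.subgroupOf L).map π) ⊤ := SylIn.map_surj hpi hS'
  obtain ⟨a, ha, b, hb, hab⟩ := hfac _ ((isSec_quotient O).trans (isSec_subgroup L)) hcon _ hS''
    (π ⟨l, hl⟩)
  obtain ⟨a, rfl⟩ := hpi a
  have hZc : cz Q ≤ cz (Cfsg.omegaOne p (S ⊓ cz S)) := Subgroup.centralizer_le hZ
  have hQL : Q ≤ S ⊓ (Q ⊔ cz Q) := le_inf hQS le_sup_left
  -- `a` centralizes `Z`
  have ha' : (a : H) ∈ cz (Cfsg.omegaOne p (S ⊓ cz S)) := by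
    rw [mem_cz_omega] at ha ⊢
    intro z hz hzp
    have hzL : z ∈ L := hSL hz.1
    have hz1 : (π ⟨z, hzL⟩) ∈ (S.subgroupOf L).map π ⊓ cz ((S.subgroupOf L).map π) := by
      refine Subgroup.mem_inf.2 ⟨⟨⟨z, hzL⟩, hz.1, rfl⟩, ?_⟩
      rw [mem_centralizer]
      rintro _ ⟨s, hs, rfl⟩
      rw [← map_inv, ← map_mul, ← map_mul]
      congr 1
      exact Subtype.ext (mem_centralizer.1 hz.2 s hs)
    have h1 := ha _ hz1 (by
      rw [← map_pow]
      have : (⟨z, hzL⟩ : ↥L) ^ p = 1 := Subtype.ext hzp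
      rw [this, map_one])
    have h2 : a * ⟨z, hzL⟩ * a⁻¹ * (⟨z, hzL⟩ : ↥L)⁻¹ ∈ O := by
      rw [← mem_comap_pi (N := O)]
      simp only [map_mul, map_inv]
      change π a * π _ * (π a)⁻¹ * (π _)⁻¹ = 1
      rw [h1, mul_inv_cancel]
    have hzQ : z ∈ Q := hZ (Subgroup.subset_closure ⟨hz, hzp⟩)
    have hQn' : (Q.subgroupOf L).Normal := inferInstance
    have h3 : a * ⟨z, hzL⟩ * a⁻¹ * (⟨z, hzL⟩ : ↥L)⁻¹ ∈ Q.subgroupOf L :=
      mul_mem (hQn'.conj_mem _ hzQ _) (inv_mem (show (⟨z, hzL⟩ : ↥L) ∈ Q.subgroupOf L from hzQ))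
    have h4 := pgroup_inf_eq_one pPrimeCore_not_dvd
      ((hS.isPGroup.to_le hQS).comap_of_injective _ L.subtype_injective) h2 h3
    have h5 : (a : H) * z * (a : H)⁻¹ * z⁻¹ = 1 := congrArg Subtype.val h4
    exact mul_inv_eq_one.1 h5
  -- `b`
  have e1 : Cfsg.inducedFunctor W ((S.subgroupOf L).map π) =
      (Cfsg.inducedFunctor W (S.subgroupOf L)).map π :=
    induced_map hW π hS'.isPGroup (fun s hs h' =>
      pgroup_inf_eq_one pPrimeCore_not_dvd hS'.isPGroup (mem_comap_pi.1 h') hs)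
  have hVp : IsPGroup p (Cfsg.inducedFunctor W (S.subgroupOf L)) :=
    hS'.isPGroup.to_le (functor_le (isConjugacyFunctor_induced hW) hS'.isPGroup)
  rw [e1] at hb
  obtain ⟨b', hb', rfl⟩ := nz_map_le pPrimeCore_not_dvd hVp hb
  have e2 : Cfsg.inducedFunctor W S = (Cfsg.inducedFunctor W (S.subgroupOf L)).map L.subtype := by
    have := induced_map hW L.subtype hS'.isPGroup
      (fun s _ h' => L.subtype_injective (by rw [h', map_one]))
    rwa [Subgroup.subgroupOf_map_subtype, inf_eq_left.2 hSL] at this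
  have hb2 : (b' : H) ∈ nz (Cfsg.inducedFunctor W S) := by
    rw [e2]
    exact Subgroup.le_normalizer_map L.subtype ⟨b', hb', rfl⟩
  -- assemble
  have h1 : (⟨l, hl⟩ : ↥L) * (a * b')⁻¹ ∈ O := by
    rw [← mem_comap_pi (N := O)]
    rw [map_mul, map_inv, map_mul]
    change π ⟨l, hl⟩ * (π a * π b')⁻¹ = 1
    rw [hab, mul_inv_cancel]
  have h2 := hOc _ h1
  refine ⟨c * (l * ((a : H) * b')⁻¹) * a, mul_mem (mul_mem (hZc hc) (hZc h2)) ha', b', hb2, ?_⟩
  group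

end

section
variable {p : ℕ} [Fact p.Prime] {G : Type u} [Group G] [Finite G]
  {W : ∀ (Q : Type u) [Group Q], Subgroup Q}

/-- the previous result in subgroups `H` of `G` -/
theorem facC_subgroup (hW : Cfsg.IsCharPFunctor.{u} p W) {H Q S : Subgroup G}
    (hQn : H ≤ nz Q) (hS : SylIn p S H) (hQS : Q ≤ S) (hZ : Cfsg.omegaOne p (S ⊓ cz S) ≤ Q)
    (hfac : ∀ (X : Type u) [Group X] [Finite X], IsSec X G →
      cz (Cfsg.pCore p X) ≤ Cfsg.pCore p X → FacC p W X) {x : G} (hx : x ∈ H) :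
    ∃ a ∈ H ⊓ cz (Cfsg.omegaOne p (S ⊓ cz S)), ∃ b ∈ H ⊓ nz (Cfsg.inducedFunctor W S),
      x = a * b := by
  have hSH := hS.le
  have hS' : SylIn p (S.subgroupOf H) ⊤ := by
    have := SylIn.comap_inj (f := H.subtype) H.subtype_injective (S := S)
      (by rw [Subgroup.range_subtype]; exact hS)
    exact this
  have hQ' : (Q.subgroupOf H).Normal := by
    rw [Subgroup.normal_subgroupOf_iff_le_normalizer (hQS.trans hSH)]
    exact hQn
  have hcz : ∀ z : ↥H, z ∈ cz (S.subgroupOf H) → (z : G) ∈ cz S := by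
    intro z hz
    rw [mem_centralizer] at hz ⊢
    intro s hs
    exact congrArg Subtype.val (hz ⟨s, hSH hs⟩ hs)
  obtain ⟨a, ha, b, hb, hab⟩ := facC_of_constrained hW hQ' hS' (by
      intro q hq; exact hQS hq) (by
      rw [Cfsg.omegaOne, Subgroup.closure_le]
      rintro z ⟨hz, hzp⟩
      apply hZ
      apply Subgroup.subset_closure
      refine ⟨Subgroup.mem_inf.2 ⟨hz.1, hcz z hz.2⟩, ?_⟩
      simpa using congrArg Subtype.val hzp)
    (fun X _ _ hX => hfac X (hX.trans (isSec_subgroup H))) ⟨x, hx⟩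
  refine ⟨a, Subgroup.mem_inf.2 ⟨a.2, ?_⟩, b, Subgroup.mem_inf.2 ⟨b.2, ?_⟩,
    congrArg Subtype.val hab⟩
  · rw [mem_cz_omega] at ha ⊢
    intro z hz hzp
    have hzc : (⟨z, hSH hz.1⟩ : ↥H) ∈ S.subgroupOf H ⊓ cz (S.subgroupOf H) := by
      refine Subgroup.mem_inf.2 ⟨hz.1, ?_⟩
      rw [mem_centralizer]
      intro s hs
      exact Subtype.ext (mem_centralizer.1 hz.2 s hs)
    have h1 := ha ⟨z, hSH hz.1⟩ hzc (Subtype.ext hzp)
    exact congrArg Subtype.val h1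
  · have e2 : Cfsg.inducedFunctor W S = (Cfsg.inducedFunctor W (S.subgroupOf H)).map H.subtype := by
      have := induced_map hW H.subtype hS'.isPGroup
        (fun s _ h' => H.subtype_injective (by rw [h', map_one]))
      rwa [Subgroup.subgroupOf_map_subtype, inf_eq_left.2 hSH] at this
    rw [e2]
    exact Subgroup.le_normalizer_map H.subtype ⟨b, hb, rfl⟩

omit [Finite G] in
theorem map_normalClosure {Z N : Subgroup G} (hZN : Z ≤ N) :
    (Subgroup.normalClosure ((Z.subgroupOf N : Subgroup ↥N) : Set ↥N)).map N.subtype =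
      ⨆ n ∈ N, cj n Z := by
  apply le_antisymm
  · rw [Subgroup.map_le_iff_le_comap]
    have h1 : ((⨆ n ∈ N, cj n Z).comap N.subtype).Normal := by
      constructor
      intro x hx g
      have hx' : (x : G) ∈ ⨆ n ∈ N, cj n Z := hx
      change (g : G) * x * (g : G)⁻¹ ∈ ⨆ n ∈ N, cj n Z
      have h2 : (g : G) * x * (g : G)⁻¹ ∈ cj (g : G) (⨆ n ∈ N, cj n Z) := conj_mem_cj hx'
      rw [cj_iSup] at h2
      refine (iSup_le fun n => ?_ : (⨆ n, cj (g : G) (⨆ (_ : n ∈ N), cj n Z)) ≤ _) h2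
      rw [cj_iSup]
      refine iSup_le fun hn => ?_
      rw [cj_cj]
      exact le_iSup₂ (f := fun (n : G) (_ : n ∈ N) => cj n Z) ((g : G) * n) (mul_mem g.2 hn)
    apply Subgroup.normalClosure_le_normal
    intro z hz
    have h2 : (z : G) ∈ cj 1 Z := by rw [cj_one]; exact hz
    exact (le_iSup₂ (f := fun (n : G) (_ : n ∈ N) => cj n Z) 1 (one_mem N)) h2
  · refine iSup₂_le fun n hn => ?_
    rintro _ ⟨z, hz, rfl⟩
    have h1 : (⟨z, hZN hz⟩ : ↥N) ∈ Subgroup.normalClosure ((Z.subgroupOf N : Subgroup ↥N) : Set ↥N) :=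
      Subgroup.subset_normalClosure hz
    have h2 := Subgroup.normalClosure_normal.conj_mem _ h1 ⟨n, hn⟩
    exact ⟨_, h2, rfl⟩

end

end Cfsg.Agent.Lib.CFTriple
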