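import Mathlib

/-! Chevalley-Warning for quadratic maps between elementary abelian 2-groups (helper63).
Main result: `card_le_of_zeros_subset`. -/

set_option autoImplicit false

namespace Cfsg.Agent.Lib.CWQuad

open Finset

/-- A quadratic map between additive commutative groups, unbundled. -/
def IsQuad {V W : Type*} [AddCommGroup V] [AddCommGroup W] (q : V → W) (B : V →+ V →+ W) : Prop :=
  ∀ x y, q (x + y) = q x + q y + B x y

theorem IsQuad.zero {V W : Type*} [AddCommGroup V] [AddCommGroup W] {q : V → W} {B : V →+ V →+ W}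
    (h : IsQuad q B) : q 0 = 0 := by
  have := h 0 0
  simp at this
  exact this

theorem IsQuad.sum {V W ι : Type*} [AddCommGroup V] [AddCommGroup W] [LinearOrder ι] {q : V → W}
    {B : V →+ V →+ W} (h : IsQuad q B) (v : ι → V) (s : Finset ι) :
    q (∑ i ∈ s, v i) = ∑ i ∈ s, q (v i) + ∑ k ∈ s, ∑ i ∈ s with i < k, B (v i) (v k) := by
  induction s using Finset.induction_on_max with
  | empty => simp [h.zero]
  | insert a s ha ih =>
    have hnot : a ∉ s := fun hm => lt_irrefl a (ha a hm)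
    rw [Finset.sum_insert hnot, add_comm, h, ih, Finset.sum_insert hnot, Finset.sum_insert hnot]
    have h1 : ({i ∈ insert a s | i < a} : Finset ι) = s := by
      ext i
      simp only [mem_filter, mem_insert]
      constructor
      · rintro ⟨rfl | hi, hlt⟩
        · exact absurd hlt (lt_irrefl _)
        · exact hi
      · intro hi; exact ⟨Or.inr hi, ha i hi⟩
    have h2 : ∀ k ∈ s, ({i ∈ insert a s | i < k} : Finset ι) = {i ∈ s | i < k} := by
      intro k hk
      ext i
      simp only [mem_filter, mem_insert]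
      constructor
      · rintro ⟨rfl | hi, hlt⟩
        · exact absurd (hlt.trans (ha k hk)) (lt_irrefl _)
        · exact ⟨hi, hlt⟩
      · rintro ⟨hi, hlt⟩; exact ⟨Or.inr hi, hlt⟩
    have h4 : ∑ k ∈ s, ∑ i ∈ insert a s with i < k, B (v i) (v k) =
        ∑ k ∈ s, ∑ i ∈ s with i < k, B (v i) (v k) :=
      Finset.sum_congr rfl (fun k hk => by rw [h2 k hk])
    rw [h1, h4]
    have h3 : B (∑ i ∈ s, v i) (v a) = ∑ i ∈ s, B (v i) (v a) := by
      rw [map_sum, AddMonoidHom.finsetSum_apply]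
    rw [h3]
    abel

/-- Chevalley: a quadratic map over `F_2` from dimension `t` to dimension `m` with `t > 2 m`
has a nontrivial zero. -/
theorem exists_zero_of_finrank {V W : Type*} [AddCommGroup V] [AddCommGroup W] [Module (ZMod 2) V]
    [Module (ZMod 2) W] [Module.Finite (ZMod 2) V] [Module.Finite (ZMod 2) W]
    {q : V → W} {B : V →+ V →+ W} (h : IsQuad q B)
    (hd : 2 * Module.finrank (ZMod 2) W < Module.finrank (ZMod 2) V) : ∃ v : V, v ≠ 0 ∧ q v = 0 := by
  classical
  haveI : Fact (Nat.Prime 2) := ⟨Nat.prime_two⟩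
  set t := Module.finrank (ZMod 2) V with ht
  set m := Module.finrank (ZMod 2) W with hm
  let b := Module.finBasis (ZMod 2) V
  let c := Module.finBasis (ZMod 2) W
  let f : Fin m → MvPolynomial (Fin t) (ZMod 2) := fun j =>
    ∑ i, MvPolynomial.C (c.coord j (q (b i))) * MvPolynomial.X i +
      ∑ k, ∑ i with i < k, MvPolynomial.C (c.coord j (B (b i) (b k))) *
        (MvPolynomial.X i * MvPolynomial.X k)
  have hdeg : ∀ j, (f j).totalDegree ≤ 2 := by
    intro j
    refine (MvPolynomial.totalDegree_add _ _).trans (max_le ?_ ?_)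
    · refine MvPolynomial.totalDegree_finsetSum_le ?_
      intro i _
      refine (MvPolynomial.totalDegree_mul _ _).trans ?_
      rw [MvPolynomial.totalDegree_C, MvPolynomial.totalDegree_X]
      norm_num
    · refine MvPolynomial.totalDegree_finsetSum_le ?_
      intro k _
      refine MvPolynomial.totalDegree_finsetSum_le ?_
      intro i _
      refine (MvPolynomial.totalDegree_mul _ _).trans ?_
      rw [MvPolynomial.totalDegree_C, zero_add]
      refine (MvPolynomial.totalDegree_mul _ _).trans ?_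
      rw [MvPolynomial.totalDegree_X, MvPolynomial.totalDegree_X]
  have hsum : (∑ j, (f j).totalDegree) < Fintype.card (Fin t) := by
    refine lt_of_le_of_lt (Finset.sum_le_sum (fun j _ => hdeg j)) ?_
    simp only [Finset.sum_const, Finset.card_univ, Fintype.card_fin, smul_eq_mul]
    omega
  have hcw : 2 ∣ Nat.card {x : Fin t → ZMod 2 // ∀ j, MvPolynomial.eval x (f j) = 0} := by
    have := char_dvd_card_solutions_of_fintype_sum_lt (K := ZMod 2) 2 hsum
    rwa [Fintype.card_eq_nat_card] at this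
  have hsmul : ∀ (a : ZMod 2) (v : V), q (a • v) = a • q v := by
    intro a v
    fin_cases a
    · change q ((0 : ZMod 2) • v) = (0 : ZMod 2) • q v
      rw [zero_smul, zero_smul, h.zero]
    · change q ((1 : ZMod 2) • v) = (1 : ZMod 2) • q v
      rw [one_smul, one_smul]
  have hBsmul1 : ∀ (a : ZMod 2) (v w : V), B (a • v) w = a • B v w := by
    intro a v w
    fin_cases a
    · change B ((0 : ZMod 2) • v) w = (0 : ZMod 2) • B v w
      rw [zero_smul, zero_smul, map_zero]; rfl
    · change B ((1 : ZMod 2) • v) w = (1 : ZMod 2) • B v w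
      rw [one_smul, one_smul]
  have hBsmul2 : ∀ (a : ZMod 2) (v w : V), B v (a • w) = a • B v w := by
    intro a v w
    fin_cases a
    · change B v ((0 : ZMod 2) • w) = (0 : ZMod 2) • B v w
      rw [zero_smul, zero_smul, map_zero]
    · change B v ((1 : ZMod 2) • w) = (1 : ZMod 2) • B v w
      rw [one_smul, one_smul]
  have heval : ∀ (x : Fin t → ZMod 2) (j : Fin m), MvPolynomial.eval x (f j) = c.coord j (q (∑ i, x i • b i)) := by
    intro x j
    rw [h.sum (fun i => x i • b i) Finset.univ]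
    simp only [f, map_add, map_sum, map_mul, MvPolynomial.eval_C, MvPolynomial.eval_X, hsmul,
      hBsmul1, hBsmul2, map_smul, smul_eq_mul]
    congr 1
    · exact Finset.sum_congr rfl (fun i _ => mul_comm _ _)
    · refine Finset.sum_congr rfl (fun k _ => Finset.sum_congr rfl (fun i _ => ?_))
      ring
  have h0 : ∀ j, MvPolynomial.eval (0 : Fin t → ZMod 2) (f j) = 0 := by
    intro j
    rw [heval]
    simp [h.zero]
  have hcard : 1 < Nat.card {x : Fin t → ZMod 2 // ∀ j, MvPolynomial.eval x (f j) = 0} := by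
    haveI : Nonempty {x : Fin t → ZMod 2 // ∀ j, MvPolynomial.eval x (f j) = 0} := ⟨⟨0, h0⟩⟩
    have hpos : 0 < Nat.card {x : Fin t → ZMod 2 // ∀ j, MvPolynomial.eval x (f j) = 0} :=
      Nat.card_pos
    obtain ⟨r, hr⟩ := hcw
    omega
  haveI := Finite.one_lt_card_iff_nontrivial.mp hcard
  obtain ⟨⟨x, hx⟩, hne⟩ := exists_ne (⟨0, h0⟩ : {x : Fin t → ZMod 2 // ∀ j, MvPolynomial.eval x (f j) = 0})
  have hx0 : x ≠ 0 := fun h => hne (Subtype.ext h)
  refine ⟨∑ i, x i • b i, ?_, ?_⟩
  · intro hz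
    apply hx0
    have := Fintype.linearIndependent_iff.mp b.linearIndependent x hz
    funext i
    exact this i
  · apply c.ext_elem
    intro j
    have := hx j
    rw [heval] at this
    simpa using this

/-- If all zeros of a quadratic map `q : V → W` of elementary abelian 2-groups lie in a subgroup
`S`, then `|V| ≤ |S| |W|²`. -/
theorem card_le_of_zeros_subset {V W : Type*} [AddCommGroup V] [AddCommGroup W] [Finite V] [Finite W]
    (hV : ∀ v : V, 2 • v = 0) (hW : ∀ w : W, 2 • w = 0)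
    {q : V → W} {B : V →+ V →+ W} (h : IsQuad q B) (S : AddSubgroup V) (hS : ∀ v, q v = 0 → v ∈ S) :
    Nat.card V ≤ Nat.card S * Nat.card W ^ 2 := by
  classical
  haveI : Fact (Nat.Prime 2) := ⟨Nat.prime_two⟩
  letI : Module (ZMod 2) V := AddCommGroup.zmodModule hV
  letI : Module (ZMod 2) W := AddCommGroup.zmodModule hW
  let S' : Submodule (ZMod 2) V := AddSubgroup.toZModSubmodule 2 S
  obtain ⟨T, hT⟩ := Submodule.exists_isCompl S'
  have hcardV : Nat.card V = 2 ^ Module.finrank (ZMod 2) V := by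
    rw [Module.natCard_eq_pow_finrank (K := ZMod 2), Nat.card_zmod]
  have hcardW : Nat.card W = 2 ^ Module.finrank (ZMod 2) W := by
    rw [Module.natCard_eq_pow_finrank (K := ZMod 2), Nat.card_zmod]
  have hcardS : Nat.card S = 2 ^ Module.finrank (ZMod 2) S' := by
    have : Nat.card S = Nat.card S' := rfl
    rw [this, Module.natCard_eq_pow_finrank (K := ZMod 2), Nat.card_zmod]
  have hfr := Submodule.finrank_add_eq_of_isCompl hT
  have hTle : Module.finrank (ZMod 2) T ≤ 2 * Module.finrank (ZMod 2) W := by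
    by_contra hlt
    push Not at hlt
    let BT : T →+ T →+ W := (B.comp T.subtype.toAddMonoidHom).compr₂ (AddMonoidHom.id W) |>.flip.comp T.subtype.toAddMonoidHom |>.flip
    have hBT : ∀ x y : T, BT x y = B x y := by
      intro x y; rfl
    have hq : IsQuad (fun x : T => q x) BT := by
      intro x y
      rw [hBT]
      exact h x y
    obtain ⟨v, hv0, hv⟩ := exists_zero_of_finrank hq hlt
    have h1 : (v : V) ∈ S' := hS _ hv
    have h2 : (v : V) ∈ S' ⊓ T := ⟨h1, v.2⟩
    rw [hT.inf_eq_bot, Submodule.mem_bot] at h2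
    exact hv0 (Subtype.ext h2)
  rw [hcardV, hcardW, hcardS, ← pow_mul, ← pow_add]
  apply Nat.pow_le_pow_right (by norm_num)
  omega

/-- Construct the bilinear form from additivity of the polar form in the first variable. -/
theorem exists_isQuad {V W : Type*} [AddCommGroup V] [AddCommGroup W] (q : V → W)
    (h : ∀ x y z, q (x + y + z) - q (x + y) - q z = (q (x + z) - q x - q z) + (q (y + z) - q y - q z)) :
    ∃ B : V →+ V →+ W, IsQuad q B := by
  have hsymm : ∀ x y, q (x + y) - q x - q y = q (y + x) - q y - q x := by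
    intro x y; rw [add_comm x y]; abel
  refine ⟨AddMonoidHom.mk' (fun x => AddMonoidHom.mk' (fun y => q (x + y) - q x - q y) ?_) ?_, ?_⟩
  · intro y z
    change q (x + (y + z)) - q x - q (y + z) = (q (x + y) - q x - q y) + (q (x + z) - q x - q z)
    rw [hsymm x (y + z), h y z x, hsymm y x, hsymm z x]
  · intro x y
    ext z
    change q (x + y + z) - q (x + y) - q z = (q (x + z) - q x - q z) + (q (y + z) - q y - q z)
    exact h x y z
  · intro x y
    change q (x + y) = q x + q y + (q (x + y) - q x - q y)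
    abel

/-- Group version. Let `Z₀` be a central subgroup of exponent two of the finite group `G` that contains all
squares, and let `N ≥ Z₀` be a subgroup containing all the solutions of `x ^ 2 = 1`. Then
`|G| ≤ |N| |Z₀|²`. -/
theorem card_le_of_sq {G : Type*} [Group G] [Finite G] (Z₀ N : Subgroup G)
    (hZ : Z₀ ≤ Subgroup.center G) (hZ2 : ∀ z ∈ Z₀, z ^ 2 = 1) (hsq : ∀ x : G, x ^ 2 ∈ Z₀)
    (hZN : Z₀ ≤ N) (hN : ∀ x : G, x ^ 2 = 1 → x ∈ N) :
    Nat.card G ≤ Nat.card N * Nat.card Z₀ ^ 2 := by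
  classical
  haveI hnorm : Z₀.Normal := by
    constructor
    intro z hz g
    have := Subgroup.mem_center_iff.mp (hZ hz) g
    rw [this, mul_inv_cancel_right]; exact hz
  have hzc : ∀ z ∈ Z₀, ∀ g : G, g * z = z * g := fun z hz g => Subgroup.mem_center_iff.mp (hZ hz) g
  -- commutators lie in Z₀
  have hcomm : ∀ x y : G, x * y * x⁻¹ * y⁻¹ ∈ Z₀ := by
    intro x y
    have h1 : x * y * x⁻¹ * y⁻¹ = x ^ 2 * (x⁻¹ * y) ^ 2 * (y⁻¹) ^ 2 := by
      simp only [pow_two]; group
    rw [h1]
    exact mul_mem (mul_mem (hsq _) (hsq _)) (hsq _)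
  letI : CommGroup (G ⧸ Z₀) :=
    { (inferInstance : Group (G ⧸ Z₀)) with
      mul_comm := by
        intro a b
        obtain ⟨x, rfl⟩ := QuotientGroup.mk_surjective a
        obtain ⟨y, rfl⟩ := QuotientGroup.mk_surjective b
        rw [← QuotientGroup.mk_mul, ← QuotientGroup.mk_mul, QuotientGroup.eq]
        have h2 := hcomm y⁻¹ x⁻¹
        simpa [mul_assoc] using h2 }
  letI : CommGroup Z₀ :=
    { (inferInstance : Group Z₀) with
      mul_comm := by
        intro a b
        exact Subtype.ext (hzc b b.2 a) }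
  let q₀ : G ⧸ Z₀ → Z₀ := fun v => ⟨(Quotient.out v) ^ 2, hsq _⟩
  have hq₀ : ∀ x : G, ((q₀ (x : G ⧸ Z₀) : Z₀) : G) = x ^ 2 := by
    intro x
    obtain ⟨z, hz⟩ := QuotientGroup.mk_out_eq_mul Z₀ x
    have h1 : Quotient.out (x : G ⧸ Z₀) = x * z := hz
    simp only [q₀]
    rw [h1]
    have h2 : Commute x (z : G) := hzc z z.2 x
    rw [h2.mul_pow, hZ2 z z.2, mul_one]
  let q : Additive (G ⧸ Z₀) → Additive Z₀ := fun v => Additive.ofMul (q₀ (Additive.toMul v))
  -- commutator calculus
  have hc : ∀ x y : G, (x * y) ^ 2 = (y * x * y⁻¹ * x⁻¹) * (x ^ 2 * y ^ 2) := by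
    intro x y
    have h1 := hzc _ (hcomm y x) x
    calc (x * y) ^ 2 = x * ((y * x * y⁻¹ * x⁻¹) * x * y) * y := by rw [pow_two]; group
      _ = (x * (y * x * y⁻¹ * x⁻¹)) * (x * y ^ 2) := by group
      _ = ((y * x * y⁻¹ * x⁻¹) * x) * (x * y ^ 2) := by rw [h1]
      _ = (y * x * y⁻¹ * x⁻¹) * (x ^ 2 * y ^ 2) := by group
  have hbil : ∀ x y z : G, z * (x * y) * z⁻¹ * (x * y)⁻¹ = (z * x * z⁻¹ * x⁻¹) * (z * y * z⁻¹ * y⁻¹) := by
    intro x y z
    have h1 := hzc _ (hcomm z y) x
    calc z * (x * y) * z⁻¹ * (x * y)⁻¹ = (z * x * z⁻¹ * x⁻¹) * (x * (z * y * z⁻¹ * y⁻¹)) * x⁻¹ := by group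
      _ = (z * x * z⁻¹ * x⁻¹) * ((z * y * z⁻¹ * y⁻¹) * x) * x⁻¹ := by rw [h1]
      _ = _ := by group
  obtain ⟨B, hB⟩ := exists_isQuad q (by
    intro a b c
    obtain ⟨x, hx⟩ := QuotientGroup.mk_surjective (Additive.toMul a)
    obtain ⟨y, hy⟩ := QuotientGroup.mk_surjective (Additive.toMul b)
    obtain ⟨z, hz⟩ := QuotientGroup.mk_surjective (Additive.toMul c)
    have ha : a = Additive.ofMul (x : G ⧸ Z₀) := by rw [hx]; rfl
    have hb : b = Additive.ofMul (y : G ⧸ Z₀) := by rw [hy]; rfl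
    have hc' : c = Additive.ofMul (z : G ⧸ Z₀) := by rw [hz]; rfl
    subst ha hb hc'
    apply Additive.toMul.injective
    apply Subtype.ext
    have e : ∀ u : G, ((Additive.toMul (q (Additive.ofMul (u : G ⧸ Z₀))) : Z₀) : G) = u ^ 2 := hq₀
    have e1 : q (Additive.ofMul (x : G ⧸ Z₀) + Additive.ofMul (y : G ⧸ Z₀) + Additive.ofMul (z : G ⧸ Z₀)) = q (Additive.ofMul ((x * y * z : G) : G ⧸ Z₀)) := rfl
    have e2 : q (Additive.ofMul (x : G ⧸ Z₀) + Additive.ofMul (y : G ⧸ Z₀)) = q (Additive.ofMul ((x * y : G) : G ⧸ Z₀)) := rfl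
    have e3 : q (Additive.ofMul (x : G ⧸ Z₀) + Additive.ofMul (z : G ⧸ Z₀)) = q (Additive.ofMul ((x * z : G) : G ⧸ Z₀)) := rfl
    have e4 : q (Additive.ofMul (y : G ⧸ Z₀) + Additive.ofMul (z : G ⧸ Z₀)) = q (Additive.ofMul ((y * z : G) : G ⧸ Z₀)) := rfl
    rw [e1, e2, e3, e4]
    simp only [toMul_sub, toMul_add, Subgroup.coe_mul, Subgroup.coe_div]
    rw [e, e, e, e, e, e, e, hc (x * y) z, hc x z, hc y z, hbil x y z]
    have k1 := hzc _ (hcomm z x)
    have k2 := hzc _ (hcomm z y)
    have s1 := hzc _ (hsq x)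
    have s2 := hzc _ (hsq y)
    have s3 := hzc _ (hsq z)
    have s4 := hzc _ (hsq (x * y))
    generalize z * x * z⁻¹ * x⁻¹ = u at *
    generalize z * y * z⁻¹ * y⁻¹ = w at *
    generalize (x * y) ^ 2 = t at *
    generalize x ^ 2 = a at *
    generalize y ^ 2 = b at *
    generalize z ^ 2 = c at *
    have r1 : u * w * (t * c) / t / c = u * w := by
      rw [div_eq_mul_inv, div_eq_mul_inv]
      calc u * w * (t * c) * t⁻¹ * c⁻¹ = u * w * (t * c) * (c * t)⁻¹ := by group
        _ = u * w * (t * c) * (t * c)⁻¹ := by rw [s4 c]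
        _ = u * w := by group
    have r2 : u * (a * c) / a / c = u := by
      rw [div_eq_mul_inv, div_eq_mul_inv]
      calc u * (a * c) * a⁻¹ * c⁻¹ = u * (a * c) * (c * a)⁻¹ := by group
        _ = u * (a * c) * (a * c)⁻¹ := by rw [s1 c]
        _ = u := by group
    have r3 : w * (b * c) / b / c = w := by
      rw [div_eq_mul_inv, div_eq_mul_inv]
      calc w * (b * c) * b⁻¹ * c⁻¹ = w * (b * c) * (c * b)⁻¹ := by group
        _ = w * (b * c) * (b * c)⁻¹ := by rw [s2 c]
        _ = w := by group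
    rw [r1, r2, r3])
  have hV : ∀ v : Additive (G ⧸ Z₀), 2 • v = 0 := by
    intro v
    obtain ⟨x, hx⟩ := QuotientGroup.mk_surjective (Additive.toMul v)
    apply Additive.toMul.injective
    rw [toMul_nsmul, ← hx, ← QuotientGroup.mk_pow]
    exact (QuotientGroup.eq_one_iff _).mpr (hsq x)
  have hW : ∀ w : Additive Z₀, 2 • w = 0 := by
    intro w
    apply Additive.toMul.injective
    rw [toMul_nsmul]
    apply Subtype.ext
    exact hZ2 _ (Additive.toMul w).2
  have hmain := card_le_of_zeros_subset hV hW hB (Subgroup.toAddSubgroup (N.map (QuotientGroup.mk' Z₀))) (by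
    intro v hv
    obtain ⟨x, hx⟩ := QuotientGroup.mk_surjective (Additive.toMul v)
    have h1 : x ^ 2 = 1 := by
      rw [← hq₀ x, hx]
      have := congrArg (fun w : Additive Z₀ => ((Additive.toMul w : Z₀) : G)) hv
      exact this
    have h2 : (x : G ⧸ Z₀) ∈ N.map (QuotientGroup.mk' Z₀) := ⟨x, hN x h1, rfl⟩
    rw [hx] at h2
    exact h2)
  have c1 : Nat.card (Additive (G ⧸ Z₀)) = Nat.card (G ⧸ Z₀) := rfl
  have c2 : Nat.card (Additive Z₀) = Nat.card Z₀ := rfl
  have c3 : Nat.card (Subgroup.toAddSubgroup (N.map (QuotientGroup.mk' Z₀))) = Nat.card (N.map (QuotientGroup.mk' Z₀)) := rfl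
  have c4 : Nat.card (N.map (QuotientGroup.mk' Z₀)) * Nat.card Z₀ = Nat.card N := by
    have h1 := Subgroup.relIndex_ker (K := N) (QuotientGroup.mk' Z₀)
    rw [QuotientGroup.ker_mk'] at h1
    rw [← h1]
    have := Subgroup.relIndex_mul_relIndex ⊥ Z₀ N bot_le hZN
    rw [Subgroup.relIndex_bot_left, Subgroup.relIndex_bot_left] at this
    rw [mul_comm]; exact this
  have c5 : Nat.card (G ⧸ Z₀) * Nat.card Z₀ = Nat.card G := by
    rw [← Subgroup.index_eq_card]; exact Z₀.index_mul_card
  rw [c1, c2, c3] at hmain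
  calc Nat.card G = Nat.card (G ⧸ Z₀) * Nat.card Z₀ := c5.symm
    _ ≤ (Nat.card (N.map (QuotientGroup.mk' Z₀)) * Nat.card Z₀ ^ 2) * Nat.card Z₀ := Nat.mul_le_mul_right _ hmain
    _ = Nat.card N * Nat.card Z₀ ^ 2 := by rw [← c4]; ring

end Cfsg.Agent.Lib.CWQuad
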