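import Mathlib

/-!
# A Cauchy-Binet formula and a lower bound for the number of bases (helper75)
-/

set_option autoImplicit false
set_option linter.all false

namespace Cfsg.Agent.Lib.CauchyBinet

open Matrix Finset

section cb

variable {R : Type*} [CommRing R] {κ : Type*} [Fintype κ] {l : ℕ}

theorem det_mul_eq (A : Matrix (Fin l) κ R) (B : Matrix κ (Fin l) R) :
    det (A * B) = ∑ f : Fin l → κ, (∏ i, A i (f i)) * det (B.submatrix f id) := by
  classical
  have h1 : (A * B : Matrix (Fin l) (Fin l) R) = fun i => ∑ c : κ, A i c • B c := by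
    funext i j
    rw [Matrix.mul_apply, Finset.sum_apply]
    rfl
  have h2 : det (A * B) = (detRowAlternating (R := R) (n := Fin l)).toMultilinearMap (fun i => ∑ c : κ, A i c • B c) := by
    rw [← h1]; rfl
  rw [h2, MultilinearMap.map_sum]
  refine Finset.sum_congr rfl fun f _ => ?_
  rw [MultilinearMap.map_smul_univ]
  rfl

/-- Cauchy-Binet, summed over all functions -/
theorem cb (A : Matrix (Fin l) κ R) (B : Matrix κ (Fin l) R) :
    (l.factorial : R) * det (A * B) = ∑ f : Fin l → κ, det (A.submatrix id f) * det (B.submatrix f id) := by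
  classical
  have h1 : ∀ σ : Equiv.Perm (Fin l), det (A * B) =
      ∑ f : Fin l → κ, ((Equiv.Perm.sign σ : ℤ) : R) * (∏ i, A (σ i) (f i)) * det (B.submatrix f id) := by
    intro σ
    have h2 := det_mul_eq (A.submatrix σ id) B
    have h3 : (A.submatrix σ id) * B = (A * B).submatrix σ id := rfl
    rw [h3, Matrix.det_permute] at h2
    have h4 : ((Equiv.Perm.sign σ : ℤ) : R) * (((Equiv.Perm.sign σ : ℤ) : R) * det (A * B)) = det (A * B) := by
      rw [← mul_assoc, ← Int.cast_mul, ← Units.val_mul, Int.units_mul_self, Units.val_one, Int.cast_one, one_mul]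
    rw [← h4, h2, Finset.mul_sum]
    refine Finset.sum_congr rfl fun f _ => ?_
    rw [mul_assoc]
    rfl
  have h2 : (l.factorial : R) * det (A * B) = ∑ σ : Equiv.Perm (Fin l), det (A * B) := by
    rw [Finset.sum_const, Finset.card_univ, Fintype.card_perm, Fintype.card_fin, nsmul_eq_mul]
  rw [h2, Finset.sum_congr rfl fun σ _ => h1 σ, Finset.sum_comm]
  refine Finset.sum_congr rfl fun f _ => ?_
  rw [← Finset.sum_mul, Matrix.det_apply' (A.submatrix id f)]
  rfl

end cb

section count

variable {K : Type*} [Field K] {κ : Type*} [Fintype κ] {l : ℕ}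

/-- a family of `l` rows can be modified at one place -/
theorem exists_update {E : κ → Fin l → K} {f : Fin l → κ} (hf : det (Matrix.of fun i => E (f i)) ≠ 0) (j : Fin l)
    (h : ∀ y : Fin l → K, (∀ t, t ≠ f j → ∑ i, E t i * y i = 0) → y = 0) :
    ∃ t, t ≠ f j ∧ det (Matrix.of fun i => E (Function.update f j t i)) ≠ 0 := by
  classical
  by_contra hcon
  push Not at hcon
  set A : Matrix (Fin l) (Fin l) K := Matrix.of fun i => E (f i) with hA
  -- `y` = the cofactors of row `j`
  have h1 : (fun i => A.adjugate i j) = 0 := by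
    apply h
    intro t ht
    have h2 := hcon t ht
    have h3 : (Matrix.of fun i => E (Function.update f j t i)) = A.updateRow j (E t) := by
      ext i k
      by_cases hij : i = j
      · subst hij; simp
      · rw [Matrix.updateRow_ne hij, Matrix.of_apply, Function.update_of_ne hij]; rfl
    rw [h3] at h2
    have h4 : ∑ i, E t i * A.adjugate i j = det (A.updateRow j (E t)) := by
      rw [Matrix.det_eq_sum_mul_adjugate_row _ j]
      refine Finset.sum_congr rfl fun i _ => ?_
      rw [Matrix.updateRow_self]
      congr 1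
      rw [Matrix.adjugate_apply, Matrix.adjugate_apply, Matrix.updateRow_idem]
    rw [h4, h2]
  have h5 : det A = 0 := by
    rw [Matrix.det_eq_sum_mul_adjugate_row A j]
    refine Finset.sum_eq_zero fun i _ => ?_
    rw [show A.adjugate i j = 0 from congrFun h1 i, mul_zero]
  exact hf h5

/-- if `x ≠ 0` some row of an invertible matrix can be replaced by `x` -/
theorem exists_replace {A : Matrix (Fin l) (Fin l) K} (hA : det A ≠ 0) {x : Fin l → K} (hx : x ≠ 0) :
    ∃ j, det (A.updateRow j x) ≠ 0 := by
  classical
  by_contra hcon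
  push Not at hcon
  apply hx
  have h1 : x ᵥ* A.adjugate = 0 := by
    funext j
    have h4 : ∑ i, x i * A.adjugate i j = det (A.updateRow j x) := by
      rw [Matrix.det_eq_sum_mul_adjugate_row _ j]
      refine Finset.sum_congr rfl fun i _ => ?_
      rw [Matrix.updateRow_self]
      congr 1
      rw [Matrix.adjugate_apply, Matrix.adjugate_apply, Matrix.updateRow_idem]
    show ∑ i, x i * A.adjugate i j = 0
    rw [h4, hcon j]
  have h2 : (x ᵥ* A.adjugate) ᵥ* A = 0 := by rw [h1, Matrix.zero_vecMul]
  rw [Matrix.vecMul_vecMul, Matrix.adjugate_mul, Matrix.vecMul_smul, Matrix.vecMul_one] at h2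
  exact (smul_eq_zero.1 h2).resolve_left hA

theorem inj_of_det {E : κ → Fin l → K} {f : Fin l → κ} (hf : det (Matrix.of fun i => E (f i)) ≠ 0) :
    Function.Injective f := by
  intro i j hij
  by_contra hne
  exact hf (Matrix.det_zero_of_row_eq hne (by funext k; simp [hij]))

theorem det_comp_perm {E : κ → Fin l → K} (f : Fin l → κ) (σ : Equiv.Perm (Fin l)) :
    det (Matrix.of fun i => E (f (σ i))) ≠ 0 ↔ det (Matrix.of fun i => E (f i)) ≠ 0 := by
  have h1 : (Matrix.of fun i => E (f (σ i))) = (Matrix.of fun i => E (f i)).submatrix σ id := rfl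
  rw [h1, Matrix.det_permute]
  rcases Int.units_eq_one_or (Equiv.Perm.sign σ) with h | h <;> simp [h]

/-- lower bound for the number of bases containing a given vector -/
theorem count [DecidableEq κ] {E : Option κ → Fin l → K} (hx : E none ≠ 0)
    {f0 : Fin l → κ} (h0 : det (Matrix.of fun i => E (some (f0 i))) ≠ 0)
    (hco : ∀ s : κ, ∀ y : Fin l → K, (∀ t, t ≠ s → ∑ i, E (some t) i * y i = 0) → y = 0) :
    l.factorial * l ≤ Nat.card {f : Fin l → Option κ // (∃ i, f i = none) ∧ det (Matrix.of fun i => E (f i)) ≠ 0} := by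
  classical
  obtain ⟨j0, hj0⟩ := exists_replace h0 hx
  set f1 : Fin l → Option κ := Function.update (fun i => some (f0 i)) j0 none with hf1
  have hf1d : det (Matrix.of fun i => E (f1 i)) ≠ 0 := by
    have : (Matrix.of fun i => E (f1 i)) = (Matrix.of fun i => E (some (f0 i))).updateRow j0 (E none) := by
      ext i k
      by_cases hij : i = j0
      · subst hij; simp [hf1]
      · rw [Matrix.updateRow_ne hij, Matrix.of_apply, hf1, Function.update_of_ne hij]; rfl
    rw [this]; exact hj0
  have hf1j : f1 j0 = none := by simp [hf1]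
  have hf1i := inj_of_det hf1d
  have hsome : ∀ j, j ≠ j0 → f1 j = some (f0 j) := fun j hj => by rw [hf1, Function.update_of_ne hj]
  have hex : ∀ j, j ≠ j0 → ∃ t, t ≠ f1 j ∧ det (Matrix.of fun i => E (Function.update f1 j t i)) ≠ 0 := by
    intro j hj
    apply exists_update hf1d
    intro y hy
    apply hco (f0 j)
    intro t ht
    apply hy
    rw [hsome j hj]
    exact fun h => ht (Option.some_injective _ h)
  choose! t ht htd using hex
  set g : Fin l → Fin l → Option κ := fun j => if j = j0 then f1 else Function.update f1 j (t j) with hg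
  have hgd : ∀ j, det (Matrix.of fun i => E (g j i)) ≠ 0 := by
    intro j
    by_cases hj : j = j0
    · simp only [hg, if_pos hj]; exact hf1d
    · simp only [hg, if_neg hj]; exact htd j hj
  have hgi : ∀ j, Function.Injective (g j) := fun j => inj_of_det (hgd j)
  have hgj0 : ∀ j, g j j0 = none := by
    intro j
    by_cases hj : j = j0
    · simp only [hg, if_pos hj]; exact hf1j
    · simp only [hg, if_neg hj]
      rw [Function.update_of_ne (Ne.symm hj)]; exact hf1j
  have hg_ne : ∀ j j', j' ≠ j → g j j' = f1 j' := by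
    intro j j' hj'
    by_cases hj : j = j0
    · simp only [hg, if_pos hj]
    · simp only [hg, if_neg hj]
      rw [Function.update_of_ne hj']
  have hnot : ∀ j, j ≠ j0 → f1 j ∉ Set.range (g j) := by
    rintro j hj ⟨i, hi⟩
    by_cases hij : i = j
    · subst hij
      simp only [hg, if_neg hj, Function.update_self] at hi
      exact ht i hj hi
    · rw [hg_ne j i hij] at hi
      exact hij (hf1i hi)
  have key : ∀ j j' : Fin l, j ≠ j' → Set.range (g j) = Set.range (g j') → j = j0 := by
    intro j j' hjj hr
    by_contra hj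
    apply hnot j hj
    rw [hr]
    exact ⟨j, hg_ne j' j hjj⟩
  let F : Equiv.Perm (Fin l) × Fin l →
      {f : Fin l → Option κ // (∃ i, f i = none) ∧ det (Matrix.of fun i => E (f i)) ≠ 0} := fun a =>
    ⟨fun i => g a.2 (a.1 i), ⟨a.1.symm j0, by
      show g a.2 (a.1 (a.1.symm j0)) = none
      rw [Equiv.apply_symm_apply]; exact hgj0 _⟩,
      (det_comp_perm (g a.2) a.1).2 (hgd a.2)⟩
  have hF : Function.Injective F := by
    rintro ⟨σ, j⟩ ⟨σ', j'⟩ h
    have h1 : (fun i => g j (σ i)) = fun i => g j' (σ' i) := congrArg Subtype.val h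
    have hr : Set.range (g j) = Set.range (g j') := by
      have e1 : Set.range (g j) = Set.range (fun i => g j (σ i)) := (σ.surjective.range_comp (g j)).symm
      have e2 : Set.range (g j') = Set.range (fun i => g j' (σ' i)) := (σ'.surjective.range_comp (g j')).symm
      rw [e1, e2, h1]
    have hj : j = j' := by
      by_contra hne
      have a1 := key j j' hne hr
      have a2 := key j' j (Ne.symm hne) hr.symm
      exact hne (a1.trans a2.symm)
    subst hj
    congr 1
    ext i
    exact congrArg Fin.val (hgi j (congrFun h1 i))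
  have h2 := Nat.card_le_card_of_injective F hF
  rwa [Nat.card_prod, Nat.card_perm, Nat.card_fin] at h2

end count

section complex

open Complex

variable {κ : Type*} [Fintype κ] {l : ℕ}

theorem adj_sum (D : Matrix κ (Fin l) ℤ) (x : Fin l → ℂ) {E : Option κ → Fin l → ℂ} (hE : E none = x)
    (hE' : ∀ s i, E (some s) i = (D s i : ℂ)) :
    (l.factorial : ℂ) * (det (Matrix.of fun i j => (((Dᵀ * D) i j : ℤ) : ℂ) + (starRingEnd ℂ) (x i) * x j) - ((det (Dᵀ * D) : ℤ) : ℂ)) =
      ∑ f : {f : Fin l → Option κ // ∃ i, f i = none}, (starRingEnd ℂ) (det (Matrix.of fun i => E (f.1 i))) *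
        det (Matrix.of fun i => E (f.1 i)) := by
  classical
  set Bm : Matrix (Option κ) (Fin l) ℂ := Matrix.of E with hBm
  have h1 := cb (Bm.conjTranspose) Bm
  have e1 : Bm.conjTranspose * Bm = Matrix.of fun i j => (((Dᵀ * D) i j : ℤ) : ℂ) + (starRingEnd ℂ) (x i) * x j := by
    ext i j
    rw [Matrix.mul_apply, Fintype.sum_option, Matrix.of_apply, Matrix.mul_apply]
    push_cast
    rw [add_comm]
    congr 1
    · refine Finset.sum_congr rfl fun s _ => ?_
      rw [Matrix.conjTranspose_apply, hBm, Matrix.of_apply, Matrix.of_apply, hE', hE', Matrix.transpose_apply]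
      simp
    · rw [Matrix.conjTranspose_apply, hBm, Matrix.of_apply, Matrix.of_apply, hE]
      rfl
  rw [e1] at h1
  have h2 := cb (Dᵀ) D
  have h2' : (l.factorial : ℂ) * ((det (Dᵀ * D) : ℤ) : ℂ) = ∑ f : Fin l → κ,
      (starRingEnd ℂ) (det (Matrix.of fun i => E (some (f i)))) * det (Matrix.of fun i => E (some (f i))) := by
    have h3 := congrArg (Int.cast : ℤ → ℂ) h2
    rw [Int.cast_mul, Int.cast_sum] at h3
    rw [show ((l.factorial : ℤ) : ℂ) = (l.factorial : ℂ) by simp] at h3
    rw [h3]
    refine Finset.sum_congr rfl fun f _ => ?_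
    have e2 : det (Matrix.of fun i => E (some (f i))) = ((det (D.submatrix f id) : ℤ) : ℂ) := by
      rw [show ((det (D.submatrix f id) : ℤ) : ℂ) = Int.castRingHom ℂ (det (D.submatrix f id)) from rfl, RingHom.map_det]
      congr 1
      ext i j
      rw [Matrix.of_apply, hE']
      rfl
    have e3 : det (Dᵀ.submatrix id f) = det (D.submatrix f id) := by
      rw [← Matrix.det_transpose]; rfl
    rw [e3, e2, Int.cast_mul]
    simp
  rw [mul_sub, h1, h2']
  have e4 : ∀ f : Fin l → Option κ, det (Bm.conjTranspose.submatrix id f) * det (Bm.submatrix f id) =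
      (starRingEnd ℂ) (det (Matrix.of fun i => E (f i))) * det (Matrix.of fun i => E (f i)) := by
    intro f
    have : Bm.conjTranspose.submatrix id f = (Matrix.of fun i => E (f i)).conjTranspose := rfl
    rw [this, Matrix.det_conjTranspose]
    rfl
  rw [Finset.sum_congr rfl fun f _ => e4 f]
  rw [sub_eq_iff_eq_add]
  rw [← Fintype.sum_subtype_add_sum_subtype (fun f : Fin l → Option κ => ∃ i, f i = none)]
  congr 1
  symm
  refine Fintype.sum_equiv (Equiv.ofBijective (fun f : Fin l → κ =>
    (⟨fun i => some (f i), by push Not; intro i; exact Option.some_ne_none _⟩ :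
      {f : Fin l → Option κ // ¬ ∃ i, f i = none})) ⟨?_, ?_⟩) _ _ ?_
  · intro f g h
    funext i
    have := congrFun (congrArg Subtype.val h) i
    exact Option.some_injective _ this
  · rintro ⟨f, hf⟩
    push Not at hf
    refine ⟨fun i => (f i).get (Option.isSome_iff_ne_none.2 (hf i)), ?_⟩
    apply Subtype.ext
    funext i
    simp
  · intro f
    rfl

end complex

end Cfsg.Agent.Lib.CauchyBinet
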