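import Cfsg.Agent.Lib.ClUnitary
import Cfsg.Agent.Lib.HermClass
import Cfsg.Agent.Lib.ClIso

/-!
# Isometries of an alternating form commuting with a root of `X² + X + 1` (helper44)

`card_centralizer`: they form a group of order `|GU_m(q)|`, `q ≡ 2 mod 3`.
-/

set_option autoImplicit false
open Cfsg

namespace Cfsg.Agent.Lib.CentThree

open Polynomial Module Cfsg.Agent.Lib.ClIso Cfsg.Agent.Lib.HermClass

section

variable {F : Type*} [Field F]

theorem root_ind (f : F[X]) {P : AdjoinRoot f → Prop} (hC : ∀ a, P (algebraMap F _ a))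
    (hadd : ∀ x y, P x → P y → P (x + y)) (hroot : ∀ x, P x → P (x * AdjoinRoot.root f)) : ∀ x, P x := by
  intro x
  obtain ⟨p, rfl⟩ := AdjoinRoot.mk_surjective x
  induction p using Polynomial.induction_on with
  | C a => exact hC a
  | add p q hp hq => rw [map_add]; exact hadd _ _ hp hq
  | monomial n a h =>
    rw [pow_succ, ← mul_assoc, map_mul, AdjoinRoot.mk_X]
    exact hroot _ h

theorem no_root [Fintype F] {q : ℕ} (hF : Fintype.card F = q) (hq : q % 3 = 2) (w : F) :
    w ^ 2 + w + 1 ≠ 0 := by
  intro h
  have h3 : w ^ 3 = 1 := by linear_combination (w - 1) * h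
  have hw0 : w ≠ 0 := by rintro rfl; simp at h
  have h1 : w ^ (q - 1) = 1 := by rw [← hF]; exact FiniteField.pow_card_sub_one_eq_one w hw0
  have h2 : w ^ (q - 1) = w := by
    have : q - 1 = 3 * (q / 3) + 1 := by omega
    rw [this, pow_add, pow_mul, h3]; simp
  have hw1 : w = 1 := by rw [← h2, h1]
  subst hw1
  have h30 : (3 : F) = 0 := by linear_combination h
  have h4 : ((3 * (q / 3) + 2 : ℕ) : F) = 0 := by
    have : 3 * (q / 3) + 2 = q := by omega
    rw [this, ← hF]
    exact FiniteField.cast_card_eq_zero F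
  push_cast at h4
  have h20 : (2 : F) = 0 := by linear_combination h4 - ((q / 3 : ℕ) : F) * h30
  exact one_ne_zero (α := F) (by linear_combination h30 - h20)

noncomputable def f3 (F : Type*) [Field F] : F[X] := X ^ 2 + X + 1

theorem f3_natDegree : (f3 F).natDegree = 2 := by
  unfold f3; compute_degree!

theorem f3_irreducible [Fintype F] {q : ℕ} (hF : Fintype.card F = q) (hq : q % 3 = 2) : Irreducible (f3 F) := by
  refine Polynomial.irreducible_of_degree_le_three_of_not_isRoot ?_ ?_
  · rw [f3_natDegree]; decide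
  · intro x hx
    apply no_root hF hq x
    have : eval x (f3 F) = 0 := hx
    simpa [f3] using this

variable {V : Type*} [AddCommGroup V] [Module F V]

/-- the ring hom from `F[X]/(X²+X+1)` -/
noncomputable def act (T : Module.End F V) (hT : ∀ v, T (T v) + T v + v = 0) : AdjoinRoot (f3 F) →ₐ[F] Module.End F V :=
  Ideal.Quotient.liftₐ (Ideal.span {f3 F}) (aeval T) (by
    intro a ha
    obtain ⟨b, rfl⟩ := Ideal.mem_span_singleton'.1 ha
    have h0 : aeval T (f3 F) = 0 := by
      apply LinearMap.ext
      intro v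
      simp only [f3, map_add, map_pow, aeval_X, map_one, LinearMap.add_apply, Module.End.one_apply,
        LinearMap.zero_apply]
      rw [pow_two, Module.End.mul_apply]
      exact hT v
    rw [map_mul, h0, mul_zero])

theorem act_root (T : Module.End F V) (hT : ∀ v, T (T v) + T v + v = 0) (v : V) :
    act T hT (AdjoinRoot.root (f3 F)) v = T v := by
  have : act T hT (AdjoinRoot.root (f3 F)) = aeval T X := rfl
  rw [this, aeval_X]

theorem root_eq : (AdjoinRoot.root (f3 F)) ^ 2 + AdjoinRoot.root (f3 F) + 1 = 0 := by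
  have h : eval₂ (AdjoinRoot.of (f3 F)) (AdjoinRoot.root (f3 F)) (f3 F) = 0 := AdjoinRoot.eval₂_root _
  unfold f3 at h ⊢
  simpa using h

theorem card_centralizer [Fintype F] {q : ℕ} (hF : Fintype.card F = q) (hq : q % 3 = 2) [FiniteDimensional F V]
    (B : V →ₗ[F] V →ₗ[F] F) (hB : ∀ u v, B u v = - B v u) (hnd : ∀ u, (∀ v, B u v = 0) → u = 0)
    (T : Module.End F V) (hT : ∀ v, T (T v) + T v + v = 0) (hBT : ∀ u v, B (T u) (T v) = B u v) {m : ℕ}
    (hm : finrank F V = 2 * m) :
    Nat.card {g : V ≃ₗ[F] V // (∀ u v, B (g u) (g v) = B u v) ∧ ∀ v, g (T v) = T (g v)} =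
    q ^ (m * (m - 1) / 2) * ∏ i ∈ Finset.range m, (if Even i then q ^ (i + 1) + 1 else q ^ (i + 1) - 1) := by
  haveI : Fact (Irreducible (f3 F)) := ⟨f3_irreducible hF hq⟩
  haveI : Module.Finite F (AdjoinRoot (f3 F)) :=
    (AdjoinRoot.powerBasis (f3_irreducible hF hq).ne_zero).finite
  haveI : Finite (AdjoinRoot (f3 F)) := Module.finite_of_finite F
  letI : Fintype (AdjoinRoot (f3 F)) := Fintype.ofFinite _
  have h2 : finrank F (AdjoinRoot (f3 F)) = 2 := by
    rw [(AdjoinRoot.powerBasis (f3_irreducible hF hq).ne_zero).finrank, AdjoinRoot.powerBasis_dim, f3_natDegree]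
  have hK : Fintype.card (AdjoinRoot (f3 F)) = q ^ 2 := by
    rw [Module.card_eq_pow_finrank (K := F), h2, hF]
  letI : Module (AdjoinRoot (f3 F)) V := Module.compHom V (act T hT).toRingHom
  have hsm : ∀ (k : AdjoinRoot (f3 F)) (v : V), k • v = act T hT k v := fun _ _ => rfl
  have hroot : ∀ v : V, AdjoinRoot.root (f3 F) • v = T v := fun v => by rw [hsm, act_root]
  haveI : IsScalarTower F (AdjoinRoot (f3 F)) V := ⟨fun a k v => by
    rw [hsm, hsm, map_smul, LinearMap.smul_apply]⟩
  haveI : Module.Finite (AdjoinRoot (f3 F)) V := Module.Finite.of_restrictScalars_finite F _ V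
  have hfin : finrank (AdjoinRoot (f3 F)) V = m := by
    have := Module.finrank_mul_finrank F (AdjoinRoot (f3 F)) V
    rw [h2, hm] at this
    omega
  obtain ⟨ω, hω⟩ : ∃ ω : AdjoinRoot (f3 F), ω = AdjoinRoot.root (f3 F) := ⟨_, rfl⟩
  have hω2 : ω ^ 2 + ω + 1 = 0 := by rw [hω]; exact root_eq
  have hω3 : ω ^ 3 = 1 := by linear_combination (ω - 1) * hω2
  rw [← hω] at hroot
  have hωq : ω ^ q = - 1 - ω := by
    have : q = 3 * (q / 3) + 2 := by omega
    rw [this, pow_add, pow_mul, hω3, one_pow, one_mul]
    linear_combination hω2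
  let σ : AdjoinRoot (f3 F) ≃+* AdjoinRoot (f3 F) :=
    { toFun := ClUnitary.frob hK
      invFun := ClUnitary.frob hK
      left_inv := ClUnitary.frob_frob hK
      right_inv := ClUnitary.frob_frob hK
      map_mul' := map_mul _
      map_add' := map_add _ }
  have hσ : ∀ x, σ x = x ^ q := fun _ => rfl
  have hσF : ∀ a : F, σ (algebraMap F _ a) = algebraMap F _ a := by
    intro a
    rw [hσ, ← map_pow, ← hF, FiniteField.pow_card]
  have hωF : ∀ a : F, ω ≠ algebraMap F _ a := by
    intro a ha
    apply no_root hF hq a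
    apply (algebraMap F (AdjoinRoot (f3 F))).injective
    rw [map_add, map_add, map_pow, map_one, map_zero, ← ha, hω2]
  have hσω : σ ω = - 1 - ω := by rw [hσ, hωq]
  have hord : orderOf σ = 2 := by
    apply orderOf_eq_prime
    · apply RingEquiv.ext
      intro x
      rw [pow_two]
      exact ClUnitary.frob_frob hK x
    · intro h
      have h1 : σ ω = ω := by rw [h]; rfl
      rw [hσω] at h1
      have h2 : (2 : AdjoinRoot (f3 F)) * ω = - 1 := by linear_combination - h1
      by_cases h20 : (2 : F) = 0
      · have : (2 : AdjoinRoot (f3 F)) = 0 := by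
          have := congrArg (algebraMap F (AdjoinRoot (f3 F))) h20
          rwa [map_ofNat, map_zero] at this
        rw [this, zero_mul] at h2
        exact one_ne_zero (α := AdjoinRoot (f3 F)) (by linear_combination h2)
      · apply hωF (- 1 / 2)
        rw [map_div₀, map_neg, map_one]
        have h3 : algebraMap F (AdjoinRoot (f3 F)) 2 ≠ 0 := by
          rw [Ne, map_eq_zero]; exact h20
        rw [eq_div_iff h3, map_ofNat, mul_comm]
        exact h2
  have hBT2 : ∀ u v, B v (T u) = - B v u - B (T v) u := by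
    intro u v
    have h1 : T (T (T u)) = u := by
      have h3 := congrArg T (hT u)
      rw [map_add, map_add, map_zero] at h3
      have h4 := hT u
      have : T (T (T u)) = - (T (T u) + T u) := by
        rw [eq_neg_iff_add_eq_zero, ← add_assoc]; exact h3
      rw [this, neg_eq_iff_eq_neg, eq_neg_iff_add_eq_zero]
      exact h4
    have h2 : B v (T u) = B (T v) (T (T u)) := (hBT _ _).symm
    have h5 : T (T u) = - T u - u := by
      have := hT u
      rw [← sub_eq_zero]; rw [← this]; module
    rw [h2, h5, map_sub, map_neg, hBT]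
  obtain ⟨H, hH⟩ : ∃ H : V → V → AdjoinRoot (f3 F), ∀ u v, H u v =
    algebraMap F _ (B (T v) u) - ω * algebraMap F _ (B v u) := ⟨_, fun _ _ => rfl⟩
  have hHT : ∀ u v, H (T u) v = ω * H u v := by
    intro u v
    rw [hH, hH, hBT, hBT2, map_sub, map_neg]
    linear_combination (algebraMap F (AdjoinRoot (f3 F)) (B v u)) * hω2
  have hherm : IsHerm σ H := by
    refine ⟨?_, ?_, ?_⟩
    · intro u v w
      simp only [hH, map_add]; ring
    · intro a
      induction a using root_ind (f3 F) with
      | hC a =>
        intro u v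
        simp only [algebraMap_smul, hH, LinearMap.map_smul, smul_eq_mul, map_mul]; ring
      | hadd x y hx hy =>
        intro u v
        have h1 : H (x • u + y • u) v = H (x • u) v + H (y • u) v := by simp only [hH, map_add]; ring
        rw [add_smul, h1, hx, hy]; ring
      | hroot x hx =>
        intro u v
        rw [← hω, mul_smul, hroot, hx, hHT]; ring
    · intro u v
      rw [hH, hH, map_sub, map_mul, hσF, hσF, hσω, hB (T u) v, hBT2, hB u v]
      simp only [map_neg, map_sub]
      ring
  have hH0 : ∀ v, (∀ w, H v w = 0) → v = 0 := by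
    intro v hv
    apply hnd
    intro w
    by_contra hne
    have h1 : H w v = 0 := by rw [hherm.conj, hv, map_zero]
    rw [hH] at h1
    apply hωF (B (T v) w / B v w)
    have h3 : algebraMap F (AdjoinRoot (f3 F)) (B v w) ≠ 0 := by
      rw [Ne, map_eq_zero]; exact hne
    rw [map_div₀, eq_div_iff h3]
    linear_combination - h1
  obtain ⟨b, hb⟩ := exists_orthonormal hord m hherm hH0 hfin
  have hbH : ∀ v i, H v (b i) = b.equivFun v i := by
    intro v i
    conv_lhs => rw [← b.sum_equivFun v]
    rw [← hherm.lin_apply, map_sum]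
    simp only [hherm.lin_apply, hherm.smul, hb]
    simp
  have he : ∀ u v, hermForm m (AdjoinRoot (f3 F)) q (b.equivFun u) (b.equivFun v) = H u v := by
    intro u v
    conv_rhs => rw [← b.sum_equivFun u]
    rw [← hherm.lin_apply, map_sum]
    simp only [hherm.lin_apply, hherm.smul]
    unfold hermForm
    refine Finset.sum_congr rfl fun i _ => ?_
    rw [hherm.conj v (b i), hbH, hσ]
  rw [← ClUnitary.card_iso hK m, ← Nat.card_congr (isoGrpCongr b.equivFun he).toEquiv]
  have hgK : ∀ g : V ≃ₗ[F] V, (∀ v, g (T v) = T (g v)) → ∀ (k : AdjoinRoot (f3 F)) v, g (k • v) = k • g v := by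
    intro g hg k
    induction k using root_ind (f3 F) with
    | hC a => intro v; rw [algebraMap_smul, algebraMap_smul, map_smul]
    | hadd x y hx hy => intro v; rw [add_smul, map_add, hx, hy, add_smul]
    | hroot x hx => intro v; rw [← hω, mul_smul, hroot, hx, hg, mul_smul, hroot]
  apply Nat.card_congr
  exact
    { toFun := fun g => ⟨{ g.1 with map_smul' := fun k v => hgK g.1 g.2.2 k v }, fun u v => by
        change H (g.1 u) (g.1 v) = H u v
        rw [hH, hH, ← g.2.2, g.2.1, g.2.1]⟩
      invFun := fun g => ⟨g.1.restrictScalars F, by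
        have h1 : ∀ v, g.1 (T v) = T (g.1 v) := by
          intro v
          rw [← hroot, ← hroot, map_smul]
        have h2 : ∀ u v, H (g.1 u) (g.1 v) = H u v := g.2
        refine ⟨?_, h1⟩
        intro u v
        change B (g.1 u) (g.1 v) = B u v
        by_contra hne
        have h4 := h2 v u
        rw [hH, hH] at h4
        have h3 : algebraMap F (AdjoinRoot (f3 F)) (B (g.1 u) (g.1 v) - B u v) ≠ 0 := by
          rw [Ne, map_eq_zero, sub_eq_zero]; exact hne
        apply hωF ((B (T (g.1 u)) (g.1 v) - B (T u) v) / (B (g.1 u) (g.1 v) - B u v))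
        rw [map_div₀, eq_div_iff h3, map_sub, map_sub]
        linear_combination - h4⟩
      left_inv := fun g => by
        apply Subtype.ext
        ext v
        rfl
      right_inv := fun g => by
        apply Subtype.ext
        ext v
        rfl }

end

end Cfsg.Agent.Lib.CentThree
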