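import Cfsg.Agent.Lib.ChevShort
import Cfsg.Agent.Lib.ChevN
set_option autoImplicit false

/-!
Two-generation of Chevalley groups over finite fields: the basic configuration
`A = x_γ(1) h_r(ζ)`, `B = x_α(1) n_w` (helper19).
-/

namespace Cfsg.Agent.Lib.ChTwoGen
open Cfsg.Lie Cfsg.Agent.Lib.ChevX Cfsg.Agent.Lib.ChevGood Cfsg.Agent.Lib.ChevRel Cfsg.Agent.Lib.ChevN
open Cfsg.Agent.Lib.ChevH
open Cfsg.Agent.Lib.ChevShort (InM inM_comm)
open scoped MatrixGroups Matrix

variable {D : ChevalleyDatum} {K : Type*} [Field K]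

/-- the subgroup generated by two elements of a subgroup, seen inside the subgroup -/
theorem two_gen_of {Γ : Type*} [Group Γ] (S : Subgroup Γ) {A B : Γ} (hA : A ∈ S) (hB : B ∈ S)
    (h : ∀ M : Subgroup Γ, A ∈ M → B ∈ M → S ≤ M) :
    ∃ a b : ↥S, Subgroup.closure ({a, b} : Set ↥S) = ⊤ := by
  refine ⟨⟨A, hA⟩, ⟨B, hB⟩, ?_⟩
  rw [eq_top_iff]
  rintro ⟨x, hx⟩ -
  have h1 : x ∈ (Subgroup.closure ({⟨A, hA⟩, ⟨B, hB⟩} : Set ↥S)).map S.subtype := by
    refine h _ ?_ ?_ hx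
    · exact ⟨⟨A, hA⟩, Subgroup.subset_closure (by simp), rfl⟩
    · exact ⟨⟨B, hB⟩, Subgroup.subset_closure (by simp), rfl⟩
  obtain ⟨y, hy, hyx⟩ := h1
  have : y = ⟨x, hx⟩ := Subtype.ext hyx
  rwa [this] at hy

/-- the commutator trick -/
theorem comm_trick {Γ : Type*} [Group Γ] (x : K → Γ) (hadd : ∀ s t, x s * x t = x (s + t)) {h h' : Γ} {l m : K}
    (hc : h * h' = h' * h) (h1 : ∀ t, h * x t * h⁻¹ = x (l * t)) (h2 : ∀ t, h' * x t * h'⁻¹ = x (m * t)) :
    h * (x 1 * h' * (x 1)⁻¹) * h⁻¹ * (x 1 * h' * (x 1)⁻¹)⁻¹ = x ((l - 1) * (1 - m)) := by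
  have hz : x 0 = 1 := by
    have := hadd 0 0
    rw [add_zero] at this
    exact mul_eq_left.mp this
  have hinv : ∀ t, (x t)⁻¹ = x (-t) := by
    intro t
    rw [inv_eq_iff_mul_eq_one, hadd, add_neg_cancel, hz]
  have e1 : x 1 * h' * (x 1)⁻¹ = x (1 - m) * h' := by
    have : x 1 * h' * (x 1)⁻¹ = x 1 * (h' * x (-1) * h'⁻¹) * h' := by rw [hinv]; group
    rw [this, h2, hadd]
    congr 2; ring
  rw [e1]
  have e2 : h * (x (1 - m) * h') * h⁻¹ * (x (1 - m) * h')⁻¹
      = (h * x (1 - m) * h⁻¹) * (h * h' * h⁻¹ * h'⁻¹) * (x (1 - m))⁻¹ := by group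
  rw [e2, h1, hc, hinv]
  have e3 : h' * h * h⁻¹ * h'⁻¹ = 1 := by group
  rw [e3, mul_one, hadd]
  congr 1; ring

section
variable (G : Good D)
include G

theorem nwd_mem_group {w : List ℕ} : nwd D K w ∈ D.group K := by
  unfold nwd
  apply Subgroup.list_prod_mem
  intro g hg
  rw [List.mem_map] at hg
  obtain ⟨i, _, rfl⟩ := hg
  unfold ng
  exact Subgroup.mul_mem _ (Subgroup.mul_mem _ (ChevAuto.xg_mem G _ _) (ChevAuto.xg_mem G _ _)) (ChevAuto.xg_mem G _ _)

theorem hg_mem_group (r : ℕ) (t : K) : hg D K r t ∈ D.group K := by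
  unfold hg ng
  refine Subgroup.mul_mem _ (Subgroup.mul_mem _ (Subgroup.mul_mem _ ?_ ?_) ?_)
    (Subgroup.mul_mem _ (Subgroup.mul_mem _ ?_ ?_) ?_) <;> exact ChevAuto.xg_mem G _ _

theorem hg_pow {r : ℕ} (hr : r < D.nroots) (u : K) (hu : u ≠ 0) (k : ℕ) : hg D K r (u ^ k) = hg D K r u ^ k := by
  induction k with
  | zero => rw [pow_zero, pow_zero, hg_one G hr]
  | succ k ih => rw [pow_succ, pow_succ, ← ih, hg_mul G hr _ _ (pow_ne_zero _ hu) hu]

theorem xg_pow (r : ℕ) (t : K) (k : ℕ) : xg D K r t ^ k = xg D K r (k * t) := by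
  induction k with
  | zero => simp [xg_zero G]
  | succ k ih => rw [pow_succ, ih, xg_add G]; congr 1; push_cast; ring

theorem inM_of_zpow {M : Subgroup (GL D.Idx K)} {r α : ℕ} (hr : r < D.nroots) (hα : α < D.nroots)
    (hH : ∀ u : K, u ≠ 0 → hg D K r u ∈ M) (hpr : pr D r α = 1 ∨ pr D r α = -1) {c : K} (hc : c ≠ 0)
    (hx : xg D K α c ∈ M) : InM M α := by
  intro t
  rcases eq_or_ne t 0 with rfl | ht
  · rw [xg_zero G]; exact M.one_mem
  obtain ⟨u, hu, hut⟩ : ∃ u : K, u ≠ 0 ∧ u ^ pr D r α * c = t := by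
    rcases hpr with h | h <;> rw [h]
    · exact ⟨t * c⁻¹, mul_ne_zero ht (inv_ne_zero hc), by field_simp⟩
    · exact ⟨c * t⁻¹, mul_ne_zero hc (inv_ne_zero ht), by field_simp⟩
  have h1 := hg_conj G hr hα u hu c
  rw [show (∑ j ∈ Finset.range D.rank, co D r j * D.cartan j α) = pr D r α from rfl, hut] at h1
  rw [← h1]
  exact M.mul_mem (M.mul_mem (hH u hu) hx) (M.inv_mem (hH u hu))

/-- the elements of the configuration -/
theorem gen3 [Finite K] (hK : ∃ x : K, x ≠ 0 ∧ x ≠ 1) {w : List ℕ} {α β r γ : ℕ} (hw : Valid D w)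
    (hα : α < D.nroots) (hβ : β < D.nroots) (hr : r < D.nroots) (hγ : γ < D.nroots) (hwβ : wr D w β = α)
    (h1 : pr D r α = 1 ∨ pr D r α = -1) (h2 : pr D r β = 1 ∨ pr D r β = -1) (h3 : pr D r γ = 0) :
    ∃ A ∈ D.group K, ∃ B ∈ D.group K, ∀ M : Subgroup (GL D.Idx K), A ∈ M → B ∈ M →
      InM M α ∧ nwd D K w ∈ M ∧ xg D K γ 1 ∈ M ∧ ∀ u : K, u ≠ 0 → hg D K r u ∈ M := by
  have := Fintype.ofFinite K
  classical
  obtain ⟨z, hz⟩ := IsCyclic.exists_generator (α := Kˣ)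
  have hz0 : (z : K) ≠ 0 := z.ne_zero
  have hz1 : (z : K) ≠ 1 := by
    intro h
    obtain ⟨x, hx0, hx1⟩ := hK
    have : z = 1 := Units.ext h
    obtain ⟨k, hk⟩ := hz (Units.mk0 x hx0)
    simp only [this, one_zpow] at hk
    exact hx1 (by rw [← Units.val_mk0 hx0, ← hk]; rfl)
  refine ⟨xg D K γ 1 * hg D K r z, Subgroup.mul_mem _ (ChevAuto.xg_mem G _ _) (hg_mem_group G _ _),
    xg D K α 1 * nwd D K w, Subgroup.mul_mem _ (ChevAuto.xg_mem G _ _) (nwd_mem_group G), fun M hA hB => ?_⟩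
  have hcomm : Commute (xg D K γ 1) (hg D K r z) := by
    have h4 := hg_conj G hr hγ (z : K) hz0 1
    rw [show (∑ j ∈ Finset.range D.rank, co D r j * D.cartan j γ) = pr D r γ from rfl, h3, zpow_zero, one_mul] at h4
    exact (mul_inv_eq_iff_eq_mul.mp h4).symm
  have hh : hg D K r z ∈ M := by
    have h5 := M.pow_mem hA (Fintype.card K)
    rw [hcomm.mul_pow, xg_pow G, ← hg_pow G hr _ hz0, FiniteField.pow_card, FiniteField.cast_card_eq_zero, zero_mul,
      xg_zero G, one_mul] at h5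
    exact h5
  have hxγ : xg D K γ 1 ∈ M := by
    have := M.mul_mem hA (M.inv_mem hh)
    rwa [mul_inv_cancel_right] at this
  have hH : ∀ u : K, u ≠ 0 → hg D K r u ∈ M := by
    intro u hu
    obtain ⟨k, hk⟩ := (mem_powers_iff_mem_zpowers (x := z)).mpr (hz (Units.mk0 u hu))
    have : u = (z : K) ^ k := by
      have h6 := congrArg Units.val hk
      simpa using h6.symm
    rw [this, hg_pow G hr _ hz0]
    exact M.pow_mem hh k
  obtain ⟨ε, hε, h7, -⟩ := nwd_conj G (F := K) hw hβ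
  rw [hwβ] at h7
  have hε2 : ε * ε = 1 := by rcases hε with h | h <;> rw [h] <;> ring
  have hc : ∀ t : K, hg D K r z * xg D K α t * (hg D K r z)⁻¹ = xg D K α ((z : K) ^ pr D r α * t) :=
    fun t => hg_conj G hr hα (z : K) hz0 t
  have hc' : ∀ t : K, (nwd D K w * hg D K r z * (nwd D K w)⁻¹) * xg D K α t * (nwd D K w * hg D K r z * (nwd D K w)⁻¹)⁻¹
      = xg D K α ((z : K) ^ pr D r β * t) := by
    intro t
    have h8 : xg D K α t = nwd D K w * xg D K β (ε * t) * (nwd D K w)⁻¹ := by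
      rw [h7, ← mul_assoc, hε2, one_mul]
    have h9 := hg_conj G hr hβ (z : K) hz0 (ε * t)
    rw [show (∑ j ∈ Finset.range D.rank, co D r j * D.cartan j β) = pr D r β from rfl] at h9
    have h10 := h7 ((z : K) ^ pr D r β * (ε * t))
    rw [← h9] at h10
    rw [h8]
    have h11 : ε * ((z : K) ^ pr D r β * (ε * t)) = (z : K) ^ pr D r β * t := by
      calc ε * ((z : K) ^ pr D r β * (ε * t)) = (ε * ε) * ((z : K) ^ pr D r β * t) := by ring
        _ = _ := by rw [hε2, one_mul]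
    rw [h11] at h10
    rw [← h10]
    group
  have hdiag : hg D K r z * (nwd D K w * hg D K r z * (nwd D K w)⁻¹) = (nwd D K w * hg D K r z * (nwd D K w)⁻¹) * hg D K r z :=
    diag_comm G (hg_mem G hr hz0)
      ((Subgroup.mem_normalizer_iff.mp (nwd_mem_normalizer G hw) _).mp (hg_mem G hr hz0))
  have hcs := comm_trick (fun t => xg D K α t) (fun s t => xg_add G α s t) hdiag hc hc'
  have hBm : xg D K α 1 * (nwd D K w * hg D K r z * (nwd D K w)⁻¹) * (xg D K α 1)⁻¹ ∈ M := by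
    have h12 : xg D K α 1 * (nwd D K w * hg D K r z * (nwd D K w)⁻¹) * (xg D K α 1)⁻¹
        = (xg D K α 1 * nwd D K w) * hg D K r z * (xg D K α 1 * nwd D K w)⁻¹ := by group
    rw [h12]
    exact M.mul_mem (M.mul_mem hB hh) (M.inv_mem hB)
  have hne : ∀ e : ℤ, e = 1 ∨ e = -1 → (z : K) ^ e ≠ 1 := by
    rintro e (rfl | rfl)
    · simpa using hz1
    · simpa using hz1
  have hM : InM M α := by
    refine inM_of_zpow G hr hα hH h1 (c := ((z : K) ^ pr D r α - 1) * (1 - (z : K) ^ pr D r β))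
      (mul_ne_zero (sub_ne_zero.mpr (hne _ h1)) (sub_ne_zero.mpr (hne _ h2).symm)) ?_
    rw [← hcs]
    exact M.mul_mem (M.mul_mem (M.mul_mem hh hBm) (M.inv_mem hh)) (M.inv_mem hBm)
  refine ⟨hM, ?_, hxγ, hH⟩
  have := M.mul_mem (M.inv_mem (hM 1)) hB
  rwa [inv_mul_cancel_left] at this

/-- the torus of a root `s` with `X_{±s} ≤ M` -/
theorem hg_mem_of {M : Subgroup (GL D.Idx K)} {s : ℕ} (h1 : InM M s) (h2 : InM M (D.neg s)) (u : K) : hg D K s u ∈ M := by
  unfold hg ng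
  exact M.mul_mem (M.mul_mem (M.mul_mem (h1 _) (h2 _)) (h1 _)) (M.mul_mem (M.mul_mem (h1 _) (h2 _)) (h1 _))

/-- spreading `x_γ(1)` by the torus of `s` -/
theorem torus_step {M : Subgroup (GL D.Idx K)} {s γ : ℕ} (hs : s < D.nroots) (hγ : γ < D.nroots)
    (h1 : InM M s) (h2 : InM M (D.neg s)) {c : ℕ} (hc0 : c ≠ 0) (hc : pr D s γ = c) (hsurj : ∀ t : K, ∃ u, u ^ c = t)
    (hx : xg D K γ 1 ∈ M) : InM M γ := by
  intro t
  rcases eq_or_ne t 0 with rfl | ht
  · rw [xg_zero G]; exact M.one_mem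
  obtain ⟨u, hu⟩ := hsurj t
  have hu0 : u ≠ 0 := by
    rintro rfl
    rw [zero_pow hc0] at hu
    exact ht hu.symm
  have h3 := hg_conj G hs hγ u hu0 1
  rw [show (∑ j ∈ Finset.range D.rank, co D s j * D.cartan j γ) = pr D s γ from rfl, hc, zpow_natCast, hu, mul_one] at h3
  rw [← h3]
  exact M.mul_mem (M.mul_mem (hg_mem_of G h1 h2 u) hx) (M.inv_mem (hg_mem_of G h1 h2 u))

theorem inM_wr {M : Subgroup (GL D.Idx K)} {w : List ℕ} (hw : Valid D w) (hn : nwd D K w ∈ M) {s : ℕ}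
    (hs : s < D.nroots) (h : InM M s) : InM M (wr D w s) := by
  obtain ⟨ε, hε, h7, -⟩ := nwd_conj G (F := K) hw hs
  have hε2 : ε * ε = 1 := by rcases hε with h | h <;> rw [h] <;> ring
  intro t
  have := h7 (ε * t)
  rw [← mul_assoc, hε2, one_mul] at this
  rw [← this]
  exact M.mul_mem (M.mul_mem hn (h _)) (M.inv_mem hn)

end

/-- a derivation of root subgroups: `(k, a, b)` is either a unary step (relation `R`) from `a` to `k` (if `b = nroots`)
or a commutator of `a` and `b` -/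
def chk (D : ChevalleyDatum) (R : ℕ → ℕ → Bool) (c : ℤ) : List (ℕ × ℕ × ℕ) → List ℕ → Bool
  | [], _ => true
  | (k, a, b) :: L, S =>
    (a ∈ S && a < D.nroots &&
      (if b = D.nroots then R a k
       else (b ∈ S && b < D.nroots && decide (b ≠ a) && decide (b ≠ D.neg a) &&
        (match D.commTerms a b with
          | [(k', m, 1, 1)] => k' == k && (m == 1 || m == -1 || m == c || m == -c)
          | _ => false)))) && chk D R c L (k :: S)

theorem chk_sound (G : Good D) {M : Subgroup (GL D.Idx K)} {R : ℕ → ℕ → Bool}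
    (hR : ∀ a k, a < D.nroots → R a k = true → InM M a → InM M k)
    {c : ℤ} (hc : (c : K) ≠ 0) : ∀ (L : List (ℕ × ℕ × ℕ)) (S : List ℕ), chk D R c L S = true →
    (∀ r ∈ S, InM M r) → ∀ r ∈ S ++ L.map Prod.fst, InM M r := by
  intro L
  induction L with
  | nil => intro S _ hS r hr; simp only [List.map_nil, List.append_nil] at hr; exact hS r hr
  | cons e L ih =>
    obtain ⟨k, a, b⟩ := e
    intro S h hS
    rw [chk] at h
    simp only [Bool.and_eq_true, decide_eq_true_eq] at h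
    obtain ⟨⟨⟨ha, ha'⟩, hb⟩, hL⟩ := h
    have hk : InM M k := by
      split_ifs at hb with hbn
      · exact hR a k ha' hb (hS a ha)
      · simp only [Bool.and_eq_true, decide_eq_true_eq] at hb
        obtain ⟨⟨⟨⟨hb1, hb2⟩, hb3⟩, hb4⟩, hb5⟩ := hb
        split at hb5
        · rename_i k' m heq
          simp only [Bool.and_eq_true, Bool.or_eq_true, beq_iff_eq] at hb5
          obtain ⟨rfl, hm⟩ := hb5
          refine inM_comm G ha' hb2 hb3 hb4 heq ?_ (hS a ha) (hS b hb1)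
          rcases hm with ((rfl | rfl) | rfl) | rfl
          · simp
          · simp
          · exact hc
          · push_cast; exact neg_ne_zero.mpr hc
        · simp at hb5
    have := ih (k :: S) hL (by
      intro r hr
      rcases List.mem_cons.mp hr with rfl | hr
      · exact hk
      · exact hS r hr)
    intro r hr
    apply this
    simp only [List.map_cons, List.mem_append, List.mem_cons] at hr ⊢
    tauto

/-- the targets: all `±` fundamental roots -/
def tgt (D : ChevalleyDatum) (S : List ℕ) : Bool :=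
  (List.range D.rank).all fun i => D.simple i ∈ S && D.neg (D.simple i) ∈ S

theorem group_le_of (G : Good D) {M : Subgroup (GL D.Idx K)} {S : List ℕ} (hS : ∀ r ∈ S, InM M r)
    (h : tgt D S = true) : D.group K ≤ M := by
  rw [ChevAuto.group_eq_simple G, Subgroup.closure_le]
  unfold tgt at h
  rw [List.all_eq_true] at h
  rintro g ⟨i, hi, t, rfl | rfl⟩
  · have := h i (List.mem_range.mpr hi)
    simp only [Bool.and_eq_true, decide_eq_true_eq] at this
    exact hS _ this.1 t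
  · have := h i (List.mem_range.mpr hi)
    simp only [Bool.and_eq_true, decide_eq_true_eq] at this
    exact hS _ this.2 t

/-- the relation given by a word -/
def Rw (D : ChevalleyDatum) (w : List ℕ) (a k : ℕ) : Bool := decide (wr D w a = k)

theorem Rw_sound (G : Good D) {M : Subgroup (GL D.Idx K)} {w : List ℕ} (hw : Valid D w) (hn : nwd D K w ∈ M) :
    ∀ a k, a < D.nroots → Rw D w a k = true → InM M a → InM M k := by
  intro a k ha h hM
  unfold Rw at h
  rw [decide_eq_true_eq] at h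
  rw [← h]
  exact inM_wr G hw hn ha hM

/-- the numerical configuration -/
def cfg (D : ChevalleyDatum) (w : List ℕ) (α β r γ : ℕ) : Bool :=
  decide (∀ i ∈ w, i < D.rank) && decide (α < D.nroots) && decide (β < D.nroots) && decide (r < D.nroots) &&
  decide (γ < D.nroots) && decide (wr D w β = α) && decide (pr D r α = 1 ∨ pr D r α = -1) &&
  decide (pr D r β = 1 ∨ pr D r β = -1) && decide (pr D r γ = 0)

section
variable (G : Good D)
include G

theorem gen3' [Finite K] (hK : ∃ x : K, x ≠ 0 ∧ x ≠ 1) {w : List ℕ} {α β r γ : ℕ} (h : cfg D w α β r γ = true) :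
    Valid D w ∧ γ < D.nroots ∧ ∃ A ∈ D.group K, ∃ B ∈ D.group K, ∀ M : Subgroup (GL D.Idx K), A ∈ M → B ∈ M →
      InM M α ∧ nwd D K w ∈ M ∧ xg D K γ 1 ∈ M := by
  unfold cfg at h
  simp only [Bool.and_eq_true, decide_eq_true_eq] at h
  obtain ⟨⟨⟨⟨⟨⟨⟨⟨h1, h2⟩, h3⟩, h4⟩, h5⟩, h6⟩, h7⟩, h8⟩, h9⟩ := h
  obtain ⟨A, hA, B, hB, h⟩ := gen3 G hK h1 h2 h3 h4 h5 h6 h7 h8 h9
  exact ⟨h1, h5, A, hA, B, hB, fun M hAM hBM => ⟨(h M hAM hBM).1, (h M hAM hBM).2.1, (h M hAM hBM).2.2.1⟩⟩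

/-- one orbit suffices -/
theorem gen_one [Finite K] (hK : ∃ x : K, x ≠ 0 ∧ x ≠ 1) {w : List ℕ} {α β r γ : ℕ} (h : cfg D w α β r γ = true)
    {L : List (ℕ × ℕ × ℕ)} (hL : chk D (Rw D w) 1 L [α] = true) (ht : tgt D ([α] ++ L.map Prod.fst) = true) :
    ∃ a b : ↥(D.group K), Subgroup.closure ({a, b} : Set ↥(D.group K)) = ⊤ := by
  obtain ⟨hw, -, A, hA, B, hB, h1⟩ := gen3' G hK h
  refine two_gen_of _ hA hB fun M hAM hBM => ?_
  obtain ⟨h2, h3, -⟩ := h1 M hAM hBM
  refine group_le_of G (chk_sound G (Rw_sound G hw h3) (c := 1) (by simp) L [α] hL ?_) ht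
  intro r hr
  rw [List.mem_singleton] at hr
  rwa [hr]

/-- two orbits -/
theorem gen_two [Finite K] (hK : ∃ x : K, x ≠ 0 ∧ x ≠ 1) {w : List ℕ} {α β r γ : ℕ} (h : cfg D w α β r γ = true)
    {c : ℕ} (hc0 : c ≠ 0) (hsurj : ∀ t : K, ∃ u, u ^ c = t) {s : ℕ}
    (hsc : decide (s < D.nroots) && decide (pr D s γ = c) = true)
    {L1 : List (ℕ × ℕ × ℕ)} (hL1 : chk D (Rw D w) 1 L1 [α] = true)
    (hs1 : decide (s ∈ [α] ++ L1.map Prod.fst) && decide (D.neg s ∈ [α] ++ L1.map Prod.fst) = true)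
    {L2 : List (ℕ × ℕ × ℕ)} (hL2 : chk D (Rw D w) 1 L2 (γ :: ([α] ++ L1.map Prod.fst)) = true)
    (ht : tgt D ((γ :: ([α] ++ L1.map Prod.fst)) ++ L2.map Prod.fst) = true) :
    ∃ a b : ↥(D.group K), Subgroup.closure ({a, b} : Set ↥(D.group K)) = ⊤ := by
  obtain ⟨hw, hγ, A, hA, B, hB, h1⟩ := gen3' G hK h
  simp only [Bool.and_eq_true, decide_eq_true_eq] at hsc hs1
  refine two_gen_of _ hA hB fun M hAM hBM => ?_
  obtain ⟨h2, h3, h4⟩ := h1 M hAM hBM
  have h5 := chk_sound G (Rw_sound G hw h3) (c := 1) (by simp) L1 [α] hL1 (by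
    intro r hr
    rw [List.mem_singleton] at hr
    rwa [hr])
  have h6 := torus_step G hsc.1 hγ (h5 _ hs1.1) (h5 _ hs1.2) hc0 hsc.2 hsurj h4
  refine group_le_of G (chk_sound G (Rw_sound G hw h3) (c := 1) (by simp) L2 _ hL2 ?_) ht
  intro r hr
  rcases List.mem_cons.mp hr with rfl | hr
  · exact h6
  · exact h5 _ hr

/-- one orbit, with structure constants `±c` invertible -/
theorem gen_one' [Finite K] (hK : ∃ x : K, x ≠ 0 ∧ x ≠ 1) {w : List ℕ} {α β r γ : ℕ} (h : cfg D w α β r γ = true)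
    {c : ℤ} (hc : (c : K) ≠ 0)
    {L : List (ℕ × ℕ × ℕ)} (hL : chk D (Rw D w) c L [α] = true) (ht : tgt D ([α] ++ L.map Prod.fst) = true) :
    ∃ a b : ↥(D.group K), Subgroup.closure ({a, b} : Set ↥(D.group K)) = ⊤ := by
  obtain ⟨hw, -, A, hA, B, hB, h1⟩ := gen3' G hK h
  refine two_gen_of _ hA hB fun M hAM hBM => ?_
  obtain ⟨h2, h3, -⟩ := h1 M hAM hBM
  refine group_le_of G (chk_sound G (Rw_sound G hw h3) hc L [α] hL ?_) ht
  intro r hr
  rw [List.mem_singleton] at hr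
  rwa [hr]

/-! ### the field with two elements -/

theorem inM_two (hK : ∀ x : K, x = 0 ∨ x = 1) {M : Subgroup (GL D.Idx K)} {r : ℕ} (h : xg D K r 1 ∈ M) : InM M r := by
  intro t
  rcases hK t with rfl | rfl
  · rw [xg_zero G]; exact M.one_mem
  · exact h

omit G in
theorem two_eq_zero (hK : ∀ x : K, x = 0 ∨ x = 1) : (2 : K) = 0 := by
  rcases hK (1 + 1) with h | h
  · rw [one_add_one_eq_two] at h; exact h
  · exact absurd h (by simp)

/-- `q = 2`, one orbit -/
theorem gen_one_two (hK : ∀ x : K, x = 0 ∨ x = 1) {w : List ℕ} {α : ℕ} (hw : Valid D w)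
    {L : List (ℕ × ℕ × ℕ)} (hL : chk D (Rw D w) 1 L [α] = true) (ht : tgt D ([α] ++ L.map Prod.fst) = true) :
    ∃ a b : ↥(D.group K), Subgroup.closure ({a, b} : Set ↥(D.group K)) = ⊤ := by
  refine two_gen_of _ (nwd_mem_group G (w := w)) (ChevAuto.xg_mem G α 1) fun M hAM hBM => ?_
  refine group_le_of G (chk_sound G (Rw_sound G hw hAM) (c := 1) (by simp) L [α] hL ?_) ht
  intro r hr
  rw [List.mem_singleton] at hr
  rw [hr]
  exact inM_two G hK hBM

theorem diag_two (hK : ∀ x : K, x = 0 ∨ x = 1) {h : GL D.Idx K} (hh : h ∈ D.diagonalSubgroup K) : h = 1 := by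
  have h1 : D.diagonalSubgroup K ≤ ⊥ := by
    rw [diagonalSubgroup_eq G, Subgroup.closure_le]
    rintro g ⟨r, hr, t, ht, rfl⟩
    rcases hK t with rfl | rfl
    · exact absurd rfl ht
    · rw [SetLike.mem_coe, Subgroup.mem_bot, hg_one G hr]
  exact Subgroup.mem_bot.mp (h1 hh)

/-- a monomial element of order 3 fixing a root -/
theorem order3 (hK : ∀ x : K, x = 0 ∨ x = 1) {u : List ℕ} (hu : Valid D u) {γ : ℕ} (hγ : γ < D.nroots)
    (huγ : wr D u γ = γ) (h3 : ∀ s < D.nroots, wr D (u ++ (u ++ u)) s = s) {M : Subgroup (GL D.Idx K)}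
    (hM : xg D K γ 1 * nwd D K u ∈ M) : xg D K γ 1 ∈ M ∧ nwd D K u ∈ M := by
  have h2 : (2 : K) = 0 := two_eq_zero hK
  have hn3 : nwd D K u * (nwd D K u * nwd D K u) = 1 := by
    have h4 := mem_H_of_pos G K _ (u ++ (u ++ u)) rfl (hu.append (hu.append hu)) (by
      intro i hi
      rw [h3 _ (G.simple_lt i hi)]
      exact simple_isPos G hi)
    rw [nwd_append, nwd_append] at h4
    exact diag_two G hK h4
  obtain ⟨ε, hε, h7, -⟩ := nwd_conj G (F := K) hu hγ
  have hε1 : ε = 1 := by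
    rcases hε with h | h
    · exact h
    · rw [h]; linear_combination (-1 : K) * h2
  rw [huγ] at h7
  have hc : Commute (xg D K γ 1) (nwd D K u) := by
    have := h7 1
    rw [hε1, one_mul] at this
    exact (mul_inv_eq_iff_eq_mul.mp this).symm
  have hx2 : xg D K γ 1 * xg D K γ 1 = 1 := by
    rw [xg_add G, one_add_one_eq_two, h2, xg_zero G]
  have e1 : (xg D K γ 1 * nwd D K u) ^ 3 = xg D K γ 1 := by
    rw [hc.mul_pow, pow_succ, pow_two, hx2, one_mul, pow_succ, pow_two, mul_assoc, hn3, mul_one]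
  have hx : xg D K γ 1 ∈ M := by
    rw [← e1]; exact M.pow_mem hM 3
  refine ⟨hx, ?_⟩
  have := M.mul_mem (M.inv_mem hx) hM
  rwa [inv_mul_cancel_left] at this

/-- `q = 2`, two words of order 3 -/
theorem gen_three_two (hK : ∀ x : K, x = 0 ∨ x = 1) {u v : List ℕ} {γ α : ℕ} (hu : Valid D u) (hv : Valid D v)
    (hγ : γ < D.nroots) (hα : α < D.nroots) (huγ : wr D u γ = γ) (hvα : wr D v α = α)
    (hu3 : ∀ s < D.nroots, wr D (u ++ (u ++ u)) s = s) (hv3 : ∀ s < D.nroots, wr D (v ++ (v ++ v)) s = s)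
    {L : List (ℕ × ℕ × ℕ)} (hL : chk D (fun a k => Rw D u a k || Rw D v a k) 1 L [γ, α] = true)
    (ht : tgt D ([γ, α] ++ L.map Prod.fst) = true) :
    ∃ a b : ↥(D.group K), Subgroup.closure ({a, b} : Set ↥(D.group K)) = ⊤ := by
  refine two_gen_of _ (Subgroup.mul_mem _ (ChevAuto.xg_mem G γ 1) (nwd_mem_group G (w := u)))
    (Subgroup.mul_mem _ (ChevAuto.xg_mem G α 1) (nwd_mem_group G (w := v))) fun M hAM hBM => ?_
  obtain ⟨h1, h2⟩ := order3 G hK hu hγ huγ hu3 hAM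
  obtain ⟨h3, h4⟩ := order3 G hK hv hα hvα hv3 hBM
  refine group_le_of G (chk_sound G ?_ (c := 1) (by simp) L _ hL ?_) ht
  · intro a k ha h
    rw [Bool.or_eq_true] at h
    rcases h with h | h
    · exact Rw_sound G hu h2 a k ha h
    · exact Rw_sound G hv h4 a k ha h
  · intro r hr
    simp only [List.mem_cons, List.not_mem_nil, or_false] at hr
    rcases hr with rfl | rfl
    · exact inM_two G hK h1
    · exact inM_two G hK h3

/-- the commutator relation in characteristic 2, one term -/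
theorem conj_two (hK : ∀ x : K, x = 0 ∨ x = 1) {b s k : ℕ} {m : ℤ} (hb : b < D.nroots) (hs : s < D.nroots)
    (hbs : s ≠ b) (hneg : s ≠ D.neg b) (h : D.commTerms b s = [(k, m, 1, 1)]) (hm : m = 1 ∨ m = -1) :
    xg D K b 1 * xg D K s 1 * (xg D K b 1)⁻¹ = xg D K s 1 * xg D K k 1 := by
  have h2 : (2 : K) = 0 := two_eq_zero hK
  have h3 := xg_comm G hb hs hbs hneg (1 : K) (1 : K)
  have hm1 : ((m : ℤ) : K) = 1 := by
    rcases hm with rfl | rfl
    · simp
    · push_cast; linear_combination (-1 : K) * h2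
  have h4 : wg D K (D.commWord K b s 1 1) = xg D K k 1 := by
    unfold wg ChevalleyDatum.commWord
    rw [h]
    simp only [List.map_cons, List.map_nil, List.prod_cons, List.prod_nil, mul_one, pow_one, hm1, one_mul]
    congr 1
    linear_combination (-1 : K) * h2
  rw [h4] at h3
  have hx2 : (xg D K b 1)⁻¹ = xg D K b 1 := by
    rw [inv_eq_iff_mul_eq_one, xg_add G, one_add_one_eq_two, h2, xg_zero G]
  have h5 : xg D K b 1 * (xg D K s 1 * xg D K b 1) = xg D K s 1 * xg D K k 1 := by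
    rw [h3, ← mul_assoc, ← mul_assoc, xg_add G, one_add_one_eq_two, h2, xg_zero G, one_mul]
  rw [hx2, mul_assoc, h5]

theorem conj_nil {b s : ℕ} (hb : b < D.nroots) (hs : s < D.nroots)
    (hbs : s ≠ b) (hneg : s ≠ D.neg b) (h : D.commTerms b s = []) (t u : K) :
    xg D K b t * xg D K s u * (xg D K b t)⁻¹ = xg D K s u := by
  have h3 := xg_comm G hb hs hbs hneg t u
  have h4 : wg D K (D.commWord K b s t u) = 1 := by
    unfold wg ChevalleyDatum.commWord
    rw [h]; rfl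
  rw [h4, mul_one] at h3
  rw [← h3, mul_inv_cancel_right]

end

/-- the step `s ↦ s + β` -/
def Ry (D : ChevalleyDatum) (b s k : ℕ) : Bool :=
  decide (s < D.nroots) && decide (k < D.nroots) && decide (s ≠ b) && decide (s ≠ D.neg b) && decide (k ≠ b) &&
  decide (k ≠ D.neg b) && decide (k ≠ s) && decide (k ≠ D.neg s) && decide (s ≠ D.neg (D.neg b)) &&
  decide (k ≠ D.neg (D.neg b)) &&
  (match D.commTerms b s with
    | [(k', m, 1, 1)] => k' == k && (m == 1 || m == -1)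
    | _ => false) &&
  (match D.commTerms (D.neg b) k with
    | [(k', m, 1, 1)] => k' == s && (m == 1 || m == -1)
    | _ => false) &&
  decide (D.commTerms (D.neg b) s = []) && decide (D.commTerms s k = [])

theorem Ry_sound (G : Good D) (hK : ∀ x : K, x = 0 ∨ x = 1) {b : ℕ} (hb : b < D.nroots) {M : Subgroup (GL D.Idx K)}
    (hy : xg D K (D.neg b) 1 * xg D K b 1 ∈ M) :
    ∀ s k, s < D.nroots → Ry D b s k = true → InM M s → InM M k := by
  intro s k hs h hM
  unfold Ry at h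
  simp only [Bool.and_eq_true, decide_eq_true_eq] at h
  obtain ⟨⟨⟨⟨⟨⟨⟨⟨⟨⟨⟨⟨⟨-, hk⟩, h1⟩, h2⟩, h3⟩, h4⟩, h5⟩, h6⟩, h6a⟩, h6b⟩, h7⟩, h8⟩, h9⟩, h10⟩ := h
  have hnb : D.neg b < D.nroots := ChevU.neg_lt G hb
  split at h7
  swap; · simp at h7
  rename_i k' m heq
  simp only [Bool.and_eq_true, Bool.or_eq_true, beq_iff_eq] at h7
  obtain ⟨rfl, hm⟩ := h7
  split at h8
  swap; · simp at h8
  rename_i s' m' heq'
  simp only [Bool.and_eq_true, Bool.or_eq_true, beq_iff_eq] at h8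
  obtain ⟨rfl, hm'⟩ := h8
  have e1 := conj_two G hK hb hs h1 h2 heq hm
  have e2 := conj_two G hK hnb hk h4 h6b heq' hm'
  have e3 := conj_nil G hnb hs h2 h6a h9 (1 : K) 1
  have e4 := conj_nil G hs hk h5 h6 h10 (1 : K) 1
  have h22 : (2 : K) = 0 := two_eq_zero hK
  refine inM_two G hK ?_
  have hx2 : xg D K s' 1 * xg D K s' 1 = 1 := by
    rw [xg_add G, one_add_one_eq_two, h22, xg_zero G]
  have e5 : (xg D K (D.neg b) 1 * xg D K b 1) * xg D K s' 1 * (xg D K (D.neg b) 1 * xg D K b 1)⁻¹ = xg D K k' 1 := by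
    have : (xg D K (D.neg b) 1 * xg D K b 1) * xg D K s' 1 * (xg D K (D.neg b) 1 * xg D K b 1)⁻¹
        = xg D K (D.neg b) 1 * (xg D K b 1 * xg D K s' 1 * (xg D K b 1)⁻¹) * (xg D K (D.neg b) 1)⁻¹ := by group
    rw [this, e1]
    have h11 : xg D K (D.neg b) 1 * (xg D K s' 1 * xg D K k' 1) * (xg D K (D.neg b) 1)⁻¹
        = (xg D K (D.neg b) 1 * xg D K s' 1 * (xg D K (D.neg b) 1)⁻¹) *
          (xg D K (D.neg b) 1 * xg D K k' 1 * (xg D K (D.neg b) 1)⁻¹) := by group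
    rw [h11, e2, e3]
    have h12 : xg D K s' 1 * xg D K k' 1 = xg D K k' 1 * xg D K s' 1 := mul_inv_eq_iff_eq_mul.mp e4
    rw [← mul_assoc, h12, mul_assoc, hx2, mul_one]
  rw [← e5]
  exact M.mul_mem (M.mul_mem hy (hM 1)) (M.inv_mem hy)

end Cfsg.Agent.Lib.ChTwoGen

namespace Cfsg.Agent.Lib.ChTwoGen
open Cfsg.Lie Cfsg.Agent.Lib.ChevX Cfsg.Agent.Lib.ChevGood Cfsg.Agent.Lib.ChevRel Cfsg.Agent.Lib.ChevN
open Cfsg.Agent.Lib.ChevH
open Cfsg.Agent.Lib.ChevShort (InM inM_comm)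
open scoped MatrixGroups Matrix

variable {D : ChevalleyDatum} {K : Type*} [Field K]

theorem y_cube (G : Good D) (hK : ∀ x : K, x = 0 ∨ x = 1) {i : ℕ} (hi : i < D.rank) :
    (xg D K (D.neg (D.simple i)) 1 * xg D K (D.simple i) 1) ^ 3 = 1 := by
  have h2 : (2 : K) = 0 := two_eq_zero hK
  have hneg : (-1 : K) = 1 := by linear_combination (-1 : K) * h2
  have hsi := G.simple_lt i hi
  have h0 : ng D K (D.simple i) 1 = xg D K (D.simple i) 1 * xg D K (D.neg (D.simple i)) 1 * xg D K (D.simple i) 1 := by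
    unfold ng
    rw [inv_one, hneg]
  have h1 := ng_simple_one_conj (F := K) G hi hsi 1
  have h1' := ng_simple_one_conj (F := K) G hi (ChevU.neg_lt G hsi) 1
  rw [reflect_simple hi, G.η_simple i hi] at h1
  rw [G.w_neg i hi _ hsi, reflect_simple hi, G.η_neg i hi _ hsi, G.η_simple i hi, ChevRel.neg_neg' G hsi] at h1'
  have e1 : ((-1 : ℤ) : K) * 1 = 1 := by push_cast; rw [mul_one, hneg]
  rw [e1] at h1 h1'
  -- n = x' x x'
  have h3 : ng D K (D.simple i) 1 = xg D K (D.neg (D.simple i)) 1 * xg D K (D.simple i) 1 * xg D K (D.neg (D.simple i)) 1 := by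
    have : ng D K (D.simple i) 1 = ng D K (D.simple i) 1 * ng D K (D.simple i) 1 * (ng D K (D.simple i) 1)⁻¹ := by group
    conv_lhs => rw [this]
    conv_lhs => enter [1, 2]; rw [h0]
    have h4 : ng D K (D.simple i) 1 * (xg D K (D.simple i) 1 * xg D K (D.neg (D.simple i)) 1 * xg D K (D.simple i) 1) *
        (ng D K (D.simple i) 1)⁻¹ = (ng D K (D.simple i) 1 * xg D K (D.simple i) 1 * (ng D K (D.simple i) 1)⁻¹) *
        (ng D K (D.simple i) 1 * xg D K (D.neg (D.simple i)) 1 * (ng D K (D.simple i) 1)⁻¹) *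
        (ng D K (D.simple i) 1 * xg D K (D.simple i) 1 * (ng D K (D.simple i) 1)⁻¹) := by group
    rw [h4, h1, h1']
  have h5 : ng D K (D.simple i) 1 * ng D K (D.simple i) 1 = 1 := diag_two G hK (ng_sq_mem G hsi)
  have h6 : (xg D K (D.neg (D.simple i)) 1 * xg D K (D.simple i) 1) ^ 3
      = (xg D K (D.neg (D.simple i)) 1 * xg D K (D.simple i) 1 * xg D K (D.neg (D.simple i)) 1) *
        (xg D K (D.simple i) 1 * xg D K (D.neg (D.simple i)) 1 * xg D K (D.simple i) 1) := by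
    rw [pow_succ, pow_two]; simp only [mul_assoc]
  rw [h6, ← h3, ← h0, h5]

/-- `q = 2`, `A = n_w`, `B = x_α(1) y` -/
theorem gen_y_two (G : Good D) (hK : ∀ x : K, x = 0 ∨ x = 1) {w : List ℕ} (hw : Valid D w) {i α : ℕ} (hi : i < D.rank)
    (hα : α < D.nroots) (h1 : α ≠ D.simple i) (h2 : α ≠ D.neg (D.simple i)) (h3 : D.commTerms (D.simple i) α = [])
    (h4 : α ≠ D.neg (D.neg (D.simple i))) (h5 : D.commTerms (D.neg (D.simple i)) α = [])
    {L : List (ℕ × ℕ × ℕ)} (hL : chk D (fun a k => Rw D w a k || Ry D (D.simple i) a k) 1 L [α] = true)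
    (ht : tgt D ([α] ++ L.map Prod.fst) = true) :
    ∃ a b : ↥(D.group K), Subgroup.closure ({a, b} : Set ↥(D.group K)) = ⊤ := by
  have hsi := G.simple_lt i hi
  have hnsi : D.neg (D.simple i) < D.nroots := ChevU.neg_lt G hsi
  refine two_gen_of _ (nwd_mem_group G (w := w)) (Subgroup.mul_mem _ (ChevAuto.xg_mem G α 1)
    (Subgroup.mul_mem _ (ChevAuto.xg_mem G (D.neg (D.simple i)) 1) (ChevAuto.xg_mem G (D.simple i) 1)))
    fun M hAM hBM => ?_
  have hc1 : Commute (xg D K (D.simple i) 1) (xg D K α 1) := mul_inv_eq_iff_eq_mul.mp (conj_nil G hsi hα h1 h2 h3 1 1)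
  have hc2 : Commute (xg D K (D.neg (D.simple i)) 1) (xg D K α 1) :=
    mul_inv_eq_iff_eq_mul.mp (conj_nil G hnsi hα h2 h4 h5 1 1)
  have hc : Commute (xg D K α 1) (xg D K (D.neg (D.simple i)) 1 * xg D K (D.simple i) 1) :=
    Commute.mul_right hc2.symm hc1.symm
  have h22 : (2 : K) = 0 := two_eq_zero hK
  have e1 : (xg D K α 1 * (xg D K (D.neg (D.simple i)) 1 * xg D K (D.simple i) 1)) ^ 3 = xg D K α 1 := by
    rw [hc.mul_pow, y_cube G hK hi, mul_one, xg_pow G]
    congr 1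
    push_cast
    linear_combination h22
  have hx : xg D K α 1 ∈ M := by rw [← e1]; exact M.pow_mem hBM 3
  have hy : xg D K (D.neg (D.simple i)) 1 * xg D K (D.simple i) 1 ∈ M := by
    have := M.mul_mem (M.inv_mem hx) hBM
    rwa [inv_mul_cancel_left] at this
  refine group_le_of G (chk_sound G ?_ (c := 1) (by simp) L _ hL ?_) ht
  · intro a k ha h
    rw [Bool.or_eq_true] at h
    rcases h with h | h
    · exact Rw_sound G hw hAM a k ha h
    · exact Ry_sound G hK hsi hy a k ha h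
  · intro r hr
    rw [List.mem_singleton] at hr
    rw [hr]
    exact inM_two G hK hx

theorem pow_surj [Finite K] {p : ℕ} (hp : p.Prime) (h : (p : K) = 0) (t : K) : ∃ u : K, u ^ p = t := by
  have := Fact.mk hp
  have hch : CharP K p := by
    have h1 := (CharP.exists K)
    obtain ⟨q, hq⟩ := h1
    have h2 : q ∣ p := (CharP.cast_eq_zero_iff K q p).mp h
    rcases (Nat.dvd_prime hp).mp h2 with rfl | rfl
    · have h3 := (CharP.cast_eq_zero_iff K 1 1).mpr (dvd_refl 1)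
      exact absurd h3 (by rw [Nat.cast_one]; exact one_ne_zero)
    · exact hq
  have hinj : Function.Injective (frobenius K p) := frobenius_inj K p
  obtain ⟨u, hu⟩ := (Finite.injective_iff_surjective.mp hinj) t
  exact ⟨u, by rw [← hu, frobenius_def]⟩

end Cfsg.Agent.Lib.ChTwoGen
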