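import Cfsg.Agent.Lib.ChTwoGenA
import Cfsg.Agent.Lib.TwD4
set_option autoImplicit false

/-!
Two-generation of twisted groups over finite fields: the basic configuration
`A = y h`, `B = x(1) n_w` (helper19).
-/

namespace Cfsg.Agent.Lib.ChTwoGenTw
open Cfsg.Lie Cfsg.Agent.Lib.ChevX Cfsg.Agent.Lib.ChevGood Cfsg.Agent.Lib.ChevRel Cfsg.Agent.Lib.TwFix Cfsg.Agent.Lib.TwTab
open Cfsg.Agent.Lib.ChevBruhat Cfsg.Agent.Lib.ChevNPerm
open Cfsg.Agent.Lib.ChevN (wr nwd Valid nwd_conj)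
open Cfsg.Agent.Lib.ChTwoGen (comm_trick two_gen_of)
open scoped MatrixGroups Matrix

theorem trick {Γ : Type*} [Group Γ] {K : Type*} [Field K] (x : K → Γ) (hadd : ∀ s t, x s * x t = x (s + t))
    {h n y : Γ} {l m : K} (hl : ∀ t : K, t ≠ 0 → ∃ k : ℕ, l ^ k = t) (hl1 : l ≠ 1) (hm : m ≠ 1)
    (hc : h * (n * h * n⁻¹) = (n * h * n⁻¹) * h) (h1 : ∀ t, h * x t * h⁻¹ = x (l * t))
    (h2 : ∀ t, (n * h * n⁻¹) * x t * (n * h * n⁻¹)⁻¹ = x (m * t)) (hy : Commute y h) {P : ℕ} (hyP : y ^ P = 1)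
    (hhP : h ^ P = h) {M : Subgroup Γ} (hA : y * h ∈ M) (hB : x 1 * n ∈ M) :
    y ∈ M ∧ h ∈ M ∧ n ∈ M ∧ ∀ t, x t ∈ M := by
  have hh : h ∈ M := by
    have h5 := M.pow_mem hA P
    rwa [hy.mul_pow, hyP, hhP, one_mul] at h5
  have hyM : y ∈ M := by
    have := M.mul_mem hA (M.inv_mem hh)
    rwa [mul_inv_cancel_right] at this
  have hcs := comm_trick x hadd hc h1 h2
  have hBm : x 1 * (n * h * n⁻¹) * (x 1)⁻¹ ∈ M := by
    have h12 : x 1 * (n * h * n⁻¹) * (x 1)⁻¹ = (x 1 * n) * h * (x 1 * n)⁻¹ := by group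
    rw [h12]
    exact M.mul_mem (M.mul_mem hB hh) (M.inv_mem hB)
  have hc0 : (l - 1) * (1 - m) ≠ 0 := mul_ne_zero (sub_ne_zero.mpr hl1) (sub_ne_zero.mpr hm.symm)
  have hxc : x ((l - 1) * (1 - m)) ∈ M := by
    rw [← hcs]
    exact M.mul_mem (M.mul_mem (M.mul_mem hh hBm) (M.inv_mem hh)) (M.inv_mem hBm)
  have hpow : ∀ (k : ℕ) (t : K), h ^ k * x t * (h ^ k)⁻¹ = x (l ^ k * t) := by
    intro k
    induction k with
    | zero => intro t; simp
    | succ k ih =>
      intro t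
      have : h ^ (k + 1) * x t * (h ^ (k + 1))⁻¹ = h ^ k * (h * x t * h⁻¹) * (h ^ k)⁻¹ := by
        rw [pow_succ]; group
      rw [this, h1, ih, pow_succ, mul_assoc]
  have hx0 : x 0 = 1 := by
    have := hadd 0 0
    rw [add_zero] at this
    exact mul_eq_left.mp this
  have hxt : ∀ t, x t ∈ M := by
    intro t
    rcases eq_or_ne t 0 with rfl | ht
    · rw [hx0]; exact M.one_mem
    obtain ⟨k, hk⟩ := hl (t * ((l - 1) * (1 - m))⁻¹) (mul_ne_zero ht (inv_ne_zero hc0))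
    have := hpow k ((l - 1) * (1 - m))
    rw [hk, inv_mul_cancel_right₀ hc0] at this
    rw [← this]
    exact M.mul_mem (M.mul_mem (M.pow_mem hh k) hxc) (M.inv_mem (M.pow_mem hh k))
  refine ⟨hyM, hh, ?_, hxt⟩
  have := M.mul_mem (M.inv_mem (hxt 1)) hB
  rwa [inv_mul_cancel_left] at this

/-- a generator to a coprime power is a generator -/
theorem gen_zpow {K : Type*} [Field K] [Finite K] {z : Kˣ} (hz : ∀ u : Kˣ, u ∈ Subgroup.zpowers z) (e : ℤ)
    (he : e.gcd (Nat.card Kˣ) = 1) (t : K) (ht : t ≠ 0) : ∃ k : ℕ, ((z ^ e : Kˣ) : K) ^ k = t := by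
  have ho : orderOf z = Nat.card Kˣ := orderOf_eq_card_of_forall_mem_zpowers hz
  have h1 : z ∈ Subgroup.zpowers (z ^ e) := by
    rw [mem_zpowers_zpow_iff, ho]
    exact he
  have h2 : Units.mk0 t ht ∈ Subgroup.zpowers (z ^ e) :=
    (Subgroup.zpowers_le.mpr h1) (hz (Units.mk0 t ht))
  obtain ⟨k, hk⟩ := (mem_powers_iff_mem_zpowers).mpr h2
  refine ⟨k, ?_⟩
  have h6 := congrArg Units.val hk
  simpa using h6

variable {D : ChevalleyDatum} {F : Type*} [Field F]

/-- `σ` maps `X_r` to `X_{r'}` by the `q`-th power -/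
def SX (T : TwSys D F) (q : ℕ) (r r' : ℕ) : Prop := ∀ t : F, T.s (xg D F r t) = xg D F r' (t ^ q)

/-- conjugation of block elements by fixed elements -/
theorem conj_BX (T : TwSys D F) {q : ℕ} (hsurj : ∀ t : F, ∃ u, u ^ q = t) {n : GL D.Idx F} (hn : n ∈ T.fix) :
    ∀ (L : List (ℕ × ℕ)) (c : F), L.IsChain (fun a b => SX T q a.1 b.1 ∧ SX T q a.2 b.2) →
      (∀ a ∈ L.head?, ∀ t : F, n * xg D F a.1 t * n⁻¹ = xg D F a.2 (c * t)) →
      ∀ t, n * BX D F q (L.map Prod.fst) t * n⁻¹ = BX D F q (L.map Prod.snd) (c * t) := by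
  intro L
  induction L with
  | nil => intro c _ _ t; simp [BX]
  | cons a L ih =>
    intro c hch hh t
    have ha := hh a (by simp)
    have h1 : n * BX D F q ((a :: L).map Prod.fst) t * n⁻¹ =
        (n * xg D F a.1 t * n⁻¹) * (n * BX D F q (L.map Prod.fst) (t ^ q) * n⁻¹) := by
      show n * (xg D F a.1 t * BX D F q (L.map Prod.fst) (t ^ q)) * n⁻¹ = _
      group
    rw [h1, ha, ih (c ^ q) hch.tail ?_]
    · rw [← mul_pow]; rfl
    · intro b hb u
      have hab : SX T q a.1 b.1 ∧ SX T q a.2 b.2 := by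
        cases L with
        | nil => simp at hb
        | cons b' L =>
          simp only [List.head?_cons, Option.mem_def, Option.some.injEq] at hb
          subst hb
          exact (List.isChain_cons_cons.mp hch).1
      obtain ⟨v, rfl⟩ := hsurj u
      have h2 := congrArg T.s (ha v)
      rw [T.s_mul (mul_mem hn.1 (xg_mem_group T.G _ _)) (inv_mem hn.1), T.s_mul hn.1 (xg_mem_group T.G _ _),
        T.s_inv hn.1, hn.2, hab.1, hab.2, mul_pow] at h2
      exact h2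

theorem BX_add (T : TwSys D F) {q : ℕ} (hadd : ∀ t u : F, (t + u) ^ q = t ^ q + u ^ q) (G : Good D) {n : ℕ}
    (hn : n = D.nroots) {L : List ℕ} (hL : CList D n L = true) (t u : F) :
    BX D F q L t * BX D F q L u = BX D F q L (t + u) := by
  induction L generalizing t u with
  | nil => simp [BX]
  | cons r L ih =>
    simp only [CList, Bool.and_eq_true, Nat.blt_eq] at hL
    obtain ⟨⟨h1, h2⟩, h3⟩ := hL
    have hc := (BX_commute (F := F) (q := q) G hn (by rw [← hn]; exact h1) h3 h2 u (t ^ q)).1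
    show (xg D F r t * BX D F q L (t ^ q)) * (xg D F r u * BX D F q L (u ^ q)) =
      xg D F r (t + u) * BX D F q L ((t + u) ^ q)
    rw [hadd, ← ih h3, ← xg_add G]
    calc (xg D F r t * BX D F q L (t ^ q)) * (xg D F r u * BX D F q L (u ^ q))
        = xg D F r t * (BX D F q L (t ^ q) * xg D F r u) * BX D F q L (u ^ q) := by group
      _ = xg D F r t * (xg D F r u * BX D F q L (t ^ q)) * BX D F q L (u ^ q) := by rw [hc.eq]
      _ = _ := by group

end Cfsg.Agent.Lib.ChTwoGenTw
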