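import Cfsg.Agent.Lib.ChTwoGenC
set_option autoImplicit false

/-!
Two-generation of the groups 3D4(q) (helper19).
-/

namespace Cfsg.Agent.Lib.ChTwoGenTw
open Cfsg.Lie Cfsg.Agent.Lib.ChevX Cfsg.Agent.Lib.ChevGood Cfsg.Agent.Lib.ChevRel Cfsg.Agent.Lib.TwFix Cfsg.Agent.Lib.TwTab
open Cfsg.Agent.Lib.ChevBruhat Cfsg.Agent.Lib.ChevNPerm Cfsg.Agent.Lib.TwField
open Cfsg.Agent.Lib.ChevN (wr nwd Valid nwd_conj nwd_cons nwd_append nwd_nil)
open Cfsg.Agent.Lib.ChTwoGen (comm_trick two_gen_of)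
open scoped MatrixGroups Matrix

section gen
variable {D : ChevalleyDatum} {F : Type*} [Field F]

/-- action of `n h n⁻¹` -/
theorem conj_nh (G : Good D) {w : List ℕ} (hw : Valid D w) {α β : ℕ} (hβ : β < D.nroots) (hwβ : wr D w β = α)
    {h : GL D.Idx F} {m : F} (hh : ∀ t : F, h * xg D F β t * h⁻¹ = xg D F β (m * t)) (t : F) :
    (nwd D F w * h * (nwd D F w)⁻¹) * xg D F α t * (nwd D F w * h * (nwd D F w)⁻¹)⁻¹ = xg D F α (m * t) := by
  obtain ⟨ε, hε, h7, -⟩ := nwd_conj G (F := F) hw hβ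
  rw [hwβ] at h7
  have hε2 : ε * ε = 1 := by rcases hε with h | h <;> rw [h] <;> ring
  have h8 : xg D F α t = nwd D F w * xg D F β (ε * t) * (nwd D F w)⁻¹ := by
    rw [h7, ← mul_assoc, hε2, one_mul]
  have h10 := h7 (m * (ε * t))
  rw [← hh] at h10
  have h11 : ε * (m * (ε * t)) = m * t := by
    calc ε * (m * (ε * t)) = (ε * ε) * (m * t) := by ring
      _ = _ := by rw [hε2, one_mul]
  rw [h11] at h10
  rw [h8, ← h10]
  group

/-- `n_J` as a word -/
theorem BN_one (q : ℕ) (J : List ℕ) : BN D F q (J.map D.simple) 1 = nwd D F J := by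
  induction J with
  | nil => simp [BN]
  | cons i J ih =>
    rw [nwd_cons, ← ih]
    show ng D F (D.simple i) 1 * BN D F q (J.map D.simple) (1 ^ q) = _
    rw [one_pow]

theorem BH_conj (G : Good D) (q : ℕ) {s : ℕ} (hs : s < D.nroots) : ∀ (L : List ℕ) (u : F), u ≠ 0 → (∀ r ∈ L, r < D.nroots) →
    ∀ t : F, BH D F q L u * xg D F s t * (BH D F q L u)⁻¹ =
      xg D F s ((L.zipIdx.map fun x => (u ^ q ^ x.2) ^ pr D x.1 s).prod * t) := by
  intro L
  induction L with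
  | nil => intro u _ _ t; simp [BH]
  | cons r L ih =>
    intro u hu hL t
    have h1 : BH D F q (r :: L) u * xg D F s t * (BH D F q (r :: L) u)⁻¹ =
        hg D F r u * (BH D F q L (u ^ q) * xg D F s t * (BH D F q L (u ^ q))⁻¹) * (hg D F r u)⁻¹ := by
      show hg D F r u * BH D F q L (u ^ q) * xg D F s t * (hg D F r u * BH D F q L (u ^ q))⁻¹ = _
      group
    rw [h1, ih _ (pow_ne_zero q hu) (fun r hr => hL r (by simp [hr]))]
    have h2 := hg_conj G (hL r (by simp)) hs u hu ((L.zipIdx.map fun x => ((u ^ q) ^ q ^ x.2) ^ pr D x.1 s).prod * t)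
    rw [show (∑ j ∈ Finset.range D.rank, co D r j * D.cartan j s) = pr D r s from rfl] at h2
    rw [h2]
    congr 1
    rw [List.zipIdx_cons, List.map_cons, List.prod_cons, List.zipIdx_succ, List.map_map, pow_zero, pow_one, mul_assoc]
    congr 4
    funext x
    obtain ⟨a, i⟩ := x
    simp only [Function.comp]
    rw [← pow_mul, pow_succ']

/-- powers in cyclic groups -/
theorem exists_root {C : Type*} [Group C] [Finite C] {z : C} (hz : ∀ u : C, u ∈ Subgroup.zpowers z) {m k : ℕ}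
    (hm : m ≠ 0) (hc : Nat.card C = m * k) {u : C} (hu : u ^ m = 1) : ∃ v : C, v ^ k = u := by
  obtain ⟨j, rfl⟩ := (mem_powers_iff_mem_zpowers).mpr (hz u)
  have ho : orderOf z = m * k := by rw [orderOf_eq_card_of_forall_mem_zpowers hz, hc]
  simp only at hu ⊢
  rw [← pow_mul] at hu
  have h1 := orderOf_dvd_of_pow_eq_one hu
  rw [ho, mul_comm j m] at h1
  obtain ⟨c, rfl⟩ := Nat.dvd_of_mul_dvd_mul_left (Nat.pos_of_ne_zero hm) h1
  exact ⟨z ^ c, by rw [← pow_mul, mul_comm]⟩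

theorem diag_pow [Fintype F] (G : Good D) {h : GL D.Idx F} (hh : h ∈ D.diagonalSubgroup F) : h ^ Fintype.card F = h := by
  have h1 := Cfsg.Agent.Lib.ChevH.diagonalSubgroup_eq (F := F) G
  have h2 : h ∈ Subgroup.closure _ := h1 ▸ hh
  induction h2 using Subgroup.closure_induction with
  | mem x hx =>
    obtain ⟨r, hr, t, ht, rfl⟩ := hx
    rw [← Cfsg.Agent.Lib.ChTwoGen.hg_pow G hr t ht, FiniteField.pow_card]
  | one => exact one_pow _
  | mul x y hx hy ihx ihy =>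
    have hx' : x ∈ D.diagonalSubgroup F := by rw [h1]; exact hx
    have hy' : y ∈ D.diagonalSubgroup F := by rw [h1]; exact hy
    have hc : Commute x y := Cfsg.Agent.Lib.ChevH.diag_comm G hx' hy'
    rw [hc.mul_pow, ihx hx', ihy hy']
  | inv x hx ih =>
    have hx' : x ∈ D.diagonalSubgroup F := by rw [h1]; exact hx
    rw [inv_pow, ih hx']

theorem xg_pow_card [Fintype F] (G : Good D) (r : ℕ) (t : F) : xg D F r t ^ Fintype.card F = 1 := by
  rw [Cfsg.Agent.Lib.ChTwoGen.xg_pow G, FiniteField.cast_card_eq_zero, zero_mul, xg_zero G]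

end gen

section D4
variable {K : Type*} [Field K] [Fintype K] {q : ℕ} (hq : IsPrimePow q) (hK : Fintype.card K = q ^ 3)
open Cfsg.Agent.Lib.TwD4

theorem CListD4 : CList chevD4 24 [18, 13, 12] = true := by decide +kernel

include hq hK in
theorem qsurj (t : K) : ∃ u : K, u ^ q = t := ⟨(frob hq hK).symm t, by
  rw [← frob_eq hq hK]; exact (frob hq hK).apply_symm_apply t⟩

include hq hK in
theorem qadd (t u : K) : (t + u) ^ q = t ^ q + u ^ q := by
  rw [← frob_eq hq hK, ← frob_eq hq hK, ← frob_eq hq hK, map_add]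

theorem sxD4 : SX (T hq hK) q 18 13 ∧ SX (T hq hK) q 13 12 ∧ SX (T hq hK) q 14 14 ∧ SX (T hq hK) q 5 10 ∧
    SX (T hq hK) q 10 11 ∧ SX (T hq hK) q 9 9 :=
  ⟨fun t => s_simple (sig hq hK) chk1D4 chk2D4 listed (i := 0) (by decide) t,
   fun t => s_simple (sig hq hK) chk1D4 chk2D4 listed (i := 2) (by decide) t,
   fun t => s_simple (sig hq hK) chk1D4 chk2D4 listed (i := 1) (by decide) t,
   fun t => s_simple_neg (sig hq hK) chk1D4 chk2D4 listed (i := 0) (by decide) t,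
   fun t => s_simple_neg (sig hq hK) chk1D4 chk2D4 listed (i := 2) (by decide) t,
   fun t => s_simple_neg (sig hq hK) chk1D4 chk2D4 listed (i := 1) (by decide) t⟩

theorem n_fixD4 : nwd chevD4 K [0, 2, 3, 1] ∈ (T hq hK).fix := by
  have h1 := BN_mem (sig hq hK) chk1D4 chk2D4 chk3D4 (sig_e hq hK) chkJ (j := 0) (by decide) (t := 1) (one_pow _)
  have h2 := BN_mem (sig hq hK) chk1D4 chk2D4 chk3D4 (sig_e hq hK) chkJ (j := 1) (by decide) (t := 1) (one_pow _)
  have h3 := BN_one (D := chevD4) (F := K) q [0, 2, 3]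
  have h4 := BN_one (D := chevD4) (F := K) q [1]
  have e1 : (tabD4.jwN 0).map tabD4.sim = [0, 2, 3].map chevD4.simple := rfl
  have e2 : (tabD4.jwN 1).map tabD4.sim = [1].map chevD4.simple := rfl
  rw [e1, h3] at h1
  rw [e2, h4] at h2
  have h5 := mul_mem h1 h2
  rw [← nwd_append] at h5
  exact Γ0_le (sig hq hK) chk1D4 chk2D4 chk3D4 listed (sig_e hq hK) chkJ h5

theorem gcd_aux (q : ℕ) (hq : 1 ≤ q) : Int.gcd (3 - q - q ^ 2 : ℤ) ((q ^ 3 - 1 : ℕ) : ℤ) = 1 := by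
  rw [← Int.isCoprime_iff_gcd_eq_one, Int.isCoprime_iff_gcd_eq_one]
  by_contra hne
  obtain ⟨r, hr, hrd⟩ := Nat.exists_prime_and_dvd hne
  have h1 : (r : ℤ) ∣ (3 - q - q ^ 2 : ℤ) := (Int.natCast_dvd_natCast.mpr hrd).trans (Int.gcd_dvd_left ..)
  have h2 : (r : ℤ) ∣ ((q ^ 3 - 1 : ℕ) : ℤ) := (Int.natCast_dvd_natCast.mpr hrd).trans (Int.gcd_dvd_right ..)
  have h3 : ((q ^ 3 - 1 : ℕ) : ℤ) = (q - 1) * (q ^ 2 + q + 1) := by
    rw [Nat.cast_sub (Nat.one_le_pow _ _ hq)]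
    push_cast; ring
  rw [h3] at h2
  have hrp : Prime (r : ℤ) := Nat.prime_iff_prime_int.mp hr
  rcases hrp.dvd_or_dvd h2 with h | h
  · have h4 : (r : ℤ) ∣ 1 := by
      have h5 := dvd_add h1 (h.mul_left ((q : ℤ) + 2))
      have h6 : (3 - q - q ^ 2 : ℤ) + (q + 2) * (q - 1) = 1 := by ring
      rwa [h6] at h5
    exact hrp.not_isUnit (isUnit_of_dvd_one h4)
  · have h4 : (r : ℤ) ∣ 4 := by
      have h5 := dvd_add h1 h
      have h6 : (3 - q - q ^ 2 : ℤ) + (q ^ 2 + q + 1) = 4 := by ring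
      rwa [h6] at h5
    have h5 : (r : ℤ) ∣ 2 := by
      have : (4 : ℤ) = 2 * 2 := by norm_num
      rw [this] at h4
      exact (hrp.dvd_or_dvd h4).elim id id
    have h6 : r = 2 := by
      have : r ∣ 2 := by exact_mod_cast h5
      exact (Nat.prime_dvd_prime_iff_eq hr Nat.prime_two).mp this
    rw [h6] at h
    have h7 : (2 : ℤ) ∣ q ^ 2 + q := by
      have := (Int.even_mul_succ_self q).two_dvd
      have e : (q : ℤ) * (q + 1) = q ^ 2 + q := by ring
      rwa [e] at this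
    have h8 : (2 : ℤ) ∣ 1 := (dvd_add_right h7).mp (by exact_mod_cast h)
    norm_num at h8

include hq hK in
theorem exists_cfgD4 : ∃ h ∈ chevD4.diagonalSubgroup K ⊓ Γ0 chevD4 K tabD4 q, ∃ l m : K,
    (∀ t : K, t ≠ 0 → ∃ k : ℕ, l ^ k = t) ∧ l ≠ 1 ∧ m ≠ 1 ∧ (∀ t : K, h * xg chevD4 K 18 t * h⁻¹ = xg chevD4 K 18 (l * t)) ∧
    (∀ t : K, h * xg chevD4 K 4 t * h⁻¹ = xg chevD4 K 4 (m * t)) ∧
    (∀ t : K, h * xg chevD4 K 14 t * h⁻¹ = xg chevD4 K 14 t) := by
  obtain ⟨z, hz⟩ := IsCyclic.exists_generator (α := Kˣ)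
  have hq1 : 1 ≤ q := hq.pos
  have hcard : Nat.card Kˣ = q ^ 3 - 1 := by
    rw [Nat.card_units, Nat.card_eq_fintype_card, hK]
  have hz3 : ∀ x : Kˣ, x ^ q ^ 3 = x := fun x => by
    apply Units.ext
    push_cast
    exact hT hK x
  set N : Kˣ := z ^ (1 + q + q ^ 2) with hN
  have hNq : N ^ q = N := by
    rw [hN, ← pow_mul]
    have : (1 + q + q ^ 2) * q = q + q ^ 2 + q ^ 3 := by ring
    rw [this, pow_add, hz3, pow_add, pow_add, pow_add, pow_one]
    exact mul_comm _ _ |>.trans (by rw [mul_assoc])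
  have hl := gen_zpow hz (3 - q - q ^ 2 : ℤ) (by rw [hcard]; exact gcd_aux q hq1)
  have hl1 : ((z ^ (3 - q - q ^ 2 : ℤ) : Kˣ) : K) ≠ 1 := by
    intro h
    have h2 : 2 ≤ q := two_le_of_primePow hq
    have h3 : 1 < Nat.card Kˣ := by
      rw [hcard]
      have : 2 ^ 3 ≤ q ^ 3 := Nat.pow_le_pow_left h2 3
      omega
    have hnt : Nontrivial Kˣ := Finite.one_lt_card_iff_nontrivial.mp h3
    obtain ⟨u, hu⟩ := exists_ne (1 : Kˣ)
    obtain ⟨k, hk⟩ := hl u u.ne_zero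
    rw [h, one_pow] at hk
    exact hu (Units.ext hk.symm)
  have hth := th_mem hq hK (a := ((z ^ 2 : Kˣ) : K)) (b := (N : K)) (Units.ne_zero _) (Units.ne_zero _)
    (by rw [← Units.val_pow_eq_pow_val, hNq])
  have hok : HOk chevD4 [(0, ((z ^ 2 : Kˣ) : K)), (1, (N : K)), (2, ((z ^ 2 : Kˣ) : K) ^ q), (3, ((z ^ 2 : Kˣ) : K) ^ q ^ 2)] := by
    intro x hx
    simp only [List.mem_cons, List.not_mem_nil, or_false] at hx
    have h4 : chevD4.rank = 4 := rfl
    rcases hx with rfl | rfl | rfl | rfl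
    · exact ⟨by rw [h4]; norm_num, Units.ne_zero (z ^ 2)⟩
    · exact ⟨by rw [h4]; norm_num, Units.ne_zero N⟩
    · exact ⟨by rw [h4]; norm_num, pow_ne_zero _ (Units.ne_zero _)⟩
    · exact ⟨by rw [h4]; norm_num, pow_ne_zero _ (Units.ne_zero _)⟩
  have hchr : ∀ (s : ℕ) (c0 c1 c2 c3 : ℤ), chevD4.cartan 0 s = c0 → chevD4.cartan 1 s = c1 → chevD4.cartan 2 s = c2 →
      chevD4.cartan 3 s = c3 → chr chevD4 [(0, ((z ^ 2 : Kˣ) : K)), (1, (N : K)), (2, ((z ^ 2 : Kˣ) : K) ^ q),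
        (3, ((z ^ 2 : Kˣ) : K) ^ q ^ 2)] s =
        ((z ^ (2 * c0 + (1 + q + q ^ 2) * c1 + 2 * q * c2 + 2 * q ^ 2 * c3) : Kˣ) : K) := by
    intro s c0 c1 c2 c3 h0 h1 h2 h3
    simp only [chr, List.map_cons, List.map_nil, List.prod_cons, List.prod_nil, h0, h1, h2, h3, mul_one]
    have e : (z ^ (2 * c0 + (1 + q + q ^ 2) * c1 + 2 * q * c2 + 2 * q ^ 2 * c3) : Kˣ) =
        (z ^ 2) ^ c0 * (N ^ c1 * (((z ^ 2) ^ q) ^ c2 * ((z ^ 2) ^ q ^ 2) ^ c3)) := by
      rw [hN, zpow_add, zpow_add, zpow_add]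
      simp only [← zpow_natCast, ← zpow_mul]
      push_cast
      simp only [mul_assoc]
    rw [e]
    push_cast
    rfl
  refine ⟨_, hth, _, ((z ^ (3 - q - q ^ 2 : ℤ) : Kˣ) : K)⁻¹, hl, hl1, ?_, ?_, ?_, ?_⟩
  · rw [Ne, inv_eq_one]; exact hl1
  · intro t
    unfold th
    rw [HP_conj TwD4.G hok (by decide), hchr 18 2 (-1) 0 0 (by decide +kernel) (by decide +kernel) (by decide +kernel) (by decide +kernel)]
    congr 4
    ring
  · intro t
    unfold th
    rw [HP_conj TwD4.G hok (by decide), hchr 4 (-1) (-1) 1 1 (by decide +kernel) (by decide +kernel) (by decide +kernel) (by decide +kernel),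
      ← Units.val_inv_eq_inv_val, ← zpow_neg]
    congr 4
    ring
  · intro t
    unfold th
    rw [HP_conj TwD4.G hok (by decide), hchr 14 (-1) 2 (-1) (-1) (by decide +kernel) (by decide +kernel) (by decide +kernel) (by decide +kernel)]
    have e : (2 * -1 + (1 + (q : ℤ) + (q : ℤ) ^ 2) * 2 + 2 * (q : ℤ) * -1 + 2 * (q : ℤ) ^ 2 * -1) = 0 := by ring
    rw [e, zpow_zero, Units.val_one, one_mul]

include hq hK in
theorem genD4 (M : Subgroup (GL chevD4.Idx K)) (hM : ∀ t : K, BX chevD4 K q [18, 13, 12] t ∈ M)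
    (hn : nwd chevD4 K [0, 2, 3, 1] ∈ M) (hy : xg chevD4 K 14 1 ∈ M) : Γ0 chevD4 K tabD4 q ≤ M := by
  have hnf := n_fixD4 hq hK
  obtain ⟨s1, s2, s3, s4, s5, s6⟩ := sxD4 hq hK
  have hsurj := qsurj hq hK
  -- the third power
  have hn3 : nwd chevD4 K ([0, 2, 3, 1] ++ ([0, 2, 3, 1] ++ [0, 2, 3, 1])) ∈ M := by
    rw [nwd_append, nwd_append]; exact M.mul_mem hn (M.mul_mem hn hn)
  have hn3f : nwd chevD4 K ([0, 2, 3, 1] ++ ([0, 2, 3, 1] ++ [0, 2, 3, 1])) ∈ (T hq hK).fix := by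
    rw [nwd_append, nwd_append]; exact mul_mem hnf (mul_mem hnf hnf)
  have hv : Valid chevD4 ([0, 2, 3, 1] ++ ([0, 2, 3, 1] ++ [0, 2, 3, 1])) := by unfold Valid; decide +kernel
  obtain ⟨ε, hε, h7, -⟩ := nwd_conj TwD4.G (F := K) hv (s := 18) (by decide)
  obtain ⟨ε', hε', h7', -⟩ := nwd_conj TwD4.G (F := K) hv (s := 14) (by decide)
  have hε2 : ε * ε = 1 := by rcases hε with h | h <;> rw [h] <;> ring
  have hε2' : ε' * ε' = 1 := by rcases hε' with h | h <;> rw [h] <;> ring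
  rw [show wr chevD4 ([0, 2, 3, 1] ++ ([0, 2, 3, 1] ++ [0, 2, 3, 1])) 18 = 5 by decide +kernel] at h7
  rw [show wr chevD4 ([0, 2, 3, 1] ++ ([0, 2, 3, 1] ++ [0, 2, 3, 1])) 14 = 9 by decide +kernel] at h7'
  have hneg : ∀ t : K, BX chevD4 K q [5, 10, 11] t ∈ M := by
    intro t
    have h8 := conj_BX (T hq hK) hsurj hn3f [(18, 5), (13, 10), (12, 11)] ε (by
      refine List.isChain_cons_cons.mpr ⟨⟨s1, s4⟩, List.isChain_cons_cons.mpr ⟨⟨s2, s5⟩, List.isChain_singleton _⟩⟩)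
      (by
        intro a ha
        simp only [List.head?_cons, Option.mem_def, Option.some.injEq] at ha
        subst ha
        exact h7) (ε * t)
    rw [← mul_assoc, hε2, one_mul] at h8
    have h9 : BX chevD4 K q [5, 10, 11] t = _ := h8.symm
    rw [h9]
    exact M.mul_mem (M.mul_mem hn3 (hM _)) (M.inv_mem hn3)
  -- the torus
  have hnq : ∀ t : K, (-t) ^ q = - t ^ q := q_neg (sig hq hK) chk1D4 chk2D4 (sig_e hq hK) TwD4.G
  have hBN : ∀ t : K, BN chevD4 K q [18, 13, 12] t ∈ M := by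
    intro t
    rw [BN_eq TwD4.G hnq (n := 24) rfl CListD4]
    exact M.mul_mem (M.mul_mem (hM _) (hneg _)) (hM _)
  have hBH : ∀ t : K, BH chevD4 K q [18, 13, 12] t ∈ M := by
    intro t
    rw [BH_eq TwD4.G hnq (one_pow q) (n := 24) rfl CListD4]
    exact M.mul_mem (hBN _) (hBN _)
  have hb : ∀ t : K, t ^ q = t → xg chevD4 K 14 t ∈ M := by
    intro t ht
    rcases eq_or_ne t 0 with rfl | ht0
    · rw [xg_zero TwD4.G]; exact M.one_mem
    obtain ⟨z, hz⟩ := IsCyclic.exists_generator (α := Kˣ)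
    have hq1 : 1 ≤ q := hq.pos
    have h2 : 2 ≤ q := two_le_of_primePow hq
    have hcard : Nat.card Kˣ = (q - 1) * (1 + q + q ^ 2) := by
      rw [Nat.card_units, Nat.card_eq_fintype_card, hK]
      obtain ⟨r, rfl⟩ := Nat.exists_eq_add_of_le' hq1
      simp only [Nat.add_sub_cancel]
      rw [Nat.sub_eq_iff_eq_add (Nat.one_le_pow _ _ (by omega))]
      ring
    obtain ⟨v, hv⟩ := exists_root hz (m := q - 1) (by omega) hcard (u := (Units.mk0 t ht0)⁻¹) (by
      rw [← units_fix hq.pos, inv_pow]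
      congr 1
      apply Units.ext
      push_cast
      exact ht)
    have h10 := BH_conj TwD4.G q (s := 14) (by decide) [18, 13, 12] (v : K) (Units.ne_zero v) (by decide) 1
    have e1 : pr chevD4 18 14 = -1 := by decide +kernel
    have e2 : pr chevD4 13 14 = -1 := by decide +kernel
    have e3 : pr chevD4 12 14 = -1 := by decide +kernel
    have h11 : (([18, 13, 12].zipIdx.map fun x => ((v : K) ^ q ^ x.2) ^ pr chevD4 x.1 14).prod * 1 : K) = t := by
      simp only [List.zipIdx_cons, List.zipIdx_nil, List.map_cons, List.map_nil, List.prod_cons, List.prod_nil, e1, e2, e3,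
        zpow_neg, zpow_one, mul_one, pow_zero, pow_one, zero_add]
      have h12 := congrArg Units.val hv
      push_cast at h12
      rw [Units.val_mk0] at h12
      rw [← inv_inv t, ← h12]
      rw [show (v : K) ^ (1 + q + q ^ 2) = (v : K) * ((v : K) ^ q * (v : K) ^ q ^ (1 + 1)) by
        rw [pow_add, pow_add, pow_one, mul_assoc], mul_inv, mul_inv]
    rw [h11] at h10
    rw [← h10]
    exact M.mul_mem (M.mul_mem (hBH _) hy) (M.inv_mem (hBH _))
  have hbn : ∀ t : K, t ^ q = t → xg chevD4 K 9 t ∈ M := by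
    intro t ht
    have h8 := h7' (ε' * t)
    rw [← mul_assoc, hε2', one_mul] at h8
    rw [← h8]
    refine M.mul_mem (M.mul_mem hn3 (hb _ ?_)) (M.inv_mem hn3)
    rcases hε' with h | h <;> rw [h]
    · rw [one_mul, ht]
    · rw [neg_one_mul, hnq, ht]
  -- conclusion
  apply (Subgroup.closure_le _).mpr
  rintro g ⟨j, hj, t, ht, h⟩
  have hj2 : j < 2 := hj
  interval_cases j
  · rcases h with rfl | rfl
    · exact hM t
    · exact hneg t
  · have ht1 : t ^ q ^ 1 = t := ht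
    rw [pow_one] at ht1
    rcases h with rfl | rfl
    · show xg chevD4 K 14 t * 1 ∈ M
      rw [mul_one]; exact hb t ht1
    · show xg chevD4 K 9 t * 1 ∈ M
      rw [mul_one]; exact hbn t ht1

include hq hK in
theorem mainD4 : ∃ a b : ↥(twistedD4 K q), Subgroup.closure ({a, b} : Set ↥(twistedD4 K q)) = ⊤ := by
  rw [twisted_eq (hT hK)]
  obtain ⟨h, ⟨hhH, hhΓ⟩, l, m, hl, hl1, hm1, c18, c4, c14⟩ := exists_cfgD4 hq hK
  obtain ⟨s1, s2, s3, s4, s5, s6⟩ := sxD4 hq hK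
  have hsurj := qsurj hq hK
  have hnf := n_fixD4 hq hK
  have hv : Valid chevD4 [0, 2, 3, 1] := by unfold Valid; decide +kernel
  have hnN := Cfsg.Agent.Lib.ChevN.nwd_mem_normalizer TwD4.G (F := K) hv
  have hhf := Γ0_le (sig hq hK) chk1D4 chk2D4 chk3D4 listed (sig_e hq hK) chkJ hhΓ
  have hxΓ : ∀ t : K, BX chevD4 K q [18, 13, 12] t ∈ Γ0 chevD4 K tabD4 q := fun t =>
    (BX_mem_Γ0 (D := chevD4) (C := tabD4) (F := K) (q := q) (j := 0) (by decide) (t := t) (hT hK t)).1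
  have hyΓ : xg chevD4 K 14 1 ∈ Γ0 chevD4 K tabD4 q := by
    have := (BX_mem_Γ0 (D := chevD4) (C := tabD4) (F := K) (q := q) (j := 1) (by decide) (t := 1) (one_pow _)).1
    have e : BX chevD4 K q ((tabD4.jwN 1).map tabD4.sim) 1 = xg chevD4 K 14 1 * 1 := rfl
    rwa [e, mul_one] at this
  have hnΓ : nwd chevD4 K [0, 2, 3, 1] ∈ Γ0 chevD4 K tabD4 q := by
    have h1 := BN_mem (sig hq hK) chk1D4 chk2D4 chk3D4 (sig_e hq hK) chkJ (j := 0) (by decide) (t := 1) (one_pow _)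
    have h2 := BN_mem (sig hq hK) chk1D4 chk2D4 chk3D4 (sig_e hq hK) chkJ (j := 1) (by decide) (t := 1) (one_pow _)
    have h3 := BN_one (D := chevD4) (F := K) q [0, 2, 3]
    have h4 := BN_one (D := chevD4) (F := K) q [1]
    have e1 : (tabD4.jwN 0).map tabD4.sim = [0, 2, 3].map chevD4.simple := rfl
    have e2 : (tabD4.jwN 1).map tabD4.sim = [1].map chevD4.simple := rfl
    rw [e1, h3] at h1
    rw [e2, h4] at h2
    have h5 := mul_mem h1 h2
    rwa [← nwd_append] at h5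
  refine two_gen_of _ (A := xg chevD4 K 14 1 * h) (B := BX chevD4 K q [18, 13, 12] 1 * nwd chevD4 K [0, 2, 3, 1])
    (mul_mem hyΓ hhΓ) (mul_mem (hxΓ 1) hnΓ) fun M hA hB => ?_
  have hchain : [(18, 18), (13, 13), (12, 12)].IsChain
      (fun a b : ℕ × ℕ => SX (T hq hK) q a.1 b.1 ∧ SX (T hq hK) q a.2 b.2) :=
    List.isChain_cons_cons.mpr ⟨⟨s1, s1⟩, List.isChain_cons_cons.mpr ⟨⟨s2, s2⟩, List.isChain_singleton _⟩⟩
  have h1 : ∀ t : K, h * BX chevD4 K q [18, 13, 12] t * h⁻¹ = BX chevD4 K q [18, 13, 12] (l * t) := by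
    intro t
    exact conj_BX (T hq hK) hsurj hhf [(18, 18), (13, 13), (12, 12)] l hchain (by
      intro a ha
      simp only [List.head?_cons, Option.mem_def, Option.some.injEq] at ha
      subst ha
      exact c18) t
  have h2 : ∀ t : K, (nwd chevD4 K [0, 2, 3, 1] * h * (nwd chevD4 K [0, 2, 3, 1])⁻¹) * BX chevD4 K q [18, 13, 12] t *
      (nwd chevD4 K [0, 2, 3, 1] * h * (nwd chevD4 K [0, 2, 3, 1])⁻¹)⁻¹ = BX chevD4 K q [18, 13, 12] (m * t) := by
    intro t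
    exact conj_BX (T hq hK) hsurj (mul_mem (mul_mem hnf hhf) (inv_mem hnf)) [(18, 18), (13, 13), (12, 12)] m hchain (by
      intro a ha
      simp only [List.head?_cons, Option.mem_def, Option.some.injEq] at ha
      subst ha
      exact conj_nh TwD4.G hv (α := 18) (β := 4) (by decide) (by decide +kernel) c4) t
  have h3 : h * (nwd chevD4 K [0, 2, 3, 1] * h * (nwd chevD4 K [0, 2, 3, 1])⁻¹) =
      (nwd chevD4 K [0, 2, 3, 1] * h * (nwd chevD4 K [0, 2, 3, 1])⁻¹) * h :=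
    Cfsg.Agent.Lib.ChevH.diag_comm TwD4.G hhH ((Subgroup.mem_normalizer_iff.mp hnN _).mp hhH)
  have hcy : Commute (xg chevD4 K 14 1) h := (mul_inv_eq_iff_eq_mul.mp (c14 1)).symm
  obtain ⟨r1, r2, r3, r4⟩ := trick (fun t => BX chevD4 K q [18, 13, 12] t)
    (fun s t => BX_add (T hq hK) (qadd hq hK) TwD4.G (n := 24) rfl CListD4 s t) hl hl1 hm1 h3 h1 h2 hcy
    (P := Fintype.card K) (xg_pow_card TwD4.G 14 1) (diag_pow TwD4.G hhH) hA hB
  exact genD4 hq hK M r4 r3 r1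

end D4

end Cfsg.Agent.Lib.ChTwoGenTw
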