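import Cfsg.Agent.Lib.ChTwoGenD
import Cfsg.Agent.Lib.TwE6
set_option autoImplicit false

/-!
Two-generation of the groups 2E6(q) (helper19).
-/

namespace Cfsg.Agent.Lib.ChTwoGenTw
open Cfsg.Lie Cfsg.Agent.Lib.ChevX Cfsg.Agent.Lib.ChevGood Cfsg.Agent.Lib.ChevRel Cfsg.Agent.Lib.TwFix Cfsg.Agent.Lib.TwTab
open Cfsg.Agent.Lib.ChevBruhat Cfsg.Agent.Lib.ChevNPerm Cfsg.Agent.Lib.TwField
open Cfsg.Agent.Lib.ChevN (wr nwd Valid nwd_conj nwd_cons nwd_append nwd_nil)
open Cfsg.Agent.Lib.ChTwoGen (comm_trick two_gen_of)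
open scoped MatrixGroups Matrix

section gen
variable {D : ChevalleyDatum} {F : Type*} [Field F]

/-- block elements moved by a word -/
theorem inM_word (T : TwSys D F) {q : ℕ} (hsurj : ∀ t : F, ∃ u, u ^ q = t) {M : Subgroup (GL D.Idx F)} {v : List ℕ}
    (hv : Valid D v) (hvM : nwd D F v ∈ M) (hvf : nwd D F v ∈ T.fix) {a : ℕ × ℕ} (L : List (ℕ × ℕ))
    (ha : a.1 < D.nroots) (hwr : wr D v a.1 = a.2)
    (hch : (a :: L).IsChain (fun a b => SX T q a.1 b.1 ∧ SX T q a.2 b.2))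
    (h : ∀ t, BX D F q ((a :: L).map Prod.fst) t ∈ M) (t : F) : BX D F q ((a :: L).map Prod.snd) t ∈ M := by
  obtain ⟨ε, hε, h7, -⟩ := nwd_conj T.G (F := F) hv ha
  have hε2 : ε * ε = 1 := by rcases hε with h | h <;> rw [h] <;> ring
  rw [hwr] at h7
  have h8 := conj_BX T hsurj hvf (a :: L) ε hch (by
      intro b hb
      simp only [List.head?_cons, Option.mem_def, Option.some.injEq] at hb
      subst hb
      exact h7) (ε * t)
  rw [← mul_assoc, hε2, one_mul] at h8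
  rw [← h8]
  exact M.mul_mem (M.mul_mem hvM (h _)) (M.inv_mem hvM)

/-- root elements with fixed parameters moved by a word -/
theorem inM_word_fix (G : Good D) {q : ℕ} (hneg : ∀ t : F, (-t) ^ q = - t ^ q) {M : Subgroup (GL D.Idx F)} {v : List ℕ}
    (hv : Valid D v) (hvM : nwd D F v ∈ M) {r r' : ℕ}
    (ha : r < D.nroots) (hwr : wr D v r = r')
    (h : ∀ t : F, t ^ q = t → xg D F r t ∈ M) (t : F) (ht : t ^ q = t) : xg D F r' t ∈ M := by
  obtain ⟨ε, hε, h7, -⟩ := nwd_conj G (F := F) hv ha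
  have hε2 : ε * ε = 1 := by rcases hε with h | h <;> rw [h] <;> ring
  rw [hwr] at h7
  have h8 := h7 (ε * t)
  rw [← mul_assoc, hε2, one_mul] at h8
  rw [← h8]
  refine M.mul_mem (M.mul_mem hvM (h _ ?_)) (M.inv_mem hvM)
  rcases hε with h | h <;> rw [h]
  · rw [one_mul, ht]
  · rw [neg_one_mul, hneg, ht]

end gen

section E6
variable {K : Type*} [Field K] [Fintype K] {q : ℕ} (hq : IsPrimePow q) (hK : Fintype.card K = q ^ 2)
open Cfsg.Agent.Lib.TwE6

theorem CListE6a : CList chevE6 72 [56, 36] = true := by decide +kernel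
theorem CListE6b : CList chevE6 72 [42, 37] = true := by decide +kernel
theorem CListE6c : CList chevE6 72 [29, 34] = true := by decide +kernel

include hq hK in
theorem qsurj2 (t : K) : ∃ u : K, u ^ q = t := ⟨(frob hq hK).symm t, by
  rw [← frob_eq hq hK]; exact (frob hq hK).apply_symm_apply t⟩

include hq hK in
theorem qadd2 (t u : K) : (t + u) ^ q = t ^ q + u ^ q := by
  rw [← frob_eq hq hK, ← frob_eq hq hK, ← frob_eq hq hK, map_add]

theorem sxE6 (i : ℕ) (hi : i < 6) : SX (T hq hK) q (chevE6.simple i) (chevE6.simple (tabE6.p i)) ∧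
    SX (T hq hK) q (chevE6.neg (chevE6.simple i)) (chevE6.neg (chevE6.simple (tabE6.p i))) :=
  ⟨fun t => s_simple (sig hq hK) chk1E6 chk2E6 listed (i := i) hi t,
   fun t => s_simple_neg (sig hq hK) chk1E6 chk2E6 listed (i := i) hi t⟩

include hq hK in
theorem nJE6 {j : ℕ} (hj : j < 4) {J : List ℕ} (hJ : (tabE6.jwN j).map tabE6.sim = J.map chevE6.simple) :
    nwd chevE6 K J ∈ Γ0 chevE6 K tabE6 q := by
  have h1 := BN_mem (sig hq hK) chk1E6 chk2E6 chk3E6 (sig_e hq hK) chkJ (j := j) hj (t := 1) (one_pow _)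
  rw [hJ, BN_one] at h1
  exact h1

include hq hK in
theorem n_E6 : nwd chevE6 K [1, 3] ∈ Γ0 chevE6 K tabE6 q ∧ nwd chevE6 K [0, 5] ∈ Γ0 chevE6 K tabE6 q ∧
    nwd chevE6 K [2, 4] ∈ Γ0 chevE6 K tabE6 q := by
  have h1 := nJE6 hq hK (j := 3) (by norm_num) (J := [1]) rfl
  have h2 := nJE6 hq hK (j := 2) (by norm_num) (J := [3]) rfl
  have h3 := mul_mem h1 h2
  rw [← nwd_append] at h3
  exact ⟨h3, nJE6 hq hK (j := 0) (by norm_num) (J := [0, 5]) rfl, nJE6 hq hK (j := 1) (by norm_num) (J := [2, 4]) rfl⟩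

/-- the words -/
def wE : List ℕ := [1, 3] ++ ([0, 5] ++ [2, 4])
def wE6 : List ℕ := wE ++ (wE ++ (wE ++ (wE ++ (wE ++ wE))))
def wE1 : List ℕ := [1, 3] ++ [0, 5]
def wE3 : List ℕ := [2, 4] ++ (wE1 ++ (wE1 ++ wE1))

theorem vE : Valid chevE6 wE := by unfold Valid; decide +kernel
theorem vE6 : Valid chevE6 wE6 := by unfold Valid; decide +kernel
theorem vE3 : Valid chevE6 wE3 := by unfold Valid; decide +kernel
theorem v13 : Valid chevE6 ([1, 3] ++ [1, 3]) := by unfold Valid; decide +kernel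

theorem wr_facts : wr chevE6 wE6 42 = 34 ∧ wr chevE6 wE6 39 = 32 ∧ wr chevE6 wE6 46 = 25 ∧ wr chevE6 wE3 42 = 56 ∧
    wr chevE6 wE3 29 = 15 ∧ wr chevE6 ([1, 3] ++ [1, 3]) 39 = 46 ∧ wr chevE6 wE 59 = 42 := by decide +kernel

include hq hK in
theorem genE6 (M : Subgroup (GL chevE6.Idx K)) (hM : ∀ t : K, BX chevE6 K q [42, 37] t ∈ M)
    (hn : nwd chevE6 K wE ∈ M) (hy : xg chevE6 K 39 1 ∈ M) : Γ0 chevE6 K tabE6 q ≤ M := by
  have hΓf := Γ0_le (sig hq hK) chk1E6 chk2E6 chk3E6 listed (sig_e hq hK) chkJ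
  obtain ⟨f13, f05, f24⟩ := n_E6 hq hK
  have hsurj := qsurj2 hq hK
  have hT' := hT hK
  have hsx := sxE6 hq hK
  obtain ⟨w1, w2, w3, w4, w5, w6, -⟩ := wr_facts
  have hnΓ : nwd chevE6 K wE ∈ Γ0 chevE6 K tabE6 q := by
    unfold wE; rw [nwd_append, nwd_append]; exact mul_mem f13 (mul_mem f05 f24)
  have hnq : ∀ t : K, (-t) ^ q = - t ^ q := q_neg (sig hq hK) chk1E6 chk2E6 (sig_e hq hK) TwE6.G
  have hpow : ∀ {S : Subgroup (GL chevE6.Idx K)}, nwd chevE6 K wE ∈ S → nwd chevE6 K wE6 ∈ S := by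
    intro S hS
    unfold wE6
    rw [nwd_append, nwd_append, nwd_append, nwd_append, nwd_append]
    exact S.mul_mem hS (S.mul_mem hS (S.mul_mem hS (S.mul_mem hS (S.mul_mem hS hS))))
  have h6M := hpow hn
  have h6f := hpow (hΓf hnΓ)
  -- negative of `a3`
  have hneg' : ∀ t : K, BX chevE6 K q [34, 29] t ∈ M :=
    inM_word (T hq hK) hsurj vE6 h6M h6f (a := (42, 34)) [(37, 29)] (by decide) w1
      (List.isChain_cons_cons.mpr ⟨⟨(hsx 2 (by norm_num)).1, (hsx 4 (by norm_num)).2⟩, List.isChain_singleton _⟩) hM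
  have hneg : ∀ t : K, BX chevE6 K q [29, 34] t ∈ M := by
    intro t
    have h1 := hneg' (t ^ q)
    have h2 : BX chevE6 K q [34, 29] (t ^ q) = xg chevE6 K 34 (t ^ q) * (xg chevE6 K 29 ((t ^ q) ^ q) * 1) := rfl
    have h3 : BX chevE6 K q [29, 34] t = xg chevE6 K 29 t * (xg chevE6 K 34 (t ^ q) * 1) := rfl
    have h4 : (t ^ q) ^ q = t := by rw [← pow_mul, ← sq]; exact hT' t
    have h5 := (cmm_sound TwE6.G (n := 72) (r := 29) (s := 34) rfl (by decide) (by decide) (by decide +kernel) t (t ^ q)).1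
    rw [h3, mul_one, h5.eq]
    rw [h2, h4, mul_one] at h1
    exact h1
  -- torus of `a3`
  have hBN : ∀ t : K, BN chevE6 K q [42, 37] t ∈ M := by
    intro t
    rw [BN_eq TwE6.G hnq (n := 72) rfl CListE6b]
    exact M.mul_mem (M.mul_mem (hM _) (hneg _)) (hM _)
  have hBH : ∀ t : K, BH chevE6 K q [42, 37] t ∈ M := by
    intro t
    rw [BH_eq TwE6.G hnq (one_pow q) (n := 72) rfl CListE6b]
    exact M.mul_mem (hBN _) (hBN _)
  have h24 : nwd chevE6 K [2, 4] ∈ M := by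
    have := hBN 1
    rwa [show ([42, 37] : List ℕ) = [2, 4].map chevE6.simple from rfl, BN_one] at this
  have h1305 : nwd chevE6 K wE1 ∈ M := by
    have h1 : nwd chevE6 K wE = nwd chevE6 K wE1 * nwd chevE6 K [2, 4] := by
      unfold wE wE1; rw [← nwd_append]; rfl
    rw [h1] at hn
    have := M.mul_mem hn (M.inv_mem h24)
    rwa [mul_inv_cancel_right] at this
  have hp3 : ∀ {S : Subgroup (GL chevE6.Idx K)}, nwd chevE6 K [2, 4] ∈ S → nwd chevE6 K wE1 ∈ S → nwd chevE6 K wE3 ∈ S := by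
    intro S h1 h2
    unfold wE3
    rw [nwd_append, nwd_append, nwd_append]
    exact S.mul_mem h1 (S.mul_mem h2 (S.mul_mem h2 h2))
  have h3M := hp3 h24 h1305
  have h3f := hp3 (hΓf f24) (hΓf (by unfold wE1; rw [nwd_append]; exact mul_mem f13 f05))
  have h4p : ∀ t : K, BX chevE6 K q [56, 36] t ∈ M :=
    inM_word (T hq hK) hsurj vE3 h3M h3f (a := (42, 56)) [(37, 36)] (by decide) w4
      (List.isChain_cons_cons.mpr ⟨⟨(hsx 2 (by norm_num)).1, (hsx 0 (by norm_num)).1⟩, List.isChain_singleton _⟩) hM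
  have h4n : ∀ t : K, BX chevE6 K q [15, 35] t ∈ M :=
    inM_word (T hq hK) hsurj vE3 h3M h3f (a := (29, 15)) [(34, 35)] (by decide) w5
      (List.isChain_cons_cons.mpr ⟨⟨(hsx 2 (by norm_num)).2, (hsx 0 (by norm_num)).2⟩, List.isChain_singleton _⟩) hneg
  have hBN4 : ∀ t : K, BN chevE6 K q [56, 36] t ∈ M := by
    intro t
    rw [BN_eq TwE6.G hnq (n := 72) rfl CListE6a]
    exact M.mul_mem (M.mul_mem (h4p _) (h4n _)) (h4p _)
  have h05 : nwd chevE6 K [0, 5] ∈ M := by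
    have := hBN4 1
    rwa [show ([56, 36] : List ℕ) = [0, 5].map chevE6.simple from rfl, BN_one] at this
  have h13 : nwd chevE6 K [1, 3] ∈ M := by
    unfold wE1 at h1305
    rw [nwd_append] at h1305
    have := M.mul_mem h1305 (M.inv_mem h05)
    rwa [mul_inv_cancel_right] at this
  -- long roots
  have hb : ∀ t : K, t ^ q = t → xg chevE6 K 39 t ∈ M := by
    intro t ht
    rcases eq_or_ne t 0 with rfl | ht0
    · rw [xg_zero TwE6.G]; exact M.one_mem
    obtain ⟨z, hz⟩ := IsCyclic.exists_generator (α := Kˣ)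
    have hq1 : 1 ≤ q := hq.pos
    have h2 : 2 ≤ q := two_le_of_primePow hq
    have hcard : Nat.card Kˣ = (q - 1) * (1 + q) := by
      rw [Nat.card_units, Nat.card_eq_fintype_card, hK]
      obtain ⟨r, rfl⟩ := Nat.exists_eq_add_of_le' hq1
      simp only [Nat.add_sub_cancel]
      rw [Nat.sub_eq_iff_eq_add (Nat.one_le_pow _ _ (by omega))]
      ring
    obtain ⟨v, hv⟩ := exists_root hz (m := q - 1) (by omega) hcard (u := (Units.mk0 t ht0)⁻¹) (by
      rw [← units_fix hq.pos, inv_pow]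
      congr 1
      apply Units.ext
      push_cast
      exact ht)
    have h10 := BH_conj TwE6.G q (s := 39) (by decide) [42, 37] (v : K) (Units.ne_zero v) (by decide) 1
    have e1 : pr chevE6 42 39 = -1 := by decide +kernel
    have e2 : pr chevE6 37 39 = -1 := by decide +kernel
    have h11 : (([42, 37].zipIdx.map fun x => ((v : K) ^ q ^ x.2) ^ pr chevE6 x.1 39).prod * 1 : K) = t := by
      simp only [List.zipIdx_cons, List.zipIdx_nil, List.map_cons, List.map_nil, List.prod_cons, List.prod_nil, e1, e2,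
        zpow_neg, zpow_one, mul_one, pow_zero, pow_one, zero_add]
      have h12 := congrArg Units.val hv
      push_cast at h12
      rw [Units.val_mk0] at h12
      rw [← inv_inv t, ← h12]
      rw [show (v : K) ^ (1 + q) = (v : K) * ((v : K) ^ q) by
        rw [pow_add, pow_one], mul_inv]
    rw [h11] at h10
    rw [← h10]
    exact M.mul_mem (M.mul_mem (hBH _) hy) (M.inv_mem (hBH _))
  have hbn := inM_word_fix TwE6.G hnq vE6 h6M (by decide) w2 hb
  have h1313 : nwd chevE6 K ([1, 3] ++ [1, 3]) ∈ M := by rw [nwd_append]; exact M.mul_mem h13 h13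
  have hc := inM_word_fix TwE6.G hnq v13 h1313 (by decide) w6 hb
  have hcn := inM_word_fix TwE6.G hnq vE6 h6M (by decide) w3 hc
  -- conclusion
  apply (Subgroup.closure_le _).mpr
  rintro g ⟨j, hj, t, ht, h⟩
  have hj2 : j < 4 := hj
  interval_cases j
  · rcases h with rfl | rfl
    · exact h4p t
    · exact h4n t
  · rcases h with rfl | rfl
    · exact hM t
    · exact hneg t
  · have ht1 : t ^ q ^ 1 = t := ht
    rw [pow_one] at ht1
    rcases h with rfl | rfl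
    · show xg chevE6 K 39 t * 1 ∈ M
      rw [mul_one]; exact hb t ht1
    · show xg chevE6 K 32 t * 1 ∈ M
      rw [mul_one]; exact hbn t ht1
  · have ht1 : t ^ q ^ 1 = t := ht
    rw [pow_one] at ht1
    rcases h with rfl | rfl
    · show xg chevE6 K 46 t * 1 ∈ M
      rw [mul_one]; exact hc t ht1
    · show xg chevE6 K 25 t * 1 ∈ M
      rw [mul_one]; exact hcn t ht1

include hq hK in
theorem exists_cfgE6 : ∃ h ∈ chevE6.diagonalSubgroup K ⊓ Γ0 chevE6 K tabE6 q, ∃ l m : K,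
    (∀ t : K, t ≠ 0 → ∃ k : ℕ, l ^ k = t) ∧ l ≠ 1 ∧ m ≠ 1 ∧ (∀ t : K, h * xg chevE6 K 42 t * h⁻¹ = xg chevE6 K 42 (l * t)) ∧
    (∀ t : K, h * xg chevE6 K 59 t * h⁻¹ = xg chevE6 K 59 (m * t)) ∧
    (∀ t : K, h * xg chevE6 K 39 t * h⁻¹ = xg chevE6 K 39 t) := by
  obtain ⟨z, hz⟩ := IsCyclic.exists_generator (α := Kˣ)
  have hq1 : 1 ≤ q := hq.pos
  have hcard : Nat.card Kˣ = q ^ 2 - 1 := by
    rw [Nat.card_units, Nat.card_eq_fintype_card, hK]
  have ho : orderOf z = q ^ 2 - 1 := by rw [orderOf_eq_card_of_forall_mem_zpowers hz, hcard]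
  have h2 : 2 ≤ q := two_le_of_primePow hq
  have hl := gen_zpow hz (-1 : ℤ) (by simp)
  have hl1 : ((z ^ (-1 : ℤ) : Kˣ) : K) ≠ 1 := by
    intro h
    have h3 : z = 1 := by
      have h4 : z ^ (-1 : ℤ) = 1 := Units.ext h
      rw [zpow_neg, zpow_one, inv_eq_one] at h4
      exact h4
    rw [h3, orderOf_one] at ho
    have : 2 ^ 2 ≤ q ^ 2 := Nat.pow_le_pow_left h2 2
    omega
  have hH : ∀ s < chevE6.nroots, ∀ (c0 c1 : ℤ), pr chevE6 56 s = c0 → pr chevE6 36 s = c1 → ∀ t : K,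
      BH chevE6 K q [56, 36] (z : K) * xg chevE6 K s t * (BH chevE6 K q [56, 36] (z : K))⁻¹ =
      xg chevE6 K s (((z ^ (c0 + q * c1) : Kˣ) : K) * t) := by
    intro s hs c0 c1 h0 h1 t
    rw [BH_conj TwE6.G q hs [56, 36] (z : K) (Units.ne_zero z) (by decide) t]
    congr 2
    simp only [List.zipIdx_cons, List.zipIdx_nil, List.map_cons, List.map_nil, List.prod_cons, List.prod_nil, h0, h1,
      mul_one, pow_zero, pow_one, zero_add]
    rw [zpow_add, zpow_mul, zpow_natCast]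
    push_cast
    rfl
  have hmem := BH_mem (sig hq hK) chk1E6 chk2E6 chk3E6 (sig_e hq hK) chkJ (j := 0) (by decide) (t := (z : K)) (hT hK z)
  have hdiag : BH chevE6 K q [56, 36] (z : K) ∈ chevE6.diagonalSubgroup K := by
    show hg chevE6 K 56 (z : K) * (hg chevE6 K 36 ((z : K) ^ q) * 1) ∈ _
    exact mul_mem (Cfsg.Agent.Lib.ChevH.hg_mem TwE6.G (by decide) (Units.ne_zero z))
      (mul_mem (Cfsg.Agent.Lib.ChevH.hg_mem TwE6.G (by decide) (pow_ne_zero _ (Units.ne_zero z))) (one_mem _))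
  refine ⟨_, ⟨hdiag, hmem⟩, _, ((z ^ (1 + q * (-1) : ℤ) : Kˣ) : K), hl, hl1, ?_, ?_, ?_, ?_⟩
  · intro h
    have h4 : z ^ (1 + q * (-1) : ℤ) = 1 := Units.ext h
    have h5 : z ^ (q - 1) = 1 := by
      have h6 : (1 + q * (-1) : ℤ) = -((q - 1 : ℕ) : ℤ) := by
        rw [Nat.cast_sub hq1]; push_cast; ring
      rw [h6, zpow_neg, inv_eq_one, zpow_natCast] at h4
      exact h4
    have h7 := orderOf_dvd_of_pow_eq_one h5
    rw [ho] at h7
    have h8 := Nat.le_of_dvd (by omega) h7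
    have h9 : q * 2 ≤ q ^ 2 := by rw [sq]; exact Nat.mul_le_mul_left q h2
    omega
  · intro t
    rw [hH 42 (by decide) (-1) 0 (by decide +kernel) (by decide +kernel)]
    congr 4
  · intro t
    rw [hH 59 (by decide) 1 (-1) (by decide +kernel) (by decide +kernel)]
  · intro t
    rw [hH 39 (by decide) 0 0 (by decide +kernel) (by decide +kernel)]
    rw [mul_zero, add_zero, zpow_zero, Units.val_one, one_mul]

include hq hK in
theorem mainE6 : ∃ a b : ↥(twistedE6 K q), Subgroup.closure ({a, b} : Set ↥(twistedE6 K q)) = ⊤ := by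
  rw [twisted_eq (hT hK)]
  obtain ⟨h, ⟨hhH, hhΓ⟩, l, m, hl, hl1, hm1, c42, c59, c39⟩ := exists_cfgE6 hq hK
  have hsurj := qsurj2 hq hK
  have hsx := sxE6 hq hK
  obtain ⟨f13, f05, f24⟩ := n_E6 hq hK
  have hΓf := Γ0_le (sig hq hK) chk1E6 chk2E6 chk3E6 listed (sig_e hq hK) chkJ
  have hnΓ : nwd chevE6 K wE ∈ Γ0 chevE6 K tabE6 q := by
    unfold wE; rw [nwd_append, nwd_append]; exact mul_mem f13 (mul_mem f05 f24)
  have hnf := hΓf hnΓ
  have hnN := Cfsg.Agent.Lib.ChevN.nwd_mem_normalizer TwE6.G (F := K) vE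
  have hhf := hΓf hhΓ
  have hxΓ : ∀ t : K, BX chevE6 K q [42, 37] t ∈ Γ0 chevE6 K tabE6 q := fun t =>
    (BX_mem_Γ0 (D := chevE6) (C := tabE6) (F := K) (q := q) (j := 1) (by decide) (t := t) (hT hK t)).1
  have hyΓ : xg chevE6 K 39 1 ∈ Γ0 chevE6 K tabE6 q := by
    have := (BX_mem_Γ0 (D := chevE6) (C := tabE6) (F := K) (q := q) (j := 2) (by decide) (t := 1) (one_pow _)).1
    have e : BX chevE6 K q ((tabE6.jwN 2).map tabE6.sim) 1 = xg chevE6 K 39 1 * 1 := rfl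
    rwa [e, mul_one] at this
  refine two_gen_of _ (A := xg chevE6 K 39 1 * h) (B := BX chevE6 K q [42, 37] 1 * nwd chevE6 K wE)
    (mul_mem hyΓ hhΓ) (mul_mem (hxΓ 1) hnΓ) fun M hA hB => ?_
  have hchain : [(42, 42), (37, 37)].IsChain
      (fun a b : ℕ × ℕ => SX (T hq hK) q a.1 b.1 ∧ SX (T hq hK) q a.2 b.2) :=
    List.isChain_cons_cons.mpr ⟨⟨(hsx 2 (by norm_num)).1, (hsx 2 (by norm_num)).1⟩, List.isChain_singleton _⟩
  have h1 : ∀ t : K, h * BX chevE6 K q [42, 37] t * h⁻¹ = BX chevE6 K q [42, 37] (l * t) := by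
    intro t
    exact conj_BX (T hq hK) hsurj hhf [(42, 42), (37, 37)] l hchain (by
      intro a ha
      simp only [List.head?_cons, Option.mem_def, Option.some.injEq] at ha
      subst ha
      exact c42) t
  have h2 : ∀ t : K, (nwd chevE6 K wE * h * (nwd chevE6 K wE)⁻¹) * BX chevE6 K q [42, 37] t *
      (nwd chevE6 K wE * h * (nwd chevE6 K wE)⁻¹)⁻¹ = BX chevE6 K q [42, 37] (m * t) := by
    intro t
    exact conj_BX (T hq hK) hsurj (mul_mem (mul_mem hnf hhf) (inv_mem hnf)) [(42, 42), (37, 37)] m hchain (by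
      intro a ha
      simp only [List.head?_cons, Option.mem_def, Option.some.injEq] at ha
      subst ha
      exact conj_nh TwE6.G vE (α := 42) (β := 59) (by decide) wr_facts.2.2.2.2.2.2 c59) t
  have h3 : h * (nwd chevE6 K wE * h * (nwd chevE6 K wE)⁻¹) =
      (nwd chevE6 K wE * h * (nwd chevE6 K wE)⁻¹) * h :=
    Cfsg.Agent.Lib.ChevH.diag_comm TwE6.G hhH ((Subgroup.mem_normalizer_iff.mp hnN _).mp hhH)
  have hcy : Commute (xg chevE6 K 39 1) h := (mul_inv_eq_iff_eq_mul.mp (c39 1)).symm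
  obtain ⟨r1, r2, r3, r4⟩ := trick (fun t => BX chevE6 K q [42, 37] t)
    (fun s t => BX_add (T hq hK) (qadd2 hq hK) TwE6.G (n := 72) rfl CListE6b s t) hl hl1 hm1 h3 h1 h2 hcy
    (P := Fintype.card K) (xg_pow_card TwE6.G 39 1) (diag_pow TwE6.G hhH) hA hB
  exact genE6 hq hK M r4 r3 r1

end E6

end Cfsg.Agent.Lib.ChTwoGenTw
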