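import Cfsg.Agent.Lib.ChTwoGenE
import Cfsg.Agent.Lib.TwF4b
set_option autoImplicit false

/-!
Two-generation of the groups 2F4(q) (helper19).
-/

namespace Cfsg.Agent.Lib.ChTwoGenTw
open Cfsg.Lie Cfsg.Agent.Lib.ChevX Cfsg.Agent.Lib.ChevGood Cfsg.Agent.Lib.ChevRel Cfsg.Agent.Lib.TwFix Cfsg.Agent.Lib.TwTab
open Cfsg.Agent.Lib.ChevBruhat Cfsg.Agent.Lib.ChevNPerm Cfsg.Agent.Lib.TwField Cfsg.Agent.Lib.TwSpec
open Cfsg.Agent.Lib.ChevN (wr nwd Valid nwd_conj nwd_cons nwd_append nwd_nil)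
open Cfsg.Agent.Lib.ChTwoGen (comm_trick two_gen_of)
open scoped MatrixGroups Matrix

section F4
universe u
variable {K : Type u} [Field K] [Fintype K] {m : ℕ} (hm : 1 ≤ m) (hK : Fintype.card K = 2 ^ (2 * m + 1))
open Cfsg.Agent.Lib.TwF4

def wF : List ℕ := [0, 3] ++ [1, 2, 1, 2]
def wF4 : List ℕ := wF ++ (wF ++ (wF ++ wF))

theorem vF : Valid chevF4 wF := by unfold Valid; decide +kernel
theorem vF4 : Valid chevF4 wF4 := by unfold Valid; decide +kernel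

theorem wrF_facts : wr chevF4 wF 15 = 24 ∧ wr chevF4 wF 10 = 33 ∧ wr chevF4 wF4 33 = 14 ∧ wr chevF4 wF4 24 = 23 ∧
    wr chevF4 wF4 27 = 20 ∧ wr chevF4 wF4 25 = 22 ∧ wr chevF4 wF4 28 = 19 ∧ wr chevF4 wF4 30 = 17 := by decide +kernel

include hK in
/-- in characteristic 2 there are no signs -/
theorem conj2 {w : List ℕ} (hw : Valid chevF4 w) {s s' : ℕ} (hs : s < chevF4.nroots) (hws : wr chevF4 w s = s') (t : K) :
    nwd chevF4 K w * xg chevF4 K s t * (nwd chevF4 K w)⁻¹ = xg chevF4 K s' t := by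
  obtain ⟨ε, hε, h7, -⟩ := nwd_conj TwF4.G (F := K) hw hs
  have hε1 : ε = 1 := by
    rcases hε with h | h
    · exact h
    · rw [h]; exact neg_eq hK 1
  rw [h7, hws, hε1, one_mul]

include hK in
theorem cF_27_28 (a b : K) : Commute (xg chevF4 K 27 a) (xg chevF4 K 28 b) := by
  refine xg_commute_p TwF4.G (by decide) (by decide) (by decide) (by decide) (fun c hc => ?_) a b
  rw [show chevF4.commTerms 27 28 = [(30, 2, 1, 1)] by decide +kernel] at hc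
  simp only [List.mem_singleton] at hc
  subst hc
  have := two hK
  exact_mod_cast this

theorem cF_27_30 (a b : K) : Commute (xg chevF4 K 27 a) (xg chevF4 K 30 b) := cm (by decide +kernel) a b
theorem cF_25_28 (a b : K) : Commute (xg chevF4 K 25 a) (xg chevF4 K 28 b) := cm (by decide +kernel) a b
theorem cF_25_30 (a b : K) : Commute (xg chevF4 K 25 a) (xg chevF4 K 30 b) := cm (by decide +kernel) a b

include hK in
theorem xx (r : ℕ) (t : K) : xg chevF4 K r t * xg chevF4 K r t = 1 := by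
  rw [xg_add TwF4.G]
  have : t + t = 0 := by linear_combination t * two hK
  rw [this, xg_zero TwF4.G]

include hK in
/-- the square of `y` -/
theorem BP_one_sq : BP (2 ^ m) (1 : K) 0 * BP (2 ^ m) (1 : K) 0 = BP (2 ^ m) (0 : K) 1 := by
  have he : 2 ^ m ≠ 0 := by positivity
  have h2e : 2 * 2 ^ m ≠ 0 := by positivity
  rw [BP_eq, BP_eq, zero_pow he, zero_pow (Nat.succ_ne_zero _), zero_pow h2e, xg_zero TwF4.G, xg_zero TwF4.G, xg_zero TwF4.G,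
    one_pow, one_pow, one_pow, zero_add, add_zero, mul_one, one_mul, one_mul]
  have h1 := comm_27_25 (K := K) 1 1
  rw [one_pow, mul_one, neg_eq hK] at h1
  have c1 := (cF_27_28 hK (1 : K) 1).eq
  have c2 := (cF_25_28 (1 : K) 1).eq
  have c3 := (cF_25_30 (1 : K) 1).eq
  have x27 := xx hK 27 1
  have x25 := xx hK 25 1
  have x28 := xx hK 28 1
  generalize xg chevF4 K 27 1 = a at *
  generalize xg chevF4 K 25 1 = b at *
  generalize xg chevF4 K 28 1 = c at *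
  generalize xg chevF4 K 30 1 = d at *
  calc a * b * c * (a * b * c) = a * b * (c * a) * b * c := by group
    _ = a * b * a * (c * b) * c := by rw [← c1]; group
    _ = a * (b * a) * b * (c * c) := by rw [← c2]; group
    _ = (a * a) * b * c * (d * b) := by rw [h1, x28]; group
    _ = b * (c * b) * d := by rw [← c3, x27]; group
    _ = (b * b) * c * d := by rw [← c2]; group
    _ = c * d := by rw [x25, one_mul]

theorem BP_split (t u : K) : BP (2 ^ m) t u = BP (2 ^ m) t 0 * BP (2 ^ m) 0 u := by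
  have he : 2 ^ m ≠ 0 := by positivity
  have h2e : 2 * 2 ^ m ≠ 0 := by positivity
  rw [BP_eq, BP_eq, BP_eq, zero_pow he, zero_pow (Nat.succ_ne_zero _), zero_pow h2e, xg_zero TwF4.G, xg_zero TwF4.G,
    xg_zero TwF4.G, add_zero, zero_add, mul_one, one_mul, one_mul, ← xg_add TwF4.G]
  group

include hK in
theorem conj_PP (t : K) : nwd chevF4 K wF4 * PP (2 ^ m) t * (nwd chevF4 K wF4)⁻¹ = PM (2 ^ m) t := by
  obtain ⟨-, -, w1, w2, w3, w4, w5, w6⟩ := wrF_facts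
  rw [PP_eq, PM_eq, ← conj2 hK vF4 (by decide) w1, ← conj2 hK vF4 (by decide) w2]
  group

include hK in
theorem conj_BP (t u : K) : nwd chevF4 K wF4 * BP (2 ^ m) t u * (nwd chevF4 K wF4)⁻¹ = BM (2 ^ m) t u := by
  obtain ⟨-, -, w1, w2, w3, w4, w5, w6⟩ := wrF_facts
  rw [BP_eq, BM_eq, ← conj2 hK vF4 (by decide) w3, ← conj2 hK vF4 (by decide) w4, ← conj2 hK vF4 (by decide) w5,
    ← conj2 hK vF4 (by decide) w6]
  group

theorem cartF : (chevF4.cartan 0 27 = -1 ∧ chevF4.cartan 3 27 = 0) ∧ (chevF4.cartan 0 25 = 0 ∧ chevF4.cartan 3 25 = -1) ∧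
    (chevF4.cartan 0 28 = -1 ∧ chevF4.cartan 3 28 = -1) ∧ (chevF4.cartan 0 30 = -2 ∧ chevF4.cartan 3 30 = -1) := by
  decide +kernel

include hK in
theorem tP_BP1 {s : K} (hs : s ≠ 0) : tP (2 ^ m) s * BP (2 ^ m) 1 0 * (tP (2 ^ m) s)⁻¹ = BP (2 ^ m) s⁻¹ 0 := by
  have h2e : 2 * 2 ^ m ≠ 0 := by positivity
  obtain ⟨⟨k1, k2⟩, ⟨k3, k4⟩, ⟨k5, k6⟩, -⟩ := cartF
  rw [BP_eq, BP_eq, zero_pow h2e, xg_zero TwF4.G, mul_one, mul_one, one_pow, one_pow, add_zero, add_zero]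
  have e1 : tP (2 ^ m) s * (xg chevF4 K 27 1 * xg chevF4 K 25 1 * xg chevF4 K 28 1) * (tP (2 ^ m) s)⁻¹ =
      (tP (2 ^ m) s * xg chevF4 K 27 1 * (tP (2 ^ m) s)⁻¹) * (tP (2 ^ m) s * xg chevF4 K 25 1 * (tP (2 ^ m) s)⁻¹) *
      (tP (2 ^ m) s * xg chevF4 K 28 1 * (tP (2 ^ m) s)⁻¹) := by group
  rw [e1, tP_conj hK hs (by decide), tP_conj hK hs (by decide), tP_conj hK hs (by decide), k1, k2, k3, k4, k5, k6]
  simp only [zpow_neg_one, zpow_zero, mul_one, one_mul, inv_pow, pow_succ, mul_inv]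

include hK in
theorem tP_BP0 {s : K} (hs : s ≠ 0) : tP (2 ^ m) s * BP (2 ^ m) 0 1 * (tP (2 ^ m) s)⁻¹ =
    BP (2 ^ m) 0 ((s ^ 2 ^ m)⁻¹ * s⁻¹) := by
  have he : 2 ^ m ≠ 0 := by positivity
  obtain ⟨-, -, ⟨k5, k6⟩, ⟨k7, k8⟩⟩ := cartF
  rw [BP_eq, BP_eq, zero_pow he, zero_pow (Nat.succ_ne_zero _), xg_zero TwF4.G, xg_zero TwF4.G, one_mul, one_mul, one_mul,
    zero_add, zero_add, one_pow]
  have e1 : tP (2 ^ m) s * (xg chevF4 K 28 1 * xg chevF4 K 30 1) * (tP (2 ^ m) s)⁻¹ =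
      (tP (2 ^ m) s * xg chevF4 K 28 1 * (tP (2 ^ m) s)⁻¹) * (tP (2 ^ m) s * xg chevF4 K 30 1 * (tP (2 ^ m) s)⁻¹) := by
    group
  have zm2 : ∀ x : K, x ^ (-2 : ℤ) = (x ^ 2)⁻¹ := fun x => by rw [zpow_neg]; norm_cast
  rw [e1, tP_conj hK hs (by decide), tP_conj hK hs (by decide), k5, k6, k7, k8, zm2, zpow_neg_one, zpow_neg_one,
    mul_one, mul_one]
  congr 2
  have h2 := hT2 hK s
  rw [mul_comm (2 ^ m) 2] at h2
  rw [mul_pow, inv_pow, inv_pow, h2, mul_comm 2, pow_mul s, mul_comm]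

include hK in
theorem genF4 (M : Subgroup (GL chevF4.Idx K)) (hM : ∀ t : K, PP (2 ^ m) t ∈ M)
    (hn : nwd chevF4 K wF ∈ M) (hy : BP (2 ^ m) (1 : K) 0 ∈ M) : twistedF4 K (2 ^ m) ≤ M := by
  have hn4 : nwd chevF4 K wF4 ∈ M := by
    unfold wF4
    rw [nwd_append, nwd_append, nwd_append]
    exact M.mul_mem hn (M.mul_mem hn (M.mul_mem hn hn))
  have hPM : ∀ t : K, PM (2 ^ m) t ∈ M := fun t => by
    rw [← conj_PP hK]; exact M.mul_mem (M.mul_mem hn4 (hM t)) (M.inv_mem hn4)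
  have htP : ∀ s : K, s ≠ 0 → tP (2 ^ m) s ∈ M := by
    intro s hs
    rw [tP_eq hK hs]
    exact M.mul_mem (M.mul_mem (M.mul_mem (hM _) (hPM _)) (hM _)) (M.mul_mem (M.mul_mem (hM _) (hPM _)) (hM _))
  have hy2 : BP (2 ^ m) (0 : K) 1 ∈ M := by rw [← BP_one_sq hK]; exact M.mul_mem hy hy
  have he : 2 ^ m ≠ 0 := by positivity
  have h2e : 2 * 2 ^ m ≠ 0 := by positivity
  have h00 : BP (2 ^ m) (0 : K) 0 = 1 := by
    rw [BP_eq, zero_pow he, zero_pow (Nat.succ_ne_zero _), zero_pow h2e, add_zero, xg_zero TwF4.G, xg_zero TwF4.G,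
      xg_zero TwF4.G, xg_zero TwF4.G]
    simp
  have hB1 : ∀ t : K, BP (2 ^ m) t 0 ∈ M := by
    intro t
    rcases eq_or_ne t 0 with rfl | ht
    · rw [h00]; exact M.one_mem
    have := tP_BP1 hK (inv_ne_zero ht)
    rw [inv_inv] at this
    rw [← this]
    exact M.mul_mem (M.mul_mem (htP _ (inv_ne_zero ht)) hy) (M.inv_mem (htP _ (inv_ne_zero ht)))
  have hB0 : ∀ u : K, BP (2 ^ m) 0 u ∈ M := by
    intro u
    rcases eq_or_ne u 0 with rfl | hu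
    · rw [h00]; exact M.one_mem
    set s : K := u ^ (2 * 2 ^ m) * (u ^ 2)⁻¹ with hs
    have hs0 : s ≠ 0 := mul_ne_zero (pow_ne_zero _ hu) (inv_ne_zero (pow_ne_zero _ hu))
    have h3 : (s ^ 2 ^ m)⁻¹ * s⁻¹ = u := by
      have h4 : s ^ 2 ^ m = u * (u ^ (2 * 2 ^ m))⁻¹ := by
        rw [hs, mul_pow, hT3 hK, inv_pow, ← pow_mul]
      rw [h4, hs]
      field_simp
    have h5 := tP_BP0 hK hs0
    rw [h3] at h5
    rw [← h5]
    exact M.mul_mem (M.mul_mem (htP _ hs0) hy2) (M.inv_mem (htP _ hs0))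
  have hBP : ∀ t u : K, BP (2 ^ m) t u ∈ M := fun t u => by
    rw [BP_split]; exact M.mul_mem (hB1 t) (hB0 u)
  have hBM : ∀ t u : K, BM (2 ^ m) t u ∈ M := fun t u => by
    rw [← conj_BP hK]; exact M.mul_mem (M.mul_mem hn4 (hBP t u)) (M.inv_mem hn4)
  apply (Subgroup.closure_le _).mpr
  rintro g ⟨w, hw, hg⟩
  have hgw := eq_wg TwF4.G hg
  rw [hgw]
  rcases hw with ⟨t, rfl | rfl⟩ | ⟨t, u, rfl | rfl⟩
  · exact hM t
  · exact hPM t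
  · exact hBP t u
  · exact hBM t u

theorem cartF2 : (chevF4.cartan 0 24, chevF4.cartan 1 24, chevF4.cartan 2 24, chevF4.cartan 3 24) = ((0 : ℤ), (0 : ℤ), (-1 : ℤ), (2 : ℤ)) ∧
    (chevF4.cartan 0 33, chevF4.cartan 1 33, chevF4.cartan 2 33, chevF4.cartan 3 33) = ((2 : ℤ), (-1 : ℤ), (0 : ℤ), (0 : ℤ)) ∧
    (chevF4.cartan 0 15, chevF4.cartan 1 15, chevF4.cartan 2 15, chevF4.cartan 3 15) = ((2 : ℤ), (0 : ℤ), (-1 : ℤ), (0 : ℤ)) ∧
    (chevF4.cartan 0 10, chevF4.cartan 1 10, chevF4.cartan 2 10, chevF4.cartan 3 10) = ((0 : ℤ), (-1 : ℤ), (0 : ℤ), (1 : ℤ)) ∧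
    (chevF4.cartan 0 27, chevF4.cartan 1 27, chevF4.cartan 2 27, chevF4.cartan 3 27) = ((-1 : ℤ), (2 : ℤ), (-1 : ℤ), (0 : ℤ)) ∧
    (chevF4.cartan 0 25, chevF4.cartan 1 25, chevF4.cartan 2 25, chevF4.cartan 3 25) = ((0 : ℤ), (-2 : ℤ), (2 : ℤ), (-1 : ℤ)) ∧
    (chevF4.cartan 0 28, chevF4.cartan 1 28, chevF4.cartan 2 28, chevF4.cartan 3 28) = ((-1 : ℤ), (0 : ℤ), (1 : ℤ), (-1 : ℤ)) := by
  decide +kernel

include hm hK in
theorem exists_cfgF4 : ∃ h ∈ chevF4.diagonalSubgroup K ⊓ twistedF4 K (2 ^ m), ∃ l μ : K,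
    (∀ t : K, t ≠ 0 → ∃ k : ℕ, l ^ k = t) ∧ l ≠ 1 ∧ μ ≠ 1 ∧ (∀ t : K, h * xg chevF4 K 24 t * h⁻¹ = xg chevF4 K 24 (l * t)) ∧
    (∀ t : K, h * xg chevF4 K 33 t * h⁻¹ = xg chevF4 K 33 (l ^ 2 ^ m * t)) ∧
    (∀ t : K, h * xg chevF4 K 15 t * h⁻¹ = xg chevF4 K 15 (μ * t)) ∧
    (∀ t : K, h * xg chevF4 K 10 t * h⁻¹ = xg chevF4 K 10 (μ ^ 2 ^ m * t)) ∧
    (∀ t : K, h * xg chevF4 K 27 t * h⁻¹ = xg chevF4 K 27 t) ∧
    (∀ t : K, h * xg chevF4 K 25 t * h⁻¹ = xg chevF4 K 25 t) ∧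
    (∀ t : K, h * xg chevF4 K 28 t * h⁻¹ = xg chevF4 K 28 t) := by
  obtain ⟨z, hz⟩ := IsCyclic.exists_generator (α := Kˣ)
  have hcard : Nat.card Kˣ = 2 ^ (2 * m + 1) - 1 := by
    rw [Nat.card_units, Nat.card_eq_fintype_card, hK]
  have hpos : 1 ≤ 2 ^ (2 * m + 1) := Nat.one_le_two_pow
  have hzq : z ^ (2 * (2 : ℤ) ^ m * 2 ^ m) = z := by
    have h1 : (2 * (2 : ℤ) ^ m * 2 ^ m) = ((2 ^ (2 * m + 1) : ℕ) : ℤ) := by push_cast; ring
    rw [h1, zpow_natCast]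
    apply Units.ext
    push_cast
    exact pow_pow_card (q := 2) hK z
  have hgcd : (3 - 4 * 2 ^ m : ℤ).gcd (Nat.card Kˣ) = 1 := by
    rw [← Int.isCoprime_iff_gcd_eq_one]
    refine ⟨4 * 2 ^ m + 3, 8, ?_⟩
    rw [hcard, Nat.cast_sub hpos]
    push_cast
    ring
  have hl := gen_zpow hz (3 - 4 * 2 ^ m : ℤ) hgcd
  have hl1 : ((z ^ (3 - 4 * 2 ^ m : ℤ) : Kˣ) : K) ≠ 1 := by
    intro h
    have h3 : 1 < Nat.card Kˣ := by
      rw [hcard]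
      have : 2 ^ 3 ≤ 2 ^ (2 * m + 1) := Nat.pow_le_pow_right (by norm_num) (by omega)
      omega
    have hnt : Nontrivial Kˣ := Finite.one_lt_card_iff_nontrivial.mp h3
    obtain ⟨u, hu⟩ := exists_ne (1 : Kˣ)
    obtain ⟨k, hk⟩ := hl u u.ne_zero
    rw [h, one_pow] at hk
    exact hu (Units.ext hk.symm)
  set c : Kˣ := z ^ (2 - 2 * 2 ^ m : ℤ) with hc
  have hce : c ^ 2 ^ m = z ^ (2 * 2 ^ m - 1 : ℤ) := by
    have h1 : c ^ 2 ^ m = z ^ ((2 - 2 * 2 ^ m : ℤ) * 2 ^ m) := by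
      rw [hc, ← zpow_natCast, ← zpow_mul]; norm_num
    have h2 : ((2 - 2 * 2 ^ m : ℤ) * 2 ^ m) = 2 * 2 ^ m - 2 * (2 : ℤ) ^ m * 2 ^ m := by ring
    rw [h1, h2, zpow_sub, hzq, zpow_sub, zpow_one]
  have hconj : ∀ s < chevF4.nroots, ∀ (c0 c1 c2 c3 : ℤ), (chevF4.cartan 0 s, chevF4.cartan 1 s, chevF4.cartan 2 s, chevF4.cartan 3 s) =
      (c0, c1, c2, c3) → ∀ t : K, (tP (2 ^ m) (c : K) * tB (2 ^ m) (z : K)) * xg chevF4 K s t *
      (tP (2 ^ m) (c : K) * tB (2 ^ m) (z : K))⁻¹ =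
      xg chevF4 K s (((z ^ ((2 * 2 ^ m - 1) * c0 + (2 - 2 * 2 ^ m) * c3 + 2 ^ m * c1 + c2 : ℤ) : Kˣ) : K) * t) := by
    intro s hs c0 c1 c2 c3 h t
    simp only [Prod.mk.injEq] at h
    obtain ⟨h0, h1, h2, h3⟩ := h
    have e1 : (tP (2 ^ m) (c : K) * tB (2 ^ m) (z : K)) * xg chevF4 K s t * (tP (2 ^ m) (c : K) * tB (2 ^ m) (z : K))⁻¹ =
        tP (2 ^ m) (c : K) * (tB (2 ^ m) (z : K) * xg chevF4 K s t * (tB (2 ^ m) (z : K))⁻¹) * (tP (2 ^ m) (c : K))⁻¹ := by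
      group
    rw [e1, tB_conj hK z.ne_zero hs, tP_conj hK c.ne_zero hs, h0, h1, h2, h3, ← mul_assoc]
    congr 2
    have e2 : (z ^ ((2 * 2 ^ m - 1) * c0 + (2 - 2 * 2 ^ m) * c3 + 2 ^ m * c1 + c2 : ℤ) : Kˣ) =
        (c ^ 2 ^ m) ^ c0 * c ^ c3 * ((z ^ 2 ^ m) ^ c1 * z ^ c2) := by
      rw [hce, hc, zpow_add, zpow_add, zpow_add, zpow_mul, zpow_mul, zpow_mul, mul_assoc]
      congr 3
    rw [e2]
    push_cast
    rfl
  obtain ⟨k1, k2, k3, k4, k5, k6, k7⟩ := cartF2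
  have hle : (((z ^ (3 - 4 * 2 ^ m : ℤ) : Kˣ) : K)) ^ 2 ^ m = ((z ^ (3 * 2 ^ m - 2 : ℤ) : Kˣ) : K) := by
    rw [← Units.val_pow_eq_pow_val]
    congr 1
    have h1 : (z ^ (3 - 4 * 2 ^ m : ℤ)) ^ 2 ^ m = z ^ ((3 - 4 * 2 ^ m : ℤ) * 2 ^ m) := by
      rw [← zpow_natCast, ← zpow_mul]; norm_num
    have h2 : ((3 - 4 * 2 ^ m : ℤ) * 2 ^ m) = 3 * 2 ^ m - (2 * (2 : ℤ) ^ m * 2 ^ m) * 2 := by ring
    rw [h1, h2, zpow_sub, zpow_mul z (2 * (2 : ℤ) ^ m * 2 ^ m) 2, hzq, zpow_sub]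
  refine ⟨tP (2 ^ m) (c : K) * tB (2 ^ m) (z : K), ⟨mul_mem (HP_mem TwF4.G (okP c.ne_zero)) (HP_mem TwF4.G (okB z.ne_zero)),
    mul_mem (tP_mem hK c.ne_zero) (tB_mem hK z.ne_zero)⟩, _, ((z ^ (3 - 4 * 2 ^ m : ℤ) : Kˣ) : K)⁻¹, hl, hl1, ?_, ?_, ?_, ?_, ?_, ?_, ?_, ?_⟩
  · rw [Ne, inv_eq_one]; exact hl1
  · intro t
    rw [hconj 24 (by decide) 0 0 (-1) 2 k1]
    congr 4
    ring
  · intro t
    rw [hconj 33 (by decide) 2 (-1) 0 0 k2, hle]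
    congr 4
    ring
  · intro t
    rw [hconj 15 (by decide) 2 0 (-1) 0 k3, ← Units.val_inv_eq_inv_val, ← zpow_neg]
    congr 4
    ring
  · intro t
    rw [hconj 10 (by decide) 0 (-1) 0 1 k4, inv_pow, hle, ← Units.val_inv_eq_inv_val, ← zpow_neg]
    congr 4
    ring
  · intro t
    rw [hconj 27 (by decide) (-1) 2 (-1) 0 k5]
    have e : ((2 * 2 ^ m - 1) * -1 + (2 - 2 * 2 ^ m) * 0 + 2 ^ m * 2 + -1 : ℤ) = 0 := by ring
    rw [e, zpow_zero, Units.val_one, one_mul]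
  · intro t
    rw [hconj 25 (by decide) 0 (-2) 2 (-1) k6]
    have e : ((2 * 2 ^ m - 1) * 0 + (2 - 2 * 2 ^ m) * -1 + 2 ^ m * -2 + 2 : ℤ) = 0 := by ring
    rw [e, zpow_zero, Units.val_one, one_mul]
  · intro t
    rw [hconj 28 (by decide) (-1) 0 1 (-1) k7]
    have e : ((2 * 2 ^ m - 1) * -1 + (2 - 2 * 2 ^ m) * -1 + 2 ^ m * 0 + 1 : ℤ) = 0 := by ring
    rw [e, zpow_zero, Units.val_one, one_mul]

include hK in
theorem nwF_mem : nwd chevF4 K wF ∈ twistedF4 K (2 ^ m) := by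
  have h0 := n0_mem (K := K) hK
  have h1 := n1_mem (K := K) hK
  have e0 : nl chevF4 K (jwF chk1F4 0) = nwd chevF4 K [0, 3] := by
    rw [nl_eq_BN chk1F4 chk3F4 (by decide) 1]
    exact BN_one (D := chevF4) (F := K) 1 [0, 3]
  have e1 : nl chevF4 K (jwF chk1F4 1) = nwd chevF4 K [1, 2, 1, 2] := by
    rw [nl_eq_BN chk1F4 chk3F4 (by decide) 1]
    exact BN_one (D := chevF4) (F := K) 1 [1, 2, 1, 2]
  rw [e0] at h0
  rw [e1] at h1
  unfold wF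
  rw [nwd_append]
  exact mul_mem h0 h1

include hm hK in
theorem mainF4 : ∃ a b : ↥(twistedF4 K (2 ^ m)), Subgroup.closure ({a, b} : Set ↥(twistedF4 K (2 ^ m))) = ⊤ := by
  obtain ⟨h, ⟨hhH, hhΓ⟩, l, μ, hl, hl1, hm1, c24, c33, c15, c10, c27, c25, c28⟩ := exists_cfgF4 hm hK
  have hnN := Cfsg.Agent.Lib.ChevN.nwd_mem_normalizer TwF4.G (F := K) vF
  refine two_gen_of _ (A := BP (2 ^ m) (1 : K) 0 * h) (B := PP (2 ^ m) (1 : K) * nwd chevF4 K wF)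
    (mul_mem (mem_BP _ _ _) hhΓ) (mul_mem (mem_PP _ _) (nwF_mem hK)) fun M hA hB => ?_
  have h1 : ∀ t : K, h * PP (2 ^ m) t * h⁻¹ = PP (2 ^ m) (l * t) := by
    intro t
    rw [PP_eq, PP_eq, mul_pow, ← c33, ← c24]
    group
  have h2 : ∀ t : K, (nwd chevF4 K wF * h * (nwd chevF4 K wF)⁻¹) * PP (2 ^ m) t *
      (nwd chevF4 K wF * h * (nwd chevF4 K wF)⁻¹)⁻¹ = PP (2 ^ m) (μ * t) := by
    intro t
    rw [PP_eq, PP_eq, mul_pow, ← conj_nh TwF4.G vF (α := 33) (β := 10) (by decide) wrF_facts.2.1 c10,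
      ← conj_nh TwF4.G vF (α := 24) (β := 15) (by decide) wrF_facts.1 c15]
    group
  have h3 : h * (nwd chevF4 K wF * h * (nwd chevF4 K wF)⁻¹) =
      (nwd chevF4 K wF * h * (nwd chevF4 K wF)⁻¹) * h :=
    Cfsg.Agent.Lib.ChevH.diag_comm TwF4.G hhH ((Subgroup.mem_normalizer_iff.mp hnN _).mp hhH)
  have hyeq : BP (2 ^ m) (1 : K) 0 = xg chevF4 K 27 1 * xg chevF4 K 25 1 * xg chevF4 K 28 1 := by
    have h2e : 2 * 2 ^ m ≠ 0 := by positivity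
    rw [BP_eq, zero_pow h2e, xg_zero TwF4.G, mul_one, one_pow, one_pow, add_zero]
  have hcy : Commute (BP (2 ^ m) (1 : K) 0) h := by
    rw [hyeq]
    have a1 : Commute (xg chevF4 K 27 1) h := (mul_inv_eq_iff_eq_mul.mp (c27 1)).symm
    have a2 : Commute (xg chevF4 K 25 1) h := (mul_inv_eq_iff_eq_mul.mp (c25 1)).symm
    have a3 : Commute (xg chevF4 K 28 1) h := (mul_inv_eq_iff_eq_mul.mp (c28 1)).symm
    exact (a1.mul_left a2).mul_left a3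
  have hadd : ∀ s t : K, PP (2 ^ m) s * PP (2 ^ m) t = PP (2 ^ m) (s + t) := by
    intro s t
    rw [PP_eq, PP_eq, PP_eq, add_e hK, ← xg_add TwF4.G, ← xg_add TwF4.G]
    have := (cm_33_24 (K := K) (t ^ 2 ^ m) s).eq
    calc xg chevF4 K 33 (s ^ 2 ^ m) * xg chevF4 K 24 s * (xg chevF4 K 33 (t ^ 2 ^ m) * xg chevF4 K 24 t)
        = xg chevF4 K 33 (s ^ 2 ^ m) * (xg chevF4 K 24 s * xg chevF4 K 33 (t ^ 2 ^ m)) * xg chevF4 K 24 t := by group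
      _ = _ := by rw [← this]; group
  have hyP : BP (2 ^ m) (1 : K) 0 ^ Fintype.card K = 1 := by
    have h4 : BP (2 ^ m) (1 : K) 0 ^ 4 = 1 := by
      have h5 : BP (2 ^ m) (1 : K) 0 ^ 4 = (BP (2 ^ m) (1 : K) 0 * BP (2 ^ m) (1 : K) 0) *
        (BP (2 ^ m) (1 : K) 0 * BP (2 ^ m) (1 : K) 0) := by simp only [pow_succ, pow_zero, one_mul, mul_assoc]
      have he : 2 ^ m ≠ 0 := by positivity
      have h2e : 2 * 2 ^ m ≠ 0 := by positivity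
      rw [h5, BP_one_sq hK, BP_eq, zero_pow he, zero_pow (Nat.succ_ne_zero _), xg_zero TwF4.G, xg_zero TwF4.G, one_mul,
        one_mul, zero_add, one_pow]
      have h6 := (cm_28_30 (K := K) 1 1).eq
      have x28 := xx hK 28 1
      have x30 := xx hK 30 1
      generalize xg chevF4 K 28 1 = a at *
      generalize xg chevF4 K 30 1 = b at *
      calc a * b * (a * b) = a * (b * a) * b := by group
        _ = (a * a) * (b * b) := by rw [← h6]; group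
        _ = 1 := by rw [x28, x30, one_mul]
    have h7 : Fintype.card K = 4 * 2 ^ (2 * m + 1 - 2) := by
      rw [hK]
      have h8 : 2 * m + 1 = 2 + (2 * m + 1 - 2) := by omega
      conv_lhs => rw [h8, pow_add]
      norm_num
    rw [h7, pow_mul, h4, one_pow]
  obtain ⟨r1, r2, r3, r4⟩ := trick (fun t => PP (2 ^ m) t) hadd hl hl1 hm1 h3 h1 h2 hcy
    (P := Fintype.card K) hyP (diag_pow TwF4.G hhH) hA hB
  exact genF4 hK M r4 r3 r1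

end F4

end Cfsg.Agent.Lib.ChTwoGenTw
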