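import Cfsg.Agent.Lib.ChevOutStr
set_option autoImplicit false

/-!
Action of graph automorphisms on all root elements (simply laced types).
-/

namespace Cfsg.Agent.Lib.ChevStd
open Cfsg.Lie Cfsg.Agent.Lib.ChevX Cfsg.Agent.Lib.ChevGood Cfsg.Agent.Lib.ChevRel Cfsg.Agent.Lib.ChevLev
open Cfsg.Agent.Lib.ChevU Cfsg.Agent.Lib.ChevH Cfsg.Agent.Lib.ChevN Cfsg.Agent.Lib.ChevBN Cfsg.Agent.Lib.ChevChar
open Cfsg.Agent.Lib.ChevDiagrams Cfsg.Agent.Lib.ChevGraph
open scoped MatrixGroups Matrix

variable {D : ChevalleyDatum} {F : Type*} [Field F]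

/-- the Cartan matrix is symmetric -/
def chkSym (D : ChevalleyDatum) : Bool :=
  (List.range D.rank).all fun i => (List.range D.rank).all fun j => decide (D.cartan i (D.simple j) = D.cartan j (D.simple i))

theorem chkSym_spec (h : chkSym D = true) {i j : ℕ} (hi : i < D.rank) (hj : j < D.rank) :
    D.cartan i (D.simple j) = D.cartan j (D.simple i) := by
  unfold chkSym at h
  rw [List.all_eq_true] at h
  have h1 := h i (List.mem_range.mpr hi)
  rw [List.all_eq_true] at h1
  simpa using h1 j (List.mem_range.mpr hj)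

theorem symD4 : chkSym chevD4 = true := by decide +kernel
theorem symE6 : chkSym chevE6 = true := by decide +kernel

section
variable (G : Good D)
include G

/-- coroot coefficients are root coefficients in the simply laced case -/
theorem co_eq_rv (hS : chkSym D = true) : ∀ r < D.nroots, ∀ j < D.rank, co D r j = G.rv r j := by
  refine root_ind G _ ?_ ?_
  · intro i hi j _
    rw [G.co_simple i hi, G.rv_simple i hi]
  · intro i hi r hr h j hj
    rw [G.co_w i hi r hr, G.rv_w i hi r hr, h j hj, G.ca_lin i hi r hr]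
    congr 1
    split_ifs
    · refine Finset.sum_congr rfl fun k hk => ?_
      have hk' := Finset.mem_range.mp hk
      rw [h k hk', chkSym_spec hS hk' hi]
    · rfl

/-- equivariance of the reflections under a symmetry of the Cartan matrix -/
theorem rv_wr_perm {π : Equiv.Perm (Fin D.rank)}
    (hπ : ∀ i j : Fin D.rank, D.cartan (π i) (D.simple (π j)) = D.cartan i (D.simple j)) {j : Fin D.rank} :
    ∀ {w : List ℕ}, Valid D w → ∀ k : Fin D.rank,
      G.rv (wr D (pw π w) (D.simple (π j))) (π k) = G.rv (wr D w (D.simple j)) k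
  | [], _, k => by
    show G.rv (D.simple (π j)) (π k) = G.rv (D.simple j) k
    rw [G.rv_simple _ (π j).2, G.rv_simple _ j.2]
    have : ((π k).val = (π j).val) ↔ (k.val = j.val) := by
      rw [Fin.val_inj, Fin.val_inj, π.apply_eq_iff_eq]
    simp only [this]
  | i :: w, hw, k => by
    have hi : i < D.rank := hw.cons.1
    have ih := rv_wr_perm hπ (j := j) hw.cons.2
    have h1 : wr D (pw π w) (D.simple (π j)) < D.nroots := wr_lt G (pw_valid hw.cons.2) (G.simple_lt _ (π j).2)
    have h2 : wr D w (D.simple j) < D.nroots := wr_lt G hw.cons.2 (G.simple_lt _ j.2)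
    have h3 : pw π (i :: w) = (π ⟨i, hi⟩).val :: pw π w := by
      unfold pw; rw [List.map_cons, dif_pos hi]
    rw [h3, wr_cons, wr_cons, G.rv_w _ (π ⟨i, hi⟩).2 _ h1, G.rv_w i hi _ h2, ih]
    congr 1
    have h4 : ((π k).val = (π ⟨i, hi⟩).val) ↔ (k.val = i) := by
      rw [Fin.val_inj, π.apply_eq_iff_eq]
      constructor
      · rintro rfl; rfl
      · intro h; exact Fin.ext h
    have h5 : D.cartan (π ⟨i, hi⟩) (wr D (pw π w) (D.simple (π j))) = D.cartan i (wr D w (D.simple j)) := by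
      rw [G.ca_lin _ (π ⟨i, hi⟩).2 _ h1, G.ca_lin i hi _ h2, ← Fin.sum_univ_eq_sum_range (fun m =>
        G.rv (wr D (pw π w) (D.simple (π j))) m * D.cartan (π ⟨i, hi⟩) (D.simple m)),
        ← Fin.sum_univ_eq_sum_range (fun m => G.rv (wr D w (D.simple j)) m * D.cartan i (D.simple m)),
        ← Equiv.sum_comp π]
      refine Finset.sum_congr rfl fun m _ => ?_
      rw [ih]
      congr 1
      exact hπ ⟨i, hi⟩ m
    simp only [h4, h5]

theorem permRoot_eq (hS : chkSym D = true) {π : Equiv.Perm (Fin D.rank)} {r s : ℕ} (hr : r < D.nroots) (hs : s < D.nroots)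
    (h : ∀ k : Fin D.rank, G.rv s (π k) = G.rv r k) : D.permRoot π r = s := by
  have hco : ∀ k : Fin D.rank, co D s (π k) = co D r k := by
    intro k
    rw [co_eq_rv G hS s hs _ (π k).2, co_eq_rv G hS r hr _ k.2, h k]
  unfold ChevalleyDatum.permRoot
  set p : ℕ → Bool := fun s => (List.finRange D.rank).all fun i =>
      (D.coroot.getD s #[]).getD (π i).val 0 == (D.coroot.getD r #[]).getD i.val 0 with hp
  have hps : p s = true := by
    rw [hp]
    simp only [List.all_eq_true, beq_iff_eq]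
    intro i _
    exact hco i
  have hex : ((List.range D.nroots).find? p).isSome := by
    rw [List.find?_isSome]
    exact ⟨s, List.mem_range.mpr hs, hps⟩
  obtain ⟨t, ht⟩ := Option.isSome_iff_exists.mp hex
  rw [ht, Option.getD_some]
  have h1 := List.find?_some ht
  have h2 : t < D.nroots := List.mem_range.mp (List.mem_of_find?_eq_some ht)
  rw [hp] at h1
  simp only [List.all_eq_true, beq_iff_eq] at h1
  apply G.rv_inj t h2 s hs
  intro j hj
  have h3 := h1 (π.symm ⟨j, hj⟩) (List.mem_finRange _)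
  have h4 : co D t (π (π.symm ⟨j, hj⟩)) = co D r (π.symm ⟨j, hj⟩) := h3
  rw [← hco, co_eq_rv G hS t h2 _ (π _).2, co_eq_rv G hS s hs _ (π _).2, π.apply_symm_apply] at h4
  exact h4

/-- signs of graph automorphisms -/
theorem graph_signs (hS : chkSym D = true) (hL : chkL D = true) {π : Equiv.Perm (Fin D.rank)}
    {φ : ↥(D.group F) ≃* ↥(D.group F)} (h : Nrm G φ π (fun _ => RingEquiv.refl F)) {r : ℕ} (hr : r < D.nroots) :
    ∃ ε : F, (ε = 1 ∨ ε = -1) ∧ ∀ t : F, φ (X G r t) = X G (D.permRoot π r) (ε * t) := by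
  obtain ⟨w, hw, j, hj, hj'⟩ := exists_word G hr
  have hπ := cartan_of_adj G hL fun i j hij => Nrm.adj G h (i := i) (j := j) hij
  have h0 : wr D (pw π w) (D.simple (π ⟨j, hj⟩)) < D.nroots := wr_lt G (pw_valid hw) (G.simple_lt _ (π ⟨j, hj⟩).2)
  have hs : D.permRoot π r = wr D (pw π w) (D.simple (π ⟨j, hj⟩)) := by
    refine permRoot_eq G hS hr h0 fun k => ?_
    rw [rv_wr_perm G hπ (j := ⟨j, hj⟩) hw k]
    show G.rv (wr D w (D.simple j)) k = _
    rw [hj']
  obtain ⟨ε, hε, h1, h2⟩ := nwd_conj G (F := F) hw (G.simple_lt j hj)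
  obtain ⟨ε', hε', h3, h4⟩ := nwd_conj G (F := F) (pw_valid (ρ := π) hw) (G.simple_lt _ (π ⟨j, hj⟩).2)
  have hεε : ∀ t, ε * (ε * t) = t := fun t => by rcases hε with h | h <;> rw [h] <;> ring
  refine ⟨ε' * ε, ?_, fun t => ?_⟩
  · rcases hε with h | h <;> rcases hε' with h' | h' <;> rw [h, h'] <;> simp
  · have e1 : X G r t = ⟨ChevN.nwd D F w, nwd_mem_grp G h hw⟩ * X G (D.simple (⟨j, hj⟩ : Fin D.rank)) (ε * t) *
        (⟨ChevN.nwd D F w, nwd_mem_grp G h hw⟩)⁻¹ := by
      apply Subtype.ext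
      show xg D F r t = ChevN.nwd D F w * xg D F (D.simple j) (ε * t) * (ChevN.nwd D F w)⁻¹
      rw [h1, hj', hεε]
    rw [e1, map_mul, map_mul, map_inv, h.pos]
    apply Subtype.ext
    rw [Subgroup.coe_mul, Subgroup.coe_mul, Subgroup.coe_inv, Nrm.nwd G h hw, coe_X, coe_X, h3, hs]
    congr 1
    show ε' * (ε * t) = _
    ring

end

end Cfsg.Agent.Lib.ChevStd
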