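import Cfsg.Agent.Lib.ChevInv5

set_option autoImplicit false

/-!
# Centralizer orders of involutions (helper40)
-/

namespace Cfsg.Agent.Lib.ChevInv
open Cfsg.Lie Cfsg.Agent.Lib.ChevX Cfsg.Agent.Lib.ChevGood Cfsg.Agent.Lib.ChevRel Cfsg.Agent.Lib.ChevNPerm
  Cfsg.Agent.Lib.ChevPoinc Cfsg.Agent.Lib.ChevFix Cfsg.Agent.Lib.ChevHOrder Cfsg.Agent.Lib.ChevClosed Cfsg.Agent.Lib.ChevTorus
  Cfsg.Agent.Lib.ChevSS Cfsg.Agent.Lib.ChevTab Cfsg.Agent.Lib.ChevPoincChk
open Cfsg.Agent.Lib.ChevBruhat (Listed exists_bruhat bruhat_unique diag_conj_XS inf_UH mem_borel mem_borel' borel_U borel_H)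
open scoped MatrixGroups Matrix

variable {D : ChevalleyDatum}

section sound
variable {G : Good D} {F : Type*} [Field F] {R : ℕ → ℕ → ℤ} {n2 l i0 : ℕ} {SL W : List ℕ} {C : List (List ℤ)} {gs : List (List ℕ × ℕ)}
  {L : List (List ℤ × ℕ × ℕ)} (h : invOK D R n2 l i0 SL W C gs L = true) (hR : G.rv = R) (hl : D.rank = l) (hi0 : i0 < l)
  (hn : D.nroots = 2 * n2) (hSL : ∀ i < D.rank, D.simple i = nth 0 SL i)
  (hW : ∀ i < D.rank, ∀ s < D.nroots, D.reflectRoot i s = wA W i s)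
  {t : GL D.Idx F} (ht : t ∈ D.diagonalSubgroup F)
  (hti : ∀ j : Fin D.rank, rval t (simpF G j) = if (j : ℕ) = i0 then -1 else 1) (h2 : (2 : F) ≠ 0)

include h hR hl hi0 hn hSL hW ht hti h2 in
/-- **the order of the centralizer** -/
theorem card_cert [Fintype F] (hD : Listed D) (hmin : NoMin G) (cd : CertD D 1) (ct : Cert D.rank (cm D) 1 0) {J : List ℕ}
    (hJ : ∀ j, j ∈ J ↔ j < l ∧ j ≠ i0) {V : List ℕ} (hV : (L.map fun v => nvc R n2 i0 v.1) = V) {np : ℕ} (hnp : npc R n2 i0 = np) :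
    (Nat.card (cen D t) : ℤ) = ((V.map fun m => (Fintype.card F : ℤ) ^ m).sum * PP (WJ G {i | i ∈ J}) (Fintype.card F : ℤ)) *
      (((Fintype.card F : ℤ) - 1) ^ l * (Fintype.card F : ℤ) ^ np) := by
  have hF1 : 1 ≤ Fintype.card F := Fintype.card_pos
  rw [card_cen G hD ht, flagSum_cert h hR hl hi0 hn hSL hW ht hti h2 hmin cd _ hJ hV, npos_eq hR hl hi0 hn ht hti h2, hnp]
  have h3 := card_H G (F := F) ct
  rw [pow_zero, one_mul] at h3
  rw [h3, Nat.card_eq_fintype_card, hl]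
  push_cast [Nat.cast_sub hF1]
  congr 1
  congr 1
  · rw [List.map_map]
    refine congrArg List.sum (List.map_congr_left fun m _ => ?_)
    simp
  · unfold PP
    push_cast
    rfl

/-- the number of roots of the subsystem -/
def nall (R : ℕ → ℕ → ℤ) (N i0 : ℕ) : ℕ := ((List.range N).filter fun k => decide (R k i0 % 2 = 0)).length

include hR hl hi0 ht hti h2 in
theorem nall_eq : Nat.card {s : Fin D.nroots // rval t s = 1} = nall R D.nroots i0 := by
  classical
  rw [Nat.card_eq_fintype_card, Fintype.card_subtype]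
  unfold nall
  have e1 : ((List.range D.nroots).filter fun k => decide (R k i0 % 2 = 0)).length =
      ((Finset.range D.nroots).filter fun k => R k i0 % 2 = 0).card := by
    rw [Finset.card, Finset.filter_val, Finset.range_val, ← Multiset.coe_range, Multiset.filter_coe, Multiset.coe_card]
  rw [e1]
  refine Finset.card_bij (fun s _ => (s : ℕ)) ?_ ?_ ?_
  · intro s hs
    rw [Finset.mem_filter, rval_one_iff hl hi0 ht hti h2] at hs
    rw [Finset.mem_filter, Finset.mem_range, ← hR]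
    exact ⟨s.2, hs.2⟩
  · intro a _ b _ hab
    exact Fin.ext hab
  · intro k hk
    rw [Finset.mem_filter, Finset.mem_range, ← hR] at hk
    refine ⟨⟨k, hk.1⟩, ?_, rfl⟩
    rw [Finset.mem_filter, rval_one_iff hl hi0 ht hti h2]
    exact ⟨Finset.mem_univ _, hk.2⟩

/-- conjugate elements have the same number of trivial roots -/
theorem nall_conj (hD : Listed D) {t t' g : GL D.Idx F} (ht : t ∈ D.diagonalSubgroup F) (ht' : t' ∈ D.diagonalSubgroup F)
    (hg : g ∈ D.group F) (h : g * t * g⁻¹ = t') (G : Good D) :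
    Nat.card {s : Fin D.nroots // rval t s = 1} = Nat.card {s : Fin D.nroots // rval t' s = 1} := by
  obtain ⟨w, -, hwt⟩ := wconj G hD ht ht' hg h
  exact Nat.card_congr (Equiv.subtypeEquiv w fun s => by rw [hwt])

/-- order two -/
theorem sq_ti (hl : D.rank = l) (hi0 : i0 < l) (ht : t ∈ D.diagonalSubgroup F)
    (hti : ∀ j : Fin D.rank, rval t (simpF G j) = if (j : ℕ) = i0 then -1 else 1) : t ^ 2 = 1 := by
  apply ext_rval G (pow_mem ht _) (one_mem _)
  intro s
  rw [rval_pow G ht, rval_one G, rval_pow_M0 hl hi0 ht hti, ← zpow_natCast, ← zpow_mul, mul_comm, zpow_mul]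
  norm_num

theorem ne_one_ti (hl : D.rank = l) (hi0 : i0 < l) (h2 : (2 : F) ≠ 0)
    (hti : ∀ j : Fin D.rank, rval t (simpF G j) = if (j : ℕ) = i0 then -1 else 1) : t ≠ 1 := by
  rintro rfl
  have h3 := hti ⟨i0, by omega⟩
  rw [rval_one G, if_pos rfl] at h3
  apply h2
  linear_combination h3

theorem two_ne [Fintype F] (hF : Odd (Fintype.card F)) : (2 : F) ≠ 0 := by
  intro h
  obtain ⟨p, hpc⟩ := CharP.exists F
  have hp : Fact p.Prime := ⟨CharP.char_is_prime F p⟩
  have h1 := (CharP.cast_eq_zero_iff F p 2).mp (by exact_mod_cast h)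
  obtain ⟨e, -, he⟩ := FiniteField.card F p
  rw [← Nat.not_even_iff_odd] at hF
  apply hF
  rw [even_iff_two_dvd, he]
  rcases (Nat.dvd_prime Nat.prime_two).mp h1 with h3 | h3
  · exact absurd h3 hp.out.one_lt.ne'
  · rw [h3]; exact dvd_pow_self 2 e.ne_zero

end sound

/-- the final assembly: two classes of involutions -/
theorem assemble {G : Good D} {F : Type*} [Field F] [Fintype F] (hD : Listed D) (hmin : NoMin G) (cd : CertD D 1) {l n : ℕ} {mask P : List ℕ} (hl : D.rank = l)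
    {a b : ℕ} (ha : a < l) (hb : b < l) (hok : orbOK D l n mask P [a, b] = true ∨ orbOK D l n mask P [b, a] = true) {R : ℕ → ℕ → ℤ} (hR : G.rv = R) (hab : nall R D.nroots a ≠ nall R D.nroots b)
    (hF : Odd (Fintype.card F)) {A B : ℕ}
    (hA : ∀ t ∈ D.diagonalSubgroup F, (∀ j : Fin D.rank, rval t (simpF G j) = if (j : ℕ) = a then -1 else 1) → Nat.card (cen D t) = A)
    (hB : ∀ t ∈ D.diagonalSubgroup F, (∀ j : Fin D.rank, rval t (simpF G j) = if (j : ℕ) = b then -1 else 1) → Nat.card (cen D t) = B) :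
    ∃ s t : ↥(D.group F), orderOf s = 2 ∧ orderOf t = 2 ∧ ¬ IsConj s t ∧ (∀ u : ↥(D.group F), orderOf u = 2 → IsConj u s ∨ IsConj u t) ∧
      Nat.card (Subgroup.centralizer ({s} : Set ↥(D.group F))) = A ∧ Nat.card (Subgroup.centralizer ({t} : Set ↥(D.group F))) = B := by
  have h2 := two_ne (F := F) hF
  obtain ⟨s, hs, hsi⟩ := exists_ti G (K := F) cd a
  obtain ⟨t, ht, hti⟩ := exists_ti G (K := F) cd b
  have ho : ∀ (x : GL D.Idx F) (hx : x ∈ D.group F), x ^ 2 = 1 → x ≠ 1 → orderOf (⟨x, hx⟩ : ↥(D.group F)) = 2 := by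
    intro x hx hx2 hx1
    apply orderOf_eq_prime
    · exact Subtype.ext hx2
    · exact fun h => hx1 (congrArg Subtype.val h)
  refine ⟨⟨s, ChevBN.H_le_group G hs⟩, ⟨t, ChevBN.H_le_group G ht⟩, ho _ _ (sq_ti hl ha hs hsi) (ne_one_ti hl ha h2 hsi),
    ho _ _ (sq_ti hl hb ht hti) (ne_one_ti hl hb h2 hti), ?_, ?_, ?_, ?_⟩
  · intro hc
    obtain ⟨g, hg⟩ := isConj_iff.mp hc
    have h3 := nall_conj hD hs ht g.2 (congrArg Subtype.val hg) G
    rw [nall_eq hR hl ha hs hsi h2, nall_eq hR hl hb ht hti h2] at h3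
    exact hab h3
  · intro u hu
    have hu2 : (u : GL D.Idx F) ^ 2 = 1 := by
      have := pow_orderOf_eq_one u
      rw [hu] at this
      exact congrArg Subtype.val this
    have hu1 : (u : GL D.Idx F) ≠ 1 := by
      intro h
      have : u = 1 := Subtype.ext h
      rw [this, orderOf_one] at hu
      exact absurd hu (by norm_num)
    have key : ∃ i, (i = a ∨ i = b) ∧ ∀ t ∈ D.diagonalSubgroup F, (∀ j : Fin D.rank, rval t (simpF G j) = if (j : ℕ) = i then -1 else 1) →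
        ∃ h ∈ D.group F, h * (u : GL D.Idx F) * h⁻¹ = t := by
      rcases hok with hok | hok
      · obtain ⟨i, hi, h⟩ := conj_ti hD hmin cd hl (by omega) hok hF u.2 hu1 hu2
        exact ⟨i, by simpa using hi, h⟩
      · obtain ⟨i, hi, h⟩ := conj_ti hD hmin cd hl (by omega) hok hF u.2 hu1 hu2
        exact ⟨i, by simpa [or_comm] using hi, h⟩
    obtain ⟨i, hi, hconj⟩ := key
    rcases hi with rfl | rfl
    · obtain ⟨h, hh, hhx⟩ := hconj s hs hsi
      exact Or.inl (isConj_iff.mpr ⟨⟨h, hh⟩, Subtype.ext hhx⟩)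
    · obtain ⟨h, hh, hhx⟩ := hconj t ht hti
      exact Or.inr (isConj_iff.mpr ⟨⟨h, hh⟩, Subtype.ext hhx⟩)
  · rw [card_centralizer G]
    exact hA s hs hsi
  · rw [card_centralizer G]
    exact hB t ht hti

end Cfsg.Agent.Lib.ChevInv
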