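import Cfsg.Agent.Lib.ChevInv6
import Cfsg.Agent.Lib.ChevSL2
import Cfsg.Agent.Lib.ClSL2

set_option autoImplicit false

/-!
# Rank one subgroups of Chevalley groups; two commuting copies of SL2 (helper40)
-/

namespace Cfsg.Agent.Lib.ChevInv
open Cfsg.Lie Cfsg.Agent.Lib.ChevX Cfsg.Agent.Lib.ChevGood Cfsg.Agent.Lib.ChevRel Cfsg.Agent.Lib.ChevNPerm
  Cfsg.Agent.Lib.ChevPoinc Cfsg.Agent.Lib.ChevFix Cfsg.Agent.Lib.ChevHOrder Cfsg.Agent.Lib.ChevClosed Cfsg.Agent.Lib.ChevTorus
  Cfsg.Agent.Lib.ChevSS Cfsg.Agent.Lib.ChevTab Cfsg.Agent.Lib.ChevPoincChk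
open Cfsg.Agent.Lib.ChevBruhat (Listed exists_bruhat bruhat_unique diag_conj_XS inf_UH mem_borel mem_borel' borel_U borel_H)
open Cfsg.Agent.Lib.SL2Pres (E E' coe_E coe_E' coe_hh hh)
open scoped MatrixGroups Matrix

section abs
variable {Γ : Type*} [Group Γ] [Finite Γ] {F : Type*} [Field F] [Fintype F]

theorem sl2_central {a : SL(2, F)} (h1 : a * E 1 = E 1 * a) (h2 : a * E' 1 = E' 1 * a) : a = 1 ∨ a = -1 := by
  have e1 := congrArg (fun x : SL(2, F) => (x : Matrix (Fin 2) (Fin 2) F)) h1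
  have e2 := congrArg (fun x : SL(2, F) => (x : Matrix (Fin 2) (Fin 2) F)) h2
  have hdet := a.det_coe
  rw [Matrix.det_fin_two] at hdet
  simp only [Matrix.SpecialLinearGroup.coe_mul, coe_E, coe_E'] at e1 e2
  have f1 := congrFun (congrFun e1 0) 0
  have f2 := congrFun (congrFun e1 0) 1
  have f3 := congrFun (congrFun e2 0) 0
  simp [Matrix.mul_apply, Fin.sum_univ_two] at f1 f2 f3
  have g1 : (a : Matrix (Fin 2) (Fin 2) F) 1 0 = 0 := by exact f1
  have g2 : (a : Matrix (Fin 2) (Fin 2) F) 0 1 = 0 := by exact f3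
  have g3 : (a : Matrix (Fin 2) (Fin 2) F) 0 0 = (a : Matrix (Fin 2) (Fin 2) F) 1 1 := by linear_combination f2
  rw [g1, g2, ← g3] at hdet
  have h3 : (a : Matrix (Fin 2) (Fin 2) F) 0 0 * (a : Matrix (Fin 2) (Fin 2) F) 0 0 = 1 := by linear_combination hdet
  rcases mul_self_eq_one_iff.mp h3 with h | h
  · left
    apply Subtype.ext
    ext i j
    fin_cases i <;> fin_cases j <;> simp [g1, g2, h, ← g3]
  · right
    apply Subtype.ext
    ext i j
    fin_cases i <;> fin_cases j <;> simp [g1, g2, h, ← g3]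

theorem sl2_neg_ne (h2 : (2 : F) ≠ 0) : (-1 : SL(2, F)) ≠ 1 := by
  intro h
  have e := congrArg (fun x : SL(2, F) => (x : Matrix (Fin 2) (Fin 2) F) 0 0) h
  simp at e
  apply h2
  linear_combination -e

/-- **two commuting copies of `SL₂`** -/
theorem sl2sl2 (h2 : (2 : F) ≠ 0) (φ ψ : SL(2, F) →* Γ) (hφ : Function.Injective φ) (hψ : Function.Injective ψ)
    (hc : ∀ a b, φ a * ψ b = ψ b * φ a) {t : Γ} (h3 : φ (-1) = t) (h4 : ψ (-1) = t)
    (hcard : Nat.card (Subgroup.centralizer ({t} : Set Γ)) = Fintype.card F ^ 2 * (Fintype.card F ^ 2 - 1) ^ 2) :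
    ∃ L₁ L₂ : Subgroup Γ, Nonempty (L₁ ≃* SL(2, F)) ∧ Nonempty (L₂ ≃* SL(2, F)) ∧ (∀ x ∈ L₁, ∀ y ∈ L₂, x * y = y * x) ∧
      L₁ ⊓ L₂ = Subgroup.zpowers t ∧ L₁ ⊔ L₂ ≤ Subgroup.centralizer ({t} : Set Γ) ∧
      (L₁ ⊔ L₂).relIndex (Subgroup.centralizer ({t} : Set Γ)) = 2 := by
  classical
  have hF2 : 2 ≤ Fintype.card F := Fintype.one_lt_card
  have ht2 : t * t = 1 := by rw [← h3, ← map_mul]; simp
  have hint : ∀ a b, φ a = ψ b → a = 1 ∨ a = -1 := by
    intro a b hab
    apply sl2_central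
    · apply hφ
      rw [map_mul, map_mul, hab]
      exact (hc _ _).symm
    · apply hφ
      rw [map_mul, map_mul, hab]
      exact (hc _ _).symm
  have hle : φ.range ⊔ ψ.range ≤ Subgroup.centralizer ({t} : Set Γ) := by
    rw [sup_le_iff]
    constructor
    · rintro _ ⟨a, rfl⟩
      rw [Subgroup.mem_centralizer_singleton_iff, ← h4]
      exact hc _ _
    · rintro _ ⟨a, rfl⟩
      rw [Subgroup.mem_centralizer_singleton_iff, ← h3]
      exact (hc _ _).symm
  refine ⟨φ.range, ψ.range, ⟨(MonoidHom.ofInjective hφ).symm⟩, ⟨(MonoidHom.ofInjective hψ).symm⟩, ?_, ?_, hle, ?_⟩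
  · rintro _ ⟨a, rfl⟩ _ ⟨b, rfl⟩
    exact hc a b
  · ext x
    rw [Subgroup.mem_inf]
    constructor
    · rintro ⟨⟨a, rfl⟩, ⟨b, hb⟩⟩
      rcases hint a b hb.symm with rfl | rfl
      · rw [map_one]; exact one_mem _
      · rw [h3]; exact Subgroup.mem_zpowers t
    · intro hx
      have h5 : Subgroup.zpowers t ≤ φ.range ⊓ ψ.range := by
        rw [Subgroup.zpowers_le]
        exact ⟨⟨_, h3⟩, ⟨_, h4⟩⟩
      exact h5 hx
  · -- the order of the product
    let f : SL(2, F) × SL(2, F) →* Γ := MonoidHom.noncommCoprod φ ψ (fun a b => hc a b)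
    have hf : ∀ p, f p = φ p.1 * ψ p.2 := fun p => rfl
    have hrange : f.range = φ.range ⊔ ψ.range := by
      exact MonoidHom.noncommCoprod_range φ ψ _
    have hker : Nat.card f.ker = 2 := by
      have : f.ker = Subgroup.zpowers ((-1, -1) : SL(2, F) × SL(2, F)) := by
        ext ⟨a, b⟩
        rw [MonoidHom.mem_ker, hf, Subgroup.mem_zpowers_iff]
        constructor
        · intro h
          have h5 : φ a = ψ b⁻¹ := by rw [map_inv]; exact eq_inv_of_mul_eq_one_left h
          have h6 : a = b⁻¹ → ∃ k : ℤ, ((-1, -1) : SL(2, F) × SL(2, F)) ^ k = (a, b) := by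
            intro hab
            rcases hint a _ h5 with rfl | rfl
            · refine ⟨0, ?_⟩
              rw [zpow_zero, show b = 1 from by rw [← inv_inj, ← hab, inv_one]]; rfl
            · refine ⟨1, ?_⟩
              rw [zpow_one, show b = -1 from by rw [← inv_inj, ← hab]; simp]
          apply h6
          rcases hint a _ h5 with rfl | rfl
          · rw [map_one] at h5
            exact hψ (by rw [map_one, ← h5])
          · rw [h3, ← h4] at h5
            exact hψ h5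
        · rintro ⟨k, hk⟩
          have h5 : f ((-1, -1) : SL(2, F) × SL(2, F)) = 1 := by
            rw [hf]
            change φ (-1) * ψ (-1) = 1
            rw [h3, h4, ht2]
          rw [← hf, ← hk, map_zpow, h5, one_zpow]
      rw [this, Nat.card_zpowers]
      apply orderOf_eq_prime
      · apply Prod.ext <;> simp
      · intro h
        exact sl2_neg_ne h2 (congrArg Prod.fst h)
    have h5 := Subgroup.card_mul_index f.ker
    rw [Subgroup.index_ker, hker, Nat.card_prod, ClSL2.card_SL2 (F := F) rfl, hrange] at h5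
    have h6 := Subgroup.relIndex_mul_relIndex ⊥ (φ.range ⊔ ψ.range) (Subgroup.centralizer ({t} : Set Γ)) bot_le hle
    rw [Subgroup.relIndex_bot_left, Subgroup.relIndex_bot_left] at h6
    rw [hcard] at h6
    set q := Fintype.card F with hq
    have hpos : 0 < Nat.card (φ.range ⊔ ψ.range : Subgroup Γ) := Nat.card_pos
    apply Nat.eq_of_mul_eq_mul_left hpos
    rw [h6]
    rw [mul_comm _ 2, h5]
    ring

end abs

section
variable {D : ChevalleyDatum} {F : Type*} [Field F] (G : Good D)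
include G

/-- the rank one subgroup of a positive root is `SL₂` -/
theorem exists_sl2 (hD : Listed D) {r : ℕ} (hr : r < D.nroots) (hrp : Pos D ⟨r, hr⟩) {s : ℕ} (hs : s < D.nroots)
    (hrs : ∑ j ∈ Finset.range D.rank, co D r j * D.cartan j s = 1 ∨ ∑ j ∈ Finset.range D.rank, co D r j * D.cartan j s = -1) :
    ∃ φ : SL(2, F) →* GL D.Idx F, Function.Injective φ ∧ (∀ t, φ (E t) = xg D F r t) ∧ (∀ t, φ (E' t) = xg D F (D.neg r) t) ∧
      φ.range = Subgroup.closure (Set.range (xg D F r) ∪ Set.range (xg D F (D.neg r))) ∧ ∀ c, φ (hh E E' c) = hg D F r c := by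
  obtain ⟨φ, h1, h2, h3⟩ := SL2Pres.exists_hom (ChevSL2.isR1 G (F := F) hr)
  have hhc : ∀ c, φ (hh E E' c) = hg D F r c := by
    intro c
    change φ ((E c * E' (-c⁻¹) * E c) * (E (-1) * E' (-(-1)⁻¹) * E (-1))) = _
    simp only [map_mul, h1, h2]
    rfl
  refine ⟨φ, ?_, h1, h2, h3, hhc⟩
  rw [injective_iff_map_eq_one]
  intro a ha
  have hU : ∀ z, xg D F r z ∈ D.posUnipotent F := fun z => by
    rw [← XS_posS G]
    exact xg_mem_XS (A := posS D) (r := ⟨r, hr⟩) hrp z
  have hV : ∀ z, xg D F (D.neg r) z ∈ D.negUnipotent F := fun z => by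
    rw [← XS_negS G]
    refine xg_mem_XS (A := {r | ¬ Pos D r}) (r := negF G ⟨r, hr⟩) ?_ z
    change ¬ Pos D (negF G ⟨r, hr⟩)
    rw [pos_negF]
    exact not_not.mpr hrp
  have hdet := a.det_coe
  rw [Matrix.det_fin_two] at hdet
  by_cases hc : (a : Matrix (Fin 2) (Fin 2) F) 1 0 = 0
  · -- upper triangular
    set p := (a : Matrix (Fin 2) (Fin 2) F) 0 0 with hp
    have hp0 : p ≠ 0 := by
      intro h
      rw [hc, h] at hdet
      simp at hdet
    have hpinv : (a : Matrix (Fin 2) (Fin 2) F) 1 1 = p⁻¹ := by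
      rw [hc, mul_zero, sub_zero] at hdet
      exact eq_inv_of_mul_eq_one_right hdet
    have hdec : a = hh E E' p * E (p⁻¹ * (a : Matrix (Fin 2) (Fin 2) F) 0 1) := by
      apply Subtype.ext
      rw [Matrix.SpecialLinearGroup.coe_mul, coe_hh hp0, coe_E]
      ext i j
      fin_cases i <;> fin_cases j <;> simp [Matrix.mul_apply, Fin.sum_univ_two, hc, hpinv, ← hp, hp0]
    rw [hdec, map_mul, hhc, h1] at ha
    have h4 : hg D F r p = xg D F r (-(p⁻¹ * (a : Matrix (Fin 2) (Fin 2) F) 0 1)) := by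
      rw [ChevRel.xg_neg G]
      exact eq_inv_of_mul_eq_one_left ha
    have h5 : hg D F r p = 1 := inf_UH G hD (by rw [h4]; exact hU _) (ChevH.hg_mem G hr hp0)
    rw [h5, one_mul, ChevRel.xg_eq_one_iff G hr] at ha
    have h6 : p = 1 := by
      have h7 := hMat_eq G hr p hp0
      rw [← coe_hg G, h5] at h7
      have h8 := congrFun (congrFun h7 (Sum.inr ⟨s, hs⟩)) (Sum.inr ⟨s, hs⟩)
      rw [Units.val_one, Matrix.one_apply_eq, Matrix.diagonal_apply_eq, Sum.elim_inr] at h8
      rcases hrs with h9 | h9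
      · rw [h9, zpow_one] at h8; exact h8.symm
      · rw [h9, zpow_neg_one] at h8; exact inv_eq_one.mp h8.symm
    rw [hdec, ha, h6]
    apply Subtype.ext
    rw [Matrix.SpecialLinearGroup.coe_mul, coe_hh one_ne_zero, coe_E]
    ext i j
    fin_cases i <;> fin_cases j <;> simp [Matrix.mul_apply, Fin.sum_univ_two]
  · -- impossible
    exfalso
    set c := (a : Matrix (Fin 2) (Fin 2) F) 1 0 with hc0
    have hdec : a = E (((a : Matrix (Fin 2) (Fin 2) F) 0 0 - 1) / c) * E' c * E (((a : Matrix (Fin 2) (Fin 2) F) 1 1 - 1) / c) := by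
      apply Subtype.ext
      rw [Matrix.SpecialLinearGroup.coe_mul, Matrix.SpecialLinearGroup.coe_mul, coe_E, coe_E', coe_E]
      ext i j
      fin_cases i <;> fin_cases j <;> simp [Matrix.mul_apply, Fin.sum_univ_two, ← hc0] <;> field_simp <;>
        first | ring1 | linear_combination hdet | linear_combination -hdet
    rw [hdec, map_mul, map_mul, h1, h1, h2] at ha
    have h4 : xg D F (D.neg r) c = (xg D F r (((a : Matrix (Fin 2) (Fin 2) F) 0 0 - 1) / c))⁻¹ * (xg D F r (((a : Matrix (Fin 2) (Fin 2) F) 1 1 - 1) / c))⁻¹ := by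
      have : xg D F (D.neg r) c = (xg D F r (((a : Matrix (Fin 2) (Fin 2) F) 0 0 - 1) / c))⁻¹ * (xg D F r (((a : Matrix (Fin 2) (Fin 2) F) 0 0 - 1) / c) *
        xg D F (D.neg r) c * xg D F r (((a : Matrix (Fin 2) (Fin 2) F) 1 1 - 1) / c)) * (xg D F r (((a : Matrix (Fin 2) (Fin 2) F) 1 1 - 1) / c))⁻¹ := by group
      rw [this, ha]; group
    have h5 : xg D F (D.neg r) c = 1 := ChevBruhat.inf_BV G hD (borel_U G (by
      rw [h4]; exact mul_mem (inv_mem (hU _)) (inv_mem (hU _)))) (hV _)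
    exact hc ((ChevRel.xg_eq_one_iff G (neg_lt G hr) _).mp h5)

end

end Cfsg.Agent.Lib.ChevInv
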