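import Cfsg.Agent.Lib.ChevInv5
import Cfsg.Agent.Lib.ChevPoincE8

set_option autoImplicit false

/-! Certificates for the involutions of chevE8 (machine generated, helper40). -/

namespace Cfsg.Agent.Lib.ChevInvE8
open Cfsg.Lie Cfsg.Agent.Lib.ChevX Cfsg.Agent.Lib.ChevGood Cfsg.Agent.Lib.ChevRel Cfsg.Agent.Lib.ChevNPerm
open Cfsg.Agent.Lib.ChevTab Cfsg.Agent.Lib.ChevPoinc Cfsg.Agent.Lib.ChevPoincChk Cfsg.Agent.Lib.ChevInv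

set_option maxRecDepth 1000000

def mask : List ℕ := [4, 8, 9, 22, 40, 80, 160, 64]
def P : List ℕ := [0, 1, 1, 0, 2, 0, 1, 2, 3, 3, 3, 0, 2, 3, 3, 2, 4, 4, 1, 4, 2, 4, 4, 4, 4, 3, 3, 4, 4, 3, 4, 4, 5, 0, 1, 5, 5, 2, 5, 5, 5, 5, 3, 5, 3, 5, 5, 5, 5, 4, 4, 5, 5, 4, 5, 5, 5, 5, 4, 5, 4, 5, 5, 5, 6, 0, 6, 1, 6, 2, 2, 1, 6, 6, 6, 3, 3, 6, 2, 3, 6, 6, 4, 6, 4, 6, 6, 6, 3, 4, 4, 6, 6, 4, 6, 6, 6, 5, 5, 6, 6, 5, 6, 6, 6, 6, 5, 6, 5, 6, 6, 6, 4, 5, 5, 6, 6, 5, 6, 6, 6, 6, 5, 6, 5, 6, 6, 6, 0, 7, 7, 1, 2, 7, 2, 1, 3, 3, 7, 3, 7, 3, 2, 3, 7, 7, 7, 4, 4, 7, 4, 4, 3, 4, 7, 4, 7, 4, 4, 4, 7, 7, 5, 7, 5, 7, 7, 7, 5, 5, 5, 7, 7, 5, 7, 7, 4, 5, 7, 5, 7, 5, 5, 5, 7, 7, 7, 5, 5, 7, 5, 5, 7, 6, 6, 7, 7, 6, 7, 7, 7, 7, 6, 7, 6, 7, 7, 7, 6, 6, 6, 7, 7, 6, 7, 7, 7, 7, 6, 7, 6, 7, 7, 7, 5, 6, 7, 6,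 7, 6, 6, 6, 7, 7, 7, 6, 6, 7, 6, 6, 7, 7, 6, 7, 6, 7, 7, 7, 6, 6, 6, 7, 7, 6, 7, 7]
theorem orb : orbOK chevE8 8 28 mask P [0, 7] = true := by decide +kernel

def C : List (List ℤ) := [[2, 0, -1, 0, 0, 0, 0, 0], [0, 2, 0, -1, 0, 0, 0, 0], [-1, 0, 2, -1, 0, 0, 0, 0], [0, -1, -1, 2, -1, 0, 0, 0], [0, 0, 0, -1, 2, -1, 0, 0], [0, 0, 0, 0, -1, 2, -1, 0], [0, 0, 0, 0, 0, -1, 2, -1], [0, 0, 0, 0, 0, 0, -1, 2]]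

def gs7 : List (List ℕ × ℕ) := [([], 6), ([], 5), ([], 4), ([], 3), ([], 2), ([], 1), ([], 0), ([7, 6, 5, 4, 3, 1, 2, 0, 3, 2, 4, 3, 1, 5, 4, 3, 2, 0, 6, 5, 4, 3, 1, 2, 3, 4, 5, 6], 7)]
def L7 : List (List ℤ × ℕ × ℕ) := [([0, 0, 0, 0, 0, 0, 0, 1], 0, 0), ([0, 0, 0, 0, 0, 0, 0, -1], 0, 7)]
theorem ok7 : invOK chevE8 (rvT ChevDataE8.A) 120 8 7 [162, 141, 135, 130, 126, 123, 121, 120] ChevDataE8.W C gs7 L7 = true := by decide +kernel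
theorem nv7 : (L7.map fun v => nvc (rvT ChevDataE8.A) 120 7 v.1) = [0, 1] := by decide +kernel
theorem np7 : npc (rvT ChevDataE8.A) 120 7 = 64 := by decide +kernel

theorem poinc7 (G : Good chevE8) (q : ℤ) (hq : 2 ≤ q) :
    (q - 1) ^ 7 * PP (WJ G {i | i ∈ ([0, 1, 2, 3, 4, 5, 6] : List ℕ)}) q = (q ^ 2 - 1) * (q ^ 6 - 1) * (q ^ 8 - 1) * (q ^ 10 - 1) * (q ^ 12 - 1) * (q ^ 14 - 1) * (q ^ 18 - 1) := by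
  have hne : ∀ d : ℕ, 0 < d → q ^ d - 1 ≠ 0 := by
    intro d hd h
    have h1 : (2 : ℤ) ^ d ≤ q ^ d := pow_le_pow_left₀ (by norm_num) hq d
    have h2 : (2 : ℤ) ^ 1 ≤ 2 ^ d := pow_le_pow_right₀ (by norm_num) hd
    linarith
  have t7 : (q - 1) ^ 0 * PP (WJ G {i | i ∈ ([] : List ℕ)}) q = 1 := by
    have h : ({i | i ∈ ([] : List ℕ)} : Set ℕ) = ∅ := by ext i; simp
    rw [h, PP_empty G, pow_zero, one_mul]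
  have p6 : PP (WJ G {i | i ∈ ([2] : List ℕ)}) q = (q ^ 0 + q ^ 1) * PP (WJ G {i | i ∈ ([] : List ℕ)}) q := by
    rw [step_sound G (n2 := 120) (l := 8) (m := 2) (SL := [162, 141, 135, 130, 126, 123, 121, 120]) (W := ChevDataE8.W) rfl rfl ChevPoincE8.simple_eq rfl ChevPoincE8.refl_eq ChevPoincE8.s7 q, hist_sound ChevPoincE8.h7]
    congr 1
    simp only [ChevPoincE8.C7, List.length_cons, List.length_nil, Finset.sum_range_succ, Finset.sum_range_zero, nth]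
    push_cast; ring
  have t6 : (q - 1) ^ 1 * PP (WJ G {i | i ∈ ([2] : List ℕ)}) q = (q ^ 2 - 1) := by
    rw [p6]
    have e : (q ^ 0 + q ^ 1) * (q - 1) = (q ^ 2 - 1) := by ring
    linear_combination (q ^ 0 + q ^ 1) * (q - 1) * t7 + (1) * e
  have p5 : PP (WJ G {i | i ∈ ([2, 3] : List ℕ)}) q = (q ^ 0 + q ^ 1 + q ^ 2) * PP (WJ G {i | i ∈ ([2] : List ℕ)}) q := by
    rw [step_sound G (n2 := 120) (l := 8) (m := 3) (SL := [162, 141, 135, 130, 126, 123, 121, 120]) (W := ChevDataE8.W) rfl rfl ChevPoincE8.simple_eq rfl ChevPoincE8.refl_eq ChevPoincE8.s6 q, hist_sound ChevPoincE8.h6]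
    congr 1
    simp only [ChevPoincE8.C6, List.length_cons, List.length_nil, Finset.sum_range_succ, Finset.sum_range_zero, nth]
    push_cast; ring
  have t5 : (q - 1) ^ 2 * PP (WJ G {i | i ∈ ([2, 3] : List ℕ)}) q = (q ^ 2 - 1) * (q ^ 3 - 1) := by
    rw [p5]
    have e : (q ^ 0 + q ^ 1 + q ^ 2) * (q - 1) = (q ^ 3 - 1) := by ring
    linear_combination (q ^ 0 + q ^ 1 + q ^ 2) * (q - 1) * t6 + ((q ^ 2 - 1)) * e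
  have p4 : PP (WJ G {i | i ∈ ([2, 3, 4] : List ℕ)}) q = (q ^ 0 + q ^ 1 + q ^ 2 + q ^ 3) * PP (WJ G {i | i ∈ ([2, 3] : List ℕ)}) q := by
    rw [step_sound G (n2 := 120) (l := 8) (m := 4) (SL := [162, 141, 135, 130, 126, 123, 121, 120]) (W := ChevDataE8.W) rfl rfl ChevPoincE8.simple_eq rfl ChevPoincE8.refl_eq ChevPoincE8.s5 q, hist_sound ChevPoincE8.h5]
    congr 1
    simp only [ChevPoincE8.C5, List.length_cons, List.length_nil, Finset.sum_range_succ, Finset.sum_range_zero, nth]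
    push_cast; ring
  have t4 : (q - 1) ^ 3 * PP (WJ G {i | i ∈ ([2, 3, 4] : List ℕ)}) q = (q ^ 2 - 1) * (q ^ 3 - 1) * (q ^ 4 - 1) := by
    rw [p4]
    have e : (q ^ 0 + q ^ 1 + q ^ 2 + q ^ 3) * (q - 1) = (q ^ 4 - 1) := by ring
    linear_combination (q ^ 0 + q ^ 1 + q ^ 2 + q ^ 3) * (q - 1) * t5 + ((q ^ 2 - 1) * (q ^ 3 - 1)) * e
  have p3 : PP (WJ G {i | i ∈ ([1, 2, 3, 4] : List ℕ)}) q = (q ^ 0 + q ^ 1 + q ^ 2 + 2 * q ^ 3 + q ^ 4 + q ^ 5 + q ^ 6) * PP (WJ G {i | i ∈ ([2, 3, 4] : List ℕ)}) q := by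
    rw [step_sound G (n2 := 120) (l := 8) (m := 8) (SL := [162, 141, 135, 130, 126, 123, 121, 120]) (W := ChevDataE8.W) rfl rfl ChevPoincE8.simple_eq rfl ChevPoincE8.refl_eq ChevPoincE8.s4 q, hist_sound ChevPoincE8.h4]
    congr 1
    simp only [ChevPoincE8.C4, List.length_cons, List.length_nil, Finset.sum_range_succ, Finset.sum_range_zero, nth]
    push_cast; ring
  have t3 : (q - 1) ^ 4 * PP (WJ G {i | i ∈ ([1, 2, 3, 4] : List ℕ)}) q = (q ^ 2 - 1) * (q ^ 4 - 1) * (q ^ 4 - 1) * (q ^ 6 - 1) := by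
    have hd : (q ^ 3 - 1) ≠ 0 := (hne 3 (by norm_num))
    apply mul_left_cancel₀ hd
    rw [p3]
    have e : (q ^ 0 + q ^ 1 + q ^ 2 + 2 * q ^ 3 + q ^ 4 + q ^ 5 + q ^ 6) * (q - 1) * ((q ^ 3 - 1)) = (q ^ 4 - 1) * (q ^ 6 - 1) := by ring
    linear_combination ((q ^ 3 - 1)) * (q ^ 0 + q ^ 1 + q ^ 2 + 2 * q ^ 3 + q ^ 4 + q ^ 5 + q ^ 6) * (q - 1) * t4 + ((q ^ 2 - 1) * (q ^ 4 - 1)) * e
  have p2 : PP (WJ G {i | i ∈ ([0, 1, 2, 3, 4] : List ℕ)}) q = (q ^ 0 + q ^ 1 + q ^ 2 + q ^ 3 + 2 * q ^ 4 + q ^ 5 + q ^ 6 + q ^ 7 + q ^ 8) * PP (WJ G {i | i ∈ ([1, 2, 3, 4] : List ℕ)}) q := by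
    rw [step_sound G (n2 := 120) (l := 8) (m := 10) (SL := [162, 141, 135, 130, 126, 123, 121, 120]) (W := ChevDataE8.W) rfl rfl ChevPoincE8.simple_eq rfl ChevPoincE8.refl_eq ChevPoincE8.s3 q, hist_sound ChevPoincE8.h3]
    congr 1
    simp only [ChevPoincE8.C3, List.length_cons, List.length_nil, Finset.sum_range_succ, Finset.sum_range_zero, nth]
    push_cast; ring
  have t2 : (q - 1) ^ 5 * PP (WJ G {i | i ∈ ([0, 1, 2, 3, 4] : List ℕ)}) q = (q ^ 2 - 1) * (q ^ 4 - 1) * (q ^ 5 - 1) * (q ^ 6 - 1) * (q ^ 8 - 1) := by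
    have hd : (q ^ 4 - 1) ≠ 0 := (hne 4 (by norm_num))
    apply mul_left_cancel₀ hd
    rw [p2]
    have e : (q ^ 0 + q ^ 1 + q ^ 2 + q ^ 3 + 2 * q ^ 4 + q ^ 5 + q ^ 6 + q ^ 7 + q ^ 8) * (q - 1) * ((q ^ 4 - 1)) = (q ^ 5 - 1) * (q ^ 8 - 1) := by ring
    linear_combination ((q ^ 4 - 1)) * (q ^ 0 + q ^ 1 + q ^ 2 + q ^ 3 + 2 * q ^ 4 + q ^ 5 + q ^ 6 + q ^ 7 + q ^ 8) * (q - 1) * t3 + ((q ^ 2 - 1) * (q ^ 4 - 1) * (q ^ 6 - 1)) * e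
  have p1 : PP (WJ G {i | i ∈ ([0, 1, 2, 3, 4, 5] : List ℕ)}) q = (q ^ 0 + q ^ 1 + q ^ 2 + q ^ 3 + 2 * q ^ 4 + 2 * q ^ 5 + 2 * q ^ 6 + 2 * q ^ 7 + 3 * q ^ 8 + 2 * q ^ 9 + 2 * q ^ 10 + 2 * q ^ 11 + 2 * q ^ 12 + q ^ 13 + q ^ 14 + q ^ 15 + q ^ 16) * PP (WJ G {i | i ∈ ([0, 1, 2, 3, 4] : List ℕ)}) q := by
    rw [step_sound G (n2 := 120) (l := 8) (m := 27) (SL := [162, 141, 135, 130, 126, 123, 121, 120]) (W := ChevDataE8.W) rfl rfl ChevPoincE8.simple_eq rfl ChevPoincE8.refl_eq ChevPoincE8.s2 q, hist_sound ChevPoincE8.h2]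
    congr 1
    simp only [ChevPoincE8.C2, List.length_cons, List.length_nil, Finset.sum_range_succ, Finset.sum_range_zero, nth]
    push_cast; ring
  have t1 : (q - 1) ^ 6 * PP (WJ G {i | i ∈ ([0, 1, 2, 3, 4, 5] : List ℕ)}) q = (q ^ 2 - 1) * (q ^ 5 - 1) * (q ^ 6 - 1) * (q ^ 8 - 1) * (q ^ 9 - 1) * (q ^ 12 - 1) := by
    have hd : (q ^ 4 - 1) ≠ 0 := (hne 4 (by norm_num))
    apply mul_left_cancel₀ hd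
    rw [p1]
    have e : (q ^ 0 + q ^ 1 + q ^ 2 + q ^ 3 + 2 * q ^ 4 + 2 * q ^ 5 + 2 * q ^ 6 + 2 * q ^ 7 + 3 * q ^ 8 + 2 * q ^ 9 + 2 * q ^ 10 + 2 * q ^ 11 + 2 * q ^ 12 + q ^ 13 + q ^ 14 + q ^ 15 + q ^ 16) * (q - 1) * ((q ^ 4 - 1)) = (q ^ 9 - 1) * (q ^ 12 - 1) := by ring
    linear_combination ((q ^ 4 - 1)) * (q ^ 0 + q ^ 1 + q ^ 2 + q ^ 3 + 2 * q ^ 4 + 2 * q ^ 5 + 2 * q ^ 6 + 2 * q ^ 7 + 3 * q ^ 8 + 2 * q ^ 9 + 2 * q ^ 10 + 2 * q ^ 11 + 2 * q ^ 12 + q ^ 13 + q ^ 14 + q ^ 15 + q ^ 16) * (q - 1) * t2 + ((q ^ 2 - 1) * (q ^ 5 - 1) * (q ^ 6 - 1) * (q ^ 8 - 1)) * e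
  have p0 : PP (WJ G {i | i ∈ ([0, 1, 2, 3, 4, 5, 6] : List ℕ)}) q = (q ^ 0 + q ^ 1 + q ^ 2 + q ^ 3 + q ^ 4 + 2 * q ^ 5 + 2 * q ^ 6 + 2 * q ^ 7 + 2 * q ^ 8 + 3 * q ^ 9 + 3 * q ^ 10 + 3 * q ^ 11 + 3 * q ^ 12 + 3 * q ^ 13 + 3 * q ^ 14 + 3 * q ^ 15 + 3 * q ^ 16 + 3 * q ^ 17 + 3 * q ^ 18 + 2 * q ^ 19 + 2 * q ^ 20 + 2 * q ^ 21 + 2 * q ^ 22 + q ^ 23 + q ^ 24 + q ^ 25 + q ^ 26 + q ^ 27) * PP (WJ G {i | i ∈ ([0, 1, 2, 3, 4, 5] : List ℕ)}) q := by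
    rw [step_sound G (n2 := 120) (l := 8) (m := 56) (SL := [162, 141, 135, 130, 126, 123, 121, 120]) (W := ChevDataE8.W) rfl rfl ChevPoincE8.simple_eq rfl ChevPoincE8.refl_eq ChevPoincE8.s1 q, hist_sound ChevPoincE8.h1]
    congr 1
    simp only [ChevPoincE8.C1, List.length_cons, List.length_nil, Finset.sum_range_succ, Finset.sum_range_zero, nth]
    push_cast; ring
  have t0 : (q - 1) ^ 7 * PP (WJ G {i | i ∈ ([0, 1, 2, 3, 4, 5, 6] : List ℕ)}) q = (q ^ 2 - 1) * (q ^ 6 - 1) * (q ^ 8 - 1) * (q ^ 10 - 1) * (q ^ 12 - 1) * (q ^ 14 - 1) * (q ^ 18 - 1) := by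
    have hd : (q ^ 5 - 1) * (q ^ 9 - 1) ≠ 0 := (mul_ne_zero (hne 5 (by norm_num)) (hne 9 (by norm_num)))
    apply mul_left_cancel₀ hd
    rw [p0]
    have e : (q ^ 0 + q ^ 1 + q ^ 2 + q ^ 3 + q ^ 4 + 2 * q ^ 5 + 2 * q ^ 6 + 2 * q ^ 7 + 2 * q ^ 8 + 3 * q ^ 9 + 3 * q ^ 10 + 3 * q ^ 11 + 3 * q ^ 12 + 3 * q ^ 13 + 3 * q ^ 14 + 3 * q ^ 15 + 3 * q ^ 16 + 3 * q ^ 17 + 3 * q ^ 18 + 2 * q ^ 19 + 2 * q ^ 20 + 2 * q ^ 21 + 2 * q ^ 22 + q ^ 23 + q ^ 24 + q ^ 25 + q ^ 26 + q ^ 27) * (q - 1) * ((q ^ 5 - 1) * (q ^ 9 - 1)) = (q ^ 10 - 1) * (q ^ 14 - 1) * (q ^ 18 - 1) := by ring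
    linear_combination ((q ^ 5 - 1) * (q ^ 9 - 1)) * (q ^ 0 + q ^ 1 + q ^ 2 + q ^ 3 + q ^ 4 + 2 * q ^ 5 + 2 * q ^ 6 + 2 * q ^ 7 + 2 * q ^ 8 + 3 * q ^ 9 + 3 * q ^ 10 + 3 * q ^ 11 + 3 * q ^ 12 + 3 * q ^ 13 + 3 * q ^ 14 + 3 * q ^ 15 + 3 * q ^ 16 + 3 * q ^ 17 + 3 * q ^ 18 + 2 * q ^ 19 + 2 * q ^ 20 + 2 * q ^ 21 + 2 * q ^ 22 + q ^ 23 + q ^ 24 + q ^ 25 + q ^ 26 + q ^ 27) * (q - 1) * t1 + ((q ^ 2 - 1) * (q ^ 6 - 1) * (q ^ 8 - 1) * (q ^ 12 - 1)) * e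
  exact t0

def gs0 : List (List ℕ × ℕ) := [([], 7), ([], 6), ([], 5), ([], 4), ([], 3), ([], 2), ([], 1), ([0, 2, 3, 1, 4, 3, 2, 0, 5, 4, 3, 1, 2, 3, 4, 5], 6)]
def L0 : List (List ℤ × ℕ × ℕ) := [([1, 0, 0, 0, 0, 0, 0, 0], 0, 0), ([-1, 0, 0, 0, 0, 0, 0, 2], 0, 7), ([-1, 0, 0, 0, 0, 0, 2, -2], 1, 0), ([-1, 0, 0, 0, 0, 2, -2, 0], 2, 1), ([-1, 0, 0, 0, 2, -2, 0, 0], 3, 2), ([-1, 0, 0, 2, -2, 0, 0, 0], 4, 3), ([-1, 2, 2, -2, 0, 0, 0, 0], 5, 4), ([1, 2, -2, 0, 0, 0, 0, 0], 6, 5), ([-1, -2, 2, 0, 0, 0, 0, 0], 6, 6), ([1, -2, -2, 2, 0, 0, 0, 0], 7, 6), ([1, 0, 0, -2, 2, 0, 0, 0], 9, 4), ([1, 0, 0, 0, -2, 2, 0, 0], 10, 3), ([1, 0, 0, 0, 0, -2, 2, 0], 11, 2), ([1, 0, 0, 0, 0, 0, -2, 2], 12, 1), ([1, 0, 0, 0, 0, 0, 0, -2], 13, 0), ([-1, 0, 0, 0, 0, 0, 0, 0], 14, 7)]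
theorem ok0 : invOK chevE8 (rvT ChevDataE8.A) 120 8 0 [162, 141, 135, 130, 126, 123, 121, 120] ChevDataE8.W C gs0 L0 = true := by decide +kernel
theorem nv0 : (L0.map fun v => nvc (rvT ChevDataE8.A) 120 0 v.1) = [0, 1, 2, 3, 4, 5, 6, 7, 7, 8, 9, 10, 11, 12, 13, 14] := by decide +kernel
theorem np0 : npc (rvT ChevDataE8.A) 120 0 = 56 := by decide +kernel

def X0_0 : List Ent := [
  (0xefeeedecebeae9e8e7e6e5e4e3e2e1e0dfdedddcdbdad9d8d7d6d5d4d3d2d1d0cfcecdcccbcac9c8c7c6c5c4c3c2c1c0bfbebdbcbbbab9b8b7b6b5b4b3b2b1b0afaeadacabaaa9a8a7a6a5a4a3a2a1a09f9e9d9c9b9a999897969594939291908f8e8d8c8b8a898887868584838281807f7e7d7c7b7a7978, 0, 0, [0, 0, 0, 0, 0, 0, 0, 1], 0x78797b7e82878da2),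
  (0xeeefedecebeae9e8e7e6e5e4e2e3e1e0dfdedddbdcdad9d8d6d7d5d4d2d3d1cfd0cdcecccbcac8c9c7c5c6c3c4c2c1bfc0bdbebcbabbb9b8b7b5b6b3b4b2b0b1afaeacadabaaa9a7a8a6a5a4a3a2a19fa09d9e9c9a9b999896979594939192908f8e8d8b8c8a898887858684838280817f7e7c7d7b797a77, 0, 7, [0, 0, 0, 0, 0, 0, 2, 0], 0x777a7b7e82878da2),
  (0xedefeeecebeae9e8e7e6e5e3e2e4e1e0dfdedcdbdddad9d7d6d8d5d3d2d4d0cfd1cccecdcbc9c8cac6c5c7c2c4c3c0bfc1bcbebdb9bbbab8b6b5b7b2b4b3afb1b0aeabadacaaa9a6a8a7a5a4a3a2a09fa19c9e9d999b9a9895979694939092918f8e8d8a8c8b89888784868583827f81807e7b7d7c767875, 1, 6, [0, 0, 0, 0, 0, 3, 1, 0], 0x75787c7e82878da2),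
  (0xecefeeedebeae9e8e7e6e4e3e2e5e1e0dfdddcdbdedad8d7d6d9d4d3d2d5cecdd1ccd0cfcac9c8cbc4c3c7c2c6c5bebdc1bcc0bfb8bbbab9b4b3b7b2b6b5aeb1b0afaaadacaba9a5a8a7a6a4a3a29e9da19ca09f989b9a9994979695938f9291908e8d898c8b8a888783868584827e81807f747a79737872, 2, 5, [0, 0, 0, 0, 4, 2, 0, 0], 0x7278797f82878da2),
  (0xebefeeedeceae9e8e7e5e4e3e2e6e1e0dedddcdbdfd9d8d7d6dad1d0cfd5cecdd4ccd3d2c7c6c5cbc4c3cac2c9c8bbbac1b9c0bfb8bebdbcb1b0b7afb6b5aeb4b3b2a9adacabaaa4a8a7a6a5a3a29b9aa199a09f989e9d9c93979695948e9291908f8d888c8b8a89878286858483717d7c7b707a796f786e, 3, 4, [0, 0, 0, 5, 3, 0, 0, 0], 0x6e78797b83878da2),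
  (0xeaefeeedecebe9e8e6e5e4e3e2e7e1dfdedddcdbe0d5d4d3d2dad1d0cfd9cecdd8ccd7d6c1c0bfcbbebdcabcc9c8bbbac7b9c6c5b8c4c3c2adacb7abb6b5aab4b3b2a9b1b0afaea3a8a7a6a5a4a29796a195a09f949e9d9c939b9a99988d9291908f8e878c8b8a89886d81807f7e6c7d7c7b6b7a796a7869, 4, 3, [0, 6, 7, 4, 0, 0, 0, 0], 0x6978797b7e888ea2),
  (0xe8efeeedecebe7eae6e5e4e3e2e9e0dfdedddcdbe1cbcac9c8dac7c6c5d9c4c3d8c2d7d6c1c0bfd5bebdd4bcd3d2bbbad1b9d0cfb8cecdcca8a7b7a6b6b5a5b4b3b2a4b1b0afaea3adacabaaa9a28c8ba18aa09f899e9d9c889b9a99986286858483828797969594936181807f7e607d7c7b5f7a795e785d, 5, 1, [0, 5, 8, 0, 0, 0, 0, 0], 0x5d78797b7e9382a2),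
  (0xe9efeeedecebeae7e6e5e4e3e2e8e1dad9d8d7d6e0d5d4d3d2dfd1d0cfdececdddccdcdbb7b6b5cbb4b3cab2c9c8b1b0c7afc6c5aec4c3c2adacc1abc0bfaabebdbca9bbbab9b8a2a8a7a6a5a4a39291a190a09f8f9e9d9c8e9b9a99988d97969594936886858483826781807f7e667d7c7b657a79647863, 5, 2, [0, 8, 5, 0, 0, 0, 0, 0], 0x6378797b7e8293a3),
  (0xe7efeeedecebe8e9e6e5e4e3e2eae0dad9d8d7d6e1cbcac9c8dfc7c6c5dec4c3ddc2dcdbb7b6b5d5b4b3d4b2d3d2b1b0d1afd0cfaececdcca8a7c1a6c0bfa5bebdbca4bbbab9b8a2adacabaaa9a38685a184a09f839e9d9c829b9a9998628c8b8a8988689291908f8e5c81807f7e5b7d7c7b5a7a79597858, 6, 2, [0, 7, 6, 9, 0, 0, 0, 0], 0x5878797b7e8e88a3),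
  (0xe6efeeedeceae8e9e7e5e4e3e2ebdfdad5d4d3d2e1cbcac9c8e0c1c0bfdebebdddbcdcdbb7b6b5d9b4b3d8b2d7d6adacd1abd0cfaacecdcca8a7c7a6c6c5a5c4c3c2a3bbbab9b8a2b1b0afaea9a48180a17fa09f7e9e9d9c6d97969594618c8b8a8987679291908f8d5c86858483577d7c7b567a79557854, 8, 3, [0, 0, 0, 8, 10, 0, 0, 0], 0x5478797b838d87a4),
  (0xe5efeeedebeae8e9e7e6e4e3e2ecded9d5d1d0cfe1cbc7c6c5e0c1c0bfdfbbbaddb9dcdbb7b6b5dab1b0d8afd7d6adacd4abd3d2a9cecdcca8a7caa6c9c8a4c4c3c2a3bebdbcb8a2b4b3b2aeaaa57d7ca17ba09f719b9a996c97969593608c8b8a8887669291908e8d5b868584825781807f537a79527851, 9, 4, [0, 0, 0, 0, 9, 11, 0, 0], 0x5178797f828d87a5),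
  (0xe4efeeecebeae8e9e7e6e5e3e2edddd8d4d1cecde1cac7c4c3e0c1bebddfbbbadeb8dcdbb7b4b3dab1b0d9aed7d6adacd5aad3d2a9d0cfcca8a7cba5c9c8a4c6c5c2a3c0bfbcb9a2b6b5b2afaba67a79a1749e9d709b9a986b979694935f8c8b8988876592918f8e8d5a868583825681807e537d7c50784f, 10, 5, [0, 0, 0, 0, 0, 10, 12, 0], 0x4f787c7e828d87a6),
  (0xe3efedecebeae8e9e7e6e5e4e2eedcd7d3d0cecce1c9c6c4c2e0c0bebcdfbbb9deb8dddbb6b4b2dab1afd9aed8d6adabd5aad4d2a9d1cfcda8a6cba5cac8a4c7c5c3a3c1bfbdbaa2b7b5b3b0aca77876a0739e9c6f9b99986a979594935e8c8a8988876492908f8e8d598684838255817f7e527d7b507a4e, 11, 6, [0, 0, 0, 0, 0, 0, 11, 13], 0x4e7a7b7e828d87a7),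
  (0xe2eeedecebeae8e9e7e6e5e4e3efdbd6d2cfcdcce1c8c5c3c2e0bfbdbcdfbab9deb8dddcb5b3b2dab0afd9aed8d7acabd5aad4d3a9d1d0cea7a6cba5cac9a4c7c6c4a3c1c0bebba2b7b6b4b1ada877759f729d9c6e9a999869969594935d8b8a8988876391908f8e8d588584838254807f7e517c7b4f794e, 12, 7, [0, 0, 0, 0, 0, 0, 0, 12], 0x4e797b7e828d87a8)]
def V0_0 : List ℕ := [0, 1, 2, 3, 4, 5, 6, 6, 7, 8, 9, 10, 11, 12]
def C0_0 : List ℕ := [1, 1, 1, 1, 1, 1, 2, 1, 1, 1, 1, 1, 1]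
theorem s0_0 : stepOK 120 8 14 [162, 141, 135, 130, 126, 123, 121, 120] ChevDataE8.W [1, 2, 3, 4, 5, 6, 7] [1, 2, 3, 4, 5, 6] X0_0 = true := by decide +kernel
theorem h0_0 : histOK 120 X0_0 V0_0 C0_0 = true := by decide +kernel

def X0_1 : List Ent := [
  (0xefeeedecebeae9e8e7e6e5e4e3e2e1e0dfdedddcdbdad9d8d7d6d5d4d3d2d1d0cfcecdcccbcac9c8c7c6c5c4c3c2c1c0bfbebdbcbbbab9b8b7b6b5b4b3b2b1b0afaeadacabaaa9a8a7a6a5a4a3a2a1a09f9e9d9c9b9a999897969594939291908f8e8d8c8b8a898887868584838281807f7e7d7c7b7a7978, 0, 0, [0, 0, 0, 0, 0, 0, 1], 0x78797b7e82878da2),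
  (0xefedeeecebeae9e8e7e6e5e3e4e2e1e0dfdedcdddbdad9d7d8d6d5d3d4d2d0d1cfcecccdcbc9cac8c6c7c5c4c2c3c0c1bfbebcbdbbb9bab8b6b7b5b4b2b3b1afb0aeadabacaaa9a8a6a7a5a4a3a2a0a19f9e9c9d9b999a9897959694939290918f8e8d8c8a8b8988878684858382817f807e7d7b7c78767a, 0, 6, [0, 0, 0, 0, 0, 2, 0], 0x7a767c7e82878da2),
  (0xefeceeedebeae9e8e7e6e4e3e5e2e1e0dfdddcdedbdad8d7d9d6d4d3d5d2ced1cdd0cccfcac9cbc8c4c7c3c6c2c5bec1bdc0bcbfbbb8bab9b4b7b3b6b2b5b1aeb0afadaaacaba9a8a5a7a6a4a3a29ea19da09c9f9b989a999794969593928f91908e8d8c898b8a88878683858482817e807f7a747978737d, 1, 5, [0, 0, 0, 0, 3, 1, 0], 0x7d73797f82878da2),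
  (0xefebeeedeceae9e8e7e5e4e3e6e2e1e0dedddcdfdbd9d8d7dad6d1d0d5cfced4cdd3ccd2c7c6cbc5c4cac3c9c2c8bbc1bac0b9bfbeb8bdbcb1b7b0b6afb5b4aeb3b2ada9acabaaa8a4a7a6a5a3a29ba19aa0999f9e989d9c9793969594928e91908f8d8c888b8a898786828584837d717c7b7a7079786f81, 2, 4, [0, 0, 0, 4, 2, 0, 0], 0x816f797b83878da2),
  (0xefeaeeedecebe9e8e6e5e4e3e7e2e1dfdedddce0dbd5d4d3dad2d1d0d9cfced8cdd7ccd6c1c0cbbfbecabdc9bcc8bbc7bac6b9c5c4b8c3c2adb7acb6abb5b4aab3b2b1a9b0afaea8a3a7a6a5a4a297a196a0959f9e949d9c9b939a9998928d91908f8e8c878b8a8988816d807f7e7d6c7c7b7a6b79786a86, 3, 3, [0, 5, 6, 3, 0, 0, 0], 0x866a797b7e888ea2),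
  (0xefe8eeedecebe7eae6e5e4e3e9e2e0dfdedddce1dbcbcac9dac8c7c6d9c5c4d8c3d7c2d6c1c0d5bfbed4bdd3bcd2bbd1bad0b9cfceb8cdcca8b7a7b6a6b5b4a5b3b2b1a4b0afaeada3acabaaa9a28ca18ba08a9f9e899d9c9b889a99988662858483829787969594938161807f7e7d607c7b7a5f79785e92, 4, 1, [0, 4, 7, 0, 0, 0, 0], 0x925e797b7e9382a2),
  (0xefe9eeedecebeae7e6e5e4e3e8e2e1dad9d8d7e0d6d5d4d3dfd2d1d0decfceddcddcccdbb7b6cbb5b4cab3c9b2c8b1c7b0c6afc5c4aec3c2adc1acc0abbfbeaabdbcbba9bab9b8a8a2a7a6a5a4a392a191a0909f9e8f9d9c9b8e9a9998978d969594938668858483828167807f7e7d667c7b7a657978648c, 4, 2, [0, 7, 4, 0, 0, 0, 0], 0x8c64797b7e8293a3),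
  (0xefe7eeedecebe8e9e6e5e4e3eae2e0dad9d8d7e1d6cbcac9dfc8c7c6dec5c4ddc3dcc2dbb7b6d5b5b4d4b3d3b2d2b1d1b0d0afcfceaecdcca8c1a7c0a6bfbea5bdbcbba4bab9b8ada2acabaaa9a386a185a0849f9e839d9c9b829a99988c628b8a8988926891908f8e815c807f7e7d5b7c7b7a5a79785997, 5, 2, [0, 6, 5, 8, 0, 0, 0], 0x9759797b7e8e88a3),
  (0xefe6eeedeceae8e9e7e5e4e3ebe2dfdad5d4d3e1d2cbcac9e0c8c1c0debfbeddbddcbcdbb7b6d9b5b4d8b3d7b2d6add1acd0abcfceaacdcca8c7a7c6a6c5c4a5c3c2bba3bab9b8b1a2b0afaea9a481a180a07f9f9e7e9d9c976d9695948c618b8a8987926791908f8d865c8584837d577c7b7a567978559b, 7, 3, [0, 0, 0, 7, 9, 0, 0], 0x9b55797b838d87a4),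
  (0xefe5eeedebeae8e9e7e6e4e3ece2ded9d5d1d0e1cfcbc7c6e0c5c1c0dfbfbbddbadcb9dbb7b6dab5b1d8b0d7afd6add4acd3abd2cea9cdcca8caa7c9a6c8c4a4c3c2bea3bdbcb8b4a2b3b2aeaaa57da17ca07b9f9b719a99976c9695938c608b8a8887926691908e8d865b8584828157807f7a537978529e, 8, 4, [0, 0, 0, 0, 8, 10, 0], 0x9e52797f828d87a5),
  (0xefe4eeecebeae8e9e7e6e5e3ede2ddd8d4d1cee1cdcac7c4e0c3c1bedfbdbbdebadcb8dbb7b4dab3b1d9b0d7aed6add5acd3aad2d0a9cfcca8cba7c9a5c8c6a4c5c2c0a3bfbcb9b6a2b5b2afaba67aa1799e749d9b709a98976b9694938c5f8b8988879265918f8e8d865a8583828156807e7d537c7850a0, 9, 5, [0, 0, 0, 0, 0, 9, 11], 0xa0507c7e828d87a6),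
  (0xefe3edecebeae8e9e7e6e5e4eee2dcd7d3d0cee1ccc9c6c4e0c2c0bedfbcbbdeb9ddb8dbb6b4dab2b1d9afd8aed6add5abd4aad2d1a9cfcda8cba6caa5c8c7a4c5c3c1a3bfbdbab7a2b5b3b0aca778a0769e739c9b6f9998976a9594938c5e8a8988879264908f8e8d865984838281557f7e7d527b7a50a1, 10, 6, [0, 0, 0, 0, 0, 0, 10], 0xa1507b7e828d87a7)]
def V0_1 : List ℕ := [0, 1, 2, 3, 4, 5, 5, 6, 7, 8, 9, 10]
def C0_1 : List ℕ := [1, 1, 1, 1, 1, 2, 1, 1, 1, 1, 1]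
theorem s0_1 : stepOK 120 8 12 [162, 141, 135, 130, 126, 123, 121, 120] ChevDataE8.W [1, 2, 3, 4, 5, 6] [1, 2, 3, 4, 5] X0_1 = true := by decide +kernel
theorem h0_1 : histOK 120 X0_1 V0_1 C0_1 = true := by decide +kernel

def X0_2 : List Ent := [
  (0xefeeedecebeae9e8e7e6e5e4e3e2e1e0dfdedddcdbdad9d8d7d6d5d4d3d2d1d0cfcecdcccbcac9c8c7c6c5c4c3c2c1c0bfbebdbcbbbab9b8b7b6b5b4b3b2b1b0afaeadacabaaa9a8a7a6a5a4a3a2a1a09f9e9d9c9b9a999897969594939291908f8e8d8c8b8a898887868584838281807f7e7d7c7b7a7978, 0, 0, [0, 0, 0, 0, 0, 1], 0x78797b7e82878da2),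
  (0xefeeecedebeae9e8e7e6e4e5e3e2e1e0dfdddedcdbdad8d9d7d6d4d5d3d2d1cecdd0cfcccacbc9c8c7c4c3c6c5c2c1bebdc0bfbcbbbab8b9b7b4b3b6b5b2b1b0aeafadacaaaba9a8a7a5a6a4a3a2a19e9da09f9c9b9a9899979694959392918f908e8d8c8b898a8887868583848281807e7f7a79747d7c78, 0, 5, [0, 0, 0, 0, 2, 0], 0x787c747f82878da2),
  (0xefeeebedeceae9e8e7e5e4e6e3e2e1e0dedddfdcdbd9d8dad7d6d1d5d0cfd4cecdd3d2ccc7cbc6c5cac4c3c9c8c2c1bbbac0bfb9bebdb8bcb7b1b0b6b5afb4b3aeb2adaca9abaaa8a7a4a6a5a3a2a19b9aa09f999e9d989c979693959492918e908f8d8c8b888a898786858284837d7c717b7a7970818078, 1, 4, [0, 0, 0, 3, 1, 0], 0x7880707b83878da2),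
  (0xefeeeaedecebe9e8e6e5e4e7e3e2e1dfdedde0dcdbd5d4dad3d2d1d9d0cfd8cecdd7d6ccc1cbc0bfcabebdc9c8bcc7bbbac6c5b9c4c3b8c2b7adacb6b5abb4b3aab2b1b0a9afaea8a7a3a6a5a4a2a19796a09f959e9d949c9b9a93999892918d908f8e8c8b878a898881806d7f7e7d7c6c7b7a796b868578, 2, 3, [0, 4, 5, 2, 0, 0], 0x78856b7b7e888ea2),
  (0xefeee8edecebe7eae6e5e4e9e3e2e0dfdedde1dcdbcbcadac9c8c7d9c6c5d8c4c3d7d6c2c1d5c0bfd4bebdd3d2bcd1bbbad0cfb9cecdb8ccb7a8a7b6b5a6b4b3a5b2b1b0a4afaeadaca3abaaa9a2a18c8ba09f8a9e9d899c9b9a8899988685628483829796879594938180617f7e7d7c607b7a795f929178, 3, 1, [0, 3, 6, 0, 0, 0], 0x78915f7b7e9382a2),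
  (0xefeee9edecebeae7e6e5e4e8e3e2e1dad9d8e0d7d6d5d4dfd3d2d1ded0cfddcecddcdbccb7cbb6b5cab4b3c9c8b2c7b1b0c6c5afc4c3aec2c1adacc0bfabbebdaabcbbbaa9b9b8a8a7a2a6a5a4a3a19291a09f909e9d8f9c9b9a8e999897968d9594938685688483828180677f7e7d7c667b7a79658c8b78, 3, 2, [0, 6, 3, 0, 0, 0], 0x788b657b7e8293a3),
  (0xefeee7edecebe8e9e6e5e4eae3e2e0dad9d8e1d7d6cbcadfc9c8c7dec6c5ddc4c3dcdbc2b7d5b6b5d4b4b3d3d2b2d1b1b0d0cfafcecdaeccc1a8a7c0bfa6bebda5bcbbbaa4b9b8adaca2abaaa9a3a18685a09f849e9d839c9b9a8299988c8b628a8988929168908f8e81805c7f7e7d7c5b7b7a795a979678, 4, 2, [0, 5, 4, 7, 0, 0], 0x78965a7b7e8e88a3),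
  (0xefeee6edeceae8e9e7e5e4ebe3e2dfdad5d4e1d3d2cbcae0c9c8c1dec0bfddbebddcdbbcb7d9b6b5d8b4b3d7d6b2d1adacd0cfabcecdaaccc7a8a7c6c5a6c4c3a5c2bbbaa3b9b8b1b0a2afaea9a4a18180a09f7f9e9d7e9c97966d95948c8b618a8987929167908f8d86855c84837d7c577b7a79569b9a78, 6, 3, [0, 0, 0, 6, 8, 0], 0x789a567b838d87a4),
  (0xefeee5edebeae8e9e7e6e4ece3e2ded9d5d1e1d0cfcbc7e0c6c5c1dfc0bfddbbbadcdbb9b7dab6b5d8b1b0d7d6afd4adacd3d2abcecda9cccaa8a7c9c8a6c4c3a4c2bebda3bcb8b4b3a2b2aeaaa5a17d7ca09f7b9b9a719997966c95938c8b608a8887929166908e8d86855b84828180577f7a79539e9d78, 7, 4, [0, 0, 0, 0, 7, 9], 0x789d537f828d87a5),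
  (0xefeee4ecebeae8e9e7e6e5ede3e2ddd8d4d1e1cecdcac7e0c4c3c1dfbebddebbbadcdbb8b7dab4b3d9b1b0d7d6aed5adacd3d2aad0cfa9cccba8a7c9c8a5c6c5a4c2c0bfa3bcb9b6b5a2b2afaba6a17a799e9d749b9a709897966b94938c8b5f8988879291658f8e8d86855a83828180567e7d7c53a09f78, 8, 5, [0, 0, 0, 0, 0, 8], 0x789f537e828d87a6)]
def V0_2 : List ℕ := [0, 1, 2, 3, 4, 4, 5, 6, 7, 8]
def C0_2 : List ℕ := [1, 1, 1, 1, 2, 1, 1, 1, 1]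
theorem s0_2 : stepOK 120 8 10 [162, 141, 135, 130, 126, 123, 121, 120] ChevDataE8.W [1, 2, 3, 4, 5] [1, 2, 3, 4] X0_2 = true := by decide +kernel
theorem h0_2 : histOK 120 X0_2 V0_2 C0_2 = true := by decide +kernel

theorem poinc0 (G : Good chevE8) (q : ℤ) (hq : 2 ≤ q) :
    (q - 1) ^ 7 * PP (WJ G {i | i ∈ ([1, 2, 3, 4, 5, 6, 7] : List ℕ)}) q = (q ^ 2 - 1) * (q ^ 4 - 1) * (q ^ 6 - 1) * (q ^ 7 - 1) * (q ^ 8 - 1) * (q ^ 10 - 1) * (q ^ 12 - 1) := by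
  have hne : ∀ d : ℕ, 0 < d → q ^ d - 1 ≠ 0 := by
    intro d hd h
    have h1 : (2 : ℤ) ^ d ≤ q ^ d := pow_le_pow_left₀ (by norm_num) hq d
    have h2 : (2 : ℤ) ^ 1 ≤ 2 ^ d := pow_le_pow_right₀ (by norm_num) hd
    linarith
  have t7 : (q - 1) ^ 0 * PP (WJ G {i | i ∈ ([] : List ℕ)}) q = 1 := by
    have h : ({i | i ∈ ([] : List ℕ)} : Set ℕ) = ∅ := by ext i; simp
    rw [h, PP_empty G, pow_zero, one_mul]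
  have p6 : PP (WJ G {i | i ∈ ([2] : List ℕ)}) q = (q ^ 0 + q ^ 1) * PP (WJ G {i | i ∈ ([] : List ℕ)}) q := by
    rw [step_sound G (n2 := 120) (l := 8) (m := 2) (SL := [162, 141, 135, 130, 126, 123, 121, 120]) (W := ChevDataE8.W) rfl rfl ChevPoincE8.simple_eq rfl ChevPoincE8.refl_eq ChevPoincE8.s7 q, hist_sound ChevPoincE8.h7]
    congr 1
    simp only [ChevPoincE8.C7, List.length_cons, List.length_nil, Finset.sum_range_succ, Finset.sum_range_zero, nth]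
    push_cast; ring
  have t6 : (q - 1) ^ 1 * PP (WJ G {i | i ∈ ([2] : List ℕ)}) q = (q ^ 2 - 1) := by
    rw [p6]
    have e : (q ^ 0 + q ^ 1) * (q - 1) = (q ^ 2 - 1) := by ring
    linear_combination (q ^ 0 + q ^ 1) * (q - 1) * t7 + (1) * e
  have p5 : PP (WJ G {i | i ∈ ([2, 3] : List ℕ)}) q = (q ^ 0 + q ^ 1 + q ^ 2) * PP (WJ G {i | i ∈ ([2] : List ℕ)}) q := by
    rw [step_sound G (n2 := 120) (l := 8) (m := 3) (SL := [162, 141, 135, 130, 126, 123, 121, 120]) (W := ChevDataE8.W) rfl rfl ChevPoincE8.simple_eq rfl ChevPoincE8.refl_eq ChevPoincE8.s6 q, hist_sound ChevPoincE8.h6]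
    congr 1
    simp only [ChevPoincE8.C6, List.length_cons, List.length_nil, Finset.sum_range_succ, Finset.sum_range_zero, nth]
    push_cast; ring
  have t5 : (q - 1) ^ 2 * PP (WJ G {i | i ∈ ([2, 3] : List ℕ)}) q = (q ^ 2 - 1) * (q ^ 3 - 1) := by
    rw [p5]
    have e : (q ^ 0 + q ^ 1 + q ^ 2) * (q - 1) = (q ^ 3 - 1) := by ring
    linear_combination (q ^ 0 + q ^ 1 + q ^ 2) * (q - 1) * t6 + ((q ^ 2 - 1)) * e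
  have p4 : PP (WJ G {i | i ∈ ([2, 3, 4] : List ℕ)}) q = (q ^ 0 + q ^ 1 + q ^ 2 + q ^ 3) * PP (WJ G {i | i ∈ ([2, 3] : List ℕ)}) q := by
    rw [step_sound G (n2 := 120) (l := 8) (m := 4) (SL := [162, 141, 135, 130, 126, 123, 121, 120]) (W := ChevDataE8.W) rfl rfl ChevPoincE8.simple_eq rfl ChevPoincE8.refl_eq ChevPoincE8.s5 q, hist_sound ChevPoincE8.h5]
    congr 1
    simp only [ChevPoincE8.C5, List.length_cons, List.length_nil, Finset.sum_range_succ, Finset.sum_range_zero, nth]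
    push_cast; ring
  have t4 : (q - 1) ^ 3 * PP (WJ G {i | i ∈ ([2, 3, 4] : List ℕ)}) q = (q ^ 2 - 1) * (q ^ 3 - 1) * (q ^ 4 - 1) := by
    rw [p4]
    have e : (q ^ 0 + q ^ 1 + q ^ 2 + q ^ 3) * (q - 1) = (q ^ 4 - 1) := by ring
    linear_combination (q ^ 0 + q ^ 1 + q ^ 2 + q ^ 3) * (q - 1) * t5 + ((q ^ 2 - 1) * (q ^ 3 - 1)) * e
  have p3 : PP (WJ G {i | i ∈ ([1, 2, 3, 4] : List ℕ)}) q = (q ^ 0 + q ^ 1 + q ^ 2 + 2 * q ^ 3 + q ^ 4 + q ^ 5 + q ^ 6) * PP (WJ G {i | i ∈ ([2, 3, 4] : List ℕ)}) q := by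
    rw [step_sound G (n2 := 120) (l := 8) (m := 8) (SL := [162, 141, 135, 130, 126, 123, 121, 120]) (W := ChevDataE8.W) rfl rfl ChevPoincE8.simple_eq rfl ChevPoincE8.refl_eq ChevPoincE8.s4 q, hist_sound ChevPoincE8.h4]
    congr 1
    simp only [ChevPoincE8.C4, List.length_cons, List.length_nil, Finset.sum_range_succ, Finset.sum_range_zero, nth]
    push_cast; ring
  have t3 : (q - 1) ^ 4 * PP (WJ G {i | i ∈ ([1, 2, 3, 4] : List ℕ)}) q = (q ^ 2 - 1) * (q ^ 4 - 1) * (q ^ 4 - 1) * (q ^ 6 - 1) := by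
    have hd : (q ^ 3 - 1) ≠ 0 := (hne 3 (by norm_num))
    apply mul_left_cancel₀ hd
    rw [p3]
    have e : (q ^ 0 + q ^ 1 + q ^ 2 + 2 * q ^ 3 + q ^ 4 + q ^ 5 + q ^ 6) * (q - 1) * ((q ^ 3 - 1)) = (q ^ 4 - 1) * (q ^ 6 - 1) := by ring
    linear_combination ((q ^ 3 - 1)) * (q ^ 0 + q ^ 1 + q ^ 2 + 2 * q ^ 3 + q ^ 4 + q ^ 5 + q ^ 6) * (q - 1) * t4 + ((q ^ 2 - 1) * (q ^ 4 - 1)) * e
  have p2 : PP (WJ G {i | i ∈ ([1, 2, 3, 4, 5] : List ℕ)}) q = (q ^ 0 + q ^ 1 + q ^ 2 + q ^ 3 + 2 * q ^ 4 + q ^ 5 + q ^ 6 + q ^ 7 + q ^ 8) * PP (WJ G {i | i ∈ ([1, 2, 3, 4] : List ℕ)}) q := by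
    rw [step_sound G (n2 := 120) (l := 8) (m := 10) (SL := [162, 141, 135, 130, 126, 123, 121, 120]) (W := ChevDataE8.W) rfl rfl ChevPoincE8.simple_eq rfl ChevPoincE8.refl_eq s0_2 q, hist_sound h0_2]
    congr 1
    simp only [C0_2, List.length_cons, List.length_nil, Finset.sum_range_succ, Finset.sum_range_zero, nth]
    push_cast; ring
  have t2 : (q - 1) ^ 5 * PP (WJ G {i | i ∈ ([1, 2, 3, 4, 5] : List ℕ)}) q = (q ^ 2 - 1) * (q ^ 4 - 1) * (q ^ 5 - 1) * (q ^ 6 - 1) * (q ^ 8 - 1) := by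
    have hd : (q ^ 4 - 1) ≠ 0 := (hne 4 (by norm_num))
    apply mul_left_cancel₀ hd
    rw [p2]
    have e : (q ^ 0 + q ^ 1 + q ^ 2 + q ^ 3 + 2 * q ^ 4 + q ^ 5 + q ^ 6 + q ^ 7 + q ^ 8) * (q - 1) * ((q ^ 4 - 1)) = (q ^ 5 - 1) * (q ^ 8 - 1) := by ring
    linear_combination ((q ^ 4 - 1)) * (q ^ 0 + q ^ 1 + q ^ 2 + q ^ 3 + 2 * q ^ 4 + q ^ 5 + q ^ 6 + q ^ 7 + q ^ 8) * (q - 1) * t3 + ((q ^ 2 - 1) * (q ^ 4 - 1) * (q ^ 6 - 1)) * e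
  have p1 : PP (WJ G {i | i ∈ ([1, 2, 3, 4, 5, 6] : List ℕ)}) q = (q ^ 0 + q ^ 1 + q ^ 2 + q ^ 3 + q ^ 4 + 2 * q ^ 5 + q ^ 6 + q ^ 7 + q ^ 8 + q ^ 9 + q ^ 10) * PP (WJ G {i | i ∈ ([1, 2, 3, 4, 5] : List ℕ)}) q := by
    rw [step_sound G (n2 := 120) (l := 8) (m := 12) (SL := [162, 141, 135, 130, 126, 123, 121, 120]) (W := ChevDataE8.W) rfl rfl ChevPoincE8.simple_eq rfl ChevPoincE8.refl_eq s0_1 q, hist_sound h0_1]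
    congr 1
    simp only [C0_1, List.length_cons, List.length_nil, Finset.sum_range_succ, Finset.sum_range_zero, nth]
    push_cast; ring
  have t1 : (q - 1) ^ 6 * PP (WJ G {i | i ∈ ([1, 2, 3, 4, 5, 6] : List ℕ)}) q = (q ^ 2 - 1) * (q ^ 4 - 1) * (q ^ 6 - 1) * (q ^ 6 - 1) * (q ^ 8 - 1) * (q ^ 10 - 1) := by
    have hd : (q ^ 5 - 1) ≠ 0 := (hne 5 (by norm_num))
    apply mul_left_cancel₀ hd
    rw [p1]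
    have e : (q ^ 0 + q ^ 1 + q ^ 2 + q ^ 3 + q ^ 4 + 2 * q ^ 5 + q ^ 6 + q ^ 7 + q ^ 8 + q ^ 9 + q ^ 10) * (q - 1) * ((q ^ 5 - 1)) = (q ^ 6 - 1) * (q ^ 10 - 1) := by ring
    linear_combination ((q ^ 5 - 1)) * (q ^ 0 + q ^ 1 + q ^ 2 + q ^ 3 + q ^ 4 + 2 * q ^ 5 + q ^ 6 + q ^ 7 + q ^ 8 + q ^ 9 + q ^ 10) * (q - 1) * t2 + ((q ^ 2 - 1) * (q ^ 4 - 1) * (q ^ 6 - 1) * (q ^ 8 - 1)) * e
  have p0 : PP (WJ G {i | i ∈ ([1, 2, 3, 4, 5, 6, 7] : List ℕ)}) q = (q ^ 0 + q ^ 1 + q ^ 2 + q ^ 3 + q ^ 4 + q ^ 5 + 2 * q ^ 6 + q ^ 7 + q ^ 8 + q ^ 9 + q ^ 10 + q ^ 11 + q ^ 12) * PP (WJ G {i | i ∈ ([1, 2, 3, 4, 5, 6] : List ℕ)}) q := by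
    rw [step_sound G (n2 := 120) (l := 8) (m := 14) (SL := [162, 141, 135, 130, 126, 123, 121, 120]) (W := ChevDataE8.W) rfl rfl ChevPoincE8.simple_eq rfl ChevPoincE8.refl_eq s0_0 q, hist_sound h0_0]
    congr 1
    simp only [C0_0, List.length_cons, List.length_nil, Finset.sum_range_succ, Finset.sum_range_zero, nth]
    push_cast; ring
  have t0 : (q - 1) ^ 7 * PP (WJ G {i | i ∈ ([1, 2, 3, 4, 5, 6, 7] : List ℕ)}) q = (q ^ 2 - 1) * (q ^ 4 - 1) * (q ^ 6 - 1) * (q ^ 7 - 1) * (q ^ 8 - 1) * (q ^ 10 - 1) * (q ^ 12 - 1) := by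
    have hd : (q ^ 6 - 1) ≠ 0 := (hne 6 (by norm_num))
    apply mul_left_cancel₀ hd
    rw [p0]
    have e : (q ^ 0 + q ^ 1 + q ^ 2 + q ^ 3 + q ^ 4 + q ^ 5 + 2 * q ^ 6 + q ^ 7 + q ^ 8 + q ^ 9 + q ^ 10 + q ^ 11 + q ^ 12) * (q - 1) * ((q ^ 6 - 1)) = (q ^ 7 - 1) * (q ^ 12 - 1) := by ring
    linear_combination ((q ^ 6 - 1)) * (q ^ 0 + q ^ 1 + q ^ 2 + q ^ 3 + q ^ 4 + q ^ 5 + 2 * q ^ 6 + q ^ 7 + q ^ 8 + q ^ 9 + q ^ 10 + q ^ 11 + q ^ 12) * (q - 1) * t1 + ((q ^ 2 - 1) * (q ^ 4 - 1) * (q ^ 6 - 1) * (q ^ 8 - 1) * (q ^ 10 - 1)) * e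
  exact t0

end Cfsg.Agent.Lib.ChevInvE8
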