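import Cfsg.Agent.Lib.ChevInv5
import Cfsg.Agent.Lib.ChevPoincF4

set_option autoImplicit false

/-! Certificates for the involutions of chevF4 (machine generated, helper40). -/

namespace Cfsg.Agent.Lib.ChevInvF4
open Cfsg.Lie Cfsg.Agent.Lib.ChevX Cfsg.Agent.Lib.ChevGood Cfsg.Agent.Lib.ChevRel Cfsg.Agent.Lib.ChevNPerm
open Cfsg.Agent.Lib.ChevTab Cfsg.Agent.Lib.ChevPoinc Cfsg.Agent.Lib.ChevPoincChk Cfsg.Agent.Lib.ChevInv

set_option maxRecDepth 1000000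

def mask : List ℕ := [2, 1, 10, 4]
def P : List ℕ := [0, 1, 1, 0, 2, 0, 2, 1, 0, 3, 3, 3, 3, 2, 1, 2]
theorem orb : orbOK chevF4 4 7 mask P [0, 3] = true := by decide +kernel

def C : List (List ℤ) := [[2, -1, 0, 0], [-1, 2, -2, 0], [0, -1, 2, -1], [0, 0, -1, 2]]

def gs3 : List (List ℕ × ℕ) := [([], 2), ([], 1), ([], 0), ([3, 2, 1, 0, 2, 1, 2], 3)]
def L3 : List (List ℤ × ℕ × ℕ) := [([0, 0, 0, 1], 0, 0), ([0, 0, 0, -1], 0, 3)]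
theorem ok3 : invOK chevF4 (rvT ChevDataF4.A) 24 4 3 [33, 27, 25, 24] ChevDataF4.W C gs3 L3 = true := by decide +kernel
theorem nv3 : (L3.map fun v => nvc (rvT ChevDataF4.A) 24 3 v.1) = [0, 1] := by decide +kernel
theorem np3 : npc (rvT ChevDataF4.A) 24 3 = 10 := by decide +kernel

theorem poinc3 (G : Good chevF4) (q : ℤ) (hq : 2 ≤ q) :
    (q - 1) ^ 3 * PP (WJ G {i | i ∈ ([0, 1, 2] : List ℕ)}) q = (q ^ 2 - 1) * (q ^ 4 - 1) * (q ^ 6 - 1) := by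
  have hne : ∀ d : ℕ, 0 < d → q ^ d - 1 ≠ 0 := by
    intro d hd h
    have h1 : (2 : ℤ) ^ d ≤ q ^ d := pow_le_pow_left₀ (by norm_num) hq d
    have h2 : (2 : ℤ) ^ 1 ≤ 2 ^ d := pow_le_pow_right₀ (by norm_num) hd
    linarith
  have t3 : (q - 1) ^ 0 * PP (WJ G {i | i ∈ ([] : List ℕ)}) q = 1 := by
    have h : ({i | i ∈ ([] : List ℕ)} : Set ℕ) = ∅ := by ext i; simp
    rw [h, PP_empty G, pow_zero, one_mul]
  have p2 : PP (WJ G {i | i ∈ ([1] : List ℕ)}) q = (q ^ 0 + q ^ 1) * PP (WJ G {i | i ∈ ([] : List ℕ)}) q := by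
    rw [step_sound G (n2 := 24) (l := 4) (m := 2) (SL := [33, 27, 25, 24]) (W := ChevDataF4.W) rfl rfl ChevPoincF4.simple_eq rfl ChevPoincF4.refl_eq ChevPoincF4.s3 q, hist_sound ChevPoincF4.h3]
    congr 1
    simp only [ChevPoincF4.C3, List.length_cons, List.length_nil, Finset.sum_range_succ, Finset.sum_range_zero, nth]
    push_cast; ring
  have t2 : (q - 1) ^ 1 * PP (WJ G {i | i ∈ ([1] : List ℕ)}) q = (q ^ 2 - 1) := by
    rw [p2]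
    have e : (q ^ 0 + q ^ 1) * (q - 1) = (q ^ 2 - 1) := by ring
    linear_combination (q ^ 0 + q ^ 1) * (q - 1) * t3 + (1) * e
  have p1 : PP (WJ G {i | i ∈ ([1, 2] : List ℕ)}) q = (q ^ 0 + q ^ 1 + q ^ 2 + q ^ 3) * PP (WJ G {i | i ∈ ([1] : List ℕ)}) q := by
    rw [step_sound G (n2 := 24) (l := 4) (m := 4) (SL := [33, 27, 25, 24]) (W := ChevDataF4.W) rfl rfl ChevPoincF4.simple_eq rfl ChevPoincF4.refl_eq ChevPoincF4.s2 q, hist_sound ChevPoincF4.h2]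
    congr 1
    simp only [ChevPoincF4.C2, List.length_cons, List.length_nil, Finset.sum_range_succ, Finset.sum_range_zero, nth]
    push_cast; ring
  have t1 : (q - 1) ^ 2 * PP (WJ G {i | i ∈ ([1, 2] : List ℕ)}) q = (q ^ 2 - 1) * (q ^ 4 - 1) := by
    rw [p1]
    have e : (q ^ 0 + q ^ 1 + q ^ 2 + q ^ 3) * (q - 1) = (q ^ 4 - 1) := by ring
    linear_combination (q ^ 0 + q ^ 1 + q ^ 2 + q ^ 3) * (q - 1) * t2 + ((q ^ 2 - 1)) * e
  have p0 : PP (WJ G {i | i ∈ ([0, 1, 2] : List ℕ)}) q = (q ^ 0 + q ^ 1 + q ^ 2 + q ^ 3 + q ^ 4 + q ^ 5) * PP (WJ G {i | i ∈ ([1, 2] : List ℕ)}) q := by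
    rw [step_sound G (n2 := 24) (l := 4) (m := 6) (SL := [33, 27, 25, 24]) (W := ChevDataF4.W) rfl rfl ChevPoincF4.simple_eq rfl ChevPoincF4.refl_eq ChevPoincF4.s1 q, hist_sound ChevPoincF4.h1]
    congr 1
    simp only [ChevPoincF4.C1, List.length_cons, List.length_nil, Finset.sum_range_succ, Finset.sum_range_zero, nth]
    push_cast; ring
  have t0 : (q - 1) ^ 3 * PP (WJ G {i | i ∈ ([0, 1, 2] : List ℕ)}) q = (q ^ 2 - 1) * (q ^ 4 - 1) * (q ^ 6 - 1) := by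
    rw [p0]
    have e : (q ^ 0 + q ^ 1 + q ^ 2 + q ^ 3 + q ^ 4 + q ^ 5) * (q - 1) = (q ^ 6 - 1) := by ring
    linear_combination (q ^ 0 + q ^ 1 + q ^ 2 + q ^ 3 + q ^ 4 + q ^ 5) * (q - 1) * t1 + ((q ^ 2 - 1) * (q ^ 4 - 1)) * e
  exact t0

def gs0 : List (List ℕ × ℕ) := [([], 3), ([], 2), ([], 1), ([0, 1], 2)]
def L0 : List (List ℤ × ℕ × ℕ) := [([1, 0, 0, 0], 0, 0), ([-1, 0, 0, 2], 0, 3), ([-1, 0, 2, -2], 1, 0), ([-1, 2, -2, 0], 2, 1), ([1, -2, 2, 0], 3, 2), ([1, 0, -2, 2], 4, 1), ([1, 0, 0, -2], 5, 0), ([-1, 0, 0, 0], 6, 3)]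
theorem ok0 : invOK chevF4 (rvT ChevDataF4.A) 24 4 0 [33, 27, 25, 24] ChevDataF4.W C gs0 L0 = true := by decide +kernel
theorem nv0 : (L0.map fun v => nvc (rvT ChevDataF4.A) 24 0 v.1) = [0, 1, 2, 3, 4, 5, 6, 7] := by decide +kernel
theorem np0 : npc (rvT ChevDataF4.A) 24 0 = 16 := by decide +kernel

def X0_0 : List Ent := [
  (0x2f2e2d2c2b2a292827262524232221201f1e1d1c1b1a1918, 0, 0, [0, 0, 0, 1], 0x18191b21),
  (0x2e2f2d2c2b292a2827252623242221201e1f1c1d1b191a17, 0, 3, [0, 0, 2, 0], 0x171a1b21),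
  (0x2d2f2e2c2a292b28262527222423211f1e201b1d1c161815, 1, 2, [0, 3, 1, 0], 0x15181c21),
  (0x2b2f2e2c2a292d27242328212625221a1920141d1c111810, 2, 1, [0, 2, 4, 0], 0x10181c22),
  (0x2a2f2d2c2b292e262422282127252318161f131d1b111a0f, 3, 2, [0, 0, 3, 5], 0xf1a1b23),
  (0x292e2d2c2b2a2f252322282127262417151e121c1b10190f, 4, 3, [0, 0, 0, 4], 0xf191b24)]
def V0_0 : List ℕ := [0, 1, 2, 3, 4, 5]
def C0_0 : List ℕ := [1, 1, 1, 1, 1, 1]
theorem s0_0 : stepOK 24 4 6 [33, 27, 25, 24] ChevDataF4.W [1, 2, 3] [1, 2] X0_0 = true := by decide +kernel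
theorem h0_0 : histOK 24 X0_0 V0_0 C0_0 = true := by decide +kernel

theorem poinc0 (G : Good chevF4) (q : ℤ) (hq : 2 ≤ q) :
    (q - 1) ^ 3 * PP (WJ G {i | i ∈ ([1, 2, 3] : List ℕ)}) q = (q ^ 2 - 1) * (q ^ 4 - 1) * (q ^ 6 - 1) := by
  have hne : ∀ d : ℕ, 0 < d → q ^ d - 1 ≠ 0 := by
    intro d hd h
    have h1 : (2 : ℤ) ^ d ≤ q ^ d := pow_le_pow_left₀ (by norm_num) hq d
    have h2 : (2 : ℤ) ^ 1 ≤ 2 ^ d := pow_le_pow_right₀ (by norm_num) hd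
    linarith
  have t3 : (q - 1) ^ 0 * PP (WJ G {i | i ∈ ([] : List ℕ)}) q = 1 := by
    have h : ({i | i ∈ ([] : List ℕ)} : Set ℕ) = ∅ := by ext i; simp
    rw [h, PP_empty G, pow_zero, one_mul]
  have p2 : PP (WJ G {i | i ∈ ([1] : List ℕ)}) q = (q ^ 0 + q ^ 1) * PP (WJ G {i | i ∈ ([] : List ℕ)}) q := by
    rw [step_sound G (n2 := 24) (l := 4) (m := 2) (SL := [33, 27, 25, 24]) (W := ChevDataF4.W) rfl rfl ChevPoincF4.simple_eq rfl ChevPoincF4.refl_eq ChevPoincF4.s3 q, hist_sound ChevPoincF4.h3]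
    congr 1
    simp only [ChevPoincF4.C3, List.length_cons, List.length_nil, Finset.sum_range_succ, Finset.sum_range_zero, nth]
    push_cast; ring
  have t2 : (q - 1) ^ 1 * PP (WJ G {i | i ∈ ([1] : List ℕ)}) q = (q ^ 2 - 1) := by
    rw [p2]
    have e : (q ^ 0 + q ^ 1) * (q - 1) = (q ^ 2 - 1) := by ring
    linear_combination (q ^ 0 + q ^ 1) * (q - 1) * t3 + (1) * e
  have p1 : PP (WJ G {i | i ∈ ([1, 2] : List ℕ)}) q = (q ^ 0 + q ^ 1 + q ^ 2 + q ^ 3) * PP (WJ G {i | i ∈ ([1] : List ℕ)}) q := by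
    rw [step_sound G (n2 := 24) (l := 4) (m := 4) (SL := [33, 27, 25, 24]) (W := ChevDataF4.W) rfl rfl ChevPoincF4.simple_eq rfl ChevPoincF4.refl_eq ChevPoincF4.s2 q, hist_sound ChevPoincF4.h2]
    congr 1
    simp only [ChevPoincF4.C2, List.length_cons, List.length_nil, Finset.sum_range_succ, Finset.sum_range_zero, nth]
    push_cast; ring
  have t1 : (q - 1) ^ 2 * PP (WJ G {i | i ∈ ([1, 2] : List ℕ)}) q = (q ^ 2 - 1) * (q ^ 4 - 1) := by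
    rw [p1]
    have e : (q ^ 0 + q ^ 1 + q ^ 2 + q ^ 3) * (q - 1) = (q ^ 4 - 1) := by ring
    linear_combination (q ^ 0 + q ^ 1 + q ^ 2 + q ^ 3) * (q - 1) * t2 + ((q ^ 2 - 1)) * e
  have p0 : PP (WJ G {i | i ∈ ([1, 2, 3] : List ℕ)}) q = (q ^ 0 + q ^ 1 + q ^ 2 + q ^ 3 + q ^ 4 + q ^ 5) * PP (WJ G {i | i ∈ ([1, 2] : List ℕ)}) q := by
    rw [step_sound G (n2 := 24) (l := 4) (m := 6) (SL := [33, 27, 25, 24]) (W := ChevDataF4.W) rfl rfl ChevPoincF4.simple_eq rfl ChevPoincF4.refl_eq s0_0 q, hist_sound h0_0]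
    congr 1
    simp only [C0_0, List.length_cons, List.length_nil, Finset.sum_range_succ, Finset.sum_range_zero, nth]
    push_cast; ring
  have t0 : (q - 1) ^ 3 * PP (WJ G {i | i ∈ ([1, 2, 3] : List ℕ)}) q = (q ^ 2 - 1) * (q ^ 4 - 1) * (q ^ 6 - 1) := by
    rw [p0]
    have e : (q ^ 0 + q ^ 1 + q ^ 2 + q ^ 3 + q ^ 4 + q ^ 5) * (q - 1) = (q ^ 6 - 1) := by ring
    linear_combination (q ^ 0 + q ^ 1 + q ^ 2 + q ^ 3 + q ^ 4 + q ^ 5) * (q - 1) * t1 + ((q ^ 2 - 1) * (q ^ 4 - 1)) * e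
  exact t0

end Cfsg.Agent.Lib.ChevInvF4
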