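import Cfsg.Agent.Lib.ChevInv5
import Cfsg.Agent.Lib.ChevPoincG2

set_option autoImplicit false

/-! Certificates for the involutions of chevG2 (machine generated, helper40). -/

namespace Cfsg.Agent.Lib.ChevInvG2
open Cfsg.Lie Cfsg.Agent.Lib.ChevX Cfsg.Agent.Lib.ChevGood Cfsg.Agent.Lib.ChevRel Cfsg.Agent.Lib.ChevNPerm
open Cfsg.Agent.Lib.ChevTab Cfsg.Agent.Lib.ChevPoinc Cfsg.Agent.Lib.ChevPoincChk Cfsg.Agent.Lib.ChevInv

set_option maxRecDepth 1000000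

def mask : List ℕ := [2, 1]
def P : List ℕ := [0, 0, 0, 1]
theorem orb : orbOK chevG2 2 2 mask P [1] = true := by decide +kernel

def C : List (List ℤ) := [[2, -3], [-1, 2]]

def gs1 : List (List ℕ × ℕ) := [([], 0), ([1, 0], 1)]
def L1 : List (List ℤ × ℕ × ℕ) := [([0, 1], 0, 0), ([0, -1], 0, 1)]
theorem ok1 : invOK chevG2 (rvT ChevDataG2.A) 6 2 1 [7, 6] ChevDataG2.W C gs1 L1 = true := by decide +kernel
theorem nv1 : (L1.map fun v => nvc (rvT ChevDataG2.A) 6 1 v.1) = [0, 1] := by decide +kernel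
theorem np1 : npc (rvT ChevDataG2.A) 6 1 = 2 := by decide +kernel

theorem poinc1 (G : Good chevG2) (q : ℤ) (hq : 2 ≤ q) :
    (q - 1) ^ 1 * PP (WJ G {i | i ∈ ([0] : List ℕ)}) q = (q ^ 2 - 1) := by
  have hne : ∀ d : ℕ, 0 < d → q ^ d - 1 ≠ 0 := by
    intro d hd h
    have h1 : (2 : ℤ) ^ d ≤ q ^ d := pow_le_pow_left₀ (by norm_num) hq d
    have h2 : (2 : ℤ) ^ 1 ≤ 2 ^ d := pow_le_pow_right₀ (by norm_num) hd
    linarith
  have t1 : (q - 1) ^ 0 * PP (WJ G {i | i ∈ ([] : List ℕ)}) q = 1 := by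
    have h : ({i | i ∈ ([] : List ℕ)} : Set ℕ) = ∅ := by ext i; simp
    rw [h, PP_empty G, pow_zero, one_mul]
  have p0 : PP (WJ G {i | i ∈ ([0] : List ℕ)}) q = (q ^ 0 + q ^ 1) * PP (WJ G {i | i ∈ ([] : List ℕ)}) q := by
    rw [step_sound G (n2 := 6) (l := 2) (m := 2) (SL := [7, 6]) (W := ChevDataG2.W) rfl rfl ChevPoincG2.simple_eq rfl ChevPoincG2.refl_eq ChevPoincG2.s1 q, hist_sound ChevPoincG2.h1]
    congr 1
    simp only [ChevPoincG2.C1, List.length_cons, List.length_nil, Finset.sum_range_succ, Finset.sum_range_zero, nth]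
    push_cast; ring
  have t0 : (q - 1) ^ 1 * PP (WJ G {i | i ∈ ([0] : List ℕ)}) q = (q ^ 2 - 1) := by
    rw [p0]
    have e : (q ^ 0 + q ^ 1) * (q - 1) = (q ^ 2 - 1) := by ring
    linear_combination (q ^ 0 + q ^ 1) * (q - 1) * t1 + (1) * e
  exact t0

end Cfsg.Agent.Lib.ChevInvG2
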