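import Cfsg.Agent.Lib.ChevPoincChk
import Cfsg.Agent.Lib.ChevOkB2
set_option autoImplicit false

/-! Poincaré polynomial of the Weyl group of chevB2 (machine generated tables of minimal coset representatives). -/

namespace Cfsg.Agent.Lib.ChevPoincB2
open Cfsg.Lie Cfsg.Agent.Lib.ChevX Cfsg.Agent.Lib.ChevGood Cfsg.Agent.Lib.ChevRel Cfsg.Agent.Lib.ChevNPerm
open Cfsg.Agent.Lib.ChevTab Cfsg.Agent.Lib.ChevPoinc Cfsg.Agent.Lib.ChevPoincChk

def X0 : List Ent := [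
  (0x7060504, 0, 0, [0, 1], 0x405),
  (0x7050603, 0, 1, [2, 0], 0x306),
  (0x4020600, 1, 0, [1, 3], 0x6),
  (0x3010500, 2, 1, [3, 2], 0x5)]
def V0 : List ℕ := [0, 1, 2, 3]
def C0 : List ℕ := [1, 1, 1, 1]

def X1 : List Ent := [
  (0x7060504, 0, 0, [1, 0], 0x405),
  (0x4060207, 0, 0, [0, 0], 0x702)]
def V1 : List ℕ := [0, 1]
def C1 : List ℕ := [1, 1]

set_option maxRecDepth 1000000

theorem s0 : stepOK 4 2 4 [5, 4] ChevDataB2.W [0, 1] [0] X0 = true := by decide +kernel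
theorem h0 : histOK 4 X0 V0 C0 = true := by decide +kernel
theorem s1 : stepOK 4 2 2 [5, 4] ChevDataB2.W [0] [] X1 = true := by decide +kernel
theorem h1 : histOK 4 X1 V1 C1 = true := by decide +kernel

theorem simple_eq (i : ℕ) (hi : i < chevB2.rank) : chevB2.simple i = nth 0 [5, 4] i := by
  change i < 2 at hi
  interval_cases i <;> rfl

theorem refl_eq (i : ℕ) (hi : i < chevB2.rank) (s : ℕ) (hs : s < chevB2.nroots) :
    chevB2.reflectRoot i s = wA ChevDataB2.W i s :=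
  (c3_facts ChevOkB2.c1 ChevOkB2.c2 hi hs (ChevOkB2.c3 i hi)).refl

/-- the Poincaré polynomial at `q ≥ 2` -/
theorem poinc (G : Good chevB2) (q : ℤ) (hq : 2 ≤ q) :
    (q - 1) ^ 2 * PP (Subgroup.closure (Set.range (refl G))) q = (q ^ 2 - 1) * (q ^ 4 - 1) := by
  have hne : ∀ d : ℕ, 0 < d → q ^ d - 1 ≠ 0 := by
    intro d hd h
    have h1 : (2 : ℤ) ^ d ≤ q ^ d := pow_le_pow_left₀ (by norm_num) hq d
    have h2 : (2 : ℤ) ^ 1 ≤ 2 ^ d := pow_le_pow_right₀ (by norm_num) hd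
    linarith
  have t2 : (q - 1) ^ 0 * PP (WJ G {i | i ∈ ([] : List ℕ)}) q = 1 := by
    have h : ({i | i ∈ ([] : List ℕ)} : Set ℕ) = ∅ := by ext i; simp
    rw [h, PP_empty G, pow_zero, one_mul]
  have p1 : PP (WJ G {i | i ∈ ([0] : List ℕ)}) q = (q ^ 0 + q ^ 1) * PP (WJ G {i | i ∈ ([] : List ℕ)}) q := by
    rw [step_sound G (n2 := 4) (l := 2) (m := 2) (SL := [5, 4]) (W := ChevDataB2.W) rfl rfl simple_eq rfl refl_eq s1 q, hist_sound h1]
    congr 1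
    simp only [C1, List.length_cons, List.length_nil, Finset.sum_range_succ, Finset.sum_range_zero, nth]
    push_cast; ring
  have t1 : (q - 1) ^ 1 * PP (WJ G {i | i ∈ ([0] : List ℕ)}) q = (q ^ 2 - 1) := by
    rw [p1]
    have e : (q ^ 0 + q ^ 1) * (q - 1) = (q ^ 2 - 1) := by ring
    linear_combination (q ^ 0 + q ^ 1) * (q - 1) * t2 + (1) * e
  have p0 : PP (WJ G {i | i ∈ ([0, 1] : List ℕ)}) q = (q ^ 0 + q ^ 1 + q ^ 2 + q ^ 3) * PP (WJ G {i | i ∈ ([0] : List ℕ)}) q := by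
    rw [step_sound G (n2 := 4) (l := 2) (m := 4) (SL := [5, 4]) (W := ChevDataB2.W) rfl rfl simple_eq rfl refl_eq s0 q, hist_sound h0]
    congr 1
    simp only [C0, List.length_cons, List.length_nil, Finset.sum_range_succ, Finset.sum_range_zero, nth]
    push_cast; ring
  have t0 : (q - 1) ^ 2 * PP (WJ G {i | i ∈ ([0, 1] : List ℕ)}) q = (q ^ 2 - 1) * (q ^ 4 - 1) := by
    rw [p0]
    have e : (q ^ 0 + q ^ 1 + q ^ 2 + q ^ 3) * (q - 1) = (q ^ 4 - 1) := by ring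
    linear_combination (q ^ 0 + q ^ 1 + q ^ 2 + q ^ 3) * (q - 1) * t1 + ((q ^ 2 - 1)) * e
  rw [← WJ_univ G]
  have hJ : ({i | i < chevB2.rank} : Set ℕ) = {i | i ∈ ([0, 1] : List ℕ)} := by
    ext i
    show i < 2 ↔ i ∈ ([0, 1] : List ℕ)
    simp only [List.mem_cons, List.not_mem_nil, or_false]
    omega
  rw [hJ]
  exact t0

end Cfsg.Agent.Lib.ChevPoincB2
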