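import Cfsg.Agent.Lib.ChevPoincChk
import Cfsg.Agent.Lib.ChevOkD4
set_option autoImplicit false

/-! Poincaré polynomial of the Weyl group of chevD4 (machine generated tables of minimal coset representatives). -/

namespace Cfsg.Agent.Lib.ChevPoincD4
open Cfsg.Lie Cfsg.Agent.Lib.ChevX Cfsg.Agent.Lib.ChevGood Cfsg.Agent.Lib.ChevRel Cfsg.Agent.Lib.ChevNPerm
open Cfsg.Agent.Lib.ChevTab Cfsg.Agent.Lib.ChevPoinc Cfsg.Agent.Lib.ChevPoincChk

def X0 : List Ent := [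
  (0x17161514131211100f0e0d0c, 0, 0, [0, 0, 0, 1], 0xc0d0e12),
  (0x17151613141210110e0f0d0b, 0, 3, [1, 2, 1, 0], 0xb0d0f12),
  (0x1615171214130d11090c1008, 1, 1, [3, 1, 4, 2], 0x8100c13),
  (0x111017050f0e0d16040c1503, 2, 0, [2, 3, 5, 3], 0x3150c0e),
  (0x1413171216150a0f070c0e06, 2, 2, [5, 4, 2, 4], 0x60e0c15),
  (0xf0e170511100a14020c1301, 3, 2, [4, 6, 3, 5], 0x1130c10),
  (0xc091604110d0714020f1200, 5, 1, [6, 5, 6, 7], 0x120f0d),
  (0xb081503100d0613010e1200, 6, 3, [7, 7, 7, 6], 0x120e0d)]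
def V0 : List ℕ := [0, 1, 2, 3, 3, 4, 5, 6]
def C0 : List ℕ := [1, 1, 1, 2, 1, 1, 1]

def X1 : List Ent := [
  (0x17161514131211100f0e0d0c, 0, 0, [0, 0, 1, 0], 0xc0d0e12),
  (0x1714131615120f0e11100a0c, 0, 2, [1, 2, 0, 0], 0xc0a1012),
  (0x1614121715130c09110d070f, 1, 1, [3, 1, 2, 0], 0xf070d13),
  (0x110f0517100e0c04160d0214, 2, 0, [2, 3, 3, 0], 0x14020d0e)]
def V1 : List ℕ := [0, 1, 2, 3]
def C1 : List ℕ := [1, 1, 1, 1]

def X2 : List Ent := [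
  (0x17161514131211100f0e0d0c, 0, 0, [0, 1, 0, 0], 0xc0d0e12),
  (0x161715141213110d0c09100f, 0, 1, [2, 0, 0, 0], 0xf100913),
  (0x1117100f050e160d0c041514, 1, 0, [1, 2, 0, 0], 0x1415040e)]
def V2 : List ℕ := [0, 1, 2]
def C2 : List ℕ := [1, 1, 1]

def X3 : List Ent := [
  (0x17161514131211100f0e0d0c, 0, 0, [1, 0, 0, 0], 0xc0d0e12),
  (0x1711100f0e05161514130d0c, 0, 0, [0, 0, 0, 0], 0xc0d1305)]
def V3 : List ℕ := [0, 1]
def C3 : List ℕ := [1, 1]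

set_option maxRecDepth 1000000

theorem s0 : stepOK 12 4 8 [18, 14, 13, 12] ChevDataD4.W [0, 1, 2, 3] [0, 1, 2] X0 = true := by decide +kernel
theorem h0 : histOK 12 X0 V0 C0 = true := by decide +kernel
theorem s1 : stepOK 12 4 4 [18, 14, 13, 12] ChevDataD4.W [0, 1, 2] [0, 1] X1 = true := by decide +kernel
theorem h1 : histOK 12 X1 V1 C1 = true := by decide +kernel
theorem s2 : stepOK 12 4 3 [18, 14, 13, 12] ChevDataD4.W [0, 1] [0] X2 = true := by decide +kernel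
theorem h2 : histOK 12 X2 V2 C2 = true := by decide +kernel
theorem s3 : stepOK 12 4 2 [18, 14, 13, 12] ChevDataD4.W [0] [] X3 = true := by decide +kernel
theorem h3 : histOK 12 X3 V3 C3 = true := by decide +kernel

theorem simple_eq (i : ℕ) (hi : i < chevD4.rank) : chevD4.simple i = nth 0 [18, 14, 13, 12] i := by
  change i < 4 at hi
  interval_cases i <;> rfl

theorem refl_eq (i : ℕ) (hi : i < chevD4.rank) (s : ℕ) (hs : s < chevD4.nroots) :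
    chevD4.reflectRoot i s = wA ChevDataD4.W i s :=
  (c3_facts ChevOkD4.c1 ChevOkD4.c2 hi hs (ChevOkD4.c3 i hi)).refl

/-- the Poincaré polynomial at `q ≥ 2` -/
theorem poinc (G : Good chevD4) (q : ℤ) (hq : 2 ≤ q) :
    (q - 1) ^ 4 * PP (Subgroup.closure (Set.range (refl G))) q = (q ^ 2 - 1) * (q ^ 4 - 1) * (q ^ 4 - 1) * (q ^ 6 - 1) := by
  have hne : ∀ d : ℕ, 0 < d → q ^ d - 1 ≠ 0 := by
    intro d hd h
    have h1 : (2 : ℤ) ^ d ≤ q ^ d := pow_le_pow_left₀ (by norm_num) hq d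
    have h2 : (2 : ℤ) ^ 1 ≤ 2 ^ d := pow_le_pow_right₀ (by norm_num) hd
    linarith
  have t4 : (q - 1) ^ 0 * PP (WJ G {i | i ∈ ([] : List ℕ)}) q = 1 := by
    have h : ({i | i ∈ ([] : List ℕ)} : Set ℕ) = ∅ := by ext i; simp
    rw [h, PP_empty G, pow_zero, one_mul]
  have p3 : PP (WJ G {i | i ∈ ([0] : List ℕ)}) q = (q ^ 0 + q ^ 1) * PP (WJ G {i | i ∈ ([] : List ℕ)}) q := by
    rw [step_sound G (n2 := 12) (l := 4) (m := 2) (SL := [18, 14, 13, 12]) (W := ChevDataD4.W) rfl rfl simple_eq rfl refl_eq s3 q, hist_sound h3]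
    congr 1
    simp only [C3, List.length_cons, List.length_nil, Finset.sum_range_succ, Finset.sum_range_zero, nth]
    push_cast; ring
  have t3 : (q - 1) ^ 1 * PP (WJ G {i | i ∈ ([0] : List ℕ)}) q = (q ^ 2 - 1) := by
    rw [p3]
    have e : (q ^ 0 + q ^ 1) * (q - 1) = (q ^ 2 - 1) := by ring
    linear_combination (q ^ 0 + q ^ 1) * (q - 1) * t4 + (1) * e
  have p2 : PP (WJ G {i | i ∈ ([0, 1] : List ℕ)}) q = (q ^ 0 + q ^ 1 + q ^ 2) * PP (WJ G {i | i ∈ ([0] : List ℕ)}) q := by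
    rw [step_sound G (n2 := 12) (l := 4) (m := 3) (SL := [18, 14, 13, 12]) (W := ChevDataD4.W) rfl rfl simple_eq rfl refl_eq s2 q, hist_sound h2]
    congr 1
    simp only [C2, List.length_cons, List.length_nil, Finset.sum_range_succ, Finset.sum_range_zero, nth]
    push_cast; ring
  have t2 : (q - 1) ^ 2 * PP (WJ G {i | i ∈ ([0, 1] : List ℕ)}) q = (q ^ 2 - 1) * (q ^ 3 - 1) := by
    rw [p2]
    have e : (q ^ 0 + q ^ 1 + q ^ 2) * (q - 1) = (q ^ 3 - 1) := by ring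
    linear_combination (q ^ 0 + q ^ 1 + q ^ 2) * (q - 1) * t3 + ((q ^ 2 - 1)) * e
  have p1 : PP (WJ G {i | i ∈ ([0, 1, 2] : List ℕ)}) q = (q ^ 0 + q ^ 1 + q ^ 2 + q ^ 3) * PP (WJ G {i | i ∈ ([0, 1] : List ℕ)}) q := by
    rw [step_sound G (n2 := 12) (l := 4) (m := 4) (SL := [18, 14, 13, 12]) (W := ChevDataD4.W) rfl rfl simple_eq rfl refl_eq s1 q, hist_sound h1]
    congr 1
    simp only [C1, List.length_cons, List.length_nil, Finset.sum_range_succ, Finset.sum_range_zero, nth]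
    push_cast; ring
  have t1 : (q - 1) ^ 3 * PP (WJ G {i | i ∈ ([0, 1, 2] : List ℕ)}) q = (q ^ 2 - 1) * (q ^ 3 - 1) * (q ^ 4 - 1) := by
    rw [p1]
    have e : (q ^ 0 + q ^ 1 + q ^ 2 + q ^ 3) * (q - 1) = (q ^ 4 - 1) := by ring
    linear_combination (q ^ 0 + q ^ 1 + q ^ 2 + q ^ 3) * (q - 1) * t2 + ((q ^ 2 - 1) * (q ^ 3 - 1)) * e
  have p0 : PP (WJ G {i | i ∈ ([0, 1, 2, 3] : List ℕ)}) q = (q ^ 0 + q ^ 1 + q ^ 2 + 2 * q ^ 3 + q ^ 4 + q ^ 5 + q ^ 6) * PP (WJ G {i | i ∈ ([0, 1, 2] : List ℕ)}) q := by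
    rw [step_sound G (n2 := 12) (l := 4) (m := 8) (SL := [18, 14, 13, 12]) (W := ChevDataD4.W) rfl rfl simple_eq rfl refl_eq s0 q, hist_sound h0]
    congr 1
    simp only [C0, List.length_cons, List.length_nil, Finset.sum_range_succ, Finset.sum_range_zero, nth]
    push_cast; ring
  have t0 : (q - 1) ^ 4 * PP (WJ G {i | i ∈ ([0, 1, 2, 3] : List ℕ)}) q = (q ^ 2 - 1) * (q ^ 4 - 1) * (q ^ 4 - 1) * (q ^ 6 - 1) := by
    have hd : (q ^ 3 - 1) ≠ 0 := hne 3 (by norm_num)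
    apply mul_left_cancel₀ hd
    rw [p0]
    have e : (q ^ 0 + q ^ 1 + q ^ 2 + 2 * q ^ 3 + q ^ 4 + q ^ 5 + q ^ 6) * (q - 1) * ((q ^ 3 - 1)) = (q ^ 4 - 1) * (q ^ 6 - 1) := by ring
    linear_combination ((q ^ 3 - 1)) * (q ^ 0 + q ^ 1 + q ^ 2 + 2 * q ^ 3 + q ^ 4 + q ^ 5 + q ^ 6) * (q - 1) * t1 + ((q ^ 2 - 1) * (q ^ 3 - 1) * (q ^ 4 - 1)) * e
  rw [← WJ_univ G]
  have hJ : ({i | i < chevD4.rank} : Set ℕ) = {i | i ∈ ([0, 1, 2, 3] : List ℕ)} := by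
    ext i
    show i < 4 ↔ i ∈ ([0, 1, 2, 3] : List ℕ)
    simp only [List.mem_cons, List.not_mem_nil, or_false]
    omega
  rw [hJ]
  exact t0

end Cfsg.Agent.Lib.ChevPoincD4
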