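import Cfsg.Agent.Lib.ChevRadCent
import Cfsg.Agent.Lib.ChevBlocks
import Cfsg.Agent.Lib.CharPIff

/-!
The centralizer of the unipotent radical of a proper parabolic subgroup of a Chevalley group is a `p`-group (also for B2).
-/

set_option autoImplicit false
set_option linter.unusedSectionVars false

namespace Cfsg.Agent.Lib.ChevRadCent
open Cfsg.Lie Cfsg.Agent.Lib.ChevX Cfsg.Agent.Lib.ChevGood Cfsg.Agent.Lib.ChevRel Cfsg.Agent.Lib.ChevNPerm
  Cfsg.Agent.Lib.ChevClosed Cfsg.Agent.Lib.ChevBruhat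
open scoped MatrixGroups Matrix

variable {D : ChevalleyDatum} {F : Type*} [Field F]

section
variable (G : Good D)
include G

/-- roots with nonzero coefficient at `j` are linked to all fundamental roots -/
def Conn2 (D : ChevalleyDatum) : Prop := ∀ i < D.rank, ∀ j < D.rank, i ≠ j →
  ∃ s < D.nroots, ∃ s' < D.nroots, D.nroots / 2 ≤ s ∧ D.nroots / 2 ≤ s' ∧ co D s j ≠ 0 ∧ co D s' j ≠ 0 ∧
    ((D.chainEntry (D.simple i) s')[0]?.map Prod.fst) = some s

theorem rv_of_chain {i s s' : ℕ} (hi : i < D.rank) (hs' : s' < D.nroots)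
    (h : ((D.chainEntry (D.simple i) s')[0]?.map Prod.fst) = some s) (m : ℕ) :
    G.rv s m = G.rv s' m + (if m = i then 1 else 0) := by
  obtain ⟨⟨k, M⟩, h1, h2⟩ := Option.map_eq_some_iff.mp h
  have h3 := (G.chain_root _ _ (G.simple_lt i hi) hs' 0 k M h1).2.2.2 m
  have h4 : k = s := h2
  rw [h4, G.rv_simple i hi] at h3
  rw [h3]
  push_cast
  ring

/-- the centralizer of the roots involving `j` -/
theorem mem_U_of_comm2 (hD : Listed D) (hC : Conn2 D) (j : Fin D.rank) {g : GL D.Idx F} (hg : g ∈ D.group F)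
    (hc : ∀ y ∈ D.unipotentRadical F {i | i ≠ (j : ℕ)}, g * y = y * g) : g ∈ D.posUnipotent F := by
  classical
  -- root elements in the radical
  have hrad : ∀ r : Fin D.nroots, Pos D r → co D r j ≠ 0 → ∀ t : F, xg D F r t ∈ D.unipotentRadical F {i | i ≠ (j : ℕ)} := by
    intro r hr hrj t
    rw [ChevPar.unipotentRadical_eq G]
    refine ChevU.xg_mem_XS (S := ChevPar.Psi D {i | i ≠ (j : ℕ)}) (show (r : ℕ) ∈ ChevPar.Psi D _ from
      ⟨(G.isPos_iff r).mpr ⟨hr, r.2⟩, fun h => hrj (h.2 j j.2 (by simp))⟩) t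
  have hnorm : ∀ b ∈ D.borelSubgroup F, ∀ y ∈ D.unipotentRadical F {i | i ≠ (j : ℕ)},
      b * y * b⁻¹ ∈ D.unipotentRadical F {i | i ≠ (j : ℕ)} := by
    intro b hb y hy
    have h1 := ChevPar.P_le_normalizer (F := F) G {i | i ≠ (j : ℕ)} (ChevPar.B_le_P G _ hb)
    rw [← ChevPar.unipotentRadical_eq G, Subgroup.mem_normalizer_iff] at h1
    exact (h1 y).mp hy
  -- first: an element `b k` commuting with the radical has `k ∈ H`
  have step1 : ∀ b ∈ D.borelSubgroup F, ∀ k ∈ D.monomialSubgroup F,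
      (∀ r : Fin D.nroots, Pos D r → co D r j ≠ 0 → ∀ t : F, b * k * xg D F r t = xg D F r t * (b * k)) →
      k ∈ D.diagonalSubgroup F := by
    intro b hb k hk hcomm
    obtain ⟨w, hw⟩ := exists_mono G hk
    obtain ⟨hlin, c, hc0, hcn, hcw⟩ := hw
    have hfix : ∀ r : Fin D.nroots, Pos D r → co D r j ≠ 0 → w r = r := by
      intro r hr hrj
      have h1 := hcomm r hr hrj 1
      obtain ⟨h, hh, u, hu, hbu⟩ := mem_borel' G hb
      have h2 : xg D F (w r) (c r * 1) = b⁻¹ * xg D F r 1 * b := by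
        rw [← hcw]
        have : k * xg D F r 1 * k⁻¹ = b⁻¹ * (b * k * xg D F r 1) * k⁻¹ := by group
        rw [this, h1]
        group
      obtain ⟨cc, hcc0, hcc⟩ : ∃ cc : F, cc ≠ 0 ∧ h⁻¹ * xg D F r 1 * h = xg D F r cc := by
        obtain ⟨-, d, hd0, -, hd⟩ := mono_diag G (inv_mem hh)
        refine ⟨d r * 1, mul_ne_zero (hd0 r) one_ne_zero, ?_⟩
        have := hd r 1
        rwa [inv_inv] at this
      have h3 : b⁻¹ * xg D F r 1 * b = u⁻¹ * xg D F r cc * u := by
        rw [hbu, ← hcc]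
        group
      have h4 := comm_Gt G hr cc (inv_mem hu)
      rw [inv_inv, ← h3, ← h2] at h4
      exact (key_eq G hD hr hcc0 (mul_ne_zero (hc0 r) one_ne_zero) h4).1
    apply mem_diag_of_pos G hk ⟨hlin, c, hc0, hcn, hcw⟩
    intro i
    have hwi : w (simpF G i) = simpF G i := by
      by_cases hij : i = j
      · subst hij
        exact hfix _ (pos_simpF G i) (co_simple_ne G)
      · obtain ⟨s, hs, s', hs', hsp, hsp', hsj, hsj', hch⟩ := hC i i.2 j j.2 (fun h => hij (Fin.ext h))
        have h1 := hfix ⟨s, hs⟩ hsp hsj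
        have h2 := hfix ⟨s', hs'⟩ hsp' hsj'
        have e3 := rv_of_chain G i.2 hs' hch
        apply rvF_inj G
        intro l
        have e1 := hlin ⟨s, hs⟩ l
        have e2 := hlin ⟨s', hs'⟩ l
        rw [h1] at e1
        rw [h2] at e2
        have e4 : G.rv s l = ∑ m : Fin D.rank, G.rv s m * G.rv (w (simpF G m)) l := e1
        have e5 : G.rv s' l = ∑ m : Fin D.rank, G.rv s' m * G.rv (w (simpF G m)) l := e2
        have e6 : ∑ m : Fin D.rank, G.rv s m * G.rv (w (simpF G m)) l =
            ∑ m : Fin D.rank, G.rv s' m * G.rv (w (simpF G m)) l + G.rv (w (simpF G i)) l := by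
          have e7 : ∀ m : Fin D.rank, G.rv s m * G.rv (w (simpF G m)) l =
              G.rv s' m * G.rv (w (simpF G m)) l + (if m = i then G.rv (w (simpF G i)) l else 0) := by
            intro m
            rw [e3 m]
            by_cases hm : m = i
            · subst hm; rw [if_pos rfl, if_pos rfl]; ring
            · rw [if_neg hm, if_neg (fun h => hm (Fin.ext h))]; ring
          rw [Finset.sum_congr rfl (fun m _ => e7 m), Finset.sum_add_distrib, Finset.sum_ite_eq' Finset.univ i,
            if_pos (Finset.mem_univ _)]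
        rw [← e4, ← e5, e3] at e6
        rw [rv_simpF G]
        have e8 : (if (l : ℕ) = i then (1 : ℤ) else 0) = G.rv (w (simpF G i)) l := by linarith
        exact e8.symm
    rw [hwi]
    exact pos_simpF G i
  obtain ⟨b, hb, k, hk, b', hb', rfl⟩ := exists_dc G hD hg
  have h1 : ∀ y ∈ D.unipotentRadical F {i | i ≠ (j : ℕ)}, (b' * b) * k * y = y * ((b' * b) * k) := by
    intro y hy
    have h2 := hc _ (by
      have := hnorm b'⁻¹ (inv_mem hb') y hy
      exact this)
    have h3 : (b' * b) * k * y = b' * (b * k * b' * (b'⁻¹ * y * b'⁻¹⁻¹)) * b'⁻¹ * b' * b'⁻¹ := by group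
    rw [h3, h2]
    group
  have hkH := step1 _ (mul_mem hb' hb) k hk (fun r hr hrj t => h1 _ (hrad r hr hrj t))
  have hgB : b * k * b' ∈ D.borelSubgroup F := mul_mem (mul_mem hb (borel_H G hkH)) hb'
  obtain ⟨u, hu, h, hh, hbu⟩ := mem_borel G hgB
  have hh1 : h = 1 := by
    obtain ⟨c, hc0, hhs⟩ := ChevH.exists_hs G hh
    have hconj : ∀ s < D.nroots, ∀ t : F, h * xg D F s t * h⁻¹ = xg D F s ((∏ i ∈ Finset.range D.rank, c i ^ D.cartan i s) * t) := by
      intro s hs t
      rw [hhs]
      exact ChevSimple.hs_conj G le_rfl hc0 hs t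
    have hchi0 : ∀ s, (∏ i ∈ Finset.range D.rank, c i ^ D.cartan i s) ≠ 0 := by
      intro s
      rw [Finset.prod_ne_zero_iff]
      intro i hi
      exact zpow_ne_zero _ (hc0 i (Finset.mem_range.mp hi))
    have hfix : ∀ r : Fin D.nroots, Pos D r → co D r j ≠ 0 → (∏ i ∈ Finset.range D.rank, c i ^ D.cartan i r) = 1 := by
      intro r hr hrj
      have h2 := hc _ (hrad r hr hrj 1)
      have h3 : (u * h) * xg D F r 1 * (u * h)⁻¹ = xg D F r 1 := by
        rw [← hbu, h2]; group
      have h4 : u * xg D F r ((∏ i ∈ Finset.range D.rank, c i ^ D.cartan i r) * 1) * u⁻¹ = xg D F r 1 := by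
        have h7 : u * (h * xg D F r 1 * h⁻¹) * u⁻¹ = (u * h) * xg D F r 1 * (u * h)⁻¹ := by group
        rw [← hconj r r.2, h7, h3]
      have h5 := comm_Gt G hr ((∏ i ∈ Finset.range D.rank, c i ^ D.cartan i r) * 1) hu
      rw [h4] at h5
      have h6 := (key_eq G hD hr (mul_ne_zero (hchi0 r) one_ne_zero) one_ne_zero h5).2
      rw [mul_one] at h6
      exact h6.symm
    have hsimp : ∀ i : Fin D.rank, (∏ l ∈ Finset.range D.rank, c l ^ D.cartan l (D.simple i)) = 1 := by
      intro i
      by_cases hij : i = j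
      · subst hij
        exact hfix (simpF G i) (pos_simpF G i) (co_simple_ne G)
      · obtain ⟨s, hs, s', hs', hsp, hsp', hsj, hsj', hch⟩ := hC i i.2 j j.2 (fun h => hij (Fin.ext h))
        have h1 := hfix ⟨s, hs⟩ hsp hsj
        have h2 := hfix ⟨s', hs'⟩ hsp' hsj'
        have e3 := rv_of_chain G i.2 hs' hch
        have h3 : (∏ l ∈ Finset.range D.rank, c l ^ D.cartan l s) =
            (∏ l ∈ Finset.range D.rank, c l ^ D.cartan l s') *
              (∏ l ∈ Finset.range D.rank, c l ^ D.cartan l (D.simple i)) := by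
          rw [← Finset.prod_mul_distrib]
          refine Finset.prod_congr rfl fun l hl => ?_
          have hl' := Finset.mem_range.mp hl
          rw [← zpow_add₀ (hc0 l hl')]
          congr 1
          rw [G.ca_lin l hl' s hs, G.ca_lin l hl' s' hs']
          have e7 : ∀ m ∈ Finset.range D.rank, G.rv s m * D.cartan l (D.simple m) =
              G.rv s' m * D.cartan l (D.simple m) + (if m = (i : ℕ) then D.cartan l (D.simple i) else 0) := by
            intro m _
            rw [e3 m]
            by_cases hm : m = (i : ℕ)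
            · rw [if_pos hm, if_pos hm, hm]; ring
            · rw [if_neg hm, if_neg hm]; ring
          rw [Finset.sum_congr rfl e7, Finset.sum_add_distrib, Finset.sum_ite_eq' (Finset.range D.rank) (i : ℕ),
            if_pos (Finset.mem_range.mpr i.2)]
        have h1' : (∏ l ∈ Finset.range D.rank, c l ^ D.cartan l s) = 1 := h1
        have h2' : (∏ l ∈ Finset.range D.rank, c l ^ D.cartan l s') = 1 := h2
        rw [h1', h2', one_mul] at h3
        exact h3.symm
    apply ChevSimple.H_eq_one_of_comm G hh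
    intro r hr
    rw [hconj r hr]
    have h1 : (∏ l ∈ Finset.range D.rank, c l ^ D.cartan l r) = 1 := by
      have h2 : ∀ l ∈ Finset.range D.rank, c l ^ D.cartan l r =
          ∏ m ∈ Finset.range D.rank, (c l ^ D.cartan l (D.simple m)) ^ G.rv r m := by
        intro l hl
        rw [G.ca_lin l (Finset.mem_range.mp hl) r hr, ChevH.zpow_sum_eq (hc0 l (Finset.mem_range.mp hl))]
        refine Finset.prod_congr rfl fun m _ => ?_
        rw [← zpow_mul]
        congr 1
        ring
      rw [Finset.prod_congr rfl h2, Finset.prod_comm]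
      refine Finset.prod_eq_one fun m hm => ?_
      rw [Finset.prod_zpow, hsimp ⟨m, Finset.mem_range.mp hm⟩, one_zpow]
    rw [h1, one_mul]
  rw [hbu, hh1, mul_one]
  exact hu

end

def ok2 (i j s s' : ℕ) : Bool := Nat.ble 4 s && Nat.ble 4 s' && !(co chevB2 s j == 0) && !(co chevB2 s' j == 0) &&
  (((chevB2.chainEntry (chevB2.simple i) s')[0]?.map Prod.fst) == some s)

theorem ok2_0 : ok2 0 1 6 4 = true := by decide +kernel
theorem ok2_1 : ok2 1 0 6 5 = true := by decide +kernel

theorem conn2_B2 : Conn2 chevB2 := by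
  have key : ∀ i j s s' : ℕ, ok2 i j s s' = true → 4 ≤ s ∧ 4 ≤ s' ∧ co chevB2 s j ≠ 0 ∧
      co chevB2 s' j ≠ 0 ∧ ((chevB2.chainEntry (chevB2.simple i) s')[0]?.map Prod.fst) = some s := by
    intro i j s s' h
    simp only [ok2, Bool.and_eq_true, Nat.ble_eq, Bool.not_eq_true', beq_eq_false_iff_ne, beq_iff_eq] at h
    obtain ⟨⟨⟨⟨h1, h2⟩, h3⟩, h4⟩, h5⟩ := h
    exact ⟨h1, h2, h3, h4, h5⟩
  intro i hi j hj hij
  have hi' : i < 2 := hi
  have hj' : j < 2 := hj
  rcases (by omega : (i = 0 ∧ j = 1) ∨ (i = 1 ∧ j = 0)) with ⟨rfl, rfl⟩ | ⟨rfl, rfl⟩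
  · exact ⟨6, by decide, 4, by decide, key _ _ _ _ ok2_0⟩
  · exact ⟨6, by decide, 5, by decide, key _ _ _ _ ok2_1⟩

/-- the centralizer of the unipotent radical of a maximal parabolic subgroup -/
theorem mem_U_of_comm' (G : Good D) (hD : Listed D) (j : Fin D.rank) {g : GL D.Idx F} (hg : g ∈ D.group F)
    (hc : ∀ y ∈ D.unipotentRadical F {i | i ≠ (j : ℕ)}, g * y = y * g) : g ∈ D.posUnipotent F := by
  have hD' := hD
  simp only [Listed, List.mem_cons, List.not_mem_nil, or_false] at hD'
  rcases hD' with rfl | rfl | rfl | rfl | rfl | rfl | rfl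
  · exact mem_U_of_comm G hD ChevBlocks.conn_G2 j hg hc
  · exact mem_U_of_comm2 G hD conn2_B2 j hg hc
  · exact mem_U_of_comm G hD ChevBlocks.conn_D4 j hg hc
  · exact mem_U_of_comm G hD ChevBlocks.conn_F4 j hg hc
  · exact mem_U_of_comm G hD ChevBlocks.conn_E6 j hg hc
  · exact mem_U_of_comm G hD ChevBlocks.conn_E7 j hg hc
  · exact mem_U_of_comm G hD ChevBlocks.conn_E8 j hg hc

/-- proper standard parabolic subgroups have characteristic `p` -/
theorem charP'_parabolic [Fintype F] {p : ℕ} [Fact p.Prime] [CharP F p] (G : Good D) (hD : Listed D) {J : Set ℕ}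
    (hJ : ∃ i, i < D.rank ∧ i ∉ J) : H49Base.CharP' p ↥(D.parabolicSubgroup F J) := by
  obtain ⟨i, hi, hiJ⟩ := hJ
  have hPG : D.parabolicSubgroup F J ≤ D.group F := by
    rw [ChevPar.parabolic_eq G]
    exact sup_le (ChevBN.H_le_group G) (ChevU.XS_le fun r _ t => ChevAuto.xg_mem G r t)
  have hUB : D.unipotentRadical F J ≤ D.posUnipotent F := by
    rw [ChevPar.unipotentRadical_eq G, ChevU.posUnipotent_eq G]
    exact ChevU.XS_mono fun r hr => hr.1
  have hUP : D.unipotentRadical F J ≤ D.parabolicSubgroup F J := fun u hu =>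
    ChevPar.B_le_P G J (ChevH.U_le_B (hUB hu))
  have hpU := ChevBlocks.isPGroup_posUnipotent (F := F) p G
  set Q : Subgroup ↥(D.parabolicSubgroup F J) := (D.unipotentRadical F J).subgroupOf (D.parabolicSubgroup F J) with hQ
  have hQn : Q.Normal := by
    constructor
    intro u hu g
    have h1 := ChevPar.P_le_normalizer (F := F) G J g.2
    rw [← ChevPar.unipotentRadical_eq G, Subgroup.mem_normalizer_iff] at h1
    exact (h1 u).mp hu
  have hQp : IsPGroup p Q := by
    have h1 : IsPGroup p ↥(D.unipotentRadical F J) := hpU.to_le hUB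
    exact h1.comap_of_injective _ (Subgroup.subtype_injective _)
  have hQ1 : Q ≤ Cfsg.pCore p _ := Lib.Cores.le_pCore hQn hQp
  have key : ∀ c ∈ Subgroup.centralizer (Cfsg.pCore p ↥(D.parabolicSubgroup F J) : Set ↥(D.parabolicSubgroup F J)),
      (c : GL D.Idx F) ∈ D.posUnipotent F := by
    intro c hc
    refine mem_U_of_comm' G hD ⟨i, hi⟩ (hPG c.2) fun y hy => ?_
    have hyJ : y ∈ D.unipotentRadical F J := by
      rw [ChevPar.unipotentRadical_eq G] at hy ⊢
      refine ChevU.XS_mono ?_ hy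
      rintro r ⟨hr1, hr2⟩
      refine ⟨hr1, fun h => hr2 ⟨h.1, fun k hk hkj => h.2 k hk ?_⟩⟩
      intro hkJ
      have : k = i := by
        by_contra hne
        exact hkj hne
      rw [this] at hkJ
      exact hiJ hkJ
    have h1 := Subgroup.mem_centralizer_iff.mp hc ⟨y, hUP hyJ⟩ (hQ1 hyJ)
    exact (congrArg Subtype.val h1).symm
  have hch := Lib.Cores.pCore_characteristic p ↥(D.parabolicSubgroup F J)
  have hn : (Cfsg.pCore p ↥(D.parabolicSubgroup F J)).Normal := inferInstance
  show Subgroup.centralizer _ ≤ _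
  refine Lib.Cores.le_pCore inferInstance ?_
  have h2 : Subgroup.centralizer (Cfsg.pCore p ↥(D.parabolicSubgroup F J) : Set ↥(D.parabolicSubgroup F J)) ≤
      (D.posUnipotent F).subgroupOf (D.parabolicSubgroup F J) := fun c hc => key c hc
  have h3 : IsPGroup p ↥((D.posUnipotent F).comap (D.parabolicSubgroup F J).subtype) :=
    hpU.comap_of_injective _ (Subgroup.subtype_injective _)
  exact h3.to_le h2

end Cfsg.Agent.Lib.ChevRadCent
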