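import Cfsg.Agent.Lib.ChevSS9

set_option autoImplicit false

/-!
# Semisimple elements of order divisible by the index of connection (helper40)
-/

namespace Cfsg.Agent.Lib.ChevSS
open Cfsg.Lie Cfsg.Agent.Lib.ChevX Cfsg.Agent.Lib.ChevGood Cfsg.Agent.Lib.ChevRel Cfsg.Agent.Lib.ChevNPerm
  Cfsg.Agent.Lib.ChevPoinc Cfsg.Agent.Lib.ChevFix Cfsg.Agent.Lib.ChevHOrder Cfsg.Agent.Lib.ChevClosed Cfsg.Agent.Lib.ChevTorus
open Cfsg.Agent.Lib.ChevBruhat (Listed exists_bruhat bruhat_unique diag_conj_XS inf_UH mem_borel mem_borel' borel_U borel_H)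
open scoped MatrixGroups Matrix

/-- orbits of a permutation of prime power order without certain fixed points -/
theorem dvd_card_of_perm {Y : Type*} [Finite Y] (r : ℕ) [hr : Fact r.Prime] (σ : Equiv.Perm Y) {b J : ℕ} (hσ : σ ^ r ^ b = 1)
    (hfree : ∀ y, (σ ^ r ^ J) y ≠ y) : r ^ (J + 1) ∣ Nat.card Y := by
  classical
  have := Fintype.ofFinite Y
  have e := MulAction.selfEquivSigmaOrbits (Subgroup.zpowers σ) Y
  rw [Nat.card_congr e, Nat.card_sigma]
  apply Finset.dvd_sum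
  rintro ω -
  set y := ω.out with hy
  have h1 : Nat.card (MulAction.orbit (Subgroup.zpowers σ) y) ∣ Nat.card (Subgroup.zpowers σ) := by
    rw [Nat.card_congr (MulAction.orbitEquivQuotientStabilizer (Subgroup.zpowers σ) y)]
    exact Subgroup.card_quotient_dvd_card _
  rw [Nat.card_zpowers] at h1
  have h2 := h1.trans (orderOf_dvd_of_pow_eq_one hσ)
  obtain ⟨c, -, hc⟩ := (Nat.dvd_prime_pow hr.out).mp h2
  rw [hc]
  apply pow_dvd_pow
  by_contra hlt
  have hlt' : c ≤ J := by omega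
  apply hfree y
  -- the stabilizer contains σ ^ (r ^ c)
  have h3 : (⟨σ, Subgroup.mem_zpowers σ⟩ : Subgroup.zpowers σ) ^ (r ^ c) ∈ MulAction.stabilizer (Subgroup.zpowers σ) y := by
    have hidx : (MulAction.stabilizer (Subgroup.zpowers σ) y).index = r ^ c := by
      rw [MulAction.index_stabilizer, ← hc]
      exact (Nat.card_coe_set_eq _).symm
    rw [← hidx]
    have hn : (MulAction.stabilizer (Subgroup.zpowers σ) y).Normal := inferInstance
    exact Subgroup.pow_index_mem _ _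
  have h4 : (σ ^ r ^ c) y = y := h3
  obtain ⟨k, hk⟩ := pow_dvd_pow r hlt'
  rw [hk, pow_mul]
  have h5 : ∀ m : ℕ, ((σ ^ r ^ c) ^ m) y = y := by
    intro m
    induction m with
    | zero => rfl
    | succ m ih => rw [pow_succ, Equiv.Perm.mul_apply, h4, ih]
  exact h5 k

section
variable {D : ChevalleyDatum} (G : Good D) {K : Type*} [Field K]
include G

/-- a fixed flag for elements of prime power order -/
theorem fixed_flag_pp [IsAlgClosed K] (hD : Listed D) (hmin : NoMin G) {d : ℕ} (cd : CertD D d) (p : ℕ) [Fact p.Prime] [CharP K p]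
    (e : ℕ) (he : e ≠ 0) (φ : RingAut K) (hφ : ∀ a, φ a = a ^ (p ^ e)) {t : GL D.Idx K} (ht : t ∈ D.diagonalSubgroup K)
    {n : ℕ} (hn : (n : K) ≠ 0) (hnd : n.Coprime d) (htn : t ^ n = 1) (htφ : em D (φ : K →+* K) t = t) (y : ↥(cen D t))
    (hyφ : em D (φ : K →+* K) y = y) (r : ℕ) [Fact r.Prime] {a : ℕ} (hyr : y ^ r ^ a = 1) (hr : p ^ e ≡ 1 [MOD r]) :
    ∃ g ∈ cen D t, g⁻¹ * y * g ∈ D.borelSubgroup K := by
  by_contra hcon
  push Not at hcon
  have hfree : ∀ ω, Lp D t y ω ≠ ω := by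
    intro ω hω
    obtain ⟨g, rfl⟩ := QuotientGroup.mk_surjective ω
    rw [Lp_mk, eq_comm, QuotientGroup.eq] at hω
    unfold Bt at hω
    rw [Subgroup.mem_subgroupOf, Subgroup.coe_mul, Subgroup.coe_inv, Subgroup.coe_mul, ← mul_assoc] at hω
    exact hcon g g.2 hω
  have hcl : ∀ k : ℕ, em D ((φ ^ k : RingAut K) : K →+* K) t = t := by
    intro k
    induction k with
    | zero => apply Units.ext; ext i j; rfl
    | succ k ih => rw [em_pow, ih, htφ]
  have hcl0 : ∀ g ∈ cen D t, em D (φ : K →+* K) g ∈ cen D t := fun g hg => em_cen G htφ hg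
  have hcl1 : ∀ g ∈ cen D t, em D (φ.symm : K →+* K) g ∈ cen D t := fun g hg => em_cen G (by
    conv_lhs => rw [← htφ]
    apply Units.ext; ext i j
    exact φ.symm_apply_apply _) hg
  let S := SP G t φ hcl0 hcl1
  have hSk : ∀ (k : ℕ) (g g' : ↥(cen D t)), (g' : GL D.Idx K) = em D ((φ ^ k : RingAut K) : K →+* K) g →
      (S ^ k) (QuotientGroup.mk g) = QuotientGroup.mk g' := by
    intro k
    induction k with
    | zero =>
      intro g g' h
      have : g' = g := Subtype.ext (by rw [h]; apply Units.ext; ext i j; rfl)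
      rw [this]; rfl
    | succ k ih =>
      intro g g' h
      rw [pow_succ', Equiv.Perm.mul_apply, ih g ⟨em D ((φ ^ k : RingAut K) : K →+* K) g, em_cen G (hcl k) g.2⟩ rfl]
      apply SP_mk G
      rw [h, em_pow]
  have hcomm : Commute (Lp D t y) S := by
    ext ω
    obtain ⟨g, rfl⟩ := QuotientGroup.mk_surjective ω
    have h1 : S (QuotientGroup.mk g) = QuotientGroup.mk (⟨em D (φ : K →+* K) g, hcl0 g g.2⟩ : ↥(cen D t)) := SP_mk G g _ rfl
    rw [Equiv.Perm.mul_apply, Equiv.Perm.mul_apply, h1, Lp_mk, Lp_mk]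
    symm
    apply SP_mk G
    rw [Subgroup.coe_mul, Subgroup.coe_mul, map_mul, hyφ]
  have hr0 : 0 < r := (Fact.out : r.Prime).pos
  -- counting
  have hcount : ∀ j : ℕ, Nat.card {ω // (S ^ (r ^ j) * Lp D t y) ω = ω} = flagSum G t (p ^ (e * r ^ j)) ∧
      Finite {ω // (S ^ (r ^ j) * Lp D t y) ω = ω} := by
    intro j
    have hej : e * r ^ j ≠ 0 := mul_ne_zero he (pow_ne_zero _ hr0.ne')
    have hφj := frob_pow hφ (r ^ j)
    have hclj : ∀ g ∈ cen D t, em D ((φ ^ (r ^ j) : RingAut K) : K →+* K) g ∈ cen D t := fun g hg => em_cen G (hcl _) hg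
    obtain ⟨h1, h2⟩ := card_fix_S G hD p (e * r ^ j) hej (φ ^ (r ^ j) : RingAut K) hφj ht (S ^ (r ^ j)) (hSk (r ^ j)) hclj
    -- Lang
    obtain ⟨h, hh, hhe⟩ := lang_cen G hD hmin cd p (e * r ^ j) hej ((φ ^ (r ^ j) : RingAut K) : K →+* K) hφj ht hn hnd htn (x := 1)
      (fun g hg => by rw [one_mul, inv_one, mul_one]; exact hclj g hg) (hclj y y.2)
    rw [one_mul, inv_one, mul_one] at hhe
    have e : {ω // (S ^ (r ^ j) * Lp D t y) ω = ω} ≃ {ω // (S ^ (r ^ j)) ω = ω} := by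
      refine (Lp D t ⟨h, hh⟩).subtypeEquiv fun ω => ?_
      obtain ⟨x, rfl⟩ := QuotientGroup.mk_surjective ω
      rw [Equiv.Perm.mul_apply, Lp_mk, Lp_mk, hSk (r ^ j) (y * x) ⟨em D ((φ ^ (r ^ j) : RingAut K) : K →+* K) (y * x : ↥(cen D t)), hclj _ (y * x).2⟩ rfl,
        hSk (r ^ j) (⟨h, hh⟩ * x) ⟨em D ((φ ^ (r ^ j) : RingAut K) : K →+* K) (⟨h, hh⟩ * x : ↥(cen D t)), hclj _ (⟨h, hh⟩ * x : ↥(cen D t)).2⟩ rfl]
      have e1 : (QuotientGroup.mk (⟨em D ((φ ^ (r ^ j) : RingAut K) : K →+* K) (⟨h, hh⟩ * x : ↥(cen D t)), hclj _ (⟨h, hh⟩ * x : ↥(cen D t)).2⟩ : ↥(cen D t)) : Fl D t)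
          = Lp D t ⟨h, hh⟩ (QuotientGroup.mk (⟨em D ((φ ^ (r ^ j) : RingAut K) : K →+* K) (y * x : ↥(cen D t)), hclj _ (y * x).2⟩ : ↥(cen D t))) := by
        rw [Lp_mk]
        congr 1
        apply Subtype.ext
        change em D ((φ ^ (r ^ j) : RingAut K) : K →+* K) (h * x) = h * em D ((φ ^ (r ^ j) : RingAut K) : K →+* K) ((y : GL D.Idx K) * x)
        rw [map_mul, map_mul, ← hhe]; group
      have e2 : (QuotientGroup.mk (⟨h, hh⟩ * x) : Fl D t) = Lp D t ⟨h, hh⟩ (QuotientGroup.mk x) := rfl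
      rw [e1, e2, (Lp D t ⟨h, hh⟩).injective.eq_iff]
    exact ⟨by rw [← h1]; exact Nat.card_congr e, Finite.of_equiv _ e.symm⟩
  have hdiv : ∀ J : ℕ, r ^ (J + 1) ∣ flagSum G t (p ^ (e * r ^ J)) := by
    intro J
    obtain ⟨h1, h2⟩ := hcount J
    rw [← h1]
    have hcS : Commute (S ^ (r ^ J) * Lp D t y) S := ((Commute.refl S).pow_left _).mul_left hcomm
    have hmem : ∀ ω, (S ^ (r ^ J) * Lp D t y) (S ω) = S ω ↔ (S ^ (r ^ J) * Lp D t y) ω = ω := by
      intro ω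
      rw [← Equiv.Perm.mul_apply, hcS.eq, Equiv.Perm.mul_apply, S.injective.eq_iff]
    let S' : Equiv.Perm {ω // (S ^ (r ^ J) * Lp D t y) ω = ω} := S.subtypePerm hmem
    have hSpow : ∀ (k : ℕ) (x : {ω // (S ^ (r ^ J) * Lp D t y) ω = ω}), ((S' ^ k) x).1 = (S ^ k) x.1 := by
      intro k x
      change (((S.subtypePerm hmem) ^ k) x).1 = _
      rw [Equiv.Perm.subtypePerm_pow]
      rfl
    have hx2 : ∀ x : {ω // (S ^ (r ^ J) * Lp D t y) ω = ω}, Lp D t y ((S ^ r ^ J) x.1) = x.1 := by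
      intro x
      have h5 : S ^ (r ^ J) * Lp D t y = Lp D t y * S ^ (r ^ J) := (hcomm.pow_right _).eq.symm
      exact (congrArg (fun f : Equiv.Perm (Fl D t) => f x.1) h5).symm.trans x.2
    refine dvd_card_of_perm r S' (b := J + a) (J := J) ?_ ?_
    · apply Equiv.ext
      intro x
      apply Subtype.ext
      rw [hSpow]
      have h3 : (S ^ (r ^ J)) x.1 = (Lp D t y)⁻¹ x.1 := by
        rw [Equiv.Perm.eq_inv_iff_eq]
        exact hx2 x
      have h6 : ∀ m : ℕ, (S ^ (r ^ J * m)) x.1 = ((Lp D t y)⁻¹ ^ m) x.1 := by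
        intro m
        induction m with
        | zero => rfl
        | succ m ih =>
          rw [Nat.mul_succ, add_comm, pow_add, Equiv.Perm.mul_apply, ih, ← Equiv.Perm.mul_apply]
          have h7 : Commute (S ^ r ^ J) ((Lp D t y)⁻¹ ^ m) := ((hcomm.symm.pow_left _).inv_right).pow_right _
          rw [h7.eq, Equiv.Perm.mul_apply, h3, pow_succ, Equiv.Perm.mul_apply]
      rw [pow_add, h6, inv_pow, ← map_pow, hyr, map_one, inv_one]
      rfl
    · intro x hx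
      have h3 := congrArg Subtype.val hx
      rw [hSpow] at h3
      apply hfree x.1
      have h4 := hx2 x
      rwa [h3] at h4
  classical
  -- the number of elements of the stabilizer
  have hmod : ∀ J : ℕ, r ^ (J + 1) ∣ (Finset.univ.filter fun w => w ∈ Wt G t).card := by
    intro J
    have h1 := hdiv J
    unfold flagSum at h1
    have h2 : ((r : ℤ) ^ (J + 1)) ∣ ((p ^ (e * r ^ J) : ℕ) : ℤ) - 1 := by
      have h3 : (r : ℤ) ∣ ((p ^ e : ℕ) : ℤ) - 1 := by
        have := (Nat.modEq_iff_dvd.mp hr.symm)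
        simpa using this
      have h4 := dvd_sub_pow_of_dvd_sub (R := ℤ) (p := r) (a := ((p ^ e : ℕ) : ℤ)) (b := 1) h3 J
      rw [one_pow] at h4
      rwa [pow_mul, Nat.cast_pow (p ^ e)]
    have h3 : ((r : ℤ) ^ (J + 1)) ∣ (∑ w ∈ Finset.univ.filter (fun w => w ∈ Wt G t), (((p ^ (e * r ^ J) : ℕ) : ℤ)) ^ nI t w) -
        (Finset.univ.filter fun w => w ∈ Wt G t).card := by
      have h4 : (∑ w ∈ Finset.univ.filter (fun w => w ∈ Wt G t), (((p ^ (e * r ^ J) : ℕ) : ℤ)) ^ nI t w) - (Finset.univ.filter fun w => w ∈ Wt G t).card =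
          ∑ w ∈ Finset.univ.filter (fun w => w ∈ Wt G t), ((((p ^ (e * r ^ J) : ℕ) : ℤ)) ^ nI t w - 1) := by
        rw [Finset.sum_sub_distrib]; simp
      rw [h4]
      refine Finset.dvd_sum fun i _ => h2.trans ?_
      have := sub_dvd_pow_sub_pow (((p ^ (e * r ^ J) : ℕ) : ℤ)) 1 (nI t i)
      rwa [one_pow] at this
    have h4 : ((r : ℤ) ^ (J + 1)) ∣ ∑ w ∈ Finset.univ.filter (fun w => w ∈ Wt G t), (((p ^ (e * r ^ J) : ℕ) : ℤ)) ^ nI t w := by
      exact_mod_cast h1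
    have h5 := dvd_sub h4 h3
    rw [sub_sub_cancel] at h5
    exact_mod_cast h5
  have hpos : 0 < (Finset.univ.filter fun w => w ∈ Wt G t).card :=
    Finset.card_pos.mpr ⟨1, by rw [Finset.mem_filter]; exact ⟨Finset.mem_univ _, one_mem _, fun s => rfl⟩⟩
  have h1 := Nat.le_of_dvd hpos (hmod (Finset.univ.filter fun w => w ∈ Wt G t).card)
  have h2 := Nat.lt_pow_self (n := (Finset.univ.filter fun w => w ∈ Wt G t).card + 1) (Fact.out : r.Prime).one_lt
  omega

omit G in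
theorem pow_fixK {p : ℕ} {a : K} {m : ℕ} (h : a ^ p ^ m = a) (k : ℕ) : a ^ p ^ (m * k) = a := by
  induction k with
  | zero => simp
  | succ k ih => rw [Nat.mul_succ, pow_add, pow_mul, ih, h]

omit G in
/-- a common field of definition -/
theorem exists_frob_fix {p : ℕ} (hfin : ∀ a : K, ∃ m : ℕ, m ≠ 0 ∧ a ^ (p ^ m) = a) (L : List (GL D.Idx K)) :
    ∃ m : ℕ, m ≠ 0 ∧ ∀ g ∈ L, ∀ i j, (g : Matrix D.Idx D.Idx K) i j ^ p ^ m = (g : Matrix D.Idx D.Idx K) i j := by
  have key : ∀ g : GL D.Idx K, ∃ m : ℕ, m ≠ 0 ∧ ∀ i j, (g : Matrix D.Idx D.Idx K) i j ^ p ^ m = (g : Matrix D.Idx D.Idx K) i j := by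
    intro g
    choose f hf using fun ij : D.Idx × D.Idx => hfin ((g : Matrix D.Idx D.Idx K) ij.1 ij.2)
    refine ⟨∏ ij, f ij, Finset.prod_ne_zero_iff.mpr fun ij _ => (hf ij).1, fun i j => ?_⟩
    obtain ⟨k, hk⟩ := Finset.dvd_prod_of_mem f (Finset.mem_univ (i, j))
    rw [hk]
    exact pow_fixK (hf (i, j)).2 k
  induction L with
  | nil => exact ⟨1, one_ne_zero, fun g hg => by simp at hg⟩
  | cons g S ih =>
    obtain ⟨m, hm, h⟩ := ih
    obtain ⟨m', hm', h'⟩ := key g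
    refine ⟨m * m', Nat.mul_ne_zero hm hm', fun x hx i j => ?_⟩
    rcases List.mem_cons.mp hx with rfl | hx
    · rw [mul_comm]; exact pow_fixK (h' i j) m
    · exact pow_fixK (h x hx i j) m'

/-- **semisimple elements are conjugate into the torus**, general case for a prime index -/
theorem toral_two [IsAlgClosed K] (hD : Listed D) (hmin : NoMin G) {d : ℕ} (cd : CertD D d) (p : ℕ) [Fact p.Prime] [CharP K p]
    (hfin : ∀ a : K, ∃ m : ℕ, m ≠ 0 ∧ a ^ (p ^ m) = a) {m r a : ℕ} [hr : Fact r.Prime] (hm : (m : K) ≠ 0) (hmd : m.Coprime d)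
    (hrK : (r : K) ≠ 0) (hmr : m.Coprime r) {y : GL D.Idx K} (hy : y ∈ D.group K) (hyn : y ^ (m * r ^ a) = 1) :
    ∃ g ∈ D.group K, g⁻¹ * y * g ∈ D.diagonalSubgroup K := by
  obtain ⟨α, β, hab⟩ : ∃ α β : ℤ, α * r ^ a + β * m = 1 := by
    have h1 : IsCoprime ((r ^ a : ℕ) : ℤ) (m : ℤ) := by
      rw [Nat.isCoprime_iff_coprime]
      exact (Nat.Coprime.pow_right a hmr).symm
    obtain ⟨α, β, h⟩ := h1
    exact ⟨α, β, by push_cast at h; exact h⟩
  set s := y ^ (α * r ^ a) with hs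
  set u := y ^ (β * m) with hu
  have hsm : s ^ m = 1 := by
    rw [hs, ← zpow_natCast, ← zpow_mul, show α * (r : ℤ) ^ a * m = ((m * r ^ a : ℕ) : ℤ) * α by push_cast; ring, zpow_mul, zpow_natCast, hyn, one_zpow]
  have hur : u ^ r ^ a = 1 := by
    rw [hu, ← zpow_natCast, ← zpow_mul, show β * (m : ℤ) * ((r ^ a : ℕ) : ℤ) = ((m * r ^ a : ℕ) : ℤ) * β by push_cast; ring, zpow_mul, zpow_natCast, hyn, one_zpow]
  have hysu : y = s * u := by rw [hs, hu, ← zpow_add, hab, zpow_one]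
  have hsu : s * u = u * s := by rw [hs, hu, ← zpow_add, ← zpow_add, add_comm]
  obtain ⟨g, hg, hgt⟩ := toral G hD hmin cd p hfin m hm hmd s (zpow_mem hy _) hsm
  set t := g⁻¹ * s * g with ht
  set v := g⁻¹ * u * g with hv
  have hvt : v ∈ cen D t := by
    refine mem_cen.mpr ⟨mul_mem (mul_mem (inv_mem hg) (zpow_mem hy _)) hg, ?_⟩
    calc t * v = g⁻¹ * (s * u) * g := by rw [ht, hv]; group
      _ = g⁻¹ * (u * s) * g := by rw [hsu]
      _ = v * t := by rw [ht, hv]; group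
  have hconj : ∀ (x : GL D.Idx K) (k : ℕ), (g⁻¹ * x * g) ^ k = g⁻¹ * x ^ k * g := by
    intro x k
    have := conj_pow (i := k) (a := g⁻¹) (b := x)
    rwa [inv_inv] at this
  have htm : t ^ m = 1 := by rw [ht, hconj, hsm]; group
  have hvr : v ^ r ^ a = 1 := by rw [hv, hconj, hur]; group
  obtain ⟨m0, hm00, hm0⟩ := exists_frob_fix hfin [t, v]
  let e := m0 * (r - 1)
  have hr2 := hr.out.two_le
  have he : e ≠ 0 := mul_ne_zero hm00 (by omega)
  have hpr : ¬ r ∣ p := by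
    intro h
    rcases (Nat.dvd_prime (Fact.out : p.Prime)).mp h with h1 | h1
    · exact hr.out.one_lt.ne' h1
    · apply hrK; rw [h1]; exact CharP.cast_eq_zero K p
  have hmod : p ^ e ≡ 1 [MOD r] := by
    have h1 : (p ^ m0).Coprime r := Nat.Coprime.pow_left _ ((Nat.Prime.coprime_iff_not_dvd hr.out).mpr hpr).symm
    have h2 := Nat.ModEq.pow_totient h1
    rw [Nat.totient_prime hr.out, ← pow_mul] at h2
    exact h2
  have : ExpChar K p := ExpChar.prime Fact.out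
  have : PerfectRing K p := inferInstance
  let φ : RingAut K := iterateFrobeniusEquiv K p e
  have hφ : ∀ a, φ a = a ^ (p ^ e) := fun a => rfl
  have hfixφ : ∀ x ∈ [t, v], em D (φ : K →+* K) x = x := by
    intro x hx
    apply Units.ext
    ext i j
    change φ ((x : Matrix D.Idx D.Idx K) i j) = _
    rw [hφ]
    exact pow_fixK (hm0 x hx i j) _
  obtain ⟨h, hh, hhb⟩ := fixed_flag_pp G hD hmin cd p e he φ hφ hgt hm hmd htm (hfixφ t (by simp)) ⟨v, hvt⟩ (hfixφ v (by simp)) r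
    (a := a) (Subtype.ext hvr) hmod
  have hht : h⁻¹ * (t * v) * h = t * (h⁻¹ * v * h) := by
    have h1 := (mem_cen.mp hh).2
    calc h⁻¹ * (t * v) * h = (h⁻¹ * t * h) * (h⁻¹ * v * h) := by group
      _ = t * (h⁻¹ * v * h) := by rw [mul_assoc h⁻¹ t h, h1]; group
  have hyb : h⁻¹ * (t * v) * h ∈ D.borelSubgroup K := by
    rw [hht]
    exact mul_mem (borel_H G hgt) hhb
  have hyt : g⁻¹ * y * g = t * v := by rw [hysu, ht, hv]; group
  have hyo : (h⁻¹ * (t * v) * h) ^ (m * r ^ a) = 1 := by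
    have h1 := conj_pow (i := m * r ^ a) (a := h⁻¹) (b := t * v)
    rw [inv_inv] at h1
    rw [h1, ← hyt, hconj, hyn]; group
  obtain ⟨w, hw, hwt⟩ := borel_ss G hD (n := m * r ^ a) (by
    rw [Nat.cast_mul, Nat.cast_pow]
    exact mul_ne_zero hm (pow_ne_zero _ hrK)) hyb hyo
  refine ⟨g * h * w⁻¹, mul_mem (mul_mem hg (mem_cen.mp hh).1) (inv_mem ?_), ?_⟩
  · rw [← XS_posS G] at hw
    exact XS_le (M := D.group K) (fun r _ t => ChevAuto.xg_mem G r t) hw
  · have e1 : (g * h * w⁻¹)⁻¹ * y * (g * h * w⁻¹) = w * (h⁻¹ * (g⁻¹ * y * g) * h) * w⁻¹ := by group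
    rw [e1, hyt]
    exact hwt

end

end Cfsg.Agent.Lib.ChevSS
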