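import Cfsg.Agent.Lib.ChevSS10

set_option autoImplicit false

/-!
# Lang's theorem for the connected centralizer, the component group (helper40)
-/

namespace Cfsg.Agent.Lib.ChevSS
open Cfsg.Lie Cfsg.Agent.Lib.ChevX Cfsg.Agent.Lib.ChevGood Cfsg.Agent.Lib.ChevRel Cfsg.Agent.Lib.ChevNPerm
  Cfsg.Agent.Lib.ChevPoinc Cfsg.Agent.Lib.ChevFix Cfsg.Agent.Lib.ChevHOrder Cfsg.Agent.Lib.ChevClosed Cfsg.Agent.Lib.ChevTorus
open Cfsg.Agent.Lib.ChevBruhat (Listed exists_bruhat bruhat_unique diag_conj_XS inf_UH mem_borel mem_borel' borel_U borel_H)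
open Cfsg.Agent.Lib.LangGen Cfsg.Agent.Lib.ChevLang
open scoped MatrixGroups Matrix

section clo
variable {ι K : Type*} [Fintype ι] [DecidableEq ι] [Field K]

/-- the Zariski closure of a group -/
def clo (H : Subgroup (GL ι K)) (hdet : ∀ g ∈ H, (g : Matrix ι ι K).det = 1) : Subgroup (GL ι K) where
  carrier := {g | ∀ f ∈ vI (mat H), ev (g : Matrix ι ι K) f = 0}
  mul_mem' {a b} ha hb := by
    change ∀ f ∈ vI (mat H), ev ((a * b : GL ι K) : Matrix ι ι K) f = 0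
    rw [Units.val_mul]
    exact closure_mul ha hb
  one_mem' := fun f hf => hf _ ⟨1, one_mem _, rfl⟩
  inv_mem' {a} ha := by
    have h1 := closure_inv hdet ha
    have h2 := closure_det hdet ha
    have h3 : ((a⁻¹ : GL ι K) : Matrix ι ι K) = (a : Matrix ι ι K).adjugate := by
      rw [Matrix.coe_units_inv, Matrix.inv_def, h2]
      simp
    change ∀ f ∈ vI (mat H), ev ((a⁻¹ : GL ι K) : Matrix ι ι K) f = 0
    rw [h3]
    exact h1

variable {H : Subgroup (GL ι K)} {hdet : ∀ g ∈ H, (g : Matrix ι ι K).det = 1}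

theorem mem_clo {g : GL ι K} : g ∈ clo H hdet ↔ ∀ f ∈ vI (mat H), ev (g : Matrix ι ι K) f = 0 := Iff.rfl

theorem le_clo : H ≤ clo H hdet := fun _ hg => mem_clo.mpr fun _ hf => hf _ (coe_mem_mat hg)

theorem zclosed_clo : ZClosed (mat (clo H hdet)) := by
  intro M hM
  have h1 : ∀ f ∈ vI (mat H), ev M f = 0 := by
    intro f hf
    apply hM
    rintro _ ⟨g, hg, rfl⟩
    exact mem_clo.mp hg f hf
  have h2 := closure_det hdet h1
  have h3 : IsUnit M := (Matrix.isUnit_iff_isUnit_det M).mpr (by rw [h2]; exact isUnit_one)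
  obtain ⟨g, rfl⟩ := h3
  exact ⟨g, mem_clo.mpr h1, rfl⟩

theorem irr_clo (h : Irr (mat H)) : Irr (mat (clo H hdet)) := by
  refine ⟨⟨_, coe_mem_mat (one_mem _)⟩, fun f g hfg => ?_⟩
  rcases h.2 f g (fun s hs => by
    obtain ⟨x, hx, rfl⟩ := hs
    exact hfg _ (coe_mem_mat (le_clo hx))) with h1 | h1
  · left
    rintro _ ⟨x, hx, rfl⟩
    exact mem_clo.mp hx f h1
  · right
    rintro _ ⟨x, hx, rfl⟩
    exact mem_clo.mp hx g h1

theorem clo_le {C : Subgroup (GL ι K)} (hC : ZClosed (mat C)) (h : H ≤ C) : clo H hdet ≤ C := by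
  intro g hg
  obtain ⟨x, hx, he⟩ := hC (g : Matrix ι ι K) (fun f hf => mem_clo.mp hg f (vI_anti (by
    rintro _ ⟨y, hy, rfl⟩
    exact coe_mem_mat (h hy)) hf))
  have : x = g := Units.ext he
  rwa [← this]

/-- the Frobenius map on polynomials -/
noncomputable def frP (q : ℕ) : MvPolynomial (ι × ι) K →ₐ[K] MvPolynomial (ι × ι) K := MvPolynomial.aeval (fun p => MvPolynomial.X p ^ q)

omit [Fintype ι] [DecidableEq ι] in
theorem ev_frP (q : ℕ) (M : Matrix ι ι K) (f : MvPolynomial (ι × ι) K) : ev M (frP q f) = ev (M.map (· ^ q)) f := by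
  have : (ev M).comp (frP q) = ev (M.map (· ^ q)) := by
    apply MvPolynomial.algHom_ext
    intro p
    simp [frP]
  exact DFunLike.congr_fun this f

theorem clo_stable {q : ℕ} {φ : K →+* K} (hφ : ∀ a, φ a = a ^ q) {x : GL ι K} (hx : ∀ g ∈ H, x * Matrix.GeneralLinearGroup.map φ g * x⁻¹ ∈ H) :
    ∀ g ∈ clo H hdet, x * Matrix.GeneralLinearGroup.map φ g * x⁻¹ ∈ clo H hdet := by
  have hmap : ∀ g : GL ι K, ((Matrix.GeneralLinearGroup.map φ g : GL ι K) : Matrix ι ι K) = (g : Matrix ι ι K).map (· ^ q) := by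
    intro g
    ext i j
    exact hφ _
  have key : ∀ (g : GL ι K) (f : MvPolynomial (ι × ι) K), ev ((x * Matrix.GeneralLinearGroup.map φ g * x⁻¹ : GL ι K) : Matrix ι ι K) f =
      ev (g : Matrix ι ι K) (frP q (lm (x : Matrix ι ι K) (rm ((x⁻¹ : GL ι K) : Matrix ι ι K) f))) := by
    intro g f
    rw [ev_frP, ev_lm, ev_rm, Units.val_mul, Units.val_mul, hmap]
  intro g hg f hf
  rw [key]
  apply mem_clo.mp hg
  rintro _ ⟨y, hy, rfl⟩
  rw [← key]
  exact hf _ (coe_mem_mat (hx y hy))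

end clo

section
variable {D : ChevalleyDatum} (G : Good D) {K : Type*} [Field K]
include G

/-- **Lang's theorem for the connected centralizer** -/
theorem lang_gen [IsAlgClosed K] (p e : ℕ) [Fact p.Prime] [CharP K p]
    (he : e ≠ 0) (φ : K →+* K) (hφ : ∀ a, φ a = a ^ (p ^ e)) {t : GL D.Idx K} (ht : t ∈ D.diagonalSubgroup K) {x : GL D.Idx K}
    (hx : ∀ g ∈ gen t, x * em D φ g * x⁻¹ ∈ gen t) {y : GL D.Idx K} (hy : y ∈ gen t) :
    ∃ g ∈ cen D t, g⁻¹ * (x * em D φ g * x⁻¹) = y := by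
  have : Infinite K := IsAlgClosed.instInfinite
  have hle := gen_le_cen G ht
  have hdet : ∀ g ∈ gen t, (g : Matrix D.Idx D.Idx K).det = 1 := fun g hg => det_eq_one G p (mem_cen.mp (hle hg)).1
  have hle2 : clo (gen t) hdet ≤ cen D t := clo_le (zclosed_cen G p t) hle
  obtain ⟨g, hg, h⟩ := LangGen.lang p e he φ hφ (clo (gen t) hdet) zclosed_clo (irr_clo (irr_gen G t))
    (fun g hg => det_eq_one G p (mem_cen.mp (hle2 hg)).1) x (clo_stable hφ hx) (le_clo hy)
  exact ⟨g, hle2 hg, h⟩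

/-- the stabilizer of a coweight modulo `n`, criterion -/
theorem stab_crit (hmin : NoMin G) {M : Fin D.nroots → ℤ} (h : IsCw G M) {n : ℕ} (hn : n ≠ 0)
    {w : Equiv.Perm (Fin D.nroots)} (hw : w ∈ Wg G) {v : Fin D.nroots → ℤ} (hv : v ∈ Cr D) (hM : M ∘ w = M + (n : ℤ) • v) :
    w ∈ RG G (fun s => (n : ℤ) ∣ M s) := by
  classical
  obtain ⟨c0, hc0, hc0m⟩ : ∃ c0 ∈ Cr D, ∀ c ∈ Cr D, fm (M + (n : ℤ) • c0) (M + (n : ℤ) • c0) ≤ fm (M + (n : ℤ) • c) (M + (n : ℤ) • c) := by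
    have hex : ∃ k : ℕ, ∃ c ∈ Cr D, fm (M + (n : ℤ) • c) (M + (n : ℤ) • c) = k :=
      ⟨_, 0, zero_mem _, (Int.toNat_of_nonneg (fm_nonneg _)).symm⟩
    obtain ⟨c0, hc0, hc0k⟩ := Nat.find_spec hex
    refine ⟨c0, hc0, fun c hc => ?_⟩
    rw [hc0k]
    have h1 := Nat.find_min' hex (m := (fm (M + (n : ℤ) • c) (M + (n : ℤ) • c)).toNat) ⟨c, hc, (Int.toNat_of_nonneg (fm_nonneg _)).symm⟩
    have h2 : ((Nat.find hex : ℕ) : ℤ) ≤ ((fm (M + (n : ℤ) • c) (M + (n : ℤ) • c)).toNat : ℤ) := by exact_mod_cast h1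
    rwa [Int.toNat_of_nonneg (fm_nonneg _)] at h2
  set M' := M + (n : ℤ) • c0 with hM'
  have hcw' : IsCw G M' := isCw_add G h (isCw_smul G _ (isCw_of_mem G hc0))
  have hdvd : ∀ s, (n : ℤ) ∣ M' s ↔ (n : ℤ) ∣ M s := by
    intro s
    change (n : ℤ) ∣ M s + n * c0 s ↔ _
    exact (dvd_add_left (dvd_mul_right _ _))
  set v' := v + (c0 ∘ w - c0) with hv'
  have hv'c : v' ∈ Cr D := add_mem hv (sub_mem (Cr_comp G hc0 hw) hc0)
  have hwv : M' ∘ w = M' + (n : ℤ) • v' := by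
    funext s
    have h1 := congrFun hM s
    change M (w s) = M s + n * v s at h1
    change M (w s) + n * c0 (w s) = (M s + n * c0 s) + n * (v s + (c0 (w s) - c0 s))
    rw [h1]; ring
  have hmin' : ∀ c ∈ Cr D, fm M' M' ≤ fm (M' + (n : ℤ) • c) (M' + (n : ℤ) • c) := by
    intro c hc
    have : M' + (n : ℤ) • c = M + (n : ℤ) • (c0 + c) := by rw [hM', smul_add, add_assoc]
    rw [this]
    exact hc0m _ (add_mem hc0 hc)
  have := stab_min G hmin hcw' (by positivity : (0 : ℤ) < n) hmin' (fm v' v').toNat w v' hw hv'c (Int.toNat_of_nonneg (fm_nonneg v')).symm hwv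
  exact RG_mono G (fun s hs => (hdvd s).mp hs) this

/-- the coroot lattice classes -/
abbrev CQ (D : ChevalleyDatum) : Type := (Fin D.nroots → ℤ) ⧸ Cr D

/-- **the component group** -/
theorem comp_group (hmin : NoMin G) {d : ℕ} (cd : CertD D d) {t : GL D.Idx K} (ht : t ∈ D.diagonalSubgroup K) {n : ℕ}
    (hn : n ≠ 0) (htn : t ^ n = 1) [HasEnoughRootsOfUnity K n] : ∃ κ : Equiv.Perm (Fin D.nroots) → CQ D,
      (∀ w ∈ Wt G t, ∀ w' ∈ Wt G t, κ (w * w') = κ w + κ w') ∧ (∀ w ∈ Wt G t, d • κ w = 0) ∧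
      (∀ w ∈ Wt G t, κ w = 0 → w ∈ RG G (fun s => rval t s = 1)) ∧
      (∀ q : ℕ, ∀ w0 ∈ Wg G, (∀ s, rval t (w0 s) = rval t s ^ q) → ∀ w ∈ Wt G t, w0 * w * w0⁻¹ ∈ Wt G t ∧ κ (w0 * w * w0⁻¹) = q • κ w) := by
  have hn0 : NeZero n := ⟨hn⟩
  obtain ⟨ζ, hζ⟩ := HasEnoughRootsOfUnity.exists_primitiveRoot K n
  obtain ⟨a0, rfl⟩ : ∃ a0 : Kˣ, (a0 : K) = ζ := ⟨Units.mk0 ζ (hζ.ne_zero hn), rfl⟩
  have ha0 : orderOf a0 = n := by
    rw [← orderOf_units]
    exact hζ.eq_orderOf.symm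
  have hz : ∀ k : ℤ, a0 ^ k = 1 ↔ (n : ℤ) ∣ k := fun k => by rw [← ha0, orderOf_dvd_iff_zpow_eq_one]
  have hM : ∀ j : Fin D.rank, ∃ m : ℤ, rval t (simpF G j) = ((a0 ^ m : Kˣ) : K) := by
    intro j
    have h1 : (rval t (simpF G j)) ^ n = 1 := by
      rw [← rval_pow G ht, htn, rval_one G]
    obtain ⟨k, _, hk⟩ := hζ.eq_pow_of_pow_eq_one h1
    exact ⟨k, by rw [zpow_natCast, Units.val_pow_eq_pow_val, hk]⟩
  choose m hm using hM
  let M : Fin D.nroots → ℤ := fun s => ∑ j : Fin D.rank, G.rv s j * m j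
  have hMs : ∀ j, M (simpF G j) = m j := by
    intro j
    change ∑ k : Fin D.rank, G.rv (simpF G j) k * m k = m j
    rw [Finset.sum_eq_single j]
    · rw [rv_simpF, if_pos rfl, one_mul]
    · intro k _ hk
      rw [rv_simpF, if_neg (fun h => hk (Fin.ext h)), zero_mul]
    · intro h; exact absurd (Finset.mem_univ _) h
  have hcw : IsCw G M := fun s => Finset.sum_congr rfl fun j _ => by rw [hMs]
  have hval : ∀ s, rval t s = ((a0 ^ M s : Kˣ) : K) := by
    intro s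
    rw [rval_prod G ht s, Finset.prod_congr rfl fun j _ => by rw [hm j]]
    change _ = ((a0 ^ (∑ j : Fin D.rank, G.rv s j * m j) : Kˣ) : K)
    rw [zpow_sum', Units.coe_prod]
    exact Finset.prod_congr rfl fun j _ => by rw [← Units.val_zpow_eq_zpow_val, ← zpow_mul, mul_comm]
  have hone : ∀ s, rval t s = 1 ↔ (n : ℤ) ∣ M s := by
    intro s
    rw [hval, Units.val_eq_one, hz]
  have hnz : (n : ℤ) ≠ 0 := by exact_mod_cast hn
  -- divisibility
  have hdvd : ∀ (q : ℕ) (w0 : Equiv.Perm (Fin D.nroots)), (∀ s, rval t (w0 s) = rval t s ^ q) → ∀ s, (n : ℤ) ∣ M (w0 s) - q * M s := by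
    intro q w0 h s
    have h2 := h s
    rw [hval, hval, ← Units.val_pow_eq_pow_val, ← zpow_natCast, ← zpow_mul] at h2
    rw [← hz, zpow_sub, Units.ext h2, mul_comm (M s), mul_inv_cancel]
  let V : Equiv.Perm (Fin D.nroots) → (Fin D.nroots → ℤ) := fun w s => (M (w s) - M s) / n
  have hV : ∀ w ∈ Wt G t, ∀ s, M (w s) = M s + n * V w s := by
    intro w hw s
    have h1 := hdvd 1 w (fun s => by rw [hw.2, pow_one]) s
    rw [Nat.cast_one, one_mul] at h1
    change M (w s) = M s + n * ((M (w s) - M s) / n)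
    rw [Int.mul_ediv_cancel' h1]; ring
  have hIsCw : ∀ (v : Fin D.nroots → ℤ), IsCw G ((n : ℤ) • v) → IsCw G v := by
    intro v h1 s
    have h3 := h1 s
    have h4 : ∀ t, ((n : ℤ) • v) t = n * v t := fun t => rfl
    rw [h4] at h3
    have h5 : ∑ j : Fin D.rank, G.rv s j * ((n : ℤ) • v) (simpF G j) = n * ∑ j : Fin D.rank, G.rv s j * v (simpF G j) := by
      rw [Finset.mul_sum]
      exact Finset.sum_congr rfl fun j _ => by rw [h4]; ring
    rw [h5] at h3
    exact mul_left_cancel₀ hnz h3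
  have hVcw : ∀ w ∈ Wt G t, IsCw G (V w) := by
    intro w hw
    apply hIsCw
    have h1 := isCw_add G (isCw_comp G hcw (lin_of_mem G hw.1)) (isCw_neg G hcw)
    have h2 : (n : ℤ) • V w = M ∘ w + -M := by
      funext s
      change n * V w s = M (w s) + - M s
      rw [hV w hw s]; ring
    rwa [h2]
  let κ : Equiv.Perm (Fin D.nroots) → CQ D := fun w => QuotientAddGroup.mk (V w)
  refine ⟨κ, ?_, ?_, ?_, ?_⟩
  · intro w hw w' hw'
    have hww : w * w' ∈ Wt G t := ⟨mul_mem hw.1 hw'.1, fun s => by rw [Equiv.Perm.mul_apply, hw.2, hw'.2]⟩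
    have h1 : V (w * w') = V w' + V w ∘ w' := by
      funext s
      have e1 := hV _ hww s
      have e2 := hV w hw (w' s)
      have e3 := hV w' hw' s
      rw [Equiv.Perm.mul_apply] at e1
      have e4 : (n : ℤ) * V (w * w') s = n * (V w' s + V w (w' s)) := by linarith
      exact mul_left_cancel₀ hnz e4
    change (QuotientAddGroup.mk (V (w * w')) : CQ D) = QuotientAddGroup.mk (V w) + QuotientAddGroup.mk (V w')
    rw [← QuotientAddGroup.mk_add, QuotientAddGroup.eq, h1]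
    have h2 : -(V w' + V w ∘ w') + (V w + V w') = -(V w ∘ w' - V w) := by abel
    rw [h2]
    exact neg_mem (sub_mem_Cr G (hVcw w hw) hw'.1)
  · intro w hw
    change d • (QuotientAddGroup.mk (V w) : CQ D) = 0
    rw [← QuotientAddGroup.mk_nsmul, QuotientAddGroup.eq_zero_iff, ← natCast_zsmul]
    exact crIdx G cd _ (hVcw w hw)
  · intro w hw h
    have h1 : V w ∈ Cr D := (QuotientAddGroup.eq_zero_iff _).mp h
    have h2 := stab_crit G hmin hcw hn hw.1 h1 (by
      funext s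
      exact hV w hw s)
    exact RG_mono G (fun s hs => (hone s).mpr hs) h2
  · intro q w0 hw0 h w hw
    have hw0w : w0 * w * w0⁻¹ ∈ Wt G t := by
      refine ⟨mul_mem (mul_mem hw0 hw.1) (inv_mem hw0), fun s => ?_⟩
      obtain ⟨s', rfl⟩ := w0.surjective s
      rw [Equiv.Perm.mul_apply, Equiv.Perm.mul_apply, show w0⁻¹ (w0 s') = s' from w0.symm_apply_apply s', h, h, hw.2]
    refine ⟨hw0w, ?_⟩
    choose Y hY using hdvd q w0 h
    have hYcw : IsCw G Y := by
      apply hIsCw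
      have h1 := isCw_add G (isCw_comp G hcw (lin_of_mem G hw0)) (isCw_neg G (isCw_smul G (q : ℤ) hcw))
      have h2 : (n : ℤ) • Y = M ∘ w0 + -((q : ℤ) • M) := by
        funext s
        change n * Y s = M (w0 s) + -(q * M s)
        rw [← hY s]; ring
      rwa [h2]
    have h1 : V (w0 * w * w0⁻¹) ∘ w0 = (q : ℤ) • V w + (Y ∘ w - Y) := by
      funext s
      have e1 := hV _ hw0w (w0 s)
      have e2 := hY s
      have e3 := hY (w s)
      have e4 := hV w hw s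
      rw [Equiv.Perm.mul_apply, Equiv.Perm.mul_apply, show w0⁻¹ (w0 s) = s from w0.symm_apply_apply s] at e1
      have e5 : (n : ℤ) * V (w0 * w * w0⁻¹) (w0 s) = n * (q * V w s + (Y (w s) - Y s)) := by
        have : M (w0 (w s)) = q * M (w s) + n * Y (w s) := by linarith
        rw [e4] at this
        have e6 : M (w0 s) = q * M s + n * Y s := by linarith
        rw [this, e6] at e1
        linear_combination -e1
      exact mul_left_cancel₀ hnz e5
    change (QuotientAddGroup.mk (V (w0 * w * w0⁻¹)) : CQ D) = q • QuotientAddGroup.mk (V w)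
    rw [← QuotientAddGroup.mk_nsmul, QuotientAddGroup.eq, ← natCast_zsmul]
    have h2 : -V (w0 * w * w0⁻¹) + (q : ℤ) • V w = (V (w0 * w * w0⁻¹) ∘ w0 - V (w0 * w * w0⁻¹)) - (Y ∘ w - Y) := by
      rw [h1]; abel
    rw [h2]
    exact sub_mem (sub_mem_Cr G (hVcw _ hw0w) hw0) (sub_mem_Cr G hYcw hw.1)

end

end Cfsg.Agent.Lib.ChevSS
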