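import Cfsg.Agent.Lib.ChevSS11

set_option autoImplicit false

/-!
# Semisimple classes, disconnected centralizers (helper40)
-/

namespace Cfsg.Agent.Lib.ChevSS
open Cfsg.Lie Cfsg.Agent.Lib.ChevX Cfsg.Agent.Lib.ChevGood Cfsg.Agent.Lib.ChevRel Cfsg.Agent.Lib.ChevNPerm
  Cfsg.Agent.Lib.ChevPoinc Cfsg.Agent.Lib.ChevFix Cfsg.Agent.Lib.ChevHOrder Cfsg.Agent.Lib.ChevClosed Cfsg.Agent.Lib.ChevTorus
open Cfsg.Agent.Lib.ChevBruhat (Listed exists_bruhat bruhat_unique diag_conj_XS inf_UH mem_borel mem_borel' borel_U borel_H)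
open scoped MatrixGroups Matrix

section
variable {D : ChevalleyDatum} (G : Good D) {K : Type*} [Field K]
include G

theorem conj_gen {t t' n : GL D.Idx K} (hn : n ∈ D.monomialSubgroup K) {w : Equiv.Perm (Fin D.nroots)} (hw : Mono G n w)
    (h : ∀ s, rval t s = 1 → rval t' (w s) = 1) {g : GL D.Idx K} (hg : g ∈ gen t) : n * g * n⁻¹ ∈ gen t' := by
  have hle : gen t ≤ (gen t').comap (MulAut.conj n).toMonoidHom := by
    unfold gen
    rw [sup_le_iff, Subgroup.closure_le]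
    constructor
    · intro a ha
      exact diag_mem_gen (conj_mem_diag G hn ha)
    · rintro _ ⟨s, hs, c, rfl⟩
      obtain ⟨-, c', hc', -, h2⟩ := hw
      change n * xg D K s c * n⁻¹ ∈ gen t'
      rw [h2]
      exact xg_mem_gen (h s hs) _
  exact hle hg

theorem em_gen {φ : K →+* K} {t : GL D.Idx K} {g : GL D.Idx K} (hg : g ∈ gen t) : em D φ g ∈ gen (em D φ t) := by
  have hle : gen t ≤ (gen (em D φ t)).comap (em D φ) := by
    unfold gen
    rw [sup_le_iff, Subgroup.closure_le]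
    constructor
    · intro a ha
      change em D φ a ∈ gen (em D φ t)
      exact diag_mem_gen (em_H G φ ha)
    · rintro _ ⟨s, hs, c, rfl⟩
      change em D φ (xg D K s c) ∈ gen (em D φ t)
      rw [em_xg G]
      apply xg_mem_gen
      have : rval (em D φ t) s = φ (rval t s) := rfl
      rw [this, hs, map_one]
  exact hle hg

/-- the normal form modulo the connected centralizer -/
theorem cen_form (hD : Listed D) {t : GL D.Idx K} (ht : t ∈ D.diagonalSubgroup K) {c : GL D.Idx K} (hc : c ∈ cen D t) :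
    ∃ n ∈ D.monomialSubgroup K, ∃ w ∈ Wt G t, Mono G n w ∧ n ∈ cen D t ∧ ∃ g ∈ gen t, c = n * g := by
  obtain ⟨u, hu, n, hn, w, hw, hnt, hwt, u', hu', rfl⟩ := cen_bruhat G hD ht hc
  refine ⟨n, hn, w, ⟨mem_Wg_of_mono G hn hw, hwt⟩, hw, mem_cen.mpr ⟨ChevBN.N_le_group G hn, hnt⟩, n⁻¹ * u * n * u', ?_, by group⟩
  apply mul_mem
  · have hu2 : u ∈ gen t := XS_le_gen (fun s hs => hs.2) hu
    have h1 := conj_gen G (t := t) (t' := t) (inv_mem hn) (mono_inv G hw) (fun s hs => by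
      have := hwt (w⁻¹ s)
      rw [show w (w⁻¹ s) = s from w.apply_symm_apply s] at this
      rw [← this, hs]) hu2
    rwa [inv_inv] at h1
  · exact XS_le_gen (fun s hs => hs.2) hu'

theorem gen_norm (hD : Listed D) {t : GL D.Idx K} (ht : t ∈ D.diagonalSubgroup K) {c g : GL D.Idx K} (hc : c ∈ cen D t) (hg : g ∈ gen t) :
    c * g * c⁻¹ ∈ gen t := by
  obtain ⟨n, hn, w, hw, hm, -, g1, hg1, rfl⟩ := cen_form G hD ht hc
  have h1 := conj_gen G (t := t) (t' := t) hn hm (fun s hs => by rw [hw.2, hs]) (mul_mem (mul_mem hg1 hg) (inv_mem hg1))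
  have h2 : n * g1 * g * (n * g1)⁻¹ = n * (g1 * g * g1⁻¹) * n⁻¹ := by group
  rw [h2]
  exact h1

/-- the Frobenius action on the component group -/
theorem comp_frob (hD : Listed D) (hmin : NoMin G) {d : ℕ} (cd : CertD D d) {q : ℕ} {φ' : K ≃+* K} (hφ' : ∀ a, φ' a = a ^ q) (hq2 : d ∣ q - 2) (hq : 2 ≤ q)
    {t : GL D.Idx K} (ht : t ∈ D.diagonalSubgroup K) {n : ℕ} (hn : n ≠ 0) (htn : t ^ n = 1) [HasEnoughRootsOfUnity K n]
    {x0 : GL D.Idx K} (hx0G : x0 ∈ D.group K) (hx0 : x0 * em D (φ' : K →+* K) t * x0⁻¹ = t) :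
    (∀ g ∈ gen t, x0 * em D (φ' : K →+* K) g * x0⁻¹ ∈ gen t) ∧ (∀ c ∈ cen D t, c * c * (x0 * em D (φ' : K →+* K) c * x0⁻¹)⁻¹ ∈ gen t) := by
  set φ : K →+* K := (φ' : K →+* K) with hφe
  have hφ : ∀ a, φ a = a ^ q := hφ'
  obtain ⟨κ, hκ1, hκ2, hκ3, hκ4⟩ := comp_group G hmin cd ht hn htn
  have hle := gen_le_cen G ht
  have hrv : ∀ s, rval (em D φ t) s = rval t s ^ q := fun s => hφ _
  obtain ⟨w0, hw0, hw0t⟩ := wconj G hD (em_H G φ ht) ht hx0G hx0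
  have hw0q : ∀ s, rval t (w0 s) = rval t s ^ q := fun s => by rw [hw0t, hrv]
  obtain ⟨n0, hn0, hm0⟩ : ∃ n0 ∈ D.monomialSubgroup K, Mono G n0 w0 := by
    have hw' := hw0
    unfold Wg at hw'
    rw [← permHom_range (F := K) G] at hw'
    obtain ⟨m, hm⟩ := hw'
    exact ⟨m, m.2, by rw [← hm]; exact permOf_spec G m⟩
  have hn0t : n0 * em D φ t * n0⁻¹ = t := by
    apply ext_rval G (conj_mem_diag G hn0 (em_H G φ ht)) ht
    intro s
    obtain ⟨s', rfl⟩ := w0.surjective s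
    rw [rval_conj G hn0 hm0 (em_H G φ ht), hw0t]
  set x1 := x0 * n0⁻¹ with hx1
  have hx1c : x1 ∈ cen D t := by
    refine mem_cen.mpr ⟨mul_mem hx0G (inv_mem (ChevBN.N_le_group G hn0)), ?_⟩
    have h1 : x1 * t * x1⁻¹ = t := by
      calc x1 * t * x1⁻¹ = x1 * (n0 * em D φ t * n0⁻¹) * x1⁻¹ := by rw [hn0t]
        _ = x0 * em D φ t * x0⁻¹ := by rw [hx1]; group
        _ = t := hx0
    calc t * x1 = (x1 * t * x1⁻¹) * x1 := by rw [h1]
      _ = x1 * t := by group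
  have hF : ∀ c : GL D.Idx K, x0 * em D φ c * x0⁻¹ = x1 * (n0 * em D φ c * n0⁻¹) * x1⁻¹ := fun c => by rw [hx1]; group
  have hgen : ∀ g ∈ gen t, n0 * em D φ g * n0⁻¹ ∈ gen t := by
    intro g hg
    apply conj_gen G (t := em D φ t) hn0 hm0 (fun s hs => by rw [hw0t, hs]) (em_gen G hg)
  have hgen1 : ∀ g ∈ gen t, x0 * em D φ g * x0⁻¹ ∈ gen t := fun g hg => by
    rw [hF]
    exact gen_norm G hD ht hx1c (hgen g hg)
  refine ⟨hgen1, fun c hc => ?_⟩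
  obtain ⟨n, hnN, w, hw, hm, hnc, g1, hg1, rfl⟩ := cen_form G hD ht hc
  obtain ⟨n1, hn1N, w1, hw1, hm1, hn1c, g2, hg2, hx1e⟩ := cen_form G hD ht hx1c
  obtain ⟨hw2, hκw2⟩ := hκ4 q w0 hw0 hw0q w hw
  -- the image of `n`
  set n2 := n0 * em D φ n * n0⁻¹ with hn2
  have hn2N : n2 ∈ D.monomialSubgroup K := mul_mem (mul_mem hn0 (em_N G φ hnN)) (inv_mem hn0)
  have hmem : Mono G (em D φ n) w := em_mono G φ' hm
  have hm2 : Mono G n2 (w0 * w * w0⁻¹) := mono_mul G (mono_mul G hm0 hmem) (mono_inv G hm0)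
  have hn2c : n2 ∈ cen D t := by
    refine mem_cen.mpr ⟨ChevBN.N_le_group G hn2N, ?_⟩
    have h1 := congrArg (em D φ) (mem_cen.mp hnc).2
    rw [map_mul, map_mul] at h1
    calc t * n2 = (n0 * em D φ t * n0⁻¹) * n2 := by rw [hn0t]
      _ = n0 * (em D φ t * em D φ n) * n0⁻¹ := by rw [hn2]; group
      _ = n0 * (em D φ n * em D φ t) * n0⁻¹ := by rw [h1]
      _ = n2 * (n0 * em D φ t * n0⁻¹) := by rw [hn2]; group
      _ = n2 * t := by rw [hn0t]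
  -- the quotient group
  let H : Subgroup ↥(cen D t) := (gen t).subgroupOf (cen D t)
  have hHn : H.Normal := ⟨fun x hx y => by
    rw [Subgroup.mem_subgroupOf] at hx ⊢
    exact gen_norm G hD ht y.2 hx⟩
  have hmk : ∀ (x y : ↥(cen D t)), (∃ g ∈ gen t, (x : GL D.Idx K) = y * g) → (QuotientGroup.mk x : ↥(cen D t) ⧸ H) = QuotientGroup.mk y := by
    rintro x y ⟨g, hg, h⟩
    rw [eq_comm, QuotientGroup.eq, Subgroup.mem_subgroupOf, Subgroup.coe_mul, Subgroup.coe_inv, h]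
    have : (y : GL D.Idx K)⁻¹ * (y * g) = g := by group
    rw [this]
    exact hg
  let C : ↥(cen D t) := ⟨n * g1, hc⟩
  let N : ↥(cen D t) := ⟨n, hnc⟩
  let N1 : ↥(cen D t) := ⟨n1, hn1c⟩
  let N2 : ↥(cen D t) := ⟨n2, hn2c⟩
  let X1 : ↥(cen D t) := ⟨x1, hx1c⟩
  let Gg : ↥(cen D t) := ⟨n0 * em D φ g1 * n0⁻¹, hle (hgen g1 hg1)⟩
  have hFc : x0 * em D φ (n * g1) * x0⁻¹ = ((X1 * (N2 * Gg) * X1⁻¹ : ↥(cen D t)) : GL D.Idx K) := by
    rw [hF]
    change _ = x1 * (n2 * (n0 * em D φ g1 * n0⁻¹)) * x1⁻¹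
    rw [hn2, map_mul]
    group
  have e1 : (QuotientGroup.mk C : ↥(cen D t) ⧸ H) = QuotientGroup.mk N := hmk _ _ ⟨g1, hg1, rfl⟩
  have e2 : (QuotientGroup.mk X1 : ↥(cen D t) ⧸ H) = QuotientGroup.mk N1 := hmk _ _ ⟨g2, hg2, hx1e⟩
  have e3 : (QuotientGroup.mk (N2 * Gg) : ↥(cen D t) ⧸ H) = QuotientGroup.mk N2 := hmk _ _ ⟨_, hgen g1 hg1, rfl⟩
  have e4 : (QuotientGroup.mk (C * C * (X1 * (N2 * Gg) * X1⁻¹)⁻¹) : ↥(cen D t) ⧸ H) = QuotientGroup.mk (N * N * (N1 * N2 * N1⁻¹)⁻¹) := by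
    simp only [QuotientGroup.mk_mul, QuotientGroup.mk_inv] at e3 ⊢
    rw [e1, e2, e3]
  have hW1 : ∀ {a b : Equiv.Perm (Fin D.nroots)}, a ∈ Wt G t → b ∈ Wt G t → a * b ∈ Wt G t := fun ha hb =>
    ⟨mul_mem ha.1 hb.1, fun s => by rw [Equiv.Perm.mul_apply, ha.2, hb.2]⟩
  have hW2 : ∀ {a : Equiv.Perm (Fin D.nroots)}, a ∈ Wt G t → a⁻¹ ∈ Wt G t := fun {a} ha =>
    ⟨inv_mem ha.1, fun s => by
      have := ha.2 (a⁻¹ s)
      rw [show a (a⁻¹ s) = s from a.apply_symm_apply s] at this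
      exact this.symm⟩
  have hone : κ 1 = 0 := by
    have h1 : (1 : Equiv.Perm (Fin D.nroots)) ∈ Wt G t := ⟨one_mem _, fun s => rfl⟩
    have := hκ1 1 h1 1 h1
    rw [mul_one] at this
    exact (left_eq_add.mp this)
  have hinv : ∀ a ∈ Wt G t, κ a⁻¹ = - κ a := by
    intro a ha
    have := hκ1 a ha a⁻¹ (hW2 ha)
    rw [mul_inv_cancel, hone] at this
    exact (neg_eq_of_add_eq_zero_right this.symm).symm
  have h5 : n * n * (n1 * n2 * n1⁻¹)⁻¹ ∈ gen t := by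
    have hWW : w * w * (w1 * (w0 * w * w0⁻¹) * w1⁻¹)⁻¹ ∈ Wt G t := hW1 (hW1 hw hw) (hW2 (hW1 (hW1 hw1 hw2) (hW2 hw1)))
    refine mono_mem_gen G ht (mul_mem (mul_mem hnN hnN) (inv_mem (mul_mem (mul_mem hn1N hn2N) (inv_mem hn1N))))
      (mono_mul G (mono_mul G hm hm) (mono_inv G (mono_mul G (mono_mul G hm1 hm2) (mono_inv G hm1)))) (hκ3 _ hWW ?_)
    rw [hκ1 _ (hW1 hw hw) _ (hW2 (hW1 (hW1 hw1 hw2) (hW2 hw1))), hκ1 _ hw _ hw, hinv _ (hW1 (hW1 hw1 hw2) (hW2 hw1)),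
      hκ1 _ (hW1 hw1 hw2) _ (hW2 hw1), hκ1 _ hw1 _ hw2, hinv _ hw1, hκw2]
    obtain ⟨k, hk⟩ := hq2
    have hqk : q = 2 + k * d := by rw [mul_comm k d, ← hk]; omega
    rw [hqk, add_smul, mul_smul, hκ2 w hw, smul_zero, add_zero, two_smul]
    abel
  have h6 : C * C * (X1 * (N2 * Gg) * X1⁻¹)⁻¹ ∈ H := by
    rw [← QuotientGroup.eq_one_iff, e4, QuotientGroup.eq_one_iff]
    exact h5
  rw [hFc]
  exact h6

end

section count
variable {D : ChevalleyDatum} (G : Good D) {F K : Type*} [Field F] [Fintype F] [Field K] [IsAlgClosed K] {p q : ℕ} [Fact p.Prime] [CharP K p]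
  (Z : SetupF F K p q)
include G Z

variable (hD : Listed D) (hmin : NoMin G) {d : ℕ} (hd : d ≠ 0) (cd : CertD D d)

include hD hmin cd in
omit [Fintype F] in
/-- existence of the character -/
theorem rel_exists2 [hdp : Fact d.Prime] (hdK : (d : K) ≠ 0) {x : GL D.Idx F} (hx : x ∈ D.group F) (hxo : (orderOf x).Coprime p) (hx0 : orderOf x ≠ 0) :
    ∃ χ : XF G K q, Rel G Z x χ.1 := by
  have hp : p.Prime := Fact.out
  obtain ⟨a, m, hm, hn⟩ := Nat.exists_eq_pow_mul_and_not_dvd hx0 d hdp.out.ne_one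
  have hmK : ((m : ℕ) : K) ≠ 0 := by
    intro h
    have h1 := (CharP.cast_eq_zero_iff K p _).mp h
    have h2 := Nat.dvd_gcd (h1.trans (show m ∣ orderOf x from ⟨d ^ a, by rw [hn, mul_comm]⟩)) (dvd_refl p)
    rw [hxo] at h2
    exact hp.one_lt.ne' (Nat.dvd_one.mp h2)
  have hmd : m.Coprime d := ((Nat.Prime.coprime_iff_not_dvd hdp.out).mpr hm).symm
  obtain ⟨g, hg, ht⟩ := toral_two G hD hmin cd p Z.hfin (m := m) (r := d) (a := a) hmK hmd hdK hmd (y := em D Z.ι x) (em_group G _ hx)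
    (by rw [mul_comm, ← hn, ← map_pow, pow_orderOf_eq_one, map_one])
  set t := g⁻¹ * em D Z.ι x * g with ht0
  have hxt : em D Z.ι x = g * t * g⁻¹ := by rw [ht0]; group
  have hσx := em_fix (D := D) G Z (g := x)
  rw [hxt, map_mul, map_mul, map_inv] at hσx
  have h1 : (g⁻¹ * em D (Z.σ : K →+* K) g) * em D (Z.σ : K →+* K) t * (g⁻¹ * em D (Z.σ : K →+* K) g)⁻¹ = t := by
    calc (g⁻¹ * em D (Z.σ : K →+* K) g) * em D (Z.σ : K →+* K) t * (g⁻¹ * em D (Z.σ : K →+* K) g)⁻¹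
        = g⁻¹ * (em D (Z.σ : K →+* K) g * em D (Z.σ : K →+* K) t * (em D (Z.σ : K →+* K) g)⁻¹) * g := by group
      _ = t := by rw [hσx]; group
  obtain ⟨w, hw, hwt⟩ := wconj G hD (em_H G _ ht) ht (mul_mem (inv_mem hg) (em_group G _ hg)) h1
  refine ⟨⟨chi G ht, ⟨w, hw⟩, fun s => ?_⟩, g, hg, t, ht, fun s => rfl, hxt⟩
  apply Units.ext
  rw [Units.val_pow_eq_pow_val, chi_val, chi_val]
  change rval t (w s) = _
  rw [hwt, rval_em G Z]

include hD hd cd in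
omit [Fintype F] in
/-- existence of the rational element -/
theorem rel_exists2' (hroot : ∀ y : F, y ≠ 0 → ∃ z : F, z ^ d = y) (χ : XF G K q) : ∃ x ∈ D.group F, (orderOf x).Coprime p ∧ Rel G Z x χ.1 := by
  obtain ⟨χ, ⟨w, hw⟩, hχ⟩ := χ
  obtain ⟨t, ht, htχ⟩ := exists_tau G hd cd χ
  have hw' := hw
  unfold Wg at hw'
  rw [← permHom_range (F := K) G] at hw'
  obtain ⟨n, hn⟩ := hw'
  have hnm : Mono G (n : GL D.Idx K) w := by rw [← hn]; exact permOf_spec G n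
  obtain ⟨g, hg, hgn⟩ := ChevLang.lang G p Z.e Z.e0 (Z.σ : K →+* K) Z.hσ (one_mem (D.group K)) (ChevBN.N_le_group G n.2)
  rw [one_mul, inv_one, mul_one] at hgn
  have hgσ : em D (Z.σ : K →+* K) g = g * n := by rw [← hgn]; group
  have hσt : (n : GL D.Idx K) * em D (Z.σ : K →+* K) t * (n : GL D.Idx K)⁻¹ = t := by
    apply ext_rval G (conj_mem_diag G n.2 (em_H G _ ht)) ht
    intro s
    obtain ⟨s', rfl⟩ := w.surjective s
    rw [rval_conj G n.2 hnm (em_H G _ ht), rval_em G Z, htχ, htχ]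
    have h1 : χ.1 (w s') = χ.1 s' ^ q := hχ s'
    rw [h1, Units.val_pow_eq_pow_val]
  obtain ⟨N, hN, htN⟩ := torus_order G Z ht
  have hfx : em D (Z.σ : K →+* K) (g * t * g⁻¹) = g * t * g⁻¹ := by
    rw [map_mul, map_mul, map_inv, hgσ, mul_inv_rev]
    calc g * n * em D (Z.σ : K →+* K) t * ((n : GL D.Idx K)⁻¹ * g⁻¹) = g * (n * em D (Z.σ : K →+* K) t * (n : GL D.Idx K)⁻¹) * g⁻¹ := by group
      _ = _ := by rw [hσt]
  obtain ⟨x, hx, hxe⟩ := (fixed_iff G hD cd Z.σ Z.ι Z.hfix hroot hd (mul_mem (mul_mem hg (ChevBN.H_le_group G ht)) (inv_mem hg))).mp hfx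
  refine ⟨x, hx, ?_, g, hg, t, ht, htχ, hxe⟩
  have h1 : x ^ N = 1 := by
    apply em_injective (D := D) Z.ι
    rw [map_pow, map_one, hxe, conj_pow, htN]; group
  exact Nat.Coprime.coprime_dvd_left (orderOf_dvd_of_pow_eq_one h1) hN

include hD hmin cd in
omit [Fintype F] in
/-- elements with conjugate characters are conjugate -/
theorem conj_of_rel2 (hroot : ∀ y : F, y ≠ 0 → ∃ z : F, z ^ d = y) (hd : d ≠ 0) (hq2 : d ∣ q - 2) {x x' : GL D.Idx F} {χ χ' : XF G K q} (h1 : Rel G Z x χ.1)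
    (h2 : Rel G Z x' χ'.1) {w : Wg G} (hw : w • χ = χ') : ∃ h ∈ D.group F, h * x * h⁻¹ = x' := by
  have hp : p.Prime := Fact.out
  have hq1 : 2 ≤ q := by rw [Z.hq]; exact Nat.one_lt_pow Z.e0 hp.one_lt
  obtain ⟨g, hg, t, ht, htχ, hxe⟩ := h1
  obtain ⟨g', hg', t', ht', htχ', hxe'⟩ := h2
  obtain ⟨m, hmm⟩ : ∃ m : D.monomialSubgroup K, Mono G (m : GL D.Idx K) (w : Equiv.Perm (Fin D.nroots)) := by
    obtain ⟨w, hwW⟩ := w
    have hw' := hwW
    unfold Wg at hw'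
    rw [← permHom_range (F := K) G] at hw'
    obtain ⟨m, hm⟩ := hw'
    exact ⟨m, by change Mono G (m : GL D.Idx K) w; rw [← hm]; exact permOf_spec G m⟩
  have hmt : (m : GL D.Idx K) * t * (m : GL D.Idx K)⁻¹ = t' := by
    apply ext_rval G (conj_mem_diag G m.2 ht) ht'
    intro s
    obtain ⟨s', rfl⟩ := (w : Equiv.Perm (Fin D.nroots)).surjective s
    rw [rval_conj G m.2 hmm ht, htχ, htχ', ← hw]
    change ((χ.1.1 s' : Kˣ) : K) = ((χ.1.1 ((w : Equiv.Perm (Fin D.nroots))⁻¹ ((w : Equiv.Perm (Fin D.nroots)) s')) : Kˣ) : K)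
    rw [show (w : Equiv.Perm (Fin D.nroots))⁻¹ ((w : Equiv.Perm (Fin D.nroots)) s') = s' from (w : Equiv.Perm (Fin D.nroots)).symm_apply_apply s']
  obtain ⟨N, hN, htN⟩ := torus_order G Z ht
  have hNK : ((N : ℕ) : K) ≠ 0 := by
    intro h
    have h1 := (CharP.cast_eq_zero_iff K p _).mp h
    have h2 := Nat.dvd_gcd h1 (dvd_refl p)
    rw [hN] at h2
    exact hp.one_lt.ne' (Nat.dvd_one.mp h2)
  have hN0 : N ≠ 0 := by rintro rfl; exact hNK Nat.cast_zero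
  have : NeZero (N : K) := ⟨hNK⟩
  have : NeZero N := ⟨hN0⟩
  set f := em D (Z.σ : K →+* K) with hf
  have hfG : ∀ {a : GL D.Idx K}, a ∈ D.group K → f a ∈ D.group K := fun ha => em_group G _ ha
  -- the conjugating element
  set h := g' * (m : GL D.Idx K) * g⁻¹ with hh
  have hhG : h ∈ D.group K := mul_mem (mul_mem hg' (ChevBN.N_le_group G m.2)) (inv_mem hg)
  have hhx : h * em D Z.ι x * h⁻¹ = em D Z.ι x' := by
    rw [hxe, hxe', ← hmt, hh]; group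
  have hσx : f (em D Z.ι x) = em D Z.ι x := em_fix G Z
  have hσx' : f (em D Z.ι x') = em D Z.ι x' := em_fix G Z
  have hc : (h⁻¹ * f h) * em D Z.ι x = em D Z.ι x * (h⁻¹ * f h) := by
    have h3 := congrArg f hhx
    rw [map_mul, map_mul, map_inv, hσx, hσx', ← hhx] at h3
    calc (h⁻¹ * f h) * em D Z.ι x = h⁻¹ * (f h * em D Z.ι x * (f h)⁻¹) * f h := by group
      _ = _ := by rw [h3]; group
  -- move to the centralizer of `t`
  set y0 := g⁻¹ * (h⁻¹ * f h) * g with hy0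
  have hy : y0 ∈ cen D t := by
    refine mem_cen.mpr ⟨mul_mem (mul_mem (inv_mem hg) (mul_mem (inv_mem hhG) (hfG hhG))) hg, ?_⟩
    have ht1 : t = g⁻¹ * em D Z.ι x * g := by rw [hxe]; group
    rw [ht1]
    calc g⁻¹ * em D Z.ι x * g * y0 = g⁻¹ * (em D Z.ι x * (h⁻¹ * f h)) * g := by rw [hy0]; group
      _ = _ := by rw [← hc, hy0]; group
  set x0 := g⁻¹ * f g with hx0
  have hx0G : x0 ∈ D.group K := mul_mem (inv_mem hg) (hfG hg)
  have hx0t : x0 * f t * x0⁻¹ = t := by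
    have h3 : f (em D Z.ι x) = f g * f t * (f g)⁻¹ := by rw [hxe, map_mul, map_mul, map_inv]
    rw [hσx, hxe] at h3
    calc x0 * f t * x0⁻¹ = g⁻¹ * (f g * f t * (f g)⁻¹) * g := by rw [hx0]; group
      _ = t := by rw [← h3]; group
  have hφq : ∀ a, Z.σ a = a ^ q := fun a => by rw [Z.hσ]; exact congrArg (fun m => a ^ m) Z.hq.symm
  obtain ⟨hA, hB⟩ := comp_frob G hD hmin cd (φ' := Z.σ) hφq hq2 hq1 ht hN0 htN hx0G hx0t
  have hz := hB y0 hy
  obtain ⟨k1, hk1, hk1e⟩ := lang_gen G p Z.e Z.e0 (Z.σ : K →+* K) Z.hσ ht hA hz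
  change k1⁻¹ * (x0 * f k1 * x0⁻¹) = y0 * y0 * (x0 * f y0 * x0⁻¹)⁻¹ at hk1e
  set k := k1 * y0 with hk
  have hkc : k ∈ cen D t := mul_mem hk1 hy
  have hky : k⁻¹ * (x0 * f k * x0⁻¹) = y0 := by
    rw [hk, map_mul]
    calc (k1 * y0)⁻¹ * (x0 * (f k1 * f y0) * x0⁻¹) = y0⁻¹ * (k1⁻¹ * (x0 * f k1 * x0⁻¹)) * (x0 * f y0 * x0⁻¹) := by group
      _ = y0 := by rw [hk1e]; group
  set k' := g * k * g⁻¹ with hk'
  have hk'G : k' ∈ D.group K := mul_mem (mul_mem hg (mem_cen.mp hkc).1) (inv_mem hg)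
  have hk'c : k'⁻¹ * f k' = h⁻¹ * f h := by
    calc k'⁻¹ * f k' = g * (k⁻¹ * (x0 * f k * x0⁻¹)) * g⁻¹ := by
          rw [hk', map_mul, map_mul, map_inv, hx0]; group
      _ = _ := by rw [hky, hy0]; group
  have hk'x : k' * em D Z.ι x = em D Z.ι x * k' := by
    rw [hxe, hk']
    calc g * k * g⁻¹ * (g * t * g⁻¹) = g * (k * t) * g⁻¹ := by group
      _ = g * (t * k) * g⁻¹ := by rw [(mem_cen.mp hkc).2]
      _ = _ := by group
  have hfix : f (h * k'⁻¹) = h * k'⁻¹ := by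
    rw [map_mul, map_inv]
    have e1 : f h = h * (h⁻¹ * f h) := by group
    have e2 : f k' = k' * (h⁻¹ * f h) := by rw [← hk'c]; group
    rw [e2]
    nth_rw 1 [e1]
    group
  obtain ⟨h0, hh0, hh0e⟩ := (fixed_iff G hD cd Z.σ Z.ι Z.hfix hroot hd (mul_mem hhG (inv_mem hk'G))).mp hfix
  refine ⟨h0, hh0, ?_⟩
  apply em_injective (D := D) Z.ι
  rw [map_mul, map_mul, map_inv, hh0e]
  calc h * k'⁻¹ * em D Z.ι x * (h * k'⁻¹)⁻¹ = h * (k'⁻¹ * (em D Z.ι x * k')) * h⁻¹ := by group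
    _ = h * em D Z.ι x * h⁻¹ := by rw [← hk'x]; group
    _ = _ := hhx

include hD hmin cd in
/-- **the number of semisimple classes** -/
theorem card_classes2 [hdp : Fact d.Prime] (hdK : (d : K) ≠ 0) (hroot : ∀ y : F, y ≠ 0 → ∃ z : F, z ^ d = y) (hq2 : d ∣ q - 2) :
    Nat.card {c : ConjClasses ↥(D.group F) // ∃ g : ↥(D.group F), ConjClasses.mk g = c ∧ (orderOf g).Coprime p} = q ^ D.rank := by
  classical
  have hp : p.Prime := Fact.out
  have hd := hdp.out.ne_zero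
  have hpq : p ∣ q := by rw [Z.hq]; exact dvd_pow_self p Z.e0
  have hq1 : 1 < q := by rw [Z.hq]; exact Nat.one_lt_pow Z.e0 hp.one_lt
  rw [← card_orbits (G := G) (K := K) p hpq hq1]
  have hfinG : Finite ↥(D.group F) := by
    have : Finite (Matrix D.Idx D.Idx F) := inferInstanceAs (Finite (D.Idx → D.Idx → F))
    have h1 : Finite (GL D.Idx F) := Finite.of_injective (fun g : GL D.Idx F => (g : Matrix D.Idx D.Idx F)) Units.val_injective
    exact Subtype.finite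
  have hex : ∀ c : {c : ConjClasses ↥(D.group F) // ∃ g : ↥(D.group F), ConjClasses.mk g = c ∧ (orderOf g).Coprime p},
      ∃ (g : ↥(D.group F)) (χ : XF G K q), ConjClasses.mk g = c.1 ∧ Rel G Z (g : GL D.Idx F) χ.1 := by
    rintro ⟨c, g, rfl, hg⟩
    have ho : orderOf (g : GL D.Idx F) = orderOf g := orderOf_injective (D.group F).subtype (D.group F).subtype_injective g
    obtain ⟨χ, hχ⟩ := rel_exists2 G Z hD hmin cd hdK g.2 (by rw [ho]; exact hg) (by rw [ho]; exact (orderOf_pos g).ne')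
    exact ⟨g, χ, rfl, hχ⟩
  choose g χ hg hχ using hex
  refine Nat.card_congr (Equiv.ofBijective (fun c => (Quotient.mk'' (χ c) : MulAction.orbitRel.Quotient (Wg G) (XF G K q))) ⟨?_, ?_⟩)
  · intro c c' hcc
    have h1 : (MulAction.orbitRel (Wg G) (XF G K q)) (χ c) (χ c') := Quotient.exact hcc
    obtain ⟨w, hw⟩ := h1
    obtain ⟨h, hh, hhx⟩ := conj_of_rel2 G Z hD hmin cd hroot hd hq2 (hχ c') (hχ c) hw
    apply Subtype.ext
    rw [← hg c, ← hg c']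
    rw [ConjClasses.mk_eq_mk_iff_isConj]
    symm
    rw [isConj_iff]
    exact ⟨⟨h, hh⟩, Subtype.ext hhx⟩
  · intro o
    obtain ⟨χ', rfl⟩ := Quotient.exists_rep o
    obtain ⟨x, hx, hxo, hxχ⟩ := rel_exists2' G Z hD hd cd hroot χ'
    have ho : orderOf x = orderOf (⟨x, hx⟩ : ↥(D.group F)) :=
      orderOf_injective (D.group F).subtype (D.group F).subtype_injective (⟨x, hx⟩ : ↥(D.group F))
    refine ⟨⟨ConjClasses.mk ⟨x, hx⟩, ⟨x, hx⟩, rfl, by rw [← ho]; exact hxo⟩, ?_⟩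
    set c : {c : ConjClasses ↥(D.group F) // ∃ g : ↥(D.group F), ConjClasses.mk g = c ∧ (orderOf g).Coprime p} :=
      ⟨ConjClasses.mk ⟨x, hx⟩, ⟨x, hx⟩, rfl, by rw [← ho]; exact hxo⟩ with hc
    have h1 : IsConj (⟨x, hx⟩ : ↥(D.group F)) (g c) := ConjClasses.mk_eq_mk_iff_isConj.mp (hg c).symm
    obtain ⟨h, hh⟩ := isConj_iff.mp h1
    obtain ⟨w, hw⟩ := rel_conj G Z hD h.2 (x := x) (x' := (g c : GL D.Idx F)) (congrArg Subtype.val hh) hxχ (hχ c)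
    exact Quotient.sound ⟨w, hw⟩

end count

end Cfsg.Agent.Lib.ChevSS
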