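import Cfsg.Agent.Lib.ChevAuto
import Cfsg.Prelude.Def_ChevAutomorphisms
set_option autoImplicit false

/-!
Generation of Chevalley groups by the monomial subgroup and a few root subgroups (helper40).
-/

namespace Cfsg.Agent.Lib.ChevShort
open Cfsg.Lie Cfsg.Agent.Lib.ChevX Cfsg.Agent.Lib.ChevGood Cfsg.Agent.Lib.ChevRel
open scoped MatrixGroups Matrix

variable {D : ChevalleyDatum} {K : Type*} [Field K]

/-- the root subgroup `X_r` is contained in `M` -/
def InM (M : Subgroup (GL D.Idx K)) (r : ℕ) : Prop := ∀ t : K, xg D K r t ∈ M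

section
variable (G : Good D) {M : Subgroup (GL D.Idx K)}
include G

theorem ng_mem_N {i : ℕ} (hi : i < D.rank) : ng D K (D.simple i) 1 ∈ D.monomialSubgroup K :=
  Subgroup.mem_sup_right (Subgroup.subset_closure ⟨D.simple i, G.simple_lt i hi, coe_ng G _ _⟩)

theorem inM_w (hN : D.monomialSubgroup K ≤ M) {i s : ℕ} (hi : i < D.rank) (hs : s < D.nroots) (h : InM M s) :
    InM M (D.reflectRoot i s) := by
  intro t
  have h1 := ng_simple_one_conj G hi hs ((G.η i s : K) * t)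
  have h2 : (G.η i s : K) * ((G.η i s : K) * t) = t := by
    rcases G.η_sq i hi s hs with h | h <;> rw [h] <;> simp
  rw [h2] at h1
  rw [← h1]
  exact Subgroup.mul_mem _ (Subgroup.mul_mem _ (hN (ng_mem_N G hi)) (h _)) (Subgroup.inv_mem _ (hN (ng_mem_N G hi)))

theorem inM_comm {r s k : ℕ} {m : ℤ} (hr : r < D.nroots) (hs : s < D.nroots) (hrs : s ≠ r) (hneg : s ≠ D.neg r)
    (h : D.commTerms r s = [(k, m, 1, 1)]) (hm : (m : K) ≠ 0) (h1 : InM M r) (h2 : InM M s) : InM M k := by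
  intro t
  have h3 := xg_comm G hr hs hrs hneg (- (m : K)⁻¹ * t) (1 : K)
  have h4 : wg D K (D.commWord K r s (- (m : K)⁻¹ * t) 1) = xg D K k t := by
    unfold wg ChevalleyDatum.commWord
    rw [h]
    simp only [List.map_cons, List.map_nil, List.prod_cons, List.prod_nil, mul_one, pow_one]
    congr 1
    field_simp
  rw [h4] at h3
  have h5 : xg D K k t = (xg D K r (- (m : K)⁻¹ * t) * xg D K s 1)⁻¹ * (xg D K s 1 * xg D K r (- (m : K)⁻¹ * t)) := by
    rw [h3]; group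
  rw [h5]
  exact Subgroup.mul_mem _ (Subgroup.inv_mem _ (Subgroup.mul_mem _ (h1 _) (h2 _))) (Subgroup.mul_mem _ (h2 _) (h1 _))

theorem group_le (hN : D.monomialSubgroup K ≤ M) (h : ∀ i < D.rank, InM M (D.simple i)) : D.group K ≤ M := by
  rw [ChevAuto.group_eq G, Subgroup.closure_le]
  rintro _ ⟨r, hr, t, rfl⟩
  exact root_ind G (InM M) h (fun i hi s hs hs' => inM_w G hN hi hs hs') r hr t

/-- the two ends of a simple bond -/
theorem simple_step (hN : D.monomialSubgroup K ≤ M) {i j : ℕ} (hi : i < D.rank) (hj : j < D.rank)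
    (hij : D.cartan i (D.simple j) = -1) (hji : D.cartan j (D.simple i) = -1) (h : InM M (D.simple i)) :
    InM M (D.simple j) := by
  have hne : i ≠ j := by
    rintro rfl
    rw [G.ca_simple i hi] at hij
    norm_num at hij
  have hsi := G.simple_lt i hi
  have hsj := G.simple_lt j hj
  have h1 := inM_w G hN hj hsi h
  have hw1 := G.w_lt j hj _ hsi
  have h2 := inM_w G hN hi hw1 h1
  have h3 : D.reflectRoot i (D.reflectRoot j (D.simple i)) = D.simple j := by
    apply G.rv_inj _ (G.w_lt i hi _ hw1) _ hsj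
    intro l hl
    rw [G.rv_w i hi _ hw1, G.rv_w j hj _ hsi, G.ca_w j hj _ hsi i hi, G.ca_simple i hi, hij, hji, G.rv_simple i hi, G.rv_simple j hj]
    split_ifs <;> simp_all
  rwa [h3] at h2

/-- from a short fundamental root to an adjacent long one -/
theorem long_step (hN : D.monomialSubgroup K ≤ M) {a b s k : ℕ} {m : ℤ} (ha : a < D.rank) (hb : b < D.rank)
    (hs : s < D.nroots) (hs1 : s ≠ D.simple a) (hs2 : s ≠ D.neg (D.simple a)) (hsM : InM M s)
    (h : D.commTerms (D.simple a) s = [(k, m, 1, 1)]) (hm : (m : K) ≠ 0) (hk : D.reflectRoot a (D.simple b) = k)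
    (h1 : InM M (D.simple a)) : InM M (D.simple b) := by
  have h2 := inM_comm G (G.simple_lt a ha) hs hs1 hs2 h hm h1 hsM
  rw [← hk] at h2
  have h3 := inM_w G hN ha (G.w_lt a ha _ (G.simple_lt b hb)) h2
  rwa [G.w_w a ha _ (G.simple_lt b hb)] at h3

theorem edges (hN : D.monomialSubgroup K ≤ M) (E : List (ℕ × ℕ))
    (hE : ∀ e ∈ E, e.1 < D.rank ∧ e.2 < D.rank ∧ D.cartan e.1 (D.simple e.2) = -1 ∧ D.cartan e.2 (D.simple e.1) = -1) :
    ∀ e ∈ E, (InM M (D.simple e.1) ↔ InM M (D.simple e.2)) := by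
  intro e he
  obtain ⟨h1, h2, h3, h4⟩ := hE e he
  exact ⟨simple_step G hN h1 h2 h3 h4, simple_step G hN h2 h1 h4 h3⟩

theorem inM_rootSubgroup (r : ℕ) (hM : D.rootSubgroup K r ≤ M) : InM M r := fun t =>
  hM (Subgroup.subset_closure ⟨t, coe_xg G r t⟩)

end

theorem conn4 (P : ℕ → Prop) (h : ∀ e ∈ ([(0, 1), (1, 2), (1, 3)] : List (ℕ × ℕ)), (P e.1 ↔ P e.2)) : ∀ i < 4, P i → ∀ j < 4, P j := by
  simp only [List.forall_mem_cons] at h
  intro i hi hP
  have h0 : P 0 := by interval_cases i <;> tauto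
  clear hP
  intro j hj
  interval_cases j <;> tauto

theorem conn6 (P : ℕ → Prop) (h : ∀ e ∈ ([(0, 2), (1, 3), (2, 3), (3, 4), (4, 5)] : List (ℕ × ℕ)), (P e.1 ↔ P e.2)) : ∀ i < 6, P i → ∀ j < 6, P j := by
  simp only [List.forall_mem_cons] at h
  intro i hi hP
  have h0 : P 0 := by interval_cases i <;> tauto
  clear hP
  intro j hj
  interval_cases j <;> tauto

theorem conn7 (P : ℕ → Prop) (h : ∀ e ∈ ([(0, 2), (1, 3), (2, 3), (3, 4), (4, 5), (5, 6)] : List (ℕ × ℕ)), (P e.1 ↔ P e.2)) : ∀ i < 7, P i → ∀ j < 7, P j := by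
  simp only [List.forall_mem_cons] at h
  intro i hi hP
  have h0 : P 0 := by interval_cases i <;> tauto
  clear hP
  intro j hj
  interval_cases j <;> tauto

theorem conn8 (P : ℕ → Prop) (h : ∀ e ∈ ([(0, 2), (1, 3), (2, 3), (3, 4), (4, 5), (5, 6), (6, 7)] : List (ℕ × ℕ)), (P e.1 ↔ P e.2)) : ∀ i < 8, P i → ∀ j < 8, P j := by
  simp only [List.forall_mem_cons] at h
  intro i hi hP
  have h0 : P 0 := by interval_cases i <;> tauto
  clear hP
  intro j hj
  interval_cases j <;> tauto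

theorem connF (P : ℕ → Prop) (h : ∀ e ∈ ([(0, 1), (2, 3)] : List (ℕ × ℕ)), (P e.1 ↔ P e.2)) (i : ℕ) (hi : i < 2) (hP : P i) :
    P 0 ∧ P 1 := by
  simp only [List.forall_mem_cons] at h
  interval_cases i <;> tauto

theorem connG (P : ℕ → Prop) (h : ∀ e ∈ ([(0, 1), (2, 3)] : List (ℕ × ℕ)), (P e.1 ↔ P e.2)) (i : ℕ) (hi : i = 2 ∨ i = 3) (hP : P i) :
    P 2 := by
  simp only [List.forall_mem_cons] at h
  rcases hi with rfl | rfl <;> tauto

theorem connF' (P : ℕ → Prop) (h : ∀ e ∈ ([(0, 1), (2, 3)] : List (ℕ × ℕ)), (P e.1 ↔ P e.2)) (h1 : P 0) (h2 : P 2) :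
    ∀ j < 4, P j := by
  simp only [List.forall_mem_cons] at h
  intro j hj
  interval_cases j <;> tauto

end Cfsg.Agent.Lib.ChevShort
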