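import Cfsg.Agent.Lib.ChevTorus2
import Cfsg.Agent.Lib.ChevCent

set_option autoImplicit false

/-!
# Certificates for twisted tori (helper40)
-/

namespace Cfsg.Agent.Lib.ChevTorus
open Cfsg.Lie Cfsg.Agent.Lib.ChevX Cfsg.Agent.Lib.ChevGood Cfsg.Agent.Lib.ChevRel Cfsg.Agent.Lib.ChevNPerm
  Cfsg.Agent.Lib.ChevTab

/-- the action of a word, from the table -/
def actT (A : Tab) (l : List ℕ) (s : ℕ) : ℕ := l.foldr (fun i s => wT A i s) s

/-- consecutive entries of the list are related by `f` -/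
def chainB (f : ℕ → ℕ) : List ℕ → Bool
  | a :: b :: L => Nat.beq (f a) b && chainB f (b :: L)
  | _ => true

lemma chainB_sound (f : ℕ → ℕ) : ∀ (L : List ℕ) (a : ℕ), chainB f (a :: L) = true → ∀ k (hk : k < (a :: L).length), (a :: L)[k] = f^[k] a := by
  intro L
  induction L with
  | nil =>
    intro a _ k hk
    have : k = 0 := by simpa using hk
    subst this; rfl
  | cons b L ih =>
    intro a h k hk
    simp only [chainB, Bool.and_eq_true] at h
    have h1 : f a = b := Nat.eq_of_beq_eq_true h.1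
    cases k with
    | zero => rfl
    | succ k =>
      have := ih b h.2 k (by simpa using hk)
      rw [List.getElem_cons_succ, this, Function.iterate_succ_apply, h1]

section
variable {D : ChevalleyDatum} {A : Tab} (G : Good D)
  (hW : ∀ i < D.rank, ∀ s < D.nroots, D.reflectRoot i s = wT A i s)
include G hW

lemma wl_coe (l : List (Fin D.rank)) (s : Fin D.nroots) : ((wl G l s : Fin D.nroots) : ℕ) = actT A (l.map Fin.val) s := by
  induction l with
  | nil => rfl
  | cons i l ih =>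
    have h1 : wl G (i :: l) s = refl G i (wl G l s) := rfl
    rw [h1]
    change D.reflectRoot i (wl G l s) = wT A i (actT A (l.map Fin.val) s)
    rw [← ih, hW i i.2 _ (wl G l s).2]

lemma wl_pow_coe (l : List (Fin D.rank)) (s : Fin D.nroots) (k : ℕ) :
    (((wl G l ^ k) s : Fin D.nroots) : ℕ) = (actT A (l.map Fin.val))^[k] s := by
  induction k with
  | zero => rfl
  | succ k ih => rw [pow_succ', Equiv.Perm.mul_apply, wl_coe G hW, ih, Function.iterate_succ_apply']

omit hW in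
lemma pr_W {w : Equiv.Perm (Fin D.nroots)} (hw : w ∈ Subgroup.closure (Set.range (refl G))) (a b : Fin D.nroots) :
    pr D (w a) (w b) = pr D a b := by
  induction hw using Subgroup.closure_induction generalizing a b with
  | mem x hx =>
    obtain ⟨i, rfl⟩ := hx
    change pr D (D.reflectRoot i a) (D.reflectRoot i b) = _
    rw [pr_w G i.2 a.2 (G.w_lt i i.2 b b.2), G.w_w i i.2 b b.2]
  | one => rfl
  | mul x y _ _ hx hy => rw [Equiv.Perm.mul_apply, Equiv.Perm.mul_apply, hx, hy]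
  | inv x _ hx =>
    have := hx (x⁻¹ a) (x⁻¹ b)
    rw [← this]
    simp

end

/-- one orbit with a certificate: `Σ d_k rv(w^k β) = Σ f_k rv(w^k α)` -/
structure Row where
  orb : List ℕ
  d : List ℤ
  f : List ℤ
  /-- separation from the orbit of `α` by the `k`-th pairing; `0` if not separated -/
  sep : ℕ

/-- combination check: `Σ_k d_k rv(orb_k) = Σ_k f_k rv(as_k)` -/
def combB (n : ℕ) (R : ℕ → ℕ → ℤ) (as : List ℕ) (r : Row) : Bool :=
  decide (∀ j ∈ List.range n, ∑ k ∈ Finset.range n, r.d.getD k 0 * R (r.orb.getD k 0) j =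
    ∑ k ∈ Finset.range n, r.f.getD k 0 * R (as.getD k 0) j)

section
variable {D : ChevalleyDatum} {G : Good D} {q N : ℕ} (T : TD G q N)
include T

lemma TD.M_pow (s : Fin D.nroots) (k : ℕ) : (N : ℤ) ∣ T.M ((wl G T.l ^ k) s) - q ^ k * T.M s := by
  induction k with
  | zero => simp
  | succ k ih =>
    rw [pow_succ', Equiv.Perm.mul_apply]
    have h1 := T.M_w ((wl G T.l ^ k) s)
    have : T.M ((wl G T.l) ((wl G T.l ^ k) s)) - q ^ (k + 1) * T.M s =
        (T.M ((wl G T.l) ((wl G T.l ^ k) s)) - q * T.M ((wl G T.l ^ k) s)) + q * (T.M ((wl G T.l ^ k) s) - q ^ k * T.M s) := by ring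
    rw [this]
    exact dvd_add h1 (Dvd.dvd.mul_left ih _)

/-- consequences of a combination -/
lemma TD.comb (s : Fin D.nroots) (d f : ℕ → ℤ)
    (h : ∀ j < D.rank, ∑ k ∈ Finset.range D.rank, d k * G.rv ((wl G T.l ^ k) s) j =
      ∑ k ∈ Finset.range D.rank, f k * G.rv ((wl G T.l ^ k) T.α) j) :
    (N : ℤ) ∣ (∑ k ∈ Finset.range D.rank, d k * q ^ k) * T.M s - ∑ k ∈ Finset.range D.rank, f k * q ^ k := by
  have h1 : ∑ k ∈ Finset.range D.rank, d k * T.M ((wl G T.l ^ k) s) = ∑ k ∈ Finset.range D.rank, f k * T.M ((wl G T.l ^ k) T.α) := by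
    have key : ∀ (g : ℕ → ℤ) (t : Fin D.nroots), ∑ k ∈ Finset.range D.rank, g k * T.M ((wl G T.l ^ k) t) =
        ∑ j : Fin D.rank, (∑ k ∈ Finset.range D.rank, g k * G.rv ((wl G T.l ^ k) t) j) * T.M (simpF G j) := by
      intro g t
      simp only [Finset.sum_mul]
      rw [Finset.sum_comm]
      refine Finset.sum_congr rfl fun k _ => ?_
      rw [T.M_lin, Finset.mul_sum]
      exact Finset.sum_congr rfl fun j _ => by ring
    rw [key, key]
    exact Finset.sum_congr rfl fun j _ => by rw [h j j.2]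
  have h2 : ∀ (g : ℕ → ℤ) (t : Fin D.nroots), (N : ℤ) ∣ ∑ k ∈ Finset.range D.rank, g k * T.M ((wl G T.l ^ k) t) -
      (∑ k ∈ Finset.range D.rank, g k * q ^ k) * T.M t := by
    intro g t
    rw [Finset.sum_mul, ← Finset.sum_sub_distrib]
    refine Finset.dvd_sum fun k _ => ?_
    have := T.M_pow t k
    have h3 : g k * T.M ((wl G T.l ^ k) t) - g k * (q : ℤ) ^ k * T.M t = g k * (T.M ((wl G T.l ^ k) t) - q ^ k * T.M t) := by ring
    rw [h3]
    exact Dvd.dvd.mul_left this _
  have h3 := h2 d s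
  have h4 := h2 f T.α
  rw [h1] at h3
  rw [T.M_α, mul_one] at h4
  have h5 := dvd_sub h4 h3
  have h6 : (∑ k ∈ Finset.range D.rank, d k * (q : ℤ) ^ k) * T.M s - ∑ k ∈ Finset.range D.rank, f k * (q : ℤ) ^ k =
      (∑ k ∈ Finset.range D.rank, f k * T.M ((wl G T.l ^ k) T.α) - ∑ k ∈ Finset.range D.rank, f k * (q : ℤ) ^ k) -
      (∑ k ∈ Finset.range D.rank, f k * T.M ((wl G T.l ^ k) T.α) - (∑ k ∈ Finset.range D.rank, d k * (q : ℤ) ^ k) * T.M s) := by ring
  rw [h6]
  exact h5

end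

/-- the certificate of a torus (computable data) -/
structure TC where
  l : List ℕ
  /-- `α, w α, …, w^rank α` -/
  as : List ℕ
  m : List (List ℤ)
  c : List ℤ
  rows : List Row
  /-- individual certificates for the roots not separated from `α` -/
  rows2 : List Row

/-- matrix entry -/
def mm (m : List (List ℤ)) (j i : ℕ) : ℤ := (m.getD j []).getD i 0

section check
variable (D : ChevalleyDatum) (A : Tab) (R : ℕ → ℕ → ℤ) (C : TC)

/-- the basic conditions -/
def TC.basic : Bool :=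
  decide (C.as.length = D.rank + 1) && decide (∀ i ∈ C.l, i < D.rank) && chainB (actT A C.l) C.as && decide (C.as.getD 0 0 < D.nroots) &&
  decide (∀ j ∈ List.range D.rank, ∀ k ∈ List.range D.rank,
    ∑ i ∈ Finset.range D.rank, mm C.m j i * R (C.as.getD i 0) k = if j = k then 1 else 0) &&
  decide (∀ k ∈ List.range D.rank, R (C.as.getD D.rank 0) k = - ∑ i ∈ Finset.range D.rank, C.c.getD i 0 * R (C.as.getD i 0) k) &&
  decide (∀ i ∈ List.range D.rank, ∑ j ∈ Finset.range D.rank, R (C.as.getD 0 0) j * mm C.m j i = if i = 0 then 1 else 0) &&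
  decide (∀ j ∈ List.range D.rank, ∀ i ∈ List.range D.rank,
    ∑ k ∈ Finset.range D.rank, R (actT A C.l (D.simple j)) k * mm C.m k i =
      (if i = 0 then 0 else mm C.m j (i - 1)) - mm C.m j (D.rank - 1) * C.c.getD i 0)

/-- a row is correct -/
def TC.rowOK (r : Row) : Bool :=
  decide (D.rank ≤ r.orb.length) && chainB (actT A C.l) r.orb && decide (r.orb.getD 0 0 < D.nroots) && combB D.rank R C.as r

/-- separation -/
def TC.sepOK (r : Row) : Bool :=
  decide (r.sep < D.rank) && decide (pr D (r.orb.getD 0 0) (r.orb.getD r.sep 0) ≠ pr D (C.as.getD 0 0) (C.as.getD r.sep 0))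

/-- all rows -/
def TC.rowsOK : Bool :=
  C.rows.all (fun r => TC.rowOK D A R C r) && C.rows2.all (fun r => TC.rowOK D A R C r) &&
  decide (∀ s ∈ List.range D.nroots, ∃ r ∈ C.rows, s ∈ r.orb)

/-- every root is separated or individually treated -/
def TC.sepsOK : Bool :=
  C.rows.all (fun r => TC.sepOK D C r || r.orb.all (fun s => Nat.beq s (C.as.getD 0 0) || C.rows2.any (fun r' => Nat.beq (r'.orb.getD 0 0) s)))

end check

section build
variable {D : ChevalleyDatum} {A : Tab} {G : Good D} (hW : ∀ i < D.rank, ∀ s < D.nroots, D.reflectRoot i s = wT A i s)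
  {R : ℕ → ℕ → ℤ} (hR : G.rv = R) (C : TC) (hC : TC.basic D A R C = true)

lemma sum_shift (n : ℕ) (hn : 0 < n) (f : ℕ → ℤ) (x : ℤ) :
    ∑ i ∈ Finset.range n, (if i = 0 then 0 else f (i - 1)) * x ^ i = x * ∑ i ∈ Finset.range n, f i * x ^ i - f (n - 1) * x ^ n := by
  obtain ⟨n, rfl⟩ : ∃ m, n = m + 1 := ⟨n - 1, by omega⟩
  rw [Finset.sum_range_succ', Finset.sum_range_succ]
  simp only [if_true, zero_mul, add_zero, Nat.add_sub_cancel, Nat.succ_ne_zero, if_false]
  rw [mul_add, Finset.mul_sum]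
  have : ∑ k ∈ Finset.range n, f k * x ^ (k + 1) = ∑ k ∈ Finset.range n, x * (f k * x ^ k) :=
    Finset.sum_congr rfl fun k _ => by ring
  rw [this]
  ring

include hW hR hC in
/-- the torus data of a certificate -/
noncomputable def TC.toTD (q N : ℕ) (hN : (N : ℤ) = (q : ℤ) ^ D.rank + ∑ i ∈ Finset.range D.rank, C.c.getD i 0 * (q : ℤ) ^ i) :
    { T : TD G q N // T.l.map Fin.val = C.l ∧ (T.α : ℕ) = C.as.getD 0 0 } := by
  simp only [TC.basic, Bool.and_eq_true, decide_eq_true_eq, List.mem_range] at hC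
  have h8 := hC.2
  have h7 := hC.1.2
  have h6 := hC.1.1.2
  have h5 := hC.1.1.1.2
  have h4 := hC.1.1.1.1.2
  have h3 := hC.1.1.1.1.1.2
  have h2 := hC.1.1.1.1.1.1.2
  have h1 := hC.1.1.1.1.1.1.1
  let l : List (Fin D.rank) := C.l.attach.map fun i => ⟨i.1, h2 i.1 i.2⟩
  have hl : l.map Fin.val = C.l := by
    simp only [l, List.map_map]
    exact List.attach_map_subtype_val C.l
  let α : Fin D.nroots := ⟨C.as.getD 0 0, h4⟩
  have has : ∀ i ≤ D.rank, (((wl G l ^ i) α : Fin D.nroots) : ℕ) = C.as.getD i 0 := by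
    intro i hi
    rw [wl_pow_coe G hW, hl]
    obtain ⟨a, L, hL⟩ : ∃ a L, C.as = a :: L := by
      cases h : C.as with
      | nil => rw [h] at h1; simp at h1
      | cons a L => exact ⟨a, L, rfl⟩
    have h9 : (α : ℕ) = a := by
      change C.as.getD 0 0 = a
      rw [hL]; rfl
    rw [h9, hL, ← chainB_sound (actT A C.l) L a (by rw [← hL]; exact h3) i (by rw [← hL, h1]; omega),
      List.getD_eq_getElem _ _ (by rw [← hL, h1]; omega)]
  have hpos := G.rank_pos
  let μ : ℕ → ℤ := fun j => ∑ i ∈ Finset.range D.rank, mm C.m j i * (q : ℤ) ^ i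
  let M : Fin D.nroots → ℤ := fun s => ∑ j : Fin D.rank, G.rv s j * μ j
  have hMs : ∀ j : Fin D.rank, M (simpF G j) = μ j := by
    intro j
    change ∑ k : Fin D.rank, G.rv (simpF G j) k * μ k = μ j
    rw [Finset.sum_eq_single j]
    · rw [rv_simpF, if_pos rfl, one_mul]
    · intro k _ hk
      rw [rv_simpF, if_neg (fun h => hk (Fin.ext h)), zero_mul]
    · intro h; exact absurd (Finset.mem_univ _) h
  have hMq : ∀ s, M s = ∑ i ∈ Finset.range D.rank, (∑ j ∈ Finset.range D.rank, G.rv s j * mm C.m j i) * (q : ℤ) ^ i := by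
    intro s
    change ∑ j : Fin D.rank, G.rv s j * μ j = _
    rw [← Finset.sum_range (fun j => G.rv s j * μ j)]
    simp only [μ, Finset.mul_sum, Finset.sum_mul]
    rw [Finset.sum_comm]
    exact Finset.sum_congr rfl fun i _ => Finset.sum_congr rfl fun j _ => by ring
  refine ⟨{
    l := l
    α := α
    M := M
    m := fun j i => mm C.m j i
    c := fun i => C.c.getD i 0
    M_lin := fun s => Finset.sum_congr rfl fun j _ => by rw [hMs]
    M_simple := fun j => by rw [hMs]; exact Finset.sum_range _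
    M_α := ?_
    M_w := ?_
    gen := ?_
    rel := ?_
    N_eq := by rw [hN, Finset.sum_range] }, hl, rfl⟩
  · rw [hMq]
    have : ∀ i ∈ Finset.range D.rank, (∑ j ∈ Finset.range D.rank, G.rv α j * mm C.m j i) * (q : ℤ) ^ i = if i = 0 then 1 else 0 := by
      intro i hi
      have := h7 i (Finset.mem_range.mp hi)
      rw [← hR] at this
      change (∑ j ∈ Finset.range D.rank, G.rv (C.as.getD 0 0) j * mm C.m j i) * (q : ℤ) ^ i = _
      rw [this]
      split_ifs with h
      · rw [h]; simp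
      · simp
    rw [Finset.sum_congr rfl this, Finset.sum_ite_eq' (Finset.range D.rank) 0, if_pos (Finset.mem_range.mpr hpos)]
  · -- the action of `w`
    have hsimp : ∀ j : Fin D.rank, (N : ℤ) ∣ M (wl G l (simpF G j)) - q * M (simpF G j) := by
      intro j
      rw [hMs, hMq]
      have h9 : ∀ i ∈ Finset.range D.rank, (∑ k ∈ Finset.range D.rank, G.rv (wl G l (simpF G j)) k * mm C.m k i) * (q : ℤ) ^ i =
          (if i = 0 then 0 else mm C.m j (i - 1)) * (q : ℤ) ^ i - mm C.m j (D.rank - 1) * (C.c.getD i 0 * (q : ℤ) ^ i) := by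
        intro i hi
        have := h8 j j.2 i (Finset.mem_range.mp hi)
        rw [← hR] at this
        rw [wl_coe G hW, hl]
        change (∑ k ∈ Finset.range D.rank, G.rv (actT A C.l (D.simple j)) k * mm C.m k i) * (q : ℤ) ^ i = _
        rw [this]; ring
      rw [Finset.sum_congr rfl h9, Finset.sum_sub_distrib, ← Finset.mul_sum, sum_shift _ hpos (fun i => mm C.m j i)]
      refine ⟨- mm C.m j (D.rank - 1), ?_⟩
      rw [hN]
      ring
    intro s
    have hlin : Lin G (wl G l) := (mono_nl (F := ℚ) G l).1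
    have h9 : M (wl G l s) - q * M s = ∑ j : Fin D.rank, G.rv s j * (M (wl G l (simpF G j)) - q * M (simpF G j)) := by
      have h10 : M (wl G l s) = ∑ j : Fin D.rank, G.rv s j * M (wl G l (simpF G j)) := by
        change ∑ k : Fin D.rank, G.rv (wl G l s) k * μ k = _
        have : ∀ k : Fin D.rank, G.rv (wl G l s) k * μ k = ∑ j : Fin D.rank, G.rv s j * (G.rv (wl G l (simpF G j)) k * μ k) := by
          intro k
          rw [hlin s k, Finset.sum_mul]
          exact Finset.sum_congr rfl fun j _ => by ring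
        rw [Finset.sum_congr rfl fun k _ => this k, Finset.sum_comm]
        exact Finset.sum_congr rfl fun j _ => by rw [← Finset.mul_sum]
      rw [h10]
      have h11 : M s = ∑ j : Fin D.rank, G.rv s j * M (simpF G j) := Finset.sum_congr rfl fun j _ => by rw [hMs]
      rw [h11, Finset.mul_sum, ← Finset.sum_sub_distrib]
      exact Finset.sum_congr rfl fun j _ => by ring
    rw [h9]
    exact Finset.dvd_sum fun j _ => Dvd.dvd.mul_left (hsimp j) _
  · intro j k
    have := h5 j j.2 k k.2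
    rw [Finset.sum_range, ← hR] at this
    calc _ = ∑ i : Fin D.rank, mm C.m j i * G.rv (C.as.getD i 0) k := Finset.sum_congr rfl fun i _ => by rw [has i i.2.le]
      _ = _ := by
        rw [this]
        congr 1
        exact propext ⟨fun h => Fin.ext h, fun h => by rw [h]⟩
  · intro k
    have := h6 k k.2
    rw [Finset.sum_range, ← hR] at this
    rw [has _ le_rfl, this]
    congr 1
    exact Finset.sum_congr rfl fun i _ => by rw [has i i.2.le]

include hW in
lemma row_spec {q N : ℕ} (T : TD G q N) (hT : T.l.map Fin.val = C.l) {orb : List ℕ} (h2 : chainB (actT A C.l) orb = true)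
    (h0 : orb.getD 0 0 < D.nroots) (k : ℕ) (hk : k < orb.length) :
    orb.getD k 0 = ((wl G T.l ^ k) (⟨orb.getD 0 0, h0⟩ : Fin D.nroots) : Fin D.nroots) := by
  cases orb with
  | nil => simp at hk
  | cons a L =>
    rw [wl_pow_coe G hW, hT, List.getD_eq_getElem _ _ hk, chainB_sound _ L a h2 k hk]
    rfl

include hW hR hC in
/-- the two hypotheses of the main theorem from the certificate -/
theorem TC.hyps {q N : ℕ} (hNq : N.Coprime q) (T : TD G q N) (hT : T.l.map Fin.val = C.l) (hα : (T.α : ℕ) = C.as.getD 0 0)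
    (hrows : TC.rowsOK D A R C = true) (hseps : TC.sepsOK D C = true)
    (hE1 : ∀ r ∈ C.rows, ¬ (N : ℤ) ∣ ∑ k ∈ Finset.range D.rank, r.f.getD k 0 * (q : ℤ) ^ k)
    (hE2 : ∀ r ∈ C.rows2, ¬ (N : ℤ) ∣ ∑ k ∈ Finset.range D.rank, r.d.getD k 0 * (q : ℤ) ^ k - ∑ k ∈ Finset.range D.rank, r.f.getD k 0 * (q : ℤ) ^ k) :
    (∀ s, ¬ (N : ℤ) ∣ T.M s) ∧
    (∀ w ∈ Subgroup.closure (Set.range (refl G)), w * wl G T.l = wl G T.l * w → (N : ℤ) ∣ T.M (w T.α) - 1 → w T.α = T.α) := by
  simp only [TC.rowsOK, Bool.and_eq_true, List.all_eq_true, decide_eq_true_eq, List.mem_range] at hrows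
  obtain ⟨⟨hr1, hr2⟩, hcov⟩ := hrows
  simp only [TC.basic, Bool.and_eq_true, decide_eq_true_eq] at hC
  have hlen := hC.1.1.1.1.1.1.1
  have hch := hC.1.1.1.1.1.2
  have h40 := hC.1.1.1.1.2
  have has : ∀ k ≤ D.rank, C.as.getD k 0 = ((wl G T.l ^ k) T.α : Fin D.nroots) := by
    intro k hk
    have h1 := row_spec hW C T hT hch h40 k (by rw [hlen]; omega)
    rw [h1]
    have h2 : (⟨C.as.getD 0 0, h40⟩ : Fin D.nroots) = T.α := Fin.ext hα.symm
    rw [h2]
  have hrow : ∀ r : Row, TC.rowOK D A R C r = true → D.rank ≤ r.orb.length ∧ chainB (actT A C.l) r.orb = true ∧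
      ∃ h0 : r.orb.getD 0 0 < D.nroots, (N : ℤ) ∣ (∑ k ∈ Finset.range D.rank, r.d.getD k 0 * q ^ k) *
        T.M ⟨r.orb.getD 0 0, h0⟩ - ∑ k ∈ Finset.range D.rank, r.f.getD k 0 * q ^ k := by
    intro r hr
    simp only [TC.rowOK, Bool.and_eq_true, decide_eq_true_eq, combB, List.mem_range] at hr
    obtain ⟨⟨⟨h1, h2⟩, h3⟩, h4⟩ := hr
    refine ⟨h1, h2, h3, ?_⟩
    apply T.comb ⟨r.orb.getD 0 0, h3⟩ (fun k => r.d.getD k 0) (fun k => r.f.getD k 0)
    intro j hj
    have h5 := h4 j hj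
    rw [← hR] at h5
    calc _ = ∑ k ∈ Finset.range D.rank, r.d.getD k 0 * G.rv (r.orb.getD k 0) j := Finset.sum_congr rfl fun k hk => by
          rw [row_spec hW C T hT h2 h3 k (lt_of_lt_of_le (Finset.mem_range.mp hk) h1)]
      _ = _ := h5
      _ = _ := Finset.sum_congr rfl fun k hk => by rw [has k (Finset.mem_range.mp hk).le]
  have hcop : ∀ k : ℕ, IsCoprime (N : ℤ) ((q : ℤ) ^ k) := fun k => by
    exact (Int.isCoprime_iff_gcd_eq_one.mpr (by simpa using hNq)).pow_right
  constructor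
  · intro s hs
    obtain ⟨r, hr, hsr⟩ := hcov s s.2
    obtain ⟨h1, h2, h3, h4⟩ := hrow r (hr1 r hr)
    obtain ⟨k, hk, hks⟩ := List.getElem_of_mem hsr
    have h5 : s = (wl G T.l ^ k) ⟨r.orb.getD 0 0, h3⟩ := by
      apply Fin.ext
      rw [← row_spec hW C T hT h2 h3 k hk, List.getD_eq_getElem _ _ hk, hks]
    have h6 := T.M_pow ⟨r.orb.getD 0 0, h3⟩ k
    rw [← h5] at h6
    have h7 : (N : ℤ) ∣ q ^ k * T.M ⟨r.orb.getD 0 0, h3⟩ := by
      have := dvd_sub hs h6
      rwa [sub_sub_cancel] at this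
    have h8 : (N : ℤ) ∣ T.M ⟨r.orb.getD 0 0, h3⟩ := (hcop k).dvd_of_dvd_mul_left h7
    apply hE1 r hr
    have := dvd_sub (Dvd.dvd.mul_left h8 (∑ k ∈ Finset.range D.rank, r.d.getD k 0 * (q : ℤ) ^ k)) h4
    rwa [sub_sub_cancel] at this
  · intro w hw hc hM
    by_contra hne
    set s := w T.α with hs
    have hcp : ∀ k : ℕ, w * (wl G T.l) ^ k = (wl G T.l) ^ k * w := fun k =>
      (Commute.pow_right (show Commute w (wl G T.l) from hc) k).eq
    have hwl : wl G T.l ∈ Subgroup.closure (Set.range (refl G)) := by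
      unfold wl
      exact Subgroup.list_prod_mem _ (by
        intro x hx
        obtain ⟨i, -, rfl⟩ := List.mem_map.mp hx
        exact Subgroup.subset_closure ⟨i, rfl⟩)
    have hprs : ∀ k : ℕ, pr D s ((wl G T.l ^ k) s) = pr D T.α ((wl G T.l ^ k) T.α) := by
      intro k
      have h1 : (wl G T.l ^ k) s = w ((wl G T.l ^ k) T.α) := by
        rw [hs, ← Equiv.Perm.mul_apply, ← hcp k, Equiv.Perm.mul_apply]
      rw [h1]
      exact pr_W G hw T.α _
    obtain ⟨r, hr, hsr⟩ := hcov s s.2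
    obtain ⟨h1, h2, h3, h4⟩ := hrow r (hr1 r hr)
    obtain ⟨k, hk, hks⟩ := List.getElem_of_mem hsr
    have h5 : s = (wl G T.l ^ k) ⟨r.orb.getD 0 0, h3⟩ := by
      apply Fin.ext
      rw [← row_spec hW C T hT h2 h3 k hk, List.getD_eq_getElem _ _ hk, hks]
    simp only [TC.sepsOK, List.all_eq_true, Bool.or_eq_true, List.any_eq_true] at hseps
    rcases hseps r hr with h6 | h6
    · simp only [TC.sepOK, Bool.and_eq_true, decide_eq_true_eq] at h6
      obtain ⟨h6, h7⟩ := h6
      apply h7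
      have e1 := row_spec hW C T hT h2 h3 r.sep (by omega)
      have e2 := has r.sep h6.le
      have e3 : pr D (⟨r.orb.getD 0 0, h3⟩ : Fin D.nroots) ((wl G T.l ^ r.sep) ⟨r.orb.getD 0 0, h3⟩ : Fin D.nroots) =
          pr D s ((wl G T.l ^ r.sep) s : Fin D.nroots) := by
        have e4 := pr_W G (pow_mem hwl k) ⟨r.orb.getD 0 0, h3⟩ ((wl G T.l ^ r.sep) ⟨r.orb.getD 0 0, h3⟩)
        rw [← Equiv.Perm.mul_apply, ← pow_add, add_comm, pow_add, Equiv.Perm.mul_apply, ← h5] at e4
        exact e4.symm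
      rw [e1, e2, ← hα]
      exact e3.trans (hprs _)
    · rcases h6 s hsr with h7 | ⟨r', hr', h7⟩
      · apply hne
        apply Fin.ext
        rw [hα]
        exact Nat.eq_of_beq_eq_true h7
      · have h7 := Nat.eq_of_beq_eq_true h7
        obtain ⟨g1, g2, g3, g4⟩ := hrow r' (hr2 r' hr')
        have g5 : (⟨r'.orb.getD 0 0, g3⟩ : Fin D.nroots) = s := Fin.ext h7
        rw [g5] at g4
        apply hE2 r' hr'
        have g6 := dvd_sub g4 (Dvd.dvd.mul_left hM (∑ k ∈ Finset.range D.rank, r'.d.getD k 0 * (q : ℤ) ^ k))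
        have g7 : (∑ k ∈ Finset.range D.rank, r'.d.getD k 0 * (q : ℤ) ^ k) - ∑ k ∈ Finset.range D.rank, r'.f.getD k 0 * (q : ℤ) ^ k =
            (∑ k ∈ Finset.range D.rank, r'.d.getD k 0 * (q : ℤ) ^ k) * T.M s - (∑ k ∈ Finset.range D.rank, r'.f.getD k 0 * (q : ℤ) ^ k) -
            (∑ k ∈ Finset.range D.rank, r'.d.getD k 0 * (q : ℤ) ^ k) * (T.M s - 1) := by ring
        rw [g7]
        exact g6

include hW hR hC in
/-- the torus theorem from a certificate -/
theorem TC.exists_torus {q N : ℕ} (hD : ChevBruhat.Listed D) {F : Type*} [Field F] [Fintype F] (hq : Fintype.card F = q)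
    (cd : ChevFix.CertD D 1) (hN : (N : ℤ) = (q : ℤ) ^ D.rank + ∑ i ∈ Finset.range D.rank, C.c.getD i 0 * (q : ℤ) ^ i)
    (hN0 : 0 < N) (hNq : N.Coprime q) (hrows : TC.rowsOK D A R C = true) (hseps : TC.sepsOK D C = true)
    (hE1 : ∀ r ∈ C.rows, ¬ (N : ℤ) ∣ ∑ k ∈ Finset.range D.rank, r.f.getD k 0 * (q : ℤ) ^ k)
    (hE2 : ∀ r ∈ C.rows2, ¬ (N : ℤ) ∣ ∑ k ∈ Finset.range D.rank, r.d.getD k 0 * (q : ℤ) ^ k - ∑ k ∈ Finset.range D.rank, r.f.getD k 0 * (q : ℤ) ^ k) :
    ∃ H : Subgroup ↥(D.group F), IsCyclic ↥H ∧ Nat.card ↥H = N ∧ Subgroup.centralizer (H : Set ↥(D.group F)) = H := by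
  obtain ⟨T, hT, hα⟩ := C.toTD hW hR hC q N hN
  obtain ⟨h1, h2⟩ := C.hyps hW hR hC hNq T hT hα hrows hseps hE1 hE2
  exact T.main hD hq cd hN0 hNq h1 h2

end build

end Cfsg.Agent.Lib.ChevTorus
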