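import Cfsg.Agent.Lib.ChevSyl1
import Cfsg.Agent.Lib.ChevTorus3

set_option autoImplicit false

/-!
# Certificates for homocyclic Sylow subgroups of Chevalley groups (helper40)
-/

namespace Cfsg.Agent.Lib.ChevSyl
open Cfsg.Lie Cfsg.Agent.Lib.ChevX Cfsg.Agent.Lib.ChevGood Cfsg.Agent.Lib.ChevRel Cfsg.Agent.Lib.ChevNPerm
  Cfsg.Agent.Lib.ChevBruhat Cfsg.Agent.Lib.ChevFix Cfsg.Agent.Lib.ChevTorus Cfsg.Agent.Lib.ChevTab Cfsg.Agent.Lib.LargeSylow

/-- coefficients of the cyclotomic polynomials, without the leading one -/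
def cyc : ℕ → List ℤ
  | 1 => [-1] | 2 => [1] | 3 => [1, 1] | 4 => [1, 0] | 5 => [1, 1, 1, 1] | 6 => [1, -1] | 7 => [1, 1, 1, 1, 1, 1]
  | 8 => [1, 0, 0, 0] | 9 => [1, 0, 0, 1, 0, 0] | 10 => [1, -1, 1, -1] | 12 => [1, 0, -1, 0] | 14 => [1, -1, 1, -1, 1, -1]
  | 15 => [1, -1, 0, 1, -1, 1, 0, -1] | 18 => [1, 0, 0, -1, 0, 0] | 20 => [1, 0, -1, 0, 1, 0, -1, 0]
  | 24 => [1, 0, 0, 0, -1, 0, 0, 0] | 30 => [1, 1, 0, -1, -1, -1, 0, 1]
  | _ => []

/-- value of the monic polynomial with the given lower coefficients -/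
def cev (c : List ℤ) (q : ℤ) : ℤ := q ^ c.length + ∑ e ∈ Finset.range c.length, c.getD e 0 * q ^ e

/-- the proper divisors used -/
def cE : ℕ → List ℕ
  | 1 => [] | 2 => [1] | 3 => [1] | 4 => [2] | 5 => [1] | 6 => [3, 2] | 7 => [1] | 8 => [4] | 9 => [3] | 10 => [5, 2]
  | 12 => [6, 4] | 14 => [7, 2] | 15 => [5, 3] | 18 => [9, 6] | 20 => [10, 4] | 24 => [12, 8] | 30 => [15, 10, 6]
  | _ => []

/-- the list of treated orders -/
def cL : List ℕ := [1, 2, 3, 4, 5, 6, 7, 8, 9, 10, 12, 14, 15, 18, 20, 24, 30]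

theorem cyc_spec : ∀ d ∈ cL, ∀ x : ℤ, ∃ k : ℤ, cev (cyc d) x * ((cE d).map fun e => x ^ e - 1).prod = (x ^ d - 1) * k := by
  intro d hd x
  simp only [cL, List.mem_cons, List.not_mem_nil, or_false] at hd
  rcases hd with rfl | rfl | rfl | rfl | rfl | rfl | rfl | rfl | rfl | rfl | rfl | rfl | rfl | rfl | rfl | rfl | rfl <;>
    simp only [cev, cyc, cE, List.length_cons, List.length_nil, List.map_cons, List.map_nil, List.prod_cons, List.prod_nil,
      Finset.sum_range_succ, Finset.sum_range_zero, List.getD_cons_zero, List.getD_cons_succ]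
  · exact ⟨1, by ring⟩
  · exact ⟨1, by ring⟩
  · exact ⟨1, by ring⟩
  · exact ⟨1, by ring⟩
  · exact ⟨1, by ring⟩
  · exact ⟨x - 1, by ring⟩
  · exact ⟨1, by ring⟩
  · exact ⟨1, by ring⟩
  · exact ⟨1, by ring⟩
  · exact ⟨x - 1, by ring⟩
  · exact ⟨x ^ 2 - 1, by ring⟩
  · exact ⟨x - 1, by ring⟩
  · exact ⟨x - 1, by ring⟩
  · exact ⟨x ^ 3 - 1, by ring⟩
  · exact ⟨x ^ 2 - 1, by ring⟩
  · exact ⟨x ^ 4 - 1, by ring⟩
  · exact ⟨(x ^ 5 - 1) * (x ^ 3 - 1) * (x + 1), by ring⟩

theorem cE_lt : ∀ d ∈ cL, ∀ e ∈ cE d, 0 < e ∧ e < d := by decide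

/-- the `r`-part of `q^d - 1` divides the value of the cyclotomic polynomial -/
theorem dvd_cev (r : ℕ) [Fact r.Prime] {q : ℕ} (hq : 2 ≤ q) (hd : orderOf (q : ZMod r) ∈ cL) :
    ((r ^ padicValNat r (q ^ (orderOf (q : ZMod r)) - 1) : ℕ) : ℤ) ∣ cev (cyc (orderOf (q : ZMod r))) q := by
  obtain ⟨k, hk⟩ := cyc_spec _ hd q
  have hE := cE_lt _ hd
  have hord : ∀ i : ℕ, r ∣ q ^ i - 1 ↔ orderOf (q : ZMod r) ∣ i := fun i => dvd_iff r q (by omega) i
  generalize orderOf (q : ZMod r) = d at *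
  have hcast : ∀ i : ℕ, ((q ^ i - 1 : ℕ) : ℤ) = (q : ℤ) ^ i - 1 := by
    intro i
    have h1 : 1 ≤ q ^ i := Nat.one_le_pow _ _ (by omega)
    rw [Nat.cast_sub h1]
    push_cast
    rfl
  have h1 : ((r ^ padicValNat r (q ^ d - 1) : ℕ) : ℤ) ∣ (q : ℤ) ^ d - 1 := by
    rw [← hcast]
    exact_mod_cast (pow_padicValNat_dvd : r ^ padicValNat r (q ^ d - 1) ∣ q ^ d - 1)
  have h2 : ((r ^ padicValNat r (q ^ d - 1) : ℕ) : ℤ) ∣ cev (cyc d) q * ((cE d).map fun e => (q : ℤ) ^ e - 1).prod := by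
    rw [hk]; exact Dvd.dvd.mul_right h1 _
  refine IsCoprime.dvd_of_dvd_mul_right ?_ h2
  rw [Nat.cast_pow]
  apply IsCoprime.pow_left
  have hrp : Prime (r : ℤ) := Nat.prime_iff_prime_int.mp Fact.out
  rw [Prime.coprime_iff_not_dvd hrp]
  intro h3
  rw [Prime.dvd_prod_iff hrp] at h3
  obtain ⟨y, hy, hry⟩ := h3
  obtain ⟨e, he, rfl⟩ := List.mem_map.mp hy
  obtain ⟨he0, hed⟩ := hE e he
  rw [← hcast] at hry
  have h4 : r ∣ q ^ e - 1 := by exact_mod_cast hry
  rw [hord] at h4
  exact absurd (Nat.le_of_dvd he0 h4) (by omega)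

/-- the certificate -/
structure SC where
  d : ℕ
  a : ℕ
  l : List ℕ
  /-- the images of the fundamental roots -/
  ws : List ℕ
  M : List (List (List ℤ))
  b : List (List ℤ)

/-- entry of a three-fold list -/
def m3 (M : List (List (List ℤ))) (k j e : ℕ) : ℤ := ((M.getD k []).getD j []).getD e 0

section
variable (D : ChevalleyDatum) (A : Tab) (R : ℕ → ℕ → ℤ) (C : SC)

def SC.ok1 : Bool :=
  decide (∀ i ∈ C.l, i < D.rank) && decide (C.ws = (List.range D.rank).map fun j => actT A C.l (D.simple j)) &&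
  decide (C.d ∈ cL) && decide (0 < (cyc C.d).length)

def SC.ok2 : Bool :=
  decide (∀ k ∈ List.range C.a, ∀ j ∈ List.range D.rank, ∀ e ∈ List.range (cyc C.d).length,
    ∑ i ∈ Finset.range D.rank, R (C.ws.getD j 0) i * m3 C.M k i e =
      (if e = 0 then 0 else m3 C.M k j (e - 1)) - m3 C.M k j ((cyc C.d).length - 1) * (cyc C.d).getD e 0)

def SC.ok3 : Bool :=
  decide (∀ k ∈ List.range C.a, ∀ k' ∈ List.range C.a, ∀ e ∈ List.range (cyc C.d).length,
    ∑ j ∈ Finset.range D.rank, mm C.b k' j * m3 C.M k j e = if k = k' ∧ e = 0 then 1 else 0)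

def SC.ok : Bool := SC.ok1 D A C && SC.ok2 D R C && SC.ok3 D C

end

theorem SC.hom {D : ChevalleyDatum} {A : Tab} {G : Good D} (hW : ∀ i < D.rank, ∀ s < D.nroots, D.reflectRoot i s = wT A i s)
    {R : ℕ → ℕ → ℤ} (hR : G.rv = R) (C : SC) (hC : SC.ok D A R C = true) (hD : Listed D) {F : Type*} [Field F] [Fintype F]
    {q : ℕ} (hq : Fintype.card F = q) {d : ℕ} (cd : CertD D d) {N : ℕ} (hN : N ≠ 0) (hNq : N.Coprime q) (hNd : N.Coprime d)
    (hNc : (N : ℤ) ∣ cev (cyc C.d) q) : ∃ φ : (Fin C.a → Multiplicative (ZMod N)) →* ↥(D.group F), Function.Injective φ := by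
  simp only [SC.ok, SC.ok1, SC.ok2, SC.ok3, Bool.and_eq_true, decide_eq_true_eq, List.mem_range] at hC
  obtain ⟨⟨⟨⟨⟨h1, h2⟩, h3⟩, h3'⟩, h4⟩, h5⟩ := hC
  let l : List (Fin D.rank) := C.l.attach.map fun i => ⟨i.1, h1 i.1 i.2⟩
  have hl : l.map Fin.val = C.l := by
    simp only [l, List.map_map]
    exact List.attach_map_subtype_val C.l
  have hws : ∀ j : Fin D.rank, ((wl G l (simpF G j) : Fin D.nroots) : ℕ) = C.ws.getD j 0 := by
    intro j
    rw [wl_coe G hW, hl, h2]
    rw [List.getD_eq_getElem _ _ (by simp)]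
    simp only [List.getElem_map, List.getElem_range]
    rfl
  refine exists_hom G hD hq cd l (fun k j => ∑ e ∈ Finset.range (cyc C.d).length, m3 C.M k j e * (q : ℤ) ^ e)
    (fun k' j => mm C.b k' j) 1 hN hNq hNd isCoprime_one_right ?_ ?_
  · intro k j
    have h6 : ∑ i : Fin D.rank, G.rv (wl G l (simpF G j)) i * ∑ e ∈ Finset.range (cyc C.d).length, m3 C.M k i e * (q : ℤ) ^ e =
        ∑ e ∈ Finset.range (cyc C.d).length, ((if e = 0 then 0 else m3 C.M k j (e - 1)) * (q : ℤ) ^ e -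
          m3 C.M k j ((cyc C.d).length - 1) * ((cyc C.d).getD e 0 * (q : ℤ) ^ e)) := by
      simp only [Finset.mul_sum]
      rw [Finset.sum_comm]
      refine Finset.sum_congr rfl fun e he => ?_
      have h7 := h4 k k.2 j j.2 e (Finset.mem_range.mp he)
      rw [Finset.sum_range] at h7
      calc _ = (∑ i : Fin D.rank, R (C.ws.getD j 0) i * m3 C.M k i e) * (q : ℤ) ^ e := by
            rw [Finset.sum_mul]
            exact Finset.sum_congr rfl fun i _ => by rw [hR, hws]; ring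
        _ = _ := by rw [h7]; ring
    rw [h6, Finset.sum_sub_distrib, ← Finset.mul_sum, sum_shift _ h3' (fun e => m3 C.M k j e)]
    refine (Dvd.dvd.mul_left hNc (- m3 C.M k j ((cyc C.d).length - 1))).trans (Eq.dvd ?_)
    unfold cev
    ring
  · intro k k'
    have h6 : ∑ j : Fin D.rank, mm C.b k' j * ∑ e ∈ Finset.range (cyc C.d).length, m3 C.M k j e * (q : ℤ) ^ e = if k = k' then 1 else 0 := by
      simp only [Finset.mul_sum]
      rw [Finset.sum_comm]
      have h7 : ∀ e ∈ Finset.range (cyc C.d).length, ∑ j : Fin D.rank, mm C.b k' j * (m3 C.M k j e * (q : ℤ) ^ e) =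
          if e = 0 then (if k = k' then 1 else 0) else 0 := by
        intro e he
        have h8 := h5 k k.2 k' k'.2 e (Finset.mem_range.mp he)
        rw [Finset.sum_range] at h8
        calc _ = (∑ j : Fin D.rank, mm C.b k' j * m3 C.M k j e) * (q : ℤ) ^ e := by
              rw [Finset.sum_mul]
              exact Finset.sum_congr rfl fun i _ => by ring
          _ = _ := by
            rw [h8]
            by_cases he0 : e = 0
            · subst he0
              simp [Fin.ext_iff]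
            · simp [he0]
      rw [Finset.sum_congr rfl h7, Finset.sum_ite_eq' (Finset.range (cyc C.d).length) 0, if_pos (Finset.mem_range.mpr h3')]
    rw [h6, sub_self]
    exact dvd_zero _

/-- the Sylow theorem from a list of certificates -/
theorem sylow_main {D : ChevalleyDatum} {A : Tab} {G : Good D} (hW : ∀ i < D.rank, ∀ s < D.nroots, D.reflectRoot i s = wT A i s)
    {R : ℕ → ℕ → ℤ} (hR : G.rv = R) (hD : Listed D) {d : ℕ} (cd : CertD D d) (degs : List ℕ) (Cs : List SC)
    (hCs : ∀ C ∈ Cs, SC.ok D A R C = true)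
    (hcov : ∀ e ∈ degs, ∀ d ∈ e.divisors, ∃ C ∈ Cs, C.d = d ∧ C.a = (degs.filter fun e => d ∣ e).length)
    (hdegs : ∀ e ∈ degs, e ≠ 0)
    {F : Type*} [Field F] [Fintype F] {q : ℕ} (hq : Fintype.card F = q) (r : ℕ) [Fact r.Prime] (hrq : ¬ r ∣ q) (hrd : r.Coprime d)
    (hrW : ¬ r ∣ degs.prod) (hrG : r ∣ Nat.card ↥(D.group F)) {c n : ℕ} (hrc : ¬ r ∣ c)
    (hord : c * Nat.card ↥(D.group F) = q ^ n * (degs.map fun e => q ^ e - 1).prod) (P : Sylow r ↥(D.group F)) :
    Nonempty (↥(P : Subgroup ↥(D.group F)) ≃*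
      (Fin (degs.filter (fun e => orderOf (q : ZMod r) ∣ e)).length →
        Multiplicative (ZMod (r ^ padicValNat r ((Polynomial.cyclotomic (orderOf (q : ZMod r)) ℤ).eval (q : ℤ)).natAbs)))) := by
  classical
  have hr : r.Prime := Fact.out
  have h2 : 2 ≤ q := by rw [← hq]; exact Fintype.one_lt_card
  have hd0 := ord_pos r q hrq
  have hfin : Finite ↥(D.group F) := Nat.finite_of_card_ne_zero (by
    intro h0
    rw [h0, mul_zero] at hord
    have h3 : 0 < q ^ n * (degs.map fun e => q ^ e - 1).prod := by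
      apply Nat.mul_pos (by positivity)
      apply Nat.pos_of_ne_zero
      rw [Ne, List.prod_eq_zero_iff]
      intro h4
      obtain ⟨e, he, h5⟩ := List.mem_map.mp h4
      have := Nat.one_lt_pow (hdegs e he) (show 1 < q by omega)
      omega
    omega)
  have hrq' : ¬ r ∣ q ^ n := fun h => hrq (hr.dvd_of_dvd_pow h)
  -- the factors
  have hdk : ∀ e ∈ degs, ¬ r ∣ e := fun e he h => hrW (h.trans (List.dvd_prod he))
  have hprod : (degs.map fun e => q ^ e - 1).prod = ∏ i : Fin degs.length, (q ^ (degs.get i) - 1) := by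
    have : degs.map (fun e => q ^ e - 1) = List.ofFn (fun i : Fin degs.length => q ^ (degs.get i) - 1) := by
      apply List.ext_getElem
      · simp
      · intro i _ _; simp
    rw [this, List.prod_ofFn]
  have hmem : ∀ i : Fin degs.length, degs.get i ∈ degs := fun i => List.get_mem _ _
  have hval := val_prod r q h2 hd0.ne' (Finset.univ : Finset (Fin degs.length)) (fun i => degs.get i) (fun i _ => hdegs _ (hmem i))
    (fun i _ k hk hrk => hdk _ (hmem i) (by rw [hk]; exact Dvd.dvd.mul_left hrk _))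
  have hcount : (Finset.univ.filter fun i : Fin degs.length => orderOf (q : ZMod r) ∣ degs.get i).card =
      (degs.filter (fun e => orderOf (q : ZMod r) ∣ e)).length := by
    have h3 : ∀ (L : List ℕ) (P : ℕ → Prop) [DecidablePred P], (Finset.univ.filter fun i : Fin L.length => P (L.get i)).card = (L.filter fun e => P e).length := by
      intro L P _
      induction L with
      | nil => simp
      | cons x L ih =>
        rw [List.filter_cons]
        have h4 : (Finset.univ.filter fun i : Fin (x :: L).length => P ((x :: L).get i)).card =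
            (if P x then 1 else 0) + (Finset.univ.filter fun i : Fin L.length => P (L.get i)).card := by
          change (Finset.univ.filter fun i : Fin (L.length + 1) => P ((x :: L).get i)).card = _
          rw [Fin.univ_succ, Finset.filter_cons]
          by_cases hx : P x
          · simp [hx, Finset.filter_map, add_comm]
          · simp [hx, Finset.filter_map]
        rw [h4, ih]
        by_cases hx : P x
        · simp [hx, add_comm]
        · simp [hx]
    have := h3 degs (fun e => orderOf (q : ZMod r) ∣ e)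
    simpa using this
  have hfact : (Nat.card ↥(D.group F)).factorization r =
      padicValNat r ((Polynomial.cyclotomic (orderOf (q : ZMod r)) ℤ).eval (q : ℤ)).natAbs *
        (degs.filter (fun e => orderOf (q : ZMod r) ∣ e)).length := by
    have h3 := congrArg (fun m => m.factorization r) hord
    have hc0 : c ≠ 0 := fun h => hrc (h ▸ dvd_zero _)
    have hne : (degs.map fun e => q ^ e - 1).prod ≠ 0 := by
      rw [Ne, List.prod_eq_zero_iff]
      intro h4
      obtain ⟨e, he, h5⟩ := List.mem_map.mp h4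
      have := Nat.one_lt_pow (hdegs e he) (show 1 < q by omega)
      omega
    rw [Nat.factorization_mul hc0 Nat.card_pos.ne', Nat.factorization_mul (by positivity) hne, Finsupp.add_apply, Finsupp.add_apply,
      Nat.factorization_eq_zero_of_not_dvd hrc, Nat.factorization_eq_zero_of_not_dvd hrq', zero_add, zero_add,
      Nat.factorization_def _ hr, Nat.factorization_def _ hr, hprod, hval, hcount, val_cyclo r q h2 hd0.ne'] at h3
    rw [Nat.factorization_def _ hr]
    exact h3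
  -- some degree is divisible by the order
  obtain ⟨e, he, hde⟩ : ∃ e ∈ degs, orderOf (q : ZMod r) ∣ e := by
    have h3 : r ∣ q ^ n * (degs.map fun e => q ^ e - 1).prod := by rw [← hord]; exact Dvd.dvd.mul_left hrG _
    have h4 := (hr.dvd_mul.mp h3).resolve_left hrq'
    obtain ⟨y, hy, hry⟩ := (Prime.dvd_prod_iff hr.prime).mp h4
    obtain ⟨e, he, rfl⟩ := List.mem_map.mp hy
    exact ⟨e, he, (dvd_iff r q (by omega) e).mp hry⟩
  obtain ⟨C, hC, hCd, hCa⟩ := hcov e he _ (Nat.mem_divisors.mpr ⟨hde, hdegs e he⟩)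
  have hok := hCs C hC
  have hdL : orderOf (q : ZMod r) ∈ cL := by
    simp only [SC.ok, SC.ok1, Bool.and_eq_true, decide_eq_true_eq] at hok
    rw [← hCd]
    exact hok.1.1.1.2
  have hdvd := dvd_cev r h2 hdL
  rw [val_cyclo r q h2 hd0.ne'] at hdvd
  set v := padicValNat r ((Polynomial.cyclotomic (orderOf (q : ZMod r)) ℤ).eval (q : ℤ)).natAbs with hv
  rw [← hCd] at hdvd
  obtain ⟨φ, hφ⟩ := C.hom hW hR hok hD hq cd (N := r ^ v) (pow_ne_zero _ hr.ne_zero)
    (Nat.Coprime.pow_left _ ((Nat.Prime.coprime_iff_not_dvd hr).mpr hrq)) (Nat.Coprime.pow_left _ hrd) hdvd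
  rw [← hCa] at hfact ⊢
  exact sylow_equiv v _ φ hφ hfact P

end Cfsg.Agent.Lib.ChevSyl
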