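import Cfsg.Agent.Lib.ChevSyl2
import Cfsg.Agent.Lib.ChevOkG2

set_option autoImplicit false
set_option maxRecDepth 1000000

/-! Certificates of homocyclic Sylow subgroups of type G2 (machine generated, helper40). -/

namespace Cfsg.Agent.Lib.ChevSylG2
open Cfsg.Lie Cfsg.Agent.Lib.ChevTorus Cfsg.Agent.Lib.ChevTab Cfsg.Agent.Lib.ChevSyl

def s1 : SC where
  d := 1
  a := 2
  l := []
  ws := [7, 6]
  M := [[[1], [0]], [[0], [1]]]
  b := [[1, 0], [0, 1]]

theorem s1_ok : SC.ok chevG2 ChevDataG2.A (rvT ChevDataG2.A) s1 = true := by decide +kernel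

def s2 : SC where
  d := 2
  a := 2
  l := [1, 0, 1, 0, 1, 0]
  ws := [4, 5]
  M := [[[1], [0]], [[0], [1]]]
  b := [[1, 0], [0, 1]]

theorem s2_ok : SC.ok chevG2 ChevDataG2.A (rvT ChevDataG2.A) s2 = true := by decide +kernel

def s3 : SC where
  d := 3
  a := 1
  l := [1, 0, 1, 0]
  ws := [2, 10]
  M := [[[0, -1], [-1, 1]]]
  b := [[-1, -1]]

theorem s3_ok : SC.ok chevG2 ChevDataG2.A (rvT ChevDataG2.A) s3 = true := by decide +kernel

def s6 : SC where
  d := 6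
  a := 1
  l := [1, 0]
  ws := [3, 11]
  M := [[[-1, 0], [1, 1]]]
  b := [[-1, 0]]

theorem s6_ok : SC.ok chevG2 ChevDataG2.A (rvT ChevDataG2.A) s6 = true := by decide +kernel

def Cs : List SC := [s1, s2, s3, s6]

theorem Cs_ok : ∀ C ∈ Cs, SC.ok chevG2 ChevDataG2.A (rvT ChevDataG2.A) C = true := by
  intro C hC
  simp only [Cs, List.mem_cons, List.not_mem_nil, or_false] at hC
  rcases hC with rfl | rfl | rfl | rfl
  · exact s1_ok
  · exact s2_ok
  · exact s3_ok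
  · exact s6_ok

theorem cov : ∀ e ∈ ([2, 6] : List ℕ), ∀ d ∈ e.divisors, ∃ C ∈ Cs, C.d = d ∧ C.a = (([2, 6] : List ℕ).filter fun e => d ∣ e).length := by
  decide +kernel

theorem hW : ∀ i < chevG2.rank, ∀ s < chevG2.nroots, chevG2.reflectRoot i s = wT ChevDataG2.A i s :=
  fun i hi _ hs => (c3_facts ChevOkG2.c1 ChevOkG2.c2 hi hs (ChevOkG2.c3 i hi)).refl
theorem hR : ChevOkG2.good.rv = rvT ChevDataG2.A := rfl

end Cfsg.Agent.Lib.ChevSylG2
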