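import Cfsg.Agent.Lib.ChevTorus3

set_option autoImplicit false

/-! Twisted tori with small indices (helper40). -/

namespace Cfsg.Agent.Lib.ChevTorus
open Cfsg.Lie Cfsg.Agent.Lib.ChevX Cfsg.Agent.Lib.ChevGood Cfsg.Agent.Lib.ChevRel Cfsg.Agent.Lib.ChevNPerm
  Cfsg.Agent.Lib.ChevTab

/-- small indices -/
def TC.smallOK (n : ℕ) (C : TC) : Bool :=
  C.rows.all (fun r => decide (0 < r.f.getD 0 0 ∧ r.f.getD 0 0 < 8 ∧ ∀ k ∈ List.range n, k ≠ 0 → r.f.getD k 0 = 0)) &&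
  C.rows2.all (fun r => decide (0 < r.f.getD 0 0 - r.d.getD 0 0 ∧ r.f.getD 0 0 - r.d.getD 0 0 < 8 ∧
    ∀ k ∈ List.range n, k ≠ 0 → r.f.getD k 0 = r.d.getD k 0))

theorem TC.exists_torus' {D : ChevalleyDatum} {A : Tab} {G : Good D}
    (hW : ∀ i < D.rank, ∀ s < D.nroots, D.reflectRoot i s = wT A i s)
    {R : ℕ → ℕ → ℤ} (hR : G.rv = R) (C : TC) (hC : TC.basic D A R C = true)
    {q N : ℕ} (hD : ChevBruhat.Listed D) {F : Type*} [Field F] [Fintype F] (hq : Fintype.card F = q)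
    (cd : ChevFix.CertD D 1) (hN : (N : ℤ) = (q : ℤ) ^ D.rank + ∑ i ∈ Finset.range D.rank, C.c.getD i 0 * (q : ℤ) ^ i)
    (hN0 : 8 ≤ N) (hNq : N.Coprime q) (hrows : TC.rowsOK D A R C = true) (hseps : TC.sepsOK D C = true)
    (hs : TC.smallOK D.rank C = true) :
    ∃ H : Subgroup ↥(D.group F), IsCyclic ↥H ∧ Nat.card ↥H = N ∧ Subgroup.centralizer (H : Set ↥(D.group F)) = H := by
  simp only [TC.smallOK, Bool.and_eq_true, List.all_eq_true, decide_eq_true_eq, List.mem_range] at hs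
  have hnd : ∀ i : ℤ, 0 < i → i < 8 → ¬ (N : ℤ) ∣ i := by
    intro i hi hi2 h
    have h1 := Int.le_of_dvd hi h
    omega
  have hsum : ∀ g : ℕ → ℤ, (∀ k < D.rank, k ≠ 0 → g k = 0) → ∑ k ∈ Finset.range D.rank, g k * (q : ℤ) ^ k = g 0 := by
    intro g hg
    rw [Finset.sum_eq_single 0]
    · simp
    · intro k hk hk0
      rw [hg k (Finset.mem_range.mp hk) hk0, zero_mul]
    · intro h
      exact absurd (Finset.mem_range.mpr G.rank_pos) h
  refine C.exists_torus hW hR hC hD hq cd hN (by omega) hNq hrows hseps ?_ ?_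
  · intro r hr
    obtain ⟨h1, h2, h3⟩ := hs.1 r hr
    rw [hsum (fun k => r.f.getD k 0) h3]
    exact hnd _ h1 h2
  · intro r hr
    obtain ⟨h1, h2, h3⟩ := hs.2 r hr
    rw [← Finset.sum_sub_distrib]
    have h4 := hsum (fun k => r.f.getD k 0 - r.d.getD k 0) (fun k hk hk0 => by rw [h3 k hk hk0, sub_self])
    have h5 : ∑ k ∈ Finset.range D.rank, (r.d.getD k 0 * (q : ℤ) ^ k - r.f.getD k 0 * (q : ℤ) ^ k) =
        - (r.f.getD 0 0 - r.d.getD 0 0) := by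
      rw [← h4, ← Finset.sum_neg_distrib]
      exact Finset.sum_congr rfl fun k _ => by ring
    rw [h5, dvd_neg]
    exact hnd _ h1 h2

end Cfsg.Agent.Lib.ChevTorus
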