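import Cfsg.Agent.Lib.TwLang

set_option autoImplicit false

/-!
# Fixed points of the Steinberg endomorphism of type `3D4` (helper40)
-/

namespace Cfsg.Agent.Lib.TwLang
open Cfsg.Lie Cfsg.Agent.Lib.ChevX Cfsg.Agent.Lib.ChevGood Cfsg.Agent.Lib.ChevRel Cfsg.Agent.Lib.ChevNPerm
  Cfsg.Agent.Lib.ChevClosed Cfsg.Agent.Lib.ChevBruhat Cfsg.Agent.Lib.ChevFix Cfsg.Agent.Lib.ChevHOrder Cfsg.Agent.Lib.ChevAuto
  Cfsg.Agent.Lib.TwFix Cfsg.Agent.Lib.TwTab Cfsg.Agent.Lib.ChevTorus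
open scoped MatrixGroups Matrix

section gen
variable {D : ChevalleyDatum} (G : Good D) {F K : Type*} [Field F] [Field K]
include G

theorem diag_comm {a b : GL D.Idx F} (ha : a ∈ D.diagonalSubgroup F) (hb : b ∈ D.diagonalSubgroup F) : a * b = b * a := by
  apply ext_rval G (mul_mem ha hb) (mul_mem hb ha)
  intro s
  rw [rval_mul G ha hb, rval_mul G hb ha, mul_comm]

/-- root values of the image of a diagonal element -/
theorem rval_Psi (Γ : GraphData D) (f : F →+* F) {a : GL D.Idx F} (ha : a ∈ D.diagonalSubgroup F)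
    (hPa : Psi Γ f a ∈ D.diagonalSubgroup F) (s : Fin D.nroots) :
    rval (Psi Γ f a) ⟨Γ.ρ s, Γ.lt s s.2⟩ = f (rval a s) := by
  have h1 := congrArg (Psi Γ f) (conj_x G ha s 1)
  rw [map_mul, map_mul, map_inv, mul_one, Psi_xg G Γ f s.2, Psi_xg G Γ f s.2, map_one, mul_one] at h1
  have h2 := conj_x G hPa ⟨Γ.ρ s, Γ.lt s s.2⟩ ((Γ.e s : ℤ) : F)
  have h3 := xg_inj G (Γ.lt s s.2) (h1.symm.trans h2)
  have he : ((Γ.e s : ℤ) : F) ≠ 0 := by
    rcases Γ.esq s s.2 with h | h <;> rw [h] <;> simp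
  rw [mul_comm (rval _ _)] at h3
  exact (mul_left_cancel₀ he h3).symm

/-- the `d`-th power of a fixed diagonal element lifts -/
theorem lift_pow {d : ℕ} (cd : CertD D d) (σ : K →+* K) (ι : F →+* K) (hι : ∀ x, σ x = x → ∃ y, ι y = x)
    {a : GL D.Idx K} (ha : a ∈ D.diagonalSubgroup K) (h : em D σ a = a) :
    ∃ a0 ∈ D.diagonalSubgroup F, em D ι a0 = a ^ d := by
  have h1 : ∀ j : Fin D.rank, ∃ z : Fˣ, ι (z : F) = rval a (simpF G j) := by
    intro j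
    have h2 : σ (rval a (simpF G j)) = rval a (simpF G j) := by
      conv_rhs => rw [← h]
      rfl
    obtain ⟨y, hy⟩ := hι _ h2
    have hne := rval_ne_zero G ha (simpF G j)
    have hy0 : y ≠ 0 := by rintro rfl; rw [map_zero] at hy; exact hne hy.symm
    exact ⟨Units.mk0 y hy0, hy⟩
  choose z hz using h1
  let c : Fin D.rank → Fˣ := fun i => ∏ k, z k ^ cd.B k i
  refine ⟨θ G c, (θ G c).2, ?_⟩
  apply H_ext G (em_H G ι (θ G c).2) (pow_mem ha d)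
  intro j
  have hr : ((a ^ d : GL D.Idx K) : Matrix D.Idx D.Idx K) (Sum.inr (simpF G j)) (Sum.inr (simpF G j)) = rval a (simpF G j) ^ d :=
    rval_pow G ha (simpF G j) d
  rw [em_diag_entry G, θ_entry G, hr, ← hz j, ← map_pow, ← Units.val_pow_eq_pow_val]
  congr 2
  have h3 : ∀ i : Fin D.rank, c i ^ D.cartan i (simpF G j) = ∏ k, z k ^ (cd.B k i * cm D i j) := by
    intro i
    show (∏ k, z k ^ cd.B k i) ^ cm D i j = _
    rw [← Finset.prod_zpow]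
    exact Finset.prod_congr rfl fun k _ => (zpow_mul _ _ _).symm
  rw [Finset.prod_congr rfl fun i _ => h3 i, Finset.prod_comm]
  have h4 : ∀ k, ∏ i, z k ^ (cd.B k i * cm D i j) = z k ^ (if k = j then (d : ℤ) else 0) := by
    intro k
    rw [← zpow_sum', cd.h]
  rw [Finset.prod_congr rfl fun k _ => h4 k, Finset.prod_eq_single j]
  · rw [if_pos rfl, zpow_natCast]
  · intro k _ hk; rw [if_neg hk, zpow_zero]
  · intro h; exact absurd (Finset.mem_univ _) h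

end gen

section arith

/-- the arithmetic of the triality torus -/
theorem tri_arith {A : Type*} [CommGroup A] {q : ℕ} {β δ : A} (hβ : β ^ q ^ 3 = β) (hδ : δ ^ q = δ)
    (hsq : ∀ s ν : A, s ^ 2 = ν ^ 2 → ∃ ε : A, ε ^ 2 = 1 ∧ ε ^ q = ε ∧ s = ε * ν) :
    ∃ x y : A, x ^ 2 = β * y ∧ y ^ 2 = δ * (x * x ^ q * x ^ q ^ 2) ∧ y ^ q = y := by
  set ν := β * β ^ q * β ^ q ^ 2 with hν
  have hνq : ν ^ q = ν := by
    rw [hν, mul_pow, mul_pow, ← pow_mul, ← pow_mul, ← sq, ← pow_succ, hβ]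
    rw [mul_comm (β ^ q) (β ^ q ^ 2), mul_comm, ← mul_assoc, mul_right_comm]
  have hνq2 : ν ^ q ^ 2 = ν := by rw [sq, pow_mul, hνq, hνq]
  obtain ⟨m, hm⟩ : ∃ m, q + q ^ 2 = 2 * m := by
    obtain ⟨m, hm⟩ := Nat.even_mul_succ_self q
    exact ⟨m, by rw [sq]; linarith⟩
  have hs : (ν ^ m) ^ 2 = ν ^ 2 := by
    rw [← pow_mul, mul_comm, ← hm, pow_add, hνq, hνq2, sq]
  obtain ⟨ε, h1, h2, h3⟩ := hsq _ _ hs
  have h2' : ε ^ q ^ 2 = ε := by rw [sq, pow_mul, h2, h2]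
  have hδ2 : δ ^ q ^ 2 = δ := by rw [sq, pow_mul, hδ, hδ]
  refine ⟨ε * δ * β * β ^ m, δ ^ 2 * ν, ?_, ?_, ?_⟩
  · calc (ε * δ * β * β ^ m) ^ 2 = ε ^ 2 * δ ^ 2 * β ^ 2 * (β ^ m) ^ 2 := by simp only [mul_pow]
      _ = δ ^ 2 * β ^ 2 * β ^ (q + q ^ 2) := by rw [h1, one_mul, ← pow_mul β, mul_comm m 2, hm]
      _ = β * (δ ^ 2 * (β * β ^ q * β ^ q ^ 2)) := by
        rw [pow_add, sq β]
        simp only [mul_assoc, mul_left_comm, mul_comm]
  · have h5 : (ε * δ * β * β ^ m) * (ε * δ * β * β ^ m) ^ q * (ε * δ * β * β ^ m) ^ q ^ 2 =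
        (ε * ε ^ q * ε ^ q ^ 2) * (δ * δ ^ q * δ ^ q ^ 2) * (β * β ^ q * β ^ q ^ 2) * (β * β ^ q * β ^ q ^ 2) ^ m := by
      simp only [mul_pow, ← pow_mul]
      rw [mul_comm m q, mul_comm m (q ^ 2)]
      simp only [mul_assoc, mul_left_comm, mul_comm]
    rw [h5, h2, h2', hδ, hδ2, ← hν, h3]
    have h6 : ε * ε * ε * ε = 1 := by
      rw [mul_assoc (ε * ε), ← sq ε, h1, mul_one]
    calc (δ ^ 2 * ν) ^ 2 = δ * (δ * δ * δ) * (ν * ν) := by
          rw [mul_pow, ← pow_mul, sq ν]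
          congr 1
          simp only [pow_succ, pow_zero, one_mul, mul_assoc]
      _ = (ε * ε * ε * ε) * (δ * (δ * δ * δ) * (ν * ν)) := by rw [h6, one_mul]
      _ = δ * (ε * ε * ε * (δ * δ * δ) * ν * (ε * ν)) := by
        simp only [mul_assoc, mul_left_comm, mul_comm]
  · rw [mul_pow, ← pow_mul, mul_comm 2 q, pow_mul, hδ, hνq]

end arith

section D4

open Cfsg.Agent.Lib.ChevGraph Cfsg.Agent.Lib.TwD4

variable {L : Type*} [Field L] (q : ℕ) (f : L ≃+* L) (hf : ∀ t, f t = t ^ q)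
include hf

theorem exists_sys : ∃ T : TwSys chevD4 L, (∀ g ∈ chevD4.group L, T.s g = Psi graphD4a (f : L →+* L) g) ∧
    (∀ r : Fin chevD4.nroots, ((T.ρ r : Fin chevD4.nroots) : ℕ) = graphD4a.ρ r) ∧
    ∀ (n : GL chevD4.Idx L) (w : Equiv.Perm (Fin chevD4.nroots)), n ∈ chevD4.monomialSubgroup L → Mono TwD4.G n w →
      Mono TwD4.G (Psi graphD4a (f : L →+* L) n) (T.ρ * w * T.ρ⁻¹) := by
  obtain ⟨β, hβ⟩ := exists_field (D := chevD4) listed f
  obtain ⟨α, hα⟩ := exists_graph (D := chevD4) (F := L) (pi := [2, 1, 3, 0]) (by simp)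
  have hag : ∀ g ∈ chevD4.group L, ((gfSig TwD4.G tabD4 q f hf α β hα hβ).sys chk1D4 chk2D4 listed).s g =
      Psi graphD4a (f : L →+* L) g := fun g hg => agree q f hf _ _ _ _ hg
  refine ⟨(gfSig TwD4.G tabD4 q f hf α β hα hβ).sys chk1D4 chk2D4 listed, hag, ?_, ?_⟩
  · have : ∀ r < 24, tabD4.rh r = graphD4a.ρ r := by decide +kernel
    intro r
    exact this r r.2
  · intro n w hn hw
    rw [← hag n (ChevBN.N_le_group TwD4.G hn)]
    exact TwSys.s_mono ((gfSig TwD4.G tabD4 q f hf α β hα hβ).sys chk1D4 chk2D4 listed) hn hw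

theorem Psi_H {a : GL chevD4.Idx L} (ha : a ∈ chevD4.diagonalSubgroup L) :
    Psi graphD4a (f : L →+* L) a ∈ chevD4.diagonalSubgroup L := by
  obtain ⟨T, h1, -⟩ := exists_sys q f hf
  rw [← h1 a (T.H_le ha)]
  exact T.s_H ha

omit hf in
/-- the fundamental indices -/
def ix (i : ℕ) (hi : i < 4 := by norm_num) : Fin chevD4.rank := ⟨i, hi⟩

/-- the fundamental roots -/
noncomputable def P (i : ℕ) (hi : i < 4 := by norm_num) : Fin chevD4.nroots := simpF TwD4.G (ix i hi)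

/-- root values of a fixed diagonal element -/
theorem fixed_vals {b : GL chevD4.Idx L} (hb : b ∈ chevD4.diagonalSubgroup L)
    (hfix : Psi graphD4a (f : L →+* L) b = b) :
    rval b (P 2) = rval b (P 0) ^ q ∧ rval b (P 3) = rval b (P 0) ^ q ^ 2 ∧ rval b (P 1) ^ q = rval b (P 1) := by
  have key : ∀ i j : Fin chevD4.rank, graphD4a.ρ (simpF TwD4.G i) = simpF TwD4.G j →
      rval b (simpF TwD4.G j) = rval b (simpF TwD4.G i) ^ q := by
    intro i j hij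
    have h1 := rval_Psi TwD4.G graphD4a (f : L →+* L) hb (Psi_H q f hf hb) (simpF TwD4.G i)
    rw [hfix] at h1
    have h2 : (⟨graphD4a.ρ (simpF TwD4.G i), graphD4a.lt _ (simpF TwD4.G i).2⟩ : Fin chevD4.nroots) = simpF TwD4.G j :=
      Fin.ext hij
    rw [h2] at h1
    rw [h1]
    exact hf _
  have k1 := key (ix 0) (ix 2) (simpg 0 (by norm_num)).1
  have k2 := key (ix 2) (ix 3) (simpg 2 (by norm_num)).1
  have k3 := key (ix 1) (ix 1) (simpg 1 (by norm_num)).1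
  refine ⟨k1, ?_, k3.symm⟩
  unfold P
  rw [k2, k1, ← pow_mul, ← sq]

variable {K : Type*} [Field K] (ι : K →+* L) (hι : ∀ x : L, x ^ q ^ 3 = x → ∃ y, ι y = x)

include hι in
/-- a fixed diagonal element comes from `K` -/
theorem fixed_lift {b : GL chevD4.Idx L} (hb : b ∈ chevD4.diagonalSubgroup L)
    (hfix : Psi graphD4a (f : L →+* L) b = b) : ∃ b0 ∈ chevD4.diagonalSubgroup K, em chevD4 ι b0 = b := by
  obtain ⟨v2, v3, v1⟩ := fixed_vals q f hf hb hfix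
  have hb3 : em chevD4 ((f : L →+* L).comp ((f : L →+* L).comp (f : L →+* L))) b = b := by
    rw [← Psi_cube _ (ChevBN.H_le_group TwD4.G hb), hfix, hfix, hfix]
  have hval : ∀ s, rval b s ^ q ^ 3 = rval b s := by
    intro s
    have h1 : rval (em chevD4 ((f : L →+* L).comp ((f : L →+* L).comp (f : L →+* L))) b) s = f (f (f (rval b s))) := rfl
    rw [hb3, hf, hf, hf, ← pow_mul, ← pow_mul] at h1
    rw [show q ^ 3 = q * (q * q) by ring]
    exact h1.symm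
  have hex : ∀ s, ∃ z : Kˣ, ι (z : K) = rval b s := by
    intro s
    obtain ⟨y, hy⟩ := hι _ (hval s)
    have hne := rval_ne_zero TwD4.G hb s
    have hy0 : y ≠ 0 := by rintro rfl; rw [map_zero] at hy; exact hne hy.symm
    exact ⟨Units.mk0 y hy0, hy⟩
  obtain ⟨β, hβ⟩ := hex (P 0)
  obtain ⟨δ, hδ⟩ := hex (P 1)
  have hβ3 : β ^ q ^ 3 = β := by
    apply Units.ext; apply ι.injective
    rw [Units.val_pow_eq_pow_val, map_pow, hβ, hval]
  have hδ1 : δ ^ q = δ := by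
    apply Units.ext; apply ι.injective
    rw [Units.val_pow_eq_pow_val, map_pow, hδ, v1]
  have hneg : (-1 : Kˣ) ^ q = -1 := by
    apply Units.ext; apply ι.injective
    rw [Units.val_pow_eq_pow_val, map_pow, ← hf, Units.val_neg, map_neg, map_neg]
    simp
  obtain ⟨x, y, e1, e2, e3⟩ := tri_arith (A := Kˣ) hβ3 hδ1 (by
    intro s ν h
    rcases (Units.ext_iff.mp h : ((s ^ 2 : Kˣ) : K) = ((ν ^ 2 : Kˣ) : K)) |> fun h => by
      rw [Units.val_pow_eq_pow_val, Units.val_pow_eq_pow_val] at h; exact sq_eq_sq_iff_eq_or_eq_neg.mp h with h | h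
    · exact ⟨1, one_pow _, one_pow _, by rw [one_mul]; exact Units.ext h⟩
    · refine ⟨-1, by simp, hneg, Units.ext ?_⟩
      rw [h]; simp)
  let c : Fin chevD4.rank → Kˣ := fun i => ([x, y, x ^ q, x ^ q ^ 2] : List Kˣ).getD i 1
  refine ⟨θ TwD4.G c, (θ TwD4.G c).2, ?_⟩
  apply H_ext TwD4.G (em_H TwD4.G ι (θ TwD4.G c).2) hb
  intro j
  change ι (rval (θ TwD4.G c : GL chevD4.Idx K) (simpF TwD4.G j)) = rval b (simpF TwD4.G j)
  rw [rval_θ]
  have h4 : ∀ j : Fin chevD4.rank, (∏ i : Fin chevD4.rank, c i ^ chevD4.cartan i (simpF TwD4.G j) : Kˣ) =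
      x ^ (chevD4.cartan 0 (chevD4.simple j)) * y ^ (chevD4.cartan 1 (chevD4.simple j)) *
        (x ^ q) ^ (chevD4.cartan 2 (chevD4.simple j)) * (x ^ q ^ 2) ^ (chevD4.cartan 3 (chevD4.simple j)) := by
    intro j
    exact Fin.prod_univ_four (fun i : Fin 4 => (([x, y, x ^ q, x ^ q ^ 2] : List Kˣ).getD i 1) ^ chevD4.cartan i (chevD4.simple j))
  rw [h4]
  have hj : (j : ℕ) < 4 := j.2
  have hc := fun i (hi : i < 4) => cart i hi j hj
  rw [hc 0 (by norm_num), hc 1 (by norm_num), hc 2 (by norm_num), hc 3 (by norm_num)]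
  obtain ⟨j, hj'⟩ := j
  have hP : rval b (simpF TwD4.G ⟨j, hj'⟩) = rval b (P j hj) := rfl
  rw [hP]
  simp only at hj ⊢
  have hxq : (x ^ q) ^ 2 = β ^ q * y := by rw [← pow_mul, mul_comm, pow_mul, e1, mul_pow, e3]
  have hxq2 : (x ^ q ^ 2) ^ 2 = β ^ q ^ 2 * y := by
    rw [← pow_mul, mul_comm, pow_mul, e1, mul_pow]
    congr 1
    rw [sq, pow_mul, e3, e3]
  have j0 : x ^ (2 : ℤ) * y ^ (-1 : ℤ) * (x ^ q) ^ (0 : ℤ) * (x ^ q ^ 2) ^ (0 : ℤ) = β := by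
    rw [zpow_zero, zpow_zero, mul_one, mul_one, zpow_ofNat, e1, zpow_neg_one, mul_inv_cancel_right]
  have j1 : x ^ (-1 : ℤ) * y ^ (2 : ℤ) * (x ^ q) ^ (-1 : ℤ) * (x ^ q ^ 2) ^ (-1 : ℤ) = δ := by
    rw [zpow_neg_one, zpow_neg_one, zpow_neg_one, zpow_ofNat, e2, mul_inv_eq_iff_eq_mul, mul_inv_eq_iff_eq_mul,
      inv_mul_eq_iff_eq_mul]
    simp only [mul_assoc, mul_left_comm]
    congr 2
    rw [mul_comm]
  have j2 : x ^ (0 : ℤ) * y ^ (-1 : ℤ) * (x ^ q) ^ (2 : ℤ) * (x ^ q ^ 2) ^ (0 : ℤ) = β ^ q := by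
    rw [zpow_zero, zpow_zero, mul_one, one_mul, zpow_ofNat, hxq, zpow_neg_one, inv_mul_eq_iff_eq_mul, mul_comm]
  have j3 : x ^ (0 : ℤ) * y ^ (-1 : ℤ) * (x ^ q) ^ (0 : ℤ) * (x ^ q ^ 2) ^ (2 : ℤ) = β ^ q ^ 2 := by
    rw [zpow_zero, zpow_zero, mul_one, one_mul, zpow_ofNat, hxq2, zpow_neg_one, inv_mul_eq_iff_eq_mul, mul_comm]
  interval_cases j
  · rw [← hβ]
    congr 2
  · rw [← hδ]
    congr 2
  · rw [v2, ← hβ, ← map_pow, ← Units.val_pow_eq_pow_val]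
    congr 2
  · rw [v3, ← hβ, ← map_pow, ← Units.val_pow_eq_pow_val]
    congr 2

include hι in
/-- the fixed points of the Steinberg endomorphism -/
theorem fixed_tri [Fintype K] (hq : IsPrimePow q) (hK : Fintype.card K = q ^ 3) {X : GL chevD4.Idx L} (hX : X ∈ chevD4.group L) (hfix : Psi graphD4a (f : L →+* L) X = X) :
    ∃ x0 ∈ (TwD4.T hq hK).fix, em chevD4 ι x0 = X := by
  set Ψ := Psi graphD4a (f : L →+* L) with hΨ
  set ΨK := Psi graphD4a (TwD4.frob hq hK : K →+* K) with hΨK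
  have hcomp : ι.comp (TwD4.frob hq hK : K →+* K) = (f : L →+* L).comp ι := by
    ext t
    show ι (TwD4.frob hq hK t) = f (ι t)
    rw [TwD4.frob_eq, map_pow, hf]
  have hemΨ : ∀ g, em chevD4 ι (ΨK g) = Ψ (em chevD4 ι g) := fun g => em_Psi TwD4.G graphD4a hcomp g
  have hE : ∀ g ∈ (chevD4.group K).map (em chevD4 ι), Ψ g ∈ (chevD4.group K).map (em chevD4 ι) := by
    rintro _ ⟨g, hg, rfl⟩
    exact ⟨ΨK g, Psi_group TwD4.G graphD4a _ hg, hemΨ g⟩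
  let σ3 : L ≃+* L := f.trans (f.trans f)
  have hσ3c : (σ3 : L →+* L) = (f : L →+* L).comp ((f : L →+* L).comp (f : L →+* L)) := rfl
  have hσ3 : ∀ x, σ3 x = x → ∃ y, ι y = x := by
    intro x hx
    apply hι
    have h1 : σ3 x = f (f (f x)) := rfl
    rw [h1, hf, hf, hf, ← pow_mul, ← pow_mul] at hx
    rw [show q ^ 3 = q * (q * q) by ring]
    exact hx
  have hX3 : em chevD4 (σ3 : L →+* L) X = X := by
    rw [hσ3c, ← Psi_cube _ hX]
    show Ψ (Ψ (Ψ X)) = X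
    rw [hfix, hfix, hfix]
  obtain ⟨g0, hg0, a, ha, hfa, hXa⟩ := fixed_group TwD4.G listed σ3 ι hσ3 hX hX3
  have haG : a ∈ chevD4.group L := ChevBN.H_le_group TwD4.G ha
  have hΨa : Ψ a ∈ chevD4.diagonalSubgroup L := Psi_H q f hf ha
  have hΨa2 : Ψ (Ψ a) ∈ chevD4.diagonalSubgroup L := Psi_H q f hf hΨa
  have hΨa3 : Ψ (Ψ (Ψ a)) = a := by
    have := Psi_cube (f : L →+* L) haG
    rw [← hσ3c, hfa] at this
    exact this
  set E := (chevD4.group K).map (em chevD4 ι) with hEdef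
  -- the difference
  have he1 : Ψ a * a⁻¹ ∈ E := by
    have h1 := hfix
    rw [hXa, map_mul, ← hemΨ] at h1
    have h2 : Ψ a * a⁻¹ = (em chevD4 ι (ΨK g0))⁻¹ * em chevD4 ι g0 := by
      rw [eq_inv_mul_iff_mul_eq, ← mul_assoc, h1]
      group
    rw [h2]
    exact mul_mem (inv_mem ⟨_, Psi_group TwD4.G graphD4a _ hg0, rfl⟩) ⟨_, hg0, rfl⟩
  have he2 : Ψ (Ψ a) * (Ψ a)⁻¹ ∈ E := by
    have := hE _ he1
    rwa [map_mul, map_inv] at this
  have ha2 : a ^ 2 ∈ E := by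
    obtain ⟨a0, ha0, h⟩ := lift_pow TwD4.G cdD4 (σ3 : L →+* L) ι hσ3 ha hfa
    exact ⟨a0, ChevBN.H_le_group TwD4.G ha0, h⟩
  have hb : a * Ψ a * Ψ (Ψ a) ∈ E := by
    have hbH : a * Ψ a * Ψ (Ψ a) ∈ chevD4.diagonalSubgroup L := mul_mem (mul_mem ha hΨa) hΨa2
    obtain ⟨b0, hb0, h⟩ := fixed_lift q f hf ι hι hbH (by
      show Ψ (a * Ψ a * Ψ (Ψ a)) = _
      rw [map_mul, map_mul, hΨa3, diag_comm TwD4.G (mul_mem hΨa hΨa2) ha, mul_assoc])
    exact ⟨b0, ChevBN.H_le_group TwD4.G hb0, h⟩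
  have haE : a ∈ E := by
    set e1 := Ψ a * a⁻¹ with he1d
    set e2 := Ψ (Ψ a) * (Ψ a)⁻¹ with he2d
    have h1 : Ψ a = e1 * a := by rw [he1d]; group
    have h2 : Ψ (Ψ a) = e2 * (e1 * a) := by rw [← h1, he2d]; group
    have e1H : e1 ∈ chevD4.diagonalSubgroup L := mul_mem hΨa (inv_mem ha)
    have e2H : e2 ∈ chevD4.diagonalSubgroup L := mul_mem hΨa2 (inv_mem hΨa)
    have c1 : a * e1 = e1 * a := diag_comm TwD4.G ha e1H
    have c2 : a * e2 = e2 * a := diag_comm TwD4.G ha e2H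
    have h3 : a * Ψ a * Ψ (Ψ a) = e1 * e2 * e1 * (a ^ 2 * a) := by
      rw [h2, h1, ← mul_assoc a e1 a, c1]
      have c1' : ∀ x, a * (e1 * x) = e1 * (a * x) := fun x => by rw [← mul_assoc, c1, mul_assoc]
      have c2' : ∀ x, a * (e2 * x) = e2 * (a * x) := fun x => by rw [← mul_assoc, c2, mul_assoc]
      simp only [mul_assoc, c1', c2', pow_two]
    have h4 : a = (a ^ 2)⁻¹ * (e1 * e2 * e1)⁻¹ * (a * Ψ a * Ψ (Ψ a)) := by
      rw [h3]
      group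
    rw [h4]
    exact mul_mem (mul_mem (inv_mem ha2) (inv_mem (mul_mem (mul_mem he1 he2) he1))) hb
  obtain ⟨a0, ha0, ha0e⟩ := haE
  have hx0 : g0 * a0 ∈ chevD4.group K := mul_mem hg0 ha0
  have hx0e : em chevD4 ι (g0 * a0) = X := by rw [map_mul, ha0e, ← hXa]
  refine ⟨g0 * a0, ⟨hx0, ?_⟩, hx0e⟩
  have h1 : (TwD4.T hq hK).s (g0 * a0) = ΨK (g0 * a0) :=
    agree q (TwD4.frob hq hK) (TwD4.frob_eq hq hK) _ _ _ _ hx0
  rw [h1]
  apply em_injective ι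
  rw [hemΨ, hx0e, hfix]

end D4

end Cfsg.Agent.Lib.TwLang
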