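import Cfsg.Agent.Lib.ChevTorus4
import Cfsg.Agent.Lib.TwLang2

set_option autoImplicit false

/-!
# Twisted tori of Chevalley groups with non-trivial fundamental group (helper40)
-/

namespace Cfsg.Agent.Lib.ChevTorus
open Cfsg.Lie Cfsg.Agent.Lib.ChevX Cfsg.Agent.Lib.ChevGood Cfsg.Agent.Lib.ChevRel Cfsg.Agent.Lib.ChevNPerm
  Cfsg.Agent.Lib.ChevClosed Cfsg.Agent.Lib.ChevBruhat Cfsg.Agent.Lib.ChevFix Cfsg.Agent.Lib.ChevHOrder Cfsg.Agent.Lib.ChevTab
open scoped MatrixGroups Matrix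

section
variable {D : ChevalleyDatum} (G : Good D) {F L : Type*} [Field F] [Field L]
include G

/-- fixed diagonal elements normalise the group over the small field -/
theorem norm_small (σ : L →+* L) (ι : F →+* L) (hfix : ∀ x, σ x = x → ∃ y, ι y = x) {a : GL D.Idx L}
    (ha : a ∈ D.diagonalSubgroup L) (hfa : em D σ a = a) {y : GL D.Idx L} (hy : y ∈ (D.group F).map (em D ι)) :
    a * y * a⁻¹ ∈ (D.group F).map (em D ι) := by
  have hv : ∀ s, ∃ z, ι z = rval a s := by
    intro s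
    apply hfix
    conv_rhs => rw [← hfa]
    rfl
  have : (D.group F).map (em D ι) ≤ ((D.group F).map (em D ι)).comap (MulAut.conj a).toMonoidHom := by
    rw [Subgroup.map_le_iff_le_comap]
    conv_lhs => rw [ChevAuto.group_eq G]
    rw [Subgroup.closure_le]
    rintro _ ⟨r, hr, t, rfl⟩
    obtain ⟨z, hz⟩ := hv ⟨r, hr⟩
    show a * em D ι (xg D F r t) * a⁻¹ ∈ (D.group F).map (em D ι)
    rw [em_xg G, conj_x G ha ⟨r, hr⟩, ← hz, ← map_mul]
    exact ⟨xg D F r (z * t), ChevAuto.xg_mem G _ _, em_xg G ι _ _⟩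
  exact this hy

/-- the `d`-th power of a fixed element comes from the small field -/
theorem pow_small (hD : Listed D) {d : ℕ} (cd : CertD D d) (σ : L ≃+* L) (ι : F →+* L) (hfix : ∀ x, σ x = x → ∃ y, ι y = x)
    {X : GL D.Idx L} (hX : X ∈ D.group L) (h : em D (σ : L →+* L) X = X) : ∃ x ∈ D.group F, em D ι x = X ^ d := by
  obtain ⟨g0, hg0, a, ha, hfa, rfl⟩ := fixed_group G hD σ ι hfix hX h
  obtain ⟨a0, ha0, ha0e⟩ := TwLang.lift_pow G cd (σ : L →+* L) ι hfix ha hfa
  set E := (D.group F).map (em D ι) with hE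
  have hg0E : em D ι g0 ∈ E := ⟨g0, hg0, rfl⟩
  have key : ∀ k : ℕ, ∃ y ∈ E, (em D ι g0 * a) ^ k = y * a ^ k := by
    intro k
    induction k with
    | zero => exact ⟨1, one_mem _, by simp⟩
    | succ k ih =>
      obtain ⟨y, hy, h1⟩ := ih
      have hak : em D (σ : L →+* L) (a ^ k) = a ^ k := by rw [map_pow, hfa]
      refine ⟨y * (a ^ k * em D ι g0 * (a ^ k)⁻¹), mul_mem hy (norm_small G (σ : L →+* L) ι hfix (pow_mem ha k) hak hg0E), ?_⟩
      rw [pow_succ, h1, pow_succ a]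
      group
  obtain ⟨y, ⟨y0, hy0, rfl⟩, h1⟩ := key d
  refine ⟨y0 * a0, mul_mem hy0 (ChevBN.H_le_group G ha0), ?_⟩
  rw [map_mul, ha0e, h1]

end

section
variable {D : ChevalleyDatum} {G : Good D} {q N : ℕ} (T : TD G q N)
include T

/-- the core of the torus theorem -/
theorem TD.core (hD : Listed D) {F L : Type*} [Field F] [Field L] (σ : L ≃+* L) (hσ : ∀ x, σ x = x ^ q) (ι : F →+* L)
    (hσι : ∀ y, σ (ι y) = ι y) {g : GL D.Idx L} (hg : g ∈ D.group L) (hgσ : em D (σ : L →+* L) g = g * nl D L T.l)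
    {a0 : Lˣ} (ha0 : orderOf a0 = N) (hroots : ∀ z : Lˣ, z ^ N = 1 → ∃ k : ℕ, a0 ^ k = z) {t0 : GL D.Idx L}
    (ht0 : t0 ∈ D.diagonalSubgroup L) (hval : ∀ s, rval t0 s = ((a0 ^ T.M s : Lˣ) : L))
    {c N' : ℕ} (hN : N = c * N') (hc : 0 < c) (hN' : 0 < N') {h0 : GL D.Idx F} (hh0 : h0 ∈ D.group F)
    (hh0e : em D ι h0 = g * t0 ^ c * g⁻¹) (hsep : ∀ k : ℕ, (∃ x ∈ D.group F, em D ι x = g * t0 ^ k * g⁻¹) → c ∣ k)
    (h1 : ∀ s, ¬ (N' : ℤ) ∣ T.M s)
    (h2 : ∀ w ∈ Subgroup.closure (Set.range (refl G)), w * wl G T.l = wl G T.l * w → (N' : ℤ) ∣ T.M (w T.α) - 1 → w T.α = T.α) :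
    ∃ H : Subgroup ↥(D.group F), IsCyclic ↥H ∧ Nat.card ↥H = N' ∧ Subgroup.centralizer (H : Set ↥(D.group F)) = H := by
  classical
  set n0 := nl D L T.l with hn0
  have hnN : n0 ∈ D.monomialSubgroup L := nl_mem G T.l
  have hmono0 : Mono G n0 (wl G T.l) := mono_nl G T.l
  have hz : ∀ k : ℤ, a0 ^ k = 1 ↔ (N : ℤ) ∣ k := fun k => by rw [← ha0, orderOf_dvd_iff_zpow_eq_one]
  have hcz : (c : ℤ) ≠ 0 := by exact_mod_cast hc.ne'
  have hNc : ∀ k : ℤ, (N : ℤ) ∣ c * k ↔ (N' : ℤ) ∣ k := by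
    intro k
    rw [hN, Nat.cast_mul]
    exact mul_dvd_mul_iff_left hcz
  have hem : ∀ (a : GL D.Idx L) (s : Fin D.nroots), rval (em D (σ : L →+* L) a) s = σ (rval a s) := fun a s => rfl
  have hemH : ∀ a ∈ D.diagonalSubgroup L, em D (σ : L →+* L) a ∈ D.diagonalSubgroup L := fun a ha => em_H G _ ha
  have hpow : ∀ k : ℕ, ∀ s, rval (t0 ^ k) s = ((a0 ^ (k * T.M s) : Lˣ) : L) := by
    intro k s
    rw [rval_pow G ht0, hval, ← Units.val_pow_eq_pow_val, ← zpow_natCast, ← zpow_mul, mul_comm]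
  have hordt : orderOf t0 = N := by
    apply Nat.dvd_antisymm
    · rw [orderOf_dvd_iff_pow_eq_one]
      apply ext_rval G (pow_mem ht0 N) (one_mem _)
      intro s
      rw [hpow, rval_one G, Units.val_eq_one, hz]
      exact dvd_mul_right _ _
    · have h3 : t0 ^ orderOf t0 = 1 := pow_orderOf_eq_one t0
      have h4 := congrArg (fun a => rval a T.α) h3
      simp only [hpow, rval_one G, T.M_α, mul_one, Units.val_eq_one, hz] at h4
      exact_mod_cast h4
  have hordh : orderOf h0 = N' := by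
    rw [← orderOf_injective (em D ι) (em_injective ι) h0, hh0e]
    have : g * t0 ^ c * g⁻¹ = MulAut.conj g (t0 ^ c) := rfl
    rw [this]
    have h3 := orderOf_injective (MulAut.conj g).toMonoidHom (MulAut.conj g).injective (t0 ^ c)
    refine h3.trans ?_
    rw [orderOf_pow' t0 hc.ne', hordt, hN, Nat.gcd_eq_right (Dvd.intro N' rfl), Nat.mul_div_cancel_left _ hc]
  refine ⟨Subgroup.zpowers ⟨h0, hh0⟩, inferInstance, ?_, ?_⟩
  · rw [Nat.card_zpowers, ← hordh]
    exact (orderOf_injective (D.group F).subtype (D.group F).subtype_injective ⟨h0, hh0⟩).symm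
  apply le_antisymm
  · intro x hx
    have hcomm : h0 * (x : GL D.Idx F) = x * h0 := by
      have := hx ⟨h0, hh0⟩ (Subgroup.mem_zpowers _)
      exact congrArg Subtype.val this
    set y := g⁻¹ * em D ι (x : GL D.Idx F) * g with hy
    have hyG : y ∈ D.group L := mul_mem (mul_mem (inv_mem hg) (em_group G ι x.2)) hg
    have hycomm : t0 ^ c * y = y * t0 ^ c := by
      have h3 := congrArg (em D ι) hcomm
      rw [map_mul, map_mul, hh0e] at h3
      calc t0 ^ c * y = g⁻¹ * (g * t0 ^ c * g⁻¹ * em D ι (x : GL D.Idx F)) * g := by rw [hy]; group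
        _ = g⁻¹ * (em D ι (x : GL D.Idx F) * (g * t0 ^ c * g⁻¹)) * g := by rw [h3]
        _ = y * t0 ^ c := by rw [hy]; group
    obtain ⟨w, hw, hyN, hwv⟩ := mem_T_of_commute G hD (pow_mem ht0 c) (fun s => by
      rw [hpow, Ne, Units.val_eq_one, hz, hNc]; exact h1 s) hyG hycomm
    have hσx : em D (σ : L →+* L) (em D ι (x : GL D.Idx F)) = em D ι (x : GL D.Idx F) := by
      apply Units.ext
      ext i j
      exact hσι _
    have hyσ : n0 * em D (σ : L →+* L) y * n0⁻¹ = y := by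
      rw [hy, map_mul, map_mul, map_inv, hσx, hgσ]
      group
    have hwW : w ∈ Subgroup.closure (Set.range (refl G)) := by
      rw [← permHom_range (F := L) G]
      exact ⟨⟨y, hyN⟩, permOf_eq G hw⟩
    have hwc : w * wl G T.l = wl G T.l * w := by
      have h3 : Mono G (n0 * em D (σ : L →+* L) y * n0⁻¹) (wl G T.l * w * (wl G T.l)⁻¹) :=
        mono_mul G (mono_mul G hmono0 (em_mono G σ hw)) (mono_inv G hmono0)
      rw [hyσ] at h3
      have h4 := mono_unique G hw h3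
      nth_rw 1 [h4]
      group
    have hwα : w T.α = T.α := by
      apply h2 w hwW hwc
      have h3 := hwv T.α
      rw [hpow, hpow, T.M_α] at h3
      have h4 := Units.ext h3
      rw [← hNc, ← hz, mul_sub, zpow_sub, h4, mul_inv_cancel]
    have hw1 : w = 1 := by
      apply T.eq_one hw.1
      intro i
      have h3 : w * (wl G T.l) ^ (i : ℕ) = (wl G T.l) ^ (i : ℕ) * w := by
        exact (Commute.pow_right (show Commute w (wl G T.l) from hwc) (i : ℕ)).eq
      rw [← Equiv.Perm.mul_apply, h3, Equiv.Perm.mul_apply, hwα]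
    rw [hw1] at hw
    have hyT : y ∈ D.diagonalSubgroup L := mem_diag_of_one G hyN hw
    let v : Fin D.nroots → Lˣ := fun s => Units.mk0 (rval y s) (rval_ne_zero G hyT s)
    have hv1 : ∀ s, v s = ∏ j : Fin D.rank, v (simpF G j) ^ G.rv s j := by
      intro s
      apply Units.ext
      rw [Units.coe_prod]
      have := rval_prod G hyT s
      simp only [v, Units.val_mk0, Units.val_zpow_eq_zpow_val]
      exact this
    have hv2 : ∀ s, v (wl G T.l s) = v s ^ q := by
      intro s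
      apply Units.ext
      have h3 := rval_conj G hnN hmono0 (hemH _ hyT) s
      rw [hyσ, hem, hσ] at h3
      rw [Units.val_pow_eq_pow_val]
      exact h3
    obtain ⟨h3, h4⟩ := T.gen_char v hv1 hv2
    obtain ⟨k, hk⟩ := hroots _ h3
    have hyt : y = t0 ^ k := by
      apply ext_rval G hyT (pow_mem ht0 k)
      intro s
      rw [hpow]
      have h5 : rval y s = ((v s : Lˣ) : L) := rfl
      rw [h5, h4 s, ← hk, ← zpow_natCast, ← zpow_mul]
    have h5 : em D ι (x : GL D.Idx F) = g * t0 ^ k * g⁻¹ := by rw [← hyt, hy]; group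
    obtain ⟨m, rfl⟩ := hsep k ⟨x, x.2, h5⟩
    rw [Subgroup.mem_zpowers_iff]
    refine ⟨m, ?_⟩
    apply Subtype.ext
    rw [zpow_natCast, Subgroup.coe_pow]
    apply em_injective ι
    rw [map_pow, hh0e, h5, conj_pow, ← pow_mul]
  · intro x hx
    rw [Subgroup.mem_centralizer_iff]
    intro y hy
    obtain ⟨i, rfl⟩ := Subgroup.mem_zpowers_iff.mp hx
    obtain ⟨j, rfl⟩ := Subgroup.mem_zpowers_iff.mp hy
    rw [← zpow_add, ← zpow_add, add_comm]

end

end Cfsg.Agent.Lib.ChevTorus
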