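import Cfsg.Agent.Lib.EmbE8d

set_option autoImplicit false
set_option maxRecDepth 1000000

/-!
# The orthogonal complements of E6 and E7 in E8 (helper40)
-/

namespace Cfsg.Agent.Lib.EmbE8
open Cfsg.Lie Cfsg.Agent.Lib.ChevX Cfsg.Agent.Lib.ChevGood Cfsg.Agent.Lib.ChevRel Cfsg.Agent.Lib.ChevTab
  Cfsg.Agent.Lib.ChevNPerm Cfsg.Agent.Lib.ChevHOrder Cfsg.Agent.Lib.ChevFix Cfsg.Agent.Lib.StPres Cfsg.Agent.Lib.ChevTorus Cfsg.Agent.Lib.TwTab

def isNil {α : Type*} : List α → Bool
  | [] => true
  | _ => false

theorem isNil_sound {α : Type*} {L : List α} (h : isNil L = true) : L = [] := by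
  match L, h with
  | [], _ => rfl

/-- orthogonality check -/
def chkP (n W s : ℕ) : Bool := (List.range n).all fun r =>
  (!Nat.beq s (eρ W r) && (!Nat.beq s (239 - eρ W r) &&
    (isNil (ceT chevE8 ChevDataE8.A (eρ W r) s) && isNil (ceT chevE8 ChevDataE8.A s (eρ W r)))))

theorem chkP_sound {n W s : ℕ} (h : chkP n W s = true) (hs : s < 240) {r : ℕ} (hr : r < n) (hlt : eρ W r < 240) :
    s ≠ eρ W r ∧ s ≠ chevE8.neg (eρ W r) ∧ chevE8.commTerms (eρ W r) s = [] := by
  simp only [chkP, List.all_eq_true, List.mem_range, Bool.and_eq_true, Bool.not_eq_true'] at h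
  obtain ⟨h1, h2, h3, h4⟩ := h r hr
  have e1 := isNil_sound h3
  have e2 := isNil_sound h4
  rw [← c1_entry ChevOkE8a.c1 hlt] at e1
  rw [← c1_entry ChevOkE8a.c1 hs] at e2
  refine ⟨fun h => ?_, fun h => ?_, ?_⟩
  · rw [h, Nat.beq_refl] at h1; exact Bool.noConfusion h1
  · rw [c1_neg ChevOkE8a.c1 hlt] at h
    have : s = 239 - eρ W r := h
    rw [this, Nat.beq_refl] at h2; exact Bool.noConfusion h2
  · rw [commTerms_short (by rw [e1]; simp) (by rw [e2]; simp), e1]; rfl

theorem p6a : chkP 72 WE6 120 = true := by decide +kernel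
theorem p6b : chkP 72 WE6 119 = true := by decide +kernel
theorem p6c : chkP 72 WE6 239 = true := by decide +kernel
theorem p6d : chkP 72 WE6 0 = true := by decide +kernel
theorem p7c : chkP 126 WE7 239 = true := by decide +kernel
theorem p7d : chkP 126 WE7 0 = true := by decide +kernel

theorem neg120 : chevE8.neg 120 = 119 := by decide +kernel
theorem neg239 : chevE8.neg 239 = 0 := by decide +kernel

/-- the complement of `E6` -/
def perpE6 : Perp embE6 3 where
  S := [(120, -27), (239, 57)]
  hS := by
    intro s hs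
    simp only [List.mem_cons, List.not_mem_nil, or_false] at hs
    rcases hs with rfl | rfl
    · rw [neg120]; omega
    · rw [neg239]; omega
  hperp := by
    intro s hs r hr
    have hlt := embE6.lt r hr
    simp only [List.mem_cons, List.not_mem_nil, or_false] at hs
    rcases hs with rfl | rfl
    · rw [neg120]
      exact ⟨chkP_sound p6a (by norm_num) hr hlt, chkP_sound p6b (by norm_num) hr hlt⟩
    · rw [neg239]
      exact ⟨chkP_sound p6c (by norm_num) hr hlt, chkP_sound p6d (by norm_num) hr hlt⟩
  x := fun i => ([24, 33, 45, 63, 45, 24] : List ℤ).getD i 0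
  hxy := by decide +kernel
  m := 6
  hm := by
    intro j hj hjm
    have hr : chevE6.rank = 6 := rfl
    rcases Nat.lt_or_ge j 6 with h | h
    · left; rw [hr]; exact h
    · right
      have : j = 7 := by omega
      subst this
      exact ⟨(120, -27), by simp, by decide +kernel⟩
  s0 := (239, 57)
  hs0 := by simp
  hs0m := by decide +kernel
  mlt := by norm_num

/-- the complement of `E7` -/
def perpE7 : Perp embE7 2 where
  S := [(239, 29)]
  hS := by
    intro s hs
    simp only [List.mem_cons, List.not_mem_nil, or_false] at hs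
    subst hs
    rw [neg239]; omega
  hperp := by
    intro s hs r hr
    have hlt := embE7.lt r hr
    simp only [List.mem_cons, List.not_mem_nil, or_false] at hs
    subst hs
    rw [neg239]
    exact ⟨chkP_sound p7c (by norm_num) hr hlt, chkP_sound p7d (by norm_num) hr hlt⟩
  x := fun i => ([34, 49, 66, 96, 75, 52, 27] : List ℤ).getD i 0
  hxy := by decide +kernel
  m := 7
  hm := by
    intro j hj hjm
    have hr : chevE7.rank = 7 := rfl
    left; rw [hr]; omega
  s0 := (239, 29)
  hs0 := by simp
  hs0m := by decide +kernel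
  mlt := by norm_num

end Cfsg.Agent.Lib.EmbE8
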