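import Cfsg.Agent.Lib.ChevTorus5
import Cfsg.Agent.Lib.EmbE8e

set_option autoImplicit false

/-!
# Twisted tori of E6, E7 (helper40)
-/

namespace Cfsg.Agent.Lib.ChevTorus
open Cfsg.Lie Cfsg.Agent.Lib.ChevX Cfsg.Agent.Lib.ChevGood Cfsg.Agent.Lib.ChevRel Cfsg.Agent.Lib.ChevNPerm
  Cfsg.Agent.Lib.ChevClosed Cfsg.Agent.Lib.ChevBruhat Cfsg.Agent.Lib.ChevFix Cfsg.Agent.Lib.ChevHOrder Cfsg.Agent.Lib.ChevTab
  Cfsg.Agent.Lib.EmbE8 Cfsg.Agent.Lib.TwTab
open scoped MatrixGroups Matrix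

section
variable {D : ChevalleyDatum} {G : Good D} {q N : ℕ} (T : TD G q N)

theorem neZero_of_coprime {L : Type*} [Field L] (p : ℕ) [hp : Fact p.Prime] [CharP L p] {n : ℕ} (h : n.Coprime p) : NeZero (n : L) :=
  ⟨by
    intro h0
    have h3 := (CharP.cast_eq_zero_iff L p n).mp h0
    have h5 := Nat.dvd_gcd h3 (dvd_refl p)
    rw [h] at h5
    exact hp.out.one_lt.ne' (Nat.dvd_one.mp h5)⟩

/-- a regular scalar -/
theorem exists_big {L : Type*} [Field L] [IsAlgClosed L] (p : ℕ) [hp : Fact p.Prime] [CharP L p] (B : ℕ) :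
    ∃ a : Lˣ, ∀ n : ℤ, n ≠ 0 → |n| ≤ B → a ^ n ≠ 1 := by
  set N1 := p * (B + 1) + 1 with hN1
  have hcop : N1.Coprime p := by
    rw [hN1, Nat.coprime_comm]
    exact (Nat.coprime_mul_left_add_right _ _ _).mpr (Nat.coprime_one_right _)
  have h1 : NeZero (N1 : L) := neZero_of_coprime p hcop
  have h2 : NeZero N1 := ⟨by omega⟩
  obtain ⟨ζ, hζ⟩ := HasEnoughRootsOfUnity.exists_primitiveRoot L N1
  refine ⟨Units.mk0 ζ (hζ.ne_zero (NeZero.ne N1)), fun n hn hB h => ?_⟩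
  have h3 : ζ ^ n = 1 := by
    have := congrArg Units.val h
    rw [Units.val_zpow_eq_zpow_val, Units.val_mk0, Units.val_one] at this
    exact this
  rw [hζ.zpow_eq_one_iff_dvd] at h3
  have h4 : (N1 : ℤ) ≤ |n| := Int.le_of_dvd (abs_pos.mpr hn) ((dvd_abs _ _).mpr h3)
  have h5 : B + 1 ≤ p * (B + 1) := Nat.le_mul_of_pos_left _ hp.out.pos
  have h6 : (B : ℤ) + 1 ≤ (p * (B + 1) : ℕ) := by exact_mod_cast h5
  rw [hN1] at h4
  push_cast at h4 h6
  omega

include T in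
/-- the twisted torus when every element of the field is a `d`-th power -/
theorem TD.main1 (hD : Listed D) {F : Type*} [Field F] [Fintype F] (hq : Fintype.card F = q) {d : ℕ} (hd : d ≠ 0) (cd : CertD D d)
    (hroot : ∀ y : F, y ≠ 0 → ∃ z : F, z ^ d = y) (hN : 0 < N) (hNq : N.Coprime q) (h1 : ∀ s, ¬ (N : ℤ) ∣ T.M s)
    (h2 : ∀ w ∈ Subgroup.closure (Set.range (refl G)), w * wl G T.l = wl G T.l * w → (N : ℤ) ∣ T.M (w T.α) - 1 → w T.α = T.α) :
    ∃ H : Subgroup ↥(D.group F), IsCyclic ↥H ∧ Nat.card ↥H = N ∧ Subgroup.centralizer (H : Set ↥(D.group F)) = H := by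
  classical
  obtain ⟨p, hpc⟩ := CharP.exists F
  have hp : Fact p.Prime := ⟨CharP.char_is_prime F p⟩
  obtain ⟨e, σ, he, hqe, hσ, hfix⟩ := exists_frob F p
  rw [hq] at hqe
  set L := AlgebraicClosure F with hL
  have hcL : CharP L p := charP_of_injective_algebraMap (algebraMap F L).injective p
  set ι : F →+* L := algebraMap F L with hι
  rw [← hqe] at hσ
  have hnN : nl D L T.l ∈ D.monomialSubgroup L := nl_mem G T.l
  have hnG : nl D L T.l ∈ D.group L := ChevBN.N_le_group G hnN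
  obtain ⟨g, hg, hgl⟩ := ChevLang.lang G p e he (σ : L →+* L) (fun a => by rw [← hqe]; exact hσ a) (one_mem (D.group L)) hnG
  rw [one_mul, inv_one, mul_one] at hgl
  have hgσ : em D (σ : L →+* L) g = g * nl D L T.l := by rw [← hgl]; group
  have hNp : N.Coprime p := by
    rw [hqe] at hNq
    exact (Nat.coprime_pow_right_iff (Nat.pos_of_ne_zero he) _ _).mp hNq
  have hNK : NeZero (N : L) := neZero_of_coprime p hNp
  have hN0 : NeZero N := ⟨hN.ne'⟩
  obtain ⟨ζ, hζ⟩ := HasEnoughRootsOfUnity.exists_primitiveRoot L N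
  obtain ⟨a0, rfl⟩ : ∃ a0 : Lˣ, (a0 : L) = ζ := ⟨Units.mk0 ζ (hζ.ne_zero hN.ne'), rfl⟩
  have ha0 : orderOf a0 = N := by
    rw [← orderOf_units]
    exact hζ.eq_orderOf.symm
  have hz : ∀ k : ℤ, a0 ^ k = 1 ↔ (N : ℤ) ∣ k := fun k => by rw [← ha0, orderOf_dvd_iff_zpow_eq_one]
  obtain ⟨t0, ht0, ht0v⟩ := exists_torus G (F := L) hd cd (fun j => a0 ^ (T.M (simpF G j)))
  have hval : ∀ s, rval t0 s = ((a0 ^ T.M s : Lˣ) : L) := by
    intro s
    rw [rval_prod G ht0 s, Finset.prod_congr rfl fun j _ => by rw [ht0v j], T.M_lin s, zpow_sum', Units.coe_prod]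
    exact Finset.prod_congr rfl fun j _ => by rw [← Units.val_zpow_eq_zpow_val, ← zpow_mul, mul_comm]
  have hemH : ∀ a ∈ D.diagonalSubgroup L, em D (σ : L →+* L) a ∈ D.diagonalSubgroup L := fun a ha => em_H G _ ha
  have hn0t0 : nl D L T.l * em D (σ : L →+* L) t0 * (nl D L T.l)⁻¹ = t0 := by
    apply ext_rval G (conj_mem_diag G hnN (hemH _ ht0)) ht0
    intro s
    obtain ⟨s', rfl⟩ := (wl G T.l).surjective s
    have h3 : rval (em D (σ : L →+* L) t0) s' = σ (rval t0 s') := rfl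
    rw [rval_conj G hnN (mono_nl G T.l) (hemH _ ht0), h3, hval, hval, hσ, ← Units.val_pow_eq_pow_val, ← zpow_natCast, ← zpow_mul]
    congr 1
    rw [← mul_inv_eq_one, ← zpow_neg, ← zpow_add, hz]
    have := T.M_w s'
    rw [← dvd_neg] at this
    have h3 : T.M s' * (q : ℤ) + -T.M (wl G T.l s') = -(T.M (wl G T.l s') - q * T.M s') := by ring
    rw [h3]
    exact this
  have hfixt0 : em D (σ : L →+* L) (g * t0 * g⁻¹) = g * t0 * g⁻¹ := by
    rw [map_mul, map_mul, map_inv, hgσ, mul_inv_rev]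
    calc g * nl D L T.l * em D (σ : L →+* L) t0 * ((nl D L T.l)⁻¹ * g⁻¹) =
        g * (nl D L T.l * em D (σ : L →+* L) t0 * (nl D L T.l)⁻¹) * g⁻¹ := by group
      _ = _ := by rw [hn0t0]
  obtain ⟨h0, hh0, hh0e⟩ := (fixed_iff G hD cd σ ι hfix hroot hd
    (mul_mem (mul_mem hg (ChevBN.H_le_group G ht0)) (inv_mem hg))).mp hfixt0
  refine T.core hD σ hσ ι (fun y => (hfix _).mpr ⟨y, rfl⟩) hg hgσ ha0 (fun z hz' => ?_) ht0 hval (c := 1) (N' := N) (one_mul N).symm
    one_pos hN hh0 (by rw [pow_one]; exact hh0e) (fun k _ => one_dvd k) h1 h2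
  obtain ⟨k, _, hk⟩ := hζ.eq_pow_of_pow_eq_one (ξ := ((z : Lˣ) : L)) (by
    rw [← Units.val_pow_eq_pow_val, hz', Units.val_one])
  exact ⟨k, Units.ext (by rw [Units.val_pow_eq_pow_val, hk])⟩

/-- exponents of the lift to the simply connected cover -/
def TD.BM {d : ℕ} (cd : CertD D d) (i : Fin D.rank) : ℤ := ∑ k : Fin D.rank, T.M (simpF G k) * cd.B k i

/-- character values of a product of coroot elements with exponents -/
theorem chr_zpow {D' : ChevalleyDatum} {L : Type*} [Field L] (b : Lˣ) {n : ℕ} (f : Fin n → ℤ) (s : ℕ) :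
    chr D' ((List.finRange n).map fun i : Fin n => ((i : ℕ), ((b ^ f i : Lˣ) : L))) s =
      ((b ^ (∑ i : Fin n, f i * D'.cartan i s) : Lˣ) : L) := by
  unfold chr
  rw [List.map_map, zpow_sum', Units.coe_prod, ← List.prod_ofFn, List.ofFn_eq_map]
  congr 1
  apply List.map_congr_left
  intro i _
  show ((b ^ f i : Lˣ) : L) ^ D'.cartan i s = ((b ^ (f i * D'.cartan i s) : Lˣ) : L)
  rw [zpow_mul, Units.val_zpow_eq_zpow_val (b ^ f i)]

include T in
/-- the twisted torus when the fundamental group matters -/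
theorem TD.mainD (hD : Listed D) {F : Type*} [Field F] [Fintype F] (hq : Fintype.card F = q) {d N' : ℕ} (hdp : d.Prime) (cd : CertD D d)
    {E : Emb D} (Q : Perp E d) (hD' : D ∈ [chevG2, chevB2, chevD4, chevF4, chevE6, chevE7, chevE8])
    (hdq : d ∣ q - 1) (hNd : N = d * N') (hN' : 0 < N') (hNq : N.Coprime q)
    (s1 : Fin chevE8.nroots) {κ : ℤ} (hκ : ¬ (d : ℤ) ∣ κ)
    (hκe : ∑ i : Fin D.rank, T.BM cd i * (chevE8.cartan i (wl G8 (T.l.map (up E)) s1 : Fin chevE8.nroots) - q * chevE8.cartan i s1) = κ * N)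
    (h1 : ∀ s, ¬ (N' : ℤ) ∣ T.M s)
    (h2 : ∀ w ∈ Subgroup.closure (Set.range (refl G)), w * wl G T.l = wl G T.l * w → (N' : ℤ) ∣ T.M (w T.α) - 1 → w T.α = T.α) :
    ∃ H : Subgroup ↥(D.group F), IsCyclic ↥H ∧ Nat.card ↥H = N' ∧ Subgroup.centralizer (H : Set ↥(D.group F)) = H := by
  classical
  have hd : d ≠ 0 := hdp.ne_zero
  have hq2 : 2 ≤ q := by rw [← hq]; exact Fintype.one_lt_card
  obtain ⟨p, hpc⟩ := CharP.exists F
  have hp : Fact p.Prime := ⟨CharP.char_is_prime F p⟩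
  obtain ⟨e, σ, he, hqe, hσ, hfix⟩ := exists_frob F p
  rw [hq] at hqe
  set L := AlgebraicClosure F with hL
  have hcL : CharP L p := charP_of_injective_algebraMap (algebraMap F L).injective p
  set ι : F →+* L := algebraMap F L with hι
  rw [← hqe] at hσ
  have hσι : ∀ y, σ (ι y) = ι y := fun y => (hfix _).mpr ⟨y, rfl⟩
  have hnN : nl D L T.l ∈ D.monomialSubgroup L := nl_mem G T.l
  have hnG : nl D L T.l ∈ D.group L := ChevBN.N_le_group G hnN
  obtain ⟨g, hg, hgl⟩ := ChevLang.lang G p e he (σ : L →+* L) (fun a => by rw [← hqe]; exact hσ a) (one_mem (D.group L)) hnG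
  rw [one_mul, inv_one, mul_one] at hgl
  have hgσ : em D (σ : L →+* L) g = g * nl D L T.l := by rw [← hgl]; group
  have hN : 0 < N := by rw [hNd]; exact Nat.mul_pos hdp.pos hN'
  have hNp : N.Coprime p := by
    rw [hqe] at hNq
    exact (Nat.coprime_pow_right_iff (Nat.pos_of_ne_zero he) _ _).mp hNq
  have hdcop : d.Coprime p := Nat.Coprime.coprime_dvd_left (by rw [hNd]; exact dvd_mul_right _ _) hNp
  have hdNcop : (d * N).Coprime p := Nat.Coprime.mul_left hdcop hNp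
  have hNK : NeZero ((d * N : ℕ) : L) := neZero_of_coprime p hdNcop
  have hdN0 : 0 < d * N := Nat.mul_pos hdp.pos hN
  have hN0 : NeZero (d * N) := ⟨hdN0.ne'⟩
  obtain ⟨ξ, hξ⟩ := HasEnoughRootsOfUnity.exists_primitiveRoot L (d * N)
  obtain ⟨b, rfl⟩ : ∃ b : Lˣ, (b : L) = ξ := ⟨Units.mk0 ξ (hξ.ne_zero hdN0.ne'), rfl⟩
  have hb : orderOf b = d * N := by
    rw [← orderOf_units]
    exact hξ.eq_orderOf.symm
  have hbz : ∀ k : ℤ, b ^ k = 1 ↔ ((d * N : ℕ) : ℤ) ∣ k := fun k => by rw [← hb, orderOf_dvd_iff_zpow_eq_one]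
  set a0 : Lˣ := b ^ d with ha0d
  have hζ : IsPrimitiveRoot ((a0 : Lˣ) : L) N := by
    rw [ha0d, Units.val_pow_eq_pow_val]
    exact hξ.pow hdN0 rfl
  have ha0 : orderOf a0 = N := by
    rw [← orderOf_units]
    exact hζ.eq_orderOf.symm
  have hz : ∀ k : ℤ, a0 ^ k = 1 ↔ (N : ℤ) ∣ k := fun k => by rw [← ha0, orderOf_dvd_iff_zpow_eq_one]
  have hNeZ : NeZero N := ⟨hN.ne'⟩
  -- the torus element
  set lc : List (ℕ × L) := (List.finRange D.rank).map fun i : Fin D.rank => ((i : ℕ), ((b ^ T.BM cd i : Lˣ) : L)) with hlcd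
  have hlc : ∀ x ∈ lc, x.1 < D.rank ∧ x.2 ≠ 0 := by
    intro x hx
    obtain ⟨i, -, rfl⟩ := List.mem_map.mp hx
    exact ⟨i.2, Units.ne_zero _⟩
  set t0 := HP D L lc with ht0d
  have ht0 : t0 ∈ D.diagonalSubgroup L := HP_mem G hlc
  have hvs : ∀ j : Fin D.rank, rval t0 (simpF G j) = ((a0 ^ T.M (simpF G j) : Lˣ) : L) := by
    intro j
    rw [ht0d, rval_HP G hlc, hlcd, chr_zpow, ha0d, ← zpow_natCast b d, ← zpow_mul]
    congr 2
    have h3 : ∀ i : Fin D.rank, T.BM cd i * D.cartan i (simpF G j : Fin D.nroots) =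
        ∑ k : Fin D.rank, T.M (simpF G k) * (cd.B k i * cm D i j) := by
      intro i
      unfold TD.BM
      rw [Finset.sum_mul]
      exact Finset.sum_congr rfl fun k _ => by rw [mul_assoc]; rfl
    rw [Finset.sum_congr rfl fun i _ => h3 i, Finset.sum_comm]
    have h4 : ∀ k : Fin D.rank, ∑ i : Fin D.rank, T.M (simpF G k) * (cd.B k i * cm D i j) = T.M (simpF G k) * (if k = j then (d : ℤ) else 0) := by
      intro k
      rw [← Finset.mul_sum, cd.h]
    rw [Finset.sum_congr rfl fun k _ => h4 k, Finset.sum_eq_single j]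
    · rw [if_pos rfl, mul_comm]
    · intro k _ hk; rw [if_neg hk, mul_zero]
    · intro h; exact absurd (Finset.mem_univ _) h
  have hval : ∀ s, rval t0 s = ((a0 ^ T.M s : Lˣ) : L) := by
    intro s
    rw [rval_prod G ht0 s, Finset.prod_congr rfl fun j _ => by rw [hvs j], T.M_lin s, zpow_sum', Units.coe_prod]
    exact Finset.prod_congr rfl fun j _ => by rw [← Units.val_zpow_eq_zpow_val, ← zpow_mul, mul_comm]
  have hemH : ∀ a ∈ D.diagonalSubgroup L, em D (σ : L →+* L) a ∈ D.diagonalSubgroup L := fun a ha => em_H G _ ha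
  have hn0t0 : nl D L T.l * em D (σ : L →+* L) t0 * (nl D L T.l)⁻¹ = t0 := by
    apply ext_rval G (conj_mem_diag G hnN (hemH _ ht0)) ht0
    intro s
    obtain ⟨s', rfl⟩ := (wl G T.l).surjective s
    have h3 : rval (em D (σ : L →+* L) t0) s' = σ (rval t0 s') := rfl
    rw [rval_conj G hnN (mono_nl G T.l) (hemH _ ht0), h3, hval, hval, hσ, ← Units.val_pow_eq_pow_val, ← zpow_natCast, ← zpow_mul]
    congr 1
    rw [← mul_inv_eq_one, ← zpow_neg, ← zpow_add, hz]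
    have := T.M_w s'
    rw [← dvd_neg] at this
    have h3 : T.M s' * (q : ℤ) + -T.M (wl G T.l s') = -(T.M (wl G T.l s') - q * T.M s') := by ring
    rw [h3]
    exact this
  have hfixt0 : em D (σ : L →+* L) (g * t0 * g⁻¹) = g * t0 * g⁻¹ := by
    rw [map_mul, map_mul, map_inv, hgσ, mul_inv_rev]
    calc g * nl D L T.l * em D (σ : L →+* L) t0 * ((nl D L T.l)⁻¹ * g⁻¹) =
        g * (nl D L T.l * em D (σ : L →+* L) t0 * (nl D L T.l)⁻¹) * g⁻¹ := by group
      _ = _ := by rw [hn0t0]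
  obtain ⟨h0, hh0, hh0e⟩ := pow_small G hD cd σ ι (fun x hx => (hfix x).mp hx)
    (mul_mem (mul_mem hg (ChevBN.H_le_group G ht0)) (inv_mem hg)) hfixt0
  rw [conj_pow] at hh0e
  -- `t0` itself is not in the group over the small field
  have hnot : ∀ x ∈ D.group F, em D ι x ≠ g * t0 * g⁻¹ := by
    intro x hx hxe
    obtain ⟨a, ha⟩ := exists_big (L := L) p (29 * d)
    refine not_mem Q G hD' hd σ ι hσ hσι (by omega) hdq ⟨a, fun n hn hB => ha n hn (by push_cast; exact hB)⟩ hg T.l hgσ lc hlc s1 ?_ hx hxe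
    rw [hlcd, chr_zpow, chr_zpow]
    intro h
    rw [← Units.val_pow_eq_pow_val] at h
    have h3 := Units.ext h
    rw [← zpow_natCast, ← zpow_mul] at h3
    have h4 : b ^ (κ * N) = 1 := by
      rw [← hκe]
      have h5 : ∑ i : Fin D.rank, T.BM cd i * (chevE8.cartan i (wl G8 (T.l.map (up E)) s1 : Fin chevE8.nroots) - q * chevE8.cartan i s1) =
          (∑ i : Fin D.rank, T.BM cd i * chevE8.cartan i (wl G8 (T.l.map (up E)) s1 : Fin chevE8.nroots)) -
          (∑ i : Fin D.rank, T.BM cd i * chevE8.cartan i s1) * q := by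
        rw [Finset.sum_mul, ← Finset.sum_sub_distrib]
        exact Finset.sum_congr rfl fun i _ => by ring
      rw [h5, zpow_sub, h3, mul_inv_cancel]
    rw [hbz] at h4
    apply hκ
    have h6 : ((d * N : ℕ) : ℤ) = (d : ℤ) * N := by push_cast; ring
    rw [h6] at h4
    exact (mul_dvd_mul_iff_right (by exact_mod_cast hN.ne' : (N : ℤ) ≠ 0)).mp h4
  refine T.core hD σ hσ ι hσι hg hgσ ha0 (fun z hz' => ?_) ht0 hval (c := d) (N' := N') hNd hdp.pos hN' hh0 hh0e (fun k hk => ?_) h1 h2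
  · obtain ⟨k, _, hk⟩ := hζ.eq_pow_of_pow_eq_one (ξ := ((z : Lˣ) : L)) (by
      rw [← Units.val_pow_eq_pow_val, hz', Units.val_one])
    exact ⟨k, Units.ext (by rw [Units.val_pow_eq_pow_val, hk])⟩
  · by_contra hdk
    obtain ⟨x, hx, hxe⟩ := hk
    have hcop : Nat.Coprime k d := ((Nat.Prime.coprime_iff_not_dvd hdp).mpr hdk).symm
    have hbez : (1 : ℤ) = k * Nat.gcdA k d + d * Nat.gcdB k d := by
      have := Nat.gcd_eq_gcd_ab k d
      rw [hcop] at this
      exact_mod_cast this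
    apply hnot (x ^ (Nat.gcdA k d) * h0 ^ (Nat.gcdB k d)) (mul_mem (zpow_mem hx _) (zpow_mem hh0 _))
    rw [map_mul, map_zpow, map_zpow, hxe, hh0e, conj_zpow, conj_zpow, ← zpow_natCast t0 k, ← zpow_natCast t0 d, ← zpow_mul, ← zpow_mul]
    have h3 : g * t0 ^ ((k : ℤ) * Nat.gcdA k d) * g⁻¹ * (g * t0 ^ ((d : ℤ) * Nat.gcdB k d) * g⁻¹) =
        g * t0 ^ ((k : ℤ) * Nat.gcdA k d + (d : ℤ) * Nat.gcdB k d) * g⁻¹ := by
      rw [zpow_add]; group
    rw [h3, ← hbez, zpow_one]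

end

end Cfsg.Agent.Lib.ChevTorus
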