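import Cfsg.Agent.Lib.ChevTorus6

set_option autoImplicit false

/-!
# Certificates for twisted tori, second part (helper40)
-/

namespace Cfsg.Agent.Lib.ChevTorus
open Cfsg.Lie Cfsg.Agent.Lib.ChevX Cfsg.Agent.Lib.ChevGood Cfsg.Agent.Lib.ChevRel Cfsg.Agent.Lib.ChevNPerm
  Cfsg.Agent.Lib.ChevFix Cfsg.Agent.Lib.ChevTab Cfsg.Agent.Lib.EmbE8

/-! ### polynomials as lists -/

/-- evaluation -/
def evL : List ℤ → ℤ → ℤ
  | [], _ => 0
  | a :: L, x => a + x * evL L x

def addL : List ℤ → List ℤ → List ℤ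
  | [], M => M
  | a :: L, [] => a :: L
  | a :: L, b :: M => (a + b) :: addL L M

def scL (c : ℤ) : List ℤ → List ℤ
  | [] => []
  | a :: L => (c * a) :: scL c L

def mulL : List ℤ → List ℤ → List ℤ
  | [], _ => []
  | a :: L, M => addL (scL a M) (0 :: mulL L M)

theorem ev_addL : ∀ (L M : List ℤ) (x : ℤ), evL (addL L M) x = evL L x + evL M x
  | [], M, x => by simp [addL, evL]
  | a :: L, [], x => by simp [addL, evL]
  | a :: L, b :: M, x => by simp only [addL, evL, ev_addL L M x]; ring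

theorem ev_scL (c : ℤ) : ∀ (L : List ℤ) (x : ℤ), evL (scL c L) x = c * evL L x
  | [], x => by simp [scL, evL]
  | a :: L, x => by simp only [scL, evL, ev_scL c L x]; ring

theorem ev_mulL : ∀ (L M : List ℤ) (x : ℤ), evL (mulL L M) x = evL L x * evL M x
  | [], M, x => by simp [mulL, evL]
  | a :: L, M, x => by
    rw [mulL, ev_addL, ev_scL]
    simp only [evL, ev_mulL L M x]; ring

theorem sum_ev : ∀ (L : List ℤ) (n : ℕ) (x : ℤ), L.length ≤ n → ∑ k ∈ Finset.range n, L.getD k 0 * x ^ k = evL L x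
  | [], n, x, _ => by simp [evL]
  | a :: L, 0, x, h => by simp at h
  | a :: L, n + 1, x, h => by
    rw [Finset.sum_range_succ', evL, ← sum_ev L n x (by simpa using h), Finset.mul_sum]
    simp only [List.getD_cons_succ, List.getD_cons_zero, pow_zero, mul_one]
    rw [add_comm]
    congr 1
    exact Finset.sum_congr rfl fun k _ => by ring

/-- a certificate `F = m - v P` -/
structure PC where
  m : ℕ
  v : List ℤ
  sel : Bool

def PC.ok (n : ℕ) (P : Bool → List ℤ) (F : ℕ → ℤ) (c : PC) : Bool :=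
  decide (0 < c.m) && decide (c.m ≤ 3) && decide ((mulL c.v (P c.sel)).length ≤ n) && decide (0 < n) &&
  decide (∀ k ∈ List.range n, F k = (if k = 0 then (c.m : ℤ) else 0) - (mulL c.v (P c.sel)).getD k 0)

theorem PC.not_dvd {n : ℕ} {P : Bool → List ℤ} {F : ℕ → ℤ} {c : PC} (h : PC.ok n P F c = true) {q : ℤ} {N' : ℤ} {P' : Bool → ℤ}
    (hP' : ∀ b, P' b ∣ N' ∧ P' b ∣ evL (P b) q ∧ 3 < P' b) : ¬ N' ∣ ∑ k ∈ Finset.range n, F k * q ^ k := by
  simp only [PC.ok, Bool.and_eq_true, decide_eq_true_eq, List.mem_range] at h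
  obtain ⟨⟨⟨⟨h1, h2⟩, h3⟩, h4⟩, h5⟩ := h
  intro hN
  have h6 : ∑ k ∈ Finset.range n, F k * q ^ k = c.m - evL c.v q * evL (P c.sel) q := by
    rw [← ev_mulL, ← sum_ev _ n q h3, Finset.sum_congr rfl fun k hk => by rw [h5 k (Finset.mem_range.mp hk)]]
    simp only [sub_mul]
    rw [Finset.sum_sub_distrib]
    congr 1
    rw [Finset.sum_eq_single 0]
    · simp
    · intro k _ hk; rw [if_neg hk, zero_mul]
    · intro h; exact absurd (Finset.mem_range.mpr h4) h
  obtain ⟨a1, a2, a3⟩ := hP' c.sel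
  have h7 := a1.trans hN
  rw [h6] at h7
  have h8 : P' c.sel ∣ (c.m : ℤ) := by
    have := dvd_add h7 (Dvd.dvd.mul_left a2 (evL c.v q))
    rwa [sub_add_cancel] at this
  have h9 := Int.le_of_dvd (by exact_mod_cast h1) h8
  omega

/-! ### the certificate with a divisor of the order -/

section build
variable {D : ChevalleyDatum} {A : Tab} {G : Good D} (hW : ∀ i < D.rank, ∀ s < D.nroots, D.reflectRoot i s = wT A i s)
  {R : ℕ → ℕ → ℤ} (hR : G.rv = R) (C : TC) (hC : TC.basic D A R C = true)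

include hW hR hC in
/-- torus data with the values of the exponents -/
theorem TC.toTD' (q N : ℕ) (hN : (N : ℤ) = (q : ℤ) ^ D.rank + ∑ i ∈ Finset.range D.rank, C.c.getD i 0 * (q : ℤ) ^ i) :
    ∃ T : TD G q N, T.l.map Fin.val = C.l ∧ (T.α : ℕ) = C.as.getD 0 0 ∧
      ∀ j : Fin D.rank, T.M (simpF G j) = ∑ i ∈ Finset.range D.rank, mm C.m j i * (q : ℤ) ^ i := by
  refine ⟨(C.toTD hW hR hC q N hN).1, (C.toTD hW hR hC q N hN).2.1, (C.toTD hW hR hC q N hN).2.2, fun j => ?_⟩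
  rw [Finset.sum_range, (C.toTD hW hR hC q N hN).1.M_simple j]
  rfl

include hW hR hC in
/-- the two hypotheses of the main theorem from the certificate -/
theorem TC.hyps' {q N N' : ℕ} (hdvd : N' ∣ N) (hNq : N'.Coprime q) (T : TD G q N) (hT : T.l.map Fin.val = C.l) (hα : (T.α : ℕ) = C.as.getD 0 0)
    (hrows : TC.rowsOK D A R C = true) (hseps : TC.sepsOK D C = true)
    (hE1 : ∀ r ∈ C.rows, ¬ (N' : ℤ) ∣ ∑ k ∈ Finset.range D.rank, r.f.getD k 0 * (q : ℤ) ^ k)
    (hE2 : ∀ r ∈ C.rows2, ¬ (N' : ℤ) ∣ ∑ k ∈ Finset.range D.rank, (r.f.getD k 0 - r.d.getD k 0) * (q : ℤ) ^ k) :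
    (∀ s, ¬ (N' : ℤ) ∣ T.M s) ∧
    (∀ w ∈ Subgroup.closure (Set.range (refl G)), w * wl G T.l = wl G T.l * w → (N' : ℤ) ∣ T.M (w T.α) - 1 → w T.α = T.α) := by
  have hdvdz : (N' : ℤ) ∣ N := by exact_mod_cast hdvd
  simp only [TC.rowsOK, Bool.and_eq_true, List.all_eq_true, decide_eq_true_eq, List.mem_range] at hrows
  obtain ⟨⟨hr1, hr2⟩, hcov⟩ := hrows
  simp only [TC.basic, Bool.and_eq_true, decide_eq_true_eq] at hC
  have hlen := hC.1.1.1.1.1.1.1
  have hch := hC.1.1.1.1.1.2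
  have h40 := hC.1.1.1.1.2
  have has : ∀ k ≤ D.rank, C.as.getD k 0 = ((wl G T.l ^ k) T.α : Fin D.nroots) := by
    intro k hk
    have h1 := row_spec hW C T hT hch h40 k (by rw [hlen]; omega)
    rw [h1]
    have h2 : (⟨C.as.getD 0 0, h40⟩ : Fin D.nroots) = T.α := Fin.ext hα.symm
    rw [h2]
  have hrow : ∀ r : Row, TC.rowOK D A R C r = true → D.rank ≤ r.orb.length ∧ chainB (actT A C.l) r.orb = true ∧
      ∃ h0 : r.orb.getD 0 0 < D.nroots, (N' : ℤ) ∣ (∑ k ∈ Finset.range D.rank, r.d.getD k 0 * q ^ k) *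
        T.M ⟨r.orb.getD 0 0, h0⟩ - ∑ k ∈ Finset.range D.rank, r.f.getD k 0 * q ^ k := by
    intro r hr
    simp only [TC.rowOK, Bool.and_eq_true, decide_eq_true_eq, combB, List.mem_range] at hr
    obtain ⟨⟨⟨h1, h2⟩, h3⟩, h4⟩ := hr
    refine ⟨h1, h2, h3, hdvdz.trans ?_⟩
    apply T.comb ⟨r.orb.getD 0 0, h3⟩ (fun k => r.d.getD k 0) (fun k => r.f.getD k 0)
    intro j hj
    have h5 := h4 j hj
    rw [← hR] at h5
    calc _ = ∑ k ∈ Finset.range D.rank, r.d.getD k 0 * G.rv (r.orb.getD k 0) j := Finset.sum_congr rfl fun k hk => by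
          rw [row_spec hW C T hT h2 h3 k (lt_of_lt_of_le (Finset.mem_range.mp hk) h1)]
      _ = _ := h5
      _ = _ := Finset.sum_congr rfl fun k hk => by rw [has k (Finset.mem_range.mp hk).le]
  have hcop : ∀ k : ℕ, IsCoprime (N' : ℤ) ((q : ℤ) ^ k) := fun k => by
    exact (Int.isCoprime_iff_gcd_eq_one.mpr (by simpa using hNq)).pow_right
  constructor
  · intro s hs
    obtain ⟨r, hr, hsr⟩ := hcov s s.2
    obtain ⟨h1, h2, h3, h4⟩ := hrow r (hr1 r hr)
    obtain ⟨k, hk, hks⟩ := List.getElem_of_mem hsr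
    have h5 : s = (wl G T.l ^ k) ⟨r.orb.getD 0 0, h3⟩ := by
      apply Fin.ext
      rw [← row_spec hW C T hT h2 h3 k hk, List.getD_eq_getElem _ _ hk, hks]
    have h6 := hdvdz.trans (T.M_pow ⟨r.orb.getD 0 0, h3⟩ k)
    rw [← h5] at h6
    have h7 : (N' : ℤ) ∣ q ^ k * T.M ⟨r.orb.getD 0 0, h3⟩ := by
      have := dvd_sub hs h6
      rwa [sub_sub_cancel] at this
    have h8 : (N' : ℤ) ∣ T.M ⟨r.orb.getD 0 0, h3⟩ := (hcop k).dvd_of_dvd_mul_left h7
    apply hE1 r hr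
    have := dvd_sub (Dvd.dvd.mul_left h8 (∑ k ∈ Finset.range D.rank, r.d.getD k 0 * (q : ℤ) ^ k)) h4
    rwa [sub_sub_cancel] at this
  · intro w hw hc hM
    by_contra hne
    set s := w T.α with hs
    have hcp : ∀ k : ℕ, w * (wl G T.l) ^ k = (wl G T.l) ^ k * w := fun k =>
      (Commute.pow_right (show Commute w (wl G T.l) from hc) k).eq
    have hwl : wl G T.l ∈ Subgroup.closure (Set.range (refl G)) := by
      unfold wl
      exact Subgroup.list_prod_mem _ (by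
        intro x hx
        obtain ⟨i, -, rfl⟩ := List.mem_map.mp hx
        exact Subgroup.subset_closure ⟨i, rfl⟩)
    have hprs : ∀ k : ℕ, pr D s ((wl G T.l ^ k) s) = pr D T.α ((wl G T.l ^ k) T.α) := by
      intro k
      have h1 : (wl G T.l ^ k) s = w ((wl G T.l ^ k) T.α) := by
        rw [hs, ← Equiv.Perm.mul_apply, ← hcp k, Equiv.Perm.mul_apply]
      rw [h1]
      exact pr_W G hw T.α _
    obtain ⟨r, hr, hsr⟩ := hcov s s.2
    obtain ⟨h1, h2, h3, h4⟩ := hrow r (hr1 r hr)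
    obtain ⟨k, hk, hks⟩ := List.getElem_of_mem hsr
    have h5 : s = (wl G T.l ^ k) ⟨r.orb.getD 0 0, h3⟩ := by
      apply Fin.ext
      rw [← row_spec hW C T hT h2 h3 k hk, List.getD_eq_getElem _ _ hk, hks]
    simp only [TC.sepsOK, List.all_eq_true, Bool.or_eq_true, List.any_eq_true] at hseps
    rcases hseps r hr with h6 | h6
    · simp only [TC.sepOK, Bool.and_eq_true, decide_eq_true_eq] at h6
      obtain ⟨h6, h7⟩ := h6
      apply h7
      have e1 := row_spec hW C T hT h2 h3 r.sep (by omega)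
      have e2 := has r.sep h6.le
      have e3 : pr D (⟨r.orb.getD 0 0, h3⟩ : Fin D.nroots) ((wl G T.l ^ r.sep) ⟨r.orb.getD 0 0, h3⟩ : Fin D.nroots) =
          pr D s ((wl G T.l ^ r.sep) s : Fin D.nroots) := by
        have e4 := pr_W G (pow_mem hwl k) ⟨r.orb.getD 0 0, h3⟩ ((wl G T.l ^ r.sep) ⟨r.orb.getD 0 0, h3⟩)
        rw [← Equiv.Perm.mul_apply, ← pow_add, add_comm, pow_add, Equiv.Perm.mul_apply, ← h5] at e4
        exact e4.symm
      rw [e1, e2, ← hα]
      exact e3.trans (hprs _)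
    · rcases h6 s hsr with h7 | ⟨r', hr', h7⟩
      · apply hne
        apply Fin.ext
        rw [hα]
        exact Nat.eq_of_beq_eq_true h7
      · have h7 := Nat.eq_of_beq_eq_true h7
        obtain ⟨g1, g2, g3, g4⟩ := hrow r' (hr2 r' hr')
        have g5 : (⟨r'.orb.getD 0 0, g3⟩ : Fin D.nroots) = s := Fin.ext h7
        rw [g5] at g4
        apply hE2 r' hr'
        have g6 := dvd_sub g4 (Dvd.dvd.mul_left hM (∑ k ∈ Finset.range D.rank, r'.d.getD k 0 * (q : ℤ) ^ k))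
        have g7 : ∑ k ∈ Finset.range D.rank, (r'.f.getD k 0 - r'.d.getD k 0) * (q : ℤ) ^ k =
            -((∑ k ∈ Finset.range D.rank, r'.d.getD k 0 * (q : ℤ) ^ k) * T.M s - (∑ k ∈ Finset.range D.rank, r'.f.getD k 0 * (q : ℤ) ^ k) -
            (∑ k ∈ Finset.range D.rank, r'.d.getD k 0 * (q : ℤ) ^ k) * (T.M s - 1)) := by
          have e : ∑ k ∈ Finset.range D.rank, (r'.f.getD k 0 - r'.d.getD k 0) * (q : ℤ) ^ k =
              ∑ k ∈ Finset.range D.rank, r'.f.getD k 0 * (q : ℤ) ^ k - ∑ k ∈ Finset.range D.rank, r'.d.getD k 0 * (q : ℤ) ^ k := by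
            rw [← Finset.sum_sub_distrib]
            exact Finset.sum_congr rfl fun k _ => by ring
          rw [e]
          ring
        rw [g7, dvd_neg]
        exact g6

end build

end Cfsg.Agent.Lib.ChevTorus
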