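import Cfsg.Agent.Lib.ChevTorus7

set_option autoImplicit false

/-!
# Certificates for twisted tori, third part (helper40)
-/

namespace Cfsg.Agent.Lib.ChevTorus
open Cfsg.Lie Cfsg.Agent.Lib.ChevX Cfsg.Agent.Lib.ChevGood Cfsg.Agent.Lib.ChevRel Cfsg.Agent.Lib.ChevNPerm
  Cfsg.Agent.Lib.ChevBruhat Cfsg.Agent.Lib.ChevFix Cfsg.Agent.Lib.ChevTab Cfsg.Agent.Lib.EmbE8

/-- the certificates of all rows -/
def TC.pcOK (n : ℕ) (P : Bool → List ℤ) (C : TC) (p1 p2 : List PC) : Bool :=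
  Nat.beq p1.length C.rows.length && (Nat.beq p2.length C.rows2.length &&
  ((C.rows.zip p1).all (fun x => PC.ok n P (fun k => x.1.f.getD k 0) x.2) &&
  (C.rows2.zip p2).all (fun x => PC.ok n P (fun k => x.1.f.getD k 0 - x.1.d.getD k 0) x.2)))

theorem exists_zip {α β : Type*} {a : α} : ∀ {l : List α} {m : List β}, a ∈ l → m.length = l.length → ∃ b, (a, b) ∈ l.zip m
  | [], _, h, _ => by simp at h
  | _ :: _, [], _, h => by simp at h
  | x :: l, y :: m, h, hl => by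
    rcases List.mem_cons.mp h with rfl | h
    · exact ⟨y, by simp⟩
    · obtain ⟨b, hb⟩ := exists_zip h (by simpa using hl)
      exact ⟨b, by rw [List.zip_cons_cons]; exact List.mem_cons_of_mem _ hb⟩

theorem TC.pc_sound {n : ℕ} {P : Bool → List ℤ} {C : TC} {p1 p2 : List PC} (h : TC.pcOK n P C p1 p2 = true) {q N' : ℤ} {P' : Bool → ℤ}
    (hP' : ∀ b, P' b ∣ N' ∧ P' b ∣ evL (P b) q ∧ 3 < P' b) :
    (∀ r ∈ C.rows, ¬ N' ∣ ∑ k ∈ Finset.range n, r.f.getD k 0 * q ^ k) ∧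
    (∀ r ∈ C.rows2, ¬ N' ∣ ∑ k ∈ Finset.range n, (r.f.getD k 0 - r.d.getD k 0) * q ^ k) := by
  simp only [TC.pcOK, Bool.and_eq_true, List.all_eq_true] at h
  obtain ⟨h1, h2, h3, h4⟩ := h
  constructor
  · intro r hr
    obtain ⟨b, hb⟩ := exists_zip hr (Nat.eq_of_beq_eq_true h1)
    exact PC.not_dvd (h3 _ hb) hP'
  · intro r hr
    obtain ⟨b, hb⟩ := exists_zip hr (Nat.eq_of_beq_eq_true h2)
    exact PC.not_dvd (h4 _ hb) hP'

/-- coefficient sums of the lift -/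
def kU {D : ChevalleyDatum} {d : ℕ} (cd : CertD D d) (C : TC) (s a : ℕ) : ℤ :=
  ∑ i : Fin D.rank, (∑ k : Fin D.rank, mm C.m k a * cd.B k i) * chevE8.cartan i s

/-- the obstruction check -/
def kapOK {D : ChevalleyDatum} {d : ℕ} (cd : CertD D d) (C : TC) (s1 : ℕ) (κ : ℤ) : Bool :=
  decide (∀ a ∈ List.range D.rank, kU cd C (actT ChevDataE8.A C.l s1) a - (if a = 0 then 0 else kU cd C s1 (a - 1)) = κ * C.c.getD a 0) &&
  decide (kU cd C s1 (D.rank - 1) = -κ)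

theorem hW8 : ∀ i < chevE8.rank, ∀ s < chevE8.nroots, chevE8.reflectRoot i s = wT ChevDataE8.A i s :=
  fun _ hi _ hs => (c3_facts ChevOkE8a.c1 ChevOkE8a.c2 hi hs (ChevOkE8.c3 _ hi)).refl

section
variable {D : ChevalleyDatum} {G : Good D} {q N d : ℕ} (T : TD G q N) (cd : CertD D d) (C : TC) {E : Emb D}

theorem kap_sound (hT : T.l.map Fin.val = C.l)
    (hM : ∀ j : Fin D.rank, T.M (simpF G j) = ∑ i ∈ Finset.range D.rank, mm C.m j i * (q : ℤ) ^ i)
    (hN : (N : ℤ) = (q : ℤ) ^ D.rank + ∑ i ∈ Finset.range D.rank, C.c.getD i 0 * (q : ℤ) ^ i)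
    {s1 : Fin chevE8.nroots} {κ : ℤ} (h : kapOK cd C s1 κ = true) :
    ∑ i : Fin D.rank, T.BM cd i * (chevE8.cartan i (wl G8 (T.l.map (up E)) s1 : Fin chevE8.nroots) - q * chevE8.cartan i s1) = κ * N := by
  simp only [kapOK, Bool.and_eq_true, decide_eq_true_eq, List.mem_range] at h
  obtain ⟨h1, h2⟩ := h
  have hw : ((wl G8 (T.l.map (up E)) s1 : Fin chevE8.nroots) : ℕ) = actT ChevDataE8.A C.l s1 := by
    rw [wl_coe G8 hW8, ← hT, List.map_map]
    rfl
  have hBM : ∀ i : Fin D.rank, T.BM cd i = ∑ a ∈ Finset.range D.rank, (∑ k : Fin D.rank, mm C.m k a * cd.B k i) * (q : ℤ) ^ a := by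
    intro i
    unfold TD.BM
    simp only [hM, Finset.sum_mul]
    rw [Finset.sum_comm]
    exact Finset.sum_congr rfl fun a _ => Finset.sum_congr rfl fun k _ => by ring
  have hU : ∀ s : ℕ, ∑ i : Fin D.rank, T.BM cd i * chevE8.cartan i s = ∑ a ∈ Finset.range D.rank, kU cd C s a * (q : ℤ) ^ a := by
    intro s
    unfold kU
    simp only [hBM, Finset.sum_mul]
    rw [Finset.sum_comm]
    refine Finset.sum_congr rfl fun a _ => Finset.sum_congr rfl fun i _ => Finset.sum_congr rfl fun k _ => by ring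
  have h3 : ∑ i : Fin D.rank, T.BM cd i * (chevE8.cartan i (wl G8 (T.l.map (up E)) s1 : Fin chevE8.nroots) - q * chevE8.cartan i s1) =
      ∑ i : Fin D.rank, T.BM cd i * chevE8.cartan i (actT ChevDataE8.A C.l s1) - q * ∑ i : Fin D.rank, T.BM cd i * chevE8.cartan i s1 := by
    rw [Finset.mul_sum, ← Finset.sum_sub_distrib, hw]
    exact Finset.sum_congr rfl fun i _ => by ring
  have h4 := sum_shift D.rank G.rank_pos (fun a => kU cd C s1 a) (q : ℤ)
  rw [h3, hU, hU, hN]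
  have h5 : ∑ a ∈ Finset.range D.rank, kU cd C (actT ChevDataE8.A C.l s1) a * (q : ℤ) ^ a =
      κ * ∑ i ∈ Finset.range D.rank, C.c.getD i 0 * (q : ℤ) ^ i +
      ∑ a ∈ Finset.range D.rank, (if a = 0 then 0 else kU cd C s1 (a - 1)) * (q : ℤ) ^ a := by
    rw [Finset.mul_sum, ← Finset.sum_add_distrib]
    refine Finset.sum_congr rfl fun a ha => ?_
    have := h1 a (Finset.mem_range.mp ha)
    rw [← mul_assoc, ← this]
    ring
  rw [h5, h4, h2]
  ring

end

end Cfsg.Agent.Lib.ChevTorus
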