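import Cfsg.Agent.Lib.ChevTorus4
import Cfsg.Agent.Lib.ChevOkF4

set_option autoImplicit false
set_option maxRecDepth 1000000

/-! Certificate of a twisted torus of type F4 (machine generated, helper40). -/

namespace Cfsg.Agent.Lib.ChevTorusF4
open Cfsg.Lie Cfsg.Agent.Lib.ChevTorus Cfsg.Agent.Lib.ChevTab

def tc : TC where
  l := [0, 3, 1, 2, 1, 2]
  as := [27, 13, 18, 12, 20]
  m := [[-1, -1, 0, 0], [1, 0, 0, 0], [0, 1, 0, -1], [-1, -1, -1, 1]]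
  c := [1, 0, 0, 0]
  rows := [⟨[0, 1, 17, 42, 47, 46, 30, 5], [0, 1, -2, 1], [2, 0, 0, 0], 1⟩,
    ⟨[2, 15, 24, 43, 45, 32, 23, 4], [-1, 0, 0, -1], [2, 0, 0, 0], 1⟩,
    ⟨[3, 7, 19, 36, 44, 40, 28, 11], [0, -1, 1, -1], [1, 0, 0, 0], 1⟩,
    ⟨[6, 16, 22, 26, 41, 31, 25, 21], [0, -1, 0, -1], [2, 0, 0, 0], 0⟩,
    ⟨[8, 10, 33, 38, 39, 37, 14, 9], [1, -1, -1, 1], [2, 0, 0, 0], 1⟩,
    ⟨[12, 20, 34, 29, 35, 27, 13, 18], [0, -1, 0, 0], [1, 0, 0, 0], 0⟩]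
  rows2 := [⟨[6, 16, 22, 26], [-1, -1, 0, -1], [2, -1, 0, -1], 0⟩,
    ⟨[16, 22, 26, 41], [-2, 0, -1, 0], [3, 0, -1, 0], 0⟩,
    ⟨[22, 26, 41, 31], [1, -1, 0, 1], [2, -1, 0, 1], 0⟩,
    ⟨[26, 41, 31, 25], [-2, 0, 1, 0], [3, 0, 1, 0], 0⟩,
    ⟨[41, 31, 25, 21], [-1, 1, 0, 1], [2, 1, 0, 1], 0⟩,
    ⟨[31, 25, 21, 6], [0, 0, 1, 0], [1, 0, 1, 0], 0⟩,
    ⟨[25, 21, 6, 16], [1, 1, 0, -1], [2, 1, 0, -1], 0⟩,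
    ⟨[21, 6, 16, 22], [0, 0, -1, 0], [1, 0, -1, 0], 0⟩,
    ⟨[12, 20, 34, 29], [-1, -1, 1, -1], [1, -1, 1, -1], 0⟩,
    ⟨[20, 34, 29, 35], [-1, 0, 0, 0], [1, 0, 0, 0], 0⟩,
    ⟨[34, 29, 35, 27], [-1, 1, -1, 1], [1, 1, -1, 1], 0⟩,
    ⟨[29, 35, 27, 13], [-1, 0, 1, 0], [1, 0, 1, 0], 0⟩,
    ⟨[35, 27, 13, 18], [-1, 1, 1, 1], [1, 1, 1, 1], 0⟩,
    ⟨[13, 18, 12, 20], [-1, -1, -1, -1], [1, -1, -1, -1], 0⟩,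
    ⟨[18, 12, 20, 34], [-1, 0, -1, 0], [1, 0, -1, 0], 0⟩]

theorem basic : TC.basic chevF4 ChevDataF4.A (rvT ChevDataF4.A) tc = true := by decide +kernel
theorem rowsOK : TC.rowsOK chevF4 ChevDataF4.A (rvT ChevDataF4.A) tc = true := by decide +kernel
theorem sepsOK : TC.sepsOK chevF4 tc = true := by decide +kernel
theorem smallOK : TC.smallOK chevF4.rank tc = true := by decide +kernel
theorem hW : ∀ i < chevF4.rank, ∀ s < chevF4.nroots, chevF4.reflectRoot i s = wT ChevDataF4.A i s :=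
  fun i hi _ hs => (c3_facts ChevOkF4.c1 ChevOkF4.c2 hi hs (ChevOkF4.c3 i hi)).refl
theorem hR : ChevOkF4.good.rv = rvT ChevDataF4.A := rfl

end Cfsg.Agent.Lib.ChevTorusF4
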