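import Cfsg.Agent.Lib.ChevTorus4
import Cfsg.Agent.Lib.ChevOkG2

set_option autoImplicit false
set_option maxRecDepth 1000000

/-! Certificate of a twisted torus of type G2 (machine generated, helper40). -/

namespace Cfsg.Agent.Lib.ChevTorusG2
open Cfsg.Lie Cfsg.Agent.Lib.ChevTorus Cfsg.Agent.Lib.ChevTab

def tc : TC where
  l := [0, 1, 0, 1]
  as := [7, 8, 2]
  m := [[1, 0], [-1, 1]]
  c := [1, 1]
  rows := [⟨[0, 10, 6], [1, 2], [3, 0], 0⟩,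
    ⟨[1, 5, 11], [-1, 1], [3, 0], 0⟩,
    ⟨[2, 7, 8], [0, 1], [1, 0], 0⟩,
    ⟨[3, 9, 4], [1, 1], [1, 0], 0⟩]
  rows2 := [⟨[0, 10], [0, 1], [2, 1], 0⟩,
    ⟨[10, 6], [0, -1], [1, -1], 0⟩,
    ⟨[6, 0], [-3, -1], [4, -1], 0⟩,
    ⟨[1, 5], [-2, 1], [5, 1], 0⟩,
    ⟨[5, 11], [1, 1], [2, 1], 0⟩,
    ⟨[11, 1], [-1, -1], [1, -1], 0⟩,
    ⟨[2, 7], [-1, 1], [2, 1], 0⟩,
    ⟨[8, 2], [-2, -1], [1, -1], 0⟩,
    ⟨[3, 9], [0, 1], [1, 1], 0⟩,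
    ⟨[9, 4], [-1, -1], [0, -1], 0⟩,
    ⟨[4, 3], [-1, 0], [1, 0], 0⟩]

theorem basic : TC.basic chevG2 ChevDataG2.A (rvT ChevDataG2.A) tc = true := by decide +kernel
theorem rowsOK : TC.rowsOK chevG2 ChevDataG2.A (rvT ChevDataG2.A) tc = true := by decide +kernel
theorem sepsOK : TC.sepsOK chevG2 tc = true := by decide +kernel
theorem smallOK : TC.smallOK chevG2.rank tc = true := by decide +kernel
theorem hW : ∀ i < chevG2.rank, ∀ s < chevG2.nroots, chevG2.reflectRoot i s = wT ChevDataG2.A i s :=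
  fun i hi _ hs => (c3_facts ChevOkG2.c1 ChevOkG2.c2 hi hs (ChevOkG2.c3 i hi)).refl
theorem hR : ChevOkG2.good.rv = rvT ChevDataG2.A := rfl

end Cfsg.Agent.Lib.ChevTorusG2
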