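import Cfsg.Agent.Lib.ClSLn

set_option autoImplicit false

/-! Elements of `GL(V)` commuting with a nontrivial unipotent element. -/

open Matrix Module

namespace Cfsg.Agent.Lib.ClCommUnip

open ClSLn

section aux
variable {F : Type*} [Field F] [Fintype F]

theorem card_aut {W : Type*} [AddCommGroup W] [Module F W] [FiniteDimensional F W] :
    Nat.card (W ≃ₗ[F] W) = Nat.card (GL (Fin (finrank F W)) F) := by
  let b := (finBasis F W).equivFun
  let e1 : (W ≃ₗ[F] W) ≃ ((Fin (finrank F W) → F) ≃ₗ[F] (Fin (finrank F W) → F)) :=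
    { toFun := fun e => (b.symm.trans e).trans b
      invFun := fun e => (b.trans e).trans b.symm
      left_inv := fun e => by ext x; simp
      right_inv := fun e => by ext x; simp }
  rw [Nat.card_congr e1]
  exact Nat.card_congr (((LinearMap.GeneralLinearGroup.generalLinearEquiv F (Fin (finrank F W) → F)).symm.toEquiv).trans
    (Matrix.GeneralLinearGroup.toLin (n := Fin (finrank F W)) (R := F)).symm.toEquiv)

theorem card_GL_dvd {m m' : ℕ} (h : m ≤ m') : Nat.card (GL (Fin m) F) ∣ Nat.card (GL (Fin m') F) := by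
  have h1 := card_GL_formula (F := F) rfl m
  have h2 := card_GL_formula (F := F) rfl m'
  rw [h1, h2]
  apply mul_dvd_mul
  · apply pow_dvd_pow
    apply Nat.div_le_div_right
    apply Nat.mul_le_mul h (by omega)
  · apply Finset.prod_dvd_prod_of_subset
    intro x hx
    rw [Finset.mem_range] at hx ⊢
    omega

theorem pow_fix {V : Type*} [AddCommGroup V] [Module F V] [FiniteDimensional F V] (f : V →ₗ[F] V)
    (hf : Function.Injective f) (W : Submodule F V) (hW : ∀ x ∈ W, f x ∈ W) (m : ℕ) (hm : finrank F W ≤ m)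
    (x : V) (hx : x ∈ W) : (f ^ (Nat.card (GL (Fin m) F))) x = x := by
  haveI : Finite V := Module.finite_of_finite F
  let e : W ≃ₗ[F] W := LinearEquiv.ofInjectiveEndo (f.restrict hW) (by
    intro a b hab
    apply Subtype.ext
    apply hf
    exact congrArg Subtype.val hab)
  have he : ∀ y : W, ((e y : W) : V) = f y := fun y => rfl
  have hpow : ∀ (k : ℕ) (y : W), (((e ^ k) y : W) : V) = (f ^ k) y := by
    intro k
    induction k with
    | zero => intro y; rfl
    | succ k ih =>
      intro y
      rw [pow_succ, pow_succ]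
      change (((e ^ k) (e y) : W) : V) = (f ^ k) (f y)
      rw [ih, he]
  haveI : Finite (W ≃ₗ[F] W) := Finite.of_injective (fun e : W ≃ₗ[F] W => (e : W → W)) DFunLike.coe_injective
  have h1 : e ^ (Nat.card (GL (Fin m) F)) = 1 := by
    obtain ⟨c, hc⟩ := card_GL_dvd (F := F) hm
    rw [hc, ← card_aut (F := F) (W := W), pow_mul, pow_card_eq_one', one_pow]
  have h2 := hpow (Nat.card (GL (Fin m) F)) ⟨x, hx⟩
  rw [h1] at h2
  exact h2.symm

theorem exists_sq_zero {R : Type*} [Ring R] [Nontrivial R] {N : R} (hN : IsNilpotent N) (hN0 : N ≠ 0) :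
    ∃ j : ℕ, N ^ j ≠ 0 ∧ N ^ j * N ^ j = 0 := by
  classical
  let m := Nat.find hN
  have hm : N ^ m = 0 := Nat.find_spec hN
  have hm0 : m ≠ 0 := by
    intro h
    rw [h, pow_zero] at hm
    exact one_ne_zero hm
  have hm1 : m ≠ 1 := by
    intro h
    rw [h, pow_one] at hm
    exact hN0 hm
  refine ⟨m - 1, Nat.find_min hN (by change m - 1 < m; omega), ?_⟩
  rw [← pow_add, show m - 1 + (m - 1) = m + (m - 2) by omega, pow_add, hm, zero_mul]

/-- an invertible map commuting with a nonzero nilpotent map on an `n`-space, `n ≥ 4`, has order dividing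
`|GL_{n-2}(q)| p^2`. -/
theorem pow_eq_one {V : Type*} [AddCommGroup V] [Module F V] [FiniteDimensional F V] (p : ℕ) [hp : Fact p.Prime]
    [CharP F p] (n : ℕ) (hn : 4 ≤ n) (hV : finrank F V = n) (f N : V →ₗ[F] V)
    (hf : Function.Injective f) (hN : IsNilpotent N) (hN0 : N ≠ 0) (hc : Commute f N) :
    f ^ (Nat.card (GL (Fin (n - 2)) F) * p ^ 2) = 1 := by
  haveI : Nontrivial V := Module.nontrivial_of_finrank_pos (R := F) (by omega)
  haveI : Nontrivial (V →ₗ[F] V) := inferInstanceAs (Nontrivial (Module.End F V))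
  obtain ⟨j, hM0, hMM⟩ := exists_sq_zero hN hN0
  set M := N ^ j with hM
  have hcM : ∀ x, f (M x) = M (f x) := fun x => LinearMap.congr_fun (hc.pow_right j).eq x
  have hMMx : ∀ x, M (M x) = 0 := fun x => LinearMap.congr_fun hMM x
  have hrk := M.finrank_range_add_finrank_ker
  rw [hV] at hrk
  have hle : LinearMap.range M ≤ LinearMap.ker M := by
    rintro _ ⟨x, rfl⟩
    exact hMMx x
  have hle2 := Submodule.finrank_mono hle
  have hr0 : 0 < finrank F (LinearMap.range M) := by
    rw [Module.finrank_pos_iff, Submodule.nontrivial_iff_ne_bot]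
    intro h
    exact hM0 (LinearMap.range_eq_bot.1 h)
  set k := Nat.card (GL (Fin (n - 2)) F) with hk
  have hcMk : ∀ (i : ℕ) (x : V), (f ^ i) (M x) = M ((f ^ i) x) := by
    intro i x
    exact LinearMap.congr_fun ((hc.pow_right j).pow_left i).eq x
  have s1 : ∀ x, (f ^ k) (M x) = M x := by
    intro x
    apply pow_fix f hf (LinearMap.range M) _ (n - 2) (by omega)
    · exact ⟨x, rfl⟩
    · rintro _ ⟨y, rfl⟩
      exact ⟨f y, (hcM y).symm⟩
  have s3 : ∀ x, M ((f ^ k) x - x) = 0 := by
    intro x
    rw [map_sub, ← hcMk, s1, sub_self]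
  have hrange : LinearMap.range M ≤ (LinearMap.range M).comap f := by
    rintro _ ⟨y, rfl⟩
    exact ⟨f y, (hcM y).symm⟩
  have s2 : ∀ x, M x = 0 → (f ^ k) x - x ∈ LinearMap.range M := by
    intro x hx
    let fq : (V ⧸ LinearMap.range M) →ₗ[F] (V ⧸ LinearMap.range M) :=
      (LinearMap.range M).mapQ (LinearMap.range M) f hrange
    have hsurj : Function.Surjective fq := by
      intro y
      obtain ⟨y, rfl⟩ := Submodule.Quotient.mk_surjective _ y
      obtain ⟨z, rfl⟩ := (LinearMap.injective_iff_surjective.1 hf) y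
      exact ⟨Submodule.Quotient.mk z, rfl⟩
    have hinj : Function.Injective fq := LinearMap.injective_iff_surjective.2 hsurj
    let W' := (LinearMap.ker M).map (LinearMap.range M).mkQ
    have hW'top : W' < ⊤ := by
      rw [lt_top_iff_ne_top]
      intro h
      apply hM0
      apply LinearMap.ext
      intro y
      have hy : (LinearMap.range M).mkQ y ∈ W' := by rw [h]; trivial
      obtain ⟨z, hz, hzy⟩ := hy
      rw [← sub_eq_zero, ← map_sub, Submodule.mkQ_apply, Submodule.Quotient.mk_eq_zero] at hzy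
      have h1 := hle hzy
      have h2 : M z - M y = 0 := by rw [← map_sub]; exact h1
      have h3 : M z = 0 := hz
      rw [h3, zero_sub, neg_eq_zero] at h2
      exact h2
    have hlt := Submodule.finrank_lt hW'top.ne
    have hq := Submodule.finrank_quotient_add_finrank (LinearMap.range M)
    have h4 := pow_fix fq hinj W' (by
      rintro _ ⟨y, hy, rfl⟩
      refine ⟨f y, ?_, rfl⟩
      change M (f y) = 0
      have hy' : M y = 0 := hy
      rw [← hcM, hy', map_zero]) (n - 2) (by omega) (Submodule.Quotient.mk x) ⟨x, hx, rfl⟩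
    have h5 : ∀ (i : ℕ) (y : V), (fq ^ i) (Submodule.Quotient.mk y) = Submodule.Quotient.mk ((f ^ i) y) := by
      intro i
      induction i with
      | zero => intro y; rfl
      | succ i ih =>
        intro y
        rw [pow_succ, pow_succ]
        change (fq ^ i) (fq (Submodule.Quotient.mk y)) = Submodule.Quotient.mk ((f ^ i) (f y))
        rw [← ih]
        rfl
    rw [h5, Submodule.Quotient.eq] at h4
    exact h4
  set G : V →ₗ[F] V := f ^ k - 1 with hG
  have e2 : ∀ y, G y = (f ^ k) y - y := fun y => rfl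
  have hcub : G ^ 3 = 0 := by
    apply LinearMap.ext
    intro x
    have e1 : (G ^ 3) x = G (G (G x)) := rfl
    rw [e1]
    obtain ⟨z, hz⟩ := s2 _ (s3 x)
    rw [e2 (G x), e2 x, ← hz, e2, s1, sub_self]
    rfl
  haveI : CharP (V →ₗ[F] V) p :=
    charP_of_injective_algebraMap (algebraMap F (Module.End F V)).injective p
  have h3 : G ^ (p ^ 2) = 0 := by
    have hp2 : 3 ≤ p ^ 2 := by have := hp.1.two_le; nlinarith
    rw [show p ^ 2 = 3 + (p ^ 2 - 3) by omega, pow_add, hcub, zero_mul]
  have hcomm1 : Commute (f ^ k) (1 : V →ₗ[F] V) := Commute.one_right _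
  rw [hG, sub_pow_char_pow_of_commute p 2 hcomm1, one_pow, sub_eq_zero] at h3
  rw [pow_mul]
  exact h3

end aux

end Cfsg.Agent.Lib.ClCommUnip
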