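import Cfsg.Agent.Lib.ClSL2
import Cfsg.Agent.Lib.SL2Pair
import Cfsg.Agent.Lib.QuadModule

/-! Dickson: a subgroup of `SL(2,F)`, `F` finite of odd characteristic `p`, with two Sylow `p`-subgroups contains a
copy of `SL(2,p)`. -/

set_option autoImplicit false
set_option linter.unusedSectionVars false

namespace Cfsg.Agent.Lib.ClDickson

open Matrix Cfsg.Agent.Lib.SL2Pair Cfsg.Agent.Lib.SL2Trans Cfsg.Agent.Lib.PSLTwoRec
open scoped MatrixGroups

variable {F : Type*} [Field F]

/-- a `p`-element of `SL(2,F)`, `char F = p`, has trace 2. -/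
theorem trc_of_pow (p : ℕ) [Fact p.Prime] [CharP F p] (g : SL(2, F)) (k : ℕ) (h : g ^ p ^ k = 1) : trc g = 2 := by
  have h1 : ((g : Matrix (Fin 2) (Fin 2) F) - 1) ^ p ^ k = 0 := by
    rw [sub_pow_char_pow_of_commute p k (Commute.one_right _), one_pow, sub_eq_zero,
      ← Matrix.SpecialLinearGroup.coe_pow, h, Matrix.SpecialLinearGroup.coe_one]
  have h2 := Matrix.isNilpotent_trace_of_isNilpotent ⟨_, h1⟩
  have h3 := h2.eq_zero
  rw [Matrix.trace_sub, Matrix.trace_one, sub_eq_zero, Matrix.trace_fin_two] at h3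
  simp only [Fintype.card_fin] at h3
  simpa [trc] using h3

theorem det_eq' (g : SL(2, F)) : g 0 0 * g 1 1 - g 0 1 * g 1 0 = 1 := by
  have := g.2
  rwa [Matrix.det_fin_two] at this

/-- conjugation by an element of `GL`. -/
noncomputable def conjSL (M : GL (Fin 2) F) : SL(2, F) →* SL(2, F) where
  toFun g := ⟨(M : Matrix (Fin 2) (Fin 2) F) * g * ((M⁻¹ : GL (Fin 2) F) : Matrix (Fin 2) (Fin 2) F), by
    rw [Matrix.det_mul, Matrix.det_mul, g.det_coe, mul_one, ← Matrix.det_mul, ← Units.val_mul, mul_inv_cancel,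
      Units.val_one, Matrix.det_one]⟩
  map_one' := by
    ext i j
    simp
  map_mul' g h := by
    apply Matrix.SpecialLinearGroup.ext
    intro i j
    have e : ((M⁻¹ : GL (Fin 2) F) : Matrix (Fin 2) (Fin 2) F) * (M : Matrix (Fin 2) (Fin 2) F) = 1 := by
      rw [← Units.val_mul, inv_mul_cancel, Units.val_one]
    show ((M : Matrix (Fin 2) (Fin 2) F) * ((g : Matrix (Fin 2) (Fin 2) F) * h) *
      ((M⁻¹ : GL (Fin 2) F) : Matrix (Fin 2) (Fin 2) F)) i j =
      ((M : Matrix (Fin 2) (Fin 2) F) * g * ((M⁻¹ : GL (Fin 2) F) : Matrix (Fin 2) (Fin 2) F) *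
      ((M : Matrix (Fin 2) (Fin 2) F) * h * ((M⁻¹ : GL (Fin 2) F) : Matrix (Fin 2) (Fin 2) F))) i j
    have key : (M : Matrix (Fin 2) (Fin 2) F) * ((g : Matrix (Fin 2) (Fin 2) F) * h) *
      ((M⁻¹ : GL (Fin 2) F) : Matrix (Fin 2) (Fin 2) F) =
      ((M : Matrix (Fin 2) (Fin 2) F) * g * ((M⁻¹ : GL (Fin 2) F) : Matrix (Fin 2) (Fin 2) F) *
      ((M : Matrix (Fin 2) (Fin 2) F) * h * ((M⁻¹ : GL (Fin 2) F) : Matrix (Fin 2) (Fin 2) F))) := by
      calc (M : Matrix (Fin 2) (Fin 2) F) * ((g : Matrix (Fin 2) (Fin 2) F) * h) *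
        ((M⁻¹ : GL (Fin 2) F) : Matrix (Fin 2) (Fin 2) F) = M * g * 1 * h * ((M⁻¹ : GL (Fin 2) F) :
          Matrix (Fin 2) (Fin 2) F) := by rw [mul_one, mul_assoc, mul_assoc, mul_assoc, mul_assoc]
        _ = _ := by rw [← e]; simp only [mul_assoc]
    rw [key]

theorem coe_conjSL (M : GL (Fin 2) F) (g : SL(2, F)) : ((conjSL M g : SL(2, F)) : Matrix (Fin 2) (Fin 2) F) =
    (M : Matrix (Fin 2) (Fin 2) F) * g * ((M⁻¹ : GL (Fin 2) F) : Matrix (Fin 2) (Fin 2) F) := rfl

theorem conjSL_eq {M : GL (Fin 2) F} {g h : SL(2, F)}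
    (e : (M : Matrix (Fin 2) (Fin 2) F) * g = (h : Matrix (Fin 2) (Fin 2) F) * M) : conjSL M g = h := by
  apply Subtype.ext
  rw [coe_conjSL, e, mul_assoc, ← Units.val_mul, mul_inv_cancel, Units.val_one, mul_one]

theorem conjSL_injective (M : GL (Fin 2) F) : Function.Injective (conjSL M) := by
  intro g h e
  have e1 := congrArg (fun z : SL(2, F) => ((M⁻¹ : GL (Fin 2) F) : Matrix (Fin 2) (Fin 2) F) *
    (z : Matrix (Fin 2) (Fin 2) F) * (M : Matrix (Fin 2) (Fin 2) F)) e
  have e2 : ((M⁻¹ : GL (Fin 2) F) : Matrix (Fin 2) (Fin 2) F) * (M : Matrix (Fin 2) (Fin 2) F) = 1 := by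
    rw [← Units.val_mul, inv_mul_cancel, Units.val_one]
  have key : ∀ z : SL(2, F), ((M⁻¹ : GL (Fin 2) F) : Matrix (Fin 2) (Fin 2) F) *
    ((conjSL M z : SL(2, F)) : Matrix (Fin 2) (Fin 2) F) * (M : Matrix (Fin 2) (Fin 2) F) = z := by
    intro z
    rw [coe_conjSL]
    calc ((M⁻¹ : GL (Fin 2) F) : Matrix (Fin 2) (Fin 2) F) * ((M : Matrix (Fin 2) (Fin 2) F) * z *
        ((M⁻¹ : GL (Fin 2) F) : Matrix (Fin 2) (Fin 2) F)) * (M : Matrix (Fin 2) (Fin 2) F) =
        (((M⁻¹ : GL (Fin 2) F) : Matrix (Fin 2) (Fin 2) F) * (M : Matrix (Fin 2) (Fin 2) F)) * z *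
        (((M⁻¹ : GL (Fin 2) F) : Matrix (Fin 2) (Fin 2) F) * (M : Matrix (Fin 2) (Fin 2) F)) := by
          simp only [mul_assoc]
      _ = z := by rw [e2, one_mul, mul_one]
  simp only [key] at e1
  exact Subtype.ext e1

theorem frame (u v : SL(2, F)) (hu : trc u = 2) (hv : trc v = 2) (huv : trc (u * v) = 3) (f0 f1 : F)
    (h1 : (v 0 0 - 1) * f0 + v 0 1 * f1 = 0) (h2 : v 1 0 * f0 - (v 0 0 - 1) * f1 = 0)
    (hd : ((u 0 0 - 1) * f0 + u 0 1 * f1) * f1 - (u 1 0 * f0 - (u 0 0 - 1) * f1) * f0 ≠ 0) :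
    ∃ M : GL (Fin 2) F, conjSL M (ClSL2.uS 1) = u ∧ conjSL M (ClSL2.lS 1) = v := by
  have du := det_eq' u
  have dv := det_eq' v
  have hu' : u 0 0 + u 1 1 = 2 := hu
  have hv' : v 0 0 + v 1 1 = 2 := hv
  have huv' : u 0 0 * v 0 0 + u 0 1 * v 1 0 + (u 1 0 * v 0 1 + u 1 1 * v 1 1) = 3 := by
    have := huv
    simp only [trc, Matrix.SpecialLinearGroup.coe_mul, Matrix.mul_apply, Fin.sum_univ_two] at this
    exact this
  have hu1 : u 1 1 = 2 - u 0 0 := by linear_combination hu'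
  have hv1 : v 1 1 = 2 - v 0 0 := by linear_combination hv'
  have hdet : (!![(u 0 0 - 1) * f0 + u 0 1 * f1, f0; u 1 0 * f0 - (u 0 0 - 1) * f1, f1] :
      Matrix (Fin 2) (Fin 2) F).det ≠ 0 := by
    rw [Matrix.det_fin_two_of]
    intro e
    apply hd
    linear_combination e
  rw [hu1] at du huv'
  rw [hv1] at dv huv'
  refine ⟨Matrix.GeneralLinearGroup.mkOfDetNeZero _ hdet, conjSL_eq ?_, conjSL_eq ?_⟩
  · rw [ClSL2.coe_mkGL, ClSL2.coe_uS]
    ext i j
    fin_cases i <;> fin_cases j <;> simp [Matrix.mul_apply, Fin.sum_univ_two]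
    · linear_combination f0 * du
    · ring
    · rw [hu1]; linear_combination f1 * du
    · rw [hu1]; ring
  · rw [ClSL2.coe_mkGL, ClSL2.coe_lS]
    ext i j
    fin_cases i <;> fin_cases j <;> simp [Matrix.mul_apply, Fin.sum_univ_two]
    · linear_combination (-f0) * huv' + u 0 1 * h2 + (u 0 0 - 1) * h1
    · linear_combination -h1
    · rw [hv1]; linear_combination (-f1) * huv' + u 1 0 * h1 - (u 0 0 - 1) * h2
    · rw [hv1]; linear_combination -h2

/-- `u, v` with traces `2, 2` and `tr (uv) = 3` are simultaneously conjugate in `GL` to the standard pair. -/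
theorem exists_conjSL (u v : SL(2, F)) (hu : trc u = 2) (hv : trc v = 2) (huv : trc (u * v) = 3) :
    ∃ M : GL (Fin 2) F, conjSL M (ClSL2.uS 1) = u ∧ conjSL M (ClSL2.lS 1) = v := by
  have dv := det_eq' v
  have hu' : u 0 0 + u 1 1 = 2 := hu
  have hv' : v 0 0 + v 1 1 = 2 := hv
  have huv' : u 0 0 * v 0 0 + u 0 1 * v 1 0 + (u 1 0 * v 0 1 + u 1 1 * v 1 1) = 3 := by
    have := huv
    simp only [trc, Matrix.SpecialLinearGroup.coe_mul, Matrix.mul_apply, Fin.sum_univ_two] at this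
    exact this
  have hu1 : u 1 1 = 2 - u 0 0 := by linear_combination hu'
  have hv1 : v 1 1 = 2 - v 0 0 := by linear_combination hv'
  rw [hu1, hv1] at huv'
  rw [hv1] at dv
  have hbc : v 0 1 ≠ 0 ∨ v 1 0 ≠ 0 := by
    by_contra hcon
    push Not at hcon
    obtain ⟨h1, h2⟩ := hcon
    rw [h1, h2] at huv' dv
    have h3 : (v 0 0 - 1) ^ 2 = 0 := by linear_combination -dv
    have h4 : v 0 0 = 1 := by
      have := pow_eq_zero_iff (two_ne_zero) |>.mp h3
      linear_combination this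
    rw [h4] at huv'
    have h6 : (1 : F) = 0 := by linear_combination - huv'
    exact one_ne_zero h6
  rcases hbc with hb | hc
  · apply frame u v hu hv huv (v 0 1) (-(v 0 0 - 1))
    · ring
    · linear_combination -dv
    · intro e
      apply hb
      linear_combination -e - v 0 1 * huv' - u 0 1 * dv
  · apply frame u v hu hv huv (v 0 0 - 1) (v 1 0)
    · linear_combination -dv
    · ring
    · intro e
      apply hc
      linear_combination e - v 1 0 * huv' - u 1 0 * dv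

variable (p : ℕ) [Fact p.Prime] [CharP F p]

theorem uS_natCast {R : Type*} [Field R] (n : ℕ) : ClSL2.uS (n : R) = ClSL2.uS 1 ^ n := by
  induction n with
  | zero => simp [ClSL2.uS_zero]
  | succ n ih =>
    rw [pow_succ, ← ih]
    apply Subtype.ext
    rw [Matrix.SpecialLinearGroup.coe_mul, ClSL2.coe_uS, ClSL2.coe_uS, ClSL2.coe_uS]
    ext i j
    fin_cases i <;> fin_cases j <;> simp [Matrix.mul_apply, Fin.sum_univ_two, add_comm]

theorem lS_natCast {R : Type*} [Field R] (n : ℕ) : ClSL2.lS (n : R) = ClSL2.lS 1 ^ n := by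
  induction n with
  | zero =>
    rw [pow_zero]
    apply Subtype.ext
    rw [ClSL2.coe_lS, Matrix.SpecialLinearGroup.coe_one]
    ext i j
    fin_cases i <;> fin_cases j <;> simp
  | succ n ih =>
    rw [pow_succ, ← ih]
    apply Subtype.ext
    rw [Matrix.SpecialLinearGroup.coe_mul, ClSL2.coe_lS, ClSL2.coe_lS, ClSL2.coe_lS]
    ext i j
    fin_cases i <;> fin_cases j <;> simp [Matrix.mul_apply, Fin.sum_univ_two, add_comm]

/-- the embedding of `SL(2,p)` -/
noncomputable def emb (M : GL (Fin 2) F) : SL(2, ZMod p) →* SL(2, F) :=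
  (conjSL M).comp (Matrix.SpecialLinearGroup.map (ZMod.castHom (dvd_refl p) F))

theorem emb_injective (M : GL (Fin 2) F) : Function.Injective (emb p M) := by
  intro g h e
  have e1 := conjSL_injective M e
  apply Matrix.SpecialLinearGroup.ext
  intro i j
  have e2 := congrArg (fun z : SL(2, F) => z i j) e1
  simp only [Matrix.SpecialLinearGroup.map_apply_coe, RingHom.mapMatrix_apply, Matrix.map_apply] at e2
  exact (ZMod.castHom (dvd_refl p) F).injective e2

theorem emb_uS (M : GL (Fin 2) F) : emb p M (ClSL2.uS 1) = conjSL M (ClSL2.uS 1) := by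
  show conjSL M _ = _
  congr 1
  apply Subtype.ext
  rw [Matrix.SpecialLinearGroup.map_apply_coe, ClSL2.coe_uS, ClSL2.coe_uS]
  ext i j
  fin_cases i <;> fin_cases j <;> simp

theorem emb_lS (M : GL (Fin 2) F) : emb p M (ClSL2.lS 1) = conjSL M (ClSL2.lS 1) := by
  show conjSL M _ = _
  congr 1
  apply Subtype.ext
  rw [Matrix.SpecialLinearGroup.map_apply_coe, ClSL2.coe_lS, ClSL2.coe_lS]
  ext i j
  fin_cases i <;> fin_cases j <;> simp

theorem range_emb_le (H : Subgroup SL(2, F)) (M : GL (Fin 2) F) (h1 : conjSL M (ClSL2.uS 1) ∈ H)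
    (h2 : conjSL M (ClSL2.lS 1) ∈ H) : (emb p M).range ≤ H := by
  have h : H.comap (emb p M) = ⊤ := by
    apply ClSL2.eq_top_of_uS_lS
    · intro b
      have : ClSL2.uS b = ClSL2.uS 1 ^ b.val := by
        rw [← uS_natCast, ZMod.natCast_zmod_val]
      rw [this]
      apply Subgroup.pow_mem
      rw [Subgroup.mem_comap, emb_uS]
      exact h1
    · intro b
      have : ClSL2.lS b = ClSL2.lS 1 ^ b.val := by
        rw [← lS_natCast, ZMod.natCast_zmod_val]
      rw [this]
      apply Subgroup.pow_mem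
      rw [Subgroup.mem_comap, emb_lS]
      exact h2
  rintro _ ⟨x, rfl⟩
  have : x ∈ H.comap (emb p M) := by rw [h]; exact Subgroup.mem_top x
  exact this

/-- two distinct Sylow subgroups do not centralize each other -/
theorem exists_noncomm {G : Type*} [Group G] [Finite G] (P Q : Sylow p G) (h : P ≠ Q) :
    ∃ x ∈ (P : Subgroup G), ∃ y ∈ (Q : Subgroup G), x * y ≠ y * x := by
  by_contra hcon
  push Not at hcon
  apply h
  have h1 : (P : Subgroup G) ≤ Subgroup.normalizer ((Q : Subgroup G) : Set G) := by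
    intro x hx
    rw [Subgroup.mem_normalizer_iff]
    intro y
    constructor
    · intro hy
      have := hcon x hx y hy
      rw [this, mul_assoc, mul_inv_cancel, mul_one]
      exact hy
    · intro hy
      have := hcon x⁻¹ (inv_mem hx) _ hy
      have e : y = x⁻¹ * (x * y * x⁻¹) * x := by group
      rw [e, this]
      have e2 : x * y * x⁻¹ * x⁻¹ * x = x * y * x⁻¹ := by group
      rw [e2]
      exact hy
  have h2 := P.isPGroup'.inf_normalizer_sylow Q
  have h3 : (P : Subgroup G) ≤ Q := by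
    intro x hx
    have h4 : x ∈ (P : Subgroup G) ⊓ (Q : Subgroup G) := by
      rw [← h2]
      exact ⟨hx, h1 hx⟩
    exact h4.2
  exact (Sylow.ext (P.is_maximal' Q.isPGroup' h3)).symm

variable [Finite F]

theorem exists_pair (hp2 : p ≠ 2) (H : Subgroup SL(2, F)) (hH : 1 < Nat.card (Sylow p H)) :
    ∃ u ∈ H, ∃ v ∈ H, trc u = 2 ∧ trc v = 2 ∧ trc (u * v) = 3 := by
  classical
  haveI : Nontrivial (Sylow p H) := Finite.one_lt_card_iff_nontrivial.mp hH
  obtain ⟨P, Q, hPQ⟩ := exists_pair_ne (Sylow p H)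
  obtain ⟨x, hx, y, hy, hxy⟩ := exists_noncomm p P Q hPQ
  let K := AlgebraicClosure F
  haveI : CharP K p := charP_of_injective_algebraMap (algebraMap F K).injective p
  have htx : trc (x : SL(2, F)) = 2 := by
    obtain ⟨k, hk⟩ := P.isPGroup' ⟨x, hx⟩
    apply trc_of_pow p (x : SL(2, F)) k
    have := congrArg (fun z : P => ((z : H) : SL(2, F))) hk
    simpa using this
  have hty : trc (y : SL(2, F)) = 2 := by
    obtain ⟨k, hk⟩ := Q.isPGroup' ⟨y, hy⟩
    apply trc_of_pow p (y : SL(2, F)) k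
    have := congrArg (fun z : Q => ((z : H) : SL(2, F))) hk
    simpa using this
  let f : SL(2, F) →* SL(2, K) := Matrix.SpecialLinearGroup.map (algebraMap F K)
  have hf : Function.Injective f := by
    intro g h e
    apply Matrix.SpecialLinearGroup.ext
    intro i j
    have e2 := congrArg (fun z : SL(2, K) => z i j) e
    simp only [f, Matrix.SpecialLinearGroup.map_apply_coe, RingHom.mapMatrix_apply, Matrix.map_apply] at e2
    exact (algebraMap F K).injective e2
  haveI : Finite (H.map f) := by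
    haveI : Finite H := inferInstance
    exact Finite.of_equiv H (H.equivMapOfInjective f hf).toEquiv
  have hNC : NC (H.map f) := by
    refine ⟨f x, ⟨x, x.2, rfl⟩, f y, ⟨y, y.2, rfl⟩, ?_, ?_, ?_⟩
    · rw [QuadModule.trc_map, htx, map_ofNat]
    · rw [QuadModule.trc_map, hty, map_ofNat]
    · rw [← map_mul, ← map_mul]
      intro e
      exact hxy (Subtype.ext (hf e))
  obtain ⟨_, ⟨u, hu, rfl⟩, _, ⟨v, hv, rfl⟩, h1, h2, h3⟩ := good_of_NC (p := p) hp2 (H.map f) hNC
  refine ⟨u, hu, v, hv, ?_, ?_, ?_⟩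
  · rw [QuadModule.trc_map, ← map_ofNat (algebraMap F K)] at h1
    exact (algebraMap F K).injective h1
  · rw [QuadModule.trc_map, ← map_ofNat (algebraMap F K)] at h2
    exact (algebraMap F K).injective h2
  · rw [← map_mul, QuadModule.trc_map, ← map_ofNat (algebraMap F K)] at h3
    exact (algebraMap F K).injective h3

/-- **Dickson**: a subgroup of `SL(2,F)` with more than one Sylow `p`-subgroup (`p` odd) contains `SL(2,p)`. -/
theorem exists_SL2p (hp2 : p ≠ 2) (H : Subgroup SL(2, F)) (hH : 1 < Nat.card (Sylow p H)) :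
    ∃ f : SL(2, ZMod p) →* SL(2, F), Function.Injective f ∧ f.range ≤ H := by
  obtain ⟨u, hu, v, hv, h1, h2, h3⟩ := exists_pair p hp2 H hH
  obtain ⟨M, e1, e2⟩ := exists_conjSL u v h1 h2 h3
  refine ⟨emb p M, emb_injective p M, range_emb_le p H M ?_ ?_⟩
  · rw [e1]; exact hu
  · rw [e2]; exact hv

end Cfsg.Agent.Lib.ClDickson
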