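import Cfsg.Agent.Lib.ClSL2

set_option autoImplicit false

open Matrix MatrixGroups Subgroup

namespace Cfsg.Agent.Lib.ClGL2Cls

variable {F : Type*} [Field F]

/-- companion matrix of `X^2 - t X + d`. -/
def comp (t : F) (d : Fˣ) : GL (Fin 2) F :=
  GeneralLinearGroup.mkOfDetNeZero !![0, -(d : F); 1, t] (by simp [det_fin_two])

theorem coe_comp (t : F) (d : Fˣ) : (comp t d : Matrix (Fin 2) (Fin 2) F) = !![0, -(d : F); 1, t] := rfl

/-- scalar matrix. -/
def IsSc (A : Matrix (Fin 2) (Fin 2) F) : Prop := ∃ a : F, A = a • (1 : Matrix (Fin 2) (Fin 2) F)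

theorem isSc_iff {A : Matrix (Fin 2) (Fin 2) F} : IsSc A ↔ A 0 1 = 0 ∧ A 1 0 = 0 ∧ A 0 0 = A 1 1 := by
  constructor
  · rintro ⟨a, rfl⟩
    simp
  · rintro ⟨h1, h2, h3⟩
    refine ⟨A 1 1, ?_⟩
    ext i j
    fin_cases i <;> fin_cases j <;> simp [h1, h2, h3]

theorem exists_noneigen {A : Matrix (Fin 2) (Fin 2) F} (h : ¬ IsSc A) :
    ∃ v : Fin 2 → F, v 0 * (A *ᵥ v) 1 - v 1 * (A *ᵥ v) 0 ≠ 0 := by
  by_contra hcon
  push Not at hcon
  apply h
  rw [isSc_iff]
  have h1 := hcon ![1, 0]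
  have h2 := hcon ![0, 1]
  have h3 := hcon ![1, 1]
  simp [Matrix.mulVec_fin_two] at h1 h2 h3
  refine ⟨h2, h1, ?_⟩
  rw [h1, h2] at h3
  linear_combination -h3

theorem isConj_comp {A : GL (Fin 2) F} (h : ¬ IsSc (A : Matrix (Fin 2) (Fin 2) F)) :
    IsConj (comp (A : Matrix (Fin 2) (Fin 2) F).trace (GeneralLinearGroup.det A)) A := by
  obtain ⟨v, hv⟩ := exists_noneigen h
  set w := (A : Matrix (Fin 2) (Fin 2) F) *ᵥ v with hw
  let P : GL (Fin 2) F := GeneralLinearGroup.mkOfDetNeZero !![v 0, w 0; v 1, w 1] (by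
    rw [det_fin_two_of]
    intro h0
    apply hv
    linear_combination h0)
  rw [isConj_iff]
  refine ⟨P, ?_⟩
  rw [mul_inv_eq_iff_eq_mul]
  apply Units.ext
  have hdet : ((GeneralLinearGroup.det A : Fˣ) : F) = (A : Matrix (Fin 2) (Fin 2) F).det := rfl
  change !![v 0, w 0; v 1, w 1] * !![0, -((GeneralLinearGroup.det A : Fˣ) : F); 1, (A : Matrix (Fin 2) (Fin 2) F).trace] =
    (A : Matrix (Fin 2) (Fin 2) F) * !![v 0, w 0; v 1, w 1]
  rw [hdet, det_fin_two, trace_fin_two]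
  rw [Matrix.mulVec_fin_two] at hw
  have hw0 := congrFun hw 0
  have hw1 := congrFun hw 1
  simp only [cons_val_zero, cons_val_one] at hw0 hw1
  ext i j
  fin_cases i <;> fin_cases j
  · simp [Matrix.mul_apply, Fin.sum_univ_two, hw0]
  · simp [Matrix.mul_apply, Fin.sum_univ_two, hw0, hw1]
    ring
  · simp [Matrix.mul_apply, Fin.sum_univ_two, hw1]
  · simp [Matrix.mul_apply, Fin.sum_univ_two, hw0, hw1]
    ring

theorem isConj_of_trace_det {A B : GL (Fin 2) F} (hA : ¬ IsSc (A : Matrix (Fin 2) (Fin 2) F))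
    (hB : ¬ IsSc (B : Matrix (Fin 2) (Fin 2) F))
    (ht : (A : Matrix (Fin 2) (Fin 2) F).trace = (B : Matrix (Fin 2) (Fin 2) F).trace)
    (hd : (A : Matrix (Fin 2) (Fin 2) F).det = (B : Matrix (Fin 2) (Fin 2) F).det) : IsConj A B := by
  have h1 := isConj_comp hA
  have h2 := isConj_comp hB
  have hd' : GeneralLinearGroup.det A = GeneralLinearGroup.det B := Units.ext hd
  rw [ht, hd'] at h1
  exact h1.symm.trans h2

theorem trace_of_isConj {A B : GL (Fin 2) F} (h : IsConj A B) :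
    (A : Matrix (Fin 2) (Fin 2) F).trace = (B : Matrix (Fin 2) (Fin 2) F).trace := by
  obtain ⟨P, rfl⟩ := isConj_iff.1 h
  have : ((P * A * P⁻¹ : GL (Fin 2) F) : Matrix (Fin 2) (Fin 2) F) =
    (P : Matrix (Fin 2) (Fin 2) F) * (A : Matrix (Fin 2) (Fin 2) F) * ((P⁻¹ : GL (Fin 2) F) : Matrix (Fin 2) (Fin 2) F) := rfl
  rw [this, trace_mul_comm, ← mul_assoc]
  have h2 : ((P⁻¹ : GL (Fin 2) F) : Matrix (Fin 2) (Fin 2) F) * (P : Matrix (Fin 2) (Fin 2) F) = 1 := by
    have := inv_mul_cancel P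
    exact congrArg Units.val this
  rw [h2, one_mul]

theorem det_of_isConj {A B : GL (Fin 2) F} (h : IsConj A B) :
    GeneralLinearGroup.det A = GeneralLinearGroup.det B := by
  obtain ⟨P, rfl⟩ := isConj_iff.1 h
  rw [map_mul, map_mul, map_inv, mul_comm, inv_mul_cancel_left]

theorem comp_notSc (t : F) (d : Fˣ) : ¬ IsSc (comp t d : Matrix (Fin 2) (Fin 2) F) := by
  rw [isSc_iff, coe_comp]
  simp

theorem isSc_of_isConj {A B : GL (Fin 2) F} (h : IsConj A B) (hA : IsSc (A : Matrix (Fin 2) (Fin 2) F)) : A = B := by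
  obtain ⟨a, ha⟩ := hA
  obtain ⟨P, rfl⟩ := isConj_iff.1 h
  rw [eq_mul_inv_iff_mul_eq]
  apply Units.ext
  change (A : Matrix (Fin 2) (Fin 2) F) * (P : Matrix (Fin 2) (Fin 2) F) =
    (P : Matrix (Fin 2) (Fin 2) F) * (A : Matrix (Fin 2) (Fin 2) F)
  rw [ha]
  simp

/-- scalar matrices as elements of `GL_2`. -/
noncomputable def sc (a : Fˣ) : GL (Fin 2) F := GeneralLinearGroup.scalar (Fin 2) a

theorem coe_sc (a : Fˣ) : (sc a : Matrix (Fin 2) (Fin 2) F) = (a : F) • (1 : Matrix (Fin 2) (Fin 2) F) := by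
  ext i j
  fin_cases i <;> fin_cases j <;> simp [sc]

noncomputable def clsMap : (F × Fˣ) ⊕ Fˣ → ConjClasses (GL (Fin 2) F)
  | Sum.inl x => ConjClasses.mk (comp x.1 x.2)
  | Sum.inr a => ConjClasses.mk (sc a)

theorem clsMap_bijective : Function.Bijective (clsMap (F := F)) := by
  constructor
  · rintro (x | a) (y | b) h
    · have h1 : IsConj (comp x.1 x.2) (comp y.1 y.2) := ConjClasses.mk_eq_mk_iff_isConj.1 h
      have h2 := trace_of_isConj h1
      have h3 := congrArg Units.val (det_of_isConj h1)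
      change (comp x.1 x.2 : Matrix (Fin 2) (Fin 2) F).det = (comp y.1 y.2 : Matrix (Fin 2) (Fin 2) F).det at h3
      rw [coe_comp, coe_comp, trace_fin_two_of, trace_fin_two_of] at h2
      rw [coe_comp, coe_comp, det_fin_two_of, det_fin_two_of] at h3
      have e1 : x.1 = y.1 := by simpa using h2
      have e2 : x.2 = y.2 := Units.ext (by simpa using h3)
      rw [Prod.ext e1 e2]
    · exfalso
      have h1 : IsConj (comp x.1 x.2) (sc b) := ConjClasses.mk_eq_mk_iff_isConj.1 h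
      have h2 := isSc_of_isConj h1.symm ⟨b, coe_sc b⟩
      apply comp_notSc x.1 x.2
      rw [← h2]
      exact ⟨b, coe_sc b⟩
    · exfalso
      have h1 : IsConj (sc a) (comp y.1 y.2) := ConjClasses.mk_eq_mk_iff_isConj.1 h
      have h2 := isSc_of_isConj h1 ⟨a, coe_sc a⟩
      apply comp_notSc y.1 y.2
      rw [← h2]
      exact ⟨a, coe_sc a⟩
    · have h1 : IsConj (sc a) (sc b) := ConjClasses.mk_eq_mk_iff_isConj.1 h
      have h2 := isSc_of_isConj h1 ⟨a, coe_sc a⟩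
      have h3 : (sc a : Matrix (Fin 2) (Fin 2) F) = (sc b : Matrix (Fin 2) (Fin 2) F) := by rw [h2]
      rw [coe_sc, coe_sc] at h3
      have h4 := congrFun (congrFun h3 0) 0
      simp at h4
      rw [Units.ext h4]
  · intro C
    obtain ⟨A, rfl⟩ := ConjClasses.mk_surjective C
    by_cases hA : IsSc (A : Matrix (Fin 2) (Fin 2) F)
    · obtain ⟨a, ha⟩ := hA
      have ha0 : a ≠ 0 := by
        rintro rfl
        have hd : (A : Matrix (Fin 2) (Fin 2) F).det ≠ 0 := A.det_ne_zero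
        rw [ha] at hd
        simp at hd
      refine ⟨Sum.inr (Units.mk0 a ha0), ?_⟩
      change ConjClasses.mk (sc (Units.mk0 a ha0)) = ConjClasses.mk A
      congr 1
      apply Units.ext
      rw [coe_sc, ha]
      rfl
    · exact ⟨Sum.inl (_, _), ConjClasses.mk_eq_mk_iff_isConj.2 (isConj_comp hA)⟩

end Cfsg.Agent.Lib.ClGL2Cls
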