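import Cfsg.Agent.Lib.ClSL2
import Cfsg.Prelude.Def_ParabolicCharacters
import Mathlib.Topology.Compactification.OnePoint.ProjectiveLine

set_option autoImplicit false

open Matrix MatrixGroups Subgroup
open scoped commutatorElement

namespace Cfsg.Agent.Lib.ClGL2Pts

theorem card_fixedBy_quotient {G X : Type*} [Group G] [MulAction G X] [MulAction.IsPretransitive G X] (x : X)
    (g : G) : Nat.card (MulAction.fixedBy (G ⧸ MulAction.stabilizer G x) g) = Nat.card (MulAction.fixedBy X g) := by
  have hinj := MulAction.injective_ofQuotientStabilizer G x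
  have hsurj : Function.Surjective (MulAction.ofQuotientStabilizer G x) := by
    intro y
    obtain ⟨h, hh⟩ := MulAction.exists_smul_eq G x y
    exact ⟨QuotientGroup.mk h, hh⟩
  let e : (G ⧸ MulAction.stabilizer G x) ≃ X := Equiv.ofBijective _ ⟨hinj, hsurj⟩
  refine Nat.card_congr (Equiv.subtypeEquiv e ?_)
  intro a
  rw [MulAction.mem_fixedBy, MulAction.mem_fixedBy]
  change _ ↔ g • MulAction.ofQuotientStabilizer G x a = MulAction.ofQuotientStabilizer G x a
  rw [← MulAction.ofQuotientStabilizer_smul]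
  exact ⟨fun h => by rw [h], fun h => hinj h⟩

variable {F : Type*} [Field F]

theorem mem_upper {g : GL (Fin 2) F} : g ∈ Cfsg.upperTriangularGL 2 F ↔ (g : Matrix (Fin 2) (Fin 2) F) 1 0 = 0 := by
  change (g : Matrix (Fin 2) (Fin 2) F).BlockTriangular id ↔ _
  constructor
  · intro h
    exact h (show (0 : Fin 2) < 1 by decide)
  · intro h i j hij
    fin_cases i <;> fin_cases j
    · exact absurd hij (by decide)
    · exact absurd hij (by decide)
    · exact h
    · exact absurd hij (by decide)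

variable [DecidableEq F]

theorem upper_eq_stabilizer : Cfsg.upperTriangularGL 2 F = MulAction.stabilizer (GL (Fin 2) F) (OnePoint.infty : OnePoint F) := by
  ext g
  rw [mem_upper, MulAction.mem_stabilizer_iff, OnePoint.smul_infty_eq_self_iff]

instance : MulAction.IsPretransitive (GL (Fin 2) F) (OnePoint F) := by
  have base : ∀ x : OnePoint F, ∃ g : GL (Fin 2) F, g • (OnePoint.infty : OnePoint F) = x := by
    intro x
    induction x using OnePoint.rec with
    | infty => exact ⟨1, one_smul _ _⟩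
    | coe t =>
      refine ⟨GeneralLinearGroup.mkOfDetNeZero !![t, -1; 1, 0] (by simp [det_fin_two]), ?_⟩
      rw [OnePoint.smul_infty_eq_ite]
      simp [GeneralLinearGroup.mkOfDetNeZero]
  refine ⟨fun x y => ?_⟩
  obtain ⟨g, hg⟩ := base x
  obtain ⟨h, hh⟩ := base y
  refine ⟨h * g⁻¹, ?_⟩
  rw [mul_smul, ← hg, inv_smul_smul, hh]

theorem fixedPointCharacter_eq (g : GL (Fin 2) F) :
    Cfsg.fixedPointCharacter (Cfsg.upperTriangularGL 2 F) g = (Nat.card (MulAction.fixedBy (OnePoint F) g) : ℂ) := by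
  rw [upper_eq_stabilizer, Cfsg.fixedPointCharacter, card_fixedBy_quotient]

theorem infty_mem_fixedBy {g : GL (Fin 2) F} : (OnePoint.infty : OnePoint F) ∈ MulAction.fixedBy (OnePoint F) g ↔
    (g : Matrix (Fin 2) (Fin 2) F) 1 0 = 0 := by
  rw [MulAction.mem_fixedBy, OnePoint.smul_infty_eq_self_iff]

theorem coe_mem_fixedBy {g : GL (Fin 2) F} {x : F} : (x : OnePoint F) ∈ MulAction.fixedBy (OnePoint F) g ↔
    (g : Matrix (Fin 2) (Fin 2) F) 0 0 * x + (g : Matrix (Fin 2) (Fin 2) F) 0 1 =
      x * ((g : Matrix (Fin 2) (Fin 2) F) 1 0 * x + (g : Matrix (Fin 2) (Fin 2) F) 1 1) := by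
  rw [MulAction.mem_fixedBy, OnePoint.smul_some_eq_ite]
  by_cases h : (g : Matrix (Fin 2) (Fin 2) F) 1 0 * x + (g : Matrix (Fin 2) (Fin 2) F) 1 1 = 0
  · rw [if_pos h]
    refine iff_of_false (OnePoint.infty_ne_coe x) ?_
    intro h2
    rw [h, mul_zero] at h2
    have hd : (g : Matrix (Fin 2) (Fin 2) F).det ≠ 0 := g.det_ne_zero
    apply hd
    apply Matrix.exists_mulVec_eq_zero_iff.1
    refine ⟨![x, 1], ?_, ?_⟩
    · intro h0
      have := congrFun h0 1
      simp at this
    · rw [Matrix.mulVec_fin_two]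
      ext i
      fin_cases i
      · simpa using h2
      · simpa using h
  · rw [if_neg h, OnePoint.coe_eq_coe, div_eq_iff h]

end Cfsg.Agent.Lib.ClGL2Pts
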