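import Mathlib

/-! number of nilpotent endomorphisms: `q ^ (n * (n - 1))` -/

namespace Cfsg.Agent.Lib.ClNilCount

open Module Matrix

variable {F : Type*} [Field F]

section Block

variable {k m : Type*} [Fintype k] [Fintype m] [DecidableEq k] [DecidableEq m]

theorem pow_upper (J : Matrix k k F) (B : Matrix k m F) (D : Matrix m m F) (l : ℕ) :
    ∃ X, (fromBlocks J B 0 D) ^ l = fromBlocks (J ^ l) X 0 (D ^ l) := by
  induction l with
  | zero => exact ⟨0, by rw [pow_zero, pow_zero, pow_zero, fromBlocks_one]⟩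
  | succ l ih =>
    obtain ⟨X, hX⟩ := ih
    refine ⟨J ^ l * B + X * D, ?_⟩
    rw [pow_succ, hX, fromBlocks_multiply, pow_succ, pow_succ]
    simp

theorem isNilpotent_upper (J : Matrix k k F) (B : Matrix k m F) (D : Matrix m m F) (hJ : IsNilpotent J) :
    IsNilpotent (fromBlocks J B 0 D) ↔ IsNilpotent D := by
  constructor
  · rintro ⟨l, hl⟩
    obtain ⟨X, hX⟩ := pow_upper J B D l
    rw [hX] at hl
    refine ⟨l, ?_⟩
    have := congrArg toBlocks₂₂ hl
    rw [toBlocks_fromBlocks₂₂] at this
    rw [this]
    rfl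
  · rintro ⟨b, hb⟩
    obtain ⟨a, ha⟩ := hJ
    obtain ⟨X, hX⟩ := pow_upper J B D a
    obtain ⟨Y, hY⟩ := pow_upper J B D b
    refine ⟨a + b, ?_⟩
    rw [pow_add, hX, hY, ha, hb, fromBlocks_multiply]
    simp

/-- matrices with prescribed first block column -/
theorem card_upper [Finite F] (J : Matrix k k F) (hJ : IsNilpotent J) :
    Nat.card {M : Matrix (k ⊕ m) (k ⊕ m) F // IsNilpotent M ∧ M.toBlocks₁₁ = J ∧ M.toBlocks₂₁ = 0} =
      Nat.card F ^ (Fintype.card k * Fintype.card m) * Nat.card {D : Matrix m m F // IsNilpotent D} := by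
  have e : {M : Matrix (k ⊕ m) (k ⊕ m) F // IsNilpotent M ∧ M.toBlocks₁₁ = J ∧ M.toBlocks₂₁ = 0} ≃
      Matrix k m F × {D : Matrix m m F // IsNilpotent D} :=
    { toFun := fun M => (M.1.toBlocks₁₂, ⟨M.1.toBlocks₂₂, by
        have h := M.2.1
        rw [← fromBlocks_toBlocks M.1, M.2.2.1, M.2.2.2] at h
        exact (isNilpotent_upper _ _ _ hJ).1 h⟩)
      invFun := fun P => ⟨fromBlocks J P.1 0 P.2.1, (isNilpotent_upper _ _ _ hJ).2 P.2.2, by simp, by simp⟩
      left_inv := by
        intro M
        apply Subtype.ext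
        change fromBlocks J M.1.toBlocks₁₂ 0 M.1.toBlocks₂₂ = M.1
        conv_rhs => rw [← fromBlocks_toBlocks M.1, M.2.2.1, M.2.2.2]
      right_inv := by
        intro P
        apply Prod.ext
        · exact toBlocks_fromBlocks₁₂ _ _ _ _
        · apply Subtype.ext
          exact toBlocks_fromBlocks₂₂ _ _ _ _ }
  rw [Nat.card_congr e, Nat.card_prod]
  congr 1
  rw [show Matrix k m F = (k → m → F) from rfl, Nat.card_fun, Nat.card_fun, Nat.card_eq_fintype_card (α := k),
    Nat.card_eq_fintype_card (α := m), ← pow_mul, mul_comm]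

end Block

section Cyclic

variable {V : Type*} [AddCommGroup V] [Module F V]

/-- the iterates of a vector under a map, before they vanish, are independent -/
theorem linearIndependent_iter (T : Module.End F V) (v : V) (k : ℕ) (hk : (T ^ k) v = 0)
    (hmin : ∀ j < k, (T ^ j) v ≠ 0) : LinearIndependent F (fun i : Fin k => (T ^ (i : ℕ)) v) := by
  rw [Fintype.linearIndependent_iff]
  intro c hc
  by_contra hcon
  push Not at hcon
  obtain ⟨i0, hi0⟩ := hcon
  classical
  -- smallest index with nonzero coefficient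
  have hex : ∃ j : ℕ, ∃ h : j < k, c ⟨j, h⟩ ≠ 0 := ⟨i0, i0.2, hi0⟩
  obtain ⟨hj, hcj⟩ := Nat.find_spec hex
  set j := Nat.find hex with hjdef
  have hlt : ∀ i : Fin k, (i : ℕ) < j → c i = 0 := by
    intro i hi
    by_contra h
    exact Nat.find_min hex hi ⟨i.2, h⟩
  have h1 := congrArg (T ^ (k - 1 - j)) hc
  rw [map_sum, map_zero] at h1
  rw [Finset.sum_eq_single (⟨j, hj⟩ : Fin k)] at h1
  · rw [map_smul, ← Module.End.mul_apply, ← pow_add] at h1
    have h2 : k - 1 - j + j = k - 1 := by omega
    simp only [] at h1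
    rw [h2] at h1
    rcases smul_eq_zero.1 h1 with h | h
    · exact hcj h
    · exact hmin (k - 1) (by omega) h
  · intro i _ hi
    rcases lt_or_gt_of_ne (fun h => hi (Fin.ext h) : (i : ℕ) ≠ j) with h | h
    · rw [hlt i h, zero_smul, map_zero]
    · rw [map_smul, ← Module.End.mul_apply, ← pow_add]
      have h3 : k - 1 - j + (i : ℕ) = ((i : ℕ) - 1 - j) + k := by omega
      rw [h3, pow_add, Module.End.mul_apply, hk, map_zero, smul_zero]
  · intro h
    exact absurd (Finset.mem_univ _) h

/-- the Jordan block -/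
def Jb (F : Type*) [Field F] (k : ℕ) : Matrix (Fin k) (Fin k) F := Matrix.of fun j i => if (j : ℕ) = i + 1 then 1 else 0

theorem Jb_pow (k l : ℕ) : (Jb F k) ^ l = Matrix.of fun j i : Fin k => if (j : ℕ) = i + l then (1 : F) else 0 := by
  induction l with
  | zero =>
    ext j i
    rw [pow_zero, Matrix.one_apply, Matrix.of_apply]
    simp [Fin.ext_iff]
  | succ l ih =>
    ext j i
    rw [pow_succ, ih, Matrix.mul_apply]
    simp only [Jb, Matrix.of_apply]
    by_cases h : (i : ℕ) + 1 < k
    · rw [Finset.sum_eq_single (⟨(i : ℕ) + 1, h⟩ : Fin k)]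
      · simp only [if_true, mul_one]
        congr 1
        apply propext
        constructor <;> intro h <;> omega
      · intro x _ hx
        rw [if_neg (c := (x : ℕ) = i + 1) (fun h' => hx (Fin.ext h')), mul_zero]
      · intro h'; exact absurd (Finset.mem_univ _) h'
    · rw [Finset.sum_eq_zero, if_neg]
      · have := j.2; omega
      · intro x _
        rw [if_neg (c := (x : ℕ) = i + 1), mul_zero]
        have := x.2; omega

theorem Jb_nil (k : ℕ) : IsNilpotent (Jb F k) := by
  refine ⟨k, ?_⟩
  rw [Jb_pow]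
  ext j i
  rw [Matrix.of_apply, if_neg, Matrix.zero_apply]
  have := j.2
  omega

/-- the shift condition -/
def Sh {k : ℕ} (s : Fin k → V) (T : Module.End F V) : Prop :=
  ∀ i : Fin k, T (s i) = if h : (i : ℕ) + 1 < k then s ⟨i + 1, h⟩ else 0

theorem exists_basis [FiniteDimensional F V] {k : ℕ} (s : Fin k → V) (hs : LinearIndependent F s) :
    ∃ b : Basis (Fin k ⊕ Fin (Module.finrank F V - k)) F V, ∀ i, b (Sum.inl i) = s i := by
  obtain ⟨C, hC⟩ := Submodule.exists_isCompl (Submodule.span F (Set.range s))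
  have h1 : Module.finrank F (Submodule.span F (Set.range s)) = k := by
    rw [finrank_span_eq_card hs, Fintype.card_fin]
  have h2 := Submodule.finrank_add_eq_of_isCompl hC
  have h3 : Module.finrank F C = Module.finrank F V - k := by omega
  refine ⟨((Basis.span hs).prod (Module.finBasisOfFinrankEq F C h3)).map
    (Submodule.prodEquivOfIsCompl _ _ hC), ?_⟩
  intro i
  rw [Basis.map_apply, Submodule.coe_prodEquivOfIsCompl', Basis.prod_apply]
  simp [Basis.span_apply]

theorem card_sh [Finite F] [FiniteDimensional F V] {k : ℕ} (s : Fin k → V) (hs : LinearIndependent F s) :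
    Nat.card {T : Module.End F V // IsNilpotent T ∧ Sh s T} =
      Nat.card F ^ (k * (Module.finrank F V - k)) *
        Nat.card {D : Matrix (Fin (Module.finrank F V - k)) (Fin (Module.finrank F V - k)) F // IsNilpotent D} := by
  obtain ⟨b, hb⟩ := exists_basis s hs
  have h := card_upper (m := Fin (Module.finrank F V - k)) (Jb F k) (Jb_nil k)
  rw [Fintype.card_fin, Fintype.card_fin] at h
  rw [← h]
  apply Nat.card_congr
  refine (LinearMap.toMatrixAlgEquiv b).toEquiv.subtypeEquiv ?_
  intro T
  refine and_congr (IsNilpotent.map_iff (LinearMap.toMatrixAlgEquiv b).injective).symm ?_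
  change _ ↔ (LinearMap.toMatrixAlgEquiv b T).toBlocks₁₁ = _ ∧ (LinearMap.toMatrixAlgEquiv b T).toBlocks₂₁ = 0
  have key : ∀ i : Fin k, b.repr (if h : (i : ℕ) + 1 < k then s ⟨i + 1, h⟩ else 0) =
      if h : (i : ℕ) + 1 < k then Finsupp.single (Sum.inl ⟨i + 1, h⟩) 1 else 0 := by
    intro i
    split_ifs with h
    · rw [← hb, Basis.repr_self]
    · rw [map_zero]
  have key1 : ∀ i j : Fin k, b.repr (if h : (i : ℕ) + 1 < k then s ⟨i + 1, h⟩ else 0) (Sum.inl j) = Jb F k j i := by
    intro i j
    rw [key]
    simp only [Jb, Matrix.of_apply]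
    split_ifs with h h1 h1
    · rw [Finsupp.single_apply, if_pos]
      congr 1
      exact Fin.ext h1.symm
    · rw [Finsupp.single_apply, if_neg]
      intro h2
      apply h1
      rw [← Sum.inl.inj h2]
    · exfalso
      have := j.2
      omega
    · rfl
  have key2 : ∀ (i : Fin k) (j : Fin (Module.finrank F V - k)),
      b.repr (if h : (i : ℕ) + 1 < k then s ⟨i + 1, h⟩ else 0) (Sum.inr j) = 0 := by
    intro i j
    rw [key]
    split_ifs with h
    · rw [Finsupp.single_apply, if_neg (by simp)]
    · rfl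
  constructor
  · intro hT
    constructor
    · ext j i
      rw [Matrix.toBlocks₁₁, Matrix.of_apply, LinearMap.toMatrixAlgEquiv_apply, hb, hT i, key1]
    · ext j i
      rw [Matrix.toBlocks₂₁, Matrix.of_apply, LinearMap.toMatrixAlgEquiv_apply, hb, hT i, key2]
      rfl
  · rintro ⟨h1, h2⟩ i
    apply b.repr.injective
    ext j
    rcases j with j | j
    · rw [key1, ← h1, Matrix.toBlocks₁₁, Matrix.of_apply, LinearMap.toMatrixAlgEquiv_apply, hb]
    · rw [key2, ← hb, ← LinearMap.toMatrixAlgEquiv_apply]
      exact congrFun (congrFun h2 j) i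

theorem sh_iter {k : ℕ} (s : Fin k → V) (T : Module.End F V) (hT : Sh s T) (h0 : 0 < k) (i : ℕ) (hi : i < k) :
    (T ^ i) (s ⟨0, h0⟩) = s ⟨i, hi⟩ := by
  induction i with
  | zero => rfl
  | succ i ih =>
    rw [pow_succ', Module.End.mul_apply, ih (by omega), hT, dif_pos (show ((⟨i, by omega⟩ : Fin k) : ℕ) + 1 < k from hi)]

theorem card_PK [Finite F] [FiniteDimensional F V] (k : ℕ) (hk : k ≤ Module.finrank F V) :
    Nat.card {P : Module.End F V × V // IsNilpotent P.1 ∧ (P.1 ^ k) P.2 = 0 ∧ ∀ j < k, (P.1 ^ j) P.2 ≠ 0} =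
      (∏ i : Fin k, (Nat.card F ^ Module.finrank F V - Nat.card F ^ (i : ℕ))) *
        (Nat.card F ^ (k * (Module.finrank F V - k)) *
        Nat.card {D : Matrix (Fin (Module.finrank F V - k)) (Fin (Module.finrank F V - k)) F // IsNilpotent D}) := by
  classical
  have : Finite V := Module.finite_of_finite F
  have : Fintype F := Fintype.ofFinite F
  have : Fintype V := Fintype.ofFinite V
  have : Finite (Module.End F V) := Finite.of_injective (fun T : Module.End F V => (T : V → V)) DFunLike.coe_injective
  let e : {P : Module.End F V × V // IsNilpotent P.1 ∧ (P.1 ^ k) P.2 = 0 ∧ ∀ j < k, (P.1 ^ j) P.2 ≠ 0} ≃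
      (Σ s : {s : Fin k → V // LinearIndependent F s}, {T : Module.End F V // IsNilpotent T ∧ Sh s.1 T}) :=
    { toFun := fun P => ⟨⟨fun i : Fin k => (P.1.1 ^ (i : ℕ)) P.1.2,
          linearIndependent_iter P.1.1 P.1.2 k P.2.2.1 P.2.2.2⟩, ⟨P.1.1, P.2.1, by
          intro i
          rw [← Module.End.mul_apply, ← pow_succ']
          split_ifs with h
          · rfl
          · have : (i : ℕ) + 1 = k := by have := i.2; omega
            rw [this]
            exact P.2.2.1⟩⟩
      invFun := fun Q => ⟨(Q.2.1, if h : 0 < k then Q.1.1 ⟨0, h⟩ else 0), Q.2.2.1, by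
          by_cases h : 0 < k
          · simp only [dif_pos h]
            obtain ⟨l, rfl⟩ : ∃ l, k = l + 1 := ⟨k - 1, by omega⟩
            rw [pow_succ', Module.End.mul_apply, sh_iter Q.1.1 Q.2.1 Q.2.2.2 h l (by omega), Q.2.2.2, dif_neg]
            simp
          · simp only [dif_neg h, map_zero], by
          intro j hj
          have h : 0 < k := by omega
          simp only [dif_pos h]
          rw [sh_iter Q.1.1 Q.2.1 Q.2.2.2 h j hj]
          exact Q.1.2.ne_zero _⟩
      left_inv := by
        rintro ⟨⟨T, v⟩, h1, h2, h3⟩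
        apply Subtype.ext
        apply Prod.ext
        · rfl
        · change (if h : 0 < k then (T ^ ((⟨0, h⟩ : Fin k) : ℕ)) v else 0) = v
          split_ifs with h
          · rfl
          · have : k = 0 := by omega
            subst this
            exact h2.symm
      right_inv := by
        rintro ⟨⟨s, hs⟩, ⟨T, h1, h2⟩⟩
        apply Sigma.subtype_ext
        · apply Subtype.ext
          funext i
          change (T ^ (i : ℕ)) (if h : 0 < k then s ⟨0, h⟩ else 0) = s i
          rw [dif_pos (show 0 < k from lt_of_le_of_lt (Nat.zero_le _) i.2), sh_iter s T h2]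
        · rfl }
  rw [Nat.card_congr e, Nat.card_sigma, Finset.sum_congr rfl (fun s _ => card_sh s.1 s.2), Finset.sum_const,
    Finset.card_univ, ← Nat.card_eq_fintype_card, smul_eq_mul, card_linearIndependent hk]
  simp only [Nat.card_eq_fintype_card]

theorem card_pairs [Finite F] [FiniteDimensional F V] :
    Nat.card {T : Module.End F V // IsNilpotent T} * Nat.card F ^ Module.finrank F V =
      ∑ k ∈ Finset.range (Module.finrank F V + 1),
      (∏ i : Fin k, (Nat.card F ^ Module.finrank F V - Nat.card F ^ (i : ℕ))) *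
        (Nat.card F ^ (k * (Module.finrank F V - k)) *
        Nat.card {D : Matrix (Fin (Module.finrank F V - k)) (Fin (Module.finrank F V - k)) F // IsNilpotent D}) := by
  classical
  have : Finite V := Module.finite_of_finite F
  have : Finite (Module.End F V) := Finite.of_injective (fun T : Module.End F V => (T : V → V)) DFunLike.coe_injective
  rw [← Finset.sum_congr rfl (fun k hk => card_PK (F := F) (V := V) k (by rw [Finset.mem_range] at hk; omega))]
  rw [← Module.natCard_eq_pow_finrank (K := F) (V := V), ← Nat.card_prod]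
  rw [Finset.sum_range, ← Nat.card_sigma]
  apply Nat.card_congr
  -- the index of a pair
  have hex : ∀ P : {T : Module.End F V // IsNilpotent T} × V, ∃ k, (P.1.1 ^ k) P.2 = 0 := by
    rintro ⟨⟨T, l, hl⟩, v⟩
    exact ⟨l, by simp only [hl]; rfl⟩
  have hlt : ∀ P : {T : Module.End F V // IsNilpotent T} × V, Nat.find (hex P) < Module.finrank F V + 1 := by
    intro P
    have := (linearIndependent_iter P.1.1 P.2 (Nat.find (hex P)) (Nat.find_spec (hex P))
      (fun j hj => Nat.find_min (hex P) hj)).fintype_card_le_finrank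
    rw [Fintype.card_fin] at this
    omega
  exact
    { toFun := fun P => ⟨⟨Nat.find (hex P), hlt P⟩, ⟨(P.1.1, P.2), P.1.2, Nat.find_spec (hex P),
        fun j hj => Nat.find_min (hex P) hj⟩⟩
      invFun := fun Q => (⟨Q.2.1.1, Q.2.2.1⟩, Q.2.1.2)
      left_inv := fun P => rfl
      right_inv := by
        rintro ⟨k, ⟨⟨T, v⟩, h1, h2, h3⟩⟩
        apply Sigma.subtype_ext
        · apply Fin.ext
          exact (Nat.find_eq_iff _).2 ⟨h2, h3⟩
        · rfl }

end Cyclic

section Count

variable (F) [Finite F]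

noncomputable def nilc (n : ℕ) : ℕ := Nat.card {D : Matrix (Fin n) (Fin n) F // IsNilpotent D}

theorem card_end (n : ℕ) : Nat.card {T : Module.End F (Fin n → F) // IsNilpotent T} = nilc F n := by
  rw [nilc]
  apply Nat.card_congr
  refine (LinearMap.toMatrixAlgEquiv' (R := F) (n := Fin n)).toEquiv.subtypeEquiv ?_
  intro T
  exact (IsNilpotent.map_iff (LinearMap.toMatrixAlgEquiv' (R := F) (n := Fin n)).injective).symm

theorem rec (n : ℕ) : nilc F n * Nat.card F ^ n = ∑ k ∈ Finset.range (n + 1),
    (∏ i : Fin k, (Nat.card F ^ n - Nat.card F ^ (i : ℕ))) * (Nat.card F ^ (k * (n - k)) * nilc F (n - k)) := by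
  have h := card_pairs (F := F) (V := Fin n → F)
  rw [card_end, Module.finrank_fin_fun] at h
  exact h

theorem nilc_eq (n : ℕ) : nilc F n = Nat.card F ^ (n * (n - 1)) := by
  set q := Nat.card F with hq
  have hq1 : 1 < q := Finite.one_lt_card
  induction n using Nat.strong_induction_on with
  | _ n ih =>
    rcases Nat.eq_zero_or_pos n with rfl | hn
    · rw [Nat.zero_mul, pow_zero, nilc]
      have : Nat.card {D : Matrix (Fin 0) (Fin 0) F // IsNilpotent D} = 1 := by
        rw [Nat.card_eq_one_iff_unique]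
        refine ⟨⟨fun a b => Subtype.ext (Subsingleton.elim _ _)⟩, ⟨⟨0, IsNilpotent.zero⟩⟩⟩
      exact this
    · have h := rec F n
      rw [← hq] at h
      -- telescoping
      let a : ℕ → ℤ := fun k => (q : ℤ) ^ (n * (n - k)) * ∏ i ∈ Finset.range k, ((q : ℤ) ^ n - q ^ i)
      have h1 : ∀ k, 1 ≤ k → k ≤ n → (∏ i : Fin k, (q ^ n - q ^ (i : ℕ))) * (q ^ (k * (n - k)) * nilc F (n - k)) =
          (∏ i : Fin k, (q ^ n - q ^ (i : ℕ))) * q ^ ((n - k) * (n - 1)) := by
        intro k hk1 hk2
        rw [ih (n - k) (by omega)]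
        congr 1
        rw [← pow_add]
        congr 1
        obtain ⟨m, rfl⟩ : ∃ m, n = k + m := ⟨n - k, by omega⟩
        rw [Nat.add_sub_cancel_left]
        rcases m with _ | m
        · simp
        · have : k + (m + 1) - 1 = k + m := by omega
          rw [this, Nat.add_sub_cancel]
          ring
      have h2 : ∀ k, k ≤ n → ((∏ i : Fin k, (q ^ n - q ^ (i : ℕ)) : ℕ) : ℤ) =
          ∏ i ∈ Finset.range k, ((q : ℤ) ^ n - q ^ i) := by
        intro k hk
        rw [Finset.prod_range, Nat.cast_prod]
        apply Finset.prod_congr rfl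
        intro i _
        rw [Nat.cast_sub (Nat.pow_le_pow_right (by omega) (by have := i.2; omega))]
        push_cast
        rfl
      have h3 : ∀ k, k < n → ((∏ i ∈ Finset.range k, ((q : ℤ) ^ n - q ^ i)) * q ^ ((n - k) * (n - 1))) = a k - a (k + 1) := by
        intro k hk
        simp only [a]
        rw [Finset.prod_range_succ]
        obtain ⟨m, rfl⟩ : ∃ m, n = k + (m + 1) := ⟨n - k - 1, by omega⟩
        have e1 : k + (m + 1) - k = m + 1 := by omega
        have e2 : k + (m + 1) - 1 = k + m := by omega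
        have e3 : k + (m + 1) - (k + 1) = m := by omega
        rw [e1, e2, e3]
        ring
      have h4 : ∀ k, k ≤ n → ∑ j ∈ Finset.range k, (a j - a (j + 1)) = a 0 - a k := by
        intro k _
        induction k with
        | zero => simp
        | succ k ihk => rw [Finset.sum_range_succ, ihk (by omega)]; ring
      have h5 : (nilc F n : ℤ) * (q : ℤ) ^ n = nilc F n + ((q : ℤ) ^ (n * n) - q ^ (n * (n - 1))) := by
        have h6 : (nilc F n : ℤ) * (q : ℤ) ^ n = ((nilc F n * q ^ n : ℕ) : ℤ) := by push_cast; rfl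
        rw [h6, h, Finset.sum_range_succ', Nat.cast_add]
        rw [add_comm]
        congr 1
        · simp
        · have h7 : ∀ k ∈ Finset.range n, ((∏ i : Fin (k + 1), (q ^ n - q ^ (i : ℕ))) *
              (q ^ ((k + 1) * (n - (k + 1))) * nilc F (n - (k + 1)))) =
              (∏ i : Fin (k + 1), (q ^ n - q ^ (i : ℕ))) * q ^ ((n - (k + 1)) * (n - 1)) := by
            intro k hk
            rw [Finset.mem_range] at hk
            exact h1 (k + 1) (by omega) (by omega)
          rw [Finset.sum_congr rfl h7, Nat.cast_sum]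
          have h8 : ∑ k ∈ Finset.range (n + 1), (∏ i ∈ Finset.range k, ((q : ℤ) ^ n - q ^ i)) * q ^ ((n - k) * (n - 1)) =
              q ^ (n * n) := by
            rw [Finset.sum_range_succ, Finset.sum_congr rfl (fun k hk => h3 k (Finset.mem_range.1 hk)), h4 n le_rfl]
            simp only [a, Nat.sub_self, Nat.mul_zero, Nat.zero_mul, pow_zero, Finset.range_zero, Finset.prod_empty,
              Nat.sub_zero]
            ring
          rw [Finset.sum_range_succ'] at h8
          simp only [Finset.range_zero, Finset.prod_empty, one_mul, Nat.sub_zero] at h8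
          rw [← h8, add_sub_cancel_right]
          apply Finset.sum_congr rfl
          intro k hk
          rw [Finset.mem_range] at hk
          rw [Nat.cast_mul, h2 (k + 1) (by omega)]
          push_cast
          rfl
      have h9 : ((nilc F n : ℤ) - q ^ (n * (n - 1))) * ((q : ℤ) ^ n - 1) = 0 := by
        have h10 : (q : ℤ) ^ (n * n) = q ^ (n * (n - 1)) * q ^ n := by
          rw [← pow_add]
          congr 1
          obtain ⟨m, rfl⟩ : ∃ m, n = m + 1 := ⟨n - 1, by omega⟩
          rw [Nat.add_sub_cancel]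
          ring
        rw [h10] at h5
        linear_combination h5
      have h10 : ((q : ℤ) ^ n - 1) ≠ 0 := by
        have : 1 < (q : ℤ) ^ n := one_lt_pow₀ (by exact_mod_cast hq1) (by omega)
        omega
      have h11 := (mul_eq_zero.1 h9).resolve_right h10
      have h12 : (nilc F n : ℤ) = ((q ^ (n * (n - 1)) : ℕ) : ℤ) := by
        push_cast
        linarith
      exact_mod_cast h12

end Count

end Cfsg.Agent.Lib.ClNilCount
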