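import Cfsg.Agent.Lib.ClSymp2
import Cfsg.Agent.Lib.ClSympOrd
import Cfsg.Agent.Lib.ClStab

set_option autoImplicit false

/-! Symplectic groups: transitivity on totally isotropic frames, orders of their pointwise stabilisers. -/
namespace Cfsg.Agent.Lib.ClSpInv

open Cfsg.Agent.Lib.ClIso Cfsg.Agent.Lib.ClSymp Cfsg.Agent.Lib.ClSymp2 Cfsg.Agent.Lib.ClStab Module

section Frames

variable {F : Type*} [Field F] {m : ℕ}

local notation "VV" => (Fin m ⊕ Fin m → F)

/-- the span of `e_0, …, e_{s-1}` -/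
def ES (F : Type*) [Field F] (m s : ℕ) : Submodule F (Fin m ⊕ Fin m → F) where
  carrier := {x | (∀ i : Fin m, x (Sum.inr i) = 0) ∧ ∀ i : Fin m, s ≤ (i : ℕ) → x (Sum.inl i) = 0}
  add_mem' := by
    rintro a b ⟨ha, ha'⟩ ⟨hb, hb'⟩
    exact ⟨fun i => by simp [ha i, hb i], fun i hi => by simp [ha' i hi, hb' i hi]⟩
  zero_mem' := ⟨fun _ => rfl, fun _ _ => rfl⟩
  smul_mem' := by
    rintro c x ⟨ha, ha'⟩
    exact ⟨fun i => by simp [ha i], fun i hi => by simp [ha' i hi]⟩

theorem mem_ES {s : ℕ} {x : VV} : x ∈ ES F m s ↔ (∀ i : Fin m, x (Sum.inr i) = 0) ∧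
    ∀ i : Fin m, s ≤ (i : ℕ) → x (Sum.inl i) = 0 := Iff.rfl

theorem ee_mem_ES {s : ℕ} {i : Fin m} (hi : (i : ℕ) < s) : (ee i : VV) ∈ ES F m s := by
  refine ⟨fun j => by simp [ee], fun j hj => ?_⟩
  have : j ≠ i := by rintro rfl; omega
  simp [ee, this]

theorem eq_sum_of_mem_ES {s : ℕ} {x : VV} (hx : x ∈ ES F m s) :
    x = ∑ i : Fin m, if (i : ℕ) < s then x (Sum.inl i) • (ee i : VV) else 0 := by
  funext k
  rw [Finset.sum_apply]
  rcases k with j | j
  · rw [Finset.sum_eq_single j]
    · split_ifs with h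
      · simp [ee]
      · simp [hx.2 j (by omega)]
    · intro i _ hij
      split_ifs
      · simp [ee, Ne.symm hij]
      · rfl
    · simp
  · rw [hx.1 j]
    symm
    apply Finset.sum_eq_zero
    intro i _
    split_ifs
    · simp [ee]
    · rfl

/-- pointwise stabiliser of `e_0, …, e_{s-1}` -/
def PS (F : Type*) [Field F] (m s : ℕ) : Subgroup (Spg (sympForm (Fin m) F)) where
  carrier := {g | ∀ i : Fin m, (i : ℕ) < s → (g : (Fin m ⊕ Fin m → F) ≃ₗ[F] (Fin m ⊕ Fin m → F)) (ee i) = ee i}
  mul_mem' := by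
    intro a b ha hb i hi
    rw [mul_apply', hb i hi, ha i hi]
  one_mem' := fun _ _ => rfl
  inv_mem' := by
    intro a ha i hi
    conv_lhs => rw [← ha i hi]
    rw [inv_apply_self']

theorem mem_PS {s : ℕ} {g : Spg (sympForm (Fin m) F)} : g ∈ PS F m s ↔
    ∀ i : Fin m, (i : ℕ) < s → (g : VV ≃ₗ[F] VV) (ee i) = ee i := Iff.rfl

theorem PS_fix {s : ℕ} {g : Spg (sympForm (Fin m) F)} (hg : g ∈ PS F m s) {x : VV} (hx : x ∈ ES F m s) :
    (g : VV ≃ₗ[F] VV) x = x := by
  rw [eq_sum_of_mem_ES hx, map_sum]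
  apply Finset.sum_congr rfl
  intro i _
  split_ifs with h
  · rw [map_smul, hg i h]
  · rw [map_zero]

/-- one step of transitivity. -/
theorem trans_step {s : ℕ} (hs : s < m) {v : VV} (h1 : ∀ i : Fin m, (i : ℕ) < s → v (Sum.inr i) = 0)
    (h2 : v ∉ ES F m s) : ∃ g ∈ PS F m s, (g : VV ≃ₗ[F] VV) (ee ⟨s, hs⟩) = v := by
  classical
  have hB := isSymp_sympForm (l := Fin m) (F := F)
  let T : Finset (Fin m) := Finset.univ.filter (fun i => s ≤ (i : ℕ))
  have hT : ∀ i : Fin m, i ∈ T ↔ s ≤ (i : ℕ) := fun i => by simp [T]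
  -- decomposition
  let a : VV := fun k => Sum.casesOn k (fun i => if (i : ℕ) < s then v (Sum.inl i) else 0) (fun _ => 0)
  let b : VV := v - a
  have ha : a ∈ ES F m s := by
    refine ⟨fun i => rfl, fun i hi => ?_⟩
    change (if (i : ℕ) < s then v (Sum.inl i) else 0) = 0
    rw [if_neg (by omega)]
  have hbT : b ∈ US T := by
    rw [mem_US]
    intro i hi
    rw [hT, not_le] at hi
    constructor
    · change v (Sum.inl i) - (if (i : ℕ) < s then v (Sum.inl i) else 0) = 0
      rw [if_pos hi, sub_self]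
    · change v (Sum.inr i) - 0 = 0
      rw [h1 i hi, sub_zero]
  have hb0 : b ≠ 0 := by
    intro h
    apply h2
    have : v = a := sub_eq_zero.1 h
    rw [this]
    exact ha
  have hperp : ∀ w ∈ (US T : Submodule F VV), ∀ i : Fin m, (i : ℕ) < s → sympForm (Fin m) F w (ee i) = 0 := by
    intro w hw i hi
    rw [hB.skew, form_e, (hw i (by rw [hT]; omega)).2]
    simp
  have heT : (ee ⟨s, hs⟩ : VV) ∈ US T := ee_mem (by rw [hT])
  have he0 : (ee ⟨s, hs⟩ : VV) ≠ 0 := by
    intro h
    have := congrFun h (Sum.inl ⟨s, hs⟩)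
    simp [ee] at this
  obtain ⟨g1, hg1, hg1e⟩ := trans_one hB (US_nondeg T) heT hbT he0 hb0
  have hg1PS : g1 ∈ PS F m s := fun i hi => TU_fix hB hg1 (fun w hw => hperp w hw i hi)
  obtain ⟨z0, hz0T, hz0⟩ := US_nondeg T b hbT hb0
  have hz0' : sympForm (Fin m) F z0 b ≠ 0 := by rw [hB.skew]; exact neg_ne_zero.2 hz0
  let z : VV := (sympForm (Fin m) F z0 b)⁻¹ • z0
  have hzT : z ∈ (US T : Submodule F VV) := Submodule.smul_mem _ _ hz0T
  have hzb : sympForm (Fin m) F z b = 1 := by
    change sympForm (Fin m) F ((sympForm (Fin m) F z0 b)⁻¹ • z0) b = 1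
    rw [map_smul, LinearMap.smul_apply, smul_eq_mul, inv_mul_cancel₀ hz0']
  have haw : ∀ w ∈ (US T : Submodule F VV), sympForm (Fin m) F a w = 0 := by
    intro w hw
    rw [eq_sum_of_mem_ES ha, map_sum, LinearMap.sum_apply]
    apply Finset.sum_eq_zero
    intro i _
    split_ifs with h
    · rw [map_smul, LinearMap.smul_apply, hB.skew, hperp w hw i h, neg_zero, smul_zero]
    · rw [map_zero, LinearMap.zero_apply]
  have hae : ∀ i : Fin m, sympForm (Fin m) F a (ee i) = 0 := by
    intro i
    rw [hB.skew, form_e, ha.1 i]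
    simp
  have hza : sympForm (Fin m) F z a = 0 := by rw [hB.skew, haw z hzT, neg_zero]
  refine ⟨sh hB 1 z a * g1, mul_mem ?_ hg1PS, ?_⟩
  · intro i hi
    rw [sh_apply hB 1 z a hza, hperp z hzT i hi, hae i]
    simp
  · rw [mul_apply', hg1e, sh_apply hB 1 z a hza, hzb, haw b hbT]
    simp [b]

/-- transitivity on totally isotropic frames. -/
theorem trans_frame {s : ℕ} (hs : s ≤ m) (w : Fin s → VV) (hw : LinearIndependent F w)
    (hti : ∀ i j, sympForm (Fin m) F (w i) (w j) = 0) :
    ∃ g : Spg (sympForm (Fin m) F), ∀ i : Fin s, (g : VV ≃ₗ[F] VV) (ee (Fin.castLE hs i)) = w i := by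
  induction s with
  | zero => exact ⟨1, fun i => i.elim0⟩
  | succ s ih =>
    have hs' : s ≤ m := by omega
    obtain ⟨g, hg⟩ := ih hs' (fun i => w i.castSucc) (hw.comp _ (Fin.castSucc_injective s))
      (fun i j => hti _ _)
    have hg' : ∀ i : Fin m, ∀ (hi : (i : ℕ) < s), (g : VV ≃ₗ[F] VV) (ee i) = w (Fin.castSucc ⟨i, hi⟩) := by
      intro i hi
      exact hg ⟨i, hi⟩
    let v : VV := ((g⁻¹ : Spg (sympForm (Fin m) F)) : VV ≃ₗ[F] VV) (w (Fin.last s))
    have hgv : (g : VV ≃ₗ[F] VV) v = w (Fin.last s) := apply_inv_self' g _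
    obtain ⟨h, hh, hhe⟩ := trans_step (F := F) (m := m) (s := s) (by omega) (v := v) (by
      intro i hi
      have h1 := Spg_apply g (ee i) v
      rw [hgv, hg' i hi, hti, form_e] at h1
      exact neg_eq_zero.1 h1.symm) (by
      intro hv
      have h1 := eq_sum_of_mem_ES hv
      have h2 : w (Fin.last s) = ∑ i : Fin m, if hi : (i : ℕ) < s then v (Sum.inl i) • w (Fin.castSucc ⟨i, hi⟩) else 0 := by
        rw [← hgv]
        conv_lhs => rw [h1]
        rw [map_sum]
        apply Finset.sum_congr rfl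
        intro i _
        split_ifs with hi
        · rw [map_smul, hg' i hi]
        · rw [map_zero]
      have h3 : w (Fin.last s) ∈ Submodule.span F (w '' {x | x ≠ Fin.last s}) := by
        rw [h2]
        apply Submodule.sum_mem
        intro i _
        split_ifs with hi
        · apply Submodule.smul_mem
          apply Submodule.subset_span
          exact ⟨_, (Fin.castSucc_lt_last _).ne, rfl⟩
        · exact zero_mem _
      exact hw.notMem_span_image (s := {x | x ≠ Fin.last s}) (x := Fin.last s) (by simp) h3)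
    refine ⟨g * h, ?_⟩
    intro i
    rw [mul_apply']
    refine Fin.lastCases ?_ (fun j => ?_) i
    · have : (Fin.castLE hs (Fin.last s)) = ⟨s, by omega⟩ := rfl
      rw [this, hhe, hgv]
    · have : (Fin.castLE hs (Fin.castSucc j)) = Fin.castLE hs' j := rfl
      rw [this, hh _ (by simp), hg]

end Frames

section Orders

variable {F : Type*} [Field F] [Fintype F] {m : ℕ}

local notation "VV" => (Fin m ⊕ Fin m → F)

theorem card_vanish {ι : Type} [Finite ι] (p : ι → Prop) :
    Nat.card {x : ι → F // ∀ i, p i → x i = 0} = (Fintype.card F) ^ (Nat.card {i // ¬ p i}) := by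
  classical
  haveI : Fintype ι := Fintype.ofFinite ι
  have e : {x : ι → F // ∀ i, p i → x i = 0} ≃ ({i // ¬ p i} → F) :=
    { toFun := fun x i => x.1 i.1
      invFun := fun y => ⟨fun i => if h : p i then 0 else y ⟨i, h⟩, fun i hi => by simp [hi]⟩
      left_inv := fun x => by
        apply Subtype.ext
        funext i
        by_cases h : p i
        · simp [h, x.2 i h]
        · simp [h]
      right_inv := fun y => by
        funext i
        simp [i.2] }
  rw [Nat.card_congr e, Nat.card_fun, Nat.card_eq_fintype_card (α := F)]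

theorem card_fin_ge {s : ℕ} (hs : s ≤ m) : Nat.card {i : Fin m // ¬ (s ≤ (i : ℕ))} = s := by
  have e : {i : Fin m // ¬ (s ≤ (i : ℕ))} ≃ Fin s :=
    { toFun := fun i => ⟨i.1, by have := i.2; omega⟩
      invFun := fun j => ⟨⟨j, by omega⟩, by simp⟩
      left_inv := fun _ => rfl
      right_inv := fun _ => rfl }
  rw [Nat.card_congr e, Nat.card_eq_fintype_card, Fintype.card_fin]

theorem card_fin_lt {s : ℕ} (hs : s ≤ m) : Nat.card {i : Fin m // ¬ ((i : ℕ) < s)} = m - s := by
  have e : {i : Fin m // ¬ ((i : ℕ) < s)} ≃ Fin (m - s) :=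
    { toFun := fun i => ⟨i.1 - s, by have := i.2; have := i.1.2; omega⟩
      invFun := fun j => ⟨⟨j + s, by omega⟩, by simp⟩
      left_inv := fun i => by
        apply Subtype.ext
        apply Fin.ext
        have := i.2
        simp only
        omega
      right_inv := fun j => by
        apply Fin.ext
        simp }
  rw [Nat.card_congr e, Nat.card_eq_fintype_card, Fintype.card_fin]

theorem card_ES {s : ℕ} (hs : s ≤ m) : Nat.card (ES F m s) = (Fintype.card F) ^ s := by
  have e : (ES F m s) ≃ {x : (Fin m) → F // ∀ i : Fin m, s ≤ (i : ℕ) → x i = 0} :=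
    { toFun := fun x => ⟨fun i => x.1 (Sum.inl i), x.2.2⟩
      invFun := fun y => ⟨Sum.elim y.1 0, fun _ => rfl, fun i hi => y.2 i hi⟩
      left_inv := fun x => by
        apply Subtype.ext
        funext k
        rcases k with i | i
        · rfl
        · exact (x.2.1 i).symm
      right_inv := fun _ => rfl }
  rw [Nat.card_congr e, card_vanish (fun i : Fin m => s ≤ (i : ℕ)), card_fin_ge hs]

/-- the set of possible images of the next basis vector. -/
def NS (F : Type*) [Field F] (m s : ℕ) : Set (Fin m ⊕ Fin m → F) :=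
  {v | (∀ i : Fin m, (i : ℕ) < s → v (Sum.inr i) = 0) ∧ v ∉ ES F m s}

theorem card_NS {s : ℕ} (hs : s ≤ m) : Nat.card (NS F m s) = (Fintype.card F) ^ (2 * m - s) - (Fintype.card F) ^ s := by
  classical
  let A : Set VV := {v | ∀ i : Fin m, (i : ℕ) < s → v (Sum.inr i) = 0}
  have hA : Nat.card A = (Fintype.card F) ^ (2 * m - s) := by
    have e : A ≃ (Fin m → F) × {x : (Fin m) → F // ∀ i : Fin m, (i : ℕ) < s → x i = 0} :=
      { toFun := fun x => (fun i => x.1 (Sum.inl i), ⟨fun i => x.1 (Sum.inr i), x.2⟩)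
        invFun := fun y => ⟨Sum.elim y.1 y.2.1, fun i hi => y.2.2 i hi⟩
        left_inv := fun x => by
          apply Subtype.ext
          funext k
          rcases k with i | i <;> rfl
        right_inv := fun _ => rfl }
    rw [Nat.card_congr e, Nat.card_prod, card_vanish (fun i : Fin m => (i : ℕ) < s), card_fin_lt hs, Nat.card_fun,
      Nat.card_eq_fintype_card (α := F), Nat.card_eq_fintype_card (α := Fin m), Fintype.card_fin, ← pow_add]
    congr 1
    omega
  have hsub : (ES F m s : Set VV) ⊆ A := fun x hx i _ => hx.1 i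
  have hNS : NS F m s = A \ (ES F m s : Set VV) := rfl
  have h1 := Set.ncard_diff hsub (Set.toFinite _)
  rw [← hNS] at h1
  have h2 : (ES F m s : Set VV).ncard = (Fintype.card F) ^ s := card_ES hs
  have h3 : A.ncard = (Fintype.card F) ^ (2 * m - s) := hA
  rw [h2, h3] at h1
  exact h1

instance : Finite (Spg (sympForm (Fin m) F)) := by
  haveI : Finite (VV ≃ₗ[F] VV) := Finite.of_injective (fun g => (g : VV → VV)) DFunLike.coe_injective
  infer_instance

set_option synthInstance.maxHeartbeats 400000 in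
theorem card_PS_succ {s : ℕ} (hs : s < m) : Nat.card (PS F m s) =
    ((Fintype.card F) ^ (2 * m - s) - (Fintype.card F) ^ s) * Nat.card (PS F m (s + 1)) := by
  have hcard := card_eq_of_transitive (G := PS F m s) (X := VV) (ee ⟨s, hs⟩) (NS F m s)
    (by
      refine ⟨fun i hi => by simp [ee], fun h => ?_⟩
      have := h.2 ⟨s, hs⟩ (le_refl s)
      simp [ee] at this)
    (by
      rintro ⟨g, hg⟩ x ⟨hx1, hx2⟩
      change (g : VV ≃ₗ[F] VV) x ∈ NS F m s
      refine ⟨fun i hi => ?_, fun h => ?_⟩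
      · have h1 := Spg_apply g (ee i) x
        rw [hg i hi, form_e, form_e, hx1 i hi, neg_inj] at h1
        exact h1
      · apply hx2
        have h1 := PS_fix (inv_mem hg) h
        rw [inv_apply_self'] at h1
        rw [h1]
        exact h)
    (by
      rintro x ⟨hx1, hx2⟩
      obtain ⟨g, hg, hge⟩ := trans_step hs hx1 hx2
      exact ⟨⟨g, hg⟩, hge⟩)
  rw [hcard, card_NS hs.le]
  congr 1
  apply Nat.card_congr
  refine { toFun := fun g => ⟨g.1.1, ?_⟩, invFun := fun g => ⟨⟨g.1, ?_⟩, ?_⟩, left_inv := ?_, right_inv := ?_ }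
  · intro i hi
    rcases Nat.lt_succ_iff_lt_or_eq.1 hi with h | h
    · exact g.1.2 i h
    · have : i = ⟨s, hs⟩ := Fin.ext h
      rw [this]
      exact g.2
  · intro i hi
    exact g.2 i (by omega)
  · exact g.2 ⟨s, hs⟩ (Nat.lt_succ_self s)
  · intro g; rfl
  · intro g; rfl

theorem card_PS {s : ℕ} (hs : s ≤ m) : (Fintype.card F) ^ (s * (s - 1) / 2) * Nat.card (PS F m s) =
    (Fintype.card F) ^ (m ^ 2) * ∏ i ∈ Finset.range (m - s), ((Fintype.card F) ^ (2 * (i + 1)) - 1) := by
  have hq : 0 < Fintype.card F := Fintype.card_pos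
  have hq1 : 1 < Fintype.card F := Fintype.one_lt_card
  induction s with
  | zero =>
    have h0 : PS F m 0 = ⊤ := by
      rw [eq_top_iff]
      intro g _ i hi
      omega
    rw [h0]
    have := ClSympOrd.card_Spg (F := F) m
    simp only [Nat.zero_mul, Nat.zero_div, pow_zero, one_mul, Nat.sub_zero]
    rw [← this]
    exact Nat.card_congr (Equiv.Set.univ _)
  | succ s ih =>
    have h1 := ih (by omega)
    rw [card_PS_succ (by omega)] at h1
    have h2 : m - s = (m - (s + 1)) + 1 := by omega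
    rw [h2, Finset.prod_range_succ] at h1
    have h3 : (Fintype.card F) ^ (2 * m - s) - (Fintype.card F) ^ s =
        (Fintype.card F) ^ s * ((Fintype.card F) ^ (2 * (m - (s + 1) + 1)) - 1) := by
      rw [Nat.mul_sub, mul_one, ← pow_add]
      congr 2
      omega
    rw [h3] at h1
    have hpos : 0 < (Fintype.card F) ^ (2 * (m - (s + 1) + 1)) - 1 := by
      have : 1 < (Fintype.card F) ^ (2 * (m - (s + 1) + 1)) := Nat.one_lt_pow (by omega) hq1
      omega
    apply Nat.eq_of_mul_eq_mul_right hpos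
    have h4 : (s + 1) * (s + 1 - 1) / 2 = s * (s - 1) / 2 + s := by
      have e1 : (s + 1) * (s + 1 - 1) = s * (s - 1) + s * 2 := by
        cases s with
        | zero => rfl
        | succ s => simp only [Nat.add_sub_cancel]; ring
      rw [e1, Nat.add_mul_div_right _ _ (by norm_num)]
    rw [h4, pow_add]
    calc _ = (Fintype.card F) ^ (s * (s - 1) / 2) * ((Fintype.card F) ^ s *
        ((Fintype.card F) ^ (2 * (m - (s + 1) + 1)) - 1) * Nat.card (PS F m (s + 1))) := by ring
      _ = _ := by rw [h1]; ring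

end Orders

end Cfsg.Agent.Lib.ClSpInv
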