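import Cfsg.Agent.Lib.ClSpInv
import Cfsg.Agent.Lib.AltForm

set_option autoImplicit false

/-! Centralisers of involutions of symplectic groups in characteristic two. -/
namespace Cfsg.Agent.Lib.ClSpInv2

open Cfsg.Agent.Lib.ClIso Cfsg.Agent.Lib.ClSymp Cfsg.Agent.Lib.ClSymp2 Cfsg.Agent.Lib.ClStab Module
open Cfsg.Agent.Lib.ClSpInv

section Nil

variable {F V : Type*} [Field F] [AddCommGroup V] [Module F V] {B : LinearMap.BilinForm F V}

/-- `g - 1`. -/
def NN (g : Spg B) : V →ₗ[F] V := (g : V ≃ₗ[F] V).toLinearMap - LinearMap.id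

theorem NN_apply (g : Spg B) (x : V) : NN g x = (g : V ≃ₗ[F] V) x - x := rfl

theorem add_self' [CharP F 2] (x : V) : x + x = 0 := by
  rw [← two_smul F x, CharTwo.two_eq_zero, zero_smul]

theorem gg {g : Spg B} (hg : g * g = 1) (x : V) : (g : V ≃ₗ[F] V) ((g : V ≃ₗ[F] V) x) = x := by
  rw [← mul_apply', hg]
  rfl

theorem NN_NN [CharP F 2] {g : Spg B} (hg : g * g = 1) (x : V) : NN g (NN g x) = 0 := by
  rw [NN_apply, NN_apply, map_sub, gg hg]
  have := add_self' (F := F) ((g : V ≃ₗ[F] V) x)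
  have h2 := add_self' (F := F) x
  calc x - (g : V ≃ₗ[F] V) x - ((g : V ≃ₗ[F] V) x - x) = (x + x) - ((g : V ≃ₗ[F] V) x + (g : V ≃ₗ[F] V) x) := by abel
    _ = 0 := by rw [this, h2, sub_zero]

theorem NN_adj {g : Spg B} (hg : g * g = 1) (x y : V) : B (NN g x) y = B x (NN g y) := by
  rw [NN_apply, NN_apply, map_sub, map_sub, LinearMap.sub_apply]
  have h := Spg_apply g ((g : V ≃ₗ[F] V) x) y
  rw [gg hg] at h
  rw [h]

theorem NN_iso [CharP F 2] {g : Spg B} (hg : g * g = 1) (x y : V) : B (NN g x) (NN g y) = 0 := by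
  rw [NN_adj hg, NN_NN hg, map_zero]

theorem NN_ker {g : Spg B} (hB : IsSymp B) (hg : g * g = 1) (x : V) (h : ∀ w ∈ LinearMap.range (NN g), B x w = 0) :
    NN g x = 0 := by
  by_contra hne
  obtain ⟨y, hy⟩ := hB.nondeg _ hne
  apply hy
  rw [NN_adj hg]
  exact h _ ⟨y, rfl⟩

/-- the form on the image. -/
noncomputable def gam (g : Spg B) (w w' : LinearMap.range (NN g)) : F := B w.2.choose w'.1

theorem gam_eq {g : Spg B} (hg : g * g = 1) (x : V) (w' : LinearMap.range (NN g)) :
    gam g ⟨NN g x, x, rfl⟩ w' = B x w' := by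
  unfold gam
  set x' := (⟨NN g x, x, rfl⟩ : LinearMap.range (NN g)).2.choose
  have hx' : NN g x' = NN g x := (⟨NN g x, x, rfl⟩ : LinearMap.range (NN g)).2.choose_spec
  obtain ⟨y, hy⟩ := w'.2
  rw [← hy, ← NN_adj hg, ← NN_adj hg, hx']

theorem comm_NN {g h : Spg B} (hc : h * g = g * h) (x : V) :
    (h : V ≃ₗ[F] V) (NN g x) = NN g ((h : V ≃ₗ[F] V) x) := by
  rw [NN_apply, NN_apply, map_sub, ← mul_apply', ← mul_apply', hc]

theorem comm_of_NN {g h : Spg B} (hc : ∀ x, (h : V ≃ₗ[F] V) (NN g x) = NN g ((h : V ≃ₗ[F] V) x)) :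
    h * g = g * h := by
  apply Spg_ext
  intro x
  have h1 := hc x
  rw [NN_apply, NN_apply, map_sub, ← mul_apply', ← mul_apply'] at h1
  exact sub_left_injective h1

theorem mem_centralizer {g h : Spg B} : h ∈ Subgroup.centralizer ({g} : Set (Spg B)) ↔ h * g = g * h := by
  rw [Subgroup.mem_centralizer_singleton_iff]

/-- the restriction to the image. -/
noncomputable def restr (g : Spg B) : Subgroup.centralizer ({g} : Set (Spg B)) →*
    (LinearMap.range (NN g) ≃ₗ[F] LinearMap.range (NN g)) where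
  toFun h :=
    { toFun := fun w => ⟨(h.1 : V ≃ₗ[F] V) w.1, by
        obtain ⟨x, hx⟩ := w.2
        rw [← hx, comm_NN (mem_centralizer.1 h.2)]
        exact ⟨_, rfl⟩⟩
      invFun := fun w => ⟨((h⁻¹).1 : V ≃ₗ[F] V) w.1, by
        obtain ⟨x, hx⟩ := w.2
        rw [← hx, comm_NN (mem_centralizer.1 (h⁻¹).2)]
        exact ⟨_, rfl⟩⟩
      map_add' := fun x y => Subtype.ext (map_add (h.1 : V ≃ₗ[F] V) _ _)
      map_smul' := fun c x => Subtype.ext (map_smul (h.1 : V ≃ₗ[F] V) _ _)
      left_inv := fun w => Subtype.ext (inv_apply_self' h.1 _)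
      right_inv := fun w => Subtype.ext (apply_inv_self' h.1 _) }
  map_one' := by
    ext w
    rfl
  map_mul' a b := by
    ext w
    rfl

theorem restr_apply (g : Spg B) (h : Subgroup.centralizer ({g} : Set (Spg B))) (w : LinearMap.range (NN g)) :
    ((restr g h w : LinearMap.range (NN g)) : V) = (h.1 : V ≃ₗ[F] V) w.1 := rfl

theorem restr_mem {g : Spg B} (hg : g * g = 1) (h : Subgroup.centralizer ({g} : Set (Spg B))) :
    restr g h ∈ isoGrp F (gam g) := by
  rintro ⟨_, x, rfl⟩ w'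
  rw [gam_eq hg]
  have h1 : restr g h ⟨NN g x, x, rfl⟩ = ⟨NN g ((h.1 : V ≃ₗ[F] V) x), _, rfl⟩ :=
    Subtype.ext (comm_NN (mem_centralizer.1 h.2) x)
  rw [h1, gam_eq hg, restr_apply]
  exact Spg_apply h.1 _ _

/-- an isometry extending an isometry of `gam` centralises `g`. -/
theorem comm_of_gam {g : Spg B} (hB : IsSymp B) (hg : g * g = 1) (a : LinearMap.range (NN g) ≃ₗ[F] LinearMap.range (NN g))
    (ha : a ∈ isoGrp F (gam g)) (h : Spg B) (hh : ∀ w, (h : V ≃ₗ[F] V) w.1 = (a w).1) : h * g = g * h := by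
  apply comm_of_NN
  intro x
  obtain ⟨x', hx'⟩ := (a ⟨NN g x, x, rfl⟩).2
  have h1 : (h : V ≃ₗ[F] V) (NN g x) = NN g x' := by rw [hx']; exact hh ⟨NN g x, x, rfl⟩
  have key : NN g ((h : V ≃ₗ[F] V) x - x') = 0 := by
    apply NN_ker hB hg
    intro w hw
    obtain ⟨w0, hw0⟩ := a.surjective ⟨w, hw⟩
    have h2 : w = (h : V ≃ₗ[F] V) w0.1 := by rw [hh w0, hw0]
    rw [h2, map_sub, LinearMap.sub_apply, Spg_apply, hh w0, ← gam_eq hg x w0, ← ha, ← gam_eq hg x' (a w0)]
    have h3 : a ⟨NN g x, x, rfl⟩ = ⟨NN g x', x', rfl⟩ := Subtype.ext hx'.symm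
    rw [h3, sub_self]
  rw [map_sub, sub_eq_zero] at key
  rw [h1, key]

end Nil

section Count

variable {F : Type*} [Field F] {m : ℕ}

local notation "VV" => (Fin m ⊕ Fin m → F)

theorem rank_le [CharP F 2] {g : Spg (sympForm (Fin m) F)} (hg : g * g = 1) :
    finrank F (LinearMap.range (NN g)) ≤ m := by
  have h1 := (NN g).finrank_range_add_finrank_ker
  have h2 : LinearMap.range (NN g) ≤ LinearMap.ker (NN g) := by
    rintro _ ⟨x, rfl⟩
    exact NN_NN hg x
  have h3 := Submodule.finrank_mono h2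
  have h4 : finrank F VV = m + m := by simp
  rw [h4] at h1
  omega

/-- frames for the image -/
theorem exists_frame [CharP F 2] {g : Spg (sympForm (Fin m) F)} (hg : g * g = 1)
    (b : Fin (finrank F (LinearMap.range (NN g))) → LinearMap.range (NN g)) (hb : LinearIndependent F b) :
    ∃ k : Spg (sympForm (Fin m) F), ∀ i, (k : VV ≃ₗ[F] VV) (ee (Fin.castLE (rank_le hg) i)) = (b i).1 := by
  apply trans_frame (rank_le hg) (fun i => (b i).1)
  · exact hb.map' (LinearMap.range (NN g)).subtype (Submodule.ker_subtype _)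
  · intro i j
    obtain ⟨x, hx⟩ := (b i).2
    obtain ⟨y, hy⟩ := (b j).2
    rw [← hx, ← hy]
    exact NN_iso hg x y

theorem restr_range [CharP F 2] {g : Spg (sympForm (Fin m) F)} (hg : g * g = 1) :
    (restr g).range = isoGrp F (gam g) := by
  apply le_antisymm
  · rintro _ ⟨h, rfl⟩
    exact restr_mem hg h
  · intro a ha
    have hB := isSymp_sympForm (l := Fin m) (F := F)
    let b := finBasis F (LinearMap.range (NN g))
    obtain ⟨k1, hk1⟩ := exists_frame hg b b.linearIndependent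
    obtain ⟨k2, hk2⟩ := exists_frame hg (fun i => a (b i))
      (b.linearIndependent.map' a.toLinearMap (LinearEquiv.ker a))
    have hh : ∀ w : LinearMap.range (NN g), ((k2 * k1⁻¹ : Spg (sympForm (Fin m) F)) : VV ≃ₗ[F] VV) w.1 = (a w).1 := by
      intro w
      have h1 := b.sum_repr w
      have h2 : w.1 = ∑ i, b.repr w i • (b i).1 := by
        conv_lhs => rw [← h1]
        rw [AddSubmonoidClass.coe_finset_sum]
        rfl
      have h3 : (a w).1 = ∑ i, b.repr w i • (a (b i)).1 := by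
        conv_lhs => rw [← h1]
        rw [map_sum, AddSubmonoidClass.coe_finset_sum]
        apply Finset.sum_congr rfl
        intro i _
        rw [map_smul]
        rfl
      rw [h2, h3, map_sum]
      apply Finset.sum_congr rfl
      intro i _
      rw [map_smul, mul_apply', ← hk1 i, inv_apply_self', hk2 i]
    refine ⟨⟨k2 * k1⁻¹, mem_centralizer.2 (comm_of_gam hB hg a ha _ hh)⟩, ?_⟩
    apply LinearEquiv.ext
    intro w
    exact Subtype.ext (hh w)

theorem card_ker_restr [CharP F 2] {g : Spg (sympForm (Fin m) F)} (hg : g * g = 1) :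
    Nat.card (restr g).ker = Nat.card (PS F m (finrank F (LinearMap.range (NN g)))) := by
  have hB := isSymp_sympForm (l := Fin m) (F := F)
  let b := finBasis F (LinearMap.range (NN g))
  obtain ⟨k, hk⟩ := exists_frame hg b b.linearIndependent
  have hfix : ∀ h : (restr g).ker, ∀ w : LinearMap.range (NN g), (h.1.1 : VV ≃ₗ[F] VV) w.1 = w.1 := by
    intro h w
    have h1 : restr g h.1 = 1 := h.2
    have h2 := congrArg (fun e : LinearMap.range (NN g) ≃ₗ[F] LinearMap.range (NN g) => (e w).1) h1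
    exact h2
  have hPS : ∀ p ∈ PS F m (finrank F (LinearMap.range (NN g))), ∀ w : LinearMap.range (NN g),
      ((k * p * k⁻¹ : Spg (sympForm (Fin m) F)) : VV ≃ₗ[F] VV) w.1 = w.1 := by
    intro p hp w
    have h1 := b.sum_repr w
    have h2 : w.1 = ∑ i, b.repr w i • (b i).1 := by
      conv_lhs => rw [← h1]
      rw [AddSubmonoidClass.coe_finset_sum]
      rfl
    rw [h2, map_sum]
    apply Finset.sum_congr rfl
    intro i _
    rw [map_smul, mul_apply', mul_apply', ← hk i, inv_apply_self', hp _ i.2]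
  refine Nat.card_congr
    { toFun := fun h => ⟨k⁻¹ * h.1.1 * k, ?_⟩
      invFun := fun p => ⟨⟨k * p.1 * k⁻¹, ?_⟩, ?_⟩
      left_inv := fun h => ?_
      right_inv := fun p => ?_ }
  · intro i hi
    have h1 := hk ⟨i, hi⟩
    have h2 : Fin.castLE (rank_le hg) ⟨i, hi⟩ = i := rfl
    rw [h2] at h1
    rw [mul_apply', mul_apply', h1, hfix h, ← h1, inv_apply_self']
  · rw [mem_centralizer]
    exact comm_of_gam hB hg 1 (one_mem _) _ (fun w => hPS p.1 p.2 w)
  · rw [MonoidHom.mem_ker]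
    apply LinearEquiv.ext
    intro w
    exact Subtype.ext (hPS p.1 p.2 w)
  · apply Subtype.ext
    apply Subtype.ext
    change k * (k⁻¹ * h.1.1 * k) * k⁻¹ = h.1.1
    group
  · apply Subtype.ext
    change k⁻¹ * (k * p.1 * k⁻¹) * k = p.1
    group

theorem card_centralizer [CharP F 2] [Fintype F] {g : Spg (sympForm (Fin m) F)} (hg : g * g = 1) :
    Nat.card (Subgroup.centralizer ({g} : Set (Spg (sympForm (Fin m) F)))) =
      Nat.card (isoGrp F (gam g)) * Nat.card (PS F m (finrank F (LinearMap.range (NN g)))) := by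
  rw [← Subgroup.card_mul_index (restr g).ker, Subgroup.index_ker, restr_range hg, card_ker_restr hg, mul_comm]

end Count

end Cfsg.Agent.Lib.ClSpInv2
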