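import Cfsg.Agent.Lib.ClSpInv2

set_option autoImplicit false

/-! Orders of centralisers of involutions of symplectic groups in characteristic two. -/
namespace Cfsg.Agent.Lib.ClSpInv3

open Cfsg.Agent.Lib.ClIso Cfsg.Agent.Lib.ClSymp Cfsg.Agent.Lib.ClSymp2 Cfsg.Agent.Lib.ClStab Module
open Cfsg.Agent.Lib.ClSpInv Cfsg.Agent.Lib.ClSpInv2 Cfsg.Agent.Lib.ClSympOrd

section Forms

variable {F : Type*} [Field F] [Fintype F]

theorem card_alt {W : Type*} [AddCommGroup W] [Module F W] [FiniteDimensional F W] (Γ : W →ₗ[F] W →ₗ[F] F)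
    (halt : ∀ v, Γ v v = 0) (hnd : ∀ v, (∀ w, Γ v w = 0) → v = 0) (k : ℕ) (hk : finrank F W = 2 * k) :
    Nat.card (isoGrp F (fun u v => Γ u v)) = Nat.card (Spg (sympForm (Fin k) F)) := by
  have hB := isSymp_sympForm (l := Fin k) (F := F)
  obtain ⟨e, he⟩ := AltForm.exists_isometry Γ halt hnd (sympForm (Fin k) F) hB.alt
    (fun v hv => by
      by_contra hne
      obtain ⟨w, hw⟩ := hB.nondeg v hne
      exact hw (hv w)) (by rw [hk]; simp; ring)
  exact Nat.card_congr (isoGrpCongr e he).toEquiv

variable [CharP F 2]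

theorem dot_self {n : ℕ} (v : Fin n → F) : dotProduct v v = (dotProduct v 1) ^ 2 := by
  have h : ∀ s : Finset (Fin n), ∑ i ∈ s, v i * v i = (∑ i ∈ s, v i) ^ 2 := by
    intro s
    classical
    induction s using Finset.induction_on with
    | empty => simp
    | insert a s ha ih =>
      rw [Finset.sum_insert ha, Finset.sum_insert ha, ih, CharTwo.add_sq, pow_two (v a)]
  have h2 := h Finset.univ
  simp only [dotProduct, Pi.one_apply, mul_one]
  exact h2

theorem card_dot {n : ℕ} (hn : Odd n) :
    Nat.card (isoGrp F (fun u v : Fin n → F => dotProduct u v)) =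
      Nat.card (Spg (sympForm (Fin ((n - 1) / 2)) F)) := by
  classical
  let one : Fin n → F := 1
  have h11 : dotProduct one one = 1 := by
    obtain ⟨k, rfl⟩ := hn
    simp [one, dotProduct, CharTwo.two_eq_zero]
  let σ : (Fin n → F) →ₗ[F] F := LinearMap.mk (AddHom.mk (fun v => dotProduct v one) (fun u v => by simp [add_dotProduct]))
    (fun c v => by simp [smul_dotProduct])
  have hσ : ∀ v, σ v = dotProduct v one := fun _ => rfl
  let H := LinearMap.ker σ
  let e : (Fin n → F) ≃ₗ[F] F × H :=
    { toFun := fun v => (σ v, ⟨v - σ v • one, by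
        change σ (v - σ v • one) = 0
        rw [map_sub, map_smul, hσ one, h11]; simp⟩)
      invFun := fun p => p.1 • one + p.2.1
      map_add' := fun u v => by
        apply Prod.ext
        · exact map_add σ u v
        · apply Subtype.ext
          change (u + v) - σ (u + v) • one = (u - σ u • one) + (v - σ v • one)
          rw [map_add, add_smul]
          abel
      map_smul' := fun c v => by
        apply Prod.ext
        · exact map_smul σ c v
        · apply Subtype.ext
          change (c • v) - σ (c • v) • one = c • (v - σ v • one)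
          rw [map_smul, smul_sub, smul_eq_mul, smul_smul]
      left_inv := fun v => by
        change σ v • one + (v - σ v • one) = v
        abel
      right_inv := fun p => by
        have h1 : σ (p.1 • one + p.2.1) = p.1 := by
          have h2 : σ p.2.1 = 0 := p.2.2
          rw [map_add, map_smul, hσ one, h11, h2]; simp
        apply Prod.ext
        · exact h1
        · apply Subtype.ext
          change (p.1 • one + p.2.1) - σ (p.1 • one + p.2.1) • one = p.2.1
          rw [h1]
          abel }
  have hsym : ∀ u v : Fin n → F, dotProduct u v = dotProduct v u := fun u v => dotProduct_comm u v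
  have hf : ∀ x y : Fin n → F, dotProduct x y = (e x).1 * (e y).1 + dotProduct (e x).2.1 (e y).2.1 := by
    intro x y
    change dotProduct x y = σ x * σ y + dotProduct (x - σ x • one) (y - σ y • one)
    rw [sub_dotProduct, dotProduct_sub, dotProduct_sub, smul_dotProduct, smul_dotProduct, dotProduct_smul,
      dotProduct_smul, h11, ← hσ, hsym one y, ← hσ]
    simp only [smul_eq_mul]
    ring
  have hdotH : ∀ u : H, dotProduct u.1 one = 0 := fun u => u.2
  obtain ⟨E⟩ := stab_equiv e (fun u v => dotProduct u v) (fun a b : F => a * b) (fun u v : H => dotProduct u.1 v.1)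
    hf (perp_of_nondeg e _ (fun a b : F => a * b) (fun u v : H => dotProduct u.1 v.1) hf
        (by intro h; simp) (by intro w; simp) (by
          intro k hk
          have := hk 1
          simpa using this))
  have hfix : ∀ g : isoGrp F (fun u v : Fin n → F => dotProduct u v), (g : (Fin n → F) ≃ₗ[F] (Fin n → F)) one = one := by
    intro g
    have h1 : ∀ v, dotProduct ((g : (Fin n → F) ≃ₗ[F] (Fin n → F)) v) one = dotProduct v one := by
      intro v
      have h2 : dotProduct ((g : (Fin n → F) ≃ₗ[F] (Fin n → F)) v) ((g : (Fin n → F) ≃ₗ[F] (Fin n → F)) v) = dotProduct v v := g.2 v v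
      rw [dot_self, dot_self v] at h2
      exact CharTwo.sq_injective h2
    have h3 : ∀ v, dotProduct ((g : (Fin n → F) ≃ₗ[F] (Fin n → F)) v) ((g : (Fin n → F) ≃ₗ[F] (Fin n → F)) one - one) = 0 := by
      intro v
      rw [dotProduct_sub, h1]
      have : dotProduct ((g : (Fin n → F) ≃ₗ[F] (Fin n → F)) v) ((g : (Fin n → F) ≃ₗ[F] (Fin n → F)) one) = dotProduct v one := g.2 v one
      rw [this, sub_self]
    have h4 : (g : (Fin n → F) ≃ₗ[F] (Fin n → F)) one - one = 0 := by
      funext i
      obtain ⟨v, hv⟩ := (g : (Fin n → F) ≃ₗ[F] (Fin n → F)).surjective (Pi.single i 1)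
      have := h3 v
      rw [hv] at this
      simpa using this
    exact sub_eq_zero.1 h4
  have hall : ∀ g : isoGrp F (fun u v : Fin n → F => dotProduct u v), ∀ h : F,
      (g : (Fin n → F) ≃ₗ[F] (Fin n → F)) (e.symm (h, 0)) = e.symm (h, 0) := by
    intro g h
    have h1 : e.symm (h, 0) = h • one := by
      change h • one + (0 : H).1 = h • one
      simp
    rw [h1, map_smul, hfix]
  have hc1 : Nat.card (isoGrp F (fun u v : Fin n → F => dotProduct u v)) =
      Nat.card (isoGrp F (fun u v : H => dotProduct u.1 v.1)) := by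
    rw [← Nat.card_congr E]
    exact Nat.card_congr (Equiv.subtypeUnivEquiv hall).symm
  rw [hc1]
  let Γ : H →ₗ[F] H →ₗ[F] F := LinearMap.mk₂ F (fun u v => dotProduct u.1 v.1)
    (fun u v w => by simp [add_dotProduct]) (fun c u v => by simp [smul_dotProduct])
    (fun u v w => by simp [dotProduct_add]) (fun c u v => by simp [dotProduct_smul])
  have hdim : finrank F H + 1 = n := by
    have h1 := LinearEquiv.finrank_eq e
    rw [Module.finrank_prod] at h1
    simp at h1
    omega
  have := card_alt (F := F) Γ (by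
      intro v
      change dotProduct v.1 v.1 = 0
      rw [dot_self]
      have : dotProduct v.1 (1 : Fin n → F) = 0 := hdotH v
      rw [this]
      simp) (by
      intro v hv
      apply Subtype.ext
      funext i
      have h1 := hv (e (Pi.single i 1)).2
      change dotProduct v.1 (e (Pi.single i 1)).2.1 = 0 at h1
      have h2 := hf v.1 (Pi.single i 1)
      have h3 : (e v.1).1 = 0 := v.2
      have h4 : (e v.1).2.1 = v.1 := by
        change v.1 - σ v.1 • one = v.1
        have : σ v.1 = 0 := v.2
        rw [this]; simp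
      rw [h3, h4, h1] at h2
      simpa using h2) ((n - 1) / 2) (by
      obtain ⟨k, hk⟩ := hn
      omega)
  rw [← this]
  rfl

end Forms

section Gam

variable {F : Type*} [Field F] [Fintype F] [CharP F 2] {m : ℕ}

local notation "VV" => (Fin m ⊕ Fin m → F)

/-- `gam` as a bilinear form. -/
noncomputable def Gam {g : Spg (sympForm (Fin m) F)} (hg : g * g = 1) :
    (LinearMap.range (NN g)) →ₗ[F] (LinearMap.range (NN g)) →ₗ[F] F :=
  LinearMap.mk₂ F (gam g)
    (by
      rintro ⟨_, x, rfl⟩ ⟨_, y, rfl⟩ w
      have h : (⟨NN g x, x, rfl⟩ + ⟨NN g y, y, rfl⟩ : LinearMap.range (NN g)) = ⟨NN g (x + y), x + y, rfl⟩ :=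
        Subtype.ext (map_add _ _ _).symm
      rw [h, gam_eq hg, gam_eq hg, gam_eq hg, map_add, LinearMap.add_apply])
    (by
      rintro c ⟨_, x, rfl⟩ w
      have h : (c • ⟨NN g x, x, rfl⟩ : LinearMap.range (NN g)) = ⟨NN g (c • x), c • x, rfl⟩ :=
        Subtype.ext (map_smul _ _ _).symm
      rw [h, gam_eq hg, gam_eq hg, map_smul, LinearMap.smul_apply])
    (by
      rintro ⟨_, x, rfl⟩ u w
      rw [gam_eq hg, gam_eq hg, gam_eq hg]
      exact map_add _ _ _)
    (by
      rintro c ⟨_, x, rfl⟩ w
      rw [gam_eq hg, gam_eq hg]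
      exact map_smul _ _ _)

theorem Gam_apply {g : Spg (sympForm (Fin m) F)} (hg : g * g = 1) (u v : LinearMap.range (NN g)) :
    Gam hg u v = gam g u v := rfl

theorem Gam_nondeg {g : Spg (sympForm (Fin m) F)} (hg : g * g = 1) (v : LinearMap.range (NN g))
    (hv : ∀ w, Gam hg v w = 0) : v = 0 := by
  obtain ⟨_, x, rfl⟩ := v
  apply Subtype.ext
  apply NN_ker (isSymp_sympForm (l := Fin m) (F := F)) hg
  intro w hw
  have := hv ⟨w, hw⟩
  rw [Gam_apply, gam_eq hg] at this
  exact this

theorem Gam_symm {g : Spg (sympForm (Fin m) F)} (hg : g * g = 1) (u v : LinearMap.range (NN g)) :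
    Gam hg u v = Gam hg v u := by
  have hB := isSymp_sympForm (l := Fin m) (F := F)
  obtain ⟨_, x, rfl⟩ := u
  obtain ⟨_, y, rfl⟩ := v
  rw [Gam_apply, Gam_apply, gam_eq hg, gam_eq hg]
  change sympForm (Fin m) F x (NN g y) = sympForm (Fin m) F y (NN g x)
  rw [← NN_adj hg, hB.skew, CharTwo.neg_eq]

theorem card_gam_alt {g : Spg (sympForm (Fin m) F)} (hg : g * g = 1)
    (hall : ∀ x, sympForm (Fin m) F x (NN g x) = 0) (k : ℕ) (hk : finrank F (LinearMap.range (NN g)) = 2 * k) :
    Nat.card (isoGrp F (gam g)) = Nat.card (Spg (sympForm (Fin k) F)) := by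
  apply card_alt (Gam hg) _ (Gam_nondeg hg) k hk
  rintro ⟨_, x, rfl⟩
  rw [Gam_apply, gam_eq hg]
  exact hall x

theorem exists_sq (x : F) : ∃ y : F, y * y = x := by
  obtain ⟨y, hy⟩ := FiniteField.isSquare_of_char_two (ringChar.eq_iff.mpr inferInstance) x
  exact ⟨y, hy.symm⟩

theorem card_gam_odd {g : Spg (sympForm (Fin m) F)} (hg : g * g = 1)
    (hodd : Odd (finrank F (LinearMap.range (NN g)))) :
    Nat.card (isoGrp F (gam g)) = Nat.card (Spg (sympForm (Fin ((finrank F (LinearMap.range (NN g)) - 1) / 2)) F)) := by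
  obtain ⟨T, hT⟩ := AltForm.exists_orthonormal_equiv exists_sq (finrank F (LinearMap.range (NN g)))
    (LinearMap.range (NN g)) (Gam hg) rfl (Gam_symm hg) (Gam_nondeg hg) (by
      intro _
      by_contra hcon
      push Not at hcon
      have := AltForm.even_finrank (Gam hg) hcon (Gam_nondeg hg)
      exact Nat.not_even_iff_odd.2 hodd this)
  rw [← card_dot (F := F) hodd]
  exact Nat.card_congr (isoGrpCongr (f := gam g) (f' := fun u v => dotProduct u v) T (fun u v => (hT u v).symm)).toEquiv

/-- centraliser order, odd rank. -/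
theorem card_cent_odd {g : Spg (sympForm (Fin m) F)} (hg : g * g = 1) {s : ℕ}
    (hs : finrank F (LinearMap.range (NN g)) = s) (hodd : Odd s) :
    (Fintype.card F) ^ (s * (s - 1) / 2) *
      Nat.card (Subgroup.centralizer ({g} : Set (Spg (sympForm (Fin m) F)))) =
      Nat.card (Spg (sympForm (Fin ((s - 1) / 2)) F)) * ((Fintype.card F) ^ (m ^ 2) *
        ∏ i ∈ Finset.range (m - s), ((Fintype.card F) ^ (2 * (i + 1)) - 1)) := by
  have hle := rank_le hg
  subst hs
  rw [card_centralizer hg, card_gam_odd hg hodd, ← card_PS hle]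
  ring

/-- centraliser order, type a. -/
theorem card_cent_alt {g : Spg (sympForm (Fin m) F)} (hg : g * g = 1) {s : ℕ}
    (hs : finrank F (LinearMap.range (NN g)) = s) (k : ℕ) (hk : s = 2 * k)
    (hall : ∀ x, sympForm (Fin m) F x (NN g x) = 0) :
    (Fintype.card F) ^ (s * (s - 1) / 2) *
      Nat.card (Subgroup.centralizer ({g} : Set (Spg (sympForm (Fin m) F)))) =
      Nat.card (Spg (sympForm (Fin k) F)) * ((Fintype.card F) ^ (m ^ 2) *
        ∏ i ∈ Finset.range (m - s), ((Fintype.card F) ^ (2 * (i + 1)) - 1)) := by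
  have hle := rank_le hg
  subst hs
  rw [card_centralizer hg, card_gam_alt hg hall k hk, ← card_PS hle]
  ring

/-- transport to matrices -/
theorem card_cent_matrix (t : Matrix.symplecticGroup (Fin m) F) :
    Nat.card (Subgroup.centralizer ({t} : Set (Matrix.symplecticGroup (Fin m) F))) =
      Nat.card (Subgroup.centralizer ({sympEquiv (Fin m) F t} : Set (Spg (sympForm (Fin m) F)))) := by
  refine Nat.card_congr (Equiv.subtypeEquiv (sympEquiv (Fin m) F).toEquiv ?_)
  intro a
  rw [Subgroup.mem_centralizer_singleton_iff, Subgroup.mem_centralizer_singleton_iff]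
  change _ ↔ (sympEquiv (Fin m) F a) * (sympEquiv (Fin m) F t) = (sympEquiv (Fin m) F t) * (sympEquiv (Fin m) F a)
  rw [← map_mul, ← map_mul]
  exact ⟨fun h => by rw [h], fun h => (sympEquiv (Fin m) F).injective h⟩

theorem rank_matrix (t : Matrix.symplecticGroup (Fin m) F) :
    ((t : Matrix (Fin m ⊕ Fin m) (Fin m ⊕ Fin m) F) - 1).rank =
      finrank F (LinearMap.range (NN (sympEquiv (Fin m) F t))) := by
  have h : (Matrix.toLin' ((t : Matrix (Fin m ⊕ Fin m) (Fin m ⊕ Fin m) F) - 1)) = NN (sympEquiv (Fin m) F t) := by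
    apply LinearMap.ext
    intro x
    rw [Matrix.toLin'_apply, Matrix.sub_mulVec, Matrix.one_mulVec, NN_apply, sympEquiv_apply]
  rw [← h]
  rfl

end Gam

end Cfsg.Agent.Lib.ClSpInv3
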