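import Cfsg.Agent.Lib.ActRep

/-!
The representation of a group on an elementary abelian normal subgroup, over an algebraically
closed field, together with an operator group (helper59).
-/

set_option autoImplicit false

namespace Cfsg.Agent.Lib.ClosedRep

open Subgroup Module

universe u v

/-- additive endomorphisms are linear over the prime field -/
def endHom (p : ℕ) (V : Type*) [AddCommGroup V] [Module (ZMod p) V] :
    AddMonoid.End V →+* Module.End (ZMod p) V where
  toFun f := AddMonoidHom.toZModLinearMap p f
  map_one' := rfl
  map_mul' _ _ := rfl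
  map_zero' := by
    refine LinearMap.ext fun v => ?_
    simp
    rfl
  map_add' f g := by
    refine LinearMap.ext fun v => ?_
    simp
    rfl

theorem exists_closed (p : ℕ) [Fact p.Prime] (V : Type u) [AddCommGroup V] [Module (ZMod p) V]
    [Finite V] : ∃ (k : Type) (_ : Field k) (_ : IsAlgClosed k) (_ : CharP k p) (W : Type u)
      (_ : AddCommGroup W) (_ : Module k W) (_ : FiniteDimensional k W)
      (R : AddMonoid.End V →+* Module.End k W), Function.Injective R := by
  have : Module.Finite (ZMod p) V := Module.Finite.of_finite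
  let E : AddMonoid.End V →+* Module.End (ZMod p) V := endHom p V
  have hEinj : Function.Injective E := by
    intro f g hfg
    ext v
    exact congrArg (fun l : Module.End (ZMod p) V => l v) hfg
  let k := AlgebraicClosure (ZMod p)
  let F : Module.End (ZMod p) V →ₐ[ZMod p] Module.End k (TensorProduct (ZMod p) k V) :=
    Module.End.baseChangeHom (ZMod p) k V
  have hFinj : Function.Injective F := LinearMap.baseChangeHom_injective (ZMod p) V k
  exact ⟨k, inferInstance, inferInstance, inferInstance, TensorProduct (ZMod p) k V, inferInstance,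
    inferInstance, inferInstance, RingHom.comp F.toRingHom E, hFinj.comp hEinj⟩

variable {G : Type u} {A : Type v} [Group G] [Finite G] [Group A]

theorem exists_closed_rep (φ : A →* MulAut G)
    (P : Subgroup G) [P.Normal] (hP : ∀ a, ∀ x ∈ P, φ a x ∈ P)
    (hcomm : ∀ x ∈ P, ∀ y ∈ P, x * y = y * x) (p : ℕ) [hp : Fact p.Prime]
    (hexp : ∀ x ∈ P, x ^ p = 1) :
    ∃ (k : Type) (_ : Field k) (_ : IsAlgClosed k) (_ : CharP k p) (W : Type u)
      (_ : AddCommGroup W) (_ : Module k W) (_ : FiniteDimensional k W)
      (h : G →* Module.End k W) (s : A →* Module.End k W),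
      (∀ g, h g = 1 ↔ g ∈ centralizer (P : Set G)) ∧
      (∀ a g, s a * h g = h (φ a g) * s a) ∧
      (∀ (I : Type v) [Fintype I] (f : I → A) (B : Set A),
        (∀ b ∈ B, ∃ e : I ≃ I, ∀ i, b * f i = f (e i)) →
        (∀ x ∈ P, (∀ b ∈ B, φ b x = x) → x = 1) → ∑ i, s (f i) = 0) := by
  classical
  obtain ⟨V, _, ι, h, s, hadd, hh, hs⟩ := ActRep.exists_rep φ P hP hcomm
  have hι0 : (ι 0 : G) = 1 := by
    have := hadd 0 0
    rw [add_zero] at this
    exact left_eq_mul.1 this
  have hι : ∀ v w : V, (ι v : G) = ι w → v = w := fun v w hvw => ι.injective (Subtype.ext hvw)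
  have hp0 : ∀ v : V, p • v = 0 := by
    intro v
    apply hι
    have h1 : ∀ n : ℕ, (ι (n • v) : G) = (ι v : G) ^ n := by
      intro n
      induction n with
      | zero => simp [hι0]
      | succ n ih => rw [succ_nsmul, hadd, ih, pow_succ]
    rw [h1, hexp _ (ι v).2]
    exact hι0.symm
  have : Finite V := Finite.of_equiv P ι.symm
  obtain ⟨k, _, _, _, W, _, _, _, R', hR'⟩ := @exists_closed p hp V _
    (AddCommGroup.zmodModule hp0) _
  let R : AddMonoid.End V →* Module.End k W := R'.toMonoidHom
  have hRinj : Function.Injective R := hR'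
  refine ⟨k, inferInstance, inferInstance, inferInstance, W, inferInstance,
    inferInstance, inferInstance, R.comp h, R.comp s, ?_, ?_, ?_⟩
  · intro g
    rw [MonoidHom.comp_apply]
    have : R (h g) = 1 ↔ h g = 1 := by
      constructor
      · intro h1
        apply hRinj
        rw [h1, map_one]
      · intro h1
        rw [h1, map_one]
    rw [this, mem_centralizer_iff]
    constructor
    · intro hg x hx
      have h1 := hh g (ι.symm ⟨x, hx⟩)
      rw [hg] at h1
      simp only [AddMonoid.End.coe_one, id_eq, Equiv.apply_symm_apply] at h1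
      calc x * g = g * x * g⁻¹ * g := by rw [← h1]
        _ = g * x := by group
    · intro hg
      ext v
      apply hι
      rw [hh]
      have := hg (ι v) (ι v).2
      rw [← this]
      simp
  · intro a g
    rw [MonoidHom.comp_apply, MonoidHom.comp_apply, MonoidHom.comp_apply, ← map_mul, ← map_mul]
    congr 1
    ext v
    apply hι
    change (ι (s a (h g v)) : G) = ι (h (φ a g) (s a v))
    rw [hs, hh, hh, hs]
    simp
  · intro I _ f B hT hfix
    have key0 : ∑ i, s (f i) = 0 := by
      ext v
      apply hι
      change (ι _ : G) = ι 0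
      rw [hι0]
      apply hfix _ (Subtype.mem _)
      intro b hb
      rw [← hs]
      congr 2
      have key : s b * ∑ i, s (f i) = ∑ i, s (f i) := by
        obtain ⟨e, he⟩ := hT b hb
        rw [Finset.mul_sum]
        simp_rw [← map_mul, he]
        exact Equiv.sum_comp e (fun i => s (f i))
      exact congrArg (fun f : AddMonoid.End V => f v) key
    have h1 : ∑ i, R (s (f i)) = R' (∑ i, s (f i)) := by
      rw [map_sum]
      rfl
    simp only [MonoidHom.comp_apply]
    rw [h1, key0, map_zero]

end Cfsg.Agent.Lib.ClosedRep
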