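import Mathlib
import Cfsg.Agent.Lib.NormalRankTwo

/-!
A `p`-group (`p` odd) acting faithfully on an elementary abelian `q`-group with point stabilisers of
constant order is cyclic and acts freely.
-/

set_option autoImplicit false

namespace Cfsg.Agent.Lib.ConstStab

variable {P E : Type*} [Group P] [AddCommGroup E] [DistribMulAction P E]

/-- the norm map -/
def nrm (p : ℕ) (x : P) (v : E) : E := ∑ i ∈ Finset.range p, x ^ i • v

theorem smul_nrm {p : ℕ} {x : P} (hx : x ^ p = 1) (v : E) : x • nrm p x v = nrm p x v := by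
  have h1 := Finset.sum_range_succ' (fun i => x ^ i • v) p
  have h2 := Finset.sum_range_succ (fun i => x ^ i • v) p
  simp only [hx, pow_zero] at h1 h2
  have h3 : x • nrm p x v = ∑ i ∈ Finset.range p, x ^ (i + 1) • v := by
    unfold nrm
    rw [Finset.smul_sum]
    refine Finset.sum_congr rfl fun i _ => ?_
    rw [smul_smul, ← pow_succ']
  rw [h3]
  exact add_right_cancel (h1.symm.trans h2)

theorem nrm_of_fixed {p : ℕ} {x : P} {v : E} (hv : x • v = v) : nrm p x v = p • v := by
  unfold nrm
  rw [Finset.sum_congr rfl (g := fun _ => v)]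
  · simp
  · intro i _
    induction i with
    | zero => simp
    | succ i ih =>
      rw [pow_succ, mul_smul, hv]
      exact ih (by simp_all; omega)

theorem nrm_add {p : ℕ} (x : P) (v w : E) : nrm p x (v + w) = nrm p x v + nrm p x w := by
  unfold nrm
  simp [smul_add, Finset.sum_add_distrib]

theorem nrm_sub {p : ℕ} (x : P) (v w : E) : nrm p x (v - w) = nrm p x v - nrm p x w := by
  unfold nrm
  simp [smul_sub, Finset.sum_sub_distrib]

theorem smul_nrm_comm {p : ℕ} {x y : P} (h : Commute x y) (v : E) : y • nrm p x v = nrm p x (y • v) := by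
  unfold nrm
  rw [Finset.smul_sum]
  refine Finset.sum_congr rfl fun i _ => ?_
  rw [smul_smul, smul_smul, (h.pow_left i).eq]

theorem smul_pow_fixed {x : P} {v : E} (h : x • v = v) (n : ℕ) : x ^ n • v = v := by
  induction n with
  | zero => simp
  | succ n ih => rw [pow_succ, mul_smul, h, ih]

theorem smul_zpow_fixed {x : P} {v : E} (h : x • v = v) (n : ℤ) : x ^ n • v = v := by
  have h1 : x ∈ MulAction.stabilizer P v := h
  exact zpow_mem h1 n

/-- if `ζ ∈ ⟨z⟩`, `ζ ≠ 1`, `z` has prime order, then `ζ` and `z` have the same fixed points -/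
theorem fixed_of_ne_one {p : ℕ} (hp : p.Prime) {z ζ : P} (hz : orderOf z = p)
    (hζ : ζ ∈ Subgroup.zpowers z) (h1 : ζ ≠ 1) {v : E} (h : ζ • v = v) : z • v = v := by
  have hle : Subgroup.zpowers ζ ≤ Subgroup.zpowers z := by rwa [Subgroup.zpowers_le]
  have hord : orderOf ζ = p := by
    have h2 : orderOf ζ ∣ p := by
      have h0 := Subgroup.orderOf_dvd_natCard _ hζ
      rwa [Nat.card_zpowers, hz] at h0
    rcases (Nat.dvd_prime hp).1 h2 with h | h
    · exact absurd (orderOf_eq_one_iff.1 h) h1
    · exact h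
  haveI : Finite (Subgroup.zpowers z) := by
    have : Nat.card (Subgroup.zpowers z) ≠ 0 := by
      rw [Nat.card_zpowers, hz]; exact hp.ne_zero
    exact Nat.finite_of_card_ne_zero this
  have heq : Subgroup.zpowers ζ = Subgroup.zpowers z :=
    Subgroup.eq_of_le_of_card_ge hle (by rw [Nat.card_zpowers, Nat.card_zpowers, hord, hz])
  have hz2 : z ∈ Subgroup.zpowers ζ := by rw [heq]; exact Subgroup.mem_zpowers z
  obtain ⟨n, hn⟩ := hz2
  rw [← hn]
  exact smul_zpow_fixed h n

variable [Finite P] [FaithfulSMul P E]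

/-- central elements of order `p` have no nonzero fixed points. -/
theorem central_free {p q : ℕ} (hp : p.Prime) (hq : q.Prime) (hpq : p ≠ q)
    (hE : ∀ e : E, q • e = 0)
    (hconst : ∀ a b : E, a ≠ 0 → b ≠ 0 →
      Nat.card (MulAction.stabilizer P a) = Nat.card (MulAction.stabilizer P b))
    {z : P} (hzc : z ∈ Subgroup.center P) (hz : orderOf z = p) (a : E) (ha : z • a = a) : a = 0 := by
  have hpe : ∀ e : E, p • e = 0 → e = 0 := by
    intro e he
    have hc : Nat.Coprime p q := (Nat.coprime_primes hp hq).2 hpq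
    have h1 : addOrderOf e ∣ p := addOrderOf_dvd_of_nsmul_eq_zero he
    have h2 : addOrderOf e ∣ q := addOrderOf_dvd_of_nsmul_eq_zero (hE e)
    have h3 := Nat.dvd_gcd h1 h2
    rw [hc] at h3
    exact AddMonoid.addOrderOf_eq_one_iff.1 (Nat.dvd_one.1 h3)
  have hzp : z ^ p = 1 := by rw [← hz]; exact pow_orderOf_eq_one z
  have hcz : ∀ g : P, Commute z g := fun g => (Subgroup.mem_center_iff.1 hzc g).symm
  by_contra ha0
  -- some b with norm zero
  have hex : ∃ b : E, b ≠ 0 ∧ nrm p z b = 0 := by
    by_contra hcon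
    push Not at hcon
    have hall : ∀ v : E, z • v = v := by
      intro v
      have h1 : nrm p z (p • v - nrm p z v) = 0 := by
        rw [nrm_sub, nrm_of_fixed (smul_nrm hzp v)]
        have : nrm p z (p • v) = p • nrm p z v := by
          unfold nrm
          rw [Finset.smul_sum]
          refine Finset.sum_congr rfl fun i _ => ?_
          rw [smul_comm]
        rw [this, sub_self]
      have h2 : p • v - nrm p z v = 0 := by
        by_contra h
        exact hcon _ h h1
      have h3 : p • v = nrm p z v := sub_eq_zero.1 h2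
      have h4 : p • (z • v - v) = 0 := by
        rw [smul_sub, smul_comm p z v, h3, smul_nrm hzp, sub_self]
      exact sub_eq_zero.1 (hpe _ h4)
    have hz1 : z = 1 := by
      apply FaithfulSMul.eq_of_smul_eq_smul (α := E)
      intro v
      rw [hall v, one_smul]
    rw [hz1, orderOf_one] at hz
    exact hp.ne_one hz.symm
  obtain ⟨b, hb0, hb⟩ := hex
  have hab : a + b ≠ 0 := by
    intro h
    have h1 : nrm p z (a + b) = 0 := by
      rw [h]; unfold nrm; simp
    rw [nrm_add, hb, nrm_of_fixed ha, add_zero] at h1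
    exact ha0 (hpe a h1)
  have hsub : ∀ g : P, g • (a + b) = a + b → g • a = a ∧ g • b = b := by
    intro g hg
    rw [smul_add] at hg
    have h1 := congrArg (nrm p z) hg
    rw [nrm_add, nrm_add, hb, ← smul_nrm_comm (hcz g), ← smul_nrm_comm (hcz g), hb,
      nrm_of_fixed ha, smul_zero, add_zero, add_zero] at h1
    have h2 : p • (g • a - a) = 0 := by
      rw [smul_sub, smul_comm p g a, h1, sub_self]
    have h3 : g • a = a := sub_eq_zero.1 (hpe _ h2)
    rw [h3] at hg
    exact ⟨h3, add_left_cancel hg⟩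
  have h1 : MulAction.stabilizer P (a + b) = MulAction.stabilizer P a := by
    apply Subgroup.eq_of_le_of_card_ge
    · intro g hg; exact (hsub g hg).1
    · rw [hconst (a + b) a hab ha0]
  have h2 : MulAction.stabilizer P (a + b) = MulAction.stabilizer P b := by
    apply Subgroup.eq_of_le_of_card_ge
    · intro g hg; exact (hsub g hg).2
    · rw [hconst (a + b) b hab hb0]
  have h3 : z ∈ MulAction.stabilizer P b := by
    rw [← h2, h1]; exact ha
  have h4 : z • b = b := h3
  rw [nrm_of_fixed h4] at hb
  exact hb0 (hpe b hb)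

theorem main {p q : ℕ} [hp : Fact p.Prime] (hp2 : p ≠ 2) (hP : IsPGroup p P) (hq : q.Prime)
    (hE : ∀ e : E, q • e = 0) [Finite E]
    (hconst : ∀ a b : E, a ≠ 0 → b ≠ 0 →
      Nat.card (MulAction.stabilizer P a) = Nat.card (MulAction.stabilizer P b)) :
    IsCyclic P ∧ ∀ g : P, g ≠ 1 → ∀ a : E, g • a = a → a = 0 := by
  by_cases hE0 : ∀ e : E, e = 0
  · refine ⟨?_, fun g _ a _ => hE0 a⟩
    have : Subsingleton P := ⟨fun g h => by
      apply FaithfulSMul.eq_of_smul_eq_smul (α := E)
      intro v
      rw [hE0 (g • v), hE0 (h • v)]⟩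
    infer_instance
  push Not at hE0
  obtain ⟨e, he⟩ := hE0
  by_cases hpq : p = q
  · -- P is trivial
    subst hpq
    have hEp : p ∣ Nat.card E := by
      have h1 : addOrderOf e ∣ p := addOrderOf_dvd_of_nsmul_eq_zero (hE e)
      rcases (Nat.dvd_prime hq).1 h1 with h | h
      · exact absurd (AddMonoid.addOrderOf_eq_one_iff.1 h) he
      · rw [← h]; exact addOrderOf_dvd_natCard e
    obtain ⟨a, ha1, ha2⟩ := hP.exists_fixed_point_of_prime_dvd_card_of_fixed_point E hEp
      (a := (0 : E)) (fun g => smul_zero g)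
    have htriv : ∀ (g : P) (v : E), g • v = v := by
      intro g v
      by_cases hv : v = 0
      · rw [hv, smul_zero]
      · have h1 : MulAction.stabilizer P a = ⊤ := by
          ext g; simp only [MulAction.mem_stabilizer_iff, Subgroup.mem_top, iff_true]; exact ha1 g
        have h2 : MulAction.stabilizer P v = ⊤ := by
          apply Subgroup.eq_top_of_card_eq
          rw [hconst v a hv (fun h => ha2 h.symm), h1, Subgroup.card_top]
        have : g ∈ MulAction.stabilizer P v := by rw [h2]; trivial
        exact this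
    have h1 : ∀ g : P, g = 1 := by
      intro g
      apply FaithfulSMul.eq_of_smul_eq_smul (α := E)
      intro v
      rw [htriv g v, one_smul]
    refine ⟨?_, fun g hg => absurd (h1 g) hg⟩
    have : Subsingleton P := ⟨fun g h => by rw [h1 g, h1 h]⟩
    infer_instance
  have hpe : ∀ e : E, p • e = 0 → e = 0 := by
    intro e he
    have hc : Nat.Coprime p q := (Nat.coprime_primes hp.out hq).2 hpq
    have h1 : addOrderOf e ∣ p := addOrderOf_dvd_of_nsmul_eq_zero he
    have h2 : addOrderOf e ∣ q := addOrderOf_dvd_of_nsmul_eq_zero (hE e)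
    have h3 := Nat.dvd_gcd h1 h2
    rw [hc] at h3
    exact AddMonoid.addOrderOf_eq_one_iff.1 (Nat.dvd_one.1 h3)
  have hcf := fun {z : P} (hzc : z ∈ Subgroup.center P) (hz : orderOf z = p) (a : E) (ha : z • a = a) =>
    central_free hp.out hq hpq hE hconst hzc hz a ha
  have hcyc : IsCyclic P := by
    by_contra hcyc
    obtain ⟨z, hzc, hz, N, hNn, hzN, hNc, hNe, hNz⟩ :=
      NormalRankTwo.exists_normal_rank_two hp2 _ P rfl hP hcyc
    have hcz : ∀ g : P, Commute z g := fun g => (Subgroup.mem_center_iff.1 hzc g).symm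
    have hczk : ∀ ζ ∈ Subgroup.zpowers z, ∀ g : P, Commute ζ g := by
      rintro _ ⟨n, rfl⟩ g
      exact (hcz g).zpow_left n
    have hfree : ∀ ζ ∈ Subgroup.zpowers z, ζ ≠ 1 → ∀ v : E, ζ • v = v → v = 0 := by
      intro ζ hζ hζ1 v hv
      exact hcf hzc hz v (fixed_of_ne_one hp.out hz hζ hζ1 hv)
    -- Lemma L
    have hL : ∀ x ∈ N, ∀ ζ ∈ Subgroup.zpowers z, ζ ≠ 1 → ∀ v : E, (x * ζ) • v = v →
        nrm p x v = 0 := by
      intro x hx ζ hζ hζ1 v hv
      apply hfree ζ hζ hζ1
      have h1 : x • nrm p x v = nrm p x v := smul_nrm (hNe x hx) v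
      have h2 : (x * ζ) • nrm p x v = nrm p x v := by
        rw [smul_nrm_comm ((Commute.refl x).mul_right (hczk ζ hζ x).symm), hv]
      have h3 : ζ • nrm p x v = ζ • (x • nrm p x v) := by rw [h1]
      rw [h3, smul_smul, (hczk ζ hζ x).eq, h2]
    -- pick x in N outside zpowers z
    have hx : ∃ x ∈ N, x ∉ Subgroup.zpowers z := by
      by_contra hcon
      push Not at hcon
      have h1 : N ≤ Subgroup.zpowers z := hcon
      have h2 := Subgroup.card_le_of_le h1
      rw [Nat.card_zpowers, hz, hNc] at h2
      have h3 := hp.out.one_lt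
      nlinarith
    obtain ⟨x, hxN, hxz⟩ := hx
    -- some w = x * z ^ j has a nonzero fixed point
    have hw : ∃ w ∈ N, w ∉ Subgroup.zpowers z ∧ ∃ a : E, a ≠ 0 ∧ w • a = a := by
      by_contra hcon
      push Not at hcon
      have hmem : ∀ j : ℕ, x * z ^ j ∈ N ∧ x * z ^ j ∉ Subgroup.zpowers z := by
        intro j
        refine ⟨mul_mem hxN (pow_mem hzN j), fun h => hxz ?_⟩
        have := mul_mem h (inv_mem (Subgroup.npow_mem_zpowers z j))
        simpa using this
      have h0 : ∀ j : ℕ, nrm p (x * z ^ j) e = 0 := by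
        intro j
        by_contra h
        exact hcon _ (hmem j).1 (hmem j).2 _ h (smul_nrm (hNe _ (hmem j).1) e)
      have h1 : ∑ j ∈ Finset.range p, nrm p (x * z ^ j) e = p • e := by
        unfold nrm
        rw [Finset.sum_comm]
        rw [Finset.sum_eq_single 0]
        · simp
        · intro i hi hi0
          have h2 : ∑ j ∈ Finset.range p, (x * z ^ j) ^ i • e = x ^ i • nrm p (z ^ i) e := by
            unfold nrm
            rw [Finset.smul_sum]
            refine Finset.sum_congr rfl fun j _ => ?_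
            rw [smul_smul]
            congr 1
            have : Commute x (z ^ j) := ((hcz x).pow_left j).symm
            rw [this.mul_pow, ← pow_mul, ← pow_mul, mul_comm i j]
          rw [h2]
          have h3 : nrm p (z ^ i) e = 0 := by
            apply hfree (z ^ i) (Subgroup.npow_mem_zpowers z i)
            · intro h
              have h4 := orderOf_dvd_of_pow_eq_one h
              rw [hz] at h4
              have h5 := Nat.le_of_dvd (Nat.pos_of_ne_zero hi0) h4
              rw [Finset.mem_range] at hi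
              omega
            · apply smul_nrm
              rw [← pow_mul, mul_comm, pow_mul, ← hz, pow_orderOf_eq_one, one_pow]
          rw [h3, smul_zero]
        · intro h
          exact absurd (Finset.mem_range.2 hp.out.pos) h
      rw [Finset.sum_eq_zero (fun j _ => h0 j)] at h1
      exact he (hpe e h1.symm)
    obtain ⟨w, hwN, hwz, a, ha0, ha⟩ := hw
    have hword : orderOf w = p := by
      apply orderOf_eq_prime (hNe w hwN)
      rintro rfl
      exact hwz (one_mem _)
    have hnc : w ∉ Subgroup.center P := by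
      intro h
      exact ha0 (hcf h hword a ha)
    rw [Subgroup.mem_center_iff] at hnc
    push Not at hnc
    obtain ⟨g, hg⟩ := hnc
    obtain ⟨z₁, hz₁, hz₁def⟩ : ∃ z₁ ∈ Subgroup.zpowers z, g * w * g⁻¹ = w * z₁ := by
      refine ⟨g * w * g⁻¹ * w⁻¹, hNz w hwN g, ?_⟩
      rw [← (hczk _ (hNz w hwN g) w).eq]; group
    have hz₁1 : z₁ ≠ 1 := by
      rintro rfl
      apply hg
      calc g * w = (g * w * g⁻¹) * g := by group
        _ = w * g := by rw [hz₁def, mul_one]
    set b : E := g • a with hb
    have hb0 : b ≠ 0 := by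
      intro h
      apply ha0
      have : g⁻¹ • (g • a) = g⁻¹ • (0 : E) := by rw [← hb, h]
      rwa [inv_smul_smul, smul_zero] at this
    have hbfix : (w * z₁) • b = b := by
      rw [← hz₁def, hb, smul_smul]
      have : g * w * g⁻¹ * g = g * w := by group
      rw [this, mul_smul, ha]
    have hab : a + b ≠ 0 := by
      intro h
      have h1 : nrm p w (a + b) = 0 := by
        rw [h]; unfold nrm; simp
      rw [nrm_add, hL w hwN z₁ hz₁ hz₁1 b hbfix, nrm_of_fixed ha, add_zero] at h1
      exact ha0 (hpe a h1)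
    have hsub : ∀ h : P, h • (a + b) = a + b → h • a = a ∧ h • b = b := by
      intro h hh
      rw [smul_add] at hh
      obtain ⟨ζ, hζ, hζdef⟩ : ∃ ζ ∈ Subgroup.zpowers z, h * w * h⁻¹ = w * ζ := by
        refine ⟨h * w * h⁻¹ * w⁻¹, hNz w hwN h, ?_⟩
        rw [← (hczk _ (hNz w hwN h) w).eq]; group
      have hha : (w * ζ) • (h • a) = h • a := by
        rw [← hζdef, smul_smul]
        have : h * w * h⁻¹ * h = h * w := by group
        rw [this, mul_smul, ha]
      have hhb : (w * z₁ * ζ) • (h • b) = h • b := by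
        have h1 : w * z₁ * ζ = h * (w * z₁) * h⁻¹ := by
          calc w * z₁ * ζ = w * (z₁ * ζ) := by group
            _ = w * (ζ * z₁) := by rw [(hczk z₁ hz₁ ζ).eq]
            _ = (h * w * h⁻¹) * z₁ := by rw [hζdef]; group
            _ = (h * w) * (h⁻¹ * z₁) := by group
            _ = (h * w) * (z₁ * h⁻¹) := by rw [(hczk z₁ hz₁ h⁻¹).eq]
            _ = h * (w * z₁) * h⁻¹ := by group
        rw [h1, smul_smul]
        have : h * (w * z₁) * h⁻¹ * h = h * (w * z₁) := by group
        rw [this, mul_smul, hbfix]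
      by_cases hζ1 : ζ = 1
      · rw [hζ1, mul_one] at hha hhb
        have h1 := congrArg (nrm p w) hh
        rw [nrm_add, nrm_add, nrm_of_fixed hha, nrm_of_fixed ha, hL w hwN z₁ hz₁ hz₁1 _ hhb,
          hL w hwN z₁ hz₁ hz₁1 _ hbfix, add_zero, add_zero] at h1
        have h2 : p • (h • a - a) = 0 := by rw [smul_sub, h1, sub_self]
        have h3 : h • a = a := sub_eq_zero.1 (hpe _ h2)
        rw [h3] at hh
        exact ⟨h3, add_left_cancel hh⟩
      · exfalso
        by_cases hζz : z₁ * ζ = 1
        · -- apply the norm of w₁ = w * z₁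
          have hw₁N : w * z₁ ∈ N := by
            have : Subgroup.zpowers z ≤ N := by rwa [Subgroup.zpowers_le]
            exact mul_mem hwN (this hz₁)
          have h1 := congrArg (nrm p (w * z₁)) hh
          have e1 : (w * z₁) * (z₁⁻¹ * ζ) = w * ζ := by group
          have e2 : (w * z₁) * z₁⁻¹ = w := by group
          have hne : z₁⁻¹ * ζ ≠ 1 := by
            intro h2
            have h3 : ζ = z₁ := by
              calc ζ = z₁ * (z₁⁻¹ * ζ) := by group
                _ = z₁ := by rw [h2, mul_one]
            rw [h3] at hζz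
            have h4 : orderOf z₁ ∣ 2 := orderOf_dvd_of_pow_eq_one (by rw [pow_two, hζz])
            have h5 : orderOf z₁ ∣ p := by
              have h0 := Subgroup.orderOf_dvd_natCard _ hz₁
              rwa [Nat.card_zpowers, hz] at h0
            rcases (Nat.dvd_prime hp.out).1 h5 with h6 | h6
            · exact hz₁1 (orderOf_eq_one_iff.1 h6)
            · rw [h6] at h4
              exact hp2 ((Nat.prime_dvd_prime_iff_eq hp.out Nat.prime_two).1 h4)
          rw [nrm_add, nrm_add, hL _ hw₁N (z₁⁻¹ * ζ) (mul_mem (inv_mem hz₁) hζ) hne _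
              (by rw [e1]; exact hha),
            hL _ hw₁N ζ hζ hζ1 _ hhb,
            hL _ hw₁N z₁⁻¹ (inv_mem hz₁) (inv_ne_one.2 hz₁1) _ (by rw [e2]; exact ha),
            nrm_of_fixed hbfix, zero_add, zero_add] at h1
          exact hb0 (hpe b h1.symm)
        · have h1 := congrArg (nrm p w) hh
          rw [nrm_add, nrm_add, hL w hwN ζ hζ hζ1 _ hha,
            hL w hwN (z₁ * ζ) (mul_mem hz₁ hζ) hζz _ (by rw [← mul_assoc]; exact hhb),
            hL w hwN z₁ hz₁ hz₁1 _ hbfix, nrm_of_fixed ha, add_zero, add_zero] at h1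
          exact ha0 (hpe a h1.symm)
    have h1 : MulAction.stabilizer P (a + b) = MulAction.stabilizer P a := by
      apply Subgroup.eq_of_le_of_card_ge
      · intro g hg; exact (hsub g hg).1
      · rw [hconst (a + b) a hab ha0]
    have h2 : MulAction.stabilizer P (a + b) = MulAction.stabilizer P b := by
      apply Subgroup.eq_of_le_of_card_ge
      · intro g hg; exact (hsub g hg).2
      · rw [hconst (a + b) b hab hb0]
    have h3 : w ∈ MulAction.stabilizer P b := by
      rw [← h2, h1]; exact ha
    have h4 : w • b = b := h3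
    have h5 := hL w hwN z₁ hz₁ hz₁1 _ hbfix
    rw [nrm_of_fixed h4] at h5
    exact hb0 (hpe b h5)
  refine ⟨hcyc, ?_⟩
  intro g hg a ha
  obtain ⟨k, hk⟩ := IsPGroup.iff_orderOf.1 hP g
  have hk0 : k ≠ 0 := by
    rintro rfl
    rw [pow_zero, orderOf_eq_one_iff] at hk
    exact hg hk
  obtain ⟨j, rfl⟩ := Nat.exists_eq_succ_of_ne_zero hk0
  have hzord : orderOf (g ^ (p ^ j)) = p := by
    rw [orderOf_pow' _ (pow_ne_zero _ hp.out.ne_zero), hk]
    have : Nat.gcd (p ^ (j + 1)) (p ^ j) = p ^ j := Nat.gcd_eq_right (pow_dvd_pow p (Nat.le_succ j))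
    rw [Nat.succ_eq_add_one, this, pow_succ]
    exact Nat.mul_div_cancel_left p (pow_pos hp.out.pos _)
  have hzc : g ^ (p ^ j) ∈ Subgroup.center P := by
    rw [Subgroup.mem_center_iff]
    intro h
    letI := hcyc.commGroup
    exact mul_comm h _
  exact hcf hzc hzord a (smul_pow_fixed ha _)

end Cfsg.Agent.Lib.ConstStab
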