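import Mathlib
import Cfsg.Agent.Lib.OrthNd

set_option autoImplicit false
set_option linter.unusedSectionVars false

/-!
Subgroups of `Om Q` with small index: the geometry of the Siegel elements they contain.
-/

namespace Cfsg.Agent.Lib.Coop

open QuadraticMap Module Cfsg.Agent.Lib.Quad Cfsg.Agent.Lib.OrthMax Cfsg.Agent.Lib.OrthNd

variable {F V : Type*} [Field F] [AddCommGroup V] [Module F V] [FiniteDimensional F V]
  {Q : QuadraticForm F V} {H : Subgroup (V ≃ₗ[F] V)}

/-- the Siegel element with centre `z` and vector `w` lies in `H` -/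
def TT (Q : QuadraticForm F V) (H : Subgroup (V ≃ₗ[F] V)) (z w : V) : Prop :=
  polar Q z w = 0 ∧ SI Q H z w

theorem TT.add {z w w' : V} (hz : Q z = 0) (h : TT Q H z w) (h' : TT Q H z w') :
    TT Q H z (w + w') :=
  ⟨by rw [polar_add_right, h.1, h'.1, add_zero], h.2.add hz h.1 h'.1 h'.2⟩

theorem TT.neg {z w : V} (hz : Q z = 0) (h : TT Q H z w) : TT Q H z (-w) :=
  ⟨by rw [polar_neg_right, h.1, neg_zero], h.2.neg hz h.1⟩

theorem TT.sub {z w w' : V} (hz : Q z = 0) (h : TT Q H z w) (h' : TT Q H z w') :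
    TT Q H z (w - w') := by
  rw [sub_eq_add_neg]; exact h.add hz (h'.neg hz)

theorem TT.zero (z : V) : TT Q H z 0 := ⟨polar_zero_right Q z, SI.zero z⟩

theorem TT.self {z : V} (hz : Q z = 0) (c : F) : TT Q H z (c • z) := by
  refine ⟨by rw [polar_smul_right, polar_self', hz]; simp, 1, one_mem _, fun x => ?_⟩
  rw [siegMap_apply, Q_smul, hz, polar_smul_left]
  simp only [smul_eq_mul, mul_zero, zero_mul, zero_smul, sub_zero]
  show x = _
  module

theorem TT.map (hH : H ≤ O Q) {z w : V} (h : TT Q H z w) {g : V ≃ₗ[F] V} (hg : g ∈ H) :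
    TT Q H (g z) (g w) :=
  ⟨by rw [O_polar (hH hg)]; exact h.1, h.2.map hg (hH hg)⟩

theorem TT.smul_left {c : F} (hc : c ≠ 0) {z w : V} : TT Q H (c • z) w ↔ TT Q H z (c • w) := by
  rw [TT, TT, SI.smul_left, polar_smul_left, polar_smul_right]

/-- symmetry for singular vectors -/
theorem TT.symm {z w : V} (hz : Q z = 0) (hw : Q w = 0) (h : TT Q H z w) : TT Q H w (-z) := by
  obtain ⟨h1, g, hg, hgx⟩ := h
  refine ⟨by rw [polar_neg_right, polar_comm, h1, neg_zero], g, hg, fun x => ?_⟩
  rw [hgx, siegMap_apply, siegMap_apply, QuadraticMap.map_neg, hz, hw, polar_neg_left]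
  module

/-- the additive group of vectors `w` such that the Siegel element `(z, w)` lies in `H` -/
def TA (Q : QuadraticForm F V) (H : Subgroup (V ≃ₗ[F] V)) (z : V) : AddSubgroup V :=
  AddSubgroup.closure {w | TT Q H z w}

theorem mem_TA {z w : V} (hz : Q z = 0) : w ∈ TA Q H z ↔ TT Q H z w := by
  constructor
  · intro h
    rw [TA] at h
    induction h using AddSubgroup.closure_induction with
    | mem x hx => exact hx
    | zero => exact TT.zero z
    | add x y _ _ hx hy => exact hx.add hz hy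
    | neg x _ hx => exact hx.neg hz
  · intro h; exact AddSubgroup.subset_closure h

/-- the largest subspace of the group of vectors `w` such that the Siegel element `(z, w)` lies in `H` -/
def KK (Q : QuadraticForm F V) (H : Subgroup (V ≃ₗ[F] V)) (z : V) : Submodule F V :=
  Submodule.span F {w | ∀ c : F, TT Q H z (c • w)}

theorem mem_KK {z w : V} (hz : Q z = 0) : w ∈ KK Q H z ↔ ∀ c : F, TT Q H z (c • w) := by
  constructor
  · intro h
    rw [KK] at h
    induction h using Submodule.span_induction with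
    | mem x hx => exact hx
    | zero => intro c; rw [smul_zero]; exact TT.zero z
    | add x y _ _ hx hy => intro c; rw [smul_add]; exact (hx c).add hz (hy c)
    | smul d x _ hx => intro c; rw [smul_smul]; exact hx _
  · intro h; exact Submodule.subset_span h

theorem KK_polar {z w : V} (hz : Q z = 0) (h : w ∈ KK Q H z) : polar Q z w = 0 := by
  have := ((mem_KK hz).1 h 1).1
  rwa [one_smul] at this

theorem KK_SI {z w : V} (hz : Q z = 0) (h : w ∈ KK Q H z) : SI Q H z w := by
  have := ((mem_KK hz).1 h 1).2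
  rwa [one_smul] at this

theorem self_mem_KK {z : V} (hz : Q z = 0) : z ∈ KK Q H z := (mem_KK hz).2 fun c => TT.self hz c

theorem KK_symm {z w : V} (hz : Q z = 0) (hw : Q w = 0) (h : w ∈ KK Q H z) : z ∈ KK Q H w := by
  rw [mem_KK hw]
  intro c
  have h1 := (mem_KK hz).1 h (-c)
  by_cases hc : c = 0
  · rw [hc, zero_smul]; exact TT.zero w
  have h2 := h1.symm hz (by rw [Q_smul, hw, mul_zero])
  rw [TT.smul_left (neg_ne_zero.2 hc), smul_neg, neg_smul, neg_neg] at h2
  exact h2

theorem KK_comm {z w : V} (hz : Q z = 0) (hw : Q w = 0) : w ∈ KK Q H z ↔ z ∈ KK Q H w :=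
  ⟨KK_symm hz hw, KK_symm hw hz⟩

theorem KK_map (hH : H ≤ O Q) {z w : V} (hz : Q z = 0) {g : V ≃ₗ[F] V} (hg : g ∈ H)
    (h : w ∈ KK Q H z) : g w ∈ KK Q H (g z) := by
  rw [mem_KK (by rw [hH hg, hz])]
  intro c
  rw [← map_smul]
  exact ((mem_KK hz).1 h c).map hH hg

theorem KK_map_iff (hH : H ≤ O Q) {z w : V} (hz : Q z = 0) {g : V ≃ₗ[F] V} (hg : g ∈ H) :
    g w ∈ KK Q H (g z) ↔ w ∈ KK Q H z := by
  constructor
  · intro h
    have h1 := KK_map hH (by rw [hH hg, hz]) (inv_mem hg) h
    have e : ∀ x, g⁻¹ (g x) = x := fun x => g.symm_apply_apply x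
    rwa [e, e] at h1
  · exact KK_map hH hz hg

theorem KK_smul {z : V} (hz : Q z = 0) {c : F} (hc : c ≠ 0) : KK Q H (c • z) = KK Q H z := by
  ext w
  rw [mem_KK hz, mem_KK (by rw [Q_smul, hz, mul_zero])]
  constructor
  · intro h d
    have := h (c⁻¹ * d)
    rwa [TT.smul_left hc, smul_smul, mul_inv_cancel_left₀ hc] at this
  · intro h d
    rw [TT.smul_left hc, smul_smul]; exact h _

/-- big centres -/
def Big (Q : QuadraticForm F V) (H : Subgroup (V ≃ₗ[F] V)) (z : V) : Prop :=
  z ≠ 0 ∧ Q z = 0 ∧ Nat.card F ^ 3 < Nat.card (TA Q H z)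

theorem Big.smul {z : V} (h : Big Q H z) {c : F} (hc : c ≠ 0) : Big Q H (c • z) := by
  obtain ⟨h0, hz, h⟩ := h
  have hcz : Q (c • z) = 0 := by rw [Q_smul, hz, mul_zero]
  refine ⟨smul_ne_zero hc h0, hcz, ?_⟩
  have e : Nat.card (TA Q H (c • z)) = Nat.card (TA Q H z) := by
    refine Nat.card_congr ?_
    refine Equiv.subtypeEquiv (LinearEquiv.smulOfNeZero F V c hc).toEquiv fun w => ?_
    show w ∈ TA Q H (c • z) ↔ c • w ∈ TA Q H z
    rw [mem_TA hz, mem_TA hcz, TT.smul_left hc]
  rw [e]; exact h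

theorem Big.map (hH : H ≤ O Q) {z : V} (h : Big Q H z) {g : V ≃ₗ[F] V} (hg : g ∈ H) :
    Big Q H (g z) := by
  obtain ⟨h0, hz, h⟩ := h
  have hgz : Q (g z) = 0 := by rw [hH hg, hz]
  refine ⟨fun h1 => h0 (g.injective (by rw [h1, map_zero])), hgz, ?_⟩
  have e : Nat.card (TA Q H (g z)) = Nat.card (TA Q H z) := by
    symm
    refine Nat.card_congr ?_
    refine Equiv.subtypeEquiv g.toEquiv fun w => ?_
    show w ∈ TA Q H z ↔ g w ∈ TA Q H (g z)
    rw [mem_TA hz, mem_TA hgz]
    constructor
    · intro h1; exact h1.map hH hg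
    · intro h1
      have h2 := h1.map hH (inv_mem hg)
      have e : ∀ x, g⁻¹ (g x) = x := fun x => g.symm_apply_apply x
      rwa [e, e] at h2
  rw [e]; exact h

theorem card_span_pair_le [Finite F] (a b : V) :
    Nat.card (Submodule.span F {a, b}) ≤ Nat.card F ^ 2 := by
  classical
  haveI := Fintype.ofFinite F
  have h3 := finrank_span_finset_le_card (R := F) ({a, b} : Finset V)
  have h4 : ({a, b} : Finset V).card ≤ 2 := Finset.card_le_two (a := a) (b := b)
  rw [Finset.coe_pair] at h3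
  rw [Module.natCard_eq_pow_finrank (K := F)]
  exact Nat.pow_le_pow_right Nat.card_pos (h3.trans h4)

/-- a big centre has a Siegel element with vector orthogonal to, but outside, any line -/
theorem Big.exists_out [Finite F] {z : V} (h : Big Q H z) (b : V) (S : Submodule F V)
    (hS : Nat.card S ≤ Nat.card F ^ 2) : ∃ w, TT Q H z w ∧ polar Q b w = 0 ∧ w ∉ S := by
  haveI : Finite V := Module.finite_of_finite F
  obtain ⟨h0, hz, h⟩ := h
  by_contra hcon
  push Not at hcon
  let φ : TA Q H z →+ F := ((polarBilin Q b).toAddMonoidHom).comp (TA Q H z).subtype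
  have h1 : Nat.card φ.ker * Nat.card φ.range = Nat.card (TA Q H z) := by
    rw [← AddSubgroup.index_ker, AddSubgroup.card_mul_index]
  have h2 : Nat.card φ.ker ≤ Nat.card S := by
    refine Nat.card_le_card_of_injective (fun x => (⟨((x : TA Q H z) : V), ?_⟩ : S)) ?_
    · exact hcon _ ((mem_TA hz).1 (x : TA Q H z).2) x.2
    · intro x y hxy
      exact Subtype.ext (Subtype.ext (Subtype.mk.inj hxy))
  have h3 : Nat.card φ.range ≤ Nat.card F := Nat.card_le_card_of_injective _ Subtype.val_injective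
  have h4 : Nat.card φ.ker * Nat.card φ.range ≤ Nat.card F ^ 2 * Nat.card F :=
    Nat.mul_le_mul (h2.trans hS) h3
  rw [h1] at h4
  have h5 : Nat.card F ^ 3 = Nat.card F ^ 2 * Nat.card F := by ring
  omega

/-- the largeness criterion -/
theorem big_of [Finite F] (hQ : Nd Q) (hn : 7 ≤ finrank F V) {a z b b' : V} (ha0 : a ≠ 0) (ha : Q a = 0)
    (h : ∀ w, polar Q z w = 0 → polar Q b w = 0 → ∃ c : F, TT Q H a (w + c • b')) : Big Q H a := by
  classical
  haveI : Finite V := Module.finite_of_finite F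
  refine ⟨ha0, ha, ?_⟩
  have h1 : finrank F V ≤ finrank F (perp Q (Submodule.span F {z, b})) + 2 := by
    have := finrank_cut hQ (⊤ : Submodule F V) z b
    rwa [finrank_top, top_inf_eq] at this
  have h2 : Nat.card (perp Q (Submodule.span F {z, b})) ≤ Nat.card (TA Q H a) * Nat.card F := by
    rw [← Nat.card_prod]
    have hx : ∀ x : perp Q (Submodule.span F {z, b}), ∃ c : F, TT Q H a ((x : V) + c • b') := by
      intro x
      have := mem_perp_span.1 x.2
      exact h _ (this z (by simp)) (this b (by simp))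
    choose c hc using hx
    refine Nat.card_le_card_of_injective
      (fun x => ((⟨_, (mem_TA ha).2 (hc x)⟩ : TA Q H a), c x)) ?_
    intro x y hxy
    have e2 : c x = c y := congrArg Prod.snd hxy
    have e1 : (x : V) + c x • b' = (y : V) + c y • b' := congrArg (fun p => (p.1 : V)) hxy
    rw [e2] at e1
    exact Subtype.ext (add_right_cancel e1)
  rw [Module.natCard_eq_pow_finrank (K := F)] at h2
  have hq : 1 < Nat.card F := Finite.one_lt_card
  have h3 : Nat.card F ^ 5 ≤ Nat.card F ^ finrank F (perp Q (Submodule.span F {z, b})) :=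
    Nat.pow_le_pow_right hq.le (by omega)
  have h4 : Nat.card F ^ 4 * Nat.card F ≤ Nat.card (TA Q H a) * Nat.card F := by
    calc Nat.card F ^ 4 * Nat.card F = Nat.card F ^ 5 := by ring
      _ ≤ _ := h3.trans h2
  have h5 := Nat.le_of_mul_le_mul_right h4 (by omega)
  refine lt_of_lt_of_le ?_ h5
  exact Nat.pow_lt_pow_right hq (by norm_num)

end Cfsg.Agent.Lib.Coop
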