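import Mathlib
import Cfsg.Agent.Lib.CoopA
import Cfsg.Agent.Lib.OrthPoint

set_option autoImplicit false
set_option linter.unusedSectionVars false

/-!
Geometry of a subgroup of `Om Q` satisfying the dichotomy for totally singular lines.
-/

namespace Cfsg.Agent.Lib.Coop

open QuadraticMap Module Cfsg.Agent.Lib.Quad Cfsg.Agent.Lib.OrthMax Cfsg.Agent.Lib.OrthNd

variable {F V : Type*} [Field F] [AddCommGroup V] [Module F V] [FiniteDimensional F V]
  {Q : QuadraticForm F V} {H : Subgroup (V ≃ₗ[F] V)}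

/-- the dichotomy for totally singular lines -/
def Dich (Q : QuadraticForm F V) (H : Subgroup (V ≃ₗ[F] V)) : Prop :=
  ∀ z b : V, z ≠ 0 → Q z = 0 → Q b = 0 → polar Q z b = 0 → b ∉ F ∙ z → b ∉ KK Q H z →
  ∃ a ∈ Submodule.span F {z, b}, ∃ b' ∈ Submodule.span F {z, b}, a ≠ 0 ∧
    (∀ w, polar Q z w = 0 → polar Q b w = 0 → ∃ c : F, TT Q H a (w + c • b')) ∧
    ∀ a' ∈ Submodule.span F {z, b}, a' ∉ F ∙ a → ∀ w, polar Q z w = 0 → polar Q b w = 0 →
      TT Q H a' w → w ∈ Submodule.span F {z, b}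

theorem mem_KK_of_mem_span {z b : V} (hz : Q z = 0) (h : b ∈ F ∙ z) : b ∈ KK Q H z := by
  obtain ⟨c, rfl⟩ := Submodule.mem_span_singleton.1 h
  exact Submodule.smul_mem _ _ (self_mem_KK hz)

theorem ts_span {z b a : V} (hz : Q z = 0) (hb : Q b = 0) (hzb : polar Q z b = 0)
    (ha : a ∈ Submodule.span F {z, b}) : Q a = 0 := by
  obtain ⟨x, y, rfl⟩ := Submodule.mem_span_pair.1 ha
  rw [Q_add, Q_smul, Q_smul, hz, hb, polar_smul_left, polar_smul_right, hzb]; simp

theorem polar_span {z b a w : V} (ha : a ∈ Submodule.span F {z, b}) (h1 : polar Q z w = 0)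
    (h2 : polar Q b w = 0) : polar Q a w = 0 := by
  obtain ⟨x, y, rfl⟩ := Submodule.mem_span_pair.1 ha
  rw [polar_add_left, polar_smul_left, polar_smul_left, h1, h2]; simp

/-- the line property of big centres -/
theorem big_line [Finite F] (hD : Dich Q H) {z b : V} (hz : Big Q H z) (hb : Q b = 0)
    (hzb : polar Q z b = 0) (hbK : b ∉ KK Q H z) :
    (∀ w, polar Q z w = 0 → polar Q b w = 0 → ∃ c : F, TT Q H z (w + c • b)) ∧
    ∀ a' ∈ Submodule.span F {z, b}, a' ∉ F ∙ z → ¬ Big Q H a' := by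
  have hbz : b ∉ F ∙ z := fun h => hbK (mem_KK_of_mem_span hz.2.1 h)
  obtain ⟨a, ha, b', hb', ha0, h1, h2⟩ := hD z b hz.1 hz.2.1 hb hzb hbz hbK
  have hQa : Q a = 0 := ts_span hz.2.1 hb hzb ha
  have hza : z ∈ F ∙ a := by
    by_contra hza
    obtain ⟨w, hw1, hw2, hw3⟩ := hz.exists_out b (Submodule.span F {z, b}) (card_span_pair_le z b)
    exact hw3 (h2 z (Submodule.subset_span (by simp)) hza w hw1.1 hw2 hw1)
  obtain ⟨c, hc⟩ := Submodule.mem_span_singleton.1 hza
  have hc0 : c ≠ 0 := by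
    rintro rfl
    rw [zero_smul] at hc
    exact hz.1 hc.symm
  have haz : a = c⁻¹ • z := by rw [← hc, smul_smul, inv_mul_cancel₀ hc0, one_smul]
  constructor
  · intro w hw1 hw2
    obtain ⟨d, hd⟩ := h1 (c • w) (by rw [polar_smul_right, hw1, smul_zero])
      (by rw [polar_smul_right, hw2, smul_zero])
    obtain ⟨x, y, hxy⟩ := Submodule.mem_span_pair.1 hb'
    have h3 : TT Q H a (c • (w + (c⁻¹ * (d * y)) • b)) := by
      have h4 := hd.sub hQa (TT.self (H := H) hQa (d * x * c))
      have e : c • w + d • b' - (d * x * c) • a = c • (w + (c⁻¹ * (d * y)) • b) := by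
        rw [← hxy, ← hc, smul_add c w, smul_smul c, mul_inv_cancel_left₀ hc0]
        module
      rwa [e] at h4
    refine ⟨c⁻¹ * (d * y), ?_⟩
    rw [← hc, TT.smul_left hc0]
    exact h3
  · intro a' ha' ha'z hbig
    have ha'a : a' ∉ F ∙ a := by
      intro h
      apply ha'z
      obtain ⟨x, rfl⟩ := Submodule.mem_span_singleton.1 h
      rw [haz, smul_smul]
      exact Submodule.smul_mem _ _ (Submodule.mem_span_singleton_self z)
    obtain ⟨w, hw1, hw2, hw3⟩ := hbig.exists_out z (Submodule.span F {z, b}) (card_span_pair_le z b)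
    obtain ⟨x, y, hxy⟩ := Submodule.mem_span_pair.1 ha'
    have hy : y ≠ 0 := by
      rintro rfl
      apply ha'z
      rw [← hxy, zero_smul, add_zero]
      exact Submodule.smul_mem _ _ (Submodule.mem_span_singleton_self z)
    have hbw : polar Q b w = 0 := by
      have h5 := hw1.1
      rw [← hxy, polar_add_left, polar_smul_left, polar_smul_left, hw2, smul_zero, zero_add,
        smul_eq_mul] at h5
      exact (mul_eq_zero.1 h5).resolve_left hy
    exact hw3 (h2 a' ha' ha'a w hw2 hbw hw1)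

theorem mem_KK_of_big [Finite F] (hD : Dich Q H) {z y : V} (hz : Big Q H z) (hy : Big Q H y)
    (hzy : polar Q z y = 0) : y ∈ KK Q H z := by
  by_contra h
  exact (big_line hD hz hy.2.1 hzy h).2 y (Submodule.subset_span (by simp))
    (fun h' => h (mem_KK_of_mem_span hz.2.1 h')) hy

theorem finrank_pair {z b : V} (hz0 : z ≠ 0) (hbz : b ∉ F ∙ z) :
    finrank F (Submodule.span F {z, b}) = 2 := by
  have := finrank_span_eq_card (R := F) (b := ![z, b])
    ((LinearIndependent.pair_iff' hz0).2 fun c hc => hbz (Submodule.mem_span_singleton.2 ⟨c, hc⟩))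
  have e : Set.range ![z, b] = {z, b} := by
    ext x
    constructor
    · rintro ⟨i, rfl⟩; fin_cases i <;> simp
    · rintro (rfl | rfl)
      exacts [⟨0, rfl⟩, ⟨1, rfl⟩]
  rw [e] at this
  simpa using this

/-- on a line not in the family some vector is big -/
theorem exists_big_on [Finite F] (hQ : Nd Q) (hn : 7 ≤ finrank F V) (hD : Dich Q H) {z b : V}
    (hz0 : z ≠ 0) (hz : Q z = 0) (hb : Q b = 0)
    (hzb : polar Q z b = 0) (hbz : b ∉ F ∙ z) (hbK : b ∉ KK Q H z) :
    ∃ a ∈ Submodule.span F {z, b}, Big Q H a ∧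
      ∀ a' ∈ Submodule.span F {z, b}, a' ∉ F ∙ a → ¬ Big Q H a' := by
  obtain ⟨a, ha, b', hb', ha0, h1, h2⟩ := hD z b hz0 hz hb hzb hbz hbK
  have hQa : Q a = 0 := ts_span hz hb hzb ha
  have hbig : Big Q H a := big_of hQ hn ha0 hQa h1
  refine ⟨a, ha, hbig, fun a' ha' haa' hbig' => ?_⟩
  have hQa' : Q a' = 0 := ts_span hz hb hzb ha'
  have e : Submodule.span F {a, a'} ≤ Submodule.span F {z, b} := by
    rw [Submodule.span_le]
    rintro x (rfl | rfl)
    · exact ha
    · exact ha'
  have e2 : Submodule.span F {a, a'} = Submodule.span F {z, b} := by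
    apply Submodule.eq_of_le_of_finrank_le e
    have h3 : finrank F (Submodule.span F {z, b}) ≤ 2 := by
      classical
      have h3 := finrank_span_finset_le_card (R := F) ({z, b} : Finset V)
      rw [Finset.coe_pair] at h3
      exact h3.trans Finset.card_le_two
    have h4 := finrank_pair ha0 haa'
    omega
  obtain ⟨w, hw1, hw2, hw3⟩ := hbig'.exists_out a (Submodule.span F {z, b}) (card_span_pair_le z b)
  have hz' : z ∈ Submodule.span F {a, a'} := by rw [e2]; exact Submodule.subset_span (by simp)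
  have hb'' : b ∈ Submodule.span F {a, a'} := by rw [e2]; exact Submodule.subset_span (by simp)
  exact hw3 (h2 a' ha' haa' w (polar_span hz' hw2 hw1.1) (polar_span hb'' hw2 hw1.1) hw1)

/-- a subspace containing all singular vectors of a subspace with a hyperbolic pair -/
theorem le_of_sing {P K : Submodule F V} {e f : V} (he : e ∈ P) (hf : f ∈ P) (hqe : Q e = 0)
    (hqf : Q f = 0) (hef : polar Q e f = 1) (h : ∀ s ∈ P, Q s = 0 → s ∈ K) : P ≤ K := by
  intro y hy
  obtain ⟨y', hy'⟩ : ∃ y', y' = y - polar Q f y • e - polar Q e y • f := ⟨_, rfl⟩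
  have hy'P : y' ∈ P := by
    rw [hy']
    exact P.sub_mem (P.sub_mem hy (P.smul_mem _ he)) (P.smul_mem _ hf)
  have h1 : polar Q e y' = 0 := by
    rw [hy', polar_sub_right, polar_sub_right, polar_smul_right, polar_smul_right, polar_self',
      hqe, hef]; simp
  have h2 : polar Q f y' = 0 := by
    rw [hy', polar_sub_right, polar_sub_right, polar_smul_right, polar_smul_right, polar_self',
      hqf, polar_comm Q f e, hef]; simp
  have h3 : Q (f + y' - Q y' • e) = 0 := by
    rw [Q_sub, Q_add, Q_smul, hqf, hqe, h2, polar_smul_right, polar_add_left,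
      polar_comm Q f e, hef, polar_comm Q y' e, h1]
    simp
  have h4 := h _ (P.sub_mem (P.add_mem hf hy'P) (P.smul_mem (Q y') he)) h3
  have heK := h e he hqe
  have hfK := h f hf hqf
  have h5 : y = (f + y' - Q y' • e) + (Q y' + polar Q f y) • e + (polar Q e y - 1) • f := by
    rw [hy']; module
  rw [h5]
  exact K.add_mem (K.add_mem h4 (K.smul_mem _ heK)) (K.smul_mem _ hfK)

theorem exists_hyp_in [Finite F] (P : Submodule F V) (h : finrank F ↥(P ⊓ perp Q P) + 3 ≤ finrank F P) :
    ∃ e ∈ P, ∃ f ∈ P, Q e = 0 ∧ Q f = 0 ∧ polar Q e f = 1 := by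
  obtain ⟨e, he, heR, hqe⟩ := OrthPoint.exists_sing_avoid (Q := Q) P (P ⊓ perp Q P) h
  have h1 : e ∉ perp Q P := fun h1 => heR ⟨he, h1⟩
  rw [mem_perp'] at h1
  push Not at h1
  obtain ⟨m, hm, hem⟩ := h1
  obtain ⟨h2, h3⟩ := adjust_singular hqe (y := (polar Q e m)⁻¹ • m)
    (by rw [polar_smul_right, smul_eq_mul, inv_mul_cancel₀ hem])
  exact ⟨e, he, _, P.sub_mem (P.smul_mem _ hm) (P.smul_mem _ he), hqe, h2, h3⟩

/-- the orthogonal complement of a small subspace is spanned by its singular vectors -/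
theorem perp_le_of_sing [Finite F] (hQ : Nd Q) {L K : Submodule F V}
    (hL : 2 * finrank F L + 3 ≤ finrank F V) (h : ∀ s ∈ perp Q L, Q s = 0 → s ∈ K) :
    perp Q L ≤ K := by
  have h1 := hQ.finrank_add_finrank_perp L
  have h2 : finrank F ↥(perp Q L ⊓ perp Q (perp Q L)) ≤ finrank F L := by
    rw [hQ.perp_perp]; exact Submodule.finrank_mono inf_le_right
  obtain ⟨e, he, f, hf, hqe, hqf, hef⟩ := exists_hyp_in (Q := Q) (perp Q L) (by omega)
  exact le_of_sing he hf hqe hqf hef h

theorem finrank_pair_le (z b : V) : finrank F (Submodule.span F {z, b}) ≤ 2 := by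
  classical
  have h3 := finrank_span_finset_le_card (R := F) ({z, b} : Finset V)
  rw [Finset.coe_pair] at h3
  exact h3.trans Finset.card_le_two

theorem exists_notMem_KK [Finite F] (hQ : Nd Q) (hn : 7 ≤ finrank F V) {z : V} (hz0 : z ≠ 0)
    (hz : Q z = 0) (hfull : ¬ Full Q H z) : ∃ b, Q b = 0 ∧ polar Q z b = 0 ∧ b ∉ KK Q H z := by
  by_contra hcon
  push Not at hcon
  apply hfull
  refine ⟨hz, fun y hy => KK_SI hz ?_⟩
  have h1 : perp Q (F ∙ z) ≤ KK Q H z := by
    apply perp_le_of_sing hQ (by rw [finrank_span_singleton hz0]; omega)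
    intro s hs hqs
    exact hcon s hqs (mem_perp_singleton.1 hs)
  exact h1 (mem_perp_singleton.2 hy)

end Cfsg.Agent.Lib.Coop
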