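import Mathlib
import Cfsg.Agent.Lib.CoopB

set_option autoImplicit false
set_option linter.unusedSectionVars false

/-!
Geometry of a subgroup of `Om Q` satisfying the dichotomy for totally singular lines: the hyperplanes
attached to big centres.
-/

namespace Cfsg.Agent.Lib.Coop

open QuadraticMap Module Cfsg.Agent.Lib.Quad Cfsg.Agent.Lib.OrthMax Cfsg.Agent.Lib.OrthNd

variable {F V : Type*} [Field F] [AddCommGroup V] [Module F V] [FiniteDimensional F V]
  {Q : QuadraticForm F V} {H : Subgroup (V ≃ₗ[F] V)}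

/-- every totally singular plane on a big centre contains a line of the family on it -/
theorem exists_line_KK [Finite F] (hQ : Nd Q) (hn : 7 ≤ finrank F V) (hD : Dich Q H) {z b b' : V}
    (hz : Big Q H z) (hb : Q b = 0) (hzb : polar Q z b = 0) (hbK : b ∉ KK Q H z) (hb' : Q b' = 0)
    (hzb' : polar Q z b' = 0) (hbb' : polar Q b b' = 0) (hne : b' ∉ Submodule.span F {z, b}) :
    ∃ c : F, b' + c • b ∈ KK Q H z := by
  by_contra hcon
  push Not at hcon
  have hQz := hz.2.1
  have hzK := self_mem_KK (H := H) hQz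
  have key : ∀ β γ : F, β • b + γ • b' ∈ KK Q H z → β = 0 ∧ γ = 0 := by
    intro β γ h
    by_cases hγ : γ = 0
    · rw [hγ, zero_smul, add_zero] at h
      refine ⟨?_, hγ⟩
      by_contra hβ
      exact hbK ((Submodule.smul_mem_iff _ hβ).1 h)
    · exfalso
      apply hcon (γ⁻¹ * β)
      have h1 := Submodule.smul_mem _ γ⁻¹ h
      rw [smul_add, smul_smul, smul_smul, inv_mul_cancel₀ hγ, one_smul, add_comm] at h1
      exact h1
  have hb0 : b ≠ 0 := by rintro rfl; exact hbK (Submodule.zero_mem _)
  have hbz : polar Q b z = 0 := by rw [polar_comm]; exact hzb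
  have claim : ∀ t : F, b' ∈ KK Q H (b + t • z) := by
    intro t
    have h1 : Q (b + t • z) = 0 := by rw [Q_add, Q_smul, hb, hQz, polar_smul_right, hbz]; simp
    have h2 : polar Q (b + t • z) b' = 0 := by
      rw [polar_add_left, polar_smul_left, hbb', hzb']; simp
    have h0 : b + t • z ≠ 0 := by
      intro h
      apply hbK
      rw [← sub_zero b, ← h, sub_add_cancel_left]
      exact Submodule.neg_mem _ (Submodule.smul_mem _ _ hzK)
    have h3 : b' ∉ F ∙ (b + t • z) := by
      intro h
      obtain ⟨c, hc⟩ := Submodule.mem_span_singleton.1 h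
      apply hne
      rw [← hc]
      exact Submodule.smul_mem _ _ (Submodule.add_mem _ (Submodule.subset_span (by simp))
        (Submodule.smul_mem _ _ (Submodule.subset_span (by simp))))
    by_contra h4
    obtain ⟨a, ha, hbig, -⟩ := exists_big_on hQ hn hD h0 h1 hb' h2 h3 h4
    obtain ⟨β, γ, rfl⟩ := Submodule.mem_span_pair.1 ha
    have h5 : polar Q z (β • (b + t • z) + γ • b') = 0 := by
      rw [polar_add_right, polar_smul_right, polar_smul_right, polar_add_right, polar_smul_right, hzb,
        hzb', polar_self', hQz]; simp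
    have h6 := mem_KK_of_big hD hz hbig h5
    have h7 := Submodule.sub_mem _ h6 (Submodule.smul_mem _ (β * t) hzK)
    have e : β • (b + t • z) + γ • b' - (β * t) • z = β • b + γ • b' := by module
    rw [e] at h7
    obtain ⟨rfl, rfl⟩ := key β γ h7
    apply hbig.1
    simp
  have h1 := claim 0
  rw [zero_smul, add_zero] at h1
  have h2 := claim 1
  rw [one_smul] at h2
  have h1' := KK_symm hb hb' h1
  have h2' := KK_symm (by rw [Q_add, hb, hQz, hbz]; simp) hb' h2
  have h3 := Submodule.sub_mem _ h2' h1'
  rw [add_sub_cancel_left] at h3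
  have h4 := KK_symm hb' hQz h3
  have := key 0 1 (by rw [zero_smul, one_smul, zero_add]; exact h4)
  exact one_ne_zero this.2

theorem perp_pair_le [Finite F] (hQ : Nd Q) (hn : 7 ≤ finrank F V) (hD : Dich Q H) {z b : V}
    (hz : Big Q H z) (hb : Q b = 0) (hzb : polar Q z b = 0) (hbK : b ∉ KK Q H z) :
    perp Q (Submodule.span F {z, b}) ≤ KK Q H z ⊔ (F ∙ b) := by
  apply perp_le_of_sing hQ (by have := finrank_pair_le (F := F) z b; omega)
  intro s hs hqs
  have h1 := mem_perp_span.1 hs
  have hzs : polar Q z s = 0 := h1 z (by simp)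
  have hbs : polar Q b s = 0 := h1 b (by simp)
  have hzK := self_mem_KK (H := H) hz.2.1
  by_cases hsp : s ∈ Submodule.span F {z, b}
  · obtain ⟨x, y, rfl⟩ := Submodule.mem_span_pair.1 hsp
    exact Submodule.add_mem_sup (Submodule.smul_mem _ _ hzK)
      (Submodule.smul_mem _ _ (Submodule.mem_span_singleton_self b))
  · obtain ⟨c, hc⟩ := exists_line_KK hQ hn hD hz hb hzb hbK hqs hzs hbs hsp
    have e : s = (s + c • b) + (-c) • b := by module
    rw [e]
    exact Submodule.add_mem_sup hc (Submodule.smul_mem _ _ (Submodule.mem_span_singleton_self b))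

theorem finrank_KK [Finite F] (hQ : Nd Q) (hn : 7 ≤ finrank F V) (hD : Dich Q H) {z : V}
    (hz : Big Q H z) (hfull : ¬ Full Q H z) : finrank F (KK Q H z) + 2 = finrank F V := by
  have hQz := hz.2.1
  have hzK := self_mem_KK (H := H) hQz
  obtain ⟨b, hb, hzb, hbK⟩ := exists_notMem_KK hQ hn hz.1 hQz hfull
  have hbz : b ∉ F ∙ z := fun h => hbK (mem_KK_of_mem_span hQz h)
  have h1 := perp_pair_le hQ hn hD hz hb hzb hbK
  have hfp := finrank_pair hz.1 hbz
  have h2 := hQ.finrank_add_finrank_perp (Submodule.span F {z, b})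
  have h3 := Submodule.finrank_mono h1
  have h4 : finrank F ↥(KK Q H z ⊔ (F ∙ b)) ≤ finrank F (KK Q H z) + 1 := by
    refine (Submodule.finrank_add_le_finrank_add_finrank _ _).trans ?_
    have := finrank_span_singleton (K := F) (v := b) (by rintro rfl; exact hbK (Submodule.zero_mem _))
    omega
  -- upper bound
  have hle : KK Q H z ≤ perp Q (F ∙ z) := fun w hw => mem_perp_singleton.2 (KK_polar hQz hw)
  have h5 := hQ.finrank_add_finrank_perp (F ∙ z)
  rw [finrank_span_singleton hz.1] at h5
  have h6 : finrank F (KK Q H z) < finrank F (perp Q (F ∙ z)) := by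
    apply Submodule.finrank_lt_finrank_of_lt
    refine lt_of_le_of_ne hle fun h => hbK ?_
    rw [h]; exact mem_perp_singleton.2 hzb
  by_contra hcon
  have h7 : finrank F (KK Q H z) + 3 = finrank F V := by omega
  -- then `KK z` is orthogonal to all outside singular vectors
  have key : ∀ c, Q c = 0 → polar Q z c = 0 → c ∉ KK Q H z → ∀ s ∈ KK Q H z, polar Q c s = 0 := by
    intro c hc hzc hcK s hs
    have hcz : c ∉ F ∙ z := fun h => hcK (mem_KK_of_mem_span hQz h)
    have g1 := perp_pair_le hQ hn hD hz hc hzc hcK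
    have gfp := finrank_pair hz.1 hcz
    have g2 := hQ.finrank_add_finrank_perp (Submodule.span F {z, c})
    have g4 : finrank F ↥(KK Q H z ⊔ (F ∙ c)) ≤ finrank F (KK Q H z) + 1 := by
      refine (Submodule.finrank_add_le_finrank_add_finrank _ _).trans ?_
      have := finrank_span_singleton (K := F) (v := c) (by rintro rfl; exact hcK (Submodule.zero_mem _))
      omega
    have g5 := Submodule.eq_of_le_of_finrank_le g1 (by omega)
    have g6 : s ∈ perp Q (Submodule.span F {z, c}) := by
      rw [g5]; exact Submodule.mem_sup_left hs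
    exact mem_perp_span.1 g6 c (by simp)
  obtain ⟨c₁, hc₁, hbc₁⟩ := hQ.exists_polar_one (F ∙ z) hbz
  obtain ⟨hqc, hbc⟩ := adjust_singular hb hbc₁
  set c₀ := c₁ - Q c₁ • b with hc₀
  have hzc : polar Q z c₀ = 0 := by
    rw [hc₀, polar_sub_right, polar_smul_right, hzb, mem_perp_singleton.1 hc₁]; simp
  have hbK' := key b hb hzb hbK
  have hout : ∀ c, polar Q b c = 1 → c ∉ KK Q H z := by
    intro c hc hcK
    have := hbK' c hcK
    rw [hc] at this
    exact one_ne_zero this
  have hcK' := key c₀ hqc hzc (hout c₀ hbc)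
  have h8 : KK Q H z ≤ Submodule.span F {z, b} := by
    rw [← hQ.perp_perp (Submodule.span F {z, b})]
    intro s hs
    rw [mem_perp]
    intro w hw
    have hw' := mem_perp_span.1 hw
    have hzw : polar Q z w = 0 := hw' z (by simp)
    have hbw : polar Q b w = 0 := hw' b (by simp)
    have hwb : polar Q w b = 0 := by rw [polar_comm]; exact hbw
    have g1 : Q (siegMap Q b w c₀) = 0 := by rw [siegMap_Q hb hbw, hqc]
    have hzb' : polar Q z b = 0 := hzb
    have g2 : polar Q z (siegMap Q b w c₀) = 0 := by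
      rw [siegMap_apply, polar_sub_right, polar_sub_right, polar_add_right, polar_smul_right,
        polar_smul_right, polar_smul_right, hzb, hzw, hzc]; simp
    have g3 : polar Q b (siegMap Q b w c₀) = 1 := by
      rw [siegMap_apply, polar_sub_right, polar_sub_right, polar_add_right, polar_smul_right,
        polar_smul_right, polar_smul_right, hbw, hbc, polar_self', hb]; simp
    have g4 := key _ g1 g2 (hout _ g3) s hs
    rw [siegMap_apply, polar_sub_left, polar_sub_left, polar_add_left, polar_smul_left,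
      polar_smul_left, polar_smul_left, hbc, hcK' s hs, hbK' s hs] at g4
    simpa using g4
  have h9 := Submodule.finrank_mono h8
  rw [hfp] at h9
  omega

/-- the 2-space attached to a big centre -/
abbrev tt (Q : QuadraticForm F V) (H : Subgroup (V ≃ₗ[F] V)) (z : V) : Submodule F V :=
  perp Q (KK Q H z)

theorem perp_tt (hQ : Nd Q) (z : V) : perp Q (tt Q H z) = KK Q H z := hQ.perp_perp _

theorem finrank_tt [Finite F] (hQ : Nd Q) (hn : 7 ≤ finrank F V) (hD : Dich Q H) {z : V}
    (hz : Big Q H z) (hfull : ¬ Full Q H z) : finrank F (tt Q H z) = 2 := by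
  have := finrank_KK hQ hn hD hz hfull
  have h2 := hQ.finrank_add_finrank_perp (KK Q H z)
  show finrank F (perp Q (KK Q H z)) = 2
  omega

theorem self_mem_tt {z : V} (hz : Q z = 0) : z ∈ tt Q H z := by
  rw [mem_perp']
  intro w hw
  exact KK_polar hz hw

theorem tt_polar {z t w : V} (ht : t ∈ tt Q H z) (hw : w ∈ KK Q H z) : polar Q t w = 0 :=
  mem_perp'.1 ht w hw

theorem exists_KK_polar {z y : V} (hy : y ∉ tt Q H z) :
    ∃ w ∈ KK Q H z, polar Q y w = 1 := by
  rw [mem_perp'] at hy
  push Not at hy
  obtain ⟨w, hw, h⟩ := hy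
  exact ⟨(polar Q y w)⁻¹ • w, Submodule.smul_mem _ _ hw,
    by rw [polar_smul_right, smul_eq_mul, inv_mul_cancel₀ h]⟩

/-- the singular vectors of `KK z` outside `tt z` are big -/
theorem big_of_mem [Finite F] (hQ : Nd Q) (hn : 7 ≤ finrank F V) (hH : H ≤ O Q) (hD : Dich Q H) {z : V}
    (hz : Big Q H z) (hfull : ¬ Full Q H z) {y : V} (hy : Q y = 0) (hyK : y ∈ KK Q H z)
    (hyt : y ∉ tt Q H z) : Big Q H y := by
  have hQz := hz.2.1
  have hzK := self_mem_KK (H := H) hQz
  have hzy : polar Q z y = 0 := KK_polar hQz hyK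
  have hyz : y ∉ F ∙ z := by
    intro h
    obtain ⟨c, rfl⟩ := Submodule.mem_span_singleton.1 h
    exact hyt (Submodule.smul_mem _ _ (self_mem_tt hQz))
  have hfp := finrank_pair hz.1 hyz
  have hft := finrank_tt hQ hn hD hz hfull
  -- a singular `b` orthogonal to `z`, `y`, outside `KK z`
  obtain ⟨b, hbP, hb, hbK⟩ : ∃ b ∈ perp Q (Submodule.span F {z, y}), Q b = 0 ∧ b ∉ KK Q H z := by
    by_contra hcon
    push Not at hcon
    have h1 : perp Q (Submodule.span F {z, y}) ≤ KK Q H z := perp_le_of_sing hQ (by omega) hcon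
    have h2 : tt Q H z ≤ Submodule.span F {z, y} := by
      rw [← hQ.perp_perp (Submodule.span F {z, y})]
      exact perp_anti h1
    have h3 := Submodule.eq_of_le_of_finrank_eq h2 (by rw [hft, hfp])
    exact hyt (h3 ▸ Submodule.subset_span (by simp))
  have hbP' := mem_perp_span.1 hbP
  have hzb : polar Q z b = 0 := hbP' z (by simp)
  have hyb : polar Q y b = 0 := hbP' y (by simp)
  have key : ∀ t : F, Big Q H (y + t • z) ∨ b ∈ KK Q H (y + t • z) := by
    intro t
    by_contra hcon
    push Not at hcon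
    obtain ⟨hnb, hbu⟩ := hcon
    have hu : Q (y + t • z) = 0 := by
      rw [Q_add, Q_smul, hy, hQz, polar_smul_right, polar_comm, hzy]; simp
    have huK : y + t • z ∈ KK Q H z := Submodule.add_mem _ hyK (Submodule.smul_mem _ _ hzK)
    have hu0 : y + t • z ≠ 0 := by
      intro h
      apply hyz
      rw [← sub_zero y, ← h, sub_add_cancel_left]
      exact Submodule.neg_mem _ (Submodule.smul_mem _ _ (Submodule.mem_span_singleton_self z))
    have hub : polar Q (y + t • z) b = 0 := by rw [polar_add_left, polar_smul_left, hyb, hzb]; simp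
    have hbu' : b ∉ F ∙ (y + t • z) := by
      intro h
      obtain ⟨c, rfl⟩ := Submodule.mem_span_singleton.1 h
      exact hbK (Submodule.smul_mem _ _ huK)
    obtain ⟨a, ha, hbig, -⟩ := exists_big_on hQ hn hD hu0 hu hb hub hbu' hbu
    obtain ⟨β, γ, rfl⟩ := Submodule.mem_span_pair.1 ha
    have h5 : polar Q z (β • (y + t • z) + γ • b) = 0 := by
      rw [polar_add_right, polar_smul_right, polar_smul_right, hzb, KK_polar hQz huK]; simp
    have h6 := mem_KK_of_big hD hz hbig h5
    have h7 := Submodule.sub_mem _ h6 (Submodule.smul_mem _ β huK)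
    rw [add_sub_cancel_left] at h7
    have hγ : γ = 0 := by
      by_contra hγ
      exact hbK ((Submodule.smul_mem_iff _ hγ).1 h7)
    rw [hγ, zero_smul, add_zero] at hbig
    have hβ : β ≠ 0 := by
      rintro rfl
      exact hbig.1 (zero_smul _ _)
    have := hbig.smul (inv_ne_zero hβ)
    rw [smul_smul, inv_mul_cancel₀ hβ, one_smul] at this
    exact hnb this
  rcases key 0 with h0 | h0
  · rwa [zero_smul, add_zero] at h0
  rcases key 1 with h1 | h1
  · rw [one_smul] at h1
    obtain ⟨w, hw, hyw⟩ := exists_KK_polar hyt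
    obtain ⟨g, hg, hgx⟩ := KK_SI hQz hw
    have h2 := h1.map hH hg
    have e : g (y + z) = y := by
      rw [hgx, siegMap_apply, polar_add_right, hzy, polar_self', hQz, polar_add_right,
        polar_comm Q w y, hyw, polar_comm Q w z, KK_polar hQz hw]
      module
    rwa [e] at h2
  · exfalso
    rw [zero_smul, add_zero] at h0
    rw [one_smul] at h1
    have g0 := KK_symm hy hb h0
    have g1 := KK_symm (by rw [Q_add, hy, hQz, polar_comm, hzy]; simp) hb h1
    have g2 := Submodule.sub_mem _ g1 g0
    rw [add_sub_cancel_left] at g2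
    exact hbK (KK_symm hb hQz g2)

end Cfsg.Agent.Lib.Coop
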