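import Mathlib
import Cfsg.Agent.Lib.CoopC

set_option autoImplicit false
set_option linter.unusedSectionVars false

/-!
Geometry of a subgroup of `Om Q` satisfying the dichotomy for totally singular lines: the common point.
-/

namespace Cfsg.Agent.Lib.Coop

open QuadraticMap Module Cfsg.Agent.Lib.Quad Cfsg.Agent.Lib.OrthMax Cfsg.Agent.Lib.OrthNd

variable {F V : Type*} [Field F] [AddCommGroup V] [Module F V] [FiniteDimensional F V]
  {Q : QuadraticForm F V} {H : Subgroup (V ≃ₗ[F] V)}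

theorem tt_map (hH : H ≤ O Q) {z t : V} (hz : Q z = 0) {g : V ≃ₗ[F] V} (hg : g ∈ H)
    (h : t ∈ tt Q H z) : g t ∈ tt Q H (g z) := by
  rw [mem_perp']
  intro w hw
  have e : g (g⁻¹ w) = w := g.apply_symm_apply w
  rw [← e] at hw ⊢
  rw [O_polar (hH hg)]
  exact tt_polar h ((KK_map_iff hH hz hg).1 hw)

theorem tt_smul {z : V} (hz : Q z = 0) {c : F} (hc : c ≠ 0) : tt Q H (c • z) = tt Q H z := by
  rw [tt, KK_smul hz hc]

/-- composition of Siegel elements with proportional data -/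
theorem SI_split {z b w : V} (hz : Q z = 0) (hb : Q b = 0) (hzb : polar Q z b = 0)
    (hzw : polar Q z w = 0) (hbw : polar Q b w = 0) (h1 : SI Q H z (Q w • b))
    (h2 : SI Q H (z + b) w) (h3 : SI Q H b w) : SI Q H z w := by
  obtain ⟨g₁, hg₁, h1⟩ := h1
  obtain ⟨g₂, hg₂, h2⟩ := h2
  obtain ⟨g₃, hg₃, h3⟩ := h3
  refine ⟨g₁ * g₂ * g₃⁻¹, mul_mem (mul_mem hg₁ hg₂) (inv_mem hg₃), fun x => ?_⟩
  obtain ⟨x, rfl⟩ := g₃.surjective x
  have e : (g₁ * g₂ * g₃⁻¹) (g₃ x) = g₁ (g₂ x) := by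
    show (g₁ * g₂ * g₃⁻¹ * g₃) x = _
    rw [inv_mul_cancel_right]; rfl
  rw [e, h1, h2, h3]
  have hbz : polar Q b z = 0 := by rw [polar_comm]; exact hzb
  have hwz : polar Q w z = 0 := by rw [polar_comm]; exact hzw
  have hwb : polar Q w b = 0 := by rw [polar_comm]; exact hbw
  have hzz : polar Q z z = 0 := by rw [polar_self', hz, mul_zero]
  have hbb : polar Q b b = 0 := by rw [polar_self', hb, mul_zero]
  simp only [siegMap_apply, polar_add_right, polar_sub_right, polar_smul_right, polar_add_left,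
    polar_smul_left, hbz, hwz, hwb, hzz, hbb, hzb, hzw, hbw, smul_eq_mul, mul_zero, sub_zero, add_zero,
    Q_smul, hb, polar_self']
  module

theorem KK_of_two {z b w : V} (hz : Q z = 0) (hb : Q b = 0) (hbK : b ∈ KK Q H z)
    (hzw : polar Q z w = 0) (h2 : w ∈ KK Q H (z + b)) (h3 : w ∈ KK Q H b) : w ∈ KK Q H z := by
  have hzb := KK_polar hz hbK
  have hbw := KK_polar hb h3
  have hs : Q (z + b) = 0 := by rw [Q_add, hz, hb, hzb]; simp
  rw [mem_KK hz]
  intro c
  refine ⟨by rw [polar_smul_right, hzw, smul_zero], SI_split hz hb hzb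
    (by rw [polar_smul_right, hzw, smul_zero]) (by rw [polar_smul_right, hbw, smul_zero])
    (KK_SI hz (Submodule.smul_mem _ _ hbK)) (KK_SI hs (Submodule.smul_mem _ _ h2))
    (KK_SI hb (Submodule.smul_mem _ _ h3))⟩

section

variable [Finite F] (hQ : Nd Q) (hn : 7 ≤ finrank F V) (hH : H ≤ O Q) (hD : Dich Q H)
  (hnf : ∀ z, Big Q H z → ¬ Full Q H z)

include hQ hn hH hD hnf

theorem notMem_tt {z y : V} (hz : Big Q H z) (hy : Q y = 0) (hyK : y ∈ KK Q H z)
    (hyt : y ∉ tt Q H z) : z ∉ tt Q H y := by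
  intro hzt
  have hQz := hz.2.1
  have hby := big_of_mem hQ hn hH hD hz (hnf z hz) hy hyK hyt
  have hzy : polar Q z y = 0 := KK_polar hQz hyK
  have hyz' : polar Q y z = 0 := by rw [polar_comm]; exact hzy
  have hzy' : z ∉ F ∙ y := by
    intro h
    obtain ⟨c, hc⟩ := Submodule.mem_span_singleton.1 h
    have hc0 : c ≠ 0 := by rintro rfl; rw [zero_smul] at hc; exact hz.1 hc.symm
    apply hyt
    have : y = c⁻¹ • z := by rw [← hc, smul_smul, inv_mul_cancel₀ hc0, one_smul]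
    rw [this]; exact Submodule.smul_mem _ _ (self_mem_tt hQz)
  have h1 : Submodule.span F {y, z} = tt Q H y := by
    apply Submodule.eq_of_le_of_finrank_eq
    · rw [Submodule.span_le]
      rintro x (rfl | rfl)
      · exact self_mem_tt hy
      · exact hzt
    · rw [finrank_pair hby.1 hzy', finrank_tt hQ hn hD hby (hnf y hby)]
  have hK : ∀ v, v ∈ KK Q H y ↔ polar Q y v = 0 ∧ polar Q z v = 0 := by
    intro v
    rw [← perp_tt hQ, ← h1, mem_perp_span]
    simp
  obtain ⟨w, hw, hyw⟩ := exists_KK_polar hyt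
  obtain ⟨g, hg, hgx⟩ := KK_SI hQz hw
  have hzw := KK_polar hQz hw
  have e1 : g y = y - z := by
    rw [hgx, siegMap_apply, hzy, polar_comm Q w y, hyw]; module
  have e2 : g z = z := by
    rw [hgx, siegMap_apply, polar_self', hQz, polar_comm Q w z, hzw]; module
  apply hyt
  rw [mem_perp']
  intro v hv
  by_contra hyv
  -- `perp {y, z} ≤ KK z`
  have h2 : ∀ v, polar Q y v = 0 → polar Q z v = 0 → v ∈ KK Q H z := by
    intro v hyv hzv
    have hzyK : z ∈ KK Q H y := KK_symm hQz hy hyK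
    have h3 : v ∈ KK Q H y := (hK v).2 ⟨hyv, hzv⟩
    have h4 : v ∈ KK Q H (y - z) := by
      rw [← e1]
      have e : g (g⁻¹ v) = v := g.apply_symm_apply v
      rw [← e, KK_map_iff hH hy hg, hK]
      constructor
      · have : polar Q (g y) (g (g⁻¹ v)) = 0 := by
          rw [e, e1, polar_sub_left, hyv, hzv, sub_zero]
        rwa [O_polar (hH hg)] at this
      · have : polar Q (g z) (g (g⁻¹ v)) = 0 := by rw [e, e2, hzv]
        rwa [O_polar (hH hg)] at this
    have hs : Q (y - z) = 0 := by rw [Q_sub, hy, hQz, hyz']; simp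
    refine KK_of_two (b := y - z) hQz hs (Submodule.sub_mem _ hyK (self_mem_KK hQz)) hzv ?_ h4
    rw [add_sub_cancel]; exact h3
  have h3 : tt Q H z ≤ Submodule.span F {y, z} := by
    rw [← hQ.perp_perp (Submodule.span F {y, z})]
    apply perp_anti
    intro v hv
    have := mem_perp_span.1 hv
    exact h2 v (this y (by simp)) (this z (by simp))
  have h4 := Submodule.eq_of_le_of_finrank_eq h3 (by
    rw [finrank_tt hQ hn hD hz (hnf z hz), finrank_pair hby.1 hzy'])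
  exact hyt (h4 ▸ Submodule.subset_span (by simp))

theorem exists_inter {z y : V} (hz : Big Q H z) (hy : Q y = 0) (hyK : y ∈ KK Q H z)
    (hyt : y ∉ tt Q H z) : ∃ t, t ≠ 0 ∧ t ∈ tt Q H z ∧ t ∈ tt Q H y := by
  have hQz := hz.2.1
  have hzt := notMem_tt hQ hn hH hD hnf hz hy hyK hyt
  have hzy : polar Q z y = 0 := KK_polar hQz hyK
  have hyz : polar Q y z = 0 := by rw [polar_comm]; exact hzy
  obtain ⟨v, hv, hyv⟩ := exists_KK_polar hyt
  obtain ⟨v', hv', hzv'⟩ := exists_KK_polar hzt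
  obtain ⟨g, hg, hgx⟩ := KK_SI hQz (Submodule.neg_mem _ hv)
  obtain ⟨g', hg', hgx'⟩ := KK_SI hy hv'
  have hft := finrank_tt hQ hn hD hz (hnf z hz)
  -- the vector
  obtain ⟨t, ht, ht0⟩ : ∃ t ∈ tt Q H z ⊓ perp Q (F ∙ v'), t ≠ 0 := by
    apply Submodule.exists_mem_ne_zero_of_ne_bot
    intro hbot
    have h1 := Submodule.finrank_sup_add_finrank_inf_eq (tt Q H z) (perp Q (F ∙ v'))
    rw [hbot, finrank_bot] at h1
    have h2 := hQ.finrank_add_finrank_perp (F ∙ v')
    have h3 : finrank F (F ∙ v') ≤ 1 := by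
      have := finrank_span_finset_le_card (R := F) ({v'} : Finset V)
      rwa [Finset.coe_singleton, Finset.card_singleton] at this
    have h4 := Submodule.finrank_le (tt Q H z ⊔ perp Q (F ∙ v'))
    omega
  obtain ⟨htz, htv⟩ := ht
  have hv't : polar Q v' t = 0 := mem_perp_singleton.1 htv
  have hyt' : polar Q y t = 0 := by rw [polar_comm]; exact tt_polar htz hyK
  have hzt' : polar Q z t = 0 := by rw [polar_comm]; exact tt_polar htz (self_mem_KK hQz)
  have hvt' : polar Q v t = 0 := by rw [polar_comm]; exact tt_polar htz hv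
  refine ⟨t, ht0, htz, ?_⟩
  have e1 : (g * g') t = t := by
    rw [LinearEquiv.mul_apply, hgx', siegMap_apply, hyt', hv't, hgx, siegMap_apply]
    simp only [zero_smul, add_zero, sub_zero, mul_zero]
    rw [hzt', polar_neg_left, hvt']
    module
  have hv'z : polar Q v' z = 1 := by rw [polar_comm]; exact hzv'
  have hvy : polar Q v y = 1 := by rw [polar_comm]; exact hyv
  have hvz : polar Q v z = 0 := by rw [polar_comm]; exact KK_polar hQz hv
  have e2 : (g * g') z = -y := by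
    have e3 : g' z = z - y := by
      rw [hgx', siegMap_apply, hyz, hv'z]; module
    rw [LinearEquiv.mul_apply, e3, hgx, siegMap_apply, polar_sub_right, polar_self', hQz, hzy,
      polar_neg_left, polar_sub_right, hvz, hvy]
    module
  have h5 := tt_map hH hQz (mul_mem hg hg') htz
  rw [e1, e2, show -y = (-1 : F) • y by rw [neg_smul, one_smul], tt_smul hy (neg_ne_zero.2 one_ne_zero)] at h5
  exact h5

/-- `tt y` is spanned by `y` and a common vector with `tt z`; hence the orthogonal of `y` in `KK z` lies in `KK y` -/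
theorem KK_inf_le {z y : V} (hz : Big Q H z) (hy : Q y = 0) (hyK : y ∈ KK Q H z)
    (hyt : y ∉ tt Q H z) {w : V} (hw : w ∈ KK Q H z) (hyw : polar Q y w = 0) : w ∈ KK Q H y := by
  obtain ⟨t, ht0, htz, hty⟩ := exists_inter hQ hn hH hD hnf hz hy hyK hyt
  have hby := big_of_mem hQ hn hH hD hz (hnf z hz) hy hyK hyt
  have h1 : t ∉ F ∙ y := by
    intro h
    obtain ⟨c, rfl⟩ := Submodule.mem_span_singleton.1 h
    have hc : c ≠ 0 := by rintro rfl; exact ht0 (zero_smul _ _)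
    exact hyt ((Submodule.smul_mem_iff _ hc).1 htz)
  have h2 : Submodule.span F {y, t} = tt Q H y := by
    apply Submodule.eq_of_le_of_finrank_eq
    · rw [Submodule.span_le]
      rintro x (rfl | rfl)
      · exact self_mem_tt hy
      · exact hty
    · rw [finrank_pair hby.1 h1, finrank_tt hQ hn hD hby (hnf y hby)]
  rw [← perp_tt hQ, ← h2, mem_perp_span]
  rintro x (rfl | rfl)
  · exact hyw
  · exact tt_polar htz hw

theorem step {z y₁ y₂ y₃ t : V} (hz : Big Q H z) (hy₁ : Q y₁ = 0) (hy₁K : y₁ ∈ KK Q H z)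
    (hy₂ : Q y₂ = 0) (hy₂K : y₂ ∈ KK Q H z) (hy₃ : Q y₃ = 0) (hy₃K : y₃ ∈ KK Q H z)
    (h31 : polar Q y₃ y₁ ≠ 0) (h32 : polar Q y₃ y₂ ≠ 0) (htz : t ∈ tt Q H z) (ht : t ∈ tt Q H y₁) :
    t ∈ tt Q H y₂ := by
  have hy₃t : y₃ ∉ tt Q H z := fun h => h31 (tt_polar h hy₁K)
  obtain ⟨α, hα⟩ : ∃ α, α = polar Q y₃ y₁ / polar Q y₃ y₂ := ⟨_, rfl⟩
  have hα0 : α ≠ 0 := by rw [hα]; exact div_ne_zero h31 h32
  have h1 : polar Q y₃ (α • y₂) = polar Q y₃ y₁ := by
    rw [polar_smul_right, smul_eq_mul, hα, div_mul_cancel₀ _ h32]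
  obtain ⟨w, hw⟩ : ∃ w, w = (polar Q y₃ y₁)⁻¹ • (α • y₂ - y₁) := ⟨_, rfl⟩
  have hwK : w ∈ KK Q H z := by
    rw [hw]
    exact Submodule.smul_mem _ _ (Submodule.sub_mem _ (Submodule.smul_mem _ _ hy₂K) hy₁K)
  have hw3 : polar Q y₃ w = 0 := by
    rw [hw, polar_smul_right, polar_sub_right, h1, sub_self, smul_zero]
  have hwK3 := KK_inf_le hQ hn hH hD hnf hz hy₃ hy₃K hy₃t hwK hw3
  obtain ⟨g, hg, hgx⟩ := KK_SI hy₃ hwK3
  have e1 : g y₁ = α • y₂ := by
    have hQw : Q w * polar Q y₃ y₁ = - ((polar Q y₃ y₁)⁻¹ * (α * polar Q y₂ y₁)) := by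
      rw [hw, Q_smul, Q_sub, Q_smul, hy₁, hy₂, polar_smul_left, smul_eq_mul]
      field_simp
      ring
    have hwy : polar Q w y₁ = (polar Q y₃ y₁)⁻¹ * (α * polar Q y₂ y₁) := by
      rw [hw, polar_smul_left, polar_sub_left, polar_smul_left, polar_self', hy₁]
      simp [smul_eq_mul]
    rw [hgx, siegMap_apply, hQw, hwy]
    have : polar Q y₃ y₁ • w = α • y₂ - y₁ := by
      rw [hw, smul_smul, mul_inv_cancel₀ h31, one_smul]
    rw [this]
    module
  have e2 : g t = t := by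
    rw [hgx, siegMap_apply, polar_comm Q y₃ t, tt_polar htz hy₃K, polar_comm Q w t, tt_polar htz hwK]
    simp
  have h2 := tt_map hH hy₁ hg ht
  rwa [e1, e2, tt_smul hy₂ hα0] at h2

theorem exists_common_nonperp {z y₁ y₂ : V} (hz : Big Q H z) (hy₁ : Q y₁ = 0) (hy₁K : y₁ ∈ KK Q H z)
    (hy₁t : y₁ ∉ tt Q H z) (hy₂ : Q y₂ = 0) (hy₂K : y₂ ∈ KK Q H z) (hy₂t : y₂ ∉ tt Q H z) :
    ∃ y₃ ∈ KK Q H z, Q y₃ = 0 ∧ polar Q y₃ y₁ ≠ 0 ∧ polar Q y₃ y₂ ≠ 0 := by
  have hfK := finrank_KK hQ hn hD hz (hnf z hz)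
  have hft := finrank_tt hQ hn hD hz (hnf z hz)
  by_cases h12 : polar Q y₁ y₂ = 0
  · obtain ⟨w₁, hw₁, h1⟩ := exists_KK_polar hy₁t
    obtain ⟨w₂, hw₂, h2⟩ := exists_KK_polar hy₂t
    obtain ⟨w, hw, h3, h4⟩ : ∃ w ∈ KK Q H z, polar Q y₁ w ≠ 0 ∧ polar Q y₂ w ≠ 0 := by
      by_cases h5 : polar Q y₂ w₁ = 0
      · by_cases h6 : polar Q y₁ w₂ = 0
        · refine ⟨w₁ + w₂, Submodule.add_mem _ hw₁ hw₂, ?_, ?_⟩
          · rw [polar_add_right, h1, h6, add_zero]; exact one_ne_zero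
          · rw [polar_add_right, h5, h2, zero_add]; exact one_ne_zero
        · exact ⟨w₂, hw₂, h6, by rw [h2]; exact one_ne_zero⟩
      · exact ⟨w₁, hw₁, by rw [h1]; exact one_ne_zero, h5⟩
    refine ⟨w - (Q w / polar Q y₁ w) • y₁, Submodule.sub_mem _ hw (Submodule.smul_mem _ _ hy₁K), ?_, ?_, ?_⟩
    · rw [Q_sub, Q_smul, hy₁, polar_smul_right, polar_comm Q w y₁, smul_eq_mul, div_mul_cancel₀ _ h3]
      ring
    · rw [polar_sub_left, polar_smul_left, polar_self', hy₁, polar_comm Q w y₁]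
      simpa using h3
    · rw [polar_sub_left, polar_smul_left, h12, polar_comm Q w y₂]
      simpa using h4
  · obtain ⟨d, hd, hQd⟩ : ∃ d ∈ KK Q H z ⊓ perp Q (Submodule.span F {y₁, y₂}), Q d ≠ 0 := by
      by_contra hcon
      push Not at hcon
      have h1 := finrank_cut hQ (KK Q H z) y₁ y₂
      have h2 : KK Q H z ⊓ perp Q (Submodule.span F {y₁, y₂}) ≤ tt Q H z := by
        have h3 := le_perp_of_ts hcon
        intro m hm
        have h4 := h3 hm
        rw [← perp_tt hQ, ← perp_sup, hQ.perp_perp] at h4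
        obtain ⟨s, hs, u, hu, rfl⟩ := Submodule.mem_sup.1 h4
        obtain ⟨x, y, rfl⟩ := Submodule.mem_span_pair.1 hu
        have h5 := mem_perp_span.1 hm.2
        have h6 := h5 y₁ (by simp)
        have h7 := h5 y₂ (by simp)
        have h21 : polar Q y₂ y₁ ≠ 0 := by rw [polar_comm]; exact h12
        rw [polar_add_right, polar_add_right, polar_smul_right, polar_smul_right, polar_self', hy₁,
          polar_comm Q y₁ s, tt_polar hs hy₁K] at h6
        rw [polar_add_right, polar_add_right, polar_smul_right, polar_smul_right, polar_self', hy₂,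
          polar_comm Q y₂ s, tt_polar hs hy₂K] at h7
        simp only [mul_zero, add_zero, zero_add, smul_eq_mul] at h6 h7
        rw [(mul_eq_zero.1 h6).resolve_right h12, (mul_eq_zero.1 h7).resolve_right h21]
        simpa using hs
      have h3 := Submodule.finrank_mono h2
      omega
    obtain ⟨hdK, hd'⟩ := hd
    have h5 := mem_perp_span.1 hd'
    have hd1 := h5 y₁ (by simp)
    have hd2 := h5 y₂ (by simp)
    have h21 : polar Q y₂ y₁ ≠ 0 := by rw [polar_comm]; exact h12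
    refine ⟨(-(Q d) / polar Q y₁ y₂) • y₁ + y₂ + d, Submodule.add_mem _ (Submodule.add_mem _
      (Submodule.smul_mem _ _ hy₁K) hy₂K) hdK, ?_, ?_, ?_⟩
    · rw [Q_add, Q_add, Q_smul, hy₁, hy₂, polar_smul_left, polar_add_left, polar_smul_left, hd1, hd2,
        smul_eq_mul, div_mul_cancel₀ _ h12]
      simp
    · rw [polar_add_left, polar_add_left, polar_smul_left, polar_self', hy₁, polar_comm Q d y₁, hd1]
      simpa using h21
    · rw [polar_add_left, polar_add_left, polar_smul_left, polar_self' (x := y₂), hy₂, polar_comm Q d y₂, hd2,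
        smul_eq_mul, div_mul_cancel₀ _ h12]
      simpa using hQd

/-- the common point is well defined -/
theorem tt_indep {z y₁ y₂ t : V} (hz : Big Q H z) (hy₁ : Q y₁ = 0) (hy₁K : y₁ ∈ KK Q H z)
    (hy₁t : y₁ ∉ tt Q H z) (hy₂ : Q y₂ = 0) (hy₂K : y₂ ∈ KK Q H z) (hy₂t : y₂ ∉ tt Q H z)
    (htz : t ∈ tt Q H z) (ht : t ∈ tt Q H y₁) : t ∈ tt Q H y₂ := by
  obtain ⟨y₃, hy₃K, hy₃, h31, h32⟩ := exists_common_nonperp hQ hn hH hD hnf hz hy₁ hy₁K hy₁t hy₂ hy₂K hy₂t
  exact step hQ hn hH hD hnf hz hy₁ hy₁K hy₂ hy₂K hy₃ hy₃K h31 h32 htz ht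

end

end Cfsg.Agent.Lib.Coop
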