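import Mathlib
import Cfsg.Agent.Lib.CoopD

set_option autoImplicit false
set_option linter.unusedSectionVars false

/-!
A proper subgroup of `Om Q` satisfying the dichotomy for totally singular lines fixes a point.
-/

namespace Cfsg.Agent.Lib.Coop

open QuadraticMap Module Cfsg.Agent.Lib.Quad Cfsg.Agent.Lib.OrthMax Cfsg.Agent.Lib.OrthNd

variable {F V : Type*} [Field F] [AddCommGroup V] [Module F V] [FiniteDimensional F V]
  {Q : QuadraticForm F V} {H : Subgroup (V ≃ₗ[F] V)}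

/-- `v` is the common vector at `z` -/
def Cm (Q : QuadraticForm F V) (H : Subgroup (V ≃ₗ[F] V)) (z v : V) : Prop :=
  v ∈ tt Q H z ∧ ∀ y, Q y = 0 → y ∈ KK Q H z → y ∉ tt Q H z → v ∈ tt Q H y

section

variable [Finite F] (hQ : Nd Q) (hn : 7 ≤ finrank F V) (hH : H ≤ O Q) (hD : Dich Q H)
  (hnf : ∀ z, Big Q H z → ¬ Full Q H z)

include hQ hn hH hD hnf

theorem exists_out_tt {z : V} (hz : Big Q H z) : ∃ y, Q y = 0 ∧ y ∈ KK Q H z ∧ y ∉ tt Q H z := by
  by_contra hcon
  push Not at hcon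
  have hft := finrank_tt hQ hn hD hz (hnf z hz)
  have hfK := finrank_KK hQ hn hD hz (hnf z hz)
  have h1 : perp Q (tt Q H z) ≤ tt Q H z := by
    apply perp_le_of_sing hQ (by omega)
    intro s hs hqs
    rw [perp_tt hQ] at hs
    exact hcon s hqs hs
  rw [perp_tt hQ] at h1
  have := Submodule.finrank_mono h1
  omega

theorem exists_Cm {z : V} (hz : Big Q H z) : ∃ v, v ≠ 0 ∧ Cm Q H z v := by
  obtain ⟨y, hy, hyK, hyt⟩ := exists_out_tt hQ hn hH hD hnf hz
  obtain ⟨t, ht0, htz, hty⟩ := exists_inter hQ hn hH hD hnf hz hy hyK hyt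
  refine ⟨t, ht0, htz, fun y' hy' hy'K hy't => ?_⟩
  exact tt_indep hQ hn hH hD hnf hz hy hyK hyt hy' hy'K hy't htz hty

theorem Cm.next {z v y : V} (hz : Big Q H z) (h : Cm Q H z v) (hy : Q y = 0) (hyK : y ∈ KK Q H z)
    (hyt : y ∉ tt Q H z) : Cm Q H y v := by
  have hby := big_of_mem hQ hn hH hD hz (hnf z hz) hy hyK hyt
  refine ⟨h.2 y hy hyK hyt, fun y' hy' hy'K hy't => ?_⟩
  exact tt_indep hQ hn hH hD hnf hby hz.2.1 (KK_symm hz.2.1 hy hyK)
    (notMem_tt hQ hn hH hD hnf hz hy hyK hyt) hy' hy'K hy't (h.2 y hy hyK hyt) h.1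

theorem Cm.opp {z z' v : V} (hz : Big Q H z) (hz' : Big Q H z') (h : Cm Q H z v)
    (hzz' : polar Q z z' ≠ 0) : Cm Q H z' v := by
  have hft := finrank_tt hQ hn hD hz (hnf z hz)
  have hft' := finrank_tt hQ hn hD hz' (hnf z' hz')
  have hfK := finrank_KK hQ hn hD hz (hnf z hz)
  have hz'z : polar Q z' z ≠ 0 := by rw [polar_comm]; exact hzz'
  obtain ⟨M, hM⟩ : ∃ M, M = KK Q H z ⊓ perp Q (F ∙ z') := ⟨_, rfl⟩
  have hMf : finrank F V ≤ finrank F M + 3 := by
    have h1 := finrank_cut hQ (KK Q H z) z' z'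
    have h1' := Submodule.finrank_sup_add_finrank_inf_eq (KK Q H z) (perp Q (F ∙ z'))
    have h2 := hQ.finrank_add_finrank_perp (F ∙ z')
    have h3 : finrank F (F ∙ z') ≤ 1 := by
      have := finrank_span_finset_le_card (R := F) ({z'} : Finset V)
      rwa [Finset.coe_singleton, Finset.card_singleton] at this
    have h4 := Submodule.finrank_le (KK Q H z ⊔ perp Q (F ∙ z'))
    rw [hM]; omega
  have hsub : ∀ (u u' : V), u ∈ tt Q H u → polar Q u u' ≠ 0 → finrank F (tt Q H u) = 2 →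
      finrank F ↥(tt Q H u ⊓ perp Q (F ∙ u')) ≤ 1 := by
    intro u u' hu huu' hf
    have : finrank F ↥(tt Q H u ⊓ perp Q (F ∙ u')) < finrank F (tt Q H u) := by
      apply Submodule.finrank_lt_finrank_of_lt
      refine lt_of_le_of_ne inf_le_left fun h => huu' ?_
      have h1 : u ∈ tt Q H u ⊓ perp Q (F ∙ u') := by rw [h]; exact hu
      rw [polar_comm]
      exact mem_perp_singleton.1 h1.2
    omega
  have hs1 := hsub z z' (self_mem_tt hz.2.1) hzz' hft
  have hs2 := hsub z' z (self_mem_tt hz'.2.1) hz'z hft'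
  have hrad : finrank F ↥(M ⊓ perp Q M) ≤ 1 := by
    refine (Submodule.finrank_mono ?_).trans hs1
    rintro m ⟨hm, hm'⟩
    have h1 : M = perp Q (tt Q H z ⊔ (F ∙ z')) := by rw [perp_sup, perp_tt hQ, hM]
    rw [h1, hQ.perp_perp] at hm'
    obtain ⟨t, ht, u, hu, rfl⟩ := Submodule.mem_sup.1 hm'
    obtain ⟨c, rfl⟩ := Submodule.mem_span_singleton.1 hu
    rw [hM] at hm
    have h2 := KK_polar hz.2.1 hm.1
    rw [polar_add_right, polar_smul_right, polar_comm Q z t, tt_polar ht (self_mem_KK hz.2.1),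
      zero_add, smul_eq_mul] at h2
    have hc := (mul_eq_zero.1 h2).resolve_right hzz'
    rw [hc, zero_smul, add_zero] at hm ⊢
    exact ⟨ht, hm.2⟩
  obtain ⟨e, he, f, hf, hqe, hqf, hef⟩ := exists_hyp_in (Q := Q) M (by omega)
  obtain ⟨y, hyM, hy, hyN⟩ : ∃ y ∈ M, Q y = 0 ∧
      y ∉ (tt Q H z ⊓ perp Q (F ∙ z')) ⊔ (tt Q H z' ⊓ perp Q (F ∙ z)) := by
    by_contra hcon
    push Not at hcon
    have h1 := le_of_sing he hf hqe hqf hef hcon
    have h2 := Submodule.finrank_mono h1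
    have h3 := Submodule.finrank_add_le_finrank_add_finrank (tt Q H z ⊓ perp Q (F ∙ z'))
      (tt Q H z' ⊓ perp Q (F ∙ z))
    omega
  rw [hM] at hyM
  have hyK := hyM.1
  have hyz' : polar Q z' y = 0 := mem_perp_singleton.1 hyM.2
  have hzy : polar Q z y = 0 := KK_polar hz.2.1 hyK
  have hyt : y ∉ tt Q H z := fun h1 => hyN (Submodule.mem_sup_left ⟨h1, hyM.2⟩)
  have hyt' : y ∉ tt Q H z' := fun h1 =>
    hyN (Submodule.mem_sup_right ⟨h1, mem_perp_singleton.2 hzy⟩)
  have hby := big_of_mem hQ hn hH hD hz (hnf z hz) hy hyK hyt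
  have hC := h.next hQ hn hH hD hnf hz hy hyK hyt
  have hyK' := mem_KK_of_big hD hz' hby hyz'
  have hz'K := KK_symm hz'.2.1 hy hyK'
  have hz't := notMem_tt hQ hn hH hD hnf hz' hy hyK' hyt'
  have hv := hC.2 z' hz'.2.1 hz'K hz't
  refine ⟨hv, fun y' hy' hy'K hy't => ?_⟩
  exact tt_indep hQ hn hH hD hnf hz' hy hyK' hyt' hy' hy'K hy't hv hC.1

theorem Cm.all {z z' v : V} (hz : Big Q H z) (hz' : Big Q H z') (h : Cm Q H z v) : v ∈ tt Q H z' := by
  by_cases hzz' : polar Q z z' = 0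
  swap
  · exact (h.opp hQ hn hH hD hnf hz hz' hzz').1
  have hz'K := mem_KK_of_big hD hz hz' hzz'
  by_cases hz't : z' ∈ tt Q H z
  swap
  · exact h.2 z' hz'.2.1 hz'K hz't
  -- an opposite big centre
  obtain ⟨y, hy, hyK, hyt⟩ := exists_out_tt hQ hn hH hD hnf hz
  have hby := big_of_mem hQ hn hH hD hz (hnf z hz) hy hyK hyt
  have hzy := notMem_tt hQ hn hH hD hnf hz hy hyK hyt
  have hzK := KK_symm hz.2.1 hy hyK
  obtain ⟨u, huK, hu, hzu⟩ : ∃ u ∈ KK Q H y, Q u = 0 ∧ polar Q z u ≠ 0 := by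
    by_contra hcon
    push Not at hcon
    apply hzy
    have h1 : perp Q (tt Q H y) ≤ perp Q (F ∙ z) := by
      apply perp_le_of_sing hQ (by rw [finrank_tt hQ hn hD hby (hnf y hby)]; omega)
      intro s hs hqs
      rw [perp_tt hQ] at hs
      exact mem_perp_singleton.2 (hcon s hs hqs)
    rw [perp_tt hQ] at h1
    rw [mem_perp']
    intro w hw
    exact mem_perp_singleton.1 (h1 hw)
  have hut : u ∉ tt Q H y := fun h1 => hzu (by rw [polar_comm]; exact tt_polar h1 hzK)
  have hbu := big_of_mem hQ hn hH hD hby (hnf y hby) hu huK hut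
  have hCu := h.opp hQ hn hH hD hnf hz hbu hzu
  by_cases huz' : polar Q u z' = 0
  swap
  · exact (hCu.opp hQ hn hH hD hnf hbu hz' huz').1
  have hz'Ku := mem_KK_of_big hD hbu hz' huz'
  by_cases hz'u : z' ∈ tt Q H u
  swap
  · exact hCu.2 z' hz'.2.1 hz'Ku hz'u
  by_cases hmem : z' ∈ F ∙ z
  · obtain ⟨c, rfl⟩ := Submodule.mem_span_singleton.1 hmem
    have hc : c ≠ 0 := by rintro rfl; exact hz'.1 (zero_smul _ _)
    rw [tt_smul hz.2.1 hc]
    exact h.1
  have h1 : Submodule.span F {z, z'} = tt Q H z := by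
    apply Submodule.eq_of_le_of_finrank_eq
    · rw [Submodule.span_le]
      rintro x (rfl | rfl)
      · exact self_mem_tt hz.2.1
      · exact hz't
    · rw [finrank_pair hz.1 hmem, finrank_tt hQ hn hD hz (hnf z hz)]
  have h2 := h.1
  rw [← h1] at h2
  obtain ⟨α, β, rfl⟩ := Submodule.mem_span_pair.1 h2
  have h3 := tt_polar hCu.1 (self_mem_KK hbu.2.1)
  rw [polar_add_left, polar_smul_left, polar_smul_left, polar_comm Q z' u, huz', smul_zero,
    add_zero, smul_eq_mul] at h3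
  have hα := (mul_eq_zero.1 h3).resolve_right hzu
  rw [hα, zero_smul, zero_add]
  exact Submodule.smul_mem _ _ (self_mem_tt hz'.2.1)

/-- no full point: a common vector -/
theorem exists_fixed_of_big {z : V} (hz : Big Q H z) : ∃ v, v ≠ 0 ∧ ∀ h ∈ H, h v ∈ F ∙ v := by
  obtain ⟨v, hv0, hC⟩ := exists_Cm hQ hn hH hD hnf hz
  refine ⟨v, hv0, fun h hh => ?_⟩
  obtain ⟨y, hy, hyK, hyt⟩ := exists_out_tt hQ hn hH hD hnf hz
  have hby := big_of_mem hQ hn hH hD hz (hnf z hz) hy hyK hyt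
  have key : ∀ u, Big Q H u → h v ∈ tt Q H u := by
    intro u hu
    have h1 := hC.all hQ hn hH hD hnf hz (hu.map hH (inv_mem hh))
    have h2 := tt_map hH (by rw [hH (inv_mem hh)]; exact hu.2.1) hh h1
    have e : h (h⁻¹ u) = u := h.apply_symm_apply u
    rwa [e] at h2
  by_contra hcon
  have h1 : Submodule.span F {v, h v} = tt Q H z := by
    apply Submodule.eq_of_le_of_finrank_eq
    · rw [Submodule.span_le]
      rintro x (rfl | rfl)
      · exact hC.1
      · exact key z hz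
    · rw [finrank_pair hv0 hcon, finrank_tt hQ hn hD hz (hnf z hz)]
  have h2 : Submodule.span F {v, h v} = tt Q H y := by
    apply Submodule.eq_of_le_of_finrank_eq
    · rw [Submodule.span_le]
      rintro x (rfl | rfl)
      · exact hC.all hQ hn hH hD hnf hz hby
      · exact key y hby
    · rw [finrank_pair hv0 hcon, finrank_tt hQ hn hD hby (hnf y hby)]
  apply hyt
  rw [← h1, h2]
  exact self_mem_tt hy

end

/-- a big vector on a line not in the family is orthogonal to every full point -/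
theorem full_polar [Finite F] (hQ : Nd Q) (hn : 7 ≤ finrank F V) (hH : H ≤ O Q) (hD : Dich Q H)
    {z a b : V} (hz : Full Q H z) (ha0 : a ≠ 0) (ha : Q a = 0) (hb : Q b = 0) (hab : polar Q a b = 0)
    (hba : b ∉ F ∙ a) (hbK : b ∉ KK Q H a) :
    ∃ c ∈ Submodule.span F {a, b}, c ≠ 0 ∧ ∀ z, Full Q H z → polar Q z c = 0 := by
  obtain ⟨c, hc, hbig, hno⟩ := exists_big_on hQ hn hD ha0 ha hb hab hba hbK
  refine ⟨c, hc, hbig.1, fun z hz => ?_⟩
  by_contra hzc
  obtain ⟨d, hd⟩ : ∃ d, d = polar Q z b • a - polar Q z a • b := ⟨_, rfl⟩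
  have hdl : d ∈ Submodule.span F {a, b} := by
    rw [hd]
    exact Submodule.sub_mem _ (Submodule.smul_mem _ _ (Submodule.subset_span (by simp)))
      (Submodule.smul_mem _ _ (Submodule.subset_span (by simp)))
  have hzd : polar Q z d = 0 := by
    rw [hd, polar_sub_right, polar_smul_right, polar_smul_right, smul_eq_mul, smul_eq_mul]; ring
  have hd0 : d ≠ 0 := by
    intro h
    apply hzc
    obtain ⟨x, y, rfl⟩ := Submodule.mem_span_pair.1 hc
    have h1 : polar Q z a = 0 := by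
      by_contra h1
      apply hba
      rw [hd, sub_eq_zero] at h
      rw [Submodule.mem_span_singleton]
      refine ⟨(polar Q z a)⁻¹ * polar Q z b, ?_⟩
      rw [mul_smul, h, smul_smul, inv_mul_cancel₀ h1, one_smul]
    rw [hd, h1, zero_smul, sub_zero, smul_eq_zero] at h
    rw [polar_add_right, polar_smul_right, polar_smul_right, h1, h.resolve_right ha0]
    simp
  have hQd : Q d = 0 := ts_span ha hb hab hdl
  have hcd : polar Q c d = 0 := by
    have h1 : ∀ u ∈ Submodule.span F {a, b}, Q u = 0 := fun u hu => ts_span ha hb hab hu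
    exact polar_of_ts h1 hc hdl
  obtain ⟨w, hw⟩ : ∃ w, w = (polar Q z c)⁻¹ • d := ⟨_, rfl⟩
  obtain ⟨g, hg, hgx⟩ := hz.2 w (by rw [hw, polar_smul_right, hzd, smul_zero])
  have e : g c = c + d := by
    rw [hgx, siegMap_apply, hw, Q_smul, hQd, polar_smul_left, polar_comm Q d c, hcd, smul_smul,
      mul_inv_cancel₀ hzc]
    simp
  have h1 := hbig.map hH hg
  rw [e] at h1
  refine hno _ (Submodule.add_mem _ hc hdl) (fun h2 => ?_) h1
  obtain ⟨k, hk⟩ := Submodule.mem_span_singleton.1 h2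
  have h3 : d = (k - 1) • c := by rw [sub_smul, hk, one_smul]; abel
  rw [h3, polar_smul_right, smul_eq_mul] at hzd
  rcases mul_eq_zero.1 hzd with h4 | h4
  · rw [h3, h4, zero_smul] at hd0; exact hd0 rfl
  · exact hzc h4

/-- two independent full points generate -/
theorem Om_le_of_two_full [Finite F] (hQ : Nd Q) (hgen : GenHyp Q) (hn : 7 ≤ finrank F V) (hH : H ≤ O Q)
    (hD : Dich Q H) {z z' : V} (hz0 : z ≠ 0) (hz : Full Q H z) (hz' : Full Q H z')
    (hne : z' ∉ F ∙ z) : Om Q ≤ H := by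
  by_cases hzz' : polar Q z z' = 0
  swap
  · exact Om_le_of_two hQ hgen (by omega) hH hz hz' hzz'
  have hz'0 : z' ≠ 0 := by rintro rfl; exact hne (Submodule.zero_mem _)
  have hne' : z ∉ F ∙ z' := by
    intro h
    obtain ⟨c, hc⟩ := Submodule.mem_span_singleton.1 h
    have hc0 : c ≠ 0 := by rintro rfl; rw [zero_smul] at hc; exact hz0 hc.symm
    apply hne
    rw [Submodule.mem_span_singleton]
    exact ⟨c⁻¹, by rw [← hc, smul_smul, inv_mul_cancel₀ hc0, one_smul]⟩
  obtain ⟨x, hx, hzx⟩ := hQ.exists_polar_one (F ∙ z') hne'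
  obtain ⟨hf, hzf⟩ := adjust_singular hz.1 hzx
  obtain ⟨f, hff⟩ : ∃ f, f = x - Q x • z := ⟨_, rfl⟩
  rw [← hff] at hf hzf
  have hz'f : polar Q z' f = 0 := by
    rw [hff, polar_sub_right, polar_smul_right, mem_perp_singleton.1 hx, polar_comm Q z' z, hzz']; simp
  have hnot : z' ∉ Submodule.span F {z, f} := by
    intro h
    obtain ⟨α, β, hαβ⟩ := Submodule.mem_span_pair.1 h
    have h1 := hzz'
    rw [← hαβ, polar_add_right, polar_smul_right, polar_smul_right, polar_self', hz.1, hzf] at h1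
    have hβ : β = 0 := by simpa using h1
    apply hne
    rw [← hαβ, hβ, zero_smul, add_zero]
    exact Submodule.smul_mem _ _ (Submodule.mem_span_singleton_self z)
  obtain ⟨x', hx', hzx'⟩ := hQ.exists_polar_one _ hnot
  obtain ⟨hf', hz'f'⟩ := adjust_singular hz'.1 hzx'
  obtain ⟨f', hff'⟩ : ∃ f', f' = x' - Q x' • z' := ⟨_, rfl⟩
  rw [← hff'] at hf' hz'f'
  have hx'' := mem_perp_span.1 hx'
  have hzf' : polar Q z f' = 0 := by
    rw [hff', polar_sub_right, polar_smul_right, hx'' z (by simp), hzz']; simp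
  have hff'p : polar Q f f' = 0 := by
    rw [hff', polar_sub_right, polar_smul_right, hx'' f (by simp), polar_comm Q f z', hz'f]; simp
  have hf'0 : f' ≠ 0 := by rintro rfl; rw [polar_zero_right] at hz'f'; exact zero_ne_one hz'f'
  have hff'n : f ∉ F ∙ f' := by
    intro h
    obtain ⟨c, rfl⟩ := Submodule.mem_span_singleton.1 h
    rw [polar_smul_right, hzf', smul_zero] at hzf
    exact zero_ne_one hzf
  by_cases hfK : f ∈ KK Q H f'
  · obtain ⟨g, hg, hgx⟩ := KK_SI hf' hfK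
    have e : g z = z - f' := by
      rw [hgx, siegMap_apply, polar_comm Q f' z, hzf', polar_comm Q f z, hzf]; simp
    have h1 := hz.map hH hg
    rw [e] at h1
    refine Om_le_of_two hQ hgen (by omega) hH h1 hz' ?_
    rw [polar_sub_left, hzz', polar_comm Q f' z', hz'f']; simp
  · exfalso
    obtain ⟨c, hc, hc0, hcp⟩ := full_polar hQ hn hH hD hz hf'0 hf' hf (by rw [polar_comm]; exact hff'p)
      hff'n hfK
    obtain ⟨α, β, rfl⟩ := Submodule.mem_span_pair.1 hc
    have h1 := hcp z hz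
    have h2 := hcp z' hz'
    rw [polar_add_right, polar_smul_right, polar_smul_right, hzf', hzf] at h1
    rw [polar_add_right, polar_smul_right, polar_smul_right, hz'f', hz'f] at h2
    simp only [smul_zero, zero_add, smul_eq_mul, mul_one, mul_zero, add_zero] at h1 h2
    rw [h1, h2] at hc0
    simp at hc0

/-- **Geometry theorem**: a proper subgroup satisfying the dichotomy fixes a point. -/
theorem exists_fixed [Finite F] (hQ : Nd Q) (hgen : GenHyp Q) (hn : 7 ≤ finrank F V) (hH : H ≤ O Q)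
    (hD : Dich Q H) (hprop : ¬ Om Q ≤ H) : ∃ v, v ≠ 0 ∧ ∀ h ∈ H, h v ∈ F ∙ v := by
  by_cases hfull : ∃ z, z ≠ 0 ∧ Full Q H z
  · obtain ⟨z, hz0, hz⟩ := hfull
    refine ⟨z, hz0, fun h hh => ?_⟩
    by_contra hcon
    exact hprop (Om_le_of_two_full hQ hgen hn hH hD hz0 hz (hz.map hH hh) hcon)
  · push Not at hfull
    obtain ⟨z, hz0, hz⟩ := hQ.exists_singular (by omega)
    obtain ⟨b, hb, hzb, hbK⟩ := exists_notMem_KK hQ hn hz0 hz (hfull z hz0)
    obtain ⟨a, -, hbig, -⟩ := exists_big_on hQ hn hD hz0 hz hb hzb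
      (fun h => hbK (mem_KK_of_mem_span hz h)) hbK
    exact exists_fixed_of_big hQ hn hH hD (fun z hz => hfull z hz.1) hbig

end Cfsg.Agent.Lib.Coop
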