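import Mathlib

set_option autoImplicit false
set_option linter.unusedSectionVars false

/-!
Counting orbits of Heisenberg type groups.
-/

namespace Cfsg.Agent.Lib.Coop

/-- a group, given by an additive group `W` of representatives modulo a central subgroup `Z` -/
structure HD (G W : Type*) [Group G] [AddCommGroup W] where
  e : W → G
  Z : Subgroup G
  e_zero : e 0 = 1
  comm : ∀ u, ∀ z ∈ Z, e u * z = z * e u
  zcomm : ∀ z ∈ Z, ∀ z' ∈ Z, z * z' = z' * z
  mul : ∀ u v, ∃ z ∈ Z, e u * e v = e (u + v) * z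

namespace HD

variable {G W X : Type*} [Group G] [AddCommGroup W] [MulAction G X] (D : HD G W)

theorem inv_mul (u v : W) : ∃ z ∈ D.Z, (D.e u)⁻¹ * D.e v = D.e (v - u) * z := by
  obtain ⟨z, hz, h⟩ := D.mul u (v - u)
  rw [add_sub_cancel] at h
  refine ⟨z⁻¹, inv_mem hz, ?_⟩
  rw [inv_mul_eq_iff_eq_mul, ← mul_assoc, h, mul_inv_cancel_right]

theorem swap (u v : W) : ∃ z ∈ D.Z, D.e u * D.e v = z * (D.e v * D.e u) := by
  obtain ⟨s, hs, h1⟩ := D.mul u v
  obtain ⟨t, ht, h2⟩ := D.mul v u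
  refine ⟨s * t⁻¹, mul_mem hs (inv_mem ht), ?_⟩
  rw [h1, h2, add_comm v u, ← mul_assoc, ← D.comm _ _ (mul_mem hs (inv_mem ht)), mul_assoc, mul_assoc,
    inv_mul_cancel, mul_one]

/-- the group -/
def Qg : Subgroup G where
  carrier := {g | ∃ u, ∃ z ∈ D.Z, g = D.e u * z}
  one_mem' := ⟨0, 1, one_mem _, by rw [D.e_zero, one_mul]⟩
  mul_mem' := by
    rintro _ _ ⟨u, z, hz, rfl⟩ ⟨v, z', hz', rfl⟩
    obtain ⟨s, hs, h⟩ := D.mul u v
    refine ⟨u + v, s * (z * z'), mul_mem hs (mul_mem hz hz'), ?_⟩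
    have : D.e u * z * (D.e v * z') = D.e u * D.e v * (z * z') := by
      rw [mul_assoc, ← mul_assoc z, ← D.comm v z hz]; group
    rw [this, h, mul_assoc]
  inv_mem' := by
    rintro _ ⟨u, z, hz, rfl⟩
    obtain ⟨s, hs, h⟩ := D.inv_mul u 0
    rw [D.e_zero, mul_one, zero_sub] at h
    refine ⟨-u, s * z⁻¹, mul_mem hs (inv_mem hz), ?_⟩
    rw [mul_inv_rev, h, ← mul_assoc, ← D.comm _ _ (inv_mem hz), mul_assoc,
      D.zcomm _ (inv_mem hz) _ hs]

theorem mem_Qg {g : G} : g ∈ D.Qg ↔ ∃ u, ∃ z ∈ D.Z, g = D.e u * z := Iff.rfl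

/-- the additive group of elements stabilising the `Z`-orbit of `x` -/
def bar (x : X) : AddSubgroup W where
  carrier := {u | ∃ z ∈ D.Z, D.e u • x = z • x}
  zero_mem' := ⟨1, one_mem _, by rw [D.e_zero]⟩
  add_mem' := by
    rintro u v ⟨z, hz, hu⟩ ⟨z', hz', hv⟩
    obtain ⟨s, hs, h⟩ := D.mul u v
    refine ⟨z' * z * s⁻¹, mul_mem (mul_mem hz' hz) (inv_mem hs), ?_⟩
    have h1 : D.e (u + v) = D.e u * D.e v * s⁻¹ := by rw [h, mul_inv_cancel_right]
    have h2 : D.e u * D.e v * s⁻¹ = s⁻¹ * D.e u * D.e v := by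
      rw [mul_assoc, D.comm v _ (inv_mem hs), ← mul_assoc, D.comm u _ (inv_mem hs)]
    have h3 : z' * z * s⁻¹ = s⁻¹ * z' * z := by
      rw [D.zcomm _ (mul_mem hz' hz) _ (inv_mem hs), mul_assoc]
    rw [h1, h2, h3, mul_smul, mul_smul, hv, mul_smul, mul_smul, ← mul_smul (D.e u), D.comm u _ hz',
      mul_smul, hu]
  neg_mem' := by
    rintro u ⟨z, hz, hu⟩
    obtain ⟨s, hs, h⟩ := D.inv_mul u 0
    rw [D.e_zero, mul_one, zero_sub] at h
    refine ⟨s⁻¹ * z⁻¹, mul_mem (inv_mem hs) (inv_mem hz), ?_⟩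
    have h1 : D.e (-u) = s⁻¹ * (D.e u)⁻¹ := by
      rw [h, D.comm _ _ hs, inv_mul_cancel_left]
    have h2 : (D.e u)⁻¹ • x = z⁻¹ • x := by
      rw [inv_smul_eq_iff, ← mul_smul, D.comm u _ (inv_mem hz), mul_smul, hu, inv_smul_smul]
    rw [h1, mul_smul, h2, mul_smul]

theorem mem_bar {x : X} {u : W} : u ∈ D.bar x ↔ ∃ z ∈ D.Z, D.e u • x = z • x := Iff.rfl

theorem bar_le {g : G} (hg : g ∈ D.Qg) (x : X) : D.bar x ≤ D.bar (g • x) := by
  rintro u ⟨z, hz, hu⟩
  obtain ⟨v, s, hs, rfl⟩ := hg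
  obtain ⟨t, ht, h⟩ := D.swap u v
  refine ⟨t * z, mul_mem ht hz, ?_⟩
  have h1 : D.e u * (D.e v * s) = t * D.e v * s * D.e u := by
    rw [← mul_assoc, h, mul_assoc, mul_assoc, D.comm u s hs]; group
  have h2 : t * z * (D.e v * s) = t * D.e v * s * z := by
    rw [mul_assoc, ← mul_assoc z, ← D.comm v z hz, mul_assoc (D.e v), D.zcomm z hz s hs]; group
  rw [← mul_smul, h1, mul_smul, hu, ← mul_smul, ← h2, mul_smul]

theorem bar_smul {g : G} (hg : g ∈ D.Qg) (x : X) : D.bar (g • x) = D.bar x := by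
  apply le_antisymm _ (D.bar_le hg x)
  have := D.bar_le (inv_mem hg) (g • x)
  rwa [inv_smul_smul] at this

theorem card_orbit_ge [Finite X] (x : X) :
    Nat.card (W ⧸ D.bar x) * Nat.card (MulAction.orbit D.Z x) ≤ Nat.card (MulAction.orbit D.Qg x) := by
  rw [← Nat.card_prod]
  refine Nat.card_le_card_of_injective (fun p => ⟨D.e p.1.out • (p.2 : X), ?_⟩) ?_
  · obtain ⟨w, ⟨_, ⟨z, hz⟩, rfl⟩⟩ := p
    exact ⟨⟨D.e w.out * z, ⟨_, z, hz, rfl⟩⟩, by
      show (D.e w.out * z) • x = D.e w.out • (z • x)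
      rw [mul_smul]⟩
  · rintro ⟨w, ⟨_, ⟨z, hz⟩, rfl⟩⟩ ⟨w', ⟨_, ⟨z', hz'⟩, rfl⟩⟩ h
    have h' : D.e w.out • z • x = D.e w'.out • z' • x := congrArg Subtype.val h
    have hw : w = w' := by
      rw [← QuotientAddGroup.out_eq' w, ← QuotientAddGroup.out_eq' w', QuotientAddGroup.eq,
        neg_add_eq_sub]
      obtain ⟨s, hs, h1⟩ := D.inv_mul w.out w'.out
      have h2 : (D.e w.out)⁻¹ • D.e w'.out • z' • x = z • x := by rw [← h', inv_smul_smul]
      rw [← mul_smul, h1, ← mul_smul, mul_assoc, D.comm _ _ (mul_mem hs hz'), mul_smul] at h2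
      refine ⟨(s * z')⁻¹ * z, mul_mem (inv_mem (mul_mem hs hz')) hz, ?_⟩
      rw [mul_smul, ← h2, inv_smul_smul]
    subst hw
    have h3 : z • x = z' • x := MulAction.injective _ h'
    exact Prod.ext rfl (Subtype.ext h3)

/-- the main counting lemma -/
theorem card_ge [Finite X] {ι : Type*} (s : Finset ι) (f : ι → X) (k m : ℕ)
    (hk : ∀ i ∈ s, k ≤ Nat.card (MulAction.orbit D.Z (f i)))
    (hfib : ∀ j ∈ s, ∀ t ⊆ s, (∀ i ∈ t, f i ∈ MulAction.orbit D.Qg (f j)) →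
      t.card * m ≤ Nat.card (W ⧸ D.bar (f j))) : k * m * s.card ≤ Nat.card X := by
  classical
  haveI := Fintype.ofFinite X
  let Ω := MulAction.orbitRel.Quotient D.Qg X
  haveI : Finite Ω := Quotient.finite _
  haveI := Fintype.ofFinite Ω
  have h1 : Nat.card X = ∑ ω : Ω, Nat.card ω.orbit := by
    rw [Nat.card_congr (MulAction.selfEquivSigmaOrbits' D.Qg X), Nat.card_sigma]
  have h2 : s.card = ∑ ω : Ω, (s.filter fun i => (Quotient.mk _ (f i) : Ω) = ω).card :=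
    Finset.card_eq_sum_card_fiberwise fun i _ => Finset.mem_coe.2 (Finset.mem_univ _)
  rw [h1, h2, Finset.mul_sum]
  apply Finset.sum_le_sum
  intro ω _
  rcases Finset.eq_empty_or_nonempty (s.filter fun i => (Quotient.mk _ (f i) : Ω) = ω) with h0 | ⟨j, hj⟩
  · rw [h0, Finset.card_empty, mul_zero]; exact Nat.zero_le _
  · obtain ⟨hjs, hjω⟩ := Finset.mem_filter.1 hj
    have h3 := hfib j hjs (s.filter fun i => (Quotient.mk _ (f i) : Ω) = ω) (Finset.filter_subset _ _) (by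
      intro i hi
      obtain ⟨_, hi⟩ := Finset.mem_filter.1 hi
      rw [← hjω] at hi
      exact MulAction.orbitRel_apply.1 (Quotient.exact hi))
    have h4 : ω.orbit = MulAction.orbit D.Qg (f j) := by
      rw [← hjω]
      exact MulAction.orbitRel.Quotient.orbit_mk _
    rw [h4]
    refine le_trans ?_ (D.card_orbit_ge (f j))
    calc k * m * _ = (_ * m) * k := by ring
      _ ≤ _ := Nat.mul_le_mul h3 (hk j hjs)

end HD

/-- the number of characters trivial on a subgroup -/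
theorem card_char_le {W : Type*} [AddCommGroup W] [Finite W] (S : AddSubgroup W)
    (s : Finset (AddChar W ℂ)) (hs : ∀ χ ∈ s, ∀ u ∈ S, χ u = 1) : s.card ≤ Nat.card (W ⧸ S) := by
  classical
  haveI := Fintype.ofFinite W
  haveI : Fintype (W ⧸ S) := Fintype.ofFinite _
  have key : ∀ χ : s, ∃ ψ : AddChar (W ⧸ S) ℂ, ∀ u : W, ψ (QuotientAddGroup.mk u) = χ.1 u := by
    intro χ
    let g : W →+ Additive ℂ := AddChar.toAddMonoidHomEquiv χ.1
    let g' : (W ⧸ S) →+ Additive ℂ := QuotientAddGroup.lift S g (fun u hu => hs χ.1 χ.2 u hu)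
    exact ⟨AddChar.toAddMonoidHomEquiv.symm g', fun u => rfl⟩
  choose φ hφ using key
  have h1 : Function.Injective φ := by
    intro χ χ' h
    apply Subtype.ext
    ext u
    rw [← hφ, ← hφ, h]
  calc s.card = Fintype.card s := (Fintype.card_coe s).symm
    _ ≤ Fintype.card (AddChar (W ⧸ S) ℂ) := Fintype.card_le_of_injective φ h1
    _ = Nat.card (W ⧸ S) := by rw [AddChar.card_eq, Nat.card_eq_fintype_card]

theorem HD.card_char_ge {G W X : Type*} [Group G] [AddCommGroup W] [Finite W] [MulAction G X] [Finite X]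
    (D : HD G W) (s : Finset (AddChar W ℂ)) (k : ℕ)
    (h : ∀ χ ∈ s, ∃ x : X, k ≤ Nat.card (MulAction.orbit D.Z x) ∧ ∀ u ∈ D.bar x, χ u = 1) :
    k * s.card ≤ Nat.card X := by
  classical
  rcases isEmpty_or_nonempty X with hX | ⟨⟨x₀⟩⟩
  · have : s = ∅ := Finset.eq_empty_of_forall_notMem fun χ hχ => hX.elim (h χ hχ).choose
    rw [this]; simp
  let f : AddChar W ℂ → X := fun χ => if hχ : χ ∈ s then (h χ hχ).choose else x₀
  have hf : ∀ χ (hχ : χ ∈ s), k ≤ Nat.card (MulAction.orbit D.Z (f χ)) ∧ ∀ u ∈ D.bar (f χ), χ u = 1 := by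
    intro χ hχ
    simp only [f, dif_pos hχ]
    exact (h χ hχ).choose_spec
  have := D.card_ge s f k 1 (fun χ hχ => (hf χ hχ).1) (by
    intro j hj t hts ht
    rw [mul_one]
    apply card_char_le
    intro χ hχ u hu
    obtain ⟨⟨g, hg⟩, hgx⟩ := ht χ hχ
    apply (hf χ (hts hχ)).2
    have h1 : f χ = g • f j := hgx.symm
    rw [h1, D.bar_smul hg]
    exact hu)
  rwa [mul_one] at this

theorem HD.card_bar_ge {G W X : Type*} [Group G] [AddCommGroup W] [Finite W] [MulAction G X] [Finite X]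
    (D : HD G W) (s : Finset (AddSubgroup W)) (k m : ℕ)
    (h : ∀ B ∈ s, ∃ x : X, k ≤ Nat.card (MulAction.orbit D.Z x) ∧ D.bar x = B)
    (hm : ∀ B ∈ s, m ≤ Nat.card (W ⧸ B)) : k * m * s.card ≤ Nat.card X := by
  classical
  rcases isEmpty_or_nonempty X with hX | ⟨⟨x₀⟩⟩
  · have : s = ∅ := Finset.eq_empty_of_forall_notMem fun χ hχ => hX.elim (h χ hχ).choose
    rw [this]; simp
  let f : AddSubgroup W → X := fun χ => if hχ : χ ∈ s then (h χ hχ).choose else x₀
  have hf : ∀ χ (hχ : χ ∈ s), k ≤ Nat.card (MulAction.orbit D.Z (f χ)) ∧ D.bar (f χ) = χ := by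
    intro χ hχ
    simp only [f, dif_pos hχ]
    exact (h χ hχ).choose_spec
  refine D.card_ge s f k m (fun χ hχ => (hf χ hχ).1) ?_
  intro j hj t hts ht
  have h1 : t ⊆ {j} := by
    intro i hi
    obtain ⟨⟨g, hg⟩, hgx⟩ := ht i hi
    have h1 : f i = g • f j := hgx.symm
    rw [Finset.mem_singleton, ← (hf i (hts hi)).2, ← (hf j hj).2, h1, D.bar_smul hg]
  have h2 : t.card ≤ 1 := by
    have := Finset.card_le_card h1
    rwa [Finset.card_singleton] at this
  rw [(hf j hj).2]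
  calc t.card * m ≤ 1 * m := Nat.mul_le_mul_right _ h2
    _ = m := one_mul m
    _ ≤ _ := hm j hj

/-- an additive character trivial on a proper subgroup -/
theorem exists_char {A : Type*} [AddCommGroup A] [Finite A] {C : AddSubgroup A} {a : A} (ha : a ∉ C) :
    ∃ ψ : AddChar A ℂ, (∀ c ∈ C, ψ c = 1) ∧ ψ a ≠ 1 := by
  obtain ⟨ψ, hψ⟩ := (AddChar.exists_apply_ne_zero (a := (QuotientAddGroup.mk a : A ⧸ C))).2
    (fun h => ha ((QuotientAddGroup.eq_zero_iff a).1 h))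
  refine ⟨ψ.compAddMonoidHom (QuotientAddGroup.mk' C), fun c hc => ?_, hψ⟩
  show ψ (QuotientAddGroup.mk c) = 1
  rw [(QuotientAddGroup.eq_zero_iff c).2 hc, AddChar.map_zero_eq_one]

/-- distinct vectors give distinct characters -/
theorem chi_injective {F W : Type*} [Field F] [AddCommGroup W] [Module F W]
    (β : W →ₗ[F] W →ₗ[F] F) (hβ : ∀ w, β w = 0 → w = 0) {ψ : AddChar F ℂ} {a : F} (ha : ψ a ≠ 1) :
    Function.Injective (fun w : W => ψ.compAddMonoidHom (β w).toAddMonoidHom) := by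
  intro s t h
  by_contra hne
  have h1 : β (s - t) ≠ 0 := fun h1 => hne (sub_eq_zero.1 (hβ _ h1))
  obtain ⟨v, hv⟩ : ∃ v, β (s - t) v ≠ 0 := by
    by_contra hcon
    push Not at hcon
    exact h1 (LinearMap.ext hcon)
  apply ha
  have h2 := DFunLike.congr_fun h ((a * (β (s - t) v)⁻¹) • v)
  change ψ (β s ((a * (β (s - t) v)⁻¹) • v)) = ψ (β t ((a * (β (s - t) v)⁻¹) • v)) at h2
  have h4 : β s ((a * (β (s - t) v)⁻¹) • v) = β t ((a * (β (s - t) v)⁻¹) • v) + a := by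
    rw [← sub_eq_iff_eq_add', ← LinearMap.sub_apply, ← map_sub, map_smul, smul_eq_mul, mul_assoc,
      inv_mul_cancel₀ hv, mul_one]
  rw [h4, AddChar.map_add_eq_mul] at h2
  have h5 : ψ (β t ((a * (β (s - t) v)⁻¹) • v)) ≠ 0 := (AddChar.val_isUnit ψ _).ne_zero
  exact mul_left_cancel₀ h5 (by rw [h2, mul_one])

theorem chi_surjective {F W : Type*} [Field F] [AddCommGroup W] [Module F W] [Finite W]
    (β : W →ₗ[F] W →ₗ[F] F) (hβ : ∀ w, β w = 0 → w = 0) {ψ : AddChar F ℂ} {a : F} (ha : ψ a ≠ 1)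
    (χ : AddChar W ℂ) : ∃ w, ∀ v, χ v = ψ (β w v) := by
  classical
  haveI := Fintype.ofFinite W
  have h1 := (Fintype.bijective_iff_injective_and_card _).2
    ⟨chi_injective β hβ ha, (AddChar.card_eq (α := W)).symm⟩
  obtain ⟨w, hw⟩ := h1.2 χ
  exact ⟨w, fun v => by rw [← hw]; rfl⟩

/-- isotropic subgroups -/
theorem card_iso_le {F W : Type*} [Field F] [Finite F] [AddCommGroup W] [Module F W] [Finite W]
    (β : W →ₗ[F] W →ₗ[F] F) (hβ : ∀ w, β w = 0 → w = 0) {C : AddSubgroup F} (hC : C ≠ ⊤)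
    (S : AddSubgroup W) (hS : ∀ s ∈ S, ∀ t ∈ S, β s t ∈ C) : Nat.card S * Nat.card S ≤ Nat.card W := by
  classical
  obtain ⟨a, ha⟩ : ∃ a, a ∉ C := by
    by_contra hcon
    push Not at hcon
    exact hC (eq_top_iff.2 fun x _ => hcon x)
  obtain ⟨ψ, hψC, hψa⟩ := exists_char ha
  haveI := Fintype.ofFinite S
  let χ : S → AddChar W ℂ := fun s => ψ.compAddMonoidHom (β (s : W)).toAddMonoidHom
  have hinj : Function.Injective χ := fun s t h => Subtype.ext (chi_injective β hβ hψa h)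
  have h1 := card_char_le S (Finset.univ.image χ) (by
    intro χ' hχ' u hu
    obtain ⟨s, -, rfl⟩ := Finset.mem_image.1 hχ'
    exact hψC _ (hS s s.2 u hu))
  rw [Finset.card_image_of_injective _ hinj, Finset.card_univ, ← Nat.card_eq_fintype_card] at h1
  rw [AddSubgroup.card_eq_card_quotient_mul_card_addSubgroup S]
  exact Nat.mul_le_mul_right _ h1

end Cfsg.Agent.Lib.Coop
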