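import Mathlib
import Cfsg.Agent.Lib.CoopF
import Cfsg.Agent.Lib.ClOrthSiegel
import Cfsg.Agent.Lib.CoopE

set_option autoImplicit false
set_option linter.unusedSectionVars false

/-!
The Heisenberg group attached to a totally singular line.
-/

namespace Cfsg.Agent.Lib.Coop

open QuadraticMap Module Cfsg.Agent.Lib.Quad Cfsg.Agent.Lib.ClOrthSiegel

variable {F V : Type*} [Field F] [AddCommGroup V] [Module F V] [FiniteDimensional F V]
  {Q : QuadraticForm F V}

theorem E_comm (hQ : Nd Q) {a b w w' : V} (ha : Q a = 0) (hb : Q b = 0) (hab : polar Q a b = 0)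
    (haw : polar Q a w = 0) (hbw : polar Q b w = 0) (haw' : polar Q a w' = 0) (hbw' : polar Q b w' = 0) :
    E hQ b w' * E hQ a w = E hQ a w * E hQ b w' * E hQ a ((-polar Q w' w) • b) := by
  have hz : polar Q a ((-polar Q w' w) • b) = 0 := by rw [polar_smul_right, hab, smul_zero]
  have hba : polar Q b a = 0 := by rw [polar_comm]; exact hab
  have hwa : polar Q w a = 0 := by rw [polar_comm]; exact haw
  have hwb : polar Q w b = 0 := by rw [polar_comm]; exact hbw
  have hw'a : polar Q w' a = 0 := by rw [polar_comm]; exact haw'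
  have hw'b : polar Q w' b = 0 := by rw [polar_comm]; exact hbw'
  have haa : polar Q a a = 0 := by rw [polar_self', ha, mul_zero]
  have hbb : polar Q b b = 0 := by rw [polar_self', hb, mul_zero]
  ext x
  rw [LinearEquiv.mul_apply, LinearEquiv.mul_apply, LinearEquiv.mul_apply, E_apply hQ ha haw,
    E_apply hQ hb hbw', E_apply hQ ha hz, E_apply hQ hb hbw', E_apply hQ ha haw]
  simp only [polar_add_right, polar_sub_right, polar_smul_right, polar_add_left,
    polar_smul_left, hba, hwa, hwb, haa, hbb, hab, haw, hbw, haw', hbw', hw'a, hw'b, smul_eq_mul, mul_zero,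
    sub_zero, add_zero, Q_smul, hb, polar_comm Q w w']
  module

theorem E_smul_swap (hQ : Nd Q) {a b : V} (ha : Q a = 0) (hb : Q b = 0) (hab : polar Q a b = 0) (c : F) :
    E hQ a (c • b) = E hQ b ((-c) • a) := by
  by_cases hc : c = 0
  · rw [hc, neg_zero, zero_smul, zero_smul, E_zero, E_zero]
  · rw [E_swap hQ ha (by rw [Q_smul, hb, mul_zero]) (by rw [polar_smul_right, hab, smul_zero]),
      E_smul hQ hc, smul_neg, neg_smul]

theorem E_mem_Om [Finite F] (hQ : Nd Q) (hgen : GenHyp Q) (z y : V) : E hQ z y ∈ Om Q := by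
  by_cases h : Q z = 0 ∧ polar Q z y = 0
  · rw [E_eq hQ h.1 h.2]; exact hQ.sieg_mem_Om hgen _ _
  · rw [E_of_ne hQ h]; exact one_mem _

/-- Siegel elements in `Om Q` -/
noncomputable def EG [Finite F] (hQ : Nd Q) (hgen : GenHyp Q) (z y : V) : ↥(Om Q) :=
  ⟨E hQ z y, E_mem_Om hQ hgen z y⟩

section

variable [Finite F] (hQ : Nd Q) (hgen : GenHyp Q)

theorem coe_EG (z y : V) : (EG hQ hgen z y : V ≃ₗ[F] V) = E hQ z y := rfl

theorem EG_add {z y y' : V} (hzy : polar Q z y = 0) (hzy' : polar Q z y' = 0) :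
    EG hQ hgen z y * EG hQ hgen z y' = EG hQ hgen z (y + y') := Subtype.ext (E_add hQ hzy hzy')

theorem EG_zero (z : V) : EG hQ hgen z 0 = 1 := Subtype.ext (E_zero hQ z)

/-- the root group of a totally singular line -/
noncomputable def zhom {a b : V} (hab : polar Q a b = 0) : Multiplicative F →* ↥(Om Q) where
  toFun c := EG hQ hgen a (c.toAdd • b)
  map_one' := by
    show EG hQ hgen a ((0 : F) • b) = 1
    rw [zero_smul, EG_zero]
  map_mul' c d := by
    show EG hQ hgen a ((c.toAdd + d.toAdd) • b) = _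
    rw [add_smul, ← EG_add hQ hgen (by rw [polar_smul_right, hab, smul_zero])
      (by rw [polar_smul_right, hab, smul_zero])]

theorem mem_zhom {a b : V} (hab : polar Q a b = 0) {g : ↥(Om Q)} :
    g ∈ (zhom hQ hgen hab).range ↔ ∃ c : F, g = EG hQ hgen a (c • b) :=
  ⟨fun ⟨c, hc⟩ => ⟨c.toAdd, hc.symm⟩, fun ⟨c, hc⟩ => ⟨Multiplicative.ofAdd c, hc.symm⟩⟩

/-- the Heisenberg group of a totally singular line `⟨a, b⟩`, parametrised by pairs of vectors of a
subspace of `⟨a, b⟩^⊥` -/
noncomputable def hd {a b : V} (ha : Q a = 0) (hb : Q b = 0) (hab : polar Q a b = 0)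
    (U : Submodule F V) (hU : ∀ u ∈ U, polar Q a u = 0 ∧ polar Q b u = 0) :
    HD ↥(Om Q) (↥U × ↥U) where
  e u := EG hQ hgen a (u.1 : V) * EG hQ hgen b (u.2 : V)
  Z := (zhom hQ hgen hab).range
  e_zero := by
    show EG hQ hgen a ((0 : U) : V) * EG hQ hgen b ((0 : U) : V) = 1
    rw [Submodule.coe_zero, EG_zero, EG_zero, one_mul]
  comm := by
    rintro ⟨u, v⟩ z hz
    obtain ⟨c, rfl⟩ := (mem_zhom hQ hgen hab).1 hz
    have h1 : polar Q a (c • b) = 0 := by rw [polar_smul_right, hab, smul_zero]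
    have h1' : polar Q b ((-c) • a) = 0 := by rw [polar_smul_right, polar_comm, hab, smul_zero]
    have h2 := (hU u u.2).1
    have h3 := (hU v v.2).2
    have e1 : EG hQ hgen a (u : V) * EG hQ hgen a (c • b) = EG hQ hgen a (c • b) * EG hQ hgen a (u : V) := by
      rw [EG_add hQ hgen h2 h1, EG_add hQ hgen h1 h2, add_comm]
    have e2 : EG hQ hgen b (v : V) * EG hQ hgen a (c • b) = EG hQ hgen a (c • b) * EG hQ hgen b (v : V) := by
      have : EG hQ hgen a (c • b) = EG hQ hgen b ((-c) • a) := Subtype.ext (E_smul_swap hQ ha hb hab c)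
      rw [this, EG_add hQ hgen h3 h1', EG_add hQ hgen h1' h3, add_comm]
    show EG hQ hgen a (u : V) * EG hQ hgen b (v : V) * _ = _ * (EG hQ hgen a (u : V) * EG hQ hgen b (v : V))
    rw [mul_assoc, e2, ← mul_assoc, e1, mul_assoc]
  zcomm := by
    rintro _ ⟨c, rfl⟩ _ ⟨d, rfl⟩
    rw [← map_mul, ← map_mul, mul_comm]
  mul := by
    rintro ⟨u, v⟩ ⟨u', v'⟩
    have h1 := hU u u.2
    have h2 := hU v v.2
    have h1' := hU u' u'.2
    have h2' := hU v' v'.2
    refine ⟨EG hQ hgen a ((-polar Q (v : V) u') • b), (mem_zhom hQ hgen hab).2 ⟨_, rfl⟩, ?_⟩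
    have hz : polar Q a ((-polar Q (v : V) u') • b) = 0 := by rw [polar_smul_right, hab, smul_zero]
    have hz' : polar Q b ((-(-polar Q (v : V) u')) • a) = 0 := by
      rw [polar_smul_right, polar_comm Q b a, hab, smul_zero]
    have e1 : EG hQ hgen b (v : V) * EG hQ hgen a (u' : V) = EG hQ hgen a (u' : V) * EG hQ hgen b (v : V) *
        EG hQ hgen a ((-polar Q (v : V) u') • b) :=
      Subtype.ext (E_comm hQ ha hb hab h1'.1 h1'.2 h2.1 h2.2)
    have e2 : EG hQ hgen a ((-polar Q (v : V) u') • b) * EG hQ hgen b (v' : V) =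
        EG hQ hgen b (v' : V) * EG hQ hgen a ((-polar Q (v : V) u') • b) := by
      have : EG hQ hgen a ((-polar Q (v : V) u') • b) = EG hQ hgen b ((-(-polar Q (v : V) u')) • a) :=
        Subtype.ext (E_smul_swap hQ ha hb hab _)
      rw [this, EG_add hQ hgen h2'.2 hz', EG_add hQ hgen hz' h2'.2, add_comm]
    show EG hQ hgen a (u : V) * EG hQ hgen b (v : V) * (EG hQ hgen a (u' : V) * EG hQ hgen b (v' : V)) =
      EG hQ hgen a ((u : V) + u') * EG hQ hgen b ((v : V) + v') * _
    rw [← EG_add hQ hgen h1.1 h1'.1, ← EG_add hQ hgen h2.2 h2'.2]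
    calc _ = EG hQ hgen a (u : V) * (EG hQ hgen b (v : V) * EG hQ hgen a (u' : V)) *
          EG hQ hgen b (v' : V) := by group
      _ = _ := by
        rw [e1]
        calc _ = EG hQ hgen a (u : V) * EG hQ hgen a (u' : V) * EG hQ hgen b (v : V) *
              (EG hQ hgen a ((-polar Q (v : V) u') • b) * EG hQ hgen b (v' : V)) := by group
          _ = _ := by rw [e2]; group

/-- the alternating form on pairs -/
def beta (Q : QuadraticForm F V) (U : Submodule F V) : (↥U × ↥U) →ₗ[F] (↥U × ↥U) →ₗ[F] F :=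
  LinearMap.mk₂ F (fun u v => polar Q (u.1 : V) v.2 - polar Q (u.2 : V) v.1)
    (by intro u u' v; simp only [Prod.fst_add, Prod.snd_add, Submodule.coe_add, polar_add_left]; ring)
    (by intro c u v; simp only [Prod.smul_fst, Prod.smul_snd, Submodule.coe_smul, polar_smul_left, smul_eq_mul]; ring)
    (by intro u v v'; simp only [Prod.fst_add, Prod.snd_add, Submodule.coe_add, polar_add_right]; ring)
    (by intro c u v; simp only [Prod.smul_fst, Prod.smul_snd, Submodule.coe_smul, polar_smul_right, smul_eq_mul]; ring)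

theorem beta_apply (U : Submodule F V) (u v : ↥U × ↥U) :
    beta Q U u v = polar Q (u.1 : V) v.2 - polar Q (u.2 : V) v.1 := rfl

theorem beta_nondeg {U : Submodule F V} (hU : OrthNd.NDs Q U) (u : ↥U × ↥U) (h : beta Q U u = 0) : u = 0 := by
  have key : ∀ w : U, (∀ v : U, polar Q (w : V) v = 0) → w = 0 := by
    intro w hw
    have : (w : V) ∈ U ⊓ perp Q U := ⟨w.2, mem_perp'.2 fun v hv => hw ⟨v, hv⟩⟩
    rw [show U ⊓ perp Q U = ⊥ from hU, Submodule.mem_bot] at this
    exact Subtype.ext this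
  refine Prod.ext (key _ fun v => ?_) (key _ fun v => ?_)
  · have := LinearMap.congr_fun h (0, v)
    rw [beta_apply] at this
    simpa using this
  · have := LinearMap.congr_fun h (v, 0)
    rw [beta_apply] at this
    simpa using this

variable {X : Type*} [MulAction ↥(Om Q) X]

/-- the parameters of the root group fixing a point -/
def Cx {a b : V} (hab : polar Q a b = 0) (x : X) : AddSubgroup F where
  carrier := {c | EG hQ hgen a (c • b) • x = x}
  zero_mem' := by
    show EG hQ hgen a ((0 : F) • b) • x = x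
    rw [zero_smul, EG_zero, one_smul]
  add_mem' := by
    intro c d hc hd
    show EG hQ hgen a ((c + d) • b) • x = x
    rw [add_smul, ← EG_add hQ hgen (by rw [polar_smul_right, hab, smul_zero])
      (by rw [polar_smul_right, hab, smul_zero]), mul_smul]
    rw [show EG hQ hgen a (d • b) • x = x from hd]
    exact hc
  neg_mem' := by
    intro c hc
    show EG hQ hgen a ((-c) • b) • x = x
    have h1 : EG hQ hgen a ((-c) • b) * EG hQ hgen a (c • b) = 1 := by
      rw [EG_add hQ hgen (by rw [polar_smul_right, hab, smul_zero])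
        (by rw [polar_smul_right, hab, smul_zero]), ← add_smul, neg_add_cancel, zero_smul, EG_zero]
    conv_rhs => rw [← one_smul ↥(Om Q) x, ← h1, mul_smul]
    rw [show EG hQ hgen a (c • b) • x = x from hc]

theorem mem_Cx {a b : V} (hab : polar Q a b = 0) {x : X} {c : F} :
    c ∈ Cx hQ hgen hab x ↔ EG hQ hgen a (c • b) • x = x := Iff.rfl

theorem beta_mem {a b : V} (ha : Q a = 0) (hb : Q b = 0) (hab : polar Q a b = 0)
    (U : Submodule F V) (hU : ∀ u ∈ U, polar Q a u = 0 ∧ polar Q b u = 0) (x : X)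
    {u v : ↥U × ↥U} (hu : u ∈ (hd hQ hgen ha hb hab U hU).bar x)
    (hv : v ∈ (hd hQ hgen ha hb hab U hU).bar x) : beta Q U u v ∈ Cx hQ hgen hab x := by
  set D := hd hQ hgen ha hb hab U hU with hD
  obtain ⟨z, hz, hu⟩ := hu
  obtain ⟨z', hz', hv⟩ := hv
  have hzz : ∀ c d : F, EG hQ hgen a (c • b) * EG hQ hgen a (d • b) = EG hQ hgen a ((c + d) • b) := by
    intro c d
    rw [add_smul, EG_add hQ hgen (by rw [polar_smul_right, hab, smul_zero])
      (by rw [polar_smul_right, hab, smul_zero])]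
  -- the commutation relation
  have key : D.e u * D.e v = EG hQ hgen a ((beta Q U u v) • b) * (D.e v * D.e u) := by
    have g1 : ∀ u v : ↥U × ↥U, D.e u * D.e v = D.e (u + v) * EG hQ hgen a ((-polar Q (u.2 : V) v.1) • b) := by
      rintro ⟨u, v⟩ ⟨u', v'⟩
      have h1 := hU u u.2
      have h2 := hU v v.2
      have h1' := hU u' u'.2
      have h2' := hU v' v'.2
      have hz : polar Q a ((-polar Q (v : V) u') • b) = 0 := by rw [polar_smul_right, hab, smul_zero]
      have hz' : polar Q b ((-(-polar Q (v : V) u')) • a) = 0 := by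
        rw [polar_smul_right, polar_comm Q b a, hab, smul_zero]
      have e1 : EG hQ hgen b (v : V) * EG hQ hgen a (u' : V) = EG hQ hgen a (u' : V) * EG hQ hgen b (v : V) *
          EG hQ hgen a ((-polar Q (v : V) u') • b) :=
        Subtype.ext (E_comm hQ ha hb hab h1'.1 h1'.2 h2.1 h2.2)
      have e2 : EG hQ hgen a ((-polar Q (v : V) u') • b) * EG hQ hgen b (v' : V) =
          EG hQ hgen b (v' : V) * EG hQ hgen a ((-polar Q (v : V) u') • b) := by
        have : EG hQ hgen a ((-polar Q (v : V) u') • b) = EG hQ hgen b ((-(-polar Q (v : V) u')) • a) :=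
          Subtype.ext (E_smul_swap hQ ha hb hab _)
        rw [this, EG_add hQ hgen h2'.2 hz', EG_add hQ hgen hz' h2'.2, add_comm]
      show EG hQ hgen a (u : V) * EG hQ hgen b (v : V) * (EG hQ hgen a (u' : V) * EG hQ hgen b (v' : V)) =
        EG hQ hgen a ((u : V) + u') * EG hQ hgen b ((v : V) + v') * _
      rw [← EG_add hQ hgen h1.1 h1'.1, ← EG_add hQ hgen h2.2 h2'.2]
      calc _ = EG hQ hgen a (u : V) * (EG hQ hgen b (v : V) * EG hQ hgen a (u' : V)) *
            EG hQ hgen b (v' : V) := by group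
        _ = _ := by
          rw [e1]
          calc _ = EG hQ hgen a (u : V) * EG hQ hgen a (u' : V) * EG hQ hgen b (v : V) *
                (EG hQ hgen a ((-polar Q (v : V) u') • b) * EG hQ hgen b (v' : V)) := by group
            _ = _ := by rw [e2]; group
    have hc : ∀ c : F, D.e (u + v) * EG hQ hgen a (c • b) = EG hQ hgen a (c • b) * D.e (u + v) :=
      fun c => D.comm _ _ ((mem_zhom hQ hgen hab).2 ⟨c, rfl⟩)
    rw [g1 u v, g1 v u, add_comm v u, hc, hc, ← mul_assoc, hzz, beta_apply]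
    congr 3
    rw [polar_comm Q (v.2 : V) u.1]; ring
  obtain ⟨β, hβ⟩ : ∃ β, β = EG hQ hgen a ((beta Q U u v) • b) := ⟨_, rfl⟩
  rw [← hβ] at key
  rw [mem_Cx, ← hβ]
  have hβZ : β ∈ D.Z := (mem_zhom hQ hgen hab).2 ⟨_, hβ⟩
  have h1 : (D.e u * D.e v) • x = (z' * z) • x := by
    rw [mul_smul, hv, ← mul_smul, D.comm u z' hz', mul_smul, hu, mul_smul]
  have h2 : (D.e v * D.e u) • x = (z' * z) • x := by
    rw [mul_smul, hu, ← mul_smul, D.comm v z hz, mul_smul, hv, ← mul_smul, D.zcomm z hz z' hz']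
  rw [key, mul_smul, h2] at h1
  rw [← mul_smul, D.zcomm β hβZ _ (mul_mem hz' hz), mul_smul] at h1
  exact MulAction.injective _ h1

/-- the size of the groups `bar x` -/
theorem card_bar_le {a b : V} (ha : Q a = 0) (hb : Q b = 0) (hab : polar Q a b = 0)
    (U : Submodule F V) (hU : ∀ u ∈ U, polar Q a u = 0 ∧ polar Q b u = 0) (hUn : OrthNd.NDs Q U) (x : X)
    (hx : Cx hQ hgen hab x ≠ ⊤) :
    Nat.card ((hd hQ hgen ha hb hab U hU).bar x) ≤ Nat.card F ^ finrank F U := by
  haveI : Finite V := Module.finite_of_finite F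
  have h1 := card_iso_le (beta Q U) (beta_nondeg hUn) hx ((hd hQ hgen ha hb hab U hU).bar x)
    (fun s hs t ht => beta_mem hQ hgen ha hb hab U hU x hs ht)
  rw [Nat.card_prod, Module.natCard_eq_pow_finrank (K := F) (V := U)] at h1
  by_contra hcon
  push Not at hcon
  have := Nat.mul_lt_mul'' hcon hcon
  omega

theorem le_card_quot {a b : V} (ha : Q a = 0) (hb : Q b = 0) (hab : polar Q a b = 0)
    (U : Submodule F V) (hU : ∀ u ∈ U, polar Q a u = 0 ∧ polar Q b u = 0) (hUn : OrthNd.NDs Q U) (x : X)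
    (hx : Cx hQ hgen hab x ≠ ⊤) :
    Nat.card F ^ finrank F U ≤ Nat.card ((↥U × ↥U) ⧸ (hd hQ hgen ha hb hab U hU).bar x) := by
  haveI : Finite V := Module.finite_of_finite F
  have h1 := card_bar_le hQ hgen ha hb hab U hU hUn x hx
  have h2 := AddSubgroup.card_eq_card_quotient_mul_card_addSubgroup ((hd hQ hgen ha hb hab U hU).bar x)
  rw [Nat.card_prod, Module.natCard_eq_pow_finrank (K := F) (V := U)] at h2
  have h3 : 0 < Nat.card F ^ finrank F U := Nat.pow_pos Nat.card_pos
  by_contra hcon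
  push Not at hcon
  have := Nat.mul_lt_mul_of_lt_of_le hcon h1 h3
  omega

/-- nontrivial orbits of the root group -/
theorem card_orbit_Z [Finite X] {p : ℕ} [Fact p.Prime] [CharP F p] {a b : V} (ha : Q a = 0) (hb : Q b = 0)
    (hab : polar Q a b = 0)
    (U : Submodule F V) (hU : ∀ u ∈ U, polar Q a u = 0 ∧ polar Q b u = 0) (x : X)
    (hx : Cx hQ hgen hab x ≠ ⊤) :
    p ≤ Nat.card (MulAction.orbit (hd hQ hgen ha hb hab U hU).Z x) := by
  have hp : IsPGroup p (hd hQ hgen ha hb hab U hU).Z := by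
    intro g
    obtain ⟨c, hc⟩ := (mem_zhom hQ hgen hab).1 g.2
    refine ⟨1, ?_⟩
    apply Subtype.ext
    rw [pow_one, Subgroup.coe_pow, hc]
    have h1 : EG hQ hgen a (c • b) = zhom hQ hgen hab (Multiplicative.ofAdd c) := rfl
    rw [h1, ← map_pow]
    have h2 : (Multiplicative.ofAdd c) ^ p = 1 := by
      rw [← ofAdd_nsmul, nsmul_eq_mul, CharP.cast_eq_zero, zero_mul]; rfl
    rw [h2, map_one]; rfl
  obtain ⟨n, hn⟩ := hp.card_orbit x
  rw [hn]
  rcases Nat.eq_zero_or_pos n with h0 | h0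
  · exfalso
    apply hx
    rw [h0, pow_zero] at hn
    rw [eq_top_iff]
    intro c _
    rw [mem_Cx]
    have h3 := Nat.card_eq_one_iff_unique.1 hn
    haveI := h3.1
    let g : (hd hQ hgen ha hb hab U hU).Z := ⟨EG hQ hgen a (c • b), (mem_zhom hQ hgen hab).2 ⟨c, rfl⟩⟩
    have h4 : (⟨g • x, MulAction.mem_orbit _ _⟩ : MulAction.orbit (hd hQ hgen ha hb hab U hU).Z x) =
      ⟨x, MulAction.mem_orbit_self _⟩ := Subsingleton.elim _ _
    exact congrArg Subtype.val h4
  · exact Nat.le_self_pow (by omega) p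

end

end Cfsg.Agent.Lib.Coop
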