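import Mathlib
import Cfsg.Agent.Lib.CoopG

set_option autoImplicit false
set_option linter.unusedSectionVars false

/-!
The Siegel elements of `⟨a, b⟩^⊥ / ⟨a, b⟩` stabilise the groups `bar x` when the number of points is small.
-/

namespace Cfsg.Agent.Lib.Coop

open QuadraticMap Module Cfsg.Agent.Lib.Quad Cfsg.Agent.Lib.ClOrthSiegel
open scoped Pointwise

variable {F V : Type*} [Field F] [AddCommGroup V] [Module F V] [FiniteDimensional F V]
  {Q : QuadraticForm F V}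

/-- elements fixing `a`, `b` and stabilising `U` -/
def Gf (Q : QuadraticForm F V) (a b : V) (U : Submodule F V) : Subgroup ↥(Om Q) where
  carrier := {g | (g : V ≃ₗ[F] V) a = a ∧ (g : V ≃ₗ[F] V) b = b ∧ ∀ u, (g : V ≃ₗ[F] V) u ∈ U ↔ u ∈ U}
  one_mem' := ⟨rfl, rfl, fun _ => Iff.rfl⟩
  mul_mem' := by
    rintro g h ⟨h1, h2, h3⟩ ⟨h1', h2', h3'⟩
    refine ⟨?_, ?_, fun u => ?_⟩
    · show (g : V ≃ₗ[F] V) ((h : V ≃ₗ[F] V) a) = a
      rw [h1', h1]
    · show (g : V ≃ₗ[F] V) ((h : V ≃ₗ[F] V) b) = b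
      rw [h2', h2]
    · show (g : V ≃ₗ[F] V) ((h : V ≃ₗ[F] V) u) ∈ U ↔ u ∈ U
      rw [h3, h3']
  inv_mem' := by
    rintro g ⟨h1, h2, h3⟩
    have e : ∀ x, ((g⁻¹ : ↥(Om Q)) : V ≃ₗ[F] V) ((g : V ≃ₗ[F] V) x) = x :=
      fun x => (g : V ≃ₗ[F] V).symm_apply_apply x
    have e' : ∀ x, (g : V ≃ₗ[F] V) (((g⁻¹ : ↥(Om Q)) : V ≃ₗ[F] V) x) = x :=
      fun x => (g : V ≃ₗ[F] V).apply_symm_apply x
    refine ⟨?_, ?_, fun u => ?_⟩
    · nth_rewrite 1 [← h1]; exact e a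
    · nth_rewrite 1 [← h2]; exact e b
    · rw [← h3, e']

instance distU (a b : V) (U : Submodule F V) : DistribMulAction ↥(Gf Q a b U) ↥U where
  smul g u := ⟨((g : ↥(Om Q)) : V ≃ₗ[F] V) u, (g.2.2.2 u).2 u.2⟩
  one_smul u := rfl
  mul_smul g h u := rfl
  smul_zero g := Subtype.ext (map_zero _)
  smul_add g u v := Subtype.ext (map_add _ _ _)

theorem coe_smul_U {a b : V} {U : Submodule F V} (g : ↥(Gf Q a b U)) (u : ↥U) :
    ((g • u : ↥U) : V) = ((g : ↥(Om Q)) : V ≃ₗ[F] V) u := rfl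

section

variable [Finite F] (hQ : Nd Q) (hgen : GenHyp Q)

variable {X : Type*} [MulAction ↥(Om Q) X]

theorem EG_conj (g : ↥(Om Q)) (z y : V) : g * EG hQ hgen z y * g⁻¹ =
    EG hQ hgen ((g : V ≃ₗ[F] V) z) ((g : V ≃ₗ[F] V) y) :=
  Subtype.ext (E_conj hQ (Om_le g.2) z y)

theorem bar_Gf {a b : V} (ha : Q a = 0) (hb : Q b = 0) (hab : polar Q a b = 0)
    (U : Submodule F V) (hU : ∀ u ∈ U, polar Q a u = 0 ∧ polar Q b u = 0) (x : X) (g : ↥(Gf Q a b U)) :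
    (hd hQ hgen ha hb hab U hU).bar ((g : ↥(Om Q)) • x) = g • (hd hQ hgen ha hb hab U hU).bar x := by
  set D := hd hQ hgen ha hb hab U hU with hD
  have key : ∀ (g : ↥(Gf Q a b U)) (u : ↥U × ↥U), (g : ↥(Om Q)) * D.e u = D.e (g • u) * g := by
    rintro g ⟨u, v⟩
    rw [← mul_inv_eq_iff_eq_mul]
    show (g : ↥(Om Q)) * (EG hQ hgen a (u : V) * EG hQ hgen b (v : V)) * (g : ↥(Om Q))⁻¹ =
      EG hQ hgen a (((g : ↥(Om Q)) : V ≃ₗ[F] V) u) * EG hQ hgen b (((g : ↥(Om Q)) : V ≃ₗ[F] V) v)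
    have h1 := EG_conj hQ hgen (g : ↥(Om Q)) a u
    have h2 := EG_conj hQ hgen (g : ↥(Om Q)) b v
    rw [g.2.1] at h1
    rw [g.2.2.1] at h2
    rw [← h1, ← h2]; group
  have key2 : ∀ (g : ↥(Gf Q a b U)), ∀ z ∈ D.Z, (g : ↥(Om Q)) * z = z * g := by
    intro g z hz
    obtain ⟨c, rfl⟩ := (mem_zhom hQ hgen hab).1 hz
    rw [← mul_inv_eq_iff_eq_mul, EG_conj, map_smul, g.2.1, g.2.2.1]
  have one : ∀ (g : ↥(Gf Q a b U)) (x : X) (u : ↥U × ↥U), u ∈ D.bar x → g • u ∈ D.bar ((g : ↥(Om Q)) • x) := by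
    rintro g x u ⟨z, hz, h⟩
    refine ⟨z, hz, ?_⟩
    rw [← mul_smul, ← key, mul_smul, h, ← mul_smul, key2 g z hz, mul_smul]
  ext u
  rw [AddSubgroup.mem_pointwise_smul_iff_inv_smul_mem]
  constructor
  · intro h
    have := one g⁻¹ _ _ h
    rwa [Subgroup.coe_inv, inv_smul_smul] at this
  · intro h
    have := one g _ _ h
    rwa [smul_inv_smul] at this

/-- the number of conjugates of `bar x` -/
theorem card_orbit_bar_le [Finite X] {p : ℕ} [Fact p.Prime] [CharP F p] {a b : V} (ha : Q a = 0)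
    (hb : Q b = 0) (hab : polar Q a b = 0)
    (U : Submodule F V) (hU : ∀ u ∈ U, polar Q a u = 0 ∧ polar Q b u = 0) (hUn : OrthNd.NDs Q U) (x : X)
    (hx : Cx hQ hgen hab x ≠ ⊤) :
    p * Nat.card F ^ finrank F U *
      Nat.card (MulAction.orbit ↥(Gf Q a b U) ((hd hQ hgen ha hb hab U hU).bar x)) ≤ Nat.card X := by
  classical
  haveI : Finite V := Module.finite_of_finite F
  set D := hd hQ hgen ha hb hab U hU with hD
  haveI : Fintype (MulAction.orbit ↥(Gf Q a b U) (D.bar x)) := Fintype.ofFinite _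
  have e0 : Nat.card (MulAction.orbit ↥(Gf Q a b U) (D.bar x)) =
      (Set.toFinset (MulAction.orbit ↥(Gf Q a b U) (D.bar x))).card := by
    rw [Nat.card_eq_fintype_card, Set.toFinset_card]
  rw [e0]
  have hC : ∀ g : ↥(Gf Q a b U), Cx hQ hgen hab ((g : ↥(Om Q)) • x) = Cx hQ hgen hab x := by
    intro g
    ext c
    rw [mem_Cx, mem_Cx]
    have h1 : (g : ↥(Om Q)) * EG hQ hgen a (c • b) = EG hQ hgen a (c • b) * g := by
      rw [← mul_inv_eq_iff_eq_mul, EG_conj, map_smul, g.2.1, g.2.2.1]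
    rw [← mul_smul, ← h1, mul_smul]
    exact ⟨fun h => MulAction.injective _ h, fun h => by rw [h]⟩
  refine D.card_bar_ge (X := X) _ p _ (fun B hB => ?_) (fun B hB => ?_)
  · rw [Set.mem_toFinset] at hB
    obtain ⟨g, rfl⟩ := hB
    refine ⟨(g : ↥(Om Q)) • x, card_orbit_Z hQ hgen ha hb hab U hU _ (by rw [hC]; exact hx), ?_⟩
    exact bar_Gf hQ hgen ha hb hab U hU x g
  · rw [Set.mem_toFinset] at hB
    obtain ⟨g, rfl⟩ := hB
    have h1 : g • D.bar x = D.bar ((g : ↥(Om Q)) • x) := (bar_Gf hQ hgen ha hb hab U hU x g).symm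
    show _ ≤ Nat.card ((↥U × ↥U) ⧸ (g • D.bar x))
    rw [h1]
    exact le_card_quot hQ hgen ha hb hab U hU hUn _ (by rw [hC]; exact hx)

theorem EG_mem_Gf {a b : V} (U : Submodule F V) (hU : ∀ u ∈ U, polar Q a u = 0 ∧ polar Q b u = 0)
    {y w : V} (hy : y ∈ U) (hw : w ∈ U) : EG hQ hgen y w ∈ Gf Q a b U := by
  by_cases h : Q y = 0 ∧ polar Q y w = 0
  swap
  · have : EG hQ hgen y w = 1 := Subtype.ext (E_of_ne hQ h)
    rw [this]; exact one_mem _
  have h1 : ∀ x, polar Q y x = 0 → polar Q w x = 0 → ((EG hQ hgen y w : ↥(Om Q)) : V ≃ₗ[F] V) x = x := by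
    intro x h1 h2
    rw [coe_EG, E_apply hQ h.1 h.2, h1, h2]; simp
  refine ⟨h1 a ?_ ?_, h1 b ?_ ?_, fun u => ?_⟩
  · rw [polar_comm]; exact (hU y hy).1
  · rw [polar_comm]; exact (hU w hw).1
  · rw [polar_comm]; exact (hU y hy).2
  · rw [polar_comm]; exact (hU w hw).2
  · rw [coe_EG, E_apply hQ h.1 h.2]
    constructor
    · intro hu
      have h2 : polar Q y u • w - polar Q w u • y - (Q w * polar Q y u) • y ∈ U :=
        U.sub_mem (U.sub_mem (U.smul_mem _ hw) (U.smul_mem _ hy)) (U.smul_mem _ hy)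
      have h3 := U.sub_mem hu h2
      have e : u + polar Q y u • w - polar Q w u • y - (Q w * polar Q y u) • y -
        (polar Q y u • w - polar Q w u • y - (Q w * polar Q y u) • y) = u := by abel
      rwa [e] at h3
    · intro hu
      exact U.sub_mem (U.sub_mem (U.add_mem hu (U.smul_mem _ hw)) (U.smul_mem _ hy)) (U.smul_mem _ hy)

/-- the abelian group of Siegel elements with centre `y` -/
noncomputable def hdy {a b : V} (U : Submodule F V) (hU : ∀ u ∈ U, polar Q a u = 0 ∧ polar Q b u = 0)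
    {y : V} (hy : y ∈ U) (W : Submodule F V) (hW : ∀ w ∈ W, w ∈ U ∧ polar Q y w = 0) :
    HD ↥(Gf Q a b U) ↥W where
  e w := ⟨EG hQ hgen y (w : V), EG_mem_Gf hQ hgen U hU hy (hW w w.2).1⟩
  Z := ⊥
  e_zero := Subtype.ext (EG_zero hQ hgen y)
  comm := by
    rintro u z hz
    rw [Subgroup.mem_bot] at hz
    rw [hz, one_mul, mul_one]
  zcomm := by
    rintro z hz z' hz'
    rw [Subgroup.mem_bot] at hz hz'
    rw [hz, hz']
  mul := by
    intro u v
    refine ⟨1, one_mem _, ?_⟩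
    rw [mul_one]
    exact Subtype.ext (EG_add hQ hgen (hW u u.2).2 (hW v v.2).2)

theorem mem_bar_hdy {a b : V} (U : Submodule F V) (hU : ∀ u ∈ U, polar Q a u = 0 ∧ polar Q b u = 0)
    {y : V} (hy : y ∈ U) (W : Submodule F V) (hW : ∀ w ∈ W, w ∈ U ∧ polar Q y w = 0)
    {Y : Type*} [MulAction ↥(Gf Q a b U) Y] (t : Y) (w : ↥W) :
    w ∈ (hdy hQ hgen U hU hy W hW).bar t ↔
      (⟨EG hQ hgen y (w : V), EG_mem_Gf hQ hgen U hU hy (hW w w.2).1⟩ : ↥(Gf Q a b U)) • t = t := by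
  constructor
  · rintro ⟨z, hz, h⟩
    have hz' : z = 1 := Subgroup.mem_bot.1 hz
    rw [hz', one_smul] at h
    exact h
  · intro h
    exact ⟨1, one_mem _, by rw [one_smul]; exact h⟩

/-- **Key lemma**: invariance of `bar x` -/
theorem K_fix [Finite X] {p : ℕ} [Fact p.Prime] [CharP F p] {a b : V} (ha : Q a = 0)
    (hb : Q b = 0) (hab : polar Q a b = 0)
    (U : Submodule F V) (hU : ∀ u ∈ U, polar Q a u = 0 ∧ polar Q b u = 0) (hUn : OrthNd.NDs Q U) (x : X)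
    (hx : Cx hQ hgen hab x ≠ ⊤) {y : V} (hy : y ∈ U) (hQy : Q y = 0) (W : Submodule F V)
    (hW : ∀ w ∈ W, w ∈ U ∧ polar Q y w = 0) (hWn : OrthNd.NDs Q W) {N : ℕ}
    (hX : Nat.card X < p * Nat.card F ^ finrank F U * (N + 1))
    (hN : ∀ v ∈ W, v ≠ 0 → ∃ S : Finset V, N ≤ S.card ∧ ∀ v' ∈ S, ∃ h ∈ Gf Q a b U, ∃ c : F, c ≠ 0 ∧
      ((h : ↥(Om Q)) : V ≃ₗ[F] V) y = c • y ∧ (∀ w, (h : V ≃ₗ[F] V) w ∈ W ↔ w ∈ W) ∧
      c • v' = (h : V ≃ₗ[F] V) v) :
    ∀ w ∈ W, ∀ u ∈ (hd hQ hgen ha hb hab U hU).bar x, ∃ u' ∈ (hd hQ hgen ha hb hab U hU).bar x,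
      (u'.1 : V) = E hQ y w u.1 ∧ (u'.2 : V) = E hQ y w u.2 := by
  classical
  haveI : Finite V := Module.finite_of_finite F
  set D := hd hQ hgen ha hb hab U hU with hD
  set D' := hdy hQ hgen U hU hy W hW with hD'
  let t₀ : MulAction.orbit ↥(Gf Q a b U) (D.bar x) := ⟨D.bar x, MulAction.mem_orbit_self _⟩
  have hcard := card_orbit_bar_le (p := p) hQ hgen ha hb hab U hU hUn x hx
  have hlt : Nat.card (MulAction.orbit ↥(Gf Q a b U) (D.bar x)) < N + 1 := by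
    have h1 := lt_of_le_of_lt hcard hX
    exact Nat.lt_of_mul_lt_mul_left h1
  -- all elements fix `bar x`
  have hfix : ∀ w : ↥W, w ∈ D'.bar t₀ := by
    by_contra hcon
    push Not at hcon
    obtain ⟨w₀, hw₀⟩ := hcon
    obtain ⟨ψ', hψ', hψ'w⟩ := exists_char hw₀
    obtain ⟨ψ, -, hψ⟩ := exists_char (A := F) (C := ⊥) (a := 1) (by
      rw [AddSubgroup.mem_bot]; exact one_ne_zero)
    let βW : ↥W →ₗ[F] ↥W →ₗ[F] F := LinearMap.mk₂ F (fun u v => polar Q (u : V) v)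
      (fun u u' v => polar_add_left ..) (fun c u v => polar_smul_left ..)
      (fun u v v' => polar_add_right ..) (fun c u v => polar_smul_right ..)
    have hβW : ∀ w, βW w = 0 → w = 0 := by
      intro w hw
      have : (w : V) ∈ W ⊓ perp Q W := ⟨w.2, mem_perp'.2 fun v hv => LinearMap.congr_fun hw ⟨v, hv⟩⟩
      rw [show W ⊓ perp Q W = ⊥ from hWn, Submodule.mem_bot] at this
      exact Subtype.ext this
    obtain ⟨v₀, hv₀⟩ := chi_surjective βW hβW hψ ψ'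
    have hv₀0 : v₀ ≠ 0 := by
      rintro rfl
      apply hψ'w
      rw [hv₀, map_zero, LinearMap.zero_apply, AddChar.map_zero_eq_one]
    obtain ⟨S, hS, hSh⟩ := hN v₀ v₀.2 (fun h => hv₀0 (Subtype.ext h))
    have hSW : ∀ v ∈ S, v ∈ W := by
      intro v hv
      obtain ⟨h, hh, c, hc, -, h2, h3⟩ := hSh v hv
      have h4 : c • v ∈ W := by rw [h3, h2]; exact v₀.2
      exact (Submodule.smul_mem_iff _ hc).1 h4
    have hS0 : ∀ v ∈ S, v ≠ 0 := by
      rintro v hv rfl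
      obtain ⟨h, hh, c, hc, -, h2, h3⟩ := hSh 0 hv
      rw [smul_zero] at h3
      exact hv₀0 (Subtype.ext ((h : V ≃ₗ[F] V).injective (by
        rw [← h3]; show (0 : V) = (h : V ≃ₗ[F] V) ((0 : ↥W) : V)
        rw [Submodule.coe_zero, map_zero])))
    let χ : ↥W → AddChar ↥W ℂ := fun w => ψ.compAddMonoidHom (βW w).toAddMonoidHom
    have hχ : Function.Injective χ := chi_injective βW hβW hψ
    let S' : Finset ↥W := S.attach.image fun v => ⟨v.1, hSW v.1 v.2⟩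
    have hS'c : S'.card = S.card := by
      rw [Finset.card_image_of_injective, Finset.card_attach]
      intro v v' h
      exact Subtype.ext (Subtype.mk.inj h)
    have hS'0 : (0 : ↥W) ∉ S' := by
      intro h
      obtain ⟨v, -, hv⟩ := Finset.mem_image.1 h
      exact hS0 v.1 v.2 (Subtype.mk.inj hv)
    have hpos : ∀ t : MulAction.orbit ↥(Gf Q a b U) (D.bar x), 1 ≤ Nat.card (MulAction.orbit ↥D'.Z t) := by
      intro t
      haveI : Nonempty ↥(MulAction.orbit ↥D'.Z t) := ⟨⟨t, MulAction.mem_orbit_self _⟩⟩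
      exact Nat.card_pos
    have hbig := D'.card_char_ge (X := MulAction.orbit ↥(Gf Q a b U) (D.bar x))
      ((insert 0 S').image χ) 1 (by
        intro χ' hχ'
        obtain ⟨w, hw, rfl⟩ := Finset.mem_image.1 hχ'
        rcases Finset.mem_insert.1 hw with rfl | hw
        · refine ⟨t₀, hpos _, fun u _ => ?_⟩
          show ψ (βW 0 u) = 1
          rw [map_zero, LinearMap.zero_apply, AddChar.map_zero_eq_one]
        · obtain ⟨v, -, rfl⟩ := Finset.mem_image.1 hw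
          obtain ⟨h, hh, c, hc, h1, h2, h3⟩ := hSh v.1 v.2
          refine ⟨(⟨h, hh⟩ : ↥(Gf Q a b U)) • t₀, hpos _, fun u hu => ?_⟩
          rw [mem_bar_hdy] at hu
          -- the conjugate element
          have hinv : ∀ x, ((h⁻¹ : ↥(Om Q)) : V ≃ₗ[F] V) ((h : V ≃ₗ[F] V) x) = x :=
            fun x => (h : V ≃ₗ[F] V).symm_apply_apply x
          have hinv' : ∀ x, (h : V ≃ₗ[F] V) (((h⁻¹ : ↥(Om Q)) : V ≃ₗ[F] V) x) = x :=
            fun x => (h : V ≃ₗ[F] V).apply_symm_apply x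
          have hu'W : c⁻¹ • ((h⁻¹ : ↥(Om Q)) : V ≃ₗ[F] V) (u : V) ∈ W := by
            apply Submodule.smul_mem
            rw [← h2, hinv']; exact u.2
          have hyinv : ((h⁻¹ : ↥(Om Q)) : V ≃ₗ[F] V) y = c⁻¹ • y := by
            have h5 := hinv y
            rw [h1, map_smul] at h5
            rw [← h5, smul_smul, inv_mul_cancel₀ hc, one_smul, h5]
          have h6 : (⟨c⁻¹ • ((h⁻¹ : ↥(Om Q)) : V ≃ₗ[F] V) (u : V), hu'W⟩ : ↥W) ∈ D'.bar t₀ := by
            rw [hD', mem_bar_hdy]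
            have e : (⟨EG hQ hgen y (c⁻¹ • ((h⁻¹ : ↥(Om Q)) : V ≃ₗ[F] V) (u : V)),
                EG_mem_Gf hQ hgen U hU hy (hW _ hu'W).1⟩ : ↥(Gf Q a b U)) =
                (⟨h, hh⟩ : ↥(Gf Q a b U))⁻¹ * ⟨EG hQ hgen y (u : V), EG_mem_Gf hQ hgen U hU hy (hW u u.2).1⟩ *
                ⟨h, hh⟩ := by
              apply Subtype.ext
              show EG hQ hgen y (c⁻¹ • ((h⁻¹ : ↥(Om Q)) : V ≃ₗ[F] V) (u : V)) = h⁻¹ * EG hQ hgen y (u : V) * h
              have h7 := EG_conj hQ hgen h⁻¹ y (u : V)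
              rw [inv_inv, hyinv] at h7
              rw [h7]
              exact Subtype.ext (E_smul hQ (inv_ne_zero hc) _ _).symm
            rw [e, mul_smul, mul_smul, hu, inv_smul_smul]
          have h8 := hψ' _ h6
          rw [hv₀] at h8
          show ψ (polar Q v.1 (u : V)) = 1
          change ψ (polar Q (v₀ : V) (c⁻¹ • ((h⁻¹ : ↥(Om Q)) : V ≃ₗ[F] V) (u : V))) = 1 at h8
          have e : polar Q (v₀ : V) (c⁻¹ • ((h⁻¹ : ↥(Om Q)) : V ≃ₗ[F] V) (u : V)) =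
              polar Q v.1 (u : V) := by
            have e2 : v.1 = c⁻¹ • (h : V ≃ₗ[F] V) (v₀ : V) := by
              rw [← h3, smul_smul, inv_mul_cancel₀ hc, one_smul]
            rw [e2, polar_smul_left, polar_smul_right, ← O_polar (Om_le h.2) (v₀ : V), hinv']
          rw [← e]; exact h8)
    rw [one_mul, Finset.card_image_of_injective _ hχ, Finset.card_insert_of_notMem hS'0, hS'c] at hbig
    omega
  intro w hw u hu
  have h1 := hfix ⟨w, hw⟩
  rw [mem_bar_hdy] at h1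
  have h2 := congrArg Subtype.val h1
  change (⟨EG hQ hgen y w, _⟩ : ↥(Gf Q a b U)) • D.bar x = D.bar x at h2
  refine ⟨(⟨EG hQ hgen y w, EG_mem_Gf hQ hgen U hU hy (hW w hw).1⟩ : ↥(Gf Q a b U)) • u, ?_, rfl, rfl⟩
  rw [← h2]
  exact AddSubgroup.smul_mem_pointwise_smul _ _ _ hu

end

end Cfsg.Agent.Lib.Coop
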