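import Mathlib
import Cfsg.Agent.Lib.CoopH

set_option autoImplicit false
set_option linter.unusedSectionVars false

/-!
Additive groups of pairs of vectors invariant under Siegel elements.
-/

namespace Cfsg.Agent.Lib.Coop

open QuadraticMap Module Cfsg.Agent.Lib.Quad Cfsg.Agent.Lib.ClOrthSiegel Cfsg.Agent.Lib.OrthNd

variable {F V : Type*} [Field F] [AddCommGroup V] [Module F V] [FiniteDimensional F V]
  {Q : QuadraticForm F V}

/-- invariance of a group of pairs of vectors of `U` under the Siegel elements of `U` -/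
def Inv2 (Q : QuadraticForm F V) (hQ : Nd Q) (U : Submodule F V) (B : AddSubgroup (↥U × ↥U)) : Prop :=
  ∀ y ∈ U, ∀ y' ∈ U, Q y = 0 → Q y' = 0 → polar Q y y' = 1 →
    ∀ w ∈ U, polar Q y w = 0 → polar Q y' w = 0 → ∀ u ∈ B, ∃ u' ∈ B,
      (u'.1 : V) = E hQ y w u.1 ∧ (u'.2 : V) = E hQ y w u.2

theorem nds_pair {A : Submodule F V} (hA : NDs Q A) (hA0 : A ≠ ⊥) : ∃ u ∈ A, ∃ v ∈ A, polar Q u v ≠ 0 := by
  by_contra hcon
  push Not at hcon
  apply hA0
  rw [eq_bot_iff]
  intro a ha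
  have : a ∈ A ⊓ perp Q A := ⟨ha, mem_perp'.2 fun b hb => hcon a ha b hb⟩
  rwa [show A ⊓ perp Q A = ⊥ from hA] at this

theorem cut_ne_bot (hQ : Nd Q) {A : Submodule F V} (h3 : 3 ≤ finrank F A) (a b : V) :
    A ⊓ perp Q (Submodule.span F {a, b}) ≠ ⊥ := by
  intro h
  have h1 := finrank_cut hQ A a b
  rw [h, finrank_bot] at h1
  omega

theorem inv2_trick (hQ : Nd Q) {U : Submodule F V} (hU : NDs Q U) (h3 : 3 ≤ finrank F U)
    {B : AddSubgroup (↥U × ↥U)} (hB : Inv2 Q hQ U B) {y : V} (hy : y ∈ U) (hQy : Q y = 0)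
    {u : ↥U × ↥U} (hu : u ∈ B) (c : F) :
    ((c * polar Q y u.1) • (⟨y, hy⟩ : ↥U), (c * polar Q y u.2) • (⟨y, hy⟩ : ↥U)) ∈ B := by
  by_cases hy0 : y = 0
  · have : ((c * polar Q y u.1) • (⟨y, hy⟩ : ↥U), (c * polar Q y u.2) • (⟨y, hy⟩ : ↥U)) = (0, 0) := by
      ext
      · show (c * polar Q y u.1) • y = 0
        rw [hy0, smul_zero]
      · show (c * polar Q y u.2) • y = 0
        rw [hy0, smul_zero]
    rw [this]; exact B.zero_mem
  obtain ⟨y', hy', hQy', hyy'⟩ := exists_partner hQ hU hy hy0 hQy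
  have hyy'' : polar Q y' y = 1 := by rw [polar_comm]; exact hyy'
  set W := U ⊓ perp Q (Submodule.span F {y, y'}) with hW
  have hWn : NDs Q W := nds_cut hQ hU hy hy' hQy hQy' hyy'
  obtain ⟨w, hw, w', hw', hww'⟩ := nds_pair hWn (cut_ne_bot hQ h3 y y')
  have hw1 := mem_cut.1 hw
  have hw1' := mem_cut.1 hw'
  -- first step
  set w'' := (-(c * (polar Q w w')⁻¹)) • w' with hw''
  have hw2 : w'' ∈ W := W.smul_mem _ hw'
  have hw3 := mem_cut.1 hw2
  obtain ⟨u', hu', h1, h2⟩ := hB y hy y' hy' hQy hQy' hyy' w hw1.1 hw1.2.1 hw1.2.2 u hu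
  obtain ⟨v', hv', h3, h4⟩ := hB y hy y' hy' hQy hQy' hyy' w'' hw3.1 hw3.2.1 hw3.2.2 (u' - u)
    (B.sub_mem hu' hu)
  have h5 := B.sub_mem hv' (B.sub_mem hu' hu)
  have key : ∀ x : V, E hQ y w'' (E hQ y w x - x) - (E hQ y w x - x) = (c * polar Q y x) • y := by
    intro x
    have hyyz : polar Q y y = 0 := by rw [polar_self', hQy, mul_zero]
    have hw''y : polar Q w'' y = 0 := by rw [polar_comm]; exact hw3.2.1
    have e1 : E hQ y w x - x = polar Q y x • w - polar Q w x • y - (Q w * polar Q y x) • y := by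
      rw [E_apply hQ hQy hw1.2.1]; abel
    have e2 : polar Q y (polar Q y x • w - polar Q w x • y - (Q w * polar Q y x) • y) = 0 := by
      rw [polar_sub_right, polar_sub_right, polar_smul_right, polar_smul_right, polar_smul_right, hw1.2.1, hyyz]
      simp
    have e3 : polar Q w'' (polar Q y x • w - polar Q w x • y - (Q w * polar Q y x) • y) =
        -(c * polar Q y x) := by
      rw [polar_sub_right, polar_sub_right, polar_smul_right, polar_smul_right, polar_smul_right, hw''y,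
        hw'', polar_smul_left, polar_comm Q w' w]
      simp only [smul_eq_mul, mul_zero, sub_zero]
      field_simp
    rw [e1, E_apply hQ hQy hw3.2.1, e2, e3]
    simp only [zero_smul, mul_zero, add_zero, sub_zero, neg_smul, sub_neg_eq_add]
    abel
  have e : v' - (u' - u) = ((c * polar Q y u.1) • (⟨y, hy⟩ : ↥U), (c * polar Q y u.2) • (⟨y, hy⟩ : ↥U)) := by
    ext
    · show (v'.1 : V) - ((u'.1 : V) - (u.1 : V)) = (c * polar Q y u.1) • y
      rw [h3, h1]
      show E hQ y w'' ((u'.1 : V) - (u.1 : V)) - _ = _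
      rw [h1]; exact key _
    · show (v'.2 : V) - ((u'.2 : V) - (u.2 : V)) = (c * polar Q y u.2) • y
      rw [h4, h2]
      show E hQ y w'' ((u'.2 : V) - (u.2 : V)) - _ = _
      rw [h2]; exact key _
  rwa [e] at h5

/-- singular vectors of a nondegenerate subspace detect vectors -/
theorem eq_zero_of_sing [Finite F] (hQ : Nd Q) {U : Submodule F V} (hU : NDs Q U) (h3 : 3 ≤ finrank F U)
    {x : V} (hx : x ∈ U) (h : ∀ y ∈ U, Q y = 0 → polar Q y x = 0) : x = 0 := by
  obtain ⟨e, he, f, hf, hQe, hQf, hef⟩ := exists_pair_in hQ hU h3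
  set P := perp Q (F ∙ x) with hP
  have h1 : U ≤ P := by
    refine le_of_sing he hf hQe hQf hef fun s hs hQs => ?_
    rw [hP, mem_perp']
    intro y hy
    obtain ⟨c, rfl⟩ := Submodule.mem_span_singleton.1 hy
    rw [polar_smul_right, h s hs hQs, smul_zero]
  have : x ∈ U ⊓ perp Q U := ⟨hx, mem_perp'.2 fun b hb => by
    have := mem_perp'.1 (h1 hb) x (Submodule.mem_span_singleton_self x)
    rw [polar_comm]; exact this⟩
  rwa [show U ⊓ perp Q U = ⊥ from hU, Submodule.mem_bot] at this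

/-- the key pairs -/
theorem inv2_all [Finite F] (hQ : Nd Q) {U : Submodule F V} (hU : NDs Q U) (h3 : 3 ≤ finrank F U)
    {B : AddSubgroup (↥U × ↥U)} (hB : Inv2 Q hQ U B) {y : V} (hy : y ∈ U) (hQy : Q y = 0)
    {u : ↥U × ↥U} (hu : u ∈ B) (v : ↥U) :
    (polar Q y u.1 • v, polar Q y u.2 • v) ∈ B := by
  by_cases hy0 : y = 0
  · have : (polar Q y u.1 • v, polar Q y u.2 • v) = (0, 0) := by
      rw [hy0, polar_zero_left, polar_zero_left, zero_smul]
    rw [this]; exact B.zero_mem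
  set α := polar Q y u.1 with hα
  set β := polar Q y u.2 with hβ
  let M : Submodule F V :=
    { carrier := {x | ∃ hx : x ∈ U, ∀ c : F, ((c * α) • (⟨x, hx⟩ : ↥U), (c * β) • (⟨x, hx⟩ : ↥U)) ∈ B}
      zero_mem' := ⟨U.zero_mem, fun c => by
        have : ((c * α) • (⟨(0 : V), U.zero_mem⟩ : ↥U), (c * β) • (⟨(0 : V), U.zero_mem⟩ : ↥U)) = (0, 0) := by
          ext
          · show (c * α) • (0 : V) = 0
            rw [smul_zero]
          · show (c * β) • (0 : V) = 0
            rw [smul_zero]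
        rw [this]; exact B.zero_mem⟩
      add_mem' := by
        rintro x x' ⟨hx, h⟩ ⟨hx', h'⟩
        refine ⟨U.add_mem hx hx', fun c => ?_⟩
        have := B.add_mem (h c) (h' c)
        rw [Prod.mk_add_mk, ← smul_add, ← smul_add] at this
        exact this
      smul_mem' := by
        rintro d x ⟨hx, h⟩
        refine ⟨U.smul_mem d hx, fun c => ?_⟩
        have := h (c * d)
        have e : ((c * α) • (⟨d • x, U.smul_mem d hx⟩ : ↥U), (c * β) • (⟨d • x, U.smul_mem d hx⟩ : ↥U)) =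
            ((c * d * α) • (⟨x, hx⟩ : ↥U), (c * d * β) • (⟨x, hx⟩ : ↥U)) := by
          ext
          · show (c * α) • d • x = (c * d * α) • x
            rw [smul_smul]; ring_nf
          · show (c * β) • d • x = (c * d * β) • x
            rw [smul_smul]; ring_nf
        rw [e]; exact this }
  have hyM : y ∈ M := ⟨hy, fun c => inv2_trick hQ hU h3 hB hy hQy hu c⟩
  have hM : ∀ z ∈ U, Q z = 0 → polar Q z y = 1 → z ∈ M := by
    intro z hz hQz hzy
    refine ⟨hz, fun c => ?_⟩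
    have h1 := inv2_trick hQ hU h3 hB hz hQz (hyM.choose_spec 1) c
    have e1 : polar Q z (((1 * α) • (⟨y, hyM.choose⟩ : ↥U) : ↥U) : V) = α := by
      show polar Q z ((1 * α) • y) = α
      rw [one_mul, polar_smul_right, hzy, smul_eq_mul, mul_one]
    have e2 : polar Q z (((1 * β) • (⟨y, hyM.choose⟩ : ↥U) : ↥U) : V) = β := by
      show polar Q z ((1 * β) • y) = β
      rw [one_mul, polar_smul_right, hzy, smul_eq_mul, mul_one]
    simp only [e1, e2] at h1
    exact h1
  obtain ⟨y', hy', hQy', hyy'⟩ := exists_partner hQ hU hy hy0 hQy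
  have hyy'' : polar Q y' y = 1 := by rw [polar_comm]; exact hyy'
  have hyy0 : polar Q y y = 0 := by rw [polar_self', hQy, mul_zero]
  have hy'y'0 : polar Q y' y' = 0 := by rw [polar_self', hQy', mul_zero]
  have hy'M : y' ∈ M := hM y' hy' hQy' hyy''
  have hall : ∀ x ∈ U, x ∈ M := by
    intro x hx
    set w := x - polar Q y' x • y - polar Q y x • y' with hw
    have hwU : w ∈ U := U.sub_mem (U.sub_mem hx (U.smul_mem _ hy)) (U.smul_mem _ hy')
    have hyw : polar Q y w = 0 := by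
      rw [hw, polar_sub_right, polar_sub_right, polar_smul_right, polar_smul_right, hyy0, hyy']; simp
    have hy'w : polar Q y' w = 0 := by
      rw [hw, polar_sub_right, polar_sub_right, polar_smul_right, polar_smul_right, hy'y'0, hyy'']; simp
    have hz : y' + w - Q w • y ∈ M := by
      apply hM
      · exact U.sub_mem (U.add_mem hy' hwU) (U.smul_mem _ hy)
      · rw [sub_eq_add_neg, Q_add, Q_add, QuadraticMap.map_neg, Q_smul, hQy, hQy', hy'w, polar_neg_right,
          polar_smul_right, polar_add_left, hyy'', polar_comm Q w y, hyw]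
        simp
      · rw [sub_eq_add_neg, polar_add_left, polar_add_left, hyy'', polar_comm Q w y, hyw, polar_neg_left,
          polar_smul_left, hyy0]
        simp
    have hwM : w ∈ M := by
      have := M.sub_mem (M.add_mem hz (M.smul_mem (Q w) hyM)) hy'M
      have e : y' + w - Q w • y + Q w • y - y' = w := by abel
      rwa [e] at this
    have := M.add_mem (M.add_mem hwM (M.smul_mem (polar Q y' x) hyM)) (M.smul_mem (polar Q y x) hy'M)
    have e : w + polar Q y' x • y + polar Q y x • y' = x := by rw [hw]; abel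
    rwa [e] at this
  obtain ⟨h1, h2⟩ := hall v v.2
  have := h2 1
  rw [one_mul, one_mul] at this
  exact this

/-- **Classification** of the invariant groups of pairs of vectors -/
theorem inv2_cases [Finite F] (hQ : Nd Q) {U : Submodule F V} (hU : NDs Q U) (h3 : 3 ≤ finrank F U)
    {B : AddSubgroup (↥U × ↥U)} (hB : Inv2 Q hQ U B) :
    B = ⊥ ∨ B = ⊤ ∨ ∃ α β : F, (α ≠ 0 ∨ β ≠ 0) ∧
      ∀ u : ↥U × ↥U, u ∈ B ↔ ∃ v : ↥U, u = (α • v, β • v) := by
  classical
  by_cases hbot : B = ⊥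
  · exact Or.inl hbot
  right
  -- a nonzero element of B
  obtain ⟨u, hu, hu0⟩ : ∃ u ∈ B, u ≠ 0 := by
    by_contra hcon
    push Not at hcon
    exact hbot (eq_bot_iff.2 fun u hu => AddSubgroup.mem_bot.2 (hcon u hu))
  obtain ⟨y, hy, hQy, hyu⟩ : ∃ y ∈ U, Q y = 0 ∧ (polar Q y u.1 ≠ 0 ∨ polar Q y u.2 ≠ 0) := by
    by_contra hcon
    push Not at hcon
    apply hu0
    refine Prod.ext (Subtype.ext ?_) (Subtype.ext ?_)
    · exact eq_zero_of_sing hQ hU h3 u.1.2 fun y hy hQy => (hcon y hy hQy).1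
    · exact eq_zero_of_sing hQ hU h3 u.2.2 fun y hy hQy => (hcon y hy hQy).2
  set α := polar Q y u.1 with hα
  set β := polar Q y u.2 with hβ
  have hB1 : ∀ v : ↥U, (α • v, β • v) ∈ B := fun v => inv2_all hQ hU h3 hB hy hQy hu v
  by_cases htop : ∃ y₁ ∈ U, Q y₁ = 0 ∧ ∃ u₁ ∈ B, α * polar Q y₁ (u₁ : ↥U × ↥U).2 ≠ β * polar Q y₁ u₁.1
  · left
    obtain ⟨y₁, hy₁, hQy₁, u₁, hu₁, hne⟩ := htop
    set γ := polar Q y₁ u₁.1 with hγ
    set δ := polar Q y₁ u₁.2 with hδ
    have hB2 : ∀ v : ↥U, (γ • v, δ • v) ∈ B := fun v => inv2_all hQ hU h3 hB hy₁ hQy₁ hu₁ v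
    rw [eq_top_iff]
    rintro ⟨v, w⟩ -
    have hd : α * δ - β * γ ≠ 0 := sub_ne_zero.2 hne
    have e : ((v, w) : ↥U × ↥U) =
        (α • ((α * δ - β * γ)⁻¹ • (δ • v - γ • w)), β • ((α * δ - β * γ)⁻¹ • (δ • v - γ • w))) +
        (γ • ((α * δ - β * γ)⁻¹ • (α • w - β • v)), δ • ((α * δ - β * γ)⁻¹ • (α • w - β • v))) := by
      ext
      · show (v : V) = α • ((α * δ - β * γ)⁻¹ • (δ • (v : V) - γ • (w : V))) +
          γ • ((α * δ - β * γ)⁻¹ • (α • (w : V) - β • (v : V)))
        have : (v : V) = ((α * δ - β * γ)⁻¹ * (α * δ - β * γ)) • (v : V) := by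
          rw [inv_mul_cancel₀ hd, one_smul]
        conv_lhs => rw [this]
        module
      · show (w : V) = β • ((α * δ - β * γ)⁻¹ • (δ • (v : V) - γ • (w : V))) +
          δ • ((α * δ - β * γ)⁻¹ • (α • (w : V) - β • (v : V)))
        have : (w : V) = ((α * δ - β * γ)⁻¹ * (α * δ - β * γ)) • (w : V) := by
          rw [inv_mul_cancel₀ hd, one_smul]
        conv_lhs => rw [this]
        module
    rw [e]
    exact B.add_mem (hB1 _) (hB2 _)
  · right
    push Not at htop
    refine ⟨α, β, hyu, fun u₁ => ⟨fun hu₁ => ?_, ?_⟩⟩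
    · have h1 : α • (u₁.2 : V) - β • (u₁.1 : V) = 0 := by
        refine eq_zero_of_sing hQ hU h3 (U.sub_mem (U.smul_mem _ u₁.2.2) (U.smul_mem _ u₁.1.2))
          fun y₁ hy₁ hQy₁ => ?_
        rw [polar_sub_right, polar_smul_right, polar_smul_right, smul_eq_mul, smul_eq_mul,
          htop y₁ hy₁ hQy₁ u₁ hu₁, sub_self]
      have h1' : α • u₁.2 = β • u₁.1 := Subtype.ext (sub_eq_zero.1 h1)
      rcases hyu with h0 | h0
      · refine ⟨α⁻¹ • u₁.1, Prod.ext ?_ ?_⟩
        · show u₁.1 = α • α⁻¹ • u₁.1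
          rw [smul_smul, mul_inv_cancel₀ h0, one_smul]
        · show u₁.2 = β • α⁻¹ • u₁.1
          rw [smul_comm, ← h1', smul_smul, inv_mul_cancel₀ h0, one_smul]
      · refine ⟨β⁻¹ • u₁.2, Prod.ext ?_ ?_⟩
        · show u₁.1 = α • β⁻¹ • u₁.2
          rw [smul_comm, h1', smul_smul, inv_mul_cancel₀ h0, one_smul]
        · show u₁.2 = β • β⁻¹ • u₁.2
          rw [smul_smul, mul_inv_cancel₀ h0, one_smul]
    · rintro ⟨v, rfl⟩
      exact hB1 v

end Cfsg.Agent.Lib.Coop
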