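import Mathlib
import Cfsg.Agent.Lib.CoopI

set_option autoImplicit false
set_option linter.unusedSectionVars false

/-!
The dichotomy for point stabilisers of small index.
-/

namespace Cfsg.Agent.Lib.Coop

open QuadraticMap Module Cfsg.Agent.Lib.Quad Cfsg.Agent.Lib.ClOrthSiegel Cfsg.Agent.Lib.OrthNd
  Cfsg.Agent.Lib.OrthMax
open scoped Pointwise

variable {F V : Type*} [Field F] [AddCommGroup V] [Module F V] [FiniteDimensional F V]
  {Q : QuadraticForm F V}

theorem E_comb (hQ : Nd Q) {z b w : V} (hz : Q z = 0) (hb : Q b = 0) (hzb : polar Q z b = 0)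
    (hzw : polar Q z w = 0) (hbw : polar Q b w = 0) (α β : F) :
    E hQ z (α • w) * E hQ b (β • w) = E hQ z ((Q w * α * β) • b) * E hQ (α • z + β • b) w := by
  have hbz : polar Q b z = 0 := by rw [polar_comm]; exact hzb
  have hwz : polar Q w z = 0 := by rw [polar_comm]; exact hzw
  have hwb : polar Q w b = 0 := by rw [polar_comm]; exact hbw
  have hzz : polar Q z z = 0 := by rw [polar_self', hz, mul_zero]
  have hbb : polar Q b b = 0 := by rw [polar_self', hb, mul_zero]
  have h1 : polar Q z (α • w) = 0 := by rw [polar_smul_right, hzw, smul_zero]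
  have h2 : polar Q b (β • w) = 0 := by rw [polar_smul_right, hbw, smul_zero]
  have h3 : polar Q z ((Q w * α * β) • b) = 0 := by rw [polar_smul_right, hzb, smul_zero]
  have h4 : Q (α • z + β • b) = 0 := by
    rw [Q_add, Q_smul, Q_smul, polar_smul_left, polar_smul_right, hzb, hz, hb]; simp
  have h5 : polar Q (α • z + β • b) w = 0 := by
    rw [polar_add_left, polar_smul_left, polar_smul_left, hzw, hbw]; simp
  ext x
  rw [LinearEquiv.mul_apply, LinearEquiv.mul_apply, E_apply hQ hb h2, E_apply hQ hz h1,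
    E_apply hQ h4 h5, E_apply hQ hz h3]
  simp only [polar_add_right, polar_sub_right, polar_smul_right, polar_add_left,
    polar_smul_left, hbz, hwz, hwb, hzz, hbb, hzb, hzw, hbw, smul_eq_mul, mul_zero,
    sub_zero, add_zero, Q_smul, hb, hz, polar_self' Q w, zero_mul, zero_smul]
  module

/-- orbits on vectors of the group fixing `U^⊥`, stabilising `⟨y⟩` and `⟨y, y'⟩^⊥` -/
def OrbN (Q : QuadraticForm F V) (N : ℕ) : Prop :=
  ∀ (U : Submodule F V) (y y' : V), NDs Q U → y ∈ U → y' ∈ U → Q y = 0 → Q y' = 0 → polar Q y y' = 1 →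
    finrank F V ≤ finrank F U + 4 → (∃ z ∈ perp Q U, ∃ b ∈ perp Q U, Q z = 0 ∧ Q b = 0 ∧ polar Q z b = 0 ∧
      z ≠ 0 ∧ b ∉ F ∙ z) →
    ∀ v ∈ U ⊓ perp Q (Submodule.span F {y, y'}), v ≠ 0 →
      ∃ S : Finset V, N ≤ S.card ∧ ∀ v' ∈ S, ∃ h ∈ Om Q, (∀ x ∈ perp Q U, h x = x) ∧ ∃ c : F, c ≠ 0 ∧
        h y = c • y ∧ (∀ w, h w ∈ U ⊓ perp Q (Submodule.span F {y, y'}) ↔
          w ∈ U ⊓ perp Q (Submodule.span F {y, y'})) ∧ c • v' = h v

theorem perp_perp' (hQ : Nd Q) {U : Submodule F V} (hU : NDs Q U) {v : V}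
    (hv : ∀ x ∈ perp Q U, polar Q v x = 0) : v ∈ U := by
  obtain ⟨u, hu, x, hx, rfl⟩ := nds_sup hQ hU v
  have h1 : x ∈ perp Q U ⊓ perp Q (perp Q U) := by
    refine ⟨hx, mem_perp'.2 fun x' hx' => ?_⟩
    have := hv x' hx'
    rw [polar_add_left] at this
    have h2 : polar Q u x' = 0 := by rw [polar_comm]; exact mem_perp'.1 hx' u hu
    rw [h2, zero_add] at this
    exact this
  rw [show perp Q U ⊓ perp Q (perp Q U) = ⊥ from nds_perp hQ hU, Submodule.mem_bot] at h1
  rw [h1, add_zero]; exact hu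

theorem stab_of_fix (hQ : Nd Q) {U : Submodule F V} (hU : NDs Q U) {h : V ≃ₗ[F] V} (hh : h ∈ O Q)
    (hf : ∀ x ∈ perp Q U, h x = x) (u : V) : h u ∈ U ↔ u ∈ U := by
  constructor
  · intro hu
    refine perp_perp' hQ hU fun x hx => ?_
    rw [← O_polar hh u x, hf x hx, polar_comm]
    exact mem_perp'.1 hx _ hu
  · intro hu
    refine perp_perp' hQ hU fun x hx => ?_
    conv_lhs => rw [← hf x hx]
    rw [O_polar hh, polar_comm]
    exact mem_perp'.1 hx _ hu

section

variable [Finite F] (hQ : Nd Q) (hgen : GenHyp Q) {X : Type*} [MulAction ↥(Om Q) X]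

/-- the point stabiliser as a group of linear maps -/
def St (Q : QuadraticForm F V) {X : Type*} [MulAction ↥(Om Q) X] (x : X) : Subgroup (V ≃ₗ[F] V) :=
  (MulAction.stabilizer ↥(Om Q) x).map (Om Q).subtype

theorem St_le_Om (x : X) : St Q x ≤ Om Q := by
  rintro _ ⟨g, -, rfl⟩
  exact g.2

theorem mem_St {x : X} {g : V ≃ₗ[F] V} : g ∈ St Q x ↔ ∃ hg : g ∈ Om Q, (⟨g, hg⟩ : ↥(Om Q)) • x = x := by
  constructor
  · rintro ⟨g, hg, rfl⟩
    exact ⟨g.2, hg⟩
  · rintro ⟨hg, h⟩
    exact ⟨⟨g, hg⟩, h, rfl⟩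

theorem TT_iff {x : X} {z w : V} (hz : Q z = 0) (hzw : polar Q z w = 0) :
    TT Q (St Q x) z w ↔ EG hQ hgen z w • x = x := by
  constructor
  · rintro ⟨-, g, hg, h⟩
    obtain ⟨hg1, hg2⟩ := mem_St.1 hg
    have : (⟨g, hg1⟩ : ↥(Om Q)) = EG hQ hgen z w := by
      apply Subtype.ext
      show g = E hQ z w
      ext v
      rw [h, E_apply hQ hz hzw, siegMap_apply]
    rw [← this]; exact hg2
  · intro h
    refine ⟨hzw, E hQ z w, mem_St.2 ⟨(EG hQ hgen z w).2, h⟩, fun v => ?_⟩
    rw [E_apply hQ hz hzw, siegMap_apply]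

include hQ in
/-- partners of a totally singular pair -/
theorem exists_frame {z b : V} (hz0 : z ≠ 0) (hz : Q z = 0) (hb : Q b = 0) (hzb : polar Q z b = 0)
    (hbz : b ∉ F ∙ z) : ∃ z' b' : V, Q z' = 0 ∧ Q b' = 0 ∧ polar Q z z' = 1 ∧ polar Q b b' = 1 ∧
      polar Q b z' = 0 ∧ polar Q z b' = 0 ∧ polar Q z' b' = 0 := by
  have hT : NDs Q (⊤ : Submodule F V) := by
    show ⊤ ⊓ perp Q ⊤ = ⊥
    rw [eq_bot_iff]
    rintro x ⟨-, hx⟩
    rw [Submodule.mem_bot]
    by_contra hx0
    obtain ⟨y, hy⟩ : ∃ y, polar Q x y ≠ 0 := by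
      by_contra hcon
      push Not at hcon
      exact hx0 (hQ.eq_zero hcon)
    exact hy (mem_perp'.1 hx y Submodule.mem_top)
  have hb0 : b ≠ 0 := fun h => hbz (h ▸ Submodule.zero_mem _)
  have hzb' : z ∉ F ∙ b := by
    intro h
    obtain ⟨c, hc⟩ := Submodule.mem_span_singleton.1 h
    have hc0 : c ≠ 0 := by
      rintro rfl
      rw [zero_smul] at hc
      exact hz0 hc.symm
    exact hbz (Submodule.mem_span_singleton.2 ⟨c⁻¹, by rw [← hc, smul_smul, inv_mul_cancel₀ hc0, one_smul]⟩)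
  obtain ⟨y, -, hy1, hy2⟩ := exists_one_in hQ hT (le_top (a := F ∙ b)) (Submodule.mem_top (x := z)) hzb'
  have hby : polar Q b y = 0 := hy1 b (Submodule.mem_span_singleton_self b)
  set z' := y - Q y • z with hz'
  have hyz : polar Q y z = 1 := by rw [polar_comm]; exact hy2
  have hzz : polar Q z z = 0 := by rw [polar_self', hz, mul_zero]
  have h1 : Q z' = 0 := by
    rw [hz', sub_eq_add_neg, Q_add, QuadraticMap.map_neg, Q_smul, hz, polar_neg_right, polar_smul_right, hyz]
    simp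
  have h2 : polar Q z z' = 1 := by
    rw [hz', polar_sub_right, polar_smul_right, hy2, hzz]; simp
  have h3 : polar Q b z' = 0 := by
    rw [hz', polar_sub_right, polar_smul_right, hby, polar_comm Q b z, hzb]; simp
  have hA := nds_cut hQ hT (Submodule.mem_top (x := z)) (Submodule.mem_top (x := z')) hz h1 h2
  have hbA : b ∈ ⊤ ⊓ perp Q (Submodule.span F {z, z'}) :=
    mem_cut.2 ⟨Submodule.mem_top, hzb, by rw [polar_comm]; exact h3⟩
  obtain ⟨b', hb', hQb', hbb'⟩ := exists_partner hQ hA hbA hb0 hb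
  have h4 := mem_cut.1 hb'
  exact ⟨z', b', h1, hQb', h2, hbb', h3, h4.2.1, h4.2.2⟩

include hQ in
theorem frame_U {z b z' b' : V} (hz : Q z = 0) (hb : Q b = 0) (hzb : polar Q z b = 0)
    (hz' : Q z' = 0) (hb' : Q b' = 0) (hzz' : polar Q z z' = 1)
    (hbb' : polar Q b b' = 1) (hbz' : polar Q b z' = 0) (hzb' : polar Q z b' = 0) (hz'b' : polar Q z' b' = 0) :
    ∃ U : Submodule F V, NDs Q U ∧ finrank F V ≤ finrank F U + 4 ∧
      (∀ x, x ∈ U ↔ polar Q z x = 0 ∧ polar Q b x = 0 ∧ polar Q z' x = 0 ∧ polar Q b' x = 0) := by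
  have hT : NDs Q (⊤ : Submodule F V) := by
    show ⊤ ⊓ perp Q ⊤ = ⊥
    rw [eq_bot_iff]
    rintro x ⟨-, hx⟩
    rw [Submodule.mem_bot]
    by_contra hx0
    obtain ⟨y, hy⟩ : ∃ y, polar Q x y ≠ 0 := by
      by_contra hcon
      push Not at hcon
      exact hx0 (hQ.eq_zero hcon)
    exact hy (mem_perp'.1 hx y Submodule.mem_top)
  have hA := nds_cut hQ hT (Submodule.mem_top (x := z)) (Submodule.mem_top (x := z')) hz hz' hzz'
  have hbA : b ∈ ⊤ ⊓ perp Q (Submodule.span F {z, z'}) :=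
    mem_cut.2 ⟨Submodule.mem_top, hzb, by rw [polar_comm]; exact hbz'⟩
  have hb'A : b' ∈ ⊤ ⊓ perp Q (Submodule.span F {z, z'}) :=
    mem_cut.2 ⟨Submodule.mem_top, hzb', hz'b'⟩
  have hU := nds_cut hQ hA hbA hb'A hb hb' hbb'
  refine ⟨_, hU, ?_, fun x => ?_⟩
  · have h1 := finrank_cut hQ (⊤ : Submodule F V) z z'
    have h2 := finrank_cut hQ (⊤ ⊓ perp Q (Submodule.span F {z, z'})) b b'
    rw [finrank_top] at h1
    omega
  · rw [mem_cut, mem_cut]
    constructor
    · rintro ⟨⟨-, h1, h2⟩, h3, h4⟩; exact ⟨h1, h3, h2, h4⟩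
    · rintro ⟨h1, h2, h3, h4⟩; exact ⟨⟨Submodule.mem_top, h1, h3⟩, h2, h4⟩

include hQ hgen in
/-- **The dichotomy** -/
theorem dich_of_small [Finite X] {p : ℕ} [Fact p.Prime] [CharP F p] (hn : 7 ≤ finrank F V) {N : ℕ}
    (hN : OrbN Q N) (x : X) (h1 : Nat.card X < p * Nat.card F ^ (finrank F V - 4) * (N + 1))
    (h2 : Nat.card X < p * Nat.card F ^ (2 * (finrank F V - 4))) : Dich Q (St Q x) := by
  classical
  have : Finite V := Module.finite_of_finite F
  intro z b hz0 hz hb hzb hbz hbK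
  -- the root group of the line acts nontrivially
  have hC : Cx hQ hgen hzb x ≠ ⊤ := by
    intro hC
    apply hbK
    rw [mem_KK hz]
    intro c
    rw [TT_iff hQ hgen hz (by rw [polar_smul_right, hzb, smul_zero])]
    have : c ∈ Cx hQ hgen hzb x := by rw [hC]; exact AddSubgroup.mem_top c
    exact this
  obtain ⟨z', b', hz', hb', hzz', hbb', hbz', hzb', hz'b'⟩ := exists_frame hQ hz0 hz hb hzb hbz
  obtain ⟨U, hUn, hUd, hUm⟩ := frame_U hQ hz hb hzb hz' hb' hzz' hbb' hbz' hzb' hz'b'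
  have hU : ∀ u ∈ U, polar Q z u = 0 ∧ polar Q b u = 0 := fun u hu =>
    ⟨((hUm u).1 hu).1, ((hUm u).1 hu).2.1⟩
  have hzP : z ∈ perp Q U := mem_perp'.2 fun u hu => (hU u hu).1
  have hbP : b ∈ perp Q U := mem_perp'.2 fun u hu => (hU u hu).2
  have hU3 : 3 ≤ finrank F U := by omega
  set D := hd hQ hgen hz hb hzb U hU with hD
  have hF1 : 1 ≤ Nat.card F := Nat.card_pos
  have hp1 : 1 ≤ p := (Fact.out : p.Prime).one_lt.le
  have hpow : ∀ k l : ℕ, k ≤ l → Nat.card F ^ k ≤ Nat.card F ^ l := fun k l h =>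
    Nat.pow_le_pow_right hF1 h
  have hX1 : Nat.card X < p * Nat.card F ^ finrank F U * (N + 1) := by
    refine lt_of_lt_of_le h1 ?_
    exact Nat.mul_le_mul_right _ (Nat.mul_le_mul_left _ (hpow _ _ (by omega)))
  -- invariance
  have hInv : Inv2 Q hQ U (D.bar x) := by
    intro y hy y' hy' hQy hQy' hyy' w hw hyw hy'w
    set W := U ⊓ perp Q (Submodule.span F {y, y'}) with hW
    have hWn : NDs Q W := nds_cut hQ hUn hy hy' hQy hQy' hyy'
    refine K_fix hQ hgen hz hb hzb U hU hUn x hC hy hQy W (fun w hw => ?_) hWn hX1 (fun v hv hv0 => ?_) w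
      (mem_cut.2 ⟨hw, hyw, hy'w⟩)
    · have := mem_cut.1 hw
      exact ⟨this.1, this.2.1⟩
    · obtain ⟨S, hS, h⟩ := hN U y y' hUn hy hy' hQy hQy' hyy' hUd ⟨z, hzP, b, hbP, hz, hb, hzb, hz0, hbz⟩ v hv hv0
      refine ⟨S, hS, fun v' hv' => ?_⟩
      obtain ⟨h, hh, hf, c, hc, hhy, hhW, hcv⟩ := h v' hv'
      exact ⟨⟨h, hh⟩, ⟨hf z hzP, hf b hbP, stab_of_fix hQ hUn (Om_le hh) hf⟩, c, hc, hhy, hhW, hcv⟩
  have hcardU : Nat.card ↥U = Nat.card F ^ finrank F U := Module.natCard_eq_pow_finrank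
  have hlow := D.card_orbit_ge x
  have hlow2 : Nat.card (MulAction.orbit D.Qg x) ≤ Nat.card X :=
    Nat.card_le_card_of_injective _ Subtype.val_injective
  have hZ := card_orbit_Z (p := p) hQ hgen hz hb hzb U hU x hC
  rcases inv2_cases hQ hUn hU3 hInv with hB | hB | ⟨α, β, hαβ, hB⟩
  · -- B = ⊥
    exfalso
    have hc : Nat.card ((↥U × ↥U) ⧸ D.bar x) = Nat.card F ^ (2 * finrank F U) := by
      have := AddSubgroup.card_eq_card_quotient_mul_card_addSubgroup (D.bar x)
      rw [hB] at this ⊢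
      rw [Nat.card_prod, hcardU, AddSubgroup.card_bot, mul_one] at this
      rw [← this, ← pow_add, two_mul]
    have h3 : Nat.card F ^ (2 * finrank F U) * p ≤ Nat.card X := by
      calc _ ≤ Nat.card ((↥U × ↥U) ⧸ D.bar x) * Nat.card (MulAction.orbit D.Z x) := by
            rw [hc]; exact Nat.mul_le_mul_left _ hZ
        _ ≤ _ := hlow.trans hlow2
    have h4 : Nat.card F ^ (2 * (finrank F V - 4)) ≤ Nat.card F ^ (2 * finrank F U) := hpow _ _ (by omega)
    have h5 := Nat.mul_le_mul_right p h4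
    rw [mul_comm p] at h2
    omega
  · -- B = ⊤
    exfalso
    have h3 := card_bar_le hQ hgen hz hb hzb U hU hUn x hC
    rw [← hD, hB] at h3
    have h4 : Nat.card (⊤ : AddSubgroup (↥U × ↥U)) = Nat.card F ^ finrank F U * Nat.card F ^ finrank F U := by
      rw [← hcardU, ← Nat.card_prod]
      exact Nat.card_congr (AddSubgroup.topEquiv).toEquiv
    rw [h4] at h3
    have h5 : 1 < Nat.card F ^ finrank F U := Nat.one_lt_pow (by omega) Finite.one_lt_card
    have h6 : Nat.card F ^ finrank F U * 1 < Nat.card F ^ finrank F U * Nat.card F ^ finrank F U :=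
      Nat.mul_lt_mul_of_pos_left h5 (by omega)
    omega
  -- the black point
  have hzero : polar Q z ((0 : F) • b) = 0 := by rw [zero_smul, polar_zero_right]
  -- membership in bar x in terms of Siegel elements
  have hmem : ∀ (γ δ : F) (u : ↥U), (γ • u, δ • u) ∈ D.bar x ↔
      ∃ c : F, EG hQ hgen z (c • b) • EG hQ hgen (γ • z + δ • b) (u : V) • x = x := by
    intro γ δ u
    have hz1 := (hU u u.2).1
    have hb1 := (hU u u.2).2
    have he : D.e (γ • u, δ • u) = EG hQ hgen z ((Q (u : V) * γ * δ) • b) * EG hQ hgen (γ • z + δ • b) (u : V) :=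
      Subtype.ext (E_comb hQ hz hb hzb hz1 hb1 γ δ)
    have hzz : ∀ c d : F, EG hQ hgen z (c • b) * EG hQ hgen z (d • b) = EG hQ hgen z ((c + d) • b) := by
      intro c d
      rw [add_smul, EG_add hQ hgen (by rw [polar_smul_right, hzb, smul_zero])
        (by rw [polar_smul_right, hzb, smul_zero])]
    have hinv : ∀ c : F, (EG hQ hgen z (c • b))⁻¹ = EG hQ hgen z ((-c) • b) := by
      intro c
      rw [inv_eq_iff_mul_eq_one, hzz, add_neg_cancel, zero_smul, EG_zero]
    constructor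
    · rintro ⟨s, hs, h⟩
      obtain ⟨c, rfl⟩ := (mem_zhom hQ hgen hzb).1 hs
      refine ⟨-c + Q (u : V) * γ * δ, ?_⟩
      rw [he, mul_smul] at h
      rw [← hzz, mul_smul, h, ← mul_smul, hzz, neg_add_cancel, zero_smul, EG_zero, one_smul]
    · rintro ⟨c, h⟩
      refine ⟨EG hQ hgen z ((Q (u : V) * γ * δ - c) • b), (mem_zhom hQ hgen hzb).2 ⟨_, rfl⟩, ?_⟩
      have h' : EG hQ hgen (γ • z + δ • b) (u : V) • x = EG hQ hgen z ((-c) • b) • x := by
        rw [← hinv, eq_inv_smul_iff]; exact h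
      generalize hk : Q (u : V) * γ * δ = k at he ⊢
      rw [he, sub_eq_add_neg, ← hzz, mul_smul, mul_smul, h']
  -- the black point
  set a := α • z + β • b with ha
  have hbz0 : ∀ γ δ : F, γ • z + δ • b = 0 → γ = 0 ∧ δ = 0 := by
    intro γ δ h
    have hδ : δ = 0 := by
      by_contra hδ
      apply hbz
      refine Submodule.mem_span_singleton.2 ⟨-(δ⁻¹ * γ), ?_⟩
      have h3 : δ⁻¹ • (γ • z + δ • b) = 0 := by rw [h, smul_zero]
      rw [smul_add, smul_smul, smul_smul, inv_mul_cancel₀ hδ, one_smul] at h3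
      rw [neg_smul]
      exact (eq_neg_of_add_eq_zero_right h3).symm
    rw [hδ, zero_smul, add_zero] at h
    exact ⟨(smul_eq_zero.1 h).resolve_right hz0, hδ⟩
  have ha0 : a ≠ 0 := by
    intro h
    obtain ⟨h3, h4⟩ := hbz0 α β h
    rcases hαβ with h5 | h5
    · exact h5 h3
    · exact h5 h4
  have haS : a ∈ Submodule.span F {z, b} := Submodule.mem_span_pair.2 ⟨α, β, rfl⟩
  have hQa : Q a = 0 := ts_span hz hb hzb haS
  -- the second vector
  obtain ⟨b₂, hb₂S, s, hs0, t, hzE, hspan⟩ : ∃ b₂ ∈ Submodule.span F {z, b}, ∃ s : F, s ≠ 0 ∧ ∃ t : F,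
      (∀ c : F, EG hQ hgen z (c • b) = EG hQ hgen a ((c * s) • b₂)) ∧
      ∀ y ∈ Submodule.span F {z, b}, ∃ c d : F, y = c • a + d • b₂ := by
    by_cases hα : α = 0
    · have hβ : β ≠ 0 := by
        rcases hαβ with h5 | h5
        · exact absurd hα h5
        · exact h5
      refine ⟨z, Submodule.subset_span (by simp), -β⁻¹, neg_ne_zero.2 (inv_ne_zero hβ), 0, fun c => ?_, fun y hy => ?_⟩
      · apply Subtype.ext
        show E hQ z (c • b) = E hQ a ((c * -β⁻¹) • z)
        rw [ha, hα, zero_smul, zero_add, E_smul_swap hQ hz hb hzb, E_smul hQ hβ, smul_smul]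
        congr 2
        field_simp
      · obtain ⟨c, d, rfl⟩ := Submodule.mem_span_pair.1 hy
        refine ⟨d * β⁻¹, c, ?_⟩
        rw [ha, hα, zero_smul, zero_add, smul_smul, mul_assoc, inv_mul_cancel₀ hβ, mul_one, add_comm]
    · refine ⟨b, Submodule.subset_span (by simp), α⁻¹, inv_ne_zero hα, 0, fun c => ?_, fun y hy => ?_⟩
      · apply Subtype.ext
        show E hQ z (c • b) = E hQ a ((c * α⁻¹) • b)
        have hac : polar Q a ((c * α⁻¹) • b) = 0 := by
          rw [ha, polar_smul_right, polar_add_left, polar_smul_left, polar_smul_left, hzb, polar_self', hb]; simp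
        ext x
        rw [E_apply hQ hz (by rw [polar_smul_right, hzb, smul_zero]), E_apply hQ hQa hac]
        simp only [ha, polar_add_left, polar_smul_left, Q_smul, hb, smul_eq_mul, mul_zero, zero_mul, zero_smul,
          sub_zero]
        have e1 : (α * polar Q z x + β * polar Q b x) • (c * α⁻¹) • b - (c * α⁻¹ * polar Q b x) • (α • z + β • b)
            = (α * α⁻¹) • (polar Q z x • c • b - (c * polar Q b x) • z) := by module
        rw [mul_inv_cancel₀ hα, one_smul] at e1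
        rw [add_sub_assoc, add_sub_assoc, e1]
      · obtain ⟨c, d, rfl⟩ := Submodule.mem_span_pair.1 hy
        refine ⟨c * α⁻¹, d - c * α⁻¹ * β, ?_⟩
        rw [ha]
        have e1 : (c * α⁻¹) • (α • z + β • b) + (d - c * α⁻¹ * β) • b = (c * (α⁻¹ * α)) • z + d • b := by module
        rw [e1, inv_mul_cancel₀ hα, mul_one]
  have hQb₂ : Q b₂ = 0 := ts_span hz hb hzb hb₂S
  have hab₂ : polar Q a b₂ = 0 := by
    obtain ⟨c, d, rfl⟩ := Submodule.mem_span_pair.1 hb₂S
    rw [polar_add_right, polar_smul_right, polar_smul_right, ha, polar_add_left, polar_add_left, polar_smul_left,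
      polar_smul_left, polar_smul_left, polar_smul_left, hzb, polar_comm Q b z, hzb, polar_self', polar_self',
      hz, hb]
    simp
  -- decomposition of vectors of the perp
  have hdec : ∀ w, polar Q z w = 0 → polar Q b w = 0 → ∃ u ∈ U, ∃ l ∈ Submodule.span F {z, b}, w = u + l := by
    intro w hw1 hw2
    refine ⟨w - (polar Q z' w • z + polar Q b' w • b), ?_, polar Q z' w • z + polar Q b' w • b,
      Submodule.mem_span_pair.2 ⟨_, _, rfl⟩, by abel⟩
    rw [hUm]
    have e1 : polar Q z z = 0 := by rw [polar_self', hz, mul_zero]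
    have e2 : polar Q b b = 0 := by rw [polar_self', hb, mul_zero]
    have e3 : polar Q b z = 0 := by rw [polar_comm]; exact hzb
    have e4 : polar Q z' z = 1 := by rw [polar_comm]; exact hzz'
    have e5 : polar Q b' b = 1 := by rw [polar_comm]; exact hbb'
    have e6 : polar Q z' b = 0 := by rw [polar_comm]; exact hbz'
    have e7 : polar Q b' z = 0 := by rw [polar_comm]; exact hzb'
    refine ⟨?_, ?_, ?_, ?_⟩
    · rw [polar_sub_right, polar_add_right, polar_smul_right, polar_smul_right, hw1, e1, hzb]; simp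
    · rw [polar_sub_right, polar_add_right, polar_smul_right, polar_smul_right, hw2, e2, e3]; simp
    · rw [polar_sub_right, polar_add_right, polar_smul_right, polar_smul_right, e4, e6]; simp
    · rw [polar_sub_right, polar_add_right, polar_smul_right, polar_smul_right, e5, e7]; simp
  refine ⟨a, haS, b₂, hb₂S, ha0, fun w hw1 hw2 => ?_, fun a' ha' ha'a w hw1 hw2 hw3 => ?_⟩
  · obtain ⟨u, hu, l, hl, rfl⟩ := hdec w hw1 hw2
    obtain ⟨c, d, rfl⟩ := hspan l hl
    have h3 : (α • (⟨u, hu⟩ : ↥U), β • (⟨u, hu⟩ : ↥U)) ∈ D.bar x := (hB _).2 ⟨_, rfl⟩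
    obtain ⟨e, h4⟩ := (hmem α β ⟨u, hu⟩).1 h3
    have hau : polar Q a u = 0 := polar_span haS (hU u hu).1 (hU u hu).2
    refine ⟨e * s - d, ?_⟩
    have h5 : TT Q (St Q x) a (u + (e * s) • b₂) := by
      rw [TT_iff hQ hgen hQa (by rw [polar_add_right, polar_smul_right, hau, hab₂]; simp)]
      rw [add_comm, ← EG_add hQ hgen (by rw [polar_smul_right, hab₂, smul_zero]) hau, mul_smul, ← hzE]
      exact h4
    have h6 := h5.add hQa (TT.self (H := St Q x) hQa c)
    have e2 : u + (c • a + d • b₂) + (e * s - d) • b₂ = u + (e * s) • b₂ + c • a := by module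
    rw [e2]; exact h6
  · obtain ⟨u, hu, l, hl, rfl⟩ := hdec w hw1 hw2
    obtain ⟨γ, δ, rfl⟩ := Submodule.mem_span_pair.1 ha'
    have hQa' : Q (γ • z + δ • b) = 0 := ts_span hz hb hzb ha'
    have ha'u : polar Q (γ • z + δ • b) u = 0 := polar_span ha' (hU u hu).1 (hU u hu).2
    have ha'l : polar Q (γ • z + δ • b) l = 0 := by
      obtain ⟨c, d, rfl⟩ := Submodule.mem_span_pair.1 hl
      rw [polar_add_right, polar_smul_right, polar_smul_right, polar_add_left, polar_add_left, polar_smul_left,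
        polar_smul_left, polar_smul_left, polar_smul_left, hzb, polar_comm Q b z, hzb, polar_self', polar_self',
        hz, hb]
      simp
    -- the Siegel element of the line is in the root group
    obtain ⟨c, hc⟩ : ∃ c : F, EG hQ hgen (γ • z + δ • b) l = EG hQ hgen z (c • b) := by
      obtain ⟨d, e, rfl⟩ := Submodule.mem_span_pair.1 hl
      refine ⟨γ * e - δ * d, ?_⟩
      apply Subtype.ext
      show E hQ (γ • z + δ • b) (d • z + e • b) = E hQ z ((γ * e - δ * d) • b)
      ext x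
      have hQl : Q (d • z + e • b) = 0 := ts_span hz hb hzb hl
      rw [E_apply hQ hQa' ha'l, E_apply hQ hz (by rw [polar_smul_right, hzb, smul_zero]), hQl, Q_smul, hb]
      simp only [polar_add_left, polar_smul_left, smul_eq_mul, mul_zero, zero_mul, zero_smul, sub_zero]
      module
    have h3 : (γ • (⟨u, hu⟩ : ↥U), δ • (⟨u, hu⟩ : ↥U)) ∈ D.bar x := by
      rw [hmem]
      refine ⟨c, ?_⟩
      have h4 := (TT_iff hQ hgen hQa' (by rw [polar_add_right, ha'u, ha'l, add_zero])).1 hw3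
      rw [add_comm u l, ← EG_add hQ hgen ha'l ha'u, mul_smul, hc] at h4
      exact h4
    obtain ⟨v, hv⟩ := (hB _).1 h3
    have h4 : γ • (⟨u, hu⟩ : ↥U) = α • v := congrArg Prod.fst hv
    have h5 : δ • (⟨u, hu⟩ : ↥U) = β • v := congrArg Prod.snd hv
    have h6 : (α * δ - β * γ) • (⟨u, hu⟩ : ↥U) = 0 := by
      rw [sub_smul, mul_smul, mul_smul, h4, h5, smul_comm, sub_self]
    rcases smul_eq_zero.1 h6 with h7 | h7
    · exfalso
      apply ha'a
      have h7' : α * δ = β * γ := sub_eq_zero.1 h7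
      by_cases hα : α = 0
      · have hβ : β ≠ 0 := by
          rcases hαβ with h8 | h8
          · exact absurd hα h8
          · exact h8
        have hγ : γ = 0 := by
          rw [hα, zero_mul] at h7'
          exact (mul_eq_zero.1 h7'.symm).resolve_left hβ
        refine Submodule.mem_span_singleton.2 ⟨δ * β⁻¹, ?_⟩
        rw [ha, hα, hγ, zero_smul, zero_add, zero_add, smul_smul, mul_assoc, inv_mul_cancel₀ hβ, mul_one]
      · refine Submodule.mem_span_singleton.2 ⟨γ * α⁻¹, ?_⟩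
        have e1 : γ * α⁻¹ * α = γ := by rw [mul_assoc, inv_mul_cancel₀ hα, mul_one]
        have e2 : γ * α⁻¹ * β = δ := by
          rw [mul_right_comm, mul_comm γ β, ← h7', mul_comm α δ, mul_assoc, mul_inv_cancel₀ hα, mul_one]
        rw [ha, smul_add, smul_smul, smul_smul, e1, e2]
    · have h8 : u = 0 := congrArg Subtype.val h7
      rw [h8, zero_add]
      exact hl

end

end Cfsg.Agent.Lib.Coop
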