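import Mathlib
import Cfsg.Agent.Lib.CoopJ

set_option autoImplicit false
set_option linter.unusedSectionVars false

/-!
Orbits on vectors.
-/

namespace Cfsg.Agent.Lib.Coop

open QuadraticMap Module Cfsg.Agent.Lib.Quad Cfsg.Agent.Lib.ClOrthSiegel Cfsg.Agent.Lib.OrthNd
  Cfsg.Agent.Lib.OrthMax

variable {F V : Type*} [Field F] [AddCommGroup V] [Module F V] [FiniteDimensional F V]
  {Q : QuadraticForm F V}

/-- the torus of a hyperbolic pair -/
theorem exists_torus [Finite F] (hQ : Nd Q) (hgen : GenHyp Q) {y y' : V} (hy : Q y = 0) (hy' : Q y' = 0)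
    (hyy' : polar Q y y' = 1) {s : F} (hs0 : s ≠ 0) (hs : IsSquare s) :
    ∃ t ∈ Om Q, t y = s • y ∧ t y' = s⁻¹ • y' ∧ ∀ x, polar Q y x = 0 → polar Q y' x = 0 → t x = x := by
  have hyy : polar Q y y = 0 := by rw [polar_self', hy, mul_zero]
  have hy'y' : polar Q y' y' = 0 := by rw [polar_self', hy', mul_zero]
  have hy'y : polar Q y' y = 1 := by rw [polar_comm]; exact hyy'
  have hQc : ∀ c : F, Q (y + c • y') = c := by
    intro c
    rw [Q_add, Q_smul, hy, hy', polar_smul_right, hyy']; simp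
  have hry : ∀ c : F, c ≠ 0 → refl Q (y + c • y') y = -(c • y') := by
    intro c hc
    rw [refl_apply (by rw [hQc]; exact hc), hQc, polar_add_left, polar_smul_left, hyy, hy'y, smul_eq_mul, mul_one,
      zero_add, inv_mul_cancel₀ hc, one_smul]
    abel
  have hry' : ∀ c : F, c ≠ 0 → refl Q (y + c • y') y' = -(c⁻¹ • y) := by
    intro c hc
    rw [refl_apply (by rw [hQc]; exact hc), hQc, polar_add_left, polar_smul_left, hy'y', hyy', smul_eq_mul,
      mul_zero, add_zero, mul_one, smul_add, smul_smul, inv_mul_cancel₀ hc, one_smul]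
    abel
  have hrx : ∀ c : F, ∀ x, polar Q y x = 0 → polar Q y' x = 0 → refl Q (y + c • y') x = x := by
    intro c x h1 h2
    exact refl_of_perp (by rw [polar_add_left, polar_smul_left, h1, h2]; simp)
  refine ⟨refl Q (y + (1 : F) • y') * refl Q (y + s • y'), ?_, ?_, ?_, fun x h1 h2 => ?_⟩
  · have h := (hQ.list_mem_Om_iff hgen [y + (1 : F) • y', y + s • y'] (by
      intro v hv
      simp only [List.mem_cons, List.not_mem_nil, or_false] at hv
      rcases hv with rfl | rfl
      · rw [hQc]; exact one_ne_zero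
      · rw [hQc]; exact hs0)).2 ⟨by simp, by
        simp only [List.map_cons, List.map_nil, List.prod_cons, List.prod_nil, mul_one]
        rw [hQc, hQc, one_mul]; exact hs⟩
    simpa only [List.map_cons, List.map_nil, List.prod_cons, List.prod_nil, mul_one] using h
  · rw [LinearEquiv.mul_apply, hry s hs0, map_neg, map_smul, hry' 1 one_ne_zero]
    simp
  · rw [LinearEquiv.mul_apply, hry' s hs0, map_neg, map_smul, hry 1 one_ne_zero]
    simp
  · rw [LinearEquiv.mul_apply, hrx s x h1 h2, hrx 1 x h1 h2]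

theorem cut_iff (hQ : Nd Q) {U : Submodule F V} (hU : NDs Q U) {h : V ≃ₗ[F] V} (hh : h ∈ O Q)
    (hf : ∀ x ∈ perp Q U, h x = x) {y y' : V} {s s' : F} (hs : s ≠ 0) (hs' : s' ≠ 0) (h1 : h y = s • y)
    (h2 : h y' = s' • y') (w : V) : h w ∈ U ⊓ perp Q (Submodule.span F {y, y'}) ↔
      w ∈ U ⊓ perp Q (Submodule.span F {y, y'}) := by
  rw [mem_cut, mem_cut, stab_of_fix hQ hU hh hf]
  have e1 : polar Q y w = s * polar Q y (h w) := by
    rw [← O_polar hh, h1, polar_smul_left, smul_eq_mul]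
  have e2 : polar Q y' w = s' * polar Q y' (h w) := by
    rw [← O_polar hh, h2, polar_smul_left, smul_eq_mul]
  rw [e1, e2, mul_eq_zero, mul_eq_zero, or_iff_right hs, or_iff_right hs']

/-- the number of nonzero squares -/
noncomputable def nsq (F : Type*) [Field F] : ℕ := Nat.card {s : F // s ≠ 0 ∧ IsSquare s}

theorem nsq_pos [Finite F] : 0 < nsq F := by
  have : Nonempty {s : F // s ≠ 0 ∧ IsSquare s} := ⟨⟨1, one_ne_zero, 1, by rw [one_mul]⟩⟩
  exact Nat.card_pos

theorem nsq_odd [Finite F] : Nat.card F - 1 ≤ 2 * nsq F := by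
  classical
  haveI := Fintype.ofFinite F
  rw [nsq, Nat.card_eq_fintype_card, Nat.card_eq_fintype_card, Fintype.card_subtype]
  have h1 : Fintype.card F - 1 = (Finset.univ.erase (0 : F)).card := by
    rw [Finset.card_erase_of_mem (Finset.mem_univ _), Finset.card_univ]
  rw [h1]
  have h2 := Finset.card_le_mul_card_image (f := fun x : F => x * x) (Finset.univ.erase (0 : F)) 2 (by
    intro a ha
    obtain ⟨x, hx, hxa⟩ := Finset.mem_image.1 ha
    refine (Finset.card_le_card (t := {x, -x}) fun y hy => ?_).trans Finset.card_le_two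
    rw [Finset.mem_filter] at hy
    have : y * y = x * x := by rw [hy.2]; exact hxa.symm
    rcases mul_self_eq_mul_self_iff.1 this with h | h
    · rw [h]; simp
    · rw [h]; simp)
  refine h2.trans (Nat.mul_le_mul_left _ (Finset.card_le_card fun a ha => ?_))
  obtain ⟨x, hx, rfl⟩ := Finset.mem_image.1 ha
  rw [Finset.mem_filter]
  exact ⟨Finset.mem_univ _, mul_self_ne_zero.2 (Finset.ne_of_mem_erase hx), x, rfl⟩

theorem nsq_even [Finite F] (h2 : (2 : F) = 0) : nsq F = Nat.card F - 1 := by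
  classical
  haveI := Fintype.ofFinite F
  rw [nsq, Nat.card_eq_fintype_card, Nat.card_eq_fintype_card, Fintype.card_subtype]
  have h1 : Fintype.card F - 1 = (Finset.univ.erase (0 : F)).card := by
    rw [Finset.card_erase_of_mem (Finset.mem_univ _), Finset.card_univ]
  rw [h1]
  congr 1
  ext x
  rw [Finset.mem_filter, Finset.mem_erase]
  haveI : CharP F 2 := CharTwo.of_one_ne_zero_of_two_eq_zero one_ne_zero h2
  have h3 : IsSquare x := FiniteField.isSquare_of_char_two (by
    exact ringChar.eq F 2 |>.symm ▸ rfl) x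
  constructor
  · rintro ⟨-, h, -⟩; exact ⟨h, Finset.mem_univ _⟩
  · rintro ⟨h, -⟩; exact ⟨Finset.mem_univ _, h, h3⟩

theorem orbN_big [Finite F] (hQ : Nd Q) (hgen : GenHyp Q) (hn : 9 ≤ finrank F V) :
    OrbN Q (nsq F * Nat.card F ^ (finrank F V - 8)) := by
  classical
  haveI : Finite V := Module.finite_of_finite F
  intro U y y' hU hy hy' hQy hQy' hyy' hUd _ v hv hv0
  set W := U ⊓ perp Q (Submodule.span F {y, y'}) with hW
  have hWn : NDs Q W := nds_cut hQ hU hy hy' hQy hQy' hyy'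
  have hWd := finrank_cut hQ U y y'
  rw [← hW] at hWd
  have hW3 : 3 ≤ finrank F W := by omega
  obtain ⟨d, hd, hQd, hdv⟩ : ∃ d ∈ W, Q d = 0 ∧ polar Q d v ≠ 0 := by
    by_contra hcon
    push Not at hcon
    exact hv0 (eq_zero_of_sing hQ hWn hW3 hv hcon)
  have hd0 : d ≠ 0 := by
    rintro rfl
    exact hdv (polar_zero_left _ _)
  obtain ⟨d', hd', hQd', hdd'⟩ := exists_partner hQ hWn hd hd0 hQd
  set W' := W ⊓ perp Q (Submodule.span F {d, d'}) with hW'
  have hW'd := finrank_cut hQ W d d'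
  rw [← hW'] at hW'd
  have hmW : ∀ w ∈ W, w ∈ U ∧ polar Q y w = 0 ∧ polar Q y' w = 0 := fun w hw => mem_cut.1 hw
  let f : {s : F // s ≠ 0 ∧ IsSquare s} × ↥W' → V := fun p => (p.1.1)⁻¹ • E hQ d (p.2 : V) v
  have hdE : ∀ e ∈ W', polar Q d (E hQ d e v) = polar Q d v := by
    intro e he
    have h1 := mem_cut.1 he
    rw [E_apply hQ hQd h1.2.1, polar_sub_right, polar_sub_right, polar_add_right, polar_smul_right, polar_smul_right,
      polar_smul_right, h1.2.1, polar_self', hQd]
    simp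
  have hf : Function.Injective f := by
    rintro ⟨⟨s, hs0, hs⟩, e, he⟩ ⟨⟨s₂, hs₂0, hs₂⟩, e₂, he₂⟩ h
    change s⁻¹ • E hQ d e v = s₂⁻¹ • E hQ d e₂ v at h
    have h1 : polar Q d (s⁻¹ • E hQ d e v) = polar Q d (s₂⁻¹ • E hQ d e₂ v) := by rw [h]
    rw [polar_smul_right, polar_smul_right, hdE e he, hdE e₂ he₂, smul_eq_mul, smul_eq_mul] at h1
    have h2 : s = s₂ := inv_injective (mul_right_cancel₀ hdv h1)
    subst h2
    have h3 : E hQ d e v = E hQ d e₂ v := smul_right_injective _ (inv_ne_zero hs0) h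
    have he1 := mem_cut.1 he
    have he₂1 := mem_cut.1 he₂
    rw [E_apply hQ hQd he1.2.1, E_apply hQ hQd he₂1.2.1] at h3
    have h4 : polar Q d v • (e - e₂) = (polar Q e v - polar Q e₂ v + Q e * polar Q d v - Q e₂ * polar Q d v) • d := by
      have h5 := sub_eq_zero.2 h3
      have e1 : polar Q d v • (e - e₂) - (polar Q e v - polar Q e₂ v + Q e * polar Q d v - Q e₂ * polar Q d v) • d
          = v + polar Q d v • e - polar Q e v • d - (Q e * polar Q d v) • d -
            (v + polar Q d v • e₂ - polar Q e₂ v • d - (Q e₂ * polar Q d v) • d) := by module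
      rw [h5] at e1
      exact sub_eq_zero.1 e1
    obtain ⟨k, hk⟩ : ∃ k, k = polar Q e v - polar Q e₂ v + Q e * polar Q d v - Q e₂ * polar Q d v := ⟨_, rfl⟩
    rw [← hk] at h4
    have hk0 : k = 0 := by
      have h6 : polar Q d' (polar Q d v • (e - e₂)) = polar Q d' (k • d) := by rw [h4]
      rw [polar_smul_right, polar_sub_right, he1.2.2, he₂1.2.2, polar_smul_right, polar_comm Q d' d, hdd'] at h6
      simpa using h6.symm
    rw [hk0, zero_smul] at h4
    have h7 : e = e₂ := sub_eq_zero.1 ((smul_eq_zero.1 h4).resolve_left hdv)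
    subst h7
    rfl
  haveI := Fintype.ofFinite ({s : F // s ≠ 0 ∧ IsSquare s} × ↥W')
  refine ⟨Finset.univ.image f, ?_, fun v' hv' => ?_⟩
  · rw [Finset.card_image_of_injective _ hf, Finset.card_univ, ← Nat.card_eq_fintype_card, Nat.card_prod,
      Module.natCard_eq_pow_finrank (K := F) (V := ↥W')]
    exact Nat.mul_le_mul_left _ (Nat.pow_le_pow_right Nat.card_pos (by omega))
  · obtain ⟨⟨⟨s, hs0, hs⟩, e, he⟩, -, rfl⟩ := Finset.mem_image.1 hv'
    obtain ⟨t, ht, hty, hty', htx⟩ := exists_torus hQ hgen hQy hQy' hyy' hs0 hs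
    have he1 := mem_cut.1 he
    have heW := hmW e he1.1
    have hdW := hmW d hd
    have hEfix : ∀ x, polar Q d x = 0 → polar Q e x = 0 → E hQ d e x = x := by
      intro x h1 h2
      rw [E_apply hQ hQd he1.2.1, h1, h2]; simp
    have hf' : ∀ x ∈ perp Q U, (t * E hQ d e) x = x := by
      intro x hx
      have h1 : ∀ u ∈ U, polar Q u x = 0 := fun u hu => by
        rw [polar_comm]; exact mem_perp'.1 hx u hu
      rw [LinearEquiv.mul_apply, hEfix x (h1 d hdW.1) (h1 e heW.1), htx x (h1 y hy) (h1 y' hy')]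
    have hm : t * E hQ d e ∈ Om Q := mul_mem ht (E_mem_Om hQ hgen d e)
    have hhy : (t * E hQ d e) y = s • y := by
      rw [LinearEquiv.mul_apply, hEfix y (by rw [polar_comm]; exact hdW.2.1) (by rw [polar_comm]; exact heW.2.1), hty]
    have hhy' : (t * E hQ d e) y' = s⁻¹ • y' := by
      rw [LinearEquiv.mul_apply, hEfix y' (by rw [polar_comm]; exact hdW.2.2) (by rw [polar_comm]; exact heW.2.2),
        hty']
    refine ⟨t * E hQ d e, hm, hf', s, hs0, hhy,
      cut_iff hQ hU (Om_le hm) hf' hs0 (inv_ne_zero hs0) hhy hhy', ?_⟩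
    have hvW := hmW v hv
    have hEv : E hQ d e v ∈ W := by
      rw [E_apply hQ hQd he1.2.1]
      exact W.sub_mem (W.sub_mem (W.add_mem hv (W.smul_mem _ he1.1)) (W.smul_mem _ hd)) (W.smul_mem _ hd)
    have hEvW := hmW _ hEv
    show s • s⁻¹ • E hQ d e v = (t * E hQ d e) v
    rw [smul_smul, mul_inv_cancel₀ hs0, one_smul, LinearEquiv.mul_apply, htx _ hEvW.2.1 hEvW.2.2]

end Cfsg.Agent.Lib.Coop
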