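import Mathlib
import Cfsg.Agent.Lib.CoopK

set_option autoImplicit false
set_option linter.unusedSectionVars false

/-!
Orbits on vectors in dimension 8, minus type.
-/

namespace Cfsg.Agent.Lib.Coop

open QuadraticMap Module Cfsg.Agent.Lib.Quad Cfsg.Agent.Lib.ClOrthSiegel Cfsg.Agent.Lib.OrthNd
  Cfsg.Agent.Lib.OrthMax

variable {F V : Type*} [Field F] [AddCommGroup V] [Module F V] [FiniteDimensional F V]
  {Q : QuadraticForm F V}

/-- the quadratic map `d ↦ Q(d) v - (d,v) d` of an anisotropic plane is injective up to sign -/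
theorem qmap_inj {W : Submodule F V} (hW2 : finrank F W = 2) (han : ∀ w ∈ W, Q w = 0 → w = 0)
    {v : V} (hv : v ∈ W) (hv0 : v ≠ 0) {d d' : V} (hd : d ∈ W) (hd' : d' ∈ W)
    (h : Q d • v - polar Q d v • d = Q d' • v - polar Q d' v • d') : d' = d ∨ d' = -d := by
  obtain ⟨t, ht⟩ : ∃ t, t = d' - d := ⟨_, rfl⟩
  have hd't : d' = d + t := by rw [ht]; abel
  have htW : t ∈ W := by rw [ht]; exact W.sub_mem hd' hd
  by_cases ht0 : t = 0
  · left; rw [hd't, ht0, add_zero]
  have hQt : Q t ≠ 0 := fun h => ht0 (han t htW h)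
  rw [hd't] at h
  by_cases hdt : d ∈ F ∙ t
  · obtain ⟨l, rfl⟩ := Submodule.mem_span_singleton.1 hdt
    have e1 : l • t + t = (l + 1) • t := by rw [add_smul, one_smul]
    rw [e1] at h hd't
    have h1 : (l * l - (l + 1) * (l + 1)) • (Q t • v - polar Q t v • t) = 0 := by
      have h2 := sub_eq_zero.2 h
      rw [Q_smul, Q_smul, polar_smul_left, polar_smul_left] at h2
      rw [← h2]
      module
    rcases smul_eq_zero.1 h1 with h3 | h3
    · have h4 : (l + 1) * (l + 1) = l * l := (sub_eq_zero.1 h3).symm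
      rcases mul_self_eq_mul_self_iff.1 h4 with h5 | h5
      · left; rw [hd't, h5]
      · right; rw [hd't, h5, neg_smul]
    · exfalso
      have h4 : refl Q t v = 0 := by
        rw [refl_apply hQt]
        have : v - ((Q t)⁻¹ * polar Q t v) • t = (Q t)⁻¹ • (Q t • v - polar Q t v • t) := by
          rw [smul_sub, smul_smul, inv_mul_cancel₀ hQt, one_smul, smul_smul]
        rw [this, h3, smul_zero]
      exact hv0 ((refl Q t).map_eq_zero_iff.1 h4)
  · exfalso
    have hspan : Submodule.span F {t, d} = W := by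
      apply Submodule.eq_of_le_of_finrank_eq
      · rw [Submodule.span_le]
        rintro x hx
        rcases hx with rfl | hx
        · exact htW
        · rw [Set.mem_singleton_iff.1 hx]; exact hd
      · rw [finrank_pair ht0 hdt, hW2]
    have hv' := hv
    rw [← hspan] at hv'
    obtain ⟨α, β, hαβ⟩ := Submodule.mem_span_pair.1 hv'
    have hind : ∀ a b : F, a • t + b • d = 0 → a = 0 ∧ b = 0 := by
      intro a b hab
      have hb : b = 0 := by
        by_contra hb
        apply hdt
        refine Submodule.mem_span_singleton.2 ⟨-(b⁻¹ * a), ?_⟩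
        have h3 : b⁻¹ • (a • t + b • d) = 0 := by rw [hab, smul_zero]
        rw [smul_add, smul_smul, smul_smul, inv_mul_cancel₀ hb, one_smul] at h3
        rw [neg_smul]
        exact (eq_neg_of_add_eq_zero_right h3).symm
      rw [hb, zero_smul, add_zero] at hab
      exact ⟨(smul_eq_zero.1 hab).resolve_right ht0, hb⟩
    obtain ⟨C, hC⟩ : ∃ C, C = polar Q d t := ⟨_, rfl⟩
    have hC' : polar Q t d = C := by rw [hC, polar_comm]
    have hdv : polar Q d v = α * C + β * (2 * Q d) := by
      rw [← hαβ, polar_add_right, polar_smul_right, polar_smul_right, polar_self', ← hC, smul_eq_mul, smul_eq_mul]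
    have htv : polar Q t v = α * (2 * Q t) + β * C := by
      rw [← hαβ, polar_add_right, polar_smul_right, polar_smul_right, polar_self', hC', smul_eq_mul, smul_eq_mul]
    have h1 := sub_eq_zero.2 h
    rw [Q_add, polar_add_left, hdv, htv, ← hC, ← hαβ] at h1
    have h2 : (α * Q t + 2 * β * Q d + β * C) • t + (Q t * (2 * α - β)) • d = 0 := by
      rw [← h1]
      module
    obtain ⟨h3, h4⟩ := hind _ _ h2
    have h5 : β = 2 * α := by
      have := (mul_eq_zero.1 h4).resolve_left hQt
      exact (sub_eq_zero.1 this).symm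
    have h6 : α * Q (t + (2 : F) • d) = 0 := by
      rw [Q_add, Q_smul, polar_smul_right, hC', smul_eq_mul, ← h3, h5]
      ring
    rcases mul_eq_zero.1 h6 with h7 | h7
    · apply hv0
      rw [← hαβ, h5, h7]
      simp
    · have h8 := han _ (W.add_mem htW (W.smul_mem _ hd)) h7
      have := (hind 1 2 (by rw [one_smul]; exact h8)).1
      exact one_ne_zero this

theorem orbN_minus8 [Finite F] (hQ : Nd Q) (hgen : GenHyp Q) (hn : finrank F V = 8)
    (hmin : ∀ T : Submodule F V, (∀ t ∈ T, Q t = 0) → finrank F T ≤ 3) {N : ℕ}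
    (hN : (2 : F) = 0 → N ≤ Nat.card F ^ 2 - 1) (hN' : (2 : F) ≠ 0 → N * 2 ≤ Nat.card F ^ 2 - 1) :
    OrbN Q N := by
  classical
  have : Finite V := Module.finite_of_finite F
  intro U y y' hU hy hy' hQy hQy' hyy' hUd hzb v hv hv0
  obtain ⟨z, hz, b, hb, hQz, hQb, hzb, hz0, hbz⟩ := hzb
  set W := U ⊓ perp Q (Submodule.span F {y, y'}) with hW
  have hWn : NDs Q W := nds_cut hQ hU hy hy' hQy hQy' hyy'
  have hWd := finrank_cut hQ U y y'
  rw [← hW] at hWd
  have hmW : ∀ w ∈ W, w ∈ U ∧ polar Q y w = 0 ∧ polar Q y' w = 0 := fun w hw => mem_cut.1 hw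
  have hPU : ∀ x ∈ perp Q U, ∀ u ∈ U, polar Q x u = 0 := fun x hx u hu => mem_perp'.1 hx u hu
  have hy'y : polar Q y' y = 1 := by rw [polar_comm]; exact hyy'
  have hyy : polar Q y y = 0 := by rw [polar_self', hQy, mul_zero]
  have hy'y' : polar Q y' y' = 0 := by rw [polar_self', hQy', mul_zero]
  -- `W` is anisotropic
  have han : ∀ w ∈ W, Q w = 0 → w = 0 := by
    intro w hw hQw
    by_contra hw0
    have hwW := hmW w hw
    -- a totally singular 4-space
    have hLI : LinearIndependent F ![z, b, y, w] := by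
      rw [Fintype.linearIndependent_iff]
      intro g hg
      rw [Fin.sum_univ_four] at hg
      simp only [Matrix.cons_val_zero, Matrix.cons_val_one, Matrix.cons_val] at hg
      have hUP : ∀ x ∈ perp Q U, x ∈ U → x = 0 := by
        intro x hx hx'
        have : x ∈ U ⊓ perp Q U := ⟨hx', hx⟩
        rwa [show U ⊓ perp Q U = ⊥ from hU, Submodule.mem_bot] at this
      have h1 : g 0 • z + g 1 • b = 0 := by
        apply hUP
        · exact Submodule.add_mem _ (Submodule.smul_mem _ _ hz) (Submodule.smul_mem _ _ hb)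
        · have : g 0 • z + g 1 • b = -(g 2 • y + g 3 • w) := by
            rw [eq_neg_iff_add_eq_zero, ← hg]; abel
          rw [this]
          exact U.neg_mem (U.add_mem (U.smul_mem _ hy) (U.smul_mem _ hwW.1))
      have h2 : g 2 • y + g 3 • w = 0 := by
        rw [h1, zero_add] at hg; exact hg
      have hg1 : g 1 = 0 := by
        by_contra hb
        apply hbz
        refine Submodule.mem_span_singleton.2 ⟨-((g 1)⁻¹ * g 0), ?_⟩
        have h3 : (g 1)⁻¹ • (g 0 • z + g 1 • b) = 0 := by rw [h1, smul_zero]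
        rw [smul_add, smul_smul, smul_smul, inv_mul_cancel₀ hb, one_smul] at h3
        rw [neg_smul]
        exact (eq_neg_of_add_eq_zero_right h3).symm
      have hg0 : g 0 = 0 := by
        rw [hg1, zero_smul, add_zero] at h1
        exact (smul_eq_zero.1 h1).resolve_right hz0
      have hg2 : g 2 = 0 := by
        have h3 : polar Q y' (g 2 • y + g 3 • w) = 0 := by rw [h2, polar_zero_right]
        rw [polar_add_right, polar_smul_right, polar_smul_right, hy'y, hwW.2.2] at h3
        simpa using h3
      have hg3 : g 3 = 0 := by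
        rw [hg2, zero_smul, zero_add] at h2
        exact (smul_eq_zero.1 h2).resolve_right hw0
      intro i
      fin_cases i
      · exact hg0
      · exact hg1
      · exact hg2
      · exact hg3
    have hT := hmin (Submodule.span F (Set.range ![z, b, y, w])) (by
      intro t ht
      obtain ⟨c, rfl⟩ := (Submodule.mem_span_range_iff_exists_fun F).1 ht
      rw [Fin.sum_univ_four]
      simp only [Matrix.cons_val_zero, Matrix.cons_val_one, Matrix.cons_val]
      rw [Q_add, Q_add, Q_add, Q_smul, Q_smul, Q_smul, Q_smul, hQz, hQb, hQy, hQw]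
      simp only [polar_add_left, polar_smul_left, polar_smul_right, hzb, hPU z hz y hy, hPU b hb y hy,
        hPU z hz w hwW.1, hPU b hb w hwW.1, hwW.2.1]
      simp)
    rw [finrank_span_eq_card hLI, Fintype.card_fin] at hT
    omega
  have hW2 : finrank F W = 2 := by
    apply le_antisymm _ (by omega)
    by_contra hcon
    push Not at hcon
    obtain ⟨w, hw, hw0, hQw⟩ := exists_sing_in (Q := Q) W hcon
    exact hw0 (han w hw hQw)
  have hvW := hmW v hv
  have hQv : Q v ≠ 0 := fun h => hv0 (han v hv h)
  let g : ↥W → V := fun d => (-(Q v)⁻¹) • (Q (d : V) • v - polar Q (d : V) v • (d : V))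
  have := Fintype.ofFinite ↥W
  have hcardW : Fintype.card ↥W = Nat.card F ^ 2 := by
    rw [← Nat.card_eq_fintype_card, Module.natCard_eq_pow_finrank (K := F) (V := ↥W), hW2]
  have hfib : ∀ d d' : ↥W, g d = g d' → d' = d ∨ d' = -d := by
    intro d d' h
    have h1 := smul_right_injective V (neg_ne_zero.2 (inv_ne_zero hQv)) h
    rcases qmap_inj hW2 han hv hv0 d.2 d'.2 h1 with h2 | h2
    · left; exact Subtype.ext h2
    · right; exact Subtype.ext h2
  refine ⟨(Finset.univ.erase (0 : ↥W)).image g, ?_, fun v' hv' => ?_⟩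
  · have h1 : (Finset.univ.erase (0 : ↥W)).card = Nat.card F ^ 2 - 1 := by
      rw [Finset.card_erase_of_mem (Finset.mem_univ _), Finset.card_univ, hcardW]
    by_cases h2 : (2 : F) = 0
    · replace hN := hN h2
      rw [← h1] at hN
      rw [Finset.card_image_of_injective]
      · exact hN
      · intro d d' h
        rcases hfib d d' h with h3 | h3
        · exact h3.symm
        · apply Subtype.ext
          rw [h3]
          show (d : V) = -(d : V)
          rw [eq_neg_iff_add_eq_zero, ← two_smul F (d : V), h2, zero_smul]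
    · replace hN' := hN' h2
      rw [← h1] at hN'
      have h3 := Finset.card_le_mul_card_image (f := g) (Finset.univ.erase (0 : ↥W)) 2 (by
        intro a ha
        obtain ⟨x, hx, hxa⟩ := Finset.mem_image.1 ha
        refine (Finset.card_le_card (t := {x, -x}) fun y hy => ?_).trans Finset.card_le_two
        rw [Finset.mem_filter] at hy
        rcases hfib x y (by rw [hxa, hy.2]) with h | h
        · rw [h]; simp
        · rw [h]; simp)
      omega
  · obtain ⟨d, hd, rfl⟩ := Finset.mem_image.1 hv'
    have hd0 : (d : V) ≠ 0 := fun h => Finset.ne_of_mem_erase hd (Subtype.ext h)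
    have hQd : Q (d : V) ≠ 0 := fun h => hd0 (han d d.2 h)
    have hdW := hmW d d.2
    have hQc : ∀ c : F, Q (y + c • y') = c := by
      intro c
      rw [Q_add, Q_smul, hQy, hQy', polar_smul_right, hyy']; simp
    have hry : ∀ c : F, c ≠ 0 → refl Q (y + c • y') y = -(c • y') := by
      intro c hc
      rw [refl_apply (by rw [hQc]; exact hc), hQc, polar_add_left, polar_smul_left, hyy, hy'y, smul_eq_mul, mul_one,
        zero_add, inv_mul_cancel₀ hc, one_smul]
      abel
    have hry' : ∀ c : F, c ≠ 0 → refl Q (y + c • y') y' = -(c⁻¹ • y) := by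
      intro c hc
      rw [refl_apply (by rw [hQc]; exact hc), hQc, polar_add_left, polar_smul_left, hy'y', hyy', smul_eq_mul,
        mul_zero, add_zero, mul_one, smul_add, smul_smul, inv_mul_cancel₀ hc, one_smul]
      abel
    have hrx : ∀ c : F, ∀ x, polar Q y x = 0 → polar Q y' x = 0 → refl Q (y + c • y') x = x := by
      intro c x h1 h2
      exact refl_of_perp (by rw [polar_add_left, polar_smul_left, h1, h2]; simp)
    set h : V ≃ₗ[F] V := refl Q (y + Q (d : V) • y') * (refl Q (d : V) * (refl Q (y + Q v • y') * refl Q v)) with hh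
    have hm : h ∈ Om Q := by
      have h1 := (hQ.list_mem_Om_iff hgen [y + Q (d : V) • y', (d : V), y + Q v • y', v] (by
        intro x hx
        simp only [List.mem_cons, List.not_mem_nil, or_false] at hx
        rcases hx with rfl | rfl | rfl | rfl
        · rw [hQc]; exact hQd
        · exact hQd
        · rw [hQc]; exact hQv
        · exact hQv)).2 ⟨⟨2, rfl⟩, by
          simp only [List.map_cons, List.map_nil, List.prod_cons, List.prod_nil, mul_one]
          rw [hQc, hQc]
          exact ⟨Q (d : V) * Q v, by ring⟩⟩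
      simpa only [List.map_cons, List.map_nil, List.prod_cons, List.prod_nil, mul_one] using h1
    have hc0 : Q v * (Q (d : V))⁻¹ ≠ 0 := mul_ne_zero hQv (inv_ne_zero hQd)
    have happ : ∀ x, h x = refl Q (y + Q (d : V) • y') (refl Q (d : V) (refl Q (y + Q v • y') (refl Q v x))) :=
      fun x => rfl
    have hhy : h y = (Q v * (Q (d : V))⁻¹) • y := by
      rw [happ, refl_of_perp (show polar Q v y = 0 by rw [polar_comm]; exact hvW.2.1), hry _ hQv, map_neg, map_smul,
        refl_of_perp (show polar Q (d : V) y' = 0 by rw [polar_comm]; exact hdW.2.2), map_neg, map_smul, hry' _ hQd,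
        smul_neg, neg_neg, smul_smul]
    have hhy' : h y' = (Q v * (Q (d : V))⁻¹)⁻¹ • y' := by
      rw [happ, refl_of_perp (show polar Q v y' = 0 by rw [polar_comm]; exact hvW.2.2), hry' _ hQv, map_neg, map_smul,
        refl_of_perp (show polar Q (d : V) y = 0 by rw [polar_comm]; exact hdW.2.1), map_neg, map_smul, hry _ hQd,
        smul_neg, neg_neg, smul_smul, mul_inv, inv_inv]
    have hf : ∀ x ∈ perp Q U, h x = x := by
      intro x hx
      have h1 : ∀ u ∈ U, polar Q u x = 0 := fun u hu => by
        rw [polar_comm]; exact mem_perp'.1 hx u hu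
      rw [happ, refl_of_perp (h1 v hvW.1), hrx _ x (h1 y hy) (h1 y' hy'), refl_of_perp (h1 d hdW.1),
        hrx _ x (h1 y hy) (h1 y' hy')]
    refine ⟨h, hm, hf, Q v * (Q (d : V))⁻¹, hc0, hhy, cut_iff hQ hU (Om_le hm) hf hc0 (inv_ne_zero hc0) hhy hhy', ?_⟩
    show (Q v * (Q (d : V))⁻¹) • (-(Q v)⁻¹) • (Q (d : V) • v - polar Q (d : V) v • (d : V)) = h v
    rw [happ, refl_self hQv, map_neg, hrx _ v hvW.2.1 hvW.2.2, map_neg, map_neg, refl_apply hQd v]
    have h1 : v - ((Q (d : V))⁻¹ * polar Q (d : V) v) • (d : V) ∈ W := W.sub_mem hv (W.smul_mem _ d.2)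
    have h2 := hmW _ h1
    rw [hrx _ _ h2.2.1 h2.2.2, smul_smul]
    have e : Q v * (Q (d : V))⁻¹ * -(Q v)⁻¹ = -(Q (d : V))⁻¹ := by field_simp
    rw [e, neg_smul, smul_sub, smul_smul, inv_mul_cancel₀ hQd, one_smul, smul_smul]

end Cfsg.Agent.Lib.Coop
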