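import Mathlib
import Cfsg.Agent.Lib.CoopL
import Cfsg.Agent.Lib.ClOmega

set_option autoImplicit false
set_option linter.unusedSectionVars false

/-!
Indices of stabilisers of points; counting vectors of given norm; bridge to `POmega`.
-/

namespace Cfsg.Agent.Lib.Coop

open QuadraticMap Module Cfsg.Agent.Lib.Quad Cfsg.Agent.Lib.ClOrthSiegel Cfsg.Agent.Lib.OrthNd
  Cfsg.Agent.Lib.OrthMax Cfsg.Agent.Lib.ClOrthOrd
open scoped Pointwise

section Counts

variable {F V W : Type*} [Field F] [Fintype F] [AddCommGroup V] [Module F V] [AddCommGroup W] [Module F W]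
  [Finite W] {Q : QuadraticForm F V} {Q' : QuadraticForm F W} {e : V ≃ₗ[F] (F × F) × W}

/-- the number of vectors of given norm -/
noncomputable def Nc {V : Type*} [AddCommGroup V] [Module F V] (Q : QuadraticForm F V) (c : F) : ℕ :=
  Nat.card {v : V // Q v = c}

theorem Nc_split (h : Split e Q Q') (c : F) :
    Nc Q c = Fintype.card F * Nc Q' c + (Fintype.card F - 1) * Nat.card W := by
  classical
  have hq : 1 < Fintype.card F := Fintype.one_lt_card
  have : Fintype W := Fintype.ofFinite W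
  have e1 : {v : V // Q v = c} ≃ Σ w : W, {p : F × F // p.1 * p.2 = c - Q' w} :=
    { toFun := fun v => ⟨(e v.1).2, (e v.1).1, by
        have := v.2
        rw [h] at this
        exact eq_sub_of_add_eq this⟩
      invFun := fun s => ⟨e.symm (s.2.1, s.1), by
        rw [h, LinearEquiv.apply_symm_apply, s.2.2]
        exact sub_add_cancel _ _⟩
      left_inv := fun v => Subtype.ext (by
        change e.symm (e v.1) = v.1
        exact e.symm_apply_apply _)
      right_inv := by
        rintro ⟨w, p, hp⟩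
        have h0 : e (e.symm (p, w)) = (p, w) := e.apply_symm_apply _
        exact Sigma.subtype_ext (congrArg Prod.snd h0) (congrArg Prod.fst h0) }
  rw [Nc, Nat.card_congr e1, Nat.card_sigma]
  have h1 : ∀ w : W, Nat.card {p : F × F // p.1 * p.2 = c - Q' w} =
      (Fintype.card F - 1) + if Q' w = c then Fintype.card F else 0 := by
    intro w
    rw [card_mul_eq]
    by_cases hw : Q' w = c
    · rw [if_pos (by rw [hw, sub_self]), if_pos hw]; omega
    · rw [if_neg (by rw [sub_eq_zero]; exact fun h => hw h.symm), if_neg hw]; omega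
  rw [Finset.sum_congr rfl (fun w _ => h1 w), Finset.sum_add_distrib, Finset.sum_const, Finset.card_univ,
    ← Finset.sum_filter, Finset.sum_const, smul_eq_mul, smul_eq_mul, Nc, Nat.card_eq_fintype_card,
    Nat.card_eq_fintype_card, Fintype.card_subtype]
  ring

theorem Nc_plus {c : F} (hc : c ≠ 0) (m : ℕ) : Nc (quadPlus (m + 1) F) c =
    (Fintype.card F) ^ m * ((Fintype.card F) ^ (m + 1) - 1) := by
  have hq : 1 < Fintype.card F := Fintype.one_lt_card
  have key : (Nc (quadPlus (m + 1) F) c : ℤ) =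
      (Fintype.card F : ℤ) ^ m * ((Fintype.card F : ℤ) ^ (m + 1) - 1) := by
    have h0 : ∀ m, (Fintype.card F : ℤ) * Nc (quadPlus m F) c =
        (Fintype.card F : ℤ) ^ m * ((Fintype.card F : ℤ) ^ m - 1) := by
      intro m
      induction m with
      | zero =>
        have h1 : Nc (quadPlus 0 F) c = 0 := by
          rw [Nc, Nat.card_eq_zero]
          left
          refine ⟨fun ⟨v, hv⟩ => hc ?_⟩
          rw [← hv]
          change Cfsg.quadFormPlus 0 F v = 0
          rw [Cfsg.quadFormPlus]; simp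
        rw [h1]; simp
      | succ m ih =>
        rw [Nc_split (split_plus m F), card_plus_space]
        push_cast [Nat.cast_sub hq.le]
        linear_combination (Fintype.card F : ℤ) * ih
    rw [Nc_split (split_plus m F), card_plus_space]
    push_cast [Nat.cast_sub hq.le]
    linear_combination h0 m
  have h1 : 1 ≤ (Fintype.card F) ^ (m + 1) := Nat.one_le_pow _ _ (by omega)
  zify [h1]
  exact key

theorem Nc_odd_ge (c : F) (m : ℕ) : (Fintype.card F) ^ (2 * m) ≤
    Nc (quadOdd m F) c + (Fintype.card F) ^ m := by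
  have hq : 1 < Fintype.card F := Fintype.one_lt_card
  induction m with
  | zero => simp
  | succ m ih =>
    rw [Nc_split (split_odd m F), card_odd_space]
    have h2 : Fintype.card F * ((Fintype.card F) ^ (2 * m)) ≤
      Fintype.card F * (Nc (quadOdd m F) c + (Fintype.card F) ^ m) := Nat.mul_le_mul_left _ ih
    zify [hq.le] at h2 ⊢
    have e1 : (Fintype.card F : ℤ) ^ (2 * (m + 1)) = Fintype.card F * (Fintype.card F) ^ (2 * m) +
      (Fintype.card F - 1) * (Fintype.card F) ^ (2 * m + 1) := by ring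
    have e2 : (Fintype.card F : ℤ) ^ (m + 1) = Fintype.card F * (Fintype.card F) ^ m := by ring
    rw [e1, e2]
    linarith

theorem Nc_odd_one (h2 : (2 : F) ≠ 0) (m : ℕ) (c : F) (hc : ¬ IsSquare c) :
    Nc (quadOdd m F) c + (Fintype.card F) ^ m = (Fintype.card F) ^ (2 * m) := by
  have hq : 1 < Fintype.card F := Fintype.one_lt_card
  induction m with
  | zero =>
    have h1 : Nc (quadOdd 0 F) c = 0 := by
      rw [Nc, Nat.card_eq_zero]
      left
      refine ⟨fun ⟨v, hv⟩ => hc ?_⟩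
      rw [← hv]
      change IsSquare (Cfsg.quadFormOdd 0 F v)
      rw [Cfsg.quadFormOdd]
      simp only [Finset.univ_eq_empty, Finset.sum_empty, add_zero]
      exact ⟨v (.inl ()), by ring⟩
    rw [h1]; simp
  | succ m ih =>
    rw [Nc_split (split_odd m F), card_odd_space]
    have h2 : Fintype.card F * (Nc (quadOdd m F) c + (Fintype.card F) ^ m) =
      Fintype.card F * ((Fintype.card F) ^ (2 * m)) := by rw [ih]
    zify [hq.le] at h2 ⊢
    have e1 : (Fintype.card F : ℤ) ^ (2 * (m + 1)) = Fintype.card F * (Fintype.card F) ^ (2 * m) +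
      (Fintype.card F - 1) * (Fintype.card F) ^ (2 * m + 1) := by ring
    have e2 : (Fintype.card F : ℤ) ^ (m + 1) = Fintype.card F * (Fintype.card F) ^ m := by ring
    rw [e1, e2]
    linarith

theorem exists_binary {a b : F} (hab : ∀ z₁ z₂ : F, z₁ ^ 2 + a * z₁ * z₂ + b * z₂ ^ 2 = 0 → z₁ = 0 ∧ z₂ = 0)
    (c : F) : ∃ v, quadMinus 0 F a b v = c := by
  by_cases h2 : (2 : F) = 0
  · have : CharP F 2 := CharTwo.of_one_ne_zero_of_two_eq_zero one_ne_zero h2
    obtain ⟨s, hs⟩ : IsSquare c := FiniteField.isSquare_of_char_two (by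
      exact ringChar.eq F 2 |>.symm ▸ rfl) c
    refine ⟨Sum.elim 0 ![s, 0], ?_⟩
    change Cfsg.quadFormMinus 0 F a b _ = c
    rw [Cfsg.quadFormMinus]
    simp only [Finset.univ_eq_empty, Finset.sum_empty, zero_add, Sum.elim_inr, Matrix.cons_val_zero,
      Matrix.cons_val_one]
    rw [hs]; ring
  · have hd := disc_ne_zero_of_anisotropic hab
    have h1 : 2 ≤ finrank F ((Fin 0 ⊕ Fin 0) ⊕ Fin 2 → F) := by rw [finrank_minus]
    by_cases hc : c = 0
    · exact ⟨0, by rw [hc, map_zero]⟩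
    obtain ⟨v, -, hv⟩ := (nd_quadMinus (m := 0) hd).exists_Q_eq h2 h1 c
    exact ⟨v, hv hc⟩

theorem Nc_minus_ge {a b : F} (hab : ∀ z₁ z₂ : F, z₁ ^ 2 + a * z₁ * z₂ + b * z₂ ^ 2 = 0 → z₁ = 0 ∧ z₂ = 0)
    (c : F) (m : ℕ) : (Fintype.card F) ^ (2 * m + 1) + (Fintype.card F) ^ m ≤
    Nc (quadMinus m F a b) c + (Fintype.card F) ^ (m + 1) := by
  have hq : 1 < Fintype.card F := Fintype.one_lt_card
  induction m with
  | zero =>
    have h1 : 1 ≤ Nc (quadMinus 0 F a b) c := by
      obtain ⟨v, hv⟩ := exists_binary hab c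
      have : Nonempty {v // quadMinus 0 F a b v = c} := ⟨⟨v, hv⟩⟩
      exact Nat.card_pos
    simp only [mul_zero, zero_add, pow_one, pow_zero]
    omega
  | succ m ih =>
    rw [Nc_split (split_minus m F a b), card_minus_space]
    have h2 := Nat.mul_le_mul_left (Fintype.card F) ih
    zify [hq.le] at h2 ⊢
    have e1 : (Fintype.card F : ℤ) ^ (2 * (m + 1) + 1) = Fintype.card F * (Fintype.card F) ^ (2 * m + 1) +
      (Fintype.card F - 1) * (Fintype.card F) ^ (2 * m + 2) := by ring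
    have e2 : (Fintype.card F : ℤ) ^ (m + 1) = Fintype.card F * (Fintype.card F) ^ m := by ring
    have e3 : (Fintype.card F : ℤ) ^ (m + 1 + 1) = Fintype.card F * (Fintype.card F) ^ (m + 1) := by ring
    rw [e1, e3]
    rw [e2] at h2 ⊢
    linarith

end Counts

section Lines

variable {F V : Type*} [Field F] [AddCommGroup V] [Module F V] [FiniteDimensional F V]
  {Q : QuadraticForm F V}

theorem card_lines [DecidableEq (Submodule F V)] (S : Finset V) (hS0 : ∀ u ∈ S, u ≠ 0) (C : Finset F)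
    (hC : ∀ u ∈ S, ∀ c : F, c • u ∈ S ↔ c ∈ C) :
    S.card = C.card * (S.image (fun u => (F ∙ u : Submodule F V))).card := by
  classical
  rw [Finset.card_eq_sum_card_image (fun u => (F ∙ u : Submodule F V)) S, mul_comm, Finset.sum_const_nat]
  intro L hL
  obtain ⟨u, hu, rfl⟩ := Finset.mem_image.1 hL
  have hu0 := hS0 u hu
  have : S.filter (fun x => (F ∙ x : Submodule F V) = F ∙ u) = C.image (fun c => c • u) := by
    ext x
    rw [Finset.mem_filter, Finset.mem_image]
    constructor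
    · rintro ⟨hx, hxu⟩
      have h1 : x ∈ F ∙ u := by rw [← hxu]; exact Submodule.mem_span_singleton_self x
      obtain ⟨c, rfl⟩ := Submodule.mem_span_singleton.1 h1
      exact ⟨c, (hC u hu c).1 hx, rfl⟩
    · rintro ⟨c, hc, rfl⟩
      have h1 := (hC u hu c).2 hc
      refine ⟨h1, ?_⟩
      have hc0 : c ≠ 0 := by
        rintro rfl
        exact hS0 _ h1 (zero_smul _ _)
      exact Submodule.span_singleton_smul_eq (IsUnit.mk0 c hc0) u
  rw [this, Finset.card_image_of_injective]
  intro c d h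
  have h1 : (c - d) • u = 0 := by rw [sub_smul]; exact sub_eq_zero.2 h
  exact sub_eq_zero.1 ((smul_eq_zero.1 h1).resolve_right hu0)

/-- stabiliser of a point -/
def LS (Q : QuadraticForm F V) (v : V) : Subgroup ↥(Om Q) where
  carrier := {g | (g : V ≃ₗ[F] V) v ∈ F ∙ v}
  one_mem' := Submodule.mem_span_singleton_self v
  mul_mem' := by
    intro g h hg hh
    obtain ⟨c, hc⟩ := Submodule.mem_span_singleton.1 hh
    show (g : V ≃ₗ[F] V) ((h : V ≃ₗ[F] V) v) ∈ F ∙ v
    rw [← hc, map_smul]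
    exact Submodule.smul_mem _ _ hg
  inv_mem' := by
    intro g hg
    obtain ⟨c, hc⟩ := Submodule.mem_span_singleton.1 hg
    by_cases hv : v = 0
    · show ((g⁻¹ : ↥(Om Q)) : V ≃ₗ[F] V) v ∈ F ∙ v
      rw [hv, map_zero]; exact Submodule.zero_mem _
    have hc0 : c ≠ 0 := by
      rintro rfl
      rw [zero_smul] at hc
      exact hv ((g : V ≃ₗ[F] V).map_eq_zero_iff.1 hc.symm)
    show ((g⁻¹ : ↥(Om Q)) : V ≃ₗ[F] V) v ∈ F ∙ v
    have h1 : ((g⁻¹ : ↥(Om Q)) : V ≃ₗ[F] V) ((g : V ≃ₗ[F] V) v) = v := (g : V ≃ₗ[F] V).symm_apply_apply v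
    rw [← hc, map_smul] at h1
    exact Submodule.mem_span_singleton.2 ⟨c⁻¹, by
      nth_rewrite 1 [← h1]
      rw [smul_smul, inv_mul_cancel₀ hc0, one_smul]⟩

theorem mem_LS {v : V} {g : ↥(Om Q)} : g ∈ LS Q v ↔ (g : V ≃ₗ[F] V) v ∈ F ∙ v := Iff.rfl

theorem LS_eq {v : V} (hv : v ≠ 0) : LS Q v = MulAction.stabilizer ↥(Om Q) (F ∙ v : Submodule F V) := by
  ext g
  rw [mem_LS, MulAction.mem_stabilizer_iff]
  have h1 : (g • (F ∙ v : Submodule F V)) = F ∙ ((g : V ≃ₗ[F] V) v) := by
    ext x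
    show x ∈ ((g : V ≃ₗ[F] V) • (F ∙ v : Submodule F V)) ↔ _
    rw [Submodule.mem_smul_pointwise_iff_exists, Submodule.mem_span_singleton]
    constructor
    · rintro ⟨y, hy, rfl⟩
      obtain ⟨c, rfl⟩ := Submodule.mem_span_singleton.1 hy
      exact ⟨c, (map_smul (g : V ≃ₗ[F] V) c v).symm⟩
    · rintro ⟨c, rfl⟩
      exact ⟨c • v, Submodule.smul_mem _ _ (Submodule.mem_span_singleton_self v), map_smul (g : V ≃ₗ[F] V) c v⟩
  rw [h1]
  constructor
  · intro h
    obtain ⟨c, hc⟩ := Submodule.mem_span_singleton.1 h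
    have hc0 : c ≠ 0 := by
      rintro rfl
      rw [zero_smul] at hc
      exact hv ((g : V ≃ₗ[F] V).map_eq_zero_iff.1 hc.symm)
    rw [← hc]
    exact Submodule.span_singleton_smul_eq (IsUnit.mk0 c hc0) v
  · intro h
    rw [← h]; exact Submodule.mem_span_singleton_self _

/-- the index of the stabiliser of a point -/
theorem index_LS [Finite F] (hQ : Nd Q) (hgen : GenHyp Q) {k : ℕ} {e f : Fin k → V} (hfr : Frame Q k e f)
    (hk : 3 ≤ k) {v : V} (hv : v ≠ 0) (C : Finset F)
    (hC : ∀ u : V, u ≠ 0 → Q u = Q v → ∀ c : F, (c • u ≠ 0 ∧ Q (c • u) = Q v) ↔ c ∈ C) :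
    Nat.card {u : V // u ≠ 0 ∧ Q u = Q v} = C.card * (LS Q v).index := by
  classical
  have : Finite V := Module.finite_of_finite F
  have := Fintype.ofFinite V
  rw [LS_eq hv, MulAction.index_stabilizer, Nat.card_eq_fintype_card, Fintype.card_subtype,
    card_lines (F := F) (Finset.univ.filter fun u : V => u ≠ 0 ∧ Q u = Q v) (fun u hu => (Finset.mem_filter.1 hu).2.1) C
      (fun u hu c => by
        have hu' := (Finset.mem_filter.1 hu).2
        rw [Finset.mem_filter]
        simp only [Finset.mem_univ, true_and]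
        exact hC u hu'.1 hu'.2 c)]
  congr 1
  rw [← Set.ncard_coe_finset]
  congr 1
  ext L
  simp only [Finset.coe_image, Finset.coe_filter, Finset.mem_univ, true_and, Set.mem_image, Set.mem_ofPred_eq]
  have hact : ∀ (g : ↥(Om Q)), (g • (F ∙ v : Submodule F V)) = F ∙ ((g : V ≃ₗ[F] V) v) := by
    intro g
    ext x
    show x ∈ ((g : V ≃ₗ[F] V) • (F ∙ v : Submodule F V)) ↔ _
    rw [Submodule.mem_smul_pointwise_iff_exists, Submodule.mem_span_singleton]
    constructor
    · rintro ⟨y, hy, rfl⟩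
      obtain ⟨c, rfl⟩ := Submodule.mem_span_singleton.1 hy
      exact ⟨c, (map_smul (g : V ≃ₗ[F] V) c v).symm⟩
    · rintro ⟨c, rfl⟩
      exact ⟨c • v, Submodule.smul_mem _ _ (Submodule.mem_span_singleton_self v), map_smul (g : V ≃ₗ[F] V) c v⟩
  constructor
  · rintro ⟨u, ⟨hu0, hQu⟩, rfl⟩
    obtain ⟨g, hg, hgv⟩ := Om_map_one hQ (hQ.R_eq_O hgen) hfr (i := ⟨0, by omega⟩) (j := ⟨1, by omega⟩)
      (l := ⟨2, by omega⟩) (by simp) (by simp) (by simp) hv hu0 hQu.symm
    refine ⟨⟨g, hg⟩, ?_⟩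
    show (⟨g, hg⟩ : ↥(Om Q)) • (F ∙ v : Submodule F V) = F ∙ u
    rw [hact, ← hgv]
  · rintro ⟨g, rfl⟩
    refine ⟨(g : V ≃ₗ[F] V) v, ⟨fun h => hv ((g : V ≃ₗ[F] V).map_eq_zero_iff.1 h), Om_le g.2 v⟩, ?_⟩
    show _ = g • (F ∙ v : Submodule F V)
    rw [hact]

end Lines

end Cfsg.Agent.Lib.Coop
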