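import Mathlib
import Cfsg.Agent.Lib.CoopM

set_option autoImplicit false
set_option linter.unusedSectionVars false

/-!
Minimal index, general statements.
-/

namespace Cfsg.Agent.Lib.Coop

open QuadraticMap Module Cfsg.Agent.Lib.Quad Cfsg.Agent.Lib.ClOrthSiegel Cfsg.Agent.Lib.OrthNd
  Cfsg.Agent.Lib.OrthMax Cfsg.Agent.Lib.ClOrthOrd
open scoped Pointwise

section Main

variable {F V : Type*} [Field F] [AddCommGroup V] [Module F V] [FiniteDimensional F V]
  {Q : QuadraticForm F V}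

theorem index_LS_sing [Finite F] (hQ : Nd Q) (hgen : GenHyp Q) {k : ℕ} {e f : Fin k → V} (hfr : Frame Q k e f)
    (hk : 3 ≤ k) {v : V} (hv : v ≠ 0) (hQv : Q v = 0) :
    Nat.card {u : V // u ≠ 0 ∧ Q u = 0} = (Nat.card F - 1) * (LS Q v).index := by
  classical
  have := Fintype.ofFinite F
  have h := index_LS hQ hgen hfr hk hv (Finset.univ.erase (0 : F)) (by
    intro u hu hQu c
    rw [Finset.mem_erase, hQv] at *
    constructor
    · rintro ⟨h1, -⟩
      exact ⟨fun h => h1 (by rw [h, zero_smul]), Finset.mem_univ _⟩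
    · rintro ⟨h1, -⟩
      exact ⟨smul_ne_zero h1 hu, by rw [Q_smul, hQu, mul_zero]⟩)
  rw [hQv, Finset.card_erase_of_mem (Finset.mem_univ _), Finset.card_univ, ← Nat.card_eq_fintype_card] at h
  exact h

theorem index_LS_nonsing [Finite F] (hQ : Nd Q) (hgen : GenHyp Q) {k : ℕ} {e f : Fin k → V} (hfr : Frame Q k e f)
    (hk : 3 ≤ k) {v : V} (hQv : Q v ≠ 0) {d : ℕ} (h2 : (2 : F) = 0 → d = 1) (h2' : (2 : F) ≠ 0 → d = 2) :
    Nat.card {u : V // Q u = Q v} = d * (LS Q v).index := by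
  classical
  have := Fintype.ofFinite F
  have hv : v ≠ 0 := fun h => hQv (by rw [h, map_zero])
  have h := index_LS hQ hgen hfr hk hv ({1, -1} : Finset F) (by
    intro u hu hQu c
    rw [Finset.mem_insert, Finset.mem_singleton]
    constructor
    · rintro ⟨h1, h3⟩
      rw [Q_smul, hQu] at h3
      have h4 : c * c = 1 := by
        have : (c * c - 1) * Q v = 0 := by linear_combination h3
        exact sub_eq_zero.1 ((mul_eq_zero.1 this).resolve_right hQv)
      exact mul_self_eq_one_iff.1 h4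
    · rintro (rfl | rfl)
      · exact ⟨by rw [one_smul]; exact hu, by rw [one_smul]; exact hQu⟩
      · exact ⟨by rw [neg_one_smul]; exact neg_ne_zero.2 hu, by rw [neg_one_smul, QuadraticMap.map_neg]; exact hQu⟩)
  have h3 : Nat.card {u : V // Q u = Q v} = Nat.card {u : V // u ≠ 0 ∧ Q u = Q v} := by
    refine Nat.card_congr (Equiv.subtypeEquivRight fun u => ⟨fun h => ⟨fun h0 => hQv ?_, h⟩, fun h => h.2⟩)
    rw [← h, h0, map_zero]
  rw [h3, h]
  congr 1
  by_cases h0 : (2 : F) = 0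
  · have e : (-1 : F) = 1 := by linear_combination -h0
    rw [h2 h0, e, Finset.pair_eq_singleton, Finset.card_singleton]
  · rw [h2' h0, Finset.card_pair]
    intro h
    apply h0
    linear_combination h

/-- conclusion from the dichotomy -/
theorem index_ge_of_dich [Finite F] (hQ : Nd Q) (hgen : GenHyp Q) {k : ℕ} {e f : Fin k → V} (hfr : Frame Q k e f)
    (hk : 3 ≤ k) (hn : 7 ≤ finrank F V) {B : ℕ} (hs : B * (Nat.card F - 1) ≤ Nat.card {u : V // u ≠ 0 ∧ Q u = 0})
    (hns : ∀ c : F, c ≠ 0 → (2 : F) ≠ 0 → B * 2 ≤ Nat.card {u : V // Q u = c})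
    (hns' : ∀ c : F, c ≠ 0 → (2 : F) = 0 → B ≤ Nat.card {u : V // Q u = c})
    (K : Subgroup ↥(Om Q)) (hK : K ≠ ⊤) (hD : Dich Q (K.map (Om Q).subtype)) : B ≤ K.index := by
  have : Finite V := Module.finite_of_finite F
  have : Finite ↥(Om Q) := Finite.of_injective (fun g => ((g : V ≃ₗ[F] V) : V → V)) (fun g h hgh =>
    Subtype.ext (LinearEquiv.ext fun x => congrFun hgh x))
  have hKO : K.map (Om Q).subtype ≤ O Q := by
    rintro _ ⟨g, -, rfl⟩
    exact Om_le g.2
  have hprop : ¬ Om Q ≤ K.map (Om Q).subtype := by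
    intro h
    apply hK
    rw [eq_top_iff]
    rintro ⟨g, hg⟩ -
    obtain ⟨g', hg', h1⟩ := h hg
    have : g' = ⟨g, hg⟩ := Subtype.ext h1
    rw [← this]; exact hg'
  obtain ⟨v, hv0, hv⟩ := exists_fixed hQ hgen hn hKO hD hprop
  have hle : K ≤ LS Q v := by
    intro g hg
    rw [mem_LS]
    exact hv _ ⟨g, hg, rfl⟩
  have h1 : (LS Q v).index ≤ K.index := Subgroup.index_antitone hle
  refine le_trans ?_ h1
  by_cases hQv : Q v = 0
  · have h2 := index_LS_sing hQ hgen hfr hk hv0 hQv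
    rw [h2, mul_comm] at hs
    have hq : 1 < Nat.card F := Finite.one_lt_card
    exact Nat.le_of_mul_le_mul_left hs (by omega)
  · by_cases h0 : (2 : F) = 0
    · have h2 := index_LS_nonsing hQ hgen hfr hk (v := v) hQv (d := 1) (fun _ => rfl) (fun h => absurd h0 h)
      have h3 := hns' _ hQv h0
      rw [h2, one_mul] at h3
      exact h3
    · have h2 := index_LS_nonsing hQ hgen hfr hk (v := v) hQv (d := 2) (fun h => absurd h h0) (fun _ => rfl)
      have h3 := hns _ hQv h0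
      rw [h2] at h3
      omega

theorem St_quot (K : Subgroup ↥(Om Q)) :
    St Q (X := ↥(Om Q) ⧸ K) (QuotientGroup.mk 1) = K.map (Om Q).subtype := by
  rw [St]
  congr 1
  ext g
  rw [MulAction.mem_stabilizer_iff]
  show ((QuotientGroup.mk (g * 1) : ↥(Om Q) ⧸ K) = QuotientGroup.mk 1) ↔ _
  rw [mul_one, eq_comm, QuotientGroup.eq, inv_one, one_mul]

theorem min_index [Finite F] (hQ : Nd Q) (hgen : GenHyp Q) {p : ℕ} [Fact p.Prime] [CharP F p] {k : ℕ}
    {e f : Fin k → V} (hfr : Frame Q k e f)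
    (hk : 3 ≤ k) (hn : 7 ≤ finrank F V) {N B : ℕ} (hN : OrbN Q N)
    (h1 : B ≤ p * Nat.card F ^ (finrank F V - 4) * (N + 1)) (h2 : B ≤ p * Nat.card F ^ (2 * (finrank F V - 4)))
    (hs : B * (Nat.card F - 1) ≤ Nat.card {u : V // u ≠ 0 ∧ Q u = 0})
    (hns : ∀ c : F, c ≠ 0 → (2 : F) ≠ 0 → B * 2 ≤ Nat.card {u : V // Q u = c})
    (hns' : ∀ c : F, c ≠ 0 → (2 : F) = 0 → B ≤ Nat.card {u : V // Q u = c})
    (K : Subgroup ↥(Om Q)) (hK : K ≠ ⊤) : B ≤ K.index := by
  have : Finite V := Module.finite_of_finite F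
  have : Finite ↥(Om Q) := Finite.of_injective (fun g => ((g : V ≃ₗ[F] V) : V → V)) (fun g h hgh =>
    Subtype.ext (LinearEquiv.ext fun x => congrFun hgh x))
  by_contra hcon
  push Not at hcon
  have hD := dich_of_small (X := ↥(Om Q) ⧸ K) (p := p) hQ hgen hn hN (QuotientGroup.mk 1)
    (lt_of_lt_of_le hcon h1) (lt_of_lt_of_le hcon h2)
  rw [St_quot] at hD
  have := index_ge_of_dich hQ hgen hfr hk hn hs hns hns' K hK hD
  omega

end Main

section Bridge

variable {F : Type*} [Field F] {ι : Type} [Fintype ι] [DecidableEq ι] {Q : QuadraticForm F (ι → F)}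

open Cfsg.Agent.Lib.ClOmega

theorem bridge_ge {B : ℕ} (h : ∀ K : Subgroup ↥(Om Q), K ≠ ⊤ → B ≤ K.index)
    (H : Subgroup (Cfsg.POmega F ⇑Q)) (hH : H ≠ ⊤) : B ≤ H.index := by
  let φ : ↥(Om Q) →* Cfsg.POmega F ⇑Q :=
    (QuotientGroup.mk' (Subgroup.center (Cfsg.Omega F ⇑Q))).comp (omEquiv Q).symm.toMonoidHom
  have hφ : Function.Surjective φ := (QuotientGroup.mk'_surjective _).comp (omEquiv Q).symm.surjective
  have h1 := h (H.comap φ) (fun h2 => hH (by
    rw [eq_top_iff]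
    intro x _
    obtain ⟨y, rfl⟩ := hφ x
    have : y ∈ H.comap φ := by rw [h2]; exact Subgroup.mem_top y
    exact this))
  rwa [Subgroup.index_comap_of_surjective _ hφ] at h1

theorem bridge_eq {B : ℕ} (K : Subgroup ↥(Om Q)) (hc : Subgroup.center ↥(Om Q) ≤ K) (hB : K.index = B) :
    ∃ H : Subgroup (Cfsg.POmega F ⇑Q), H.index = B := by
  let φ : ↥(Om Q) →* Cfsg.POmega F ⇑Q :=
    (QuotientGroup.mk' (Subgroup.center (Cfsg.Omega F ⇑Q))).comp (omEquiv Q).symm.toMonoidHom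
  have hφ : Function.Surjective φ := (QuotientGroup.mk'_surjective _).comp (omEquiv Q).symm.surjective
  refine ⟨K.map φ, ?_⟩
  rw [← hB]
  refine Subgroup.index_map_eq K hφ (fun g hg => hc ?_)
  have h1 : (omEquiv Q).symm g ∈ Subgroup.center (Cfsg.Omega F ⇑Q) := by
    have : (QuotientGroup.mk ((omEquiv Q).symm g) : Cfsg.POmega F ⇑Q) = 1 := hg
    rwa [QuotientGroup.eq_one_iff] at this
  rw [Subgroup.mem_center_iff] at h1 ⊢
  intro x
  have h2 := h1 ((omEquiv Q).symm x)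
  rw [← map_mul, ← map_mul] at h2
  exact (omEquiv Q).symm.injective h2

theorem center_le_LS {Q : QuadraticForm F (ι → F)} (hQ : Nd Q) (hR : R Q = O Q) {k : ℕ}
    {e f : Fin k → (ι → F)} (hfr : Frame Q k e f)
    (hk : 3 ≤ k) (v : ι → F) : Subgroup.center ↥(Om Q) ≤ LS Q v := by
  intro g hg
  obtain ⟨c, hc⟩ := (mem_center_Om hQ hR hfr (i := ⟨0, by omega⟩) (j := ⟨1, by omega⟩)
      (l := ⟨2, by omega⟩) (by simp) (by simp) (by simp) g).1 hg
  rw [mem_LS, hc]
  exact Submodule.smul_mem _ _ (Submodule.mem_span_singleton_self v)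

end Bridge

end Cfsg.Agent.Lib.Coop
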