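import Mathlib
import Cfsg.Agent.Lib.CoopN

set_option autoImplicit false
set_option linter.unusedSectionVars false

/-!
Minimal index, minus type.
-/

namespace Cfsg.Agent.Lib.Coop

open QuadraticMap Module Cfsg.Agent.Lib.Quad Cfsg.Agent.Lib.ClOrthSiegel Cfsg.Agent.Lib.OrthNd
  Cfsg.Agent.Lib.OrthMax Cfsg.Agent.Lib.ClOrthOrd Cfsg.Agent.Lib.ClOmega
open scoped Pointwise

section TS

variable {F V : Type*} [Field F] [AddCommGroup V] [Module F V] [FiniteDimensional F V]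
  {Q : QuadraticForm F V}

theorem polar_of_ts {T : Submodule F V} (hT : ∀ t ∈ T, Q t = 0) {x y : V} (hx : x ∈ T) (hy : y ∈ T) :
    polar Q x y = 0 := by
  rw [polar, hT _ (T.add_mem hx hy), hT x hx, hT y hy]; simp

theorem ts_le (hQ : Nd Q) {M T : Submodule F V} (hT : ∀ t ∈ T, Q t = 0)
    (hM : ∀ x ∈ perp Q M, Q x = 0 → x ∈ M) : finrank F T ≤ finrank F M := by
  have h1 : T ⊓ perp Q M ≤ T ⊓ M := fun x hx => ⟨hx.1, hM x hx.2 (hT x hx.1)⟩
  have h2 : T ⊔ perp Q M ≤ perp Q (T ⊓ M) := by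
    refine sup_le (fun x hx => mem_perp'.2 fun y hy => polar_of_ts hT hx hy.1) (fun x hx =>
      mem_perp'.2 fun y hy => mem_perp'.1 hx y hy.2)
  have h3 := Submodule.finrank_mono h1
  have h4 := Submodule.finrank_mono h2
  have h5 := Submodule.finrank_sup_add_finrank_inf_eq T (perp Q M)
  have h6 := hQ.finrank_add_finrank_perp M
  have h7 := hQ.finrank_add_finrank_perp (T ⊓ M)
  omega

end TS

section Minus

variable {F : Type*} [Field F] {m : ℕ}

/-- the standard totally singular subspace -/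
def Lm (m : ℕ) (F : Type*) [Field F] : (Fin m → F) →ₗ[F] ((Fin m ⊕ Fin m) ⊕ Fin 2 → F) where
  toFun f := Sum.elim (Sum.elim f 0) 0
  map_add' f g := by
    funext s
    rcases s with (s | s) | s <;> simp
  map_smul' c f := by
    funext s
    rcases s with (s | s) | s <;> simp

theorem ts_le_minus {a b : F} [Finite F]
    (hab : ∀ z₁ z₂ : F, z₁ ^ 2 + a * z₁ * z₂ + b * z₂ ^ 2 = 0 → z₁ = 0 ∧ z₂ = 0)
    (T : Submodule F ((Fin m ⊕ Fin m) ⊕ Fin 2 → F)) (hT : ∀ t ∈ T, quadMinus m F a b t = 0) :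
    finrank F T ≤ m := by
  have hQ : Nd (quadMinus m F a b) := nd_quadMinus (disc_ne_zero_of_anisotropic hab)
  have hinj : Function.Injective (Lm m F) := by
    intro f g h
    funext i
    exact congrFun h (Sum.inl (Sum.inl i))
  have hr : finrank F (LinearMap.range (Lm m F)) = m := by
    rw [LinearMap.finrank_range_of_inj hinj]; simp
  refine le_trans (ts_le (M := LinearMap.range (Lm m F)) hQ hT fun x hx hQx => ?_) hr.le
  have h1 : ∀ i, x (Sum.inl (Sum.inr i)) = 0 := by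
    intro i
    have h2 := mem_perp'.1 hx (Lm m F (Pi.single i 1)) ⟨_, rfl⟩
    change polar (Cfsg.quadFormMinus m F a b) _ _ = 0 at h2
    rw [polar_quadMinus] at h2
    simp only [Lm, LinearMap.coe_mk, AddHom.coe_mk, Sum.elim_inl, Sum.elim_inr, Pi.zero_apply, mul_zero, zero_add,
      add_zero, zero_mul] at h2
    rw [Finset.sum_eq_single i (fun j _ hj => by rw [Pi.single_eq_of_ne hj, mul_zero])
      (fun h => absurd (Finset.mem_univ i) h), Pi.single_eq_same, mul_one] at h2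
    exact h2
  have h2 : x (Sum.inr 0) = 0 ∧ x (Sum.inr 1) = 0 := by
    apply hab
    change Cfsg.quadFormMinus m F a b x = 0 at hQx
    rw [Cfsg.quadFormMinus] at hQx
    simp only [h1, mul_zero, Finset.sum_const_zero, zero_add] at hQx
    exact hQx
  refine ⟨fun i => x (Sum.inl (Sum.inl i)), ?_⟩
  funext s
  rcases s with (s | s) | s
  · rfl
  · show (0 : F) = _
    rw [h1]
  · show (0 : F) = _
    fin_cases s
    · exact h2.1.symm
    · exact h2.2.symm

theorem exists_char_prime (F : Type*) [Field F] [Finite F] : ∃ p : ℕ, ∃ _ : Fact p.Prime, CharP F p ∧ 2 ≤ p ∧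
    ((2 : F) ≠ 0 → 3 ≤ p) := by
  obtain ⟨p, hp⟩ := CharP.exists F
  have hpp : p.Prime := CharP.char_is_prime F p
  refine ⟨p, ⟨hpp⟩, hp, hpp.two_le, fun h2 => ?_⟩
  rcases Nat.lt_or_ge 2 p with h | h
  · exact h
  · exfalso
    have : p = 2 := le_antisymm h hpp.two_le
    subst this
    exact h2 (by exact_mod_cast CharP.cast_eq_zero F 2)

theorem card_ne_zero_sing {V : Type*} [AddCommGroup V] [Module F V] [Finite V] (Q : QuadraticForm F V) :
    Nat.card {u : V // u ≠ 0 ∧ Q u = 0} = ClOrthOrd.Z Q - 1 := by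
  classical
  have := Fintype.ofFinite V
  rw [ClOrthOrd.Z, Nat.card_eq_fintype_card, Nat.card_eq_fintype_card, Fintype.card_subtype, Fintype.card_subtype]
  have : (Finset.univ.filter fun u : V => u ≠ 0 ∧ Q u = 0) = (Finset.univ.filter fun u : V => Q u = 0).erase 0 := by
    ext u
    simp [Finset.mem_erase]
  rw [this, Finset.card_erase_of_mem (by simp)]

theorem num_minus {q p s m : ℕ} (hq : 2 ≤ q) (hm : 5 ≤ m) (hc : (p = 2 ∧ s = q - 1) ∨ (3 ≤ p ∧ 3 ≤ q ∧ q - 1 ≤ 2 * s)) :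
    (q ^ m + 1) * (q ^ (m - 1) - 1) ≤ (q - 1) * (p * q ^ (2 * m - 4) * (s * q ^ (2 * m - 8) + 1)) := by
  obtain ⟨k, rfl⟩ : ∃ k, m = k + 5 := ⟨m - 5, by omega⟩
  have e1 : k + 5 - 1 = k + 4 := by omega
  have e2 : 2 * (k + 5) - 4 = 2 * k + 6 := by omega
  have e3 : 2 * (k + 5) - 8 = 2 * k + 2 := by omega
  rw [e1, e2, e3]
  have h1 : (q ^ (k + 5) + 1) * (q ^ (k + 4) - 1) ≤ q ^ (2 * k + 9) := by
    have h2 : 1 ≤ q ^ (k + 4) := Nat.one_le_pow _ _ (by omega)
    obtain ⟨x, hx⟩ : ∃ x, q ^ (k + 4) = x + 1 := ⟨q ^ (k + 4) - 1, by omega⟩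
    have e4 : q ^ (2 * k + 9) = q ^ (k + 5) * q ^ (k + 4) := by rw [← pow_add]; ring_nf
    rw [e4, hx, Nat.add_sub_cancel]
    have h3 : x ≤ q ^ (k + 5) := by
      have : q ^ (k + 4) ≤ q ^ (k + 5) := Nat.pow_le_pow_right (by omega) (by omega)
      omega
    nlinarith
  refine h1.trans ?_
  have h5 : q ^ 3 ≤ (q - 1) * (p * (s * q ^ 2)) := by
    obtain ⟨r, rfl⟩ : ∃ r, q = r + 1 := ⟨q - 1, by omega⟩
    rw [Nat.add_sub_cancel] at hc ⊢
    rcases hc with ⟨rfl, hsr⟩ | ⟨hp, hq3, hs⟩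
    · rw [hsr]
      have h6 : r + 1 ≤ 2 * (r * r) := by nlinarith
      calc (r + 1) ^ 3 = (r + 1) * (r + 1) ^ 2 := by ring
        _ ≤ 2 * (r * r) * (r + 1) ^ 2 := Nat.mul_le_mul_right _ h6
        _ = _ := by ring
    · have h6 : r + 1 ≤ r * (3 * s) := by nlinarith
      calc (r + 1) ^ 3 = (r + 1) * (r + 1) ^ 2 := by ring
        _ ≤ r * (3 * s) * (r + 1) ^ 2 := Nat.mul_le_mul_right _ h6
        _ ≤ r * (p * s) * (r + 1) ^ 2 := Nat.mul_le_mul_right _ (Nat.mul_le_mul_left _ (Nat.mul_le_mul_right _ hp))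
        _ = _ := by ring
  have h7 : q ^ 2 ≤ q ^ (2 * k + 2) := Nat.pow_le_pow_right (by omega) (by omega)
  calc q ^ (2 * k + 9) = q ^ (2 * k + 6) * q ^ 3 := by rw [← pow_add]
    _ ≤ q ^ (2 * k + 6) * ((q - 1) * (p * (s * q ^ 2))) := Nat.mul_le_mul_left _ h5
    _ = (q - 1) * (p * q ^ (2 * k + 6) * (s * q ^ 2)) := by ring
    _ ≤ (q - 1) * (p * q ^ (2 * k + 6) * (s * q ^ (2 * k + 2) + 1)) := by
      refine Nat.mul_le_mul_left _ (Nat.mul_le_mul_left _ ?_)
      exact (Nat.mul_le_mul_left _ h7).trans (Nat.le_succ _)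

theorem num_minus4 {q p N : ℕ} (hq : 2 ≤ q) (hc : (p = 2 ∧ N = q ^ 2 - 1) ∨ (3 ≤ p ∧ 3 ≤ q ∧ q ^ 2 - 1 ≤ 2 * N)) :
    (q ^ 4 + 1) * (q ^ 3 - 1) ≤ (q - 1) * (p * q ^ 4 * (N + 1)) := by
  have h0 : 1 ≤ q ^ 2 := Nat.one_le_pow _ _ (by omega)
  have h3 : 1 ≤ q ^ 3 := Nat.one_le_pow _ _ (by omega)
  rcases hc with ⟨rfl, rfl⟩ | ⟨hp, hq3, hs⟩
  · rw [Nat.sub_add_cancel h0]
    obtain ⟨r, rfl⟩ : ∃ r, q = r + 2 := ⟨q - 2, by omega⟩
    have e : r + 2 - 1 = r + 1 := by omega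
    rw [e]
    zify [h3]
    nlinarith [pow_nonneg (Int.natCast_nonneg r) 2, pow_nonneg (Int.natCast_nonneg r) 3,
      pow_nonneg (Int.natCast_nonneg r) 4, pow_nonneg (Int.natCast_nonneg r) 5,
      pow_nonneg (Int.natCast_nonneg r) 6, pow_nonneg (Int.natCast_nonneg r) 7, Int.natCast_nonneg r]
  · have h4 : q ^ 2 + 1 ≤ 2 * (N + 1) := by omega
    have h5 : 2 * ((q ^ 4 + 1) * (q ^ 3 - 1)) ≤ (q - 1) * (3 * q ^ 4 * (q ^ 2 + 1)) := by
      obtain ⟨r, rfl⟩ : ∃ r, q = r + 3 := ⟨q - 3, by omega⟩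
      have e : r + 3 - 1 = r + 2 := by omega
      rw [e]
      zify [h3]
      nlinarith [pow_nonneg (Int.natCast_nonneg r) 2, pow_nonneg (Int.natCast_nonneg r) 3,
        pow_nonneg (Int.natCast_nonneg r) 4, pow_nonneg (Int.natCast_nonneg r) 5,
        pow_nonneg (Int.natCast_nonneg r) 6, pow_nonneg (Int.natCast_nonneg r) 7, Int.natCast_nonneg r]
    have h6 : (q - 1) * (3 * q ^ 4 * (q ^ 2 + 1)) ≤ (q - 1) * (p * q ^ 4 * (2 * (N + 1))) :=
      Nat.mul_le_mul_left _ (Nat.mul_le_mul (Nat.mul_le_mul_right _ hp) h4)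
    have h7 : (q - 1) * (p * q ^ 4 * (2 * (N + 1))) = 2 * ((q - 1) * (p * q ^ 4 * (N + 1))) := by ring
    omega

/-- **Minimal index**, minus type -/
theorem minus_main [Fintype F] {q : ℕ} (hF : Fintype.card F = q) (hm : 4 ≤ m) (a b : F)
    (hab : ∀ z₁ z₂ : F, z₁ ^ 2 + a * z₁ * z₂ + b * z₂ ^ 2 = 0 → z₁ = 0 ∧ z₂ = 0) :
    (∀ K : Subgroup ↥(Om (quadMinus (m - 1) F a b)), K ≠ ⊤ → (q ^ m + 1) * (q ^ (m - 1) - 1) / (q - 1) ≤ K.index) ∧
    ∃ K : Subgroup ↥(Om (quadMinus (m - 1) F a b)), Subgroup.center _ ≤ K ∧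
      K.index = (q ^ m + 1) * (q ^ (m - 1) - 1) / (q - 1) := by
  have hQ : Nd (quadMinus (m - 1) F a b) := nd_quadMinus (disc_ne_zero_of_anisotropic hab)
  have hgen : GenHyp (quadMinus (m - 1) F a b) := genHyp_minus (m - 1) (by omega) a b
  have hfr := frame_of_HP (hpMinus (F := F) (m - 1) a b)
  have hk : 3 ≤ m - 1 := by omega
  have hn : finrank F ((Fin (m - 1) ⊕ Fin (m - 1)) ⊕ Fin 2 → F) = 2 * m := by rw [finrank_minus]; omega
  have hFn : Nat.card F = q := by rw [Nat.card_eq_fintype_card, hF]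
  have hq : 2 ≤ q := by rw [← hF]; exact Fintype.one_lt_card
  obtain ⟨B, hB⟩ : ∃ B, (q ^ m + 1) * (q ^ (m - 1) - 1) = (q - 1) * B := by
    have h1 := Nat.sub_dvd_pow_sub_pow q 1 (m - 1)
    rw [one_pow] at h1
    obtain ⟨c, hc⟩ := h1
    exact ⟨(q ^ m + 1) * c, by rw [hc]; ring⟩
  have hq1 : 0 < q - 1 := by omega
  have hBd : (q ^ m + 1) * (q ^ (m - 1) - 1) / (q - 1) = B := by
    rw [hB]; exact Nat.mul_div_cancel_left _ hq1
  rw [hBd]
  have hsing : Nat.card {u : (Fin (m - 1) ⊕ Fin (m - 1)) ⊕ Fin 2 → F // u ≠ 0 ∧ quadMinus (m - 1) F a b u = 0} =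
      (q - 1) * B := by
    rw [card_ne_zero_sing, Z_minus_sub hab, hF, ← hB]
    have : m - 1 + 1 = m := by omega
    rw [this]
  have hmm : m - 1 + 1 = m := by omega
  have hpw : 1 ≤ q ^ (m - 1) := Nat.one_le_pow _ _ (by omega)
  -- the number of vectors of given norm
  have hNc : ∀ c : F, (q - 1) * B ≤ Nat.card {u : (Fin (m - 1) ⊕ Fin (m - 1)) ⊕ Fin 2 → F //
      quadMinus (m - 1) F a b u = c} := by
    intro c
    have h1 := Nc_minus_ge hab c (m - 1)
    rw [hF, hmm] at h1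
    change _ ≤ Nc (quadMinus (m - 1) F a b) c
    rw [← hB]
    have e1 : q ^ (2 * (m - 1) + 1) = q ^ m * q ^ (m - 1) := by rw [← pow_add]; congr 1; omega
    rw [e1] at h1
    obtain ⟨x, hx⟩ : ∃ x, q ^ (m - 1) = x + 1 := ⟨q ^ (m - 1) - 1, by omega⟩
    rw [hx] at h1 ⊢
    rw [Nat.add_sub_cancel]
    have e2 : q ^ m * (x + 1) + (x + 1) = (q ^ m + 1) * x + 1 + q ^ m := by ring
    rw [e2] at h1
    omega
  have hbound : (q ^ m + 1) * (q ^ (m - 1) - 1) ≤ q ^ (2 * m - 1) := by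
    obtain ⟨x, hx⟩ : ∃ x, q ^ (m - 1) = x + 1 := ⟨q ^ (m - 1) - 1, by omega⟩
    have e1 : q ^ (2 * m - 1) = q ^ m * q ^ (m - 1) := by rw [← pow_add]; congr 1; omega
    rw [e1, hx, Nat.add_sub_cancel]
    have h2 : q ^ (m - 1) ≤ q ^ m := Nat.pow_le_pow_right (by omega) (by omega)
    nlinarith
  obtain ⟨p, hpF, hpC, hp2, hp3⟩ := exists_char_prime F
  have hBle : B ≤ (q - 1) * B := Nat.le_mul_of_pos_left _ hq1
  constructor
  · intro K hK
    have hsub : ∀ N, OrbN (quadMinus (m - 1) F a b) N → B ≤ p * q ^ (2 * m - 4) * (N + 1) → B ≤ K.index := by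
      intro N hN hB1
      refine min_index (p := p) hQ hgen hfr hk (by rw [hn]; omega) hN ?_ ?_ ?_ ?_ ?_ K hK
      · rw [hn, hFn]; exact hB1
      · rw [hn, hFn]
        refine (hBle.trans (hB ▸ hbound)).trans ?_
        calc q ^ (2 * m - 1) ≤ q ^ (2 * (2 * m - 4)) := Nat.pow_le_pow_right (by omega) (by omega)
          _ ≤ _ := Nat.le_mul_of_pos_left _ (by omega)
      · rw [hFn, hsing, mul_comm]
      · intro c hc h2
        refine le_trans ?_ (hNc c)
        rw [mul_comm]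
        refine Nat.mul_le_mul_right _ ?_
        have : 3 ≤ q := by
          by_contra hcon
          have hq2 : q = 2 := by omega
          apply h2
          have := CharP.cast_eq_zero F p
          have h3 : p ∣ Fintype.card F := by
            obtain ⟨n, -, hn⟩ := FiniteField.card F p
            rw [hn]
            exact dvd_pow_self p (PNat.ne_zero n)
          rw [hF, hq2] at h3
          have h4 := Nat.le_of_dvd (by omega) h3
          have h5 := hp3 h2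
          omega
        omega
      · intro c hc h2
        exact hBle.trans (hNc c)
    have hcase : ((2 : F) = 0 ∧ p = 2) ∨ ((2 : F) ≠ 0 ∧ 3 ≤ p ∧ 3 ≤ q) := by
      by_cases h2 : (2 : F) = 0
      · left
        refine ⟨h2, ?_⟩
        have h3 : p ∣ 2 := (CharP.cast_eq_zero_iff F p 2).1 (by exact_mod_cast h2)
        exact (Nat.prime_dvd_prime_iff_eq hpF.out Nat.prime_two).1 h3
      · right
        refine ⟨h2, hp3 h2, ?_⟩
        have h3 : p ∣ Fintype.card F := by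
          obtain ⟨n, -, hn⟩ := FiniteField.card F p
          rw [hn]
          exact dvd_pow_self p (PNat.ne_zero n)
        rw [hF] at h3
        exact (hp3 h2).trans (Nat.le_of_dvd (by omega) h3)
    rcases Nat.lt_or_ge m 5 with h5 | h5
    · have hm4 : m = 4 := by omega
      subst hm4
      have hmin : ∀ T : Submodule F ((Fin (4 - 1) ⊕ Fin (4 - 1)) ⊕ Fin 2 → F),
          (∀ t ∈ T, quadMinus (4 - 1) F a b t = 0) → finrank F T ≤ 3 := fun T hT => ts_le_minus hab T hT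
      rcases hcase with ⟨h2, rfl⟩ | ⟨h2, hp, hq3⟩
      · refine hsub (q ^ 2 - 1) (orbN_minus8 hQ hgen hn hmin (by rw [hFn]; omega) (fun h => absurd h2 h)) ?_
        have h6 := num_minus4 (p := 2) (N := q ^ 2 - 1) hq (Or.inl ⟨rfl, rfl⟩)
        rw [show q ^ 3 - 1 = q ^ (4 - 1) - 1 from rfl, hB] at h6
        exact Nat.le_of_mul_le_mul_left h6 hq1
      · refine hsub ((q ^ 2 - 1) / 2) (orbN_minus8 hQ hgen hn hmin (fun h => absurd h h2) (by rw [hFn]; omega)) ?_
        have hev : 2 * ((q ^ 2 - 1) / 2) = q ^ 2 - 1 := by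
          have hodd : Odd q := by rw [← hF]; exact odd_card_of_two h2
          have : Odd (q ^ 2) := hodd.pow
          obtain ⟨k, hk⟩ := this
          omega
        have h6 := num_minus4 (p := p) (N := (q ^ 2 - 1) / 2) hq (Or.inr ⟨hp, hq3, hev.ge⟩)
        rw [show q ^ 3 - 1 = q ^ (4 - 1) - 1 from rfl, hB] at h6
        exact Nat.le_of_mul_le_mul_left h6 hq1
    · have h6 := orbN_big hQ hgen (by rw [hn]; omega)
      rw [hn, hFn] at h6
      refine hsub _ h6 ?_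
      have h7 := num_minus (q := q) (p := p) (s := nsq F) (m := m) hq h5 (by
        rcases hcase with ⟨h2, rfl⟩ | ⟨h2, hp, hq3⟩
        · left
          exact ⟨rfl, by rw [nsq_even h2, hFn]⟩
        · right
          refine ⟨hp, hq3, ?_⟩
          have := nsq_odd (F := F)
          rwa [hFn] at this)
      rw [hB] at h7
      exact Nat.le_of_mul_le_mul_left h7 hq1
  · set v := (hpMinus (F := F) (m - 1) a b).e ⟨0, by omega⟩ with hv
    have hQv : quadMinus (m - 1) F a b v = 0 := hfr.e0 _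
    have hv0 : v ≠ 0 := by
      intro h0
      have h1 := hfr.ef ⟨0, by omega⟩ ⟨0, by omega⟩
      rw [← hv, h0, polar_zero_left, if_pos rfl] at h1
      exact zero_ne_one h1
    refine ⟨LS _ v, center_le_LS hQ (hQ.R_eq_O hgen) hfr hk v, ?_⟩
    have h1 := index_LS_sing hQ hgen hfr hk hv0 hQv
    rw [hsing, hFn] at h1
    exact (Nat.eq_of_mul_eq_mul_left hq1 h1).symm

end Minus

end Cfsg.Agent.Lib.Coop
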