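import Mathlib
import Cfsg.Agent.Lib.CoopN

set_option autoImplicit false
set_option linter.unusedSectionVars false

/-!
The dichotomy from the shape of the groups `bar x`; characters.
-/

namespace Cfsg.Agent.Lib.Coop

open QuadraticMap Module Cfsg.Agent.Lib.Quad Cfsg.Agent.Lib.ClOrthSiegel Cfsg.Agent.Lib.OrthNd
  Cfsg.Agent.Lib.OrthMax
open scoped Pointwise

variable {F V : Type*} [Field F] [AddCommGroup V] [Module F V] [FiniteDimensional F V]
  {Q : QuadraticForm F V}

section

variable [Finite F] (hQ : Nd Q) (hgen : GenHyp Q) {X : Type*} [MulAction ↥(Om Q) X]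

include hQ hgen in
/-- the dichotomy from the shape of the groups `bar x` -/
theorem dich_of_bar (x : X)
    (hbar : ∀ (z b : V) (hz : Q z = 0) (hb : Q b = 0) (hzb : polar Q z b = 0), z ≠ 0 → b ∉ F ∙ z →
      Cx hQ hgen hzb x ≠ ⊤ → ∀ z' b' : V, Q z' = 0 → Q b' = 0 → polar Q z z' = 1 → polar Q b b' = 1 →
      polar Q b z' = 0 → polar Q z b' = 0 → polar Q z' b' = 0 →
      ∀ (U : Submodule F V) (hU : ∀ u ∈ U, polar Q z u = 0 ∧ polar Q b u = 0), NDs Q U →
      finrank F V ≤ finrank F U + 4 →
      (∀ x, x ∈ U ↔ polar Q z x = 0 ∧ polar Q b x = 0 ∧ polar Q z' x = 0 ∧ polar Q b' x = 0) →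
      ∃ α β : F, (α ≠ 0 ∨ β ≠ 0) ∧
        ∀ u : ↥U × ↥U, u ∈ (hd hQ hgen hz hb hzb U hU).bar x ↔ ∃ v : ↥U, u = (α • v, β • v)) :
    Dich Q (St Q x) := by
  classical
  have : Finite V := Module.finite_of_finite F
  intro z b hz0 hz hb hzb hbz hbK
  -- the root group of the line acts nontrivially
  have hC : Cx hQ hgen hzb x ≠ ⊤ := by
    intro hC
    apply hbK
    rw [mem_KK hz]
    intro c
    rw [TT_iff hQ hgen hz (by rw [polar_smul_right, hzb, smul_zero])]
    have : c ∈ Cx hQ hgen hzb x := by rw [hC]; exact AddSubgroup.mem_top c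
    exact this
  obtain ⟨z', b', hz', hb', hzz', hbb', hbz', hzb', hz'b'⟩ := exists_frame hQ hz0 hz hb hzb hbz
  obtain ⟨U, hUn, hUd, hUm⟩ := frame_U hQ hz hb hzb hz' hb' hzz' hbb' hbz' hzb' hz'b'
  have hU : ∀ u ∈ U, polar Q z u = 0 ∧ polar Q b u = 0 := fun u hu =>
    ⟨((hUm u).1 hu).1, ((hUm u).1 hu).2.1⟩
  obtain ⟨α, β, hαβ, hB⟩ := hbar z b hz hb hzb hz0 hbz hC z' b' hz' hb' hzz' hbb' hbz' hzb' hz'b' U hU hUn hUd hUm
  set D := hd hQ hgen hz hb hzb U hU with hD
  -- the black point
  have hzero : polar Q z ((0 : F) • b) = 0 := by rw [zero_smul, polar_zero_right]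
  -- membership in bar x in terms of Siegel elements
  have hmem : ∀ (γ δ : F) (u : ↥U), (γ • u, δ • u) ∈ D.bar x ↔
      ∃ c : F, EG hQ hgen z (c • b) • EG hQ hgen (γ • z + δ • b) (u : V) • x = x := by
    intro γ δ u
    have hz1 := (hU u u.2).1
    have hb1 := (hU u u.2).2
    have he : D.e (γ • u, δ • u) = EG hQ hgen z ((Q (u : V) * γ * δ) • b) * EG hQ hgen (γ • z + δ • b) (u : V) :=
      Subtype.ext (E_comb hQ hz hb hzb hz1 hb1 γ δ)
    have hzz : ∀ c d : F, EG hQ hgen z (c • b) * EG hQ hgen z (d • b) = EG hQ hgen z ((c + d) • b) := by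
      intro c d
      rw [add_smul, EG_add hQ hgen (by rw [polar_smul_right, hzb, smul_zero])
        (by rw [polar_smul_right, hzb, smul_zero])]
    have hinv : ∀ c : F, (EG hQ hgen z (c • b))⁻¹ = EG hQ hgen z ((-c) • b) := by
      intro c
      rw [inv_eq_iff_mul_eq_one, hzz, add_neg_cancel, zero_smul, EG_zero]
    constructor
    · rintro ⟨s, hs, h⟩
      obtain ⟨c, rfl⟩ := (mem_zhom hQ hgen hzb).1 hs
      refine ⟨-c + Q (u : V) * γ * δ, ?_⟩
      rw [he, mul_smul] at h
      rw [← hzz, mul_smul, h, ← mul_smul, hzz, neg_add_cancel, zero_smul, EG_zero, one_smul]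
    · rintro ⟨c, h⟩
      refine ⟨EG hQ hgen z ((Q (u : V) * γ * δ - c) • b), (mem_zhom hQ hgen hzb).2 ⟨_, rfl⟩, ?_⟩
      have h' : EG hQ hgen (γ • z + δ • b) (u : V) • x = EG hQ hgen z ((-c) • b) • x := by
        rw [← hinv, eq_inv_smul_iff]; exact h
      generalize hk : Q (u : V) * γ * δ = k at he ⊢
      rw [he, sub_eq_add_neg, ← hzz, mul_smul, mul_smul, h']
  -- the black point
  set a := α • z + β • b with ha
  have hbz0 : ∀ γ δ : F, γ • z + δ • b = 0 → γ = 0 ∧ δ = 0 := by
    intro γ δ h
    have hδ : δ = 0 := by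
      by_contra hδ
      apply hbz
      refine Submodule.mem_span_singleton.2 ⟨-(δ⁻¹ * γ), ?_⟩
      have h3 : δ⁻¹ • (γ • z + δ • b) = 0 := by rw [h, smul_zero]
      rw [smul_add, smul_smul, smul_smul, inv_mul_cancel₀ hδ, one_smul] at h3
      rw [neg_smul]
      exact (eq_neg_of_add_eq_zero_right h3).symm
    rw [hδ, zero_smul, add_zero] at h
    exact ⟨(smul_eq_zero.1 h).resolve_right hz0, hδ⟩
  have ha0 : a ≠ 0 := by
    intro h
    obtain ⟨h3, h4⟩ := hbz0 α β h
    rcases hαβ with h5 | h5
    · exact h5 h3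
    · exact h5 h4
  have haS : a ∈ Submodule.span F {z, b} := Submodule.mem_span_pair.2 ⟨α, β, rfl⟩
  have hQa : Q a = 0 := ts_span hz hb hzb haS
  -- the second vector
  obtain ⟨b₂, hb₂S, s, hs0, t, hzE, hspan⟩ : ∃ b₂ ∈ Submodule.span F {z, b}, ∃ s : F, s ≠ 0 ∧ ∃ t : F,
      (∀ c : F, EG hQ hgen z (c • b) = EG hQ hgen a ((c * s) • b₂)) ∧
      ∀ y ∈ Submodule.span F {z, b}, ∃ c d : F, y = c • a + d • b₂ := by
    by_cases hα : α = 0
    · have hβ : β ≠ 0 := by
        rcases hαβ with h5 | h5
        · exact absurd hα h5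
        · exact h5
      refine ⟨z, Submodule.subset_span (by simp), -β⁻¹, neg_ne_zero.2 (inv_ne_zero hβ), 0, fun c => ?_, fun y hy => ?_⟩
      · apply Subtype.ext
        show E hQ z (c • b) = E hQ a ((c * -β⁻¹) • z)
        rw [ha, hα, zero_smul, zero_add, E_smul_swap hQ hz hb hzb, E_smul hQ hβ, smul_smul]
        congr 2
        field_simp
      · obtain ⟨c, d, rfl⟩ := Submodule.mem_span_pair.1 hy
        refine ⟨d * β⁻¹, c, ?_⟩
        rw [ha, hα, zero_smul, zero_add, smul_smul, mul_assoc, inv_mul_cancel₀ hβ, mul_one, add_comm]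
    · refine ⟨b, Submodule.subset_span (by simp), α⁻¹, inv_ne_zero hα, 0, fun c => ?_, fun y hy => ?_⟩
      · apply Subtype.ext
        show E hQ z (c • b) = E hQ a ((c * α⁻¹) • b)
        have hac : polar Q a ((c * α⁻¹) • b) = 0 := by
          rw [ha, polar_smul_right, polar_add_left, polar_smul_left, polar_smul_left, hzb, polar_self', hb]; simp
        ext x
        rw [E_apply hQ hz (by rw [polar_smul_right, hzb, smul_zero]), E_apply hQ hQa hac]
        simp only [ha, polar_add_left, polar_smul_left, Q_smul, hb, smul_eq_mul, mul_zero, zero_mul, zero_smul,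
          sub_zero]
        have e1 : (α * polar Q z x + β * polar Q b x) • (c * α⁻¹) • b - (c * α⁻¹ * polar Q b x) • (α • z + β • b)
            = (α * α⁻¹) • (polar Q z x • c • b - (c * polar Q b x) • z) := by module
        rw [mul_inv_cancel₀ hα, one_smul] at e1
        rw [add_sub_assoc, add_sub_assoc, e1]
      · obtain ⟨c, d, rfl⟩ := Submodule.mem_span_pair.1 hy
        refine ⟨c * α⁻¹, d - c * α⁻¹ * β, ?_⟩
        rw [ha]
        have e1 : (c * α⁻¹) • (α • z + β • b) + (d - c * α⁻¹ * β) • b = (c * (α⁻¹ * α)) • z + d • b := by module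
        rw [e1, inv_mul_cancel₀ hα, mul_one]
  have hQb₂ : Q b₂ = 0 := ts_span hz hb hzb hb₂S
  have hab₂ : polar Q a b₂ = 0 := by
    obtain ⟨c, d, rfl⟩ := Submodule.mem_span_pair.1 hb₂S
    rw [polar_add_right, polar_smul_right, polar_smul_right, ha, polar_add_left, polar_add_left, polar_smul_left,
      polar_smul_left, polar_smul_left, polar_smul_left, hzb, polar_comm Q b z, hzb, polar_self', polar_self',
      hz, hb]
    simp
  -- decomposition of vectors of the perp
  have hdec : ∀ w, polar Q z w = 0 → polar Q b w = 0 → ∃ u ∈ U, ∃ l ∈ Submodule.span F {z, b}, w = u + l := by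
    intro w hw1 hw2
    refine ⟨w - (polar Q z' w • z + polar Q b' w • b), ?_, polar Q z' w • z + polar Q b' w • b,
      Submodule.mem_span_pair.2 ⟨_, _, rfl⟩, by abel⟩
    rw [hUm]
    have e1 : polar Q z z = 0 := by rw [polar_self', hz, mul_zero]
    have e2 : polar Q b b = 0 := by rw [polar_self', hb, mul_zero]
    have e3 : polar Q b z = 0 := by rw [polar_comm]; exact hzb
    have e4 : polar Q z' z = 1 := by rw [polar_comm]; exact hzz'
    have e5 : polar Q b' b = 1 := by rw [polar_comm]; exact hbb'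
    have e6 : polar Q z' b = 0 := by rw [polar_comm]; exact hbz'
    have e7 : polar Q b' z = 0 := by rw [polar_comm]; exact hzb'
    refine ⟨?_, ?_, ?_, ?_⟩
    · rw [polar_sub_right, polar_add_right, polar_smul_right, polar_smul_right, hw1, e1, hzb]; simp
    · rw [polar_sub_right, polar_add_right, polar_smul_right, polar_smul_right, hw2, e2, e3]; simp
    · rw [polar_sub_right, polar_add_right, polar_smul_right, polar_smul_right, e4, e6]; simp
    · rw [polar_sub_right, polar_add_right, polar_smul_right, polar_smul_right, e5, e7]; simp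
  refine ⟨a, haS, b₂, hb₂S, ha0, fun w hw1 hw2 => ?_, fun a' ha' ha'a w hw1 hw2 hw3 => ?_⟩
  · obtain ⟨u, hu, l, hl, rfl⟩ := hdec w hw1 hw2
    obtain ⟨c, d, rfl⟩ := hspan l hl
    have h3 : (α • (⟨u, hu⟩ : ↥U), β • (⟨u, hu⟩ : ↥U)) ∈ D.bar x := (hB _).2 ⟨_, rfl⟩
    obtain ⟨e, h4⟩ := (hmem α β ⟨u, hu⟩).1 h3
    have hau : polar Q a u = 0 := polar_span haS (hU u hu).1 (hU u hu).2
    refine ⟨e * s - d, ?_⟩
    have h5 : TT Q (St Q x) a (u + (e * s) • b₂) := by
      rw [TT_iff hQ hgen hQa (by rw [polar_add_right, polar_smul_right, hau, hab₂]; simp)]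
      rw [add_comm, ← EG_add hQ hgen (by rw [polar_smul_right, hab₂, smul_zero]) hau, mul_smul, ← hzE]
      exact h4
    have h6 := h5.add hQa (TT.self (H := St Q x) hQa c)
    have e2 : u + (c • a + d • b₂) + (e * s - d) • b₂ = u + (e * s) • b₂ + c • a := by module
    rw [e2]; exact h6
  · obtain ⟨u, hu, l, hl, rfl⟩ := hdec w hw1 hw2
    obtain ⟨γ, δ, rfl⟩ := Submodule.mem_span_pair.1 ha'
    have hQa' : Q (γ • z + δ • b) = 0 := ts_span hz hb hzb ha'
    have ha'u : polar Q (γ • z + δ • b) u = 0 := polar_span ha' (hU u hu).1 (hU u hu).2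
    have ha'l : polar Q (γ • z + δ • b) l = 0 := by
      obtain ⟨c, d, rfl⟩ := Submodule.mem_span_pair.1 hl
      rw [polar_add_right, polar_smul_right, polar_smul_right, polar_add_left, polar_add_left, polar_smul_left,
        polar_smul_left, polar_smul_left, polar_smul_left, hzb, polar_comm Q b z, hzb, polar_self', polar_self',
        hz, hb]
      simp
    -- the Siegel element of the line is in the root group
    obtain ⟨c, hc⟩ : ∃ c : F, EG hQ hgen (γ • z + δ • b) l = EG hQ hgen z (c • b) := by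
      obtain ⟨d, e, rfl⟩ := Submodule.mem_span_pair.1 hl
      refine ⟨γ * e - δ * d, ?_⟩
      apply Subtype.ext
      show E hQ (γ • z + δ • b) (d • z + e • b) = E hQ z ((γ * e - δ * d) • b)
      ext x
      have hQl : Q (d • z + e • b) = 0 := ts_span hz hb hzb hl
      rw [E_apply hQ hQa' ha'l, E_apply hQ hz (by rw [polar_smul_right, hzb, smul_zero]), hQl, Q_smul, hb]
      simp only [polar_add_left, polar_smul_left, smul_eq_mul, mul_zero, zero_mul, zero_smul, sub_zero]
      module
    have h3 : (γ • (⟨u, hu⟩ : ↥U), δ • (⟨u, hu⟩ : ↥U)) ∈ D.bar x := by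
      rw [hmem]
      refine ⟨c, ?_⟩
      have h4 := (TT_iff hQ hgen hQa' (by rw [polar_add_right, ha'u, ha'l, add_zero])).1 hw3
      rw [add_comm u l, ← EG_add hQ hgen ha'l ha'u, mul_smul, hc] at h4
      exact h4
    obtain ⟨v, hv⟩ := (hB _).1 h3
    have h4 : γ • (⟨u, hu⟩ : ↥U) = α • v := congrArg Prod.fst hv
    have h5 : δ • (⟨u, hu⟩ : ↥U) = β • v := congrArg Prod.snd hv
    have h6 : (α * δ - β * γ) • (⟨u, hu⟩ : ↥U) = 0 := by
      rw [sub_smul, mul_smul, mul_smul, h4, h5, smul_comm, sub_self]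
    rcases smul_eq_zero.1 h6 with h7 | h7
    · exfalso
      apply ha'a
      have h7' : α * δ = β * γ := sub_eq_zero.1 h7
      by_cases hα : α = 0
      · have hβ : β ≠ 0 := by
          rcases hαβ with h8 | h8
          · exact absurd hα h8
          · exact h8
        have hγ : γ = 0 := by
          rw [hα, zero_mul] at h7'
          exact (mul_eq_zero.1 h7'.symm).resolve_left hβ
        refine Submodule.mem_span_singleton.2 ⟨δ * β⁻¹, ?_⟩
        rw [ha, hα, hγ, zero_smul, zero_add, zero_add, smul_smul, mul_assoc, inv_mul_cancel₀ hβ, mul_one]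
      · refine Submodule.mem_span_singleton.2 ⟨γ * α⁻¹, ?_⟩
        have e1 : γ * α⁻¹ * α = γ := by rw [mul_assoc, inv_mul_cancel₀ hα, mul_one]
        have e2 : γ * α⁻¹ * β = δ := by
          rw [mul_right_comm, mul_comm γ β, ← h7', mul_comm α δ, mul_assoc, mul_inv_cancel₀ hα, mul_one]
        rw [ha, smul_add, smul_smul, smul_smul, e1, e2]
    · have h8 : u = 0 := congrArg Subtype.val h7
      rw [h8, zero_add]
      exact hl

end

/-! ### Duality -/

/-- the pairs whose character is trivial on `B` -/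
def Ann {W : Type*} [AddCommGroup W] [Module F W] (β : W →ₗ[F] W →ₗ[F] F) (ψ : AddChar F ℂ)
    (B : AddSubgroup W) : AddSubgroup W where
  carrier := {τ | ∀ u ∈ B, ψ (β τ u) = 1}
  zero_mem' u _ := by rw [map_zero, LinearMap.zero_apply, AddChar.map_zero_eq_one]
  add_mem' := by
    intro s t hs ht u hu
    rw [map_add, LinearMap.add_apply, AddChar.map_add_eq_mul, hs u hu, ht u hu, mul_one]
  neg_mem' := by
    intro s hs u hu
    have h := hs (-u) (B.neg_mem hu)
    rw [map_neg, LinearMap.neg_apply]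
    rwa [map_neg] at h

theorem mem_Ann {W : Type*} [AddCommGroup W] [Module F W] {β : W →ₗ[F] W →ₗ[F] F} {ψ : AddChar F ℂ}
    {B : AddSubgroup W} {τ : W} : τ ∈ Ann β ψ B ↔ ∀ u ∈ B, ψ (β τ u) = 1 := Iff.rfl

theorem card_quot_le_Ann {W : Type*} [AddCommGroup W] [Module F W] [Finite W] (β : W →ₗ[F] W →ₗ[F] F)
    (hβ : ∀ w, β w = 0 → w = 0) {ψ : AddChar F ℂ} {a : F} (ha : ψ a ≠ 1) (B : AddSubgroup W) :
    Nat.card (W ⧸ B) ≤ Nat.card (Ann β ψ B) := by
  classical
  have : Finite (W ⧸ B) := Quotient.finite _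
  have h1 : Nat.card (W ⧸ B) = Nat.card (AddChar (W ⧸ B) ℂ) := by
    have := Fintype.ofFinite (W ⧸ B)
    rw [Nat.card_eq_fintype_card, Nat.card_eq_fintype_card]
    exact (AddChar.card_eq (α := W ⧸ B)).symm
  rw [h1]
  let f : AddChar (W ⧸ B) ℂ → Ann β ψ B := fun χ =>
    ⟨(chi_surjective β hβ ha (χ.compAddMonoidHom (QuotientAddGroup.mk' B))).choose, by
      intro u hu
      rw [← (chi_surjective β hβ ha (χ.compAddMonoidHom (QuotientAddGroup.mk' B))).choose_spec u]
      show χ (QuotientAddGroup.mk u) = 1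
      rw [(QuotientAddGroup.eq_zero_iff u).2 hu, AddChar.map_zero_eq_one]⟩
  refine Nat.card_le_card_of_injective f fun χ χ' h => ?_
  have h2 := (chi_surjective β hβ ha (χ.compAddMonoidHom (QuotientAddGroup.mk' B))).choose_spec
  have h3 := (chi_surjective β hβ ha (χ'.compAddMonoidHom (QuotientAddGroup.mk' B))).choose_spec
  have h4 : (chi_surjective β hβ ha (χ.compAddMonoidHom (QuotientAddGroup.mk' B))).choose =
    (chi_surjective β hβ ha (χ'.compAddMonoidHom (QuotientAddGroup.mk' B))).choose := congrArg Subtype.val h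
  refine DFunLike.ext _ _ fun w => ?_
  obtain ⟨w, rfl⟩ := QuotientAddGroup.mk_surjective w
  have h5 := h2 w
  rw [h4, ← h3 w] at h5
  exact h5

/-- groups of pairs of rank at most one -/
theorem pure_cases {U : Type*} [AddCommGroup U] [Module F U] [Finite F] [Finite U] [FiniteDimensional F U]
    (h3 : 3 ≤ finrank F U) (A : AddSubgroup (U × U)) (hA : Nat.card F ^ finrank F U ≤ Nat.card A)
    (hp : ∀ τ ∈ A, ∃ (α β : F) (v : U), τ = (α • v, β • v)) :
    ∃ α β : F, (α ≠ 0 ∨ β ≠ 0) ∧ ∀ τ : U × U, τ ∈ A ↔ ∃ v : U, τ = (α • v, β • v) := by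
  classical
  have hq : 1 < Nat.card F := Finite.one_lt_card
  have hq2 : Nat.card F ^ 2 < Nat.card A := lt_of_lt_of_le (Nat.pow_lt_pow_right hq (by omega)) hA
  -- a nonzero element
  obtain ⟨τ, hτ, hτ0⟩ : ∃ τ ∈ A, τ ≠ 0 := by
    by_contra hcon
    push Not at hcon
    have : A = ⊥ := eq_bot_iff.2 fun u hu => AddSubgroup.mem_bot.2 (hcon u hu)
    rw [this, AddSubgroup.card_bot] at hq2
    have := Nat.one_le_pow 2 (Nat.card F) (by omega)
    omega
  obtain ⟨α, β, v, hτv⟩ := hp τ hτ
  have hv0 : v ≠ 0 := by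
    rintro rfl
    exact hτ0 (by rw [hτv, smul_zero, smul_zero]; rfl)
  have hαβ : α ≠ 0 ∨ β ≠ 0 := by
    by_contra hcon
    push Not at hcon
    exact hτ0 (by rw [hτv, hcon.1, hcon.2, zero_smul]; rfl)
  -- determinant zero condition
  have hdet : ∀ (γ δ : F) (w : U), (γ • w, δ • w) ∈ A → w ∉ F ∙ v → w ≠ 0 → α * δ = β * γ := by
    intro γ δ w hw hwv hw0
    obtain ⟨a, c, u, hu⟩ := hp _ (A.add_mem hτ hw)
    rw [hτv] at hu
    have h1 : α • v + γ • w = a • u := congrArg Prod.fst hu
    have h2 : β • v + δ • w = c • u := congrArg Prod.snd hu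
    have h3 : (c * α - a * β) • v + (c * γ - a * δ) • w = 0 := by
      have : (c * α - a * β) • v + (c * γ - a * δ) • w = c • (α • v + γ • w) - a • (β • v + δ • w) := by module
      rw [this, h1, h2, smul_smul, smul_smul, mul_comm, sub_self]
    have h4 : c * γ - a * δ = 0 := by
      by_contra h
      apply hwv
      refine Submodule.mem_span_singleton.2 ⟨-((c * γ - a * δ)⁻¹ * (c * α - a * β)), ?_⟩
      have h5 : (c * γ - a * δ)⁻¹ • ((c * α - a * β) • v + (c * γ - a * δ) • w) = 0 := by rw [h3, smul_zero]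
      rw [smul_add, smul_smul, smul_smul, inv_mul_cancel₀ h, one_smul] at h5
      rw [neg_smul]
      exact (eq_neg_of_add_eq_zero_right h5).symm
    have h5 : c * α - a * β = 0 := by
      rw [h4, zero_smul, add_zero] at h3
      exact (smul_eq_zero.1 h3).resolve_right hv0
    by_cases ha : a = 0
    · by_cases hc : c = 0
      · exfalso
        rw [ha, zero_smul] at h1
        rw [hc, zero_smul] at h2
        have h6 : ∀ s t : F, s • v + t • w = 0 → t = 0 := by
          intro s t h
          by_contra ht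
          apply hwv
          refine Submodule.mem_span_singleton.2 ⟨-(t⁻¹ * s), ?_⟩
          have h7 : t⁻¹ • (s • v + t • w) = 0 := by rw [h, smul_zero]
          rw [smul_add, smul_smul, smul_smul, inv_mul_cancel₀ ht, one_smul] at h7
          rw [neg_smul]
          exact (eq_neg_of_add_eq_zero_right h7).symm
        have h7 := h6 _ _ h1
        have h8 := h6 _ _ h2
        rw [h7, zero_smul, add_zero] at h1
        rw [h8, zero_smul, add_zero] at h2
        rcases hαβ with h | h
        · exact h ((smul_eq_zero.1 h1).resolve_right hv0)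
        · exact h ((smul_eq_zero.1 h2).resolve_right hv0)
      · rw [ha] at h4 h5
        have h6 : γ = 0 := by
          have : c * γ = 0 := by linear_combination h4
          exact (mul_eq_zero.1 this).resolve_left hc
        have h7 : α = 0 := by
          have : c * α = 0 := by linear_combination h5
          exact (mul_eq_zero.1 this).resolve_left hc
        rw [h6, h7]; ring
    · have h6 : a * (α * δ - β * γ) = 0 := by linear_combination (-α) * h4 + γ * h5
      exact sub_eq_zero.1 ((mul_eq_zero.1 h6).resolve_left ha)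
  -- some element is not in `F² ⊗ v`
  obtain ⟨w, γ, δ, hw, hwv, hγδ⟩ : ∃ (w : U) (γ δ : F), (γ • w, δ • w) ∈ A ∧ w ∉ F ∙ v ∧ (γ ≠ 0 ∨ δ ≠ 0) := by
    by_contra hcon
    push Not at hcon
    have h1 : ∀ τ ∈ A, ∃ s t : F, τ = (s • v, t • v) := by
      intro τ' hτ'
      obtain ⟨a, c, u, hu⟩ := hp τ' hτ'
      by_cases hac : a = 0 ∧ c = 0
      · exact ⟨0, 0, by rw [hu, hac.1, hac.2, zero_smul, zero_smul]⟩
      · by_cases huv : u ∈ F ∙ v
        · obtain ⟨d, rfl⟩ := Submodule.mem_span_singleton.1 huv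
          exact ⟨a * d, c * d, by rw [hu, smul_smul, smul_smul]⟩
        · have := hcon u a c (hu ▸ hτ') huv
          exfalso
          by_cases ha : a = 0
          · exact hac ⟨ha, this.2⟩
          · exact ha this.1
    have h2 : Nat.card A ≤ Nat.card (F × F) := by
      choose! s t hst using h1
      refine Nat.card_le_card_of_injective (fun τ : A => (s τ, t τ)) fun τ τ' h => ?_
      apply Subtype.ext
      rw [hst τ τ.2, hst τ' τ'.2]
      rw [show s τ = s τ' from congrArg Prod.fst h, show t τ = t τ' from congrArg Prod.snd h]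
    rw [Nat.card_prod, ← pow_two] at h2
    omega
  have hw0 : w ≠ 0 := fun h => hwv (h ▸ Submodule.zero_mem _)
  have hd1 := hdet γ δ w hw hwv hw0
  -- all elements are of the form `(α u, β u)`
  have hsub : ∀ τ ∈ A, ∃ u : U, τ = (α • u, β • u) := by
    have key : ∀ (s t : F) (u : U), α * t = β * s → ∃ u' : U, ((s • u, t • u) : U × U) = (α • u', β • u') := by
      intro s t u h
      rcases hαβ with h0 | h0
      · refine ⟨(α⁻¹ * s) • u, ?_⟩
        rw [smul_smul, smul_smul]
        have e1 : α * (α⁻¹ * s) = s := by field_simp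
        have e2 : β * (α⁻¹ * s) = t := by
          rw [mul_left_comm, ← h]; field_simp
        rw [e1, e2]
      · refine ⟨(β⁻¹ * t) • u, ?_⟩
        rw [smul_smul, smul_smul]
        have e1 : β * (β⁻¹ * t) = t := by field_simp
        have e2 : α * (β⁻¹ * t) = s := by
          rw [mul_left_comm, h]; field_simp
        rw [e1, e2]
    intro τ' hτ'
    obtain ⟨s, t, u, hu⟩ := hp τ' hτ'
    by_cases hu0 : u = 0
    · exact ⟨0, by rw [hu, hu0, smul_zero, smul_zero, smul_zero, smul_zero]⟩
    by_cases huv : u ∈ F ∙ v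
    · obtain ⟨d, rfl⟩ := Submodule.mem_span_singleton.1 huv
      have hd0 : d ≠ 0 := by
        rintro rfl
        exact hu0 (zero_smul _ _)
      -- add the element with `w`
      obtain ⟨a, c, u', hu'⟩ := hp _ (A.add_mem hτ' hw)
      rw [hu] at hu'
      have h1 : s • d • v + γ • w = a • u' := congrArg Prod.fst hu'
      have h2 : t • d • v + δ • w = c • u' := congrArg Prod.snd hu'
      have h3 : (c * s * d - a * t * d) • v + (c * γ - a * δ) • w = 0 := by
        have : (c * s * d - a * t * d) • v + (c * γ - a * δ) • w =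
          c • (s • d • v + γ • w) - a • (t • d • v + δ • w) := by module
        rw [this, h1, h2, smul_smul, smul_smul, mul_comm, sub_self]
      have h4 : c * γ - a * δ = 0 := by
        by_contra h
        apply hwv
        refine Submodule.mem_span_singleton.2 ⟨-((c * γ - a * δ)⁻¹ * (c * s * d - a * t * d)), ?_⟩
        have h5 : (c * γ - a * δ)⁻¹ • ((c * s * d - a * t * d) • v + (c * γ - a * δ) • w) = 0 := by rw [h3, smul_zero]
        rw [smul_add, smul_smul, smul_smul, inv_mul_cancel₀ h, one_smul] at h5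
        rw [neg_smul]
        exact (eq_neg_of_add_eq_zero_right h5).symm
      have h5 : c * s - a * t = 0 := by
        rw [h4, zero_smul, add_zero] at h3
        have := (smul_eq_zero.1 h3).resolve_right hv0
        have h6 : d * (c * s - a * t) = 0 := by linear_combination this
        exact (mul_eq_zero.1 h6).resolve_left hd0
      have h6 : γ * t = δ * s := by
        by_cases ha : a = 0
        · by_cases hc : c = 0
          · exfalso
            rw [ha, zero_smul] at h1
            rw [hc, zero_smul] at h2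
            have h6 : ∀ s t : F, s • v + t • w = 0 → t = 0 := by
              intro s t h
              by_contra ht
              apply hwv
              refine Submodule.mem_span_singleton.2 ⟨-(t⁻¹ * s), ?_⟩
              have h7 : t⁻¹ • (s • v + t • w) = 0 := by rw [h, smul_zero]
              rw [smul_add, smul_smul, smul_smul, inv_mul_cancel₀ ht, one_smul] at h7
              rw [neg_smul]
              exact (eq_neg_of_add_eq_zero_right h7).symm
            have h7 : γ = 0 := h6 (s * d) γ (by rw [mul_smul]; exact h1)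
            have h8 : δ = 0 := h6 (t * d) δ (by rw [mul_smul]; exact h2)
            rcases hγδ with h | h
            · exact h h7
            · exact h h8
          · rw [ha] at h4 h5
            have h6 : γ = 0 := by
              have : c * γ = 0 := by linear_combination h4
              exact (mul_eq_zero.1 this).resolve_left hc
            have h7 : s = 0 := by
              have : c * s = 0 := by linear_combination h5
              exact (mul_eq_zero.1 this).resolve_left hc
            rw [h6, h7]; ring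
        · have h6 : a * (γ * t - δ * s) = 0 := by linear_combination (-γ) * h5 + s * h4
          exact sub_eq_zero.1 ((mul_eq_zero.1 h6).resolve_left ha)
      -- (s,t) ∥ (γ,δ) ∥ (α,β)
      have h7 : α * t = β * s := by
        rcases hγδ with h0 | h0
        · have : γ * (α * t - β * s) = 0 := by linear_combination α * h6 + s * hd1
          exact sub_eq_zero.1 ((mul_eq_zero.1 this).resolve_left h0)
        · have : δ * (α * t - β * s) = 0 := by linear_combination β * h6 + t * hd1
          exact sub_eq_zero.1 ((mul_eq_zero.1 this).resolve_left h0)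
      rw [hu]
      exact key s t _ h7
    · rw [hu]
      exact key s t u (hdet s t u (hu ▸ hτ') huv hu0)
  -- cardinality
  have hcard : Nat.card U = Nat.card F ^ finrank F U := Module.natCard_eq_pow_finrank
  choose! g hg using hsub
  have hginj : Function.Injective (fun τ : A => g τ) := by
    intro τ τ' h
    apply Subtype.ext
    rw [hg τ τ.2, hg τ' τ'.2]
    rw [show g τ = g τ' from h]
  have hgsurj : Function.Surjective (fun τ : A => g τ) := by
    have := Fintype.ofFinite A
    have := Fintype.ofFinite U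
    refine ((Fintype.bijective_iff_injective_and_card _).2 ⟨hginj, ?_⟩).2
    rw [← Nat.card_eq_fintype_card, ← Nat.card_eq_fintype_card]
    exact le_antisymm (Nat.card_le_card_of_injective _ hginj) (hcard ▸ hA)
  refine ⟨α, β, hαβ, fun τ' => ⟨fun h => ⟨g τ', hg τ' h⟩, ?_⟩⟩
  rintro ⟨u, rfl⟩
  obtain ⟨τ', hτ'⟩ := hgsurj u
  have h1 := hg τ' τ'.2
  change g τ' = u at hτ'
  rw [hτ'] at h1
  rw [← h1]
  exact τ'.2

end Cfsg.Agent.Lib.Coop
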