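import Mathlib
import Cfsg.Agent.Lib.CoopP
import Cfsg.Agent.Lib.ClSL2

set_option autoImplicit false
set_option linter.unusedSectionVars false

/-!
The group `GL₂ × O(U)` acting on pairs of vectors.
-/

namespace Cfsg.Agent.Lib.Coop

open QuadraticMap Module Cfsg.Agent.Lib.Quad Cfsg.Agent.Lib.ClOrthSiegel Cfsg.Agent.Lib.OrthNd
  Cfsg.Agent.Lib.OrthMax
open scoped Pointwise

variable {F V : Type*} [Field F] [AddCommGroup V] [Module F V] [FiniteDimensional F V]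
  {Q : QuadraticForm F V}

/-- a totally singular pair with partners -/
structure Fr (Q : QuadraticForm F V) (z b z' b' : V) : Prop where
  hz : Q z = 0
  hb : Q b = 0
  hzb : polar Q z b = 0
  hz' : Q z' = 0
  hb' : Q b' = 0
  hzz' : polar Q z z' = 1
  hbb' : polar Q b b' = 1
  hbz' : polar Q b z' = 0
  hzb' : polar Q z b' = 0
  hz'b' : polar Q z' b' = 0

theorem E_line (hQ : Nd Q) {z b : V} (hz : Q z = 0) (hb : Q b = 0) (hzb : polar Q z b = 0) (α β γ δ : F) :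
    E hQ (α • z + γ • b) (β • z + δ • b) = E hQ z ((α * δ - β * γ) • b) := by
  have hQa : ∀ s t : F, Q (s • z + t • b) = 0 := by
    intro s t
    rw [Q_add, Q_smul, Q_smul, polar_smul_left, polar_smul_right, hzb, hz, hb]; simp
  have hp : polar Q (α • z + γ • b) (β • z + δ • b) = 0 := by
    rw [polar_add_right, polar_smul_right, polar_smul_right, polar_add_left, polar_add_left, polar_smul_left,
      polar_smul_left, polar_smul_left, polar_smul_left, hzb, polar_comm Q b z, hzb, polar_self', polar_self',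
      hz, hb]
    simp
  ext x
  rw [E_apply hQ (hQa _ _) hp, E_apply hQ hz (by rw [polar_smul_right, hzb, smul_zero]), hQa, Q_smul, hb]
  simp only [polar_add_left, polar_smul_left, smul_eq_mul, mul_zero, zero_mul, zero_smul, sub_zero]
  module

section

variable [Finite F] (hQ : Nd Q) (hgen : GenHyp Q)

include hQ hgen in
/-- the elements acting on the line by a matrix of determinant 1 -/
theorem exists_SL {z b z' b' : V} (h : Fr Q z b z' b') {α β γ δ : F} (hd : α * δ - β * γ = 1) :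
    ∃ g : ↥(Om Q), (g : V ≃ₗ[F] V) z = α • z + γ • b ∧ (g : V ≃ₗ[F] V) b = β • z + δ • b ∧
      ∀ x, polar Q z x = 0 → polar Q b x = 0 → polar Q z' x = 0 → polar Q b' x = 0 → (g : V ≃ₗ[F] V) x = x := by
  have hzz : polar Q z z = 0 := by rw [polar_self', h.hz, mul_zero]
  have hbb : polar Q b b = 0 := by rw [polar_self', h.hb, mul_zero]
  have hbz : polar Q b z = 0 := by rw [polar_comm]; exact h.hzb
  have hz'z : polar Q z' z = 1 := by rw [polar_comm]; exact h.hzz'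
  have hb'b : polar Q b' b = 1 := by rw [polar_comm]; exact h.hbb'
  have hz'b : polar Q z' b = 0 := by rw [polar_comm]; exact h.hbz'
  have hb'z : polar Q b' z = 0 := by rw [polar_comm]; exact h.hzb'
  -- transvections
  have T1 : ∀ c : F, ∃ g : ↥(Om Q), (g : V ≃ₗ[F] V) z = z ∧ (g : V ≃ₗ[F] V) b = b + c • z ∧
      ∀ x, polar Q z x = 0 → polar Q b x = 0 → polar Q z' x = 0 → polar Q b' x = 0 → (g : V ≃ₗ[F] V) x = x := by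
    intro c
    have hp : polar Q z ((-c) • b') = 0 := by rw [polar_smul_right, h.hzb', smul_zero]
    refine ⟨EG hQ hgen z ((-c) • b'), ?_, ?_, fun x h1 h2 h3 h4 => ?_⟩
    · rw [coe_EG, E_apply hQ h.hz hp, hzz, polar_smul_left, hb'z]; simp
    · rw [coe_EG, E_apply hQ h.hz hp, h.hzb, polar_smul_left, hb'b]; simp
    · rw [coe_EG, E_apply hQ h.hz hp, h1, polar_smul_left, h4]; simp
  have T2 : ∀ c : F, ∃ g : ↥(Om Q), (g : V ≃ₗ[F] V) z = z + c • b ∧ (g : V ≃ₗ[F] V) b = b ∧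
      ∀ x, polar Q z x = 0 → polar Q b x = 0 → polar Q z' x = 0 → polar Q b' x = 0 → (g : V ≃ₗ[F] V) x = x := by
    intro c
    have hp : polar Q b ((-c) • z') = 0 := by rw [polar_smul_right, h.hbz', smul_zero]
    refine ⟨EG hQ hgen b ((-c) • z'), ?_, ?_, fun x h1 h2 h3 h4 => ?_⟩
    · rw [coe_EG, E_apply hQ h.hb hp, hbz, polar_smul_left, hz'z]; simp
    · rw [coe_EG, E_apply hQ h.hb hp, hbb, polar_smul_left, hz'b]; simp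
    · rw [coe_EG, E_apply hQ h.hb hp, h2, polar_smul_left, h3]; simp
  -- the case `γ ≠ 0`
  have main : ∀ α β γ δ : F, α * δ - β * γ = 1 → γ ≠ 0 → ∃ g : ↥(Om Q), (g : V ≃ₗ[F] V) z = α • z + γ • b ∧
      (g : V ≃ₗ[F] V) b = β • z + δ • b ∧
      ∀ x, polar Q z x = 0 → polar Q b x = 0 → polar Q z' x = 0 → polar Q b' x = 0 → (g : V ≃ₗ[F] V) x = x := by
    intro α β γ δ hd hγ
    obtain ⟨g1, h1z, h1b, h1x⟩ := T1 ((α - 1) * γ⁻¹)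
    obtain ⟨g2, h2z, h2b, h2x⟩ := T2 γ
    obtain ⟨g3, h3z, h3b, h3x⟩ := T1 ((δ - 1) * γ⁻¹)
    have hmul : ∀ x, ((g1 * g2 * g3 : ↥(Om Q)) : V ≃ₗ[F] V) x = (g1 : V ≃ₗ[F] V) ((g2 : V ≃ₗ[F] V) ((g3 : V ≃ₗ[F] V) x)) :=
      fun x => rfl
    refine ⟨g1 * g2 * g3, ?_, ?_, fun x e1 e2 e3 e4 => ?_⟩
    · rw [hmul, h3z, h2z, map_add, map_smul, h1z, h1b]
      have : z + γ • (b + ((α - 1) * γ⁻¹) • z) = (1 + (α - 1) * (γ⁻¹ * γ)) • z + γ • b := by module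
      rw [this, inv_mul_cancel₀ hγ]
      congr 2
      ring
    · rw [hmul, h3b, map_add, map_smul, h2b, h2z, map_add, map_smul, map_add, map_smul, h1b, h1z]
      have e : b + ((α - 1) * γ⁻¹) • z + ((δ - 1) * γ⁻¹) • (z + γ • (b + ((α - 1) * γ⁻¹) • z)) =
        ((α - 1) * γ⁻¹ + (δ - 1) * γ⁻¹ + (δ - 1) * (α - 1) * γ⁻¹ * (γ * γ⁻¹)) • z +
          (1 + (δ - 1) * (γ⁻¹ * γ)) • b := by module
      rw [e, inv_mul_cancel₀ hγ, mul_inv_cancel₀ hγ]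
      have e1 : (α - 1) * γ⁻¹ + (δ - 1) * γ⁻¹ + (δ - 1) * (α - 1) * γ⁻¹ * 1 = β := by
        have : (α - 1) * γ⁻¹ + (δ - 1) * γ⁻¹ + (δ - 1) * (α - 1) * γ⁻¹ * 1 = (α * δ - 1) * γ⁻¹ := by ring
        rw [this, ← hd]
        have : α * δ - (α * δ - β * γ) = β * γ := by ring
        rw [this, mul_assoc, mul_inv_cancel₀ hγ, mul_one]
      rw [e1]
      congr 2
      ring
    · rw [hmul, h3x x e1 e2 e3 e4, h2x x e1 e2 e3 e4, h1x x e1 e2 e3 e4]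
  by_cases hγ : γ = 0
  · have hα : α ≠ 0 := by
      rintro rfl
      rw [hγ] at hd
      exact zero_ne_one (by linear_combination hd)
    obtain ⟨g1, h1z, h1b, h1x⟩ := T2 (-1 : F)
    obtain ⟨g2, h2z, h2b, h2x⟩ := main α β α (β + δ) (by rw [hγ] at hd; linear_combination hd) hα
    refine ⟨g1 * g2, ?_, ?_, fun x e1 e2 e3 e4 => ?_⟩
    · show (g1 : V ≃ₗ[F] V) ((g2 : V ≃ₗ[F] V) z) = _
      rw [h2z, map_add, map_smul, map_smul, h1z, h1b, hγ]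
      module
    · show (g1 : V ≃ₗ[F] V) ((g2 : V ≃ₗ[F] V) b) = _
      rw [h2b, map_add, map_smul, map_smul, h1z, h1b]
      module
    · show (g1 : V ≃ₗ[F] V) ((g2 : V ≃ₗ[F] V) x) = _
      rw [h2x x e1 e2 e3 e4, h1x x e1 e2 e3 e4]
  · exact main α β γ δ hd hγ

include hQ hgen in
/-- the elements acting on the line by a matrix of square determinant -/
theorem exists_GL {z b z' b' : V} (h : Fr Q z b z' b') {α β γ δ s : F} (hd : α * δ - β * γ = s) (hs0 : s ≠ 0)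
    (hs : IsSquare s) :
    ∃ g : ↥(Om Q), (g : V ≃ₗ[F] V) z = α • z + γ • b ∧ (g : V ≃ₗ[F] V) b = β • z + δ • b ∧
      ∀ x, polar Q z x = 0 → polar Q b x = 0 → polar Q z' x = 0 → polar Q b' x = 0 → (g : V ≃ₗ[F] V) x = x := by
  have hz'b : polar Q z' b = 0 := by rw [polar_comm]; exact h.hbz'
  obtain ⟨g, hgz, hgb, hgx⟩ := exists_SL hQ hgen h (α := s⁻¹ * α) (β := s⁻¹ * β) (γ := γ) (δ := δ) (by
    have : s⁻¹ * α * δ - s⁻¹ * β * γ = s⁻¹ * (α * δ - β * γ) := by ring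
    rw [this, hd, inv_mul_cancel₀ hs0])
  obtain ⟨t, ht, htz, -, htx⟩ := exists_torus hQ hgen h.hz h.hz' h.hzz' hs0 hs
  have htb : t b = b := htx b h.hzb hz'b
  refine ⟨⟨t, ht⟩ * g, ?_, ?_, fun x e1 e2 e3 e4 => ?_⟩
  · show t ((g : V ≃ₗ[F] V) z) = _
    rw [hgz, map_add, map_smul, map_smul, htz, htb, smul_smul]
    congr 2
    field_simp
  · show t ((g : V ≃ₗ[F] V) b) = _
    rw [hgb, map_add, map_smul, map_smul, htz, htb, smul_smul]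
    congr 2
    field_simp
  · show t ((g : V ≃ₗ[F] V) x) = _
    rw [hgx x e1 e2 e3 e4, htx x e1 e3]

variable {X : Type*} [MulAction ↥(Om Q) X]

/-- the action on pairs -/
def actM (g : V ≃ₗ[F] V) (α β γ δ : F) {U : Submodule F V} (hg : ∀ u, g u ∈ U ↔ u ∈ U) (u : ↥U × ↥U) : ↥U × ↥U :=
  (⟨α • g u.1 + β • g u.2, U.add_mem (U.smul_mem _ ((hg _).2 u.1.2)) (U.smul_mem _ ((hg _).2 u.2.2))⟩,
   ⟨γ • g u.1 + δ • g u.2, U.add_mem (U.smul_mem _ ((hg _).2 u.1.2)) (U.smul_mem _ ((hg _).2 u.2.2))⟩)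

theorem beta_actM {g : V ≃ₗ[F] V} (hgO : g ∈ O Q) (α β γ δ : F) {U : Submodule F V}
    (hg : ∀ u, g u ∈ U ↔ u ∈ U) (u v : ↥U × ↥U) :
    beta Q U (actM g α β γ δ hg u) (actM g α β γ δ hg v) = (α * δ - β * γ) * beta Q U u v := by
  rw [beta_apply, beta_apply]
  show polar Q (α • g u.1 + β • g u.2) (γ • g v.1 + δ • g v.2) -
    polar Q (γ • g u.1 + δ • g u.2) (α • g v.1 + β • g v.2) = _
  simp only [polar_add_left, polar_add_right, polar_smul_left, polar_smul_right, smul_eq_mul, O_polar hgO]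
  ring

theorem conj_e {z b : V} (hz : Q z = 0) (hb : Q b = 0) (hzb : polar Q z b = 0)
    (U : Submodule F V) (hU : ∀ u ∈ U, polar Q z u = 0 ∧ polar Q b u = 0)
    (g : ↥(Om Q)) {α β γ δ : F} (hgz : (g : V ≃ₗ[F] V) z = α • z + γ • b) (hgb : (g : V ≃ₗ[F] V) b = β • z + δ • b)
    (hg : ∀ u, (g : V ≃ₗ[F] V) u ∈ U ↔ u ∈ U) (u : ↥U × ↥U) :
    ∃ s ∈ (hd hQ hgen hz hb hzb U hU).Z, g * (hd hQ hgen hz hb hzb U hU).e u =
      s * (hd hQ hgen hz hb hzb U hU).e (actM (g : V ≃ₗ[F] V) α β γ δ hg u) * g := by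
  set D := hd hQ hgen hz hb hzb U hU with hD
  obtain ⟨u, v⟩ := u
  have key : ∀ (σ τ : F) (w : ↥U), ∃ s ∈ D.Z, EG hQ hgen (σ • z + τ • b) (w : V) = s * D.e (σ • w, τ • w) := by
    intro σ τ w
    refine ⟨(EG hQ hgen z ((Q (w : V) * σ * τ) • b))⁻¹, inv_mem ((mem_zhom hQ hgen hzb).2 ⟨_, rfl⟩), ?_⟩
    rw [eq_inv_mul_iff_mul_eq]
    exact Subtype.ext (E_comb hQ hz hb hzb (hU w w.2).1 (hU w w.2).2 σ τ).symm
  obtain ⟨s1, hs1, h1⟩ := key α γ ⟨(g : V ≃ₗ[F] V) u, (hg u).2 u.2⟩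
  obtain ⟨s2, hs2, h2⟩ := key β δ ⟨(g : V ≃ₗ[F] V) v, (hg v).2 v.2⟩
  have h3 : g * D.e (u, v) * g⁻¹ = EG hQ hgen (α • z + γ • b) ((g : V ≃ₗ[F] V) u) *
      EG hQ hgen (β • z + δ • b) ((g : V ≃ₗ[F] V) v) := by
    rw [← hgz, ← hgb, ← EG_conj, ← EG_conj]
    show g * (EG hQ hgen z (u : V) * EG hQ hgen b (v : V)) * g⁻¹ = _
    group
  obtain ⟨s3, hs3, h4⟩ := D.mul (α • (⟨(g : V ≃ₗ[F] V) u, (hg u).2 u.2⟩ : ↥U), γ • (⟨(g : V ≃ₗ[F] V) u, (hg u).2 u.2⟩ : ↥U))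
    (β • (⟨(g : V ≃ₗ[F] V) v, (hg v).2 v.2⟩ : ↥U), δ • (⟨(g : V ≃ₗ[F] V) v, (hg v).2 v.2⟩ : ↥U))
  have h5 : (α • (⟨(g : V ≃ₗ[F] V) u, (hg u).2 u.2⟩ : ↥U), γ • (⟨(g : V ≃ₗ[F] V) u, (hg u).2 u.2⟩ : ↥U)) +
      (β • (⟨(g : V ≃ₗ[F] V) v, (hg v).2 v.2⟩ : ↥U), δ • (⟨(g : V ≃ₗ[F] V) v, (hg v).2 v.2⟩ : ↥U)) =
      actM (g : V ≃ₗ[F] V) α β γ δ hg (u, v) := rfl
  rw [h5] at h4
  refine ⟨s1 * s2 * s3, mul_mem (mul_mem hs1 hs2) hs3, ?_⟩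
  rw [← mul_inv_eq_iff_eq_mul, h3]
  change EG hQ hgen (α • z + γ • b) ((⟨(g : V ≃ₗ[F] V) u, (hg u).2 u.2⟩ : ↥U) : V) *
    EG hQ hgen (β • z + δ • b) ((⟨(g : V ≃ₗ[F] V) v, (hg v).2 v.2⟩ : ↥U) : V) = _
  rw [h1, h2]
  have h6 := D.comm (α • (⟨(g : V ≃ₗ[F] V) u, (hg u).2 u.2⟩ : ↥U), γ • (⟨(g : V ≃ₗ[F] V) u, (hg u).2 u.2⟩ : ↥U)) s2 hs2
  have h7 := D.comm (actM (g : V ≃ₗ[F] V) α β γ δ hg (u, v)) s3 hs3
  calc _ = s1 * (D.e (α • (⟨(g : V ≃ₗ[F] V) u, (hg u).2 u.2⟩ : ↥U), γ • (⟨(g : V ≃ₗ[F] V) u, (hg u).2 u.2⟩ : ↥U)) * s2) *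
        D.e (β • (⟨(g : V ≃ₗ[F] V) v, (hg v).2 v.2⟩ : ↥U), δ • (⟨(g : V ≃ₗ[F] V) v, (hg v).2 v.2⟩ : ↥U)) := by group
    _ = s1 * s2 * (D.e (α • (⟨(g : V ≃ₗ[F] V) u, (hg u).2 u.2⟩ : ↥U), γ • (⟨(g : V ≃ₗ[F] V) u, (hg u).2 u.2⟩ : ↥U)) *
        D.e (β • (⟨(g : V ≃ₗ[F] V) v, (hg v).2 v.2⟩ : ↥U), δ • (⟨(g : V ≃ₗ[F] V) v, (hg v).2 v.2⟩ : ↥U))) := by
          rw [h6]; group
    _ = _ := by rw [h4, h7]; group

theorem conj_Z {z b : V} (hz : Q z = 0) (hb : Q b = 0) (hzb : polar Q z b = 0)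
    (g : ↥(Om Q)) {α β γ δ : F} (hgz : (g : V ≃ₗ[F] V) z = α • z + γ • b)
    (hgb : (g : V ≃ₗ[F] V) b = β • z + δ • b) (c : F) :
    g * EG hQ hgen z (c • b) = EG hQ hgen z ((c * (α * δ - β * γ)) • b) * g := by
  rw [← mul_inv_eq_iff_eq_mul, EG_conj, map_smul, hgz, hgb]
  apply Subtype.ext
  show E hQ (α • z + γ • b) (c • (β • z + δ • b)) = E hQ z ((c * (α * δ - β * γ)) • b)
  rw [smul_add, smul_smul, smul_smul, E_line hQ hz hb hzb]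
  congr 2
  ring

theorem bar_actM {z b : V} (hz : Q z = 0) (hb : Q b = 0) (hzb : polar Q z b = 0)
    (U : Submodule F V) (hU : ∀ u ∈ U, polar Q z u = 0 ∧ polar Q b u = 0) (x : X)
    (g : ↥(Om Q)) {α β γ δ : F} (hgz : (g : V ≃ₗ[F] V) z = α • z + γ • b) (hgb : (g : V ≃ₗ[F] V) b = β • z + δ • b)
    (hg : ∀ u, (g : V ≃ₗ[F] V) u ∈ U ↔ u ∈ U) {u : ↥U × ↥U}
    (hu : u ∈ (hd hQ hgen hz hb hzb U hU).bar x) :
    actM (g : V ≃ₗ[F] V) α β γ δ hg u ∈ (hd hQ hgen hz hb hzb U hU).bar (g • x) := by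
  set D := hd hQ hgen hz hb hzb U hU with hD
  obtain ⟨z₀, hz₀, h⟩ := hu
  obtain ⟨s, hs, h1⟩ := conj_e hQ hgen hz hb hzb U hU g hgz hgb hg u
  rw [← hD] at h1 hs
  obtain ⟨c, hc⟩ := (mem_zhom hQ hgen hzb).1 hz₀
  have h2 := conj_Z hQ hgen hz hb hzb g hgz hgb c
  refine ⟨s⁻¹ * EG hQ hgen z ((c * (α * δ - β * γ)) • b), mul_mem (inv_mem hs) ((mem_zhom hQ hgen hzb).2 ⟨_, rfl⟩), ?_⟩
  have h3 : D.e (actM (g : V ≃ₗ[F] V) α β γ δ hg u) * g = s⁻¹ * (g * D.e u) := by rw [h1]; group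
  calc D.e (actM (g : V ≃ₗ[F] V) α β γ δ hg u) • g • x = (s⁻¹ * (g * D.e u)) • x := by rw [← mul_smul, h3]
    _ = s⁻¹ • g • D.e u • x := by rw [mul_smul, mul_smul]
    _ = s⁻¹ • (g * EG hQ hgen z (c • b)) • x := by rw [h, hc, mul_smul g]
    _ = _ := by
      rw [h2]
      generalize EG hQ hgen z ((c * (α * δ - β * γ)) • b) = e
      rw [mul_smul, mul_smul]

/-- the action of `O(U)` and `GL₂` on characters -/
theorem Ann_actM {z b : V} (hz : Q z = 0) (hb : Q b = 0) (hzb : polar Q z b = 0)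
    (U : Submodule F V) (hU : ∀ u ∈ U, polar Q z u = 0 ∧ polar Q b u = 0) (x : X)
    (g : ↥(Om Q)) {α β γ δ : F} (hgz : (g : V ≃ₗ[F] V) z = α • z + γ • b) (hgb : (g : V ≃ₗ[F] V) b = β • z + δ • b)
    (hg : ∀ u, (g : V ≃ₗ[F] V) u ∈ U ↔ u ∈ U) (hdet : α * δ - β * γ ≠ 0) {ψ : AddChar F ℂ} {τ τ' : ↥U × ↥U}
    (hτ : τ ∈ Ann (beta Q U) ψ ((hd hQ hgen hz hb hzb U hU).bar x))
    (hττ' : (α * δ - β * γ) • τ' = actM (g : V ≃ₗ[F] V) α β γ δ hg τ) :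
    τ' ∈ Ann (beta Q U) ψ ((hd hQ hgen hz hb hzb U hU).bar (g • x)) := by
  intro u' hu'
  set Δ := α * δ - β * γ with hΔ
  -- the inverse
  have hinv : ∀ x, ((g⁻¹ : ↥(Om Q)) : V ≃ₗ[F] V) ((g : V ≃ₗ[F] V) x) = x :=
    fun x => (g : V ≃ₗ[F] V).symm_apply_apply x
  have hinv' : ∀ x, (g : V ≃ₗ[F] V) (((g⁻¹ : ↥(Om Q)) : V ≃ₗ[F] V) x) = x :=
    fun x => (g : V ≃ₗ[F] V).apply_symm_apply x
  have hg' : ∀ u, ((g⁻¹ : ↥(Om Q)) : V ≃ₗ[F] V) u ∈ U ↔ u ∈ U := by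
    intro u
    rw [← hg, hinv']
  have hgz' : ((g⁻¹ : ↥(Om Q)) : V ≃ₗ[F] V) z = (Δ⁻¹ * δ) • z + (-(Δ⁻¹ * γ)) • b := by
    have h1 : (g : V ≃ₗ[F] V) ((Δ⁻¹ * δ) • z + (-(Δ⁻¹ * γ)) • b) = z := by
      rw [map_add, map_smul, map_smul, hgz, hgb]
      have : (Δ⁻¹ * δ) • (α • z + γ • b) + (-(Δ⁻¹ * γ)) • (β • z + δ • b) = (Δ⁻¹ * (α * δ - β * γ)) • z := by module
      rw [this, ← hΔ, inv_mul_cancel₀ hdet, one_smul]
    rw [← h1, hinv]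
    rw [h1]
  have hgb' : ((g⁻¹ : ↥(Om Q)) : V ≃ₗ[F] V) b = (-(Δ⁻¹ * β)) • z + (Δ⁻¹ * α) • b := by
    have h1 : (g : V ≃ₗ[F] V) ((-(Δ⁻¹ * β)) • z + (Δ⁻¹ * α) • b) = b := by
      rw [map_add, map_smul, map_smul, hgz, hgb]
      have : (-(Δ⁻¹ * β)) • (α • z + γ • b) + (Δ⁻¹ * α) • (β • z + δ • b) = (Δ⁻¹ * (α * δ - β * γ)) • b := by module
      rw [this, ← hΔ, inv_mul_cancel₀ hdet, one_smul]
    nth_rewrite 1 [← h1]
    rw [hinv]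
  have h2 := bar_actM hQ hgen hz hb hzb U hU (g • x) g⁻¹ hgz' hgb' hg' hu'
  rw [inv_smul_smul] at h2
  obtain ⟨u, hu⟩ : ∃ u, u = actM ((g⁻¹ : ↥(Om Q)) : V ≃ₗ[F] V) (Δ⁻¹ * δ) (-(Δ⁻¹ * β)) (-(Δ⁻¹ * γ)) (Δ⁻¹ * α) hg' u' :=
    ⟨_, rfl⟩
  rw [← hu] at h2
  have h3 : u' = actM (g : V ≃ₗ[F] V) α β γ δ hg u := by
    rw [hu]
    ext
    · show (u'.1 : V) = α • (g : V ≃ₗ[F] V) ((Δ⁻¹ * δ) • ((g⁻¹ : ↥(Om Q)) : V ≃ₗ[F] V) (u'.1 : V) +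
          (-(Δ⁻¹ * β)) • ((g⁻¹ : ↥(Om Q)) : V ≃ₗ[F] V) (u'.2 : V)) +
        β • (g : V ≃ₗ[F] V) ((-(Δ⁻¹ * γ)) • ((g⁻¹ : ↥(Om Q)) : V ≃ₗ[F] V) (u'.1 : V) +
          (Δ⁻¹ * α) • ((g⁻¹ : ↥(Om Q)) : V ≃ₗ[F] V) (u'.2 : V))
      rw [map_add, map_smul, map_smul, map_add, map_smul, map_smul, hinv', hinv']
      have : α • ((Δ⁻¹ * δ) • (u'.1 : V) + (-(Δ⁻¹ * β)) • (u'.2 : V)) +
        β • ((-(Δ⁻¹ * γ)) • (u'.1 : V) + (Δ⁻¹ * α) • (u'.2 : V)) = (Δ⁻¹ * (α * δ - β * γ)) • (u'.1 : V) := by module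
      rw [this, ← hΔ, inv_mul_cancel₀ hdet, one_smul]
    · show (u'.2 : V) = γ • (g : V ≃ₗ[F] V) ((Δ⁻¹ * δ) • ((g⁻¹ : ↥(Om Q)) : V ≃ₗ[F] V) (u'.1 : V) +
          (-(Δ⁻¹ * β)) • ((g⁻¹ : ↥(Om Q)) : V ≃ₗ[F] V) (u'.2 : V)) +
        δ • (g : V ≃ₗ[F] V) ((-(Δ⁻¹ * γ)) • ((g⁻¹ : ↥(Om Q)) : V ≃ₗ[F] V) (u'.1 : V) +
          (Δ⁻¹ * α) • ((g⁻¹ : ↥(Om Q)) : V ≃ₗ[F] V) (u'.2 : V))
      rw [map_add, map_smul, map_smul, map_add, map_smul, map_smul, hinv', hinv']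
      have : γ • ((Δ⁻¹ * δ) • (u'.1 : V) + (-(Δ⁻¹ * β)) • (u'.2 : V)) +
        δ • ((-(Δ⁻¹ * γ)) • (u'.1 : V) + (Δ⁻¹ * α) • (u'.2 : V)) = (Δ⁻¹ * (α * δ - β * γ)) • (u'.2 : V) := by module
      rw [this, ← hΔ, inv_mul_cancel₀ hdet, one_smul]
  have h4 : Δ * beta Q U τ' u' = Δ * beta Q U τ u := by
    have e1 : Δ * beta Q U τ' u' = beta Q U (Δ • τ') u' := by
      rw [map_smul, LinearMap.smul_apply, smul_eq_mul]
    rw [e1, hττ', h3, beta_actM (Om_le g.2)]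
  have h5 := mul_left_cancel₀ hdet h4
  rw [h5]
  exact hτ u h2

theorem Cx_actM {z b : V} (hz : Q z = 0) (hb : Q b = 0) (hzb : polar Q z b = 0) (x : X)
    (g : ↥(Om Q)) {α β γ δ : F} (hgz : (g : V ≃ₗ[F] V) z = α • z + γ • b)
    (hgb : (g : V ≃ₗ[F] V) b = β • z + δ • b)
    (hdet : α * δ - β * γ ≠ 0) (hx : Cx hQ hgen hzb x ≠ ⊤) : Cx hQ hgen hzb (g • x) ≠ ⊤ := by
  intro h
  apply hx
  rw [eq_top_iff]
  intro c _
  rw [mem_Cx]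
  have h1 : c * (α * δ - β * γ) ∈ Cx hQ hgen hzb (g • x) := by rw [h]; exact AddSubgroup.mem_top _
  rw [mem_Cx, ← mul_smul, ← conj_Z hQ hgen hz hb hzb g hgz hgb c, mul_smul] at h1
  exact MulAction.injective _ h1

/-- counting with families of pairs -/
theorem card_family [Finite X] {p : ℕ} [Fact p.Prime] [CharP F p] {z b : V} (hz : Q z = 0) (hb : Q b = 0)
    (hzb : polar Q z b = 0) (U : Submodule F V) (hU : ∀ u ∈ U, polar Q z u = 0 ∧ polar Q b u = 0)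
    (hUn : NDs Q U) (x : X) (hx : Cx hQ hgen hzb x ≠ ⊤) {ψ : AddChar F ℂ} {a : F} (hψ : ψ a ≠ 1)
    (S : Finset (↥U × ↥U))
    (hS : ∀ τ' ∈ S, ∃ g : ↥(Om Q), ∃ α β γ δ : F, ∃ hg : ∀ u, (g : V ≃ₗ[F] V) u ∈ U ↔ u ∈ U,
      (g : V ≃ₗ[F] V) z = α • z + γ • b ∧ (g : V ≃ₗ[F] V) b = β • z + δ • b ∧ α * δ - β * γ ≠ 0 ∧
      ∃ τ ∈ Ann (beta Q U) ψ ((hd hQ hgen hz hb hzb U hU).bar x),
        (α * δ - β * γ) • τ' = actM (g : V ≃ₗ[F] V) α β γ δ hg τ) :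
    p * S.card ≤ Nat.card X := by
  classical
  have : Finite V := Module.finite_of_finite F
  have h1 := (hd hQ hgen hz hb hzb U hU).card_char_ge (X := X)
    (S.image fun w => ψ.compAddMonoidHom (beta Q U w).toAddMonoidHom) p (by
      intro χ hχ
      obtain ⟨τ', hτ', rfl⟩ := Finset.mem_image.1 hχ
      obtain ⟨g, α, β, γ, δ, hg, hgz, hgb, hdet, τ, hτ, h⟩ := hS τ' hτ'
      refine ⟨g • x, card_orbit_Z hQ hgen hz hb hzb U hU _ (Cx_actM hQ hgen hz hb hzb x g hgz hgb hdet hx), ?_⟩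
      exact Ann_actM hQ hgen hz hb hzb U hU x g hgz hgb hg hdet hτ h)
  rwa [Finset.card_image_of_injective _ (chi_injective (beta Q U) (beta_nondeg hUn) hψ)] at h1

end

end Cfsg.Agent.Lib.Coop
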