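import Mathlib
import Cfsg.Agent.Lib.CoopQ

set_option autoImplicit false
set_option linter.unusedSectionVars false

/-!
Dimension seven: pairs of rank two.
-/

namespace Cfsg.Agent.Lib.Coop

open QuadraticMap Module Cfsg.Agent.Lib.Quad Cfsg.Agent.Lib.ClOrthSiegel Cfsg.Agent.Lib.OrthNd
  Cfsg.Agent.Lib.OrthMax
open scoped Pointwise MatrixGroups

variable {F V : Type*} [Field F] [AddCommGroup V] [Module F V] [FiniteDimensional F V]
  {Q : QuadraticForm F V}

theorem Fr.li {z b z' b' : V} (h : Fr Q z b z' b') : LinearIndependent F ![z, b, z', b'] := by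
  rw [Fintype.linearIndependent_iff]
  intro g hg
  rw [Fin.sum_univ_four] at hg
  simp only [Matrix.cons_val_zero, Matrix.cons_val_one, Matrix.cons_val] at hg
  have hzz : polar Q z z = 0 := by rw [polar_self', h.hz, mul_zero]
  have hbb : polar Q b b = 0 := by rw [polar_self', h.hb, mul_zero]
  have hz'z' : polar Q z' z' = 0 := by rw [polar_self', h.hz', mul_zero]
  have hb'b' : polar Q b' b' = 0 := by rw [polar_self', h.hb', mul_zero]
  have hbz : polar Q b z = 0 := by rw [polar_comm]; exact h.hzb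
  have hz'z : polar Q z' z = 1 := by rw [polar_comm]; exact h.hzz'
  have hb'b : polar Q b' b = 1 := by rw [polar_comm]; exact h.hbb'
  have hz'b : polar Q z' b = 0 := by rw [polar_comm]; exact h.hbz'
  have hb'z : polar Q b' z = 0 := by rw [polar_comm]; exact h.hzb'
  have hb'z' : polar Q b' z' = 0 := by rw [polar_comm]; exact h.hz'b'
  have key : ∀ y : V, g 0 * polar Q y z + g 1 * polar Q y b + g 2 * polar Q y z' + g 3 * polar Q y b' = 0 := by
    intro y
    have h1 : polar Q y (g 0 • z + g 1 • b + g 2 • z' + g 3 • b') = 0 := by rw [hg, polar_zero_right]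
    simpa only [polar_add_right, polar_smul_right, smul_eq_mul] using h1
  have k1 := key z
  have k2 := key b
  have k3 := key z'
  have k4 := key b'
  rw [hzz, h.hzb, h.hzz', h.hzb'] at k1
  rw [hbz, hbb, h.hbz', h.hbb'] at k2
  rw [hz'z, hz'b, hz'z', h.hz'b'] at k3
  rw [hb'z, hb'b, hb'z', hb'b'] at k4
  intro i
  fin_cases i
  · show g 0 = 0
    linear_combination k3
  · show g 1 = 0
    linear_combination k4
  · show g 2 = 0
    linear_combination k1
  · show g 3 = 0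
    linear_combination k2

theorem Fr.finrank_U (hQ : Nd Q) {z b z' b' : V} (h : Fr Q z b z' b') {U : Submodule F V}
    (hUm : ∀ x, x ∈ U ↔ polar Q z x = 0 ∧ polar Q b x = 0 ∧ polar Q z' x = 0 ∧ polar Q b' x = 0) :
    finrank F U + 4 = finrank F V := by
  have h1 : U = perp Q (Submodule.span F (Set.range ![z, b, z', b'])) := by
    ext x
    rw [hUm, mem_perp_span]
    constructor
    · rintro ⟨e1, e2, e3, e4⟩ w ⟨i, rfl⟩
      fin_cases i
      · exact e1
      · exact e2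
      · exact e3
      · exact e4
    · intro h2
      exact ⟨h2 z ⟨0, rfl⟩, h2 b ⟨1, rfl⟩, h2 z' ⟨2, rfl⟩, h2 b' ⟨3, rfl⟩⟩
  have h2 := hQ.finrank_add_finrank_perp (Submodule.span F (Set.range ![z, b, z', b']))
  rw [finrank_span_eq_card h.li, Fintype.card_fin, ← h1] at h2
  omega

/-- a Siegel element moves a plane -/
theorem plane_move (hQ : Nd Q) (h2 : (2 : F) ≠ 0) {y w : V} (hQy : Q y = 0) (hyw : polar Q y w = 0) (hw : Q w ≠ 0)
    {P : Submodule F V} (hyP : y ∉ P) {p : V} (hp : p ∈ P) (hyp : polar Q y p ≠ 0) {c : F}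
    (hst : ∀ x ∈ P, E hQ y (c • w) x ∈ P) : c = 0 := by
  by_contra hc
  have hyc : polar Q y (c • w) = 0 := by rw [polar_smul_right, hyw, smul_zero]
  have hyy : polar Q y y = 0 := by rw [polar_self', hQy, mul_zero]
  have hcy : polar Q (c • w) y = 0 := by rw [polar_comm]; exact hyc
  have hcc : polar Q (c • w) (c • w) = 2 * (c * c * Q w) := by rw [polar_self', Q_smul]
  obtain ⟨u, hu⟩ : ∃ u, u = c • w := ⟨_, rfl⟩
  rw [← hu] at hyc hcy hcc hst
  set v := E hQ y u p - p with hv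
  have hvP : v ∈ P := P.sub_mem (hst p hp) hp
  have hv' : v = polar Q y p • u - polar Q u p • y - (Q u * polar Q y p) • y := by
    rw [hv, E_apply hQ hQy hyc]; abel
  have h3 := P.sub_mem (hst v hvP) hvP
  have h4 : E hQ y u v - v = (-(polar Q y p * (2 * (c * c * Q w)))) • y := by
    rw [E_apply hQ hQy hyc]
    have e1 : polar Q y v = 0 := by
      rw [hv', polar_sub_right, polar_sub_right, polar_smul_right, polar_smul_right, polar_smul_right, hyc, hyy]
      simp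
    have e2 : polar Q u v = polar Q y p * (2 * (c * c * Q w)) := by
      rw [hv', polar_sub_right, polar_sub_right, polar_smul_right, polar_smul_right,
        polar_smul_right, hcc, hcy]
      simp
    rw [e1, e2]
    simp only [zero_smul, add_zero, mul_zero, sub_zero, neg_smul]
    abel
  rw [h4] at h3
  apply hyP
  refine (Submodule.smul_mem_iff _ ?_).1 h3
  rw [neg_ne_zero]
  exact mul_ne_zero hyp (mul_ne_zero h2 (mul_ne_zero (mul_ne_zero hc hc) hw))

section

variable [Finite F] (hQ : Nd Q) (hgen : GenHyp Q) {X : Type*} [MulAction ↥(Om Q) X]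

include hQ hgen in
theorem exists_setup (h2 : (2 : F) ≠ 0) {U : Submodule F V} (hUn : NDs Q U) (hU3 : finrank F U = 3)
    {u₁ u₂ : V} (hu₁ : u₁ ∈ U) (hu₂ : u₂ ∈ U) :
    ∃ y ∈ U, Q y = 0 ∧ y ∉ Submodule.span F {u₁, u₂} ∧ ∃ w ∈ U, polar Q y w = 0 ∧ Q w ≠ 0 ∧
      (LinearIndependent F ![u₁, u₂] → ∃ p ∈ Submodule.span F {u₁, u₂}, polar Q y p ≠ 0) := by
  have hP : Submodule.span F {u₁, u₂} ≤ U := by
    rw [Submodule.span_le]
    rintro x hx
    rcases hx with rfl | hx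
    · exact hu₁
    · rw [Set.mem_singleton_iff.1 hx]; exact hu₂
  obtain ⟨y, hy, hQy, hyP⟩ : ∃ y ∈ U, Q y = 0 ∧ y ∉ Submodule.span F {u₁, u₂} := by
    by_contra hcon
    push Not at hcon
    obtain ⟨e, he, f, hf, hQe, hQf, hef⟩ := exists_pair_in hQ hUn (by omega)
    have h1 := le_of_sing he hf hQe hQf hef hcon
    have h3 := Submodule.finrank_mono h1
    have h4 := finrank_pair_le (F := F) u₁ u₂
    omega
  have hy0 : y ≠ 0 := fun h => hyP (h ▸ Submodule.zero_mem _)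
  obtain ⟨y', hy', hQy', hyy'⟩ := exists_partner hQ hUn hy hy0 hQy
  set W := U ⊓ perp Q (Submodule.span F {y, y'}) with hW
  have hWn : NDs Q W := nds_cut hQ hUn hy hy' hQy hQy' hyy'
  obtain ⟨w, hw, w', hw', hww'⟩ := nds_pair hWn (cut_ne_bot hQ (by omega) y y')
  obtain ⟨w₀, hw₀, hQw₀⟩ : ∃ w ∈ W, Q w ≠ 0 := by
    by_contra hcon
    push Not at hcon
    exact hww' (polar_of_ts hcon hw hw')
  have h1 := mem_cut.1 hw₀
  refine ⟨y, hy, hQy, hyP, w₀, h1.1, h1.2.1, hQw₀, fun hli => ?_⟩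
  by_contra hcon
  push Not at hcon
  -- all of `U` is orthogonal to `y`
  have h3 : finrank F (Submodule.span F {u₁, u₂}) = 2 := by
    have := finrank_span_eq_card hli
    rw [Fintype.card_fin] at this
    have e : Set.range ![u₁, u₂] = {u₁, u₂} := by
      ext v
      simp only [Set.mem_range, Fin.exists_fin_two, Matrix.cons_val_zero, Matrix.cons_val_one,
        Set.mem_insert_iff, Set.mem_singleton_iff]
      constructor
      · rintro (h | h)
        · exact Or.inl h.symm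
        · exact Or.inr h.symm
      · rintro (h | h)
        · exact Or.inl h.symm
        · exact Or.inr h.symm
    rwa [e] at this
  have h4 : Submodule.span F {u₁, u₂} ⊔ (F ∙ y) = U := by
    apply Submodule.eq_of_le_of_finrank_le
    · refine sup_le hP ?_
      rw [Submodule.span_singleton_le_iff_mem]; exact hy
    · have h5 := Submodule.finrank_sup_add_finrank_inf_eq (Submodule.span F {u₁, u₂}) (F ∙ y)
      have h6 : Submodule.span F {u₁, u₂} ⊓ (F ∙ y) = ⊥ := by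
        rw [eq_bot_iff]
        rintro x ⟨hx1, hx2⟩
        obtain ⟨c, rfl⟩ := Submodule.mem_span_singleton.1 hx2
        rw [Submodule.mem_bot]
        by_contra hc
        have hc0 : c ≠ 0 := by
          rintro rfl
          exact hc (zero_smul _ _)
        exact hyP ((Submodule.smul_mem_iff _ hc0).1 hx1)
      rw [h6, finrank_bot, finrank_span_singleton hy0, h3] at h5
      omega
  have h5 : y' ∈ Submodule.span F {u₁, u₂} ⊔ (F ∙ y) := by rw [h4]; exact hy'
  obtain ⟨a, ha, b, hb, hab⟩ := Submodule.mem_sup.1 h5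
  obtain ⟨c, rfl⟩ := Submodule.mem_span_singleton.1 hb
  rw [← hab, polar_add_right, hcon a ha, polar_smul_right, polar_self', hQy] at hyy'
  simp at hyy'

/-- the number of pairs in the orbit of a pair of rank two -/
theorem card_rank2 [Finite X] {p : ℕ} [Fact p.Prime] [CharP F p] (h2 : (2 : F) ≠ 0) {z b z' b' : V}
    (h : Fr Q z b z' b') (U : Submodule F V) (hU : ∀ u ∈ U, polar Q z u = 0 ∧ polar Q b u = 0)
    (hUm : ∀ x, x ∈ U ↔ polar Q z x = 0 ∧ polar Q b x = 0 ∧ polar Q z' x = 0 ∧ polar Q b' x = 0)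
    (hUn : NDs Q U) (hU3 : finrank F U = 3) (x : X) (hx : Cx hQ hgen h.hzb x ≠ ⊤) {ψ : AddChar F ℂ} {a : F}
    (hψ : ψ a ≠ 1) {τ : ↥U × ↥U} (hτ : τ ∈ Ann (beta Q U) ψ ((hd hQ hgen h.hz h.hb h.hzb U hU).bar x))
    (hli : LinearIndependent F ![(τ.1 : V), (τ.2 : V)]) :
    p * (Nat.card F * (Nat.card F ^ 2 - 1) * (nsq F * Nat.card F) + 1) ≤ Nat.card X := by
  classical
  have : Finite V := Module.finite_of_finite F
  have hFF := Fintype.ofFinite F
  obtain ⟨y, hy, hQy, hyP, w, hw, hyw, hQw, hp⟩ := exists_setup hQ hgen h2 hUn hU3 τ.1.2 τ.2.2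
  obtain ⟨p₀, hp₀, hyp₀⟩ := hp hli
  set P := Submodule.span F {(τ.1 : V), (τ.2 : V)} with hP
  have hτ1 : (τ.1 : V) ∈ P := Submodule.subset_span (by simp)
  have hτ2 : (τ.2 : V) ∈ P := Submodule.subset_span (by simp)
  -- Siegel elements stabilise `U`
  have hEU : ∀ (c : F) (u : V), E hQ y (c • w) u ∈ U ↔ u ∈ U := fun c u =>
    (EG_mem_Gf hQ hgen U hU hy (U.smul_mem c hw)).2.2 u
  have hyc : ∀ c : F, polar Q y (c • w) = 0 := fun c => by rw [polar_smul_right, hyw, smul_zero]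
  let f : SL(2, F) × ({s : F // s ≠ 0 ∧ IsSquare s} × F) → ↥U × ↥U := fun m =>
    actM (E hQ y (m.2.2 • w)) (m.2.1.1 * (m.1 : Matrix (Fin 2) (Fin 2) F) 0 0)
      (m.2.1.1 * (m.1 : Matrix (Fin 2) (Fin 2) F) 0 1) ((m.1 : Matrix (Fin 2) (Fin 2) F) 1 0)
      ((m.1 : Matrix (Fin 2) (Fin 2) F) 1 1) (hEU m.2.2) τ
  have hcoef : ∀ s t : F, s • (τ.1 : V) + t • (τ.2 : V) = 0 → s = 0 ∧ t = 0 := by
    intro s t hst
    have := LinearIndependent.pair_iff.1 hli s t hst
    exact this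
  have hf : Function.Injective f := by
    rintro ⟨M, ⟨⟨s, hs0, hs⟩, c⟩⟩ ⟨M', ⟨⟨s', hs'0, hs'⟩, c'⟩⟩ hff
    obtain ⟨m00, e00⟩ : ∃ m, m = (M : Matrix (Fin 2) (Fin 2) F) 0 0 := ⟨_, rfl⟩
    obtain ⟨m01, e01⟩ : ∃ m, m = (M : Matrix (Fin 2) (Fin 2) F) 0 1 := ⟨_, rfl⟩
    obtain ⟨m10, e10⟩ : ∃ m, m = (M : Matrix (Fin 2) (Fin 2) F) 1 0 := ⟨_, rfl⟩
    obtain ⟨m11, e11⟩ : ∃ m, m = (M : Matrix (Fin 2) (Fin 2) F) 1 1 := ⟨_, rfl⟩
    obtain ⟨n00, d00⟩ : ∃ m, m = (M' : Matrix (Fin 2) (Fin 2) F) 0 0 := ⟨_, rfl⟩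
    obtain ⟨n01, d01⟩ : ∃ m, m = (M' : Matrix (Fin 2) (Fin 2) F) 0 1 := ⟨_, rfl⟩
    obtain ⟨n10, d10⟩ : ∃ m, m = (M' : Matrix (Fin 2) (Fin 2) F) 1 0 := ⟨_, rfl⟩
    obtain ⟨n11, d11⟩ : ∃ m, m = (M' : Matrix (Fin 2) (Fin 2) F) 1 1 := ⟨_, rfl⟩
    have hdM : m00 * m11 - m01 * m10 = 1 := by
      rw [e00, e01, e10, e11, ← Matrix.det_fin_two]; exact M.2
    have hdM' : n00 * n11 - n01 * n10 = 1 := by
      rw [d00, d01, d10, d11, ← Matrix.det_fin_two]; exact M'.2
    have h1 : (s * m00) • E hQ y (c • w) τ.1 + (s * m01) • E hQ y (c • w) τ.2 =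
        (s' * n00) • E hQ y (c' • w) τ.1 + (s' * n01) • E hQ y (c' • w) τ.2 := by
      rw [e00, e01, d00, d01]
      exact congrArg (fun t : ↥U × ↥U => (t.1 : V)) hff
    have h3 : m10 • E hQ y (c • w) τ.1 + m11 • E hQ y (c • w) τ.2 =
        n10 • E hQ y (c' • w) τ.1 + n11 • E hQ y (c' • w) τ.2 := by
      rw [e10, e11, d10, d11]
      exact congrArg (fun t : ↥U × ↥U => (t.2 : V)) hff
    -- apply the inverse of the first Siegel element
    have hinv : ∀ v : V, E hQ y ((-c) • w) (E hQ y (c • w) v) = v := by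
      intro v
      rw [← LinearEquiv.mul_apply, E_add hQ (hyc _) (hyc _), ← add_smul, neg_add_cancel, zero_smul, E_zero]; rfl
    have hcomp : ∀ v : V, E hQ y ((-c) • w) (E hQ y (c' • w) v) = E hQ y ((-c + c') • w) v := by
      intro v
      rw [← LinearEquiv.mul_apply, E_add hQ (hyc _) (hyc _), ← add_smul]
    have h1' := congrArg (E hQ y ((-c) • w)) h1
    have h3' := congrArg (E hQ y ((-c) • w)) h3
    simp only [map_add, map_smul, hinv, hcomp] at h1' h3'
    -- the second Siegel element stabilises `P`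
    have hA : (s' * n00) • E hQ y ((-c + c') • w) τ.1 + (s' * n01) • E hQ y ((-c + c') • w) τ.2 ∈ P := by
      rw [← h1']; exact P.add_mem (P.smul_mem _ hτ1) (P.smul_mem _ hτ2)
    have hB : n10 • E hQ y ((-c + c') • w) τ.1 + n11 • E hQ y ((-c + c') • w) τ.2 ∈ P := by
      rw [← h3']; exact P.add_mem (P.smul_mem _ hτ1) (P.smul_mem _ hτ2)
    have hE1 : E hQ y ((-c + c') • w) τ.1 ∈ P := by
      have := P.sub_mem (P.smul_mem n11 hA) (P.smul_mem (s' * n01) hB)
      have e : n11 • ((s' * n00) • E hQ y ((-c + c') • w) τ.1 + (s' * n01) • E hQ y ((-c + c') • w) τ.2) -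
        (s' * n01) • (n10 • E hQ y ((-c + c') • w) τ.1 + n11 • E hQ y ((-c + c') • w) τ.2) =
        (s' * (n00 * n11 - n01 * n10)) • E hQ y ((-c + c') • w) τ.1 := by module
      rw [e, hdM', mul_one] at this
      exact (Submodule.smul_mem_iff _ hs'0).1 this
    have hE2 : E hQ y ((-c + c') • w) τ.2 ∈ P := by
      have := P.sub_mem (P.smul_mem (s' * n00) hB) (P.smul_mem n10 hA)
      have e : (s' * n00) • (n10 • E hQ y ((-c + c') • w) τ.1 + n11 • E hQ y ((-c + c') • w) τ.2) -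
        n10 • ((s' * n00) • E hQ y ((-c + c') • w) τ.1 + (s' * n01) • E hQ y ((-c + c') • w) τ.2) =
        (s' * (n00 * n11 - n01 * n10)) • E hQ y ((-c + c') • w) τ.2 := by module
      rw [e, hdM', mul_one] at this
      exact (Submodule.smul_mem_iff _ hs'0).1 this
    have hcc : -c + c' = 0 := by
      refine plane_move hQ h2 hQy hyw hQw hyP hp₀ hyp₀ fun x hx => ?_
      obtain ⟨i, j, rfl⟩ := Submodule.mem_span_pair.1 hx
      rw [map_add, map_smul, map_smul]
      exact P.add_mem (P.smul_mem _ hE1) (P.smul_mem _ hE2)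
    have hcc' : c = c' := by linear_combination -hcc
    rw [hcc, zero_smul, E_zero] at h1' h3'
    have h1'' : (s * m00 - s' * n00) • (τ.1 : V) + (s * m01 - s' * n01) • (τ.2 : V) = 0 := by
      have : (s * m00 - s' * n00) • (τ.1 : V) + (s * m01 - s' * n01) • (τ.2 : V) =
        ((s * m00) • (τ.1 : V) + (s * m01) • (τ.2 : V)) - ((s' * n00) • (τ.1 : V) + (s' * n01) • (τ.2 : V)) := by
          module
      rw [this, h1']
      exact sub_self _
    have h3'' : (m10 - n10) • (τ.1 : V) + (m11 - n11) • (τ.2 : V) = 0 := by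
      have : (m10 - n10) • (τ.1 : V) + (m11 - n11) • (τ.2 : V) =
        (m10 • (τ.1 : V) + m11 • (τ.2 : V)) - (n10 • (τ.1 : V) + n11 • (τ.2 : V)) := by module
      rw [this, h3']
      exact sub_self _
    obtain ⟨k1, k2⟩ := hcoef _ _ h1''
    obtain ⟨k3, k4⟩ := hcoef _ _ h3''
    have k3' : m10 = n10 := sub_eq_zero.1 k3
    have k4' : m11 = n11 := sub_eq_zero.1 k4
    have hss : s = s' := by
      have e1 : s = (s * m00) * m11 - (s * m01) * m10 := by linear_combination (-s) * hdM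
      have e2 : s' = (s' * n00) * n11 - (s' * n01) * n10 := by linear_combination (-s') * hdM'
      rw [e1, e2, sub_eq_zero.1 k1, sub_eq_zero.1 k2, k3', k4']
    subst hss
    have k1' : m00 = n00 := mul_left_cancel₀ hs0 (sub_eq_zero.1 k1)
    have k2' : m01 = n01 := mul_left_cancel₀ hs0 (sub_eq_zero.1 k2)
    have hMM : M = M' := by
      ext i j
      fin_cases i <;> fin_cases j
      · exact e00.symm.trans (k1'.trans d00)
      · exact e01.symm.trans (k2'.trans d01)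
      · exact e10.symm.trans (k3'.trans d10)
      · exact e11.symm.trans (k4'.trans d11)
    subst hMM
    subst hcc'
    rfl
  have hfin := Fintype.ofFinite (SL(2, F) × ({s : F // s ≠ 0 ∧ IsSquare s} × F))
  have hcard : (Finset.univ.image f).card = Nat.card F * (Nat.card F ^ 2 - 1) * (nsq F * Nat.card F) := by
    rw [Finset.card_image_of_injective _ hf, Finset.card_univ, ← Nat.card_eq_fintype_card, Nat.card_prod,
      Nat.card_prod, Cfsg.Agent.Lib.ClSL2.card_SL2 (F := F) rfl, ← Nat.card_eq_fintype_card]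
    rfl
  have h0 : (0 : ↥U × ↥U) ∉ Finset.univ.image f := by
    intro h0
    obtain ⟨⟨M, ⟨⟨s, hs0, hs⟩, c⟩⟩, -, h4⟩ := Finset.mem_image.1 h0
    have h5 : E hQ y (c • w) ((M : Matrix (Fin 2) (Fin 2) F) 1 0 • (τ.1 : V) +
        (M : Matrix (Fin 2) (Fin 2) F) 1 1 • (τ.2 : V)) = 0 := by
      rw [map_add, map_smul, map_smul]
      exact congrArg (fun t : ↥U × ↥U => (t.2 : V)) h4
    obtain ⟨k1, k2⟩ := hcoef _ _ ((E hQ y (c • w)).map_eq_zero_iff.1 h5)
    have h6 := M.2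
    rw [Matrix.det_fin_two, k1, k2] at h6
    simp at h6
  rw [← hcard, ← Finset.card_insert_of_notMem h0]
  refine card_family hQ hgen h.hz h.hb h.hzb U hU hUn x hx hψ _ fun τ' hτ' => ?_
  rcases Finset.mem_insert.1 hτ' with rfl | hτ'
  · refine ⟨1, 1, 0, 0, 1, fun u => Iff.rfl, ?_, ?_, ?_, 0, AddSubgroup.zero_mem _, ?_⟩
    · show z = _
      simp
    · show b = _
      simp
    · simp
    · ext <;> simp [actM]
  · obtain ⟨⟨M, ⟨⟨s, hs0, hs⟩, c⟩⟩, -, rfl⟩ := Finset.mem_image.1 hτ'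
    have hdM : (M : Matrix (Fin 2) (Fin 2) F) 0 0 * (M : Matrix (Fin 2) (Fin 2) F) 1 1 -
        (M : Matrix (Fin 2) (Fin 2) F) 0 1 * (M : Matrix (Fin 2) (Fin 2) F) 1 0 = 1 := by
      rw [← Matrix.det_fin_two]; exact M.2
    have hdet : (M : Matrix (Fin 2) (Fin 2) F) 0 0 * (s⁻¹ * (M : Matrix (Fin 2) (Fin 2) F) 1 1) -
        (M : Matrix (Fin 2) (Fin 2) F) 0 1 * (s⁻¹ * (M : Matrix (Fin 2) (Fin 2) F) 1 0) = s⁻¹ := by
      linear_combination s⁻¹ * hdM
    have hsinv : IsSquare s⁻¹ := by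
      obtain ⟨r, rfl⟩ := hs
      exact ⟨r⁻¹, by rw [mul_inv]⟩
    obtain ⟨g, hgz, hgb, hgx⟩ := exists_GL hQ hgen h hdet (inv_ne_zero hs0) hsinv
    have hfixE : ∀ v : V, polar Q v y = 0 → polar Q v w = 0 → E hQ y (c • w) v = v := by
      intro v h5 h6
      rw [E_apply hQ hQy (hyc c), polar_comm Q y v, h5, polar_smul_left, polar_comm Q w v, h6]; simp
    have hEz := hfixE z (hU y hy).1 (hU w hw).1
    have hEb := hfixE b (hU y hy).2 (hU w hw).2
    have hgU : ∀ u ∈ U, (g : V ≃ₗ[F] V) u = u := by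
      intro u hu
      have h5 := (hUm u).1 hu
      exact hgx u h5.1 h5.2.1 h5.2.2.1 h5.2.2.2
    have hgU' : ∀ u, (g : V ≃ₗ[F] V) u ∈ U ↔ u ∈ U := by
      intro u
      constructor
      · intro hu
        have h5 := hgU _ hu
        have h6 := (g : V ≃ₗ[F] V).injective h5
        rwa [h6] at hu
      · intro hu; rw [hgU u hu]; exact hu
    refine ⟨EG hQ hgen y (c • w) * g, (M : Matrix (Fin 2) (Fin 2) F) 0 0, (M : Matrix (Fin 2) (Fin 2) F) 0 1,
      s⁻¹ * (M : Matrix (Fin 2) (Fin 2) F) 1 0, s⁻¹ * (M : Matrix (Fin 2) (Fin 2) F) 1 1, fun u => ?_, ?_, ?_, ?_, τ, hτ, ?_⟩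
    · show E hQ y (c • w) ((g : V ≃ₗ[F] V) u) ∈ U ↔ u ∈ U
      rw [hEU, hgU']
    · show E hQ y (c • w) ((g : V ≃ₗ[F] V) z) = _
      rw [hgz, map_add, map_smul, map_smul, hEz, hEb]
    · show E hQ y (c • w) ((g : V ≃ₗ[F] V) b) = _
      rw [hgb, map_add, map_smul, map_smul, hEz, hEb]
    · rw [hdet]; exact inv_ne_zero hs0
    · rw [hdet]
      have e1 : ∀ u : ↥U, ((EG hQ hgen y (c • w) * g : ↥(Om Q)) : V ≃ₗ[F] V) u = E hQ y (c • w) u := by
        intro u
        show E hQ y (c • w) ((g : V ≃ₗ[F] V) u) = _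
        rw [hgU u u.2]
      ext
      · show s⁻¹ • ((s * (M : Matrix (Fin 2) (Fin 2) F) 0 0) • E hQ y (c • w) τ.1 +
          (s * (M : Matrix (Fin 2) (Fin 2) F) 0 1) • E hQ y (c • w) τ.2) =
          (M : Matrix (Fin 2) (Fin 2) F) 0 0 • ((EG hQ hgen y (c • w) * g : ↥(Om Q)) : V ≃ₗ[F] V) τ.1 +
          (M : Matrix (Fin 2) (Fin 2) F) 0 1 • ((EG hQ hgen y (c • w) * g : ↥(Om Q)) : V ≃ₗ[F] V) τ.2
        rw [e1, e1, smul_add, smul_smul, smul_smul, inv_mul_cancel_left₀ hs0, inv_mul_cancel_left₀ hs0]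
      · show s⁻¹ • ((M : Matrix (Fin 2) (Fin 2) F) 1 0 • E hQ y (c • w) τ.1 +
          (M : Matrix (Fin 2) (Fin 2) F) 1 1 • E hQ y (c • w) τ.2) =
          (s⁻¹ * (M : Matrix (Fin 2) (Fin 2) F) 1 0) • ((EG hQ hgen y (c • w) * g : ↥(Om Q)) : V ≃ₗ[F] V) τ.1 +
          (s⁻¹ * (M : Matrix (Fin 2) (Fin 2) F) 1 1) • ((EG hQ hgen y (c • w) * g : ↥(Om Q)) : V ≃ₗ[F] V) τ.2
        rw [e1, e1, smul_add, smul_smul, smul_smul]

end

end Cfsg.Agent.Lib.Coop
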