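import Mathlib
import Cfsg.Agent.Lib.CoopR

set_option autoImplicit false
set_option linter.unusedSectionVars false

/-!
From the annihilator to the groups `bar x`; dimension seven.
-/

namespace Cfsg.Agent.Lib.Coop

open QuadraticMap Module Cfsg.Agent.Lib.Quad Cfsg.Agent.Lib.ClOrthSiegel Cfsg.Agent.Lib.OrthNd
  Cfsg.Agent.Lib.OrthMax
open scoped Pointwise MatrixGroups

variable {F V : Type*} [Field F] [AddCommGroup V] [Module F V] [FiniteDimensional F V]
  {Q : QuadraticForm F V}

/-- if the annihilator consists of pairs of rank at most one, then the group has the standard shape -/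
theorem shape_of_pure [Finite F] {U : Submodule F V} (hUn : NDs Q U) (h3 : 3 ≤ finrank F U)
    {ψ : AddChar F ℂ} {a : F} (hψ : ψ a ≠ 1) (B : AddSubgroup (↥U × ↥U))
    (hB : Nat.card F ^ finrank F U ≤ Nat.card ((↥U × ↥U) ⧸ B))
    (hp : ∀ τ ∈ Ann (beta Q U) ψ B, ¬ LinearIndependent F ![(τ.1 : V), (τ.2 : V)]) :
    ∃ α β : F, (α ≠ 0 ∨ β ≠ 0) ∧ ∀ u : ↥U × ↥U, u ∈ B ↔ ∃ v : ↥U, u = (α • v, β • v) := by
  classical
  have : Finite V := Module.finite_of_finite F
  have hle := card_quot_le_Ann (beta Q U) (beta_nondeg hUn) hψ B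
  obtain ⟨α, β, hαβ, hA⟩ := pure_cases h3 (Ann (beta Q U) ψ B) (hB.trans hle) (by
    intro τ hτ
    have h1 := hp τ hτ
    by_cases h0 : (τ.1 : V) = 0
    · refine ⟨0, 1, τ.2, Prod.ext (Subtype.ext ?_) (Subtype.ext ?_)⟩
      · show (τ.1 : V) = (0 : F) • (τ.2 : V)
        rw [h0, zero_smul]
      · show (τ.2 : V) = (1 : F) • (τ.2 : V)
        rw [one_smul]
    · rw [LinearIndependent.pair_iff' h0] at h1
      push Not at h1
      obtain ⟨c, hc⟩ := h1
      refine ⟨1, c, τ.1, Prod.ext (Subtype.ext ?_) (Subtype.ext ?_)⟩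
      · show (τ.1 : V) = (1 : F) • (τ.1 : V)
        rw [one_smul]
      · show (τ.2 : V) = c • (τ.1 : V)
        rw [hc])
  refine ⟨α, β, hαβ, ?_⟩
  have hcardU : Nat.card ↥U = Nat.card F ^ finrank F U := Module.natCard_eq_pow_finrank
  -- the subgroup `(α, β) ⊗ U`
  let g : ↥U →+ ↥U × ↥U :=
    { toFun := fun v => (α • v, β • v)
      map_zero' := by rw [smul_zero, smul_zero]; rfl
      map_add' := fun v w => by rw [smul_add, smul_add]; rfl }
  have hg : Function.Injective g := by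
    intro v w hvw
    have e1 : α • v = α • w := congrArg Prod.fst hvw
    have e2 : β • v = β • w := congrArg Prod.snd hvw
    rcases hαβ with h | h
    · exact smul_right_injective _ h e1
    · exact smul_right_injective _ h e2
  have hrange : ∀ u, u ∈ g.range ↔ ∃ v : ↥U, u = (α • v, β • v) := by
    intro u
    constructor
    · rintro ⟨v, rfl⟩; exact ⟨v, rfl⟩
    · rintro ⟨v, rfl⟩; exact ⟨v, rfl⟩
  have hcardg : Nat.card g.range = Nat.card F ^ finrank F U := by
    rw [← hcardU]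
    exact (Nat.card_congr (AddMonoidHom.ofInjective hg).toEquiv).symm
  have hAg : Ann (beta Q U) ψ B = g.range := by
    ext τ
    rw [hA, hrange]
  -- `B ≤ g.range`
  have h1 : B ≤ g.range := by
    intro u hu
    rw [hrange]
    have h2 : ∀ v : ↥U, polar Q (v : V) (α • (u.2 : V) - β • (u.1 : V)) = 0 := by
      intro v
      by_contra ht
      set t := polar Q (v : V) (α • (u.2 : V) - β • (u.1 : V)) with ht'
      have h3 : (α • ((a * t⁻¹) • v), β • ((a * t⁻¹) • v)) ∈ Ann (beta Q U) ψ B := (hA _).2 ⟨_, rfl⟩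
      have h4 := h3 u hu
      apply hψ
      rw [← h4]
      congr 1
      rw [beta_apply]
      show a = polar Q (α • ((a * t⁻¹) • (v : V))) u.2 - polar Q (β • ((a * t⁻¹) • (v : V))) u.1
      rw [polar_smul_left, polar_smul_left, polar_smul_left, polar_smul_left, smul_eq_mul, smul_eq_mul, smul_eq_mul,
        smul_eq_mul]
      have e : t = α * polar Q (v : V) u.2 - β * polar Q (v : V) u.1 := by
        rw [ht', polar_sub_right, polar_smul_right, polar_smul_right, smul_eq_mul, smul_eq_mul]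
      have e2 : α * (a * t⁻¹ * polar Q (v : V) u.2) - β * (a * t⁻¹ * polar Q (v : V) u.1) =
        a * (t⁻¹ * (α * polar Q (v : V) u.2 - β * polar Q (v : V) u.1)) := by ring
      rw [e2, ← e, inv_mul_cancel₀ ht, mul_one]
    have h5 : α • (u.2 : V) - β • (u.1 : V) = 0 := by
      have : α • (u.2 : V) - β • (u.1 : V) ∈ U ⊓ perp Q U :=
        ⟨U.sub_mem (U.smul_mem _ u.2.2) (U.smul_mem _ u.1.2), mem_perp'.2 fun v hv => by
          rw [polar_comm]; exact h2 ⟨v, hv⟩⟩
      rwa [show U ⊓ perp Q U = ⊥ from hUn, Submodule.mem_bot] at this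
    have h6 : α • u.2 = β • u.1 := Subtype.ext (sub_eq_zero.1 h5)
    rcases hαβ with h0 | h0
    · refine ⟨α⁻¹ • u.1, Prod.ext ?_ ?_⟩
      · show u.1 = α • α⁻¹ • u.1
        rw [smul_smul, mul_inv_cancel₀ h0, one_smul]
      · show u.2 = β • α⁻¹ • u.1
        rw [smul_comm, ← h6, smul_smul, inv_mul_cancel₀ h0, one_smul]
    · refine ⟨β⁻¹ • u.2, Prod.ext ?_ ?_⟩
      · show u.1 = α • β⁻¹ • u.2
        rw [smul_comm, h6, smul_smul, inv_mul_cancel₀ h0, one_smul]
      · show u.2 = β • β⁻¹ • u.2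
        rw [smul_smul, mul_inv_cancel₀ h0, one_smul]
  have h7 : Nat.card g.range ≤ Nat.card B := by
    rw [hcardg]
    have h8 := AddSubgroup.card_eq_card_quotient_mul_card_addSubgroup B
    rw [Nat.card_prod, hcardU] at h8
    rw [hAg, hcardg] at hle
    have h9 : 0 < Nat.card F ^ finrank F U := Nat.pow_pos Nat.card_pos
    by_contra hcon
    push Not at hcon
    have := Nat.mul_lt_mul_of_le_of_lt hle hcon h9
    omega
  have h8 : B = g.range := AddSubgroup.eq_of_le_of_card_ge h1 h7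
  intro u
  rw [h8, hrange]

section

variable [Finite F] (hQ : Nd Q) (hgen : GenHyp Q) {X : Type*} [MulAction ↥(Om Q) X]

include hQ hgen in
/-- the dichotomy in dimension seven -/
theorem dich7 [Finite X] {p : ℕ} [Fact p.Prime] [CharP F p] (h2 : (2 : F) ≠ 0) (hn : finrank F V = 7) (x : X)
    (hX : Nat.card X < p * (Nat.card F * (Nat.card F ^ 2 - 1) * (nsq F * Nat.card F) + 1)) :
    Dich Q (St Q x) := by
  classical
  refine dich_of_bar hQ hgen x ?_
  intro z b hz hb hzb hz0 hbz hC z' b' hz' hb' hzz' hbb' hbz' hzb' hz'b' U hU hUn hUd hUm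
  have h : Fr Q z b z' b' := ⟨hz, hb, hzb, hz', hb', hzz', hbb', hbz', hzb', hz'b'⟩
  have hU3 : finrank F U = 3 := by
    have := h.finrank_U hQ hUm
    omega
  obtain ⟨ψ, -, hψ⟩ := exists_char (A := F) (C := ⊥) (a := 1) (by
    rw [AddSubgroup.mem_bot]; exact one_ne_zero)
  refine shape_of_pure hUn (by omega) hψ _ (le_card_quot hQ hgen hz hb hzb U hU hUn x hC) fun τ hτ hli => ?_
  have := card_rank2 (p := p) hQ hgen h2 h U hU hUm hUn hU3 x hC hψ hτ hli
  omega

end

end Cfsg.Agent.Lib.Coop
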