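import Mathlib
import Cfsg.Agent.Lib.CoopS
import Cfsg.Agent.Lib.CoopO

set_option autoImplicit false
set_option linter.unusedSectionVars false

/-!
Minimal index, odd dimension, at least five elements.
-/

namespace Cfsg.Agent.Lib.Coop

open QuadraticMap Module Cfsg.Agent.Lib.Quad Cfsg.Agent.Lib.ClOrthSiegel Cfsg.Agent.Lib.OrthNd
  Cfsg.Agent.Lib.OrthMax Cfsg.Agent.Lib.ClOrthOrd Cfsg.Agent.Lib.ClOmega
open scoped Pointwise

theorem num_odd7 {q p s : ℕ} (hc : (5 ≤ p ∧ 5 ≤ q) ∨ (3 ≤ p ∧ 7 ≤ q)) (hs : q - 1 ≤ 2 * s) :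
    q ^ 6 - 1 ≤ (q - 1) * (p * (q * (q ^ 2 - 1) * (s * q) + 1)) := by
  have hq : 5 ≤ q := by omega
  have h6 : 1 ≤ q ^ 6 := Nat.one_le_pow _ _ (by omega)
  have h2 : 1 ≤ q ^ 2 := Nat.one_le_pow _ _ (by omega)
  have key : 2 * (q ^ 6 - 1) ≤ (q - 1) * (p * (q * (q ^ 2 - 1) * ((q - 1) * q) + 2)) := by
    obtain ⟨x, hx⟩ : ∃ x, x = q ^ 2 - 1 := ⟨_, rfl⟩
    rcases hc with ⟨hp, hq5⟩ | ⟨hp, hq7⟩
    · have h3 : 2 * (q ^ 6 - 1) ≤ (q - 1) * (5 * (q * (q ^ 2 - 1) * ((q - 1) * q) + 2)) := by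
        obtain ⟨r, rfl⟩ : ∃ r, q = r + 5 := ⟨q - 5, by omega⟩
        have e : r + 5 - 1 = r + 4 := by omega
        rw [e]
        zify [h6, h2]
        nlinarith [pow_nonneg (Int.natCast_nonneg r) 2, pow_nonneg (Int.natCast_nonneg r) 3,
          pow_nonneg (Int.natCast_nonneg r) 4, pow_nonneg (Int.natCast_nonneg r) 5,
          pow_nonneg (Int.natCast_nonneg r) 6, Int.natCast_nonneg r]
      exact h3.trans (Nat.mul_le_mul_left _ (Nat.mul_le_mul_right _ hp))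
    · have h3 : 2 * (q ^ 6 - 1) ≤ (q - 1) * (3 * (q * (q ^ 2 - 1) * ((q - 1) * q) + 2)) := by
        obtain ⟨r, rfl⟩ : ∃ r, q = r + 7 := ⟨q - 7, by omega⟩
        have e : r + 7 - 1 = r + 6 := by omega
        rw [e]
        zify [h6, h2]
        nlinarith [pow_nonneg (Int.natCast_nonneg r) 2, pow_nonneg (Int.natCast_nonneg r) 3,
          pow_nonneg (Int.natCast_nonneg r) 4, pow_nonneg (Int.natCast_nonneg r) 5,
          pow_nonneg (Int.natCast_nonneg r) 6, Int.natCast_nonneg r]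
      exact h3.trans (Nat.mul_le_mul_left _ (Nat.mul_le_mul_right _ hp))
  have h3 : (q - 1) * (p * (q * (q ^ 2 - 1) * ((q - 1) * q) + 2)) ≤
      (q - 1) * (p * (q * (q ^ 2 - 1) * (2 * s * q) + 2)) := by
    refine Nat.mul_le_mul_left _ (Nat.mul_le_mul_left _ (Nat.add_le_add_right ?_ _))
    exact Nat.mul_le_mul_left _ (Nat.mul_le_mul_right _ hs)
  have h4 : (q - 1) * (p * (q * (q ^ 2 - 1) * (2 * s * q) + 2)) =
      2 * ((q - 1) * (p * (q * (q ^ 2 - 1) * (s * q) + 1))) := by ring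
  omega

theorem num_odd {q p s m : ℕ} (hp : 3 ≤ p) (hq : 5 ≤ q) (hs : q - 1 ≤ 2 * s) (hm : 4 ≤ m) :
    q ^ (2 * m) ≤ (q - 1) * (p * q ^ (2 * m - 3) * (s * q ^ (2 * m - 7) + 1)) := by
  obtain ⟨k, rfl⟩ : ∃ k, m = k + 4 := ⟨m - 4, by omega⟩
  have e2 : 2 * (k + 4) - 3 = 2 * k + 5 := by omega
  have e3 : 2 * (k + 4) - 7 = 2 * k + 1 := by omega
  rw [e2, e3]
  have h1 : 2 * q ^ 3 ≤ (q - 1) * (3 * ((q - 1) * q + 2)) := by
    obtain ⟨r, rfl⟩ : ∃ r, q = r + 5 := ⟨q - 5, by omega⟩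
    have e : r + 5 - 1 = r + 4 := by omega
    rw [e]
    nlinarith [pow_nonneg (Int.natCast_nonneg r) 2, pow_nonneg (Int.natCast_nonneg r) 3]
  have h2 : q ^ (2 * k) * (2 * q ^ 3) ≤ (q - 1) * (p * (2 * s * q ^ (2 * k + 1) + 2)) * q ^ (2 * k) := by
    have h3 : q ≤ q ^ (2 * k + 1) := Nat.le_self_pow (by omega) q
    have h4 : (q - 1) * (3 * ((q - 1) * q + 2)) ≤ (q - 1) * (p * (2 * s * q ^ (2 * k + 1) + 2)) := by
      refine Nat.mul_le_mul_left _ (Nat.mul_le_mul hp (Nat.add_le_add_right ?_ _))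
      exact Nat.mul_le_mul hs h3
    calc q ^ (2 * k) * (2 * q ^ 3) ≤ q ^ (2 * k) * ((q - 1) * (p * (2 * s * q ^ (2 * k + 1) + 2))) :=
          Nat.mul_le_mul_left _ (h1.trans h4)
      _ = _ := by ring
  have h5 : 2 * q ^ (2 * (k + 4)) ≤ 2 * ((q - 1) * (p * q ^ (2 * k + 5) * (s * q ^ (2 * k + 1) + 1))) := by
    calc 2 * q ^ (2 * (k + 4)) = (q ^ (2 * k) * (2 * q ^ 3)) * q ^ 5 := by ring
      _ ≤ ((q - 1) * (p * (2 * s * q ^ (2 * k + 1) + 2)) * q ^ (2 * k)) * q ^ 5 := Nat.mul_le_mul_right _ h2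
      _ = _ := by ring
  omega

section Odd

variable {F : Type*} [Field F] {m : ℕ}

theorem prime_dvd_card [Fintype F] {p : ℕ} [Fact p.Prime] [CharP F p] : p ∣ Fintype.card F := by
  obtain ⟨n, -, hn⟩ := FiniteField.card F p
  rw [hn]
  exact dvd_pow_self p (PNat.ne_zero n)

theorem card_sing_odd [Fintype F] {q : ℕ} (hF : Fintype.card F = q) (m : ℕ) :
    Nat.card {u : Unit ⊕ (Fin m ⊕ Fin m) → F // u ≠ 0 ∧ quadOdd m F u = 0} = q ^ (2 * m) - 1 := by
  rw [card_ne_zero_sing, Z_odd, hF]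

/-- **Minimal index**, odd dimension, at least five elements -/
theorem odd_main [Fintype F] {q : ℕ} (hF : Fintype.card F = q) (hodd : Odd q) (h5 : 5 ≤ q) (hm : 3 ≤ m) :
    (∀ K : Subgroup ↥(Om (quadOdd m F)), K ≠ ⊤ → (q ^ (2 * m) - 1) / (q - 1) ≤ K.index) ∧
    ∃ K : Subgroup ↥(Om (quadOdd m F)), Subgroup.center _ ≤ K ∧
      K.index = (q ^ (2 * m) - 1) / (q - 1) := by
  have h2 : (2 : F) ≠ 0 := two_ne_zero_of_odd hF hodd
  have hQ : Nd (quadOdd m F) := nd_quadOdd h2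
  have hgen : GenHyp (quadOdd m F) := genHyp_odd m hm
  have hfr := frame_of_HP (hpOdd (F := F) m)
  have hn : finrank F (Unit ⊕ (Fin m ⊕ Fin m) → F) = 2 * m + 1 := finrank_odd
  have hFn : Nat.card F = q := by rw [Nat.card_eq_fintype_card, hF]
  obtain ⟨B, hB⟩ : ∃ B, q ^ (2 * m) - 1 = (q - 1) * B := by
    have h1 := Nat.sub_dvd_pow_sub_pow q 1 (2 * m)
    rw [one_pow] at h1
    exact h1
  have hq1 : 0 < q - 1 := by omega
  have hBd : (q ^ (2 * m) - 1) / (q - 1) = B := by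
    rw [hB]; exact Nat.mul_div_cancel_left _ hq1
  rw [hBd]
  have hsing := card_sing_odd (F := F) hF m
  rw [hB] at hsing
  obtain ⟨p, hpF, hpC, hp2, hp3⟩ := exists_char_prime F
  have hp3 := hp3 h2
  have hpq : p ∣ q := by rw [← hF]; exact prime_dvd_card
  have hsq : q - 1 ≤ 2 * nsq F := by
    have := nsq_odd (F := F)
    rwa [hFn] at this
  have hB4 : 4 * B ≤ q ^ (2 * m) - 1 := by
    rw [hB]; exact Nat.mul_le_mul_right _ (by omega)
  have hpw : 1 ≤ q ^ m := Nat.one_le_pow _ _ (by omega)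
  have hpw2 : 2 * q ^ m ≤ q ^ (2 * m) := by
    have : 2 ≤ q ^ m := (by omega : 2 ≤ q).trans (Nat.le_self_pow (by omega) q)
    have e : q ^ (2 * m) = q ^ m * q ^ m := by rw [← pow_add]; congr 1; omega
    rw [e]
    exact Nat.mul_le_mul_right _ this
  have hNc : ∀ c : F, c ≠ 0 → (2 : F) ≠ 0 → B * 2 ≤ Nat.card {u : Unit ⊕ (Fin m ⊕ Fin m) → F //
      quadOdd m F u = c} := by
    intro c _ _
    have h1 := Nc_odd_ge c m
    rw [hF] at h1
    change _ ≤ Nc (quadOdd m F) c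
    omega
  constructor
  · intro K hK
    rcases Nat.lt_or_ge m 4 with h4 | h4
    · have hm3 : m = 3 := by omega
      subst hm3
      by_contra hcon
      push Not at hcon
      have : Finite (Unit ⊕ (Fin 3 ⊕ Fin 3) → F) := inferInstance
      have : Finite ↥(Om (quadOdd 3 F)) := Finite.of_injective
        (fun g => ((g : (Unit ⊕ (Fin 3 ⊕ Fin 3) → F) ≃ₗ[F] (Unit ⊕ (Fin 3 ⊕ Fin 3) → F)) :
          (Unit ⊕ (Fin 3 ⊕ Fin 3) → F) → (Unit ⊕ (Fin 3 ⊕ Fin 3) → F))) (fun g h hgh =>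
        Subtype.ext (LinearEquiv.ext fun x => congrFun hgh x))
      have hnum := num_odd7 (q := q) (p := p) (s := nsq F) (by
        rcases Nat.lt_or_ge q 7 with h7 | h7
        · left
          have hq5 : q = 5 := by
            obtain ⟨k, hk⟩ := hodd
            omega
          rw [hq5] at hpq
          have := (Nat.prime_dvd_prime_iff_eq hpF.out (by norm_num)).1 hpq
          omega
        · exact Or.inr ⟨hp3, h7⟩) hsq
      rw [show q ^ 6 - 1 = q ^ (2 * 3) - 1 from rfl, hB] at hnum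
      have hB1 := Nat.le_of_mul_le_mul_left hnum hq1
      have hD := dich7 (X := ↥(Om (quadOdd 3 F)) ⧸ K) (p := p) hQ hgen h2 hn (QuotientGroup.mk 1) (by
        rw [hFn]
        exact lt_of_lt_of_le hcon hB1)
      rw [St_quot] at hD
      have := index_ge_of_dich (B := B) hQ hgen hfr le_rfl (by rw [hn]) (by rw [hFn, hsing, mul_comm]) hNc
        (fun c _ h => absurd h h2) K hK hD
      omega
    · have h6 := orbN_big hQ hgen (by rw [hn]; omega)
      rw [hn, hFn] at h6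
      refine min_index (p := p) hQ hgen hfr hm (by rw [hn]; omega) h6 ?_ ?_ ?_ hNc (fun c _ h => absurd h h2) K hK
      · rw [hn, hFn]
        have h7 := num_odd (q := q) (p := p) (s := nsq F) (m := m) hp3 h5 hsq h4
        have e1 : 2 * m + 1 - 4 = 2 * m - 3 := by omega
        have e2 : 2 * m + 1 - 8 = 2 * m - 7 := by omega
        rw [e1, e2]
        have h8 : (q - 1) * B ≤ (q - 1) * (p * q ^ (2 * m - 3) * (nsq F * q ^ (2 * m - 7) + 1)) := by
          rw [← hB]; omega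
        exact Nat.le_of_mul_le_mul_left h8 hq1
      · rw [hn, hFn]
        have h7 : q ^ (2 * m) ≤ q ^ (2 * (2 * m + 1 - 4)) := Nat.pow_le_pow_right (by omega) (by omega)
        have h8 : q ^ (2 * (2 * m + 1 - 4)) ≤ p * q ^ (2 * (2 * m + 1 - 4)) := Nat.le_mul_of_pos_left _ (by omega)
        omega
      · rw [hFn, hsing, mul_comm]
  · set v := (hpOdd (F := F) m).e ⟨0, by omega⟩ with hv
    have hQv : quadOdd m F v = 0 := hfr.e0 _
    have hv0 : v ≠ 0 := by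
      intro h0
      have h1 := hfr.ef ⟨0, by omega⟩ ⟨0, by omega⟩
      rw [← hv, h0, polar_zero_left, if_pos rfl] at h1
      exact zero_ne_one h1
    refine ⟨LS _ v, center_le_LS hQ (hQ.R_eq_O hgen) hfr hm v, ?_⟩
    have h1 := index_LS_sing hQ hgen hfr hm hv0 hQv
    rw [hsing, hFn] at h1
    exact (Nat.eq_of_mul_eq_mul_left hq1 h1).symm

end Odd

end Cfsg.Agent.Lib.Coop
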