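import Mathlib
import Cfsg.Agent.Lib.CoopS

set_option autoImplicit false
set_option linter.unusedSectionVars false

/-!
The stabiliser of a totally singular line acting on pairs of vectors.
-/

namespace Cfsg.Agent.Lib.Coop

open QuadraticMap Module Cfsg.Agent.Lib.Quad Cfsg.Agent.Lib.ClOrthSiegel Cfsg.Agent.Lib.OrthNd
  Cfsg.Agent.Lib.OrthMax
open scoped Pointwise

variable {F V : Type*} [Field F] [AddCommGroup V] [Module F V] [FiniteDimensional F V]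
  {Q : QuadraticForm F V}

/-- elements stabilising `⟨z, b⟩` and `U` -/
def Gl (Q : QuadraticForm F V) (z b z' b' : V) (U : Submodule F V) : Subgroup ↥(Om Q) where
  carrier := {g | (∃ α γ : F, (g : V ≃ₗ[F] V) z = α • z + γ • b) ∧
    (∃ β δ : F, (g : V ≃ₗ[F] V) b = β • z + δ • b) ∧
    (∃ α γ : F, ((g⁻¹ : ↥(Om Q)) : V ≃ₗ[F] V) z = α • z + γ • b) ∧
    (∃ β δ : F, ((g⁻¹ : ↥(Om Q)) : V ≃ₗ[F] V) b = β • z + δ • b) ∧ ∀ u, (g : V ≃ₗ[F] V) u ∈ U ↔ u ∈ U}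
  one_mem' := by
    refine ⟨⟨1, 0, ?_⟩, ⟨0, 1, ?_⟩, ⟨1, 0, ?_⟩, ⟨0, 1, ?_⟩, fun _ => Iff.rfl⟩
    · show z = _
      simp
    · show b = _
      simp
    · rw [inv_one]
      show z = _
      simp
    · rw [inv_one]
      show b = _
      simp
  mul_mem' := by
    rintro g h ⟨⟨α, γ, h1⟩, ⟨β, δ, h2⟩, ⟨α', γ', h3⟩, ⟨β', δ', h4⟩, h5⟩
      ⟨⟨a, c, k1⟩, ⟨b₁, d, k2⟩, ⟨a', c', k3⟩, ⟨b₁', d', k4⟩, k5⟩
    refine ⟨⟨a * α + c * β, a * γ + c * δ, ?_⟩, ⟨b₁ * α + d * β, b₁ * γ + d * δ, ?_⟩,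
      ⟨α' * a' + γ' * b₁', α' * c' + γ' * d', ?_⟩, ⟨β' * a' + δ' * b₁', β' * c' + δ' * d', ?_⟩, fun u => ?_⟩
    · show (g : V ≃ₗ[F] V) ((h : V ≃ₗ[F] V) z) = _
      rw [k1, map_add, map_smul, map_smul, h1, h2]; module
    · show (g : V ≃ₗ[F] V) ((h : V ≃ₗ[F] V) b) = _
      rw [k2, map_add, map_smul, map_smul, h1, h2]; module
    · rw [mul_inv_rev]
      show ((h⁻¹ : ↥(Om Q)) : V ≃ₗ[F] V) (((g⁻¹ : ↥(Om Q)) : V ≃ₗ[F] V) z) = _
      rw [h3, map_add, map_smul, map_smul, k3, k4]; module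
    · rw [mul_inv_rev]
      show ((h⁻¹ : ↥(Om Q)) : V ≃ₗ[F] V) (((g⁻¹ : ↥(Om Q)) : V ≃ₗ[F] V) b) = _
      rw [h4, map_add, map_smul, map_smul, k3, k4]; module
    · show (g : V ≃ₗ[F] V) ((h : V ≃ₗ[F] V) u) ∈ U ↔ u ∈ U
      rw [h5, k5]
  inv_mem' := by
    rintro g ⟨h1, h2, h3, h4, h5⟩
    refine ⟨h3, h4, by rwa [inv_inv], by rwa [inv_inv], fun u => ?_⟩
    have e' : ∀ x, (g : V ≃ₗ[F] V) (((g⁻¹ : ↥(Om Q)) : V ≃ₗ[F] V) x) = x :=
      fun x => (g : V ≃ₗ[F] V).apply_symm_apply x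
    rw [← h5, e']

theorem Gl_coords {z b z' b' : V} (h : Fr Q z b z' b') {U : Submodule F V} (g : ↥(Gl Q z b z' b' U)) :
    ((g : ↥(Om Q)) : V ≃ₗ[F] V) z = polar Q z' (((g : ↥(Om Q)) : V ≃ₗ[F] V) z) • z +
      polar Q b' (((g : ↥(Om Q)) : V ≃ₗ[F] V) z) • b ∧
    ((g : ↥(Om Q)) : V ≃ₗ[F] V) b = polar Q z' (((g : ↥(Om Q)) : V ≃ₗ[F] V) b) • z +
      polar Q b' (((g : ↥(Om Q)) : V ≃ₗ[F] V) b) • b := by
  have hz'z : polar Q z' z = 1 := by rw [polar_comm]; exact h.hzz'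
  have hb'b : polar Q b' b = 1 := by rw [polar_comm]; exact h.hbb'
  have hz'b : polar Q z' b = 0 := by rw [polar_comm]; exact h.hbz'
  have hb'z : polar Q b' z = 0 := by rw [polar_comm]; exact h.hzb'
  have key : ∀ α γ : F, polar Q z' (α • z + γ • b) = α ∧ polar Q b' (α • z + γ • b) = γ := by
    intro α γ
    constructor
    · rw [polar_add_right, polar_smul_right, polar_smul_right, hz'z, hz'b]; simp
    · rw [polar_add_right, polar_smul_right, polar_smul_right, hb'z, hb'b]; simp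
  obtain ⟨⟨α, γ, h1⟩, ⟨β, δ, h2⟩, -⟩ := g.2
  rw [h1, h2, (key α γ).1, (key α γ).2, (key β δ).1, (key β δ).2]
  exact ⟨rfl, rfl⟩

/-- the action on pairs -/
def glAct {z b z' b' : V} {U : Submodule F V} (g : ↥(Gl Q z b z' b' U)) (u : ↥U × ↥U) : ↥U × ↥U :=
  actM ((g : ↥(Om Q)) : V ≃ₗ[F] V) (polar Q z' (((g : ↥(Om Q)) : V ≃ₗ[F] V) z))
    (polar Q z' (((g : ↥(Om Q)) : V ≃ₗ[F] V) b)) (polar Q b' (((g : ↥(Om Q)) : V ≃ₗ[F] V) z))
    (polar Q b' (((g : ↥(Om Q)) : V ≃ₗ[F] V) b)) g.2.2.2.2.2 u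

theorem glAct_one {z b z' b' : V} (h : Fr Q z b z' b') {U : Submodule F V} (u : ↥U × ↥U) :
    glAct (1 : ↥(Gl Q z b z' b' U)) u = u := by
  have hz'z : polar Q z' z = 1 := by rw [polar_comm]; exact h.hzz'
  have hb'b : polar Q b' b = 1 := by rw [polar_comm]; exact h.hbb'
  have hz'b : polar Q z' b = 0 := by rw [polar_comm]; exact h.hbz'
  have hb'z : polar Q b' z = 0 := by rw [polar_comm]; exact h.hzb'
  ext
  · show polar Q z' z • (u.1 : V) + polar Q z' b • (u.2 : V) = u.1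
    rw [hz'z, hz'b]; simp
  · show polar Q b' z • (u.1 : V) + polar Q b' b • (u.2 : V) = u.2
    rw [hb'z, hb'b]; simp

theorem glAct_mul {z b z' b' : V} (h : Fr Q z b z' b') {U : Submodule F V} (g k : ↥(Gl Q z b z' b' U))
    (u : ↥U × ↥U) : glAct (g * k) u = glAct g (glAct k u) := by
  have hg := Gl_coords h g
  have hk := Gl_coords h k
  have hz'z : polar Q z' z = 1 := by rw [polar_comm]; exact h.hzz'
  have hb'b : polar Q b' b = 1 := by rw [polar_comm]; exact h.hbb'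
  have hz'b : polar Q z' b = 0 := by rw [polar_comm]; exact h.hbz'
  have hb'z : polar Q b' z = 0 := by rw [polar_comm]; exact h.hzb'
  obtain ⟨G, hG⟩ : ∃ G, G = ((g : ↥(Om Q)) : V ≃ₗ[F] V) := ⟨_, rfl⟩
  obtain ⟨K, hK⟩ : ∃ K, K = ((k : ↥(Om Q)) : V ≃ₗ[F] V) := ⟨_, rfl⟩
  rw [← hG] at hg
  rw [← hK] at hk
  have key : ∀ (y x : V), polar Q y (G (K x)) = polar Q y (G (K x)) := fun _ _ => rfl
  have kz : G (K z) = polar Q z' (K z) • G z + polar Q b' (K z) • G b := by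
    conv_lhs => rw [hk.1]
    rw [map_add, map_smul, map_smul]
  have kb : G (K b) = polar Q z' (K b) • G z + polar Q b' (K b) • G b := by
    conv_lhs => rw [hk.2]
    rw [map_add, map_smul, map_smul]
  have hgk : ∀ x, ((g * k : ↥(Gl Q z b z' b' U)) : ↥(Om Q)).1 x = G (K x) := by
    intro x; rw [hG, hK]; rfl
  ext
  · show polar Q z' (((g * k : ↥(Gl Q z b z' b' U)) : ↥(Om Q)).1 z) • ((g * k : ↥(Gl Q z b z' b' U)) : ↥(Om Q)).1 (u.1 : V) +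
      polar Q z' (((g * k : ↥(Gl Q z b z' b' U)) : ↥(Om Q)).1 b) • ((g * k : ↥(Gl Q z b z' b' U)) : ↥(Om Q)).1 (u.2 : V) =
      polar Q z' (((g : ↥(Om Q)) : V ≃ₗ[F] V) z) • ((g : ↥(Om Q)) : V ≃ₗ[F] V)
        (polar Q z' (((k : ↥(Om Q)) : V ≃ₗ[F] V) z) • ((k : ↥(Om Q)) : V ≃ₗ[F] V) (u.1 : V) +
          polar Q z' (((k : ↥(Om Q)) : V ≃ₗ[F] V) b) • ((k : ↥(Om Q)) : V ≃ₗ[F] V) (u.2 : V)) +
      polar Q z' (((g : ↥(Om Q)) : V ≃ₗ[F] V) b) • ((g : ↥(Om Q)) : V ≃ₗ[F] V)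
        (polar Q b' (((k : ↥(Om Q)) : V ≃ₗ[F] V) z) • ((k : ↥(Om Q)) : V ≃ₗ[F] V) (u.1 : V) +
          polar Q b' (((k : ↥(Om Q)) : V ≃ₗ[F] V) b) • ((k : ↥(Om Q)) : V ≃ₗ[F] V) (u.2 : V))
    rw [hgk, hgk, hgk, hgk, ← hG, ← hK, kz, kb]
    simp only [polar_add_right, polar_smul_right, smul_eq_mul, map_add, map_smul]
    module
  · show polar Q b' (((g * k : ↥(Gl Q z b z' b' U)) : ↥(Om Q)).1 z) • ((g * k : ↥(Gl Q z b z' b' U)) : ↥(Om Q)).1 (u.1 : V) +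
      polar Q b' (((g * k : ↥(Gl Q z b z' b' U)) : ↥(Om Q)).1 b) • ((g * k : ↥(Gl Q z b z' b' U)) : ↥(Om Q)).1 (u.2 : V) =
      polar Q b' (((g : ↥(Om Q)) : V ≃ₗ[F] V) z) • ((g : ↥(Om Q)) : V ≃ₗ[F] V)
        (polar Q z' (((k : ↥(Om Q)) : V ≃ₗ[F] V) z) • ((k : ↥(Om Q)) : V ≃ₗ[F] V) (u.1 : V) +
          polar Q z' (((k : ↥(Om Q)) : V ≃ₗ[F] V) b) • ((k : ↥(Om Q)) : V ≃ₗ[F] V) (u.2 : V)) +
      polar Q b' (((g : ↥(Om Q)) : V ≃ₗ[F] V) b) • ((g : ↥(Om Q)) : V ≃ₗ[F] V)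
        (polar Q b' (((k : ↥(Om Q)) : V ≃ₗ[F] V) z) • ((k : ↥(Om Q)) : V ≃ₗ[F] V) (u.1 : V) +
          polar Q b' (((k : ↥(Om Q)) : V ≃ₗ[F] V) b) • ((k : ↥(Om Q)) : V ≃ₗ[F] V) (u.2 : V))
    rw [hgk, hgk, hgk, hgk, ← hG, ← hK, kz, kb]
    simp only [polar_add_right, polar_smul_right, smul_eq_mul, map_add, map_smul]
    module

theorem glAct_add {z b z' b' : V} {U : Submodule F V} (g : ↥(Gl Q z b z' b' U))
    (u v : ↥U × ↥U) : glAct g (u + v) = glAct g u + glAct g v := by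
  ext
  · show _ • ((g : ↥(Om Q)) : V ≃ₗ[F] V) ((u.1 : V) + v.1) + _ • ((g : ↥(Om Q)) : V ≃ₗ[F] V) ((u.2 : V) + v.2) =
      (_ • ((g : ↥(Om Q)) : V ≃ₗ[F] V) (u.1 : V) + _ • ((g : ↥(Om Q)) : V ≃ₗ[F] V) (u.2 : V)) +
      (_ • ((g : ↥(Om Q)) : V ≃ₗ[F] V) (v.1 : V) + _ • ((g : ↥(Om Q)) : V ≃ₗ[F] V) (v.2 : V))
    rw [map_add, map_add]; module
  · show _ • ((g : ↥(Om Q)) : V ≃ₗ[F] V) ((u.1 : V) + v.1) + _ • ((g : ↥(Om Q)) : V ≃ₗ[F] V) ((u.2 : V) + v.2) =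
      (_ • ((g : ↥(Om Q)) : V ≃ₗ[F] V) (u.1 : V) + _ • ((g : ↥(Om Q)) : V ≃ₗ[F] V) (u.2 : V)) +
      (_ • ((g : ↥(Om Q)) : V ≃ₗ[F] V) (v.1 : V) + _ • ((g : ↥(Om Q)) : V ≃ₗ[F] V) (v.2 : V))
    rw [map_add, map_add]; module

/-- the action on pairs -/
abbrev glDist {z b z' b' : V} (h : Fr Q z b z' b') (U : Submodule F V) :
    DistribMulAction ↥(Gl Q z b z' b' U) (↥U × ↥U) where
  smul := glAct
  one_smul := glAct_one h
  mul_smul := glAct_mul h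
  smul_zero g := by
    show glAct g 0 = 0
    have := glAct_add g 0 0
    rw [add_zero] at this
    simpa using this
  smul_add := glAct_add

section

variable [Finite F] (hQ : Nd Q) (hgen : GenHyp Q) {X : Type*} [MulAction ↥(Om Q) X]

theorem bar_Gl {z b z' b' : V} (h : Fr Q z b z' b') (U : Submodule F V)
    (hU : ∀ u ∈ U, polar Q z u = 0 ∧ polar Q b u = 0) (x : X) (g : ↥(Gl Q z b z' b' U)) :
    letI := glDist h U
    (hd hQ hgen h.hz h.hb h.hzb U hU).bar ((g : ↥(Om Q)) • x) = g • (hd hQ hgen h.hz h.hb h.hzb U hU).bar x := by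
  letI := glDist h U
  have one : ∀ (g : ↥(Gl Q z b z' b' U)) (x : X) (u : ↥U × ↥U), u ∈ (hd hQ hgen h.hz h.hb h.hzb U hU).bar x →
      g • u ∈ (hd hQ hgen h.hz h.hb h.hzb U hU).bar ((g : ↥(Om Q)) • x) := by
    intro g x u hu
    have hg := Gl_coords h g
    exact bar_actM hQ hgen h.hz h.hb h.hzb U hU x (g : ↥(Om Q)) hg.1 hg.2 g.2.2.2.2.2 hu
  ext u
  rw [AddSubgroup.mem_pointwise_smul_iff_inv_smul_mem]
  constructor
  · intro hu
    have := one g⁻¹ _ _ hu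
    rwa [Subgroup.coe_inv, inv_smul_smul] at this
  · intro hu
    have := one g _ _ hu
    rwa [smul_inv_smul] at this

theorem Gl_det {z b z' b' : V} (h : Fr Q z b z' b') {U : Submodule F V} (g : ↥(Gl Q z b z' b' U)) :
    polar Q z' (((g : ↥(Om Q)) : V ≃ₗ[F] V) z) * polar Q b' (((g : ↥(Om Q)) : V ≃ₗ[F] V) b) -
      polar Q z' (((g : ↥(Om Q)) : V ≃ₗ[F] V) b) * polar Q b' (((g : ↥(Om Q)) : V ≃ₗ[F] V) z) ≠ 0 := by
  intro h0
  have hg := Gl_coords h g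
  obtain ⟨α, hα⟩ : ∃ α, α = polar Q z' (((g : ↥(Om Q)) : V ≃ₗ[F] V) z) := ⟨_, rfl⟩
  obtain ⟨β, hβ⟩ : ∃ α, α = polar Q z' (((g : ↥(Om Q)) : V ≃ₗ[F] V) b) := ⟨_, rfl⟩
  obtain ⟨γ, hγ⟩ : ∃ α, α = polar Q b' (((g : ↥(Om Q)) : V ≃ₗ[F] V) z) := ⟨_, rfl⟩
  obtain ⟨δ, hδ⟩ : ∃ α, α = polar Q b' (((g : ↥(Om Q)) : V ≃ₗ[F] V) b) := ⟨_, rfl⟩
  rw [← hα, ← hβ, ← hγ, ← hδ] at h0 hg
  have h1 : ((g : ↥(Om Q)) : V ≃ₗ[F] V) (δ • z - γ • b) = 0 := by
    rw [map_sub, map_smul, map_smul, hg.1, hg.2]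
    have : δ • (α • z + γ • b) - γ • (β • z + δ • b) = (α * δ - β * γ) • z := by module
    rw [this, h0, zero_smul]
  have h2 : ((g : ↥(Om Q)) : V ≃ₗ[F] V) (β • z - α • b) = 0 := by
    rw [map_sub, map_smul, map_smul, hg.1, hg.2]
    have : β • (α • z + γ • b) - α • (β • z + δ • b) = (-(α * δ - β * γ)) • b := by module
    rw [this, h0, neg_zero, zero_smul]
  have h1' := ((g : ↥(Om Q)) : V ≃ₗ[F] V).map_eq_zero_iff.1 h1
  have h2' := ((g : ↥(Om Q)) : V ≃ₗ[F] V).map_eq_zero_iff.1 h2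
  have hz'z : polar Q z' z = 1 := by rw [polar_comm]; exact h.hzz'
  have hb'b : polar Q b' b = 1 := by rw [polar_comm]; exact h.hbb'
  have hz'b : polar Q z' b = 0 := by rw [polar_comm]; exact h.hbz'
  have hb'z : polar Q b' z = 0 := by rw [polar_comm]; exact h.hzb'
  have key : ∀ s t : F, s • z - t • b = 0 → s = 0 ∧ t = 0 := by
    intro s t hst
    constructor
    · have : polar Q z' (s • z - t • b) = 0 := by rw [hst, polar_zero_right]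
      rw [polar_sub_right, polar_smul_right, polar_smul_right, hz'z, hz'b] at this
      simpa using this
    · have : polar Q b' (s • z - t • b) = 0 := by rw [hst, polar_zero_right]
      rw [polar_sub_right, polar_smul_right, polar_smul_right, hb'z, hb'b] at this
      simpa using this
  obtain ⟨k1, k2⟩ := key _ _ h1'
  obtain ⟨k3, k4⟩ := key _ _ h2'
  have : ((g : ↥(Om Q)) : V ≃ₗ[F] V) z = 0 := by rw [hg.1, k4, k2]; simp
  have hz0 : z = 0 := ((g : ↥(Om Q)) : V ≃ₗ[F] V).map_eq_zero_iff.1 this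
  rw [hz0, polar_zero_right] at hz'z
  exact zero_ne_one hz'z

/-- the number of conjugates -/
theorem card_orbit_Gl_le [Finite X] {p : ℕ} [Fact p.Prime] [CharP F p] {z b z' b' : V} (h : Fr Q z b z' b')
    (U : Submodule F V) (hU : ∀ u ∈ U, polar Q z u = 0 ∧ polar Q b u = 0) (x : X)
    (hx : Cx hQ hgen h.hzb x ≠ ⊤) :
    letI := glDist h U
    p * Nat.card ((↥U × ↥U) ⧸ (hd hQ hgen h.hz h.hb h.hzb U hU).bar x) *
      Nat.card (MulAction.orbit ↥(Gl Q z b z' b' U) ((hd hQ hgen h.hz h.hb h.hzb U hU).bar x)) ≤ Nat.card X := by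
  classical
  letI := glDist h U
  have : Finite V := Module.finite_of_finite F
  set D := hd hQ hgen h.hz h.hb h.hzb U hU with hD
  letI : Fintype (MulAction.orbit ↥(Gl Q z b z' b' U) (D.bar x)) := Fintype.ofFinite _
  have e0 : Nat.card (MulAction.orbit ↥(Gl Q z b z' b' U) (D.bar x)) =
      (Set.toFinset (MulAction.orbit ↥(Gl Q z b z' b' U) (D.bar x))).card := by
    rw [Nat.card_eq_fintype_card, Set.toFinset_card]
  rw [e0]
  refine D.card_bar_ge (X := X) _ p _ (fun B hB => ?_) (fun B hB => ?_)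
  · rw [Set.mem_toFinset] at hB
    obtain ⟨g, rfl⟩ := hB
    have hg := Gl_coords h g
    refine ⟨(g : ↥(Om Q)) • x, card_orbit_Z hQ hgen h.hz h.hb h.hzb U hU _
      (Cx_actM hQ hgen h.hz h.hb h.hzb x (g : ↥(Om Q)) hg.1 hg.2 (Gl_det h g) hx), ?_⟩
    exact bar_Gl hQ hgen h U hU x g
  · rw [Set.mem_toFinset] at hB
    obtain ⟨g, rfl⟩ := hB
    have h1 := AddSubgroup.card_eq_card_quotient_mul_card_addSubgroup (D.bar x)
    have h2 := AddSubgroup.card_eq_card_quotient_mul_card_addSubgroup (g • D.bar x)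
    have h3 : Nat.card ↥(g • D.bar x) = Nat.card ↥(D.bar x) :=
      Nat.card_congr
        { toFun := fun u => ⟨g⁻¹ • u.1, AddSubgroup.mem_pointwise_smul_iff_inv_smul_mem.1 u.2⟩
          invFun := fun u => ⟨g • u.1, AddSubgroup.smul_mem_pointwise_smul _ _ _ u.2⟩
          left_inv := fun u => Subtype.ext (smul_inv_smul _ _)
          right_inv := fun u => Subtype.ext (inv_smul_smul _ _) }
    show _ ≤ Nat.card ((↥U × ↥U) ⧸ (g • D.bar x))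
    rw [h3, h1] at h2
    have h4 : 0 < Nat.card ↥(D.bar x) := Nat.card_pos
    exact (Nat.eq_of_mul_eq_mul_right h4 h2).le

end

end Cfsg.Agent.Lib.Coop
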