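import Mathlib
import Cfsg.Agent.Lib.CoopU
import Cfsg.Agent.Lib.CoopT

set_option autoImplicit false
set_option linter.unusedSectionVars false

/-!
Dimension seven over the field with three elements.
-/

namespace Cfsg.Agent.Lib.Coop

open QuadraticMap Module Cfsg.Agent.Lib.Quad Cfsg.Agent.Lib.ClOrthSiegel Cfsg.Agent.Lib.OrthNd
  Cfsg.Agent.Lib.OrthMax
open scoped Pointwise

/-- a group of order `3^3` has no automorphism of square `-1` -/
theorem no_i {F W : Type*} [Field F] [Finite F] (hF : Nat.card F = 3) [AddCommGroup W] [Module F W]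
    [FiniteDimensional F W] (B : AddSubgroup W) (hB : Nat.card B = 27) (J : W →ₗ[F] W)
    (hJB : ∀ u ∈ B, J u ∈ B) (hJ : ∀ u, J (J u) = -u) : False := by
  classical
  have := Fintype.ofFinite F
  have hF' : Fintype.card F = 3 := by rw [← Nat.card_eq_fintype_card]; exact hF
  have hel : ∀ c : F, c = 0 ∨ c = 1 ∨ c = -1 := by
    have h2 : (2 : F) ≠ 0 := two_ne_zero_of_odd hF' (by decide)
    have h1 : ({0, 1, -1} : Finset F).card = 3 := by
      rw [Finset.card_insert_of_notMem, Finset.card_pair]
      · intro h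
        apply h2
        linear_combination h
      · rw [Finset.mem_insert, Finset.mem_singleton]
        rintro (h | h)
        · exact zero_ne_one h
        · exact one_ne_zero (α := F) (by linear_combination h)
    have h3 : ({0, 1, -1} : Finset F) = Finset.univ := by
      apply Finset.eq_univ_of_card
      rw [h1, hF']
    intro c
    have : c ∈ ({0, 1, -1} : Finset F) := by rw [h3]; exact Finset.mem_univ c
    simpa using this
  let S : Submodule F W :=
    { carrier := B
      zero_mem' := B.zero_mem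
      add_mem' := B.add_mem
      smul_mem' := by
        intro c u hu
        rcases hel c with rfl | rfl | rfl
        · rw [zero_smul]; exact B.zero_mem
        · rw [one_smul]; exact hu
        · rw [neg_one_smul]; exact B.neg_mem hu }
  have hS : finrank F S = 3 := by
    have h1 : Nat.card S = Nat.card F ^ finrank F S := Module.natCard_eq_pow_finrank
    have h2 : Nat.card S = 27 := hB
    rw [h2, hF] at h1
    have h3 : (3 : ℕ) ^ 3 = 3 ^ finrank F S := by rw [← h1]; norm_num
    exact (Nat.pow_right_injective (le_refl 2 |>.trans (by norm_num)) h3).symm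
  let J' : S →ₗ[F] S := J.restrict (fun u hu => hJB u hu)
  have hJ' : J' * J' = (-1 : F) • (1 : S →ₗ[F] S) := by
    ext u
    show J (J (u : W)) = (-1 : F) • (u : W)
    rw [hJ, neg_one_smul]
  have h1 := congrArg LinearMap.det hJ'
  rw [map_mul, LinearMap.det_smul, map_one, mul_one, hS] at h1
  have h2 : IsSquare (-1 : F) := ⟨LinearMap.det J', by rw [h1]; ring⟩
  rw [FiniteField.isSquare_neg_one_iff, hF'] at h2
  exact h2 rfl

variable {F V : Type*} [Field F] [AddCommGroup V] [Module F V] [FiniteDimensional F V]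
  {Q : QuadraticForm F V}

theorem Gf_le_Gl {z b z' b' : V} {U : Submodule F V} {g : ↥(Om Q)} (hg : g ∈ Gf Q z b U) :
    g ∈ Gl Q z b z' b' U := by
  have hg' := (Gf Q z b U).inv_mem hg
  refine ⟨⟨1, 0, ?_⟩, ⟨0, 1, ?_⟩, ⟨1, 0, ?_⟩, ⟨0, 1, ?_⟩, hg.2.2⟩
  · rw [hg.1]; simp
  · rw [hg.2.1]; simp
  · rw [hg'.1]; simp
  · rw [hg'.2.1]; simp

section

variable [Finite F] (hQ : Nd Q) (hgen : GenHyp Q) {X : Type*} [MulAction ↥(Om Q) X]

include hQ hgen in
/-- the dichotomy in dimension seven over the field with three elements -/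
theorem dich7_three [Finite X] (hF : Nat.card F = 3) (hn : finrank F V = 7) (x : X)
    (hX : Nat.card X < 351) : Dich Q (St Q x) := by
  classical
  have : Finite V := Module.finite_of_finite F
  have hFt := Fintype.ofFinite F
  have hF' : Fintype.card F = 3 := by rw [← Nat.card_eq_fintype_card]; exact hF
  have h2 : (2 : F) ≠ 0 := two_ne_zero_of_odd hF' (by decide)
  have hfp : Fact (Nat.Prime 3) := ⟨Nat.prime_three⟩
  have hchar : CharP F 3 := by
    obtain ⟨p, hpF, hpC, -, -⟩ := exists_char_prime F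
    have h3 : p ∣ Fintype.card F := prime_dvd_card
    rw [hF'] at h3
    have := (Nat.prime_dvd_prime_iff_eq hpF.out Nat.prime_three).1 h3
    subst this
    exact hpC
  have h3 : (3 : F) = 0 := by exact_mod_cast CharP.cast_eq_zero F 3
  refine dich_of_bar hQ hgen x ?_
  intro z b hz hb hzb hz0 hbz hC z' b' hz' hb' hzz' hbb' hbz' hzb' hz'b' U hU hUn hUd hUm
  have h : Fr Q z b z' b' := ⟨hz, hb, hzb, hz', hb', hzz', hbb', hbz', hzb', hz'b'⟩
  have hU3 : finrank F U = 3 := by
    have := h.finrank_U hQ hUm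
    omega
  have hcardU : Nat.card ↥U = 27 := by
    rw [Module.natCard_eq_pow_finrank (K := F) (V := ↥U), hU3, hF]; norm_num
  letI := glDist h U
  obtain ⟨B, hB⟩ : ∃ B, B = (hd hQ hgen hz hb hzb U hU).bar x := ⟨_, rfl⟩
  have hk := card_orbit_Gl_le (p := 3) hQ hgen h U hU x hC
  have hq := le_card_quot hQ hgen hz hb hzb U hU hUn x hC
  have hBe : (hd hQ hgen h.hz h.hb h.hzb U hU).bar x = B := hB.symm
  rw [hBe] at hk
  rw [← hB, hF, hU3] at hq
  rw [← hB]
  have hprod := AddSubgroup.card_eq_card_quotient_mul_card_addSubgroup B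
  rw [Nat.card_prod, hcardU] at hprod
  obtain ⟨m, hm⟩ : ∃ m, m = Nat.card ((↥U × ↥U) ⧸ B) := ⟨_, rfl⟩
  obtain ⟨k, hkk⟩ : ∃ k, k = Nat.card (MulAction.orbit ↥(Gl Q z b z' b' U) B) := ⟨_, rfl⟩
  rw [← hm] at hk hq hprod
  rw [← hkk] at hk
  have hk4 : k ≤ 4 := by
    by_contra hcon
    push Not at hcon
    have h5 : 3 * 27 * 5 ≤ 3 * m * k := Nat.mul_le_mul (Nat.mul_le_mul_left _ (by omega)) hcon
    omega
  have hmdvd : m ∣ 3 ^ 6 := ⟨Nat.card B, by rw [← hprod]; norm_num⟩
  -- invariance
  have hInv : Inv2 Q hQ U B := by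
    intro y hy y' hy' hQy hQy' hyy' w hw hyw hy'w
    -- the Siegel element
    have hyc : ∀ c : F, polar Q y (c • w) = 0 := fun c => by rw [polar_smul_right, hyw, smul_zero]
    have hr : ∀ c : F, EG hQ hgen y (c • w) ∈ Gl Q z b z' b' U := fun c =>
      Gf_le_Gl (EG_mem_Gf hQ hgen U hU hy (U.smul_mem c hw))
    have hrz : ∀ c : F, E hQ y (c • w) z = z := fun c => (EG_mem_Gf hQ hgen U hU hy (U.smul_mem c hw)).1
    have hrb : ∀ c : F, E hQ y (c • w) b = b := fun c => (EG_mem_Gf hQ hgen U hU hy (U.smul_mem c hw)).2.1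
    have hz'z : polar Q z' z = 1 := by rw [polar_comm]; exact h.hzz'
    have hb'b : polar Q b' b = 1 := by rw [polar_comm]; exact h.hbb'
    have hz'b : polar Q z' b = 0 := by rw [polar_comm]; exact h.hbz'
    have hb'z : polar Q b' z = 0 := by rw [polar_comm]; exact h.hzb'
    have hract : ∀ (c : F) (u : ↥U × ↥U), ((((⟨_, hr c⟩ : ↥(Gl Q z b z' b' U)) • u).1 : V) = E hQ y (c • w) u.1) ∧
        ((((⟨_, hr c⟩ : ↥(Gl Q z b z' b' U)) • u).2 : V) = E hQ y (c • w) u.2) := by
      intro c u
      constructor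
      · show polar Q z' (E hQ y (c • w) z) • E hQ y (c • w) (u.1 : V) +
          polar Q z' (E hQ y (c • w) b) • E hQ y (c • w) (u.2 : V) = _
        rw [hrz, hrb, hz'z, hz'b]; simp
      · show polar Q b' (E hQ y (c • w) z) • E hQ y (c • w) (u.1 : V) +
          polar Q b' (E hQ y (c • w) b) • E hQ y (c • w) (u.2 : V) = _
        rw [hrz, hrb, hb'z, hb'b]; simp
    -- it suffices that it stabilises `B`
    suffices hsuff : (⟨_, hr 1⟩ : ↥(Gl Q z b z' b' U)) • B = B by
      intro u hu
      refine ⟨(⟨_, hr 1⟩ : ↥(Gl Q z b z' b' U)) • u, ?_, ?_, ?_⟩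
      · have h5 := AddSubgroup.smul_mem_pointwise_smul u (⟨_, hr 1⟩ : ↥(Gl Q z b z' b' U)) B hu
        rwa [hsuff] at h5
      · rw [(hract 1 u).1, one_smul]
      · rw [(hract 1 u).2, one_smul]
    by_contra hmove
    -- the number of conjugates is at least 2
    have hk2 : 2 ≤ k := by
      by_contra hcon
      push Not at hcon
      have hone : 0 < k := by
        rw [hkk]
        have : Nonempty (MulAction.orbit ↥(Gl Q z b z' b' U) B) := ⟨⟨B, MulAction.mem_orbit_self _⟩⟩
        exact Nat.card_pos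
      have hk1 : Nat.card (MulAction.orbit ↥(Gl Q z b z' b' U) B) = 1 := by omega
      have hss := (Nat.card_eq_one_iff_unique.1 hk1).1
      apply hmove
      have := hss.elim (⟨(⟨_, hr 1⟩ : ↥(Gl Q z b z' b' U)) • B, MulAction.mem_orbit _ _⟩ :
        MulAction.orbit ↥(Gl Q z b z' b' U) B) ⟨B, MulAction.mem_orbit_self _⟩
      exact congrArg Subtype.val this
    have hm27 : m = 27 := by
      have h5 : 3 * m * 2 ≤ 3 * m * k := Nat.mul_le_mul_left _ hk2
      obtain ⟨i, hi, hi'⟩ := (Nat.dvd_prime_pow Nat.prime_three).1 hmdvd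
      have h6 : m < 81 := by omega
      rw [hi'] at hq h6
      have h7 : 3 ≤ i := by
        by_contra hcon
        push Not at hcon
        have := Nat.pow_lt_pow_right (a := 3) (by norm_num) hcon
        omega
      have h8 : i < 4 := by
        by_contra hcon
        push Not at hcon
        have := Nat.pow_le_pow_right (n := 3) (by norm_num) hcon
        omega
      have h9 : i = 3 := by omega
      rw [hi', h9]; norm_num
    have hB27 : Nat.card B = 27 := by
      rw [hm27] at hprod
      omega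
    -- the transvections
    have hzz : polar Q z z = 0 := by rw [polar_self', hz, mul_zero]
    have hbb : polar Q b b = 0 := by rw [polar_self', hb, mul_zero]
    have hbz2 : polar Q b z = 0 := by rw [polar_comm]; exact hzb
    have hzc : ∀ c : F, polar Q z (c • b') = 0 := fun c => by rw [polar_smul_right, hzb', smul_zero]
    have hbc : ∀ c : F, polar Q b (c • z') = 0 := fun c => by rw [polar_smul_right, hbz', smul_zero]
    have htz : ∀ c : F, E hQ z (c • b') z = z := by
      intro c
      rw [E_apply hQ hz (hzc c), hzz, polar_smul_left, hb'z]; simp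
    have htb : ∀ c : F, E hQ z (c • b') b = b - c • z := by
      intro c
      rw [E_apply hQ hz (hzc c), hzb, polar_smul_left, hb'b]; simp
    have hsz : ∀ c : F, E hQ b (c • z') z = z - c • b := by
      intro c
      rw [E_apply hQ hb (hbc c), hbz2, polar_smul_left, hz'z]; simp
    have hsb : ∀ c : F, E hQ b (c • z') b = b := by
      intro c
      rw [E_apply hQ hb (hbc c), hbb, polar_smul_left, hz'b]; simp
    have htU : ∀ (c : F), ∀ u ∈ U, E hQ z (c • b') u = u := by
      intro c u hu
      have h5 := (hUm u).1 hu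
      rw [E_apply hQ hz (hzc c), h5.1, polar_smul_left, h5.2.2.2]; simp
    have hsU : ∀ (c : F), ∀ u ∈ U, E hQ b (c • z') u = u := by
      intro c u hu
      have h5 := (hUm u).1 hu
      rw [E_apply hQ hb (hbc c), h5.2.1, polar_smul_left, h5.2.2.1]; simp
    have htU' : ∀ (c : F) (u : V), E hQ z (c • b') u ∈ U ↔ u ∈ U := by
      intro c u
      constructor
      · intro hu
        have h5 := htU c _ hu
        have h6 := (E hQ z (c • b')).injective h5
        rwa [h6] at hu
      · intro hu; rw [htU c u hu]; exact hu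
    have hsU' : ∀ (c : F) (u : V), E hQ b (c • z') u ∈ U ↔ u ∈ U := by
      intro c u
      constructor
      · intro hu
        have h5 := hsU c _ hu
        have h6 := (E hQ b (c • z')).injective h5
        rwa [h6] at hu
      · intro hu; rw [hsU c u hu]; exact hu
    have htinv : ∀ c : F, (EG hQ hgen z (c • b'))⁻¹ = EG hQ hgen z ((-c) • b') := by
      intro c
      rw [inv_eq_iff_mul_eq_one, EG_add hQ hgen (hzc c) (hzc (-c)), ← add_smul, add_neg_cancel, zero_smul, EG_zero]
    have hsinv : ∀ c : F, (EG hQ hgen b (c • z'))⁻¹ = EG hQ hgen b ((-c) • z') := by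
      intro c
      rw [inv_eq_iff_mul_eq_one, EG_add hQ hgen (hbc c) (hbc (-c)), ← add_smul, add_neg_cancel, zero_smul, EG_zero]
    have hrinv : ∀ c : F, (EG hQ hgen y (c • w))⁻¹ = EG hQ hgen y ((-c) • w) := by
      intro c
      rw [inv_eq_iff_mul_eq_one, EG_add hQ hgen (hyc c) (hyc (-c)), ← add_smul, add_neg_cancel, zero_smul, EG_zero]
    have ht : ∀ c : F, EG hQ hgen z (c • b') ∈ Gl Q z b z' b' U := by
      intro c
      refine ⟨⟨1, 0, ?_⟩, ⟨-c, 1, ?_⟩, ⟨1, 0, ?_⟩, ⟨c, 1, ?_⟩, htU' c⟩
      · rw [coe_EG, htz]; simp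
      · rw [coe_EG, htb]; module
      · rw [htinv, coe_EG, htz]; simp
      · rw [htinv, coe_EG, htb]; module
    have hs : ∀ c : F, EG hQ hgen b (c • z') ∈ Gl Q z b z' b' U := by
      intro c
      refine ⟨⟨1, -c, ?_⟩, ⟨0, 1, ?_⟩, ⟨1, c, ?_⟩, ⟨0, 1, ?_⟩, hsU' c⟩
      · rw [coe_EG, hsz]; module
      · rw [coe_EG, hsb]; simp
      · rw [hsinv, coe_EG, hsz]; module
      · rw [hsinv, coe_EG, hsb]; simp
    -- commutation
    have hcomm : ∀ c c' : F, EG hQ hgen z (c' • b') * EG hQ hgen y (c • w) =
        EG hQ hgen y (c • w) * EG hQ hgen z (c' • b') := by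
      intro c c'
      rw [← mul_inv_eq_iff_eq_mul, EG_conj, coe_EG, htU c' y hy, htU c' _ (U.smul_mem c hw)]
    let f : Multiplicative (F × F) →* ↥(Gl Q z b z' b' U) :=
      { toFun := fun c => (⟨_, hr c.toAdd.1⟩ : ↥(Gl Q z b z' b' U)) * ⟨_, ht c.toAdd.2⟩
        map_one' := by
          apply Subtype.ext
          show EG hQ hgen y ((0 : F) • w) * EG hQ hgen z ((0 : F) • b') = 1
          rw [zero_smul, zero_smul, EG_zero, EG_zero, one_mul]
        map_mul' := by
          intro c d
          apply Subtype.ext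
          show EG hQ hgen y ((c.toAdd.1 + d.toAdd.1) • w) * EG hQ hgen z ((c.toAdd.2 + d.toAdd.2) • b') =
            (EG hQ hgen y (c.toAdd.1 • w) * EG hQ hgen z (c.toAdd.2 • b')) *
            (EG hQ hgen y (d.toAdd.1 • w) * EG hQ hgen z (d.toAdd.2 • b'))
          rw [add_smul, add_smul, ← EG_add hQ hgen (hyc _) (hyc _), ← EG_add hQ hgen (hzc _) (hzc _)]
          calc _ = EG hQ hgen y (c.toAdd.1 • w) * (EG hQ hgen y (d.toAdd.1 • w) * EG hQ hgen z (c.toAdd.2 • b')) *
                EG hQ hgen z (d.toAdd.2 • b') := by group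
            _ = _ := by rw [← hcomm]; group }
    let θ : Multiplicative (F × F) →* Equiv.Perm (MulAction.orbit ↥(Gl Q z b z' b' U) B) :=
      (MulAction.toPermHom ↥(Gl Q z b z' b' U) (MulAction.orbit ↥(Gl Q z b z' b' U) B)).comp f
    obtain ⟨⟨c, c'⟩, hcc0, hcc⟩ : ∃ c : F × F, c ≠ 0 ∧ θ (Multiplicative.ofAdd c) = 1 := by
      by_contra hcon
      push Not at hcon
      have hinj : Function.Injective θ := by
        rw [injective_iff_map_eq_one]
        intro a ha
        by_contra hne
        exact hcon a.toAdd (fun h0 => hne (Multiplicative.toAdd.injective h0)) ha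
      have h5 : Nat.card (Multiplicative (F × F)) = 9 := by
        rw [Nat.card_congr Multiplicative.toAdd, Nat.card_prod, hF]
      have h6 : Nat.card θ.range = 9 := by
        rw [← h5]
        exact (Nat.card_congr (MonoidHom.ofInjective hinj).toEquiv).symm
      have h7 : Nat.card θ.range ∣ Nat.card (Equiv.Perm (MulAction.orbit ↥(Gl Q z b z' b' U) B)) :=
        Subgroup.card_subgroup_dvd_card _
      rw [h6, Nat.card_perm, ← hkk] at h7
      have h8 : k.factorial ∣ (4).factorial := Nat.factorial_dvd_factorial hk4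
      have h9 : 9 ∣ (4).factorial := h7.trans h8
      revert h9
      decide
    -- the element acts trivially
    set κ : ↥(Gl Q z b z' b' U) := (⟨_, hr c⟩ : ↥(Gl Q z b z' b' U)) * ⟨_, ht c'⟩ with hκ
    have htriv : ∀ g : ↥(Gl Q z b z' b' U), κ • g • B = g • B := by
      intro g
      have h5 := Equiv.Perm.congr_fun hcc ⟨g • B, MulAction.mem_orbit _ _⟩
      exact congrArg Subtype.val h5
    by_cases hc' : c' = 0
    · -- the Siegel element stabilises `B`
      have hc : c ≠ 0 := by
        rintro rfl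
        exact hcc0 (by rw [hc']; rfl)
      have hκr : κ = ⟨_, hr c⟩ := by
        rw [hκ]
        apply Subtype.ext
        show EG hQ hgen y (c • w) * EG hQ hgen z (c' • b') = _
        rw [hc', zero_smul, EG_zero, mul_one]
      have h5 := htriv 1
      rw [one_smul, hκr] at h5
      apply hmove
      rcases (by
        have hel : c * c = 1 := by
          have h6 := FiniteField.pow_card_sub_one_eq_one c hc
          rw [hF'] at h6
          rw [← pow_two]; exact h6
        exact mul_self_eq_one_iff.1 hel : c = 1 ∨ c = -1) with h1 | h1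
      · have : (⟨_, hr 1⟩ : ↥(Gl Q z b z' b' U)) = ⟨_, hr c⟩ := by
          apply Subtype.ext
          show EG hQ hgen y ((1 : F) • w) = EG hQ hgen y (c • w)
          rw [h1]
        rw [this]; exact h5
      · have : (⟨_, hr 1⟩ : ↥(Gl Q z b z' b' U)) = (⟨_, hr c⟩ : ↥(Gl Q z b z' b' U))⁻¹ := by
          apply Subtype.ext
          show EG hQ hgen y ((1 : F) • w) = (EG hQ hgen y (c • w))⁻¹
          rw [hrinv, h1, neg_neg]
        rw [this, inv_smul_eq_iff]
        exact h5.symm
    · -- an element of order 4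
      have hcc1 : c' * c' = 1 := by
        have h6 := FiniteField.pow_card_sub_one_eq_one c' hc'
        rw [hF'] at h6
        rw [← pow_two]; exact h6
      set s : ↥(Gl Q z b z' b' U) := ⟨_, hs c'⟩ with hsdef
      set j : ↥(Gl Q z b z' b' U) := κ * s * κ⁻¹ * s⁻¹ with hj
      have hjB : j • B = B := by
        have h5 := htriv (s * κ⁻¹ * s⁻¹)
        have h6 := htriv (κ⁻¹ * s⁻¹)
        have h7 := htriv s⁻¹
        have h8 : j • B = κ • (s * κ⁻¹ * s⁻¹) • B := by
          have e : j = κ * (s * κ⁻¹ * s⁻¹) := by rw [hj]; simp only [mul_assoc]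
          rw [e, mul_smul]
        have h9 : κ⁻¹ • s⁻¹ • B = s⁻¹ • B := by rw [inv_smul_eq_iff]; exact h7.symm
        rw [h8, h5, mul_smul, mul_smul, h9, ← mul_smul, mul_inv_cancel, one_smul]
      have happ : ∀ v : V, ((j : ↥(Om Q)) : V ≃ₗ[F] V) v =
          E hQ y (c • w) (E hQ z (c' • b') (E hQ b (c' • z') (E hQ z ((-c') • b') (E hQ y ((-c) • w)
            (E hQ b ((-c') • z') v))))) := by
        intro v
        have : (j : ↥(Om Q)) = EG hQ hgen y (c • w) * EG hQ hgen z (c' • b') * EG hQ hgen b (c' • z') *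
            (EG hQ hgen y (c • w) * EG hQ hgen z (c' • b'))⁻¹ * (EG hQ hgen b (c' • z'))⁻¹ := rfl
        rw [this, mul_inv_rev, htinv, hrinv, hsinv]
        rfl
      have hjz : ((j : ↥(Om Q)) : V ≃ₗ[F] V) z = (-c') • b := by
        rw [happ, hsz, map_sub, map_smul, hrz, hrb, map_sub, map_smul, htz, htb]
        simp only [map_sub, map_smul, hsz, hsb, htz, htb, hrz, hrb]
        have e : z - c' • b - -c' • (b - -c' • (z - c' • b)) = (1 + c' * c') • z - (c' + c' * (c' * c') - c') • b := by
          module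
        have : z - c' • (b - c' • z) - -c' • (b - c' • z - -c' • (z - c' • (b - c' • z))) =
          (1 + c' * c' + (c' * c') * (c' * c')) • z + (-(c' * (c' * c'))) • b := by module
        rw [this, hcc1]
        have e3 : (1 : F) + 1 + 1 * 1 = 0 := by linear_combination h3
        rw [e3, zero_smul, zero_add, mul_one]
      have hjb : ((j : ↥(Om Q)) : V ≃ₗ[F] V) b = c' • z := by
        rw [happ, hsb, hrb, htb]
        simp only [map_sub, map_smul, hsz, hsb, htz, htb, hrz, hrb]
        have : b - c' • z - -c' • (z - c' • (b - c' • z)) = (c' * (c' * c')) • z + (1 - c' * c') • b := by module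
        rw [this, hcc1, sub_self, zero_smul, add_zero, mul_one]
      have hjU : ∀ u ∈ U, ((j : ↥(Om Q)) : V ≃ₗ[F] V) u = u := by
        intro u hu
        have h5 : E hQ y ((-c) • w) u ∈ U := (EG_mem_Gf hQ hgen U hU hy (U.smul_mem (-c) hw)).2.2 u |>.2 hu
        rw [happ, hsU _ u hu, htU _ _ h5, hsU _ _ h5, htU _ _ h5]
        have h6 : E hQ y (c • w) (E hQ y ((-c) • w) u) = (E hQ y (c • w) * E hQ y ((-c) • w)) u := rfl
        rw [h6, E_add hQ (hyc _) (hyc _), ← add_smul, add_neg_cancel, zero_smul, E_zero]; rfl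
      -- the linear map
      let J : ↥U × ↥U →ₗ[F] ↥U × ↥U :=
        { toFun := fun u => (c' • u.2, -(c' • u.1))
          map_add' := by
            intro u v
            ext
            · simp
            · simp; abel
          map_smul' := by
            intro d u
            refine Prod.ext ?_ ?_
            · show c' • d • u.2 = d • c' • u.2
              rw [smul_comm]
            · show -(c' • d • u.1) = d • -(c' • u.1)
              rw [smul_comm, smul_neg] }
      have hjJ : ∀ u : ↥U × ↥U, j • u = J u := by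
        intro u
        ext
        · show polar Q z' (((j : ↥(Om Q)) : V ≃ₗ[F] V) z) • ((j : ↥(Om Q)) : V ≃ₗ[F] V) (u.1 : V) +
            polar Q z' (((j : ↥(Om Q)) : V ≃ₗ[F] V) b) • ((j : ↥(Om Q)) : V ≃ₗ[F] V) (u.2 : V) = c' • (u.2 : V)
          rw [hjz, hjb, hjU _ u.1.2, hjU _ u.2.2, polar_smul_right, polar_smul_right, hz'b, hz'z]
          simp
        · show polar Q b' (((j : ↥(Om Q)) : V ≃ₗ[F] V) z) • ((j : ↥(Om Q)) : V ≃ₗ[F] V) (u.1 : V) +
            polar Q b' (((j : ↥(Om Q)) : V ≃ₗ[F] V) b) • ((j : ↥(Om Q)) : V ≃ₗ[F] V) (u.2 : V) = -(c' • (u.1 : V))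
          rw [hjz, hjb, hjU _ u.1.2, hjU _ u.2.2, polar_smul_right, polar_smul_right, hb'b, hb'z]
          simp
      refine no_i hF B hB27 J (fun u hu => ?_) (fun u => ?_)
      · rw [← hjJ]
        have := AddSubgroup.smul_mem_pointwise_smul _ j _ hu
        rwa [hjB] at this
      · show (c' • (-(c' • u.1)), -(c' • (c' • u.2))) = -u
        ext
        · show c' • (-(c' • (u.1 : V))) = -(u.1 : V)
          rw [smul_neg, smul_smul, hcc1, one_smul]
        · show -(c' • (c' • (u.2 : V))) = -(u.2 : V)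
          rw [smul_smul, hcc1, one_smul]
  rcases inv2_cases hQ hUn (by omega) hInv with hB0 | hB0 | hB0
  · exfalso
    have hm' : m = 729 := by
      rw [hB0, AddSubgroup.card_bot, mul_one] at hprod
      omega
    have hone : 0 < k := by
      rw [hkk]
      have : Nonempty (MulAction.orbit ↥(Gl Q z b z' b' U) B) := ⟨⟨B, MulAction.mem_orbit_self _⟩⟩
      exact Nat.card_pos
    have := Nat.mul_le_mul_left (3 * m) hone
    rw [hm'] at this hk
    omega
  · exfalso
    have hm' : m = 1 := by
      rw [hm, hB0, Nat.card_eq_one_iff_unique]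
      exact ⟨QuotientAddGroup.subsingleton_quotient_top, ⟨0⟩⟩
    rw [hm'] at hq
    norm_num at hq
  · exact hB0

end

end Cfsg.Agent.Lib.Coop
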