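import Mathlib
import Cfsg.Agent.Lib.CoopV

set_option autoImplicit false
set_option linter.unusedSectionVars false

/-!
Minimal index, odd dimension, three elements.
-/

namespace Cfsg.Agent.Lib.Coop

open QuadraticMap Module Cfsg.Agent.Lib.Quad Cfsg.Agent.Lib.ClOrthSiegel Cfsg.Agent.Lib.OrthNd
  Cfsg.Agent.Lib.OrthMax Cfsg.Agent.Lib.ClOrthOrd Cfsg.Agent.Lib.ClOmega
open scoped Pointwise

section

variable {F V : Type*} [Field F] [AddCommGroup V] [Module F V] [FiniteDimensional F V]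
  {Q : QuadraticForm F V}

theorem orbN_nine [Finite F] (hQ : Nd Q) (hgen : GenHyp Q) (h2 : (2 : F) ≠ 0) (hn : 9 ≤ finrank F V) :
    OrbN Q (Nat.card F ^ (finrank F V - 8) + 1) := by
  classical
  have : Finite V := Module.finite_of_finite F
  intro U y y' hU hy hy' hQy hQy' hyy' hUd _ v hv hv0
  set W := U ⊓ perp Q (Submodule.span F {y, y'}) with hW
  have hWn : NDs Q W := nds_cut hQ hU hy hy' hQy hQy' hyy'
  have hWd := finrank_cut hQ U y y'
  rw [← hW] at hWd
  have hW3 : 3 ≤ finrank F W := by omega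
  obtain ⟨d, hd, hQd, hdv⟩ : ∃ d ∈ W, Q d = 0 ∧ polar Q d v ≠ 0 := by
    by_contra hcon
    push Not at hcon
    exact hv0 (eq_zero_of_sing hQ hWn hW3 hv hcon)
  have hd0 : d ≠ 0 := by
    rintro rfl
    exact hdv (polar_zero_left _ _)
  obtain ⟨d', hd', hQd', hdd'⟩ := exists_partner hQ hWn hd hd0 hQd
  set W' := W ⊓ perp Q (Submodule.span F {d, d'}) with hW'
  have hW'd := finrank_cut hQ W d d'
  rw [← hW'] at hW'd
  have hW'n : NDs Q W' := nds_cut hQ hWn hd hd' hQd hQd' hdd'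
  have hmW : ∀ w ∈ W, w ∈ U ∧ polar Q y w = 0 ∧ polar Q y' w = 0 := fun w hw => mem_cut.1 hw
  have hdd : polar Q d d = 0 := by rw [polar_self', hQd, mul_zero]
  have hd'd : polar Q d' d = 1 := by rw [polar_comm]; exact hdd'
  -- a second singular vector
  obtain ⟨e₀, he₀, hne⟩ : ∃ e ∈ W', polar Q (d' + e - Q e • d) v ≠ 0 := by
    by_contra hcon
    push Not at hcon
    have h0 := hcon 0 W'.zero_mem
    rw [map_zero, zero_smul, sub_zero, add_zero] at h0
    have h1 : ∀ e ∈ W', polar Q e v = Q e * polar Q d v := by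
      intro e he
      have := hcon e he
      rw [sub_eq_add_neg, polar_add_left, polar_add_left, h0, polar_neg_left, polar_smul_left, smul_eq_mul] at this
      linear_combination this
    have h3 : ∀ e ∈ W', Q e = 0 := by
      intro e he
      have h4 := h1 e he
      have h5 := h1 (-e) (W'.neg_mem he)
      rw [polar_neg_left, QuadraticMap.map_neg, h4] at h5
      have : (2 : F) * (Q e * polar Q d v) = 0 := by linear_combination -h5
      exact (mul_eq_zero.1 ((mul_eq_zero.1 this).resolve_left h2)).resolve_right hdv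
    obtain ⟨w, hw, w', hw', hww'⟩ := nds_pair hW'n (cut_ne_bot hQ hW3 d d')
    exact hww' (polar_of_ts h3 hw hw')
  set d₂ := d' + e₀ - Q e₀ • d with hd₂
  have he₀1 := mem_cut.1 he₀
  have hd₂W : d₂ ∈ W := W.sub_mem (W.add_mem hd' he₀1.1) (W.smul_mem _ hd)
  have hdd₂ : polar Q d d₂ = 1 := by
    rw [hd₂, polar_sub_right, polar_add_right, polar_smul_right, hdd', he₀1.2.1, hdd]; simp
  have hQd₂ : Q d₂ = 0 := by
    rw [hd₂, sub_eq_add_neg, Q_add, Q_add, QuadraticMap.map_neg, Q_smul, hQd, hQd', he₀1.2.2, polar_neg_right,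
      polar_smul_right, polar_add_left, hd'd, polar_comm Q e₀ d, he₀1.2.1]
    simp
  -- a nonsingular vector orthogonal to both
  have hW''n : NDs Q (W ⊓ perp Q (Submodule.span F {d, d₂})) := nds_cut hQ hWn hd hd₂W hQd hQd₂ hdd₂
  obtain ⟨e₂, he₂, hQe₂⟩ : ∃ e ∈ W ⊓ perp Q (Submodule.span F {d, d₂}), Q e ≠ 0 := by
    by_contra hcon
    push Not at hcon
    obtain ⟨w, hw, w', hw', hww'⟩ := nds_pair hW''n (cut_ne_bot hQ hW3 d d₂)
    exact hww' (polar_of_ts hcon hw hw')
  have he₂1 := mem_cut.1 he₂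
  have hd₂d : polar Q d₂ d = 1 := by rw [polar_comm]; exact hdd₂
  -- the value of `polar d` on the image
  have hval : ∀ σ : F, σ * σ = 1 → polar Q d (E hQ d₂ (σ • e₂) v) =
      polar Q d v - (σ * polar Q e₂ v + Q e₂ * polar Q d₂ v) := by
    intro σ hσ
    have hp : polar Q d₂ (σ • e₂) = 0 := by rw [polar_smul_right, he₂1.2.2, smul_zero]
    rw [E_apply hQ hQd₂ hp, polar_sub_right, polar_sub_right, polar_add_right]
    simp only [polar_smul_right, polar_smul_left, Q_smul, smul_eq_mul, he₂1.2.1, hdd₂]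
    linear_combination (-(Q e₂ * polar Q d₂ v)) * hσ
  obtain ⟨σ, hσ, hσne⟩ : ∃ σ : F, σ * σ = 1 ∧ polar Q d (E hQ d₂ (σ • e₂) v) ≠ polar Q d v := by
    by_contra hcon
    push Not at hcon
    have h1 := hcon 1 (by ring)
    have h3 := hcon (-1) (by ring)
    rw [hval _ (by ring)] at h1 h3
    have h4 : (2 : F) * (Q e₂ * polar Q d₂ v) = 0 := by linear_combination -h1 - h3
    rcases mul_eq_zero.1 ((mul_eq_zero.1 h4).resolve_left h2) with h5 | h5
    · exact hQe₂ h5
    · exact hne h5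
  let f : ↥W' → V := fun e => E hQ d (e : V) v
  have hdE : ∀ e ∈ W', polar Q d (E hQ d e v) = polar Q d v := by
    intro e he
    have h1 := mem_cut.1 he
    rw [E_apply hQ hQd h1.2.1, polar_sub_right, polar_sub_right, polar_add_right, polar_smul_right, polar_smul_right,
      polar_smul_right, h1.2.1, polar_self', hQd]
    simp
  have hf : Function.Injective f := by
    rintro ⟨e, he⟩ ⟨e₂, he₂⟩ h3
    change E hQ d e v = E hQ d e₂ v at h3
    have he1 := mem_cut.1 he
    have he₂1 := mem_cut.1 he₂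
    rw [E_apply hQ hQd he1.2.1, E_apply hQ hQd he₂1.2.1] at h3
    have h4 : polar Q d v • (e - e₂) = (polar Q e v - polar Q e₂ v + Q e * polar Q d v - Q e₂ * polar Q d v) • d := by
      have h5 := sub_eq_zero.2 h3
      have e1 : polar Q d v • (e - e₂) - (polar Q e v - polar Q e₂ v + Q e * polar Q d v - Q e₂ * polar Q d v) • d
          = v + polar Q d v • e - polar Q e v • d - (Q e * polar Q d v) • d -
            (v + polar Q d v • e₂ - polar Q e₂ v • d - (Q e₂ * polar Q d v) • d) := by module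
      rw [h5] at e1
      exact sub_eq_zero.1 e1
    obtain ⟨k, hk⟩ : ∃ k, k = polar Q e v - polar Q e₂ v + Q e * polar Q d v - Q e₂ * polar Q d v := ⟨_, rfl⟩
    rw [← hk] at h4
    have hk0 : k = 0 := by
      have h6 : polar Q d' (polar Q d v • (e - e₂)) = polar Q d' (k • d) := by rw [h4]
      rw [polar_smul_right, polar_sub_right, he1.2.2, he₂1.2.2, polar_smul_right, hd'd] at h6
      simpa using h6.symm
    rw [hk0, zero_smul] at h4
    have h7 : e = e₂ := sub_eq_zero.1 ((smul_eq_zero.1 h4).resolve_left hdv)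
    subst h7
    rfl
  have := Fintype.ofFinite ↥W'
  have hnot : E hQ d₂ (σ • e₂) v ∉ Finset.univ.image f := by
    intro h
    obtain ⟨⟨e, he⟩, -, hee⟩ := Finset.mem_image.1 h
    apply hσne
    rw [← hee]
    exact hdE e he
  -- Siegel elements of `W`
  have hE : ∀ d e : V, d ∈ W → e ∈ W → Q d = 0 → polar Q d e = 0 → ∃ h ∈ Om Q, (∀ x ∈ perp Q U, h x = x) ∧
      ∃ c : F, c ≠ 0 ∧ h y = c • y ∧ (∀ w, h w ∈ W ↔ w ∈ W) ∧ c • (E hQ d e v) = h v := by
    intro d e hd he hQd hde
    have heW := hmW e he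
    have hdW := hmW d hd
    have hEfix : ∀ x, polar Q d x = 0 → polar Q e x = 0 → E hQ d e x = x := by
      intro x h1 h2
      rw [E_apply hQ hQd hde, h1, h2]; simp
    have hf' : ∀ x ∈ perp Q U, (E hQ d e) x = x := by
      intro x hx
      have h1 : ∀ u ∈ U, polar Q u x = 0 := fun u hu => by
        rw [polar_comm]; exact mem_perp'.1 hx u hu
      exact hEfix x (h1 d hdW.1) (h1 e heW.1)
    have hm : E hQ d e ∈ Om Q := E_mem_Om hQ hgen d e
    have hhy : (E hQ d e) y = (1 : F) • y := by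
      rw [one_smul]; exact hEfix y (by rw [polar_comm]; exact hdW.2.1) (by rw [polar_comm]; exact heW.2.1)
    have hhy' : (E hQ d e) y' = (1 : F) • y' := by
      rw [one_smul]; exact hEfix y' (by rw [polar_comm]; exact hdW.2.2) (by rw [polar_comm]; exact heW.2.2)
    exact ⟨E hQ d e, hm, hf', 1, one_ne_zero, hhy, cut_iff hQ hU (Om_le hm) hf' one_ne_zero one_ne_zero hhy hhy',
      one_smul _ _⟩
  refine ⟨insert (E hQ d₂ (σ • e₂) v) (Finset.univ.image f), ?_, fun v' hv' => ?_⟩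
  · rw [Finset.card_insert_of_notMem hnot, Finset.card_image_of_injective _ hf, Finset.card_univ,
      ← Nat.card_eq_fintype_card, Module.natCard_eq_pow_finrank (K := F) (V := ↥W')]
    exact Nat.add_le_add_right (Nat.pow_le_pow_right Nat.card_pos (by omega)) _
  · rcases Finset.mem_insert.1 hv' with rfl | hv'
    · exact hE d₂ (σ • e₂) hd₂W (W.smul_mem _ he₂1.1) hQd₂ (by rw [polar_smul_right, he₂1.2.2, smul_zero])
    · obtain ⟨⟨e, he⟩, -, rfl⟩ := Finset.mem_image.1 hv'
      have he1 := mem_cut.1 he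
      exact hE d e hd he1.1 hQd he1.2.1

end

section Odd

variable {F : Type*} [Field F] {m : ℕ}

/-- **Minimal index**, odd dimension, three elements -/
theorem odd3_main [Fintype F] (hF : Fintype.card F = 3) (hm : 3 ≤ m) :
    (∀ K : Subgroup ↥(Om (quadOdd m F)), K ≠ ⊤ → 3 ^ m * (3 ^ m - 1) / 2 ≤ K.index) ∧
    ∃ K : Subgroup ↥(Om (quadOdd m F)), Subgroup.center _ ≤ K ∧
      K.index = 3 ^ m * (3 ^ m - 1) / 2 := by
  have h2 : (2 : F) ≠ 0 := two_ne_zero_of_odd hF (by decide)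
  have hQ : Nd (quadOdd m F) := nd_quadOdd h2
  have hgen : GenHyp (quadOdd m F) := genHyp_odd m hm
  have hfr := frame_of_HP (hpOdd (F := F) m)
  have hn : finrank F (Unit ⊕ (Fin m ⊕ Fin m) → F) = 2 * m + 1 := finrank_odd
  have hFn : Nat.card F = 3 := by rw [Nat.card_eq_fintype_card, hF]
  have hodd : Odd (3 ^ m) := Odd.pow (by decide)
  obtain ⟨B, hB⟩ : ∃ B, 3 ^ m * (3 ^ m - 1) = 2 * B := by
    obtain ⟨k, hk⟩ := hodd
    exact ⟨3 ^ m * k, by rw [hk, Nat.add_sub_cancel]; ring⟩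
  have hBd : 3 ^ m * (3 ^ m - 1) / 2 = B := by
    rw [hB]; exact Nat.mul_div_cancel_left _ (by norm_num)
  rw [hBd]
  have hsing := card_sing_odd (F := F) hF m
  have hpw : 1 ≤ 3 ^ m := Nat.one_le_pow _ _ (by norm_num)
  have e2m : 3 ^ (2 * m) = 3 ^ m * 3 ^ m := by rw [← pow_add]; congr 1; omega
  have hB' : 2 * B + 3 ^ m = 3 ^ (2 * m) := by
    rw [← hB, e2m]
    obtain ⟨x, hx⟩ : ∃ x, 3 ^ m = x + 1 := ⟨3 ^ m - 1, by omega⟩
    rw [hx, Nat.add_sub_cancel]; ring
  have hNc : ∀ c : F, c ≠ 0 → (2 : F) ≠ 0 → B * 2 ≤ Nat.card {u : Unit ⊕ (Fin m ⊕ Fin m) → F //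
      quadOdd m F u = c} := by
    intro c _ _
    have h1 := Nc_odd_ge c m
    rw [hF] at h1
    change _ ≤ Nc (quadOdd m F) c
    omega
  have hfp : Fact (Nat.Prime 3) := ⟨Nat.prime_three⟩
  have hchar : CharP F 3 := by
    obtain ⟨p, hpF, hpC, -, -⟩ := exists_char_prime F
    have h3 : p ∣ Fintype.card F := prime_dvd_card
    rw [hF] at h3
    have := (Nat.prime_dvd_prime_iff_eq hpF.out Nat.prime_three).1 h3
    subst this
    exact hpC
  constructor
  · intro K hK
    rcases Nat.lt_or_ge m 4 with h4 | h4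
    · have hm3 : m = 3 := by omega
      subst hm3
      by_contra hcon
      push Not at hcon
      have hB351 : B = 351 := by omega
      have : Finite (Unit ⊕ (Fin 3 ⊕ Fin 3) → F) := inferInstance
      have : Finite ↥(Om (quadOdd 3 F)) := Finite.of_injective
        (fun g => ((g : (Unit ⊕ (Fin 3 ⊕ Fin 3) → F) ≃ₗ[F] (Unit ⊕ (Fin 3 ⊕ Fin 3) → F)) :
          (Unit ⊕ (Fin 3 ⊕ Fin 3) → F) → (Unit ⊕ (Fin 3 ⊕ Fin 3) → F))) (fun g h hgh =>
        Subtype.ext (LinearEquiv.ext fun x => congrFun hgh x))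
      have hD := dich7_three (X := ↥(Om (quadOdd 3 F)) ⧸ K) hQ hgen hFn hn (QuotientGroup.mk 1)
        (hB351 ▸ hcon)
      rw [St_quot] at hD
      have := index_ge_of_dich (B := B) hQ hgen hfr le_rfl (by rw [hn]) (by rw [hFn, hsing]; omega) hNc
        (fun c _ h => absurd h h2) K hK hD
      omega
    · have h6 := orbN_nine hQ hgen h2 (by rw [hn]; omega)
      rw [hn, hFn] at h6
      refine min_index (p := 3) hQ hgen hfr hm (by rw [hn]; omega) h6 ?_ ?_ ?_ hNc (fun c _ h => absurd h h2) K hK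
      · rw [hn, hFn]
        obtain ⟨k, rfl⟩ : ∃ k, m = k + 4 := ⟨m - 4, by omega⟩
        have e1 : 2 * (k + 4) + 1 - 4 = 2 * k + 5 := by omega
        have e2 : 2 * (k + 4) + 1 - 8 = 2 * k + 1 := by omega
        rw [e1, e2]
        have h7 : 3 ≤ 3 ^ (2 * k + 1) := Nat.le_self_pow (by omega) 3
        have h8 : 3 * 3 ^ (2 * k + 5) * (3 + 1 + 1) ≤ 3 * 3 ^ (2 * k + 5) * (3 ^ (2 * k + 1) + 1 + 1) :=
          Nat.mul_le_mul_left _ (by omega)
        refine le_trans ?_ h8
        have e3 : 3 ^ (2 * (k + 4)) = 3 ^ (2 * k + 5) * 27 := by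
          rw [show 2 * (k + 4) = (2 * k + 5) + 3 by ring, pow_add]; norm_num
        rw [e3] at hB'
        omega
      · rw [hn, hFn]
        have h7 : 3 ^ (2 * m) ≤ 3 ^ (2 * (2 * m + 1 - 4)) := Nat.pow_le_pow_right (by omega) (by omega)
        omega
      · rw [hFn, hsing]; omega
  · -- a nonsingular point
    have hns : ¬ IsSquare (-1 : F) := by
      rw [FiniteField.isSquare_neg_one_iff, hF]
      exact fun h => h rfl
    have hc := Nc_odd_one h2 m (-1 : F) hns
    rw [hF] at hc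
    have hpos : 0 < Nc (quadOdd m F) (-1 : F) := by
      have h3 : 3 ^ m < 3 ^ (2 * m) := Nat.pow_lt_pow_right (by norm_num) (by omega)
      omega
    have hne : Nonempty {v : Unit ⊕ (Fin m ⊕ Fin m) → F // quadOdd m F v = -1} := by
      by_contra hcon
      rw [not_nonempty_iff] at hcon
      have : Nc (quadOdd m F) (-1 : F) = 0 := Nat.card_of_isEmpty
      omega
    obtain ⟨v, hv⟩ := hne
    have hQv : quadOdd m F v ≠ 0 := by rw [hv]; exact neg_ne_zero.2 one_ne_zero
    refine ⟨LS _ v, center_le_LS hQ (hQ.R_eq_O hgen) hfr hm v, ?_⟩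
    have h1 := index_LS_nonsing hQ hgen hfr hm (v := v) hQv (d := 2) (fun h => absurd h h2) (fun _ => rfl)
    rw [hv] at h1
    change Nc (quadOdd m F) (-1 : F) = _ at h1
    omega

end Odd

end Cfsg.Agent.Lib.Coop
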