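import Cfsg.Agent.Lib.CosetOrder

/-!
# Maximality from suborbits when only a block of half the degree remains
-/

set_option autoImplicit false

namespace Cfsg.Agent.Lib.CosetMax2

open Cfsg.Agent.Lib.BenesWord Cfsg.Agent.Lib.CosetGroup Cfsg.Agent.Lib.CoxBridge

/-- a subgroup of index two contains the elements of odd order -/
theorem pow_mem_of_index_two {G : Type*} [Group G] {K : Subgroup G} (hK : K.index = 2) {p : ℕ} (hp : p % 2 = 1)
    {g : G} (hg : g ^ p = 1) : g ∈ K := by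
  have h2 : g ^ 2 ∈ K := Subgroup.sq_mem_of_index_two hK g
  have h3 : g ^ (2 * (p / 2)) ∈ K := by rw [pow_mul]; exact K.pow_mem h2 _
  have e : p = 2 * (p / 2) + 1 := by omega
  rw [e, pow_succ] at hg
  have h4 : g = (g ^ (2 * (p / 2)))⁻¹ := by
    rw [eq_inv_iff_mul_eq_one]
    rw [← hg]
    exact (Commute.self_pow g _).eq
  rw [h4]
  exact K.inv_mem h3

theorem maximal_of_block2 {G : Type*} [Group G] {H : Subgroup G} {n : ℕ} (hidx : H.index = n) (hn : 0 < n) {r : ℕ}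
    (m : Fin r → ℕ) (hblock : ∀ K : Subgroup G, H ≤ K → ∃ I : Finset (Fin r), H.relIndex K = 1 + ∑ i ∈ I, m i)
    (harith : ∀ I : Finset (Fin r), (1 + ∑ i ∈ I, m i) ∣ n → (1 + ∑ i ∈ I, m i) = 1 ∨ (1 + ∑ i ∈ I, m i) = n ∨
      (1 + ∑ i ∈ I, m i) * 2 = n)
    (h2 : ∀ K : Subgroup G, K.index = 2 → K = ⊤) :
    ∀ K : Subgroup G, H ≤ K → K = H ∨ K = ⊤ := by
  intro K hK
  obtain ⟨I, hI⟩ := hblock K hK
  have h1 := Subgroup.relIndex_mul_index hK
  rw [hidx, hI] at h1
  rcases harith I (Dvd.intro _ h1) with h | h | h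
  · left
    rw [h] at hI
    exact le_antisymm (Subgroup.relIndex_eq_one.mp hI) hK
  · right
    rw [h] at h1
    have h3 : K.index = 1 := by
      have : n * K.index = n * 1 := by rw [h1, mul_one]
      exact Nat.eq_of_mul_eq_mul_left hn this
    exact Subgroup.index_eq_one.mp h3
  · right
    apply h2
    have h3 : 0 < 1 + ∑ i ∈ I, m i := by omega
    exact Nat.eq_of_mul_eq_mul_left h3 (h1.trans h.symm)

theorem top_of_index_two {G : Type*} [Group G] {x : ℕ → G} {nc p : ℕ} (hp : p % 2 = 1)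
    (hgen : Subgroup.closure (wset x (letterW nc)) = ⊤)
    (hlet : ∀ N : Subgroup G, N.Normal → (∀ g : G, g ^ p = 1 → g ∈ N) → ∀ c, c < nc → x c ∈ N)
    (K : Subgroup G) (hK : K.index = 2) : K = ⊤ := by
  rw [eq_top_iff, ← hgen, Subgroup.closure_le]
  rintro _ ⟨W, hW, rfl⟩
  obtain ⟨c, hc, rfl⟩ := List.mem_map.mp hW
  exact hlet K (Subgroup.normal_of_index_eq_two hK) (fun g hg => pow_mem_of_index_two hK hp hg) c (List.mem_range.mp hc)

end Cfsg.Agent.Lib.CosetMax2
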