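import Mathlib
import Cfsg.Agent.Lib.ExtField
import Cfsg.Agent.Lib.ExtBrH94

/-!
(helper67) Groups covered by the conjugates of two proper subgroups: the linear groups of dimension 2, 3, 4.
-/

set_option autoImplicit false
set_option linter.unusedSectionVars false

namespace Cfsg.Agent.Lib.Cov67

open Polynomial Module

universe u v w

/-- covered by the conjugates of two proper subgroups -/
def Cov (G : Type*) [Group G] : Prop :=
  ∃ H K : Subgroup G, H ≠ ⊤ ∧ K ≠ ⊤ ∧ ∀ g : G, ∃ x : G, x * g * x⁻¹ ∈ H ∨ x * g * x⁻¹ ∈ K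

theorem Cov.quot {G : Type*} [Group G] (N : Subgroup G) [N.Normal] {H K : Subgroup G} (hH : N ≤ H) (hK : N ≤ K) (hH' : H ≠ ⊤)
    (hK' : K ≠ ⊤) (h : ∀ g : G, ∃ x : G, x * g * x⁻¹ ∈ H ∨ x * g * x⁻¹ ∈ K) : Cov (G ⧸ N) := by
  have key : ∀ {H : Subgroup G}, N ≤ H → H ≠ ⊤ → H.map (QuotientGroup.mk' N) ≠ ⊤ := by
    intro H hN hH h
    apply hH
    rw [eq_top_iff]
    intro g _
    have h0 : (QuotientGroup.mk' N) g ∈ H.map (QuotientGroup.mk' N) := by rw [h]; trivial
    obtain ⟨y, hy, hyg⟩ := h0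
    have h1 : y⁻¹ * g ∈ N := QuotientGroup.eq.1 hyg
    have h2 := H.mul_mem hy (hN h1)
    rwa [mul_inv_cancel_left] at h2
  refine ⟨H.map (QuotientGroup.mk' N), K.map (QuotientGroup.mk' N), key hH hH', key hK hK', fun g => ?_⟩
  obtain ⟨g, rfl⟩ := QuotientGroup.mk_surjective g
  obtain ⟨x, hx⟩ := h g
  exact ⟨(x : G ⧸ N), hx.imp (fun h => ⟨_, h, rfl⟩) (fun h => ⟨_, h, rfl⟩)⟩

section poly
variable {F : Type u} [Field F] [Finite F]

theorem exists_P {h f : F[X]} (hh : Irreducible h) (hf : Irreducible f) (hd : h.natDegree ∣ f.natDegree) : ∃ P : F[X], f ∣ h.comp P := by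
  have h1 : Fact (Irreducible h) := ⟨hh⟩
  have h3 : Fact (Irreducible f) := ⟨hf⟩
  have h4 : Module.Finite F (AdjoinRoot h) := (AdjoinRoot.powerBasis hh.ne_zero).finite
  have h5 : Module.Finite F (AdjoinRoot f) := (AdjoinRoot.powerBasis hf.ne_zero).finite
  have h6 : finrank F (AdjoinRoot h) = h.natDegree := by
    rw [(AdjoinRoot.powerBasis hh.ne_zero).finrank, AdjoinRoot.powerBasis_dim]
  have h7 : finrank F (AdjoinRoot f) = f.natDegree := by
    rw [(AdjoinRoot.powerBasis hf.ne_zero).finrank, AdjoinRoot.powerBasis_dim]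
  have h8 : Finite (AdjoinRoot f) := Module.finite_of_finite F
  obtain ⟨φ⟩ := FiniteField.nonempty_algHom_of_finrank_dvd (F := F) (K := AdjoinRoot h) (L := AdjoinRoot f) (by rw [h6, h7]; exact hd)
  obtain ⟨P, hP⟩ := AdjoinRoot.mk_surjective (g := f) (φ (AdjoinRoot.root h))
  refine ⟨P, ?_⟩
  rw [← AdjoinRoot.mk_eq_zero]
  have h9 : aeval (AdjoinRoot.mk f P) h = 0 := by
    rw [hP]
    have : aeval (φ (AdjoinRoot.root h)) h = φ (aeval (AdjoinRoot.root h) h) := (aeval_algHom_apply φ _ _)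
    rw [this]
    have h10 : aeval (AdjoinRoot.root h) h = 0 := by
      rw [aeval_def, AdjoinRoot.algebraMap_eq, AdjoinRoot.eval₂_root]
    rw [h10, map_zero]
  have h11 : aeval (AdjoinRoot.mk f P) h = AdjoinRoot.mk f (h.comp P) := by
    have e1 : (AdjoinRoot.mk f P) = (AdjoinRoot.mkₐ f : F[X] →ₐ[F] AdjoinRoot f) P := rfl
    rw [e1, aeval_algHom_apply]
    show (AdjoinRoot.mkₐ f : F[X] →ₐ[F] AdjoinRoot f) (aeval P h) = _
    rw [← comp_eq_aeval]
    rfl
  rw [← h11, h9]

theorem comp_sub_dvd (h P Q : F[X]) : P - Q ∣ h.comp P - h.comp Q := by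
  rw [comp_eq_aeval, comp_eq_aeval]
  have h1 : ∀ R : F[X], aeval R h = eval R (h.map (C : F →+* F[X])) := fun R => by
    rw [aeval_def, eval₂_eq_eval_map]; rfl
  rw [h1, h1]
  exact sub_dvd_eval_sub P Q _

theorem exists_P' {h : F[X]} (hh : Irreducible h) : ∀ (n : ℕ) (M : F[X]), M.natDegree ≤ n → Squarefree M →
    (∀ f, Irreducible f → f ∣ M → h.natDegree ∣ f.natDegree) → ∃ P : F[X], M ∣ h.comp P := by
  intro n
  induction n using Nat.strong_induction_on with
  | _ n ih =>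
    intro M hM hsq hf
    have hM0 : M ≠ 0 := hsq.ne_zero
    by_cases hu : IsUnit M
    · exact ⟨0, hu.dvd⟩
    · obtain ⟨f, hfi, hfM⟩ := WfDvdMonoid.exists_irreducible_factor hu hM0
      obtain ⟨M', rfl⟩ := hfM
      obtain ⟨P1, hP1⟩ := exists_P hh hfi (hf f hfi (dvd_mul_right _ _))
      have hM'0 : M' ≠ 0 := right_ne_zero_of_mul hM0
      have hdeg : M'.natDegree < n := by
        have h1 := natDegree_mul hfi.ne_zero hM'0
        have h3 := hfi.natDegree_pos
        omega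
      obtain ⟨P2, hP2⟩ := ih _ hdeg M' le_rfl (hsq.squarefree_of_dvd (dvd_mul_left _ _))
        (fun g hg hgM => hf g hg (hgM.trans (dvd_mul_left _ _)))
      have hcop : IsCoprime f M' := by
        rw [Irreducible.coprime_iff_not_dvd hfi]
        rintro ⟨c, rfl⟩
        exact hfi.not_isUnit (hsq f ⟨c, by ring⟩)
      obtain ⟨u, v, huv⟩ := hcop
      refine ⟨P1 * (v * M') + P2 * (u * f), ?_⟩
      apply IsCoprime.mul_dvd ⟨u, v, huv⟩
      · have h1 : f ∣ (P1 * (v * M') + P2 * (u * f)) - P1 := ⟨P2 * u - P1 * u, by linear_combination P1 * huv⟩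
        have h3 := (h1.trans (comp_sub_dvd h _ _))
        exact (dvd_sub_left hP1).1 h3
      · have h1 : M' ∣ (P1 * (v * M') + P2 * (u * f)) - P2 := ⟨P1 * v - P2 * v, by linear_combination P2 * huv⟩
        have h3 := (h1.trans (comp_sub_dvd h _ _))
        exact (dvd_sub_left hP2).1 h3

end poly

section lin
variable {F : Type u} [Field F] [Finite F] {V : Type v} [AddCommGroup V] [Module F V] [FiniteDimensional F V]

theorem eig_pow {p : ℕ} [hp : Fact p.Prime] [CharP F p] (g : Module.End F V) (k : ℕ) {v : V} (hv : v ≠ 0) {c : F} (h : (g ^ p ^ k) v = c • v) :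
    ∃ w ≠ 0, ∃ c : F, g w = c • w := by
  have hf := Fintype.ofFinite F
  obtain ⟨μ, hμ⟩ : ∃ μ : F, μ ^ p ^ k = c := by
    have hinj : Function.Injective (iterateFrobenius F p k) := (iterateFrobenius F p k).injective
    obtain ⟨μ, hμ⟩ := (Finite.injective_iff_surjective.1 hinj) c
    exact ⟨μ, by rw [← hμ, iterateFrobenius_def]⟩
  have h1 : (g - algebraMap F (Module.End F V) μ) ^ p ^ k = g ^ p ^ k - algebraMap F (Module.End F V) c := by
    have h3 : (X - C μ : F[X]) ^ p ^ k = X ^ p ^ k - C c := by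
      rw [sub_pow_char_pow, ← C_pow, hμ]
    have h4 := congrArg (aeval g) h3
    simpa using h4
  have h5 : ¬ Function.Injective (g - algebraMap F (Module.End F V) μ) := by
    intro hinj
    have h6 : Function.Injective ((g - algebraMap F (Module.End F V) μ) ^ p ^ k) := by
      rw [Module.End.coe_pow]; exact hinj.iterate _
    apply hv
    apply h6
    rw [h1, map_zero, LinearMap.sub_apply, h, Module.algebraMap_end_apply, sub_self]
  rw [← LinearMap.ker_eq_bot] at h5
  obtain ⟨w, hw, hw0⟩ := (Submodule.ne_bot_iff _).1 h5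
  refine ⟨w, hw0, μ, ?_⟩
  rw [LinearMap.mem_ker, LinearMap.sub_apply, Module.algebraMap_end_apply] at hw
  exact sub_eq_zero.1 hw

/-- an element without eigenvectors commutes with a root of `h` -/
theorem exists_comm {h : F[X]} (hh : Irreducible h) {n : ℕ} (hV : finrank F V = n)
    (hfac : ∀ a, 2 ≤ a → a ≤ n → a + 1 ≠ n → h.natDegree ∣ a) (g : V ≃ₗ[F] V) :
    (∃ v ≠ 0, ∃ c : F, g v = c • v) ∨ ∃ s : Module.End F V, (∀ v, s (g v) = g (s v)) ∧ aeval s h = 0 := by
  by_contra hcon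
  push Not at hcon
  obtain ⟨hne, hs⟩ := hcon
  obtain ⟨p, hchar⟩ := CharP.exists F
  have hp0 : p ≠ 0 := CharP.char_ne_zero_of_finite F p
  have hpp : Fact p.Prime := ⟨(CharP.char_is_prime_or_zero F p).resolve_right hp0⟩
  have hVf : Finite V := Module.finite_of_finite F
  have hGf : Finite (V ≃ₗ[F] V) := Finite.of_injective (fun e : V ≃ₗ[F] V => (e : V → V)) DFunLike.coe_injective
  have hopos : orderOf g ≠ 0 := (orderOf_pos g).ne'
  obtain ⟨k, m, hpm, hord⟩ := Nat.exists_eq_pow_mul_and_not_dvd hopos p hpp.1.ne_one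
  have hpow : ∀ k, (g ^ k).toLinearMap = (g.toLinearMap : Module.End F V) ^ k := by
    intro k
    induction k with
    | zero => rfl
    | succ k ih => rw [pow_succ, pow_succ, ← ih]; rfl
  set G : Module.End F V := g.toLinearMap with hG
  set T : Module.End F V := G ^ p ^ k with hT
  have hTm : T ^ m = 1 := by
    rw [hT, ← pow_mul, ← hord, ← hpow, pow_orderOf_eq_one]; rfl
  have hmF : (m : F) ≠ 0 := fun h0 => hpm ((CharP.cast_eq_zero_iff F p m).1 h0)
  have hsq : Squarefree (minpoly F T) := by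
    have h1 : (X ^ m - 1 : F[X]).Separable := Polynomial.X_pow_sub_one_separable_iff.2 hmF
    exact h1.squarefree.squarefree_of_dvd (minpoly.dvd F T (by simp [hTm]))
  have hTe : ∀ v ≠ 0, ∀ c : F, T v ≠ c • v := by
    intro v hv c hvc
    obtain ⟨w, hw0, d, hw⟩ := eig_pow (p := p) G k hv hvc
    exact hne w hw0 d hw
  have hroot : ∀ c : F, ¬ T.charpoly.IsRoot c := by
    intro c hc
    have h1 := (Module.End.hasEigenvalue_iff_isRoot_charpoly T c).2 hc
    obtain ⟨v, hv⟩ := h1.exists_hasEigenvector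
    exact hTe v hv.2 c (Module.End.mem_eigenspace_iff.1 hv.1)
  have hcd : T.charpoly.natDegree = n := by rw [LinearMap.charpoly_natDegree, hV]
  have hcm := LinearMap.charpoly_monic T
  have hlin : ∀ f : F[X], f ∣ T.charpoly → f.natDegree ≠ 1 := by
    intro f hf h1
    obtain ⟨c, hc⟩ := exists_root_of_degree_eq_one (degree_eq_iff_natDegree_eq_of_pos (by norm_num) |>.2 h1)
    exact hroot c (hc.dvd hf)
  obtain ⟨P, hP⟩ := exists_P' hh _ (minpoly F T) le_rfl hsq (by
    intro f hf hfM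
    have h1 : f ∣ T.charpoly := hfM.trans (LinearMap.minpoly_dvd_charpoly T)
    obtain ⟨f', hf'⟩ := h1
    have hf0 : f ≠ 0 := hf.ne_zero
    have hf'0 : f' ≠ 0 := by rintro rfl; rw [mul_zero] at hf'; exact hcm.ne_zero hf'
    have h3 := natDegree_mul hf0 hf'0
    rw [← hf', hcd] at h3
    have h4 := hlin f ⟨f', hf'⟩
    have h5 := hlin f' ⟨f, by rw [hf', mul_comm]⟩
    have h6 := hf.natDegree_pos
    exact hfac _ (by omega) (by omega) (by omega))
  refine hs (aeval T P) (fun v => ?_) ?_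
  · have hc : Commute G T := by rw [hT]; exact (Commute.refl G).pow_right _
    have hc' : Commute G (aeval T P) := by
      have : aeval T P ∈ Algebra.adjoin F {T} := Polynomial.aeval_mem_adjoin_singleton F T
      refine Algebra.adjoin_induction (p := fun x _ => Commute G x) ?_ ?_ ?_ ?_ this
      · intro x hx; rw [Set.mem_singleton_iff.1 hx]; exact hc
      · intro r; exact (Algebra.commutes r G).symm
      · intro x y _ _ hx hy; exact hx.add_right hy
      · intro x y _ _ hx hy; exact hx.mul_right hy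
    exact (congrArg (fun S : Module.End F V => S v) hc'.eq).symm
  · rw [← aeval_comp]
    obtain ⟨R, hR⟩ := hP
    rw [hR, map_mul, minpoly.aeval, zero_mul]

theorem dual1 {u z : V} (h : u ∉ Submodule.span F {z}) : ∃ α : Dual F V, α u = 1 ∧ α z = 0 := by
  obtain ⟨α, hα, hα'⟩ := Submodule.exists_dual_map_eq_bot_of_notMem h inferInstance
  refine ⟨(α u)⁻¹ • α, ?_, ?_⟩
  · rw [LinearMap.smul_apply, smul_eq_mul, inv_mul_cancel₀ hα]
  · have : α z ∈ (Submodule.span F {z}).map α := ⟨z, Submodule.mem_span_singleton_self z, rfl⟩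
    rw [hα', Submodule.mem_bot] at this
    rw [LinearMap.smul_apply, this, smul_zero]

theorem exists_map {v w : V} (hv : v ≠ 0) (hw : w ≠ 0) : ∃ x : V ≃ₗ[F] V, x v = w := by
  by_cases h : ∃ c : F, w = c • v
  · obtain ⟨c, rfl⟩ := h
    have hc : c ≠ 0 := by rintro rfl; exact hw (zero_smul _ _)
    exact ⟨LinearEquiv.smulOfNeZero F V c hc, rfl⟩
  · push Not at h
    obtain ⟨α, h1, h3⟩ : ∃ α : Dual F V, α v = 1 ∧ α (w - v) = 0 := dual1 (by
      intro hm
      obtain ⟨a, ha⟩ := Submodule.mem_span_singleton.1 hm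
      have ha0 : a ≠ 0 := by rintro rfl; rw [zero_smul] at ha; exact hv ha.symm
      apply h (1 + a⁻¹)
      have e1 : w - v = a⁻¹ • v := by
        conv_rhs => rw [← ha]
        rw [smul_smul, inv_mul_cancel₀ ha0, one_smul]
      rw [add_smul, one_smul, ← e1]; abel)
    refine ⟨SLMax.tr (w - v) α h3, ?_⟩
    rw [SLMax.tr_apply, h1, one_smul]; abel

/-- stabilizer of a line -/
def lineStab (F : Type u) [Field F] {V : Type v} [AddCommGroup V] [Module F V] (e : V) : Subgroup (V ≃ₗ[F] V) where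
  carrier := {x | ∃ c : F, c ≠ 0 ∧ x e = c • e}
  one_mem' := ⟨1, one_ne_zero, by simp⟩
  mul_mem' := by
    rintro a b ⟨c, hc, h⟩ ⟨d, hd, h'⟩
    refine ⟨d * c, mul_ne_zero hd hc, ?_⟩
    rw [LinearEquiv.mul_apply, h', map_smul, h, smul_smul]
  inv_mem' := by
    rintro a ⟨c, hc, h⟩
    refine ⟨c⁻¹, inv_ne_zero hc, ?_⟩
    apply a.injective
    have h1 : a (a⁻¹ e) = e := a.apply_symm_apply e
    rw [h1, map_smul, h, smul_smul, inv_mul_cancel₀ hc, one_smul]

/-- centralizer of an endomorphism -/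
def endCent {F : Type u} [Field F] {V : Type v} [AddCommGroup V] [Module F V] (s : Module.End F V) : Subgroup (V ≃ₗ[F] V) where
  carrier := {x | ∀ v, x (s v) = s (x v)}
  one_mem' := fun v => rfl
  mul_mem' := by
    intro a b h h' v
    rw [LinearEquiv.mul_apply, LinearEquiv.mul_apply, h', h]
  inv_mem' := by
    intro a h v
    apply a.injective
    have h1 : ∀ w, a (a⁻¹ w) = w := fun w => a.apply_symm_apply w
    rw [h1, h, h1]

theorem exists_s0 {h : F[X]} (hh : Irreducible h) {n : ℕ} (hV : finrank F V = n) (hd : h.natDegree ∣ n) : ∃ s : Module.End F V, aeval s h = 0 := by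
  have h1 : Fact (Irreducible h) := ⟨hh⟩
  have h4 : Module.Finite F (AdjoinRoot h) := (AdjoinRoot.powerBasis hh.ne_zero).finite
  have h6 : finrank F (AdjoinRoot h) = h.natDegree := by
    rw [(AdjoinRoot.powerBasis hh.ne_zero).finrank, AdjoinRoot.powerBasis_dim]
  obtain ⟨k, rfl⟩ := hd
  let W := Fin k → AdjoinRoot h
  have hW : finrank F W = h.natDegree * k := by
    rw [Module.finrank_pi_fintype]; simp [h6, mul_comm]
  let e : V ≃ₗ[F] W := LinearEquiv.ofFinrankEq V W (by rw [hV, hW])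
  let φ : AdjoinRoot h →ₐ[F] Module.End F W := Algebra.lsmul F F W
  let ψ : Module.End F W ≃ₐ[F] Module.End F V := e.symm.conjAlgEquiv F
  refine ⟨ψ (φ (AdjoinRoot.root h)), ?_⟩
  have h10 : aeval (AdjoinRoot.root h) h = 0 := by
    rw [aeval_def, AdjoinRoot.algebraMap_eq, AdjoinRoot.eval₂_root]
  have e1 : aeval (ψ (φ (AdjoinRoot.root h))) h = ψ (aeval (φ (AdjoinRoot.root h)) h) := aeval_algHom_apply (ψ : Module.End F W →ₐ[F] Module.End F V) _ _
  rw [e1, aeval_algHom_apply, h10, map_zero, map_zero]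

end lin

section psl
variable {F : Type u} [Field F] [Finite F]

theorem cov_psl {n : ℕ} (hn : 2 ≤ n) {h : F[X]} (hh : Irreducible h) (hdeg : 2 ≤ h.natDegree) (hdvd : h.natDegree ∣ n)
    (hfac : ∀ a, 2 ≤ a → a ≤ n → a + 1 ≠ n → h.natDegree ∣ a) : Cov (Matrix.ProjectiveSpecialLinearGroup (Fin n) F) := by
  classical
  have hV : finrank F (Fin n → F) = n := by simp
  obtain ⟨s0, hs0⟩ := exists_s0 (V := Fin n → F) hh hV hdvd
  have hpos : 0 < n := by omega
  obtain ⟨e, he⟩ : ∃ e : Fin n → F, e ≠ 0 := (Module.finrank_pos_iff_exists_ne_zero (R := F)).1 (by rw [hV]; exact hpos)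
  -- s0 has no eigenvector
  have hne : ∀ v : Fin n → F, v ≠ 0 → ∀ c : F, s0 v ≠ c • v := by
    intro v hv c hc
    have h1 : ∀ P : F[X], (aeval s0 P) v = (P.eval c) • v := by
      intro P
      exact Module.End.aeval_apply_of_hasEigenvector (f := s0) (μ := c) (x := v) ⟨Module.End.mem_eigenspace_iff.2 hc, hv⟩
    have h3 := h1 h
    rw [hs0, LinearMap.zero_apply] at h3
    have h4 := (smul_eq_zero.1 h3.symm).resolve_right hv
    have h5 : h.natDegree = 1 := natDegree_eq_of_degree_eq_some (degree_eq_one_of_irreducible_of_root hh h4)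
    omega
  -- determinant one elements
  let ι : Matrix.SpecialLinearGroup (Fin n) F →* ((Fin n → F) ≃ₗ[F] (Fin n → F)) := Matrix.SpecialLinearGroup.toLin'
  have hι : ∀ g v, ι g v = (g : Matrix (Fin n) (Fin n) F).mulVec v := fun g v => rfl
  have hsur : ∀ x : (Fin n → F) ≃ₗ[F] (Fin n → F), LinearMap.det (x : (Fin n → F) →ₗ[F] (Fin n → F)) = 1 → ∃ g, ι g = x := by
    intro x hx
    refine ⟨⟨LinearMap.toMatrix' (x : (Fin n → F) →ₗ[F] (Fin n → F)), by rw [LinearMap.det_toMatrix', hx]⟩, ?_⟩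
    apply LinearEquiv.ext
    intro v
    show (LinearMap.toMatrix' (x : (Fin n → F) →ₗ[F] (Fin n → F))).mulVec v = _
    rw [LinearMap.toMatrix'_mulVec]; rfl
  have hsc : ∀ z ∈ Subgroup.center (Matrix.SpecialLinearGroup (Fin n) F), ∃ c : F, c ≠ 0 ∧ ∀ v, ι z v = c • v := by
    intro z hz
    obtain ⟨c, hc, hcz⟩ := Matrix.SpecialLinearGroup.mem_center_iff.1 hz
    refine ⟨c, ?_, ?_⟩
    · rintro rfl
      rw [zero_pow (by simp; omega)] at hc
      exact zero_ne_one hc
    · intro v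
      rw [hι, ← hcz]
      ext i
      simp [Matrix.scalar_apply, Matrix.mulVec_diagonal]
  -- the transvections
  set w := s0 e with hw
  have hwe : ∀ c : F, w ≠ c • e := fun c => hne e he c
  obtain ⟨α, hα2, hα1⟩ : ∃ α : Dual F (Fin n → F), α w = 1 ∧ α e = 0 := dual1 (by
    intro hm
    obtain ⟨a, ha⟩ := Submodule.mem_span_singleton.1 hm
    exact hwe a ha.symm)
  obtain ⟨β, hβ2, hβ1⟩ : ∃ β : Dual F (Fin n → F), β e = 1 ∧ β w = 0 := dual1 (by
    intro hm
    obtain ⟨a, ha⟩ := Submodule.mem_span_singleton.1 hm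
    have ha0 : a ≠ 0 := by rintro rfl; rw [zero_smul] at ha; exact he ha.symm
    exact hwe a⁻¹ (by rw [← ha, smul_smul, inv_mul_cancel₀ ha0, one_smul]))
  refine Cov.quot (Subgroup.center (Matrix.SpecialLinearGroup (Fin n) F)) (H := (lineStab F e).comap ι) (K := (endCent s0).comap ι) ?_ ?_ ?_ ?_ ?_
  · intro z hz
    obtain ⟨c, hc, hcz⟩ := hsc z hz
    exact ⟨c, hc, hcz e⟩
  · intro z hz
    obtain ⟨c, hc, hcz⟩ := hsc z hz
    intro v
    rw [hcz, hcz, map_smul]
  · intro htop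
    obtain ⟨g, hg⟩ := hsur (SLMax.tr w β hβ1) (SLMax.tr_det w β hβ1)
    have h1 : g ∈ (lineStab F e).comap ι := by rw [htop]; trivial
    obtain ⟨c, _, hc⟩ := h1
    rw [hg, SLMax.tr_apply, hβ2, one_smul] at hc
    exact hwe (c - 1) (by rw [sub_smul, one_smul, ← hc]; abel)
  · intro htop
    obtain ⟨g, hg⟩ := hsur (SLMax.tr e α hα1) (SLMax.tr_det e α hα1)
    have h1 : g ∈ (endCent s0).comap ι := by rw [htop]; trivial
    have h3 := h1 e
    rw [hg, SLMax.tr_apply, SLMax.tr_apply, hα1, zero_smul, add_zero, ← hw, hα2, one_smul] at h3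
    exact he (by simpa using h3)
  · intro g
    rcases exists_comm hh hV hfac (ι g) with ⟨v, hv, c, hc⟩ | ⟨s, hs1, hs2⟩
    · obtain ⟨x, hx⟩ : ∃ x : (Fin n → F) ≃ₗ[F] (Fin n → F), x v = e := by
        exact exists_map hv he
      obtain ⟨α, hα⟩ : ∃ α : Dual F (Fin n → F), α e = 1 := ⟨β, hβ2⟩
      have hdx : LinearMap.det (x : (Fin n → F) →ₗ[F] (Fin n → F)) ≠ 0 := (LinearEquiv.isUnit_det' x).ne_zero
      obtain ⟨y, hy, hyd⟩ := ExtSLH94.exists_homology hα (inv_ne_zero hdx)
      have hye : y e = (LinearMap.det (x : (Fin n → F) →ₗ[F] (Fin n → F)))⁻¹ • e := by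
        rw [hy, hα, mul_one, sub_smul, one_smul]; abel
      obtain ⟨X, hX⟩ := hsur (y * x) (by
        have : ((y * x : (Fin n → F) ≃ₗ[F] (Fin n → F)) : (Fin n → F) →ₗ[F] (Fin n → F)) = (y : (Fin n → F) →ₗ[F] (Fin n → F)) * (x : (Fin n → F) →ₗ[F] (Fin n → F)) := rfl
        rw [this, map_mul, hyd, inv_mul_cancel₀ hdx])
      refine ⟨X, Or.inl ?_⟩
      have hXv : ι X v = (LinearMap.det (x : (Fin n → F) →ₗ[F] (Fin n → F)))⁻¹ • e := by rw [hX, LinearEquiv.mul_apply, hx, hye]
      set d := (LinearMap.det (x : (Fin n → F) →ₗ[F] (Fin n → F)))⁻¹ with hd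
      have hd0 : d ≠ 0 := inv_ne_zero hdx
      have hXi : (ι X)⁻¹ e = d⁻¹ • v := by
        apply (ι X).injective
        have h1 : (ι X) ((ι X)⁻¹ e) = e := (ι X).apply_symm_apply e
        rw [h1, map_smul, hXv, smul_smul, inv_mul_cancel₀ hd0, one_smul]
      refine ⟨c, ?_, ?_⟩
      · rintro rfl
        rw [zero_smul] at hc
        exact hv ((ι g).injective (by rw [hc, map_zero]))
      · rw [map_mul, map_mul, map_inv, LinearEquiv.mul_apply, LinearEquiv.mul_apply, hXi, map_smul, hc, map_smul, map_smul, hXv, smul_smul,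
          smul_smul]
        congr 1
        field_simp
    · obtain ⟨x, hx⟩ := ExtField.exists_conj_irred hh hs2 hs0 rfl
      have hdx : LinearMap.det (x : (Fin n → F) →ₗ[F] (Fin n → F)) ≠ 0 := (LinearEquiv.isUnit_det' x).ne_zero
      have hFf : Fact (Irreducible h) := ⟨hh⟩
      have hfin : Module.Finite F (AdjoinRoot h) := (AdjoinRoot.powerBasis hh.ne_zero).finite
      obtain ⟨y, hyd, hy⟩ := ExtBrH94.exists_det F (AdjoinRoot h) (Fin n → F) (ExtField.liftEnd s0 hs0) (by rw [hV]; exact hpos) (inv_ne_zero hdx)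
      have hys : ∀ v, y (s0 v) = s0 (y v) := by
        intro v
        have := hy (AdjoinRoot.root h) v
        rwa [ExtField.liftEnd_root] at this
      obtain ⟨X, hX⟩ := hsur (y * x) (by
        have : ((y * x : (Fin n → F) ≃ₗ[F] (Fin n → F)) : (Fin n → F) →ₗ[F] (Fin n → F)) = (y : (Fin n → F) →ₗ[F] (Fin n → F)) * (x : (Fin n → F) →ₗ[F] (Fin n → F)) := rfl
        rw [this, map_mul, hyd, inv_mul_cancel₀ hdx])
      have hXs : ∀ v, ι X (s v) = s0 (ι X v) := by
        intro v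
        rw [hX, LinearEquiv.mul_apply, LinearEquiv.mul_apply, hx, hys]
      have hXi : ∀ v, (ι X)⁻¹ (s0 v) = s ((ι X)⁻¹ v) := by
        intro v
        apply (ι X).injective
        have h1 : ∀ v, (ι X) ((ι X)⁻¹ v) = v := fun v => (ι X).apply_symm_apply v
        rw [h1, hXs, h1]
      refine ⟨X, Or.inr ?_⟩
      intro v
      rw [map_mul, map_mul, map_inv]
      simp only [LinearEquiv.mul_apply]
      rw [hXi, ← hs1, hXs]

end psl

end Cfsg.Agent.Lib.Cov67
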