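import Mathlib
import Cfsg.Agent.Lib.CovA67
import Cfsg.Agent.Lib.PSLTypes

/-!
(helper67) The linear groups of dimension 2, 3, 4 are covered by two classes of subgroups.
-/

set_option autoImplicit false
set_option linter.unusedSectionVars false

namespace Cfsg.Agent.Lib.Cov67

open Polynomial Module

universe u v w

section psl
variable (F : Type u) [Field F] [Finite F]

theorem exists_irred {d : ℕ} (hd : 1 ≤ d) : ∃ h : F[X], Irreducible h ∧ h.natDegree = d := by
  obtain ⟨K, _, _, _, hK, -⟩ := PSLTypes.exists_ext F d hd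
  have hfd : FiniteDimensional F K := Module.Finite.of_finite
  obtain ⟨α, hα⟩ := Field.exists_primitive_element F K
  rw [Field.primitive_element_iff_minpoly_natDegree_eq, hK] at hα
  exact ⟨minpoly F α, minpoly.irreducible (Algebra.IsIntegral.isIntegral α), hα⟩

theorem cov_psl2 : Cov (Matrix.ProjectiveSpecialLinearGroup (Fin 2) F) := by
  obtain ⟨h, hh, hd⟩ := exists_irred F (d := 2) (by norm_num)
  refine cov_psl (le_refl 2) hh (by omega) (by rw [hd]) ?_
  intro a h1 h2 h3
  rw [hd]; omega

theorem cov_psl3 : Cov (Matrix.ProjectiveSpecialLinearGroup (Fin 3) F) := by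
  obtain ⟨h, hh, hd⟩ := exists_irred F (d := 3) (by norm_num)
  refine cov_psl (by norm_num) hh (by omega) (by rw [hd]) ?_
  intro a h1 h2 h3
  rw [hd]; omega

theorem cov_psl4 : Cov (Matrix.ProjectiveSpecialLinearGroup (Fin 4) F) := by
  obtain ⟨h, hh, hd⟩ := exists_irred F (d := 2) (by norm_num)
  refine cov_psl (by norm_num) hh (by omega) (by rw [hd]; norm_num) ?_
  intro a h1 h2 h3
  rw [hd]
  omega

end psl

end Cfsg.Agent.Lib.Cov67
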