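import Mathlib
import Cfsg.Agent.Lib.CovA67
import Cfsg.Agent.Lib.SympSpec
import Cfsg.Agent.Lib.QuadEmb67

/-!
(helper67) Transfer to the projective symplectic groups; the symplectic groups in characteristic two (Dye).
-/

set_option autoImplicit false
set_option linter.unusedSectionVars false

namespace Cfsg.Agent.Lib.Cov67

open Polynomial Module

universe u v w

section transfer
variable {F : Type u} [Field F]

/-- isometries of a bilinear form -/
def Isl {V : Type v} [AddCommGroup V] [Module F V] (B : V →ₗ[F] V →ₗ[F] F) (g : V ≃ₗ[F] V) : Prop :=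
  ∀ u v, B (g u) (g v) = B u v

theorem Isl.mul {V : Type v} [AddCommGroup V] [Module F V] {B : V →ₗ[F] V →ₗ[F] F} {g h : V ≃ₗ[F] V} (hg : Isl B g) (hh : Isl B h) :
    Isl B (g * h) := fun u v => by rw [LinearEquiv.mul_apply, LinearEquiv.mul_apply, hg, hh]

theorem Isl.inv {V : Type v} [AddCommGroup V] [Module F V] {B : V →ₗ[F] V →ₗ[F] F} {g : V ≃ₗ[F] V} (hg : Isl B g) :
    Isl B g⁻¹ := fun u v => by
  have h1 : ∀ v, g (g⁻¹ v) = v := fun v => g.apply_symm_apply v
  rw [← hg, h1, h1]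

/-- matrices acting on a space isometric to the standard one -/
noncomputable def toV {V : Type v} [AddCommGroup V] [Module F V] {m : ℕ} (e : V ≃ₗ[F] (Fin m ⊕ Fin m → F)) :
    Matrix.symplecticGroup (Fin m) F →* (V ≃ₗ[F] V) where
  toFun A := LinearEquiv.ofLinearMap
    ((e.symm : (Fin m ⊕ Fin m → F) →ₗ[F] V) ∘ₗ (Matrix.toLin' (A : Matrix (Fin m ⊕ Fin m) (Fin m ⊕ Fin m) F)) ∘ₗ (e : V →ₗ[F] (Fin m ⊕ Fin m → F)))
    ((e.symm : (Fin m ⊕ Fin m → F) →ₗ[F] V) ∘ₗ (Matrix.toLin' ((A⁻¹ : Matrix.symplecticGroup (Fin m) F) : Matrix (Fin m ⊕ Fin m) (Fin m ⊕ Fin m) F)) ∘ₗ (e : V →ₗ[F] (Fin m ⊕ Fin m → F)))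
    (by
      have h : (A : Matrix (Fin m ⊕ Fin m) (Fin m ⊕ Fin m) F) * ((A⁻¹ : Matrix.symplecticGroup (Fin m) F) : Matrix _ _ F) = 1 :=
        congrArg Subtype.val (mul_inv_cancel A)
      apply LinearMap.ext
      intro v
      simp [Matrix.mulVec_mulVec, h])
    (by
      have h : ((A⁻¹ : Matrix.symplecticGroup (Fin m) F) : Matrix _ _ F) * (A : Matrix (Fin m ⊕ Fin m) (Fin m ⊕ Fin m) F) = 1 :=
        congrArg Subtype.val (inv_mul_cancel A)
      apply LinearMap.ext
      intro v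
      simp [Matrix.mulVec_mulVec, h])
  map_one' := by
    apply LinearEquiv.ext
    intro v
    show e.symm (Matrix.toLin' (1 : Matrix (Fin m ⊕ Fin m) (Fin m ⊕ Fin m) F) (e v)) = v
    rw [Matrix.toLin'_one, LinearMap.id_apply, LinearEquiv.symm_apply_apply]
  map_mul' A A' := by
    apply LinearEquiv.ext
    intro v
    show e.symm (Matrix.toLin' ((A : Matrix (Fin m ⊕ Fin m) (Fin m ⊕ Fin m) F) * (A' : Matrix _ _ F)) (e v)) =
      e.symm (Matrix.toLin' (A : Matrix (Fin m ⊕ Fin m) (Fin m ⊕ Fin m) F) (e (e.symm (Matrix.toLin' (A' : Matrix _ _ F) (e v)))))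
    rw [LinearEquiv.apply_symm_apply, Matrix.toLin'_mul, LinearMap.comp_apply]

theorem toV_apply {V : Type v} [AddCommGroup V] [Module F V] {m : ℕ} (e : V ≃ₗ[F] (Fin m ⊕ Fin m → F)) (A : Matrix.symplecticGroup (Fin m) F) (v : V) :
    toV e A v = e.symm ((A : Matrix (Fin m ⊕ Fin m) (Fin m ⊕ Fin m) F).mulVec (e v)) := rfl

theorem cov_psp {V : Type v} [AddCommGroup V] [Module F V] [FiniteDimensional F V] (B : V →ₗ[F] V →ₗ[F] F) (hB : ∀ v, B v v = 0)
    (hnd : ∀ v, (∀ w, B v w = 0) → v = 0) (m : ℕ) (hV : finrank F V = 2 * m) (H K : Subgroup (V ≃ₗ[F] V))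
    (hH : ∀ g : V ≃ₗ[F] V, Isl B g → (∃ c : F, ∀ v, g v = c • v) → g ∈ H)
    (hK : ∀ g : V ≃ₗ[F] V, Isl B g → (∃ c : F, ∀ v, g v = c • v) → g ∈ K)
    (hH' : ∃ g, Isl B g ∧ g ∉ H) (hK' : ∃ g, Isl B g ∧ g ∉ K)
    (h : ∀ g, Isl B g → ∃ x, Isl B x ∧ (x * g * x⁻¹ ∈ H ∨ x * g * x⁻¹ ∈ K)) : Cov (Cfsg.PSp m F) := by
  classical
  let C : (Fin m ⊕ Fin m → F) →ₗ[F] (Fin m ⊕ Fin m → F) →ₗ[F] F := SympMat.B m F
  obtain ⟨e, he⟩ := AltForm.exists_isometry B hB hnd C (fun v => SympMat.sympForm_self v)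
    (fun v hv => SympMat.eq_zero_of_sympForm hv) (by rw [hV]; simp; ring)
  have he' : ∀ u v, Cfsg.sympForm m F (e u) (e v) = B u v := he
  have hiso : ∀ A : Matrix.symplecticGroup (Fin m) F, Isl B (toV e A) := by
    intro A u v
    rw [toV_apply, toV_apply, ← he', LinearEquiv.apply_symm_apply, LinearEquiv.apply_symm_apply, SympMat.mem_iff.1 A.2, he']
  have hsur : ∀ g : V ≃ₗ[F] V, Isl B g → ∃ A : Matrix.symplecticGroup (Fin m) F, toV e A = g := by
    intro g hg
    let T : (Fin m ⊕ Fin m → F) →ₗ[F] (Fin m ⊕ Fin m → F) := (e : V →ₗ[F] _) ∘ₗ (g : V →ₗ[F] V) ∘ₗ (e.symm : _ →ₗ[F] V)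
    have hT : ∀ v, (LinearMap.toMatrix' T).mulVec v = e (g (e.symm v)) := fun v => LinearMap.toMatrix'_mulVec T v
    refine ⟨⟨LinearMap.toMatrix' T, ?_⟩, ?_⟩
    · rw [SympMat.mem_iff]
      intro u v
      rw [hT, hT, he', hg, ← he', LinearEquiv.apply_symm_apply, LinearEquiv.apply_symm_apply]
    · apply LinearEquiv.ext
      intro v
      rw [toV_apply]
      show e.symm ((LinearMap.toMatrix' T).mulVec (e v)) = _
      rw [hT, LinearEquiv.symm_apply_apply, LinearEquiv.symm_apply_apply]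
  have hsc : ∀ z ∈ Subgroup.center (Matrix.symplecticGroup (Fin m) F), ∃ c : F, ∀ v, toV e z v = c • v := by
    intro z hz
    obtain ⟨c, hc⟩ := (SympSpec.mem_center_iff z).1 hz
    refine ⟨c, fun v => ?_⟩
    rw [toV_apply, hc, Matrix.smul_mulVec, Matrix.one_mulVec, map_smul, LinearEquiv.symm_apply_apply]
  have hne : ∀ L : Subgroup (V ≃ₗ[F] V), (∃ g, Isl B g ∧ g ∉ L) → L.comap (toV e) ≠ ⊤ := by
    rintro L ⟨g, hg, hgL⟩ htop
    obtain ⟨A, rfl⟩ := hsur g hg
    exact hgL (by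
      have : A ∈ L.comap (toV e) := by rw [htop]; trivial
      exact this)
  refine Cov.quot (Subgroup.center (Matrix.symplecticGroup (Fin m) F)) (H := H.comap (toV e)) (K := K.comap (toV e))
    (fun z hz => hH _ (hiso z) (hsc z hz)) (fun z hz => hK _ (hiso z) (hsc z hz)) (hne H hH') (hne K hK') ?_
  intro A
  obtain ⟨x, hx, hx'⟩ := h _ (hiso A)
  obtain ⟨X, rfl⟩ := hsur x hx
  refine ⟨X, hx'.imp (fun h => ?_) (fun h => ?_)⟩
  · rw [Subgroup.mem_comap, map_mul, map_mul, map_inv]; exact h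
  · rw [Subgroup.mem_comap, map_mul, map_mul, map_inv]; exact h

end transfer

section even
variable {F : Type u} [Field F] [Finite F]

open QuadraticMap Cfsg.Agent.Lib.Quad Cfsg.Agent.Lib.QuadD67 Cfsg.Agent.Lib.QuadEmb67

/-- every isometry of the polar form fixes a quadratic form with that polar form -/
theorem exists_form (h2 : (2 : F) = 0) {V : Type v} [AddCommGroup V] [Module F V] (Q0 : QuadraticForm F V) (g : V ≃ₗ[F] V)
    (hg : ∀ u v, polar Q0 (g u) (g v) = polar Q0 u v) :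
    ∃ Q : QuadraticForm F V, (∀ u v, polar Q u v = polar Q0 u v) ∧ ∀ v, Q (g v) = Q v := by
  have hinj : ∀ a b : F, a ^ 2 = b ^ 2 → a = b := by
    intro a b h
    have h1 : (a - b) ^ 2 = 0 := by linear_combination h + (b ^ 2 - a * b) * h2
    exact sub_eq_zero.1 (pow_eq_zero_iff (two_ne_zero) |>.1 h1)
  have hsurj : Function.Surjective (fun a : F => a ^ 2) := Finite.injective_iff_surjective.1 (fun a b h => hinj a b h)
  choose s hs using hsurj
  have hs' : ∀ a, s a ^ 2 = a := hs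
  let φ : V →ₗ[F] F :=
    { toFun := fun x => s (Q0 (g x) - Q0 x)
      map_add' := fun x y => by
        apply hinj
        rw [hs']
        have h1 : (s (Q0 (g x) - Q0 x) + s (Q0 (g y) - Q0 y)) ^ 2 = s (Q0 (g x) - Q0 x) ^ 2 + s (Q0 (g y) - Q0 y) ^ 2 := by
          linear_combination (s (Q0 (g x) - Q0 x) * s (Q0 (g y) - Q0 y)) * h2
        rw [h1, hs', hs', map_add]
        have h3 := hg x y
        rw [polar, polar] at h3
        linear_combination h3
      map_smul' := fun c x => by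
        apply hinj
        rw [hs', RingHom.id_apply, smul_eq_mul, mul_pow, hs', map_smul, QuadraticMap.map_smul, QuadraticMap.map_smul, smul_eq_mul,
          smul_eq_mul]
        ring }
  have hφ : ∀ x, φ x ^ 2 = Q0 (g x) - Q0 x := fun x => hs' _
  have hφker : φ ∈ (LinearMap.ker ((g : V →ₗ[F] V) - LinearMap.id)).dualAnnihilator := by
    rw [Submodule.mem_dualAnnihilator]
    intro x hx
    rw [LinearMap.mem_ker, LinearMap.sub_apply, LinearMap.id_apply, sub_eq_zero] at hx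
    have hx' : g x = x := hx
    have h1 := hφ x
    rw [hx', sub_self] at h1
    exact pow_eq_zero_iff (two_ne_zero) |>.1 h1
  rw [← LinearMap.range_dualMap_eq_dualAnnihilator_ker] at hφker
  obtain ⟨ψ, hψ⟩ := hφker
  have hψ' : ∀ x, ψ (g x) = ψ x + φ x := by
    intro x
    rw [← hψ]
    show ψ (g x) = ψ x + ψ (g x - x)
    rw [map_sub]; ring
  have hQ : ∀ x, (Q0 + linMulLin ψ ψ) x = Q0 x + ψ x * ψ x := fun x => rfl
  refine ⟨Q0 + linMulLin ψ ψ, fun u v => ?_, fun v => ?_⟩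
  · rw [polar, hQ, hQ, hQ, polar, map_add ψ]
    linear_combination (ψ u * ψ v) * h2
  · rw [hQ, hQ, hψ']
    linear_combination (-1 : F) * hφ v + (ψ v * φ v + φ v ^ 2) * h2

theorem exists_not_mem_O (h2 : (2 : F) = 0) {V : Type v} [AddCommGroup V] [Module F V] [FiniteDimensional F V] {Q : QuadraticForm F V}
    (hQ : Nd Q) (hV : 4 ≤ finrank F V) : ∃ t : V ≃ₗ[F] V, (∀ u v, polar Q (t u) (t v) = polar Q u v) ∧ t ∉ O Q := by
  obtain ⟨v, hv0, hv⟩ := hQ.exists_singular (by omega)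
  obtain ⟨x, hx⟩ : ∃ x, polar Q v x ≠ 0 := by
    by_contra hcon
    push Not at hcon
    exact hv0 (hQ.eq_zero hcon)
  have hvv : (polarBilin Q v) v = 0 := by
    show polar Q v v = 0
    rw [polar_self, hv, smul_zero]
  refine ⟨SLMax.tr v (polarBilin Q v) hvv, ?_, ?_⟩
  · intro a b
    rw [SLMax.tr_apply, SLMax.tr_apply]
    show polar Q (a + polar Q v a • v) (b + polar Q v b • v) = polar Q a b
    rw [polar_add_left, polar_add_right, polar_add_right, polar_smul_left, polar_smul_right, polar_smul_right, polar_smul_left]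
    have h3 : polar Q v v = 0 := hvv
    rw [h3, polar_comm Q a v]
    simp only [smul_eq_mul]
    linear_combination (polar Q v a * polar Q v b) * h2
  · intro h
    have h3 := h x
    rw [SLMax.tr_apply] at h3
    have key : ∀ a b, Q (a + b) = Q a + Q b + polar Q a b := fun a b => by rw [polar]; ring
    have h4 : Q (x + (polarBilin Q v) x • v) = Q x + Q (polar Q v x • v) + polar Q x (polar Q v x • v) := key _ _
    rw [h4, QuadraticMap.map_smul, hv, smul_zero, polar_smul_right, polar_comm Q x v, smul_eq_mul] at h3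
    have h5 : polar Q v x * polar Q v x = 0 := by linear_combination h3
    exact hx (mul_self_eq_zero.1 h5)

theorem cov_psp_even (h2 : (2 : F) = 0) (m : ℕ) (hm : 2 ≤ m) : Cov (Cfsg.PSp m F) := by
  obtain ⟨X, _, _, _, QX, hX, hdim, hD⟩ := exists_space (F := F) m 1 (Or.inl rfl)
  obtain ⟨X', _, _, _, QX', hX', hdim', hD'⟩ := exists_space (F := F) m (-1) (Or.inr ⟨rfl, by omega⟩)
  have halt : ∀ v : X, polarBilin QX v v = 0 := fun v => by
    show polar QX v v = 0
    rw [polar_self, ← ofNat_smul_eq_nsmul (R := F), smul_eq_mul, h2, zero_mul]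
  have halt' : ∀ v : X', polarBilin QX' v v = 0 := fun v => by
    show polar QX' v v = 0
    rw [polar_self, ← ofNat_smul_eq_nsmul (R := F), smul_eq_mul, h2, zero_mul]
  have hnd : ∀ v, (∀ w, polarBilin QX v w = 0) → v = 0 := fun v h => hX.eq_zero h
  obtain ⟨e, he⟩ := AltForm.exists_isometry (polarBilin QX) halt hnd (polarBilin QX') halt'
    (fun v h => hX'.eq_zero h) (by rw [hdim, hdim'])
  have he' : ∀ u v, polar QX' (e u) (e v) = polar QX u v := he
  set Q' : QuadraticForm F X := QX'.comp (e : X →ₗ[F] X') with hQ'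
  have hQ'a : ∀ v, Q' v = QX' (e v) := fun v => rfl
  have hpol : ∀ u v, polar Q' u v = polar QX u v := fun u v => by
    rw [← he', polar, polar, hQ'a, hQ'a, hQ'a, map_add]
  have hnd' : Nd Q' := nd_of fun x hx => hX.eq_zero fun y => by rw [← hpol]; exact hx y
  have hDQ' : D Q' = -1 * (Nat.card F : ℤ) ^ m := by
    rw [← hD', D_congr (Q := Q') (Q' := QX') e (fun v => rfl)]
  have hscal : ∀ (Q1 : QuadraticForm F X) (g : X ≃ₗ[F] X), Isl (polarBilin QX) g → (∃ c : F, ∀ v, g v = c • v) → g ∈ O Q1 := by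
    rintro Q1 g hg ⟨c, hc⟩ v
    have hnt : Nontrivial X := Module.nontrivial_of_finrank_pos (R := F) (by omega)
    obtain ⟨a, ha⟩ := exists_ne (0 : X)
    obtain ⟨b, hb⟩ : ∃ b, polar QX a b ≠ 0 := by
      by_contra hcon
      push Not at hcon
      exact ha (hX.eq_zero hcon)
    have h1 : polar QX (g a) (g b) = polar QX a b := hg a b
    rw [hc, hc, polar_smul_left, polar_smul_right, smul_eq_mul, smul_eq_mul, ← mul_assoc] at h1
    have h3 : c * c = 1 := mul_right_cancel₀ hb (by rw [h1, one_mul])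
    rw [hc, QuadraticMap.map_smul, h3, one_smul]
  refine cov_psp (polarBilin QX) halt hnd m hdim (O QX) (O Q') (hscal QX) (hscal Q') ?_ ?_ ?_
  · obtain ⟨t, ht, ht'⟩ := exists_not_mem_O h2 hX (by omega)
    exact ⟨t, ht, ht'⟩
  · obtain ⟨t, ht, ht'⟩ := exists_not_mem_O h2 hnd' (by omega)
    exact ⟨t, fun u v => by show polar QX _ _ = polar QX _ _; rw [← hpol, ← hpol, ht], ht'⟩
  · intro g hg
    obtain ⟨Q, hQp, hQg⟩ := exists_form h2 QX g hg
    have hQnd : Nd Q := nd_of fun x hx => hX.eq_zero fun y => by rw [← hQp]; exact hx y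
    obtain ⟨s, hs, hDs⟩ := exists_sign hQnd hdim
    rcases hs with rfl | ⟨rfl, -⟩
    · obtain ⟨x, hx⟩ := iso_of_D m hQnd hdim hX hdim (by rw [hDs, hD])
      refine ⟨x, fun u v => ?_, Or.inl ?_⟩
      · show polar QX (x u) (x v) = polar QX u v
        exact (polar_map (x : X →ₗ[F] X) hx u v).trans (hQp u v)
      · intro v
        have h1 : ∀ v, x (x⁻¹ v) = v := fun v => x.apply_symm_apply v
        rw [LinearEquiv.mul_apply, LinearEquiv.mul_apply, hx, hQg, ← hx, h1]
    · obtain ⟨x, hx⟩ := iso_of_D m hQnd hdim hnd' hdim (by rw [hDs, hDQ'])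
      refine ⟨x, fun u v => ?_, Or.inr ?_⟩
      · show polar QX (x u) (x v) = polar QX u v
        rw [← hpol]
        exact (polar_map (x : X →ₗ[F] X) hx u v).trans (hQp u v)
      · intro v
        have h1 : ∀ v, x (x⁻¹ v) = v := fun v => x.apply_symm_apply v
        rw [LinearEquiv.mul_apply, LinearEquiv.mul_apply, hx, hQg, ← hx, h1]

end even

end Cfsg.Agent.Lib.Cov67
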