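import Mathlib
import Cfsg.Prelude.Def_G2
import Cfsg.Agent.Lib.CovA67
import Cfsg.Agent.Lib.QuadEmb67

/-!
(helper67) The groups `G₂(2^a)` are covered by the conjugates of two proper subgroups.
-/

set_option autoImplicit false
set_option linter.unusedSectionVars false
set_option linter.unusedSimpArgs false

namespace Cfsg.Agent.Lib.CovG67

open Cfsg.Lie Module Cfsg.Agent.Lib.Cov67
open scoped MatrixGroups Matrix

variable {F : Type*} [Field F]

def oneO : Fin 8 → F := ![1, 0, 0, 0, 0, 0, 0, 1]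
def TT (x : Fin 8 → F) : F := x 0 + x 7
def NNo (x : Fin 8 → F) : F := x 0 * x 7 - (x 1 * x 4 + x 2 * x 5 + x 3 * x 6)
def BB (x y : Fin 8 → F) : F := x 0 * y 7 + x 7 * y 0 - (x 1 * y 4 + x 2 * y 5 + x 3 * y 6 + x 4 * y 1 + x 5 * y 2 + x 6 * y 3)

theorem mul_apply (x y : Fin 8 → F) : zornMul x y =
    ![x 0 * y 0 + (x 1 * y 4 + x 2 * y 5 + x 3 * y 6),
      x 0 * y 1 + y 7 * x 1 - (x 5 * y 6 - x 6 * y 5),
      x 0 * y 2 + y 7 * x 2 - (x 6 * y 4 - x 4 * y 6),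
      x 0 * y 3 + y 7 * x 3 - (x 4 * y 5 - x 5 * y 4),
      y 0 * x 4 + x 7 * y 4 + (x 2 * y 3 - x 3 * y 2),
      y 0 * x 5 + x 7 * y 5 + (x 3 * y 1 - x 1 * y 3),
      y 0 * x 6 + x 7 * y 6 + (x 1 * y 2 - x 2 * y 1),
      (x 4 * y 1 + x 5 * y 2 + x 6 * y 3) + x 7 * y 7] := by
  ext i
  fin_cases i <;> simp [zornMul, dot3, cross3]

theorem sq_eq (x : Fin 8 → F) : zornMul x x = TT x • x - NNo x • oneO := by
  rw [mul_apply]
  ext i
  fin_cases i <;> simp [TT, NNo, oneO] <;> ring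

theorem one_mul' (x : Fin 8 → F) : zornMul oneO x = x := by
  rw [mul_apply]
  ext i
  fin_cases i <;> simp [oneO]

theorem mul_one' (x : Fin 8 → F) : zornMul x oneO = x := by
  rw [mul_apply]
  ext i
  fin_cases i <;> simp [oneO]

/-- action -/
def ac (g : G2 F) (x : Fin 8 → F) : Fin 8 → F := ((g : GL (Fin 8) F) : Matrix (Fin 8) (Fin 8) F) *ᵥ x

theorem ac_mul (g h : G2 F) (x : Fin 8 → F) : ac (g * h) x = ac g (ac h x) := by
  show (((g * h : G2 F) : GL (Fin 8) F) : Matrix (Fin 8) (Fin 8) F) *ᵥ x = _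
  rw [Subgroup.coe_mul, Units.val_mul, ← Matrix.mulVec_mulVec]; rfl

theorem ac_one (x : Fin 8 → F) : ac (1 : G2 F) x = x := by
  show (((1 : G2 F) : GL (Fin 8) F) : Matrix (Fin 8) (Fin 8) F) *ᵥ x = _
  rw [Subgroup.coe_one, Units.val_one, Matrix.one_mulVec]

theorem ac_add (g : G2 F) (x y : Fin 8 → F) : ac g (x + y) = ac g x + ac g y := Matrix.mulVec_add _ _ _

theorem ac_sub (g : G2 F) (x y : Fin 8 → F) : ac g (x - y) = ac g x - ac g y := Matrix.mulVec_sub _ _ _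

theorem ac_smul (g : G2 F) (c : F) (x : Fin 8 → F) : ac g (c • x) = c • ac g x := Matrix.mulVec_smul _ _ _

theorem ac_inv_ac (g : G2 F) (x : Fin 8 → F) : ac g⁻¹ (ac g x) = x := by rw [← ac_mul, inv_mul_cancel, ac_one]

theorem ac_ac_inv (g : G2 F) (x : Fin 8 → F) : ac g (ac g⁻¹ x) = x := by rw [← ac_mul, mul_inv_cancel, ac_one]

theorem ac_mulO (g : G2 F) (x y : Fin 8 → F) : ac g (zornMul x y) = zornMul (ac g x) (ac g y) := g.2 x y

theorem ac_oneO (g : G2 F) : ac g oneO = oneO := by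
  have h1 := ac_mulO g oneO (ac g⁻¹ oneO)
  rw [one_mul', ac_ac_inv, mul_one'] at h1
  exact h1.symm

theorem ac_TN (g : G2 F) (x : Fin 8 → F) : TT (ac g x) = TT x ∧ NNo (ac g x) = NNo x := by
  have h1 := congrArg (ac g) (sq_eq x)
  rw [ac_mulO, sq_eq, ac_sub, ac_smul, ac_smul, ac_oneO] at h1
  by_cases h : TT (ac g x) = TT x
  · refine ⟨h, ?_⟩
    rw [h] at h1
    have h2 := congrFun (sub_right_injective h1) 0
    simpa [oneO] using h2
  · have h2 : ac g x = ((NNo (ac g x) - NNo x) / (TT (ac g x) - TT x)) • oneO := by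
      have h3 : TT (ac g x) - TT x ≠ 0 := sub_ne_zero.2 h
      have h4 : (TT (ac g x) - TT x) • ac g x = (NNo (ac g x) - NNo x) • oneO := by
        rw [sub_smul, sub_smul]
        linear_combination (exp := 1) h1
      rw [div_eq_inv_mul, mul_smul, ← h4, smul_smul, inv_mul_cancel₀ h3, one_smul]
    have h5 : x = ((NNo (ac g x) - NNo x) / (TT (ac g x) - TT x)) • oneO := by
      have h6 := congrArg (ac g⁻¹) h2
      rw [ac_inv_ac, ac_smul, ac_oneO] at h6
      exact h6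
    exact absurd (by rw [h2, ← h5]) h

/-- orbit relation -/
def R (x y : Fin 8 → F) : Prop := ∃ g : G2 F, ac g x = y

theorem R.trans {x y z : Fin 8 → F} (h : R x y) (h' : R y z) : R x z := by
  obtain ⟨g, hg⟩ := h
  obtain ⟨k, hk⟩ := h'
  exact ⟨k * g, by rw [ac_mul, hg, hk]⟩

theorem R.symm {x y : Fin 8 → F} (h : R x y) : R y x := by
  obtain ⟨g, hg⟩ := h
  exact ⟨g⁻¹, by rw [← hg, ac_inv_ac]⟩

theorem R.inv {x y : Fin 8 → F} (h : R x y) : TT y = TT x ∧ NNo y = NNo x := by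
  obtain ⟨g, rfl⟩ := h
  exact ac_TN g x

theorem R_of (f f' : (Fin 8 → F) → (Fin 8 → F)) (ha : ∀ x y, f (x + y) = f x + f y) (hs : ∀ (c : F) x, f (c • x) = c • f x)
    (h1 : ∀ x, f (f' x) = x) (h2 : ∀ x, f' (f x) = x)
    (hm : ∀ x y, f (zornMul x y) = zornMul (f x) (f y)) (x : Fin 8 → F) : R x (f x) := by
  let L : (Fin 8 → F) ≃ₗ[F] (Fin 8 → F) := { toFun := f, map_add' := ha, map_smul' := hs, invFun := f', left_inv := h2, right_inv := h1 }
  let g : GL (Fin 8) F := ⟨LinearMap.toMatrix' (L : (Fin 8 → F) →ₗ[F] (Fin 8 → F)), LinearMap.toMatrix' (L.symm : (Fin 8 → F) →ₗ[F] (Fin 8 → F)),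
    by rw [← LinearMap.toMatrix'_comp]; simp, by rw [← LinearMap.toMatrix'_comp]; simp⟩
  have hg : ∀ x, (g : Matrix (Fin 8) (Fin 8) F) *ᵥ x = f x := fun x => LinearMap.toMatrix'_mulVec (L : (Fin 8 → F) →ₗ[F] (Fin 8 → F)) x
  refine ⟨⟨g, fun x y => ?_⟩, hg x⟩
  show (g : Matrix (Fin 8) (Fin 8) F) *ᵥ (zornMul x y) = zornMul ((g : Matrix (Fin 8) (Fin 8) F) *ᵥ x) ((g : Matrix (Fin 8) (Fin 8) F) *ᵥ y)
  rw [hg, hg, hg, hm]

theorem R_th (x : Fin 8 → F) : R x ![x 7, -x 4, -x 5, -x 6, -x 1, -x 2, -x 3, x 0] := by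
  refine R_of (fun x => ![x 7, -x 4, -x 5, -x 6, -x 1, -x 2, -x 3, x 0]) (fun x => ![x 7, -x 4, -x 5, -x 6, -x 1, -x 2, -x 3, x 0])
    ?_ ?_ ?_ ?_ ?_ x
  · intro x y; ext i; fin_cases i <;> simp <;> ring
  · intro c x; ext i; fin_cases i <;> simp
  · intro x; ext i; fin_cases i <;> simp
  · intro x; ext i; fin_cases i <;> simp
  · intro x y; rw [mul_apply, mul_apply]; ext i; fin_cases i <;> simp <;> ring

theorem R_x1 (s : F) (x : Fin 8 → F) : R x ![x 0 + s * x 4, x 1 + s * (x 7 - x 0) - s ^ 2 * x 4, x 2, x 3, x 4, x 5 + s * x 3, x 6 - s * x 2, x 7 - s * x 4] := by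
  refine R_of (fun x => ![x 0 + s * x 4, x 1 + s * (x 7 - x 0) - s ^ 2 * x 4, x 2, x 3, x 4, x 5 + s * x 3, x 6 - s * x 2, x 7 - s * x 4])
    (fun x => ![x 0 - s * x 4, x 1 - s * (x 7 - x 0) - s ^ 2 * x 4, x 2, x 3, x 4, x 5 - s * x 3, x 6 + s * x 2, x 7 + s * x 4])
    ?_ ?_ ?_ ?_ ?_ x
  · intro x y; ext i; fin_cases i <;> simp <;> ring
  · intro c x; ext i; fin_cases i <;> simp <;> ring
  · intro x; ext i; fin_cases i <;> simp <;> ring
  · intro x; ext i; fin_cases i <;> simp <;> ring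
  · intro x y; rw [mul_apply, mul_apply]; ext i; fin_cases i <;> simp <;> ring

theorem R_x2 (s : F) (x : Fin 8 → F) : R x ![x 0 + s * x 5, x 1, x 2 + s * (x 7 - x 0) - s ^ 2 * x 5, x 3, x 4 - s * x 3, x 5, x 6 + s * x 1, x 7 - s * x 5] := by
  refine R_of (fun x => ![x 0 + s * x 5, x 1, x 2 + s * (x 7 - x 0) - s ^ 2 * x 5, x 3, x 4 - s * x 3, x 5, x 6 + s * x 1, x 7 - s * x 5])
    (fun x => ![x 0 - s * x 5, x 1, x 2 - s * (x 7 - x 0) - s ^ 2 * x 5, x 3, x 4 + s * x 3, x 5, x 6 - s * x 1, x 7 + s * x 5])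
    ?_ ?_ ?_ ?_ ?_ x
  · intro x y; ext i; fin_cases i <;> simp <;> ring
  · intro c x; ext i; fin_cases i <;> simp <;> ring
  · intro x; ext i; fin_cases i <;> simp <;> ring
  · intro x; ext i; fin_cases i <;> simp <;> ring
  · intro x y; rw [mul_apply, mul_apply]; ext i; fin_cases i <;> simp <;> ring

/-- the action of `SL₃`, rows `(p q r)`, `(s t u)`, `(v w z)` -/
def fM (p q r s t u v w z : F) (x : Fin 8 → F) : Fin 8 → F :=
  ![x 0, p * x 1 + q * x 2 + r * x 3, s * x 1 + t * x 2 + u * x 3, v * x 1 + w * x 2 + z * x 3,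
    (t * z - u * w) * x 4 + (u * v - s * z) * x 5 + (s * w - t * v) * x 6,
    (w * r - z * q) * x 4 + (z * p - v * r) * x 5 + (v * q - w * p) * x 6,
    (q * u - r * t) * x 4 + (r * s - p * u) * x 5 + (p * t - q * s) * x 6, x 7]

def gM (p q r s t u v w z : F) (x : Fin 8 → F) : Fin 8 → F :=
  ![x 0, (t * z - u * w) * x 1 + (w * r - z * q) * x 2 + (q * u - r * t) * x 3,
    (u * v - s * z) * x 1 + (z * p - v * r) * x 2 + (r * s - p * u) * x 3,
    (s * w - t * v) * x 1 + (v * q - w * p) * x 2 + (p * t - q * s) * x 3,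
    p * x 4 + s * x 5 + v * x 6, q * x 4 + t * x 5 + w * x 6, r * x 4 + u * x 5 + z * x 6, x 7]

set_option maxHeartbeats 1600000 in
theorem R_M {p q r s t u v w z : F} (h : p * (t * z - u * w) + q * (u * v - s * z) + r * (s * w - t * v) = 1) (x : Fin 8 → F) :
    R x (fM p q r s t u v w z x) := by
  refine R_of (fM p q r s t u v w z) (gM p q r s t u v w z) ?_ ?_ ?_ ?_ ?_ x
  · intro x y; ext i; fin_cases i <;> simp [fM] <;> ring
  · intro c x; ext i; fin_cases i <;> simp [fM] <;> ring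
  · intro x; ext i; fin_cases i <;> simp [fM, gM]
    · linear_combination (x 1) * h
    · linear_combination (x 2) * h
    · linear_combination (x 3) * h
    · linear_combination (x 4) * h
    · linear_combination (x 5) * h
    · linear_combination (x 6) * h
  · intro x; ext i; fin_cases i <;> simp [fM, gM]
    · linear_combination (x 1) * h
    · linear_combination (x 2) * h
    · linear_combination (x 3) * h
    · linear_combination (x 4) * h
    · linear_combination (x 5) * h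
    · linear_combination (x 6) * h
  · intro x y
    rw [mul_apply, mul_apply]; ext i; fin_cases i <;> simp only [fM, Matrix.cons_val, Fin.isValue, Fin.zero_eta, Fin.mk_one, Fin.reduceFinMk]
    · linear_combination (-(x 1 * y 4 + x 2 * y 5 + x 3 * y 6)) * h
    · linear_combination (p * (x 5 * y 6 - x 6 * y 5) + q * (x 6 * y 4 - x 4 * y 6) + r * (x 4 * y 5 - x 5 * y 4)) * h
    · linear_combination (s * (x 5 * y 6 - x 6 * y 5) + t * (x 6 * y 4 - x 4 * y 6) + u * (x 4 * y 5 - x 5 * y 4)) * h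
    · linear_combination (v * (x 5 * y 6 - x 6 * y 5) + w * (x 6 * y 4 - x 4 * y 6) + z * (x 4 * y 5 - x 5 * y 4)) * h
    · ring
    · ring
    · ring
    · linear_combination (-(x 4 * y 1 + x 5 * y 2 + x 6 * y 3)) * h

theorem R_b {x : Fin 8 → F} (hb : x 4 ≠ 0 ∨ x 5 ≠ 0 ∨ x 6 ≠ 0) :
    ∃ y, R x y ∧ y 0 = x 0 ∧ y 7 = x 7 ∧ y 4 = 1 ∧ y 5 = 0 ∧ y 6 = 0 := by
  obtain ⟨s, t, u, v, w, z, h⟩ : ∃ s t u v w z : F, x 4 * (t * z - u * w) + x 5 * (u * v - s * z) + x 6 * (s * w - t * v) = 1 := by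
    by_cases h4 : x 4 = 0
    · by_cases h5 : x 5 = 0
      · have h6 : x 6 ≠ 0 := by
          rcases hb with h | h | h
          · exact absurd h4 h
          · exact absurd h5 h
          · exact h
        exact ⟨(x 6)⁻¹, 0, 0, 0, 1, 0, by rw [h4, h5]; field_simp; ring⟩
      · exact ⟨-(x 5)⁻¹, 0, 0, 0, 0, 1, by rw [h4]; field_simp; ring⟩
    · exact ⟨0, (x 4)⁻¹, 0, 0, 0, 1, by field_simp; ring⟩
  refine ⟨_, R_M h x, ?_, ?_, ?_, ?_, ?_⟩
  · simp [fM]
  · simp [fM]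
  · simp only [fM, Matrix.cons_val]; linear_combination h
  · simp only [fM, Matrix.cons_val]; ring
  · simp only [fM, Matrix.cons_val]; ring

theorem R_a3 {x : Fin 8 → F} (h4 : x 4 = 1) (h5 : x 5 = 0) (h6 : x 6 = 0) :
    ∃ y, R x y ∧ y 0 = x 0 ∧ y 7 = x 7 ∧ y 4 = 1 ∧ y 5 = 0 ∧ y 6 = 0 ∧ y 3 = 0 := by
  by_cases h2 : x 2 = 0
  · refine ⟨_, R_M (p := 1) (q := 0) (r := 0) (s := 0) (t := 0) (u := 1) (v := 0) (w := -1) (z := 0) (by ring) x, ?_, ?_, ?_, ?_, ?_, ?_⟩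
    · simp [fM]
    · simp [fM]
    · simp [fM, h4]
    · simp [fM, h5, h6]
    · simp [fM, h5, h6]
    · simp [fM, h2]
  · refine ⟨_, R_M (p := 1) (q := 0) (r := 0) (s := 0) (t := 1) (u := 0) (v := 0) (w := -(x 3) / x 2) (z := 1) (by ring) x, ?_, ?_, ?_, ?_, ?_, ?_⟩
    · simp [fM]
    · simp [fM]
    · simp [fM, h4]
    · simp [fM, h5, h6]
    · simp [fM, h5, h6]
    · simp [fM]; field_simp; ring

/-- the standard element of trace one and norm `ν` -/
def st (ν : F) : Fin 8 → F := ![0, -ν, 0, 0, 1, 0, 0, 1]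

theorem st_TT (ν : F) : TT (st ν) = 1 := by simp [TT, st]
theorem st_NN (ν : F) : NNo (st ν) = ν := by simp [NNo, st]

theorem R_nz (h2 : (2 : F) = 0) {x : Fin 8 → F} (hT : TT x = 1) : ∃ y, R x y ∧ (y 4 ≠ 0 ∨ y 5 ≠ 0 ∨ y 6 ≠ 0) := by
  by_cases hb : x 4 ≠ 0 ∨ x 5 ≠ 0 ∨ x 6 ≠ 0
  · exact ⟨x, ⟨1, ac_one x⟩, hb⟩
  · push Not at hb
    obtain ⟨b1, b2, b3⟩ := hb
    by_cases ha : x 1 ≠ 0 ∨ x 2 ≠ 0 ∨ x 3 ≠ 0
    · refine ⟨_, R_th x, ?_⟩
      simpa using ha
    · push Not at ha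
      obtain ⟨a1, a2, a3⟩ := ha
      refine ⟨_, (R_x1 1 x).trans (R_th _), Or.inl ?_⟩
      simp only [Matrix.cons_val, a1, b1]
      rw [TT] at hT
      have h3 : -(0 + 1 * (x 7 - x 0) - 1 ^ 2 * (0 : F)) = -1 := by linear_combination (-1 : F) * hT + x 0 * h2
      rw [h3]
      exact neg_ne_zero.2 one_ne_zero

theorem R_std (h2 : (2 : F) = 0) {x : Fin 8 → F} (hT : TT x = 1) : R x (st (NNo x)) := by
  obtain ⟨x1, h1, hb⟩ := R_nz h2 hT
  obtain ⟨x2, k2, -, -, c4, -, -⟩ := R_b hb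
  have T2 : TT x2 = 1 := by rw [k2.inv.1, h1.inv.1, hT]
  have k3 := R_x1 (-(x2 0)) x2
  set x3 : Fin 8 → F := ![x2 0 + (-(x2 0)) * x2 4, x2 1 + (-(x2 0)) * (x2 7 - x2 0) - (-(x2 0)) ^ 2 * x2 4, x2 2, x2 3, x2 4,
    x2 5 + (-(x2 0)) * x2 3, x2 6 - (-(x2 0)) * x2 2, x2 7 - (-(x2 0)) * x2 4] with hx3
  have d4 : x3 4 = 1 := by rw [hx3]; simp only [Matrix.cons_val]; exact c4
  have d0 : x3 0 = 0 := by rw [hx3]; simp only [Matrix.cons_val]; rw [c4]; ring
  have d7 : x3 7 = 1 := by rw [hx3]; simp only [Matrix.cons_val]; rw [c4]; rw [TT] at T2; linear_combination T2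
  obtain ⟨x4, k4, e0, e7, e4, e5, e6⟩ := R_b (x := x3) (Or.inl (by rw [d4]; exact one_ne_zero))
  obtain ⟨x5, k5, f0, f7, f4, f5, f6, f3⟩ := R_a3 e4 e5 e6
  rw [e0, d0] at f0
  rw [e7, d7] at f7
  have k6 := R_x2 (-(x5 2)) x5
  set x6 : Fin 8 → F := ![x5 0 + (-(x5 2)) * x5 5, x5 1, x5 2 + (-(x5 2)) * (x5 7 - x5 0) - (-(x5 2)) ^ 2 * x5 5, x5 3, x5 4 - (-(x5 2)) * x5 3,
    x5 5, x5 6 + (-(x5 2)) * x5 1, x5 7 - (-(x5 2)) * x5 5] with hx6
  have g6 : x6 = ![0, x5 1, 0, 0, 1, 0, -(x5 2) * x5 1, 1] := by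
    rw [hx6, f0, f7, f4, f5, f6, f3]
    ext i
    fin_cases i <;> simp
  have k7 := R_M (p := 1) (q := 0) (r := -(x5 2) * x5 1) (s := 0) (t := 1) (u := 0) (v := 0) (w := 0) (z := 1) (by ring) x6
  have g7 : fM 1 0 (-(x5 2) * x5 1) 0 1 0 0 0 1 x6 = st (-(x5 1)) := by
    rw [g6, st]
    ext i
    fin_cases i <;> simp [fM]
  rw [g7] at k7
  have hR := (((((h1.trans k2).trans k3).trans k4).trans k5).trans k6).trans k7
  have h3 := hR.inv.2
  rw [st_NN] at h3
  rw [← h3]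
  exact hR

theorem NN_add (x y : Fin 8 → F) : NNo (x + y) = NNo x + NNo y + BB x y := by
  simp only [NNo, BB, Pi.add_apply]; ring

theorem BB_ac (g : G2 F) (x y : Fin 8 → F) : BB (ac g x) (ac g y) = BB x y := by
  have h1 := NN_add (ac g x) (ac g y)
  rw [← ac_add, (ac_TN g _).2, (ac_TN g x).2, (ac_TN g y).2, NN_add x y] at h1
  linear_combination (-1 : F) * h1

theorem BB_one (x : Fin 8 → F) : BB x oneO = TT x := by simp [BB, oneO, TT]

theorem BB_rep (f : (Fin 8 → F) →ₗ[F] F) : ∃ v, ∀ y, f y = BB v y := by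
  let e : Fin 8 → (Fin 8 → F) := fun i j => if i = j then 1 else 0
  refine ⟨![f (e 7), -f (e 4), -f (e 5), -f (e 6), -f (e 1), -f (e 2), -f (e 3), f (e 0)], fun y => ?_⟩
  rw [LinearMap.pi_apply_eq_sum_univ f y, Fin.sum_univ_eight]
  simp only [BB, Matrix.cons_val, smul_eq_mul]
  show y 0 * f (e 0) + y 1 * f (e 1) + y 2 * f (e 2) + y 3 * f (e 3) + y 4 * f (e 4) + y 5 * f (e 5) + y 6 * f (e 6) + y 7 * f (e 7) = _
  ring

theorem BB_nd {x : Fin 8 → F} (h : ∀ y, BB x y = 0) : x = 0 := by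
  have e : ∀ i : Fin 8, BB x (Pi.single i 1) = 0 := fun i => h _
  have h0 := e 0
  have h1 := e 1
  have h2 := e 2
  have h3 := e 3
  have h4 := e 4
  have h5 := e 5
  have h6 := e 6
  have h7 := e 7
  simp [BB, Pi.single_apply] at h0 h1 h2 h3 h4 h5 h6 h7
  ext i
  fin_cases i <;> simp [*]

theorem exists_fix (g : G2 F) : ∃ e, TT e = 1 ∧ ∃ c : F, ac g e = e + c • oneO := by
  set e0 : Fin 8 → F := ![1, 0, 0, 0, 0, 0, 0, 0] with he0
  have hTe0 : TT e0 = 1 := by simp [TT, he0]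
  let Tl : (Fin 8 → F) →ₗ[F] F := LinearMap.proj (R := F) (φ := fun _ : Fin 8 => F) 0 + LinearMap.proj (R := F) (φ := fun _ : Fin 8 => F) 7
  have hTl : ∀ x, Tl x = TT x := fun x => rfl
  let G : (Fin 8 → F) →ₗ[F] (Fin 8 → F) := Matrix.mulVecLin ((g : GL (Fin 8) F) : Matrix (Fin 8) (Fin 8) F)
  have hG : ∀ x, G x = ac g x := fun x => rfl
  set M : Submodule F (Fin 8 → F) := (LinearMap.ker Tl).map (G - LinearMap.id) ⊔ F ∙ (oneO : Fin 8 → F) with hM
  by_cases ha : ac g e0 - e0 ∈ M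
  · obtain ⟨y, ⟨w, hw, rfl⟩, z, hz, hyz⟩ := Submodule.mem_sup.1 ha
    obtain ⟨c, rfl⟩ := Submodule.mem_span_singleton.1 hz
    have hw' : TT w = 0 := hw
    refine ⟨e0 - w, ?_, c, ?_⟩
    · rw [← hTl, map_sub, hTl, hTl, hw', hTe0, sub_zero]
    · rw [ac_sub]
      have h3 : (ac g w - w) + c • oneO = ac g e0 - e0 := hyz
      have h4 : ac g e0 = (ac g w - w) + c • oneO + e0 := by rw [h3]; abel
      rw [h4]; abel
  · exfalso
    obtain ⟨f, hfa, hf⟩ := Submodule.exists_le_ker_of_notMem ha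
    obtain ⟨v, hv⟩ := BB_rep f
    have hTv : TT v = 0 := by
      rw [← BB_one, ← hv]
      exact hf (Submodule.mem_sup_right (Submodule.mem_span_singleton_self _))
    have hw : ∀ w, TT w = 0 → BB v (ac g w - w) = 0 := by
      intro w hw
      rw [← hv]
      exact hf (Submodule.mem_sup_left ⟨w, hw, rfl⟩)
    have hsub : ∀ a b c : Fin 8 → F, BB a (b - c) = BB a b - BB a c := fun a b c => by
      simp only [BB, Pi.sub_apply]; ring
    have hsub' : ∀ a b c : Fin 8 → F, BB (a - b) c = BB a c - BB b c := fun a b c => by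
      simp only [BB, Pi.sub_apply]; ring
    have hsm : ∀ (k : F) (a b : Fin 8 → F), BB (k • a) b = k * BB a b := fun k a b => by
      simp only [BB, Pi.smul_apply, smul_eq_mul]; ring
    have hsm' : ∀ (k : F) (a b : Fin 8 → F), BB a (k • b) = k * BB a b := fun k a b => by
      simp only [BB, Pi.smul_apply, smul_eq_mul]; ring
    have hinv : ∀ x, BB (ac g⁻¹ v) x = BB v (ac g x) := fun x => by rw [← BB_ac g (ac g⁻¹ v) x, ac_ac_inv]
    set k := BB (ac g⁻¹ v - v) e0 with hk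
    have hu : ac g⁻¹ v - v = k • oneO := by
      have h3 : ∀ y, BB (ac g⁻¹ v - v - k • oneO) y = 0 := by
        intro y
        have h4 : BB (ac g⁻¹ v - v) (y - TT y • e0) = 0 := by
          rw [hsub', hinv, ← hsub]
          apply hw
          rw [← hTl, map_sub, map_smul, hTl, hTl, hTe0, smul_eq_mul, mul_one, sub_self]
        rw [hsub, hsm', ← hk] at h4
        rw [hsub', hsm]
        have h5 : BB oneO y = TT y := by simp [BB, oneO, TT]; ring
        rw [h5]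
        linear_combination h4
      exact sub_eq_zero.1 (BB_nd h3)
    have hu' : ac g⁻¹ v = v + k • oneO := by rw [← hu]; abel
    have h6 := (ac_TN g⁻¹ v).2
    rw [hu', NN_add, hsm', BB_one, hTv] at h6
    have h7 : NNo (k • oneO) = k ^ 2 := by simp [NNo, oneO]; ring
    rw [h7] at h6
    have hk0 : k = 0 := by
      have : k ^ 2 = 0 := by linear_combination h6
      exact pow_eq_zero_iff two_ne_zero |>.1 this
    rw [hk0, zero_smul, add_zero] at hu'
    apply hfa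
    rw [hv, hsub, ← hinv, hu', sub_self]

/-- stabilizer of `e + F 1` -/
def SS (e : Fin 8 → F) : Subgroup (G2 F) where
  carrier := {g | ∃ c : F, ac g e = e + c • oneO}
  mul_mem' := by
    rintro g h ⟨c, hc⟩ ⟨d, hd⟩
    refine ⟨c + d, ?_⟩
    rw [ac_mul, hd, ac_add, ac_smul, ac_oneO, hc, add_smul, add_assoc]
  one_mem' := ⟨0, by rw [ac_one, zero_smul, add_zero]⟩
  inv_mem' := by
    rintro g ⟨c, hc⟩
    refine ⟨-c, ?_⟩
    have h1 : ac g⁻¹ (ac g e) = ac g⁻¹ (e + c • oneO) := by rw [hc]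
    rw [ac_inv_ac, ac_add, ac_smul, ac_oneO] at h1
    rw [neg_smul]
    exact (eq_sub_of_add_eq h1.symm).trans (sub_eq_add_neg _ _)

theorem SS_ne (h2 : (2 : F) = 0) (ν : F) : SS (st ν) ≠ ⊤ := by
  intro htop
  have h1 : TT (![0, 0, -ν, 0, 0, 1, 0, 1] : Fin 8 → F) = 1 := by simp [TT]
  have h3 : NNo (![0, 0, -ν, 0, 0, 1, 0, 1] : Fin 8 → F) = ν := by simp [NNo]
  have h4 := R_std h2 h1
  rw [h3] at h4
  obtain ⟨g, hg⟩ := h4.symm
  obtain ⟨c, hc⟩ : g ∈ SS (st ν) := by rw [htop]; trivial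
  rw [hg] at hc
  have h5 := congrFun hc 4
  simp [st, oneO] at h5

theorem exists_norm [Finite F] (h2 : (2 : F) = 0) {ν : F} (hν : ∀ t : F, t ^ 2 + t + ν ≠ 0) (n : F) :
    (∃ c, n + c + c ^ 2 = 0) ∨ ∃ c, n + c + c ^ 2 = ν := by
  let f : F →+ F :=
    { toFun := fun c => c + c ^ 2
      map_zero' := by ring
      map_add' := fun a b => by linear_combination (a * b) * h2 }
  have hf : ∀ c, f c = c + c ^ 2 := fun c => rfl
  have hker : Nat.card f.ker = 2 := by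
    have h3 : ((f.ker : AddSubgroup F) : Set F) = {0, 1} := by
      ext x
      rw [SetLike.mem_coe, AddMonoidHom.mem_ker, hf, Set.mem_insert_iff, Set.mem_singleton_iff]
      constructor
      · intro h
        have h4 : x * (x + 1) = 0 := by linear_combination h
        rcases mul_eq_zero.1 h4 with h5 | h5
        · exact Or.inl h5
        · right; linear_combination h5 - h2
      · rintro (rfl | rfl)
        · ring
        · linear_combination h2
    have h4 : Nat.card f.ker = ((f.ker : AddSubgroup F) : Set F).ncard := rfl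
    rw [h4, h3, Set.ncard_pair zero_ne_one]
  have hidx : f.range.index = 2 := by
    have h3 := AddSubgroup.card_mul_index f.ker
    rw [AddSubgroup.index_ker, hker] at h3
    have h4 := AddSubgroup.card_mul_index f.range
    have h5 : 0 < Nat.card f.range := Nat.card_pos
    rw [← h3, mul_comm 2] at h4
    exact Nat.eq_of_mul_eq_mul_left h5 h4
  have hneg : ∀ a : F, -a = a := fun a => by linear_combination (-a) * h2
  have hνr : ν ∉ f.range := by
    rintro ⟨t, ht⟩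
    apply hν t
    rw [hf] at ht
    rw [← ht]
    linear_combination (t + t ^ 2) * h2
  by_cases hn : n ∈ f.range
  · obtain ⟨c, hc⟩ := hn
    left
    refine ⟨c, ?_⟩
    rw [hf] at hc
    rw [← hc]
    linear_combination (c + c ^ 2) * h2
  · have h3 : n + ν ∈ f.range := by
      rw [AddSubgroup.add_mem_iff_of_index_two hidx]
      exact ⟨fun h => absurd h hn, fun h => absurd h hνr⟩
    obtain ⟨c, hc⟩ := h3
    right
    refine ⟨c, ?_⟩
    rw [hf] at hc
    linear_combination hc + n * h2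

theorem cov_G2 [Finite F] (h2 : (2 : F) = 0) : Cov (G2 F) := by
  obtain ⟨ν, hν⟩ := QuadEmb67.exists_b (F := F)
  refine ⟨SS (st 0), SS (st ν), SS_ne h2 0, SS_ne h2 ν, fun g => ?_⟩
  obtain ⟨e, he, c, hc⟩ := exists_fix g
  have key : ∀ ν' : F, (∃ d, NNo e + d + d ^ 2 = ν') → ∃ x : G2 F, x * g * x⁻¹ ∈ SS (st ν') := by
    rintro ν' ⟨d, hd⟩
    have h1 : TT (e + d • oneO) = 1 := by
      have : TT (e + d • oneO) = TT e + 2 * d := by simp [TT, oneO]; ring
      rw [this, he, h2]; ring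
    have h3 : NNo (e + d • oneO) = ν' := by
      have h4 : NNo (e + d • oneO) = NNo e + d * TT e + d ^ 2 := by simp [NNo, oneO, TT]; ring
      rw [h4, he, ← hd]; ring
    obtain ⟨x, hx⟩ := R_std h2 h1
    rw [h3] at hx
    refine ⟨x, c, ?_⟩
    have h5 : ac x⁻¹ (st ν') = e + d • oneO := by rw [← hx, ac_inv_ac]
    rw [ac_mul, ac_mul, h5, ac_add, ac_smul, ac_oneO, hc]
    have h6 : e + c • oneO + d • oneO = (e + d • oneO) + c • (oneO : Fin 8 → F) := by abel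
    rw [h6, ac_add, hx, ac_smul, ac_oneO]
  rcases exists_norm h2 hν (NNo e) with h | h
  · obtain ⟨x, hx⟩ := key 0 h
    exact ⟨x, Or.inl hx⟩
  · obtain ⟨x, hx⟩ := key ν h
    exact ⟨x, Or.inr hx⟩

end Cfsg.Agent.Lib.CovG67
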