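import Cfsg.Agent.Lib.SpConj2

/-! # Forms which are traces of forms over an extension field -/

set_option autoImplicit false

namespace Cfsg.Agent.Lib.TrForm

open Cfsg.Agent.Lib.InvSub Cfsg.Agent.Lib.PrimeOrd Cfsg.Agent.Lib.Sesq Module

section form

variable {F L V : Type*} [Field F] [Finite F] [Field L] [Finite L] [Algebra F L] [AddCommGroup V] [Module F V] [Module L V]
  [IsScalarTower F L V]

lemma trace_ext {x y : L} (h : ∀ a : L, Algebra.trace F L (a * x) = Algebra.trace F L (a * y)) : x = y := by
  have hfd : FiniteDimensional F L := Module.Finite.of_finite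
  have hsep : Algebra.IsSeparable F L := inferInstance
  have h1 := (traceForm_nondegenerate F L).1
  rw [← sub_eq_zero]
  apply h1
  intro a
  have := h a
  rw [← sub_eq_zero, ← map_sub, ← mul_sub] at this
  rw [Algebra.traceForm_apply, mul_comm]
  exact this

/-- the value of the form over `L` -/
lemma exists_val (B : V →ₗ[F] V →ₗ[F] F) (u v : V) : ∃ x : L, ∀ a : L, Algebra.trace F L (a * x) = B (a • u) v := by
  have hfd : FiniteDimensional F L := Module.Finite.of_finite
  have hsep : Algebra.IsSeparable F L := inferInstance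
  let φ : L →ₗ[F] F := (B.flip v) ∘ₗ (LinearMap.toSpanSingleton L V u).restrictScalars F
  let D := LinearMap.BilinForm.toDual (Algebra.traceForm F L) (traceForm_nondegenerate F L)
  refine ⟨D.symm φ, fun a => ?_⟩
  have h1 := LinearMap.BilinForm.toDual_def (B := Algebra.traceForm F L) (traceForm_nondegenerate F L) (m := D.symm φ) (n := a)
  have h2 : D (D.symm φ) = φ := LinearEquiv.apply_symm_apply _ _
  rw [Algebra.traceForm_apply] at h1
  rw [mul_comm, ← h1]
  show (D (D.symm φ)) a = _
  rw [h2]
  rfl

/-- a form adapted to `L` is the trace of a form over `L` -/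
theorem exists_form (σ : L →ₐ[F] L) (hσ : ∀ a, σ (σ a) = a) (B : V →ₗ[F] V →ₗ[F] F)
    (hadj : ∀ (a : L) (u v : V), B (a • u) v = B u (σ a • v)) :
    ∃ BL : V →ₗ[L] V →ₛₗ[(σ : L →+* L)] L, ∀ (a : L) (u v : V), Algebra.trace F L (a * BL u v) = B (a • u) v := by
  choose t ht using fun u v => exists_val (L := L) B u v
  refine ⟨LinearMap.mk₂'ₛₗ (RingHom.id L) (σ : L →+* L) t ?_ ?_ ?_ ?_, fun a u v => ht u v a⟩
  · intro u u' v
    apply trace_ext (F := F)
    intro a
    rw [ht, mul_add, map_add, ht, ht, smul_add, map_add, LinearMap.add_apply]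
  · intro c u v
    apply trace_ext (F := F)
    intro a
    rw [ht, smul_smul, RingHom.id_apply, smul_eq_mul, ← mul_assoc, ht]
  · intro u v v'
    apply trace_ext (F := F)
    intro a
    rw [ht, map_add, mul_add, map_add, ht, ht]
  · intro c u v
    apply trace_ext (F := F)
    intro a
    rw [ht, smul_eq_mul, ← mul_assoc, RingHom.coe_coe, ht, mul_comm, ← smul_smul, hadj (σ c), hσ]

variable {σ : L →ₐ[F] L} {B : V →ₗ[F] V →ₗ[F] F} {BL : V →ₗ[L] V →ₛₗ[(σ : L →+* L)] L}

theorem nd_of (h : ∀ (a : L) (u v : V), Algebra.trace F L (a * BL u v) = B (a • u) v)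
    {W : Submodule L V} (hW : ND (σ := RingHom.id F) B (W.restrictScalars F)) : ND (σ := (σ : L →+* L)) BL W := by
  intro w hw hw'
  apply hW w hw
  intro v hv
  have := h 1 w v
  rw [hw' v hv, mul_zero, map_zero, one_smul] at this
  exact this.symm

theorem nd_of' (h : ∀ (a : L) (u v : V), Algebra.trace F L (a * BL u v) = B (a • u) v)
    {W : Submodule L V} (hW : ND (σ := (σ : L →+* L)) BL W) : ND (σ := RingHom.id F) B (W.restrictScalars F) := by
  intro w hw hw'
  apply hW w hw
  intro v hv
  apply trace_ext (F := F)
  intro a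
  rw [mul_zero, map_zero]
  -- `a * BL w v = BL w (σ⁻¹ a v)`; we use surjectivity of `σ`
  obtain ⟨b, hb⟩ : ∃ b, σ b = a := by
    have hinj : Function.Injective σ := σ.toRingHom.injective
    exact (Finite.surjective_of_injective hinj) a
  have h4 : a * BL w v = BL w (b • v) := by
    rw [LinearMap.map_smulₛₗ, smul_eq_mul, RingHom.coe_coe, hb]
  rw [h4]
  have h5 := h 1 w (b • v)
  rw [one_mul, one_smul] at h5
  rw [h5]
  exact hw' _ (W.smul_mem b hv)

theorem iso_of (h : ∀ (a : L) (u v : V), Algebra.trace F L (a * BL u v) = B (a • u) v)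
    {T : Module.End L V} (hT : ∀ u v, B (T u) (T v) = B u v) : ∀ u v, BL (T u) (T v) = BL u v := by
  intro u v
  apply trace_ext (F := F)
  intro a
  rw [h, h, ← map_smul, hT]

theorem iso_of' (h : ∀ (a : L) (u v : V), Algebra.trace F L (a * BL u v) = B (a • u) v)
    {T : Module.End L V} (hT : ∀ u v, BL (T u) (T v) = BL u v) : ∀ u v, B (T u) (T v) = B u v := by
  intro u v
  have h1 := h 1 (T u) (T v)
  have h2 := h 1 u v
  rw [one_smul, one_mul] at h1 h2
  rw [← h1, hT, h2]

theorem alt_of {BL : V →ₗ[L] V →ₗ[L] L} (h : ∀ (a : L) (u v : V), Algebra.trace F L (a * BL u v) = B (a • u) v)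
    (halt : ∀ (a : L) (v : V), B (a • v) v = 0) (v : V) : BL v v = 0 := by
  apply trace_ext (F := F)
  intro a
  rw [h, halt, mul_zero, map_zero]

end form

section bound

variable {F L V : Type*} [Field F] [Field L] [Algebra F L] [AddCommGroup V] [Module F V] [Module L V]
  [IsScalarTower F L V]

/-- fixed vectors of a semilinear map: `F`-independent vectors are `L`-independent -/
theorem indep_of_fixed {τ : L →+* L} (hτ : ∀ a : L, τ a = a → a ∈ (algebraMap F L).range) {T : V → V}
    (hadd : ∀ u v, T (u + v) = T u + T v) (hT : ∀ (a : L) v, T (a • v) = τ a • T v) {m : ℕ} {e : Fin m → V} (he : ∀ i, T (e i) = e i)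
    (hli : LinearIndependent F e) : LinearIndependent L e := by
  classical
  have hsum : ∀ (s : Finset (Fin m)) (f : Fin m → V), T (∑ i ∈ s, f i) = ∑ i ∈ s, T (f i) := by
    intro s f
    induction s using Finset.induction_on with
    | empty =>
      have := hadd 0 0
      simp only [Finset.sum_empty]
      rw [add_zero] at this
      exact left_eq_add.1 this
    | insert a s ha ih => rw [Finset.sum_insert ha, Finset.sum_insert ha, hadd, ih]
  rw [Fintype.linearIndependent_iff]
  -- strong induction on the number of nonzero coefficients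
  suffices H : ∀ (n : ℕ) (l : Fin m → L), (Finset.univ.filter fun i => l i ≠ 0).card = n → ∑ i, l i • e i = 0 → ∀ i, l i = 0 by
    intro l hl i
    exact H _ l rfl hl i
  intro n
  induction n using Nat.strong_induction_on with
  | _ n ih =>
    intro l hn hl
    by_contra hcon
    push Not at hcon
    obtain ⟨i₀, hi₀⟩ := hcon
    -- normalise
    let l' : Fin m → L := fun i => (l i₀)⁻¹ * l i
    have hl' : ∑ i, l' i • e i = 0 := by
      simp only [l', ← smul_smul]
      rw [← Finset.smul_sum, hl, smul_zero]
    have hl'0 : l' i₀ = 1 := inv_mul_cancel₀ hi₀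
    have hl'z : ∀ i, l i = 0 → l' i = 0 := fun i hi => by simp only [l', hi, mul_zero]
    let l'' : Fin m → L := fun i => τ (l' i) - l' i
    have hl'' : ∑ i, l'' i • e i = 0 := by
      have h1 : T (∑ i, l' i • e i) = ∑ i, τ (l' i) • e i := by
        rw [hsum]
        apply Finset.sum_congr rfl
        intro i _
        rw [hT, he]
      have h2 : T 0 = 0 := by
        have := hT 0 0
        rw [zero_smul, map_zero, zero_smul] at this
        exact this
      rw [hl', h2] at h1
      simp only [l'', sub_smul, Finset.sum_sub_distrib]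
      rw [← h1, hl', sub_zero]
    have hlt : (Finset.univ.filter fun i => l'' i ≠ 0).card < n := by
      rw [← hn]
      apply Finset.card_lt_card
      rw [Finset.ssubset_iff_of_subset]
      · refine ⟨i₀, by simp [hi₀], ?_⟩
        simp only [Finset.mem_filter, Finset.mem_univ, true_and, not_not, l'', hl'0, map_one, sub_self]
      · intro i hi
        simp only [Finset.mem_filter, Finset.mem_univ, true_and] at hi ⊢
        intro h0
        apply hi
        simp only [l'', hl'z i h0, map_zero, sub_self]
    have h0 := ih _ hlt l'' rfl hl''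
    -- all coefficients in `F`
    choose c hc using fun i => hτ (l' i) (sub_eq_zero.1 (h0 i))
    have h3 : ∑ i, c i • e i = 0 := by
      rw [← hl']
      apply Finset.sum_congr rfl
      intro i _
      rw [← hc, algebraMap_smul]
    have h4 := Fintype.linearIndependent_iff.1 hli c h3 i₀
    rw [← hc, h4, map_zero] at hl'0
    exact zero_ne_one hl'0

/-- bound for the fixed space of a semilinear map -/
theorem semilin_bound [FiniteDimensional F V] [FiniteDimensional F L] {τ : L →+* L} (hτ : ∀ a : L, τ a = a → a ∈ (algebraMap F L).range)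
    {T : Module.End F V} (hT : ∀ (a : L) v, T (a • v) = τ a • T v) :
    finrank F L * finrank F (E T 1) ≤ finrank F V := by
  have hfV : FiniteDimensional L V := FiniteDimensional.right F L V
  have h1 : finrank F V = finrank F L * finrank L V := (Module.finrank_mul_finrank F L V).symm
  rw [h1]
  apply Nat.mul_le_mul_left
  let b := Module.finBasis F (E T 1)
  have hli : LinearIndependent F (fun i => ((b i : E T 1) : V)) := by
    have := b.linearIndependent.map' (E T 1).subtype (Submodule.ker_subtype _)
    exact this
  have h2 := indep_of_fixed hτ (T := T) (fun u v => map_add T u v) hT (fun i => by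
    have := Module.End.mem_eigenspace_iff.1 (b i).2
    rwa [one_smul] at this) hli
  have := h2.fintype_card_le_finrank
  rwa [Fintype.card_fin] at this

end bound

end Cfsg.Agent.Lib.TrForm
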