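import Mathlib
import Cfsg.Agent.Lib.CovC67
import Cfsg.Agent.Lib.TrForm
import Cfsg.Agent.Lib.ExtField
import Cfsg.Agent.Lib.AltForm
import Cfsg.Agent.Lib.SpTrans

/-!
(helper67) Self-adjoint operators of alternating spaces.
-/

set_option autoImplicit false
set_option linter.unusedSectionVars false

namespace Cfsg.Agent.Lib.CovH67

open Polynomial Module Cfsg.Agent.Lib.Cov67

universe u v w

section ext
variable {F : Type u} {L : Type w} [Field F] [Finite F] [Field L] [Finite L] [Algebra F L]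
variable {V : Type v} [AddCommGroup V] [Module F V] [Module L V] [IsScalarTower F L V] [FiniteDimensional F V]

theorem exists_BL (B : V →ₗ[F] V →ₗ[F] F) (hadj : ∀ (a : L) (u v : V), B (a • u) v = B u (a • v)) :
    ∃ BL : V →ₗ[L] V →ₗ[L] L, ∀ (a : L) (u v : V), Algebra.trace F L (a * BL u v) = B (a • u) v :=
  TrForm.exists_form (AlgHom.id F L) (fun _ => rfl) B hadj

theorem skew {V : Type v} [AddCommGroup V] [Module F V] {B : V →ₗ[F] V →ₗ[F] F} (hB : ∀ v, B v v = 0) (u v : V) : B u v = -B v u := by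
  have h1 := hB (u + v)
  rw [map_add, map_add, LinearMap.add_apply, LinearMap.add_apply, hB, hB] at h1
  linear_combination h1

theorem exists_BL' (h2 : (2 : F) ≠ 0) {B : V →ₗ[F] V →ₗ[F] F} (hB : ∀ v, B v v = 0) (hnd : ∀ v, (∀ w, B v w = 0) → v = 0)
    (hadj : ∀ (a : L) (u v : V), B (a • u) v = B u (a • v)) :
    ∃ BL : V →ₗ[L] V →ₗ[L] L, (∀ (a : L) (u v : V), Algebra.trace F L (a * BL u v) = B (a • u) v) ∧ (∀ v, BL v v = 0) ∧
      ∀ v, (∀ w, BL v w = 0) → v = 0 := by
  obtain ⟨BL, hBL⟩ := exists_BL B hadj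
  refine ⟨BL, hBL, ?_, ?_⟩
  · intro v
    refine TrForm.alt_of hBL (fun a v => ?_) v
    have h1 := skew hB (a • v) v
    rw [← hadj] at h1
    have h3 : 2 * B (a • v) v = 0 := by linear_combination h1
    exact (mul_eq_zero.1 h3).resolve_left h2
  · intro v h
    apply hnd
    intro w
    have h1 := hBL 1 v w
    rw [h, mul_zero, map_zero, one_smul] at h1
    exact h1.symm

theorem sa_even_aux (h2 : (2 : F) ≠ 0) {B : V →ₗ[F] V →ₗ[F] F} (hB : ∀ v, B v v = 0) (hnd : ∀ v, (∀ w, B v w = 0) → v = 0)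
    (hadj : ∀ (a : L) (u v : V), B (a • u) v = B u (a • v)) : Even (finrank L V) := by
  have : Module.Finite L V := Module.Finite.of_restrictScalars_finite F _ _
  obtain ⟨BL, -, h3, h4⟩ := exists_BL' h2 hB hnd hadj
  exact AltForm.even_finrank BL h3 h4

theorem sa_isom_aux {V' : Type v} [AddCommGroup V'] [Module F V'] [Module L V'] [IsScalarTower F L V'] [FiniteDimensional F V'] (h2 : (2 : F) ≠ 0)
    {B : V →ₗ[F] V →ₗ[F] F} (hB : ∀ v, B v v = 0) (hnd : ∀ v, (∀ w, B v w = 0) → v = 0)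
    (hadj : ∀ (a : L) (u v : V), B (a • u) v = B u (a • v))
    {B' : V' →ₗ[F] V' →ₗ[F] F} (hB' : ∀ v, B' v v = 0) (hnd' : ∀ v, (∀ w, B' v w = 0) → v = 0)
    (hadj' : ∀ (a : L) (u v : V'), B' (a • u) v = B' u (a • v)) (hdim : finrank L V = finrank L V') :
    ∃ x : V ≃ₗ[L] V', ∀ u v, B' (x u) (x v) = B u v := by
  have : Module.Finite L V := Module.Finite.of_restrictScalars_finite F _ _
  have : Module.Finite L V' := Module.Finite.of_restrictScalars_finite F _ _
  obtain ⟨BL, h1, h3, h4⟩ := exists_BL' h2 hB hnd hadj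
  obtain ⟨BL', h1', h3', h4'⟩ := exists_BL' h2 hB' hnd' hadj'
  obtain ⟨x, hx⟩ := AltForm.exists_isometry BL h3 h4 BL' h3' h4' hdim
  refine ⟨x, fun u v => ?_⟩
  have h5 := h1 1 u v
  have h6 := h1' 1 (x u) (x v)
  rw [one_smul] at h5 h6
  rw [← h5, ← h6, hx]

end ext

section sa
variable {F : Type u} [Field F] {V : Type v} [AddCommGroup V] [Module F V] {B : V →ₗ[F] V →ₗ[F] F}

/-- self-adjoint -/
def SA (B : V →ₗ[F] V →ₗ[F] F) (T : Module.End F V) : Prop := ∀ x y, B (T x) y = B x (T y)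

theorem SA.smul {T : Module.End F V} (hT : SA B T) (c : F) : SA B (c • T) := fun x y => by
  rw [LinearMap.smul_apply, LinearMap.smul_apply, map_smul, map_smul, LinearMap.smul_apply, hT]

theorem SA.add {S T : Module.End F V} (hS : SA B S) (hT : SA B T) : SA B (S + T) := fun x y => by
  rw [LinearMap.add_apply, LinearMap.add_apply, map_add, map_add, LinearMap.add_apply, hS, hT]

theorem SA.sub {S T : Module.End F V} (hS : SA B S) (hT : SA B T) : SA B (S - T) := fun x y => by
  rw [LinearMap.sub_apply, LinearMap.sub_apply, map_sub, map_sub, LinearMap.sub_apply, hS, hT]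

theorem SA.one : SA B 1 := fun x y => rfl

theorem SA.pow {T : Module.End F V} (hT : SA B T) (n : ℕ) : SA B (T ^ n) := by
  induction n with
  | zero => exact SA.one
  | succ n ih =>
    intro x y
    rw [pow_succ, Module.End.mul_apply, ih, hT, ← Module.End.mul_apply, ← pow_succ', ← pow_succ]

theorem SA.aeval {T : Module.End F V} (hT : SA B T) (p : F[X]) : SA B (aeval T p) := by
  induction p using Polynomial.induction_on' with
  | add p q hp hq => rw [map_add]; exact hp.add hq
  | monomial n a => rw [aeval_monomial, ← Algebra.smul_def]; exact (hT.pow n).smul a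

theorem SA.alt (h2 : (2 : F) ≠ 0) (hB : ∀ v, B v v = 0) {T : Module.End F V} (hT : SA B T) (x : V) : B x (T x) = 0 := by
  have hsk : B (T x) x = - B x (T x) := by
    have h1 := hB (T x + x)
    rw [map_add, map_add, LinearMap.add_apply, LinearMap.add_apply, hB, hB] at h1
    linear_combination h1
  rw [hT] at hsk
  have h3 : 2 * B x (T x) = 0 := by linear_combination hsk
  exact (mul_eq_zero.1 h3).resolve_left h2

theorem SA.cyc (h2 : (2 : F) ≠ 0) (hB : ∀ v, B v v = 0) {T : Module.End F V} (hT : SA B T) (x : V) (p q : F[X]) :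
    B (Polynomial.aeval T p x) (Polynomial.aeval T q x) = 0 := by
  rw [hT.aeval p, ← Module.End.mul_apply, ← map_mul]
  exact (hT.aeval (p * q)).alt h2 hB x

variable [Finite F] [FiniteDimensional F V]

theorem sa_even (h2 : (2 : F) ≠ 0) (hB : ∀ v, B v v = 0) (hnd : ∀ v, (∀ w, B v w = 0) → v = 0) {f : F[X]} (hf : Irreducible f)
    {T : Module.End F V} (hT : Polynomial.aeval T f = 0) (hSA : SA B T) : ∃ k, finrank F V = f.natDegree * (2 * k) := by
  have hFf : Fact (Irreducible f) := ⟨hf⟩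
  let φ : AdjoinRoot f →ₐ[F] Module.End F V := ExtField.liftEnd T hT
  let _ : Module (AdjoinRoot f) V := Module.compHom V φ.toRingHom
  have : IsScalarTower F (AdjoinRoot f) V := ⟨fun a x v => by
    change φ (a • x) v = a • φ x v
    rw [map_smul]; rfl⟩
  have hfin : Module.Finite F (AdjoinRoot f) := (AdjoinRoot.powerBasis hf.ne_zero).finite
  have hfL : Finite (AdjoinRoot f) := Module.finite_of_finite F
  have hadj : ∀ (a : AdjoinRoot f) (u v : V), B (a • u) v = B u (a • v) := by
    intro a u v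
    obtain ⟨p, rfl⟩ := AdjoinRoot.mk_surjective (g := f) a
    exact hSA.aeval p u v
  obtain ⟨k, hk⟩ := sa_even_aux (L := AdjoinRoot f) h2 hB hnd hadj
  refine ⟨k, ?_⟩
  have h1 := Module.finrank_mul_finrank F (AdjoinRoot f) V
  have h3 : finrank F (AdjoinRoot f) = f.natDegree := by
    rw [(AdjoinRoot.powerBasis hf.ne_zero).finrank, AdjoinRoot.powerBasis_dim]
  rw [← h1, h3, hk]
  ring

theorem sa_isom (h2 : (2 : F) ≠ 0) (hB : ∀ v, B v v = 0) (hnd : ∀ v, (∀ w, B v w = 0) → v = 0) {f : F[X]} (hf : Irreducible f)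
    {T : Module.End F V} (hT : Polynomial.aeval T f = 0) (hSA : SA B T)
    {V' : Type v} [AddCommGroup V'] [Module F V'] [FiniteDimensional F V'] {B' : V' →ₗ[F] V' →ₗ[F] F}
    (hB' : ∀ v, B' v v = 0) (hnd' : ∀ v, (∀ w, B' v w = 0) → v = 0)
    {T' : Module.End F V'} (hT' : Polynomial.aeval T' f = 0) (hSA' : SA B' T') (hdim : finrank F V = finrank F V') :
    ∃ x : V ≃ₗ[F] V', (∀ v, x (T v) = T' (x v)) ∧ ∀ u v, B' (x u) (x v) = B u v := by
  have hFf : Fact (Irreducible f) := ⟨hf⟩
  let φ : AdjoinRoot f →ₐ[F] Module.End F V := ExtField.liftEnd T hT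
  let ψ : AdjoinRoot f →ₐ[F] Module.End F V' := ExtField.liftEnd T' hT'
  have hφ : φ (AdjoinRoot.root f) = T := ExtField.liftEnd_root T hT
  have hψ : ψ (AdjoinRoot.root f) = T' := ExtField.liftEnd_root T' hT'
  let _ : Module (AdjoinRoot f) V := Module.compHom V φ.toRingHom
  let _ : Module (AdjoinRoot f) V' := Module.compHom V' ψ.toRingHom
  have : IsScalarTower F (AdjoinRoot f) V := ⟨fun a x v => by
    change φ (a • x) v = a • φ x v
    rw [map_smul]; rfl⟩
  have : IsScalarTower F (AdjoinRoot f) V' := ⟨fun a x v => by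
    change ψ (a • x) v = a • ψ x v
    rw [map_smul]; rfl⟩
  have hfin : Module.Finite F (AdjoinRoot f) := (AdjoinRoot.powerBasis hf.ne_zero).finite
  have hfL : Finite (AdjoinRoot f) := Module.finite_of_finite F
  have hadj : ∀ (a : AdjoinRoot f) (u v : V), B (a • u) v = B u (a • v) := by
    intro a u v
    obtain ⟨p, rfl⟩ := AdjoinRoot.mk_surjective (g := f) a
    exact hSA.aeval p u v
  have hadj' : ∀ (a : AdjoinRoot f) (u v : V'), B' (a • u) v = B' u (a • v) := by
    intro a u v
    obtain ⟨p, rfl⟩ := AdjoinRoot.mk_surjective (g := f) a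
    exact hSA'.aeval p u v
  have hpos : 0 < finrank F (AdjoinRoot f) := finrank_pos
  obtain ⟨x, hx⟩ := sa_isom_aux (L := AdjoinRoot f) h2 hB hnd hadj hB' hnd' hadj' (by
    apply Nat.eq_of_mul_eq_mul_left hpos
    rw [Module.finrank_mul_finrank, Module.finrank_mul_finrank, hdim])
  refine ⟨x.restrictScalars F, fun v => ?_, hx⟩
  have h4 : T v = (AdjoinRoot.root f) • v := by
    change T v = φ (AdjoinRoot.root f) v
    rw [hφ]
  have h5 : T' (x v) = (AdjoinRoot.root f) • (x v) := by
    change T' (x v) = ψ (AdjoinRoot.root f) (x v)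
    rw [hψ]
  rw [h4]
  change x ((AdjoinRoot.root f) • v) = T' (x v)
  rw [map_smul, h5]

end sa

end Cfsg.Agent.Lib.CovH67
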