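import Mathlib
import Cfsg.Agent.Lib.CovH67
import Cfsg.Agent.Lib.Sesq2

/-!
(helper67) Isometries of alternating spaces without invariant nondegenerate subspaces.
-/

set_option autoImplicit false
set_option linter.unusedSectionVars false

namespace Cfsg.Agent.Lib.CovH67

open Polynomial Module Cfsg.Agent.Lib.Cov67

universe u v w

section tr
variable {F : Type u} [Field F] {V : Type v} [AddCommGroup V] [Module F V] [FiniteDimensional F V]

theorem trace_nd {x : Module.End F V} (h : ∀ δ : Module.End F V, LinearMap.trace F V (δ * x) = 0) : x = 0 := by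
  classical
  let b := Module.finBasis F V
  apply (LinearMap.toMatrix b b).injective
  rw [map_zero, Matrix.ext_iff_trace_mul_left]
  intro y
  have h1 := h (Matrix.toLin b b y)
  rw [LinearMap.trace_eq_matrix_trace F b, LinearMap.toMatrix_mul b, LinearMap.toMatrix_toLin] at h1
  rw [h1, mul_zero, Matrix.trace_zero]

theorem trace_rep (ψ : Dual F (Module.End F V)) : ∃ x : Module.End F V, ∀ δ, ψ δ = LinearMap.trace F V (δ * x) := by
  let τ : Module.End F V →ₗ[F] Dual F (Module.End F V) :=
    ((LinearMap.mul F (Module.End F V)).flip).compr₂ (LinearMap.trace F V)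
  have hτ : ∀ x δ, τ x δ = LinearMap.trace F V (δ * x) := fun x δ => rfl
  have hinj : Function.Injective τ := by
    rw [← LinearMap.ker_eq_bot, LinearMap.ker_eq_bot']
    intro x hx
    apply trace_nd
    intro δ
    rw [← hτ, hx]; rfl
  have hsur : Function.Surjective τ :=
    (LinearMap.injective_iff_surjective_of_finrank_eq_finrank (Subspace.dual_finrank_eq (K := F) (V := Module.End F V)).symm).1 hinj
  obtain ⟨x, hx⟩ := hsur ψ
  exact ⟨x, fun δ => by rw [← hx, hτ]⟩

/-- solvability of `δ g - g δ = a` -/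
theorem exists_comm_eq (g a : Module.End F V) (h : ∀ x : Module.End F V, x * g = g * x → LinearMap.trace F V (a * x) = 0) :
    ∃ δ : Module.End F V, δ * g - g * δ = a := by
  let ad : Module.End F V →ₗ[F] Module.End F V := LinearMap.mulRight F g - LinearMap.mulLeft F g
  have had : ∀ δ, ad δ = δ * g - g * δ := fun δ => rfl
  by_contra hcon
  have ha : a ∉ LinearMap.range ad := by
    rintro ⟨δ, hδ⟩
    exact hcon ⟨δ, hδ⟩
  obtain ⟨ψ, h1, h2⟩ := Submodule.exists_le_ker_of_notMem ha
  obtain ⟨x, hx⟩ := trace_rep ψ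
  apply h1
  rw [hx]
  apply h
  have h3 : ∀ δ, LinearMap.trace F V (δ * (g * x - x * g)) = 0 := by
    intro δ
    have h4 : ψ (ad δ) = 0 := h2 ⟨δ, rfl⟩
    rw [hx, had, sub_mul, map_sub, mul_assoc, mul_assoc, LinearMap.trace_mul_comm F g] at h4
    rw [mul_sub, map_sub, ← h4, mul_assoc]
  exact (sub_eq_zero.1 (trace_nd h3)).symm

theorem nil_pow {N : Module.End F V} (hN : IsNilpotent N) {m : ℕ} (hm : finrank F V ≤ m) : N ^ m = 0 := by
  have h1 := IsNilpotent.charpoly_eq_X_pow_finrank hN
  have h2 := LinearMap.aeval_self_charpoly N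
  rw [h1, map_pow, aeval_X] at h2
  rw [← Nat.add_sub_cancel' hm, pow_add, h2, zero_mul]

end tr

section adj
variable {F : Type u} [Field F] {V : Type v} [AddCommGroup V] [Module F V] [FiniteDimensional F V] {B : V →ₗ[F] V →ₗ[F] F}

theorem exists_rep (hnd : ∀ v, (∀ w, B v w = 0) → v = 0) (f : V →ₗ[F] F) : ∃ v, ∀ w, f w = B v w := by
  have hinj : Function.Injective B := by
    rw [← LinearMap.ker_eq_bot, LinearMap.ker_eq_bot']
    intro v hv
    exact hnd v fun w => by rw [hv]; rfl
  have hsur : Function.Surjective B :=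
    (LinearMap.injective_iff_surjective_of_finrank_eq_finrank (Subspace.dual_finrank_eq (K := F) (V := V)).symm).1 hinj
  obtain ⟨v, hv⟩ := hsur f
  exact ⟨v, fun w => by rw [hv]⟩

theorem exists_adj (hnd : ∀ v, (∀ w, B v w = 0) → v = 0) (x : Module.End F V) :
    ∃ y : Module.End F V, (∀ u w, B (y u) w = B u (x w)) ∧ LinearMap.trace F V y = LinearMap.trace F V x := by
  have hinj : Function.Injective B := by
    rw [← LinearMap.ker_eq_bot, LinearMap.ker_eq_bot']
    intro v hv
    exact hnd v fun w => by rw [hv]; rfl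
  let b : V ≃ₗ[F] Dual F V := LinearMap.linearEquivOfInjective B hinj (Subspace.dual_finrank_eq (K := F) (V := V)).symm
  have hb : ∀ v w, b v w = B v w := fun v w => rfl
  refine ⟨b.symm.conj (Module.Dual.transpose (R := F) x), fun u w => ?_, ?_⟩
  · rw [← hb, LinearEquiv.conj_apply]
    show (b (b.symm ((Module.Dual.transpose (R := F) x) (b u)))) w = _
    rw [LinearEquiv.apply_symm_apply]
    rfl
  · rw [LinearMap.trace_conj', LinearMap.trace_transpose']

end adj

section bad
variable {F : Type u} [Field F] [Finite F] {V : Type v} [AddCommGroup V] [Module F V] [FiniteDimensional F V] {B : V →ₗ[F] V →ₗ[F] F}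

/-- no proper nonzero invariant nondegenerate subspaces -/
def Bad (B : V →ₗ[F] V →ₗ[F] F) (g : V ≃ₗ[F] V) : Prop :=
  ∀ W : Submodule F V, (∀ w ∈ W, g w ∈ W) → (∀ w ∈ W, (∀ w' ∈ W, B w w' = 0) → w = 0) → W = ⊥ ∨ W = ⊤

theorem ti_dim (hB : ∀ v, B v v = 0) (hnd : ∀ v, (∀ w, B v w = 0) → v = 0) {W : Submodule F V} (hW : ∀ u ∈ W, ∀ v ∈ W, B u v = 0) :
    2 * finrank F W ≤ finrank F V := by
  have hN : Sesq.ND (σ := RingHom.id F) B ⊤ := fun w _ h => hnd w fun v => h v trivial
  have h1 := Sesq.finrank_add_perp (σ := RingHom.id F) hN W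
  have h2 : W ≤ Sesq.perp (σ := RingHom.id F) B W := fun v hv => Sesq.mem_perp.2 fun w hw => hW w hw v hv
  have h3 := Submodule.finrank_mono h2
  omega

theorem perp_perp' (hB : ∀ v, B v v = 0) (hnd : ∀ v, (∀ w, B v w = 0) → v = 0) {W : Submodule F V} {x : V}
    (h : ∀ y, (∀ w ∈ W, B w y = 0) → B y x = 0) : x ∈ W := by
  have hN : Sesq.ND (σ := RingHom.id F) B ⊤ := fun w _ h => hnd w fun v => h v trivial
  have hr : Sesq.Refl (σ := RingHom.id F) B := fun u v h => by rw [skew hB, h, neg_zero]
  rw [← Sesq.perp_perp (σ := RingHom.id F) hr hN W, Sesq.mem_perp]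
  intro w hw
  exact h w (Sesq.mem_perp.1 hw)

theorem primary (hB : ∀ v, B v v = 0) (hnd : ∀ v, (∀ w, B v w = 0) → v = 0) {g : V ≃ₗ[F] V} (hbad : Bad B g)
    {X : Module.End F V} (hX : SA B X) (hc : ∀ v, X (g v) = g (X v)) (hpos : 0 < finrank F V) :
    ∃ f : F[X], Irreducible f ∧ (Polynomial.aeval X f) ^ finrank F V = 0 := by
  have hnt : Nontrivial V := Module.nontrivial_of_finrank_pos (R := F) hpos
  have hint : IsIntegral F X := Algebra.IsIntegral.isIntegral X
  obtain ⟨f, hf, m, hm⟩ := WfDvdMonoid.exists_irreducible_factor (minpoly.not_isUnit F X) (minpoly.ne_zero hint)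
  refine ⟨f, hf, ?_⟩
  set n := finrank F V with hn
  set P := (Polynomial.aeval X f) ^ n with hP
  have hPf : P = Polynomial.aeval X (f ^ n) := by rw [hP, map_pow]
  have hPSA : SA B P := by rw [hPf]; exact hX.aeval _
  have hcp : ∀ (p : F[X]) v, Polynomial.aeval X p (g v) = g (Polynomial.aeval X p v) := by
    intro p
    have hXn : ∀ (k : ℕ) v, (X ^ k) (g v) = g ((X ^ k) v) := by
      intro k
      induction k with
      | zero => intro v; rfl
      | succ k ih => intro v; rw [pow_succ', Module.End.mul_apply, ih, hc, Module.End.mul_apply]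
    induction p using Polynomial.induction_on' with
    | add p q hp hq => intro v; rw [map_add, LinearMap.add_apply, LinearMap.add_apply, hp, hq, map_add]
    | monomial n a =>
      intro v
      rw [aeval_monomial, ← Algebra.smul_def, LinearMap.smul_apply, LinearMap.smul_apply, hXn, map_smul]
  have hI : ∀ w ∈ LinearMap.ker P, g w ∈ LinearMap.ker P := by
    intro w hw
    rw [LinearMap.mem_ker] at hw ⊢
    rw [hPf, hcp, ← hPf, hw, map_zero]
  have hNd : ∀ w ∈ LinearMap.ker P, (∀ w' ∈ LinearMap.ker P, B w w' = 0) → w = 0 := by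
    intro w hw hw'
    have h1 : w ∈ LinearMap.range P := by
      apply perp_perp' hB hnd
      intro y hy
      have h2 : y ∈ LinearMap.ker P := by
        rw [LinearMap.mem_ker]
        apply hnd
        intro z
        rw [skew hB, ← hPSA, hy _ ⟨z, rfl⟩, neg_zero]
      rw [skew hB, hw' y h2, neg_zero]
    obtain ⟨y, rfl⟩ := h1
    rw [LinearMap.mem_ker, ← Module.End.mul_apply, hP, ← pow_add] at hw
    have h3 : y ∈ LinearMap.ker ((Polynomial.aeval X f) ^ (n + n)) := hw
    rw [Module.End.ker_pow_eq_ker_pow_finrank_of_le (by omega)] at h3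
    exact h3
  rcases hbad (LinearMap.ker P) hI hNd with h | h
  · exfalso
    have h1 : Function.Injective (Polynomial.aeval X f) := by
      rw [← LinearMap.ker_eq_bot, ← le_bot_iff, ← h]
      intro x hx
      rw [LinearMap.mem_ker] at hx ⊢
      rw [hP, ← Nat.sub_add_cancel hpos, pow_succ, Module.End.mul_apply, hx, map_zero]
    have h2 : Polynomial.aeval X m = 0 := by
      apply LinearMap.ext
      intro v
      apply h1
      rw [← Module.End.mul_apply, ← map_mul, ← hm, minpoly.aeval]
      simp
    have h3 := minpoly.dvd F X h2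
    have hm0 : m ≠ 0 := by
      rintro rfl
      rw [mul_zero] at hm
      exact minpoly.ne_zero hint hm
    have h4 := natDegree_le_of_dvd h3 hm0
    rw [hm, natDegree_mul hf.ne_zero hm0] at h4
    have h5 := hf.natDegree_pos
    omega
  · apply LinearMap.ext
    intro v
    have : v ∈ LinearMap.ker P := by rw [h]; trivial
    rw [LinearMap.mem_ker.1 this]; rfl

theorem frob_aeval [Fintype F] (X : Module.End F V) (f : F[X]) (j : ℕ) :
    Polynomial.aeval (X ^ (Fintype.card F ^ j)) f = (Polynomial.aeval X f) ^ (Fintype.card F ^ j) := by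
  induction j with
  | zero => simp
  | succ j ih => rw [pow_succ, pow_mul, pow_mul, ← expand_aeval, FiniteField.expand_card, map_pow, ih]

end bad

end Cfsg.Agent.Lib.CovH67
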