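import Cfsg.Agent.Lib.CovI

/-!
Actions on colourings of vectors; permutation representations of explicit actions (lead)
-/

set_option autoImplicit false

namespace Cfsg.Agent.Lib.Cov

open Subgroup Cfsg.Agent.Lib.H58SM

universe u w

/-! ### permutation representation -/

section

variable {G : Type*} {Ω : Type*} [Group G] [MulAction G Ω] {n k : ℕ} {g : ℕ → G} {e : ℕ → Ω}
    {T : ℕ → ℕ → ℕ} {pi pq : ℕ → ℕ}

/-- the points -/
noncomputable def ptsEquiv (A : Act n k g e T pi pq) (hgen : closure {z | ∃ i < k, z = g i} = ⊤) :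
    Fin n ≃ MulAction.orbit G (e 0) :=
  Equiv.ofBijective (fun a : Fin n => (⟨e a, by
        obtain ⟨y, hy⟩ := A.exists_smul a.2
        exact ⟨y, hy⟩⟩ : MulAction.orbit G (e 0))) ⟨fun a b h => Fin.ext (A.inj a.2 b.2 (congrArg Subtype.val h)), by
      rintro ⟨_, y, rfl⟩
      obtain ⟨b, hb, h⟩ := A.exists_pt hgen y A.pos
      exact ⟨⟨b, hb⟩, Subtype.ext h.symm⟩⟩

/-- the permutation representation -/
noncomputable def permRep (A : Act n k g e T pi pq) (hgen : closure {z | ∃ i < k, z = g i} = ⊤) :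
    G →* Equiv.Perm (Fin n) where
  toFun y := (ptsEquiv A hgen).symm.permCongr (MulAction.toPermHom G (MulAction.orbit G (e 0)) y)
  map_one' := by
    rw [map_one]
    ext a
    simp [Equiv.permCongr_apply]
  map_mul' y z := by
    rw [map_mul]
    ext a
    simp [Equiv.permCongr_apply]

theorem permRep_apply (A : Act n k g e T pi pq) (hgen : closure {z | ∃ i < k, z = g i} = ⊤) {v : List ℕ}
    (hv : ∀ l ∈ v, l < 2 * k) (a : Fin n) : (permRep A hgen (ev g v) a : ℕ) = pt T v a := by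
  have h1 : permRep A hgen (ev g v) a = ⟨pt T v a, A.pt_lt hv a.2⟩ := by
    show (ptsEquiv A hgen).symm _ = _
    rw [Equiv.symm_apply_eq]
    apply Subtype.ext
    exact A.smul_ev hv a.2
  rw [h1]

end

/-! ### colourings of vectors -/

/-- colourings of the column vectors -/
def ColR {G K : Type*} [Group G] [Field K] {N : ℕ} (_ρ : G →* Matrix (Fin N) (Fin N) K) := (Fin N → K) → ℕ

/-- the colouring as a point -/
def toCol {G K : Type*} [Group G] [Field K] {N : ℕ} (ρ : G →* Matrix (Fin N) (Fin N) K) (f : (Fin N → K) → ℕ) : ColR ρ := f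

/-- the colouring -/
def ofCol {G K : Type*} [Group G] [Field K] {N : ℕ} {ρ : G →* Matrix (Fin N) (Fin N) K} (f : ColR ρ) : (Fin N → K) → ℕ := f

instance {G K : Type*} [Group G] [Field K] {N : ℕ} (ρ : G →* Matrix (Fin N) (Fin N) K) : MulAction G (ColR ρ) where
  smul y f := toCol ρ fun v => ofCol f ((ρ y⁻¹).mulVec v)
  one_smul f := by
    funext v
    show ofCol f ((ρ 1⁻¹).mulVec v) = ofCol f v
    rw [inv_one, map_one, Matrix.one_mulVec]
  mul_smul y z f := by
    funext v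
    show ofCol f ((ρ (y * z)⁻¹).mulVec v) = ofCol f ((ρ z⁻¹).mulVec ((ρ y⁻¹).mulVec v))
    rw [mul_inv_rev, map_mul, Matrix.mulVec_mulVec]

theorem col_smul {G K : Type*} [Group G] [Field K] {N : ℕ} (ρ : G →* Matrix (Fin N) (Fin N) K) (y : G)
    (f f' : (Fin N → K) → ℕ) (h : ∀ v, f v = f' ((ρ y).mulVec v)) : y • toCol ρ f = toCol ρ f' := by
  funext v
  show f ((ρ y⁻¹).mulVec v) = f' v
  rw [h, Matrix.mulVec_mulVec, ← map_mul, mul_inv_cancel, map_one, Matrix.one_mulVec]

/-- checks: `V` vectors are decoded by `dv`; `GV i x` image of the vector `x`; `CT a` colours -/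
def fwdCol (n k q : ℕ) (T GV : ℕ → ℕ → ℕ) (CT : ℕ → ℕ) (wc mc : ℕ) : Bool :=
  alln (fun i => alln (fun a => frc (CT a) fun f => frc (CT (T (Nat.mul 2 i) a)) fun f' =>
    alln (fun x => Nat.beq (gt f wc mc x) (gt f' wc mc (GV i x))) q) n) k

theorem fwdCol_spec {n k q : ℕ} {T GV : ℕ → ℕ → ℕ} {CT : ℕ → ℕ} {wc mc : ℕ} (h : fwdCol n k q T GV CT wc mc = true) :
    ∀ i < k, ∀ a < n, ∀ x < q, gt (CT a) wc mc x = gt (CT (T (2 * i) a)) wc mc (GV i x) := by
  intro i hi a ha x hx
  have h1 := alln_iff.1 (alln_iff.1 h i hi) a ha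
  rw [frc_eq, frc_eq] at h1
  exact Sol.beq_iff.1 (alln_iff.1 h1 x hx)

end Cfsg.Agent.Lib.Cov
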