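import Mathlib
import Cfsg.Agent.Lib.CovI67

/-!
(helper67) Isometries of six-dimensional alternating spaces in characteristic three.
-/

set_option autoImplicit false
set_option linter.unusedSectionVars false

namespace Cfsg.Agent.Lib.CovH67

open Polynomial Module Cfsg.Agent.Lib.Cov67

universe u v w

section ring
variable {R : Type*} [Ring R]

theorem three_comm (h3 : (3 : R) = 0) {D G : R} (h : D * G = G * D + G) : D ^ 3 * G = G * D ^ 3 + G := by
  have h' : ∀ x, D * (G * x) = G * (D * x) + G * x := fun x => by rw [← mul_assoc, h, add_mul, mul_assoc]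
  have e : D ^ 3 * G = G * D ^ 3 + G + 3 * (G * (D * D) + G * D) := by
    have e1 : D ^ 3 * G = D * (D * (D * G)) := by noncomm_ring
    have e2 : D ^ 3 = D * (D * D) := by noncomm_ring
    rw [e1, e2, h]
    simp only [mul_add, h', h]
    noncomm_ring
  rw [e, h3, zero_mul, add_zero]

theorem jacobson (h3 : (3 : R) = 0) {D y y' : R} (h1 : D * y = y * D + y') (h2 : D * y' = y' * D + y) (h4 : y' * y = y * y') :
    (D + y) ^ 3 = D ^ 3 + y ^ 3 + y := by
  have h1' : ∀ x, D * (y * x) = y * (D * x) + y' * x := fun x => by rw [← mul_assoc, h1, add_mul, mul_assoc]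
  have h2' : ∀ x, D * (y' * x) = y' * (D * x) + y * x := fun x => by rw [← mul_assoc, h2, add_mul, mul_assoc]
  have h4' : ∀ x, y' * (y * x) = y * (y' * x) := fun x => by rw [← mul_assoc, h4, mul_assoc]
  have e : (D + y) ^ 3 = D ^ 3 + y ^ 3 + y + 3 * (y * (D * D) + y' * D + y * (y * D) + y * y') := by
    have e1 : (D + y) ^ 3 = (D + y) * ((D + y) * (D + y)) := by noncomm_ring
    have e2 : D ^ 3 = D * (D * D) := by noncomm_ring
    have e3 : y ^ 3 = y * (y * y) := by noncomm_ring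
    rw [e1, e2, e3]
    simp only [mul_add, add_mul, h1, h2, h4, h1', h2', h4']
    noncomm_ring
  rw [e, h3, zero_mul, add_zero]

end ring

section three
variable {F : Type u} [Field F] [Finite F] {V : Type v} [AddCommGroup V] [Module F V] [FiniteDimensional F V] {B : V →ₗ[F] V →ₗ[F] F}

theorem two_ne (h3 : (3 : F) = 0) : (2 : F) ≠ 0 := by
  intro h
  apply (one_ne_zero : (1 : F) ≠ 0)
  linear_combination h3 - h

theorem charP3 (h3 : (3 : F) = 0) : CharP F 3 := by
  obtain ⟨p, hp⟩ := CharP.exists F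
  have h1 : p ∣ 3 := (CharP.cast_eq_zero_iff F p 3).1 (by exact_mod_cast h3)
  rcases (Nat.dvd_prime Nat.prime_three).1 h1 with rfl | rfl
  · exact absurd rfl (CharP.char_ne_one F 1)
  · exact hp

/-- nilpotent self-adjoint operators of a six-dimensional space have cube zero -/
theorem cube_zero (h2 : (2 : F) ≠ 0) (hB : ∀ v, B v v = 0) (hnd : ∀ v, (∀ w, B v w = 0) → v = 0) (hV : finrank F V = 6)
    {N : Module.End F V} (hN : SA B N) (hnil : IsNilpotent N) : N ^ 3 = 0 := by
  apply LinearMap.ext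
  intro x
  let φ : F[X] →ₗ[F] V := (LinearMap.applyₗ x) ∘ₗ (Polynomial.aeval N : F[X] →ₐ[F] Module.End F V).toLinearMap
  have hφ : ∀ p, φ p = Polynomial.aeval N p x := fun p => rfl
  have h1 := ti_dim hB hnd (W := LinearMap.range φ) (by
    rintro _ ⟨p, rfl⟩ _ ⟨q, rfl⟩
    exact hN.cyc h2 hB x p q)
  let ψ : (Fin 4 → F) →ₗ[F] LinearMap.range φ :=
    (φ.rangeRestrict) ∘ₗ (degreeLT F 4).subtype ∘ₗ (degreeLTEquiv F 4).symm.toLinearMap
  have h4 : LinearMap.ker ψ ≠ ⊥ := LinearMap.ker_ne_bot_of_finrank_lt (by simp; omega)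
  obtain ⟨z, hz, hz0⟩ := (Submodule.ne_bot_iff _).1 h4
  set p : F[X] := ((degreeLTEquiv F 4).symm z : F[X]) with hp
  have hp0 : p ≠ 0 := by
    intro h
    apply hz0
    have h5 : (degreeLTEquiv F 4).symm z = 0 := Subtype.ext h
    simpa using h5
  have hpd : p.degree < 4 := mem_degreeLT.1 ((degreeLTEquiv F 4).symm z).2
  have hpx : Polynomial.aeval N p x = 0 := congrArg Subtype.val (LinearMap.mem_ker.1 hz)
  obtain ⟨q, hq, hq'⟩ := exists_eq_pow_rootMultiplicity_mul_and_not_dvd p hp0 0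
  rw [C_0, sub_zero] at hq hq'
  set k := rootMultiplicity 0 p with hk
  have hk3 : k ≤ 3 := by
    have h5 : natDegree p < 4 := (natDegree_lt_iff_degree_lt hp0).2 hpd
    have hq0 : q ≠ 0 := by
      rintro rfl
      rw [mul_zero] at hq
      exact hp0 hq
    rw [hq, natDegree_mul (pow_ne_zero _ X_ne_zero) hq0, natDegree_X_pow] at h5
    omega
  obtain ⟨m, hm⟩ := hnil
  have hcop : IsCoprime q ((X : F[X]) ^ m) := (IsCoprime.pow_right (((irreducible_X.coprime_iff_not_dvd).2 hq').symm))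
  obtain ⟨a, b, hab⟩ := hcop
  have h6 : Polynomial.aeval N q (Polynomial.aeval N (X ^ k : F[X]) x) = 0 := by
    rw [← Module.End.mul_apply, ← map_mul, mul_comm, ← hq, hpx]
  have h7 : (N ^ k) x = 0 := by
    have h8 := congrArg (fun r : F[X] => Polynomial.aeval N r (Polynomial.aeval N (X ^ k : F[X]) x)) hab
    simp only [map_add, map_mul, map_one, LinearMap.add_apply, Module.End.mul_apply, Module.End.one_apply] at h8
    rw [h6, map_zero, zero_add] at h8
    rw [map_pow, aeval_X, hm, LinearMap.zero_apply, map_zero] at h8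
    rw [map_pow, aeval_X] at h8
    exact h8.symm
  rw [← Nat.sub_add_cancel hk3, pow_add, Module.End.mul_apply, h7, map_zero]
  rfl

theorem pow_comm' {g : V ≃ₗ[F] V} {T : Module.End F V} (hc : ∀ v, T (g v) = g (T v)) (k : ℕ) : ∀ v, (T ^ k) (g v) = g ((T ^ k) v) := by
  induction k with
  | zero => intro v; rfl
  | succ k ih => intro v; rw [pow_succ', Module.End.mul_apply, ih, hc, Module.End.mul_apply]

theorem aeval_comm' {g : V ≃ₗ[F] V} {T : Module.End F V} (hc : ∀ v, T (g v) = g (T v)) (p : F[X]) :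
    ∀ v, Polynomial.aeval T p (g v) = g (Polynomial.aeval T p v) := by
  induction p using Polynomial.induction_on' with
  | add p q hp hq => intro v; rw [map_add, LinearMap.add_apply, LinearMap.add_apply, hp, hq, map_add]
  | monomial n a =>
    intro v
    rw [aeval_monomial, ← Algebra.smul_def, LinearMap.smul_apply, LinearMap.smul_apply, pow_comm' hc, map_smul]

theorem dich (h2 : (2 : F) ≠ 0) (hB : ∀ v, B v v = 0) (hnd : ∀ v, (∀ w, B v w = 0) → v = 0) (hV : finrank F V = 6)
    {h : F[X]} (hh : Irreducible h) (hd : h.natDegree = 3) {g : V ≃ₗ[F] V} (hbad : Bad B g)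
    {T : Module.End F V} (hT : SA B T) (hc : ∀ v, T (g v) = g (T v)) :
    (∃ a : F, IsNilpotent (T - algebraMap F _ a)) ∨
      ∃ S : Module.End F V, SA B S ∧ Polynomial.aeval S h = 0 ∧ ∀ v, S (g v) = g (S v) := by
  have hF := Fintype.ofFinite F
  obtain ⟨f, hf, hf6⟩ := primary hB hnd hbad hT hc (by omega)
  rw [hV] at hf6
  have hq : 6 ≤ Fintype.card F ^ 3 := by
    have h1 : 2 ≤ Fintype.card F := Fintype.one_lt_card
    have := Nat.pow_le_pow_left h1 3
    omega
  have hX' : Polynomial.aeval (T ^ (Fintype.card F ^ 3)) f = 0 := by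
    rw [frob_aeval, ← Nat.add_sub_cancel' hq, pow_add, hf6, zero_mul]
  obtain ⟨k, hk⟩ := sa_even h2 hB hnd hf hX' (hT.pow _)
  rw [hV] at hk
  have hk' : f.natDegree * k = 3 := by nlinarith
  rcases (Nat.dvd_prime Nat.prime_three).1 (Dvd.intro _ hk') with h1 | h1
  · left
    obtain ⟨a, b, hab⟩ := exists_eq_X_add_C_of_natDegree_le_one h1.le
    have ha : a ≠ 0 := by
      rintro rfl
      rw [hab] at h1
      simp at h1
    refine ⟨-b / a, 6, ?_⟩
    have h5 : T - algebraMap F _ (-b / a) = a⁻¹ • (Polynomial.aeval T f) := by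
      rw [hab]
      simp only [map_add, map_mul, aeval_C, aeval_X, smul_add]
      rw [← Algebra.smul_def, smul_smul, inv_mul_cancel₀ ha, one_smul, Algebra.algebraMap_eq_smul_one,
        Algebra.algebraMap_eq_smul_one, smul_smul, neg_div, neg_smul, sub_neg_eq_add, div_eq_inv_mul]
    rw [h5, _root_.smul_pow, hf6, smul_zero]
  · right
    obtain ⟨P, hP⟩ := exists_P hh hf (by rw [hd, h1])
    refine ⟨Polynomial.aeval (T ^ (Fintype.card F ^ 3)) P, (hT.pow _).aeval P, ?_, ?_⟩
    · obtain ⟨r, hr⟩ := hP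
      rw [← aeval_comp, hr, map_mul, hX', zero_mul]
    · exact aeval_comm' (pow_comm' hc _) P

theorem main6 (h3 : (3 : F) = 0) (hB : ∀ v, B v v = 0) (hnd : ∀ v, (∀ w, B v w = 0) → v = 0) (hV : finrank F V = 6)
    {c : F} (hh : Irreducible (X ^ 3 - X - C c : F[X])) {g : V ≃ₗ[F] V} (hg : Isl B g) (hbad : Bad B g) :
    ∃ T : Module.End F V, SA B T ∧ T ^ 3 - T = algebraMap F _ c ∧ ∃ k : F, ∀ v, T (g v) = g (T v) + k • g v := by
  have h2 := two_ne h3
  have hd : (X ^ 3 - X - C c : F[X]).natDegree = 3 := by compute_degree!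
  by_cases hex : ∃ S : Module.End F V, SA B S ∧ Polynomial.aeval S (X ^ 3 - X - C c : F[X]) = 0 ∧ ∀ v, S (g v) = g (S v)
  · obtain ⟨S, hS1, hS2, hS3⟩ := hex
    refine ⟨S, hS1, ?_, 0, fun v => by rw [hS3, zero_smul, add_zero]⟩
    simp only [map_sub, map_pow, aeval_X, aeval_C] at hS2
    exact sub_eq_zero.1 hS2
  have hD : ∀ T : Module.End F V, SA B T → (∀ v, T (g v) = g (T v)) → ∃ a : F, IsNilpotent (T - algebraMap F _ a) := by
    intro T hT hc
    exact (dich h2 hB hnd hV hh hd hbad hT hc).resolve_right hex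
  have hnt : Nontrivial V := Module.nontrivial_of_finrank_pos (R := F) (by omega)
  have h3R : (3 : Module.End F V) = 0 := by
    have : (3 : Module.End F V) = algebraMap F _ 3 := (map_ofNat (algebraMap F (Module.End F V)) 3).symm
    rw [this, h3, map_zero]
  have hchar := charP3 h3
  have hcharR : CharP (Module.End F V) 3 := charP_of_injective_algebraMap (algebraMap F (Module.End F V)).injective 3
  set G : Module.End F V := (g : V →ₗ[F] V) with hG
  set Gi : Module.End F V := ((g⁻¹ : V ≃ₗ[F] V) : V →ₗ[F] V) with hGi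
  have hGv : ∀ v, G v = g v := fun v => rfl
  have hgi : ∀ v, g (g⁻¹ v) = v := fun v => g.apply_symm_apply v
  have hgi' : ∀ v, g⁻¹ (g v) = v := fun v => g.symm_apply_apply v
  have hGG : G * Gi = 1 := LinearMap.ext fun v => hgi v
  have hGG' : Gi * G = 1 := LinearMap.ext fun v => hgi' v
  have hBi : ∀ u v, B (G u) v = B u (Gi v) := fun u v => by
    have h4 := hg u (g⁻¹ v)
    rw [hgi] at h4
    exact h4
  have hBi' : ∀ u v, B (Gi u) v = B u (G v) := fun u v => by
    have h4 := hg (g⁻¹ u) v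
    rw [hgi] at h4
    exact h4.symm
  have tocomm : ∀ T : Module.End F V, T * G = G * T → ∀ v, T (g v) = g (T v) := fun T hT v => LinearMap.congr_fun hT v
  -- centralizing operators have trace zero
  have htr : ∀ x : Module.End F V, x * G = G * x → LinearMap.trace F V x = 0 := by
    intro x hx
    obtain ⟨y, hy, hyt⟩ := exists_adj hnd x
    have hxi : x * Gi = Gi * x := by
      calc x * Gi = Gi * (G * x) * Gi := by rw [← mul_assoc, hGG', one_mul]
        _ = Gi * x := by rw [← hx, mul_assoc, mul_assoc, hGG, mul_one]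
    have hyG : y * G = G * y := by
      apply LinearMap.ext
      intro u
      rw [← sub_eq_zero]
      apply hnd
      intro w
      rw [map_sub, LinearMap.sub_apply, Module.End.mul_apply, Module.End.mul_apply, hy, hBi, hBi, hy, sub_eq_zero]
      have := LinearMap.congr_fun hxi w
      rw [Module.End.mul_apply, Module.End.mul_apply] at this
      rw [this]
    have hSA : SA B (x + y) := by
      intro u w
      rw [LinearMap.add_apply, LinearMap.add_apply, map_add, map_add, LinearMap.add_apply, hy, skew hB (x u) w, ← hy, skew hB (y w) u,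
        neg_neg, add_comm]
    obtain ⟨a, ha⟩ := hD (x + y) hSA (tocomm _ (by rw [add_mul, mul_add, hx, hyG]))
    have h5 := (LinearMap.isNilpotent_trace_of_isNilpotent ha).eq_zero
    rw [map_sub, map_add, hyt, Algebra.algebraMap_eq_smul_one, map_smul, LinearMap.trace_one, hV] at h5
    have h6 : (2 : F) * LinearMap.trace F V x = 0 := by
      simp only [smul_eq_mul] at h5
      push_cast at h5
      linear_combination h5 + 2 * a * h3
    exact (mul_eq_zero.1 h6).resolve_left h2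
  obtain ⟨δ, hδ⟩ := exists_comm_eq G G (fun x hx => htr _ (by rw [mul_assoc, hx]))
  have hδi : Gi * δ - δ * Gi = Gi := by
    calc Gi * δ - δ * Gi = Gi * (δ * G - G * δ) * Gi := by
          rw [mul_sub, sub_mul, ← mul_assoc Gi G δ, hGG', one_mul, mul_assoc Gi (δ * G) Gi, mul_assoc δ G Gi, hGG, mul_one]
      _ = Gi := by rw [hδ, hGG', one_mul]
  obtain ⟨ε, hε, -⟩ := exists_adj hnd δ
  have hεG : ε * G - G * ε = G := by
    apply LinearMap.ext
    intro u
    rw [← sub_eq_zero]
    apply hnd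
    intro w
    have h5 := LinearMap.congr_fun hδi w
    rw [LinearMap.sub_apply, Module.End.mul_apply, Module.End.mul_apply] at h5
    rw [LinearMap.sub_apply, Module.End.mul_apply, Module.End.mul_apply, map_sub, map_sub, LinearMap.sub_apply, LinearMap.sub_apply, hε,
      hBi, hBi, hε, hBi, ← map_sub, ← map_sub, h5, sub_self, map_zero]
  set D0 : Module.End F V := -(δ + ε) with hD0
  have hD0G : D0 * G = G * D0 + G := by
    have h5 : D0 * G = G * D0 - (δ * G - G * δ) - (ε * G - G * ε) := by rw [hD0]; noncomm_ring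
    rw [h5, hδ, hεG]
    have h6 : G * D0 - G - G = G * D0 + G - 3 * G := by noncomm_ring
    rw [h6, h3R, zero_mul, sub_zero]
  have hD0SA : SA B D0 := by
    have h5 : SA B (δ + ε) := by
      intro u w
      rw [LinearMap.add_apply, LinearMap.add_apply, map_add, map_add, LinearMap.add_apply, hε, skew hB (δ u) w, ← hε, skew hB (ε w) u,
        neg_neg, add_comm]
    have h6 : D0 = (-1 : F) • (δ + ε) := by rw [hD0, neg_one_smul]
    rw [h6]
    exact h5.smul _
  have hA := three_comm h3R hD0G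
  obtain ⟨a, ha⟩ := hD (D0 ^ 3 - D0) ((hD0SA.pow 3).sub hD0SA) (tocomm _ (by rw [sub_mul, mul_sub, hA, hD0G]; abel))
  have ha9 := nil_pow ha (m := 9) (by omega)
  set D1 : Module.End F V := D0 ^ 9 with hD1
  have hD1e : D1 = (D0 ^ 3) ^ 3 := by rw [hD1, ← pow_mul]
  have hD1G : D1 * G = G * D1 + G := by rw [hD1e]; exact three_comm h3R hA
  have hD1SA : SA B D1 := hD0SA.pow 9
  have hD1c : D1 ^ 3 - D1 = algebraMap F _ (a ^ 9) := by
    have h5 : (D0 ^ 3 - D0) ^ 9 = D1 ^ 3 - D1 := by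
      have h6 : ((X ^ 3 - X : F[X])) ^ (3 ^ 2) = (X ^ 3) ^ (3 ^ 2) - X ^ (3 ^ 2) := sub_pow_char_pow _ _ 2 (p := 3)
      have h7 := congrArg (Polynomial.aeval D0) h6
      simp only [map_pow, map_sub, aeval_X] at h7
      norm_num at h7
      rw [h7, hD1, ← pow_mul, ← pow_mul]
    have h8 : (D0 ^ 3 - D0 - algebraMap F _ a) ^ 9 = (D0 ^ 3 - D0) ^ 9 - algebraMap F _ (a ^ 9) := by
      have h6 : ((X - C a : F[X])) ^ (3 ^ 2) = X ^ (3 ^ 2) - (C a) ^ (3 ^ 2) := sub_pow_char_pow _ _ 2 (p := 3)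
      have h7 := congrArg (Polynomial.aeval (D0 ^ 3 - D0)) h6
      simp only [map_pow, map_sub, aeval_X, aeval_C] at h7
      norm_num at h7
      rw [h7, map_pow]
    rw [ha9, h5] at h8
    exact (sub_eq_zero.1 h8.symm)
  have hGc : G * Gi = Gi * G := by rw [hGG, hGG']
  have hD1Gi : D1 * Gi = Gi * D1 - Gi := by
    have h5 : Gi * (D1 * G) * Gi = Gi * (G * D1 + G) * Gi := by rw [hD1G]
    have h6 : Gi * (D1 * G) * Gi = Gi * D1 := by rw [mul_assoc, mul_assoc, hGG, mul_one]
    have h7 : Gi * (G * D1 + G) * Gi = D1 * Gi + Gi := by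
      rw [mul_add, add_mul, ← mul_assoc, hGG', one_mul, one_mul]
    rw [h6, h7] at h5
    rw [h5]; abel
  -- the final correction
  have hfin : ∀ (y y' : Module.End F V) (s : F), s ≠ 0 → SA B y → y * G = G * y → D1 * y = y * D1 + y' → D1 * y' = y' * D1 + y →
      y' * y = y * y' → y ^ 3 = algebraMap F _ s →
      ∃ T : Module.End F V, SA B T ∧ T ^ 3 - T = algebraMap F _ c ∧ ∃ k : F, ∀ v, T (g v) = g (T v) + k • g v := by
    intro y y' s hs0 hySA hyG h5 h6 h7 hy3
    obtain ⟨e, he⟩ : ∃ e : F, e ^ 3 = (c - a ^ 9) / s := by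
      have hinj : Function.Injective (frobenius F 3) := (frobenius F 3).injective
      obtain ⟨e, he⟩ := (Finite.injective_iff_surjective.1 hinj) ((c - a ^ 9) / s)
      exact ⟨e, he⟩
    refine ⟨D1 + e • y, hD1SA.add (hySA.smul e), ?_, 1, ?_⟩
    · have h8 := jacobson h3R (D := D1) (y := e • y) (y' := e • y') (by rw [mul_smul_comm, h5, smul_add, smul_mul_assoc])
        (by rw [mul_smul_comm, h6, smul_add, smul_mul_assoc]) (by rw [smul_mul_smul_comm, smul_mul_smul_comm, h7])
      have h9 : (e • y) ^ 3 = algebraMap F _ (c - a ^ 9) := by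
        rw [_root_.smul_pow, hy3, he, Algebra.smul_def, ← map_mul, div_mul_cancel₀ _ hs0]
      rw [h8, h9]
      have h10 : D1 ^ 3 + algebraMap F (Module.End F V) (c - a ^ 9) + e • y - (D1 + e • y) = (D1 ^ 3 - D1) + algebraMap F _ (c - a ^ 9) := by abel
      rw [h10, hD1c, ← map_add]
      congr 1
      ring
    · intro v
      have h8 : (D1 + e • y) * G = G * (D1 + e • y) + G := by
        rw [add_mul, mul_add, hD1G, smul_mul_assoc, hyG, mul_smul_comm]; abel
      have h9 := LinearMap.congr_fun h8 v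
      rw [one_smul]
      exact h9
  have hXSA : SA B (G + Gi) := by
    intro u w
    rw [LinearMap.add_apply, LinearMap.add_apply, map_add, map_add, LinearMap.add_apply, hBi, hBi', add_comm]
  obtain ⟨t, ht⟩ := hD (G + Gi) hXSA (tocomm _ (by rw [add_mul, mul_add, hGc]))
  have hNSA : SA B (G + Gi - algebraMap F _ t) := by
    rw [Algebra.algebraMap_eq_smul_one]
    exact hXSA.sub (SA.one.smul t)
  have hN3 := cube_zero h2 hB hnd hV hNSA ht
  have hX3 : (G + Gi) ^ 3 = algebraMap F _ (t ^ 3) := by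
    have h6 : ((X - C t : F[X])) ^ (3 ^ 1) = X ^ (3 ^ 1) - (C t) ^ (3 ^ 1) := sub_pow_char_pow _ _ 1 (p := 3)
    have h7 := congrArg (Polynomial.aeval (G + Gi)) h6
    simp only [map_pow, map_sub, aeval_X, aeval_C, pow_one] at h7
    rw [hN3] at h7
    rw [map_pow]
    exact (sub_eq_zero.1 h7.symm)
  by_cases ht0 : t = 0
  · have hGG2 : D1 * G ^ 2 = G ^ 2 * D1 - G ^ 2 := by
      have h5 : D1 * G ^ 2 = (D1 * G) * G := by rw [pow_two, mul_assoc]
      rw [h5, hD1G, add_mul, mul_assoc, hD1G]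
      have h6 : G * (G * D1 + G) + G * G = G ^ 2 * D1 - G ^ 2 + 3 * G ^ 2 := by noncomm_ring
      rw [h6, h3R, zero_mul, add_zero]
    have hGi2 : D1 * Gi ^ 2 = Gi ^ 2 * D1 + Gi ^ 2 := by
      have h5 : D1 * Gi ^ 2 = (D1 * Gi) * Gi := by rw [pow_two, mul_assoc]
      rw [h5, hD1Gi, sub_mul, mul_assoc, hD1Gi]
      have h6 : Gi * (Gi * D1 - Gi) - Gi * Gi = Gi ^ 2 * D1 + Gi ^ 2 - 3 * Gi ^ 2 := by noncomm_ring
      rw [h6, h3R, zero_mul, sub_zero]
    have hcm : Commute G Gi := hGc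
    have hG2 : G ^ 2 * Gi ^ 2 = Gi ^ 2 * G ^ 2 := (hcm.pow_pow 2 2).eq
    refine hfin (G ^ 2 + Gi ^ 2) (Gi ^ 2 - G ^ 2) 1 one_ne_zero ?_ ?_ ?_ ?_ ?_ ?_
    · intro u w
      have e1 : ∀ u w, B ((G ^ 2) u) w = B u ((Gi ^ 2) w) := fun u w => by
        rw [pow_two, pow_two, Module.End.mul_apply, Module.End.mul_apply, hBi, hBi]
      have e2 : ∀ u w, B ((Gi ^ 2) u) w = B u ((G ^ 2) w) := fun u w => by
        rw [pow_two, pow_two, Module.End.mul_apply, Module.End.mul_apply, hBi', hBi']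
      rw [LinearMap.add_apply, LinearMap.add_apply, map_add, map_add, LinearMap.add_apply, e1, e2, add_comm]
    · rw [add_mul, mul_add, ← pow_succ, ← pow_succ', (hcm.symm.pow_left 2).eq]
    · rw [mul_add, hGG2, hGi2, add_mul]; abel
    · rw [mul_sub, hGG2, hGi2, sub_mul]; abel
    · rw [mul_add, sub_mul, sub_mul, add_mul, mul_sub, mul_sub, hG2]
    · have h5 : (G ^ 2 + Gi ^ 2) ^ 3 = (G ^ 2) ^ 3 + (Gi ^ 2) ^ 3 := add_pow_char_of_commute (hcm.pow_pow 2 2) (p := 3)
      have h6 : (G + Gi) ^ 3 = G ^ 3 + Gi ^ 3 := add_pow_char_of_commute hcm (p := 3)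
      rw [hX3, ht0, zero_pow (by norm_num), map_zero] at h6
      have h7 : G ^ 3 * Gi ^ 3 = 1 := by rw [← hcm.mul_pow, hGG, one_pow]
      have h8 : Gi ^ 3 * G ^ 3 = 1 := by rw [← hcm.symm.mul_pow, hGG', one_pow]
      have h9 : (G ^ 3 + Gi ^ 3) * (G ^ 3 + Gi ^ 3) = (G ^ 2) ^ 3 + (Gi ^ 2) ^ 3 + G ^ 3 * Gi ^ 3 + Gi ^ 3 * G ^ 3 := by noncomm_ring
      rw [← h6, h7, h8, zero_mul] at h9
      rw [h5, map_one]
      have key : ∀ z : Module.End F V, 0 = z + 1 + 1 → z = 1 := by
        intro z hz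
        have e : (3 : Module.End F V) = 1 + 1 + 1 := by norm_num
        calc z = (z + 1 + 1) + 1 - (1 + 1 + 1) := by abel
          _ = 1 := by rw [← hz, ← e, h3R]; abel
      exact key _ h9
  · refine hfin (G + Gi) (G - Gi) (t ^ 3) (pow_ne_zero _ ht0) hXSA (by rw [add_mul, mul_add, hGc]) ?_ ?_ ?_ hX3
    · rw [mul_add, hD1G, hD1Gi, add_mul]; abel
    · rw [mul_sub, hD1G, hD1Gi, sub_mul]; abel
    · rw [mul_add, sub_mul, sub_mul, add_mul, mul_sub, mul_sub, hGc]

end three

end Cfsg.Agent.Lib.CovH67
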