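import Mathlib
import Cfsg.Agent.Lib.CovJ67

/-!
(helper67) `PSp₆(3^a)` is covered by the conjugates of two proper subgroups.
-/

set_option autoImplicit false
set_option linter.unusedSectionVars false

namespace Cfsg.Agent.Lib.CovH67

open Polynomial Module Cfsg.Agent.Lib.Cov67 Cfsg.Agent.Lib.SpTrans

universe u v w

section stab
variable {F : Type u} [Field F] {V : Type v} [AddCommGroup V] [Module F V]

/-- stabilizer of a subspace -/
def stabW (W : Submodule F V) : Subgroup (V ≃ₗ[F] V) where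
  carrier := {x | ∀ v, x v ∈ W ↔ v ∈ W}
  mul_mem' {x y} hx hy v := by rw [LinearEquiv.mul_apply, hx, hy]
  one_mem' v := Iff.rfl
  inv_mem' {x} hx v := by
    have h1 : x (x⁻¹ v) = v := x.apply_symm_apply v
    rw [← hx, h1]

theorem mem_stabW {W : Submodule F V} {x : V ≃ₗ[F] V} : x ∈ stabW W ↔ ∀ v, x v ∈ W ↔ v ∈ W := Iff.rfl

theorem mem_stabW_of [FiniteDimensional F V] {W : Submodule F V} {x : V ≃ₗ[F] V} (h : ∀ v ∈ W, x v ∈ W) : x ∈ stabW W := by
  intro v
  refine ⟨fun hv => ?_, h v⟩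
  have h1 : W.map (x : V →ₗ[F] V) = W := by
    apply Submodule.eq_of_le_of_finrank_eq
    · rintro _ ⟨w, hw, rfl⟩
      exact h w hw
    · exact LinearEquiv.finrank_map_eq x W
  rw [← h1] at hv
  obtain ⟨w, hw, hwv⟩ := hv
  rw [← x.injective hwv]
  exact hw

/-- normalizer of an operator up to translations -/
def normT (T : Module.End F V) : Subgroup (V ≃ₗ[F] V) where
  carrier := {x | ∃ k : F, ∀ v, T (x v) = x (T v) + k • x v}
  mul_mem' := by
    rintro x y ⟨k, hk⟩ ⟨l, hl⟩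
    refine ⟨k + l, fun v => ?_⟩
    rw [LinearEquiv.mul_apply, LinearEquiv.mul_apply, hk, hl, map_add, map_smul, add_smul]
    abel
  one_mem' := ⟨0, fun v => by rw [zero_smul, add_zero]; rfl⟩
  inv_mem' := by
    rintro x ⟨k, hk⟩
    refine ⟨-k, fun v => ?_⟩
    have h1 : ∀ v, x (x⁻¹ v) = v := fun v => x.apply_symm_apply v
    apply x.injective
    rw [map_add, map_smul, h1, h1]
    have h2 := hk (x⁻¹ v)
    rw [h1] at h2
    rw [h2, neg_smul]
    abel

end stab

section six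
variable {F : Type u} [Field F] [Finite F] {V : Type v} [AddCommGroup V] [Module F V] [FiniteDimensional F V] {B : V →ₗ[F] V →ₗ[F] F}

theorem exists_c (h3 : (3 : F) = 0) : ∃ c : F, Irreducible (X ^ 3 - X - C c : F[X]) := by
  have h1 : ¬ Function.Injective (fun t : F => t ^ 3 - t) := by
    intro h
    have h2 : (0 : F) = 1 := h (by ring)
    exact zero_ne_one h2
  have h2 : ¬ Function.Surjective (fun t : F => t ^ 3 - t) := fun h => h1 (Finite.injective_iff_surjective.2 h)
  rw [Function.Surjective] at h2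
  push Not at h2
  obtain ⟨c, hc⟩ := h2
  refine ⟨c, irreducible_of_degree_le_three_of_not_isRoot ?_ fun x hx => ?_⟩
  · have hd : (X ^ 3 - X - C c : F[X]).natDegree = 3 := by compute_degree!
    rw [hd]; decide
  · apply hc x
    have h4 : eval x (X ^ 3 - X - C c : F[X]) = 0 := hx
    simp only [eval_sub, eval_pow, eval_X, eval_C] at h4
    linear_combination h4

theorem exists_plane (hB : ∀ v, B v v = 0) (hnd : ∀ v, (∀ w, B v w = 0) → v = 0) (hV : finrank F V = 6) {g : V ≃ₗ[F] V}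
    (hg : Isl B g) (hbad : ¬ Bad B g) :
    ∃ e f : V, B e f = 1 ∧ ∀ v ∈ Submodule.span F {e, f}, g v ∈ Submodule.span F {e, f} := by
  have hN : Sesq.ND (σ := RingHom.id F) B ⊤ := fun w _ h => hnd w fun v => h v trivial
  have hr : Sesq.Refl (σ := RingHom.id F) B := fun u v h => by rw [skew hB, h, neg_zero]
  have hiso : Sesq.Iso (σ := RingHom.id F) B (g : V →ₗ[F] V) := fun u v => hg u v
  obtain ⟨W, hW2, hWi, hWn⟩ : ∃ W : Submodule F V, finrank F W = 2 ∧ (∀ w ∈ W, g w ∈ W) ∧ Sesq.ND (σ := RingHom.id F) B W := by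
    rw [Bad] at hbad
    push Not at hbad
    obtain ⟨W, hWi, hWn, hW0, hWt⟩ := hbad
    have hWn' : Sesq.ND (σ := RingHom.id F) B W := hWn
    have hev : Even (finrank F W) := by
      refine AltForm.even_finrank (B.domRestrict₁₂ W W) (fun v => hB v) (fun v hv => ?_)
      exact Subtype.ext (hWn v v.2 fun w' hw' => hv ⟨w', hw'⟩)
    have h1 : finrank F W ≠ 0 := fun h => hW0 (Submodule.finrank_eq_zero.1 h)
    have h2 : finrank F W < finrank F V := Submodule.finrank_lt hWt
    have h3 := Sesq.finrank_add_perp (σ := RingHom.id F) hN W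
    obtain ⟨k, hk⟩ := hev
    by_cases hk1 : k = 1
    · exact ⟨W, by omega, hWi, hWn'⟩
    · exact ⟨Sesq.perp (σ := RingHom.id F) B W, by omega, Sesq.Iso.inv_perp hN hiso hWi, Sesq.nd_perp hr hN hWn'⟩
  obtain ⟨e, he, he0⟩ := (Submodule.ne_bot_iff W).1 (by rintro rfl; simp at hW2)
  obtain ⟨f', hf', hf0⟩ : ∃ f ∈ W, B e f ≠ 0 := by
    by_contra hcon
    push Not at hcon
    exact he0 (hWn e he hcon)
  refine ⟨e, (B e f')⁻¹ • f', by rw [map_smul, smul_eq_mul, inv_mul_cancel₀ hf0], ?_⟩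
  have hspan : Submodule.span F {e, (B e f')⁻¹ • f'} = W := by
    apply Submodule.eq_of_le_of_finrank_eq
    · rw [Submodule.span_le]
      rintro x (rfl | rfl)
      · exact he
      · exact W.smul_mem _ hf'
    · rw [hW2]
      exact Sesq.finrank_pair (B := B) hB (by rw [map_smul, smul_eq_mul, inv_mul_cancel₀ hf0]; exact one_ne_zero)
  rw [hspan]
  exact hWi

/-- transitivity on hyperbolic pairs -/
theorem exists_pair_map (hB : ∀ v, B v v = 0) (hnd : ∀ v, (∀ w, B v w = 0) → v = 0) {e f e' f' : V} (h : B e f = 1) (h' : B e' f' = 1) :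
    ∃ x : V ≃ₗ[F] V, Isl B x ∧ x e = e' ∧ x f = f' := by
  have hN : NdOn B ⊤ := by
    intro x _ hx0
    by_contra hcon
    push Not at hcon
    exact hx0 (hnd x fun w => hcon w trivial)
  have he0 : e ≠ 0 := by rintro rfl; rw [map_zero, LinearMap.zero_apply] at h; exact zero_ne_one h
  have he0' : e' ≠ 0 := by rintro rfl; rw [map_zero, LinearMap.zero_apply] at h'; exact zero_ne_one h'
  obtain ⟨t, ht, hte⟩ := exists_move (hB := hB) hN (u := e) (v := e') trivial trivial he0 he0'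
  have hti : Isl B t := mem_isom.1 (tgrp_le_isom (hB := hB) ⊤ ht)
  obtain ⟨s, hs, hse, hsf⟩ := exists_move_pair (hB := hB) (W := ⊤) (u := e') (v := t f) (v' := f') trivial trivial trivial
    (by rw [← hte, hti, h]) h'
  have hsi : Isl B s := mem_isom.1 (tgrp_le_isom (hB := hB) ⊤ hs)
  exact ⟨s * t, hsi.mul hti, by rw [LinearEquiv.mul_apply, hte, hse], by rw [LinearEquiv.mul_apply, hsf]⟩

theorem stab_proper (hB : ∀ v, B v v = 0) (hnd : ∀ v, (∀ w, B v w = 0) → v = 0) (hV : finrank F V = 6) {e f : V} (hef : B e f = 1) :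
    ∃ x, Isl B x ∧ x ∉ stabW (Submodule.span F {e, f}) := by
  set W := Submodule.span F {e, f} with hW
  have hd : finrank F W = 2 := Sesq.finrank_pair (B := B) hB (by rw [hef]; exact one_ne_zero)
  obtain ⟨u, hu⟩ : ∃ u, u ∉ W := by
    by_contra hcon
    push Not at hcon
    have : W = ⊤ := by rw [eq_top_iff]; intro x _; exact hcon x
    rw [this, finrank_top] at hd
    omega
  have hu0 : u ≠ 0 := by rintro rfl; exact hu W.zero_mem
  obtain ⟨w, hw⟩ : ∃ w, B u w = 1 := by
    obtain ⟨w, hw⟩ : ∃ w, B u w ≠ 0 := by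
      by_contra hcon
      push Not at hcon
      exact hu0 (hnd u hcon)
    exact ⟨(B u w)⁻¹ • w, by rw [map_smul, smul_eq_mul, inv_mul_cancel₀ hw]⟩
  obtain ⟨x, hx, hxe, -⟩ := exists_pair_map hB hnd hef hw
  refine ⟨x, hx, fun h => hu ?_⟩
  rw [← hxe, h]
  exact Submodule.subset_span (by simp)

theorem norm_proper (h2 : (2 : F) ≠ 0) (hB : ∀ v, B v v = 0) (hnd : ∀ v, (∀ w, B v w = 0) → v = 0) (hV : finrank F V = 6)
    {c : F} (hh : Irreducible (X ^ 3 - X - C c : F[X])) {T : Module.End F V} (hT : SA B T) (hTc : T ^ 3 - T = algebraMap F _ c) :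
    ∃ x, Isl B x ∧ x ∉ normT T := by
  have hnt : Nontrivial V := Module.nontrivial_of_finrank_pos (R := F) (by omega)
  obtain ⟨w, hw⟩ := exists_ne (0 : V)
  refine ⟨SLMax.tr w (B w) (hB w), ?_, ?_⟩
  · intro a b
    rw [SLMax.tr_apply, SLMax.tr_apply]
    simp only [map_add, LinearMap.add_apply, map_smul, LinearMap.smul_apply, hB, skew hB a w, smul_eq_mul]
    ring
  · rintro ⟨k, hk⟩
    have h4 : B w (T w) = 0 := hT.alt h2 hB w
    have h5 := hk w
    rw [SLMax.tr_apply, SLMax.tr_apply, h4, hB, zero_smul, add_zero] at h5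
    have hk0 : k = 0 := by
      have h6 : k • w = 0 := by
        have : T w + k • w = T w + 0 := by
          rw [add_zero] at h5
          rw [← h5, add_zero]
        exact add_left_cancel this
      exact (smul_eq_zero.1 h6).resolve_right hw
    obtain ⟨v, hv⟩ : ∃ v, B w v ≠ 0 := by
      by_contra hcon
      push Not at hcon
      exact hw (hnd w hcon)
    have h6 := hk v
    rw [SLMax.tr_apply, SLMax.tr_apply, hk0, zero_smul, add_zero, map_add, map_smul] at h6
    have h7 : B w v • T w = B w (T v) • w := add_left_cancel h6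
    have h8 : T w = ((B w v)⁻¹ * B w (T v)) • w := by
      rw [mul_smul, ← h7, smul_smul, inv_mul_cancel₀ hv, one_smul]
    set l := (B w v)⁻¹ * B w (T v) with hl
    have h9 := LinearMap.congr_fun hTc w
    have h10 : (T ^ 3) w = (l ^ 3) • w := by
      have e1 : (T ^ 3) w = T (T (T w)) := by rw [pow_succ, pow_two]; rfl
      rw [e1, h8, map_smul, h8, map_smul, map_smul, h8, smul_smul, smul_smul]
      congr 1
      ring
    rw [LinearMap.sub_apply, h10, h8, Module.algebraMap_end_apply, ← sub_smul] at h9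
    have h11 : (l ^ 3 - l - c) • w = 0 := by rw [sub_smul, h9, sub_self]
    have h12 := (smul_eq_zero.1 h11).resolve_right hw
    have hroot : (X ^ 3 - X - C c : F[X]).IsRoot l := by
      show eval l _ = 0
      simpa using h12
    have h13 : (X ^ 3 - X - C c : F[X]).natDegree = 1 := natDegree_eq_of_degree_eq_some (degree_eq_one_of_irreducible_of_root hh hroot)
    have hd : (X ^ 3 - X - C c : F[X]).natDegree = 3 := by compute_degree!
    omega

theorem cov6 (h3 : (3 : F) = 0) : Cov (Cfsg.PSp 3 F) := by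
  obtain ⟨c, hc⟩ := exists_c h3
  have h2 := two_ne h3
  let B : (Fin 3 ⊕ Fin 3 → F) →ₗ[F] (Fin 3 ⊕ Fin 3 → F) →ₗ[F] F := SympMat.B 3 F
  have hB : ∀ v, B v v = 0 := fun v => SympMat.sympForm_self v
  have hnd : ∀ v, (∀ w, B v w = 0) → v = 0 := fun v hv => SympMat.eq_zero_of_sympForm hv
  have hV : finrank F (Fin 3 ⊕ Fin 3 → F) = 6 := by simp
  have hdeg : (X ^ 3 - X - C c : F[X]).natDegree = 3 := by compute_degree!
  have haev : ∀ T : Module.End F (Fin 3 ⊕ Fin 3 → F), T ^ 3 - T = algebraMap F _ c → aeval T (X ^ 3 - X - C c : F[X]) = 0 := by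
    intro T hT
    simp only [map_sub, map_pow, aeval_X, aeval_C]
    rw [hT, sub_self]
  obtain ⟨e0, he0⟩ : ∃ e : Fin 3 ⊕ Fin 3 → F, e ≠ 0 := exists_ne 0
  obtain ⟨f0, hf0⟩ : ∃ f, B e0 f = 1 := by
    obtain ⟨w, hw⟩ : ∃ w, B e0 w ≠ 0 := by
      by_contra hcon
      push Not at hcon
      exact he0 (hnd e0 hcon)
    exact ⟨(B e0 w)⁻¹ • w, by rw [map_smul, smul_eq_mul, inv_mul_cancel₀ hw]⟩
  have hscH : ∀ g : (Fin 3 ⊕ Fin 3 → F) ≃ₗ[F] (Fin 3 ⊕ Fin 3 → F), Isl B g → (∃ c : F, ∀ v, g v = c • v) →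
      g ∈ stabW (Submodule.span F {e0, f0}) := by
    rintro g - ⟨c, hc⟩
    exact mem_stabW_of fun v hv => by rw [hc]; exact Submodule.smul_mem _ _ hv
  have hHcase : ∀ g, Isl B g → ¬ Bad B g → ∃ x, Isl B x ∧ x * g * x⁻¹ ∈ stabW (Submodule.span F {e0, f0}) := by
    intro g hg hbad
    obtain ⟨e, f, hef, hst⟩ := exists_plane hB hnd hV hg hbad
    obtain ⟨x, hx, hxe, hxf⟩ := exists_pair_map hB hnd hef hf0
    have h1 : (Submodule.span F {e, f}).map (x : (Fin 3 ⊕ Fin 3 → F) →ₗ[F] (Fin 3 ⊕ Fin 3 → F)) = Submodule.span F {e0, f0} := by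
      rw [Submodule.map_span, Set.image_pair]
      show Submodule.span F {x e, x f} = _
      rw [hxe, hxf]
    refine ⟨x, hx, mem_stabW_of fun v hv => ?_⟩
    rw [← h1] at hv ⊢
    obtain ⟨w, hw, rfl⟩ := hv
    refine ⟨g w, hst w hw, ?_⟩
    show x (g w) = x (g (x⁻¹ (x w)))
    have : x⁻¹ (x w) = w := x.symm_apply_apply w
    rw [this]
  by_cases hex : ∃ T : Module.End F (Fin 3 ⊕ Fin 3 → F), SA B T ∧ T ^ 3 - T = algebraMap F _ c
  · obtain ⟨T0, hT0, hT0c⟩ := hex
    refine cov_psp B hB hnd 3 (by rw [hV]) (stabW (Submodule.span F {e0, f0})) (normT T0) hscH ?_ (stab_proper hB hnd hV hf0)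
      (norm_proper h2 hB hnd hV hc hT0 hT0c) ?_
    · rintro g - ⟨d, hd⟩
      exact ⟨0, fun v => by rw [hd, hd, map_smul, zero_smul, add_zero]⟩
    · intro g hg
      by_cases hbad : Bad B g
      · obtain ⟨T, hT, hTc, k, hk⟩ := main6 h3 hB hnd hV hc hg hbad
        obtain ⟨x, hx1, hx2⟩ := sa_isom h2 hB hnd hc (haev T hTc) hT hB hnd (haev T0 hT0c) hT0 rfl
        refine ⟨x, hx2, Or.inr ⟨k, fun v => ?_⟩⟩
        have h4 : ∀ v, x (x⁻¹ v) = v := fun v => x.apply_symm_apply v
        have h5 : ∀ v, x⁻¹ (T0 v) = T (x⁻¹ v) := fun v => by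
          apply x.injective
          rw [h4, hx1, h4]
        rw [LinearEquiv.mul_apply, LinearEquiv.mul_apply, ← hx1, hk, map_add, map_smul, LinearEquiv.mul_apply, LinearEquiv.mul_apply, h5]
      · obtain ⟨x, hx, hx'⟩ := hHcase g hg hbad
        exact ⟨x, hx, Or.inl hx'⟩
  · refine cov_psp B hB hnd 3 (by rw [hV]) (stabW (Submodule.span F {e0, f0})) (stabW (Submodule.span F {e0, f0})) hscH hscH
      (stab_proper hB hnd hV hf0) (stab_proper hB hnd hV hf0) ?_
    intro g hg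
    have hbad : ¬ Bad B g := by
      intro hbad
      obtain ⟨T, hT, hTc, -⟩ := main6 h3 hB hnd hV hc hg hbad
      exact hex ⟨T, hT, hTc⟩
    obtain ⟨x, hx, hx'⟩ := hHcase g hg hbad
    exact ⟨x, hx, Or.inl hx'⟩

end six

end Cfsg.Agent.Lib.CovH67
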