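import Cfsg.Agent.Lib.CovK
import Cfsg.Agent.Lib.CovE

/-!
Action on sets of points (lead)
-/

set_option autoImplicit false

namespace Cfsg.Agent.Lib.Cov.Gol

open Subgroup Cfsg Cfsg.Agent.Lib.H58SM Cfsg.Agent.Lib.Golay
open scoped Pointwise

/-- tables of an action on sets of points -/
def fwdSet (n k : ℕ) (T : ℕ → ℕ → ℕ) (gc XM : ℕ → ℕ) : Bool :=
  alln (fun i => alln (fun a => Nat.beq (imgM (gc i) (XM a)) (XM (T (Nat.mul 2 i) a))) n) k

def baseSet (n : ℕ) (XM : ℕ → ℕ) : Bool :=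
  alln (fun a => Nat.blt (XM a) 16777216 && cond (Nat.beq a 0) true (!(Nat.beq (XM a) (XM 0)))) n

theorem mset_inj {m m' : ℕ} (h : m < 2 ^ 24) (h' : m' < 2 ^ 24) (he : mset m = mset m') : m = m' := by
  apply Nat.eq_of_testBit_eq
  intro i
  by_cases hi : i < 24
  · have h1 : Golay.pt i ∈ mset m ↔ Golay.pt i ∈ mset m' := by rw [he]
    rw [mem_mset, mem_mset, ix_pt hi] at h1
    cases h2 : m.testBit i <;> cases h3 : m'.testBit i <;> simp_all
  · rw [Nat.testBit_lt_two_pow (lt_of_lt_of_le h (Nat.pow_le_pow_right (by norm_num) (not_lt.1 hi))),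
      Nat.testBit_lt_two_pow (lt_of_lt_of_le h' (Nat.pow_le_pow_right (by norm_num) (not_lt.1 hi)))]

theorem baseSet_spec {n : ℕ} {XM : ℕ → ℕ} (h : baseSet n XM = true) (hn : 0 < n) :
    ∀ a < n, mset (XM a) = mset (XM 0) → a = 0 := by
  intro a ha he
  have h1 := alln_iff.1 h a ha
  have h2 := alln_iff.1 h 0 hn
  rw [Bool.and_eq_true, Sol.blt_iff] at h1 h2
  have h3 := mset_inj h1.1 h2.1 he
  by_contra h0
  have h4 := h1.2
  have h5 : Nat.beq a 0 = false := by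
    cases h6 : Nat.beq a 0
    · rfl
    · exact absurd (Sol.beq_iff.1 h6) h0
  rw [h5, cond_false, h3, Nat.beq_refl] at h4
  exact absurd h4 (by decide)

/-- the action on the sets -/
theorem act_set {G : Subgroup (Equiv.Perm GolayPt)} {n k : ℕ} {T : ℕ → ℕ → ℕ} {pi pq : ℕ → ℕ} {g : ℕ → G} {gc XM : ℕ → ℕ}
    (hgc : ∀ i < k, valid (gc i) = true ∧ ((g i : G) : Equiv.Perm GolayPt) = toPerm (gc i))
    (hf : fwdSet n k T gc XM = true) (hb : baseSet n XM = true)
    (D : Dat) (hn : D.n = n) (hk : D.k = k) (hT : D.T = T) (hpi : D.pi = pi) (hpq : D.pq = pq) (hpos : 0 < D.n)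
    (h1 : D.tab1 = true) (h2 : D.tab2 = true) (h3 : D.tab3 = true) :
    Act n k g (fun a => mset (XM a)) T pi pq := by
  subst hn hk hT hpi hpq
  refine Dat.act_of hpos h1 h2 h3 ?_ (baseSet_spec hb hpos)
  intro i hi a ha
  obtain ⟨h4, h5⟩ := hgc i hi
  have h6 : ((g i : G) : Equiv.Perm GolayPt) • mset (XM a) = mset (XM (D.T (2 * i) a)) := by
    rw [h5, toPerm_smul_mset h4]
    exact congrArg mset (Sol.beq_iff.1 (alln_iff.1 (alln_iff.1 hf i hi) a ha))
  exact h6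

/-- permutations with a given code -/
theorem val_of_code {G : Subgroup (Equiv.Perm GolayPt)} {x : G} {c : ℕ} (hv : valid c = true)
    (h : ρ0 (x : Equiv.Perm GolayPt) = C24.dec c) : (x : Equiv.Perm GolayPt) = toPerm c :=
  ρ0_inj (by rw [h, ρ0_toPerm hv])

end Cfsg.Agent.Lib.Cov.Gol
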