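import Cfsg.Agent.Lib.H58SMe

/-!
M22: octads missing two points (lead)
-/

set_option autoImplicit false

namespace Cfsg.Agent.Lib.CovM22.P3

open Cfsg.Agent.Lib.H58SM

def XM_0 : ℕ := 0x4c5a04561230246158305aa068126204470e0ac2460b540c68401e08a7222d024c114e4429c8846043c458c5046564040f6840091856293e00055c820cc9123c4c08280cb20d80e201c4360ba2880995905720824a2a1213021e21e260007b42

def XM_1 : ℕ := 0x68692038223820742a1c436049068611c38212c6282a40e813506244d4180e21b0230ac200527c0ce02c00a4f81230ac52074244229c10f13043603809316831135003da1028d3084e44224157204d41883168124a51504c21462a129414e442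

def XM_2 : ℕ := 0x50622640659258338061230a1262d03870442d50300d241a1d0a9020ab90527c0046e300200f68404cac4f801403a1520237184470e0262d02401ed004b18a3380b0332448041572102e8a42528a1a610a5a04983021e2088e1c02e8a2504b18

def XM_3 : ℕ := 0x18a096540c162082ae108a72226a0c72211460b54024332408dc600e088e1b8c0230851a6226a006226a71804623870426043c15094a610a341219926a81822114e425019651a6100583387b420024c5a0205d144cac8005aa061007b470e088

def XM_4 : ℕ := 0x710d8064a0324332444b18a07898104615841b01c448343415848c55c8202b09186e30085d1440182d5060388648c2b0742a4070160c244866343490440ba20132b21572083506222146981440ba5901320686924866480851a62945420c44d4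

def XM_5 : ℕ := 0x3244863886c045102e046e300878984200f610a34c6011b85425286404ca15207421b01c0803da6920d01135066c07100527c05150941964a039108a258c50224332265640453910032c9411b8c04093165094a236038872082a50305a05d144

def XM_6 : ℕ := 0x2026562c62821856126a0c44008dc62371806282580265642c94062528a8111c385481d041a1a45391080305aa5102e81a1a487c00a4412c62011b8c0a903a1889a83490681ed0803e00520c16a82c19c0082ae410d80e40c16a4a032c18046e

def XM_7 : ℕ := 0x63141202c19c5aa0602b202601964a1c111c01ed081469844229c850196404cac81a483443c4c056404c2881740670160cb250132b2061584865928066489000f68407b4200710d867016041055c0a34c21412c6481d0a17451070447028258c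

def XM_8 : ℕ := 0x40e8542e8a200293e00742a4024c5a4c087800293e44866428a84a021e2622114e3a152027c00a0b067031412c6984281055c874510245425209631462d0240e85483718045c820a428d3032b2020d0d24160ce03008dc1c3822241a1a3da100

def XM_9 : ℕ := 0x469842094a2a19c0580ab90416a818223870043c4c498b404349062ae41040ba2806592832c9404890cc0149f059280c30ac24229c8841889a26a0c41294540160ce1992245848c2149f0049f0020f1302380b0660ce0234c214168126060b54

def XM_10 : ℕ := 0x2199220498b4470e0803886c42a40e0a4f80528a841e260420d0d264890c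

def XMS (c : ℕ) : ℕ := cond (Nat.blt c 5) (cond (Nat.blt c 2) (cond (Nat.blt c 1) (XM_0) (XM_1)) (cond (Nat.blt c 3) (XM_2) (cond (Nat.blt c 4) (XM_3) (XM_4)))) (cond (Nat.blt c 8) (cond (Nat.blt c 6) (XM_5) (cond (Nat.blt c 7) (XM_6) (XM_7))) (cond (Nat.blt c 9) (XM_8) (cond (Nat.blt c 10) (XM_9) (XM_10))))

def XM (a : ℕ) : ℕ := frc (Nat.shiftRight a 5) fun c => gt (XMS c) 24 16777215 (Nat.land a 31)

def ga : ℕ := 0xb8d1498a215b9257a9b521987b4a00
def gb : ℕ := 0xb96c7719f35a42315494945aa43200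
def gai : ℕ := 0xb8d1498a215b9257a9b521987b4a00
def gbi : ℕ := 0xbd54881cc18cca2791c3a4ac962da0
def wa : List ℕ := [0, 2, 2, 0, 2, 2, 0, 3, 3, 3, 0, 2, 0, 3, 3]
def wb : List ℕ := [0, 2, 2, 2, 0, 3, 3, 3, 3, 0, 3, 3]
def va : List ℕ := [3, 3, 3, 0, 2, 0, 2, 2, 0, 3, 0, 2, 2, 2, 0, 3, 3, 3, 3, 0, 2, 0]
def vb : List ℕ := [0, 2, 2, 2, 0, 3, 3, 3, 0, 2, 2, 2, 2, 2, 0, 2, 2, 0, 2, 2, 2]


end Cfsg.Agent.Lib.CovM22.P3
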