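import Cfsg.Agent.Lib.CovM
import Cfsg.Agent.Lib.CovD
import Cfsg.Agent.Lib.GolayM21
import Cfsg.Agent.Lib.H92MathieuAutB
import Cfsg.Agent.Lib.SMM22a
import Cfsg.Agent.Lib.SMM22b
import Cfsg.Agent.Lib.SMM22c
import Cfsg.Agent.Lib.SMM22d
import Cfsg.Agent.Lib.SMM22e
import Cfsg.Agent.Lib.SMM22f
import Cfsg.Agent.Lib.SMM22g
import Cfsg.Agent.Lib.SMM22h
import Cfsg.Agent.Lib.SMM22i

/-!
The Schur multiplier of M22 (lead)
-/

set_option autoImplicit false

namespace Cfsg.Agent.Lib.CovM22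

open Subgroup Cfsg Cfsg.Agent.Lib.H58SM Cfsg.Agent.Lib.Cov Cfsg.Agent.Lib.Golay Cfsg.Agent.Lib.Cov.Gol
  Cfsg.Agent.Lib.SchurSylow
open scoped Pointwise

/-- the group -/
abbrev G := ↥Spor.M22

def inS (c : ℕ) : Bool := inM c && (Nat.beq (img c 23) 23 && Nat.beq (img c 0) 0)

theorem inS_spec {c : ℕ} (h : inS c = true) : inM c = true ∧ img c 23 = 23 ∧ img c 0 = 0 := by
  unfold inS at h
  rw [Bool.and_eq_true, Bool.and_eq_true, Sol.beq_iff, Sol.beq_iff] at h
  exact h

theorem elt_mem {c : ℕ} (h : inS c = true) : toPerm c ∈ Spor.M22 := by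
  obtain ⟨h0, h1, h2⟩ := inS_spec h
  exact H92MathieuAut.mem_M22.2 ⟨toPerm_mem_M24 h0, toPerm_fix (valid_of_inM h0) (p := none) h1,
    toPerm_fix (valid_of_inM h0) (p := some 0) h2⟩

/-- elements by codes -/
noncomputable def elt (c : ℕ) (h : inS c = true) : G := ⟨toPerm c, elt_mem h⟩

/-- the representation -/
def ρ : G →* Function.End (Fin 24) := ρ0.comp Spor.M22.subtype

theorem ρ_inj : Function.Injective ρ := ρ0_inj.comp Subtype.val_injective

theorem ρ_elt {c : ℕ} (h : inS c = true) : ρ (elt c h) = C24.dec c := ρ0_toPerm (valid_of_inM (inS_spec h).1)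

theorem card_G : Nat.card G = 443520 := H92MathieuAut.card_M22

theorem simple_G : IsSimpleGroup G := by
  have h2 : (MulAction.stabilizer M24 (none : GolayPt) ⊓ MulAction.stabilizer M24 (some 0 : GolayPt)).map
      M24.subtype = Spor.M22 := by
    ext g
    rw [H92MathieuAut.mem_M22]
    constructor
    · rintro ⟨x, ⟨h1, h2⟩, rfl⟩
      exact ⟨x.2, h1, h2⟩
    · rintro ⟨h1, h2, h3⟩
      exact ⟨⟨g, h1⟩, ⟨h2, h3⟩, rfl⟩
  have h3 : IsSimpleGroup ↥(MulAction.stabilizer M24 (none : GolayPt) ⊓ MulAction.stabilizer M24 (some 0 : GolayPt)) :=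
    M22_simple (by decide)
  have e := ((MulAction.stabilizer M24 (none : GolayPt) ⊓ MulAction.stabilizer M24 (some 0 : GolayPt)).equivMapOfInjective
    M24.subtype Subtype.val_injective)
  rw [h2] at e
  exact e.symm.isSimpleGroup

/-! ### the prime 2 -/

namespace P2

theorem oka : inS ga = true := by decide +kernel
theorem okb : inS gb = true := by decide +kernel
theorem okai : inS gai = true := by decide +kernel
theorem okbi : inS gbi = true := by decide +kernel

/-- generators -/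
noncomputable def g (i : ℕ) : G := if i = 0 then elt ga oka else elt gb okb

def gc (i : ℕ) : ℕ := ([ga, gb] : List ℕ).getD i 0
def gi (i : ℕ) : ℕ := ([gai, gbi] : List ℕ).getD i 0

theorem hgc : ∀ i < 2, ρ (g i) = C24.dec (gc i) := by
  intro i hi
  interval_cases i
  · exact ρ_elt oka
  · exact ρ_elt okb

theorem hgv : ∀ i < 2, valid (gc i) = true ∧ ((g i : G) : Equiv.Perm GolayPt) = toPerm (gc i) := by
  intro i hi
  interval_cases i
  · exact ⟨valid_of_inM (inS_spec oka).1, rfl⟩
  · exact ⟨valid_of_inM (inS_spec okb).1, rfl⟩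

theorem inv_of {a b : ℕ} (h : C24.eqm a b one24 one24 = true) : C24.dec a * C24.dec b = 1 := by
  have := C24.eqm_spec (a := a) (b := b) (c := one24) (d := one24) h
  have h1 : C24.dec one24 = 1 := C24.dec_one
  rwa [h1, mul_one] at this

theorem hgi : ∀ i < 2, ρ (g i)⁻¹ = C24.dec (gi i) := by
  intro i hi
  interval_cases i
  · exact rho_inv ρ_inj (ρ_elt oka) (ρ_elt okai) (inv_of (by decide +kernel))
  · exact rho_inv ρ_inj (ρ_elt okb) (ρ_elt okbi) (inv_of (by decide +kernel))

/-- generators of the small subgroup -/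
noncomputable def h (i : ℕ) : G := if i = 0 then ev g wa else ev g wb

def hc (i : ℕ) : ℕ := ([ha, hb] : List ℕ).getD i 0
def hci (i : ℕ) : ℕ := ([hai, hbi] : List ℕ).getD i 0

theorem hhc : ∀ i < 2, ρ (h i) = C24.dec (hc i) := by
  intro i hi
  interval_cases i
  · exact word_spec (cm := pp 24 5 31) hcm24 hgc hgi C24.dec_one (v := wa) (by decide) (by decide +kernel)
  · exact word_spec (cm := pp 24 5 31) hcm24 hgc hgi C24.dec_one (v := wb) (by decide) (by decide +kernel)

theorem hsa : inS hai = true := by decide +kernel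
theorem hsb : inS hbi = true := by decide +kernel

theorem hhi : ∀ i < 2, ρ (h i)⁻¹ = C24.dec (hci i) := by
  intro i hi
  interval_cases i
  · exact rho_inv ρ_inj (hhc 0 (by norm_num)) (ρ_elt hsa) (inv_of (by decide +kernel))
  · exact rho_inv ρ_inj (hhc 1 (by norm_num)) (ρ_elt hsb) (inv_of (by decide +kernel))

theorem hva : valid ha = true := by decide +kernel
theorem hvb : valid hb = true := by decide +kernel

theorem hhv : ∀ i < 2, valid (hc i) = true ∧ ((h i : G) : Equiv.Perm GolayPt) = toPerm (hc i) := by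
  intro i hi
  have h1 := hhc i hi
  have h2 : valid (hc i) = true := by
    interval_cases i
    · exact hva
    · exact hvb
  exact ⟨h2, val_of_code h2 h1⟩

/-- the small subgroup -/
noncomputable def H : Subgroup G := closure {z | ∃ i < 2, z = h i}

theorem H_le : H ≤ closure {z | ∃ i < 2, z = g i} := by
  refine closure_le_of ?_
  intro i hi
  interval_cases i
  · exact word_mem (v := wa) (by decide)
  · exact word_mem (v := wb) (by decide)

theorem sub_ok : subOk C24 168 2 HC hc hs hp hq = true := by decide +kernel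
theorem sub_ne : subNe C24 168 HC = true := by decide +kernel

theorem H_card : 168 ≤ Nat.card H := sub_card sub_ok sub_ne hhc

theorem fwd1 : fwdCo C24 2640 2 M22p2.Q.toDat.T gc TC HC hx 168 = true := by decide +kernel
theorem tree1 : treeCo C24 2640 M22p2.Q.toDat.pi M22p2.Q.toDat.pq gc TC = true := by decide +kernel
theorem base : baseCo C24 2640 168 TC HC = true := by decide +kernel

theorem act1 : Act M22p2.Q.toDat.n M22p2.Q.toDat.k g
    (fun a => (QuotientGroup.mk (tau g M22p2.Q.toDat.pi M22p2.Q.toDat.pq a) : G ⧸ H))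
    M22p2.Q.toDat.T M22p2.Q.toDat.pi M22p2.Q.toDat.pq :=
  act_co ρ ρ_inj C24 hgc H (sub_mem sub_ok (by decide) hhc) (sub_rep sub_ok hhc) fwd1 tree1 (baseCo_spec base)
    M22p2.Q.toDat rfl rfl rfl rfl rfl (by decide) M22p2.tab1_ok M22p2.tab2_ok M22p2.tab3_ok

theorem gen : closure {z | ∃ i < 2, z = g i} = ⊤ := gen_co act1 (c := 168) card_G H_le H_card

theorem fwd2 : fwdSet 1232 2 Dt.T gc XM = true := by decide +kernel
theorem base2 : baseSet 1232 XM = true := by decide +kernel

theorem act2 : Act Dt.n Dt.k g (fun a => mset (XM a)) Dt.T Dt.pi Dt.pq :=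
  act_set hgv fwd2 base2 Dt rfl rfl rfl rfl rfl (by decide) tab1_ok tab2_ok tab3_ok

theorem rel1 : ∀ j < M22p2.Q.toDat.J, ev g (M22p2.Q.toDat.W j) = 1 :=
  relc_spec (cm := pp 24 5 31) (one := one24) ρ_inj hcm24 hgc hgi C24.dec_one (Dat.wOk_iff M22p2.w_ok) (by decide +kernel)

theorem rel2 : ∀ j < Dt.J, ev g (Dt.W j) = 1 :=
  relc_spec (cm := pp 24 5 31) (one := one24) ρ_inj hcm24 hgc hgi C24.dec_one (Dat.wOk_iff w_ok) (by decide +kernel)

/-! the stabilizer -/

/-- base point -/
noncomputable def e0 : G ⧸ H := QuotientGroup.mk (tau g M22p2.Q.toDat.pi M22p2.Q.toDat.pq 0)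

theorem H_fix : ∀ y ∈ H, y • e0 = e0 := by
  intro y hy
  show y • (QuotientGroup.mk (tau g M22p2.Q.toDat.pi M22p2.Q.toDat.pq 0) : G ⧸ H) =
    QuotientGroup.mk (tau g M22p2.Q.toDat.pi M22p2.Q.toDat.pq 0)
  rw [tau_zero, MulAction.Quotient.smul_mk, smul_eq_mul, mul_one]
  exact (QuotientGroup.eq.2 (by rwa [inv_one, one_mul])).symm

/-- stabilizer -/
noncomputable abbrev S : Subgroup G := MulAction.stabilizer G e0

theorem H_eq : H = S := stab_eq act1 (c := 168) card_G gen H H_fix H_card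

theorem card_S : Nat.card S = 168 := by
  have h1 := act1.card_stabilizer gen
  rw [card_G] at h1
  exact Nat.eq_of_mul_eq_mul_left act1.pos (h1.trans (by rfl))

theorem h_mem (i : ℕ) : h i ∈ S := by
  rw [← H_eq]
  unfold h
  split_ifs
  · exact subset_closure ⟨0, by decide, rfl⟩
  · exact subset_closure ⟨1, by decide, rfl⟩

/-- generators of the stabilizer -/
noncomputable def h' (i : ℕ) : S := ⟨h i, h_mem i⟩

theorem hgen : closure {z | ∃ i < 2, z = h' i} = ⊤ := closure_restrict S h' (fun _ _ => rfl) H_eq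

/-- representation of the stabilizer -/
noncomputable def ρS : S →* Function.End (Fin 24) := ρ.comp S.subtype

theorem ρS_inj : Function.Injective ρS := ρ_inj.comp Subtype.val_injective

theorem fwd8 : fwdSet 8 2 M22h2.Q.toDat.T hc O8 = true := by decide +kernel
theorem base8 : baseSet 8 O8 = true := by decide +kernel

theorem act8 : Act M22h2.Q.toDat.n M22h2.Q.toDat.k h (fun a => mset (O8 a)) M22h2.Q.toDat.T M22h2.Q.toDat.pi M22h2.Q.toDat.pq :=
  act_set hhv fwd8 base8 M22h2.Q.toDat rfl rfl rfl rfl rfl (by decide) M22h2.tab1_ok M22h2.tab2_ok M22h2.tab3_ok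

theorem rel8 : ∀ j < M22h2.Q.toDat.J, ev h' (M22h2.Q.toDat.W j) = 1 :=
  relc_spec (cm := pp 24 5 31) (one := one24) (ρ := ρS) ρS_inj hcm24 hhc hhi C24.dec_one (Dat.wOk_iff M22h2.w_ok)
    (by decide +kernel)

theorem htwo : PStemDvd 2 S 1 := by
  haveI : Fact (Nat.Prime 2) := ⟨Nat.prime_two⟩
  exact pStemDvd_of_checks' (s := 1) (q := 1) (N := 1) (c := 21) M22h2.Q.toDat (act_restrict act8 S h' fun _ _ => rfl) hgen
    card_S (by norm_num) M22h2.w_ok rel8 M22h2.nr M22h2.nr_ok M22h2.zl_ok rfl rfl (by decide) M22h2.chk_ok M22h2.gen_ok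
    M22h2.par_ok (by intro r hr; cases hr) rfl

theorem h_pow : ∀ i < 2, h i ^ 3 = 1 := by
  intro i hi
  have h1 : C24.dec (hc i) * C24.dec (hc i) = C24.dec (hci i) * C24.dec one24 := by
    apply C24.eqm_spec
    interval_cases i <;> decide +kernel
  have h2 : C24.dec one24 = 1 := C24.dec_one
  rw [h2, mul_one, ← hhc i hi, ← hhi i hi, ← map_mul] at h1
  have h3 := ρ_inj h1
  rw [pow_succ, pow_two, h3, inv_mul_cancel]

theorem hidx : ¬ 2 ∣ (commutator S).index := by
  haveI : Fact (Nat.Prime 2) := ⟨Nat.prime_two⟩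
  exact not_dvd_of_odds (odds_of_gen hgen 3 (by decide) fun i hi => Subtype.ext (h_pow i hi))

theorem bound : PStemDvd 2 G 4 := by
  haveI : Fact (Nat.Prime 2) := ⟨Nat.prime_two⟩
  exact pStemDvd_of_checks (s := 3) (q := 4) (N := 4) M22p2.Q.toDat act1 gen htwo hidx
    M22p2.w_ok rel1 M22p2.nr M22p2.nr_ok M22p2.zl_ok rfl rfl (by decide) M22p2.chk_ok M22p2.gen_ok M22p2.par_ok (by decide) rfl

theorem perfect_G : commutator G = ⊤ := by
  haveI : IsSimpleGroup G := simple_G
  refine perfect_of_simple (a := g 0) (b := g 1) fun h => ?_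
  have h1 := congrArg ρ h
  rw [map_mul, map_mul, hgc 0 (by norm_num), hgc 1 (by norm_num), ← hcm24, ← hcm24] at h1
  exact C24.ne_spec (by decide +kernel) h1

theorem quot : IsQuot G (Multiplicative (ZMod 4)) :=
  isQuot_one Dt D W1 act2 rfl rfl (fun _ => rfl) gen perfect_G w_ok rel2 rows_ok im_ok par_ok wt_W1 o ord_W1
    (by decide) 2 (by decide) val_W1_0

end P2

/-! ### the prime 3 -/

namespace P3

theorem oka : inS ga = true := by decide +kernel
theorem okb : inS gb = true := by decide +kernel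
theorem okai : inS gai = true := by decide +kernel
theorem okbi : inS gbi = true := by decide +kernel

/-- generators -/
noncomputable def g (i : ℕ) : G := if i = 0 then elt ga oka else elt gb okb

def gc (i : ℕ) : ℕ := ([ga, gb] : List ℕ).getD i 0
def gi (i : ℕ) : ℕ := ([gai, gbi] : List ℕ).getD i 0

theorem hgc : ∀ i < 2, ρ (g i) = C24.dec (gc i) := by
  intro i hi
  interval_cases i
  · exact ρ_elt oka
  · exact ρ_elt okb

theorem hgv : ∀ i < 2, valid (gc i) = true ∧ ((g i : G) : Equiv.Perm GolayPt) = toPerm (gc i) := by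
  intro i hi
  interval_cases i
  · exact ⟨valid_of_inM (inS_spec oka).1, rfl⟩
  · exact ⟨valid_of_inM (inS_spec okb).1, rfl⟩

theorem hgi : ∀ i < 2, ρ (g i)⁻¹ = C24.dec (gi i) := by
  intro i hi
  interval_cases i
  · exact rho_inv ρ_inj (ρ_elt oka) (ρ_elt okai) (P2.inv_of (by decide +kernel))
  · exact rho_inv ρ_inj (ρ_elt okb) (ρ_elt okbi) (P2.inv_of (by decide +kernel))

/-- the other generators are words -/
theorem gen : closure {z | ∃ i < 2, z = g i} = ⊤ := by
  rw [← top_le_iff, ← P2.gen, closure_le]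
  have ha : P2.g 0 = ev g va := ρ_inj (by
    rw [P2.hgc 0 (by norm_num)]
    exact (word_spec (cm := pp 24 5 31) hcm24 hgc hgi C24.dec_one (v := va) (by decide) (by decide +kernel)).symm)
  have hb : P2.g 1 = ev g vb := ρ_inj (by
    rw [P2.hgc 1 (by norm_num)]
    exact (word_spec (cm := pp 24 5 31) hcm24 hgc hgi C24.dec_one (v := vb) (by decide) (by decide +kernel)).symm)
  rintro _ ⟨i, hi, rfl⟩
  interval_cases i
  · rw [ha]; exact word_mem (v := va) (by decide)
  · rw [hb]; exact word_mem (v := vb) (by decide)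

theorem fwd1 : fwdSet 330 2 M22p3.Q.toDat.T gc XM = true := by decide +kernel
theorem fwd2 : fwdSet 330 2 Dt.T gc XM = true := by decide +kernel
theorem base : baseSet 330 XM = true := by decide +kernel

theorem act1 : Act M22p3.Q.toDat.n M22p3.Q.toDat.k g (fun a => mset (XM a)) M22p3.Q.toDat.T M22p3.Q.toDat.pi M22p3.Q.toDat.pq :=
  act_set hgv fwd1 base M22p3.Q.toDat rfl rfl rfl rfl rfl (by decide) M22p3.tab1_ok M22p3.tab2_ok M22p3.tab3_ok

theorem act2 : Act Dt.n Dt.k g (fun a => mset (XM a)) Dt.T Dt.pi Dt.pq :=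
  act_set hgv fwd2 base Dt rfl rfl rfl rfl rfl (by decide) tab1_ok tab2_ok tab3_ok

theorem rel1 : ∀ j < M22p3.Q.toDat.J, ev g (M22p3.Q.toDat.W j) = 1 :=
  relc_spec (cm := pp 24 5 31) (one := one24) ρ_inj hcm24 hgc hgi C24.dec_one (Dat.wOk_iff M22p3.w_ok) (by decide +kernel)

theorem rel2 : ∀ j < Dt.J, ev g (Dt.W j) = 1 :=
  relc_spec (cm := pp 24 5 31) (one := one24) ρ_inj hcm24 hgc hgi C24.dec_one (Dat.wOk_iff w_ok) (by decide +kernel)

/-- generators of the stabilizer of an octad -/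
noncomputable def h (i : ℕ) : G := if i = 0 then ev g wa else ev g wb

def hc (i : ℕ) : ℕ := ([P3K.ga, P3K.gb] : List ℕ).getD i 0
def hci (i : ℕ) : ℕ := ([P3K.gai, P3K.gbi] : List ℕ).getD i 0

theorem hhc : ∀ i < 2, ρ (h i) = C24.dec (hc i) := by
  intro i hi
  interval_cases i
  · exact word_spec (cm := pp 24 5 31) hcm24 hgc hgi C24.dec_one (v := wa) (by decide) (by decide +kernel)
  · exact word_spec (cm := pp 24 5 31) hcm24 hgc hgi C24.dec_one (v := wb) (by decide) (by decide +kernel)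

theorem hsa : inS P3K.gai = true := by decide +kernel
theorem hsb : inS P3K.gbi = true := by decide +kernel

theorem hhi : ∀ i < 2, ρ (h i)⁻¹ = C24.dec (hci i) := by
  intro i hi
  interval_cases i
  · exact rho_inv ρ_inj (hhc 0 (by norm_num)) (ρ_elt hsa) (P2.inv_of (by decide +kernel))
  · exact rho_inv ρ_inj (hhc 1 (by norm_num)) (ρ_elt hsb) (P2.inv_of (by decide +kernel))

/-- the small subgroup -/
noncomputable def kk (i : ℕ) : G := if i = 0 then ev h P3K.wa else ev h P3K.wb

def kc (i : ℕ) : ℕ := ([P3K.ha, P3K.hb] : List ℕ).getD i 0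

theorem hkc : ∀ i < 2, ρ (kk i) = C24.dec (kc i) := by
  intro i hi
  interval_cases i
  · exact word_spec (cm := pp 24 5 31) hcm24 hhc hhi C24.dec_one (v := P3K.wa) (by decide) (by decide +kernel)
  · exact word_spec (cm := pp 24 5 31) hcm24 hhc hhi C24.dec_one (v := P3K.wb) (by decide) (by decide +kernel)

/-- the small subgroup -/
noncomputable def K : Subgroup G := closure {z | ∃ i < 2, z = kk i}

/-- the stabilizer -/
noncomputable def L : Subgroup G := closure {z | ∃ i < 2, z = h i}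

theorem K_le : K ≤ L := by
  refine closure_le_of ?_
  intro i hi
  interval_cases i
  · exact word_mem (v := P3K.wa) (by decide)
  · exact word_mem (v := P3K.wb) (by decide)

theorem sub_ok : subOk C24 7 2 P3K.HC kc P3K.hs P3K.hp P3K.hq = true := by decide +kernel
theorem sub_ne : subNe C24 7 P3K.HC = true := by decide +kernel

theorem K_card : 7 ≤ Nat.card K := sub_card sub_ok sub_ne hkc

theorem fwdK : fwdCo C24 192 2 P3K.KD.T hc P3K.TC P3K.HC P3K.hx 7 = true := by decide +kernel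
theorem treeK : treeCo C24 192 P3K.KD.pi P3K.KD.pq hc P3K.TC = true := by decide +kernel
theorem baseK : baseCo C24 192 7 P3K.TC P3K.HC = true := by decide +kernel

theorem actK : Act P3K.KD.n P3K.KD.k h
    (fun a => (QuotientGroup.mk (tau h P3K.KD.pi P3K.KD.pq a) : G ⧸ K)) P3K.KD.T P3K.KD.pi P3K.KD.pq :=
  act_co ρ ρ_inj C24 hhc K (sub_mem sub_ok (by decide) hkc) (sub_rep sub_ok hkc) fwdK treeK (baseCo_spec baseK)
    P3K.KD rfl rfl rfl rfl rfl (by decide) P3K.KD1 P3K.KD2 P3K.KD3

theorem K_fix : ∀ y ∈ K, y • (QuotientGroup.mk (tau h P3K.KD.pi P3K.KD.pq 0) : G ⧸ K) =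
    QuotientGroup.mk (tau h P3K.KD.pi P3K.KD.pq 0) := by
  intro y hy
  rw [tau_zero, MulAction.Quotient.smul_mk, smul_eq_mul, mul_one]
  exact (QuotientGroup.eq.2 (by rwa [inv_one, one_mul])).symm

theorem L_card : 1344 ≤ Nat.card L := by
  have h1 := card_ge actK K K_le K_fix
  have h2 : 192 * Nat.card K ≤ Nat.card L := h1
  have h3 := K_card
  omega

theorem fx0 : valid (hc 0) = true ∧ Nat.beq (imgM (hc 0) (XM 0)) (XM 0) = true := by decide +kernel
theorem fx1 : valid (hc 1) = true ∧ Nat.beq (imgM (hc 1) (XM 0)) (XM 0) = true := by decide +kernel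

theorem L_fix : ∀ y ∈ L, y • mset (XM 0) = mset (XM 0) := by
  have h1 : L ≤ MulAction.stabilizer G (mset (XM 0)) := by
    rw [L, closure_le]
    rintro _ ⟨i, hi, rfl⟩
    have h2 : valid (hc i) = true ∧ Nat.beq (imgM (hc i) (XM 0)) (XM 0) = true := by
      interval_cases i
      · exact fx0
      · exact fx1
    have h3 : ((h i : G) : Equiv.Perm GolayPt) = toPerm (hc i) := val_of_code h2.1 (hhc i hi)
    have h4 : ((h i : G) : Equiv.Perm GolayPt) • mset (XM 0) = mset (XM 0) := by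
      rw [h3, toPerm_smul_mset h2.1]
      exact congrArg mset (Sol.beq_iff.1 h2.2)
    exact h4
  exact fun y hy => h1 hy

/-- stabilizer -/
abbrev S : Subgroup G := MulAction.stabilizer G (mset (XM 0))

theorem L_eq : L = S := stab_eq act1 (c := 1344) card_G gen L L_fix L_card

theorem card_S : Nat.card S = 1344 := by
  have h1 := act1.card_stabilizer gen
  rw [card_G] at h1
  exact Nat.eq_of_mul_eq_mul_left act1.pos (h1.trans (by rfl))

theorem h_mem (i : ℕ) : h i ∈ S := by
  rw [← L_eq]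
  unfold h
  split_ifs
  · exact subset_closure ⟨0, by decide, rfl⟩
  · exact subset_closure ⟨1, by decide, rfl⟩

/-- generators of the stabilizer -/
noncomputable def h' (i : ℕ) : S := ⟨h i, h_mem i⟩

theorem hgen : closure {z | ∃ i < 2, z = h' i} = ⊤ := closure_restrict S h' (fun _ _ => rfl) L_eq

theorem ev_rep (i m : ℕ) : ev h (List.replicate m (2 * i)) = h i ^ m := by
  induction m with
  | zero => rfl
  | succ m ih =>
    rw [List.replicate_succ, ev_cons, ih, pow_succ]
    congr 1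
    unfold H58SM.lt
    rw [if_pos (by omega)]
    congr 1
    omega

theorem hw0 : ρ (ev h [0, 0, 0, 0, 0, 0, 0]) = C24.dec one24 :=
  word_spec (cm := pp 24 5 31) hcm24 hhc hhi C24.dec_one (v := [0, 0, 0, 0, 0, 0, 0]) (by decide) (by decide +kernel)

theorem hw1 : ρ (ev h [2, 2, 2, 2, 2, 2, 2]) = C24.dec one24 :=
  word_spec (cm := pp 24 5 31) hcm24 hhc hhi C24.dec_one (v := [2, 2, 2, 2, 2, 2, 2]) (by decide) (by decide +kernel)

theorem h_pow : ∀ i < 2, h i ^ 7 = 1 := by
  have h2 : C24.dec one24 = 1 := C24.dec_one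
  have h3 : h 0 ^ 7 = 1 := by
    have h5 : List.replicate 7 (2 * 0) = [0, 0, 0, 0, 0, 0, 0] := by decide
    have h6 : ρ (ev h [0, 0, 0, 0, 0, 0, 0]) = ρ 1 := by rw [hw0, h2, map_one]
    rw [← ev_rep 0 7, h5]
    exact ρ_inj h6
  have h4 : h 1 ^ 7 = 1 := by
    have h5 : List.replicate 7 (2 * 1) = [2, 2, 2, 2, 2, 2, 2] := by decide
    have h6 : ρ (ev h [2, 2, 2, 2, 2, 2, 2]) = ρ 1 := by rw [hw1, h2, map_one]
    rw [← ev_rep 1 7, h5]
    exact ρ_inj h6
  intro i hi
  interval_cases i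
  · exact h3
  · exact h4

theorem hidx : ¬ 3 ∣ (commutator S).index := by
  haveI : Fact (Nat.Prime 3) := ⟨Nat.prime_three⟩
  exact not_dvd_of_odds (odds_of_gen hgen 7 (by decide) fun i hi => Subtype.ext (h_pow i hi))

theorem hthree : PStemDvd 3 S 1 := by
  haveI : Fact (Nat.Prime 3) := ⟨Nat.prime_three⟩
  apply Cfsg.Agent.Lib.H92Stem.pStemDvd_of_sq
  rw [card_S]
  decide

theorem bound : PStemDvd 3 G 3 := by
  haveI : Fact (Nat.Prime 3) := ⟨Nat.prime_three⟩
  exact pStemDvd_of_checks (s := 2) (q := 3) (N := 3) M22p3.Q.toDat act1 gen hthree hidx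
    M22p3.w_ok rel1 M22p3.nr M22p3.nr_ok M22p3.zl_ok rfl rfl (by decide) M22p3.chk_ok M22p3.gen_ok M22p3.par_ok (by decide) rfl

theorem quot : IsQuot G (Multiplicative (ZMod 3)) :=
  isQuot_one Dt D W1 act2 rfl rfl (fun _ => rfl) gen P2.perfect_G w_ok rel2 rows_ok im_ok par_ok wt_W1 o ord_W1
    (by decide) 2 (by decide) val_W1_0

end P3

theorem stem : StemDvd G 12 := by
  apply StemDvd.of_forall
  intro p hp
  haveI : Fact p.Prime := ⟨hp⟩
  by_cases h2 : p = 2
  · subst h2; exact P2.bound.mono (by decide)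
  by_cases h3 : p = 3
  · subst h3; exact P3.bound.mono (by decide)
  refine PStemDvd.mono ?_ (one_dvd 12)
  apply Cfsg.Agent.Lib.H92Stem.pStemDvd_of_sq
  rw [card_G]
  have h4 : p.Coprime (2 ^ 7 * 3 ^ 2) :=
    Nat.Coprime.mul_right (Nat.Coprime.pow_right _ ((Nat.coprime_primes hp Nat.prime_two).2 h2))
      (Nat.Coprime.pow_right _ ((Nat.coprime_primes hp Nat.prime_three).2 h3))
  exact sq_ndvd (a := 2 ^ 7 * 3 ^ 2) (b := 385) hp h4 (by decide +kernel)

theorem quot : IsQuot G (Multiplicative (ZMod (4 * 3))) := IsQuot.cyclic P2.quot P3.quot (by decide)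

theorem mult : Cfsg.HasSchurMultiplier G (Multiplicative (ZMod 12)) := by
  apply hasSchur_of
  · have : Nat.card (Multiplicative (ZMod 12)) = 12 := Nat.card_zmod 12
    rw [this]; exact stem
  · exact quot

end Cfsg.Agent.Lib.CovM22
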