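import Cfsg.Agent.Lib.CovH

/-!
Lower bounds for Schur multipliers from two transitive actions of the same group (helper45)
-/

set_option autoImplicit false

namespace Cfsg.Agent.Lib.CovPair

open Subgroup Cfsg.Agent.Lib.H58SM Cfsg.Agent.Lib.Cov

universe u w w'

theorem ev_mem {E : Type*} [Group E] {x : ℕ → E} {k : ℕ} {v : List ℕ} (hv : ∀ l ∈ v, l < 2 * k) :
    ev x v ∈ closure {z | ∃ i < k, z = x i} := by
  induction v with
  | nil => exact one_mem _
  | cons l v ih =>
    rw [ev_cons]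
    refine mul_mem (ih fun l hl => hv l (List.mem_cons_of_mem _ hl)) ?_
    have hl := hv l List.mem_cons_self
    unfold H58SM.lt
    split_ifs
    · exact subset_closure ⟨l / 2, by omega, rfl⟩
    · exact inv_mem (subset_closure ⟨l / 2, by omega, rfl⟩)

theorem ev_map {E G : Type*} [Group E] [Group G] (σ : E →* G) {x : ℕ → E} {g : ℕ → G} {k : ℕ}
    (hx : ∀ i < k, σ (x i) = g i) {v : List ℕ} (hv : ∀ l ∈ v, l < 2 * k) : σ (ev x v) = ev g v := by
  rw [map_ev, ev_congr (k := k) (y := g) hx hv]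

/-- **abstract lower bound engine** -/
theorem exists_cover_abs {G : Type u} [Group G] [Finite G] {E : Type u} [Group E] [Finite E] (σ : E →* G) {k : ℕ}
    {x : ℕ → E} {g : ℕ → G} (hx : ∀ i < k, σ (x i) = g i) {B : Type} [AddCommGroup B] [Finite B]
    (tr : Multiplicative B →* E) (hinj : Function.Injective tr) (hσtr : ∀ z, σ (tr z) = 1)
    (hcomm : ∀ i < k, ∀ z, x i * tr z = tr z * x i) (f : List ℕ → B)
    (hker : ∀ v : List ℕ, (∀ l ∈ v, l < 2 * k) → ev g v = 1 → ev x v = tr (Multiplicative.ofAdd (f v)))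
    (hgen : closure {z | ∃ i < k, z = g i} = ⊤) (hperf : commutator G = ⊤)
    (o : ℕ → ℕ) (ho : ∀ i < k, g i ^ o i = 1 ∧ (o i).Coprime (Nat.card B) ∧ f (List.replicate (o i) (2 * i)) = 0)
    (V : List (List ℕ)) (hV : ∀ v ∈ V, (∀ l ∈ v, l < 2 * k) ∧ ev g v = 1)
    (hB : AddSubgroup.closure {b | ∃ v ∈ V, b = f v} = ⊤) :
    ∃ (Γ : Type u) (_ : Group Γ) (_ : Finite Γ) (π : Γ →* G), IsStemExtension π ∧ Nonempty (Multiplicative B ≃* π.ker) := by
  classical
  set C : Subgroup E := closure {z | ∃ i < k, z = x i} with hC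
  let π : C →* G := σ.comp C.subtype
  have hπ : ∀ y : C, π y = σ (y : E) := fun _ => rfl
  -- translations belong to the covering group
  have htr : ∀ z : B, tr (Multiplicative.ofAdd z) ∈ C := by
    intro z
    have hz : z ∈ AddSubgroup.closure {b | ∃ v ∈ V, b = f v} := by rw [hB]; trivial
    induction hz using AddSubgroup.closure_induction with
    | mem z hz =>
      obtain ⟨v, hv, rfl⟩ := hz
      obtain ⟨h1, h2⟩ := hV v hv
      rw [← hker v h1 h2]
      exact ev_mem h1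
    | zero => rw [ofAdd_zero, map_one]; exact one_mem _
    | add a b _ _ ha hb => rw [ofAdd_add, map_mul]; exact mul_mem ha hb
    | neg a _ ha => rw [ofAdd_neg, map_inv]; exact inv_mem ha
  have hk : ∀ y : C, y ∈ π.ker ↔ ∃ z : B, (y : E) = tr (Multiplicative.ofAdd z) := by
    intro y
    constructor
    · intro hy
      obtain ⟨v, hv, h⟩ := exists_word (x := x) (k := k) y.2
      have h1 : ev g v = 1 := by
        rw [← ev_map σ hx hv, h]; exact hy
      exact ⟨f v, by rw [← h]; exact hker v hv h1⟩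
    · rintro ⟨z, hz⟩
      rw [MonoidHom.mem_ker, hπ, hz, hσtr]
  have hsurj : Function.Surjective π := by
    intro y
    have h : C.map σ = ⊤ := by
      rw [eq_top_iff, ← hgen, closure_le]
      rintro _ ⟨i, hi, rfl⟩
      exact ⟨x i, subset_closure ⟨i, hi, rfl⟩, hx i hi⟩
    have h1 : y ∈ C.map σ := by rw [h]; trivial
    obtain ⟨z, hz, rfl⟩ := h1
    exact ⟨⟨z, hz⟩, rfl⟩
  have hcomm' : ∀ z, ∀ y ∈ C, y * tr z = tr z * y := by
    intro z y hy
    have h : C ≤ centralizer {tr z} := by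
      rw [hC, closure_le]
      rintro _ ⟨i, hi, rfl⟩
      rw [SetLike.mem_coe, mem_centralizer_singleton_iff]
      exact hcomm i hi z
    exact mem_centralizer_singleton_iff.1 (h hy)
  have hcen : π.ker ≤ center C := by
    intro y hy
    obtain ⟨z, hz⟩ := (hk y).1 hy
    rw [mem_center_iff]
    intro y'
    apply Subtype.ext
    show (y' : E) * y = y * y'
    rw [hz]
    exact hcomm' _ y' y'.2
  have hpow : ∀ i < k, x i ^ o i = 1 := by
    intro i hi
    obtain ⟨h1, -, h3⟩ := ho i hi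
    rw [← ev_replicate x i (o i), hker _ (by intro l hl; rw [List.mem_replicate] at hl; omega)
      (by rw [ev_replicate, h1]), h3, ofAdd_zero, map_one]
  -- perfectness
  have hcC : commutator C = ⊤ := by
    have h1 : commutator C ⊔ π.ker = ⊤ := by
      rw [eq_top_iff]
      intro y _
      have h2 : π y ∈ (commutator C).map π := by
        rw [commutator_def, map_commutator, ← MonoidHom.range_eq_map, MonoidHom.range_eq_top.2 hsurj, ← commutator_def,
          hperf]
        trivial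
      obtain ⟨z, hz, h3⟩ := h2
      rw [← mul_inv_cancel_left z y]
      refine mul_mem (mem_sup_left hz) (mem_sup_right ?_)
      rw [MonoidHom.mem_ker, map_mul, map_inv, h3, inv_mul_cancel]
    have h4 : ∀ y : C, Abelianization.of y ^ Nat.card B = 1 := by
      intro y
      have h5 : y ∈ commutator C ⊔ π.ker := by rw [h1]; trivial
      obtain ⟨a, ha, b, hb, rfl⟩ := mem_sup_of_normal_right.1 h5
      rw [map_mul, mul_pow]
      have h6 : Abelianization.of a = 1 := by
        rw [← Abelianization.ker_of] at ha; exact ha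
      rw [h6, one_pow, one_mul, ← map_pow]
      obtain ⟨z, hz⟩ := (hk b).1 hb
      have h7 : b ^ Nat.card B = 1 := by
        apply Subtype.ext
        show (b : E) ^ Nat.card B = 1
        rw [hz, ← map_pow]
        have h9 : (Multiplicative.ofAdd z) ^ Nat.card B = 1 := pow_card_eq_one' (x := Multiplicative.ofAdd z)
        rw [h9, map_one]
      rw [h7, map_one]
    have h10 : ∀ i (hi : i < k), Abelianization.of (⟨x i, subset_closure ⟨i, hi, rfl⟩⟩ : C) = 1 := by
      intro i hi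
      have h11 : (⟨x i, subset_closure ⟨i, hi, rfl⟩⟩ : C) ^ o i = 1 := Subtype.ext (hpow i hi)
      have h12 := h4 ⟨x i, subset_closure ⟨i, hi, rfl⟩⟩
      have h13 : Abelianization.of (⟨x i, subset_closure ⟨i, hi, rfl⟩⟩ : C) ^ o i = 1 := by
        rw [← map_pow, h11, map_one]
      have h14 := Nat.dvd_gcd (orderOf_dvd_of_pow_eq_one h13) (orderOf_dvd_of_pow_eq_one h12)
      rw [Nat.Coprime.gcd_eq_one (ho i hi).2.1, Nat.dvd_one, orderOf_eq_one_iff] at h14
      exact h14
    rw [← Abelianization.ker_of, eq_top_iff]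
    rintro ⟨y, hy⟩ -
    rw [MonoidHom.mem_ker]
    have hy' := hy
    rw [hC] at hy'
    induction hy' using closure_induction with
    | mem z hz =>
      obtain ⟨i, hi, rfl⟩ := hz
      exact h10 i hi
    | one => exact map_one _
    | mul a b ha hb iha ihb =>
      have h15 : (⟨a * b, hy⟩ : C) = ⟨a, ha⟩ * ⟨b, hb⟩ := rfl
      rw [h15, map_mul, iha ha, ihb hb, mul_one]
    | inv a ha iha =>
      have h15 : (⟨a⁻¹, hy⟩ : C) = (⟨a, ha⟩ : C)⁻¹ := rfl
      rw [h15, map_inv, iha ha, inv_one]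
  refine ⟨C, inferInstance, inferInstance, π, ⟨hsurj, hcen, by rw [hcC]; exact le_top⟩, ?_⟩
  let F : Multiplicative B →* π.ker :=
    MonoidHom.mk' (fun z => ⟨⟨tr z, htr (Multiplicative.toAdd z)⟩, (hk _).2 ⟨Multiplicative.toAdd z, rfl⟩⟩) (by
      intro y z
      apply Subtype.ext
      apply Subtype.ext
      exact map_mul tr y z)
  refine ⟨MulEquiv.ofBijective F ⟨?_, ?_⟩⟩
  · intro y z h
    have h1 := congrArg (fun q : π.ker => ((q : C) : E)) h
    exact hinj h1
  · rintro ⟨y, hy⟩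
    obtain ⟨z, hz⟩ := (hk y).1 hy
    exact ⟨Multiplicative.ofAdd z, Subtype.ext (Subtype.ext hz.symm)⟩

section pair

variable {G : Type u} [Group G] [Finite G] {Ω : Type w} [MulAction G Ω] {Ω' : Type w'} [MulAction G Ω'] {g : ℕ → G}
  {e : ℕ → Ω} {e' : ℕ → Ω'}

theorem ev_pair {E E' : Type*} [Group E] [Group E'] (x : ℕ → E) (y : ℕ → E') (v : List ℕ) :
    ev (fun i => (x i, y i)) v = (ev x v, ev y v) := by
  induction v with
  | nil => rfl
  | cons l v ih =>
    have h : H58SM.lt (fun i => (x i, y i)) l = (H58SM.lt x l, H58SM.lt y l) := by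
      unfold H58SM.lt
      split_ifs <;> rfl
    rw [ev_cons, ih, ev_cons, ev_cons, h, Prod.mk_mul_mk]

/-- **lower bound from two actions** -/
theorem isQuot_pair (Dt : Dat) (D : ED) (W : WD) (Dt' : Dat) (D' : ED) (W' : WD)
    (A : Act Dt.n Dt.k g e Dt.T Dt.pi Dt.pq) (hn : D.n = Dt.n) (hk : D.k = Dt.k) (hT : ∀ i, Dt.T (2 * i) = D.T i)
    (A' : Act Dt'.n Dt'.k g e' Dt'.T Dt'.pi Dt'.pq) (hn' : D'.n = Dt'.n) (hk' : D'.k = Dt'.k)
    (hT' : ∀ i, Dt'.T (2 * i) = D'.T i) (hkk : Dt'.k = Dt.k)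
    (hgen : closure {z | ∃ i < Dt.k, z = g i} = ⊤)
    (hperf : commutator G = ⊤) (hw : Dt.wOk = true) (hrel : ∀ j < Dt.J, ev g (Dt.W j) = 1)
    (h1 : D.rowsOk = true) (h2 : D.imOk = true) (h3 : D.parOk = true) (h4 : D.wtOk W = true)
    (h1' : D'.rowsOk = true) (h2' : D'.imOk = true) (h3' : D'.parOk = true) (h4' : D'.wtOk W' = true)
    (o : ℕ → ℕ) (ho : ordOk Dt W o = true) (ho' : ordOk Dt' W' o = true) (hm : 0 < W.m) (hm' : 0 < W'.m)
    (j : ℕ) (hj : j < Dt.J) (hval : Nat.beq (pn Dt.T W.c W.m (Dt.W j) 0 0) 1 = true)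
    (hval' : Nat.beq (pn Dt'.T W'.c W'.m (Dt.W j) 0 0) 0 = true)
    (l : ℕ) (hl : l < Dt.J) (hvall : Nat.beq (pn Dt.T W.c W.m (Dt.W l) 0 0) 0 = true)
    (hvall' : Nat.beq (pn Dt'.T W'.c W'.m (Dt.W l) 0 0) 1 = true) :
    IsQuot G (Multiplicative (ZMod W.m × ZMod W'.m)) := by
  haveI : NeZero W.m := ⟨hm.ne'⟩
  haveI : NeZero W'.m := ⟨hm'.ne'⟩
  obtain ⟨ho1, ho2⟩ := ord_spec hm ho
  obtain ⟨-, ho2'⟩ := ord_spec hm' ho'
  have E := ED.edges (T := Dt.T) hT h1 h2 h3 h4
  have E' := ED.edges (T := Dt'.T) hT' h1' h2' h3' h4'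
  rw [hn, hk] at E
  rw [hn', hk'] at E'
  let tr2 : Multiplicative (ZMod W.m × ZMod W'.m) →*
      (G × Equiv.Perm (Fin Dt.n × ZMod W.m)) × (G × Equiv.Perm (Fin Dt'.n × ZMod W'.m)) :=
    MonoidHom.mk' (fun z => (tr G Dt.n (ZMod W.m) (Multiplicative.toAdd z).1, tr G Dt'.n (ZMod W'.m) (Multiplicative.toAdd z).2))
      (by
        intro y z
        exact Prod.ext (tr_mul G Dt.n (Multiplicative.toAdd y).1 (Multiplicative.toAdd z).1)
          (tr_mul G Dt'.n (Multiplicative.toAdd y).2 (Multiplicative.toAdd z).2))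
  have htr2 : ∀ z, tr2 z = (tr G Dt.n (ZMod W.m) (Multiplicative.toAdd z).1,
    tr G Dt'.n (ZMod W'.m) (Multiplicative.toAdd z).2) := fun _ => rfl
  obtain ⟨Γ, _, _, π, h5, ⟨h6⟩⟩ := exists_cover_abs (G := G)
    (E := (G × Equiv.Perm (Fin Dt.n × ZMod W.m)) × (G × Equiv.Perm (Fin Dt'.n × ZMod W'.m)))
    ((MonoidHom.fst G _).comp (MonoidHom.fst _ _)) (k := Dt.k)
    (x := fun i => (X A W.C i, X A' W'.C i)) (g := g) (fun i _ => rfl) tr2
    (by
      intro y z h
      rw [htr2, htr2] at h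
      have e1 := tr_inj (B := ZMod W.m) G A.pos (congrArg Prod.fst h)
      have e2 := tr_inj (B := ZMod W'.m) G A'.pos (congrArg Prod.snd h)
      exact Prod.ext e1 e2)
    (fun z => rfl)
    (by
      intro i hi z
      exact Prod.ext (tr_comm A W.C (Multiplicative.toAdd z).1 (y := X A W.C i) (subset_closure ⟨i, hi, rfl⟩))
        (tr_comm A' W'.C (Multiplicative.toAdd z).2 (y := X A' W'.C i) (subset_closure ⟨i, by rw [hkk]; exact hi, rfl⟩)))
    (fun v => (pe Dt.T W.C v 0, pe Dt'.T W'.C v 0))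
    (by
      intro v hv hv1
      rw [ev_pair, htr2]
      exact Prod.ext (ker_tr A E hv hv1) (ker_tr A' E' (by rw [hkk]; exact hv) hv1))
    hgen hperf o (by
    intro i hi
    obtain ⟨h7, h8, h9⟩ := ho2 i hi
    obtain ⟨h7', h8', h9'⟩ := ho2' i (by rw [hkk]; exact hi)
    refine ⟨?_, ?_, ?_⟩
    · rw [← ev_replicate, ← h7]
      exact hrel i (lt_of_lt_of_le hi ho1)
    · rw [Nat.card_prod, Nat.card_zmod, Nat.card_zmod]
      exact Nat.Coprime.mul_right h8 h8'
    · rw [h9, h9']; rfl) [Dt.W j, Dt.W l] (by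
    intro v hv
    rw [List.mem_cons, List.mem_singleton] at hv
    rcases hv with rfl | rfl
    · exact ⟨Dat.wOk_iff hw j hj, hrel j hj⟩
    · exact ⟨Dat.wOk_iff hw l hl, hrel l hl⟩) (by
    rw [eq_top_iff]
    rintro ⟨z, z'⟩ -
    set K := AddSubgroup.closure {b | ∃ v ∈ [Dt.W j, Dt.W l], b = (pe Dt.T W.C v 0, pe Dt'.T W'.C v 0)} with hK
    have h10 : ((1 : ZMod W.m), (0 : ZMod W'.m)) ∈ K := by
      refine AddSubgroup.subset_closure ⟨Dt.W j, by simp, ?_⟩
      rw [val_spec hm hval, val_spec hm' hval', Nat.cast_one, Nat.cast_zero]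
    have h10' : ((0 : ZMod W.m), (1 : ZMod W'.m)) ∈ K := by
      refine AddSubgroup.subset_closure ⟨Dt.W l, by simp, ?_⟩
      rw [val_spec hm hvall, val_spec hm' hvall', Nat.cast_one, Nat.cast_zero]
    have h11 := add_mem (nsmul_mem h10 z.val) (nsmul_mem h10' z'.val)
    have h12 : z.val • ((1 : ZMod W.m), (0 : ZMod W'.m)) + z'.val • ((0 : ZMod W.m), (1 : ZMod W'.m)) = (z, z') := by
      rw [Prod.smul_mk, Prod.smul_mk, Prod.mk_add_mk, smul_zero, smul_zero, nsmul_one, nsmul_one, add_zero, zero_add,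
        ZMod.natCast_zmod_val, ZMod.natCast_zmod_val]
    rwa [h12] at h11)
  exact IsQuot.of_stem _ h5 h6.symm

end pair

end Cfsg.Agent.Lib.CovPair
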