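import Cfsg.Prelude.Def_Classical
import Cfsg.Agent.Lib.SUTransport

/-!
Functoriality of the symplectic groups in the field (lead)
-/

set_option autoImplicit false

namespace Cfsg.Agent.Lib.SpCongr

open Matrix

variable {F K : Type*} [Field F] [Field K]

theorem map_J (φ : F ≃+* K) (m : ℕ) : (Matrix.J (Fin m) F).map φ = Matrix.J (Fin m) K := by
  ext i j
  rcases i with i | i <;> rcases j with j | j <;> simp [Matrix.J, Matrix.one_apply] <;> split_ifs <;> simp

theorem map_mem (φ : F ≃+* K) {m : ℕ} {A : Matrix (Fin m ⊕ Fin m) (Fin m ⊕ Fin m) F} (h : A ∈ symplecticGroup (Fin m) F) :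
    A.map φ ∈ symplecticGroup (Fin m) K := by
  rw [SymplecticGroup.mem_iff] at h ⊢
  have h1 := congrArg (fun M : Matrix (Fin m ⊕ Fin m) (Fin m ⊕ Fin m) F => M.map φ) h
  simp only [Matrix.map_mul, Matrix.transpose_map, map_J] at h1
  rw [← map_J φ m]
  rw [← map_J φ m] at h1
  exact h1

/-- functoriality -/
def spCongr (φ : F ≃+* K) (m : ℕ) : symplecticGroup (Fin m) F ≃* symplecticGroup (Fin m) K where
  toFun A := ⟨A.1.map φ, map_mem φ A.2⟩
  invFun A := ⟨A.1.map φ.symm, map_mem φ.symm A.2⟩
  left_inv A := by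
    apply Subtype.ext
    ext i j
    exact φ.symm_apply_apply _
  right_inv A := by
    apply Subtype.ext
    ext i j
    exact φ.apply_symm_apply _
  map_mul' A B := by
    apply Subtype.ext
    exact Matrix.map_mul

/-- functoriality for `PSp` -/
noncomputable def pspCongr (φ : F ≃+* K) (m : ℕ) : Cfsg.PSp m F ≃* Cfsg.PSp m K :=
  SUTransport.quotCenterCongr (spCongr φ m)

end Cfsg.Agent.Lib.SpCongr
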