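import Cfsg.Agent.Lib.CovI
import Cfsg.Agent.Lib.SMSp62a
import Cfsg.Agent.Lib.SMSp62b
import Cfsg.Agent.Lib.SMSp62g
import Cfsg.Agent.Lib.H92SpinCover
import Cfsg.Agent.Lib.SMSp62d
import Cfsg.Agent.Lib.SMSp62e
import Cfsg.Agent.Lib.SMSp62f
import Cfsg.Agent.Lib.SpCongr
import Cfsg.Agent.Lib.ClSympOrd
import Cfsg.Agent.Lib.ClSymp3
import Cfsg.Agent.Lib.PSpAut

/-!
The Schur multiplier of Sp6(2) (lead)
-/

set_option autoImplicit false

namespace Cfsg.Agent.Lib.CovSp62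

open Subgroup Cfsg.Agent.Lib.H58SM Cfsg.Agent.Lib.Cov Cfsg.Agent.Lib.SchurSylow

abbrev K := ZMod 2

/-- the group -/
abbrev G := ↥(Matrix.symplecticGroup (Fin 3) K)

/-- codes of the field -/
def fc : FC K := fcP K 2 1 1 (by norm_num) (by norm_num) (by norm_num)

theorem dec_one : fc.dec 6 one6 = 1 := by decide +kernel

/-- codes -/
def C : Codes (Matrix (Fin 6) (Fin 6) K) := fc.codes 6 one6 dec_one

def gc (i : ℕ) : ℕ := ([gA, gB] : List ℕ).getD i 0
def gi (i : ℕ) : ℕ := ([gAi, gBi] : List ℕ).getD i 0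
def hcd (i : ℕ) : ℕ := ([hA, hB] : List ℕ).getD i 0
def hid (i : ℕ) : ℕ := ([hAi, hBi] : List ℕ).getD i 0

theorem dd (a b : ℕ) (h : fc.eqm 6 a b one6 one6 = true) : fc.dec 6 a * fc.dec 6 b = 1 := by
  have := C.eqm_spec (a := a) (b := b) (c := one6) (d := one6) h
  have h1 : C.dec one6 = 1 := dec_one
  rw [h1, mul_one] at this
  exact this

/-- reindexing -/
def rx : Matrix (Fin 3 ⊕ Fin 3) (Fin 3 ⊕ Fin 3) K ≃* Matrix (Fin 6) (Fin 6) K :=
  (Matrix.reindexAlgEquiv K K (finSumFinEquiv : Fin 3 ⊕ Fin 3 ≃ Fin 6)).toMulEquiv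

/-- the representation -/
def ρm : G →* Matrix (Fin 6) (Fin 6) K := rx.toMonoidHom.comp (Matrix.symplecticGroup (Fin 3) K).subtype

theorem ρm_inj : Function.Injective ρm := rx.injective.comp Subtype.val_injective

/-- the representation by units -/
def ρ : G →* (Matrix (Fin 6) (Fin 6) K)ˣ := ρm.toHomUnits

theorem ρ_val (y : G) : ((ρ y : (Matrix (Fin 6) (Fin 6) K)ˣ) : Matrix (Fin 6) (Fin 6) K) = ρm y := rfl

theorem memA : rx.symm (fc.dec 6 gA) ∈ Matrix.symplecticGroup (Fin 3) K := by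
  rw [SymplecticGroup.mem_iff]
  decide +kernel

theorem memB : rx.symm (fc.dec 6 gB) ∈ Matrix.symplecticGroup (Fin 3) K := by
  rw [SymplecticGroup.mem_iff]
  decide +kernel

/-- generators -/
def g (i : ℕ) : G := if i = 0 then ⟨_, memA⟩ else ⟨_, memB⟩

theorem hgc : ∀ i < 2, ρm (g i) = fc.dec 6 (gc i) := by
  intro i hi
  interval_cases i
  · exact rx.apply_symm_apply (fc.dec 6 gA)
  · exact rx.apply_symm_apply (fc.dec 6 gB)

theorem inv_code {y : G} {a b : ℕ} (h : ρm y = fc.dec 6 a) (hab : fc.eqm 6 a b one6 one6 = true) : ρm y⁻¹ = fc.dec 6 b := by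
  have h1 := dd a b hab
  have h2 : ρm y⁻¹ * ρm y = 1 := by rw [← map_mul, inv_mul_cancel, map_one]
  rw [h] at h2
  calc ρm y⁻¹ = ρm y⁻¹ * (fc.dec 6 a * fc.dec 6 b) := by rw [h1, mul_one]
    _ = fc.dec 6 b := by rw [← mul_assoc, h2, one_mul]

theorem hgi : ∀ i < 2, ρm (g i)⁻¹ = fc.dec 6 (gi i) := by
  intro i hi
  interval_cases i
  · exact inv_code (hgc 0 (by norm_num)) (by decide +kernel)
  · exact inv_code (hgc 1 (by norm_num)) (by decide +kernel)

theorem hcm (a b : ℕ) : fc.dec 6 (fc.mm 6 a b) = fc.dec 6 a * fc.dec 6 b := fc.dec_mm 6 rfl a b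

theorem card_G : Nat.card G = 1451520 := by
  rw [ClSympOrd.card_symplectic, ZMod.card]
  rfl

/-- the centre is trivial -/
theorem center_bot : center G = ⊥ := by
  rw [eq_bot_iff]
  intro s hs
  obtain ⟨c, hc⟩ := (PSpAut.mem_center_iff' s).1 hs
  have h1 : c = 1 := by
    have h2 := PSpAut.center_sq (by norm_num) hc
    have h3 : ∀ c : K, c ^ 2 = 1 → c = 1 := by decide
    exact h3 c h2
  rw [mem_bot]
  apply Subtype.ext
  apply Matrix.ext_of_mulVec_single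
  intro i
  rw [hc, h1, one_smul, OneMemClass.coe_one, Matrix.one_mulVec]

/-- `Sp = PSp` -/
noncomputable def eqv : G ≃* Cfsg.PSp 3 K :=
  MulEquiv.ofBijective (QuotientGroup.mk' (center G)) ⟨by
    rw [← MonoidHom.ker_eq_bot_iff, QuotientGroup.ker_mk', center_bot], QuotientGroup.mk'_surjective _⟩

theorem simple : IsSimpleGroup G := by
  haveI : IsSimpleGroup (Cfsg.PSp 3 K) := ClSymp3.simple 3 (by norm_num) (fun h => absurd h (by norm_num))
  exact (MulEquiv.isSimpleGroup_congr eqv).2 inferInstance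

theorem perfect_G : commutator G = ⊤ := by
  haveI := simple
  refine perfect_of_simple (a := g 0) (b := g 1) fun h => ?_
  have h1 := congrArg ρm h
  rw [map_mul, map_mul, hgc 0 (by norm_num), hgc 1 (by norm_num)] at h1
  revert h1
  decide +kernel

/-! ### the action on 2880 points -/

def XCf (a : ℕ) : ℕ := gt XC 36 68719476735 a

theorem fwd_ok : fwdCj C 2880 2 Sp62.Q.toDat.T gc XCf = true := by decide +kernel
theorem T3 : Sp63.Q.toDat.T = Sp62.Q.toDat.T := rfl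
theorem fwd3_ok : fwdCj C 2880 2 Sp63.Q.toDat.T gc XCf = true := by rw [T3]; exact fwd_ok
theorem base_ok : baseCj C 2880 XCf = true := by decide +kernel

/-- the points -/
def e (a : ℕ) : CjR ρ := toCj ρ (C.dec (XCf a))

theorem act2 : Act Sp62.Q.toDat.n Sp62.Q.toDat.k g e Sp62.Q.toDat.T Sp62.Q.toDat.pi Sp62.Q.toDat.pq :=
  act_cj ρ C hgc fwd_ok (baseCj_spec base_ok) Sp62.Q.toDat rfl rfl rfl rfl rfl (by decide) Sp62.tab1_ok Sp62.tab2_ok
    Sp62.tab3_ok

theorem act3 : Act Sp63.Q.toDat.n Sp63.Q.toDat.k g e Sp63.Q.toDat.T Sp63.Q.toDat.pi Sp63.Q.toDat.pq :=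
  act_cj ρ C hgc fwd3_ok (baseCj_spec base_ok) Sp63.Q.toDat rfl rfl rfl rfl rfl (by decide) Sp63.tab1_ok Sp63.tab2_ok
    Sp63.tab3_ok

/-! ### the stabilizer -/

/-- generators of the stabilizer -/
def h (i : ℕ) : G := if i = 0 then ev g wA else ev g wB

theorem hhc : ∀ i < 2, ρm (h i) = fc.dec 6 (hcd i) := by
  intro i hi
  interval_cases i
  · exact word_spec (cm := fc.mm 6) hcm hgc hgi dec_one (v := wA) (by decide) (by decide +kernel)
  · exact word_spec (cm := fc.mm 6) hcm hgc hgi dec_one (v := wB) (by decide) (by decide +kernel)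

theorem hhi : ∀ i < 2, ρm (h i)⁻¹ = fc.dec 6 (hid i) := by
  intro i hi
  interval_cases i
  · exact inv_code (hhc 0 (by norm_num)) (by decide +kernel)
  · exact inv_code (hhc 1 (by norm_num)) (by decide +kernel)

def YCf (a : ℕ) : ℕ := gt YC 36 68719476735 a

theorem hfwd_ok : fwdCj C 72 2 Sp62H2.Q.toDat.T hcd YCf = true := by decide +kernel
theorem hfwd3_ok : fwdCj C 72 2 Sp62H3.Q.toDat.T hcd YCf = true := by decide +kernel
theorem hbase_ok : baseCj C 72 YCf = true := by decide +kernel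

def eh (a : ℕ) : CjR ρ := toCj ρ (C.dec (YCf a))

theorem hact2 : Act Sp62H2.Q.toDat.n Sp62H2.Q.toDat.k h eh Sp62H2.Q.toDat.T Sp62H2.Q.toDat.pi Sp62H2.Q.toDat.pq :=
  act_cj ρ C hhc hfwd_ok (baseCj_spec hbase_ok) Sp62H2.Q.toDat rfl rfl rfl rfl rfl (by decide) Sp62H2.tab1_ok
    Sp62H2.tab2_ok Sp62H2.tab3_ok

theorem hact3 : Act Sp62H3.Q.toDat.n Sp62H3.Q.toDat.k h eh Sp62H3.Q.toDat.T Sp62H3.Q.toDat.pi Sp62H3.Q.toDat.pq :=
  act_cj ρ C hhc hfwd3_ok (baseCj_spec hbase_ok) Sp62H3.Q.toDat rfl rfl rfl rfl rfl (by decide) Sp62H3.tab1_ok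
    Sp62H3.tab2_ok Sp62H3.tab3_ok

theorem h_pow : ∀ i < 2, h i ^ 7 = 1 := by
  intro i hi
  apply ρm_inj
  rw [map_pow, hhc i hi, map_one]
  interval_cases i <;> decide +kernel

theorem h_ord : orderOf (h 0) = 7 := by
  haveI : Fact (Nat.Prime 7) := ⟨by norm_num⟩
  apply orderOf_eq_prime (h_pow 0 (by norm_num))
  intro he
  have h1 := hhc 0 (by norm_num)
  rw [he, map_one] at h1
  revert h1
  decide +kernel

/-- the subgroup generated by the `h i` -/
def L : Subgroup G := Subgroup.closure {z | ∃ i < 2, z = h i}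

theorem L_card : 504 ≤ Nat.card L := by
  have h1 := card_ge hact2 (zpowers (h 0)) (by rw [zpowers_le]; exact subset_closure ⟨0, by decide, rfl⟩) (by
    intro y hy
    refine zpowers_smul ?_ hy
    show h 0 • toCj ρ (C.dec (YCf 0)) = toCj ρ (C.dec (YCf 0))
    rw [cj_smul_iff, ρ_val, hhc 0 (by norm_num)]
    rfl)
  rw [Nat.card_zpowers, h_ord] at h1
  exact h1

theorem L_fix : ∀ y ∈ L, y • e 0 = e 0 := by
  have h1 : L ≤ MulAction.stabilizer G (e 0) := by
    rw [L, closure_le]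
    rintro _ ⟨i, hi, rfl⟩
    show h i • toCj ρ (C.dec (XCf 0)) = toCj ρ (C.dec (XCf 0))
    rw [cj_smul_iff, ρ_val, hhc i hi]
    have h2 : ∀ i < 2, C.dec (hcd i) * C.dec (XCf 0) = C.dec (XCf 0) * C.dec (hcd i) := by
      intro i hi
      apply C.eqm_spec
      interval_cases i <;> decide +kernel
    exact h2 i hi
  exact fun y hy => h1 hy

theorem gen : Subgroup.closure {z | ∃ i < 2, z = g i} = ⊤ := by
  refine gen_of_card_ge act2 (c := 504) card_G L ?_ L_fix L_card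
  rw [L, closure_le]
  rintro _ ⟨i, hi, rfl⟩
  interval_cases i
  · exact word_mem (v := wA) (by decide)
  · exact word_mem (v := wB) (by decide)

theorem L_eq : L = MulAction.stabilizer G (e 0) := stab_eq act2 (c := 504) card_G gen L L_fix L_card

/-- the stabilizer -/
abbrev H : Subgroup G := MulAction.stabilizer G (e 0)

theorem card_H : Nat.card H = 504 := by
  have h1 := act2.card_stabilizer gen
  rw [card_G] at h1
  exact Nat.eq_of_mul_eq_mul_left act2.pos (h1.trans (by rfl))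

theorem h_mem (i : ℕ) : h i ∈ H := by
  show h i ∈ MulAction.stabilizer G (e 0)
  rw [← L_eq]
  unfold h
  split_ifs
  · exact subset_closure ⟨0, by decide, rfl⟩
  · exact subset_closure ⟨1, by decide, rfl⟩

/-- generators of the stabilizer -/
def h' (i : ℕ) : H := ⟨h i, h_mem i⟩

theorem hgen : Subgroup.closure {z | ∃ i < 2, z = h' i} = ⊤ := closure_restrict H h' (fun _ _ => rfl) L_eq

/-- representation of the stabilizer -/
def ρH : H →* Matrix (Fin 6) (Fin 6) K := ρm.comp H.subtype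

theorem ρH_inj : Function.Injective ρH := ρm_inj.comp Subtype.val_injective

theorem hhc' : ∀ i < 2, ρH (h' i) = fc.dec 6 (hcd i) := hhc

theorem hhi' : ∀ i < 2, ρH (h' i)⁻¹ = fc.dec 6 (hid i) := hhi

theorem hrel2 : ∀ j < Sp62H2.Q.toDat.J, ev h' (Sp62H2.Q.toDat.W j) = 1 :=
  relc_spec (cm := fc.mm 6) (one := one6) (ρ := ρH) ρH_inj hcm hhc' hhi' dec_one (Dat.wOk_iff Sp62H2.w_ok) (by decide +kernel)

theorem hrel3 : ∀ j < Sp62H3.Q.toDat.J, ev h' (Sp62H3.Q.toDat.W j) = 1 :=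
  relc_spec (cm := fc.mm 6) (one := one6) (ρ := ρH) ρH_inj hcm hhc' hhi' dec_one (Dat.wOk_iff Sp62H3.w_ok) (by decide +kernel)

theorem htwo : PStemDvd 2 H 1 := by
  haveI : Fact (Nat.Prime 2) := ⟨Nat.prime_two⟩
  exact pStemDvd_of_checks' (s := 1) (q := 1) (N := 1) (c := 7) Sp62H2.Q.toDat (act_restrict hact2 H h' fun _ _ => rfl) hgen card_H (by norm_num)
    Sp62H2.w_ok hrel2 Sp62H2.nr Sp62H2.nr_ok Sp62H2.zl_ok rfl rfl (by decide) Sp62H2.chk_ok Sp62H2.gen_ok Sp62H2.par_ok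
    (by intro r hr; cases hr) rfl

theorem hthree : PStemDvd 3 H 1 := by
  haveI : Fact (Nat.Prime 3) := ⟨Nat.prime_three⟩
  exact pStemDvd_of_checks' (s := 1) (q := 1) (N := 1) (c := 7) Sp62H3.Q.toDat (act_restrict hact3 H h' fun _ _ => rfl) hgen card_H (by norm_num)
    Sp62H3.w_ok hrel3 Sp62H3.nr Sp62H3.nr_ok Sp62H3.zl_ok rfl rfl (by decide) Sp62H3.chk_ok Sp62H3.gen_ok Sp62H3.par_ok
    (by intro r hr; cases hr) rfl

theorem hidx (p : ℕ) [Fact p.Prime] (hp : ¬ p ∣ 7) : ¬ p ∣ (commutator H).index :=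
  not_dvd_of_odds (odds_of_gen hgen 7 hp fun i hi => Subtype.ext (h_pow i hi))

/-! ### the group -/

theorem rel2 : ∀ j < Sp62.Q.toDat.J, ev g (Sp62.Q.toDat.W j) = 1 :=
  relc_spec (cm := fc.mm 6) (one := one6) ρm_inj hcm hgc hgi dec_one (Dat.wOk_iff Sp62.w_ok) (by decide +kernel)

theorem rel3 : ∀ j < Sp63.Q.toDat.J, ev g (Sp63.Q.toDat.W j) = 1 :=
  relc_spec (cm := fc.mm 6) (one := one6) ρm_inj hcm hgc hgi dec_one (Dat.wOk_iff Sp63.w_ok) (by decide +kernel)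

theorem two : PStemDvd 2 G 2 := by
  haveI : Fact (Nat.Prime 2) := ⟨Nat.prime_two⟩
  exact pStemDvd_of_checks (s := 2) (q := 2) (N := 2) Sp62.Q.toDat act2 gen htwo (hidx 2 (by norm_num))
    Sp62.w_ok rel2 Sp62.nr Sp62.nr_ok Sp62.zl_ok rfl rfl (by decide) Sp62.chk_ok Sp62.gen_ok Sp62.par_ok (by decide) rfl

theorem three : PStemDvd 3 G 1 := by
  haveI : Fact (Nat.Prime 3) := ⟨Nat.prime_three⟩
  exact pStemDvd_of_checks (s := 1) (q := 1) (N := 1) Sp63.Q.toDat act3 gen hthree (hidx 3 (by norm_num))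
    Sp63.w_ok rel3 Sp63.nr Sp63.nr_ok Sp63.zl_ok rfl rfl (by decide) Sp63.chk_ok Sp63.gen_ok Sp63.par_ok
    (by intro r hr; cases hr) rfl

theorem stem_two : StemDvd G 2 := by
  apply StemDvd.of_forall
  intro p hp
  haveI : Fact p.Prime := ⟨hp⟩
  by_cases h2 : p = 2
  · subst h2; exact two
  by_cases h3 : p = 3
  · subst h3; exact three.mono (one_dvd _)
  refine PStemDvd.mono ?_ (one_dvd 2)
  apply Cfsg.Agent.Lib.H92Stem.pStemDvd_of_sq
  rw [card_G]
  have h4 : p.Coprime (2 ^ 9 * 3 ^ 4) :=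
    Nat.Coprime.mul_right (Nat.Coprime.pow_right _ ((Nat.coprime_primes hp Nat.prime_two).2 h2))
      (Nat.Coprime.pow_right _ ((Nat.coprime_primes hp Nat.prime_three).2 h3))
  exact sq_ndvd (a := 2 ^ 9 * 3 ^ 4) (b := 35) hp h4 (by decide +kernel)

/-! ### 28 quadratic forms -/

/-- vectors -/
def dv (x : ℕ) : Fin 6 → K := fun i => ((gt x 1 1 i : ℕ) : K)

theorem dv_surj : ∀ v : Fin 6 → K, ∃ x < 64, dv x = v := by decide +kernel

theorem gv_ok : ∀ i < 2, ∀ x < 64, (fc.dec 6 (gc i)).mulVec (dv x) = dv (Q28.GV i x) := by decide +kernel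

/-- code of a vector -/
def cv (v : Fin 6 → K) : ℕ := pk 1 (fun i => if h : i < 6 then (v ⟨i, h⟩).val else 0) 6

theorem cv_dv : ∀ x < 64, cv (dv x) = x := by decide +kernel

theorem gv_lt : ∀ i < 2, ∀ x < 64, Q28.GV i x < 64 := by decide +kernel

/-- the forms -/
def eq (a : ℕ) : ColR ρm := toCol ρm fun v => gt (Q28.CTf a) 1 1 (cv v)

theorem q_ne : ∀ a < 28, (∀ x < 64, gt (Q28.CTf a) 1 1 x = gt (Q28.CTf 0) 1 1 x) → a = 0 := by decide +kernel

theorem actQ : Act Q28.Dq.n Q28.Dq.k g eq Q28.Dq.T Q28.Dq.pi Q28.Dq.pq := by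
  refine Dat.act_of (by decide) Q28.tab1_ok Q28.tab2_ok Q28.tab3_ok ?_ ?_
  · intro i hi a ha
    apply col_smul
    intro v
    obtain ⟨x, hx, rfl⟩ := dv_surj v
    rw [hgc i hi, gv_ok i hi x hx, cv_dv x hx, cv_dv _ (gv_lt i hi x hx)]
    exact fwdCol_spec Q28.fwd_ok i hi a ha x hx
  · intro a ha he
    apply q_ne a ha
    intro x hx
    have h1 := congrFun he (dv x)
    have h1 : gt (Q28.CTf a) 1 1 (cv (dv x)) = gt (Q28.CTf 0) 1 1 (cv (dv x)) := h1
    rwa [cv_dv x hx] at h1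

/-- the transvection -/
def t : G := ev g Q28.WT

theorem t_sq : t * t = 1 := by
  have h1 : ∃ c, ρm t = fc.dec 6 c ∧ fc.eqm 6 c c one6 one6 = true :=
    ⟨evc (fc.mm 6) (ltc gc gi) Q28.WT one6, word_spec (cm := fc.mm 6) hcm hgc hgi dec_one (v := Q28.WT) (by decide) (Nat.beq_refl _), by decide +kernel⟩
  obtain ⟨c, h1, h2⟩ := h1
  apply ρm_inj
  rw [map_mul, h1, dd c c h2, map_one]

theorem SW1 : ∀ p ∈ Q28.SW, p.1 ≠ p.2 := by decide +kernel
theorem SW2 : Q28.SW.Pairwise fun p q => p.1 ≠ q.1 ∧ p.1 ≠ q.2 ∧ p.2 ≠ q.1 ∧ p.2 ≠ q.2 := by decide +kernel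

theorem SW3 : ∀ a : Fin 28, pt Q28.Dq.T Q28.WT a = ((Q28.SW.map fun p => Equiv.swap p.1 p.2).prod a : ℕ) := by
  decide +kernel

theorem WT_ok : ∀ l ∈ Q28.WT, l < 2 * 2 := by unfold Q28.WT; decide

/-- the permutation representation -/
noncomputable def pr28 : G →* Equiv.Perm (Fin 28) := permRep actQ gen

theorem t_perm : pr28 t = (Q28.SW.map fun p => Equiv.swap p.1 p.2).prod := by
  apply Equiv.ext
  intro a
  apply Fin.ext
  rw [← SW3 a]
  exact permRep_apply actQ gen (v := Q28.WT) WT_ok a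

theorem exists_two : ∃ (Γ : Type) (_ : Group Γ) (_ : Finite Γ) (σ : Γ →* G), Cfsg.IsStemExtension σ ∧ Nat.card σ.ker = 2 :=
  H92SpinCover.exists_stem_two perfect_G pr28 t_sq Q28.SW SW1 SW2 t_perm (by decide)

theorem mult : Cfsg.HasCyclicSchurMultiplier G 2 :=
  hasCyclic_of_squarefree Nat.prime_two.squarefree stem_two exists_two

end Cfsg.Agent.Lib.CovSp62
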