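import Cfsg.Agent.Lib.CovH
import Cfsg.Agent.Lib.SMSz8a
import Cfsg.Agent.Lib.SMSz8b
import Cfsg.Agent.Lib.SMSz8c
import Cfsg.Agent.Lib.SzLie2
import Cfsg.Agent.S1162
import Cfsg.Agent.S1163

/-!
The Schur multiplier of Sz(8) (lead)
-/

set_option autoImplicit false

namespace Cfsg.Agent.Lib.CovSz8

open Subgroup Cfsg.Agent.Lib.H58SM Cfsg.Agent.Lib.Cov Cfsg.Agent.Lib.K8 Cfsg.Agent.Lib.SzLie
  Cfsg.Agent.Lib.SchurSylow

theorem hF : Fintype.card K8 = 2 ^ (2 * 1 + 1) := card_K8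

/-- the group -/
abbrev G := ↥(Cfsg.Lie.Sz K8 (2 ^ (1 + 1)))

def one4 : ℕ := 0x200040008001

theorem dec_one : fc8.dec 4 one4 = 1 := by decide +kernel

/-- codes -/
def C : Codes (Matrix (Fin 4) (Fin 4) K8) := fc8.codes 4 one4 dec_one

def gai : ℕ := 0x701216d904
def gbi : ℕ := 0x7010145824

def gc (i : ℕ) : ℕ := ([ga, gb] : List ℕ).getD i 0
def gi (i : ℕ) : ℕ := ([gai, gbi] : List ℕ).getD i 0

theorem dd (a b : ℕ) (h : fc8.eqm 4 a b one4 one4 = true) : fc8.dec 4 a * fc8.dec 4 b = 1 := by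
  have := C.eqm_spec (a := a) (b := b) (c := one4) (d := one4) h
  have h1 : C.dec one4 = 1 := dec_one
  rw [h1, mul_one] at this
  exact this

/-- generators as units -/
def uA : GL (Fin 4) K8 := ⟨fc8.dec 4 ga, fc8.dec 4 gai, dd _ _ (by decide +kernel), dd _ _ (by decide +kernel)⟩
def uB : GL (Fin 4) K8 := ⟨fc8.dec 4 gb, fc8.dec 4 gbi, dd _ _ (by decide +kernel), dd _ _ (by decide +kernel)⟩

theorem memA : uA ∈ Cfsg.Lie.Sz K8 (2 ^ (1 + 1)) := by
  apply Subgroup.subset_closure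
  constructor
  · rw [mem_Sp4_iff]
    show (fc8.dec 4 ga).transpose * Tm K8 * fc8.dec 4 ga = Tm K8
    decide +kernel
  · show Cfsg.Lie.star4 (fc8.dec 4 ga) = (fc8.dec 4 ga).map (fun x => x ^ (2 ^ (1 + 1)))
    decide +kernel

theorem memB : uB ∈ Cfsg.Lie.Sz K8 (2 ^ (1 + 1)) := by
  apply Subgroup.subset_closure
  constructor
  · rw [mem_Sp4_iff]
    show (fc8.dec 4 gb).transpose * Tm K8 * fc8.dec 4 gb = Tm K8
    decide +kernel
  · show Cfsg.Lie.star4 (fc8.dec 4 gb) = (fc8.dec 4 gb).map (fun x => x ^ (2 ^ (1 + 1)))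
    decide +kernel

/-- generators -/
def g (i : ℕ) : G := if i = 0 then ⟨uA, memA⟩ else ⟨uB, memB⟩

/-- the inclusion -/
def ρ : G →* GL (Fin 4) K8 := Subgroup.subtype _

/-- the representation -/
def ρm : G →* Matrix (Fin 4) (Fin 4) K8 := (Units.coeHom _).comp ρ

theorem ρm_inj : Function.Injective ρm := Units.val_injective.comp Subtype.val_injective

theorem hgc : ∀ i < 2, ρm (g i) = fc8.dec 4 (gc i) := by
  intro i hi
  interval_cases i <;> rfl

theorem hgi : ∀ i < 2, ρm (g i)⁻¹ = fc8.dec 4 (gi i) := by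
  intro i hi
  interval_cases i <;> rfl

def XCf (a : ℕ) : ℕ := gt XC 48 281474976710655 a

theorem fwd_ok : fwdCj C 2240 2 Sz8.Q.toDat.T gc XCf = true := by decide +kernel
theorem fwd2_ok : fwdCj C 2240 2 Dt.T gc XCf = true := by decide +kernel
theorem base_ok : baseCj C 2240 XCf = true := by decide +kernel

instance finG : Finite G := inferInstance

theorem card_G : Nat.card G = 29120 := by
  rw [(S1163.result (F := K8) (m := 1) (le_refl 1) hF).1]
  norm_num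

theorem perfect_G : commutator G = ⊤ := by
  haveI : IsSimpleGroup G := S1162.result (F := K8) (m := 1) (le_refl 1) hF
  refine perfect_of_simple (a := g 0) (b := g 1) fun h => ?_
  have h1 := congrArg ρm h
  rw [map_mul, map_mul, hgc 0 (by norm_num), hgc 1 (by norm_num)] at h1
  revert h1
  decide +kernel

/-! ### the action -/

/-- the points -/
def e (a : ℕ) : CjR ρ := toCj ρ (C.dec (XCf a))

theorem act1 : Act Sz8.Q.toDat.n Sz8.Q.toDat.k g e Sz8.Q.toDat.T Sz8.Q.toDat.pi Sz8.Q.toDat.pq :=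
  act_cj ρ C hgc fwd_ok (baseCj_spec base_ok) Sz8.Q.toDat rfl rfl rfl rfl rfl (by decide) Sz8.tab1_ok Sz8.tab2_ok
    Sz8.tab3_ok

theorem act2 : Act Dt.n Dt.k g e Dt.T Dt.pi Dt.pq :=
  act_cj ρ C hgc fwd2_ok (baseCj_spec base_ok) Dt rfl rfl rfl rfl rfl (by decide) tab1_ok tab2_ok tab3_ok

/-- element of order 13 -/
def wx : List ℕ := [0, 3, 1, 3, 3, 1, 2, 2, 2, 0, 2, 2, 0, 2]

theorem hcm (a b : ℕ) : fc8.dec 4 (fc8.mm 4 a b) = fc8.dec 4 a * fc8.dec 4 b := fc8.dec_mm 4 rfl a b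

theorem x_code : ρm (ev g wx) = fc8.dec 4 (XCf 0) :=
  word_spec (cm := fc8.mm 4) hcm hgc hgi dec_one (by decide) (by decide +kernel)

theorem x_ord : orderOf (ev g wx) = 13 := by
  haveI : Fact (Nat.Prime 13) := ⟨by norm_num⟩
  apply orderOf_eq_prime
  · apply ρm_inj
    rw [map_pow, x_code, map_one]
    decide +kernel
  · intro h
    have h1 := x_code
    rw [h, map_one] at h1
    revert h1
    decide +kernel

theorem gen : closure {z | ∃ i < Sz8.Q.toDat.k, z = g i} = ⊤ := by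
  refine gen_of_card act1 (c := 13) card_G (zpowers (ev g wx)) ?_ ?_ ?_
  · rw [zpowers_le]
    exact word_mem (by decide)
  · intro y hy
    refine zpowers_smul ?_ hy
    rw [e, cj_smul_iff]
    have : ((ρ (ev g wx) : GL (Fin 4) K8) : Matrix (Fin 4) (Fin 4) K8) = fc8.dec 4 (XCf 0) := x_code
    rw [this]; rfl
  · rw [Nat.card_zpowers, x_ord]

theorem rel1 : ∀ j < Sz8.Q.toDat.J, ev g (Sz8.Q.toDat.W j) = 1 :=
  relc_spec (cm := fc8.mm 4) (one := one4) ρm_inj hcm hgc hgi dec_one (Dat.wOk_iff Sz8.w_ok) (by decide +kernel)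

theorem rel2 : ∀ j < Dt.J, ev g (Dt.W j) = 1 :=
  relc_spec (cm := fc8.mm 4) (one := one4) ρm_inj hcm hgc hgi dec_one (Dat.wOk_iff w_ok) (by decide +kernel)

theorem two : PStemDvd 2 G 4 := by
  haveI : Fact (Nat.Prime 2) := ⟨Nat.prime_two⟩
  exact pStemDvd_of_checks' (s := 2) (q := 2) (N := 4) (c := 13) Sz8.Q.toDat act1 gen card_G (by norm_num)
    Sz8.w_ok rel1 Sz8.nr Sz8.nr_ok Sz8.zl_ok rfl rfl (by decide) Sz8.chk_ok Sz8.gen_ok Sz8.par_ok (by decide) rfl

theorem stem_four : StemDvd G 4 := by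
  apply StemDvd.of_forall
  intro p hp
  haveI : Fact p.Prime := ⟨hp⟩
  by_cases h2 : p = 2
  · subst h2; exact two
  refine PStemDvd.mono ?_ (one_dvd 4)
  apply Cfsg.Agent.Lib.H92Stem.pStemDvd_of_sq
  rw [card_G]
  intro hd
  have h3 : (p ^ 2).Coprime (2 ^ 6) := Nat.Coprime.pow 2 6 ((Nat.coprime_primes hp Nat.prime_two).2 h2)
  have h4 : p ^ 2 ∣ 455 := by
    refine h3.dvd_of_dvd_mul_left ?_
    exact hd
  have h5 : Squarefree 455 := by decide +kernel
  rw [sq] at h4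
  exact hp.one_lt.ne' (Nat.isUnit_iff.1 (h5 p h4))

theorem quot : IsQuot G (Multiplicative (ZMod 2 × ZMod 2)) :=
  isQuot_two Dt D W1 W2 act2 rfl rfl (fun _ => rfl) gen perfect_G w_ok rel2 rows_ok im_ok par_ok wt_W1 wt_W2 o ord_W1 ord_W2
    (by decide) (by decide) 2 (by decide) val_W1_0 val_W2_0 3 (by decide) val_W1_1 val_W2_1

theorem mult : Cfsg.HasSchurMultiplier G (Multiplicative (ZMod 2 × ZMod 2)) := by
  apply hasSchur_of
  · have : Nat.card (Multiplicative (ZMod 2 × ZMod 2)) = 4 := by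
      show Nat.card (ZMod 2 × ZMod 2) = 4
      rw [Nat.card_prod, Nat.card_zmod]
    rw [this]; exact stem_four
  · exact quot

end Cfsg.Agent.Lib.CovSz8
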