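import Cfsg.Agent.Lib.CovU3c

set_option autoImplicit false

/-! `PSU₃(q)`, `q` a power of three, is the union of the conjugates of two proper subgroups (helper50). -/

namespace Cfsg.Agent.Lib.CovU3

open Module Cfsg.Agent.Lib.HermAlg Cfsg.Agent.Lib.CovU4 Cfsg.Agent.Lib.HermMat Cfsg.Agent.Lib.ClUnitary Matrix

section gen

variable {F : Type*} [Field F] [Fintype F] {q : ℕ}

theorem map_ne_top {n : ℕ} {K : Subgroup (SU n F q)} (hcen : Subgroup.center (SU n F q) ≤ K) (g : SU n F q) (hg : g ∉ K) :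
    K.map (QuotientGroup.mk' (Subgroup.center (SU n F q))) ≠ ⊤ := by
  intro htop
  have h1 : (QuotientGroup.mk' (Subgroup.center (SU n F q)) g) ∈ K.map (QuotientGroup.mk' (Subgroup.center (SU n F q))) := by
    rw [htop]; trivial
  obtain ⟨s, hs, hsg⟩ := h1
  have h2 : s⁻¹ * g ∈ Subgroup.center (SU n F q) := (QuotientGroup.eq).1 hsg
  apply hg
  have h3 : g = s * (s⁻¹ * g) := by group
  rw [h3]
  exact K.mul_mem hs (hcen h2)

theorem exists_cbrt [CharP F 3] (d : F) : ∃ c : F, c ^ 3 = d := by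
  have h1 : Function.Injective (fun x : F => x ^ 3) := frobenius_inj F 3
  exact Finite.surjective_of_injective h1 d

/-- scaling an isometry into `SU₃` -/
theorem scaleSU [CharP F 3] (hF : Fintype.card F = q ^ 2) (A : (Fin 3 → F) ≃ₗ[F] (Fin 3 → F))
    (hA : ∀ u v, hermForm 3 F q (A u) (A v) = hermForm 3 F q u v) :
    ∃ (x : SU 3 F q) (c : F), c ≠ 0 ∧ ∀ v, act x v = c • A v := by
  have hq := two_le_q hF
  set M := LinearMap.toMatrix' (A : (Fin 3 → F) →ₗ[F] (Fin 3 → F)) with hM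
  have hm : ∀ v, M *ᵥ v = A v := by
    intro v
    rw [hM, ← Matrix.toLin'_apply, Matrix.toLin'_toMatrix']
    rfl
  have hMu : IsUn q M := by
    intro u v
    rw [hm, hm]; exact hA u v
  have hdet := hMu.det_pow hF
  have hd0 : M.det ≠ 0 := by
    intro h
    rw [h, zero_pow (by omega)] at hdet
    exact zero_ne_one hdet
  obtain ⟨c, hc⟩ := exists_cbrt (F := F) (M.det)⁻¹
  have hc0 : c ≠ 0 := by
    rintro rfl
    rw [zero_pow (by norm_num)] at hc
    exact hd0 (inv_eq_zero.1 hc.symm)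
  have hcn : c ^ (q + 1) = 1 := by
    apply cube_inj
    rw [← pow_mul, mul_comm, pow_mul, hc, inv_pow, hdet, inv_one]
  have hcM : IsUn q (c • M) := by
    intro u v
    rw [smul_mulVec, smul_mulVec, hermForm_smul_left, hermForm_smul_right, hMu, ← mul_assoc, ← pow_succ', hcn, one_mul]
  refine ⟨mkSU (c • M) hcM ?_, c, hc0, ?_⟩
  · rw [det_smul, Fintype.card_fin, hc, inv_mul_cancel₀ hd0]
  · intro v
    rw [act_mkSU, smul_mulVec, hm]

variable {L : Type*} [Field L] [Finite L] [Algebra F L]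

omit [Finite L] in
theorem powQ (X : L) (Q i j : ℕ) : (X ^ (Q ^ j)) ^ (Q ^ i) = X ^ (Q ^ (i + j)) := by
  rw [← pow_mul, ← pow_add, add_comm]

/-- semilinear maps of `L` inside `SU₃` -/
def Kg (θ : (Fin 3 → F) ≃ₗ[F] L) : Subgroup (SU 3 F q) where
  carrier := {g | ∃ (l : L) (i : ℕ), ∀ x, θ (act g x) = l * (θ x) ^ ((q ^ 2) ^ i)}
  one_mem' := ⟨1, 0, fun x => by rw [map_one]; simp⟩
  mul_mem' := by
    rintro a b ⟨l, i, h1⟩ ⟨m, j, h2⟩
    refine ⟨l * m ^ ((q ^ 2) ^ i), i + j, ?_⟩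
    intro x
    rw [map_mul, Module.End.mul_apply, h1, h2, mul_pow, powQ, mul_assoc]
  inv_mem' := by
    rintro a ⟨l, i, h1⟩
    obtain ⟨N, hN⟩ := exists_pow a
    have h2 : a⁻¹ = a ^ N := by
      rw [inv_eq_iff_mul_eq_one, ← pow_succ']; exact hN
    rw [h2]
    have h3 : ∀ k : ℕ, ∃ (l : L) (i : ℕ), ∀ x, θ (act (a ^ k) x) = l * (θ x) ^ ((q ^ 2) ^ i) := by
      intro k
      induction k with
      | zero => exact ⟨1, 0, fun x => by rw [pow_zero, map_one]; simp⟩
      | succ k ih =>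
        obtain ⟨m, j, h4⟩ := ih
        refine ⟨l * m ^ ((q ^ 2) ^ i), i + j, ?_⟩
        intro x
        rw [pow_succ', map_mul, Module.End.mul_apply, h1, h4, mul_pow, powQ, mul_assoc]
    exact h3 N

theorem mem_Kg {θ : (Fin 3 → F) ≃ₗ[F] L} {g : SU 3 F q} :
    g ∈ Kg θ ↔ ∃ (l : L) (i : ℕ), ∀ x, θ (act g x) = l * (θ x) ^ ((q ^ 2) ^ i) := Iff.rfl

theorem center_le (hF : Fintype.card F = q ^ 2) (θ : (Fin 3 → F) ≃ₗ[F] L) :
    Subgroup.center (SU 3 F q) ≤ Kg θ := by
  intro g hg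
  obtain ⟨c, hc⟩ := (center_SU hF (by norm_num) g).1 hg
  refine ⟨algebraMap F L c, 0, ?_⟩
  intro x
  rw [pow_zero, pow_one, act_apply, hc]
  have : Matrix.scalar (Fin 3) c *ᵥ x = c • x := by
    rw [Matrix.scalar_apply, ← Matrix.smul_one_eq_diagonal, smul_mulVec, one_mulVec]
  rw [this, map_smul, Algebra.smul_def]

/-- `Kg` is proper -/
theorem exists_not_mem [CharP F 3] (hF : Fintype.card F = q ^ 2) (hfr : finrank F L = 3) (θ : (Fin 3 → F) ≃ₗ[F] L) :
    ∃ g : SU 3 F q, g ∉ Kg θ := by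
  obtain ⟨c, hc, hc2⟩ := exists_norm_one_ne hF
  refine ⟨dgSU (show (0 : Fin 3) ≠ 1 by decide) c hc, ?_⟩
  rintro ⟨l, i, h⟩
  set g : SU 3 F q := dgSU (show (0 : Fin 3) ≠ 1 by decide) c hc with hg
  have hgx : ∀ x, act g x = (Matrix.diagonal fun k : Fin 3 => ((if k = 0 then c else 1) * (if k = 1 then c⁻¹ else 1) : Fˣ).val) *ᵥ x :=
    fun x => rfl
  have hfix : act g (Pi.single 2 1) = Pi.single 2 1 := by
    rw [hgx]
    ext k
    rw [mulVec_diagonal]
    fin_cases k <;> simp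
  have hpw : ∀ (j : ℕ) (X : L), X ^ (((q ^ 2) ^ 3) ^ j) = X := by
    intro j
    induction j with
    | zero => intro X; simp
    | succ j ih =>
      intro X
      rw [pow_succ, pow_mul, ih, ← pow_mul]
      exact pow6 hF hfr X
  have hpw' : ∀ X : L, ((X ^ ((q ^ 2) ^ i)) ^ ((q ^ 2) ^ i)) ^ ((q ^ 2) ^ i) = X := by
    intro X
    rw [← pow_mul, ← pow_mul]
    conv_rhs => rw [← hpw i X]
    congr 1
    ring
  have hcube : ∀ x, θ (act g (act g (act g x))) = (l * (l ^ ((q ^ 2) ^ i) * (l ^ ((q ^ 2) ^ i)) ^ ((q ^ 2) ^ i))) * θ x := by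
    intro x
    rw [h, h, h, mul_pow, mul_pow, mul_pow, hpw' (θ x)]
    ring
  have h1 := hcube (Pi.single 2 1)
  rw [hfix, hfix, hfix] at h1
  have ht : θ (Pi.single 2 1) ≠ 0 := by
    intro h0
    have := θ.map_eq_zero_iff.1 h0
    have h2 := congrFun this 2
    simp at h2
  have h2 : l * (l ^ ((q ^ 2) ^ i) * (l ^ ((q ^ 2) ^ i)) ^ ((q ^ 2) ^ i)) = 1 :=
    mul_right_cancel₀ ht (by rw [one_mul]; exact h1.symm)
  have h3 := hcube (Pi.single 0 1)
  rw [h2, one_mul] at h3
  have h4 := congrFun (θ.injective h3) 0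
  rw [hgx, hgx, hgx, mulVec_diagonal, mulVec_diagonal, mulVec_diagonal] at h4
  simp at h4
  have h5 : (c : F) ^ 3 = 1 := by linear_combination h4
  apply hc2
  have : c = 1 := Units.ext (cube_inj h5)
  rw [this, one_pow]

end gen

/-- the covering, for a given cubic extension `L` -/
theorem main {F : Type*} [Field F] [Fintype F] {q a : ℕ} [CharP F 3] (hq : Fintype.card F = q ^ 2) (ha : q = 3 ^ a)
    (L : Type*) [Field L] [Finite L] [Algebra F L] (hfr : finrank F L = 3) :
    ∃ H K : Subgroup (PSU 3 F q), H ≠ ⊤ ∧ K ≠ ⊤ ∧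
      ∀ g : PSU 3 F q, ∃ x : PSU 3 F q, x * g * x⁻¹ ∈ H ∨ x * g * x⁻¹ ∈ K := by
  haveI : FiniteDimensional F L := Module.finite_of_finrank_pos (by omega)
  have hs0 : (Pi.single 0 1 : Fin 3 → F) ≠ 0 := by
    intro h
    have := congrFun h 0
    simp at this
  obtain ⟨θ0, hθ0, hθs⟩ := exists_coord hq (isHermL (L := L) ha hq hfr) hfr (phi hq) (phi_isom ha hq hfr)
    (phi_cube hq hfr) (phi_ne hq hfr)
  have hcj : ∀ (g x : SU 3 F q), x * g * x⁻¹ ∈ Kg θ0 → ∃ y : PSU 3 F q, y * (g : PSU 3 F q) * y⁻¹ ∈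
      (Kg θ0).map (QuotientGroup.mk' (Subgroup.center (SU 3 F q))) := by
    intro g x hx
    exact ⟨(x : PSU 3 F q), x * g * x⁻¹, hx, rfl⟩
  refine ⟨pstab 3 F q (Submodule.span F {(Pi.single 0 1 : Fin 3 → F)}),
    (Kg θ0).map (QuotientGroup.mk' (Subgroup.center (SU 3 F q))), ?_, ?_, ?_⟩
  · apply pstab_ne_top hq (by norm_num) (swSU hq (show (0 : Fin 3) ≠ 1 by decide))
    intro hs
    have h1 := hs _ (Submodule.mem_span_singleton_self _)
    rw [Submodule.mem_span_singleton] at h1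
    obtain ⟨c, hc⟩ := h1
    have h2 := congrFun hc 1
    rw [Pi.smul_apply, Pi.single_eq_of_ne (by decide), smul_zero, act_apply] at h2
    change 0 = ((Matrix.diagonal (fun k : Fin 3 => ((if k = 0 then (-1) else 1 : Fˣ) : F)) * (Equiv.swap (0 : Fin 3) 1).permMatrix F) *ᵥ (Pi.single 0 1 : Fin 3 → F)) 1 at h2
    rw [mulVec_single_one, col_apply, diagonal_mul] at h2
    simp [Equiv.Perm.permMatrix, PEquiv.toMatrix_apply] at h2
  · obtain ⟨g, hg⟩ := exists_not_mem (q := q) hq hfr θ0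
    exact map_ne_top (center_le hq θ0) g hg
  · intro g
    obtain ⟨g, rfl⟩ := QuotientGroup.mk_surjective g
    obtain ⟨N, hN⟩ := exists_pow g
    have hdet : LinearMap.det (act g) = 1 := by
      have h1 : act g = Matrix.toLin' g.1.1 := rfl
      rw [h1, LinearMap.det_toLin']
      exact g.1.2
    have hinv' : ∀ (x : SU 3 F q) v, act x (act x⁻¹ v) = v := by
      intro x v
      rw [← Module.End.mul_apply, ← map_mul, mul_inv_cancel, map_one]; rfl
    have hNN : (act g) ^ (N + 1) = 1 := by rw [← map_pow, hN, map_one]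
    have hfr3 : finrank F (Fin 3 → F) = 3 := by rw [Module.finrank_fin_fun]
    rcases trich3 (CovU4.isHerm hq) (frob_frob hq) hfr3 (act g) (act_isom g) N hNN hdet with ⟨v, hv, c, hc⟩ | hirr | ⟨hc3, hy⟩
    · obtain ⟨x, hx⟩ := trans_point hq (show (0 : Fin 3) ≠ 1 by decide) hv
      have hv0 : v ≠ 0 := by
        rintro rfl
        rw [hermForm_zero_left] at hv
        exact hv rfl
      obtain ⟨y, hy⟩ := exists_conj' (W := Submodule.span F {(Pi.single 0 1 : Fin 3 → F)}) (W' := Submodule.span F {v})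
        (g := g) (by
          intro w hw
          rw [Submodule.mem_span_singleton] at hw ⊢
          obtain ⟨b, rfl⟩ := hw
          exact ⟨b * c, by rw [map_smul, hc, smul_smul]⟩) x hx (by
          rw [finrank_span_singleton hv0, finrank_span_singleton hs0])
      exact ⟨y, Or.inl hy⟩
    · obtain ⟨θ1, l, hθ1, hl⟩ := irr_coord (L := L) ha hq hfr (CovU4.isHerm hq) hfr3 (act g) (act_isom g) N hNN hirr
      obtain ⟨x, c, hc0, hx⟩ := scaleSU hq (θ1.symm.trans θ0.symm) (by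
        intro u v
        rw [← hθ0]
        simp only [LinearEquiv.trans_apply, LinearEquiv.apply_symm_apply]
        rw [← hθ1]
        simp only [LinearEquiv.apply_symm_apply])
      obtain ⟨y, hy⟩ := hcj g x (by
        refine ⟨l, 0, ?_⟩
        intro v
        rw [map_mul, map_mul, Module.End.mul_apply, Module.End.mul_apply]
        have h1 := hinv' x v
        set w := act x⁻¹ v with hw
        rw [hx] at h1
        rw [hx, ← h1, map_smul, map_smul, pow_zero, pow_one, LinearEquiv.trans_apply, LinearEquiv.trans_apply,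
          LinearEquiv.apply_symm_apply, LinearEquiv.apply_symm_apply, mul_smul_comm]
        congr 1
        apply θ1.injective
        rw [LinearEquiv.apply_symm_apply, hl, LinearEquiv.apply_symm_apply])
      exact ⟨y, Or.inr hy⟩
    · obtain ⟨θ1, hθ1, hs1⟩ := exists_coord hq (CovU4.isHerm (n := 3) hq) hfr3 (act g) (act_isom g) hc3 hy
      obtain ⟨x, c, hc0, hx⟩ := scaleSU hq θ1.symm (by
        intro u v
        rw [← hθ1]
        simp only [LinearEquiv.apply_symm_apply])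
      have hsm : ∀ (c : F) (z : Fin 3 → F), shift (c • z) = c • shift z := by
        intro c z
        ext i
        fin_cases i <;> simp [shift]
      obtain ⟨y, hy⟩ := hcj g x (by
        refine ⟨1, 1, ?_⟩
        intro v
        rw [map_mul, map_mul, Module.End.mul_apply, Module.End.mul_apply]
        have h1 := hinv' x v
        set w := act x⁻¹ v with hw
        have h2 : act x (act g w) = shift v := by
          rw [hx] at h1
          rw [hx, ← h1, hsm]
          congr 1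
          apply θ1.injective
          rw [LinearEquiv.apply_symm_apply, hs1, LinearEquiv.apply_symm_apply]
        rw [h2, hθs, phi_apply, one_mul, pow_one])
      exact ⟨y, Or.inr hy⟩

/-- **`PSU₃(3^a)` has a 2-covering** -/
theorem psu3 {F : Type} [Field F] [Fintype F] (q a : ℕ) (hq : Fintype.card F = q ^ 2) (ha1 : 1 ≤ a) (ha : q = 3 ^ a) :
    ∃ H K : Subgroup (Cfsg.PSU 3 F q), H ≠ ⊤ ∧ K ≠ ⊤ ∧
      ∀ g : Cfsg.PSU 3 F q, ∃ x : Cfsg.PSU 3 F q, x * g * x⁻¹ ∈ H ∨ x * g * x⁻¹ ∈ K := by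
  haveI : CharP F 3 := charF hq ha ha1
  exact main hq ha (FiniteField.Extension F 3 3) (FiniteField.finrank_extension F 3 3)

end Cfsg.Agent.Lib.CovU3
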