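import Cfsg.Agent.Lib.CovU4

set_option autoImplicit false

/-! Isometries of hermitian spaces of dimension three in characteristic three (helper50). -/

namespace Cfsg.Agent.Lib.CovU3

open Module Polynomial Cfsg.Agent.Lib.HermAlg Cfsg.Agent.Lib.CovU4

section general

variable {F : Type*} [Field F] [Finite F] {σ : F →+* F}
  {V : Type*} [AddCommGroup V] [Module F V] [FiniteDimensional F V] {B : V → V → F}

omit [Finite F] in
theorem cube_inj [CharP F 3] {c : F} (hc : c ^ 3 = 1) : c = 1 := by
  have h3 : (3 : F) = 0 := by exact_mod_cast CharP.cast_eq_zero F 3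
  have h1 : (c - 1) ^ 3 = 0 := by linear_combination hc + (-c ^ 2 + c) * h3
  exact sub_eq_zero.1 (pow_eq_zero_iff (by norm_num) |>.1 h1)

/-- trichotomy in dimension three -/
theorem trich3 [CharP F 3] (h : IsHerm σ 1 B) (hσ : ∀ c, σ (σ c) = c) (hd : finrank F V = 3)
    (T : Module.End F V) (hT : ∀ x y, B (T x) (T y) = B x y) (N : ℕ) (hN : T ^ (N + 1) = 1) (hdet : LinearMap.det T = 1) :
    (∃ v, B v v ≠ 0 ∧ ∃ c : F, T v = c • v) ∨ (∀ U : Submodule F V, (∀ x ∈ U, T x ∈ U) → U = ⊥ ∨ U = ⊤) ∨
    (T ^ 3 = 1 ∧ ∃ y, T (T y) + T y + y ≠ 0) := by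
  classical
  have h3 : (3 : F) = 0 := by exact_mod_cast CharP.cast_eq_zero F 3
  by_contra hcon
  rw [not_or, not_or] at hcon
  obtain ⟨hno, hirr, huni⟩ := hcon
  have hiso : ∀ v (c : F), T v = c • v → B v v = 0 := by
    intro v c hc
    by_contra hv
    exact hno ⟨v, hv, c, hc⟩
  push Not at hirr
  obtain ⟨U, hU, hU0, hU1⟩ := hirr
  -- an eigenvector
  have hev : ∃ v, v ≠ 0 ∧ ∃ c : F, T v = c • v := by
    have hone : ∀ U : Submodule F V, (∀ x ∈ U, T x ∈ U) → finrank F U = 1 → ∃ v, v ≠ 0 ∧ ∃ c : F, T v = c • v := by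
      intro U hU h1
      obtain ⟨y, hy0, hy⟩ := finrank_eq_one_iff'.1 h1
      obtain ⟨c, hc⟩ := hy ⟨T y, hU _ y.2⟩
      exact ⟨y, fun h7 => hy0 (Subtype.ext h7), c, (congrArg Subtype.val hc).symm⟩
    have h1 : finrank F U ≠ 0 := fun h => hU0 (Submodule.finrank_eq_zero.1 h)
    have h2 : finrank F U ≠ 3 := fun h => hU1 (Submodule.eq_top_of_finrank_eq (h.trans hd.symm))
    have h3 : finrank F U ≤ 3 := hd ▸ Submodule.finrank_le U
    have h4 := finrank_perp h U
    by_cases h5 : finrank F U = 1
    · exact hone U hU h5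
    · exact hone (perp h U) (perp_inv h T hT N hN hU) (by omega)
  obtain ⟨v, hv0, c, hc⟩ := hev
  have hvv := hiso v c hc
  have hTinj : Function.Injective T := by
    intro x y hxy
    apply h.ext_left
    intro z
    rw [← hT x z, ← hT y z, hxy]
  have hc0 : c ≠ 0 := by
    rintro rfl
    rw [zero_smul] at hc
    exact hv0 (hTinj (by rw [hc, map_zero]))
  have hrange : ∀ a, B (T a - (σ c)⁻¹ • a) v = 0 := by
    intro a
    have h1 : v = c⁻¹ • T v := by rw [hc, smul_smul, inv_mul_cancel₀ hc0, one_smul]
    have h2 : B (T a) v = (σ c)⁻¹ * B a v := by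
      conv_lhs => rw [h1]
      rw [h.smul_right, hT, map_inv₀]
    rw [h.sub_left, h.smul_left, h2, sub_self]
  set W := perp h (Submodule.span F {v}) with hWdef
  have hW2 : finrank F W = 2 := by
    have h1 := finrank_perp h (Submodule.span F {v})
    rw [finrank_span_singleton hv0, ← hWdef] at h1
    omega
  have hWinv : ∀ x ∈ W, T x ∈ W := perp_inv h T hT N hN (by
    intro x hx
    rw [Submodule.mem_span_singleton] at hx ⊢
    obtain ⟨a, rfl⟩ := hx
    exact ⟨a * c, by rw [map_smul, hc, smul_smul]⟩)
  have hvW : v ∈ W := mem_perp_single h |>.2 hvv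
  obtain ⟨x, hxW, hxn⟩ : ∃ x ∈ W, x ∉ Submodule.span F {v} := by
    by_contra hall
    push Not at hall
    have h1 := Submodule.finrank_mono (show W ≤ Submodule.span F {v} from hall)
    rw [hW2, finrank_span_singleton hv0] at h1
    omega
  have hxv : B x v = 0 := (mem_perp_single h).1 hxW
  have hvx : B v x = 0 := symm0 h hxv
  have hli : LinearIndependent F ![v, x] := by
    rw [LinearIndependent.pair_iff' hv0]
    intro a hav
    exact hxn (Submodule.mem_span_singleton.2 ⟨a, hav⟩)
  have hspan : Submodule.span F {v, x} = W := by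
    apply Submodule.eq_of_le_of_finrank_eq
    · rw [Submodule.span_le]
      intro z hz
      rcases hz with rfl | hz
      · exact hvW
      · rw [Set.mem_singleton_iff] at hz
        rw [hz]; exact hxW
    · have h1 := finrank_span_eq_card hli
      rw [Matrix.range_cons, Matrix.range_cons, Matrix.range_empty, Set.union_empty, Set.singleton_union,
        Fintype.card_fin] at h1
      rw [h1, hW2]
  have hcomb : ∀ z ∈ W, ∃ a b : F, z = a • x + b • v := by
    intro z hz
    rw [← hspan, Submodule.mem_span_pair] at hz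
    obtain ⟨a, b, rfl⟩ := hz
    exact ⟨b, a, by rw [add_comm]⟩
  have hxx : B x x ≠ 0 := by
    intro hxx
    have hti : ∀ y ∈ W, ∀ z ∈ W, B y z = 0 := by
      intro y hy z hz
      obtain ⟨a, b, rfl⟩ := hcomb y hy
      obtain ⟨a', b', rfl⟩ := hcomb z hz
      rw [h.add_left, h.smul_left, h.smul_left, h.add_right, h.add_right, h.smul_right, h.smul_right, h.smul_right,
        h.smul_right, hxx, hxv, hvx, hvv]
      ring
    have h1 := dim_le_of_isotropic h W hti
    omega
  obtain ⟨a, b, hTx⟩ := hcomb _ (hWinv x hxW)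
  have hac : a = c := by
    by_contra hac
    have hne : a - c ≠ 0 := sub_ne_zero.2 hac
    have h1 : T (x + (b / (a - c)) • v) = a • (x + (b / (a - c)) • v) := by
      have h2 : b + (b / (a - c)) * c = a * (b / (a - c)) := by field_simp; ring
      rw [map_add, map_smul, hTx, hc]
      calc a • x + b • v + (b / (a - c)) • c • v = a • x + (b + (b / (a - c)) * c) • v := by module
        _ = _ := by rw [h2]; module
    have h2 := hiso _ _ h1
    rw [h.add_left, h.smul_left, h.add_right, h.add_right, h.smul_right, h.smul_right, hxv, hvx, hvv] at h2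
    apply hxx
    linear_combination h2
  rw [hac] at hTx
  have hcs : c * σ c = 1 := by
    have h1 := hT x x
    rw [hTx, h.add_left, h.smul_left, h.smul_left, h.add_right, h.add_right, h.smul_right, h.smul_right, h.smul_right,
      h.smul_right, hxv, hvx, hvv] at h1
    have h2 : (c * σ c - 1) * B x x = 0 := by linear_combination h1
    exact sub_eq_zero.1 ((mul_eq_zero.1 h2).resolve_right hxx)
  have hσc : (σ c)⁻¹ = c := inv_eq_of_mul_eq_one_left hcs
  rw [hσc] at hrange
  have hNW : ∀ z, T z - c • z ∈ W := fun z => (mem_perp_single h).2 (hrange z)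
  have hcube : ∀ z, T (T (T z)) = c ^ 3 • z := by
    intro z
    obtain ⟨a1, b1, h1⟩ := hcomb _ (hNW z)
    have h2 : T z = c • z + (a1 • x + b1 • v) := by rw [← h1]; abel
    rw [h2]
    simp only [map_add, map_smul, h2, hTx, hc, smul_add, smul_smul]
    have h4 : (3 : F) • z = 0 := by rw [h3, zero_smul]
    have h5 : (3 : F) • x = 0 := by rw [h3, zero_smul]
    have h6 : (3 : F) • v = 0 := by rw [h3, zero_smul]
    have h7 : c • (c • z + (a1 • x + b1 • v)) = c • T z := by rw [h2]
    linear_combination (norm := module) (c ^ 2 * a1) • h5 + (c ^ 2 * b1 + c * a1 * b) • h6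
  have hc1 : c = 1 := by
    have h1 : T ^ 3 = (c ^ 3) • (1 : Module.End F V) := by
      apply LinearMap.ext
      intro z
      exact hcube z
    have h2 : LinearMap.det (T ^ 3) = 1 := by rw [map_pow, hdet, one_pow]
    rw [h1, LinearMap.det_smul, map_one, mul_one, hd] at h2
    exact cube_inj (cube_inj h2)
  subst hc1
  apply huni
  refine ⟨?_, ?_⟩
  · apply LinearMap.ext
    intro z
    have := hcube z
    rw [one_pow, one_smul] at this
    exact this
  · by_contra hall
    push Not at hall
    -- pick y with B v y ≠ 0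
    have : ∃ y, B v y ≠ 0 := by
      by_contra hh
      push Not at hh
      exact hv0 (h.nondeg v hh)
    obtain ⟨y, hy⟩ := this
    obtain ⟨α, β, hNy⟩ := hcomb _ (hNW y)
    have hTy : T y = y + (α • x + β • v) := by rw [← hNy, one_smul]; abel
    have hb : b ≠ 0 := by
      rintro rfl
      rw [zero_smul, add_zero] at hTx
      exact hxx (hiso x 1 hTx)
    have h1 := hall y
    rw [hTy] at h1
    simp only [map_add, map_smul, hTx, hc, hTy, one_smul] at h1
    have h4 : (3 : F) • y = 0 := by rw [h3, zero_smul]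
    have h5 : (3 : F) • x = 0 := by rw [h3, zero_smul]
    have h6 : (3 : F) • v = 0 := by rw [h3, zero_smul]
    have h7 : (α * b) • v = 0 := by
      linear_combination (norm := module) h1 - h4 - α • h5 - β • h6
    have hα : α = 0 := by
      rcases smul_eq_zero.1 h7 with h8 | h8
      · exact (mul_eq_zero.1 h8).resolve_right hb
      · exact absurd h8 hv0
    have h8 := hT x y
    rw [hTx, hTy, hα, zero_smul, zero_add, one_smul, h.add_left, h.smul_left, h.add_right, h.add_right, h.smul_right,
      h.smul_right, hxv, hvv] at h8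
    have h9 : b * B v y = 0 := by linear_combination h8
    rcases mul_eq_zero.1 h9 with h10 | h10
    · exact hb h10
    · exact hy h10

/-- regular unipotent isometries have an orthonormal cyclic basis -/
theorem exists_on [CharP F 3] (h : IsHerm σ 1 B) (hσ : ∀ c, σ (σ c) = c) (hσ1 : σ ≠ RingHom.id F) (hd : finrank F V = 3)
    (T : Module.End F V) (hT : ∀ x y, B (T x) (T y) = B x y) (hT3 : T ^ 3 = 1) (hy : ∃ y, T (T y) + T y + y ≠ 0) :
    ∃ v, B v v = 1 ∧ B (T v) v = 0 ∧ B (T (T v)) v = 0 := by
  classical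
  have h3 : (3 : F) = 0 := by exact_mod_cast CharP.cast_eq_zero F 3
  obtain ⟨y, hy⟩ := hy
  have hTTT : ∀ x, T (T (T x)) = x := fun x => LinearMap.congr_fun hT3 x
  -- the Gram numbers
  have tab : ∀ y, B y (T y) = B (T (T y)) y ∧ B y (T (T y)) = B (T y) y ∧ B (T y) (T y) = B y y ∧
      B (T (T y)) (T y) = B (T y) y ∧ B (T y) (T (T y)) = B (T (T y)) y ∧ B (T (T y)) (T (T y)) = B y y ∧
      σ (B y y) = B y y ∧ σ (B (T y) y) = B (T (T y)) y ∧ σ (B (T (T y)) y) = B (T y) y := by
    intro y
    have e1 : B y (T y) = B (T (T y)) y := by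
      rw [← hT y (T y), ← hT (T y) (T (T y)), hTTT]
    have e2 : B y (T (T y)) = B (T y) y := by
      rw [← hT y (T (T y)), hTTT]
    refine ⟨e1, e2, hT y y, hT (T y) y, (hT y (T y)).trans e1, (hT (T y) (T y)).trans (hT y y), ?_, ?_, ?_⟩
    · have := h.symm y y; rw [one_mul] at this; exact this.symm
    · have := h.symm (T y) y; rw [one_mul] at this; rw [← this]; exact e1
    · have := h.symm (T (T y)) y; rw [one_mul] at this; rw [← this]; exact e2
  -- the sum is nonzero
  have hδ : B (T (T y)) y + B (T y) y + B y y ≠ 0 := by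
    intro h0
    set z := T (T y) + T y + y with hz
    have hTz : T z = z := by
      rw [hz, map_add, map_add, hTTT]; abel
    have hzy : B z y = 0 := by rw [hz, h.add_left, h.add_left]; exact h0
    have hzTy : B z (T y) = 0 := by
      have := hT z y
      rw [hTz] at this
      rw [this]; exact hzy
    have hzTTy : B z (T (T y)) = 0 := by
      have := hT z (T y)
      rw [hTz] at this
      rw [this]; exact hzTy
    have hli : LinearIndependent F ![y, T y, T (T y)] := by
      rw [Fintype.linearIndependent_iff]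
      intro g hg
      rw [Fin.sum_univ_three] at hg
      have hg' : g 0 • y + g 1 • T y + g 2 • T (T y) = 0 := hg
      have hg1 : g 0 • T y + g 1 • T (T y) + g 2 • y = 0 := by
        have := congrArg T hg'
        rw [map_add, map_add, map_smul, map_smul, map_smul, hTTT, map_zero] at this
        exact this
      have hg2 : g 0 • T (T y) + g 1 • y + g 2 • T y = 0 := by
        have := congrArg T hg1
        rw [map_add, map_add, map_smul, map_smul, map_smul, hTTT, map_zero] at this
        exact this
      have hs : (g 0 + g 1 + g 2) • z = 0 := by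
        rw [hz]
        linear_combination (norm := module) hg' + hg1 + hg2
      have hs0 : g 0 + g 1 + g 2 = 0 := (smul_eq_zero.1 hs).resolve_right hy
      -- (g0 + g1 T + g2 T²) y = 0; apply T - 1
      have hz1 : (g 1 - g 2) • z = 0 := by
        have h6 : (3 : F) • y = 0 := by rw [h3, zero_smul]
        have h7 : (3 : F) • (T y) = 0 := by rw [h3, zero_smul]
        have h8 : (3 : F) • (T (T y)) = 0 := by rw [h3, zero_smul]
        have h9 : (g 0 + g 1 + g 2) • y = 0 := by rw [hs0, zero_smul]
        have h10 : (g 0 + g 1 + g 2) • T y = 0 := by rw [hs0, zero_smul]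
        have h11 : (g 0 + g 1 + g 2) • T (T y) = 0 := by rw [hs0, zero_smul]
        rw [hz]
        linear_combination (norm := module) hg1 - hg' + h9 - h10 + (g 1) • h7 - (g 2) • h6
      have h12 : g 1 - g 2 = 0 := (smul_eq_zero.1 hz1).resolve_right hy
      have h13 : g 1 = g 2 := sub_eq_zero.1 h12
      have h14 : g 0 = g 2 := by linear_combination hs0 - h12 - g 2 * h3
      have h15 : g 2 • z = 0 := by
        rw [h13, h14] at hg'
        rw [hz]
        linear_combination (norm := module) hg'
      have h16 : g 2 = 0 := (smul_eq_zero.1 h15).resolve_right hy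
      intro i
      fin_cases i
      · exact h14.trans h16
      · exact h13.trans h16
      · exact h16
    have hspan := hli.span_eq_top_of_card_eq_finrank (by rw [Fintype.card_fin, hd])
    apply hy
    apply h.nondeg
    intro w
    have hw : w ∈ Submodule.span F (Set.range ![y, T y, T (T y)]) := by rw [hspan]; trivial
    have hle : Submodule.span F (Set.range ![y, T y, T (T y)]) ≤ perp h (Submodule.span F {z}) := by
      rw [Submodule.span_le]
      rintro _ ⟨i, rfl⟩
      rw [SetLike.mem_coe, mem_perp_single]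
      fin_cases i
      · exact symm0 h hzy
      · exact symm0 h hzTy
      · exact symm0 h hzTTy
    exact symm0 h ((mem_perp_single h).1 (hle hw))
  obtain ⟨t1, t2, t3, t4, t5, t6, t7, t8, t9⟩ := tab y
  obtain ⟨c, hc⟩ := WittHerm.norm_surj hσ1 hσ (a := (B (T (T y)) y + B (T y) y + B y y)⁻¹) (by
    rw [map_inv₀, map_add, map_add, t7, t8, t9]
    congr 1; ring)
  -- rescale
  obtain ⟨y', hy'⟩ : ∃ y', y' = c • y := ⟨_, rfl⟩
  have hδ' : B (T (T y')) y' + B (T y') y' + B y' y' = 1 := by
    rw [hy', map_smul, map_smul, h.smul_left, h.smul_left, h.smul_left, h.smul_right, h.smul_right, h.smul_right]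
    have h1 : c * σ c * (B (T (T y)) y + B (T y) y + B y y) = 1 := by rw [hc, inv_mul_cancel₀ hδ]
    linear_combination h1
  obtain ⟨t1, t2, t3, t4, t5, t6, t7, t8, t9⟩ := tab y'
  set g0 := B y' y' with hg0
  set g1 := B (T y') y' with hg1
  set g2 := B (T (T y')) y' with hg2
  have hTv : T (g0 • y' + g2 • T y' + g1 • T (T y')) = g0 • T y' + g2 • T (T y') + g1 • y' := by
    rw [map_add, map_add, map_smul, map_smul, map_smul, hTTT]
  have hv1 : B (g0 • y' + g2 • T y' + g1 • T (T y')) (g0 • y' + g2 • T y' + g1 • T (T y')) = 1 := by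
    simp only [h.add_left, h.add_right, h.smul_left, h.smul_right, t1, t2, t3, t4, t5, t6, t7, t8, t9, ← hg0, ← hg1, ← hg2]
    have h1 : (g2 + g1 + g0) ^ 3 = 1 := by rw [hδ', one_pow]
    linear_combination h1 + (2 * g0 * g1 * g2 - (g0 ^ 2 * g1 + g0 ^ 2 * g2 + g1 ^ 2 * g0 + g1 ^ 2 * g2 + g2 ^ 2 * g0 + g2 ^ 2 * g1 + 2 * g0 * g1 * g2)) * h3
  have hv2 : B (T (g0 • y' + g2 • T y' + g1 • T (T y'))) (g0 • y' + g2 • T y' + g1 • T (T y')) = 0 := by
    rw [hTv]
    simp only [h.add_left, h.add_right, h.smul_left, h.smul_right, t1, t2, t3, t4, t5, t6, t7, t8, t9, ← hg0, ← hg1, ← hg2]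
    linear_combination (g0 ^ 2 * g1 + g0 * g2 ^ 2 + g1 ^ 2 * g2) * h3
  refine ⟨_, hv1, hv2, ?_⟩
  rw [← (tab _).2.2.2.2.2.2.2.1, hv2, map_zero]

end general

end Cfsg.Agent.Lib.CovU3
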