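import Cfsg.Agent.Lib.CovU3a

set_option autoImplicit false

/-! The cubic extension of `F` as a hermitian space (helper50). -/

namespace Cfsg.Agent.Lib.CovU3

open Module Polynomial Cfsg.Agent.Lib.HermAlg Cfsg.Agent.Lib.CovU4 Cfsg.Agent.Lib.HermMat Cfsg.Agent.Lib.ClUnitary

section L

variable {F : Type*} [Field F] [Fintype F] {q a : ℕ} {L : Type*} [Field L] [Finite L] [Algebra F L]

omit [Fintype F] [Finite L] in
theorem charL [CharP F 3] : CharP L 3 := charP_of_injective_algebraMap (algebraMap F L).injective 3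

theorem charF (hF : Fintype.card F = q ^ 2) (ha : q = 3 ^ a) (ha1 : 1 ≤ a) : CharP F 3 := by
  obtain ⟨p, f, hp, hch, hqf, hf⟩ := exists_char hF
  have h1 : p ∣ 3 ^ a := by rw [← ha, hqf]; exact dvd_pow_self p (by omega)
  have h2 : p = 3 := (Nat.prime_dvd_prime_iff_eq hp Nat.prime_three).1 (hp.dvd_of_dvd_pow h1)
  rw [← h2]; exact hch

variable (L) in
/-- the involution of `L` -/
def starL [CharP F 3] (ha : q = 3 ^ a) : L →+* L where
  toFun x := x ^ (q ^ 3)
  map_one' := one_pow _
  map_mul' x y := mul_pow x y _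
  map_zero' := zero_pow (by rw [ha]; positivity)
  map_add' x y := by
    haveI := charL (F := F) (L := L)
    have : q ^ 3 = 3 ^ (a * 3) := by rw [ha, pow_mul]
    rw [this]
    exact add_pow_char_pow x y _ _

omit [Fintype F] [Finite L] in
theorem starL_apply [CharP F 3] (ha : q = 3 ^ a) (x : L) : starL (F := F) L ha x = x ^ (q ^ 3) := rfl

theorem cardL (hF : Fintype.card F = q ^ 2) (hL : finrank F L = 3) : Nat.card L = q ^ 6 := by
  haveI : FiniteDimensional F L := Module.finite_of_finrank_pos (by omega)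
  rw [Module.natCard_eq_pow_finrank (K := F) (V := L), hL, Nat.card_eq_fintype_card, hF]
  ring

theorem pow6 (hF : Fintype.card F = q ^ 2) (hL : finrank F L = 3) (x : L) : x ^ (q ^ 6) = x := by
  haveI := Fintype.ofFinite L
  have h1 := FiniteField.pow_card x
  rwa [← Nat.card_eq_fintype_card, cardL hF hL] at h1

theorem starL_starL [CharP F 3] (ha : q = 3 ^ a) (hF : Fintype.card F = q ^ 2) (hL : finrank F L = 3) (x : L) :
    starL (F := F) L ha (starL (F := F) L ha x) = x := by
  rw [starL_apply, starL_apply, ← pow_mul, ← pow_add]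
  exact pow6 hF hL x

theorem starL_alg [CharP F 3] (ha : q = 3 ^ a) (hF : Fintype.card F = q ^ 2) (c : F) :
    starL (F := F) L ha (algebraMap F L c) = algebraMap F L (frob hF c) := by
  rw [starL_apply, ← map_pow, frob_apply]
  congr 1
  have : q ^ 3 = q * q * q := by ring
  rw [this, pow_mul, pow_mul, pow_q_pow_q hF]

theorem trace_eq (hF : Fintype.card F = q ^ 2) (hL : finrank F L = 3) (x : L) :
    algebraMap F L (Algebra.trace F L x) = x + x ^ (q ^ 2) + x ^ (q ^ 4) := by
  rw [FiniteField.algebraMap_trace_eq_sum_pow, hL, Finset.sum_range_succ, Finset.sum_range_succ, Finset.sum_range_one,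
    Nat.card_eq_fintype_card, hF, pow_zero, pow_one, pow_one, ← pow_mul]

/-- trace and the involution -/
theorem trace_star [CharP F 3] (ha : q = 3 ^ a) (hF : Fintype.card F = q ^ 2) (hL : finrank F L = 3) (x : L) :
    Algebra.trace F L (starL (F := F) L ha x) = frob hF (Algebra.trace F L x) := by
  haveI := charL (F := F) (L := L)
  apply (algebraMap F L).injective
  rw [trace_eq hF hL, ← starL_alg ha hF, trace_eq hF hL]
  rw [map_add, map_add, map_pow, map_pow]

/-- the hermitian trace form -/
noncomputable def hL (F : Type*) [Field F] {L : Type*} [Field L] [Algebra F L] [CharP F 3] (ha : q = 3 ^ a) (x y : L) : F :=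
  Algebra.trace F L (x * starL (F := F) L ha y)

theorem isHermL [CharP F 3] (ha : q = 3 ^ a) (hF : Fintype.card F = q ^ 2) (hfr : finrank F L = 3) :
    IsHerm (frob hF) 1 (hL F (L := L) ha) where
  add_left := fun x y z => by unfold hL; rw [add_mul, map_add]
  smul_left := fun c x y => by unfold hL; rw [smul_mul_assoc, map_smul, smul_eq_mul]
  symm := fun x y => by
    unfold hL
    rw [one_mul, ← trace_star ha hF hfr, map_mul (starL (F := F) L ha), starL_starL ha hF hfr, mul_comm]
  nondeg := by
    intro x hx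
    haveI : FiniteDimensional F L := Module.finite_of_finrank_pos (by omega)
    apply (traceForm_nondegenerate F L).1 x
    intro y
    have := hx (starL (F := F) L ha y)
    unfold hL at this
    rw [starL_starL ha hF hfr] at this
    exact this

/-- the Frobenius isometry -/
noncomputable def phi (hF : Fintype.card F = q ^ 2) : Module.End F L where
  toFun x := x ^ (q ^ 2)
  map_add' x y := by
    obtain ⟨p, f, hp, hch, hqf, hf⟩ := exists_char hF
    haveI := charP_of_injective_algebraMap (algebraMap F L).injective p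
    haveI : Fact p.Prime := ⟨hp⟩
    have : q ^ 2 = p ^ (f * 2) := by rw [hqf, pow_mul]
    rw [this]
    exact add_pow_char_pow x y _ _
  map_smul' c x := by
    rw [RingHom.id_apply, Algebra.smul_def, Algebra.smul_def, mul_pow, ← map_pow]
    congr 2
    rw [← hF]; exact FiniteField.pow_card c

theorem phi_apply (hF : Fintype.card F = q ^ 2) (x : L) : phi hF x = x ^ (q ^ 2) := rfl

theorem phi_isom [CharP F 3] (ha : q = 3 ^ a) (hF : Fintype.card F = q ^ 2) (hfr : finrank F L = 3) (x y : L) :
    hL F ha (phi hF x) (phi hF y) = hL F ha x y := by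
  unfold hL
  rw [phi_apply, phi_apply, map_pow, ← mul_pow]
  apply (algebraMap F L).injective
  rw [trace_eq hF hfr, trace_eq hF hfr]
  generalize x * (starL (F := F) L ha) y = z
  rw [← pow_mul, ← pow_mul, ← pow_add, ← pow_add]
  have h1 : z ^ (q ^ (2 + 4)) = z := pow6 hF hfr z
  rw [h1]
  norm_num
  ring

theorem phi_cube (hF : Fintype.card F = q ^ 2) (hfr : finrank F L = 3) : (phi hF : Module.End F L) ^ 3 = 1 := by
  apply LinearMap.ext
  intro x
  show ((x ^ (q ^ 2)) ^ (q ^ 2)) ^ (q ^ 2) = x
  rw [← pow_mul, ← pow_mul, ← pow_add, ← pow_add]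
  exact pow6 hF hfr x

theorem phi_ne (hF : Fintype.card F = q ^ 2) (hfr : finrank F L = 3) :
    ∃ y : L, phi hF (phi hF y) + phi hF y + y ≠ 0 := by
  haveI : FiniteDimensional F L := Module.finite_of_finrank_pos (by omega)
  obtain ⟨y, hy⟩ := Algebra.trace_surjective F L 1
  refine ⟨y, ?_⟩
  intro h0
  have h1 := trace_eq hF hfr y
  rw [hy, map_one] at h1
  apply one_ne_zero (α := L)
  rw [h1, ← h0, phi_apply, phi_apply, ← pow_mul, ← pow_add]
  ring

/-- the cyclic shift -/
def shift (x : Fin 3 → F) : Fin 3 → F := ![x 2, x 0, x 1]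

/-- a regular unipotent isometry is the cyclic shift in suitable coordinates -/
theorem exists_coord [CharP F 3] (hF : Fintype.card F = q ^ 2) {V : Type*} [AddCommGroup V] [Module F V]
    [FiniteDimensional F V] {B : V → V → F} (h : IsHerm (frob hF) 1 B) (hd : finrank F V = 3)
    (T : Module.End F V) (hT : ∀ x y, B (T x) (T y) = B x y) (hT3 : T ^ 3 = 1) (hy : ∃ y, T (T y) + T y + y ≠ 0) :
    ∃ θ : (Fin 3 → F) ≃ₗ[F] V, (∀ x y, B (θ x) (θ y) = hermForm 3 F q x y) ∧ ∀ x, θ (shift x) = T (θ x) := by
  obtain ⟨v, h1, h2, h3⟩ := exists_on h (frob_frob hF) (frob_ne_id hF) hd T hT hT3 hy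
  have hTTT : ∀ x, T (T (T x)) = x := fun x => LinearMap.congr_fun hT3 x
  have k1 : B v (T v) = 0 := symm0 h h2
  have k2 : B v (T (T v)) = 0 := symm0 h h3
  have k3 : B (T v) (T v) = 1 := (hT v v).trans h1
  have k4 : B (T (T v)) (T (T v)) = 1 := (hT _ _).trans k3
  have k5 : B (T (T v)) (T v) = 0 := (hT _ _).trans h2
  have k6 : B (T v) (T (T v)) = 0 := symm0 h k5
  let θ0 : (Fin 3 → F) →ₗ[F] V :=
    { toFun := fun x => x 0 • v + x 1 • T v + x 2 • T (T v)
      map_add' := fun x y => by
        simp only [Pi.add_apply]; module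
      map_smul' := fun c x => by
        simp only [Pi.smul_apply, smul_eq_mul, RingHom.id_apply]; module }
  have hθ0 : ∀ x, θ0 x = x 0 • v + x 1 • T v + x 2 • T (T v) := fun x => rfl
  have hiso : ∀ x y, B (θ0 x) (θ0 y) = hermForm 3 F q x y := by
    intro x y
    rw [hermForm_def, Fin.sum_univ_three, hθ0, hθ0]
    simp only [h.add_left, h.add_right, h.smul_left, h.smul_right, h1, h2, h3, k1, k2, k3, k4, k5, k6, frob_apply]
    ring
  have hinj : Function.Injective θ0 := by
    rw [injective_iff_map_eq_zero]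
    intro x hx
    apply (CovU4.isHerm hF).nondeg
    intro y
    rw [← hiso, hx, h.zero_left]
  let θ := LinearEquiv.ofInjectiveOfFinrankEq (f := θ0) hinj (by rw [Module.finrank_fin_fun, hd])
  have hθ : ∀ x, θ x = θ0 x := fun x => rfl
  refine ⟨θ, ?_, ?_⟩
  · intro x y
    rw [hθ, hθ]; exact hiso x y
  · intro x
    rw [hθ, hθ, hθ0, hθ0, map_add, map_add, map_smul, map_smul, map_smul, hTTT]
    simp only [shift, Matrix.cons_val]
    abel

end L

end Cfsg.Agent.Lib.CovU3
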