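import Cfsg.Agent.Lib.CovU3b

set_option autoImplicit false

/-! Irreducible isometries in dimension three (helper50). -/

namespace Cfsg.Agent.Lib.CovU3

open Module Polynomial Cfsg.Agent.Lib.HermAlg Cfsg.Agent.Lib.CovU4 Cfsg.Agent.Lib.HermMat Cfsg.Agent.Lib.ClUnitary

variable {F : Type*} [Field F] [Fintype F] {q a : ℕ} {L : Type*} [Field L] [Finite L] [Algebra F L]

theorem irr_coord [CharP F 3] (ha : q = 3 ^ a) (hF : Fintype.card F = q ^ 2) (hfr : finrank F L = 3)
    {V : Type*} [AddCommGroup V] [Module F V] [FiniteDimensional F V] {B : V → V → F} (h : IsHerm (frob hF) 1 B)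
    (hd : finrank F V = 3) (T : Module.End F V) (hT : ∀ x y, B (T x) (T y) = B x y) (N : ℕ) (hN : T ^ (N + 1) = 1)
    (hirr : ∀ U : Submodule F V, (∀ x ∈ U, T x ∈ U) → U = ⊥ ∨ U = ⊤) :
    ∃ (θ : L ≃ₗ[F] V) (l : L), (∀ x y, B (θ x) (θ y) = hL F ha x y) ∧ ∀ x, θ (l * x) = T (θ x) := by
  classical
  haveI : Nontrivial V := Module.nontrivial_of_finrank_pos (R := F) (by omega)
  haveI : FiniteDimensional F L := Module.finite_of_finrank_pos (by omega)
  obtain ⟨h1, h2⟩ := irr_minpoly T hirr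
  set f := minpoly F T with hf
  haveI : Fact (Irreducible f) := ⟨h1⟩
  have hfinK : FiniteDimensional F (AdjoinRoot f) := (AdjoinRoot.powerBasis h1.ne_zero).finite
  haveI : Finite (AdjoinRoot f) := Module.finite_of_finite F
  have hK3 : finrank F (AdjoinRoot f) = 3 := by
    rw [(AdjoinRoot.powerBasis h1.ne_zero).finrank, AdjoinRoot.powerBasis_dim, h2, hd]
  let e : AdjoinRoot f ≃ₐ[F] L :=
    (FiniteField.algEquivExtension F 3 3 (AdjoinRoot f) hK3).trans (FiniteField.algEquivExtension F 3 3 L hfr).symm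
  obtain ⟨τ, hτ1, hτr, hτ2⟩ := local_star h (frob_frob hF) T hT N hN f 1 (by rw [pow_one]; exact minpoly.aeval F T) dvd_rfl
  -- the action of `AdjoinRoot f`
  let j0 : AdjoinRoot f →ₐ[F] Module.End F V := Ideal.Quotient.liftₐ (Ideal.span {f}) (aeval T) (by
    intro P hP
    obtain ⟨Q, rfl⟩ := Ideal.mem_span_singleton.1 hP
    rw [map_mul, hf, minpoly.aeval, zero_mul])
  have hj0 : ∀ P : F[X], j0 (AdjoinRoot.mk f P) = aeval T P := fun P => rfl
  have hj0r : j0 (AdjoinRoot.root f) = T := by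
    have := hj0 X
    rw [AdjoinRoot.mk_X, aeval_X] at this
    exact this
  have hTN : T * T ^ N = 1 := by rw [← pow_succ']; exact hN
  have hj0τ : j0 (τ (AdjoinRoot.root f)) = T ^ N := by
    have h3 : j0 (τ (AdjoinRoot.root f)) * T = 1 := by
      conv_lhs => rw [← hj0r]
      rw [← map_mul, hτr, map_one]
    calc j0 (τ (AdjoinRoot.root f)) = j0 (τ (AdjoinRoot.root f)) * (T * T ^ N) := by rw [hTN, mul_one]
      _ = T ^ N := by rw [← mul_assoc, h3, one_mul]
  have hadj0 : ∀ (x : AdjoinRoot f) (u w : V), B (j0 x u) w = B u (j0 (τ x) w) := by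
    intro x u w
    obtain ⟨P, rfl⟩ := AdjoinRoot.mk_surjective x
    rw [hj0]
    have h4 := h.adj_aeval (frob_frob hF) (inv_adj hT hN) P u w
    rw [h4]
    congr 2
    have h5 : AdjoinRoot.mk f P = aeval (AdjoinRoot.root f) P := (AdjoinRoot.aeval_eq P).symm
    have h6 : τ.comp (algebraMap F (AdjoinRoot f)) = (algebraMap F (AdjoinRoot f)).comp (frob hF) := RingHom.ext hτ1
    have h7 : τ (aeval (AdjoinRoot.root f) P) = aeval (τ (AdjoinRoot.root f)) (P.map (frob hF)) := by
      rw [Polynomial.aeval_def, Polynomial.hom_eval₂, h6, ← Polynomial.eval₂_map, ← Polynomial.aeval_def]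
    rw [h5, h7, ← hj0τ]
    exact Polynomial.aeval_algHom_apply j0 _ _
  -- transport to `L`
  have hτ' : ∀ x, e (τ x) = starL (F := F) L ha (e x) := by
    let τ' : L →+* L := (e : AdjoinRoot f →+* L).comp (τ.comp (e.symm : L →+* AdjoinRoot f))
    have hτ'x : ∀ x, τ' x = e (τ (e.symm x)) := fun x => rfl
    obtain ⟨c0, hc0⟩ := frob_ne hF
    obtain ⟨s, hs, hsτ⟩ := involution_eq_pow τ' (fun x => by rw [hτ'x, hτ'x, e.symm_apply_apply, hτ2, e.apply_symm_apply])
      ⟨algebraMap F L c0, by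
        rw [hτ'x, AlgEquiv.commutes, hτ1, AlgEquiv.commutes]
        intro hh
        exact hc0 ((algebraMap F L).injective hh)⟩
    have hs3 : s = q ^ 3 := by
      have h3 : s ^ 2 = (q ^ 3) ^ 2 := by rw [← hs, cardL hF hfr]; ring
      exact Nat.pow_left_injective (n := 2) (by norm_num) h3
    intro x
    rw [starL_apply, ← hs3, ← hsτ, hτ'x, e.symm_apply_apply]
  let j : L →ₐ[F] Module.End F V := j0.comp (e.symm : L →ₐ[F] AdjoinRoot f)
  have hj : ∀ x, j x = j0 (e.symm x) := fun x => rfl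
  have hadj : ∀ (x : L) (u w : V), B (j x u) w = B u (j (starL (F := F) L ha x) w) := by
    intro x u w
    rw [hj, hadj0, hj]
    congr 3
    apply e.injective
    rw [hτ', e.apply_symm_apply, e.apply_symm_apply]
  set l := e (AdjoinRoot.root f) with hl
  have hjl : j l = T := by rw [hj, hl, e.symm_apply_apply, hj0r]
  obtain ⟨v0, hv0⟩ := exists_ne (0 : V)
  have hjne : ∀ x : L, x ≠ 0 → j x v0 ≠ 0 := by
    intro x hx h0
    apply hv0
    have h3 : j x⁻¹ (j x v0) = v0 := by
      rw [← Module.End.mul_apply, ← map_mul, inv_mul_cancel₀ hx, map_one]; rfl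
    rw [← h3, h0, map_zero]
  -- the functional
  let ℓ : Module.Dual F L :=
    { toFun := fun z => B (j z v0) v0
      map_add' := fun x y => by rw [map_add, LinearMap.add_apply, h.add_left]
      map_smul' := fun c x => by rw [map_smul, LinearMap.smul_apply, h.smul_left]; rfl }
  have hℓ : ∀ z, ℓ z = B (j z v0) v0 := fun z => rfl
  have hℓs : ∀ z, ℓ (starL (F := F) L ha z) = frob hF (ℓ z) := by
    intro z
    rw [hℓ, hℓ, hadj, starL_starL ha hF hfr]
    have := h.symm (j z v0) v0
    rw [one_mul] at this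
    exact this
  let k := ((Algebra.traceForm F L).toDual (traceForm_nondegenerate F L)).symm ℓ
  have hk : ∀ z, Algebra.trace F L (k * z) = ℓ z := fun z =>
    LinearMap.BilinForm.apply_toDual_symm_apply (hB := traceForm_nondegenerate F L) ℓ z
  have hks : starL (F := F) L ha k = k := by
    apply sub_eq_zero.1
    apply (traceForm_nondegenerate F L).1
    intro z
    show Algebra.trace F L ((starL (F := F) L ha k - k) * z) = 0
    rw [sub_mul, map_sub, hk, sub_eq_zero]
    have h3 : starL (F := F) L ha k * z = starL (F := F) L ha (k * starL (F := F) L ha z) := by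
      rw [map_mul, starL_starL ha hF hfr]
    rw [h3, trace_star ha hF hfr, hk, hℓs, frob_frob]
  -- V = j(L) v0
  let ψ : L →ₗ[F] V :=
    { toFun := fun x => j x v0
      map_add' := fun x y => by rw [map_add]; rfl
      map_smul' := fun c x => by rw [map_smul]; rfl }
  have hψ : ∀ x, ψ x = j x v0 := fun x => rfl
  have hψi : Function.Injective ψ := by
    rw [injective_iff_map_eq_zero]
    intro x hx
    by_contra hx0
    exact hjne x hx0 hx
  have hψs : Function.Surjective ψ :=
    (LinearMap.injective_iff_surjective_of_finrank_eq_finrank (by rw [hfr, hd])).1 hψi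
  have hk0 : k ≠ 0 := by
    intro h0
    apply hv0
    apply h.nondeg_right
    intro w
    obtain ⟨x, rfl⟩ := hψs w
    rw [hψ, ← hℓ, ← hk, h0, zero_mul, map_zero]
  have hsne : starL (F := F) L ha ≠ RingHom.id L := by
    intro hh
    obtain ⟨c0, hc0⟩ := frob_ne hF
    apply hc0
    apply (algebraMap F L).injective
    rw [← starL_alg ha hF, hh]; rfl
  obtain ⟨r, hr⟩ := WittHerm.norm_surj hsne (starL_starL ha hF hfr) hks
  have hr0 : r ≠ 0 := by
    rintro rfl
    rw [zero_mul] at hr
    exact hk0 hr.symm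
  have hsr0 : starL (F := F) L ha r ≠ 0 := by
    intro hh
    apply hr0
    rw [← starL_starL (F := F) ha hF hfr r, hh, map_zero]
  -- the isometry
  let θ0 : L →ₗ[F] V :=
    { toFun := fun x => j (r⁻¹ * x) v0
      map_add' := fun x y => by rw [mul_add, map_add]; rfl
      map_smul' := fun c x => by rw [mul_smul_comm, map_smul]; rfl }
  have hθ0 : ∀ x, θ0 x = j (r⁻¹ * x) v0 := fun x => rfl
  have hθi : Function.Injective θ0 := by
    rw [injective_iff_map_eq_zero]
    intro x hx
    by_contra hx0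
    exact hjne (r⁻¹ * x) (mul_ne_zero (inv_ne_zero hr0) hx0) hx
  let θ := LinearEquiv.ofInjectiveOfFinrankEq (f := θ0) hθi (by rw [hfr, hd])
  have hθ : ∀ x, θ x = θ0 x := fun x => rfl
  refine ⟨θ, l, ?_, ?_⟩
  · intro x y
    rw [hθ, hθ, hθ0, hθ0]
    have h3 : B (j (r⁻¹ * x) v0) (j (r⁻¹ * y) v0) = B (j (starL (F := F) L ha (r⁻¹ * y)) (j (r⁻¹ * x) v0)) v0 := by
      rw [hadj (starL (F := F) L ha (r⁻¹ * y)), starL_starL ha hF hfr]
    rw [h3, ← Module.End.mul_apply, ← map_mul, ← hℓ, ← hk, ← hr]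
    unfold hL
    congr 1
    rw [map_mul, map_inv₀]
    field_simp
  · intro x
    rw [hθ, hθ, hθ0, hθ0, ← hjl, ← Module.End.mul_apply, ← map_mul]
    congr 2
    ring

end Cfsg.Agent.Lib.CovU3
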