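import Cfsg.Agent.Lib.CovU4a
import Cfsg.Agent.Lib.ClUnitary2

set_option autoImplicit false

/-! `PSU₄(q)` is the union of the conjugates of two proper subgroups (helper50). -/

namespace Cfsg.Agent.Lib.CovU4

open Module Cfsg.Agent.Lib.HermAlg Cfsg.Agent.Lib.HermMat Cfsg.Agent.Lib.ClUnitary Cfsg.Agent.Lib.ClIso Matrix

section gen

variable {F : Type*} [Field F] [Fintype F] {q n : ℕ}

theorem isHerm (hF : Fintype.card F = q ^ 2) : IsHerm (frob hF) 1 (hermForm n F q) where
  add_left := fun x y z => hermForm_add_left x y z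
  smul_left := fun c x y => hermForm_smul_left c x y
  symm := fun x y => by rw [one_mul, frob_apply, hermForm_swap hF]
  nondeg := by
    intro x hx
    by_contra h0
    obtain ⟨y, hy⟩ := exists_ne_zero hF h0
    apply hy
    rw [← hermForm_swap hF x y, hx, zero_pow]
    have := two_le_q hF
    omega

theorem frob_ne (hF : Fintype.card F = q ^ 2) : ∃ c : F, frob hF c ≠ c := by
  by_contra hcon
  push Not at hcon
  exact frob_ne_id hF (RingHom.ext hcon)

/-- the linear map of an element of `SU` -/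
def act : SU n F q →* Module.End F (Fin n → F) where
  toFun g := Matrix.mulVecLin g.1.1
  map_one' := by
    apply LinearMap.ext
    intro x
    show (1 : Matrix (Fin n) (Fin n) F) *ᵥ x = x
    rw [one_mulVec]
  map_mul' := by
    intro a b
    apply LinearMap.ext
    intro x
    show (a.1.1 * b.1.1) *ᵥ x = a.1.1 *ᵥ (b.1.1 *ᵥ x)
    rw [mulVec_mulVec]

omit [Fintype F] in
theorem act_apply (g : SU n F q) (x : Fin n → F) : act g x = g.1.1 *ᵥ x := rfl

omit [Fintype F] in
theorem act_isom (g : SU n F q) (x y : Fin n → F) : hermForm n F q (act g x) (act g y) = hermForm n F q x y := g.2 x y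

theorem exists_pow (g : SU n F q) : ∃ N : ℕ, g ^ (N + 1) = 1 := by
  haveI : Finite (SU n F q) := inferInstance
  refine ⟨orderOf g - 1, ?_⟩
  rw [Nat.sub_add_cancel (orderOf_pos g)]
  exact pow_orderOf_eq_one g

/-- stabilizer of a subspace -/
def stab (n : ℕ) (F : Type*) [Field F] [Fintype F] (q : ℕ) (W : Submodule F (Fin n → F)) : Subgroup (SU n F q) where
  carrier := {g | ∀ x ∈ W, act g x ∈ W}
  one_mem' := by
    intro x hx
    rw [map_one]; exact hx
  mul_mem' := by
    intro a b ha hb x hx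
    rw [map_mul]
    exact ha _ (hb _ hx)
  inv_mem' := by
    intro a ha x hx
    obtain ⟨N, hN⟩ := exists_pow a
    have h1 : a⁻¹ = a ^ N := by
      rw [inv_eq_iff_mul_eq_one, ← pow_succ']; exact hN
    have h2 : ∀ k : ℕ, act (a ^ k) x ∈ W := by
      intro k
      induction k with
      | zero => rw [pow_zero, map_one]; exact hx
      | succ k ih => rw [pow_succ', map_mul]; exact ha _ ih
    rw [h1]
    exact h2 N

theorem mem_stab {W : Submodule F (Fin n → F)} {g : SU n F q} : g ∈ stab n F q W ↔ ∀ x ∈ W, act g x ∈ W := Iff.rfl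

/-- subgroup of `PSU` from a stabilizer -/
noncomputable def pstab (n : ℕ) (F : Type*) [Field F] [Fintype F] (q : ℕ) (W : Submodule F (Fin n → F)) : Subgroup (PSU n F q) :=
  (stab n F q W).map (QuotientGroup.mk' _)

theorem pstab_ne_top (hF : Fintype.card F = q ^ 2) (hn : 2 ≤ n) {W : Submodule F (Fin n → F)} (g : SU n F q)
    (hg : g ∉ stab n F q W) : pstab n F q W ≠ ⊤ := by
  intro htop
  have h1 : (g : PSU n F q) ∈ pstab n F q W := by rw [htop]; trivial
  obtain ⟨s, hs, hsg⟩ := h1
  have h2 : s⁻¹ * g ∈ Subgroup.center (SU n F q) := (QuotientGroup.eq).1 hsg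
  obtain ⟨c, hc⟩ := (center_SU hF hn _).1 h2
  apply hg
  intro x hx
  have h3 : g = s * (s⁻¹ * g) := by group
  rw [h3, map_mul]
  apply hs
  rw [act_apply, hc]
  have : Matrix.scalar (Fin n) c *ᵥ x = c • x := by
    rw [Matrix.scalar_apply, ← Matrix.smul_one_eq_diagonal, smul_mulVec, one_mulVec]
  rw [this]
  exact W.smul_mem c hx

theorem exists_conj {W W' : Submodule F (Fin n → F)} {g : SU n F q} (hg : g ∈ stab n F q W') (x : SU n F q)
    (hx : ∀ v ∈ W', act x v ∈ W) (hx' : ∀ v ∈ W, act x⁻¹ v ∈ W') :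
    ∃ y : PSU n F q, y * (g : PSU n F q) * y⁻¹ ∈ pstab n F q W := by
  refine ⟨(x : PSU n F q), x * g * x⁻¹, ?_, rfl⟩
  intro v hv
  rw [map_mul, map_mul]
  exact hx _ (hg _ (hx' v hv))

/-- an isometry given by Witt's theorem, as a matrix -/
theorem witt_mat (hF : Fintype.card F = q ^ 2) {k : ℕ} (e e' : Fin k → (Fin n → F)) (he : LinearIndependent F e)
    (he' : LinearIndependent F e') (h : ∀ i j, hermForm n F q (e i) (e j) = hermForm n F q (e' i) (e' j)) :
    ∃ A : Matrix (Fin n) (Fin n) F, IsUn q A ∧ ∀ i, A *ᵥ e i = e' i := by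
  obtain ⟨g, hg⟩ := witt_family hF e e' he he' h
  have hm : ∀ v, LinearMap.toMatrix' ((g : (Fin n → F) ≃ₗ[F] (Fin n → F)) : (Fin n → F) →ₗ[F] (Fin n → F)) *ᵥ v =
      (g : (Fin n → F) ≃ₗ[F] (Fin n → F)) v := by
    intro v
    rw [← Matrix.toLin'_apply, Matrix.toLin'_toMatrix']
    rfl
  refine ⟨_, ?_, fun i => by rw [hm]; exact hg i⟩
  intro u v
  rw [hm, hm]
  exact g.2 u v

/-- an element of `SU` from a unitary matrix of determinant one -/
def mkSU (A : Matrix (Fin n) (Fin n) F) (hA : IsUn q A) (hd : A.det = 1) : SU n F q := ⟨⟨A, hd⟩, hA⟩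

omit [Fintype F] in
theorem act_mkSU (A : Matrix (Fin n) (Fin n) F) (hA : IsUn q A) (hd : A.det = 1) (x : Fin n → F) :
    act (mkSU A hA hd) x = A *ᵥ x := rfl

omit [Fintype F] in
theorem mulVec_rank (a b z : Fin n → F) : (1 + replicateCol Unit a * replicateRow Unit b) *ᵥ z = z + (b ⬝ᵥ z) • a := by
  rw [add_mulVec, one_mulVec]
  congr 1
  ext i
  simp [Matrix.mulVec, Matrix.mul_apply, dotProduct, replicateCol, replicateRow, Finset.sum_mul, Finset.mul_sum]
  apply Finset.sum_congr rfl
  intro j _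
  ring

/-- unitary matrix of given determinant fixing the point `f` and the vectors orthogonal to `f, u` -/
theorem exists_tor (hF : Fintype.card F = q ^ 2) {f u : Fin n → F} (hf : hermForm n F q f f = 0) (hu : hermForm n F q u u = 0)
    (hfu : hermForm n F q f u = 1) {d : F} (hd : d ^ (q + 1) = 1) :
    ∃ A : Matrix (Fin n) (Fin n) F, IsUn q A ∧ A.det = d ∧ (∃ m : F, A *ᵥ f = m • f) ∧
      ∀ z, hermForm n F q z f = 0 → hermForm n F q z u = 0 → A *ᵥ z = z := by
  have huf : hermForm n F q u f = 1 := by rw [← hermForm_swap hF, hfu, one_pow]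
  obtain ⟨m, hm0, hm⟩ := WittHerm.hilbert90 (frob_ne_id hF) (frob_frob hF) (x := d) (by
    rw [frob_apply, ← pow_succ']; exact hd)
  have hsm0 : frob hF m ≠ 0 := by
    intro h
    apply hm0
    rw [← frob_frob hF m, h, map_zero]
  set k := (frob hF m)⁻¹ with hk
  have hk0 : k ≠ 0 := inv_ne_zero hsm0
  set A : Matrix (Fin n) (Fin n) F :=
    (1 + replicateCol Unit ((m - 1) • f) * replicateRow Unit (fun i => u i ^ q)) *
    (1 + replicateCol Unit ((k - 1) • u) * replicateRow Unit (fun i => f i ^ q)) with hA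
  have hdot : ∀ (z w : Fin n → F), (fun i => w i ^ q) ⬝ᵥ z = hermForm n F q z w := by
    intro z w
    rw [hermForm_def, dotProduct]
    exact Finset.sum_congr rfl (fun i _ => mul_comm _ _)
  have hAz : ∀ z, A *ᵥ z = z + ((m - 1) * hermForm n F q z u) • f + ((k - 1) * hermForm n F q z f) • u := by
    intro z
    rw [hA, ← mulVec_mulVec, mulVec_rank, mulVec_rank, hdot, hdot, hermForm_add_left, hermForm_smul_left,
      hermForm_smul_left, hu]
    rw [smul_smul, smul_smul]
    ext i
    simp only [Pi.add_apply, Pi.smul_apply, smul_eq_mul]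
    ring
  have hAtor : ∀ z, A *ᵥ z = WittHerm.torMap (HB hF n) f u m k z := by
    intro z
    rw [WittHerm.torMap_apply, hAz]
    rfl
  refine ⟨A, ?_, ?_, ⟨m, ?_⟩, ?_⟩
  · intro x y
    rw [hAtor, hAtor]
    exact WittHerm.torMap_isometry (B := HB hF n) (HB_symm hF) (w := f) (u := u) hf hu (by rw [HB_apply]; exact huf)
      (by rw [hk]; exact mul_inv_cancel₀ hsm0) (by
        rw [hk, map_inv₀, frob_frob]; exact mul_inv_cancel₀ hm0) y x
  · rw [hA, det_mul, det_one_add_replicateCol_mul_replicateRow, det_one_add_replicateCol_mul_replicateRow, hdot, hdot,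
      hermForm_smul_left, hermForm_smul_left, hfu, huf, hm, hk]
    field_simp
    ring
  · rw [hAz, hfu, hf, mul_zero, zero_smul, mul_one, add_zero, sub_smul, one_smul]
    abel
  · intro z h1 h2
    rw [hAz, h1, h2, mul_zero, mul_zero, zero_smul, zero_smul, add_zero, add_zero]

theorem exists_conj' {W W' : Submodule F (Fin n → F)} {g : SU n F q} (hg : g ∈ stab n F q W') (x : SU n F q)
    (hx : ∀ v ∈ W', act x v ∈ W) (hfr : finrank F W' = finrank F W) :
    ∃ y : PSU n F q, y * (g : PSU n F q) * y⁻¹ ∈ pstab n F q W := by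
  have hinv : ∀ v, act x⁻¹ (act x v) = v := by
    intro v
    rw [← Module.End.mul_apply, ← map_mul, inv_mul_cancel, map_one]; rfl
  have hinv' : ∀ v, act x (act x⁻¹ v) = v := by
    intro v
    rw [← Module.End.mul_apply, ← map_mul, mul_inv_cancel, map_one]; rfl
  apply exists_conj hg x hx
  let φ : W' →ₗ[F] W := (act x).restrict hx
  have hφ : Function.Injective φ := by
    intro a b hab
    apply Subtype.ext
    have h1 : act x (a : Fin n → F) = act x (b : Fin n → F) := congrArg Subtype.val hab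
    rw [← hinv a, ← hinv b, h1]
  have hs := (LinearMap.injective_iff_surjective_of_finrank_eq_finrank hfr).1 hφ
  intro v hv
  obtain ⟨w, hw⟩ := hs ⟨v, hv⟩
  have h1 : act x (w : Fin n → F) = v := congrArg Subtype.val hw
  rw [← h1, hinv]
  exact w.2

/-- `SU` is transitive on nonisotropic points -/
theorem trans_point (hF : Fintype.card F = q ^ 2) {i j : Fin n} (hij : i ≠ j) {v : Fin n → F} (hv : hermForm n F q v v ≠ 0) :
    ∃ x : SU n F q, ∀ w ∈ Submodule.span F {v}, act x w ∈ Submodule.span F {(Pi.single i 1 : Fin n → F)} := by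
  have hq := two_le_q hF
  obtain ⟨c, hc⟩ := exists_norm hF (c := (hermForm n F q v v)⁻¹) (by rw [inv_pow, hermForm_swap hF])
  have hc0 : c ≠ 0 := by
    rintro rfl
    rw [zero_pow (by omega)] at hc
    exact hv (inv_eq_zero.1 hc.symm)
  have hv' : hermForm n F q (c • v) (c • v) = 1 := by
    rw [hermForm_smul_left, hermForm_smul_right, ← mul_assoc, ← pow_succ', hc, inv_mul_cancel₀ hv]
  have hv0 : c • v ≠ 0 := by
    intro h
    rw [h, hermForm_zero_left] at hv'
    exact zero_ne_one hv'
  have he0 : hermForm n F q (Pi.single i 1) (Pi.single i 1) = 1 := by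
    rw [hermForm_single_left, Pi.single_eq_same, one_pow]
  have hs0 : (Pi.single i 1 : Fin n → F) ≠ 0 := by
    intro h
    rw [h, hermForm_zero_left] at he0
    exact zero_ne_one he0
  obtain ⟨A, hA, hAe⟩ := witt_mat hF (k := 1) (fun _ => c • v) (fun _ => Pi.single i 1)
    (LinearIndependent.of_subsingleton 0 hv0) (LinearIndependent.of_subsingleton 0 hs0)
    (fun _ _ => by rw [hv', he0])
  have hdet := hA.det_pow hF
  have hd0 : A.det ≠ 0 := by
    intro h
    rw [h, zero_pow (by omega)] at hdet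
    exact zero_ne_one hdet
  have hD : IsUn q (Matrix.diagonal (fun k : Fin n => if k = j then A.det⁻¹ else 1)) := by
    apply isUn_diagonal
    intro k
    split_ifs
    · rw [inv_pow, hdet, inv_one]
    · rw [one_pow]
  refine ⟨mkSU (Matrix.diagonal (fun k : Fin n => if k = j then A.det⁻¹ else 1) * A) (hD.mul hA) ?_, ?_⟩
  · rw [det_mul, det_diagonal, Finset.prod_ite_eq' Finset.univ j]
    simp [hd0]
  · intro w hw
    rw [Submodule.mem_span_singleton] at hw
    obtain ⟨b, rfl⟩ := hw
    rw [act_mkSU, ← mulVec_mulVec]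
    have h1 : b • v = (b * c⁻¹) • (c • v) := by
      rw [smul_smul, mul_assoc, inv_mul_cancel₀ hc0, mul_one]
    rw [h1, mulVec_smul, hAe 0, mulVec_smul]
    apply Submodule.smul_mem
    have h2 : Matrix.diagonal (fun k : Fin n => if k = j then A.det⁻¹ else 1) *ᵥ (Pi.single i 1 : Fin n → F) = Pi.single i 1 := by
      ext k
      rw [mulVec_diagonal]
      by_cases hk : k = i
      · rw [hk, if_neg hij, one_mul]
      · rw [Pi.single_eq_of_ne hk, mul_zero]
    rw [h2]
    exact Submodule.mem_span_singleton_self _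

/-- `SU` is transitive on totally singular planes; here the target is spanned by `f, f'` and `u` is a hyperbolic partner of `f` -/
theorem trans_plane (hF : Fintype.card F = q ^ 2) {f f' u : Fin n → F} (hf : hermForm n F q f f = 0)
    (hff' : hermForm n F q f' f = 0) (hf' : hermForm n F q f' f' = 0)
    (hu : hermForm n F q u u = 0) (hfu : hermForm n F q f u = 1) (hf'u : hermForm n F q f' u = 0)
    (hli : LinearIndependent F ![f, f']) {W : Submodule F (Fin n → F)} (hW : finrank F W = 2)
    (hti : ∀ x ∈ W, ∀ y ∈ W, hermForm n F q x y = 0) :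
    ∃ x : SU n F q, ∀ w ∈ W, act x w ∈ Submodule.span F {f, f'} := by
  have hq := two_le_q hF
  have hff : hermForm n F q f f' = 0 := by rw [← hermForm_swap hF, hff', zero_pow (by omega)]
  let b := finBasisOfFinrankEq F W hW
  obtain ⟨A, hA, hAe⟩ := witt_mat hF (k := 2) (fun i => (b i : Fin n → F)) ![f, f']
    (b.linearIndependent.map' W.subtype (Submodule.ker_subtype W)) hli
    (by
      intro i j
      rw [hti _ (b i).2 _ (b j).2]
      fin_cases i <;> fin_cases j
      · exact hf.symm
      · exact hff.symm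
      · exact hff'.symm
      · exact hf'.symm)
  have hdet := hA.det_pow hF
  have hd0 : A.det ≠ 0 := by
    intro h
    rw [h, zero_pow (by omega)] at hdet
    exact zero_ne_one hdet
  obtain ⟨D, hD, hDd, ⟨m, hDm⟩, hDz⟩ := exists_tor hF hf hu hfu (d := A.det⁻¹) (by rw [inv_pow, hdet, inv_one])
  refine ⟨mkSU (D * A) (hD.mul hA) (by rw [det_mul, hDd, inv_mul_cancel₀ hd0]), ?_⟩
  intro w hw
  have h1 : w = b.repr ⟨w, hw⟩ 0 • (b 0 : Fin n → F) + b.repr ⟨w, hw⟩ 1 • (b 1 : Fin n → F) := by
    have h2 := congrArg Subtype.val (b.sum_repr ⟨w, hw⟩)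
    rw [Fin.sum_univ_two] at h2
    exact h2.symm
  have hA0 : A *ᵥ (b 0 : Fin n → F) = f := hAe 0
  have hA1 : A *ᵥ (b 1 : Fin n → F) = f' := hAe 1
  rw [act_mkSU, ← mulVec_mulVec, h1, mulVec_add, mulVec_smul, mulVec_smul, hA0, hA1, mulVec_add, mulVec_smul, mulVec_smul,
    hDm, hDz f' hff' hf'u]
  exact Submodule.add_mem _ (Submodule.smul_mem _ _ (Submodule.smul_mem _ _ (Submodule.subset_span (by simp))))
    (Submodule.smul_mem _ _ (Submodule.subset_span (by simp)))

end gen

section four

variable {F : Type*} [Field F] [Fintype F] {q : ℕ}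

theorem hf4 (x y : Fin 4 → F) : hermForm 4 F q x y = x 0 * y 0 ^ q + x 1 * y 1 ^ q + x 2 * y 2 ^ q + x 3 * y 3 ^ q := by
  rw [hermForm_def, Fin.sum_univ_four]

/-- **`PSU₄(q)` has a 2-covering** -/
theorem psu4' (hq : Fintype.card F = q ^ 2) : ∃ H K : Subgroup (PSU 4 F q), H ≠ ⊤ ∧ K ≠ ⊤ ∧
    ∀ g : PSU 4 F q, ∃ x : PSU 4 F q, x * g * x⁻¹ ∈ H ∨ x * g * x⁻¹ ∈ K := by
  have hq2 := two_le_q hq
  have hq0 : q ≠ 0 := by omega
  obtain ⟨a, ha⟩ := exists_norm hq (c := (-1 : F)) (by rw [neg_pow_q hq, one_pow])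
  have ha0 : a ≠ 0 := by
    rintro rfl
    rw [zero_pow (by omega)] at ha
    exact (neg_ne_zero.2 one_ne_zero) ha.symm
  have ha' : a * a ^ q = -1 := by rw [← pow_succ']; exact ha
  obtain ⟨t, ht⟩ := exists_trace hq (c := (-1 : F)) (by rw [neg_pow_q hq, one_pow])
  set f : Fin 4 → F := ![1, a, 0, 0] with hf
  set f' : Fin 4 → F := ![0, 0, 1, a] with hf'
  set u : Fin 4 → F := ![1 + t, t * a, 0, 0] with hu
  have hff : hermForm 4 F q f f = 0 := by
    rw [hf4]
    simp only [hf, cons_val, zero_pow hq0, one_pow]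
    linear_combination ha'
  have hf'f : hermForm 4 F q f' f = 0 := by
    rw [hf4]
    simp only [hf, hf', cons_val, zero_pow hq0, one_pow]
    ring
  have hf'f' : hermForm 4 F q f' f' = 0 := by
    rw [hf4]
    simp only [hf', cons_val, zero_pow hq0, one_pow]
    linear_combination ha'
  have huu : hermForm 4 F q u u = 0 := by
    rw [hf4]
    simp only [hu, cons_val, zero_pow hq0, add_pow_q hq, mul_pow, one_pow]
    linear_combination ht + t * t ^ q * ha'
  have hfu : hermForm 4 F q f u = 1 := by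
    rw [hf4]
    simp only [hf, hu, cons_val, zero_pow hq0, add_pow_q hq, mul_pow, one_pow]
    linear_combination t ^ q * ha'
  have hf'u : hermForm 4 F q f' u = 0 := by
    rw [hf4]
    simp only [hf', hu, cons_val, zero_pow hq0]
    ring
  have hf0 : f ≠ 0 := by
    intro h
    have := congrFun h 0
    simp [hf] at this
  have hli : LinearIndependent F ![f, f'] := by
    rw [LinearIndependent.pair_iff' hf0]
    intro c hc
    have h1 := congrFun hc 0
    have h2 := congrFun hc 2
    simp only [hf, hf', Pi.smul_apply, cons_val, smul_eq_mul] at h1 h2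
    rw [mul_one] at h1
    rw [h1, zero_mul] at h2
    exact zero_ne_one h2
  have hfr2 : finrank F (Submodule.span F {f, f'}) = 2 := by
    have := finrank_span_eq_card hli
    rwa [Matrix.range_cons, Matrix.range_cons, Matrix.range_empty, Set.union_empty, Set.singleton_union,
      Fintype.card_fin] at this
  have hs0 : (Pi.single 0 1 : Fin 4 → F) ≠ 0 := by
    intro h
    have := congrFun h 0
    simp at this
  refine ⟨pstab 4 F q (Submodule.span F {(Pi.single 0 1 : Fin 4 → F)}), pstab 4 F q (Submodule.span F {f, f'}), ?_, ?_, ?_⟩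
  · apply pstab_ne_top hq (by norm_num) (swSU hq (show (0 : Fin 4) ≠ 1 by decide))
    intro hs
    have h1 := hs _ (Submodule.mem_span_singleton_self _)
    rw [Submodule.mem_span_singleton] at h1
    obtain ⟨c, hc⟩ := h1
    have h2 := congrFun hc 1
    rw [Pi.smul_apply, Pi.single_eq_of_ne (by decide), smul_zero, act_apply] at h2
    change 0 = ((Matrix.diagonal (fun k : Fin 4 => ((if k = 0 then (-1) else 1 : Fˣ) : F)) * (Equiv.swap (0 : Fin 4) 1).permMatrix F) *ᵥ (Pi.single 0 1 : Fin 4 → F)) 1 at h2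
    rw [mulVec_single_one, col_apply, diagonal_mul] at h2
    simp [Equiv.Perm.permMatrix, PEquiv.toMatrix_apply] at h2
  · obtain ⟨c, hc, hc2⟩ := exists_norm_one_ne hq
    apply pstab_ne_top hq (by norm_num) (dgSU (show (0 : Fin 4) ≠ 2 by decide) c hc)
    intro hs
    have h1 := hs f (Submodule.subset_span (by simp))
    rw [Submodule.mem_span_pair] at h1
    obtain ⟨α, β, hαβ⟩ := h1
    rw [act_apply] at hαβ
    change _ = (Matrix.diagonal fun k : Fin 4 => ((if k = 0 then c else 1) * (if k = 2 then c⁻¹ else 1) : Fˣ).val) *ᵥ f at hαβ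
    have h2 := congrFun hαβ 0
    have h3 := congrFun hαβ 1
    rw [mulVec_diagonal] at h2 h3
    simp [hf, hf'] at h2 h3
    rw [h2] at h3
    apply hc2
    have h4 : (c : F) = 1 := mul_right_cancel₀ ha0 (by rw [one_mul]; exact h3)
    have : c = 1 := Units.ext h4
    rw [this, one_pow]
  · intro g
    obtain ⟨g, rfl⟩ := QuotientGroup.mk_surjective g
    obtain ⟨N, hN⟩ := exists_pow g
    rcases main4 (isHerm hq) (frob_frob hq) (frob_ne hq) (by rw [Module.finrank_fin_fun]) (act g) (act_isom g) N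
      (by rw [← map_pow, hN, map_one]) with ⟨v, hv, c, hc⟩ | ⟨W, hW, hWi, hti⟩
    · obtain ⟨x, hx⟩ := trans_point hq (show (0 : Fin 4) ≠ 1 by decide) hv
      have hv0 : v ≠ 0 := by
        rintro rfl
        rw [hermForm_zero_left] at hv
        exact hv rfl
      obtain ⟨y, hy⟩ := exists_conj' (W := Submodule.span F {(Pi.single 0 1 : Fin 4 → F)}) (W' := Submodule.span F {v})
        (g := g) (by
          intro w hw
          rw [Submodule.mem_span_singleton] at hw ⊢
          obtain ⟨b, rfl⟩ := hw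
          exact ⟨b * c, by rw [map_smul, hc, smul_smul]⟩) x hx (by
          rw [finrank_span_singleton hv0, finrank_span_singleton hs0])
      exact ⟨y, Or.inl hy⟩
    · obtain ⟨x, hx⟩ := trans_plane hq hff hf'f hf'f' huu hfu hf'u hli hW hti
      obtain ⟨y, hy⟩ := exists_conj' (g := g) hWi x hx (by rw [hW, hfr2])
      exact ⟨y, Or.inr hy⟩

end four

/-- **`PSU₄(q)` has a 2-covering** -/
theorem psu4 {F : Type} [Field F] [Fintype F] (q : ℕ) (hq : Fintype.card F = q ^ 2) :
    ∃ H K : Subgroup (Cfsg.PSU 4 F q), H ≠ ⊤ ∧ K ≠ ⊤ ∧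
      ∀ g : Cfsg.PSU 4 F q, ∃ x : Cfsg.PSU 4 F q, x * g * x⁻¹ ∈ H ∨ x * g * x⁻¹ ∈ K := psu4' hq

end Cfsg.Agent.Lib.CovU4
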