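import Cfsg.Agent.Lib.HermAlg2

set_option autoImplicit false

/-! Isometries of hermitian spaces of dimension four (helper50). -/

namespace Cfsg.Agent.Lib.CovU4

open Module Polynomial Cfsg.Agent.Lib.HermAlg

section general

variable {F : Type*} [Field F] [Finite F] {σ : F →+* F}
  {V : Type*} [AddCommGroup V] [Module F V] [FiniteDimensional F V] {B : V → V → F}

/-- the minimal polynomial of an irreducible endomorphism -/
theorem irr_minpoly [Nontrivial V] (T : Module.End F V)
    (hirr : ∀ U : Submodule F V, (∀ x ∈ U, T x ∈ U) → U = ⊥ ∨ U = ⊤) :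
    Irreducible (minpoly F T) ∧ (minpoly F T).natDegree = finrank F V := by
  classical
  have hint : IsIntegral F T := Algebra.IsIntegral.isIntegral T
  have hm0 : minpoly F T ≠ 0 := minpoly.ne_zero hint
  have hker : ∀ a : F[X], aeval T a = 0 ∨ Function.Injective (aeval T a : Module.End F V) := by
    intro a
    rcases hirr (LinearMap.ker (aeval T a)) (by
      intro x hx
      rw [LinearMap.mem_ker] at hx ⊢
      have h1 : (aeval T a) * T = T * (aeval T a) := by
        have h3 : aeval T (a * X) = aeval T (X * a) := by rw [mul_comm]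
        rwa [map_mul, map_mul, aeval_X] at h3
      have h2 := LinearMap.congr_fun h1 x
      rw [Module.End.mul_apply, Module.End.mul_apply, hx, map_zero] at h2
      exact h2) with h | h
    · right
      exact LinearMap.ker_eq_bot.1 h
    · left
      exact LinearMap.ker_eq_top.1 h
  have hirrm : Irreducible (minpoly F T) := by
    refine ⟨minpoly.not_isUnit F T, ?_⟩
    intro a b hab
    rcases hker a with h | h
    · right
      have h1 : minpoly F T ∣ a := minpoly.dvd F T h
      obtain ⟨d, hd⟩ := h1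
      have h2 : minpoly F T * 1 = minpoly F T * (d * b) := by
        rw [mul_one, ← mul_assoc, ← hd]; exact hab
      have h3 := mul_left_cancel₀ hm0 h2
      exact IsUnit.of_mul_eq_one d (by rw [mul_comm]; exact h3.symm)
    · left
      have h0 : aeval T (a * b) = 0 := by rw [← hab]; exact minpoly.aeval F T
      have h1 : aeval T b = 0 := by
        apply LinearMap.ext
        intro x
        apply h
        have := LinearMap.congr_fun h0 x
        rw [map_mul, Module.End.mul_apply] at this
        rw [this]; simp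
      obtain ⟨d, hd⟩ := minpoly.dvd F T h1
      have h2 : minpoly F T * 1 = minpoly F T * (d * a) := by
        rw [mul_one, ← mul_assoc, ← hd, mul_comm b a]; exact hab
      have h3 := mul_left_cancel₀ hm0 h2
      exact IsUnit.of_mul_eq_one d (by rw [mul_comm]; exact h3.symm)
  refine ⟨hirrm, le_antisymm ?_ ?_⟩
  · have h1 := LinearMap.minpoly_dvd_charpoly T
    have h2 := Polynomial.natDegree_le_of_dvd h1 (LinearMap.charpoly_monic T).ne_zero
    rwa [LinearMap.charpoly_natDegree] at h2
  · obtain ⟨w, hw⟩ := exists_ne (0 : V)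
    let φ : F[X] →ₗ[F] V :=
      { toFun := fun P => (aeval T P : Module.End F V) w
        map_add' := fun a b => by rw [map_add]; rfl
        map_smul' := fun c a => by rw [map_smul]; rfl }
    have hφ : ∀ P, φ P = (aeval T P : Module.End F V) w := fun P => rfl
    have htop : LinearMap.range φ = ⊤ := by
      rcases hirr (LinearMap.range φ) (by
        rintro x ⟨P, rfl⟩
        refine ⟨X * P, ?_⟩
        rw [hφ, hφ, map_mul, aeval_X]; rfl) with h | h
      · exfalso
        have h1 : w ∈ LinearMap.range φ := ⟨1, by rw [hφ, map_one]; rfl⟩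
        rw [h] at h1
        exact hw h1
      · exact h
    let ψ : degreeLT F (minpoly F T).natDegree →ₗ[F] V := φ.comp (Submodule.subtype _)
    have hψ : Function.Surjective ψ := by
      intro v
      have : v ∈ LinearMap.range φ := by rw [htop]; trivial
      obtain ⟨P, hP⟩ := this
      refine ⟨⟨P %ₘ minpoly F T, ?_⟩, ?_⟩
      · rw [Polynomial.mem_degreeLT, ← Polynomial.degree_eq_natDegree hm0]
        exact Polynomial.degree_modByMonic_lt _ (minpoly.monic hint)
      · show φ (P %ₘ minpoly F T) = v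
        rw [hφ, ← hP, hφ]
        have h1 := Polynomial.modByMonic_add_div P (minpoly F T)
        conv_rhs => rw [← h1, map_add, map_mul, minpoly.aeval, zero_mul, add_zero]
    have h1 := LinearMap.finrank_le_finrank_of_surjective hψ
    rw [(Polynomial.degreeLTEquiv F (minpoly F T).natDegree).finrank_eq, Module.finrank_fintype_fun_eq_card,
      Fintype.card_fin] at h1
    exact h1

/-- an irreducible isometry acts in odd dimension -/
theorem odd_of_irr (h : IsHerm σ 1 B) (hσ : ∀ c, σ (σ c) = c) (hσ1 : ∃ c, σ c ≠ c) (T : Module.End F V)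
    (hT : ∀ x y, B (T x) (T y) = B x y) (N : ℕ) (hN : T ^ (N + 1) = 1) [Nontrivial V]
    (hirr : ∀ U : Submodule F V, (∀ x ∈ U, T x ∈ U) → U = ⊥ ∨ U = ⊤) : Odd (finrank F V) := by
  obtain ⟨h1, h2⟩ := irr_minpoly T hirr
  haveI : Fact (Irreducible (minpoly F T)) := ⟨h1⟩
  obtain ⟨τ, hτ1, -, hτ2⟩ := local_star h hσ T hT N hN (minpoly F T) 1 (by rw [pow_one]; exact minpoly.aeval F T) dvd_rfl
  have hfinK : FiniteDimensional F (AdjoinRoot (minpoly F T)) := (AdjoinRoot.powerBasis h1.ne_zero).finite
  haveI : Finite (AdjoinRoot (minpoly F T)) := Module.finite_of_finite F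
  have hcard : Nat.card (AdjoinRoot (minpoly F T)) = Nat.card F ^ finrank F V := by
    rw [Module.natCard_eq_pow_finrank (K := F) (V := AdjoinRoot (minpoly F T)),
      (AdjoinRoot.powerBasis h1.ne_zero).finrank, AdjoinRoot.powerBasis_dim, h2]
  obtain ⟨c0, hc0⟩ := hσ1
  obtain ⟨r, hr, hrσ⟩ := involution_eq_pow σ hσ ⟨c0, hc0⟩
  have hinj : Function.Injective (algebraMap F (AdjoinRoot (minpoly F T))) := RingHom.injective _
  obtain ⟨s, hs, hsτ⟩ := involution_eq_pow τ hτ2 ⟨algebraMap F _ c0, by
    rw [hτ1]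
    intro hh
    exact hc0 (hinj hh)⟩
  rw [← Nat.not_even_iff_odd]
  rintro ⟨e, he⟩
  apply hc0
  have hs' : s = Nat.card F ^ e := by
    have h3 : s ^ 2 = (Nat.card F ^ e) ^ 2 := by
      rw [← hs, hcard, he]; ring
    exact Nat.pow_left_injective (n := 2) (by norm_num) h3
  have hpow : ∀ k : ℕ, c0 ^ (Nat.card F ^ k) = c0 := by
    intro k
    haveI := Fintype.ofFinite F
    rw [Nat.card_eq_fintype_card]
    exact FiniteField.pow_card_pow k c0
  have h4 := hsτ (algebraMap F _ c0)
  rw [hτ1, hs', ← map_pow, hpow] at h4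
  exact hinj h4

/-- orthogonal subspace -/
def perp (h : IsHerm σ 1 B) (W : Submodule F V) : Submodule F V where
  carrier := {x | ∀ w ∈ W, B x w = 0}
  add_mem' := by
    intro a b ha hb w hw
    rw [h.add_left, ha w hw, hb w hw, add_zero]
  zero_mem' := by
    intro w hw
    exact h.zero_left w
  smul_mem' := by
    intro c a ha w hw
    rw [h.smul_left, ha w hw, mul_zero]

omit [Finite F] [FiniteDimensional F V] in
theorem mem_perp (h : IsHerm σ 1 B) {W : Submodule F V} {x : V} : x ∈ perp h W ↔ ∀ w ∈ W, B x w = 0 := Iff.rfl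

omit [Finite F] [FiniteDimensional F V] in
theorem symm0 (h : IsHerm σ 1 B) {x y : V} (hxy : B x y = 0) : B y x = 0 := by
  rw [h.symm x y, hxy, map_zero, mul_zero]

theorem finrank_perp (h : IsHerm σ 1 B) (W : Submodule F V) : finrank F W + finrank F (perp h W) = finrank F V := by
  classical
  have hfinV : Finite V := Module.finite_of_finite F
  have h3 := (perp h W).finrank_quotient_add_finrank
  have hle : finrank F W ≤ finrank F (V ⧸ perp h W) := by
    let φ : W → Module.Dual F (V ⧸ perp h W) := fun w =>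
      (perp h W).liftQ { toFun := fun v => B v w
                         map_add' := fun a b => h.add_left a b w
                         map_smul' := fun c a => h.smul_left c a w } (by
        intro x hx
        exact hx w w.2)
    have hφ : Function.Injective φ := by
      intro w w' hww
      apply Subtype.ext
      apply h.ext_right
      intro x
      have := LinearMap.congr_fun hww (Submodule.Quotient.mk x)
      exact this
    have hfinD : Finite (Module.Dual F (V ⧸ perp h W)) := Module.finite_of_finite F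
    have h1 := Nat.card_le_card_of_injective φ hφ
    rw [Module.natCard_eq_pow_finrank (K := F) (V := W), Module.natCard_eq_pow_finrank (K := F) (V := Module.Dual F (V ⧸ perp h W)),
      Subspace.dual_finrank_eq] at h1
    exact (Nat.pow_le_pow_iff_right Finite.one_lt_card).mp h1
  have hge : finrank F (V ⧸ perp h W) ≤ finrank F W := by
    let ψ : V →+ Module.Dual F W :=
      { toFun := fun x =>
          { toFun := fun w => B (w : V) x
            map_add' := fun a b => h.add_left a b x
            map_smul' := fun c a => h.smul_left c a x }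
        map_zero' := by
          apply LinearMap.ext
          intro w
          exact h.zero_right _
        map_add' := by
          intro a b
          apply LinearMap.ext
          intro w
          exact h.add_right _ a b }
    have hψ : ∀ x (w : W), ψ x w = B (w : V) x := fun x w => rfl
    have hk : ∀ x, ψ x = 0 → x ∈ perp h W := by
      intro x hx w hw
      have h1 := LinearMap.congr_fun hx ⟨w, hw⟩
      rw [hψ] at h1
      exact symm0 h h1
    let χ : (V ⧸ perp h W) → Module.Dual F W := fun z => ψ z.out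
    have hχ : Function.Injective χ := by
      intro z z' hz
      have h1 : ψ (z.out - z'.out) = 0 := by
        rw [map_sub, sub_eq_zero]; exact hz
      have h2 := hk _ h1
      rw [← Submodule.Quotient.mk_out z, ← Submodule.Quotient.mk_out z', Submodule.Quotient.eq]
      exact h2
    have hfinD : Finite (Module.Dual F W) := Module.finite_of_finite F
    have h1 := Nat.card_le_card_of_injective χ hχ
    rw [Module.natCard_eq_pow_finrank (K := F) (V := (V ⧸ perp h W)), Module.natCard_eq_pow_finrank (K := F) (V := Module.Dual F W),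
      Subspace.dual_finrank_eq] at h1
    exact (Nat.pow_le_pow_iff_right Finite.one_lt_card).mp h1
  omega

theorem perp_perp (h : IsHerm σ 1 B) (W : Submodule F V) : perp h (perp h W) = W := by
  symm
  apply Submodule.eq_of_le_of_finrank_eq
  · intro x hx y hy
    exact symm0 h (hy x hx)
  · have h1 := finrank_perp h W
    have h2 := finrank_perp h (perp h W)
    omega

theorem perp_inv (h : IsHerm σ 1 B) (T : Module.End F V) (hT : ∀ x y, B (T x) (T y) = B x y) (N : ℕ) (hN : T ^ (N + 1) = 1)
    {W : Submodule F V} (hW : ∀ x ∈ W, T x ∈ W) : ∀ x ∈ perp h W, T x ∈ perp h W := by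
  intro x hx w hw
  rw [inv_adj hT hN]
  have : ∀ k : ℕ, (T ^ k) w ∈ W := by
    intro k
    induction k with
    | zero => exact hw
    | succ k ih => rw [pow_succ', Module.End.mul_apply]; exact hW _ ih
  exact hx _ (this N)

omit [Finite F] [FiniteDimensional F V] in
/-- a totally isotropic subspace is totally singular -/
theorem ti_of_isotropic (h : IsHerm σ 1 B) (hσ1 : ∃ c, σ c ≠ c) {W : Submodule F V} (hW : ∀ x ∈ W, B x x = 0) :
    ∀ x ∈ W, ∀ y ∈ W, B x y = 0 := by
  intro x hx y hy
  obtain ⟨c, hc⟩ := hσ1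
  have key : ∀ t : F, σ t * B x y + t * B y x = 0 := by
    intro t
    have h1 := hW (x + t • y) (W.add_mem hx (W.smul_mem t hy))
    rw [h.add_left, h.add_right, h.add_right, h.smul_left, h.smul_left, h.smul_right, h.smul_right, hW x hx, hW y hy] at h1
    linear_combination h1
  have h1 := key 1
  rw [map_one] at h1
  have h2 := key c
  have h3 : B x y * (σ c - c) = 0 := by linear_combination h2 - c * h1
  rcases mul_eq_zero.1 h3 with h4 | h4
  · exact h4
  · exact absurd (sub_eq_zero.1 h4) hc

/-- the form restricted to a nondegenerate subspace -/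
theorem restrict (h : IsHerm σ 1 B) {W : Submodule F V} (hnd : ∀ x ∈ W, (∀ y ∈ W, B x y = 0) → x = 0) :
    IsHerm σ 1 (fun x y : W => B (x : V) (y : V)) where
  add_left := fun x y z => h.add_left x y z
  smul_left := fun c x y => h.smul_left c x y
  symm := fun x y => h.symm x y
  nondeg := by
    intro x hx
    apply Subtype.ext
    exact hnd x x.2 (fun y hy => hx ⟨y, hy⟩)

theorem restrict_pow (T : Module.End F V) {W : Submodule F V} (hW : ∀ x ∈ W, T x ∈ W) (k : ℕ) (x : W) :
    (((T.restrict hW) ^ k) x : V) = (T ^ k) (x : V) := by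
  induction k with
  | zero => rfl
  | succ k ih => rw [pow_succ', pow_succ', Module.End.mul_apply, Module.End.mul_apply, ← ih]; rfl

/-- an isometry has odd-dimensional irreducible nondegenerate subspaces -/
theorem odd_sub (h : IsHerm σ 1 B) (hσ : ∀ c, σ (σ c) = c) (hσ1 : ∃ c, σ c ≠ c) (T : Module.End F V)
    (hT : ∀ x y, B (T x) (T y) = B x y) (N : ℕ) (hN : T ^ (N + 1) = 1) {W : Submodule F V}
    (hW : ∀ x ∈ W, T x ∈ W) (hW0 : W ≠ ⊥) (hnd : ∀ x ∈ W, (∀ y ∈ W, B x y = 0) → x = 0)
    (hirr : ∀ U : Submodule F V, U ≤ W → (∀ x ∈ U, T x ∈ U) → U = ⊥ ∨ U = W) : Odd (finrank F W) := by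
  haveI : Nontrivial W := (Submodule.nontrivial_iff_ne_bot).2 hW0
  apply odd_of_irr (restrict h hnd) hσ hσ1 (T.restrict hW) (fun x y => hT x y) N
  · apply LinearMap.ext
    intro x
    apply Subtype.ext
    rw [restrict_pow, hN]; rfl
  · intro U hU
    rcases hirr (U.map W.subtype) (Submodule.map_subtype_le W U) (by
      rintro _ ⟨x, hx, rfl⟩
      exact ⟨_, hU x hx, rfl⟩) with h1 | h1
    · left
      rw [eq_bot_iff]
      intro x hx
      have h2 : (x : V) ∈ U.map W.subtype := ⟨x, hx, rfl⟩
      rw [h1, Submodule.mem_bot] at h2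
      rw [Submodule.mem_bot]
      exact Subtype.ext h2
    · right
      rw [eq_top_iff]
      intro x _
      have : (x : V) ∈ U.map W.subtype := by rw [h1]; exact x.2
      obtain ⟨y, hy, hyx⟩ := this
      rwa [← Subtype.ext (show (y : V) = x from hyx)]

/-- an eigenvector in an invariant nondegenerate plane -/
theorem exists_eig (h : IsHerm σ 1 B) (hσ : ∀ c, σ (σ c) = c) (hσ1 : ∃ c, σ c ≠ c) (T : Module.End F V)
    (hT : ∀ x y, B (T x) (T y) = B x y) (N : ℕ) (hN : T ^ (N + 1) = 1) {W : Submodule F V}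
    (hW : ∀ x ∈ W, T x ∈ W) (h2 : finrank F W = 2) (hnd : ∀ x ∈ W, (∀ y ∈ W, B x y = 0) → x = 0) :
    ∃ y ∈ W, y ≠ 0 ∧ ∃ c : F, T y = c • y := by
  by_contra hcon
  have hW0 : W ≠ ⊥ := by
    rintro rfl
    rw [finrank_bot] at h2
    omega
  have := odd_sub h hσ hσ1 T hT N hN hW hW0 hnd (by
    intro U hUW hU
    by_contra hne
    rw [not_or] at hne
    have h3 : finrank F U ≤ 2 := h2 ▸ Submodule.finrank_mono hUW
    have h4 : finrank F U ≠ 0 := fun h5 => hne.1 (Submodule.finrank_eq_zero.1 h5)
    have h5 : finrank F U ≠ 2 := fun h5 => hne.2 (Submodule.eq_of_le_of_finrank_eq hUW (h5.trans h2.symm))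
    have h6 : finrank F U = 1 := by omega
    obtain ⟨y, hy0, hy⟩ := finrank_eq_one_iff'.1 h6
    obtain ⟨c, hc⟩ := hy ⟨T y, hU _ y.2⟩
    exact hcon ⟨y, hUW y.2, fun h7 => hy0 (Subtype.ext h7), c, (congrArg Subtype.val hc).symm⟩)
  rw [h2] at this
  exact (by decide : ¬ Odd 2) this

omit [Finite F] [FiniteDimensional F V] in
/-- the span of two eigenvector-like isotropic vectors -/
theorem span_pair (h : IsHerm σ 1 B) (T : Module.End F V) {u v : V} (hu : u ≠ 0) (hv : v ∉ Submodule.span F {u})
    (huu : B u u = 0) (huv : B u v = 0) (hvv : B v v = 0)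
    (hTu : ∃ c : F, T u = c • u) (hTv : ∃ c d : F, T v = c • v + d • u) :
    ∃ W : Submodule F V, finrank F W = 2 ∧ (∀ x ∈ W, T x ∈ W) ∧ ∀ x ∈ W, ∀ y ∈ W, B x y = 0 := by
  have hli : LinearIndependent F ![u, v] := by
    rw [LinearIndependent.pair_iff' hu]
    intro a hav
    exact hv (Submodule.mem_span_singleton.2 ⟨a, hav⟩)
  refine ⟨Submodule.span F (Set.range ![u, v]), ?_, ?_, ?_⟩
  · rw [finrank_span_eq_card hli, Fintype.card_fin]
  · intro x hx
    rw [Matrix.range_cons, Matrix.range_cons, Matrix.range_empty, Set.union_empty, Set.singleton_union,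
      Submodule.mem_span_pair] at hx ⊢
    obtain ⟨a, b, rfl⟩ := hx
    obtain ⟨c, hc⟩ := hTu
    obtain ⟨d, e, hd⟩ := hTv
    refine ⟨a * c + b * e, b * d, ?_⟩
    rw [map_add, map_smul, map_smul, hc, hd]
    module
  · intro x hx y hy
    rw [Matrix.range_cons, Matrix.range_cons, Matrix.range_empty, Set.union_empty, Set.singleton_union,
      Submodule.mem_span_pair] at hx hy
    obtain ⟨a, b, rfl⟩ := hx
    obtain ⟨c, d, rfl⟩ := hy
    rw [h.add_left, h.smul_left, h.smul_left, h.add_right, h.add_right, h.smul_right, h.smul_right, h.smul_right,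
      h.smul_right, huu, huv, hvv, symm0 h huv]
    ring

omit [Finite F] [FiniteDimensional F V] in
theorem mem_perp_pair (h : IsHerm σ 1 B) {u v x : V} : x ∈ perp h (Submodule.span F {u, v}) ↔ B x u = 0 ∧ B x v = 0 := by
  constructor
  · intro hx
    exact ⟨hx u (Submodule.subset_span (by simp)), hx v (Submodule.subset_span (by simp))⟩
  · rintro ⟨h1, h2⟩ w hw
    rw [Submodule.mem_span_pair] at hw
    obtain ⟨a, b, rfl⟩ := hw
    rw [h.add_right, h.smul_right, h.smul_right, h1, h2]; ring

omit [Finite F] [FiniteDimensional F V] in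
theorem mem_perp_single (h : IsHerm σ 1 B) {u x : V} : x ∈ perp h (Submodule.span F {u}) ↔ B x u = 0 := by
  constructor
  · intro hx
    exact hx u (Submodule.subset_span (by simp))
  · rintro h1 w hw
    rw [Submodule.mem_span_singleton] at hw
    obtain ⟨a, rfl⟩ := hw
    rw [h.smul_right, h1]; ring

/-- a plane with invertible Gram determinant: the orthogonal plane contains an eigenvector -/
theorem eig_perp (h : IsHerm σ 1 B) (hσ : ∀ c, σ (σ c) = c) (hσ1 : ∃ c, σ c ≠ c) (hd : finrank F V = 4) (T : Module.End F V)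
    (hT : ∀ x y, B (T x) (T y) = B x y) (N : ℕ) (hN : T ^ (N + 1) = 1) {u v : V}
    (hu : B u u = 0) (huv : B u v ≠ 0) (hTu : ∃ c : F, T u = c • u) (hTv : ∃ c d : F, T v = c • v + d • u) :
    ∃ y, y ≠ 0 ∧ B y u = 0 ∧ y ∉ Submodule.span F {u} ∧ ∃ c : F, T y = c • y := by
  have hu0 : u ≠ 0 := by
    rintro rfl
    exact huv (h.zero_left _)
  have hvu : v ∉ Submodule.span F {u} := by
    intro hv
    rw [Submodule.mem_span_singleton] at hv
    obtain ⟨a, rfl⟩ := hv
    rw [h.smul_right, hu, mul_zero] at huv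
    exact huv rfl
  have hli : LinearIndependent F ![u, v] := by
    rw [LinearIndependent.pair_iff' hu0]
    intro a hav
    exact hvu (Submodule.mem_span_singleton.2 ⟨a, hav⟩)
  set Y := Submodule.span F {u, v} with hY
  have hY2 : finrank F Y = 2 := by
    have := finrank_span_eq_card hli
    rwa [Matrix.range_cons, Matrix.range_cons, Matrix.range_empty, Set.union_empty, Set.singleton_union,
      Fintype.card_fin] at this
  have hYinv : ∀ x ∈ Y, T x ∈ Y := by
    intro x hx
    rw [hY, Submodule.mem_span_pair] at hx ⊢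
    obtain ⟨a, b, rfl⟩ := hx
    obtain ⟨c, hc⟩ := hTu
    obtain ⟨d, e, hd⟩ := hTv
    refine ⟨a * c + b * e, b * d, ?_⟩
    rw [map_add, map_smul, map_smul, hc, hd]
    module
  have hYnd : ∀ x ∈ Y, (∀ y ∈ Y, B x y = 0) → x = 0 := by
    intro x hx hxy
    have h1 := hxy u (Submodule.subset_span (by simp))
    have h2 := hxy v (Submodule.subset_span (by simp))
    rw [hY, Submodule.mem_span_pair] at hx
    obtain ⟨a, b, rfl⟩ := hx
    have hvu' : B v u ≠ 0 := fun hh => huv (symm0 h hh)
    rw [h.add_left, h.smul_left, h.smul_left, hu, mul_zero, zero_add] at h1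
    have hb : b = 0 := (mul_eq_zero.1 h1).resolve_right hvu'
    rw [hb, h.add_left, h.smul_left, h.smul_left, zero_mul, add_zero] at h2
    have ha : a = 0 := (mul_eq_zero.1 h2).resolve_right huv
    rw [ha, hb]; simp
  have hPinv := perp_inv h T hT N hN hYinv
  have hP2 : finrank F (perp h Y) = 2 := by
    have := finrank_perp h Y
    omega
  have hPnd : ∀ x ∈ perp h Y, (∀ y ∈ perp h Y, B x y = 0) → x = 0 := by
    intro x hx hxy
    have : x ∈ perp h (perp h Y) := hxy
    rw [perp_perp] at this
    exact hYnd x this hx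
  obtain ⟨y, hyY, hy0, hy⟩ := exists_eig h hσ hσ1 T hT N hN hPinv hP2 hPnd
  refine ⟨y, hy0, hyY u (Submodule.subset_span (by simp)), ?_, hy⟩
  intro hyu
  rw [Submodule.mem_span_singleton] at hyu
  obtain ⟨a, rfl⟩ := hyu
  have h1 := hyY v (Submodule.subset_span (by simp))
  rw [h.smul_left] at h1
  have ha : a = 0 := (mul_eq_zero.1 h1).resolve_right huv
  rw [ha, zero_smul] at hy0
  exact hy0 rfl

/-- either an eigenvector or a totally singular invariant plane -/
theorem exists_eig4 (h : IsHerm σ 1 B) (hσ : ∀ c, σ (σ c) = c) (hσ1 : ∃ c, σ c ≠ c) (hd : finrank F V = 4) (T : Module.End F V)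
    (hT : ∀ x y, B (T x) (T y) = B x y) (N : ℕ) (hN : T ^ (N + 1) = 1) :
    (∃ v, v ≠ 0 ∧ ∃ c : F, T v = c • v) ∨
    ∃ W : Submodule F V, finrank F W = 2 ∧ (∀ x ∈ W, T x ∈ W) ∧ ∀ x ∈ W, ∀ y ∈ W, B x y = 0 := by
  classical
  by_contra hcon
  rw [not_or] at hcon
  obtain ⟨hno, hno2⟩ := hcon
  have hone : ∀ U : Submodule F V, (∀ x ∈ U, T x ∈ U) → finrank F U ≠ 1 := by
    intro U hU h1
    obtain ⟨y, hy0, hy⟩ := finrank_eq_one_iff'.1 h1
    obtain ⟨c, hc⟩ := hy ⟨T y, hU _ y.2⟩
    exact hno ⟨y, fun h7 => hy0 (Subtype.ext h7), c, (congrArg Subtype.val hc).symm⟩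
  have hex : ∃ n : ℕ, ∃ U : Submodule F V, U ≠ ⊥ ∧ (∀ x ∈ U, T x ∈ U) ∧ finrank F U = n := by
    refine ⟨4, ⊤, ?_, fun x _ => trivial, by rw [finrank_top, hd]⟩
    intro h1
    have h2 := finrank_top F V
    rw [h1, finrank_bot, hd] at h2
    omega
  obtain ⟨U, hU0, hUinv, hUn⟩ := Nat.find_spec hex
  have hmin : ∀ U' : Submodule F V, U' ≤ U → (∀ x ∈ U', T x ∈ U') → U' = ⊥ ∨ U' = U := by
    intro U' hle hinv
    by_cases h0 : U' = ⊥
    · exact Or.inl h0
    · right
      apply Submodule.eq_of_le_of_finrank_le hle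
      rw [hUn]
      exact Nat.find_min' hex ⟨U', h0, hinv, rfl⟩
  have hU1 := hone U hUinv
  have hU0' : finrank F U ≠ 0 := fun h1 => hU0 (Submodule.finrank_eq_zero.1 h1)
  rcases hmin (U ⊓ perp h U) inf_le_left (fun x hx => ⟨hUinv x hx.1, perp_inv h T hT N hN hUinv x hx.2⟩) with hR | hR
  · have hnd : ∀ x ∈ U, (∀ y ∈ U, B x y = 0) → x = 0 := by
      intro x hx hxy
      have : x ∈ U ⊓ perp h U := ⟨hx, hxy⟩
      rw [hR] at this
      exact this
    have hodd := odd_sub h hσ hσ1 T hT N hN hUinv hU0 hnd hmin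
    have hle : finrank F U ≤ 4 := hd ▸ Submodule.finrank_le U
    have h3 := finrank_perp h U
    have h4 := hone (perp h U) (perp_inv h T hT N hN hUinv)
    obtain ⟨k, hk⟩ := hodd
    omega
  · have hti : ∀ x ∈ U, ∀ y ∈ U, B x y = 0 := by
      intro x hx y hy
      rw [← hR] at hx
      exact hx.2 y hy
    have h1 := dim_le_of_isotropic h U hti
    apply hno2
    exact ⟨U, by omega, hUinv, hti⟩

/-- **main dichotomy in dimension four** -/
theorem main4 (h : IsHerm σ 1 B) (hσ : ∀ c, σ (σ c) = c) (hσ1 : ∃ c, σ c ≠ c) (hd : finrank F V = 4) (T : Module.End F V)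
    (hT : ∀ x y, B (T x) (T y) = B x y) (N : ℕ) (hN : T ^ (N + 1) = 1) :
    (∃ v, B v v ≠ 0 ∧ ∃ c : F, T v = c • v) ∨
    ∃ W : Submodule F V, finrank F W = 2 ∧ (∀ x ∈ W, T x ∈ W) ∧ ∀ x ∈ W, ∀ y ∈ W, B x y = 0 := by
  classical
  by_contra hcon
  rw [not_or] at hcon
  obtain ⟨hno, hno2⟩ := hcon
  have hiso : ∀ v (c : F), T v = c • v → B v v = 0 := by
    intro v c hc
    by_contra hv
    exact hno ⟨v, hv, c, hc⟩
  obtain ⟨v, hv0, c, hc⟩ := (exists_eig4 h hσ hσ1 hd T hT N hN).resolve_right hno2
  have hvv := hiso v c hc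
  have hTinj : Function.Injective T := by
    intro x y hxy
    apply h.ext_left
    intro z
    rw [← hT x z, ← hT y z, hxy]
  have hc0 : c ≠ 0 := by
    rintro rfl
    rw [zero_smul] at hc
    exact hv0 (hTinj (by rw [hc, map_zero]))
  -- the dual eigenvalue
  have hrange : ∀ a, B (T a - (σ c)⁻¹ • a) v = 0 := by
    intro a
    have h1 : v = c⁻¹ • T v := by rw [hc, smul_smul, inv_mul_cancel₀ hc0, one_smul]
    have h2 : B (T a) v = (σ c)⁻¹ * B a v := by
      conv_lhs => rw [h1]
      rw [h.smul_right, hT, map_inv₀]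
    rw [h.sub_left, h.smul_left, h2, sub_self]
  -- a pair (v, x) with B v x ≠ 0 gives a contradiction
  have hpair : ∀ x, B v x ≠ 0 → ¬ ∃ e d : F, T x = e • x + d • v := by
    intro x hx hTx
    obtain ⟨y, hy0, hyv, hyn, e, he⟩ := eig_perp h hσ hσ1 hd T hT N hN hvv hx ⟨c, hc⟩ hTx
    exact hno2 (span_pair h T hv0 hyn hvv (symm0 h hyv) (hiso y e he) ⟨c, hc⟩ ⟨e, 0, by rw [he]; simp⟩)
  by_cases hcc : (σ c)⁻¹ = c
  · -- c has norm one
    have hK1 : ∀ x, T x = c • x → x ∈ Submodule.span F {v} := by
      intro x hx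
      by_contra hxn
      by_cases hvx : B v x = 0
      · exact hno2 (span_pair h T hv0 hxn hvv hvx (hiso x c hx) ⟨c, hc⟩ ⟨c, 0, by rw [hx]; simp⟩)
      · exact hpair x hvx ⟨c, 0, by rw [hx]; simp⟩
    set Nn : Module.End F V := T - c • (1 : Module.End F V) with hNn
    have hNa : ∀ a, Nn a = T a - c • a := fun a => rfl
    have hker : LinearMap.ker Nn = Submodule.span F {v} := by
      apply le_antisymm
      · intro x hx
        rw [LinearMap.mem_ker, hNa, sub_eq_zero] at hx
        exact hK1 x hx
      · rw [Submodule.span_singleton_le_iff_mem, LinearMap.mem_ker, hNa, hc, sub_self]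
    have hran : LinearMap.range Nn = perp h (Submodule.span F {v}) := by
      apply Submodule.eq_of_le_of_finrank_eq
      · rintro _ ⟨a, rfl⟩
        rw [mem_perp_single, hNa]
        have := hrange a
        rwa [hcc] at this
      · have h1 := LinearMap.finrank_range_add_finrank_ker Nn
        have h2 := finrank_perp h (Submodule.span F {v})
        rw [hker] at h1
        omega
    have hmem : ∀ z, B z v = 0 → ∃ a, Nn a = z := by
      intro z hz
      have : z ∈ LinearMap.range Nn := by rw [hran, mem_perp_single]; exact hz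
      exact this
    obtain ⟨x, hx⟩ := hmem v hvv
    have hTx : T x = c • x + (1 : F) • v := by
      rw [hNa] at hx
      rw [one_smul, ← hx]; abel
    have hvx : B v x = 0 := by
      by_contra hvx
      exact hpair x hvx ⟨c, 1, hTx⟩
    obtain ⟨y, hy⟩ := hmem x (symm0 h hvx)
    have hTy : T y = c • y + x := by
      rw [hNa] at hy
      rw [← hy]; abel
    have hcs : c * σ c = 1 := by
      have hσc : σ c ≠ 0 := by
        intro hh
        rw [hh, inv_zero] at hcc
        exact hc0 hcc.symm
      calc c * σ c = (σ c)⁻¹ * σ c := by rw [hcc]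
        _ = 1 := inv_mul_cancel₀ hσc
    have hxn : x ∉ Submodule.span F {v} := by
      intro hxs
      rw [← hker, LinearMap.mem_ker, hx] at hxs
      exact hv0 hxs
    -- B x x = - c² B y v
    have hrel : σ c * B x x = - (c * B y v) := by
      have h1 := hT y x
      rw [hTy, hTx, one_smul, h.add_left, h.smul_left, h.add_right, h.add_right, h.smul_right, h.smul_right,
        symm0 h hvx] at h1
      linear_combination h1 - (B y x) * hcs
    have hyv : B y v ≠ 0 := by
      intro hyv
      rw [hyv, mul_zero, neg_zero] at hrel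
      have hσc : σ c ≠ 0 := by
        intro hh
        rw [hh, mul_zero] at hcs
        exact zero_ne_one hcs
      have hxx : B x x = 0 := (mul_eq_zero.1 hrel).resolve_left hσc
      exact hno2 (span_pair h T hv0 hxn hvv hvx hxx ⟨c, hc⟩ ⟨c, 1, hTx⟩)
    have hvy : B v y ≠ 0 := fun hh => hyv (symm0 h hh)
    have hxx : B x x ≠ 0 := by
      intro hh
      rw [hh, mul_zero] at hrel
      rcases mul_eq_zero.1 (neg_eq_zero.1 hrel.symm) with h1 | h1
      · exact hc0 h1
      · exact hyv h1
    -- the nondegenerate 3-space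
    set Z := Submodule.span F {v, x, y} with hZ
    have hmv : v ∈ Z := Submodule.subset_span (by simp)
    have hmx : x ∈ Z := Submodule.subset_span (by simp)
    have hmy : y ∈ Z := Submodule.subset_span (by simp)
    have hZinv : ∀ z ∈ Z, T z ∈ Z := by
      intro z hz
      rw [hZ, Submodule.mem_span_triple] at hz
      obtain ⟨a, b, e, rfl⟩ := hz
      rw [map_add, map_add, map_smul, map_smul, map_smul, hc, hTx, hTy]
      exact Z.add_mem (Z.add_mem (Z.smul_mem _ (Z.smul_mem _ hmv)) (Z.smul_mem _ (Z.add_mem (Z.smul_mem _ hmx) (Z.smul_mem _ hmv))))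
        (Z.smul_mem _ (Z.add_mem (Z.smul_mem _ hmy) hmx))
    have hcoef : ∀ a b e : F, B (a • v + b • x + e • y) v = 0 → B (a • v + b • x + e • y) x = 0 →
        B (a • v + b • x + e • y) y = 0 → a = 0 ∧ b = 0 ∧ e = 0 := by
      intro a b e h1 h2 h3
      rw [h.add_left, h.add_left, h.smul_left, h.smul_left, h.smul_left] at h1 h2 h3
      rw [hvv, symm0 h hvx, mul_zero, mul_zero, zero_add, zero_add] at h1
      have he : e = 0 := (mul_eq_zero.1 h1).resolve_right hyv
      rw [he, hvx, mul_zero, zero_mul, zero_add, add_zero] at h2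
      have hb : b = 0 := (mul_eq_zero.1 h2).resolve_right hxx
      rw [he, hb, zero_mul, zero_mul, add_zero, add_zero] at h3
      have ha : a = 0 := (mul_eq_zero.1 h3).resolve_right hvy
      exact ⟨ha, hb, he⟩
    have hZnd : ∀ z ∈ Z, z ∈ perp h Z → z = 0 := by
      intro z hz hzp
      rw [hZ, Submodule.mem_span_triple] at hz
      obtain ⟨a, b, e, rfl⟩ := hz
      obtain ⟨ha, hb, he⟩ := hcoef a b e (hzp v hmv) (hzp x hmx) (hzp y hmy)
      rw [ha, hb, he]; simp
    have hZ3 : finrank F Z = 3 := by
      have hli : LinearIndependent F ![v, x, y] := by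
        rw [Fintype.linearIndependent_iff]
        intro g hg
        rw [Fin.sum_univ_three] at hg
        have hg' : g 0 • v + g 1 • x + g 2 • y = 0 := hg
        obtain ⟨h1, h2, h3⟩ := hcoef (g 0) (g 1) (g 2) (by rw [hg', h.zero_left]) (by rw [hg', h.zero_left])
          (by rw [hg', h.zero_left])
        intro i
        fin_cases i
        · exact h1
        · exact h2
        · exact h3
      have h1 := finrank_span_eq_card hli
      rw [Fintype.card_fin] at h1
      have h2 : Set.range ![v, x, y] = {v, x, y} := by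
        rw [Matrix.range_cons, Matrix.range_cons, Matrix.range_cons, Matrix.range_empty, Set.union_empty,
          Set.singleton_union, Set.singleton_union]
      rwa [h2] at h1
    have hP1 : finrank F (perp h Z) = 1 := by
      have := finrank_perp h Z
      omega
    obtain ⟨w, hw0, hw⟩ := finrank_eq_one_iff'.1 hP1
    obtain ⟨e, he⟩ := hw ⟨T w, perp_inv h T hT N hN hZinv _ w.2⟩
    have hww : B (w : V) w = 0 := hiso w e (congrArg Subtype.val he).symm
    have : (w : V) ∈ perp h (perp h Z) := by
      intro z hz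
      obtain ⟨t, ht⟩ := hw ⟨z, hz⟩
      have ht' : t • (w : V) = z := congrArg Subtype.val ht
      rw [← ht', h.smul_right, hww, mul_zero]
    rw [perp_perp] at this
    exact hw0 (Subtype.ext (hZnd w this w.2))
  · -- another eigenvalue
    have hns : ¬ Function.Surjective (T - (σ c)⁻¹ • (1 : Module.End F V)) := by
      intro hs
      apply hv0
      apply h.nondeg_right
      intro z
      obtain ⟨a, ha⟩ := hs z
      rw [← ha]
      exact hrange a
    have hni : ¬ Function.Injective (T - (σ c)⁻¹ • (1 : Module.End F V)) := by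
      intro hi
      exact hns (LinearMap.injective_iff_surjective.1 hi)
    rw [← LinearMap.ker_eq_bot, Submodule.eq_bot_iff] at hni
    push Not at hni
    obtain ⟨x, hx, hx0⟩ := hni
    rw [LinearMap.mem_ker] at hx
    have hTx : T x = (σ c)⁻¹ • x := by
      have : T x - (σ c)⁻¹ • x = 0 := hx
      exact sub_eq_zero.1 this
    have hxn : x ∉ Submodule.span F {v} := by
      intro hxs
      rw [Submodule.mem_span_singleton] at hxs
      obtain ⟨a, rfl⟩ := hxs
      rw [map_smul, hc, smul_comm] at hTx
      have h1 : (c - (σ c)⁻¹) • (a • v) = 0 := by rw [sub_smul, hTx, sub_self]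
      rcases smul_eq_zero.1 h1 with h2 | h2
      · exact hcc (sub_eq_zero.1 h2).symm
      · exact hx0 h2
    by_cases hvx : B v x = 0
    · exact hno2 (span_pair h T hv0 hxn hvv hvx (hiso x _ hTx) ⟨c, hc⟩ ⟨(σ c)⁻¹, 0, by rw [hTx]; simp⟩)
    · exact hpair x hvx ⟨(σ c)⁻¹, 0, by rw [hTx]; simp⟩

end general

end Cfsg.Agent.Lib.CovU4
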