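import Cfsg.Agent.Lib.CoxRootData
import Cfsg.Agent.Lib.ChevPoinc

set_option autoImplicit false
set_option maxRecDepth 1000000

/-!
# Centres and generation of the Coxeter groups of exceptional types (helper40)
-/

namespace Cfsg.Agent.Lib.CoxCent
open Cfsg.Lie Cfsg.Agent.Lib.ChevX Cfsg.Agent.Lib.ChevGood Cfsg.Agent.Lib.ChevRel Cfsg.Agent.Lib.ChevNPerm
  Cfsg.Agent.Lib.ChevPoinc Cfsg.Agent.Lib.CoxRootData

section
variable {D : ChevalleyDatum} (G : Good D)

theorem lin_ext {w w' : Equiv.Perm (Fin D.nroots)} (hw : Lin G w) (hw' : Lin G w') (h : ∀ j, w (simpF G j) = w' (simpF G j)) : w = w' := by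
  ext s
  congr 1
  apply rvF_inj G
  intro k
  rw [hw s k, hw' s k]
  exact Finset.sum_congr rfl fun j _ => by rw [h j]

/-- the check on multiples of the fundamental roots -/
def ChkM (D : ChevalleyDatum) : Prop := ∀ i : Fin D.rank, ∀ s : Fin D.nroots, D.reflectRoot i s = D.neg s → (s : ℕ) = D.simple i ∨ (s : ℕ) = D.neg (D.simple i)

theorem comm_sign (hchk : ChkM D) {w : Equiv.Perm (Fin D.nroots)} (hw : Lin G w) (hc : ∀ i, w * refl G i = refl G i * w) (i : Fin D.rank) :
    w (simpF G i) = simpF G i ∨ w (simpF G i) = negF G (simpF G i) := by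
  have h1 : refl G i (w (simpF G i)) = negF G (w (simpF G i)) := by
    have h2 : w (refl G i (simpF G i)) = refl G i (w (simpF G i)) := congrArg (fun f : Equiv.Perm (Fin D.nroots) => f (simpF G i)) (hc i)
    rw [refl_simpF, lin_neg G hw] at h2
    exact h2.symm
  rcases hchk i (w (simpF G i)) (congrArg Fin.val h1) with h | h
  · exact Or.inl (Fin.ext h)
  · exact Or.inr (Fin.ext h)

theorem comm_adj (hchk : ChkM D) {w : Equiv.Perm (Fin D.nroots)} (hw : Lin G w) (hc : ∀ i, w * refl G i = refl G i * w) {i j : Fin D.rank}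
    (hca : D.cartan i (D.simple j) ≠ 0) (h1 : w (simpF G i) = simpF G i) : w (simpF G j) = simpF G j := by
  rcases comm_sign G hchk hw hc j with h2 | h2
  · exact h2
  exfalso
  have hij : i ≠ j := by
    rintro rfl
    rw [h1] at h2
    have h3 := congrArg (fun s : Fin D.nroots => G.rv s i) h2
    simp only [rv_negF, rv_simpF, if_pos] at h3
    norm_num at h3
  set γ := refl G i (simpF G j) with hγ
  have h3 : w γ = negF G γ := by
    have h4 : w (refl G i (simpF G j)) = refl G i (w (simpF G j)) := congrArg (fun f : Equiv.Perm (Fin D.nroots) => f (simpF G j)) (hc i)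
    rw [hγ, h4, h2, lin_neg G (lin_refl G i)]
  have hrv : ∀ k, G.rv γ k = (if k = (j : ℕ) then 1 else 0) - (if k = (i : ℕ) then D.cartan i (D.simple j) else 0) := by
    intro k
    have := G.rv_w i i.2 (D.simple j) (G.simple_lt j j.2) k
    rw [G.rv_simple j j.2] at this
    exact this
  have h5 := hw γ i
  rw [h3, rv_negF, hrv] at h5
  have hne : (i : ℕ) ≠ (j : ℕ) := fun h => hij (Fin.ext h)
  rw [if_neg hne, if_pos rfl] at h5
  rw [← Finset.add_sum_erase _ _ (Finset.mem_univ i), ← Finset.add_sum_erase _ _ (Finset.mem_erase.mpr ⟨Ne.symm hij, Finset.mem_univ j⟩),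
    Finset.sum_eq_zero, h1, h2, hrv, hrv, rv_negF, rv_simpF, rv_simpF, if_neg hne, if_pos rfl, if_pos rfl, if_pos rfl, if_neg (Ne.symm hne)] at h5
  · apply hca
    linarith
  · intro k hk
    simp only [Finset.mem_erase, Finset.mem_univ, and_true] at hk
    rw [hrv, if_neg (fun h => hk.1 (Fin.ext h)), if_neg (fun h => hk.2 (Fin.ext h)), sub_zero, zero_mul]

/-- connectivity of the diagram, with a parent function -/
def Conn (D : ChevalleyDatum) (par : Fin D.rank → Fin D.rank) : Prop :=
  (∀ j, par j = j ∨ (D.cartan (par j) (D.simple j) ≠ 0 ∧ D.cartan j (D.simple (par j)) ≠ 0)) ∧ ∀ j j', par^[D.rank] j = par^[D.rank] j'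

theorem comm_all (hchk : ChkM D) {par : Fin D.rank → Fin D.rank} (hpar : Conn D par) {w : Equiv.Perm (Fin D.nroots)} (hw : Lin G w)
    (hc : ∀ i, w * refl G i = refl G i * w) : (∀ j, w (simpF G j) = simpF G j) ∨ ∀ j, w (simpF G j) = negF G (simpF G j) := by
  have h1 : ∀ j, w (simpF G j) = simpF G j ↔ w (simpF G (par j)) = simpF G (par j) := by
    intro j
    rcases hpar.1 j with h | ⟨h, h'⟩
    · rw [h]
    · exact ⟨comm_adj G hchk hw hc h', comm_adj G hchk hw hc h⟩
  have h2 : ∀ (n : ℕ) j, w (simpF G j) = simpF G j ↔ w (simpF G (par^[n] j)) = simpF G (par^[n] j) := by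
    intro n
    induction n with
    | zero => intro j; rfl
    | succ n ih => intro j; rw [Function.iterate_succ_apply, ← ih, ← h1]
  have h3 : ∀ j j', w (simpF G j) = simpF G j → w (simpF G j') = simpF G j' := by
    intro j j' h
    rw [h2 D.rank, hpar.2 j' j, ← h2 D.rank]
    exact h
  by_cases h4 : ∃ j, w (simpF G j) = simpF G j
  · obtain ⟨j, hj⟩ := h4
    exact Or.inl fun j' => h3 j j' hj
  · push Not at h4
    exact Or.inr fun j => (comm_sign G hchk hw hc j).resolve_left (h4 j)

variable {M : CoxeterMatrix (Fin D.rank)} {ψ : M.Group →* Equiv.Perm (Fin D.nroots)} (hs : ∀ (i : Fin D.rank) (x : Fin D.nroots), (ψ (M.simple i) x : ℕ) = D.reflectRoot i x)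
include hs

theorem psi_simple (i : Fin D.rank) : ψ (M.simple i) = refl G i := Equiv.ext fun x => Fin.ext (hs i x)

theorem psi_range : ψ.range = Subgroup.closure (Set.range (refl G)) := by
  rw [MonoidHom.range_eq_map, ← M.toCoxeterSystem.subgroup_closure_range_simple, MonoidHom.map_closure]
  congr 1
  ext x
  constructor
  · rintro ⟨_, ⟨i, rfl⟩, rfl⟩
    exact ⟨i, (psi_simple G hs i).symm⟩
  · rintro ⟨i, rfl⟩
    exact ⟨_, ⟨i, rfl⟩, psi_simple G hs i⟩

theorem psi_lin (x : M.Group) : Lin G (ψ x) := by
  apply lin_of_mem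
  rw [← psi_range G hs]
  exact ⟨x, rfl⟩

theorem psi_word (l : List (Fin D.rank)) (s : Fin D.nroots) :
    (ψ (l.map M.simple).prod s : ℕ) = l.foldr (fun (i : Fin D.rank) (a : ℕ) => D.reflectRoot i a) s := by
  induction l with
  | nil => simp
  | cons i l ih =>
    rw [List.map_cons, List.prod_cons, map_mul, Equiv.Perm.mul_apply, hs, ih]
    rfl

theorem psi_comm {z : M.Group} (hz : z ∈ Subgroup.center M.Group) (i : Fin D.rank) : ψ z * refl G i = refl G i * ψ z := by
  rw [← psi_simple G hs i, ← map_mul, ← map_mul, Subgroup.mem_center_iff.mp hz]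

end

/-- one step of the Coxeter element -/
def stepC (D : ChevalleyDatum) (x : ℕ) : ℕ := (List.finRange D.rank).foldr (fun (i : Fin D.rank) (a : ℕ) => D.reflectRoot i a) x

theorem center_two {D : ChevalleyDatum} (G : Good D) {M : CoxeterMatrix (Fin D.rank)} (hF : FaithfulOnRoots D M) (hchk : ChkM D)
    {par : Fin D.rank → Fin D.rank} (hpar : Conn D par) (k : ℕ) (hk : ∀ j : Fin D.rank, (stepC D)^[k] (D.simple j) = D.neg (D.simple j))
    (h0 : 0 < D.rank) :
    Nat.card (Subgroup.center M.Group) = 2 ∧ Subgroup.center M.Group ≤ Subgroup.zpowers ((List.finRange D.rank).map M.simple).prod := by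
  obtain ⟨ψ, hinj, hs⟩ := hF
  set c := ((List.finRange D.rank).map M.simple).prod with hc
  have hcs : ∀ s : Fin D.nroots, (ψ c s : ℕ) = stepC D s := fun s => psi_word hs _ s
  have hck : ∀ (k : ℕ) (s : Fin D.nroots), (ψ (c ^ k) s : ℕ) = (stepC D)^[k] s := by
    intro k
    induction k with
    | zero => intro s; simp
    | succ k ih =>
      intro s
      rw [pow_succ', map_mul, Equiv.Perm.mul_apply, hcs, ih, Function.iterate_succ_apply']
  have hzj : ∀ j, ψ (c ^ k) (simpF G j) = negF G (simpF G j) := fun j => Fin.ext ((hck k (simpF G j)).trans (hk j))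
  have hzs : ∀ s, ψ (c ^ k) s = negF G s := by
    intro s
    apply rvF_inj G
    intro i
    rw [psi_lin G hs (c ^ k) s i, rv_negF]
    have h1 : ∀ j : Fin D.rank, G.rv s j * G.rv (ψ (c ^ k) (simpF G j)) i = if i = (j : ℕ) then - G.rv s j else 0 := by
      intro j
      rw [hzj, rv_negF, rv_simpF]
      split_ifs <;> simp
    rw [Finset.sum_congr rfl fun j _ => h1 j]
    rw [Finset.sum_eq_single i]
    · rw [if_pos rfl]
    · intro b _ hb
      rw [if_neg (fun h => hb (Fin.ext h.symm))]
    · intro h; exact absurd (Finset.mem_univ _) h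
  have hcen : c ^ k ∈ Subgroup.center M.Group := by
    rw [Subgroup.mem_center_iff]
    intro g
    apply hinj
    rw [map_mul, map_mul]
    ext s
    simp only [Equiv.Perm.mul_apply]
    rw [hzs, hzs, lin_neg G (psi_lin G hs g)]
  have h1 : ∀ z ∈ Subgroup.center M.Group, z = 1 ∨ z = c ^ k := by
    intro z hz
    rcases comm_all G hchk hpar (psi_lin G hs z) (psi_comm G hs hz) with h | h
    · left
      apply hinj
      rw [map_one]
      exact lin_ext G (psi_lin G hs z) (lin_one G) h
    · right
      apply hinj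
      exact lin_ext G (psi_lin G hs z) (psi_lin G hs _) fun j => by rw [h, hzj]
  have hne : c ^ k ≠ 1 := by
    intro h
    have h2 := hzj ⟨0, h0⟩
    rw [h, map_one] at h2
    have h3 := congrArg (fun s : Fin D.nroots => G.rv s 0) h2
    simp only [Equiv.Perm.one_apply, rv_negF, rv_simpF, if_pos] at h3
    norm_num at h3
  constructor
  · have h2 : (Subgroup.center M.Group : Set M.Group) = {1, c ^ k} := by
      ext z
      simp only [SetLike.mem_coe, Set.mem_insert_iff, Set.mem_singleton_iff]
      constructor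
      · exact h1 z
      · rintro (rfl | rfl)
        · exact one_mem _
        · exact hcen
    have h3 : Nat.card (Subgroup.center M.Group) = Set.ncard (Subgroup.center M.Group : Set M.Group) := rfl
    rw [h3, h2, Set.ncard_pair (Ne.symm hne)]
  · intro z hz
    rcases h1 z hz with rfl | rfl
    · exact one_mem _
    · exact Subgroup.pow_mem _ (Subgroup.mem_zpowers c) k

theorem center_one {D : ChevalleyDatum} (G : Good D) {M : CoxeterMatrix (Fin D.rank)} (hF : FaithfulOnRoots D M) (hchk : ChkM D)
    {par : Fin D.rank → Fin D.rank} (hpar : Conn D par) (l : List (Fin D.rank))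
    (hk : ∀ j : Fin D.rank, D.nroots / 2 ≤ D.neg (l.foldr (fun (i : Fin D.rank) (a : ℕ) => D.reflectRoot i a) (D.simple j)))
    (j0 : Fin D.rank) (h0 : l.foldr (fun (i : Fin D.rank) (a : ℕ) => D.reflectRoot i a) (D.simple j0) ≠ D.neg (D.simple j0)) :
    Nat.card (Subgroup.center M.Group) = 1 ∧ Subgroup.center M.Group ≤ Subgroup.zpowers ((List.finRange D.rank).map M.simple).prod := by
  obtain ⟨ψ, hinj, hs⟩ := hF
  have h1 : Subgroup.center M.Group = ⊥ := by
    rw [eq_bot_iff]
    intro z hz
    rw [Subgroup.mem_bot]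
    apply hinj
    rw [map_one]
    rcases comm_all G hchk hpar (psi_lin G hs z) (psi_comm G hs hz) with h | h
    · exact lin_ext G (psi_lin G hs z) (lin_one G) h
    · exfalso
      set w0 := (l.map M.simple).prod with hw0
      have hw0s : ∀ s : Fin D.nroots, (ψ w0 s : ℕ) = l.foldr (fun (i : Fin D.rank) (a : ℕ) => D.reflectRoot i a) s := fun s => psi_word hs _ s
      have h2 : w0 * z = 1 := by
        apply hinj
        rw [map_one]
        apply eq_one_of_pos G
        · rw [← psi_range G hs]
          exact ⟨_, rfl⟩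
        · intro j
          rw [map_mul, Equiv.Perm.mul_apply, h, lin_neg G (psi_lin G hs w0)]
          change D.nroots / 2 ≤ D.neg (ψ w0 (simpF G j) : ℕ)
          rw [hw0s]
          exact hk j
      have h3 : ψ w0 (negF G (simpF G j0)) = simpF G j0 := by
        have h4 : ψ (w0 * z) (simpF G j0) = simpF G j0 := by rw [h2, map_one]; rfl
        rw [map_mul, Equiv.Perm.mul_apply, h] at h4
        exact h4
      rw [lin_neg G (psi_lin G hs w0)] at h3
      apply h0
      have h4 : ψ w0 (simpF G j0) = negF G (simpF G j0) := by rw [← h3, negF_negF, h3]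
      have h5 := congrArg Fin.val h4
      rw [hw0s] at h5
      exact h5
  rw [h1]
  exact ⟨Nat.card_unique, bot_le⟩

/-! ### generation -/

/-- the letters: the Coxeter element, its inverse, fundamental reflections -/
def expand {D : ChevalleyDatum} : ℕ → List (Fin D.rank)
  | 0 => List.finRange D.rank
  | 1 => (List.finRange D.rank).reverse
  | n + 2 => if h : n < D.rank then [⟨n, h⟩] else []

def ChkG (D : ChevalleyDatum) (W : Fin D.rank → List ℕ) : Prop :=
  ∀ j i : Fin D.rank, ((W j).flatMap expand).foldr (fun (i : Fin D.rank) (a : ℕ) => D.reflectRoot i a) (D.simple i) = D.reflectRoot j (D.simple i)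

theorem gen {D : ChevalleyDatum} (G : Good D) {M : CoxeterMatrix (Fin D.rank)} (hF : FaithfulOnRoots D M) {W : Fin D.rank → List ℕ} (hW : ChkG D W)
    {H : Subgroup M.Group} (hc : ((List.finRange D.rank).map M.simple).prod ∈ H) (ht : ∀ j, ∀ n ∈ W j, ∀ h : n - 2 < D.rank, 2 ≤ n → M.simple ⟨n - 2, h⟩ ∈ H) : H = ⊤ := by
  obtain ⟨ψ, hinj, hs⟩ := hF
  rw [eq_top_iff, ← M.toCoxeterSystem.subgroup_closure_range_simple, Subgroup.closure_le]
  rintro _ ⟨j, rfl⟩
  change M.simple j ∈ H
  have h1 : M.simple j = (((W j).flatMap expand).map M.simple).prod := by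
    apply hinj
    apply lin_ext G (psi_lin G hs _) (psi_lin G hs _)
    intro i
    apply Fin.ext
    rw [psi_word hs, hs]
    exact (hW j i).symm
  rw [h1]
  have h2 : ∀ l : List ℕ, (∀ n ∈ l, n ∈ W j) → ((l.flatMap expand).map M.simple).prod ∈ H := by
    intro l
    induction l with
    | nil => intro _; simp
    | cons n l ih =>
      intro h
      rw [List.flatMap_cons, List.map_append, List.prod_append]
      refine mul_mem ?_ (ih fun m hm => h m (List.mem_cons_of_mem _ hm))
      match n, h n List.mem_cons_self with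
      | 0, _ => exact hc
      | 1, _ =>
        have h3 : (((expand 1 : List (Fin D.rank))).map M.simple).prod = (((List.finRange D.rank).map M.simple).prod)⁻¹ := by
          change (((List.finRange D.rank).reverse).map M.simple).prod = _
          rw [List.prod_inv_reverse, List.map_map, ← List.map_reverse]
          congr 1
          apply List.map_congr_left
          intro i _
          exact (M.toCoxeterSystem.inv_simple i).symm
        rw [h3]
        exact inv_mem hc
      | n + 2, hn =>
        change ((if h : n < D.rank then [⟨n, h⟩] else [] : List (Fin D.rank)).map M.simple).prod ∈ H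
        split_ifs with h4
        · simp only [List.map_cons, List.map_nil, List.prod_cons, List.prod_nil, mul_one]
          exact ht j _ hn h4 (by omega)
        · simp
  exact h2 _ fun n hn => hn

end Cfsg.Agent.Lib.CoxCent
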