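import Mathlib
import Cfsg.Agent.Lib.CoxCert
import Cfsg.Agent.Lib.CoxSound

/-! Orders of words in the simple reflections, by the certificates of `CoxCert`. -/

set_option autoImplicit false

namespace Cfsg.Agent.Lib.CoxElem

open Cfsg.Agent.Lib.CoxCert Cfsg.Agent.Lib.CoxSound

def wordAct (C : Cert) (w : List ℕ) (x : ℕ) : ℕ := w.foldr (fun i x => C.act i x) x

def wordIter (C : Cert) (w : List ℕ) : ℕ → ℕ → ℕ
  | 0, x => x
  | k + 1, x => wordIter C w k (wordAct C w x)

def checkOrder (C : Cert) (w : List ℕ) (h x₀ : ℕ) : Bool :=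
  Nat.blt 0 h && Nat.blt x₀ C.N && (List.range C.N).all (fun x => Nat.beq (wordIter C w h x) x) &&
    (List.range h).all (fun d => Nat.beq d 0 || !Nat.beq (wordIter C w d x₀) x₀)

theorem orderOf_word (C : Cert) {W : Type*} [Group W] (s : Fin C.n → W) (φ : W →* Equiv.Perm (Fin C.N))
    (hinj : Function.Injective φ) (hφ : ∀ (i : Fin C.n) (x : Fin C.N), (φ (s i) x : ℕ) = C.act i x)
    (w : List (Fin C.n)) (h x₀ : ℕ) (hc : checkOrder C (w.map Fin.val) h x₀ = true) :
    orderOf (w.map s).prod = h := by
  unfold checkOrder at hc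
  simp only [Bool.and_eq_true] at hc
  obtain ⟨⟨⟨h1, h2⟩, h3⟩, h4⟩ := hc
  have h1 := blt_true h1
  have h2 := blt_true h2
  have hw : ∀ (w : List (Fin C.n)) (x : Fin C.N), (φ (w.map s).prod x : ℕ) = wordAct C (w.map Fin.val) x := by
    clear h3 h4
    intro w x
    induction w with
    | nil => simp [wordAct]
    | cons i w ih =>
      simp only [List.map_cons, List.prod_cons, map_mul, Equiv.Perm.mul_apply, wordAct, List.foldr_cons] at *
      rw [hφ, ih]
  have hit : ∀ (k : ℕ) (x : Fin C.N), ((φ (w.map s).prod ^ k) x : ℕ) = wordIter C (w.map Fin.val) k x := by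
    intro k
    induction k with
    | zero => intro x; rfl
    | succ k ih =>
      intro x
      rw [pow_succ, Equiv.Perm.mul_apply, ih, hw]
      rfl
  rw [← orderOf_injective φ hinj, orderOf_eq_iff h1]
  constructor
  · ext x
    rw [hit, Equiv.Perm.one_apply]
    exact Nat.eq_of_beq_eq_true (all_range h3 x x.2)
  · intro m hm hm0 hone
    have h5 := all_range h4 m hm
    simp only [Bool.or_eq_true, Bool.not_eq_true'] at h5
    rcases h5 with h5 | h5
    · have := Nat.eq_of_beq_eq_true h5
      omega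
    · have h6 := hit m ⟨x₀, h2⟩
      rw [hone, Equiv.Perm.one_apply] at h6
      simp only at h6
      rw [← h6, Nat.beq_refl] at h5
      exact absurd h5 (by decide)

end Cfsg.Agent.Lib.CoxElem
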