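import Cfsg.Agent.Lib.BrauerPairs
import Cfsg.Agent.Lib.IndFun
import Cfsg.Agent.Lib.CharBasic2

/-!
# Families of invariant characters of an abelian group under a freely acting group of automorphisms
-/

set_option autoImplicit false
set_option linter.all false

namespace Cfsg.Agent.Lib.CycAbs

open Cfsg Cfsg.Agent.Lib.BrauerPairs Cfsg.Agent.Lib.CharBasic
open scoped ComplexConjugate Classical

universe u v

variable {P : Type u} [Group P] [Finite P] {A : Subgroup (MulAut P)} {ι : Type v} [Fintype ι] {ρ : ι → P → ℂ}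

/-- the data -/
structure Dat (A : Subgroup (MulAut P)) (ρ : ι → P → ℂ) : Prop where
  comm : ∀ a b : P, a * b = b * a
  free : ∀ a ∈ A, ∀ x : P, x ≠ 1 → a x = x → a = 1
  gen : ∀ i, IsGeneralizedCharacter P (ρ i)
  inv : ∀ a ∈ A, ∀ i x, ρ i (a x) = ρ i x
  orth : ∀ x y : P, x ≠ 1 → y ≠ 1 →
    ∑ i, ρ i y * conj (ρ i x) = if ∃ a ∈ A, a x = y then (Nat.card P : ℂ) else 0
  ne : ∀ i, ∃ x, x ≠ 1 ∧ ρ i x ≠ 0

/-- twist of a character by an automorphism -/
def tw (a : MulAut P) (l : IrrCharacter P) : IrrCharacter P := irrMap (a : P ≃* P).symm l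

theorem tw_apply (a : MulAut P) (l : IrrCharacter P) (x : P) : (tw a l : P → ℂ) x = (l : P → ℂ) (a x) := rfl

/-- the trivial character -/
def tri (P : Type u) [Group P] : IrrCharacter P := ⟨1, isIrrCharacter_one⟩

/-- `λ - 1` -/
def dl (l : IrrCharacter P) (x : P) : ℂ := (l : P → ℂ) x - 1

theorem dl_tw (a : MulAut P) (l : IrrCharacter P) (x : P) : dl (tw a l) x = dl l (a x) := rfl

theorem tw_tri (a : MulAut P) : tw a (tri P) = tri P := rfl

theorem tw_mul (a b : MulAut P) (l : IrrCharacter P) : tw (a * b) l = tw b (tw a l) := rfl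

theorem tw_one (l : IrrCharacter P) : tw (1 : MulAut P) l = l := rfl

namespace Dat

variable (h : Dat A ρ)
include h

theorem lin (l : IrrCharacter P) : (l : P → ℂ) 1 = 1 := l.2.one_eq_one_of_comm h.comm

theorem dl_one (l : IrrCharacter P) : dl l 1 = 0 := by
  unfold dl
  rw [h.lin, sub_self]

theorem tw_ne {a : MulAut P} {l : IrrCharacter P} (hl : l ≠ tri P) : tw a l ≠ tri P := by
  intro h1
  apply hl
  have h2 : tw a⁻¹ (tw a l) = l := by rw [← tw_mul, mul_inv_cancel, tw_one]
  rw [← h2, h1, tw_tri]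

/-- the action on nontrivial characters is free -/
theorem tw_free {a : MulAut P} (ha : a ∈ A) {l : IrrCharacter P} (hl : l ≠ tri P) (hal : tw a l = l) : a = 1 := by
  by_contra ha1
  apply hl
  let φ : P → P := fun x => (a x) * x⁻¹
  have hinj : Function.Injective φ := by
    intro x y hxy
    have h1 : a x * x⁻¹ = a y * y⁻¹ := hxy
    have h2 : a (y⁻¹ * x) = y⁻¹ * x := by
      rw [map_mul, map_inv]
      have : a x = a y * y⁻¹ * x := by rw [← h1]; group
      rw [this]
      group
    by_contra hne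
    apply ha1
    apply h.free a ha (y⁻¹ * x) _ h2
    intro h3
    apply hne
    rw [inv_mul_eq_one] at h3
    exact h3.symm
  have hsurj := Finite.surjective_of_injective hinj
  apply Subtype.ext
  funext y
  obtain ⟨x, rfl⟩ := hsurj y
  show (l : P → ℂ) (a x * x⁻¹) = 1
  have h4 : (l : P → ℂ) (a x) = (l : P → ℂ) x := congrFun (congrArg (fun l : IrrCharacter P => (l : P → ℂ)) hal) x
  rw [l.2.isCharacter.map_mul_of_linear (h.lin l), h4, ← l.2.isCharacter.map_mul_of_linear (h.lin l),
    mul_inv_cancel, h.lin]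

theorem gen_dl (l : IrrCharacter P) : IsGeneralizedCharacter P (dl l) :=
  l.2.isGeneralized.sub isGeneralized_one

theorem inner_dl [Fintype P] {l m : IrrCharacter P} (hl : l ≠ tri P) (hm : m ≠ tri P) :
    classInner (dl l) (dl m) = (if l = m then 1 else 0) + 1 := by
  have e1 : dl l = (l : P → ℂ) - ((tri P : IrrCharacter P) : P → ℂ) := rfl
  have e2 : dl m = (m : P → ℂ) - ((tri P : IrrCharacter P) : P → ℂ) := rfl
  rw [e1, e2, classInner_sub_left, classInner_sub_right, classInner_sub_right,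
    l.2.classInner_eq_zero (tri P).2 (fun h => hl (Subtype.ext h)),
    (tri P).2.classInner_eq_zero m.2 (fun h => hm (Subtype.ext h.symm)), (tri P).2.classInner_self]
  split_ifs with h1
  · rw [h1, m.2.classInner_self]; ring
  · rw [l.2.classInner_eq_zero m.2 (fun h => h1 (Subtype.ext h))]; ring

omit h in
/-- the coefficients -/
noncomputable def _root_.Cfsg.Agent.Lib.CycAbs.V (ρ : ι → P → ℂ) (i : ι) (l : IrrCharacter P) : ℂ :=
  letI := Fintype.ofFinite P
  classInner (ρ i) (dl l)

omit h in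
theorem _root_.Cfsg.Agent.Lib.CycAbs.V_eq [Fintype P] (i : ι) (l : IrrCharacter P) :
    V ρ i l = classInner (ρ i) (dl l) := by
  unfold V
  congr!

theorem V_int (i : ι) (l : IrrCharacter P) : ∃ n : ℤ, V ρ i l = n := by
  have := Fintype.ofFinite P
  rw [V_eq]
  exact (h.gen i).classInner_int (h.gen_dl l)

theorem V_tw {a : MulAut P} (ha : a ∈ A) (i : ι) (l : IrrCharacter P) : V ρ i (tw a l) = V ρ i l := by
  have := Fintype.ofFinite P
  rw [V_eq, V_eq]
  unfold classInner
  congr 1
  have h1 := Equiv.sum_comp (a : P ≃* P).toEquiv (fun x => ρ i x * conj (dl l x))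
  rw [← h1]
  refine Finset.sum_congr rfl fun x _ => ?_
  show ρ i x * conj (dl l (a x)) = ρ i (a x) * conj (dl l (a x))
  rw [h.inv a ha]

/-- Gram matrix -/
theorem gram {l m : IrrCharacter P} (hl : l ≠ tri P) (hm : m ≠ tri P) [Fintype A] :
    ∑ i, V ρ i l * conj (V ρ i m) = ∑ a : A, ((if m = tw (a : MulAut P) l then (1 : ℂ) else 0) + 1) := by
  have := Fintype.ofFinite P
  have hP : (Nat.card P : ℂ) ≠ 0 := by exact_mod_cast Nat.card_pos.ne'
  have h1 : ∀ i, V ρ i l * conj (V ρ i m) = (Nat.card P : ℂ)⁻¹ * (Nat.card P : ℂ)⁻¹ *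
      ∑ x : P, ∑ y : P, (conj (dl l x) * dl m y) * (ρ i x * conj (ρ i y)) := by
    intro i
    rw [V_eq, V_eq]
    unfold classInner
    rw [map_mul, map_sum, map_inv₀, map_natCast, mul_mul_mul_comm, Finset.sum_mul_sum]
    congr 1
    refine Finset.sum_congr rfl fun x _ => Finset.sum_congr rfl fun y _ => ?_
    rw [map_mul, Complex.conj_conj]
    ring
  have h2 : ∀ x y : P, (conj (dl l x) * dl m y) * ∑ i, ρ i x * conj (ρ i y) =
      (conj (dl l x) * dl m y) * if ∃ a ∈ A, a y = x then (Nat.card P : ℂ) else 0 := by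
    intro x y
    by_cases hx : x = 1
    · rw [hx, h.dl_one, map_zero, zero_mul, zero_mul, zero_mul]
    · by_cases hy : y = 1
      · rw [hy, h.dl_one, mul_zero, zero_mul, zero_mul]
      · rw [h.orth y x hy hx]
        congr!
  have h3 : ∀ y : P, ∑ x : P, (conj (dl l x) * dl m y) * (if ∃ a ∈ A, a y = x then (Nat.card P : ℂ) else 0) =
      (Nat.card P : ℂ) * ∑ a : A, dl m y * conj (dl (tw (a : MulAut P) l) y) := by
    intro y
    by_cases hy : y = 1
    · rw [hy, h.dl_one]
      simp
    · rw [Finset.mul_sum]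
      have h4 : ∀ x : P, (conj (dl l x) * dl m y) * (if ∃ a ∈ A, a y = x then (Nat.card P : ℂ) else 0) =
          if ∃ a ∈ A, a y = x then (Nat.card P : ℂ) * (dl m y * conj (dl l x)) else 0 := by
        intro x
        split_ifs
        · ring
        · ring
      rw [Finset.sum_congr rfl (fun x _ => h4 x), ← Finset.sum_filter]
      symm
      refine Finset.sum_bij (fun a _ => (a : MulAut P) y) ?_ ?_ ?_ ?_
      · intro a _
        exact Finset.mem_filter.2 ⟨Finset.mem_univ _, a, a.2, rfl⟩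
      · intro a _ b _ hab
        have h5 : ((b : MulAut P)⁻¹ * (a : MulAut P)) = 1 := by
          apply h.free _ (mul_mem (inv_mem b.2) a.2) y hy
          show (b : MulAut P).symm ((a : MulAut P) y) = y
          rw [hab, MulEquiv.symm_apply_apply]
        apply Subtype.ext
        rw [inv_mul_eq_one] at h5
        exact h5.symm
      · intro x hx
        obtain ⟨a, ha, rfl⟩ := (Finset.mem_filter.1 hx).2
        exact ⟨⟨a, ha⟩, Finset.mem_univ _, rfl⟩
      · intro a _
        rw [dl_tw]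
  rw [Finset.sum_congr rfl (fun i _ => h1 i), ← Finset.mul_sum, Finset.sum_comm]
  have h5 : ∀ x : P, ∑ i, ∑ y : P, (conj (dl l x) * dl m y) * (ρ i x * conj (ρ i y)) =
      ∑ y : P, (conj (dl l x) * dl m y) * (if ∃ a ∈ A, a y = x then (Nat.card P : ℂ) else 0) := by
    intro x
    rw [Finset.sum_comm]
    refine Finset.sum_congr rfl fun y _ => ?_
    rw [← Finset.mul_sum, h2]
  rw [Finset.sum_congr rfl (fun x _ => h5 x), Finset.sum_comm, Finset.sum_congr rfl (fun y _ => h3 y),
    ← Finset.mul_sum, mul_assoc, inv_mul_cancel_left₀ hP, Finset.sum_comm, Finset.mul_sum]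
  refine Finset.sum_congr rfl fun a _ => ?_
  have h6 := h.inner_dl hm (h.tw_ne (a := (a : MulAut P)) hl)
  refine Eq.trans ?_ (h6.trans ?_)
  · rfl
  · congr!

omit h in
/-- nontrivial characters -/
abbrev _root_.Cfsg.Agent.Lib.CycAbs.Lam (P : Type u) [Group P] : Type u := {l : IrrCharacter P // l ≠ tri P}

omit h in
/-- orbits of nontrivial characters -/
def _root_.Cfsg.Agent.Lib.CycAbs.rel (A : Subgroup (MulAut P)) : Setoid (Lam P) where
  r l m := ∃ a ∈ A, m.1 = tw a l.1
  iseqv := {
    refl := fun l => ⟨1, one_mem _, rfl⟩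
    symm := by
      rintro l m ⟨a, ha, hal⟩
      refine ⟨a⁻¹, inv_mem ha, ?_⟩
      rw [hal, ← tw_mul, mul_inv_cancel, tw_one]
    trans := by
      rintro l m n ⟨a, ha, hal⟩ ⟨b, hb, hbm⟩
      refine ⟨a * b, mul_mem ha hb, ?_⟩
      rw [hbm, hal, tw_mul] }

omit h in
/-- the orbits -/
abbrev _root_.Cfsg.Agent.Lib.CycAbs.Om (A : Subgroup (MulAut P)) : Type u := Quotient (rel A)

omit h in
/-- representatives -/
noncomputable def _root_.Cfsg.Agent.Lib.CycAbs.rp (w : Om A) : Lam P := Quotient.out w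

/-- the matrix -/
noncomputable def v (i : ι) (w : Om A) : ℤ := (h.V_int i (rp w).1).choose

theorem v_spec (i : ι) (w : Om A) : V ρ i (rp w).1 = (h.v i w : ℂ) := (h.V_int i (rp w).1).choose_spec

theorem V_eq_v (i : ι) (l : Lam P) : V ρ i l.1 = (h.v i (Quotient.mk (rel A) l) : ℂ) := by
  rw [← h.v_spec]
  have h1 : (rel A).r (rp (Quotient.mk (rel A) l)) l := Quotient.mk_out l
  obtain ⟨a, ha, hal⟩ := h1
  rw [hal, h.V_tw ha]

theorem gram_v (w w' : Om A) [Fintype A] :
    ∑ i, h.v i w * h.v i w' = (if w = w' then 1 else 0) + (Nat.card A : ℤ) := by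
  have h1 := h.gram (rp w).2 (rp w').2
  simp only [h.v_spec] at h1
  have h2 : ∑ a : A, ((if (rp w').1 = tw (a : MulAut P) (rp w).1 then (1 : ℂ) else 0) + 1) =
      (if w = w' then 1 else 0) + (Nat.card A : ℂ) := by
    rw [Finset.sum_add_distrib]
    congr 1
    · split_ifs with hw
      · subst hw
        rw [Finset.sum_eq_single (1 : A)]
        · rw [if_pos]; rfl
        · intro a _ ha
          rw [if_neg]
          intro h3
          exact ha (Subtype.ext (h.tw_free a.2 (rp w).2 h3.symm))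
        · intro h3; exact absurd (Finset.mem_univ _) h3
      · apply Finset.sum_eq_zero
        intro a _
        rw [if_neg]
        intro h3
        apply hw
        rw [← Quotient.out_eq w, ← Quotient.out_eq w']
        exact Quotient.sound (s := rel A) ⟨a, a.2, h3⟩
    · rw [Finset.sum_const, Finset.card_univ, nsmul_eq_mul, mul_one, Nat.card_eq_fintype_card]
  rw [h2] at h1
  have h3 : ((∑ i, h.v i w * h.v i w' : ℤ) : ℂ) = (((if w = w' then 1 else 0) + (Nat.card A : ℤ) : ℤ) : ℂ) := by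
    push_cast
    rw [← h1]
    refine Finset.sum_congr rfl fun i _ => ?_
    simp
  exact_mod_cast h3

theorem V_tri (i : ι) : V ρ i (tri P) = 0 := by
  have := Fintype.ofFinite P
  rw [V_eq]
  have : dl (tri P) = (0 : P → ℂ) := by
    funext x
    exact sub_self (1 : ℂ)
  rw [this, IndFun.classInner_zero_right]

theorem card_irr : Nat.card (IrrCharacter P) = Nat.card P := by
  have h1 := sum_degree_sq (G := P)
  have h2 : ∑ χ : IrrCharacter P, (χ : P → ℂ) 1 ^ 2 = ∑ χ : IrrCharacter P, (1 : ℂ) :=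
    Finset.sum_congr rfl fun χ _ => by rw [h.lin, one_pow]
  rw [h2, Finset.sum_const, Finset.card_univ, nsmul_eq_mul, mul_one] at h1
  rw [Nat.card_eq_fintype_card]
  exact_mod_cast h1

theorem expand (i : ι) {x : P} (hx : x ≠ 1) : ρ i x = ∑ l : IrrCharacter P, V ρ i l * (l : P → ℂ) x := by
  have := Fintype.ofFinite P
  have h1 := (h.gen i).isClassFunction.expansion_apply x
  have h2 : ∑ l : IrrCharacter P, (l : P → ℂ) x = 0 := by
    have h3 := column_orthogonality x (1 : P)
    rw [if_neg] at h3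
    · rw [← h3]
      refine Finset.sum_congr rfl fun l _ => ?_
      rw [h.lin, map_one, mul_one]
    · intro h4
      exact hx (isConj_one_left.1 h4)
  have h4 : ∀ l : IrrCharacter P, V ρ i l * (l : P → ℂ) x =
      classInner (ρ i) (l : P → ℂ) * (l : P → ℂ) x - classInner (ρ i) ((tri P : IrrCharacter P) : P → ℂ) * (l : P → ℂ) x := by
    intro l
    have e1 : dl l = (l : P → ℂ) - ((tri P : IrrCharacter P) : P → ℂ) := rfl
    rw [V_eq, e1, classInner_sub_right]
    ring
  rw [Finset.sum_congr rfl (fun l _ => h4 l), Finset.sum_sub_distrib, ← Finset.mul_sum, h2, mul_zero, sub_zero]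
  exact h1

/-- rows do not vanish -/
theorem v_ne (i : ι) : ∃ w, h.v i w ≠ 0 := by
  by_contra hcon
  push Not at hcon
  obtain ⟨x, hx, hne⟩ := h.ne i
  apply hne
  rw [h.expand i hx]
  apply Finset.sum_eq_zero
  intro l _
  by_cases hl : l = tri P
  · rw [hl, h.V_tri, zero_mul]
  · rw [h.V_eq_v i ⟨l, hl⟩, hcon, Int.cast_zero, zero_mul]

/-- relations -/
theorem rel_of (c : ι → ℂ) (hc : ∀ w, ∑ i, c i * (h.v i w : ℂ) = 0) {x : P} (hx : x ≠ 1) :
    ∑ i, c i * ρ i x = 0 := by
  have h1 : ∀ i, c i * ρ i x = ∑ l : IrrCharacter P, c i * V ρ i l * (l : P → ℂ) x := by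
    intro i
    rw [h.expand i hx, Finset.mul_sum]
    exact Finset.sum_congr rfl fun l _ => by ring
  rw [Finset.sum_congr rfl (fun i _ => h1 i), Finset.sum_comm]
  apply Finset.sum_eq_zero
  intro l _
  rw [← Finset.sum_mul]
  by_cases hl : l = tri P
  · simp only [hl, h.V_tri, mul_zero, Finset.sum_const_zero, zero_mul]
  · have h2 := hc (Quotient.mk (rel A) ⟨l, hl⟩)
    simp only [← h.V_eq_v] at h2
    rw [h2, zero_mul]

/-- the columns as combinations of the values of `ρ` -/
theorem v_comb (g : ι → ℂ) (hg : ∀ x : P, x ≠ 1 → ∑ i, ρ i x * g i = 0) (w : Om A) :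
    ∑ i, (h.v i w : ℂ) * g i = 0 := by
  have := Fintype.ofFinite P
  have h1 : ∀ i, (h.v i w : ℂ) * g i = (Nat.card P : ℂ)⁻¹ * ∑ x : P, (ρ i x * g i) * conj (dl (rp w).1 x) := by
    intro i
    rw [← h.v_spec, V_eq]
    unfold classInner
    rw [mul_assoc, Finset.sum_mul]
    congr 1
    exact Finset.sum_congr rfl fun x _ => by ring
  rw [Finset.sum_congr rfl (fun i _ => h1 i), ← Finset.mul_sum, Finset.sum_comm]
  rw [Finset.sum_eq_zero, mul_zero]
  intro x _
  rw [← Finset.sum_mul]
  by_cases hx : x = 1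
  · rw [hx, h.dl_one, map_zero, mul_zero]
  · rw [hg x hx, zero_mul]

/-- number of orbits -/
theorem card_om [Finite A] : Nat.card (Om A) * Nat.card A + 1 = Nat.card P := by
  have e : Om A × A ≃ Lam P := Equiv.ofBijective (fun z => ⟨tw (z.2 : MulAut P) (rp z.1).1, h.tw_ne (rp z.1).2⟩) (by
    constructor
    · rintro ⟨w, a⟩ ⟨w', a'⟩ hz
      have h1 : tw (a : MulAut P) (rp w).1 = tw (a' : MulAut P) (rp w').1 := congrArg Subtype.val hz
      have h2 : (rp w').1 = tw ((a : MulAut P) * (a' : MulAut P)⁻¹) (rp w).1 := by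
        rw [tw_mul, h1, ← tw_mul, mul_inv_cancel, tw_one]
      have h3 : w = w' := by
        rw [← Quotient.out_eq w, ← Quotient.out_eq w']
        exact Quotient.sound (s := rel A) ⟨_, mul_mem a.2 (inv_mem a'.2), h2⟩
      subst h3
      have h4 := h.tw_free (mul_mem a.2 (inv_mem a'.2)) (rp w).2 h2.symm
      rw [mul_inv_eq_one] at h4
      rw [Subtype.ext h4]
    · rintro l
      have h1 : (rel A).r (rp (Quotient.mk (rel A) l)) l := Quotient.mk_out l
      obtain ⟨a, ha, hal⟩ := h1
      exact ⟨⟨Quotient.mk (rel A) l, ⟨a, ha⟩⟩, Subtype.ext hal.symm⟩)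
  rw [← Nat.card_prod, Nat.card_congr e, ← h.card_irr]
  have := Fintype.ofFinite (Lam P)
  rw [Nat.card_eq_fintype_card, Nat.card_eq_fintype_card, Fintype.card_subtype_compl, Fintype.card_subtype_eq]
  have : 0 < Fintype.card (IrrCharacter P) := Fintype.card_pos_iff.2 ⟨tri P⟩
  omega

end Dat

end Cfsg.Agent.Lib.CycAbs
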