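import Cfsg.Agent.Lib.CycInv

/-!
# Blocks with abelian defect groups and freely acting inertial quotient: inner products of star multiples
-/

set_option autoImplicit false
set_option linter.all false

namespace Cfsg.Agent.Lib.CycDef

open Cfsg Cfsg.Agent.Lib.BlockRing Cfsg.Agent.Lib.BlockGA Cfsg.Agent.Lib.BlockAlg
open Cfsg.Agent.Lib.BlkIdem Cfsg.Agent.Lib.PairAlg Cfsg.Agent.Lib.PairMax
open Cfsg.Agent.Lib.BlockIdem Cfsg.Agent.Lib.BlockSecond Cfsg.Agent.Lib.BrauerPairs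
open Cfsg.Agent.Lib.BlkFus Cfsg.Agent.Lib.InducedPair Cfsg.Agent.Lib.DefPairs
open Cfsg.Agent.Lib.BlkFusDef Cfsg.Agent.Lib.BlkTransport Cfsg.Agent.Lib.AbCount
open Cfsg.Agent.Lib.AbFusion
open Cfsg.Agent.Lib.H25BpLift Cfsg.Agent.Lib.H25BpTw Cfsg.Agent.Lib.H25BpF Cfsg.Agent.Lib.H25BpI
open Cfsg.Agent.Lib.H25BpE Cfsg.Agent.Lib.H25BpG Cfsg.Agent.Lib.H25BpW Cfsg.Agent.Lib.H25BpM
open Cfsg.Agent.Lib.H25BpS
open Cfsg.Agent.Lib.BlockCount (Bl D)
open Cfsg.Agent.Lib.Subsec (Cz mem_Cz)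
open scoped ComplexConjugate Classical Pointwise

universe u v

variable {p : ℕ} [hp : Fact p.Prime] {M : Ideal AlgInt} [hMm : M.IsMaximal] [hchar : CharP (Kf M) p]
  {G : Type u} [Group G] [Finite G] {B : Set (IrrCharacter G)} {P : Subgroup G} {c : MonoidAlgebra (Kf M) G}

/-- the action of the stabilizer is free -/
structure Free (p : ℕ) {M : Ideal AlgInt} [M.IsMaximal] {G : Type u} [Group G] [Finite G]
    (B : Set (IrrCharacter G)) (P : Subgroup G) (c : MonoidAlgebra (Kf M) G) (e : ℕ) : Prop where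
  mod : IsPModular p M
  ab : AbMax p B P c
  free : ∀ t ∈ stab (Subgroup.normalizer (P : Set G)) c, ∀ x ∈ P, x ≠ 1 → t * x * t⁻¹ = x →
    t ∈ Subgroup.centralizer (P : Set G)
  ind : (Subgroup.centralizer (P : Set G)).relIndex (stab (Subgroup.normalizer (P : Set G)) c) = e

namespace Free

variable {e : ℕ} (F : Free p B P c e)
include F

theorem k : Ctx p B P c := ctx_of F.mod F.ab

theorem C_le : Subgroup.centralizer (P : Set G) ≤ stab (Subgroup.normalizer (P : Set G)) c := fun t ht =>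
  ⟨centralizer_le_normalizer P ht, F.ab.pair.2.mem.2 t ht⟩

theorem card_T : e * Nat.card (Subgroup.centralizer (P : Set G)) =
    Nat.card (stab (Subgroup.normalizer (P : Set G)) c) := by
  have h1 := Subgroup.relIndex_mul_relIndex ⊥ (Subgroup.centralizer (P : Set G))
    (stab (Subgroup.normalizer (P : Set G)) c) bot_le F.C_le
  rw [F.ind, Subgroup.relIndex_bot_left, Subgroup.relIndex_bot_left] at h1
  rw [mul_comm]
  exact h1

theorem e_pos : 0 < e := by
  have h1 := F.card_T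
  have h2 : 0 < Nat.card (stab (Subgroup.normalizer (P : Set G)) c) := Nat.card_pos
  rw [← h1] at h2
  exact Nat.pos_of_mul_pos_right h2

theorem inf_eq {x : G} (hx : x ∈ P) (hx1 : x ≠ 1) :
    stab (Subgroup.normalizer (P : Set G)) c ⊓ Cc x = Subgroup.centralizer (P : Set G) := by
  apply le_antisymm
  · intro t ht
    obtain ⟨ht, htx⟩ := Subgroup.mem_inf.1 ht
    apply F.free t ht x hx hx1
    rw [mem_cz] at htx
    rw [← htx.eq]; group
  · intro t ht
    refine Subgroup.mem_inf.2 ⟨F.C_le ht, ?_⟩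
    rw [mem_cz]
    exact Subgroup.mem_centralizer_iff.1 ht x hx

/-- number of conjugating elements -/
theorem card_pairs {u g₀ : G} (hu : u ≠ 1) {b : MonoidAlgebra (Kf M) G}
    (h0 : PLE p (cg g₀ (Subgroup.zpowers u), BrauerMap.cj g₀ b) (P, c)) :
    Nat.card {g : G // PLE p (cg g (Subgroup.zpowers u), BrauerMap.cj g b) (P, c)} =
      e * Nat.card (Cc u) := by
  set x := g₀ * u * g₀⁻¹ with hx
  set f := BrauerMap.cj g₀ b with hf
  have h1 : PLE p (Subgroup.zpowers x, f) (P, c) := by rw [cg_zpowers] at h0; exact h0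
  have hxP : x ∈ P := h1.le (Subgroup.mem_zpowers x)
  have hx1 : x ≠ 1 := by
    rw [hx, Ne, conj_eq_one_iff]; exact hu
  have hfb : IsBlk (Cc x) f := (h1.pair F.ab.pair).2
  set T := stab (Subgroup.normalizer (P : Set G)) c with hT
  have e1 := ConjSylow.card_mul_mul_card_inf T (Cc x)
  rw [F.inf_eq hxP hx1, ← F.card_T] at e1
  have hC : 0 < Nat.card (Subgroup.centralizer (P : Set G)) := Nat.card_pos
  have e2 : Nat.card ((T : Set G) * (Cc x : Set G) : Set G) = e * Nat.card (Cc x) := by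
    apply Nat.eq_of_mul_eq_mul_right hC
    rw [e1]
    ring
  rw [← card_Cc g₀ u, ← hx, ← e2]
  have key : ∀ g : G, PLE p (cg g (Subgroup.zpowers u), BrauerMap.cj g b) (P, c) ↔
      g * g₀⁻¹ ∈ (T : Set G) * (Cc x : Set G) := by
    intro g
    have e1 : cg g (Subgroup.zpowers u) = cg (g * g₀⁻¹) (Subgroup.zpowers x) := by
      rw [hx, ← cg_zpowers, ← cg_mul, inv_mul_cancel_right]
    have e2 : BrauerMap.cj g b = BrauerMap.cj (g * g₀⁻¹) f := by
      rw [hf, ← BrauerMap.cj_mul, inv_mul_cancel_right]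
    rw [e1, e2]
    set y := g * g₀⁻¹ with hy
    constructor
    · intro hg
      obtain ⟨z, hz, hzy⟩ := ab_factor F.ab.pair F.ab.max F.ab.ab h1 hg
      rw [centralizer_cg, mem_cg] at hz
      refine ⟨z * y, hzy, (y⁻¹ * z * y)⁻¹, inv_mem hz, ?_⟩
      show z * y * (y⁻¹ * z * y)⁻¹ = y
      group
    · rintro ⟨t, ht, d, hd, hyd⟩
      rw [← hyd]
      show PLE p (cg (t * d) (Subgroup.zpowers x), BrauerMap.cj (t * d) f) (P, c)
      rw [cg_mul, BrauerMap.cj_mul, cg_of_mem_centralizer hd, hfb.mem.2 d hd]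
      have h2 := h1.cj t
      have h3 : P.map (MulAut.conj t).toMonoidHom = P := cg_of_mem_normalizer ht.1
      simp only at h2
      rw [h3, ht.2] at h2
      exact h2
  apply Nat.card_congr
  exact {
    toFun := fun g => ⟨g.1 * g₀⁻¹, (key g.1).1 g.2⟩
    invFun := fun z => ⟨z.1 * g₀, (key _).2 (by rw [mul_inv_cancel_right]; exact z.2)⟩
    left_inv := fun g => Subtype.ext (by simp)
    right_inv := fun z => Subtype.ext (by simp) }

theorem card_pairs_one {g₀ : G} {b : MonoidAlgebra (Kf M) G} (hb : IsBlk (Cc (1 : G)) b)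
    (h0 : PLE p (cg g₀ (Subgroup.zpowers (1 : G)), BrauerMap.cj g₀ b) (P, c)) :
    Nat.card {g : G // PLE p (cg g (Subgroup.zpowers (1 : G)), BrauerMap.cj g b) (P, c)} =
      Nat.card (Cc (1 : G)) := by
  have htop : Cc (1 : G) = ⊤ := by
    rw [eq_top_iff]
    intro g _
    rw [mem_cz]
    exact Commute.one_left g
  have hcj : ∀ g : G, BrauerMap.cj g b = b := fun g => hb.mem.2 g (by rw [htop]; trivial)
  have hcg : ∀ g : G, cg g (Subgroup.zpowers (1 : G)) = Subgroup.zpowers (1 : G) := by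
    intro g
    rw [cg_zpowers, mul_one, mul_inv_cancel]
  rw [hcj, hcg] at h0
  rw [htop, Subgroup.card_top]
  apply Nat.card_congr
  exact (Equiv.subtypeUnivEquiv (fun g => by rw [hcj, hcg]; exact h0))

/-- the sum over Brauer elements as a sum over the defect group -/
theorem sum_free [Fintype P] (Ξ : G → MonoidAlgebra (Kf M) G → ℂ)
    (hΞ : ∀ g u b, Ξ (g * u * g⁻¹) (BrauerMap.cj g b) = Ξ u b)
    (hz : ∀ u b, (∀ g, ¬ PLE p (cg g (Subgroup.zpowers u), BrauerMap.cj g b) (P, c)) → Ξ u b = 0) :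
    (Nat.card G : ℂ)⁻¹ * ∑ u ∈ PE p G, (Nat.card (Cc u) : ℂ) * ∑ b ∈ blks M (Cc u), Ξ u b =
      ∑ x : P, (if x = 1 then 1 else (e : ℂ)⁻¹) * Ξ x (F.k.fx x) := by
  have he : (e : ℂ) ≠ 0 := by exact_mod_cast F.e_pos.ne'
  let w : G → ℂ := fun x => if x = 1 then 1 else (e : ℂ)⁻¹
  have hw : ∀ g u : G, w (g * u * g⁻¹) = w u := by
    intro g u
    show (if g * u * g⁻¹ = 1 then (1 : ℂ) else (e : ℂ)⁻¹) = if u = 1 then 1 else (e : ℂ)⁻¹
    simp only [conj_eq_one_iff]
  have h1 := F.k.sum_pairs (fun u b => Ξ u b * w u) (fun g u b => by rw [hΞ, hw])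
  have hG : (Nat.card G : ℂ) ≠ 0 := by exact_mod_cast Nat.card_pos.ne'
  have h2 : ∑ x : P, Ξ x (F.k.fx x) * w x =
      ∑ x : P, (if x = 1 then 1 else (e : ℂ)⁻¹) * Ξ x (F.k.fx x) := by
    refine Finset.sum_congr rfl fun x _ => ?_
    rw [mul_comm]
    congr 1
    show (if (x : G) = 1 then (1 : ℂ) else (e : ℂ)⁻¹) = _
    have : (x : G) = 1 ↔ x = 1 := by
      rw [← Subgroup.coe_one, Subtype.coe_inj]
    simp only [this]
  have h3 : ∑ u ∈ PE p G, ∑ b ∈ blks M (Cc u),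
      (Nat.card {g : G // PLE p (cg g (Subgroup.zpowers u), BrauerMap.cj g b) (P, c)} : ℂ) *
        (Ξ u b * w u) =
      ∑ u ∈ PE p G, (Nat.card (Cc u) : ℂ) * ∑ b ∈ blks M (Cc u), Ξ u b := by
    refine Finset.sum_congr rfl fun u _ => ?_
    rw [Finset.mul_sum]
    refine Finset.sum_congr rfl fun b hb => ?_
    by_cases hex : ∃ g, PLE p (cg g (Subgroup.zpowers u), BrauerMap.cj g b) (P, c)
    · obtain ⟨g₀, hg₀⟩ := hex
      by_cases hu : u = 1
      · subst hu
        rw [F.card_pairs_one (mem_blks.1 hb) hg₀]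
        show _ * (_ * (if (1 : G) = 1 then (1 : ℂ) else (e : ℂ)⁻¹)) = _
        rw [if_pos rfl, mul_one]
      · rw [F.card_pairs hu hg₀]
        show _ * (_ * (if u = 1 then (1 : ℂ) else (e : ℂ)⁻¹)) = _
        rw [if_neg hu]
        push_cast
        field_simp
    · rw [hz u b (fun g hg => hex ⟨g, hg⟩), zero_mul, mul_zero, mul_zero]
  rw [h2, h3] at h1
  rw [inv_mul_eq_iff_eq_mul₀ hG, h1]

/-- inner products of star multiples -/
theorem inner_free [Fintype G] [Fintype P] {η η' : G → ℂ} (hη : Sta p P c η) (hη' : Sta p P c η')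
    (χ ψ : IrrCharacter G) :
    classInner (st p P c η (χ : G → ℂ)) (st p P c η' (ψ : G → ℂ)) =
      ∑ x : P, (if x = 1 then 1 else (e : ℂ)⁻¹) *
        (η x * conj (η' x) * CI p (χ : G → ℂ) (ψ : G → ℂ) x (F.k.fx x)) := by
  let Ξ : G → MonoidAlgebra (Kf M) G → ℂ := fun u b =>
    Wt p P c η u b * conj (Wt p P c η' u b) * CI p (χ : G → ℂ) (ψ : G → ℂ) u b
  have h1 := F.sum_free Ξ (fun g u b => by
    simp only [Ξ]
    rw [Wt_conj hη, Wt_conj hη', CI_conj χ.2.isClassFunction ψ.2.isClassFunction])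
    (fun u b hb => by
      simp only [Ξ]
      rw [Wt_eq_zero hb, zero_mul, zero_mul])
  unfold st
  rw [inner_F χ.2.isClassFunction ψ.2.isClassFunction]
  have h2 : ∑ u ∈ PE p G, (Nat.card (Cz u) : ℂ) * classInner (sec p M (Wt p P c η) (χ : G → ℂ) u)
      (sec p M (Wt p P c η') (ψ : G → ℂ) u) =
      ∑ u ∈ PE p G, (Nat.card (Cc u) : ℂ) * ∑ b ∈ blks M (Cc u), Ξ u b := by
    refine Finset.sum_congr rfl fun u _ => ?_
    have := Fintype.ofFinite (Bl M (Cz u))
    have h3 : (Nat.card (Cz u) : ℂ) = (Nat.card (Cc u) : ℂ) := by rw [Cz_eq_Cc]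
    have h4 : ∑ b ∈ blks M (Cc u), Ξ u b = ∑ b : Bl M (Cz u), Ξ u (bid M (Cz u) b.1) := by
      rw [← finsum_eq_sum_of_fintype]
      exact (sum_Bl_eq u (fun b => Ξ u b)).symm
    have h5 : ∀ b : Bl M (Cz u), Ξ u (bid M (Cz u) b.1) =
        Wt p P c η u (bid M (Cz u) b.1) * conj (Wt p P c η' u (bid M (Cz u) b.1)) *
        classInner (D p u b.1 (χ : G → ℂ)) (D p u b.1 (ψ : G → ℂ)) := by
      intro b
      show Wt p P c η u (bid M (Cz u) b.1) * conj (Wt p P c η' u (bid M (Cz u) b.1)) *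
        CI p (χ : G → ℂ) (ψ : G → ℂ) u (bid M (Cz u) b.1) = _
      rw [CI_eq]
    rw [inner_sec F.mod, h3, h4, Finset.sum_congr rfl (fun b _ => h5 b)]
  rw [h2, h1]
  refine Finset.sum_congr rfl fun x _ => ?_
  simp only [Ξ]
  rw [Wt_self hη (F.k.fx_spec x), Wt_self hη' (F.k.fx_spec x)]

end Free

end Cfsg.Agent.Lib.CycDef
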