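import Mathlib

/-!
# The combinatorics of the generalized decomposition numbers of blocks with cyclic defect groups
-/

set_option autoImplicit false
set_option linter.all false

namespace Cfsg.Agent.Lib.CycComb

open scoped Classical

universe u v

variable {Ω : Type u} [Fintype Ω]

theorem sq_one {z : ℤ} (h : z ^ 2 = 1) : z = 1 ∨ z = -1 := by
  rw [← one_pow 2] at h
  exact sq_eq_sq_iff_eq_or_eq_neg.1 h

theorem row_le (x : Ω → ℤ) (hx : ∃ a, x a ≠ 0) :
    (Fintype.card Ω : ℤ) ≤ (Fintype.card Ω + 1) * ∑ a, x a ^ 2 - (∑ a, x a) ^ 2 ∧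
    ((Fintype.card Ω + 1) * ∑ a, x a ^ 2 - (∑ a, x a) ^ 2 = (Fintype.card Ω : ℤ) →
      (∃ a, ∃ s : ℤ, (s = 1 ∨ s = -1) ∧ ∀ b, x b = if b = a then s else 0) ∨
      (∃ s : ℤ, (s = 1 ∨ s = -1) ∧ ∀ b, x b = s)) := by
  set m : ℤ := (Fintype.card Ω : ℤ) with hm
  set S := Finset.univ.filter (fun a => x a ≠ 0) with hS
  set s : ℤ := (S.card : ℤ) with hs
  set N : ℤ := ∑ a, x a ^ 2 with hN
  have hs1 : 1 ≤ s := by
    obtain ⟨a, ha⟩ := hx
    have : 0 < S.card := Finset.card_pos.2 ⟨a, Finset.mem_filter.2 ⟨Finset.mem_univ _, ha⟩⟩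
    rw [hs]; exact_mod_cast this
  have hsm : s ≤ m := by
    rw [hs, hm]
    exact_mod_cast Finset.card_le_univ S
  have hNS : N = ∑ a ∈ S, x a ^ 2 := by
    rw [hN, hS, Finset.sum_filter]
    refine Finset.sum_congr rfl fun a _ => ?_
    split_ifs with h
    · rfl
    · push Not at h
      rw [h]; ring
  have hsumS : ∑ a, x a = ∑ a ∈ S, x a := by
    rw [hS, Finset.sum_filter]
    refine Finset.sum_congr rfl fun a _ => ?_
    split_ifs with h
    · rfl
    · push Not at h
      exact h
  have hcs : (∑ a, x a) ^ 2 ≤ s * N := by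
    rw [hsumS, hNS, hs]
    exact sq_sum_le_card_mul_sum_sq
  have hsN : s ≤ N := by
    rw [hs, hNS, Finset.card_eq_sum_ones]
    push_cast
    apply Finset.sum_le_sum
    intro a ha
    have h1 := (Finset.mem_filter.1 ha).2
    have : 0 < x a ^ 2 := by positivity
    linarith
  have h1 : 0 ≤ (s - 1) * (m - s) := mul_nonneg (by linarith) (by linarith)
  have h2 : 0 ≤ (m + 1 - s) * (N - s) := mul_nonneg (by linarith) (by linarith)
  refine ⟨by nlinarith, ?_⟩
  intro heq
  have e1 : (s - 1) * (m - s) = 0 := by nlinarith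
  have e2 : (m + 1 - s) * (N - s) = 0 := by nlinarith
  have e3 : (∑ a, x a) ^ 2 = s * N := by nlinarith
  have hNs : N = s := by
    rcases mul_eq_zero.1 e2 with h | h
    · linarith
    · linarith
  have hone : ∀ a ∈ S, x a ^ 2 = 1 := by
    have h3 : ∑ a ∈ S, (x a ^ 2 - 1) = 0 := by
      rw [Finset.sum_sub_distrib, ← hNS, hNs, hs]
      simp
    have h4 : ∀ a ∈ S, 0 ≤ x a ^ 2 - 1 := by
      intro a ha
      have h1 := (Finset.mem_filter.1 ha).2
      have : 0 < x a ^ 2 := by positivity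
      linarith
    intro a ha
    have := (Finset.sum_eq_zero_iff_of_nonneg h4).1 h3 a ha
    linarith
  rcases mul_eq_zero.1 e1 with h | h
  · left
    have hc : S.card = 1 := by
      have : s = 1 := by linarith
      rw [hs] at this; exact_mod_cast this
    obtain ⟨a, ha⟩ := Finset.card_eq_one.1 hc
    refine ⟨a, x a, ?_, ?_⟩
    · exact sq_one (hone a (by rw [ha]; exact Finset.mem_singleton_self a))
    · intro b
      split_ifs with hb
      · rw [hb]
      · by_contra hne
        have : b ∈ S := Finset.mem_filter.2 ⟨Finset.mem_univ _, hne⟩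
        rw [ha, Finset.mem_singleton] at this
        exact hb this
  · right
    have hc : S = Finset.univ := by
      apply Finset.eq_univ_of_card
      have : s = m := by linarith
      rw [hs, hm] at this
      exact_mod_cast this
    have hone' : ∀ a, x a = 1 ∨ x a = -1 := fun a =>
      sq_one (hone a (by rw [hc]; exact Finset.mem_univ a))
    have hsq : (∑ a, x a) ^ 2 = m ^ 2 := by
      rw [e3, hNs]
      have : s = m := by linarith
      rw [this]; ring
    rcases sq_eq_sq_iff_eq_or_eq_neg.1 hsq with h5 | h5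
    · refine ⟨1, Or.inl rfl, ?_⟩
      have h6 : ∑ a, (1 - x a) = 0 := by
        rw [Finset.sum_sub_distrib, h5]
        simp [hm]
      intro b
      have h7 := (Finset.sum_eq_zero_iff_of_nonneg (fun a _ => by rcases hone' a with h | h <;> rw [h] <;> norm_num)).1
        h6 b (Finset.mem_univ b)
      linarith
    · refine ⟨-1, Or.inr rfl, ?_⟩
      have h6 : ∑ a, (1 + x a) = 0 := by
        rw [Finset.sum_add_distrib, h5]
        simp [hm]
      intro b
      have h7 := (Finset.sum_eq_zero_iff_of_nonneg (fun a _ => by rcases hone' a with h | h <;> rw [h] <;> norm_num)).1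
        h6 b (Finset.mem_univ b)
      linarith

variable {ι : Type v} [Fintype ι]

theorem total (v : ι → Ω → ℤ) (e : ℕ)
    (hG : ∀ a b, ∑ i, v i a * v i b = (if a = b then 1 else 0) + (e : ℤ)) :
    ∑ i, ((Fintype.card Ω + 1) * ∑ a, v i a ^ 2 - (∑ a, v i a) ^ 2) =
      (Fintype.card Ω : ℤ) * (e + Fintype.card Ω) := by
  have h1 : ∑ i, ∑ a, v i a ^ 2 = (Fintype.card Ω : ℤ) * (1 + e) := by
    rw [Finset.sum_comm]
    have : ∀ a, ∑ i, v i a ^ 2 = 1 + (e : ℤ) := by
      intro a
      have := hG a a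
      rw [if_pos rfl] at this
      rw [← this]
      exact Finset.sum_congr rfl fun i _ => by ring
    rw [Finset.sum_congr rfl (fun a _ => this a), Finset.sum_const, Finset.card_univ, nsmul_eq_mul]
  have h2 : ∑ i, (∑ a, v i a) ^ 2 = (Fintype.card Ω : ℤ) + (Fintype.card Ω : ℤ) ^ 2 * e := by
    have : ∀ i, (∑ a, v i a) ^ 2 = ∑ a, ∑ b, v i a * v i b := by
      intro i
      rw [sq, Finset.sum_mul_sum]
    rw [Finset.sum_congr rfl (fun i _ => this i), Finset.sum_comm]
    have h3 : ∀ a, ∑ i, ∑ b, v i a * v i b = 1 + (Fintype.card Ω : ℤ) * e := by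
      intro a
      rw [Finset.sum_comm, Finset.sum_congr rfl (fun b _ => hG a b), Finset.sum_add_distrib, Finset.sum_ite_eq,
        if_pos (Finset.mem_univ a), Finset.sum_const, Finset.card_univ, nsmul_eq_mul]
    rw [Finset.sum_congr rfl (fun a _ => h3 a), Finset.sum_const, Finset.card_univ, nsmul_eq_mul]
    ring
  rw [Finset.sum_sub_distrib, ← Finset.mul_sum, h1, h2]
  ring

/-- the upper bound -/
theorem card_le (v : ι → Ω → ℤ) (e : ℕ) (hΩ : 0 < Fintype.card Ω) (hv : ∀ i, ∃ a, v i a ≠ 0)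
    (hG : ∀ a b, ∑ i, v i a * v i b = (if a = b then 1 else 0) + (e : ℤ)) :
    Fintype.card ι ≤ e + Fintype.card Ω := by
  have h1 := total v e hG
  have h2 : ∑ i : ι, (Fintype.card Ω : ℤ) ≤
      ∑ i, ((Fintype.card Ω + 1) * ∑ a, v i a ^ 2 - (∑ a, v i a) ^ 2) :=
    Finset.sum_le_sum fun i _ => (row_le (v i) (hv i)).1
  rw [h1, Finset.sum_const, Finset.card_univ, nsmul_eq_mul] at h2
  have h3 : (0 : ℤ) < Fintype.card Ω := by exact_mod_cast hΩ
  have h4 : (Fintype.card ι : ℤ) ≤ e + Fintype.card Ω := by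
    by_contra hcon
    push Not at hcon
    have := mul_lt_mul_of_pos_right hcon h3
    linarith
  exact_mod_cast h4

/-- the structure of the matrix -/
theorem structure_thm (v : ι → Ω → ℤ) (e : ℕ) (hΩ : 0 < Fintype.card Ω) (hv : ∀ i, ∃ a, v i a ≠ 0)
    (hG : ∀ a b, ∑ i, v i a * v i b = (if a = b then 1 else 0) + (e : ℤ))
    (hk : e + Fintype.card Ω ≤ Fintype.card ι) :
    ∃ (Y : Finset ι) (f : ι → Ω) (δ : ι → ℤ), (∀ i, δ i = 1 ∨ δ i = -1) ∧
      (∀ i ∈ Y, ∀ b, v i b = if b = f i then δ i else 0) ∧ (∀ i, i ∉ Y → ∀ b, v i b = δ i) ∧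
      (∀ a, ∃! i, i ∈ Y ∧ f i = a) ∧ Y.card = Fintype.card Ω ∧ (Finset.univ \ Y).card = e := by
  have hkeq : Fintype.card ι = e + Fintype.card Ω := le_antisymm (card_le v e hΩ hv hG) hk
  have h1 := total v e hG
  have hrow : ∀ i, (Fintype.card Ω + 1) * ∑ a, v i a ^ 2 - (∑ a, v i a) ^ 2 = (Fintype.card Ω : ℤ) := by
    have h2 : ∑ i : ι, (((Fintype.card Ω + 1) * ∑ a, v i a ^ 2 - (∑ a, v i a) ^ 2) - (Fintype.card Ω : ℤ)) = 0 := by
      rw [Finset.sum_sub_distrib, h1, Finset.sum_const, Finset.card_univ, nsmul_eq_mul, hkeq]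
      push_cast
      ring
    intro i
    have h3 := (Finset.sum_eq_zero_iff_of_nonneg (fun i _ => by
      have := (row_le (v i) (hv i)).1
      linarith)).1 h2 i (Finset.mem_univ i)
    linarith
  have htype : ∀ i, (∃ a, ∃ s : ℤ, (s = 1 ∨ s = -1) ∧ ∀ b, v i b = if b = a then s else 0) ∨
      (∃ s : ℤ, (s = 1 ∨ s = -1) ∧ ∀ b, v i b = s) := fun i => (row_le (v i) (hv i)).2 (hrow i)
  obtain ⟨a₀⟩ : Nonempty Ω := Fintype.card_pos_iff.1 hΩ
  by_cases hm : Fintype.card Ω = 1
  · -- one column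
    have hsub : ∀ a b : Ω, a = b := fun a b => Fintype.card_le_one_iff.1 hm.le a b
    have hs : ∀ i, ∃ s : ℤ, (s = 1 ∨ s = -1) ∧ ∀ b, v i b = s := by
      intro i
      rcases htype i with ⟨a, s, hs, hb⟩ | h
      · exact ⟨s, hs, fun b => by rw [hb, if_pos (hsub b a)]⟩
      · exact h
    choose δ hδ hvδ using hs
    obtain ⟨i₀⟩ : Nonempty ι := by
      rw [← Fintype.card_pos_iff, hkeq]; omega
    refine ⟨{i₀}, fun _ => a₀, δ, hδ, ?_, ?_, ?_, ?_, ?_⟩
    · intro i _ b
      rw [if_pos (hsub b a₀)]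
      exact hvδ i b
    · intro i _ b
      exact hvδ i b
    · intro a
      refine ⟨i₀, ⟨Finset.mem_singleton_self _, hsub _ _⟩, ?_⟩
      rintro j ⟨hj, _⟩
      exact Finset.mem_singleton.1 hj
    · rw [Finset.card_singleton, hm]
    · rw [Finset.card_sdiff_of_subset (Finset.subset_univ _), Finset.card_univ, Finset.card_singleton, hkeq, hm]
      omega
  · -- several columns
    have hm2 : 1 < Fintype.card Ω := by omega
    let Y : Finset ι := Finset.univ.filter (fun i => ∃ a, ∃ s : ℤ, (s = 1 ∨ s = -1) ∧ ∀ b, v i b = if b = a then s else 0)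
    have hY : ∀ i, i ∈ Y ↔ ∃ a, ∃ s : ℤ, (s = 1 ∨ s = -1) ∧ ∀ b, v i b = if b = a then s else 0 := by
      intro i; simp [Y]
    have hex : ∀ i, ∃ (a : Ω) (s : ℤ), (s = 1 ∨ s = -1) ∧ (i ∈ Y → ∀ b, v i b = if b = a then s else 0) ∧
        (i ∉ Y → ∀ b, v i b = s) := by
      intro i
      by_cases hi : i ∈ Y
      · obtain ⟨a, s, hs, hb⟩ := (hY i).1 hi
        exact ⟨a, s, hs, fun _ => hb, fun h => absurd hi h⟩
      · rcases htype i with h | ⟨s, hs, hb⟩
        · exact absurd ((hY i).2 h) hi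
        · exact ⟨a₀, s, hs, fun h => absurd h hi, fun _ => hb⟩
    choose f δ hδ h2 h3 using hex
    have hδ2 : ∀ i, δ i ^ 2 = 1 := by
      intro i
      rcases hδ i with h | h <;> rw [h] <;> norm_num
    -- columns
    have hcol : ∀ a, ((Finset.univ \ Y).card : ℤ) + ((Y.filter (fun i => f i = a)).card : ℤ) = 1 + e := by
      intro a
      have h4 := hG a a
      rw [if_pos rfl] at h4
      rw [← h4, ← Finset.sum_sdiff (Finset.subset_univ Y)]
      congr 1
      · rw [Finset.card_eq_sum_ones]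
        push_cast
        refine Finset.sum_congr rfl fun i hi => ?_
        rw [h3 i (Finset.mem_sdiff.1 hi).2 a, ← hδ2 i]
        ring
      · rw [Finset.card_eq_sum_ones, Finset.sum_filter]
        push_cast
        refine Finset.sum_congr rfl fun i hi => ?_
        rw [h2 i hi a]
        by_cases hfa : f i = a
        · rw [if_pos hfa, if_pos hfa.symm, ← hδ2 i]
          ring
        · rw [if_neg hfa, if_neg (fun h => hfa h.symm)]
          ring
    have hsumY : ∑ a, ((Y.filter (fun i => f i = a)).card : ℤ) = Y.card := by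
      norm_cast
      exact (Finset.card_eq_sum_card_fiberwise (fun i _ => Finset.mem_univ (f i))).symm
    have hXY : ((Finset.univ \ Y).card : ℤ) + Y.card = e + Fintype.card Ω := by
      norm_cast
      rw [Finset.card_sdiff_add_card_eq_card (Finset.subset_univ Y), Finset.card_univ, hkeq]
    have hX : ((Finset.univ \ Y).card : ℤ) = e := by
      have h4 : ∑ a : Ω, (((Finset.univ \ Y).card : ℤ) + ((Y.filter (fun i => f i = a)).card : ℤ)) =
          ∑ a : Ω, (1 + (e : ℤ)) := Finset.sum_congr rfl fun a _ => hcol a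
      rw [Finset.sum_add_distrib, hsumY, Finset.sum_const, Finset.sum_const, Finset.card_univ, nsmul_eq_mul,
        nsmul_eq_mul] at h4
      have h5 : ((Fintype.card Ω : ℤ) - 1) * ((Finset.univ \ Y).card : ℤ) = ((Fintype.card Ω : ℤ) - 1) * e := by
        linarith
      have h6 : ((Fintype.card Ω : ℤ) - 1) ≠ 0 := by
        have : (1 : ℤ) < Fintype.card Ω := by exact_mod_cast hm2
        linarith
      exact mul_left_cancel₀ h6 h5
    refine ⟨Y, f, δ, hδ, fun i hi => h2 i hi, fun i hi => h3 i hi, ?_, ?_, by exact_mod_cast hX⟩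
    · intro a
      have h4 := hcol a
      rw [hX] at h4
      have h5 : (Y.filter (fun i => f i = a)).card = 1 := by
        have : ((Y.filter (fun i => f i = a)).card : ℤ) = 1 := by linarith
        exact_mod_cast this
      obtain ⟨i, hi⟩ := Finset.card_eq_one.1 h5
      refine ⟨i, ?_, ?_⟩
      · have : i ∈ Y.filter (fun i => f i = a) := by rw [hi]; exact Finset.mem_singleton_self i
        exact Finset.mem_filter.1 this
      · rintro j ⟨hj, hja⟩
        have : j ∈ Y.filter (fun i => f i = a) := Finset.mem_filter.2 ⟨hj, hja⟩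
        rw [hi] at this
        exact Finset.mem_singleton.1 this
    · have : (Y.card : ℤ) = Fintype.card Ω := by linarith
      exact_mod_cast this

end Cfsg.Agent.Lib.CycComb
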