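import Mathlib
import Cfsg.Prelude.Def_GeometricClasses

/-! # Normalizers of finite matrix groups: membership by generators, fixed points, Cauchy in `SL` -/

set_option autoImplicit false

namespace Cfsg.Agent.Lib.NormTool

open Matrix
open scoped MatrixGroups

section grp

variable {G : Type*} [Group G]

/-- membership in the normalizer of a finite group given by generators -/
theorem mem_norm_closure {R : Subgroup G} [Finite R] {S : Set G} (hS : Subgroup.closure S = R) {h : G}
    (hh : ∀ s ∈ S, h * s * h⁻¹ ∈ R) : h ∈ Subgroup.normalizer (R : Set G) := by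
  have hle : R.map (MulAut.conj h).toMonoidHom ≤ R := by
    conv_lhs => rw [← hS]
    rw [MonoidHom.map_closure, Subgroup.closure_le]
    rintro _ ⟨y, hy, rfl⟩
    exact hh y hy
  have heq : R.map (MulAut.conj h).toMonoidHom = R := by
    apply Subgroup.eq_of_le_of_card_ge hle
    rw [Subgroup.card_map_of_injective (MulAut.conj h).injective]
  rw [Subgroup.mem_normalizer_iff]
  intro y
  constructor
  · intro hy
    rw [← heq]
    exact ⟨y, hy, rfl⟩
  · intro hy
    rw [← heq] at hy
    obtain ⟨y', hy', hy''⟩ := hy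
    have : y' = y := (MulAut.conj h).injective hy''
    rw [← this]; exact hy'

/-- the number of fixed points of conjugation by an element of `r`-power order (mod the centralizer) -/
theorem card_fix_modEq {R : Subgroup G} [Finite R] {r : ℕ} [hr : Fact r.Prime] {y : G} (hy : y ∈ Subgroup.normalizer (R : Set G))
    (hyr : ∀ w ∈ R, y ^ r * w = w * y ^ r) :
    Nat.card R ≡ Nat.card {w : R // y * w * y⁻¹ = w} [MOD r] := by
  classical
  haveI : Fintype R := Fintype.ofFinite R
  have hmem : ∀ w : R, y * w * y⁻¹ ∈ R := fun w => (Subgroup.mem_normalizer_iff.1 hy w.1).1 w.2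
  let f : Function.End R := fun w => ⟨y * w * y⁻¹, hmem w⟩
  have hf : ∀ k : ℕ, ∀ w : R, ((f ^ k) w : R).1 = y ^ k * w * (y ^ k)⁻¹ := by
    intro k
    induction k with
    | zero =>
      intro w
      show w.1 = y ^ 0 * w.1 * (y ^ 0)⁻¹
      simp
    | succ k ih =>
      intro w
      have : (f ^ (k + 1)) w = f ((f ^ k) w) := by rw [pow_succ']; rfl
      rw [this]
      show y * ((f ^ k) w).1 * y⁻¹ = _
      rw [ih, pow_succ']
      group
  have h1 : f ^ r ^ 1 = 1 := by
    funext w
    apply Subtype.ext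
    rw [pow_one, hf, hyr w.1 w.2, mul_inv_cancel_right]
    rfl
  have h2 := Equiv.Perm.card_fixedPoints_modEq h1
  rw [Nat.card_eq_fintype_card]
  have h3 : Nat.card {w : R // y * w * y⁻¹ = w} = Fintype.card (Function.fixedPoints f) := by
    rw [← Nat.card_eq_fintype_card]
    apply Nat.card_congr
    refine Equiv.subtypeEquivRight (fun w => ?_)
    constructor
    · intro h; exact Subtype.ext h
    · intro h; exact congrArg Subtype.val h
  rw [h3]
  exact h2

/-- the centralizer of `y` in `R` -/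
def CR (R : Subgroup G) (y : G) : Subgroup R where
  carrier := {w | y * w.1 = w.1 * y}
  mul_mem' {a b} ha hb := by
    show y * (a.1 * b.1) = a.1 * b.1 * y
    rw [← mul_assoc, ha, mul_assoc, hb, mul_assoc]
  one_mem' := by show y * 1 = 1 * y; rw [mul_one, one_mul]
  inv_mem' {a} ha := by
    show y * a.1⁻¹ = a.1⁻¹ * y
    have ha' : y * a.1 = a.1 * y := ha
    rw [mul_inv_eq_iff_eq_mul, mul_assoc, ha', inv_mul_cancel_left]

theorem mem_CR {R : Subgroup G} {y : G} {w : R} : w ∈ CR R y ↔ y * w.1 = w.1 * y := Iff.rfl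

theorem card_CR {R : Subgroup G} {y : G} : Nat.card (CR R y) = Nat.card {w : R // y * w * y⁻¹ = w} := by
  apply Nat.card_congr
  refine Equiv.subtypeEquivRight (fun w => ?_)
  rw [mem_CR, mul_inv_eq_iff_eq_mul]

end grp

section sl

variable {F : Type*} [Field F] {ι : Type} [Fintype ι] [DecidableEq ι]

theorem mem_SL_iff {x : GL ι F} : x ∈ Cfsg.Geo.specialLinear ι F ↔ x.1.det = 1 := by
  rw [Cfsg.Geo.specialLinear, MonoidHom.mem_ker]
  constructor
  · intro hx
    have := congrArg Units.val hx
    rwa [Matrix.GeneralLinearGroup.val_det_apply] at this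
  · intro hx
    ext
    rw [Matrix.GeneralLinearGroup.val_det_apply, hx]; rfl

/-- Cauchy's theorem in a subgroup, nonscalar elements -/
theorem exists_order {T : Subgroup (GL ι F)} [Finite T] [Nonempty ι] {r m : ℕ} [hr : Fact r.Prime]
    (hdvd : r ∣ Nat.card T) (hsc : ∀ x ∈ T, ∀ z : F, x.1 = z • (1 : Matrix ι ι F) → z ^ m = 1) (hm : ¬ r ∣ m) :
    ∃ x ∈ T, x ^ r = 1 ∧ ∀ z : F, x.1 ≠ z • (1 : Matrix ι ι F) := by
  obtain ⟨x, hx⟩ := exists_prime_orderOf_dvd_card' r hdvd
  have hxr : x.1 ^ r = 1 := by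
    have := pow_orderOf_eq_one x
    rw [hx] at this
    exact congrArg Subtype.val this
  refine ⟨x.1, x.2, hxr, ?_⟩
  intro z hz
  have h1 := hsc x.1 x.2 z hz
  have h2 : x ^ m = 1 := by
    apply Subtype.ext
    apply Units.ext
    simp only [Subgroup.coe_pow, Units.val_pow_eq_pow_val, Subgroup.coe_one, Units.val_one]
    rw [hz, smul_pow, h1, one_pow, one_smul]
  have := orderOf_dvd_of_pow_eq_one h2
  rw [hx] at this
  exact hm this

theorem scalar_SL {x : GL ι F} (hx : x ∈ Cfsg.Geo.specialLinear ι F) {z : F} (hz : x.1 = z • (1 : Matrix ι ι F)) :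
    z ^ Fintype.card ι = 1 := by
  have h1 := mem_SL_iff.1 hx
  rw [hz, Matrix.det_smul, Matrix.det_one, mul_one] at h1
  exact h1

lemma nonscalar_conj {x g : GL ι F} (h : ∀ z : F, x.1 ≠ z • (1 : Matrix ι ι F)) (z : F) : (g⁻¹ * x * g).1 ≠ z • (1 : Matrix ι ι F) := by
  intro hz
  apply h z
  have : x = g * (g⁻¹ * x * g) * g⁻¹ := by group
  rw [this, Units.val_mul, Units.val_mul, hz]
  rw [Matrix.mul_smul, Matrix.mul_one, Matrix.smul_mul, ← Units.val_mul, mul_inv_cancel, Units.val_one]

lemma conj_pow_eq {G : Type*} [Group G] (x g : G) (r : ℕ) : (g⁻¹ * x * g) ^ r = g⁻¹ * x ^ r * g := by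
  have := conj_pow (i := r) (a := g⁻¹) (b := x)
  rwa [inv_inv] at this

end sl

end Cfsg.Agent.Lib.NormTool
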