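import Cfsg.Agent.Lib.TrForm4
import Cfsg.Agent.Lib.HermBasis
import Cfsg.Agent.Lib.ClUnitary

/-! # Hermitian forms over quadratic extensions: adjoint automorphism, homogeneous isometries, coordinates -/

set_option autoImplicit false

namespace Cfsg.Agent.Lib.TrForm

open Cfsg.Agent.Lib.InvSub Cfsg.Agent.Lib.PrimeOrd Cfsg.Agent.Lib.Sesq Cfsg.Agent.Lib.SpConj Module Matrix Polynomial

section sigma

variable {F L V : Type*} [Field F] [Field L] [Algebra F L] [AddCommGroup V] [Module F V] [Module L V]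
  [IsScalarTower F L V]

/-- the adjoint automorphism -/
theorem exists_sigma [Nontrivial V] {B : V →ₗ[F] V →ₗ[F] F} (halt : Alt B) (hnd : ND (σ := RingHom.id F) B ⊤)
    (hadj : ∀ a : L, ∃ b : L, ∀ u v, B (a • u) v = B u (b • v)) :
    ∃ σ : L →ₐ[F] L, (∀ a, σ (σ a) = a) ∧ ∀ a u v, B (a • u) v = B u (σ a • v) := by
  have hu : ∀ a b : L, (∀ u v, B u (a • v) = B u (b • v)) → a = b := by
    intro a b h
    obtain ⟨v, hv⟩ := exists_ne (0 : V)
    have h1 : (a - b) • v = 0 := by
      apply hnd _ trivial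
      intro w _
      rw [halt.skew, sub_smul, map_sub, h, sub_self, neg_zero]
    exact sub_eq_zero.1 ((smul_eq_zero.1 h1).resolve_right hv)
  choose s hs using hadj
  have huniq : ∀ a b : L, (∀ u v, B (a • u) v = B u (b • v)) → s a = b := fun a b h => hu _ _ (fun u v => by rw [← hs, h])
  let σ : L →ₐ[F] L :=
    { toFun := s
      map_one' := huniq _ _ (fun u v => by rw [one_smul, one_smul])
      map_mul' := fun a b => huniq _ _ (fun u v => by rw [← smul_smul, hs, hs, smul_smul, mul_comm])
      map_zero' := huniq _ _ (fun u v => by rw [zero_smul, zero_smul, map_zero, map_zero, LinearMap.zero_apply])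
      map_add' := fun a b => huniq _ _ (fun u v => by rw [add_smul, map_add, LinearMap.add_apply, hs, hs, add_smul, map_add])
      commutes' := fun c => huniq _ _ (fun u v => by rw [algebraMap_smul, algebraMap_smul, map_smul, LinearMap.smul_apply, map_smul]) }
  refine ⟨σ, ?_, hs⟩
  intro a
  apply hu
  intro u v
  show B u (s (s a) • v) = _
  rw [← hs, halt.skew, ← hs, ← halt.skew]

end sigma

section herm

variable {L V : Type*} [Field L] [AddCommGroup V] [Module L V] {σ : L →+* L} {B : V →ₗ[L] V →ₛₗ[σ] L}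

/-- adjoint of a polynomial, sesquilinear case -/
lemma adj_poly' (hσ : ∀ a, σ (σ a) = a) {T T' : Module.End L V} (h : ∀ u v, B (T u) v = B u (T' v)) (f : L[X]) :
    ∀ u v, B (aeval T f u) v = B u (aeval T' (f.map σ) v) := by
  have hpow : ∀ k : ℕ, ∀ u v, B ((T ^ k) u) v = B u ((T' ^ k) v) := by
    intro k
    induction k with
    | zero => intro u v; rfl
    | succ k ih => intro u v; rw [pow_succ, Module.End.mul_apply, ih, h, ← Module.End.mul_apply, ← pow_succ']
  induction f using Polynomial.induction_on' with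
  | add p q hp hq => intro u v; rw [Polynomial.map_add, map_add, map_add, LinearMap.add_apply, LinearMap.add_apply, map_add, map_add,
      LinearMap.add_apply, hp, hq]
  | monomial k a =>
    intro u v
    rw [← C_mul_X_pow_eq_monomial, Polynomial.map_mul, map_mul, map_mul, Polynomial.map_C, Polynomial.map_pow, Polynomial.map_X,
      aeval_C, aeval_C, map_pow, map_pow, aeval_X, aeval_X]
    change B (a • ((T ^ k) u)) v = B u (σ a • ((T' ^ k) v))
    rw [map_smul, LinearMap.smul_apply, hpow, LinearMap.map_smulₛₗ, hσ]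

/-- conjugate roots over finite fields -/
theorem frob_conj {L K : Type*} [Field L] [Fintype L] {p r q : ℕ} [hp : Fact p.Prime] [CharP L p] [Field K] [Algebra L K]
    [Finite K] {σ : L →+* L} (hq : ∀ a : L, σ a = a ^ q) (hqp : ∃ n, q = p ^ n) (hσ : ∀ a, σ (σ a) = a)
    {f : L[X]} (hf : Irreducible f) {β : K} (hβf : aeval β f = 0) (hord : orderOf β = r) (hr : r.Prime)
    (hroot1 : aeval (β ^ (r - 1)) (f.map σ) = 0) :
    ∃ i : ℕ, ((q : ℕ) : ZMod r) * ((Fintype.card L : ℕ) : ZMod r) ^ i = -1 := by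
  have hKp : CharP K p := charP_of_injective_algebraMap (algebraMap L K).injective p
  have hfin : FiniteDimensional L K := Module.Finite.of_finite
  obtain ⟨n, hn⟩ := hqp
  have hroot2 : aeval (β ^ q) (f.map σ) = 0 := by
    have h1 := congrArg (iterateFrobenius K p n) hβf
    rw [map_zero, aeval_def, hom_eval₂] at h1
    rw [aeval_def, eval₂_map]
    have h2 : (algebraMap L K).comp σ = (iterateFrobenius K p n).comp (algebraMap L K) := by
      ext a
      rw [RingHom.comp_apply, RingHom.comp_apply, hq, iterateFrobenius_def, map_pow, hn]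
    rw [h2]
    have h3 : (iterateFrobenius K p n) β = β ^ q := by rw [iterateFrobenius_def, hn]
    rw [← h3]
    exact h1
  have hirr : Irreducible (f.map σ) := by
    have hbij : Function.Bijective σ := ⟨σ.injective, fun a => ⟨σ a, hσ a⟩⟩
    let e : L ≃+* L := RingEquiv.ofBijective σ hbij
    have := (MulEquiv.irreducible_iff (Polynomial.mapEquiv e)).2 hf
    exact this
  have hmin : minpoly L (β ^ (r - 1)) = minpoly L (β ^ q) := by
    have h1 := minpoly.eq_of_irreducible hirr hroot1
    have h2 := minpoly.eq_of_irreducible hirr hroot2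
    rw [← h1, ← h2]
  have hconj : IsConjRoot L (β ^ (r - 1)) (β ^ q) := hmin
  rw [isConjRoot_iff_exists_algEquiv] at hconj
  obtain ⟨τ, hτ⟩ := hconj
  obtain ⟨i, hi⟩ := (FiniteField.bijective_frobeniusAlgEquivOfAlgebraic_pow L K).2 τ
  refine ⟨i.1, ?_⟩
  have h1 : ∀ (i : ℕ) (x : K), (FiniteField.frobeniusAlgEquivOfAlgebraic L K ^ i) x = x ^ (Fintype.card L ^ i) := by
    intro i
    induction i with
    | zero => intro x; rw [pow_zero, pow_zero, pow_one]; rfl
    | succ i ih =>
      intro x
      rw [pow_succ', AlgEquiv.mul_apply, ih]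
      rw [FiniteField.coe_frobeniusAlgEquivOfAlgebraic]
      show (x ^ Fintype.card L ^ i) ^ Fintype.card L = _
      rw [← pow_mul, ← pow_succ]
  have h2 : β ^ (r - 1) = β ^ (q * Fintype.card L ^ i.1) := by
    rw [← hτ, ← hi]
    show (FiniteField.frobeniusAlgEquivOfAlgebraic L K ^ i.1) (β ^ q) = _
    rw [h1, ← pow_mul]
  have h3 : (r - 1) ≡ q * Fintype.card L ^ i.1 [MOD r] := by
    have := (IsOfFinOrder.pow_eq_pow_iff_modEq (x := β) (orderOf_pos_iff.1 (by rw [hord]; exact hr.pos))).1 h2
    rwa [hord] at this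
  have h4 := (ZMod.natCast_eq_natCast_iff _ _ _).2 h3
  rw [Nat.cast_sub hr.one_le, Nat.cast_one, ZMod.natCast_self, zero_sub] at h4
  push_cast at h4
  exact h4.symm

/-- homogeneous isometries of prime order -/
theorem herm_irr [Fintype L] [FiniteDimensional L V] {p r q : ℕ} [hp : Fact p.Prime] [CharP L p] [hr : Fact r.Prime] (hrp : r ≠ p)
    (hq : ∀ a : L, σ a = a ^ q) (hqp : ∃ n, q = p ^ n) (hσ : ∀ a, σ (σ a) = a)
    {T : Module.End L V} (hT : Iso B T) (hTr : T ^ r = 1) {M : Submodule L V} (hM : Inv T M) (hMnd : ND B M)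
    (hMne : M ≠ ⊥) (hMf : finrank L M = orderOf ((Fintype.card L : ℕ) : ZMod r)) (hME : M ⊓ E T 1 = ⊥) :
    ∃ i : ℕ, ((q : ℕ) : ZMod r) * ((Fintype.card L : ℕ) : ZMod r) ^ i = -1 := by
  classical
  obtain ⟨f, hf, hfd, w, hw, hw0, hfw⟩ := exists_irred_factor (P := (X ^ r - 1 : L[X]))
    (by rw [Ne, sub_eq_zero]; intro h; have := congrArg natDegree h; rw [natDegree_X_pow, natDegree_one] at this; exact hr.out.ne_zero this)
    (by rw [map_sub, map_pow, aeval_X, map_one, hTr, sub_self]) hM hMne
  have hfc : f ∣ cyclotomic r L := by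
    rw [← Polynomial.cyclotomic_prime_mul_X_sub_one] at hfd
    rcases hf.prime.dvd_or_dvd hfd with h | h
    · exact h
    · exfalso
      obtain ⟨g, hg⟩ := h
      have h1 : aeval T (X - 1 : L[X]) w = 0 := by rw [hg, mul_comm, map_mul, Module.End.mul_apply, hfw, map_zero]
      have h2 : w ∈ M ⊓ E T 1 := by
        refine ⟨hw, ?_⟩
        rw [SetLike.mem_coe, Module.End.mem_eigenspace_iff, one_smul]
        rw [map_sub, aeval_X, map_one, LinearMap.sub_apply] at h1
        exact sub_eq_zero.1 h1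
      rw [hME] at h2
      exact hw0 ((Submodule.mem_bot L).1 h2)
  have hdeg := natDegree_irred_cyclotomic hrp hf hfc
  obtain ⟨U, hU, hUf, hwU, hUmin⟩ := cyclic_aux hf hw0 hfw
  have hUM : U = M := Submodule.eq_of_le_of_finrank_eq (hUmin M hM hw) (by rw [hUf, hdeg, hMf])
  -- `f(T)` vanishes on `M`
  have hfM : ∀ v ∈ M, aeval T f v = 0 := by
    intro v hv
    let W : Submodule L V := LinearMap.ker (aeval T f)
    have hW : Inv T W := by
      intro x hx
      rw [LinearMap.mem_ker] at hx ⊢
      rw [← Module.End.mul_apply]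
      have : aeval T f * T = T * aeval T f := by
        have h1 : aeval T (f * X) = aeval T (X * f) := by rw [mul_comm]
        rwa [map_mul, map_mul, aeval_X] at h1
      rw [this, Module.End.mul_apply, hx, map_zero]
    have h1 := hUmin W hW (LinearMap.mem_ker.2 hfw)
    rw [hUM] at h1
    exact LinearMap.mem_ker.1 (h1 hv)
  have hpM : ∀ (S : Module.End L V), Inv S M → ∀ (g : L[X]), ∀ v ∈ M, aeval S g v ∈ M := by
    intro S hS g v hv
    induction g using Polynomial.induction_on' with
    | add p q hp hq => rw [map_add]; exact M.add_mem hp hq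
    | monomial n c =>
      rw [aeval_monomial, Module.End.mul_apply]
      exact M.smul_mem c (Sesq.inv_pow hS n v hv)
  -- the adjoint polynomial vanishes
  set T' := T ^ (r - 1) with hT'
  have hT'M : Inv T' M := Sesq.inv_pow hM _
  have hT'T : T' ^ (r - 1) = T := by
    rw [hT', ← pow_mul]
    have h1 : T = T ^ 1 := (pow_one T).symm
    conv_rhs => rw [h1]
    apply pow_eq_of_mod hTr
    rw [Nat.cast_mul, Nat.cast_sub hr.out.one_le, Nat.cast_one]
    simp
  have hT'r : T' ^ r = 1 := by rw [hT', ← pow_mul, mul_comm, pow_mul, hTr, one_pow]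
  have hadj : ∀ u v, B (T' u) v = B u (T v) := by
    intro u v
    have hTi : Iso B T' := hT.pow _
    rw [iso_adj hTi hr.out.pos hT'r, hT'T]
  have hg : ∀ v ∈ M, aeval T' (f.map σ) v = 0 := by
    intro v hv
    apply hMnd _ (hpM T' hT'M _ v hv)
    intro u hu
    rw [adj_poly' hσ hadj]
    have h1 : (f.map σ).map σ = f := by
      rw [Polynomial.map_map]
      have : σ.comp σ = RingHom.id L := RingHom.ext hσ
      rw [this, Polynomial.map_id]
    rw [h1, hfM u hu, map_zero]
  -- transfer to the field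
  have : Fact (Irreducible f) := ⟨hf⟩
  let K := AdjoinRoot f
  let β : K := AdjoinRoot.root f
  have hKp : CharP K p := charP_of_injective_algebraMap (algebraMap L K).injective p
  have hfin : FiniteDimensional L K := (AdjoinRoot.powerBasis hf.ne_zero).finite
  have hfinK : Finite K := Module.finite_of_finite L
  have htr : ∀ g : L[X], aeval T g w = 0 → aeval β g = 0 := by
    intro g hg
    have h1 := ((ExtField.An.of_irred hf hfw hw0) g).1 hg
    rw [AdjoinRoot.aeval_eq, AdjoinRoot.mk_eq_zero]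
    exact h1
  have hβf : aeval β f = 0 := htr f hfw
  have hβr : β ^ r = 1 := by
    have := htr (X ^ r - 1) (by rw [map_sub, map_pow, aeval_X, map_one, hTr, sub_self]; rfl)
    rw [map_sub, map_pow, aeval_X, map_one] at this
    exact sub_eq_zero.1 this
  have hβ1 : β ≠ 1 := by
    intro h
    have h1 : f ∣ X - 1 := by
      rw [← AdjoinRoot.mk_eq_zero, ← AdjoinRoot.aeval_eq]
      show aeval β (X - 1 : L[X]) = 0
      rw [map_sub, aeval_X, map_one, h, sub_self]
    obtain ⟨g, hg⟩ := h1
    have h1 : aeval T (X - 1 : L[X]) w = 0 := by rw [hg, mul_comm, map_mul, Module.End.mul_apply, hfw, map_zero]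
    have h2 : w ∈ M ⊓ E T 1 := by
      refine ⟨hw, ?_⟩
      rw [SetLike.mem_coe, Module.End.mem_eigenspace_iff, one_smul]
      rw [map_sub, aeval_X, map_one, LinearMap.sub_apply] at h1
      exact sub_eq_zero.1 h1
    rw [hME] at h2
    exact hw0 ((Submodule.mem_bot L).1 h2)
  have hord : orderOf β = r := orderOf_eq_prime hβr hβ1
  have hroot1 : aeval (β ^ (r - 1)) (f.map σ) = 0 := by
    have h1 := htr ((f.map σ).comp (X ^ (r - 1))) (by
      rw [aeval_comp, map_pow, aeval_X]; exact hg w hw)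
    rwa [aeval_comp, map_pow, aeval_X] at h1
  exact frob_conj hq hqp hσ hf hβf hord hr.out hroot1

end herm

section coords

variable {F L V : Type*} [Field F] [Finite F] [Field L] [Finite L] [Algebra F L] [AddCommGroup V] [Module F V] [Module L V]
  [IsScalarTower F L V] {σ : L →ₐ[F] L} {B : V →ₗ[F] V →ₗ[F] F} {BL : V →ₗ[L] V →ₛₗ[(σ : L →+* L)] L}

omit [Finite F] in
lemma trace_sigma (hσ : ∀ a, σ (σ a) = a) (a : L) : Algebra.trace F L (σ a) = Algebra.trace F L a := by
  have hbij : Function.Bijective σ := ⟨σ.toRingHom.injective, fun a => ⟨σ a, hσ a⟩⟩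
  exact Algebra.trace_eq_of_algEquiv (AlgEquiv.ofBijective σ hbij) a

lemma skew_of (h : ∀ (a : L) (u v : V), Algebra.trace F L (a * BL u v) = B (a • u) v) (hσ : ∀ a, σ (σ a) = a)
    (halt : Alt B) (hadj : ∀ (a : L) (u v : V), B (a • u) v = B u (σ a • v)) (u v : V) : BL u v = - σ (BL v u) := by
  apply trace_ext (F := F)
  intro a
  rw [h, halt.skew, mul_neg, map_neg, ← trace_sigma hσ (a * σ (BL v u)), map_mul, hσ, h, hadj (σ a), hσ]

/-- an anti-fixed element -/
lemma exists_anti (h2 : (2 : L) ≠ 0) (hσ : ∀ a, σ (σ a) = a) (hσ1 : ∃ a, σ a ≠ a) : ∃ κ : L, κ ≠ 0 ∧ σ κ = -κ := by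
  obtain ⟨a, ha⟩ := hσ1
  refine ⟨a - σ a, ?_, ?_⟩
  · intro h
    exact ha (sub_eq_zero.1 h).symm
  · rw [map_sub, hσ, neg_sub]

/-- hermitian coordinates -/
theorem exists_herm_coords [FiniteDimensional L V] (h : ∀ (a : L) (u v : V), Algebra.trace F L (a * BL u v) = B (a • u) v)
    (hσ : ∀ a, σ (σ a) = a) (hσ1 : ∃ a, σ a ≠ a) (halt : Alt B) (hnd : ND (σ := (σ : L →+* L)) BL ⊤)
    (hadj : ∀ (a : L) (u v : V), B (a • u) v = B u (σ a • v)) {κ : L} (hκ0 : κ ≠ 0) (hκ : σ κ = -κ) {n : ℕ} (hn : finrank L V = n) :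
    ∃ c : V ≃ₗ[L] (Fin n → L), ∀ u v, κ * BL u v = ∑ i, c u i * σ (c v i) := by
  let H : V →ₛₗ[(σ : L →+* L)] V →ₗ[L] L := κ • BL.flip
  have hH : ∀ u v, H u v = κ * BL v u := fun u v => rfl
  have hS : H.IsSymm := by
    refine ⟨fun u v => ?_⟩
    rw [hH, hH, RingHom.coe_coe, map_mul, hκ, skew_of h hσ halt hadj u v]
    ring
  have hne : (σ : L →+* L) ≠ RingHom.id L := by
    obtain ⟨a, ha⟩ := hσ1
    intro h
    exact ha (congrArg (fun f : L →+* L => f a) h)
  have hHnd : ∀ x ∈ (⊤ : Submodule L V), (∀ y ∈ (⊤ : Submodule L V), H x y = 0) → x = 0 := by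
    intro x _ hx
    apply hnd x trivial
    intro y _
    have h1 := hx y trivial
    rw [hH] at h1
    have h2 : BL y x = 0 := (mul_eq_zero.1 h1).resolve_left hκ0
    rw [skew_of h hσ halt hadj x y, h2, map_zero, neg_zero]
  obtain ⟨e, -, he⟩ := HermBasis.exists_family hne (fun a => hσ a) hS n ⊤ (by rw [finrank_top, hn]) hHnd
  let c₀ : V →ₗ[L] (Fin n → L) := LinearMap.pi (fun i => H (e i))
  have hc₀ : ∀ v i, c₀ v i = H (e i) v := fun v i => rfl
  have hce : ∀ j, c₀ (e j) = Pi.single j 1 := by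
    intro j
    funext i
    rw [hc₀, he, Pi.single_apply]
  have hsurj : Function.Surjective c₀ := by
    intro y
    refine ⟨∑ j, y j • e j, ?_⟩
    rw [map_sum]
    funext i
    rw [Finset.sum_apply, Finset.sum_eq_single i]
    · rw [map_smul, hce, Pi.smul_apply, Pi.single_eq_same, smul_eq_mul, mul_one]
    · intro j _ hj
      rw [map_smul, hce, Pi.smul_apply, Pi.single_eq_of_ne (Ne.symm hj), smul_zero]
    · intro h; exact absurd (Finset.mem_univ i) h
  let c : V ≃ₗ[L] (Fin n → L) := LinearEquiv.ofBijective c₀ ⟨by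
    rw [LinearMap.injective_iff_surjective_of_finrank_eq_finrank (by rw [hn, Module.finrank_fin_fun])]
    exact hsurj, hsurj⟩
  have hc : ∀ v i, c v i = H (e i) v := fun v i => rfl
  refine ⟨c, ?_⟩
  intro u v
  have hu : u = ∑ j, c u j • e j := by
    apply c.injective
    rw [map_sum]
    funext i
    rw [Finset.sum_apply, Finset.sum_eq_single i]
    · rw [map_smul, Pi.smul_apply]
      have : c (e i) = Pi.single i 1 := hce i
      rw [this, Pi.single_eq_same, smul_eq_mul, mul_one]
    · intro j _ hj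
      have : c (e j) = Pi.single j 1 := hce j
      rw [map_smul, this, Pi.smul_apply, Pi.single_eq_of_ne (Ne.symm hj), smul_zero]
    · intro h; exact absurd (Finset.mem_univ i) h
  rw [← hH]
  conv_lhs => rw [hu]
  rw [map_sum]
  apply Finset.sum_congr rfl
  intro j _
  rw [map_smul, smul_eq_mul]
  congr 1
  rw [hc]
  exact (hS.eq (e j) v).symm

end coords

end Cfsg.Agent.Lib.TrForm
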