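import Cfsg.Agent.Lib.DiagTool
import Cfsg.Agent.Lib.NormTool
import Cfsg.Agent.Lib.TrForm5

/-! # Conjugacy of elements of prime order with irreducible cyclotomic polynomial; conjugacy in `SL` (semisimple elements) -/

set_option autoImplicit false

namespace Cfsg.Agent.Lib.CycConj

open Cfsg.Agent.Lib.InvSub Cfsg.Agent.Lib.PrimeOrd Cfsg.Agent.Lib.NormTool Module Matrix Polynomial
open scoped MatrixGroups

section conj

variable {F V : Type*} [Field F] [AddCommGroup V] [Module F V]

lemma aeval_restrict {T : Module.End F V} {W : Submodule F V} (hW : ∀ x ∈ W, T x ∈ W) (f : F[X]) (x : W) :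
    ((aeval (T.restrict hW) f x : W) : V) = aeval T f x := by
  induction f using Polynomial.induction_on' with
  | add p q hp hq => rw [map_add, map_add, LinearMap.add_apply, LinearMap.add_apply, Submodule.coe_add, hp, hq]
  | monomial n c =>
    rw [aeval_monomial, aeval_monomial, Module.End.mul_apply, Module.End.mul_apply]
    have : ∀ n, (((T.restrict hW) ^ n) x : V) = (T ^ n) x := by
      intro n
      induction n with
      | zero => rfl
      | succ n ih => rw [pow_succ', pow_succ', Module.End.mul_apply, Module.End.mul_apply, ← ih]; rfl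
    rw [← this]
    rfl

lemma ker_X_sub_one {T : Module.End F V} : LinearMap.ker (aeval T (X - 1 : F[X])) = E T 1 := by
  ext v
  rw [LinearMap.mem_ker, Module.End.mem_eigenspace_iff, map_sub, aeval_X, map_one, LinearMap.sub_apply, sub_eq_zero, one_smul]
  rfl

lemma cop {r : ℕ} [hr : Fact r.Prime] (hrF : (r : F) ≠ 0) (hirr : Irreducible (cyclotomic r F)) : IsCoprime (X - 1 : F[X]) (cyclotomic r F) := by
  have hX : Irreducible (X - 1 : F[X]) := by
    have := irreducible_X_sub_C (1 : F)
    rwa [C_1] at this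
  rw [Irreducible.coprime_iff_not_dvd hX]
  intro hd
  have h3 : (cyclotomic r F).IsRoot 1 := by
    have := dvd_iff_isRoot.mp (show (X - C (1 : F)) ∣ cyclotomic r F by rwa [C_1])
    exact this
  rw [IsRoot.def, eval_one_cyclotomic_prime] at h3
  exact hrF h3

lemma isCompl_cyc {r : ℕ} [hr : Fact r.Prime] (hrF : (r : F) ≠ 0) (hirr : Irreducible (cyclotomic r F)) {T : Module.End F V} (hT : T ^ r = 1) :
    IsCompl (E T 1) (LinearMap.ker (aeval T (cyclotomic r F))) := by
  have hc := cop hrF hirr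
  rw [← ker_X_sub_one]
  refine ⟨disjoint_ker_aeval_of_isCoprime T hc, ?_⟩
  rw [codisjoint_iff, sup_ker_aeval_eq_ker_aeval_mul_of_coprime T hc, mul_comm, cyclotomic_prime_mul_X_sub_one, map_sub, map_pow,
    aeval_X, hT, map_one, sub_self]
  exact LinearMap.ker_zero

theorem conj_of_cyc [FiniteDimensional F V] {r : ℕ} [hr : Fact r.Prime] (hrF : (r : F) ≠ 0) (hirr : Irreducible (cyclotomic r F))
    {T S : Module.End F V} (hT : T ^ r = 1) (hS : S ^ r = 1) (he : finrank F (E T 1) = finrank F (E S 1)) :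
    ∃ g : V ≃ₗ[F] V, ∀ v, g (T v) = S (g v) := by
  have hcT := isCompl_cyc hrF hirr hT
  have hcS := isCompl_cyc hrF hirr hS
  have h1 := Submodule.finrank_add_eq_of_isCompl hcT
  have h3 := Submodule.finrank_add_eq_of_isCompl hcS
  have hK : ∀ (T : Module.End F V), ∀ x ∈ LinearMap.ker (aeval T (cyclotomic r F)), T x ∈ LinearMap.ker (aeval T (cyclotomic r F)) := by
    intro T x hx
    rw [LinearMap.mem_ker] at hx ⊢
    have e1 : aeval T (cyclotomic r F * X) = aeval T (X * cyclotomic r F) := by rw [mul_comm]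
    rw [map_mul, map_mul, aeval_X] at e1
    have e2 := congrArg (fun f : Module.End F V => f x) e1
    simp only [Module.End.mul_apply] at e2
    rw [e2, hx, map_zero]
  obtain ⟨e1⟩ : Nonempty (E T 1 ≃ₗ[F] E S 1) := FiniteDimensional.nonempty_linearEquiv_of_finrank_eq he
  have hzero : ∀ T : Module.End F V, aeval (T.restrict (hK T)) (cyclotomic r F) = 0 := by
    intro T
    apply LinearMap.ext
    intro x
    apply Subtype.ext
    rw [aeval_restrict (hK T)]
    exact LinearMap.mem_ker.1 x.2
  obtain ⟨e2, he2⟩ := ExtField.exists_conj_irred (T := T.restrict (hK T)) (S := S.restrict (hK S)) hirr (hzero T) (hzero S) (by omega)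
  let g := (Submodule.prodEquivOfIsCompl _ _ hcT).symm ≪≫ₗ (LinearEquiv.prodCongr e1 e2) ≪≫ₗ (Submodule.prodEquivOfIsCompl _ _ hcS)
  refine ⟨g, fun v => ?_⟩
  obtain ⟨⟨u, w⟩, rfl⟩ := (Submodule.prodEquivOfIsCompl _ _ hcT).surjective v
  have hu : T u = (u : V) := by
    have := Module.End.mem_eigenspace_iff.1 u.2
    rwa [one_smul] at this
  have hu' : S (e1 u) = (e1 u : V) := by
    have := Module.End.mem_eigenspace_iff.1 (e1 u).2
    rwa [one_smul] at this
  have hw' : S (e2 w) = ((e2 ((T.restrict (hK T)) w)) : V) := by rw [he2]; rfl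
  have e3 : T ((Submodule.prodEquivOfIsCompl _ _ hcT) (u, w)) = (Submodule.prodEquivOfIsCompl _ _ hcT) (u, (T.restrict (hK T)) w) := by
    rw [Submodule.coe_prodEquivOfIsCompl', Submodule.coe_prodEquivOfIsCompl', map_add, hu]
    rfl
  have e4 : ∀ u w, g ((Submodule.prodEquivOfIsCompl _ _ hcT) (u, w)) = (e1 u : V) + (e2 w : V) := by
    intro u w
    simp only [g, LinearEquiv.trans_apply, LinearEquiv.symm_apply_apply]
    rw [LinearEquiv.prodCongr_apply, Submodule.coe_prodEquivOfIsCompl']
  rw [e3, e4, e4, map_add, hu', hw']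

/-- the dimension of the fixed space -/
theorem finrank_E_cyc [Finite F] [FiniteDimensional F V] {r : ℕ} [hr : Fact r.Prime] (hrF : (r : F) ≠ 0) (hirr : Irreducible (cyclotomic r F))
    {T : Module.End F V} (hT : T ^ r = 1) : ∃ k, finrank F V = finrank F (E T 1) + (r - 1) * k := by
  have hcT := isCompl_cyc hrF hirr hT
  have h1 := Submodule.finrank_add_eq_of_isCompl hcT
  have hK : ∀ x ∈ LinearMap.ker (aeval T (cyclotomic r F)), T x ∈ LinearMap.ker (aeval T (cyclotomic r F)) := by
    intro x hx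
    rw [LinearMap.mem_ker] at hx ⊢
    have e1 : aeval T (cyclotomic r F * X) = aeval T (X * cyclotomic r F) := by rw [mul_comm]
    rw [map_mul, map_mul, aeval_X] at e1
    have e2 := congrArg (fun f : Module.End F V => f x) e1
    simp only [Module.End.mul_apply] at e2
    rw [e2, hx, map_zero]
  -- `K` is a vector space over `F[X]/Φ`
  have hsq : Squarefree (cyclotomic r F) := hirr.squarefree
  have hz : aeval (T.restrict hK) (cyclotomic r F) = 0 := by
    apply LinearMap.ext
    intro x
    apply Subtype.ext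
    rw [aeval_restrict hK]
    exact LinearMap.mem_ker.1 x.2
  have hdeg : (cyclotomic r F).natDegree = r - 1 := by rw [natDegree_cyclotomic, Nat.totient_prime hr.out]
  have hSS : SS (T.restrict hK) (1 : F) (r - 1) := SS.of_poly (by have := hr.out.two_le; omega) hsq hz (by
    intro f hf hd
    left
    have := hf.natDegree_pos
    have h2 := (hirr.dvd_iff.1 hd).resolve_left hf.not_isUnit
    exact (natDegree_eq_of_degree_eq (degree_eq_degree_of_associated h2)).symm.trans hdeg)
  obtain ⟨k, hk⟩ := hSS.dvd (W := ⊤) (fun x _ => trivial) (by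
    rw [disjoint_top, eq_bot_iff]
    intro x hx
    have hx' := Module.End.mem_eigenspace_iff.1 hx
    rw [one_smul] at hx'
    have hx1 : (x : V) ∈ E T 1 := by
      rw [Module.End.mem_eigenspace_iff, one_smul]
      exact congrArg Subtype.val hx'
    have := hcT.disjoint.le_bot ⟨hx1, x.2⟩
    rw [Submodule.mem_bot] at this ⊢
    exact Subtype.ext this)
  rw [finrank_top] at hk
  exact ⟨k, by omega⟩

end conj

section sl

variable {F : Type*} [Field F] [Finite F] {n : ℕ}

/-- conjugacy in the special linear group for semisimple elements -/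
theorem conj_SL_of_end (hn : 0 < n) {x : GL (Fin n) F} {S : Module.End F (Fin n → F)}
    (hcompl : ∀ W, Inv (Matrix.toLin' x.1) W → ∃ W', Inv (Matrix.toLin' x.1) W' ∧ IsCompl W W')
    (g : (Fin n → F) ≃ₗ[F] (Fin n → F)) (hg : ∀ v, g (Matrix.toLin' x.1 v) = S (g v)) :
    ∃ h ∈ Cfsg.Geo.specialLinear (Fin n) F, Matrix.toLin' (h⁻¹ * x * h).1 = S := by
  haveI : Nonempty (Fin n) := ⟨⟨0, hn⟩⟩
  haveI : Nontrivial (Fin n → F) := inferInstance
  have hgdet : LinearMap.det (g : (Fin n → F) →ₗ[F] (Fin n → F)) ≠ 0 := (LinearEquiv.isUnit_det' g).ne_zero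
  obtain ⟨C, hC, hCdet⟩ := FieldComm.exists_comm_full hcompl ((LinearMap.det (g : (Fin n → F) →ₗ[F] (Fin n → F)))⁻¹)
  let G : Matrix (Fin n) (Fin n) F := LinearMap.toMatrix' ((g : (Fin n → F) →ₗ[F] (Fin n → F)) ∘ₗ C)
  have hGl : Matrix.toLin' G = (g : (Fin n → F) →ₗ[F] (Fin n → F)) ∘ₗ C := Matrix.toLin'_toMatrix' _
  have hG : G.det = 1 := by
    rw [← LinearMap.det_toLin', hGl, LinearMap.det_comp, hCdet, mul_inv_cancel₀ hgdet]
  let k : GL (Fin n) F := Matrix.GeneralLinearGroup.mkOfDetNeZero G (by rw [hG]; exact one_ne_zero)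
  have hk : k.1 = G := rfl
  have hkSL : k ∈ Cfsg.Geo.specialLinear (Fin n) F := mem_SL_iff.2 hG
  refine ⟨k⁻¹, inv_mem hkSL, ?_⟩
  rw [inv_inv]
  apply LinearMap.ext
  intro v
  obtain ⟨w, rfl⟩ : ∃ w, Matrix.toLin' k.1 w = v := ⟨Matrix.toLin' (k⁻¹).1 v, by
    rw [← LinearMap.comp_apply, ← Matrix.toLin'_mul, ← Units.val_mul, mul_inv_cancel, Units.val_one, Matrix.toLin'_one]; rfl⟩
  have e1 : Matrix.toLin' (k * x * k⁻¹).1 (Matrix.toLin' k.1 w) = Matrix.toLin' k.1 (Matrix.toLin' x.1 w) := by
    rw [← LinearMap.comp_apply, ← LinearMap.comp_apply, ← Matrix.toLin'_mul, ← Matrix.toLin'_mul, ← Units.val_mul, ← Units.val_mul]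
    congr 3
    group
  rw [e1, hk, hGl, LinearMap.comp_apply, LinearMap.comp_apply]
  have e2 := congrArg (fun f : Module.End F (Fin n → F) => f w) hC
  simp only [Module.End.mul_apply] at e2
  rw [e2]
  exact hg _

end sl

end Cfsg.Agent.Lib.CycConj
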