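import Cfsg.Agent.Lib.CycMain
import Cfsg.Agent.S4633

/-!
# Blocks with cyclic defect groups: the results up to the number of Brauer characters
-/

set_option autoImplicit false
set_option linter.all false

namespace Cfsg.Agent.Lib.CycDef

open Cfsg Cfsg.Agent.Lib.BlockRing Cfsg.Agent.Lib.BlockGA Cfsg.Agent.Lib.BlockAlg
open Cfsg.Agent.Lib.BlkIdem Cfsg.Agent.Lib.PairAlg Cfsg.Agent.Lib.PairMax
open Cfsg.Agent.Lib.BlockIdem Cfsg.Agent.Lib.BlockSecond Cfsg.Agent.Lib.BrauerPairs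
open Cfsg.Agent.Lib.BlkFus Cfsg.Agent.Lib.InducedPair Cfsg.Agent.Lib.DefPairs
open Cfsg.Agent.Lib.BlkFusDef Cfsg.Agent.Lib.BlkTransport Cfsg.Agent.Lib.AbCount
open Cfsg.Agent.Lib.AbFusion Cfsg.Agent.Lib.BlockDeg
open Cfsg.Agent.Lib.H25BpS
open Cfsg.Agent.Lib.NormalPBlk Cfsg.Agent.Lib.AbDefect
open scoped ComplexConjugate Classical Pointwise

universe u

/-- the stabilizer as given in the statements -/
theorem stab_iff {G : Type u} [Group G] [Finite G] {M : Ideal AlgInt} [hMm : M.IsMaximal] (D : Subgroup G)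
    {b : Set (IrrCharacter (Subgroup.centralizer (D : Set G)))} (hb : IsPBlock M b) {g : G}
    (hg : g ∈ Subgroup.normalizer (D : Set G)) :
    (∀ θ ∈ b, ∀ θ' : IrrCharacter (Subgroup.centralizer (D : Set G)),
      (∀ h h' : Subgroup.centralizer (D : Set G), (h' : G) = g * h * g⁻¹ →
        (θ' : Subgroup.centralizer (D : Set G) → ℂ) h' = (θ : Subgroup.centralizer (D : Set G) → ℂ) h) → θ' ∈ b) ↔
      StabilizesBlock (Subgroup.centralizer (D : Set G)) b g := by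
  have hgC := normalizer_le_normalizer_centralizer D hg
  have := hMm.isPrime
  have key : ∀ (χ χ' : IrrCharacter (Subgroup.centralizer (D : Set G))),
      IsConjCharOf (Subgroup.centralizer (D : Set G)) g (χ : Subgroup.centralizer (D : Set G) → ℂ)
        (χ' : Subgroup.centralizer (D : Set G) → ℂ) ↔ irrMap (conjIso g (normalizer_iff hgC)) χ = χ' := by
    intro χ χ'
    constructor
    · intro h
      apply Subtype.ext
      funext k'
      rw [irrMap_apply]
      apply (h _ _ _).symm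
      rw [conjIso_symm_coe]; group
    · rintro rfl k k' hk
      rw [irrMap_apply]
      exact congrArg _ (Subtype.ext (by rw [conjIso_symm_coe, hk]; group))
  constructor
  · intro h
    refine ⟨hgC, fun χ hχ => ⟨irrMap (conjIso g (normalizer_iff hgC)) χ, ?_, (key _ _).2 rfl⟩⟩
    exact h χ hχ _ ((key χ _).2 rfl)
  · rintro ⟨_, h⟩ θ hθ θ' hθ'
    obtain ⟨χ', hχ', hc⟩ := h θ hθ
    have h1 : irrMap (conjIso g (normalizer_iff hgC)) θ = θ' := (key θ θ').1 hθ'
    have h2 : irrMap (conjIso g (normalizer_iff hgC)) θ = χ' := (key θ χ').1 hc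
    rw [← h1, h2]
    exact hχ'

theorem ne_bot_of {G : Type u} [Group G] {D : Subgroup G} {p a : ℕ} [hp : Fact p.Prime] (ha : 1 ≤ a)
    (hDa : Nat.card D = p ^ a) : D ≠ ⊥ := by
  rintro rfl
  rw [Subgroup.card_bot] at hDa
  have h1 : 1 < p ^ a := Nat.one_lt_pow (by omega) hp.out.one_lt
  omega

/-- the setup of the statements -/
theorem exists_free {G : Type u} [Group G] [Finite G] (p : ℕ) [hp : Fact p.Prime] (M : Ideal AlgInt)
    [hMm : M.IsMaximal] [hchar : CharP (Kf M) p]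
    (hM : IsPModular p M) (D : Subgroup G) (hD : IsCyclic D) (a : ℕ) (ha : 1 ≤ a) (hDa : Nat.card D = p ^ a)
    (B : Set (IrrCharacter G)) (hB : IsPBlock M B) (hBD : IsDefectGroup p M B D)
    (b : Set (IrrCharacter (Subgroup.centralizer (D : Set G))))
    (hind : IsInducedBlock M (Subgroup.centralizer (D : Set G)) b B) (T : Subgroup G)
    (hT : ∀ g : G, g ∈ T ↔ (g ∈ Subgroup.normalizer (D : Set G) ∧ ∀ θ ∈ b,
      ∀ θ' : IrrCharacter (Subgroup.centralizer (D : Set G)),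
        (∀ h h' : Subgroup.centralizer (D : Set G), (h' : G) = g * h * g⁻¹ →
          (θ' : Subgroup.centralizer (D : Set G) → ℂ) h' = (θ : Subgroup.centralizer (D : Set G) → ℂ) h) → θ' ∈ b))
    (e : ℕ) (he : (Subgroup.centralizer (D : Set G)).relIndex T = e) :
    T = stab (Subgroup.normalizer (D : Set G)) (bid M _ b) ∧ e ∣ p - 1 ∧
      (∃ t₀ ∈ stab (Subgroup.normalizer (D : Set G)) (bid M _ b),
        ∀ t ∈ stab (Subgroup.normalizer (D : Set G)) (bid M _ b), ∃ n : ℤ,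
          (t₀ ^ n)⁻¹ * t ∈ Subgroup.centralizer (D : Set G)) ∧
      Free p B D (bid M _ b) e := by
  have hMP := hMm.isPrime
  have hb : IsPBlock M b := hind.1
  have hD0 := (isDefectGroup_iff hB).mp hBD
  have hPp : IsPGroup p D := hD0.pg
  have hPe : BPair p D (bid M _ b) := ⟨hPp, isBlk_bid hb⟩
  have hbr := (isInducedBlock_iff_br rfl hPp hb hB).mp hind
  have hmax := maxPair_of_defectGroup hB hBD hbr
  have hab : D ≤ Subgroup.centralizer (D : Set G) := by
    intro x hx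
    rw [Subgroup.mem_centralizer_iff]
    intro y hy
    have hcomm : ∀ a b : D, a * b = b * a := fun a b => (IsCyclic.commutative (α := D)).is_comm.comm a b
    exact congrArg Subtype.val (hcomm (⟨y, hy⟩ : D) ⟨x, hx⟩)
  have hAb : AbMax p B D (bid M _ b) := ⟨hB, hPe, hmax, hbr, hab⟩
  have hne := ne_bot_of (p := p) ha hDa
  have hTiff : ∀ g, g ∈ T ↔ (g ∈ Subgroup.normalizer (D : Set G) ∧
      StabilizesBlock (Subgroup.centralizer (D : Set G)) b g) := by
    intro g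
    rw [hT g]
    exact and_congr_right fun hg => stab_iff D hb hg
  have hTs : T = stab (Subgroup.normalizer (D : Set G)) (bid M _ b) := by
    ext g
    rw [hTiff, mem_stab]
    exact and_congr_right fun hg => stabilizesBlock_iff (normalizer_le_normalizer_centralizer D hg) hb
  have hCT : Subgroup.centralizer (D : Set G) ≤ T := by
    intro t ht
    rw [hTs]
    exact ⟨centralizer_le_normalizer D ht, hPe.2.mem.2 t ht⟩
  have hn : ((Subgroup.centralizer (D : Set G)).subgroupOf T).Normal := by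
    constructor
    intro c hc g
    rw [Subgroup.mem_subgroupOf] at hc ⊢
    have hgN : (g : G) ∈ Subgroup.normalizer (D : Set G) := ((hTiff g).1 g.2).1
    have h1 := normalizer_le_normalizer_centralizer D hgN
    exact (Subgroup.mem_normalizer_iff.1 h1 (c : G)).1 hc
  obtain ⟨hcyc, hdvd, hfree⟩ := S4633.result p M hM B hB D hBD hne hD b hind T hTiff
  refine ⟨hTs, he ▸ hdvd, ?_, ⟨hM, hAb, ?_, ?_⟩⟩
  · obtain ⟨q, hq⟩ := hcyc.exists_generator
    obtain ⟨t₀, rfl⟩ := QuotientGroup.mk_surjective q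
    refine ⟨t₀, hTs ▸ t₀.2, ?_⟩
    intro t ht
    rw [← hTs] at ht
    obtain ⟨n, hn'⟩ := Subgroup.mem_zpowers_iff.1 (hq (QuotientGroup.mk ⟨t, ht⟩))
    refine ⟨n, ?_⟩
    have h1 : (QuotientGroup.mk (t₀ ^ n) : T ⧸ (Subgroup.centralizer (D : Set G)).subgroupOf T) =
        QuotientGroup.mk ⟨t, ht⟩ := by rw [← hn']; rfl
    rw [QuotientGroup.eq, Subgroup.mem_subgroupOf] at h1
    exact h1
  · intro t ht x hx hx1 hxt
    rw [← hTs] at ht
    exact hfree t ht x hx hx1 hxt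
  · rw [← hTs]; exact he

/-- everything but the lower bound for the number of Brauer characters -/
theorem cyc_main {G : Type u} [Group G] [Finite G] (p : ℕ) [hp : Fact p.Prime] (M : Ideal AlgInt)
    (hM : IsPModular p M) (D : Subgroup G) (hD : IsCyclic D) (a : ℕ) (ha : 1 ≤ a) (hDa : Nat.card D = p ^ a)
    (B : Set (IrrCharacter G)) (hB : IsPBlock M B) (hBD : IsDefectGroup p M B D)
    (b : Set (IrrCharacter (Subgroup.centralizer (D : Set G))))
    (hind : IsInducedBlock M (Subgroup.centralizer (D : Set G)) b B) (T : Subgroup G)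
    (hT : ∀ g : G, g ∈ T ↔ (g ∈ Subgroup.normalizer (D : Set G) ∧ ∀ θ ∈ b,
      ∀ θ' : IrrCharacter (Subgroup.centralizer (D : Set G)),
        (∀ h h' : Subgroup.centralizer (D : Set G), (h' : G) = g * h * g⁻¹ →
          (θ' : Subgroup.centralizer (D : Set G) → ℂ) h' = (θ : Subgroup.centralizer (D : Set G) → ℂ) h) → θ' ∈ b))
    (e : ℕ) (he : (Subgroup.centralizer (D : Set G)).relIndex T = e) (hle : e ≤ blockRank p B) :
    blockRank p B = e ∧ e ∣ p - 1 ∧ (∀ χ ∈ B, blockHeight p B (χ : G → ℂ) = 0) ∧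
    ∃ X Y : Set (IrrCharacter G), B = X ∪ Y ∧ Disjoint X Y ∧ Nat.card X = e ∧ Nat.card Y = (p ^ a - 1) / e ∧
      (∀ ψ ∈ Y, ∀ ψ' ∈ Y, ∀ g : G, ¬ p ∣ orderOf g → (ψ : G → ℂ) g = (ψ' : G → ℂ) g) ∧
      ∃ (δ : IrrCharacter G → ℤ) (δ₀ : ℤ), (∀ χ ∈ X, δ χ = 1 ∨ δ χ = -1) ∧ (δ₀ = 1 ∨ δ₀ = -1) ∧
        (∀ ψ ∈ Y, ∀ g : G, ¬ p ∣ orderOf g → (δ₀ : ℂ) * (ψ : G → ℂ) g + ∑ᶠ χ ∈ X, (δ χ : ℂ) * (χ : G → ℂ) g = 0) ∧
        (∀ χ ∈ X, ∀ χ' ∈ X, δ χ * (charDegree (χ : G → ℂ) : ℤ) ≡ δ χ' * (charDegree (χ' : G → ℂ) : ℤ)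
          [ZMOD (p : ℤ) ^ a]) ∧
        (∀ ψ ∈ Y, ∀ χ ∈ X, (charDegree (ψ : G → ℂ) : ℤ) ≡
          -((e : ℤ) * δ₀ * δ χ * (charDegree (χ : G → ℂ) : ℤ)) [ZMOD (p : ℤ) ^ a]) := by
  have hMm : M.IsMaximal := hM.2.1
  have hch : CharP (Kf M) p := charP_Kf hM
  obtain ⟨hTs, hep, ⟨t₀, ht₀, hgen⟩, F⟩ := exists_free p M hM D hD a ha hDa B hB hBD b hind T hT e he
  have hne := ne_bot_of (p := p) ha hDa
  obtain ⟨ρ, R⟩ := exists_rho F.ab hD hne F.k ht₀ hgen
  have hfm : AbSec.FreeMax p B D (bid M _ b) := ⟨F.ab, hne, F.free⟩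
  obtain ⟨m, hm1, hm2, hm3, hm4, _⟩ := AbSec.free_main hM hfm
  have hei : AbSec.ei D (bid M _ b) = e := F.ind
  rw [hei] at hm2 hm4
  have he0 := F.e_pos
  have hm : m = (Nat.card D - 1) / e := by rw [← hm2, Nat.mul_div_cancel_left _ he0]
  obtain ⟨X, Y, δ, δ₀, hR⟩ := F.exists_res R hne (by rw [← hm]; omega)
  have hda : blockDefect p B = a := by
    have h1 := F.ab.card_P hM
    rw [hDa] at h1
    exact (Nat.pow_right_injective hp.out.two_le h1).symm
  obtain ⟨h1, h2, h3, h4⟩ := hR.final ha hDa he0 (by rw [← hm]; exact hm1) hda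
  refine ⟨by omega, hep, h1, X, Y, hR.un.symm, ?_, ?_, ?_, h4, δ, δ₀, fun χ _ => hR.sg χ, hR.sg0, ?_, h2, h3⟩
  · exact Finset.disjoint_coe.2 hR.dis
  · rw [Nat.card_coe_set_eq, Set.ncard_coe_finset]
    exact hR.cX
  · rw [Nat.card_coe_set_eq, Set.ncard_coe_finset, ← hDa]
    exact hR.cY
  · intro ψ hψ g hg
    rw [finsum_mem_coe_finset]
    exact hR.reg ψ hψ g hg

end Cfsg.Agent.Lib.CycDef
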