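import Cfsg.Agent.Lib.CycRho

/-!
# Blocks with cyclic defect groups: the invariant characters of the defect group
-/

set_option autoImplicit false
set_option linter.all false

namespace Cfsg.Agent.Lib.CycDef

open Cfsg Cfsg.Agent.Lib.BlockRing Cfsg.Agent.Lib.BlockGA Cfsg.Agent.Lib.BlockAlg
open Cfsg.Agent.Lib.BlkIdem Cfsg.Agent.Lib.PairAlg Cfsg.Agent.Lib.PairMax
open Cfsg.Agent.Lib.BlockIdem Cfsg.Agent.Lib.BlockSecond Cfsg.Agent.Lib.BrauerPairs
open Cfsg.Agent.Lib.BlkFus Cfsg.Agent.Lib.InducedPair Cfsg.Agent.Lib.DefPairs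
open Cfsg.Agent.Lib.BlkFusDef Cfsg.Agent.Lib.BlkTransport Cfsg.Agent.Lib.AbCount
open Cfsg.Agent.Lib.AbFusion
open Cfsg.Agent.Lib.H25BpS
open Cfsg.Agent.Lib.BlockCount (Bl D)
open Cfsg.Agent.Lib.Subsec (Cz mem_Cz)
open scoped ComplexConjugate Classical Pointwise

universe u v

variable {p : ℕ} [hp : Fact p.Prime] {M : Ideal AlgInt} [hMm : M.IsMaximal] [hchar : CharP (Kf M) p]
  {G : Type u} [Group G] [Finite G] {B : Set (IrrCharacter G)} {P : Subgroup G} {c : MonoidAlgebra (Kf M) G}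

/-- the data of the characters `ρ` -/
structure Rho (p : ℕ) {M : Ideal AlgInt} [M.IsMaximal] {G : Type u} [Group G] [Finite G] [hp : Fact p.Prime]
    [CharP (Kf M) p] {B : Set (IrrCharacter G)} {P : Subgroup G} {c : MonoidAlgebra (Kf M) G} (k : Ctx p B P c)
    (ρ : IrrCharacter G → P → ℂ) : Prop where
  gen : ∀ χ, IsGeneralizedCharacter P (ρ χ)
  inv : ∀ χ, ∀ t (ht : t ∈ stab (Subgroup.normalizer (P : Set G)) c), ∀ x : P, ρ χ (cx ht x) = ρ χ x
  CI : ∀ (χ ψ : IrrCharacter G) (x : P), x ≠ 1 →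
    (Nat.card P : ℂ) * H25BpS.CI p (χ : G → ℂ) (ψ : G → ℂ) x (k.fx x) = ρ χ x * conj (ρ ψ x)
  ne : ∀ χ ∈ B, ∀ x : P, x ≠ 1 → ρ χ x ≠ 0

/-- the element of order `p` of a cyclic `p`-group lies in all nontrivial subgroups -/
theorem exists_min (hcyc : IsCyclic P) (hP : IsPGroup p P) (hP1 : P ≠ ⊥) :
    ∃ u ∈ P, u ≠ 1 ∧ ∀ x ∈ P, x ≠ 1 → u ∈ Subgroup.zpowers x := by
  obtain ⟨⟨g, hg⟩, hgen⟩ := hcyc.exists_generator
  have hgen' : ∀ x ∈ P, ∃ n : ℤ, g ^ n = x := by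
    intro x hx
    obtain ⟨n, hn⟩ := Subgroup.mem_zpowers_iff.1 (hgen ⟨x, hx⟩)
    exact ⟨n, by have := congrArg Subtype.val hn; simpa using this⟩
  obtain ⟨m, hm⟩ := orderOf_mem hP hg
  have hm0 : m ≠ 0 := by
    rintro rfl
    rw [pow_zero, orderOf_eq_one_iff] at hm
    apply hP1
    rw [Subgroup.eq_bot_iff_forall]
    intro x hx
    obtain ⟨n, rfl⟩ := hgen' x hx
    rw [hm, one_zpow]
  obtain ⟨n, rfl⟩ := Nat.exists_eq_succ_of_ne_zero hm0
  rw [Nat.succ_eq_add_one] at hm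
  have ho : orderOf (g ^ p ^ n) = p := by
    rw [orderOf_pow' _ (pow_ne_zero _ hp.out.ne_zero), hm, pow_succ,
      Nat.gcd_eq_right (Dvd.intro _ rfl), Nat.mul_div_cancel_left _ (pow_pos hp.out.pos _)]
  refine ⟨g ^ p ^ n, P.pow_mem hg _, ?_, ?_⟩
  · intro h1
    rw [h1, orderOf_one] at ho
    exact hp.out.one_lt.ne ho
  · intro x hx hx1
    obtain ⟨i, hi⟩ : ∃ i : ℕ, g ^ i = x := by
      obtain ⟨i, hi⟩ := hgen' x hx
      have h1 : x ∈ Subgroup.zpowers g := Subgroup.mem_zpowers_iff.2 ⟨i, hi⟩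
      rw [← mem_powers_iff_mem_zpowers] at h1
      exact h1
    have hi0 : i ≠ 0 := by
      rintro rfl
      exact hx1 (by rw [← hi, pow_zero])
    obtain ⟨s, j, hj, hsj⟩ := Nat.exists_eq_pow_mul_and_not_dvd hi0 p hp.out.ne_one
    have hsn : s ≤ n := by
      by_contra hcon
      apply hx1
      rw [← hi, ← orderOf_dvd_iff_pow_eq_one, hm, hsj]
      exact Dvd.dvd.mul_right (pow_dvd_pow p (by omega)) j
    obtain ⟨j', hj'⟩ := Nat.exists_mul_mod_eq_one_of_coprime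
      (((Nat.Prime.coprime_iff_not_dvd hp.out).mpr hj).symm) hp.out.one_lt
    have e1 : p ^ s * j * (p ^ (n - s) * j') = p ^ n * (j * j') := by
      have : p ^ n = p ^ s * p ^ (n - s) := by rw [← pow_add]; congr 1; omega
      rw [this]; ring
    have hj2 := hj'.2
    have e2 : x ^ (p ^ (n - s) * j') = g ^ p ^ n := by
      rw [← hi, ← pow_mul, hsj, e1, pow_mul, ← pow_mod_orderOf, ho, hj2, pow_one]
    rw [← e2]
    exact Subgroup.pow_mem _ (Subgroup.mem_zpowers x) _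

/-- conjugation as an automorphism of `P` -/
def cxE {t : G} (ht : t ∈ stab (Subgroup.normalizer (P : Set G)) c) : P ≃* P where
  toFun := cx ht
  invFun := fun x => ⟨t⁻¹ * (x : G) * t, by
    have := (Subgroup.mem_normalizer_iff.1 (inv_mem (stab_le _ _ ht)) (x : G)).1 x.2
    rwa [inv_inv] at this⟩
  left_inv := fun x => Subtype.ext (by show t⁻¹ * (t * (x : G) * t⁻¹) * t = x; group)
  right_inv := fun x => Subtype.ext (by show t * (t⁻¹ * (x : G) * t) * t⁻¹ = x; group)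
  map_mul' := fun x y => Subtype.ext (by
    show t * ((x : G) * y) * t⁻¹ = (t * (x : G) * t⁻¹) * (t * (y : G) * t⁻¹); group)

theorem exists_twist (hab : P ≤ Subgroup.centralizer (P : Set G)) {t : G}
    (ht : t ∈ stab (Subgroup.normalizer (P : Set G)) c)
    (hfree : ∀ x : P, cx ht x = x → x = 1) (ν : P →* ℂˣ) :
    ∃ μ : P →* ℂˣ, ∀ x : P, μ (cx ht x) * ν (cx ht x) = μ x := by
  have hc : ∀ a b : P, a * b = b * a := fun a b =>
    Subtype.ext (Subgroup.mem_centralizer_iff.1 (hab a.2) b b.2).symm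
  let φ : P →* P := MonoidHom.mk' (fun x => x * (cxE ht x)⁻¹) (by
    intro a b
    show (a * b) * (cxE ht (a * b))⁻¹ = a * (cxE ht a)⁻¹ * (b * (cxE ht b)⁻¹)
    rw [map_mul, mul_inv_rev, hc (cxE ht b)⁻¹ (cxE ht a)⁻¹, mul_assoc, mul_assoc, ← mul_assoc b, hc b, mul_assoc])
  have hφ : ∀ x, φ x = x * (cx ht x)⁻¹ := fun x => rfl
  have hinj : Function.Injective φ := by
    rw [injective_iff_map_eq_one]
    intro x hx
    apply hfree
    rw [hφ, mul_inv_eq_one] at hx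
    exact hx.symm
  have hbij : Function.Bijective φ := ⟨hinj, Finite.surjective_of_injective hinj⟩
  let Φ : P ≃* P := MulEquiv.ofBijective φ hbij
  refine ⟨ν.comp ((cxE ht).toMonoidHom.comp Φ.symm.toMonoidHom), ?_⟩
  intro x
  show ν (cxE ht (Φ.symm (cx ht x))) * ν (cx ht x) = ν (cxE ht (Φ.symm x))
  rw [← map_mul]
  congr 1
  show cxE ht (Φ.symm (cx ht x)) * cxE ht x = _
  rw [← map_mul]
  congr 1
  apply Φ.injective
  rw [map_mul, MulEquiv.apply_symm_apply, MulEquiv.apply_symm_apply]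
  show cx ht x * φ x = x
  rw [hφ, hc, inv_mul_cancel_right]

/-- the elements leaving the family invariant -/
def invS (P : Subgroup G) (ρ : IrrCharacter G → P → ℂ) : Subgroup G where
  carrier := {t | t ∈ Subgroup.normalizer (P : Set G) ∧ ∀ χ, ∀ x y : P, (y : G) = t * (x : G) * t⁻¹ → ρ χ y = ρ χ x}
  one_mem' := ⟨one_mem _, fun χ x y hxy => by
    congr 1
    apply Subtype.ext
    rw [hxy]; group⟩
  mul_mem' := by
    rintro s t ⟨hs, hs2⟩ ⟨ht, ht2⟩
    refine ⟨mul_mem hs ht, ?_⟩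
    intro χ x y hxy
    let z : P := ⟨t * (x : G) * t⁻¹, (Subgroup.mem_normalizer_iff.1 ht (x : G)).1 x.2⟩
    rw [← ht2 χ x z rfl]
    apply hs2
    rw [hxy]
    show s * t * (x : G) * (s * t)⁻¹ = s * (t * (x : G) * t⁻¹) * s⁻¹
    group
  inv_mem' := by
    rintro t ⟨ht, ht2⟩
    refine ⟨inv_mem ht, ?_⟩
    intro χ x y hxy
    symm
    apply ht2
    rw [hxy]
    group

theorem exists_rho (h : AbMax p B P c) (hcyc : IsCyclic P) (hP1 : P ≠ ⊥) (k : Ctx p B P c)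
    {t₀ : G} (ht₀ : t₀ ∈ stab (Subgroup.normalizer (P : Set G)) c)
    (hgen : ∀ t ∈ stab (Subgroup.normalizer (P : Set G)) c, ∃ n : ℤ,
      (t₀ ^ n)⁻¹ * t ∈ Subgroup.centralizer (P : Set G)) :
    ∃ ρ : IrrCharacter G → P → ℂ, Rho p k ρ := by
  obtain ⟨u, hu, hu1, hmin⟩ := exists_min hcyc h.pair.1 hP1
  have hQ1 : Subgroup.zpowers u ≠ ⊥ := by
    intro h1
    exact hu1 ((Subgroup.eq_bot_iff_forall _).1 h1 u (Subgroup.mem_zpowers u))
  have hCz : ∀ t : G, t ∈ Cz u → t ∈ Subgroup.centralizer ((Subgroup.zpowers u : Subgroup G) : Set G) := by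
    intro t ht
    rw [SubsecNorm.centralizer_zpowers]
    exact ht
  have hfree : ∀ t ∈ stab (Subgroup.normalizer (P : Set G)) c, t ∈ Cz u → t ∈ Subgroup.centralizer (P : Set G) :=
    fun t ht htu => h.cyclic_free hcyc (zpowers_le_of hu) hQ1 ht (hCz t htu)
  obtain ⟨ψ₀, L⟩ := exists_LD k.mod h hu hfree
  have hmem : ∀ x : P, x ≠ 1 → u ∈ Subgroup.zpowers (x : G) := fun x hx =>
    hmin x x.2 (fun h1 => hx (Subtype.ext h1))
  -- the general twist
  have key : ∀ μ : P →* ℂˣ, (∀ χ : IrrCharacter G, IsGeneralizedCharacter P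
      (fun x => (μ x : ℂ) * L.rho (χ : G → ℂ) x)) ∧
      (∀ (χ ψ : IrrCharacter G) (x : P), x ≠ 1 →
        (Nat.card P : ℂ) * H25BpS.CI p (χ : G → ℂ) (ψ : G → ℂ) x (k.fx x) =
          ((μ x : ℂ) * L.rho (χ : G → ℂ) x) * conj ((μ x : ℂ) * L.rho (ψ : G → ℂ) x)) ∧
      (∀ χ ∈ B, ∀ x : P, x ≠ 1 → (μ x : ℂ) * L.rho (χ : G → ℂ) x ≠ 0) := by
    intro μ
    refine ⟨?_, ?_, ?_⟩
    · intro χ
      exact (CharBasic.isIrrCharacter_of_unitsHom μ).isGeneralized.mul (L.rho_gen χ)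
    · intro χ ψ x hx
      rw [L.CI_rho χ.2.isClassFunction ψ.2.isClassFunction x (hmem x hx) k]
      have h1 := (CharBasic.isIrrCharacter_of_unitsHom μ).isCharacter.mul_conj_of_linear (by simp) x
      rw [map_mul]
      linear_combination (- (L.rho (χ : G → ℂ) x * conj (L.rho (ψ : G → ℂ) x))) * h1
    · intro χ hχ x hx
      exact mul_ne_zero (Units.ne_zero _) (L.rho_ne_zero hχ x (hmem x hx))
  -- reduction of the invariance
  have red : ∀ μ : P →* ℂˣ, (∀ χ : IrrCharacter G, ∀ x : P,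
      (μ (cx ht₀ x) : ℂ) * L.rho (χ : G → ℂ) (cx ht₀ x) = (μ x : ℂ) * L.rho (χ : G → ℂ) x) →
      Rho p k (fun (χ : IrrCharacter G) x => (μ x : ℂ) * L.rho (χ : G → ℂ) x) := by
    intro μ hμ
    obtain ⟨k1, k2, k3⟩ := key μ
    refine ⟨k1, ?_, k2, k3⟩
    have h0 : t₀ ∈ invS P (fun (χ : IrrCharacter G) x => (μ x : ℂ) * L.rho (χ : G → ℂ) x) := by
      refine ⟨ht₀.1, ?_⟩
      intro χ x y hxy
      have : y = cx ht₀ x := Subtype.ext hxy
      subst this
      exact hμ χ x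
    have h1 : Subgroup.centralizer (P : Set G) ≤ invS P (fun (χ : IrrCharacter G) x =>
        (μ x : ℂ) * L.rho (χ : G → ℂ) x) := by
      intro z hz
      refine ⟨centralizer_le_normalizer P hz, ?_⟩
      intro χ x y hxy
      have : y = x := by
        apply Subtype.ext
        rw [hxy, ← Subgroup.mem_centralizer_iff.1 hz x x.2]
        group
      rw [this]
    intro χ t ht x
    obtain ⟨n, hn⟩ := hgen t ht
    have h2 : t ∈ invS P (fun (χ : IrrCharacter G) x => (μ x : ℂ) * L.rho (χ : G → ℂ) x) := by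
      have : t = t₀ ^ n * ((t₀ ^ n)⁻¹ * t) := by group
      rw [this]
      exact mul_mem (zpow_mem h0 n) (h1 hn)
    exact h2.2 χ x (cx ht x) rfl
  by_cases hC : t₀ ∈ Subgroup.centralizer (P : Set G)
  · refine ⟨_, red 1 ?_⟩
    intro χ x
    have : cx ht₀ x = x := by
      apply Subtype.ext
      show t₀ * (x : G) * t₀⁻¹ = x
      rw [← Subgroup.mem_centralizer_iff.1 hC x x.2]
      group
    rw [this]
  · obtain ⟨ν, hν⟩ := L.exists_nu ht₀ (cyclic_normalizes hcyc (zpowers_le_of hu) t₀ ht₀)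
    have hfr : ∀ x : P, cx ht₀ x = x → x = 1 := by
      intro x hx
      by_contra hx1
      apply hC
      apply h.cyclic_free hcyc (zpowers_le_of x.2) ?_ ht₀
      · rw [SubsecNorm.centralizer_zpowers, mem_Cz]
        have h1 := congrArg Subtype.val hx
        have h2 : t₀ * (x : G) * t₀⁻¹ = x := h1
        show (x : G) * t₀ = t₀ * x
        calc (x : G) * t₀ = (t₀ * (x : G) * t₀⁻¹) * t₀ := by rw [h2]
          _ = t₀ * x := by group
      · intro h1
        exact hx1 (Subtype.ext ((Subgroup.eq_bot_iff_forall _).1 h1 x (Subgroup.mem_zpowers (x : G))))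
    obtain ⟨μ, hμ⟩ := exists_twist h.ab ht₀ hfr ν
    refine ⟨_, red μ ?_⟩
    intro χ x
    by_cases hx : x = 1
    · subst hx
      have : cx ht₀ (1 : P) = 1 := Subtype.ext (by show t₀ * 1 * t₀⁻¹ = 1; group)
      rw [this]
    · rw [hν (χ : G → ℂ) χ.2.isClassFunction x (hmem x hx), ← mul_assoc, ← Units.val_mul, hμ x]

end Cfsg.Agent.Lib.CycDef
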