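import Cfsg.Agent.Lib.CycSing
import Cfsg.Agent.Lib.CycAbs
import Cfsg.Agent.Lib.CycComb
import Cfsg.Agent.Lib.AbFree3

/-!
# Blocks with cyclic defect groups
-/

set_option autoImplicit false
set_option linter.all false

namespace Cfsg.Agent.Lib.CycDef

open Cfsg Cfsg.Agent.Lib.BlockRing Cfsg.Agent.Lib.BlockGA Cfsg.Agent.Lib.BlockAlg
open Cfsg.Agent.Lib.BlkIdem Cfsg.Agent.Lib.PairAlg Cfsg.Agent.Lib.PairMax
open Cfsg.Agent.Lib.BlockIdem Cfsg.Agent.Lib.BlockSecond Cfsg.Agent.Lib.BrauerPairs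
open Cfsg.Agent.Lib.BlkFus Cfsg.Agent.Lib.InducedPair Cfsg.Agent.Lib.DefPairs
open Cfsg.Agent.Lib.BlkFusDef Cfsg.Agent.Lib.BlkTransport Cfsg.Agent.Lib.AbCount
open Cfsg.Agent.Lib.AbFusion Cfsg.Agent.Lib.BlockDeg
open Cfsg.Agent.Lib.H25BpS
open Cfsg.Agent.Lib.BlockCount (Bl D)
open Cfsg.Agent.Lib.Subsec (Cz mem_Cz fs mem_fs)
open scoped ComplexConjugate Classical Pointwise

universe u v

/-- generalized characters vanishing on the `p`-singular elements -/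
theorem pow_dvd_of_sing {G : Type u} [Group G] [Finite G] {p : ℕ} [hp : Fact p.Prime] {f : G → ℂ}
    (hf : IsGeneralizedCharacter G f) (h0 : ∀ g, p ∣ orderOf g → f g = 0) {d : ℤ} (hd : f 1 = d) :
    ((p ^ (Nat.card G).factorization p : ℕ) : ℤ) ∣ d := by
  obtain ⟨S⟩ : Nonempty (Sylow p G) := inferInstance
  have := Fintype.ofFinite S
  have hS : Nat.card S = p ^ (Nat.card G).factorization p := S.card_eq_multiplicity
  obtain ⟨n, hn⟩ := (hf.restrict (S : Subgroup G)).classInner_int (CharBasic.isGeneralized_one (G := S))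
  have h1 : classInner (fun h : (S : Subgroup G) => f h) (1 : ↥(S : Subgroup G) → ℂ) = (Nat.card S : ℂ)⁻¹ * d := by
    unfold classInner
    congr 1
    rw [Finset.sum_eq_single (1 : (S : Subgroup G))]
    · show f ((1 : (S : Subgroup G)) : G) * conj 1 = d
      rw [Subgroup.coe_one, hd, map_one, mul_one]
    · intro s _ hs
      obtain ⟨k, hk⟩ := IsPGroup.iff_orderOf.1 S.isPGroup' s
      have hz : f (s : G) = 0 := by
        apply h0
        rw [Subgroup.orderOf_coe, hk]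
        apply dvd_pow_self
        rintro rfl
        rw [pow_zero, orderOf_eq_one_iff] at hk
        exact hs hk
      show f (s : G) * _ = 0
      rw [hz, zero_mul]
    · intro h; exact absurd (Finset.mem_univ _) h
  have hS0 : (Nat.card S : ℂ) ≠ 0 := by exact_mod_cast Nat.card_pos.ne'
  refine ⟨n, ?_⟩
  rw [← hS]
  have h2 : (d : ℂ) = (Nat.card S : ℂ) * n := by
    rw [← hn, h1, mul_inv_cancel_left₀ hS0]
  exact_mod_cast h2

variable {p : ℕ} [hp : Fact p.Prime] {M : Ideal AlgInt} [hMm : M.IsMaximal] [hchar : CharP (Kf M) p]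
  {G : Type u} [Group G] [Finite G] {B : Set (IrrCharacter G)} {P : Subgroup G} {c : MonoidAlgebra (Kf M) G}

/-- the result of the isometry -/
structure Res (p : ℕ) {G : Type u} [Group G] [Finite G] (B : Set (IrrCharacter G)) (q e m : ℕ)
    (X Y : Finset (IrrCharacter G)) (δ : IrrCharacter G → ℤ) (δ₀ : ℤ) : Prop where
  un : (X : Set (IrrCharacter G)) ∪ Y = B
  dis : Disjoint X Y
  cX : X.card = e
  cY : Y.card = m
  em : e * m + 1 = q
  sg : ∀ χ, δ χ = 1 ∨ δ χ = -1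
  sg0 : δ₀ = 1 ∨ δ₀ = -1
  reg : ∀ ψ ∈ Y, ∀ g : G, ¬ p ∣ orderOf g → (δ₀ : ℂ) * (ψ : G → ℂ) g + ∑ χ ∈ X, (δ χ : ℂ) * (χ : G → ℂ) g = 0
  singX : ∀ χ ∈ X, ∀ χ' ∈ X, ∀ g : G, p ∣ orderOf g → (δ χ : ℂ) * (χ : G → ℂ) g = (δ χ' : ℂ) * (χ' : G → ℂ) g
  singY : ∀ χ ∈ X, ∀ g : G, p ∣ orderOf g → (δ χ : ℂ) * (χ : G → ℂ) g = (δ₀ : ℂ) * ∑ ψ ∈ Y, (ψ : G → ℂ) g

namespace Free

variable {e : ℕ} (F : Free p B P c e) {ρ : IrrCharacter G → P → ℂ} (R : Rho p F.k ρ)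
include F R

theorem dat [Fintype B] (hP1 : P ≠ ⊥) : CycAbs.Dat (AT P c) (fun φ : B => ρ φ) where
  comm := fun a b => Subtype.ext (Subgroup.mem_centralizer_iff.1 (F.ab.ab a.2) b b.2).symm
  free := fun a ha x hx hax => F.AT_free ha hx hax
  gen := fun i => R.gen i
  inv := fun a ha i x => F.rho_inv R ha i x
  orth := by
    intro x y hx hy
    have h1 := F.orth R hx hy
    rw [Subsec.sum_fs] at h1
    rw [h1]
  ne := by
    intro i
    obtain ⟨x, hx, hx1⟩ : ∃ x ∈ P, x ≠ 1 := by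
      by_contra hcon
      push Not at hcon
      exact hP1 (Subgroup.eq_bot_iff_forall _ |>.2 hcon)
    have : (⟨x, hx⟩ : P) ≠ 1 := fun h => hx1 (congrArg Subtype.val h)
    exact ⟨⟨x, hx⟩, this, R.ne i i.2 _ this⟩

theorem exists_res (hP1 : P ≠ ⊥) (hle : e + (Nat.card P - 1) / e ≤ Nat.card B) :
    ∃ (X Y : Finset (IrrCharacter G)) (δ : IrrCharacter G → ℤ) (δ₀ : ℤ),
      Res p B (Nat.card P) e ((Nat.card P - 1) / e) X Y δ δ₀ := by
  have := Fintype.ofFinite B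
  have := Fintype.ofFinite P
  have := Fintype.ofFinite (AT P c)
  have h := F.dat R hP1
  have := Fintype.ofFinite (CycAbs.Om (AT P c))
  have he := F.e_pos
  have hcard := h.card_om
  rw [F.card_AT] at hcard
  have hP2 : 2 ≤ Nat.card P := by
    by_contra hcon
    exact hP1 (Subgroup.eq_bot_of_card_le P (by omega))
  have hm : Nat.card (CycAbs.Om (AT P c)) = (Nat.card P - 1) / e := by
    rw [← hcard, Nat.add_sub_cancel, Nat.mul_div_cancel _ he]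
  have hΩ : 0 < Fintype.card (CycAbs.Om (AT P c)) := by
    rw [← Nat.card_eq_fintype_card]
    rcases Nat.eq_zero_or_pos (Nat.card (CycAbs.Om (AT P c))) with h0 | h0
    · rw [h0] at hcard; omega
    · exact h0
  obtain ⟨Y, f, δ, hδ, hY, hX, huniq, hYc, hXc⟩ := CycComb.structure_thm (h.v) e hΩ h.v_ne
    (fun a b => by
      have := h.gram_v a b
      rw [F.card_AT] at this
      convert this)
    (by rw [← Nat.card_eq_fintype_card, ← Nat.card_eq_fintype_card, hm]; exact hle)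
  -- values at p-regular elements
  have hreg : ∀ g : G, ¬ p ∣ orderOf g → ∀ w, ∑ i : B, (h.v i w : ℂ) * ((i : IrrCharacter G) : G → ℂ) g = 0 := by
    intro g hg w
    apply h.v_comb
    intro x hx
    have h1 := F.orth_reg R (x := x⁻¹) (fun hh => hx (inv_eq_one.1 hh)) hg
    rw [Subsec.sum_fs] at h1
    rw [← h1]
    refine Finset.sum_congr rfl fun i _ => ?_
    rw [(R.gen i).inv, Complex.conj_conj]
  have hreg2 : ∀ y ∈ Y, ∀ g : G, ¬ p ∣ orderOf g → (δ y : ℂ) * ((y : IrrCharacter G) : G → ℂ) g +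
      ∑ i ∈ Finset.univ \ Y, (δ i : ℂ) * ((i : IrrCharacter G) : G → ℂ) g = 0 := by
    intro y hy g hg
    rw [← hreg g hg (f y), ← Finset.sum_sdiff (Finset.subset_univ Y), add_comm]
    congr 1
    · refine Finset.sum_congr rfl fun i hi => ?_
      rw [hX i (Finset.mem_sdiff.1 hi).2]
    · rw [Finset.sum_eq_single y]
      · rw [hY y hy, if_pos rfl]
      · intro i hi hiy
        rw [hY i hi, if_neg, Int.cast_zero, zero_mul]
        intro hff
        obtain ⟨z, _, hz⟩ := huniq (f y)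
        exact hiy ((hz i ⟨hi, hff.symm⟩).trans (hz y ⟨hy, rfl⟩).symm)
      · intro h1; exact absurd hy h1
  -- common sign
  have hone : ¬ p ∣ orderOf (1 : G) := by
    rw [orderOf_one]
    exact hp.out.one_lt.not_ge ∘ Nat.le_of_dvd one_pos
  obtain ⟨y₀, hy₀⟩ : Y.Nonempty := by
    rw [← Finset.card_pos, hYc]; exact hΩ
  have hsign : ∀ y ∈ Y, δ y = δ y₀ := by
    intro y hy
    have h1 := hreg2 y hy 1 hone
    have h2 := hreg2 y₀ hy₀ 1 hone
    have h3 : (δ y : ℂ) * ((y : IrrCharacter G) : G → ℂ) 1 = (δ y₀ : ℂ) * ((y₀ : IrrCharacter G) : G → ℂ) 1 := by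
      linear_combination h1 - h2
    rw [← charDegree_cast_irr, ← charDegree_cast_irr] at h3
    have h4 : δ y * (charDegree ((y : IrrCharacter G) : G → ℂ) : ℤ) =
        δ y₀ * (charDegree ((y₀ : IrrCharacter G) : G → ℂ) : ℤ) := by exact_mod_cast h3
    have p1 : (0 : ℤ) < charDegree ((y : IrrCharacter G) : G → ℂ) := by exact_mod_cast charDegree_pos y.1.2
    have p2 : (0 : ℤ) < charDegree ((y₀ : IrrCharacter G) : G → ℂ) := by exact_mod_cast charDegree_pos y₀.1.2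
    rcases hδ y with h5 | h5 <;> rcases hδ y₀ with h6 | h6 <;> rw [h5, h6] at h4 ⊢ <;> linarith
  -- values at p-singular elements
  have hsing : ∀ a : B → ℂ, (∀ w, ∑ i : B, a i * (h.v i w : ℂ) = 0) → ∀ g : G, p ∣ orderOf g →
      ∑ i : B, a i * ((i : IrrCharacter G) : G → ℂ) g = 0 := by
    intro a ha g hg
    have h1 := F.sing R (fun χ => if hχ : χ ∈ B then a ⟨χ, hχ⟩ else 0) (fun x hx => by
      rw [Subsec.sum_fs, ← h.rel_of a ha hx]
      refine Finset.sum_congr rfl fun i _ => ?_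
      rw [dif_pos i.2]) hg
    rw [Subsec.sum_fs] at h1
    rw [← h1]
    refine Finset.sum_congr rfl fun i _ => ?_
    rw [dif_pos i.2]
  have hsX : ∀ i, i ∉ Y → ∀ j, j ∉ Y → ∀ g : G, p ∣ orderOf g →
      (δ i : ℂ) * ((i : IrrCharacter G) : G → ℂ) g = (δ j : ℂ) * ((j : IrrCharacter G) : G → ℂ) g := by
    intro i hi j hj g hg
    have h1 := hsing (fun k => (if k = i then (δ i : ℂ) else 0) - (if k = j then (δ j : ℂ) else 0)) (fun w => by
      simp only [sub_mul, ite_mul, zero_mul]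
      rw [Finset.sum_sub_distrib, Finset.sum_ite_eq', Finset.sum_ite_eq', if_pos (Finset.mem_univ _),
        if_pos (Finset.mem_univ _), hX i hi, hX j hj]
      rcases hδ i with h5 | h5 <;> rcases hδ j with h6 | h6 <;> rw [h5, h6] <;> simp) g hg
    simp only [sub_mul, ite_mul, zero_mul] at h1
    rw [Finset.sum_sub_distrib, Finset.sum_ite_eq', Finset.sum_ite_eq', if_pos (Finset.mem_univ _),
        if_pos (Finset.mem_univ _)] at h1
    exact sub_eq_zero.1 h1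
  have hsY : ∀ i, i ∉ Y → ∀ g : G, p ∣ orderOf g →
      (δ i : ℂ) * ((i : IrrCharacter G) : G → ℂ) g = (δ y₀ : ℂ) * ∑ y ∈ Y, ((y : IrrCharacter G) : G → ℂ) g := by
    intro i hi g hg
    have h1 := hsing (fun k => (if k = i then (δ i : ℂ) else 0) - (if k ∈ Y then (δ y₀ : ℂ) else 0)) (fun w => by
      simp only [sub_mul, ite_mul, zero_mul]
      rw [Finset.sum_sub_distrib, Finset.sum_ite_eq', if_pos (Finset.mem_univ _), hX i hi]
      obtain ⟨y, ⟨hy, hyw⟩, hyu⟩ := huniq w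
      rw [Finset.sum_eq_single y]
      · rw [if_pos hy, hY y hy, if_pos hyw.symm, hsign y hy]
        rcases hδ i with h5 | h5 <;> rcases hδ y₀ with h6 | h6 <;> rw [h5, h6] <;> simp
      · intro k _ hk
        split_ifs with hkY
        · rw [hY k hkY, if_neg, Int.cast_zero, mul_zero]
          intro hwf
          exact hk (hyu k ⟨hkY, hwf.symm⟩)
        · rfl
      · intro h2; exact absurd (Finset.mem_univ _) h2) g hg
    simp only [sub_mul, ite_mul, zero_mul] at h1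
    rw [Finset.sum_sub_distrib, Finset.sum_ite_eq', if_pos (Finset.mem_univ _), Finset.sum_ite_mem,
      Finset.univ_inter, ← Finset.mul_sum] at h1
    exact sub_eq_zero.1 h1
  -- the sets
  let δ' : IrrCharacter G → ℤ := fun χ => if hχ : χ ∈ B then δ ⟨χ, hχ⟩ else 1
  have hδ' : ∀ i : B, δ' i = δ i := fun i => by
    show (if hχ : (i : IrrCharacter G) ∈ B then δ ⟨i, hχ⟩ else 1) = δ i
    rw [dif_pos i.2]
  have hinj : Function.Injective (fun i : B => (i : IrrCharacter G)) := Subtype.val_injective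
  have hmX : ∀ χ, χ ∈ (Finset.univ \ Y).image (fun i : B => (i : IrrCharacter G)) → ∃ i : B, i ∉ Y ∧ (i : IrrCharacter G) = χ := by
    intro χ hχ
    obtain ⟨i, hi, rfl⟩ := Finset.mem_image.1 hχ
    exact ⟨i, (Finset.mem_sdiff.1 hi).2, rfl⟩
  have hmY : ∀ χ, χ ∈ Y.image (fun i : B => (i : IrrCharacter G)) → ∃ i : B, i ∈ Y ∧ (i : IrrCharacter G) = χ := by
    intro χ hχ
    obtain ⟨i, hi, rfl⟩ := Finset.mem_image.1 hχ
    exact ⟨i, hi, rfl⟩
  refine ⟨(Finset.univ \ Y).image (fun i : B => (i : IrrCharacter G)), Y.image (fun i : B => (i : IrrCharacter G)),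
    δ', δ y₀, ?_, ?_, ?_, ?_, ?_, ?_, hδ y₀, ?_, ?_, ?_⟩
  · ext χ
    rw [Set.mem_union, Finset.mem_coe, Finset.mem_coe]
    constructor
    · rintro (hχ | hχ)
      · obtain ⟨i, _, rfl⟩ := hmX χ hχ; exact i.2
      · obtain ⟨i, _, rfl⟩ := hmY χ hχ; exact i.2
    · intro hχ
      by_cases h1 : (⟨χ, hχ⟩ : B) ∈ Y
      · exact Or.inr (Finset.mem_image.2 ⟨⟨χ, hχ⟩, h1, rfl⟩)
      · exact Or.inl (Finset.mem_image.2 ⟨⟨χ, hχ⟩, Finset.mem_sdiff.2 ⟨Finset.mem_univ _, h1⟩, rfl⟩)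
  · rw [Finset.disjoint_left]
    intro χ h1 h2
    obtain ⟨i, hi, hiχ⟩ := hmX χ h1
    obtain ⟨j, hj, hjχ⟩ := hmY χ h2
    have : i = j := hinj (hiχ.trans hjχ.symm)
    rw [this] at hi
    exact hi hj
  · rw [Finset.card_image_of_injective _ hinj]
    convert hXc
  · rw [Finset.card_image_of_injective _ hinj, hYc, ← Nat.card_eq_fintype_card, hm]
  · rw [← hm, mul_comm]; exact hcard
  · intro χ
    show (if hχ : χ ∈ B then δ ⟨χ, hχ⟩ else 1) = 1 ∨ (if hχ : χ ∈ B then δ ⟨χ, hχ⟩ else 1) = -1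
    split_ifs
    · exact hδ _
    · exact Or.inl rfl
  · intro ψ hψ g hg
    obtain ⟨y, hy, rfl⟩ := hmY ψ hψ
    rw [Finset.sum_image hinj.injOn, ← hreg2 y hy g hg, hsign y hy]
    congr 1
    exact Finset.sum_congr rfl fun i _ => by rw [hδ']
  · intro χ hχ χ' hχ' g hg
    obtain ⟨i, hi, rfl⟩ := hmX χ hχ
    obtain ⟨j, hj, rfl⟩ := hmX χ' hχ'
    rw [hδ', hδ']
    exact hsX i hi j hj g hg
  · intro χ hχ g hg
    obtain ⟨i, hi, rfl⟩ := hmX χ hχ
    rw [hδ', Finset.sum_image hinj.injOn]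
    exact hsY i hi g hg

end Free

namespace Res

omit hMm hchar in
theorem final {q e m a : ℕ} {X Y : Finset (IrrCharacter G)} {δ : IrrCharacter G → ℤ} {δ₀ : ℤ}
    (h : Res p B q e m X Y δ δ₀) (ha : 1 ≤ a) (hq : q = p ^ a) (he : 0 < e) (hm : 0 < m)
    (hd : blockDefect p B = a) :
    (∀ χ ∈ B, blockHeight p B (χ : G → ℂ) = 0) ∧
    (∀ χ ∈ X, ∀ χ' ∈ X, δ χ * (charDegree (χ : G → ℂ) : ℤ) ≡ δ χ' * (charDegree (χ' : G → ℂ) : ℤ)
      [ZMOD (p : ℤ) ^ a]) ∧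
    (∀ ψ ∈ Y, ∀ χ ∈ X, (charDegree (ψ : G → ℂ) : ℤ) ≡ -((e : ℤ) * δ₀ * δ χ * (charDegree (χ : G → ℂ) : ℤ))
      [ZMOD (p : ℤ) ^ a]) ∧ (∀ ψ ∈ Y, ∀ ψ' ∈ Y, ∀ g : G, ¬ p ∣ orderOf g → (ψ : G → ℂ) g = (ψ' : G → ℂ) g) := by
  set ν := (Nat.card G).factorization p with hν
  have hone : ¬ p ∣ orderOf (1 : G) := by
    rw [orderOf_one]
    exact hp.out.one_lt.not_ge ∘ Nat.le_of_dvd one_pos
  have hXB : ∀ χ ∈ X, χ ∈ B := fun χ hχ => h.un ▸ Or.inl hχ
  have hYB : ∀ χ ∈ Y, χ ∈ B := fun χ hχ => h.un ▸ Or.inr hχ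
  have hsq0 : (δ₀ : ℂ) ≠ 0 := by
    rcases h.sg0 with h1 | h1 <;> rw [h1] <;> norm_num
  have hδ0 : δ₀ * δ₀ = 1 := by
    rcases h.sg0 with h1 | h1 <;> rw [h1] <;> norm_num
  have hYeq : ∀ ψ ∈ Y, ∀ ψ' ∈ Y, ∀ g : G, ¬ p ∣ orderOf g → (ψ : G → ℂ) g = (ψ' : G → ℂ) g := by
    intro ψ hψ ψ' hψ' g hg
    have h1 := h.reg ψ hψ g hg
    have h2 := h.reg ψ' hψ' g hg
    exact mul_left_cancel₀ hsq0 (by linear_combination h1 - h2)
  have hYdeg : ∀ ψ ∈ Y, ∀ ψ' ∈ Y, charDegree (ψ : G → ℂ) = charDegree (ψ' : G → ℂ) := by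
    intro ψ hψ ψ' hψ'
    have h1 := hYeq ψ hψ ψ' hψ' 1 hone
    rw [← charDegree_cast_irr, ← charDegree_cast_irr] at h1
    exact_mod_cast h1
  -- congruences modulo the full power
  have c1 : ∀ χ ∈ X, ∀ χ' ∈ X, ((p ^ ν : ℕ) : ℤ) ∣
      δ χ * (charDegree (χ : G → ℂ) : ℤ) - δ χ' * (charDegree (χ' : G → ℂ) : ℤ) := by
    intro χ hχ χ' hχ'
    apply pow_dvd_of_sing (f := (δ χ : ℂ) • (χ : G → ℂ) - (δ χ' : ℂ) • (χ' : G → ℂ))
    · exact (χ.2.isGeneralized.intCast_smul _).sub (χ'.2.isGeneralized.intCast_smul _)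
    · intro g hg
      show (δ χ : ℂ) * (χ : G → ℂ) g - (δ χ' : ℂ) * (χ' : G → ℂ) g = 0
      rw [h.singX χ hχ χ' hχ' g hg, sub_self]
    · show (δ χ : ℂ) * (χ : G → ℂ) 1 - (δ χ' : ℂ) * (χ' : G → ℂ) 1 = _
      rw [← charDegree_cast_irr, ← charDegree_cast_irr]
      push_cast
      rfl
  have c2 : ∀ χ ∈ X, ∀ ψ ∈ Y, ((p ^ ν : ℕ) : ℤ) ∣
      δ χ * (charDegree (χ : G → ℂ) : ℤ) - δ₀ * (m * (charDegree (ψ : G → ℂ) : ℤ)) := by
    intro χ hχ ψ hψ
    apply pow_dvd_of_sing (f := (δ χ : ℂ) • (χ : G → ℂ) - (δ₀ : ℂ) • ∑ ψ ∈ Y, (ψ : G → ℂ))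
    · refine (χ.2.isGeneralized.intCast_smul _).sub (IsGeneralizedCharacter.intCast_smul ?_ _)
      exact CharBasic.isGeneralized_sum _ _ fun ψ _ => ψ.2.isGeneralized
    · intro g hg
      show (δ χ : ℂ) * (χ : G → ℂ) g - (δ₀ : ℂ) * (∑ ψ ∈ Y, (ψ : G → ℂ)) g = 0
      rw [Finset.sum_apply, h.singY χ hχ g hg, sub_self]
    · show (δ χ : ℂ) * (χ : G → ℂ) 1 - (δ₀ : ℂ) * (∑ ψ ∈ Y, (ψ : G → ℂ)) 1 = _
      rw [Finset.sum_apply]
      have h3 : ∑ ψ ∈ Y, (ψ : G → ℂ) 1 = (m : ℂ) * (charDegree (ψ : G → ℂ) : ℂ) := by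
        rw [← h.cY, ← nsmul_eq_mul, ← Finset.sum_const]
        refine Finset.sum_congr rfl fun ψ' hψ' => ?_
        rw [← charDegree_cast_irr, hYdeg ψ' hψ' ψ hψ]
      rw [h3, ← charDegree_cast_irr]
      push_cast
      rfl
  have haν : a ≤ ν := by
    rw [← hd]
    unfold blockDefect
    exact Nat.sub_le _ _
  have hpaν : (p : ℤ) ^ a ∣ ((p ^ ν : ℕ) : ℤ) := by
    push_cast
    exact pow_dvd_pow _ haν
  -- heights
  obtain ⟨χ₁, hχ₁⟩ : X.Nonempty := by rw [← Finset.card_pos, h.cX]; exact he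
  obtain ⟨ψ₁, hψ₁⟩ : Y.Nonempty := by rw [← Finset.card_pos, h.cY]; exact hm
  set u : ℤ := δ χ₁ * (charDegree (χ₁ : G → ℂ) : ℤ) with hu
  have hpm : ¬ (p : ℤ) ∣ m := by
    intro h1
    have h2 : (p : ℤ) ∣ (q : ℤ) := by
      rw [hq]; push_cast; exact dvd_pow_self _ (by omega)
    have h3 := h.em
    have h4 : (1 : ℤ) = (q : ℤ) - e * m := by
      rw [← h3]; push_cast; ring
    have h5 : (p : ℤ) ∣ 1 := by
      rw [h4]; exact dvd_sub h2 (Dvd.dvd.mul_left h1 _)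
    exact (Nat.prime_iff_prime_int.1 hp.out).not_unit (isUnit_of_dvd_one h5)
  have hunit : ∀ (s : ℤ), (s = 1 ∨ s = -1) → ∀ x y : ℤ, x ∣ s * y ↔ x ∣ y := by
    rintro s (rfl | rfl) x y
    · rw [one_mul]
    · rw [neg_one_mul, dvd_neg]
  have key : ∀ χ ∈ B, ∀ j ≤ ν, ((p : ℤ) ^ j ∣ (charDegree (χ : G → ℂ) : ℤ) ↔ (p : ℤ) ^ j ∣ u) := by
    intro χ hχ j hj
    have hjν : (p : ℤ) ^ j ∣ ((p ^ ν : ℕ) : ℤ) := by
      push_cast
      exact pow_dvd_pow _ hj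
    rw [← h.un] at hχ
    rcases hχ with hχ | hχ
    · rw [← hunit (δ χ) (h.sg χ)]
      exact (dvd_iff_dvd_of_dvd_sub (hjν.trans (c1 χ hχ χ₁ hχ₁)))
    · have h1 := hjν.trans (c2 χ₁ hχ₁ χ hχ)
      rw [dvd_iff_dvd_of_dvd_sub h1, hunit δ₀ h.sg0]
      constructor
      · intro h2
        exact Dvd.dvd.mul_left h2 _
      · intro h2
        have hcop : IsCoprime ((p : ℤ) ^ j) (m : ℤ) := by
          apply IsCoprime.pow_left
          exact (Prime.coprime_iff_not_dvd (Nat.prime_iff_prime_int.1 hp.out)).2 hpm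
        exact hcop.dvd_of_dvd_mul_left h2
  have key2 : ∀ χ ∈ B, ∀ χ' ∈ B, ∀ j ≤ ν, (j ≤ nuDeg p (χ : G → ℂ) ↔ j ≤ nuDeg p (χ' : G → ℂ)) := by
    intro χ hχ χ' hχ' j hj
    have h1 := (key χ hχ j hj).trans (key χ' hχ' j hj).symm
    rw [← Nat.cast_pow, Int.natCast_dvd_natCast, Int.natCast_dvd_natCast,
      hp.out.pow_dvd_iff_le_factorization (charDegree_pos χ.2).ne',
      hp.out.pow_dvd_iff_le_factorization (charDegree_pos χ'.2).ne'] at h1
    exact h1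
  obtain ⟨χ₀, hχ₀, h0⟩ := exists_height_zero (p := p) (⟨χ₁, hXB χ₁ hχ₁⟩ : B.Nonempty)
  have e0 := Subsec.height_add (p := p) hp.out hχ₀
  rw [h0, hd, zero_add] at e0
  have hheight : ∀ χ ∈ B, blockHeight p B (χ : G → ℂ) = 0 := by
    intro χ hχ
    have e1 := Subsec.height_add (p := p) hp.out hχ
    rw [hd] at e1
    have e2 := (key2 χ hχ χ₀ hχ₀ (nuDeg p (χ₀ : G → ℂ) + 1) (by omega))
    have e3 : ¬ (nuDeg p (χ : G → ℂ) ≥ nuDeg p (χ₀ : G → ℂ) + 1) := by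
      intro h1
      have := e2.1 h1
      omega
    omega
  refine ⟨hheight, ?_, ?_, hYeq⟩
  · intro χ hχ χ' hχ'
    rw [Int.modEq_iff_dvd]
    exact hpaν.trans (c1 χ' hχ' χ hχ)
  · intro ψ hψ χ hχ
    rw [Int.modEq_iff_dvd]
    have h1 := hpaν.trans (c2 χ hχ ψ hψ)
    have h2 : (p : ℤ) ^ a = e * m + 1 := by
      have := h.em
      rw [hq] at this
      exact_mod_cast this.symm
    have h3 : -((e : ℤ) * δ₀ * δ χ * (charDegree (χ : G → ℂ) : ℤ)) - (charDegree (ψ : G → ℂ) : ℤ) =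
        -((e : ℤ) * δ₀) * (δ χ * (charDegree (χ : G → ℂ) : ℤ) - δ₀ * (m * (charDegree (ψ : G → ℂ) : ℤ))) -
          (p : ℤ) ^ a * (charDegree (ψ : G → ℂ) : ℤ) := by
      rw [h2]
      linear_combination (-(e : ℤ) * m * (charDegree (ψ : G → ℂ) : ℤ)) * hδ0
    rw [h3]
    exact dvd_sub (Dvd.dvd.mul_left h1 _) (Dvd.intro _ rfl)

end Res

end Cfsg.Agent.Lib.CycDef
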