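import Cfsg.Agent.Lib.CycCnt

/-!
# Blocks with abelian defect groups and freely acting inertial quotient: orthogonality
-/

set_option autoImplicit false
set_option linter.all false

namespace Cfsg.Agent.Lib.CycDef

open Cfsg Cfsg.Agent.Lib.BlockRing Cfsg.Agent.Lib.BlockGA Cfsg.Agent.Lib.BlockAlg
open Cfsg.Agent.Lib.BlkIdem Cfsg.Agent.Lib.PairAlg Cfsg.Agent.Lib.PairMax
open Cfsg.Agent.Lib.BlockIdem Cfsg.Agent.Lib.BlockSecond Cfsg.Agent.Lib.BrauerPairs
open Cfsg.Agent.Lib.BlkFus Cfsg.Agent.Lib.InducedPair Cfsg.Agent.Lib.DefPairs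
open Cfsg.Agent.Lib.BlkFusDef Cfsg.Agent.Lib.BlkTransport Cfsg.Agent.Lib.AbCount
open Cfsg.Agent.Lib.AbFusion
open Cfsg.Agent.Lib.H25BpLift Cfsg.Agent.Lib.H25BpTw Cfsg.Agent.Lib.H25BpF Cfsg.Agent.Lib.H25BpI
open Cfsg.Agent.Lib.H25BpE Cfsg.Agent.Lib.H25BpG Cfsg.Agent.Lib.H25BpW Cfsg.Agent.Lib.H25BpM
open Cfsg.Agent.Lib.H25BpS
open Cfsg.Agent.Lib.BlockCount (Bl D)
open Cfsg.Agent.Lib.Subsec (Cz mem_Cz fs mem_fs)
open scoped ComplexConjugate Classical Pointwise

universe u v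

variable {p : ℕ} [hp : Fact p.Prime] {M : Ideal AlgInt} [hMm : M.IsMaximal] [hchar : CharP (Kf M) p]
  {G : Type u} [Group G] [Finite G] {B : Set (IrrCharacter G)} {P : Subgroup G} {c : MonoidAlgebra (Kf M) G}

/-- the automorphisms of `P` induced by the stabilizer -/
def AT (P : Subgroup G) (c : MonoidAlgebra (Kf M) G) : Subgroup (MulAut P) where
  carrier := {a | ∃ t, ∃ ht : t ∈ stab (Subgroup.normalizer (P : Set G)) c, ∀ x, a x = cx ht x}
  one_mem' := ⟨1, one_mem _, fun x => Subtype.ext (by show (x : G) = 1 * (x : G) * 1⁻¹; group)⟩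
  mul_mem' := by
    rintro a b ⟨s, hs, ha⟩ ⟨t, ht, hb⟩
    refine ⟨s * t, mul_mem hs ht, fun x => ?_⟩
    show a (b x) = _
    rw [hb, ha]
    apply Subtype.ext
    show s * (t * (x : G) * t⁻¹) * s⁻¹ = s * t * (x : G) * (s * t)⁻¹
    group
  inv_mem' := by
    rintro a ⟨t, ht, ha⟩
    refine ⟨t⁻¹, inv_mem ht, fun x => ?_⟩
    show a.symm x = _
    apply a.injective
    rw [MulEquiv.apply_symm_apply, ha]
    apply Subtype.ext
    show (x : G) = t * (t⁻¹ * (x : G) * t⁻¹⁻¹) * t⁻¹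
    group

theorem mem_AT {a : MulAut P} : a ∈ AT P c ↔
    ∃ t, ∃ ht : t ∈ stab (Subgroup.normalizer (P : Set G)) c, ∀ x, a x = cx ht x := Iff.rfl

theorem cxE_mem {t : G} (ht : t ∈ stab (Subgroup.normalizer (P : Set G)) c) : (cxE ht : MulAut P) ∈ AT P c :=
  ⟨t, ht, fun x => rfl⟩

namespace Free

variable {e : ℕ} (F : Free p B P c e)
include F

theorem card_AT : Nat.card (AT P c) = e := by
  rw [← F.ind]
  set T := stab (Subgroup.normalizer (P : Set G)) c with hT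
  let φ : T →* MulAut P := {
    toFun := fun t => cxE t.2
    map_one' := by
      ext x
      show ((1 : T) : G) * (x : G) * ((1 : T) : G)⁻¹ = x
      simp
    map_mul' := by
      intro s t
      ext x
      show ((s * t : T) : G) * (x : G) * ((s * t : T) : G)⁻¹ = (s : G) * ((t : G) * (x : G) * (t : G)⁻¹) * (s : G)⁻¹
      rw [Subgroup.coe_mul]
      group }
  have hr : φ.range = AT P c := by
    ext a
    constructor
    · rintro ⟨t, rfl⟩
      exact cxE_mem t.2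
    · rintro ⟨t, ht, ha⟩
      exact ⟨⟨t, ht⟩, MulEquiv.ext fun x => (ha x).symm⟩
  have hk : φ.ker = (Subgroup.centralizer (P : Set G)).subgroupOf T := by
    ext t
    rw [MonoidHom.mem_ker, Subgroup.mem_subgroupOf, Subgroup.mem_centralizer_iff]
    constructor
    · intro h x hx
      have h1 : cxE t.2 ⟨x, hx⟩ = (⟨x, hx⟩ : P) := congrArg (fun f : MulAut P => f ⟨x, hx⟩) h
      have h2 : (t : G) * x * (t : G)⁻¹ = x := congrArg Subtype.val h1
      calc x * (t : G) = ((t : G) * x * (t : G)⁻¹) * t := by rw [h2]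
        _ = t * x := by group
    · intro h
      apply MulEquiv.ext
      intro x
      apply Subtype.ext
      show (t : G) * (x : G) * (t : G)⁻¹ = x
      rw [← h x x.2]
      group
  have h1 := Subgroup.index_ker φ
  rw [hk, hr] at h1
  exact h1.symm

theorem AT_free {a : MulAut P} (ha : a ∈ AT P c) {x : P} (hx : x ≠ 1) (hax : a x = x) : a = 1 := by
  obtain ⟨t, ht, hat⟩ := ha
  have h1 : t ∈ Subgroup.centralizer (P : Set G) := by
    apply F.free t ht x x.2 (fun h => hx (Subtype.ext h))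
    have := congrArg Subtype.val ((hat x).symm.trans hax)
    exact this
  apply MulEquiv.ext
  intro y
  rw [hat]
  apply Subtype.ext
  show t * (y : G) * t⁻¹ = y
  rw [← Subgroup.mem_centralizer_iff.1 h1 y y.2]
  group

theorem sta_of_inv {η : G → ℂ} (hη : ∀ t (ht : t ∈ stab (Subgroup.normalizer (P : Set G)) c) (x : P),
    η (cx ht x) = η x) : Sta p P c η := by
  rintro x g ⟨f, hf, hg⟩
  obtain ⟨z, hz, hzg⟩ := ab_factor F.ab.pair F.ab.max F.ab.ab hf hg
  have hx : x ∈ P := hf.le (Subgroup.mem_zpowers x)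
  rw [cg_zpowers, mem_cz] at hz
  have h1 := hη _ hzg ⟨x, hx⟩
  have h2 : z * g * x * (z * g)⁻¹ = g * x * g⁻¹ := by
    have h3 : g * x * g⁻¹ * z = z * (g * x * g⁻¹) := hz
    calc z * g * x * (z * g)⁻¹ = z * (g * x * g⁻¹) * z⁻¹ := by group
      _ = g * x * g⁻¹ := by rw [← h3]; group
  rw [← h1]
  show η (g * x * g⁻¹) = η (z * g * x * (z * g)⁻¹)
  rw [h2]

omit F hp hMm hchar [Finite G] in
/-- the indicator function of an orbit -/
noncomputable def _root_.Cfsg.Agent.Lib.CycDef.ori [M.IsMaximal] (c : MonoidAlgebra (Kf M) G) (x : P) (g : G) : ℂ :=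
  if ∃ a ∈ AT P c, ((a x : P) : G) = g then 1 else 0

theorem ori_sta (x : P) : Sta p P c (ori c x) := by
  apply F.sta_of_inv
  intro t ht y
  unfold ori
  congr 1
  apply propext
  constructor
  · rintro ⟨a, ha, hay⟩
    refine ⟨(cxE ht : MulAut P)⁻¹ * a, mul_mem (inv_mem (cxE_mem ht)) ha, ?_⟩
    have h1 : a x = cxE ht y := Subtype.ext hay
    show (((cxE ht).symm (a x) : P) : G) = y
    rw [h1, MulEquiv.symm_apply_apply]
  · rintro ⟨a, ha, hay⟩
    refine ⟨(cxE ht : MulAut P) * a, mul_mem (cxE_mem ht) ha, ?_⟩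
    show ((cxE ht (a x) : P) : G) = cxE ht y
    rw [Subtype.ext hay]

/-- sums over orbits -/
theorem sum_ori [Fintype P] {x : P} (hx : x ≠ 1) (f : P → ℂ) (hf : ∀ a ∈ AT P c, ∀ y, f (a y) = f y) :
    ∑ y : P, ori c x y * f y = e * f x := by
  have := Fintype.ofFinite (AT P c)
  have h1 : ∑ y : P, ori c x y * f y = ∑ y ∈ Finset.univ.filter (fun y : P => ∃ a ∈ AT P c, a x = y), f x := by
    rw [Finset.sum_filter]
    refine Finset.sum_congr rfl fun y _ => ?_
    unfold ori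
    have h2 : (∃ a ∈ AT P c, ((a x : P) : G) = y) ↔ ∃ a ∈ AT P c, a x = y := by
      simp only [Subtype.coe_inj]
    simp only [h2]
    split_ifs with h3
    · obtain ⟨a, ha, rfl⟩ := h3
      rw [one_mul, hf a ha]
    · rw [zero_mul]
  rw [h1, Finset.sum_const, nsmul_eq_mul]
  congr 1
  rw [← F.card_AT, Nat.card_eq_fintype_card]
  norm_cast
  symm
  rw [← Finset.card_univ]
  refine Finset.card_bij (fun a _ => (a : MulAut P) x) ?_ ?_ ?_
  · intro a _
    exact Finset.mem_filter.2 ⟨Finset.mem_univ _, a, a.2, rfl⟩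
  · intro a _ b _ hab
    have h3 : ((b : MulAut P)⁻¹ * (a : MulAut P)) = 1 := by
      apply F.AT_free (mul_mem (inv_mem b.2) a.2) hx
      show (b : MulAut P).symm ((a : MulAut P) x) = x
      rw [hab, MulEquiv.symm_apply_apply]
    apply Subtype.ext
    rw [inv_mul_eq_one] at h3
    exact h3.symm
  · intro y hy
    obtain ⟨a, ha, rfl⟩ := (Finset.mem_filter.1 hy).2
    exact ⟨⟨a, ha⟩, Finset.mem_univ _, rfl⟩

variable {ρ : IrrCharacter G → P → ℂ} (R : Rho p F.k ρ)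
include R

theorem rho_inv {a : MulAut P} (ha : a ∈ AT P c) (χ : IrrCharacter G) (x : P) : ρ χ (a x) = ρ χ x := by
  obtain ⟨t, ht, hat⟩ := ha
  rw [hat]
  exact R.inv χ t ht x

theorem card_P_ne : (Nat.card P : ℂ) ≠ 0 := by exact_mod_cast Nat.card_pos.ne'

theorem CI_eq_rho (χ ψ : IrrCharacter G) {x : P} (hx : x ≠ 1) :
    CI p (χ : G → ℂ) (ψ : G → ℂ) x (F.k.fx x) = (Nat.card P : ℂ)⁻¹ * (ρ χ x * conj (ρ ψ x)) := by
  rw [← R.CI χ ψ x hx, inv_mul_cancel_left₀ (F.card_P_ne R)]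

/-- inner products of star multiples by functions vanishing at the identity -/
theorem inner_rho [Fintype G] [Fintype P] {η η' : G → ℂ} (hη : Sta p P c η) (hη' : Sta p P c η')
    (h1 : η 1 * conj (η' 1) = 0) (χ ψ : IrrCharacter G) :
    classInner (st p P c η (χ : G → ℂ)) (st p P c η' (ψ : G → ℂ)) =
      (e : ℂ)⁻¹ * (Nat.card P : ℂ)⁻¹ * ∑ x : P, η x * conj (η' x) * (ρ χ x * conj (ρ ψ x)) := by
  rw [F.inner_free hη hη' χ ψ, Finset.mul_sum]
  refine Finset.sum_congr rfl fun x _ => ?_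
  by_cases hx : x = 1
  · subst hx
    have : η ((1 : P) : G) * conj (η' ((1 : P) : G)) = 0 := h1
    rw [this]
    ring
  · rw [if_neg hx, F.CI_eq_rho R χ ψ hx]
    ring

theorem ori_one {x : P} (hx : x ≠ 1) : ori c x 1 = 0 := by
  unfold ori
  rw [if_neg]
  rintro ⟨a, ha, hax⟩
  apply hx
  have h1 : a x = 1 := Subtype.ext hax
  exact (MulEquiv.map_eq_one_iff a).1 h1

theorem inner_ori [Fintype G] {x : P} (hx : x ≠ 1) (χ : IrrCharacter G) {ψ : IrrCharacter G} (hψ : ψ ∈ B) :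
    classInner (st p P c (ori c x) (χ : G → ℂ)) (ψ : G → ℂ) =
      (Nat.card P : ℂ)⁻¹ * (ρ χ x * conj (ρ ψ x)) := by
  have := Fintype.ofFinite P
  have hone : Sta p P c (fun _ => (1 : ℂ)) := fun _ _ _ => rfl
  have h1 := F.inner_rho R (F.ori_sta x) hone (by rw [F.ori_one R hx, zero_mul]) χ ψ
  rw [F.k.st_trivial hone (fun _ _ => rfl) hψ] at h1
  rw [h1]
  have h2 := F.sum_ori hx (fun y => ρ χ y * conj (ρ ψ y)) (fun a ha y => by
    show ρ χ (a y) * conj (ρ ψ (a y)) = _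
    rw [F.rho_inv R ha, F.rho_inv R ha])
  have h3 : ∑ y : P, ori c x y * conj ((fun _ => (1 : ℂ)) (y : G)) * (ρ χ y * conj (ρ ψ y)) =
      (e : ℂ) * (ρ χ x * conj (ρ ψ x)) := by
    rw [← h2]
    refine Finset.sum_congr rfl fun y _ => ?_
    rw [map_one, mul_one]
  rw [h3]
  have he : (e : ℂ) ≠ 0 := by exact_mod_cast F.e_pos.ne'
  field_simp

/-- the expansion of the star multiple -/
theorem st_ori [Fintype G] {x : P} (hx : x ≠ 1) {χ : IrrCharacter G} (hχ : χ ∈ B) (g : G) :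
    st p P c (ori c x) (χ : G → ℂ) g =
      (Nat.card P : ℂ)⁻¹ * ρ χ x * ∑ φ ∈ fs B, conj (ρ φ x) * (φ : G → ℂ) g := by
  have hcl : IsClassFunction G (st p P c (ori c x) (χ : G → ℂ)) :=
    F_class (Wt_conj (F.ori_sta x)) χ.2.isClassFunction
  rw [hcl.expansion_apply, ← Finset.sum_subset (Finset.subset_univ (fs B))]
  · rw [Finset.mul_sum]
    refine Finset.sum_congr rfl fun φ hφ => ?_
    rw [F.inner_ori R hx χ (mem_fs.1 hφ)]
    ring
  · intro φ _ hφ
    rw [F.k.st_orth hχ (fun h => hφ (mem_fs.2 h)), zero_mul]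

/-- orthogonality -/
theorem orth {x y : P} (hx : x ≠ 1) (hy : y ≠ 1) :
    ∑ φ ∈ fs B, ρ φ y * conj (ρ φ x) = if ∃ a ∈ AT P c, a x = y then (Nat.card P : ℂ) else 0 := by
  have := Fintype.ofFinite G
  have := Fintype.ofFinite P
  obtain ⟨χ, hχ⟩ := isPBlock_nonempty F.ab.blk
  have hP := F.card_P_ne R
  have he : (e : ℂ) ≠ 0 := by exact_mod_cast F.e_pos.ne'
  have hcl : IsClassFunction G (st p P c (ori c x) (χ : G → ℂ)) :=
    F_class (Wt_conj (F.ori_sta x)) χ.2.isClassFunction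
  have h1 := hcl.classInner_eq_sum (st p P c (ori c y) (χ : G → ℂ))
  rw [← Finset.sum_subset (Finset.subset_univ (fs B)) (fun φ _ hφ => by
    rw [F.k.st_orth hχ (fun h => hφ (mem_fs.2 h)), zero_mul])] at h1
  rw [F.inner_rho R (F.ori_sta x) (F.ori_sta y) (by rw [F.ori_one R hx, zero_mul]) χ χ] at h1
  have h2 : ∑ φ ∈ fs B, classInner (st p P c (ori c x) (χ : G → ℂ)) (φ : G → ℂ) *
      conj (classInner (st p P c (ori c y) (χ : G → ℂ)) (φ : G → ℂ)) =
      (Nat.card P : ℂ)⁻¹ * (Nat.card P : ℂ)⁻¹ * (ρ χ x * conj (ρ χ y)) * ∑ φ ∈ fs B, ρ φ y * conj (ρ φ x) := by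
    rw [Finset.mul_sum]
    refine Finset.sum_congr rfl fun φ hφ => ?_
    rw [F.inner_ori R hx χ (mem_fs.1 hφ), F.inner_ori R hy χ (mem_fs.1 hφ)]
    simp only [map_mul, map_inv₀, Complex.conj_conj, map_natCast]
    ring
  rw [h2] at h1
  have hne : ρ χ x * conj (ρ χ y) ≠ 0 :=
    mul_ne_zero (R.ne χ hχ x hx) ((map_ne_zero _).2 (R.ne χ hχ y hy))
  split_ifs with hxy
  · obtain ⟨a, ha, rfl⟩ := hxy
    have h3 : ∀ z : P, ori c x z * conj (ori c (a x) z) * (ρ χ z * conj (ρ χ z)) =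
        ori c x z * (ρ χ z * conj (ρ χ z)) := by
      intro z
      have h4 : ori c (a x) z = ori c x z := by
        unfold ori
        congr 1
        apply propext
        constructor
        · rintro ⟨b, hb, hbz⟩
          exact ⟨b * a, mul_mem hb ha, hbz⟩
        · rintro ⟨b, hb, hbz⟩
          refine ⟨b * a⁻¹, mul_mem hb (inv_mem ha), ?_⟩
          show ((b (a.symm (a x)) : P) : G) = z
          rw [MulEquiv.symm_apply_apply]
          exact hbz
      rw [h4]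
      unfold ori
      split_ifs <;> simp
    rw [Finset.sum_congr rfl (fun z _ => h3 z), F.sum_ori hx (fun y => ρ χ y * conj (ρ χ y)) (fun a ha y => by
      show ρ χ (a y) * conj (ρ χ (a y)) = _
      rw [F.rho_inv R ha])] at h1
    have hne' := hne
    rw [F.rho_inv R ha] at hne'
    rw [F.rho_inv R ha] at h1
    have h5 : (e : ℂ)⁻¹ * (Nat.card P : ℂ)⁻¹ * ((e : ℂ) * (ρ χ x * conj (ρ χ x))) =
        (Nat.card P : ℂ)⁻¹ * (ρ χ x * conj (ρ χ x)) := by field_simp
    rw [h5] at h1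
    have h6 : (Nat.card P : ℂ)⁻¹ * (ρ χ x * conj (ρ χ x)) * (Nat.card P : ℂ)⁻¹ *
        (∑ φ ∈ fs B, ρ φ (a x) * conj (ρ φ x) - Nat.card P) = 0 := by
      rw [mul_sub]
      have : (Nat.card P : ℂ)⁻¹ * (ρ χ x * conj (ρ χ x)) * (Nat.card P : ℂ)⁻¹ * (Nat.card P : ℂ) =
          (Nat.card P : ℂ)⁻¹ * (ρ χ x * conj (ρ χ x)) := by
        rw [mul_assoc, inv_mul_cancel₀ hP, mul_one]
      rw [this]
      linear_combination (-1 : ℂ) * h1
    rcases mul_eq_zero.1 h6 with h7 | h7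
    · exact absurd h7 (mul_ne_zero (mul_ne_zero (inv_ne_zero hP) hne') (inv_ne_zero hP))
    · exact sub_eq_zero.1 h7
  · have h3 : ∀ z : P, ori c x z * conj (ori c y z) = 0 := by
      intro z
      unfold ori
      by_cases hz : ∃ a ∈ AT P c, ((a x : P) : G) = z
      · rw [if_neg (c := ∃ a ∈ AT P c, ((a y : P) : G) = z)]
        · simp
        · rintro ⟨b, hb, hbz⟩
          obtain ⟨a, ha, haz⟩ := hz
          apply hxy
          refine ⟨b⁻¹ * a, mul_mem (inv_mem hb) ha, ?_⟩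
          show b.symm (a x) = y
          have : a x = b y := Subtype.ext (haz.trans hbz.symm)
          rw [this, MulEquiv.symm_apply_apply]
      · rw [if_neg hz, zero_mul]
    rw [Finset.sum_eq_zero (fun z _ => by rw [h3 z, zero_mul]), mul_zero] at h1
    rcases mul_eq_zero.1 h1.symm with h7 | h7
    · exact absurd h7 (mul_ne_zero (mul_ne_zero (inv_ne_zero hP) (inv_ne_zero hP)) hne)
    · exact h7

/-- orthogonality with the values at `p`-regular elements -/
theorem orth_reg {x : P} (hx : x ≠ 1) {g : G} (hg : ¬ p ∣ orderOf g) :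
    ∑ φ ∈ fs B, conj (ρ φ x) * (φ : G → ℂ) g = 0 := by
  have := Fintype.ofFinite G
  obtain ⟨χ, hχ⟩ := isPBlock_nonempty F.ab.blk
  have h1 := F.st_ori R hx hχ g
  rw [F.k.st_reg (F.ori_sta x) hχ hg, F.ori_one R hx, zero_mul] at h1
  rcases mul_eq_zero.1 h1.symm with h7 | h7
  · exact absurd h7 (mul_ne_zero (inv_ne_zero (F.card_P_ne R)) (R.ne χ hχ x hx))
  · exact h7

end Free

end Cfsg.Agent.Lib.CycDef
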