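import Cfsg.Agent.Lib.CycTr

/-!
# Blocks with abelian defect groups: restriction to the centralizer of an element with nilpotent block
-/

set_option autoImplicit false
set_option linter.all false

namespace Cfsg.Agent.Lib.CycDef

open Cfsg Cfsg.Agent.Lib.BlockRing Cfsg.Agent.Lib.BlockGA Cfsg.Agent.Lib.BlockAlg
open Cfsg.Agent.Lib.BlkIdem Cfsg.Agent.Lib.PairAlg Cfsg.Agent.Lib.PairMax
open Cfsg.Agent.Lib.BlockIdem Cfsg.Agent.Lib.BlockSecond Cfsg.Agent.Lib.BrauerPairs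
open Cfsg.Agent.Lib.BlkFus Cfsg.Agent.Lib.InducedPair Cfsg.Agent.Lib.DefPairs
open Cfsg.Agent.Lib.BlkFusDef Cfsg.Agent.Lib.BlkTransport Cfsg.Agent.Lib.AbCount
open Cfsg.Agent.Lib.AbFusion Cfsg.Agent.Lib.PairCount
open Cfsg.Agent.Lib.NormalPBlk (cid cj_cid)
open Cfsg.Agent.Lib.H25BpLift Cfsg.Agent.Lib.H25BpTw Cfsg.Agent.Lib.H25BpF Cfsg.Agent.Lib.H25BpI
open Cfsg.Agent.Lib.H25BpE Cfsg.Agent.Lib.H25BpG Cfsg.Agent.Lib.H25BpW Cfsg.Agent.Lib.H25BpM
open Cfsg.Agent.Lib.H25BpS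
open Cfsg.Agent.Lib.BlockCount (Bl D rsp rsp_orth sum_blockPart)
open Cfsg.Agent.Lib.BlockPair (preg)
open Cfsg.Agent.Lib.Subsec (Cz mem_Cz D_reg D_not_reg D_mem al al_eq al_mem fs mem_fs al_ne_zero al_ne_zero')
open Cfsg.Agent.Lib (BrauerMap.br BrauerMap.cj BrauerMap.fixAlg BrauerMap.suppAlg)
open MonoidAlgebra (single)
open scoped ComplexConjugate Classical Pointwise

universe u v

variable {p : ℕ} [hp : Fact p.Prime] {M : Ideal AlgInt} [hMm : M.IsMaximal] [hchar : CharP (Kf M) p]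
  {G : Type u} [Group G] [Finite G] {B : Set (IrrCharacter G)} {P : Subgroup G} {e : MonoidAlgebra (Kf M) G}

/-- local components of class functions in terms of one character of a nilpotent block -/
theorem D_expand (k : Ctx p B P e) (hin : H25BpS.Inn p P e) {ψ₀ : IrrCharacter G} (hψ : ψ₀ ∈ B)
    (h0 : blockHeight p B (ψ₀ : G → ℂ) = 0) [Fintype G] {f : G → ℂ} (hf : IsClassFunction G f)
    (x : P) (b : Bl M (Cz (x : G))) (hle : PLE p (Subgroup.zpowers (x : G), bid M (Cz (x : G)) b.1) (P, e)) :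
    D p (x : G) b.1 f = (∑ θ : IrrCharacter P,
      classInner f ((k.star hin hψ h0 θ : IrrCharacter G) : G → ℂ) * (θ : P → ℂ) x) • D p (x : G) b.1 (ψ₀ : G → ℂ) := by
  have hbij : Function.Bijective (k.star hin hψ h0) := ⟨k.star_inj hin hψ h0, k.star_surj hin hψ h0⟩
  have hind := k.ind_self x.2 b hle
  obtain ⟨n, hn⟩ := PE_of_mem (p := p) k.pair.1 x.2
  conv_lhs => rw [hf.expansion]
  rw [map_sum, ← Finset.sum_filter_add_sum_filter_not Finset.univ (fun χ : IrrCharacter G => χ ∈ B)]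
  rw [Finset.sum_eq_zero (s := Finset.univ.filter (fun χ : IrrCharacter G => χ ∉ B)) (fun χ hχ => by
    rw [map_smul, Subsec.D_eq_zero k.mod hn hind (Finset.mem_filter.1 hχ).2, smul_zero]), add_zero, Finset.sum_smul]
  symm
  refine Finset.sum_bij (fun θ _ => (k.star hin hψ h0 θ : IrrCharacter G)) ?_ ?_ ?_ ?_
  · intro θ _
    exact Finset.mem_filter.2 ⟨Finset.mem_univ _, (k.star hin hψ h0 θ).2⟩
  · intro θ _ θ' _ hθ
    exact hbij.1 (Subtype.ext hθ)
  · intro χ hχ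
    obtain ⟨θ, hθ⟩ := hbij.2 ⟨χ, (Finset.mem_filter.1 hχ).2⟩
    exact ⟨θ, Finset.mem_univ _, congrArg Subtype.val hθ⟩
  · intro θ _
    rw [map_smul, mul_smul]
    congr 1
    have h1 : D p (x : G) b.1 ((k.star hin hψ h0 θ : IrrCharacter G) : G → ℂ) =
        Wt p P e (extendByZero P (θ : P → ℂ)) x (bid M (Cz (x : G)) b.1) • D p (x : G) b.1 (ψ₀ : G → ℂ) := by
      rw [k.star_coe hin hψ h0 θ]
      exact D_F k.mod _ ψ₀.2.isClassFunction ⟨n, hn⟩ b
    rw [h1, Wt_self (sta_of_class hin (ext_class θ)) hle, IndFun.extendByZero_coe]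

/-- the inner pair fusion -/
theorem inn_of_free {c : MonoidAlgebra (Kf M) G} (h : AbMax p B P c)
    (hT : ∀ t ∈ stab (Subgroup.normalizer (P : Set G)) c, t ∈ Subgroup.centralizer (P : Set G)) :
    H25BpS.Inn p P c := by
  rintro Q g ⟨f, hf, hg⟩
  refine ⟨1, one_mem _, ?_⟩
  rw [inv_one, one_mul]
  obtain ⟨z, hz, hzg⟩ := ab_factor h.pair h.max h.ab hf hg
  have h1 := C_leQ hf.le (hT _ hzg)
  rw [centralizer_cg, mem_cg] at hz
  have : g = (z * g) * (g⁻¹ * z * g)⁻¹ := by group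
  rw [this]
  exact mul_mem h1 (inv_mem hz)

theorem ctx_of (hM : IsPModular p M) {c : MonoidAlgebra (Kf M) G} (h : AbMax p B P c) : Ctx p B P c :=
  ⟨hM, h.blk, h.pair, h.br, h.max⟩

omit hp [Finite G] in
theorem zpowers_subgroupOf {H : Subgroup G} (x : H) :
    (Subgroup.zpowers (x : G)).subgroupOf H = Subgroup.zpowers x := by
  ext y
  rw [Subgroup.mem_subgroupOf, Subgroup.mem_zpowers_iff, Subgroup.mem_zpowers_iff]
  constructor
  · rintro ⟨n, hn⟩
    exact ⟨n, Subtype.ext (by simpa using hn)⟩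
  · rintro ⟨n, hn⟩
    exact ⟨n, by simpa using congrArg Subtype.val hn⟩

theorem res_inc (H : Subgroup G) (z : MonoidAlgebra (Kf M) H) : BlockAlg.res H (inc H z) = z := by
  apply inc_injective (M := M) H
  rw [inc_res]
  intro g hg
  exact inc_coeff_not_mem _ _ hg

/-- the block of the centralizer in the subgroup -/
noncomputable def blSub {H : Subgroup G} (x : H) (hx : Cz (x : G) ≤ H) (b : Bl M (Cz (x : G))) : Bl M (Cz x) :=
  ⟨irrMap (czEquiv x hx) '' b.1, isPBlock_irrMap _ b.2⟩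

theorem bid_blSub {H : Subgroup G} (x : H) (hx : Cz (x : G) ≤ H) (b : Bl M (Cz (x : G))) :
    inc H (bid M (Cz x) (blSub x hx b).1) = bid M (Cz (x : G)) b.1 := inc_bid_cz x hx b.1

theorem ple_blSub {H : Subgroup G} (x : H) (hx : Cz (x : G) ≤ H) (b : Bl M (Cz (x : G))) {c : MonoidAlgebra (Kf M) G}
    (hPH : P ≤ H) (hle : PLE p (Subgroup.zpowers (x : G), bid M (Cz (x : G)) b.1) (P, c)) :
    PLE p (Subgroup.zpowers x, bid M (Cz x) (blSub x hx b).1) (P.subgroupOf H, BlockAlg.res H c) := by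
  have h1 := ple_inc hle hPH (by
    show Subgroup.centralizer ((Subgroup.zpowers (x : G) : Subgroup G) : Set G) ≤ H
    rw [SubsecNorm.centralizer_zpowers]
    exact hx)
  simp only at h1
  rwa [zpowers_subgroupOf, ← bid_blSub x hx b, res_inc] at h1

theorem cz_le_of_mem {u x : G} (hu : u ∈ Subgroup.zpowers x) : Cz x ≤ Cz u := by
  intro g hg
  rw [mem_Cz] at hg ⊢
  obtain ⟨n, rfl⟩ := Subgroup.mem_zpowers_iff.1 hu
  exact hg.zpow_left n

section loc

variable {c : MonoidAlgebra (Kf M) G}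

/-- local data: an element of the abelian defect group whose block is nilpotent -/
structure LD (p : ℕ) {M : Ideal AlgInt} [M.IsMaximal] {G : Type u} [Group G] [Finite G]
    (B : Set (IrrCharacter G)) (P : Subgroup G) (c : MonoidAlgebra (Kf M) G) (u : G)
    (ψ₀ : IrrCharacter (Cz u)) : Prop where
  mod : IsPModular p M
  ab : AbMax p B P c
  mem : u ∈ P
  inn : H25BpS.Inn p (P.subgroupOf (Cz u)) (BlockAlg.res (Cz u) c)
  memb : ψ₀ ∈ bu p P c u
  h0 : blockHeight p (bu p P c u) (ψ₀ : Cz u → ℂ) = 0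

variable {u : G} {ψ₀ : IrrCharacter (Cz u)}

theorem exists_LD (hM : IsPModular p M) (h : AbMax p B P c) (hu : u ∈ P)
    (hfree : ∀ t ∈ stab (Subgroup.normalizer (P : Set G)) c, t ∈ Cz u → t ∈ Subgroup.centralizer (P : Set G)) :
    ∃ ψ₀ : IrrCharacter (Cz u), LD p B P c u ψ₀ := by
  obtain ⟨ψ₀, h1, h2⟩ := BlockDeg.exists_height_zero (p := p) (isPBlock_nonempty (h.res hu).blk)
  refine ⟨ψ₀, hM, h, hu, ?_, h1, h2⟩
  apply inn_of_free (h.res hu)
  intro t ht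
  rw [h.mem_stab_res hu] at ht
  have h3 := hfree _ ht t.2
  rw [mem_centralizer_subgroupOf (h.P_le hu)]
  exact h3

namespace LD

variable (L : LD p B P c u ψ₀)
include L

theorem k : Ctx p (bu p P c u) (P.subgroupOf (Cz u)) (BlockAlg.res (Cz u) c) := ctx_of L.mod (L.ab.res L.mem)

/-- the elements of `P` as elements of the centralizer -/
abbrev ex (x : P) : Cz u := ⟨(x : G), L.ab.P_le L.mem x.2⟩

/-- the embedding of `P` -/
abbrev em (x : P) : P.subgroupOf (Cz u) := ⟨L.ex x, x.2⟩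

/-- the embedding of `P` -/
noncomputable def emE : P ≃* P.subgroupOf (Cz u) := (Subgroup.subgroupOfEquivOfLe (L.ab.P_le L.mem)).symm

/-- multiplicities -/
noncomputable def mu (χ : G → ℂ) (θ : IrrCharacter (P.subgroupOf (Cz u))) : ℂ :=
  letI := Fintype.ofFinite (Cz u)
  classInner (fun h : Cz u => χ h) ((L.k.star L.inn L.memb L.h0 θ : IrrCharacter (Cz u)) : Cz u → ℂ)

/-- the characters `ρ` of `P` -/
noncomputable def rho (χ : G → ℂ) (x : P) : ℂ :=
  ∑ θ : IrrCharacter (P.subgroupOf (Cz u)), L.mu χ θ * (θ : P.subgroupOf (Cz u) → ℂ) (L.em x)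

theorem rho_gen (χ : IrrCharacter G) : IsGeneralizedCharacter P (L.rho (χ : G → ℂ)) := by
  have h1 : L.rho (χ : G → ℂ) = ∑ θ : IrrCharacter (P.subgroupOf (Cz u)),
      L.mu (χ : G → ℂ) θ • (fun x : P => (θ : P.subgroupOf (Cz u) → ℂ) (L.em x)) := by
    funext x
    rw [Finset.sum_apply]
    rfl
  rw [h1]
  apply CharBasic.isGeneralized_sum
  intro θ _
  letI := Fintype.ofFinite (Cz u)
  obtain ⟨n, hn⟩ := (χ.2.isGeneralized.restrict (Cz u)).classInner_int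
    (L.k.star L.inn L.memb L.h0 θ).1.2.isGeneralized
  have h2 : L.mu (χ : G → ℂ) θ = n := hn
  rw [h2]
  exact (θ.2.isGeneralized.comp L.emE.toMonoidHom).intCast_smul n

theorem cz_le {x : P} (hx : u ∈ Subgroup.zpowers (x : G)) :
    Cz ((L.ex x) : G) ≤ Cz u := cz_le_of_mem hx

theorem ple_sub {x : P} (hx : u ∈ Subgroup.zpowers (x : G)) (b : Bl M (Cz (x : G)))
    (hle : PLE p (Subgroup.zpowers (x : G), bid M (Cz (x : G)) b.1) (P, c)) :
    PLE p (Subgroup.zpowers (L.ex x),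
      bid M (Cz (L.ex x))
        (blSub (L.ex x) (L.cz_le hx) b).1)
      (P.subgroupOf (Cz u), BlockAlg.res (Cz u) c) :=
  ple_blSub (L.ex x) (L.cz_le hx) b (L.ab.P_le L.mem) hle

/-- local components in terms of `ρ` -/
theorem D_rho {χ : G → ℂ} (hχ : IsClassFunction G χ) {x : P} (hx : u ∈ Subgroup.zpowers (x : G))
    (b : Bl M (Cz (x : G)))
    (hle : PLE p (Subgroup.zpowers (x : G), bid M (Cz (x : G)) b.1) (P, c)) (s : Cz (x : G)) :
    D p (x : G) b.1 χ s = L.rho χ x *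
      D p (L.ex x) (blSub (L.ex x) (L.cz_le hx) b).1
        (ψ₀ : Cz u → ℂ) (czEquiv (L.ex x) (L.cz_le hx) s) := by
  letI := Fintype.ofFinite (Cz u)
  rw [← D_res (L.ex x) (L.cz_le hx) χ b.1 s]
  have h1 := D_expand L.k L.inn L.memb L.h0 (hχ.restrict (Cz u)) (L.em x)
    (blSub (L.ex x) (L.cz_le hx) b) (L.ple_sub hx b hle)
  have h2 := congrFun h1 (czEquiv (L.ex x) (L.cz_le hx) s)
  exact h2

theorem CI_one (x : P) (hx : u ∈ Subgroup.zpowers (x : G)) (b : Bl M (Cz (x : G)))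
    (hle : PLE p (Subgroup.zpowers (x : G), bid M (Cz (x : G)) b.1) (P, c)) [Fintype (Cz (L.ex x))] :
    (Nat.card P : ℂ) * classInner (D p (L.ex x) (blSub (L.ex x) (L.cz_le hx) b).1 (ψ₀ : Cz u → ℂ))
      (D p (L.ex x) (blSub (L.ex x) (L.cz_le hx) b).1 (ψ₀ : Cz u → ℂ)) = 1 := by
  have h1 := L.k.weight_one L.inn L.memb L.h0 (L.em x)
  have h2 := L.k.fx_eq (x := L.em x) (L.ple_sub hx b hle)
  rw [h2, CI_eq] at h1
  have h3 : P.subgroupOf (Cz u) ⊓ Cc (((L.em x : P.subgroupOf (Cz u)) : Cz u)) = P.subgroupOf (Cz u) := by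
    rw [inf_eq_left]
    intro y hy
    rw [mem_cz]
    apply Subtype.ext
    exact Subgroup.mem_centralizer_iff.1 (L.ab.ab (Subgroup.mem_subgroupOf.1 hy)) (x : G) x.2
  rw [h3] at h1
  rw [← h1, Nat.card_congr L.emE.toEquiv]

theorem inner_rho {χ ψ : G → ℂ} (hχ : IsClassFunction G χ) (hψ : IsClassFunction G ψ) (x : P)
    (hx : u ∈ Subgroup.zpowers (x : G)) (b : Bl M (Cz (x : G)))
    (hle : PLE p (Subgroup.zpowers (x : G), bid M (Cz (x : G)) b.1) (P, c)) [Fintype (Cz (x : G))] :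
    (Nat.card P : ℂ) * classInner (D p (x : G) b.1 χ) (D p (x : G) b.1 ψ) = L.rho χ x * conj (L.rho ψ x) := by
  letI := Fintype.ofFinite (Cz (L.ex x))
  have h1 := L.CI_one x hx b hle
  have h2 : classInner (D p (x : G) b.1 χ) (D p (x : G) b.1 ψ) = L.rho χ x * conj (L.rho ψ x) *
      classInner (D p (L.ex x) (blSub (L.ex x) (L.cz_le hx) b).1 (ψ₀ : Cz u → ℂ))
        (D p (L.ex x) (blSub (L.ex x) (L.cz_le hx) b).1 (ψ₀ : Cz u → ℂ)) := by
    rw [← classInner_comp (czEquiv (L.ex x) (L.cz_le hx))]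
    have e1 : D p (x : G) b.1 χ = L.rho χ x • (fun s => D p (L.ex x) (blSub (L.ex x) (L.cz_le hx) b).1
        (ψ₀ : Cz u → ℂ) (czEquiv (L.ex x) (L.cz_le hx) s)) := funext fun s => L.D_rho hχ hx b hle s
    have e2 : D p (x : G) b.1 ψ = L.rho ψ x • (fun s => D p (L.ex x) (blSub (L.ex x) (L.cz_le hx) b).1
        (ψ₀ : Cz u → ℂ) (czEquiv (L.ex x) (L.cz_le hx) s)) := funext fun s => L.D_rho hψ hx b hle s
    rw [e1, e2, IndFun.classInner_smul_left, IndFun.classInner_smul_right, mul_assoc]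
  rw [h2, mul_left_comm, h1, mul_one]

theorem CI_rho {χ ψ : G → ℂ} (hχ : IsClassFunction G χ) (hψ : IsClassFunction G ψ) (x : P)
    (hx : u ∈ Subgroup.zpowers (x : G)) (k₀ : Ctx p B P c) :
    (Nat.card P : ℂ) * CI p χ ψ x (k₀.fx x) = L.rho χ x * conj (L.rho ψ x) := by
  have := Fintype.ofFinite (Cz (x : G))
  obtain ⟨b, hb⟩ := k₀.ple_bl x.2
  rw [k₀.fx_eq hb, CI_eq]
  exact L.inner_rho hχ hψ x hx b hb

theorem D_ne_zero {x : P} (hx : u ∈ Subgroup.zpowers (x : G)) (b : Bl M (Cz (x : G)))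
    (hle : PLE p (Subgroup.zpowers (x : G), bid M (Cz (x : G)) b.1) (P, c)) :
    ∃ s : Cz (x : G), D p (L.ex x) (blSub (L.ex x) (L.cz_le hx) b).1 (ψ₀ : Cz u → ℂ)
      (czEquiv (L.ex x) (L.cz_le hx) s) ≠ 0 := by
  letI := Fintype.ofFinite (Cz (L.ex x))
  by_contra hcon
  push Not at hcon
  have h1 := L.CI_one x hx b hle
  have h2 : D p (L.ex x) (blSub (L.ex x) (L.cz_le hx) b).1 (ψ₀ : Cz u → ℂ) = 0 := by
    funext s
    obtain ⟨s, rfl⟩ := (czEquiv (L.ex x) (L.cz_le hx)).surjective s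
    exact hcon s
  rw [h2, IndFun.classInner_zero_left, mul_zero] at h1
  exact zero_ne_one h1

/-- `ρ` does not vanish -/
theorem rho_ne_zero {χ : IrrCharacter G} (hχ : χ ∈ B) (x : P) (hx : u ∈ Subgroup.zpowers (x : G)) :
    L.rho (χ : G → ℂ) x ≠ 0 := by
  obtain ⟨b, hb⟩ := (ctx_of L.mod L.ab).ple_bl x.2
  intro h0
  have huc : (x : G) ∈ Subgroup.centralizer (P : Set G) := L.ab.ab x.2
  apply (ctx_of L.mod L.ab).D_ne_zero_center x.2 huc b hb hχ
  funext s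
  rw [L.D_rho χ.2.isClassFunction hx b hb s, h0, zero_mul]
  rfl

end LD

omit [Fact p.Prime] in
theorem preg_bp {K : Type u} [Group K] [Finite K] {K' : Type v} [Group K'] [Finite K'] (φ : K ≃* K')
    (b : Set (IrrCharacter K)) (ϑ : K' → ℂ) (s : K) :
    preg p (blockPart (irrMap φ '' b) ϑ) (φ s) = preg p (blockPart b (fun k => ϑ (φ k))) s := by
  have hos : orderOf (φ s) = orderOf s := orderOf_injective φ.toMonoidHom φ.injective s
  unfold preg
  rw [hos, blockPart_irrMap]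

/-- the conjugate element of `P` -/
abbrev cx {t : G} (ht : t ∈ stab (Subgroup.normalizer (P : Set G)) c) (x : P) : P :=
  ⟨t * (x : G) * t⁻¹, (Subgroup.mem_normalizer_iff.1 (stab_le _ _ ht) (x : G)).1 x.2⟩

namespace LD

variable (L : LD p B P c u ψ₀)
include L

theorem exists_nu {t : G} (ht : t ∈ stab (Subgroup.normalizer (P : Set G)) c)
    (htu : t ∈ Subgroup.normalizer ((Subgroup.zpowers u : Subgroup G) : Set G)) :
    ∃ ν : P →* ℂˣ, ∀ χ : G → ℂ, IsClassFunction G χ → ∀ x : P, u ∈ Subgroup.zpowers (x : G) →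
      L.rho χ (cx ht x) = (ν (cx ht x) : ℂ) * L.rho χ x := by
  have hα : ∀ g, g ∈ Cz u ↔ t⁻¹ * g * t ∈ Cz u := by
    have h1 := normalizer_le_normalizer_centralizer _ htu
    rw [SubsecNorm.centralizer_zpowers] at h1
    exact normalizer_iff h1
  set α := conjIso t hα with hαd
  have hψ₁ : irrMap α ψ₀ ∈ bu p P c u := by
    have h1 := pr_pair L.ab.pair (zpowers_le_of L.mem)
    have h2 : t ∈ stab (Subgroup.normalizer ((Subgroup.zpowers u : Subgroup G) : Set G))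
        (pr p P c (Subgroup.zpowers u)) :=
      stab_of_stab hasBlocks L.ab.pair (pr_spec L.ab.pair (zpowers_le_of L.mem)) ht htu
    have h3 : IsBlk (Cz u) (pr p P c (Subgroup.zpowers u)) := by
      have := h1.2
      rwa [SubsecNorm.centralizer_zpowers] at this
    have h4 := blkOf_cj t hα h3
    rw [h2.2] at h4
    show irrMap α ψ₀ ∈ blkOf M (Cz u) (pr p P c (Subgroup.zpowers u))
    rw [h4]
    exact ⟨ψ₀, L.memb, rfl⟩
  obtain ⟨θ, hθ⟩ := L.k.star_surj L.inn L.memb L.h0 ⟨irrMap α ψ₀, hψ₁⟩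
  have hab : ∀ a b : P.subgroupOf (Cz u), a * b = b * a := by
    intro a b
    apply Subtype.ext
    apply Subtype.ext
    exact (Subgroup.mem_centralizer_iff.1 (L.ab.ab (Subgroup.mem_subgroupOf.1 a.2)) _
      (Subgroup.mem_subgroupOf.1 b.2)).symm
  obtain ⟨f, hf⟩ := θ.2.isCharacter.exists_hom (θ.2.one_eq_one_of_comm hab)
  refine ⟨f.comp L.emE.toMonoidHom, ?_⟩
  intro χ hχ x hx
  obtain ⟨b, hb⟩ := (ctx_of L.mod L.ab).ple_bl x.2
  let y : P := cx ht x
  have huy : u ∈ Subgroup.zpowers (y : G) := by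
    have h1 : t⁻¹ * u * t ∈ Subgroup.zpowers u := (normalizer_iff htu u).1 (Subgroup.mem_zpowers u)
    obtain ⟨n, hn⟩ := Subgroup.mem_zpowers_iff.1 h1
    obtain ⟨m, hm⟩ := Subgroup.mem_zpowers_iff.1 hx
    refine Subgroup.mem_zpowers_iff.2 ⟨m * n, ?_⟩
    show (t * (x : G) * t⁻¹) ^ (m * n) = u
    rw [conj_zpow, zpow_mul, hm, hn]
    group
  let b' : Bl M (Cz (y : G)) := blTr M t (x : G) b
  have hle : PLE p (Subgroup.zpowers (y : G), bid M (Cz (y : G)) b'.1) (P, c) := by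
    have h1 := hb.cj t
    simp only at h1
    rw [H25BpLift.map_zpowers] at h1
    have e1 : P.map (MulAut.conj t).toMonoidHom = P := cg_of_mem_normalizer ht.1
    rw [e1, ht.2] at h1
    show PLE p (Subgroup.zpowers (t * (x : G) * t⁻¹), bid M (Cz (t * (x : G) * t⁻¹)) (blTr M t (x : G) b).1) (P, c)
    rw [bid_blTr]
    exact h1
  obtain ⟨s', hs'⟩ := L.D_ne_zero huy b' hle
  obtain ⟨s, rfl⟩ := (conjIso t (mem_Cz_conj t (x : G))).surjective s'
  have e1 := D_blTr (p := p) hχ t (x : G) b s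
  have e2 := L.D_rho hχ huy b' hle (conjIso t (mem_Cz_conj t (x : G)) s)
  have e3 := L.D_rho hχ hx b hb s
  have e4 : D p (L.ex y) (blSub (L.ex y) (L.cz_le huy) b').1 (irrMap α ψ₀ : Cz u → ℂ)
      (czEquiv (L.ex y) (L.cz_le huy) (conjIso t (mem_Cz_conj t (x : G)) s)) =
      D p (L.ex x) (blSub (L.ex x) (L.cz_le hx) b).1 (ψ₀ : Cz u → ℂ) (czEquiv (L.ex x) (L.cz_le hx) s) := by
    have a1 := preg_bp (p := p) (czEquiv (L.ex x) (L.cz_le hx)) b.1
      (fun s => (ψ₀ : Cz u → ℂ) (L.ex x * (s : Cz u))) s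
    have a2 := preg_bp (p := p) (czEquiv (L.ex y) (L.cz_le huy)) b'.1
      (fun s => (irrMap α ψ₀ : Cz u → ℂ) (L.ex y * (s : Cz u))) (conjIso t (mem_Cz_conj t (x : G)) s)
    have a3 := preg_bp (p := p) (conjIso t (mem_Cz_conj t (x : G))) b.1
      (fun s => (irrMap α ψ₀ : Cz u → ℂ) (L.ex y * (czEquiv (L.ex y) (L.cz_le huy) s : Cz u))) s
    refine a2.trans (a3.trans (Eq.trans ?_ a1.symm))
    congr 2
    funext k
    rw [irrMap_apply]
    refine congrArg (ψ₀ : Cz u → ℂ) ?_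
    apply Subtype.ext
    show t⁻¹ * ((t * (x : G) * t⁻¹) * (t * (k : G) * t⁻¹)) * t = (x : G) * (k : G)
    group
  have e5 : D p (L.ex y) (blSub (L.ex y) (L.cz_le huy) b').1 (irrMap α ψ₀ : Cz u → ℂ) =
      (f (L.em y) : ℂ) • D p (L.ex y) (blSub (L.ex y) (L.cz_le huy) b').1 (ψ₀ : Cz u → ℂ) := by
    have a1 := L.ple_sub huy b' hle
    have a2 : (irrMap α ψ₀ : Cz u → ℂ) = st p (P.subgroupOf (Cz u)) (BlockAlg.res (Cz u) c)
        (extendByZero (P.subgroupOf (Cz u)) (θ : P.subgroupOf (Cz u) → ℂ)) (ψ₀ : Cz u → ℂ) := by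
      rw [← L.k.star_coe L.inn L.memb L.h0 θ, hθ]
    rw [a2]
    have a3 := D_F L.mod (Wt p (P.subgroupOf (Cz u)) (BlockAlg.res (Cz u) c)
      (extendByZero (P.subgroupOf (Cz u)) (θ : P.subgroupOf (Cz u) → ℂ))) ψ₀.2.isClassFunction
      (PE_of_mem (p := p) L.k.pair.1 (L.em y).2) (blSub (L.ex y) (L.cz_le huy) b')
    refine a3.trans ?_
    rw [Wt_self (sta_of_class L.inn (ext_class θ)) a1, ← hf (L.em y)]
    congr 1
    exact IndFun.extendByZero_coe _ _ (L.em y)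
  have e6 := congrFun e5 (czEquiv (L.ex y) (L.cz_le huy) (conjIso t (mem_Cz_conj t (x : G)) s))
  rw [Pi.smul_apply, smul_eq_mul] at e6
  have e7 : L.rho χ y * D p (L.ex y) (blSub (L.ex y) (L.cz_le huy) b').1 (ψ₀ : Cz u → ℂ)
      (czEquiv (L.ex y) (L.cz_le huy) (conjIso t (mem_Cz_conj t (x : G)) s)) =
      ((f (L.em y) : ℂ) * L.rho χ x) * D p (L.ex y) (blSub (L.ex y) (L.cz_le huy) b').1 (ψ₀ : Cz u → ℂ)
      (czEquiv (L.ex y) (L.cz_le huy) (conjIso t (mem_Cz_conj t (x : G)) s)) := by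
    rw [← e2]
    refine e1.trans ?_
    rw [e3, ← e4, e6]
    ring
  exact mul_right_cancel₀ hs' e7

end LD

end loc

end Cfsg.Agent.Lib.CycDef
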