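import Cfsg.Agent.Lib.CycOrth

/-!
# Blocks with abelian defect groups and freely acting inertial quotient: vanishing on `p`-singular elements
-/

set_option autoImplicit false
set_option linter.all false

namespace Cfsg.Agent.Lib.CycDef

open Cfsg Cfsg.Agent.Lib.BlockRing Cfsg.Agent.Lib.BlockGA Cfsg.Agent.Lib.BlockAlg
open Cfsg.Agent.Lib.BlkIdem Cfsg.Agent.Lib.PairAlg Cfsg.Agent.Lib.PairMax
open Cfsg.Agent.Lib.BlockIdem Cfsg.Agent.Lib.BlockSecond Cfsg.Agent.Lib.BrauerPairs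
open Cfsg.Agent.Lib.BlkFus Cfsg.Agent.Lib.InducedPair Cfsg.Agent.Lib.DefPairs
open Cfsg.Agent.Lib.BlkFusDef Cfsg.Agent.Lib.BlkTransport Cfsg.Agent.Lib.AbCount
open Cfsg.Agent.Lib.AbFusion
open Cfsg.Agent.Lib.H25BpLift Cfsg.Agent.Lib.H25BpTw Cfsg.Agent.Lib.H25BpF Cfsg.Agent.Lib.H25BpI
open Cfsg.Agent.Lib.H25BpE Cfsg.Agent.Lib.H25BpG Cfsg.Agent.Lib.H25BpW Cfsg.Agent.Lib.H25BpM
open Cfsg.Agent.Lib.H25BpS
open Cfsg.Agent.Lib.BlockCount (Bl D)
open Cfsg.Agent.Lib.Subsec (Cz mem_Cz fs mem_fs)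
open scoped ComplexConjugate Classical Pointwise

universe u v

variable {p : ℕ} [hp : Fact p.Prime] {M : Ideal AlgInt} [hMm : M.IsMaximal] [hchar : CharP (Kf M) p]
  {G : Type u} [Group G] [Finite G] {B : Set (IrrCharacter G)} {P : Subgroup G} {c : MonoidAlgebra (Kf M) G}

namespace Free

variable {e : ℕ} (F : Free p B P c e) {ρ : IrrCharacter G → P → ℂ} (R : Rho p F.k ρ)
include F R

theorem D_sum_eq_zero (a : B → ℂ) [Fintype B] {x : P} (hx : x ≠ 1)
    (ha : ∑ φ : B, a φ * ρ φ x = 0) (b : Bl M (Cz (x : G)))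
    (hle : PLE p (Subgroup.zpowers (x : G), bid M (Cz (x : G)) b.1) (P, c)) :
    D p (x : G) b.1 (∑ φ : B, a φ • ((φ : IrrCharacter G) : G → ℂ)) = 0 := by
  have := Fintype.ofFinite (Cz (x : G))
  apply CharBasic.classInner_self_eq_zero.1
  rw [map_sum, IndFun.classInner_sum_left]
  have h1 : ∀ φ ψ : B, classInner (D p (x : G) b.1 (a φ • ((φ : IrrCharacter G) : G → ℂ)))
      (D p (x : G) b.1 (a ψ • ((ψ : IrrCharacter G) : G → ℂ))) =
      (Nat.card P : ℂ)⁻¹ * (a φ * ρ φ x) * conj (a ψ * ρ ψ x) := by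
    intro φ ψ
    have h2 := F.CI_eq_rho R φ ψ hx
    rw [F.k.fx_eq hle, CI_eq] at h2
    rw [map_smul, map_smul, IndFun.classInner_smul_left, IndFun.classInner_smul_right, h2, map_mul]
    ring
  have h3 : ∀ φ : B, classInner (D p (x : G) b.1 (a φ • ((φ : IrrCharacter G) : G → ℂ)))
      (∑ ψ : B, D p (x : G) b.1 (a ψ • ((ψ : IrrCharacter G) : G → ℂ))) = 0 := by
    intro φ
    rw [IndFun.classInner_sum_right, Finset.sum_congr rfl (fun ψ _ => h1 φ ψ), ← Finset.mul_sum,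
      ← map_sum, ha, map_zero, mul_zero]
  exact Finset.sum_eq_zero fun φ _ => h3 φ

theorem sing (a : IrrCharacter G → ℂ) (ha : ∀ x : P, x ≠ 1 → ∑ φ ∈ fs B, a φ * ρ φ x = 0) {g : G}
    (hg : p ∣ orderOf g) : ∑ φ ∈ fs B, a φ * (φ : G → ℂ) g = 0 := by
  have := Fintype.ofFinite B
  obtain ⟨k, hk⟩ := pp_order p g
  have hu1 : pp p g ≠ 1 := by
    intro h1
    have h2 := pp_mul_pq p g
    rw [h1, one_mul] at h2
    exact pq_order p g (by rw [h2]; exact hg)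
  have h1 := BlockCount.section_eq_zero F.mod F.ab.blk (fun φ : B => a φ) hk ?_
    ⟨pq p g, mem_Cz.2 (pp_comm p g)⟩ (by rw [← Subgroup.orderOf_coe]; exact pq_order p g)
  · rw [show pp p g * ((⟨pq p g, mem_Cz.2 (pp_comm p g)⟩ : Cz (pp p g)) : G) = g from pp_mul_pq p g,
      Finset.sum_apply] at h1
    rw [Subsec.sum_fs]
    exact h1
  · intro b hind
    have hfc : IsClassFunction G (∑ φ : B, a φ • ((φ : IrrCharacter G) : G → ℂ)) :=
      CharBasic.isClassFunction_sum _ _ fun χ _ => χ.1.2.isClassFunction.smul _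
    obtain ⟨g', hg'⟩ := F.k.exists_into (pp_order p g) ⟨b, hind.1⟩ hind
    rw [cg_zpowers] at hg'
    have hxP : g' * pp p g * g'⁻¹ ∈ P := hg'.le (Subgroup.mem_zpowers _)
    let x : P := ⟨g' * pp p g * g'⁻¹, hxP⟩
    have hx1 : x ≠ 1 := by
      intro h2
      have h3 : g' * pp p g * g'⁻¹ = 1 := congrArg Subtype.val h2
      rw [conj_eq_one_iff] at h3
      exact hu1 h3
    have hle : PLE p (Subgroup.zpowers (x : G), bid M (Cz (x : G)) (blTr M g' (pp p g) ⟨b, hind.1⟩).1) (P, c) := by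
      show PLE p (Subgroup.zpowers (g' * pp p g * g'⁻¹),
        bid M (Cz (g' * pp p g * g'⁻¹)) (blTr M g' (pp p g) ⟨b, hind.1⟩).1) (P, c)
      rw [bid_blTr]
      exact hg'
    have h2 := F.D_sum_eq_zero R (fun φ : B => a φ) hx1 (by
      have := ha x hx1
      rwa [Subsec.sum_fs] at this) (blTr M g' (pp p g) ⟨b, hind.1⟩) hle
    funext s
    have h3 := D_blTr (p := p) hfc g' (pp p g) ⟨b, hind.1⟩ s
    rw [← h3]
    exact congrFun h2 _

end Free

end Cfsg.Agent.Lib.CycDef
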