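import Cfsg.Agent.Lib.H25BpY
import Cfsg.Agent.Lib.AbLocal

/-!
# Transport of the local components of class functions along isomorphisms
-/

set_option autoImplicit false
set_option linter.all false

namespace Cfsg.Agent.Lib.CycDef

open Cfsg Cfsg.Agent.Lib.BlockRing Cfsg.Agent.Lib.BlockGA Cfsg.Agent.Lib.BlockAlg
open Cfsg.Agent.Lib.BlkIdem Cfsg.Agent.Lib.PairAlg Cfsg.Agent.Lib.PairMax
open Cfsg.Agent.Lib.BlockIdem Cfsg.Agent.Lib.BlockSecond Cfsg.Agent.Lib.BrauerPairs
open Cfsg.Agent.Lib.BlkFus Cfsg.Agent.Lib.InducedPair Cfsg.Agent.Lib.DefPairs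
open Cfsg.Agent.Lib.BlkFusDef Cfsg.Agent.Lib.BlkTransport Cfsg.Agent.Lib.AbCount
open Cfsg.Agent.Lib.NormalPBlk (cid cj_cid)
open Cfsg.Agent.Lib.H25BpLift Cfsg.Agent.Lib.H25BpTw Cfsg.Agent.Lib.H25BpF Cfsg.Agent.Lib.H25BpI
open Cfsg.Agent.Lib.H25BpE Cfsg.Agent.Lib.H25BpG Cfsg.Agent.Lib.H25BpW Cfsg.Agent.Lib.H25BpM
open Cfsg.Agent.Lib.H25BpS
open Cfsg.Agent.Lib.BlockCount (Bl D rsp rsp_orth sum_blockPart)
open Cfsg.Agent.Lib.Subsec (Cz mem_Cz D_reg D_not_reg D_mem al al_eq al_mem fs mem_fs al_ne_zero al_ne_zero')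
open Cfsg.Agent.Lib (BrauerMap.br BrauerMap.cj BrauerMap.fixAlg BrauerMap.suppAlg)
open MonoidAlgebra (single)
open scoped ComplexConjugate Classical Pointwise

universe u v

section iso

variable {K : Type u} [Group K] [Finite K] {K' : Type v} [Group K'] [Finite K'] (φ : K ≃* K')

theorem classInner_comp (f g : K' → ℂ) [Fintype K] [Fintype K'] :
    classInner (fun k => f (φ k)) (fun k => g (φ k)) = classInner f g := by
  unfold classInner
  rw [Nat.card_congr φ.toEquiv]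
  congr 1
  exact Equiv.sum_comp φ.toEquiv (fun k => f k * conj (g k))

theorem blockPart_irrMap (b : Set (IrrCharacter K)) (ϑ : K' → ℂ) (k : K) :
    blockPart (irrMap φ '' b) ϑ (φ k) = blockPart b (fun k => ϑ (φ k)) k := by
  have := Fintype.ofFinite K
  have := Fintype.ofFinite K'
  unfold blockPart
  rw [finsum_mem_image (irrMap φ).injective.injOn]
  refine finsum_mem_congr rfl fun χ _ => ?_
  rw [irrMap_apply, MulEquiv.symm_apply_apply]
  congr 1
  have h1 := @classInner_comp K _ _ K' _ _ φ ϑ (irrMap φ χ : K' → ℂ) (Fintype.ofFinite K) (Fintype.ofFinite K')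
  rw [← h1]
  congr 1
  funext k
  rw [irrMap_apply, MulEquiv.symm_apply_apply]

end iso

section D

variable {p : ℕ} {G : Type u} [Group G] [Finite G] {G' : Type v} [Group G'] [Finite G']

theorem D_transport {x : G} {x' : G'} (ι : Cz x ≃* Cz x') {χ : G → ℂ} {ψ : G' → ℂ}
    (hχψ : ∀ c : Cz x, ψ (x' * (ι c : G')) = χ (x * (c : G))) (b : Set (IrrCharacter (Cz x))) (s : Cz x) :
    D p x' (irrMap ι '' b) ψ (ι s) = D p x b χ s := by
  have hos : orderOf (ι s) = orderOf s := orderOf_injective ι.toMonoidHom ι.injective s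
  by_cases hs : p ∣ orderOf s
  · rw [D_not_reg hs, D_not_reg (by rw [hos]; exact hs)]
  · rw [D_reg hs, D_reg (by rw [hos]; exact hs), blockPart_irrMap]
    congr 1
    funext c
    exact hχψ c

end D

section sub

variable {p : ℕ} [hp : Fact p.Prime] {M : Ideal AlgInt} [hMm : M.IsMaximal] [hchar : CharP (Kf M) p]
  {G : Type u} [Group G] [Finite G] {H : Subgroup G}

/-- centralizers of elements in a subgroup containing the centralizer -/
def czEquiv (x : H) (hx : Cz (x : G) ≤ H) : Cz (x : G) ≃* Cz x where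
  toFun c := ⟨⟨c, hx c.2⟩, mem_Cz.2 (Subtype.ext (mem_Cz.1 c.2))⟩
  invFun c := ⟨(c : H), mem_Cz.2 (congrArg Subtype.val (mem_Cz.1 c.2))⟩
  left_inv c := rfl
  right_inv c := rfl
  map_mul' c d := rfl

theorem czEquiv_coe (x : H) (hx : Cz (x : G) ≤ H) (c : Cz (x : G)) : (((czEquiv x hx c : Cz x) : H) : G) = c := rfl

theorem inc_bid_cz (x : H) (hx : Cz (x : G) ≤ H) (b : Set (IrrCharacter (Cz (x : G)))) :
    inc H (bid M (Cz x) (irrMap (czEquiv x hx) '' b)) = bid M (Cz (x : G)) b := by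
  apply BrauerMap.ext_coeff; intro g
  by_cases hg : g ∈ Cz (x : G)
  · have hgH := hx hg
    have h1 := inc_coeff_coe (M := M) H (bid M (Cz x) (irrMap (czEquiv x hx) '' b)) ⟨g, hgH⟩
    have h2 := bid_coeff_coe (M := M) (Cz x) (irrMap (czEquiv x hx) '' b) (czEquiv x hx ⟨g, hg⟩)
    have h3 := bid_coeff_coe (M := M) (Cz (x : G)) b ⟨g, hg⟩
    rw [h1]
    rw [blockCoeff_irrMap] at h2
    rw [show ((⟨g, hg⟩ : Cz (x : G)) : G) = g from rfl] at h3
    rw [h3, ← h2]
    rfl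
  · rw [bid_coeff_not_mem _ _ hg]
    by_cases hgH : g ∈ H
    · have h1 := inc_coeff_coe (M := M) H (bid M (Cz x) (irrMap (czEquiv x hx) '' b)) ⟨g, hgH⟩
      rw [show ((⟨g, hgH⟩ : H) : G) = g from rfl] at h1
      rw [h1]
      apply bid_coeff_not_mem
      intro h2
      exact hg (mem_Cz.2 (congrArg Subtype.val (mem_Cz.1 h2)))
    · exact inc_coeff_not_mem _ _ hgH

/-- local components of the restriction -/
theorem D_res (x : H) (hx : Cz (x : G) ≤ H) (χ : G → ℂ) (b : Set (IrrCharacter (Cz (x : G)))) (s : Cz (x : G)) :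
    D p x (irrMap (czEquiv x hx) '' b) (fun h : H => χ h) (czEquiv x hx s) = D p (x : G) b χ s :=
  D_transport (czEquiv x hx) (fun _ => rfl) b s

end sub

end Cfsg.Agent.Lib.CycDef
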