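import Mathlib
import Cfsg.Agent.Lib.UniqueInvolution

/-!
# `p`-groups with a cyclic maximal subgroup (helper2)
-/

set_option autoImplicit false

open Subgroup
open scoped commutatorElement

namespace Cfsg.Agent.Lib.CyclicMaximal

variable {G : Type*} [Group G]

/-- If `r^p ≡ 1 mod p^m`, `p` odd, `m ≥ 1`, then `r ≡ 1 mod p^(m-1)` (and mod `p`). -/
theorem dvd_of_pow_odd {p : ℕ} (hp : p.Prime) (hp2 : p ≠ 2) {m : ℕ} (hm : 1 ≤ m) {r : ℤ}
    (h : ((p : ℤ) ^ m) ∣ r ^ p - 1) : ((p : ℤ) ^ (m - 1)) ∣ r - 1 := by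
  have hf : Fact p.Prime := ⟨hp⟩
  have h1 : (p : ℤ) ∣ r - 1 := by
    have h2 : (p : ℤ) ∣ r ^ p - 1 := (dvd_pow_self (p : ℤ) (by omega)).trans h
    have h3 : (p : ℤ) ∣ r ^ p - r := by
      have h4 : ((r : ZMod p)) ^ p = (r : ZMod p) := ZMod.pow_card _
      have h5 : ((r ^ p - r : ℤ) : ZMod p) = 0 := by push_cast; rw [h4, sub_self]
      exact (ZMod.intCast_zmod_eq_zero_iff_dvd _ p).mp h5
    have h6 := dvd_sub h2 h3
    have e : r ^ p - 1 - (r ^ p - r) = r - 1 := by ring
    rwa [e] at h6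
  obtain ⟨S, hS, hSp⟩ := UniqueInvolution.geom_odd hp hp2 h1
  have h2 : r ^ p - 1 = (r - 1) * (p * S) := by
    rw [← hS, mul_comm]
    exact (geom_sum_mul r p).symm
  rw [h2] at h
  obtain ⟨k, rfl⟩ : ∃ k, m = k + 1 := ⟨m - 1, by omega⟩
  rw [Nat.add_sub_cancel]
  have h3 : (p : ℤ) ^ k ∣ (r - 1) * S := by
    have hp0 : (p : ℤ) ≠ 0 := by exact_mod_cast hp.ne_zero
    apply (mul_dvd_mul_iff_left hp0).mp
    rw [← pow_succ']
    have e : (p : ℤ) * ((r - 1) * S) = (r - 1) * (p * S) := by ring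
    rwa [e]
  have hcop : IsCoprime ((p : ℤ) ^ k) S := by
    apply IsCoprime.pow_left
    exact (Prime.coprime_iff_not_dvd (Nat.prime_iff_prime_int.1 hp)).2 hSp
  exact hcop.dvd_of_dvd_mul_right h3

theorem zpow_eq_one_iff {a : G} {N : ℕ} (ha : orderOf a = N) (t : ℤ) : a ^ t = 1 ↔ (N : ℤ) ∣ t := by
  rw [← ha, orderOf_dvd_iff_zpow_eq_one]

/-- odd `p`. -/
theorem odd_case [Finite G] {p : ℕ} [hp : Fact p.Prime] (hp2 : p ≠ 2) {n : ℕ} (hn : 3 ≤ n)
    (hG : Nat.card G = p ^ n) (C : Subgroup G) (hC : IsCyclic C) (hCi : C.index = p)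
    (hna : ∃ x y : G, x * y ≠ y * x) :
    ∃ a b : G, orderOf a = p ^ (n - 1) ∧ orderOf b = p ∧ b ∉ zpowers a ∧ b * a * b⁻¹ = a ^ (1 + p ^ (n - 2)) := by
  obtain ⟨⟨a, haC⟩, ha⟩ := hC
  have hGp : IsPGroup p G := IsPGroup.of_card hG
  have hCa : C = zpowers a := by
    apply le_antisymm
    · intro x hx
      obtain ⟨k, hk⟩ := ha ⟨x, hx⟩
      exact ⟨k, congrArg Subtype.val hk⟩
    · rwa [zpowers_le]
  subst hCa
  have hao : orderOf a = p ^ (n - 1) := by
    have h1 := (zpowers a).index_mul_card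
    rw [Nat.card_zpowers, hCi, hG] at h1
    obtain ⟨m, rfl⟩ : ∃ m, n = m + 1 := ⟨n - 1, by omega⟩
    rw [pow_succ'] at h1
    rw [Nat.add_sub_cancel]
    exact Nat.eq_of_mul_eq_mul_left hp.out.pos h1
  have hCn : (zpowers a).Normal := by
    have hnil := hGp.isNilpotent
    have hco : IsCoatom (zpowers a) := by
      constructor
      · intro h
        rw [h, index_top] at hCi
        exact hp.out.one_lt.ne hCi
      · intro K hK
        have h1 : K.index ∣ p := hCi ▸ Subgroup.index_dvd_of_le hK.le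
        rcases (Nat.dvd_prime hp.out).mp h1 with h2 | h2
        · exact Subgroup.index_eq_one.mp h2
        · exfalso
          have := Subgroup.index_strictAnti hK
          omega
    exact Subgroup.NormalizerCondition.normal_of_coatom _ Group.normalizerCondition_of_isNilpotent hco
  obtain ⟨x, hx⟩ : ∃ x : G, x ∉ zpowers a := by
    by_contra hall
    push Not at hall
    have : zpowers a = ⊤ := eq_top_iff.mpr (fun g _ => hall g)
    rw [this, index_top] at hCi
    exact hp.out.one_lt.ne hCi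
  -- every element is `a^i x^j`
  have htop : zpowers a ⊔ zpowers x = ⊤ := by
    have h1 : (zpowers a ⊔ zpowers x).index ∣ p := hCi ▸ Subgroup.index_dvd_of_le le_sup_left
    rcases (Nat.dvd_prime hp.out).mp h1 with h2 | h2
    · exact Subgroup.index_eq_one.mp h2
    · exfalso
      have h3 : zpowers a < zpowers a ⊔ zpowers x := by
        refine lt_of_le_of_ne le_sup_left (fun h => hx ?_)
        rw [h]
        exact mem_sup_right (mem_zpowers x)
      have := Subgroup.index_strictAnti h3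
      omega
  have hnc : ¬ x * a = a * x := by
    intro hc
    obtain ⟨u, v, huv⟩ := hna
    apply huv
    have hle : (⊤ : Subgroup G) ≤ centralizer {a} := by
      rw [← htop, sup_le_iff, zpowers_le, zpowers_le]
      exact ⟨by rw [mem_centralizer_singleton_iff], by rw [mem_centralizer_singleton_iff]; exact hc⟩
    have hac : ∀ g : G, Commute g a := fun g => by
      have := hle (mem_top g)
      rw [mem_centralizer_singleton_iff] at this
      exact this
    have hle2 : (⊤ : Subgroup G) ≤ centralizer {x} := by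
      rw [← htop, sup_le_iff, zpowers_le, zpowers_le]
      exact ⟨by rw [mem_centralizer_singleton_iff]; exact hc.symm, by rw [mem_centralizer_singleton_iff]⟩
    have hxc : ∀ g : G, Commute g x := fun g => by
      have := hle2 (mem_top g)
      rw [mem_centralizer_singleton_iff] at this
      exact this
    have hu : u ∈ zpowers a ⊔ zpowers x := htop ▸ mem_top u
    obtain ⟨_, ⟨i, rfl⟩, _, ⟨j, rfl⟩, rfl⟩ := (Subgroup.mem_sup_of_normal_left).mp hu
    exact (((hac v).symm.zpow_left i).mul_left ((hxc v).symm.zpow_left j)).eq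
  have hxp : x ^ p ∈ zpowers a := by
    have h1 := Subgroup.pow_index_mem (H := zpowers a) x
    rwa [hCi] at h1
  obtain ⟨r, hr⟩ := hCn.conj_mem a (mem_zpowers a) x
  simp only at hr
  replace hr := hr.symm
  have hconj : ∀ (k : ℕ), x ^ k * a * (x ^ k)⁻¹ = a ^ (r ^ k) := by
    intro k
    induction k with
    | zero => simp
    | succ k ih =>
      calc x ^ (k + 1) * a * (x ^ (k + 1))⁻¹ = x * (x ^ k * a * (x ^ k)⁻¹) * x⁻¹ := by rw [pow_succ']; group
        _ = (x * a * x⁻¹) ^ (r ^ k) := by rw [ih, conj_zpow]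
        _ = a ^ (r ^ (k + 1)) := by rw [hr, ← zpow_mul, pow_succ']
  have hrp : ((p : ℤ) ^ (n - 1)) ∣ r ^ p - 1 := by
    have h1 := hconj p
    have h2 : Commute (x ^ p) a := by
      obtain ⟨s, hs⟩ := hxp
      simp only at hs
      rw [← hs]
      exact (Commute.refl a).zpow_left s
    rw [h2.eq, mul_inv_cancel_right] at h1
    have h3 : a ^ (r ^ p - 1) = 1 := by rw [zpow_sub, zpow_one, ← h1, mul_inv_cancel]
    have h4 := (zpow_eq_one_iff hao _).mp h3
    exact_mod_cast h4
  have hdvd := dvd_of_pow_odd hp.out hp2 (by omega) hrp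
  have hn2 : n - 1 - 1 = n - 2 := by omega
  rw [hn2] at hdvd
  obtain ⟨k, hk⟩ := hdvd
  have hP : Prime (p : ℤ) := Nat.prime_iff_prime_int.1 hp.out
  have hkp : ¬ (p : ℤ) ∣ k := by
    rintro ⟨l, rfl⟩
    apply hnc
    have h1 : a ^ (r - 1) = 1 := by
      rw [zpow_eq_one_iff hao]
      push_cast
      refine ⟨l, ?_⟩
      rw [hk]
      have : n - 1 = (n - 2) + 1 := by omega
      rw [this, pow_succ]; ring
    have h2 : x * a * x⁻¹ = a := by
      rw [hr]
      have : r = (r - 1) + 1 := by ring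
      rw [this, zpow_add, h1, one_mul, zpow_one]
    calc x * a = x * a * x⁻¹ * x := by group
      _ = a * x := by rw [h2]
  -- the central element `c = a^(p^(n-2))`
  set c : G := a ^ (p ^ (n - 2)) with hc
  have hcp : c ^ p = 1 := by
    rw [hc, ← pow_mul, ← pow_succ]
    have : n - 2 + 1 = n - 1 := by omega
    rw [this, ← hao, pow_orderOf_eq_one]
  have hcz : ∀ t : ℤ, (p : ℤ) ∣ t → c ^ t = 1 := by
    rintro _ ⟨t, rfl⟩
    rw [zpow_mul, zpow_natCast, hcp, one_zpow]
  have hxa : x * a * x⁻¹ = a * c ^ k := by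
    rw [hr, hc, ← zpow_natCast, ← zpow_mul, ← zpow_one_add]
    congr 1
    push_cast
    linarith
  have hxc : x * c = c * x := by
    have h1 : x * c * x⁻¹ = c := by
      rw [hc, ← conj_pow, hxa]
      have h2 : Commute a (c ^ k) := by
        rw [hc]
        exact ((Commute.refl a).pow_right _).zpow_right _
      rw [h2.mul_pow, ← zpow_natCast (c ^ k), ← zpow_mul]
      have h3 : c ^ (k * ((p ^ (n - 2) : ℕ) : ℤ)) = 1 := by
        apply hcz
        apply Dvd.dvd.mul_left
        push_cast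
        exact dvd_pow_self _ (by omega)
      rw [h3, mul_one]
    calc x * c = x * c * x⁻¹ * x := by group
      _ = c * x := by rw [h1]
  -- commutation rule
  have hrule : ∀ i : ℤ, x * a ^ i * x⁻¹ = a ^ i * c ^ (k * i) := by
    intro i
    have h2 : Commute a (c ^ k) := by
      rw [hc]
      exact ((Commute.refl a).pow_right _).zpow_right _
    rw [← conj_zpow, hxa, h2.mul_zpow, ← zpow_mul]
  -- choose the power of x
  obtain ⟨u, v, huv⟩ : ∃ u v : ℤ, u * k + v * p = 1 := by
    have hcop : IsCoprime (p : ℤ) k := (Prime.coprime_iff_not_dvd hP).2 hkp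
    obtain ⟨v, u, h⟩ := hcop
    exact ⟨u, v, by linarith⟩
  set y : G := x ^ u with hy
  have hxcc : Commute x c := hxc
  have hrule2 : ∀ (i j : ℤ), x ^ j * a ^ i * (x ^ j)⁻¹ = a ^ i * c ^ (k * i * j) := by
    intro i j
    have hxci : ∀ t : ℤ, Commute x (c ^ t) := fun t => hxcc.zpow_right t
    induction j using Int.induction_on with
    | zero => simp
    | succ j ih =>
      rw [zpow_add_one]
      calc x ^ (j : ℤ) * x * a ^ i * (x ^ (j : ℤ) * x)⁻¹ = x ^ (j : ℤ) * (x * a ^ i * x⁻¹) * (x ^ (j : ℤ))⁻¹ := by group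
        _ = x ^ (j : ℤ) * (a ^ i * c ^ (k * i)) * (x ^ (j : ℤ))⁻¹ := by rw [hrule]
        _ = (x ^ (j : ℤ) * a ^ i * (x ^ (j : ℤ))⁻¹) * (x ^ (j : ℤ) * c ^ (k * i) * (x ^ (j : ℤ))⁻¹) := by group
        _ = a ^ i * c ^ (k * i * j) * c ^ (k * i) := by
            rw [ih, ((hxci (k * i)).zpow_left (j : ℤ)).eq, mul_inv_cancel_right]
        _ = a ^ i * c ^ (k * i * (j + 1)) := by
            rw [mul_assoc, ← zpow_add]
            congr 2
            ring
    | pred j ih =>
      rw [zpow_sub_one]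
      have h5 : x⁻¹ * a ^ i * x = a ^ i * c ^ (-(k * i)) := by
        have h6 := hrule i
        have h7 : x⁻¹ * (a ^ i * c ^ (k * i)) * x = a ^ i := by rw [← h6]; group
        have h8 : x⁻¹ * (a ^ i * c ^ (k * i)) * x = x⁻¹ * a ^ i * x * c ^ (k * i) := by
          have := (hxci (k * i)).eq
          calc x⁻¹ * (a ^ i * c ^ (k * i)) * x = x⁻¹ * a ^ i * (c ^ (k * i) * x) := by group
            _ = x⁻¹ * a ^ i * (x * c ^ (k * i)) := by rw [this]
            _ = _ := by group
        rw [h8] at h7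
        rw [zpow_neg, eq_mul_inv_iff_mul_eq]
        exact h7
      calc x ^ (-(j : ℤ)) * x⁻¹ * a ^ i * (x ^ (-(j : ℤ)) * x⁻¹)⁻¹
          = x ^ (-(j : ℤ)) * (x⁻¹ * a ^ i * x) * (x ^ (-(j : ℤ)))⁻¹ := by group
        _ = x ^ (-(j : ℤ)) * (a ^ i * c ^ (-(k * i))) * (x ^ (-(j : ℤ)))⁻¹ := by rw [h5]
        _ = (x ^ (-(j : ℤ)) * a ^ i * (x ^ (-(j : ℤ)))⁻¹) * (x ^ (-(j : ℤ)) * c ^ (-(k * i)) * (x ^ (-(j : ℤ)))⁻¹) := by
            group
        _ = a ^ i * c ^ (k * i * (-(j : ℤ))) * c ^ (-(k * i)) := by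
            rw [ih, ((hxci (-(k * i))).zpow_left (-(j : ℤ))).eq, mul_inv_cancel_right]
        _ = a ^ i * c ^ (k * i * (-(j : ℤ) - 1)) := by
            rw [mul_assoc, ← zpow_add]
            congr 2
            ring
  have hya : y * a * y⁻¹ = a * c := by
    have h1 := hrule2 1 u
    rw [zpow_one, mul_one] at h1
    rw [hy, h1]
    congr 1
    have : k * u = 1 - v * p := by linarith
    rw [this, zpow_sub, zpow_one, hcz (v * p) (Dvd.intro_left _ rfl), inv_one, mul_one]
  have hyC : y ∉ zpowers a := by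
    rintro ⟨i, hi⟩
    simp only at hi
    have h1 : y * a * y⁻¹ = a := by rw [← hi]; group
    rw [hya] at h1
    have h2 : c = 1 := by simpa using h1
    have h3 : orderOf a ∣ p ^ (n - 2) := orderOf_dvd_of_pow_eq_one h2
    rw [hao] at h3
    have := (Nat.pow_dvd_pow_iff_le_right hp.out.one_lt).mp h3
    omega
  have hyp : y ^ p ∈ zpowers a := by
    have h1 := Subgroup.pow_index_mem (H := zpowers a) y
    rwa [hCi] at h1
  obtain ⟨s, hs⟩ := hyp
  simp only at hs
  -- y^p commutes with y so p | s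
  have hps : (p : ℤ) ∣ s := by
    have h1 : y * a ^ s * y⁻¹ = a ^ s := by rw [hs]; group
    have h2 : y * a ^ s * y⁻¹ = a ^ s * c ^ s := by
      rw [← conj_zpow, hya]
      have h2 : Commute a c := by
        rw [hc]
        exact (Commute.refl a).pow_right _
      rw [h2.mul_zpow]
    rw [h2] at h1
    have h3 : c ^ s = 1 := by simpa using h1
    have hco : orderOf c = p := by
      apply orderOf_eq_prime hcp
      intro h4
      have h3 : orderOf a ∣ p ^ (n - 2) := orderOf_dvd_of_pow_eq_one h4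
      rw [hao] at h3
      have := (Nat.pow_dvd_pow_iff_le_right hp.out.one_lt).mp h3
      omega
    exact (zpow_eq_one_iff hco s).mp h3
  obtain ⟨t, rfl⟩ := hps
  -- b = a^(-t) y
  have hac : Commute a c := by
    rw [hc]
    exact (Commute.refl a).pow_right _
  have hyc : Commute y c := hxcc.zpow_left u
  have hpow : ∀ m : ℕ, (a ^ (-t) * y) ^ m = a ^ (-t * m) * y ^ m * c ^ (-t * (m.choose 2 : ℤ)) := by
    intro m
    induction m with
    | zero => simp
    | succ m ih =>
      have h1 : y ^ m * a ^ (-t) = a ^ (-t) * y ^ m * c ^ (-t * m) := by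
        have hyrule : ∀ m : ℕ, y ^ m * a ^ (-t) * (y ^ m)⁻¹ = a ^ (-t) * c ^ (-t * m) := by
          intro m
          induction m with
          | zero => simp
          | succ m ih2 =>
            have h3 : y * a ^ (-t) * y⁻¹ = a ^ (-t) * c ^ (-t) := by
              rw [← conj_zpow, hya, hac.mul_zpow]
            calc y ^ (m + 1) * a ^ (-t) * (y ^ (m + 1))⁻¹ = y * (y ^ m * a ^ (-t) * (y ^ m)⁻¹) * y⁻¹ := by
                  rw [pow_succ']; group
              _ = y * (a ^ (-t) * c ^ (-t * m)) * y⁻¹ := by rw [ih2]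
              _ = (y * a ^ (-t) * y⁻¹) * (y * c ^ (-t * (m : ℤ)) * y⁻¹) := by group
              _ = a ^ (-t) * c ^ (-t) * c ^ (-t * (m : ℤ)) := by
                  rw [h3, (hyc.zpow_right _).eq, mul_inv_cancel_right]
              _ = a ^ (-t) * c ^ (-t * ((m + 1 : ℕ) : ℤ)) := by
                  rw [mul_assoc, ← zpow_add]
                  congr 2
                  push_cast; ring
        have h4 := hyrule m
        calc y ^ m * a ^ (-t) = (y ^ m * a ^ (-t) * (y ^ m)⁻¹) * y ^ m := by group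
          _ = a ^ (-t) * c ^ (-t * (m : ℤ)) * y ^ m := by rw [h4]
          _ = a ^ (-t) * (c ^ (-t * (m : ℤ)) * y ^ m) := by group
          _ = a ^ (-t) * (y ^ m * c ^ (-t * (m : ℤ))) := by rw [((hyc.pow_left m).zpow_right _).eq]
          _ = _ := by group
      have h2 : c ^ (-t * (m.choose 2 : ℤ)) * (a ^ (-t) * y) = (a ^ (-t) * y) * c ^ (-t * (m.choose 2 : ℤ)) :=
        (((hac.zpow_left (-t)).zpow_right _).mul_left (hyc.zpow_right _)).eq.symm
      rw [pow_succ, ih]
      calc a ^ (-t * (m : ℤ)) * y ^ m * c ^ (-t * (m.choose 2 : ℤ)) * (a ^ (-t) * y)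
          = a ^ (-t * (m : ℤ)) * y ^ m * (c ^ (-t * (m.choose 2 : ℤ)) * (a ^ (-t) * y)) := by group
        _ = a ^ (-t * (m : ℤ)) * y ^ m * ((a ^ (-t) * y) * c ^ (-t * (m.choose 2 : ℤ))) := by rw [h2]
        _ = a ^ (-t * (m : ℤ)) * (y ^ m * a ^ (-t)) * y * c ^ (-t * (m.choose 2 : ℤ)) := by group
        _ = a ^ (-t * (m : ℤ)) * (a ^ (-t) * y ^ m * c ^ (-t * (m : ℤ))) * y * c ^ (-t * (m.choose 2 : ℤ)) := by rw [h1]
        _ = a ^ (-t * (m : ℤ)) * a ^ (-t) * y ^ m * (c ^ (-t * (m : ℤ)) * y) * c ^ (-t * (m.choose 2 : ℤ)) := by group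
        _ = a ^ (-t * (m : ℤ)) * a ^ (-t) * y ^ m * (y * c ^ (-t * (m : ℤ))) * c ^ (-t * (m.choose 2 : ℤ)) := by
            rw [(hyc.zpow_right (-t * (m : ℤ))).eq]
        _ = (a ^ (-t * (m : ℤ)) * a ^ (-t)) * (y ^ m * y) * (c ^ (-t * (m : ℤ)) * c ^ (-t * (m.choose 2 : ℤ))) := by
            group
        _ = a ^ (-t * ((m + 1 : ℕ) : ℤ)) * y ^ (m + 1) * c ^ (-t * ((m + 1).choose 2 : ℤ)) := by
            rw [← zpow_add, ← zpow_add, ← pow_succ]
            congr 2
            · congr 1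
              congr 1
              push_cast; ring
            · rw [Nat.choose_succ_succ' m 1, Nat.choose_one_right]
              push_cast; ring
  refine ⟨a, a ^ (-t) * y, hao, ?_, ?_, ?_⟩
  · apply orderOf_eq_prime
    · rw [hpow p, ← hs, ← zpow_add]
      have h1 : -t * (p : ℤ) + (p : ℤ) * t = 0 := by ring
      rw [h1, zpow_zero, one_mul]
      apply hcz
      apply Dvd.dvd.mul_left
      exact_mod_cast hp.out.dvd_choose_self (by norm_num) (lt_of_le_of_ne hp.out.two_le (Ne.symm hp2))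
    · intro h
      apply hyC
      have h1 : y = a ^ t := by
        calc y = a ^ t * (a ^ (-t) * y) := by group
          _ = a ^ t := by rw [h, mul_one]
      rw [h1]
      exact ⟨t, rfl⟩
  · intro h
    apply hyC
    have h1 : y = a ^ t * (a ^ (-t) * y) := by group
    rw [h1]
    exact mul_mem ⟨t, rfl⟩ h
  · calc a ^ (-t) * y * a * (a ^ (-t) * y)⁻¹ = a ^ (-t) * (y * a * y⁻¹) * (a ^ (-t))⁻¹ := by group
      _ = a ^ (-t) * (a * c) * (a ^ (-t))⁻¹ := by rw [hya]
      _ = a * c := by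
          have h1 := (hac.zpow_left (-t)).eq
          calc a ^ (-t) * (a * c) * (a ^ (-t))⁻¹ = a * (a ^ (-t) * c) * (a ^ (-t))⁻¹ := by group
            _ = a * (c * a ^ (-t)) * (a ^ (-t))⁻¹ := by rw [h1]
            _ = a * c := by group
      _ = a ^ (1 + p ^ (n - 2)) := by rw [pow_add, pow_one, hc]

/-- `r² ≡ 1 mod 2^(m+1)` implies `r ≡ ±1 mod 2^m`. -/
theorem dvd_of_sq {m : ℕ} {r : ℤ} (h : ((2 : ℤ) ^ (m + 1)) ∣ r ^ 2 - 1) :
    ((2 : ℤ) ^ m) ∣ r - 1 ∨ ((2 : ℤ) ^ m) ∣ r + 1 := by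
  have h2 : (2 : ℤ) ∣ r ^ 2 - 1 := (dvd_pow_self (2 : ℤ) (by omega)).trans h
  have hodd : Odd r := by
    rcases Int.even_or_odd r with h3 | h3
    · exfalso
      obtain ⟨s, rfl⟩ := h3
      obtain ⟨t, ht⟩ := h2
      have : (s + s) ^ 2 = 2 * (2 * s ^ 2) := by ring
      omega
    · exact h3
  obtain ⟨s, hs⟩ := hodd
  have h3 : r ^ 2 - 1 = 4 * (s * (s + 1)) := by rw [hs]; ring
  rcases Nat.eq_zero_or_pos m with rfl | hm
  · left; simp
  obtain ⟨l, rfl⟩ : ∃ l, m = l + 1 := ⟨m - 1, by omega⟩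
  rw [h3] at h
  have h4 : (2 : ℤ) ^ l ∣ s * (s + 1) := by
    have e : (2 : ℤ) ^ (l + 1 + 1) = 4 * 2 ^ l := by rw [pow_succ, pow_succ]; ring
    rw [e] at h
    exact (mul_dvd_mul_iff_left (by norm_num)).mp h
  rcases Int.even_or_odd s with h5 | h5
  · left
    have h6 : IsCoprime ((2 : ℤ) ^ l) (s + 1) := by
      apply IsCoprime.pow_left
      rw [Int.isCoprime_iff_gcd_eq_one]
      obtain ⟨w, hw⟩ := h5
      have : Odd (s + 1) := ⟨w, by omega⟩
      exact Int.isCoprime_iff_gcd_eq_one.mp (Int.isCoprime_two_left.mpr this)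
    have h7 : (2 : ℤ) ^ l ∣ s := h6.dvd_of_dvd_mul_right h4
    rw [pow_succ', hs]
    have e : 2 * s + 1 - 1 = 2 * s := by ring
    rw [e]
    exact mul_dvd_mul_left 2 h7
  · right
    have h6 : IsCoprime ((2 : ℤ) ^ l) s := IsCoprime.pow_left (Int.isCoprime_two_left.mpr h5)
    have h7 : (2 : ℤ) ^ l ∣ s + 1 := h6.dvd_of_dvd_mul_left h4
    rw [pow_succ', hs]
    have e : 2 * s + 1 + 1 = 2 * (s + 1) := by ring
    rw [e]
    exact mul_dvd_mul_left 2 h7

/-- `2`-groups with a cyclic maximal subgroup. -/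
theorem two_case [Finite G] {n : ℕ} (hn : 3 ≤ n)
    (hG : Nat.card G = 2 ^ n) (C : Subgroup G) (hC : IsCyclic C) (hCi : C.index = 2)
    (hna : ∃ x y : G, x * y ≠ y * x) :
    ∃ a b : G, orderOf a = 2 ^ (n - 1) ∧ b ∉ zpowers a ∧ ((b ^ 2 = 1 ∧ b * a * b⁻¹ = a⁻¹) ∨
      (b ^ 2 = a ^ (2 ^ (n - 2)) ∧ b * a * b⁻¹ = a⁻¹) ∨
      (4 ≤ n ∧ b ^ 2 = 1 ∧ b * a * b⁻¹ = a ^ (1 + 2 ^ (n - 2))) ∨
      (4 ≤ n ∧ b ^ 2 = 1 ∧ b * a * b⁻¹ = a ^ (2 ^ (n - 2) - 1))) := by
  obtain ⟨m, rfl⟩ : ∃ m, n = m + 2 := ⟨n - 2, by omega⟩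
  have en1 : m + 2 - 1 = m + 1 := by omega
  have en2 : m + 2 - 2 = m := by omega
  rw [en1, en2]
  have hm : 1 ≤ m := by omega
  obtain ⟨⟨a, haC⟩, ha⟩ := hC
  have hCa : C = zpowers a := by
    apply le_antisymm
    · intro x hx
      obtain ⟨k, hk⟩ := ha ⟨x, hx⟩
      exact ⟨k, congrArg Subtype.val hk⟩
    · rwa [zpowers_le]
  subst hCa
  have hao : orderOf a = 2 ^ (m + 1) := by
    have h1 := (zpowers a).index_mul_card
    rw [Nat.card_zpowers, hCi, hG, pow_succ' 2 (m + 1)] at h1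
    exact Nat.eq_of_mul_eq_mul_left (by norm_num) h1
  have hCn : (zpowers a).Normal := Subgroup.normal_of_index_eq_two hCi
  obtain ⟨x, hx⟩ : ∃ x : G, x ∉ zpowers a := by
    by_contra hall
    push Not at hall
    have : zpowers a = ⊤ := eq_top_iff.mpr (fun g _ => hall g)
    rw [this, index_top] at hCi
    omega
  have hz : ∀ t : ℤ, a ^ t = 1 ↔ ((2 : ℤ) ^ (m + 1)) ∣ t := by
    intro t
    rw [zpow_eq_one_iff hao]
    push_cast; rfl
  have hnc : ¬ x * a = a * x := by
    intro hc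
    obtain ⟨u, v, huv⟩ := hna
    apply huv
    have hall : ∀ g : G, ∃ i : ℤ, g = a ^ i ∨ g = a ^ i * x := by
      intro g
      by_cases hg : g ∈ zpowers a
      · obtain ⟨i, hi⟩ := hg
        exact ⟨i, Or.inl hi.symm⟩
      · have h1 : g * x⁻¹ ∈ zpowers a := by
          rw [Subgroup.mul_mem_iff_of_index_two hCi]
          simp [hx, hg]
        obtain ⟨i, hi⟩ := h1
        simp only at hi
        exact ⟨i, Or.inr (by rw [hi]; group)⟩
    have hxa : Commute x a := hc
    obtain ⟨i, hi⟩ := hall u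
    obtain ⟨j, hj⟩ := hall v
    have c1 : ∀ i j : ℤ, Commute (a ^ i) (a ^ j) := fun i j => (Commute.refl a).zpow_zpow i j
    have c2 : ∀ i : ℤ, Commute x (a ^ i) := fun i => hxa.zpow_right i
    have key : Commute u v := by
      rcases hi with rfl | rfl <;> rcases hj with rfl | rfl
      · exact c1 i j
      · exact (c1 i j).mul_right (c2 i).symm
      · exact (c1 i j).mul_left (c2 j)
      · exact ((c1 i j).mul_right (c2 i).symm).mul_left ((c2 j).mul_right (Commute.refl x))
    exact key.eq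
  have hx2 : x ^ 2 ∈ zpowers a := Subgroup.sq_mem_of_index_two hCi x
  obtain ⟨s, hs⟩ := hx2
  simp only at hs
  obtain ⟨r, hr⟩ := hCn.conj_mem a (mem_zpowers a) x
  simp only at hr
  replace hr := hr.symm
  have hrz : ∀ i : ℤ, x * a ^ i * x⁻¹ = a ^ (r * i) := by
    intro i
    rw [← conj_zpow, hr, ← zpow_mul]
  have hr2 : (2 : ℤ) ^ (m + 1) ∣ r ^ 2 - 1 := by
    rw [← hz]
    have h1 : x ^ 2 * a * (x ^ 2)⁻¹ = a ^ (r ^ 2) := by
      calc x ^ 2 * a * (x ^ 2)⁻¹ = x * (x * a * x⁻¹) * x⁻¹ := by rw [pow_two]; group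
        _ = a ^ (r ^ 2) := by rw [hr, hrz, pow_two]
    rw [← hs] at h1
    have h2 : a ^ s * a * (a ^ s)⁻¹ = a := by group
    rw [h2] at h1
    rw [zpow_sub, zpow_one, ← h1, mul_inv_cancel]
  -- x² is fixed by x
  have hsr : (2 : ℤ) ^ (m + 1) ∣ (r - 1) * s := by
    rw [← hz]
    have h1 : x * a ^ s * x⁻¹ = a ^ s := by rw [hs]; group
    rw [hrz] at h1
    have e : (r - 1) * s = r * s - s := by ring
    rw [e, zpow_sub, h1, mul_inv_cancel]
  have hsq : ∀ i : ℤ, (a ^ i * x) ^ 2 = a ^ (i + r * i + s) := by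
    intro i
    calc (a ^ i * x) ^ 2 = a ^ i * (x * a ^ i * x⁻¹) * x ^ 2 := by rw [pow_two, pow_two]; group
      _ = a ^ (i + r * i + s) := by rw [hrz, ← hs, ← zpow_add, ← zpow_add]
  have hconj : ∀ i : ℤ, (a ^ i * x) * a * (a ^ i * x)⁻¹ = a ^ r := by
    intro i
    calc (a ^ i * x) * a * (a ^ i * x)⁻¹ = a ^ i * (x * a * x⁻¹) * (a ^ i)⁻¹ := by group
      _ = a ^ r := by rw [hr, ← zpow_add, ← zpow_neg, ← zpow_add]; congr 1; ring
  have hnm : ∀ i : ℤ, a ^ i * x ∉ zpowers a := by
    intro i h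
    apply hx
    have h1 : x = (a ^ i)⁻¹ * (a ^ i * x) := by group
    rw [h1]
    exact mul_mem (inv_mem ⟨i, rfl⟩) h
  have hzeq : ∀ i j : ℤ, (2 : ℤ) ^ (m + 1) ∣ i - j → a ^ i = a ^ j := by
    intro i j hij
    rw [← hz, zpow_sub] at hij
    exact mul_inv_eq_one.mp hij
  have hp1 : (2 : ℤ) ^ (m + 1) = 2 * 2 ^ m := pow_succ' 2 m
  have h2m : (2 : ℤ) ∣ 2 ^ m := dvd_pow_self 2 (by omega)
  rcases dvd_of_sq hr2 with h1 | h1
  · -- r = 1 + 2^m k, k odd
    obtain ⟨k, hk⟩ := h1
    rcases Int.even_or_odd' k with ⟨l, rfl | rfl⟩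
    · exfalso
      apply hnc
      have h3 : x * a * x⁻¹ = a := by
        rw [hr]
        conv_rhs => rw [← zpow_one a]
        apply hzeq
        exact ⟨l, by rw [hk, hp1]; ring⟩
      calc x * a = x * a * x⁻¹ * x := by group
        _ = a * x := by rw [h3]
    · -- a^r = a^(1 + 2^m)
      have har : a ^ r = a ^ (1 + 2 ^ m) := by
        rw [← zpow_natCast]
        apply hzeq
        refine ⟨l, ?_⟩
        push_cast
        rw [hp1]
        have : r = 1 + 2 ^ m * (2 * l + 1) := by linarith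
        rw [this]; ring
      by_cases hm1 : m = 1
      · -- order eight: a^3 = a^-1
        subst hm1
        have har' : a ^ r = a⁻¹ := by
          rw [har, ← zpow_natCast, ← zpow_neg_one]
          apply hzeq
          norm_num
        have h4 : (2 : ℤ) ∣ s := by
          have h5 : (2 : ℤ) ^ (1 + 1) ∣ (2 * (2 * l + 1)) * s := by
            have : r - 1 = 2 * (2 * l + 1) := by rw [hk]; ring
            rwa [this] at hsr
          rcases Int.even_or_odd s with ⟨w, hw⟩ | ⟨w, hw⟩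
          · exact ⟨w, by omega⟩
          · exfalso
            obtain ⟨v, hv⟩ := h5
            rw [hw] at hv
            have : 2 * (2 * l + 1) * (2 * w + 1) = 2 * (2 * (2 * l * w + l + w) + 1) := by ring
            rw [this] at hv
            omega
        obtain ⟨w, rfl⟩ := h4
        refine ⟨a, x, hao, hx, ?_⟩
        rcases Int.even_or_odd' w with ⟨v, rfl | rfl⟩
        · left
          refine ⟨?_, by rw [hr, har']⟩
          rw [← hs, hz]
          exact ⟨v, by ring⟩
        · right; left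
          refine ⟨?_, by rw [hr, har']⟩
          rw [← hs, ← zpow_natCast]
          apply hzeq
          exact ⟨v, by push_cast; ring⟩
      · -- modular group
        have h4 : (2 : ℤ) ∣ s := by
          have h5 : (2 : ℤ) ^ (m + 1) ∣ (2 ^ m * (2 * l + 1)) * s := by rwa [← hk]
          rw [hp1, mul_assoc, mul_comm 2 ((2 : ℤ) ^ m)] at h5
          have h6 : (2 : ℤ) ∣ (2 * l + 1) * s := (mul_dvd_mul_iff_left (pow_ne_zero m (by norm_num))).mp h5
          rcases Int.even_or_odd s with ⟨w, hw⟩ | ⟨w, hw⟩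
          · exact ⟨w, by omega⟩
          · exfalso
            obtain ⟨v, hv⟩ := h6
            rw [hw] at hv
            have : (2 * l + 1) * (2 * w + 1) = 2 * (2 * l * w + l + w) + 1 := by ring
            rw [this] at hv
            omega
        obtain ⟨j, rfl⟩ := h4
        -- solve i (2 + 2^m k) + 2 j ≡ 0 mod 2^(m+1)
        have hodd : IsCoprime (1 + 2 ^ (m - 1) * (2 * l + 1)) ((2 : ℤ) ^ m) := by
          apply IsCoprime.symm
          apply IsCoprime.pow_left
          rw [Int.isCoprime_two_left]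
          have : Even ((2 : ℤ) ^ (m - 1) * (2 * l + 1)) := by
            apply Even.mul_right
            exact (even_two).pow_of_ne_zero (by omega)
          exact odd_one.add_even this
        obtain ⟨u, v, huv⟩ := hodd
        refine ⟨a, a ^ (-(j * u)) * x, hao, hnm _, Or.inr (Or.inr (Or.inl ⟨by omega, ?_, ?_⟩))⟩
        · rw [hsq, hz]
          refine ⟨j * v, ?_⟩
          have e1 : r = 1 + 2 ^ m * (2 * l + 1) := by linarith
          have e2 : (2 : ℤ) ^ m = 2 * 2 ^ (m - 1) := by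
            rw [← pow_succ']
            congr 1
            omega
          rw [e1, hp1]
          have e3 : -(j * u) + (1 + 2 ^ m * (2 * l + 1)) * -(j * u) + 2 * j =
              2 * j * (1 - u * (1 + 2 ^ (m - 1) * (2 * l + 1))) := by
            rw [e2]; ring
          have e4 : 1 - u * (1 + 2 ^ (m - 1) * (2 * l + 1)) = v * 2 ^ m := by linarith
          rw [e3, e4]
          ring
        · rw [hconj, har]
  · -- r = -1 + 2^m k
    obtain ⟨k, hk⟩ := h1
    rcases Int.even_or_odd' k with ⟨l, rfl | rfl⟩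
    · -- inversion
      have har : a ^ r = a⁻¹ := by
        rw [← zpow_neg_one]
        apply hzeq
        exact ⟨l, by rw [hp1, sub_neg_eq_add, hk]; ring⟩
      have hs2 : (2 : ℤ) ^ m ∣ s := by
        have h3 : (2 : ℤ) ^ (m + 1) ∣ -2 * s + 2 ^ (m + 1) * (l * s) := by
          have e : -2 * s + 2 ^ (m + 1) * (l * s) = (r - 1) * s := by
            rw [hp1]
            have : r = -1 + 2 ^ m * (2 * l) := by linarith
            rw [this]; ring
          rw [e]; exact hsr
        have h4 : (2 : ℤ) ^ (m + 1) ∣ -2 * s := (dvd_add_left (Dvd.intro _ rfl)).mp h3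
        rw [hp1] at h4
        have e : -2 * s = 2 * (-s) := by ring
        rw [e] at h4
        exact (dvd_neg).mp ((mul_dvd_mul_iff_left (by norm_num)).mp h4)
      obtain ⟨w, hw⟩ := hs2
      refine ⟨a, x, hao, hx, ?_⟩
      rcases Int.even_or_odd' w with ⟨v, rfl | rfl⟩
      · left
        refine ⟨?_, by rw [hr, har]⟩
        rw [← hs, hz, hw, hp1]
        exact ⟨v, by ring⟩
      · right; left
        refine ⟨?_, by rw [hr, har]⟩
        rw [← hs, ← zpow_natCast]
        apply hzeq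
        refine ⟨v, ?_⟩
        rw [hw, hp1]
        push_cast; ring
    · -- semidihedral
      by_cases hm1 : m = 1
      · -- then r = 1 mod 4: contradiction
        exfalso
        subst hm1
        apply hnc
        have h3 : x * a * x⁻¹ = a := by
          rw [hr]
          conv_rhs => rw [← zpow_one a]
          apply hzeq
          refine ⟨l, ?_⟩
          have : r = -1 + 2 ^ 1 * (2 * l + 1) := by linarith
          rw [this]; ring
        calc x * a = x * a * x⁻¹ * x := by group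
          _ = a * x := by rw [h3]
      · have har : a ^ r = a ^ (2 ^ m - 1) := by
          have h1le : 1 ≤ 2 ^ m := Nat.one_le_two_pow
          rw [← zpow_natCast]
          apply hzeq
          refine ⟨l, ?_⟩
          rw [Nat.cast_sub h1le]
          push_cast
          have : r = -1 + 2 ^ m * (2 * l + 1) := by linarith
          rw [this, hp1]; ring
        have e2 : (2 : ℤ) ^ m = 2 * 2 ^ (m - 1) := by
          rw [← pow_succ']
          congr 1
          omega
        have hs2 : (2 : ℤ) ^ m ∣ s := by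
          have e : (r - 1) * s = 2 * ((-1 + 2 ^ (m - 1) * (2 * l + 1)) * s) := by
            have : r = -1 + 2 ^ m * (2 * l + 1) := by linarith
            rw [this, e2]; ring
          rw [e, hp1] at hsr
          have h4 := (mul_dvd_mul_iff_left (by norm_num)).mp hsr
          have hodd : IsCoprime ((2 : ℤ) ^ m) (-1 + 2 ^ (m - 1) * (2 * l + 1)) := by
            apply IsCoprime.pow_left
            rw [Int.isCoprime_two_left]
            have : Even ((2 : ℤ) ^ (m - 1) * (2 * l + 1)) := by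
              apply Even.mul_right
              exact (even_two).pow_of_ne_zero (by omega)
            exact (odd_neg_one).add_even this
          exact hodd.dvd_of_dvd_mul_left h4
        obtain ⟨w, hw⟩ := hs2
        rcases Int.even_or_odd' w with ⟨v, rfl | rfl⟩
        · refine ⟨a, x, hao, hx, Or.inr (Or.inr (Or.inr ⟨by omega, ?_, by rw [hr, har]⟩))⟩
          rw [← hs, hz, hw, hp1]
          exact ⟨v, by ring⟩
        · refine ⟨a, a ^ (1 : ℤ) * x, hao, hnm _, Or.inr (Or.inr (Or.inr ⟨by omega, ?_, by rw [hconj, har]⟩))⟩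
          rw [hsq, hz]
          refine ⟨l + v + 1, ?_⟩
          have : r = -1 + 2 ^ m * (2 * l + 1) := by linarith
          rw [this, hw, hp1]; ring

end Cfsg.Agent.Lib.CyclicMaximal
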