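import Mathlib

set_option autoImplicit false

namespace Cfsg.Agent.Lib.CyclicPow

/-- In a finite cyclic group of order `N`, `x` is an `n`-th power iff `x ^ (N / gcd n N) = 1`. -/
theorem exists_pow_eq_iff {G : Type*} [CommGroup G] [Finite G] [IsCyclic G] (n : ℕ) (x : G) :
    (∃ c : G, c ^ n = x) ↔ x ^ (Nat.card G / Nat.gcd n (Nat.card G)) = 1 := by
  have hN : 0 < Nat.card G := Nat.card_pos
  constructor
  · rintro ⟨c, rfl⟩
    rw [← pow_mul]
    obtain ⟨k, hk⟩ := Nat.gcd_dvd_left n (Nat.card G)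
    obtain ⟨l, hl⟩ := Nat.gcd_dvd_right n (Nat.card G)
    have hg : 0 < Nat.gcd n (Nat.card G) := Nat.gcd_pos_of_pos_right _ hN
    have h1 : Nat.card G / Nat.gcd n (Nat.card G) = l := by
      conv_lhs => rw [hl]
      rw [← hl]
      exact Nat.div_eq_of_eq_mul_right hg hl
    have h2 : n * (Nat.card G / Nat.gcd n (Nat.card G)) = Nat.card G * k := by
      rw [h1]
      calc n * l = (Nat.gcd n (Nat.card G) * k) * l := by rw [← hk]
        _ = (Nat.gcd n (Nat.card G) * l) * k := by ring
        _ = Nat.card G * k := by rw [← hl]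
    rw [h2, pow_mul, pow_card_eq_one', one_pow]
  · intro h
    obtain ⟨g, hg⟩ := IsCyclic.exists_generator (α := G)
    obtain ⟨k, rfl⟩ : ∃ k : ℕ, g ^ k = x := by
      have := hg x
      rwa [← mem_powers_iff_mem_zpowers] at this
    have hord : orderOf g = Nat.card G := orderOf_eq_card_of_forall_mem_zpowers hg
    rw [← pow_mul] at h
    have hdvd := orderOf_dvd_of_pow_eq_one h
    rw [hord] at hdvd
    have hgpos : 0 < Nat.gcd n (Nat.card G) := Nat.gcd_pos_of_pos_right _ hN
    have hdk : Nat.gcd n (Nat.card G) ∣ k := by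
      obtain ⟨l, hl⟩ := Nat.gcd_dvd_right n (Nat.card G)
      have h1 : Nat.card G / Nat.gcd n (Nat.card G) = l := Nat.div_eq_of_eq_mul_right hgpos hl
      rw [h1] at hdvd
      have hlpos : 0 < l := by
        rcases Nat.eq_zero_or_pos l with h0 | h0
        · rw [h0, mul_zero] at hl; omega
        · exact h0
      apply Nat.dvd_of_mul_dvd_mul_right hlpos
      rw [← hl]
      exact hdvd
    obtain ⟨k', hk'⟩ := hdk
    have hbez := Nat.gcd_eq_gcd_ab n (Nat.card G)
    refine ⟨g ^ (Nat.gcdA n (Nat.card G) * k'), ?_⟩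
    rw [← zpow_natCast, ← zpow_mul, ← zpow_natCast]
    have : ((k : ℕ) : ℤ) = Nat.gcdA n (Nat.card G) * k' * n + Nat.card G * (Nat.gcdB n (Nat.card G) * k') := by
      rw [hk']
      push_cast
      rw [hbez]
      ring
    rw [this, zpow_add, zpow_mul g (Nat.card G : ℤ), zpow_natCast, pow_card_eq_one', one_zpow, mul_one]

/-- In a finite field with `q` elements a non-zero `x` is an `n`-th power iff `x ^ ((q-1) / gcd n (q-1)) = 1`. -/
theorem field_exists_pow_eq_iff {F : Type*} [Field F] [Fintype F] (n : ℕ) (x : F) (hx : x ≠ 0) :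
    (∃ c : F, c ≠ 0 ∧ c ^ n = x) ↔ x ^ ((Fintype.card F - 1) / Nat.gcd n (Fintype.card F - 1)) = 1 := by
  classical
  have hcard : Nat.card Fˣ = Fintype.card F - 1 := by
    rw [Nat.card_eq_fintype_card, Fintype.card_units]
  have h := exists_pow_eq_iff (G := Fˣ) n (Units.mk0 x hx)
  rw [hcard] at h
  constructor
  · rintro ⟨c, hc0, hc⟩
    have := h.mp ⟨Units.mk0 c hc0, by ext; simpa using hc⟩
    have := congrArg (Units.val) this
    simpa using this
  · intro h1
    obtain ⟨c, hc⟩ := h.mpr (by ext; simpa using h1)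
    refine ⟨c, c.ne_zero, ?_⟩
    have := congrArg (Units.val) hc
    simpa using this

end Cfsg.Agent.Lib.CyclicPow
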