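import Cfsg.Agent.Lib.FiLift91
import Cfsg.Agent.Lib.FiInvol2
import Cfsg.Agent.Lib.FischerRank3
/-
Lifting involutions: double covers of groups of type M(22) (helper91).
-/
set_option autoImplicit false
set_option linter.all false

namespace Cfsg.Agent.Lib.FiLift91

open Cfsg Cfsg.Agent.Lib.ThreeRank3 Cfsg.Agent.Lib.ThreeDescent Cfsg.Agent.Lib.ThreeQuot Cfsg.Agent.Lib.FiPar
  Cfsg.Agent.Lib.ThreeSimple Cfsg.Agent.Lib.ThreeTypes Cfsg.Agent.Lib.FiComp Cfsg.Agent.Lib.FiMu

/-- the hypotheses on the class needed for lifting -/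
structure LH {Q : Type*} [Group Q] (D : Set Q) : Prop where
  ne : D.Nonempty
  inv : ∀ a ∈ D, a * a = 1
  one : ∀ a ∈ D, ∀ b ∈ D, ∃ g : Q, g * a * g⁻¹ = b
  tt : ∀ a ∈ D, ∀ b ∈ D, a ≠ b → Commute a b → ∀ a' ∈ D, ∀ b' ∈ D, a' ≠ b' → Commute a' b' →
    ∃ g : Q, g * a * g⁻¹ = a' ∧ g * b * g⁻¹ = b'
  r6 : Rel D 6
  rodd : ∃ n, n % 2 = 1 ∧ Rel D n
  P : ∀ x : Q, x * x = 1 → x ≠ 1 → ∃ l : List Q, (∀ y ∈ l, y ∈ D) ∧ (∀ y ∈ l, ∀ z ∈ l, Commute y z) ∧ l.prod = x

/-- **conclusion for centralizers** -/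
theorem concl {G : Type*} [Group G] [Finite G] (d : G) (hd : orderOf d = 2)
    [hzn : ((Subgroup.zpowers d).subgroupOf (Subgroup.centralizer ({d} : Set G))).Normal]
    {E : Set (↥(Subgroup.centralizer ({d} : Set G)) ⧸ (Subgroup.zpowers d).subgroupOf (Subgroup.centralizer ({d} : Set G)))}
    (hE : LH E) :
    (∀ x : ↥(Subgroup.centralizer ({d} : Set G)) ⧸ (Subgroup.zpowers d).subgroupOf (Subgroup.centralizer ({d} : Set G)),
      orderOf x = 2 → ∃ y : ↥(Subgroup.centralizer ({d} : Set G)), orderOf y = 2 ∧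
        (QuotientGroup.mk y : ↥(Subgroup.centralizer ({d} : Set G)) ⧸ (Subgroup.zpowers d).subgroupOf
          (Subgroup.centralizer ({d} : Set G))) = x) ∧ ¬ ∃ g : G, g ^ 2 = d := by
  have hdd : d * d = 1 := by
    have := pow_orderOf_eq_one d
    rw [hd, pow_two] at this
    exact this
  have hd1 : d ≠ 1 := by
    rintro rfl
    rw [orderOf_one] at hd
    omega
  have hdC : d ∈ Subgroup.centralizer ({d} : Set G) := Subgroup.mem_centralizer_singleton_iff.mpr rfl
  set C := Subgroup.centralizer ({d} : Set G) with hC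
  set N := (Subgroup.zpowers d).subgroupOf C with hN
  let δ : ↥C := ⟨d, hdC⟩
  have hδ : δ * δ = 1 := Subtype.ext hdd
  have hzp : ∀ x : G, x ∈ Subgroup.zpowers d ↔ x = 1 ∨ x = d := by
    intro x
    constructor
    · rintro ⟨k, rfl⟩
      show d ^ k = 1 ∨ d ^ k = d
      rcases Int.even_or_odd' k with ⟨m, rfl | rfl⟩
      · left
        rw [zpow_mul, zpow_ofNat, pow_two, hdd, one_zpow]
      · right
        rw [zpow_add, zpow_mul, zpow_ofNat, pow_two, hdd, one_zpow, one_mul, zpow_one]
    · rintro (rfl | rfl)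
      · exact one_mem _
      · exact Subgroup.mem_zpowers _
  let π : ↥C →* ↥C ⧸ N := QuotientGroup.mk' N
  have hπ : Function.Surjective π := QuotientGroup.mk'_surjective N
  have hker : ∀ x : ↥C, π x = 1 ↔ x = 1 ∨ x = δ := by
    intro x
    rw [QuotientGroup.mk'_apply, QuotientGroup.eq_one_iff, hN, Subgroup.mem_subgroupOf, hzp]
    constructor
    · rintro (h | h)
      · exact Or.inl (Subtype.ext h)
      · exact Or.inr (Subtype.ext h)
    · rintro (h | h) <;> rw [h]
      · exact Or.inl rfl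
      · exact Or.inr rfl
  have hcen : ∀ x : ↥C, δ * x = x * δ := by
    intro x
    apply Subtype.ext
    exact (Subgroup.mem_centralizer_singleton_iff.mp x.2).symm
  obtain ⟨n, hn, hrn⟩ := hE.rodd
  have key := lift_inv π hπ hδ hker hcen hE.inv hE.one hE.tt hE.ne hE.r6 hn hrn hE.P
  have key2 : ∀ x : ↥C ⧸ N, orderOf x = 2 → ∃ y : ↥C, orderOf y = 2 ∧ π y = x := by
    intro x hx
    have hxx : x * x = 1 := by
      have := pow_orderOf_eq_one x
      rw [hx, pow_two] at this
      exact this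
    have hx1 : x ≠ 1 := by
      rintro rfl
      rw [orderOf_one] at hx
      omega
    obtain ⟨y, hy1, hy2, hy3⟩ := key x hxx hx1
    exact ⟨y, orderOf_eq_prime (by rw [pow_two]; exact hy2) hy3, hy1⟩
  refine ⟨key2, ?_⟩
  rintro ⟨g, hg⟩
  have hgC : g ∈ C := by
    rw [hC, Subgroup.mem_centralizer_singleton_iff, ← hg, pow_two, mul_assoc]
  have hgg : g * g = d := by rw [← pow_two]; exact hg
  let γ : ↥C := ⟨g, hgC⟩
  have h1 : π γ * π γ = 1 := by
    rw [← map_mul]
    apply (hker _).mpr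
    right
    exact Subtype.ext hgg
  have h2 : π γ ≠ 1 := by
    intro h
    rcases (hker _).mp h with h | h
    · have : g = 1 := congrArg Subtype.val h
      rw [this] at hgg
      exact hd1 (by rw [← hgg, mul_one])
    · have : g = d := congrArg Subtype.val h
      rw [this, hdd] at hgg
      exact hd1 hgg.symm
  obtain ⟨y, hy1, hy2, hy3⟩ := key _ h1 h2
  have h3 := sq_eq π hδ hker hcen hy1
  rw [hy2] at h3
  have : (1 : G) = g * g := congrArg Subtype.val h3
  rw [hgg] at this
  exact hd1 this.symm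

section

variable {G : Type*} [Group G] {D : Set G}

theorem lh22 [Finite G] (hP : PSU62Simple) (hD : IsThreeTranspositionGroup D) (hprim : IsPrimitiveUnderConj D)
    (h : IsOfTypeM22 G D) : LH D := by
  have L := (full22 hP hD hprim h).1
  obtain ⟨d0, hd0, _⟩ := L.base.nnc
  obtain ⟨t1, t2, t3⟩ := tt22 hP hD hprim h
  refine ⟨⟨d0, hd0⟩, fun a ha => sq_one hD.1 ha, ?_, ?_, ?_, ?_, ?_⟩
  · intro a ha b hb
    exact hprim.1 a ha b hb
  · intro a ha b hb hab hc a' ha' b' hb' hab' hc'
    have hT : ∀ {a b : G}, a ∈ D → b ∈ D → a ≠ b → Commute a b → Tup D 2 [a, b] := by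
      intro a b ha hb hab hc
      refine ⟨by simp [hab], rfl, ?_, ?_⟩
      · intro x hx
        simp only [List.mem_cons, List.not_mem_nil, or_false] at hx
        rcases hx with rfl | rfl <;> assumption
      · intro x hx y hy
        simp only [List.mem_cons, List.not_mem_nil, or_false] at hx hy
        rcases hx with rfl | rfl <;> rcases hy with rfl | rfl
        · exact Commute.refl _
        · exact hc
        · exact hc.symm
        · exact Commute.refl _
    obtain ⟨g, hg⟩ := t2 _ _ (hT ha hb hab hc) (hT ha' hb' hab' hc')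
    simp only [List.map_cons, List.map_nil, List.cons.injEq, and_true] at hg
    exact ⟨g, hg.1, hg.2⟩
  · -- six
    obtain ⟨l, hl1, hl2, hl3, hl4⟩ := tup22 hP hD hprim h
    have hT : Tup D 3 (l.take 3) := by
      refine ⟨hl1.sublist (List.take_sublist _ _), by simp [hl2], fun a ha => hl3 a (List.mem_of_mem_take ha),
        fun a ha b hb => hl4 a (List.mem_of_mem_take ha) b (List.mem_of_mem_take hb)⟩
    obtain ⟨l', hl', hp⟩ := oct22 hP hD hprim h _ hT
    exact ⟨_, hl'.2.1, hl'.1, hl'.2.2.1, hl'.2.2.2, hp⟩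
  · obtain ⟨l, h1, h2, h3, h4, h5⟩ := rp6_22 hP hD hprim h d0 hd0
    refine ⟨7, by norm_num, d0 :: l, by simp [h1], ?_, ?_, ?_, ?_⟩
    · rw [List.nodup_cons]
      exact ⟨fun hmem => (h3 d0 hmem).2.1 rfl, h2⟩
    · intro x hx
      rcases List.mem_cons.mp hx with rfl | hx
      · exact hd0
      · exact (h3 x hx).1
    · intro x hx y hy
      rcases List.mem_cons.mp hx with hx' | hx' <;> rcases List.mem_cons.mp hy with hy' | hy'
      · rw [hx', hy']
      · rw [hx']; exact (h3 y hy').2.2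
      · rw [hy']; exact (h3 x hx').2.2.symm
      · exact h4 x hx' y hy'
    · rw [List.prod_cons, h5, sq_one hD.1 hd0]
  · intro x hx hx1
    obtain ⟨m, _, _, l, hl, hp⟩ := invP22 hP hD hprim h x hx hx1
    exact ⟨l, hl.2.2.1, hl.2.2.2, hp⟩

/-- primitivity from quasisimplicity -/
theorem prim_of_quasisimple [Finite G] {N : Subgroup G} [N.Normal] (hq : IsQuasisimple G) (hN : N ≤ Subgroup.center G)
    {E : Set (G ⧸ N)} (hE : IsThreeTranspositionClass E) (hz : Subgroup.center (G ⧸ N) = ⊥) : IsPrimitiveUnderConj E := by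
  have hzN : Subgroup.center G = N := by
    apply le_antisymm _ hN
    intro x hx
    have : (QuotientGroup.mk x : G ⧸ N) ∈ Subgroup.center (G ⧸ N) := by
      rw [Subgroup.mem_center_iff]
      intro y
      obtain ⟨y, rfl⟩ := QuotientGroup.mk_surjective y
      rw [← QuotientGroup.mk_mul, ← QuotientGroup.mk_mul, Subgroup.mem_center_iff.mp hx y]
    rw [hz, Subgroup.mem_bot, QuotientGroup.eq_one_iff] at this
    exact this
  subst hzN
  obtain ⟨hperf, hsimp⟩ := hq
  have hcom : commutator (G ⧸ Subgroup.center G) = ⊤ := by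
    have : Group.IsPerfect (G ⧸ Subgroup.center G) := inferInstance
    exact this.commutator_eq_top
  have hsimp' : IsSimpleGroup (commutator (G ⧸ Subgroup.center G)) := by
    rw [hcom]
    exact (Subgroup.topEquiv (G := G ⧸ Subgroup.center G)).isSimpleGroup
  have hnonab : ∃ x y : commutator (G ⧸ Subgroup.center G), x * y ≠ y * x := by
    by_contra hcon
    push Not at hcon
    have : Subgroup.center (G ⧸ Subgroup.center G) = ⊤ := by
      rw [eq_top_iff]
      intro x _
      rw [Subgroup.mem_center_iff]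
      intro y
      have := hcon ⟨y, by rw [hcom]; trivial⟩ ⟨x, by rw [hcom]; trivial⟩
      exact congrArg Subtype.val this
    rw [hz] at this
    have hnt := hsimp.toNontrivial
    exact absurd this bot_ne_top
  exact FischerRank3.prim_of_simple hE hsimp' hnonab

end

end Cfsg.Agent.Lib.FiLift91
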