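import Cfsg.Agent.Lib.FiIso22
import Cfsg.Agent.Lib.FiY1
import Cfsg.Agent.Lib.FiInvol2

/-!
# Groups of type M(22) from the residues: glue for the characterisation by a transposition centraliser (helper73 for helper89)
-/

set_option autoImplicit false
set_option linter.all false

namespace Cfsg.Agent.Lib.FiPsu

open Module Cfsg Cfsg.Agent.Lib.ThreeRank3 Cfsg.Agent.Lib.ThreeDescent Cfsg.Agent.Lib.ThreeQuot Cfsg.Agent.Lib.FiPar
  Cfsg.Agent.Lib.ThreeSimple Cfsg.Agent.Lib.ThreeTypes Cfsg.Agent.Lib.FiComp Cfsg.Agent.Lib.FiMu Cfsg.Agent.Lib.FiHex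
  Cfsg.Agent.Lib.FiVec Cfsg.Agent.Lib.UnTrans Cfsg.Agent.Lib.U6Class
open Cfsg.Agent.Lib.SpTrans (isom mem_isom)

universe u

variable {G : Type u} [Group G] {D : Set G}

theorem vtriv (hcl : ∀ a ∈ D, ∀ b ∈ D, ∃ g : G, g * a * g⁻¹ = b)
    (hcc : ∀ d ∈ D, ∀ g : G, (∀ e ∈ Dd D d, Commute g e) → g = 1 ∨ g = d) : VTriv D := by
  intro x hx y hy h
  rcases hcc x hx y (fun e he => (h e he.1).1 he.2.2) with h1 | h1
  · obtain ⟨g, hg⟩ := hcl y hy x hx
    rw [← hg, h1]; group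
  · exact h1.symm

/-- the local data of the residues -/
theorem low [Finite G] (hP : PSU62Simple) (hD : IsThreeTranspositionGroup D) (hnc : ∀ e ∈ D, NoCentral D e)
    (hpsu : ∀ e ∈ D, ∃ (F : Type) (_ : Field F) (_ : Fintype F), Fintype.card F = 4 ∧ Nonempty (QQ D e ≃* PSU 6 F 2)) :
    ∀ e ∈ D, Par (QD D e) 693 180 51 45 12 ∧ NC4 (QD D e) ∧ Q3 (QD D e) ∧ CM (QD D e) ∧
      Nat.card (QQ D e) = 9196830720 ∧ OneClass (QD D e) := by
  intro e he
  obtain ⟨F, _, _, hF, ⟨E'⟩⟩ := hpsu e he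
  have hD1 := QD_isThree' hD (hnc e he)
  have hs := isSimple_congr E' (hP F hF)
  have hne : (QD D e).Nonempty := by
    obtain ⟨x, hx, _⟩ := not_all_commute hs
    exact ⟨_, mk_mem_QD (x := ⟨x, mem_HH hx⟩) hx⟩
  obtain ⟨h1, h2, h3, h4, h5⟩ := U6Class.level_of_equiv hF hD1 hne E'
  exact ⟨h1, h2, h3, h4, h5, QD_oneclass fun f hf f' hf' => Dd_oneclass_of_simple hD.1 hD.2.1 hs (hnc e he) hf hf'⟩

theorem nr5 [Finite G] (hP : PSU62Simple) (hD : IsThreeTranspositionGroup D) (hne : D.Nonempty)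
    (hcl : ∀ a ∈ D, ∀ b ∈ D, ∃ g : G, g * a * g⁻¹ = b)
    (hcc : ∀ d ∈ D, ∀ g : G, (∀ e ∈ Dd D d, Commute g e) → g = 1 ∨ g = d) (hnc : ∀ e ∈ D, NoCentral D e)
    (hpsu : ∀ e ∈ D, ∃ (F : Type) (_ : Field F) (_ : Fintype F), Fintype.card F = 4 ∧ Nonempty (QQ D e ≃* PSU 6 F 2)) :
    NR D 5 := by
  obtain ⟨d, hd⟩ := hne
  intro n hn1 hn5 hrel
  interval_cases n
  · exact not_RelN_one hD.1 hrel
  · exact not_RelN_two hD.1 hrel
  · exact not_RelN_two (QD_isThree' hD (hnc d hd)).1 (RelN_descent hD.1 hD.2.1 hcl hd (hnc d hd) hrel)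
  · exact not_RelN_four hD.1 (vtriv hcl hcc) hrel
  · obtain ⟨F, _, _, hF, ⟨E'⟩⟩ := hpsu d hd
    have hs := isSimple_congr E' (hP F hF)
    have h4 := RelN_descent hD.1 hD.2.1 hcl hd (hnc d hd) hrel
    have hV2 := VTriv_QD_of_simple hD hs
    have hD2 := QD_isThree hD.1 hD.2.1 d
    rw [QD_diff (hnc d hd)] at hV2 hD2
    exact not_RelN_four hD2.1 hV2 h4

theorem hdmt_of_psu [Finite G] (hP : PSU62Simple) (hD : IsThreeTranspositionGroup D) (hne : D.Nonempty)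
    (hcl : ∀ a ∈ D, ∀ b ∈ D, ∃ g : G, g * a * g⁻¹ = b)
    (hcc : ∀ d ∈ D, ∀ g : G, (∀ e ∈ Dd D d, Commute g e) → g = 1 ∨ g = d) (hnc : ∀ e ∈ D, NoCentral D e)
    (hpsu : ∀ e ∈ D, ∃ (F : Type) (_ : Field F) (_ : Fintype F), Fintype.card F = 4 ∧ Nonempty (QQ D e ≃* PSU 6 F 2)) :
    HD D ∧ MT D ∧ (∀ a ∈ D, ∀ b ∈ D, ¬ Commute a b → ∀ p ∈ Dd D a ∩ Dd D b, (Dd D a ∩ Dd D b ∩ Dd D p).ncard = 45) := by
  have hlow := low hP hD hnc hpsu
  have hup : Up D 693 180 51 45 12 := up_of hD.1 hnc (fun e he => (hlow e he).1)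
  refine ⟨⟨hD, hcc, ?_, nr5 hP hD hne hcl hcc hnc hpsu, hne, hup.u1, hup.u2, hup.u3, hup.u4, ?_⟩, ?_, ?_⟩
  · intro e he
    obtain ⟨F, _, _, hF, ⟨E'⟩⟩ := hpsu e he
    have hne : (QD D e).Nonempty := by
      obtain ⟨x, hx, _⟩ := not_all_commute (isSimple_congr E' (hP F hF))
      exact ⟨_, mk_mem_QD (x := ⟨x, mem_HH hx⟩) hx⟩
    exact lineAt_of hD.1 (hnc e he) (U6Class.lineProp_of_equiv hF (QD_isThree' hD (hnc e he)) hne E')
  · intro e he a ha b hb c hc hne hab hac hbc hw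
    obtain ⟨F, _, _, hF, ⟨E'⟩⟩ := hpsu e he
    have hnc := hnc e he
    obtain ⟨w, hw, hwa, hwb, hwc⟩ := hw
    obtain ⟨h1, h2⟩ := U6Class.plane_of_equiv hF (QD_isThree' hD hnc) ⟨_, br_mem ha⟩ E' (br_mem ha) (br_mem hb) (br_mem hc)
      (fun h' => hne ((br_inj hD.1 hnc ha hb).mp h')) ((br_comm hD.1 ha hb).mpr hab) ((br_comm hD.1 ha hc).mpr hac)
      ((br_comm hD.1 hb hc).mpr hbc)
      ⟨_, br_mem hw, (br_comm hD.1 hw ha).mpr hwa, (br_comm hD.1 hw hb).mpr hwb, fun h' => hwc ((br_comm hD.1 hw hc).mp h')⟩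
    refine ⟨?_, ?_⟩
    · rintro x ⟨hx, hxa, hxb, hxc⟩ y ⟨hy, hya, hyb, hyc⟩
      rw [← br_comm hD.1 hx hy]
      exact h1 _ ⟨br_mem hx, (br_comm hD.1 hx ha).mpr hxa, (br_comm hD.1 hx hb).mpr hxb, (br_comm hD.1 hx hc).mpr hxc⟩ _
        ⟨br_mem hy, (br_comm hD.1 hy ha).mpr hya, (br_comm hD.1 hy hb).mpr hyb, (br_comm hD.1 hy hc).mpr hyc⟩
    · rw [← h2, ← ncard_bar hD.1 hnc (fun x hx => hx.1 : {t | t ∈ Dd D e ∧ Commute t a ∧ Commute t b ∧ Commute t c} ⊆ Dd D e)]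
      congr 1
      ext t
      rw [mem_bar (fun x hx => hx.1)]
      constructor
      · rintro ⟨x, hx, ⟨_, hxa, hxb, hxc⟩, rfl⟩
        exact ⟨br_mem hx, (br_comm hD.1 hx ha).mpr hxa, (br_comm hD.1 hx hb).mpr hxb, (br_comm hD.1 hx hc).mpr hxc⟩
      · rintro ⟨ht, hxa, hxb, hxc⟩
        obtain ⟨x, hx, rfl⟩ := mem_QD.mp ht
        exact ⟨x, hx, ⟨hx, (br_comm hD.1 hx ha).mp hxa, (br_comm hD.1 hx hb).mp hxb, (br_comm hD.1 hx hc).mp hxc⟩, rfl⟩
  · intro e he w hw b hb c hc hne hbc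
    obtain ⟨F, _, _, hF, ⟨E'⟩⟩ := hpsu e he
    have hnc := hnc e he
    obtain ⟨x, hx, h1, h2⟩ := U6Class.meet_of_equiv hF (QD_isThree' hD hnc) ⟨_, br_mem hw⟩ E' (br_mem hw) (br_mem hb) (br_mem hc)
      (fun h' => hne ((br_inj hD.1 hnc hb hc).mp h')) ((br_comm hD.1 hb hc).mpr hbc)
    obtain ⟨y, hy, rfl⟩ := mem_QD.mp hx
    refine ⟨y, hy, ⟨hy.1, ?_⟩, (br_comm hD.1 hw hy).mp h2⟩
    intro v hv hve hvb hvc
    by_cases hve' : v = e
    · rw [hve']; exact hy.2.2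
    · have hv' : v ∈ Dd D e := ⟨hv, hve', hve.symm⟩
      exact (br_comm hD.1 hv' hy).mp (h1 _ (br_mem hv') ((br_comm hD.1 hv' hb).mpr hvb) ((br_comm hD.1 hv' hc).mpr hvc))
  · intro a ha b hb hab p hp
    have h1 := hup.u3' p hp.1.1 a (Dd_symm ha hp.1) b (Dd_symm hb hp.2) hab
    have h2 : Dd D a ∩ Dd D b ∩ Dd D p = Dd D p ∩ Dd D a ∩ Dd D b := by
      ext x; simp only [Set.mem_inter_iff]; tauto
    rw [h2, h1]

/-- no path `A₇` commutes with two non-commuting members -/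
theorem noA7_of [Finite G] (Y : YD D)
    (hpsu : ∀ e ∈ D, ∃ (F : Type) (_ : Field F) (_ : Fintype F), Fintype.card F = 4 ∧ Nonempty (QQ D e ≃* PSU 6 F 2)) :
    Cfsg.Agent.Lib.FiUniq.NoA7 D := by
  have hD := Y.hd.tg
  intro a ha b hb hab q hq hpat
  obtain ⟨F, _, _, hF, ⟨E'⟩⟩ := hpsu a ha
  obtain ⟨_, σ, f, H, π, S⟩ := setup_of_equiv hF (QD_isThree' hD (Y.nc a ha)) ⟨_, br_mem (hq 0).1⟩ E'
  obtain ⟨ω, hω0, hω1, hall⟩ := f4_omega hF
  have hω : ω ^ 2 = ω + 1 := by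
    have h3 := S.cube ω hω0
    have h4 : (ω - 1) * (ω ^ 2 + ω + 1) = 0 := by linear_combination h3
    have two : (2 : F) = 0 := CharTwo.two_eq_zero
    rcases mul_eq_zero.mp h4 with h5 | h5
    · exact absurd (sub_eq_zero.mp h5) hω1
    · linear_combination h5 - (ω + 1) * two
  have hn : ∀ j k : Fin 7, k.1 = j.1 + 1 → ¬ Commute (q j) (q k) := fun j k => (hpat j k).1
  have hc : ∀ j k : Fin 7, j.1 + 1 < k.1 → Commute (q j) (q k) := fun j k => (hpat j k).2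
  have A : A6 (q 6) (q 5) (q 4) (q 3) (q 2) (q 1) :=
    { gf := fun k => hn 5 6 rfl k.symm
      fe := fun k => hn 4 5 rfl k.symm
      ed := fun k => hn 3 4 rfl k.symm
      dh := fun k => hn 2 3 rfl k.symm
      hi := fun k => hn 1 2 rfl k.symm
      ge := (hc 4 6 (by decide)).symm
      gd := (hc 3 6 (by decide)).symm
      gh := (hc 2 6 (by decide)).symm
      gi := (hc 1 6 (by decide)).symm
      fd := (hc 3 5 (by decide)).symm
      fh := (hc 2 5 (by decide)).symm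
      fi := (hc 1 5 (by decide)).symm
      eh := (hc 2 4 (by decide)).symm
      ei := (hc 1 4 (by decide)).symm
      di := (hc 1 3 (by decide)).symm }
  obtain ⟨vg, vp, ve, vd, vh, vi, rg, rp, re, rd, rh, ri, C⟩ := exists_chain S hD A (hq 6).1 (hq 5).1 (hq 4).1 (hq 3).1
    (hq 2).1 (hq 1).1
  obtain ⟨vt, rt, et⟩ := exists_scaled S hD ri (hq 0).1 (fun k => hn 0 1 rfl k.symm)
  have t6 : f vt vg = 0 := (rt.comm_iff hD rg).mp (hc 0 6 (by decide))
  have t5 : f vt vp = 0 := (rt.comm_iff hD rp).mp (hc 0 5 (by decide))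
  have t4 : f vt ve = 0 := (rt.comm_iff hD re).mp (hc 0 4 (by decide))
  have t3 : f vt vd = 0 := (rt.comm_iff hD rd).mp (hc 0 3 (by decide))
  have t2 : f vt vh = 0 := (rt.comm_iff hD rh).mp (hc 0 2 (by decide))
  have t1 : f vt vi = 1 := by rw [H.herm, et, map_one]
  have two : (2 : F) = 0 := CharTwo.two_eq_zero
  have h0 : vt + (vg + ve + vh) = 0 := by
    apply C.zero S <;> simp only [H.add_left, t1, t2, t3, t4, t5, t6, C.gg, C.gp, C.ge, C.gd, C.gh, C.gi, C.pg, C.pp, C.pe, C.pd, C.ph, C.pi, C.eg, C.ep, C.ee, C.ed, C.eh, C.ei, C.dg, C.dp, C.de, C.dd, C.dh, C.di, C.hg, C.hp, C.he, C.hd, C.hh, C.hi, C.ig, C.ip, C.ie, C.id, C.ih, C.ii]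
    · ring
    · linear_combination two
    · ring
    · linear_combination two
    · ring
    · linear_combination two
  have hvt : vt = vg + ve + vh := by
    have tw := two_smul_zero F (V := Fin 6 → F) (vg + ve + vh)
    have : vt + (vg + ve + vh) = (vg + ve + vh) + (vg + ve + vh) := by rw [h0, tw]
    exact add_right_cancel this
  rw [hvt] at rt
  exact noA7 Y ha hb hab hω hall C ⟨_, hq 6, rg⟩ ⟨_, hq 5, rp⟩ ⟨_, hq 4, re⟩ ⟨_, hq 3, rd⟩ ⟨_, hq 2, rh⟩ ⟨_, hq 1, ri⟩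
    ⟨_, hq 0, rt⟩

theorem exists_pat_of [Finite G] (Y : YD D) (hex : ∃ a ∈ D, ∃ b ∈ D, ¬ Commute a b) : ∃ w : Spor.Fi22.Gen → G, Cfsg.Agent.Lib.FiUniq.Pat Spor.Fi22.edges D w := by
  obtain ⟨a, ha, b, hb, hab⟩ := hex
  obtain ⟨c, d, e, f, g, h, i, y⟩ := Y.exists_Y332 ha hb hab
  refine ⟨wY a b c d e f g h i, ?_, ?_, ?_⟩
  · intro x
    cases x
    exacts [y.ma, y.mb, y.mc, y.md, y.me, y.mf, y.mg, y.mh, y.mi]
  · intro x z hxz
    cases x <;> cases z <;> simp [Spor.coxLabel, Spor.Fi22.edges] at hxz <;>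
      first
        | exact y.ac | exact y.ac.symm | exact y.ad | exact y.ad.symm | exact y.ae | exact y.ae.symm
        | exact y.af | exact y.af.symm | exact y.ag | exact y.ag.symm | exact y.ah | exact y.ah.symm
        | exact y.ai | exact y.ai.symm | exact y.bd | exact y.bd.symm | exact y.be | exact y.be.symm
        | exact y.bf | exact y.bf.symm | exact y.bg | exact y.bg.symm | exact y.bh | exact y.bh.symm
        | exact y.bi | exact y.bi.symm | exact y.ce | exact y.ce.symm | exact y.cf | exact y.cf.symm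
        | exact y.cg | exact y.cg.symm | exact y.ch | exact y.ch.symm | exact y.ci | exact y.ci.symm
        | exact y.df | exact y.df.symm | exact y.dg | exact y.dg.symm | exact y.di | exact y.di.symm
        | exact y.eg | exact y.eg.symm | exact y.eh | exact y.eh.symm | exact y.ei | exact y.ei.symm
        | exact y.fh | exact y.fh.symm | exact y.fi | exact y.fi.symm | exact y.gh | exact y.gh.symm
        | exact y.gi | exact y.gi.symm
  · intro x z hxz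
    cases x <;> cases z <;> simp [Spor.coxLabel, Spor.Fi22.edges] at hxz <;>
      first
        | exact y.ab | exact fun k => y.ab k.symm | exact y.bc | exact fun k => y.bc k.symm
        | exact y.cd | exact fun k => y.cd k.symm | exact y.de | exact fun k => y.de k.symm
        | exact y.ef | exact fun k => y.ef k.symm | exact y.fg | exact fun k => y.fg k.symm
        | exact y.dh | exact fun k => y.dh k.symm | exact y.hi | exact fun k => y.hi k.symm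


/-- the isomorphism with the presented group -/
theorem iso_of_YD [Finite G] (Y : YD D) (T : Cfsg.Agent.Lib.FiUniq.T22 D) :
    ∃ e : Spor.Fi22 ≃* G, ∀ x, e (PresentedGroup.of x) ∈ D := by
  have hex : ∃ a ∈ D, ∃ b ∈ D, ¬ Commute a b := by
    obtain ⟨d, hd⟩ := T.ne
    have hne : (Dd D d).Nonempty := by
      rw [← Set.ncard_pos (Set.toFinite _), Y.hd.u1 d hd]; norm_num
    obtain ⟨f, hf⟩ := hne
    obtain ⟨y, hy, hfy⟩ := T.nc d hd f hf
    exact ⟨f, hf.1, y, hy.1, hfy⟩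
  obtain ⟨w, hw⟩ := exists_pat_of Y hex
  obtain ⟨e, he⟩ := T.iso (noA7_of Y T.psu) hw
  exact ⟨e, fun x => (he x).symm ▸ hw.mem x⟩

end Cfsg.Agent.Lib.FiPsu
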