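import Cfsg.Agent.Lib.H89EF2
import Cfsg.Agent.Lib.FiPsu73
import Cfsg.Agent.Lib.FiLift91b

/-!
# Double covers of groups of type M(22), part A: the residue at a lifted transposition (helper73)
-/

set_option autoImplicit false
set_option linter.all false

namespace Cfsg.Agent.Lib.DC22

open Module Cfsg Cfsg.Agent.Lib.ThreeRank3 Cfsg.Agent.Lib.ThreeDescent Cfsg.Agent.Lib.ThreeQuot Cfsg.Agent.Lib.FiPar
  Cfsg.Agent.Lib.ThreeSimple Cfsg.Agent.Lib.ThreeTypes Cfsg.Agent.Lib.FiComp Cfsg.Agent.Lib.FiMu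
open Cfsg.Agent.Lib.UnTrans Cfsg.Agent.Lib.UnBridge Cfsg.Agent.Lib.H89EA Cfsg.Agent.Lib.H89EB Cfsg.Agent.Lib.H89EC
  Cfsg.Agent.Lib.H89EE
open Cfsg.Agent.Lib.U6Class hiding TI
open Cfsg.Agent.Lib.FiHex (HD MT YD)
open Cfsg.Agent.Lib.FiUniq (T22)

universe v w

variable {C : Type v} {Q : Type w} [Group C] [Group Q] {φ : C →* Q} {d : C} {D : Set Q} {E : Set C}

theorem one_notin (H : HD D) : (1 : Q) ∉ D := by
  intro h
  apply H.nr 1 (by norm_num) (by norm_num)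
  exact ⟨[1], rfl, by simp, by simp [h], by simp, by simp⟩

/-- lifts of members -/
theorem lift_Dd (K : Cov φ d D E) {e : C} (he : e ∈ E) {t : Q} (ht : t ∈ Dd D (φ e)) : ∃ x ∈ Dd E e, φ x = t := by
  obtain ⟨x, hx, rfl⟩ := K.lift t ht.1
  exact ⟨x, ⟨hx, fun h => ht.2.1 (by rw [h]), (K.comm_iff he hx).2 ht.2.2⟩, rfl⟩

theorem phi_Dd (K : Cov φ d D E) {e x : C} (he : e ∈ E) (hx : x ∈ Dd E e) : φ x ∈ Dd D (φ e) :=
  ⟨K.im x hx.1, fun h => hx.2.1 (K.phi_inj hx.1 he h), hx.2.2.map φ⟩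

/-- a line of lifts -/
theorem exists_line [Finite Q] (K : Cov φ d D E) (T : T22 D) (H : HD D)
    (hno : ∀ X ⊆ E, (∀ x ∈ X, ∀ y ∈ X, Commute x y) → d ∉ Subgroup.closure X) {e : C} (he : e ∈ E) {b' : C} (hb' : b' ∈ Dd E e) :
    ∃ c ∈ Dd E e, ∃ x ∈ Dd E e, ∃ y ∈ Dd E e, ∃ z ∈ Dd E e, b' * c * x * y * z = e := by
  have hē := K.im e he
  have hb := phi_Dd K he hb'
  have hne2 : (Dd D (φ e) ∩ Dd D (φ b')).Nonempty := by
    rw [← Set.ncard_pos (Set.toFinite _), H.u2 _ hē _ hb]; norm_num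
  obtain ⟨c, hce, hcb⟩ := hne2
  obtain ⟨x, hx, y, hy, z, hz, hnd, hcom, hcen, -, -⟩ := H.line _ hē _ hb c hce hcb.2.1.symm hcb.2.2
  obtain ⟨c', hc', rfl⟩ := lift_Dd K he hce
  obtain ⟨x', hx', rfl⟩ := lift_Dd K he hx
  obtain ⟨y', hy', rfl⟩ := lift_Dd K he hy
  obtain ⟨z', hz', rfl⟩ := lift_Dd K he hz
  have hprod : φ b' * φ c' * φ x' * φ y' * φ z' = φ e := by
    rcases T.cc _ hē _ hcen with h | h
    · exfalso
      apply H.nr 5 (by norm_num) (by norm_num)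
      refine ⟨[φ b', φ c', φ x', φ y', φ z'], rfl, hnd, ?_, hcom, ?_⟩
      · intro a ha
        simp only [List.mem_cons, List.not_mem_nil, or_false] at ha
        rcases ha with rfl | rfl | rfl | rfl | rfl
        exacts [hb.1, hce.1, hx.1, hy.1, hz.1]
      · rw [← h]; simp only [List.prod_cons, List.prod_nil, mul_one, mul_assoc]
    · exact h
  refine ⟨c', hc', x', hx', y', hy', z', hz', ?_⟩
  have h1 : φ (b' * c' * x' * y' * z') = φ e := by
    rw [map_mul, map_mul, map_mul, map_mul]; exact hprod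
  rcases K.eq_or h1 with h2 | h2
  · exact h2
  · exfalso
    have hall : ∀ u ∈ ({e, b', c', x', y', z'} : Set C), u ∈ E := by
      rintro u (rfl | rfl | rfl | rfl | rfl | rfl)
      exacts [he, hb'.1, hc'.1, hx'.1, hy'.1, hz'.1]
    have hl : ∀ u ∈ ({b', c', x', y', z'} : Set C), φ u ∈ [φ b', φ c', φ x', φ y', φ z'] ∧ Commute e u := by
      rintro u (rfl | rfl | rfl | rfl | rfl)
      exacts [⟨by simp, hb'.2.2⟩, ⟨by simp, hc'.2.2⟩, ⟨by simp, hx'.2.2⟩, ⟨by simp, hy'.2.2⟩, ⟨by simp, hz'.2.2⟩]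
    refine hno {e, b', c', x', y', z'} hall ?_ ?_
    · intro u hu v hv
      rcases hu with rfl | hu
      · rcases hv with rfl | hv
        · exact Commute.refl _
        · exact (hl v hv).2
      · rcases hv with rfl | hv
        · exact (hl u hu).2.symm
        · rw [K.comm_iff (hall u (Or.inr hu)) (hall v (Or.inr hv))]
          exact hcom _ (hl u hu).1 _ (hl v hv).1
    · have h3 : d = e⁻¹ * (b' * c' * x' * y' * z') := by rw [h2]; group
      rw [h3]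
      have m : ∀ u ∈ ({e, b', c', x', y', z'} : Set C), u ∈ Subgroup.closure ({e, b', c', x', y', z'} : Set C) :=
        fun u hu => Subgroup.subset_closure hu
      refine Subgroup.mul_mem _ (Subgroup.inv_mem _ (m e (by simp))) ?_
      exact Subgroup.mul_mem _ (Subgroup.mul_mem _ (Subgroup.mul_mem _ (Subgroup.mul_mem _ (m _ (by simp)) (m _ (by simp)))
        (m _ (by simp))) (m _ (by simp))) (m _ (by simp))

/-- the lifts around a member form one class -/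
theorem one_class_Dd [Finite Q] (hP : PSU62Simple) (K : Cov φ d D E) (T : T22 D) (H : HD D) {e : C} (he : e ∈ E) {t t' : C}
    (ht : t ∈ Dd E e) (ht' : t' ∈ Dd E e) : ∃ g ∈ HH E e, g * t * g⁻¹ = t' := by
  have hē := K.im e he
  have h1 := FiPsu.low hP T.tg T.nc T.psu _ hē
  obtain ⟨F, _, _, hF, ⟨E'⟩⟩ := T.psu _ hē
  have hs := isSimple_congr E' (hP F hF)
  obtain ⟨h, hh, hht⟩ := Dd_oneclass_of_simple T.tg.1 T.tg.2.1 hs (T.nc _ hē) (phi_Dd K he ht) (phi_Dd K he ht')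
  have h2 : HH D (φ e) ≤ (HH E e).map φ := by
    rw [HH, Subgroup.closure_le]
    intro x hx
    obtain ⟨y, hy, rfl⟩ := lift_Dd K he hx
    exact ⟨y, mem_HH hy, rfl⟩
  obtain ⟨g, hg, rfl⟩ := h2 hh
  refine ⟨g, hg, ?_⟩
  apply K.phi_inj (K.conj g _ ht.1) ht'.1
  rw [map_mul, map_mul, map_inv]
  exact hht

end Cfsg.Agent.Lib.DC22
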