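import Cfsg.Agent.Lib.DC22A73

/-!
# Double covers of groups of type M(22), part B: the central involution is not generated around a member (helper73)
-/

set_option autoImplicit false
set_option linter.all false

namespace Cfsg.Agent.Lib.DC22

open Module Cfsg Cfsg.Agent.Lib.ThreeRank3 Cfsg.Agent.Lib.ThreeDescent Cfsg.Agent.Lib.ThreeQuot Cfsg.Agent.Lib.FiPar
  Cfsg.Agent.Lib.ThreeSimple Cfsg.Agent.Lib.ThreeTypes Cfsg.Agent.Lib.FiComp Cfsg.Agent.Lib.FiMu
open Cfsg.Agent.Lib.UnTrans Cfsg.Agent.Lib.UnBridge Cfsg.Agent.Lib.H89EA Cfsg.Agent.Lib.H89EB Cfsg.Agent.Lib.H89EC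
  Cfsg.Agent.Lib.H89EE
open Cfsg.Agent.Lib.U6Class hiding TI
open Cfsg.Agent.Lib.FiHex (HD MT YD)
open Cfsg.Agent.Lib.FiUniq (T22)

universe v w

variable {C : Type v} {Q : Type w} [Group C] [Group Q] {φ : C →* Q} {d : C} {D : Set Q} {E : Set C}

theorem not_mem_HH [Finite C] [Finite Q] (hP : PSU62Simple) (K : Cov φ d D E) (T : T22 D) (H : HD D)
    (hno : ∀ X ⊆ E, (∀ x ∈ X, ∀ y ∈ X, Commute x y) → d ∉ Subgroup.closure X) {e : C} (he : e ∈ E) :
    e ∈ HH E e ∧ d ∉ HH E e := by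
  have hē := K.im e he
  have hneD : (Dd D (φ e)).Nonempty := by
    rw [← Set.ncard_pos (Set.toFinite _), H.u1 _ hē]; norm_num
  obtain ⟨b₀, hb₀⟩ := hneD
  obtain ⟨b, hb, rfl⟩ := lift_Dd K he hb₀
  obtain ⟨c, hc, x, hx, y, hy, z, hz, hprod⟩ := exists_line K T H hno he hb
  have hemem : e ∈ HH E e := by
    have : b * c * x * y * z ∈ HH E e :=
      mul_mem (mul_mem (mul_mem (mul_mem (mem_HH hb) (mem_HH hc)) (mem_HH hx)) (mem_HH hy)) (mem_HH hz)
    rwa [hprod] at this
  refine ⟨hemem, fun hd => ?_⟩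
  have hM : ∀ u ∈ HH E e, φ u ∈ HH D (φ e) := by
    have h2 : HH E e ≤ (HH D (φ e)).comap φ := by
      rw [HH, Subgroup.closure_le]
      intro u hu
      exact mem_HH (phi_Dd K he hu)
    exact fun u hu => h2 hu
  let M := HH E e
  let ψ : M →* HH D (φ e) := (φ.comp M.subtype).codRestrict _ (fun u => hM u u.2)
  let ψq : M →* QQ D (φ e) := (QuotientGroup.mk' _).comp ψ
  let e' : M := ⟨e, hemem⟩
  let d' : M := ⟨d, hd⟩
  let N : Subgroup M := Subgroup.zpowers e'
  have hee' : e' * e' = 1 := Subtype.ext (K.sq e he)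
  have hNmem : ∀ u : M, u ∈ N ↔ u = 1 ∨ u = e' := fun u => H89EF.mem_zp hee' u
  have hcenM : ∀ g : M, e' * g = g * e' := fun g => Subtype.ext (HH_commute g.2).eq
  haveI hN : N.Normal := by
    refine ⟨fun n hn g => ?_⟩
    rcases (hNmem n).1 hn with rfl | rfl
    · rw [mul_one, mul_inv_cancel]; exact N.one_mem
    · rw [← hcenM g, mul_inv_cancel_right]; exact hn
  have hψ1 : ∀ u : M, ψq u = 1 ↔ (φ u = 1 ∨ φ u = φ e) := by
    intro u
    have h1 : ψq u = 1 ↔ ∀ y ∈ Dd D (φ e), Commute (φ u) y := mk_eq_one (ψ u)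
    rw [h1]
    constructor
    · intro h; exact T.cc _ hē _ h
    · rintro (h | h) v hv
      · rw [h]; exact Commute.one_left _
      · rw [h]; exact hv.2.2
  have hNψ : ∀ u ∈ N, ψq u = 1 := by
    intro u hu
    rw [hψ1]
    rcases (hNmem u).1 hu with rfl | rfl
    · left; exact map_one φ
    · right; rfl
  let Φ : M ⧸ N →* QQ D (φ e) := QuotientGroup.lift N ψq hNψ
  have hΦ : ∀ u : M, Φ (u : M ⧸ N) = ψq u := fun u => rfl
  -- membership
  have hbr : ∀ (t : C) (ht : t ∈ Dd E e), Φ ((⟨t, mem_HH ht⟩ : M) : M ⧸ N) = br D (φ e) (φ t) (phi_Dd K he ht) := fun t ht => rfl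
  have hsurj : Function.Surjective Φ := by
    have h1 : Subgroup.closure (QD D (φ e)) ≤ Φ.range := by
      rw [Subgroup.closure_le]
      intro q hq
      obtain ⟨t, ht, rfl⟩ := mem_QD.mp hq
      obtain ⟨t', ht', rfl⟩ := lift_Dd K he ht
      exact ⟨_, hbr t' ht'⟩
    rw [QD_closure] at h1
    intro q
    exact h1 (Subgroup.mem_top q)
  have hmkd : ((d' : M) : M ⧸ N) ≠ 1 := by
    intro h
    rw [QuotientGroup.eq_one_iff] at h
    rcases (hNmem _).1 h with h | h
    · exact K.d1 (congrArg Subtype.val h)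
    · have h1 : d = e := congrArg Subtype.val h
      have h2 := K.phi_d
      rw [h1] at h2
      exact one_notin H (by rw [← h2]; exact hē)
  have hker : ∀ u : M ⧸ N, Φ u = 1 ↔ u = 1 ∨ u = ((d' : M) : M ⧸ N) := by
    intro u
    obtain ⟨u, rfl⟩ := QuotientGroup.mk_surjective u
    constructor
    · intro h
      have h' : ψq u = 1 := h
      rcases (hψ1 u).1 h' with h1 | h1
      · rcases (K.ker _).1 h1 with h2 | h2
        · left
          have : u = 1 := Subtype.ext h2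
          rw [this]; rfl
        · right
          have : u = d' := Subtype.ext h2
          rw [this]
      · rcases K.eq_or h1 with h2 | h2
        · left
          have : u = e' := Subtype.ext h2
          rw [this, QuotientGroup.eq_one_iff]
          exact Subgroup.mem_zpowers _
        · right
          have : u = e' * d' := Subtype.ext h2
          have h3 : ((e' : M) : M ⧸ N) = 1 := by
            rw [QuotientGroup.eq_one_iff]; exact Subgroup.mem_zpowers _
          rw [this, QuotientGroup.mk_mul, h3, one_mul]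
    · rintro (h | h)
      · rw [h, map_one]
      · rw [h, hΦ, hψ1]
        left; exact K.phi_d
  have hδδ : ((d' : M) : M ⧸ N) * ((d' : M) : M ⧸ N) = 1 := by
    rw [← QuotientGroup.mk_mul]
    have : d' * d' = 1 := Subtype.ext K.dd
    rw [this]; rfl
  have hnc := T.nc _ hē
  have hD1 := QD_isThree' T.tg hnc
  obtain ⟨F, i1, i2, hF, ⟨E'⟩⟩ := T.psu _ hē
  have hs := hP F hF
  have hneQ : (QD D (φ e)).Nonempty := ⟨_, br_mem (phi_Dd K he hb)⟩
  have hL := Cfsg.Agent.Lib.H89EF.lh_of hF hs hD1 hneQ E'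
  have hlow := FiPsu.low hP T.tg T.nc T.psu _ hē
  set bh : M ⧸ N := ((⟨b, mem_HH hb⟩ : M) : M ⧸ N) with hbh
  have K₁ : Cov Φ ((d' : M) : M ⧸ N) (QD D (φ e)) {u | ∃ g, u = g * bh * g⁻¹} :=
    cov_class hsurj hker hmkd hδδ hL hlow.2.2.2.1 hD1.2.1 (by rw [hbh, hbr b hb]; exact br_mem _)
  -- the class is the image of the members around `e`
  have hcl1 : ∀ u ∈ {u | ∃ g, u = g * bh * g⁻¹}, ∃ (t : C) (ht : t ∈ Dd E e), ((⟨t, mem_HH ht⟩ : M) : M ⧸ N) = u := by
    rintro _ ⟨g, rfl⟩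
    obtain ⟨g, rfl⟩ := QuotientGroup.mk_surjective g
    exact ⟨(g : C) * b * (g : C)⁻¹, Dd_conj_mem K.conj g.2 hb, rfl⟩
  have hcl2 : ∀ (t : C) (ht : t ∈ Dd E e), ((⟨t, mem_HH ht⟩ : M) : M ⧸ N) ∈ {u | ∃ g, u = g * bh * g⁻¹} := by
    intro t ht
    obtain ⟨g, hg, hgt⟩ := one_class_Dd hP K T H he hb ht
    refine ⟨((⟨g, hg⟩ : M) : M ⧸ N), ?_⟩
    have : (⟨t, mem_HH ht⟩ : M) = ⟨g, hg⟩ * ⟨b, mem_HH hb⟩ * (⟨g, hg⟩ : M)⁻¹ := Subtype.ext hgt.symm
    rw [this]; rfl
  -- perfect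
  have hperf : commutator (M ⧸ N) = ⊤ := by
    have hbb : bh * bh = 1 := by
      rw [hbh, ← QuotientGroup.mk_mul]
      have : (⟨b, mem_HH hb⟩ : M) * ⟨b, mem_HH hb⟩ = 1 := Subtype.ext (K.sq b hb.1)
      rw [this]; rfl
    have hab : ∀ u ∈ {u | ∃ g, u = g * bh * g⁻¹}, Abelianization.of u = Abelianization.of bh := by
      rintro _ ⟨g, rfl⟩
      rw [map_mul, map_mul, map_inv, mul_comm (Abelianization.of g), mul_inv_cancel_right]
    have h5 : bh * ((⟨c, mem_HH hc⟩ : M) : M ⧸ N) * ((⟨x, mem_HH hx⟩ : M) : M ⧸ N) * ((⟨y, mem_HH hy⟩ : M) : M ⧸ N) *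
        ((⟨z, mem_HH hz⟩ : M) : M ⧸ N) = 1 := by
      rw [hbh, ← QuotientGroup.mk_mul, ← QuotientGroup.mk_mul, ← QuotientGroup.mk_mul, ← QuotientGroup.mk_mul]
      have : (⟨b, mem_HH hb⟩ : M) * ⟨c, mem_HH hc⟩ * ⟨x, mem_HH hx⟩ * ⟨y, mem_HH hy⟩ * ⟨z, mem_HH hz⟩ = e' := Subtype.ext hprod
      rw [this, QuotientGroup.eq_one_iff]
      exact Subgroup.mem_zpowers _
    have h1 : Abelianization.of bh = 1 := by
      have h6 := congrArg Abelianization.of h5
      rw [map_mul, map_mul, map_mul, map_mul, hab _ (hcl2 c hc), hab _ (hcl2 x hx), hab _ (hcl2 y hy), hab _ (hcl2 z hz),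
        map_one] at h6
      have h7 : Abelianization.of bh * Abelianization.of bh = 1 := by rw [← map_mul, hbb, map_one]
      calc Abelianization.of bh = (Abelianization.of bh * Abelianization.of bh) * (Abelianization.of bh * Abelianization.of bh) * Abelianization.of bh := by
            rw [h7, one_mul, one_mul]
        _ = Abelianization.of bh * Abelianization.of bh * Abelianization.of bh * Abelianization.of bh * Abelianization.of bh := by
            simp only [mul_assoc]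
        _ = 1 := h6
    rw [eq_top_iff]
    have h2 : Subgroup.closure {u : M ⧸ N | ∃ g, u = g * bh * g⁻¹} ≤ commutator (M ⧸ N) := by
      rw [Subgroup.closure_le]
      intro u hu
      have h3 : Abelianization.of u = 1 := (hab u hu).trans h1
      rw [← Abelianization.ker_of]
      exact h3
    refine le_trans ?_ h2
    rintro u -
    obtain ⟨u, rfl⟩ := QuotientGroup.mk_surjective u
    have h4 : M ≤ ((Subgroup.closure {u : M ⧸ N | ∃ g, u = g * bh * g⁻¹}).comap (QuotientGroup.mk' N)).map M.subtype := by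
      show Subgroup.closure (Dd E e) ≤ _
      rw [Subgroup.closure_le]
      intro t ht
      exact ⟨⟨t, mem_HH ht⟩, Subgroup.subset_closure (hcl2 t ht), rfl⟩
    obtain ⟨u', hu', huu⟩ := h4 u.2
    have : u' = u := Subtype.ext huu
    rw [← this]; exact hu'
  -- the totally isotropic 3-spaces
  have hF' : Fintype.card F = 2 ^ 2 := by rw [hF]; norm_num
  haveI : CharP F 2 := by
    obtain ⟨h, _⟩ := setup_of_equiv hF hD1 hneQ E'
    exact h
  obtain ⟨π, S⟩ := Cfsg.Agent.Lib.H89MV.exists_setup hF' hD1 hneQ E'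
  obtain ⟨w, yy, B⟩ := exists_HB (F := F) hF'
  have hT : TI (hermForm 6 F 2) (Submodule.span F (Set.range w)) := ti_span B (herm_HS 6 hF')
  have hmem := d_mem_all K₁ S hperf hlow.2.2.2.2.1 B hT
  -- pull back
  let X : Set C := {t | ∃ ht : t ∈ Dd E e, Φ ((⟨t, mem_HH ht⟩ : M) : M ⧸ N) ∈ TW S (Submodule.span F (Set.range w))}
  have hpb : LW K₁ S (Submodule.span F (Set.range w)) ≤
      (Subgroup.closure {t : M | (t : C) ∈ X}).map (QuotientGroup.mk' N) := by
    rw [LW, Subgroup.closure_le]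
    rintro u ⟨hu, hu'⟩
    obtain ⟨t, ht, rfl⟩ := hcl1 u hu
    exact ⟨⟨t, mem_HH ht⟩, Subgroup.subset_closure ⟨ht, hu'⟩, rfl⟩
  obtain ⟨z₁, hz₁, hzd⟩ := hpb hmem
  have hXE : X ⊆ E := fun t ht => ht.1.1
  have hXc : ∀ t ∈ X, ∀ t' ∈ X, Commute t t' := by
    rintro t ⟨ht, h1⟩ t' ⟨ht', h1'⟩
    have h2 := comm_of_sq (TW_sq S hT.iso) (Subgroup.subset_closure h1) (Subgroup.subset_closure h1')
    have h3 : Commute (br D (φ e) (φ t) (phi_Dd K he ht)) (br D (φ e) (φ t') (phi_Dd K he ht')) := h2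
    rw [br_comm T.tg.1] at h3
    exact (K.comm_iff ht.1 ht'.1).2 h3
  refine hno (insert e X) ?_ ?_ ?_
  · rintro t (rfl | ht)
    · exact he
    · exact hXE ht
  · rintro t (rfl | ht) t' (rfl | ht')
    · exact Commute.refl _
    · exact ht'.1.2.2
    · exact ht.1.2.2.symm
    · exact hXc t ht t' ht'
  · have h1 : (z₁ : C) ∈ Subgroup.closure (insert e X) := by
      have h2 : Subgroup.closure {t : M | (t : C) ∈ X} ≤ (Subgroup.closure (insert e X)).comap M.subtype := by
        rw [Subgroup.closure_le]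
        intro t ht
        exact Subgroup.subset_closure (Or.inr ht)
      exact h2 hz₁
    have h3 : ((z₁ : M) : M ⧸ N) = ((d' : M) : M ⧸ N) := hzd
    rw [QuotientGroup.eq] at h3
    rcases (hNmem _).1 h3 with h4 | h4
    · have h5 : z₁ = d' := by
        rw [inv_mul_eq_one] at h4; exact h4
      have h6 : (z₁ : C) = d := congrArg Subtype.val h5
      rwa [h6] at h1
    · have h5 : d' = z₁ * e' := by rw [← h4]; group
      have h6 : d = (z₁ : C) * e := congrArg Subtype.val h5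
      rw [h6]
      exact mul_mem h1 (Subgroup.subset_closure (Or.inl rfl))

end Cfsg.Agent.Lib.DC22
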