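import Cfsg.Agent.Lib.DC22B73
import Cfsg.Agent.Lib.FiPath42

/-!
# Double covers of groups of type M(22), part C: the central involution is a product of commuting lifts (helper73)
-/

set_option autoImplicit false
set_option linter.all false

namespace Cfsg.Agent.Lib.DC22

open Module Cfsg Cfsg.Agent.Lib.ThreeRank3 Cfsg.Agent.Lib.ThreeDescent Cfsg.Agent.Lib.ThreeQuot Cfsg.Agent.Lib.FiPar
  Cfsg.Agent.Lib.ThreeSimple Cfsg.Agent.Lib.ThreeTypes Cfsg.Agent.Lib.FiComp Cfsg.Agent.Lib.FiMu
open Cfsg.Agent.Lib.H89EB Cfsg.Agent.Lib.H89EC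
open Cfsg.Agent.Lib.FiHex (HD MT YD)
open Cfsg.Agent.Lib.FiUniq (T22)

universe v w

section two

variable {G : Type v} [Group G] {D : Set G}

theorem lift_cl2 (hD : IsThreeTranspositionGroup D) {p a : G} (ha : a ∈ Dd D p) {t : QQ D p}
    (ht : t ∈ Subgroup.closure {x | x ∈ QD D p ∧ Commute (br D p a ha) x}) :
    ∃ k : HH D p, (k : G) ∈ Subgroup.closure {x | x ∈ D ∧ Commute x p ∧ Commute x a} ∧ (QuotientGroup.mk k : QQ D p) = t := by
  refine Subgroup.closure_induction (p := fun t _ => ∃ k : HH D p,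
      (k : G) ∈ Subgroup.closure {x | x ∈ D ∧ Commute x p ∧ Commute x a} ∧ (QuotientGroup.mk k : QQ D p) = t)
    ?_ ?_ ?_ ?_ ht
  · rintro _ ⟨hx, hax⟩
    obtain ⟨b, hb, rfl⟩ := mem_QD.mp hx
    exact ⟨⟨b, mem_HH hb⟩, Subgroup.subset_closure ⟨hb.1, hb.2.2.symm, ((br_comm hD.1 ha hb).mp hax).symm⟩, rfl⟩
  · exact ⟨1, Subgroup.one_mem _, rfl⟩
  · rintro x y _ _ ⟨k1, h1, rfl⟩ ⟨k2, h2, rfl⟩
    exact ⟨k1 * k2, Subgroup.mul_mem _ h1 h2, rfl⟩
  · rintro x _ ⟨k1, h1, rfl⟩
    exact ⟨k1⁻¹, Subgroup.inv_mem _ h1, rfl⟩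

theorem cent_two (hD : IsThreeTranspositionGroup D) (hCM : CM D) (hCMQ : ∀ e ∈ D, CM (QD D e))
    (hcc : ∀ d ∈ D, ∀ g : G, (∀ e ∈ Dd D d, Commute g e) → g = 1 ∨ g = d) {p a g : G} (hp : p ∈ D) (ha : a ∈ Dd D p)
    (hgp : Commute g p) (hga : Commute g a) : g ∈ Subgroup.closure {x | x ∈ D ∧ Commute x p ∧ Commute x a} := by
  have hpS : p ∈ Subgroup.closure {x | x ∈ D ∧ Commute x p ∧ Commute x a} :=
    Subgroup.subset_closure ⟨hp, Commute.refl p, ha.2.2⟩
  have key : ∀ h ∈ HH D p, Commute h a → h ∈ Subgroup.closure {x | x ∈ D ∧ Commute x p ∧ Commute x a} := by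
    intro h hh hc
    have h1 := hCMQ p hp _ (br_mem ha) (QuotientGroup.mk (⟨h, hh⟩ : HH D p)) (by
      show (QuotientGroup.mk (⟨h, hh⟩ : HH D p) : QQ D p) * br D p a ha = br D p a ha * QuotientGroup.mk (⟨h, hh⟩ : HH D p)
      rw [br, ← QuotientGroup.mk_mul, ← QuotientGroup.mk_mul]
      congr 1
      exact Subtype.ext hc)
    obtain ⟨k', hk, hk'⟩ := lift_cl2 hD ha h1
    have h2 : k'⁻¹ * (⟨h, hh⟩ : HH D p) ∈ Subgroup.center (HH D p) := by
      rw [← QuotientGroup.eq]; exact hk'
    rw [mem_center_HH] at h2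
    have h3 := hcc p hp _ h2
    have e1 : h = (k' : G) * ((k'⁻¹ * (⟨h, hh⟩ : HH D p) : HH D p) : G) := by
      show h = (k' : G) * ((k' : G)⁻¹ * h)
      group
    rw [e1]
    apply Subgroup.mul_mem _ hk
    rcases h3 with h3 | h3
    · rw [h3]; exact Subgroup.one_mem _
    · rw [h3]; exact hpS
  rcases MM_cases hD.1 hp (hCM p hp g hgp) with h | h
  · exact key g h hga
  · have h1 := key _ h (hga.mul_left ha.2.2)
    have e1 : g = g * p * p := by rw [mul_assoc, sq_one hD.1 hp, mul_one]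
    rw [e1]
    exact mul_mem h1 hpS

/-- the order of the centralizer of two commuting members -/
theorem card_cent_two [Finite G] (hP : PSU62Simple) (hD : IsThreeTranspositionGroup D) (hprim : IsPrimitiveUnderConj D)
    (h22 : IsOfTypeM22 G D) {e f : G} (he : e ∈ D) (hf : f ∈ Dd D e) :
    Nat.card G = 3510 * (693 * Nat.card ↥(Subgroup.centralizer ({e} : Set G) ⊓ Subgroup.centralizer ({f} : Set G))) := by
  obtain ⟨L, hPar, -, -, -, -⟩ := full22 hP hD hprim h22
  have h1 := card_class hD.2.1 hprim.1 he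
  rw [hPar.card] at h1
  rw [h1]
  congr 1
  have h2 := card_range_mul (G := ↥(Subgroup.centralizer ({e} : Set G))) (fun g => (g : G) * f * (g : G)⁻¹)
    ((Subgroup.centralizer ({f} : Set G)).subgroupOf (Subgroup.centralizer ({e} : Set G)))
    (fun a b => by rw [Subgroup.mem_subgroupOf]; exact conj_eq_iff)
  have h3 : Set.range (fun g : ↥(Subgroup.centralizer ({e} : Set G)) => (g : G) * f * (g : G)⁻¹) = Dd D e := by
    ext x
    constructor
    · rintro ⟨g, rfl⟩
      have hg := Subgroup.mem_centralizer_singleton_iff.mp g.2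
      have := Dd_conj hD.2.1 (g := (g : G)) hf
      rwa [show (g : G) * e * (g : G)⁻¹ = e by rw [hg]; group] at this
    · intro hx
      obtain ⟨h, hh, hhx⟩ := transitive_on_commuting hD hprim he hf hx
      refine ⟨⟨h, ?_⟩, hhx⟩
      rw [Subgroup.mem_centralizer_singleton_iff]
      exact (commute_of_mem_closure (fun z hz => hz.2.2) hh).symm.eq
  rw [h3, hPar.c1 e he] at h2
  rw [h2]
  congr 1
  apply Nat.card_congr
  refine (Equiv.ofBijective (fun x => ⟨(x.1 : G), ⟨x.1.2, x.2⟩⟩) ⟨?_, ?_⟩)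
  · intro a b hab
    have h := congrArg (fun z : ↥(Subgroup.centralizer ({e} : Set G) ⊓ Subgroup.centralizer ({f} : Set G)) => (z : G)) hab
    exact Subtype.ext (Subtype.ext h)
  · rintro ⟨x, hx1, hx2⟩
    exact ⟨⟨⟨x, hx1⟩, hx2⟩, rfl⟩

end two

variable {C : Type v} {Q : Type w} [Group C] [Group Q] {φ : C →* Q} {d : C} {D : Set Q} {E : Set C}

/-- **the central involution of a perfect double cover is a product of commuting lifts** -/
theorem exists_comm_mem [Finite C] [Finite Q] (hP : PSU62Simple) (K : Cov φ d D E) (T : T22 D) (Y : YD D)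
    (hprim : IsPrimitiveUnderConj D) (h22 : IsOfTypeM22 Q D) (hperf : commutator C = ⊤) :
    ∃ X ⊆ E, (∀ x ∈ X, ∀ y ∈ X, Commute x y) ∧ d ∈ Subgroup.closure X := by
  by_contra hcon
  have hno : ∀ X ⊆ E, (∀ x ∈ X, ∀ y ∈ X, Commute x y) → d ∉ Subgroup.closure X := by
    intro X hX hc hd
    exact hcon ⟨X, hX, hc, hd⟩
  have H := Y.hd
  have hD := T.tg
  -- members
  have h22' := h22
  obtain ⟨_, p₀, hp₀, e₀, he₀, hpe, _⟩ := h22
  have hq : ∃ q ∈ Dd D p₀, ¬ Commute q e₀ := by
    by_contra h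
    push Not at h
    have h1 : Dd D p₀ ⊆ Dd D p₀ ∩ Dd D e₀ := fun q hq => ⟨hq, hq.1, fun h' => hpe (h' ▸ hq.2.2), (h q hq).symm⟩
    have h2 := Set.ncard_le_ncard h1 (Set.toFinite _)
    rw [H.u1 _ hp₀, Y.mu _ hp₀ _ he₀ hpe] at h2
    norm_num at h2
  obtain ⟨q₀, hq₀, hqe⟩ := hq
  obtain ⟨p, hp, rfl⟩ := K.lift _ hp₀
  obtain ⟨e, he, rfl⟩ := K.lift _ he₀
  obtain ⟨q, hq, rfl⟩ := lift_Dd K hp hq₀
  have hpe' : ¬ Commute (φ e) (φ p) := fun h => hpe h.symm
  have hqe' : ¬ Commute (φ e) (φ q) := fun h => hqe h.symm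
  have hpq : Commute p q := hq.2.2
  set g := p * q with hg
  have hgg : g * g = 1 := by
    calc p * q * (p * q) = p * (q * p) * q := by group
      _ = p * (p * q) * q := by rw [hpq.eq]
      _ = (p * p) * (q * q) := by group
      _ = 1 := by rw [K.sq p hp, K.sq q hq.1, one_mul]
  have hginv : g⁻¹ = g := inv_eq_of_mul_eq_one_left hgg
  set f := g * e * g⁻¹ with hf
  have hfE : f ∈ E := K.conj g e he
  have hfe : g * f * g⁻¹ = e := by
    rw [hf, hginv]
    calc g * (g * e * g) * g = (g * g) * e * (g * g) := by group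
      _ = e := by rw [hgg]; group
  have hcf : Commute (φ e) (φ f) := by
    have := commute_conj_prod hD.1 hp₀ hq₀.1 he₀ hq₀.2.2 hpe' hqe'
    rw [hf, hg, map_mul, map_mul, map_inv, map_mul]
    exact this
  have hgnc : ¬ Commute g e := by
    intro h
    have h1 : Commute (φ e) ([φ p, φ q].prod) := by
      rw [List.prod_cons, List.prod_cons, List.prod_nil, mul_one, ← map_mul]
      exact h.symm.map φ
    have h2 := T.cf [φ p, φ q] ⟨by simp [hq₀.2.1.symm], rfl, by
      intro a ha
      simp only [List.mem_cons, List.not_mem_nil, or_false] at ha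
      rcases ha with rfl | rfl
      exacts [hp₀, hq₀.1], by
      intro a ha b hb
      simp only [List.mem_cons, List.not_mem_nil, or_false] at ha hb
      rcases ha with rfl | rfl <;> rcases hb with rfl | rfl
      exacts [Commute.refl _, hq₀.2.2, hq₀.2.2.symm, Commute.refl _]⟩ _ he₀ h1 (φ p) (by simp)
    exact hpe' h2
  have hfe1 : f ≠ e := by
    intro h
    exact hgnc (mul_inv_eq_iff_eq_mul.mp h)
  have hfD : φ f ∈ Dd D (φ e) := ⟨K.im f hfE, fun h => hfe1 (K.phi_inj hfE he h), hcf⟩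
  obtain ⟨heM, hdM⟩ := not_mem_HH hP K T H hno he
  set S₂ : Set C := {x | x ∈ E ∧ Commute x e ∧ Commute x f} with hS₂
  set M := Subgroup.closure S₂ with hM
  have hMle : M ≤ HH E e := by
    rw [hM, Subgroup.closure_le]
    rintro x ⟨hx, hxe, -⟩
    by_cases h : x = e
    · rw [h]; exact heM
    · exact mem_HH ⟨hx, h, hxe.symm⟩
  have hdM' : d ∉ M := fun h => hdM (hMle h)
  have hMe : ∀ x ∈ M, Commute x e := fun x hx => (commute_of_mem_closure (fun y hy => hy.2.1.symm) hx).symm
  -- `g` normalizes `M`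
  have hgS : ∀ x ∈ S₂, g * x * g⁻¹ ∈ S₂ := by
    rintro x ⟨hx, h1, h2⟩
    refine ⟨K.conj g x hx, ?_, ?_⟩
    · have := (commute_conj_iff (g := g)).mpr h2
      rwa [hfe] at this
    · exact (commute_conj_iff (g := g)).mpr h1
  have hgM : ∀ x ∈ M, g * x * g⁻¹ ∈ M := by
    intro x hx
    have h1 : M ≤ M.comap (MulAut.conj g).toMonoidHom := by
      rw [hM, Subgroup.closure_le]
      intro y hy
      exact Subgroup.subset_closure (hgS y hy)
    exact h1 hx
  have hgnM : g ∉ M := fun h => hgnc (hMe g h)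
  -- the subgroup of index two times an odd number
  let P₀ : Subgroup C :=
    { carrier := {x | x ∈ M ∨ x * g ∈ M}
      one_mem' := Or.inl M.one_mem
      mul_mem' := by
        have c1 : ∀ {x : C}, x ∈ M → g * x * g ∈ M := fun hx => by have := hgM _ hx; rwa [hginv] at this
        rintro a b (ha | ha) (hb | hb)
        · exact Or.inl (mul_mem ha hb)
        · right; show a * b * g ∈ M; rw [mul_assoc]; exact mul_mem ha hb
        · right; show a * b * g ∈ M
          have : a * b * g = (a * g) * (g * b * g) := by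
            calc a * b * g = a * (g * g) * b * g := by rw [hgg]; group
              _ = _ := by group
          rw [this]; exact mul_mem ha (c1 hb)
        · left; show a * b ∈ M
          have : a * b = (a * g) * (g * (b * g) * g) := by
            calc a * b = a * (g * g) * b * (g * g) := by rw [hgg]; group
              _ = _ := by group
          rw [this]; exact mul_mem ha (c1 hb)
      inv_mem' := by
        rintro a (ha | ha)
        · exact Or.inl (inv_mem ha)
        · right; show a⁻¹ * g ∈ M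
          have : a⁻¹ * g = g * (a * g)⁻¹ * g := by
            rw [mul_inv_rev, hginv]
            calc a⁻¹ * g = (g * g) * a⁻¹ * g := by rw [hgg]; group
              _ = _ := by group
          have h1 := hgM _ (inv_mem ha)
          rw [hginv] at h1
          rw [this]; exact h1 }
  have hP₀ : ∀ x, x ∈ P₀ ↔ x ∈ M ∨ x * g ∈ M := fun x => Iff.rfl
  have hdP : d ∉ P₀ := by
    rw [hP₀]
    rintro (h | h)
    · exact hdM' h
    · apply hgnc
      have h1 := hMe _ h
      have h2 : Commute d e := K.dc e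
      have h3 : g = d * (d * g) := by rw [← mul_assoc, K.dd, one_mul]
      rw [h3]
      exact h2.mul_left h1
  -- orders
  have hcardM : Nat.card M = Nat.card ↥(Subgroup.centralizer ({φ e} : Set Q) ⊓ Subgroup.centralizer ({φ f} : Set Q)) := by
    have h1 : M.map φ = Subgroup.centralizer ({φ e} : Set Q) ⊓ Subgroup.centralizer ({φ f} : Set Q) := by
      apply le_antisymm
      · rw [hM, MonoidHom.map_closure, Subgroup.closure_le]
        rintro _ ⟨x, ⟨hx, h1, h2⟩, rfl⟩
        exact ⟨Subgroup.mem_centralizer_singleton_iff.mpr (h1.map φ).eq, Subgroup.mem_centralizer_singleton_iff.mpr (h2.map φ).eq⟩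
      · rintro x ⟨h1, h2⟩
        have h1' : Commute x (φ e) := Subgroup.mem_centralizer_singleton_iff.mp h1
        have h2' : Commute x (φ f) := Subgroup.mem_centralizer_singleton_iff.mp h2
        have h3 := cent_two hD T.cm (fun e he => (FiPsu.low hP hD T.nc T.psu e he).2.2.2.1) T.cc he₀ hfD h1' h2'
        refine (?_ : Subgroup.closure _ ≤ _) h3
        rw [Subgroup.closure_le]
        rintro y ⟨hy, hye, hyf⟩
        obtain ⟨x, hx, rfl⟩ := K.lift y hy
        exact ⟨x, Subgroup.subset_closure ⟨hx, (K.comm_iff hx he).2 hye, (K.comm_iff hx hfE).2 hyf⟩, rfl⟩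
    rw [← h1]
    apply Nat.card_congr
    refine Equiv.ofBijective (fun x : M => (⟨φ x, ⟨x, x.2, rfl⟩⟩ : M.map φ)) ⟨?_, ?_⟩
    · intro a b hab
      have h2 : φ a = φ b := congrArg Subtype.val hab
      rcases K.eq_or h2 with h3 | h3
      · exact Subtype.ext h3
      · exfalso
        apply hdM'
        have : d = (b : C)⁻¹ * a := by rw [h3]; group
        rw [this]
        exact mul_mem (inv_mem b.2) a.2
    · rintro ⟨_, x, hx, rfl⟩
      exact ⟨⟨x, hx⟩, rfl⟩
  have hcardP : Nat.card P₀ = 2 * Nat.card M := by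
    have hle : M ≤ P₀ := fun x hx => Or.inl hx
    have h1 : M.relIndex P₀ = 2 := by
      rw [Subgroup.relIndex, Subgroup.index_eq_two_iff]
      refine ⟨⟨g, (hP₀ g).2 (Or.inr (by rw [hgg]; exact M.one_mem))⟩, ?_⟩
      rintro ⟨b, hb⟩
      simp only [Subgroup.mem_subgroupOf]
      show Xor' (b * g ∈ M) (b ∈ M)
      rcases (hP₀ b).1 hb with h | h
      · right
        refine ⟨h, fun h' => hgnM ?_⟩
        have : g = b⁻¹ * (b * g) := by group
        rw [this]; exact mul_mem (inv_mem h) h'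
      · left
        refine ⟨h, fun h' => hgnM ?_⟩
        have : g = b⁻¹ * (b * g) := by group
        rw [this]; exact mul_mem (inv_mem h') h
    have h2 := Subgroup.relIndex_mul_index hle
    have h3 := Subgroup.card_mul_index M
    have h4 := Subgroup.card_mul_index P₀
    rw [h1] at h2
    have h5 : 0 < P₀.index := Nat.pos_of_ne_zero Subgroup.index_ne_zero_of_finite
    have h6 : Nat.card P₀ * P₀.index = (2 * Nat.card M) * P₀.index := by
      rw [h4, ← h3, ← h2]; ring
    exact Nat.eq_of_mul_eq_mul_right h5 h6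
  have hidx : P₀.index % 4 = 2 := by
    have h1 := card_cent_two hP hD hprim h22' he₀ hfD
    have h2 := card_cov K
    have h3 := Subgroup.card_mul_index P₀
    rw [h2, h1, hcardP, hcardM] at h3
    set m := Nat.card ↥(Subgroup.centralizer ({φ e} : Set Q) ⊓ Subgroup.centralizer ({φ f} : Set Q)) with hm
    have hm0 : 0 < m := Nat.card_pos
    have h4 : (2 * m) * P₀.index = (2 * m) * 2432430 := by rw [h3]; ring
    have h5 := Nat.eq_of_mul_eq_mul_left (by omega) h4
    rw [h5]
  exact no_complement hperf K.dd K.dc hdP hidx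

end Cfsg.Agent.Lib.DC22
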