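import Cfsg.Agent.Lib.H89EB1
/-
The Thompson subgroup of a Sylow 2-subgroup of a group of type M(22) (helper89).
-/
set_option autoImplicit false
set_option linter.all false

namespace Cfsg.Agent.Lib.H89EB

open Cfsg Cfsg.Agent.Lib.ThreeRank3 Cfsg.Agent.Lib.ThreeDescent Cfsg.Agent.Lib.ThreeQuot Cfsg.Agent.Lib.FiPar
  Cfsg.Agent.Lib.ThreeSimple Cfsg.Agent.Lib.ThreeTypes Cfsg.Agent.Lib.FiComp Cfsg.Agent.Lib.FiMu
open Cfsg.Agent.Lib.UnTrans Cfsg.Agent.Lib.UnBridge Cfsg.Agent.Lib.H89MV Cfsg.Agent.Lib.H89EA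
open Cfsg.Agent.Lib.U6Class (SS P tr)

theorem exists_max {G : Type*} [Group G] [Finite G] {D : Set G} (hP : PSU62Simple) (hD : Cfsg.IsThreeTranspositionGroup D)
    (hprim : Cfsg.IsPrimitiveUnderConj D) (h22 : Cfsg.IsOfTypeM22 G D) :
    ∃ A : Subgroup G, (∀ a ∈ A, a * a = 1) ∧ Nat.card A = 2 ^ 10 := by
  have hpar := (full22 hP hD hprim h22).2.1
  obtain ⟨a, ha, _⟩ := hprim.2.1
  obtain ⟨d₂, hd₂⟩ : (Dd D a).Nonempty := by
    rw [← Set.ncard_pos (Set.toFinite _), hpar.c1 a ha]; norm_num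
  obtain ⟨F, _, _, _, hF, π, C⟩ := exists_ctx hP hD hprim h22 ha hd₂
  have K := cov22 C
  obtain ⟨w, y, B⟩ := exists_HB (F := F) hF
  haveI : Finite (QQ D a) := inferInstance
  obtain ⟨h1, h2⟩ := existsA K C.S B
  set A₁ := Subgroup.closure (insert (⟨a, C.d1_mem⟩ : HH D a) (EW {x : HH D a | (x : G) ∈ Dd D a}
    (QuotientGroup.mk' (Subgroup.center (HH D a))) C.S (Submodule.span F (Set.range w)))) with hA₁
  refine ⟨Subgroup.map (HH D a).subtype A₁, ?_, ?_⟩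
  · rintro _ ⟨x, hx, rfl⟩
    exact congrArg Subtype.val (h1 x hx)
  · rw [← h2]
    exact Nat.card_congr (Subgroup.equivMapOfInjective _ (HH D a).subtype (Subgroup.subtype_injective _)).symm.toEquiv

theorem comm_of_sylow {G : Type*} [Group G] [Finite G] {D : Set G} (hD : Cfsg.IsThreeTranspositionGroup D) (T : Sylow 2 G)
    {x y : G} (hx : x ∈ D) (hy : y ∈ D) (hxT : x ∈ (T : Subgroup G)) (hyT : y ∈ (T : Subgroup G)) : Commute x y := by
  rcases hD.1.2 x hx y hy with h | h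
  · exact commute_of_sq (sq_one hD.1 hx) (sq_one hD.1 hy) h
  · obtain ⟨n, hn⟩ := T.isPGroup' ⟨x * y, (T : Subgroup G).mul_mem hxT hyT⟩
    have hn' : (x * y) ^ 2 ^ n = 1 := congrArg Subtype.val hn
    have h1 : orderOf (x * y) ∣ 3 := orderOf_dvd_of_pow_eq_one h
    have h2 : orderOf (x * y) ∣ 2 ^ n := orderOf_dvd_of_pow_eq_one hn'
    have h3 : orderOf (x * y) ∣ 1 := by
      have : Nat.Coprime 3 (2 ^ n) := Nat.Coprime.pow_right _ (by norm_num)
      rw [← this]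
      exact Nat.dvd_gcd h1 h2
    have h4 : x * y = 1 := orderOf_eq_one_iff.1 (Nat.dvd_one.1 h3)
    have h5 : y = x⁻¹ := eq_inv_of_mul_eq_one_right h4
    rw [h5]
    exact (Commute.refl x).inv_right

/-- **the Thompson subgroup of a Sylow 2-subgroup** -/
theorem thompson22 {G : Type*} [Group G] [Finite G] {D : Set G} (hP : PSU62Simple) (hD : Cfsg.IsThreeTranspositionGroup D)
    (hprim : Cfsg.IsPrimitiveUnderConj D) (h22 : Cfsg.IsOfTypeM22 G D) (T : Sylow 2 G) :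
    ∃ A : Subgroup G, A ≤ (T : Subgroup G) ∧ (∀ a ∈ A, a * a = 1) ∧ Nat.card A = 2 ^ 10 ∧
      Subgroup.closure {x : G | x ∈ D ∧ x ∈ (T : Subgroup G)} = A ∧
      (∀ B : Subgroup G, B ≤ (T : Subgroup G) → (∀ b ∈ B, b * b = 1) → Nat.card B ≤ 2 ^ 10) ∧
      (∀ B : Subgroup G, B ≤ (T : Subgroup G) → (∀ b ∈ B, b * b = 1) → Nat.card B = 2 ^ 10 → B = A) := by
  obtain ⟨A₀, hA₀, hc₀⟩ := exists_max hP hD hprim h22
  have hpg : IsPGroup 2 A₀ := isPGroup_of_sq A₀ hA₀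
  obtain ⟨P, hP'⟩ := hpg.exists_le_sylow
  obtain ⟨g, hg⟩ := MulAction.exists_smul_eq G P T
  set A : Subgroup G := A₀.map (MulAut.conj g).toMonoidHom with hA
  have hAsq : ∀ a ∈ A, a * a = 1 := by
    rintro _ ⟨x, hx, rfl⟩
    rw [← map_mul, hA₀ x hx, map_one]
  have hAc : Nat.card A = 2 ^ 10 := by
    rw [← hc₀]
    exact Nat.card_congr (Subgroup.equivMapOfInjective _ (MulAut.conj g).toMonoidHom (MulAut.conj g).injective).symm.toEquiv
  have hAT : A ≤ (T : Subgroup G) := by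
    rintro _ ⟨x, hx, rfl⟩
    rw [← hg]
    exact ⟨x, hP' hx, rfl⟩
  obtain ⟨d, hd, hdA⟩ := mem22 hP hD hprim h22 hAsq (le_of_eq hAc.symm)
  obtain ⟨hAcl, hAmax, _⟩ := (struct22_of_mem hP hD hprim h22 hAsq hd hdA).2 hAc
  have hDT : ∀ x ∈ D, x ∈ (T : Subgroup G) → x ∈ A := by
    intro x hx hxT
    exact hAmax x hx (fun y hy hyA => comm_of_sylow hD T hy hx (hAT hyA) hxT)
  refine ⟨A, hAT, hAsq, hAc, ?_, ?_, ?_⟩
  · apply le_antisymm
    · rw [Subgroup.closure_le]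
      rintro x ⟨hx, hxT⟩
      exact hDT x hx hxT
    · conv_lhs => rw [hAcl]
      rw [Subgroup.closure_le]
      rintro x ⟨hx, hxA⟩
      exact Subgroup.subset_closure ⟨hx, hAT hxA⟩
  · intro B hBT hB
    by_contra hlt
    push Not at hlt
    obtain ⟨d', hd', hdB⟩ := mem22 hP hD hprim h22 hB hlt.le
    exact absurd (struct22_of_mem hP hD hprim h22 hB hd' hdB).1 (not_le.2 hlt)
  · intro B hBT hB hBc
    obtain ⟨d', hd', hdB⟩ := mem22 hP hD hprim h22 hB (le_of_eq hBc.symm)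
    obtain ⟨hBcl, _, _⟩ := (struct22_of_mem hP hD hprim h22 hB hd' hdB).2 hBc
    have hBA : B ≤ A := by
      rw [hBcl, Subgroup.closure_le]
      rintro x ⟨hx, hxB⟩
      exact hDT x hx (hBT hxB)
    exact Subgroup.eq_of_le_of_card_ge hBA (by rw [hBc, hAc])

end Cfsg.Agent.Lib.H89EB
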