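import Cfsg.Agent.Lib.DC22C73
import Cfsg.Agent.Lib.FiHex2
import Cfsg.Agent.Lib.H89EB2
import Cfsg.Agent.Lib.FiLift91b

/-!
# Groups of type M(22): the maximal elementary abelian subgroups (helper73)
-/

set_option autoImplicit false
set_option linter.all false

namespace Cfsg.Agent.Lib.DC22

open Module Cfsg Cfsg.Agent.Lib.ThreeRank3 Cfsg.Agent.Lib.ThreeDescent Cfsg.Agent.Lib.ThreeQuot Cfsg.Agent.Lib.FiPar
  Cfsg.Agent.Lib.ThreeSimple Cfsg.Agent.Lib.ThreeTypes Cfsg.Agent.Lib.FiComp Cfsg.Agent.Lib.FiMu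
open Cfsg.Agent.Lib.H89EB Cfsg.Agent.Lib.H89EC
open Cfsg.Agent.Lib.FiHex (HD MT YD Hx Bs IsBase)
open Cfsg.Agent.Lib.H89EA (isPGroup_of_sq comm_of_sq closure_sq)

universe v

/-- the hypotheses on the quotient -/
structure Q22 {Q : Type v} [Group Q] (D : Set Q) : Prop where
  tg : IsThreeTranspositionGroup D
  prim : IsPrimitiveUnderConj D
  m22 : IsOfTypeM22 Q D

/-- elementary abelian of maximal order -/
structure MX {Q : Type v} [Group Q] (A : Subgroup Q) : Prop where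
  sq : ∀ a ∈ A, a * a = 1
  card : Nat.card A = 2 ^ 10

/-- the members of the class in the subgroup -/
def dA {Q : Type v} [Group Q] (D : Set Q) (A : Subgroup Q) : Set Q := {x | x ∈ D ∧ x ∈ A}

section Q

variable {Q : Type v} [Group Q] [Finite Q] {D : Set Q} (hP : PSU62Simple) (W : Q22 D)

include hP W in
theorem MX.mem {A : Subgroup Q} (h : MX A) : ∃ d ∈ D, d ∈ A := mem22 hP W.tg W.prim W.m22 h.sq (le_of_eq h.card.symm)

include hP W in
theorem MX.struct {A : Subgroup Q} (h : MX A) : A = Subgroup.closure (dA D A) ∧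
      (∀ x ∈ D, (∀ y ∈ D, y ∈ A → Commute y x) → x ∈ A) ∧ (dA D A).ncard = 22 := by
  obtain ⟨d, hd, hdA⟩ := h.mem hP W
  exact (struct22_of_mem hP W.tg W.prim W.m22 h.sq hd hdA).2 h.card

include hP W in
theorem le10 {A : Subgroup Q} (h : ∀ a ∈ A, a * a = 1) : Nat.card A ≤ 2 ^ 10 := by
  by_contra hcon
  push Not at hcon
  obtain ⟨d, hd, hdA⟩ := mem22 hP W.tg W.prim W.m22 h hcon.le
  exact absurd (struct22_of_mem hP W.tg W.prim W.m22 h hd hdA).1 (not_le.2 hcon)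

theorem MX.comm {A : Subgroup Q} (h : MX A) {x y : Q} (hx : x ∈ A) (hy : y ∈ A) : Commute x y := comm_of_sq h.sq hx hy

include hP W in
theorem MX.base {A : Subgroup Q} (h : MX A) : IsBase D (dA D A) := by
  obtain ⟨h1, h2, h3⟩ := h.struct hP W
  refine ⟨fun x hx => hx.1, fun a ha b hb => h.comm ha.2 hb.2, h3, ?_⟩
  intro t ht hall
  exact ⟨ht, h2 t ht (fun y hy hyA => (hall y ⟨hy, hyA⟩).symm)⟩

theorem MX.conj {A : Subgroup Q} (h : MX A) (g : Q) : MX (A.map (MulAut.conj g).toMonoidHom) := by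
  refine ⟨?_, ?_⟩
  · rintro _ ⟨x, hx, rfl⟩
    rw [← map_mul, h.sq x hx, map_one]
  · rw [← h.card]
    exact Nat.card_congr (A.equivMapOfInjective _ (MulAut.conj g).injective).symm.toEquiv

include hP W in
theorem exists_MX : ∃ A : Subgroup Q, MX A := by
  obtain ⟨A, h1, h2⟩ := exists_max hP W.tg W.prim W.m22
  exact ⟨A, h1, h2⟩

include hP W in
/-- conjugacy -/
theorem MX.conj_of {A B : Subgroup Q} (hA : MX A) (hB : MX B) : ∃ g : Q, A.map (MulAut.conj g).toMonoidHom = B := by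
  obtain ⟨P, hPA⟩ := (isPGroup_of_sq A hA.sq).exists_le_sylow
  obtain ⟨P', hPB⟩ := (isPGroup_of_sq B hB.sq).exists_le_sylow
  obtain ⟨g, hg⟩ := MulAction.exists_smul_eq Q P P'
  obtain ⟨A₀, _, _, _, _, _, huniq⟩ := thompson22 hP W.tg W.prim W.m22 P'
  refine ⟨g, ?_⟩
  have h1 : A.map (MulAut.conj g).toMonoidHom ≤ (P' : Subgroup Q) := by
    rintro _ ⟨x, hx, rfl⟩
    rw [← hg]
    exact ⟨x, hPA hx, rfl⟩
  have h2 := hA.conj g
  rw [huniq _ h1 h2.sq h2.card, huniq B hPB hB.sq hB.card]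

include hP W in
/-- commuting members are in a maximal elementary abelian subgroup -/
theorem exists_MX_of {X : Set Q} (hX : X ⊆ D) (hc : ∀ x ∈ X, ∀ y ∈ X, Commute x y) : ∃ A : Subgroup Q, MX A ∧ X ⊆ A := by
  have hsq : ∀ a ∈ Subgroup.closure X, a * a = 1 :=
    closure_sq (fun x hx => sq_one W.tg.1 (hX hx)) hc
  obtain ⟨P, hP'⟩ := (isPGroup_of_sq _ hsq).exists_le_sylow
  obtain ⟨A, hAP, hA1, hA2, hA3, _, _⟩ := thompson22 hP W.tg W.prim W.m22 P
  refine ⟨A, ⟨hA1, hA2⟩, ?_⟩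
  intro x hx
  rw [← hA3]
  exact Subgroup.subset_closure ⟨hX hx, hP' (Subgroup.subset_closure hx)⟩

include hP W in
theorem exists_MX_inv {x : Q} (hx : x * x = 1) : ∃ A : Subgroup Q, MX A ∧ x ∈ A := by
  by_cases hx1 : x = 1
  · obtain ⟨A, hA⟩ := exists_MX hP W
    exact ⟨A, hA, by rw [hx1]; exact A.one_mem⟩
  · obtain ⟨l, h1, h2, h3⟩ := (FiLift91.lh22 hP W.tg W.prim W.m22).P x hx hx1
    obtain ⟨A, hA, hXA⟩ := exists_MX_of hP W (X := {y | y ∈ l}) (fun y hy => h1 y hy) (fun y hy z hz => h2 y hy z hz)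
    refine ⟨A, hA, ?_⟩
    rw [← h3]
    exact Subgroup.list_prod_mem _ (fun y hy => hXA hy)

include hP W in
theorem hd : HD D := FiHex.hd22 hP W.tg W.prim W.m22

theorem conj_eq_self_iff {x g : Q} : g * x * g⁻¹ = x ↔ Commute g x := by
  constructor
  · intro h
    exact mul_inv_eq_iff_eq_mul.1 h
  · intro h
    exact mul_inv_eq_iff_eq_mul.2 h

/-- a conjugating element from the 3-transposition property -/
theorem exists_swap (hD : IsThreeTranspositionGroup D) {e f : Q} (he : e ∈ D) (hf : f ∈ D) (h : ¬ Commute e f) :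
    (e * f) * e * (e * f)⁻¹ = f := by
  have he2 := sq_one hD.1 he
  have hf2 := sq_one hD.1 hf
  have h3 : (e * f) ^ 3 = 1 := by
    rcases hD.1.2 e he f hf with h1 | h1
    · exact absurd (commute_of_sq he2 hf2 h1) h
    · exact h1
  have ie : e⁻¹ = e := inv_eq_of_mul_eq_one_left he2
  have if' : f⁻¹ = f := inv_eq_of_mul_eq_one_left hf2
  calc (e * f) * e * (e * f)⁻¹ = (e * f) * e * (f⁻¹ * e⁻¹) := by rw [mul_inv_rev]
    _ = (e * f) * e * (f * e) := by rw [ie, if']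
    _ = (e * f) ^ 3 * f⁻¹ := by rw [pow_succ, pow_two]; group
    _ = f := by rw [h3, one_mul, if']

include hP W in
theorem MX.outside {A : Subgroup Q} (hA : MX A) {a b c : Q} (ht : Tup D 3 [a, b, c]) : ∃ e ∈ dA D A, e ∉ Hx D a b c := by
  by_contra hcon
  push Not at hcon
  have h1 : (dA D A).ncard ≤ (Hx D a b c).ncard := Set.ncard_le_ncard hcon (Set.toFinite _)
  rw [(hd hP W).ncard_Hx ht, (hA.base hP W).card] at h1
  omega

include hP W in
theorem MX.eq_Bs {A : Subgroup Q} (hA : MX A) {a b c e : Q} (ht : Tup D 3 [a, b, c]) (ha : a ∈ A) (hb : b ∈ A) (hc : c ∈ A)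
    (he : e ∈ dA D A) (hne : e ∉ Hx D a b c) : dA D A = Bs D a b c e := by
  have hB := (hd hP W).base4 ht he.1 (hA.comm he.2 ha) (hA.comm he.2 hb) (hA.comm he.2 hc) hne
  refine Set.eq_of_subset_of_ncard_le ?_ ?_ (Set.toFinite _)
  · intro x hx
    exact ⟨hx.1, hA.comm hx.2 ha, hA.comm hx.2 hb, hA.comm hx.2 hc, hA.comm hx.2 he.2⟩
  · rw [hB.card, (hA.base hP W).card]

theorem map_eq_of_dA {g : Q} (hD : IsThreeTranspositionGroup D) (A : Subgroup Q) :
    dA D (A.map (MulAut.conj g).toMonoidHom) = (fun x => g * x * g⁻¹) '' dA D A := by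
  ext x
  constructor
  · rintro ⟨hx, y, hy, rfl⟩
    refine ⟨y, ⟨?_, hy⟩, rfl⟩
    have h1 := hD.2.1 g⁻¹ _ hx
    have h2 : g⁻¹ * (MulAut.conj g).toMonoidHom y * g⁻¹⁻¹ = y := by
      show g⁻¹ * (g * y * g⁻¹) * g⁻¹⁻¹ = y
      group
    rwa [h2] at h1
  · rintro ⟨y, hy, rfl⟩
    exact ⟨hD.2.1 g y hy.1, y, hy.2, rfl⟩

include hP W in
/-- **the stabilizer of a maximal elementary abelian subgroup is 3-transitive on its members** -/
theorem MX.tri {A : Subgroup Q} (hA : MX A) {a b c a' b' c' : Q} (ht : Tup D 3 [a, b, c]) (ht' : Tup D 3 [a', b', c'])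
    (ha : a ∈ A) (hb : b ∈ A) (hc : c ∈ A) (ha' : a' ∈ A) (hb' : b' ∈ A) (hc' : c' ∈ A) :
    ∃ g : Q, A.map (MulAut.conj g).toMonoidHom = A ∧ g * a * g⁻¹ = a' ∧ g * b * g⁻¹ = b' ∧ g * c * g⁻¹ = c' := by
  obtain ⟨g, hg⟩ := (tt22 hP W.tg W.prim W.m22).2.2 _ _ ht ht'
  simp only [List.map_cons, List.map_nil, List.cons.injEq, and_true] at hg
  obtain ⟨g1, g2, g3⟩ := hg
  set B := A.map (MulAut.conj g).toMonoidHom with hB
  have hBM : MX B := hA.conj g
  have haB : a' ∈ B := by rw [← g1]; exact ⟨a, ha, rfl⟩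
  have hbB : b' ∈ B := by rw [← g2]; exact ⟨b, hb, rfl⟩
  have hcB : c' ∈ B := by rw [← g3]; exact ⟨c, hc, rfl⟩
  obtain ⟨e, he, hen⟩ := hBM.outside hP W ht'
  obtain ⟨f, hf, hfn⟩ := hA.outside hP W ht'
  have hfin : ∀ M N : Subgroup Q, MX M → MX N → dA D M = dA D N → M = N := by
    intro M N hM hN h
    rw [(hM.struct hP W).1, (hN.struct hP W).1, h]
  by_cases hef : Commute e f
  · refine ⟨g, ?_, g1, g2, g3⟩
    apply hfin _ _ hBM hA
    have h1 := hBM.eq_Bs hP W ht' haB hbB hcB he hen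
    have hfB : f ∈ dA D B := by
      rw [h1]
      exact ⟨hf.1, hA.comm hf.2 ha', hA.comm hf.2 hb', hA.comm hf.2 hc', hef.symm⟩
    rw [hBM.eq_Bs hP W ht' haB hbB hcB hfB hfn, hA.eq_Bs hP W ht' ha' hb' hc' hf hfn]
  · have hsw := exists_swap W.tg he.1 hf.1 hef
    have hfix : ∀ x ∈ A, x ∈ B → (e * f) * x * (e * f)⁻¹ = x := by
      intro x hxA hxB
      rw [conj_eq_self_iff]
      exact (hBM.comm he.2 hxB).mul_left (hA.comm hf.2 hxA)
    have ka := hfix a' ha' haB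
    have kb := hfix b' hb' hbB
    have kc := hfix c' hc' hcB
    have hmap : (B.map (MulAut.conj (e * f)).toMonoidHom) = A := by
      have hM := hBM.conj (e * f)
      apply hfin _ _ hM hA
      rw [hM.eq_Bs hP W ht' (e := f) ⟨a', haB, ka⟩ ⟨b', hbB, kb⟩ ⟨c', hcB, kc⟩ ⟨hf.1, e, he.2, hsw⟩ hfn,
        hA.eq_Bs hP W ht' ha' hb' hc' hf hfn]
    refine ⟨(e * f) * g, ?_, ?_, ?_, ?_⟩
    · conv_rhs => rw [← hmap, hB, Subgroup.map_map]
      congr 1
      ext x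
      show (e * f * g) * x * (e * f * g)⁻¹ = (e * f) * (g * x * g⁻¹) * (e * f)⁻¹
      group
    · rw [← ka, ← g1]; group
    · rw [← kb, ← g2]; group
    · rw [← kc, ← g3]; group

end Q

end Cfsg.Agent.Lib.DC22
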