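import Cfsg.Agent.Lib.DC22D73

/-!
# Double covers of groups of type M(22), part E: the maximal elementary abelian subgroups of the cover (helper73)
-/

set_option autoImplicit false
set_option linter.all false

namespace Cfsg.Agent.Lib.DC22

open Module Cfsg Cfsg.Agent.Lib.ThreeRank3 Cfsg.Agent.Lib.ThreeDescent Cfsg.Agent.Lib.ThreeQuot Cfsg.Agent.Lib.FiPar
  Cfsg.Agent.Lib.ThreeSimple Cfsg.Agent.Lib.ThreeTypes Cfsg.Agent.Lib.FiComp Cfsg.Agent.Lib.FiMu
open Cfsg.Agent.Lib.H89EB Cfsg.Agent.Lib.H89EC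
open Cfsg.Agent.Lib.FiHex (HD MT YD Hx Bs IsBase)
open Cfsg.Agent.Lib.H89EA (isPGroup_of_sq comm_of_sq closure_sq)
open Cfsg.Agent.Lib.FiUniq (T22)

universe v w

/-- elementary abelian of maximal order in the cover -/
structure MC {C : Type v} [Group C] (B : Subgroup C) : Prop where
  sq : ∀ a ∈ B, a * a = 1
  card : Nat.card B = 2 ^ 11

theorem MC.comm {C : Type v} [Group C] {B : Subgroup C} (h : MC B) {x y : C} (hx : x ∈ B) (hy : y ∈ B) : Commute x y :=
  comm_of_sq h.sq hx hy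

theorem MC.conj {C : Type v} [Group C] {B : Subgroup C} (h : MC B) (g : C) : MC (B.map (MulAut.conj g).toMonoidHom) := by
  refine ⟨?_, ?_⟩
  · rintro _ ⟨x, hx, rfl⟩
    rw [← map_mul, h.sq x hx, map_one]
  · rw [← h.card]
    exact Nat.card_congr (B.equivMapOfInjective _ (MulAut.conj g).injective).symm.toEquiv

section C

variable {C : Type v} {Q : Type w} [Group C] [Group Q] [Finite C] [Finite Q] {φ : C →* Q} {d : C} {D : Set Q} {E : Set C}
  (hP : PSU62Simple) (K : Cov φ d D E) (W : Q22 D)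

include K in
theorem ker_card {B : Subgroup C} (hd : d ∈ B) : Nat.card (φ.comp B.subtype).ker = 2 := by
  apply le_antisymm (K.card_ker_le B)
  have h1 : (⟨⟨d, hd⟩, by
    rw [MonoidHom.mem_ker]; exact K.phi_d⟩ : (φ.comp B.subtype).ker) ≠ 1 := by
    intro h
    apply K.d1
    exact congrArg (fun z : (φ.comp B.subtype).ker => ((z : B) : C)) h
  haveI : Nontrivial (φ.comp B.subtype).ker := ⟨_, _, h1⟩
  exact Finite.one_lt_card

include K in
theorem card_of_d {B : Subgroup C} (hd : d ∈ B) : Nat.card B = 2 * Nat.card (B.map φ) := by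
  rw [K.card_eq B, ker_card K hd]

include hP K W in
theorem le11 {B : Subgroup C} (h : ∀ a ∈ B, a * a = 1) : Nat.card B ≤ 2 ^ 11 := by
  rw [K.card_eq B]
  calc _ ≤ 2 * 2 ^ 10 := Nat.mul_le_mul (K.card_ker_le B) (le10 hP W (K.sq_map h))
    _ = 2 ^ 11 := by norm_num

include hP K W in
theorem MC.down {B : Subgroup C} (h : MC B) : d ∈ B ∧ MX (B.map φ) ∧ (B.map φ).comap φ = B := by
  have h0 := K.card_eq B
  have h1 := K.card_ker_le B
  have h2 := le10 hP W (K.sq_map h.sq)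
  rw [h.card] at h0
  have h3 : Nat.card (φ.comp B.subtype).ker = 2 := by
    by_contra hne
    have h4 : Nat.card (φ.comp B.subtype).ker ≤ 1 := by omega
    have : Nat.card (φ.comp B.subtype).ker * Nat.card (B.map φ) ≤ 1 * 2 ^ 10 := Nat.mul_le_mul h4 h2
    rw [← h0] at this
    norm_num at this
  have hd : d ∈ B := by
    haveI : Nontrivial (φ.comp B.subtype).ker := by
      apply Finite.one_lt_card_iff_nontrivial.1
      rw [h3]
      norm_num
    obtain ⟨x, hx⟩ := exists_ne (1 : (φ.comp B.subtype).ker)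
    rcases (K.ker ((x : B) : C)).1 x.2 with h | h
    · exact absurd (Subtype.ext (Subtype.ext h)) hx
    · rw [← h]; exact (x : B).2
  refine ⟨hd, ⟨K.sq_map h.sq, ?_⟩, ?_⟩
  · rw [h3] at h0
    omega
  · apply le_antisymm
    · rintro x ⟨y, hy, hyx⟩
      rcases K.eq_or hyx with h5 | h5
      · rw [← h5]; exact hy
      · have : x = y * d := by rw [h5, mul_assoc, K.dd, mul_one]
        rw [this]; exact B.mul_mem hy hd
    · exact Subgroup.le_comap_map _ _

include hP K W in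
theorem MX.up {A : Subgroup Q} (h : MX A) : MC (A.comap φ) := by
  have hd : d ∈ A.comap φ := by
    rw [Subgroup.mem_comap, K.phi_d]; exact A.one_mem
  have hX : ∀ x ∈ insert d {e | e ∈ E ∧ φ e ∈ A}, ∀ y ∈ insert d {e | e ∈ E ∧ φ e ∈ A}, x * y = y * x := by
    rintro x (rfl | hx) y (rfl | hy)
    · rfl
    · exact K.dc y
    · exact (K.dc x).symm
    · exact K.comm x hx.1 y hy.1 (h.comm hx.2 hy.2)
  have hsq : ∀ b ∈ Subgroup.closure (insert d {e | e ∈ E ∧ φ e ∈ A}), b * b = 1 := by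
    apply closure_sq
    · rintro x (rfl | hx)
      · exact K.dd
      · exact K.sq x hx.1
    · exact hX
  have hle : A.comap φ ≤ Subgroup.closure (insert d {e | e ∈ E ∧ φ e ∈ A}) := by
    intro x hx
    have h1 : φ x ∈ Subgroup.closure (dA D A) := by rw [← (h.struct hP W).1]; exact hx
    have h2 : Subgroup.closure (dA D A) ≤ (Subgroup.closure (insert d {e | e ∈ E ∧ φ e ∈ A})).map φ := by
      rw [Subgroup.closure_le]
      rintro t ⟨htD, htA⟩
      obtain ⟨e, he, rfl⟩ := K.lift t htD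
      exact ⟨e, Subgroup.subset_closure (Or.inr ⟨he, htA⟩), rfl⟩
    obtain ⟨y, hy, hyx⟩ := h2 h1
    have hdc : d ∈ Subgroup.closure (insert d {e | e ∈ E ∧ φ e ∈ A}) := Subgroup.subset_closure (Or.inl rfl)
    rcases K.eq_or hyx with h5 | h5
    · rw [← h5]; exact hy
    · have : x = y * d := by rw [h5, mul_assoc, K.dd, mul_one]
      rw [this]; exact Subgroup.mul_mem _ hy hdc
  refine ⟨fun x hx => hsq x (hle hx), ?_⟩
  rw [card_of_d K hd, Subgroup.map_comap_eq_self_of_surjective K.surj, h.card]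
  norm_num

include hP K W in
theorem exists_MC : ∃ B : Subgroup C, MC B := by
  obtain ⟨A, hA⟩ := exists_MX hP W
  exact ⟨_, hA.up hP K W⟩

theorem map_conj_comap {A : Subgroup Q} (hs : Function.Surjective φ) (g : C) :
    (A.comap φ).map (MulAut.conj g).toMonoidHom = (A.map (MulAut.conj (φ g)).toMonoidHom).comap φ := by
  ext x
  constructor
  · rintro ⟨y, hy, rfl⟩
    refine ⟨φ y, hy, ?_⟩
    show φ g * φ y * (φ g)⁻¹ = φ (g * y * g⁻¹)
    rw [map_mul, map_mul, map_inv]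
  · rintro ⟨y, hy, hyx⟩
    refine ⟨g⁻¹ * x * g, ?_, ?_⟩
    · show φ (g⁻¹ * x * g) ∈ A
      have h1 : φ g * y * (φ g)⁻¹ = φ x := hyx
      rw [map_mul, map_mul, map_inv, ← h1]
      have : (φ g)⁻¹ * (φ g * y * (φ g)⁻¹) * φ g = y := by group
      rw [this]; exact hy
    · show g * (g⁻¹ * x * g) * g⁻¹ = x
      group

include hP K W in
theorem MC.conj_of {B B' : Subgroup C} (h : MC B) (h' : MC B') : ∃ g : C, B.map (MulAut.conj g).toMonoidHom = B' := by
  obtain ⟨_, h1, h2⟩ := h.down hP K W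
  obtain ⟨_, h1', h2'⟩ := h'.down hP K W
  obtain ⟨q, hq⟩ := h1.conj_of hP W h1'
  obtain ⟨g, rfl⟩ := K.surj q
  refine ⟨g, ?_⟩
  rw [← h2, map_conj_comap K.surj, hq, h2']

include hP K W in
theorem exists_MC_inv {x : C} (hx : x * x = 1) : ∃ B : Subgroup C, MC B ∧ x ∈ B := by
  obtain ⟨A, hA, hxA⟩ := exists_MX_inv hP W (x := φ x) (by rw [← map_mul, hx, map_one])
  exact ⟨_, hA.up hP K W, hxA⟩

include hP K W in
theorem exists_MC_of {X : Set C} (hX : X ⊆ E) (hc : ∀ x ∈ X, ∀ y ∈ X, Commute x y) : ∃ B : Subgroup C, MC B ∧ X ⊆ B := by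
  obtain ⟨A, hA, hXA⟩ := exists_MX_of hP W (X := φ '' X) (by rintro _ ⟨x, hx, rfl⟩; exact K.im x (hX hx))
    (by rintro _ ⟨x, hx, rfl⟩ _ ⟨y, hy, rfl⟩; exact (hc x hx y hy).map φ)
  exact ⟨_, hA.up hP K W, fun x hx => hXA ⟨x, hx, rfl⟩⟩

/-- the members of the class in the subgroup -/
def eA (E : Set C) (B : Subgroup C) : Set C := {x | x ∈ E ∧ x ∈ B}

include K in
theorem phi_eA {B : Subgroup C} (hB : (B.map φ).comap φ = B) : φ '' eA E B = dA D (B.map φ) := by
  ext t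
  constructor
  · rintro ⟨x, ⟨hx, hxB⟩, rfl⟩
    exact ⟨K.im x hx, x, hxB, rfl⟩
  · rintro ⟨ht, htB⟩
    obtain ⟨e, he, rfl⟩ := K.lift t ht
    refine ⟨e, ⟨he, ?_⟩, rfl⟩
    rw [← hB]; exact htB

include hP K W in
theorem MC.ncard {B : Subgroup C} (h : MC B) : (eA E B).ncard = 22 := by
  obtain ⟨_, h1, h2⟩ := h.down hP K W
  rw [← (h1.struct hP W).2.2, ← phi_eA K h2, Set.ncard_image_of_injOn]
  intro x hx y hy hxy
  exact K.phi_inj hx.1 hy.1 hxy

include K in
theorem conj_eA {B : Subgroup C} (g : C) : eA E (B.map (MulAut.conj g).toMonoidHom) = (fun x => g * x * g⁻¹) '' eA E B := by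
  ext x
  constructor
  · rintro ⟨hx, y, hy, rfl⟩
    refine ⟨y, ⟨?_, hy⟩, rfl⟩
    have h1 := K.conj g⁻¹ _ hx
    have h2 : g⁻¹ * (MulAut.conj g).toMonoidHom y * g⁻¹⁻¹ = y := by
      show g⁻¹ * (g * y * g⁻¹) * g⁻¹⁻¹ = y
      group
    rwa [h2] at h1
  · rintro ⟨y, hy, rfl⟩
    exact ⟨K.conj g y hy.1, y, hy.2, rfl⟩

include hP K W in
/-- the central involution is a product of members of the class in the subgroup -/
theorem MC.d_mem (T : T22 D) (Y : YD D) (hperf : commutator C = ⊤) {B : Subgroup C} (h : MC B) :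
    d ∈ Subgroup.closure (eA E B) := by
  obtain ⟨X, hX, hc, hd⟩ := exists_comm_mem hP K T Y W.prim W.m22 hperf
  obtain ⟨B', hB', hXB⟩ := exists_MC_of hP K W hX hc
  obtain ⟨g, rfl⟩ := hB'.conj_of hP K W h
  rw [conj_eA K]
  have hs : X ⊆ eA E B' := fun x hx => ⟨hX hx, hXB hx⟩
  have h1 : d ∈ Subgroup.closure (eA E B') := Subgroup.closure_mono hs hd
  have h2 : (MulAut.conj g).toMonoidHom d ∈ (Subgroup.closure (eA E B')).map (MulAut.conj g).toMonoidHom := ⟨d, h1, rfl⟩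
  rw [MonoidHom.map_closure] at h2
  have h3 : (MulAut.conj g).toMonoidHom d = d := by
    show g * d * g⁻¹ = d
    rw [← K.dc g, mul_inv_cancel_right]
  rw [h3] at h2
  exact h2

include hP K W in
/-- 3-transitivity in the cover -/
theorem MC.tri {B : Subgroup C} (h : MC B) {a b c a' b' c' : C} (ha : a ∈ eA E B) (hb : b ∈ eA E B) (hc : c ∈ eA E B)
    (ha' : a' ∈ eA E B) (hb' : b' ∈ eA E B) (hc' : c' ∈ eA E B) (hab : a ≠ b) (hac : a ≠ c) (hbc : b ≠ c)
    (hab' : a' ≠ b') (hac' : a' ≠ c') (hbc' : b' ≠ c') :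
    ∃ g : C, B.map (MulAut.conj g).toMonoidHom = B ∧ g * a * g⁻¹ = a' ∧ g * b * g⁻¹ = b' ∧ g * c * g⁻¹ = c' := by
  obtain ⟨_, h1, h2⟩ := h.down hP K W
  have hB := h1.base hP W
  have hm : ∀ {x}, x ∈ eA E B → φ x ∈ dA D (B.map φ) := fun hx => ⟨K.im _ hx.1, _, hx.2, rfl⟩
  have hne : ∀ {x y}, x ∈ eA E B → y ∈ eA E B → x ≠ y → φ x ≠ φ y := fun hx hy hxy h => hxy (K.phi_inj hx.1 hy.1 h)
  obtain ⟨q, hq, h3, h4, h5⟩ := h1.tri hP W (hB.tup (hm ha) (hm hb) (hm hc) (hne ha hb hab) (hne ha hc hac) (hne hb hc hbc))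
    (hB.tup (hm ha') (hm hb') (hm hc') (hne ha' hb' hab') (hne ha' hc' hac') (hne hb' hc' hbc'))
    (hm ha).2 (hm hb).2 (hm hc).2 (hm ha').2 (hm hb').2 (hm hc').2
  obtain ⟨g, rfl⟩ := K.surj q
  refine ⟨g, ?_, ?_, ?_, ?_⟩
  · rw [← h2, map_conj_comap K.surj, hq]
  · exact K.phi_inj (K.conj g a ha.1) ha'.1 (by rw [map_mul, map_mul, map_inv, h3])
  · exact K.phi_inj (K.conj g b hb.1) hb'.1 (by rw [map_mul, map_mul, map_inv, h4])
  · exact K.phi_inj (K.conj g c hc.1) hc'.1 (by rw [map_mul, map_mul, map_inv, h5])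

include hP K W in
theorem MC.closure_insert {B : Subgroup C} (h : MC B) : B = Subgroup.closure (insert d (eA E B)) := by
  obtain ⟨hd, h1, h2⟩ := h.down hP K W
  apply le_antisymm
  · intro x hx
    have h3 : φ x ∈ Subgroup.closure (dA D (B.map φ)) := by rw [← (h1.struct hP W).1]; exact ⟨x, hx, rfl⟩
    rw [← phi_eA K h2, ← MonoidHom.map_closure] at h3
    obtain ⟨y, hy, hyx⟩ := h3
    have hy' : y ∈ Subgroup.closure (insert d (eA E B)) := Subgroup.closure_mono (Set.subset_insert _ _) hy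
    rcases K.eq_or hyx with h5 | h5
    · rw [← h5]; exact hy'
    · have : x = y * d := by rw [h5, mul_assoc, K.dd, mul_one]
      rw [this]; exact Subgroup.mul_mem _ hy' (Subgroup.subset_closure (Or.inl rfl))
  · rw [Subgroup.closure_le]
    rintro x (rfl | hx)
    · exact hd
    · exact hx.2

end C

end Cfsg.Agent.Lib.DC22
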