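import Mathlib

/-!
# Relations among 22 commuting involutions (helper73)
-/

set_option autoImplicit false
set_option linter.all false

namespace Cfsg.Agent.Lib.DC22

open Finset

section

variable {A : Type*} [CommGroup A] [DecidableEq A] {T : Finset A} {d : A}

theorem prod_sd (hsq : ∀ x : A, x * x = 1) (S S' : Finset A) : ∏ x ∈ symmDiff S S', x = (∏ x ∈ S, x) * ∏ x ∈ S', x := by
  have h1 : ∏ x ∈ S, x = (∏ x ∈ S \ S', x) * ∏ x ∈ S ∩ S', x := by
    rw [← Finset.prod_union (Finset.disjoint_sdiff_inter S S'), Finset.sdiff_union_inter]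
  have h2 : ∏ x ∈ S', x = (∏ x ∈ S' \ S, x) * ∏ x ∈ S ∩ S', x := by
    rw [Finset.inter_comm, ← Finset.prod_union (Finset.disjoint_sdiff_inter S' S), Finset.sdiff_union_inter]
  have h3 : symmDiff S S' = (S \ S') ∪ (S' \ S) := rfl
  rw [h3, Finset.prod_union disjoint_sdiff_sdiff, h1, h2]
  have h4 := hsq (∏ x ∈ S ∩ S', x)
  calc _ = (∏ x ∈ S \ S', x) * (∏ x ∈ S' \ S, x) * 1 := by rw [mul_one]
    _ = (∏ x ∈ S \ S', x) * (∏ x ∈ S' \ S, x) * ((∏ x ∈ S ∩ S', x) * ∏ x ∈ S ∩ S', x) := by rw [h4]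
    _ = _ := by ac_rfl

theorem card_sd (S S' : Finset A) : (symmDiff S S').card + 2 * (S ∩ S').card = S.card + S'.card := by
  have h3 : symmDiff S S' = (S \ S') ∪ (S' \ S) := rfl
  have h1 := Finset.card_sdiff_add_card_inter S S'
  have h2 := Finset.card_sdiff_add_card_inter S' S
  rw [Finset.inter_comm] at h2
  rw [h3, Finset.card_union_of_disjoint disjoint_sdiff_sdiff]
  omega

theorem sd_sub {S S' : Finset A} (h : S ⊆ T) (h' : S' ⊆ T) : symmDiff S S' ⊆ T := by
  intro x hx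
  rcases Finset.mem_symmDiff.1 hx with h1 | h1
  · exact h h1.1
  · exact h' h1.1

/-- products over subsets -/
theorem exists_prod (hsq : ∀ x : A, x * x = 1) {u : A} {x : A} (hx : x ∈ Subgroup.closure ((fun t => t * u) '' (T : Set A))) :
    ∃ S ⊆ T, (∏ x ∈ S, x) * u ^ S.card = x := by
  have hu : ∀ n m : ℕ, n % 2 = m % 2 → u ^ n = u ^ m := by
    have h2 : u ^ 2 = 1 := by rw [pow_two]; exact hsq u
    have key : ∀ n : ℕ, u ^ n = u ^ (n % 2) := by
      intro n
      conv_lhs => rw [← Nat.div_add_mod n 2]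
      rw [pow_add, pow_mul, h2, one_pow, one_mul]
    intro n m h
    rw [key n, key m, h]
  induction hx using Subgroup.closure_induction with
  | mem x hx =>
    obtain ⟨t, ht, rfl⟩ := hx
    exact ⟨{t}, by simpa using ht, by simp⟩
  | one => exact ⟨∅, by simp, by simp⟩
  | mul x y hx hy ihx ihy =>
    obtain ⟨S, hS, h1⟩ := ihx
    obtain ⟨S', hS', h2⟩ := ihy
    refine ⟨symmDiff S S', sd_sub hS hS', ?_⟩
    have h3 := card_sd S S'
    rw [prod_sd hsq, hu (symmDiff S S').card (S.card + S'.card) (by omega), pow_add, ← h1, ← h2]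
    ac_rfl
  | inv x hx ihx =>
    obtain ⟨S, hS, h1⟩ := ihx
    exact ⟨S, hS, by rw [h1]; exact (inv_eq_of_mul_eq_one_left (hsq x)).symm⟩

variable (hsq : ∀ x : A, x * x = 1) (hT : T.card ≤ 22) (P : A → Prop) (hP1 : P 1) (hPm : ∀ x y, P x → P y → P (x * y))
  (nr : ∀ S ⊆ T, S.Nonempty → S.card ≤ 5 → ¬ P (∏ x ∈ S, x))
  (hexE : ∀ a ∈ T, ∀ b ∈ T, ∀ c ∈ T, a ≠ b → a ≠ c → b ≠ c → ∃ H ⊆ T, a ∈ H ∧ b ∈ H ∧ c ∈ H ∧ H.card = 6 ∧ P (∏ x ∈ H, x))
  (hexU : ∀ H ⊆ T, ∀ H' ⊆ T, H.card = 6 → H'.card = 6 → P (∏ x ∈ H, x) → P (∏ x ∈ H', x) → ∀ a b c, a ≠ b → a ≠ c → b ≠ c →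
    a ∈ H → b ∈ H → c ∈ H → a ∈ H' → b ∈ H' → c ∈ H' → H = H')

include hT hexE hexU in
theorem exists_four {S : Finset A} (hS : S ⊆ T) (h8 : 8 ≤ S.card) : ∃ H ⊆ T, H.card = 6 ∧ P (∏ x ∈ H, x) ∧ 4 ≤ (S ∩ H).card := by
  classical
  by_contra hcon
  push Not at hcon
  obtain ⟨x, hx, y, hy, hxy⟩ := Finset.one_lt_card.1 (show 1 < S.card by omega)
  have hex : ∀ z ∈ (S.erase x).erase y, ∃ H ⊆ T, x ∈ H ∧ y ∈ H ∧ z ∈ H ∧ H.card = 6 ∧ P (∏ x ∈ H, x) := by
    intro z hz
    rw [Finset.mem_erase, Finset.mem_erase] at hz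
    exact hexE x (hS hx) y (hS hy) z (hS hz.2.2) hxy (Ne.symm hz.2.1) (Ne.symm hz.1)
  choose! H h1 h2 h3 h4 h5 h6 using hex
  have hcard : ∀ z ∈ (S.erase x).erase y, (((H z).erase x).erase y).card = 4 := by
    intro z hz
    rw [Finset.card_erase_of_mem, Finset.card_erase_of_mem (h2 z hz), h5 z hz]
    exact Finset.mem_erase.2 ⟨hxy.symm, h3 z hz⟩
  have hdisj : ∀ z ∈ (S.erase x).erase y, ∀ z' ∈ (S.erase x).erase y, z ≠ z' →
      Disjoint (((H z).erase x).erase y) (((H z').erase x).erase y) := by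
    intro z hz z' hz' hne
    rw [Finset.disjoint_left]
    intro t ht ht'
    rw [Finset.mem_erase, Finset.mem_erase] at ht ht'
    have heq := hexU _ (h1 z hz) _ (h1 z' hz') (h5 z hz) (h5 z' hz') (h6 z hz) (h6 z' hz') x y t hxy (Ne.symm ht.2.1) (Ne.symm ht.1)
      (h2 z hz) (h3 z hz) ht.2.2 (h2 z' hz') (h3 z' hz') ht'.2.2
    have h7 := hcon (H z) (h1 z hz) (h5 z hz) (h6 z hz)
    have hzS := hz
    have hzS' := hz'
    rw [Finset.mem_erase, Finset.mem_erase] at hzS hzS'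
    have h8' : ({x, y, z, z'} : Finset A) ⊆ S ∩ H z := by
      intro w hw
      simp only [Finset.mem_insert, Finset.mem_singleton] at hw
      rw [Finset.mem_inter]
      rcases hw with rfl | rfl | rfl | rfl
      · exact ⟨hx, h2 z hz⟩
      · exact ⟨hy, h3 z hz⟩
      · exact ⟨hzS.2.2, h4 _ hz⟩
      · exact ⟨hzS'.2.2, by rw [heq]; exact h4 _ hz'⟩
    have h9 : ({x, y, z, z'} : Finset A).card = 4 := by
      rw [Finset.card_insert_of_notMem, Finset.card_insert_of_notMem, Finset.card_insert_of_notMem, Finset.card_singleton]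
      · simpa using hne
      · simp only [Finset.mem_insert, Finset.mem_singleton, not_or]
        exact ⟨Ne.symm hzS.1, Ne.symm hzS'.1⟩
      · simp only [Finset.mem_insert, Finset.mem_singleton, not_or]
        exact ⟨hxy, Ne.symm hzS.2.1, Ne.symm hzS'.2.1⟩
    have := Finset.card_le_card h8'
    omega
  have hU : (((S.erase x).erase y).biUnion fun z => ((H z).erase x).erase y) ⊆ (T.erase x).erase y := by
    intro t ht
    rw [Finset.mem_biUnion] at ht
    obtain ⟨z, hz, ht⟩ := ht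
    rw [Finset.mem_erase, Finset.mem_erase] at ht ⊢
    exact ⟨ht.1, ht.2.1, h1 z hz ht.2.2⟩
  have h10 := Finset.card_le_card hU
  rw [Finset.card_biUnion (fun z hz z' hz' h => hdisj z hz z' hz' h), Finset.sum_congr rfl hcard, Finset.sum_const,
    Finset.card_erase_of_mem (Finset.mem_erase.2 ⟨hxy.symm, hy⟩), Finset.card_erase_of_mem hx,
    Finset.card_erase_of_mem (Finset.mem_erase.2 ⟨hxy.symm, hS hy⟩), Finset.card_erase_of_mem (hS hx), smul_eq_mul] at h10
  omega

include hsq hT hPm nr hexE hexU in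
/-- when the products over hexads are trivial, so are those over even relations -/
theorem even_rel (h1 : ∀ H ⊆ T, H.card = 6 → P (∏ x ∈ H, x) → ∏ x ∈ H, x = 1) :
    ∀ n, ∀ S ⊆ T, S.card = n → n % 2 = 0 → P (∏ x ∈ S, x) → ∏ x ∈ S, x = 1 := by
  intro n
  induction n using Nat.strong_induction_on with
  | _ n ih =>
    intro S hS hn h2 hPS
    by_cases h8 : 8 ≤ n
    · obtain ⟨H, hH, h6, hPH, h4⟩ := exists_four hT P hexE hexU hS (by omega)
      have h3 := card_sd S H
      have h5 := ih (symmDiff S H).card (by omega) (symmDiff S H) (sd_sub hS hH) rfl (by omega)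
        (by rw [prod_sd hsq]; exact hPm _ _ hPS hPH)
      rw [prod_sd hsq, h1 H hH h6 hPH, mul_one] at h5
      exact h5
    · by_cases h6 : n = 6
      · exact h1 S hS (by omega) hPS
      · by_cases h0 : n = 0
        · have : S = ∅ := Finset.card_eq_zero.1 (by omega)
          rw [this, Finset.prod_empty]
        · exact absurd hPS (nr S hS (Finset.card_pos.1 (by omega)) (by omega))

include hsq hT hP1 hPm nr hexE hexU in
/-- **some hexad has nontrivial product** -/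
theorem hex_val (hd1 : d ≠ 1) (hPd : P d) (hPd' : ∀ x, P x → x = 1 ∨ x = d) (c1 : d ∈ Subgroup.closure (T : Set A))
    (c2 : d ∈ Subgroup.closure ((fun t => t * d) '' (T : Set A))) : ∃ H ⊆ T, H.card = 6 ∧ ∏ x ∈ H, x = d := by
  by_contra hcon
  push Not at hcon
  have h1 : ∀ H ⊆ T, H.card = 6 → P (∏ x ∈ H, x) → ∏ x ∈ H, x = 1 := by
    intro H hH h6 hPH
    rcases hPd' _ hPH with h | h
    · exact h
    · exact absurd h (hcon H hH h6)
  have hev := even_rel hsq hT P hPm nr hexE hexU h1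
  have hu : ∀ n : ℕ, n % 2 = 0 → d ^ n = 1 := by
    intro n h
    have h2 : d ^ 2 = 1 := by rw [pow_two]; exact hsq d
    conv_lhs => rw [← Nat.div_add_mod n 2, h]
    rw [add_zero, pow_mul, h2, one_pow]
  have c1' : d ∈ Subgroup.closure ((fun t => t * (1 : A)) '' (T : Set A)) := by
    have : (fun t => t * (1 : A)) '' (T : Set A) = T := by simp
    rw [this]; exact c1
  obtain ⟨S, hS, e1⟩ := exists_prod hsq c1'
  obtain ⟨S', hS', e2⟩ := exists_prod hsq c2
  rw [one_pow, mul_one] at e1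
  by_cases p1 : S.card % 2 = 0
  · have := hev _ S hS rfl p1 (by rw [e1]; exact hPd)
    rw [e1] at this
    exact hd1 this
  by_cases p2 : S'.card % 2 = 0
  · rw [hu _ p2, mul_one] at e2
    have := hev _ S' hS' rfl p2 (by rw [e2]; exact hPd)
    rw [e2] at this
    exact hd1 this
  have e3 : ∏ x ∈ S', x = 1 := by
    have h3 : d ^ S'.card = d := by
      obtain ⟨k, hk⟩ : ∃ k, S'.card = k + 1 := ⟨S'.card - 1, by omega⟩
      rw [hk, pow_succ, hu k (by omega), one_mul]
    rw [h3] at e2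
    exact mul_eq_right.1 e2
  have e4 := hev _ (symmDiff S S') (sd_sub hS hS') rfl (by have := card_sd S S'; omega)
    (by rw [prod_sd hsq, e1, e3, mul_one]; exact hPd)
  rw [prod_sd hsq, e1, e3, mul_one] at e4
  exact hd1 e4

end

end Cfsg.Agent.Lib.DC22
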