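import Cfsg.Agent.Lib.DC22E73
import Cfsg.Agent.Lib.DC22F73

/-!
# Double covers of groups of type M(22), part G: the value of the hexads (helper73)
-/

set_option autoImplicit false
set_option linter.all false

namespace Cfsg.Agent.Lib.DC22

open Module Cfsg Cfsg.Agent.Lib.ThreeRank3 Cfsg.Agent.Lib.ThreeDescent Cfsg.Agent.Lib.ThreeQuot Cfsg.Agent.Lib.FiPar
  Cfsg.Agent.Lib.ThreeSimple Cfsg.Agent.Lib.ThreeTypes Cfsg.Agent.Lib.FiComp Cfsg.Agent.Lib.FiMu
open Cfsg.Agent.Lib.H89EB Cfsg.Agent.Lib.H89EC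
open Cfsg.Agent.Lib.FiHex (HD MT YD Hx Bs IsBase)
open Cfsg.Agent.Lib.H89EA (isPGroup_of_sq comm_of_sq closure_sq)
open Cfsg.Agent.Lib.FiUniq (T22)

universe v w

/-- the commutative group -/
@[reducible] def commB {C : Type v} [Group C] {B : Subgroup C} (h : ∀ a ∈ B, a * a = 1) : CommGroup B :=
  { (inferInstance : Group B) with mul_comm := fun x y => Subtype.ext (comm_of_sq h x.2 y.2) }

theorem prod_perm' {G : Type v} [Group G] {l l' : List G} (h : ∀ a ∈ l, ∀ b ∈ l, Commute a b) (hp : l.Perm l') : l.prod = l'.prod :=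
  List.Perm.prod_eq' hp (List.Pairwise.imp_of_mem (fun ha hb _ => h _ ha _ hb) (List.pairwise_of_forall (R := fun _ _ => True) fun _ _ => trivial))

section C

variable {C : Type v} {Q : Type w} [Group C] [Group Q] [Finite C] [Finite Q] {φ : C →* Q} {d : C} {D : Set Q} {E : Set C}
  (hP : PSU62Simple) (K : Cov φ d D E) (W : Q22 D)

open scoped Classical in
/-- the members of the class -/
noncomputable def TB (E : Set C) (B : Subgroup C) : Finset B :=
  letI := Fintype.ofFinite B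
  Finset.univ.filter (fun x : B => (x : C) ∈ E)

theorem mem_TB {B : Subgroup C} {x : B} : x ∈ TB E B ↔ (x : C) ∈ E := by
  classical
  letI := Fintype.ofFinite B
  rw [TB, Finset.mem_filter]
  simp

theorem TB_coe {B : Subgroup C} : (fun x : B => (x : C)) '' (TB E B : Set B) = eA E B := by
  ext x
  constructor
  · rintro ⟨y, hy, rfl⟩
    exact ⟨mem_TB.1 hy, y.2⟩
  · rintro ⟨hx, hB⟩
    exact ⟨⟨x, hB⟩, Finset.mem_coe.2 (mem_TB.2 hx), rfl⟩

include hP K W in
theorem card_TB {B : Subgroup C} (h : MC B) : (TB E B).card = 22 := by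
  rw [← h.ncard hP K W, ← TB_coe, Set.ncard_image_of_injective _ Subtype.val_injective, Set.ncard_coe_finset]

/-- the list of images -/
noncomputable def LS (φ : C →* Q) {B : Subgroup C} (S : Finset B) : List Q := S.toList.map (fun x : B => φ (x : C))

include K in
theorem LS_tup {B : Subgroup C} (h : MC B) {S : Finset B} (hS : S ⊆ TB E B) : Tup D S.card (LS φ S) := by
  refine ⟨?_, by rw [LS, List.length_map, Finset.length_toList], ?_, ?_⟩
  · rw [LS]
    apply List.Nodup.map_on _ S.nodup_toList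
    intro x hx y hy hxy
    rw [Finset.mem_toList] at hx hy
    exact Subtype.ext (K.phi_inj (mem_TB.1 (hS hx)) (mem_TB.1 (hS hy)) hxy)
  · intro a ha
    rw [LS, List.mem_map] at ha
    obtain ⟨x, hx, rfl⟩ := ha
    rw [Finset.mem_toList] at hx
    exact K.im _ (mem_TB.1 (hS hx))
  · intro a ha b hb
    rw [LS, List.mem_map] at ha hb
    obtain ⟨x, hx, rfl⟩ := ha
    obtain ⟨y, hy, rfl⟩ := hb
    exact (h.comm x.2 y.2).map φ

theorem mem_LS {B : Subgroup C} {S : Finset B} {q : Q} : q ∈ LS φ S ↔ ∃ x ∈ S, φ (x : C) = q := by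
  rw [LS, List.mem_map]
  constructor
  · rintro ⟨x, hx, rfl⟩
    exact ⟨x, Finset.mem_toList.1 hx, rfl⟩
  · rintro ⟨x, hx, rfl⟩
    exact ⟨x, Finset.mem_toList.2 hx, rfl⟩

theorem LS_prod {B : Subgroup C} (h : ∀ a ∈ B, a * a = 1) (S : Finset B) :
    letI := commB h
    (LS φ S).prod = φ ((∏ x ∈ S, x : B) : C) := by
  letI := commB h
  have h1 : (∏ x ∈ S, x : B) = (S.toList).prod := by
    rw [← Finset.prod_map_toList]; simp
  have h2 : (LS φ S).prod = (φ.comp B.subtype) (S.toList).prod := by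
    rw [map_list_prod]; rfl
  rw [h2, h1]
  rfl

theorem mem_LS_TB (K : Cov φ d D E) {B : Subgroup C} {S : Finset B} (hS : S ⊆ TB E B) {t : B} (ht : t ∈ TB E B) :
    φ (t : C) ∈ LS φ S ↔ t ∈ S := by
  rw [mem_LS]
  constructor
  · rintro ⟨x, hx, h⟩
    have := K.phi_inj (mem_TB.1 (hS hx)) (mem_TB.1 ht) h
    rwa [← Subtype.ext this]
  · intro h
    exact ⟨t, h, rfl⟩

/-- six-relations are hexads -/
theorem tup6 (H : HD D) {l : List Q} (hl : Tup D 6 l) (hp : l.prod = 1) {a b c : Q} (ha : a ∈ l) (hb : b ∈ l) (hc : c ∈ l)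
    (hab : a ≠ b) (hac : a ≠ c) (hbc : b ≠ c) (q : Q) : q ∈ l ↔ q ∈ Hx D a b c := by
  obtain ⟨l', hl'⟩ := FiHex.perm_front ha hb hc hab hac hbc
  obtain ⟨u, v, w, rfl⟩ : ∃ u v w, l' = [u, v, w] := by
    have h1 := hl'.length_eq
    rw [hl.2.1] at h1
    simp only [List.length_cons] at h1
    have h2 : l'.length = 3 := by omega
    exact List.length_eq_three.1 h2
  have h3 := H.rel (FiHex.Tup_perm hl hl') (by rw [← prod_perm' hl.2.2.2 hl']; exact hp)
  rw [hl'.mem_iff, h3]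

include hP K W in
theorem rel_nr {B : Subgroup C} (h : MC B) {S : Finset B} (hS : S ⊆ TB E B) (hne : S.Nonempty) (h5 : S.card ≤ 5) :
    letI := commB h.sq
    φ ((∏ x ∈ S, x : B) : C) ≠ 1 := by
  letI := commB h.sq
  intro h1
  obtain ⟨t1, t2, t3, t4⟩ := LS_tup K h hS
  exact (hd hP W).nr S.card (Finset.card_pos.2 hne) h5 ⟨LS φ S, t2, t1, t3, t4, by rw [LS_prod h.sq]; exact h1⟩

include hP K W in
theorem rel_hexU {B : Subgroup C} (h : MC B) {S : Finset B} (hS : S ⊆ TB E B) (h6 : S.card = 6)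
    (h1 : letI := commB h.sq; φ ((∏ x ∈ S, x : B) : C) = 1) {a b c : B} (hab : a ≠ b) (hac : a ≠ c) (hbc : b ≠ c)
    (ha : a ∈ S) (hb : b ∈ S) (hc : c ∈ S) {t : B} (ht : t ∈ TB E B) : t ∈ S ↔ φ (t : C) ∈ Hx D (φ a) (φ b) (φ c) := by
  have hl := LS_tup K h hS
  rw [h6] at hl
  have hne : ∀ {x y : B}, x ∈ S → y ∈ S → x ≠ y → φ (x : C) ≠ φ (y : C) := fun hx hy hxy he =>
    hxy (Subtype.ext (K.phi_inj (mem_TB.1 (hS hx)) (mem_TB.1 (hS hy)) he))
  rw [← mem_LS_TB K hS ht, tup6 (hd hP W) hl (by rw [LS_prod h.sq]; exact h1) (mem_LS.2 ⟨a, ha, rfl⟩) (mem_LS.2 ⟨b, hb, rfl⟩)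
    (mem_LS.2 ⟨c, hc, rfl⟩) (hne ha hb hab) (hne ha hc hac) (hne hb hc hbc)]

include hP K W in
theorem rel_hexE {B : Subgroup C} (h : MC B) {a b c : B} (ha : a ∈ TB E B) (hb : b ∈ TB E B) (hc : c ∈ TB E B)
    (hab : a ≠ b) (hac : a ≠ c) (hbc : b ≠ c) : letI := commB h.sq
    ∃ S ⊆ TB E B, a ∈ S ∧ b ∈ S ∧ c ∈ S ∧ S.card = 6 ∧ φ ((∏ x ∈ S, x : B) : C) = 1 := by
  classical
  letI := commB h.sq
  have H := hd hP W
  obtain ⟨_, h1, h2⟩ := h.down hP K W
  have hB := h1.base hP W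
  have hm : ∀ {x : B}, x ∈ TB E B → φ (x : C) ∈ dA D (B.map φ) := fun hx => ⟨K.im _ (mem_TB.1 hx), _, Subtype.property _, rfl⟩
  have hne : ∀ {x y : B}, x ∈ TB E B → y ∈ TB E B → x ≠ y → φ (x : C) ≠ φ (y : C) := fun hx hy hxy he =>
    hxy (Subtype.ext (K.phi_inj (mem_TB.1 hx) (mem_TB.1 hy) he))
  have ht := hB.tup (hm ha) (hm hb) (hm hc) (hne ha hb hab) (hne ha hc hac) (hne hb hc hbc)
  obtain ⟨x, y, z, h6, hprod, hiff⟩ := H.ex ht
  set S : Finset B := (TB E B).filter (fun t => φ (t : C) ∈ Hx D (φ a) (φ b) (φ c)) with hS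
  have hST : S ⊆ TB E B := Finset.filter_subset _ _
  have hmem : ∀ q, q ∈ LS φ S ↔ q ∈ Hx D (φ a) (φ b) (φ c) := by
    intro q
    rw [mem_LS]
    constructor
    · rintro ⟨t, ht', rfl⟩
      exact (Finset.mem_filter.1 ht').2
    · intro hq
      have hqB := hB.hex (hm ha) (hm hb) (hm hc) hq
      obtain ⟨e, he, rfl⟩ := K.lift q hqB.1
      have heB : e ∈ B := by rw [← h2]; exact hqB.2
      exact ⟨⟨e, heB⟩, Finset.mem_filter.2 ⟨mem_TB.2 he, hq⟩, rfl⟩
  have hl := LS_tup K h hST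
  have hperm : (LS φ S).Perm [φ a, φ b, φ c, x, y, z] := by
    rw [List.perm_ext_iff_of_nodup hl.1 h6.1]
    intro q
    rw [hmem, hiff]
  refine ⟨S, hST, ?_, ?_, ?_, ?_, ?_⟩
  · exact Finset.mem_filter.2 ⟨ha, FiHex.mem1 (hm ha).1⟩
  · exact Finset.mem_filter.2 ⟨hb, FiHex.mem2 (hm hb).1⟩
  · exact Finset.mem_filter.2 ⟨hc, FiHex.mem3 (hm hc).1⟩
  · have := hperm.length_eq
    rw [hl.2.1] at this
    simpa using this
  · rw [← LS_prod h.sq, prod_perm' hl.2.2.2 hperm, hprod]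

theorem phi_one_iff (K : Cov φ d D E) (x : C) : φ x = 1 ↔ x = 1 ∨ x = d := K.ker x

include hP K W in
/-- some hexad has product `d` -/
theorem exists_hex_d (T : T22 D) (Y : YD D) (hperf : commutator C = ⊤) {B : Subgroup C} (h : MC B) : letI := commB h.sq
    ∃ S ⊆ TB E B, S.card = 6 ∧ ((∏ x ∈ S, x : B) : C) = d := by
  classical
  letI := commB h.sq
  obtain ⟨hdB, h1, h2⟩ := h.down hP K W
  have hsub : ∀ {X : Set B} {x : B}, (x : C) ∈ Subgroup.closure ((fun y : B => (y : C)) '' X) → x ∈ Subgroup.closure X := by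
    intro X x hx
    have h3 : Subgroup.closure ((fun y : B => (y : C)) '' X) = (Subgroup.closure X).map B.subtype := by
      rw [MonoidHom.map_closure]; rfl
    rw [h3] at hx
    obtain ⟨y, hy, hyx⟩ := hx
    have : y = x := Subtype.ext hyx
    rwa [← this]
  have c1 : (⟨d, hdB⟩ : B) ∈ Subgroup.closure (TB E B : Set B) := by
    apply hsub
    rw [TB_coe]
    exact h.d_mem hP K W T Y hperf
  have c2 : (⟨d, hdB⟩ : B) ∈ Subgroup.closure ((fun t => t * (⟨d, hdB⟩ : B)) '' (TB E B : Set B)) := by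
    apply hsub
    have h3 := h.d_mem hP (cov_mul K) W T Y hperf
    have h4 : eA {x | x * d ∈ E} B = (fun y : B => (y : C)) '' ((fun t => t * (⟨d, hdB⟩ : B)) '' (TB E B : Set B)) := by
      ext x
      constructor
      · rintro ⟨hx, hxB⟩
        refine ⟨⟨x, hxB⟩, ⟨⟨x * d, B.mul_mem hxB hdB⟩, Finset.mem_coe.2 (mem_TB.2 hx), ?_⟩, rfl⟩
        apply Subtype.ext
        show x * d * d = x
        rw [mul_assoc, K.dd, mul_one]
      · rintro ⟨_, ⟨t, ht, rfl⟩, rfl⟩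
        have ht' := mem_TB.1 (Finset.mem_coe.1 ht)
        refine ⟨?_, B.mul_mem t.2 hdB⟩
        show (t : C) * d * d ∈ E
        rw [mul_assoc, K.dd, mul_one]
        exact ht'
    rw [← h4]
    exact h3
  obtain ⟨S, hS, h6, hp⟩ := hex_val (A := B) (T := TB E B) (d := ⟨d, hdB⟩) (fun x => Subtype.ext (h.sq x x.2))
    (by rw [card_TB hP K W h]) (fun x => φ (x : C) = 1) (by rw [Subgroup.coe_one, map_one])
    (fun x y hx hy => by rw [Subgroup.coe_mul, map_mul, hx, hy, mul_one])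
    (fun S hS hne h5 => rel_nr hP K W h hS hne h5)
    (fun a ha b hb c hc hab hac hbc => rel_hexE hP K W h ha hb hc hab hac hbc)
    (fun H hH H' hH' h6 h6' hp hp' a b c hab hac hbc ha hb hc ha' hb' hc' => by
      ext t
      by_cases ht : t ∈ TB E B
      · rw [rel_hexU hP K W h hH h6 hp hab hac hbc ha hb hc ht, rel_hexU hP K W h hH' h6' hp' hab hac hbc ha' hb' hc' ht]
      · exact ⟨fun h' => absurd (hH h') ht, fun h' => absurd (hH' h') ht⟩)
    (fun h' => K.d1 (congrArg Subtype.val h')) K.phi_d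
    (fun x hx => by
      rcases (K.ker _).1 hx with h' | h'
      · left; exact Subtype.ext h'
      · right; exact Subtype.ext h') c1 c2
  exact ⟨S, hS, h6, congrArg Subtype.val hp⟩

include hP K W in
/-- **the product of the lifts of a hexad is the central involution** -/
theorem hexval (T : T22 D) (Y : YD D) (hperf : commutator C = ⊤) {l : List C} (hnd : l.Nodup) (hlen : l.length = 6)
    (hE : ∀ x ∈ l, x ∈ E) (hc : ∀ x ∈ l, ∀ y ∈ l, Commute x y) (hprod : (l.map φ).prod = 1) : l.prod = d := by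
  classical
  obtain ⟨B, hB, hXB⟩ := exists_MC_of hP K W (X := {x | x ∈ l}) (fun x hx => hE x hx) (fun x hx y hy => hc x hx y hy)
  obtain ⟨S, hS, h6, hp⟩ := exists_hex_d hP K W T Y hperf hB
  letI := commB hB.sq
  obtain ⟨a₀, ha₀, b₀, hb₀, c₀, hc₀, hab₀, hac₀, hbc₀⟩ := Finset.two_lt_card.1 (show 2 < S.card by omega)
  obtain ⟨a, b, c, l₃, rfl⟩ : ∃ a b c l₃, l = a :: b :: c :: l₃ := by
    match l, hlen with
    | a :: b :: c :: l₃, _ => exact ⟨a, b, c, l₃, rfl⟩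
  have hm : ∀ x ∈ a :: b :: c :: l₃, x ∈ eA E B := fun x hx => ⟨hE x hx, hXB hx⟩
  have hmS : ∀ {x : B}, x ∈ S → (x : C) ∈ eA E B := fun hx => ⟨mem_TB.1 (hS hx), Subtype.property _⟩
  have hne : ∀ {x y : B}, x ≠ y → (x : C) ≠ (y : C) := fun hxy he => hxy (Subtype.ext he)
  have hnd' := hnd
  simp only [List.nodup_cons, List.mem_cons, not_or] at hnd'
  obtain ⟨g, hgB, hga, hgb, hgc⟩ := hB.tri hP K W (hm a (by simp)) (hm b (by simp)) (hm c (by simp)) (hmS ha₀) (hmS hb₀) (hmS hc₀)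
    hnd'.1.1 hnd'.1.2.1 hnd'.2.1.1 (hne hab₀) (hne hac₀) (hne hbc₀)
  set l := a :: b :: c :: l₃ with hl
  set l' := l.map (MulAut.conj g) with hl'
  have hφl : φ l.prod = 1 := by rw [map_list_prod]; exact hprod
  have hcen : MulAut.conj g l.prod = l.prod := by
    show g * l.prod * g⁻¹ = l.prod
    rcases (K.ker _).1 hφl with h | h
    · rw [h, mul_one, mul_inv_cancel]
    · rw [h, ← K.dc g, mul_inv_cancel_right]
  have hprod' : l'.prod = l.prod := by
    rw [hl', ← map_list_prod (MulAut.conj g) l, hcen]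
  have hE' : ∀ x ∈ l', x ∈ E := by
    intro x hx
    rw [hl', List.mem_map] at hx
    obtain ⟨y, hy, rfl⟩ := hx
    exact K.conj g y (hE y hy)
  have hc' : ∀ x ∈ l', ∀ y ∈ l', Commute x y := by
    intro x hx y hy
    rw [hl', List.mem_map] at hx hy
    obtain ⟨x', hx', rfl⟩ := hx
    obtain ⟨y', hy', rfl⟩ := hy
    exact (hc x' hx' y' hy').map (MulAut.conj g)
  have hnd1 : l'.Nodup := hnd.map (MulAut.conj g).injective
  have ht' : Tup D 6 (l'.map φ) := by
    refine ⟨?_, by rw [List.length_map, hl', List.length_map, hlen], ?_, ?_⟩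
    · apply List.Nodup.map_on _ hnd1
      intro x hx y hy hxy
      exact K.phi_inj (hE' x hx) (hE' y hy) hxy
    · intro x hx
      rw [List.mem_map] at hx
      obtain ⟨y, hy, rfl⟩ := hx
      exact K.im y (hE' y hy)
    · intro x hx y hy
      rw [List.mem_map] at hx hy
      obtain ⟨x', hx', rfl⟩ := hx
      obtain ⟨y', hy', rfl⟩ := hy
      exact (hc' x' hx' y' hy').map φ
  have hp' : (l'.map φ).prod = 1 := by
    rw [← map_list_prod, hprod', hφl]
  have hS6 := LS_tup K hB hS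
  rw [h6] at hS6
  have hSp : (LS φ S).prod = 1 := by rw [LS_prod hB.sq, hp, K.phi_d]
  have hmem' : ∀ {x : C} (y : C), y ∈ l → g * y * g⁻¹ = x → φ x ∈ l'.map φ := by
    rintro x y hy rfl
    exact List.mem_map.2 ⟨_, List.mem_map.2 ⟨y, hy, rfl⟩, rfl⟩
  have hφne : ∀ {x y : B}, x ∈ S → y ∈ S → x ≠ y → φ (x : C) ≠ φ (y : C) := fun hx hy hxy he =>
    hxy (Subtype.ext (K.phi_inj (mem_TB.1 (hS hx)) (mem_TB.1 (hS hy)) he))
  have e1 := tup6 (hd hP W) ht' hp' (hmem' a (by simp [hl]) hga) (hmem' b (by simp [hl]) hgb) (hmem' c (by simp [hl]) hgc)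
    (hφne ha₀ hb₀ hab₀) (hφne ha₀ hc₀ hac₀) (hφne hb₀ hc₀ hbc₀)
  have e2 := tup6 (hd hP W) hS6 hSp (mem_LS.2 ⟨a₀, ha₀, rfl⟩) (mem_LS.2 ⟨b₀, hb₀, rfl⟩) (mem_LS.2 ⟨c₀, hc₀, rfl⟩)
    (hφne ha₀ hb₀ hab₀) (hφne ha₀ hc₀ hac₀) (hφne hb₀ hc₀ hbc₀)
  have hperm : l'.Perm (S.toList.map B.subtype) := by
    rw [List.perm_ext_iff_of_nodup hnd1 (S.nodup_toList.map B.subtype_injective)]
    intro x
    constructor
    · intro hx
      have h1 : φ x ∈ LS φ S := by
        rw [e2, ← e1]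
        exact List.mem_map.2 ⟨x, hx, rfl⟩
      obtain ⟨t, ht, hte⟩ := mem_LS.1 h1
      exact List.mem_map.2 ⟨t, Finset.mem_toList.2 ht, K.phi_inj (mem_TB.1 (hS ht)) (hE' x hx) hte⟩
    · intro hx0
      obtain ⟨t, ht, rfl⟩ := List.mem_map.1 hx0
      rw [Finset.mem_toList] at ht
      have h1 : φ (t : C) ∈ l'.map φ := by
        rw [e1, ← e2]
        exact mem_LS.2 ⟨t, ht, rfl⟩
      obtain ⟨y, hy, hye⟩ := List.mem_map.1 h1
      have := K.phi_inj (hE' y hy) (mem_TB.1 (hS ht)) hye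
      show (t : C) ∈ l'
      rwa [← this]
  rw [← hprod', prod_perm' hc' hperm, ← map_list_prod, ← hp]
  have h1 : (∏ x ∈ S, x : B) = (S.toList).prod := by
    rw [← Finset.prod_map_toList]; simp
  rw [h1]
  rfl

include hP K W in
theorem hexval_fin (T : T22 D) (Y : YD D) (hperf : commutator C = ⊤) {B : Subgroup C} (h : MC B) {S : Finset B}
    (hS : S ⊆ TB E B) (h6 : S.card = 6) (h1 : letI := commB h.sq; φ ((∏ x ∈ S, x : B) : C) = 1) :
    letI := commB h.sq
    ((∏ x ∈ S, x : B) : C) = d := by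
  letI := commB h.sq
  have e1 : (∏ x ∈ S, x : B) = (S.toList).prod := by
    rw [← Finset.prod_map_toList]; simp
  have e2 : ((∏ x ∈ S, x : B) : C) = (S.toList.map B.subtype).prod := by
    rw [← map_list_prod, e1]; rfl
  rw [e2]
  apply hexval hP K W T Y hperf (S.nodup_toList.map B.subtype_injective)
  · rw [List.length_map, Finset.length_toList, h6]
  · intro x hx
    obtain ⟨t, ht, rfl⟩ := List.mem_map.1 hx
    exact mem_TB.1 (hS (Finset.mem_toList.1 ht))
  · intro x hx y hy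
    obtain ⟨t, ht, rfl⟩ := List.mem_map.1 hx
    obtain ⟨u, hu, rfl⟩ := List.mem_map.1 hy
    exact h.comm t.2 u.2
  · rw [← map_list_prod, ← e2]
    exact h1

end C

end Cfsg.Agent.Lib.DC22
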