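import Mathlib

set_option autoImplicit false
set_option linter.unusedSectionVars false

/-!
Orbits of a group acting on an elementary abelian group of order `2^11` in the Todd module configuration of
`M_22 < M_23` (helper36, for helper73).
-/

namespace Cfsg.Agent.Lib.OrbM

structure OM (N : Type*) {A : Type*} [Group N] [CommGroup A] [MulDistribMulAction N A] [Fintype A] [DecidableEq A] (d : A) (T : Finset A) : Prop where
  sq : ∀ x : A, x * x = 1
  cA : Fintype.card A = 2048
  cT : T.card = 22
  inv : ∀ n : N, n • d = d → ∀ t ∈ T, n • t ∈ T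
  tri : ∀ a ∈ T, ∀ b ∈ T, ∀ c ∈ T, ∀ a' ∈ T, ∀ b' ∈ T, ∀ c' ∈ T, a ≠ b → a ≠ c → b ≠ c → a' ≠ b' → a' ≠ c' → b' ≠ c' →
    ∃ n : N, n • d = d ∧ n • a = a' ∧ n • b = b' ∧ n • c = c'
  nr : ∀ S ⊆ T, S.Nonempty → S.card ≤ 5 → ∏ x ∈ S, x ≠ 1 ∧ ∏ x ∈ S, x ≠ d
  nr6 : ∀ S ⊆ T, S.card = 6 → ∏ x ∈ S, x ≠ 1
  hex : ∀ a ∈ T, ∀ b ∈ T, ∀ c ∈ T, a ≠ b → a ≠ c → b ≠ c → ∃ S ⊆ T, a ∈ S ∧ b ∈ S ∧ c ∈ S ∧ S.card = 6 ∧ ∏ x ∈ S, x = d
  ne : ∃ n : N, n • d ≠ d

open Finset

variable {N A : Type*} [Group N] [CommGroup A] [MulDistribMulAction N A] [Fintype A] [DecidableEq A] {d : A} {T : Finset A}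

/-- product of the elements -/
def p (S : Finset A) : A := ∏ x ∈ S, x

theorem smul_p (n : N) (S : Finset A) : n • p S = p (S.image (n • ·)) := by
  unfold p
  rw [Finset.smul_prod', Finset.prod_image]
  intro x _ y _ h
  exact smul_left_cancel n h

theorem p_empty : p (∅ : Finset A) = 1 := rfl

theorem p_single (a : A) : p {a} = a := by simp [p]

theorem p_pair {a b : A} (h : a ≠ b) : p {a, b} = a * b := by simp [p, Finset.prod_pair h]

theorem p_insert {a : A} {S : Finset A} (h : a ∉ S) : p (insert a S) = a * p S := by simp [p, Finset.prod_insert h]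

namespace OM

variable (O : OM N d T)
include O

theorem p_sd (S S' : Finset A) : p (symmDiff S S') = p S * p S' := by
  have h1 : p S = p (S ∩ S') * p (S \ S') := (Finset.prod_inter_mul_prod_sdiff S S' _).symm
  have h2 : p S' = p (S' ∩ S) * p (S' \ S) := (Finset.prod_inter_mul_prod_sdiff S' S _).symm
  have h3 : p (symmDiff S S') = p (S \ S') * p (S' \ S) := by
    rw [symmDiff_def, Finset.sup_eq_union]
    exact Finset.prod_union disjoint_sdiff_sdiff
  rw [h1, h2, h3, Finset.inter_comm S' S]
  calc p (S \ S') * p (S' \ S) = (p (S ∩ S') * p (S ∩ S')) * (p (S \ S') * p (S' \ S)) := by rw [O.sq, one_mul]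
    _ = _ := by simp only [mul_assoc, mul_left_comm]

omit O in
theorem card_sd (S S' : Finset A) : (symmDiff S S').card ≤ S.card + S'.card := by
  rw [symmDiff_def, Finset.sup_eq_union]
  exact (Finset.card_union_le _ _).trans (Nat.add_le_add (Finset.card_le_card Finset.sdiff_subset)
    (Finset.card_le_card Finset.sdiff_subset))

omit O in
theorem sub_sd {S S' : Finset A} (hS : S ⊆ T) (hS' : S' ⊆ T) : symmDiff S S' ⊆ T := by
  rw [symmDiff_def, Finset.sup_eq_union]
  exact Finset.union_subset (Finset.sdiff_subset.trans hS) (Finset.sdiff_subset.trans hS')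

theorem inj {S S' : Finset A} (hS : S ⊆ T) (hS' : S' ⊆ T) (hc : S.card + S'.card ≤ 6) (h : p S = p S') : S = S' := by
  by_contra hne
  have h1 : p (symmDiff S S') = 1 := by rw [O.p_sd, h, O.sq]
  have h2 := card_sd S S'
  have h3 : (symmDiff S S').Nonempty := by
    rw [Finset.nonempty_iff_ne_empty]
    intro h4
    exact hne (symmDiff_eq_bot.mp h4)
  rcases Nat.lt_or_ge (symmDiff S S').card 6 with h6 | h6
  · exact (O.nr _ (sub_sd hS hS') h3 (by omega)).1 h1
  · exact O.nr6 _ (sub_sd hS hS') (by omega) h1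

theorem three : ∃ a ∈ T, ∃ b ∈ T, ∃ c ∈ T, a ≠ b ∧ a ≠ c ∧ b ≠ c := by
  have : 2 < T.card := by rw [O.cT]; norm_num
  obtain ⟨a, b, c, ha, hb, hc, h1, h2, h3⟩ := Finset.two_lt_card_iff.mp this
  exact ⟨a, ha, b, hb, c, hc, h1, h2, h3⟩

theorem d_ne : d ≠ 1 := by
  obtain ⟨a, ha, b, hb, c, hc, h1, h2, h3⟩ := O.three
  obtain ⟨S, hS, -, -, -, h6, h7⟩ := O.hex a ha b hb c hc h1 h2 h3
  rw [← h7]
  exact O.nr6 S hS h6

theorem ned {S S' : Finset A} (hS : S ⊆ T) (hS' : S' ⊆ T) (hc : S.card + S'.card ≤ 5) : p S ≠ d * p S' := by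
  intro h
  have h1 : p (symmDiff S S') = d := by rw [O.p_sd, h, mul_assoc, O.sq, mul_one]
  have h2 := card_sd S S'
  by_cases h3 : (symmDiff S S').Nonempty
  · exact (O.nr _ (sub_sd hS hS') h3 (by omega)).2 h1
  · rw [Finset.not_nonempty_iff_eq_empty] at h3
    rw [h3, p_empty] at h1
    exact O.d_ne h1.symm

theorem dd (x : A) : d * (d * x) = x := by rw [← mul_assoc, O.sq, one_mul]

/-- small subsets -/
def U (T : Finset A) (k : ℕ) : Finset (Finset A) := (Finset.range k).biUnion fun i => T.powersetCard i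

omit O in
theorem mem_U {k : ℕ} {S : Finset A} : S ∈ U T k ↔ S ⊆ T ∧ S.card < k := by
  simp only [U, Finset.mem_biUnion, Finset.mem_range, Finset.mem_powersetCard]
  constructor
  · rintro ⟨i, hi, h1, h2⟩; exact ⟨h1, by omega⟩
  · rintro ⟨h1, h2⟩; exact ⟨_, h2, h1, rfl⟩

omit O in
theorem U_filter (k : ℕ) (P : Finset A → Prop) [DecidablePred P] :
    ((U T k).filter P).card = ∑ i ∈ Finset.range k, ((T.powersetCard i).filter P).card := by
  rw [U, Finset.filter_biUnion, Finset.card_biUnion]
  intro i _ j _ hij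
  apply Finset.disjoint_left.mpr
  intro S h1 h2
  rw [Finset.mem_filter, Finset.mem_powersetCard] at h1 h2
  omega

theorem card_U4 : (U T 4).card = 1794 := by
  have := U_filter (T := T) 4 (fun _ => True)
  simp only [Finset.filter_true, Finset.card_powersetCard, O.cT] at this
  rw [this]; decide

theorem card_U3 : (U T 3).card = 254 := by
  have := U_filter (T := T) 3 (fun _ => True)
  simp only [Finset.filter_true, Finset.card_powersetCard, O.cT] at this
  rw [this]; decide

theorem injOn4 : Set.InjOn p (U T 4 : Set (Finset A)) := by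
  intro S hS S' hS' h
  rw [Finset.mem_coe, mem_U] at hS hS'
  exact O.inj hS.1 hS'.1 (by omega) h

theorem injOn3 : Set.InjOn (fun S => d * p S) (U T 3 : Set (Finset A)) := by
  intro S hS S' hS' h
  rw [Finset.mem_coe, mem_U] at hS hS'
  exact O.inj hS.1 hS'.1 (by omega) (mul_left_cancel h)

theorem disj : Disjoint ((U T 4).image p) ((U T 3).image fun S => d * p S) := by
  rw [Finset.disjoint_left]
  intro x h1 h2
  obtain ⟨S, hS, rfl⟩ := Finset.mem_image.mp h1
  obtain ⟨S', hS', h⟩ := Finset.mem_image.mp h2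
  rw [mem_U] at hS hS'
  exact O.ned hS.1 hS'.1 (by omega) h.symm

theorem univ_eq : (U T 4).image p ∪ ((U T 3).image fun S => d * p S) = Finset.univ := by
  apply Finset.eq_univ_of_card
  rw [Finset.card_union_of_disjoint O.disj, Finset.card_image_of_injOn O.injOn4, Finset.card_image_of_injOn O.injOn3,
    O.card_U4, O.card_U3, O.cA]

theorem cov (x : A) : (∃ S ⊆ T, S.card < 4 ∧ p S = x) ∨ (∃ S ⊆ T, S.card < 3 ∧ d * p S = x) := by
  have h := Finset.mem_univ x
  rw [← O.univ_eq, Finset.mem_union, Finset.mem_image, Finset.mem_image] at h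
  rcases h with ⟨S, hS, h⟩ | ⟨S, hS, h⟩
  · rw [mem_U] at hS
    exact Or.inl ⟨S, hS.1, hS.2, h⟩
  · rw [mem_U] at hS
    exact Or.inr ⟨S, hS.1, hS.2, h⟩

/-- transitivity on small sets -/
theorem trk {S S' : Finset A} (hS : S ⊆ T) (hS' : S' ⊆ T) (hc : S.card = S'.card) (h3 : S.card < 4) :
    ∃ n : N, n • d = d ∧ n • p S = p S' := by
  have ext1 : ∀ Q ⊆ T, Q.card < 4 → ∃ c ∈ T, c ∉ Q := by
    intro Q hQ h4
    by_contra hcon
    push Not at hcon
    have := Finset.card_le_card hcon
    rw [O.cT] at this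
    omega
  have hk : S.card = 0 ∨ S.card = 1 ∨ S.card = 2 ∨ S.card = 3 := by omega
  rcases hk with hk | hk | hk | hk
  · rw [hk] at hc
    rw [Finset.card_eq_zero] at hk
    have hk' := Finset.card_eq_zero.mp hc.symm
    subst hk hk'
    exact ⟨1, one_smul _ _, one_smul _ _⟩
  · rw [hk] at hc
    obtain ⟨a, rfl⟩ := Finset.card_eq_one.mp hk
    obtain ⟨a', rfl⟩ := Finset.card_eq_one.mp hc.symm
    have ha := hS (Finset.mem_singleton_self a)
    have ha' := hS' (Finset.mem_singleton_self a')
    obtain ⟨b, hb, hb1⟩ := ext1 {a} hS (by simp)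
    obtain ⟨b', hb', hb1'⟩ := ext1 {a'} hS' (by simp)
    obtain ⟨c, hc, hc1⟩ := ext1 {a, b} (by intro x hx; simp at hx; rcases hx with rfl | rfl <;> assumption)
      (lt_of_le_of_lt (Finset.card_le_two) (by norm_num))
    obtain ⟨c', hc', hc1'⟩ := ext1 {a', b'} (by intro x hx; simp at hx; rcases hx with rfl | rfl <;> assumption)
      (lt_of_le_of_lt (Finset.card_le_two) (by norm_num))
    simp only [Finset.mem_insert, Finset.mem_singleton, not_or] at hb1 hb1' hc1 hc1'
    obtain ⟨n, h1, h2, -, -⟩ := O.tri a ha b hb c hc a' ha' b' hb' c' hc' (Ne.symm hb1) (Ne.symm hc1.1) (Ne.symm hc1.2)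
      (Ne.symm hb1') (Ne.symm hc1'.1) (Ne.symm hc1'.2)
    exact ⟨n, h1, by rw [p_single, p_single, h2]⟩
  · rw [hk] at hc
    obtain ⟨a, b, hab, rfl⟩ := Finset.card_eq_two.mp hk
    obtain ⟨a', b', hab', rfl⟩ := Finset.card_eq_two.mp hc.symm
    have ha := hS (Finset.mem_insert_self a _)
    have ha' := hS' (Finset.mem_insert_self a' _)
    have hb := hS (Finset.mem_insert_of_mem (Finset.mem_singleton_self b))
    have hb' := hS' (Finset.mem_insert_of_mem (Finset.mem_singleton_self b'))
    obtain ⟨c, hc, hc1⟩ := ext1 {a, b} hS (by omega)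
    obtain ⟨c', hc', hc1'⟩ := ext1 {a', b'} hS' (by omega)
    simp only [Finset.mem_insert, Finset.mem_singleton, not_or] at hc1 hc1'
    obtain ⟨n, h1, h2, h3, -⟩ := O.tri a ha b hb c hc a' ha' b' hb' c' hc' hab (Ne.symm hc1.1) (Ne.symm hc1.2)
      hab' (Ne.symm hc1'.1) (Ne.symm hc1'.2)
    exact ⟨n, h1, by rw [p_pair hab, p_pair hab', smul_mul', h2, h3]⟩
  · rw [hk] at hc
    obtain ⟨a, b, c, hab, hac, hbc, rfl⟩ := Finset.card_eq_three.mp hk
    obtain ⟨a', b', c', hab', hac', hbc', rfl⟩ := Finset.card_eq_three.mp hc.symm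
    obtain ⟨n, h1, h2, h3, h4⟩ := O.tri a (hS (by simp)) b (hS (by simp)) c (hS (by simp)) a' (hS' (by simp))
      b' (hS' (by simp)) c' (hS' (by simp)) hab hac hbc hab' hac' hbc'
    refine ⟨n, h1, ?_⟩
    rw [p_insert (by simp [hab, hac]), p_pair hbc, p_insert (by simp [hab', hac']), p_pair hbc', smul_mul', smul_mul',
      h2, h3, h4]

theorem ne1 {s : A} (hs : s ∈ T) : s ≠ 1 := by
  have := (O.nr {s} (Finset.singleton_subset_iff.mpr hs) (Finset.singleton_nonempty s) (by simp)).1
  simpa using this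

theorem ned' {s : A} (hs : s ∈ T) : s ≠ d := by
  have := (O.nr {s} (Finset.singleton_subset_iff.mpr hs) (Finset.singleton_nonempty s) (by simp)).2
  simpa using this

theorem mul_notMem {s : A} (hs : s ∈ T) : d * s ∉ T := by
  intro h
  have hne : s ≠ d * s := by
    intro h1
    exact O.d_ne (mul_eq_right.mp h1.symm)
  have := (O.nr {s, d * s} (by intro x hx; simp at hx; rcases hx with rfl | rfl <;> assumption) ⟨s, by simp⟩
    (Finset.card_le_two.trans (by norm_num))).2
  rw [Finset.prod_pair hne] at this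
  apply this
  rw [mul_left_comm, O.sq, mul_one]

/-- transport of structure -/
theorem map (m : N) : OM N (m • d) (T.image (m • ·)) := by
  have himg : ∀ S ⊆ T.image (m • ·), ∃ S' ⊆ T, S = S'.image (m • ·) ∧ S'.card = S.card ∧ ∏ x ∈ S, x = m • ∏ x ∈ S', x := by
    intro S hS
    refine ⟨S.image (m⁻¹ • ·), ?_, ?_, ?_, ?_⟩
    · intro x hx
      obtain ⟨y, hy, rfl⟩ := Finset.mem_image.mp hx
      obtain ⟨z, hz, rfl⟩ := Finset.mem_image.mp (hS hy)
      simpa using hz
    · rw [Finset.image_image]
      have : ((fun x => m • x) ∘ fun x : A => m⁻¹ • x) = id := by ext x; simp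
      rw [this, Finset.image_id]
    · exact Finset.card_image_of_injective _ (MulAction.injective m⁻¹)
    · have := smul_p m (S.image (m⁻¹ • ·))
      unfold p at this
      rw [this, Finset.image_image]
      have : ((fun x => m • x) ∘ fun x : A => m⁻¹ • x) = id := by ext x; simp
      rw [this, Finset.image_id]
  refine ⟨O.sq, O.cA, ?_, ?_, ?_, ?_, ?_, ?_, ?_⟩
  · rw [Finset.card_image_of_injective _ (MulAction.injective m), O.cT]
  · intro n hn t ht
    obtain ⟨s, hs, rfl⟩ := Finset.mem_image.mp ht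
    have h1 : (m⁻¹ * n * m) • d = d := by
      rw [mul_smul, mul_smul, hn, inv_smul_smul]
    have h2 := O.inv _ h1 s hs
    refine Finset.mem_image.mpr ⟨_, h2, ?_⟩
    simp [mul_smul]
  · intro a ha b hb c hc a' ha' b' hb' c' hc' h1 h2 h3 h4 h5 h6
    obtain ⟨a, ha0, rfl⟩ := Finset.mem_image.mp ha
    obtain ⟨b, hb0, rfl⟩ := Finset.mem_image.mp hb
    obtain ⟨c, hc0, rfl⟩ := Finset.mem_image.mp hc
    obtain ⟨a', ha'0, rfl⟩ := Finset.mem_image.mp ha'
    obtain ⟨b', hb'0, rfl⟩ := Finset.mem_image.mp hb'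
    obtain ⟨c', hc'0, rfl⟩ := Finset.mem_image.mp hc'
    obtain ⟨n, k0, k1, k2, k3⟩ := O.tri a ha0 b hb0 c hc0 a' ha'0 b' hb'0 c' hc'0 (fun h => h1 (by rw [h])) (fun h => h2 (by rw [h]))
      (fun h => h3 (by rw [h])) (fun h => h4 (by rw [h])) (fun h => h5 (by rw [h])) (fun h => h6 (by rw [h]))
    refine ⟨m * n * m⁻¹, ?_, ?_, ?_, ?_⟩
    · rw [mul_smul, inv_smul_smul, mul_smul, k0]
    · show (m * n * m⁻¹) • m • a = m • a'
      rw [mul_smul, inv_smul_smul, mul_smul, k1]
    · show (m * n * m⁻¹) • m • b = m • b'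
      rw [mul_smul, inv_smul_smul, mul_smul, k2]
    · show (m * n * m⁻¹) • m • c = m • c'
      rw [mul_smul, inv_smul_smul, mul_smul, k3]
  · intro S hS hne h5
    obtain ⟨S', hS', h1, h2, h3⟩ := himg S hS
    have hne' : S'.Nonempty := by
      rw [h1] at hne
      exact Finset.image_nonempty.mp hne
    obtain ⟨k1, k2⟩ := O.nr S' hS' hne' (by omega)
    rw [h3]
    constructor
    · intro h
      apply k1
      rw [← smul_one m] at h
      exact smul_left_cancel m h
    · intro h
      exact k2 (smul_left_cancel m h)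
  · intro S hS h6
    obtain ⟨S', hS', h1, h2, h3⟩ := himg S hS
    rw [h3]
    intro h
    rw [← smul_one m] at h
    exact O.nr6 S' hS' (by omega) (smul_left_cancel m h)
  · intro a ha b hb c hc h1 h2 h3
    obtain ⟨a, ha0, rfl⟩ := Finset.mem_image.mp ha
    obtain ⟨b, hb0, rfl⟩ := Finset.mem_image.mp hb
    obtain ⟨c, hc0, rfl⟩ := Finset.mem_image.mp hc
    obtain ⟨S, hS, k1, k2, k3, k4, k5⟩ := O.hex a ha0 b hb0 c hc0 (fun h => h1 (by rw [h])) (fun h => h2 (by rw [h]))
      (fun h => h3 (by rw [h]))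
    refine ⟨S.image (m • ·), Finset.image_subset_image hS, Finset.mem_image_of_mem _ k1, Finset.mem_image_of_mem _ k2,
      Finset.mem_image_of_mem _ k3, ?_, ?_⟩
    · rw [Finset.card_image_of_injective _ (MulAction.injective m), k4]
    · have := smul_p m S
      unfold p at this
      rw [← this, k5]
  · obtain ⟨n, hn⟩ := O.ne
    refine ⟨m * n * m⁻¹, fun h => hn ?_⟩
    rw [mul_smul, inv_smul_smul, mul_smul] at h
    exact smul_left_cancel m h

theorem dual : OM N d (T.image (d * ·)) := by
  have hinj : Function.Injective (fun x : A => d * x) := mul_right_injective d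
  have himg : ∀ S ⊆ T.image (d * ·), ∃ S' ⊆ T, S = S'.image (d * ·) ∧ S'.card = S.card ∧
      ∏ x ∈ S, x = d ^ S.card * ∏ x ∈ S', x := by
    intro S hS
    have e : S = (S.image (d * ·)).image (d * ·) := by
      rw [Finset.image_image]
      have : ((fun x => d * x) ∘ fun x : A => d * x) = id := by ext x; exact O.dd x
      rw [this, Finset.image_id]
    have hc : (S.image (d * ·)).card = S.card := Finset.card_image_of_injective _ hinj
    refine ⟨S.image (d * ·), ?_, e, hc, ?_⟩
    · intro x hx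
      obtain ⟨y, hy, rfl⟩ := Finset.mem_image.mp hx
      obtain ⟨z, hz, rfl⟩ := Finset.mem_image.mp (hS hy)
      show d * (d * z) ∈ T
      rw [O.dd]; exact hz
    · conv_lhs => rw [e]
      rw [Finset.prod_image (fun x _ y _ h => hinj h), Finset.prod_mul_distrib, Finset.prod_const, hc]
  have hpow : ∀ k, d ^ k = 1 ∨ d ^ k = d := by
    intro k
    induction k with
    | zero => left; exact pow_zero d
    | succ k ih =>
      rcases ih with h | h
      · right; rw [pow_succ, h, one_mul]
      · left; rw [pow_succ, h, O.sq]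
  have h6 : d ^ 6 = 1 := by
    have : d ^ 6 = (d * d) * (d * d) * (d * d) := by simp only [pow_succ, pow_zero, one_mul, mul_assoc]
    rw [this, O.sq, one_mul, O.sq]
  refine ⟨O.sq, O.cA, ?_, ?_, ?_, ?_, ?_, ?_, O.ne⟩
  · rw [Finset.card_image_of_injective _ hinj, O.cT]
  · intro n hn t ht
    obtain ⟨s, hs, rfl⟩ := Finset.mem_image.mp ht
    refine Finset.mem_image.mpr ⟨_, O.inv n hn s hs, ?_⟩
    show d * n • s = n • (d * s)
    rw [smul_mul', hn]
  · intro a ha b hb c hc a' ha' b' hb' c' hc' h1 h2 h3 h4 h5 h6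
    obtain ⟨a, ha0, rfl⟩ := Finset.mem_image.mp ha
    obtain ⟨b, hb0, rfl⟩ := Finset.mem_image.mp hb
    obtain ⟨c, hc0, rfl⟩ := Finset.mem_image.mp hc
    obtain ⟨a', ha'0, rfl⟩ := Finset.mem_image.mp ha'
    obtain ⟨b', hb'0, rfl⟩ := Finset.mem_image.mp hb'
    obtain ⟨c', hc'0, rfl⟩ := Finset.mem_image.mp hc'
    obtain ⟨n, k0, k1, k2, k3⟩ := O.tri a ha0 b hb0 c hc0 a' ha'0 b' hb'0 c' hc'0 (fun h => h1 (by rw [h])) (fun h => h2 (by rw [h]))
      (fun h => h3 (by rw [h])) (fun h => h4 (by rw [h])) (fun h => h5 (by rw [h])) (fun h => h6 (by rw [h]))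
    refine ⟨n, k0, ?_, ?_, ?_⟩
    · show n • (d * a) = d * a'
      rw [smul_mul', k0, k1]
    · show n • (d * b) = d * b'
      rw [smul_mul', k0, k2]
    · show n • (d * c) = d * c'
      rw [smul_mul', k0, k3]
  · intro S hS hne h5
    obtain ⟨S', hS', h1, h2, h3⟩ := himg S hS
    have hne' : S'.Nonempty := by
      rw [h1] at hne
      exact Finset.image_nonempty.mp hne
    obtain ⟨k1, k2⟩ := O.nr S' hS' hne' (by omega)
    rw [h3]
    rcases hpow S.card with h | h
    · rw [h, one_mul]; exact ⟨k1, k2⟩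
    · rw [h]
      constructor
      · intro h4
        apply k2
        have := congrArg (d * ·) h4
        simp only [O.dd, mul_one] at this
        exact this
      · intro h4
        exact k1 (mul_eq_left.mp h4)
  · intro S hS hc
    obtain ⟨S', hS', h1, h2, h3⟩ := himg S hS
    rw [h3, hc, h6, one_mul]
    exact O.nr6 S' hS' (by omega)
  · intro a ha b hb c hc h1 h2 h3
    obtain ⟨a, ha0, rfl⟩ := Finset.mem_image.mp ha
    obtain ⟨b, hb0, rfl⟩ := Finset.mem_image.mp hb
    obtain ⟨c, hc0, rfl⟩ := Finset.mem_image.mp hc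
    obtain ⟨S, hS, k1, k2, k3, k4, k5⟩ := O.hex a ha0 b hb0 c hc0 (fun h => h1 (by rw [h])) (fun h => h2 (by rw [h]))
      (fun h => h3 (by rw [h]))
    refine ⟨S.image (d * ·), Finset.image_subset_image hS, Finset.mem_image_of_mem _ k1, Finset.mem_image_of_mem _ k2,
      Finset.mem_image_of_mem _ k3, ?_, ?_⟩
    · rw [Finset.card_image_of_injective _ hinj, k4]
    · rw [Finset.prod_image (fun x _ y _ h => hinj h), Finset.prod_mul_distrib, Finset.prod_const, k4, h6, one_mul, k5]

theorem img_eq {k : N} (hk : k • d = d) : T.image (k • ·) = T := by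
  apply Finset.eq_of_subset_of_card_le
  · intro x hx
    obtain ⟨y, hy, rfl⟩ := Finset.mem_image.mp hx
    exact O.inv k hk y hy
  · rw [Finset.card_image_of_injective _ (MulAction.injective k)]

section claim

variable {t : A} (ht : t ∈ T) {Y : Finset A} (hY : ∀ n : N, n • d = d → n • t = t → ∀ y ∈ Y, n • y ∈ Y) (h21 : Y.card = 21)
include ht

theorem tr2 {a b a' b' : A} (ha : a ∈ T.erase t) (hb : b ∈ T.erase t) (ha' : a' ∈ T.erase t) (hb' : b' ∈ T.erase t)
    (hab : a ≠ b) (hab' : a' ≠ b') : ∃ n : N, n • d = d ∧ n • t = t ∧ n • a = a' ∧ n • b = b' := by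
  rw [Finset.mem_erase] at ha hb ha' hb'
  obtain ⟨n, h1, h2, h3, h4⟩ := O.tri a ha.2 b hb.2 t ht a' ha'.2 b' hb'.2 t ht hab ha.1 hb.1 hab' ha'.1 hb'.1
  exact ⟨n, h1, h4, h2, h3⟩

theorem tr1 {a a' : A} (ha : a ∈ T.erase t) (ha' : a' ∈ T.erase t) : ∃ n : N, n • d = d ∧ n • t = t ∧ n • a = a' := by
  have hc : (T.erase t).card = 21 := by rw [Finset.card_erase_of_mem ht, O.cT]
  obtain ⟨b, hb, hb1⟩ := Finset.exists_mem_ne (show 1 < (T.erase t).card by omega) a
  obtain ⟨b', hb', hb1'⟩ := Finset.exists_mem_ne (show 1 < (T.erase t).card by omega) a'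
  obtain ⟨n, h1, h2, h3, -⟩ := O.tr2 ht ha hb ha' hb' hb1.symm hb1'.symm
  exact ⟨n, h1, h2, h3⟩

include hY h21

theorem one {z a : A} (hz : ∀ n : N, n • d = d → n • t = t → n • z = z) (ha : a ∈ T.erase t) (h : z * a ∈ Y) :
    Y = (T.erase t).image (z * ·) := by
  symm
  apply Finset.eq_of_subset_of_card_le
  · intro x hx
    obtain ⟨b, hb, rfl⟩ := Finset.mem_image.mp hx
    obtain ⟨n, h1, h2, h3⟩ := O.tr1 ht ha hb
    have := hY n h1 h2 _ h
    rwa [smul_mul', hz n h1 h2, h3] at this
  · rw [Finset.card_image_of_injective _ (mul_right_injective z), Finset.card_erase_of_mem ht, O.cT, h21]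

theorem big2 {z a b : A} (hz : ∀ n : N, n • d = d → n • t = t → n • z = z) (ha : a ∈ T.erase t) (hb : b ∈ T.erase t)
    (hab : a ≠ b) (h : z * (a * b) ∈ Y) : False := by
  have hsub : ((T.erase t).powersetCard 2).image (fun Q => z * p Q) ⊆ Y := by
    intro x hx
    obtain ⟨Q, hQ, rfl⟩ := Finset.mem_image.mp hx
    rw [Finset.mem_powersetCard] at hQ
    obtain ⟨a', b', hab', rfl⟩ := Finset.card_eq_two.mp hQ.2
    obtain ⟨n, h1, h2, h3, h4⟩ := O.tr2 ht ha hb (hQ.1 (by simp)) (hQ.1 (by simp)) hab hab'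
    have := hY n h1 h2 _ h
    rw [smul_mul', smul_mul', hz n h1 h2, h3, h4] at this
    rw [p_pair hab']
    exact this
  have h1 := Finset.card_le_card hsub
  rw [Finset.card_image_of_injOn, Finset.card_powersetCard, Finset.card_erase_of_mem ht, O.cT, h21] at h1
  · exact absurd h1 (by decide)
  · intro Q hQ Q' hQ' h
    rw [Finset.mem_coe, Finset.mem_powersetCard] at hQ hQ'
    exact O.inj (hQ.1.trans (Finset.erase_subset _ _)) (hQ'.1.trans (Finset.erase_subset _ _)) (by omega)
      (mul_left_cancel h)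

theorem big3 {S : Finset A} (hS : S ⊆ T.erase t) (hc : S.card = 3) (h : p S ∈ Y) : False := by
  obtain ⟨a, b, c, hab, hac, hbc, rfl⟩ := Finset.card_eq_three.mp hc
  set 𝒮 := ((T.erase t).powersetCard 3).filter (fun S => p S ∈ Y) with h𝒮
  have h1 : 𝒮.card ≤ 21 := by
    rw [← h21, ← Finset.card_image_of_injOn (s := 𝒮) (f := p)]
    · apply Finset.card_le_card
      intro x hx
      obtain ⟨S, hS, rfl⟩ := Finset.mem_image.mp hx
      exact (Finset.mem_filter.mp hS).2
    · intro Q hQ Q' hQ' h
      rw [Finset.mem_coe, Finset.mem_filter, Finset.mem_powersetCard] at hQ hQ'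
      exact O.inj (hQ.1.1.trans (Finset.erase_subset _ _)) (hQ'.1.1.trans (Finset.erase_subset _ _)) (by omega) h
  have h2 : (T.erase t).powersetCard 2 ⊆ 𝒮.biUnion (fun S => S.powersetCard 2) := by
    intro Q hQ
    rw [Finset.mem_powersetCard] at hQ
    obtain ⟨a', b', hab', rfl⟩ := Finset.card_eq_two.mp hQ.2
    obtain ⟨n, k1, k2, k3, k4⟩ := O.tr2 ht (hS (by simp) : a ∈ _) (hS (by simp) : b ∈ _) (hQ.1 (by simp) : a' ∈ _)
      (hQ.1 (by simp) : b' ∈ _) hab hab'
    have hk := hY n k1 k2 _ h
    rw [smul_p] at hk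
    have e : ({a, b, c} : Finset A).image (n • ·) = {a', b', n • c} := by
      rw [Finset.image_insert, Finset.image_insert, Finset.image_singleton, k3, k4]
    rw [e] at hk
    have hcm : n • c ∈ T.erase t := by
      rw [Finset.mem_erase]
      have hc' := Finset.mem_erase.mp (hS (by simp) : c ∈ _)
      refine ⟨?_, O.inv n k1 c hc'.2⟩
      intro h5
      rw [← k2] at h5
      exact hc'.1 (smul_left_cancel n h5)
    have hac' : a' ≠ n • c := by
      rw [← k3]
      exact fun h5 => hac (smul_left_cancel n h5)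
    have hbc' : b' ≠ n • c := by
      rw [← k4]
      exact fun h5 => hbc (smul_left_cancel n h5)
    refine Finset.mem_biUnion.mpr ⟨{a', b', n • c}, ?_, ?_⟩
    · rw [h𝒮, Finset.mem_filter, Finset.mem_powersetCard]
      refine ⟨⟨?_, ?_⟩, hk⟩
      · intro x hx
        simp only [Finset.mem_insert, Finset.mem_singleton] at hx
        rcases hx with rfl | rfl | rfl
        · exact hQ.1 (by simp)
        · exact hQ.1 (by simp)
        · exact hcm
      · exact Finset.card_eq_three.mpr ⟨_, _, _, hab', hac', hbc', rfl⟩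
    · rw [Finset.mem_powersetCard]
      refine ⟨?_, hQ.2⟩
      intro x hx
      simp only [Finset.mem_insert, Finset.mem_singleton] at hx ⊢
      tauto
  have h3 := Finset.card_le_card h2
  have h4 : (𝒮.biUnion (fun S => S.powersetCard 2)).card ≤ 𝒮.card * 3 := by
    apply Finset.card_biUnion_le_card_mul
    intro S hS
    rw [h𝒮, Finset.mem_filter, Finset.mem_powersetCard] at hS
    rw [Finset.card_powersetCard, hS.1.2]
    decide
  rw [Finset.card_powersetCard, Finset.card_erase_of_mem ht, O.cT] at h3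
  have h5 : (22 - 1).choose 2 = 210 := by decide
  omega

theorem claim (h1 : (1 : A) ∉ Y) (hd : d ∉ Y) (ht' : t ∉ Y) (hdt : d * t ∉ Y) :
    Y = T.erase t ∨ Y = (T.erase t).image (d * ·) ∨ Y = (T.erase t).image (t * ·) ∨ Y = (T.erase t).image (d * t * ·) := by
  have hne : Y.Nonempty := by rw [← Finset.card_pos]; omega
  obtain ⟨y, hy⟩ := hne
  have z1 : ∀ n : N, n • d = d → n • t = t → n • (1 : A) = 1 := fun n _ _ => smul_one n
  have zd : ∀ n : N, n • d = d → n • t = t → n • d = d := fun n h _ => h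
  have zt : ∀ n : N, n • d = d → n • t = t → n • t = t := fun n _ h => h
  have zdt : ∀ n : N, n • d = d → n • t = t → n • (d * t) = d * t := fun n h h' => by rw [smul_mul', h, h']
  have split : ∀ S ⊆ T, (S ⊆ T.erase t) ∨ ∃ Q ⊆ T.erase t, S.card = Q.card + 1 ∧ p S = t * p Q := by
    intro S hS
    by_cases htS : t ∈ S
    · right
      refine ⟨S.erase t, Finset.erase_subset_erase _ hS, ?_, ?_⟩
      · rw [Finset.card_erase_of_mem htS]
        have := Finset.card_pos.mpr ⟨t, htS⟩
        omega
      · rw [← p_insert (Finset.notMem_erase t S), Finset.insert_erase htS]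
    · left
      intro x hx
      rw [Finset.mem_erase]
      exact ⟨fun h => htS (h ▸ hx), hS hx⟩
  -- common treatment
  have key : ∀ z : A, (∀ n : N, n • d = d → n • t = t → n • z = z) → z ∉ Y → ∀ Q ⊆ T.erase t, Q.card < 3 → z * p Q ∈ Y →
      Y = (T.erase t).image (z * ·) := by
    intro z hz hzY Q hQ hc hm
    have hk : Q.card = 0 ∨ Q.card = 1 ∨ Q.card = 2 := by omega
    rcases hk with hk | hk | hk
    · rw [Finset.card_eq_zero] at hk
      subst hk
      rw [p_empty, mul_one] at hm
      exact absurd hm hzY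
    · obtain ⟨a, rfl⟩ := Finset.card_eq_one.mp hk
      rw [p_single] at hm
      exact O.one ht hY h21 hz (hQ (by simp)) hm
    · obtain ⟨a, b, hab, rfl⟩ := Finset.card_eq_two.mp hk
      rw [p_pair hab] at hm
      exact (O.big2 ht hY h21 hz (hQ (by simp)) (hQ (by simp)) hab hm).elim
  rcases O.cov y with ⟨S, hS, hc, rfl⟩ | ⟨S, hS, hc, rfl⟩
  · rcases split S hS with h | ⟨Q, hQ, hc', hp⟩
    · by_cases h3 : S.card = 3
      · exact (O.big3 ht hY h21 h h3 hy).elim
      · left
        have := key 1 z1 h1 S h (by omega) (by rw [one_mul]; exact hy)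
        rw [this]
        ext x; simp
    · right; right; left
      rw [hp] at hy
      exact key t zt ht' Q hQ (by omega) hy
  · rcases split S hS with h | ⟨Q, hQ, hc', hp⟩
    · right; left
      exact key d zd hd S h hc hy
    · right; right; right
      rw [hp, ← mul_assoc] at hy
      exact key (d * t) zdt hdt Q hQ (by omega) hy

end claim

/-- in the orbit of `d` -/
def InO (N : Type*) {A : Type*} [Group N] [CommGroup A] [MulDistribMulAction N A] (d x : A) : Prop := ∃ n : N, n • d = x

open Classical in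
/-- the set belonging to a point of the orbit -/
noncomputable def Tx (N : Type*) {A : Type*} [Group N] [CommGroup A] [MulDistribMulAction N A] [DecidableEq A]
    (d : A) (T : Finset A) (x : A) : Finset A :=
  if h : ∃ n : N, n • d = x then T.image (h.choose • ·) else ∅

theorem Tx_smul (n : N) : Tx N d T (n • d) = T.image (n • ·) := by
  have h : ∃ k : N, k • d = n • d := ⟨n, rfl⟩
  unfold Tx
  rw [dif_pos h]
  have hk := h.choose_spec
  set k := h.choose
  have h1 : (n⁻¹ * k) • d = d := by rw [mul_smul, hk, inv_smul_smul]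
  have h2 := O.img_eq h1
  have h3 : T.image (k • ·) = (T.image ((n⁻¹ * k) • ·)).image (n • ·) := by
    rw [Finset.image_image]
    congr 1
    ext x
    simp [mul_smul]
  rw [h3, h2]

theorem Tx_d : Tx N d T d = T := by
  have := O.Tx_smul (N := N) 1
  simpa using this

theorem omx {x : A} (hx : InO N d x) : OM N x (Tx N d T x) := by
  obtain ⟨n, rfl⟩ := hx
  rw [O.Tx_smul]
  exact O.map n

theorem mem_Tx (n : N) (y : A) : y ∈ Tx N d T (n • d) ↔ n⁻¹ • y ∈ T := by
  rw [O.Tx_smul, Finset.mem_image]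
  constructor
  · rintro ⟨z, hz, rfl⟩; simpa using hz
  · intro h; exact ⟨_, h, smul_inv_smul n y⟩

theorem Tx_m (m : N) {x : A} (hx : InO N d x) (y : A) : m • y ∈ Tx N d T (m • x) ↔ y ∈ Tx N d T x := by
  obtain ⟨n, rfl⟩ := hx
  rw [← mul_smul, O.mem_Tx, O.mem_Tx, mul_inv_rev, mul_smul, inv_smul_smul]

omit O in
theorem InO.smul {x : A} (hx : InO N d x) (m : N) : InO N d (m • x) := by
  obtain ⟨n, rfl⟩ := hx
  exact ⟨m * n, mul_smul _ _ _⟩

omit O in
theorem InO.of_smul {x : A} (m : N) (hx : InO N d (m • x)) : InO N d x := by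
  have := hx.smul m⁻¹
  rwa [inv_smul_smul] at this

omit O in
theorem InO.self : InO N d d := ⟨1, one_smul _ _⟩

theorem one_notin : ¬ InO N d (1 : A) := by
  rintro ⟨n, hn⟩
  rw [← smul_one n] at hn
  exact O.d_ne (smul_left_cancel n hn)

theorem Tx_dual {x : A} (hx : InO N d x) : Tx N d (T.image (d * ·)) x = (Tx N d T x).image (x * ·) := by
  obtain ⟨n, rfl⟩ := hx
  rw [O.dual.Tx_smul, O.Tx_smul, Finset.image_image, Finset.image_image]
  congr 1
  ext x
  simp [smul_mul']

open Classical in
theorem cnt (hT : ∀ t ∈ T, InO N d t) : (Finset.univ.filter fun y => InO N d y ∧ d ∈ Tx N d T y).card = 22 := by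
  set Ob := Finset.univ.filter (fun x : A => InO N d x) with hOb
  have hTO : ∀ x, InO N d x → ∀ y ∈ Tx N d T x, InO N d y := by
    rintro _ ⟨n, rfl⟩ y hy
    rw [O.mem_Tx] at hy
    exact InO.of_smul _ (hT _ hy)
  have h1 := Finset.sum_card_bipartiteAbove_eq_sum_card_bipartiteBelow (s := Ob) (t := Ob) (fun x y => y ∈ Tx N d T x)
  have h2 : ∀ x ∈ Ob, (Ob.bipartiteAbove (fun x y => y ∈ Tx N d T x) x).card = 22 := by
    intro x hx
    rw [hOb, Finset.mem_filter] at hx
    rw [← (O.omx hx.2).cT]
    congr 1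
    ext y
    rw [Finset.mem_bipartiteAbove, hOb, Finset.mem_filter]
    exact ⟨fun h => h.2, fun h => ⟨⟨Finset.mem_univ _, hTO x hx.2 y h⟩, h⟩⟩
  have h3 : ∀ y ∈ Ob, (Ob.bipartiteBelow (fun x y => y ∈ Tx N d T x) y).card =
      (Finset.univ.filter fun y => InO N d y ∧ d ∈ Tx N d T y).card := by
    intro y hy
    rw [hOb, Finset.mem_filter] at hy
    obtain ⟨n, rfl⟩ := hy.2
    rw [← Finset.card_image_of_injective (Finset.univ.filter fun y => InO N d y ∧ d ∈ Tx N d T y) (MulAction.injective n)]
    congr 1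
    ext x
    rw [Finset.mem_bipartiteBelow, hOb, Finset.mem_filter, Finset.mem_image]
    constructor
    · rintro ⟨⟨-, h4⟩, h5⟩
      refine ⟨n⁻¹ • x, ?_, smul_inv_smul n x⟩
      rw [Finset.mem_filter]
      refine ⟨Finset.mem_univ _, h4.smul _, ?_⟩
      rw [← O.Tx_m n (h4.smul _), smul_inv_smul]
      exact h5
    · rintro ⟨z, hz, rfl⟩
      rw [Finset.mem_filter] at hz
      exact ⟨⟨Finset.mem_univ _, hz.2.1.smul n⟩, (O.Tx_m n hz.2.1 d).mpr hz.2.2⟩
  rw [Finset.sum_congr rfl h2, Finset.sum_congr rfl h3, Finset.sum_const, Finset.sum_const, smul_eq_mul, smul_eq_mul] at h1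
  have h4 : 0 < Ob.card := Finset.card_pos.mpr ⟨d, by rw [hOb, Finset.mem_filter]; exact ⟨Finset.mem_univ _, InO.self⟩⟩
  exact (Nat.eq_of_mul_eq_mul_left h4 h1).symm

theorem all_of (X : A → Prop) (hX : ∀ n : N, n • d = d → ∀ x, X x → X (n • x)) {z : A} (hz : ∀ n : N, n • d = d → n • z = z)
    {S S' : Finset A} (hS : S ⊆ T) (hS' : S' ⊆ T) (hc : S.card = S'.card) (h3 : S.card < 4) (h : X (z * p S)) :
    X (z * p S') := by
  obtain ⟨n, h1, h2⟩ := O.trk hS hS' hc h3
  have := hX n h1 _ h
  rwa [smul_mul', hz n h1, h2] at this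

theorem choose_le (X : A → Prop) [DecidablePred X] (hX : ∀ n : N, n • d = d → ∀ x, X x → X (n • x)) {z : A}
    (hz : ∀ n : N, n • d = d → n • z = z) {S : Finset A} (hS : S ⊆ T) (h3 : S.card < 4) (h : X (z * p S)) :
    Nat.choose 22 S.card ≤ (Finset.univ.filter X).card := by
  have hsub : (T.powersetCard S.card).image (fun Q => z * p Q) ⊆ Finset.univ.filter X := by
    intro x hx
    obtain ⟨Q, hQ, rfl⟩ := Finset.mem_image.mp hx
    rw [Finset.mem_powersetCard] at hQ
    rw [Finset.mem_filter]
    exact ⟨Finset.mem_univ _, O.all_of X hX hz hS hQ.1 hQ.2.symm h3 h⟩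
  have h1 := Finset.card_le_card hsub
  rwa [Finset.card_image_of_injOn, Finset.card_powersetCard, O.cT] at h1
  intro Q hQ Q' hQ' h
  rw [Finset.mem_coe, Finset.mem_powersetCard] at hQ hQ'
  exact O.inj hQ.1 hQ'.1 (by omega) (mul_left_cancel h)

theorem size22 (X : A → Prop) [DecidablePred X] (hX : ∀ n : N, n • d = d → ∀ x, X x → X (n • x)) (hc : (Finset.univ.filter X).card = 22) :
    (∀ x, X x ↔ x ∈ T) ∨ (∀ x, X x ↔ x ∈ T.image (d * ·)) := by
  have z1 : ∀ n : N, n • d = d → n • (1 : A) = 1 := fun n _ => smul_one n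
  have zd : ∀ n : N, n • d = d → n • d = d := fun n h => h
  have hfull : ∀ W : Finset A, W.card = 22 → (∀ x ∈ W, X x) → ∀ x, X x ↔ x ∈ W := by
    intro W hW hall
    have h1 : W = Finset.univ.filter X := by
      apply Finset.eq_of_subset_of_card_le
      · intro x hx
        rw [Finset.mem_filter]
        exact ⟨Finset.mem_univ _, hall x hx⟩
      · rw [hc, hW]
    intro x
    rw [h1, Finset.mem_filter]
    exact ⟨fun h => ⟨Finset.mem_univ _, h⟩, fun h => h.2⟩
  by_cases hA : ∃ t ∈ T, X t
  · left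
    obtain ⟨t, ht, hXt⟩ := hA
    refine hfull T O.cT fun x hx => ?_
    have := O.all_of X hX z1 (Finset.singleton_subset_iff.mpr ht) (Finset.singleton_subset_iff.mpr hx) (by simp) (by simp)
      (by rw [p_single, one_mul]; exact hXt)
    rwa [p_single, one_mul] at this
  by_cases hB : ∃ t ∈ T, X (d * t)
  · right
    obtain ⟨t, ht, hXt⟩ := hB
    refine hfull _ O.dual.cT fun x hx => ?_
    obtain ⟨s, hs, rfl⟩ := Finset.mem_image.mp hx
    have := O.all_of X hX zd (Finset.singleton_subset_iff.mpr ht) (Finset.singleton_subset_iff.mpr hs) (by simp) (by simp)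
      (by rw [p_single]; exact hXt)
    rwa [p_single] at this
  exfalso
  push Not at hA hB
  have hsub : Finset.univ.filter X ⊆ {1, d} := by
    intro x hx
    rw [Finset.mem_filter] at hx
    rw [Finset.mem_insert, Finset.mem_singleton]
    rcases O.cov x with ⟨S, hS, hc4, rfl⟩ | ⟨S, hS, hc4, rfl⟩
    · have h1 := O.choose_le X hX z1 hS hc4 (by rw [one_mul]; exact hx.2)
      rw [hc] at h1
      have hk : S.card = 0 ∨ S.card = 1 ∨ S.card = 2 ∨ S.card = 3 := by omega
      rcases hk with hk | hk | hk | hk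
      · rw [Finset.card_eq_zero] at hk
        subst hk
        left; rfl
      · obtain ⟨a, rfl⟩ := Finset.card_eq_one.mp hk
        rw [p_single] at hx
        exact absurd hx.2 (hA a (hS (by simp)))
      · rw [hk] at h1; exact absurd h1 (by decide)
      · rw [hk] at h1; exact absurd h1 (by decide)
    · have h1 := O.choose_le X hX zd hS (by omega) hx.2
      rw [hc] at h1
      have hk : S.card = 0 ∨ S.card = 1 ∨ S.card = 2 := by omega
      rcases hk with hk | hk | hk
      · rw [Finset.card_eq_zero] at hk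
        subst hk
        right; rw [p_empty, mul_one]
      · obtain ⟨a, rfl⟩ := Finset.card_eq_one.mp hk
        rw [p_single] at hx
        exact absurd hx.2 (hB a (hS (by simp)))
      · rw [hk] at h1; exact absurd h1 (by decide)
  have h1 := Finset.card_le_card hsub
  rw [hc] at h1
  have := Finset.card_le_two (a := (1 : A)) (b := d)
  omega

theorem X_inv (n : N) (hn : n • d = d) (x : A) (h : InO N d x ∧ d ∈ Tx N d T x) : InO N d (n • x) ∧ d ∈ Tx N d T (n • x) := by
  refine ⟨h.1.smul n, ?_⟩
  have := (O.Tx_m n h.1 d).mpr h.2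
  rwa [hn] at this

theorem X1 (hT : ∀ t ∈ T, InO N d t) :
    (∀ x, (InO N d x ∧ d ∈ Tx N d T x) ↔ x ∈ T) ∨ (∀ x, (InO N d x ∧ d ∈ Tx N d T x) ↔ x ∈ T.image (d * ·)) := by
  classical
  exact O.size22 (fun x => InO N d x ∧ d ∈ Tx N d T x) O.X_inv (by convert O.cnt hT)

theorem X2 (hT : ∀ t ∈ T, InO N d (d * t)) :
    (∀ x, (InO N d x ∧ d ∈ Tx N d (T.image (d * ·)) x) ↔ x ∈ T) ∨
      (∀ x, (InO N d x ∧ d ∈ Tx N d (T.image (d * ·)) x) ↔ x ∈ T.image (d * ·)) := by
  classical
  have hT' : ∀ x ∈ T.image (d * ·), InO N d x := by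
    intro x hx
    obtain ⟨t, ht, rfl⟩ := Finset.mem_image.mp hx
    exact hT t ht
  exact O.size22 (fun x => InO N d x ∧ d ∈ Tx N d (T.image (d * ·)) x) O.dual.X_inv (by convert O.dual.cnt hT')

/-- the set of partners -/
noncomputable def Ux (N : Type*) {A : Type*} [Group N] [CommGroup A] [MulDistribMulAction N A] [DecidableEq A]
    (d : A) (T : Finset A) (x : A) : Finset A := Tx N d T x ∪ Tx N d (T.image (d * ·)) x

theorem symU0 (hT : ∀ t ∈ T, InO N d t) (hdT : ∀ t ∈ T, InO N d (d * t)) {y : A} (hy : y ∈ T ∪ T.image (d * ·)) :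
    d ∈ Ux N d T y := by
  have hex : ∀ x, (InO N d x ∧ d ∈ Tx N d T x) → (InO N d x ∧ d ∈ Tx N d (T.image (d * ·)) x) → False := by
    rintro x ⟨hx, h1⟩ ⟨-, h2⟩
    rw [O.Tx_dual hx, Finset.mem_image] at h2
    obtain ⟨s, hs, h3⟩ := h2
    have := (O.omx hx).mul_notMem hs
    rw [h3] at this
    exact this h1
  obtain ⟨t0, ht0⟩ : ∃ t0, t0 ∈ T := by
    obtain ⟨a, ha, -⟩ := O.three
    exact ⟨a, ha⟩
  have ht0' : d * t0 ∈ T.image (d * ·) := Finset.mem_image_of_mem _ ht0
  unfold Ux
  rw [Finset.mem_union] at hy ⊢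
  rcases O.X1 hT with h1 | h1 <;> rcases O.X2 hdT with h2 | h2
  · exact (hex _ ((h1 _).mpr ht0) ((h2 _).mpr ht0)).elim
  · rcases hy with hy | hy
    · left; exact ((h1 _).mpr hy).2
    · right; exact ((h2 _).mpr hy).2
  · rcases hy with hy | hy
    · right; exact ((h2 _).mpr hy).2
    · left; exact ((h1 _).mpr hy).2
  · exact (hex _ ((h1 _).mpr ht0') ((h2 _).mpr ht0')).elim

theorem mem_Ux_m (m : N) {x : A} (hx : InO N d x) (y : A) : m • y ∈ Ux N d T (m • x) ↔ y ∈ Ux N d T x := by
  unfold Ux
  rw [Finset.mem_union, Finset.mem_union, O.Tx_m m hx, O.dual.Tx_m m hx]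

theorem Ux_d : Ux N d T d = T ∪ T.image (d * ·) := by
  unfold Ux
  rw [O.Tx_d, O.dual.Tx_d]

theorem symU (hT : ∀ t ∈ T, InO N d t) (hdT : ∀ t ∈ T, InO N d (d * t)) {x y : A} (hx : InO N d x) (hy : y ∈ Ux N d T x) :
    InO N d y ∧ x ∈ Ux N d T y := by
  obtain ⟨m, rfl⟩ := hx
  have h1 : m⁻¹ • y ∈ Ux N d T d := by
    rw [← O.mem_Ux_m m InO.self, smul_inv_smul]; exact hy
  rw [O.Ux_d] at h1
  have h2 : InO N d (m⁻¹ • y) := by
    rw [Finset.mem_union] at h1
    rcases h1 with h1 | h1
    · exact hT _ h1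
    · obtain ⟨t, ht, h3⟩ := Finset.mem_image.mp h1
      rw [← h3]; exact hdT t ht
  have h3 := O.symU0 hT hdT h1
  rw [← O.mem_Ux_m m h2, smul_inv_smul] at h3
  exact ⟨InO.of_smul _ h2, h3⟩

/-- exclusion of the cases `d T` and `d t T` by hexads -/
theorem hexad_no {t : A} (ht : t ∈ T) {V : Finset A} (hV : OM N t V) (hd : d ∈ V) {z : A} (hzz : z = d ∨ z = d * t)
    (h : V.erase d = (T.erase t).image (z * ·)) : False := by
  have hc : (V.erase d).card = 21 := by rw [Finset.card_erase_of_mem hd, hV.cT]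
  obtain ⟨b, hb, c, hcc, hbc⟩ := Finset.one_lt_card.mp (show 1 < (V.erase d).card by omega)
  rw [Finset.mem_erase] at hb hcc
  obtain ⟨S, hS, hdS, -, -, h6, hp⟩ := hV.hex d hd b hb.2 c hcc.2 (Ne.symm hb.1) (Ne.symm hcc.1) hbc
  have hz : z * z = 1 := O.sq z
  have hsub : (S.erase d).image (z * ·) ⊆ T.erase t := by
    intro x hx
    obtain ⟨y, hy, rfl⟩ := Finset.mem_image.mp hx
    have hy' : y ∈ V.erase d := Finset.erase_subset_erase d hS hy
    rw [h] at hy'
    obtain ⟨w, hw, rfl⟩ := Finset.mem_image.mp hy'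
    show z * (z * w) ∈ _
    rw [← mul_assoc, hz, one_mul]; exact hw
  set Q := (S.erase d).image (z * ·) with hQ
  have hQc : Q.card = 5 := by
    rw [hQ, Finset.card_image_of_injective _ (mul_right_injective z), Finset.card_erase_of_mem hdS, h6]
  have h5 : z ^ 5 = z := by
    have : z ^ 5 = (z * z) * (z * z) * z := by simp only [pow_succ, pow_zero, one_mul, mul_assoc]
    rw [this, hz, one_mul, one_mul]
  have hpQ : p Q = z * p (S.erase d) := by
    unfold p
    rw [hQ, Finset.prod_image (fun x _ y _ h => mul_left_cancel h), Finset.prod_mul_distrib, Finset.prod_const,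
      Finset.card_erase_of_mem hdS, h6, h5]
  have hpS : t = d * p (S.erase d) := by
    rw [← p_insert (Finset.notMem_erase d S), Finset.insert_erase hdS]
    exact hp.symm
  have hQT : Q ⊆ T := hsub.trans (Finset.erase_subset _ _)
  rcases hzz with hz' | hz'
  · have h7 : p {t} = p Q := by
      rw [p_single, hpQ, hz']
      exact hpS
    have h8 := O.inj (Finset.singleton_subset_iff.mpr ht) hQT (by rw [hQc]; simp) h7
    rw [← h8] at hQc
    simp at hQc
  · have h7 : p Q = 1 := by
      rw [hpQ, hz', mul_assoc, mul_left_comm, ← hpS, O.sq]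
    exact (O.nr Q hQT (by rw [← Finset.card_pos]; omega) (by omega)).1 h7

theorem caseB (hT : ∀ t ∈ T, InO N d t) (hdT : ∀ t ∈ T, InO N d (d * t)) : False := by
  obtain ⟨t, ht, -⟩ := O.three
  have htO := hT t ht
  have hdt := O.symU0 hT hdT (Finset.mem_union_left (T.image (d * ·)) ht)
  obtain ⟨V, hV, hdV, hVU, hVU'⟩ : ∃ V : Finset A, OM N t V ∧ d ∈ V ∧ V ⊆ Ux N d T t ∧ V.image (t * ·) ⊆ Ux N d T t := by
    unfold Ux at hdt ⊢
    rw [Finset.mem_union] at hdt
    rcases hdt with h | h
    · refine ⟨_, O.omx htO, h, Finset.subset_union_left, ?_⟩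
      rw [← O.Tx_dual htO]
      exact Finset.subset_union_right
    · refine ⟨_, O.dual.omx htO, h, Finset.subset_union_right, ?_⟩
      rw [O.Tx_dual htO, Finset.image_image]
      have : ((fun x => t * x) ∘ fun x : A => t * x) = id := by
        ext x; simp only [Function.comp, id]; rw [← mul_assoc, O.sq, one_mul]
      rw [this, Finset.image_id]
      exact Finset.subset_union_left
  have hcl := O.claim ht (Y := V.erase d) (fun n hn hnt y hy => by
      rw [Finset.mem_erase] at hy ⊢
      refine ⟨fun h => hy.1 ?_, hV.inv n hnt y hy.2⟩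
      rw [← hn] at h
      exact smul_left_cancel n h)
    (by rw [Finset.card_erase_of_mem hdV, hV.cT])
    (fun h => hV.ne1 (Finset.mem_of_mem_erase h) rfl) (Finset.notMem_erase _ _)
    (fun h => hV.ned' (Finset.mem_of_mem_erase h) rfl)
    (fun h => hV.mul_notMem hdV (by rw [mul_comm]; exact Finset.mem_of_mem_erase h))
  have hc : (T.erase t).card = 21 := by rw [Finset.card_erase_of_mem ht, O.cT]
  obtain ⟨t', ht'⟩ := Finset.card_pos.mp (show 0 < (T.erase t).card by omega)
  have ht'2 := Finset.mem_erase.mp ht'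
  have hrno : t * t' ∈ Ux N d T t → False := by
    intro hr
    obtain ⟨hrO, htr⟩ := O.symU hT hdT htO hr
    obtain ⟨b, hb, hb1⟩ : ∃ b ∈ T.erase t, b ≠ t' := Finset.exists_mem_ne (by omega) t'
    have hb2 := Finset.mem_erase.mp hb
    obtain ⟨n, h1, h2, h3, -⟩ := O.tri t ht t' ht'2.2 b hb2.2 t' ht'2.2 t ht b hb2.2 (Ne.symm ht'2.1) (Ne.symm hb2.1)
      (Ne.symm hb1) ht'2.1 (Ne.symm hb1) (Ne.symm hb2.1)
    have hnr : n • (t * t') = t * t' := by rw [smul_mul', h2, h3, mul_comm]
    have hrt : t * t' * t = t' := by rw [mul_comm t t', mul_assoc, O.sq, mul_one]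
    have fin : ∀ W : Finset A, OM N (t * t') W → t ∈ W → False := by
      intro W hW htW
      have k1 := hW.inv n hnr t htW
      rw [h2] at k1
      have k2 := hW.mul_notMem htW
      rw [hrt] at k2
      exact k2 k1
    unfold Ux at htr
    rw [Finset.mem_union] at htr
    rcases htr with h | h
    · exact fin _ (O.omx hrO) h
    · exact fin _ (O.dual.omx hrO) h
  rcases hcl with h | h | h | h
  · apply hrno
    apply hVU'
    exact Finset.mem_image_of_mem _ (Finset.mem_of_mem_erase (by rw [h]; exact ht'))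
  · exact O.hexad_no ht hV hdV (Or.inl rfl) h
  · apply hrno
    apply hVU
    exact Finset.mem_of_mem_erase (by rw [h]; exact Finset.mem_image_of_mem _ ht')
  · exact O.hexad_no ht hV hdV (Or.inr rfl) h

omit O in
theorem prime_no (hcA : Fintype.card A = 2048) {q : ℕ} (hq : q.Prime) (hk : ∀ k < 11, ¬ q ∣ 2048 - 2 ^ k)
    (hd : q ∣ Nat.card {x : A // InO N d x}) : False := by
  have : Fact q.Prime := ⟨hq⟩
  let φ : N →* MulAut A := MulDistribMulAction.toMulAut N A
  have hφ : ∀ n x, φ n x = n • x := fun n x => rfl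
  have hfin : Finite (MulAut A) := Finite.of_injective (fun e : MulAut A => (e : A → A)) DFunLike.coe_injective
  have h1 : Nat.card (MulAction.orbit φ.range d) = Nat.card {x : A // InO N d x} := by
    apply Nat.card_congr
    apply Equiv.subtypeEquivRight
    intro x
    constructor
    · rintro ⟨⟨_, n, rfl⟩, h⟩
      exact ⟨n, h⟩
    · rintro ⟨n, h⟩
      exact ⟨⟨_, n, rfl⟩, h⟩
  have h2 : q ∣ Nat.card φ.range := by
    rw [← h1] at hd
    have h6 := MulAction.index_stabilizer φ.range d
    have h7 : Nat.card (MulAction.orbit φ.range d) = Set.ncard (MulAction.orbit φ.range d) := rfl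
    rw [h7, ← h6] at hd
    exact hd.trans (Subgroup.index_dvd_card _)
  obtain ⟨g, hg⟩ := exists_prime_orderOf_dvd_card' q h2
  set γ : MulAut A := g.1 with hγ
  have hγo : orderOf γ = q := by rw [hγ, Subgroup.orderOf_coe, hg]
  have h3 : IsPGroup q (Subgroup.zpowers γ) := IsPGroup.of_card (n := 1) (by rw [Nat.card_zpowers, hγo, pow_one])
  have h4 := h3.card_modEq_card_fixedPoints (α := A)
  let Fx : Subgroup A := (γ : A →* A).eqLocus (MonoidHom.id A)
  have h5 : Nat.card (MulAction.fixedPoints (Subgroup.zpowers γ) A) = Nat.card Fx := by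
    apply Nat.card_congr
    apply Equiv.subtypeEquivRight
    intro x
    constructor
    · intro h
      exact h ⟨γ, Subgroup.mem_zpowers γ⟩
    · rintro h ⟨_, k, rfl⟩
      have h6 : γ ∈ MulAction.stabilizer (MulAut A) x := h
      exact (zpow_mem h6 k : γ ^ k ∈ MulAction.stabilizer (MulAut A) x)
  rw [h5, Nat.card_eq_fintype_card, hcA] at h4
  have h6 : Nat.card Fx ∣ 2 ^ 11 := by
    have := Subgroup.card_subgroup_dvd_card Fx
    rw [Nat.card_eq_fintype_card (α := A), hcA] at this
    exact this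
  obtain ⟨k, hk11, hkc⟩ := (Nat.dvd_prime_pow Nat.prime_two).mp h6
  rw [hkc] at h4
  rcases Nat.lt_or_ge k 11 with hk' | hk'
  · exact hk k hk' ((Nat.modEq_iff_dvd' (by
      calc 2 ^ k ≤ 2 ^ 11 := Nat.pow_le_pow_right (by norm_num) hk11
        _ = 2048 := by norm_num)).mp h4.symm)
  · have hk0 : k = 11 := by omega
    have htop : Fx = ⊤ := by
      apply Subgroup.eq_top_of_card_eq
      rw [hkc, hk0, Nat.card_eq_fintype_card, hcA]
      norm_num
    have hg1 : γ = 1 := by
      ext x
      have : x ∈ Fx := by rw [htop]; trivial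
      exact this
    rw [hg1, orderOf_one] at hγo
    exact hq.one_lt.ne hγo

theorem card_formula (X : A → Prop) [DecidablePred X] : (Finset.univ.filter X).card =
    (∑ i ∈ Finset.range 4, ((T.powersetCard i).filter (fun S => X (p S))).card) +
      ∑ i ∈ Finset.range 3, ((T.powersetCard i).filter (fun S => X (d * p S))).card := by
  rw [← O.univ_eq, Finset.filter_union, Finset.card_union_of_disjoint (Finset.disjoint_filter_filter O.disj),
    Finset.filter_image, Finset.filter_image,
    Finset.card_image_of_injOn (O.injOn4.mono (fun x hx => Finset.mem_coe.mpr (Finset.mem_of_mem_filter x hx))),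
    Finset.card_image_of_injOn (O.injOn3.mono (fun x hx => Finset.mem_coe.mpr (Finset.mem_of_mem_filter x hx))),
    U_filter, U_filter]

theorem aon (X : A → Prop) (hX : ∀ n : N, n • d = d → ∀ x, X x → X (n • x)) {z : A} (hz : ∀ n : N, n • d = d → n • z = z)
    {i : ℕ} (hi : i < 4) : (∀ S ∈ T.powersetCard i, X (z * p S)) ∨ (∀ S ∈ T.powersetCard i, ¬ X (z * p S)) := by
  by_cases h : ∃ S ∈ T.powersetCard i, X (z * p S)
  · left
    obtain ⟨S, hS, h1⟩ := h
    intro S' hS'
    rw [Finset.mem_powersetCard] at hS hS'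
    exact O.all_of X hX hz hS.1 hS'.1 (by omega) (by omega) h1
  · right
    push Not at h
    exact h

theorem aon1 (X : A → Prop) (hX : ∀ n : N, n • d = d → ∀ x, X x → X (n • x))
    {i : ℕ} (hi : i < 4) : (∀ S ∈ T.powersetCard i, X (p S)) ∨ (∀ S ∈ T.powersetCard i, ¬ X (p S)) := by
  have := O.aon X hX (z := 1) (fun n _ => smul_one n) hi
  simpa only [one_mul] using this

theorem fc_all {X : Finset A → Prop} [DecidablePred X] {i : ℕ} (h : ∀ S ∈ T.powersetCard i, X S) :
    ((T.powersetCard i).filter X).card = Nat.choose 22 i := by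
  rw [Finset.filter_true_of_mem h, Finset.card_powersetCard, O.cT]

omit O in
theorem fc_none {X : Finset A → Prop} [DecidablePred X] {i : ℕ} (h : ∀ S ∈ T.powersetCard i, ¬ X S) :
    ((T.powersetCard i).filter X).card = 0 := by
  rw [Finset.filter_false_of_mem h, Finset.card_empty]

omit O in
theorem InO_inv : ∀ n : N, n • d = d → ∀ x, InO N d x → InO N d (n • x) := fun n _ _ h => h.smul n

open Classical in
theorem oc_eq : Nat.card {x : A // InO N d x} = (Finset.univ.filter (fun x => InO N d x)).card := by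
  rw [Nat.card_eq_fintype_card, Fintype.card_subtype]

open Classical in
theorem caseA (hT : ∀ t ∈ T, InO N d t) (hdT : ∀ t ∈ T, ¬ InO N d (d * t)) : ∀ x, InO N d x ↔ x = d ∨ x ∈ T := by
  have hTx : ∀ x, InO N d x → ∀ y ∈ Tx N d T x, InO N d y := by
    rintro _ ⟨n, rfl⟩ y hy
    rw [O.mem_Tx] at hy
    exact InO.of_smul _ (hT _ hy)
  have hdx : ∀ x, InO N d x → ∀ y ∈ Tx N d T x, ¬ InO N d (x * y) := by
    rintro _ ⟨n, rfl⟩ y hy h
    rw [O.mem_Tx] at hy
    apply hdT _ hy
    have := h.smul n⁻¹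
    rwa [smul_mul', inv_smul_smul] at this
  have hdt : ∀ t ∈ T, d ∈ Tx N d T t := by
    intro t ht
    rcases O.X1 hT with h | h
    · exact ((h t).mpr ht).2
    · exact absurd ((h _).mpr (Finset.mem_image_of_mem _ ht)).1 (hdT t ht)
  have h4 : ∀ t ∈ T, (Tx N d T t).erase d = T.erase t ∨ (Tx N d T t).erase d = (T.erase t).image (d * t * ·) := by
    intro t ht
    have htO := hT t ht
    have hV := O.omx htO
    have hdV := hdt t ht
    have hc : (T.erase t).card = 21 := by rw [Finset.card_erase_of_mem ht, O.cT]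
    obtain ⟨t', ht'⟩ := Finset.card_pos.mp (show 0 < (T.erase t).card by omega)
    have hcl := O.claim ht (Y := (Tx N d T t).erase d) (fun n hn hnt y hy => by
      rw [Finset.mem_erase] at hy ⊢
      refine ⟨fun h => hy.1 ?_, hV.inv n hnt y hy.2⟩
      rw [← hn] at h
      exact smul_left_cancel n h)
      (by rw [Finset.card_erase_of_mem hdV, hV.cT])
      (fun h => hV.ne1 (Finset.mem_of_mem_erase h) rfl) (Finset.notMem_erase _ _)
      (fun h => hV.ned' (Finset.mem_of_mem_erase h) rfl)
      (fun h => hV.mul_notMem hdV (by rw [mul_comm]; exact Finset.mem_of_mem_erase h))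
    rcases hcl with h | h | h | h
    · exact Or.inl h
    · exfalso
      have h1 : d * t' ∈ Tx N d T t := Finset.mem_of_mem_erase (by rw [h]; exact Finset.mem_image_of_mem _ ht')
      exact hdT t' (Finset.mem_of_mem_erase ht') (hTx t htO _ h1)
    · exfalso
      have h1 : t * t' ∈ Tx N d T t := Finset.mem_of_mem_erase (by rw [h]; exact Finset.mem_image_of_mem _ ht')
      have h2 := hdx t htO _ h1
      rw [← mul_assoc, O.sq, one_mul] at h2
      exact h2 (hT t' (Finset.mem_of_mem_erase ht'))
    · exact Or.inr h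
  have hsing : ∀ a ∈ T, ∀ b ∈ T, ∃ n : N, n • d = d ∧ n • a = b := by
    intro a ha b hb
    obtain ⟨n, h1, h2⟩ := O.trk (Finset.singleton_subset_iff.mpr ha) (Finset.singleton_subset_iff.mpr hb) (by simp) (by simp)
    rw [p_single, p_single] at h2
    exact ⟨n, h1, h2⟩
  have hno : ∀ t0 ∈ T, (Tx N d T t0).erase d ≠ (T.erase t0).image (d * t0 * ·) := by
    intro t0 ht0 h0
    have hP0 : Tx N d (T.image (d * ·)) t0 = T.image (d * ·) := by
      rw [O.Tx_dual (hT t0 ht0)]
      apply Finset.eq_of_subset_of_card_le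
      · intro x hx
        obtain ⟨y, hy, rfl⟩ := Finset.mem_image.mp hx
        by_cases hyd : y = d
        · rw [hyd]
          exact Finset.mem_image.mpr ⟨t0, ht0, mul_comm _ _⟩
        · have hy' : y ∈ (Tx N d T t0).erase d := Finset.mem_erase.mpr ⟨hyd, hy⟩
          rw [h0] at hy'
          obtain ⟨s, hs, rfl⟩ := Finset.mem_image.mp hy'
          refine Finset.mem_image.mpr ⟨s, Finset.mem_of_mem_erase hs, ?_⟩
          show d * s = t0 * (d * t0 * s)
          rw [← mul_assoc, ← mul_assoc, mul_comm t0 d, mul_assoc d t0 t0, O.sq, mul_one]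
      · rw [O.dual.cT, Finset.card_image_of_injective _ (mul_right_injective t0), (O.omx (hT t0 ht0)).cT]
    have hTd : ∀ t ∈ T, ∀ w, w ∈ Tx N d (T.image (d * ·)) t ↔ w ∈ T.image (d * ·) := by
      intro t ht w
      obtain ⟨n, h1, rfl⟩ := hsing t0 ht0 t ht
      have h2 := O.dual.Tx_m n (hT t0 ht0) (n⁻¹ • w)
      rw [smul_inv_smul, hP0] at h2
      rw [h2]
      have h3 := O.dual.Tx_m n InO.self (n⁻¹ • w)
      rw [smul_inv_smul, h1, O.dual.Tx_d] at h3
      exact h3.symm
    have hZ : ∀ x, InO N d x → ∀ y ∈ Tx N d T x, Tx N d (T.image (d * ·)) y = Tx N d (T.image (d * ·)) x := by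
      rintro _ ⟨m, rfl⟩ y hy
      rw [O.mem_Tx] at hy
      ext w
      have h1 := O.dual.Tx_m m (hT _ hy) (m⁻¹ • w)
      have h2 := O.dual.Tx_m m (InO.self : InO N d d) (m⁻¹ • w)
      rw [smul_inv_smul, smul_inv_smul] at h1
      rw [smul_inv_smul, O.dual.Tx_d] at h2
      rw [h1, h2]
      exact hTd _ hy _
    have hind : ∀ Q : Finset A, Q ⊆ T.image (d * ·) → InO N d (d * p Q) ∧ Tx N d (T.image (d * ·)) (d * p Q) = T.image (d * ·) := by
      intro Q
      induction Q using Finset.induction_on with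
      | empty =>
        intro _
        rw [p_empty, mul_one]
        exact ⟨InO.self, O.dual.Tx_d⟩
      | insert z Q hz ih =>
        intro hQ
        obtain ⟨h1, h2⟩ := ih (fun x hx => hQ (Finset.mem_insert_of_mem hx))
        have h3 : z ∈ Tx N d (T.image (d * ·)) (d * p Q) := by rw [h2]; exact hQ (Finset.mem_insert_self z Q)
        rw [O.Tx_dual h1, Finset.mem_image] at h3
        obtain ⟨s, hs, h4⟩ := h3
        have h5 : d * p (insert z Q) = s := by
          rw [p_insert hz, ← h4]
          calc d * (d * p Q * s * p Q) = (d * d) * (p Q * p Q) * s := by simp only [mul_assoc, mul_comm, mul_left_comm]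
            _ = s := by rw [O.sq, O.sq, one_mul, one_mul]
        rw [h5]
        exact ⟨hTx _ h1 _ hs, by rw [hZ _ h1 _ hs, h2]⟩
    obtain ⟨a, ha, b, hb, c, hc, k1, k2, k3⟩ := O.dual.three
    obtain ⟨Q, hQ, -, -, -, -, hp⟩ := O.dual.hex a ha b hb c hc k1 k2 k3
    have h7 := (hind Q hQ).1
    have h8 : p Q = d := hp
    rw [h8, O.sq] at h7
    exact O.one_notin h7
  have h5 : ∀ t ∈ T, (Tx N d T t).erase d = T.erase t := by
    intro t ht
    rcases h4 t ht with h | h
    · exact h
    · exact absurd h (hno t ht)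
  -- blocks
  have hmemt : ∀ t ∈ T, ∀ w, w ∈ insert t (Tx N d T t) ↔ w ∈ insert d T := by
    intro t ht w
    have h6 : w ∈ Tx N d T t ↔ w = d ∨ (w ≠ t ∧ w ∈ T) := by
      rw [← Finset.mem_erase, ← h5 t ht, Finset.mem_erase]
      constructor
      · intro h
        by_cases hw : w = d
        · exact Or.inl hw
        · exact Or.inr ⟨hw, h⟩
      · rintro (h | h)
        · rw [h]; exact hdt t ht
        · exact h.2
    rw [Finset.mem_insert, Finset.mem_insert, h6]
    constructor
    · rintro (h | h | h)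
      · rw [h]; exact Or.inr ht
      · exact Or.inl h
      · exact Or.inr h.2
    · rintro (h | h)
      · exact Or.inr (Or.inl h)
      · by_cases hw : w = t
        · exact Or.inl hw
        · exact Or.inr (Or.inr ⟨hw, h⟩)
  have hins : ∀ (m : N) {x : A}, InO N d x → ∀ w, w ∈ insert (m • x) (Tx N d T (m • x)) ↔ m⁻¹ • w ∈ insert x (Tx N d T x) := by
    intro m x hx w
    have h1 := O.Tx_m m hx (m⁻¹ • w)
    rw [smul_inv_smul] at h1
    rw [Finset.mem_insert, Finset.mem_insert, h1, inv_smul_eq_iff]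
  have hblock : ∀ x, InO N d x → ∀ y ∈ Tx N d T x, insert y (Tx N d T y) = insert x (Tx N d T x) := by
    rintro _ ⟨m, rfl⟩ y hy
    rw [O.mem_Tx] at hy
    ext w
    have h1 := hins m (hT _ hy) w
    rw [smul_inv_smul] at h1
    rw [h1, hmemt _ hy, hins m InO.self, O.Tx_d]
  have h23 : 23 ∣ (Finset.univ.filter (fun x => InO N d x)).card := by
    rw [Finset.card_eq_sum_card_image (fun x => insert x (Tx N d T x))]
    apply Finset.dvd_sum
    intro D hD
    obtain ⟨x, hx, rfl⟩ := Finset.mem_image.mp hD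
    have hxO := (Finset.mem_filter.mp hx).2
    have h6 : (Finset.univ.filter (fun x => InO N d x)).filter (fun y => insert y (Tx N d T y) = insert x (Tx N d T x)) =
        insert x (Tx N d T x) := by
      ext y
      rw [Finset.mem_filter, Finset.mem_filter]
      constructor
      · rintro ⟨-, h⟩
        rw [← h]; exact Finset.mem_insert_self _ _
      · intro h
        rw [Finset.mem_insert] at h
        rcases h with rfl | h
        · exact ⟨⟨Finset.mem_univ _, hxO⟩, rfl⟩
        · exact ⟨⟨Finset.mem_univ _, hTx x hxO y h⟩, hblock x hxO y h⟩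
    rw [h6, Finset.card_insert_of_notMem (fun h => (O.omx hxO).ned' h rfl), (O.omx hxO).cT]
  -- counting
  have hcard : (Finset.univ.filter (fun x => InO N d x)).card = 23 := by
    have hf := O.card_formula (fun x => InO N d x)
    simp only [Finset.sum_range_succ, Finset.sum_range_zero, zero_add] at hf
    have c0 : ((T.powersetCard 0).filter (fun S => InO N d (p S))).card = 0 := by
      apply fc_none
      intro S hS
      rw [Finset.powersetCard_zero, Finset.mem_singleton] at hS
      rw [hS, p_empty]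
      exact O.one_notin
    have c1 : ((T.powersetCard 1).filter (fun S => InO N d (p S))).card = 22 := by
      rw [O.fc_all (fun S hS => ?_)]
      · rfl
      · rw [Finset.mem_powersetCard] at hS
        obtain ⟨a, rfl⟩ := Finset.card_eq_one.mp hS.2
        rw [p_single]; exact hT a (hS.1 (by simp))
    have c2 : ((T.powersetCard 2).filter (fun S => InO N d (p S))).card = 0 := by
      apply fc_none
      intro S hS
      rw [Finset.mem_powersetCard] at hS
      obtain ⟨a, b, hab, rfl⟩ := Finset.card_eq_two.mp hS.2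
      rw [p_pair hab]
      have ha := hS.1 (show a ∈ _ by simp)
      have hb := hS.1 (show b ∈ _ by simp)
      apply hdx a (hT a ha)
      apply Finset.mem_of_mem_erase (a := d)
      rw [h5 a ha, Finset.mem_erase]
      exact ⟨hab.symm, hb⟩
    have e0 : ((T.powersetCard 0).filter (fun S => InO N d (d * p S))).card = 1 := by
      rw [O.fc_all (fun S hS => ?_)]
      · rfl
      · rw [Finset.powersetCard_zero, Finset.mem_singleton] at hS
        rw [hS, p_empty, mul_one]
        exact InO.self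
    have e1 : ((T.powersetCard 1).filter (fun S => InO N d (d * p S))).card = 0 := by
      apply fc_none
      intro S hS
      rw [Finset.mem_powersetCard] at hS
      obtain ⟨a, rfl⟩ := Finset.card_eq_one.mp hS.2
      rw [p_single]; exact hdT a (hS.1 (by simp))
    have c3 : ((T.powersetCard 3).filter (fun S => InO N d (p S))).card = 1540 ∨
        ((T.powersetCard 3).filter (fun S => InO N d (p S))).card = 0 := by
      rcases O.aon1 (fun x => InO N d x) InO_inv (i := 3) (by norm_num) with h | h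
      · left; rw [O.fc_all h]; rfl
      · right; exact fc_none h
    have e2 : ((T.powersetCard 2).filter (fun S => InO N d (d * p S))).card = 231 ∨
        ((T.powersetCard 2).filter (fun S => InO N d (d * p S))).card = 0 := by
      rcases O.aon (fun x => InO N d x) InO_inv (z := d) (fun _ h => h) (i := 2) (by norm_num) with h | h
      · left; rw [O.fc_all h]; rfl
      · right; exact fc_none h
    have h13 : (Finset.univ.filter (fun x => InO N d x)).card ≠ 1794 := by
      intro h
      refine prime_no (N := N) (d := d) O.cA (q := 13) (by norm_num) (by decide) ?_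
      rw [O.oc_eq, h]
      decide
    rw [c0, c1, c2, e0, e1] at hf
    rcases c3 with c3 | c3 <;> rcases e2 with e2 | e2 <;> rw [c3, e2] at hf <;> omega
  have hfull : insert d T = Finset.univ.filter (fun x => InO N d x) := by
    apply Finset.eq_of_subset_of_card_le
    · intro x hx
      rw [Finset.mem_insert] at hx
      rw [Finset.mem_filter]
      rcases hx with rfl | hx
      · exact ⟨Finset.mem_univ _, InO.self⟩
      · exact ⟨Finset.mem_univ _, hT x hx⟩
    · rw [hcard, Finset.card_insert_of_notMem (fun h => O.ned' h rfl), O.cT]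
  intro x
  have : x ∈ insert d T ↔ x ∈ Finset.univ.filter (fun x => InO N d x) := by rw [hfull]
  rw [Finset.mem_insert, Finset.mem_filter] at this
  rw [this]
  exact ⟨fun h => ⟨Finset.mem_univ _, h⟩, fun h => h.2⟩

open Classical in
theorem caseC (hT : ∀ t ∈ T, ¬ InO N d t) (hdT : ∀ t ∈ T, ¬ InO N d (d * t)) : False := by
  have zd : ∀ n : N, n • d = d → n • d = d := fun _ h => h
  have hf := O.card_formula (fun x => InO N d x)
  simp only [Finset.sum_range_succ, Finset.sum_range_zero, zero_add] at hf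
  have c0 : ((T.powersetCard 0).filter (fun S => InO N d (p S))).card = 0 := by
    apply fc_none
    intro S hS
    rw [Finset.powersetCard_zero, Finset.mem_singleton] at hS
    rw [hS, p_empty]
    exact O.one_notin
  have c1 : ((T.powersetCard 1).filter (fun S => InO N d (p S))).card = 0 := by
    apply fc_none
    intro S hS
    rw [Finset.mem_powersetCard] at hS
    obtain ⟨a, rfl⟩ := Finset.card_eq_one.mp hS.2
    rw [p_single]; exact hT a (hS.1 (by simp))
  have e0 : ((T.powersetCard 0).filter (fun S => InO N d (d * p S))).card = 1 := by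
    rw [O.fc_all (fun S hS => ?_)]
    · rfl
    · rw [Finset.powersetCard_zero, Finset.mem_singleton] at hS
      rw [hS, p_empty, mul_one]
      exact InO.self
  have e1 : ((T.powersetCard 1).filter (fun S => InO N d (d * p S))).card = 0 := by
    apply fc_none
    intro S hS
    rw [Finset.mem_powersetCard] at hS
    obtain ⟨a, rfl⟩ := Finset.card_eq_one.mp hS.2
    rw [p_single]; exact hdT a (hS.1 (by simp))
  have c3 : ((T.powersetCard 3).filter (fun S => InO N d (p S))).card = 1540 ∨
      ((T.powersetCard 3).filter (fun S => InO N d (p S))).card = 0 := by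
    rcases O.aon1 (fun x => InO N d x) InO_inv (i := 3) (by norm_num) with h | h
    · left; rw [O.fc_all h]; rfl
    · right; exact fc_none h
  rw [c0, c1, e0, e1] at hf
  have h2le : 2 ≤ (Finset.univ.filter (fun x => InO N d x)).card := by
    obtain ⟨n, hn⟩ := O.ne
    have hsub : ({d, n • d} : Finset A) ⊆ Finset.univ.filter (fun x => InO N d x) := by
      intro x hx
      rw [Finset.mem_insert, Finset.mem_singleton] at hx
      rw [Finset.mem_filter]
      rcases hx with rfl | rfl
      · exact ⟨Finset.mem_univ _, InO.self⟩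
      · exact ⟨Finset.mem_univ _, ⟨n, rfl⟩⟩
    have := Finset.card_le_card hsub
    rwa [Finset.card_pair (Ne.symm hn)] at this
  have hclosed : (∀ S ∈ T.powersetCard 2, (InO N d (p S) ↔ InO N d (d * p S))) →
      (Finset.univ.filter (fun x => InO N d x)).card + 1 ∣ 2048 := by
    intro h2
    have hd3 : ∀ S ⊆ T, S.card = 3 → InO N d (p S) → InO N d (d * p S) := by
      intro S hS hc h
      obtain ⟨a, b, c, hab, hac, hbc, rfl⟩ := Finset.card_eq_three.mp hc
      obtain ⟨Q, hQ, ha, hb, hcc, h6, hp⟩ := O.hex a (hS (by simp)) b (hS (by simp)) c (hS (by simp)) hab hac hbc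
      have hsubQ : ({a, b, c} : Finset A) ⊆ Q := by
        intro x hx
        simp only [Finset.mem_insert, Finset.mem_singleton] at hx
        rcases hx with rfl | rfl | rfl <;> assumption
      have h7 : p (Q \ {a, b, c}) * p {a, b, c} = d := by
        rw [← hp]
        exact Finset.prod_sdiff hsubQ
      have h8 : d * p ({a, b, c} : Finset A) = p (Q \ {a, b, c}) := by
        rw [← h7, mul_assoc, O.sq, mul_one]
      rw [h8]
      have h9 : (Q \ {a, b, c}).card = 3 := by
        rw [Finset.card_sdiff_of_subset hsubQ, h6, hc]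
      have h10 := O.all_of (fun x => InO N d x) InO_inv (z := 1) (fun n _ => smul_one n) hS
        (Finset.sdiff_subset.trans hQ : Q \ {a, b, c} ⊆ T) (by rw [hc, h9]) (by rw [hc]; norm_num) (by rw [one_mul]; exact h)
      rwa [one_mul] at h10
    have hcl : ∀ y, InO N d y → y = d ∨ InO N d (d * y) := by
      intro y hy
      rcases O.cov y with ⟨S, hS, hc4, rfl⟩ | ⟨S, hS, hc4, rfl⟩
      · have hk : S.card = 0 ∨ S.card = 1 ∨ S.card = 2 ∨ S.card = 3 := by omega
        rcases hk with hk | hk | hk | hk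
        · rw [Finset.card_eq_zero] at hk
          rw [hk, p_empty] at hy
          exact absurd hy O.one_notin
        · obtain ⟨a, rfl⟩ := Finset.card_eq_one.mp hk
          rw [p_single] at hy
          exact absurd hy (hT a (hS (by simp)))
        · right
          exact (h2 S (Finset.mem_powersetCard.mpr ⟨hS, hk⟩)).mp hy
        · right
          exact hd3 S hS hk hy
      · rw [O.dd]
        have hk : S.card = 0 ∨ S.card = 1 ∨ S.card = 2 := by omega
        rcases hk with hk | hk | hk
        · left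
          rw [Finset.card_eq_zero] at hk
          rw [hk, p_empty, mul_one]
        · obtain ⟨a, rfl⟩ := Finset.card_eq_one.mp hk
          rw [p_single] at hy
          exact absurd hy (hdT a (hS (by simp)))
        · right
          exact (h2 S (Finset.mem_powersetCard.mpr ⟨hS, hk⟩)).mpr hy
    let H : Subgroup A :=
      { carrier := insert 1 {x | InO N d x}
        one_mem' := Set.mem_insert _ _
        inv_mem' := by
          intro x hx
          have : x⁻¹ = x := inv_eq_of_mul_eq_one_left (O.sq x)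
          rw [this]; exact hx
        mul_mem' := by
          intro x y hx hy
          rcases hx with rfl | hx
          · rw [one_mul]; exact hy
          rcases hy with rfl | hy
          · rw [mul_one]; exact Set.mem_insert_of_mem _ hx
          obtain ⟨n, rfl⟩ := hx
          have hy' : InO N d (n⁻¹ • y) := hy.smul _
          rcases hcl _ hy' with h | h
          · left
            rw [inv_smul_eq_iff] at h
            rw [h]; exact O.sq _
          · right
            have := h.smul n
            rwa [smul_mul', smul_inv_smul] at this }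
    have h3 : Nat.card H = (Finset.univ.filter (fun x => InO N d x)).card + 1 := by
      have h4 : Nat.card H = Set.ncard (insert 1 {x : A | InO N d x}) := rfl
      have hnm : (1 : A) ∉ {x : A | InO N d x} := O.one_notin
      rw [h4, Set.ncard_insert_of_notMem hnm (Set.toFinite _), ← O.oc_eq]
      rfl
    rw [← h3, ← O.cA, ← Nat.card_eq_fintype_card]
    exact Subgroup.card_subgroup_dvd_card H
  have hp29 : (Finset.univ.filter (fun x => InO N d x)).card ≠ 232 := by
    intro h
    refine prime_no (N := N) (d := d) O.cA (q := 29) (by norm_num) (by decide) ?_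
    rw [O.oc_eq, h]; decide
  have hp443 : (Finset.univ.filter (fun x => InO N d x)).card ≠ 1772 := by
    intro h
    refine prime_no (N := N) (d := d) O.cA (q := 443) (by norm_num) (by decide) ?_
    rw [O.oc_eq, h]; decide
  have k2 : Nat.choose 22 2 = 231 := by decide
  rcases O.aon1 (fun x => InO N d x) InO_inv (i := 2) (by norm_num) with h2 | h2 <;>
    rcases O.aon (fun x => InO N d x) InO_inv (z := d) zd (i := 2) (by norm_num) with h2' | h2'
  · have hdv := hclosed (fun S hS => ⟨fun _ => h2' S hS, fun _ => h2 S hS⟩)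
    rw [O.fc_all h2, O.fc_all h2', k2] at hf
    rcases c3 with c3 | c3 <;> rw [c3] at hf <;> rw [hf] at hdv <;> exact absurd hdv (by decide)
  · rw [O.fc_all h2, fc_none h2', k2] at hf
    rcases c3 with c3 | c3 <;> rw [c3] at hf <;> omega
  · rw [fc_none h2, O.fc_all h2', k2] at hf
    rcases c3 with c3 | c3 <;> rw [c3] at hf <;> omega
  · have hdv := hclosed (fun S hS => ⟨fun h => absurd h (h2 S hS), fun h => absurd h (h2' S hS)⟩)
    rw [fc_none h2, fc_none h2'] at hf
    rcases c3 with c3 | c3 <;> rw [c3] at hf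
    · rw [hf] at hdv; exact absurd hdv (by decide)
    · omega

end OM

theorem orbit (O : OM N d T) : (∀ x, (∃ n : N, n • d = x) ↔ x = d ∨ x ∈ T) ∨ (∀ x, (∃ n : N, n • d = x) ↔ x = d ∨ ∃ t ∈ T, x = d * t) := by
  have zd : ∀ n : N, n • d = d → n • d = d := fun _ h => h
  have hT : (∀ t ∈ T, OM.InO N d t) ∨ (∀ t ∈ T, ¬ OM.InO N d t) := by
    rcases O.aon1 (fun x => OM.InO N d x) OM.InO_inv (i := 1) (by norm_num) with h | h
    · left
      intro t ht
      have := h {t} (Finset.mem_powersetCard.mpr ⟨Finset.singleton_subset_iff.mpr ht, Finset.card_singleton t⟩)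
      rwa [p_single] at this
    · right
      intro t ht
      have := h {t} (Finset.mem_powersetCard.mpr ⟨Finset.singleton_subset_iff.mpr ht, Finset.card_singleton t⟩)
      rwa [p_single] at this
  have hdT : (∀ t ∈ T, OM.InO N d (d * t)) ∨ (∀ t ∈ T, ¬ OM.InO N d (d * t)) := by
    rcases O.aon (fun x => OM.InO N d x) OM.InO_inv (z := d) zd (i := 1) (by norm_num) with h | h
    · left
      intro t ht
      have := h {t} (Finset.mem_powersetCard.mpr ⟨Finset.singleton_subset_iff.mpr ht, Finset.card_singleton t⟩)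
      rwa [p_single] at this
    · right
      intro t ht
      have := h {t} (Finset.mem_powersetCard.mpr ⟨Finset.singleton_subset_iff.mpr ht, Finset.card_singleton t⟩)
      rwa [p_single] at this
  rcases hT with hT | hT <;> rcases hdT with hdT | hdT
  · exact (O.caseB hT hdT).elim
  · left
    exact O.caseA hT hdT
  · right
    have h1 := O.dual.caseA (by
      intro x hx
      obtain ⟨t, ht, rfl⟩ := Finset.mem_image.mp hx
      exact hdT t ht) (by
      intro x hx
      obtain ⟨t, ht, rfl⟩ := Finset.mem_image.mp hx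
      show ¬ OM.InO N d (d * (d * t))
      rw [O.dd]; exact hT t ht)
    intro x
    have h2 := h1 x
    unfold OM.InO at h2
    rw [h2, Finset.mem_image]
    constructor
    · rintro (h | ⟨t, ht, h⟩)
      · exact Or.inl h
      · exact Or.inr ⟨t, ht, h.symm⟩
    · rintro (h | ⟨t, ht, h⟩)
      · exact Or.inl h
      · exact Or.inr ⟨t, ht, h.symm⟩
  · exact (O.caseC hT hdT).elim

end Cfsg.Agent.Lib.OrbM
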