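import Cfsg.Agent.Lib.DC22G73
import Cfsg.Agent.Lib.OrbM22

/-!
# Involutions with centralizer a double cover of a group of type M(22) (helper73)
-/

set_option autoImplicit false
set_option linter.all false

namespace Cfsg.Agent.Lib.DC22

open Module Cfsg Cfsg.Agent.Lib.ThreeRank3 Cfsg.Agent.Lib.ThreeDescent Cfsg.Agent.Lib.ThreeQuot Cfsg.Agent.Lib.FiPar
  Cfsg.Agent.Lib.ThreeSimple Cfsg.Agent.Lib.ThreeTypes Cfsg.Agent.Lib.FiComp Cfsg.Agent.Lib.FiMu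
open Cfsg.Agent.Lib.H89EB Cfsg.Agent.Lib.H89EC
open Cfsg.Agent.Lib.FiHex (HD MT YD Hx Bs IsBase)
open Cfsg.Agent.Lib.H89EA (isPGroup_of_sq comm_of_sq closure_sq)
open Cfsg.Agent.Lib.FiUniq (T22)
open Cfsg.Agent.Lib.OrbM (OM)

universe v w

/-- the centralizer -/
abbrev CG {G : Type v} [Group G] (d₀ : G) : Type v := ↥(Subgroup.centralizer ({d₀} : Set G))

section G

variable {G : Type v} {Q : Type w} [Group G] [Group Q] {d₀ : G} {φ : CG d₀ →* Q} {d : CG d₀} {D : Set Q} {E : Set (CG d₀)}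

/-- the elementary abelian subgroup of the group -/
def AGm (B : Subgroup (CG d₀)) : Subgroup G := B.map (Subgroup.centralizer ({d₀} : Set G)).subtype

theorem coe_mem {B : Subgroup (CG d₀)} {y : CG d₀} : (y : G) ∈ AGm B ↔ y ∈ B := by
  constructor
  · rintro ⟨z, hz, h⟩
    rwa [← Subtype.ext h]
  · intro h; exact ⟨y, h, rfl⟩

theorem AGm_sq {B : Subgroup (CG d₀)} (h : MC B) : ∀ a ∈ AGm B, a * a = 1 := by
  rintro _ ⟨y, hy, rfl⟩
  exact congrArg Subtype.val (h.sq y hy)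

/-- the isomorphism -/
noncomputable def eB (B : Subgroup (CG d₀)) : B ≃* AGm B :=
  B.equivMapOfInjective _ (Subgroup.subtype_injective _)

theorem eB_coe (B : Subgroup (CG d₀)) (x : B) : ((eB B x : AGm B) : G) = ((x : CG d₀) : G) := rfl

theorem card_AGm {B : Subgroup (CG d₀)} (h : MC B) : Nat.card (AGm B) = 2 ^ 11 := by
  rw [← h.card]; exact Nat.card_congr (eB B).symm.toEquiv

theorem smul_coe' {A : Subgroup G} (n : Subgroup.normalizer (A : Set G)) (a : A) : ((n • a : A) : G) = n * a * (n : G)⁻¹ := rfl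

variable [Finite G] [Finite Q] (hP : PSU62Simple) (K : Cov φ d D E) (W : Q22 D)

include hP K W in
/-- **the normalizer controls the fusion of the involution** -/
theorem fusion {B : Subgroup (CG d₀)} (h : MC B) {g : G} (hg : g * d₀ * g⁻¹ ∈ AGm B) :
    ∃ n ∈ Subgroup.normalizer (AGm B : Set G), n * d₀ * n⁻¹ = g * d₀ * g⁻¹ := by
  have hsqA := AGm_sq h
  set B' : Subgroup (CG d₀) := ((AGm B).map (MulAut.conj g⁻¹).toMonoidHom).subgroupOf (Subgroup.centralizer ({d₀} : Set G)) with hB'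
  have hle : (AGm B).map (MulAut.conj g⁻¹).toMonoidHom ≤ Subgroup.centralizer ({d₀} : Set G) := by
    rintro _ ⟨a, ha, rfl⟩
    rw [Subgroup.mem_centralizer_iff]
    rintro x rfl
    have h1 := comm_of_sq hsqA ha hg
    show x * (g⁻¹ * a * g⁻¹⁻¹) = g⁻¹ * a * g⁻¹⁻¹ * x
    calc x * (g⁻¹ * a * g⁻¹⁻¹) = g⁻¹ * ((g * x * g⁻¹) * a) * g := by group
      _ = g⁻¹ * (a * (g * x * g⁻¹)) * g := by rw [h1]
      _ = _ := by group
  have hM : MC B' := by
    refine ⟨?_, ?_⟩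
    · intro b hb
      rw [hB', Subgroup.mem_subgroupOf] at hb
      obtain ⟨a, ha, hab⟩ := hb
      apply Subtype.ext
      show (b : G) * (b : G) = 1
      rw [← hab, ← map_mul, hsqA a ha, map_one]
    · have h1 : Nat.card B' = Nat.card ((AGm B).map (MulAut.conj g⁻¹).toMonoidHom) :=
        Nat.card_congr (Subgroup.subgroupOfEquivOfLe hle).toEquiv
      have h2 : Nat.card ((AGm B).map (MulAut.conj g⁻¹).toMonoidHom) = Nat.card (AGm B) :=
        Nat.card_congr ((AGm B).equivMapOfInjective _ (MulAut.conj g⁻¹).injective).symm.toEquiv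
      rw [h1, h2, card_AGm h]
  obtain ⟨c, hc⟩ := h.conj_of hP K W hM
  refine ⟨g * (c : G), ?_, ?_⟩
  · apply Subgroup.mem_normalizer_fintype
    rintro _ ⟨y, hy, rfl⟩
    have h1 : c * y * c⁻¹ ∈ B' := by
      rw [← hc]; exact ⟨y, hy, rfl⟩
    rw [hB', Subgroup.mem_subgroupOf] at h1
    obtain ⟨a, ha, hac⟩ := h1
    have h2 : g⁻¹ * a * g⁻¹⁻¹ = (c : G) * y * (c : G)⁻¹ := hac
    have h3 : g * (c : G) * y * (g * (c : G))⁻¹ = a := by
      calc g * (c : G) * y * (g * (c : G))⁻¹ = g * ((c : G) * y * (c : G)⁻¹) * g⁻¹ := by group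
        _ = g * (g⁻¹ * a * g⁻¹⁻¹) * g⁻¹ := by rw [h2]
        _ = a := by group
    show g * (c : G) * (y : G) * (g * (c : G))⁻¹ ∈ AGm B
    rw [h3]; exact ha
  · have h4 : d₀ * (c : G) = (c : G) * d₀ := Subgroup.mem_centralizer_iff.1 c.2 d₀ rfl
    calc g * (c : G) * d₀ * (g * (c : G))⁻¹ = g * ((c : G) * d₀) * (c : G)⁻¹ * g⁻¹ := by group
      _ = g * (d₀ * (c : G)) * (c : G)⁻¹ * g⁻¹ := by rw [h4]
      _ = _ := by group

include K in
theorem d0_sq (hd0 : (d : G) = d₀) : d₀ * d₀ = 1 := by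
  have h1 : (d : G) * (d : G) = 1 := congrArg Subtype.val K.dd
  exact (congrArg (fun z : G => z * z) hd0).symm.trans h1

include hP K W in
theorem d0_mem (hd0 : (d : G) = d₀) {B : Subgroup (CG d₀)} (h : MC B) : d₀ ∈ AGm B := by
  have h1 := (coe_mem (B := B) (y := d)).2 (h.down hP K W).1
  have h2 : (d : G) ∈ AGm B ↔ d₀ ∈ AGm B := by rw [hd0]
  exact h2.1 h1

/-- involutions of the centralizer can be moved into the subgroup -/
theorem conj_in (hP : PSU62Simple) (K : Cov φ d D E) (W : Q22 D) {B : Subgroup (CG d₀)} (h : MC B) {x : CG d₀} (hx : x * x = 1) :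
    ∃ c : CG d₀, c * x * c⁻¹ ∈ B := by
  obtain ⟨B', hB', hxB⟩ := exists_MC_inv hP K W hx
  obtain ⟨c, hc⟩ := hB'.conj_of hP K W h
  exact ⟨c, by rw [← hc]; exact ⟨x, hxB, rfl⟩⟩

/-- the involution in the subgroup -/
def dG (d₀ : G) {B : Subgroup (CG d₀)} (hm : d₀ ∈ AGm B) : AGm B := ⟨d₀, hm⟩

include hP K W in
/-- the involution is not central in the normalizer -/
theorem moved (hd0 : (d : G) = d₀) {B : Subgroup (CG d₀)} (h : MC B) (hm : d₀ ∈ AGm B)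
    (hnwc : ∃ g : G, g * d₀ * g⁻¹ ∈ Subgroup.centralizer ({d₀} : Set G) ∧ g * d₀ * g⁻¹ ≠ d₀) :
    ∃ n : Subgroup.normalizer (AGm B : Set G), n • dG d₀ hm ≠ dG d₀ hm := by
  obtain ⟨g, hg, hne⟩ := hnwc
  have hdd := d0_sq K hd0
  obtain ⟨c, hc⟩ := conj_in hP K W h (x := ⟨g * d₀ * g⁻¹, hg⟩) (by
    apply Subtype.ext
    show g * d₀ * g⁻¹ * (g * d₀ * g⁻¹) = 1
    calc g * d₀ * g⁻¹ * (g * d₀ * g⁻¹) = g * (d₀ * d₀) * g⁻¹ := by group
      _ = 1 := by rw [hdd]; group)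
  have h2 : (c : G) * g * d₀ * ((c : G) * g)⁻¹ ∈ AGm B := by
    have h3 := coe_mem.2 hc
    have h4 : ((c * ⟨g * d₀ * g⁻¹, hg⟩ * c⁻¹ : CG d₀) : G) = (c : G) * g * d₀ * ((c : G) * g)⁻¹ := by
      show (c : G) * (g * d₀ * g⁻¹) * (c : G)⁻¹ = _
      group
    rwa [h4] at h3
  obtain ⟨n, hn, hnd⟩ := fusion hP K W h h2
  refine ⟨⟨n, hn⟩, ?_⟩
  intro h5
  have h5' : n * d₀ * n⁻¹ = d₀ := congrArg Subtype.val h5
  rw [hnd] at h5'
  apply hne
  have h4 : d₀ * (c : G) = (c : G) * d₀ := Subgroup.mem_centralizer_iff.1 c.2 d₀ rfl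
  have h6 : (c : G) * (g * d₀ * g⁻¹) * (c : G)⁻¹ = d₀ := Eq.trans (by group) h5'
  calc g * d₀ * g⁻¹ = (c : G)⁻¹ * ((c : G) * (g * d₀ * g⁻¹) * (c : G)⁻¹) * (c : G) := by group
    _ = (c : G)⁻¹ * d₀ * (c : G) := by rw [h6]
    _ = (c : G)⁻¹ * (d₀ * (c : G)) := by group
    _ = (c : G)⁻¹ * ((c : G) * d₀) := by rw [h4]
    _ = d₀ := by group

/-- the members of the class -/
noncomputable def TG (E : Set (CG d₀)) (B : Subgroup (CG d₀)) : Finset (AGm B) := (TB E B).map (eB B).toEquiv.toEmbedding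

theorem mem_TG {B : Subgroup (CG d₀)} {x : AGm B} : x ∈ TG E B ↔ ∃ y ∈ B, y ∈ E ∧ ((y : CG d₀) : G) = x := by
  rw [TG, Finset.mem_map]
  constructor
  · rintro ⟨y, hy, rfl⟩
    exact ⟨y, y.2, mem_TB.1 hy, rfl⟩
  · rintro ⟨y, hyB, hyE, h⟩
    exact ⟨⟨y, hyB⟩, mem_TB.2 hyE, Subtype.ext h⟩

end G

end Cfsg.Agent.Lib.DC22
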