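import Cfsg.Agent.Lib.DC22H73

/-!
# Involutions with centralizer a double cover of a group of type M(22), part I: the configuration (helper73)
-/

set_option autoImplicit false
set_option linter.all false

namespace Cfsg.Agent.Lib.DC22

open Module Cfsg Cfsg.Agent.Lib.ThreeRank3 Cfsg.Agent.Lib.ThreeDescent Cfsg.Agent.Lib.ThreeQuot Cfsg.Agent.Lib.FiPar
  Cfsg.Agent.Lib.ThreeSimple Cfsg.Agent.Lib.ThreeTypes Cfsg.Agent.Lib.FiComp Cfsg.Agent.Lib.FiMu
open Cfsg.Agent.Lib.H89EB Cfsg.Agent.Lib.H89EC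
open Cfsg.Agent.Lib.FiHex (HD MT YD Hx Bs IsBase)
open Cfsg.Agent.Lib.H89EA (isPGroup_of_sq comm_of_sq closure_sq)
open Cfsg.Agent.Lib.FiUniq (T22)
open Cfsg.Agent.Lib.OrbM (OM)

universe v w

section G

variable {G : Type v} {Q : Type w} [Group G] [Group Q] {d₀ : G} {φ : CG d₀ →* Q} {d : CG d₀} {D : Set Q} {E : Set (CG d₀)}

variable [Finite G] [Finite Q] (hP : PSU62Simple) (K : Cov φ d D E) (W : Q22 D)

theorem norm_conj {B : Subgroup (CG d₀)} {n : Subgroup.normalizer (AGm B : Set G)} {c : CG d₀} (hn : (n : G) = c)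
    {y : CG d₀} (hy : y ∈ B) : c * y * c⁻¹ ∈ B := by
  rw [← coe_mem]
  have h1 := (Subgroup.mem_normalizer_iff.1 n.2 (y : G)).1 (coe_mem.2 hy)
  have h2 : ((c * y * c⁻¹ : CG d₀) : G) = (n : G) * y * (n : G)⁻¹ := by rw [hn]; rfl
  rw [h2]; exact h1

theorem mem_norm {B : Subgroup (CG d₀)} {c : CG d₀} (h : B.map (MulAut.conj c).toMonoidHom = B) :
    (c : G) ∈ Subgroup.normalizer (AGm B : Set G) := by
  apply Subgroup.mem_normalizer_fintype
  rintro _ ⟨y, hy, rfl⟩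
  refine ⟨c * y * c⁻¹, ?_, rfl⟩
  have h1 : c * y * c⁻¹ ∈ B.map (MulAut.conj c).toMonoidHom := ⟨y, hy, rfl⟩
  rw [h] at h1
  exact h1

theorem exists_c {B : Subgroup (CG d₀)} (hm : d₀ ∈ AGm B) {n : Subgroup.normalizer (AGm B : Set G)} (h : n • dG d₀ hm = dG d₀ hm) :
    ∃ c : CG d₀, (n : G) = c := by
  have h1 : (n : G) * d₀ * (n : G)⁻¹ = d₀ := congrArg Subtype.val h
  have hc : (n : G) ∈ Subgroup.centralizer ({d₀} : Set G) := by
    rw [Subgroup.mem_centralizer_iff]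
    rintro x rfl
    have := congrArg (fun y => y * (n : G)) h1
    simp only [inv_mul_cancel_right] at this
    exact this.symm
  exact ⟨⟨n, hc⟩, rfl⟩

theorem fix_of_c {B : Subgroup (CG d₀)} (hm : d₀ ∈ AGm B) {n : Subgroup.normalizer (AGm B : Set G)} {c : CG d₀} (h : (n : G) = c) :
    n • dG d₀ hm = dG d₀ hm := by
  apply Subtype.ext
  show (n : G) * d₀ * (n : G)⁻¹ = d₀
  have h4 : d₀ * (c : G) = (c : G) * d₀ := Subgroup.mem_centralizer_iff.1 c.2 d₀ rfl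
  rw [h, ← h4, mul_inv_cancel_right]

/-- transport of finite sets -/
theorem exists_S {B : Subgroup (CG d₀)} (h : MC B) {S : Finset (AGm B)} (hS : S ⊆ TG E B) :
    letI := commB h.sq
    letI := commB (AGm_sq h)
    ∃ S' : Finset B, S' ⊆ TB E B ∧ S'.card = S.card ∧ ∏ x ∈ S, x = eB B (∏ x ∈ S', x) := by
  letI := commB h.sq
  letI := commB (AGm_sq h)
  refine ⟨S.map (eB B).symm.toEquiv.toEmbedding, ?_, Finset.card_map _, ?_⟩
  · intro x hx
    obtain ⟨y, hy, rfl⟩ := Finset.mem_map.1 hx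
    have h1 := hS hy
    rw [TG, Finset.mem_map] at h1
    obtain ⟨z, hz, rfl⟩ := h1
    have : (eB B).symm.toEquiv.toEmbedding ((eB B).toEquiv.toEmbedding z) = z := (eB B).symm_apply_apply z
    rw [this]; exact hz
  · rw [map_prod, Finset.prod_map]
    apply Finset.prod_congr rfl
    intro x hx
    exact ((eB B).apply_symm_apply x).symm

include hP K W in
/-- **the configuration** -/
theorem om (T : T22 D) (Y : YD D) (hperf : commutator (CG d₀) = ⊤) (hd0 : (d : G) = d₀) {B : Subgroup (CG d₀)} (h : MC B)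
    (hm : d₀ ∈ AGm B) (hmov : ∃ n : Subgroup.normalizer (AGm B : Set G), n • dG d₀ hm ≠ dG d₀ hm) :
    letI := commB (AGm_sq h)
    letI : Fintype (AGm B) := Fintype.ofFinite _
    letI : DecidableEq (AGm B) := Classical.decEq _
    OM (Subgroup.normalizer (AGm B : Set G)) (dG d₀ hm) (TG E B) := by
  letI := commB h.sq
  letI := commB (AGm_sq h)
  letI : Fintype (AGm B) := Fintype.ofFinite _
  letI : DecidableEq (AGm B) := Classical.decEq _
  have hdB : eB B ⟨d, (h.down hP K W).1⟩ = dG d₀ hm := Subtype.ext hd0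
  have phi1 : ∀ {S' : Finset B}, eB B (∏ x ∈ S', x) = 1 → φ ((∏ x ∈ S', x : B) : CG d₀) = 1 := by
    intro S' h1
    have : (∏ x ∈ S', x) = 1 := (eB B).injective (by rw [h1, map_one])
    rw [this, Subgroup.coe_one, map_one]
  have phid : ∀ {S' : Finset B}, eB B (∏ x ∈ S', x) = dG d₀ hm → φ ((∏ x ∈ S', x : B) : CG d₀) = 1 := by
    intro S' h1
    rw [← hdB] at h1
    rw [(eB B).injective h1]
    exact K.phi_d
  refine { sq := ?_, cA := ?_, cT := ?_, inv := ?_, tri := ?_, nr := ?_, nr6 := ?_, hex := ?_, ne := hmov }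
  · intro x; exact Subtype.ext (AGm_sq h x x.2)
  · rw [← Nat.card_eq_fintype_card, card_AGm h]; norm_num
  · rw [TG, Finset.card_map, card_TB hP K W h]
  · intro n hn t ht
    obtain ⟨c, hc⟩ := exists_c hm hn
    obtain ⟨y, hyB, hyE, hyt⟩ := mem_TG.1 ht
    refine mem_TG.2 ⟨c * y * c⁻¹, norm_conj hc hyB, K.conj c y hyE, ?_⟩
    rw [smul_coe', ← hyt, hc]
    rfl
  · intro a ha b hb c hc a' ha' b' hb' c' hc' hab hac hbc hab' hac' hbc'
    obtain ⟨ya, yaB, yaE, rfa⟩ := mem_TG.1 ha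
    obtain ⟨yb, ybB, ybE, rfb⟩ := mem_TG.1 hb
    obtain ⟨yc, ycB, ycE, rfc⟩ := mem_TG.1 hc
    obtain ⟨ya', yaB', yaE', rfa'⟩ := mem_TG.1 ha'
    obtain ⟨yb', ybB', ybE', rfb'⟩ := mem_TG.1 hb'
    obtain ⟨yc', ycB', ycE', rfc'⟩ := mem_TG.1 hc'
    have hne : ∀ {x y : AGm B} {u w : CG d₀}, (u : G) = x → (w : G) = y → x ≠ y → u ≠ w := by
      intro x y u w h1 h2 h3 h4
      exact h3 (Subtype.ext (by rw [← h1, ← h2, h4]))
    obtain ⟨g, hgB, h1, h2, h3⟩ := h.tri hP K W ⟨yaE, yaB⟩ ⟨ybE, ybB⟩ ⟨ycE, ycB⟩ ⟨yaE', yaB'⟩ ⟨ybE', ybB'⟩ ⟨ycE', ycB'⟩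
      (hne rfa rfb hab) (hne rfa rfc hac) (hne rfb rfc hbc) (hne rfa' rfb' hab') (hne rfa' rfc' hac') (hne rfb' rfc' hbc')
    refine ⟨⟨(g : G), mem_norm hgB⟩, fix_of_c hm rfl, ?_, ?_, ?_⟩
    · apply Subtype.ext
      rw [smul_coe', ← rfa, ← rfa', ← h1]; rfl
    · apply Subtype.ext
      rw [smul_coe', ← rfb, ← rfb', ← h2]; rfl
    · apply Subtype.ext
      rw [smul_coe', ← rfc, ← rfc', ← h3]; rfl
  · intro S hS hne h5
    obtain ⟨S', hS', hc, hp⟩ := exists_S h hS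
    have hne' : S'.Nonempty := Finset.card_pos.1 (by rw [hc]; exact Finset.card_pos.2 hne)
    have h1 := rel_nr hP K W h hS' hne' (by omega)
    rw [hp]
    exact ⟨fun h2 => h1 (phi1 h2), fun h2 => h1 (phid h2)⟩
  · intro S hS h6
    obtain ⟨S', hS', hc, hp⟩ := exists_S h hS
    rw [hp]
    intro h1
    have h2 := hexval_fin hP K W T Y hperf h hS' (by omega) (phi1 h1)
    have : (∏ x ∈ S', x) = 1 := (eB B).injective (by rw [h1, map_one])
    rw [this] at h2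
    exact K.d1 h2.symm
  · intro a ha b hb c hc hab hac hbc
    rw [TG, Finset.mem_map] at ha hb hc
    obtain ⟨a, ha, rfl⟩ := ha
    obtain ⟨b, hb, rfl⟩ := hb
    obtain ⟨c, hc, rfl⟩ := hc
    obtain ⟨S, hS, haS, hbS, hcS, h6, hp⟩ := rel_hexE hP K W h ha hb hc (fun h' => hab (by rw [h'])) (fun h' => hac (by rw [h']))
      (fun h' => hbc (by rw [h']))
    refine ⟨S.map (eB B).toEquiv.toEmbedding, Finset.map_subset_map.2 hS, Finset.mem_map_of_mem _ haS, Finset.mem_map_of_mem _ hbS,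
      Finset.mem_map_of_mem _ hcS, by rw [Finset.card_map, h6], ?_⟩
    have h1 := hexval_fin hP K W T Y hperf h hS h6 hp
    rw [Finset.prod_map, ← hdB]
    have h2 : (∏ x ∈ S, x : B) = ⟨d, (h.down hP K W).1⟩ := Subtype.ext h1
    rw [← h2, map_prod]
    rfl

end G

end Cfsg.Agent.Lib.DC22
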