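import Cfsg.Agent.Lib.H89EF1
import Cfsg.Agent.Lib.H89EF0
import Cfsg.Agent.Lib.H89MV0
/-
Involution centralizers of type 2.U6(2): the setting and the main theorem (helper89).
-/
set_option autoImplicit false
set_option linter.all false

namespace Cfsg.Agent.Lib.H89EF

open Module Cfsg Cfsg.Agent.Lib.UnTrans Cfsg.Agent.Lib.UnBridge Cfsg.Agent.Lib.H89EA Cfsg.Agent.Lib.H89EB
open Cfsg.Agent.Lib.H89EC Cfsg.Agent.Lib.H89ED Cfsg.Agent.Lib.H89EE
open Cfsg.Agent.Lib.U6Class hiding TI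
open Cfsg.Agent.Lib.SpTrans (isom mem_isom)

universe v w w'

/-- the quotient of the centralizer -/
abbrev QD0 {G : Type w'} [Group G] (d₀ : G) [((Subgroup.zpowers d₀).subgroupOf (Subgroup.centralizer ({d₀} : Set G))).Normal] :=
  ↥(Subgroup.centralizer ({d₀} : Set G)) ⧸ (Subgroup.zpowers d₀).subgroupOf (Subgroup.centralizer ({d₀} : Set G))

theorem mem_zp {G : Type w'} [Group G] {d₀ : G} (hdd : d₀ * d₀ = 1) (x : G) : x ∈ Subgroup.zpowers d₀ ↔ x = 1 ∨ x = d₀ := by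
  constructor
  · rintro ⟨k, rfl⟩
    show d₀ ^ k = 1 ∨ d₀ ^ k = d₀
    rcases Int.even_or_odd' k with ⟨m, rfl | rfl⟩
    · left
      rw [zpow_mul, zpow_ofNat, pow_two, hdd, one_zpow]
    · right
      rw [zpow_add, zpow_mul, zpow_ofNat, pow_two, hdd, one_zpow, one_mul, zpow_one]
  · rintro (rfl | rfl)
    · exact Subgroup.one_mem _
    · exact Subgroup.mem_zpowers x

/-- **the setting** -/
theorem exists_data {G : Type w'} [Group G] [Finite G] {d₀ : G} (hd : orderOf d₀ = 2)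
    (hperf : commutator ↥(Subgroup.centralizer ({d₀} : Set G)) = ⊤)
    [hzn : ((Subgroup.zpowers d₀).subgroupOf (Subgroup.centralizer ({d₀} : Set G))).Normal]
    {F : Type} [Field F] [Fintype F] [CharP F 2] (hF : Fintype.card F = 2 ^ 2) (hs : IsSimpleGroup (PSU 6 F 2))
    (e : QD0 d₀ ≃* Cfsg.PSU 6 F 2) :
    ∃ (d : ↥(Subgroup.centralizer ({d₀} : Set G))) (hd0 : (d : G) = d₀) (D : Set (QD0 d₀)) (E : Set ↥(Subgroup.centralizer ({d₀} : Set G)))
      (π : SS (hermForm 6 F 2) →* QD0 d₀)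
      (K : Cov (QuotientGroup.mk' ((Subgroup.zpowers d₀).subgroupOf (Subgroup.centralizer ({d₀} : Set G)))) d D E)
      (S : Setup (herm_HS 6 hF) (QD0 d₀) π D), LineOne K S ∧ ¬ HypOne K S ∧
      (∀ W : Submodule F (Fin 6 → F), TI (hermForm 6 F 2) W → d ∈ LW K S W) ∧ (∃ W : Submodule F (Fin 6 → F), TI (hermForm 6 F 2) W) ∧
      Nat.card (QD0 d₀) = 9196830720 := by
  have hF4 : Fintype.card F = 4 := by rw [hF]; norm_num
  have hdd : d₀ * d₀ = 1 := by
    have := pow_orderOf_eq_one d₀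
    rw [hd, pow_two] at this
    exact this
  have hd1 : d₀ ≠ 1 := by
    rintro rfl
    rw [orderOf_one] at hd
    omega
  have hdC : d₀ ∈ Subgroup.centralizer ({d₀} : Set G) := Subgroup.mem_centralizer_singleton_iff.mpr rfl
  set d : ↥(Subgroup.centralizer ({d₀} : Set G)) := ⟨d₀, hdC⟩ with hdef
  obtain ⟨D, hD, hne⟩ := FiLift91.class_of_equiv hF4 hs e
  have hL := lh_of hF4 hs hD hne e
  obtain ⟨_, _, _, hcm, hcard⟩ := level_of_equiv hF4 hD hne e
  obtain ⟨π, S⟩ := Cfsg.Agent.Lib.H89MV.exists_setup hF hD hne e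
  set φ := QuotientGroup.mk' ((Subgroup.zpowers d₀).subgroupOf (Subgroup.centralizer ({d₀} : Set G))) with hφ
  have hker : ∀ x, φ x = 1 ↔ x = 1 ∨ x = d := by
    intro x
    rw [hφ, QuotientGroup.mk'_apply, QuotientGroup.eq_one_iff, Subgroup.mem_subgroupOf, mem_zp hdd]
    constructor
    · rintro (h | h)
      · left; exact Subtype.ext h
      · right; exact Subtype.ext h
    · rintro (h | h)
      · left; rw [h]; rfl
      · right; rw [h]
  have hδ1 : d ≠ 1 := fun h => hd1 (congrArg Subtype.val h)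
  have hδδ : d * d = 1 := Subtype.ext hdd
  obtain ⟨t, ht⟩ := hne
  obtain ⟨e₀, he₀⟩ := QuotientGroup.mk'_surjective ((Subgroup.zpowers d₀).subgroupOf (Subgroup.centralizer ({d₀} : Set G))) t
  have K₀ : Cov φ d D {x | ∃ g, x = g * e₀ * g⁻¹} :=
    cov_class (QuotientGroup.mk'_surjective _) hker hδ1 hδδ hL hcm hD.2.1 (by rw [he₀]; exact ht)
  obtain ⟨w, y, B⟩ := exists_HB (F := F) hF
  obtain ⟨E, K, hLO⟩ : ∃ (E : Set ↥(Subgroup.centralizer ({d₀} : Set G))) (K : Cov φ d D E), LineOne K S := by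
    rcases exists_lineOne K₀ S with h | h
    · exact ⟨_, K₀, h⟩
    · exact ⟨_, cov_mul K₀, h⟩
  have hall : ∀ W : Submodule F (Fin 6 → F), TI (hermForm 6 F 2) W → d ∈ LW K S W := fun W hW =>
    d_mem_all K S hperf hcard B hW
  have hT : TI (hermForm 6 F 2) (Submodule.span F (Set.range w)) := ti_span B (herm_HS 6 hF)
  refine ⟨d, rfl, D, E, π, K, S, hLO, ?_, hall, ⟨_, hT⟩, hcard⟩
  intro hHO
  exact d_notin_LW K S hLO hHO hT (hall _ hT)

section G

variable {F : Type} [Field F] [Fintype F] [CharP F 2] {V : Type v} [AddCommGroup V] [Module F V] {f : V → V → F}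
  {hF : Fintype.card F = 2 ^ 2} {H : HS (sig hF) f}
variable {G : Type w'} {Q : Type w} [Group G] [Group Q] [Finite G]
  {d₀ : G} {π : SS f →* Q} {D : Set Q} {φ : ↥(Subgroup.centralizer ({d₀} : Set G)) →* Q}
  {d : ↥(Subgroup.centralizer ({d₀} : Set G))} {E : Set ↥(Subgroup.centralizer ({d₀} : Set G))}

/-- the conjugates of the involution in the elementary abelian subgroup -/
theorem conj_set (K : Cov φ d D E) (S : Setup H Q π D) (hLO : LineOne K S) (hno : ¬ HypOne K S) (hd0 : (d : G) = d₀)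
    (hall : ∀ W : Submodule F V, TI f W → d ∈ LW K S W) (hcard : Nat.card Q = 9196830720)
    (hnwc : ∃ g : G, g * d₀ * g⁻¹ ∈ Subgroup.centralizer ({d₀} : Set G) ∧ g * d₀ * g⁻¹ ≠ d₀)
    {W : Submodule F V} (hW : TI f W) :
    {x : G | x ∈ AG K S W ∧ IsConj d₀ x} =
      insert d₀ ((fun x : ↥(Subgroup.centralizer ({d₀} : Set G)) => ((d * x : ↥(Subgroup.centralizer ({d₀} : Set G))) : G)) '' EW E φ S W) := by
  have O := os K S hW hLO hno hd0 (hall W hW) hcard (moved K S hd0 hall hW hnwc)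
  have hDD := O.orbit_eq
  ext x
  constructor
  · rintro ⟨hx, hc⟩
    obtain ⟨g, rfl⟩ := isConj_iff.1 hc
    obtain ⟨n, hn, hnd⟩ := fusion K S hd0 hall hW hx
    have h1 : (⟨g * d₀ * g⁻¹, hx⟩ : AG K S W) ∈ DD ↥(Subgroup.normalizer (AG K S W : Set G)) (dA K S hd0 (hall W hW)) :=
      mem_DD.2 ⟨⟨n, hn⟩, Subtype.ext hnd⟩
    rw [hDD, Finset.mem_insert, mem_dm] at h1
    rcases h1 with h1 | ⟨t, ht, h1⟩
    · left
      exact congrArg (fun z : AG K S W => (z : G)) h1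
    · right
      obtain ⟨v, hv, hv0, rfl⟩ := (mem_TT K S hW).1 ht
      refine ⟨Te K S v, Te_mem_EW K S hv (hW.iso _ hv _ hv) hv0, ?_⟩
      have h2 := congrArg (fun z : AG K S W => (z : G)) h1
      have h3 : d₀ * ((Te K S v : ↥(Subgroup.centralizer ({d₀} : Set G))) : G) = g * d₀ * g⁻¹ := h2
      show (d : G) * ((Te K S v : ↥(Subgroup.centralizer ({d₀} : Set G))) : G) = g * d₀ * g⁻¹
      rw [hd0]; exact h3
  · intro hx
    have key : ∀ y : AG K S W, y ∈ DD ↥(Subgroup.normalizer (AG K S W : Set G)) (dA K S hd0 (hall W hW)) →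
        (y : G) ∈ AG K S W ∧ IsConj d₀ (y : G) := by
      intro y hy
      obtain ⟨n, hn⟩ := mem_DD.1 hy
      refine ⟨y.2, isConj_iff.2 ⟨(n : G), ?_⟩⟩
      exact congrArg (fun z : AG K S W => (z : G)) hn
    rcases hx with rfl | ⟨e, he, rfl⟩
    · exact key (dA K S hd0 (hall W hW)) (d_mem_DD _)
    · obtain ⟨v, hv, hvv, hv0, rfl⟩ := (mem_EW K S).1 he
      have h1 : dA K S hd0 (hall W hW) * tA K S hW v hv ∈
          DD ↥(Subgroup.normalizer (AG K S W : Set G)) (dA K S hd0 (hall W hW)) := by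
        rw [hDD, Finset.mem_insert, mem_dm]
        right; exact ⟨_, tA_mem K S hW hv hv0, rfl⟩
      have h2 := key _ h1
      have h3 : ((dA K S hd0 (hall W hW) * tA K S hW v hv : AG K S W) : G) =
          ((d * Te K S v : ↥(Subgroup.centralizer ({d₀} : Set G))) : G) := by
        show d₀ * ((Te K S v : ↥(Subgroup.centralizer ({d₀} : Set G))) : G) = (d : G) * ((Te K S v : ↥(Subgroup.centralizer ({d₀} : Set G))) : G)
        rw [hd0]
      rw [h3] at h2
      exact h2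

/-- there are 22 conjugates -/
theorem conj_ncard (K : Cov φ d D E) (S : Setup H Q π D) (hLO : LineOne K S) (hno : ¬ HypOne K S) (hd0 : (d : G) = d₀)
    (hall : ∀ W : Submodule F V, TI f W → d ∈ LW K S W) (hcard : Nat.card Q = 9196830720)
    (hnwc : ∃ g : G, g * d₀ * g⁻¹ ∈ Subgroup.centralizer ({d₀} : Set G) ∧ g * d₀ * g⁻¹ ≠ d₀)
    {W : Submodule F V} (hW : TI f W) : Set.ncard {x : G | x ∈ AG K S W ∧ IsConj d₀ x} = 22 := by
  have O := os K S hW hLO hno hd0 (hall W hW) hcard (moved K S hd0 hall hW hnwc)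
  have hDD := O.orbit_eq
  have h1 : {x : G | x ∈ AG K S W ∧ IsConj d₀ x} = (fun z : AG K S W => (z : G)) ''
      (DD ↥(Subgroup.normalizer (AG K S W : Set G)) (dA K S hd0 (hall W hW)) : Set (AG K S W)) := by
    ext x
    constructor
    · rintro ⟨hx, hc⟩
      obtain ⟨g, rfl⟩ := isConj_iff.1 hc
      obtain ⟨n, hn, hnd⟩ := fusion K S hd0 hall hW hx
      exact ⟨⟨g * d₀ * g⁻¹, hx⟩, Finset.mem_coe.2 (mem_DD.2 ⟨⟨n, hn⟩, Subtype.ext hnd⟩), rfl⟩
    · rintro ⟨y, hy, rfl⟩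
      obtain ⟨n, hn⟩ := mem_DD.1 (Finset.mem_coe.1 hy)
      refine ⟨y.2, isConj_iff.2 ⟨(n : G), ?_⟩⟩
      exact congrArg (fun z : AG K S W => (z : G)) hn
  rw [h1, Set.ncard_image_of_injective _ Subtype.val_injective, Set.ncard_coe_finset, hDD, Finset.card_insert_of_notMem,
    card_dm, O.cT]
  rw [O.mem_dm', O.sq]
  exact O.oneT

/-- the normalizer is transitive on the conjugates -/
theorem conj_trans (K : Cov φ d D E) (S : Setup H Q π D) (hd0 : (d : G) = d₀)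
    (hall : ∀ W : Submodule F V, TI f W → d ∈ LW K S W) {W : Submodule F V} (hW : TI f W) {x y : G}
    (hx : x ∈ AG K S W) (hy : y ∈ AG K S W) (hcx : IsConj d₀ x) (hcy : IsConj d₀ y) :
    ∃ n ∈ Subgroup.normalizer (AG K S W : Set G), n * x * n⁻¹ = y := by
  obtain ⟨g, rfl⟩ := isConj_iff.1 hcx
  obtain ⟨g', rfl⟩ := isConj_iff.1 hcy
  obtain ⟨n, hn, hnd⟩ := fusion K S hd0 hall hW hx
  obtain ⟨n', hn', hnd'⟩ := fusion K S hd0 hall hW hy
  refine ⟨n' * n⁻¹, Subgroup.mul_mem _ hn' (Subgroup.inv_mem _ hn), ?_⟩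
  rw [← hnd, ← hnd']
  group

end G

end Cfsg.Agent.Lib.H89EF
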