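import Cfsg.Agent.Lib.DC22I73
import Cfsg.Agent.Lib.FiY1
import Cfsg.Agent.Lib.H89EF2

/-!
# Involutions with centralizer a double cover of a group of type M(22), part J: fusion (helper73)
-/

set_option autoImplicit false
set_option linter.all false

namespace Cfsg.Agent.Lib.DC22

open Module Cfsg Cfsg.Agent.Lib.ThreeRank3 Cfsg.Agent.Lib.ThreeDescent Cfsg.Agent.Lib.ThreeQuot Cfsg.Agent.Lib.FiPar
  Cfsg.Agent.Lib.ThreeSimple Cfsg.Agent.Lib.ThreeTypes Cfsg.Agent.Lib.FiComp Cfsg.Agent.Lib.FiMu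
open Cfsg.Agent.Lib.H89EB Cfsg.Agent.Lib.H89EC
open Cfsg.Agent.Lib.FiHex (HD MT YD Hx Bs IsBase)
open Cfsg.Agent.Lib.H89EA (isPGroup_of_sq comm_of_sq closure_sq)
open Cfsg.Agent.Lib.FiUniq (T22)
open Cfsg.Agent.Lib.OrbM (OM)

universe v w

section C

variable {C : Type v} {Q : Type w} [Group C] [Group Q] [Finite C] [Finite Q] {φ : C →* Q} {d : C} {D : Set Q} {E : Set C}
  (hP : PSU62Simple) (K : Cov φ d D E) (W : Q22 D)

include hP K W in
/-- uniqueness in a Sylow 2-subgroup -/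
theorem MC.uniq {B B' : Subgroup C} (h : MC B) (h' : MC B') (T : Sylow 2 C) (hB : B ≤ (T : Subgroup C)) (hB' : B' ≤ (T : Subgroup C)) :
    B = B' := by
  obtain ⟨_, h1, h2⟩ := h.down hP K W
  obtain ⟨_, h1', h2'⟩ := h'.down hP K W
  obtain ⟨P, hPT⟩ := (T.isPGroup'.map φ).exists_le_sylow
  obtain ⟨A₀, _, _, _, _, _, huniq⟩ := thompson22 hP W.tg W.prim W.m22 P
  have e1 := huniq _ (le_trans (Subgroup.map_mono hB) hPT) h1.sq h1.card
  have e2 := huniq _ (le_trans (Subgroup.map_mono hB') hPT) h1'.sq h1'.card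
  rw [← h2, ← h2', e1, e2]

include hP K W in
/-- the Thompson subgroup -/
theorem thompson (T : Sylow 2 C) : ∃ B : Subgroup C, MC B ∧ Cfsg.thompsonSubgroupOf 2 (T : Subgroup C) = B := by
  haveI : Fact (Nat.Prime 2) := ⟨Nat.prime_two⟩
  obtain ⟨B₀, hB₀⟩ := exists_MC hP K W
  obtain ⟨P, hPB⟩ := (isPGroup_of_sq B₀ hB₀.sq).exists_le_sylow
  obtain ⟨g, hg⟩ := MulAction.exists_smul_eq C P T
  have hM := hB₀.conj g
  have hle : B₀.map (MulAut.conj g).toMonoidHom ≤ (T : Subgroup C) := by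
    rw [← hg]
    rintro _ ⟨x, hx, rfl⟩
    exact ⟨x, hPB hx, rfl⟩
  refine ⟨_, hM, thompson_eq hle hM.sq ?_ ?_⟩
  · intro B _ hB
    rw [hM.card]
    exact le11 hP K W hB
  · intro B hBT hB hBc
    rw [hM.card] at hBc
    exact MC.uniq hP K W ⟨hB, hBc⟩ hM T hBT hle

end C

section G

variable {G : Type v} {Q : Type w} [Group G] [Group Q] {d₀ : G} {φ : CG d₀ →* Q} {d : CG d₀} {D : Set Q} {E : Set (CG d₀)}

variable [Finite G] [Finite Q] (hP : PSU62Simple) (K : Cov φ d D E) (W : Q22 D)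

include hP K W in
theorem d_notin_E : d ∉ E := by
  intro h
  have h1 := K.im d h
  rw [K.phi_d] at h1
  have h2 := W.tg.1.1 1 h1
  rw [orderOf_one] at h2
  omega

include hP K W in
/-- the orbit with the right choice of the class -/
theorem exists_class (T : T22 D) (Y : YD D) (hperf : commutator (CG d₀) = ⊤) (hd0 : (d : G) = d₀)
    (hnwc : ∃ g : G, g * d₀ * g⁻¹ ∈ Subgroup.centralizer ({d₀} : Set G) ∧ g * d₀ * g⁻¹ ≠ d₀) :
    ∃ E' : Set (CG d₀), Cov φ d D E' ∧ ∀ x : CG d₀, IsConj d₀ (x : G) ↔ x = d ∨ x ∈ E' := by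
  obtain ⟨B, hB⟩ := exists_MC hP K W
  have hm := d0_mem hP K W hd0 hB
  have key : ∀ E' : Set (CG d₀), Cov φ d D E' →
      (∀ x : AGm B, (∃ n : Subgroup.normalizer (AGm B : Set G), n • dG d₀ hm = x) ↔ x = dG d₀ hm ∨ x ∈ TG E' B) →
      ∃ E' : Set (CG d₀), Cov φ d D E' ∧ ∀ x : CG d₀, IsConj d₀ (x : G) ↔ x = d ∨ x ∈ E' := by
    intro E' K' horb
    refine ⟨E', K', ?_⟩
    intro x
    constructor
    · intro hx
      obtain ⟨g, hg⟩ := isConj_iff.1 hx
      have hxx : x * x = 1 := by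
        apply Subtype.ext
        show (x : G) * x = 1
        rw [← hg]
        calc g * d₀ * g⁻¹ * (g * d₀ * g⁻¹) = g * (d₀ * d₀) * g⁻¹ := by group
          _ = 1 := by rw [d0_sq K hd0]; group
      obtain ⟨c, hc⟩ := conj_in hP K W hB hxx
      have h2 : (c : G) * g * d₀ * ((c : G) * g)⁻¹ = ((c * x * c⁻¹ : CG d₀) : G) := by
        show (c : G) * g * d₀ * ((c : G) * g)⁻¹ = (c : G) * x * (c : G)⁻¹
        rw [← hg]; group
      have h3 := coe_mem.2 hc
      obtain ⟨n, hn, hnd⟩ := fusion hP K W hB (g := (c : G) * g) (by rw [h2]; exact h3)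
      rw [h2] at hnd
      have h4 := (horb ⟨((c * x * c⁻¹ : CG d₀) : G), h3⟩).1 ⟨⟨n, hn⟩, Subtype.ext hnd⟩
      have hback : x = c⁻¹ * (c * x * c⁻¹) * c := by group
      rcases h4 with h4 | h4
      · left
        have h5 : c * x * c⁻¹ = d := Subtype.ext (by rw [hd0]; exact congrArg Subtype.val h4)
        rw [hback, h5, mul_assoc, K.dc c, inv_mul_cancel_left]
      · right
        obtain ⟨y, hyB, hyE, hyx⟩ := mem_TG.1 h4
        have h5 : y = c * x * c⁻¹ := Subtype.ext hyx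
        rw [hback, ← h5]
        have := K'.conj c⁻¹ y hyE
        rwa [inv_inv] at this
    · rintro (rfl | hx)
      · rw [hd0]
      · obtain ⟨c, hc⟩ := conj_in hP K W hB (K'.sq x hx)
        have h3 := coe_mem.2 hc
        have h4 : (⟨((c * x * c⁻¹ : CG d₀) : G), h3⟩ : AGm B) ∈ TG E' B := mem_TG.2 ⟨_, hc, K'.conj c x hx, rfl⟩
        obtain ⟨n, hn⟩ := (horb _).2 (Or.inr h4)
        have h5 : (n : G) * d₀ * (n : G)⁻¹ = (c : G) * x * (c : G)⁻¹ := congrArg Subtype.val hn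
        refine isConj_iff.2 ⟨(c : G)⁻¹ * n, ?_⟩
        calc (c : G)⁻¹ * n * d₀ * ((c : G)⁻¹ * n)⁻¹ = (c : G)⁻¹ * ((n : G) * d₀ * (n : G)⁻¹) * c := by group
          _ = _ := by rw [h5]; group
  letI := commB (AGm_sq hB)
  letI : Fintype (AGm B) := Fintype.ofFinite _
  letI : DecidableEq (AGm B) := Classical.decEq _
  have O := om hP K W T Y hperf hd0 hB hm (moved hP K W hd0 hB hm hnwc)
  rcases Cfsg.Agent.Lib.OrbM.orbit O with h | h
  · exact key E K h
  · apply key {x | x * d ∈ E} (cov_mul K)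
    intro x
    rw [h x]
    apply or_congr Iff.rfl
    constructor
    · rintro ⟨t, ht, rfl⟩
      obtain ⟨y, hyB, hyE, hyt⟩ := mem_TG.1 ht
      refine mem_TG.2 ⟨d * y, B.mul_mem (hB.down hP K W).1 hyB, ?_, ?_⟩
      · show d * y * d ∈ E
        rw [K.dc y, mul_assoc, K.dd, mul_one]
        exact hyE
      · show (d : G) * y = d₀ * (t : G)
        rw [hyt]
        exact congrArg (fun z => z * (t : G)) hd0
    · intro hx
      obtain ⟨y, hyB, hyE, hyx⟩ := mem_TG.1 hx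
      have hyd : y * d ∈ B := B.mul_mem hyB (hB.down hP K W).1
      refine ⟨⟨((y * d : CG d₀) : G), coe_mem.2 hyd⟩, mem_TG.2 ⟨_, hyd, hyE, rfl⟩, ?_⟩
      apply Subtype.ext
      show (x : G) = d₀ * ((y : G) * d)
      have h1 : (d * (y * d) : CG d₀) = y := by
        rw [← mul_assoc, K.dc y, mul_assoc, K.dd, mul_one]
      have h2 : (d : G) * ((y : G) * d) = y := congrArg Subtype.val h1
      exact (hyx.symm.trans h2.symm).trans (congrArg (fun z => z * ((y : G) * (d : G))) hd0)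

include hP K W in
theorem conj_trans {B : Subgroup (CG d₀)} (hB : MC B) {x y : G} (hx : x ∈ AGm B) (hy : y ∈ AGm B) (hcx : IsConj d₀ x)
    (hcy : IsConj d₀ y) : ∃ n ∈ Subgroup.normalizer (AGm B : Set G), n * x * n⁻¹ = y := by
  obtain ⟨g, rfl⟩ := isConj_iff.1 hcx
  obtain ⟨g', rfl⟩ := isConj_iff.1 hcy
  obtain ⟨n, hn, hnd⟩ := fusion hP K W hB hx
  obtain ⟨n', hn', hnd'⟩ := fusion hP K W hB hy
  refine ⟨n' * n⁻¹, Subgroup.mul_mem _ hn' (Subgroup.inv_mem _ hn), ?_⟩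
  rw [← hnd, ← hnd']
  group

include hP K W in
theorem ncard23 (hd0 : (d : G) = d₀) (hall : ∀ x : CG d₀, IsConj d₀ (x : G) ↔ x = d ∨ x ∈ E) {B : Subgroup (CG d₀)} (hB : MC B) :
    Set.ncard {x : G | x ∈ AGm B ∧ IsConj d₀ x} = 23 := by
  have hdB := (hB.down hP K W).1
  have h1 : {x : G | x ∈ AGm B ∧ IsConj d₀ x} = (fun x : CG d₀ => (x : G)) '' (insert d (eA E B)) := by
    ext x
    constructor
    · rintro ⟨⟨y, hy, rfl⟩, hc⟩
      rcases (hall y).1 hc with h | h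
      · exact ⟨y, Or.inl h, rfl⟩
      · exact ⟨y, Or.inr ⟨h, hy⟩, rfl⟩
    · rintro ⟨y, hy | hy, rfl⟩
      · exact ⟨coe_mem.2 (by rw [hy]; exact hdB), (hall y).2 (Or.inl hy)⟩
      · exact ⟨coe_mem.2 hy.2, (hall y).2 (Or.inr hy.1)⟩
  rw [h1, Set.ncard_image_of_injective _ Subtype.val_injective, Set.ncard_insert_of_notMem (fun h => d_notin_E hP K W h.1)
    (Set.toFinite _), hB.ncard hP K W]

end G

/-- **the local data of the centralizer** -/
theorem data23 (hP : PSU62Simple) {G : Type v} [Group G] [Finite G] {d₀ : G} (hd : orderOf d₀ = 2)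
    (hq : Cfsg.IsQuasisimple ↥(Subgroup.centralizer ({d₀} : Set G)))
    [hzn : ((Subgroup.zpowers d₀).subgroupOf (Subgroup.centralizer ({d₀} : Set G))).Normal]
    (htype : ∃ E : Set (H89EF.QD0 d₀), Cfsg.IsThreeTranspositionClass E ∧ Cfsg.IsOfTypeM22 _ E)
    (hnwc : ∃ g : G, g * d₀ * g⁻¹ ∈ Subgroup.centralizer ({d₀} : Set G) ∧ g * d₀ * g⁻¹ ≠ d₀) :
    ∃ (d : CG d₀) (D₀ : Set (H89EF.QD0 d₀)) (E : Set (CG d₀)), (d : G) = d₀ ∧
      Cov (QuotientGroup.mk' ((Subgroup.zpowers d₀).subgroupOf (Subgroup.centralizer ({d₀} : Set G)))) d D₀ E ∧ Q22 D₀ ∧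
      (∀ x : CG d₀, IsConj d₀ (x : G) ↔ x = d ∨ x ∈ E) ∧
      (∀ l : List (CG d₀), l.Nodup → l.length = 6 → (∀ x ∈ l, x ∈ E) → (∀ x ∈ l, ∀ y ∈ l, Commute x y) →
        (l.map (QuotientGroup.mk' ((Subgroup.zpowers d₀).subgroupOf (Subgroup.centralizer ({d₀} : Set G))))).prod = 1 → l.prod = d) ∧
      commutator (CG d₀) = ⊤ := by
  obtain ⟨D, hE, h22⟩ := htype
  have hle : (Subgroup.zpowers d₀).subgroupOf (Subgroup.centralizer ({d₀} : Set G)) ≤
      Subgroup.center ↥(Subgroup.centralizer ({d₀} : Set G)) := by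
    intro x hx
    rw [Subgroup.mem_subgroupOf] at hx
    obtain ⟨k, hk⟩ := hx
    rw [Subgroup.mem_center_iff]
    intro y
    apply Subtype.ext
    have h1 : Commute (y : G) d₀ := (Subgroup.mem_centralizer_singleton_iff.mp y.2)
    have h2 : Commute (y : G) (d₀ ^ k) := h1.zpow_right k
    have hk' : d₀ ^ k = (x : G) := hk
    rw [hk'] at h2
    exact h2
  have hprim := FiLift91.prim_of_quasisimple hq hle hE h22.1
  have hD : Cfsg.IsThreeTranspositionGroup D := by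
    obtain ⟨h1, ⟨d0, h2, h3⟩, h4⟩ := hE
    exact ⟨h1, Cfsg.Agent.Lib.FischerRank3.class_conj h3, h4⟩
  have hperf : commutator ↥(Subgroup.centralizer ({d₀} : Set G)) = ⊤ := by
    have h1 := hq.1
    exact Group.IsPerfect.commutator_eq_top
  have hdd : d₀ * d₀ = 1 := by
    have := pow_orderOf_eq_one d₀
    rw [hd, pow_two] at this
    exact this
  have hd1 : d₀ ≠ 1 := by
    rintro rfl
    rw [orderOf_one] at hd
    omega
  have hdC : d₀ ∈ Subgroup.centralizer ({d₀} : Set G) := Subgroup.mem_centralizer_singleton_iff.mpr rfl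
  set d : CG d₀ := ⟨d₀, hdC⟩ with hdef
  have W : Q22 D := ⟨hD, hprim, h22⟩
  have T : T22 D := FiUniq.t22 hP hD hprim h22
  have Y : YD D := FiHex.yd22 hP hD hprim h22
  have hL := FiLift91.lh22 hP hD hprim h22
  set φ := QuotientGroup.mk' ((Subgroup.zpowers d₀).subgroupOf (Subgroup.centralizer ({d₀} : Set G))) with hφ
  have hker : ∀ x, φ x = 1 ↔ x = 1 ∨ x = d := by
    intro x
    rw [hφ, QuotientGroup.mk'_apply, QuotientGroup.eq_one_iff, Subgroup.mem_subgroupOf, H89EF.mem_zp hdd]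
    constructor
    · rintro (h | h)
      · left; exact Subtype.ext h
      · right; exact Subtype.ext h
    · rintro (h | h)
      · left; rw [h]; rfl
      · right; rw [h]
  have hδ1 : d ≠ 1 := fun h => hd1 (congrArg Subtype.val h)
  have hδδ : d * d = 1 := Subtype.ext hdd
  obtain ⟨t, ht⟩ := T.ne
  obtain ⟨e₀, he₀⟩ := QuotientGroup.mk'_surjective ((Subgroup.zpowers d₀).subgroupOf (Subgroup.centralizer ({d₀} : Set G))) t
  have K₀ : Cov φ d D {x | ∃ g, x = g * e₀ * g⁻¹} :=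
    cov_class (QuotientGroup.mk'_surjective _) hker hδ1 hδδ hL T.cm hD.2.1 (by rw [he₀]; exact ht)
  obtain ⟨E, K, hall⟩ := exists_class hP K₀ W T Y hperf rfl hnwc
  refine ⟨d, D, E, rfl, K, W, hall, ?_, hperf⟩
  intro l h1 h2 h3 h4 h5
  exact hexval hP K W T Y hperf h1 h2 h3 h4 h5

end Cfsg.Agent.Lib.DC22
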