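import Mathlib
import Cfsg.Agent.Lib.ImpDec3

/-! Counting ordered direct decompositions into equidimensional subspaces. (helper99) -/

set_option autoImplicit false

namespace Cfsg.Agent.Lib.ImpDec

open Module Cfsg.Agent.Lib.InvSub Cfsg.Agent.Lib.PrimeOrd Cfsg.Agent.Lib.SubspaceCount

section

variable (F V : Type*) [Field F] [AddCommGroup V] [Module F V]

/-- ordered decompositions -/
def Dec (a t : ℕ) : Type _ := {D : Fin t → Submodule F V // (∀ i, finrank F (D i) = a) ∧ iSupIndep D ∧ iSup D = ⊤}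

end

section

variable {F V : Type*} [Field F] [AddCommGroup V] [Module F V]

lemma map_equiv_dec {a t : ℕ} (g : V ≃ₗ[F] V) {D : Fin t → Submodule F V}
    (h : (∀ i, finrank F (D i) = a) ∧ iSupIndep D ∧ iSup D = ⊤) :
    (∀ i, finrank F ((D i).map (g : V →ₗ[F] V)) = a) ∧ iSupIndep (fun i => (D i).map (g : V →ₗ[F] V)) ∧
      iSup (fun i => (D i).map (g : V →ₗ[F] V)) = ⊤ := by
  obtain ⟨h1, h2, h3⟩ := h
  refine ⟨fun i => ?_, ?_, ?_⟩
  · rw [← h1 i]
    exact (g.submoduleMap (D i)).symm.finrank_eq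
  · exact h2.map_orderIso (Submodule.orderIsoMapComap g)
  · rw [← Submodule.map_iSup, h3, Submodule.map_top, LinearEquiv.range]

instance decAction (a t : ℕ) : MulAction (V ≃ₗ[F] V) (Dec F V a t) where
  smul g D := ⟨fun i => (D.1 i).map (g : V →ₗ[F] V), map_equiv_dec g D.2⟩
  one_smul D := by
    apply Subtype.ext
    funext i
    change (D.1 i).map ((1 : V ≃ₗ[F] V) : V →ₗ[F] V) = D.1 i
    exact Submodule.map_id _
  mul_smul g h D := by
    apply Subtype.ext
    funext i
    change (D.1 i).map ((g * h : V ≃ₗ[F] V) : V →ₗ[F] V) = ((D.1 i).map (h : V →ₗ[F] V)).map (g : V →ₗ[F] V)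
    rw [← Submodule.map_comp]; rfl

lemma exists_equiv_dec [FiniteDimensional F V] {a t : ℕ} (D D' : Dec F V a t) :
    ∃ g : V ≃ₗ[F] V, ∀ i, (D.1 i).map (g : V →ₗ[F] V) = D'.1 i := by
  obtain ⟨D, h1, h2, h3⟩ := D
  obtain ⟨D', h1', h2', h3'⟩ := D'
  have e0 : ∀ i, Nonempty (D i ≃ₗ[F] D' i) := fun i =>
    ⟨LinearEquiv.ofFinrankEq _ _ (by rw [h1, h1'])⟩
  let e : ∀ i, (D i ≃ₗ[F] D' i) := fun i => (e0 i).some
  let f : V →ₗ[F] V := ∑ i, (D' i).subtype ∘ₗ (e i : D i →ₗ[F] D' i) ∘ₗ ((D i).projectionOnto _ (isCompl_others h2 h3 i))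
  let f' : V →ₗ[F] V := ∑ i, (D i).subtype ∘ₗ ((e i).symm : D' i →ₗ[F] D i) ∘ₗ ((D' i).projectionOnto _ (isCompl_others h2' h3' i))
  have hf : ∀ i (v : D i), f v = e i v := by
    intro i v
    simp only [f, LinearMap.sum_apply, LinearMap.comp_apply]
    rw [Finset.sum_eq_single i]
    · rw [Submodule.projectionOnto_apply_left]; rfl
    · intro j _ hj
      have : ((D j).projectionOnto _ (isCompl_others h2 h3 j)) (v : V) = 0 := by
        rw [Submodule.projectionOnto_apply_eq_zero_iff]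
        exact (le_iSup₂_of_le (f := fun l' (_ : l' ≠ j) => D l') i (Ne.symm hj) le_rfl) v.2
      rw [this]; simp
    · intro h; exact absurd (Finset.mem_univ i) h
  have hf' : ∀ i (v : D' i), f' v = (e i).symm v := by
    intro i v
    simp only [f', LinearMap.sum_apply, LinearMap.comp_apply]
    rw [Finset.sum_eq_single i]
    · rw [Submodule.projectionOnto_apply_left]; rfl
    · intro j _ hj
      have : ((D' j).projectionOnto _ (isCompl_others h2' h3' j)) (v : V) = 0 := by
        rw [Submodule.projectionOnto_apply_eq_zero_iff]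
        exact (le_iSup₂_of_le (f := fun l' (_ : l' ≠ j) => D' l') i (Ne.symm hj) le_rfl) v.2
      rw [this]; simp
    · intro h; exact absurd (Finset.mem_univ i) h
  have hff' : f' ∘ₗ f = LinearMap.id := by
    apply ext_of_top h3
    intro l v hv
    have h4 := hf l ⟨v, hv⟩
    have h5 := hf' l (e l ⟨v, hv⟩)
    rw [LinearMap.comp_apply]
    change f' (f v) = v
    change f v = _ at h4
    rw [h4, h5, LinearEquiv.symm_apply_apply]
  have hf'f : f ∘ₗ f' = LinearMap.id := by
    apply ext_of_top h3'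
    intro l v hv
    have h4 := hf' l ⟨v, hv⟩
    have h5 := hf l ((e l).symm ⟨v, hv⟩)
    rw [LinearMap.comp_apply]
    change f (f' v) = v
    change f' v = _ at h4
    rw [h4, h5, LinearEquiv.apply_symm_apply]
  refine ⟨LinearEquiv.ofLinearMap f f' hf'f hff', fun i => ?_⟩
  ext v
  constructor
  · rintro ⟨u, hu, rfl⟩
    have := hf i ⟨u, hu⟩
    change f u ∈ _
    change f u = _ at this
    rw [this]
    exact (e i ⟨u, hu⟩).2
  · intro hv
    refine ⟨(e i).symm ⟨v, hv⟩, ((e i).symm ⟨v, hv⟩).2, ?_⟩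
    change f _ = v
    rw [hf, LinearEquiv.apply_symm_apply]

instance [FiniteDimensional F V] (a t : ℕ) : MulAction.IsPretransitive (V ≃ₗ[F] V) (Dec F V a t) :=
  ⟨fun D D' => by
    obtain ⟨g, hg⟩ := exists_equiv_dec D D'
    exact ⟨g, Subtype.ext (funext hg)⟩⟩

theorem card_dec_dvd [Finite F] [FiniteDimensional F V] (a t : ℕ) (h0 : Nat.card (Dec F V a t) ≠ 0) :
    Nat.card (Dec F V a t) ∣ Nat.card (V ≃ₗ[F] V) := by
  have hne : Nonempty (Dec F V a t) := by
    by_contra h
    rw [not_nonempty_iff] at h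
    exact h0 Nat.card_of_isEmpty
  obtain ⟨D⟩ := hne
  rw [← MulAction.index_stabilizer_of_transitive (V ≃ₗ[F] V) D]
  exact Subgroup.index_dvd_card _

/-- the symmetric group acts -/
@[reducible] def symAction (a t : ℕ) : MulAction (Equiv.Perm (Fin t)) (Dec F V a t) where
  smul σ D := ⟨fun i => D.1 (σ⁻¹ i), fun i => D.2.1 _, D.2.2.1.comp (σ⁻¹ : Equiv.Perm (Fin t)).injective,
    ((σ⁻¹ : Equiv.Perm (Fin t)).iSup_comp (g := D.1)).trans D.2.2.2⟩
  one_smul D := rfl
  mul_smul σ τ D := by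
    apply Subtype.ext
    funext i
    change D.1 ((σ * τ)⁻¹ i) = D.1 (τ⁻¹ (σ⁻¹ i))
    rw [mul_inv_rev, Equiv.Perm.mul_apply]

theorem factorial_dvd {a : ℕ} (ha : 0 < a) (t : ℕ) : t.factorial ∣ Nat.card (Dec F V a t) := by
  let _ := symAction (F := F) (V := V) a t
  have hfree : ∀ D : Dec F V a t, MulAction.stabilizer (Equiv.Perm (Fin t)) D = ⊥ := by
    intro D
    rw [eq_bot_iff]
    intro σ hσ
    rw [Subgroup.mem_bot]
    have h1 : σ • D = D := hσ
    have h2 : ∀ i, D.1 (σ⁻¹ i) = D.1 i := fun i => congrFun (congrArg Subtype.val h1) i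
    have hinj : Function.Injective D.1 := D.2.2.1.injective (fun i hi => by
      have := D.2.1 i
      rw [hi, finrank_bot] at this
      omega)
    have h3 : σ⁻¹ = 1 := Equiv.ext fun i => hinj (h2 i)
    exact inv_eq_one.mp h3
  have e := MulAction.selfEquivOrbitsQuotientProd hfree
  rw [Nat.card_congr e, Nat.card_prod]
  have : Nat.card (Equiv.Perm (Fin t)) = t.factorial := by
    rw [Nat.card_eq_fintype_card, Fintype.card_perm, Fintype.card_fin]
  rw [this]
  exact dvd_mul_left _ _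

end

section

variable {F : Type*} [Field F] [Fintype F]

theorem exists_dvd_of_dvd_GL {n r : ℕ} (hr : r.Prime) (hrq : ¬ r ∣ Fintype.card F)
    (h : r ∣ Nat.card ((Fin n → F) ≃ₗ[F] (Fin n → F))) :
    ∃ i, 0 < i ∧ i ≤ n ∧ r ∣ Fintype.card F ^ i - 1 := by
  have e1 : GL (Fin n) F ≃* ((Fin n → F) ≃ₗ[F] (Fin n → F)) :=
    (Matrix.GeneralLinearGroup.toLin).trans (LinearMap.GeneralLinearGroup.generalLinearEquiv F _)
  rw [← Nat.card_congr e1.toEquiv, Matrix.card_GL_field, Prime.dvd_finsetProd_iff hr.prime] at h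
  obtain ⟨i, -, hi⟩ := h
  have h1 : Fintype.card F ^ n - Fintype.card F ^ (i : ℕ) =
      Fintype.card F ^ (i : ℕ) * (Fintype.card F ^ (n - i) - 1) := by
    rw [Nat.mul_sub, ← pow_add, mul_one]
    congr 2
    omega
  rw [h1] at hi
  rcases hr.dvd_mul.mp hi with h2 | h2
  · exact absurd (hr.dvd_of_dvd_pow h2) hrq
  · exact ⟨n - i, by omega, by omega, h2⟩

theorem order_le_of_dvd {n a t r : ℕ} (ha : 0 < a) (hr : r.Prime) (hrq : ¬ r ∣ Fintype.card F)
    (h : r ∣ Nat.card (Dec F (Fin n → F) a t) / t.factorial) (h0 : Nat.card (Dec F (Fin n → F) a t) ≠ 0) :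
    orderOf ((Fintype.card F : ℕ) : ZMod r) ≤ n := by
  have h1 : r ∣ Nat.card (Dec F (Fin n → F) a t) := by
    obtain ⟨m, hm⟩ := factorial_dvd (F := F) (V := Fin n → F) ha t
    rw [hm, Nat.mul_div_cancel_left _ (Nat.factorial_pos t)] at h
    rw [hm]; exact h.mul_left _
  obtain ⟨i, hi, hin, hdvd⟩ := exists_dvd_of_dvd_GL hr hrq (h1.trans (card_dec_dvd a t h0))
  have := orderOf_dvd_of_dvd (Fintype.card_pos (α := F)) hdvd
  exact (Nat.le_of_dvd hi this).trans hin

end

section exist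

variable {F V : Type*} [Field F] [AddCommGroup V] [Module F V] [FiniteDimensional F V]

lemma imp_id {a t : ℕ} : ∀ {C : Submodule F V}, finrank F C = t * a → Imp (1 : Module.End F V) a C t := by
  induction t with
  | zero =>
    intro C hC
    rw [Nat.zero_mul] at hC
    rw [Submodule.finrank_eq_zero.mp hC]
    exact Imp.bot
  | succ t ih =>
    intro C hC
    obtain ⟨U, hU, hUa⟩ := exists_le_finrank_eq C a (by rw [hC, Nat.add_mul]; omega)
    obtain ⟨W0, hW0⟩ := Submodule.exists_isCompl U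
    have hs : U ⊔ W0 ⊓ C = C := by rw [← sup_inf_assoc_of_le W0 hU, hW0.sup_eq_top, top_inf_eq]
    have hd : Disjoint U (W0 ⊓ C) := hW0.disjoint.mono_right inf_le_left
    have e := Submodule.finrank_sup_add_finrank_inf_eq U (W0 ⊓ C)
    rw [hs, hd.eq_bot, finrank_bot, hUa, hC, Nat.add_mul] at e
    have h1 := ih (C := W0 ⊓ C) (by omega)
    have h2 : Imp (1 : Module.End F V) a U 1 := Imp.one (fun _ _ h => h) (fun _ h => h) hUa
    have h3 := h2.sup h1 hd
    rwa [hs, add_comm] at h3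

theorem dec_nonempty {a t : ℕ} (h : finrank F V = t * a) : Nonempty (Dec F V a t) := by
  obtain ⟨D, h1, h2, h3, -⟩ := (imp_id (a := a) (t := t) (C := (⊤ : Submodule F V)) (by rw [finrank_top, h])).final
  exact ⟨⟨D, h1, h2, h3⟩⟩

end exist

section

variable {F : Type*} [Field F] [Fintype F]

theorem order_le_of_dvd' {n a t r : ℕ} (ha : 0 < a) (hat : n = a * t) (hr : r.Prime) (hrq : ¬ r ∣ Fintype.card F)
    (h : r ∣ Nat.card (Dec F (Fin n → F) a t) / t.factorial) :
    orderOf ((Fintype.card F : ℕ) : ZMod r) ≤ n := by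
  have hne : Nonempty (Dec F (Fin n → F) a t) := dec_nonempty (by simp [hat, mul_comm])
  have hfin : Finite (Dec F (Fin n → F) a t) := Subtype.finite
  exact order_le_of_dvd ha hr hrq h Nat.card_pos.ne'

omit [Fintype F] in
/-- the number of decompositions, in the form of the statements -/
theorem card_mdec {n a t : ℕ} (ha : 1 ≤ a) (ht : 2 ≤ t) :
    Nat.card {D : Fin t → Submodule F (Fin n → F) // Cfsg.Geo.IsMDecomposition a D} =
      Nat.card (Dec F (Fin n → F) a t) := by
  apply Nat.card_congr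
  refine Equiv.subtypeEquivRight fun D => ⟨fun h => ⟨h.finrank_eq, h.indep, h.iSup_eq_top⟩,
    fun h => ⟨ht, ha, h.1, h.2.1, h.2.2⟩⟩

end

end Cfsg.Agent.Lib.ImpDec
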