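import Mathlib
import Cfsg.Agent.Lib.Dk2iH94
import Cfsg.Agent.Lib.QuadSum

set_option autoImplicit false
set_option linter.unusedSectionVars false
set_option linter.unusedSimpArgs false
set_option linter.unusedVariables false

/-!
Overgroups of stabilisers of orthogonal decompositions into planes: the second case.
-/

namespace Cfsg.Agent.Lib.Dk2H94

open QuadraticMap Module Cfsg.Agent.Lib.Quad Cfsg.Agent.Lib.OrthMax Cfsg.Agent.Lib.OrthNd
open Cfsg.Agent.Lib.OrthDecH94
open Cfsg.Agent.Lib.SLBlockH94 (Dec)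

variable {F V : Type*} [Field F] [AddCommGroup V] [Module F V] [FiniteDimensional F V]
  {Q : QuadraticForm F V} {M : Subgroup (V ≃ₗ[F] V)}
variable {κ : Type*} [Fintype κ] [DecidableEq κ]

theorem card5 [Finite F] (h2 : (2 : F) ≠ 0) (h4 : 4 ≤ Nat.card F) : 5 ≤ Nat.card F := by
  rcases Nat.lt_or_ge 4 (Nat.card F) with h5 | h5
  · exact h5
  · exfalso
    have h6 : Nat.card F = 4 := le_antisymm h5 h4
    have h7 : ((Nat.card F : ℕ) : F) = 0 := by
      have hFt := Fintype.ofFinite F
      rw [Nat.card_eq_fintype_card]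
      exact FiniteField.cast_card_eq_zero F
    rw [h6] at h7
    apply mul_ne_zero h2 h2
    rw [← h7]; norm_num

theorem gmul_map (g h : V ≃ₗ[F] V) (P : Submodule F V) :
    P.map ((g * h : V ≃ₗ[F] V) : V →ₗ[F] V) = (P.map (h : V →ₗ[F] V)).map (g : V →ₗ[F] V) := by
  rw [← Submodule.map_comp]; rfl

theorem one_map (P : Submodule F V) : P.map ((1 : V ≃ₗ[F] V) : V →ₗ[F] V) = P := by
  have : ((1 : V ≃ₗ[F] V) : V →ₗ[F] V) = LinearMap.id := rfl
  rw [this, Submodule.map_id]

namespace DK

variable {D : κ → Submodule F V} {pr : κ → V →ₗ[F] V} (S : DK Q D pr M)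

/-- the transported situation -/
theorem conj (S : DK Q D pr M) {m : V ≃ₗ[F] V} (hm : m ∈ M) :
    DK Q (fun i => (D i).map (m : V →ₗ[F] V)) (fun i => (m : V →ₗ[F] V) ∘ₗ pr i ∘ₗ ((m⁻¹ : V ≃ₗ[F] V) : V →ₗ[F] V)) M where
  hQ := S.hQ
  gen := S.gen
  n4 := S.n4
  dec := by
    have h1 : ∀ x, m⁻¹ (m x) = x := fun x => by rw [← LinearEquiv.mul_apply, inv_mul_cancel]; rfl
    have h2 : ∀ x, m (m⁻¹ x) = x := fun x => by rw [← LinearEquiv.mul_apply, mul_inv_cancel]; rfl
    constructor
    · intro i v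
      exact ⟨pr i (m⁻¹ v), S.dec.mem i _, rfl⟩
    · rintro i _ ⟨v, hv, rfl⟩
      show m (pr i (m⁻¹ (m v))) = m v
      rw [h1, S.dec.self i v hv]
    · rintro i j _ hij ⟨v, hv, rfl⟩
      show m (pr i (m⁻¹ (m v))) = 0
      rw [h1, S.dec.zero i j v hij hv, map_zero]
    · intro v
      show ∑ i, m (pr i (m⁻¹ v)) = v
      rw [← map_sum, S.dec.sum, h2]
  orth := by
    rintro i j hij _ ⟨x, hx, rfl⟩ _ ⟨y, hy, rfl⟩
    show polar Q (m x) (m y) = 0
    rw [O_polar (S.hMO hm)]
    exact S.orth i j hij x hx y hy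
  hMO := S.hMO
  dim i := by rw [LinearEquiv.finrank_map_eq]; exact S.dim i
  iso i j := by
    obtain ⟨e, he⟩ := S.iso i j
    refine ⟨(m.submoduleMap (D i)).symm.trans (e.trans (m.submoduleMap (D j))), fun w => ?_⟩
    obtain ⟨x, rfl⟩ := (m.submoduleMap (D i)).surjective w
    rw [LinearEquiv.trans_apply, LinearEquiv.trans_apply, LinearEquiv.symm_apply_apply]
    show Q (m (e x)) = Q (m x)
    rw [S.hMO hm, S.hMO hm, he]
  H g hg := by
    rintro ⟨σ, hσ⟩
    have h1 : m⁻¹ * g * m ∈ M := by
      refine S.H _ ?_ ⟨σ, fun i => ?_⟩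
      · have := Om_conj_mem hg (inv_mem (S.hMO hm))
        rwa [inv_inv] at this
      · have h2 := hσ i
        simp only at h2
        rw [gmul_map, gmul_map, h2, ← gmul_map, inv_mul_cancel, one_map]
    have h2 := mul_mem (mul_mem hm h1) (inv_mem hm)
    have h3 : m * (m⁻¹ * g * m) * m⁻¹ = g := by group
    rwa [h3] at h2

include S

/-- elements with small moved space permuting the blocks -/
theorem lemP (hd : ∀ i, finrank F (D i) = 2) {y : V ≃ₗ[F] V} (hy : y ∈ O Q) {σ : Equiv.Perm κ} (hσ : Pm D y σ)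
    {P : Submodule F V} (hP2 : finrank F P = 2) (hP : ∀ z, y z - z ∈ P) (hinj : ∀ p ∈ P, y (y p) = p → p = 0) :
    ∃ i, P = D i := by
  have hmap : ∀ i, ∀ z ∈ D i, y z ∈ D (σ i) := fun i z hz => by rw [← hσ i]; exact ⟨z, hz, rfl⟩
  by_cases hA : ∃ i, σ i ≠ i
  · exfalso
    obtain ⟨i, hi⟩ := hA
    have hTP : ∀ i, σ i ≠ i → ∀ p ∈ P, ∃ z ∈ D i, y z - z = p := by
      intro i hi p hp
      have hinj' : Function.Injective (((y : V →ₗ[F] V) - LinearMap.id) ∘ₗ (D i).subtype) := by
        rw [← LinearMap.ker_eq_bot, LinearMap.ker_eq_bot']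
        rintro ⟨z, hz⟩ h0
        have h1 : y z = z := sub_eq_zero.1 h0
        have h2 := hmap i z hz
        rw [h1] at h2
        have h3 := S.pr_self hz
        rw [S.pr_ne hi h2] at h3
        exact Subtype.ext h3.symm
      have h1 := LinearMap.finrank_range_of_inj hinj'
      have h2 : LinearMap.range (((y : V →ₗ[F] V) - LinearMap.id) ∘ₗ (D i).subtype) = P := by
        apply Submodule.eq_of_le_of_finrank_eq
        · rintro _ ⟨z, rfl⟩
          exact hP z
        · rw [h1, hP2, hd]
      rw [← h2] at hp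
      obtain ⟨z, hz⟩ := hp
      exact ⟨z, z.2, hz⟩
    obtain ⟨j, hj⟩ : ∃ j, j = σ i := ⟨_, rfl⟩
    have hij : i ≠ j := fun h => hi (by rw [← hj]; exact h.symm)
    have hσj : σ j ≠ j := fun h => hij (σ.injective (by rw [← hj, h]))
    obtain ⟨z, hz, hQz⟩ : ∃ z ∈ D i, z ≠ 0 := by
      by_contra hcon
      push Not at hcon
      have : D i = ⊥ := by rw [eq_bot_iff]; intro x hx; rw [Submodule.mem_bot]; exact hcon x hx
      have h2 := hd i
      rw [this, finrank_bot] at h2
      omega
    have hyz : y z ∈ D j := by rw [hj]; exact hmap i z hz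
    have hσji : σ j = i := by
      by_contra hne
      obtain ⟨z', hz', h1⟩ := hTP j hσj _ (hP z)
      have h2 := congrArg (pr i) h1
      rw [map_sub, map_sub, S.pr_ne hne (hmap j z' hz'), S.pr_ne hij.symm hz', S.pr_ne hij.symm hyz,
        S.pr_self hz] at h2
      apply hQz
      rw [sub_zero, zero_sub] at h2
      exact neg_eq_zero.1 h2.symm
    have hsq : ∀ z ∈ D i, y (y z) = z := by
      intro z hz
      have hyz : y z ∈ D j := by rw [hj]; exact hmap i z hz
      have hyyz : y (y z) ∈ D i := by rw [← hσji]; exact hmap j _ hyz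
      have h1 : y (y z) - z ∈ P := by
        have h2 := P.add_mem (hP (y z)) (hP z)
        rwa [sub_add_sub_cancel] at h2
      obtain ⟨z'', hz'', h2⟩ := hTP i hi _ h1
      have h3 := congrArg (pr j) h2
      have hyz'' : y z'' ∈ D j := by rw [hj]; exact hmap i z'' hz''
      rw [map_sub, map_sub, S.pr_self hyz'', S.pr_ne hij hz'', S.pr_ne hij hyyz, S.pr_ne hij hz, sub_zero, sub_zero] at h3
      have h4 : z'' = 0 := y.injective (by rw [h3, map_zero])
      rw [h4, map_zero, sub_zero] at h2
      exact sub_eq_zero.1 h2.symm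
    have h1 := hinj _ (hP z) (by rw [map_sub, map_sub, hsq z hz])
    have h2 := sub_eq_zero.1 h1
    rw [h2] at hyz
    have h3 := S.pr_self hz
    rw [S.pr_ne hij.symm hyz] at h3
    exact hQz h3.symm
  · push Not at hA
    have hfixD : ∀ i, ∀ z ∈ D i, y z ∈ D i := fun i z hz => by have := hmap i z hz; rwa [hA] at this
    obtain ⟨i, z0, hz0, hyz0⟩ : ∃ i, ∃ z ∈ D i, y z ≠ z := by
      by_contra hcon
      push Not at hcon
      have h1 : ∀ z, y z = z := by
        intro z
        conv_lhs => rw [← S.dec.sum z]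
        rw [map_sum]
        conv_rhs => rw [← S.dec.sum z]
        exact Finset.sum_congr rfl fun i _ => hcon i _ (S.dec.mem i z)
      have h2 : P = ⊥ := by
        rw [eq_bot_iff]
        intro p hp
        rw [Submodule.mem_bot]
        exact hinj p hp (by rw [h1, h1])
      rw [h2, finrank_bot] at hP2
      omega
    refine ⟨i, ?_⟩
    by_cases hle : P ≤ D i
    · exact Submodule.eq_of_le_of_finrank_eq hle (by rw [hP2, hd])
    exfalso
    have hlt : P ⊓ D i < P := by
      refine lt_of_le_of_ne inf_le_left fun h => hle ?_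
      rw [← h]; exact inf_le_right
    have hfr := Submodule.finrank_lt_finrank_of_lt hlt
    obtain ⟨p0, hp0⟩ : ∃ p, p = y z0 - z0 := ⟨_, rfl⟩
    have hp0P : p0 ∈ P ⊓ D i := by rw [hp0]; exact ⟨hP z0, (D i).sub_mem (hfixD i z0 hz0) hz0⟩
    have hp00 : p0 ≠ 0 := by rw [hp0]; exact sub_ne_zero.2 hyz0
    have hspan : P ⊓ D i = F ∙ p0 := by
      symm
      apply Submodule.eq_of_le_of_finrank_le
      · rw [Submodule.span_singleton_le_iff_mem]; exact hp0P
      · rw [finrank_span_singleton hp00]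
        omega
    have hmu : ∀ z ∈ D i, ∃ μ : F, y z = z + μ • p0 := by
      intro z hz
      have h1 : y z - z ∈ P ⊓ D i := ⟨hP z, (D i).sub_mem (hfixD i z hz) hz⟩
      rw [hspan] at h1
      obtain ⟨μ, hμ⟩ := Submodule.mem_span_singleton.1 h1
      exact ⟨μ, by rw [hμ]; abel⟩
    obtain ⟨μ, hμ⟩ := hmu p0 hp0P.2
    have hyp : y p0 = (1 + μ) • p0 := by rw [hμ, add_smul, one_smul]
    by_cases hQp : Q p0 = 0
    · obtain ⟨z, hz, -, hpz⟩ := exists_one_in S.hQ (S.nds i) bot_le hp0P.2 (by simpa using hp00)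
      obtain ⟨ν, hν⟩ := hmu z hz
      have h1 := O_polar hy p0 z
      rw [hyp, hν, polar_add_right, polar_smul_left, polar_smul_left, polar_smul_right, polar_self', hQp, hpz] at h1
      have h2 : 1 + μ = 1 := by
        simp only [smul_eq_mul, mul_one, mul_zero, add_zero] at h1
        exact h1
      rw [h2, one_smul] at hyp
      exact hp00 (hinj p0 hp0P.1 (by rw [hyp, hyp]))
    · have h1 := hy p0
      rw [hyp, Q_smul] at h1
      have h2 : (1 + μ) * (1 + μ) = 1 := mul_right_cancel₀ hQp (by rw [h1, one_mul])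
      exact hp00 (hinj p0 hp0P.1 (by rw [hyp, LinearEquiv.map_smul, hyp, smul_smul, h2, one_smul]))

/-- products of two reflections permuting the blocks -/
theorem lemG' (hd : ∀ i, finrank F (D i) = 2) {a b : V} (hQa : Q a ≠ 0) (hQb : Q b ≠ 0) (hab : a ∉ F ∙ b)
    {σ : Equiv.Perm κ} (hσ : Pm D (refl Q a * refl Q b) σ) : ∃ i j, ∀ l, l ≠ i → l ≠ j → pr l a = 0 := by
  obtain ⟨x, hx⟩ : ∃ x, x = refl Q a * refl Q b := ⟨_, rfl⟩
  rw [← hx] at hσ
  have hmap : ∀ i, ∀ z ∈ D i, x z ∈ D (σ i) := fun i z hz => by rw [← hσ i]; exact ⟨z, hz, rfl⟩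
  have hb0 : b ≠ 0 := by rintro rfl; exact hQb (QuadraticMap.map_zero Q)
  obtain ⟨P, hPdef⟩ : ∃ P, P = Submodule.span F {b, a} := ⟨_, rfl⟩
  have hP2 : finrank F P = 2 := by
    have hli : LinearIndependent F ![b, a] := by
      rw [LinearIndependent.pair_iff' hb0]
      intro t ht
      exact hab (Submodule.mem_span_singleton.2 ⟨t, ht⟩)
    have h1 := finrank_span_eq_card hli
    rw [Matrix.range_cons, Matrix.range_cons, Matrix.range_empty, Set.union_empty, Set.singleton_union,
      Fintype.card_fin] at h1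
    rw [hPdef, h1]
  have haP : a ∈ P := by rw [hPdef]; exact Submodule.subset_span (by simp)
  have hbP : b ∈ P := by rw [hPdef]; exact Submodule.subset_span (by simp)
  have hP : ∀ z, x z - z ∈ P := by
    intro z
    have h1 : x z - z = -((Q b)⁻¹ * polar Q b z) • b - ((Q a)⁻¹ * polar Q a (refl Q b z)) • a := by
      rw [hx, LinearEquiv.mul_apply, refl_apply hQa]
      conv_lhs => rw [refl_apply hQb z]
      rw [refl_apply hQb z]
      module
    rw [h1]
    exact P.sub_mem (P.smul_mem _ hbP) (P.smul_mem _ haP)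
  by_cases hA : ∃ i, σ i ≠ i
  · obtain ⟨i, hi⟩ := hA
    have hinj' : Function.Injective (((x : V →ₗ[F] V) - LinearMap.id) ∘ₗ (D i).subtype) := by
      rw [← LinearMap.ker_eq_bot, LinearMap.ker_eq_bot']
      rintro ⟨z, hz⟩ h0
      have h1 : x z = z := sub_eq_zero.1 h0
      have h2 := hmap i z hz
      rw [h1] at h2
      have h3 := S.pr_self hz
      rw [S.pr_ne hi h2] at h3
      exact Subtype.ext h3.symm
    have h1 := LinearMap.finrank_range_of_inj hinj'
    have h2 : LinearMap.range (((x : V →ₗ[F] V) - LinearMap.id) ∘ₗ (D i).subtype) = P := by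
      apply Submodule.eq_of_le_of_finrank_eq
      · rintro _ ⟨z, rfl⟩
        exact hP z
      · rw [h1, hP2, hd]
    rw [← h2] at haP
    obtain ⟨⟨z, hz⟩, hza⟩ := haP
    have hza' : x z - z = a := hza
    refine ⟨i, σ i, fun l h3 h4 => ?_⟩
    rw [← hza', map_sub, S.pr_ne h4.symm (hmap i z hz), S.pr_ne h3.symm hz, sub_zero]
  · push Not at hA
    have hfixD : ∀ i, ∀ z ∈ D i, x z ∈ D i := fun i z hz => by have := hmap i z hz; rwa [hA] at this
    -- `a` is moved
    obtain ⟨z, hz, haz⟩ := S.hQ.exists_polar_one (F ∙ b) hab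
    have hbz : polar Q b z = 0 := mem_perp.1 hz b (Submodule.mem_span_singleton_self b)
    have hxz : x z = z - (Q a)⁻¹ • a := by
      rw [hx, LinearEquiv.mul_apply, refl_of_perp hbz, refl_apply hQa, haz, mul_one]
    obtain ⟨w, hw⟩ : ∃ w, w = -(Q a) • z := ⟨_, rfl⟩
    have hxw : x w = w + a := by
      rw [hw, LinearEquiv.map_smul, hxz, smul_sub, smul_smul, neg_mul, mul_inv_cancel₀ hQa, neg_smul, neg_smul,
        one_smul, sub_neg_eq_add]
    have hcomm : ∀ l, pr l (x w) = x (pr l w) := by
      intro l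
      conv_lhs => rw [← S.dec.sum w]
      rw [map_sum, map_sum, Finset.sum_eq_single l]
      · exact S.pr_self (hfixD l _ (S.dec.mem l w))
      · intro m _ hm
        exact S.pr_ne hm (hfixD m _ (S.dec.mem m w))
      · intro h; exact absurd (Finset.mem_univ l) h
    have hprP : ∀ l, pr l a ∈ P := by
      intro l
      have h1 : pr l a = x (pr l w) - pr l w := by
        rw [← hcomm, hxw, map_add]; abel
      rw [h1]; exact hP _
    have ha0 : a ≠ 0 := by rintro rfl; exact hQa (QuadraticMap.map_zero Q)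
    obtain ⟨i, hi⟩ : ∃ i, pr i a ≠ 0 := by
      by_contra hcon
      push Not at hcon
      apply ha0
      rw [← S.dec.sum a]
      exact Finset.sum_eq_zero fun m _ => hcon m
    by_cases hj : ∃ j, j ≠ i ∧ pr j a ≠ 0
    · obtain ⟨j, hji, hj⟩ := hj
      have hli : LinearIndependent F ![pr i a, pr j a] := by
        rw [LinearIndependent.pair_iff' hi]
        intro t ht
        apply hj
        have h1 : pr j (t • pr i a) = 0 := by rw [map_smul, S.pr_ne hji.symm (S.dec.mem i a), smul_zero]
        rw [ht, S.pr_self (S.dec.mem j a)] at h1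
        exact h1
      have h1 := finrank_span_eq_card hli
      rw [Matrix.range_cons, Matrix.range_cons, Matrix.range_empty, Set.union_empty, Set.singleton_union,
        Fintype.card_fin] at h1
      have h2 : Submodule.span F {pr i a, pr j a} = P := by
        apply Submodule.eq_of_le_of_finrank_eq
        · rw [Submodule.span_le]
          rintro u (rfl | rfl)
          · exact hprP i
          · exact hprP j
        · rw [h1, hP2]
      rw [← h2] at haP
      obtain ⟨s, t, hst⟩ := Submodule.mem_span_pair.1 haP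
      refine ⟨i, j, fun l h3 h4 => ?_⟩
      conv_lhs => rw [← hst]
      rw [map_add, map_smul, map_smul, S.pr_ne h3.symm (S.dec.mem i a), S.pr_ne h4.symm (S.dec.mem j a), smul_zero,
        smul_zero, add_zero]
    · push Not at hj
      exact ⟨i, i, fun l h3 _ => hj l h3⟩

variable [Finite F]

/-- rotations -/
theorem exists_rot (hd : ∀ i, finrank F (D i) = 2) (ty : Ty Q D) (h4 : 4 ≤ Nat.card F ∨ (2 : F) = 0)
    {i : κ} {v : V} (hv : v ∈ D i) (hQv : Q v ≠ 0) :
    ∃ w ∈ D i, Q w = Q v ∧ w ∉ F ∙ v ∧ polar Q v w ≠ 0 := by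
  have hv0 : v ≠ 0 := by rintro rfl; exact hQv (QuadraticMap.map_zero Q)
  obtain ⟨g, hg, hug, hgu⟩ := S.exists_gen hv hv0
  have e1 : ∀ s, Q (g + s • v) = Q g + s + s * s * Q v := by
    intro s
    rw [Q_add, Q_smul, polar_smul_right, polar_comm Q g v, hug, smul_eq_mul]; ring
  obtain ⟨s, hs1, hs2, hs3⟩ : ∃ s, Q (g + s • v) ≠ 0 ∧ 1 + 2 * s * Q v ≠ 0 ∧
      2 * Q v * Q (g + s • v) - (1 + 2 * s * Q v) * (1 + 2 * s * Q v) ≠ 0 := by
    have hmem : ∀ s : F, g + s • v ≠ 0 := by
      intro s h3
      apply hgu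
      rw [Submodule.mem_span_singleton]
      exact ⟨-s, by rw [neg_smul]; exact neg_eq_of_add_eq_zero_left h3⟩
    by_cases h2 : (2 : F) = 0
    · simp only [h2, zero_mul, add_zero, mul_one, zero_sub]
      rcases ty with han | ⟨h7, -⟩
      · exact ⟨0, fun h3 => hmem 0 (han i _ ((D i).add_mem hg ((D i).smul_mem _ hv)) h3), one_ne_zero,
          neg_ne_zero.2 one_ne_zero⟩
      · obtain ⟨s, hs⟩ := exists_avoid (F := F) [(Q g, 1, Q v)] (by
          intro t ht
          simp only [List.mem_cons, List.not_mem_nil, or_false] at ht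
          rcases ht with rfl
          right; left; exact one_ne_zero) (by simp only [List.length_cons, List.length_nil]; omega)
        have a1 := hs (Q g, 1, Q v) (by simp)
        simp only at a1
        exact ⟨s, fun h3 => a1 (by rw [e1] at h3; linear_combination h3), one_ne_zero, neg_ne_zero.2 one_ne_zero⟩
    · have h4 : 5 ≤ Nat.card F := card5 h2 (h4.resolve_right h2)
      rcases ty with han | ⟨h7, -⟩
      · obtain ⟨s, hs⟩ := exists_avoid (F := F) [(1, 2 * Q v, 0),
          (2 * Q v * Q g - 1, -(2 * Q v), -(2 * Q v * Q v))] (by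
          intro t ht
          simp only [List.mem_cons, List.not_mem_nil, or_false] at ht
          rcases ht with rfl | rfl
          · left; exact one_ne_zero
          · right; left; exact neg_ne_zero.2 (mul_ne_zero h2 hQv)) (by
            simp only [List.length_cons, List.length_nil]; omega)
        have a1 := hs (1, 2 * Q v, 0) (by simp)
        have a2 := hs (2 * Q v * Q g - 1, -(2 * Q v), -(2 * Q v * Q v)) (by simp)
        simp only at a1 a2
        refine ⟨s, fun h3 => hmem s (han i _ ((D i).add_mem hg ((D i).smul_mem _ hv)) h3), ?_, ?_⟩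
        · intro h; apply a1; linear_combination h
        · intro h; apply a2; rw [e1] at h; linear_combination h
      · obtain ⟨s, hs⟩ := exists_avoid (F := F) [(Q g, 1, Q v), (1, 2 * Q v, 0),
          (2 * Q v * Q g - 1, -(2 * Q v), -(2 * Q v * Q v))] (by
          intro t ht
          simp only [List.mem_cons, List.not_mem_nil, or_false] at ht
          rcases ht with rfl | rfl | rfl
          · right; left; exact one_ne_zero
          · left; exact one_ne_zero
          · right; left; exact neg_ne_zero.2 (mul_ne_zero h2 hQv)) (by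
            simp only [List.length_cons, List.length_nil]; omega)
        have a0 := hs (Q g, 1, Q v) (by simp)
        have a1 := hs (1, 2 * Q v, 0) (by simp)
        have a2 := hs (2 * Q v * Q g - 1, -(2 * Q v), -(2 * Q v * Q v)) (by simp)
        simp only at a0 a1 a2
        refine ⟨s, ?_, ?_, ?_⟩
        · intro h; apply a0; rw [e1] at h; linear_combination h
        · intro h; apply a1; linear_combination h
        · intro h; apply a2; rw [e1] at h; linear_combination h
  obtain ⟨a, ha⟩ : ∃ a, a = g + s • v := ⟨_, rfl⟩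
  rw [← ha] at hs1 hs3
  have haD : a ∈ D i := by rw [ha]; exact (D i).add_mem hg ((D i).smul_mem _ hv)
  have havi : polar Q a v = 1 + 2 * s * Q v := by
    rw [ha, polar_add_left, polar_smul_left, polar_comm Q g v, hug, polar_self', smul_eq_mul]; ring
  have hamem : a ∉ F ∙ v := by
    intro h
    apply hgu
    have := Submodule.sub_mem _ h (Submodule.smul_mem _ s (Submodule.mem_span_singleton_self v))
    rwa [ha, add_sub_cancel_right] at this
  refine ⟨refl Q a v, S.refl_stab haD hv, refl_mem a v, ?_, ?_⟩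
  · intro h
    apply hamem
    rw [refl_apply hs1, havi] at h
    have h2 := Submodule.sub_mem _ (Submodule.mem_span_singleton_self v) h
    rwa [sub_sub_cancel, Submodule.smul_mem_iff _ (mul_ne_zero (inv_ne_zero hs1) hs2)] at h2
  · intro h0
    rw [refl_apply hs1, polar_sub_right, polar_smul_right, polar_comm Q v a, havi, polar_self', smul_eq_mul] at h0
    apply hs3
    have := congrArg (fun x => Q a * x) h0
    simp only [mul_zero, mul_sub] at this
    field_simp at this
    linear_combination this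

/-- rotations with moved space a block -/
theorem exists_rot2 (hd : ∀ i, finrank F (D i) = 2) (ty : Ty Q D) (h4 : 4 ≤ Nat.card F ∨ (2 : F) = 0)
    (i : κ) : ∃ b ∈ D i, ∃ b' ∈ D i, Q b ≠ 0 ∧ Q b' = Q b ∧
      ∀ p ∈ D i, (refl Q b * refl Q b') ((refl Q b * refl Q b') p) = p → p = 0 := by
  obtain ⟨b, hb, hQb⟩ := S.exists_nonsing_in i
  obtain ⟨b', hb', hQb', hbb', hpol⟩ := S.exists_rot hd ty h4 hb hQb
  have hb0 : b ≠ 0 := by rintro rfl; exact hQb (QuadraticMap.map_zero Q)
  have hQb'0 : Q b' ≠ 0 := by rw [hQb']; exact hQb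
  refine ⟨b, hb, b', hb', hQb, hQb', fun p hp hpp => ?_⟩
  obtain ⟨μ, hμ⟩ : ∃ μ, μ = (Q b)⁻¹ * polar Q b b' := ⟨_, rfl⟩
  have hμ0 : μ ≠ 0 := by rw [hμ]; exact mul_ne_zero (inv_ne_zero hQb) hpol
  have hB : polar Q b b' = μ * Q b := by rw [hμ]; field_simp
  have r1 : refl Q b' b = b - μ • b' := by
    rw [refl_apply hQb'0, hQb', polar_comm, ← hμ]
  have r2 : refl Q b b' = b' - μ • b := by rw [refl_apply hQb, ← hμ]
  have h1 : refl Q b (refl Q b' p) = refl Q b' (refl Q b p) := by
    rw [LinearEquiv.mul_apply, LinearEquiv.mul_apply] at hpp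
    have := congrArg (fun x => refl Q b' (refl Q b x)) hpp
    simp only [refl_refl] at this
    exact this
  obtain ⟨s, t, rfl⟩ := S.span2 hd hb hb0 hb' hbb' hp
  simp only [map_add, LinearEquiv.map_smul, refl_self hQb, refl_self hQb'0, r1, r2, map_sub, map_neg] at h1
  have h2 : (s * (μ * μ) + 2 * (t * μ)) • b + (-(2 * (s * μ)) - t * (μ * μ)) • b' = 0 := by
    rw [← sub_eq_zero] at h1
    rw [← h1]
    module
  have hindep : ∀ α β : F, α • b + β • b' = 0 → α = 0 ∧ β = 0 := by
    intro α β hαβ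
    have hβ : β = 0 := by
      by_contra hne
      apply hbb'
      rw [Submodule.mem_span_singleton]
      refine ⟨-(β⁻¹ * α), ?_⟩
      have h3 := congrArg (fun x => β⁻¹ • x) hαβ
      simp only [smul_add, smul_smul, inv_mul_cancel₀ hne, one_smul, smul_zero] at h3
      rw [neg_smul]
      exact neg_eq_of_add_eq_zero_right h3
    rw [hβ, zero_smul, add_zero] at hαβ
    exact ⟨(smul_eq_zero.1 hαβ).resolve_right hb0, hβ⟩
  obtain ⟨h3, h5⟩ := hindep _ _ h2
  have h3' : s * μ + 2 * t = 0 := by
    apply (mul_eq_zero.1 (show μ * (s * μ + 2 * t) = 0 by linear_combination h3)).resolve_left hμ0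
  have h5' : 2 * s + t * μ = 0 := by
    apply (mul_eq_zero.1 (show μ * (2 * s + t * μ) = 0 by linear_combination -h5)).resolve_left hμ0
  have hμ4 : μ * μ - 4 ≠ 0 := by
    intro h6
    by_cases h2 : (2 : F) = 0
    · have h7 : μ * μ = 0 := by linear_combination h6 + 2 * h2
      exact hμ0 (mul_self_eq_zero.1 h7)
    · have h7 : (μ - 2) * (μ + 2) = 0 := by linear_combination h6
      have h8 : ∃ ε : F, ε * ε = 1 ∧ μ = 2 * ε := by
        rcases mul_eq_zero.1 h7 with h8 | h8
        · exact ⟨1, by ring, by linear_combination h8⟩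
        · exact ⟨-1, by ring, by linear_combination h8⟩
      obtain ⟨ε, hε, hμε⟩ := h8
      have h9 : b - ε • b' ∈ D i ⊓ perp Q (D i) := by
        refine ⟨(D i).sub_mem hb ((D i).smul_mem _ hb'), mem_perp'.2 fun x hx => ?_⟩
        obtain ⟨α, β, rfl⟩ := S.span2 hd hb hb0 hb' hbb' hx
        simp only [polar_add_right, polar_sub_left, polar_smul_left, polar_smul_right, polar_self',
          polar_comm Q b' b, hB, hQb', hμε, smul_eq_mul]
        linear_combination (-2 * α * Q b) * hε
      rw [S.nds i, Submodule.mem_bot] at h9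
      have h10 := hindep 1 (-ε) (by rw [one_smul, neg_smul, ← sub_eq_add_neg]; exact h9)
      exact one_ne_zero h10.1
  have hs : s = 0 := by
    apply (mul_eq_zero.1 (show (μ * μ - 4) * s = 0 by linear_combination μ * h3' - 2 * h5')).resolve_left hμ4
  have ht : t = 0 := by
    apply (mul_eq_zero.1 (show (μ * μ - 4) * t = 0 by linear_combination μ * h5' - 2 * h3')).resolve_left hμ4
  rw [hs, ht]; simp

end DK

end Cfsg.Agent.Lib.Dk2H94
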