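import Mathlib
import Cfsg.Agent.Lib.Dk2jH94

set_option autoImplicit false
set_option linter.unusedSectionVars false
set_option linter.unusedSimpArgs false
set_option linter.unusedVariables false

/-!
Overgroups of stabilisers of orthogonal decompositions into planes: conclusion.
-/

namespace Cfsg.Agent.Lib.Dk2H94

open QuadraticMap Module Cfsg.Agent.Lib.Quad Cfsg.Agent.Lib.OrthMax Cfsg.Agent.Lib.OrthNd
open Cfsg.Agent.Lib.OrthDecH94
open Cfsg.Agent.Lib.SLBlockH94 (Dec)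

variable {F V : Type*} [Field F] [Finite F] [AddCommGroup V] [Module F V] [FiniteDimensional F V]
  {Q : QuadraticForm F V} {M : Subgroup (V ≃ₗ[F] V)}
variable {κ : Type*} [Fintype κ] [DecidableEq κ]

/-- elements of `M` preserving the class of a vector in a block permute the blocks -/
def II (Q : QuadraticForm F V) (D : κ → Submodule F V) (M : Subgroup (V ≃ₗ[F] V)) : Prop :=
  ∀ g ∈ M, ∀ i, ∀ a ∈ D i, Q a ≠ 0 → ∀ j, g a ∈ D j → ∃ σ : Equiv.Perm κ, Pm D g σ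

theorem sc_of_isSquare {a b : V} (ha : Q a ≠ 0) (hb : Q b ≠ 0) (h : IsSquare (Q a * Q b)) : sc Q a b := by
  obtain ⟨r, hr⟩ := h
  refine ⟨r * (Q b)⁻¹, mul_ne_zero ?_ (inv_ne_zero hb), ?_⟩
  · rintro rfl
    rw [mul_zero] at hr
    exact mul_ne_zero ha hb hr
  · field_simp
    linear_combination hr

namespace DK

variable {D : κ → Submodule F V} {pr : κ → V →ₗ[F] V} (S : DK Q D pr M)
include S

theorem exists_II (hd : ∀ i, finrank F (D i) = 2) (ty : Ty Q D) (h4 : 4 ≤ Nat.card F ∨ (2 : F) = 0)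
    (h7 : 7 ≤ Fintype.card κ) (hM : ¬ Om Q ≤ M) : II Q D M := by
  intro g hg i a ha hQa j hga
  have hQga : Q (g a) ≠ 0 := by rw [S.hMO hg]; exact hQa
  have hkey : ∀ l, ∀ b ∈ D l, Q b = Q a → ∃ p, g b ∈ D p := by
    intro l b hb hQb
    by_contra hcon
    push Not at hcon
    refine hM (S.caseI hd ty h4 h7 (a0 := g a) (v := g b) (i0 := j) hga hQga ⟨?_, ?_⟩ hcon)
    · rw [S.hMO hg, hQb]; exact hQa
    · have h1 := mul_mem (mul_mem hg (S.pair_same hb ha (by rw [hQb]; exact hQa) hQb.symm)) (inv_mem hg)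
      have h2 : g * (refl Q b * refl Q a) * g⁻¹ = refl Q (g b) * refl Q (g a) := by
        rw [← refl_conj (S.hMO hg), ← refl_conj (S.hMO hg)]
        group
      rwa [h2] at h1
  have hkey2 : ∀ l, ∃ p, (D l).map (g : V →ₗ[F] V) = D p := by
    intro l
    obtain ⟨b, hb, hQb⟩ := S.exists_same i l ha
    have hQb0 : Q b ≠ 0 := by rw [hQb]; exact hQa
    have hb0 : b ≠ 0 := by rintro rfl; exact hQb0 (QuadraticMap.map_zero Q)
    obtain ⟨b', hb', hQb', hbb', hpol⟩ := S.exists_rot hd ty h4 hb hQb0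
    obtain ⟨p, hp⟩ := hkey l b hb hQb
    obtain ⟨p', hp'⟩ := hkey l b' hb' (by rw [hQb', hQb])
    have hpp : p = p' := by
      by_contra hne
      apply hpol
      rw [← O_polar (S.hMO hg)]
      exact S.orth p p' hne _ hp _ hp'
    subst hpp
    refine ⟨p, ?_⟩
    apply Submodule.eq_of_le_of_finrank_eq
    · rintro _ ⟨x, hx, rfl⟩
      obtain ⟨s, t, rfl⟩ := S.span2 hd hb hb0 hb' hbb' hx
      rw [LinearEquiv.coe_coe, map_add, LinearEquiv.map_smul, LinearEquiv.map_smul]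
      exact (D p).add_mem ((D p).smul_mem _ hp) ((D p).smul_mem _ hp')
    · rw [LinearEquiv.finrank_map_eq, hd, hd]
  choose τ hτ using hkey2
  have hinj : Function.Injective τ := by
    intro l l' hll
    by_contra hne
    have h1 : (D l).map (g : V →ₗ[F] V) = (D l').map (g : V →ₗ[F] V) := by rw [hτ, hτ, hll]
    have h2 : D l = D l' := Submodule.map_injective_of_injective g.injective h1
    obtain ⟨b, hb, hQb⟩ := S.exists_nonsing_in l
    have h3 := S.pr_self hb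
    rw [h2] at hb
    rw [S.pr_ne (Ne.symm hne) hb] at h3
    rw [← h3, QuadraticMap.map_zero] at hQb
    exact hQb rfl
  exact ⟨Equiv.ofBijective τ ⟨hinj, Finite.surjective_of_injective hinj⟩, fun l => hτ l⟩

/-- singular vectors of a plane -/
theorem prop3 (hd : ∀ i, finrank F (D i) = 2) {i : κ} {x1 x2 x3 : V} (h1 : x1 ∈ D i) (h2 : x2 ∈ D i) (h3 : x3 ∈ D i)
    (h10 : x1 ≠ 0) (h20 : x2 ≠ 0) (h30 : x3 ≠ 0) (hQ1 : Q x1 = 0) (hQ2 : Q x2 = 0) (hQ3 : Q x3 = 0) :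
    x2 ∈ F ∙ x1 ∨ x3 ∈ F ∙ x1 ∨ x3 ∈ F ∙ x2 := by
  by_cases h21 : x2 ∈ F ∙ x1
  · exact Or.inl h21
  right
  obtain ⟨s, t, rfl⟩ := S.span2 hd h1 h10 h2 h21 h3
  have h12 : polar Q x1 x2 ≠ 0 := by
    intro h0
    have h4 : x1 ∈ D i ⊓ perp Q (D i) := by
      refine ⟨h1, mem_perp'.2 fun x hx => ?_⟩
      obtain ⟨s, t, rfl⟩ := S.span2 hd h1 h10 h2 h21 hx
      rw [polar_add_right, polar_smul_right, polar_smul_right, h0, polar_self', hQ1]; simp
    rw [S.nds i, Submodule.mem_bot] at h4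
    exact h10 h4
  rw [Q_add, Q_smul, Q_smul, hQ1, hQ2, polar_smul_left, polar_smul_right] at hQ3
  have h5 : s * t * polar Q x1 x2 = 0 := by
    simp only [smul_eq_mul, mul_zero, zero_add] at hQ3
    linear_combination hQ3
  rcases mul_eq_zero.1 ((mul_eq_zero.1 h5).resolve_right h12) with h6 | h6
  · right
    rw [h6, zero_smul, zero_add]
    exact Submodule.smul_mem _ _ (Submodule.mem_span_singleton_self x2)
  · left
    rw [h6, zero_smul, add_zero]
    exact Submodule.smul_mem _ _ (Submodule.mem_span_singleton_self x1)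

/-- torus elements -/
theorem torus (h7 : 7 ≤ Nat.card F) {i : κ} {e : V} (heD : e ∈ D i) (he0 : e ≠ 0) (hQi : Q e = 0) :
    ∃ x ∈ M, ∃ c : F, c ≠ 0 ∧ ∀ v (s : F), pr i v = s • e → x v = v + (c * s) • e := by
  obtain ⟨f, hf, hef, hQf⟩ : ∃ f ∈ D i, polar Q e f = 1 ∧ Q f = 0 := by
    obtain ⟨f, hf, -, hef⟩ := exists_one_in S.hQ (S.nds i) bot_le heD (by simpa using he0)
    refine ⟨f - Q f • e, (D i).sub_mem hf ((D i).smul_mem _ heD), ?_, ?_⟩
    · rw [polar_sub_right, polar_smul_right, polar_self', hQi, hef]; simp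
    · rw [Q_sub, Q_smul, hQi, polar_smul_right, polar_comm Q f e, hef]; simp
  obtain ⟨c, hc0, hc1, hcc⟩ := exists_scalar (F := F) (by omega)
  have hfe : polar Q f e = 1 := by rw [polar_comm]; exact hef
  have hb : e + f ∈ D i := (D i).add_mem heD hf
  have hb' : e + (c * c) • f ∈ D i := (D i).add_mem heD ((D i).smul_mem _ hf)
  have hQb : Q (e + f) = 1 := by rw [Q_add, hQi, hQf, hef]; simp
  have hQb' : Q (e + (c * c) • f) = c * c := by
    rw [Q_add, Q_smul, hQi, hQf, polar_smul_right, hef]; simp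
  have hQb0 : Q (e + f) ≠ 0 := by rw [hQb]; exact one_ne_zero
  have hQb0' : Q (e + (c * c) • f) ≠ 0 := by rw [hQb']; exact mul_ne_zero hc0 hc0
  refine ⟨refl Q (e + f) * refl Q (e + (c * c) • f),
    S.refl_pair hb hb' hQb0 (sc.symm ⟨c, hc0, by rw [hQb, hQb', mul_one]⟩), c * c - 1, sub_ne_zero.2 hcc, ?_⟩
  intro v s hs
  have hpe : ∀ b ∈ D i, polar Q b v = s * polar Q b e := by
    intro b hb
    rw [← S.polar_pr' hb, hs, polar_smul_right, smul_eq_mul]
  have h1 : refl Q (e + (c * c) • f) v = v - s • e - (s * (c * c)) • f := by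
    rw [refl_apply hQb0', hpe _ hb', hQb', polar_add_left, polar_smul_left, polar_self', hQi, hfe, smul_eq_mul]
    have : (c * c)⁻¹ * (s * (2 * 0 + c * c * 1)) = s := by field_simp; ring
    rw [this]
    module
  rw [LinearEquiv.mul_apply, h1, refl_apply hQb0, hQb, polar_sub_right, polar_sub_right, hpe _ hb, polar_smul_right,
    polar_smul_right, polar_add_left, polar_add_left, polar_self', hQi, hfe, hef, polar_self', hQf, smul_eq_mul,
    smul_eq_mul]
  module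

/-- two reflection vectors outside the blocks -/
theorem finish2 (hd : ∀ i, finrank F (D i) = 2) (ty : Ty Q D) (h5 : 5 ≤ Fintype.card κ) (h7 : 7 ≤ Nat.card F) {i : κ}
    {w1 w2 : V} (hw : polar Q w1 w2 = 0) (hQ1 : Q w1 ≠ 0) (hQ2 : Q w2 = Q w1) (hrr : refl Q w1 * refl Q w2 ∈ M)
    (hind : ∀ s : F, w1 + s • w2 ≠ 0)
    (h1 : pr i w1 ≠ 0) (hQi : Q (pr i w1) = 0) (h2 : pr i w2 ∈ F ∙ (pr i w1)) (h20 : pr i w2 ≠ 0) : Om Q ≤ M := by
  obtain ⟨s, hs⟩ := Submodule.mem_span_singleton.1 h2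
  obtain ⟨e, he⟩ : ∃ e, e = pr i w1 := ⟨_, rfl⟩
  have heD : e ∈ D i := by rw [he]; exact S.dec.mem i w1
  rw [← he] at h1 hQi h2 hs
  have hs0 : s ≠ 0 := by rintro rfl; rw [zero_smul] at hs; exact h20 hs.symm
  obtain ⟨x, hx, c, hc, hxv⟩ := S.torus h7 heD h1 hQi
  have hx1 := hxv w1 1 (by rw [one_smul, he])
  have hx2 := hxv w2 s hs.symm
  rw [mul_one] at hx1
  have hQ20 : Q w2 ≠ 0 := by rw [hQ2]; exact hQ1
  have hew1 : polar Q e w1 = 0 := by rw [← S.polar_pr' heD, ← he, polar_self', hQi, mul_zero]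
  have hew2 : polar Q e w2 = 0 := by
    rw [← S.polar_pr' heD, ← hs, polar_smul_right, polar_self', hQi, mul_zero, smul_zero]
  obtain ⟨d, hd'⟩ : ∃ d, d = c • e := ⟨_, rfl⟩
  have hQd : Q d = 0 := by rw [hd', Q_smul, hQi, mul_zero]
  obtain ⟨y1, hy1⟩ : ∃ y, y = (Q w1)⁻¹ • w1 := ⟨_, rfl⟩
  obtain ⟨y2, hy2⟩ : ∃ y, y = (Q w1)⁻¹ • w2 := ⟨_, rfl⟩
  have hdy1 : polar Q d y1 = 0 := by
    rw [hd', hy1, polar_smul_left, polar_smul_right, hew1]; simp
  have hdy2 : polar Q d y2 = 0 := by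
    rw [hd', hy2, polar_smul_left, polar_smul_right, hew2]; simp
  have hdsy2 : polar Q d (s • y2) = 0 := by rw [polar_smul_right, hdy2, smul_zero]
  have hQsd : Q (s • d) = 0 := by rw [Q_smul, hQd, mul_zero]
  have hsdy2 : polar Q (s • d) y2 = 0 := by rw [polar_smul_left, hdy2, smul_zero]
  have hQy1 : Q y1 = (Q w1)⁻¹ := by rw [hy1, Q_smul, mul_assoc, inv_mul_cancel₀ hQ1, mul_one]
  have hQy2 : Q y2 = (Q w1)⁻¹ := by rw [hy2, Q_smul, hQ2, mul_assoc, inv_mul_cancel₀ hQ1, mul_one]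
  have e1 : sieg S.hQ hQd hdy1 = refl Q w1 * refl Q (x w1) := by
    rw [sieg_eq_refl S.hQ hQd hdy1 (by rw [hQy1]; exact inv_ne_zero hQ1), hQy1, hy1, ← smul_add,
      refl_smul (inv_ne_zero hQ1), refl_smul (inv_ne_zero hQ1), hx1, hd']
  have e2 : sieg S.hQ hQsd hsdy2 = refl Q w2 * refl Q (x w2) := by
    rw [sieg_eq_refl S.hQ hQsd hsdy2 (by rw [hQy2]; exact inv_ne_zero hQ1), hQy2, hy2, ← smul_add,
      refl_smul (inv_ne_zero hQ1), refl_smul (inv_ne_zero hQ1), hx2, hd', smul_smul, mul_comm s c]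
  have e3 : sieg S.hQ hQsd hsdy2 = sieg S.hQ hQd hdsy2 := by
    ext v
    rw [sieg_apply, sieg_apply, Q_smul, polar_smul_left, polar_smul_left, smul_eq_mul, smul_eq_mul]
    module
  have e4 : refl Q w2 * sieg S.hQ hQd hdy1 * (refl Q w2)⁻¹ = sieg S.hQ hQd hdy1 := by
    ext v
    have h3 : refl Q w2 d = d := refl_of_perp (by rw [hd', polar_smul_right, polar_comm, hew2, smul_zero])
    have h4 : refl Q w2 y1 = y1 := refl_of_perp (by rw [hy1, polar_smul_right, polar_comm, hw, smul_zero])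
    rw [refl_inv, LinearEquiv.mul_apply, LinearEquiv.mul_apply, sieg_apply, sieg_apply, map_sub, map_sub, map_add,
      LinearEquiv.map_smul, LinearEquiv.map_smul, LinearEquiv.map_smul, refl_refl, h3, h4]
    have h5 : ∀ u, refl Q w2 u = u → polar Q u (refl Q w2 v) = polar Q u v := by
      intro u hu
      conv_lhs => rw [← hu]
      exact O_polar (refl_mem w2) u v
    rw [h5 d h3, h5 y1 h4]
  have hconj : x * (refl Q w1 * refl Q w2) * x⁻¹ = refl Q (x w1) * refl Q (x w2) := by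
    rw [← refl_conj (S.hMO hx), ← refl_conj (S.hMO hx)]
    group
  have hg : (refl Q w1 * refl Q w2)⁻¹ * (x * (refl Q w1 * refl Q w2) * x⁻¹) ∈ M :=
    mul_mem (inv_mem hrr) (mul_mem (mul_mem hx hrr) (inv_mem hx))
  have hg2 : (refl Q w1 * refl Q w2)⁻¹ * (x * (refl Q w1 * refl Q w2) * x⁻¹) =
      sieg S.hQ hQd hdy1 * sieg S.hQ hQd hdsy2 := by
    rw [hconj, ← e3, e2]
    conv_rhs => rw [← e4, e1]
    rw [mul_inv_rev, refl_inv, refl_inv]
    have h3 := refl_mul_self (Q := Q) w2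
    calc refl Q w2 * refl Q w1 * (refl Q (x w1) * refl Q (x w2))
        = refl Q w2 * (refl Q w1 * refl Q (x w1)) * 1 * refl Q (x w2) := by group
      _ = refl Q w2 * (refl Q w1 * refl Q (x w1)) * (refl Q w2 * refl Q w2) * refl Q (x w2) := by rw [h3]
      _ = _ := by group
  rw [hg2, sieg_mul] at hg
  have hSI : SI Q M d (y1 + s • y2) := ⟨_, hg, fun v => by rw [sieg_apply, siegMap_apply]⟩
  -- a nonzero component
  obtain ⟨l, hli, hl⟩ : ∃ l, l ≠ i ∧ pr l (y1 + s • y2) ≠ 0 := by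
    by_contra hcon
    push Not at hcon
    have h3 := S.eq_of_pr hcon
    have h4 := S.pr_self h3
    rw [map_add, map_smul, hy1, hy2, map_smul, map_smul, ← he, ← hs] at h4
    have h6 : (Q w1)⁻¹ • w1 + s • (Q w1)⁻¹ • w2 = ((Q w1)⁻¹ * (1 + s * s)) • e := by
      rw [← h4]; module
    have h7 := congrArg Q h6
    rw [Q_smul, hQi, mul_zero, Q_add, Q_smul, Q_smul, Q_smul, hQ2] at h7
    simp only [polar_smul_left, polar_smul_right, hw, smul_zero, add_zero] at h7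
    have h8 : 1 + s * s = 0 := by
      apply (mul_eq_zero.1 (show ((Q w1)⁻¹ * (Q w1)⁻¹ * Q w1) * (1 + s * s) = 0 by linear_combination h7)).resolve_left
      exact mul_ne_zero (mul_ne_zero (inv_ne_zero hQ1) (inv_ne_zero hQ1)) hQ1
    rw [h8, mul_zero, zero_smul] at h6
    apply hind s
    have h9 := congrArg (fun u => Q w1 • u) h6
    simp only [smul_add, smul_zero, smul_smul, mul_inv_cancel₀ hQ1, one_smul] at h9
    rw [← h9]
    congr 2
    field_simp
  obtain ⟨j, hji, hjl, -, -⟩ := S.exists_index4 h5 i l l l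
  refine S.st3 hd ty h5 hji.symm hli.symm hjl (by rw [hd']; exact smul_ne_zero hc h1) hQd ?_ ?_ hSI hl
  · intro m hm _
    rw [hd', map_smul, S.pr_ne hm.symm heD, smul_zero]
  · rw [polar_add_right, hdy1, hdsy2, add_zero]

/-- the second case -/
theorem caseII (hd : ∀ i, finrank F (D i) = 2) (ty : Ty Q D) (h4 : 4 ≤ Nat.card F ∨ (2 : F) = 0)
    (h7 : 7 ≤ Fintype.card κ) {E : κ → Submodule F V} {pr' : κ → V →ₗ[F] V} (T : DK Q E pr' M)
    (hd' : ∀ i, finrank F (E i) = 2) (ty' : Ty Q E) (hII : II Q D M) (hII' : II Q E M)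
    (hDE : ∀ i j, D i ≠ E j) : Om Q ≤ M := by
  by_contra hM
  have h5 : 5 ≤ Fintype.card κ := by omega
  -- no vector of the first system is orthogonal to a block of the second
  have lemF : ∀ i, ∀ a ∈ D i, Q a ≠ 0 → ∀ l, pr' l a ≠ 0 := by
    intro i a ha hQa l hl
    obtain ⟨b, hb, b', hb', hQb, hQb', hinj⟩ := T.exists_rot2 hd' ty' h4 l
    have hy := T.pair_same hb hb' hQb hQb'
    have hya : (refl Q b * refl Q b') a = a := by
      rw [LinearEquiv.mul_apply, T.fix_of_pr hb' hl, T.fix_of_pr hb hl]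
    obtain ⟨σ, hσ⟩ := hII _ hy i a ha hQa i (by rw [hya]; exact ha)
    obtain ⟨j, hj⟩ := S.lemP hd (S.hMO hy) hσ (P := E l) (hd' l) (by
      intro z
      have hQb'0 : Q b' ≠ 0 := by rw [hQb']; exact hQb
      have h1 : (refl Q b * refl Q b') z - z =
          -((Q b')⁻¹ * polar Q b' z) • b' - ((Q b)⁻¹ * polar Q b (refl Q b' z)) • b := by
        rw [LinearEquiv.mul_apply, refl_apply hQb]
        conv_lhs => rw [refl_apply hQb'0 z]
        rw [refl_apply hQb'0 z]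
        module
      rw [h1]
      exact (E l).sub_mem ((E l).smul_mem _ hb') ((E l).smul_mem _ hb)) hinj
    exact hDE j l hj.symm
  have lemG : ∀ i j l, ∀ a ∈ D i, ∀ b ∈ D j, ∀ w ∈ E l, Q a ≠ 0 → sc Q a b → a ∉ F ∙ b → Q w ≠ 0 →
      polar Q a w = 0 → polar Q b w = 0 → False := by
    intro i j l a ha b hb w hw hQa hab hmem hQw haw hbw
    have hx := S.refl_pair ha hb hQa hab
    have hQb : Q b ≠ 0 := by
      obtain ⟨r, hr, hr'⟩ := hab
      intro h0
      rw [h0, mul_zero] at hr'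
      exact hQa hr'
    have hxw : (refl Q a * refl Q b) w = w := by
      rw [LinearEquiv.mul_apply, refl_of_perp hbw, refl_of_perp haw]
    obtain ⟨σ, hσ⟩ := hII' _ hx l w hw hQw l (by rw [hxw]; exact hw)
    obtain ⟨i', j', hij⟩ := T.lemG' hd' hQa hQb hmem hσ
    obtain ⟨m, hm1, hm2, -, -⟩ := T.exists_index4 h5 i' j' j' j'
    exact lemF i a ha hQa m (hij m hm1 hm2)
  have hcomp : ∀ l, ∀ w ∈ E l, Q w ≠ 0 → ∀ i, pr i w ≠ 0 := by
    intro l w hw hQw i hi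
    obtain ⟨b, hb, hQb⟩ := S.exists_nonsing_in i
    obtain ⟨b', hb', hQb', hbb'⟩ := S.two_same ty hb hQb
    have h1 := S.pr_zero_iff.1 hi
    exact lemG i i l b' hb' b hb w hw (by rw [hQb']; exact hQb) ⟨1, one_ne_zero, by rw [hQb']; ring⟩ hbb' hQw
      (by rw [polar_comm]; exact h1 b' hb') (by rw [polar_comm]; exact h1 b hb)
  have horth : ∀ i w, Q (pr i w) ≠ 0 → ∃ a ∈ D i, Q a ≠ 0 ∧ polar Q a w = 0 := by
    intro i w h0
    by_cases h2 : (2 : F) = 0
    · refine ⟨pr i w, S.dec.mem i w, h0, ?_⟩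
      rw [← S.polar_pr' (S.dec.mem i w), polar_self', h2, zero_mul]
    · obtain ⟨c, hc, hbc, -, -, hQc⟩ := S.exists_orth h2 (S.dec.mem i w) h0
      exact ⟨c, hc, hQc (hd i), by rw [← S.polar_pr' hc, polar_comm]; exact hbc⟩
  have hthree : ∀ l, ∀ w ∈ E l, Q w ≠ 0 → ∀ i j k, i ≠ j → i ≠ k → j ≠ k → Q (pr i w) ≠ 0 → Q (pr j w) ≠ 0 →
      Q (pr k w) ≠ 0 → False := by
    intro l w hw hQw i j k hij hik hjk hi hj hk
    obtain ⟨a, ha, hQa, haw⟩ := horth i w hi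
    obtain ⟨b, hb, hQb, hbw⟩ := horth j w hj
    obtain ⟨c, hc, hQc, hcw⟩ := horth k w hk
    have hnm : ∀ i j, i ≠ j → ∀ a ∈ D i, ∀ b ∈ D j, Q a ≠ 0 → a ∉ F ∙ b := by
      intro i j hij a ha b hb hQa hm
      obtain ⟨t, rfl⟩ := Submodule.mem_span_singleton.1 hm
      have h1 := S.pr_self ha
      rw [S.pr_ne (Ne.symm hij) ((D j).smul_mem _ hb)] at h1
      rw [← h1, QuadraticMap.map_zero] at hQa
      exact hQa rfl
    by_cases s1 : IsSquare (Q a * Q b)
    · exact lemG i j l a ha b hb w hw hQa (sc_of_isSquare hQa hQb s1) (hnm i j hij a ha b hb hQa) hQw haw hbw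
    by_cases s2 : IsSquare (Q a * Q c)
    · exact lemG i k l a ha c hc w hw hQa (sc_of_isSquare hQa hQc s2) (hnm i k hik a ha c hc hQa) hQw haw hcw
    have s3 : IsSquare (Q b * Q c) := by
      obtain ⟨r, hr⟩ := isSquare_mul_of_not_isSquare s1 s2
      refine ⟨r * (Q a)⁻¹, ?_⟩
      field_simp
      linear_combination hr
    exact lemG j k l b hb c hc w hw hQb (sc_of_isSquare hQb hQc s3) (hnm j k hjk b hb c hc hQb) hQw hbw hcw
  obtain ⟨l0, -⟩ : ∃ l : κ, l ∉ (∅ : Finset κ) := S.exists_third_index ∅ (by simp; omega)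
  obtain ⟨l1, hl1, -, -, -⟩ := S.exists_index4 h5 l0 l0 l0 l0
  obtain ⟨l2, hl2, hl2', -, -⟩ := S.exists_index4 h5 l0 l1 l1 l1
  obtain ⟨w0, hw0, hQw0⟩ := T.exists_nonsing_in l0
  rcases ty with han | ⟨hq7, hsg⟩
  · have h1 : ∀ i, Q (pr i w0) ≠ 0 := fun i h0 => hcomp l0 w0 hw0 hQw0 i (han i _ (S.dec.mem i w0) h0)
    exact hthree l0 w0 hw0 hQw0 l0 l1 l2 hl1.symm hl2.symm hl2'.symm (h1 _) (h1 _) (h1 _)
  · obtain ⟨w1, hw1, hQw1⟩ := T.exists_same l0 l1 hw0
    obtain ⟨w2, hw2, hQw2⟩ := T.exists_same l0 l2 hw0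
    have hQw1' : Q w1 ≠ 0 := by rw [hQw1]; exact hQw0
    have hQw2' : Q w2 ≠ 0 := by rw [hQw2]; exact hQw0
    classical
    obtain ⟨B, hB⟩ : ∃ B : V → Finset κ, ∀ w, B w = Finset.univ.filter (fun i => Q (pr i w) ≠ 0) := ⟨_, fun _ => rfl⟩
    have hBc : ∀ l, ∀ w ∈ E l, Q w ≠ 0 → (B w).card ≤ 2 := by
      intro l w hw hQw
      by_contra hcon
      push Not at hcon
      obtain ⟨i, hi, j, hj, k, hk, hij, hik, hjk⟩ := Finset.two_lt_card.1 hcon
      rw [hB, Finset.mem_filter] at hi hj hk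
      exact hthree l w hw hQw i j k hij hik hjk hi.2 hj.2 hk.2
    obtain ⟨i, hi⟩ := S.exists_third_index (B w0 ∪ B w1 ∪ B w2) (by
      have h1 := Finset.card_union_le (B w0 ∪ B w1) (B w2)
      have h2 := Finset.card_union_le (B w0) (B w1)
      have h3 := hBc l0 w0 hw0 hQw0
      have h4 := hBc l1 w1 hw1 hQw1'
      have h5 := hBc l2 w2 hw2 hQw2'
      omega)
    simp only [Finset.mem_union, hB, Finset.mem_filter, Finset.mem_univ, true_and, not_or, not_not] at hi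
    obtain ⟨⟨hi0, hi1⟩, hi2⟩ := hi
    have c0 := hcomp l0 w0 hw0 hQw0 i
    have c1 := hcomp l1 w1 hw1 hQw1' i
    have c2 := hcomp l2 w2 hw2 hQw2' i
    have hind : ∀ l l', l ≠ l' → ∀ w ∈ E l, ∀ w' ∈ E l', Q w ≠ 0 → ∀ s : F, w + s • w' ≠ 0 := by
      intro l l' hll w hw w' hw' hQw s h0
      have h1 := congrArg (pr' l) h0
      rw [map_add, map_zero, T.pr_self hw, T.pr_ne hll.symm ((E l').smul_mem _ hw'), add_zero] at h1
      rw [h1, QuadraticMap.map_zero] at hQw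
      exact hQw rfl
    rcases S.prop3 hd (S.dec.mem i w0) (S.dec.mem i w1) (S.dec.mem i w2) c0 c1 c2 hi0 hi1 hi2 with h | h | h
    · exact hM (S.finish2 hd (Or.inr ⟨hq7, hsg⟩) h5 hq7 (T.orth l0 l1 hl1.symm w0 hw0 w1 hw1) hQw0 hQw1
        (T.pair_same hw0 hw1 hQw0 hQw1) (hind l0 l1 hl1.symm w0 hw0 w1 hw1 hQw0) c0 hi0 h c1)
    · exact hM (S.finish2 hd (Or.inr ⟨hq7, hsg⟩) h5 hq7 (T.orth l0 l2 hl2.symm w0 hw0 w2 hw2) hQw0 hQw2
        (T.pair_same hw0 hw2 hQw0 hQw2) (hind l0 l2 hl2.symm w0 hw0 w2 hw2 hQw0) c0 hi0 h c2)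
    · exact hM (S.finish2 hd (Or.inr ⟨hq7, hsg⟩) h5 hq7 (T.orth l1 l2 hl2'.symm w1 hw1 w2 hw2) hQw1'
        (by rw [hQw2, hQw1]) (T.pair_same hw1 hw2 hQw1' (by rw [hQw2, hQw1]))
        (hind l1 l2 hl2'.symm w1 hw1 w2 hw2 hQw1') c1 hi1 h c2)

/-- the main theorem for planes -/
theorem main2 (hd : ∀ i, finrank F (D i) = 2) (ty : Ty Q D) (h4 : 4 ≤ Nat.card F ∨ (2 : F) = 0)
    (h7 : 7 ≤ Fintype.card κ) {m : V ≃ₗ[F] V} (hm : m ∈ M) (hnp : ¬ ∃ σ : Equiv.Perm κ, Pm D m σ) : Om Q ≤ M := by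
  by_contra hM
  have T := S.conj hm
  have hd' : ∀ i, finrank F ((D i).map (m : V →ₗ[F] V)) = 2 := fun i => by rw [LinearEquiv.finrank_map_eq]; exact hd i
  have ty' : Ty Q (fun i => (D i).map (m : V →ₗ[F] V)) := by
    rcases ty with han | ⟨h, hs⟩
    · left
      rintro i _ ⟨x, hx, rfl⟩ h0
      rw [LinearEquiv.coe_coe] at h0 ⊢
      rw [S.hMO hm] at h0
      rw [han i x hx h0, map_zero]
    · right
      refine ⟨h, fun i => ?_⟩
      obtain ⟨x, hx, hx0, hQx⟩ := hs i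
      exact ⟨m x, ⟨x, hx, rfl⟩, fun h0 => hx0 (m.injective (by rw [h0, map_zero])), by rw [S.hMO hm, hQx]⟩
  have hII := S.exists_II hd ty h4 h7 hM
  have hII' := T.exists_II hd' ty' h4 h7 hM
  refine hM (S.caseII hd ty h4 h7 T hd' ty' hII hII' ?_)
  intro i j hij
  obtain ⟨a, ha, hQa⟩ := S.exists_nonsing_in j
  apply hnp
  refine hII m hm j a ha hQa i ?_
  rw [hij]
  exact ⟨a, ha, rfl⟩

end DK

end Cfsg.Agent.Lib.Dk2H94
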