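import Mathlib
import Cfsg.Agent.Lib.Dk2kH94

set_option autoImplicit false
set_option linter.unusedSectionVars false
set_option linter.unusedSimpArgs false
set_option linter.unusedVariables false

/-!
Overgroups of stabilisers of orthogonal decompositions into planes: five or more planes, the first case.
-/

namespace Cfsg.Agent.Lib.Dk2H94

open QuadraticMap Module Cfsg.Agent.Lib.Quad Cfsg.Agent.Lib.OrthMax Cfsg.Agent.Lib.OrthNd
open Cfsg.Agent.Lib.OrthDecH94
open Cfsg.Agent.Lib.SLBlockH94 (Dec)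

variable {F V : Type*} [Field F] [Finite F] [AddCommGroup V] [Module F V] [FiniteDimensional F V]
  {Q : QuadraticForm F V} {M : Subgroup (V ≃ₗ[F] V)}
variable {κ : Type*} [Fintype κ] [DecidableEq κ]

namespace DK

variable {D : κ → Submodule F V} {pr : κ → V →ₗ[F] V} (S : DK Q D pr M)
include S

/-- more components -/
theorem step0' (hd : ∀ i, finrank F (D i) = 2) (ty : Ty Q D) (h4 : 4 ≤ Nat.card F ∨ (2 : F) = 0)
    (h5 : 5 ≤ Fintype.card κ) {i j : κ} (hij : i ≠ j)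
    {a0 v : V} {i0 : κ} (ha0 : a0 ∈ D i0) (hQa : Q a0 ≠ 0) (hv : Cl Q M a0 v)
    (hi : Q (pr i v) ≠ 0) (hj : pr j v ≠ 0) (hp : ∀ m, m ≠ i → m ≠ j → pr m v = 0) :
    ∃ u, Cl Q M a0 u ∧ ∃ l, l ≠ i ∧ l ≠ j ∧ pr i u ≠ 0 ∧ pr j u ≠ 0 ∧ pr l u ≠ 0 ∧
      ∀ n, n ≠ i → n ≠ j → n ≠ l → pr n u = 0 := by
  obtain ⟨vi, hvi⟩ : ∃ x, x = pr i v := ⟨_, rfl⟩
  obtain ⟨vj, hvj⟩ : ∃ x, x = pr j v := ⟨_, rfl⟩
  have hviD : vi ∈ D i := by rw [hvi]; exact S.dec.mem i v
  have hvjD : vj ∈ D j := by rw [hvj]; exact S.dec.mem j v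
  have hvv : v = vi + vj := by rw [hvi, hvj]; exact (S.eq_two hij hp).symm
  rw [← hvi] at hi
  rw [← hvj] at hj
  have hvi0 : vi ≠ 0 := by rintro rfl; exact hi (QuadraticMap.map_zero Q)
  obtain ⟨g, hg, hug, hgu⟩ := S.exists_gen hviD hvi0
  have e1 : ∀ s, Q (g + s • vi) = Q g + s + s * s * Q vi := by
    intro s
    rw [Q_add, Q_smul, polar_smul_right, polar_comm Q g vi, hug, smul_eq_mul]; ring
  obtain ⟨s, hs1, hs2, hs3⟩ : ∃ s, Q (g + s • vi) ≠ 0 ∧ 1 + 2 * s * Q vi ≠ 0 ∧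
      2 * Q vi * Q (g + s • vi) - (1 + 2 * s * Q vi) * (1 + 2 * s * Q vi) ≠ 0 := by
    have hmem : ∀ s : F, g + s • vi ≠ 0 := by
      intro s h3
      apply hgu
      rw [Submodule.mem_span_singleton]
      exact ⟨-s, by rw [neg_smul]; exact neg_eq_of_add_eq_zero_left h3⟩
    by_cases h2 : (2 : F) = 0
    · simp only [h2, zero_mul, add_zero, mul_one, zero_sub]
      rcases ty with han | ⟨h7, -⟩
      · exact ⟨0, fun h3 => hmem 0 (han i _ ((D i).add_mem hg ((D i).smul_mem _ hviD)) h3), one_ne_zero,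
          neg_ne_zero.2 one_ne_zero⟩
      · obtain ⟨s, hs⟩ := exists_avoid (F := F) [(Q g, 1, Q vi)] (by
          intro t ht
          simp only [List.mem_cons, List.not_mem_nil, or_false] at ht
          rcases ht with rfl
          right; left; exact one_ne_zero) (by simp only [List.length_cons, List.length_nil]; omega)
        have a1 := hs (Q g, 1, Q vi) (by simp)
        simp only at a1
        exact ⟨s, fun h3 => a1 (by rw [e1] at h3; linear_combination h3), one_ne_zero, neg_ne_zero.2 one_ne_zero⟩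
    · have h4 : 5 ≤ Nat.card F := by
        have h4 := h4.resolve_right h2
        rcases Nat.lt_or_ge 4 (Nat.card F) with h5 | h5
        · exact h5
        · exfalso
          have h6 : Nat.card F = 4 := le_antisymm h5 h4
          have h7 : ((Nat.card F : ℕ) : F) = 0 := by
            have hFt := Fintype.ofFinite F
            rw [Nat.card_eq_fintype_card]
            exact FiniteField.cast_card_eq_zero F
          rw [h6] at h7
          apply mul_ne_zero h2 h2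
          rw [← h7]; norm_num
      rcases ty with han | ⟨h7, -⟩
      · obtain ⟨s, hs⟩ := exists_avoid (F := F) [(1, 2 * Q vi, 0),
          (2 * Q vi * Q g - 1, -(2 * Q vi), -(2 * Q vi * Q vi))] (by
          intro t ht
          simp only [List.mem_cons, List.not_mem_nil, or_false] at ht
          rcases ht with rfl | rfl
          · left; exact one_ne_zero
          · right; left; exact neg_ne_zero.2 (mul_ne_zero h2 hi)) (by
            simp only [List.length_cons, List.length_nil]; omega)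
        have a1 := hs (1, 2 * Q vi, 0) (by simp)
        have a2 := hs (2 * Q vi * Q g - 1, -(2 * Q vi), -(2 * Q vi * Q vi)) (by simp)
        simp only at a1 a2
        refine ⟨s, fun h3 => hmem s (han i _ ((D i).add_mem hg ((D i).smul_mem _ hviD)) h3), ?_, ?_⟩
        · intro h; apply a1; linear_combination h
        · intro h; apply a2; rw [e1] at h; linear_combination h
      · obtain ⟨s, hs⟩ := exists_avoid (F := F) [(Q g, 1, Q vi), (1, 2 * Q vi, 0),
          (2 * Q vi * Q g - 1, -(2 * Q vi), -(2 * Q vi * Q vi))] (by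
          intro t ht
          simp only [List.mem_cons, List.not_mem_nil, or_false] at ht
          rcases ht with rfl | rfl | rfl
          · right; left; exact one_ne_zero
          · left; exact one_ne_zero
          · right; left; exact neg_ne_zero.2 (mul_ne_zero h2 hi)) (by
            simp only [List.length_cons, List.length_nil]; omega)
        have a0 := hs (Q g, 1, Q vi) (by simp)
        have a1 := hs (1, 2 * Q vi, 0) (by simp)
        have a2 := hs (2 * Q vi * Q g - 1, -(2 * Q vi), -(2 * Q vi * Q vi)) (by simp)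
        simp only at a0 a1 a2
        refine ⟨s, ?_, ?_, ?_⟩
        · intro h; apply a0; rw [e1] at h; linear_combination h
        · intro h; apply a1; linear_combination h
        · intro h; apply a2; rw [e1] at h; linear_combination h
  obtain ⟨a, ha⟩ : ∃ a, a = g + s • vi := ⟨_, rfl⟩
  rw [← ha] at hs1 hs3
  have haD : a ∈ D i := by rw [ha]; exact (D i).add_mem hg ((D i).smul_mem _ hviD)
  have havi : polar Q a vi = 1 + 2 * s * Q vi := by
    rw [ha, polar_add_left, polar_smul_left, polar_comm Q g vi, hug, polar_self', smul_eq_mul]; ring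
  have hamem : a ∉ F ∙ vi := by
    intro h
    apply hgu
    have := Submodule.sub_mem _ h (Submodule.smul_mem _ s (Submodule.mem_span_singleton_self vi))
    rwa [ha, add_sub_cancel_right] at this
  obtain ⟨m, hmi, hmj, -, -⟩ := S.exists_index4 h5 i j j j
  obtain ⟨l, hli, hlj, hlm, -⟩ := S.exists_index4 h5 i j m m
  obtain ⟨b4, hb4, hQb4⟩ := S.exists_same i m haD
  have hv1 := S.cl_pair ha0 hQa hv haD hb4 hs1 ⟨1, one_ne_zero, by rw [hQb4]; ring⟩
  have hb4v : refl Q b4 v = v := S.fix_of_pr hb4 (hp m hmi hmj)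
  rw [hb4v] at hv1
  have hav : refl Q a v = refl Q a vi + vj := by
    rw [hvv, map_add, S.refl_fix hij haD hvjD]
  rw [hav] at hv1
  obtain ⟨w, hw⟩ : ∃ w, w = refl Q a vi := ⟨_, rfl⟩
  have hwD : w ∈ D i := by rw [hw]; exact S.refl_stab haD hviD
  rw [← hw] at hv1
  obtain ⟨h, hhM, hhO, σ, hσ, hσj, -, -, hfix⟩ := S.exists_three (i := j) (j := m) (l := l) hmj.symm hlm.symm hlj.symm
  have hv2 := S.cl_Pm ha0 hQa hv1 hhM hσ
  rw [map_add, hfix i hij hmi.symm hli.symm w hwD] at hv2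
  have hhD : h vj ∈ D l := by
    rw [← hσj, ← hσ j]
    exact ⟨vj, hvjD, rfl⟩
  have hh0 : h vj ≠ 0 := fun h0 => hj (h.injective (by rw [h0, map_zero]))
  have hu := hv.refl' hv2
  rw [refl_apply hv.1] at hu
  have hP : polar Q v (w + h vj) = polar Q vi w := by
    rw [hvv, polar_add_left, polar_add_right, polar_add_right, S.orth i l hli.symm vi hviD _ hhD,
      S.orth j i hij.symm vj hvjD w hwD, S.orth j l hlj.symm vj hvjD _ hhD]; ring
  have hw' : w = vi - ((Q a)⁻¹ * (1 + 2 * s * Q vi)) • a := by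
    rw [hw, refl_apply hs1, havi]
  have hP2 : polar Q vi w ≠ 0 := by
    intro h0
    rw [hw', polar_sub_right, polar_smul_right, polar_comm Q vi a, havi, polar_self', smul_eq_mul] at h0
    apply hs3
    have := congrArg (fun x => Q a * x) h0
    simp only [mul_zero, mul_sub] at this
    field_simp at this
    linear_combination this
  obtain ⟨c, hc⟩ : ∃ c, c = (Q v)⁻¹ * polar Q v (w + h vj) := ⟨_, rfl⟩
  have hc0 : c ≠ 0 := by rw [hc, hP]; exact mul_ne_zero (inv_ne_zero hv.1) hP2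
  rw [← hc] at hu
  refine ⟨_, hu, l, hli, hlj, ?_, ?_, ?_, ?_⟩
  · rw [map_sub, map_add, map_smul, S.pr_self hwD, S.pr_ne hli hhD, add_zero, ← hvi]
    intro h0
    apply hamem
    have h1 : ((Q a)⁻¹ * (1 + 2 * s * Q vi)) • a = (1 - c) • vi := by
      rw [hw'] at h0
      have h3 : ((Q a)⁻¹ * (1 + 2 * s * Q vi)) • a = vi - (vi - ((Q a)⁻¹ * (1 + 2 * s * Q vi)) • a) := by abel
      rw [h3, sub_eq_zero.1 h0, sub_smul, one_smul]
    have h2 : ((Q a)⁻¹ * (1 + 2 * s * Q vi)) • a ∈ F ∙ vi := by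
      rw [h1]; exact Submodule.smul_mem _ _ (Submodule.mem_span_singleton_self vi)
    rwa [Submodule.smul_mem_iff _ (mul_ne_zero (inv_ne_zero hs1) hs2)] at h2
  · rw [map_sub, map_add, map_smul, S.pr_ne hij hwD, S.pr_ne hlj hhD, add_zero, zero_sub, ← hvj]
    exact neg_ne_zero.2 (smul_ne_zero hc0 hj)
  · rw [map_sub, map_add, map_smul, S.pr_ne hli.symm hwD, S.pr_self hhD, hp l hli hlj, smul_zero, sub_zero, zero_add]
    exact hh0
  · intro n h1 h2 h3
    rw [map_sub, map_add, map_smul, S.pr_ne h1.symm hwD, S.pr_ne h3.symm hhD, hp n h1 h2, smul_zero, sub_zero,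
      zero_add]

/-- a vector with a vanishing component -/
theorem zeroComp (hd : ∀ i, finrank F (D i) = 2) (ty : Ty Q D) (hF : 4 ≤ Nat.card F ∨ (2 : F) = 0)
    (h5 : 5 ≤ Fintype.card κ) {a0 v : V} {i0 : κ} (ha0 : a0 ∈ D i0) (hQa : Q a0 ≠ 0) (hv : Cl Q M a0 v)
    (hclass : ∀ m, ∃ b ∈ D m, Q b ≠ 0 ∧ ¬ sc Q b a0) {i j m : κ} (hij : i ≠ j) (hi : pr i v ≠ 0) (hj : pr j v ≠ 0)
    (hm : pr m v = 0) : Om Q ≤ M := by
  by_contra hM
  have hns : ∀ u, Cl Q M a0 u → ∀ i j, i ≠ j → pr i u ≠ 0 → pr j u ≠ 0 → Q (pr i u) ≠ 0 :=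
    fun u hu i j hij hi hj h0 => hM (S.caseA hd ty h5 hij ha0 hQa hu hi h0 hj)
  have key : ∀ u, Cl Q M a0 u → ∀ i j l m, i ≠ j → i ≠ l → j ≠ l → pr i u ≠ 0 → pr j u ≠ 0 → pr l u ≠ 0 →
      pr m u = 0 → False := by
    intro u hu i j l m hij hil hjl hi hj hl hm
    obtain ⟨b, hb, hQb, hba⟩ := hclass m
    exact hM (S.stepB hd ty h5 hij hil hjl ha0 hQa hu (hns u hu i j hij hi hj) (hns u hu j i hij.symm hj hi) hl
      (Or.inr ⟨m, (fun h => hi (by rw [← h]; exact hm)), (fun h => hj (by rw [← h]; exact hm)), b, hb, hQb, by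
        rw [polar_comm]; exact S.pr_zero_iff.1 hm b hb, hba⟩))
  by_cases h3 : ∃ l, l ≠ i ∧ l ≠ j ∧ pr l v ≠ 0
  · obtain ⟨l, hli, hlj, hl⟩ := h3
    exact key v hv i j l m hij hli.symm hlj.symm hi hj hl hm
  · push Not at h3
    obtain ⟨u, hu, l, hli, hlj, h4, h5', h6, h7⟩ := S.step0' hd ty hF h5 hij ha0 hQa hv
      (hns v hv i j hij hi hj) hj h3
    obtain ⟨n, hn1, hn2, hn3, -⟩ := S.exists_index4 h5 i j l l
    exact key u hu i j l n hij hli.symm hlj.symm h4 h5' h6 (h7 n hn1 hn2 hn3)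

/-- escaping from the bad configuration -/
theorem stepC5 (hd : ∀ i, finrank F (D i) = 2) (ty : Ty Q D) (h5 : 5 ≤ Fintype.card κ) (h2 : (2 : F) ≠ 0)
    (hm1 : ¬ IsSquare (-1 : F)) (hF : 4 ≤ Nat.card F ∨ (2 : F) = 0) (f : Fin 5 ↪ κ)
    (hclass : ∀ a0 : V, Q a0 ≠ 0 → ∀ m, ∃ b ∈ D m, Q b ≠ 0 ∧ ¬ sc Q b a0)
    {a0 v : V} {i0 : κ} (ha0 : a0 ∈ D i0) (hQa : Q a0 ≠ 0) (hv : Cl Q M a0 v)
    {b : κ → V} (hbD : ∀ m, b m ∈ D m) (hbo : ∀ m, polar Q (b m) (pr m v) = 0) {β : F} (hβ : β ≠ 0)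
    (hQb : ∀ m, Q (b m) = β * Q (pr m v)) (hQv : ∀ m, Q (pr m v) ≠ 0)
    (hsq : ∀ m, ∃ r, r ≠ 0 ∧ Q (pr m v) = r * r * Q (pr (f 0) v)) : Om Q ≤ M := by
  have hne : ∀ {x y : Fin 5}, x ≠ y → f x ≠ f y := fun h h' => h (f.injective h')
  -- the moves
  obtain ⟨c, hc⟩ : ∃ c : κ → F → V, ∀ m s, c m s = pr m v + s • b m := ⟨_, fun _ _ => rfl⟩
  obtain ⟨x, hx⟩ : ∃ x : κ → F → V, ∀ m s, x m s = (2 * (1 + β * (s * s))⁻¹) • c m s := ⟨_, fun _ _ => rfl⟩
  have hcD : ∀ m s, c m s ∈ D m := fun m s => by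
    rw [hc]; exact (D m).add_mem (S.dec.mem m v) ((D m).smul_mem _ (hbD m))
  have hxD : ∀ m s, x m s ∈ D m := fun m s => by rw [hx]; exact (D m).smul_mem _ (hcD m s)
  have hQc : ∀ m s, Q (c m s) = Q (pr m v) * (1 + β * (s * s)) := by
    intro m s
    rw [hc, Q_add, Q_smul, polar_smul_right, polar_comm, hbo, hQb, smul_zero]; ring
  have hcv : ∀ m s, polar Q (c m s) (pr m v) = 2 * Q (pr m v) := by
    intro m s
    rw [hc, polar_add_left, polar_smul_left, hbo, polar_self', smul_zero, add_zero]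
  have hmv : ∀ m s w, pr m w = pr m v → refl Q (c m s) w = w - x m s := by
    intro m s w hw
    by_cases h0 : 1 + β * (s * s) = 0
    · rw [refl_of_eq_zero (by rw [hQc, h0, mul_zero]), hx, h0, inv_zero, mul_zero, zero_smul, sub_zero]
      rfl
    · rw [refl_apply (by rw [hQc]; exact mul_ne_zero (hQv m) h0), hx, ← S.polar_pr' (hcD m s), hw, hcv, hQc]
      congr 2
      have := hQv m
      field_simp
  have hmv2 : ∀ m n s w, m ≠ n → Cl Q M a0 w → pr m w = pr m v → pr n w = pr n v →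
      Cl Q M a0 (w - x n s - x m s) := by
    intro m n s w hmn hw hwm hwn
    have h3 : refl Q (c m s) (refl Q (c n s) w) = w - x n s - x m s := by
      rw [hmv n s w hwn, hmv m s]
      rw [map_sub, S.pr_ne hmn.symm (hxD n s), sub_zero, hwm]
    rw [← h3]
    by_cases h0 : 1 + β * (s * s) = 0
    · rw [refl_of_eq_zero (v := c m s) (by rw [hQc, h0, mul_zero]),
        refl_of_eq_zero (v := c n s) (by rw [hQc, h0, mul_zero])]
      exact hw
    · refine S.cl_pair ha0 hQa hw (hcD m s) (hcD n s) (by rw [hQc]; exact mul_ne_zero (hQv m) h0) ?_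
      obtain ⟨r, hr, hr'⟩ := hsq m
      obtain ⟨t, ht, ht'⟩ := hsq n
      refine ⟨r * t⁻¹, mul_ne_zero hr (inv_ne_zero ht), ?_⟩
      rw [hQc, hQc, hr', ht']
      field_simp
  have hvx : ∀ m s, polar Q v (x m s) = 4 * (1 + β * (s * s))⁻¹ * Q (pr m v) := by
    intro m s
    rw [hx, polar_smul_right, ← S.polar_pr (hcD m s), polar_comm, hcv, smul_eq_mul]; ring
  -- the parameters
  have hA : ∀ m n, Q (pr m v) + Q (pr n v) ≠ 0 := by
    intro m n h0
    obtain ⟨r, hr, hr'⟩ := hsq m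
    obtain ⟨t, ht, ht'⟩ := hsq n
    apply hm1
    refine ⟨r * t⁻¹, ?_⟩
    rw [hr', ht'] at h0
    have h3 : r * r + t * t = 0 := by
      apply (mul_eq_zero.1 (show (r * r + t * t) * Q (pr (f 0) v) = 0 by linear_combination h0)).resolve_right
      exact hQv _
    field_simp
    linear_combination -h3
  obtain ⟨s, t, hst⟩ := exists_two_sq h2 (g := fun y => 4 * (Q (pr (f 1) v) + Q (pr (f 2) v)) * (1 + β * y)⁻¹)
    (h := fun y => Q v - 4 * (Q (pr (f 3) v) + Q (pr (f 4) v)) * (1 + β * y)⁻¹)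
    (by
      intro y y' hy
      simp only at hy
      have h4 : (4 : F) ≠ 0 := by rw [show (4 : F) = 2 * 2 by norm_num]; exact mul_ne_zero h2 h2
      have h3 := mul_left_cancel₀ (mul_ne_zero h4 (hA _ _)) hy
      exact mul_left_cancel₀ hβ (add_left_cancel (inv_injective h3)))
    (by
      intro y y' hy
      simp only at hy
      have h4 : (4 : F) ≠ 0 := by rw [show (4 : F) = 2 * 2 by norm_num]; exact mul_ne_zero h2 h2
      have h3 := mul_left_cancel₀ (mul_ne_zero h4 (hA _ _)) (sub_right_injective hy)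
      exact mul_left_cancel₀ hβ (add_left_cancel (inv_injective h3)))
  -- the vector
  have w2 := hmv2 (f 1) (f 2) s _ (hne (by decide)) hv rfl rfl
  have w3 := hmv2 (f 3) (f 4) t _ (hne (by decide)) w2
    (by rw [map_sub, map_sub, S.pr_ne (hne (show (2 : Fin 5) ≠ 3 by decide)) (hxD _ _),
      S.pr_ne (hne (show (1 : Fin 5) ≠ 3 by decide)) (hxD _ _), sub_zero, sub_zero])
    (by rw [map_sub, map_sub, S.pr_ne (hne (show (2 : Fin 5) ≠ 4 by decide)) (hxD _ _),
      S.pr_ne (hne (show (1 : Fin 5) ≠ 4 by decide)) (hxD _ _), sub_zero, sub_zero])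
  have w4 := hv.refl' w3
  rw [refl_apply hv.1] at w4
  have hpol : (Q v)⁻¹ * polar Q v (v - x (f 2) s - x (f 1) s - x (f 4) t - x (f 3) t) = 1 := by
    rw [polar_sub_right, polar_sub_right, polar_sub_right, polar_sub_right, hvx, hvx, hvx, hvx,
      polar_self']
    have := hv.1
    field_simp
    linear_combination -hst
  rw [hpol, one_smul] at w4
  obtain ⟨u, hu⟩ : ∃ u, u = v - x (f 2) s - x (f 1) s - x (f 4) t - x (f 3) t - v := ⟨_, rfl⟩
  rw [← hu] at w4
  have hx0 : ∀ m s, 1 + β * (s * s) ≠ 0 → x m s ≠ 0 := by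
    intro m s h0 h1
    rw [hx] at h1
    rcases smul_eq_zero.1 h1 with h3 | h3
    · exact mul_ne_zero h2 (inv_ne_zero h0) h3
    · have h4 := hQc m s
      rw [h3, QuadraticMap.map_zero] at h4
      exact mul_ne_zero (hQv m) h0 h4.symm
  have hpr : ∀ m : κ, pr m u = -(pr m (x (f 2) s)) - pr m (x (f 1) s) - pr m (x (f 4) t) - pr m (x (f 3) t) := by
    intro m
    rw [hu, map_sub, map_sub, map_sub, map_sub, map_sub]
    abel
  have hu0 : pr (f 0) u = 0 := by
    rw [hpr, S.pr_ne (hne (show (1 : Fin 5) ≠ 0 by decide)) (hxD _ _),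
      S.pr_ne (hne (show (2 : Fin 5) ≠ 0 by decide)) (hxD _ _),
      S.pr_ne (hne (show (3 : Fin 5) ≠ 0 by decide)) (hxD _ _),
      S.pr_ne (hne (show (4 : Fin 5) ≠ 0 by decide)) (hxD _ _)]
    simp
  by_cases hs : 1 + β * (s * s) = 0
  · by_cases ht : 1 + β * (t * t) = 0
    · exfalso
      simp only [hs, ht, inv_zero, mul_zero, sub_zero] at hst
      exact hv.1 hst.symm
    · refine S.zeroComp hd ty hF h5 ha0 hQa w4 (hclass a0 hQa) (i := f 3) (j := f 4) (m := f 0) (hne (by decide)) ?_ ?_ hu0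
      · rw [hpr, S.pr_self (hxD (f 3) t), S.pr_ne (hne (show (1 : Fin 5) ≠ 3 by decide)) (hxD _ _),
          S.pr_ne (hne (show (2 : Fin 5) ≠ 3 by decide)) (hxD _ _),
          S.pr_ne (hne (show (4 : Fin 5) ≠ 3 by decide)) (hxD _ _)]
        simpa using hx0 _ _ ht
      · rw [hpr, S.pr_self (hxD (f 4) t), S.pr_ne (hne (show (1 : Fin 5) ≠ 4 by decide)) (hxD _ _),
          S.pr_ne (hne (show (2 : Fin 5) ≠ 4 by decide)) (hxD _ _),
          S.pr_ne (hne (show (3 : Fin 5) ≠ 4 by decide)) (hxD _ _)]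
        simpa using hx0 _ _ ht
  · refine S.zeroComp hd ty hF h5 ha0 hQa w4 (hclass a0 hQa) (i := f 1) (j := f 2) (m := f 0) (hne (by decide)) ?_ ?_ hu0
    · rw [hpr, S.pr_self (hxD (f 1) s), S.pr_ne (hne (show (3 : Fin 5) ≠ 1 by decide)) (hxD _ _),
        S.pr_ne (hne (show (2 : Fin 5) ≠ 1 by decide)) (hxD _ _),
        S.pr_ne (hne (show (4 : Fin 5) ≠ 1 by decide)) (hxD _ _)]
      simpa using hx0 _ _ hs
    · rw [hpr, S.pr_self (hxD (f 2) s), S.pr_ne (hne (show (1 : Fin 5) ≠ 2 by decide)) (hxD _ _),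
        S.pr_ne (hne (show (3 : Fin 5) ≠ 2 by decide)) (hxD _ _),
        S.pr_ne (hne (show (4 : Fin 5) ≠ 2 by decide)) (hxD _ _)]
      simpa using hx0 _ _ hs

/-- the first case -/
theorem caseI5 (hd : ∀ i, finrank F (D i) = 2) (ty : Ty Q D) (hF : 4 ≤ Nat.card F ∨ (2 : F) = 0)
    (h5 : 5 ≤ Fintype.card κ) {a0 v : V} {i0 : κ} (ha0 : a0 ∈ D i0) (hQa : Q a0 ≠ 0) (hv : Cl Q M a0 v)
    (hnot : ∀ i, v ∉ D i) : Om Q ≤ M := by
  by_contra hM
  -- nonzero components are nonsingular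
  have hns : ∀ u, Cl Q M a0 u → ∀ i j, i ≠ j → pr i u ≠ 0 → pr j u ≠ 0 → Q (pr i u) ≠ 0 :=
    fun u hu i j hij hi hj h0 => hM (S.caseA hd ty h5 hij ha0 hQa hu hi h0 hj)
  -- three components
  obtain ⟨u, hu, i, j, l, hij, hil, hjl, hi, hj, hl⟩ : ∃ u, Cl Q M a0 u ∧ ∃ i j l, i ≠ j ∧ i ≠ l ∧ j ≠ l ∧
      pr i u ≠ 0 ∧ pr j u ≠ 0 ∧ pr l u ≠ 0 := by
    have hv0 : v ≠ 0 := by rintro rfl; exact hv.1 (QuadraticMap.map_zero Q)
    obtain ⟨i, hi⟩ : ∃ i, pr i v ≠ 0 := by
      by_contra hcon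
      push Not at hcon
      apply hv0
      rw [← S.dec.sum v]
      exact Finset.sum_eq_zero fun m _ => hcon m
    obtain ⟨j, hji, hj⟩ : ∃ j, j ≠ i ∧ pr j v ≠ 0 := by
      by_contra hcon
      push Not at hcon
      exact hnot i (S.eq_of_pr hcon)
    by_cases h3 : ∃ l, l ≠ i ∧ l ≠ j ∧ pr l v ≠ 0
    · obtain ⟨l, hli, hlj, hl⟩ := h3
      exact ⟨v, hv, i, j, l, hji.symm, hli.symm, hlj.symm, hi, hj, hl⟩
    · push Not at h3
      obtain ⟨u, hu, l, hli, hlj, h4, h5, h6⟩ := S.step0 hd ty hF h5 hji.symm ha0 hQa hv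
        (hns v hv i j hji.symm hi hj) hj h3
      exact ⟨u, hu, i, j, l, hji.symm, hli.symm, hlj.symm, h4, h5, h6⟩
  -- all of them nonsingular
  have hns' : ∀ m, pr m u ≠ 0 → Q (pr m u) ≠ 0 := by
    intro m hm
    by_cases hmi : m = i
    · exact hns u hu m j (by rw [hmi]; exact hij) hm hj
    · exact hns u hu m i hmi hm hi
  by_cases hm1 : IsSquare (-1 : F)
  · exact hM (S.stepB hd ty h5 hij hil hjl ha0 hQa hu (hns' i hi) (hns' j hj) hl (Or.inl hm1))
  have h2 : (2 : F) ≠ 0 := by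
    intro h2
    apply hm1
    exact ⟨1, by linear_combination -h2⟩
  have hclass : ∀ a0 : V, Q a0 ≠ 0 → ∀ m, ∃ b ∈ D m, Q b ≠ 0 ∧ ¬ sc Q b a0 := by
    intro a0 hQa m
    obtain ⟨b, hb, hQb⟩ := S.exists_nonsing_in m
    obtain ⟨c, hc, hbc, -, -, hQc⟩ := S.exists_orth h2 hb hQb
    obtain ⟨s, t, hst⟩ := exists_sum_sq h2 hQb (hQc (hd m)) (-(Q a0))
    have h3 : Q (s • b + t • c) = -(Q a0) := by
      rw [Q_add, Q_smul, Q_smul, polar_smul_left, polar_smul_right, hbc, smul_zero, smul_zero]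
      linear_combination hst
    refine ⟨s • b + t • c, (D m).add_mem ((D m).smul_mem _ hb) ((D m).smul_mem _ hc), ?_, ?_⟩
    · rw [h3]; exact neg_ne_zero.2 hQa
    · rintro ⟨r, hr, hr'⟩
      apply hm1
      rw [h3] at hr'
      refine ⟨r, ?_⟩
      apply mul_right_cancel₀ hQa
      linear_combination hr'
  -- all components are nonzero
  have hall : ∀ m, pr m u ≠ 0 := by
    intro m hm
    obtain ⟨b, hb, hQb, hba⟩ := hclass a0 hQa m
    exact hM (S.stepB hd ty h5 hij hil hjl ha0 hQa hu (hns' i hi) (hns' j hj) hl (Or.inr ⟨m,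
      (fun h => hi (by rw [← h]; exact hm)), (fun h => hj (by rw [← h]; exact hm)), b, hb, hQb, by
        rw [polar_comm]; exact S.pr_zero_iff.1 hm b hb, hba⟩))
  have hQv : ∀ m, Q (pr m u) ≠ 0 := fun m => hns' m (hall m)
  -- orthogonal vectors in the blocks
  have hbad : ∀ m, ∀ b ∈ D m, Q b ≠ 0 → polar Q b u = 0 → sc Q b a0 := by
    intro m b hb hQb hbu
    by_contra hba
    obtain ⟨i', hi', -⟩ := S.exists_index4 h5 m m m m
    obtain ⟨j', hj', hji', -⟩ := S.exists_index4 h5 m i' m m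
    exact hM (S.stepB hd ty h5 hji'.symm hi' hj' ha0 hQa hu (hQv i') (hQv j') (hall m) (Or.inr ⟨m,
      hi'.symm, hj'.symm, b, hb, hQb, hbu, hba⟩))
  have hfin : Nonempty (Fin 5 ↪ κ) := by
    apply Function.Embedding.nonempty_of_card_le
    rw [Fintype.card_fin]; exact h5
  obtain ⟨f⟩ := hfin
  have hex : ∀ m, ∃ c ∈ D m, Q c ≠ 0 ∧ polar Q c (pr m u) = 0 := by
    intro m
    obtain ⟨c, hc, hbc, -, -, hQc⟩ := S.exists_orth h2 (S.dec.mem m u) (hQv m)
    exact ⟨c, hc, hQc (hd m), by rw [polar_comm]; exact hbc⟩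
  choose c hcD hQc hco using hex
  have hcsc : ∀ m, sc Q (c m) a0 := fun m => hbad m _ (hcD m) (hQc m) (by
    rw [← S.polar_pr' (hcD m)]; exact hco m)
  -- discriminants
  have hdisc : ∀ m n, ∃ r, r ≠ 0 ∧ Q (pr m u) * Q (c m) = r * r * (Q (pr n u) * Q (c n)) := by
    intro m n
    obtain ⟨e, he⟩ := S.iso m n
    have hvn0 : pr n u ≠ 0 := hall n
    have hcn : c n ∉ F ∙ (pr n u) := by
      intro h
      obtain ⟨r, hr⟩ := Submodule.mem_span_singleton.1 h
      have h3 := hco n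
      rw [← hr, polar_smul_left, polar_self', smul_eq_mul] at h3
      rcases mul_eq_zero.1 h3 with h4 | h4
      · apply hQc n
        rw [← hr, h4, zero_smul, QuadraticMap.map_zero]
      · exact mul_ne_zero h2 (hQv n) h4
    obtain ⟨α, β, hαβ⟩ := S.span2 hd (S.dec.mem n u) hvn0 (hcD n) hcn (e ⟨pr m u, S.dec.mem m u⟩).2
    obtain ⟨γ, δ, hγδ⟩ := S.span2 hd (S.dec.mem n u) hvn0 (hcD n) hcn (e ⟨c m, hcD m⟩).2
    have e1 := he ⟨pr m u, S.dec.mem m u⟩
    have e2 := he ⟨c m, hcD m⟩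
    have e3 := he (⟨pr m u, S.dec.mem m u⟩ + ⟨c m, hcD m⟩)
    rw [map_add, Submodule.coe_add, Submodule.coe_add, ← hαβ, ← hγδ] at e3
    rw [← hαβ] at e1
    rw [← hγδ] at e2
    simp only at e1 e2 e3
    have hcomm : polar Q (pr n u) (c n) = 0 := by rw [polar_comm]; exact hco n
    have hcomm' : polar Q (pr m u) (c m) = 0 := by rw [polar_comm]; exact hco m
    rw [Q_add, Q_smul, Q_smul, polar_smul_left, polar_smul_right, hcomm] at e1 e2
    rw [Q_add Q (α • pr n u + β • c n), Q_add Q (pr m u) (c m), hcomm', Q_add, Q_smul, Q_smul, Q_add Q (γ • pr n u),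
      Q_smul, Q_smul] at e3
    simp only [polar_add_left, polar_add_right, polar_smul_left, polar_smul_right, hco, hcomm, polar_self',
      smul_eq_mul, mul_zero, add_zero, zero_add] at e1 e2 e3
    have e4 : α * γ * Q (pr n u) + β * δ * Q (c n) = 0 := by
      apply (mul_eq_zero.1 (show 2 * (α * γ * Q (pr n u) + β * δ * Q (c n)) = 0 by
        linear_combination e3 - e1 - e2)).resolve_left h2
    have e5 : Q (pr m u) * Q (c m) = (α * δ - β * γ) * (α * δ - β * γ) * (Q (pr n u) * Q (c n)) := by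
      rw [← e1, ← e2]
      linear_combination (α * γ * Q (pr n u) + β * δ * Q (c n)) * e4
    refine ⟨_, ?_, e5⟩
    intro h0
    rw [h0, zero_mul, zero_mul] at e5
    exact mul_ne_zero (hQv m) (hQc m) e5
  have hcc : ∀ m n, sc Q (c m) (c n) := fun m n => (hcsc m).trans (hcsc n).symm
  have hvv : ∀ m n, sc Q (pr m u) (pr n u) := by
    intro m n
    obtain ⟨r, hr, hr'⟩ := hdisc m n
    obtain ⟨t, ht, ht'⟩ := hcc n m
    refine ⟨r * t, mul_ne_zero hr ht, ?_⟩
    rw [ht'] at hr'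
    apply mul_right_cancel₀ (hQc m)
    linear_combination hr'
  obtain ⟨β, hβ⟩ : ∃ β, β = Q (c (f 0)) * (Q (pr (f 0) u))⁻¹ := ⟨_, rfl⟩
  have hβ0 : β ≠ 0 := by rw [hβ]; exact mul_ne_zero (hQc _) (inv_ne_zero (hQv _))
  have hbex : ∀ m, ∃ r, r ≠ 0 ∧ r * r * Q (c m) = β * Q (pr m u) := by
    intro m
    obtain ⟨r, hr, hr'⟩ := hvv m (f 0)
    obtain ⟨t, ht, ht'⟩ := hcc m (f 0)
    refine ⟨r * t⁻¹, mul_ne_zero hr (inv_ne_zero ht), ?_⟩
    rw [hr', ht', hβ]
    have := hQv (f 0)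
    field_simp
  choose r hr0 hr using hbex
  exact hM (S.stepC5 hd ty h5 h2 hm1 hF f hclass ha0 hQa hu (b := fun m => r m • c m)
    (fun m => (D m).smul_mem _ (hcD m)) (fun m => by rw [polar_smul_left, hco, smul_zero]) hβ0
    (fun m => by rw [Q_smul, hr]) hQv (fun m => hvv m (f 0)))

end DK

end Cfsg.Agent.Lib.Dk2H94
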