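import Mathlib
import Cfsg.Agent.Lib.Dk2lH94

set_option autoImplicit false
set_option linter.unusedSectionVars false
set_option linter.unusedSimpArgs false
set_option linter.unusedVariables false

/-!
Overgroups of stabilisers of orthogonal decompositions into planes: five or more planes, conclusion.
-/

namespace Cfsg.Agent.Lib.Dk2H94

open QuadraticMap Module Cfsg.Agent.Lib.Quad Cfsg.Agent.Lib.OrthMax Cfsg.Agent.Lib.OrthNd
open Cfsg.Agent.Lib.OrthDecH94
open Cfsg.Agent.Lib.SLBlockH94 (Dec)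

variable {F V : Type*} [Field F] [Finite F] [AddCommGroup V] [Module F V] [FiniteDimensional F V]
  {Q : QuadraticForm F V} {M : Subgroup (V ≃ₗ[F] V)}
variable {κ : Type*} [Fintype κ] [DecidableEq κ]

namespace DK

variable {D : κ → Submodule F V} {pr : κ → V →ₗ[F] V} (S : DK Q D pr M)
include S

theorem exists_II5 (hd : ∀ i, finrank F (D i) = 2) (ty : Ty Q D) (h4 : 4 ≤ Nat.card F ∨ (2 : F) = 0)
    (h5 : 5 ≤ Fintype.card κ) (hM : ¬ Om Q ≤ M) : II Q D M := by
  intro g hg i a ha hQa j hga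
  have hQga : Q (g a) ≠ 0 := by rw [S.hMO hg]; exact hQa
  have hkey : ∀ l, ∀ b ∈ D l, Q b = Q a → ∃ p, g b ∈ D p := by
    intro l b hb hQb
    by_contra hcon
    push Not at hcon
    refine hM (S.caseI5 hd ty h4 h5 (a0 := g a) (v := g b) (i0 := j) hga hQga ⟨?_, ?_⟩ hcon)
    · rw [S.hMO hg, hQb]; exact hQa
    · have h1 := mul_mem (mul_mem hg (S.pair_same hb ha (by rw [hQb]; exact hQa) hQb.symm)) (inv_mem hg)
      have h2 : g * (refl Q b * refl Q a) * g⁻¹ = refl Q (g b) * refl Q (g a) := by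
        rw [← refl_conj (S.hMO hg), ← refl_conj (S.hMO hg)]
        group
      rwa [h2] at h1
  have hkey2 : ∀ l, ∃ p, (D l).map (g : V →ₗ[F] V) = D p := by
    intro l
    obtain ⟨b, hb, hQb⟩ := S.exists_same i l ha
    have hQb0 : Q b ≠ 0 := by rw [hQb]; exact hQa
    have hb0 : b ≠ 0 := by rintro rfl; exact hQb0 (QuadraticMap.map_zero Q)
    obtain ⟨b', hb', hQb', hbb', hpol⟩ := S.exists_rot hd ty h4 hb hQb0
    obtain ⟨p, hp⟩ := hkey l b hb hQb
    obtain ⟨p', hp'⟩ := hkey l b' hb' (by rw [hQb', hQb])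
    have hpp : p = p' := by
      by_contra hne
      apply hpol
      rw [← O_polar (S.hMO hg)]
      exact S.orth p p' hne _ hp _ hp'
    subst hpp
    refine ⟨p, ?_⟩
    apply Submodule.eq_of_le_of_finrank_eq
    · rintro _ ⟨x, hx, rfl⟩
      obtain ⟨s, t, rfl⟩ := S.span2 hd hb hb0 hb' hbb' hx
      rw [LinearEquiv.coe_coe, map_add, LinearEquiv.map_smul, LinearEquiv.map_smul]
      exact (D p).add_mem ((D p).smul_mem _ hp) ((D p).smul_mem _ hp')
    · rw [LinearEquiv.finrank_map_eq, hd, hd]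
  choose τ hτ using hkey2
  have hinj : Function.Injective τ := by
    intro l l' hll
    by_contra hne
    have h1 : (D l).map (g : V →ₗ[F] V) = (D l').map (g : V →ₗ[F] V) := by rw [hτ, hτ, hll]
    have h2 : D l = D l' := Submodule.map_injective_of_injective g.injective h1
    obtain ⟨b, hb, hQb⟩ := S.exists_nonsing_in l
    have h3 := S.pr_self hb
    rw [h2] at hb
    rw [S.pr_ne (Ne.symm hne) hb] at h3
    rw [← h3, QuadraticMap.map_zero] at hQb
    exact hQb rfl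
  exact ⟨Equiv.ofBijective τ ⟨hinj, Finite.surjective_of_injective hinj⟩, fun l => hτ l⟩

/-- the second case -/
theorem caseII5 (hd : ∀ i, finrank F (D i) = 2) (ty : Ty Q D) (h4 : 4 ≤ Nat.card F ∨ (2 : F) = 0)
    (h5 : 5 ≤ Fintype.card κ) {E : κ → Submodule F V} {pr' : κ → V →ₗ[F] V} (T : DK Q E pr' M)
    (hd' : ∀ i, finrank F (E i) = 2) (ty' : Ty Q E) (hII : II Q D M) (hII' : II Q E M)
    (hDE : ∀ i j, D i ≠ E j) : Om Q ≤ M := by
  by_contra hM
  -- no vector of the first system is orthogonal to a block of the second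
  have lemF : ∀ i, ∀ a ∈ D i, Q a ≠ 0 → ∀ l, pr' l a ≠ 0 := by
    intro i a ha hQa l hl
    obtain ⟨b, hb, b', hb', hQb, hQb', hinj⟩ := T.exists_rot2 hd' ty' h4 l
    have hy := T.pair_same hb hb' hQb hQb'
    have hya : (refl Q b * refl Q b') a = a := by
      rw [LinearEquiv.mul_apply, T.fix_of_pr hb' hl, T.fix_of_pr hb hl]
    obtain ⟨σ, hσ⟩ := hII _ hy i a ha hQa i (by rw [hya]; exact ha)
    obtain ⟨j, hj⟩ := S.lemP hd (S.hMO hy) hσ (P := E l) (hd' l) (by
      intro z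
      have hQb'0 : Q b' ≠ 0 := by rw [hQb']; exact hQb
      have h1 : (refl Q b * refl Q b') z - z =
          -((Q b')⁻¹ * polar Q b' z) • b' - ((Q b)⁻¹ * polar Q b (refl Q b' z)) • b := by
        rw [LinearEquiv.mul_apply, refl_apply hQb]
        conv_lhs => rw [refl_apply hQb'0 z]
        rw [refl_apply hQb'0 z]
        module
      rw [h1]
      exact (E l).sub_mem ((E l).smul_mem _ hb') ((E l).smul_mem _ hb)) hinj
    exact hDE j l hj.symm
  have lemG : ∀ i j l, ∀ a ∈ D i, ∀ b ∈ D j, ∀ w ∈ E l, Q a ≠ 0 → sc Q a b → a ∉ F ∙ b → Q w ≠ 0 →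
      polar Q a w = 0 → polar Q b w = 0 → False := by
    intro i j l a ha b hb w hw hQa hab hmem hQw haw hbw
    have hx := S.refl_pair ha hb hQa hab
    have hQb : Q b ≠ 0 := by
      obtain ⟨r, hr, hr'⟩ := hab
      intro h0
      rw [h0, mul_zero] at hr'
      exact hQa hr'
    have hxw : (refl Q a * refl Q b) w = w := by
      rw [LinearEquiv.mul_apply, refl_of_perp hbw, refl_of_perp haw]
    obtain ⟨σ, hσ⟩ := hII' _ hx l w hw hQw l (by rw [hxw]; exact hw)
    obtain ⟨i', j', hij⟩ := T.lemG' hd' hQa hQb hmem hσ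
    obtain ⟨m, hm1, hm2, -, -⟩ := T.exists_index4 h5 i' j' j' j'
    exact lemF i a ha hQa m (hij m hm1 hm2)
  have hcomp : ∀ l, ∀ w ∈ E l, Q w ≠ 0 → ∀ i, pr i w ≠ 0 := by
    intro l w hw hQw i hi
    obtain ⟨b, hb, hQb⟩ := S.exists_nonsing_in i
    obtain ⟨b', hb', hQb', hbb'⟩ := S.two_same ty hb hQb
    have h1 := S.pr_zero_iff.1 hi
    exact lemG i i l b' hb' b hb w hw (by rw [hQb']; exact hQb) ⟨1, one_ne_zero, by rw [hQb']; ring⟩ hbb' hQw
      (by rw [polar_comm]; exact h1 b' hb') (by rw [polar_comm]; exact h1 b hb)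
  have horth : ∀ i w, Q (pr i w) ≠ 0 → ∃ a ∈ D i, Q a ≠ 0 ∧ polar Q a w = 0 := by
    intro i w h0
    by_cases h2 : (2 : F) = 0
    · refine ⟨pr i w, S.dec.mem i w, h0, ?_⟩
      rw [← S.polar_pr' (S.dec.mem i w), polar_self', h2, zero_mul]
    · obtain ⟨c, hc, hbc, -, -, hQc⟩ := S.exists_orth h2 (S.dec.mem i w) h0
      exact ⟨c, hc, hQc (hd i), by rw [← S.polar_pr' hc, polar_comm]; exact hbc⟩
  have hthree : ∀ l, ∀ w ∈ E l, Q w ≠ 0 → ∀ i j k, i ≠ j → i ≠ k → j ≠ k → Q (pr i w) ≠ 0 → Q (pr j w) ≠ 0 →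
      Q (pr k w) ≠ 0 → False := by
    intro l w hw hQw i j k hij hik hjk hi hj hk
    obtain ⟨a, ha, hQa, haw⟩ := horth i w hi
    obtain ⟨b, hb, hQb, hbw⟩ := horth j w hj
    obtain ⟨c, hc, hQc, hcw⟩ := horth k w hk
    have hnm : ∀ i j, i ≠ j → ∀ a ∈ D i, ∀ b ∈ D j, Q a ≠ 0 → a ∉ F ∙ b := by
      intro i j hij a ha b hb hQa hm
      obtain ⟨t, rfl⟩ := Submodule.mem_span_singleton.1 hm
      have h1 := S.pr_self ha
      rw [S.pr_ne (Ne.symm hij) ((D j).smul_mem _ hb)] at h1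
      rw [← h1, QuadraticMap.map_zero] at hQa
      exact hQa rfl
    by_cases s1 : IsSquare (Q a * Q b)
    · exact lemG i j l a ha b hb w hw hQa (sc_of_isSquare hQa hQb s1) (hnm i j hij a ha b hb hQa) hQw haw hbw
    by_cases s2 : IsSquare (Q a * Q c)
    · exact lemG i k l a ha c hc w hw hQa (sc_of_isSquare hQa hQc s2) (hnm i k hik a ha c hc hQa) hQw haw hcw
    have s3 : IsSquare (Q b * Q c) := by
      obtain ⟨r, hr⟩ := isSquare_mul_of_not_isSquare s1 s2
      refine ⟨r * (Q a)⁻¹, ?_⟩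
      field_simp
      linear_combination hr
    exact lemG j k l b hb c hc w hw hQb (sc_of_isSquare hQb hQc s3) (hnm j k hjk b hb c hc hQb) hQw hbw hcw
  obtain ⟨l0, -⟩ : ∃ l : κ, l ∉ (∅ : Finset κ) := S.exists_third_index ∅ (by simp; omega)
  obtain ⟨l1, hl1, -, -, -⟩ := S.exists_index4 h5 l0 l0 l0 l0
  obtain ⟨l2, hl2, hl2', -, -⟩ := S.exists_index4 h5 l0 l1 l1 l1
  obtain ⟨w0, hw0, hQw0⟩ := T.exists_nonsing_in l0
  rcases ty with han | ⟨hq7, hsg⟩
  · have h1 : ∀ i, Q (pr i w0) ≠ 0 := fun i h0 => hcomp l0 w0 hw0 hQw0 i (han i _ (S.dec.mem i w0) h0)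
    exact hthree l0 w0 hw0 hQw0 l0 l1 l2 hl1.symm hl2.symm hl2'.symm (h1 _) (h1 _) (h1 _)
  · have hex : ∀ l, ∃ w ∈ E l, Q w = Q w0 := fun l => T.exists_same l0 l hw0
    choose w hw hQw using hex
    have hQw' : ∀ l, Q (w l) ≠ 0 := fun l => by rw [hQw]; exact hQw0
    classical
    -- nonsingular components
    have hBc : ∀ l, (Finset.univ.filter (fun i => Q (pr i (w l)) ≠ 0)).card ≤ 2 := by
      intro l
      by_contra hcon
      push Not at hcon
      obtain ⟨i, hi, j, hj, k, hk, hij, hik, hjk⟩ := Finset.two_lt_card.1 hcon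
      rw [Finset.mem_filter] at hi hj hk
      exact hthree l (w l) (hw l) (hQw' l) i j k hij hik hjk hi.2 hj.2 hk.2
    have hCc : ∀ l, Fintype.card κ - 2 ≤ (Finset.univ.filter (fun i => Q (pr i (w l)) = 0)).card := by
      intro l
      have h1 := Finset.card_filter_add_card_filter_not (s := (Finset.univ : Finset κ)) (fun i => Q (pr i (w l)) = 0)
      have h2 := hBc l
      rw [Finset.card_univ] at h1
      simp only [ne_eq] at h2
      omega
    -- double counting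
    obtain ⟨i, hi⟩ : ∃ i, 2 < (Finset.univ.filter (fun l => Q (pr i (w l)) = 0)).card := by
      by_contra hcon
      push Not at hcon
      have h1 : ∑ i : κ, (Finset.univ.filter (fun l => Q (pr i (w l)) = 0)).card =
          ∑ l : κ, (Finset.univ.filter (fun i => Q (pr i (w l)) = 0)).card := by
        simp only [Finset.card_filter]
        exact Finset.sum_comm
      have h2 : ∑ i : κ, (Finset.univ.filter (fun l => Q (pr i (w l)) = 0)).card ≤ ∑ _i : κ, 2 :=
        Finset.sum_le_sum fun i _ => hcon i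
      have h3 : ∑ _l : κ, (Fintype.card κ - 2) ≤ ∑ l : κ, (Finset.univ.filter (fun i => Q (pr i (w l)) = 0)).card :=
        Finset.sum_le_sum fun l _ => hCc l
      rw [h1] at h2
      have h4 := h3.trans h2
      rw [Finset.sum_const, Finset.sum_const, Finset.card_univ, smul_eq_mul, smul_eq_mul] at h4
      have h5' := Nat.le_of_mul_le_mul_left h4 (by omega)
      omega
    obtain ⟨m0, hi0, m1, hi1, m2, hi2, hm01, hm02, hm12⟩ := Finset.two_lt_card.1 hi
    rw [Finset.mem_filter] at hi0 hi1 hi2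
    have hi0 := hi0.2
    have hi1 := hi1.2
    have hi2 := hi2.2
    have c0 := hcomp m0 (w m0) (hw m0) (hQw' m0) i
    have c1 := hcomp m1 (w m1) (hw m1) (hQw' m1) i
    have c2 := hcomp m2 (w m2) (hw m2) (hQw' m2) i
    have hind : ∀ l l', l ≠ l' → ∀ w ∈ E l, ∀ w' ∈ E l', Q w ≠ 0 → ∀ s : F, w + s • w' ≠ 0 := by
      intro l l' hll w hw w' hw' hQw s h0
      have h1 := congrArg (pr' l) h0
      rw [map_add, map_zero, T.pr_self hw, T.pr_ne hll.symm ((E l').smul_mem _ hw'), add_zero] at h1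
      rw [h1, QuadraticMap.map_zero] at hQw
      exact hQw rfl
    have hfin : ∀ l l', l ≠ l' → pr i (w l) ≠ 0 → Q (pr i (w l)) = 0 → pr i (w l') ∈ F ∙ (pr i (w l)) →
        pr i (w l') ≠ 0 → False := by
      intro l l' hll h1 h2 h3 h4
      exact hM (S.finish2 hd (Or.inr ⟨hq7, hsg⟩) h5 hq7 (T.orth l l' hll (w l) (hw l) (w l') (hw l')) (hQw' l)
        (by rw [hQw, hQw]) (T.pair_same (hw l) (hw l') (hQw' l) (by rw [hQw, hQw]))
        (hind l l' hll (w l) (hw l) (w l') (hw l') (hQw' l)) h1 h2 h3 h4)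
    rcases S.prop3 hd (S.dec.mem i (w m0)) (S.dec.mem i (w m1)) (S.dec.mem i (w m2)) c0 c1 c2 hi0 hi1 hi2 with h | h | h
    · exact hfin m0 m1 hm01 c0 hi0 h c1
    · exact hfin m0 m2 hm02 c0 hi0 h c2
    · exact hfin m1 m2 hm12 c1 hi1 h c2

/-- the main theorem for planes -/
theorem main5 (hd : ∀ i, finrank F (D i) = 2) (ty : Ty Q D) (h4 : 4 ≤ Nat.card F ∨ (2 : F) = 0)
    (h5 : 5 ≤ Fintype.card κ) {m : V ≃ₗ[F] V} (hm : m ∈ M) (hnp : ¬ ∃ σ : Equiv.Perm κ, Pm D m σ) : Om Q ≤ M := by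
  by_contra hM
  have T := S.conj hm
  have hd' : ∀ i, finrank F ((D i).map (m : V →ₗ[F] V)) = 2 := fun i => by rw [LinearEquiv.finrank_map_eq]; exact hd i
  have ty' : Ty Q (fun i => (D i).map (m : V →ₗ[F] V)) := by
    rcases ty with han | ⟨h, hs⟩
    · left
      rintro i _ ⟨x, hx, rfl⟩ h0
      rw [LinearEquiv.coe_coe] at h0 ⊢
      rw [S.hMO hm] at h0
      rw [han i x hx h0, map_zero]
    · right
      refine ⟨h, fun i => ?_⟩
      obtain ⟨x, hx, hx0, hQx⟩ := hs i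
      exact ⟨m x, ⟨x, hx, rfl⟩, fun h0 => hx0 (m.injective (by rw [h0, map_zero])), by rw [S.hMO hm, hQx]⟩
  have hII := S.exists_II5 hd ty h4 h5 hM
  have hII' := T.exists_II5 hd' ty' h4 h5 hM
  refine hM (S.caseII5 hd ty h4 h5 T hd' ty' hII hII' ?_)
  intro i j hij
  obtain ⟨a, ha, hQa⟩ := S.exists_nonsing_in j
  apply hnp
  refine hII m hm j a ha hQa i ?_
  rw [hij]
  exact ⟨a, ha, rfl⟩

end DK

end Cfsg.Agent.Lib.Dk2H94
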