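import Mathlib
import Cfsg.Agent.Lib.OrthNd
import Cfsg.Agent.Lib.SLBlockH94

set_option autoImplicit false
set_option linter.unusedSectionVars false
set_option linter.unusedSimpArgs false
set_option linter.unusedVariables false

/-!
Overgroups of stabilisers of orthogonal decompositions.
-/

namespace Cfsg.Agent.Lib.OrthDecH94

open QuadraticMap Module Cfsg.Agent.Lib.Quad Cfsg.Agent.Lib.OrthMax Cfsg.Agent.Lib.OrthNd
open Cfsg.Agent.Lib.SLBlockH94 (Dec)

variable {F V : Type*} [Field F] [AddCommGroup V] [Module F V] [FiniteDimensional F V]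
  {Q : QuadraticForm F V} {M : Subgroup (V ≃ₗ[F] V)}

/-- Siegel root lines in `M` -/
def SF (Q : QuadraticForm F V) (M : Subgroup (V ≃ₗ[F] V)) (z y : V) : Prop :=
  Q z = 0 ∧ polar Q z y = 0 ∧ ∀ s : F, SI Q M z (s • y)

theorem SF.add {z y y' : V} (h : SF Q M z y) (h' : SF Q M z y') : SF Q M z (y + y') := by
  refine ⟨h.1, by rw [polar_add_right, h.2.1, h'.2.1, add_zero], fun s => ?_⟩
  rw [smul_add]
  exact (h.2.2 s).add h.1 (by rw [polar_smul_right, h.2.1, smul_zero]) (by rw [polar_smul_right, h'.2.1, smul_zero])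
    (h'.2.2 s)

theorem SF.smul {z y : V} (h : SF Q M z y) (c : F) : SF Q M z (c • y) := by
  refine ⟨h.1, by rw [polar_smul_right, h.2.1, smul_zero], fun s => ?_⟩
  rw [smul_smul]
  exact h.2.2 _

theorem SF.of_smul {z y : V} {c : F} (hc : c ≠ 0) (h : SF Q M z (c • y)) : SF Q M z y := by
  have := h.smul c⁻¹
  rwa [smul_smul, inv_mul_cancel₀ hc, one_smul] at this

theorem SF.sub {z y y' : V} (h : SF Q M z y) (h' : SF Q M z y') : SF Q M z (y - y') := by
  have := h.add (h'.smul (-1))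
  rwa [neg_smul, one_smul, ← sub_eq_add_neg] at this

theorem SF.zero {z : V} (h : Q z = 0) : SF Q M z 0 :=
  ⟨h, polar_zero_right _ _, fun s => by rw [smul_zero]; exact SI.zero z⟩

theorem SF.zero_left (y : V) : SF Q M 0 y :=
  ⟨QuadraticMap.map_zero Q, polar_zero_left _ _, fun s => SI.zero_left _⟩

theorem SF.self {z : V} (h : Q z = 0) : SF Q M z z := by
  refine ⟨h, by rw [polar_self', h, mul_zero], fun s => ⟨1, one_mem _, fun x => ?_⟩⟩
  rw [siegMap_apply, Q_smul, h, polar_smul_left, smul_smul, smul_eq_mul, mul_comm (polar Q z x) s]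
  simp

theorem SF.map (hM : M ≤ O Q) {z y : V} (h : SF Q M z y) {g : V ≃ₗ[F] V} (hg : g ∈ M) : SF Q M (g z) (g y) := by
  refine ⟨by rw [hM hg, h.1], by rw [O_polar (hM hg), h.2.1], fun s => ?_⟩
  rw [← LinearEquiv.map_smul]
  exact (h.2.2 s).map hg (hM hg)

theorem SF.swap {z y : V} (h : SF Q M z y) (hy : Q y = 0) : SF Q M y z := by
  refine ⟨hy, by rw [polar_comm]; exact h.2.1, fun s => ?_⟩
  obtain ⟨g, hg, hgx⟩ := h.2.2 (-s)
  refine ⟨g, hg, fun x => ?_⟩
  rw [hgx, siegMap_apply, siegMap_apply, Q_smul, Q_smul, hy, h.1, polar_smul_left, polar_smul_left, smul_eq_mul,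
    smul_eq_mul]
  module

theorem SF.smul_left {z y : V} (h : SF Q M z y) (c : F) : SF Q M (c • z) y := by
  refine ⟨by rw [Q_smul, h.1, mul_zero], by rw [polar_smul_left, h.2.1, smul_zero], fun s => ?_⟩
  rw [SI.smul_left, smul_smul]
  exact h.2.2 _

/-- the vectors of a centre form a subspace -/
def Us (Q : QuadraticForm F V) (M : Subgroup (V ≃ₗ[F] V)) {z : V} (hz : Q z = 0) : Submodule F V where
  carrier := {y | SF Q M z y}
  add_mem' h h' := SF.add h h'
  zero_mem' := SF.zero hz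
  smul_mem' c _ h := SF.smul h c

theorem mem_Us {z : V} (hz : Q z = 0) {y : V} : y ∈ Us Q M hz ↔ SF Q M z y := Iff.rfl

variable {κ : Type*} [Fintype κ] [DecidableEq κ]

/-- the situation -/
structure OD (Q : QuadraticForm F V) (D : κ → Submodule F V) (pr : κ → V →ₗ[F] V)
    (M : Subgroup (V ≃ₗ[F] V)) : Prop where
  hQ : Nd Q
  gen : GenHyp Q
  dec : Dec D pr
  orth : ∀ i j, i ≠ j → ∀ x ∈ D i, ∀ y ∈ D j, polar Q x y = 0
  hM : M ≤ O Q
  dim : ∀ i, 3 ≤ finrank F (D i)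
  iso : ∀ i j, ∃ e : D i ≃ₗ[F] D j, ∀ w : D i, Q ((e w : D j) : V) = Q (w : V)
  H : ∀ g ∈ Om Q, (∃ σ : Equiv.Perm κ, ∀ i, (D i).map (g : V →ₗ[F] V) = D (σ i)) → g ∈ M

/-- permuting a decomposition -/
def Pm (D : κ → Submodule F V) (g : V ≃ₗ[F] V) (σ : Equiv.Perm κ) : Prop :=
  ∀ i, (D i).map (g : V →ₗ[F] V) = D (σ i)

theorem Pm.mul {D : κ → Submodule F V} {g h : V ≃ₗ[F] V} {σ τ : Equiv.Perm κ} (hg : Pm D g σ) (hh : Pm D h τ) :
    Pm D (g * h) (σ * τ) := by
  intro i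
  have : (D i).map ((g * h : V ≃ₗ[F] V) : V →ₗ[F] V) = ((D i).map (h : V →ₗ[F] V)).map (g : V →ₗ[F] V) := by
    rw [← Submodule.map_comp]; rfl
  rw [this, hh i, hg]; rfl

theorem Pm.inv {D : κ → Submodule F V} {g : V ≃ₗ[F] V} {σ : Equiv.Perm κ} (hg : Pm D g σ) :
    Pm D g⁻¹ σ⁻¹ := by
  intro i
  have h1 := hg (σ⁻¹ i)
  rw [show σ (σ⁻¹ i) = i from σ.apply_symm_apply i] at h1
  conv_lhs => rw [← h1]
  rw [← Submodule.map_comp]
  have : ((g⁻¹ : V ≃ₗ[F] V) : V →ₗ[F] V) ∘ₗ (g : V →ₗ[F] V) = LinearMap.id := by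
    apply LinearMap.ext
    intro x
    show (g⁻¹ * g) x = x
    rw [inv_mul_cancel]; rfl
  rw [this, Submodule.map_id]

namespace OD

variable {D : κ → Submodule F V} {pr : κ → V →ₗ[F] V} (S : OD Q D pr M)
include S

theorem polar_pr {i : κ} {y : V} (hy : y ∈ D i) (x : V) : polar Q (pr i x) y = polar Q x y := by
  conv_rhs => rw [← S.dec.sum x]
  have h1 : ∀ s : Finset κ, polar Q (∑ j ∈ s, pr j x) y = ∑ j ∈ s, polar Q (pr j x) y := by
    intro s
    induction s using Finset.induction_on with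
    | empty => rw [Finset.sum_empty, Finset.sum_empty, polar_zero_left]
    | insert a s ha ih => rw [Finset.sum_insert ha, Finset.sum_insert ha, polar_add_left, ih]
  rw [h1, Finset.sum_eq_single i]
  · intro j _ hj
    exact S.orth j i hj _ (S.dec.mem j x) y hy
  · intro h; exact absurd (Finset.mem_univ i) h

theorem polar_pr' {i : κ} {y : V} (hy : y ∈ D i) (x : V) : polar Q y (pr i x) = polar Q y x := by
  rw [polar_comm, S.polar_pr hy, polar_comm]

theorem nds (i : κ) : NDs Q (D i) := by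
  rw [NDs, eq_bot_iff]
  rintro x ⟨hx, hx'⟩
  rw [Submodule.mem_bot]
  apply S.hQ.eq_zero
  intro y
  rw [← S.polar_pr' hx, polar_comm]
  exact mem_perp.1 hx' _ (S.dec.mem i y)

theorem perp_iff {i : κ} {w : V} : w ∈ perp Q (D i) ↔ pr i w = 0 := by
  constructor
  · intro h
    have h1 : pr i w ∈ D i ⊓ perp Q (D i) := by
      refine ⟨S.dec.mem i w, mem_perp.2 fun y hy => ?_⟩
      rw [S.polar_pr' hy]
      exact mem_perp.1 h y hy
    rwa [S.nds i, Submodule.mem_bot] at h1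
  · intro h
    rw [mem_perp]
    intro y hy
    rw [← S.polar_pr' hy, h, polar_zero_right]

theorem pr_ne {i j : κ} (hij : i ≠ j) {x : V} (hx : x ∈ D i) : pr j x = 0 := S.dec.zero j i x (Ne.symm hij) hx

theorem eq_of_pr {i : κ} {x : V} (h : ∀ j, j ≠ i → pr j x = 0) : x ∈ D i := by
  have h1 := S.dec.sum x
  rw [Finset.sum_eq_single i (fun j _ hj => h j hj) (fun h => absurd (Finset.mem_univ i) h)] at h1
  rw [← h1]
  exact S.dec.mem i x

/-- elements acting inside one block -/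
theorem mem_of_block {i : κ} {g : V ≃ₗ[F] V} (hg : g ∈ Om Q) (h1 : ∀ x ∈ D i, g x ∈ D i)
    (h2 : ∀ x ∈ perp Q (D i), g x = x) : g ∈ M := by
  refine S.H g hg ⟨1, fun j => ?_⟩
  rw [Equiv.Perm.one_apply]
  apply Submodule.eq_of_le_of_finrank_eq
  · rintro _ ⟨x, hx, rfl⟩
    by_cases hij : i = j
    · subst hij; exact h1 x hx
    · have : x ∈ perp Q (D i) := S.perp_iff.2 (S.pr_ne (Ne.symm hij) hx)
      rw [LinearEquiv.coe_coe, h2 x this]; exact hx
  · exact LinearEquiv.finrank_map_eq g _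

variable [Finite F]

/-- Siegel elements inside a block -/
theorem sf_block {i : κ} {e d : V} (he : e ∈ D i) (hd : d ∈ D i) (hQe : Q e = 0) (hed : polar Q e d = 0) :
    SF Q M e d := by
  refine ⟨hQe, hed, fun s => ?_⟩
  have hsd : s • d ∈ D i := Submodule.smul_mem _ _ hd
  have hesd : polar Q e (s • d) = 0 := by rw [polar_smul_right, hed, smul_zero]
  refine ⟨sieg S.hQ hQe hesd, S.mem_of_block (i := i) (S.hQ.sieg_mem_Om S.gen hQe hesd) ?_ ?_, fun x => ?_⟩
  · intro x hx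
    rw [sieg_apply]
    exact (D i).sub_mem ((D i).sub_mem ((D i).add_mem hx (Submodule.smul_mem _ _ hsd)) (Submodule.smul_mem _ _ he))
      (Submodule.smul_mem _ _ he)
  · intro x hx
    rw [sieg_apply, mem_perp.1 hx e he, mem_perp.1 hx _ hsd]
    simp
  · rw [sieg_apply, siegMap_apply]

/-- the absorbing lemma -/
theorem absorb {j : κ} {w y : V} (hw : Q w = 0) (hwj : pr j w = 0) (h : SF Q M w y) (hy : pr j y ≠ 0) :
    ∀ z ∈ D j, SF Q M w z := by
  have hwp := S.perp_iff.2 hwj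
  have h1 : D j ≤ Us Q M hw := by
    refine le_of_sieg_stable S.hQ (S.nds j) (S.dim j) ?_ (w := y) h ?_
    · intro z hz y' hy' hQz hzy' u hu
      obtain ⟨g, hg, hgx⟩ := (S.sf_block hz hy' hQz hzy').2.2 1
      rw [one_smul] at hgx
      have h2 := SF.map S.hM (show SF Q M w u from hu) hg
      rw [hgx, hgx] at h2
      have h3 : siegMap Q z y' w = w := by
        rw [siegMap_apply, mem_perp.1 hwp z hz, mem_perp.1 hwp y' hy']; simp
      rw [h3] at h2
      exact h2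
    · intro h2
      exact hy (S.perp_iff.1 h2)
  exact fun z hz => h1 hz

/-- all pairs -/
def FP (Q : QuadraticForm F V) (M : Subgroup (V ≃ₗ[F] V)) (D : κ → Submodule F V) (i j : κ) : Prop :=
  ∀ e ∈ D i, Q e = 0 → ∀ z ∈ D j, SF Q M e z

theorem fp_of {i j : κ} (hij : i ≠ j) {e y : V} (he : e ∈ D i) (he0 : e ≠ 0) (h : SF Q M e y) (hy : pr j y ≠ 0) :
    FP Q M D i j ∧ FP Q M D j i := by
  have h1 : FP Q M D j i := by
    intro z hz hQz x hx
    by_cases hz0 : z = 0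
    · rw [hz0]; exact SF.zero_left x
    · have h2 := S.absorb h.1 (S.pr_ne hij he) h hy z hz
      exact S.absorb hQz (S.pr_ne (Ne.symm hij) hz) (h2.swap hQz) (by rwa [S.dec.self i e he]) x hx
  refine ⟨?_, h1⟩
  intro x hx hQx z hz
  obtain ⟨z₀, hz₀, f, -, hQz₀, -, hzf⟩ := exists_pair_in S.hQ (S.nds j) (S.dim j)
  have hz₀0 : z₀ ≠ 0 := by rintro rfl; rw [polar_zero_left] at hzf; exact zero_ne_one hzf
  exact S.absorb hQx (S.pr_ne hij hx) ((h1 z₀ hz₀ hQz₀ x hx).swap hQx) (by rwa [S.dec.self j z₀ hz₀]) z hz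

omit [Finite F] in
/-- swapping two blocks -/
theorem exists_swap {i j : κ} (hij : i ≠ j) : ∃ τ ∈ O Q, Pm D τ (Equiv.swap i j) := by
  obtain ⟨e, he⟩ := S.iso i j
  obtain ⟨A, hA⟩ : ∃ A : V →ₗ[F] V, ∀ x, A x = (e ⟨pr i x, S.dec.mem i x⟩ : V) :=
    ⟨(D j).subtype ∘ₗ (e : D i →ₗ[F] D j) ∘ₗ ((pr i).codRestrict (D i) (S.dec.mem i)), fun x => rfl⟩
  obtain ⟨B, hB⟩ : ∃ B : V →ₗ[F] V, ∀ x, B x = (e.symm ⟨pr j x, S.dec.mem j x⟩ : V) :=
    ⟨(D i).subtype ∘ₗ (e.symm : D j →ₗ[F] D i) ∘ₗ ((pr j).codRestrict (D j) (S.dec.mem j)), fun x => rfl⟩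
  have hAQ : ∀ x, Q (A x) = Q (pr i x) := fun x => by rw [hA, he]
  have hBQ : ∀ x, Q (B x) = Q (pr j x) := fun x => by
    rw [hB, ← he, LinearEquiv.apply_symm_apply]
  have hAm : ∀ x, A x ∈ D j := fun x => by rw [hA]; exact SetLike.coe_mem _
  have hBm : ∀ x, B x ∈ D i := fun x => by rw [hB]; exact SetLike.coe_mem _
  have key : ∀ x a b : V, a ∈ D i → b ∈ D j →
      Q (x - pr i x - pr j x + a + b) = Q (x - pr i x - pr j x) + Q a + Q b := by
    intro x a b ha hb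
    have h1 : polar Q (x - pr i x - pr j x) a = 0 := by
      rw [← S.polar_pr ha, map_sub, map_sub, S.dec.self i _ (S.dec.mem i x), S.dec.zero i j _ hij (S.dec.mem j x),
        sub_self, sub_zero, polar_zero_left]
    have h2 : polar Q (x - pr i x - pr j x) b = 0 := by
      rw [← S.polar_pr hb, map_sub, map_sub, S.dec.self j _ (S.dec.mem j x),
        S.dec.zero j i _ (Ne.symm hij) (S.dec.mem i x), sub_zero, sub_self, polar_zero_left]
    rw [Q_add, Q_add, polar_add_left, h1, h2, S.orth i j hij a ha b hb]; ring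
  obtain ⟨τ, hτ⟩ : ∃ τ : V →ₗ[F] V, ∀ x, τ x = x - pr i x - pr j x + B x + A x :=
    ⟨LinearMap.id - pr i - pr j + B + A, fun x => rfl⟩
  have hτQ : ∀ x, Q (τ x) = Q x := by
    intro x
    rw [hτ, key x _ _ (hBm x) (hAm x), hAQ, hBQ]
    have h1 := key x _ _ (S.dec.mem i x) (S.dec.mem j x)
    have e1 : x - pr i x - pr j x + pr i x + pr j x = x := by abel
    rw [e1] at h1
    rw [h1]; ring
  refine ⟨ofMap S.hQ τ hτQ, ofMap_mem _ _ _, fun l => ?_⟩
  have hl : ∀ x, (ofMap S.hQ τ hτQ : V ≃ₗ[F] V) x = τ x := fun x => by rw [ofMap_apply]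
  have hfin : finrank F (D i) = finrank F (D j) := e.finrank_eq
  have hfr : finrank F ((D l).map ((ofMap S.hQ τ hτQ : V ≃ₗ[F] V) : V →ₗ[F] V)) =
    finrank F (D (Equiv.swap i j l)) := by
    rw [LinearEquiv.finrank_map_eq]
    rcases eq_or_ne l i with rfl | h1
    · rw [Equiv.swap_apply_left, hfin]
    rcases eq_or_ne l j with rfl | h2
    · rw [Equiv.swap_apply_right, hfin]
    rw [Equiv.swap_apply_of_ne_of_ne h1 h2]
  apply Submodule.eq_of_le_of_finrank_eq _ hfr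
  rintro _ ⟨x, hx, rfl⟩
  rw [LinearEquiv.coe_coe, hl, hτ]
  rcases eq_or_ne l i with rfl | h1
  · rw [Equiv.swap_apply_left, S.dec.self l x hx, S.pr_ne hij hx]
    have : B x = 0 := by
      rw [hB]
      have : (⟨pr j x, S.dec.mem j x⟩ : D j) = 0 := Subtype.ext (S.pr_ne hij hx)
      rw [this, map_zero]; rfl
    rw [this, sub_self, sub_zero, zero_add, zero_add]
    exact hAm x
  rcases eq_or_ne l j with rfl | h2
  · rw [Equiv.swap_apply_right, S.dec.self l x hx, S.pr_ne (Ne.symm hij) hx]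
    have : A x = 0 := by
      rw [hA]
      have : (⟨pr i x, S.dec.mem i x⟩ : D i) = 0 := Subtype.ext (S.pr_ne (Ne.symm hij) hx)
      rw [this, map_zero]; rfl
    rw [this, sub_zero, sub_self, zero_add, add_zero]
    exact hBm x
  · rw [Equiv.swap_apply_of_ne_of_ne h1 h2]
    have h3 := S.pr_ne h1 hx
    have h4 := S.pr_ne h2 hx
    have hA0 : A x = 0 := by
      rw [hA]
      have : (⟨pr i x, S.dec.mem i x⟩ : D i) = 0 := Subtype.ext h3
      rw [this, map_zero]; rfl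
    have hB0 : B x = 0 := by
      rw [hB]
      have : (⟨pr j x, S.dec.mem j x⟩ : D j) = 0 := Subtype.ext h4
      rw [this, map_zero]; rfl
    rw [hA0, hB0, h3, h4]
    simpa using hx

theorem fp_perm {i j : κ} (h : FP Q M D i j) {g : V ≃ₗ[F] V} (hg : g ∈ M) {σ : Equiv.Perm κ} (hσ : Pm D g σ) :
    FP Q M D (σ i) (σ j) := by
  intro e he hQe z hz
  rw [← hσ i] at he
  rw [← hσ j] at hz
  obtain ⟨e, he, rfl⟩ := he
  obtain ⟨z, hz, rfl⟩ := hz
  have hg' : ∀ x, Q (g x) = Q x := S.hM hg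
  exact (h e he (by rw [← hg']; exact hQe) z hz).map S.hM hg

/-- three-cycles -/
theorem exists_three {i j l : κ} (hij : i ≠ j) (hjl : j ≠ l) (hil : i ≠ l) :
    ∃ g ∈ M, ∃ σ : Equiv.Perm κ, Pm D g σ ∧ σ i = l ∧ σ j = i ∧ σ l = j := by
  obtain ⟨a, ha, haσ⟩ := S.exists_swap hij
  obtain ⟨b, hb, hbσ⟩ := S.exists_swap hjl
  have h1 := ((haσ.mul hbσ).mul haσ.inv).mul hbσ.inv
  refine ⟨a * b * a⁻¹ * b⁻¹, S.H _ ?_ ⟨_, h1⟩, _, h1, ?_, ?_, ?_⟩
  · have := Subgroup.commutator_mem_commutator ha hb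
    rwa [commutatorElement_def] at this
  · simp only [Equiv.Perm.mul_apply, Equiv.swap_inv]
    rw [Equiv.swap_apply_of_ne_of_ne hij hil, Equiv.swap_apply_left, Equiv.swap_apply_left,
      Equiv.swap_apply_of_ne_of_ne (Ne.symm hil) (Ne.symm hjl)]
  · simp only [Equiv.Perm.mul_apply, Equiv.swap_inv]
    rw [Equiv.swap_apply_left, Equiv.swap_apply_of_ne_of_ne (Ne.symm hil) (Ne.symm hjl), Equiv.swap_apply_right,
      Equiv.swap_apply_right]
  · simp only [Equiv.Perm.mul_apply, Equiv.swap_inv]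
    rw [Equiv.swap_apply_right, Equiv.swap_apply_right, Equiv.swap_apply_of_ne_of_ne hij hil,
      Equiv.swap_apply_left]

/-- Lemma B -/
theorem lemB {i : κ} {e y : V} (he : e ∈ D i) (he0 : e ≠ 0) (h : SF Q M e y) (hy : y ∉ D i) : Om Q ≤ M := by
  obtain ⟨j, hji, hj⟩ : ∃ j, j ≠ i ∧ pr j y ≠ 0 := by
    by_contra hcon
    push Not at hcon
    exact hy (S.eq_of_pr hcon)
  obtain ⟨h1, h2⟩ := S.fp_of (Ne.symm hji) he he0 h hj
  have hall : ∀ l, l ≠ i → FP Q M D i l := by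
    intro l hl
    by_cases hlj : l = j
    · rw [hlj]; exact h1
    · obtain ⟨g, hg, σ, hσ, e1, e2, e3⟩ := S.exists_three (Ne.symm hji) (Ne.symm hlj) (Ne.symm hl)
      have := S.fp_perm h2 hg hσ
      rwa [e1, e2] at this
  have hfull : ∀ e ∈ D i, Q e = 0 → Full Q M e := by
    intro e he hQe
    refine ⟨hQe, fun y' hy' => ?_⟩
    have h3 : y' ∈ Us Q M hQe := by
      rw [← S.dec.sum y']
      apply Submodule.sum_mem
      intro l _
      by_cases hl : l = i
      · subst hl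
        exact S.sf_block he (S.dec.mem l y') hQe (by rw [S.polar_pr' he]; exact hy')
      · exact hall l hl e he hQe _ (S.dec.mem l y')
    have h4 := (show SF Q M e y' from h3).2.2 1
    rwa [one_smul] at h4
  obtain ⟨a, ha, b, hb, hQa, hQb, hab⟩ := exists_pair_in S.hQ (S.nds i) (S.dim i)
  refine Om_le_of_two S.hQ S.gen ?_ S.hM (hfull a ha hQa) (hfull b hb hQb) (by rw [hab]; exact one_ne_zero)
  have h5 : D i < ⊤ := lt_of_le_of_ne le_top fun h => hy (by rw [h]; trivial)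
  have h6 := Submodule.finrank_lt_finrank_of_lt h5
  rw [finrank_top] at h6
  have := S.dim i
  omega

/-- Lemma NB -/
theorem lemN {j : κ} {w x : V} (hw0 : w ≠ 0) (hwj : pr j w = 0) (h : SF Q M w x) (hx : pr j x ≠ 0) :
    Om Q ≤ M := by
  obtain ⟨z, hz, f, -, hQz, -, hzf⟩ := exists_pair_in S.hQ (S.nds j) (S.dim j)
  have hz0 : z ≠ 0 := by rintro rfl; rw [polar_zero_left] at hzf; exact zero_ne_one hzf
  refine S.lemB hz hz0 ((S.absorb h.1 hwj h hx z hz).swap hQz) fun hcon => hw0 ?_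
  rw [← S.dec.self j w hcon, hwj]

end OD

end Cfsg.Agent.Lib.OrthDecH94
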