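import Mathlib
import Cfsg.Agent.Lib.OrthDecH94

set_option autoImplicit false
set_option linter.unusedSectionVars false
set_option linter.unusedSimpArgs false
set_option linter.unusedVariables false

/-!
Overgroups of stabilisers of orthogonal decompositions, odd characteristic.
-/

namespace Cfsg.Agent.Lib.OrthDecH94

open QuadraticMap Module Cfsg.Agent.Lib.Quad Cfsg.Agent.Lib.OrthMax Cfsg.Agent.Lib.OrthNd
open Cfsg.Agent.Lib.SLBlockH94 (Dec)

variable {F V : Type*} [Field F] [AddCommGroup V] [Module F V] [FiniteDimensional F V]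
  {Q : QuadraticForm F V} {M : Subgroup (V ≃ₗ[F] V)}

/-- a singular vector not orthogonal to a given one -/
theorem exists_sing_polar [Finite F] (hQ : Nd Q) {A : Submodule F V} (hA : NDs Q A) (hdim : 3 ≤ finrank F A)
    {x : V} (hx : x ∈ A) (hx0 : x ≠ 0) : ∃ e ∈ A, Q e = 0 ∧ polar Q x e = 1 := by
  obtain ⟨a, ha, b, hb, hQa, hQb, hab⟩ := exists_pair_in hQ hA hdim
  obtain ⟨z, hzA, hz, hzx⟩ : ∃ z ∈ A, Q z = 0 ∧ polar Q x z ≠ 0 := by
    by_contra hcon
    push Not at hcon
    apply hx0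
    have h1 : x ∈ A ⊓ perp Q A := by
      refine ⟨hx, mem_perp'.2 ?_⟩
      exact functional_zero ha hb hQa hQb hab (polarBilin Q x) fun z hzA hz => hcon z hzA hz
    rwa [show A ⊓ perp Q A = ⊥ from hA, Submodule.mem_bot] at h1
  refine ⟨(polar Q x z)⁻¹ • z, A.smul_mem _ hzA, by rw [Q_smul, hz, mul_zero], ?_⟩
  rw [polar_smul_right, smul_eq_mul, inv_mul_cancel₀ hzx]

/-- a nonsingular vector in a nondegenerate subspace -/
theorem exists_nonsing {A : Submodule F V} (hA : NDs Q A) (hdim : 1 ≤ finrank F A) : ∃ x ∈ A, Q x ≠ 0 := by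
  by_contra hcon
  push Not at hcon
  have h1 : A ≤ perp Q A := by
    intro x hx
    rw [mem_perp]
    intro y hy
    rw [polar, hcon _ (A.add_mem hy hx), hcon _ hx, hcon _ hy]; ring
  have h2 : A = ⊥ := by
    rw [← show A ⊓ perp Q A = ⊥ from hA]
    exact (inf_eq_left.2 h1).symm
  rw [h2, finrank_bot] at hdim
  omega

theorem exists_nonsing_perp' [Finite F] (hQ : Nd Q) {A : Submodule F V} (hA : NDs Q A) (hdim : 3 ≤ finrank F A)
    {e : V} (he : e ∈ A) (he0 : e ≠ 0) (hQe : Q e = 0) : ∃ d ∈ A, polar Q e d = 0 ∧ Q d ≠ 0 := by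
  obtain ⟨f, hf, hQf, hef⟩ := exists_partner hQ hA he he0 hQe
  have h1 := finrank_cut hQ A e f
  obtain ⟨d, hd, hQd⟩ := exists_nonsing (nds_cut hQ hA he hf hQe hQf hef) (by omega)
  exact ⟨d, (mem_cut.1 hd).1, (mem_cut.1 hd).2.1, hQd⟩

theorem nds_cut1 (hQ : Nd Q) (h2 : (2 : F) ≠ 0) {A : Submodule F V} (hA : NDs Q A) {a : V} (ha : a ∈ A)
    (hQa : Q a ≠ 0) : NDs Q (A ⊓ perp Q (F ∙ a)) := by
  have haa : polar Q a a ≠ 0 := by rw [polar_self']; exact mul_ne_zero h2 hQa
  rw [NDs, eq_bot_iff]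
  rintro x ⟨⟨hx, hxa'⟩, hx'⟩
  have hxa : polar Q a x = 0 := mem_perp_singleton.1 hxa'
  have h1 : x ∈ A ⊓ perp Q A := by
    refine ⟨hx, mem_perp.2 fun y hy => ?_⟩
    have h3 : y - (polar Q a y / polar Q a a) • a ∈ A ⊓ perp Q (F ∙ a) := by
      refine ⟨A.sub_mem hy (A.smul_mem _ ha), mem_perp_singleton.2 ?_⟩
      rw [polar_sub_right, polar_smul_right, smul_eq_mul, div_mul_cancel₀ _ haa, sub_self]
    have h4 := mem_perp.1 hx' _ h3
    rw [polar_sub_left, polar_smul_left, hxa, smul_zero, sub_zero] at h4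
    exact h4
  rwa [show A ⊓ perp Q A = ⊥ from hA] at h1

theorem finrank_cut1 (hQ : Nd Q) {A : Submodule F V} {a : V} :
    finrank F A ≤ finrank F (A ⊓ perp Q (F ∙ a) : Submodule F V) + 1 := by
  have h1 := Submodule.finrank_sup_add_finrank_inf_eq A (perp Q (F ∙ a))
  have h2 := hQ.finrank_add_finrank_perp (F ∙ a)
  have h3 : finrank F (F ∙ a) ≤ 1 := by
    have := finrank_span_le_card (R := F) ({a} : Set V)
    simpa using this
  have h6 := Submodule.finrank_le (A ⊔ perp Q (F ∙ a))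
  omega

theorem mem_cut1 {A : Submodule F V} {a x : V} : x ∈ A ⊓ perp Q (F ∙ a) ↔ x ∈ A ∧ polar Q a x = 0 := by
  rw [Submodule.mem_inf, mem_perp_singleton]

theorem exists_sum_sq [Finite F] (h2 : (2 : F) ≠ 0) {α β : F} (hα : α ≠ 0) (hβ : β ≠ 0) (γ : F) :
    ∃ x y : F, α * (x * x) + β * (y * y) = γ := by
  haveI := Fintype.ofFinite F
  have hcard : Fintype.card F % 2 = 1 := FiniteField.odd_card_of_char_ne_two (fun h => h2 (by
    have := CharP.cast_eq_zero F (ringChar F)
    rw [h] at this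
    exact_mod_cast this))
  obtain ⟨a, b, hab⟩ := FiniteField.exists_root_sum_quadratic (R := F)
    (f := Polynomial.C α * Polynomial.X ^ 2 + Polynomial.C 0 * Polynomial.X + Polynomial.C 0)
    (g := Polynomial.C β * Polynomial.X ^ 2 + Polynomial.C 0 * Polynomial.X + Polynomial.C (-γ))
    (Polynomial.degree_quadratic hα) (Polynomial.degree_quadratic hβ) hcard
  refine ⟨a, b, ?_⟩
  simp only [Polynomial.eval_add, Polynomial.eval_mul, Polynomial.eval_pow, Polynomial.eval_C, Polynomial.eval_X] at hab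
  linear_combination hab

/-- nondegenerate subspaces of dimension at least two are universal -/
theorem universal [Finite F] (hQ : Nd Q) (h2 : (2 : F) ≠ 0) {A : Submodule F V} (hA : NDs Q A)
    (hdim : 2 ≤ finrank F A) (γ : F) : ∃ x ∈ A, Q x = γ := by
  obtain ⟨a, ha, hQa⟩ := exists_nonsing hA (by omega)
  have h1 := finrank_cut1 hQ (A := A) (a := a)
  obtain ⟨b, hb, hQb⟩ := exists_nonsing (nds_cut1 hQ h2 hA ha hQa) (by omega)
  obtain ⟨hbA, hab⟩ := mem_cut1.1 hb
  obtain ⟨x, y, hxy⟩ := exists_sum_sq h2 hQa hQb γ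
  refine ⟨x • a + y • b, A.add_mem (A.smul_mem _ ha) (A.smul_mem _ hbA), ?_⟩
  rw [Q_add, Q_smul, Q_smul, polar_smul_left, polar_smul_right, hab, smul_zero, smul_zero, ← hxy]
  ring

/-- in a nondegenerate plane: a nonsingular vector not orthogonal to and independent of a given one -/
theorem exists_third (hQ : Nd Q) (h2 : (2 : F) ≠ 0) {l : F} (hl0 : l ≠ 0) (hl1 : l ≠ 1) (hl2 : l ≠ -1)
    {A : Submodule F V} (hA : NDs Q A) (hdim : 2 ≤ finrank F A) {y : V} (hy : y ∈ A) (hy0 : y ≠ 0) :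
    ∃ c ∈ A, Q c ≠ 0 ∧ polar Q c y ≠ 0 ∧ c ∉ F ∙ y := by
  by_cases hQy : Q y = 0
  · obtain ⟨f, hf, hQf, hyf⟩ := exists_partner hQ hA hy hy0 hQy
    have hfy : polar Q f y = 1 := by rw [polar_comm]; exact hyf
    refine ⟨y + f, A.add_mem hy hf, ?_, ?_, ?_⟩
    · rw [Q_add, hQy, hQf, hyf, zero_add, zero_add]; exact one_ne_zero
    · rw [polar_add_left, polar_self', hQy, hfy, mul_zero, zero_add]; exact one_ne_zero
    · intro h
      obtain ⟨s, hs⟩ := Submodule.mem_span_singleton.1 h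
      have h3 : f = (s - 1) • y := by rw [sub_smul, one_smul, hs]; abel
      rw [h3, polar_smul_left, polar_self', hQy, mul_zero, smul_zero] at hfy
      exact zero_ne_one hfy
  · have h1 := finrank_cut1 hQ (A := A) (a := y)
    obtain ⟨f, hf, hQf⟩ := exists_nonsing (nds_cut1 hQ h2 hA hy hQy) (by omega)
    obtain ⟨hfA, hyf⟩ := mem_cut1.1 hf
    have hfy : polar Q f y = 0 := by rw [polar_comm]; exact hyf
    obtain ⟨m, hm0, hm⟩ : ∃ m : F, m ≠ 0 ∧ Q y + m * m * Q f ≠ 0 := by
      by_cases h3 : Q y + Q f = 0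
      · refine ⟨l, hl0, fun h4 => ?_⟩
        have h5 : Q f * ((l - 1) * (l + 1)) = 0 := by linear_combination h4 - h3
        rcases mul_eq_zero.1 h5 with h6 | h6
        · exact hQf h6
        · rcases mul_eq_zero.1 h6 with h7 | h7
          · exact hl1 (sub_eq_zero.1 h7)
          · exact hl2 (eq_neg_of_add_eq_zero_left h7)
      · exact ⟨1, one_ne_zero, by simpa using h3⟩
    refine ⟨y + m • f, A.add_mem hy (A.smul_mem _ hfA), ?_, ?_, ?_⟩
    · rw [Q_add, Q_smul, polar_smul_right, hyf, smul_zero, add_zero]; exact hm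
    · rw [polar_add_left, polar_smul_left, hfy, smul_zero, add_zero, polar_self']
      exact mul_ne_zero h2 hQy
    · intro h
      obtain ⟨s, hs⟩ := Submodule.mem_span_singleton.1 h
      have h3 : m • f = (s - 1) • y := by rw [sub_smul, one_smul, hs]; abel
      have h4 : f = (m⁻¹ * (s - 1)) • y := by
        rw [mul_smul, ← h3, smul_smul, inv_mul_cancel₀ hm0, one_smul]
      rw [h4, polar_smul_left, smul_eq_mul, polar_self'] at hfy
      rcases mul_eq_zero.1 hfy with h5 | h5
      · rw [h5, zero_smul] at h4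
        exact hQf (by rw [h4]; exact QuadraticMap.map_zero Q)
      · exact mul_ne_zero h2 hQy h5

variable {κ : Type*} [Fintype κ] [DecidableEq κ]

namespace OD

variable {D : κ → Submodule F V} {pr : κ → V →ₗ[F] V} (S : OD Q D pr M)
include S

theorem refl_stab {i l : κ} {c : V} (hc : c ∈ D i)
    (hQc : Q c ≠ 0) {x : V} (hx : x ∈ D l) : refl Q c x ∈ D l := by
  by_cases hil : i = l
  · subst hil
    rw [refl_apply hQc]
    exact (D i).sub_mem hx ((D i).smul_mem _ hc)
  · rw [refl_of_perp (S.orth i l hil c hc x hx)]; exact hx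

/-- products of two reflections in blocks -/
theorem refl_pair [Finite F] (hn : 4 ≤ finrank F V) {i j : κ} {c c' : V} (hc : c ∈ D i) (hc' : c' ∈ D j)
    (hQ0 : Q c ≠ 0) (hcc : Q c = Q c') : refl Q c * refl Q c' ∈ M := by
  refine S.H _ ?_ ⟨1, fun l => ?_⟩
  · rw [S.hQ.Om_eq_Sg S.gen hn]
    exact refl_mul_refl_mem_Sg' S.hQ hn hQ0 hcc
  · rw [Equiv.Perm.one_apply]
    apply Submodule.eq_of_le_of_finrank_eq
    · rintro _ ⟨x, hx, rfl⟩
      exact S.refl_stab hc hQ0 (S.refl_stab hc' (by rw [← hcc]; exact hQ0) hx)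
    · exact LinearEquiv.finrank_map_eq _ _

/-- conjugating a root line by an element given by a Siegel map -/
theorem sf_conj {w y z x : V} (h : SF Q M w y) (h' : SI Q M z x) : SF Q M (siegMap Q z x w) (siegMap Q z x y) := by
  obtain ⟨g, hg, hgx⟩ := h'
  have := h.map S.hM hg
  rwa [hgx, hgx] at this

variable [Finite F]

/-- Lemma C, singular component -/
theorem lemC1 {j : κ} {w x : V} (hwD : w ∉ D j) (h : SF Q M w x) (ha0 : pr j w ≠ 0) (hQa : Q (pr j w) = 0)
    (hx : pr j x ∉ F ∙ pr j w) : Om Q ≤ M := by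
  obtain ⟨a, ha⟩ : ∃ a, a = pr j w := ⟨_, rfl⟩
  rw [← ha] at ha0 hQa hx
  have haD : a ∈ D j := by rw [ha]; exact S.dec.mem j w
  have hwa : ∀ y ∈ D j, polar Q w y = polar Q a y := fun y hy => by rw [ha, S.polar_pr hy]
  have hww : polar Q w a = 0 := by rw [hwa a haD, polar_self', hQa, mul_zero]
  by_cases hxa : polar Q x a = 0
  · have hbD : pr j x ∈ D j := S.dec.mem j x
    obtain ⟨d, hd, hda, hbd⟩ := exists_one_in S.hQ (S.nds j)
      ((Submodule.span_singleton_le_iff_mem _ _).2 haD) hbD hx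
    replace hda := hda a (Submodule.mem_span_singleton_self a)
    have hxd : polar Q x d = 1 := by rw [← S.polar_pr hd]; exact hbd
    have h1 := S.sf_conj (S.sf_block haD hd hQa hda) (z := w) (x := x) (by
      have := h.2.2 1
      rwa [one_smul] at this)
    have h2 : siegMap Q w x a = a := by
      rw [siegMap_apply, hww, hxa]; simp
    have h3 : siegMap Q w x d = d - w := by
      rw [siegMap_apply, hwa d hd, hda, hxd]; simp
    rw [h2, h3] at h1
    have h4 := (S.sf_block haD hd hQa hda).sub h1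
    rw [sub_sub_cancel] at h4
    exact S.lemB haD ha0 h4 hwD
  · obtain ⟨d, hd, had, hQd⟩ := exists_nonsing_perp' S.hQ (S.nds j) (S.dim j) haD ha0 hQa
    obtain ⟨s, hs⟩ : ∃ s, s = (polar Q x a)⁻¹ := ⟨_, rfl⟩
    have h1 := S.sf_conj (S.sf_block haD hd hQa had) (h.2.2 s)
    have h2 : siegMap Q w (s • x) a = a - w := by
      rw [siegMap_apply, hww, polar_smul_left, hs, smul_eq_mul, inv_mul_cancel₀ hxa]; simp
    have h3 : siegMap Q w (s • x) d = d - (s * polar Q x d) • w := by
      rw [siegMap_apply, hwa d hd, had, polar_smul_left, smul_eq_mul]; simp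
    rw [h2, h3] at h1
    refine S.lemN (j := j) ?_ ?_ h1 ?_
    · intro h4
      apply hwD
      rw [← sub_eq_zero.1 h4]; exact haD
    · rw [map_sub, S.dec.self j a haD, ← ha, sub_self]
    · rw [map_sub, map_smul, S.dec.self j d hd, ← ha]
      intro h4
      apply hQd
      rw [sub_eq_zero.1 h4, Q_smul, hQa, mul_zero]

/-- Lemma C, nonsingular component in a block of dimension at least four -/
theorem lemC2 (h2 : (2 : F) ≠ 0) {j : κ} (hdim : 4 ≤ finrank F (D j)) {w x : V} (hwD : w ∉ D j)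
    (h : SF Q M w x) (hQa : Q (pr j w) ≠ 0) (hx : pr j x ∉ F ∙ pr j w) : Om Q ≤ M := by
  obtain ⟨a, ha⟩ : ∃ a, a = pr j w := ⟨_, rfl⟩
  rw [← ha] at hQa hx
  have haD : a ∈ D j := by rw [ha]; exact S.dec.mem j w
  have haa : polar Q a a ≠ 0 := by rw [polar_self']; exact mul_ne_zero h2 hQa
  have hwa : ∀ y ∈ D j, polar Q y w = polar Q a y := fun y hy => by rw [polar_comm, ha, S.polar_pr hy]
  have hP := nds_cut1 S.hQ h2 (S.nds j) haD hQa
  have hPr := finrank_cut1 S.hQ (A := D j) (a := a)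
  obtain ⟨b', hb'⟩ : ∃ b', b' = pr j x - (polar Q a (pr j x) / polar Q a a) • a := ⟨_, rfl⟩
  have hb'P : b' ∈ D j ⊓ perp Q (F ∙ a) := by
    rw [mem_cut1, hb']
    refine ⟨(D j).sub_mem (S.dec.mem j x) ((D j).smul_mem _ haD), ?_⟩
    rw [polar_sub_right, polar_smul_right, smul_eq_mul, div_mul_cancel₀ _ haa, sub_self]
  have hb'0 : b' ≠ 0 := by
    intro h0
    apply hx
    rw [Submodule.mem_span_singleton]
    refine ⟨polar Q a (pr j x) / polar Q a a, ?_⟩
    rw [hb', sub_eq_zero] at h0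
    exact h0.symm
  obtain ⟨e, heP, hQe, hbe⟩ := exists_sing_polar S.hQ hP (by omega) hb'P hb'0
  obtain ⟨heD, hae⟩ := mem_cut1.1 heP
  have he0 : e ≠ 0 := by rintro rfl; rw [polar_zero_right] at hbe; exact zero_ne_one hbe
  obtain ⟨d, hdP, hed, hQd⟩ := exists_nonsing_perp' S.hQ hP (by omega) heP he0 hQe
  obtain ⟨hdD, had⟩ := mem_cut1.1 hdP
  have hex : polar Q e x = 1 := by
    rw [← S.polar_pr' heD, polar_comm]
    have h3 : polar Q b' e = polar Q (pr j x) e := by
      rw [hb', polar_sub_left, polar_smul_left, hae, smul_zero, sub_zero]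
    rw [← h3, hbe]
  have key : ∀ s : F, SF Q M w (x + s • d - (s * polar Q d x) • e - (s * s * Q d) • e) := by
    intro s
    have hes : polar Q e (s • d) = 0 := by rw [polar_smul_right, hed, smul_zero]
    have h1 := S.sf_conj h ((S.sf_block heD hdD hQe hed).2.2 s)
    have h3 : siegMap Q e (s • d) w = w := by
      rw [siegMap_apply, hwa e heD, hae, polar_smul_left, hwa d hdD, had]; simp
    have h4 : siegMap Q e (s • d) x = x + s • d - (s * polar Q d x) • e - (s * s * Q d) • e := by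
      rw [siegMap_apply, hex, polar_smul_left, Q_smul, one_smul, mul_one, smul_eq_mul]
    rw [h3, h4] at h1
    exact h1
  have h1 := ((key 1).add (key (-1))).sub (h.add h)
  have h3 : x + (1 : F) • d - (1 * polar Q d x) • e - (1 * 1 * Q d) • e +
      (x + (-1 : F) • d - (-1 * polar Q d x) • e - (-1 * -1 * Q d) • e) - (x + x) = (-(2 * Q d)) • e := by module
  rw [h3] at h1
  have h4 : SF Q M w e := h1.of_smul (neg_ne_zero.2 (mul_ne_zero h2 hQd))
  exact S.lemB heD he0 (h4.swap hQe) hwD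

/-- Lemma C, nonsingular component in a block of dimension three -/
theorem lemC3 (h2 : (2 : F) ≠ 0) {l : F} (hl0 : l ≠ 0) (hl1 : l ≠ 1) (hl2 : l ≠ -1) {j : κ}
    (hdim : finrank F (D j) = 3) {w x : V} (hwD : w ∉ D j)
    (h : SF Q M w x) (hQa : Q (pr j w) ≠ 0) (hx : pr j x ∉ F ∙ pr j w) : Om Q ≤ M := by
  obtain ⟨a, ha⟩ : ∃ a, a = pr j w := ⟨_, rfl⟩
  rw [← ha] at hQa hx
  have haD : a ∈ D j := by rw [ha]; exact S.dec.mem j w
  have haa : polar Q a a ≠ 0 := by rw [polar_self']; exact mul_ne_zero h2 hQa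
  have hwa : ∀ y ∈ D j, polar Q y w = polar Q a y := fun y hy => by rw [polar_comm, ha, S.polar_pr hy]
  have hn : 4 ≤ finrank F V := by
    have h5 : D j < ⊤ := lt_of_le_of_ne le_top fun h => hwD (by rw [h]; trivial)
    have h6 := Submodule.finrank_lt_finrank_of_lt h5
    rw [finrank_top] at h6
    omega
  obtain ⟨P, hPdef⟩ : ∃ P, P = D j ⊓ perp Q (F ∙ a) := ⟨_, rfl⟩
  have hP : NDs Q P := by rw [hPdef]; exact nds_cut1 S.hQ h2 (S.nds j) haD hQa
  have hPr : 2 ≤ finrank F P := by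
    have := finrank_cut1 S.hQ (A := D j) (a := a)
    rw [hPdef]; omega
  have memP : ∀ y, y ∈ P ↔ y ∈ D j ∧ polar Q a y = 0 := fun y => by rw [hPdef]; exact mem_cut1
  have hPr2 : finrank F P = 2 := by
    have h3 : P < D j := by
      refine lt_of_le_of_ne (by rw [hPdef]; exact inf_le_left) fun h4 => ?_
      rw [← h4] at haD
      exact haa ((memP a).1 haD).2
    have := Submodule.finrank_lt_finrank_of_lt h3
    omega
  have wP : ∀ y ∈ P, polar Q y w = 0 := fun y hy => by rw [hwa y ((memP y).1 hy).1, ((memP y).1 hy).2]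
  -- the component of x
  obtain ⟨b', hb'⟩ : ∃ b', b' = pr j x - (polar Q a (pr j x) / polar Q a a) • a := ⟨_, rfl⟩
  have hb'P : b' ∈ P := by
    rw [memP, hb']
    refine ⟨(D j).sub_mem (S.dec.mem j x) ((D j).smul_mem _ haD), ?_⟩
    rw [polar_sub_right, polar_smul_right, smul_eq_mul, div_mul_cancel₀ _ haa, sub_self]
  have hb'0 : b' ≠ 0 := by
    intro h0
    apply hx
    rw [Submodule.mem_span_singleton]
    refine ⟨polar Q a (pr j x) / polar Q a a, ?_⟩
    rw [hb', sub_eq_zero] at h0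
    exact h0.symm
  have hbx : ∀ y ∈ P, polar Q y b' = polar Q y x := by
    intro y hy
    rw [hb', polar_sub_right, polar_smul_right, polar_comm Q y a, ((memP y).1 hy).2, smul_zero, sub_zero,
      S.polar_pr' ((memP y).1 hy).1]
  -- two vectors of the same norm
  obtain ⟨c, hc, hQc, hcb, -⟩ := exists_third S.hQ h2 hl0 hl1 hl2 hP hPr hb'P hb'0
  have hc0 : c ≠ 0 := by rintro rfl; exact hQc (QuadraticMap.map_zero Q)
  obtain ⟨u, hu, hQu, huc, huc'⟩ := exists_third S.hQ h2 hl0 hl1 hl2 hP hPr hc hc0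
  obtain ⟨c', hc'⟩ : ∃ c', c' = refl Q u c := ⟨_, rfl⟩
  have hc'e : c' = c - ((Q u)⁻¹ * polar Q u c) • u := by rw [hc', refl_apply hQu]
  have hc'P : c' ∈ P := by rw [hc'e]; exact P.sub_mem hc (P.smul_mem _ hu)
  have hQc' : Q c = Q c' := by rw [hc', refl_mem u c]
  have hne : c' ∉ F ∙ c := by
    intro h3
    obtain ⟨s, hs⟩ := Submodule.mem_span_singleton.1 h3
    apply huc'
    rw [Submodule.mem_span_singleton]
    obtain ⟨m, hm⟩ : ∃ m, m = (Q u)⁻¹ * polar Q u c := ⟨_, rfl⟩
    have hm0 : m ≠ 0 := by rw [hm]; exact mul_ne_zero (inv_ne_zero hQu) huc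
    have h4 : m • u = (1 - s) • c := by
      rw [sub_smul, one_smul, hs, hc'e, ← hm]; abel
    exact ⟨m⁻¹ * (1 - s), by rw [mul_smul, ← h4, smul_smul, inv_mul_cancel₀ hm0, one_smul]⟩
  have hQc'0 : Q c' ≠ 0 := by rw [← hQc']; exact hQc
  -- the first vector
  obtain ⟨y₀, hy₀⟩ : ∃ y₀, y₀ = (refl Q c * refl Q c') x - x := ⟨_, rfl⟩
  have hgM := S.refl_pair hn ((memP c).1 hc).1 ((memP c').1 hc'P).1 hQc hQc'
  have hgw : (refl Q c * refl Q c') w = w := by
    rw [LinearEquiv.mul_apply, refl_of_perp (wP c' hc'P), refl_of_perp (wP c hc)]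
  have hy₀S : SF Q M w y₀ := by
    have h3 := h.map S.hM hgM
    rw [hgw] at h3
    rw [hy₀]
    exact h3.sub h
  have hy₀P : y₀ ∈ P := by
    rw [hy₀, LinearEquiv.mul_apply, refl_apply hQc, refl_apply hQc'0]
    have e1 : ∀ z : F, x - ((Q c')⁻¹ * polar Q c' x) • c' - z • c - x = -(((Q c')⁻¹ * polar Q c' x) • c') - z • c := by
      intro z; abel
    rw [e1]
    exact P.sub_mem (P.neg_mem (P.smul_mem _ hc'P)) (P.smul_mem _ hc)
  have hy₀0 : y₀ ≠ 0 := by
    intro h0
    rw [hy₀, sub_eq_zero, LinearEquiv.mul_apply] at h0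
    have h3 : refl Q c' x = refl Q c x := by
      have := congrArg (refl Q c) h0
      rwa [refl_refl] at this
    rw [refl_apply hQc'0, refl_apply hQc, sub_right_inj] at h3
    have h4 : polar Q c x ≠ 0 := by rw [← hbx c hc]; exact hcb
    by_cases h5 : polar Q c' x = 0
    · rw [h5, mul_zero, zero_smul] at h3
      rcases smul_eq_zero.1 h3.symm with h6 | h6
      · exact mul_ne_zero (inv_ne_zero hQc) h4 h6
      · exact hc0 h6
    · apply hne
      rw [Submodule.mem_span_singleton]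
      have h6 : (Q c')⁻¹ * polar Q c' x ≠ 0 := mul_ne_zero (inv_ne_zero hQc'0) h5
      exact ⟨((Q c')⁻¹ * polar Q c' x)⁻¹ * ((Q c)⁻¹ * polar Q c x), by
        rw [mul_smul, ← h3, smul_smul, inv_mul_cancel₀ h6, one_smul]⟩
  -- another block
  obtain ⟨i, hij, hQi⟩ : ∃ i, i ≠ j ∧ Q (pr i w) ≠ 0 := by
    by_contra hcon
    push Not at hcon
    apply hQa
    have h3 : ∀ s : Finset κ, Q (∑ i ∈ s, pr i w) = ∑ i ∈ s, Q (pr i w) := by
      intro s
      induction s using Finset.induction_on with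
      | empty => rw [Finset.sum_empty, Finset.sum_empty, QuadraticMap.map_zero]
      | insert i s hi ih =>
        rw [Finset.sum_insert hi, Finset.sum_insert hi, Q_add, ih]
        have h4 : ∀ t : Finset κ, i ∉ t → polar Q (pr i w) (∑ l ∈ t, pr l w) = 0 := by
          intro t
          induction t using Finset.induction_on with
          | empty => intro _; rw [Finset.sum_empty, polar_zero_right]
          | insert l t hl ih =>
            intro hit
            rw [Finset.mem_insert, not_or] at hit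
            rw [Finset.sum_insert hl, polar_add_right, ih hit.2,
              S.orth i l hit.1 _ (S.dec.mem i w) _ (S.dec.mem l w), add_zero]
        rw [h4 s hi, add_zero]
    have h4 := h3 Finset.univ
    rw [S.dec.sum w, h.1, Finset.sum_eq_single j (fun i _ hi => hcon i hi)
      (fun h => absurd (Finset.mem_univ j) h), ← ha] at h4
    exact h4.symm
  have hPi := nds_cut1 S.hQ h2 (S.nds i) (S.dec.mem i w) hQi
  have hPir : 2 ≤ finrank F (D i ⊓ perp Q (F ∙ pr i w) : Submodule F V) := by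
    have h3 := finrank_cut1 S.hQ (A := D i) (a := pr i w)
    have h4 := S.dim i
    omega
  -- all of P
  obtain ⟨c₁, hc₁, hQc₁, hcy, hcy'⟩ := exists_third S.hQ h2 hl0 hl1 hl2 hP hPr hy₀P hy₀0
  have hc₁S : SF Q M w c₁ := by
    obtain ⟨c₂, hc₂, hQc₂⟩ := universal S.hQ h2 hPi hPir (Q c₁)
    obtain ⟨hc₂D, hc₂w⟩ := mem_cut1.1 hc₂
    have hQc₂0 : Q c₂ ≠ 0 := by rw [hQc₂]; exact hQc₁
    have hgM := S.refl_pair hn ((memP c₁).1 hc₁).1 hc₂D hQc₁ hQc₂.symm
    have hc₂w' : polar Q c₂ w = 0 := by rw [← S.polar_pr' hc₂D, polar_comm]; exact hc₂w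
    have h3 := hy₀S.map S.hM hgM
    have h4 : (refl Q c₁ * refl Q c₂) w = w := by
      rw [LinearEquiv.mul_apply, refl_of_perp hc₂w', refl_of_perp (wP c₁ hc₁)]
    have h5 : (refl Q c₁ * refl Q c₂) y₀ = y₀ - ((Q c₁)⁻¹ * polar Q c₁ y₀) • c₁ := by
      rw [LinearEquiv.mul_apply, refl_of_perp (S.orth i j hij c₂ hc₂D y₀ ((memP y₀).1 hy₀P).1), refl_apply hQc₁]
    rw [h4, h5] at h3
    have h6 := hy₀S.sub h3
    rw [sub_sub_cancel] at h6
    exact h6.of_smul (mul_ne_zero (inv_ne_zero hQc₁) hcy)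
  have hall : ∀ y ∈ P, SF Q M w y := by
    have h3 : Submodule.span F {y₀, c₁} ≤ P := by
      rw [Submodule.span_le]
      rintro z (rfl | rfl)
      · exact hy₀P
      · exact hc₁
    have h4 : finrank F (Submodule.span F {y₀, c₁}) = 2 := by
      have hli : LinearIndependent F ![y₀, c₁] := by
        rw [LinearIndependent.pair_iff' hy₀0]
        intro s hs
        exact hcy' (Submodule.mem_span_singleton.2 ⟨s, hs⟩)
      have h5 := finrank_span_eq_card hli
      have h6 : Set.range ![y₀, c₁] = {y₀, c₁} := by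
        rw [Matrix.range_cons, Matrix.range_cons, Matrix.range_empty, Set.union_empty]; rfl
      rw [h6, Fintype.card_fin] at h5
      exact h5
    have h5 : Submodule.span F {y₀, c₁} = P := Submodule.eq_of_le_of_finrank_eq h3 (by rw [h4, hPr2])
    intro y hy
    rw [← h5] at hy
    obtain ⟨s, t, rfl⟩ := Submodule.mem_span_pair.1 hy
    exact (hy₀S.smul s).add (hc₁S.smul t)
  -- the final step
  have ha0 : a ≠ 0 := by rintro rfl; exact hQa (QuadraticMap.map_zero Q)
  obtain ⟨e, heD, hQe, hae⟩ := exists_sing_polar S.hQ (S.nds j) (S.dim j) haD ha0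
  have he0 : e ≠ 0 := by rintro rfl; rw [polar_zero_right] at hae; exact zero_ne_one hae
  have hew : polar Q e w = 1 := by rw [hwa e heD, hae]
  obtain ⟨d, hdD, hed, hQd⟩ := exists_nonsing_perp' S.hQ (S.nds j) (S.dim j) heD he0 hQe
  obtain ⟨β, hβ⟩ : ∃ β, β = polar Q d w + Q d := ⟨_, rfl⟩
  obtain ⟨w', hw'⟩ : ∃ w', w' = w + d - β • e := ⟨_, rfl⟩
  obtain ⟨y₁, hy₁⟩ : ∃ y₁, y₁ = e - (polar Q a e / polar Q a a) • a := ⟨_, rfl⟩
  have hy₁P : y₁ ∈ P := by
    rw [memP, hy₁]
    refine ⟨(D j).sub_mem heD ((D j).smul_mem _ haD), ?_⟩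
    rw [polar_sub_right, polar_smul_right, smul_eq_mul, div_mul_cancel₀ _ haa, sub_self]
  have hey₁ : polar Q e y₁ ≠ 0 := by
    rw [hy₁, polar_sub_right, polar_smul_right, polar_self', hQe, polar_comm Q e a, hae, smul_eq_mul, mul_zero,
      mul_one, zero_sub, neg_ne_zero]
    exact div_ne_zero one_ne_zero haa
  -- the root line at w'
  obtain ⟨z, hz⟩ : ∃ z, z = siegMap Q e d y₁ := ⟨_, rfl⟩
  have hSI : SI Q M e d := by
    have := (S.sf_block heD hdD hQe hed).2.2 1
    rwa [one_smul] at this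
  have hw'e : siegMap Q e d w = w' := by
    rw [siegMap_apply, hew, hw', hβ]; module
  have h3 := S.sf_conj (hall y₁ hy₁P) hSI
  rw [hw'e, ← hz] at h3
  have hzD : z ∈ D j := by
    rw [hz, siegMap_apply]
    exact (D j).sub_mem ((D j).sub_mem ((D j).add_mem ((memP y₁).1 hy₁P).1 ((D j).smul_mem _ hdD))
      ((D j).smul_mem _ heD)) ((D j).smul_mem _ heD)
  have hez : polar Q e z = polar Q e y₁ := by
    rw [hz, siegMap_apply, polar_sub_right, polar_sub_right, polar_add_right, polar_smul_right, polar_smul_right,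
      polar_smul_right, hed, polar_self', hQe]
    simp
  have hw'z : polar Q w' z = 0 := h3.2.1
  -- the second conjugation
  obtain ⟨m, hm⟩ : ∃ m, m = -(Q d)⁻¹ := ⟨_, rfl⟩
  have hmd : m * Q d = -1 := by rw [hm, neg_mul, inv_mul_cancel₀ hQd]
  obtain ⟨y, hy⟩ : ∃ y, y = e - m • w' := ⟨_, rfl⟩
  have hwd : polar Q w d = polar Q d w := polar_comm _ _ _
  have hww' : polar Q w w' = - Q d := by
    rw [hw', polar_sub_right, polar_add_right, polar_smul_right, polar_self', h.1, polar_comm Q w e, hew, hβ, hwd]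
    simp
  have hyS : SI Q M w y := by
    have h4 : y + m • w ∈ P := by
      rw [memP, hy, hw']
      constructor
      · have e1 : e - m • (w + d - β • e) + m • w = e - m • (d - β • e) := by module
        rw [e1]
        exact (D j).sub_mem heD ((D j).smul_mem _ ((D j).sub_mem hdD ((D j).smul_mem _ heD)))
      · have e1 : e - m • (w + d - β • e) + m • w = e - m • (d - β • e) := by module
        rw [e1, polar_sub_right, polar_smul_right, polar_sub_right, polar_smul_right, hae, ← hwa d hdD, hβ, smul_eq_mul,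
          smul_eq_mul]
        linear_combination hmd
    have h5 := (hall _ h4).sub ((SF.self (M := M) h.1).smul m)
    rw [add_sub_cancel_right] at h5
    have := h5.2.2 1
    rwa [one_smul] at this
  have hQw' : Q w' = 0 := h3.1
  have h4 := S.sf_conj (h3.smul_left m) hyS
  have hew' : polar Q e w' = 1 := by
    rw [hw', polar_sub_right, polar_add_right, polar_smul_right, hew, hed, polar_self', hQe]; simp
  have hQy : Q y = -m := by
    rw [hy, Q_sub, Q_smul, hQe, hQw', polar_smul_right, hew']; simp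
  have hyw' : polar Q y w' = 1 := by
    rw [hy, polar_sub_left, polar_smul_left, hew', polar_self', hQw']; simp
  have h5 : siegMap Q w y (m • w') = e := by
    rw [siegMap_apply, polar_smul_right, polar_smul_right, hww', hyw', hQy, smul_eq_mul, smul_eq_mul, hy]
    have e1 : m * -Q d = 1 := by linear_combination -hmd
    rw [e1]
    module
  rw [h5] at h4
  refine S.lemB heD he0 h4 ?_
  intro hcon
  apply hwD
  have hyz : polar Q y z = polar Q e z := by
    rw [hy, polar_sub_left, polar_smul_left, hw'z, smul_zero, sub_zero]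
  have h6 : siegMap Q w y z = z + polar Q w z • (e - m • (d - β • e)) - polar Q e y₁ • w := by
    rw [siegMap_apply, hyz, hez, hQy, hy, hw']
    module
  rw [h6] at hcon
  have h7 : polar Q e y₁ • w = (z + polar Q w z • (e - m • (d - β • e))) -
      (z + polar Q w z • (e - m • (d - β • e)) - polar Q e y₁ • w) := by abel
  have h8 : polar Q e y₁ • w ∈ D j := by
    rw [h7]
    refine (D j).sub_mem ?_ hcon
    exact (D j).add_mem hzD ((D j).smul_mem _ ((D j).sub_mem heD ((D j).smul_mem _ ((D j).sub_mem hdD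
      ((D j).smul_mem _ heD)))))
  rwa [Submodule.smul_mem_iff _ hey₁] at h8

end OD

end Cfsg.Agent.Lib.OrthDecH94
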