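import Mathlib
import Cfsg.Prelude.Def_GeometricClasses
import Cfsg.Agent.Lib.OrthBridge
import Cfsg.Agent.Lib.OrthNd

set_option autoImplicit false

/-!
Bridge for stabilisers of nondegenerate subspaces in `omegaGL Q`.
-/

namespace Cfsg.Agent.Lib.OrthNdBridge

open Cfsg Cfsg.Geo Cfsg.Agent.Lib.GeoBridge QuadraticMap Module Cfsg.Agent.Lib.Quad
open Cfsg.Agent.Lib.OrthMax Cfsg.Agent.Lib.OrthNd Cfsg.Agent.Lib.OrthBridge
open scoped MatrixGroups Matrix

section
variable {F V : Type*} [Field F] [AddCommGroup V] [Module F V] [FiniteDimensional F V]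
  {Q : QuadraticForm F V}

theorem map_eq_of_stab {g : V ≃ₗ[F] V} {W : Submodule F V} (h : ∀ w ∈ W, g w ∈ W) :
    W.map g.toLinearMap = W := stab_of_le h

theorem stab_perp {g : V ≃ₗ[F] V} (hg : g ∈ O Q) {W : Submodule F V} (h : ∀ w ∈ W, g w ∈ W) :
    ∀ x ∈ perp Q W, g x ∈ perp Q W := by
  intro x hx
  rw [mem_perp]
  intro w hw
  rw [← map_eq_of_stab h] at hw
  obtain ⟨w', hw', rfl⟩ := hw
  show polar Q (g w') (g x) = 0
  rw [O_polar hg]
  exact mem_perp.1 hx w' hw'

theorem map_perp (hQ : Nd Q) {g : V ≃ₗ[F] V} (hg : g ∈ O Q) (W : Submodule F V) :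
    (perp Q W).map g.toLinearMap = perp Q (W.map g.toLinearMap) := by
  apply Submodule.eq_of_le_of_finrank_eq
  · rintro _ ⟨x, hx, rfl⟩
    rw [mem_perp]
    rintro _ ⟨w, hw, rfl⟩
    show polar Q (g w) (g x) = 0
    rw [O_polar hg]
    exact mem_perp.1 hx w hw
  · have h1 : finrank F ((perp Q W).map g.toLinearMap) = finrank F (perp Q W) :=
      LinearEquiv.finrank_map_eq g _
    have h2 : finrank F (W.map g.toLinearMap) = finrank F W := LinearEquiv.finrank_map_eq g _
    have h3 := hQ.finrank_add_finrank_perp W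
    have h4 := hQ.finrank_add_finrank_perp (W.map g.toLinearMap)
    omega

/-- an even-dimensional nondegenerate space is isometric to its negative -/
theorem exists_neg_isometry [Finite F] (hQ : Nd Q) (hev : Even (finrank F V)) :
    ∃ T : V ≃ₗ[F] V, ∀ v, Q (T v) = -Q v := by
  by_cases h2 : (2 : F) = 0
  · refine ⟨1, fun v => ?_⟩
    have : Q v + Q v = 0 := by rw [← two_mul, h2, zero_mul]
    show Q v = -Q v
    linear_combination this
  have hp : ∀ x y, polar (-Q : QuadraticForm F V) x y = -polar Q x y := by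
    intro x y
    simp only [polar, QuadraticMap.neg_apply]; ring
  have hQ' : Nd (-Q : QuadraticForm F V) := nd_of fun x hx => hQ.eq_zero fun y => by
    have := hx y
    rw [hp] at this
    simpa using this
  let c := finBasis F V
  obtain ⟨T, hT⟩ := exists_isometry_of_disc h2 hQ hQ' rfl c c (by
    have : LinearMap.BilinForm.toMatrix c (polarBilin (-Q : QuadraticForm F V)) =
        -LinearMap.BilinForm.toMatrix c (polarBilin Q) := by
      ext i j
      rw [LinearMap.BilinForm.toMatrix_apply, Matrix.neg_apply, LinearMap.BilinForm.toMatrix_apply]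
      exact hp _ _
    rw [this, Matrix.det_neg, Fintype.card_fin, hev.neg_one_pow, one_mul]
    exact ⟨_, rfl⟩)
  refine ⟨T, fun v => ?_⟩
  have := hT v
  rw [QuadraticMap.neg_apply] at this
  rw [← this, neg_neg]

theorem plus_of_swap [Finite F] (hQ : Nd Q) {W : Submodule F V} (hW : NDs Q W)
    (hev : Even (finrank F W)) {g : V ≃ₗ[F] V} (hg : g ∈ O Q)
    (hgW : W.map g.toLinearMap = perp Q W) :
    ∃ U : Submodule F V, (∀ u ∈ U, Q u = 0) ∧ 2 * finrank F U = finrank F V := by
  obtain ⟨T, hT⟩ := exists_neg_isometry (nd_res_of_inf hW) hev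
  have hTQ : ∀ w : W, Q (T w : V) = -Q (w : V) := hT
  have hgp : ∀ w : W, g w ∈ perp Q W := fun w => hgW ▸ ⟨w, w.2, rfl⟩
  let φ : W →ₗ[F] V := W.subtype + g.toLinearMap ∘ₗ W.subtype ∘ₗ T.toLinearMap
  have hφ : ∀ w : W, φ w = (w : V) + g (T w) := fun w => rfl
  have hinj : Function.Injective φ := by
    rw [← LinearMap.ker_eq_bot, LinearMap.ker_eq_bot']
    intro w hw
    rw [hφ] at hw
    have h1 : (w : V) ∈ W ⊓ perp Q W := ⟨w.2, by
      rw [eq_neg_of_add_eq_zero_left hw]
      exact (perp Q W).neg_mem (hgp _)⟩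
    rw [show W ⊓ perp Q W = ⊥ from hW, Submodule.mem_bot] at h1
    exact Subtype.ext h1
  refine ⟨LinearMap.range φ, ?_, ?_⟩
  · rintro _ ⟨w, rfl⟩
    rw [hφ, Q_add, hg, hTQ, mem_perp.1 (hgp _) w w.2]; ring
  · rw [LinearMap.finrank_range_of_inj hinj]
    have h1 := hQ.finrank_add_finrank_perp W
    have h2 : finrank F (W.map g.toLinearMap) = finrank F W := LinearEquiv.finrank_map_eq g _
    rw [hgW] at h2
    omega

end

variable {ι : Type} [Fintype ι] [DecidableEq ι] {F : Type*} [Field F]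

omit [DecidableEq ι] in
theorem nds_of_nondeg {Q : QuadraticForm F (ι → F)} {W : Submodule F (ι → F)}
    (h : IsNondegenerateOn (polar ⇑Q) W) : NDs Q W := by
  rw [NDs, eq_bot_iff]
  rintro x ⟨hx, hx'⟩
  by_contra hx0
  obtain ⟨y, hy, hne⟩ := (h x hx hx0).1
  exact hne (mem_perp.1 hx' y hy)

theorem Om_nd_max [Finite F] {Q : QuadraticForm F (ι → F)} (hQ : Nd Q)
    (hn : 13 ≤ finrank F (ι → F)) {W : Submodule F (ι → F)} (h0 : W ≠ ⊥) (h1 : W ≠ ⊤)
    (hW : NDs Q W) (hsw : ∀ g ∈ O Q, W.map g.toLinearMap ≠ perp Q W)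
    (hexc : finrank F W = 2 → 4 ≤ Nat.card F ∨ ∀ w ∈ W, Q w = 0 → w = 0)
    (hexc' : finrank F (perp Q W) = 2 → 4 ≤ Nat.card F ∨ ∀ w ∈ perp Q W, Q w = 0 → w = 0) :
    IsMaximalIn (omegaGL ⇑Q) (subspaceStabilizer W ⊓ omegaGL ⇑Q) := by
  apply Om_stab_max_of hQ (by omega) h0 h1
  intro M hM hH hex
  have hMO := hM.trans (Om_le (Q := Q))
  have hgen : GenHyp Q := Or.inr (Or.inl (by omega))
  have hdim := hQ.finrank_add_finrank_perp W
  have hpp := hQ.perp_perp W
  rcases le_total (finrank F W) (finrank F (perp Q W)) with hle | hle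
  · refine nd_stab_max hQ hgen hMO hW h0 (by omega) hle hH hex ?_ hexc
    intro g hg hgw
    have hle' : (perp Q W).map g.toLinearMap ≤ W := by
      rintro _ ⟨x, hx, rfl⟩; exact hgw x hx
    have h2 : finrank F ((perp Q W).map g.toLinearMap) = finrank F (perp Q W) :=
      LinearEquiv.finrank_map_eq g _
    have h3 : (perp Q W).map g.toLinearMap = W := by
      apply Submodule.eq_of_le_of_finrank_le hle'
      omega
    rw [map_perp hQ (hMO hg)] at h3
    apply hsw g (hMO hg)
    rw [← h3, hQ.perp_perp, h3]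
  · have h1' : perp Q W ≠ ⊥ := by
      intro h
      apply h1
      apply Submodule.eq_top_of_finrank_eq
      rw [h, finrank_bot] at hdim
      omega
    refine nd_stab_max (W := perp Q W) hQ hgen hMO (nds_perp hQ hW) h1' (by rw [hpp]; omega)
      (by rw [hpp]; exact hle) ?_ ?_ ?_ hexc'
    · intro g hg hgw
      refine hH g hg ?_
      have := stab_perp (Om_le hg) hgw
      rwa [hpp] at this
    · obtain ⟨g, hg, w, hw, hgw⟩ := hex
      by_contra hcon
      push Not at hcon
      have := stab_perp (hMO hg) (hcon g hg)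
      rw [hpp] at this
      exact hgw (this w hw)
    · intro g hg hgw
      rw [hpp] at hgw
      have hle' : W.map g.toLinearMap ≤ perp Q W := by
        rintro _ ⟨x, hx, rfl⟩; exact hgw x hx
      have h2 : finrank F (W.map g.toLinearMap) = finrank F W := LinearEquiv.finrank_map_eq g _
      apply hsw g (hMO hg)
      apply Submodule.eq_of_le_of_finrank_le hle'
      omega

/-- a 2-dimensional subspace with a singular vector is of plus type -/
theorem plus_of_not {Q : QuadraticForm F (ι → F)} {W : Submodule F (ι → F)} (h2 : finrank F W = 2)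
    (h : ¬ ∀ w ∈ W, Q w = 0 → w = 0) : IsPlusTypeOn ⇑Q W := by
  push Not at h
  obtain ⟨w, hw, hQw, hw0⟩ := h
  refine ⟨F ∙ w, (Submodule.span_singleton_le_iff_mem _ _).2 hw, ?_, ?_⟩
  · intro x hx
    obtain ⟨c, rfl⟩ := Submodule.mem_span_singleton.1 hx
    rw [Q_smul, hQw, mul_zero]
  · rw [finrank_span_singleton hw0, h2]

omit [DecidableEq ι] in
theorem nondeg_of_nds {Q : QuadraticForm F (ι → F)} {W : Submodule F (ι → F)}
    (h : NDs Q W) (hQ : Nd Q) : IsNondegenerateOn (polar ⇑Q) W := by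
  intro w hw hw0
  obtain ⟨y, hy, -, hwy⟩ := exists_one_in hQ h bot_le hw (by simpa using hw0)
  refine ⟨⟨y, hy, ?_⟩, ⟨y, hy, ?_⟩⟩
  · rw [polar_comm, hwy]; exact one_ne_zero
  · rw [hwy]; exact one_ne_zero

end Cfsg.Agent.Lib.OrthNdBridge
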