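import Mathlib
import Cfsg.Agent.Lib.OrthNdBridge
import Cfsg.Agent.Lib.QuadMTS
import Cfsg.Agent.Lib.QuadTrans

set_option autoImplicit false
set_option linter.unusedSectionVars false

/-!
Non-maximal stabilisers in `Om Q`.
-/

namespace Cfsg.Agent.Lib.OrthNot

open Cfsg Cfsg.Geo Cfsg.Agent.Lib.GeoBridge QuadraticMap Module Cfsg.Agent.Lib.Quad
open Cfsg.Agent.Lib.OrthMax Cfsg.Agent.Lib.OrthNd Cfsg.Agent.Lib.OrthBridge
  Cfsg.Agent.Lib.OrthNdBridge
open scoped MatrixGroups Matrix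

section
variable {ι : Type} [Fintype ι] [DecidableEq ι] {F : Type*} [Field F]

theorem between_of {Q : QuadraticForm F (ι → F)} {S K₀ : Subgroup (GL ι F)}
    {P P₀ : ((ι → F) ≃ₗ[F] (ι → F)) → Prop} (hS : ∀ g, g ∈ S ↔ P (le g))
    (hK : ∀ g, g ∈ K₀ ↔ P₀ (le g)) (h1 : ∀ g ∈ Om Q, P g → P₀ g)
    (h2 : ∃ g ∈ Om Q, P₀ g ∧ ¬ P g) (h3 : ∃ g ∈ Om Q, ¬ P₀ g) :
    ∃ K : Subgroup (GL ι F), S ⊓ omegaGL ⇑Q < K ∧ K < omegaGL ⇑Q := by
  refine ⟨K₀ ⊓ omegaGL ⇑Q, lt_of_le_of_ne ?_ ?_, lt_of_le_of_ne inf_le_right ?_⟩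
  · rintro g ⟨hg1, hg2⟩
    exact ⟨(hK g).2 (h1 _ ((mem_omegaGL_iff g).1 hg2) ((hS g).1 hg1)), hg2⟩
  · intro heq
    obtain ⟨g, hg, hg0, hgP⟩ := h2
    have h4 : le.symm g ∈ K₀ ⊓ omegaGL ⇑Q :=
      ⟨(hK _).2 (by rw [MulEquiv.apply_symm_apply]; exact hg0),
        (mem_omegaGL_iff _).2 (by rw [MulEquiv.apply_symm_apply]; exact hg)⟩
    rw [← heq] at h4
    have h5 := (hS _).1 h4.1
    rw [MulEquiv.apply_symm_apply] at h5
    exact hgP h5
  · intro heq
    obtain ⟨g, hg, hg0⟩ := h3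
    have h4 : le.symm g ∈ omegaGL ⇑Q :=
      (mem_omegaGL_iff _).2 (by rw [MulEquiv.apply_symm_apply]; exact hg)
    rw [← heq] at h4
    have h5 := (hK _).1 h4.1
    rw [MulEquiv.apply_symm_apply] at h5
    exact hg0 h5

end

theorem pm_of_card {F : Type*} [Field F] [Fintype F] (h : Fintype.card F ≤ 3) :
    ∀ a : F, a ≠ 0 → a = 1 ∨ a = -1 := by
  classical
  intro a ha
  by_contra hcon
  push Not at hcon
  by_cases h1 : (1 : F) = -1
  · -- then `0, 1, a` and `a + 1` are distinct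
    have h5 : Finset.card ({0, 1, a, a + 1} : Finset F) ≤ 3 := (Finset.card_le_univ _).trans h
    rw [Finset.card_insert_of_notMem, Finset.card_insert_of_notMem, Finset.card_insert_of_notMem,
      Finset.card_singleton] at h5
    · omega
    · simp
    · simp only [Finset.mem_insert, Finset.mem_singleton, not_or]
      exact ⟨fun h => hcon.1 h.symm, fun h => ha (by linear_combination -h)⟩
    · simp only [Finset.mem_insert, Finset.mem_singleton, not_or]
      exact ⟨zero_ne_one, fun h => ha h.symm, fun h => hcon.2 (by linear_combination -h)⟩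
  · have h5 : Finset.card ({0, 1, -1, a} : Finset F) ≤ 3 := (Finset.card_le_univ _).trans h
    rw [Finset.card_insert_of_notMem, Finset.card_insert_of_notMem, Finset.card_insert_of_notMem,
      Finset.card_singleton] at h5
    · omega
    · simp only [Finset.mem_singleton]
      exact fun h => hcon.2 h.symm
    · simp only [Finset.mem_insert, Finset.mem_singleton, not_or]
      exact ⟨h1, fun h => hcon.1 h.symm⟩
    · simp only [Finset.mem_insert, Finset.mem_singleton, not_or]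
      refine ⟨zero_ne_one, fun h => ?_, fun h => ha h.symm⟩
      exact one_ne_zero (neg_eq_zero.1 h.symm)

variable {F V : Type*} [Field F] [AddCommGroup V] [Module F V] [FiniteDimensional F V]
  {Q : QuadraticForm F V}

theorem exists_hyp_basis (hQ : Nd Q) {W : Submodule F V} (hW : NDs Q W) (h2 : finrank F W = 2)
    {e : V} (he : e ∈ W) (he0 : e ≠ 0) (hQe : Q e = 0) :
    ∃ f ∈ W, Q f = 0 ∧ polar Q e f = 1 ∧ ∀ w ∈ W, w = polar Q f w • e + polar Q e w • f := by
  obtain ⟨f, hf, hQf, hef⟩ := exists_partner hQ hW he he0 hQe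
  refine ⟨f, hf, hQf, hef, fun w hw => ?_⟩
  have hfe : polar Q f e = 1 := by rw [polar_comm]; exact hef
  have hee : polar Q e e = 0 := by rw [polar_self', hQe, mul_zero]
  have hff : polar Q f f = 0 := by rw [polar_self', hQf, mul_zero]
  have hli : LinearIndependent F ![e, f] := by
    rw [LinearIndependent.pair_iff]
    intro s t hst
    have h3 : polar Q e (s • e + t • f) = 0 := by rw [hst, polar_zero_right]
    have h4 : polar Q f (s • e + t • f) = 0 := by rw [hst, polar_zero_right]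
    rw [polar_add_right, polar_smul_right, polar_smul_right, hee, hef] at h3
    rw [polar_add_right, polar_smul_right, polar_smul_right, hfe, hff] at h4
    exact ⟨by simpa using h4, by simpa using h3⟩
  have hsp : Submodule.span F {e, f} = W := by
    apply Submodule.eq_of_le_of_finrank_eq
    · rw [Submodule.span_le]
      rintro x (rfl | rfl)
      · exact he
      · exact hf
    · have := finrank_span_eq_card hli
      rw [Matrix.range_cons, Matrix.range_cons, Matrix.range_empty, Set.union_empty,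
        Set.singleton_union, Fintype.card_fin] at this
      rw [this, h2]
  rw [← hsp] at hw
  obtain ⟨a, b, rfl⟩ := Submodule.mem_span_pair.1 hw
  rw [polar_add_right, polar_smul_right, polar_smul_right, hfe, hff, polar_add_right,
    polar_smul_right, polar_smul_right, hee, hef]
  simp

/-- an even product of reflections -/
theorem exists_even_list [Finite F] (hQ : Nd Q) (hgen : GenHyp Q) {g : V ≃ₗ[F] V} (hg : g ∈ Om Q) :
    ∃ vs : List V, (∀ v ∈ vs, Q v ≠ 0) ∧ g = (vs.map (refl Q)).prod ∧ Even vs.length := by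
  have h1 : g ∈ R Q := by rw [hQ.R_eq_O hgen]; exact Om_le hg
  obtain ⟨vs, hvs, rfl⟩ := exists_list_of_mem_R h1
  exact ⟨vs, hvs, rfl, ((hQ.list_mem_Om_iff hgen vs hvs).1 hg).1⟩

/-- elements of `Om Q` preserve the families of maximal totally singular subspaces -/
theorem even_codim [Finite F] (hQ : Nd Q) (hgen : GenHyp Q) {m : ℕ} (hm : finrank F V = 2 * m)
    {U : Submodule F V} (hU : MTS Q m U) {g : V ≃ₗ[F] V} (hg : g ∈ Om Q) :
    Even (m - finrank F ↥(U ⊓ U.map g.toLinearMap)) := by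
  obtain ⟨vs, hvs, rfl, hev⟩ := exists_even_list hQ hgen hg
  exact (hU.even_codim_iff hQ hm vs hvs).2 hev

theorem stab_of_sieg [Finite F] (hQ : Nd Q) (hgen : GenHyp Q) {z y : V} (hz : Q z = 0)
    (hzy : polar Q z y = 0) : ∃ g ∈ Om Q, ∀ x, g x = siegMap Q z y x :=
  ⟨sieg hQ hz hzy, SI_Om hQ hgen hz hzy, fun x => by rw [sieg_apply, siegMap_apply]⟩

/-- the stabiliser of a hyperbolic plane over a field with at most three elements fixes a
nonsingular point -/
theorem plus_plane [Finite F] (hQ : Nd Q) (hgen : GenHyp Q) (hn : 5 ≤ finrank F V)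
    (hF : ∀ a : F, a ≠ 0 → a = 1 ∨ a = -1) {W : Submodule F V} (hW : NDs Q W)
    (h2 : finrank F W = 2) {e : V} (he : e ∈ W) (he0 : e ≠ 0) (hQe : Q e = 0) :
    ∃ v, v ≠ 0 ∧ (∀ g ∈ O Q, (∀ w ∈ W, g w ∈ W) → g v ∈ F ∙ v) ∧
      (∃ g ∈ Om Q, g v = v ∧ ∃ w ∈ W, g w ∉ W) := by
  obtain ⟨f, hf, hQf, hef, hexp⟩ := exists_hyp_basis hQ hW h2 he he0 hQe
  have hQv : Q (e + f) = 1 := by rw [Q_add, hQe, hQf, hef]; simp
  have hfe : polar Q f e = 1 := by rw [polar_comm]; exact hef
  have hee : polar Q e e = 0 := by rw [polar_self', hQe, mul_zero]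
  have hff : polar Q f f = 0 := by rw [polar_self', hQf, mul_zero]
  refine ⟨e + f, ?_, ?_, ?_⟩
  · intro h
    rw [h, QuadraticMap.map_zero] at hQv
    exact zero_ne_one hQv
  · intro g hg hgW
    have h1 := hexp _ (hgW _ (W.add_mem he hf))
    set a := polar Q f (g (e + f))
    set b := polar Q e (g (e + f))
    have h3 : a * b = 1 := by
      have h4 : Q (g (e + f)) = 1 := by rw [hg, hQv]
      rw [h1, Q_add, Q_smul, Q_smul, hQe, hQf, polar_smul_left, polar_smul_right, hef] at h4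
      simpa using h4
    have ha : a ≠ 0 := by rintro h; rw [h, zero_mul] at h3; exact zero_ne_one h3
    have hab : a = b := by
      rcases hF a ha with h | h
      · rw [h] at h3 ⊢; rw [one_mul] at h3; exact h3.symm
      · rw [h] at h3 ⊢
        linear_combination h3
    rw [h1, ← hab, ← smul_add]
    exact Submodule.smul_mem _ _ (Submodule.mem_span_singleton_self _)
  · have hdp := hQ.finrank_add_finrank_perp W
    obtain ⟨z, hz, z', hz', hQz, hQz', hzz'⟩ := exists_pair_in hQ (nds_perp hQ hW) (by omega)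
    have hze : polar Q z e = 0 := by rw [polar_comm]; exact mem_perp.1 hz e he
    have hzf : polar Q z f = 0 := by rw [polar_comm]; exact mem_perp.1 hz f hf
    obtain ⟨g, hg, hgx⟩ := stab_of_sieg hQ hgen hQz (y := e - f)
      (by rw [polar_sub_right, hze, hzf, sub_zero])
    refine ⟨g, hg, ?_, e, he, ?_⟩
    · rw [hgx, siegMap_apply, polar_add_right, hze, hzf, polar_sub_left, polar_add_right,
        polar_add_right, hee, hef, hfe, hff]
      simp
    · rw [hgx, siegMap_apply, hze, polar_sub_left, hee, hfe]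
      intro hmem
      have h3 : z ∈ W ⊓ perp Q W := ⟨by
        have h4 := W.sub_mem hmem he
        have e1 : e + (0 : F) • (e - f) - (0 - 1 : F) • z - (Q (e - f) * 0) • z - e = z := by module
        rwa [e1] at h4, hz⟩
      rw [show W ⊓ perp Q W = ⊥ from hW, Submodule.mem_bot] at h3
      rw [h3, polar_zero_left] at hzz'
      exact zero_ne_one hzz'

theorem exists_mts_ge (hQ : Nd Q) {m : ℕ} (hm : finrank F V = 2 * m) {W : Submodule F V}
    (hW : ∀ w ∈ W, Q w = 0) (hWd : finrank F W + 1 = m) {U₀ : Submodule F V} (hU₀ : MTS Q m U₀) :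
    ∃ U, MTS Q m U ∧ W ≤ U := by
  refine ⟨W ⊔ (U₀ ⊓ perp Q W), ⟨?_, ?_⟩, le_sup_left⟩
  · have h1 := Submodule.finrank_sup_add_finrank_inf_eq W (U₀ ⊓ perp Q W)
    have h2 := hQ.finrank_add_finrank_perp (U₀ ⊔ W)
    rw [perp_sup, hU₀.perp_eq hQ hm] at h2
    have h3 := Submodule.finrank_sup_add_finrank_inf_eq U₀ W
    have h4 : W ⊓ (U₀ ⊓ perp Q W) = U₀ ⊓ W := by
      ext x
      simp only [Submodule.mem_inf]
      constructor
      · rintro ⟨h, h', _⟩; exact ⟨h', h⟩
      · rintro ⟨h, h'⟩; exact ⟨h', h, le_perp_of_ts hW h'⟩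
    rw [h4] at h1
    rw [hU₀.1] at h3
    omega
  · intro u hu
    obtain ⟨w, hw, x, hx, rfl⟩ := Submodule.mem_sup.1 hu
    rw [Q_add, hW w hw, hU₀.2 x hx.1, mem_perp.1 hx.2 w hw]; simp

theorem submax [Finite F] (hQ : Nd Q) (hgen : GenHyp Q) {m : ℕ} (hm : finrank F V = 2 * m)
    {W : Submodule F V} (hW0 : W ≠ ⊥) (hW : ∀ w ∈ W, Q w = 0) (hWd : finrank F W + 1 = m)
    {U₀ : Submodule F V} (hU₀ : MTS Q m U₀) :
    ∃ U, MTS Q m U ∧ (∀ g ∈ Om Q, (∀ w ∈ W, g w ∈ W) → ∀ u ∈ U, g u ∈ U) ∧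
      ∃ g ∈ Om Q, (∀ u ∈ U, g u ∈ U) ∧ ∃ w ∈ W, g w ∉ W := by
  obtain ⟨U, hU, hWU⟩ := exists_mts_ge hQ hm hW hWd hU₀
  refine ⟨U, hU, ?_, ?_⟩
  · intro g hg hgW
    have h1 := even_codim hQ hgen hm hU hg
    have h2 : W ≤ U ⊓ U.map g.toLinearMap := by
      intro w hw
      refine ⟨hWU hw, ?_⟩
      rw [← map_eq_of_stab hgW] at hw
      obtain ⟨w', hw', rfl⟩ := hw
      exact ⟨w', hWU hw', rfl⟩
    have h3 := Submodule.finrank_mono h2
    have h4 : finrank F ↥(U ⊓ U.map g.toLinearMap) ≤ m := by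
      rw [← hU.1]; exact Submodule.finrank_mono inf_le_left
    have h5 : finrank F ↥(U ⊓ U.map g.toLinearMap) = m := by
      obtain ⟨r, hr⟩ := h1
      omega
    have h6 : U ⊓ U.map g.toLinearMap = U :=
      Submodule.eq_of_le_of_finrank_eq inf_le_left (by rw [h5, hU.1])
    have h7 : U ≤ U.map g.toLinearMap := inf_eq_left.1 h6
    have h8 : U = U.map g.toLinearMap :=
      Submodule.eq_of_le_of_finrank_eq h7 (LinearEquiv.finrank_map_eq g U).symm
    intro u hu
    rw [h8]
    exact ⟨u, hu, rfl⟩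
  · obtain ⟨z, hz, hzW⟩ : ∃ z ∈ U, z ∉ W := by
      by_contra hcon
      push Not at hcon
      have := Submodule.finrank_mono (show U ≤ W from hcon)
      rw [hU.1] at this
      omega
    obtain ⟨w, hw, hw0⟩ := Submodule.exists_mem_ne_zero_of_ne_bot hW0
    have hwz : w ∉ F ∙ z := by
      intro hmem
      obtain ⟨c, rfl⟩ := Submodule.mem_span_singleton.1 hmem
      have hc : c ≠ 0 := by rintro rfl; rw [zero_smul] at hw0; exact hw0 rfl
      exact hzW ((Submodule.smul_mem_iff _ hc).1 hw)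
    obtain ⟨y, hy, hwy⟩ := hQ.exists_polar_one _ hwz
    rw [mem_perp_singleton] at hy
    obtain ⟨g, hg, hgx⟩ := stab_of_sieg hQ hgen (hU.2 z hz) hy
    refine ⟨g, hg, ?_, w, hw, ?_⟩
    · intro u hu
      rw [hgx, siegMap_apply, polar_of_ts hU.2 hz hu]
      simp only [zero_smul, add_zero, mul_zero, sub_zero]
      exact U.sub_mem hu (U.smul_mem _ hz)
    · rw [hgx, siegMap_apply, polar_of_ts hU.2 hz (hWU hw), polar_comm Q y w, hwy]
      intro hmem
      apply hzW
      have h4 := W.sub_mem hw hmem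
      have e1 : w - (w + (0 : F) • y - (1 : F) • z - (Q y * 0) • z) = z := by module
      rwa [e1] at h4

theorem ts_pair [Finite F] (hQ : Nd Q) (hgen : GenHyp Q) {k : ℕ} (hk : finrank F V = 2 * k)
    (hk2 : 2 ≤ k) (hko : Odd k) {A B : Submodule F V} (hA : MTS Q k A) (hB : MTS Q k B)
    (hAB : A ⊓ B = ⊥) :
    (∀ g ∈ Om Q, A.map g.toLinearMap ≠ B) ∧
      ∃ g ∈ Om Q, (∀ a ∈ A, g a ∈ A) ∧ ∃ b ∈ B, g b ∉ B := by
  constructor
  · intro g hg h
    have h1 := even_codim hQ hgen hk hA hg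
    rw [h, hAB, finrank_bot, Nat.sub_zero] at h1
    exact (Nat.not_even_iff_odd.2 hko) h1
  · -- independent z, y in A
    have hA0 : A ≠ ⊥ := by
      intro h; have := hA.1; rw [h, finrank_bot] at this; omega
    obtain ⟨z, hz, hz0⟩ := Submodule.exists_mem_ne_zero_of_ne_bot hA0
    obtain ⟨y, hy, hyz⟩ : ∃ y ∈ A, y ∉ F ∙ z := by
      by_contra hcon
      push Not at hcon
      have := Submodule.finrank_mono (show A ≤ F ∙ z from hcon)
      rw [hA.1, finrank_span_singleton hz0] at this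
      omega
    obtain ⟨b, hb, hzb⟩ : ∃ b ∈ B, polar Q z b ≠ 0 := by
      by_contra hcon
      push Not at hcon
      have h0 : z ∈ perp Q B := mem_perp'.2 hcon
      rw [hB.perp_eq hQ hk] at h0
      have h1 : z ∈ A ⊓ B := ⟨hz, h0⟩
      rw [hAB, Submodule.mem_bot] at h1
      exact hz0 h1
    obtain ⟨g, hg, hgx⟩ := stab_of_sieg hQ hgen (hA.2 z hz) (y := y) (polar_of_ts hA.2 hz hy)
    refine ⟨g, hg, ?_, b, hb, ?_⟩
    · intro a ha
      rw [hgx, siegMap_apply]
      exact A.sub_mem (A.sub_mem (A.add_mem ha (A.smul_mem _ hy)) (A.smul_mem _ hz))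
        (A.smul_mem _ hz)
    · rw [hgx, siegMap_apply, hA.2 y hy]
      intro hmem
      have h4 := B.sub_mem hmem hb
      have e1 : b + polar Q z b • y - polar Q y b • z - (0 * polar Q z b) • z - b =
        polar Q z b • y - polar Q y b • z := by module
      rw [e1] at h4
      have h5 : polar Q z b • y - polar Q y b • z ∈ A ⊓ B :=
        ⟨A.sub_mem (A.smul_mem _ hy) (A.smul_mem _ hz), h4⟩
      rw [hAB, Submodule.mem_bot, sub_eq_zero] at h5
      apply hyz
      rw [Submodule.mem_span_singleton]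
      refine ⟨(polar Q z b)⁻¹ * polar Q y b, ?_⟩
      rw [mul_smul, ← h5, smul_smul, inv_mul_cancel₀ hzb, one_smul]

end Cfsg.Agent.Lib.OrthNot
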