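import Mathlib
import Cfsg.Agent.Lib.OrthNot
import Cfsg.Agent.Lib.O33

set_option autoImplicit false
set_option linter.unusedSectionVars false

/-!
Frames and non-maximal decomposition stabilisers in `Om Q`.
-/

namespace Cfsg.Agent.Lib.OrthFrameH94

open Cfsg Cfsg.Geo Cfsg.Agent.Lib.GeoBridge QuadraticMap Module Cfsg.Agent.Lib.Quad
open Cfsg.Agent.Lib.OrthMax Cfsg.Agent.Lib.OrthNd Cfsg.Agent.Lib.OrthBridge
  Cfsg.Agent.Lib.OrthNdBridge Cfsg.Agent.Lib.OrthNot
open scoped MatrixGroups Matrix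

variable {F V : Type*} [Field F] [AddCommGroup V] [Module F V] [FiniteDimensional F V]
  {Q : QuadraticForm F V}

/-- the vectors of norm `c` in the members of `D` -/
def NS (Q : QuadraticForm F V) {t : ℕ} (D : Fin t → Submodule F V) (c : F) : Set V :=
  {x | ∃ i, x ∈ D i ∧ Q x = c}

/-- frame data -/
structure Fr (Q : QuadraticForm F V) {t : ℕ} (D : Fin t → Submodule F V) (c : F) : Prop where
  orth : ∀ i j, i ≠ j → ∀ x ∈ D i, ∀ y ∈ D j, polar Q x y = 0
  rep : ∀ i, ∃ x ∈ D i, Q x = c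
  frame : ∀ i, ∀ x ∈ D i, ∀ y ∈ D i, Q x = c → Q y = c → polar Q x y = 0 ∨ y = x ∨ y = -x

variable {t : ℕ} {D : Fin t → Submodule F V} {c : F}

theorem Fr.rel (H : Fr Q D c) {x y : V} (hx : x ∈ NS Q D c) (hy : y ∈ NS Q D c) :
    polar Q x y = 0 ∨ y = x ∨ y = -x := by
  obtain ⟨i, hxi, hQx⟩ := hx
  obtain ⟨j, hyj, hQy⟩ := hy
  by_cases hij : i = j
  · subst hij
    exact H.frame i x hxi y hyj hQx hQy
  · exact Or.inl (H.orth i j hij x hxi y hyj)

theorem neg_mem_NS {x : V} (hx : x ∈ NS Q D c) : -x ∈ NS Q D c := by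
  obtain ⟨i, hxi, hQx⟩ := hx
  exact ⟨i, (D i).neg_mem hxi, by rw [QuadraticMap.map_neg, hQx]⟩

/-- the reflection interchanging two orthogonal frame vectors -/
theorem Fr.swap (H : Fr Q D c) (h2 : (2 : F) ≠ 0) (hc : c ≠ 0) {a b : V} (ha : a ∈ NS Q D c)
    (hb : b ∈ NS Q D c) (hab : polar Q a b = 0) :
    Q (a - b) = 2 * c ∧ Quad.refl Q (a - b) a = b ∧ ∀ v ∈ NS Q D c, Quad.refl Q (a - b) v ∈ NS Q D c := by
  have hQa : Q a = c := ha.choose_spec.2
  have hQb : Q b = c := hb.choose_spec.2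
  have hQab : Q (a - b) = 2 * c := by rw [Q_sub, hQa, hQb, hab]; ring
  have hne : Q (a - b) ≠ 0 := by rw [hQab]; exact mul_ne_zero h2 hc
  have h1 : Quad.refl Q (a - b) a = b := refl_sub (by rw [hQa, hQb]) hne
  have h1' : Quad.refl Q (a - b) b = a := refl_sub' (by rw [hQa, hQb]) hne
  refine ⟨hQab, h1, fun v hv => ?_⟩
  rcases H.rel ha hv with h3 | rfl | rfl
  · rcases H.rel hb hv with h4 | rfl | rfl
    · rw [refl_of_perp (by rw [polar_sub_left, h3, h4, sub_zero])]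
      exact hv
    · rw [h1']; exact ha
    · rw [map_neg, h1']; exact neg_mem_NS ha
  · rw [h1]; exact hb
  · rw [map_neg, h1]; exact neg_mem_NS hb

theorem iff_of_forall {N : Set V} {v₀ : V} (h : ∀ v ∈ N, Quad.refl Q v₀ v ∈ N) (v : V) :
    v ∈ N ↔ Quad.refl Q v₀ v ∈ N :=
  ⟨h v, fun hv => by have := h _ hv; rwa [refl_refl] at this⟩

theorem Fr.exists_swap [Finite F] (H : Fr Q D c) (hQ : Nd Q) (hgen : GenHyp Q)
    (hn : 4 ≤ finrank F V) (h2 : (2 : F) ≠ 0) (hc : c ≠ 0) (hnds : ∀ i, NDs Q (D i))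
    (hk : ∀ i, 2 ≤ finrank F (D i)) (ht : 4 ≤ t) :
    ∃ g ∈ Om Q, (∀ v, v ∈ NS Q D c ↔ g v ∈ NS Q D c) ∧
      ¬ ∃ σ : Equiv.Perm (Fin t), ∀ i, (D i).map g.toLinearMap = D (σ i) := by
  choose E hE hQE using H.rep
  have hEN : ∀ i, E i ∈ NS Q D c := fun i => ⟨i, hE i, hQE i⟩
  let i₀ : Fin t := ⟨0, by omega⟩
  let i₁ : Fin t := ⟨1, by omega⟩
  let i₂ : Fin t := ⟨2, by omega⟩
  let i₃ : Fin t := ⟨3, by omega⟩
  have h01 : i₀ ≠ i₁ := by simp [i₀, i₁]
  have h02 : i₀ ≠ i₂ := by simp [i₀, i₂]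
  have h03 : i₀ ≠ i₃ := by simp [i₀, i₃]
  have h12 : i₁ ≠ i₂ := by simp [i₁, i₂]
  have h13 : i₁ ≠ i₃ := by simp [i₁, i₃]
  have h23 : i₂ ≠ i₃ := by simp [i₂, i₃]
  have horth : ∀ i j, i ≠ j → polar Q (E i) (E j) = 0 := fun i j hij => H.orth i j hij _ (hE i) _ (hE j)
  obtain ⟨hQ1, hr1, hN1⟩ := H.swap h2 hc (hEN i₀) (hEN i₁) (horth _ _ h01)
  obtain ⟨hQ2, hr2, hN2⟩ := H.swap h2 hc (hEN i₂) (hEN i₃) (horth _ _ h23)
  have h2c : 2 * c ≠ 0 := mul_ne_zero h2 hc
  refine ⟨Quad.refl Q (E i₀ - E i₁) * Quad.refl Q (E i₂ - E i₃), ?_, ?_, ?_⟩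
  · rw [hQ.Om_eq_Sg hgen hn]
    exact refl_mul_refl_mem_Sg' hQ hn (by rw [hQ1]; exact h2c) (by rw [hQ1, hQ2])
  · intro v
    rw [LinearEquiv.mul_apply, ← iff_of_forall hN1, ← iff_of_forall hN2]
  · rintro ⟨σ, hσ⟩
    -- a' in D i₀ orthogonal to E i₀
    obtain ⟨a', ha', ha'0, hEa'⟩ : ∃ a' ∈ D i₀, a' ≠ 0 ∧ polar Q (E i₀) a' = 0 := by
      obtain ⟨x, hx, hxE⟩ : ∃ x ∈ D i₀, x ∉ F ∙ (E i₀) := by
        by_contra hcon
        push Not at hcon
        have h1 := Submodule.finrank_mono (show D i₀ ≤ F ∙ (E i₀) from hcon)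
        have h3 := hk i₀
        have h4 : E i₀ ≠ 0 := by
          intro h
          have h5 := hQE i₀
          rw [h, QuadraticMap.map_zero] at h5
          exact hc h5.symm
        rw [finrank_span_singleton h4] at h1
        omega
      refine ⟨x - (polar Q (E i₀) x / polar Q (E i₀) (E i₀)) • E i₀,
        (D i₀).sub_mem hx ((D i₀).smul_mem _ (hE i₀)), ?_, ?_⟩
      · intro h
        apply hxE
        rw [sub_eq_zero.1 h]
        exact Submodule.smul_mem _ _ (Submodule.mem_span_singleton_self _)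
      · have h3 : polar Q (E i₀) (E i₀) ≠ 0 := by rw [polar_self', hQE]; exact h2c
        rw [polar_sub_right, polar_smul_right, smul_eq_mul, div_mul_cancel₀ _ h3, sub_self]
    have hg1 : (Quad.refl Q (E i₀ - E i₁) * Quad.refl Q (E i₂ - E i₃)) (E i₀) = E i₁ := by
      rw [LinearEquiv.mul_apply, refl_of_perp (v := E i₂ - E i₃), hr1]
      rw [polar_sub_left, horth _ _ h02.symm, horth _ _ h03.symm, sub_zero]
    have hg2 : (Quad.refl Q (E i₀ - E i₁) * Quad.refl Q (E i₂ - E i₃)) a' = a' := by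
      rw [LinearEquiv.mul_apply, refl_of_perp (v := E i₂ - E i₃), refl_of_perp]
      · rw [polar_sub_left, hEa', H.orth _ _ h01.symm _ (hE i₁) _ ha', sub_zero]
      · rw [polar_sub_left, H.orth _ _ h02.symm _ (hE i₂) _ ha', H.orth _ _ h03.symm _ (hE i₃) _ ha',
          sub_zero]
    have h5 : E i₁ ∈ D (σ i₀) := by rw [← hσ i₀]; exact ⟨_, hE i₀, hg1⟩
    have h6 : a' ∈ D (σ i₀) := by rw [← hσ i₀]; exact ⟨_, ha', hg2⟩
    have h7 : σ i₀ = i₁ := by
      by_contra hne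
      have h8 := H.orth _ _ hne _ h5 _ (hE i₁)
      rw [polar_self', hQE] at h8
      exact h2c h8
    rw [h7] at h6
    have h9 : a' ∈ D i₀ ⊓ perp Q (D i₀) :=
      ⟨ha', mem_perp.2 fun x hx => H.orth _ _ h01 x hx _ h6⟩
    rw [show D i₀ ⊓ perp Q (D i₀) = ⊥ from hnds i₀, Submodule.mem_bot] at h9
    exact ha'0 h9

theorem Fr.exists_not [Finite F] (H : Fr Q D c) (hQ : Nd Q) (hgen : GenHyp Q)
    (hn : 4 ≤ finrank F V) (h2 : (2 : F) ≠ 0) (hc : c ≠ 0) (ht : 5 ≤ t) :
    ∃ g ∈ Om Q, ¬ ∀ v, v ∈ NS Q D c ↔ g v ∈ NS Q D c := by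
  choose E hE hQE using H.rep
  let i₀ : Fin t := ⟨0, by omega⟩
  let i₁ : Fin t := ⟨1, by omega⟩
  let i₂ : Fin t := ⟨2, by omega⟩
  let i₃ : Fin t := ⟨3, by omega⟩
  let i₄ : Fin t := ⟨4, by omega⟩
  have h01 : i₀ ≠ i₁ := by simp [i₀, i₁]
  have h02 : i₀ ≠ i₂ := by simp [i₀, i₂]
  have h03 : i₀ ≠ i₃ := by simp [i₀, i₃]
  have h04 : i₀ ≠ i₄ := by simp [i₀, i₄]
  have h12 : i₁ ≠ i₂ := by simp [i₁, i₂]
  have h13 : i₁ ≠ i₃ := by simp [i₁, i₃]
  have h23 : i₂ ≠ i₃ := by simp [i₂, i₃]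
  have horth : ∀ i j, i ≠ j → polar Q (E i) (E j) = 0 := fun i j hij => H.orth i j hij _ (hE i) _ (hE j)
  set u := E i₀ + E i₁ + E i₂ + E i₃ with hu
  have hQu : Q u = 4 * c := by
    rw [hu, Q_add, Q_add, Q_add, hQE, hQE, hQE, hQE, polar_add_left, polar_add_left, polar_add_left,
      horth _ _ h01, horth _ _ h02, horth _ _ h03, horth _ _ h12, horth _ _ h13, horth _ _ h23]
    ring
  have h4c : 4 * c ≠ 0 := by
    rw [show (4 : F) * c = 2 * (2 * c) by ring]
    exact mul_ne_zero h2 (mul_ne_zero h2 hc)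
  have hQw : Q ((2 : F) • E i₄) = 4 * c := by rw [Q_smul, hQE]; ring
  refine ⟨Quad.refl Q u * Quad.refl Q ((2 : F) • E i₄), ?_, ?_⟩
  · rw [hQ.Om_eq_Sg hgen hn]
    exact refl_mul_refl_mem_Sg' hQ hn (by rw [hQu]; exact h4c) (by rw [hQu, hQw])
  · intro hcon
    have h5 := (hcon (E i₀)).1 ⟨i₀, hE i₀, hQE i₀⟩
    have hue : polar Q u (E i₀) = 2 * c := by
      rw [hu, polar_add_left, polar_add_left, polar_add_left, polar_self', hQE,
        horth _ _ h01.symm, horth _ _ h02.symm, horth _ _ h03.symm]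
      ring
    have hue1 : polar Q u (E i₁) = 2 * c := by
      rw [hu, polar_add_left, polar_add_left, polar_add_left, polar_self', hQE,
        horth _ _ h01, horth _ _ h12.symm, horth _ _ h13.symm]
      ring
    have h6 : (Quad.refl Q u * Quad.refl Q ((2 : F) • E i₄)) (E i₀) = E i₀ - (2 : F)⁻¹ • u := by
      rw [LinearEquiv.mul_apply, refl_of_perp (v := (2 : F) • E i₄), refl_apply (by rw [hQu]; exact h4c), hQu,
        hue]
      · congr 2
        rw [show (4 : F) * c = 2 * (2 * c) by ring, mul_inv, mul_assoc,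
          inv_mul_cancel₀ (mul_ne_zero h2 hc), mul_one]
      · rw [polar_smul_left, horth _ _ h04.symm, smul_zero]
    rw [h6] at h5
    obtain ⟨j, hj, -⟩ := h5
    have h7 : polar Q (E i₀ - (2 : F)⁻¹ • u) (E i₀) ≠ 0 := by
      rw [polar_sub_left, polar_smul_left, hue, polar_self', hQE, smul_eq_mul, ← mul_assoc,
        inv_mul_cancel₀ h2]
      intro h
      apply hc
      linear_combination h
    have h8 : polar Q (E i₀ - (2 : F)⁻¹ • u) (E i₁) ≠ 0 := by
      rw [polar_sub_left, polar_smul_left, hue1, horth _ _ h01, smul_eq_mul, ← mul_assoc,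
        inv_mul_cancel₀ h2]
      intro h
      apply hc
      linear_combination -h
    have h9 : j = i₀ := by
      by_contra hne
      exact h7 (H.orth j i₀ hne _ hj _ (hE i₀))
    have h10 : j = i₁ := by
      by_contra hne
      exact h8 (H.orth j i₁ hne _ hj _ (hE i₁))
    exact h01 (h9.symm.trans h10)

/-- the frame property of one subspace -/
def FrP (Q : QuadraticForm F V) (W : Submodule F V) (c : F) : Prop :=
  (∃ x ∈ W, Q x = c) ∧
    ∀ x ∈ W, ∀ y ∈ W, Q x = c → Q y = c → polar Q x y = 0 ∨ y = x ∨ y = -x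

theorem FrP.of_isom {W W' : Submodule F V} (h : FrP Q W c) (e : W ≃ₗ[F] W')
    (he : ∀ w : W, Q ((e w : W') : V) = Q (w : V)) : FrP Q W' c := by
  have hp : ∀ x y : W, polar Q ((e x : W') : V) ((e y : W') : V) = polar Q (x : V) (y : V) := by
    intro x y
    have h1 : ((e x : W') : V) + ((e y : W') : V) = ((e (x + y) : W') : V) := by
      rw [map_add]; rfl
    rw [polar, polar, h1, he, he, he]; rfl
  refine ⟨?_, ?_⟩
  · obtain ⟨x, hx, hQx⟩ := h.1
    exact ⟨e ⟨x, hx⟩, (e ⟨x, hx⟩).2, by rw [he]; exact hQx⟩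
  · intro x hx y hy hQx hQy
    obtain ⟨x', hx'⟩ := e.surjective ⟨x, hx⟩
    obtain ⟨y', hy'⟩ := e.surjective ⟨y, hy⟩
    have ex : ((e x' : W') : V) = x := by rw [hx']
    have ey : ((e y' : W') : V) = y := by rw [hy']
    rw [← ex, he] at hQx
    rw [← ey, he] at hQy
    rw [← ex, ← ey, hp]
    rcases h.2 x' x'.2 y' y'.2 hQx hQy with h1 | h1 | h1
    · exact Or.inl h1
    · right; left; congr 2; exact Subtype.ext h1
    · right; right
      have : y' = -x' := Subtype.ext h1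
      rw [this, map_neg]; rfl

theorem frp_hyp (hQ : Nd Q) {W : Submodule F V} (hW : NDs Q W) (h2 : finrank F W = 2)
    {e : V} (he : e ∈ W) (he0 : e ≠ 0) (hQe : Q e = 0)
    (hF : ∀ a b : F, a ≠ 0 → b ≠ 0 → a * a + b * b = 0 ∨ a = b ∨ a = -b) : FrP Q W 1 := by
  obtain ⟨f, hf, hQf, hef, hexp⟩ := exists_hyp_basis hQ hW h2 he he0 hQe
  have hfe : polar Q f e = 1 := by rw [polar_comm]; exact hef
  have hee : polar Q e e = 0 := by rw [polar_self', hQe, mul_zero]
  have hff : polar Q f f = 0 := by rw [polar_self', hQf, mul_zero]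
  refine ⟨⟨e + f, W.add_mem he hf, by rw [Q_add, hQe, hQf, hef]; simp⟩, ?_⟩
  intro x hx y hy hQx hQy
  obtain ⟨a, b, hxe⟩ : ∃ a b : F, x = a • e + b • f := ⟨_, _, hexp x hx⟩
  obtain ⟨a', b', hye⟩ : ∃ a b : F, y = a • e + b • f := ⟨_, _, hexp y hy⟩
  have h1 : a * b = 1 := by
    rw [hxe, Q_add, Q_smul, Q_smul, hQe, hQf, polar_smul_left, polar_smul_right, hef] at hQx
    simpa using hQx
  have h1' : a' * b' = 1 := by
    rw [hye, Q_add, Q_smul, Q_smul, hQe, hQf, polar_smul_left, polar_smul_right, hef] at hQy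
    simpa using hQy
  have ha : a ≠ 0 := left_ne_zero_of_mul_eq_one h1
  have ha' : a' ≠ 0 := left_ne_zero_of_mul_eq_one h1'
  rcases hF a a' ha ha' with h3 | h3 | h3
  · left
    rw [hxe, hye, polar_add_left, polar_add_right, polar_add_right]
    simp only [polar_smul_left, polar_smul_right, hee, hff, hef, hfe, smul_eq_mul]
    have h4 : (a * a') * (a * b' + b * a') = 0 := by
      linear_combination h3 + (a * a) * h1' + (a' * a') * h1
    have h5 := (mul_eq_zero.1 h4).resolve_left (mul_ne_zero ha ha')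
    linear_combination h5
  · right; left
    rw [h3] at h1
    have h5 : b' = b := mul_left_cancel₀ ha' (h1'.trans h1.symm)
    rw [hxe, hye, h3, h5]
  · right; right
    have h5 : b' = -b := by
      apply mul_left_cancel₀ ha'
      rw [h1', ← h1, h3]; ring
    rw [hxe, hye, h3, h5]
    module

theorem frp_three_two [Fintype F] (hq : Fintype.card F = 3) (hQ : Nd Q) {W : Submodule F V}
    (hW : NDs Q W) (h2 : finrank F W = 2) : ∃ c ≠ 0, FrP Q W c := by
  by_cases han : ∀ w ∈ W, Q w = 0 → w = 0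
  · obtain ⟨x₀, hx₀, hx₀0⟩ := Submodule.exists_mem_ne_zero_of_ne_bot (show W ≠ ⊥ by
      rintro rfl; rw [finrank_bot] at h2; omega)
    have hc : Q x₀ ≠ 0 := fun h => hx₀0 (han x₀ hx₀ h)
    refine ⟨Q x₀, hc, ⟨x₀, hx₀, rfl⟩, ?_⟩
    intro x hx y hy hQx hQy
    have h3 := O33.three_zero hq
    by_cases hs : polar Q x y = 0
    · exact Or.inl hs
    right
    have hss : polar Q x y = Q x₀ ∨ polar Q x y = -Q x₀ := by
      rcases O33.pm_one hq hs with h4 | h4 <;> rcases O33.pm_one hq hc with h5 | h5 <;>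
        rw [h4, h5] <;> simp
    rcases hss with h4 | h4
    · right
      have h5 := han (x + y) (W.add_mem hx hy) (by
        rw [Q_add, hQx, hQy, h4]
        linear_combination Q x₀ * h3)
      exact (neg_eq_of_add_eq_zero_right h5).symm
    · left
      have h5 := han (x - y) (W.sub_mem hx hy) (by
        rw [Q_sub, hQx, hQy, h4]
        linear_combination Q x₀ * h3)
      exact (sub_eq_zero.1 h5).symm
  · push Not at han
    obtain ⟨e, he, hQe, he0⟩ := han
    refine ⟨1, one_ne_zero, frp_hyp hQ hW h2 he he0 hQe ?_⟩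
    intro a b ha hb
    right
    rcases O33.pm_one hq ha with h4 | h4 <;> rcases O33.pm_one hq hb with h5 | h5 <;>
      rw [h4, h5] <;> simp

theorem frp_five_two [Fintype F] (hq : Fintype.card F = 5) (hQ : Nd Q) {W : Submodule F V}
    (hW : NDs Q W) (h2 : finrank F W = 2) {e : V} (he : e ∈ W) (he0 : e ≠ 0) (hQe : Q e = 0) :
    FrP Q W 1 := by
  refine frp_hyp hQ hW h2 he he0 hQe ?_
  intro a b ha hb
  have h1 := FiniteField.pow_card_sub_one_eq_one a ha
  have h3 := FiniteField.pow_card_sub_one_eq_one b hb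
  rw [hq] at h1 h3
  have h4 : (a * a + b * b) * ((a - b) * (a + b)) = 0 := by
    linear_combination h1 - h3
  rcases mul_eq_zero.1 h4 with h | h
  · exact Or.inl h
  · right
    rcases mul_eq_zero.1 h with h | h
    · left; linear_combination h
    · right; linear_combination h

theorem frp_three_three [Fintype F] (hq : Fintype.card F = 3) (hQ : Nd Q) {W : Submodule F V}
    (hW : NDs Q W) (h3 : finrank F W = 3) : ∃ c ≠ 0, FrP Q W c := by
  have H : O33.SB (fun x y : V => polar Q x y) :=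
    ⟨fun x y z => polar_add_left Q x y z, fun c x y => by rw [polar_smul_left, smul_eq_mul],
      fun x y => polar_comm Q x y⟩
  obtain ⟨ε, hε, E, hE, hEE⟩ := O33.exists_frame hq H h3 (fun x hx hx0 => by
    obtain ⟨y, hy, -, hxy⟩ := exists_one_in hQ hW bot_le hx (by simpa using hx0)
    exact ⟨y, hy, by rw [hxy]; exact one_ne_zero⟩)
  have h2 := O33.two_ne_zero' hq
  have h30 := O33.three_zero hq
  refine ⟨2 * ε, mul_ne_zero h2 hε, ⟨E 0, hE 0, ?_⟩, ?_⟩
  · have h4 := hEE 0 0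
    simp only [if_true] at h4
    rw [polar_self'] at h4
    have h5 : (2 : F) * (Q (E 0) - 2 * ε) = 0 := by
      rw [mul_sub, h4]
      linear_combination (-ε) * h30
    exact sub_eq_zero.1 ((mul_eq_zero.1 h5).resolve_left h2)
  · intro x hx y hy hQx hQy
    have key : ∀ x ∈ W, Q x = 2 * ε → ∃ i, ∃ a : F, a ≠ 0 ∧ x = a • E i := by
      intro x hx hQx
      refine O33.eq_of_norm hq H h3 hε hE hEE hx ?_
      show polar Q x x = ε
      rw [polar_self', hQx]
      linear_combination ε * h30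
    obtain ⟨i, a, ha, rfl⟩ := key x hx hQx
    obtain ⟨j, b, hb, rfl⟩ := key y hy hQy
    by_cases hij : i = j
    · subst hij
      right
      rcases O33.pm_one hq ha with h4 | h4 <;> rcases O33.pm_one hq hb with h5 | h5 <;>
        rw [h4, h5] <;> simp
    · left
      have h4 := hEE i j
      rw [if_neg hij] at h4
      rw [polar_smul_left, polar_smul_right, h4]; simp

/-- the frame data of an orthogonal isometric decomposition -/
theorem fr_of {ι : Type} [Fintype ι] [DecidableEq ι] {Q : QuadraticForm F (ι → F)} {k : ℕ}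
    {D : Fin t → Submodule F (ι → F)} (hD : IsOrthogonalMDecomposition ⇑Q k D) (i₀ : Fin t)
    (h : FrP Q (D i₀) c) : Fr Q D c where
  orth i j hij x hx y hy := hD.decomp.orthogonal i j hij x hx y hy
  rep i := by
    obtain ⟨e, he⟩ := hD.isometric i₀ i
    exact (h.of_isom e he).1
  frame i := by
    obtain ⟨e, he⟩ := hD.isometric i₀ i
    exact (h.of_isom e he).2

theorem card_decomp {ι : Type} [Fintype ι] {k : ℕ}
    {D : Fin t → Submodule F (ι → F)} (hD : IsMDecomposition k D) :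
    finrank F (ι → F) = t * k := by
  classical
  have h2 : DirectSum.IsInternal D :=
    (DirectSum.isInternal_submodule_iff_iSupIndep_and_iSup_eq_top D).2 ⟨hD.indep, hD.iSup_eq_top⟩
  have h3 := LinearEquiv.finrank_eq (LinearEquiv.ofBijective (DirectSum.coeLinearMap D) h2)
  rw [← h3]
  have h4 : finrank F (DirectSum (Fin t) fun i => D i) = ∑ i, finrank F (D i) :=
    Module.finrank_directSum F (fun i => D i)
  rw [h4]
  simp [hD.finrank_eq]

theorem frame_not_max {ι : Type} [Fintype ι] [DecidableEq ι] [Finite F]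
    {Q : QuadraticForm F (ι → F)} (hQ : Nd Q) (hn : 5 ≤ finrank F (ι → F)) {k : ℕ} (hk : 2 ≤ k)
    {D : Fin t → Submodule F (ι → F)} (hD : IsOrthogonalMDecomposition ⇑Q k D) (ht : 5 ≤ t)
    (h2 : (2 : F) ≠ 0) (hc : c ≠ 0) (h : FrP Q (D ⟨0, by omega⟩) c) :
    ∃ K : Subgroup (GL ι F), decompositionStabilizer D ⊓ omegaGL ⇑Q < K ∧ K < omegaGL ⇑Q := by
  have H := fr_of hD _ h
  have hgen : GenHyp Q := Or.inr (Or.inl (by omega))
  have hnds : ∀ i, NDs Q (D i) := fun i => nds_of_nondeg (hD.decomp.nondegenerate i)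
  obtain ⟨g, hg, hgN, hgD⟩ := H.exists_swap hQ hgen (by omega) h2 hc hnds
    (fun i => by rw [hD.decomp.decomp.finrank_eq]; exact hk) (by omega)
  obtain ⟨g', hg', hgN'⟩ := H.exists_not hQ hgen (by omega) h2 hc ht
  refine between_of (Q := Q) (K₀ := Cfsg.stabilizing (Cfsg.glToMat ι F) (NS Q D c))
    (P := fun g => ∃ σ : Equiv.Perm (Fin t), ∀ i, (D i).map g.toLinearMap = D (σ i))
    (P₀ := fun g => ∀ v, v ∈ NS Q D c ↔ g v ∈ NS Q D c)
    (mem_decompositionStabilizer_iff D) (fun g => Iff.rfl) ?_ ⟨g, hg, hgN, hgD⟩ ⟨g', hg', hgN'⟩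
  rintro x hx ⟨σ, hσ⟩ v
  have hxO := Om_le hx
  constructor
  · rintro ⟨i, hi, hQv⟩
    exact ⟨σ i, by rw [← hσ i]; exact ⟨v, hi, rfl⟩, by rw [hxO]; exact hQv⟩
  · rintro ⟨j, hj, hQv⟩
    obtain ⟨i, rfl⟩ := σ.surjective j
    rw [← hσ i] at hj
    obtain ⟨w, hw, hwv⟩ := hj
    have : w = v := x.injective hwv
    subst this
    exact ⟨i, hw, by rw [← hQv]; exact (hxO w).symm⟩

end Cfsg.Agent.Lib.OrthFrameH94
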