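import Mathlib
import Cfsg.Agent.Lib.OrthDec2H94
import Cfsg.Agent.Lib.OrthNdBridge
import Cfsg.Agent.Lib.OrthFrameH94

set_option autoImplicit false
set_option linter.unusedSectionVars false
set_option linter.unusedSimpArgs false
set_option linter.unusedVariables false

/-!
Overgroups of stabilisers of orthogonal decompositions, odd characteristic: the main theorem.
-/

namespace Cfsg.Agent.Lib.OrthDecH94

open QuadraticMap Module Cfsg.Agent.Lib.Quad Cfsg.Agent.Lib.OrthMax Cfsg.Agent.Lib.OrthNd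
open Cfsg.Agent.Lib.SLBlockH94 (Dec)

variable {F V : Type*} [Field F] [AddCommGroup V] [Module F V] [FiniteDimensional F V]
  {Q : QuadraticForm F V} {M : Subgroup (V ≃ₗ[F] V)}

variable {κ : Type*} [Fintype κ] [DecidableEq κ]

namespace OD

variable {D : κ → Submodule F V} {pr : κ → V →ₗ[F] V} (S : OD Q D pr M)
include S

variable [Finite F]

/-- Lemma C -/
theorem lemC (h2 : (2 : F) ≠ 0) (hl : ∀ i, finrank F (D i) = 3 → ∃ l : F, l ≠ 0 ∧ l ≠ 1 ∧ l ≠ -1) {j : κ} {w x : V}
    (hwD : w ∉ D j) (h : SF Q M w x) (ha0 : pr j w ≠ 0) (hx : pr j x ∉ F ∙ pr j w) : Om Q ≤ M := by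
  by_cases hQa : Q (pr j w) = 0
  · exact S.lemC1 hwD h ha0 hQa hx
  · by_cases h3 : finrank F (D j) = 3
    · obtain ⟨l, hl0, hl1, hl2⟩ := hl j h3
      exact S.lemC3 h2 hl0 hl1 hl2 h3 hwD h hQa hx
    · have := S.dim j
      exact S.lemC2 h2 (by omega) hwD h hQa hx

theorem fin_eq (i j : κ) : finrank F (D i) = finrank F (D j) := by
  obtain ⟨e, -⟩ := S.iso i j
  exact e.finrank_eq

theorem eq_zero_of_pr {x : V} (h : ∀ j, pr j x = 0) : x = 0 := by
  rw [← S.dec.sum x]
  exact Finset.sum_eq_zero fun j _ => h j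

/-- a singular vector of a block moved outside all blocks -/
theorem exists_out {g : V ≃ₗ[F] V} (hg : g ∈ O Q) (hnot : ¬ ∃ σ, Pm D g σ) :
    ∃ i, ∃ z ∈ D i, z ≠ 0 ∧ Q z = 0 ∧ ∀ l, g z ∉ D l := by
  by_contra hcon
  push Not at hcon
  apply hnot
  have hgp : ∀ x y, polar Q (g x) (g y) = polar Q x y := O_polar hg
  have key : ∀ i, ∃ l, ∀ x ∈ D i, g x ∈ D l := by
    intro i
    obtain ⟨e, he, f, hf, hQe, hQf, hef⟩ := exists_pair_in S.hQ (S.nds i) (S.dim i)
    have he0 : e ≠ 0 := by rintro rfl; rw [polar_zero_left] at hef; exact zero_ne_one hef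
    have hf0 : f ≠ 0 := by rintro rfl; rw [polar_zero_right] at hef; exact zero_ne_one hef
    have hsame : ∀ {x y : V} {l l' : κ}, g x ∈ D l → g y ∈ D l' → polar Q x y ≠ 0 → l = l' := by
      intro x y l l' h1 h2 h3
      by_contra hll
      apply h3
      rw [← hgp]
      exact S.orth l l' hll _ h1 _ h2
    obtain ⟨l, hl⟩ := hcon i e he he0 hQe
    obtain ⟨l', hl'⟩ := hcon i f hf hf0 hQf
    have hll : l = l' := hsame hl hl' (by rw [hef]; exact one_ne_zero)
    subst hll
    have hsing : ∀ z ∈ D i, Q z = 0 → g z ∈ D l := by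
      intro z hz hQz
      by_cases hz0 : z = 0
      · rw [hz0, map_zero]; exact (D l).zero_mem
      obtain ⟨l₁, hl₁⟩ := hcon i z hz hz0 hQz
      by_cases h1 : polar Q e z = 0
      · have hQez : Q (e + z) = 0 := by rw [Q_add, hQe, hQz, h1]; simp
        by_cases h2 : polar Q f z = 0
        · have hez0 : e + z ≠ 0 := by
            intro h3
            have h4 : polar Q (e + z) f = 0 := by rw [h3, polar_zero_left]
            rw [polar_add_left, hef, polar_comm Q z f, h2, add_zero] at h4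
            exact one_ne_zero h4
          obtain ⟨l₂, hl₂⟩ := hcon i (e + z) ((D i).add_mem he hz) hez0 hQez
          have h5 : l₂ = l := hsame hl₂ hl' (by
            rw [polar_add_left, hef, polar_comm Q z f, h2, add_zero]; exact one_ne_zero)
          rw [h5] at hl₂
          have h6 := (D l).sub_mem hl₂ hl
          rwa [map_add, add_sub_cancel_left] at h6
        · have h5 : l = l₁ := hsame hl' hl₁ h2
          rw [h5]; exact hl₁
      · have h5 : l = l₁ := hsame hl hl₁ h1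
        rw [h5]; exact hl₁
    refine ⟨l, fun x hx => S.eq_of_pr fun l' hl' => ?_⟩
    apply S.hQ.eq_zero
    intro y
    have h3 := functional_zero he hf hQe hQf hef ((polarBilin Q y) ∘ₗ (pr l') ∘ₗ (g : V →ₗ[F] V)) (by
      intro z hz hQz
      show polar Q y (pr l' (g z)) = 0
      rw [S.pr_ne (Ne.symm hl') (hsing z hz hQz), polar_zero_right]) x hx
    rw [polar_comm]
    exact h3
  choose σ hσ using key
  have hmap : ∀ i, (D i).map (g : V →ₗ[F] V) = D (σ i) := by
    intro i
    apply Submodule.eq_of_le_of_finrank_eq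
    · rintro _ ⟨x, hx, rfl⟩
      exact hσ i x hx
    · rw [S.fin_eq (σ i) i]
      exact LinearEquiv.finrank_map_eq g _
  have hinj : Function.Injective σ := by
    intro i j hij
    by_contra hne
    have h1 : (D i).map (g : V →ₗ[F] V) = (D j).map (g : V →ₗ[F] V) := by rw [hmap, hmap, hij]
    have h2 : D i = D j := Submodule.map_injective_of_injective g.injective h1
    have h3 := S.dim i
    have h4 : D i = ⊥ := by
      rw [eq_bot_iff]
      intro x hx
      rw [Submodule.mem_bot, ← S.dec.self i x hx]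
      rw [h2] at hx
      exact S.pr_ne (Ne.symm hne) hx
    rw [h4, finrank_bot] at h3
    omega
  refine ⟨Equiv.ofBijective σ (Finite.injective_iff_bijective.1 hinj), fun i => ?_⟩
  rw [Equiv.ofBijective_apply]
  exact hmap i

/-- the main theorem -/
theorem main (h2 : (2 : F) ≠ 0) (hl : ∀ i, finrank F (D i) = 3 → ∃ l : F, l ≠ 0 ∧ l ≠ 1 ∧ l ≠ -1)
    {g : V ≃ₗ[F] V} (hg : g ∈ M) (hnot : ¬ ∃ σ, Pm D g σ) : Om Q ≤ M := by
  obtain ⟨i, z, hz, hz0, hQz, hout⟩ := S.exists_out (S.hM hg) hnot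
  obtain ⟨x₀, hx₀, hzx₀, hQx₀⟩ := exists_nonsing_perp' S.hQ (S.nds i) (S.dim i) hz hz0 hQz
  have h := (S.sf_block hz hx₀ hQz hzx₀).map S.hM hg
  obtain ⟨v, hv⟩ : ∃ v, v = g z := ⟨_, rfl⟩
  obtain ⟨x, hx⟩ : ∃ x, x = g x₀ := ⟨_, rfl⟩
  rw [← hv, ← hx] at h
  rw [← hv] at hout
  have hv0 : v ≠ 0 := by rw [hv]; exact (LinearEquiv.map_ne_zero_iff g).2 hz0
  have hQx : Q x ≠ 0 := by rw [hx, S.hM hg]; exact hQx₀
  obtain ⟨j, hj⟩ : ∃ j, pr j v ≠ 0 := by
    by_contra hcon
    push Not at hcon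
    exact hv0 (S.eq_zero_of_pr hcon)
  by_cases hxj : pr j x ∈ F ∙ pr j v
  swap
  · exact S.lemC h2 hl (hout j) h hj hxj
  obtain ⟨c, hc⟩ := Submodule.mem_span_singleton.1 hxj
  obtain ⟨a, ha⟩ : ∃ a, a = pr j v := ⟨_, rfl⟩
  rw [← ha] at hj hc
  have haD : a ∈ D j := by rw [ha]; exact S.dec.mem j v
  obtain ⟨x', hx'⟩ : ∃ x', x' = x - c • v := ⟨_, rfl⟩
  have h' : SF Q M v x' := by rw [hx']; exact h.sub ((SF.self h.1).smul c)
  have hprx' : pr j x' = 0 := by rw [hx', map_sub, map_smul, ← ha, hc, sub_self]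
  have hQx' : Q x' ≠ 0 := by
    rw [hx', Q_sub, Q_smul, h.1, polar_smul_right, polar_comm Q x v, h.2.1]
    simpa using hQx
  obtain ⟨e, he, hQe, hae⟩ := exists_sing_polar S.hQ (S.nds j) (S.dim j) haD hj
  have he0 : e ≠ 0 := by rintro rfl; rw [polar_zero_right] at hae; exact zero_ne_one hae
  have hve : polar Q v e = 1 := by rw [← S.polar_pr he, ← ha]; exact hae
  have hx'e : polar Q x' e = 0 := by rw [← S.polar_pr he, hprx', polar_zero_left]
  obtain ⟨d, hd, hd0⟩ : ∃ d ∈ D j ⊓ perp Q (Submodule.span F {a, e}), d ≠ 0 := by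
    apply Submodule.exists_mem_ne_zero_of_ne_bot
    intro h3
    have h4 := finrank_cut S.hQ (D j) a e
    rw [h3, finrank_bot] at h4
    have := S.dim j
    omega
  obtain ⟨hdD, had, hed⟩ := mem_cut.1 hd
  have hvd : polar Q v d = 0 := by rw [← S.polar_pr hdD, ← ha]; exact had
  have hx'd : polar Q x' d = 0 := by rw [← S.polar_pr hdD, hprx', polar_zero_left]
  have hSI : SI Q M v x' := by
    have := h'.2.2 1
    rwa [one_smul] at this
  have h3 := S.sf_conj (S.sf_block he hdD hQe hed) hSI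
  have h4 : siegMap Q v x' e = e + x' - Q x' • v := by
    rw [siegMap_apply, hve, hx'e]; simp
  have h5 : siegMap Q v x' d = d := by
    rw [siegMap_apply, hvd, hx'd]; simp
  rw [h4, h5] at h3
  have hprw : pr j (e + x' - Q x' • v) = e - Q x' • a := by
    rw [map_sub, map_add, map_smul, S.dec.self j e he, hprx', ← ha, add_zero]
  have hea : polar Q e a = 1 := by rw [polar_comm]; exact hae
  refine S.lemC h2 hl (j := j) ?_ h3 ?_ ?_
  · intro hw
    have h6 := S.dec.self j _ hw
    rw [hprw] at h6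
    obtain ⟨γ, hγ⟩ : ∃ γ, γ = Q x' := ⟨_, rfl⟩
    rw [← hγ] at h6 hQx'
    have h7 : x' = γ • v - γ • a := by
      have h8 : x' = (e + x' - γ • v) - e + γ • v := by abel
      rw [← h6] at h8
      exact h8.trans (by abel)
    have h8 : polar Q v a = 0 := by
      have h9 := h'.2.1
      rw [h7, polar_sub_right, polar_smul_right, polar_smul_right, polar_self', h.1, smul_eq_mul, smul_eq_mul] at h9
      have h10 : γ * polar Q v a = 0 := by linear_combination -h9
      exact (mul_eq_zero.1 h10).resolve_left hQx'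
    have h9 : Q a = 0 := by
      have h10 : polar Q a a = 0 := by
        have := S.polar_pr haD v
        rw [← ha] at this
        rw [this]; exact h8
      rw [polar_self'] at h10
      exact (mul_eq_zero.1 h10).resolve_left h2
    apply hQx'
    rw [hγ, h7, Q_sub, Q_smul, Q_smul, h.1, h9, polar_smul_left, polar_smul_right, h8]
    simp
  · intro h6
    rw [hprw, sub_eq_zero] at h6
    have h7 : Q a = 0 := by
      have h8 := congrArg Q h6
      rw [hQe, Q_smul] at h8
      rcases mul_eq_zero.1 h8.symm with h9 | h9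
      · exact absurd (mul_self_eq_zero.1 h9) hQx'
      · exact h9
    rw [h6, polar_smul_right, polar_self', h7] at hae
    simp at hae
  · rw [hprw, S.dec.self j d hdD]
    intro h6
    obtain ⟨s, hs⟩ := Submodule.mem_span_singleton.1 h6
    rw [← hs, polar_smul_right, polar_sub_right, polar_smul_right, polar_self', hQe, hea] at hed
    have hs0 : s = 0 := by
      simp only [mul_zero, smul_eq_mul, mul_one, zero_sub, mul_neg, neg_eq_zero, mul_eq_zero] at hed
      exact hed.resolve_right hQx'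
    rw [hs0, zero_smul] at hs
    exact hd0 hs.symm

end OD

section bridge

open Cfsg Cfsg.Geo Cfsg.Agent.Lib.GeoBridge Cfsg.Agent.Lib.OrthBridge Cfsg.Agent.Lib.OrthNdBridge
open Cfsg.Agent.Lib.SLBlockH94 (exists_dec)

/-- the transfer to `omegaGL` -/
theorem od_bridge {ι : Type} [Fintype ι] [DecidableEq ι] [Finite F] {Q : QuadraticForm F (ι → F)} (hQ : Nd Q)
    (h2 : (2 : F) ≠ 0) {t k : ℕ} (hk : 3 ≤ k) {D : Fin t → Submodule F (ι → F)}
    (hD : IsOrthogonalMDecomposition ⇑Q k D) (hl : k = 3 → ∃ l : F, l ≠ 0 ∧ l ≠ 1 ∧ l ≠ -1) :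
    IsMaximalIn (omegaGL ⇑Q) (decompositionStabilizer D ⊓ omegaGL ⇑Q) := by
  have hgen : GenHyp Q := Or.inl ⟨-1, neg_ne_zero.2 one_ne_zero, fun h => h2 (by linear_combination -h)⟩
  obtain ⟨pr, hpr⟩ := exists_dec hD.decomp.decomp.indep hD.decomp.decomp.iSup_eq_top
  have horth : ∀ i j, i ≠ j → ∀ x ∈ D i, ∀ y ∈ D j, polar Q x y = 0 := fun i j hij x hx y hy =>
    hD.decomp.orthogonal i j hij x hx y hy
  have hfin := hD.decomp.decomp.finrank_eq
  have hS : ∀ M : Subgroup ((ι → F) ≃ₗ[F] (ι → F)), M ≤ Om Q →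
      (∀ g ∈ Om Q, (∃ σ : Equiv.Perm (Fin t), ∀ i, (D i).map (g : (ι → F) →ₗ[F] (ι → F)) = D (σ i)) → g ∈ M) →
      OD Q D pr M := by
    intro M hM hH
    exact ⟨hQ, hgen, hpr, horth, hM.trans Om_le, fun i => by rw [hfin]; exact hk, hD.isometric, hH⟩
  have hlt := hD.decomp.decomp.two_le
  refine Om_max_of (P := fun g => ∃ σ : Equiv.Perm (Fin t), ∀ i, (D i).map (g : (ι → F) →ₗ[F] (ι → F)) = D (σ i))
    (fun g => mem_decompositionStabilizer_iff D g) ?_ ?_
  · have S := hS (Om Q) le_rfl (fun g hg _ => hg)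
    obtain ⟨e, he, f, hf, hQe, hQf, hef⟩ := exists_pair_in hQ (S.nds ⟨0, by omega⟩) (S.dim _)
    obtain ⟨d, hd, hd0⟩ : ∃ d ∈ D ⟨1, by omega⟩, d ≠ 0 := by
      apply Submodule.exists_mem_ne_zero_of_ne_bot
      intro h3
      have := S.dim ⟨1, by omega⟩
      rw [h3, finrank_bot] at this
      omega
    have hne : (⟨0, by omega⟩ : Fin t) ≠ ⟨1, by omega⟩ := by simp [Fin.ext_iff]
    have hed : polar Q e d = 0 := horth _ _ hne e he d hd
    have hdf : polar Q d f = 0 := horth _ _ hne.symm d hd f hf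
    have he0 : e ≠ 0 := by rintro rfl; rw [polar_zero_left] at hef; exact zero_ne_one hef
    refine ⟨sieg hQ hQe hed, hQ.sieg_mem_Om hgen hQe hed, ?_⟩
    rintro ⟨σ, hσ⟩
    have h1 : (sieg hQ hQe hed) e = e := by
      rw [sieg_apply, polar_self', hQe, polar_comm Q d e, hed]; simp
    have h3 : σ ⟨0, by omega⟩ = ⟨0, by omega⟩ := by
      by_contra hcon
      apply he0
      have h4 : e ∈ D (σ ⟨0, by omega⟩) := by
        rw [← hσ]
        exact ⟨e, he, h1⟩
      rw [← hpr.self _ e h4]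
      exact hpr.zero _ _ e hcon he
    have h4 : (sieg hQ hQe hed) f ∈ D ⟨0, by omega⟩ := by
      have h5 : (sieg hQ hQe hed) f ∈ D (σ ⟨0, by omega⟩) := by
        rw [← hσ]
        exact ⟨f, hf, rfl⟩
      rwa [h3] at h5
    rw [sieg_apply, hef, hdf, one_smul, zero_smul, sub_zero] at h4
    have h5 : d ∈ D ⟨0, by omega⟩ := by
      have h6 := Submodule.sub_mem _ h4 hf
      have h7 := Submodule.add_mem _ h6 (Submodule.smul_mem _ (Q d * 1) he)
      convert h7 using 1
      abel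
    apply hd0
    rw [← hpr.self _ d h5]
    exact hpr.zero _ _ d hne hd
  · intro M hM hH ⟨g, hg, hgP⟩
    exact (hS M hM hH).main h2 (fun i h3 => hl (by rw [← h3]; exact (hfin i).symm)) hg hgP

end bridge

end Cfsg.Agent.Lib.OrthDecH94
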