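import Mathlib
import Cfsg.Agent.Lib.OrthDec3H94

set_option autoImplicit false
set_option linter.unusedSectionVars false
set_option linter.unusedSimpArgs false
set_option linter.unusedVariables false

/-!
Overgroups of stabilisers of orthogonal decompositions, characteristic two.
-/

namespace Cfsg.Agent.Lib.OrthDecH94

open QuadraticMap Module Cfsg.Agent.Lib.Quad Cfsg.Agent.Lib.OrthMax Cfsg.Agent.Lib.OrthNd
open Cfsg.Agent.Lib.SLBlockH94 (Dec)

variable {F V : Type*} [Field F] [Finite F] [AddCommGroup V] [Module F V] [FiniteDimensional F V]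
  {Q : QuadraticForm F V} {M : Subgroup (V ≃ₗ[F] V)}

/-- a singular vector orthogonal to a nonsingular one and not orthogonal to another one -/
theorem exists_sing_two (hQ : Nd Q) (h2 : (2 : F) = 0) {A : Submodule F V} (hA : NDs Q A) (hdim : 4 ≤ finrank F A)
    {a b : V} (ha : a ∈ A) (hQa : Q a ≠ 0) (hb : b ∈ A) (hba : b ∉ F ∙ a) :
    ∃ e ∈ A, Q e = 0 ∧ polar Q a e = 0 ∧ polar Q b e = 1 := by
  have haa : ∀ x, polar Q x x = 0 := fun x => by rw [polar_self', h2, zero_mul]
  have hch : CharP F 2 := CharTwo.of_one_ne_zero_of_two_eq_zero one_ne_zero h2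
  -- the singular vector in a coset
  have hsing : ∀ u ∈ A, polar Q a u = 0 → ∃ s : F, Q (u + s • a) = 0 ∧ s * s * Q a = Q u := by
    intro u hu hau
    obtain ⟨s, hs⟩ := isSquare_of_charTwo (Q u * (Q a)⁻¹)
    have h3 : s * s * Q a = Q u := by rw [← hs, mul_assoc, inv_mul_cancel₀ hQa, mul_one]
    refine ⟨s, ?_, h3⟩
    rw [Q_add, Q_smul, polar_smul_right, polar_comm Q u a, hau, smul_zero, add_zero, h3]
    linear_combination Q u * h2
  suffices h : ∃ e ∈ A, Q e = 0 ∧ polar Q a e = 0 ∧ polar Q b e ≠ 0 by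
    obtain ⟨e, he, hQe, hae, hbe⟩ := h
    refine ⟨(polar Q b e)⁻¹ • e, A.smul_mem _ he, by rw [Q_smul, hQe, mul_zero],
      by rw [polar_smul_right, hae, smul_zero], by rw [polar_smul_right, smul_eq_mul, inv_mul_cancel₀ hbe]⟩
  by_cases hbaz : polar Q b a = 0
  · obtain ⟨u, hu, hau, hbu⟩ := exists_one_in hQ hA ((Submodule.span_singleton_le_iff_mem _ _).2 ha) hb hba
    replace hau := hau a (Submodule.mem_span_singleton_self a)
    obtain ⟨s, hs, -⟩ := hsing u hu hau
    refine ⟨u + s • a, A.add_mem hu (A.smul_mem _ ha), hs, ?_, ?_⟩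
    · rw [polar_add_right, polar_smul_right, haa, hau, smul_zero, add_zero]
    · rw [polar_add_right, polar_smul_right, hbaz, hbu, smul_zero, add_zero]; exact one_ne_zero
  · -- two vectors of `a^⊥`
    obtain ⟨u1, hu1, hau1, hu1a⟩ : ∃ u ∈ A, polar Q a u = 0 ∧ u ∉ F ∙ a := by
      by_contra hcon
      push Not at hcon
      have h3 : A ⊓ perp Q (F ∙ a) ≤ F ∙ a := fun u hu => hcon u (mem_cut1.1 hu).1 (mem_cut1.1 hu).2
      have h4 := Submodule.finrank_mono h3
      have h5 := finrank_cut1 hQ (A := A) (a := a)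
      have h6 : finrank F (F ∙ a) ≤ 1 := by
        have := finrank_span_le_card (R := F) ({a} : Set V)
        simpa using this
      omega
    obtain ⟨u2, hu2, hau2, hu12⟩ := exists_one_in hQ hA ((Submodule.span_singleton_le_iff_mem _ _).2 ha) hu1 hu1a
    replace hau2 := hau2 a (Submodule.mem_span_singleton_self a)
    obtain ⟨s1, hs1, -⟩ := hsing u1 hu1 hau1
    obtain ⟨s2, hs2, -⟩ := hsing u2 hu2 hau2
    obtain ⟨e1, he1⟩ : ∃ e, e = u1 + s1 • a := ⟨_, rfl⟩
    obtain ⟨e2, he2⟩ : ∃ e, e = u2 + s2 • a := ⟨_, rfl⟩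
    have he1A : e1 ∈ A := by rw [he1]; exact A.add_mem hu1 (A.smul_mem _ ha)
    have he2A : e2 ∈ A := by rw [he2]; exact A.add_mem hu2 (A.smul_mem _ ha)
    have hae1 : polar Q a e1 = 0 := by rw [he1, polar_add_right, polar_smul_right, haa, hau1, smul_zero, add_zero]
    have hae2 : polar Q a e2 = 0 := by rw [he2, polar_add_right, polar_smul_right, haa, hau2, smul_zero, add_zero]
    have hQe1 : Q e1 = 0 := by rw [he1]; exact hs1
    have hQe2 : Q e2 = 0 := by rw [he2]; exact hs2
    have he12 : polar Q e1 e2 = 1 := by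
      rw [he1, he2, polar_add_right, polar_add_left, polar_add_left, polar_smul_left, polar_smul_left,
        polar_smul_right, polar_smul_right, polar_comm Q u1 a, hau1, hau2, haa, hu12]
      simp
    by_cases h3 : polar Q b e1 = 0
    · by_cases h4 : polar Q b e2 = 0
      · obtain ⟨s, hs, hs'⟩ := hsing (e1 + e2) (A.add_mem he1A he2A) (by rw [polar_add_right, hae1, hae2, add_zero])
        refine ⟨e1 + e2 + s • a, A.add_mem (A.add_mem he1A he2A) (A.smul_mem _ ha), hs, ?_, ?_⟩
        · rw [polar_add_right, polar_add_right, polar_smul_right, haa, hae1, hae2]; simp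
        · rw [polar_add_right, polar_add_right, polar_smul_right, h3, h4, zero_add, zero_add, smul_eq_mul]
          refine mul_ne_zero ?_ hbaz
          rintro rfl
          rw [Q_add, hQe1, hQe2, he12] at hs'
          simp at hs'
      · exact ⟨e2, he2A, hQe2, hae2, h4⟩
    · exact ⟨e1, he1A, hQe1, hae1, h3⟩

variable {κ : Type*} [Fintype κ] [DecidableEq κ]

namespace OD

variable {D : κ → Submodule F V} {pr : κ → V →ₗ[F] V} (S : OD Q D pr M)
include S

/-- Lemma C, nonsingular component, characteristic two -/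
theorem lemC2e (h2 : (2 : F) = 0) {j : κ} (hdim : 4 ≤ finrank F (D j)) (hbig : 4 ≤ Nat.card F ∨ 6 ≤ finrank F (D j))
    {w x : V} (hwD : w ∉ D j)
    (h : SF Q M w x) (hQa : Q (pr j w) ≠ 0) (hx : pr j x ∉ F ∙ pr j w) : Om Q ≤ M := by
  have haa : ∀ x, polar Q x x = 0 := fun x => by rw [polar_self', h2, zero_mul]
  obtain ⟨a, ha⟩ : ∃ a, a = pr j w := ⟨_, rfl⟩
  rw [← ha] at hQa hx
  have haD : a ∈ D j := by rw [ha]; exact S.dec.mem j w
  have hwa : ∀ y ∈ D j, polar Q y w = polar Q a y := fun y hy => by rw [polar_comm, ha, S.polar_pr hy]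
  obtain ⟨e, heD, hQe, hae, hbe⟩ := exists_sing_two S.hQ h2 (S.nds j) hdim haD hQa (S.dec.mem j x) hx
  have he0 : e ≠ 0 := by rintro rfl; rw [polar_zero_right] at hbe; exact zero_ne_one hbe
  have hex : polar Q e x = 1 := by rw [← S.polar_pr' heD, polar_comm]; exact hbe
  have key : ∀ d ∈ D j, polar Q a d = 0 → polar Q e d = 0 → ∀ s : F,
      SF Q M w (s • d - (s * polar Q d x + s * s * Q d) • e) := by
    intro d hdD had hed s
    have hes : polar Q e (s • d) = 0 := by rw [polar_smul_right, hed, smul_zero]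
    have h1 := S.sf_conj h ((S.sf_block heD hdD hQe hed).2.2 s)
    have h3 : siegMap Q e (s • d) w = w := by
      rw [siegMap_apply, hwa e heD, hae, polar_smul_left, hwa d hdD, had]; simp
    have h4 : siegMap Q e (s • d) x = x + s • d - (s * polar Q d x) • e - (s * s * Q d) • e := by
      rw [siegMap_apply, hex, polar_smul_left, Q_smul, one_smul, mul_one, smul_eq_mul]
    rw [h3, h4] at h1
    have h5 := h1.sub h
    have h6 : x + s • d - (s * polar Q d x) • e - (s * s * Q d) • e - x =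
      s • d - (s * polar Q d x + s * s * Q d) • e := by module
    rwa [h6] at h5
  suffices h4 : SF Q M w e from S.lemB heD he0 (h4.swap hQe) hwD
  rcases hbig with h4 | h6
  · obtain ⟨s, hs0, hs1, hss⟩ := exists_scalar (F := F) h4
    have hk1 := key a haD (haa a) (by rw [polar_comm]; exact hae) 1
    have hk2 := (key a haD (haa a) (by rw [polar_comm]; exact hae) s).smul s⁻¹
    have h5 := hk1.sub hk2
    have h6 : (1 : F) • a - (1 * polar Q a x + 1 * 1 * Q a) • e - s⁻¹ • (s • a - (s * polar Q a x + s * s * Q a) • e) =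
        ((s - 1) * Q a) • e := by
      match_scalars
      · field_simp; ring
      · field_simp; ring
    rw [h6] at h5
    exact h5.of_smul (mul_ne_zero (sub_ne_zero.2 hs1) hQa)
  · -- two vectors orthogonal to `a` and `e`
    obtain ⟨P, hP⟩ : ∃ P, P = Submodule.span F {a, e} := ⟨_, rfl⟩
    have hPle : P ≤ D j := by
      rw [hP, Submodule.span_le]
      rintro u (rfl | rfl)
      · exact haD
      · exact heD
    have hP2 : finrank F P ≤ 2 := by
      classical
      have h3 := finrank_span_finset_le_card (R := F) ({a, e} : Finset V)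
      have h7 : ({a, e} : Finset V).card ≤ 2 := Finset.card_le_two
      have h8 : ((({a, e} : Finset V) : Set V)) = {a, e} := by simp
      rw [h8] at h3
      rw [hP]
      exact h3.trans h7
    obtain ⟨u, hu, huP⟩ : ∃ u ∈ D j ⊓ perp Q P, u ∉ P := by
      by_contra hcon
      push Not at hcon
      have h3 : D j ⊓ perp Q (Submodule.span F {a, e}) ≤ P := by rw [← hP]; exact hcon
      have h4 := Submodule.finrank_mono h3
      have h5 := finrank_cut S.hQ (D j) a e
      omega
    obtain ⟨u', hu', hPu', huu'⟩ := exists_one_in S.hQ (S.nds j) hPle hu.1 huP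
    have haP : a ∈ P := by rw [hP]; exact Submodule.subset_span (by simp)
    have heP : e ∈ P := by rw [hP]; exact Submodule.subset_span (by simp)
    have hau : polar Q a u = 0 := mem_perp.1 hu.2 a haP
    have heu : polar Q e u = 0 := mem_perp.1 hu.2 e heP
    have hau' : polar Q a u' = 0 := hPu' a haP
    have heu' : polar Q e u' = 0 := hPu' e heP
    have k1 := key u hu.1 hau heu 1
    have k2 := key u' hu' hau' heu' 1
    have k3 := key (u + u') ((D j).add_mem hu.1 hu') (by rw [polar_add_right, hau, hau', add_zero])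
      (by rw [polar_add_right, heu, heu', add_zero]) 1
    have h5 := (k1.add k2).sub k3
    have h6 : (1 : F) • u - (1 * polar Q u x + 1 * 1 * Q u) • e + ((1 : F) • u' - (1 * polar Q u' x + 1 * 1 * Q u') • e) -
        ((1 : F) • (u + u') - (1 * polar Q (u + u') x + 1 * 1 * Q (u + u')) • e) = e := by
      rw [polar_add_left, Q_add Q u u', huu']
      module
    rwa [h6] at h5

theorem lemCe (h2 : (2 : F) = 0) {j : κ} (hdim : 4 ≤ finrank F (D j)) (hbig : 4 ≤ Nat.card F ∨ 6 ≤ finrank F (D j))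
    {w x : V} (hwD : w ∉ D j) (h : SF Q M w x) (ha0 : pr j w ≠ 0) (hx : pr j x ∉ F ∙ pr j w) : Om Q ≤ M := by
  by_cases hQa : Q (pr j w) = 0
  · exact S.lemC1 hwD h ha0 hQa hx
  · exact S.lemC2e h2 hdim hbig hwD h hQa hx

/-- the main theorem, characteristic two -/
theorem main_even (h2 : (2 : F) = 0) (hdim : ∀ i, 4 ≤ finrank F (D i))
    (hbig : 4 ≤ Nat.card F ∨ ∀ i, 6 ≤ finrank F (D i))
    {g : V ≃ₗ[F] V} (hg : g ∈ M) (hnot : ¬ ∃ σ, Pm D g σ) : Om Q ≤ M := by
  by_contra hM
  have hbig' : ∀ i, 4 ≤ Nat.card F ∨ 6 ≤ finrank F (D i) := fun i => hbig.imp id (fun h => h i)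
  obtain ⟨i, z, hz, hz0, hQz, hout⟩ := S.exists_out (S.hM hg) hnot
  obtain ⟨v, hv⟩ : ∃ v, v = g z := ⟨_, rfl⟩
  rw [← hv] at hout
  have hv0 : v ≠ 0 := by rw [hv]; exact (LinearEquiv.map_ne_zero_iff g).2 hz0
  obtain ⟨j, hj⟩ : ∃ j, pr j v ≠ 0 := by
    by_contra hcon
    push Not at hcon
    exact hv0 (S.eq_zero_of_pr hcon)
  obtain ⟨a, ha⟩ : ∃ a, a = pr j v := ⟨_, rfl⟩
  rw [← ha] at hj
  have haD : a ∈ D j := by rw [ha]; exact S.dec.mem j v
  obtain ⟨e, he, hQe, hae⟩ := exists_sing_polar S.hQ (S.nds j) (S.dim j) haD hj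
  have he0 : e ≠ 0 := by rintro rfl; rw [polar_zero_right] at hae; exact zero_ne_one hae
  have hve : polar Q v e = 1 := by rw [← S.polar_pr he, ← ha]; exact hae
  obtain ⟨d, hd, hd0⟩ : ∃ d ∈ D j ⊓ perp Q (Submodule.span F {a, e}), d ≠ 0 := by
    apply Submodule.exists_mem_ne_zero_of_ne_bot
    intro h3
    have h4 := finrank_cut S.hQ (D j) a e
    rw [h3, finrank_bot] at h4
    have := S.dim j
    omega
  obtain ⟨hdD, had, hed⟩ := mem_cut.1 hd
  have hvd : polar Q v d = 0 := by rw [← S.polar_pr hdD, ← ha]; exact had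
  have hea : polar Q e a = 1 := by rw [polar_comm]; exact hae
  have hQv : Q v = 0 := by rw [hv, S.hM hg, hQz]
  -- every nonsingular vector
  have key : ∀ x₀ ∈ D i, polar Q z x₀ = 0 → Q x₀ ≠ 0 → ∃ c : F, g x₀ = c • v + Q x₀ • (v - a) := by
    intro x₀ hx₀ hzx₀ hQx₀
    have h := (S.sf_block hz hx₀ hQz hzx₀).map S.hM hg
    obtain ⟨x, hx⟩ : ∃ x, x = g x₀ := ⟨_, rfl⟩
    rw [← hv, ← hx] at h
    have hQx : Q x = Q x₀ := by rw [hx, S.hM hg]
    by_cases hxj : pr j x ∈ F ∙ pr j v
    swap
    · exact absurd (S.lemCe h2 (hdim j) (hbig' j) (hout j) h (by rw [← ha]; exact hj) hxj) hM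
    obtain ⟨c, hc⟩ := Submodule.mem_span_singleton.1 hxj
    rw [← ha] at hc
    obtain ⟨x', hx'⟩ : ∃ x', x' = x - c • v := ⟨_, rfl⟩
    have h' : SF Q M v x' := by rw [hx']; exact h.sub ((SF.self h.1).smul c)
    have hprx' : pr j x' = 0 := by rw [hx', map_sub, map_smul, ← ha, hc, sub_self]
    have hQx' : Q x' = Q x₀ := by
      rw [hx', Q_sub, Q_smul, h.1, polar_smul_right, polar_comm Q x v, h.2.1, hQx]; simp
    have hx'e : polar Q x' e = 0 := by rw [← S.polar_pr he, hprx', polar_zero_left]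
    have hx'd : polar Q x' d = 0 := by rw [← S.polar_pr hdD, hprx', polar_zero_left]
    have hSI : SI Q M v x' := by
      have := h'.2.2 1
      rwa [one_smul] at this
    have h3 := S.sf_conj (S.sf_block he hdD hQe hed) hSI
    have h4 : siegMap Q v x' e = e + x' - Q x' • v := by
      rw [siegMap_apply, hve, hx'e]; simp
    have h5 : siegMap Q v x' d = d := by
      rw [siegMap_apply, hvd, hx'd]; simp
    rw [h4, h5] at h3
    have hprw : pr j (e + x' - Q x' • v) = e - Q x' • a := by
      rw [map_sub, map_add, map_smul, S.dec.self j e he, hprx', ← ha, add_zero]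
    by_cases hw : e + x' - Q x' • v ∈ D j
    · have h6 := S.dec.self j _ hw
      rw [hprw, hQx'] at h6
      refine ⟨c, ?_⟩
      have h8 : x' = (e + x' - Q x₀ • v) - e + Q x₀ • v := by abel
      rw [← h6] at h8
      rw [← hx, show x = x' + c • v by rw [hx']; abel, h8]
      module
    · exfalso
      refine hM (S.lemCe h2 (hdim j) (hbig' j) hw h3 ?_ ?_)
      · intro h6
        rw [hprw, sub_eq_zero] at h6
        rw [h6, polar_smul_right, polar_self', h2, zero_mul, smul_zero] at hae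
        exact zero_ne_one hae
      · rw [hprw, S.dec.self j d hdD]
        intro h6
        obtain ⟨s, hs⟩ := Submodule.mem_span_singleton.1 h6
        rw [← hs, polar_smul_right, polar_sub_right, polar_smul_right, polar_self', hQe, hea] at hed
        have hs0 : s = 0 := by
          simp only [mul_zero, smul_eq_mul, mul_one, zero_sub, mul_neg, neg_eq_zero, mul_eq_zero] at hed
          exact hed.resolve_right (by rw [hQx']; exact hQx₀)
        rw [hs0, zero_smul] at hs
        exact hd0 hs.symm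
  -- all norms agree
  have hnorm : ∀ x₀ ∈ D i, polar Q z x₀ = 0 → Q x₀ ≠ 0 → Q x₀ * Q (v - a) = 1 := by
    intro x₀ hx₀ hzx₀ hQx₀
    obtain ⟨c, hc⟩ := key x₀ hx₀ hzx₀ hQx₀
    have hvx : polar Q v (g x₀) = 0 := by rw [hv, O_polar (S.hM hg), hzx₀]
    have hva : Q x₀ * polar Q v (v - a) = 0 := by
      rw [hc, polar_add_right, polar_smul_right, polar_smul_right, polar_self', hQv, mul_zero, smul_zero, zero_add,
        smul_eq_mul] at hvx
      exact hvx
    have h3 : Q (g x₀) = Q x₀ := S.hM hg x₀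
    rw [hc, Q_add, Q_smul, Q_smul, hQv, polar_smul_left, polar_smul_right, mul_zero, zero_add] at h3
    simp only [smul_eq_mul] at h3
    rw [hva, mul_zero, add_zero] at h3
    apply mul_left_cancel₀ hQx₀
    linear_combination h3
  obtain ⟨x₀, hx₀, hzx₀, hQx₀⟩ := exists_nonsing_perp' S.hQ (S.nds i) (S.dim i) hz hz0 hQz
  rcases hbig with h4 | h6
  · obtain ⟨s, hs0, hs1, hss⟩ := exists_scalar (F := F) h4
    have e1 := hnorm x₀ hx₀ hzx₀ hQx₀
    have e2 := hnorm (s • x₀) ((D i).smul_mem _ hx₀) (by rw [polar_smul_right, hzx₀, smul_zero])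
      (by rw [Q_smul]; exact mul_ne_zero (mul_ne_zero hs0 hs0) hQx₀)
    rw [Q_smul, mul_assoc, e1, mul_one] at e2
    exact hss e2
  · obtain ⟨f, hf, hQf, hzf⟩ := exists_partner S.hQ (S.nds i) hz hz0 hQz
    have hP := nds_cut S.hQ (S.nds i) hz hf hQz hQf hzf
    have hPd := finrank_cut S.hQ (D i) z f
    have h6i := h6 i
    obtain ⟨e', he', f', hf', hQe', hQf', hef'⟩ := exists_pair_in S.hQ hP (by omega)
    have he'0 : e' ≠ 0 := by rintro rfl; rw [polar_zero_left] at hef'; exact zero_ne_one hef'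
    obtain ⟨y, hy, hey, hQy⟩ := exists_nonsing_perp' S.hQ hP (by omega) he' he'0 hQe'
    obtain ⟨he'D, hze', hfe'⟩ := mem_cut.1 he'
    obtain ⟨hf'D, hzf', hff'⟩ := mem_cut.1 hf'
    obtain ⟨hyD, hzy, hfy⟩ := mem_cut.1 hy
    have hQ1 : Q (e' + f') = 1 := by rw [Q_add, hQe', hQf', hef']; simp
    have hx1 : polar Q z (e' + f') = 0 := by rw [polar_add_right, hze', hzf', add_zero]
    obtain ⟨c1, hc1⟩ := key (e' + f') ((D i).add_mem he'D hf'D) hx1 (by rw [hQ1]; exact one_ne_zero)
    obtain ⟨c2, hc2⟩ := key y hyD hzy hQy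
    have n1 := hnorm (e' + f') ((D i).add_mem he'D hf'D) hx1 (by rw [hQ1]; exact one_ne_zero)
    have n2 := hnorm y hyD hzy hQy
    have hyQ : Q y = Q (e' + f') := by
      have h7 : Q (v - a) ≠ 0 := by
        intro h8
        rw [h8, mul_zero] at n2
        exact zero_ne_one n2
      exact mul_right_cancel₀ h7 (by rw [n1, n2])
    have h7 : g (e' + f' - y) = g ((c1 - c2) • z) := by
      rw [map_sub, hc1, hc2, hyQ, LinearEquiv.map_smul, ← hv]; module
    have h8 := g.injective h7
    have h9 : polar Q e' (e' + f' - y) = 1 := by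
      rw [polar_sub_right, polar_add_right, hef', hey, polar_self', hQe']; simp
    rw [h8, polar_smul_right, polar_comm, hze', smul_zero] at h9
    exact zero_ne_one h9

end OD

end Cfsg.Agent.Lib.OrthDecH94
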