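import Mathlib
import Cfsg.Agent.Lib.OrthDecE1H94
import Cfsg.Agent.Lib.Dk2kH94

set_option autoImplicit false
set_option linter.unusedSectionVars false
set_option linter.unusedSimpArgs false
set_option linter.unusedVariables false

/-!
Overgroups of stabilisers of orthogonal decompositions into spaces of dimension four over the field with two
elements.
-/

namespace Cfsg.Agent.Lib.Dk2H94

open QuadraticMap Module Cfsg.Agent.Lib.Quad Cfsg.Agent.Lib.OrthMax Cfsg.Agent.Lib.OrthNd
open Cfsg.Agent.Lib.OrthDecH94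
open Cfsg.Agent.Lib.SLBlockH94 (Dec)

variable {F V : Type*} [Field F] [AddCommGroup V] [Module F V] [FiniteDimensional F V]
  {Q : QuadraticForm F V} {M : Subgroup (V ≃ₗ[F] V)}
variable {κ : Type*} [Fintype κ] [DecidableEq κ]

/-- minus type for spaces of dimension four -/
def Mi (Q : QuadraticForm F V) (D : κ → Submodule F V) : Prop :=
  ∀ i, ∀ u ∈ D i, ∀ v ∈ D i, Q u = 0 → Q v = 0 → polar Q u v = 0 → u ≠ 0 → v ∈ F ∙ u

namespace DK

variable {D : κ → Submodule F V} {pr : κ → V →ₗ[F] V} (S : DK Q D pr M)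
include S

theorem toOD (hd : ∀ i, finrank F (D i) = 4) : OD Q D pr M where
  hQ := S.hQ
  gen := S.gen
  dec := S.dec
  orth := S.orth
  hM := S.hMO
  dim i := by rw [hd]; norm_num
  iso := S.iso
  H := S.H

/-- nonsingular vectors span -/
theorem nonsing_span [Finite F] (hd : ∀ i, finrank F (D i) = 4) {l : κ} {P : Submodule F V}
    (h : ∀ b ∈ D l, Q b ≠ 0 → b ∈ P) : D l ≤ P := by
  intro x hx
  by_cases hQx : Q x = 0
  swap
  · exact h x hx hQx
  by_cases hx0 : x = 0
  · rw [hx0]; exact P.zero_mem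
  obtain ⟨b, hb, hxb, hQb⟩ := exists_nonsing_perp' S.hQ (S.nds l) (by rw [hd]; norm_num) hx hx0 hQx
  have h1 := h (x + b) ((D l).add_mem hx hb) (by rw [Q_add, hQx, hxb, zero_add, add_zero]; exact hQb)
  have h2 := P.sub_mem h1 (h b hb hQb)
  rwa [add_sub_cancel_right] at h2

/-- products of two reflections permuting the blocks -/
theorem lemG4' (hd : ∀ i, finrank F (D i) = 4) {a b : V} (hQa : Q a ≠ 0) (hQb : Q b ≠ 0) (hab : a ∉ F ∙ b)
    {σ : Equiv.Perm κ} (hσ : Pm D (refl Q a * refl Q b) σ) : ∀ l, pr l a ∈ Submodule.span F {b, a} := by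
  obtain ⟨x, hx⟩ : ∃ x, x = refl Q a * refl Q b := ⟨_, rfl⟩
  rw [← hx] at hσ
  have hmap : ∀ i, ∀ z ∈ D i, x z ∈ D (σ i) := fun i z hz => by rw [← hσ i]; exact ⟨z, hz, rfl⟩
  have hb0 : b ≠ 0 := by rintro rfl; exact hQb (QuadraticMap.map_zero Q)
  obtain ⟨P, hPdef⟩ : ∃ P, P = Submodule.span F {b, a} := ⟨_, rfl⟩
  have hP2 : finrank F P = 2 := by
    have hli : LinearIndependent F ![b, a] := by
      rw [LinearIndependent.pair_iff' hb0]
      intro t ht
      exact hab (Submodule.mem_span_singleton.2 ⟨t, ht⟩)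
    have h1 := finrank_span_eq_card hli
    rw [Matrix.range_cons, Matrix.range_cons, Matrix.range_empty, Set.union_empty, Set.singleton_union,
      Fintype.card_fin] at h1
    rw [hPdef, h1]
  have haP : a ∈ P := by rw [hPdef]; exact Submodule.subset_span (by simp)
  have hbP : b ∈ P := by rw [hPdef]; exact Submodule.subset_span (by simp)
  have hP : ∀ z, x z - z ∈ P := by
    intro z
    have h1 : x z - z = -((Q b)⁻¹ * polar Q b z) • b - ((Q a)⁻¹ * polar Q a (refl Q b z)) • a := by
      rw [hx, LinearEquiv.mul_apply, refl_apply hQa]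
      conv_lhs => rw [refl_apply hQb z]
      rw [refl_apply hQb z]
      module
    rw [h1]
    exact P.sub_mem (P.smul_mem _ hbP) (P.smul_mem _ haP)
  have hA : ∀ i, σ i = i := by
    intro i
    by_contra hi
    have hinj' : Function.Injective (((x : V →ₗ[F] V) - LinearMap.id) ∘ₗ (D i).subtype) := by
      rw [← LinearMap.ker_eq_bot, LinearMap.ker_eq_bot']
      rintro ⟨z, hz⟩ h0
      have h1 : x z = z := sub_eq_zero.1 h0
      have h2 := hmap i z hz
      rw [h1] at h2
      have h3 := S.pr_self hz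
      rw [S.pr_ne hi h2] at h3
      exact Subtype.ext h3.symm
    have h1 := LinearMap.finrank_range_of_inj hinj'
    have h2 : LinearMap.range (((x : V →ₗ[F] V) - LinearMap.id) ∘ₗ (D i).subtype) ≤ P := by
      rintro _ ⟨z, rfl⟩
      exact hP z
    have h3 := Submodule.finrank_mono h2
    rw [h1, hd, hP2] at h3
    omega
  have hfixD : ∀ i, ∀ z ∈ D i, x z ∈ D i := fun i z hz => by have := hmap i z hz; rwa [hA] at this
  -- `a` is moved
  obtain ⟨z, hz, haz⟩ := S.hQ.exists_polar_one (F ∙ b) hab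
  have hbz : polar Q b z = 0 := mem_perp.1 hz b (Submodule.mem_span_singleton_self b)
  have hxz : x z = z - (Q a)⁻¹ • a := by
    rw [hx, LinearEquiv.mul_apply, refl_of_perp hbz, refl_apply hQa, haz, mul_one]
  obtain ⟨w, hw⟩ : ∃ w, w = -(Q a) • z := ⟨_, rfl⟩
  have hxw : x w = w + a := by
    rw [hw, LinearEquiv.map_smul, hxz, smul_sub, smul_smul, neg_mul, mul_inv_cancel₀ hQa, neg_smul, neg_smul,
      one_smul, sub_neg_eq_add]
  have hcomm : ∀ l, pr l (x w) = x (pr l w) := by
    intro l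
    conv_lhs => rw [← S.dec.sum w]
    rw [map_sum, map_sum, Finset.sum_eq_single l]
    · exact S.pr_self (hfixD l _ (S.dec.mem l w))
    · intro m _ hm
      exact S.pr_ne hm (hfixD m _ (S.dec.mem m w))
    · intro h; exact absurd (Finset.mem_univ l) h
  intro l
  rw [← hPdef]
  have h1 : pr l a = x (pr l w) - pr l w := by
    rw [← hcomm, hxw, map_add]; abel
  rw [h1]; exact hP _

theorem lemG4'' (hd : ∀ i, finrank F (D i) = 4) {a b : V} (hQa : Q a ≠ 0) (hQb : Q b ≠ 0) (hab : a ∉ F ∙ b)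
    {σ : Equiv.Perm κ} (hσ : Pm D (refl Q a * refl Q b) σ) : ∃ i j, ∀ l, l ≠ i → l ≠ j → pr l a = 0 := by
  have hprP := S.lemG4' hd hQa hQb hab hσ
  have hb0 : b ≠ 0 := by rintro rfl; exact hQb (QuadraticMap.map_zero Q)
  obtain ⟨P, hPdef⟩ : ∃ P, P = Submodule.span F {b, a} := ⟨_, rfl⟩
  have hP2 : finrank F P = 2 := by
    have hli : LinearIndependent F ![b, a] := by
      rw [LinearIndependent.pair_iff' hb0]
      intro t ht
      exact hab (Submodule.mem_span_singleton.2 ⟨t, ht⟩)
    have h1 := finrank_span_eq_card hli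
    rw [Matrix.range_cons, Matrix.range_cons, Matrix.range_empty, Set.union_empty, Set.singleton_union,
      Fintype.card_fin] at h1
    rw [hPdef, h1]
  have haP : a ∈ P := by rw [hPdef]; exact Submodule.subset_span (by simp)
  have ha0 : a ≠ 0 := by rintro rfl; exact hQa (QuadraticMap.map_zero Q)
  rw [← hPdef] at hprP
  obtain ⟨i, hi⟩ : ∃ i, pr i a ≠ 0 := by
    by_contra hcon
    push Not at hcon
    apply ha0
    rw [← S.dec.sum a]
    exact Finset.sum_eq_zero fun m _ => hcon m
  by_cases hj : ∃ j, j ≠ i ∧ pr j a ≠ 0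
  · obtain ⟨j, hji, hj⟩ := hj
    have hli : LinearIndependent F ![pr i a, pr j a] := by
      rw [LinearIndependent.pair_iff' hi]
      intro t ht
      apply hj
      have h1 : pr j (t • pr i a) = 0 := by rw [map_smul, S.pr_ne hji.symm (S.dec.mem i a), smul_zero]
      rw [ht, S.pr_self (S.dec.mem j a)] at h1
      exact h1
    have h1 := finrank_span_eq_card hli
    rw [Matrix.range_cons, Matrix.range_cons, Matrix.range_empty, Set.union_empty, Set.singleton_union,
      Fintype.card_fin] at h1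
    have h2 : Submodule.span F {pr i a, pr j a} = P := by
      apply Submodule.eq_of_le_of_finrank_eq
      · rw [Submodule.span_le]
        rintro u (rfl | rfl)
        · exact hprP i
        · exact hprP j
      · rw [h1, hP2]
    rw [← h2] at haP
    obtain ⟨s, t, hst⟩ := Submodule.mem_span_pair.1 haP
    refine ⟨i, j, fun l h3 h4 => ?_⟩
    conv_lhs => rw [← hst]
    rw [map_add, map_smul, map_smul, S.pr_ne h3.symm (S.dec.mem i a), S.pr_ne h4.symm (S.dec.mem j a), smul_zero,
      smul_zero, add_zero]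
  · push Not at hj
    exact ⟨i, i, fun l h3 _ => hj l h3⟩

/-- two nonsingular vectors in a subspace of dimension at least three -/
theorem two_ns (mi : Mi Q D) {i : κ} {U : Submodule F V} (hU : U ≤ D i) (h3 : 3 ≤ finrank F U) :
    ∃ a ∈ U, ∃ b ∈ U, Q a ≠ 0 ∧ Q b ≠ 0 ∧ a ∉ F ∙ b := by
  by_contra hcon
  push Not at hcon
  obtain ⟨a, ha, hall⟩ : ∃ a ∈ U, ∀ b ∈ U, Q b ≠ 0 → b ∈ F ∙ a := by
    by_cases h : ∃ a ∈ U, Q a ≠ 0
    · obtain ⟨a, ha, hQa⟩ := h
      exact ⟨a, ha, fun b hb hQb => hcon b hb a ha hQb hQa⟩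
    · push Not at h
      exact ⟨0, U.zero_mem, fun b hb hQb => absurd (h b hb) hQb⟩
  obtain ⟨u, hu, hua⟩ : ∃ u ∈ U, u ∉ F ∙ a := by
    by_contra hc
    push Not at hc
    have h1 := Submodule.finrank_mono (show U ≤ F ∙ a from hc)
    have h2 : finrank F (F ∙ a) ≤ 1 := by
      have := finrank_span_le_card (R := F) ({a} : Set V)
      simpa using this
    omega
  obtain ⟨v, hv, hva⟩ : ∃ v ∈ U, v ∉ Submodule.span F {a, u} := by
    by_contra hc
    push Not at hc
    have h1 := Submodule.finrank_mono (show U ≤ Submodule.span F {a, u} from hc)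
    have h2 : finrank F (Submodule.span F {a, u}) ≤ 2 := by
      classical
      have h3 := finrank_span_finset_le_card (R := F) ({a, u} : Finset V)
      have h7 : ({a, u} : Finset V).card ≤ 2 := Finset.card_le_two
      have h8 : ((({a, u} : Finset V) : Set V)) = {a, u} := by simp
      rw [h8] at h3
      exact h3.trans h7
    omega
  have hain : ∀ x, x ∈ F ∙ a → x ∈ Submodule.span F {a, u} := by
    intro x hx
    obtain ⟨s, rfl⟩ := Submodule.mem_span_singleton.1 hx
    exact Submodule.smul_mem _ _ (Submodule.subset_span (by simp))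
  have huin : u ∈ Submodule.span F {a, u} := Submodule.subset_span (by simp)
  have hQu : Q u = 0 := by
    by_contra h; exact hua (hall u hu h)
  have hQv : Q v = 0 := by
    by_contra h; exact hva (hain v (hall v hv h))
  have hQuv : Q (u + v) = 0 := by
    by_contra h
    apply hva
    have h1 := hain _ (hall (u + v) (U.add_mem hu hv) h)
    have h2 := Submodule.sub_mem _ h1 huin
    rwa [add_sub_cancel_left] at h2
  have huv : polar Q u v = 0 := by
    rw [Q_add, hQu, hQv, zero_add, zero_add] at hQuv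
    exact hQuv
  have hu0 : u ≠ 0 := by rintro rfl; exact hua (Submodule.zero_mem _)
  have h1 := mi i u (hU hu) v (hU hv) hQu hQv huv hu0
  apply hva
  obtain ⟨s, rfl⟩ := Submodule.mem_span_singleton.1 h1
  exact Submodule.smul_mem _ _ huin

variable [Finite F]

/-- a nonsingular vector not orthogonal to a given one, two elements -/
theorem ex_b2 (hF : ∀ s : F, s = 0 ∨ s = 1) (hd : ∀ i, finrank F (D i) = 4) {l : κ} {u : V} (hu : u ∈ D l)
    (hu0 : u ≠ 0) : ∃ b ∈ D l, Q b = 1 ∧ polar Q b u = 1 := by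
  have h2 : (2 : F) = 0 := by
    rcases hF 2 with h | h
    · exact h
    · exfalso
      apply one_ne_zero (α := F)
      linear_combination h
  obtain ⟨y, hy, -, huy⟩ := exists_one_in S.hQ (S.nds l) bot_le hu (by simpa using hu0)
  rcases hF (Q y) with hQy | hQy
  swap
  · exact ⟨y, hy, hQy, by rw [polar_comm]; exact huy⟩
  have hyu : polar Q y u = 1 := by rw [polar_comm]; exact huy
  rcases hF (Q u) with hQu | hQu
  · refine ⟨y + u, (D l).add_mem hy hu, by rw [Q_add, hQy, hQu, hyu]; ring, ?_⟩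
    rw [polar_add_left, hyu, polar_self', hQu]; ring
  · have hQyu : Q (y + u) = 0 := by rw [Q_add, hQy, hQu, hyu]; linear_combination h2
    have hyyu : polar Q y (y + u) = 1 := by rw [polar_add_right, hyu, polar_self', hQy]; ring
    have hP := nds_cut S.hQ (S.nds l) hy ((D l).add_mem hy hu) hQy hQyu hyyu
    have hPd := finrank_cut S.hQ (D l) y (y + u)
    rw [hd] at hPd
    obtain ⟨d, hd', hQd⟩ := exists_nonsing hP (by omega)
    obtain ⟨hdD, hyd, hyud⟩ := mem_cut.1 hd'
    have hud : polar Q u d = 0 := by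
      rw [polar_add_left, hyd, zero_add] at hyud; exact hyud
    have hQd1 : Q d = 1 := (hF (Q d)).resolve_left hQd
    refine ⟨y + d, (D l).add_mem hy hdD, by rw [Q_add, hQy, hQd1, hyd]; ring, ?_⟩
    rw [polar_add_left, hyu, polar_comm, hud, add_zero]

/-- the first case -/
theorem caseI4 (hF : ∀ s : F, s = 0 ∨ s = 1) (hd : ∀ i, finrank F (D i) = 4) (h4 : 4 ≤ Fintype.card κ)
    {a0 v : V} {i0 : κ} (ha0 : a0 ∈ D i0) (hQa : Q a0 ≠ 0) (hv : Cl Q M a0 v)
    (hnot : ∀ i, v ∉ D i) : Om Q ≤ M := by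
  have h2 : (2 : F) = 0 := by
    rcases hF 2 with h | h
    · exact h
    · exfalso
      apply one_ne_zero (α := F)
      linear_combination h
  have hrf : ∀ b x, Q b = 1 → polar Q b x = 1 → refl Q b x = x + b := by
    intro b x hb hbx
    rw [refl_apply (by rw [hb]; exact one_ne_zero), hb, hbx, inv_one, one_mul, one_smul, sub_eq_add_neg]
    congr 1
    have h3 : b + b = 0 := by rw [← two_smul F, h2, zero_smul]
    exact neg_eq_of_add_eq_zero_left h3
  have hv1 : ∀ w, Cl Q M a0 w → Q w = 1 := fun w hw => (hF (Q w)).resolve_left hw.1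
  -- three components
  have three : ∀ u, Cl Q M a0 u → ∀ i j l, i ≠ j → i ≠ l → j ≠ l → pr i u ≠ 0 → pr j u ≠ 0 → pr l u ≠ 0 →
      Om Q ≤ M := by
    intro u hu i j l hij hil hjl hi hj hl
    obtain ⟨b, hb, hQb, hbu⟩ := S.ex_b2 hF hd (S.dec.mem i u) hi
    obtain ⟨c, hc, hQc, hcu⟩ := S.ex_b2 hF hd (S.dec.mem j u) hj
    rw [S.polar_pr' hb] at hbu
    rw [S.polar_pr' hc] at hcu
    have h3 := S.cl_pair ha0 hQa hu hb hc (by rw [hQb]; exact one_ne_zero) ⟨1, one_ne_zero, by rw [hQb, hQc]; ring⟩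
    rw [hrf c u hQc hcu, hrf b (u + c) hQb (by rw [polar_add_right, hbu, S.orth i j hij b hb c hc, add_zero]),
      add_assoc] at h3
    have hQd : Q (c + b) = 0 := by
      rw [Q_add, hQc, hQb, S.orth j i hij.symm c hc b hb]; linear_combination h2
    have hud : polar Q u (c + b) = 0 := by
      rw [polar_add_right, polar_comm, hcu, polar_comm, hbu]; linear_combination h2
    have h5 := hu.SI S.hQ h3 hQd hud
    rw [hv1 u hu, inv_one, one_smul] at h5
    have hSF : SF Q M (c + b) u := by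
      refine ⟨hQd, by rw [polar_comm]; exact hud, fun s => ?_⟩
      rcases hF s with rfl | rfl
      · rw [zero_smul]; exact SI.zero _
      · rw [one_smul]; exact h5
    refine (S.toOD hd).lemN (j := l) ?_ ?_ hSF hl
    · intro h0
      have h6 := congrArg (pr i) h0
      rw [map_add, map_zero, S.pr_self hb, S.pr_ne hij.symm hc, zero_add] at h6
      rw [h6, QuadraticMap.map_zero] at hQb
      exact zero_ne_one hQb
    · rw [map_add, S.pr_ne hjl hc, S.pr_ne hil hb, add_zero]
  have hv0 : v ≠ 0 := by rintro rfl; exact hv.1 (QuadraticMap.map_zero Q)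
  obtain ⟨i, hi⟩ : ∃ i, pr i v ≠ 0 := by
    by_contra hcon
    push Not at hcon
    apply hv0
    rw [← S.dec.sum v]
    exact Finset.sum_eq_zero fun m _ => hcon m
  obtain ⟨j, hji, hj⟩ : ∃ j, j ≠ i ∧ pr j v ≠ 0 := by
    by_contra hcon
    push Not at hcon
    exact hnot i (S.eq_of_pr hcon)
  by_cases h3 : ∃ l, l ≠ i ∧ l ≠ j ∧ pr l v ≠ 0
  · obtain ⟨l, hli, hlj, hl⟩ := h3
    exact three v hv i j l hji.symm hli.symm hlj.symm hi hj hl
  push Not at h3
  obtain ⟨m, hm⟩ := S.exists_third_index {i, j} (lt_of_le_of_lt Finset.card_le_two (by omega))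
  simp only [Finset.mem_insert, Finset.mem_singleton, not_or] at hm
  obtain ⟨hmi, hmj⟩ := hm
  obtain ⟨l, hl⟩ := S.exists_third_index {i, j, m} (lt_of_le_of_lt Finset.card_le_three (by omega))
  simp only [Finset.mem_insert, Finset.mem_singleton, not_or] at hl
  obtain ⟨hli, hlj, hlm⟩ := hl
  obtain ⟨vi, hvi⟩ : ∃ x, x = pr i v := ⟨_, rfl⟩
  obtain ⟨vj, hvj⟩ : ∃ x, x = pr j v := ⟨_, rfl⟩
  have hviD : vi ∈ D i := by rw [hvi]; exact S.dec.mem i v
  have hvjD : vj ∈ D j := by rw [hvj]; exact S.dec.mem j v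
  have hvv : v = vi + vj := by rw [hvi, hvj]; exact (S.eq_two hji.symm h3).symm
  obtain ⟨b, hb, hQb, hbv⟩ := S.ex_b2 hF hd (S.dec.mem i v) hi
  rw [← hvi] at hbv hi
  rw [← hvj] at hj
  obtain ⟨b4, hb4, hQb4⟩ := S.exists_same i m hb
  have hv1' := S.cl_pair ha0 hQa hv hb hb4 (by rw [hQb]; exact one_ne_zero) ⟨1, one_ne_zero, by rw [hQb4]; ring⟩
  rw [S.fix_of_pr hb4 (h3 m hmi hmj), hvv, map_add, S.refl_fix hji.symm hb hvjD, hrf b vi hQb hbv] at hv1'
  obtain ⟨h, hhM, hhO, σ, hσ, hσj, -, -, hfix⟩ := S.exists_three (i := j) (j := m) (l := l) (Ne.symm hmj) (Ne.symm hlm)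
    (Ne.symm hlj)
  have hwD : vi + b ∈ D i := (D i).add_mem hviD hb
  have hv2 := S.cl_Pm ha0 hQa hv1' hhM hσ
  rw [map_add, hfix i hji.symm (Ne.symm hmi) (Ne.symm hli) _ hwD] at hv2
  have hhD : h vj ∈ D l := by
    rw [← hσj, ← hσ j]
    exact ⟨vj, hvjD, rfl⟩
  have hh0 : h vj ≠ 0 := fun h0 => hj (h.injective (by rw [h0, map_zero]))
  have hu := hv.refl' hv2
  have hP : polar Q v (vi + b + h vj) = 1 := by
    rw [hvv, polar_add_left, polar_add_right, polar_add_right, polar_add_right, polar_add_right,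
      S.orth i l (Ne.symm hli) vi hviD _ hhD,
      S.orth j i hji vj hvjD vi hviD, S.orth j i hji vj hvjD b hb, S.orth j l (Ne.symm hlj) vj hvjD _ hhD, polar_self', h2,
      polar_comm Q vi b, hbv]; ring
  rw [refl_apply hv.1, hP, hv1 v hv, inv_one, one_mul, one_smul] at hu
  refine three _ hu i j l hji.symm (Ne.symm hli) (Ne.symm hlj) ?_ ?_ ?_
  · rw [map_sub, map_add, S.pr_self hwD, S.pr_ne hli hhD, ← hvi, add_zero, add_sub_cancel_left]
    rintro rfl
    rw [QuadraticMap.map_zero] at hQb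
    exact zero_ne_one hQb
  · rw [map_sub, map_add, S.pr_ne hji.symm hwD, S.pr_ne hlj hhD, ← hvj, add_zero, zero_sub]
    exact neg_ne_zero.2 hj
  · rw [map_sub, map_add, S.pr_ne (Ne.symm hli) hwD, S.pr_self hhD, h3 l hli hlj, sub_zero, zero_add]
    exact hh0

theorem exists_II4 (hF : ∀ s : F, s = 0 ∨ s = 1) (hd : ∀ i, finrank F (D i) = 4) (mi : Mi Q D)
    (h4 : 4 ≤ Fintype.card κ) (hM : ¬ Om Q ≤ M) : II Q D M := by
  have h2 : (2 : F) = 0 := by
    rcases hF 2 with h | h
    · exact h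
    · exfalso
      apply one_ne_zero (α := F)
      linear_combination h
  intro g hg i a ha hQa j hga
  have hQga : Q (g a) ≠ 0 := by rw [S.hMO hg]; exact hQa
  have hone : ∀ x, Q x ≠ 0 → Q x = 1 := fun x hx => (hF (Q x)).resolve_left hx
  have hkey : ∀ l, ∀ b ∈ D l, Q b ≠ 0 → ∃ p, g b ∈ D p := by
    intro l b hb hQb
    by_contra hcon
    push Not at hcon
    refine hM (S.caseI4 hF hd h4 (a0 := g a) (v := g b) (i0 := j) hga hQga ⟨?_, ?_⟩ hcon)
    · rw [S.hMO hg]; exact hQb
    · have h1 := mul_mem (mul_mem hg (S.pair_same hb ha hQb (by rw [hone a hQa, hone b hQb]))) (inv_mem hg)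
      have h2 : g * (refl Q b * refl Q a) * g⁻¹ = refl Q (g b) * refl Q (g a) := by
        rw [← refl_conj (S.hMO hg), ← refl_conj (S.hMO hg)]
        group
      rwa [h2] at h1
  have hsame : ∀ {x y : V} {l l' : κ}, g x ∈ D l → g y ∈ D l' → polar Q x y ≠ 0 → l = l' := by
    intro x y l l' h1 h2 h3
    by_contra hll
    apply h3
    rw [← O_polar (S.hMO hg)]
    exact S.orth l l' hll _ h1 _ h2
  have hkey2 : ∀ l, ∃ p, (D l).map (g : V →ₗ[F] V) = D p := by
    intro l
    obtain ⟨b1, hb1, hQb1⟩ := S.exists_nonsing_in l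
    obtain ⟨p, hp⟩ := hkey l b1 hb1 hQb1
    refine ⟨p, ?_⟩
    apply Submodule.eq_of_le_of_finrank_eq
    · rw [Submodule.map_le_iff_le_comap]
      apply S.nonsing_span hd
      intro b2 hb2 hQb2
      obtain ⟨p', hp'⟩ := hkey l b2 hb2 hQb2
      by_cases hpp : p = p'
      · rw [hpp]; exact hp'
      exfalso
      have hb12 : polar Q b1 b2 = 0 := by
        by_contra hne
        exact hpp (hsame hp hp' hne)
      have hmem : b1 ∉ F ∙ (b1 + b2) := by
        intro h
        obtain ⟨s, hs⟩ := Submodule.mem_span_singleton.1 h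
        rcases hF s with rfl | rfl
        · rw [zero_smul] at hs
          rw [← hs, QuadraticMap.map_zero] at hQb1
          exact hQb1 rfl
        · rw [one_smul] at hs
          have h3 : b2 = 0 := by
            have : b1 + b2 = b1 + 0 := by rw [hs, add_zero]
            exact add_left_cancel this
          rw [h3, QuadraticMap.map_zero] at hQb2
          exact hQb2 rfl
      obtain ⟨c, hc, hc1, hc2⟩ := exists_one_in S.hQ (S.nds l)
        ((Submodule.span_singleton_le_iff_mem _ _).2 ((D l).add_mem hb1 hb2)) hb1 hmem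
      have hc3 := hc1 _ (Submodule.mem_span_singleton_self _)
      have hc4 : polar Q b2 c = 1 := by
        rw [polar_add_left, hc2] at hc3
        linear_combination hc3 - h2
      by_cases hQc : Q c = 0
      · have h5 := mi l (b1 + b2) ((D l).add_mem hb1 hb2) c hc
          (by rw [Q_add, hone b1 hQb1, hone b2 hQb2, hb12]; linear_combination h2) hQc hc3 (by
            intro h0
            rw [h0] at hmem
            have h6 : b2 = -b1 := (neg_eq_of_add_eq_zero_right h0).symm
            have h7 : polar Q b1 b2 = 0 := hb12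
            rw [h6] at hp'
            rw [map_neg] at hp'
            have h8 : g b1 ∈ D p' := by
              have := (D p').neg_mem hp'
              rwa [neg_neg] at this
            have h9 := S.pr_self hp
            rw [S.pr_ne (Ne.symm hpp) h8] at h9
            have h10 : b1 = 0 := g.injective (by rw [← h9, map_zero])
            rw [h10, QuadraticMap.map_zero] at hQb1
            exact hQb1 rfl)
        obtain ⟨s, hs⟩ := Submodule.mem_span_singleton.1 h5
        have h6 : polar Q b1 c = 0 := by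
          rw [← hs, polar_smul_right, polar_add_right, polar_self', hb12, h2]; simp
        rw [hc2] at h6
        exact one_ne_zero h6
      · obtain ⟨r, hr⟩ := hkey l c hc hQc
        have h5 := hsame hp hr (by rw [hc2]; exact one_ne_zero)
        have h6 := hsame hp' hr (by rw [hc4]; exact one_ne_zero)
        exact hpp (by rw [h5, h6])
    · rw [LinearEquiv.finrank_map_eq, hd, hd]
  choose τ hτ using hkey2
  have hinj : Function.Injective τ := by
    intro l l' hll
    by_contra hne
    have h1 : (D l).map (g : V →ₗ[F] V) = (D l').map (g : V →ₗ[F] V) := by rw [hτ, hτ, hll]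
    have h2 : D l = D l' := Submodule.map_injective_of_injective g.injective h1
    obtain ⟨b, hb, hQb⟩ := S.exists_nonsing_in l
    have h3 := S.pr_self hb
    rw [h2] at hb
    rw [S.pr_ne (Ne.symm hne) hb] at h3
    rw [← h3, QuadraticMap.map_zero] at hQb
    exact hQb rfl
  exact ⟨Equiv.ofBijective τ ⟨hinj, Finite.surjective_of_injective hinj⟩, fun l => hτ l⟩

/-- the second case -/
theorem caseII4 (hF : ∀ s : F, s = 0 ∨ s = 1) (hd : ∀ i, finrank F (D i) = 4) (mi : Mi Q D)
    (h4 : 4 ≤ Fintype.card κ) {E : κ → Submodule F V} {pr' : κ → V →ₗ[F] V} (T : DK Q E pr' M)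
    (hd' : ∀ i, finrank F (E i) = 4) (hII : II Q D M) (hII' : II Q E M)
    (hDE : ∀ n l, ∀ c ∈ D n, c ∈ E l → Q c = 0) : False := by
  have hone : ∀ x, Q x ≠ 0 → Q x = 1 := fun x hx => (hF (Q x)).resolve_left hx
  have lemF : ∀ i, ∀ a ∈ D i, Q a ≠ 0 → ∀ l, pr' l a ≠ 0 := by
    intro i a ha hQa l hl
    obtain ⟨c, hc, hQc⟩ := T.exists_nonsing_in l
    have hc0 : c ≠ 0 := by rintro rfl; exact hQc (QuadraticMap.map_zero Q)
    have hgen : ∀ P : Submodule F V, finrank F P ≤ 2 → ∃ b ∈ E l, Q b ≠ 0 ∧ b ∉ P := by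
      intro P hP
      by_contra hcon
      push Not at hcon
      have h1 := Submodule.finrank_mono (T.nonsing_span hd' (P := P) hcon)
      rw [hd'] at h1
      omega
    obtain ⟨c1, hc1, hQc1, hc1m⟩ := hgen (F ∙ c) (by rw [finrank_span_singleton hc0]; norm_num)
    obtain ⟨c2, hc2, hQc2, hc2m⟩ := hgen (Submodule.span F {c1, c}) (by
      classical
      have h3 := finrank_span_finset_le_card (R := F) ({c1, c} : Finset V)
      have h7 : ({c1, c} : Finset V).card ≤ 2 := Finset.card_le_two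
      have h8 : ((({c1, c} : Finset V) : Set V)) = {c1, c} := by simp
      rw [h8] at h3
      exact h3.trans h7)
    have hin : c ∈ Submodule.span F {c1, c} := Submodule.subset_span (by simp)
    have hkey : ∀ c' ∈ E l, Q c' ≠ 0 → c ∉ F ∙ c' → ∀ n, pr n c ∈ Submodule.span F {c', c} := by
      intro c' hc' hQc' hm
      have hy := T.pair_same hc hc' hQc (by rw [hone c hQc, hone c' hQc'])
      have hya : (refl Q c * refl Q c') a = a := by
        rw [LinearEquiv.mul_apply, T.fix_of_pr hc' hl, T.fix_of_pr hc hl]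
      obtain ⟨σ, hσ⟩ := hII _ hy i a ha hQa i (by rw [hya]; exact ha)
      exact S.lemG4' hd hQc hQc' hm hσ
    have hcn : ∀ b : V, b ∉ F ∙ c → Q b ≠ 0 → c ∉ F ∙ b := by
      intro b hb hQb h
      obtain ⟨s, hs⟩ := Submodule.mem_span_singleton.1 h
      have hs0 : s ≠ 0 := by rintro rfl; rw [zero_smul] at hs; exact hc0 hs.symm
      apply hb
      rw [Submodule.mem_span_singleton]
      exact ⟨s⁻¹, by rw [← hs, smul_smul, inv_mul_cancel₀ hs0, one_smul]⟩
    have k1 := hkey c1 hc1 hQc1 (hcn c1 hc1m hQc1)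
    have k2 := hkey c2 hc2 hQc2 (hcn c2 (fun h => hc2m (by
      obtain ⟨s, rfl⟩ := Submodule.mem_span_singleton.1 h
      exact Submodule.smul_mem _ _ hin)) hQc2)
    have k3 : ∀ n, pr n c ∈ F ∙ c := by
      intro n
      obtain ⟨α, β, h1⟩ := Submodule.mem_span_pair.1 (k1 n)
      obtain ⟨γ, δ, h5⟩ := Submodule.mem_span_pair.1 (k2 n)
      have hγ : γ = 0 := by
        by_contra hne
        apply hc2m
        rw [Submodule.mem_span_pair]
        refine ⟨γ⁻¹ * α, γ⁻¹ * (β - δ), ?_⟩
        have h6 : γ • c2 = α • c1 + (β - δ) • c := by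
          have : γ • c2 = pr n c - δ • c := by rw [← h5]; abel
          rw [this, ← h1]; module
        rw [mul_smul, mul_smul, ← smul_add, ← h6, smul_smul, inv_mul_cancel₀ hne, one_smul]
      rw [← h5, hγ, zero_smul, zero_add]
      exact Submodule.smul_mem _ _ (Submodule.mem_span_singleton_self c)
    obtain ⟨n, hn⟩ : ∃ n, pr n c ≠ 0 := by
      by_contra hcon
      push Not at hcon
      apply hc0
      rw [← S.dec.sum c]
      exact Finset.sum_eq_zero fun m _ => hcon m
    obtain ⟨s, hs⟩ := Submodule.mem_span_singleton.1 (k3 n)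
    have hs0 : s ≠ 0 := by rintro rfl; rw [zero_smul] at hs; exact hn hs.symm
    have hcD : c ∈ D n := by
      have h1 : s • c ∈ D n := by rw [hs]; exact S.dec.mem n c
      rwa [Submodule.smul_mem_iff _ hs0] at h1
    exact hQc (hDE n l c hcD hc)
  have hκ : Nonempty κ := Fintype.card_pos_iff.1 (by omega)
  obtain ⟨l⟩ := hκ
  obtain ⟨w, hw, hQw⟩ := T.exists_nonsing_in l
  obtain ⟨a, ha, b, hb, hQa, hQb, hab⟩ := S.two_ns mi (i := l) (U := D l ⊓ perp Q (F ∙ w)) inf_le_left (by
    have h1 := finrank_cut1 S.hQ (A := D l) (a := w)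
    rw [hd] at h1
    omega)
  obtain ⟨haD, hwa⟩ := mem_cut1.1 ha
  obtain ⟨hbD, hwb⟩ := mem_cut1.1 hb
  have hx := S.pair_same haD hbD hQa (by rw [hone a hQa, hone b hQb])
  have hxw : (refl Q a * refl Q b) w = w := by
    have hbw : polar Q b w = 0 := by rw [polar_comm]; exact hwb
    have haw : polar Q a w = 0 := by rw [polar_comm]; exact hwa
    rw [LinearEquiv.mul_apply, refl_of_perp hbw, refl_of_perp haw]
  obtain ⟨σ, hσ⟩ := hII' _ hx l w hw hQw l (by rw [hxw]; exact hw)
  obtain ⟨i', j', hij⟩ := T.lemG4'' hd' hQa hQb hab hσ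
  obtain ⟨m, hm⟩ := S.exists_third_index {i', j'} (lt_of_le_of_lt Finset.card_le_two (by omega))
  simp only [Finset.mem_insert, Finset.mem_singleton, not_or] at hm
  exact lemF l a haD hQa m (hij m hm.1 hm.2)

/-- the main theorem for spaces of dimension four over the field with two elements -/
theorem main4 (hF : ∀ s : F, s = 0 ∨ s = 1) (hd : ∀ i, finrank F (D i) = 4) (mi : Mi Q D)
    (h4 : 4 ≤ Fintype.card κ) {m : V ≃ₗ[F] V} (hm : m ∈ M) (hnp : ¬ ∃ σ : Equiv.Perm κ, Pm D m σ) : Om Q ≤ M := by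
  by_contra hM
  have T := S.conj hm
  have hd' : ∀ i, finrank F ((D i).map (m : V →ₗ[F] V)) = 4 := fun i => by rw [LinearEquiv.finrank_map_eq]; exact hd i
  have mi' : Mi Q (fun i => (D i).map (m : V →ₗ[F] V)) := by
    rintro i _ ⟨u, hu, rfl⟩ _ ⟨v, hv, rfl⟩ h1 h2 h3 h0
    simp only [LinearEquiv.coe_coe] at h1 h2 h3 h0 ⊢
    rw [S.hMO hm] at h1 h2
    rw [O_polar (S.hMO hm)] at h3
    obtain ⟨s, hs⟩ := Submodule.mem_span_singleton.1 (mi i u hu v hv h1 h2 h3 (fun h => h0 (by rw [h, map_zero])))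
    rw [Submodule.mem_span_singleton]
    exact ⟨s, by rw [← hs, LinearEquiv.map_smul]⟩
  have hII := S.exists_II4 hF hd mi h4 hM
  have hII' := T.exists_II4 hF hd' mi' h4 hM
  refine S.caseII4 hF hd mi h4 T hd' hII hII' ?_
  intro n l c hc hc'
  by_contra hQc
  obtain ⟨x, hx, hxc⟩ := hc'
  have hxc' : m x = c := hxc
  apply hnp
  refine hII m hm l x hx ?_ n (by rw [hxc']; exact hc)
  rw [← S.hMO hm, hxc']; exact hQc

end DK

end Cfsg.Agent.Lib.Dk2H94
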