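import Mathlib
import Cfsg.Agent.Lib.Dk5H94
import Cfsg.Agent.Lib.Dk2mH94

set_option autoImplicit false
set_option linter.unusedSectionVars false
set_option linter.unusedSimpArgs false
set_option linter.unusedVariables false

/-!
Stabilisers of orthogonal decompositions: the transfer to matrices, small dimensions.
-/

namespace Cfsg.Agent.Lib.Dk2H94

open Cfsg Cfsg.Geo Cfsg.Agent.Lib.GeoBridge Cfsg.Agent.Lib.OrthBridge Cfsg.Agent.Lib.OrthNdBridge
open QuadraticMap Module Cfsg.Agent.Lib.Quad Cfsg.Agent.Lib.OrthMax Cfsg.Agent.Lib.OrthNd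
open Cfsg.Agent.Lib.OrthDecH94 Cfsg.Agent.Lib.OrthFrameH94
open Cfsg.Agent.Lib.SLBlockH94 (Dec exists_dec)

section bridge

variable {F : Type*} [Field F] [Fintype F]

theorem dk_bridge_low {n : ℕ} {Q : QuadraticForm F (Fin n → F)} (hQ : Nd Q) (hn : 8 ≤ n) {t k : ℕ}
    (hk : 2 ≤ k) (hkt : k = 2 → 5 ≤ t) {D : Fin t → Submodule F (Fin n → F)} (hD : IsOrthogonalMDecomposition ⇑Q k D)
    (hko : Odd k → Odd (Fintype.card F)) (h23 : k = 2 → Fintype.card F ≠ 3)
    (h2p : k = 2 → (∀ i, IsPlusTypeOn ⇑Q (D i)) → Fintype.card F ≠ 2 ∧ Fintype.card F ≠ 4 ∧ Fintype.card F ≠ 5)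
    (h33 : k = 3 → Fintype.card F ≠ 3)
    (h42 : k = 4 → Fintype.card F ≠ 2) :
    IsMaximalIn (omegaGL ⇑Q) (decompositionStabilizer D ⊓ omegaGL ⇑Q) := by
  have hfr : finrank F (Fin n → F) = n := by simp
  have hgen : GenHyp Q := Or.inr (Or.inl (by rw [hfr]; omega))
  have htk := card_decomp hD.decomp.decomp
  rw [hfr] at htk
  have hfin := hD.decomp.decomp.finrank_eq
  have htwo := hD.decomp.decomp.two_le
  obtain ⟨pr, hpr⟩ := exists_dec hD.decomp.decomp.indep hD.decomp.decomp.iSup_eq_top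
  have horth : ∀ i j, i ≠ j → ∀ x ∈ D i, ∀ y ∈ D j, polar Q x y = 0 := fun i j hij x hx y hy =>
    hD.decomp.orthogonal i j hij x hx y hy
  have hS : ∀ M : Subgroup ((Fin n → F) ≃ₗ[F] (Fin n → F)), M ≤ Om Q →
      (∀ g ∈ Om Q, (∃ σ : Equiv.Perm (Fin t), ∀ i, (D i).map (g : (Fin n → F) →ₗ[F] (Fin n → F)) = D (σ i)) → g ∈ M) →
      DK Q D pr M := by
    intro M hM hH
    exact ⟨hQ, hgen, by rw [hfr]; omega, hpr, horth, hM.trans Om_le, fun i => by rw [hfin]; exact hk, hD.isometric, hH⟩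
  have hc1 : 1 < Fintype.card F := Fintype.one_lt_card
  have hc6 := card_ne_six (F := F)
  have hev : (2 : F) ≠ 0 → 3 ≤ Fintype.card F := by
    intro h2
    by_contra hcon
    have h3 : Fintype.card F = 2 := by omega
    have h4 := FiniteField.cast_card_eq_zero F
    rw [h3] at h4
    exact h2 (by exact_mod_cast h4)
  by_cases hk2 : k = 2
  · -- planes
    subst hk2
    have hd : ∀ i, finrank F (D i) = 2 := hfin
    have ht5 : 5 ≤ t := hkt rfl
    have ty : Ty Q D := by
      by_cases h : ∀ i, ∀ x ∈ D i, Q x = 0 → x = 0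
      · exact Or.inl h
      right
      push Not at h
      obtain ⟨i, x, hx, hQx, hx0⟩ := h
      have hall : ∀ j, ∃ y ∈ D j, y ≠ 0 ∧ Q y = 0 := by
        intro j
        obtain ⟨e, he⟩ := hD.isometric i j
        refine ⟨e ⟨x, hx⟩, (e ⟨x, hx⟩).2, fun h0 => hx0 ?_, by rw [he]; exact hQx⟩
        have h1 : e ⟨x, hx⟩ = 0 := Subtype.ext h0
        have h2 := (LinearEquiv.map_eq_zero_iff e).1 h1
        exact congrArg Subtype.val h2
      have hplus : ∀ j, IsPlusTypeOn ⇑Q (D j) := by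
        intro j
        obtain ⟨y, hy, hy0, hQy⟩ := hall j
        refine ⟨F ∙ y, by rwa [Submodule.span_singleton_le_iff_mem], ?_, by rw [finrank_span_singleton hy0, hd]⟩
        intro w hw
        obtain ⟨s, rfl⟩ := Submodule.mem_span_singleton.1 hw
        rw [Q_smul, hQy, mul_zero]
      obtain ⟨c2, c4, c5⟩ := h2p rfl hplus
      have c3 := h23 rfl
      refine ⟨?_, hall⟩
      rw [Nat.card_eq_fintype_card]
      omega
    have hF : 4 ≤ Nat.card F ∨ (2 : F) = 0 := by
      by_cases h2 : (2 : F) = 0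
      · exact Or.inr h2
      · left
        rw [Nat.card_eq_fintype_card]
        have := hev h2
        have := h23 rfl
        omega
    refine Om_max_of (P := fun g => ∃ σ : Equiv.Perm (Fin t), ∀ i,
      (D i).map (g : (Fin n → F) →ₗ[F] (Fin n → F)) = D (σ i))
      (fun g => mem_decompositionStabilizer_iff D g) ?_ ?_
    · have S := hS (Om Q) le_rfl (fun g hg _ => hg)
      exact strict2 S hd ty (i := ⟨0, by omega⟩) (j := ⟨1, by omega⟩) (l := ⟨2, by omega⟩)
        (by simp [Fin.ext_iff]) (by simp [Fin.ext_iff]) (by simp [Fin.ext_iff])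
    · intro M hM hH ⟨g, hg, hgP⟩
      exact (hS M hM hH).main5 hd ty hF (by rw [Fintype.card_fin]; exact ht5) hg hgP
  have hk3 : 3 ≤ k := by omega
  by_cases h2 : (2 : F) = 0
  swap
  · -- odd characteristic
    refine od_bridge hQ h2 hk3 hD fun h3 => ?_
    have h4 : 4 ≤ Nat.card F := by
      rw [Nat.card_eq_fintype_card]
      have := hev h2
      have := h33 h3
      omega
    obtain ⟨a, ha0, ha1, ha2⟩ := exists_scalar (F := F) h4
    exact ⟨a, ha0, ha1, fun h => ha2 (by rw [h]; ring)⟩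
  -- even characteristic
  have hkev : Even k := by
    by_contra hcon
    have h3 := hko (Nat.not_even_iff_odd.1 hcon)
    have h4 := FiniteField.cast_card_eq_zero F
    obtain ⟨r, hr⟩ := h3
    rw [hr] at h4
    push_cast at h4
    rw [h2, zero_mul, zero_add] at h4
    exact one_ne_zero h4
  have hk4 : 4 ≤ k := by
    obtain ⟨r, hr⟩ := hkev
    omega
  have hSO : ∀ M : Subgroup ((Fin n → F) ≃ₗ[F] (Fin n → F)), M ≤ Om Q →
      (∀ g ∈ Om Q, (∃ σ : Equiv.Perm (Fin t), ∀ i, (D i).map (g : (Fin n → F) →ₗ[F] (Fin n → F)) = D (σ i)) → g ∈ M) →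
      OD Q D pr M := by
    intro M hM hH
    exact ⟨hQ, hgen, hpr, horth, hM.trans Om_le, fun i => by rw [hfin]; omega, hD.isometric, hH⟩
  refine Om_max_of (P := fun g => ∃ σ : Equiv.Perm (Fin t), ∀ i,
    (D i).map (g : (Fin n → F) →ₗ[F] (Fin n → F)) = D (σ i))
    (fun g => mem_decompositionStabilizer_iff D g) ?_ ?_
  · have S := hSO (Om Q) le_rfl (fun g hg _ => hg)
    obtain ⟨e, he, f, hf, hQe, hQf, hef⟩ := exists_pair_in hQ (S.nds ⟨0, by omega⟩) (S.dim _)
    obtain ⟨d, hd, hd0⟩ : ∃ d ∈ D ⟨1, by omega⟩, d ≠ 0 := by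
      apply Submodule.exists_mem_ne_zero_of_ne_bot
      intro h3
      have := S.dim ⟨1, by omega⟩
      rw [h3, finrank_bot] at this
      omega
    have hne : (⟨0, by omega⟩ : Fin t) ≠ ⟨1, by omega⟩ := by simp [Fin.ext_iff]
    have hed : polar Q e d = 0 := horth _ _ hne e he d hd
    have hdf : polar Q d f = 0 := horth _ _ hne.symm d hd f hf
    have he0 : e ≠ 0 := by rintro rfl; rw [polar_zero_left] at hef; exact zero_ne_one hef
    refine ⟨sieg hQ hQe hed, hQ.sieg_mem_Om hgen hQe hed, ?_⟩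
    rintro ⟨σ, hσ⟩
    have h1 : (sieg hQ hQe hed) e = e := by
      rw [sieg_apply, polar_self', hQe, polar_comm Q d e, hed]; simp
    have h3 : σ ⟨0, by omega⟩ = ⟨0, by omega⟩ := by
      by_contra hcon
      apply he0
      have h4 : e ∈ D (σ ⟨0, by omega⟩) := by
        rw [← hσ]
        exact ⟨e, he, h1⟩
      rw [← hpr.self _ e h4]
      exact hpr.zero _ _ e hcon he
    have h4 : (sieg hQ hQe hed) f ∈ D ⟨0, by omega⟩ := by
      have h5 : (sieg hQ hQe hed) f ∈ D (σ ⟨0, by omega⟩) := by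
        rw [← hσ]
        exact ⟨f, hf, rfl⟩
      rwa [h3] at h5
    rw [sieg_apply, hef, hdf, one_smul, zero_smul, sub_zero] at h4
    have h5 : d ∈ D ⟨0, by omega⟩ := by
      have h6 := Submodule.sub_mem _ h4 hf
      have h7 := Submodule.add_mem _ h6 (Submodule.smul_mem _ (Q d * 1) he)
      convert h7 using 1
      abel
    apply hd0
    rw [← hpr.self _ d h5]
    exact hpr.zero _ _ d hne hd
  · intro M hM hH ⟨g, hg, hgP⟩
    by_cases hbig : 4 ≤ Nat.card F ∨ 6 ≤ k
    · exact (hSO M hM hH).main_even h2 (fun i => by rw [hfin]; exact hk4)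
        (hbig.imp id (fun h i => by rw [hfin]; exact h)) hg hgP
    · push Not at hbig
      obtain ⟨hF4, hk6⟩ := hbig
      have hk4' : k = 4 := by
        obtain ⟨r, hr⟩ := hkev
        omega
      subst hk4'
      rw [Nat.card_eq_fintype_card] at hF4
      have hF2 : Fintype.card F = 2 := by
        by_contra hcon
        have h3 : Fintype.card F = 3 := by omega
        have h4 := FiniteField.cast_card_eq_zero F
        rw [h3] at h4
        push_cast at h4
        apply one_ne_zero (α := F)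
        linear_combination h4 - h2
      exact absurd hF2 (h42 rfl)

end bridge

end Cfsg.Agent.Lib.Dk2H94
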