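import Mathlib
import Cfsg.Agent.Lib.Dk6H94

set_option autoImplicit false
set_option linter.unusedSectionVars false
set_option linter.unusedSimpArgs false
set_option linter.unusedVariables false

/-!
Three orthogonal spaces of dimension four and minus type over the field with two elements (helper14)
-/

namespace Cfsg.Agent.Lib.Dk2H94

open QuadraticMap Module Cfsg.Agent.Lib.Quad Cfsg.Agent.Lib.OrthMax Cfsg.Agent.Lib.OrthNd
open Cfsg.Agent.Lib.OrthDecH94
open Cfsg.Agent.Lib.SLBlockH94 (Dec)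

namespace Min2

variable {F V : Type*} [Field F] [AddCommGroup V] [Module F V] [FiniteDimensional F V]
  {Q : QuadraticForm F V} {M : Subgroup (V ≃ₗ[F] V)}

/-- two reflections are congruent modulo `M` -/
def Re (Q : QuadraticForm F V) (M : Subgroup (V ≃ₗ[F] V)) (c d : V) : Prop := refl Q c * refl Q d ∈ M

theorem Re.symm {c d : V} (h : Re Q M c d) : Re Q M d c := by
  have h1 := M.inv_mem h
  rwa [mul_inv_rev, refl_inv, refl_inv] at h1

theorem Re.trans {c d e : V} (h : Re Q M c d) (h' : Re Q M d e) : Re Q M c e := by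
  have h1 := M.mul_mem h h'
  rwa [mul_assoc, ← mul_assoc (refl Q d), refl_mul_self, one_mul] at h1

theorem Re.conj (hM : M ≤ O Q) {g : V ≃ₗ[F] V} (hg : g ∈ M) {c d : V} (h : Re Q M c d) :
    Re Q M (g c) (g d) := by
  have h1 := M.mul_mem (M.mul_mem hg h) (M.inv_mem hg)
  have h2 : g * (refl Q c * refl Q d) * g⁻¹ = (g * refl Q c * g⁻¹) * (g * refl Q d * g⁻¹) := by group
  rw [h2, refl_conj (hM hg), refl_conj (hM hg)] at h1
  exact h1

section two

theorem two_zero (hF : ∀ s : F, s = 0 ∨ s = 1) : (2 : F) = 0 := by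
  rcases hF 2 with h | h
  · exact h
  · exfalso
    have : (1 : F) = 0 := by linear_combination h
    exact one_ne_zero this

theorem add_self (h2 : (2 : F) = 0) (v : V) : v + v = 0 := by
  rw [← two_smul F, h2, zero_smul]

theorem neg_self (h2 : (2 : F) = 0) (v : V) : -v = v := by
  rw [neg_eq_iff_add_eq_zero]; exact add_self h2 v

theorem refl1 (h2 : (2 : F) = 0) {c : V} (hc : Q c = 1) (x : V) : refl Q c x = x + polar Q c x • c := by
  rw [refl_apply (by rw [hc]; exact one_ne_zero), hc, inv_one, one_mul, sub_eq_add_neg, neg_self h2]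

theorem Re.add (h2 : (2 : F) = 0) {a c d : V} (hc : Q c = 1) (hcd : polar Q c d = 1) (h : Re Q M c a)
    (h' : Re Q M d a) : Re Q M (c + d) a := by
  have h1 : refl Q (c + d) = refl Q c * refl Q d * refl Q c := by
    have h3 := refl_conj (refl_mem (Q := Q) c) d
    rw [refl_inv, refl1 h2 hc, hcd, one_smul, add_comm] at h3
    exact h3.symm
  have h3 := M.mul_mem (Re.trans h h'.symm) h
  rw [Re, h1, mul_assoc]
  exact h3

variable {U : Submodule F V}

theorem one_of (hF : ∀ s : F, s = 0 ∨ s = 1) {s : F} (h : s ≠ 0) : s = 1 := (hF s).resolve_left h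

/-- a block -/
structure Bl (Q : QuadraticForm F V) (U : Submodule F V) : Prop where
  nd : NDs Q U
  d4 : finrank F U = 4
  mi : ∀ u ∈ U, ∀ v ∈ U, Q u = 0 → Q v = 0 → polar Q u v = 0 → u ≠ 0 → v ∈ F ∙ u

theorem mem_span_two (hF : ∀ s : F, s = 0 ∨ s = 1) {u v : V} (h : v ∈ F ∙ u) : v = 0 ∨ v = u := by
  obtain ⟨c, rfl⟩ := Submodule.mem_span_singleton.1 h
  rcases hF c with rfl | rfl
  · left; rw [zero_smul]
  · right; rw [one_smul]

theorem X1 (hF : ∀ s : F, s = 0 ∨ s = 1) (hQ : Nd Q) (B : Bl Q U) {b c : V} (hb : b ∈ U) (hc : c ∈ U)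
    (hQb : Q b = 1) (hQc : Q c = 1) (hbc : polar Q b c = 0) (hne : b ≠ c) :
    ∃ x ∈ U, Q x = 1 ∧ polar Q x b = 1 ∧ polar Q x c = 1 := by
  have h2 := two_zero hF
  obtain ⟨y, hy, hy1, hy2⟩ := exists_one_in hQ B.nd (B := F ∙ (b + c))
    ((Submodule.span_singleton_le_iff_mem _ _).2 (U.add_mem hb hc)) hb (by
      intro h
      rcases mem_span_two hF h with h | h
      · rw [h, QuadraticMap.map_zero] at hQb; exact zero_ne_one hQb
      · have : c = 0 := by
          have := congrArg (fun t => t - b) h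
          simpa using this.symm
        rw [this, QuadraticMap.map_zero] at hQc; exact zero_ne_one hQc)
  have h3 := hy1 (b + c) (Submodule.mem_span_singleton_self _)
  rw [polar_add_left, hy2] at h3
  have hcy : polar Q c y = 1 := by linear_combination h3 - h2
  refine ⟨y, hy, ?_, by rw [polar_comm]; exact hy2, by rw [polar_comm]; exact hcy⟩
  apply one_of hF
  intro hQy
  have hs : Q (b + c) = 0 := by rw [Q_add, hQb, hQc, hbc]; linear_combination h2
  have hs0 : b + c ≠ 0 := by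
    intro h
    apply hne
    rw [add_eq_zero_iff_eq_neg.1 h, neg_self h2]
  have h4 := B.mi (b + c) (U.add_mem hb hc) y hy hs hQy (hy1 _ (Submodule.mem_span_singleton_self _)) hs0
  rcases mem_span_two hF h4 with h | h
  · rw [h, polar_zero_right] at hy2; exact zero_ne_one hy2
  · rw [h, polar_add_right, polar_self', hQb, hbc] at hy2
    apply one_ne_zero (α := F)
    linear_combination h2 - hy2

theorem X0 (hF : ∀ s : F, s = 0 ∨ s = 1) (hQ : Nd Q) [Finite F] (B : Bl Q U) {c : V} (hc : c ∈ U) (hQc : Q c = 1) :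
    ∃ x ∈ U, Q x = 1 ∧ polar Q c x = 1 := by
  have hc0 : c ≠ 0 := by rintro rfl; rw [QuadraticMap.map_zero] at hQc; exact zero_ne_one hQc
  obtain ⟨y, hy, -, hcy⟩ := exists_one_in hQ B.nd bot_le hc (by simpa using hc0)
  rcases hF (Q y) with hQy | hQy
  swap
  · exact ⟨y, hy, hQy, hcy⟩
  have hy0 : y ≠ 0 := by rintro rfl; rw [polar_zero_right] at hcy; exact zero_ne_one hcy
  obtain ⟨d, hd, hyd, hQd⟩ := exists_nonsing_perp' hQ B.nd (by rw [B.d4]; norm_num) hy hy0 hQy
  have hQd1 := one_of hF hQd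
  rcases hF (polar Q c d) with h | h
  · refine ⟨y + d, U.add_mem hy hd, ?_, by rw [polar_add_right, hcy, h, add_zero]⟩
    rw [Q_add, hQy, hQd1, hyd]; ring
  · exact ⟨d, hd, hQd1, h⟩

theorem XS (hF : ∀ s : F, s = 0 ∨ s = 1) (hQ : Nd Q) (B : Bl Q U) {s a : V} (hs : s ∈ U) (ha : a ∈ U)
    (hs0 : s ≠ 0) (hQs : Q s = 0) (hQa : Q a = 1) (hsa : polar Q s a = 0) :
    ∃ b ∈ U, Q b = 1 ∧ polar Q s b = 0 ∧ polar Q a b = 1 := by
  obtain ⟨w, hw, hw1, hw2⟩ := exists_one_in hQ B.nd (B := F ∙ s)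
    ((Submodule.span_singleton_le_iff_mem _ _).2 hs) ha (by
      intro h
      rcases mem_span_two hF h with h | h
      · rw [h, QuadraticMap.map_zero] at hQa; exact zero_ne_one hQa
      · rw [h, hQs] at hQa; exact zero_ne_one hQa)
  have hsw := hw1 s (Submodule.mem_span_singleton_self _)
  refine ⟨w, hw, ?_, hsw, hw2⟩
  apply one_of hF
  intro hQw
  rcases mem_span_two hF (B.mi s hs w hw hQs hQw hsw hs0) with h | h
  · rw [h, polar_zero_right] at hw2; exact zero_ne_one hw2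
  · rw [h, polar_comm, hsa] at hw2; exact zero_ne_one hw2

/-- a functional vanishing on the nonsingular vectors not orthogonal to a nonsingular `c` vanishes -/
theorem EXT (hF : ∀ s : F, s = 0 ∨ s = 1) (hQ : Nd Q) [Finite F] (B : Bl Q U) {c a : V} (hc : c ∈ U)
    (hQc : Q c = 1) (h : ∀ y ∈ U, Q y = 1 → polar Q c y = 1 → polar Q a y = 0) : ∀ y ∈ U, polar Q a y = 0 := by
  have h2 := two_zero hF
  have key : ∀ y ∈ U, Q y = 1 → polar Q a y = 0 := by
    intro y hy hQy
    rcases hF (polar Q c y) with h0 | h1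
    swap
    · exact h y hy hQy h1
    by_cases hyc : y = c
    · obtain ⟨x, hx, hQx, hcx⟩ := X0 hF hQ B hc hQc
      have e1 := h x hx hQx hcx
      have e2 := h (x + c) (U.add_mem hx hc)
        (by rw [Q_add, hQx, hQc, polar_comm Q x c, hcx]; linear_combination h2)
        (by rw [polar_add_right, hcx, polar_self', hQc]; linear_combination h2)
      rw [polar_add_right, e1, zero_add] at e2
      rw [hyc]; exact e2
    · obtain ⟨x, hx, hQx, hxy, hxc⟩ := X1 hF hQ B hy hc hQy hQc (by rw [polar_comm]; exact h0) hyc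
      have hcx : polar Q c x = 1 := by rw [polar_comm]; exact hxc
      have e1 := h x hx hQx hcx
      have e2 := h (x + y) (U.add_mem hx hy)
        (by rw [Q_add, hQx, hQy, hxy]; linear_combination h2)
        (by rw [polar_add_right, hcx, h0, add_zero])
      rwa [polar_add_right, e1, zero_add] at e2
  intro y hy
  rcases hF (Q y) with hQy | hQy
  swap
  · exact key y hy hQy
  by_cases hy0 : y = 0
  · rw [hy0, polar_zero_right]
  obtain ⟨d, hd, hyd, hQd⟩ := exists_nonsing_perp' hQ B.nd (by rw [B.d4]; norm_num) hy hy0 hQy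
  have hQd1 := one_of hF hQd
  have e1 := key d hd hQd1
  have e2 := key (y + d) (U.add_mem hy hd) (by rw [Q_add, hQy, hQd1, hyd]; ring)
  rwa [polar_add_right, e1, add_zero] at e2

end two

section three

variable [Finite F] {D : Fin 3 → Submodule F V} {pr : Fin 3 → V →ₗ[F] V}

theorem sum3 (S : DK Q D pr M) (v : V) : pr 0 v + pr 1 v + pr 2 v = v := by
  have := S.dec.sum v
  rwa [Fin.sum_univ_three] at this

theorem Q3 (S : DK Q D pr M) (v : V) : Q (pr 0 v) + Q (pr 1 v) + Q (pr 2 v) = Q v := by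
  conv_rhs => rw [← sum3 S v]
  rw [Q_add, Q_add, polar_add_left, S.orth 0 1 (by decide) _ (S.dec.mem 0 v) _ (S.dec.mem 1 v),
    S.orth 0 2 (by decide) _ (S.dec.mem 0 v) _ (S.dec.mem 2 v),
    S.orth 1 2 (by decide) _ (S.dec.mem 1 v) _ (S.dec.mem 2 v)]
  ring

theorem P3 (S : DK Q D pr M) (v y : V) :
    polar Q (pr 0 v) y + polar Q (pr 1 v) y + polar Q (pr 2 v) y = polar Q v y := by
  conv_rhs => rw [← sum3 S v]
  rw [polar_add_left, polar_add_left]

theorem cut1 {Y : Submodule F V} {p : V →ₗ[F] V} {z : V} (h : ∀ y ∈ Y, p y ∈ F ∙ z) :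
    finrank F Y ≤ finrank F ↥(Y ⊓ LinearMap.ker p) + 1 := by
  have h1 := LinearMap.finrank_range_add_finrank_ker (p.domRestrict Y)
  have h2 : finrank F (LinearMap.range (p.domRestrict Y)) ≤ 1 := by
    have h3 : LinearMap.range (p.domRestrict Y) ≤ F ∙ z := by
      rintro _ ⟨y, rfl⟩; exact h y y.2
    refine (Submodule.finrank_mono h3).trans ?_
    by_cases hz : z = 0
    · rw [hz, Submodule.span_zero_singleton, finrank_bot]; norm_num
    · rw [finrank_span_singleton hz]
  have h3 : finrank F (LinearMap.ker (p.domRestrict Y)) = finrank F ↥(Y ⊓ LinearMap.ker p) := by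
    rw [← Submodule.map_comap_subtype, Submodule.finrank_map_subtype_eq]
    rfl
  omega

/-- pairs of reflections -/
theorem pair (S : DK Q D pr M) {i j : Fin 3} {a b : V} (ha : a ∈ D i) (hb : b ∈ D j) (hQa : Q a = 1) (hQb : Q b = 1) :
    Re Q M a b :=
  S.refl_pair ha hb (by rw [hQa]; exact one_ne_zero) ⟨1, one_ne_zero, by rw [hQa, hQb]; ring⟩

/-- the situation to be excluded -/
structure Ex (Q : QuadraticForm F V) (M : Subgroup (V ≃ₗ[F] V)) (D : Fin 3 → Submodule F V) (X : Submodule F V)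
    (c : V) : Prop where
  B : Bl Q X
  hc : c ∈ X
  hQc : Q c = 1
  hno : ∀ i, ∀ b ∈ D i, Q b = 1 → b ∉ X
  hst : ∀ g ∈ M, g c = c → ∀ y ∈ X, Q y = 1 → polar Q c y = 1 → g y ∈ X

variable {X : Submodule F V} {c : V}

theorem F1 (S : DK Q D pr M) (hF : ∀ s : F, s = 0 ∨ s = 1) (E : Ex Q M D X c) {i : Fin 3} {a b : V} (ha : a ∈ D i)
    (hb : b ∈ D i) (hQa : Q a = 1) (hQb : Q b = 1) (hca : polar Q c a = 0) (hcb : polar Q c b = 0)
    (hab : polar Q a b = 1) : ∀ y ∈ X, polar Q a y = 0 := by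
  have h2 := two_zero hF
  apply EXT hF S.hQ E.B E.hc E.hQc
  intro y hy hQy hcy
  have hg : refl Q a * refl Q b ∈ M := pair S ha hb hQa hQb
  have hgc : (refl Q a * refl Q b) c = c := by
    rw [LinearEquiv.mul_apply, refl_of_perp (v := b) (by rw [polar_comm]; exact hcb),
      refl_of_perp (by rw [polar_comm]; exact hca)]
  have hgy := E.hst _ hg hgc y hy hQy hcy
  have e : (refl Q a * refl Q b) y = y + polar Q b y • b + (polar Q a y + polar Q b y) • a := by
    rw [LinearEquiv.mul_apply, refl1 h2 hQb, refl1 h2 hQa, polar_add_right, polar_smul_right, hab,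
      smul_eq_mul, mul_one]
  have h3 : polar Q b y • b + (polar Q a y + polar Q b y) • a ∈ X := by
    have := X.sub_mem hgy hy
    rw [e] at this
    convert this using 1
    abel
  rcases hF (polar Q a y) with h | h
  · exact h
  exfalso
  rcases hF (polar Q b y) with h' | h'
  · rw [h, h', zero_smul, add_zero, one_smul, zero_add] at h3
    exact E.hno i a ha hQa h3
  · rw [h, h', show (1 : F) + 1 = 0 by linear_combination h2, zero_smul, add_zero, one_smul] at h3
    exact E.hno i b hb hQb h3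

theorem F2 (S : DK Q D pr M) (hF : ∀ s : F, s = 0 ∨ s = 1) (E : Ex Q M D X c) {i j : Fin 3} {a b : V} (ha : a ∈ D i)
    (hb : b ∈ D j) (hQa : Q a = 1) (hQb : Q b = 1) (hca : polar Q c a = 0) (hcb : polar Q c b = 0)
    (hab : polar Q a b = 0) {y : V} (hy : y ∈ X) (hQy : Q y = 1) (hcy : polar Q c y = 1) :
    polar Q a y = polar Q b y ∧ (polar Q a y = 1 → a + b ∈ X) := by
  have h2 := two_zero hF
  have hg : refl Q a * refl Q b ∈ M := pair S ha hb hQa hQb
  have hgc : (refl Q a * refl Q b) c = c := by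
    rw [LinearEquiv.mul_apply, refl_of_perp (v := b) (by rw [polar_comm]; exact hcb),
      refl_of_perp (by rw [polar_comm]; exact hca)]
  have hgy := E.hst _ hg hgc y hy hQy hcy
  have e : (refl Q a * refl Q b) y = y + polar Q b y • b + polar Q a y • a := by
    rw [LinearEquiv.mul_apply, refl1 h2 hQb, refl1 h2 hQa, polar_add_right, polar_smul_right, hab,
      smul_zero, add_zero]
  have h3 : polar Q b y • b + polar Q a y • a ∈ X := by
    have := X.sub_mem hgy hy
    rw [e] at this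
    convert this using 1
    abel
  rcases hF (polar Q a y) with h | h <;> rcases hF (polar Q b y) with h' | h'
  · exact ⟨by rw [h, h'], fun h4 => absurd (h.symm.trans h4) zero_ne_one⟩
  · exfalso
    rw [h, h', zero_smul, add_zero, one_smul] at h3
    exact E.hno j b hb hQb h3
  · exfalso
    rw [h, h', zero_smul, zero_add, one_smul] at h3
    exact E.hno i a ha hQa h3
  · refine ⟨by rw [h, h'], fun _ => ?_⟩
    rw [h, h', one_smul, one_smul] at h3
    rw [add_comm]; exact h3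

theorem L1 (S : DK Q D pr M) (hF : ∀ s : F, s = 0 ∨ s = 1) (BD : ∀ i, Bl Q (D i)) (E : Ex Q M D X c) {i : Fin 3}
    (hci : Q (pr i c) = 0) : ∀ y ∈ X, pr i y ∈ F ∙ pr i c := by
  intro y hy
  by_contra hcon
  obtain ⟨w, hw, hw1, hw2⟩ := exists_one_in S.hQ (S.nds i) (B := F ∙ pr i c)
    ((Submodule.span_singleton_le_iff_mem _ _).2 (S.dec.mem i c)) (S.dec.mem i y) hcon
  have hcw : polar Q (pr i c) w = 0 := hw1 _ (Submodule.mem_span_singleton_self _)
  have key : ∀ a ∈ D i, Q a = 1 → polar Q (pr i c) a = 0 → polar Q a y = 0 := by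
    intro a ha hQa hca
    by_cases h0 : pr i c = 0
    · obtain ⟨b, hb, hQb, hab⟩ := X0 hF S.hQ (BD i) ha hQa
      exact F1 S hF E ha hb hQa hQb (by rw [← S.polar_pr ha, h0, polar_zero_left])
        (by rw [← S.polar_pr hb, h0, polar_zero_left]) hab y hy
    · obtain ⟨b, hb, hQb, hsb, hab⟩ := XS hF S.hQ (BD i) (S.dec.mem i c) ha h0 hci hQa hca
      exact F1 S hF E ha hb hQa hQb (by rw [← S.polar_pr ha]; exact hca)
        (by rw [← S.polar_pr hb]; exact hsb) hab y hy
  have hwy : polar Q w y = 0 := by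
    rcases hF (Q w) with hQw | hQw
    swap
    · exact key w hw hQw hcw
    by_cases hw0 : w = 0
    · rw [hw0, polar_zero_left]
    obtain ⟨d, hd, hwd, hQd⟩ := exists_nonsing_perp' S.hQ (S.nds i) (by rw [(BD i).d4]; norm_num) hw hw0 hQw
    have hQd1 := one_of hF hQd
    have hcd : polar Q (pr i c) d = 0 := by
      by_cases h0 : pr i c = 0
      · rw [h0, polar_zero_left]
      · rcases mem_span_two hF ((BD i).mi _ (S.dec.mem i c) w hw hci hQw hcw h0) with h | h
        · exact absurd h hw0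
        · rw [← h]; exact hwd
    have e1 := key d hd hQd1 hcd
    have e2 := key (w + d) ((D i).add_mem hw hd) (by rw [Q_add, hQw, hQd1, hwd]; ring)
      (by rw [polar_add_right, hcw, hcd, add_zero])
    rwa [polar_add_left, e1, add_zero] at e2
  rw [S.polar_pr hw, polar_comm, hwy] at hw2
  exact zero_ne_one hw2

theorem caseOne (S : DK Q D pr M) (hF : ∀ s : F, s = 0 ∨ s = 1) (BD : ∀ i, Bl Q (D i)) (E : Ex Q M D X c)
    {i j l : Fin 3} (hcov : ∀ k, k ≠ i → k = j ∨ k = l) (hj : Q (pr j c) = 0) (hl : Q (pr l c) = 0) : False := by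
  have h1 := cut1 (L1 S hF BD E hj)
  have h2 := cut1 (Y := X ⊓ LinearMap.ker (pr j)) (p := pr l) (z := pr l c)
    (fun y hy => L1 S hF BD E hl y hy.1)
  rw [E.B.d4] at h1
  obtain ⟨K, hK⟩ : ∃ K, K = (X ⊓ LinearMap.ker (pr j)) ⊓ LinearMap.ker (pr l) := ⟨_, rfl⟩
  rw [← hK] at h2
  have h3 : 2 ≤ finrank F K := by omega
  have hk : ∀ y ∈ K, y ∈ D i ∧ Q y = 0 := by
    intro y hy
    rw [hK] at hy
    have hyD : y ∈ D i := by
      apply S.eq_of_pr
      intro k hki
      rcases hcov k hki with rfl | rfl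
      · exact hy.1.2
      · exact hy.2
    refine ⟨hyD, ?_⟩
    by_contra hQy
    exact E.hno i y hyD (one_of hF hQy) hy.1.1
  obtain ⟨u, hu, hu0⟩ := Submodule.exists_mem_ne_zero_of_ne_bot (p := K) (by
    intro h; rw [h, finrank_bot] at h3; omega)
  have h4 : K ≤ F ∙ u := by
    intro v hv
    obtain ⟨huD, hQu⟩ := hk u hu
    obtain ⟨hvD, hQv⟩ := hk v hv
    obtain ⟨-, hQuv⟩ := hk (u + v) (K.add_mem hu hv)
    rw [Q_add, hQu, hQv, zero_add, zero_add] at hQuv
    exact (BD i).mi u huD v hvD hQu hQv hQuv hu0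
  have h5 := Submodule.finrank_mono h4
  rw [finrank_span_singleton hu0] at h5
  omega

theorem caseThree (S : DK Q D pr M) (hF : ∀ s : F, s = 0 ∨ s = 1) (E : Ex Q M D X c)
    (h0 : Q (pr 0 c) = 1) (h1 : Q (pr 1 c) = 1) (h2 : Q (pr 2 c) = 1) : False := by
  have h22 := two_zero hF
  obtain ⟨y, hy, hQy, hcy⟩ := X0 hF S.hQ E.B E.hc E.hQc
  have hcc : ∀ i, Q (pr i c) = 1 → polar Q c (pr i c) = 0 := fun i hi => by
    rw [← S.polar_pr (S.dec.mem i c), polar_self', hi]; linear_combination h22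
  obtain ⟨a1, a2⟩ := F2 S hF E (S.dec.mem 0 c) (S.dec.mem 1 c) h0 h1 (hcc 0 h0) (hcc 1 h1)
    (S.orth 0 1 (by decide) _ (S.dec.mem 0 c) _ (S.dec.mem 1 c)) hy hQy hcy
  obtain ⟨b1, b2⟩ := F2 S hF E (S.dec.mem 0 c) (S.dec.mem 2 c) h0 h2 (hcc 0 h0) (hcc 2 h2)
    (S.orth 0 2 (by decide) _ (S.dec.mem 0 c) _ (S.dec.mem 2 c)) hy hQy hcy
  have hs := P3 S c y
  rw [hcy, ← a1, ← b1] at hs
  have h3 : polar Q (pr 0 c) y = 1 := by
    apply one_of hF
    intro h
    rw [h] at hs
    apply one_ne_zero (α := F)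
    linear_combination -hs
  have h4 := a2 h3
  have h5 : pr 2 c ∈ X := by
    have := X.sub_mem E.hc h4
    have e : c - (pr 0 c + pr 1 c) = pr 2 c := by
      nth_rewrite 1 [← sum3 S c]
      abel
    rwa [e] at this
  exact E.hno 2 _ (S.dec.mem 2 c) h2 h5

theorem no_ext (S : DK Q D pr M) (hF : ∀ s : F, s = 0 ∨ s = 1) (BD : ∀ i, Bl Q (D i)) (E : Ex Q M D X c) : False := by
  have h2 := two_zero hF
  have hs := Q3 S c
  rw [E.hQc] at hs
  rcases hF (Q (pr 0 c)) with a | a <;> rcases hF (Q (pr 1 c)) with b | b <;>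
    rcases hF (Q (pr 2 c)) with d | d
  · rw [a, b, d] at hs; apply one_ne_zero (α := F); linear_combination -hs
  · exact caseOne S hF BD E (i := 2) (j := 0) (l := 1) (by decide) a b
  · exact caseOne S hF BD E (i := 1) (j := 0) (l := 2) (by decide) a d
  · rw [a, b, d] at hs; apply one_ne_zero (α := F); linear_combination h2 - hs
  · exact caseOne S hF BD E (i := 0) (j := 1) (l := 2) (by decide) b d
  · rw [a, b, d] at hs; apply one_ne_zero (α := F); linear_combination h2 - hs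
  · rw [a, b, d] at hs; apply one_ne_zero (α := F); linear_combination h2 - hs
  · exact caseThree S hF E a b d

theorem BDof (S : DK Q D pr M) (hd : ∀ i, finrank F (D i) = 4) (mi : Mi Q D) (i : Fin 3) : Bl Q (D i) :=
  ⟨S.nds i, hd i, mi i⟩

theorem perm_of (S : DK Q D pr M) (hF : ∀ s : F, s = 0 ∨ s = 1) (hd : ∀ i, finrank F (D i) = 4) (mi : Mi Q D)
    (hcl : ∀ i, ∀ a ∈ D i, Q a = 1 → ∀ y, Q y = 1 → Re Q M y a → ∃ l, y ∈ D l) {m : V ≃ₗ[F] V} (hm : m ∈ M) :
    ∃ σ : Equiv.Perm (Fin 3), Pm D m σ := by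
  have T := S.conj hm
  have hd' : ∀ i, finrank F ((D i).map (m : V →ₗ[F] V)) = 4 := fun i => by rw [LinearEquiv.finrank_map_eq]; exact hd i
  have mi' : Mi Q (fun i => (D i).map (m : V →ₗ[F] V)) := by
    rintro i _ ⟨u, hu, rfl⟩ _ ⟨v, hv, rfl⟩ h1 h2 h3 h0
    simp only [LinearEquiv.coe_coe] at h1 h2 h3 h0 ⊢
    rw [S.hMO hm] at h1 h2
    rw [O_polar (S.hMO hm)] at h3
    obtain ⟨s, hs⟩ := Submodule.mem_span_singleton.1 (mi i u hu v hv h1 h2 h3 (fun h => h0 (by rw [h, map_zero])))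
    rw [Submodule.mem_span_singleton]
    exact ⟨s, by rw [← hs, LinearEquiv.map_smul]⟩
  have BD := BDof S hd mi
  have BT := BDof T hd' mi'
  have hT : ∀ j, ∃ i, (D j).map (m : V →ₗ[F] V) = D i := by
    intro j
    have h1 : ∀ c ∈ (D j).map (m : V →ₗ[F] V), Q c = 1 → ∃ l, c ∈ D l := by
      intro c hc hQc
      by_contra hcon
      push Not at hcon
      refine no_ext S hF BD (X := (D j).map (m : V →ₗ[F] V)) (c := c) ⟨BT j, hc, hQc, ?_, ?_⟩
      · intro i b hb hQb hbX
        obtain ⟨l, hl⟩ := hcl i b hb hQb c hQc (pair T (i := j) (j := j) hc hbX hQc hQb)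
        exact hcon l hl
      · intro g hg hgc y hy hQy hcy
        have h3 : Re Q M y c := pair T (i := j) (j := j) hy hc hQy hQc
        have h4 := h3.conj S.hMO hg
        rw [hgc] at h4
        obtain ⟨x, hx, hxc⟩ := hc
        have hxc' : m x = c := hxc
        have h5 := h4.conj S.hMO (M.inv_mem hm)
        have h6 : (m⁻¹ : V ≃ₗ[F] V) c = x := by
          rw [← hxc', ← LinearEquiv.mul_apply, inv_mul_cancel]; rfl
        rw [h6] at h5
        have hQx : Q x = 1 := by rw [← S.hMO hm, hxc']; exact hQc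
        have hQgy : Q ((m⁻¹ : V ≃ₗ[F] V) (g y)) = 1 := by
          rw [S.hMO (M.inv_mem hm), S.hMO hg]; exact hQy
        obtain ⟨l, hl⟩ := hcl j x hx hQx _ hQgy h5
        have h7 : g y ∈ (D l).map (m : V →ₗ[F] V) := by
          refine ⟨_, hl, ?_⟩
          show m ((m⁻¹ : V ≃ₗ[F] V) (g y)) = g y
          rw [← LinearEquiv.mul_apply, mul_inv_cancel]; rfl
        by_cases hlj : l = j
        · rw [hlj] at h7; exact h7
        · exfalso
          have h8 : polar Q c (g y) = 1 := by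
            rw [← hcy, ← O_polar (S.hMO hg) c y, hgc]
          have h9 := T.orth j l (Ne.symm hlj) c ⟨x, hx, hxc⟩ (g y) h7
          rw [h8] at h9
          exact one_ne_zero h9
    obtain ⟨c, hc, hQc⟩ := exists_nonsing (BT j).nd (by rw [(BT j).d4]; norm_num)
    have hQc1 := one_of hF hQc
    obtain ⟨i, hi⟩ := h1 c hc hQc1
    refine ⟨i, Submodule.eq_of_le_of_finrank_eq ?_ (by rw [(BT j).d4, (BD i).d4])⟩
    have step : ∀ b ∈ D i, ∀ b' ∈ (D j).map (m : V →ₗ[F] V), Q b' = 1 → polar Q b b' = 1 → b' ∈ D i := by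
      intro b hb b' hb' hQb' hbb
      obtain ⟨l, hl⟩ := h1 b' hb' hQb'
      by_cases hil : i = l
      · rw [hil]; exact hl
      · rw [S.orth i l hil b hb b' hl] at hbb
        exact absurd hbb zero_ne_one
    apply T.nonsing_span hd'
    intro b hb hQb
    have hQb1 := one_of hF hQb
    by_cases hcb : polar Q c b = 1
    · exact step c hi b hb hQb1 hcb
    by_cases hbc : b = c
    · rw [hbc]; exact hi
    obtain ⟨x, hx, hQx, hxb, hxc⟩ := X1 hF S.hQ (BT j) hb hc hQb1 hQc1
      (by rw [polar_comm]; exact (hF _).resolve_right hcb) hbc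
    exact step x (step c hi x hx hQx (by rw [polar_comm]; exact hxc)) b hb hQb1 hxb
  choose f hf using hT
  have hinj : Function.Injective f := by
    intro j k hjk
    by_contra hne
    have h1 : (D j).map (m : V →ₗ[F] V) = (D k).map (m : V →ₗ[F] V) := by rw [hf, hf, hjk]
    have h2 : D j = D k := Submodule.map_injective_of_injective m.injective h1
    obtain ⟨a, ha, hQa⟩ := exists_nonsing (BD j).nd (by rw [(BD j).d4]; norm_num)
    have h3 : pr k a = 0 := S.pr_ne hne ha
    have h4 : pr k a = a := S.pr_self (h2 ▸ ha)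
    rw [h4] at h3
    rw [h3, QuadraticMap.map_zero] at hQa
    exact hQa rfl
  exact ⟨Equiv.ofBijective f (Finite.injective_iff_bijective.1 hinj), fun i => hf i⟩

end three

section gam

variable [Finite F] {D : Fin 3 → Submodule F V} {pr : Fin 3 → V →ₗ[F] V}

/-- nonsingular vectors congruent to those in the blocks -/
def Ga (Q : QuadraticForm F V) (M : Subgroup (V ≃ₗ[F] V)) (D : Fin 3 → Submodule F V) (v : V) : Prop :=
  Q v = 1 ∧ ∀ i, ∀ a ∈ D i, Q a = 1 → Re Q M v a

/-- everything needed -/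
structure St (Q : QuadraticForm F V) (D : Fin 3 → Submodule F V) (pr : Fin 3 → V →ₗ[F] V)
    (M : Subgroup (V ≃ₗ[F] V)) : Prop where
  S : DK Q D pr M
  hF : ∀ s : F, s = 0 ∨ s = 1
  BD : ∀ i, Bl Q (D i)

namespace St

variable (T : St Q D pr M)
include T

theorem h2 : (2 : F) = 0 := two_zero T.hF

theorem ga_of {i : Fin 3} {a : V} (ha : a ∈ D i) (hQa : Q a = 1) : Ga Q M D a :=
  ⟨hQa, fun _ _ hb hQb => pair T.S ha hb hQa hQb⟩

theorem ga_one {i : Fin 3} {a c : V} (ha : a ∈ D i) (hQa : Q a = 1) (hQc : Q c = 1) (h : Re Q M c a) : Ga Q M D c :=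
  ⟨hQc, fun _ _ hb hQb => h.trans (pair T.S ha hb hQa hQb)⟩

theorem ga_add {c d : V} (hc : Ga Q M D c) (hd : Ga Q M D d) (hcd : polar Q c d = 1) : Ga Q M D (c + d) := by
  refine ⟨?_, fun i a ha hQa => Re.add T.h2 hc.1 hcd (hc.2 i a ha hQa) (hd.2 i a ha hQa)⟩
  rw [Q_add, hc.1, hd.1, hcd]; linear_combination T.h2

theorem ga_conj {g : V ≃ₗ[F] V} (hg : g ∈ M) {σ : Equiv.Perm (Fin 3)} (hσ : Pm D g σ) {c : V} (hc : Ga Q M D c) :
    Ga Q M D (g c) := by
  obtain ⟨a, ha, hQa⟩ := exists_nonsing (T.BD 0).nd (by rw [(T.BD 0).d4]; norm_num)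
  have hQa1 := one_of T.hF hQa
  refine T.ga_one (i := σ 0) (a := g a) (by rw [← hσ]; exact ⟨a, ha, rfl⟩) ?_ ?_
    ((hc.2 0 a ha hQa1).conj T.S.hMO hg)
  · rw [T.S.hMO hg]; exact hQa1
  · rw [T.S.hMO hg]; exact hc.1

theorem move1 {i : Fin 3} {u w r : V} (hu : u ∈ D i) (hw : w ∈ D i) (hQ : Q u = Q w) (huw : polar Q u w = 1)
    (hr : ∀ x ∈ D i, polar Q r x = 0) (h : Ga Q M D (u + r)) : Ga Q M D (w + r) := by
  have h2 := T.h2
  have hQa : Q (u + w) = 1 := by rw [Q_add, ← hQ, huw]; linear_combination Q u * h2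
  have h1 := T.ga_add h (T.ga_of ((D i).add_mem hu hw) hQa) (by
    rw [polar_add_left, polar_add_right, polar_self', huw, hr _ ((D i).add_mem hu hw)]
    linear_combination Q u * h2)
  have e : u + r + (u + w) = w + r := by
    have : u + r + (u + w) = w + r + (u + u) := by abel
    rw [this, add_self h2, add_zero]
  rwa [e] at h1

theorem move {i : Fin 3} {u w r : V} (hu : u ∈ D i) (hw : w ∈ D i) (hQ : Q u = Q w) (hu0 : u ≠ 0) (hw0 : w ≠ 0)
    (hr : ∀ x ∈ D i, polar Q r x = 0) (h : Ga Q M D (u + r)) : Ga Q M D (w + r) := by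
  rcases T.hF (polar Q u w) with huw | huw
  swap
  · exact T.move1 hu hw hQ huw hr h
  by_cases hne : u = w
  · rw [← hne]; exact h
  rcases T.hF (Q u) with hQu | hQu
  · exfalso
    rcases mem_span_two T.hF ((T.BD i).mi u hu w hw hQu (by rw [← hQ]; exact hQu) huw hu0) with h1 | h1
    · exact hw0 h1
    · exact hne h1.symm
  · obtain ⟨x, hx, hQx, hxu, hxw⟩ := X1 T.hF T.S.hQ (T.BD i) hu hw hQu (by rw [← hQ]; exact hQu) huw hne
    exact T.move1 hx hw (by rw [hQx, ← hQ, hQu]) hxw hr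
      (T.move1 hu hx (by rw [hQx, hQu]) (by rw [polar_comm]; exact hxu) hr h)

/-- type (nonsingular, singular) -/
def ns0 (Q : QuadraticForm F V) (M : Subgroup (V ≃ₗ[F] V)) (D : Fin 3 → Submodule F V) (i j : Fin 3) : Prop :=
  ∀ n ∈ D i, ∀ s ∈ D j, Q n = 1 → s ≠ 0 → Q s = 0 → Ga Q M D (n + s)

/-- type (nonsingular, singular, singular) -/
def nss (Q : QuadraticForm F V) (M : Subgroup (V ≃ₗ[F] V)) (D : Fin 3 → Submodule F V) (i j l : Fin 3) : Prop :=
  ∀ n ∈ D i, ∀ s ∈ D j, ∀ t ∈ D l, Q n = 1 → s ≠ 0 → Q s = 0 → t ≠ 0 → Q t = 0 → Ga Q M D (n + s + t)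

/-- type (nonsingular, nonsingular, nonsingular) -/
def nnn (Q : QuadraticForm F V) (M : Subgroup (V ≃ₗ[F] V)) (D : Fin 3 → Submodule F V) (i j l : Fin 3) : Prop :=
  ∀ x ∈ D i, ∀ y ∈ D j, ∀ z ∈ D l, Q x = 1 → Q y = 1 → Q z = 1 → Ga Q M D (x + y + z)

omit T in
theorem ne0 {v : V} (h : Q v = 1) : v ≠ 0 := by
  rintro rfl; rw [QuadraticMap.map_zero] at h; exact zero_ne_one h

theorem ns0_of {i j : Fin 3} (hij : i ≠ j) {n s : V} (hn : n ∈ D i) (hs : s ∈ D j) (hQn : Q n = 1) (hs0 : s ≠ 0)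
    (hQs : Q s = 0) (h : Ga Q M D (n + s)) : ns0 Q M D i j := by
  intro n' hn' s' hs' hQn' hs'0 hQs'
  have h1 := T.move hn hn' (by rw [hQn, hQn']) (ne0 hQn) (ne0 hQn') (r := s)
    (fun x hx => T.S.orth j i hij.symm s hs x hx) h
  rw [add_comm] at h1
  have h3 := T.move hs hs' (by rw [hQs, hQs']) hs0 hs'0 (r := n') (fun x hx => T.S.orth i j hij n' hn' x hx) h1
  rw [add_comm] at h3
  exact h3

theorem nss_of {i j l : Fin 3} (hij : i ≠ j) (hil : i ≠ l) (hjl : j ≠ l) {n s t : V} (hn : n ∈ D i) (hs : s ∈ D j)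
    (ht : t ∈ D l) (hQn : Q n = 1) (hs0 : s ≠ 0) (hQs : Q s = 0) (ht0 : t ≠ 0) (hQt : Q t = 0)
    (h : Ga Q M D (n + s + t)) : nss Q M D i j l := by
  intro n' hn' s' hs' t' ht' hQn' hs'0 hQs' ht'0 hQt'
  have h1 := T.move hn hn' (by rw [hQn, hQn']) (ne0 hQn) (ne0 hQn') (r := s + t)
    (fun x hx => by rw [polar_add_left, T.S.orth j i hij.symm s hs x hx, T.S.orth l i hil.symm t ht x hx, add_zero])
    (by rw [← add_assoc]; exact h)
  have h3 := T.move hs hs' (by rw [hQs, hQs']) hs0 hs'0 (r := n' + t)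
    (fun x hx => by rw [polar_add_left, T.S.orth i j hij n' hn' x hx, T.S.orth l j hjl.symm t ht x hx, add_zero])
    (by convert h1 using 1; abel)
  have h4 := T.move ht ht' (by rw [hQt, hQt']) ht0 ht'0 (r := n' + s')
    (fun x hx => by rw [polar_add_left, T.S.orth i l hil n' hn' x hx, T.S.orth j l hjl s' hs' x hx, add_zero])
    (by convert h3 using 1; abel)
  convert h4 using 1
  abel

theorem nnn_of {i j l : Fin 3} (hij : i ≠ j) (hil : i ≠ l) (hjl : j ≠ l) {n s t : V} (hn : n ∈ D i) (hs : s ∈ D j)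
    (ht : t ∈ D l) (hQn : Q n = 1) (hQs : Q s = 1) (hQt : Q t = 1)
    (h : Ga Q M D (n + s + t)) : nnn Q M D i j l := by
  intro n' hn' s' hs' t' ht' hQn' hQs' hQt'
  have h1 := T.move hn hn' (by rw [hQn, hQn']) (ne0 hQn) (ne0 hQn') (r := s + t)
    (fun x hx => by rw [polar_add_left, T.S.orth j i hij.symm s hs x hx, T.S.orth l i hil.symm t ht x hx, add_zero])
    (by rw [← add_assoc]; exact h)
  have h3 := T.move hs hs' (by rw [hQs, hQs']) (ne0 hQs) (ne0 hQs') (r := n' + t)
    (fun x hx => by rw [polar_add_left, T.S.orth i j hij n' hn' x hx, T.S.orth l j hjl.symm t ht x hx, add_zero])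
    (by convert h1 using 1; abel)
  have h4 := T.move ht ht' (by rw [hQt, hQt']) (ne0 hQt) (ne0 hQt') (r := n' + s')
    (fun x hx => by rw [polar_add_left, T.S.orth i l hil n' hn' x hx, T.S.orth j l hjl s' hs' x hx, add_zero])
    (by convert h3 using 1; abel)
  convert h4 using 1
  abel

/-- a hyperbolic pair and an orthogonal nonsingular vector -/
theorem hyp (i : Fin 3) : ∃ e ∈ D i, ∃ f ∈ D i, ∃ w ∈ D i, Q e = 0 ∧ Q f = 0 ∧ polar Q e f = 1 ∧ Q w = 1 ∧
    polar Q e w = 0 ∧ polar Q f w = 0 ∧ e ≠ 0 ∧ f ≠ 0 := by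
  obtain ⟨e, he, f, hf, hQe, hQf, hef⟩ := exists_pair_in T.S.hQ (T.BD i).nd (by rw [(T.BD i).d4]; norm_num)
  have h1 := finrank_cut T.S.hQ (D i) e f
  rw [(T.BD i).d4] at h1
  obtain ⟨w, hw, hQw⟩ := exists_nonsing (nds_cut T.S.hQ (T.BD i).nd he hf hQe hQf hef) (by omega)
  obtain ⟨hwD, hew, hfw⟩ := mem_cut.1 hw
  refine ⟨e, he, f, hf, w, hwD, hQe, hQf, hef, one_of T.hF hQw, hew, hfw, ?_, ?_⟩
  · rintro rfl; rw [polar_zero_left] at hef; exact zero_ne_one hef
  · rintro rfl; rw [polar_zero_right] at hef; exact zero_ne_one hef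

/-- two orthogonal distinct nonsingular vectors, with singular nonzero sum -/
theorem two_n (i : Fin 3) : ∃ n ∈ D i, ∃ n' ∈ D i, Q n = 1 ∧ Q n' = 1 ∧ polar Q n n' = 0 ∧ Q (n + n') = 0 ∧
    n + n' ≠ 0 := by
  obtain ⟨e, he, f, hf, w, hw, hQe, hQf, hef, hQw, hew, hfw, he0, hf0⟩ := T.hyp i
  have hQn : Q (e + f) = 1 := by rw [Q_add, hQe, hQf, hef]; ring
  have hnw : polar Q (e + f) w = 0 := by rw [polar_add_left, hew, hfw, add_zero]
  refine ⟨e + f, (D i).add_mem he hf, w, hw, hQn, hQw, hnw, ?_, ?_⟩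
  · rw [Q_add, hQn, hQw, hnw]; linear_combination T.h2
  · intro h
    have h1 : polar Q e (e + f + w) = 0 := by rw [h, polar_zero_right]
    rw [polar_add_right, polar_add_right, polar_self', hQe, hef, hew] at h1
    apply one_ne_zero (α := F)
    linear_combination h1

theorem A1 {i j l : Fin 3} (hij : i ≠ j) (hil : i ≠ l) (hjl : j ≠ l) (h : nss Q M D i j l) : ns0 Q M D l i := by
  obtain ⟨n, hn, n', hn', hQn, hQn', hnn, hQs, hs0⟩ := T.two_n i
  obtain ⟨s, hs, -, -, -, -, hQs', -, -, -, -, -, hs0', -⟩ := T.hyp j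
  obtain ⟨t, ht, t', ht', -, -, hQt, hQt', htt, -, -, -, ht0, ht'0⟩ := T.hyp l
  have h1 := T.ga_add (h n hn s hs t ht hQn hs0' hQs' ht0 hQt) (h n' hn' s hs t' ht' hQn' hs0' hQs' ht'0 hQt') (by
    simp only [polar_add_left, polar_add_right, hnn, htt, polar_self', hQs', T.S.orth i j hij n hn s hs,
      T.S.orth i l hil n hn t' ht', T.S.orth j i hij.symm s hs n' hn', T.S.orth j l hjl s hs t' ht',
      T.S.orth l i hil.symm t ht n' hn', T.S.orth l j hjl.symm t ht s hs]
    ring)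
  refine T.ns0_of hil.symm ((D l).add_mem ht ht') ((D i).add_mem hn hn') (by rw [Q_add, hQt, hQt', htt]; ring) hs0 hQs ?_
  convert h1 using 1
  have : n + s + t + (n' + s + t') = t + t' + (n + n') + (s + s) := by abel
  rw [this, add_self T.h2, add_zero]

theorem A2 {i j l : Fin 3} (hij : i ≠ j) (hil : i ≠ l) (hjl : j ≠ l) (h : nnn Q M D i j l) : ns0 Q M D i l := by
  obtain ⟨z, hz, z', hz', hQz, hQz', hzz, hQs, hs0⟩ := T.two_n l
  obtain ⟨y, hy, -, -, hQy, -⟩ := T.two_n j
  obtain ⟨x, hx, -, -, hQx, -⟩ := T.two_n i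
  obtain ⟨x', hx', hQx', hxx⟩ := X0 T.hF T.S.hQ (T.BD i) hx hQx
  have h1 := T.ga_add (h x hx y hy z hz hQx hQy hQz) (h x' hx' y hy z' hz' hQx' hQy hQz') (by
    simp only [polar_add_left, polar_add_right, hxx, hzz, polar_self', hQy, T.S.orth i j hij x hx y hy,
      T.S.orth i l hil x hx z' hz', T.S.orth j i hij.symm y hy x' hx', T.S.orth j l hjl y hy z' hz',
      T.S.orth l i hil.symm z hz x' hx', T.S.orth l j hjl.symm z hz y hy]
    linear_combination T.h2)
  refine T.ns0_of hil ((D i).add_mem hx hx') ((D l).add_mem hz hz')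
    (by rw [Q_add, hQx, hQx', hxx]; linear_combination T.h2) hs0 hQs ?_
  convert h1 using 1
  have : x + y + z + (x' + y + z') = x + x' + (z + z') + (y + y) := by abel
  rw [this, add_self T.h2, add_zero]

theorem A3 {i j : Fin 3} (hij : i ≠ j) (h : ns0 Q M D i j) : ns0 Q M D j i := by
  obtain ⟨n, hn, n', hn', hQn, hQn', hnn, hQs, hs0⟩ := T.two_n i
  obtain ⟨t, ht, t', ht', -, -, hQt, hQt', htt, -, -, -, ht0, ht'0⟩ := T.hyp j
  have h1 := T.ga_add (h n hn t ht hQn ht0 hQt) (h n' hn' t' ht' hQn' ht'0 hQt') (by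
    simp only [polar_add_left, polar_add_right, hnn, htt, T.S.orth i j hij n hn t' ht',
      T.S.orth j i hij.symm t ht n' hn']
    ring)
  refine T.ns0_of hij.symm ((D j).add_mem ht ht') ((D i).add_mem hn hn') (by rw [Q_add, hQt, hQt', htt]; ring) hs0 hQs ?_
  convert h1 using 1
  abel

theorem A4 {g : V ≃ₗ[F] V} (hg : g ∈ M) {σ : Equiv.Perm (Fin 3)} (hσ : Pm D g σ) {i j : Fin 3} (hij : i ≠ j)
    (h : ns0 Q M D i j) : ns0 Q M D (σ i) (σ j) := by
  obtain ⟨n, hn, -, -, hQn, -⟩ := T.two_n i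
  obtain ⟨s, hs, -, -, -, -, hQs, -, -, -, -, -, hs0, -⟩ := T.hyp j
  have h1 := T.ga_conj hg hσ (h n hn s hs hQn hs0 hQs)
  rw [map_add] at h1
  refine T.ns0_of (fun h => hij (σ.injective h)) (by rw [← hσ]; exact ⟨n, hn, rfl⟩)
    (by rw [← hσ]; exact ⟨s, hs, rfl⟩) ?_ ?_ ?_ h1
  · rw [T.S.hMO hg]; exact hQn
  · intro h0; exact hs0 ((LinearEquiv.map_eq_zero_iff g).1 h0)
  · rw [T.S.hMO hg]; exact hQs

theorem A5 {i j l : Fin 3} (hij : i ≠ j) (hil : i ≠ l) (hjl : j ≠ l) (h : ns0 Q M D i j) (h' : ns0 Q M D i l) :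
    nss Q M D i j l := by
  obtain ⟨n, hn, -, -, hQn, -⟩ := T.two_n i
  obtain ⟨n', hn', hQn', hnn⟩ := X0 T.hF T.S.hQ (T.BD i) hn hQn
  obtain ⟨s, hs, -, -, -, -, hQs, -, -, -, -, -, hs0, -⟩ := T.hyp j
  obtain ⟨t, ht, -, -, -, -, hQt, -, -, -, -, -, ht0, -⟩ := T.hyp l
  have h1 := T.ga_add (h n hn s hs hQn hs0 hQs) (h' n' hn' t ht hQn' ht0 hQt) (by
    simp only [polar_add_left, polar_add_right, hnn, T.S.orth i l hil n hn t ht,
      T.S.orth j i hij.symm s hs n' hn', T.S.orth j l hjl s hs t ht]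
    ring)
  refine T.nss_of hij hil hjl ((D i).add_mem hn hn') hs ht (by rw [Q_add, hQn, hQn', hnn]; linear_combination T.h2)
    hs0 hQs ht0 hQt ?_
  convert h1 using 1
  abel

theorem A6 {i j l : Fin 3} (hij : i ≠ j) (hil : i ≠ l) (hjl : j ≠ l) (h : nss Q M D i j l) (h' : ns0 Q M D j l) :
    nnn Q M D i j l := by
  obtain ⟨n, hn, -, -, hQn, -⟩ := T.two_n i
  obtain ⟨s, hs, -, -, m, hm, hQs, -, -, hQm, hsm, -, hs0, -⟩ := T.hyp j
  obtain ⟨t, ht, t', ht', -, -, hQt, hQt', htt, -, -, -, ht0, ht'0⟩ := T.hyp l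
  have h1 := T.ga_add (h n hn s hs t ht hQn hs0 hQs ht0 hQt) (h' m hm t' ht' hQm ht'0 hQt') (by
    simp only [polar_add_left, polar_add_right, hsm, htt, T.S.orth i j hij n hn m hm,
      T.S.orth i l hil n hn t' ht', T.S.orth j l hjl s hs t' ht', T.S.orth l j hjl.symm t ht m hm]
    ring)
  refine T.nnn_of hij hil hjl hn ((D j).add_mem hs hm) ((D l).add_mem ht ht') hQn
    (by rw [Q_add, hQs, hQm, hsm]; ring) (by rw [Q_add, hQt, hQt', htt]; ring) ?_
  convert h1 using 1
  abel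

theorem all0 (h : ns0 Q M D 0 1) : ∀ i j, i ≠ j → ns0 Q M D i j := by
  obtain ⟨g, hg, -, σ, hσ, h0, h1, h2, -⟩ := T.S.exists_three (i := 0) (j := 1) (l := 2) (by decide) (by decide) (by decide)
  have a20 : ns0 Q M D 2 0 := by
    have := T.A4 hg hσ (by decide) h
    rwa [h0, h1] at this
  have a12 : ns0 Q M D 1 2 := by
    have := T.A4 hg hσ (by decide) a20
    rwa [h0, h2] at this
  intro i j hij
  fin_cases i <;> fin_cases j
  · exact absurd rfl hij
  · exact h
  · exact T.A3 (by decide) a20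
  · exact T.A3 (by decide) h
  · exact absurd rfl hij
  · exact a12
  · exact a20
  · exact T.A3 (by decide) a12
  · exact absurd rfl hij

theorem all1 {i j : Fin 3} (hij : i ≠ j) (h : ns0 Q M D i j) : ∀ i j, i ≠ j → ns0 Q M D i j := by
  obtain ⟨g, hg, -, σ, hσ, h0, h1, h2, -⟩ := T.S.exists_three (i := 0) (j := 1) (l := 2) (by decide) (by decide) (by decide)
  have b12 : ns0 Q M D 1 2 → ns0 Q M D 0 1 := fun h => by
    have := T.A4 hg hσ (by decide) h
    rwa [h1, h2] at this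
  have b20 : ns0 Q M D 2 0 → ns0 Q M D 0 1 := fun h => by
    have := T.A4 hg hσ (by decide) h
    rw [h0, h2] at this
    exact b12 this
  apply T.all0
  fin_cases i <;> fin_cases j
  · exact absurd rfl hij
  · exact h
  · exact b20 (T.A3 (by decide) h)
  · exact T.A3 (by decide) h
  · exact absurd rfl hij
  · exact b12 h
  · exact b20 h
  · exact b12 (T.A3 (by decide) h)
  · exact absurd rfl hij

/-- one nonsingular component -/
theorem one_type {i j l : Fin 3} (hij : i ≠ j) (hil : i ≠ l) (hjl : j ≠ l) (hA : ∀ i j, i ≠ j → ns0 Q M D i j) {d : V}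
    (hs : d = pr i d + pr j d + pr l d) (hi : Q (pr i d) = 1) (hj : Q (pr j d) = 0) (hl : Q (pr l d) = 0) :
    Ga Q M D d := by
  by_cases hj0 : pr j d = 0
  · by_cases hl0 : pr l d = 0
    · rw [hs, hj0, hl0, add_zero, add_zero]
      exact T.ga_of (T.S.dec.mem i d) hi
    · rw [hs, hj0, add_zero]
      exact hA i l hil _ (T.S.dec.mem i d) _ (T.S.dec.mem l d) hi hl0 hl
  · by_cases hl0 : pr l d = 0
    · rw [hs, hl0, add_zero]
      exact hA i j hij _ (T.S.dec.mem i d) _ (T.S.dec.mem j d) hi hj0 hj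
    · rw [hs]
      exact T.A5 hij hil hjl (hA i j hij) (hA i l hil) _ (T.S.dec.mem i d) _ (T.S.dec.mem j d) _ (T.S.dec.mem l d)
        hi hj0 hj hl0 hl

theorem all_ga (hA : ∀ i j, i ≠ j → ns0 Q M D i j) {d : V} (hQd : Q d = 1) : Ga Q M D d := by
  have h2 := T.h2
  have hs := Q3 T.S d
  have hsum := sum3 T.S d
  rw [hQd] at hs
  rcases T.hF (Q (pr 0 d)) with a | a <;> rcases T.hF (Q (pr 1 d)) with b | b <;>
    rcases T.hF (Q (pr 2 d)) with e | e
  · rw [a, b, e] at hs; exfalso; apply one_ne_zero (α := F); linear_combination -hs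
  · refine T.one_type (i := 2) (j := 0) (l := 1) (by decide) (by decide) (by decide) hA ?_ e a b
    nth_rewrite 1 [← hsum]; abel
  · refine T.one_type (i := 1) (j := 0) (l := 2) (by decide) (by decide) (by decide) hA ?_ b a e
    nth_rewrite 1 [← hsum]; abel
  · rw [a, b, e] at hs; exfalso; apply one_ne_zero (α := F); linear_combination h2 - hs
  · refine T.one_type (i := 0) (j := 1) (l := 2) (by decide) (by decide) (by decide) hA ?_ a b e
    nth_rewrite 1 [← hsum]; abel
  · rw [a, b, e] at hs; exfalso; apply one_ne_zero (α := F); linear_combination h2 - hs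
  · rw [a, b, e] at hs; exfalso; apply one_ne_zero (α := F); linear_combination h2 - hs
  · rw [← hsum]
    exact T.A6 (by decide) (by decide) (by decide)
      (T.A5 (by decide) (by decide) (by decide) (hA 0 1 (by decide)) (hA 0 2 (by decide))) (hA 1 2 (by decide))
      _ (T.S.dec.mem 0 d) _ (T.S.dec.mem 1 d) _ (T.S.dec.mem 2 d) a b e

/-- start -/
theorem start_one {i j l : Fin 3} (hij : i ≠ j) (hil : i ≠ l) (hjl : j ≠ l) {d : V} (hd : Ga Q M D d)
    (hs : d = pr i d + pr j d + pr l d) (hi : Q (pr i d) = 1) (hj : Q (pr j d) = 0) (hl : Q (pr l d) = 0)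
    (hn : d ∉ D i) : ∀ i j, i ≠ j → ns0 Q M D i j := by
  by_cases hj0 : pr j d = 0
  · by_cases hl0 : pr l d = 0
    · exfalso
      apply hn
      rw [hs, hj0, hl0, add_zero, add_zero]
      exact T.S.dec.mem i d
    · refine T.all1 hil (T.ns0_of hil (T.S.dec.mem i d) (T.S.dec.mem l d) hi hl0 hl ?_)
      rw [hj0, add_zero] at hs
      rw [← hs]; exact hd
  · by_cases hl0 : pr l d = 0
    · refine T.all1 hij (T.ns0_of hij (T.S.dec.mem i d) (T.S.dec.mem j d) hi hj0 hj ?_)
      rw [hl0, add_zero] at hs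
      rw [← hs]; exact hd
    · refine T.all1 hil.symm (T.A1 hij hil hjl (T.nss_of hij hil hjl (T.S.dec.mem i d) (T.S.dec.mem j d)
        (T.S.dec.mem l d) hi hj0 hj hl0 hl ?_))
      rw [← hs]; exact hd

theorem start {d : V} (hd : Ga Q M D d) (hn : ∀ i, d ∉ D i) : ∀ i j, i ≠ j → ns0 Q M D i j := by
  have h2 := T.h2
  have hs := Q3 T.S d
  have hsum := sum3 T.S d
  rw [hd.1] at hs
  rcases T.hF (Q (pr 0 d)) with a | a <;> rcases T.hF (Q (pr 1 d)) with b | b <;>
    rcases T.hF (Q (pr 2 d)) with e | e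
  · rw [a, b, e] at hs; exfalso; apply one_ne_zero (α := F); linear_combination -hs
  · refine T.start_one (i := 2) (j := 0) (l := 1) (by decide) (by decide) (by decide) hd ?_ e a b (hn 2)
    nth_rewrite 1 [← hsum]; abel
  · refine T.start_one (i := 1) (j := 0) (l := 2) (by decide) (by decide) (by decide) hd ?_ b a e (hn 1)
    nth_rewrite 1 [← hsum]; abel
  · rw [a, b, e] at hs; exfalso; apply one_ne_zero (α := F); linear_combination h2 - hs
  · refine T.start_one (i := 0) (j := 1) (l := 2) (by decide) (by decide) (by decide) hd ?_ a b e (hn 0)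
    nth_rewrite 1 [← hsum]; abel
  · rw [a, b, e] at hs; exfalso; apply one_ne_zero (α := F); linear_combination h2 - hs
  · rw [a, b, e] at hs; exfalso; apply one_ne_zero (α := F); linear_combination h2 - hs
  · refine T.all1 (i := 0) (j := 2) (by decide) (T.A2 (i := 0) (j := 1) (l := 2) (by decide) (by decide) (by decide)
      (T.nnn_of (by decide) (by decide) (by decide) (T.S.dec.mem 0 d) (T.S.dec.mem 1 d) (T.S.dec.mem 2 d) a b e ?_))
    rw [hsum]; exact hd

end St

/-- even products of reflections -/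
theorem even_prod (h : ∀ c d : V, Q c ≠ 0 → Q d ≠ 0 → refl Q c * refl Q d ∈ M) :
    ∀ (n : ℕ) (l : List V), l.length = 2 * n → (∀ v ∈ l, Q v ≠ 0) → (l.map (refl Q)).prod ∈ M := by
  intro n
  induction n with
  | zero =>
    intro l hl _
    rw [mul_zero, List.length_eq_zero_iff] at hl
    rw [hl, List.map_nil, List.prod_nil]
    exact M.one_mem
  | succ n ih =>
    intro l hl hv
    match l, hl, hv with
    | [], hl, _ => simp at hl
    | [a], hl, _ => simp at hl; omega
    | a :: b :: l', hl, hv =>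
      rw [List.map_cons, List.map_cons, List.prod_cons, List.prod_cons, ← mul_assoc]
      refine M.mul_mem (h a b (hv a (by simp)) (hv b (by simp))) (ih l' ?_ fun v hv' => hv v (by simp [hv']))
      simp only [List.length_cons] at hl
      omega

theorem Om_le_of_pairs (hQ : Nd Q) (hgen : GenHyp Q) [Finite F]
    (h : ∀ c d : V, Q c ≠ 0 → Q d ≠ 0 → refl Q c * refl Q d ∈ M) : Om Q ≤ M := by
  rw [Om, Subgroup.commutator_le]
  intro g hg k hk
  rw [← hQ.R_eq_O hgen] at hg hk
  obtain ⟨vs, hvs, rfl⟩ := exists_list_of_mem_R hg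
  obtain ⟨ws, hws, rfl⟩ := exists_list_of_mem_R hk
  have hinv : ∀ l : List V, ((l.map (refl Q)).prod)⁻¹ = (l.reverse.map (refl Q)).prod := by
    intro l
    rw [List.prod_inv_reverse, List.map_map, ← List.map_reverse]
    congr 1
    apply List.map_congr_left
    intro v _
    exact refl_inv v
  rw [commutatorElement_def, hinv, hinv, ← List.prod_append, ← List.prod_append, ← List.prod_append,
    ← List.map_append, ← List.map_append, ← List.map_append]
  refine even_prod h (vs.length + ws.length) _ ?_ ?_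
  · simp only [List.length_append, List.length_reverse]; omega
  · intro v hv
    simp only [List.mem_append, List.mem_reverse] at hv
    rcases hv with ((hv | hv) | hv) | hv
    · exact hvs v hv
    · exact hws v hv
    · exact hvs v hv
    · exact hws v hv

/-- the main theorem for three spaces of dimension four and minus type over the field with two elements -/
theorem main3 (S : DK Q D pr M) (hF : ∀ s : F, s = 0 ∨ s = 1) (hd : ∀ i, finrank F (D i) = 4) (mi : Mi Q D)
    {m : V ≃ₗ[F] V} (hm : m ∈ M) (hnp : ¬ ∃ σ : Equiv.Perm (Fin 3), Pm D m σ) : Om Q ≤ M := by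
  have T : St Q D pr M := ⟨S, hF, BDof S hd mi⟩
  by_cases hcl : ∀ i, ∀ a ∈ D i, Q a = 1 → ∀ y, Q y = 1 → Re Q M y a → ∃ l, y ∈ D l
  · exact absurd (perm_of S hF hd mi hcl hm) hnp
  push Not at hcl
  obtain ⟨i, a, ha, hQa, y, hQy, hya, hy⟩ := hcl
  have hA := T.start (T.ga_one ha hQa hQy hya) hy
  apply Om_le_of_pairs S.hQ S.gen
  intro c d hQc hQd
  have h1 := T.all_ga hA (one_of hF hQc)
  have h2 := T.all_ga hA (one_of hF hQd)
  exact (h1.2 i a ha hQa).trans (h2.2 i a ha hQa).symm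

end gam

end Min2

section bridge

open Cfsg Cfsg.Geo Cfsg.Agent.Lib.GeoBridge Cfsg.Agent.Lib.OrthBridge Cfsg.Agent.Lib.OrthNdBridge
open Cfsg.Agent.Lib.SLBlockH94 (exists_dec)

variable {F : Type*} [Field F] [Fintype F]

/-- stabilisers of decompositions into three spaces of dimension four and minus type, two elements -/
theorem dk_min_two (hF2 : Fintype.card F = 2) {Q : QuadraticForm F (Fin 12 → F)} (hQ : Nd Q)
    {D : Fin 3 → Submodule F (Fin 12 → F)} (hD : IsOrthogonalMDecomposition ⇑Q 4 D)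
    (hm : ∀ i, ¬ IsPlusTypeOn ⇑Q (D i)) :
    IsMaximalIn (omegaGL ⇑Q) (decompositionStabilizer D ⊓ omegaGL ⇑Q) := by
  have hfr : finrank F (Fin 12 → F) = 12 := by simp
  have hgen : GenHyp Q := Or.inr (Or.inl (by rw [hfr]; omega))
  have hfin := hD.decomp.decomp.finrank_eq
  obtain ⟨pr, hpr⟩ := exists_dec hD.decomp.decomp.indep hD.decomp.decomp.iSup_eq_top
  have horth : ∀ i j, i ≠ j → ∀ x ∈ D i, ∀ y ∈ D j, polar Q x y = 0 := fun i j hij x hx y hy =>
    hD.decomp.orthogonal i j hij x hx y hy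
  have hS : ∀ M : Subgroup ((Fin 12 → F) ≃ₗ[F] (Fin 12 → F)), M ≤ Om Q →
      (∀ g ∈ Om Q, (∃ σ : Equiv.Perm (Fin 3), ∀ i, (D i).map (g : (Fin 12 → F) →ₗ[F] (Fin 12 → F)) = D (σ i)) → g ∈ M) →
      DK Q D pr M := by
    intro M hM hH
    exact ⟨hQ, hgen, by rw [hfr]; omega, hpr, horth, hM.trans Om_le, fun i => by rw [hfin]; norm_num, hD.isometric, hH⟩
  have hF : ∀ s : F, s = 0 ∨ s = 1 := by
    intro s
    by_contra hcon
    push Not at hcon
    classical
    have h3 : ({0, 1, s} : Finset F).card = 3 := by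
      rw [Finset.card_insert_of_notMem, Finset.card_insert_of_notMem, Finset.card_singleton]
      · rw [Finset.mem_singleton]; exact hcon.2.symm
      · simp only [Finset.mem_insert, Finset.mem_singleton, not_or]
        exact ⟨zero_ne_one, hcon.1.symm⟩
    have h4 := Finset.card_le_univ ({0, 1, s} : Finset F)
    omega
  have mi : Mi Q D := by
    intro i u hu v hv hQu hQv huv hu0
    by_contra hvu
    apply hm i
    refine ⟨Submodule.span F {u, v}, ?_, ?_, ?_⟩
    · rw [Submodule.span_le]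
      rintro x (rfl | rfl)
      · exact hu
      · exact hv
    · intro x hx
      obtain ⟨a, b, rfl⟩ := Submodule.mem_span_pair.1 hx
      rw [Q_add, Q_smul, Q_smul, hQu, hQv, polar_smul_left, polar_smul_right, huv]; simp
    · have hli : LinearIndependent F ![u, v] := by
        rw [LinearIndependent.pair_iff' hu0]
        intro a ha
        exact hvu (Submodule.mem_span_singleton.2 ⟨a, ha⟩)
      have h1 := finrank_span_eq_card hli
      rw [Matrix.range_cons, Matrix.range_cons, Matrix.range_empty, Set.union_empty, Set.singleton_union,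
        Fintype.card_fin] at h1
      rw [h1, hfin]
  refine Om_max_of (P := fun g => ∃ σ : Equiv.Perm (Fin 3), ∀ i,
    (D i).map (g : (Fin 12 → F) →ₗ[F] (Fin 12 → F)) = D (σ i))
    (fun g => mem_decompositionStabilizer_iff D g) ?_ ?_
  · have S := hS (Om Q) le_rfl (fun g hg _ => hg)
    obtain ⟨e, he, f, hf, hQe, hQf, hef⟩ := exists_pair_in hQ (S.nds 0) (by rw [hfin]; norm_num)
    obtain ⟨d, hd, hd0⟩ : ∃ d ∈ D 1, d ≠ 0 := by
      apply Submodule.exists_mem_ne_zero_of_ne_bot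
      intro h3
      have := hfin 1
      rw [h3, finrank_bot] at this
      omega
    have hne : (0 : Fin 3) ≠ 1 := by decide
    have hed : polar Q e d = 0 := horth _ _ hne e he d hd
    have hdf : polar Q d f = 0 := horth _ _ hne.symm d hd f hf
    have he0 : e ≠ 0 := by rintro rfl; rw [polar_zero_left] at hef; exact zero_ne_one hef
    refine ⟨sieg hQ hQe hed, hQ.sieg_mem_Om hgen hQe hed, ?_⟩
    rintro ⟨σ, hσ⟩
    have h1 : (sieg hQ hQe hed) e = e := by
      rw [sieg_apply, polar_self', hQe, polar_comm Q d e, hed]; simp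
    have h3 : σ 0 = 0 := by
      by_contra hcon
      apply he0
      have h4 : e ∈ D (σ 0) := by
        rw [← hσ]
        exact ⟨e, he, h1⟩
      rw [← hpr.self _ e h4]
      exact hpr.zero _ _ e hcon he
    have h4 : (sieg hQ hQe hed) f ∈ D 0 := by
      have h5 : (sieg hQ hQe hed) f ∈ D (σ 0) := by
        rw [← hσ]
        exact ⟨f, hf, rfl⟩
      rwa [h3] at h5
    rw [sieg_apply, hef, hdf, one_smul, zero_smul, sub_zero] at h4
    have h5 : d ∈ D 0 := by
      have h6 := Submodule.sub_mem _ h4 hf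
      have h7 := Submodule.add_mem _ h6 (Submodule.smul_mem _ (Q d * 1) he)
      convert h7 using 1
      abel
    apply hd0
    rw [← hpr.self _ d h5]
    exact hpr.zero _ _ d hne hd
  · intro M hM hH ⟨g, hg, hgP⟩
    exact Min2.main3 (hS M hM hH) hF hfin mi hg hgP

end bridge

end Cfsg.Agent.Lib.Dk2H94
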