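import Cfsg.Agent.Lib.RankTwoOrder
import Cfsg.Agent.Lib.CoprimeHyper

/-!
# Dietzmann's lemma with a bound, and class sizes under coprime actions (helper61)
-/

set_option autoImplicit false
set_option linter.unusedSectionVars false

namespace Cfsg.Agent.Lib.DerBddA

open Subgroup Cfsg.Agent.Lib.SubgroupTools Cfsg.Agent.Lib.CoprimeHyper
open scoped commutatorElement Pointwise

universe u v

section Dietz

variable {G : Type u} [Group G]

open Classical in
/-- extract `k` copies of `s` to the front -/
theorem extract {S : Set G} (hconj : ∀ s ∈ S, ∀ g : G, g ∈ S → g⁻¹ * s * g ∈ S) {s : G} (hs : s ∈ S) (k : ℕ) :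
    ∀ L : List G, (∀ x ∈ L, x ∈ S) → k ≤ L.count s →
      ∃ L' : List G, (∀ x ∈ L', x ∈ S) ∧ L'.length + k = L.length ∧ L.prod = s ^ k * L'.prod := by
  induction k with
  | zero =>
    intro L hL _
    exact ⟨L, hL, rfl, by simp⟩
  | succ k ih =>
    intro L hL hk
    have hmem : s ∈ L := by
      rw [← List.count_pos_iff]
      omega
    obtain ⟨L₁, L₂, rfl⟩ := List.append_of_mem hmem
    set f : G → G := fun x => s⁻¹ * x * s with hf
    have hfinj : Function.Injective f := by
      intro a b hab
      simpa [hf] using hab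
    have hfs : f s = s := by simp [hf]
    have hc : (L₁.map f ++ L₂).count s = L₁.count s + L₂.count s := by
      rw [List.count_append]
      congr 1
      conv_lhs => rw [← hfs]
      exact List.count_map_of_injective L₁ f hfinj s
    have hc2 : (L₁ ++ s :: L₂).count s = L₁.count s + L₂.count s + 1 := by
      rw [List.count_append, List.count_cons_self]
      ring
    obtain ⟨L', h1, h2, h3⟩ := ih (L₁.map f ++ L₂) (by
      intro x hx
      rw [List.mem_append, List.mem_map] at hx
      rcases hx with ⟨y, hy, rfl⟩ | hx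
      · exact hconj y (hL y (List.mem_append_left _ hy)) s hs
      · exact hL x (List.mem_append_right _ (List.mem_cons_of_mem _ hx))) (by
      rw [hc]; omega)
    refine ⟨L', h1, ?_, ?_⟩
    · rw [List.length_append, List.length_map] at h2
      rw [List.length_append, List.length_cons]
      omega
    · have hp : (L₁.map f).prod = s⁻¹ * L₁.prod * s := by
        clear h2 h3 hc hc2 hk hL hmem
        induction L₁ with
        | nil => simp
        | cons a t iht =>
          rw [List.map_cons, List.prod_cons, List.prod_cons, iht]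
          simp only [hf]
          group
      have h4 : (L₁ ++ s :: L₂).prod = s * (L₁.map f ++ L₂).prod := by
        rw [List.prod_append, List.prod_cons, List.prod_append, hp]
        group
      rw [h4, h3, pow_succ', mul_assoc]

open Classical in
theorem exists_short {S : Finset G} (hconj : ∀ s ∈ S, ∀ g ∈ S, g⁻¹ * s * g ∈ S) {m : ℕ}
    (hm : ∀ s ∈ S, 0 < orderOf s ∧ orderOf s ≤ m) (n : ℕ) : ∀ L : List G, (∀ x ∈ L, x ∈ S) → L.length = n →
      ∃ L' : List G, (∀ x ∈ L', x ∈ S) ∧ L'.length ≤ S.card * m ∧ L.prod = L'.prod := by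
  induction n using Nat.strong_induction_on with
  | _ n ih =>
    intro L hL hn
    by_cases h : L.length ≤ S.card * m
    · exact ⟨L, hL, h, rfl⟩
    · rw [not_le] at h
      -- some element occurs more than `m` times
      obtain ⟨s, hs, hsm⟩ : ∃ s ∈ S, m < L.count s := by
        by_contra hcon
        push Not at hcon
        have h1 : L.length ≤ S.card * m := by
          have h2 : ∑ x ∈ L.toFinset, L.count x = L.length := List.sum_toFinset_count_eq_length L
          rw [← h2]
          calc ∑ x ∈ L.toFinset, L.count x ≤ ∑ x ∈ S, L.count x := by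
                apply Finset.sum_le_sum_of_subset
                intro x hx
                exact hL x (List.mem_toFinset.mp hx)
            _ ≤ ∑ _x ∈ S, m := Finset.sum_le_sum fun x hx => hcon x hx
            _ = S.card * m := by rw [Finset.sum_const, smul_eq_mul]
        omega
      obtain ⟨h1, h2⟩ := hm s hs
      obtain ⟨L', h3, h4, h5⟩ := extract (S := (S : Set G)) (fun a ha b hb => hconj a ha b hb) hs
        (orderOf s) L hL (by omega)
      rw [pow_orderOf_eq_one, one_mul] at h5
      obtain ⟨L'', h6, h7, h8⟩ := ih L'.length (by omega) L' h3 rfl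
      exact ⟨L'', h6, h7, by rw [h5, h8]⟩

open Classical in
/-- **Dietzmann's lemma** with a bound. -/
theorem card_closure_le {S : Finset G} (hconj : ∀ s ∈ S, ∀ g ∈ S, g⁻¹ * s * g ∈ S)
    (hinv : ∀ s ∈ S, s⁻¹ ∈ S) {m : ℕ} (hm : ∀ s ∈ S, 0 < orderOf s ∧ orderOf s ≤ m) :
    Nat.card ↥(closure (S : Set G)) ≤ (S.card + 1) ^ (S.card * m) := by
  have hsub : ((closure (S : Set G) : Subgroup G) : Set G) ⊆
      (((insert 1 S) ^ (S.card * m) : Finset G) : Set G) := by
    intro w hw
    have hw' : w ∈ Submonoid.closure ((S : Set G) ∪ (S : Set G)⁻¹) := by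
      rw [← Subgroup.closure_toSubmonoid]
      exact hw
    obtain ⟨L, hL, hLw⟩ := Submonoid.exists_list_of_mem_closure hw'
    have hL' : ∀ x ∈ L, x ∈ S := by
      intro x hx
      rcases hL x hx with h | h
      · exact h
      · have := hinv _ (Set.mem_inv.mp h)
        rwa [inv_inv] at this
    obtain ⟨L', h1, h2, h3⟩ := exists_short hconj hm L.length L hL' rfl
    rw [← hLw, h3]
    have h4 : ∀ M : List G, (∀ x ∈ M, x ∈ S) → M.prod ∈ ((insert 1 S) ^ M.length : Finset G) := by
      intro M
      induction M with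
      | nil => intro _; simp
      | cons a t iht =>
        intro hM
        rw [List.prod_cons, List.length_cons, pow_succ']
        exact Finset.mul_mem_mul (Finset.mem_insert_of_mem (hM a List.mem_cons_self))
          (iht fun x hx => hM x (List.mem_cons_of_mem _ hx))
    have h5 := h4 L' h1
    exact Finset.pow_subset_pow_right (Finset.mem_insert_self 1 S) h2 h5
  have h1 : Nat.card ↥(closure (S : Set G)) ≤
      Nat.card ↥(((insert 1 S) ^ (S.card * m) : Finset G) : Set G) :=
    Nat.card_mono (Finset.finite_toSet _) hsub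
  refine h1.trans ?_
  rw [Nat.card_coe_set_eq, Set.ncard_coe_finset]
  refine (Finset.card_pow_le).trans ?_
  exact Nat.pow_le_pow_left (Finset.card_insert_le _ _) _

end Dietz

section Comm

variable {G : Type u} [Group G]

/-- commutators of generators suffice -/
theorem commutator_le_of_gen {X K : Subgroup G} (hKX : X ≤ normalizer (K : Set G))
    {P : Set (Subgroup G)} (hP : ∀ H ∈ P, H ≤ X)
    (hgen : ∀ D : Subgroup G, (∀ H ∈ P, H ≤ D) → X ≤ D)
    (h : ∀ H ∈ P, ∀ H' ∈ P, ∀ x ∈ H, ∀ y ∈ H', ⁅x, y⁆ ∈ K) : ⁅X, X⁆ ≤ K := by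
  have hK : ∀ g ∈ X, ∀ k ∈ K, g * k * g⁻¹ ∈ K := fun g hg k hk =>
    (mem_normalizer_iff.mp (hKX hg) k).mp hk
  have h1 : ∀ H ∈ P, ∀ x ∈ H, ∀ y ∈ X, ⁅x, y⁆ ∈ K := by
    intro H hH x hx y hy
    let D : Subgroup G :=
      { carrier := {y | y ∈ X ∧ ⁅x, y⁆ ∈ K}
        mul_mem' := by
          rintro a b ⟨ha, ha'⟩ ⟨hb, hb'⟩
          refine ⟨mul_mem ha hb, ?_⟩
          have h1 : ⁅x, a * b⁆ = ⁅x, a⁆ * (a * ⁅x, b⁆ * a⁻¹) := by
            rw [commutatorElement_def, commutatorElement_def, commutatorElement_def]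
            group
          rw [h1]
          exact mul_mem ha' (hK a ha _ hb')
        one_mem' := ⟨one_mem _, by rw [commutatorElement_one_right]; exact one_mem _⟩
        inv_mem' := by
          rintro a ⟨ha, ha'⟩
          refine ⟨inv_mem ha, ?_⟩
          have h1 : ⁅x, a⁻¹⁆ = a⁻¹ * ⁅x, a⁆⁻¹ * a⁻¹⁻¹ := by
            rw [commutatorElement_def, commutatorElement_def]
            group
          rw [h1]
          exact hK a⁻¹ (inv_mem ha) _ (inv_mem ha') }
    have hXD : X ≤ D := hgen D fun H' hH' y hy => ⟨hP H' hH' hy, h H hH H' hH' x hx y hy⟩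
    exact (hXD hy).2
  rw [commutator_le]
  intro x hx y hy
  let E : Subgroup G :=
    { carrier := {x | x ∈ X ∧ ⁅x, y⁆ ∈ K}
      mul_mem' := by
        rintro a b ⟨ha, ha'⟩ ⟨hb, hb'⟩
        refine ⟨mul_mem ha hb, ?_⟩
        have h1 : ⁅a * b, y⁆ = (a * ⁅b, y⁆ * a⁻¹) * ⁅a, y⁆ := by
          rw [commutatorElement_def, commutatorElement_def, commutatorElement_def]
          group
        rw [h1]
        exact mul_mem (hK a ha _ hb') ha'
      one_mem' := ⟨one_mem _, by rw [commutatorElement_one_left]; exact one_mem _⟩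
      inv_mem' := by
        rintro a ⟨ha, ha'⟩
        refine ⟨inv_mem ha, ?_⟩
        have h1 : ⁅a⁻¹, y⁆ = a⁻¹ * ⁅a, y⁆⁻¹ * a⁻¹⁻¹ := by
          rw [commutatorElement_def, commutatorElement_def]
          group
        rw [h1]
        exact hK a⁻¹ (inv_mem ha) _ (inv_mem ha') }
  have hXE : X ≤ E := hgen E fun H hH x hx => ⟨hP H hH hx, h1 H hH x hx y hy⟩
  exact (hXE hx).2

variable [Finite G]

/-- the index of a centralizer is at most the order of the derived subgroup -/
theorem card_le_mul_centralizer {H : Subgroup G} {x : G} (hx : x ∈ H) :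
    Nat.card ↥H ≤ Nat.card ↥⁅H, H⁆ * Nat.card ↥(H ⊓ centralizer ({x} : Set G)) := by
  let C : Subgroup H := (centralizer ({x} : Set G)).subgroupOf H
  let f : H ⧸ C → ↥⁅H, H⁆ := Quotient.lift
    (fun h : H => (⟨⁅(h : G), x⁆, commutator_mem_commutator h.2 hx⟩ : ↥⁅H, H⁆)) (by
      intro a b hab
      have h1 : a⁻¹ * b ∈ C := QuotientGroup.leftRel_apply.mp hab
      have h2 : ((a⁻¹ * b : H) : G) * x = x * ((a⁻¹ * b : H) : G) :=
        mem_centralizer_singleton_iff.mp h1
      apply Subtype.ext
      show ⁅(a : G), x⁆ = ⁅(b : G), x⁆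
      rw [commutatorElement_def, commutatorElement_def]
      congr 1
      have h3 : (b : G) * x = a * x * (a : G)⁻¹ * b := by
        have h4 : (a : G)⁻¹ * b * x = x * ((a : G)⁻¹ * b) := h2
        calc (b : G) * x = a * ((a : G)⁻¹ * b * x) := by group
          _ = a * (x * ((a : G)⁻¹ * b)) := by rw [h4]
          _ = a * x * (a : G)⁻¹ * b := by group
      rw [h3]
      group)
  have hf : Function.Injective f := by
    intro a b
    induction a using Quotient.inductionOn with | _ a => ?_
    induction b using Quotient.inductionOn with | _ b => ?_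
    intro hab
    apply Quotient.sound
    apply QuotientGroup.leftRel_apply.mpr
    show ((a⁻¹ * b : H) : G) ∈ centralizer ({x} : Set G)
    rw [mem_centralizer_singleton_iff]
    have h1 : ⁅(a : G), x⁆ = ⁅(b : G), x⁆ := congrArg Subtype.val hab
    rw [commutatorElement_def, commutatorElement_def, mul_left_inj] at h1
    show (a : G)⁻¹ * b * x = x * ((a : G)⁻¹ * b)
    calc (a : G)⁻¹ * b * x = (a : G)⁻¹ * (b * x * (b : G)⁻¹) * b := by group
      _ = (a : G)⁻¹ * (a * x * (a : G)⁻¹) * b := by rw [h1]
      _ = x * ((a : G)⁻¹ * b) := by group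
  have h1 : Nat.card (H ⧸ C) ≤ Nat.card ↥⁅H, H⁆ := Nat.card_le_card_of_injective f hf
  have h2 : Nat.card H = Nat.card (H ⧸ C) * Nat.card C := Subgroup.card_eq_card_quotient_mul_card_subgroup C
  rw [h2]
  apply Nat.mul_le_mul h1
  apply le_of_eq
  show Nat.card ↥((centralizer ({x} : Set G)).subgroupOf H) = _
  rw [card_subgroupOf, inf_comm]

end Comm

end Cfsg.Agent.Lib.DerBddA
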