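import Cfsg.Agent.Lib.DerBddA

/-!
# Coprime action of an elementary abelian group of order `q³`: the order of the derived group (helper61)
-/

set_option autoImplicit false
set_option linter.unusedSectionVars false

namespace Cfsg.Agent.Lib.DerBddB

open Subgroup Cfsg.Agent.Lib.SubgroupTools Cfsg.Agent.Lib.CoprimeHyper Cfsg.Agent.Lib.DerBddA
open scoped commutatorElement Pointwise

universe u v

variable {G : Type u} [Group G] [Finite G] {q : ℕ} [hq : Fact q.Prime] {A X : Subgroup G}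

theorem class_bound (hA : Cfsg.IsElementaryAbelian q A) (hAX : A ≤ normalizer (X : Set G))
    (hX : ¬ q ∣ Nat.card ↥X) {m : ℕ}
    (hm : ∀ a ∈ A, a ≠ 1 → Nat.card ↥⁅X ⊓ centralizer ({a} : Set G), X ⊓ centralizer ({a} : Set G)⁆ ≤ m)
    {B : Subgroup G} (hB : B ≤ A) (hBc : Nat.card ↥B = q ^ 2) {x : G}
    (hx : x ∈ X ⊓ centralizer (B : Set G)) :
    Nat.card ↥X ≤ m ^ (q ^ 2) * Nat.card ↥(X ⊓ centralizer ({x} : Set G)) := by
  classical
  have hBe := elemAb_mono hA hB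
  set D := X ⊓ centralizer ({x} : Set G) with hD
  have hBX : B ≤ normalizer (X : Set G) := hB.trans hAX
  have hBx : ∀ b ∈ B, b * x = x * b := fun b hb => mem_centralizer_iff.mp (mem_inf.mp hx).2 b hb
  have hBD : B ≤ normalizer (D : Set G) := by
    refine (le_inf hBX ?_).trans inf_normalizer_le_normalizer_inf
    refine le_trans ?_ le_normalizer
    intro b hb
    rw [mem_centralizer_singleton_iff]
    exact hBx b hb
  have hDr : ¬ q ∣ Nat.card ↥D := fun h => hX (h.trans (card_dvd_of_le inf_le_left))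
  have h1 := RankTwoOrder.order_formula_log hBe hBc hBX hX
  have h2 := RankTwoOrder.order_formula_log hBe hBc hBD hDr
  let _ : Fintype {b : B // b ≠ 1} := Fintype.ofFinite _
  rw [finsum_eq_sum_of_fintype] at h1 h2
  have hne : ∀ b : {b : B // b ≠ 1}, ((b : B) : G) ≠ 1 := fun b h0 => b.2 (Subtype.ext h0)
  have hm1 : 1 ≤ m := by
    -- `B` is not trivial
    obtain ⟨b, hb⟩ : ∃ b : B, b ≠ 1 := by
      by_contra hcon
      push Not at hcon
      have : Nat.card ↥B = 1 := by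
        rw [Nat.card_eq_one_iff_unique]
        exact ⟨⟨fun a b => by rw [hcon a, hcon b]⟩, ⟨1⟩⟩
      rw [hBc] at this
      have h3 := hq.out.one_lt
      have h4 : 1 < q ^ 2 := Nat.one_lt_pow (by norm_num) h3
      omega
    have := hm b (hB b.2) (fun h => hb (Subtype.ext h))
    exact le_trans Nat.card_pos this
  have hbd : ∀ b : {b : B // b ≠ 1},
      Real.log (Nat.card ↥(X ⊓ centralizer ({((b : B) : G)} : Set G))) ≤
        Real.log m + Real.log (Nat.card ↥(D ⊓ centralizer ({((b : B) : G)} : Set G))) := by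
    intro b
    have h3 := card_le_mul_centralizer (H := X ⊓ centralizer ({((b : B) : G)} : Set G)) (x := x)
      (mem_inf.mpr ⟨(mem_inf.mp hx).1, by
        rw [mem_centralizer_singleton_iff]
        exact (hBx _ (b : B).2).symm⟩)
    have h4 : X ⊓ centralizer ({((b : B) : G)} : Set G) ⊓ centralizer ({x} : Set G) =
        D ⊓ centralizer ({((b : B) : G)} : Set G) := by
      rw [hD, inf_assoc, inf_comm (centralizer ({((b : B) : G)} : Set G)), ← inf_assoc]
    rw [h4] at h3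
    have h5 := h3.trans (Nat.mul_le_mul_right _ (hm _ (hB (b : B).2) (hne b)))
    rw [← Real.log_mul (by positivity) (by exact_mod_cast Nat.card_pos.ne')]
    apply Real.log_le_log (by exact_mod_cast Nat.card_pos)
    exact_mod_cast h5
  have hsum := Finset.sum_le_sum (s := Finset.univ) fun b _ => hbd b
  rw [Finset.sum_add_distrib, Finset.sum_const, h1, h2, Finset.card_univ] at hsum
  have hcard : Fintype.card {b : B // b ≠ 1} = q ^ 2 - 1 := by
    let _ : Fintype B := Fintype.ofFinite _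
    rw [Fintype.card_subtype_compl, Fintype.card_subtype_eq, ← Nat.card_eq_fintype_card, hBc]
  rw [hcard, nsmul_eq_mul, Nat.cast_sub (Nat.one_le_pow _ _ hq.out.pos)] at hsum
  have hq2 : (2 : ℝ) ≤ q := by exact_mod_cast hq.out.two_le
  have hDX : Nat.card ↥D ≤ Nat.card ↥X := Subgroup.card_le_of_le inf_le_left
  have hlogDX : Real.log (Nat.card ↥D) ≤ Real.log (Nat.card ↥X) :=
    Real.log_le_log (by exact_mod_cast Nat.card_pos) (by exact_mod_cast hDX)
  have hDXB : Real.log (Nat.card ↥(D ⊓ centralizer (B : Set G))) ≤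
      Real.log (Nat.card ↥(X ⊓ centralizer (B : Set G))) :=
    Real.log_le_log (by exact_mod_cast Nat.card_pos)
      (by exact_mod_cast Subgroup.card_le_of_le (inf_le_inf_right _ inf_le_left))
  have hlm : 0 ≤ Real.log m := Real.log_nonneg (by exact_mod_cast hm1)
  have key : Real.log (Nat.card ↥X) ≤ (q : ℝ) ^ 2 * Real.log m + Real.log (Nat.card ↥D) := by
    push_cast at hsum
    nlinarith [mul_nonneg (sub_nonneg.mpr (show (1 : ℝ) ≤ q by linarith))
      (mul_nonneg (show (0 : ℝ) ≤ q by linarith) (sub_nonneg.mpr hDXB)),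
      mul_nonneg (show (0 : ℝ) ≤ (q : ℝ) - 2 by linarith) (sub_nonneg.mpr hlogDX)]
  have h6 : Real.log (Nat.card ↥X) ≤ Real.log ((m : ℝ) ^ (q ^ 2) * Nat.card ↥D) := by
    rw [Real.log_mul (by positivity) (by exact_mod_cast Nat.card_pos.ne'), Real.log_pow]
    push_cast
    exact key
  have h7 := (Real.log_le_log_iff (by exact_mod_cast Nat.card_pos)
    (by
      have : (0 : ℝ) < m := by exact_mod_cast hm1
      have h8 : (0 : ℝ) < Nat.card ↥D := by exact_mod_cast Nat.card_pos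
      positivity)).mp h6
  exact_mod_cast h7

/-- the number of conjugates under `X` of an element with a large centralizer -/
theorem ncard_conj_le {s : G} {M : ℕ} {H : Subgroup G} (hHX : H ≤ X) (hH : ∀ h ∈ H, Commute h s)
    (hM : Nat.card ↥X ≤ M * Nat.card ↥H) :
    ({y : G | ∃ g ∈ X, y = g * s * g⁻¹} : Set G).ncard ≤ M := by
  let f : X ⧸ H.subgroupOf X → {y : G | ∃ g ∈ X, y = g * s * g⁻¹} := Quotient.lift
    (fun g : X => (⟨(g : G) * s * (g : G)⁻¹, g, g.2, rfl⟩ : {y : G | ∃ g ∈ X, y = g * s * g⁻¹})) (by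
      intro a b hab
      have h1 : a⁻¹ * b ∈ H.subgroupOf X := QuotientGroup.leftRel_apply.mp hab
      have h2 : Commute ((a⁻¹ * b : X) : G) s := hH _ h1
      apply Subtype.ext
      show (a : G) * s * (a : G)⁻¹ = (b : G) * s * (b : G)⁻¹
      have h3 : (a : G)⁻¹ * b * s = s * ((a : G)⁻¹ * b) := h2
      calc (a : G) * s * (a : G)⁻¹ = a * (s * ((a : G)⁻¹ * b)) * (b : G)⁻¹ := by group
        _ = a * ((a : G)⁻¹ * b * s) * (b : G)⁻¹ := by rw [h3]
        _ = (b : G) * s * (b : G)⁻¹ := by group)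
  have hf : Function.Surjective f := by
    rintro ⟨y, g, hg, rfl⟩
    exact ⟨QuotientGroup.mk ⟨g, hg⟩, rfl⟩
  have h1 : Nat.card {y : G | ∃ g ∈ X, y = g * s * g⁻¹} ≤ Nat.card (X ⧸ H.subgroupOf X) :=
    Nat.card_le_card_of_surjective f hf
  rw [Nat.card_coe_set_eq] at h1
  refine h1.trans ?_
  have h2 := Subgroup.card_eq_card_quotient_mul_card_subgroup (H.subgroupOf X)
  rw [card_subgroupOf_of_le hHX] at h2
  rw [h2] at hM
  exact Nat.le_of_mul_le_mul_right hM Nat.card_pos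

/-- the bound for the number of generators -/
def bdN (q m : ℕ) : ℕ := q ^ 3 * m * (m ^ (q ^ 2) * m ^ (q ^ 2))

def bd (q m : ℕ) : ℕ := (bdN q m + 1) ^ (bdN q m * m)

theorem card_inf_mul {H K : Subgroup G} {a b : ℕ} (h1 : Nat.card ↥X ≤ a * Nat.card ↥(X ⊓ H))
    (h2 : Nat.card ↥X ≤ b * Nat.card ↥(X ⊓ K)) :
    Nat.card ↥X ≤ a * b * Nat.card ↥(X ⊓ H ⊓ (X ⊓ K)) := by
  -- `|H ∩ X| |K ∩ X| ≤ |X| |H ∩ K ∩ X|`
  have h3 : Nat.card ↥(X ⊓ H) * Nat.card ↥(X ⊓ K) ≤ Nat.card ↥X * Nat.card ↥(X ⊓ H ⊓ (X ⊓ K)) := by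
    rw [← card_mul_set (X ⊓ H) (X ⊓ K)]
    apply Nat.mul_le_mul_right
    apply Nat.card_mono (Set.toFinite _)
    rintro _ ⟨a, ha, b, hb, rfl⟩
    exact mul_mem (mem_inf.mp ha).1 (mem_inf.mp hb).1
  have h4 : 0 < Nat.card ↥X := Nat.card_pos
  have h5 : Nat.card ↥X * Nat.card ↥X ≤
      a * b * (Nat.card ↥X * Nat.card ↥(X ⊓ H ⊓ (X ⊓ K))) := by
    calc Nat.card ↥X * Nat.card ↥X ≤ (a * Nat.card ↥(X ⊓ H)) * (b * Nat.card ↥(X ⊓ K)) :=
          Nat.mul_le_mul h1 h2
      _ = a * b * (Nat.card ↥(X ⊓ H) * Nat.card ↥(X ⊓ K)) := by ring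
      _ ≤ _ := Nat.mul_le_mul_left _ h3
  have h6 : Nat.card ↥X * Nat.card ↥X ≤
      (a * b * Nat.card ↥(X ⊓ H ⊓ (X ⊓ K))) * Nat.card ↥X := by
    calc _ ≤ _ := h5
      _ = _ := by ring
  exact Nat.le_of_mul_le_mul_right h6 h4

theorem inf_ne_bot (hA : Cfsg.IsElementaryAbelian q A) (hc : Nat.card ↥A = q ^ 3) {B₁ B₂ : Subgroup G}
    (h1 : B₁ ≤ A) (h1c : Nat.card ↥B₁ = q ^ 2) (h2 : B₂ ≤ A) (h2c : Nat.card ↥B₂ = q ^ 2) :
    ∃ a ∈ A, a ≠ 1 ∧ a ∈ B₁ ∧ a ∈ B₂ := by
  have hn : B₂ ≤ normalizer (B₁ : Set G) := by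
    refine le_trans ?_ (centralizer_le_normalizer (B₁ : Set G))
    exact h2.trans ((elemAb_le_centralizer hA).trans (centralizer_le h1))
  have h3 := card_sup_mul_card_inf hn
  have h4 : Nat.card ↥(B₁ ⊔ B₂) ≤ q ^ 3 := by
    rw [← hc]
    exact Subgroup.card_le_of_le (sup_le h1 h2)
  by_contra hcon
  push Not at hcon
  have h5 : B₁ ⊓ B₂ = ⊥ := by
    rw [Subgroup.eq_bot_iff_forall]
    intro x hx
    by_contra hx1
    exact hcon x (h1 (mem_inf.mp hx).1) hx1 (mem_inf.mp hx).1 (mem_inf.mp hx).2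
  rw [h5, card_bot, mul_one, h1c, h2c] at h3
  have h6 : q ^ 3 < q ^ 2 * q ^ 2 := by
    rw [← pow_add]
    exact Nat.pow_lt_pow_right hq.out.one_lt (by norm_num)
  omega

end Cfsg.Agent.Lib.DerBddB
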