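import Cfsg.Agent.Lib.FitLenD
import Cfsg.Prelude.Def_EvenType

/-!
# Fitting length by chains; the external form (helper61)
-/

set_option autoImplicit false
set_option linter.unusedSectionVars false

namespace Cfsg.Agent.Lib.FitLenE

open Subgroup Cfsg.Agent.Lib.FitLenA Cfsg.Agent.Lib.FitLenB Cfsg.Agent.Lib.FitLenC
  Cfsg.Agent.Lib.FitLenD
open scoped commutatorElement

universe u v

/-- Fitting length at most `n` (as in the statements) -/
def FL (X : Type u) [Group X] (n : ℕ) : Prop :=
  ∃ F : Fin (n + 1) → Subgroup X, F 0 = ⊥ ∧ F (Fin.last n) = ⊤ ∧ Monotone F ∧ (∀ i, (F i).Normal) ∧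
        ∀ i : Fin n, ∃ k : ℕ, (F i.succ).lowerCentralSeries k ≤ F i.castSucc

theorem resn_top_eq_bot_iff (X : Type u) [Group X] [Finite X] (n : ℕ) :
    resn n (⊤ : Subgroup X) = ⊥ ↔ FL X n := by
  constructor
  · intro h
    refine ⟨fun i => resn (n - i) ⊤, ?_, ?_, ?_, ?_, ?_⟩
    · simpa using h
    · simp [resn_zero]
    · intro i j hij
      exact resn_antitone ⊤ (Nat.sub_le_sub_left (by exact_mod_cast hij) n)
    · intro i
      infer_instance
    · intro i
      have h1 : n - (i.castSucc : ℕ) = (n - (i.succ : ℕ)) + 1 := by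
        have := i.2
        simp only [Fin.val_castSucc, Fin.val_succ]
        omega
      show ∃ k, (resn (n - (i.succ : ℕ)) (⊤ : Subgroup X)).lowerCentralSeries k ≤
        resn (n - (i.castSucc : ℕ)) ⊤
      rw [h1, resn_succ, ← res_le_iff]
  · rintro ⟨F, h0, h1, -, -, h2⟩
    have key : ∀ j : ℕ, ∀ hj : j ≤ n, resn j (⊤ : Subgroup X) ≤ F ⟨n - j, by omega⟩ := by
      intro j
      induction j with
      | zero =>
        intro _
        rw [resn_zero]
        have : (⟨n - 0, by omega⟩ : Fin (n + 1)) = Fin.last n := by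
          ext; simp
        rw [this, h1]
      | succ j ih =>
        intro hj
        rw [resn_succ]
        have h3 := ih (by omega)
        have h4 := h2 ⟨n - (j + 1), by omega⟩
        rw [← res_le_iff] at h4
        refine (res_mono h3).trans ?_
        have h5 : (⟨n - j, by omega⟩ : Fin (n + 1)) = Fin.succ ⟨n - (j + 1), by omega⟩ := by
          ext
          simp only [Fin.val_succ]
          omega
        rw [h5]
        exact h4
    have h3 := key n le_rfl
    have h4 : (⟨n - n, by omega⟩ : Fin (n + 1)) = 0 := by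
      ext; simp
    rw [h4, h0] at h3
    exact le_bot_iff.mp h3

section Ext

variable {X : Type u} {A : Type v} [Group X] [Finite X] [CommGroup A] [Finite A] {p : ℕ}
  [hp : Fact p.Prime]

/-- the normal subgroup of the semidirect product -/
theorem range_inl_normal (φ : A →* MulAut X) :
    (SemidirectProduct.inl : X →* X ⋊[φ] A).range.Normal := by
  rw [SemidirectProduct.range_inl_eq_ker_rightHom]
  infer_instance

theorem map_fixed (φ : A →* MulAut X) (a : A) :
    (Cfsg.fixedSubgroup (φ a)).map (SemidirectProduct.inl : X →* X ⋊[φ] A) =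
      (SemidirectProduct.inl : X →* X ⋊[φ] A).range ⊓
        centralizer ({(SemidirectProduct.inr a : X ⋊[φ] A)} : Set (X ⋊[φ] A)) := by
  ext g
  rw [mem_inf, mem_centralizer_singleton_iff, mem_map]
  constructor
  · rintro ⟨x, hx, rfl⟩
    refine ⟨⟨x, rfl⟩, ?_⟩
    have h1 : φ a x = x := hx
    have h2 := SemidirectProduct.inl_aut (φ := φ) a x
    rw [h1] at h2
    have h3 : (SemidirectProduct.inr a : X ⋊[φ] A)⁻¹ = SemidirectProduct.inr a⁻¹ :=
      (map_inv _ a).symm
    rw [← h3] at h2
    rw [eq_mul_inv_iff_mul_eq] at h2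
    exact h2
  · rintro ⟨⟨x, rfl⟩, hx⟩
    refine ⟨x, ?_, rfl⟩
    have h2 := SemidirectProduct.inl_aut (φ := φ) a x
    have h3 : (SemidirectProduct.inr a : X ⋊[φ] A)⁻¹ = SemidirectProduct.inr a⁻¹ :=
      (map_inv _ a).symm
    rw [← h3, ← hx, mul_inv_cancel_right] at h2
    exact SemidirectProduct.inl_injective h2

theorem finite_sdp (φ : A →* MulAut X) : Finite (X ⋊[φ] A) :=
  Finite.of_equiv _ SemidirectProduct.equivProd.symm

theorem ea_range (φ : A →* MulAut X) (hexp : ∀ a : A, a ^ p = 1) :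
    Cfsg.IsElementaryAbelian p (SemidirectProduct.inr : A →* X ⋊[φ] A).range := by
  refine ⟨?_, ?_⟩
  · rw [isMulCommutative_iff_of_setLike]
    rintro _ ⟨a, rfl⟩ _ ⟨b, rfl⟩
    rw [← map_mul, ← map_mul, mul_comm]
  · rintro _ ⟨a, rfl⟩
    rw [← map_pow, hexp a, map_one]

theorem card_inr (φ : A →* MulAut X) :
    Nat.card ↥(SemidirectProduct.inr : A →* X ⋊[φ] A).range = Nat.card A :=
  (Nat.card_congr (MonoidHom.ofInjective SemidirectProduct.inr_injective).toEquiv).symm

theorem card_inl (φ : A →* MulAut X) :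
    Nat.card ↥(SemidirectProduct.inl : X →* X ⋊[φ] A).range = Nat.card X :=
  (Nat.card_congr (MonoidHom.ofInjective SemidirectProduct.inl_injective).toEquiv).symm

theorem resn_map_fixed (φ : A →* MulAut X) (n : ℕ) (a : A)
    (h : FL ↥(Cfsg.fixedSubgroup (φ a)) n) :
    resn n ((SemidirectProduct.inl : X →* X ⋊[φ] A).range ⊓
        centralizer ({(SemidirectProduct.inr a : X ⋊[φ] A)} : Set (X ⋊[φ] A))) = ⊥ := by
  have hfin := finite_sdp φ
  rw [← resn_top_eq_bot_iff] at h
  rw [← map_fixed, ← map_resn]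
  have h1 := map_resn (Cfsg.fixedSubgroup (φ a)).subtype n ⊤
  rw [← MonoidHom.range_eq_map, range_subtype, h, Subgroup.map_bot] at h1
  rw [← h1, Subgroup.map_bot]

/-- The solvable case of S4053. -/
theorem solvable_case (hXs : Group.IsSolvable X) (hexp : ∀ a : A, a ^ p = 1)
    (hcop : ¬ p ∣ Nat.card X) (φ : A →* MulAut X) (n : ℕ)
    (hcent : ∀ a : A, a ≠ 1 → FL ↥(Cfsg.fixedSubgroup (φ a)) n)
    (hrank : p ^ (n + 2) ≤ Nat.card A) : FL X n := by
  have hfin := finite_sdp φ
  have hn := range_inl_normal φ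
  have hAs : Group.IsSolvable A := Group.isSolvable_of_comm fun a b => mul_comm a b
  have hs : Group.IsSolvable (X ⋊[φ] A) := by
    apply Group.isSolvable_of_ker_le_range (SemidirectProduct.inl : X →* X ⋊[φ] A)
      (SemidirectProduct.rightHom : X ⋊[φ] A →* A)
    rw [SemidirectProduct.range_inl_eq_ker_rightHom]
  have h1 := resn_eq_bot (X := (SemidirectProduct.inl : X →* X ⋊[φ] A).range) (ea_range φ hexp)
    (by rw [card_inl]; exact hcop) n (by rw [card_inr]; exact hrank) (by
      rintro _ ⟨a, rfl⟩ ha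
      apply resn_map_fixed
      apply hcent
      rintro rfl
      exact ha (map_one _))
  rw [MonoidHom.range_eq_map, ← map_resn, map_eq_bot_iff_of_injective _
    SemidirectProduct.inl_injective, resn_top_eq_bot_iff] at h1
  exact h1

/-- The case `n = 0`. -/
theorem zero_case (hexp : ∀ a : A, a ^ p = 1)
    (hcop : ¬ p ∣ Nat.card X) (φ : A →* MulAut X)
    (hcent : ∀ a : A, a ≠ 1 → FL ↥(Cfsg.fixedSubgroup (φ a)) 0)
    (hrank : p ^ 2 ≤ Nat.card A) : Subsingleton X := by
  have hfin := finite_sdp φ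
  have hn := range_inl_normal φ
  set X' := (SemidirectProduct.inl : X →* X ⋊[φ] A).range with hX'
  have hc : ¬ p ∣ Nat.card ↥X' := by rw [card_inl]; exact hcop
  by_contra hns
  rw [not_subsingleton_iff_nontrivial] at hns
  have h1 : ¬ QE p ⊥ X' := by
    intro hQ
    obtain ⟨x, hx⟩ := exists_ne (1 : X)
    apply hx
    apply SemidirectProduct.inl_injective (φ := φ)
    rw [map_one]
    have hmem : (SemidirectProduct.inl x : X ⋊[φ] A) ∈ X' := ⟨x, rfl⟩
    have h2 := hQ _ hmem (by
      intro hd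
      apply hc
      have h2 := orderOf_dvd_natCard (⟨_, hmem⟩ : X')
      rw [Subgroup.orderOf_mk] at h2
      exact hd.trans h2)
    exact h2
  obtain ⟨B, hBA, hBc, hB⟩ := base (ea_range φ hexp) hc hp.out bot_le h1
  rw [card_inr] at hBc
  apply hB
  have h2 : B ≠ ⊥ := by
    rintro rfl
    rw [card_bot, mul_one] at hBc
    have h3 := hrank.trans hBc
    have h4 : p ^ 1 < p ^ 2 := Nat.pow_lt_pow_right hp.out.one_lt (by norm_num)
    rw [pow_one] at h4
    omega
  obtain ⟨b, hb, hb1⟩ : ∃ b ∈ B, b ≠ 1 := by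
    by_contra hcon
    push Not at hcon
    exact h2 ((Subgroup.eq_bot_iff_forall B).mpr hcon)
  obtain ⟨a, rfl⟩ := hBA hb
  have h5 := resn_map_fixed φ 0 a (hcent a (by
    rintro rfl
    exact hb1 (map_one _)))
  rw [resn_zero] at h5
  intro s hs _
  have h6 : s ∈ X' ⊓ centralizer ({(SemidirectProduct.inr a : X ⋊[φ] A)} : Set (X ⋊[φ] A)) := by
    refine mem_inf.mpr ⟨(mem_inf.mp hs).1, ?_⟩
    rw [mem_centralizer_singleton_iff]
    exact (mem_centralizer_iff.mp (mem_inf.mp hs).2 _ hb).symm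
  rw [h5] at h6
  exact h6

end Ext

end Cfsg.Agent.Lib.FitLenE
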