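import Cfsg.Agent.Lib.DerBddB
import Cfsg.Agent.Lib.FitLenE

/-!
# The derived group under a coprime action of rank 3 (helper61)
-/

set_option autoImplicit false
set_option linter.unusedSectionVars false

namespace Cfsg.Agent.Lib.DerBddC

open Subgroup Cfsg.Agent.Lib.SubgroupTools Cfsg.Agent.Lib.CoprimeHyper Cfsg.Agent.Lib.DerBddA
  Cfsg.Agent.Lib.DerBddB
open scoped commutatorElement Pointwise

universe u v

variable {G : Type u} [Group G] [Finite G] {q : ℕ} [hq : Fact q.Prime] {A X : Subgroup G}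

theorem main (hA : Cfsg.IsElementaryAbelian q A) (hc : Nat.card ↥A = q ^ 3)
    (hAX : A ≤ normalizer (X : Set G)) (hX : ¬ q ∣ Nat.card ↥X) {m : ℕ}
    (hm : ∀ a ∈ A, a ≠ 1 → Nat.card ↥⁅X ⊓ centralizer ({a} : Set G), X ⊓ centralizer ({a} : Set G)⁆ ≤ m) :
    Nat.card ↥⁅X, X⁆ ≤ bd q m := by
  classical
  -- the set of commutators
  let S0 : Set G := {s | ∃ B₁ B₂ : Subgroup G, B₁ ≤ A ∧ Nat.card ↥B₁ = q ^ 2 ∧ B₂ ≤ A ∧
    Nat.card ↥B₂ = q ^ 2 ∧ ∃ x ∈ X ⊓ centralizer (B₁ : Set G), ∃ y ∈ X ⊓ centralizer (B₂ : Set G),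
      s = ⁅x, y⁆}
  let S : Set G := {z | ∃ s ∈ S0, ∃ g ∈ X, z = g * s * g⁻¹}
  have hS0fin : S0.Finite := Set.toFinite _
  have hSfin : S.Finite := Set.toFinite _
  -- elements of `S0`
  have hS0a : ∀ s ∈ S0, ∃ a ∈ A, a ≠ 1 ∧
      s ∈ ⁅X ⊓ centralizer ({a} : Set G), X ⊓ centralizer ({a} : Set G)⁆ := by
    rintro s ⟨B₁, B₂, h1, h1c, h2, h2c, x, hx, y, hy, rfl⟩
    obtain ⟨a, haA, ha1, haB1, haB2⟩ := inf_ne_bot hA hc h1 h1c h2 h2c
    refine ⟨a, haA, ha1, commutator_mem_commutator ?_ ?_⟩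
    · refine mem_inf.mpr ⟨(mem_inf.mp hx).1, ?_⟩
      rw [mem_centralizer_singleton_iff]
      exact (mem_centralizer_iff.mp (mem_inf.mp hx).2 a haB1).symm
    · refine mem_inf.mpr ⟨(mem_inf.mp hy).1, ?_⟩
      rw [mem_centralizer_singleton_iff]
      exact (mem_centralizer_iff.mp (mem_inf.mp hy).2 a haB2).symm
  have hS0X : ∀ s ∈ S0, s ∈ X := by
    intro s hs
    obtain ⟨a, -, -, h⟩ := hS0a s hs
    have h4 : ⁅X ⊓ centralizer ({a} : Set G), X ⊓ centralizer ({a} : Set G)⁆ ≤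
        X ⊓ centralizer ({a} : Set G) := by
      rw [commutator_le]
      intro x hx y hy
      rw [commutatorElement_def]
      exact mul_mem (mul_mem (mul_mem hx hy) (inv_mem hx)) (inv_mem hy)
    exact (mem_inf.mp (h4 h)).1
  have hS0c : hS0fin.toFinset.card ≤ q ^ 3 * m := by
    have h1 : hS0fin.toFinset ⊆ ((Set.toFinite (A : Set G)).toFinset.filter (fun a => a ≠ 1)).biUnion
        (fun a => (Set.toFinite ((⁅X ⊓ centralizer ({a} : Set G), X ⊓ centralizer ({a} : Set G)⁆ :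
          Subgroup G) : Set G)).toFinset) := by
      intro s hs
      rw [Set.Finite.mem_toFinset] at hs
      obtain ⟨a, haA, ha1, h⟩ := hS0a s hs
      rw [Finset.mem_biUnion]
      refine ⟨a, ?_, ?_⟩
      · rw [Finset.mem_filter, Set.Finite.mem_toFinset]
        exact ⟨haA, ha1⟩
      · rw [Set.Finite.mem_toFinset]
        exact h
    refine (Finset.card_le_card h1).trans ?_
    refine (Finset.card_biUnion_le_card_mul _ _ m ?_).trans ?_
    · intro a ha
      rw [Finset.mem_filter, Set.Finite.mem_toFinset] at ha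
      rw [← Set.ncard_eq_toFinset_card, ← Nat.card_coe_set_eq]
      exact hm a ha.1 ha.2
    · apply Nat.mul_le_mul_right
      refine (Finset.card_filter_le _ _).trans ?_
      rw [← Set.ncard_eq_toFinset_card, ← Nat.card_coe_set_eq]
      exact hc.le
  have hconjc : ∀ s ∈ S0, ({y : G | ∃ g ∈ X, y = g * s * g⁻¹} : Set G).ncard ≤
      m ^ (q ^ 2) * m ^ (q ^ 2) := by
    rintro s ⟨B₁, B₂, h1, h1c, h2, h2c, x, hx, y, hy, rfl⟩
    have h3 := class_bound hA hAX hX hm h1 h1c hx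
    have h4 := class_bound hA hAX hX hm h2 h2c hy
    refine ncard_conj_le (H := X ⊓ centralizer ({x} : Set G) ⊓ (X ⊓ centralizer ({y} : Set G)))
      (inf_le_left.trans inf_le_left) ?_ (card_inf_mul h3 h4)
    intro h hh
    obtain ⟨hh1, hh2⟩ := mem_inf.mp hh
    have hcx : Commute h x := mem_centralizer_singleton_iff.mp (mem_inf.mp hh1).2
    have hcy : Commute h y := mem_centralizer_singleton_iff.mp (mem_inf.mp hh2).2
    rw [commutatorElement_def]
    exact ((hcx.mul_right hcy).mul_right hcx.inv_right).mul_right hcy.inv_right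
  have hScard : hSfin.toFinset.card ≤ bdN q m := by
    have h1 : hSfin.toFinset ⊆ hS0fin.toFinset.biUnion
        (fun s => (Set.toFinite {y : G | ∃ g ∈ X, y = g * s * g⁻¹}).toFinset) := by
      intro z hz
      rw [Set.Finite.mem_toFinset] at hz
      obtain ⟨s, hs, g, hg, rfl⟩ := hz
      rw [Finset.mem_biUnion]
      refine ⟨s, ?_, ?_⟩
      · rw [Set.Finite.mem_toFinset]; exact hs
      · rw [Set.Finite.mem_toFinset]; exact ⟨g, hg, rfl⟩
    refine (Finset.card_le_card h1).trans ?_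
    refine (Finset.card_biUnion_le_card_mul _ _ (m ^ (q ^ 2) * m ^ (q ^ 2)) ?_).trans ?_
    · intro s hs
      rw [Set.Finite.mem_toFinset] at hs
      rw [← Set.ncard_eq_toFinset_card]
      exact hconjc s hs
    · exact Nat.mul_le_mul_right _ hS0c
  -- invariance
  have hSconj : ∀ z ∈ S, ∀ g ∈ X, g * z * g⁻¹ ∈ S := by
    rintro z ⟨s, hs, h, hh, rfl⟩ g hg
    refine ⟨s, hs, g * h, mul_mem hg hh, ?_⟩
    group
  have hSX : ∀ z ∈ S, z ∈ X := by
    rintro z ⟨s, hs, h, hh, rfl⟩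
    exact mul_mem (mul_mem hh (hS0X s hs)) (inv_mem hh)
  have hSinv : ∀ z ∈ S, z⁻¹ ∈ S := by
    rintro z ⟨s, ⟨B₁, B₂, h1, h1c, h2, h2c, x, hx, y, hy, rfl⟩, h, hh, rfl⟩
    refine ⟨⁅y, x⁆, ⟨B₂, B₁, h2, h2c, h1, h1c, y, hy, x, hx, rfl⟩, h, hh, ?_⟩
    rw [commutatorElement_def, commutatorElement_def]
    group
  have hSord : ∀ z ∈ S, 0 < orderOf z ∧ orderOf z ≤ m := by
    rintro z ⟨s, hs, h, hh, rfl⟩
    refine ⟨orderOf_pos _, ?_⟩
    have h1 : orderOf (h * s * h⁻¹) = orderOf s := by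
      have := MulEquiv.orderOf_eq (MulAut.conj h) s
      rwa [MulAut.conj_apply] at this
    rw [h1]
    obtain ⟨a, haA, ha1, h2⟩ := hS0a s hs
    refine le_trans ?_ (hm a haA ha1)
    have h3 := _root_.orderOf_le_card (x := (⟨s, h2⟩ :
      ↥⁅X ⊓ centralizer ({a} : Set G), X ⊓ centralizer ({a} : Set G)⁆))
    rwa [Subgroup.orderOf_mk] at h3
  have hKX : X ≤ normalizer ((closure S : Subgroup G) : Set G) := by
    have h1 : ∀ g ∈ X, ∀ z ∈ closure S, g * z * g⁻¹ ∈ closure S := by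
      intro g hg z hz
      induction hz using closure_induction with
      | mem x hx => exact Subgroup.subset_closure (hSconj x hx g hg)
      | one => simp
      | mul x y _ _ hx hy =>
        have : g * (x * y) * g⁻¹ = (g * x * g⁻¹) * (g * y * g⁻¹) := by group
        rw [this]
        exact mul_mem hx hy
      | inv x _ hx =>
        have : g * x⁻¹ * g⁻¹ = (g * x * g⁻¹)⁻¹ := by group
        rw [this]
        exact inv_mem hx
    intro g hg
    rw [mem_normalizer_iff]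
    intro z
    refine ⟨h1 g hg z, fun h => ?_⟩
    have := h1 g⁻¹ (inv_mem hg) _ h
    have h2 : g⁻¹ * (g * z * g⁻¹) * g⁻¹⁻¹ = z := by group
    rwa [h2] at this
  have hle : ⁅X, X⁆ ≤ closure S := by
    apply commutator_le_of_gen hKX (P := {H | ∃ B : Subgroup G, B ≤ A ∧ Nat.card ↥B = q ^ 2 ∧
      H = X ⊓ centralizer (B : Set G)})
    · rintro _ ⟨B, -, -, rfl⟩
      exact inf_le_left
    · intro D hD
      apply le_of_hyper_eq hA _ hX hAX
      · intro B hB hBi
        apply hD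
        refine ⟨B, hB, ?_, rfl⟩
        have h1 := card_mul_relIndex_of_le hB
        rw [hBi, hc, pow_succ] at h1
        exact Nat.eq_of_mul_eq_mul_right hq.out.pos h1
      · intro h0
        rw [h0, card_bot] at hc
        have h1 : 1 < q ^ 3 := Nat.one_lt_pow (by norm_num) hq.out.one_lt
        omega
    · rintro _ ⟨B₁, h1, h1c, rfl⟩ _ ⟨B₂, h2, h2c, rfl⟩ x hx y hy
      apply Subgroup.subset_closure
      exact ⟨⁅x, y⁆, ⟨B₁, B₂, h1, h1c, h2, h2c, x, hx, y, hy, rfl⟩, 1, one_mem _, by simp⟩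
  have hfinal := DerBddA.card_closure_le (S := hSfin.toFinset)
    (by
      intro s hs g hg
      rw [Set.Finite.mem_toFinset] at hs hg ⊢
      have := hSconj s hs g⁻¹ (inv_mem (hSX g hg))
      rwa [inv_inv] at this)
    (by
      intro s hs
      rw [Set.Finite.mem_toFinset] at hs ⊢
      exact hSinv s hs)
    (m := m) (by
      intro s hs
      rw [Set.Finite.mem_toFinset] at hs
      exact hSord s hs)
  rw [Set.Finite.coe_toFinset] at hfinal
  refine (Subgroup.card_le_of_le hle).trans (hfinal.trans ?_)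
  unfold bd
  calc (hSfin.toFinset.card + 1) ^ (hSfin.toFinset.card * m)
      ≤ (bdN q m + 1) ^ (hSfin.toFinset.card * m) := Nat.pow_le_pow_left (by omega) _
    _ ≤ (bdN q m + 1) ^ (bdN q m * m) :=
        Nat.pow_le_pow_right (by omega) (Nat.mul_le_mul_right _ hScard)

end Cfsg.Agent.Lib.DerBddC
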