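import Cfsg.Agent.Lib.DerBddC

/-!
# External form (helper61)
-/

set_option autoImplicit false
set_option linter.unusedSectionVars false

namespace Cfsg.Agent.Lib.DerBddD

open Subgroup Cfsg.Agent.Lib.SubgroupTools
open scoped commutatorElement Pointwise

universe u v

variable {G : Type u} {A : Type v} [Group G] [Finite G] [Group A] [Finite A]

theorem finite_sdp (φ : A →* MulAut G) : Finite (G ⋊[φ] A) :=
  Finite.of_equiv _ SemidirectProduct.equivProd.symm

theorem range_inl_normal (φ : A →* MulAut G) :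
    (SemidirectProduct.inl : G →* G ⋊[φ] A).range.Normal := by
  rw [SemidirectProduct.range_inl_eq_ker_rightHom]
  infer_instance

theorem card_inr (φ : A →* MulAut G) :
    Nat.card ↥(SemidirectProduct.inr : A →* G ⋊[φ] A).range = Nat.card A :=
  (Nat.card_congr (MonoidHom.ofInjective SemidirectProduct.inr_injective).toEquiv).symm

theorem card_inl (φ : A →* MulAut G) :
    Nat.card ↥(SemidirectProduct.inl : G →* G ⋊[φ] A).range = Nat.card G :=
  (Nat.card_congr (MonoidHom.ofInjective SemidirectProduct.inl_injective).toEquiv).symm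

theorem map_fixed (φ : A →* MulAut G) (a : A) (F : Subgroup G) (hF : ∀ x, x ∈ F ↔ φ a x = x) :
    F.map (SemidirectProduct.inl : G →* G ⋊[φ] A) =
      (SemidirectProduct.inl : G →* G ⋊[φ] A).range ⊓
        centralizer ({(SemidirectProduct.inr a : G ⋊[φ] A)} : Set (G ⋊[φ] A)) := by
  ext g
  rw [mem_inf, mem_centralizer_singleton_iff, mem_map]
  constructor
  · rintro ⟨x, hx, rfl⟩
    refine ⟨⟨x, rfl⟩, ?_⟩
    have h1 : φ a x = x := (hF x).mp hx
    have h2 := SemidirectProduct.inl_aut (φ := φ) a x
    rw [h1] at h2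
    have h3 : (SemidirectProduct.inr a : G ⋊[φ] A)⁻¹ = SemidirectProduct.inr a⁻¹ :=
      (map_inv _ a).symm
    rw [← h3] at h2
    rw [eq_mul_inv_iff_mul_eq] at h2
    exact h2
  · rintro ⟨⟨x, rfl⟩, hx⟩
    refine ⟨x, ?_, rfl⟩
    have h2 := SemidirectProduct.inl_aut (φ := φ) a x
    have h3 : (SemidirectProduct.inr a : G ⋊[φ] A)⁻¹ = SemidirectProduct.inr a⁻¹ :=
      (map_inv _ a).symm
    rw [← h3, ← hx, mul_inv_cancel_right] at h2
    exact (hF x).mpr (SemidirectProduct.inl_injective h2)

theorem card_commutator_map {K : Type*} [Group K] (f : G →* K) (hf : Function.Injective f)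
    (F : Subgroup G) : Nat.card ↥⁅F.map f, F.map f⁆ = Nat.card ↥(commutator ↥F) := by
  have h1 : (commutator ↥F).map (f.comp F.subtype) = ⁅F.map f, F.map f⁆ := by
    rw [commutator_def, map_commutator, ← Subgroup.map_map, ← MonoidHom.range_eq_map, range_subtype]
  rw [← h1]
  exact card_map_of_injective (hf.comp F.subtype_injective)

end Cfsg.Agent.Lib.DerBddD
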