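import Mathlib
import Cfsg.Prelude.Def_GeometricClasses

/-! # Diagonalisation of matrices with scalar power, conjugacy in the special linear group -/

set_option autoImplicit false

namespace Cfsg.Agent.Lib.DiagTool

open Module Matrix
open scoped MatrixGroups

section eig

variable {F V : Type*} [Field F] [AddCommGroup V] [Module F V] [FiniteDimensional F V] {n m : ℕ}

/-- an eigenbasis for an endomorphism with `T ^ m = c ^ m` -/
theorem exists_eig (hm : (m : F) ≠ 0) {ζ : F} (hζ : IsPrimitiveRoot ζ m) {c : F} (hc : c ≠ 0) {T : Module.End F V}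
    (hT : T ^ m = (c ^ m) • (1 : Module.End F V)) (hV : finrank F V = n) :
    ∃ (b : Basis (Fin n) F V) (e : Fin n → Fin m), ∀ j, T (b j) = (c * ζ ^ (e j).1) • b j := by
  classical
  have hζ0 : ζ ≠ 0 := hζ.ne_zero (by rintro rfl; exact hm (by simp))
  have hm0 : 0 < m := Nat.pos_of_ne_zero (by rintro rfl; exact hm (by simp))
  let y : Fin m → F := fun i => c * ζ ^ i.1
  have hy0 : ∀ i, y i ≠ 0 := fun i => mul_ne_zero hc (pow_ne_zero _ hζ0)
  have hym : ∀ i, (y i) ^ m = c ^ m := by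
    intro i
    rw [mul_pow, ← pow_mul, mul_comm i.1, pow_mul, hζ.pow_eq_one, one_pow, mul_one]
  have hyinj : Function.Injective y := by
    intro i j hij
    have := mul_left_cancel₀ hc hij
    exact Fin.ext (hζ.pow_inj i.2 j.2 this)
  let A : Fin m → Submodule F V := fun i => Module.End.eigenspace T (y i)
  have hind : iSupIndep A := (Module.End.eigenspaces_iSupIndep T).comp hyinj
  have htop : iSup A = ⊤ := by
    rw [eq_top_iff]
    intro v _
    let w : Fin m → V := fun i => ∑ k ∈ Finset.range m, ((y i)⁻¹ ^ k) • (T ^ k) v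
    have hw : ∀ i, w i ∈ A i := by
      intro i
      rw [Module.End.mem_eigenspace_iff, map_sum, Finset.smul_sum]
      have h1 : ∀ k, T (((y i)⁻¹ ^ k) • (T ^ k) v) = (y i) • (((y i)⁻¹ ^ (k + 1)) • (T ^ (k + 1)) v) := by
        intro k
        rw [map_smul, ← Module.End.mul_apply, ← pow_succ', smul_smul, pow_succ' (y i)⁻¹, ← mul_assoc, mul_inv_cancel₀ (hy0 i), one_mul]
      have h2 : ∑ k ∈ Finset.range m, (((y i)⁻¹ ^ (k + 1)) • (T ^ (k + 1)) v) = ∑ k ∈ Finset.range m, (((y i)⁻¹ ^ k) • (T ^ k) v) := by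
        have h4 := Finset.sum_range_succ' (fun k => ((y i)⁻¹ ^ k) • (T ^ k) v) m
        have h5 := Finset.sum_range_succ (fun k => ((y i)⁻¹ ^ k) • (T ^ k) v) m
        have h6 : ((y i)⁻¹ ^ m) • (T ^ m) v = v := by
          rw [hT, LinearMap.smul_apply, Module.End.one_apply, smul_smul, ← hym i, ← mul_pow, inv_mul_cancel₀ (hy0 i), one_pow, one_smul]
        rw [h5, h6, pow_zero, pow_zero, one_smul] at h4
        exact (add_right_cancel h4).symm
      simp only [h1]
      rw [← Finset.smul_sum, h2, Finset.smul_sum]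
    have hsum : ∑ i, w i = (m : F) • v := by
      simp only [w]
      rw [Finset.sum_comm]
      have h1 : ∀ k ∈ Finset.range m, ∑ i : Fin m, ((y i)⁻¹ ^ k) • (T ^ k) v = if k = 0 then (m : F) • v else 0 := by
        intro k hk
        rw [← Finset.sum_smul]
        split_ifs with hk0
        · rw [hk0]; simp
        · have h2 : ∑ i : Fin m, (y i)⁻¹ ^ k = (c⁻¹ ^ k) * ∑ i ∈ Finset.range m, ((ζ⁻¹) ^ k) ^ i := by
            rw [← Fin.sum_univ_eq_sum_range (fun i => ((ζ⁻¹) ^ k) ^ i), Finset.mul_sum]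
            apply Finset.sum_congr rfl
            intro i _
            simp only [y]
            rw [mul_inv, mul_pow, ← inv_pow, ← pow_mul, ← pow_mul, mul_comm i.1 k]
          have h3 : ∑ i ∈ Finset.range m, ((ζ⁻¹) ^ k) ^ i = 0 := by
            have h4 : ((ζ⁻¹) ^ k - 1) * ∑ i ∈ Finset.range m, ((ζ⁻¹) ^ k) ^ i = 0 := by
              rw [mul_geom_sum, ← pow_mul, mul_comm k m, pow_mul, inv_pow, hζ.pow_eq_one, inv_one, one_pow, sub_self]
            apply (mul_eq_zero.1 h4).resolve_left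
            intro h5
            have h6 : ζ ^ k = 1 := by
              have h7 := sub_eq_zero.1 h5
              rw [inv_pow] at h7
              exact inv_eq_one.1 h7
            have h8 := hζ.dvd_of_pow_eq_one k h6
            exact hk0 (Nat.eq_zero_of_dvd_of_lt h8 (Finset.mem_range.1 hk))
          rw [h2, h3, mul_zero, zero_smul]
      rw [Finset.sum_congr rfl h1, Finset.sum_ite_eq']
      rw [if_pos (Finset.mem_range.2 hm0)]
    have h3 : v = (m : F)⁻¹ • ∑ i, w i := by rw [hsum, smul_smul, inv_mul_cancel₀ hm, one_smul]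
    rw [h3]
    exact Submodule.smul_mem _ _ (Submodule.sum_mem _ (fun i _ => (le_iSup A i) (hw i)))
  have hint : DirectSum.IsInternal A := DirectSum.isInternal_submodule_of_iSupIndep_of_iSup_eq_top hind htop
  let b₀ := hint.collectedBasis (fun i => Module.finBasis F (A i))
  have hcard : Fintype.card (Σ i : Fin m, Fin (finrank F (A i))) = n := by
    rw [← hV, Module.finrank_eq_card_basis b₀]
  let ε := Fintype.equivFinOfCardEq hcard
  refine ⟨b₀.reindex ε, fun j => (ε.symm j).1, ?_⟩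
  intro j
  rw [Basis.reindex_apply]
  have := hint.collectedBasis_mem (fun i => Module.finBasis F (A i)) (ε.symm j)
  exact Module.End.mem_eigenspace_iff.1 this

end eig

section mat

variable {F : Type*} [Field F] {n m : ℕ}

/-- diagonalisation of matrices -/
theorem exists_diag_mat (hm : (m : F) ≠ 0) {ζ : F} (hζ : IsPrimitiveRoot ζ m) {c : F} (hc : c ≠ 0) {M : Matrix (Fin n) (Fin n) F}
    (hM : M ^ m = (c ^ m) • (1 : Matrix (Fin n) (Fin n) F)) :
    ∃ (P : GL (Fin n) F) (e : Fin n → Fin m), M * P.1 = P.1 * Matrix.diagonal (fun j => c * ζ ^ (e j).1) := by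
  obtain ⟨b, e, he⟩ := exists_eig (V := Fin n → F) hm hζ hc (T := Matrix.toLin' M) (by
    have h1 := map_pow (Matrix.toLinAlgEquiv' (R := F) (n := Fin n)) M m
    have h2 : Matrix.toLinAlgEquiv' (R := F) M = Matrix.toLin' M := rfl
    rw [h2, hM, map_smul, map_one] at h1
    exact h1.symm) (Module.finrank_fin_fun F)
  let P₀ : Matrix (Fin n) (Fin n) F := (Pi.basisFun F (Fin n)).toMatrix b
  have hP₀ : ∀ i j, P₀ i j = b j i := fun i j => rfl
  haveI : Invertible P₀ := (Pi.basisFun F (Fin n)).invertibleToMatrix b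
  refine ⟨unitOfInvertible P₀, e, ?_⟩
  show M * P₀ = P₀ * _
  ext i j
  rw [Matrix.mul_diagonal, hP₀, Matrix.mul_apply]
  have := congrFun (he j) i
  rw [Matrix.toLin'_apply, Pi.smul_apply, smul_eq_mul] at this
  rw [mul_comm, ← this]
  rfl

/-- conjugacy in the special linear group of diagonalisable matrices -/
theorem conj_SL_of_diag (hn : 0 < n) {x y : GL (Fin n) F} {P Q : GL (Fin n) F} {u w : Fin n → F}
    (hx : x.1 * P.1 = P.1 * Matrix.diagonal u) (hy : y.1 * Q.1 = Q.1 * Matrix.diagonal w) (π : Equiv.Perm (Fin n))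
    (h : ∀ i, u (π i) = w i) : ∃ g ∈ Cfsg.Geo.specialLinear (Fin n) F, g⁻¹ * x * g = y := by
  classical
  let Pπ : Matrix (Fin n) (Fin n) F := (Equiv.toPEquiv π.symm).toMatrix
  have hPπ : ∀ i j, Pπ i j = if i = π j then 1 else 0 := by
    intro i j
    simp only [Pπ, PEquiv.toMatrix_apply, Equiv.toPEquiv_apply]
    simp only [Option.mem_some_iff, Equiv.symm_apply_eq]
  have hdetπ : Pπ.det ≠ 0 := by
    have : Pπ.det = (Equiv.Perm.sign π.symm : ℤ) := by
      simp only [Pπ]
      exact Matrix.det_permutation π.symm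
    rw [this]
    rcases Int.units_eq_one_or (Equiv.Perm.sign π.symm) with h | h <;> rw [h] <;> simp
  have hdiag : Matrix.diagonal u * Pπ = Pπ * Matrix.diagonal w := by
    ext i j
    rw [Matrix.diagonal_mul, Matrix.mul_diagonal, hPπ]
    split_ifs with hij
    · rw [hij, h, mul_one, one_mul]
    · rw [mul_zero, zero_mul]
  have hPdet : P.1.det ≠ 0 := ((Matrix.isUnit_iff_isUnit_det _).1 P.isUnit).ne_zero
  have hQdet : Q.1.det ≠ 0 := ((Matrix.isUnit_iff_isUnit_det _).1 Q.isUnit).ne_zero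
  have hQidet : (Q⁻¹).1.det = (Q.1.det)⁻¹ := by
    have : (Q⁻¹).1.det * Q.1.det = 1 := by rw [← Matrix.det_mul, ← Units.val_mul, inv_mul_cancel]; simp
    exact eq_inv_of_mul_eq_one_left this
  let δ : F := (P.1.det * Pπ.det * (Q.1.det)⁻¹)⁻¹
  have hδ : P.1.det * Pπ.det * (Q.1.det)⁻¹ ≠ 0 := mul_ne_zero (mul_ne_zero hPdet hdetπ) (inv_ne_zero hQdet)
  let D : Matrix (Fin n) (Fin n) F := Matrix.diagonal (Function.update (fun _ => (1 : F)) ⟨0, hn⟩ δ)
  have hD : D.det = δ := by
    rw [Matrix.det_diagonal, Finset.prod_update_of_mem (Finset.mem_univ _)]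
    simp
  have hDw : D * Matrix.diagonal w = Matrix.diagonal w * D := by
    rw [Matrix.diagonal_mul_diagonal, Matrix.diagonal_mul_diagonal]
    congr 1
    funext i
    exact mul_comm _ _
  let G : Matrix (Fin n) (Fin n) F := P.1 * Pπ * D * (Q⁻¹).1
  have hG : G.det = 1 := by
    simp only [G]
    rw [Matrix.det_mul, Matrix.det_mul, Matrix.det_mul, hD, hQidet]
    have : P.1.det * Pπ.det * δ * (Q.1.det)⁻¹ = (P.1.det * Pπ.det * (Q.1.det)⁻¹) * δ := by ring
    rw [this]
    exact mul_inv_cancel₀ hδ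
  let g : GL (Fin n) F := Matrix.GeneralLinearGroup.mkOfDetNeZero G (by rw [hG]; exact one_ne_zero)
  have hg : g.1 = G := rfl
  have hy' : (Q⁻¹).1 * y.1 = Matrix.diagonal w * (Q⁻¹).1 := by
    have h1 : (Q⁻¹).1 * Q.1 = 1 := by rw [← Units.val_mul, inv_mul_cancel]; rfl
    have h2 : Q.1 * (Q⁻¹).1 = 1 := by rw [← Units.val_mul, mul_inv_cancel]; rfl
    calc (Q⁻¹).1 * y.1 = (Q⁻¹).1 * y.1 * (Q.1 * (Q⁻¹).1) := by rw [h2, Matrix.mul_one]
      _ = (Q⁻¹).1 * (y.1 * Q.1) * (Q⁻¹).1 := by simp only [Matrix.mul_assoc]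
      _ = ((Q⁻¹).1 * Q.1) * Matrix.diagonal w * (Q⁻¹).1 := by rw [hy]; simp only [Matrix.mul_assoc]
      _ = _ := by rw [h1, Matrix.one_mul]
  have hxg : x.1 * G = G * y.1 := by
    simp only [G]
    calc x.1 * (P.1 * Pπ * D * (Q⁻¹).1) = (x.1 * P.1) * Pπ * D * (Q⁻¹).1 := by simp only [Matrix.mul_assoc]
      _ = P.1 * (Matrix.diagonal u * Pπ) * D * (Q⁻¹).1 := by rw [hx]; simp only [Matrix.mul_assoc]
      _ = P.1 * Pπ * (Matrix.diagonal w * D) * (Q⁻¹).1 := by rw [hdiag]; simp only [Matrix.mul_assoc]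
      _ = P.1 * Pπ * D * (Matrix.diagonal w * (Q⁻¹).1) := by rw [← hDw]; simp only [Matrix.mul_assoc]
      _ = _ := by rw [← hy']; simp only [Matrix.mul_assoc]
  refine ⟨g, ?_, ?_⟩
  · rw [Cfsg.Geo.specialLinear, MonoidHom.mem_ker]
    ext
    rw [Matrix.GeneralLinearGroup.val_det_apply, hg, hG]
    rfl
  · have : x * g = g * y := Units.ext hxg
    rw [mul_assoc, this, ← mul_assoc, inv_mul_cancel, one_mul]

/-- determinants from a diagonalisation -/
lemma det_of_diag {M : Matrix (Fin n) (Fin n) F} {P : GL (Fin n) F} {u : Fin n → F}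
    (hx : M * P.1 = P.1 * Matrix.diagonal u) : M.det = ∏ i, u i := by
  have hPdet : P.1.det ≠ 0 := ((Matrix.isUnit_iff_isUnit_det _).1 P.isUnit).ne_zero
  have h1 := congrArg Matrix.det hx
  rw [Matrix.det_mul, Matrix.det_mul, Matrix.det_diagonal, mul_comm] at h1
  exact mul_left_cancel₀ hPdet h1

lemma scalar_of_diag {M : Matrix (Fin n) (Fin n) F} {P : GL (Fin n) F} {a : F}
    (hx : M * P.1 = P.1 * Matrix.diagonal (fun _ => a)) : M = a • (1 : Matrix (Fin n) (Fin n) F) := by
  have h2 : P.1 * (P⁻¹).1 = 1 := by rw [← Units.val_mul, mul_inv_cancel]; rfl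
  have h3 : Matrix.diagonal (fun _ : Fin n => a) = a • (1 : Matrix (Fin n) (Fin n) F) := by
    ext i j; simp [Matrix.diagonal_apply, Matrix.one_apply]
  calc M = M * (P.1 * (P⁻¹).1) := by rw [h2, Matrix.mul_one]
    _ = (M * P.1) * (P⁻¹).1 := by rw [Matrix.mul_assoc]
    _ = a • (P.1 * (P⁻¹).1) := by rw [hx, h3, Matrix.mul_smul, Matrix.mul_one, Matrix.smul_mul]
    _ = _ := by rw [h2]

end mat

end Cfsg.Agent.Lib.DiagTool
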