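import Mathlib
import Cfsg.Agent.Lib.DihedralHom

/-! Dihedral recognition from a cyclic group of rotations. -/

set_option autoImplicit false

namespace Cfsg.Agent.Lib.DihRecog

theorem dihedral_of_hom {G C : Type*} [Group G] [CommGroup C] [IsCyclic C] [Finite C] (D : C →* G)
    (hD : Function.Injective D) (w : G) (hw : w * w = 1) (hconj : ∀ c, w * D c * w = (D c)⁻¹)
    (hnot : ∀ c, D c ≠ w) (hall : ∀ g : G, ∃ c, g = D c ∨ g = w * D c) :
    Nonempty (G ≃* DihedralGroup (Nat.card C)) := by
  obtain ⟨c0, hc0⟩ := IsCyclic.exists_generator (α := C)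
  have hord : orderOf c0 = Nat.card C := orderOf_eq_card_of_forall_mem_zpowers hc0
  refine DihedralHom.nonempty_mulEquiv (n := Nat.card C) Nat.card_pos.ne' (D c0) w ?_ hw (hconj c0) ?_ ?_
  · rw [orderOf_injective D hD, hord]
  · intro h
    obtain ⟨k, hk⟩ := Subgroup.mem_zpowers_iff.1 h
    exact hnot (c0 ^ k) (by rw [map_zpow, hk])
  · rw [eq_top_iff]
    intro g _
    have hDm : ∀ c, D c ∈ Subgroup.closure {D c0, w} := by
      intro c
      obtain ⟨k, rfl⟩ := Subgroup.mem_zpowers_iff.1 (hc0 c)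
      rw [map_zpow]
      exact Subgroup.zpow_mem _ (Subgroup.subset_closure (by simp)) k
    obtain ⟨c, h | h⟩ := hall g
    · rw [h]; exact hDm c
    · rw [h]
      exact Subgroup.mul_mem _ (Subgroup.subset_closure (by simp)) (hDm c)

end Cfsg.Agent.Lib.DihRecog
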