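import Mathlib
import Cfsg.Agent.Lib.OrthDec2H94
import Cfsg.Agent.Lib.OrthNdBridge

set_option autoImplicit false
set_option linter.unusedSectionVars false
set_option linter.unusedSimpArgs false
set_option linter.unusedVariables false

/-!
Overgroups of stabilisers of orthogonal decompositions into planes: basics.
-/

namespace Cfsg.Agent.Lib.Dk2H94

open QuadraticMap Module Cfsg.Agent.Lib.Quad Cfsg.Agent.Lib.OrthMax Cfsg.Agent.Lib.OrthNd
open Cfsg.Agent.Lib.OrthDecH94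
open Cfsg.Agent.Lib.SLBlockH94 (Dec)

variable {F V : Type*} [Field F] [AddCommGroup V] [Module F V] [FiniteDimensional F V]
  {Q : QuadraticForm F V} {M : Subgroup (V ≃ₗ[F] V)}
variable {κ : Type*} [Fintype κ] [DecidableEq κ]

/-- the situation -/
structure DK (Q : QuadraticForm F V) (D : κ → Submodule F V) (pr : κ → V →ₗ[F] V)
    (M : Subgroup (V ≃ₗ[F] V)) : Prop where
  hQ : Nd Q
  gen : GenHyp Q
  n4 : 4 ≤ finrank F V
  dec : Dec D pr
  orth : ∀ i j, i ≠ j → ∀ x ∈ D i, ∀ y ∈ D j, polar Q x y = 0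
  hMO : M ≤ O Q
  dim : ∀ i, 2 ≤ finrank F (D i)
  iso : ∀ i j, ∃ e : D i ≃ₗ[F] D j, ∀ w : D i, Q ((e w : D j) : V) = Q (w : V)
  H : ∀ g ∈ Om Q, (∃ σ : Equiv.Perm κ, Pm D g σ) → g ∈ M

/-- two vectors with norms in the same square class -/
def sc (Q : QuadraticForm F V) (a b : V) : Prop := ∃ c : F, c ≠ 0 ∧ Q a = c * c * Q b

theorem sc.refl (a : V) : sc Q a a := ⟨1, one_ne_zero, by ring⟩

theorem sc.symm {a b : V} (h : sc Q a b) : sc Q b a := by
  obtain ⟨c, hc, h⟩ := h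
  exact ⟨c⁻¹, inv_ne_zero hc, by rw [h]; field_simp⟩

theorem sc.trans {a b c : V} (h : sc Q a b) (h' : sc Q b c) : sc Q a c := by
  obtain ⟨x, hx, h⟩ := h
  obtain ⟨y, hy, h'⟩ := h'
  exact ⟨x * y, mul_ne_zero hx hy, by rw [h, h']; ring⟩

namespace DK

variable {D : κ → Submodule F V} {pr : κ → V →ₗ[F] V} (S : DK Q D pr M)
include S

theorem polar_pr {i : κ} {y : V} (hy : y ∈ D i) (x : V) : polar Q (pr i x) y = polar Q x y := by
  conv_rhs => rw [← S.dec.sum x]
  have h1 : ∀ s : Finset κ, polar Q (∑ j ∈ s, pr j x) y = ∑ j ∈ s, polar Q (pr j x) y := by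
    intro s
    induction s using Finset.induction_on with
    | empty => rw [Finset.sum_empty, Finset.sum_empty, polar_zero_left]
    | insert a s ha ih => rw [Finset.sum_insert ha, Finset.sum_insert ha, polar_add_left, ih]
  rw [h1, Finset.sum_eq_single i]
  · intro j _ hj
    exact S.orth j i hj _ (S.dec.mem j x) y hy
  · intro h; exact absurd (Finset.mem_univ i) h

theorem polar_pr' {i : κ} {y : V} (hy : y ∈ D i) (x : V) : polar Q y (pr i x) = polar Q y x := by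
  rw [polar_comm, S.polar_pr hy, polar_comm]

theorem nds (i : κ) : NDs Q (D i) := by
  rw [NDs, eq_bot_iff]
  rintro x ⟨hx, hx'⟩
  rw [Submodule.mem_bot]
  apply S.hQ.eq_zero
  intro y
  rw [← S.polar_pr' hx, polar_comm]
  exact mem_perp.1 hx' _ (S.dec.mem i y)

theorem pr_ne {i j : κ} (hij : i ≠ j) {x : V} (hx : x ∈ D i) : pr j x = 0 := S.dec.zero j i x (Ne.symm hij) hx

theorem pr_self {i : κ} {x : V} (hx : x ∈ D i) : pr i x = x := S.dec.self i x hx

theorem eq_of_pr {i : κ} {x : V} (h : ∀ j, j ≠ i → pr j x = 0) : x ∈ D i := by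
  have h1 := S.dec.sum x
  rw [Finset.sum_eq_single i (fun j _ hj => h j hj) (fun h => absurd (Finset.mem_univ i) h)] at h1
  rw [← h1]
  exact S.dec.mem i x

/-- orthogonality to a block -/
theorem pr_zero_iff {i : κ} {w : V} : pr i w = 0 ↔ ∀ y ∈ D i, polar Q w y = 0 := by
  constructor
  · intro h y hy
    rw [← S.polar_pr hy, h, polar_zero_left]
  · intro h
    have h1 : pr i w ∈ D i ⊓ perp Q (D i) := by
      refine ⟨S.dec.mem i w, mem_perp'.2 fun y hy => ?_⟩
      rw [S.polar_pr hy]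
      exact h y hy
    rwa [S.nds i, Submodule.mem_bot] at h1

theorem refl_stab {i l : κ} {c : V} (hc : c ∈ D i) {x : V} (hx : x ∈ D l) : refl Q c x ∈ D l := by
  by_cases hQc : Q c = 0
  · rw [refl_of_eq_zero hQc]; exact hx
  by_cases hil : i = l
  · subst hil
    rw [refl_apply hQc]
    exact (D i).sub_mem hx ((D i).smul_mem _ hc)
  · rw [refl_of_perp (S.orth i l hil c hc x hx)]; exact hx

theorem refl_fix {i l : κ} (hil : i ≠ l) {c : V} (hc : c ∈ D i) {x : V} (hx : x ∈ D l) : refl Q c x = x :=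
  refl_of_perp (S.orth i l hil c hc x hx)

variable [Finite F]

/-- products of two reflections in blocks -/
theorem refl_pair {i j : κ} {c c' : V} (hc : c ∈ D i) (hc' : c' ∈ D j)
    (hQ0 : Q c ≠ 0) (hcc : sc Q c c') : refl Q c * refl Q c' ∈ M := by
  obtain ⟨s, hs, hcs⟩ := hcc
  refine S.H _ ?_ ⟨1, fun l => ?_⟩
  · rw [S.hQ.Om_eq_Sg S.gen S.n4, ← refl_smul hs c']
    exact refl_mul_refl_mem_Sg' S.hQ S.n4 hQ0 (by rw [Q_smul, hcs])
  · rw [Equiv.Perm.one_apply]
    apply Submodule.eq_of_le_of_finrank_eq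
    · rintro _ ⟨x, hx, rfl⟩
      exact S.refl_stab hc (S.refl_stab hc' hx)
    · exact LinearEquiv.finrank_map_eq _ _

/-- an isometry moving a vector to another block -/
theorem exists_same (i j : κ) {b : V} (hb : b ∈ D i) : ∃ b' ∈ D j, Q b' = Q b := by
  obtain ⟨e, he⟩ := S.iso i j
  exact ⟨e ⟨b, hb⟩, (e ⟨b, hb⟩).2, he ⟨b, hb⟩⟩

omit [Finite F] in
/-- swapping two blocks, fixing the others pointwise -/
theorem exists_swap {i j : κ} (hij : i ≠ j) : ∃ τ ∈ O Q, Pm D τ (Equiv.swap i j) ∧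
    ∀ l, l ≠ i → l ≠ j → ∀ x ∈ D l, τ x = x := by
  obtain ⟨e, he⟩ := S.iso i j
  obtain ⟨A, hA⟩ : ∃ A : V →ₗ[F] V, ∀ x, A x = (e ⟨pr i x, S.dec.mem i x⟩ : V) :=
    ⟨(D j).subtype ∘ₗ (e : D i →ₗ[F] D j) ∘ₗ ((pr i).codRestrict (D i) (S.dec.mem i)), fun x => rfl⟩
  obtain ⟨B, hB⟩ : ∃ B : V →ₗ[F] V, ∀ x, B x = (e.symm ⟨pr j x, S.dec.mem j x⟩ : V) :=
    ⟨(D i).subtype ∘ₗ (e.symm : D j →ₗ[F] D i) ∘ₗ ((pr j).codRestrict (D j) (S.dec.mem j)), fun x => rfl⟩
  have hAQ : ∀ x, Q (A x) = Q (pr i x) := fun x => by rw [hA, he]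
  have hBQ : ∀ x, Q (B x) = Q (pr j x) := fun x => by
    rw [hB, ← he, LinearEquiv.apply_symm_apply]
  have hAm : ∀ x, A x ∈ D j := fun x => by rw [hA]; exact SetLike.coe_mem _
  have hBm : ∀ x, B x ∈ D i := fun x => by rw [hB]; exact SetLike.coe_mem _
  have hA0 : ∀ x, pr i x = 0 → A x = 0 := by
    intro x hx
    rw [hA]
    have : (⟨pr i x, S.dec.mem i x⟩ : D i) = 0 := Subtype.ext hx
    rw [this, map_zero]; rfl
  have hB0 : ∀ x, pr j x = 0 → B x = 0 := by
    intro x hx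
    rw [hB]
    have : (⟨pr j x, S.dec.mem j x⟩ : D j) = 0 := Subtype.ext hx
    rw [this, map_zero]; rfl
  have key : ∀ x a b : V, a ∈ D i → b ∈ D j →
      Q (x - pr i x - pr j x + a + b) = Q (x - pr i x - pr j x) + Q a + Q b := by
    intro x a b ha hb
    have h1 : polar Q (x - pr i x - pr j x) a = 0 := by
      rw [← S.polar_pr ha, map_sub, map_sub, S.dec.self i _ (S.dec.mem i x), S.dec.zero i j _ hij (S.dec.mem j x),
        sub_self, sub_zero, polar_zero_left]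
    have h2 : polar Q (x - pr i x - pr j x) b = 0 := by
      rw [← S.polar_pr hb, map_sub, map_sub, S.dec.self j _ (S.dec.mem j x),
        S.dec.zero j i _ (Ne.symm hij) (S.dec.mem i x), sub_zero, sub_self, polar_zero_left]
    rw [Q_add, Q_add, polar_add_left, h1, h2, S.orth i j hij a ha b hb]; ring
  obtain ⟨τ, hτ⟩ : ∃ τ : V →ₗ[F] V, ∀ x, τ x = x - pr i x - pr j x + B x + A x :=
    ⟨LinearMap.id - pr i - pr j + B + A, fun x => rfl⟩
  have hτQ : ∀ x, Q (τ x) = Q x := by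
    intro x
    rw [hτ, key x _ _ (hBm x) (hAm x), hAQ, hBQ]
    have h1 := key x _ _ (S.dec.mem i x) (S.dec.mem j x)
    have e1 : x - pr i x - pr j x + pr i x + pr j x = x := by abel
    rw [e1] at h1
    rw [h1]; ring
  have hl : ∀ x, (ofMap S.hQ τ hτQ : V ≃ₗ[F] V) x = τ x := fun x => by rw [ofMap_apply]
  refine ⟨ofMap S.hQ τ hτQ, ofMap_mem _ _ _, fun l => ?_, fun l h1 h2 x hx => ?_⟩
  · have hfin : finrank F (D i) = finrank F (D j) := e.finrank_eq
    have hfr : finrank F ((D l).map ((ofMap S.hQ τ hτQ : V ≃ₗ[F] V) : V →ₗ[F] V)) =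
      finrank F (D (Equiv.swap i j l)) := by
      rw [LinearEquiv.finrank_map_eq]
      rcases eq_or_ne l i with rfl | h1
      · rw [Equiv.swap_apply_left, hfin]
      rcases eq_or_ne l j with rfl | h2
      · rw [Equiv.swap_apply_right, hfin]
      rw [Equiv.swap_apply_of_ne_of_ne h1 h2]
    apply Submodule.eq_of_le_of_finrank_eq _ hfr
    rintro _ ⟨x, hx, rfl⟩
    rw [LinearEquiv.coe_coe, hl, hτ]
    rcases eq_or_ne l i with rfl | h1
    · rw [Equiv.swap_apply_left, S.dec.self l x hx, S.pr_ne hij hx, hB0 x (S.pr_ne hij hx), sub_self, sub_zero,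
        zero_add, zero_add]
      exact hAm x
    rcases eq_or_ne l j with rfl | h2
    · rw [Equiv.swap_apply_right, S.dec.self l x hx, S.pr_ne (Ne.symm hij) hx, hA0 x (S.pr_ne (Ne.symm hij) hx),
        sub_zero, sub_self, zero_add, add_zero]
      exact hBm x
    · rw [Equiv.swap_apply_of_ne_of_ne h1 h2, hA0 x (S.pr_ne h1 hx), hB0 x (S.pr_ne h2 hx), S.pr_ne h1 hx,
        S.pr_ne h2 hx]
      simpa using hx
  · rw [hl, hτ, hA0 x (S.pr_ne h1 hx), hB0 x (S.pr_ne h2 hx), S.pr_ne h1 hx, S.pr_ne h2 hx]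
    simp

/-- three-cycles -/
theorem exists_three {i j l : κ} (hij : i ≠ j) (hjl : j ≠ l) (hil : i ≠ l) :
    ∃ g ∈ M, g ∈ O Q ∧ ∃ σ : Equiv.Perm κ, Pm D g σ ∧ σ i = l ∧ σ j = i ∧ σ l = j ∧
      ∀ m, m ≠ i → m ≠ j → m ≠ l → ∀ x ∈ D m, g x = x := by
  obtain ⟨a, ha, haσ, ha'⟩ := S.exists_swap hij
  obtain ⟨b, hb, hbσ, hb'⟩ := S.exists_swap hjl
  have h1 := ((haσ.mul hbσ).mul haσ.inv).mul hbσ.inv
  have hc : a * b * a⁻¹ * b⁻¹ ∈ Om Q := by
    have := Subgroup.commutator_mem_commutator ha hb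
    rwa [commutatorElement_def] at this
  have hM := S.H _ hc ⟨_, h1⟩
  refine ⟨a * b * a⁻¹ * b⁻¹, hM, S.hMO hM, _, h1, ?_, ?_, ?_, ?_⟩
  · simp only [Equiv.Perm.mul_apply, Equiv.swap_inv]
    rw [Equiv.swap_apply_of_ne_of_ne hij hil, Equiv.swap_apply_left, Equiv.swap_apply_left,
      Equiv.swap_apply_of_ne_of_ne (Ne.symm hil) (Ne.symm hjl)]
  · simp only [Equiv.Perm.mul_apply, Equiv.swap_inv]
    rw [Equiv.swap_apply_left, Equiv.swap_apply_of_ne_of_ne (Ne.symm hil) (Ne.symm hjl), Equiv.swap_apply_right,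
      Equiv.swap_apply_right]
  · simp only [Equiv.Perm.mul_apply, Equiv.swap_inv]
    rw [Equiv.swap_apply_right, Equiv.swap_apply_right, Equiv.swap_apply_of_ne_of_ne hij hil,
      Equiv.swap_apply_left]
  · intro m hmi hmj hml x hx
    have h2 : a x = x := ha' m hmi hmj x hx
    have h3 : b x = x := hb' m hmj hml x hx
    have h4 : a⁻¹ x = x := by
      apply a.injective
      rw [← LinearEquiv.mul_apply, mul_inv_cancel, h2]; rfl
    have h5 : b⁻¹ x = x := by
      apply b.injective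
      rw [← LinearEquiv.mul_apply, mul_inv_cancel, h3]; rfl
    rw [LinearEquiv.mul_apply, LinearEquiv.mul_apply, LinearEquiv.mul_apply, h5, h4, h3, h2]

/-- nonorthogonal nonsingular vector -/
theorem exists_third_index (s : Finset κ) (h : s.card < Fintype.card κ) : ∃ l, l ∉ s := by
  by_contra hcon
  push Not at hcon
  have : s = Finset.univ := Finset.eq_univ_iff_forall.2 hcon
  rw [this, Finset.card_univ] at h
  omega

end DK

end Cfsg.Agent.Lib.Dk2H94
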