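import Mathlib
import Cfsg.Agent.Lib.Dk2aH94

set_option autoImplicit false
set_option linter.unusedSectionVars false
set_option linter.unusedSimpArgs false
set_option linter.unusedVariables false

/-!
Overgroups of stabilisers of orthogonal decompositions into planes: scalars and polynomials.
-/

namespace Cfsg.Agent.Lib.Dk2H94

open QuadraticMap Module Cfsg.Agent.Lib.Quad Cfsg.Agent.Lib.OrthMax Cfsg.Agent.Lib.OrthNd
open Cfsg.Agent.Lib.OrthDecH94
open Cfsg.Agent.Lib.SLBlockH94 (Dec)

section Field

variable {F : Type*} [Field F] [Finite F]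

/-- avoiding the roots of some quadratics -/
theorem exists_avoid (L : List (F × F × F)) (h : ∀ t ∈ L, t.1 ≠ 0 ∨ t.2.1 ≠ 0 ∨ t.2.2 ≠ 0)
    (hc : 2 * L.length < Nat.card F) : ∃ s : F, ∀ t ∈ L, t.1 + t.2.1 * s + t.2.2 * (s * s) ≠ 0 := by
  classical
  have hFt := Fintype.ofFinite F
  obtain ⟨qp, hqp⟩ : ∃ qp : F × F × F → Polynomial F, ∀ t, qp t = Polynomial.C t.2.2 * Polynomial.X ^ 2 +
    Polynomial.C t.2.1 * Polynomial.X + Polynomial.C t.1 := ⟨_, fun t => rfl⟩
  have hev : ∀ t s, (qp t).eval s = t.1 + t.2.1 * s + t.2.2 * (s * s) := by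
    intro t s
    rw [hqp]
    simp only [Polynomial.eval_add, Polynomial.eval_mul, Polynomial.eval_pow, Polynomial.eval_C, Polynomial.eval_X]
    ring
  have hdeg : ∀ t, (qp t).natDegree ≤ 2 := by
    intro t
    rw [hqp]
    exact Polynomial.natDegree_quadratic_le
  have hne : ∀ t ∈ L, qp t ≠ 0 := by
    intro t ht h0
    have h1 : (qp t).coeff 0 = t.1 := by rw [hqp]; simp
    have h2 : (qp t).coeff 1 = t.2.1 := by rw [hqp]; simp [Polynomial.coeff_X, Polynomial.coeff_C]
    have h3 : (qp t).coeff 2 = t.2.2 := by rw [hqp]; simp [Polynomial.coeff_X, Polynomial.coeff_C]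
    rw [h0, Polynomial.coeff_zero] at h1 h2 h3
    rcases h t ht with h4 | h4 | h4
    · exact h4 h1.symm
    · exact h4 h2.symm
    · exact h4 h3.symm
  have hP : (L.map qp).prod ≠ 0 := by
    apply List.prod_ne_zero
    intro h0
    obtain ⟨t, ht, h1⟩ := List.mem_map.1 h0
    exact hne t ht h1
  have hPd : ((L.map qp).prod).natDegree ≤ 2 * L.length := by
    clear hP hne hc h
    induction L with
    | nil => simp
    | cons t L ih =>
      rw [List.map_cons, List.prod_cons, List.length_cons]
      have h1 := Polynomial.natDegree_mul_le (p := qp t) (q := (L.map qp).prod)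
      have h2 := hdeg t
      omega
  obtain ⟨s, hs⟩ : ∃ s, ((L.map qp).prod).eval s ≠ 0 := by
    by_contra hcon
    push Not at hcon
    apply hP
    apply Polynomial.eq_zero_of_natDegree_lt_card_of_eval_eq_zero' _ (Finset.univ : Finset F) (fun x _ => hcon x)
    rw [Finset.card_univ, ← Nat.card_eq_fintype_card]
    omega
  refine ⟨s, fun t ht h0 => hs ?_⟩
  rw [Polynomial.eval_list_prod, List.prod_eq_zero_iff, List.mem_map]
  exact ⟨qp t, List.mem_map.2 ⟨t, ht, rfl⟩, by rw [hev]; exact h0⟩

/-- inverses in a subring -/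
theorem inv_closed {P : F → Prop} (h1 : P 1) (hmul : ∀ x y, P x → P y → P (x * y)) {x : F} (hx : P x) :
    P x⁻¹ := by
  have hFt := Fintype.ofFinite F
  by_cases h0 : x = 0
  · rw [h0, inv_zero]; rw [h0] at hx; exact hx
  have hpow : ∀ n : ℕ, P (x ^ n) := by
    intro n
    induction n with
    | zero => rw [pow_zero]; exact h1
    | succ n ih => rw [pow_succ]; exact hmul _ _ ih hx
  have h2 := FiniteField.pow_card_sub_one_eq_one x h0
  have h3 : x⁻¹ = x ^ (Fintype.card F - 2) := by
    have h4 : 1 < Fintype.card F := Fintype.one_lt_card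
    have h5 : x ^ (Fintype.card F - 2) * x = 1 := by
      rw [← pow_succ, show Fintype.card F - 2 + 1 = Fintype.card F - 1 by omega, h2]
    exact (eq_inv_of_mul_eq_one_left h5).symm
  rw [h3]
  exact hpow _

/-- scalars, odd characteristic -/
theorem ring_top_odd (h2 : (2 : F) ≠ 0) {P : F → Prop} (h1 : P 1) (hadd : ∀ x y, P x → P y → P (x + y))
    (hneg : ∀ x, P x → P (-x)) (hmul : ∀ x y, P x → P y → P (x * y)) {β : F} (hβ : β ≠ 0)
    (h : ∀ s : F, 1 + β * (s * s) ≠ 0 → P (4 * (1 + β * (s * s))⁻¹)) (x : F) : P x := by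
  have h2' : P 2 := by rw [← one_add_one_eq_two]; exact hadd _ _ h1 h1
  have h4' : P 4 := by
    rw [show (4 : F) = 2 * 2 by norm_num]; exact hmul _ _ h2' h2'
  have h40 : (4 : F) ≠ 0 := by rw [show (4 : F) = 2 * 2 by norm_num]; exact mul_ne_zero h2 h2
  have hinv : ∀ {x : F}, P x → P x⁻¹ := fun hx => inv_closed h1 hmul hx
  have h3 : ∀ s : F, P (β * (s * s)) := by
    intro s
    by_cases h0 : 1 + β * (s * s) = 0
    · rw [show β * (s * s) = -1 by linear_combination h0]; exact hneg _ h1
    · have h5 := hmul _ _ h4' (hinv (h s h0))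
      rw [mul_inv, inv_inv, ← mul_assoc, mul_inv_cancel₀ h40, one_mul] at h5
      have h6 := hadd _ _ h5 (hneg _ h1)
      convert h6 using 1
      ring
  have h4 : ∀ s : F, P (s * s) := by
    intro s
    have h5 := hmul _ _ (hinv (h3 1)) (h3 s)
    convert h5 using 1
    field_simp
  have h5 := hadd _ _ (h4 ((x + 1) * 2⁻¹)) (hneg _ (h4 ((x - 1) * 2⁻¹)))
  convert h5 using 1
  field_simp
  ring

/-- scalars, even characteristic -/
theorem ring_top_even (h2 : (2 : F) = 0) {P : F → Prop} (h1 : P 1) (hadd : ∀ x y, P x → P y → P (x + y))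
    (hmul : ∀ x y, P x → P y → P (x * y)) {c : F}
    (h : ∀ u : F, c + u + u * u ≠ 0 → P (c + u + u * u)⁻¹)
    (hc : 5 ≤ Nat.card F ∨ ∀ u : F, c + u + u * u ≠ 0) (x : F) : P x := by
  have hinv : ∀ {x : F}, P x → P x⁻¹ := fun hx => inv_closed h1 hmul hx
  have h0 : P 0 := by
    have := hadd _ _ h1 h1
    rwa [one_add_one_eq_two, h2] at this
  have h3 : ∀ u : F, P (c + u + u * u) := by
    intro u
    by_cases hu : c + u + u * u = 0
    · rw [hu]; exact h0
    · have := hinv (h u hu)
      rwa [inv_inv] at this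
  have hcP : P c := by simpa using h3 0
  have h4 : ∀ u : F, P (u + u * u) := by
    intro u
    have := hadd _ _ hcP (h3 u)
    convert this using 1
    linear_combination -c * h2
  have h5 : ∀ l, P l → l * l + l ≠ 0 → ∀ u : F, P u := by
    intro l hl hl0 u
    obtain ⟨w, hw⟩ : ∃ w, (l * l + l) * w = u := ⟨(l * l + l)⁻¹ * u, by rw [← mul_assoc, mul_inv_cancel₀ hl0, one_mul]⟩
    have h6 := hadd _ _ (hmul _ _ (hmul _ _ hl hl) (h4 w)) (h4 (l * w))
    convert h6 using 1
    rw [← hw]
    linear_combination (-l * l * w * w) * h2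
  by_cases hl : ∃ l, P l ∧ l * l + l ≠ 0
  · obtain ⟨l, hl, hl0⟩ := hl
    exact h5 l hl hl0 x
  push Not at hl
  have hall : ∀ u : F, (u + u * u) * (u + u * u) + (u + u * u) = 0 := fun u => hl _ (h4 u)
  rcases hc with hc | hc
  · exfalso
    obtain ⟨s, hs⟩ := exists_avoid (F := F) [(0, 1, 1), (1, 1, 1)] (by
      intro t ht
      simp only [List.mem_cons, List.not_mem_nil, or_false] at ht
      rcases ht with rfl | rfl
      · right; left; exact one_ne_zero
      · left; exact one_ne_zero) (by simp only [List.length_cons, List.length_nil]; omega)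
    have a1 := hs (0, 1, 1) (by simp)
    have a2 := hs (1, 1, 1) (by simp)
    apply mul_ne_zero a1 a2
    linear_combination hall s
  · -- `c` is not in the image
    have h6 := hl c hcP
    have h7 := hc 0
    have h8 := hc 1
    have h9 : c * (c + 1) = 0 := by linear_combination h6
    rcases mul_eq_zero.1 h9 with h10 | h10
    · exact absurd (by rw [h10]; ring) h7
    · by_cases hx : ∃ x : F, x + x * x ≠ 0
      · obtain ⟨u, hu⟩ := hx
        have h11 := hall u
        have h12 : u + u * u + 1 = 0 := by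
          have : (u + u * u) * (u + u * u + 1) = 0 := by linear_combination h11
          exact (mul_eq_zero.1 this).resolve_left hu
        exact absurd (by linear_combination h12 + h10 - h2) (hc u)
      · push Not at hx
        -- then `F` has two elements
        have h11 : x * (x + 1) = 0 := by linear_combination hx x
        rcases mul_eq_zero.1 h11 with h12 | h12
        · rw [h12]; exact h0
        · rw [show x = 1 by linear_combination h12 - h2]; exact h1

end Field

end Cfsg.Agent.Lib.Dk2H94
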