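import Mathlib
import Cfsg.Agent.Lib.Dk2bH94

set_option autoImplicit false
set_option linter.unusedSectionVars false
set_option linter.unusedSimpArgs false
set_option linter.unusedVariables false

/-!
Overgroups of stabilisers of orthogonal decompositions into planes: from one Siegel element to everything.
-/

namespace Cfsg.Agent.Lib.Dk2H94

open QuadraticMap Module Cfsg.Agent.Lib.Quad Cfsg.Agent.Lib.OrthMax Cfsg.Agent.Lib.OrthNd
open Cfsg.Agent.Lib.OrthDecH94
open Cfsg.Agent.Lib.SLBlockH94 (Dec)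

variable {F V : Type*} [Field F] [Finite F] [AddCommGroup V] [Module F V] [FiniteDimensional F V]
  {Q : QuadraticForm F V} {M : Subgroup (V ≃ₗ[F] V)}
variable {κ : Type*} [Fintype κ] [DecidableEq κ]

/-- the type of the blocks -/
def Ty (Q : QuadraticForm F V) (D : κ → Submodule F V) : Prop :=
  (∀ i, ∀ x ∈ D i, Q x = 0 → x = 0) ∨ (7 ≤ Nat.card F ∧ ∀ i, ∃ x ∈ D i, x ≠ 0 ∧ Q x = 0)

namespace DK

variable {D : κ → Submodule F V} {pr : κ → V →ₗ[F] V} (S : DK Q D pr M)
include S

omit [Finite F] in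
theorem exists_gen {l : κ} {y : V} (hy : y ∈ D l) (hy0 : y ≠ 0) : ∃ g ∈ D l, polar Q y g = 1 ∧ g ∉ F ∙ y := by
  obtain ⟨g, hg, -, hyg⟩ := exists_one_in S.hQ (S.nds l) bot_le hy (by simpa using hy0)
  by_cases hm : g ∈ F ∙ y
  · obtain ⟨w, hw, hwy⟩ : ∃ w ∈ D l, w ∉ F ∙ y := by
      by_contra hcon
      push Not at hcon
      have := Submodule.finrank_mono (show D l ≤ F ∙ y from hcon)
      rw [finrank_span_singleton hy0] at this
      have := S.dim l
      omega
    by_cases hw0 : polar Q y w = 0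
    · refine ⟨g + w, (D l).add_mem hg hw, by rw [polar_add_right, hyg, hw0, add_zero], fun h2 => hwy ?_⟩
      have := Submodule.sub_mem _ h2 hm
      rwa [add_sub_cancel_left] at this
    · refine ⟨(polar Q y w)⁻¹ • w, (D l).smul_mem _ hw, by
        rw [polar_smul_right, smul_eq_mul, inv_mul_cancel₀ hw0], fun h2 => hwy ?_⟩
      have := Submodule.smul_mem _ (polar Q y w) h2
      rwa [smul_smul, mul_inv_cancel₀ hw0, one_smul] at this
  · exact ⟨g, hg, hyg, hm⟩

omit [Finite F] in
theorem span2 (hd : ∀ i, finrank F (D i) = 2) {l : κ} {y g : V} (hy : y ∈ D l) (hy0 : y ≠ 0) (hg : g ∈ D l)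
    (hgy : g ∉ F ∙ y) {x : V} (hx : x ∈ D l) : ∃ a b : F, a • y + b • g = x := by
  have hli : LinearIndependent F ![y, g] := by
    rw [LinearIndependent.pair_iff' hy0]
    intro a ha
    exact hgy (Submodule.mem_span_singleton.2 ⟨a, ha⟩)
  have h1 := finrank_span_eq_card hli
  rw [Matrix.range_cons, Matrix.range_cons, Matrix.range_empty, Set.union_empty, Set.singleton_union] at h1
  have h2 : Submodule.span F {y, g} = D l := by
    apply Submodule.eq_of_le_of_finrank_eq
    · rw [Submodule.span_le]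
      rintro u (rfl | rfl)
      · exact hy
      · exact hg
    · rw [h1, hd]; simp
  rw [← h2] at hx
  exact Submodule.mem_span_pair.1 hx

/-- a nonsingular vector, neither proportional nor orthogonal to a given one -/
theorem ex_b (ty : Ty Q D) {l : κ} {y : V} (hy : y ∈ D l) (hy0 : y ≠ 0) :
    ∃ b ∈ D l, Q b ≠ 0 ∧ polar Q b y ≠ 0 ∧ b ∉ F ∙ y := by
  obtain ⟨g, hg, hyg, hgy⟩ := S.exists_gen hy hy0
  rcases ty with han | ⟨h7, -⟩
  · refine ⟨g, hg, fun h => ?_, by rw [polar_comm, hyg]; exact one_ne_zero, hgy⟩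
    rw [han l g hg h, polar_zero_right] at hyg
    exact zero_ne_one hyg
  · obtain ⟨s, hs⟩ := exists_avoid (F := F) [(Q g, 1, Q y), (1, 2 * Q y, 0)] (by
      intro t ht
      simp only [List.mem_cons, List.not_mem_nil, or_false] at ht
      rcases ht with rfl | rfl
      · right; left; exact one_ne_zero
      · left; exact one_ne_zero) (by simp only [List.length_cons, List.length_nil]; omega)
    have a1 := hs (Q g, 1, Q y) (by simp)
    have a2 := hs (1, 2 * Q y, 0) (by simp)
    refine ⟨g + s • y, (D l).add_mem hg ((D l).smul_mem _ hy), ?_, ?_, ?_⟩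
    · rw [Q_add, Q_smul, polar_smul_right, polar_comm Q g y, hyg]
      simp only [smul_eq_mul] at *
      intro h
      apply a1
      linear_combination h
    · rw [polar_add_left, polar_smul_left, polar_comm Q g y, hyg, polar_self', smul_eq_mul]
      intro h
      apply a2
      linear_combination h
    · intro h
      apply hgy
      have := Submodule.sub_mem _ h (Submodule.smul_mem _ s (Submodule.mem_span_singleton_self y))
      rwa [add_sub_cancel_right] at this

/-- two independent vectors of the same norm -/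
theorem two_same (ty : Ty Q D) {l : κ} {b : V} (hb : b ∈ D l) (hQb : Q b ≠ 0) :
    ∃ b' ∈ D l, Q b' = Q b ∧ b' ∉ F ∙ b := by
  have hb0 : b ≠ 0 := by rintro rfl; exact hQb (QuadraticMap.map_zero Q)
  obtain ⟨c, hc, hQc, hcb, hcm⟩ := S.ex_b ty hb hb0
  refine ⟨refl Q c b, S.refl_stab hc hb, refl_mem c b, fun h => hcm ?_⟩
  rw [refl_apply hQc] at h
  have h1 := Submodule.sub_mem _ (Submodule.mem_span_singleton_self b) h
  rw [sub_sub_cancel, Submodule.smul_mem_iff _ (mul_ne_zero (inv_ne_zero hQc) hcb)] at h1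
  exact h1

theorem exists_nonsing_in (l : κ) : ∃ b ∈ D l, Q b ≠ 0 :=
  exists_nonsing (S.nds l) (by have := S.dim l; omega)

omit [Finite F] in
/-- orthogonal vector in a block, odd characteristic -/
theorem exists_orth (h2 : (2 : F) ≠ 0) {l : κ} {b : V} (hb : b ∈ D l) (hQb : Q b ≠ 0) :
    ∃ c ∈ D l, polar Q b c = 0 ∧ c ∉ F ∙ b ∧ c ≠ 0 ∧ (finrank F (D l) = 2 → Q c ≠ 0) := by
  have hb0 : b ≠ 0 := by rintro rfl; exact hQb (QuadraticMap.map_zero Q)
  have hbb : polar Q b b ≠ 0 := by rw [polar_self']; exact mul_ne_zero h2 hQb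
  obtain ⟨g, hg, hbg, hgb⟩ := S.exists_gen hb hb0
  have hc : g - (polar Q b g / polar Q b b) • b ∈ D l := (D l).sub_mem hg ((D l).smul_mem _ hb)
  have hbc : polar Q b (g - (polar Q b g / polar Q b b) • b) = 0 := by
    rw [polar_sub_right, polar_smul_right, smul_eq_mul, div_mul_cancel₀ _ hbb, sub_self]
  have hcm : g - (polar Q b g / polar Q b b) • b ∉ F ∙ b := by
    intro h
    apply hgb
    have := Submodule.add_mem _ h (Submodule.smul_mem _ (polar Q b g / polar Q b b) (Submodule.mem_span_singleton_self b))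
    rwa [sub_add_cancel] at this
  have hc0 : g - (polar Q b g / polar Q b b) • b ≠ 0 := fun h => hcm (by rw [h]; exact Submodule.zero_mem _)
  refine ⟨_, hc, hbc, hcm, hc0, fun hfr hQc => hc0 ?_⟩
  obtain ⟨c, hcdef⟩ : ∃ c, c = g - (polar Q b g / polar Q b b) • b := ⟨_, rfl⟩
  rw [← hcdef] at hc hbc hcm hc0 hQc ⊢
  have h1 : c ∈ D l ⊓ perp Q (D l) := by
    refine ⟨hc, mem_perp.2 fun x hx => ?_⟩
    have hli : LinearIndependent F ![b, c] := by
      rw [LinearIndependent.pair_iff' hb0]
      intro a ha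
      exact hcm (Submodule.mem_span_singleton.2 ⟨a, ha⟩)
    have h1 := finrank_span_eq_card hli
    rw [Matrix.range_cons, Matrix.range_cons, Matrix.range_empty, Set.union_empty, Set.singleton_union] at h1
    have h2 : Submodule.span F {b, c} = D l := by
      apply Submodule.eq_of_le_of_finrank_eq
      · rw [Submodule.span_le]
        rintro u (rfl | rfl)
        · exact hb
        · exact hc
      · rw [h1, hfr]; simp
    rw [← h2] at hx
    obtain ⟨s, t, rfl⟩ := Submodule.mem_span_pair.1 hx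
    rw [polar_add_left, polar_smul_left, polar_smul_left, hbc, polar_self', hQc]; simp
  rwa [S.nds l, Submodule.mem_bot] at h1

/-- the trace identity for a rotation -/
theorem trace_id (hd : ∀ i, finrank F (D i) = 2) {l : κ} {b b' : V} (hb : b ∈ D l) (hb' : b' ∈ D l) (hQb : Q b ≠ 0)
    (hQb' : Q b' ≠ 0) (hbb' : b' ∉ F ∙ b) {y : V} (hy : y ∈ D l) :
    refl Q b (refl Q b' y) + refl Q b' (refl Q b y) =
      (polar Q b b' * polar Q b b' * (Q b)⁻¹ * (Q b')⁻¹ - 2) • y := by
  have hb0 : b ≠ 0 := by rintro rfl; exact hQb (QuadraticMap.map_zero Q)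
  obtain ⟨s, t, rfl⟩ := S.span2 hd hb hb0 hb' hbb' hy
  have hc : polar Q b' b = polar Q b b' := polar_comm _ _ _
  simp only [map_add, LinearEquiv.map_smul, refl_self hQb, refl_self hQb', map_neg]
  simp only [refl_apply hQb, refl_apply hQb', hc, polar_sub_right, polar_smul_right, polar_self', polar_neg_right,
    smul_eq_mul]
  have e1 : (Q b)⁻¹ * (2 * Q b) = 2 := by field_simp
  have e2 : (Q b')⁻¹ * (2 * Q b') = 2 := by field_simp
  match_scalars
  · field_simp
    ring
  · field_simp
    ring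

/-- scalars -/
theorem scal (hd : ∀ i, finrank F (D i) = 2) (ty : Ty Q D) {l : κ} {d : V}
    (hQd : Q d = 0) (hdl : ∀ x ∈ D l, polar Q d x = 0)
    (hstar : ∀ b ∈ D l, Q b ≠ 0 → ∀ y ∈ D l, SI Q M d y → SI Q M d (refl Q b y)) (c : F) :
    ∀ y ∈ D l, SI Q M d y → SI Q M d (c • y) := by
  obtain ⟨P, hP⟩ : ∃ P : F → Prop, ∀ c, P c ↔ ∀ y ∈ D l, SI Q M d y → SI Q M d (c • y) := ⟨_, fun _ => Iff.rfl⟩
  rw [← hP]
  have h1 : P 1 := by rw [hP]; intro y _ h; rwa [one_smul]
  have hadd : ∀ x y, P x → P y → P (x + y) := by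
    intro x y hx hy
    rw [hP] at *
    intro u hu h
    rw [add_smul]
    exact (hx u hu h).add hQd (hdl _ ((D l).smul_mem _ hu)) (hdl _ ((D l).smul_mem _ hu)) (hy u hu h)
  have hneg : ∀ x, P x → P (-x) := by
    intro x hx
    rw [hP] at *
    intro u hu h
    rw [neg_smul]
    exact (hx u hu h).neg hQd (hdl _ ((D l).smul_mem _ hu))
  have hmul : ∀ x y, P x → P y → P (x * y) := by
    intro x y hx hy
    rw [hP] at *
    intro u hu h
    rw [mul_smul]
    exact hx _ ((D l).smul_mem _ hu) (hy u hu h)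
  have h2' : P 2 := by rw [← one_add_one_eq_two]; exact hadd _ _ h1 h1
  have htr : ∀ b ∈ D l, ∀ b' ∈ D l, Q b ≠ 0 → Q b' ≠ 0 → b' ∉ F ∙ b →
      P (polar Q b b' * polar Q b b' * (Q b)⁻¹ * (Q b')⁻¹) := by
    intro b hb b' hb' hQb hQb' hbb'
    have h3 : P (polar Q b b' * polar Q b b' * (Q b)⁻¹ * (Q b')⁻¹ - 2) := by
      rw [hP]
      intro y hy h
      rw [← S.trace_id hd hb hb' hQb hQb' hbb' hy]
      have e1 := hstar b' hb' hQb' y hy h
      have e2 := hstar b hb hQb y hy h
      have m1 := S.refl_stab hb' hy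
      have m2 := S.refl_stab hb hy
      exact (hstar b hb hQb _ m1 e1).add hQd (hdl _ (S.refl_stab hb m1)) (hdl _ (S.refl_stab hb' m2))
        (hstar b' hb' hQb' _ m2 e2)
    have := hadd _ _ h3 h2'
    rwa [sub_add_cancel] at this
  obtain ⟨b, hb, hQb⟩ := S.exists_nonsing_in l
  have hb0 : b ≠ 0 := by rintro rfl; exact hQb (QuadraticMap.map_zero Q)
  by_cases h2 : (2 : F) = 0
  · obtain ⟨g, hg, hbg, hgb⟩ := S.exists_gen hb hb0
    refine ring_top_even h2 h1 hadd hmul (c := Q b * Q g) ?_ ?_ c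
    · intro u hu
      have hQ' : Q b * Q (g + (u * (Q b)⁻¹) • b) = Q b * Q g + u + u * u := by
        rw [Q_add, Q_smul, polar_smul_right, polar_comm Q g b, hbg, smul_eq_mul]
        field_simp
        ring
      have h3 : Q (g + (u * (Q b)⁻¹) • b) ≠ 0 := by
        intro h4
        rw [h4, mul_zero] at hQ'
        exact hu hQ'.symm
      have h4 := htr b hb (g + (u * (Q b)⁻¹) • b) ((D l).add_mem hg ((D l).smul_mem _ hb)) hQb h3 (by
        intro h
        apply hgb
        have := Submodule.sub_mem _ h (Submodule.smul_mem _ (u * (Q b)⁻¹) (Submodule.mem_span_singleton_self b))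
        rwa [add_sub_cancel_right] at this)
      rw [polar_add_right, polar_smul_right, polar_self', h2, zero_mul, smul_zero, add_zero, hbg, one_mul, one_mul,
        ← mul_inv, hQ'] at h4
      exact h4
    · rcases ty with han | ⟨h7, -⟩
      · right
        intro u hu
        have h3 : Q b * Q (g + (u * (Q b)⁻¹) • b) = 0 := by
          rw [Q_add, Q_smul, polar_smul_right, polar_comm Q g b, hbg, smul_eq_mul]
          field_simp
          linear_combination hu
        have h4 := han l _ ((D l).add_mem hg ((D l).smul_mem _ hb)) ((mul_eq_zero.1 h3).resolve_left hQb)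
        apply hgb
        rw [Submodule.mem_span_singleton]
        exact ⟨-(u * (Q b)⁻¹), by rw [neg_smul]; exact neg_eq_of_add_eq_zero_left h4⟩
      · left; omega
  · obtain ⟨e, he, hbe, hem, he0, hQe⟩ := S.exists_orth h2 hb hQb
    have hQe := hQe (hd l)
    refine ring_top_odd h2 h1 hadd hneg hmul (β := Q e * (Q b)⁻¹) (mul_ne_zero hQe (inv_ne_zero hQb)) ?_ c
    intro s hs
    by_cases hs0 : s = 0
    · rw [hs0]
      have h4 : P (2 * 2) := hmul _ _ h2' h2'
      convert h4 using 1
      norm_num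
    have hQ' : Q (b + s • e) = Q b * (1 + Q e * (Q b)⁻¹ * (s * s)) := by
      rw [Q_add, Q_smul, polar_smul_right, hbe, smul_eq_mul]
      field_simp
      ring
    have h3 : Q (b + s • e) ≠ 0 := by rw [hQ']; exact mul_ne_zero hQb hs
    have h4 := htr b hb (b + s • e) ((D l).add_mem hb ((D l).smul_mem _ he)) hQb h3 (by
      intro h
      apply hem
      have := Submodule.sub_mem _ h (Submodule.mem_span_singleton_self b)
      rw [add_sub_cancel_left, Submodule.smul_mem_iff _ hs0] at this
      exact this)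
    rw [polar_add_right, polar_smul_right, hbe, smul_zero, add_zero, polar_self', hQ'] at h4
    convert h4 using 1
    have h5 := hs
    field_simp
    norm_num

end DK

end Cfsg.Agent.Lib.Dk2H94
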