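import Mathlib
import Cfsg.Agent.Lib.Dk2cH94

set_option autoImplicit false
set_option linter.unusedSectionVars false
set_option linter.unusedSimpArgs false
set_option linter.unusedVariables false

/-!
Overgroups of stabilisers of orthogonal decompositions into planes: from one Siegel element to everything.
-/

namespace Cfsg.Agent.Lib.Dk2H94

open QuadraticMap Module Cfsg.Agent.Lib.Quad Cfsg.Agent.Lib.OrthMax Cfsg.Agent.Lib.OrthNd
open Cfsg.Agent.Lib.OrthDecH94
open Cfsg.Agent.Lib.SLBlockH94 (Dec)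

variable {F V : Type*} [Field F] [Finite F] [AddCommGroup V] [Module F V] [FiniteDimensional F V]
  {Q : QuadraticForm F V} {M : Subgroup (V ≃ₗ[F] V)}
variable {κ : Type*} [Fintype κ] [DecidableEq κ]

namespace DK

variable {D : κ → Submodule F V} {pr : κ → V →ₗ[F] V} (S : DK Q D pr M)
include S

omit [Finite F] in
theorem fix_of_pr {i : κ} {b z : V} (hb : b ∈ D i) (hz : pr i z = 0) : refl Q b z = z := by
  apply refl_of_perp
  rw [polar_comm]
  exact S.pr_zero_iff.1 hz b hb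

/-- products of two reflections of the same norm -/
theorem pair_same {i j : κ} {c c' : V} (hc : c ∈ D i) (hc' : c' ∈ D j)
    (hQ0 : Q c ≠ 0) (hcc : Q c' = Q c) : refl Q c * refl Q c' ∈ M :=
  S.refl_pair hc hc' hQ0 ⟨1, one_ne_zero, by rw [hcc]; ring⟩

/-- absorbing a block -/
theorem absorb2 (hd : ∀ i, finrank F (D i) = 2) (ty : Ty Q D) {z u : V} {i m : κ} (him : i ≠ m) (hzi : pr i z = 0)
    (hzm : pr m z = 0) (h : SF Q M z u) (hum : pr m u = 0) (hui : pr i u ≠ 0) : ∀ y ∈ D i, SF Q M z y := by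
  have key : ∀ b ∈ D i, Q b ≠ 0 → ∀ w, SF Q M z w → pr m w = 0 → polar Q b w ≠ 0 → SF Q M z b := by
    intro b hb hQb w hw hwm hbw
    obtain ⟨b4, hb4, hQb4⟩ := S.exists_same i m hb
    have hx := S.pair_same hb hb4 hQb hQb4
    have h1 := hw.map S.hMO hx
    rw [LinearEquiv.mul_apply, LinearEquiv.mul_apply, S.fix_of_pr hb4 hzm, S.fix_of_pr hb hzi,
      S.fix_of_pr hb4 hwm, refl_apply hQb] at h1
    have h2 := hw.sub h1
    rw [sub_sub_cancel] at h2
    exact h2.of_smul (mul_ne_zero (inv_ne_zero hQb) hbw)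
  obtain ⟨b1, hb1, hQb1, hbu, -⟩ := S.ex_b ty (S.dec.mem i u) hui
  rw [S.polar_pr' hb1] at hbu
  have h1 := key b1 hb1 hQb1 u h hum hbu
  have hb10 : b1 ≠ 0 := by rintro rfl; exact hQb1 (QuadraticMap.map_zero Q)
  obtain ⟨b2, hb2, hQb2, hb21, hbm⟩ := S.ex_b ty hb1 hb10
  have h2 := key b2 hb2 hQb2 b1 h1 (S.pr_ne him hb1) hb21
  intro y hy
  obtain ⟨s, t, rfl⟩ := S.span2 hd hb1 hb10 hb2 hbm hy
  exact (h1.smul s).add (h2.smul t)

omit [Finite F] in
theorem eq_two {i j : κ} (hij : i ≠ j) {d : V} (hdp : ∀ m, m ≠ i → m ≠ j → pr m d = 0) : pr i d + pr j d = d := by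
  have h1 := S.dec.sum d
  rw [← Finset.sum_subset (Finset.subset_univ {i, j}) (by
    intro m _ hm
    simp only [Finset.mem_insert, Finset.mem_singleton, not_or] at hm
    exact hdp m hm.1 hm.2), Finset.sum_pair hij] at h1
  exact h1

theorem exists_index4 (h5 : 5 ≤ Fintype.card κ) (a b c e : κ) : ∃ m, m ≠ a ∧ m ≠ b ∧ m ≠ c ∧ m ≠ e := by
  obtain ⟨m, hm⟩ := S.exists_third_index {a, b, c, e} (lt_of_le_of_lt Finset.card_le_four (by omega))
  simp only [Finset.mem_insert, Finset.mem_singleton, not_or] at hm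
  exact ⟨m, hm.1, hm.2.1, hm.2.2.1, hm.2.2.2⟩

theorem st3b (hd : ∀ i, finrank F (D i) = 2) (ty : Ty Q D) (h5 : 5 ≤ Fintype.card κ) {i j : κ} (hij : i ≠ j)
    {d : V} (hd0 : d ≠ 0) (hQd : Q d = 0) (hdp : ∀ m, m ≠ i → m ≠ j → pr m d = 0)
    (hdi : pr i d ≠ 0) (hDm : ∀ m, m ≠ i → m ≠ j → ∀ y ∈ D m, SF Q M d y) : Om Q ≤ M := by
  have hidx := S.exists_index4 h5
  have hdm : ∀ m, m ≠ i → m ≠ j → ∀ x ∈ D m, polar Q d x = 0 := fun m h1 h2 => S.pr_zero_iff.1 (hdp m h1 h2)
  -- choose the pair `a, b`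
  obtain ⟨a, hai, haj, -, -⟩ := hidx i j i j
  obtain ⟨b, hbi, hbj, hba, -⟩ := hidx i j a a
  -- every singular vector of `D a + D b` is full
  have hfull : ∀ z, Q z = 0 → (∀ m, m ≠ a → m ≠ b → pr m z = 0) → Full Q M z := by
    intro z hQz hzp
    have hze := S.eq_two hba.symm hzp
    have hzm : ∀ m, m ≠ a → m ≠ b → ∀ x ∈ D m, polar Q z x = 0 := fun m h1 h2 => S.pr_zero_iff.1 (hzp m h1 h2)
    have hdz : SF Q M d z := by
      rw [← hze]
      exact (hDm a hai haj _ (S.dec.mem a z)).add (hDm b hbi hbj _ (S.dec.mem b z))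
    have hzd := hdz.swap hQz
    -- `D i`
    obtain ⟨n, hni, hnj, hna, hnb⟩ := hidx i j a b
    have hDi : ∀ y ∈ D i, SF Q M z y := S.absorb2 hd ty hni.symm (hzp i hai.symm hbi.symm)
      (hzp n hna hnb) hzd (hdp n hni hnj) hdi
    -- all other blocks
    have hall : ∀ m, m ≠ a → m ≠ b → ∀ y ∈ D m, SF Q M z y := by
      intro m hma hmb
      by_cases hmi : m = i
      · subst hmi; exact hDi
      obtain ⟨n, hna, hnb, hni, hnm⟩ := hidx a b i m
      obtain ⟨g, hg, hgO, σ, hσ, -, hσi, -, hfix⟩ := S.exists_three (i := m) (j := i) (l := n) hmi hni.symm hnm.symm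
      have hgz : g z = z := by
        rw [← hze, map_add, hfix a hma.symm hai hna.symm _ (S.dec.mem a z),
          hfix b hmb.symm hbi hnb.symm _ (S.dec.mem b z)]
      intro y hy
      have h2 : y ∈ (D i).map (g : V →ₗ[F] V) := by rw [hσ, hσi]; exact hy
      obtain ⟨y0, hy0, rfl⟩ := h2
      have h3 := (hDi y0 hy0).map S.hMO hg
      rwa [hgz] at h3
    -- the blocks `a, b`
    have hab : ∀ w, (∀ m, m ≠ a → m ≠ b → pr m w = 0) → polar Q z w = 0 → SF Q M z w := by
      intro w hwp hzw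
      have hwe := S.eq_two hba.symm hwp
      have hdw : SF Q M d w := by
        rw [← hwe]
        exact (hDm a hai haj _ (S.dec.mem a w)).add (hDm b hbi hbj _ (S.dec.mem b w))
      obtain ⟨y0, hy0, -, hdy0⟩ := exists_one_in S.hQ (S.nds i) bot_le (S.dec.mem i d) (by simpa using hdi)
      rw [S.polar_pr hy0] at hdy0
      have hwy0 : polar Q w y0 = 0 := S.pr_zero_iff.1 (hwp i hai.symm hbi.symm) y0 hy0
      obtain ⟨g, hg, hgx⟩ := hdw.2.2 1
      rw [one_smul] at hgx
      have h1 := (hDi y0 hy0).map S.hMO hg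
      have h2 : g z = z := by
        rw [hgx, siegMap_apply, hdz.2.1, polar_comm Q w z, hzw]; simp
      have h3 : g y0 = y0 + w - Q w • d := by
        rw [hgx, siegMap_apply, hdy0, hwy0]; simp
      rw [h2, h3] at h1
      have h4 := (h1.sub (hDi y0 hy0)).add (hzd.smul (Q w))
      have h5 : y0 + w - Q w • d - y0 + Q w • d = w := by abel
      rwa [h5] at h4
    refine ⟨hQz, fun y hy => ?_⟩
    obtain ⟨w, hw⟩ : ∃ w, w = pr a y + pr b y := ⟨_, rfl⟩
    have hwp : ∀ m, m ≠ a → m ≠ b → pr m w = 0 := by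
      intro m h1 h2
      rw [hw, map_add, S.pr_ne h1.symm (S.dec.mem a y), S.pr_ne h2.symm (S.dec.mem b y), add_zero]
    have hyw : ∀ m, m ≠ a → m ≠ b → pr m (y - w) = pr m y := by
      intro m h1 h2
      rw [map_sub, hwp m h1 h2, sub_zero]
    have hprab : pr a (y - w) = 0 ∧ pr b (y - w) = 0 := by
      rw [hw, map_sub, map_sub, map_add, map_add, S.pr_self (S.dec.mem a y), S.pr_self (S.dec.mem b y),
        S.pr_ne hba (S.dec.mem b y), S.pr_ne hba.symm (S.dec.mem a y)]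
      simp
    have h1 : SF Q M z (y - w) := by
      have h2 : y - w ∈ Us Q M hQz := by
        rw [← S.dec.sum (y - w)]
        apply Submodule.sum_mem
        intro m _
        by_cases hma : m = a
        · rw [hma, hprab.1]; exact Submodule.zero_mem _
        by_cases hmb : m = b
        · rw [hmb, hprab.2]; exact Submodule.zero_mem _
        exact hall m hma hmb _ (S.dec.mem m _)
      exact h2
    have hzw : polar Q z w = 0 := by
      have h2 := h1.2.1
      rw [polar_sub_right, hy, zero_sub, neg_eq_zero] at h2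
      exact h2
    have h2 := (h1.add (hab w hwp hzw)).2.2 1
    rwa [sub_add_cancel, one_smul] at h2
  -- a hyperbolic pair
  have hAB : NDs Q (D a ⊔ D b) := by
    rw [NDs, eq_bot_iff]
    rintro x ⟨hx, hx'⟩
    obtain ⟨u, hu, v, hv, rfl⟩ := Submodule.mem_sup.1 hx
    have h1 : pr a (u + v) = 0 := S.pr_zero_iff.2 fun y hy => mem_perp'.1 hx' y (Submodule.mem_sup_left hy)
    have h2 : pr b (u + v) = 0 := S.pr_zero_iff.2 fun y hy => mem_perp'.1 hx' y (Submodule.mem_sup_right hy)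
    rw [map_add, S.pr_self hu, S.pr_ne hba hv, add_zero] at h1
    rw [map_add, S.pr_self hv, S.pr_ne hba.symm hu, zero_add] at h2
    rw [h1, h2, add_zero]; exact Submodule.zero_mem _
  have hfr : 3 ≤ finrank F (D a ⊔ D b : Submodule F V) := by
    have h1 : D a < D a ⊔ D b := by
      refine lt_of_le_of_ne le_sup_left fun h => ?_
      obtain ⟨x, hx, hQx⟩ := S.exists_nonsing_in b
      have h2 : x ∈ D a := by rw [h]; exact Submodule.mem_sup_right hx
      have h3 := S.pr_self hx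
      rw [S.pr_ne hba.symm h2] at h3
      rw [← h3, QuadraticMap.map_zero] at hQx
      exact hQx rfl
    have h2 := Submodule.finrank_lt_finrank_of_lt h1
    rw [hd] at h2
    omega
  have hmem : ∀ x ∈ D a ⊔ D b, ∀ m, m ≠ a → m ≠ b → pr m x = 0 := by
    intro x hx m h1 h2
    obtain ⟨u, hu, v, hv, rfl⟩ := Submodule.mem_sup.1 hx
    rw [map_add, S.pr_ne h1.symm hu, S.pr_ne h2.symm hv, add_zero]
  obtain ⟨e, he, f, hf, hQe, hQf, hef⟩ := exists_pair_in S.hQ hAB hfr
  exact Om_le_of_two S.hQ S.gen S.n4 S.hMO (hfull e hQe (hmem e he)) (hfull f hQf (hmem f hf))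
    (by rw [hef]; exact one_ne_zero)

/-- one Siegel element generates everything -/
theorem st3 (hd : ∀ i, finrank F (D i) = 2) (ty : Ty Q D) (h5 : 5 ≤ Fintype.card κ) {i j l : κ} (hij : i ≠ j)
    (hil : i ≠ l) (hjl : j ≠ l) {d y : V} (hd0 : d ≠ 0) (hQd : Q d = 0) (hdp : ∀ m, m ≠ i → m ≠ j → pr m d = 0)
    (hdy : polar Q d y = 0) (h : SI Q M d y) (hy : pr l y ≠ 0) : Om Q ≤ M := by
  have hdm : ∀ m, m ≠ i → m ≠ j → ∀ x ∈ D m, polar Q d x = 0 := fun m h1 h2 => S.pr_zero_iff.1 (hdp m h1 h2)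
  have hidx : ∀ a b c e : κ, ∃ m, m ≠ a ∧ m ≠ b ∧ m ≠ c ∧ m ≠ e := by
    intro a b c e
    obtain ⟨m, hm⟩ := S.exists_third_index {a, b, c, e} (lt_of_le_of_lt Finset.card_le_four (by omega))
    simp only [Finset.mem_insert, Finset.mem_singleton, not_or] at hm
    exact ⟨m, hm.1, hm.2.1, hm.2.2.1, hm.2.2.2⟩
  have hli : l ≠ i := hil.symm
  have hlj : l ≠ j := hjl.symm
  have hdl := hdm l hli hlj
  -- step 1
  obtain ⟨y1, hy1, hy10, h1⟩ : ∃ y1 ∈ D l, y1 ≠ 0 ∧ SI Q M d y1 := by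
    obtain ⟨b, hb, hQb⟩ := S.exists_nonsing_in l
    obtain ⟨b', hb', hQb', hbb'⟩ := S.two_same ty hb hQb
    have hQb'0 : Q b' ≠ 0 := by rw [hQb']; exact hQb
    have hb0 : b ≠ 0 := by rintro rfl; exact hQb (QuadraticMap.map_zero Q)
    have hx := S.pair_same hb hb' hQb hQb'
    have h1 := h.map hx (S.hMO hx)
    rw [LinearEquiv.mul_apply, LinearEquiv.mul_apply, S.fix_of_pr hb' (hdp l hli hlj),
      S.fix_of_pr hb (hdp l hli hlj)] at h1
    have hpd : polar Q d (refl Q b (refl Q b' y)) = 0 := by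
      have h2 : refl Q b (refl Q b' d) = d := by
        rw [S.fix_of_pr hb' (hdp l hli hlj), S.fix_of_pr hb (hdp l hli hlj)]
      conv_lhs => rw [← h2]
      rw [O_polar (refl_mem b), O_polar (refl_mem b'), hdy]
    refine ⟨refl Q b (refl Q b' y) - y, ?_, ?_, h1.sub hQd hpd hdy h⟩
    · have h2 : refl Q b (refl Q b' y) - y = -((Q b)⁻¹ * polar Q b (refl Q b' y)) • b - ((Q b')⁻¹ * polar Q b' y) • b' := by
        rw [refl_apply hQb (refl Q b' y)]
        conv_lhs => rw [refl_apply hQb'0 y]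
        rw [refl_apply hQb'0 y]
        module
      rw [h2]
      exact (D l).sub_mem ((D l).smul_mem _ hb) ((D l).smul_mem _ hb')
    · intro h2
      rw [sub_eq_zero] at h2
      have h3 : refl Q b' y = refl Q b y := by
        have := congrArg (refl Q b) h2
        rwa [refl_refl] at this
      rw [refl_apply hQb'0, refl_apply hQb, sub_right_inj] at h3
      have h4 : polar Q b' y = 0 := by
        by_contra hne
        apply hbb'
        have h5 : ((Q b')⁻¹ * polar Q b' y) • b' ∈ F ∙ b := by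
          rw [h3]; exact Submodule.smul_mem _ _ (Submodule.mem_span_singleton_self b)
        rwa [Submodule.smul_mem_iff _ (mul_ne_zero (inv_ne_zero hQb'0) hne)] at h5
      rw [h4, mul_zero, zero_smul] at h3
      have h5 : polar Q b y = 0 := by
        rcases smul_eq_zero.1 h3.symm with h6 | h6
        · exact (mul_eq_zero.1 h6).resolve_left (inv_ne_zero hQb)
        · exact absurd h6 hb0
      apply hy
      rw [S.pr_zero_iff]
      intro x hx
      obtain ⟨s, t, rfl⟩ := S.span2 hd hb hb0 hb' hbb' hx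
      rw [polar_add_right, polar_smul_right, polar_smul_right, polar_comm Q y b, polar_comm Q y b', h4, h5]; simp
  -- step 2
  have hstar : ∀ b ∈ D l, Q b ≠ 0 → ∀ y ∈ D l, SI Q M d y → SI Q M d (refl Q b y) := by
    intro b hb hQb y hy hSI
    obtain ⟨m, hmi, hmj, hml, -⟩ := hidx i j l l
    obtain ⟨b4, hb4, hQb4⟩ := S.exists_same l m hb
    have hx := S.pair_same hb hb4 hQb hQb4
    have h2 := hSI.map hx (S.hMO hx)
    rwa [LinearEquiv.mul_apply, LinearEquiv.mul_apply, S.fix_of_pr hb4 (hdp m hmi hmj),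
      S.fix_of_pr hb (hdp l hli hlj), S.fix_of_pr hb4 (S.pr_ne hml.symm hy)] at h2
  have hsc := S.scal hd ty hQd hdl hstar
  -- step 4
  have hDl : ∀ y ∈ D l, SI Q M d y := by
    have key : ∀ b ∈ D l, Q b ≠ 0 → ∀ w ∈ D l, SI Q M d w → polar Q b w ≠ 0 → SI Q M d b := by
      intro b hb hQb w hw hSI hbw
      have h2 := hSI.sub hQd (hdl w hw) (hdl _ (S.refl_stab hb hw)) (hstar b hb hQb w hw hSI)
      rw [refl_apply hQb, sub_sub_cancel] at h2
      have h3 := hsc ((Q b)⁻¹ * polar Q b w)⁻¹ _ ((D l).smul_mem _ hb) h2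
      rwa [smul_smul, inv_mul_cancel₀ (mul_ne_zero (inv_ne_zero hQb) hbw), one_smul] at h3
    obtain ⟨b1, hb1, hQb1, hbu, -⟩ := S.ex_b ty hy1 hy10
    have h2 := key b1 hb1 hQb1 y1 hy1 h1 hbu
    have hb10 : b1 ≠ 0 := by rintro rfl; exact hQb1 (QuadraticMap.map_zero Q)
    obtain ⟨b2, hb2, hQb2, hb21, hbm⟩ := S.ex_b ty hb1 hb10
    have h3 := key b2 hb2 hQb2 b1 hb1 h2 hb21
    intro y hy
    obtain ⟨s, t, rfl⟩ := S.span2 hd hb1 hb10 hb2 hbm hy
    exact (hsc s _ hb1 h2).add hQd (hdl _ ((D l).smul_mem _ hb1)) (hdl _ ((D l).smul_mem _ hb2)) (hsc t _ hb2 h3)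
  -- step 5
  have hDm : ∀ m, m ≠ i → m ≠ j → ∀ y ∈ D m, SF Q M d y := by
    intro m hmi hmj
    have hgo : ∀ y ∈ D m, SI Q M d y := by
      by_cases hml : m = l
      · subst hml; exact hDl
      obtain ⟨n, hni, hnj, hnl, hnm⟩ := hidx i j l m
      obtain ⟨g, hg, hgO, σ, hσ, -, hσl, -, hfix⟩ := S.exists_three (i := m) (j := l) (l := n) hml hnl.symm hnm.symm
      have hgd : g d = d := by
        rw [← S.eq_two hij hdp, map_add, hfix i hmi.symm hil hni.symm _ (S.dec.mem i d),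
          hfix j hmj.symm hjl hnj.symm _ (S.dec.mem j d)]
      intro y hy
      have h2 : y ∈ (D l).map (g : V →ₗ[F] V) := by rw [hσ, hσl]; exact hy
      obtain ⟨y0, hy0, rfl⟩ := h2
      have h3 := (hDl y0 hy0).map hg hgO
      rwa [hgd] at h3
    intro y hy
    exact ⟨hQd, hdm m hmi hmj y hy, fun s => hgo _ ((D m).smul_mem _ hy)⟩
  by_cases h2 : pr i d = 0
  · refine S.st3b hd ty h5 hij.symm hd0 hQd (fun m h1 h2 => hdp m h2 h1) (fun h3 => hd0 ?_)
      (fun m h1 h2 => hDm m h2 h1)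
    rw [← S.eq_two hij hdp, h2, h3, add_zero]
  · exact S.st3b hd ty h5 hij hd0 hQd hdp h2 hDm

end DK

end Cfsg.Agent.Lib.Dk2H94
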