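import Mathlib
import Cfsg.Agent.Lib.OrthDec2H94
import Cfsg.Agent.Lib.OrthNdBridge

set_option autoImplicit false
set_option linter.unusedSectionVars false
set_option linter.unusedSimpArgs false
set_option linter.unusedVariables false

/-!
Overgroups of the stabiliser of an orthogonal decomposition `A ⊥ B` with `A` of plus type of dimension 4
and `B` of minus type of dimension 4.  Part 1: anisotropic planes.
-/

namespace Cfsg.Agent.Lib.OrthFourH94

open QuadraticMap Module Cfsg.Agent.Lib.Quad Cfsg.Agent.Lib.OrthMax Cfsg.Agent.Lib.OrthNd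
open Cfsg.Agent.Lib.OrthDecH94

section Field

variable {F : Type*} [Field F] [Finite F]

/-- two irreducible quadratics over a finite field are equivalent -/
theorem exists_ad {c c' : F} (hc : ∀ t : F, t ^ 2 + t + c ≠ 0) (hc' : ∀ t : F, t ^ 2 + t + c' ≠ 0) :
    ∃ a d : F, 2 * a + d = 1 ∧ a * a + a * d + d * d * c = c' := by
  classical
  have hFt := Fintype.ofFinite F
  by_cases h2 : (2 : F) = 0
  · have : CharP F 2 := CharTwo.of_one_ne_zero_of_two_eq_zero one_ne_zero h2
    obtain ⟨f, hf⟩ : ∃ f : F →+ F, ∀ x, f x = x ^ 2 + x := by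
      refine ⟨AddMonoidHom.mk' (fun x => x ^ 2 + x) fun x y => ?_, fun x => rfl⟩
      linear_combination (x * y) * h2
    have hidx : f.range.index = 2 := by
      have h1 : Nat.card f.range * Nat.card f.ker = Nat.card F := by
        rw [← AddSubgroup.card_mul_index f.ker, AddSubgroup.index_ker, mul_comm]
      have h3 : Nat.card f.range * f.range.index = Nat.card F := AddSubgroup.card_mul_index _
      have h4 : Nat.card f.ker = 2 := by
        have : (f.ker : Set F) = {0, 1} := by
          ext x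
          simp only [SetLike.mem_coe, AddMonoidHom.mem_ker, hf, Set.mem_insert_iff, Set.mem_singleton_iff]
          constructor
          · intro h
            have : x * (x + 1) = 0 := by linear_combination h
            rcases mul_eq_zero.1 this with h | h
            · exact Or.inl h
            · right; linear_combination h - h2
          · rintro (rfl | rfl)
            · ring
            · linear_combination h2
        have h5 : Nat.card f.ker = Nat.card ({0, 1} : Set F) := by
          rw [← this]; rfl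
        rw [h5, Nat.card_coe_set_eq, Set.ncard_pair zero_ne_one]
      rw [h4] at h1
      have h6 : 0 < Nat.card f.range := Nat.card_pos
      exact Nat.eq_of_mul_eq_mul_left h6 (by rw [h3, h1])
    have hcr : c ∉ f.range := by
      rintro ⟨t, ht⟩
      rw [hf] at ht
      exact hc t (by linear_combination ht + c * h2)
    have hcr' : c' ∉ f.range := by
      rintro ⟨t, ht⟩
      rw [hf] at ht
      exact hc' t (by linear_combination ht + c' * h2)
    have h7 : c + c' ∈ f.range := (AddSubgroup.add_mem_iff_of_index_two hidx).2 (by tauto)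
    obtain ⟨a, ha⟩ := h7
    rw [hf] at ha
    exact ⟨a, 1, by linear_combination a * h2, by linear_combination ha + c * h2⟩
  · have hchar : ringChar F ≠ 2 := by
      intro h
      apply h2
      have := ringChar.Nat.cast_ringChar (R := F)
      rw [h] at this
      exact_mod_cast this
    have hn : ∀ {c : F}, (∀ t : F, t ^ 2 + t + c ≠ 0) → ¬ IsSquare (1 - 4 * c) := by
      rintro c hc ⟨s, hs⟩
      apply hc ((s - 1) / 2)
      field_simp
      linear_combination -hs
    have h3 := hn hc
    have h4 := hn hc'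
    have h5 : IsSquare ((1 - 4 * c) * (1 - 4 * c')) := by
      have hne : (1 - 4 * c) ≠ 0 := fun h => h3 (by rw [h]; exact IsSquare.zero)
      have hne' : (1 - 4 * c') ≠ 0 := fun h => h4 (by rw [h]; exact IsSquare.zero)
      rw [← quadraticChar_one_iff_isSquare (mul_ne_zero hne hne'), map_mul,
        (quadraticChar_neg_one_iff_not_isSquare).2 h3, (quadraticChar_neg_one_iff_not_isSquare).2 h4]
      norm_num
    obtain ⟨s, hs⟩ := h5
    have hne : (1 - 4 * c) ≠ 0 := fun h => h3 (by rw [h]; exact IsSquare.zero)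
    obtain ⟨d, hd⟩ : ∃ d, d * (1 - 4 * c) = s := ⟨s / (1 - 4 * c), div_mul_cancel₀ _ hne⟩
    obtain ⟨a, ha⟩ : ∃ a, 2 * a = 1 - d := ⟨(1 - d) / 2, mul_div_cancel₀ _ h2⟩
    have h6 : d * d * (1 - 4 * c) = 1 - 4 * c' := by
      apply mul_left_cancel₀ hne
      rw [← hd] at hs
      linear_combination -hs
    refine ⟨a, d, by rw [ha]; ring, ?_⟩
    have h4' : (4 : F) ≠ 0 := by
      rw [show (4 : F) = 2 * 2 by norm_num]
      exact mul_ne_zero h2 h2
    apply mul_left_cancel₀ h4'
    linear_combination (2 * a + 1 - d + 2 * d) * ha - h6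

end Field

variable {F V : Type*} [Field F] [AddCommGroup V] [Module F V] [FiniteDimensional F V]
  {Q : QuadraticForm F V} {M : Subgroup (V ≃ₗ[F] V)}

/-- a totally singular plane inside `A` -/
def TS2 (Q : QuadraticForm F V) (A : Submodule F V) : Prop :=
  ∃ x ∈ A, ∃ y ∈ A, Q x = 0 ∧ Q y = 0 ∧ polar Q x y = 0 ∧ x ≠ 0 ∧ y ∉ F ∙ x

theorem TS2.mono {A B : Submodule F V} (h : TS2 Q A) (hAB : A ≤ B) : TS2 Q B := by
  obtain ⟨x, hx, y, hy, h1⟩ := h
  exact ⟨x, hAB hx, y, hAB hy, h1⟩

theorem TS2.map {A : Submodule F V} (h : TS2 Q A) {g : V ≃ₗ[F] V} (hg : g ∈ O Q) :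
    TS2 Q (A.map g.toLinearMap) := by
  obtain ⟨x, hx, y, hy, h1, h2, h3, h4, h5⟩ := h
  refine ⟨g x, ⟨x, hx, rfl⟩, g y, ⟨y, hy, rfl⟩, by rw [hg, h1], by rw [hg, h2], by rw [O_polar hg, h3], ?_, ?_⟩
  · intro h
    exact h4 (g.map_eq_zero_iff.1 h)
  · intro h
    obtain ⟨c, hc⟩ := Submodule.mem_span_singleton.1 h
    apply h5
    rw [Submodule.mem_span_singleton]
    exact ⟨c, g.injective (by rw [LinearEquiv.map_smul]; exact hc)⟩

/-- anisotropic planes are nondegenerate -/
theorem nds_of_anis [Finite F] {P : Submodule F V} (hP : finrank F P = 2) (han : ∀ x ∈ P, Q x = 0 → x = 0) :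
    NDs Q P := by
  rw [NDs, eq_bot_iff]
  rintro r ⟨hr, hr'⟩
  by_contra hr0
  have hr0 : r ≠ 0 := hr0
  have h2 : (2 : F) = 0 := by
    have := mem_perp.1 hr' r hr
    rw [polar_self'] at this
    exact (mul_eq_zero.1 this).resolve_right fun h => hr0 (han r hr h)
  obtain ⟨w, hw, hwr⟩ : ∃ w ∈ P, w ∉ F ∙ r := by
    by_contra hcon
    push Not at hcon
    have := Submodule.finrank_mono (show P ≤ F ∙ r from hcon)
    rw [finrank_span_singleton hr0] at this
    omega
  obtain ⟨z, hz0, hz⟩ := exists_singular_of_two_eq_zero h2 (res Q P) (v := ⟨r, hr⟩) (w := ⟨w, hw⟩)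
    (fun h => hr0 (congrArg Subtype.val h))
    (by
      intro hmem
      obtain ⟨c, hc⟩ := Submodule.mem_span_singleton.1 hmem
      exact hwr (Submodule.mem_span_singleton.2 ⟨c, congrArg Subtype.val hc⟩))
    (by
      have := mem_perp.1 hr' w hw
      rw [polar_comm] at this
      exact this)
  exact hz0 (Subtype.ext (han z z.2 hz))

/-- the sum of two orthogonal anisotropic planes contains a totally singular plane -/
theorem ts2_of_anis [Finite F] {P P' : Submodule F V} (hP : finrank F P = 2)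
    (han : ∀ x ∈ P, Q x = 0 → x = 0) (hP' : finrank F P' = 2) (han' : ∀ x ∈ P', Q x = 0 → x = 0)
    (horth : ∀ x ∈ P, ∀ y ∈ P', polar Q x y = 0) : TS2 Q (P ⊔ P') := by
  have hN := nd_res_of_inf (nds_of_anis hP han)
  have hN' := nd_res_of_inf (nds_of_anis hP' han')
  obtain ⟨w, hw, hw0, hw1, hw2⟩ := exists_elliptic_basis hN hP fun x hx => Subtype.ext (han x x.2 hx)
  have hp : ∀ x y : P', polar (-(res Q P') : QuadraticForm F P') x y = -polar Q (x : V) (y : V) := by
    intro x y
    simp only [polar, neg_apply, res_apply, Submodule.coe_add]; ring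
  have hneg : Nd (-(res Q P') : QuadraticForm F P') := by
    apply nd_of
    intro x hx
    apply hN'.eq_zero
    intro y
    have := hx y
    rw [hp, neg_eq_zero] at this
    exact this
  obtain ⟨u, hu, hu0, hu1, hu2⟩ := exists_elliptic_basis hneg hP' fun x hx => Subtype.ext (han' x x.2 (by
    rw [neg_apply, neg_eq_zero] at hx; exact hx))
  rw [neg_apply] at hu0
  rw [hp] at hu1
  obtain ⟨a, d, had, hcc⟩ := exists_ad hw2 hu2
  rw [neg_apply] at hcc
  have e0 : Q (w 0 : V) = 1 := hw0
  have e1 : polar Q (w 0 : V) (w 1 : V) = 1 := hw1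
  have f0 : Q (u 0 : V) = -1 := by
    have : -Q (u 0 : V) = 1 := hu0
    linear_combination -this
  have f1 : polar Q (u 0 : V) (u 1 : V) = -1 := by linear_combination -hu1
  have hcc' : a * a + a * d + d * d * Q (w 1 : V) = -Q (u 1 : V) := hcc
  have o : ∀ (x : P) (y : P'), polar Q (x : V) (y : V) = 0 := fun x y => horth x x.2 y y.2
  have o' : ∀ (x : P) (y : P'), polar Q (y : V) (x : V) = 0 := fun x y => by rw [polar_comm]; exact o x y
  have hinj : ∀ (x : P) (y : P'), (x : V) + (y : V) = 0 → (x : V) = 0 := by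
    intro x y h
    apply han x x.2
    have h1 : (x : V) = -(y : V) := eq_neg_of_add_eq_zero_left h
    have h2 : polar Q (x : V) (x : V) = 0 := by
      conv_lhs => rw [h1]
      rw [← h1, polar_comm]
      nth_rw 2 [h1]
      rw [polar_neg_right, o, neg_zero]
    by_contra hQx
    -- `x` is orthogonal to `P`
    have h3 : (x : V) ∈ P ⊓ perp Q P := ⟨x.2, mem_perp'.2 fun t ht => by
      rw [h1, polar_neg_left, o' ⟨t, ht⟩ y, neg_zero]⟩
    rw [show P ⊓ perp Q P = ⊥ from nds_of_anis hP han, Submodule.mem_bot] at h3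
    exact hQx (by rw [h3, QuadraticMap.map_zero])
  have hmP : ∀ x : P, (x : V) ∈ P ⊔ P' := fun x => Submodule.mem_sup_left x.2
  have hmP' : ∀ x : P', (x : V) ∈ P ⊔ P' := fun x => Submodule.mem_sup_right x.2
  have hmem : ∀ x ∈ P ⊔ P', ∀ y ∈ P ⊔ P', x + y ∈ P ⊔ P' := fun x hx y hy => Submodule.add_mem _ hx hy
  refine ⟨(w 0 : V) + (u 0 : V), hmem _ (hmP _) _ (hmP' _), a • (w 0 : V) + d • (w 1 : V) + (u 1 : V),
    hmem _ (hmem _ (Submodule.smul_mem _ _ (hmP _)) _ (Submodule.smul_mem _ _ (hmP _))) _ (hmP' _), ?_, ?_, ?_, ?_, ?_⟩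
  · rw [Q_add, e0, f0, o]; ring
  · rw [Q_add, Q_add, Q_smul, Q_smul, e0, polar_add_left, polar_smul_left, polar_smul_left, polar_smul_left,
      polar_smul_right, e1, o, o]
    simp only [smul_eq_mul]
    linear_combination hcc'
  · rw [polar_add_left, polar_add_right, polar_add_right, polar_add_right, polar_add_right, polar_smul_right,
      polar_smul_right, polar_smul_right, polar_smul_right, o, o', o', f1, e1, polar_self', e0]
    simp only [smul_eq_mul]
    linear_combination had
  · intro h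
    have := hinj _ _ h
    rw [this, QuadraticMap.map_zero] at e0
    exact zero_ne_one e0
  · intro h
    obtain ⟨c, hc⟩ := Submodule.mem_span_singleton.1 h
    have h1 : (((c - a) • w 0 - d • w 1 : P) : V) + ((c • u 0 - u 1 : P') : V) = 0 := by
      rw [Submodule.coe_sub, Submodule.coe_sub, Submodule.coe_smul, Submodule.coe_smul, Submodule.coe_smul]
      have : c • ((w 0 : V) + (u 0 : V)) - (a • (w 0 : V) + d • (w 1 : V) + (u 1 : V)) = 0 := by rw [hc, sub_self]
      rw [← this]; module
    have h2 := hinj _ _ h1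
    have h3 : ((c - a) • w 0 - d • w 1 : P) = 0 := Subtype.ext h2
    have h4 : ((c • u 0 - u 1 : P') : V) = 0 := by rw [h2, zero_add] at h1; exact h1
    have h5 : (c • u 0 - u 1 : P') = 0 := Subtype.ext h4
    have h6 : ¬ (1 : F) = 0 := one_ne_zero
    have h7 : c • u 0 + (-1 : F) • u 1 = 0 := by rw [← h5]; module
    rw [Fintype.linearIndependent_iff] at hu
    have h8 := hu ![c, -1] (by simpa [Fin.sum_univ_two] using h7) 1
    exact h6 (by simp at h8)

/-- independent singular vector orthogonal to `z` -/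
theorem exists_sing_indep {A : Submodule F V} (hT : TS2 Q A) {z : V} (hz : Q z = 0) :
    ∃ t ∈ A, Q t = 0 ∧ polar Q z t = 0 ∧ t ∉ F ∙ z := by
  obtain ⟨x, hx, y, hy, h1, h2, h3, h4, h5⟩ := hT
  by_cases hxy : polar Q z x = 0 ∧ polar Q z y = 0
  · by_cases hxz : x ∈ F ∙ z
    · refine ⟨y, hy, h2, hxy.2, fun hyz => h5 ?_⟩
      obtain ⟨a, rfl⟩ := Submodule.mem_span_singleton.1 hxz
      obtain ⟨b, rfl⟩ := Submodule.mem_span_singleton.1 hyz
      have ha : a ≠ 0 := by rintro rfl; exact h4 (zero_smul _ _)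
      exact Submodule.mem_span_singleton.2 ⟨b * a⁻¹, by rw [smul_smul, mul_assoc, inv_mul_cancel₀ ha, mul_one]⟩
    · exact ⟨x, hx, h1, hxy.1, hxz⟩
  · refine ⟨polar Q z y • x - polar Q z x • y, A.sub_mem (A.smul_mem _ hx) (A.smul_mem _ hy), ?_, ?_, ?_⟩
    · rw [Q_sub, Q_smul, Q_smul, h1, h2, polar_smul_left, polar_smul_right, h3]; simp
    · rw [polar_sub_right, polar_smul_right, polar_smul_right]
      simp only [smul_eq_mul]; ring
    · intro hm
      obtain ⟨c, hc⟩ := Submodule.mem_span_singleton.1 hm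
      have hxx : polar Q x x = 0 := by rw [polar_self', h1, mul_zero]
      have hyy : polar Q y y = 0 := by rw [polar_self', h2, mul_zero]
      have hyx : polar Q y x = 0 := by rw [polar_comm]; exact h3
      have e1 : c * polar Q z x = 0 := by
        have : polar Q (c • z) x = polar Q (polar Q z y • x - polar Q z x • y) x := by rw [hc]
        rw [polar_smul_left, polar_sub_left, polar_smul_left, polar_smul_left, hxx, hyx] at this
        simpa using this
      have e2 : c * polar Q z y = 0 := by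
        have : polar Q (c • z) y = polar Q (polar Q z y • x - polar Q z x • y) y := by rw [hc]
        rw [polar_smul_left, polar_sub_left, polar_smul_left, polar_smul_left, hyy, h3] at this
        simpa using this
      have hc0 : c = 0 := by
        by_contra hc0
        exact hxy ⟨(mul_eq_zero.1 e1).resolve_left hc0, (mul_eq_zero.1 e2).resolve_left hc0⟩
      rw [hc0, zero_smul] at hc
      have hz' : polar Q z x = 0 := by
        by_contra hne
        apply h5
        rw [Submodule.mem_span_singleton]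
        refine ⟨(polar Q z x)⁻¹ * polar Q z y, ?_⟩
        have h6 : polar Q z x • y = polar Q z y • x := (sub_eq_zero.1 hc.symm).symm
        rw [mul_smul, ← h6, smul_smul, inv_mul_cancel₀ hne, one_smul]
      rw [hz', zero_smul, sub_zero] at hc
      exact hxy ⟨hz', (smul_eq_zero.1 hc.symm).resolve_right h4⟩

/-- a hyperbolic pair orthogonal to a given hyperbolic pair -/
theorem exists_hyp_cut (hQ : Nd Q) {A : Submodule F V} (hA : NDs Q A) (hT : TS2 Q A) {z z4 : V} (hz : z ∈ A)
    (hz4 : z4 ∈ A) (hQz : Q z = 0) (hQz4 : Q z4 = 0) (hzz : polar Q z z4 = 1) :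
    ∃ e ∈ A ⊓ perp Q (Submodule.span F {z, z4}), ∃ f ∈ A ⊓ perp Q (Submodule.span F {z, z4}),
      Q e = 0 ∧ Q f = 0 ∧ polar Q e f = 1 := by
  obtain ⟨t, ht, hQt, hzt, htz⟩ := exists_sing_indep hT hQz
  have h0 : polar Q z z = 0 := by rw [polar_self', hQz, mul_zero]
  have hz4z : polar Q z4 z = 1 := by rw [polar_comm]; exact hzz
  have heC : t - polar Q z4 t • z ∈ A ⊓ perp Q (Submodule.span F {z, z4}) := by
    rw [mem_cut]
    refine ⟨A.sub_mem ht (A.smul_mem _ hz), ?_, ?_⟩
    · rw [polar_sub_right, polar_smul_right, hzt, h0]; simp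
    · rw [polar_sub_right, polar_smul_right, hz4z]; simp
  have he0 : t - polar Q z4 t • z ≠ 0 := fun h => htz (Submodule.mem_span_singleton.2 ⟨_, (sub_eq_zero.1 h).symm⟩)
  have hQe : Q (t - polar Q z4 t • z) = 0 := by
    rw [Q_sub, Q_smul, hQt, hQz, polar_smul_right, polar_comm Q t z, hzt]; simp
  obtain ⟨f, hf, hQf, hef⟩ := exists_partner hQ (nds_cut hQ hA hz hz4 hQz hQz4 hzz) heC he0 hQe
  exact ⟨_, heC, f, hf, hQe, hQf, hef⟩

/-- planes in the tangent space at a singular point -/
theorem exists_sing_cut (hQ : Nd Q) {A : Submodule F V} (hA : NDs Q A) (hd : finrank F A = 4) (hT : TS2 Q A) {v : V}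
    (hv : v ∈ A) (hv0 : v ≠ 0) (hQv : Q v = 0) {D : Submodule F V} (hDA : D ≤ A) (hD : 2 ≤ finrank F D)
    (hDv : ∀ x ∈ D, polar Q v x = 0) : ∃ x ∈ D, x ≠ 0 ∧ Q x = 0 := by
  obtain ⟨z4, hz4, hQz4, hvz4⟩ := exists_partner hQ hA hv hv0 hQv
  obtain ⟨t, ht, hQt, hvt, htv⟩ := exists_sing_indep hT hQv
  have hli : LinearIndependent F ![v, t] := by
    rw [LinearIndependent.pair_iff' hv0]
    intro a ha
    exact htv (Submodule.mem_span_singleton.2 ⟨a, ha⟩)
  have hS : finrank F (Submodule.span F (Set.range ![v, t])) = 2 := by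
    rw [finrank_span_eq_card hli]; simp
  obtain ⟨S, hSdef⟩ : ∃ S, S = Submodule.span F (Set.range ![v, t]) := ⟨_, rfl⟩
  rw [← hSdef] at hS
  have hmS : ∀ x ∈ S, ∃ a b : F, a • v + b • t = x := by
    intro x hx
    rw [hSdef, Matrix.range_cons, Matrix.range_cons, Matrix.range_empty, Set.union_empty,
      Set.singleton_union, Submodule.mem_span_pair] at hx
    exact hx
  have hvv : polar Q v v = 0 := by rw [polar_self', hQv, mul_zero]
  have hle : D ⊔ S ≤ A ⊓ perp Q (F ∙ v) := by
    rw [sup_le_iff]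
    constructor
    · intro x hx
      exact mem_cut1.2 ⟨hDA hx, hDv x hx⟩
    · intro x hx
      obtain ⟨a, b, rfl⟩ := hmS x hx
      rw [mem_cut1]
      refine ⟨A.add_mem (A.smul_mem _ hv) (A.smul_mem _ ht), ?_⟩
      rw [polar_add_right, polar_smul_right, polar_smul_right, hvv, hvt]; simp
  have hlt : A ⊓ perp Q (F ∙ v) < A := by
    refine lt_of_le_of_ne inf_le_left fun h => ?_
    rw [← h] at hz4
    have := (mem_cut1.1 hz4).2
    rw [hvz4] at this
    exact one_ne_zero this
  have h1 := Submodule.finrank_lt_finrank_of_lt hlt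
  have h2 := Submodule.finrank_mono hle
  have h3 := Submodule.finrank_sup_add_finrank_inf_eq D S
  have h4 : D ⊓ S ≠ ⊥ := by
    intro h
    rw [h, finrank_bot] at h3
    omega
  obtain ⟨x, hx, hx0⟩ := Submodule.exists_mem_ne_zero_of_ne_bot h4
  refine ⟨x, hx.1, hx0, ?_⟩
  obtain ⟨a, b, rfl⟩ := hmS x hx.2
  rw [Q_add, Q_smul, Q_smul, hQv, hQt, polar_smul_left, polar_smul_right, hvt]; simp

end Cfsg.Agent.Lib.OrthFourH94
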