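import Mathlib
import Cfsg.Agent.Lib.Dk2dH94
import Cfsg.Agent.Lib.OrthFourH94

set_option autoImplicit false
set_option linter.unusedSectionVars false
set_option linter.unusedSimpArgs false
set_option linter.unusedVariables false

/-!
Overgroups of stabilisers of orthogonal decompositions into planes: the class of a vector.
-/

namespace Cfsg.Agent.Lib.Dk2H94

open QuadraticMap Module Cfsg.Agent.Lib.Quad Cfsg.Agent.Lib.OrthMax Cfsg.Agent.Lib.OrthNd
open Cfsg.Agent.Lib.OrthDecH94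
open Cfsg.Agent.Lib.SLBlockH94 (Dec)

section conic

variable {F : Type*} [Field F] [Finite F]

/-- points on a conic: `Q1² / (Q1 + B1 s²) + Q2² / (Q2 + B2 t²) = 0` -/
theorem conic_odd' (h2 : (2 : F) ≠ 0) {Q1 Q2 B1 B2 : F} (h1 : Q1 ≠ 0) (h1' : Q2 ≠ 0) (hB1 : B1 ≠ 0) (hB2 : B2 ≠ 0)
    (h7 : 7 ≤ Nat.card F ∨ ∀ s : F, Q1 + B1 * (s * s) ≠ 0) :
    ∃ s t : F, Q1 * Q1 * (Q2 + B2 * (t * t)) + Q2 * Q2 * (Q1 + B1 * (s * s)) = 0 ∧ Q1 + B1 * (s * s) ≠ 0 := by
  obtain ⟨A, hA⟩ : ∃ A, A = Q2 * Q2 * B1 := ⟨_, rfl⟩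
  obtain ⟨B, hB⟩ : ∃ B, B = Q1 * Q1 * B2 := ⟨_, rfl⟩
  have hA0 : A ≠ 0 := by rw [hA]; exact mul_ne_zero (mul_ne_zero h1' h1') hB1
  have hB0 : B ≠ 0 := by rw [hB]; exact mul_ne_zero (mul_ne_zero h1 h1) hB2
  obtain ⟨s0, t0, h0⟩ := exists_sum_sq h2 hA0 hB0 (-(Q1 * Q1 * Q2 + Q2 * Q2 * Q1))
  by_cases hbad : Q1 + B1 * (s0 * s0) = 0
  swap
  · exact ⟨s0, t0, by rw [hA, hB] at h0; linear_combination h0, hbad⟩
  rcases h7 with h7 | h7
  swap
  · exact absurd hbad (h7 s0)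
  have hs0 : s0 ≠ 0 := by
    rintro rfl
    exact h1 (by linear_combination hbad)
  obtain ⟨l, hl⟩ := exists_avoid (F := F) [(0, -t0, s0), (A * s0, B * t0, 0), (A, 0, B)] (by
    intro t ht
    simp only [List.mem_cons, List.not_mem_nil, or_false] at ht
    rcases ht with rfl | rfl | rfl
    · right; right; exact hs0
    · left; exact mul_ne_zero hA0 hs0
    · left; exact hA0) (by simp only [List.length_cons, List.length_nil]; omega)
  have a1 := hl (0, -t0, s0) (by simp)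
  have a2 := hl (A * s0, B * t0, 0) (by simp)
  have a3 := hl (A, 0, B) (by simp)
  simp only at a1 a2 a3
  obtain ⟨N, hN⟩ : ∃ N, N = A + B * (l * l) := ⟨_, rfl⟩
  have hN0 : N ≠ 0 := by rw [hN]; intro h; apply a3; linear_combination h
  obtain ⟨ρ, hρ⟩ : ∃ ρ, ρ * N = 2 * (A * s0 + B * l * t0) := ⟨_, div_mul_cancel₀ _ hN0⟩
  have hρ0 : ρ ≠ 0 := by
    rintro rfl
    apply a2
    have : 2 * (A * s0 + B * l * t0) = 0 := by rw [← hρ, zero_mul]
    have := (mul_eq_zero.1 this).resolve_left h2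
    linear_combination this
  refine ⟨s0 - ρ, t0 - ρ * l, ?_, ?_⟩
  · have h3 : A * ((s0 - ρ) * (s0 - ρ)) + B * ((t0 - ρ * l) * (t0 - ρ * l)) = -(Q1 * Q1 * Q2 + Q2 * Q2 * Q1) := by
      rw [hN] at hρ
      linear_combination h0 + ρ * hρ
    rw [hA, hB] at h3
    linear_combination h3
  · have h3 : Q1 + B1 * ((s0 - ρ) * (s0 - ρ)) = B1 * (-ρ * (2 * s0 - ρ)) := by linear_combination hbad
    rw [h3]
    refine mul_ne_zero hB1 (mul_ne_zero (neg_ne_zero.2 hρ0) ?_)
    intro h4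
    have h5 : 2 * s0 * N - ρ * N = 0 := by rw [← sub_mul, h4, zero_mul]
    rw [hρ, hN] at h5
    have h6 : (2 * B) * (0 + -t0 * l + s0 * (l * l)) = 0 := by linear_combination h5
    exact a1 ((mul_eq_zero.1 h6).resolve_left (mul_ne_zero h2 hB0))

/-- even characteristic -/
theorem conic_even (h2 : (2 : F) = 0) {Q1 Q2 G1 G2 : F} (h1 : Q1 ≠ 0) (h1' : Q2 ≠ 0)
    (h : ((∀ s : F, G1 + s + s * s * Q1 ≠ 0) ∧ ∀ s : F, G2 + s + s * s * Q2 ≠ 0) ∨
      (7 ≤ Nat.card F ∧ (∃ s : F, G1 + s + s * s * Q1 = 0) ∧ ∃ s : F, G2 + s + s * s * Q2 = 0)) :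
    ∃ s t : F, G1 + s + s * s * Q1 = G2 + t + t * t * Q2 ∧ G1 + s + s * s * Q1 ≠ 0 := by
  have hch : CharP F 2 := CharTwo.of_one_ne_zero_of_two_eq_zero one_ne_zero h2
  rcases h with ⟨hc1, hc2⟩ | ⟨h7, ⟨r1, hr1⟩, ⟨r2, hr2⟩⟩
  · by_cases hQ : Q1 = Q2
    · subst hQ
      obtain ⟨a, d, had, hcc⟩ := OrthFourH94.exists_ad (c := Q1 * G1) (c' := Q1 * G2) (by
        intro t ht
        apply hc1 (t * Q1⁻¹)
        apply mul_left_cancel₀ h1
        field_simp
        linear_combination ht) (by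
        intro t ht
        apply hc2 (t * Q1⁻¹)
        apply mul_left_cancel₀ h1
        field_simp
        linear_combination ht)
      refine ⟨a * Q1⁻¹, 0, ?_, hc1 _⟩
      apply mul_left_cancel₀ h1
      have hd1 : d = 1 := by linear_combination had - a * h2
      rw [hd1] at hcc
      field_simp
      linear_combination hcc
    · obtain ⟨s, hs⟩ := isSquare_of_charTwo ((G1 + G2) * (Q1 + Q2)⁻¹)
      have h3 : Q1 + Q2 ≠ 0 := by
        intro h3
        apply hQ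
        linear_combination h3 - Q2 * h2
      refine ⟨s, s, ?_, hc1 s⟩
      have h4 : s * s * (Q1 + Q2) = G1 + G2 := by
        rw [← hs, mul_assoc, inv_mul_cancel₀ h3, mul_one]
      linear_combination h4 + G1 * h2 - s * s * Q2 * h2
  · obtain ⟨w, hw⟩ := exists_avoid (F := F) [(0, Q1, Q2), (Q1, 0, Q2), (1, 1, 0)] (by
      intro t ht
      simp only [List.mem_cons, List.not_mem_nil, or_false] at ht
      rcases ht with rfl | rfl | rfl
      · right; left; exact h1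
      · left; exact h1
      · left; exact one_ne_zero) (by simp only [List.length_cons, List.length_nil]; omega)
    have a1 := hw (0, Q1, Q2) (by simp)
    have a2 := hw (Q1, 0, Q2) (by simp)
    have a3 := hw (1, 1, 0) (by simp)
    simp only at a1 a2 a3
    obtain ⟨x, hx⟩ : ∃ x, x * (Q1 + Q2 * (w * w)) = 1 + w := ⟨_, div_mul_cancel₀ _ (by
      intro h; apply a2; linear_combination h)⟩
    have hx0 : x ≠ 0 := by
      rintro rfl
      apply a3
      linear_combination -hx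
    have hx1 : 1 + Q1 * x ≠ 0 := by
      intro h3
      apply a1
      have h4 : (Q1 + Q2 * (w * w)) * (1 + Q1 * x) = 0 := by rw [h3, mul_zero]
      linear_combination h4 - Q1 * hx - Q1 * h2
    refine ⟨r1 + x, r2 + w * x, ?_, ?_⟩
    · have e1 : G1 + (r1 + x) + (r1 + x) * (r1 + x) * Q1 = x * (1 + Q1 * x) := by
        linear_combination hr1 + x * r1 * Q1 * h2
      have e2 : G2 + (r2 + w * x) + (r2 + w * x) * (r2 + w * x) * Q2 = w * x * (1 + Q2 * (w * x)) := by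
        linear_combination hr2 + w * x * r2 * Q2 * h2
      rw [e1, e2]
      linear_combination x * hx - x * x * Q2 * w * w * h2 + x * h2
    · have e1 : G1 + (r1 + x) + (r1 + x) * (r1 + x) * Q1 = x * (1 + Q1 * x) := by
        linear_combination hr1 + x * r1 * Q1 * h2
      rw [e1]
      exact mul_ne_zero hx0 hx1

end conic

end Cfsg.Agent.Lib.Dk2H94
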