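import Mathlib
import Cfsg.Agent.Lib.Dk2eH94

set_option autoImplicit false
set_option linter.unusedSectionVars false
set_option linter.unusedSimpArgs false
set_option linter.unusedVariables false

/-!
Overgroups of stabilisers of orthogonal decompositions into planes: the class of a vector.
-/

namespace Cfsg.Agent.Lib.Dk2H94

open QuadraticMap Module Cfsg.Agent.Lib.Quad Cfsg.Agent.Lib.OrthMax Cfsg.Agent.Lib.OrthNd
open Cfsg.Agent.Lib.OrthDecH94
open Cfsg.Agent.Lib.SLBlockH94 (Dec)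

variable {F V : Type*} [Field F] [Finite F] [AddCommGroup V] [Module F V] [FiniteDimensional F V]
  {Q : QuadraticForm F V} {M : Subgroup (V ≃ₗ[F] V)}
variable {κ : Type*} [Fintype κ] [DecidableEq κ]

/-- the class of `a0` -/
def Cl (Q : QuadraticForm F V) (M : Subgroup (V ≃ₗ[F] V)) (a0 v : V) : Prop :=
  Q v ≠ 0 ∧ refl Q v * refl Q a0 ∈ M

omit [Finite F] in
theorem Cl.mul {a0 v w : V} (hv : Cl Q M a0 v) (hw : Cl Q M a0 w) : refl Q v * refl Q w ∈ M := by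
  have h1 := mul_mem hv.2 (inv_mem hw.2)
  rwa [mul_inv_rev, refl_inv, refl_inv, mul_assoc, ← mul_assoc (refl Q a0), refl_mul_self, one_mul] at h1

omit [Finite F] in
theorem Cl.of_mul {a0 v w : V} (hv : Cl Q M a0 v) (hw0 : Q w ≠ 0) (hw : refl Q w * refl Q v ∈ M) : Cl Q M a0 w := by
  refine ⟨hw0, ?_⟩
  have h1 := mul_mem hw hv.2
  rwa [mul_assoc, ← mul_assoc (refl Q v), refl_mul_self, one_mul] at h1

omit [Finite F] in
theorem Cl.smul {a0 v : V} (hv : Cl Q M a0 v) {c : F} (hc : c ≠ 0) : Cl Q M a0 (c • v) := by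
  refine ⟨by rw [Q_smul]; exact mul_ne_zero (mul_ne_zero hc hc) hv.1, ?_⟩
  rw [refl_smul hc]; exact hv.2

omit [Finite F] in
theorem Cl.refl' {a0 v w : V} (hv : Cl Q M a0 v) (hw : Cl Q M a0 w) : Cl Q M a0 (refl Q v w) := by
  refine ⟨by rw [refl_mem v]; exact hw.1, ?_⟩
  rw [← refl_conj (refl_mem v), refl_inv]
  have h1 := mul_mem (hv.mul hw) hv.2
  rwa [← mul_assoc] at h1

omit [Finite F] in
theorem Cl.map (hM : M ≤ O Q) {a0 v : V} (hv : Cl Q M a0 v) {h : V ≃ₗ[F] V} (hh : h ∈ M)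
    (ha : Cl Q M a0 (h a0)) : Cl Q M a0 (h v) := by
  refine ⟨by rw [hM hh]; exact hv.1, ?_⟩
  have h1 := mul_mem (mul_mem (mul_mem hh hv.2) (inv_mem hh)) ha.2
  have h2 : h * (refl Q v * refl Q a0) * h⁻¹ = refl Q (h v) * refl Q (h a0) := by
    rw [← refl_conj (hM hh), ← refl_conj (hM hh)]
    group
  rw [h2, mul_assoc, ← mul_assoc (refl Q (h a0)), refl_mul_self, one_mul] at h1
  exact h1

omit [Finite F] in
theorem Cl.SI (hQ : Nd Q) {a0 v d : V} (hv : Cl Q M a0 v) (hvd : Cl Q M a0 (v + d)) (hQd : Q d = 0)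
    (hvd' : polar Q v d = 0) : SI Q M d ((Q v)⁻¹ • v) := by
  have hdy : polar Q d ((Q v)⁻¹ • v) = 0 := by rw [polar_smul_right, polar_comm, hvd', smul_zero]
  have hQy : Q ((Q v)⁻¹ • v) = (Q v)⁻¹ := by
    rw [Q_smul, mul_assoc, inv_mul_cancel₀ hv.1, mul_one]
  refine ⟨sieg hQ hQd hdy, ?_, fun x => by rw [sieg_apply, siegMap_apply]⟩
  rw [sieg_eq_refl hQ hQd hdy (by rw [hQy]; exact inv_ne_zero hv.1), hQy, ← smul_add,
    refl_smul (inv_ne_zero hv.1), refl_smul (inv_ne_zero hv.1)]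
  exact hv.mul hvd

namespace DK

variable {D : κ → Submodule F V} {pr : κ → V →ₗ[F] V} (S : DK Q D pr M)
include S

theorem cl_base {i j : κ} {a0 b : V} (ha0 : a0 ∈ D i) (hQa : Q a0 ≠ 0) (hb : b ∈ D j) (h : sc Q b a0) :
    Cl Q M a0 b := by
  have hQb : Q b ≠ 0 := by
    obtain ⟨c, hc, h⟩ := h
    rw [h]; exact mul_ne_zero (mul_ne_zero hc hc) hQa
  exact ⟨hQb, S.refl_pair hb ha0 hQb h⟩

theorem cl_pm {i j : κ} {a0 v : V} (ha0 : a0 ∈ D i) (hQa : Q a0 ≠ 0) (hv : Cl Q M a0 v) {h : V ≃ₗ[F] V}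
    (hh : h ∈ M) (hj : h a0 ∈ D j) : Cl Q M a0 (h v) :=
  hv.map S.hMO hh (S.cl_base ha0 hQa hj ⟨1, one_ne_zero, by rw [S.hMO hh]; ring⟩)

theorem finish (hd : ∀ i, finrank F (D i) = 2) (ty : Ty Q D) (h5 : 5 ≤ Fintype.card κ) {i j l : κ} (hij : i ≠ j)
    (hil : i ≠ l) (hjl : j ≠ l) {a0 v d : V} (hv : Cl Q M a0 v) (hvd : Cl Q M a0 (v + d)) (hd0 : d ≠ 0)
    (hQd : Q d = 0) (hdp : ∀ m, m ≠ i → m ≠ j → pr m d = 0)
    (hdv : polar Q v d = 0) (hl : pr l v ≠ 0) : Om Q ≤ M := by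
  refine S.st3 hd ty h5 hij hil hjl hd0 hQd hdp ?_ (hv.SI S.hQ hvd hQd hdv) ?_
  · rw [polar_smul_right, polar_comm, hdv, smul_zero]
  · rw [map_smul]
    exact smul_ne_zero (inv_ne_zero hv.1) hl

/-- a singular component -/
theorem caseA (hd : ∀ i, finrank F (D i) = 2) (ty : Ty Q D) (h5 : 5 ≤ Fintype.card κ) {i l : κ}
    (hil : i ≠ l) {a0 v : V} {i0 : κ} (ha0 : a0 ∈ D i0) (hQa : Q a0 ≠ 0) (hv : Cl Q M a0 v)
    (hi : pr i v ≠ 0) (hQi : Q (pr i v) = 0) (hl : pr l v ≠ 0) : Om Q ≤ M := by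
  obtain ⟨e, he⟩ : ∃ e, e = pr i v := ⟨_, rfl⟩
  have heD : e ∈ D i := by rw [he]; exact S.dec.mem i v
  rw [← he] at hi hQi
  have h7 : 7 ≤ Nat.card F := by
    rcases ty with h | ⟨h, -⟩
    · exact absurd (h i e heD hQi) hi
    · exact h
  obtain ⟨f, hf, hef, hQf⟩ : ∃ f ∈ D i, polar Q e f = 1 ∧ Q f = 0 := by
    obtain ⟨f, hf, -, hef⟩ := exists_one_in S.hQ (S.nds i) bot_le heD (by simpa using hi)
    refine ⟨f - Q f • e, (D i).sub_mem hf ((D i).smul_mem _ heD), ?_, ?_⟩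
    · rw [polar_sub_right, polar_smul_right, polar_self', hQi, hef]; simp
    · rw [Q_sub, Q_smul, hQi, polar_smul_right, polar_comm Q f e, hef]; simp
  obtain ⟨c, hc0, hc1, hcc⟩ := exists_scalar (F := F) (by omega)
  have hfe : polar Q f e = 1 := by rw [polar_comm]; exact hef
  have hb : e + f ∈ D i := (D i).add_mem heD hf
  have hb' : e + (c * c) • f ∈ D i := (D i).add_mem heD ((D i).smul_mem _ hf)
  have hQb : Q (e + f) = 1 := by rw [Q_add, hQi, hQf, hef]; simp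
  have hQb' : Q (e + (c * c) • f) = c * c := by
    rw [Q_add, Q_smul, hQi, hQf, polar_smul_right, hef]; simp
  have hQb0 : Q (e + f) ≠ 0 := by rw [hQb]; exact one_ne_zero
  have hQb0' : Q (e + (c * c) • f) ≠ 0 := by rw [hQb']; exact mul_ne_zero hc0 hc0
  have hx : refl Q (e + f) * refl Q (e + (c * c) • f) ∈ M :=
    S.refl_pair hb hb' hQb0 (sc.symm ⟨c, hc0, by rw [hQb, hQb', mul_one]⟩)
  have hpe : ∀ b ∈ D i, polar Q b v = polar Q b e := by
    intro b hb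
    rw [he, S.polar_pr' hb]
  have h1 : refl Q (e + (c * c) • f) v = v - e - (c * c) • f := by
    rw [refl_apply hQb0', hpe _ hb', hQb', polar_add_left, polar_smul_left, polar_self', hQi, hfe, smul_eq_mul]
    have : (c * c)⁻¹ * (2 * 0 + c * c * 1) = 1 := by field_simp; ring
    rw [this]
    module
  have h2 : refl Q (e + f) (v - e - (c * c) • f) = v + (c * c - 1) • e := by
    rw [refl_apply hQb0, hQb, polar_sub_right, polar_sub_right, hpe _ hb, polar_smul_right, polar_add_left,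
      polar_add_left, polar_self', hQi, hfe, hef, polar_self', hQf, smul_eq_mul]
    module
  have hvx : Cl Q M a0 (v + (c * c - 1) • e) := by
    have := S.cl_pm (j := i0) ha0 hQa hv hx (by
      rw [LinearEquiv.mul_apply]
      exact S.refl_stab hb (S.refl_stab hb' ha0))
    rw [LinearEquiv.mul_apply, h1, h2] at this
    exact this
  obtain ⟨j, hji, hjl, -, -⟩ := S.exists_index4 h5 i l l l
  have hcc' : c * c - 1 ≠ 0 := sub_ne_zero.2 hcc
  refine S.finish hd ty h5 hji.symm hil hjl hv hvx (smul_ne_zero hcc' hi) (by rw [Q_smul, hQi, mul_zero])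
    (fun m hm _ => by rw [map_smul, S.pr_ne hm.symm heD, smul_zero]) ?_ hl
  rw [polar_smul_right, polar_comm, hpe e heD, polar_self', hQi]; simp

end DK

end Cfsg.Agent.Lib.Dk2H94
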