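import Mathlib
import Cfsg.Agent.Lib.Dk2fH94

set_option autoImplicit false
set_option linter.unusedSectionVars false
set_option linter.unusedSimpArgs false
set_option linter.unusedVariables false

/-!
Overgroups of stabilisers of orthogonal decompositions into planes: moving along two blocks.
-/

namespace Cfsg.Agent.Lib.Dk2H94

open QuadraticMap Module Cfsg.Agent.Lib.Quad Cfsg.Agent.Lib.OrthMax Cfsg.Agent.Lib.OrthNd
open Cfsg.Agent.Lib.OrthDecH94
open Cfsg.Agent.Lib.SLBlockH94 (Dec)

variable {F V : Type*} [Field F] [Finite F] [AddCommGroup V] [Module F V] [FiniteDimensional F V]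
  {Q : QuadraticForm F V} {M : Subgroup (V ≃ₗ[F] V)}
variable {κ : Type*} [Fintype κ] [DecidableEq κ]

namespace DK

variable {D : κ → Submodule F V} {pr : κ → V →ₗ[F] V} (S : DK Q D pr M)
include S

theorem cl_Pm {a0 v : V} {i : κ} (ha0 : a0 ∈ D i) (hQa : Q a0 ≠ 0) (hv : Cl Q M a0 v) {h : V ≃ₗ[F] V}
    (hh : h ∈ M) {σ : Equiv.Perm κ} (hσ : Pm D h σ) : Cl Q M a0 (h v) := by
  refine S.cl_pm (j := σ i) ha0 hQa hv hh ?_
  rw [← hσ i]
  exact ⟨a0, ha0, rfl⟩

theorem cl_pair {a0 v : V} {i : κ} (ha0 : a0 ∈ D i) (hQa : Q a0 ≠ 0) (hv : Cl Q M a0 v) {j l : κ} {b c : V}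
    (hb : b ∈ D j) (hc : c ∈ D l) (hQb : Q b ≠ 0) (h : sc Q b c) : Cl Q M a0 (refl Q b (refl Q c v)) := by
  rw [← LinearEquiv.mul_apply]
  exact S.cl_pm (j := i) ha0 hQa hv (S.refl_pair hb hc hQb h) (by
    rw [LinearEquiv.mul_apply]; exact S.refl_stab hb (S.refl_stab hc ha0))

/-- the two vectors of opposite norms -/
theorem exists_d (hd : ∀ i, finrank F (D i) = 2) (ty : Ty Q D) {i j : κ} {u w : V} (hu : u ∈ D i) (hw : w ∈ D j)
    (hQu : Q u ≠ 0) (hQw : Q w ≠ 0) :
    ∃ d1 ∈ D i, ∃ d2 ∈ D j, Q d1 ≠ 0 ∧ Q d2 = -Q d1 ∧ polar Q u d1 = -Q d1 ∧ polar Q w d2 = -Q d2 := by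
  have hu0 : u ≠ 0 := by rintro rfl; exact hQu (QuadraticMap.map_zero Q)
  have hw0 : w ≠ 0 := by rintro rfl; exact hQw (QuadraticMap.map_zero Q)
  by_cases h2 : (2 : F) = 0
  · obtain ⟨g, hg, hug, hgu⟩ := S.exists_gen hu hu0
    obtain ⟨g', hg', hwg, hgw⟩ := S.exists_gen hw hw0
    have e1 : ∀ s, Q (g + s • u) = Q g + s + s * s * Q u := by
      intro s
      rw [Q_add, Q_smul, polar_smul_right, polar_comm Q g u, hug, smul_eq_mul]; ring
    have e2 : ∀ s, Q (g' + s • w) = Q g' + s + s * s * Q w := by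
      intro s
      rw [Q_add, Q_smul, polar_smul_right, polar_comm Q g' w, hwg, smul_eq_mul]; ring
    obtain ⟨s, t, hst, hst0⟩ := conic_even (F := F) h2 (Q1 := Q u) (Q2 := Q w) (G1 := Q g) (G2 := Q g') hQu hQw (by
      rcases ty with han | ⟨h7, hsing⟩
      · left
        constructor
        · intro s h0
          rw [← e1] at h0
          have h3 := han i _ ((D i).add_mem hg ((D i).smul_mem _ hu)) h0
          apply hgu
          rw [Submodule.mem_span_singleton]
          exact ⟨-s, by rw [neg_smul]; exact neg_eq_of_add_eq_zero_left h3⟩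
        · intro s h0
          rw [← e2] at h0
          have h3 := han j _ ((D j).add_mem hg' ((D j).smul_mem _ hw)) h0
          apply hgw
          rw [Submodule.mem_span_singleton]
          exact ⟨-s, by rw [neg_smul]; exact neg_eq_of_add_eq_zero_left h3⟩
      · right
        refine ⟨h7, ?_, ?_⟩
        · obtain ⟨x, hx, hx0, hQx⟩ := hsing i
          obtain ⟨a, b, rfl⟩ := S.span2 hd hu hu0 hg hgu hx
          have hb0 : b ≠ 0 := by
            rintro rfl
            rw [zero_smul, add_zero, Q_smul] at hQx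
            rw [zero_smul, add_zero] at hx0
            rcases mul_eq_zero.1 hQx with h3 | h3
            · exact hx0 (by rw [mul_self_eq_zero.1 h3, zero_smul])
            · exact hQu h3
          refine ⟨a * b⁻¹, ?_⟩
          rw [← e1]
          have h3 : g + (a * b⁻¹) • u = b⁻¹ • (a • u + b • g) := by
            rw [smul_add, smul_smul, smul_smul, inv_mul_cancel₀ hb0, one_smul, mul_comm a]; abel
          rw [h3, Q_smul, hQx, mul_zero]
        · obtain ⟨x, hx, hx0, hQx⟩ := hsing j
          obtain ⟨a, b, rfl⟩ := S.span2 hd hw hw0 hg' hgw hx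
          have hb0 : b ≠ 0 := by
            rintro rfl
            rw [zero_smul, add_zero, Q_smul] at hQx
            rw [zero_smul, add_zero] at hx0
            rcases mul_eq_zero.1 hQx with h3 | h3
            · exact hx0 (by rw [mul_self_eq_zero.1 h3, zero_smul])
            · exact hQw h3
          refine ⟨a * b⁻¹, ?_⟩
          rw [← e2]
          have h3 : g' + (a * b⁻¹) • w = b⁻¹ • (a • w + b • g') := by
            rw [smul_add, smul_smul, smul_smul, inv_mul_cancel₀ hb0, one_smul, mul_comm a]; abel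
          rw [h3, Q_smul, hQx, mul_zero])
    have hst' := hst ▸ hst0
    rw [← e1] at hst hst0
    rw [← e2] at hst hst'
    have hnn : ∀ x : F, x = -x := fun x => by linear_combination x * h2
    refine ⟨-(Q (g + s • u))⁻¹ • (g + s • u), (D i).smul_mem _ ((D i).add_mem hg ((D i).smul_mem _ hu)),
      -(Q (g' + t • w))⁻¹ • (g' + t • w), (D j).smul_mem _ ((D j).add_mem hg' ((D j).smul_mem _ hw)), ?_, ?_, ?_, ?_⟩
    · rw [Q_smul]
      exact mul_ne_zero (mul_ne_zero (neg_ne_zero.2 (inv_ne_zero hst0)) (neg_ne_zero.2 (inv_ne_zero hst0))) hst0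
    · rw [Q_smul, Q_smul, hst]; exact hnn _
    · rw [Q_smul, polar_smul_right, polar_add_right, polar_smul_right, hug, polar_self', h2, zero_mul, smul_zero,
        add_zero, smul_eq_mul]
      field_simp
    · rw [Q_smul, polar_smul_right, polar_add_right, polar_smul_right, hwg, polar_self', h2, zero_mul, smul_zero,
        add_zero, smul_eq_mul]
      field_simp
  · obtain ⟨b, hb, hub, -, -, hQb⟩ := S.exists_orth h2 hu hQu
    obtain ⟨c, hc, hwc, -, -, hQc⟩ := S.exists_orth h2 hw hQw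
    have hQb := hQb (hd i)
    have hQc := hQc (hd j)
    have e1 : ∀ s, Q (u + s • b) = Q u + Q b * (s * s) := by
      intro s
      rw [Q_add, Q_smul, polar_smul_right, hub, smul_eq_mul]; ring
    have e2 : ∀ s, Q (w + s • c) = Q w + Q c * (s * s) := by
      intro s
      rw [Q_add, Q_smul, polar_smul_right, hwc, smul_eq_mul]; ring
    obtain ⟨s, t, hst, hst0⟩ := conic_odd' (F := F) h2 hQu hQw hQb hQc (by
      rcases ty with han | ⟨h7, -⟩
      · right
        intro s h0
        rw [← e1] at h0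
        have h3 := han i _ ((D i).add_mem hu ((D i).smul_mem _ hb)) h0
        have h4 : polar Q u (u + s • b) = 2 * Q u := by
          rw [polar_add_right, polar_smul_right, hub, polar_self', smul_zero, add_zero]
        rw [h3, polar_zero_right] at h4
        exact mul_ne_zero h2 hQu h4.symm
      · left; exact h7)
    rw [← e1, ← e2] at hst
    rw [← e1] at hst0
    obtain ⟨N1, hN1⟩ : ∃ N, N = Q (u + s • b) := ⟨_, rfl⟩
    obtain ⟨N2, hN2⟩ : ∃ N, N = Q (w + t • c) := ⟨_, rfl⟩
    rw [← hN1] at hst0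
    rw [← hN1, ← hN2] at hst
    have hN20 : N2 ≠ 0 := by
      rintro h0
      rw [h0, mul_zero, zero_add] at hst
      exact mul_ne_zero (mul_ne_zero hQw hQw) hst0 hst
    refine ⟨(-(2 * Q u) * N1⁻¹) • (u + s • b), (D i).smul_mem _ ((D i).add_mem hu ((D i).smul_mem _ hb)),
      (-(2 * Q w) * N2⁻¹) • (w + t • c), (D j).smul_mem _ ((D j).add_mem hw ((D j).smul_mem _ hc)), ?_, ?_, ?_, ?_⟩
    · rw [Q_smul, ← hN1]
      have : -(2 * Q u) * N1⁻¹ ≠ 0 := mul_ne_zero (neg_ne_zero.2 (mul_ne_zero h2 hQu)) (inv_ne_zero hst0)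
      exact mul_ne_zero (mul_ne_zero this this) hst0
    · rw [Q_smul, Q_smul, ← hN1, ← hN2]
      field_simp
      linear_combination hst
    · rw [Q_smul, ← hN1, polar_smul_right, polar_add_right, polar_smul_right, hub, polar_self', smul_zero, add_zero,
        smul_eq_mul]
      field_simp
    · rw [Q_smul, ← hN2, polar_smul_right, polar_add_right, polar_smul_right, hwc, polar_self', smul_zero, add_zero,
        smul_eq_mul]
      field_simp

/-- a move along two blocks -/
theorem stepB (hd : ∀ i, finrank F (D i) = 2) (ty : Ty Q D) (h5 : 5 ≤ Fintype.card κ) {i j l : κ} (hij : i ≠ j)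
    (hil : i ≠ l) (hjl : j ≠ l) {a0 v : V} {i0 : κ} (ha0 : a0 ∈ D i0) (hQa : Q a0 ≠ 0) (hv : Cl Q M a0 v)
    (hi : Q (pr i v) ≠ 0) (hj : Q (pr j v) ≠ 0) (hl : pr l v ≠ 0)
    (hb : IsSquare (-1 : F) ∨ ∃ m, m ≠ i ∧ m ≠ j ∧ ∃ b ∈ D m, Q b ≠ 0 ∧ polar Q b v = 0 ∧ ¬ sc Q b a0) :
    Om Q ≤ M := by
  obtain ⟨d1, hd1, d2, hd2, hQ1, hQ12, hp1, hp2⟩ := S.exists_d hd ty (S.dec.mem i v) (S.dec.mem j v) hi hj
  have hQ2 : Q d2 ≠ 0 := by rw [hQ12]; exact neg_ne_zero.2 hQ1
  have h12 : polar Q d1 d2 = 0 := S.orth i j hij d1 hd1 d2 hd2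
  rw [S.polar_pr hd1] at hp1
  rw [S.polar_pr hd2] at hp2
  have hd10 : d1 ≠ 0 := by rintro rfl; exact hQ1 (QuadraticMap.map_zero Q)
  have hr1 : ∀ x, polar Q d1 x = -Q d1 → refl Q d1 x = x + d1 := by
    intro x hx
    rw [refl_apply hQ1, hx]
    have : (Q d1)⁻¹ * -Q d1 = -1 := by field_simp
    rw [this, neg_smul, one_smul, sub_neg_eq_add]
  have hr2 : ∀ x, polar Q d2 x = -Q d2 → refl Q d2 x = x + d2 := by
    intro x hx
    rw [refl_apply hQ2, hx]
    have : (Q d2)⁻¹ * -Q d2 = -1 := by field_simp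
    rw [this, neg_smul, one_smul, sub_neg_eq_add]
  have hd0 : d1 + d2 ≠ 0 := by
    intro h0
    have h3 := congrArg (pr i) h0
    rw [map_add, map_zero, S.pr_self hd1, S.pr_ne hij.symm hd2, add_zero] at h3
    exact hd10 h3
  have hvd : Cl Q M a0 (v + (d1 + d2)) := by
    rcases hb with ⟨r, hr⟩ | ⟨m, hmi, hmj, b, hb, hQb, hbv, hba⟩
    · have hr0 : r ≠ 0 := by
        rintro rfl
        rw [mul_zero, neg_eq_zero] at hr
        exact one_ne_zero hr
      have h3 := S.cl_pair ha0 hQa hv hd1 hd2 hQ1 ⟨r, hr0, by rw [hQ12, ← hr]; ring⟩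
      rw [hr2 v (by rw [polar_comm]; exact hp2), hr1 (v + d2) (by
        rw [polar_add_right, h12, polar_comm, hp1, add_zero]), add_assoc, add_comm d2 d1] at h3
      exact h3
    · -- square classes
      have hcl : ∀ x y : V, Q x ≠ 0 → Q y ≠ 0 → ¬ sc Q x a0 → ¬ sc Q y a0 → sc Q x y := by
        intro x y hx hy hxa hya
        have e1 : ¬ IsSquare (Q x * Q a0) := by
          rintro ⟨r, hr⟩
          apply hxa
          refine ⟨r * (Q a0)⁻¹, mul_ne_zero ?_ (inv_ne_zero hQa), ?_⟩
          · rintro rfl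
            rw [mul_zero] at hr
            exact mul_ne_zero hx hQa hr
          · field_simp
            linear_combination hr
        have e2 : ¬ IsSquare (Q y * Q a0) := by
          rintro ⟨r, hr⟩
          apply hya
          refine ⟨r * (Q a0)⁻¹, mul_ne_zero ?_ (inv_ne_zero hQa), ?_⟩
          · rintro rfl
            rw [mul_zero] at hr
            exact mul_ne_zero hy hQa hr
          · field_simp
            linear_combination hr
        obtain ⟨r, hr⟩ := isSquare_mul_of_not_isSquare e1 e2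
        refine ⟨r * (Q a0)⁻¹ * (Q y)⁻¹, mul_ne_zero (mul_ne_zero ?_ (inv_ne_zero hQa)) (inv_ne_zero hy), ?_⟩
        · rintro rfl
          rw [mul_zero] at hr
          exact mul_ne_zero (mul_ne_zero hx hQa) (mul_ne_zero hy hQa) hr
        · field_simp
          linear_combination hr
      -- a move along one vector
      have hmove : ∀ n, n ≠ m → ∀ e ∈ D n, Q e ≠ 0 → ∀ x, Cl Q M a0 x → polar Q b x = 0 → Cl Q M a0 (refl Q e x) := by
        intro n hn e he hQe x hx hbx
        by_cases hea : sc Q e a0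
        · exact (S.cl_base ha0 hQa he hea).refl' hx
        · have h3 := S.cl_pair ha0 hQa hx he hb hQe (hcl e b hQe hQb hea hba)
          rwa [refl_of_perp hbx] at h3
      have h3 := hmove i hmi.symm d1 hd1 hQ1 _ (hmove j hmj.symm d2 hd2 hQ2 v hv hbv) (by
        rw [hr2 v (by rw [polar_comm]; exact hp2), polar_add_right, hbv, S.orth m j hmj b hb d2 hd2, add_zero])
      rw [hr2 v (by rw [polar_comm]; exact hp2), hr1 (v + d2) (by
        rw [polar_add_right, h12, polar_comm, hp1, add_zero]), add_assoc, add_comm d2 d1] at h3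
      exact h3
  refine S.finish hd ty h5 hij hil hjl hv hvd hd0 ?_ ?_ ?_ hl
  · rw [Q_add, hQ12, h12]; ring
  · intro m hmi hmj
    rw [map_add, S.pr_ne hmi.symm hd1, S.pr_ne hmj.symm hd2, add_zero]
  · rw [polar_add_right, hp1, hp2, hQ12]; ring

/-- more components -/
theorem step0 (hd : ∀ i, finrank F (D i) = 2) (ty : Ty Q D) (h4 : 4 ≤ Nat.card F ∨ (2 : F) = 0)
    (h5 : 5 ≤ Fintype.card κ) {i j : κ} (hij : i ≠ j)
    {a0 v : V} {i0 : κ} (ha0 : a0 ∈ D i0) (hQa : Q a0 ≠ 0) (hv : Cl Q M a0 v)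
    (hi : Q (pr i v) ≠ 0) (hj : pr j v ≠ 0) (hp : ∀ m, m ≠ i → m ≠ j → pr m v = 0) :
    ∃ u, Cl Q M a0 u ∧ ∃ l, l ≠ i ∧ l ≠ j ∧ pr i u ≠ 0 ∧ pr j u ≠ 0 ∧ pr l u ≠ 0 := by
  obtain ⟨vi, hvi⟩ : ∃ x, x = pr i v := ⟨_, rfl⟩
  obtain ⟨vj, hvj⟩ : ∃ x, x = pr j v := ⟨_, rfl⟩
  have hviD : vi ∈ D i := by rw [hvi]; exact S.dec.mem i v
  have hvjD : vj ∈ D j := by rw [hvj]; exact S.dec.mem j v
  have hvv : v = vi + vj := by rw [hvi, hvj]; exact (S.eq_two hij hp).symm
  rw [← hvi] at hi
  rw [← hvj] at hj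
  have hvi0 : vi ≠ 0 := by rintro rfl; exact hi (QuadraticMap.map_zero Q)
  obtain ⟨g, hg, hug, hgu⟩ := S.exists_gen hviD hvi0
  have e1 : ∀ s, Q (g + s • vi) = Q g + s + s * s * Q vi := by
    intro s
    rw [Q_add, Q_smul, polar_smul_right, polar_comm Q g vi, hug, smul_eq_mul]; ring
  obtain ⟨s, hs1, hs2, hs3⟩ : ∃ s, Q (g + s • vi) ≠ 0 ∧ 1 + 2 * s * Q vi ≠ 0 ∧
      2 * Q vi * Q (g + s • vi) - (1 + 2 * s * Q vi) * (1 + 2 * s * Q vi) ≠ 0 := by
    have hmem : ∀ s : F, g + s • vi ≠ 0 := by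
      intro s h3
      apply hgu
      rw [Submodule.mem_span_singleton]
      exact ⟨-s, by rw [neg_smul]; exact neg_eq_of_add_eq_zero_left h3⟩
    by_cases h2 : (2 : F) = 0
    · simp only [h2, zero_mul, add_zero, mul_one, zero_sub]
      rcases ty with han | ⟨h7, -⟩
      · exact ⟨0, fun h3 => hmem 0 (han i _ ((D i).add_mem hg ((D i).smul_mem _ hviD)) h3), one_ne_zero,
          neg_ne_zero.2 one_ne_zero⟩
      · obtain ⟨s, hs⟩ := exists_avoid (F := F) [(Q g, 1, Q vi)] (by
          intro t ht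
          simp only [List.mem_cons, List.not_mem_nil, or_false] at ht
          rcases ht with rfl
          right; left; exact one_ne_zero) (by simp only [List.length_cons, List.length_nil]; omega)
        have a1 := hs (Q g, 1, Q vi) (by simp)
        simp only at a1
        exact ⟨s, fun h3 => a1 (by rw [e1] at h3; linear_combination h3), one_ne_zero, neg_ne_zero.2 one_ne_zero⟩
    · have h4 : 5 ≤ Nat.card F := by
        have h4 := h4.resolve_right h2
        rcases Nat.lt_or_ge 4 (Nat.card F) with h5 | h5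
        · exact h5
        · exfalso
          have h6 : Nat.card F = 4 := le_antisymm h5 h4
          have h7 : ((Nat.card F : ℕ) : F) = 0 := by
            have hFt := Fintype.ofFinite F
            rw [Nat.card_eq_fintype_card]
            exact FiniteField.cast_card_eq_zero F
          rw [h6] at h7
          apply mul_ne_zero h2 h2
          rw [← h7]; norm_num
      rcases ty with han | ⟨h7, -⟩
      · obtain ⟨s, hs⟩ := exists_avoid (F := F) [(1, 2 * Q vi, 0),
          (2 * Q vi * Q g - 1, -(2 * Q vi), -(2 * Q vi * Q vi))] (by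
          intro t ht
          simp only [List.mem_cons, List.not_mem_nil, or_false] at ht
          rcases ht with rfl | rfl
          · left; exact one_ne_zero
          · right; left; exact neg_ne_zero.2 (mul_ne_zero h2 hi)) (by
            simp only [List.length_cons, List.length_nil]; omega)
        have a1 := hs (1, 2 * Q vi, 0) (by simp)
        have a2 := hs (2 * Q vi * Q g - 1, -(2 * Q vi), -(2 * Q vi * Q vi)) (by simp)
        simp only at a1 a2
        refine ⟨s, fun h3 => hmem s (han i _ ((D i).add_mem hg ((D i).smul_mem _ hviD)) h3), ?_, ?_⟩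
        · intro h; apply a1; linear_combination h
        · intro h; apply a2; rw [e1] at h; linear_combination h
      · obtain ⟨s, hs⟩ := exists_avoid (F := F) [(Q g, 1, Q vi), (1, 2 * Q vi, 0),
          (2 * Q vi * Q g - 1, -(2 * Q vi), -(2 * Q vi * Q vi))] (by
          intro t ht
          simp only [List.mem_cons, List.not_mem_nil, or_false] at ht
          rcases ht with rfl | rfl | rfl
          · right; left; exact one_ne_zero
          · left; exact one_ne_zero
          · right; left; exact neg_ne_zero.2 (mul_ne_zero h2 hi)) (by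
            simp only [List.length_cons, List.length_nil]; omega)
        have a0 := hs (Q g, 1, Q vi) (by simp)
        have a1 := hs (1, 2 * Q vi, 0) (by simp)
        have a2 := hs (2 * Q vi * Q g - 1, -(2 * Q vi), -(2 * Q vi * Q vi)) (by simp)
        simp only at a0 a1 a2
        refine ⟨s, ?_, ?_, ?_⟩
        · intro h; apply a0; rw [e1] at h; linear_combination h
        · intro h; apply a1; linear_combination h
        · intro h; apply a2; rw [e1] at h; linear_combination h
  obtain ⟨a, ha⟩ : ∃ a, a = g + s • vi := ⟨_, rfl⟩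
  rw [← ha] at hs1 hs3
  have haD : a ∈ D i := by rw [ha]; exact (D i).add_mem hg ((D i).smul_mem _ hviD)
  have havi : polar Q a vi = 1 + 2 * s * Q vi := by
    rw [ha, polar_add_left, polar_smul_left, polar_comm Q g vi, hug, polar_self', smul_eq_mul]; ring
  have hamem : a ∉ F ∙ vi := by
    intro h
    apply hgu
    have := Submodule.sub_mem _ h (Submodule.smul_mem _ s (Submodule.mem_span_singleton_self vi))
    rwa [ha, add_sub_cancel_right] at this
  obtain ⟨m, hmi, hmj, -, -⟩ := S.exists_index4 h5 i j j j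
  obtain ⟨l, hli, hlj, hlm, -⟩ := S.exists_index4 h5 i j m m
  obtain ⟨b4, hb4, hQb4⟩ := S.exists_same i m haD
  have hv1 := S.cl_pair ha0 hQa hv haD hb4 hs1 ⟨1, one_ne_zero, by rw [hQb4]; ring⟩
  have hb4v : refl Q b4 v = v := S.fix_of_pr hb4 (hp m hmi hmj)
  rw [hb4v] at hv1
  have hav : refl Q a v = refl Q a vi + vj := by
    rw [hvv, map_add, S.refl_fix hij haD hvjD]
  rw [hav] at hv1
  obtain ⟨w, hw⟩ : ∃ w, w = refl Q a vi := ⟨_, rfl⟩
  have hwD : w ∈ D i := by rw [hw]; exact S.refl_stab haD hviD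
  rw [← hw] at hv1
  obtain ⟨h, hhM, hhO, σ, hσ, hσj, -, -, hfix⟩ := S.exists_three (i := j) (j := m) (l := l) hmj.symm hlm.symm hlj.symm
  have hv2 := S.cl_Pm ha0 hQa hv1 hhM hσ
  rw [map_add, hfix i hij hmi.symm hli.symm w hwD] at hv2
  have hhD : h vj ∈ D l := by
    rw [← hσj, ← hσ j]
    exact ⟨vj, hvjD, rfl⟩
  have hh0 : h vj ≠ 0 := fun h0 => hj (h.injective (by rw [h0, map_zero]))
  have hu := hv.refl' hv2
  rw [refl_apply hv.1] at hu
  have hP : polar Q v (w + h vj) = polar Q vi w := by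
    rw [hvv, polar_add_left, polar_add_right, polar_add_right, S.orth i l hli.symm vi hviD _ hhD,
      S.orth j i hij.symm vj hvjD w hwD, S.orth j l hlj.symm vj hvjD _ hhD]; ring
  have hw' : w = vi - ((Q a)⁻¹ * (1 + 2 * s * Q vi)) • a := by
    rw [hw, refl_apply hs1, havi]
  have hP2 : polar Q vi w ≠ 0 := by
    intro h0
    rw [hw', polar_sub_right, polar_smul_right, polar_comm Q vi a, havi, polar_self', smul_eq_mul] at h0
    apply hs3
    have := congrArg (fun x => Q a * x) h0
    simp only [mul_zero, mul_sub] at this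
    field_simp at this
    linear_combination this
  obtain ⟨c, hc⟩ : ∃ c, c = (Q v)⁻¹ * polar Q v (w + h vj) := ⟨_, rfl⟩
  have hc0 : c ≠ 0 := by rw [hc, hP]; exact mul_ne_zero (inv_ne_zero hv.1) hP2
  rw [← hc] at hu
  refine ⟨_, hu, l, hli, hlj, ?_, ?_, ?_⟩
  · rw [map_sub, map_add, map_smul, S.pr_self hwD, S.pr_ne hli hhD, add_zero, ← hvi]
    intro h0
    apply hamem
    have h1 : ((Q a)⁻¹ * (1 + 2 * s * Q vi)) • a = (1 - c) • vi := by
      rw [hw'] at h0
      have h3 : ((Q a)⁻¹ * (1 + 2 * s * Q vi)) • a = vi - (vi - ((Q a)⁻¹ * (1 + 2 * s * Q vi)) • a) := by abel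
      rw [h3, sub_eq_zero.1 h0, sub_smul, one_smul]
    have h2 : ((Q a)⁻¹ * (1 + 2 * s * Q vi)) • a ∈ F ∙ vi := by
      rw [h1]; exact Submodule.smul_mem _ _ (Submodule.mem_span_singleton_self vi)
    rwa [Submodule.smul_mem_iff _ (mul_ne_zero (inv_ne_zero hs1) hs2)] at h2
  · rw [map_sub, map_add, map_smul, S.pr_ne hij hwD, S.pr_ne hlj hhD, add_zero, zero_sub, ← hvj]
    exact neg_ne_zero.2 (smul_ne_zero hc0 hj)
  · rw [map_sub, map_add, map_smul, S.pr_ne hli.symm hwD, S.pr_self hhD, hp l hli hlj, smul_zero, sub_zero, zero_add]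
    exact hh0

end DK

end Cfsg.Agent.Lib.Dk2H94
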