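import Mathlib
import Cfsg.Agent.Lib.Dk2gH94

set_option autoImplicit false
set_option linter.unusedSectionVars false
set_option linter.unusedSimpArgs false
set_option linter.unusedVariables false

/-!
Overgroups of stabilisers of orthogonal decompositions into planes: the first case.
-/

namespace Cfsg.Agent.Lib.Dk2H94

open QuadraticMap Module Cfsg.Agent.Lib.Quad Cfsg.Agent.Lib.OrthMax Cfsg.Agent.Lib.OrthNd
open Cfsg.Agent.Lib.OrthDecH94
open Cfsg.Agent.Lib.SLBlockH94 (Dec)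

section Field

variable {F : Type*} [Field F] [Finite F]

/-- squares under two injections -/
theorem exists_two_sq (h2 : (2 : F) ≠ 0) {g h : F → F} (hg : Function.Injective g) (hh : Function.Injective h) :
    ∃ s t : F, g (s * s) = h (t * t) := by
  classical
  have hFt := Fintype.ofFinite F
  obtain ⟨Sq, hSq⟩ : ∃ Sq : Finset F, Sq = Finset.univ.image (fun s : F => s * s) := ⟨_, rfl⟩
  have h1 : Fintype.card F ≤ 2 * Sq.card := by
    have h3 := FiniteField.card_image_polynomial_eval (R := F) (p := (Polynomial.X ^ 2 : Polynomial F)) (by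
      rw [Polynomial.degree_X_pow]; decide)
    rw [Polynomial.natDegree_X_pow] at h3
    have h4 : (Finset.univ.image fun x : F => Polynomial.eval x (Polynomial.X ^ 2 : Polynomial F)) = Sq := by
      rw [hSq]
      congr 1
      funext x
      rw [Polynomial.eval_pow, Polynomial.eval_X]; ring
    rw [h4] at h3
    exact h3
  have hodd : Fintype.card F % 2 = 1 := by
    apply FiniteField.odd_card_of_char_ne_two
    intro h3
    apply h2
    have := ringChar.Nat.cast_ringChar (R := F)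
    rw [h3] at this
    exact_mod_cast this
  by_contra hcon
  push Not at hcon
  have h3 : Disjoint (Sq.image g) (Sq.image h) := by
    rw [Finset.disjoint_left]
    intro x hx hx'
    obtain ⟨y, hy, rfl⟩ := Finset.mem_image.1 hx
    obtain ⟨y', hy', he⟩ := Finset.mem_image.1 hx'
    rw [hSq] at hy hy'
    obtain ⟨s, -, rfl⟩ := Finset.mem_image.1 hy
    obtain ⟨t, -, rfl⟩ := Finset.mem_image.1 hy'
    exact hcon s t he.symm
  have h4 := Finset.card_le_univ (Sq.image g ∪ Sq.image h)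
  rw [Finset.card_union_of_disjoint h3, Finset.card_image_of_injective _ hg,
    Finset.card_image_of_injective _ hh] at h4
  omega

theorem exists_nonsq_add (hm1 : ¬ IsSquare (-1 : F)) {γ : F} (hγ : γ ≠ 0) : ∃ X : F, ¬ IsSquare (X * X + γ * γ) := by
  by_contra hcon
  push Not at hcon
  have h1 : ∀ n : ℕ, IsSquare ((n : F) * (γ * γ)) := by
    intro n
    induction n with
    | zero => exact ⟨0, by simp⟩
    | succ n ih =>
      obtain ⟨r, hr⟩ := ih
      have := hcon r
      rw [← hr] at this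
      push_cast
      rwa [add_mul, one_mul]
  have hFt := Fintype.ofFinite F
  have h2 : ((Fintype.card F - 1 : ℕ) : F) = -1 := by
    rw [Nat.cast_sub Fintype.card_pos, FiniteField.cast_card_eq_zero]; simp
  obtain ⟨r, hr⟩ := h1 (Fintype.card F - 1)
  rw [h2] at hr
  apply hm1
  refine ⟨r * γ⁻¹, ?_⟩
  field_simp
  linear_combination hr

/-- choice of the coefficient -/
theorem exists_kappa (h2 : (2 : F) ≠ 0) (hm1 : ¬ IsSquare (-1 : F)) {β s z G : F} (hβ : β ≠ 0) (hs : s ≠ 0) (hz : z ≠ 0)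
    (hG : G ≠ 0) (h : 1 + β * (s * s) = β * (z * z)) :
    ∃ k : F, k ≠ 0 ∧ ¬ IsSquare ((k - 2 * G) * (k - 2 * G) + β * ((2 * s * G) * (2 * s * G))) := by
  have hY : 2 * s * G ≠ 0 := mul_ne_zero (mul_ne_zero h2 hs) hG
  by_cases hβs : IsSquare β
  · obtain ⟨γ, rfl⟩ := hβs
    have hγ : γ ≠ 0 := by rintro rfl; exact hβ (by ring)
    obtain ⟨X, hX⟩ := exists_nonsq_add hm1 (mul_ne_zero hγ hY)
    refine ⟨X + 2 * G, ?_, ?_⟩
    · intro h3
      apply hX
      have h4 : X = -(2 * G) := by linear_combination h3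
      refine ⟨2 * G * (γ * z), ?_⟩
      rw [h4]
      linear_combination (4 * G * G) * h
    · intro h3
      apply hX
      convert h3 using 1
      ring
  · refine ⟨2 * G, mul_ne_zero h2 hG, ?_⟩
    rintro ⟨r, hr⟩
    apply hβs
    refine ⟨r * (2 * s * G)⁻¹, ?_⟩
    field_simp
    linear_combination hr

/-- the first parameter -/
theorem exists_s1 (h2 : (2 : F) ≠ 0) (h7 : 7 ≤ Nat.card F) {β : F} (hβ : β ≠ 0) :
    ∃ s z : F, s ≠ 0 ∧ z ≠ 0 ∧ 1 + β * (s * s) = β * (z * z) := by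
  obtain ⟨m, hm⟩ := exists_avoid (F := F) [(0, 1, 0), (-1, 0, β), (1, 0, β)] (by
    intro t ht
    simp only [List.mem_cons, List.not_mem_nil, or_false] at ht
    rcases ht with rfl | rfl | rfl
    · right; left; exact one_ne_zero
    · right; right; exact hβ
    · right; right; exact hβ) (by simp only [List.length_cons, List.length_nil]; omega)
  have a1 := hm (0, 1, 0) (by simp)
  have a2 := hm (-1, 0, β) (by simp)
  have a3 := hm (1, 0, β) (by simp)
  simp only at a1 a2 a3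
  have hm0 : m ≠ 0 := by
    intro h; apply a1; rw [h]; ring
  refine ⟨((β * m)⁻¹ - m) * 2⁻¹, (m + (β * m)⁻¹) * 2⁻¹, ?_, ?_, ?_⟩
  · refine mul_ne_zero ?_ (inv_ne_zero h2)
    intro h
    apply a2
    have h3 : (β * m)⁻¹ = m := sub_eq_zero.1 h
    have h4 : β * m * (β * m)⁻¹ = 1 := mul_inv_cancel₀ (mul_ne_zero hβ hm0)
    rw [h3] at h4
    linear_combination h4
  · refine mul_ne_zero ?_ (inv_ne_zero h2)
    intro h
    apply a3
    have h4 : β * m * (β * m)⁻¹ = 1 := mul_inv_cancel₀ (mul_ne_zero hβ hm0)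
    linear_combination (β * m) * h - h4
  · field_simp
    ring

end Field

variable {F V : Type*} [Field F] [Finite F] [AddCommGroup V] [Module F V] [FiniteDimensional F V]
  {Q : QuadraticForm F V} {M : Subgroup (V ≃ₗ[F] V)}
variable {κ : Type*} [Fintype κ] [DecidableEq κ]

namespace DK

variable {D : κ → Submodule F V} {pr : κ → V →ₗ[F] V} (S : DK Q D pr M)
include S

/-- escaping from the bad configuration -/
theorem stepC (hd : ∀ i, finrank F (D i) = 2) (ty : Ty Q D) (h5 : 5 ≤ Fintype.card κ) (h2 : (2 : F) ≠ 0)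
    (hm1 : ¬ IsSquare (-1 : F)) (h7 : 7 ≤ Nat.card F) (f : Fin 7 ↪ κ)
    {a0 v : V} {i0 : κ} (ha0 : a0 ∈ D i0) (hQa : Q a0 ≠ 0) (hv : Cl Q M a0 v)
    {b : κ → V} (hbD : ∀ m, b m ∈ D m) (hbo : ∀ m, polar Q (b m) (pr m v) = 0) {β : F} (hβ : β ≠ 0)
    (hQb : ∀ m, Q (b m) = β * Q (pr m v)) (hQv : ∀ m, Q (pr m v) ≠ 0)
    (hsq : ∀ m, ∃ r, r ≠ 0 ∧ Q (pr m v) = r * r * Q (pr (f 0) v)) (hsc : sc Q (b (f 0)) a0) : Om Q ≤ M := by
  have hne : ∀ {x y : Fin 7}, x ≠ y → f x ≠ f y := fun h h' => h (f.injective h')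
  -- the moves
  obtain ⟨c, hc⟩ : ∃ c : κ → F → V, ∀ m s, c m s = pr m v + s • b m := ⟨_, fun _ _ => rfl⟩
  obtain ⟨x, hx⟩ : ∃ x : κ → F → V, ∀ m s, x m s = (2 * (1 + β * (s * s))⁻¹) • c m s := ⟨_, fun _ _ => rfl⟩
  have hcD : ∀ m s, c m s ∈ D m := fun m s => by
    rw [hc]; exact (D m).add_mem (S.dec.mem m v) ((D m).smul_mem _ (hbD m))
  have hxD : ∀ m s, x m s ∈ D m := fun m s => by rw [hx]; exact (D m).smul_mem _ (hcD m s)
  have hQc : ∀ m s, Q (c m s) = Q (pr m v) * (1 + β * (s * s)) := by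
    intro m s
    rw [hc, Q_add, Q_smul, polar_smul_right, polar_comm, hbo, hQb, smul_zero]; ring
  have hcv : ∀ m s, polar Q (c m s) (pr m v) = 2 * Q (pr m v) := by
    intro m s
    rw [hc, polar_add_left, polar_smul_left, hbo, polar_self', smul_zero, add_zero]
  have hmv : ∀ m s w, pr m w = pr m v → refl Q (c m s) w = w - x m s := by
    intro m s w hw
    by_cases h0 : 1 + β * (s * s) = 0
    · rw [refl_of_eq_zero (by rw [hQc, h0, mul_zero]), hx, h0, inv_zero, mul_zero, zero_smul, sub_zero]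
      rfl
    · rw [refl_apply (by rw [hQc]; exact mul_ne_zero (hQv m) h0), hx, ← S.polar_pr' (hcD m s), hw, hcv, hQc]
      congr 2
      have := hQv m
      field_simp
  have hmv2 : ∀ m n s w, m ≠ n → Cl Q M a0 w → pr m w = pr m v → pr n w = pr n v →
      Cl Q M a0 (w - x n s - x m s) := by
    intro m n s w hmn hw hwm hwn
    have h3 : refl Q (c m s) (refl Q (c n s) w) = w - x n s - x m s := by
      rw [hmv n s w hwn, hmv m s]
      rw [map_sub, S.pr_ne hmn.symm (hxD n s), sub_zero, hwm]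
    rw [← h3]
    by_cases h0 : 1 + β * (s * s) = 0
    · rw [refl_of_eq_zero (v := c m s) (by rw [hQc, h0, mul_zero]),
        refl_of_eq_zero (v := c n s) (by rw [hQc, h0, mul_zero])]
      exact hw
    · refine S.cl_pair ha0 hQa hw (hcD m s) (hcD n s) (by rw [hQc]; exact mul_ne_zero (hQv m) h0) ?_
      obtain ⟨r, hr, hr'⟩ := hsq m
      obtain ⟨t, ht, ht'⟩ := hsq n
      refine ⟨r * t⁻¹, mul_ne_zero hr (inv_ne_zero ht), ?_⟩
      rw [hQc, hQc, hr', ht']
      field_simp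
  have hvx : ∀ m s, polar Q v (x m s) = 4 * (1 + β * (s * s))⁻¹ * Q (pr m v) := by
    intro m s
    rw [hx, polar_smul_right, ← S.polar_pr (hcD m s), polar_comm, hcv, smul_eq_mul]; ring
  -- the first parameter
  obtain ⟨s1, z, hs1, hz, hsz⟩ := exists_s1 h2 h7 hβ
  obtain ⟨G, hG⟩ : ∃ G, G = (1 + β * (s1 * s1))⁻¹ := ⟨_, rfl⟩
  have hG' : 1 + β * (s1 * s1) ≠ 0 := by rw [hsz]; exact mul_ne_zero hβ (mul_ne_zero hz hz)
  have hG0 : G ≠ 0 := by rw [hG]; exact inv_ne_zero hG'
  obtain ⟨k, hk0, hk⟩ := exists_kappa h2 hm1 hβ hs1 hz hG0 hsz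
  -- the other parameters
  have hA : ∀ m n, Q (pr m v) + Q (pr n v) ≠ 0 := by
    intro m n h0
    obtain ⟨r, hr, hr'⟩ := hsq m
    obtain ⟨t, ht, ht'⟩ := hsq n
    apply hm1
    refine ⟨r * t⁻¹, ?_⟩
    rw [hr', ht'] at h0
    have h3 : r * r + t * t = 0 := by
      apply (mul_eq_zero.1 (show (r * r + t * t) * Q (pr (f 0) v) = 0 by linear_combination h0)).resolve_right
      exact hQv _
    field_simp
    linear_combination -h3
  obtain ⟨s, t, hst⟩ := exists_two_sq h2 (g := fun y => 4 * (Q (pr (f 1) v) + Q (pr (f 2) v)) * (1 + β * y)⁻¹)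
    (h := fun y => ((k + 1) * Q v - 4 * G * Q (pr (f 0) v)) - 4 * (Q (pr (f 3) v) + Q (pr (f 4) v)) * (1 + β * y)⁻¹)
    (by
      intro y y' hy
      simp only at hy
      have h4 : (4 : F) ≠ 0 := by rw [show (4 : F) = 2 * 2 by norm_num]; exact mul_ne_zero h2 h2
      have h3 := mul_left_cancel₀ (mul_ne_zero h4 (hA _ _)) hy
      exact mul_left_cancel₀ hβ (add_left_cancel (inv_injective h3)))
    (by
      intro y y' hy
      simp only at hy
      have h4 : (4 : F) ≠ 0 := by rw [show (4 : F) = 2 * 2 by norm_num]; exact mul_ne_zero h2 h2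
      have h3 := mul_left_cancel₀ (mul_ne_zero h4 (hA _ _)) (sub_right_injective hy)
      exact mul_left_cancel₀ hβ (add_left_cancel (inv_injective h3)))
  -- the vector `v'`
  have hc1 : Cl Q M a0 (c (f 0) s1) := by
    refine S.cl_base ha0 hQa (hcD _ _) (sc.trans (b := b (f 0)) ⟨z, hz, ?_⟩ hsc)
    rw [hQc, hQb, hsz]; ring
  have w1 := hc1.refl' hv
  rw [hmv (f 0) s1 v rfl] at w1
  have w2 := hmv2 (f 1) (f 2) s _ (hne (by decide)) w1
    (by rw [map_sub, S.pr_ne (hne (show (0 : Fin 7) ≠ 1 by decide)) (hxD _ _), sub_zero])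
    (by rw [map_sub, S.pr_ne (hne (show (0 : Fin 7) ≠ 2 by decide)) (hxD _ _), sub_zero])
  have w3 := hmv2 (f 3) (f 4) t _ (hne (by decide)) w2
    (by rw [map_sub, map_sub, map_sub, S.pr_ne (hne (show (0 : Fin 7) ≠ 3 by decide)) (hxD _ _),
      S.pr_ne (hne (show (2 : Fin 7) ≠ 3 by decide)) (hxD _ _),
      S.pr_ne (hne (show (1 : Fin 7) ≠ 3 by decide)) (hxD _ _), sub_zero, sub_zero, sub_zero])
    (by rw [map_sub, map_sub, map_sub, S.pr_ne (hne (show (0 : Fin 7) ≠ 4 by decide)) (hxD _ _),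
      S.pr_ne (hne (show (2 : Fin 7) ≠ 4 by decide)) (hxD _ _),
      S.pr_ne (hne (show (1 : Fin 7) ≠ 4 by decide)) (hxD _ _), sub_zero, sub_zero, sub_zero])
  have w4 := hv.refl' w3
  rw [refl_apply hv.1] at w4
  have hpol : (Q v)⁻¹ * polar Q v (v - x (f 0) s1 - x (f 2) s - x (f 1) s - x (f 4) t - x (f 3) t) = 1 - k := by
    rw [polar_sub_right, polar_sub_right, polar_sub_right, polar_sub_right, polar_sub_right, hvx, hvx, hvx, hvx, hvx,
      polar_self', ← hG]
    have := hv.1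
    field_simp
    linear_combination -hst
  rw [hpol] at w4
  obtain ⟨u, hu⟩ : ∃ u, u = v - x (f 0) s1 - x (f 2) s - x (f 1) s - x (f 4) t - x (f 3) t - (1 - k) • v := ⟨_, rfl⟩
  rw [← hu] at w4
  have hpu : ∀ m, m ≠ 0 → m ≠ 1 → m ≠ 2 → m ≠ 3 → m ≠ 4 → pr (f m) u = k • pr (f m) v := by
    intro m h0 h1 h2 h3 h4
    rw [hu, map_sub, map_sub, map_sub, map_sub, map_sub, map_sub, S.pr_ne (hne h0.symm) (hxD _ _),
      S.pr_ne (hne h1.symm) (hxD _ _), S.pr_ne (hne h2.symm) (hxD _ _), S.pr_ne (hne h3.symm) (hxD _ _),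
      S.pr_ne (hne h4.symm) (hxD _ _), map_smul]
    module
  have hu5 := hpu 5 (by decide) (by decide) (by decide) (by decide) (by decide)
  have hu6 := hpu 6 (by decide) (by decide) (by decide) (by decide) (by decide)
  have hu0 : pr (f 0) u = (k - 2 * G) • pr (f 0) v - (2 * s1 * G) • b (f 0) := by
    rw [hu, map_sub, map_sub, map_sub, map_sub, map_sub, map_sub, S.pr_self (hxD (f 0) _),
      S.pr_ne (hne (show (1 : Fin 7) ≠ 0 by decide)) (hxD _ _),
      S.pr_ne (hne (show (2 : Fin 7) ≠ 0 by decide)) (hxD _ _),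
      S.pr_ne (hne (show (3 : Fin 7) ≠ 0 by decide)) (hxD _ _),
      S.pr_ne (hne (show (4 : Fin 7) ≠ 0 by decide)) (hxD _ _), map_smul, hx, hc, ← hG]
    module
  obtain ⟨X, hX⟩ : ∃ X, X = k - 2 * G := ⟨_, rfl⟩
  obtain ⟨Y, hY⟩ : ∃ Y, Y = 2 * s1 * G := ⟨_, rfl⟩
  rw [← hX, ← hY] at hk hu0
  have hb'D : (β * Y) • pr (f 0) v + X • b (f 0) ∈ D (f 0) :=
    (D _).add_mem ((D _).smul_mem _ (S.dec.mem _ v)) ((D _).smul_mem _ (hbD _))
  have hQb' : Q ((β * Y) • pr (f 0) v + X • b (f 0)) = (X * X + β * (Y * Y)) * Q (b (f 0)) := by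
    rw [Q_add, Q_smul, Q_smul, polar_smul_left, polar_smul_right, polar_comm, hbo, hQb, smul_zero, smul_zero]; ring
  have hω : X * X + β * (Y * Y) ≠ 0 := fun h0 => hk (by rw [h0]; exact ⟨0, by simp⟩)
  have hQb0 : Q (b (f 0)) ≠ 0 := by rw [hQb]; exact mul_ne_zero hβ (hQv _)
  refine S.stepB hd ty h5 (i := f 5) (j := f 6) (l := f 0) (hne (by decide)) (hne (by decide)) (hne (by decide))
    ha0 hQa w4 ?_ ?_ ?_ (Or.inr ⟨f 0, hne (by decide), hne (by decide), _, hb'D, ?_, ?_, ?_⟩)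
  · rw [hu5, Q_smul]; exact mul_ne_zero (mul_ne_zero hk0 hk0) (hQv _)
  · rw [hu6, Q_smul]; exact mul_ne_zero (mul_ne_zero hk0 hk0) (hQv _)
  · intro h0
    rw [hu0] at h0
    have h3 := congrArg Q h0
    rw [QuadraticMap.map_zero, Q_sub, Q_smul, Q_smul, polar_smul_left, polar_smul_right, polar_comm, hbo, hQb,
      smul_zero, smul_zero, sub_zero] at h3
    apply hω
    apply (mul_eq_zero.1 (show (X * X + β * (Y * Y)) * Q (pr (f 0) v) = 0 by linear_combination h3)).resolve_right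
    exact hQv _
  · rw [hQb']; exact mul_ne_zero hω hQb0
  · rw [← S.polar_pr' hb'D, hu0, polar_sub_right, polar_add_left, polar_add_left]
    simp only [polar_smul_left, polar_smul_right, polar_self', hbo, polar_comm Q (pr (f 0) v) (b (f 0)), hQb,
      smul_eq_mul]
    ring
  · intro h0
    obtain ⟨r, hr, hr'⟩ := h0
    obtain ⟨q, hq, hq'⟩ := hsc
    apply hk
    rw [hQb', hq'] at hr'
    refine ⟨r * q⁻¹, ?_⟩
    have h3 : (X * X + β * (Y * Y)) * (q * q) = r * r := by
      apply mul_right_cancel₀ hQa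
      linear_combination hr'
    field_simp
    linear_combination h3

end DK

end Cfsg.Agent.Lib.Dk2H94
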