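import Mathlib
import Cfsg.Prelude.Def_Characters


set_option autoImplicit false

/-!
# Fixed vectors of p-groups in characteristic p, the kernel of `F[G] → F[G/P]` (helper15)
-/

namespace Cfsg.Agent.Lib.PFix

/-- A finite `p`-group acting additively on a nonzero abelian group of exponent `p` has a
nonzero fixed point. -/
theorem exists_fixed {p : ℕ} [hp : Fact p.Prime] {P M : Type*} [Group P] [Finite P]
    (hP : IsPGroup p P) [AddCommGroup M] [DistribMulAction P M] (hM : ∀ m : M, p • m = 0)
    [Nontrivial M] : ∃ m : M, m ≠ 0 ∧ ∀ u : P, u • m = m := by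
  obtain ⟨v, hv⟩ := exists_ne (0 : M)
  let S : AddSubgroup M := AddSubgroup.closure (Set.range fun u : P => u • v)
  have hfg : AddGroup.FG S :=
    (AddGroup.fg_iff_addSubgroup_fg S).mpr
      ⟨(Set.finite_range (fun u : P => u • v)).toFinset, by simp [S]⟩
  have htor : IsAddTorsion S := by
    intro s
    rw [isOfFinAddOrder_iff_nsmul_eq_zero]
    exact ⟨p, hp.out.pos, Subtype.ext (hM s)⟩
  have hfin : Finite S := AddCommGroup.finite_of_fg_isAddTorsion S htor
  have hinv : ∀ (u : P) (s : M), s ∈ S → u • s ∈ S := by
    intro u s hs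
    induction hs using AddSubgroup.closure_induction with
    | mem x hx =>
      obtain ⟨w, rfl⟩ := hx
      exact AddSubgroup.subset_closure ⟨u * w, by simp [mul_smul]⟩
    | zero => rw [smul_zero]; exact S.zero_mem
    | add x y _ _ hx hy => rw [smul_add]; exact S.add_mem hx hy
    | neg x _ hx => rw [smul_neg]; exact S.neg_mem hx
  let act : MulAction P S :=
    { smul := fun u s => ⟨u • (s : M), hinv u s s.2⟩
      one_smul := fun s => Subtype.ext (one_smul P (s : M))
      mul_smul := fun a b s => Subtype.ext (mul_smul a b (s : M)) }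
  have hvS : v ∈ S := AddSubgroup.subset_closure ⟨1, by simp⟩
  have hdvd : p ∣ Nat.card S := by
    have h1 : addOrderOf (⟨v, hvS⟩ : S) = p := by
      apply addOrderOf_eq_prime
      · exact Subtype.ext (hM v)
      · intro h
        exact hv (congrArg Subtype.val h)
    rw [← h1]
    exact addOrderOf_dvd_natCard _
  obtain ⟨b, hb, hne⟩ := hP.exists_fixed_point_of_prime_dvd_card_of_fixed_point S hdvd
    (a := (0 : S)) (fun u => Subtype.ext (smul_zero u))
  refine ⟨b, fun h => hne (Subtype.ext h.symm), fun u => congrArg Subtype.val (hb u)⟩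

/-- Sum of an invariant function over a set on which a `p`-group acts without fixed points. -/
theorem sum_eq_zero_of_no_fixed {p : ℕ} [hp : Fact p.Prime] {P X M : Type*} [Group P] [Finite P]
    (hP : IsPGroup p P) [MulAction P X] [Fintype X] [AddCommGroup M] (hM : ∀ m : M, p • m = 0)
    (f : X → M) (hf : ∀ (u : P) (x : X), f (u • x) = f x) (hfix : ∀ x : X, ∃ u : P, u • x ≠ x) :
    ∑ x, f x = 0 := by
  classical
  rw [← Finset.sum_fiberwise (s := Finset.univ)
    (g := fun x : X => (Quotient.mk (MulAction.orbitRel P X) x))]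
  apply Finset.sum_eq_zero
  intro q _
  obtain ⟨y, rfl⟩ := Quotient.exists_rep q
  have h1 : ∀ x ∈ Finset.univ.filter (fun x : X => (Quotient.mk (MulAction.orbitRel P X) x) =
      Quotient.mk (MulAction.orbitRel P X) y), f x = f y := by
    intro x hx
    rw [Finset.mem_filter] at hx
    obtain ⟨u, rfl⟩ := Quotient.exact hx.2
    exact hf u y
  rw [Finset.sum_congr rfl h1, Finset.sum_const]
  have h2 : (Finset.univ.filter (fun x : X => (Quotient.mk (MulAction.orbitRel P X) x) =
      Quotient.mk (MulAction.orbitRel P X) y)).card = Nat.card (MulAction.orbit P y) := by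
    rw [Nat.card_eq_fintype_card, ← Set.toFinset_card]
    congr 1
    ext x
    rw [Finset.mem_filter, Set.mem_toFinset]
    constructor
    · rintro ⟨-, h⟩
      exact Quotient.exact h
    · intro h
      exact ⟨Finset.mem_univ _, Quotient.sound h⟩
  rw [h2]
  obtain ⟨k, hk⟩ := hP.card_orbit y
  have hk0 : k ≠ 0 := by
    rintro rfl
    rw [pow_zero, Nat.card_eq_one_iff_unique] at hk
    obtain ⟨u, hu⟩ := hfix y
    apply hu
    have := hk.1
    have h3 := Subsingleton.elim (⟨u • y, MulAction.mem_orbit y u⟩ : MulAction.orbit P y)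
      ⟨y, MulAction.mem_orbit_self y⟩
    exact congrArg Subtype.val h3
  obtain ⟨j, rfl⟩ := Nat.exists_eq_succ_of_ne_zero hk0
  rw [hk, pow_succ, mul_smul, hM, smul_zero]

variable {F : Type*} [Field F] {G : Type*} [Group G] [Finite G]

/-- A normal `p`-subgroup acts trivially on simple modules in characteristic `p`. -/
theorem smul_eq_of_simple {p : ℕ} [hp : Fact p.Prime] [CharP F p] (P : Subgroup G) [P.Normal]
    (hP : IsPGroup p P) (M : Type*) [AddCommGroup M] [Module (MonoidAlgebra F G) M]
    [IsSimpleModule (MonoidAlgebra F G) M] (u : G) (hu : u ∈ P) (m : M) :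
    (MonoidAlgebra.single u (1 : F)) • m = m := by
  let W : Submodule (MonoidAlgebra F G) M :=
    { carrier := {m | ∀ u ∈ P, (MonoidAlgebra.single u (1 : F)) • m = m}
      add_mem' := by
        intro a b ha hb u hu
        rw [smul_add, ha u hu, hb u hu]
      zero_mem' := by intro u _; exact smul_zero _
      smul_mem' := by
        intro c x hx
        induction c using MonoidAlgebra.induction_linear with
        | zero => intro u _; rw [zero_smul, smul_zero]
        | add f g hf hg =>
          intro u hu
          rw [add_smul, smul_add, hf u hu, hg u hu]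
        | single g a =>
          intro u hu
          rw [smul_smul, MonoidAlgebra.single_mul_single, one_mul]
          have h1 : u * g = g * (g⁻¹ * u * g) := by group
          have h2 : (MonoidAlgebra.single (u * g) a : MonoidAlgebra F G) =
              MonoidAlgebra.single g a * MonoidAlgebra.single (g⁻¹ * u * g) 1 := by
            rw [MonoidAlgebra.single_mul_single, mul_one, h1]
          rw [h2, ← smul_smul, hx]
          have := ‹P.Normal›.conj_mem u hu g⁻¹
          rwa [inv_inv] at this }
  have hW : W ≠ ⊥ := by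
    let act : DistribMulAction P M :=
      { smul := fun u m => (MonoidAlgebra.single (u : G) (1 : F)) • m
        one_smul := fun m => by
          change (MonoidAlgebra.single ((1 : P) : G) (1 : F)) • m = m
          rw [Subgroup.coe_one, ← MonoidAlgebra.one_def, one_smul]
        mul_smul := fun a b m => by
          change (MonoidAlgebra.single ((a * b : P) : G) (1 : F)) • m =
            (MonoidAlgebra.single (a : G) (1 : F)) • (MonoidAlgebra.single (b : G) (1 : F)) • m
          rw [smul_smul, MonoidAlgebra.single_mul_single, mul_one, Subgroup.coe_mul]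
        smul_zero := fun a => smul_zero _
        smul_add := fun a x y => smul_add _ _ _ }
    have hnt : Nontrivial M := IsSimpleModule.nontrivial (MonoidAlgebra F G) M
    have hM : ∀ m : M, p • m = 0 := by
      intro m
      have h1 : ((p : ℕ) : MonoidAlgebra F G) = 0 := by
        rw [← map_natCast (algebraMap F (MonoidAlgebra F G)), CharP.cast_eq_zero, map_zero]
      rw [← Nat.cast_smul_eq_nsmul (MonoidAlgebra F G), h1, zero_smul]
    obtain ⟨m, hm, h⟩ := exists_fixed hP hM
    intro h0
    apply hm
    have : m ∈ W := fun u hu => h ⟨u, hu⟩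
    rw [h0] at this
    exact (Submodule.mem_bot _).mp this
  have hW2 : W = ⊤ := (eq_bot_or_eq_top W).resolve_left hW
  have : m ∈ W := by rw [hW2]; trivial
  exact this u hu

/-- An element of `F[G]` annihilating all simple modules is nilpotent. -/
theorem isNilpotent_of_simple (z : MonoidAlgebra F G)
    (hz : ∀ I : Ideal (MonoidAlgebra F G), I.IsMaximal → ∀ m : MonoidAlgebra F G ⧸ I, z • m = 0) :
    IsNilpotent z := by
  have : IsArtinianRing (MonoidAlgebra F G) := by
    have : Module.Finite F (MonoidAlgebra F G) := inferInstance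
    exact IsArtinianRing.of_finite F (MonoidAlgebra F G)
  have hmem : z ∈ Ideal.jacobson (⊥ : Ideal (MonoidAlgebra F G)) := by
    rw [Ideal.jacobson, Ideal.mem_sInf]
    rintro I ⟨-, hI⟩
    have h1 := hz I hI (Submodule.Quotient.mk 1)
    rw [← Submodule.Quotient.mk_smul, smul_eq_mul, mul_one, Submodule.Quotient.mk_eq_zero] at h1
    exact h1
  obtain ⟨n, hn⟩ := IsArtinianRing.isNilpotent_jacobson_bot (R := MonoidAlgebra F G)
  refine ⟨n, ?_⟩
  have h1 := Ideal.pow_mem_pow hmem n
  rw [hn] at h1
  exact h1

/-- Class sums of elements no conjugate of which centralizes a normal `p`-subgroup are nilpotent. -/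
theorem classSum_isNilpotent {p : ℕ} [hp : Fact p.Prime] [CharP F p] (P : Subgroup G) [P.Normal]
    (hP : IsPGroup p P) (C : Finset G) (hC : ∀ (u x : G), x ∈ C → u * x * u⁻¹ ∈ C)
    (h : ∀ x ∈ C, ∃ u ∈ P, u * x ≠ x * u) :
    IsNilpotent (∑ x ∈ C, (MonoidAlgebra.single x (1 : F) : MonoidAlgebra F G)) := by
  classical
  apply isNilpotent_of_simple
  intro I hI m
  have hs : IsSimpleModule (MonoidAlgebra F G) (MonoidAlgebra F G ⧸ I) :=
    isSimpleModule_iff_isCoatom.mpr hI.out
  have htriv := smul_eq_of_simple (F := F) P hP (MonoidAlgebra F G ⧸ I)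
  rw [Finset.sum_smul, ← Finset.sum_coe_sort]
  let act : MulAction P C :=
    { smul := fun u x => ⟨u * x * (u : G)⁻¹, hC u x x.2⟩
      one_smul := fun x => Subtype.ext (by
        change ((1 : P) : G) * x * ((1 : P) : G)⁻¹ = x
        simp)
      mul_smul := fun a b x => Subtype.ext (by
        change ((a * b : P) : G) * x * ((a * b : P) : G)⁻¹ = a * (b * x * (b : G)⁻¹) * (a : G)⁻¹
        rw [Subgroup.coe_mul]; group) }
  apply sum_eq_zero_of_no_fixed hP
  · intro m
    have h1 : ((p : ℕ) : MonoidAlgebra F G) = 0 := by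
      rw [← map_natCast (algebraMap F (MonoidAlgebra F G)), CharP.cast_eq_zero, map_zero]
    rw [← Nat.cast_smul_eq_nsmul (MonoidAlgebra F G), h1, zero_smul]
  · intro u x
    change MonoidAlgebra.single ((u : G) * x * (u : G)⁻¹) (1 : F) • m =
      MonoidAlgebra.single (x : G) (1 : F) • m
    have h1 : (MonoidAlgebra.single ((u : G) * x * (u : G)⁻¹) (1 : F) : MonoidAlgebra F G) =
        MonoidAlgebra.single (u : G) 1 * (MonoidAlgebra.single (x : G) 1 *
          MonoidAlgebra.single ((u : G)⁻¹) 1) := by
      rw [MonoidAlgebra.single_mul_single, MonoidAlgebra.single_mul_single, mul_one, mul_one,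
        mul_assoc]
    rw [h1, mul_smul, htriv u u.2, mul_smul, htriv _ (P.inv_mem u.2)]
  · intro x
    obtain ⟨u, hu, hne⟩ := h x x.2
    refine ⟨⟨u, hu⟩, fun heq => hne ?_⟩
    have h2 : u * (x : G) * u⁻¹ = x := congrArg Subtype.val heq
    rw [mul_inv_eq_iff_eq_mul] at h2
    exact h2

end Cfsg.Agent.Lib.PFix
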