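import Mathlib
import Cfsg.Prelude.Def_Characters
import Cfsg.Agent.Lib.CharBasic
import Cfsg.Agent.Lib.CharBasic2
import Cfsg.Agent.Lib.IndFun
import Cfsg.Agent.Lib.PFix
import Cfsg.Agent.Lib.Clifford
import Cfsg.Agent.S0874

set_option autoImplicit false

/-!
# Restriction of an invariant character to p-elementary subgroups (helper15)
-/

namespace Cfsg.Agent.Lib.ElemRestr

open scoped ComplexConjugate
open CharBasic

universe u

variable {G : Type u} [Group G]

/-- Conjugation by an element of `E` on `E ⊓ N`. -/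
def cF (E N : Subgroup G) [hN : N.Normal] (g : E) : ↥(E ⊓ N) ≃* ↥(E ⊓ N) where
  toFun x := ⟨g * x * (g : G)⁻¹, E.mul_mem (E.mul_mem g.2 x.2.1) (E.inv_mem g.2),
    hN.conj_mem (x : G) x.2.2 g⟩
  invFun x := ⟨(g : G)⁻¹ * x * g, E.mul_mem (E.mul_mem (E.inv_mem g.2) x.2.1) g.2, by
    have := hN.conj_mem (x : G) x.2.2 (g : G)⁻¹
    rwa [inv_inv] at this⟩
  left_inv x := Subtype.ext (by change (g : G)⁻¹ * (g * x * (g : G)⁻¹) * g = x; group)
  right_inv x := Subtype.ext (by change (g : G) * ((g : G)⁻¹ * x * g) * (g : G)⁻¹ = x; group)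
  map_mul' x y := Subtype.ext (by
    change (g : G) * ((x : G) * y) * (g : G)⁻¹ = (g * x * (g : G)⁻¹) * (g * y * (g : G)⁻¹)
    group)

theorem cF_mul (E N : Subgroup G) [N.Normal] (g h : E) (x : ↥(E ⊓ N)) :
    cF E N (g * h) x = cF E N g (cF E N h x) :=
  Subtype.ext (by
    change ((g * h : E) : G) * (x : G) * ((g * h : E) : G)⁻¹ =
      (g : G) * ((h : G) * x * (h : G)⁻¹) * (g : G)⁻¹
    rw [Subgroup.coe_mul]; group)

theorem cF_one (E N : Subgroup G) [N.Normal] (x : ↥(E ⊓ N)) : cF E N 1 x = x :=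
  Subtype.ext (by
    change ((1 : E) : G) * (x : G) * ((1 : E) : G)⁻¹ = x
    simp)

/-- The action of `E` on the irreducible characters of `E ⊓ N`. -/
noncomputable instance actE (E N : Subgroup G) [N.Normal] : MulAction E (IrrCharacter ↥(E ⊓ N)) where
  smul g α := ⟨fun x => (α : ↥(E ⊓ N) → ℂ) (cF E N g⁻¹ x),
    (isIrrCharacter_comp_mulEquiv_iff (cF E N g⁻¹)).mpr α.2⟩
  one_smul α := Subtype.ext (by
    funext x
    change (α : ↥(E ⊓ N) → ℂ) (cF E N 1⁻¹ x) = _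
    rw [inv_one, cF_one])
  mul_smul g h α := Subtype.ext (by
    funext x
    change (α : ↥(E ⊓ N) → ℂ) (cF E N (g * h)⁻¹ x) = (α : ↥(E ⊓ N) → ℂ) (cF E N h⁻¹ (cF E N g⁻¹ x))
    rw [mul_inv_rev, cF_mul])

theorem smul_apply (E N : Subgroup G) [N.Normal] (g : E) (α : IrrCharacter ↥(E ⊓ N))
    (x : ↥(E ⊓ N)) : ((g • α : IrrCharacter ↥(E ⊓ N)) : ↥(E ⊓ N) → ℂ) x =
      (α : ↥(E ⊓ N) → ℂ) (cF E N g⁻¹ x) := rfl

/-- Elements of `E ⊓ N` act trivially. -/
theorem smul_of_mem (E N : Subgroup G) [N.Normal] (g : E) (hg : (g : G) ∈ N)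
    (α : IrrCharacter ↥(E ⊓ N)) : g • α = α := by
  apply Subtype.ext
  funext x
  rw [smul_apply]
  let g' : ↥(E ⊓ N) := ⟨g, g.2, hg⟩
  have h1 : cF E N g⁻¹ x = g'⁻¹ * x * g'⁻¹⁻¹ := Subtype.ext (by
    change ((g⁻¹ : E) : G) * (x : G) * ((g⁻¹ : E) : G)⁻¹ = (g : G)⁻¹ * x * (g : G)⁻¹⁻¹
    rfl)
  rw [h1]
  exact α.2.isClassFunction _ _

/-- The key index computation. -/
theorem inner_indFun_mul [Fintype G] (E N : Subgroup G) [hN : N.Normal] [Fintype N]
    [Fintype ↥(E ⊓ N)] (φ : E → ℂ) (F : N → ℂ)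
    (hF : ∀ (g : G) (n : N), F ⟨g * n * g⁻¹, hN.conj_mem (n : G) n.2 g⟩ = F n) :
    (Nat.card N : ℂ)⁻¹ * ∑ n : N, indFun E φ n * F n =
      (Nat.card G : ℂ) * (Nat.card N : ℂ)⁻¹ * (Nat.card E : ℂ)⁻¹ *
        ∑ x : ↥(E ⊓ N), φ ⟨x, x.2.1⟩ * F ⟨x, x.2.2⟩ := by
  classical
  have h1 : ∑ n : N, indFun E φ n * F n =
      (Nat.card E : ℂ)⁻¹ * ((Nat.card G : ℂ) * ∑ n : N, extendByZero E φ n * F n) := by
    simp only [IndFun.indFun_apply]
    have h2 : ∀ n : N, (Nat.card E : ℂ)⁻¹ * (∑ x : G, extendByZero E φ (x⁻¹ * n * x)) * F n =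
        (Nat.card E : ℂ)⁻¹ * ∑ x : G, extendByZero E φ (x⁻¹ * n * x) * F n := by
      intro n
      rw [mul_assoc, Finset.sum_mul]
    rw [Finset.sum_congr rfl (fun n _ => h2 n), ← Finset.mul_sum, Finset.sum_comm]
    congr 1
    have h3 : ∀ x : G, ∑ n : N, extendByZero E φ (x⁻¹ * n * x) * F n =
        ∑ n : N, extendByZero E φ n * F n := by
      intro x
      refine Fintype.sum_equiv (MulAut.conjNormal x⁻¹ : N ≃* N).toEquiv _ _ ?_
      intro n
      have h4 : (((MulAut.conjNormal x⁻¹ : N ≃* N).toEquiv n : N) : G) = x⁻¹ * n * x := by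
        change ((MulAut.conjNormal x⁻¹ n : N) : G) = _
        rw [MulAut.conjNormal_apply, inv_inv]
      rw [h4]
      congr 1
      have h5 := hF x⁻¹ n
      rw [← h5]
      congr 1
    rw [Finset.sum_congr rfl (fun x _ => h3 x), Finset.sum_const, Finset.card_univ, nsmul_eq_mul,
      Nat.card_eq_fintype_card]
  have h2 : ∑ n : N, extendByZero E φ n * F n =
      ∑ x : ↥(E ⊓ N), φ ⟨x, x.2.1⟩ * F ⟨x, x.2.2⟩ := by
    symm
    refine Finset.sum_bij_ne_zero (fun (x : ↥(E ⊓ N)) _ _ => (⟨x, x.2.2⟩ : N)) ?_ ?_ ?_ ?_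
    · intro _ _ _; exact Finset.mem_univ _
    · intro a _ _ b _ _ h
      exact Subtype.ext (Subtype.mk.inj h)
    · intro n _ hn
      have hnE : (n : G) ∈ E := by
        by_contra hcon
        apply hn
        rw [IndFun.extendByZero_not_mem _ _ hcon, zero_mul]
      refine ⟨⟨n, hnE, n.2⟩, Finset.mem_univ _, ?_, rfl⟩
      rw [IndFun.extendByZero_mem _ _ hnE] at hn
      exact hn
    · intro x _ _
      rw [IndFun.extendByZero_mem _ _ x.2.1]
  rw [h1, h2]
  ring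

open scoped Classical in
/-- Counting modulo `p` over the characters of `E ⊓ N`: only the `E`-invariant ones matter. -/
theorem exists_invariant [Finite G] {p : ℕ} [hp : Fact p.Prime] (E N : Subgroup G) [hN : N.Normal]
    {k : ℕ} (hidx : (N.subgroupOf E).index = p ^ k) (f : IrrCharacter ↥(E ⊓ N) → ℤ)
    (hf : ∀ (g : E) (α : IrrCharacter ↥(E ⊓ N)), f (g • α) = f α)
    (hsum : ¬ (p : ℤ) ∣ ∑ α : IrrCharacter ↥(E ⊓ N), f α) :
    ∃ α : IrrCharacter ↥(E ⊓ N), (∀ g : E, g • α = α) ∧ ¬ (p : ℤ) ∣ f α := by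
  obtain ⟨S⟩ : Nonempty (Sylow p E) := inferInstance
  -- E is generated by S and elements of N
  have hsup : (N.subgroupOf E) ⊔ S = ⊤ := by
    rw [← Subgroup.index_eq_one]
    have h1 : (N.subgroupOf E ⊔ S).index ∣ p ^ k := by
      rw [← hidx]; exact Subgroup.index_dvd_of_le le_sup_left
    have h2 : (N.subgroupOf E ⊔ S).index ∣ (S : Subgroup E).index :=
      Subgroup.index_dvd_of_le le_sup_right
    have h3 : Nat.Coprime (p ^ k) (S : Subgroup E).index :=
      Nat.Coprime.pow_left k ((Nat.Prime.coprime_iff_not_dvd hp.out).mpr S.not_dvd_index)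
    exact Nat.dvd_one.mp (h3 ▸ Nat.dvd_gcd h1 h2)
  have hfix : ∀ α : IrrCharacter ↥(E ⊓ N), (∀ s ∈ S, s • α = α) → ∀ g : E, g • α = α := by
    intro α hα g
    have h1 : g ∈ ((N.subgroupOf E ⊔ (S : Subgroup E) : Subgroup E) : Set E) := by
      rw [hsup]; trivial
    rw [Subgroup.normal_mul] at h1
    obtain ⟨n, hn, s, hs, rfl⟩ := h1
    change (n * s) • α = α
    rw [mul_smul, hα s hs]
    exact smul_of_mem E N n hn α
  by_contra hcon
  push Not at hcon
  apply hsum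
  let X := {α : IrrCharacter ↥(E ⊓ N) // ¬ ∀ s ∈ S, s • α = α}
  let act : MulAction S X :=
    { smul := fun s α => ⟨(s : E) • α.1, fun h => α.2 (by
        intro t ht
        have h1 : (s * t * (s : E)⁻¹ : E) ∈ S :=
          S.mul_mem (S.mul_mem s.2 ht) (S.inv_mem s.2)
        have h2 := h _ h1
        rw [smul_smul, inv_mul_cancel_right, mul_smul] at h2
        exact smul_left_cancel _ h2)⟩
      one_smul := fun α => Subtype.ext (one_smul E α.1)
      mul_smul := fun a b α => Subtype.ext (mul_smul (a : E) (b : E) α.1) }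
  have h1 := PFix.sum_eq_zero_of_no_fixed (P := S) (X := X) (M := ZMod p) S.2
    (by intro m; rw [nsmul_eq_mul, ZMod.natCast_self, zero_mul])
    (fun α => ((f α.1 : ℤ) : ZMod p)) (by
      intro s α
      change ((f ((s : E) • α.1) : ℤ) : ZMod p) = _
      rw [hf]) (by
      intro α
      have h2 := α.2
      push Not at h2
      obtain ⟨s, hs, h3⟩ := h2
      exact ⟨⟨s, hs⟩, fun h => h3 (congrArg Subtype.val h)⟩)
  rw [← ZMod.intCast_zmod_eq_zero_iff_dvd]
  rw [← Finset.sum_filter_add_sum_filter_not Finset.univ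
    (fun α : IrrCharacter ↥(E ⊓ N) => ∀ s ∈ S, s • α = α)]
  rw [Int.cast_add, Int.cast_sum, Int.cast_sum]
  have h2 : ∑ α ∈ Finset.univ.filter (fun α : IrrCharacter ↥(E ⊓ N) => ∀ s ∈ S, s • α = α),
      ((f α : ℤ) : ZMod p) = 0 := by
    apply Finset.sum_eq_zero
    intro α hα
    rw [ZMod.intCast_zmod_eq_zero_iff_dvd]
    exact hcon α (hfix α (Finset.mem_filter.mp hα).2)
  rw [h2, zero_add, ← h1]
  rw [Finset.sum_subtype (p := fun α : IrrCharacter ↥(E ⊓ N) => ¬ ∀ s ∈ S, s • α = α)]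
  intro α
  rw [Finset.mem_filter]
  simp

/-- Restricting an invariant character to a `p`-elementary subgroup. -/
theorem main [Fintype G] {p : ℕ} (hp : p.Prime) (N : Subgroup G) [hN : N.Normal]
    (hind : ∃ k : ℕ, N.index = p ^ k) (ϑ : N → ℂ) (hϑ : IsIrrCharacter N ϑ)
    (hinv : ∀ (g : G) (n : N), ϑ ⟨g * n * g⁻¹, hN.conj_mem (n : G) n.2 g⟩ = ϑ n) :
    ∃ (E : Subgroup G) (φ : IrrCharacter ↥(E ⊓ N)), IsElementary p E ∧ E ⊔ N = ⊤ ∧
      (∀ g : E, g • φ = φ) ∧ ∃ (_ : Fintype ↥(E ⊓ N)) (m : ℕ), ¬ p ∣ m ∧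
        classInner (fun x : ↥(E ⊓ N) => ϑ ⟨x, x.2.2⟩) (φ : ↥(E ⊓ N) → ℂ) = m := by
  classical
  have : Fact p.Prime := ⟨hp⟩
  obtain ⟨k, hk⟩ := hind
  obtain ⟨m, l, hm, hl, hsum⟩ := Cfsg.Agent.S0874.result (G := G) p hp
  let F : N → ℂ := fun n => ϑ n * conj (ϑ n)
  have hF : ∀ (g : G) (n : N), F ⟨g * n * g⁻¹, hN.conj_mem (n : G) n.2 g⟩ = F n := by
    intro g n
    simp only [F, hinv]
  -- the functional
  let Φ : (G → ℂ) →ₗ[ℂ] ℂ :=
    { toFun := fun χ => (Nat.card N : ℂ)⁻¹ * ∑ n : N, χ n * F n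
      map_add' := fun a b => by
        simp only [Pi.add_apply, add_mul, Finset.sum_add_distrib, mul_add]
      map_smul' := fun c a => by
        simp only [Pi.smul_apply, smul_eq_mul, mul_assoc, ← Finset.mul_sum, RingHom.id_apply]
        ring }
  have hΦ1 : Φ (fun _ => (m : ℂ)) = m := by
    change (Nat.card N : ℂ)⁻¹ * ∑ n : N, (m : ℂ) * F n = m
    rw [← Finset.mul_sum, mul_left_comm]
    have : (Nat.card N : ℂ)⁻¹ * ∑ n : N, F n = 1 := hϑ.classInner_self
    rw [this, mul_one]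
  have hΦ2 : (l.map fun t => Φ ((t.2.2 : ℂ) • indFun t.1 t.2.1)).sum = m := by
    rw [← hΦ1, hsum, map_list_sum, List.map_map]
    rfl
  -- value of the functional on induced characters
  have hval : ∀ (E : Subgroup G) (φ : E → ℂ), IsCharacter E φ → ∃ (J : ℤ) (i : ℕ),
      Φ (indFun E φ) = (i : ℂ) * J ∧ (¬ p ∣ i → E ⊔ N = ⊤) ∧
      (∃ k', (N.subgroupOf E).index = p ^ k') ∧
      (¬ (p : ℤ) ∣ J → ∃ φ : IrrCharacter ↥(E ⊓ N), (∀ g : E, g • φ = φ) ∧
        ∃ (_ : Fintype ↥(E ⊓ N)) (m : ℕ), ¬ p ∣ m ∧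
        classInner (fun x : ↥(E ⊓ N) => ϑ ⟨x, x.2.2⟩) (φ : ↥(E ⊓ N) → ℂ) = m) := by
    intro E φ hφ
    have hFin : Fintype ↥(E ⊓ N) := Fintype.ofFinite _
    let ϑF : ↥(E ⊓ N) → ℂ := fun x => ϑ ⟨x, x.2.2⟩
    let φF : ↥(E ⊓ N) → ℂ := fun x => φ ⟨x, x.2.1⟩
    have hϑF : IsCharacter ↥(E ⊓ N) ϑF :=
      hϑ.isCharacter.comp (Subgroup.inclusion (inf_le_right : E ⊓ N ≤ N))
    have hφF : IsCharacter ↥(E ⊓ N) φF :=
      hφ.comp (Subgroup.inclusion (inf_le_left : E ⊓ N ≤ E))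
    have hϑc : ∀ (g : E) (x : ↥(E ⊓ N)), ϑF (cF E N g x) = ϑF x := fun g x =>
      hinv g ⟨x, x.2.2⟩
    have hφc : ∀ (g : E) (x : ↥(E ⊓ N)), φF (cF E N g x) = φF x := fun g x =>
      hφ.isClassFunction ⟨x, x.2.1⟩ g
    obtain ⟨J, hJ⟩ := (hφF.mul hϑF).classInner_nat hϑF
    have hrel : (N.subgroupOf E).index * (E ⊔ N).index = N.index := by
      have h1 : N.relIndex (E ⊔ N) = N.relIndex E := Subgroup.relIndex_sup_right E N
      have h2 : N.relIndex (E ⊔ N) * (E ⊔ N).index = N.index :=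
        Subgroup.relIndex_mul_index le_sup_right
      rw [h1] at h2
      exact h2
    have hcardE : Nat.card E = Nat.card ↥(E ⊓ N) * (N.subgroupOf E).index := by
      have h1 := Subgroup.card_mul_index (N.subgroupOf E)
      have h2 : Nat.card (N.subgroupOf E) = Nat.card ↥(E ⊓ N) := by
        rw [inf_comm]
        exact Nat.card_congr (Subgroup.subgroupOfEquivOfLe (G := G) (H := N ⊓ E) (K := E)
          inf_le_right).toEquiv |>.symm ▸ (by
            rw [Subgroup.inf_subgroupOf_right])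
      rw [← h1, h2]
    refine ⟨J, (E ⊔ N).index, ?_, ?_, ?_, ?_⟩
    · change (Nat.card N : ℂ)⁻¹ * ∑ n : N, indFun E φ n * F n = _
      rw [inner_indFun_mul E N φ F hF]
      have h1 : (J : ℂ) = (Nat.card ↥(E ⊓ N) : ℂ)⁻¹ *
          ∑ x : ↥(E ⊓ N), φ ⟨x, x.2.1⟩ * F ⟨x, x.2.2⟩ := by
        rw [← hJ]
        unfold classInner
        congr 1
        apply Finset.sum_congr rfl
        intro x _
        simp only [Pi.mul_apply, F, φF, ϑF]
        ring
      have h2 : (Nat.card G : ℂ) = Nat.card N * ((N.subgroupOf E).index * (E ⊔ N).index : ℕ) := by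
        rw [hrel]
        exact_mod_cast (Subgroup.card_mul_index N).symm
      have hN0 : (Nat.card N : ℂ) ≠ 0 := by exact_mod_cast Nat.card_pos.ne'
      have hF0 : (Nat.card ↥(E ⊓ N) : ℂ) ≠ 0 := by exact_mod_cast Nat.card_pos.ne'
      have hi0 : ((N.subgroupOf E).index : ℂ) ≠ 0 := by
        exact_mod_cast Subgroup.index_ne_zero_of_finite
      rw [Int.cast_natCast, h1, h2, hcardE]
      push_cast
      field_simp
    · intro hpi
      rw [← Subgroup.index_eq_one]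
      have h1 : (E ⊔ N).index ∣ p ^ k := by
        rw [← hk, ← hrel]; exact dvd_mul_left _ _
      obtain ⟨j, -, hj⟩ := (Nat.dvd_prime_pow hp).mp h1
      rcases Nat.eq_zero_or_pos j with h0 | h0
      · rw [hj, h0, pow_zero]
      · exfalso
        apply hpi
        rw [hj]
        exact dvd_pow_self p h0.ne'
    · have h1 : (N.subgroupOf E).index ∣ p ^ k := by
        rw [← hk, ← hrel]; exact dvd_mul_right _ _
      obtain ⟨j, -, hj⟩ := (Nat.dvd_prime_pow hp).mp h1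
      exact ⟨j, hj⟩
    · intro hpJ
      obtain ⟨b, hb, hbs⟩ := hϑF.exists_coeff
      have hd : ∀ α : IrrCharacter ↥(E ⊓ N), ∃ n : ℕ,
          classInner (φF * (α : ↥(E ⊓ N) → ℂ)) ϑF = n := fun α =>
        (hφF.mul α.2.isCharacter).classInner_nat hϑF
      choose d hd using hd
      have hJsum : (J : ℤ) = ∑ α : IrrCharacter ↥(E ⊓ N), (b α * d α : ℤ) := by
        have h1 : (J : ℂ) = ((∑ α : IrrCharacter ↥(E ⊓ N), (b α * d α : ℤ) : ℤ) : ℂ) := by
          rw [← hJ]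
          have h2 : φF * ϑF = ∑ α : IrrCharacter ↥(E ⊓ N),
              (b α : ℂ) • (φF * (α : ↥(E ⊓ N) → ℂ)) := by
            conv_lhs => rw [hbs]
            rw [Finset.mul_sum]
            apply Finset.sum_congr rfl
            intro α _
            rw [mul_smul_comm]
          rw [h2, classInner_sum_left]
          push_cast
          apply Finset.sum_congr rfl
          intro α _
          rw [classInner_smul_left, hd]
        exact_mod_cast h1
      have hcomp : ∀ (g : E) (a c : ↥(E ⊓ N) → ℂ),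
          classInner (fun x => a (cF E N g x)) (fun x => c (cF E N g x)) = classInner a c :=
        fun g a c => Clifford.classInner_comp_equiv (cF E N g) a c
      have hbinv : ∀ (g : E) (α : IrrCharacter ↥(E ⊓ N)), b (g • α) = b α := by
        intro g α
        have h1 : classInner ϑF ((g • α : IrrCharacter ↥(E ⊓ N)) : ↥(E ⊓ N) → ℂ) =
            classInner ϑF (α : ↥(E ⊓ N) → ℂ) := by
          rw [← hcomp g⁻¹ ϑF (α : ↥(E ⊓ N) → ℂ)]
          congr 1
          funext x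
          exact (hϑc g⁻¹ x).symm
        rw [hb, hb] at h1
        exact_mod_cast h1
      have hdinv : ∀ (g : E) (α : IrrCharacter ↥(E ⊓ N)), d (g • α) = d α := by
        intro g α
        have h1 : classInner (φF * ((g • α : IrrCharacter ↥(E ⊓ N)) : ↥(E ⊓ N) → ℂ)) ϑF =
            classInner (φF * (α : ↥(E ⊓ N) → ℂ)) ϑF := by
          rw [← hcomp g⁻¹ (φF * (α : ↥(E ⊓ N) → ℂ)) ϑF]
          congr 1
          · funext x
            simp only [Pi.mul_apply]
            rw [hφc]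
            rfl
          · funext x
            exact (hϑc g⁻¹ x).symm
        rw [hd, hd] at h1
        exact_mod_cast h1
      have h1 : (N.subgroupOf E).index ∣ p ^ k := by
        rw [← hk, ← hrel]; exact dvd_mul_right _ _
      obtain ⟨j, -, hj⟩ := (Nat.dvd_prime_pow hp).mp h1
      obtain ⟨α, hα, hpα⟩ := exists_invariant E N hj (fun α => (b α * d α : ℤ))
        (fun g α => by simp only [hbinv, hdinv]) (by
          rw [hJsum] at hpJ
          convert hpJ)
      refine ⟨α, hα, hFin, b α, ?_, hb α⟩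
      intro h
      apply hpα
      exact Dvd.dvd.mul_right (by exact_mod_cast h) _
  -- conclusion
  by_contra hcon
  apply hm
  have hall : ∀ t ∈ l, ∃ c : ℤ, Φ ((t.2.2 : ℂ) • indFun t.1 t.2.1) = ((p * c : ℤ) : ℂ) := by
    intro t ht
    obtain ⟨hE, hφ⟩ := hl t ht
    obtain ⟨J, i, h1, h2, -, h4⟩ := hval t.1 t.2.1 hφ
    rw [map_smul, h1, smul_eq_mul]
    by_cases hi : p ∣ i
    · obtain ⟨c, rfl⟩ := hi
      exact ⟨t.2.2 * (c * J), by push_cast; ring⟩
    by_cases hJ : (p : ℤ) ∣ J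
    · obtain ⟨c, rfl⟩ := hJ
      exact ⟨t.2.2 * (i * c), by push_cast; ring⟩
    exfalso
    apply hcon
    obtain ⟨φ, h5, h6⟩ := h4 hJ
    exact ⟨t.1, φ, hE, h2 hi, h5, h6⟩
  have hdvd : ∀ l' : List ((E : Subgroup G) × ((E → ℂ) × ℤ)),
      (∀ t ∈ l', ∃ c : ℤ, Φ ((t.2.2 : ℂ) • indFun t.1 t.2.1) = ((p * c : ℤ) : ℂ)) →
      ∃ c : ℤ, (l'.map fun t => Φ ((t.2.2 : ℂ) • indFun t.1 t.2.1)).sum = ((p * c : ℤ) : ℂ) := by
    intro l'
    induction l' with
    | nil => intro _; exact ⟨0, by simp⟩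
    | cons a l' ih =>
      intro h
      obtain ⟨c, hc⟩ := ih (fun t ht => h t (List.mem_cons_of_mem _ ht))
      obtain ⟨c', hc'⟩ := h a List.mem_cons_self
      refine ⟨c' + c, ?_⟩
      rw [List.map_cons, List.sum_cons, hc, hc']
      push_cast; ring
  obtain ⟨c, hc⟩ := hdvd l hall
  rw [hΦ2] at hc
  exact ⟨c, by exact_mod_cast hc⟩

end Cfsg.Agent.Lib.ElemRestr
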