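import Mathlib
import Cfsg.Prelude.Def_Characters
import Cfsg.Agent.Lib.CharBasic
import Cfsg.Agent.Lib.CharBasic2
import Cfsg.Agent.Lib.IndFun
import Cfsg.Agent.Lib.DegRatio
import Cfsg.Agent.Lib.GoingDown
import Cfsg.Agent.Lib.ElemRestr

set_option autoImplicit false

/-!
# Extension of an invariant character over a p-group (helper15)
-/

namespace Cfsg.Agent.Lib.ElemExt

open scoped ComplexConjugate Pointwise
open CharBasic ElemRestr

universe u

/-- Linear characters of subgroups of finite abelian groups extend. -/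
theorem extend_hom {B : Type u} [Group B] [Finite B] (hB : ∀ a b : B, a * b = b * a)
    (A : Subgroup B) (lam : A →* ℂˣ) : ∃ μ : B →* ℂˣ, ∀ a : A, μ a = lam a := by
  let _ : CommGroup B := { ‹Group B› with mul_comm := hB }
  obtain ⟨μ, hμ⟩ := MonoidHom.domRestrict_surjective (M := ℂ) A lam
  exact ⟨μ, fun a => DFunLike.congr_fun hμ a⟩

variable {G : Type u} [Group G]

/-- Structure of a `p`-elementary group. -/
theorem exists_decomp {E : Type u} [Group E] [Finite E] {p : ℕ} [hp : Fact p.Prime]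
    (hE : IsElementary p E) : ∃ (C : Subgroup E) (S : Sylow p E), C ≤ Subgroup.center E ∧
      (Nat.card C).Coprime p ∧ (∀ e : E, ∃ c ∈ C, ∃ s ∈ S, e = c * s) := by
  obtain ⟨x, hx, hxp, k, hk⟩ := hE
  obtain ⟨S⟩ : Nonempty (Sylow p E) := inferInstance
  have hC : Subgroup.zpowers x ≤ Subgroup.center E := by
    rw [Subgroup.zpowers_le]; exact hx
  have hn : (Subgroup.zpowers x).Normal := ⟨fun n hn g => by
    have h1 := Subgroup.mem_center_iff.mp (hC hn) g
    have h2 : g * n * g⁻¹ = n := by rw [h1]; group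
    rw [h2]; exact hn⟩
  refine ⟨Subgroup.zpowers x, S, hC, by rw [Nat.card_zpowers]; exact hxp, ?_⟩
  have hsup : Subgroup.zpowers x ⊔ S = ⊤ := by
    rw [← Subgroup.index_eq_one]
    have h1 : (Subgroup.zpowers x ⊔ S).index ∣ p ^ k := by
      rw [← hk]; exact Subgroup.index_dvd_of_le le_sup_left
    have h2 : (Subgroup.zpowers x ⊔ S).index ∣ (S : Subgroup E).index :=
      Subgroup.index_dvd_of_le le_sup_right
    have h3 : Nat.Coprime (p ^ k) (S : Subgroup E).index :=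
      Nat.Coprime.pow_left k ((Nat.Prime.coprime_iff_not_dvd hp.out).mpr S.not_dvd_index)
    exact Nat.dvd_one.mp (h3 ▸ Nat.dvd_gcd h1 h2)
  intro e
  have h1 : e ∈ ((Subgroup.zpowers x ⊔ (S : Subgroup E) : Subgroup E) : Set E) := by
    rw [hsup]; trivial
  rw [Subgroup.normal_mul] at h1
  obtain ⟨c, hc, s, hs, rfl⟩ := h1
  exact ⟨c, hc, s, hs, rfl⟩

/-- Gluing homs on the factors of `E = C × S`. -/
theorem exists_glue {E : Type u} [Group E] [Finite E] {p : ℕ} [hp : Fact p.Prime]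
    (C : Subgroup E) (S : Sylow p E) (hC : C ≤ Subgroup.center E) (hCp : (Nat.card C).Coprime p)
    (hdec : ∀ e : E, ∃ c ∈ C, ∃ s ∈ S, e = c * s) (f : C →* ℂˣ) (g : S →* ℂˣ) :
    ∃ h : E →* ℂˣ, ∀ (c : C) (s : S), h ((c : E) * s) = f c * g s := by
  have hcomm : ∀ (c : C) (s : S), Commute (C.subtype c) ((S : Subgroup E).subtype s) := fun c s =>
    (Subgroup.mem_center_iff.mp (hC c.2) s).symm
  let F : C × S →* E := MonoidHom.noncommCoprod C.subtype (S : Subgroup E).subtype hcomm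
  have hFapp : ∀ x, F x = (x.1 : E) * (x.2 : E) := fun x => rfl
  have hbij : Function.Bijective F := by
    constructor
    · rw [← MonoidHom.ker_eq_bot_iff, eq_bot_iff]
      rintro ⟨c, s⟩ h
      rw [MonoidHom.mem_ker, hFapp] at h
      have h1 : (c : E) = ((s : E))⁻¹ := mul_eq_one_iff_eq_inv.mp h
      have h2 : orderOf (c : E) ∣ Nat.card C := Subgroup.orderOf_dvd_natCard C c.2
      obtain ⟨j, hj⟩ := IsPGroup.iff_card.mp S.2
      have h3 : orderOf (c : E) ∣ p ^ j := by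
        rw [h1, orderOf_inv, ← hj]
        exact Subgroup.orderOf_dvd_natCard _ s.2
      have h4 : orderOf (c : E) ∣ 1 := by
        rw [← Nat.Coprime.gcd_eq_one (Nat.Coprime.pow_right j hCp)]
        exact Nat.dvd_gcd h2 h3
      have h5 : (c : E) = 1 := orderOf_eq_one_iff.mp (Nat.dvd_one.mp h4)
      have h6 : (s : E) = 1 := by
        rw [h5] at h1; exact inv_eq_one.mp h1.symm
      rw [Subgroup.mem_bot]
      exact Prod.ext (Subtype.ext h5) (Subtype.ext h6)
    · intro e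
      obtain ⟨c, hc, s, hs, rfl⟩ := hdec e
      exact ⟨(⟨c, hc⟩, ⟨s, hs⟩), rfl⟩
  let e := MulEquiv.ofBijective F hbij
  refine ⟨(f.coprod g).comp e.symm.toMonoidHom, fun c s => ?_⟩
  have h1 : e.symm ((c : E) * s) = (c, s) := by
    rw [MulEquiv.symm_apply_eq]; rfl
  change (f.coprod g) (e.symm ((c : E) * s)) = _
  rw [h1]
  rfl

/-- The extension theorem. -/
theorem main [Fintype G] {p : ℕ} [hp : Fact p.Prime] (N : Subgroup G) [hN : N.Normal]
    (hind : ∃ k : ℕ, N.index = p ^ k) (P : Sylow p G)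
    (hcent : ∀ x ∈ (P : Subgroup G) ⊓ N, ∀ y ∈ (P : Subgroup G), x * y = y * x)
    (hlin : ∀ lam : ↥((P : Subgroup G) ⊓ N) →* ℂˣ, ∃ μ : ↥(P : Subgroup G) →* ℂˣ,
      ∀ x : ↥((P : Subgroup G) ⊓ N), μ ⟨(x : G), x.2.1⟩ = lam x)
    (ϑ : N → ℂ) (hϑ : IsIrrCharacter N ϑ)
    (hinv : ∀ (g : G) (n : N), ϑ ⟨g * n * g⁻¹, hN.conj_mem (n : G) n.2 g⟩ = ϑ n) :
    ∃ χ : G → ℂ, IsIrrCharacter G χ ∧ ∀ n : N, χ n = ϑ n := by
  classical
  obtain ⟨E, φ, hE, hEN, hφ, hfin, m, hm, hφm⟩ := ElemRestr.main hp.out N hind ϑ hϑ hinv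
  obtain ⟨k, hk⟩ := hind
  obtain ⟨C, S, hC, hCp, hdec⟩ := exists_decomp hE
  -- C is contained in N
  have hCN : ∀ c ∈ C, (c : G) ∈ N := by
    intro c hc
    rw [← QuotientGroup.eq_one_iff, ← orderOf_eq_one_iff, ← Nat.dvd_one]
    have h1 : orderOf ((c : G) : G ⧸ N) ∣ Nat.card C := by
      refine (orderOf_map_dvd (QuotientGroup.mk' N) (c : G)).trans ?_
      rw [Subgroup.orderOf_coe]
      exact Subgroup.orderOf_dvd_natCard C hc
    have h2 : orderOf ((c : G) : G ⧸ N) ∣ p ^ k := by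
      rw [← hk, Subgroup.index_eq_card]
      exact orderOf_dvd_natCard _
    rw [← Nat.Coprime.gcd_eq_one (Nat.Coprime.pow_right k hCp)]
    exact Nat.dvd_gcd h1 h2
  -- a Sylow subgroup of G containing S
  obtain ⟨R, hR⟩ := (S.2.map E.subtype).exists_le_sylow
  obtain ⟨g, hg⟩ := MulAction.exists_smul_eq G P R
  have hmem : ∀ x : G, x ∈ (R : Subgroup G) ↔ g⁻¹ * x * g ∈ (P : Subgroup G) := by
    intro x
    rw [← hg]
    constructor
    · rintro ⟨y, hy, rfl⟩
      have : g⁻¹ * (MulAut.conj g • y) * g = y := by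
        change g⁻¹ * (g * y * g⁻¹) * g = y
        group
      change g⁻¹ * (g * y * g⁻¹) * g ∈ (P : Subgroup G)
      have h2 : g⁻¹ * (g * y * g⁻¹) * g = y := by group
      rw [h2]; exact hy
    · intro h
      exact ⟨_, h, by change g * (g⁻¹ * x * g) * g⁻¹ = x; group⟩
  have hcentR : ∀ x ∈ (R : Subgroup G) ⊓ N, ∀ y ∈ (R : Subgroup G), x * y = y * x := by
    intro x hx y hy
    have h1 := hcent (g⁻¹ * x * g) ⟨(hmem x).mp hx.1, by
      have := hN.conj_mem x hx.2 g⁻¹
      rwa [inv_inv] at this⟩ (g⁻¹ * y * g) ((hmem y).mp hy)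
    have h2 : g⁻¹ * (x * y) * g = g⁻¹ * (y * x) * g := by
      calc g⁻¹ * (x * y) * g = (g⁻¹ * x * g) * (g⁻¹ * y * g) := by group
        _ = (g⁻¹ * y * g) * (g⁻¹ * x * g) := h1
        _ = g⁻¹ * (y * x) * g := by group
    exact mul_left_cancel (mul_right_cancel h2)
  have hlinR : ∀ lam : ↥((R : Subgroup G) ⊓ N) →* ℂˣ, ∃ μ : ↥(R : Subgroup G) →* ℂˣ,
      ∀ x : ↥((R : Subgroup G) ⊓ N), μ ⟨(x : G), x.2.1⟩ = lam x := by
    intro lam
    let a : ↥((P : Subgroup G) ⊓ N) →* ↥((R : Subgroup G) ⊓ N) :=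
      { toFun := fun y => ⟨g * y * g⁻¹, (hmem _).mpr (by
          have h2 : g⁻¹ * (g * (y : G) * g⁻¹) * g = y := by group
          rw [h2]; exact y.2.1), hN.conj_mem _ y.2.2 g⟩
        map_one' := Subtype.ext (by simp)
        map_mul' := fun x y => Subtype.ext (by
          change g * ((x : G) * y) * g⁻¹ = (g * x * g⁻¹) * (g * y * g⁻¹)
          group) }
    obtain ⟨μ, hμ⟩ := hlin (lam.comp a)
    let b : ↥(R : Subgroup G) →* ↥(P : Subgroup G) :=
      { toFun := fun y => ⟨g⁻¹ * y * g, (hmem _).mp y.2⟩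
        map_one' := Subtype.ext (by simp)
        map_mul' := fun x y => Subtype.ext (by
          change g⁻¹ * ((x : G) * y) * g = (g⁻¹ * x * g) * (g⁻¹ * y * g)
          group) }
    refine ⟨μ.comp b, fun x => ?_⟩
    have h1 : g⁻¹ * (x : G) * g ∈ N := by
      have := hN.conj_mem (x : G) x.2.2 g⁻¹
      rwa [inv_inv] at this
    have h2 := hμ ⟨g⁻¹ * (x : G) * g, (hmem _).mp x.2.1, h1⟩
    have h3 : a ⟨g⁻¹ * (x : G) * g, (hmem _).mp x.2.1, h1⟩ = x := Subtype.ext (by
      change g * (g⁻¹ * (x : G) * g) * g⁻¹ = x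
      group)
    rw [MonoidHom.comp_apply, h3] at h2
    exact h2
  -- elements of E ⊓ N
  have hSR : ∀ s ∈ S, (s : G) ∈ (R : Subgroup G) := fun s hs => hR ⟨s, hs, rfl⟩
  have hFdec : ∀ x : ↥(E ⊓ N), ∃ c ∈ C, ∃ s ∈ S, (x : G) = (c : G) * (s : G) ∧ (s : G) ∈ N := by
    intro x
    obtain ⟨c, hc, s, hs, hcs⟩ := hdec ⟨x, x.2.1⟩
    have h1 : (x : G) = (c : G) * s := congrArg Subtype.val hcs
    refine ⟨c, hc, s, hs, h1, ?_⟩
    have h2 : (s : G) = (c : G)⁻¹ * x := by rw [h1]; group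
    rw [h2]
    exact N.mul_mem (N.inv_mem (hCN c hc)) x.2.2
  have hFcomm : ∀ a b : ↥(E ⊓ N), a * b = b * a := by
    intro a b
    obtain ⟨c, hc, s, hs, ha, hsN⟩ := hFdec a
    obtain ⟨c', hc', s', hs', hb, hsN'⟩ := hFdec b
    apply Subtype.ext
    change (a : G) * b = b * a
    have hcen : ∀ c ∈ C, ∀ e : E, (e : G) * (c : G) = c * e := fun c hc e =>
      congrArg Subtype.val (Subgroup.mem_center_iff.mp (hC hc) e)
    have h1 : (s : G) * s' = s' * s := hcentR s ⟨hSR s hs, hsN⟩ s' (hSR s' hs')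
    rw [ha, hb]
    calc (c : G) * s * (c' * s') = c * (s * c') * s' := by group
      _ = (c * c') * (s * s') := by rw [hcen c' hc' s]; group
      _ = (c' * c) * (s' * s) := by rw [h1, hcen c' hc' c]
      _ = c' * (c * s') * s := by group
      _ = c' * s' * (c * s) := by rw [← hcen c hc s']; group
  obtain ⟨fφ, hfφ⟩ := φ.2.isCharacter.exists_hom (φ.2.one_eq_one_of_comm hFcomm)
  -- extend from S ∩ N to R
  let A : Subgroup ↥((R : Subgroup G) ⊓ N) := ((S : Subgroup E).map E.subtype).subgroupOf _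
  have hAE : ∀ a : A, ((a : ↥((R : Subgroup G) ⊓ N)) : G) ∈ E := by
    intro a
    obtain ⟨s, -, hs⟩ := a.2
    have h1 : (s : G) = ((a : ↥((R : Subgroup G) ⊓ N)) : G) := hs
    rw [← h1]; exact s.2
  let lam0 : A →* ℂˣ := fφ.comp
    { toFun := fun a => ⟨((a : ↥((R : Subgroup G) ⊓ N)) : G), hAE a,
        (a : ↥((R : Subgroup G) ⊓ N)).2.2⟩
      map_one' := rfl
      map_mul' := fun _ _ => rfl }
  obtain ⟨ν, hν⟩ := extend_hom (fun a b => Subtype.ext (hcentR a a.2 b b.2.1)) A lam0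
  obtain ⟨μ, hμ⟩ := hlinR ν
  let gS : S →* ℂˣ := μ.comp
    { toFun := fun s => ⟨((s : E) : G), hSR s s.2⟩
      map_one' := rfl
      map_mul' := fun _ _ => rfl }
  let fC : C →* ℂˣ := fφ.comp
    { toFun := fun c => ⟨((c : E) : G), (c : E).2, hCN c c.2⟩
      map_one' := rfl
      map_mul' := fun _ _ => rfl }
  obtain ⟨h, hh⟩ := exists_glue C S hC hCp hdec fC gS
  have hhF : ∀ x : ↥(E ⊓ N), h ⟨x, x.2.1⟩ = fφ x := by
    intro x
    obtain ⟨c, hc, s, hs, hx, hsN⟩ := hFdec x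
    have h1 := hh ⟨c, hc⟩ ⟨s, hs⟩
    have h2 : (⟨(x : G), x.2.1⟩ : E) = c * s := Subtype.ext hx
    rw [h2, h1]
    have h3 : gS ⟨s, hs⟩ = fφ ⟨(s : G), s.2, hsN⟩ := by
      have h4 := hμ ⟨(s : G), hSR s hs, hsN⟩
      have h5 := hν ⟨⟨(s : G), hSR s hs, hsN⟩, ⟨s, hs, rfl⟩⟩
      change μ ⟨(s : G), _⟩ = _
      rw [h4]
      exact h5
    rw [h3]
    change fφ ⟨(c : G), _⟩ * fφ ⟨(s : G), _⟩ = fφ x
    rw [← map_mul]
    congr 1
    exact Subtype.ext hx.symm
  -- the induced character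
  let Ψ : G → ℂ := indFun E (fun e => (h e : ℂ))
  have hΨ : IsCharacter G Ψ := (isCharacter_of_unitsHom h).indFun E
  have : Fintype N := Fintype.ofFinite N
  have hΨm : classInner (fun n : N => Ψ n) ϑ = m := by
    have h1 := ElemRestr.inner_indFun_mul E N (fun e => (h e : ℂ)) (fun n => conj (ϑ n))
      (by intro g n; rw [hinv])
    unfold classInner
    rw [h1]
    have h2 : ∑ x : ↥(E ⊓ N), (h ⟨x, x.2.1⟩ : ℂ) * conj (ϑ ⟨x, x.2.2⟩) =
        Nat.card ↥(E ⊓ N) * m := by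
      have h3 : conj (classInner (fun x : ↥(E ⊓ N) => ϑ ⟨x, x.2.2⟩) (φ : ↥(E ⊓ N) → ℂ)) = m := by
        rw [hφm, Complex.conj_natCast]
      rw [conj_classInner] at h3
      rw [← h3]
      unfold classInner
      rw [mul_inv_cancel_left₀ (by exact_mod_cast Nat.card_pos.ne')]
      apply Finset.sum_congr rfl
      intro x _
      rw [hhF, hfφ]
    rw [h2]
    have h3 : (Nat.card G : ℂ) * Nat.card ↥(E ⊓ N) = Nat.card N * Nat.card E := by
      have e1 : N.relIndex E = N.index := by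
        have h1 : N.relIndex (E ⊔ N) = N.relIndex E := Subgroup.relIndex_sup_right E N
        rw [← h1, hEN, Subgroup.relIndex_top_right]
      have e2 := Subgroup.card_mul_index N
      have e3 : Nat.card ↥(E ⊓ N) * N.relIndex E = Nat.card E := by
        have h4 := Subgroup.card_mul_index (N.subgroupOf E)
        have h5 : Nat.card (N.subgroupOf E) = Nat.card ↥(E ⊓ N) := by
          rw [← Nat.card_congr (Subgroup.subgroupOfEquivOfLe (H := E ⊓ N) (K := E)
            inf_le_left).toEquiv, Subgroup.inf_subgroupOf_left]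
        rw [h5] at h4
        exact h4
      rw [← e3, e1, ← e2]
      push_cast; ring
    have hN0 : (Nat.card N : ℂ) ≠ 0 := by exact_mod_cast Nat.card_pos.ne'
    have hE0 : (Nat.card E : ℂ) ≠ 0 := by exact_mod_cast Nat.card_pos.ne'
    field_simp
    linear_combination (m : ℂ) * h3
  -- some constituent is an extension
  obtain ⟨a, ha, has⟩ := hΨ.exists_coeff
  have hmul : ∀ χ : IrrCharacter G, ∃ e : ℕ, classInner (fun n : N => (χ : G → ℂ) n) ϑ = e :=
    fun χ => (χ.2.isCharacter.restrict N).classInner_nat hϑ.isCharacter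
  choose e he using hmul
  have hsum : m = ∑ χ : IrrCharacter G, a χ * e χ := by
    have h1 : (m : ℂ) = ((∑ χ : IrrCharacter G, a χ * e χ : ℕ) : ℂ) := by
      rw [← hΨm]
      have h2 : (fun n : N => Ψ n) = ∑ χ : IrrCharacter G,
          (a χ : ℂ) • (fun n : N => (χ : G → ℂ) n) := by
        funext n
        conv_lhs => rw [has]
        rw [Finset.sum_apply, Finset.sum_apply]
        rfl
      rw [h2, classInner_sum_left]
      push_cast
      apply Finset.sum_congr rfl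
      intro χ _
      rw [classInner_smul_left, he]
    exact_mod_cast h1
  have hex : ∃ χ : IrrCharacter G, ¬ p ∣ e χ := by
    by_contra hcon
    push Not at hcon
    apply hm
    rw [hsum]
    exact Finset.dvd_sum (fun χ _ => Dvd.dvd.mul_left (hcon χ) _)
  obtain ⟨χ, hχ⟩ := hex
  have he0 : e χ ≠ 0 := by
    intro h0
    apply hχ
    rw [h0]; exact dvd_zero p
  have hT : Clifford.inertia N ϑ = ⊤ := by
    rw [eq_top_iff]
    intro x _
    rw [Clifford.mem_inertia']
    exact hinv x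
  have hcon : classInner (fun n : N => (χ : G → ℂ) n) ϑ ≠ 0 := by
    rw [he]; exact_mod_cast he0
  have hsm := GoingDown.res_eq_smul_of_inertia χ.2 hϑ hcon hT
  rw [he] at hsm
  have hdvd := DegRatio.ramification_dvd_index hϑ (fun g => by
    have : g ∈ Clifford.inertia N ϑ := by rw [hT]; trivial
    exact Clifford.mem_inertia.mp this) χ.2 hsm he0
  rw [hk] at hdvd
  obtain ⟨i, -, hi⟩ := (Nat.dvd_prime_pow hp.out).mp hdvd
  have he1 : e χ = 1 := by
    rcases Nat.eq_zero_or_pos i with h0 | h0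
    · rw [hi, h0, pow_zero]
    · exfalso
      apply hχ
      rw [hi]; exact dvd_pow_self p h0.ne'
  refine ⟨χ, χ.2, fun n => ?_⟩
  have h1 := congrFun hsm n
  rw [he1] at h1
  simpa using h1

end Cfsg.Agent.Lib.ElemExt
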