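import Cfsg.Agent.Lib.AltSim
import Cfsg.Agent.Lib.AltSim2
import Cfsg.Agent.Lib.ElusiveUni
import Cfsg.Agent.Lib.FieldComm
import Cfsg.Agent.Lib.ExtField5
import Cfsg.Agent.Lib.SubspaceCount
import Cfsg.Agent.Lib.ClSLn

/-! # Tools for elements of prime order: diagonal elements, transvections, involutions -/

set_option autoImplicit false

namespace Cfsg.Agent.Lib.ElusiveTool

open Cfsg.Agent.Lib.AltSim Cfsg.Agent.Lib.ElusiveLin Cfsg.Agent.Lib.JordanNil Cfsg.Agent.Lib.ElusiveUni
  Cfsg.Agent.Lib.PrimeOrd Cfsg.Agent.Lib.InvSub Module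

lemma exists_root_neg_one {F : Type*} [Field F] [Fintype F] {n : ℕ} (hn : 0 < n)
    (h : padicValNat 2 n < padicValNat 2 (Fintype.card F - 1)) : ∃ y : F, y ^ n = -1 := by
  classical
  have : Fact (Nat.Prime 2) := ⟨Nat.prime_two⟩
  set a := padicValNat 2 n with ha
  have hdvd : 2 ^ (a + 1) ∣ Fintype.card F - 1 := by
    have hne : Fintype.card F - 1 ≠ 0 := by
      have := Fintype.one_lt_card (α := F); omega
    rw [padicValNat_dvd_iff_le hne]; omega
  obtain ⟨g, hg⟩ := IsCyclic.exists_generator (α := Fˣ)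
  have hord : orderOf g = Fintype.card F - 1 := by
    rw [orderOf_eq_card_of_forall_mem_zpowers hg, Nat.card_eq_fintype_card, Fintype.card_units]
  have hpos : orderOf g ≠ 0 := by
    rw [hord]; have := Fintype.one_lt_card (α := F); omega
  have hu : orderOf (g ^ (orderOf g / 2 ^ (a + 1))) = 2 ^ (a + 1) :=
    orderOf_pow_orderOf_div hpos (by rw [hord]; exact hdvd)
  set u := g ^ (orderOf g / 2 ^ (a + 1)) with hudef
  have h1 : (u ^ 2 ^ a) ^ 2 = 1 := by
    rw [← pow_mul, ← pow_succ, ← hu]; exact pow_orderOf_eq_one u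
  have h3 : u ^ 2 ^ a ≠ 1 := by
    intro h3
    have h4 := orderOf_dvd_of_pow_eq_one h3
    rw [hu, pow_succ] at h4
    have h5 := Nat.le_of_dvd (by positivity) h4
    have h6 : 0 < 2 ^ a := by positivity
    omega
  have h4 : ((u : F) ^ 2 ^ a) = -1 := by
    have h5 : ((u : F) ^ 2 ^ a) ^ 2 = 1 := by
      have := congrArg Units.val h1
      simpa using this
    rw [pow_two] at h5
    rcases mul_self_eq_one_iff.mp h5 with h6 | h6
    · exfalso; apply h3; ext; simpa using h6
    · exact h6
  obtain ⟨m, hm⟩ : 2 ^ a ∣ n := pow_padicValNat_dvd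
  have hmodd : Odd m := by
    rw [← Nat.not_even_iff_odd]
    rintro ⟨k, hk⟩
    have h7 : 2 ^ (a + 1) ∣ n := ⟨k, by rw [hm, hk, pow_succ]; ring⟩
    rw [padicValNat_dvd_iff_le hn.ne'] at h7
    omega
  refine ⟨u, ?_⟩
  rw [hm, pow_mul, h4, hmodd.neg_one_pow]

lemma val_lt_of_root {F : Type*} [Field F] [Fintype F] (h2F : (2 : F) ≠ 0) {n : ℕ} (hn : 0 < n) {y : F}
    (h1 : y ^ n = -1) : padicValNat 2 n < padicValNat 2 (Fintype.card F - 1) := by
  classical
  have : Fact (Nat.Prime 2) := ⟨Nat.prime_two⟩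
  by_contra hcond
  push Not at hcond
  have hy0 : y ≠ 0 := by
    rintro rfl
    rw [zero_pow hn.ne'] at h1
    exact (neg_ne_zero.mpr (one_ne_zero (α := F))) h1.symm
  set a := padicValNat 2 (Fintype.card F - 1) with ha
  have hne : Fintype.card F - 1 ≠ 0 := by
    have := Fintype.one_lt_card (α := F); omega
  obtain ⟨m, hm⟩ : 2 ^ a ∣ Fintype.card F - 1 := pow_padicValNat_dvd
  have hmodd : Odd m := by
    rw [← Nat.not_even_iff_odd]
    rintro ⟨k, hk⟩
    have h7 : 2 ^ (a + 1) ∣ Fintype.card F - 1 := ⟨k, by rw [hm, hk, pow_succ]; ring⟩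
    rw [padicValNat_dvd_iff_le hne] at h7
    omega
  obtain ⟨n', hn'⟩ : 2 ^ a ∣ n := by rw [padicValNat_dvd_iff_le hn.ne']; exact hcond
  have h3 : (y ^ n) ^ m = 1 := by
    rw [hn', ← pow_mul]
    have h4 : 2 ^ a * n' * m = (Fintype.card F - 1) * n' := by rw [hm]; ring
    rw [h4, pow_mul, FiniteField.pow_card_sub_one_eq_one y hy0, one_pow]
  rw [h1, hmodd.neg_one_pow] at h3
  have h5 : (2 : F) = 0 := by linear_combination (-1 : F) * h3
  exact h2F h5

section diag

variable {F : Type*} [Field F] {ι : Type*} [Fintype ι] [DecidableEq ι]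

/-- eigenspaces of diagonal matrices -/
lemma finrank_E_diag [DecidableEq F] (d : ι → F) (y : F) :
    finrank F (E (Matrix.toLin' (Matrix.diagonal d)) y) = (Finset.univ.filter fun i => d i = y).card := by
  have h1 : E (Matrix.toLin' (Matrix.diagonal d)) y = LinearMap.ker (Matrix.toLin' (Matrix.diagonal fun i => d i - y)) := by
    ext v
    rw [Module.End.mem_eigenspace_iff, LinearMap.mem_ker, Matrix.toLin'_apply, Matrix.toLin'_apply]
    constructor
    · intro h
      ext i
      have := congrFun h i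
      rw [Matrix.mulVec_diagonal] at this ⊢
      rw [Pi.zero_apply, sub_mul, this, Pi.smul_apply, smul_eq_mul, sub_self]
    · intro h
      ext i
      have := congrFun h i
      rw [Matrix.mulVec_diagonal] at this ⊢
      rw [Pi.zero_apply, sub_mul] at this
      rw [Pi.smul_apply, smul_eq_mul]
      exact sub_eq_zero.1 this
  have h2 := LinearMap.finrank_range_add_finrank_ker (Matrix.toLin' (Matrix.diagonal fun i => d i - y))
  have h3 : finrank F (LinearMap.range (Matrix.toLin' (Matrix.diagonal fun i => d i - y))) =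
      (Finset.univ.filter fun i => d i ≠ y).card := by
    have := Matrix.rank_diagonal (fun i => d i - y)
    rw [Matrix.rank, ← Matrix.toLin'_apply'] at this
    rw [this, Fintype.card_subtype]
    congr 1
    ext i
    simp [sub_eq_zero]
  rw [← h1, h3, Module.finrank_fintype_fun_eq_card] at h2
  have h4 := Finset.card_filter_add_card_filter_not (s := (Finset.univ : Finset ι)) (fun i => d i = y)
  rw [Finset.card_univ] at h4
  simp only [ne_eq] at h2
  omega

end diag

section elts

variable {F : Type*} [Field F] {n : ℕ}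

/-- diagonal elements of the special linear group -/
lemma exists_diag (d : Fin n → F) (h : ∏ i, d i = 1) : ∃ x : Matrix.SpecialLinearGroup (Fin n) F,
    x.1 = Matrix.diagonal d ∧ tl x = Matrix.toLin' (Matrix.diagonal d) :=
  ⟨⟨Matrix.diagonal d, by rw [Matrix.det_diagonal, h]⟩, rfl, rfl⟩

lemma upd2_card [DecidableEq F] {i0 i1 : Fin n} (h01 : i0 ≠ i1) (t u v y : F) :
    (Finset.univ.filter fun i => Function.update (Function.update (fun _ => t) i0 u) i1 v i = y).card =
      (if u = y then 1 else 0) + (if v = y then 1 else 0) + (if t = y then n - 2 else 0) := by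
  rw [Finset.card_filter]
  have h1 : i1 ∈ (Finset.univ : Finset (Fin n)).erase i0 := by simp [h01.symm]
  rw [← Finset.add_sum_erase _ _ (Finset.mem_univ i0), ← Finset.add_sum_erase _ _ h1]
  have h2 : ∑ i ∈ ((Finset.univ : Finset (Fin n)).erase i0).erase i1,
      (if Function.update (Function.update (fun _ => t) i0 u) i1 v i = y then 1 else 0) = (if t = y then n - 2 else 0) := by
    have h3 : ∀ i ∈ ((Finset.univ : Finset (Fin n)).erase i0).erase i1,
        (if Function.update (Function.update (fun _ => t) i0 u) i1 v i = y then 1 else 0) = (if t = y then 1 else 0) := by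
      intro i hi
      simp only [Finset.mem_erase, Finset.mem_univ, and_true] at hi
      rw [Function.update_of_ne hi.1, Function.update_of_ne hi.2]
    rw [Finset.sum_congr rfl h3, Finset.sum_const, Finset.card_erase_of_mem h1, Finset.card_erase_of_mem (Finset.mem_univ _),
      Finset.card_univ, Fintype.card_fin]
    split_ifs <;> simp
    omega
  rw [h2, Function.update_self, Function.update_of_ne h01, Function.update_self]
  omega

/-- diagonal elements with at most three eigenvalues -/
lemma exists_diag2 [DecidableEq F] (hn : 3 ≤ n) (t u v : F) (h : u * v * t ^ (n - 2) = 1) (hut : u ≠ t) :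
    ∃ X : Matrix.SpecialLinearGroup (Fin n) F,
      (∀ (r : ℕ) (c : F), u ^ r = c → v ^ r = c → t ^ r = c → (tl X) ^ r = c • (1 : Module.End F (Fin n → F))) ∧
      (∀ z : F, tl X ≠ z • (1 : Module.End F (Fin n → F))) ∧
      ∀ y, finrank F (E (tl X) y) = (if u = y then 1 else 0) + (if v = y then 1 else 0) + (if t = y then n - 2 else 0) := by
  let i0 : Fin n := ⟨0, by omega⟩
  let i1 : Fin n := ⟨1, by omega⟩
  have h01 : i0 ≠ i1 := by simp [i0, i1]
  let d : Fin n → F := Function.update (Function.update (fun _ => t) i0 u) i1 v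
  have hcard : ∀ y, (Finset.univ.filter fun i => d i = y).card =
      (if u = y then 1 else 0) + (if v = y then 1 else 0) + (if t = y then n - 2 else 0) := fun y => upd2_card h01 t u v y
  have hprod : ∏ i, d i = 1 := by
    have h1 : i1 ∈ (Finset.univ : Finset (Fin n)).erase i0 := by simp [h01.symm]
    rw [← Finset.mul_prod_erase _ _ (Finset.mem_univ i0), ← Finset.mul_prod_erase _ _ h1]
    have h3 : ∏ i ∈ ((Finset.univ : Finset (Fin n)).erase i0).erase i1, d i = t ^ (n - 2) := by
      have : ∀ i ∈ ((Finset.univ : Finset (Fin n)).erase i0).erase i1, d i = t := by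
        intro i hi
        simp only [Finset.mem_erase, Finset.mem_univ, and_true] at hi
        simp only [d]
        rw [Function.update_of_ne hi.1, Function.update_of_ne hi.2]
      rw [Finset.prod_congr rfl this, Finset.prod_const, Finset.card_erase_of_mem h1, Finset.card_erase_of_mem (Finset.mem_univ _),
        Finset.card_univ, Fintype.card_fin]
      congr 1
    rw [h3]
    have e0 : d i0 = u := by simp only [d]; rw [Function.update_of_ne h01, Function.update_self]
    have e1 : d i1 = v := by simp only [d]; rw [Function.update_self]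
    rw [e0, e1, ← mul_assoc, h]
  obtain ⟨X, -, hX⟩ := exists_diag d hprod
  have hE : ∀ y, finrank F (E (tl X) y) = (if u = y then 1 else 0) + (if v = y then 1 else 0) + (if t = y then n - 2 else 0) := by
    intro y
    rw [hX, finrank_E_diag, hcard]
  refine ⟨X, ?_, ?_, hE⟩
  · intro r c h1 h2 h3
    rw [hX]
    have h4 : ∀ i, d i ^ r = c := by
      intro i
      simp only [d]
      by_cases hi1 : i = i1
      · rw [hi1, Function.update_self, h2]
      · rw [Function.update_of_ne hi1]
        by_cases hi0 : i = i0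
        · rw [hi0, Function.update_self, h1]
        · rw [Function.update_of_ne hi0, h3]
    have h5 : (Matrix.toLin' (Matrix.diagonal d)) ^ r = Matrix.toLin' ((Matrix.diagonal d) ^ r) := (map_pow Matrix.toLinAlgEquiv' (Matrix.diagonal d) r).symm
    rw [h5, Matrix.diagonal_pow]
    have h6 : d ^ r = fun _ => c := funext h4
    rw [h6, ← Matrix.smul_one_eq_diagonal, map_smul, Matrix.toLin'_one]
    rfl
  · intro z hz
    have h1 : finrank F (E (tl X) z) = n := by
      have : E (tl X) z = ⊤ := by
        rw [eq_top_iff]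
        intro w _
        rw [Module.End.mem_eigenspace_iff, hz]
        rfl
      rw [this, finrank_top, Module.finrank_fintype_fun_eq_card, Fintype.card_fin]
    rw [hE] at h1
    by_cases hu : u = z
    · have ht : t ≠ z := fun ht => hut (hu.trans ht.symm)
      rw [if_pos hu, if_neg ht] at h1
      split_ifs at h1 <;> omega
    · rw [if_neg hu] at h1
      split_ifs at h1 <;> omega

/-- transvections -/
lemma exists_transv [Fintype F] {p : ℕ} [hp : Fact p.Prime] [CharP F p] (hn : 2 ≤ n) :
    ∃ x : Matrix.SpecialLinearGroup (Fin n) F, (tl x) ^ p = 1 ∧ finrank F (E (tl x) 1) + 1 = n := by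
  have hp2 := hp.out.two_le
  obtain ⟨x, N, hN, hty, hx, -, hxp⟩ := exists_unip (F := F) (n := n) (p := p)
    (μ := 2 ::ₘ Multiset.replicate (n - 2) 1) (by
      intro a ha
      rw [Multiset.mem_cons] at ha
      rcases ha with rfl | ha
      · exact ⟨by norm_num, hp2⟩
      · rw [Multiset.eq_of_mem_replicate ha]
        exact ⟨one_pos, by omega⟩) (by
      rw [Multiset.sum_cons, Multiset.sum_replicate]
      simp
      omega)
  refine ⟨x, hxp, ?_⟩
  have h1 : E (tl x) 1 = LinearMap.ker N := by
    ext v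
    rw [Module.End.mem_eigenspace_iff, LinearMap.mem_ker, hx, LinearMap.add_apply, Module.End.one_apply, one_smul]
    constructor
    · intro h
      simpa using h
    · intro h
      rw [h, add_zero]
  have h2 := LinearMap.finrank_range_add_finrank_ker N
  have h3 := hty.2 1
  rw [pow_one, Submodule.map_top] at h3
  rw [h1]
  rw [Multiset.map_cons, Multiset.sum_cons, Multiset.map_replicate, Multiset.sum_replicate] at h3
  rw [h3, Module.finrank_fintype_fun_eq_card, Fintype.card_fin] at h2
  simp at h2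
  omega

end elts

lemma order_le_of_dvd_SL {F : Type*} [Field F] [Fintype F] {n r : ℕ} (hn : 1 ≤ n) (hr : r.Prime)
    (hq : ¬ r ∣ Fintype.card F) (h : r ∣ Nat.card (Matrix.SpecialLinearGroup (Fin n) F)) :
    orderOf ((Fintype.card F : ℕ) : ZMod r) ≤ n := by
  have h1 := Cfsg.Agent.Lib.ClSLn.card_SL_formula (F := F) rfl n hn
  have h2 : r ∣ Fintype.card F ^ (n * (n - 1) / 2) * ∏ i ∈ Finset.range n, (Fintype.card F ^ (i + 1) - 1) := by
    rw [← h1]; exact Dvd.dvd.mul_left h _
  rcases hr.dvd_mul.1 h2 with h3 | h3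
  · exact absurd (hr.dvd_of_dvd_pow h3) hq
  · rw [hr.prime.dvd_finset_prod_iff] at h3
    obtain ⟨i, hi, h4⟩ := h3
    rw [Finset.mem_range] at hi
    have h5 := Cfsg.Agent.Lib.SubspaceCount.orderOf_dvd_of_dvd Fintype.card_pos h4
    have := Nat.le_of_dvd (by omega) h5
    omega

lemma exists_root_of_order_one {F : Type*} [Field F] [Fintype F] {r : ℕ} (hr : r.Prime)
    (ho : orderOf ((Fintype.card F : ℕ) : ZMod r) = 1) : ∃ ζ : F, ζ ^ r = 1 ∧ ζ ≠ 1 := by
  have h1 : r ∣ Fintype.card F ^ 1 - 1 :=
    Cfsg.Agent.Lib.SubspaceCount.dvd_of_orderOf_dvd Fintype.card_pos (by rw [ho])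
  rw [pow_one, ← Nat.card_eq_fintype_card, ← Nat.card_units] at h1
  have : Fact r.Prime := ⟨hr⟩
  obtain ⟨u, hu⟩ := exists_prime_orderOf_dvd_card' r h1
  refine ⟨u, ?_, ?_⟩
  · have := pow_orderOf_eq_one u
    rw [hu] at this
    have h2 := congrArg Units.val this
    rw [Units.val_pow_eq_pow_val, Units.val_one] at h2
    exact h2
  · intro h
    have h2 : u = 1 := Units.ext h
    rw [h2, orderOf_one] at hu
    exact hr.one_lt.ne hu

lemma exists_rth_root {F : Type*} [Field F] [Fintype F] {r : ℕ} (hr : r.Prime)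
    (ho : orderOf ((Fintype.card F : ℕ) : ZMod r) ≠ 1) (c : F) (hc : c ≠ 0) : ∃ y : F, y ≠ 0 ∧ y ^ r = c := by
  have h1 : ¬ r ∣ Fintype.card F - 1 := by
    intro h
    apply ho
    have h2 := Cfsg.Agent.Lib.SubspaceCount.orderOf_dvd_of_dvd (q := Fintype.card F) (r := r) (k := 1) Fintype.card_pos
      (by rwa [pow_one])
    exact Nat.dvd_one.1 h2
  have hcop : (Nat.card Fˣ).Coprime r := by
    rw [Nat.card_units, Nat.card_eq_fintype_card]
    exact ((Nat.Prime.coprime_iff_not_dvd hr).2 h1).symm
  obtain ⟨u, hu⟩ := (powCoprime hcop).surjective (Units.mk0 c hc)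
  rw [powCoprime_apply] at hu
  refine ⟨u, u.ne_zero, ?_⟩
  have := congrArg Units.val hu
  simpa using this

section sq

variable {F : Type*} [Field F] {V : Type*} [AddCommGroup V] [Module F V] [FiniteDimensional F V]

/-- maps with the same scalar square and the same eigenspace dimensions are conjugate -/
lemma conj_of_sq (h2 : (2 : F) ≠ 0) {W : Type*} [AddCommGroup W] [Module F W] [FiniteDimensional F W]
    {T : Module.End F V} {S : Module.End F W} {y : F} (hy : y ≠ 0)
    (hT : T ^ 2 = (y ^ 2) • (1 : Module.End F V)) (hS : S ^ 2 = (y ^ 2) • (1 : Module.End F W))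
    (h : finrank F V = finrank F W) (he : finrank F (E T (-y)) = finrank F (E S (-y))) :
    ∃ g : V ≃ₗ[F] W, ∀ v, g (T v) = S (g v) := by
  have hcT := isCompl_inv h2 hy hT
  have hcS := isCompl_inv h2 hy hS
  have h1 := Submodule.finrank_add_eq_of_isCompl hcT
  have h3 := Submodule.finrank_add_eq_of_isCompl hcS
  obtain ⟨e1⟩ : Nonempty (E T y ≃ₗ[F] E S y) := by
    apply FiniteDimensional.nonempty_linearEquiv_of_finrank_eq
    omega
  obtain ⟨e2⟩ : Nonempty (E T (-y) ≃ₗ[F] E S (-y)) := by
    apply FiniteDimensional.nonempty_linearEquiv_of_finrank_eq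
    omega
  let g := (Submodule.prodEquivOfIsCompl _ _ hcT).symm ≪≫ₗ (LinearEquiv.prodCongr e1 e2) ≪≫ₗ (Submodule.prodEquivOfIsCompl _ _ hcS)
  refine ⟨g, fun v => ?_⟩
  obtain ⟨⟨u, w⟩, rfl⟩ := (Submodule.prodEquivOfIsCompl _ _ hcT).surjective v
  have hu : T u = y • (u : V) := Module.End.mem_eigenspace_iff.1 u.2
  have hw : T w = (-y) • (w : V) := Module.End.mem_eigenspace_iff.1 w.2
  have hu' : S (e1 u) = y • (e1 u : W) := Module.End.mem_eigenspace_iff.1 (e1 u).2
  have hw' : S (e2 w) = (-y) • (e2 w : W) := Module.End.mem_eigenspace_iff.1 (e2 w).2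
  have e3 : T ((Submodule.prodEquivOfIsCompl _ _ hcT) (u, w)) = (Submodule.prodEquivOfIsCompl _ _ hcT) (y • u, (-y) • w) := by
    rw [Submodule.coe_prodEquivOfIsCompl', Submodule.coe_prodEquivOfIsCompl', map_add, hu, hw]
    rfl
  have e4 : ∀ u w, g ((Submodule.prodEquivOfIsCompl _ _ hcT) (u, w)) = (e1 u : W) + (e2 w : W) := by
    intro u w
    simp only [g, LinearEquiv.trans_apply, LinearEquiv.symm_apply_apply]
    rw [LinearEquiv.prodCongr_apply, Submodule.coe_prodEquivOfIsCompl']
  rw [e3, e4, e4, map_add, hu', hw', map_smul, map_smul]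
  rfl

end sq

end Cfsg.Agent.Lib.ElusiveTool
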