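import Cfsg.Agent.Lib.ChevTorus3
import Cfsg.Agent.Lib.StPres
import Cfsg.Agent.Lib.TwTor
import Cfsg.Agent.Lib.ChevOkE6
import Cfsg.Agent.Lib.ChevOkE7
import Cfsg.Agent.Lib.ChevOkE8

set_option autoImplicit false

/-!
# The root systems E6, E7 inside E8 (helper40)

The structure constants of `chevE6`, `chevE7` are the restrictions of those of `chevE8`.
-/

namespace Cfsg.Agent.Lib.EmbE8
open Cfsg.Lie Cfsg.Agent.Lib.ChevX Cfsg.Agent.Lib.ChevGood Cfsg.Agent.Lib.ChevRel Cfsg.Agent.Lib.ChevTab

/-- a subsystem of `E8` spanned by the first fundamental roots, with the same structure constants -/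
structure Emb (D : ChevalleyDatum) where
  ρ : ℕ → ℕ
  lt : ∀ r < D.nroots, ρ r < 240
  inj : ∀ r < D.nroots, ∀ s < D.nroots, ρ r = ρ s → r = s
  neg : ∀ r < D.nroots, chevE8.neg (ρ r) = ρ (D.neg r)
  simple : ∀ i < D.rank, ρ (D.simple i) = chevE8.simple i
  entry : ∀ r < D.nroots, ∀ s < D.nroots, chevE8.chainEntry (ρ r) (ρ s) = (D.chainEntry r s).map fun q => (ρ q.1, q.2)
  len : ∀ r < D.nroots, ∀ s < D.nroots, (D.chainEntry r s).length ≤ 1
  rank_le : D.rank ≤ 8

theorem commTerms_short {D : ChevalleyDatum} {r s : ℕ} (h1 : (D.chainEntry r s).length ≤ 1) (h2 : (D.chainEntry s r).length ≤ 1) :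
    D.commTerms r s = (D.chainEntry r s).map fun q => (q.1, q.2, 1, 1) := by
  have k1 : ∀ i, 2 ≤ i → D.chainRoot r s i = none := by
    intro i hi
    unfold ChevalleyDatum.chainRoot
    rw [List.getElem?_eq_none (by omega)]; rfl
  have k2 : ∀ i, 2 ≤ i → D.chainRoot s r i = none := by
    intro i hi
    unfold ChevalleyDatum.chainRoot
    rw [List.getElem?_eq_none (by omega)]; rfl
  unfold ChevalleyDatum.commTerms
  simp only [k1 2 (by norm_num), k1 3 (by norm_num), k2 2 (by norm_num), k2 3 (by norm_num), Option.bind_none, Option.map_none,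
    List.filterMap_cons, List.filterMap_nil]
  unfold ChevalleyDatum.chainRoot ChevalleyDatum.chainM
  match h : D.chainEntry r s, h1 with
  | [], _ => simp
  | [q], _ => simp

theorem Emb.comm {D : ChevalleyDatum} (E : Emb D) {r s : ℕ} (hr : r < D.nroots) (hs : s < D.nroots) :
    chevE8.commTerms (E.ρ r) (E.ρ s) = (D.commTerms r s).map fun c => (E.ρ c.1, c.2) := by
  rw [commTerms_short (E.len r hr s hs) (E.len s hs r hr), commTerms_short]
  · rw [E.entry r hr s hs, List.map_map, List.map_map]
    rfl
  · rw [E.entry r hr s hs, List.length_map]; exact E.len r hr s hs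
  · rw [E.entry s hs r hr, List.length_map]; exact E.len s hs r hr

def eρ (W r : ℕ) : ℕ := lk 8 W r

def mapE (W : ℕ) : List (ℕ × ℤ) → List (ℕ × ℤ)
  | [] => []
  | q :: L => (eρ W q.1, q.2) :: mapE W L

theorem mapE_eq (W : ℕ) (L : List (ℕ × ℤ)) : mapE W L = L.map fun q => (eρ W q.1, q.2) := by
  induction L with
  | nil => rfl
  | cons q L ih => rw [mapE, ih]; rfl

def short : List (ℕ × ℤ) → Bool
  | [] => true
  | [_] => true
  | _ => false

theorem short_sound {L : List (ℕ × ℤ)} (h : short L = true) : L.length ≤ 1 := by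
  match L, h with
  | [], _ => simp
  | [_], _ => simp

variable (D : ChevalleyDatum) (A : Tab) (W : ℕ)

def chkA : Bool := (List.range D.nroots).all fun r => Nat.blt (eρ W r) 240 &&
  (Nat.beq (239 - eρ W r) (eρ W (D.nroots - 1 - r)) && (Nat.blt (eρ W r) (eρ W (r + 1)) || Nat.beq (r + 1) D.nroots))

def chkB : Bool := (List.range D.rank).all fun i => Nat.beq (eρ W (nth 0 (simL D) i)) (nth 0 (simL chevE8) i)

def chkC : Bool := (List.range D.nroots).all fun r => (List.range D.nroots).all fun s =>
  short (ceT D A r s) && eqZL (ceT chevE8 ChevDataE8.A (eρ W r) (eρ W s)) (mapE W (ceT D A r s))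

variable {D A W}

/-- the embedding from the checks -/
def mkEmb (h1 : chk1 D A = true) (hrk : D.rank ≤ 8) (hA : chkA D W = true) (hB : chkB D W = true) (hC : chkC D A W = true) : Emb D where
  ρ := eρ W
  lt r hr := by
    simp only [chkA, List.all_eq_true, List.mem_range, Bool.and_eq_true] at hA
    exact Nat.blt_eq.mp (hA r hr).1
  inj := by
    have hmono : ∀ r s, r < s → s < D.nroots → eρ W r < eρ W s := by
      intro r s hrs
      induction s with
      | zero => omega
      | succ s ih =>
        intro hs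
        simp only [chkA, List.all_eq_true, List.mem_range, Bool.and_eq_true, Bool.or_eq_true] at hA
        have h3 : eρ W s < eρ W (s + 1) := by
          rcases (hA s (by omega)).2.2 with h4 | h4
          · exact Nat.blt_eq.mp h4
          · have := Nat.eq_of_beq_eq_true h4; omega
        rcases Nat.lt_succ_iff_lt_or_eq.mp hrs with h4 | h4
        · exact (ih h4 (by omega)).trans h3
        · rw [h4]; exact h3
    intro r hr s hs h
    rcases lt_trichotomy r s with h3 | h3 | h3
    · exact absurd h (hmono r s h3 hs).ne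
    · exact h3
    · exact absurd h (hmono s r h3 hr).ne'
  neg r hr := by
    simp only [chkA, List.all_eq_true, List.mem_range, Bool.and_eq_true] at hA
    obtain ⟨a1, a2, -⟩ := hA r hr
    rw [c1_neg h1 hr, c1_neg ChevOkE8a.c1 (Nat.blt_eq.mp a1)]
    exact Nat.eq_of_beq_eq_true a2
  simple i hi := by
    simp only [chkB, List.all_eq_true, List.mem_range] at hB
    rw [c2_simL, c2_simL]
    exact Nat.eq_of_beq_eq_true (hB i hi)
  entry r hr s hs := by
    simp only [chkC, List.all_eq_true, List.mem_range, Bool.and_eq_true] at hC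
    simp only [chkA, List.all_eq_true, List.mem_range, Bool.and_eq_true] at hA
    rw [c1_entry h1 hr, c1_entry ChevOkE8a.c1 (Nat.blt_eq.mp (hA r hr).1), eqZL_sound (hC r hr s hs).2, mapE_eq]
  len r hr s hs := by
    simp only [chkC, List.all_eq_true, List.mem_range, Bool.and_eq_true] at hC
    rw [c1_entry h1 hr]
    exact short_sound (hC r hr s hs).1
  rank_le := hrk

def WE6 : ℕ := 0xccc2bcb9b8b2afaeabaaa9a6a5a4a3a29c9998959493908f8e8d8a8988878483827f7e7b7471706d6c6b686766656261605f5c5b5a5756534d4c4b4a4946454441403d3736332d23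
def WE7 : ℕ := 0xe2dbd6d2cfcdccc8c5c3c2bfbdbcbab9b8b5b3b2b0afaeacabaaa9a7a6a5a4a3a29f9d9c9a99989695949391908f8e8d8b8a89888785848382807f7e7c7b7976747371706f6d6c6b6a68676665646261605f5e5c5b5a595756555352504d4c4b4a49484645444341403f3d3c3a3736353332302d2c2a272322201d19140d

set_option maxRecDepth 1000000

theorem e6A : chkA chevE6 WE6 = true := by decide +kernel
theorem e6B : chkB chevE6 WE6 = true := by decide +kernel
theorem e6C : chkC chevE6 ChevDataE6.A WE6 = true := by decide +kernel
theorem e7A : chkA chevE7 WE7 = true := by decide +kernel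
theorem e7B : chkB chevE7 WE7 = true := by decide +kernel
theorem e7C : chkC chevE7 ChevDataE7.A WE7 = true := by decide +kernel

def embE6 : Emb chevE6 := mkEmb ChevOkE6.c1 (by decide) e6A e6B e6C
def embE7 : Emb chevE7 := mkEmb ChevOkE7.c1 (by decide) e7A e7B e7C

end Cfsg.Agent.Lib.EmbE8
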