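import Cfsg.Agent.Lib.EmbE8

set_option autoImplicit false

/-!
# The simply connected cover inside `chevE8.group` (helper40)

`RR E K` : the group of pairs `(g, g')`, generated by the pairs `(x_r(t), x_{ρ r}(t))`; its projection to the first
factor is the Chevalley group, with central kernel.
-/

namespace Cfsg.Agent.Lib.EmbE8
open Cfsg.Lie Cfsg.Agent.Lib.ChevX Cfsg.Agent.Lib.ChevGood Cfsg.Agent.Lib.ChevRel Cfsg.Agent.Lib.ChevTab
  Cfsg.Agent.Lib.ChevNPerm Cfsg.Agent.Lib.ChevFix Cfsg.Agent.Lib.StPres Cfsg.Agent.Lib.ChevTorus Cfsg.Agent.Lib.TwTab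
open scoped MatrixGroups Matrix

noncomputable abbrev G8 : Good chevE8 := ChevOkE8.good

variable {D : ChevalleyDatum} (E : Emb D)

section
variable (K : Type*) [Field K]

/-- the group of pairs -/
def RR : Subgroup (GL D.Idx K × GL chevE8.Idx K) :=
  Subgroup.closure {p | ∃ r < D.nroots, ∃ t : K, p = (xg D K r t, xg chevE8 K (E.ρ r) t)}

end

variable {K : Type*} [Field K]

theorem gen_mem {r : ℕ} (hr : r < D.nroots) (t : K) : (xg D K r t, xg chevE8 K (E.ρ r) t) ∈ RR E K :=
  Subgroup.subset_closure ⟨r, hr, t, rfl⟩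

variable (G : Good D)
include G

theorem RR_fst {p : GL D.Idx K × GL chevE8.Idx K} (hp : p ∈ RR E K) : p.1 ∈ D.group K := by
  have : RR E K ≤ (D.group K).comap (MonoidHom.fst _ _) := by
    unfold RR
    rw [Subgroup.closure_le]
    rintro _ ⟨r, hr, t, rfl⟩
    exact ChevAuto.xg_mem G r t
  exact this hp

omit G in
theorem RR_snd {p : GL D.Idx K × GL chevE8.Idx K} (hp : p ∈ RR E K) : p.2 ∈ chevE8.group K := by
  have : RR E K ≤ (chevE8.group K).comap (MonoidHom.snd _ _) := by
    unfold RR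
    rw [Subgroup.closure_le]
    rintro _ ⟨r, hr, t, rfl⟩
    exact ChevAuto.xg_mem G8 _ t
  exact this hp

theorem exists_snd {g : GL D.Idx K} (hg : g ∈ D.group K) : ∃ g', (g, g') ∈ RR E K := by
  have : D.group K ≤ (RR E K).map (MonoidHom.fst _ _) := by
    rw [ChevAuto.group_eq G, Subgroup.closure_le]
    rintro _ ⟨r, hr, t, rfl⟩
    exact ⟨_, gen_mem E hr t, rfl⟩
  obtain ⟨⟨a, b⟩, h1, rfl⟩ := this hg
  exact ⟨b, h1⟩

/-- the map to `E8` -/
noncomputable def ψ8 : D.SteinbergCover K →* GL chevE8.Idx K :=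
  PresentedGroup.toGroup (f := fun p : Fin D.nroots × K => xg chevE8 K (E.ρ p.1) p.2) (by
    have hst : ∀ r < D.nroots, ∀ t : K, FreeGroup.lift (fun p : Fin D.nroots × K => xg chevE8 K (E.ρ p.1) p.2) (D.stX r t) =
        xg chevE8 K (E.ρ r) t := by
      intro r hr t
      unfold ChevalleyDatum.stX
      rw [dif_pos hr, FreeGroup.lift_apply_of]
    rintro g (⟨r, t, u, hr, rfl⟩ | ⟨r, s, t, u, hr, hs, h1, h2, rfl⟩)
    · rw [map_mul, map_mul, map_inv, hst r hr, hst r hr, hst r hr, xg_add G8, mul_inv_cancel]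
    · have hw : FreeGroup.lift (fun p : Fin D.nroots × K => xg chevE8 K (E.ρ p.1) p.2) (D.stWord (D.commWord K r s t u)) =
          wg chevE8 K (chevE8.commWord K (E.ρ r) (E.ρ s) t u) := by
        unfold ChevalleyDatum.stWord ChevalleyDatum.commWord wg
        rw [map_list_prod, List.map_map, E.comm hr hs, List.map_map, List.map_map, List.map_map]
        congr 1
        apply List.map_congr_left
        intro c hc
        have hlt : c.1 < D.nroots := by
          rw [commTerms_short (E.len r hr s hs) (E.len s hs r hr), List.mem_map] at hc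
          obtain ⟨q, hq, rfl⟩ := hc
          exact G.chainOK.lt r hr s hs q hq
        exact hst _ hlt _
      rw [map_mul, map_mul, map_mul, map_mul, map_inv, map_inv, map_inv, hst r hr, hst s hs, hw,
        mul_assoc _ (xg chevE8 K (E.ρ s) u), xg_comm G8 (E.lt r hr) (E.lt s hs) (fun h => h1 (E.inj s hs r hr h)) (fun h => h2 (by
          rw [E.neg r hr] at h
          exact E.inj s hs _ (neg_lt G hr) h))]
      group)

theorem ψ8_gen {r : ℕ} (hr : r < D.nroots) (t : K) : ψ8 E G (D.scGen K r t) = xg chevE8 K (E.ρ r) t := by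
  unfold ψ8 ChevalleyDatum.scGen ChevalleyDatum.stX
  rw [dif_pos hr]
  exact PresentedGroup.toGroup.of _

theorem RR_eq {p : GL D.Idx K × GL chevE8.Idx K} (hp : p ∈ RR E K) :
    ∃ y : D.SteinbergCover K, ((prAB G y : ↥(D.group K)) : GL D.Idx K) = p.1 ∧ ψ8 E G y = p.2 := by
  have : RR E K ≤ ((D.group K).subtype.comp (prAB G) |>.prod (ψ8 E G)).range := by
    unfold RR
    rw [Subgroup.closure_le]
    rintro _ ⟨r, hr, t, rfl⟩
    refine ⟨D.scGen K r t, ?_⟩
    rw [MonoidHom.prod_apply, ψ8_gen E G hr]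
    exact Prod.ext (prAB_gen G r t) rfl
  obtain ⟨y, hy⟩ := this hp
  exact ⟨y, congrArg Prod.fst hy, congrArg Prod.snd hy⟩

/-- the kernel of the projection is central -/
theorem ker_central (hD : D ∈ [chevG2, chevB2, chevD4, chevF4, chevE6, chevE7, chevE8]) {k : GL chevE8.Idx K} (hk : ((1 : GL D.Idx K), k) ∈ RR E K)
    {p : GL D.Idx K × GL chevE8.Idx K} (hp : p ∈ RR E K) : k * p.2 = p.2 * k := by
  obtain ⟨θ, -, hθ, hθx⟩ := cover_central (K := K) hD
  obtain ⟨y, hy1, hy2⟩ := RR_eq E G hk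
  obtain ⟨z, -, hz2⟩ := RR_eq E G hp
  have hθeq : θ = prAB G := by
    apply PresentedGroup.ext
    rintro ⟨r, t⟩
    apply Subtype.ext
    apply Units.ext
    have h1 := hθx r t r.2
    have h2 : D.scGen K r t = PresentedGroup.of (rels := D.steinbergRelsAB K) (r, t) := by
      unfold ChevalleyDatum.scGen ChevalleyDatum.stX
      rw [dif_pos r.2]; rfl
    rw [← h2, h1, prAB_gen G, coe_xg G]
  have hyk : y ∈ θ.ker := by
    rw [hθeq, MonoidHom.mem_ker]
    exact Subtype.ext hy1
  have h3 := Subgroup.mem_center_iff.mp (hθ hyk) z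
  have hy2' : ψ8 E G y = k := hy2
  rw [← hy2', ← hz2, ← map_mul, ← map_mul, h3]

omit G in
/-- field maps -/
theorem RR_em {F : Type*} [Field F] (G : Good D) (φ : F →+* K) {p : GL D.Idx F × GL chevE8.Idx F} (hp : p ∈ RR E F) :
    (em D φ p.1, em chevE8 φ p.2) ∈ RR E K := by
  have : RR E F ≤ (RR E K).comap ((em D φ).prodMap (em chevE8 φ)) := by
    conv_lhs => unfold RR
    rw [Subgroup.closure_le]
    rintro _ ⟨r, hr, t, rfl⟩
    show (em D φ (xg D F r t), em chevE8 φ (xg chevE8 F (E.ρ r) t)) ∈ RR E K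
    rw [em_xg G, em_xg G8]
    exact gen_mem E hr _
  exact this hp

theorem RR_ng {r : ℕ} (hr : r < D.nroots) (t : K) : (ng D K r t, ng chevE8 K (E.ρ r) t) ∈ RR E K := by
  unfold ng
  rw [E.neg r hr]
  exact mul_mem (mul_mem (gen_mem E hr t) (gen_mem E (neg_lt G hr) _)) (gen_mem E hr t)

theorem RR_hg {r : ℕ} (hr : r < D.nroots) (t : K) : (hg D K r t, hg chevE8 K (E.ρ r) t) ∈ RR E K := by
  unfold hg
  exact mul_mem (RR_ng E G hr t) (RR_ng E G hr _)

/-- torus elements -/
theorem RR_HP {l : List (ℕ × K)} (hl : ∀ x ∈ l, x.1 < D.rank) : (HP D K l, HP chevE8 K l) ∈ RR E K := by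
  unfold HP
  induction l with
  | nil => exact one_mem _
  | cons x l ih =>
    rw [List.map_cons, List.prod_cons, List.map_cons, List.prod_cons]
    have h1 := RR_hg E G (G.simple_lt _ (hl x (by simp))) x.2
    rw [E.simple _ (hl x (by simp))] at h1
    exact mul_mem h1 (ih fun y hy => hl y (by simp [hy]))

/-- fundamental reflections as indices of `E8` -/
def up (i : Fin D.rank) : Fin chevE8.rank := ⟨i, lt_of_lt_of_le i.2 E.rank_le⟩

/-- Weyl group representatives -/
theorem RR_nl (l : List (Fin D.rank)) : (nl D K l, nl chevE8 K (l.map (up E))) ∈ RR E K := by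
  induction l with
  | nil => exact one_mem _
  | cons i l ih =>
    rw [nl_cons G, List.map_cons, nl_cons G8]
    have h1 := RR_ng E G (G.simple_lt i i.2) (1 : K)
    rw [E.simple i i.2] at h1
    exact mul_mem h1 ih

end Cfsg.Agent.Lib.EmbE8
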