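import Cfsg.Agent.Lib.EmbE8b

set_option autoImplicit false

/-!
# The kernel of the simply connected cover inside `chevE8.group` (helper40)
-/

namespace Cfsg.Agent.Lib.EmbE8
open Cfsg.Lie Cfsg.Agent.Lib.ChevX Cfsg.Agent.Lib.ChevGood Cfsg.Agent.Lib.ChevRel Cfsg.Agent.Lib.ChevTab
  Cfsg.Agent.Lib.ChevNPerm Cfsg.Agent.Lib.ChevHOrder Cfsg.Agent.Lib.ChevFix Cfsg.Agent.Lib.StPres Cfsg.Agent.Lib.ChevTorus Cfsg.Agent.Lib.TwTab
open scoped MatrixGroups Matrix

abbrev R8 (s k : ℕ) : ℤ := rvT ChevDataE8.A s k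

/-- pairing of roots of `E8` -/
def pr8 (r s : ℕ) : ℤ := ∑ j ∈ Finset.range 8, co chevE8 r j * chevE8.cartan j s

/-- the orthogonal complement of the subsystem, with exponents of a regular element -/
structure Perp {D : ChevalleyDatum} (E : Emb D) (d : ℕ) where
  S : List (ℕ × ℤ)
  hS : ∀ s ∈ S, s.1 < 240 ∧ chevE8.neg s.1 < 240
  hperp : ∀ s ∈ S, ∀ r < D.nroots, (s.1 ≠ E.ρ r ∧ s.1 ≠ chevE8.neg (E.ρ r) ∧ chevE8.commTerms (E.ρ r) s.1 = []) ∧
    (chevE8.neg s.1 ≠ E.ρ r ∧ chevE8.neg s.1 ≠ chevE8.neg (E.ρ r) ∧ chevE8.commTerms (E.ρ r) (chevE8.neg s.1) = [])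
  x : ℕ → ℤ
  hxy : ∀ j < 8, ((List.range D.rank).map fun i => x i * chevE8.cartan i (chevE8.simple j)).sum +
    (S.map fun s => s.2 * pr8 s.1 (chevE8.simple j)).sum = d
  m : ℕ
  hm : ∀ j < 8, j ≠ m → j < D.rank ∨ ∃ s ∈ S, s.1 = chevE8.simple j
  s0 : ℕ × ℤ
  hs0 : s0 ∈ S
  hs0m : R8 s0.1 m = d
  mlt : m < 8

theorem ht8 : ∀ s < 240, (∑ j ∈ Finset.range 8, R8 s j) ≠ 0 ∧ |∑ j ∈ Finset.range 8, R8 s j| ≤ 29 := by decide +kernel

theorem rv8 : G8.rv = R8 := rfl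

theorem rval_of_conj {D : ChevalleyDatum} (G : Good D) {K : Type*} [Field K] {w : GL D.Idx K} (hw : w ∈ D.diagonalSubgroup K)
    (s : Fin D.nroots) {c : K} (h : w * xg D K s 1 * w⁻¹ = xg D K s c) : rval w s = c := by
  have h1 := conj_x G hw s 1
  rw [h, mul_one] at h1
  exact (ChevRel.xg_inj G s.2 h1).symm

theorem rval_HP {D : ChevalleyDatum} (G : Good D) {K : Type*} [Field K] {l : List (ℕ × K)} (h : HOk D l) (s : Fin D.nroots) :
    rval (HP D K l) s = chr D l s := by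
  apply rval_of_conj G (HP_mem G h)
  rw [HP_conj G h s.2, mul_one]

theorem rval_hg8 {K : Type*} [Field K] {r : ℕ} (hr : r < 240) {c : K} (hc : c ≠ 0) (s : Fin chevE8.nroots) :
    rval (hg chevE8 K r c) s = c ^ pr8 r s := by
  apply rval_of_conj G8 (hg_mem G8 hr hc)
  rw [hg_conj G8 hr s.2 c hc, mul_one]
  rfl

variable {D : ChevalleyDatum} {E : Emb D} {d : ℕ} (Q : Perp E d) {K : Type*} [Field K]

theorem comm_of_nil {r s : ℕ} (hr : r < 240) (hs : s < 240) (h1 : s ≠ r) (h2 : s ≠ chevE8.neg r) (h3 : chevE8.commTerms r s = [])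
    (t u : K) : xg chevE8 K s u * xg chevE8 K r t = xg chevE8 K r t * xg chevE8 K s u := by
  rw [xg_comm G8 hr hs h1 h2]
  unfold ChevalleyDatum.commWord wg
  rw [h3, List.map_nil, List.map_nil, List.prod_nil, mul_one]

/-- elements commuting with the cover -/
theorem perp_comm {s : ℕ × ℤ} (hs : s ∈ Q.S) (u : K) {p : GL D.Idx K × GL chevE8.Idx K} (hp : p ∈ RR E K) :
    xg chevE8 K s.1 u * p.2 = p.2 * xg chevE8 K s.1 u ∧ xg chevE8 K (chevE8.neg s.1) u * p.2 = p.2 * xg chevE8 K (chevE8.neg s.1) u := by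
  have key : ∀ y : GL chevE8.Idx K, (∀ r < D.nroots, ∀ t : K, y * xg chevE8 K (E.ρ r) t = xg chevE8 K (E.ρ r) t * y) →
      y * p.2 = p.2 * y := by
    intro y hy
    have : RR E K ≤ (Subgroup.centralizer {y}).comap (MonoidHom.snd _ _) := by
      unfold RR
      rw [Subgroup.closure_le]
      rintro _ ⟨r, hr, t, rfl⟩
      rw [SetLike.mem_coe, Subgroup.mem_comap, Subgroup.mem_centralizer_iff]
      rintro z rfl
      exact hy r hr t
    have h1 := this hp
    rw [Subgroup.mem_comap, Subgroup.mem_centralizer_iff] at h1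
    exact h1 y rfl
  constructor
  · apply key
    intro r hr t
    obtain ⟨⟨h1, h2, h3⟩, -⟩ := Q.hperp s hs r hr
    exact comm_of_nil (E.lt r hr) (Q.hS s hs).1 h1 h2 h3 t u
  · apply key
    intro r hr t
    obtain ⟨-, ⟨h1, h2, h3⟩⟩ := Q.hperp s hs r hr
    exact comm_of_nil (E.lt r hr) (Q.hS s hs).2 h1 h2 h3 t u

theorem perp_comm_hg {s : ℕ × ℤ} (hs : s ∈ Q.S) (u : K) {p : GL D.Idx K × GL chevE8.Idx K} (hp : p ∈ RR E K) :
    hg chevE8 K s.1 u * p.2 = p.2 * hg chevE8 K s.1 u := by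
  have hc := fun v : K => (perp_comm Q hs v hp).1
  have hc' := fun v : K => (perp_comm Q hs v hp).2
  have hn : ∀ v : K, Commute (ng chevE8 K s.1 v) p.2 := by
    intro v
    unfold ng
    exact ((show Commute _ _ from hc v).mul_left (show Commute _ _ from hc' (-v⁻¹))).mul_left (show Commute _ _ from hc v)
  unfold hg
  exact ((hn u).mul_left (hn (-1))).eq

/-- the regular element -/
noncomputable def treg (a : Kˣ) : GL chevE8.Idx K :=
  HP chevE8 K ((List.range D.rank).map fun i => (i, ((a ^ Q.x i : Kˣ) : K))) *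
    (Q.S.map fun s => hg chevE8 K s.1 ((a ^ s.2 : Kˣ) : K)).prod

theorem treg_ok (a : Kˣ) : HOk chevE8 ((List.range D.rank).map fun i => (i, ((a ^ Q.x i : Kˣ) : K))) := by
  intro y hy
  obtain ⟨i, hi, rfl⟩ := List.mem_map.mp hy
  rw [List.mem_range] at hi
  exact ⟨lt_of_lt_of_le hi E.rank_le, Units.ne_zero _⟩

theorem treg_mem (a : Kˣ) : treg Q a ∈ chevE8.diagonalSubgroup K := by
  refine mul_mem (HP_mem G8 (treg_ok Q a)) (Subgroup.list_prod_mem _ ?_)
  intro y hy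
  obtain ⟨s, hs, rfl⟩ := List.mem_map.mp hy
  exact hg_mem G8 (Q.hS s hs).1 (Units.ne_zero _)

theorem treg_rval (a : Kˣ) (s : Fin chevE8.nroots) : rval (treg Q a) s =
    ((a ^ ((d : ℤ) * ∑ j ∈ Finset.range 8, R8 s j) : Kˣ) : K) := by
  have hsimp : ∀ j : Fin chevE8.rank, rval (treg Q a) (simpF G8 j) = ((a ^ (d : ℤ) : Kˣ) : K) := by
    intro j
    have hpart : ∀ L : List (ℕ × ℤ), (∀ s ∈ L, s.1 < 240) →
        (L.map fun s => hg chevE8 K s.1 ((a ^ s.2 : Kˣ) : K)).prod ∈ chevE8.diagonalSubgroup K ∧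
        rval (L.map fun s => hg chevE8 K s.1 ((a ^ s.2 : Kˣ) : K)).prod (simpF G8 j) =
          ((a ^ ((L.map fun s => s.2 * pr8 s.1 (chevE8.simple j)).sum) : Kˣ) : K) := by
      intro L
      induction L with
      | nil => intro _; exact ⟨one_mem _, by simp [rval_one G8]⟩
      | cons s L ih =>
        intro hL
        obtain ⟨i1, i2⟩ := ih fun y hy => hL y (by simp [hy])
        have h0 := hg_mem G8 (hL s (by simp)) (Units.ne_zero (a ^ s.2))
        refine ⟨by rw [List.map_cons, List.prod_cons]; exact mul_mem h0 i1, ?_⟩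
        rw [List.map_cons, List.prod_cons, rval_mul G8 h0 i1, i2, rval_hg8 (hL s (by simp)) (Units.ne_zero _), List.map_cons,
          List.sum_cons, zpow_add, Units.val_mul, ← Units.val_zpow_eq_zpow_val, ← zpow_mul]
        rfl
    obtain ⟨p1, p2⟩ := hpart Q.S fun s hs => (Q.hS s hs).1
    unfold treg
    rw [rval_mul G8 (HP_mem G8 (treg_ok Q a)) p1, p2, rval_HP G8 (treg_ok Q a), ← Q.hxy j j.2, zpow_add, Units.val_mul]
    congr 1
    unfold chr
    rw [List.map_map]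
    have : ∀ L : List ℕ, (L.map ((fun x : ℕ × K => x.2 ^ chevE8.cartan x.1 (simpF G8 j)) ∘ fun i => (i, ((a ^ Q.x i : Kˣ) : K)))).prod =
        ((a ^ ((L.map fun i => Q.x i * chevE8.cartan i (chevE8.simple j)).sum) : Kˣ) : K) := by
      intro L
      induction L with
      | nil => simp
      | cons i L ih =>
        rw [List.map_cons, List.prod_cons, ih, List.map_cons, List.sum_cons, zpow_add, Units.val_mul, zpow_mul]
        congr 1
        exact (Units.val_zpow_eq_zpow_val _ _).symm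
    exact this _
  rw [rval_prod G8 (treg_mem Q a) s, Finset.prod_congr rfl fun j _ => by rw [hsimp j]]
  have h1 : ∀ j : Fin chevE8.rank, ((a ^ (d : ℤ) : Kˣ) : K) ^ G8.rv s j = ((a ^ ((d : ℤ) * R8 s j) : Kˣ) : K) := by
    intro j
    rw [← Units.val_zpow_eq_zpow_val, ← zpow_mul]; rfl
  rw [Finset.prod_congr rfl fun j _ => h1 j, ← Units.coe_prod, Finset.mul_sum, Finset.sum_range, zpow_sum']
  rfl

/-- a linear permutation fixing the fundamental roots is trivial -/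
theorem lin_fix' {D : ChevalleyDatum} (G : Good D) {w : Equiv.Perm (Fin D.nroots)} (hlin : Lin G w)
    (h2 : ∀ j, w (simpF G j) = simpF G j) : w = 1 := by
  ext s
  congr 1
  apply rvF_inj G
  intro k
  rw [hlin s k, Equiv.Perm.one_apply]
  have := lin_one G s k
  rw [Equiv.Perm.one_apply] at this
  rw [this]
  exact Finset.sum_congr rfl fun j _ => by rw [h2, Equiv.Perm.one_apply]

theorem pow_of_prod {n : ℕ} {K : Type*} [Field K] {v : Fin n → K} {e : Fin n → ℤ} {m : Fin n} {d : ℕ}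
    (h1 : ∀ j, j ≠ m → v j = 1) (h2 : ∏ j, v j ^ e j = 1) (h3 : e m = d) (j : Fin n) : v j ^ d = 1 := by
  have hm : v m ^ d = 1 := by
    rw [Finset.prod_eq_single m (fun j _ hj => by rw [h1 j hj, one_zpow]) (fun h => absurd (Finset.mem_univ _) h), h3,
      zpow_natCast] at h2
    exact h2
  by_cases hj : j = m
  · rw [hj, hm]
  · rw [h1 j hj, one_pow]

theorem prod_pow_one {n : ℕ} {K : Type*} [Field K] {v : Fin n → K} {d : ℕ} (h : ∀ j, v j ^ d = 1) (e : Fin n → ℤ) :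
    (∏ j, v j ^ e j) ^ d = 1 := by
  rw [← Finset.prod_pow]
  apply Finset.prod_eq_one
  intro j _
  rw [← zpow_natCast, ← zpow_mul, mul_comm, zpow_mul, zpow_natCast, h, one_zpow]

include Q in
/-- the kernel of the cover -/
theorem ker_torus (G : Good D) (hD : D ∈ [chevG2, chevB2, chevD4, chevF4, chevE6, chevE7, chevE8])
    (hd : d ≠ 0) (hreg : ∃ a : Kˣ, ∀ n : ℤ, n ≠ 0 → |n| ≤ 29 * d → a ^ n ≠ 1) {k : GL chevE8.Idx K}
    (hk : ((1 : GL D.Idx K), k) ∈ RR E K) : k ∈ chevE8.diagonalSubgroup K ∧ ∀ s, rval k s ^ d = 1 := by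
  have hL8 : ChevBruhat.Listed chevE8 := by simp [ChevBruhat.Listed]
  obtain ⟨a, ha⟩ := hreg
  have hkc : ∀ {p : GL D.Idx K × GL chevE8.Idx K}, p ∈ RR E K → k * p.2 = p.2 * k := fun hp => ker_central E G hD hk hp
  have hkt : treg Q a * k = k * treg Q a := by
    have h1 : Commute (HP chevE8 K ((List.range D.rank).map fun i => (i, ((a ^ Q.x i : Kˣ) : K)))) k := by
      have := hkc (RR_HP (K := K) E G (l := (List.range D.rank).map fun i => (i, ((a ^ Q.x i : Kˣ) : K))) (by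
        intro y hy
        obtain ⟨i, hi, rfl⟩ := List.mem_map.mp hy
        exact List.mem_range.mp hi))
      exact this.symm
    have h2 : Commute (Q.S.map fun s => hg chevE8 K s.1 ((a ^ s.2 : Kˣ) : K)).prod k := by
      apply Commute.list_prod_left
      intro y hy
      obtain ⟨s, hs, rfl⟩ := List.mem_map.mp hy
      exact perp_comm_hg Q hs _ hk
    exact (h1.mul_left h2).eq
  obtain ⟨w, hw, hkN, -⟩ := mem_T_of_commute G8 hL8 (treg_mem Q a) (fun s => by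
    rw [treg_rval, Ne, Units.val_eq_one]
    obtain ⟨h1, h2⟩ := ht8 s s.2
    apply ha
    · exact mul_ne_zero (by exact_mod_cast hd) h1
    · rw [abs_mul, Nat.abs_cast, mul_comm]
      exact mul_le_mul_of_nonneg_right h2 (by positivity)) (RR_snd E hk) hkt
  -- fixed roots
  have hfix : ∀ r : Fin chevE8.nroots, (k * xg chevE8 K r 1 = xg chevE8 K r 1 * k) → w r = r := by
    intro r hr
    obtain ⟨-, c, hc, -, h2⟩ := hw
    have h3 := h2 r 1
    rw [hr, mul_inv_cancel_right] at h3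
    exact (Fin.ext (xg_root_inj G8 r.2 (w r).2 one_ne_zero h3)).symm
  have hJ : ∀ j (hj : j < 8), j < D.rank → k * xg chevE8 K (chevE8.simple j) 1 = xg chevE8 K (chevE8.simple j) 1 * k := by
    intro j hj hjD
    have := hkc (gen_mem (K := K) E (G.simple_lt j hjD) 1)
    rw [← E.simple j hjD]
    exact this
  have hS : ∀ s ∈ Q.S, k * xg chevE8 K s.1 1 = xg chevE8 K s.1 1 * k := fun s hs => ((perp_comm Q hs 1 hk).1).symm
  have hsc : ∀ j (hj : j < 8), j ≠ Q.m → k * xg chevE8 K (chevE8.simple j) 1 = xg chevE8 K (chevE8.simple j) 1 * k := by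
    intro j hj hjm
    rcases Q.hm j hj hjm with h | ⟨s, hs, h⟩
    · exact hJ j hj h
    · rw [← h]; exact hS s hs
  have hws : ∀ j : Fin chevE8.rank, (j : ℕ) ≠ Q.m → w (simpF G8 j) = simpF G8 j := fun j hj => hfix _ (hsc j j.2 hj)
  let m8 : Fin chevE8.rank := ⟨Q.m, Q.mlt⟩
  have hd' : (d : ℤ) ≠ 0 := by exact_mod_cast hd
  have hwm : w (simpF G8 m8) = simpF G8 m8 := by
    apply rvF_inj G8
    intro i
    have h1 := hw.1 ⟨Q.s0.1, (Q.hS _ Q.hs0).1⟩ i
    rw [hfix ⟨Q.s0.1, (Q.hS _ Q.hs0).1⟩ (hS _ Q.hs0)] at h1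
    have h2 := lin_one G8 ⟨Q.s0.1, (Q.hS _ Q.hs0).1⟩ i
    rw [Equiv.Perm.one_apply] at h2
    have h3 := h1.symm.trans h2
    rw [← Finset.sum_erase_add _ _ (Finset.mem_univ m8), ← Finset.sum_erase_add (Finset.univ) _ (Finset.mem_univ m8)] at h3
    have h4 : ∑ x ∈ Finset.univ.erase m8, G8.rv (⟨Q.s0.1, (Q.hS _ Q.hs0).1⟩ : Fin chevE8.nroots) x * G8.rv (w (simpF G8 x)) i =
        ∑ x ∈ Finset.univ.erase m8, G8.rv (⟨Q.s0.1, (Q.hS _ Q.hs0).1⟩ : Fin chevE8.nroots) x *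
          G8.rv ((1 : Equiv.Perm (Fin chevE8.nroots)) (simpF G8 x)) i := by
      refine Finset.sum_congr rfl fun x hx => ?_
      rw [hws x (fun h => (Finset.mem_erase.mp hx).1 (Fin.ext h)), Equiv.Perm.one_apply]
    rw [h4, add_right_inj] at h3
    have h5 : G8.rv (⟨Q.s0.1, (Q.hS _ Q.hs0).1⟩ : Fin chevE8.nroots) m8 = d := Q.hs0m
    rw [h5] at h3
    exact mul_left_cancel₀ hd' h3
  have hw1 : w = 1 := by
    apply lin_fix' G8 hw.1
    intro j
    by_cases hj : (j : ℕ) = Q.m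
    · have : j = m8 := Fin.ext hj
      rw [this, hwm]
    · exact hws j hj
  rw [hw1] at hw
  have hkT : k ∈ chevE8.diagonalSubgroup K := mem_diag_of_one G8 hkN hw
  refine ⟨hkT, ?_⟩
  have hv1 : ∀ r : Fin chevE8.nroots, (k * xg chevE8 K r 1 = xg chevE8 K r 1 * k) → rval k r = 1 := by
    intro r hr
    apply rval_of_conj G8 hkT
    rw [hr, mul_inv_cancel_right]
  have hv0 : ∀ j : Fin chevE8.rank, (j : ℕ) ≠ Q.m → rval k (simpF G8 j) = 1 := fun j hj => hv1 (simpF G8 j) (hsc j j.2 hj)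
  have hvs0 : rval k ⟨Q.s0.1, (Q.hS _ Q.hs0).1⟩ = 1 := hv1 ⟨Q.s0.1, (Q.hS _ Q.hs0).1⟩ (hS _ Q.hs0)
  have h5 : G8.rv (⟨Q.s0.1, (Q.hS _ Q.hs0).1⟩ : Fin chevE8.nroots) m8 = d := Q.hs0m
  have h6 := rval_prod G8 hkT ⟨Q.s0.1, (Q.hS _ Q.hs0).1⟩
  rw [hvs0] at h6
  have hvs := pow_of_prod (v := fun j => rval k (simpF G8 j)) (e := fun j => G8.rv (⟨Q.s0.1, (Q.hS _ Q.hs0).1⟩ : Fin chevE8.nroots) j)
    (m := m8) (d := d) (fun j hj => hv0 j fun h => hj (Fin.ext h)) h6.symm h5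
  intro s
  rw [rval_prod G8 hkT s]
  exact prod_pow_one hvs _

end Cfsg.Agent.Lib.EmbE8
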