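import Cfsg.Agent.Lib.EmbE8c

set_option autoImplicit false

/-!
# Elements of twisted tori outside the Chevalley group over the small field (helper40)
-/

namespace Cfsg.Agent.Lib.EmbE8
open Cfsg.Lie Cfsg.Agent.Lib.ChevX Cfsg.Agent.Lib.ChevGood Cfsg.Agent.Lib.ChevRel Cfsg.Agent.Lib.ChevTab
  Cfsg.Agent.Lib.ChevNPerm Cfsg.Agent.Lib.ChevHOrder Cfsg.Agent.Lib.ChevFix Cfsg.Agent.Lib.StPres Cfsg.Agent.Lib.ChevTorus Cfsg.Agent.Lib.TwTab
open scoped MatrixGroups Matrix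

variable {D : ChevalleyDatum} {E : Emb D} {d : ℕ} (Q : Perp E d)

include Q in
/-- a torus element of the twisted torus which is not in the group over the small field -/
theorem not_mem (G : Good D) (hD : D ∈ [chevG2, chevB2, chevD4, chevF4, chevE6, chevE7, chevE8]) (hd : d ≠ 0)
    {F L : Type*} [Field F] [Field L] (σ : L ≃+* L) (ι : F →+* L) {q : ℕ} (hσ : ∀ x, σ x = x ^ q) (hσι : ∀ y, σ (ι y) = ι y)
    (hq : 1 ≤ q) (hdq : d ∣ q - 1) (hreg : ∃ a : Lˣ, ∀ n : ℤ, n ≠ 0 → |n| ≤ 29 * d → a ^ n ≠ 1)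
    {g : GL D.Idx L} (hg : g ∈ D.group L) (l : List (Fin D.rank)) (hgσ : em D (σ : L →+* L) g = g * nl D L l)
    (lc : List (ℕ × L)) (hlc : ∀ x ∈ lc, x.1 < D.rank ∧ x.2 ≠ 0) (s1 : Fin chevE8.nroots)
    (hne : chr chevE8 lc (wl G8 (l.map (up E)) s1) ≠ (chr chevE8 lc s1) ^ q)
    {x : GL D.Idx F} (hx : x ∈ D.group F) (hxe : em D ι x = g * HP D L lc * g⁻¹) : False := by
  obtain ⟨g', hg'⟩ := exists_snd (K := L) E G hg
  obtain ⟨x', hx'⟩ := exists_snd (K := F) E G hx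
  have hn := RR_nl (K := L) E G l
  have ht := RR_HP (K := L) E G (l := lc) fun y hy => (hlc y hy).1
  have hgσ' := RR_em (K := L) E G (σ : L →+* L) hg'
  have htσ := RR_em (K := L) E G (σ : L →+* L) ht
  have hxι := RR_em (K := L) E G ι hx'
  set n' := nl chevE8 L (l.map (up E)) with hn'
  set t' := HP chevE8 L lc with ht'
  set σ8 := em chevE8 (σ : L →+* L) with hσ8
  set X' := em chevE8 ι x' with hX'
  have hlc8 : HOk chevE8 lc := fun y hy => ⟨lt_of_lt_of_le (hlc y hy).1 E.rank_le, (hlc y hy).2⟩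
  have ht'T : t' ∈ chevE8.diagonalSubgroup L := HP_mem G8 hlc8
  have hn'N : n' ∈ chevE8.monomialSubgroup L := nl_mem G8 _
  have hcen : ∀ {k : GL chevE8.Idx L}, ((1 : GL D.Idx L), k) ∈ RR E L → ∀ {p : GL D.Idx L × GL chevE8.Idx L}, p ∈ RR E L →
      k * p.2 = p.2 * k := fun hk _ hp => ker_central E G hD hk hp
  -- the two kernel elements
  obtain ⟨k2, hk2, hk2e⟩ : ∃ k2, ((1 : GL D.Idx L), k2) ∈ RR E L ∧ σ8 g' = g' * n' * k2 := by
    refine ⟨(g' * n')⁻¹ * σ8 g', ?_, by group⟩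
    have h1 := mul_mem (inv_mem (mul_mem hg' hn)) hgσ'
    have h2 : ((g, g') * (nl D L l, n'))⁻¹ * (em D (σ : L →+* L) g, σ8 g') = ((1 : GL D.Idx L), (g' * n')⁻¹ * σ8 g') := by
      apply Prod.ext
      · show (g * nl D L l)⁻¹ * em D (σ : L →+* L) g = 1
        rw [hgσ]; group
      · rfl
    rw [← h2]
    exact h1
  obtain ⟨k1, hk1, hk1e⟩ : ∃ k1, ((1 : GL D.Idx L), k1) ∈ RR E L ∧ X' = g' * t' * g'⁻¹ * k1 := by
    refine ⟨(g' * t' * g'⁻¹)⁻¹ * X', ?_, by group⟩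
    have h1 := mul_mem (inv_mem (mul_mem (mul_mem hg' ht) (inv_mem hg'))) hxι
    have h2 : ((g, g') * (HP D L lc, t') * (g, g')⁻¹)⁻¹ * (em D ι x, X') = ((1 : GL D.Idx L), (g' * t' * g'⁻¹)⁻¹ * X') := by
      apply Prod.ext
      · show (g * HP D L lc * g⁻¹)⁻¹ * em D ι x = 1
        rw [hxe]; group
      · rfl
    rw [← h2]
    exact h1
  -- `k1` is fixed
  obtain ⟨hk1T, hk1v⟩ := ker_torus Q G hD hd hreg hk1
  have hk1σ : σ8 k1 = k1 := by
    apply ext_rval G8 (em_H G8 _ hk1T) hk1T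
    intro s
    have h1 : rval (σ8 k1) s = σ (rval k1 s) := rfl
    rw [h1, hσ]
    obtain ⟨c, hc⟩ := hdq
    have h2 : q = d * c + 1 := by omega
    rw [h2, pow_succ, pow_mul, hk1v, one_pow, one_mul]
  have hXσ : σ8 X' = X' := by
    apply Units.ext
    ext i j
    exact hσι _
  have hk2t : k2 * σ8 t' = σ8 t' * k2 := hcen hk2 htσ
  have h3 : n' * σ8 t' * n'⁻¹ = t' := by
    have h4 : σ8 X' = g' * (n' * σ8 t' * n'⁻¹) * g'⁻¹ * k1 := by
      rw [hk1e, map_mul, map_mul, map_mul, map_inv, hk1σ, hk2e]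
      calc g' * n' * k2 * σ8 t' * (g' * n' * k2)⁻¹ * k1 = g' * n' * (k2 * σ8 t') * k2⁻¹ * n'⁻¹ * g'⁻¹ * k1 := by group
        _ = _ := by rw [hk2t]; group
    rw [hXσ, hk1e] at h4
    have h5 := mul_right_cancel (mul_right_cancel h4)
    exact (mul_left_cancel h5).symm
  apply hne
  have hσt : σ8 t' ∈ chevE8.diagonalSubgroup L := em_H G8 _ ht'T
  have h6 := rval_conj G8 hn'N (mono_nl G8 _) hσt s1
  rw [h3] at h6
  have h7 : rval (σ8 t') s1 = σ (rval t' s1) := rfl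
  rw [h7, hσ, rval_HP G8 hlc8, rval_HP G8 hlc8] at h6
  exact h6

end Cfsg.Agent.Lib.EmbE8
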