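import Mathlib
set_option autoImplicit false
set_option linter.unusedSectionVars false

namespace Cfsg.Agent.Lib.ExEig

open Module

variable {F V : Type*} [Field F] [AddCommGroup V] [Module F V] [FiniteDimensional F V]

/-- independent family: sum of dims ≤ dim of a common overspace -/
lemma sum_finrank_le {ι : Type*} [Fintype ι] (E : ι → Submodule F V) (hE : iSupIndep E) (U : Submodule F V)
    (hU : ∀ i, E i ≤ U) : ∑ i, finrank F (E i) ≤ finrank F U := by
  classical
  have hinj := hE.dfinsupp_lsum_injective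
  have h1 : finrank F (Π₀ i, E i) = ∑ i, finrank F (E i) := by
    have := Module.finrank_directSum (R := F) (fun i => E i)
    exact this
  rw [← h1]
  have h2 := LinearMap.finrank_range_of_inj (f := (DFinsupp.lsum ℕ fun i => (E i).subtype)) hinj
  rw [← h2]
  apply Submodule.finrank_mono
  rintro _ ⟨v, rfl⟩
  rw [DFinsupp.lsum_apply_apply]
  exact Submodule.dfinsuppSumAddHom_mem _ _ _ (fun i _ => hU i (v i).2)

/-- the dimension of a submodule which is covered by a family -/
lemma finrank_le_sum {ι : Type*} (s : Finset ι) (E : ι → Submodule F V) (W : Submodule F V)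
    (hW : ∀ w ∈ W, ∃ p : ι → V, (∀ i ∈ s, p i ∈ E i) ∧ ∑ i ∈ s, p i = w) :
    finrank F W ≤ ∑ i ∈ s, finrank F (E i) := by
  classical
  have key : ∀ t : Finset ι, finrank F (t.sup E : Submodule F V) ≤ ∑ i ∈ t, finrank F (E i) := by
    intro t
    induction t using Finset.induction_on with
    | empty => simp
    | insert a t ha ih =>
      rw [Finset.sup_insert, Finset.sum_insert ha]
      exact (Submodule.finrank_add_le_finrank_add_finrank _ _).trans (by omega)
  refine (Submodule.finrank_mono ?_).trans (key s)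
  intro w hw
  obtain ⟨p, hp, rfl⟩ := hW w hw
  refine Submodule.sum_mem _ (fun i hi => ?_)
  exact (Finset.le_sup (f := E) hi) (hp i hi)

/-- the translate trick -/
lemma two_finrank_le (W : Submodule F V) (x : Module.End F V) (hx : Function.Injective x) :
    2 * finrank F W ≤ finrank F V + finrank F (W ⊓ W.map x : Submodule F V) := by
  have h1 : finrank F (W.map x) = finrank F W := by
    exact (Submodule.equivMapOfInjective x hx W).finrank_eq.symm
  have h2 := Submodule.finrank_sup_add_finrank_inf_eq W (W.map x)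
  have h3 : finrank F (W ⊔ W.map x : Submodule F V) ≤ finrank F V := Submodule.finrank_le _
  omega


variable {Γ : Type*} [Group Γ] (ρ : Γ →* Module.End F V)

lemma inj (g : Γ) : Function.Injective (ρ g) := by
  intro a b h
  have h2 : ρ g⁻¹ (ρ g a) = ρ g⁻¹ (ρ g b) := by rw [h]
  rwa [← Module.End.mul_apply, ← Module.End.mul_apply, ← map_mul, inv_mul_cancel, map_one] at h2

lemma finrank_le_of_maps (g : Γ) {U W : Submodule F V} (h : ∀ v ∈ U, ρ g v ∈ W) :
    finrank F U ≤ finrank F W := by
  have h1 : U.map (ρ g) ≤ W := by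
    rintro _ ⟨v, hv, rfl⟩
    exact h v hv
  rw [(Submodule.equivMapOfInjective (ρ g) (inj ρ g) U).finrank_eq]
  exact Submodule.finrank_mono h1

/-- eigenspaces are permuted -/
lemma maps_eig {y h : Γ} {ω : F} (hyh : ρ y * ρ h = ω • (ρ h * ρ y)) (c : F) {v : V}
    (hv : v ∈ (ρ y).eigenspace c) : ρ h v ∈ (ρ y).eigenspace (ω * c) := by
  rw [Module.End.mem_eigenspace_iff] at hv ⊢
  have h1 : ρ y (ρ h v) = ω • ρ h (ρ y v) := LinearMap.congr_fun hyh v
  rw [h1, hv, map_smul, smul_smul]

lemma finrank_eig_pow {y h : Γ} {ω : F} (hyh : ρ y * ρ h = ω • (ρ h * ρ y)) (c : F) (i : ℕ) :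
    finrank F ((ρ y).eigenspace c) ≤ finrank F ((ρ y).eigenspace (ω ^ i * c)) := by
  induction i with
  | zero => rw [pow_zero, one_mul]
  | succ i ih =>
    refine ih.trans (finrank_le_of_maps ρ h (fun v hv => ?_))
    have := maps_eig ρ hyh _ hv
    rwa [pow_succ', mul_assoc]

lemma eig_zero (y : Γ) : (ρ y).eigenspace 0 = ⊥ := by
  rw [Submodule.eq_bot_iff]
  intro v hv
  rw [Module.End.mem_eigenspace_iff, zero_smul] at hv
  exact inj ρ y (by rw [hv, map_zero])

lemma mul_finrank_eig_le {y h : Γ} {ω : F} (hyh : ρ y * ρ h = ω • (ρ h * ρ y)) (c : F) :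
    orderOf ω * finrank F ((ρ y).eigenspace c) ≤ finrank F V := by
  by_cases hc : c = 0
  · subst hc
    rw [eig_zero]
    simp
  have hinj : Function.Injective (fun i : Fin (orderOf ω) => ω ^ (i : ℕ) * c) := by
    intro i j hij
    have h1 : ω ^ (i : ℕ) = ω ^ (j : ℕ) := mul_right_cancel₀ hc hij
    exact Fin.ext (pow_injOn_Iio_orderOf (Set.mem_Iio.2 i.2) (Set.mem_Iio.2 j.2) h1)
  have h1 := sum_finrank_le _ ((ρ y).eigenspaces_iSupIndep.comp hinj) ⊤ (fun _ => le_top)
  rw [finrank_top] at h1
  refine le_trans ?_ h1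
  have h2 : ∑ i : Fin (orderOf ω), finrank F ((ρ y).eigenspace c) ≤
      ∑ i : Fin (orderOf ω), finrank F ((ρ y).eigenspace (ω ^ (i : ℕ) * c)) :=
    Finset.sum_le_sum (fun i _ => finrank_eig_pow ρ hyh c i)
  simpa using h2

end Cfsg.Agent.Lib.ExEig
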