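import Cfsg.Agent.Lib.ExEig9
set_option autoImplicit false
set_option linter.unusedSectionVars false
set_option linter.style.haveILetI false

namespace Cfsg.Agent.Lib.ExEig

open Module Cfsg Cfsg.Geo
open scoped MatrixGroups

variable {n : ℕ} {F : Type*} [Field F] {r : ℕ}

lemma ctx_of_extra (R : Subgroup (GL (Fin n) F)) (hr : r.Prime)
    (hZ : Nat.card (Subgroup.center R) = r) (hext : commutator R = Subgroup.center R)
    (hirr : ActsAbsolutelyIrreducibly (matrixSet R)) : Ctx (R ⊔ scalars (Fin n) F) r := by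
  have hn0 : 0 < n := by
    rcases Nat.eq_zero_or_pos n with h | h
    · subst h
      exfalso
      have : Subsingleton (GL (Fin 0) F) := ⟨fun a b => Units.ext (Subsingleton.elim _ _)⟩
      have h1 : Nat.card (Subgroup.center R) = 1 := by
        have : Subsingleton (Subgroup.center R) :=
          ⟨fun a b => Subtype.ext (Subtype.ext (Subsingleton.elim _ _))⟩
        exact Nat.card_unique
      rw [hZ] at h1
      exact hr.ne_one h1
    · exact h
  have hcomR : ∀ a ∈ R, ∀ b ∈ R, ∃ z : R, z ∈ Subgroup.center R ∧ (z : GL (Fin n) F) = a * b * a⁻¹ * b⁻¹ := by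
    intro a ha b hb
    refine ⟨(⟨a, ha⟩ : R) * (⟨b, hb⟩ : R) * (⟨a, ha⟩ : R)⁻¹ * (⟨b, hb⟩ : R)⁻¹, ?_, rfl⟩
    rw [← hext, commutator_def]
    exact Subgroup.commutator_mem_commutator (Subgroup.mem_top _) (Subgroup.mem_top _)
  have hcen : ∀ z : R, z ∈ Subgroup.center R → (z : GL (Fin n) F) ∈ scalars (Fin n) F := by
    intro z hz
    refine Cfsg.Agent.Lib.AschExtra.mem_scalars_of_comm hirr (fun s hs => ?_)
    exact (congrArg Subtype.val (Subgroup.mem_center_iff.1 hz ⟨s, hs⟩)).symm
  have hdec : ∀ a ∈ R ⊔ scalars (Fin n) F, ∃ s ∈ R, ∃ z ∈ scalars (Fin n) F, s * z = a := by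
    intro a ha
    exact Subgroup.mem_sup_of_normal_right.1 ha
  have hpowR : ∀ s ∈ R, s ^ r ∈ scalars (Fin n) F := by
    intro s hs
    refine Cfsg.Agent.Lib.AschExtra.mem_scalars_of_comm hirr (fun t ht => ?_)
    obtain ⟨z, hz, hz2⟩ := hcomR t ht s hs
    have h1 : t * s * t⁻¹ = z * s := by rw [hz2]; group
    have hzs : (z : GL (Fin n) F) * s = s * z := (congrArg Subtype.val (Subgroup.mem_center_iff.1 hz ⟨s, hs⟩)).symm
    have hzr : (z : GL (Fin n) F) ^ r = 1 := by
      have h2 : (⟨z, hz⟩ : Subgroup.center R) ^ r = 1 := by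
        rw [← hZ]; exact pow_card_eq_one'
      have h3 : z ^ r = 1 := congrArg Subtype.val h2
      have h4 := congrArg Subtype.val h3
      simpa using h4
    have h5 : t * s ^ r * t⁻¹ = s ^ r := by
      rw [← conj_pow, h1, (show Commute (z : GL (Fin n) F) s from hzs).mul_pow, hzr, one_mul]
    rw [mul_inv_eq_iff_eq_mul] at h5
    exact h5.symm
  refine ⟨hr, hn0, ?_, ?_, ?_⟩
  · intro a ha b hb
    obtain ⟨s, hs, z, hz, rfl⟩ := hdec a ha
    obtain ⟨t, ht, y, hy, rfl⟩ := hdec b hb
    obtain ⟨w, hw, hw2⟩ := hcomR s hs t ht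
    have h1 : s * z * (t * y) * (s * z)⁻¹ * (t * y)⁻¹ = s * t * s⁻¹ * t⁻¹ := by
      have hzc := scalar_central hz
      have hyc := scalar_central hy
      calc s * z * (t * y) * (s * z)⁻¹ * (t * y)⁻¹ = s * (z * (t * y)) * z⁻¹ * s⁻¹ * y⁻¹ * t⁻¹ := by group
        _ = s * t * (y * s⁻¹) * y⁻¹ * t⁻¹ := by rw [hzc]; group
        _ = _ := by rw [hyc]; group
    rw [h1, ← hw2]
    exact hcen w hw
  · intro a ha
    obtain ⟨s, hs, z, hz, rfl⟩ := hdec a ha
    rw [(show Commute s z from (scalar_central hz s).symm).mul_pow]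
    exact mul_mem (hpowR s hs) (pow_mem hz r)
  · intro a ha has
    obtain ⟨s, hs, z, hz, rfl⟩ := hdec a ha
    by_contra hcon
    push Not at hcon
    apply has
    refine mul_mem (Cfsg.Agent.Lib.AschExtra.mem_scalars_of_comm hirr (fun t ht => ?_)) hz
    have h1 := hcon t ((le_sup_left : R ≤ R ⊔ scalars (Fin n) F) ht)
    have hzc := scalar_central hz t
    have h2 : s * t * z = t * s * z := by
      calc s * t * z = s * (z * t) := by rw [hzc]; group
        _ = s * z * t := by group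
        _ = t * (s * z) := h1
        _ = t * s * z := by group
    exact mul_right_cancel h2

lemma Ctx.prim {N : Subgroup (GL (Fin n) F)} (C : Ctx N r) {a : GL (Fin n) F} (ha : a ∈ N)
    (has : a ∉ scalars (Fin n) F) :
    ∃ h ∈ N, ∃ c : F, gl n F a * gl n F h = c • (gl n F h * gl n F a) ∧ orderOf c = r ∧ IsPrimitiveRoot c r ∧
      r ∣ n := by
  obtain ⟨h, hh, c, hc, hcr, hc1⟩ := C.exists_lam ha has
  haveI : Fact r.Prime := ⟨C.pr⟩
  have hord : orderOf (c : F) = r := orderOf_eq_prime hcr hc1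
  refine ⟨h, hh, c, hc, hord, hord ▸ IsPrimitiveRoot.orderOf (c : F), ?_⟩
  rw [← hord]
  apply orderOf_dvd_of_pow_eq_one
  -- determinants
  have h1 : (a : Matrix (Fin n) (Fin n) F) * h = (c : F) • ((h : Matrix (Fin n) (Fin n) F) * a) := by
    apply Matrix.toLin'.injective
    rw [Matrix.toLin'_mul, map_smul, Matrix.toLin'_mul]
    exact hc
  have h2 := congrArg Matrix.det h1
  rw [Matrix.det_mul, Matrix.det_smul, Matrix.det_mul, Fintype.card_fin] at h2
  have h3 : Matrix.det (a : Matrix (Fin n) (Fin n) F) * Matrix.det (h : Matrix (Fin n) (Fin n) F) ≠ 0 :=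
    mul_ne_zero ((Matrix.isUnit_iff_isUnit_det _).1 a.isUnit).ne_zero
      ((Matrix.isUnit_iff_isUnit_det _).1 h.isUnit).ne_zero
  have h4 : ((c : F) ^ n - 1) * (Matrix.det (a : Matrix (Fin n) (Fin n) F) * Matrix.det (h : Matrix (Fin n) (Fin n) F)) = 0 := by
    linear_combination (-1 : F) * h2
  exact sub_eq_zero.1 ((mul_eq_zero.1 h4).resolve_right h3)

theorem main [Fintype F] {p : ℕ} (R : Subgroup (GL (Fin n) F)) (hr : r.Prime)
    (hZ : Nat.card (Subgroup.center R) = r) (hext : commutator R = Subgroup.center R)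
    (hirr : ActsAbsolutelyIrreducibly (matrixSet R)) (g : GL (Fin n) F)
    (hg : g ∈ subgroupNormalizer (R ⊔ scalars (Fin n) F)) (hp : p.Prime) (hord : orderOf g = p)
    (hns : g ∉ scalars (Fin n) F) (c : F) :
    (p = 2 → 4 * finrank F ((gl n F g).eigenspace c) ≤ 3 * n) ∧
    (p = 3 → 3 * finrank F ((gl n F g).eigenspace c) ≤ 2 * n) ∧
    (3 < p → 2 * finrank F ((gl n F g).eigenspace c) ≤ n) ∧
    (p = 3 → ¬ 3 ∣ n → 2 * finrank F ((gl n F g).eigenspace c) ≤ n) := by
  have C := ctx_of_extra R hr hZ hext hirr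
  have hgp : g ^ p = 1 := by rw [← hord]; exact pow_orderOf_eq_one g
  have hgN : ∀ a ∈ R ⊔ scalars (Fin n) F, g * a * g⁻¹ ∈ R ⊔ scalars (Fin n) F := fun a ha =>
    (Subgroup.mem_normalizer_iff.1 hg a).1 ha
  have hgN' : ∀ a ∈ R ⊔ scalars (Fin n) F, g⁻¹ * a * g ∈ R ⊔ scalars (Fin n) F := fun a ha => by
    refine (Subgroup.mem_normalizer_iff.1 hg _).2 ?_
    have : g * (g⁻¹ * a * g) * g⁻¹ = a := by group
    rw [this]; exact ha
  by_cases hall : ∀ x ∈ R, g * x * g⁻¹ * x⁻¹ ∈ scalars (Fin n) F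
  · -- trivial action
    have hx : ∃ x ∈ R, g * x ≠ x * g := by
      by_contra hcon
      push Not at hcon
      exact hns (Cfsg.Agent.Lib.AschExtra.mem_scalars_of_comm hirr hcon)
    obtain ⟨x, hx, hne⟩ := hx
    have hK : (gl n F g).eigenspace c ⊓ ((gl n F g).eigenspace c).map (gl n F x) = ⊥ := by
      rw [Submodule.eq_bot_iff]
      intro v hv
      by_contra hv0
      have h1 := translate (g := g) (x := x) (k := g * x * g⁻¹ * x⁻¹) (by group) hv
      have h2 := scalar_fix (hall x hx) hv0 h1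
      rw [mul_inv_eq_one, mul_inv_eq_iff_eq_mul] at h2
      exact hne h2
    have h := two_le_of_bot hK
    refine ⟨fun _ => by omega, fun _ => by omega, fun _ => h, fun _ _ => h⟩
  · push Not at hall
    obtain ⟨x, hxR, hk⟩ := hall
    have hx : x ∈ R ⊔ scalars (Fin n) F := (le_sup_left : R ≤ R ⊔ scalars (Fin n) F) hxR
    have hkN : g * x * g⁻¹ * x⁻¹ ∈ R ⊔ scalars (Fin n) F := mul_mem (hgN x hx) (inv_mem hx)
    obtain ⟨h, hh, ω, hω1, hω2, hω, hrn⟩ := C.prim hkN hk
    have ht1 := two_finrank_le ((gl n F g).eigenspace c) (gl n F x) (inj _ x)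
    rw [Module.finrank_fin_fun] at ht1
    have ht2 : finrank F ((gl n F g).eigenspace c ⊓ ((gl n F g).eigenspace c).map (gl n F x) : Submodule F (Fin n → F))
        ≤ finrank F ((gl n F (g * x * g⁻¹ * x⁻¹)).eigenspace 1) := by
      apply Submodule.finrank_mono
      intro v hv
      rw [Module.End.mem_eigenspace_iff, one_smul]
      exact translate (g := g) (x := x) (by group) hv
    have ht3 := mul_finrank_eig_le (gl n F) hω1 1
    rw [hω2, Module.finrank_fin_fun] at ht3
    have ht4 := (Nat.mul_le_mul_left r ht2).trans ht3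
    have hr2 := hr.two_le
    have ht5 : 2 * finrank F ((gl n F g).eigenspace c ⊓ ((gl n F g).eigenspace c).map (gl n F x) : Submodule F (Fin n → F)) ≤ n :=
      (Nat.mul_le_mul_right _ hr2).trans ht4
    have hcop : Odd p → p ≠ r → 2 * finrank F ((gl n F g).eigenspace c) ≤ n := fun h1 h2 =>
      C.coprime hω hgN hgN' hp h1 h2 hgp hx hk c
    refine ⟨fun _ => by omega, fun h3 => ?_, fun h3 => ?_, fun h3 hn3 => ?_⟩
    · by_cases h3r : r = 3
      · rw [h3r] at ht4
        omega
      · have := hcop (by rw [h3]; decide) (by rw [h3]; exact fun h => h3r h.symm)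
        omega
    · by_cases hpr : p = r
      · subst hpr
        have hp5 : 5 ≤ p := by
          by_contra hlt
          have : p = 4 := by omega
          subst this
          exact absurd hp (by decide)
        exact C.equal hp5 hω hgN hgN' hgp hx hk c
      · exact hcop (hp.odd_of_ne_two (by omega)) hpr
    · exact hcop (by rw [h3]; decide) (by
        rintro rfl
        exact hn3 (h3 ▸ hrn))

end Cfsg.Agent.Lib.ExEig
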