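import Cfsg.Agent.Lib.ExEig1
set_option autoImplicit false
set_option linter.unusedSectionVars false

namespace Cfsg.Agent.Lib.ExEig

open Module

/-- transversal counting -/
lemma exists_transversal {X : Type*} [Fintype X] [DecidableEq X] (σ : Equiv.Perm X) {p : ℕ} (hp : Odd p)
    (hσ : σ ^ p = 1) (x0 x1 : X) (hfix : ∀ x, σ x = x → x = x0) (hx0 : σ x0 = x0) (h1 : x1 ≠ x0)
    (f : X → ℕ) (hf : ∀ x, f (σ x) = f x) (h01 : f x0 ≤ f x1) :
    ∃ T : Finset X, (∀ x, ∃ t ∈ T, ∃ k : ℕ, (σ ^ k) t = x) ∧ 2 * ∑ t ∈ T, f t ≤ ∑ x, f x := by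
  classical
  have hfpow : ∀ (k : ℕ) x, f ((σ ^ k) x) = f x := by
    intro k
    induction k with
    | zero => intro x; rfl
    | succ k ih => intro x; rw [pow_succ', Equiv.Perm.mul_apply, hf, ih]
  let s := Equiv.Perm.SameCycle.setoid σ
  let out : Quotient s → X := Quotient.out
  have hout : ∀ q, Quotient.mk s (out q) = q := fun q => Quotient.out_eq q
  have hsame : ∀ x, ∃ k : ℕ, (σ ^ k) (out (Quotient.mk s x)) = x := by
    intro x
    have h2 : Equiv.Perm.SameCycle σ (out (Quotient.mk s x)) x := Quotient.exact (hout _)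
    obtain ⟨i, _, hi⟩ := h2.exists_pow_eq'
    exact ⟨i, hi⟩
  have hx0pow : ∀ k : ℕ, (σ ^ k) x0 = x0 := by
    intro k
    induction k with
    | zero => rfl
    | succ k ih => rw [pow_succ', Equiv.Perm.mul_apply, ih, hx0]
  have hox0 : out (Quotient.mk s x0) = x0 := by
    obtain ⟨k, hk⟩ := hsame x0
    exact (σ ^ k).injective (by rw [hk, hx0pow])
  refine ⟨Finset.univ.image out, fun x => ?_, ?_⟩
  · obtain ⟨k, hk⟩ := hsame x
    exact ⟨_, Finset.mem_image_of_mem _ (Finset.mem_univ _), k, hk⟩
  · set T := Finset.univ.image out with hT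
    have hx0T : x0 ∈ T := by
      rw [← hox0]; exact Finset.mem_image_of_mem _ (Finset.mem_univ _)
    have hTout : ∀ t ∈ T, out (Quotient.mk s t) = t := by
      intro t ht
      obtain ⟨q, _, rfl⟩ := Finset.mem_image.1 ht
      rw [hout]
    rw [← Finset.add_sum_erase T f hx0T]
    set T' := T.erase x0 with hT'
    have hinj : Set.InjOn (fun z : X × ℕ => (σ ^ z.2) z.1) (T' ×ˢ Finset.range 3 : Finset (X × ℕ)) := by
      have hstep : ∀ t ∈ T', ∀ i j : ℕ, i < j → j < 3 → (σ ^ i) t ≠ (σ ^ j) t := by
        intro t ht i j hij hj heq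
        have hne : t ≠ x0 := (Finset.mem_erase.1 ht).1
        have h2 : (σ ^ (j - i)) t = t := by
          apply (σ ^ i).injective
          rw [← Equiv.Perm.mul_apply, ← pow_add, heq]
          congr 2; omega
        have h3 : j - i = 1 ∨ j - i = 2 := by omega
        rcases h3 with h3 | h3
        · rw [h3, pow_one] at h2
          exact hne (hfix t h2)
        · rw [h3] at h2
          obtain ⟨m, hm⟩ := hp
          have h4 : ∀ m : ℕ, (σ ^ (2 * m)) t = t := by
            intro m
            induction m with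
            | zero => rfl
            | succ m ih => rw [show 2 * (m + 1) = 2 * m + 2 by ring, pow_add, Equiv.Perm.mul_apply, h2, ih]
          have h5 : (σ ^ p) t = t := by rw [hσ]; rfl
          rw [hm, pow_succ', Equiv.Perm.mul_apply, h4] at h5
          exact hne (hfix t h5)
      rintro ⟨t, i⟩ hti ⟨t', j⟩ htj heq
      simp only [Finset.coe_product, Set.mem_prod, Finset.mem_coe, Finset.mem_range] at hti htj
      simp only at heq
      have htt : t = t' := by
        rw [← hTout t (Finset.mem_of_mem_erase hti.1), ← hTout t' (Finset.mem_of_mem_erase htj.1)]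
        congr 1
        apply Quotient.sound
        change Equiv.Perm.SameCycle σ t t'
        have e1 : Equiv.Perm.SameCycle σ t ((σ ^ i) t) := ⟨i, by rw [zpow_natCast]⟩
        have e2 : Equiv.Perm.SameCycle σ t' ((σ ^ j) t') := ⟨j, by rw [zpow_natCast]⟩
        rw [← heq] at e2
        exact e1.trans e2.symm
      subst htt
      rcases lt_trichotomy i j with h | h | h
      · exact absurd heq (hstep t hti.1 i j h htj.2)
      · rw [h]
      · exact absurd heq.symm (hstep t hti.1 j i h hti.2)
    have hsum1 : ∑ z ∈ T' ×ˢ Finset.range 3, f ((σ ^ z.2) z.1) = 3 * ∑ t ∈ T', f t := by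
      rw [Finset.sum_product, Finset.mul_sum]
      refine Finset.sum_congr rfl (fun t _ => ?_)
      simp only [hfpow]
      simp
    have hsum2 : ∑ z ∈ T' ×ˢ Finset.range 3, f ((σ ^ z.2) z.1) =
        ∑ x ∈ (T' ×ˢ Finset.range 3).image (fun z : X × ℕ => (σ ^ z.2) z.1), f x := by
      rw [Finset.sum_image hinj]
    have hnot : x0 ∉ (T' ×ˢ Finset.range 3).image (fun z : X × ℕ => (σ ^ z.2) z.1) := by
      rw [Finset.mem_image]
      rintro ⟨⟨t, i⟩, hti, heq⟩
      simp only [Finset.mem_product] at hti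
      simp only at heq
      have : t = x0 := (σ ^ i).injective (by rw [heq, hx0pow])
      exact (Finset.mem_erase.1 hti.1).1 this
    have hsum3 : f x0 + ∑ x ∈ (T' ×ˢ Finset.range 3).image (fun z : X × ℕ => (σ ^ z.2) z.1), f x ≤ ∑ x, f x := by
      rw [← Finset.sum_insert hnot]
      exact Finset.sum_le_sum_of_subset (Finset.subset_univ _)
    have hx1 : f x0 ≤ ∑ t ∈ T', f t := by
      obtain ⟨k, hk⟩ := hsame x1
      have h2 : f (out (Quotient.mk s x1)) = f x1 := by
        conv_rhs => rw [← hk]
        rw [hfpow]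
      have h3 : out (Quotient.mk s x1) ∈ T' := by
        refine Finset.mem_erase.2 ⟨?_, Finset.mem_image_of_mem _ (Finset.mem_univ _)⟩
        intro h4
        rw [h4, hx0pow] at hk
        exact h1 hk.symm
      calc f x0 ≤ f x1 := h01
        _ = f (out (Quotient.mk s x1)) := h2.symm
        _ ≤ ∑ t ∈ T', f t := Finset.single_le_sum (fun _ _ => Nat.zero_le _) h3
    omega

end Cfsg.Agent.Lib.ExEig
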