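import Cfsg.Agent.Lib.ExEig2
set_option autoImplicit false
set_option linter.unusedSectionVars false

namespace Cfsg.Agent.Lib.ExEig

open Module

section chars

variable {F V : Type*} [Field F] [AddCommGroup V] [Module F V]
variable {D : Type*} [CommGroup D] [Fintype D] (ρ : D →* Module.End F V)

/-- weight spaces -/
def wt (χ : D →* Fˣ) : Submodule F V := ⨅ a : D, (ρ a).eigenspace ((χ a : Fˣ) : F)

lemma mem_wt (χ : D →* Fˣ) (v : V) : v ∈ wt ρ χ ↔ ∀ a : D, ρ a v = ((χ a : Fˣ) : F) • v := by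
  simp [wt, Module.End.mem_eigenspace_iff]

/-- projections to the weight spaces -/
noncomputable def pr (χ : D →* Fˣ) : Module.End F V :=
  (Fintype.card D : F)⁻¹ • ∑ a : D, (((χ a)⁻¹ : Fˣ) : F) • ρ a

lemma pr_apply (χ : D →* Fˣ) (v : V) :
    pr ρ χ v = (Fintype.card D : F)⁻¹ • ∑ a : D, (((χ a)⁻¹ : Fˣ) : F) • ρ a v := by
  simp [pr, LinearMap.sum_apply]

lemma pr_mem (χ : D →* Fˣ) (v : V) : pr ρ χ v ∈ wt ρ χ := by
  rw [mem_wt]
  intro b
  rw [pr_apply, map_smul, map_sum, smul_comm]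
  congr 1
  rw [Finset.smul_sum]
  refine Fintype.sum_equiv (Equiv.mulLeft b) _ _ (fun a => ?_)
  rw [map_smul, ← Module.End.mul_apply, ← map_mul, Equiv.coe_mulLeft, smul_smul]
  congr 1
  rw [← Units.val_mul]
  congr 1
  rw [map_mul, mul_inv]
  group

lemma pr_of_mem {χ : D →* Fˣ} (hD : (Fintype.card D : F) ≠ 0) {v : V} (hv : v ∈ wt ρ χ) : pr ρ χ v = v := by
  rw [mem_wt] at hv
  rw [pr_apply]
  have h1 : ∀ a ∈ (Finset.univ : Finset D), (((χ a)⁻¹ : Fˣ) : F) • ρ a v = v := by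
    intro a _
    rw [hv, smul_smul, ← Units.val_mul, inv_mul_cancel, Units.val_one, one_smul]
  rw [Finset.sum_congr rfl h1, Finset.sum_const, Finset.card_univ, ← Nat.cast_smul_eq_nsmul F, smul_smul,
    inv_mul_cancel₀ hD, one_smul]

lemma pr_of_mem_ne {χ ψ : D →* Fˣ} (h : χ ≠ ψ) {v : V} (hv : v ∈ wt ρ χ) : pr ρ ψ v = 0 := by
  rw [mem_wt] at hv
  rw [pr_apply]
  have h1 : ∀ a ∈ (Finset.univ : Finset D), (((ψ a)⁻¹ : Fˣ) : F) • ρ a v =
      (((Units.coeHom F).comp (χ * ψ⁻¹)) a) • v := by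
    intro a _
    rw [hv, smul_smul, ← Units.val_mul]
    congr 1
    simp [mul_comm]
  rw [Finset.sum_congr rfl h1, ← Finset.sum_smul, sum_hom_units_eq_zero, zero_smul, smul_zero]
  intro h2
  apply h
  ext a
  have h3 := DFunLike.congr_fun h2 a
  have h4 : ((χ a * (ψ a)⁻¹ : Fˣ) : F) = ((1 : Fˣ) : F) := by simpa using h3
  have h5 := Units.ext h4
  rw [mul_inv_eq_one] at h5
  rw [h5]

variable [Fintype (D →* Fˣ)]

lemma sum_pr (hD : (Fintype.card D : F) ≠ 0) [HasEnoughRootsOfUnity F (Monoid.exponent D)] (v : V) :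
    ∑ χ : D →* Fˣ, pr ρ χ v = v := by
  have h1 : ∑ χ : D →* Fˣ, pr ρ χ v = (Fintype.card D : F)⁻¹ •
      ∑ a : D, (∑ χ : D →* Fˣ, (((χ a)⁻¹ : Fˣ) : F)) • ρ a v := by
    simp only [pr_apply]
    rw [← Finset.smul_sum, Finset.sum_comm]
    simp only [Finset.sum_smul]
  rw [h1, Finset.sum_eq_single (1 : D)]
  · have h2 : (∑ χ : D →* Fˣ, (((χ 1)⁻¹ : Fˣ) : F)) = (Fintype.card D : F) := by
      simp only [map_one, inv_one, Units.val_one, Finset.sum_const, Finset.card_univ, nsmul_eq_mul, mul_one]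
      congr 1
      rw [← Nat.card_eq_fintype_card, ← Nat.card_eq_fintype_card]
      exact CommGroup.card_monoidHom_of_hasEnoughRootsOfUnity D F
    rw [h2, map_one, smul_smul, inv_mul_cancel₀ hD, one_smul]
    rfl
  · intro a _ ha
    obtain ⟨φ, hφ⟩ := CommGroup.exists_apply_ne_one_of_hasEnoughRootsOfUnity D F ha
    have h3 := sum_hom_units_eq_zero (G := D →* Fˣ) (R := F)
      ((Units.coeHom F).comp (MonoidHom.eval a)) (by
        intro h4
        have h5 := DFunLike.congr_fun h4 φ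
        apply hφ
        apply Units.ext
        simpa using h5)
    have h6 : (∑ χ : D →* Fˣ, (((χ a)⁻¹ : Fˣ) : F)) = 0 := by
      rw [← h3]
      refine Fintype.sum_equiv (Equiv.inv (D →* Fˣ)) _ _ (fun χ => ?_)
      simp
    rw [h6, zero_smul]
  · intro h; exact absurd (Finset.mem_univ _) h

end chars

end Cfsg.Agent.Lib.ExEig
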