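import Cfsg.Agent.Lib.ExEig3
set_option autoImplicit false
set_option linter.unusedSectionVars false
set_option linter.style.haveILetI false

namespace Cfsg.Agent.Lib.ExEig

open Module

section chars

variable {F V : Type*} [Field F] [AddCommGroup V] [Module F V] [FiniteDimensional F V]
variable {D : Type*} [CommGroup D] [Fintype D] (ρ : D →* Module.End F V)
variable [Fintype (D →* Fˣ)]

lemma sum_wt_le (hD : (Fintype.card D : F) ≠ 0) :
    ∑ χ : D →* Fˣ, finrank F (wt ρ χ) ≤ finrank F V := by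
  classical
  rw [← Module.finrank_pi_fintype F]
  let L : (Π χ : D →* Fˣ, wt ρ χ) →ₗ[F] V :=
    ∑ χ : D →* Fˣ, (wt ρ χ).subtype ∘ₗ LinearMap.proj χ
  have hL : ∀ f, L f = ∑ χ : D →* Fˣ, (f χ : V) := fun f => by simp [L, LinearMap.sum_apply]
  refine LinearMap.finrank_le_finrank_of_injective (f := L) ?_
  rw [← LinearMap.ker_eq_bot, Submodule.eq_bot_iff]
  intro f hf
  rw [LinearMap.mem_ker, hL] at hf
  funext ψ
  apply Subtype.ext
  have h1 : pr ρ ψ (∑ χ : D →* Fˣ, (f χ : V)) = (f ψ : V) := by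
    rw [map_sum, Finset.sum_eq_single ψ]
    · exact pr_of_mem ρ hD (f ψ).2
    · intro χ _ h
      exact pr_of_mem_ne ρ h (f χ).2
    · intro h; exact absurd (Finset.mem_univ _) h
  rw [hf, map_zero] at h1
  exact h1.symm

/-- the main counting lemma in the coprime abelian case -/
theorem abelian_case {r p : ℕ} (hr : r.Prime) {ω : F} (hω : IsPrimitiveRoot ω r) (hexp : ∀ a : D, a ^ r = 1)
    (hp : Odd p) (α : D ≃* D) (hα : ∀ a : D, (α : D → D)^[p] a = a) (hfix : ∀ a, α a = a → a = 1)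
    (u : Module.End F V) (hu : Function.Injective u) (hαu : ∀ a v, ρ (α a) (u v) = u (ρ a v))
    (χ₀ : D →* Fˣ) (hχ₀ : χ₀ ≠ 1) (h : Module.End F V) (hh : Function.Injective h)
    (hhχ : ∀ a v, ρ a (h v) = ((χ₀ a : Fˣ) : F) • h (ρ a v)) (c : F) :
    2 * finrank F (u.eigenspace c) ≤ finrank F V := by
  classical
  have hr0 : (r : F) ≠ 0 := by
    have : NeZero r := ⟨hr.ne_zero⟩
    exact (hω.neZero').out
  have hD : (Fintype.card D : F) ≠ 0 := by
    have hpg : IsPGroup r D := fun a => ⟨1, by rw [pow_one]; exact hexp a⟩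
    have : Fact r.Prime := ⟨hr⟩
    obtain ⟨k, hk⟩ := IsPGroup.iff_card.1 hpg
    rw [← Nat.card_eq_fintype_card, hk, Nat.cast_pow]
    exact pow_ne_zero _ hr0
  have : NeZero r := ⟨hr.ne_zero⟩
  have hE0 : HasEnoughRootsOfUnity F r := ⟨⟨ω, hω⟩, inferInstance⟩
  have hE : HasEnoughRootsOfUnity F (Monoid.exponent D) :=
    HasEnoughRootsOfUnity.of_dvd F (Monoid.exponent_dvd_of_forall_pow_eq_one hexp)
  by_cases hc : c = 0
  · subst hc
    have : u.eigenspace 0 = ⊥ := by
      rw [Submodule.eq_bot_iff]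
      intro v hv
      rw [Module.End.mem_eigenspace_iff, zero_smul] at hv
      exact hu (by rw [hv, map_zero])
    rw [this]; simp
  -- the permutation of the characters
  let σ : Equiv.Perm (D →* Fˣ) :=
    { toFun := fun χ => χ.comp α.symm.toMonoidHom
      invFun := fun χ => χ.comp α.toMonoidHom
      left_inv := fun χ => by ext a; simp
      right_inv := fun χ => by ext a; simp }
  have hσa : ∀ χ a, σ χ (α a) = χ a := fun χ a => by
    change χ (α.symm (α a)) = χ a
    rw [MulEquiv.symm_apply_apply]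
  have hσpow : ∀ (k : ℕ) χ a, (σ ^ k) χ ((α : D → D)^[k] a) = χ a := by
    intro k
    induction k with
    | zero => intro χ a; rfl
    | succ k ih =>
      intro χ a
      rw [pow_succ', Equiv.Perm.mul_apply, Function.iterate_succ_apply']
      have := hσa ((σ ^ k) χ) ((α : D → D)^[k] a)
      rw [this, ih]
  have hσp : σ ^ p = 1 := by
    ext χ a
    have h1 := hσpow p χ a
    rw [hα] at h1
    rw [h1]; rfl
  have hσ1 : σ 1 = 1 := by ext a; rfl
  have hσfix : ∀ χ, σ χ = χ → χ = 1 := by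
    intro χ hχ
    have h1 : ∀ a, χ (α a) = χ a := fun a => by
      conv_lhs => rw [← hχ]
      exact hσa χ a
    let θ : D →* D := MonoidHom.mk' (fun a => α a * a⁻¹) (fun a b => by
      rw [map_mul, mul_inv_rev, mul_comm b⁻¹ a⁻¹]
      exact mul_mul_mul_comm _ _ _ _)
    have hθ : Function.Injective θ := by
      rw [injective_iff_map_eq_one]
      intro a ha
      exact hfix a (mul_inv_eq_one.1 ha)
    have hθs := Finite.injective_iff_surjective.1 hθ
    ext b
    obtain ⟨a, rfl⟩ := hθs b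
    change ((χ (α a * a⁻¹) : Fˣ) : F) = _
    rw [map_mul, h1, ← map_mul, mul_inv_cancel, map_one]
    rfl
  -- dimension invariance
  have hpr : ∀ χ v, u (pr ρ χ v) = pr ρ (σ χ) (u v) := by
    intro χ v
    rw [pr_apply, pr_apply, map_smul, map_sum]
    congr 1
    refine Fintype.sum_equiv α.toEquiv _ _ (fun a => ?_)
    change _ = (((σ χ (α a))⁻¹ : Fˣ) : F) • ρ (α a) (u v)
    rw [hσa, hαu, map_smul]
  have hle : ∀ χ, finrank F (wt ρ χ) ≤ finrank F (wt ρ (σ χ)) := by
    intro χ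
    have h1 : (wt ρ χ).map u ≤ wt ρ (σ χ) := by
      rintro _ ⟨v, hv, rfl⟩
      have h2 : u v = pr ρ (σ χ) (u v) := by rw [← hpr, pr_of_mem ρ hD hv]
      rw [h2]
      exact pr_mem ρ _ _
    rw [(Submodule.equivMapOfInjective u hu (wt ρ χ)).finrank_eq]
    exact Submodule.finrank_mono h1
  have hlek : ∀ (k : ℕ) χ, finrank F (wt ρ χ) ≤ finrank F (wt ρ ((σ ^ k) χ)) := by
    intro k
    induction k with
    | zero => intro χ; exact le_rfl
    | succ k ih => intro χ; rw [pow_succ', Equiv.Perm.mul_apply]; exact (ih χ).trans (hle _)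
  have hfeq : ∀ χ, finrank F (wt ρ (σ χ)) = finrank F (wt ρ χ) := by
    intro χ
    refine le_antisymm ?_ (hle χ)
    have h1 := hlek (p - 1) (σ χ)
    rw [← Equiv.Perm.mul_apply, ← pow_succ, Nat.sub_add_cancel hp.pos, hσp] at h1
    exact h1
  have h01 : finrank F (wt ρ (1 : D →* Fˣ)) ≤ finrank F (wt ρ χ₀) := by
    have h1 : (wt ρ (1 : D →* Fˣ)).map h ≤ wt ρ χ₀ := by
      rintro _ ⟨v, hv, rfl⟩
      rw [SetLike.mem_coe, mem_wt] at hv
      rw [mem_wt]
      intro a
      rw [hhχ, hv]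
      simp
    rw [(Submodule.equivMapOfInjective h hh (wt ρ 1)).finrank_eq]
    exact Submodule.finrank_mono h1
  obtain ⟨T, hT, hT2⟩ := exists_transversal σ hp hσp 1 χ₀ hσfix hσ1 hχ₀ (fun χ => finrank F (wt ρ χ)) hfeq h01
  refine le_trans ?_ (hT2.trans (sum_wt_le ρ hD))
  refine Nat.mul_le_mul_left 2 ?_
  -- the injection
  rw [← Finset.sum_coe_sort T (fun χ => finrank F (wt ρ χ)), ← Module.finrank_pi_fintype F]
  let L : (u.eigenspace c) →ₗ[F] (Π t : T, wt ρ (t : D →* Fˣ)) :=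
    LinearMap.pi (fun t => (LinearMap.codRestrict (wt ρ (t : D →* Fˣ)) (pr ρ (t : D →* Fˣ)) (pr_mem ρ _)) ∘ₗ
      (u.eigenspace c).subtype)
  have hL : ∀ w (t : T), ((L w t : wt ρ (t : D →* Fˣ)) : V) = pr ρ (t : D →* Fˣ) (w : V) := fun w t => rfl
  refine LinearMap.finrank_le_finrank_of_injective (f := L) ?_
  rw [← LinearMap.ker_eq_bot, Submodule.eq_bot_iff]
  rintro w hw
  rw [LinearMap.mem_ker] at hw
  have hw1 : ∀ t ∈ T, pr ρ t (w : V) = 0 := by
    intro t ht
    rw [← hL w ⟨t, ht⟩, hw]; rfl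
  have hw2 : ∀ (k : ℕ) χ, pr ρ χ (w : V) = 0 → pr ρ ((σ ^ k) χ) (w : V) = 0 := by
    intro k
    induction k with
    | zero => intro χ h; exact h
    | succ k ih =>
      intro χ hχ
      rw [pow_succ', Equiv.Perm.mul_apply]
      have h1 := hpr ((σ ^ k) χ) (w : V)
      rw [ih χ hχ, map_zero, Module.End.mem_eigenspace_iff.1 w.2, map_smul] at h1
      exact (smul_eq_zero.1 h1.symm).resolve_left hc
  apply Subtype.ext
  rw [← sum_pr ρ hD (w : V)]
  change _ = (0 : V)
  refine Finset.sum_eq_zero (fun χ _ => ?_)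
  obtain ⟨t, ht, k, hk⟩ := hT χ
  rw [← hk]
  exact hw2 k t (hw1 t ht)

end chars

end Cfsg.Agent.Lib.ExEig
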