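import Cfsg.Agent.Lib.ExEig4
set_option autoImplicit false
set_option linter.unusedSectionVars false
set_option linter.style.haveILetI false

namespace Cfsg.Agent.Lib.ExEig

open Module

/-- combinatorial lemma -/
lemma grid {r n : ℕ} [Fact r.Prime] (hr : 5 ≤ r) (a : ZMod r) (d : ZMod r → ZMod r → ℕ)
    (hd : ∀ i j, d (i + a) (j + i + a) = d i j) (hrow : ∀ i, r * ∑ j, d i j ≤ n) (j₀ : ZMod r) :
    2 * ∑ i, d i j₀ ≤ n := by
  classical
  have h2 : (2 : ZMod r) ≠ 0 := by
    intro h
    have : (r : ℕ) ∣ 2 := (ZMod.natCast_eq_zero_iff 2 r).1 (by exact_mod_cast h)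
    have := Nat.le_of_dvd (by norm_num) this
    omega
  by_cases ha : a = 0
  · subst ha
    simp only [add_zero] at hd
    have hk : ∀ i (k : ℕ) j, d i (j + k * i) = d i j := by
      intro i k
      induction k with
      | zero => intro j; simp
      | succ k ih =>
        intro j
        rw [Nat.cast_succ, add_mul, one_mul, ← add_assoc, hd, ih]
    have hi : ∀ i, i ≠ 0 → r * (r * d i j₀) ≤ n := by
      intro i hi0
      have h3 : ∑ j, d i j = r * d i j₀ := by
        have h4 : ∀ j, d i j = d i j₀ := by
          intro j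
          have h5 := hk i ((j - j₀) / i).val j₀
          rw [ZMod.natCast_zmod_val, div_mul_cancel₀ _ hi0, add_sub_cancel] at h5
          exact h5
        rw [Finset.sum_congr rfl (fun j _ => h4 j), Finset.sum_const, Finset.card_univ, ZMod.card]
        rfl
      rw [← h3]; exact hrow i
    have h0 : r * d 0 j₀ ≤ n := by
      refine le_trans (Nat.mul_le_mul_left r ?_) (hrow 0)
      exact Finset.single_le_sum (f := fun j => d 0 j) (fun _ _ => Nat.zero_le _) (Finset.mem_univ j₀)
    have h6 : r * (r * ∑ i, d i j₀) ≤ r * n + (r - 1) * n := by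
      rw [← Finset.add_sum_erase Finset.univ (fun i => d i j₀) (Finset.mem_univ 0)]
      rw [mul_add, mul_add]
      refine Nat.add_le_add (Nat.mul_le_mul_left r h0) ?_
      rw [Finset.mul_sum, Finset.mul_sum]
      refine (Finset.sum_le_card_nsmul _ _ n (fun i hi' => hi i (Finset.ne_of_mem_erase hi'))).trans ?_
      rw [Finset.card_erase_of_mem (Finset.mem_univ _), Finset.card_univ, ZMod.card]
      rfl
    have h7 : r * r * (2 * ∑ i, d i j₀) ≤ r * r * n := by
      obtain ⟨s, rfl⟩ : ∃ s, r = s + 5 := ⟨r - 5, by omega⟩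
      have h8 : (s + 5 - 1) = s + 4 := by omega
      rw [h8] at h6
      have h9 : (4 * s + 18) * n ≤ (s + 5) * (s + 5) * n := Nat.mul_le_mul_right _ (by nlinarith)
      calc (s + 5) * (s + 5) * (2 * ∑ i, d i j₀) = 2 * ((s + 5) * ((s + 5) * ∑ i, d i j₀)) := by ring
        _ ≤ 2 * ((s + 5) * n + (s + 4) * n) := Nat.mul_le_mul_left 2 h6
        _ = (4 * s + 18) * n := by ring
        _ ≤ _ := h9
    exact Nat.le_of_mul_le_mul_left h7 (by positivity)
  · -- quadratic case
    have hk : ∀ (k : ℕ) i j, d (i + k * a) (j + k * i + a * (k * (k + 1)) / 2) = d i j := by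
      intro k
      induction k with
      | zero => intro i j; simp
      | succ k ih =>
        intro i j
        rw [← ih i j, ← hd (i + k * a)]
        congr 1
        · push_cast; ring
        · push_cast; field_simp; ring
    set φ : ZMod r → ZMod r := fun i => j₀ + (-i / a) * i + a * ((-i / a) * ((-i / a) + 1)) / 2 with hφ
    have hdφ : ∀ i, d i j₀ = d 0 (φ i) := by
      intro i
      have h3 := hk (-i / a).val i j₀
      rw [ZMod.natCast_zmod_val, div_mul_cancel₀ _ ha, add_neg_cancel] at h3
      exact h3.symm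
    have hfib : ∀ i i', φ i = φ i' → i' = i ∨ i' = - a - i := by
      intro i i' h
      simp only [hφ] at h
      have h4 : (i' - i) * (i' - (-a - i)) = 0 := by
        have h5 : j₀ + (-i / a) * i + a * ((-i / a) * ((-i / a) + 1)) / 2 =
            j₀ - i * (i + a) / (2 * a) := by field_simp; ring
        have h6 : j₀ + (-i' / a) * i' + a * ((-i' / a) * ((-i' / a) + 1)) / 2 =
            j₀ - i' * (i' + a) / (2 * a) := by field_simp; ring
        rw [h5, h6] at h
        have h7 : i * (i + a) / (2 * a) = i' * (i' + a) / (2 * a) := sub_right_injective h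
        have h8 : i * (i + a) = i' * (i' + a) := by
          rw [div_left_inj' (mul_ne_zero h2 ha)] at h7
          exact h7
        linear_combination (-1 : ZMod r) * h8
      rcases mul_eq_zero.1 h4 with h5 | h5
      · left; exact sub_eq_zero.1 h5
      · right; exact sub_eq_zero.1 h5
    have hcard : ∀ s, (Finset.univ.filter (fun i => φ i = s)).card ≤ 2 := by
      intro s
      rcases (Finset.univ.filter (fun i => φ i = s)).eq_empty_or_nonempty with h | ⟨i, hi⟩
      · rw [h]; simp
      · have hsub : (Finset.univ.filter (fun i => φ i = s)) ⊆ {i, -a - i} := by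
          intro i' hi'
          rw [Finset.mem_filter] at hi hi'
          rw [Finset.mem_insert, Finset.mem_singleton]
          exact hfib i i' (hi.2.trans hi'.2.symm)
        exact (Finset.card_le_card hsub).trans Finset.card_le_two
    have hsum : ∑ i, d i j₀ ≤ 2 * ∑ s, d 0 s := by
      calc ∑ i, d i j₀ = ∑ i, d 0 (φ i) := Finset.sum_congr rfl (fun i _ => hdφ i)
        _ = ∑ s, ∑ i ∈ Finset.univ.filter (fun i => φ i = s), d 0 (φ i) := by
            rw [Finset.sum_fiberwise]
        _ ≤ ∑ s, 2 * d 0 s := by
            refine Finset.sum_le_sum (fun s _ => ?_)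
            have h3 : ∑ i ∈ Finset.univ.filter (fun i => φ i = s), d 0 (φ i) =
                ∑ i ∈ Finset.univ.filter (fun i => φ i = s), d 0 s :=
              Finset.sum_congr rfl (fun i hi => by rw [(Finset.mem_filter.1 hi).2])
            rw [h3, Finset.sum_const, smul_eq_mul]
            exact Nat.mul_le_mul_right _ (hcard s)
        _ = 2 * ∑ s, d 0 s := by rw [Finset.mul_sum]
    have h0 := hrow 0
    have h4 : 4 * ∑ s, d 0 s ≤ r * ∑ s, d 0 s := Nat.mul_le_mul_right _ (by omega)
    omega

end Cfsg.Agent.Lib.ExEig
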