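import Cfsg.Agent.Lib.ExEig5
set_option autoImplicit false
set_option linter.unusedSectionVars false
set_option linter.style.haveILetI false

namespace Cfsg.Agent.Lib.ExEig

open Module

variable {F V : Type*} [Field F] [AddCommGroup V] [Module F V] [FiniteDimensional F V]
variable {Γ : Type*} [Group Γ] (ρ : Γ →* Module.End F V)

/-- decomposition under an element of order dividing `r` -/
lemma decomp {r : ℕ} [Fact r.Prime] (e : AddChar (ZMod r) F) (he : e.IsPrimitive) (hr0 : (r : F) ≠ 0)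
    (y : Γ) (hy : y ^ r = 1) (w : V) :
    ∃ p : ZMod r → V, (∀ i, p i ∈ (ρ y).eigenspace (e i)) ∧ ∑ i, p i = w ∧
      (∀ W : Submodule F V, (∀ v ∈ W, ρ y v ∈ W) → w ∈ W → ∀ i, p i ∈ W) := by
  classical
  have hyk : ∀ k : ZMod r, ρ y (ρ (y ^ k.val) w) = ρ (y ^ (k + 1).val) w := by
    intro k
    rw [← Module.End.mul_apply, ← map_mul, ← pow_succ']
    congr 2
    rw [ZMod.val_add, ← pow_eq_pow_mod _ hy, pow_succ, pow_add]
    congr 1
    rw [ZMod.val_one'' (Fact.out : r.Prime).ne_one, pow_one]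
  refine ⟨fun i => (r : F)⁻¹ • ∑ k : ZMod r, e (-(i * k)) • ρ (y ^ k.val) w, fun i => ?_, ?_, ?_⟩
  · rw [Module.End.mem_eigenspace_iff, map_smul, map_sum, smul_comm]
    congr 1
    rw [Finset.smul_sum]
    refine Fintype.sum_equiv (Equiv.addRight (1 : ZMod r)) _ _ (fun k => ?_)
    rw [map_smul, hyk, Equiv.coe_addRight, smul_smul, ← AddChar.map_add_eq_mul]
    congr 2
    ring
  · rw [← Finset.smul_sum, Finset.sum_comm]
    have h1 : ∀ k ∈ (Finset.univ : Finset (ZMod r)), ∑ i : ZMod r, e (-(i * k)) • ρ (y ^ k.val) w =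
        if k = 0 then (r : F) • w else 0 := by
      intro k _
      rw [← Finset.sum_smul]
      have h2 := AddChar.sum_mulShift (ψ := e) (-k) he
      simp only [mul_neg, neg_eq_zero] at h2
      rw [h2]
      split_ifs with h3
      · subst h3; simp [ZMod.card]
      · simp
    rw [Finset.sum_congr rfl h1, Finset.sum_ite_eq' Finset.univ (0 : ZMod r), if_pos (Finset.mem_univ _), smul_smul,
      inv_mul_cancel₀ hr0, one_smul]
  · intro W hW hw i
    refine W.smul_mem _ (Submodule.sum_mem _ (fun k _ => W.smul_mem _ ?_))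
    have h3 : ∀ n : ℕ, ρ (y ^ n) w ∈ W := by
      intro n
      induction n with
      | zero => simpa using hw
      | succ n ih => rw [pow_succ', map_mul, Module.End.mul_apply]; exact hW _ ih
    exact h3 _

/-- the case where both primes are equal and at least 5 -/
theorem equal_case {r : ℕ} (hr : r.Prime) (hr5 : 5 ≤ r) {ω : F} (hω : IsPrimitiveRoot ω r) {y g x h : Γ}
    (hy : y ^ r = 1) (hg : g ^ r = 1) (hyg : g * y = y * g) (hgx : g * x = y * x * g) {a b : ℕ}
    (hyx : ρ y * ρ x = ω ^ a • (ρ x * ρ y)) (hyh : ρ y * ρ h = ω ^ b • (ρ h * ρ y)) (hb : ω ^ b ≠ 1) (c : F) :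
    2 * finrank F ((ρ g).eigenspace c) ≤ finrank F V := by
  classical
  haveI : Fact r.Prime := ⟨hr⟩
  haveI : NeZero r := ⟨hr.ne_zero⟩
  have hr0 : (r : F) ≠ 0 := (hω.neZero').out
  have hord : orderOf (ω ^ b) = r := by
    refine orderOf_eq_prime ?_ hb
    rw [← pow_mul, mul_comm, pow_mul, hω.pow_eq_one, one_pow]
  set e : AddChar (ZMod r) F := AddChar.zmodChar r hω.pow_eq_one with he
  have hprim : e.IsPrimitive := AddChar.zmodChar_primitive_of_primitive_root r hω
  have heb : ∀ k : ℕ, e (k : ZMod r) = ω ^ k := fun k => AddChar.zmodChar_apply' _ _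
  -- zero eigenspace unless c is a root of unity
  by_cases hW : (ρ g).eigenspace c = ⊥
  · rw [hW]; simp
  obtain ⟨v, hv, hv0⟩ := (Submodule.ne_bot_iff _).1 hW
  have hcr : c ^ r = 1 := by
    have h1 : ∀ k : ℕ, ρ (g ^ k) v = c ^ k • v := by
      intro k
      induction k with
      | zero => simp
      | succ k ih =>
        rw [pow_succ', map_mul, Module.End.mul_apply, ih, map_smul, Module.End.mem_eigenspace_iff.1 hv, smul_smul,
          pow_succ]
    have h2 := h1 r
    rw [hg, map_one, Module.End.one_apply] at h2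
    have h3 : (c ^ r - 1) • v = 0 := by rw [sub_smul, ← h2, one_smul, sub_self]
    exact sub_eq_zero.1 ((smul_eq_zero.1 h3).resolve_right hv0)
  obtain ⟨l, -, hl⟩ := hω.eq_pow_of_pow_eq_one hcr
  have hcl : e (l : ZMod r) = c := by rw [heb, hl]
  -- the grid
  set E2 : ZMod r → ZMod r → Submodule F V := fun i j => (ρ y).eigenspace (e i) ⊓ (ρ g).eigenspace (e j) with hE2
  set d : ZMod r → ZMod r → ℕ := fun i j => finrank F (E2 i j) with hd
  have hmap : ∀ i j, ∀ v ∈ E2 i j, ρ x v ∈ E2 (i + a) (j + i + a) := by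
    intro i j v hv
    obtain ⟨hv1, hv2⟩ := Submodule.mem_inf.1 hv
    have hx1 : ρ x v ∈ (ρ y).eigenspace (e (i + a)) := by
      have := maps_eig ρ hyx _ hv1
      rwa [← heb, ← AddChar.map_add_eq_mul, add_comm] at this
    refine Submodule.mem_inf.2 ⟨hx1, ?_⟩
    rw [Module.End.mem_eigenspace_iff] at hx1 hv2 ⊢
    rw [← Module.End.mul_apply, ← map_mul, hgx, map_mul, map_mul, Module.End.mul_apply, Module.End.mul_apply, hv2,
      map_smul, map_smul, hx1, smul_smul, ← AddChar.map_add_eq_mul]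
    congr 2
    ring
  have hdle : ∀ z : ZMod r × ZMod r, d z.1 z.2 ≤ d (z.1 + a) (z.2 + z.1 + a) :=
    fun z => finrank_le_of_maps ρ x (hmap z.1 z.2)
  let τ : ZMod r × ZMod r ≃ ZMod r × ZMod r :=
    { toFun := fun z => (z.1 + a, z.2 + z.1 + a)
      invFun := fun z => (z.1 - a, z.2 - z.1)
      left_inv := fun z => by ext <;> simp <;> ring
      right_inv := fun z => by ext <;> simp <;> ring }
  have hdeq : ∀ i j, d (i + a) (j + i + a) = d i j := by
    have h1 : ∑ z : ZMod r × ZMod r, d z.1 z.2 = ∑ z : ZMod r × ZMod r, d (τ z).1 (τ z).2 :=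
      (Equiv.sum_comp τ (fun z => d z.1 z.2)).symm
    have h2 := (Finset.sum_eq_sum_iff_of_le (fun z _ => hdle z)).1 h1
    intro i j
    exact (h2 (i, j) (Finset.mem_univ _)).symm
  have hinj : Function.Injective e := by
    intro i j hij
    have h1 : e (i - j) = 1 := by
      rw [AddChar.map_sub_eq_div, hij, div_self]
      exact (AddChar.val_isUnit e j).ne_zero
    by_contra hne
    have h2 : i - j ≠ 0 := sub_ne_zero.2 hne
    have h3 : ω ^ (i - j).val = 1 := h1
    have h4 := (hω.pow_eq_one_iff_dvd _).1 h3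
    have h5 := Nat.eq_zero_of_dvd_of_lt h4 (ZMod.val_lt _)
    exact h2 ((ZMod.val_eq_zero _).1 h5)
  have hrow : ∀ i, r * ∑ j, d i j ≤ finrank F V := by
    intro i
    have h1 : ∑ j, d i j ≤ finrank F ((ρ y).eigenspace (e i)) := by
      refine sum_finrank_le _ ?_ _ (fun j => inf_le_left)
      exact ((ρ g).eigenspaces_iSupIndep.comp hinj).mono (fun j => inf_le_right)
    have h2 := mul_finrank_eig_le ρ hyh (e i)
    rw [hord] at h2
    exact (Nat.mul_le_mul_left r h1).trans h2
  have hfin := grid hr5 (a : ZMod r) d hdeq hrow (l : ZMod r)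
  refine le_trans (Nat.mul_le_mul_left 2 ?_) hfin
  refine finrank_le_sum Finset.univ (fun i => E2 i l) _ (fun w hw => ?_)
  obtain ⟨p, hp1, hp2, hp3⟩ := decomp ρ e hprim hr0 y hy w
  refine ⟨p, fun i _ => Submodule.mem_inf.2 ⟨hp1 i, ?_⟩, hp2⟩
  refine hp3 _ (fun v hv => ?_) ?_ i
  · rw [Module.End.mem_eigenspace_iff] at hv ⊢
    rw [← Module.End.mul_apply, ← map_mul, hyg, map_mul, Module.End.mul_apply, hv, map_smul]
  · rw [hcl]; exact hw

end Cfsg.Agent.Lib.ExEig
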