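import Cfsg.Agent.Lib.ExEig6
set_option autoImplicit false
set_option linter.unusedSectionVars false
set_option linter.style.haveILetI false

namespace Cfsg.Agent.Lib.ExEig

open Module

lemma nil_aux {p : ℕ} [Fact p.Prime] {M : Type*} [AddCommGroup M] [Module (ZMod p) M] (α : M →+ M)
    (hα : ∀ a, (α : M → M)^[p] a = a) (x : M) : ((fun a => α a - a)^[p]) x = 0 := by
  let A : M →ₗ[ZMod p] M := AddMonoidHom.toZModLinearMap p α
  have hAp : ∀ (m : ℕ) (a : M), ((A ^ m : Module.End (ZMod p) M)) a = (α : M → M)^[m] a := by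
    intro m
    induction m with
    | zero => intro a; rfl
    | succ m ih => intro a; rw [pow_succ', Module.End.mul_apply, ih, Function.iterate_succ_apply']; rfl
  have hA : A ^ p = 1 := by
    ext a
    rw [hAp, hα]; rfl
  have hBp : ∀ (m : ℕ) (a : M), ((A - 1) ^ m : Module.End (ZMod p) M) a = (fun a : M => α a - a)^[m] a := by
    intro m
    induction m with
    | zero => intro a; rfl
    | succ m ih =>
      intro a
      rw [pow_succ', Module.End.mul_apply, ih, Function.iterate_succ_apply']
      rfl
  have hpoly : ((Polynomial.X : Polynomial (ZMod p)) - 1) ^ p = Polynomial.X ^ p - 1 := by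
    rw [sub_pow_char, one_pow]
  have h1 : (A - 1) ^ p = A ^ p - 1 := by
    have := congrArg (Polynomial.aeval A) hpoly
    simpa using this
  rw [← hBp, h1, hA, sub_self]
  rfl

lemma iterate_comm_eq_one {P : Type*} [CommGroup P] {r : ℕ} (hr : r.Prime) (hexp : ∀ a : P, a ^ r = 1)
    (α : P ≃* P) (hα : ∀ a, (α : P → P)^[r] a = a) (k : P) : (fun a : P => α a * a⁻¹)^[r] k = 1 := by
  haveI : Fact r.Prime := ⟨hr⟩
  letI : Module (ZMod r) (Additive P) := AddCommGroup.zmodModule (n := r) (fun x => by
    apply Additive.toMul.injective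
    rw [toMul_nsmul]; exact hexp _)
  have key := nil_aux (p := r) (M := Additive P) (MonoidHom.toAdditive α.toMonoidHom) (fun a => hα a.toMul)
    (Additive.ofMul k)
  have h2 : ∀ m : ℕ, ((fun a : Additive P => (MonoidHom.toAdditive α.toMonoidHom) a - a)^[m]) (Additive.ofMul k) =
      Additive.ofMul ((fun a : P => α a * a⁻¹)^[m] k) := by
    intro m
    induction m with
    | zero => rfl
    | succ m ih => rw [Function.iterate_succ_apply', ih, Function.iterate_succ_apply', ← div_eq_mul_inv]; rfl
  rw [h2] at key
  exact key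

end Cfsg.Agent.Lib.ExEig
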