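import Cfsg.Agent.Lib.ExEig7
import Cfsg.Agent.Lib.AschExtra
set_option autoImplicit false
set_option linter.unusedSectionVars false
set_option linter.style.haveILetI false

namespace Cfsg.Agent.Lib.ExEig

open Module Cfsg Cfsg.Geo
open scoped MatrixGroups

variable {n : ℕ} {F : Type*} [Field F]

/-- the natural action -/
noncomputable def gl (n : ℕ) (F : Type*) [Field F] : GL (Fin n) F →* Module.End F (Fin n → F) where
  toFun g := Matrix.toLin' (g : Matrix (Fin n) (Fin n) F)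
  map_one' := by rw [Units.val_one, Matrix.toLin'_one]; rfl
  map_mul' a b := by rw [Units.val_mul, Matrix.toLin'_mul]; rfl

lemma gl_injective : Function.Injective (gl n F) := fun _ _ h => Units.ext (Matrix.toLin'.injective h)

lemma gl_scalar {z : GL (Fin n) F} (hz : z ∈ scalars (Fin n) F) : ∃ c : Fˣ, gl n F z = (c : F) • 1 := by
  obtain ⟨c, hc⟩ := (mem_scalars_iff z).1 hz
  refine ⟨c, ?_⟩
  change Matrix.toLin' (z : Matrix (Fin n) (Fin n) F) = _
  rw [hc, map_smul, Matrix.toLin'_one]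
  rfl

/-- group-theoretic data -/
structure Ctx (N : Subgroup (GL (Fin n) F)) (r : ℕ) : Prop where
  pr : r.Prime
  n0 : 0 < n
  comm : ∀ a ∈ N, ∀ b ∈ N, a * b * a⁻¹ * b⁻¹ ∈ scalars (Fin n) F
  pow : ∀ a ∈ N, a ^ r ∈ scalars (Fin n) F
  cent : ∀ a ∈ N, a ∉ scalars (Fin n) F → ∃ h ∈ N, a * h ≠ h * a

variable {N : Subgroup (GL (Fin n) F)} {r : ℕ}

lemma scalar_central {z : GL (Fin n) F} (hz : z ∈ scalars (Fin n) F) (g : GL (Fin n) F) : z * g = g * z :=
  Cfsg.Agent.Lib.AschExtra.scalar_comm hz g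

lemma Ctx.lam (C : Ctx N r) {a h : GL (Fin n) F} (ha : a ∈ N) (hh : h ∈ N) :
    ∃ c : Fˣ, gl n F a * gl n F h = (c : F) • (gl n F h * gl n F a) ∧ (c : F) ^ r = 1 ∧ (a * h ≠ h * a → (c : F) ≠ 1) := by
  haveI : Nonempty (Fin n) := ⟨⟨0, C.n0⟩⟩
  obtain ⟨c, hc⟩ := gl_scalar (C.comm a ha h hh)
  have h1 : gl n F a * gl n F h = (c : F) • (gl n F h * gl n F a) := by
    have h2 : a * h = (a * h * a⁻¹ * h⁻¹) * (h * a) := by group
    rw [← map_mul, h2, map_mul, hc, smul_mul_assoc, one_mul, map_mul]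
  have hpow : ∀ m : ℕ, gl n F (a ^ m) * gl n F h = (c : F) ^ m • (gl n F h * gl n F (a ^ m)) := by
    intro m
    induction m with
    | zero => simp
    | succ m ih =>
      rw [pow_succ', map_mul, mul_assoc, ih, mul_smul_comm, ← mul_assoc, h1, smul_mul_assoc, smul_smul, mul_assoc,
        pow_succ]
  refine ⟨c, h1, ?_, ?_⟩
  · have h3 := hpow r
    rw [← map_mul, scalar_central (C.pow a ha) h, map_mul] at h3
    rw [← map_mul] at h3
    have hv0 : (fun _ : Fin n => (1 : F)) ≠ 0 := fun h0 => one_ne_zero (congrFun h0 ⟨0, C.n0⟩)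
    have h4 : gl n F (h * a ^ r) (fun _ : Fin n => (1 : F)) =
        (c : F) ^ r • gl n F (h * a ^ r) (fun _ : Fin n => (1 : F)) := LinearMap.congr_fun h3 _
    have h5 : gl n F (h * a ^ r) (fun _ : Fin n => (1 : F)) ≠ 0 := fun h0 =>
      hv0 (inj (gl n F) (h * a ^ r) (by rw [h0, map_zero]))
    have h6 : ((c : F) ^ r - 1) • gl n F (h * a ^ r) (fun _ : Fin n => (1 : F)) = 0 := by
      rw [sub_smul, one_smul, ← h4, sub_self]
    exact sub_eq_zero.1 ((smul_eq_zero.1 h6).resolve_right h5)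
  · intro hne hc1
    rw [hc1, one_smul, ← map_mul, ← map_mul] at h1
    exact hne (gl_injective h1)

lemma Ctx.exists_lam (C : Ctx N r) {a : GL (Fin n) F} (ha : a ∈ N) (has : a ∉ scalars (Fin n) F) :
    ∃ h ∈ N, ∃ c : Fˣ, gl n F a * gl n F h = (c : F) • (gl n F h * gl n F a) ∧ (c : F) ^ r = 1 ∧ (c : F) ≠ 1 := by
  obtain ⟨h, hh, hne⟩ := C.cent a ha has
  obtain ⟨c, h1, h2, h3⟩ := C.lam ha hh
  exact ⟨h, hh, c, h1, h2, h3 hne⟩

/-- the translate trick, pointwise -/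
lemma translate {g x k : GL (Fin n) F} (hk : g * x = k * x * g) {c : F} {v : Fin n → F}
    (hv : v ∈ (gl n F g).eigenspace c ⊓ ((gl n F g).eigenspace c).map (gl n F x)) : gl n F k v = v := by
  by_cases hc : c = 0
  · subst hc
    have h1 := (Submodule.mem_inf.1 hv).1
    rw [eig_zero, Submodule.mem_bot] at h1
    rw [h1, map_zero]
  obtain ⟨h1, u, hu, rfl⟩ := Submodule.mem_inf.1 hv
  rw [Module.End.mem_eigenspace_iff] at h1
  have hu' := Module.End.mem_eigenspace_iff.1 hu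
  have h2 : gl n F g (gl n F x u) = gl n F k (gl n F x (gl n F g u)) := by
    rw [← Module.End.mul_apply, ← map_mul, hk, map_mul, map_mul, Module.End.mul_apply, Module.End.mul_apply]
  rw [h1, hu', map_smul, map_smul] at h2
  exact (smul_right_injective _ hc h2).symm

lemma scalar_fix {z : GL (Fin n) F} (hz : z ∈ scalars (Fin n) F) {v : Fin n → F} (hv : v ≠ 0)
    (h : gl n F z v = v) : z = 1 := by
  obtain ⟨c, hc⟩ := gl_scalar hz
  rw [hc, LinearMap.smul_apply, Module.End.one_apply] at h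
  have h1 : ((c : F) - 1) • v = 0 := by rw [sub_smul, h, one_smul, sub_self]
  have h2 := sub_eq_zero.1 ((smul_eq_zero.1 h1).resolve_right hv)
  apply gl_injective
  rw [hc, h2, one_smul, map_one]

/-- the pointwise stabiliser in N of the intersection -/
lemma Ctx.exists_P (C : Ctx N r) {g x : GL (Fin n) F} (hgN : ∀ a ∈ N, g * a * g⁻¹ ∈ N)
    (hgN' : ∀ a ∈ N, g⁻¹ * a * g ∈ N) (hx : x ∈ N) {c : F}
    (hK : (gl n F g).eigenspace c ⊓ ((gl n F g).eigenspace c).map (gl n F x) ≠ ⊥) :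
    ∃ P : Subgroup (GL (Fin n) F), P ≤ N ∧ g * x * g⁻¹ * x⁻¹ ∈ P ∧ (∀ a ∈ P, ∀ b ∈ P, a * b = b * a) ∧
      (∀ a ∈ P, a ^ r = 1) ∧ (∀ a ∈ P, a ∈ scalars (Fin n) F → a = 1) ∧ (∀ a ∈ P, g * a * g⁻¹ ∈ P) ∧
      (∀ a ∈ P, g⁻¹ * a * g ∈ P) := by
  set K := (gl n F g).eigenspace c ⊓ ((gl n F g).eigenspace c).map (gl n F x) with hKdef
  obtain ⟨v0, hv0, hv0'⟩ := (Submodule.ne_bot_iff _).1 hK
  have hc : c ≠ 0 := by
    rintro rfl
    have h1 := (Submodule.mem_inf.1 hv0).1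
    rw [eig_zero, Submodule.mem_bot] at h1
    exact hv0' h1
  let P : Subgroup (GL (Fin n) F) :=
    { carrier := {a | a ∈ N ∧ ∀ v ∈ K, gl n F a v = v}
      one_mem' := ⟨N.one_mem, fun v _ => by rw [map_one]; rfl⟩
      mul_mem' := fun {a b} ha hb => ⟨N.mul_mem ha.1 hb.1, fun v hv => by
        rw [map_mul, Module.End.mul_apply, hb.2 v hv, ha.2 v hv]⟩
      inv_mem' := fun {a} ha => ⟨N.inv_mem ha.1, fun v hv => by
        have h1 := ha.2 v hv
        have h2 : gl n F a⁻¹ (gl n F a v) = v := by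
          rw [← Module.End.mul_apply, ← map_mul, inv_mul_cancel, map_one]; rfl
        rwa [h1] at h2⟩ }
  have hPscal : ∀ a ∈ P, a ∈ scalars (Fin n) F → a = 1 := fun a ha has => scalar_fix has hv0' (ha.2 v0 hv0)
  have hgv : ∀ v ∈ K, gl n F g v = c • v := fun v hv =>
    Module.End.mem_eigenspace_iff.1 (Submodule.mem_inf.1 hv).1
  have hginv : ∀ v ∈ K, gl n F g⁻¹ v = c⁻¹ • v := by
    intro v hv
    have h1 : gl n F g⁻¹ (gl n F g v) = v := by
      rw [← Module.End.mul_apply, ← map_mul, inv_mul_cancel, map_one]; rfl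
    rw [hgv v hv, map_smul] at h1
    rw [← h1, smul_smul, inv_mul_cancel₀ hc, one_smul, h1]
  refine ⟨P, fun a ha => ha.1, ⟨?_, fun v hv => ?_⟩, ?_, ?_, hPscal, ?_, ?_⟩
  · exact N.mul_mem (hgN x hx) (N.inv_mem hx)
  · exact translate (g := g) (x := x) (by group) hv
  · intro a ha b hb
    have h1 := hPscal _ (P.mul_mem (P.mul_mem (P.mul_mem ha hb) (P.inv_mem ha)) (P.inv_mem hb)) (C.comm a ha.1 b hb.1)
    rw [mul_inv_eq_one, mul_inv_eq_iff_eq_mul] at h1
    exact h1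
  · intro a ha
    exact hPscal _ (P.pow_mem ha r) (C.pow a ha.1)
  · intro a ha
    refine ⟨hgN a ha.1, fun v hv => ?_⟩
    rw [map_mul, map_mul, Module.End.mul_apply, Module.End.mul_apply, hginv v hv, map_smul, ha.2 v hv, map_smul,
      hgv v hv, smul_smul, inv_mul_cancel₀ hc, one_smul]
  · intro a ha
    refine ⟨hgN' a ha.1, fun v hv => ?_⟩
    rw [map_mul, map_mul, Module.End.mul_apply, Module.End.mul_apply, hgv v hv, map_smul, ha.2 v hv, map_smul,
      hginv v hv, smul_smul, mul_inv_cancel₀ hc, one_smul]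

/-- conjugation on the stabiliser -/
def conjEquiv {G : Type*} [Group G] (P : Subgroup G) (g : G) (h1 : ∀ a ∈ P, g * a * g⁻¹ ∈ P)
    (h2 : ∀ a ∈ P, g⁻¹ * a * g ∈ P) : P ≃* P where
  toFun a := ⟨g * a * g⁻¹, h1 a a.2⟩
  invFun a := ⟨g⁻¹ * a * g, h2 a a.2⟩
  left_inv a := by apply Subtype.ext; simp only; group
  right_inv a := by apply Subtype.ext; simp only; group
  map_mul' a b := by apply Subtype.ext; simp only [Subgroup.coe_mul]; group

lemma conjEquiv_iterate {G : Type*} [Group G] (P : Subgroup G) (g : G) (h1 : ∀ a ∈ P, g * a * g⁻¹ ∈ P)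
    (h2 : ∀ a ∈ P, g⁻¹ * a * g ∈ P) (m : ℕ) (a : P) :
    (((conjEquiv P g h1 h2 : P → P)^[m] a : P) : G) = g ^ m * a * (g ^ m)⁻¹ := by
  induction m with
  | zero => simp
  | succ m ih =>
    rw [Function.iterate_succ_apply']
    change g * (((conjEquiv P g h1 h2 : P → P)^[m] a : P) : G) * g⁻¹ = _
    rw [ih, pow_succ']
    group

end Cfsg.Agent.Lib.ExEig
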