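import Cfsg.Agent.Lib.ExEig8
set_option autoImplicit false
set_option linter.unusedSectionVars false
set_option linter.style.haveILetI false

namespace Cfsg.Agent.Lib.ExEig

open Module Cfsg Cfsg.Geo
open scoped MatrixGroups

variable {n : ℕ} {F : Type*} [Field F] {N : Subgroup (GL (Fin n) F)} {r : ℕ}

lemma two_le_of_bot {g x : GL (Fin n) F} {c : F}
    (hK : (gl n F g).eigenspace c ⊓ ((gl n F g).eigenspace c).map (gl n F x) = ⊥) :
    2 * finrank F ((gl n F g).eigenspace c) ≤ n := by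
  have h1 := two_finrank_le ((gl n F g).eigenspace c) (gl n F x) (inj _ x)
  rw [hK, finrank_bot, add_zero, Module.finrank_fin_fun] at h1
  exact h1

lemma lam_unique (hn : 0 < n) {T : Module.End F (Fin n → F)} (hT : Function.Injective T) {c c' : F}
    (h : c • T = c' • T) : c = c' := by
  have hv0 : (fun _ : Fin n => (1 : F)) ≠ 0 := fun h0 => one_ne_zero (congrFun h0 ⟨0, hn⟩)
  have h4 : c • T (fun _ : Fin n => (1 : F)) = c' • T (fun _ : Fin n => (1 : F)) := LinearMap.congr_fun h _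
  have h5 : T (fun _ : Fin n => (1 : F)) ≠ 0 := fun h0 => hv0 (hT (by rw [h0, map_zero]))
  exact smul_left_injective F h5 h4

lemma conj_pow_eq {G : Type*} [Group G] {g x k : G} (h1 : g * x * g⁻¹ = k * x) (h2 : g * k * g⁻¹ = k) (m : ℕ) :
    g ^ m * x * (g ^ m)⁻¹ = k ^ m * x := by
  induction m with
  | zero => simp
  | succ m ih =>
    have h3 : g * k ^ m * g⁻¹ = k ^ m := by
      rw [← conj_pow, h2]
    calc g ^ (m + 1) * x * (g ^ (m + 1))⁻¹ = g * (g ^ m * x * (g ^ m)⁻¹) * g⁻¹ := by rw [pow_succ']; group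
      _ = (g * k ^ m * g⁻¹) * (g * x * g⁻¹) := by rw [ih]; group
      _ = k ^ (m + 1) * x := by rw [h3, h1, pow_succ, mul_assoc]

/-- the coprime case -/
theorem Ctx.coprime [Fintype F] (C : Ctx N r) {ω : F} (hω : IsPrimitiveRoot ω r) {g x : GL (Fin n) F}
    (hgN : ∀ a ∈ N, g * a * g⁻¹ ∈ N) (hgN' : ∀ a ∈ N, g⁻¹ * a * g ∈ N) {p : ℕ} (hp : p.Prime) (hp2 : Odd p)
    (hpr : p ≠ r) (hgp : g ^ p = 1) (hx : x ∈ N) (hk : g * x * g⁻¹ * x⁻¹ ∉ scalars (Fin n) F) (c : F) :
    2 * finrank F ((gl n F g).eigenspace c) ≤ n := by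
  classical
  by_cases hK : (gl n F g).eigenspace c ⊓ ((gl n F g).eigenspace c).map (gl n F x) = ⊥
  · exact two_le_of_bot hK
  obtain ⟨P, hPN, hkP, hcomm, hexp, hscal, hg1, hg2⟩ := C.exists_P hgN hgN' hx hK
  letI : CommGroup P := { (inferInstance : Group P) with mul_comm := fun a b => Subtype.ext (hcomm a a.2 b b.2) }
  set αP : P ≃* P := conjEquiv P g hg1 hg2 with hαP
  have hαval : ∀ a : P, ((αP a : P) : GL (Fin n) F) = g * a * g⁻¹ := fun a => rfl
  have hαPp : ∀ a, (αP : P → P)^[p] a = a := fun a => by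
    apply Subtype.ext
    rw [hαP, conjEquiv_iterate, hgp]
    group
  have hcop : ∀ a : P, a ^ p = 1 → a = 1 := by
    intro a ha
    have h1 : orderOf a ∣ p := orderOf_dvd_of_pow_eq_one ha
    have h2 : orderOf a ∣ r := orderOf_dvd_of_pow_eq_one (Subtype.ext (hexp a a.2))
    have h3 := Nat.dvd_gcd h1 h2
    rw [Nat.Coprime.gcd_eq_one ((Nat.coprime_primes hp C.pr).2 hpr), Nat.dvd_one] at h3
    exact orderOf_eq_one_iff.1 h3
  let θ : P →* P := MonoidHom.mk' (fun a => αP a * a⁻¹) (fun a b => by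
      rw [map_mul, mul_inv_rev, mul_comm b⁻¹ a⁻¹]
      exact mul_mul_mul_comm _ _ _ _)
  have hθ : ∀ a, θ a = αP a * a⁻¹ := fun a => rfl
  set D : Subgroup P := θ.range with hD
  have hαθ : ∀ a, αP (θ a) = θ (αP a) := fun a => by rw [hθ, hθ, map_mul, map_inv]
  have hD1 : ∀ a ∈ D, αP a ∈ D := by
    rintro _ ⟨b, rfl⟩; exact ⟨αP b, (hαθ b).symm⟩
  have hD2 : ∀ a ∈ D, αP.symm a ∈ D := by
    rintro _ ⟨b, rfl⟩
    refine ⟨αP.symm b, ?_⟩
    apply αP.injective
    rw [hαθ, MulEquiv.apply_symm_apply, MulEquiv.apply_symm_apply]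
  let αD : D ≃* D :=
    { toFun := fun a => ⟨αP a, hD1 a a.2⟩
      invFun := fun a => ⟨αP.symm a, hD2 a a.2⟩
      left_inv := fun a => Subtype.ext (αP.symm_apply_apply _)
      right_inv := fun a => Subtype.ext (αP.apply_symm_apply _)
      map_mul' := fun a b => Subtype.ext (map_mul αP _ _) }
  have hαDval : ∀ a : D, ((αD a : D) : P) = αP a := fun a => rfl
  have hαDp : ∀ a : D, (αD : D → D)^[p] a = a := by
    have h1 : ∀ (m : ℕ) (a : D), (((αD : D → D)^[m] a : D) : P) = (αP : P → P)^[m] a := by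
      intro m
      induction m with
      | zero => intro a; rfl
      | succ m ih => intro a; rw [Function.iterate_succ_apply', Function.iterate_succ_apply', hαDval, ih]
    intro a
    apply Subtype.ext
    rw [h1, hαPp]
  have hfix : ∀ a : D, αD a = a → a = 1 := by
    rintro ⟨a, b, rfl⟩ ha
    have ha1 : αP (θ b) = θ b := congrArg Subtype.val ha
    have h1 : ((θ b : P) : GL (Fin n) F) = g * b * g⁻¹ * (b : GL (Fin n) F)⁻¹ := rfl
    have h2 := conj_pow_eq (g := g) (x := (b : GL (Fin n) F)) (k := ((θ b : P) : GL (Fin n) F))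
      (by rw [h1]; group) (congrArg Subtype.val ha1) p
    rw [hgp] at h2
    have h3 : θ b ^ p = 1 := by
      apply Subtype.ext
      rw [Subgroup.coe_pow, Subgroup.coe_one]
      simpa using h2
    exact Subtype.ext (hcop _ h3)
  -- the element θ k
  set k : P := ⟨g * x * g⁻¹ * x⁻¹, hkP⟩ with hkdef
  have hk1 : k ≠ 1 := by
    intro h
    apply hk
    have : g * x * g⁻¹ * x⁻¹ = 1 := congrArg Subtype.val h
    rw [this]; exact one_mem _
  have hθk : θ k ≠ 1 := by
    intro h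
    have h1 : αP k = k := mul_inv_eq_one.1 h
    have h2 := conj_pow_eq (g := g) (x := x) (k := (k : GL (Fin n) F))
      (by rw [hkdef]; group) (congrArg Subtype.val h1) p
    rw [hgp] at h2
    have h3 : k ^ p = 1 := by
      apply Subtype.ext
      rw [Subgroup.coe_pow, Subgroup.coe_one]
      simpa using h2
    exact hk1 (hcop k h3)
  have hθks : ((θ k : P) : GL (Fin n) F) ∉ scalars (Fin n) F := fun h =>
    hθk (Subtype.ext (hscal _ (θ k).2 h))
  obtain ⟨h, hhN, c0, hc0, hc0r, hc01⟩ := C.exists_lam (hPN (θ k).2) hθks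
  -- the character
  have hchoose : ∀ a : D, ∃ c : Fˣ, gl n F (a : P) * gl n F h = (c : F) • (gl n F h * gl n F (a : P)) := fun a => by
    obtain ⟨c, hc, -⟩ := C.lam (hPN ((a : P)).2) hhN
    exact ⟨c, hc⟩
  choose χ hχ using hchoose
  have hmulinj : ∀ a b : GL (Fin n) F, Function.Injective (gl n F a * gl n F b) := fun a b => by
    rw [← map_mul]; exact inj _ _
  let χ₀ : D →* Fˣ := MonoidHom.mk' χ (fun a b => by
    apply Units.ext
    apply lam_unique C.n0 (hmulinj h ((a * b : D) : P))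
    rw [← hχ (a * b)]
    have e1 : gl n F (((a * b : D) : P) : GL (Fin n) F) = gl n F (a : P) * gl n F (b : P) := by
      rw [← map_mul]; rfl
    rw [e1, mul_assoc, hχ b, mul_smul_comm, ← mul_assoc, hχ a, smul_mul_assoc, smul_smul, mul_assoc,
      Units.val_mul, mul_comm (χ b : F)])
  have hχ₀ : χ₀ ≠ 1 := by
    intro h1
    have h2 : χ ⟨θ k, ⟨k, rfl⟩⟩ = 1 := DFunLike.congr_fun h1 (⟨θ k, ⟨k, rfl⟩⟩ : D)
    apply hc01
    apply lam_unique C.n0 (hmulinj h (θ k : P))
    rw [← hc0, hχ ⟨θ k, ⟨k, rfl⟩⟩, h2]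
    rfl
  haveI : Finite D := inferInstance
  letI : Fintype D := Fintype.ofFinite D
  haveI : Finite (D →* Fˣ) := Finite.of_injective (fun f : D →* Fˣ => (f : D → Fˣ)) DFunLike.coe_injective
  letI : Fintype (D →* Fˣ) := Fintype.ofFinite _
  have key := abelian_case ((gl n F).comp (P.subtype.comp D.subtype)) C.pr hω
    (fun a => Subtype.ext (Subtype.ext (hexp _ (a : P).2))) hp2 αD hαDp hfix (gl n F g) (inj _ g) (fun a v => by
      change gl n F (g * (a : P) * g⁻¹) (gl n F g v) = gl n F g (gl n F ((a : P) : GL (Fin n) F) v)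
      rw [← Module.End.mul_apply, ← Module.End.mul_apply, ← map_mul, ← map_mul]
      congr 2
      group) χ₀ hχ₀ (gl n F h) (inj _ h) (fun a v => LinearMap.congr_fun (hχ a) v) c
  rwa [Module.finrank_fin_fun] at key

/-- the case of equal primes -/
theorem Ctx.equal (C : Ctx N r) (hr5 : 5 ≤ r) {ω : F} (hω : IsPrimitiveRoot ω r) {g x : GL (Fin n) F}
    (hgN : ∀ a ∈ N, g * a * g⁻¹ ∈ N) (hgN' : ∀ a ∈ N, g⁻¹ * a * g ∈ N)
    (hgp : g ^ r = 1) (hx : x ∈ N) (hk : g * x * g⁻¹ * x⁻¹ ∉ scalars (Fin n) F) (c : F) :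
    2 * finrank F ((gl n F g).eigenspace c) ≤ n := by
  classical
  by_cases hK : (gl n F g).eigenspace c ⊓ ((gl n F g).eigenspace c).map (gl n F x) = ⊥
  · exact two_le_of_bot hK
  obtain ⟨P, hPN, hkP, hcomm, hexp, hscal, hg1, hg2⟩ := C.exists_P hgN hgN' hx hK
  letI : CommGroup P := { (inferInstance : Group P) with mul_comm := fun a b => Subtype.ext (hcomm a a.2 b b.2) }
  set αP : P ≃* P := conjEquiv P g hg1 hg2 with hαP
  have hαval : ∀ a : P, ((αP a : P) : GL (Fin n) F) = g * a * g⁻¹ := fun a => rfl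
  have hαPp : ∀ a, (αP : P → P)^[r] a = a := fun a => by
    apply Subtype.ext
    rw [hαP, conjEquiv_iterate, hgp]
    group
  set k : P := ⟨g * x * g⁻¹ * x⁻¹, hkP⟩ with hkdef
  have hk1 : k ≠ 1 := by
    intro h
    apply hk
    have : g * x * g⁻¹ * x⁻¹ = 1 := congrArg Subtype.val h
    rw [this]; exact one_mem _
  have hnil := iterate_comm_eq_one C.pr (fun a : P => Subtype.ext (hexp a a.2)) αP hαPp k
  -- a good element
  obtain ⟨x', hx', k', hk', hkx, hk'1, hgk'⟩ : ∃ x' ∈ N, ∃ k' : P, True ∧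
      g * x' * g⁻¹ * x'⁻¹ = (k' : GL (Fin n) F) ∧ k' ≠ 1 ∧ αP k' = k' := by
    have hex : ∃ m : ℕ, (fun a : P => αP a * a⁻¹)^[m] k = 1 := ⟨r, hnil⟩
    have hm := Nat.find_spec hex
    have hmin : ∀ j < Nat.find hex, (fun a : P => αP a * a⁻¹)^[j] k ≠ 1 := fun j hj => Nat.find_min hex hj
    obtain ⟨m, hmm⟩ : ∃ m, Nat.find hex = m + 1 := by
      rcases h0 : Nat.find hex with _ | m
      · rw [h0] at hm; exact absurd hm hk1
      · exact ⟨m, rfl⟩
    rw [hmm] at hm hmin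
    rw [Function.iterate_succ_apply'] at hm
    rcases m with _ | m
    · exact ⟨x, hx, k, trivial, rfl, hk1, mul_inv_eq_one.1 hm⟩
    · refine ⟨((fun a : P => αP a * a⁻¹)^[m] k : P), hPN (Subtype.prop _), (fun a : P => αP a * a⁻¹)^[m + 1] k, trivial,
        ?_, hmin (m + 1) (by omega), mul_inv_eq_one.1 hm⟩
      rw [Function.iterate_succ_apply']
      rfl
  have hk's : (k' : GL (Fin n) F) ∉ scalars (Fin n) F := fun h => hk'1 (Subtype.ext (hscal _ k'.2 h))
  obtain ⟨h, hhN, c0, hc0, hc0r, hc01⟩ := C.exists_lam (hPN k'.2) hk's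
  obtain ⟨c1, hc1, hc1r, -⟩ := C.lam (hPN k'.2) hx'
  haveI : NeZero r := ⟨C.pr.ne_zero⟩
  obtain ⟨b, -, hb⟩ := hω.eq_pow_of_pow_eq_one hc0r
  obtain ⟨a, -, ha⟩ := hω.eq_pow_of_pow_eq_one hc1r
  have hgk : g * k' = k' * g := by
    have h1 : g * (k' : GL (Fin n) F) * g⁻¹ = k' := congrArg Subtype.val hgk'
    rw [mul_inv_eq_iff_eq_mul] at h1
    exact h1
  have key := equal_case (gl n F) C.pr hr5 hω (y := (k' : GL (Fin n) F)) (g := g) (x := x') (h := h)
    (hexp _ k'.2) hgp hgk (by rw [← hkx]; group) (a := a) (b := b) (by rw [ha]; exact hc1) (by rw [hb]; exact hc0)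
    (by rw [hb]; exact hc01) c
  rwa [Module.finrank_fin_fun] at key

end Cfsg.Agent.Lib.ExEig
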