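import Cfsg.Agent.Lib.LargeExtra7

/-!
Extraspecial groups from generating involutions with a nondegenerate commutator matrix (helper57).
-/

set_option autoImplicit false
set_option linter.all false

namespace Cfsg.Agent.Lib.ExGen

open Cfsg.Agent.Lib.LargeExtra

/-- exclusive or over an initial segment -/
def xs (f : ℕ → Bool) : ℕ → Bool
  | 0 => false
  | n + 1 => xor (xs f n) (f n)

theorem xs_congr {f g : ℕ → Bool} {n : ℕ} (h : ∀ i < n, f i = g i) : xs f n = xs g n := by
  induction n with
  | zero => rfl
  | succ n ih =>
    show xor (xs f n) (f n) = xor (xs g n) (g n)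
    rw [ih (fun i hi => h i (by omega)), h n (by omega)]

theorem xs_false {f : ℕ → Bool} {n : ℕ} (h : ∀ i < n, f i = false) : xs f n = false := by
  induction n with
  | zero => rfl
  | succ n ih =>
    show xor (xs f n) (f n) = false
    rw [ih (fun i hi => h i (by omega)), h n (by omega)]
    rfl

theorem xs_xor (f g : ℕ → Bool) (n : ℕ) : xs (fun i => xor (f i) (g i)) n = xor (xs f n) (xs g n) := by
  induction n with
  | zero => rfl
  | succ n ih =>
    show xor (xs _ n) (xor (f n) (g n)) = xor (xor (xs f n) (f n)) (xor (xs g n) (g n))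
    rw [ih]
    cases xs f n <;> cases xs g n <;> cases f n <;> cases g n <;> rfl

theorem xs_and (b : Bool) (f : ℕ → Bool) (n : ℕ) : xs (fun i => b && f i) n = (b && xs f n) := by
  induction n with
  | zero => cases b <;> rfl
  | succ n ih =>
    show xor (xs _ n) (b && f n) = (b && xor (xs f n) (f n))
    rw [ih]
    cases b <;> cases xs f n <;> cases f n <;> rfl

theorem xs_swap (f : ℕ → ℕ → Bool) (m n : ℕ) : xs (fun i => xs (fun j => f i j) n) m = xs (fun j => xs (fun i => f i j) m) n := by
  induction m with
  | zero =>
    show false = xs (fun j => false) n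
    exact (xs_false (fun i hi => rfl)).symm
  | succ m ih =>
    show xor (xs _ m) (xs (fun j => f m j) n) = xs (fun j => xor (xs (fun i => f i j) m) (f m j)) n
    rw [ih, xs_xor]

/-- an inverse matrix makes the form nondegenerate -/
theorem nondeg {n : ℕ} {c t : ℕ → ℕ → Bool} (h : ∀ i < n, ∀ k < n, xs (fun j => t i j && c k j) n = decide (k = i)) {s : ℕ → Bool}
    (hs : ∀ j < n, xs (fun k => s k && c k j) n = false) : ∀ i < n, s i = false := by
  intro i hi
  have h1 : xs (fun k => s k && xs (fun j => t i j && c k j) n) n = false := by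
    have h2 : xs (fun k => s k && xs (fun j => t i j && c k j) n) n = xs (fun j => t i j && xs (fun k => s k && c k j) n) n := by
      have e1 : ∀ k, (s k && xs (fun j => t i j && c k j) n) = xs (fun j => s k && (t i j && c k j)) n := fun k => (xs_and _ _ _).symm
      have e2 : ∀ j, (t i j && xs (fun k => s k && c k j) n) = xs (fun k => t i j && (s k && c k j)) n := fun j => (xs_and _ _ _).symm
      simp only [e1, e2]
      rw [xs_swap]
      congr 1
      funext j
      congr 1
      funext k
      cases s k <;> cases t i j <;> cases c k j <;> rfl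
    rw [h2]
    exact xs_false (fun j hj => by rw [hs j hj]; cases t i j <;> rfl)
  have h3 : xs (fun k => s k && xs (fun j => t i j && c k j) n) n = xs (fun k => s k && decide (k = i)) n :=
    xs_congr (fun k hk => by rw [h i hi k hk])
  rw [h3] at h1
  have h4 : ∀ m, m ≤ n → xs (fun k => s k && decide (k = i)) m = (decide (i < m) && s i) := by
    intro m
    induction m with
    | zero => intro _; rfl
    | succ m ih =>
      intro hm
      show xor (xs _ m) (s m && decide (m = i)) = _
      rw [ih (by omega)]
      by_cases e : m = i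
      · subst e
        simp
      · by_cases e2 : i < m
        · have : i < m + 1 := by omega
          simp [e, e2, this]
        · have : ¬ i < m + 1 := by omega
          simp [e, e2, this]
  rw [h4 n le_rfl, decide_eq_true hi, Bool.true_and] at h1
  exact h1

section grp

variable {G : Type*} [Group G] (z : G) (q : ℕ → G)

/-- power of the central element -/
def zp (b : Bool) : G := cond b z 1

/-- ordered products -/
def P (s : ℕ → Bool) : ℕ → G
  | 0 => 1
  | n + 1 => P s n * cond (s n) (q n) 1

variable {z q} {n : ℕ} {c : ℕ → ℕ → Bool}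
  (hz : z * z = 1) (hz1 : z ≠ 1) (hzq : ∀ i < n, q i * z = z * q i) (hq : ∀ i < n, q i * q i = 1)
  (hc : ∀ i < n, ∀ j < n, q i * q j = zp z (c i j) * (q j * q i))

include hz in
theorem zp_mul (a b : Bool) : zp z a * zp z b = zp z (xor a b) := by
  cases a <;> cases b <;> simp [zp, hz]

include hzq in
theorem zq (b : Bool) {i : ℕ} (hi : i < n) : q i * zp z b = zp z b * q i := by
  cases b
  · simp [zp]
  · exact hzq i hi

include hzq in
theorem zP (b : Bool) (s : ℕ → Bool) {m : ℕ} (hm : m ≤ n) : P q s m * zp z b = zp z b * P q s m := by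
  induction m with
  | zero => simp [P]
  | succ m ih =>
    show P q s m * cond (s m) (q m) 1 * zp z b = zp z b * (P q s m * cond (s m) (q m) 1)
    cases hs : s m
    · simp only [cond_false, mul_one]; exact ih (by omega)
    · simp only [cond_true]
      rw [mul_assoc, zq hzq b (by omega), ← mul_assoc, ih (by omega), mul_assoc]

include hz hzq hc in
/-- commuting an ordered product with a generator -/
theorem par (s : ℕ → Bool) {j : ℕ} (hj : j < n) {m : ℕ} (hm : m ≤ n) : P q s m * q j = zp z (xs (fun k => s k && c k j) m) * (q j * P q s m) := by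
  induction m with
  | zero => simp [P, xs, zp]
  | succ m ih =>
    show P q s m * cond (s m) (q m) 1 * q j = zp z (xor (xs _ m) (s m && c m j)) * (q j * (P q s m * cond (s m) (q m) 1))
    cases hs : s m
    · simp only [cond_false, mul_one, Bool.false_and, Bool.xor_false]; exact ih (by omega)
    · simp only [cond_true, Bool.true_and]
      rw [← zp_mul hz, mul_assoc, hc m (by omega) j hj, ← mul_assoc (P q s m), zP hzq _ s (by omega), mul_assoc, ← mul_assoc (P q s m),
        ih (by omega)]
      rw [← mul_assoc, ← mul_assoc, zp_mul hz, zp_mul hz, Bool.xor_comm]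
      simp only [mul_assoc]

include hz hzq hq hc in
theorem step (s : ℕ → Bool) {m : ℕ} (hm : m ≤ n) {k : ℕ} (hk : k < m) : ∃ e s', P q s m * q k = zp z e * P q s' m ∧ ∀ i, m ≤ i → s' i = s i := by
  induction m generalizing s with
  | zero => omega
  | succ m ih =>
    by_cases h : k = m
    · subst h
      refine ⟨false, fun i => if i = k then !(s k) else s i, ?_, ?_⟩
      · have hP : ∀ l ≤ k, P q (fun i => if i = k then !(s k) else s i) l = P q s l := by
          intro l
          induction l with
          | zero => intro _; rfl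
          | succ l ihl =>
            intro hl
            show P q _ l * cond (if l = k then _ else _) (q l) 1 = P q s l * cond (s l) (q l) 1
            rw [ihl (by omega), if_neg (by omega)]
        show P q s k * cond (s k) (q k) 1 * q k = zp z false * (P q _ k * cond (if k = k then _ else _) (q k) 1)
        rw [hP k le_rfl, if_pos rfl]
        cases hs : s k
        · simp [zp]
        · simp only [cond_true, Bool.not_true, cond_false, mul_one, mul_assoc, hq k (by omega)]
          simp [zp]
      · intro i hi
        show (if i = k then _ else _) = _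
        rw [if_neg (by omega)]
    · obtain ⟨e, s', h1, h2⟩ := ih s (by omega) (by omega)
      cases hs : s m
      · refine ⟨e, s', ?_, fun i hi => h2 i (by omega)⟩
        show P q s m * cond (s m) (q m) 1 * q k = zp z e * (P q s' m * cond (s' m) (q m) 1)
        rw [h2 m le_rfl, hs]
        simp only [cond_false, mul_one]
        exact h1
      · refine ⟨xor (c m k) e, s', ?_, fun i hi => h2 i (by omega)⟩
        show P q s m * cond (s m) (q m) 1 * q k = zp z _ * (P q s' m * cond (s' m) (q m) 1)
        rw [h2 m le_rfl, hs]
        simp only [cond_true]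
        rw [mul_assoc, hc m (by omega) k (by omega), ← mul_assoc (P q s m), zP hzq _ s (by omega), mul_assoc, ← mul_assoc (P q s m), h1,
          ← zp_mul hz]
        simp only [mul_assoc]

/-- the generated group -/
def Qg (q : ℕ → G) (n : ℕ) : Subgroup G := Subgroup.closure {g | ∃ i < n, g = q i}

include hz hzq hq hc in
/-- normal forms -/
theorem nf {a : G} (ha : a ∈ Qg q n) : ∃ e s, a = zp z e * P q s n := by
  refine Subgroup.closure_induction_right (p := fun a _ => ∃ e s, a = zp z e * P q s n) ?_ ?_ ?_ ha
  · refine ⟨false, fun _ => false, ?_⟩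
    have : ∀ m, P q (fun _ => false) m = 1 := by
      intro m
      induction m with
      | zero => rfl
      | succ m ih => show P q _ m * 1 = 1; rw [ih, mul_one]
    rw [this n]; simp [zp]
  · rintro a _ b ⟨i, hi, rfl⟩ ⟨e, s, h⟩
    obtain ⟨e', s', h1, _⟩ := step hz hzq hq hc s le_rfl hi
    refine ⟨xor e e', s', ?_⟩
    rw [h, mul_assoc, h1, ← mul_assoc, zp_mul hz]
  · rintro a _ b ⟨i, hi, rfl⟩ ⟨e, s, h⟩
    obtain ⟨e', s', h1, _⟩ := step hz hzq hq hc s le_rfl hi
    refine ⟨xor e e', s', ?_⟩
    rw [inv_eq_of_mul_eq_one_left (hq i hi), h, mul_assoc, h1, ← mul_assoc, zp_mul hz]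

theorem q_mem {i : ℕ} (hi : i < n) : q i ∈ Qg q n := Subgroup.subset_closure ⟨i, hi, rfl⟩

theorem P_mem (s : ℕ → Bool) {m : ℕ} (hm : m ≤ n) : P q s m ∈ Qg q n := by
  induction m with
  | zero => exact one_mem _
  | succ m ih =>
    show P q s m * cond (s m) (q m) 1 ∈ _
    apply mul_mem (ih (by omega))
    cases s m
    · exact one_mem _
    · exact q_mem (by omega)

theorem P_congr {s s' : ℕ → Bool} {m : ℕ} (h : ∀ i < m, s i = s' i) : P q s m = P q s' m := by
  induction m with
  | zero => rfl
  | succ m ih =>
    show P q s m * cond (s m) (q m) 1 = P q s' m * cond (s' m) (q m) 1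
    rw [ih (fun i hi => h i (by omega)), h m (by omega)]

theorem P_false {m : ℕ} : P q (fun _ => false) m = 1 := by
  induction m with
  | zero => rfl
  | succ m ih => show P q _ m * 1 = 1; rw [ih, mul_one]

include hz hzq hc in
theorem par2 (e : Bool) (s : ℕ → Bool) {j : ℕ} (hj : j < n) :
    (zp z e * P q s n) * q j = zp z (xs (fun k => s k && c k j) n) * (q j * (zp z e * P q s n)) := by
  have h1 : zp z e * zp z (xs (fun k => s k && c k j) n) = zp z (xs (fun k => s k && c k j) n) * zp z e := by
    rw [zp_mul hz, zp_mul hz, Bool.xor_comm]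
  calc (zp z e * P q s n) * q j = zp z e * (P q s n * q j) := mul_assoc _ _ _
    _ = zp z e * (zp z (xs (fun k => s k && c k j) n) * (q j * P q s n)) := by rw [par hz hzq hc s hj (le_refl n)]
    _ = (zp z e * zp z (xs (fun k => s k && c k j) n)) * (q j * P q s n) := by simp only [mul_assoc]
    _ = zp z (xs (fun k => s k && c k j) n) * ((zp z e * q j) * P q s n) := by rw [h1]; simp only [mul_assoc]
    _ = _ := by rw [← zq hzq e hj]; simp only [mul_assoc]

include hz1 in
theorem zp_inj {a b : Bool} (h : zp z a = zp z b) : a = b := by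
  cases a <;> cases b <;> first | rfl | exact absurd h.symm hz1 | exact absurd h hz1

include hz hzq hq hc in
/-- extraspecial data -/
theorem exData {t : ℕ → ℕ → Bool} (h : ∀ i < n, ∀ k < n, xs (fun j => t i j && c k j) n = decide (k = i))
    (hn : ∃ i < n, ∃ j < n, c i j = true) (hz1 : z ≠ 1) : ExData (Qg q n) z ∧ Nat.card (Qg q n) = 2 ^ (n + 1) := by
  have hmem : z ∈ Qg q n := by
    obtain ⟨i, hi, j, hj, hij⟩ := hn
    have h1 := hc i hi j hj
    rw [hij] at h1
    have h2 : z = q i * q j * (q j * q i)⁻¹ := by
      rw [h1, mul_inv_cancel_right]; rfl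
    rw [h2]
    exact mul_mem (mul_mem (q_mem hi) (q_mem hj)) (inv_mem (mul_mem (q_mem hj) (q_mem hi)))
  have hzmem : ∀ e, zp z e ∈ Qg q n := by
    intro e; cases e
    · exact one_mem _
    · exact hmem
  have hcz : ∀ a ∈ Qg q n, ∀ e, a * zp z e = zp z e * a := by
    intro a ha e
    obtain ⟨e', s, rfl⟩ := nf hz hzq hq hc ha
    rw [mul_assoc, zP hzq e s le_rfl, ← mul_assoc, ← mul_assoc, zp_mul hz, zp_mul hz, Bool.xor_comm]
  have hcom : ∀ a ∈ Qg q n, ∀ j < n, ∃ e, a * q j = zp z e * (q j * a) := by
    intro a ha j hj
    obtain ⟨e', s, rfl⟩ := nf hz hzq hq hc ha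
    refine ⟨xs (fun k => s k && c k j) n, ?_⟩
    exact par2 hz hzq hc e' s hj
  refine ⟨ExData.of hz hz1 hmem (fun a ha => ?_) ?_ ?_ ?_, ?_⟩
  · exact hcz a ha true
  · intro a ha b hb
    have key : ∃ e, a * b = zp z e * (b * a) := by
      refine Subgroup.closure_induction_right (p := fun b _ => ∃ e, a * b = zp z e * (b * a)) ?_ ?_ ?_ hb
      · exact ⟨false, by simp [zp]⟩
      · rintro b hb' x ⟨i, hi, rfl⟩ ⟨e, h1⟩
        obtain ⟨e', h2⟩ := hcom a ha i hi
        refine ⟨xor e e', ?_⟩
        rw [← mul_assoc, h1, mul_assoc, mul_assoc b, h2, ← mul_assoc b, hcz b hb' e', ← zp_mul hz]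
        simp only [mul_assoc]
      · rintro b hb' x ⟨i, hi, rfl⟩ ⟨e, h1⟩
        rw [inv_eq_of_mul_eq_one_left (hq i hi)]
        obtain ⟨e', h2⟩ := hcom a ha i hi
        refine ⟨xor e e', ?_⟩
        rw [← mul_assoc, h1, mul_assoc, mul_assoc b, h2, ← mul_assoc b, hcz b hb' e', ← zp_mul hz]
        simp only [mul_assoc]
    obtain ⟨e, he⟩ := key
    cases e
    · left; rw [he]; simp [zp]
    · right; exact he
  · intro a ha hx
    obtain ⟨e, s, rfl⟩ := nf hz hzq hq hc ha
    have h0 : ∀ i < n, s i = false := by
      apply nondeg h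
      intro j hj
      have h1 := hx (q j) (q_mem hj)
      have h2 := par hz hzq hc s hj (le_refl n)
      rw [mul_assoc, h2, ← mul_assoc (q j), zq hzq e hj, mul_assoc] at h1
      have h3 := mul_left_cancel h1
      have h4 : zp z (xs (fun k => s k && c k j) n) = 1 := by
        have h5 : zp z (xs (fun k => s k && c k j) n) * (q j * P q s n) = 1 * (q j * P q s n) := by rw [h3, one_mul]
        exact mul_right_cancel h5
      exact zp_inj hz1 (b := false) (by rw [h4]; rfl)
    rw [P_congr (s' := fun _ => false) h0, P_false, mul_one]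
    cases e
    · left; rfl
    · right; rfl
  · obtain ⟨i, hi, j, hj, hij⟩ := hn
    refine ⟨q i, q_mem hi, q j, q_mem hj, ?_⟩
    intro h1
    have h2 := hc i hi j hj
    rw [hij, h1] at h2
    have h3 : 1 * (q j * q i) = z * (q j * q i) := by rw [one_mul]; exact h2
    exact hz1 (mul_right_cancel h3).symm
  · let ex : (Fin n → Bool) → ℕ → Bool := fun s i => if hi : i < n then s ⟨i, hi⟩ else false
    let F : Bool × (Fin n → Bool) → Qg q n := fun p => ⟨zp z p.1 * P q (ex p.2) n, mul_mem (hzmem _) (P_mem _ le_rfl)⟩
    have hF : Function.Bijective F := by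
      constructor
      · rintro ⟨e, s⟩ ⟨e', s'⟩ he
        have h1 : zp z e * P q (ex s) n = zp z e' * P q (ex s') n := congrArg Subtype.val he
        have h2 : ∀ j < n, xs (fun k => ex s k && c k j) n = xs (fun k => ex s' k && c k j) n := by
          intro j hj
          have a1 := par hz hzq hc (ex s) hj (le_refl n)
          have a2 := par hz hzq hc (ex s') hj (le_refl n)
          have b1 : (zp z e * P q (ex s) n) * q j = zp z (xs (fun k => ex s k && c k j) n) * (q j * (zp z e * P q (ex s) n)) :=
            par2 hz hzq hc e (ex s) hj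
          have b2 : (zp z e' * P q (ex s') n) * q j = zp z (xs (fun k => ex s' k && c k j) n) * (q j * (zp z e' * P q (ex s') n)) :=
            par2 hz hzq hc e' (ex s') hj
          rw [h1, b2] at b1
          exact (zp_inj hz1 (mul_right_cancel b1)).symm
        have h3 : ∀ i < n, xor (ex s i) (ex s' i) = false := by
          apply nondeg h
          intro j hj
          have e1 : xs (fun k => xor (ex s k) (ex s' k) && c k j) n = xor (xs (fun k => ex s k && c k j) n) (xs (fun k => ex s' k && c k j) n) := by
            rw [← xs_xor]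
            congr 1
            funext k
            cases ex s k <;> cases ex s' k <;> cases c k j <;> rfl
          rw [e1, h2 j hj, Bool.xor_self]
        have h4 : ∀ i < n, ex s i = ex s' i := by
          intro i hi
          have := h3 i hi
          revert this
          cases ex s i <;> cases ex s' i <;> simp
        have h5 : s = s' := by
          funext i
          have := h4 i i.2
          simpa [ex, i.2] using this
        subst h5
        have h6 := mul_right_cancel h1
        rw [zp_inj hz1 h6]
      · rintro ⟨a, ha⟩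
        obtain ⟨e, s, rfl⟩ := nf hz hzq hq hc ha
        refine ⟨(e, fun i => s i), Subtype.ext ?_⟩
        show zp z e * P q (ex fun i => s i) n = zp z e * P q s n
        rw [P_congr (s' := s)]
        intro i hi
        simp [ex, hi]
    rw [← Nat.card_congr (Equiv.ofBijective F hF), Nat.card_prod, Nat.card_eq_fintype_card, Nat.card_eq_fintype_card, Fintype.card_bool,
      Fintype.card_fun, Fintype.card_bool, Fintype.card_fin, pow_succ, mul_comm]

end grp

end Cfsg.Agent.Lib.ExGen
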