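import Cfsg.Agent.Lib.Extraspecial
import Cfsg.Agent.Lib.ExtraInner
import Cfsg.Agent.Lib.GroupUtil
import Cfsg.Prelude.Def_Classical
import Cfsg.Prelude.Def_KGroupFacts

/-!
# Outer automorphisms of extraspecial 2-groups (helper2)
-/

set_option autoImplicit false

open Subgroup
open scoped commutatorElement

namespace Cfsg.Agent.Lib.ExtraOut

open Cfsg.Agent.Lib.Extraspecial Cfsg

universe u

variable {E : Type u} [Group E] {z : E} {ι : Type} [Fintype ι] [DecidableEq ι]

/-- quadratic data for an extraspecial 2-group -/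
structure QD (z : E) (π : E →* Multiplicative (ι → ZMod 2)) (Q : (ι → ZMod 2) → ZMod 2) : Prop where
  xs : XS 2 E z
  surj : Function.Surjective π
  ker : ∀ e : E, π e = 1 ↔ e ∈ zpowers z
  sq : ∀ e : E, e ^ 2 = 1 ↔ Q (Multiplicative.toAdd (π e)) = 0

variable {π : E →* Multiplicative (ι → ZMod 2)} {Q : (ι → ZMod 2) → ZMod 2}

omit [Fintype ι] [DecidableEq ι] in
theorem QD.sq_eq (h : QD z π Q) {a b : E} (hab : Q (Multiplicative.toAdd (π a)) = Q (Multiplicative.toAdd (π b))) :
    a ^ 2 = b ^ 2 := by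
  rcases h.xs.two_cases (h.xs.pow a) with h1 | h1 <;> rcases h.xs.two_cases (h.xs.pow b) with h2 | h2
  · rw [h1, h2]
  · exfalso
    rw [h.sq, hab, ← h.sq] at h1
    rw [h1] at h2
    exact h.xs.z_ne_one h2.symm
  · exfalso
    rw [h.sq, ← hab, ← h.sq] at h2
    rw [h2] at h1
    exact h.xs.z_ne_one h1.symm
  · rw [h1, h2]

omit [Fintype ι] [DecidableEq ι] in
/-- lifting isometries -/
theorem QD.lift [Finite E] (h : QD z π Q) (g : (ι → ZMod 2) ≃+ (ι → ZMod 2)) (hg : ∀ v, Q (g v) = Q v) :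
    ∃ φ : E ≃* E, ∀ e, Multiplicative.toAdd (π (φ e)) = g (Multiplicative.toAdd (π e)) := by
  let P : Subgroup (E × E) :=
    { carrier := {p | Multiplicative.toAdd (π p.2) = g (Multiplicative.toAdd (π p.1))}
      mul_mem' := by
        rintro ⟨a, b⟩ ⟨c, d⟩ h1 h2
        simp only [Set.mem_ofPred_eq, Prod.mk_mul_mk, map_mul, toAdd_mul, map_add] at h1 h2 ⊢
        rw [h1, h2]
      one_mem' := by simp
      inv_mem' := by
        rintro ⟨a, b⟩ h1
        simp only [Set.mem_ofPred_eq, Prod.inv_mk, map_inv, toAdd_inv, map_neg] at h1 ⊢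
        rw [h1] }
  have hP : ∀ a b, (a, b) ∈ P ↔ Multiplicative.toAdd (π b) = g (Multiplicative.toAdd (π a)) := fun _ _ => Iff.rfl
  have hπz : π z = 1 := (h.ker z).mpr (mem_zpowers z)
  have hsq : ∀ γ ∈ P, γ ^ 2 = 1 ∨ γ ^ 2 = (z, z) := by
    rintro ⟨a, b⟩ hab
    rw [hP] at hab
    have h1 : a ^ 2 = b ^ 2 := h.sq_eq (by rw [hab, hg])
    rcases h.xs.two_cases (h.xs.pow a) with h2 | h2
    · left; rw [Prod.pow_mk, ← h1, h2]; rfl
    · right; rw [Prod.pow_mk, ← h1, h2]
  have hzz : ((z, z) : E × E) ∈ P := by rw [hP, hπz]; simp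
  have h1z : ((1, z) : E × E) ∈ P := by rw [hP, hπz]; simp
  -- a maximal subgroup avoiding `(1, z)`
  obtain ⟨H, ⟨hHP, hHz, hH1⟩, hmax⟩ := Set.Finite.exists_maximalFor (fun X : Subgroup (E × E) => Nat.card X)
    {X : Subgroup (E × E) | X ≤ P ∧ (z, z) ∈ X ∧ ((1, z) : E × E) ∉ X}
    (Set.toFinite _) ⟨zpowers (z, z), by rw [zpowers_le]; exact hzz, mem_zpowers _, by
      rintro ⟨k, hk⟩
      have h2 : z ^ k = 1 := congrArg Prod.fst hk
      have h3 : z ^ k = z := congrArg Prod.snd hk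
      exact h.xs.z_ne_one (h3.symm.trans h2)⟩
  have hsqH : ∀ γ ∈ P, γ ^ 2 ∈ H := by
    intro γ hγ
    rcases hsq γ hγ with h1 | h1
    · rw [h1]; exact one_mem _
    · rw [h1]; exact hHz
  have hcomm : ∀ γ ∈ P, ∀ δ ∈ P, ⁅γ, δ⁆ ∈ H := by
    intro γ hγ δ hδ
    have h1 : (γ * δ) ^ 2 = γ ^ 2 * δ ^ 2 * ⁅γ, δ⁆ :=
      Prod.ext (h.xs.sq_mul γ.1 δ.1) (h.xs.sq_mul γ.2 δ.2)
    have h2 : ⁅γ, δ⁆ = (δ ^ 2)⁻¹ * ((γ ^ 2)⁻¹ * (γ * δ) ^ 2) := by rw [h1]; group
    rw [h2]
    exact mul_mem (inv_mem (hsqH δ hδ)) (mul_mem (inv_mem (hsqH γ hγ)) (hsqH _ (mul_mem hγ hδ)))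
  have hnorm : P ≤ normalizer (H : Set (E × E)) := by
    intro γ hγ
    apply GroupUtil.mem_normalizer_of_conj_le
    intro x hx
    have h1 : γ * x * γ⁻¹ = ⁅γ, x⁆ * x := by rw [commutatorElement_def]; group
    rw [h1]
    exact mul_mem (hcomm γ hγ x (hHP hx)) hx
  have key : ∀ γ ∈ P, γ ∈ H ∨ γ * (1, z) ∈ H := by
    intro γ hγ
    by_contra hcon
    push Not at hcon
    obtain ⟨h1, h2⟩ := hcon
    have h3 : (1, z) ∈ H ⊔ zpowers γ := by
      by_contra h4
      have h5 := hmax (j := H ⊔ zpowers γ) ⟨sup_le hHP (by rw [zpowers_le]; exact hγ),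
        (le_sup_left : H ≤ _) hHz, h4⟩ (card_le_of_le le_sup_left)
      have h6 := eq_of_le_of_card_ge le_sup_left h5
      apply h1
      rw [h6]
      exact (le_sup_right : zpowers γ ≤ _) (mem_zpowers γ)
    rw [GroupUtil.mem_sup_of_le_normalizer' (by rw [zpowers_le]; exact hnorm hγ)] at h3
    obtain ⟨x, hx, _, ⟨k, rfl⟩, hk⟩ := h3
    simp only at hk
    rcases Int.even_or_odd' k with ⟨m, rfl | rfl⟩
    · apply hH1
      rw [← hk]
      refine mul_mem hx ?_
      rw [zpow_mul]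
      exact zpow_mem (by rw [zpow_ofNat]; exact hsqH γ hγ) m
    · apply h2
      have h4 : γ = (x * (γ ^ 2) ^ m)⁻¹ * (1, z) := by
        rw [← hk, zpow_add, zpow_mul, zpow_one, zpow_ofNat]; group
      have h5 : ((1, z) : E × E) * (1, z) = 1 := by
        rw [Prod.mk_mul_mk, ← pow_two z, h.xs.z_sq, one_mul]; rfl
      rw [h4, mul_assoc, h5, mul_one]
      exact inv_mem (mul_mem hx (zpow_mem (hsqH γ hγ) m))
  have hex : ∀ a, ∃ b, (a, b) ∈ H := fun a => by
      obtain ⟨b, hb⟩ := h.surj (Multiplicative.ofAdd (g (Multiplicative.toAdd (π a))))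
      have h1 : (a, b) ∈ P := by rw [hP, hb]; rfl
      rcases key _ h1 with h2 | h2
      · exact ⟨b, h2⟩
      · exact ⟨b * z, by simpa using h2⟩
  obtain ⟨φ, hφ⟩ := equiv_of_graph H hex
    (fun b => by
      obtain ⟨a, ha⟩ := h.surj (Multiplicative.ofAdd (g.symm (Multiplicative.toAdd (π b))))
      have h1 : (a, b) ∈ P := by rw [hP, ha]; simp
      rcases key _ h1 with h2 | h2
      · exact ⟨a, h2⟩
      · refine ⟨a * z, ?_⟩
        have h3 := mul_mem h2 hHz
        have h5 : z * z = 1 := by rw [← pow_two z, h.xs.z_sq]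
        rw [Prod.mk_mul_mk, Prod.mk_mul_mk, mul_one, mul_assoc, h5, mul_one] at h3
        exact h3)
    (fun b hb => by
      have h1 := hHP hb
      rw [hP, map_one, toAdd_one, map_zero] at h1
      have h2 : π b = 1 := Multiplicative.toAdd.injective h1
      rw [h.ker] at h2
      rcases h.xs.two_cases h2 with h3 | h3
      · exact h3
      · rw [h3] at hb; exact absurd hb hH1)
    (fun a ha => by
      have h1 := hHP ha
      rw [hP, map_one, toAdd_one] at h1
      have h2 : π a = 1 := Multiplicative.toAdd.injective ((map_eq_zero_iff g g.injective).mp h1.symm)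
      rw [h.ker] at h2
      rcases h.xs.two_cases h2 with h3 | h3
      · exact h3
      · exfalso
        rw [h3] at ha
        apply hH1
        have h4 := mul_mem hHz (inv_mem ha)
        simpa using h4)
  refine ⟨φ, fun e => ?_⟩
  obtain ⟨b, hb⟩ := hex e
  rw [hφ e b hb]
  exact hHP hb

section outer

variable (π)

/-- the map on `V` induced by an endomorphism -/
noncomputable def QD.ind (h : QD z π Q) (φ : E →* E) (v : ι → ZMod 2) : ι → ZMod 2 :=
  Multiplicative.toAdd (π (φ (Function.surjInv h.surj (Multiplicative.ofAdd v))))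

variable {π}

omit [Fintype ι] [DecidableEq ι] in
theorem QD.map_zpowers (h : QD z π Q) (φ : MulAut E) {w : E} (hw : w ∈ zpowers z) : φ w ∈ zpowers z := by
  apply h.xs.center_le
  rw [mem_center_iff]
  intro g
  have h1 := mem_center_iff.mp (h.xs.zpowers_le hw) (φ.symm g)
  have h2 := congrArg φ h1
  rw [map_mul, map_mul, MulEquiv.apply_symm_apply] at h2
  exact h2

omit [Fintype ι] [DecidableEq ι] in
theorem QD.ind_apply (h : QD z π Q) (φ : MulAut E) (e : E) :
    h.ind π φ.toMonoidHom (Multiplicative.toAdd (π e)) = Multiplicative.toAdd (π (φ e)) := by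
  rw [QD.ind]
  congr 1
  have h1 : π (Function.surjInv h.surj (Multiplicative.ofAdd (Multiplicative.toAdd (π e)))) = π e :=
    Function.surjInv_eq h.surj _
  have h2 : Function.surjInv h.surj (Multiplicative.ofAdd (Multiplicative.toAdd (π e))) * e⁻¹ ∈ zpowers z := by
    rw [← h.ker, map_mul, h1, map_inv, mul_inv_cancel]
  have h3 := h.map_zpowers φ h2
  rw [← h.ker, map_mul, map_inv, map_mul, map_inv, mul_inv_eq_one] at h3
  exact h3

/-- the additive endomorphism of `V` induced by an automorphism -/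
noncomputable def QD.add (h : QD z π Q) (φ : MulAut E) : (ι → ZMod 2) →+ (ι → ZMod 2) where
  toFun := h.ind π φ.toMonoidHom
  map_zero' := by
    have := h.ind_apply φ 1
    simpa using this
  map_add' v w := by
    obtain ⟨a, ha⟩ := h.surj (Multiplicative.ofAdd v)
    obtain ⟨b, hb⟩ := h.surj (Multiplicative.ofAdd w)
    have hv : v = Multiplicative.toAdd (π a) := by rw [ha]; rfl
    have hw : w = Multiplicative.toAdd (π b) := by rw [hb]; rfl
    have hvw : v + w = Multiplicative.toAdd (π (a * b)) := by rw [map_mul, toAdd_mul, ← hv, ← hw]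
    rw [hvw, hv, hw, h.ind_apply, h.ind_apply, h.ind_apply, map_mul, map_mul, toAdd_mul]

theorem QD.add_apply (h : QD z π Q) (φ : MulAut E) (e : E) :
    h.add φ (Multiplicative.toAdd (π e)) = Multiplicative.toAdd (π (φ e)) := h.ind_apply φ e

/-- the matrix representation -/
noncomputable def QD.rep₀ (h : QD z π Q) : MulAut E →* Matrix ι ι (ZMod 2) where
  toFun φ := LinearMap.toMatrix' ((h.add φ).toZModLinearMap 2)
  map_one' := by
    rw [← LinearMap.toMatrix'_one]
    congr 1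
    apply LinearMap.ext
    intro v
    obtain ⟨a, ha⟩ := h.surj (Multiplicative.ofAdd v)
    have hv : v = Multiplicative.toAdd (π a) := by rw [ha]; rfl
    show h.add 1 v = v
    rw [hv, h.add_apply]; rfl
  map_mul' φ ψ := by
    rw [← LinearMap.toMatrix'_mul]
    congr 1
    apply LinearMap.ext
    intro v
    obtain ⟨a, ha⟩ := h.surj (Multiplicative.ofAdd v)
    have hv : v = Multiplicative.toAdd (π a) := by rw [ha]; rfl
    show h.add (φ * ψ) v = h.add φ (h.add ψ v)
    rw [hv, h.add_apply, h.add_apply, h.add_apply]; rfl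

theorem QD.rep₀_mulVec (h : QD z π Q) (φ : MulAut E) (e : E) :
    Matrix.mulVec (h.rep₀ φ) (Multiplicative.toAdd (π e)) = Multiplicative.toAdd (π (φ e)) := by
  rw [← h.add_apply]
  show Matrix.mulVec (LinearMap.toMatrix' ((h.add φ).toZModLinearMap 2)) _ = _
  rw [LinearMap.toMatrix'_mulVec]
  rfl

theorem mem_isometryGroup_iff (g : Matrix.GeneralLinearGroup ι (ZMod 2)) :
    g ∈ isometryGroup (ZMod 2) Q ↔ ∀ v, Q (Matrix.mulVec (g : Matrix ι ι (ZMod 2)) v) = Q v :=
  ⟨fun h v => h v v, fun h u _ => h u⟩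

theorem eq_of_iff : ∀ a b : ZMod 2, (a = 0 ↔ b = 0) → a = b := by decide

/-- `Aut E → O(V, Q)` -/
noncomputable def QD.rep (h : QD z π Q) : MulAut E →* isometryGroup (ZMod 2) Q :=
  (h.rep₀.toHomUnits).codRestrict (isometryGroup (ZMod 2) Q) (by
    intro φ
    rw [mem_isometryGroup_iff]
    intro v
    obtain ⟨a, ha⟩ := h.surj (Multiplicative.ofAdd v)
    have hv : v = Multiplicative.toAdd (π a) := by rw [ha]; rfl
    rw [MonoidHom.coe_toHomUnits, hv, h.rep₀_mulVec]
    apply eq_of_iff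
    rw [← h.sq, ← h.sq, ← map_pow, EmbeddingLike.map_eq_one_iff])

theorem QD.rep_mulVec (h : QD z π Q) (φ : MulAut E) (e : E) :
    Matrix.mulVec ((h.rep φ : Matrix.GeneralLinearGroup ι (ZMod 2)) : Matrix ι ι (ZMod 2))
      (Multiplicative.toAdd (π e)) = Multiplicative.toAdd (π (φ e)) :=
  h.rep₀_mulVec φ e

theorem QD.rep_eq_one_iff (h : QD z π Q) (φ : MulAut E) :
    h.rep φ = 1 ↔ ∀ e, π (φ e) = π e := by
  constructor
  · intro h1 e
    have h2 := h.rep_mulVec φ e
    rw [h1] at h2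
    apply Multiplicative.toAdd.injective
    rw [← h2]
    simp
  · intro h1
    apply Subtype.ext
    apply Units.ext
    apply Matrix.toLin'.injective
    apply LinearMap.ext
    intro v
    obtain ⟨a, ha⟩ := h.surj (Multiplicative.ofAdd v)
    have hv : v = Multiplicative.toAdd (π a) := by rw [ha]; rfl
    rw [Matrix.toLin'_apply, Matrix.toLin'_apply, hv, h.rep_mulVec, h1]
    simp

theorem QD.rep_ker [Finite E] (h : QD z π Q) (hE : Cfsg.IsExtraspecial 2 E) : h.rep.ker = Cfsg.Inn E := by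
  ext φ
  rw [MonoidHom.mem_ker, h.rep_eq_one_iff]
  constructor
  · intro h1
    obtain ⟨g, hg⟩ := ExtraInner.exists_conj Nat.prime_two hE φ.toMonoidHom (by
      intro x
      apply h.xs.zpowers_le
      rw [← h.ker, map_mul, map_inv]
      show π (φ x) * (π x)⁻¹ = 1
      rw [h1, mul_inv_cancel])
    refine ⟨g, ?_⟩
    ext x
    rw [MulAut.conj_apply]
    exact (hg x).symm
  · rintro ⟨g, rfl⟩ e
    rw [MulAut.conj_apply, map_mul, map_mul, map_inv, mul_comm (π g), mul_inv_cancel_right]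

theorem QD.rep_surjective [Finite E] (h : QD z π Q) : Function.Surjective h.rep := by
  rintro ⟨g, hg⟩
  rw [mem_isometryGroup_iff] at hg
  let f : (ι → ZMod 2) ≃+ (ι → ZMod 2) :=
    { toFun := fun v => Matrix.mulVec (g : Matrix ι ι (ZMod 2)) v
      invFun := fun v => Matrix.mulVec ((g⁻¹ : Matrix.GeneralLinearGroup ι (ZMod 2)) : Matrix ι ι (ZMod 2)) v
      left_inv := fun v => by simp [Matrix.mulVec_mulVec]
      right_inv := fun v => by simp [Matrix.mulVec_mulVec]
      map_add' := fun v w => Matrix.mulVec_add _ v w }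
  obtain ⟨φ, hφ⟩ := h.lift f hg
  refine ⟨φ, ?_⟩
  apply Subtype.ext
  apply Units.ext
  apply Matrix.toLin'.injective
  apply LinearMap.ext
  intro v
  obtain ⟨a, ha⟩ := h.surj (Multiplicative.ofAdd v)
  have hv : v = Multiplicative.toAdd (π a) := by rw [ha]; rfl
  rw [Matrix.toLin'_apply, Matrix.toLin'_apply, hv, h.rep_mulVec, hφ]
  rfl

/-- **`Out E ≅ O(V, Q)`** -/
theorem QD.out_equiv [Finite E] (h : QD z π Q) (hE : Cfsg.IsExtraspecial 2 E) :
    Nonempty (Cfsg.Out E ≃* isometryGroup (ZMod 2) Q) :=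
  ⟨(QuotientGroup.quotientMulEquivOfEq (h.rep_ker hE).symm).trans
    (QuotientGroup.quotientKerEquivOfSurjective h.rep h.rep_surjective)⟩

end outer

end Cfsg.Agent.Lib.ExtraOut
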