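import Cfsg.Prelude.Def_Transfer
import Mathlib

set_option autoImplicit false

/-! Explicit extraspecial 2-groups of order `2 ^ (2 n + 1)`: pairs `(v, a)` with `v : Fin n → F₂ × F₂`, `a : F₂` and
multiplication twisted by a bilinear form; `c` is the indicator of the quaternion factors. -/

namespace Cfsg.Agent.Lib.ExtraTwo

open Cfsg

/-- the underlying space. -/
abbrev Vec (n : ℕ) : Type := Fin n → ZMod 2 × ZMod 2

/-- the bilinear form. -/
def beta {n : ℕ} (c : Fin n → ZMod 2) (v w : Vec n) : ZMod 2 :=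
  ∑ i, ((v i).1 * (w i).2 + c i * ((v i).1 * (w i).1 + (v i).2 * (w i).2))

variable {n : ℕ} (c : Fin n → ZMod 2)

theorem beta_add_left (v v' w : Vec n) : beta c (v + v') w = beta c v w + beta c v' w := by
  simp only [beta, ← Finset.sum_add_distrib]
  apply Finset.sum_congr rfl
  intro i _
  simp only [Pi.add_apply, Prod.fst_add, Prod.snd_add]
  ring

theorem beta_add_right (v w w' : Vec n) : beta c v (w + w') = beta c v w + beta c v w' := by
  simp only [beta, ← Finset.sum_add_distrib]
  apply Finset.sum_congr rfl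
  intro i _
  simp only [Pi.add_apply, Prod.fst_add, Prod.snd_add]
  ring

theorem beta_zero_left (w : Vec n) : beta c 0 w = 0 := by
  simp [beta]

theorem beta_zero_right (w : Vec n) : beta c w 0 = 0 := by
  simp [beta]

theorem beta_neg_left (v w : Vec n) : beta c (-v) w = - beta c v w := by
  simp only [beta, ← Finset.sum_neg_distrib]
  apply Finset.sum_congr rfl
  intro i _
  simp only [Pi.neg_apply, Prod.fst_neg, Prod.snd_neg]
  ring

/-- the extraspecial group. -/
@[ext] structure Ex (c : Fin n → ZMod 2) where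
  v : Vec n
  a : ZMod 2

instance instFiniteEx : Finite (Ex c) :=
  Finite.of_injective (fun x : Ex c => (x.v, x.a)) (by
    intro x y h
    have h1 := congrArg Prod.fst h
    have h2 := congrArg Prod.snd h
    exact Ex.ext h1 h2)

instance instMulEx : Mul (Ex c) := ⟨fun x y => ⟨x.v + y.v, x.a + y.a + beta c x.v y.v⟩⟩
instance instOneEx : One (Ex c) := ⟨⟨0, 0⟩⟩
instance instInvEx : Inv (Ex c) := ⟨fun x => ⟨-x.v, -x.a + beta c x.v x.v⟩⟩

theorem mul_v (x y : Ex c) : (x * y).v = x.v + y.v := rfl
theorem mul_a (x y : Ex c) : (x * y).a = x.a + y.a + beta c x.v y.v := rfl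
theorem one_v : (1 : Ex c).v = 0 := rfl
theorem one_a : (1 : Ex c).a = 0 := rfl
theorem inv_v (x : Ex c) : (x⁻¹).v = -x.v := rfl
theorem inv_a (x : Ex c) : (x⁻¹).a = -x.a + beta c x.v x.v := rfl

instance instGroupEx : Group (Ex c) :=
  Group.ofLeftAxioms
    (by
      intro x y z
      ext1
      · simp only [mul_v, add_assoc]
      · simp only [mul_a, mul_v, beta_add_left, beta_add_right]; ring)
    (by
      intro x
      ext1
      · simp only [mul_v, one_v, zero_add]
      · simp only [mul_a, one_a, one_v, beta_zero_left]; ring)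
    (by
      intro x
      ext1
      · simp only [mul_v, inv_v, one_v, neg_add_cancel]
      · simp only [mul_a, inv_a, inv_v, one_a, beta_neg_left]; ring)

theorem card_Ex : Nat.card (Ex c) = 2 ^ (2 * n + 1) := by
  have e : Ex c ≃ Vec n × ZMod 2 :=
    ⟨fun x => (x.v, x.a), fun p => ⟨p.1, p.2⟩, fun x => rfl, fun p => rfl⟩
  rw [Nat.card_congr e, Nat.card_prod, Nat.card_fun, Nat.card_prod, Nat.card_zmod, Nat.card_fin]
  rw [pow_succ, pow_mul]
  norm_num

theorem isPGroup : IsPGroup 2 (Ex c) := IsPGroup.of_card (card_Ex c)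

theorem mem_center_iff (x : Ex c) : x ∈ Subgroup.center (Ex c) ↔ x.v = 0 := by
  classical
  rw [Subgroup.mem_center_iff]
  constructor
  · intro h
    have hb : ∀ w : Vec n, beta c w x.v = beta c x.v w := by
      intro w
      have := congrArg Ex.a (h ⟨w, 0⟩)
      simp only [mul_a] at this
      have h2 : (0 : ZMod 2) + x.a + beta c w x.v = x.a + 0 + beta c x.v w := this
      rw [zero_add, add_zero] at h2
      exact add_left_cancel h2
    funext i
    have h1 := hb (Pi.single i (0, 1))
    have h2 := hb (Pi.single i (1, 0))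
    simp only [beta] at h1 h2
    rw [Finset.sum_eq_single i, Finset.sum_eq_single i] at h1 h2
    · simp only [Pi.single_eq_same] at h1 h2
      have e1 : (x.v i).1 = 0 := by
        have : (x.v i).1 = ((x.v i).1 * 1 + c i * ((x.v i).1 * 0 + (x.v i).2 * 1)) -
          (0 * (x.v i).2 + c i * (0 * (x.v i).1 + 1 * (x.v i).2)) := by ring
        rw [this, ← h1]; ring
      have e2 : (x.v i).2 = 0 := by
        have : (x.v i).2 = (1 * (x.v i).2 + c i * (1 * (x.v i).1 + 0 * (x.v i).2)) -
          ((x.v i).1 * 0 + c i * ((x.v i).1 * 1 + (x.v i).2 * 0)) := by ring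
        rw [this, ← h2]; ring
      exact Prod.ext e1 e2
    all_goals
      intros
      simp_all
  · intro h g
    ext1
    · simp only [mul_v, h]; rw [add_comm]
    · simp only [mul_a, h, beta_zero_left, beta_zero_right]; ring

theorem card_center : Nat.card (Subgroup.center (Ex c)) = 2 := by
  have e : Subgroup.center (Ex c) ≃ ZMod 2 :=
    ⟨fun x => x.1.a, fun a => ⟨⟨0, a⟩, (mem_center_iff c _).2 rfl⟩,
      fun x => Subtype.ext (Ex.ext ((mem_center_iff c _).1 x.2).symm rfl), fun a => rfl⟩
  rw [Nat.card_congr e, Nat.card_zmod]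

theorem commutator_le_center : commutator (Ex c) ≤ Subgroup.center (Ex c) := by
  rw [commutator_eq_closure, Subgroup.closure_le]
  rintro _ ⟨x, y, rfl⟩
  rw [SetLike.mem_coe, mem_center_iff]
  rw [commutatorElement_def]
  simp only [mul_v, inv_v]
  abel

theorem exists_commutator (hn : 1 ≤ n) : ∃ x y : Ex c, x * y * x⁻¹ * y⁻¹ ≠ 1 := by
  classical
  have i : Fin n := ⟨0, hn⟩
  by_contra h
  push Not at h
  have hx : (⟨Pi.single i (1, 0), 0⟩ : Ex c) ∈ Subgroup.center (Ex c) := by
    rw [Subgroup.mem_center_iff]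
    intro y
    have := h y ⟨Pi.single i (1, 0), 0⟩
    rw [mul_inv_eq_one, mul_inv_eq_iff_eq_mul] at this
    exact this
  rw [mem_center_iff] at hx
  have := congrFun hx i
  simp at this

theorem commutator_eq_center (hn : 1 ≤ n) : commutator (Ex c) = Subgroup.center (Ex c) := by
  apply le_antisymm (commutator_le_center c)
  obtain ⟨x, y, hxy⟩ := exists_commutator c hn
  have hmem : x * y * x⁻¹ * y⁻¹ ∈ commutator (Ex c) := by
    rw [commutator_def]
    exact Subgroup.commutator_mem_commutator (Subgroup.mem_top x) (Subgroup.mem_top y)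
  have h1 : Nat.card (commutator (Ex c)) ∣ Nat.card (Subgroup.center (Ex c)) :=
    Subgroup.card_dvd_of_le (commutator_le_center c)
  rw [card_center] at h1
  rcases (Nat.dvd_prime Nat.prime_two).1 h1 with h | h
  · exfalso
    rw [Subgroup.card_eq_one] at h
    rw [h, Subgroup.mem_bot] at hmem
    exact hxy hmem
  · have := Subgroup.eq_of_le_of_card_ge (commutator_le_center c) (by rw [h, card_center])
    exact this.ge

theorem center_le_frattini (hn : 1 ≤ n) : Subgroup.center (Ex c) ≤ frattini (Ex c) := by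
  unfold frattini Order.radical
  apply le_iInf₂
  intro M hM
  by_contra hZ
  -- M ⊔ Z = ⊤
  have hsup : M ⊔ Subgroup.center (Ex c) = ⊤ := by
    apply hM.2
    exact left_lt_sup.2 hZ
  apply hZ
  rw [← commutator_eq_center c hn, commutator_eq_closure, Subgroup.closure_le]
  have hdec : ∀ x : Ex c, ∃ m ∈ M, ∃ z ∈ Subgroup.center (Ex c), m * z = x := by
    intro x
    have hx : x ∈ M ⊔ Subgroup.center (Ex c) := by rw [hsup]; trivial
    exact Subgroup.mem_sup_of_normal_right.1 hx
  rintro _ ⟨x, y, rfl⟩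
  obtain ⟨m, hm, z, hz, rfl⟩ := hdec x
  obtain ⟨m', hm', z', hz', rfl⟩ := hdec y
  have e : (m * z) * (m' * z') * (m * z)⁻¹ * (m' * z')⁻¹ = m * m' * m⁻¹ * m'⁻¹ := by
    rw [mul_inv_rev, mul_inv_rev]
    have h1 := Subgroup.mem_center_iff.1 hz
    have h2 := Subgroup.mem_center_iff.1 hz'
    calc m * z * (m' * z') * (z⁻¹ * m⁻¹) * (z'⁻¹ * m'⁻¹)
        = m * (z * (m' * z' * z⁻¹)) * m⁻¹ * z'⁻¹ * m'⁻¹ := by group
      _ = m * ((m' * z' * z⁻¹) * z) * m⁻¹ * z'⁻¹ * m'⁻¹ := by rw [h1 (m' * z' * z⁻¹)]
      _ = m * m' * (z' * m⁻¹) * z'⁻¹ * m'⁻¹ := by group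
      _ = m * m' * (m⁻¹ * z') * z'⁻¹ * m'⁻¹ := by rw [h2 m⁻¹]
      _ = m * m' * m⁻¹ * m'⁻¹ := by group
  rw [SetLike.mem_coe, commutatorElement_def, e]
  exact M.mul_mem (M.mul_mem (M.mul_mem hm hm') (M.inv_mem hm)) (M.inv_mem hm')

/-- index two subgroup of a functional. -/
def hyper (f : Vec n →+ ZMod 2) : Subgroup (Ex c) where
  carrier := {x | f x.v = 0}
  mul_mem' := by
    intro x y hx hy
    show f (x.v + y.v) = 0
    rw [map_add, show f x.v = 0 from hx, show f y.v = 0 from hy, add_zero]
  one_mem' := map_zero f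
  inv_mem' := by
    intro x hx
    show f (-x.v) = 0
    rw [map_neg, show f x.v = 0 from hx, neg_zero]

theorem hyper_coatom (f : Vec n →+ ZMod 2) (v : Vec n) (hv : f v ≠ 0) : IsCoatom (hyper c f) := by
  constructor
  · intro h
    have : (⟨v, 0⟩ : Ex c) ∈ hyper c f := by rw [h]; trivial
    exact hv this
  · intro K hK
    obtain ⟨x, hxK, hx⟩ := SetLike.exists_of_lt hK
    have hx' : f x.v ≠ 0 := hx
    rw [eq_top_iff]
    intro y _
    by_cases hy : f y.v = 0
    · exact hK.le hy
    · have h1 : x * y ∈ hyper c f := by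
        show f (x.v + y.v) = 0
        rw [map_add]
        have : ∀ a b : ZMod 2, a ≠ 0 → b ≠ 0 → a + b = 0 := by decide
        exact this _ _ hx' hy
      have h2 : y = x⁻¹ * (x * y) := by group
      rw [h2]
      exact K.mul_mem (K.inv_mem hxK) (hK.le h1)

theorem frattini_le_center : frattini (Ex c) ≤ Subgroup.center (Ex c) := by
  intro x hx
  rw [mem_center_iff]
  by_contra hv
  obtain ⟨i, hi⟩ : ∃ i, x.v i ≠ 0 := by
    by_contra h
    push Not at h
    exact hv (funext h)
  have : ∃ f : Vec n →+ ZMod 2, f x.v ≠ 0 := by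
    by_cases h1 : (x.v i).1 = 0
    · refine ⟨(AddMonoidHom.snd _ _).comp (Pi.evalAddMonoidHom _ i), ?_⟩
      intro h2
      exact hi (Prod.ext h1 h2)
    · exact ⟨(AddMonoidHom.fst _ _).comp (Pi.evalAddMonoidHom _ i), h1⟩
  obtain ⟨f, hf⟩ := this
  have hle : frattini (Ex c) ≤ hyper c f := by
    unfold frattini Order.radical
    exact iInf₂_le _ (hyper_coatom c f _ hf)
  exact hf (hle hx)

theorem isExtraspecial (hn : 1 ≤ n) : IsExtraspecial 2 (Ex c) :=
  ⟨⟨isPGroup c, le_antisymm (frattini_le_center c) (center_le_frattini c hn), commutator_eq_center c hn⟩,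
    card_center c⟩

/-! ### Elementary abelian subgroups -/

/-- sign character of `F₂`. -/
def chi (a : ZMod 2) : ℤ := if a = 0 then 1 else -1

theorem chi_add : ∀ a b : ZMod 2, chi (a + b) = chi a * chi b := by decide

theorem chi_zero : chi 0 = 1 := rfl

theorem chi_sum {ι : Type*} (s : Finset ι) (f : ι → ZMod 2) : chi (∑ i ∈ s, f i) = ∏ i ∈ s, chi (f i) := by
  classical
  induction s using Finset.induction_on with
  | empty => simp [chi_zero]
  | insert a s ha ih => rw [Finset.sum_insert ha, Finset.prod_insert ha, chi_add, ih]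

theorem chi_abs (a : ZMod 2) : |chi a| = 1 := by
  revert a; decide

/-- the quadratic form. -/
def qf (v : Vec n) : ZMod 2 := beta c v v

/-- the polar form. -/
def pol (v w : Vec n) : ZMod 2 := beta c v w + beta c w v

theorem qf_add (v w : Vec n) : qf c (v + w) = qf c v + qf c w + pol c v w := by
  simp only [qf, pol, beta_add_left, beta_add_right]; ring

/-- the local quadratic form. -/
def qloc (e : ZMod 2) (p : ZMod 2 × ZMod 2) : ZMod 2 := p.1 * p.2 + e * (p.1 * p.1 + p.2 * p.2)

theorem qf_eq (v : Vec n) : qf c v = ∑ i, qloc (c i) (v i) := rfl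

theorem sum_qloc : ∀ e : ZMod 2, ∑ p : ZMod 2 × ZMod 2, chi (qloc e p) = 2 * chi e := by decide

theorem gauss : ∑ v : Vec n, chi (qf c v) = ∏ i, (2 * chi (c i)) := by
  simp only [← sum_qloc]
  rw [Finset.prod_univ_sum]
  rw [Fintype.piFinset_univ]
  apply Finset.sum_congr rfl
  intro v _
  rw [qf_eq, chi_sum]

theorem pol_eq_zero_of_forall (v : Vec n) (h : ∀ w, pol c v w = 0) : v = 0 := by
  have : (⟨v, 0⟩ : Ex c) ∈ Subgroup.center (Ex c) := by
    rw [Subgroup.mem_center_iff]
    intro g
    ext1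
    · simp only [mul_v]; rw [add_comm]
    · simp only [mul_a]
      have h1 := h g.v
      simp only [pol] at h1
      have h2 : ∀ x y : ZMod 2, x + y = 0 → x = y := by decide
      rw [h2 _ _ h1]; ring
  rw [mem_center_iff] at this
  exact this

theorem pol_add_left (v v' w : Vec n) : pol c (v + v') w = pol c v w + pol c v' w := by
  simp only [pol, beta_add_left, beta_add_right]; ring

theorem pol_add_right (v w w' : Vec n) : pol c v (w + w') = pol c v w + pol c v w' := by
  simp only [pol, beta_add_left, beta_add_right]; ring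

theorem pol_zero_right (v : Vec n) : pol c v 0 = 0 := by
  simp only [pol, beta_zero_left, beta_zero_right, add_zero]

theorem pol_zero_left (v : Vec n) : pol c 0 v = 0 := by
  simp only [pol, beta_zero_left, beta_zero_right, add_zero]

theorem pol_comm (v w : Vec n) : pol c v w = pol c w v := by
  simp only [pol]; rw [add_comm]

open Classical in
/-- sum of `χ(b(v,u))` over a subgroup. -/
theorem sum_sub (U : AddSubgroup (Vec n)) (v : Vec n) :
    ∑ u ∈ Finset.univ.filter (· ∈ U), chi (pol c v u) =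
      if ∀ u ∈ U, pol c v u = 0 then (Nat.card U : ℤ) else 0 := by
  split_ifs with h
  · rw [Finset.sum_congr rfl (g := fun _ => (1 : ℤ))]
    · rw [Finset.sum_const, nsmul_eq_mul, mul_one, Nat.card_eq_fintype_card, Fintype.card_subtype]
    · intro u hu
      rw [h u (Finset.mem_filter.1 hu).2, chi_zero]
  · push Not at h
    obtain ⟨u₀, hu₀, hne⟩ := h
    have h1 : pol c v u₀ = 1 := by
      have : ∀ a : ZMod 2, a ≠ 0 → a = 1 := by decide
      exact this _ hne
    have key : ∑ u ∈ Finset.univ.filter (· ∈ U), chi (pol c v u) =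
        ∑ u ∈ Finset.univ.filter (· ∈ U), chi (pol c v (u + u₀)) := by
      symm
      apply Finset.sum_bij (fun u _ => u + u₀)
      · intro u hu
        rw [Finset.mem_filter] at hu ⊢
        exact ⟨Finset.mem_univ _, U.add_mem hu.2 hu₀⟩
      · intro a _ b _ hab
        exact add_right_cancel hab
      · intro b hb
        rw [Finset.mem_filter] at hb
        exact ⟨b - u₀, Finset.mem_filter.2 ⟨Finset.mem_univ _, U.sub_mem hb.2 hu₀⟩, sub_add_cancel _ _⟩
      · intro u _; rfl
    have h2 : ∀ u, chi (pol c v (u + u₀)) = - chi (pol c v u) := by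
      intro u
      rw [pol_add_right, chi_add, h1]
      show chi (pol c v u) * (-1) = _
      ring
    simp only [h2, Finset.sum_neg_distrib] at key
    linarith

open Classical in
/-- orthogonal complement as a finset. -/
noncomputable def perp (U : AddSubgroup (Vec n)) : Finset (Vec n) :=
  Finset.univ.filter (fun v => ∀ u ∈ U, pol c v u = 0)

open Classical in
theorem card_perp (U : AddSubgroup (Vec n)) : (Nat.card U : ℤ) * (perp c U).card = 4 ^ n := by
  have h1 : ∑ v : Vec n, ∑ u ∈ Finset.univ.filter (· ∈ U), chi (pol c v u) =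
      (Nat.card U : ℤ) * (perp c U).card := by
    simp only [sum_sub]
    rw [← Finset.sum_filter, Finset.sum_const, nsmul_eq_mul, mul_comm]
    rfl
  rw [← h1, Finset.sum_comm]
  have h2 : ∀ u : Vec n, ∑ v : Vec n, chi (pol c v u) = if u = 0 then 4 ^ n else 0 := by
    intro u
    have := sum_sub c ⊤ u
    simp only [AddSubgroup.mem_top, Finset.filter_true, forall_true_left] at this
    simp only [pol_comm c _ u]
    rw [this]
    by_cases hu : u = 0
    · subst hu
      rw [if_pos (fun w => pol_zero_left c w), if_pos rfl,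
        Nat.card_congr (Equiv.subtypeUnivEquiv (fun _ => trivial)), Nat.card_fun, Nat.card_prod,
        Nat.card_zmod, Nat.card_fin]
      norm_num
    · rw [if_neg hu, if_neg]
      intro h
      exact hu (pol_eq_zero_of_forall c u h)
  simp only [h2]
  rw [Finset.sum_ite_eq' , if_pos]
  simp [U.zero_mem]

open Classical in
/-- The Gauss sum is the sum over the orthogonal complement of a totally singular subgroup. -/
theorem gauss_perp (U : AddSubgroup (Vec n)) (hU : ∀ u ∈ U, qf c u = 0) :
    ∑ v : Vec n, chi (qf c v) = ∑ v ∈ perp c U, chi (qf c v) := by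
  have hpos : (0 : ℤ) < Nat.card U := by
    have : 0 < Nat.card U := Nat.card_pos
    exact_mod_cast this
  apply mul_left_cancel₀ hpos.ne'
  have h1 : ∀ u ∈ Finset.univ.filter (· ∈ U), ∑ v : Vec n, chi (qf c v) = ∑ v : Vec n, chi (qf c v) * chi (pol c v u) := by
    intro u hu
    rw [Finset.mem_filter] at hu
    rw [← Equiv.sum_comp (Equiv.addRight u)]
    apply Finset.sum_congr rfl
    intro v _
    rw [Equiv.coe_addRight, qf_add, hU u hu.2, add_zero, chi_add]
  have h2 : (Nat.card U : ℤ) * ∑ v : Vec n, chi (qf c v) =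
      ∑ u ∈ Finset.univ.filter (· ∈ U), ∑ v : Vec n, chi (qf c v) * chi (pol c v u) := by
    rw [← Finset.sum_congr rfl h1, Finset.sum_const, nsmul_eq_mul, Nat.card_eq_fintype_card,
      Fintype.card_subtype]
  rw [h2, Finset.sum_comm]
  simp only [← Finset.mul_sum, sum_sub, perp]
  rw [Finset.sum_filter, Finset.mul_sum]
  apply Finset.sum_congr rfl
  intro v _
  split_ifs
  · ring
  · ring

/-- bound for totally singular subgroups. -/
theorem card_sq_le (U : AddSubgroup (Vec n)) (hU : ∀ u ∈ U, qf c u = 0) :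
    Nat.card U ≤ 2 ^ n ∧ ((∏ i, (2 * chi (c i))) < 0 → Nat.card U < 2 ^ n) := by
  classical
  have hsub : ∀ u ∈ U, u ∈ perp c U := by
    intro u hu
    rw [perp, Finset.mem_filter]
    refine ⟨Finset.mem_univ _, fun w hw => ?_⟩
    have := qf_add c u w
    rw [hU u hu, hU w hw, hU _ (U.add_mem hu hw), zero_add, zero_add] at this
    exact this.symm
  have hle : Nat.card U ≤ (perp c U).card := by
    rw [Nat.card_eq_fintype_card, Fintype.card_subtype]
    apply Finset.card_le_card
    intro u hu
    exact hsub u (Finset.mem_filter.1 hu).2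
  have hprod := card_perp c U
  have h4 : (4 : ℤ) ^ n = 2 ^ n * 2 ^ n := by
    rw [← mul_pow]; norm_num
  have hprod' : Nat.card U * (perp c U).card = 2 ^ n * 2 ^ n := by
    rw [h4] at hprod
    exact_mod_cast hprod
  have hfirst : Nat.card U ≤ 2 ^ n := by
    by_contra h
    push Not at h
    have := Nat.mul_lt_mul'' h (lt_of_lt_of_le h hle)
    omega
  refine ⟨hfirst, fun hneg => lt_of_le_of_ne hfirst ?_⟩
  intro heq
  have hp : (perp c U).card = 2 ^ n := by
    rw [heq] at hprod'
    exact Nat.eq_of_mul_eq_mul_left (by positivity) hprod'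
  have hfin : perp c U = Finset.univ.filter (· ∈ U) := by
    symm
    apply Finset.eq_of_subset_of_card_le
    · intro u hu
      exact hsub u (Finset.mem_filter.1 hu).2
    · rw [hp, ← Fintype.card_subtype, ← Nat.card_eq_fintype_card]
      exact heq.ge
  have hg := gauss_perp c U hU
  rw [gauss, hfin] at hg
  have : ∑ v ∈ Finset.univ.filter (· ∈ U), chi (qf c v) = (Nat.card U : ℤ) := by
    rw [Finset.sum_congr rfl (g := fun _ => (1 : ℤ))]
    · rw [Finset.sum_const, nsmul_eq_mul, mul_one, Nat.card_eq_fintype_card, Fintype.card_subtype]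
    · intro u hu
      rw [hU u (Finset.mem_filter.1 hu).2, chi_zero]
  rw [this] at hg
  rw [hg] at hneg
  have : (0 : ℤ) ≤ Nat.card U := by positivity
  linarith

/-- the image of a subgroup in the vector space. -/
def img (A : Subgroup (Ex c)) : AddSubgroup (Vec n) where
  carrier := {v | ∃ a, (⟨v, a⟩ : Ex c) ∈ A}
  add_mem' := by
    rintro v w ⟨a, ha⟩ ⟨b, hb⟩
    exact ⟨_, A.mul_mem ha hb⟩
  zero_mem' := ⟨0, A.one_mem⟩
  neg_mem' := by
    rintro v ⟨a, ha⟩
    exact ⟨_, A.inv_mem ha⟩

theorem sq_eq (x : Ex c) : (x ^ 2).a = qf c x.v := by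
  rw [pow_two, mul_a, qf]
  have : ∀ a : ZMod 2, a + a = 0 := by decide
  rw [this, zero_add]

theorem card_elem (A : Subgroup (Ex c)) (hA : IsElementaryAbelian 2 A) :
    Nat.card A ≤ 2 ^ (n + 1) ∧ ((∏ i, (2 * chi (c i))) < 0 → Nat.card A < 2 ^ (n + 1)) := by
  have hq : ∀ u ∈ img c A, qf c u = 0 := by
    rintro u ⟨a, ha⟩
    have h1 := hA.2 _ ha
    have h2 := sq_eq c ⟨u, a⟩
    rw [h1] at h2
    exact h2.symm
  have hcard : Nat.card A ≤ Nat.card (img c A) * 2 := by
    have hinj : Function.Injective (fun x : A => ((⟨x.1.v, x.1.a, x.2⟩ : img c A), x.1.a)) := by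
      intro x y h
      apply Subtype.ext
      apply Ex.ext
      · exact congrArg (fun p => p.1.1) h
      · exact congrArg (fun p => p.2) h
    have := Nat.card_le_card_of_injective _ hinj
    rwa [Nat.card_prod, Nat.card_zmod] at this
  obtain ⟨h1, h2⟩ := card_sq_le c (img c A) hq
  rw [pow_succ]
  refine ⟨hcard.trans (Nat.mul_le_mul_right 2 h1), fun h => lt_of_le_of_lt hcard ?_⟩
  exact Nat.mul_lt_mul_of_pos_right (h2 h) (by norm_num)

/-- an elementary abelian subgroup from an isotropic embedding. -/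
theorem exists_elem {k : ℕ} (ι : (Fin k → ZMod 2) →+ Vec n) (hinj : Function.Injective ι)
    (hiso : ∀ x y, beta c (ι x) (ι y) = 0) :
    ∃ A : Subgroup (Ex c), IsElementaryAbelian 2 A ∧ Nat.card A = 2 ^ (k + 1) := by
  let A : Subgroup (Ex c) :=
    { carrier := {x | ∃ y, ι y = x.v}
      mul_mem' := by
        rintro x x' ⟨y, hy⟩ ⟨y', hy'⟩
        exact ⟨y + y', by rw [map_add, hy, hy', mul_v]⟩
      one_mem' := ⟨0, by rw [map_zero, one_v]⟩
      inv_mem' := by
        rintro x ⟨y, hy⟩
        exact ⟨-y, by rw [map_neg, hy, inv_v]⟩ }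
  have two : ∀ a : ZMod 2, a + a = 0 := by decide
  have twoV : ∀ v : Vec n, v + v = 0 := by
    intro v; funext i
    exact Prod.ext (two _) (two _)
  refine ⟨A, ⟨⟨⟨?_⟩⟩, ?_⟩, ?_⟩
  · rintro ⟨x, y, hy⟩ ⟨x', y', hy'⟩
    apply Subtype.ext
    ext1
    · show x.v + x'.v = x'.v + x.v
      rw [add_comm]
    · show x.a + x'.a + beta c x.v x'.v = x'.a + x.a + beta c x'.v x.v
      rw [← hy, ← hy', hiso, hiso]; ring
  · rintro x ⟨y, hy⟩
    rw [pow_two]
    ext1
    · rw [mul_v, twoV]; rfl
    · rw [mul_a, ← hy, hiso, two, add_zero]; rfl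
  · have e : A ≃ (Fin k → ZMod 2) × ZMod 2 :=
      (Equiv.ofBijective (fun p : (Fin k → ZMod 2) × ZMod 2 => (⟨⟨ι p.1, p.2⟩, p.1, rfl⟩ : A)) (by
        constructor
        · intro p p' h
          have h1 := congrArg (fun x : A => x.1.v) h
          have h2 := congrArg (fun x : A => x.1.a) h
          exact Prod.ext (hinj h1) h2
        · rintro ⟨x, y, hy⟩
          refine ⟨(y, x.a), ?_⟩
          apply Subtype.ext
          exact Ex.ext hy rfl)).symm
    rw [Nat.card_congr e, Nat.card_prod, Nat.card_fun, Nat.card_zmod, Nat.card_fin, pow_succ]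

end Cfsg.Agent.Lib.ExtraTwo
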