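import Cfsg.Agent.Lib.ExtraOut
import Cfsg.Agent.Lib.ExtraTwo

/-!
# Outer automorphisms of extraspecial 2-groups: explicit quadratic forms (helper2)
-/

set_option autoImplicit false

open Subgroup
open scoped commutatorElement

namespace Cfsg.Agent.Lib.ExtraOut

open Cfsg.Agent.Lib.Extraspecial Cfsg Cfsg.Agent.Lib.ExtraTwo

universe u

theorem qd_of_equiv {E : Type u} [Group E] [Finite E] {z : E} (h : XS 2 E z) {n : ℕ} {c : Fin n → ZMod 2}
    (e : E ≃* Ex c) {ι : Type} (f : Vec n →+ (ι → ZMod 2)) (hinj : Function.Injective f)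
    (hsurj : Function.Surjective f) {Q : (ι → ZMod 2) → ZMod 2} (hQ : ∀ v, Q (f v) = qf c v) :
    ∃ π : E →* Multiplicative (ι → ZMod 2), QD z π Q := by
  let π : E →* Multiplicative (ι → ZMod 2) :=
    { toFun := fun x => Multiplicative.ofAdd (f (e x).v)
      map_one' := by rw [map_one, one_v, map_zero, ofAdd_zero]
      map_mul' := fun x y => by rw [map_mul, mul_v, map_add, ofAdd_add] }
  have two : ∀ a : ZMod 2, a + a = 0 := by decide
  refine ⟨π, h, ?_, ?_, ?_⟩
  · intro w
    obtain ⟨v, hv⟩ := hsurj (Multiplicative.toAdd w)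
    refine ⟨e.symm ⟨v, 0⟩, ?_⟩
    show Multiplicative.ofAdd (f (e (e.symm ⟨v, 0⟩)).v) = w
    rw [MulEquiv.apply_symm_apply]
    show Multiplicative.ofAdd (f v) = w
    rw [hv]; rfl
  · intro x
    have h1 : π x = 1 ↔ (e x).v = 0 := by
      show Multiplicative.ofAdd (f (e x).v) = 1 ↔ _
      rw [ofAdd_eq_one, map_eq_zero_iff f hinj]
    rw [h1, ← ExtraTwo.mem_center_iff]
    constructor
    · intro h2
      apply h.center_le
      rw [Subgroup.mem_center_iff] at h2 ⊢
      intro g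
      apply e.injective
      rw [map_mul, map_mul]
      exact h2 (e g)
    · intro h2
      have h3 := h.zpowers_le h2
      rw [Subgroup.mem_center_iff] at h3 ⊢
      intro g
      have := h3 (e.symm g)
      have h4 := congrArg e this
      rwa [map_mul, map_mul, MulEquiv.apply_symm_apply] at h4
  · intro x
    show x ^ 2 = 1 ↔ Q (f (e x).v) = 0
    rw [hQ, ← sq_eq, ← map_pow]
    constructor
    · intro h1; rw [h1, map_one]; rfl
    · intro h1
      apply e.injective
      rw [map_one]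
      apply Ex.ext
      · rw [map_pow, pow_two, mul_v, one_v]
        funext i
        exact Prod.ext (two _) (two _)
      · exact h1

/-- the coordinates for plus type -/
def fPlus (n : ℕ) : Vec n →+ (Fin n ⊕ Fin n → ZMod 2) where
  toFun v := Sum.elim (fun i => (v i).1) (fun i => (v i).2)
  map_zero' := by
    funext i
    rcases i with i | i <;> rfl
  map_add' v w := by
    funext i
    rcases i with i | i <;> rfl

theorem fPlus_injective (n : ℕ) : Function.Injective (fPlus n) := by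
  intro v w h
  funext i
  exact Prod.ext (congrFun h (Sum.inl i)) (congrFun h (Sum.inr i))

theorem fPlus_surjective (n : ℕ) : Function.Surjective (fPlus n) := by
  intro w
  refine ⟨fun i => (w (Sum.inl i), w (Sum.inr i)), ?_⟩
  funext i
  rcases i with i | i <;> rfl

theorem fPlus_form (n : ℕ) (v : Vec n) : quadFormPlus n (ZMod 2) (fPlus n v) = qf (0 : Fin n → ZMod 2) v := by
  rw [qf_eq, quadFormPlus]
  apply Finset.sum_congr rfl
  intro i _
  simp [qloc, fPlus]

/-- the coordinates for minus type -/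
def fMinus (k : ℕ) : Vec (k + 1) →+ ((Fin k ⊕ Fin k) ⊕ Fin 2 → ZMod 2) where
  toFun v := Sum.elim (Sum.elim (fun i => (v i.castSucc).1) (fun i => (v i.castSucc).2))
    ![(v (Fin.last k)).1, (v (Fin.last k)).2]
  map_zero' := by
    funext i
    rcases i with (i | i) | i
    · rfl
    · rfl
    · fin_cases i <;> rfl
  map_add' v w := by
    funext i
    rcases i with (i | i) | i
    · rfl
    · rfl
    · fin_cases i <;> rfl

theorem fMinus_injective (k : ℕ) : Function.Injective (fMinus k) := by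
  intro v w h
  funext i
  refine Fin.lastCases ?_ (fun j => ?_) i
  · exact Prod.ext (congrFun h (Sum.inr 0)) (congrFun h (Sum.inr 1))
  · exact Prod.ext (congrFun h (Sum.inl (Sum.inl j))) (congrFun h (Sum.inl (Sum.inr j)))

theorem fMinus_surjective (k : ℕ) : Function.Surjective (fMinus k) := by
  intro w
  refine ⟨fun i => Fin.lastCases (motive := fun _ => ZMod 2 × ZMod 2) (w (Sum.inr 0), w (Sum.inr 1))
    (fun j => (w (Sum.inl (Sum.inl j)), w (Sum.inl (Sum.inr j)))) i, ?_⟩
  funext i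
  rcases i with (i | i) | i
  · simp [fMinus]
  · simp [fMinus]
  · fin_cases i <;> simp [fMinus]

/-- the indicator of the last coordinate -/
def cLast (k : ℕ) : Fin (k + 1) → ZMod 2 := Pi.single (Fin.last k) 1

theorem fMinus_form (k : ℕ) (v : Vec (k + 1)) :
    quadFormMinus k (ZMod 2) 1 1 (fMinus k v) = qf (cLast k) v := by
  rw [qf_eq, quadFormMinus, Fin.sum_univ_castSucc]
  congr 1
  · apply Finset.sum_congr rfl
    intro i _
    have : cLast k i.castSucc = 0 := by
      rw [cLast, Pi.single_apply, if_neg (Fin.castSucc_lt_last i).ne]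
    rw [this]
    simp [qloc, fMinus]
  · have : cLast k (Fin.last k) = 1 := by
      rw [cLast, Pi.single_apply, if_pos rfl]
    rw [this]
    simp only [qloc, fMinus, AddMonoidHom.coe_mk, ZeroHom.coe_mk, Sum.elim_inr, Matrix.cons_val_zero,
      Matrix.cons_val_one]
    ring

theorem exists_elem_zero (n : ℕ) : ∃ A : Subgroup (Ex (0 : Fin n → ZMod 2)), IsElementaryAbelian 2 A ∧
    Nat.card A = 2 ^ (n + 1) := by
  let i : (Fin n → ZMod 2) →+ Vec n :=
    { toFun := fun v j => (v j, 0)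
      map_zero' := by funext j; rfl
      map_add' := fun v w => by funext j; exact Prod.ext rfl (add_zero _).symm }
  apply exists_elem (0 : Fin n → ZMod 2) i
  · intro v w h
    funext j
    exact congrArg Prod.fst (congrFun h j)
  · intro v w
    simp [beta, i]

theorem prod_neg (k : ℕ) : (∏ i, (2 * chi (cLast k i))) < 0 := by
  rw [Fin.prod_univ_castSucc]
  have h1 : ∀ i : Fin k, 2 * chi (cLast k i.castSucc) = 2 := by
    intro i
    have : cLast k i.castSucc = 0 := by
      rw [cLast, Pi.single_apply, if_neg (Fin.castSucc_lt_last i).ne]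
    rw [this, chi_zero]; norm_num
  have h2 : cLast k (Fin.last k) = 1 := by
    rw [cLast, Pi.single_apply, if_pos rfl]
  rw [Finset.prod_congr rfl (fun i _ => h1 i), h2]
  have h3 : chi 1 = -1 := rfl
  rw [h3, Finset.prod_const]
  have : (0 : ℤ) < 2 ^ (Finset.univ : Finset (Fin k)).card := by positivity
  linarith

/-- transport of elementary abelian subgroups -/
theorem exists_elem_of_equiv {E F : Type*} [Group E] [Group F] (e : E ≃* F) {m : ℕ}
    (h : ∃ A : Subgroup E, IsElementaryAbelian 2 A ∧ Nat.card A = m) :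
    ∃ A : Subgroup F, IsElementaryAbelian 2 A ∧ Nat.card A = m := by
  obtain ⟨A, ⟨hA1, hA2⟩, hA3⟩ := h
  refine ⟨A.map e.toMonoidHom, ⟨⟨⟨?_⟩⟩, ?_⟩, ?_⟩
  · rintro ⟨_, a, ha, rfl⟩ ⟨_, b, hb, rfl⟩
    apply Subtype.ext
    show e a * e b = e b * e a
    have h1 := congrArg Subtype.val (hA1.is_comm.comm (⟨a, ha⟩ : A) ⟨b, hb⟩)
    have h2 : a * b = b * a := h1
    rw [← map_mul, h2, map_mul]
  · rintro _ ⟨a, ha, rfl⟩
    show (e a) ^ 2 = 1
    rw [← map_pow, hA2 a ha, map_one]
  · rw [← hA3]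
    exact Subgroup.card_map_of_injective e.injective

/-- classification of extraspecial 2-groups of order `2^(2k+3)` -/
theorem equiv_or {E : Type u} [Group E] [Finite E] (hE : IsExtraspecial 2 E) (k : ℕ)
    (hcard : Nat.card E = 2 ^ (2 * (k + 1) + 1)) :
    ((∃ A : Subgroup E, IsElementaryAbelian 2 A ∧ Nat.card A = 2 ^ (k + 1 + 1)) ∧
      Nonempty (E ≃* Ex (0 : Fin (k + 1) → ZMod 2))) ∨
    ((¬ ∃ A : Subgroup E, IsElementaryAbelian 2 A ∧ Nat.card A = 2 ^ (k + 1 + 1)) ∧
      Nonempty (E ≃* Ex (cLast k))) := by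
  haveI : Fact (Nat.Prime 2) := ⟨Nat.prime_two⟩
  have hn : 1 ≤ k + 1 := by omega
  obtain ⟨z₁, h₁⟩ := XS.of_extraspecial hE
  obtain ⟨z₂, h₂⟩ := XS.of_extraspecial (isExtraspecial (0 : Fin (k + 1) → ZMod 2) hn)
  obtain ⟨z₃, h₃⟩ := XS.of_extraspecial (isExtraspecial (cLast k) hn)
  have hno : ¬ ∃ A : Subgroup (Ex (cLast k)), IsElementaryAbelian 2 A ∧ Nat.card A = 2 ^ (k + 1 + 1) := by
    rintro ⟨A, hA, hAc⟩
    have := (card_elem (cLast k) A hA).2 (prod_neg k)
    omega
  rcases iso_of_three _ _ _ _ z₁ z₂ z₃ h₁ h₂ h₃ (by rw [hcard, card_Ex]) (by rw [card_Ex, card_Ex]) le_rfl with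
    ⟨e, -⟩ | ⟨e, -⟩ | ⟨e, -⟩
  · left
    exact ⟨exists_elem_of_equiv e.symm (exists_elem_zero (k + 1)), ⟨e⟩⟩
  · exfalso
    exact hno (exists_elem_of_equiv e (exists_elem_zero (k + 1)))
  · right
    exact ⟨fun h => hno (exists_elem_of_equiv e h), ⟨e⟩⟩

/-- **S5432** -/
theorem out_equiv {E : Type u} [Group E] [Finite E] (hE : IsExtraspecial 2 E) (n : ℕ) (hn : 1 ≤ n)
    (hcard : Nat.card E = 2 ^ (2 * n + 1)) :
    ((∃ A : Subgroup E, IsElementaryAbelian 2 A ∧ Nat.card ↥A = 2 ^ (n + 1)) →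
      Nonempty (Out E ≃* isometryGroup (ZMod 2) (quadFormPlus n (ZMod 2)))) ∧
    ((¬ ∃ A : Subgroup E, IsElementaryAbelian 2 A ∧ Nat.card ↥A = 2 ^ (n + 1)) →
      Nonempty (Out E ≃* isometryGroup (ZMod 2) (quadFormMinus (n - 1) (ZMod 2) 1 1))) := by
  obtain ⟨k, rfl⟩ : ∃ k, n = k + 1 := ⟨n - 1, by omega⟩
  haveI : Fact (Nat.Prime 2) := ⟨Nat.prime_two⟩
  obtain ⟨z, hz⟩ := XS.of_extraspecial hE
  constructor
  · intro hA
    rcases equiv_or hE k hcard with ⟨-, ⟨e⟩⟩ | ⟨h, -⟩
    · obtain ⟨π, hπ⟩ := qd_of_equiv hz e (fPlus (k + 1)) (fPlus_injective _) (fPlus_surjective _)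
        (fPlus_form (k + 1))
      exact hπ.out_equiv hE
    · exact absurd hA h
  · intro hA
    rcases equiv_or hE k hcard with ⟨h, -⟩ | ⟨-, ⟨e⟩⟩
    · exact absurd h hA
    · obtain ⟨π, hπ⟩ := qd_of_equiv hz e (fMinus k) (fMinus_injective _) (fMinus_surjective _)
        (fMinus_form k)
      exact hπ.out_equiv hE

end Cfsg.Agent.Lib.ExtraOut
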