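import Cfsg.Agent.Lib.ExtraOut2
import Cfsg.Prelude.Def_CaseTheorems

/-!
# Ranks of extraspecial 2-groups (helper2)
-/

set_option autoImplicit false

open Subgroup
open scoped commutatorElement

namespace Cfsg.Agent.Lib.ExtraOut

open Cfsg.Agent.Lib.Extraspecial Cfsg Cfsg.Agent.Lib.ExtraTwo

theorem exists_elem_last (k : ℕ) : ∃ A : Subgroup (Ex (cLast k)), IsElementaryAbelian 2 A ∧
    Nat.card A = 2 ^ (k + 1) := by
  let i : (Fin k → ZMod 2) →+ Vec (k + 1) :=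
    { toFun := fun v => Fin.snoc (α := fun _ => ZMod 2 × ZMod 2) (fun j => (v j, 0)) 0
      map_zero' := by
        funext j
        refine Fin.lastCases ?_ (fun j => ?_) j
        · simp
        · simp
      map_add' := fun v w => by
        funext j
        refine Fin.lastCases ?_ (fun j => ?_) j
        · simp
        · simp }
  apply exists_elem (cLast k) i
  · intro v w h
    funext j
    have := congrArg Prod.fst (congrFun h j.castSucc)
    simpa [i] using this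
  · intro v w
    unfold beta
    rw [Fin.sum_univ_castSucc]
    have : ∀ j : Fin k, cLast k j.castSucc = 0 := by
      intro j
      rw [cLast, Pi.single_apply, if_neg (Fin.castSucc_lt_last j).ne]
    simp [i, this]

theorem pRank_of_elem {E : Type*} [Group E] (k : ℕ) :
    PRankLE 2 k E ↔ ∀ A : Subgroup E, IsElementaryAbelian 2 A → Nat.card A ≤ 2 ^ k :=
  ⟨fun h A hA => h A hA.1 hA.2, fun h A h1 h2 => h A ⟨h1, h2⟩⟩

theorem pRank_congr {E F : Type*} [Group E] [Group F] (e : E ≃* F) (k : ℕ) :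
    PRankLE 2 k E → PRankLE 2 k F := by
  rw [pRank_of_elem, pRank_of_elem]
  intro h A hA
  obtain ⟨B, hB, hBc⟩ := exists_elem_of_equiv e.symm ⟨A, hA, rfl⟩
  rw [← hBc]
  exact h B hB

theorem rank_plus (k : ℕ) : PRankLE 2 (k + 1 + 1) (Ex (0 : Fin (k + 1) → ZMod 2)) ∧
    ¬ PRankLE 2 (k + 1) (Ex (0 : Fin (k + 1) → ZMod 2)) := by
  refine ⟨fun A h1 h2 => (card_elem _ A ⟨h1, h2⟩).1, fun h => ?_⟩
  obtain ⟨A, hA, hAc⟩ := exists_elem_zero (k + 1)
  have h1 := h A hA.1 hA.2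
  rw [hAc] at h1
  have h2 := (Nat.pow_le_pow_iff_right (by norm_num : 1 < 2)).mp h1
  omega

theorem rank_minus (k : ℕ) : PRankLE 2 (k + 1) (Ex (cLast k)) ∧
    ¬ PRankLE 2 k (Ex (cLast k)) := by
  haveI : Fact (Nat.Prime 2) := ⟨Nat.prime_two⟩
  refine ⟨fun A h1 h2 => ?_, fun h => ?_⟩
  · have h3 := (card_elem _ A ⟨h1, h2⟩).2 (prod_neg k)
    obtain ⟨m, hm⟩ := IsPGroup.iff_card.mp ((isPGroup (cLast k)).to_subgroup A)
    rw [hm] at h3 ⊢
    have h4 := (Nat.pow_lt_pow_iff_right (by norm_num : 1 < 2)).mp h3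
    exact Nat.pow_le_pow_right (by norm_num) (by omega)
  · obtain ⟨A, hA, hAc⟩ := exists_elem_last k
    have h1 := h A hA.1 hA.2
    rw [hAc] at h1
    have h2 := (Nat.pow_le_pow_iff_right (by norm_num : 1 < 2)).mp h1
    omega

/-- **S3763** -/
theorem distinguished {E : Type*} [Group E] [Finite E] (hE : Cfsg.IsExtraspecial 2 E) (n : ℕ)
    (hn : Nat.card E = 2 ^ (2 * n + 1)) :
    ((Cfsg.PRankLE 2 n E ∧ ¬ Cfsg.PRankLE 2 (n - 1) E) ∨ (Cfsg.PRankLE 2 (n + 1) E ∧ ¬ Cfsg.PRankLE 2 n E)) ∧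
    ∀ (E' : Type*) [Group E'] [Finite E'], Cfsg.IsExtraspecial 2 E' → Nat.card E' = Nat.card E →
      (∀ k : ℕ, Cfsg.PRankLE 2 k E ↔ Cfsg.PRankLE 2 k E') → Nonempty (E ≃* E') := by
  haveI : Fact (Nat.Prime 2) := ⟨Nat.prime_two⟩
  have hn1 : 1 ≤ n := by
    by_contra h0
    have h1 : n = 0 := by omega
    subst h1
    rw [mul_zero, zero_add, pow_one] at hn
    have hc : Nat.card (Subgroup.center E) = Nat.card E := by
      rw [hn, hE.2]
    have h2 : Subgroup.center E = ⊤ := Subgroup.eq_top_of_card_eq _ hc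
    obtain ⟨x, y, hxy⟩ := XS.not_comm_of_extraspecial hE
    exact hxy (Subgroup.mem_center_iff.mp (h2 ▸ Subgroup.mem_top y) x)
  obtain ⟨k, rfl⟩ : ∃ k, n = k + 1 := ⟨n - 1, by omega⟩
  obtain ⟨p1, p2⟩ := rank_plus k
  obtain ⟨m1, m2⟩ := rank_minus k
  constructor
  · rcases equiv_or hE k hn with ⟨-, ⟨e⟩⟩ | ⟨-, ⟨e⟩⟩
    · right
      exact ⟨pRank_congr e.symm _ p1, fun h => p2 (pRank_congr e _ h)⟩
    · left
      exact ⟨pRank_congr e.symm _ m1, fun h => m2 (pRank_congr e _ h)⟩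
  · intro E' _ _ hE' hc hk
    have hn' := hc.trans hn
    rcases equiv_or hE k hn with ⟨-, ⟨e⟩⟩ | ⟨-, ⟨e⟩⟩ <;> rcases equiv_or hE' k hn' with ⟨-, ⟨f⟩⟩ | ⟨-, ⟨f⟩⟩
    · exact ⟨e.trans f.symm⟩
    · exact absurd (pRank_congr e _ ((hk (k + 1)).mpr (pRank_congr f.symm _ m1))) p2
    · exact absurd (pRank_congr f _ ((hk (k + 1)).mp (pRank_congr e.symm _ m1))) p2
    · exact ⟨e.trans f.symm⟩

end Cfsg.Agent.Lib.ExtraOut
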