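import Mathlib
import Cfsg.Agent.Lib.F4Char2

set_option autoImplicit false

/-!
Type F4 in characteristic 2: the root elements occurring in the generators of the twisted group preserve the Lie
bracket; consequences for faithfulness on the short-root ideal.
-/

namespace Cfsg.Agent.Lib.F4Char2

open Cfsg.Lie Matrix

/-- numbering of the coordinates -/
def code : chevF4.Idx → ℕ
  | Sum.inl i => i.val
  | Sum.inr s => s.val + 4

lemma code_lt (i : chevF4.Idx) : code i < 52 := by
  rcases i with i | s
  · have : i.val < 4 := i.isLt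
    simp only [code]; omega
  · have : s.val < 48 := s.isLt
    simp only [code]; omega

lemma code_inj {i j : chevF4.Idx} (h : code i = code j) : i = j := by
  rcases i with i | s <;> rcases j with j | s'
  · simp only [code] at h; rw [Fin.ext h]
  · have : i.val < 4 := i.isLt
    simp only [code] at h; omega
  · have : j.val < 4 := j.isLt
    simp only [code] at h; omega
  · simp only [code] at h
    rw [Fin.ext (show s.val = s'.val by omega)]

lemma code_surj {k : ℕ} (hk : k < 52) : ∃ i : chevF4.Idx, code i = k := by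
  by_cases h : k < 4
  · exact ⟨Sum.inl ⟨k, h⟩, rfl⟩
  · exact ⟨Sum.inr ⟨k - 4, by change k - 4 < 48; omega⟩, by simp only [code]; omega⟩

section

variable {K : Type*} [Field K]

/-- polynomial vector encoded by a mask -/
def V (t : K) (n : ℕ) : chevF4.Idx → K := fun i => ∑ d ∈ Finset.range 8, if n.testBit (64 * d + code i) then t ^ d else 0

/-- constant vector encoded by a mask -/
def V0 (n : ℕ) : chevF4.Idx → K := fun i => if n.testBit (code i) then 1 else 0

lemma V0_single (i : chevF4.Idx) : (V0 (1 <<< code i) : chevF4.Idx → K) = Pi.single i 1 := by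
  ext j
  unfold V0
  rw [Nat.one_shiftLeft, Nat.testBit_two_pow]
  by_cases h : i = j
  · subst h; simp
  · have : code i ≠ code j := fun h' => h (code_inj h')
    simp [this, Pi.single_apply, Ne.symm h]

lemma V_zero (t : K) : V t 0 = 0 := by ext i; simp [V]
lemma V0_zero : (V0 0 : chevF4.Idx → K) = 0 := by ext i; simp [V0]

lemma ite_xor [CharP K 2] (a b : Bool) (c : K) :
    (if (xor a b) = true then c else 0) = (if a = true then c else 0) + (if b = true then c else 0) := by
  have h2 : c + c = 0 := CharTwo.add_self_eq_zero c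
  cases a <;> cases b <;> simp [h2]

lemma V_xor [CharP K 2] (t : K) (a b : ℕ) : V t (a ^^^ b) = V t a + V t b := by
  ext i
  simp only [V, Pi.add_apply, Nat.testBit_xor, ← Finset.sum_add_distrib]
  exact Finset.sum_congr rfl fun d _ => ite_xor _ _ _

lemma V0_xor [CharP K 2] (a b : ℕ) : (V0 (a ^^^ b) : chevF4.Idx → K) = V0 a + V0 b := by
  ext i
  simp only [V0, Pi.add_apply, Nat.testBit_xor]
  exact ite_xor _ _ _

lemma V_shift (t : K) (n d : ℕ) (hn : n < 2 ^ 64) (hd : d < 8) : V t (n <<< (64 * d)) = t ^ d • V0 n := by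
  ext i
  have hc := code_lt i
  simp only [V, V0, Pi.smul_apply, smul_eq_mul]
  rw [Finset.sum_eq_single d]
  · rw [Nat.testBit_shiftLeft]
    have : 64 * d + code i - 64 * d = code i := by omega
    rw [this]
    simp
  · intro d' _ hd'
    rw [Nat.testBit_shiftLeft]
    rcases lt_or_gt_of_ne hd' with h | h
    · have : ¬ (64 * d ≤ 64 * d' + code i) := by omega
      simp [this]
    · have h1 : n < 2 ^ (64 * d' + code i - 64 * d) := lt_of_lt_of_le hn (Nat.pow_le_pow_right (by norm_num) (by omega))
      rw [Nat.testBit_lt_two_pow h1]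
      simp
  · intro h; exact absurd (Finset.mem_range.mpr hd) h

lemma V_one (t : K) (k d : ℕ) (hk : k < 64) (hd : d < 8) : V t (1 <<< (64 * d + k)) = t ^ d • V0 (1 <<< k) := by
  rw [show 64 * d + k = k + 64 * d by ring, Nat.shiftLeft_add]
  apply V_shift _ _ _ _ hd
  rw [Nat.one_shiftLeft]
  exact Nat.pow_lt_pow_right (by norm_num) hk

/-- the bracket -/
noncomputable def B : (chevF4.Idx → K) →ₗ[K] (chevF4.Idx → K) →ₗ[K] (chevF4.Idx → K) :=
  LinearMap.mk₂ K (fun u v => ∑ a, ∑ b, (u a * v b) • V0 (brm (code a) (code b)))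
    (by intro u u' v; simp only [Pi.add_apply, add_mul, add_smul, Finset.sum_add_distrib])
    (by intro c u v; simp only [Pi.smul_apply, smul_eq_mul, Finset.smul_sum, smul_smul, mul_assoc])
    (by intro u v v'; simp only [Pi.add_apply, mul_add, add_smul, Finset.sum_add_distrib])
    (by intro c u v; simp only [Pi.smul_apply, smul_eq_mul, Finset.smul_sum, smul_smul]
        refine Finset.sum_congr rfl fun a _ => Finset.sum_congr rfl fun b _ => ?_
        congr 1; ring)

lemma B_single (i j : chevF4.Idx) : B (Pi.single i (1:K)) (Pi.single j 1) = V0 (brm (code i) (code j)) := by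
  change ∑ a, ∑ b, ((Pi.single i (1:K) : chevF4.Idx → K) a * (Pi.single j (1:K) : chevF4.Idx → K) b) • V0 (brm (code a) (code b)) = _
  rw [Finset.sum_eq_single i, Finset.sum_eq_single j]
  · simp
  · intro b _ hb; simp [Pi.single_apply, hb]
  · simp
  · intro a _ ha; simp [Pi.single_apply, ha]
  · simp

lemma B_E {a b : ℕ} (ha : a < 52) (hb : b < 52) : B (V0 (1 <<< a) : chevF4.Idx → K) (V0 (1 <<< b)) = V0 (brm a b) := by
  obtain ⟨i, rfl⟩ := code_surj ha
  obtain ⟨j, rfl⟩ := code_surj hb
  rw [V0_single, V0_single, B_single]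

lemma brm_lt (a b : ℕ) : brm a b < 2 ^ 64 := by
  unfold brm
  exact lt_of_le_of_lt Nat.and_le_right (by norm_num)

lemma V_encl_cons [CharP K 2] (t : K) (p : ℕ × ℕ) (l : List (ℕ × ℕ)) (h1 : p.1 < 52) (h2 : p.2 < 3) :
    V t (encl (p :: l)) = t ^ p.2 • V0 (1 <<< p.1) + V t (encl l) := by
  change V t ((1 <<< (64 * p.2 + p.1)) ^^^ encl l) = _
  rw [V_xor, V_one _ _ _ (by omega) (by omega)]

lemma V_lhsIn [CharP K 2] (t : K) (a d : ℕ) (ha : a < 52) (hd : d < 3) (cj : List (ℕ × ℕ))
    (h : ∀ p ∈ cj, p.1 < 52 ∧ p.2 < 3) : V t (lhsIn a d cj) = t ^ d • B (V0 (1 <<< a)) (V t (encl cj)) := by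
  induction cj with
  | nil => change V t 0 = t ^ d • B _ (V t 0); rw [V_zero]; simp
  | cons q cj ih =>
    have hq := h q (by simp)
    change V t ((brm a q.1 <<< (64 * (d + q.2))) ^^^ lhsIn a d cj) = _
    rw [V_xor, V_shift _ _ _ (brm_lt _ _) (by omega), ih (fun p hp => h p (by simp [hp])),
      V_encl_cons _ _ _ hq.1 hq.2, map_add, map_smul, B_E ha hq.1, smul_add, smul_smul, pow_add]

lemma V_lhs [CharP K 2] (t : K) (ci cj : List (ℕ × ℕ))
    (hi : ∀ p ∈ ci, p.1 < 52 ∧ p.2 < 3) (hj : ∀ p ∈ cj, p.1 < 52 ∧ p.2 < 3) :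
    V t (lhs ci cj) = B (V t (encl ci)) (V t (encl cj)) := by
  induction ci with
  | nil => change V t 0 = B (V t 0) _; rw [V_zero]; simp
  | cons p ci ih =>
    have hp := hi p (by simp)
    change V t (lhsIn p.1 p.2 cj ^^^ lhs ci cj) = _
    rw [V_xor, V_lhsIn _ _ _ hp.1 hp.2 _ hj, ih (fun p hp => hi p (by simp [hp])), V_encl_cons _ _ _ hp.1 hp.2,
      map_add, map_smul]
    simp

lemma V_rhs [CharP K 2] (t : K) (cols : List (List (ℕ × ℕ))) (g : (chevF4.Idx → K) →ₗ[K] (chevF4.Idx → K))
    (hg : ∀ k < 52, g (V0 (1 <<< k)) = V t (encl (cols.getD k []))) :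
    ∀ (f m x : ℕ), m < 2 ^ 52 → rhs cols f m = some x → V t x = g (V0 m) := by
  intro f
  induction f with
  | zero =>
    intro m x _ h
    unfold rhs at h
    split_ifs at h with h0
    have hx : x = 0 := by simpa using h.symm
    subst hx; subst h0
    rw [V_zero, V0_zero, map_zero]
  | succ f ih =>
    intro m x hm h
    unfold rhs at h
    split_ifs at h with h0
    · have hx : x = 0 := by simpa using h.symm
      subst hx; subst h0
      rw [V_zero, V0_zero, map_zero]
    · set k := Nat.log2 m with hk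
      have hk52 : k < 52 := by
        rw [hk]; exact (Nat.log2_lt h0).mpr hm
      have hm' : m ^^^ (1 <<< k) < 2 ^ 52 := by
        apply Nat.xor_lt_two_pow hm
        rw [Nat.one_shiftLeft]; exact Nat.pow_lt_pow_right (by norm_num) hk52
      cases hr : rhs cols f (m ^^^ (1 <<< k)) with
      | none => rw [hr] at h; simp at h
      | some y =>
        rw [hr] at h
        have hx : x = encl (cols.getD k []) ^^^ y := by simpa using h.symm
        rw [hx, V_xor, ih _ _ hm' hr, ← hg k hk52, ← map_add, ← V0_xor]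
        congr 2
        rw [Nat.xor_comm m, ← Nat.xor_assoc, Nat.xor_self, Nat.zero_xor]

/-- evaluation of an entry list -/
def evl (t : K) (l : List (ℕ × ℤ)) : K := (l.map fun p => ((p.2 : ℤ) : K) * t ^ p.1).sum

def evp (t : K) (n : ℕ) : K := ∑ d ∈ Finset.range 8, if n.testBit d then t ^ d else 0

lemma evp_xor [CharP K 2] (t : K) (a b : ℕ) : evp t (a ^^^ b) = evp t a + evp t b := by
  simp only [evp, Nat.testBit_xor, ← Finset.sum_add_distrib]
  exact Finset.sum_congr rfl fun d _ => ite_xor _ _ _

lemma evl_eq [CharP K 2] (t : K) (l : List (ℕ × ℤ)) (h : ∀ p ∈ l, p.1 < 8) : evl t l = evp t (parl l) := by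
  induction l with
  | nil => simp [evl, evp, parl]
  | cons p l ih =>
    change ((p.2 : ℤ) : K) * t ^ p.1 + evl t l = evp t (parOne p ^^^ parl l)
    rw [evp_xor, ih (fun q hq => h q (by simp [hq]))]
    congr 1
    unfold parOne
    by_cases h0 : p.2 % 2 = 0
    · rw [if_pos h0]
      have : ((p.2 : ℤ) : K) = 0 := (CharP.intCast_eq_zero_iff K 2 p.2).mpr (Int.dvd_of_emod_eq_zero h0)
      rw [this, zero_mul]
      simp [evp]
    · rw [if_neg h0]
      have h1 : p.2 % 2 = 1 := by omega
      have : ((p.2 : ℤ) : K) = 1 := by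
        have h2 : ((p.2 - 1 : ℤ) : K) = 0 := (CharP.intCast_eq_zero_iff K 2 _).mpr (by
          change (2:ℤ) ∣ _
          omega)
        push_cast at h2
        exact sub_eq_zero.mp h2
      rw [this, one_mul]
      unfold evp
      rw [Finset.sum_eq_single p.1]
      · rw [Nat.one_shiftLeft, Nat.testBit_two_pow_self]; simp
      · intro d _ hd
        rw [Nat.one_shiftLeft, Nat.testBit_two_pow]
        simp [Ne.symm hd]
      · intro hh; exact absurd (Finset.mem_range.mpr (h p (by simp))) hh

lemma xTab_rr (r u s : ℕ) : xTab r (u+4) (s+4) =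
    if s = r then (if u = r then [(0, 1)] else [])
    else if s = chevF4.negIdx.getD r 0 then (if u = s then [(0, 1)] else if u = r then [(2, -1)] else [])
    else (if u = s then [(0, 1)] else []) ++ chevF4.chainCoeff r s u := by
  unfold xTab
  rw [if_neg (by omega)]
  rw [show s + 4 - 4 = s by omega, show u + 4 - 4 = u by omega]
  simp only [Nat.add_right_cancel_iff]
  have : ¬ (u + 4 < 4) := by omega
  rw [if_neg this, if_neg this]

lemma xTab_lr (r i s : ℕ) (hi : i < 4) : xTab r i (s+4) =
    if s = r then [] else if s = chevF4.negIdx.getD r 0 then [(1, (chevF4.coroot.getD r #[]).getD i 0)] else [] := by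
  unfold xTab
  rw [if_neg (by omega), if_pos hi, if_pos hi, if_neg (show ¬ (i = r + 4) by omega)]
  simp only [Nat.add_right_cancel_iff]

lemma xTab_rl (r u i : ℕ) (hi : i < 4) : xTab r (u+4) i =
    if u = r then [(1, -((chevF4.cartanSR.getD i #[]).getD r 0))] else [] := by
  unfold xTab
  rw [if_pos hi, if_neg (by omega)]
  simp only [Nat.add_right_cancel_iff]

lemma xTab_ll (r j i : ℕ) (hi : i < 4) (hj : j < 4) : xTab r j i = if j = i then [(0, 1)] else [] := by
  unfold xTab
  rw [if_pos hi, if_pos hj]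

lemma xMat_eq (r : Fin chevF4.nroots) (t : K) (row col : chevF4.Idx) :
    chevF4.xMat K r t row col = evl t (xTab r.val (code row) (code col)) := by
  have hr : r.val < 48 := r.isLt
  rcases col with i | s
  · have hi : i.val < 4 := i.isLt
    rcases row with i' | u
    · have hi' : i'.val < 4 := i'.isLt
      change _ = evl t (xTab r.val i'.val i.val)
      rw [xTab_ll _ _ _ hi hi']
      change (if i' = i then (1:K) else 0) = _
      simp only [Fin.ext_iff]
      split_ifs <;> simp [evl]
    · change _ = evl t (xTab r.val (u.val + 4) i.val)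
      rw [xTab_rl _ _ _ hi]
      change (if u = r then - (((chevF4.cartanSR.getD i.val #[]).getD r.val 0 : ℤ) : K) * t else 0) = _
      simp only [Fin.ext_iff]
      split_ifs <;> simp [evl]
  · rcases row with i' | u
    · have hi' : i'.val < 4 := i'.isLt
      change _ = evl t (xTab r.val i'.val (s.val + 4))
      rw [xTab_lr _ _ _ hi']
      change (if s = r then (0 : K) else if s.val = chevF4.negIdx.getD r.val 0 then (((chevF4.coroot.getD r.val #[]).getD i'.val 0 : ℤ) : K) * t else 0) = _
      simp only [Fin.ext_iff]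
      split_ifs <;> simp [evl]
    · change _ = evl t (xTab r.val (u.val + 4) (s.val + 4))
      rw [xTab_rr]
      change (if s = r then (if u = r then (1 : K) else 0) else if s.val = chevF4.negIdx.getD r.val 0 then
        (if u = s then 1 else if u = r then -(t ^ 2) else 0) else (if u = s then 1 else 0) +
             ((chevF4.chainCoeff r.val s.val u.val).map fun km => ((km.2 : ℤ) : K) * t ^ km.1).sum) = _
      simp only [Fin.ext_iff]
      split_ifs <;> simp [evl]

lemma testBit_mod_aux {q row d : ℕ} (hq : q < 2 ^ 192) (hd : 3 ≤ d) : q.testBit (64 * d + row) = false :=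
  Nat.testBit_lt_two_pow (lt_of_lt_of_le hq (Nat.pow_le_pow_right (by norm_num) (by omega)))

/-- the conditions on a column table -/
structure Good (cols : List (List (ℕ × ℕ))) (r : ℕ) : Prop where
  inv : chkInv cols = true
  entry : chkEntry cols r = true
  bd : chkBd cols = true
  idl : chkIdl cols = true

lemma Good.bd' {cols : List (List (ℕ × ℕ))} {r : ℕ} (h : Good cols r) {k : ℕ} (hk : k < 52) :
    ∀ p ∈ cols.getD k [], p.1 < 52 ∧ p.2 < 3 := by
  have h1 := h.bd
  unfold chkBd at h1
  rw [List.all_eq_true] at h1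
  have h2 := h1 k (List.mem_range.mpr hk)
  rw [List.all_eq_true] at h2
  intro p hp
  simpa using h2 p hp

lemma entry_eq [CharP K 2] {cols : List (List (ℕ × ℕ))} {r : ℕ} (hr : r < 48) (h : Good cols r) (t : K)
    (row col : chevF4.Idx) :
    chevF4.xMat K ⟨r, hr⟩ t row col = V t (encl (cols.getD (code col) [])) row := by
  have h1 := h.entry
  unfold chkEntry at h1
  rw [List.all_eq_true] at h1
  have h2 := h1 (code col) (List.mem_range.mpr (code_lt col))
  rw [List.all_eq_true] at h2
  have h3 := h2 (code row) (List.mem_range.mpr (code_lt row))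
  simp only [Bool.and_eq_true, decide_eq_true_eq, beq_iff_eq, List.all_eq_true] at h3
  obtain ⟨⟨⟨⟨⟨h4, h5⟩, h6⟩, h7⟩, h8⟩, h9⟩ := h3
  rw [xMat_eq, evl_eq t _ h6]
  unfold evp V
  refine Finset.sum_congr rfl fun d hd => ?_
  have hd8 := Finset.mem_range.mp hd
  have key : (parl (xTab r (code row) (code col))).testBit d = (encl (cols.getD (code col) [])).testBit (64 * d + code row) := by
    by_cases hd3 : 3 ≤ d
    · rw [testBit_mod_aux h5 hd3]
      exact Nat.testBit_lt_two_pow (lt_of_lt_of_le h4 (by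
        calc 8 = 2 ^ 3 := by norm_num
          _ ≤ 2 ^ d := Nat.pow_le_pow_right (by norm_num) hd3))
    · have : d = 0 ∨ d = 1 ∨ d = 2 := by omega
      rcases this with rfl | rfl | rfl
      · simpa using h7
      · simpa using h8
      · simpa using h9
  rw [key]

lemma mulVec_single' [CharP K 2] {cols : List (List (ℕ × ℕ))} {r : ℕ} (hr : r < 48) (h : Good cols r) (t : K)
    (j : chevF4.Idx) :
    (chevF4.xMat K ⟨r, hr⟩ t) *ᵥ (Pi.single j 1) = V t (encl (cols.getD (code j) [])) := by
  ext row
  rw [Matrix.mulVec_single_one, Matrix.col_apply]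
  exact entry_eq hr h t row j

lemma mulVec_E [CharP K 2] {cols : List (List (ℕ × ℕ))} {r : ℕ} (hr : r < 48) (h : Good cols r) (t : K)
    (k : ℕ) (hk : k < 52) :
    (chevF4.xMat K ⟨r, hr⟩ t) *ᵥ (V0 (1 <<< k)) = V t (encl (cols.getD k [])) := by
  obtain ⟨j, rfl⟩ := code_surj hk
  rw [V0_single, mulVec_single' hr h]

lemma brm_lt' {i j : ℕ} (hi : i < 52) (hj : j < 52) : brm i j < 2 ^ 52 := by
  have h1 := rows_ok
  unfold chkRows at h1
  rw [List.all_eq_true] at h1
  have h2 := h1 i (List.mem_range.mpr hi)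
  rw [List.all_eq_true] at h2
  simpa using h2 j (List.mem_range.mpr hj)

/-- The root elements preserve the bracket. -/
lemma B_inv [CharP K 2] {cols : List (List (ℕ × ℕ))} {r : ℕ} (hr : r < 48) (h : Good cols r) (t : K)
    (u v : chevF4.Idx → K) :
    B ((chevF4.xMat K ⟨r, hr⟩ t) *ᵥ u) ((chevF4.xMat K ⟨r, hr⟩ t) *ᵥ v) = (chevF4.xMat K ⟨r, hr⟩ t) *ᵥ (B u v) := by
  set M := chevF4.xMat K ⟨r, hr⟩ t with hM
  let φ : (chevF4.Idx → K) →ₗ[K] (chevF4.Idx → K) := Matrix.mulVecLin M
  have h1 : (B (K := K)).compl₁₂ φ φ = (B (K := K)).compr₂ φ := by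
    apply LinearMap.ext_basis (Pi.basisFun K _) (Pi.basisFun K _)
    intro i j
    rw [LinearMap.compl₁₂_apply, LinearMap.compr₂_apply, Pi.basisFun_apply, Pi.basisFun_apply]
    change B (M *ᵥ Pi.single i 1) (M *ᵥ Pi.single j 1) = M *ᵥ (B (Pi.single i 1) (Pi.single j 1))
    rw [mulVec_single' hr h, mulVec_single' hr h, B_single, ← V_lhs t _ _ (h.bd' (code_lt i)) (h.bd' (code_lt j))]
    have h2 := h.inv
    unfold chkInv at h2
    rw [List.all_eq_true] at h2
    have h3 := h2 (code i) (List.mem_range.mpr (code_lt i))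
    rw [List.all_eq_true] at h3
    have h4 := h3 (code j) (List.mem_range.mpr (code_lt j))
    rw [beq_iff_eq] at h4
    exact V_rhs t cols φ (fun k hk => mulVec_E hr h t k hk) _ _ _ (brm_lt' (code_lt i) (code_lt j)) h4
  have h5 := congrArg (fun f => f u v) h1
  exact h5

/-- the short-root ideal -/
def IK (K : Type*) [Field K] : Submodule K (chevF4.Idx → K) where
  carrier := {v | ∀ i, idl.contains (code i) = false → v i = 0}
  add_mem' := fun {a b} ha hb i hi => by rw [Pi.add_apply, ha i hi, hb i hi, add_zero]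
  zero_mem' := fun i _ => rfl
  smul_mem' := fun c v hv i hi => by rw [Pi.smul_apply, hv i hi, smul_zero]

lemma V_encl_zero [CharP K 2] (t : K) (l : List (ℕ × ℕ)) (hb : ∀ p ∈ l, p.1 < 52 ∧ p.2 < 3) (i : chevF4.Idx)
    (h : ∀ p ∈ l, p.1 ≠ code i) : V t (encl l) i = 0 := by
  induction l with
  | nil => change V t 0 i = 0; rw [V_zero]; rfl
  | cons p l ih =>
    have hp := hb p (by simp)
    rw [V_encl_cons _ _ _ hp.1 hp.2, Pi.add_apply, ih (fun q hq => hb q (by simp [hq])) (fun q hq => h q (by simp [hq]))]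
    have h1 := h p (by simp)
    simp only [Pi.smul_apply, V0]
    rw [Nat.one_shiftLeft, Nat.testBit_two_pow]
    simp [h1]

lemma mem_IK_of_mulVec [CharP K 2] {cols : List (List (ℕ × ℕ))} {r : ℕ} (hr : r < 48) (h : Good cols r) (t : K)
    (v : chevF4.Idx → K) (hv : v ∈ IK K) : (chevF4.xMat K ⟨r, hr⟩ t) *ᵥ v ∈ IK K := by
  intro i hi
  change ∑ j, chevF4.xMat K ⟨r, hr⟩ t i j * v j = 0
  apply Finset.sum_eq_zero
  intro j _
  by_cases hj : idl.contains (code j) = true
  · rw [entry_eq hr h, V_encl_zero t _ (h.bd' (code_lt j)), zero_mul]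
    intro p hp hpc
    have h1 := h.idl
    unfold chkIdl at h1
    rw [List.all_eq_true] at h1
    have h2 := h1 (code j) (by simpa using hj)
    rw [List.all_eq_true] at h2
    have h3 := h2 p hp
    rw [hpc] at h3
    rw [h3] at hi
    exact absurd hi (by simp)
  · rw [hv j (by simpa using hj), mul_zero]

lemma B_mem_IK (u v : chevF4.Idx → K) (hv : v ∈ IK K) : B u v ∈ IK K := by
  intro i hi
  change (∑ a, ∑ b, (u a * v b) • V0 (brm (code a) (code b))) i = 0
  rw [Finset.sum_apply]
  apply Finset.sum_eq_zero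
  intro a _
  rw [Finset.sum_apply]
  apply Finset.sum_eq_zero
  intro b _
  by_cases hb : idl.contains (code b) = true
  · have h1 := ideal_ok
    unfold chkIdeal at h1
    rw [List.all_eq_true] at h1
    have h2 := h1 (code a) (List.mem_range.mpr (code_lt a))
    rw [List.all_eq_true] at h2
    have h3 := h2 (code b) (by simpa using hb)
    rw [List.all_eq_true] at h3
    have h4 := h3 (code i) (List.mem_range.mpr (code_lt i))
    rw [hi] at h4
    have h5 : (brm (code a) (code b)).testBit (code i) = false := by simpa using h4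
    simp [V0, h5]
  · rw [hv b (by simpa using hb)]; simp

lemma b2_foldr [CharP K 2] (l : List (ℕ × ℕ)) (i : ℕ) :
    (l.map fun q => if (brm i q.1).testBit q.2 = true then (1:K) else 0).sum =
      if (l.foldr (fun q acc => xor ((brm i q.1).testBit q.2) acc) false) = true then 1 else 0 := by
  induction l with
  | nil => simp
  | cons q l ih => rw [List.map_cons, List.sum_cons, ih, List.foldr_cons, ← ite_xor]

/-- The centraliser of the short-root ideal is trivial. -/
lemma eq_zero_of_B [CharP K 2] (u : chevF4.Idx → K) (h : ∀ w ∈ IK K, B u w = 0) : u = 0 := by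
  have h1 : ∀ j k : ℕ, j < 52 → idl.contains j = true → k < 52 → ∑ i, u i * (if (brm (code i) j).testBit k = true then (1:K) else 0) = 0 := by
    intro j k hj hjI hk
    obtain ⟨j', rfl⟩ := code_surj hj
    obtain ⟨k', rfl⟩ := code_surj hk
    have h2 : (Pi.single j' 1 : chevF4.Idx → K) ∈ IK K := by
      intro i hi
      by_cases hij : i = j'
      · subst hij; rw [hjI] at hi; exact absurd hi (by simp)
      · simp [hij]
    have h3 := congrFun (h _ h2) k'
    change (∑ a, ∑ b, (u a * (Pi.single j' (1:K) : chevF4.Idx → K) b) • V0 (brm (code a) (code b))) k' = 0 at h3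
    rw [Finset.sum_apply] at h3
    refine Eq.trans ?_ h3
    refine Finset.sum_congr rfl fun a _ => ?_
    symm
    rw [Finset.sum_apply]
    refine (Finset.sum_eq_single j' ?_ ?_).trans ?_
    · intro b _ hb
      rw [Pi.single_eq_of_ne hb, mul_zero, zero_smul]; rfl
    · intro hh; exact absurd (Finset.mem_univ _) hh
    · rw [Pi.single_eq_same, mul_one]; rfl
  ext a
  have h2 := sep_ok
  unfold chkSep at h2
  rw [List.all_eq_true] at h2
  have h3 := h2 (code a) (List.mem_range.mpr (code_lt a))
  rw [Bool.and_eq_true, List.all_eq_true, List.all_eq_true] at h3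
  obtain ⟨h4, h5⟩ := h3
  have h6 : ((sep.getD (code a) []).map fun q => ∑ i, u i * (if (brm (code i) q.1).testBit q.2 = true then (1:K) else 0)).sum = 0 := by
    apply List.sum_eq_zero
    intro x hx
    rw [List.mem_map] at hx
    obtain ⟨q, hq, rfl⟩ := hx
    have h7 := h4 q hq
    rw [Bool.and_eq_true] at h7
    have hq1 : q.1 < 52 := by
      have h8 : q.1 ∈ idl := by simpa using h7.1
      have : ∀ x ∈ idl, x < 52 := by decide
      exact this _ h8
    exact h1 q.1 q.2 hq1 h7.1 (by simpa using h7.2)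
  have h7 : ((sep.getD (code a) []).map fun q => ∑ i, u i * (if (brm (code i) q.1).testBit q.2 = true then (1:K) else 0)).sum
      = ∑ i, u i * ((sep.getD (code a) []).map fun q => (if (brm (code i) q.1).testBit q.2 = true then (1:K) else 0)).sum := by
    generalize sep.getD (code a) [] = l
    induction l with
    | nil => simp
    | cons q l ih => rw [List.map_cons, List.sum_cons, ih, ← Finset.sum_add_distrib]; simp only [List.map_cons, List.sum_cons, mul_add]
  rw [h7] at h6
  rw [Finset.sum_eq_single a] at h6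
  · rw [b2_foldr] at h6
    have h8 := h5 (code a) (List.mem_range.mpr (code_lt a))
    rw [beq_iff_eq] at h8
    rw [h8] at h6
    simpa using h6
  · intro i _ hi
    rw [b2_foldr]
    have h8 := h5 (code i) (List.mem_range.mpr (code_lt i))
    rw [beq_iff_eq] at h8
    rw [h8]
    have : code i ≠ code a := fun h' => hi (code_inj h')
    simp [this]
  · simp

/-- the twelve root elements occurring in the generators of the twisted group -/
def roots12 : List ℕ := [33, 24, 14, 23, 27, 25, 28, 30, 20, 22, 19, 17]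

lemma good_of_mem {r : ℕ} (hr : r ∈ roots12) : ∃ cols, Good cols r := by
  simp only [roots12, List.mem_cons, List.mem_nil_iff, or_false] at hr
  rcases hr with rfl | rfl | rfl | rfl | rfl | rfl | rfl | rfl | rfl | rfl | rfl | rfl
  · exact ⟨cols33, ⟨inv33, entry33, bd33, idl33⟩⟩
  · exact ⟨cols24, ⟨inv24, entry24, bd24, idl24⟩⟩
  · exact ⟨cols14, ⟨inv14, entry14, bd14, idl14⟩⟩
  · exact ⟨cols23, ⟨inv23, entry23, bd23, idl23⟩⟩
  · exact ⟨cols27, ⟨inv27, entry27, bd27, idl27⟩⟩
  · exact ⟨cols25, ⟨inv25, entry25, bd25, idl25⟩⟩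
  · exact ⟨cols28, ⟨inv28, entry28, bd28, idl28⟩⟩
  · exact ⟨cols30, ⟨inv30, entry30, bd30, idl30⟩⟩
  · exact ⟨cols20, ⟨inv20, entry20, bd20, idl20⟩⟩
  · exact ⟨cols22, ⟨inv22, entry22, bd22, idl22⟩⟩
  · exact ⟨cols19, ⟨inv19, entry19, bd19, idl19⟩⟩
  · exact ⟨cols17, ⟨inv17, entry17, bd17, idl17⟩⟩

/-- matrices preserving bracket and ideal -/
def Pres (M : Matrix chevF4.Idx chevF4.Idx K) : Prop :=
  (∀ u v, B (M *ᵥ u) (M *ᵥ v) = M *ᵥ (B u v)) ∧ (∀ v ∈ IK K, M *ᵥ v ∈ IK K)

lemma Pres.one : Pres (1 : Matrix chevF4.Idx chevF4.Idx K) := by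
  constructor
  · intro u v; simp
  · intro v hv; simpa using hv

lemma Pres.mul {M N : Matrix chevF4.Idx chevF4.Idx K} (hM : Pres M) (hN : Pres N) : Pres (M * N) := by
  constructor
  · intro u v
    rw [← Matrix.mulVec_mulVec, ← Matrix.mulVec_mulVec, ← Matrix.mulVec_mulVec, hM.1, hN.1]
  · intro v hv
    rw [← Matrix.mulVec_mulVec]
    exact hM.2 _ (hN.2 _ hv)

lemma Pres.x [CharP K 2] {r : ℕ} (hr : r ∈ roots12) (t : K) : Pres (chevF4.x K r t) := by
  have h48 : r < 48 := by
    have : ∀ x ∈ roots12, x < 48 := by decide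
    exact this r hr
  obtain ⟨cols, hg⟩ := good_of_mem hr
  have : chevF4.x K r t = chevF4.xMat K ⟨r, h48⟩ t := by
    unfold ChevalleyDatum.x
    rw [dif_pos (show r < chevF4.nroots from h48)]
  rw [this]
  exact ⟨B_inv h48 hg t, fun v hv => mem_IK_of_mulVec h48 hg t v hv⟩

lemma Pres.word [CharP K 2] (w : List (ℕ × K)) (hw : ∀ p ∈ w, p.1 ∈ roots12) : Pres (chevF4.wordMat K w) := by
  induction w with
  | nil =>
    unfold ChevalleyDatum.wordMat
    rw [List.map_nil, List.prod_nil]
    exact Pres.one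
  | cons p w ih =>
    unfold ChevalleyDatum.wordMat
    rw [List.map_cons, List.prod_cons]
    exact (Pres.x (hw p (by simp)) p.2).mul (ih fun q hq => hw q (by simp [hq]))

end

end Cfsg.Agent.Lib.F4Char2
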