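import Cfsg.Prelude.Def_SporCoxeter
import Cfsg.Agent.Lib.CosetGroup

set_option autoImplicit false
set_option linter.all false
set_option maxRecDepth 100000

namespace Cfsg.Agent.Lib.FERel

open Cfsg.Spor Cfsg.Agent.Lib.BenesPerm Cfsg.Agent.Lib.BenesAct Cfsg.Agent.Lib.BenesWord
open Cfsg.Agent.Lib.BenesPlane Cfsg.Agent.Lib.CosetClosure Cfsg.Agent.Lib.CosetFacts
open Cfsg.Agent.Lib.CosetMain Cfsg.Agent.Lib.CoxBridge Cfsg.Agent.Lib.CosetGroup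

/-- generators -/
inductive FE.Gen
  | a
  | b
  | c
  | d
  | e
  | f
  | g
  | h
  | i
  | j
  | k
  deriving DecidableEq

/-- edges of the graph -/
def FE.edges : List (FE.Gen × ℕ × FE.Gen) :=
  [(.a, 3, .b), (.b, 3, .c), (.c, 3, .d), (.d, 3, .e), (.d, 3, .h), (.e, 3, .f), (.f, 3, .g), (.g, 3, .j), (.h, 3, .i)]

/-- letters to generators -/
def gen (c : ℕ) : FE.Gen :=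
  match c with
  | 0 => .a
  | 1 => .b
  | 2 => .c
  | 3 => .d
  | 4 => .e
  | 5 => .f
  | 6 => .g
  | 7 => .h
  | 8 => .i
  | 9 => .j
  | _ => .k

/-- generators to letters -/
def idx (a : FE.Gen) : ℕ :=
  match a with
  | .a => 0
  | .b => 1
  | .c => 2
  | .d => 3
  | .e => 4
  | .f => 5
  | .g => 6
  | .h => 7
  | .i => 8
  | .j => 9
  | .k => 10

/-- the further relators as words -/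
def extraW : List Wd := [
  (Wd.pow (Wd.mul (Wd.mul (Wd.mul (Wd.mul (Wd.mul (Wd.mul (Wd.mul (Wd.mul (Wd.g 3) (Wd.g 2)) (Wd.g 1)) (Wd.g 3)) (Wd.g 4)) (Wd.g 5)) (Wd.g 3)) (Wd.g 7)) (Wd.g 8)) 10),
  (Wd.pow (Wd.mul (Wd.mul (Wd.mul (Wd.mul (Wd.mul (Wd.mul (Wd.g 0) (Wd.g 1)) (Wd.g 2)) (Wd.g 3)) (Wd.g 4)) (Wd.g 5)) (Wd.g 7)) 9),
  (Wd.pow (Wd.g 10) 2),
  (Wd.pow (Wd.mul (Wd.g 10) (Wd.g 9)) 3),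
  (Wd.pow (Wd.mul (Wd.mul (Wd.g 10) (Wd.g 9)) (Wd.g 1)) 2),
  (Wd.pow (Wd.mul (Wd.mul (Wd.g 10) (Wd.g 9)) (Wd.g 2)) 2),
  (Wd.pow (Wd.mul (Wd.mul (Wd.g 10) (Wd.g 9)) (Wd.g 3)) 2),
  (Wd.pow (Wd.mul (Wd.mul (Wd.g 10) (Wd.g 9)) (Wd.g 4)) 2),
  (Wd.pow (Wd.mul (Wd.mul (Wd.g 10) (Wd.g 9)) (Wd.g 5)) 2),
  (Wd.pow (Wd.mul (Wd.mul (Wd.g 10) (Wd.g 9)) (Wd.g 6)) 2),
  (Wd.pow (Wd.mul (Wd.mul (Wd.g 10) (Wd.g 9)) (Wd.g 7)) 2),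
  (Wd.pow (Wd.mul (Wd.mul (Wd.g 10) (Wd.g 9)) (Wd.g 8)) 2),
  (Wd.mul (Wd.mul (Wd.mul (Wd.pow (Wd.mul (Wd.mul (Wd.g 10) (Wd.g 9)) (Wd.g 0)) 3) (Wd.g 0)) (Wd.inv (Wd.pow (Wd.mul (Wd.mul (Wd.g 10) (Wd.g 9)) (Wd.g 0)) 3))) (Wd.inv (Wd.g 0))),
  (Wd.mul (Wd.mul (Wd.mul (Wd.pow (Wd.mul (Wd.mul (Wd.g 10) (Wd.g 9)) (Wd.g 0)) 3) (Wd.g 1)) (Wd.inv (Wd.pow (Wd.mul (Wd.mul (Wd.g 10) (Wd.g 9)) (Wd.g 0)) 3))) (Wd.inv (Wd.g 1))),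
  (Wd.mul (Wd.mul (Wd.mul (Wd.pow (Wd.mul (Wd.mul (Wd.g 10) (Wd.g 9)) (Wd.g 0)) 3) (Wd.g 2)) (Wd.inv (Wd.pow (Wd.mul (Wd.mul (Wd.g 10) (Wd.g 9)) (Wd.g 0)) 3))) (Wd.inv (Wd.g 2))),
  (Wd.mul (Wd.mul (Wd.mul (Wd.pow (Wd.mul (Wd.mul (Wd.g 10) (Wd.g 9)) (Wd.g 0)) 3) (Wd.g 3)) (Wd.inv (Wd.pow (Wd.mul (Wd.mul (Wd.g 10) (Wd.g 9)) (Wd.g 0)) 3))) (Wd.inv (Wd.g 3))),
  (Wd.mul (Wd.mul (Wd.mul (Wd.pow (Wd.mul (Wd.mul (Wd.g 10) (Wd.g 9)) (Wd.g 0)) 3) (Wd.g 4)) (Wd.inv (Wd.pow (Wd.mul (Wd.mul (Wd.g 10) (Wd.g 9)) (Wd.g 0)) 3))) (Wd.inv (Wd.g 4))),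
  (Wd.mul (Wd.mul (Wd.mul (Wd.pow (Wd.mul (Wd.mul (Wd.g 10) (Wd.g 9)) (Wd.g 0)) 3) (Wd.g 5)) (Wd.inv (Wd.pow (Wd.mul (Wd.mul (Wd.g 10) (Wd.g 9)) (Wd.g 0)) 3))) (Wd.inv (Wd.g 5))),
  (Wd.mul (Wd.mul (Wd.mul (Wd.pow (Wd.mul (Wd.mul (Wd.g 10) (Wd.g 9)) (Wd.g 0)) 3) (Wd.g 6)) (Wd.inv (Wd.pow (Wd.mul (Wd.mul (Wd.g 10) (Wd.g 9)) (Wd.g 0)) 3))) (Wd.inv (Wd.g 6))),
  (Wd.mul (Wd.mul (Wd.mul (Wd.pow (Wd.mul (Wd.mul (Wd.g 10) (Wd.g 9)) (Wd.g 0)) 3) (Wd.g 7)) (Wd.inv (Wd.pow (Wd.mul (Wd.mul (Wd.g 10) (Wd.g 9)) (Wd.g 0)) 3))) (Wd.inv (Wd.g 7))),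
  (Wd.mul (Wd.mul (Wd.mul (Wd.pow (Wd.mul (Wd.mul (Wd.g 10) (Wd.g 9)) (Wd.g 0)) 3) (Wd.g 8)) (Wd.inv (Wd.pow (Wd.mul (Wd.mul (Wd.g 10) (Wd.g 9)) (Wd.g 0)) 3))) (Wd.inv (Wd.g 8))),
  (Wd.mul (Wd.mul (Wd.mul (Wd.pow (Wd.mul (Wd.mul (Wd.g 10) (Wd.g 9)) (Wd.g 0)) 3) (Wd.g 9)) (Wd.inv (Wd.pow (Wd.mul (Wd.mul (Wd.g 10) (Wd.g 9)) (Wd.g 0)) 3))) (Wd.inv (Wd.g 9))),
  (Wd.mul (Wd.mul (Wd.mul (Wd.pow (Wd.mul (Wd.mul (Wd.g 10) (Wd.g 9)) (Wd.g 0)) 3) (Wd.g 10)) (Wd.inv (Wd.pow (Wd.mul (Wd.mul (Wd.g 10) (Wd.g 9)) (Wd.g 0)) 3))) (Wd.inv (Wd.g 10))),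
  (Wd.pow (Wd.pow (Wd.mul (Wd.mul (Wd.g 10) (Wd.g 9)) (Wd.g 0)) 3) 2)]

/-- the further relators -/
def FE.extra : List (FreeGroup FE.Gen) := extraW.map (fun W => W.eval (fun c => FreeGroup.of (gen c)))

/-- the Coxeter relators as words -/
def coxW : List Wd := [
  (Wd.pow (Wd.mul (Wd.g 0) (Wd.g 1)) 3),
  (Wd.pow (Wd.mul (Wd.g 0) (Wd.g 2)) 2),
  (Wd.pow (Wd.mul (Wd.g 1) (Wd.g 2)) 3),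
  (Wd.pow (Wd.mul (Wd.g 0) (Wd.g 3)) 2),
  (Wd.pow (Wd.mul (Wd.g 1) (Wd.g 3)) 2),
  (Wd.pow (Wd.mul (Wd.g 2) (Wd.g 3)) 3),
  (Wd.pow (Wd.mul (Wd.g 0) (Wd.g 4)) 2),
  (Wd.pow (Wd.mul (Wd.g 1) (Wd.g 4)) 2),
  (Wd.pow (Wd.mul (Wd.g 2) (Wd.g 4)) 2),
  (Wd.pow (Wd.mul (Wd.g 3) (Wd.g 4)) 3),
  (Wd.pow (Wd.mul (Wd.g 0) (Wd.g 5)) 2),
  (Wd.pow (Wd.mul (Wd.g 1) (Wd.g 5)) 2),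
  (Wd.pow (Wd.mul (Wd.g 2) (Wd.g 5)) 2),
  (Wd.pow (Wd.mul (Wd.g 3) (Wd.g 5)) 2),
  (Wd.pow (Wd.mul (Wd.g 4) (Wd.g 5)) 3),
  (Wd.pow (Wd.mul (Wd.g 0) (Wd.g 6)) 2),
  (Wd.pow (Wd.mul (Wd.g 1) (Wd.g 6)) 2),
  (Wd.pow (Wd.mul (Wd.g 2) (Wd.g 6)) 2),
  (Wd.pow (Wd.mul (Wd.g 3) (Wd.g 6)) 2),
  (Wd.pow (Wd.mul (Wd.g 4) (Wd.g 6)) 2),
  (Wd.pow (Wd.mul (Wd.g 5) (Wd.g 6)) 3),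
  (Wd.pow (Wd.mul (Wd.g 0) (Wd.g 7)) 2),
  (Wd.pow (Wd.mul (Wd.g 1) (Wd.g 7)) 2),
  (Wd.pow (Wd.mul (Wd.g 2) (Wd.g 7)) 2),
  (Wd.pow (Wd.mul (Wd.g 3) (Wd.g 7)) 3),
  (Wd.pow (Wd.mul (Wd.g 4) (Wd.g 7)) 2),
  (Wd.pow (Wd.mul (Wd.g 5) (Wd.g 7)) 2),
  (Wd.pow (Wd.mul (Wd.g 6) (Wd.g 7)) 2),
  (Wd.pow (Wd.mul (Wd.g 0) (Wd.g 8)) 2),
  (Wd.pow (Wd.mul (Wd.g 1) (Wd.g 8)) 2),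
  (Wd.pow (Wd.mul (Wd.g 2) (Wd.g 8)) 2),
  (Wd.pow (Wd.mul (Wd.g 3) (Wd.g 8)) 2),
  (Wd.pow (Wd.mul (Wd.g 4) (Wd.g 8)) 2),
  (Wd.pow (Wd.mul (Wd.g 5) (Wd.g 8)) 2),
  (Wd.pow (Wd.mul (Wd.g 6) (Wd.g 8)) 2),
  (Wd.pow (Wd.mul (Wd.g 7) (Wd.g 8)) 3),
  (Wd.pow (Wd.mul (Wd.g 0) (Wd.g 9)) 2),
  (Wd.pow (Wd.mul (Wd.g 1) (Wd.g 9)) 2),
  (Wd.pow (Wd.mul (Wd.g 2) (Wd.g 9)) 2),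
  (Wd.pow (Wd.mul (Wd.g 3) (Wd.g 9)) 2),
  (Wd.pow (Wd.mul (Wd.g 4) (Wd.g 9)) 2),
  (Wd.pow (Wd.mul (Wd.g 5) (Wd.g 9)) 2),
  (Wd.pow (Wd.mul (Wd.g 6) (Wd.g 9)) 3),
  (Wd.pow (Wd.mul (Wd.g 7) (Wd.g 9)) 2),
  (Wd.pow (Wd.mul (Wd.g 8) (Wd.g 9)) 2)]

theorem coxW_eq : coxWds FE.edges gen 10 = coxW := rfl

/-- the presentation data -/
def C : CoxData FE.Gen FE.edges FE.extra where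
  gen := gen
  idx := idx
  nn := 10
  ng := 11
  extraW := extraW
  hgi := by intro a; cases a <;> rfl
  hlt := by intro a; cases a <;> decide
  hidx := by intro i hi; interval_cases i <;> rfl
  hnode := by intro a ha; cases a <;> first | decide | (exfalso; revert ha; decide)
  hnode' := by intro i hi; interval_cases i <;> decide
  hnn := by decide
  hextra := rfl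
  hlets := by decide

/-- all relators -/
def rels : List Wd := coxW ++ extraW

end Cfsg.Agent.Lib.FERel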