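import Cfsg.Agent.Lib.FEWB

set_option autoImplicit false
set_option linter.all false
set_option maxRecDepth 100000
set_option Elab.async false

namespace Cfsg.Agent.Lib.FEWP0
open Cfsg.Spor Cfsg.Agent.Lib.BenesPerm Cfsg.Agent.Lib.BenesAct Cfsg.Agent.Lib.BenesWord
open Cfsg.Agent.Lib.BenesPlane Cfsg.Agent.Lib.CosetClosure Cfsg.Agent.Lib.CosetFacts
open Cfsg.Agent.Lib.CosetMain Cfsg.Agent.Lib.CoxBridge Cfsg.Agent.Lib.CosetGroup Cfsg.Agent.Lib.CosetInst Cfsg.Agent.Lib.CosetInj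
open Cfsg.Agent.Lib.BenesPack Cfsg.Agent.Lib.CosetPack Cfsg.Agent.Lib.CosetChain Cfsg.Agent.Lib.CosetWide Cfsg.Agent.Lib.CosetWide2
open Cfsg.Agent.Lib.FERel Cfsg.Agent.Lib.FEWN0 Cfsg.Agent.Lib.FEWN1 Cfsg.Agent.Lib.FEWN2 Cfsg.Agent.Lib.FEWN3 Cfsg.Agent.Lib.FEWN4 Cfsg.Agent.Lib.FEWN5 Cfsg.Agent.Lib.FEWN6 Cfsg.Agent.Lib.FEWN7 Cfsg.Agent.Lib.FEWN8 Cfsg.Agent.Lib.FEWN9 Cfsg.Agent.Lib.FEWN10 Cfsg.Agent.Lib.FEWN11 Cfsg.Agent.Lib.FEWN12 Cfsg.Agent.Lib.FEWN13 Cfsg.Agent.Lib.FEWN14 Cfsg.Agent.Lib.FEWN15 Cfsg.Agent.Lib.FEWR0 Cfsg.Agent.Lib.FEWR1 Cfsg.Agent.Lib.FEWR2 Cfsg.Agent.Lib.FEWR3 Cfsg.Agent.Lib.FEWR4 Cfsg.Agent.Lib.FEWR5 Cfsg.Agent.Lib.FEWD Cfsg.Agent.Lib.FEWB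

theorem pl0_0 : plK nets 20 0 eqs0 = true := by decide +kernel
theorem pl0_1 : plK nets 20 0 eqs1 = true := by decide +kernel
theorem pl0_2 : plK nets 20 0 eqs2 = true := by decide +kernel
theorem pl0_3 : plK nets 20 0 eqs3 = true := by decide +kernel
theorem pl0_4 : plK nets 20 0 eqs4 = true := by decide +kernel
theorem pl1_0 : plK nets 20 1 eqs0 = true := by decide +kernel
theorem pl1_1 : plK nets 20 1 eqs1 = true := by decide +kernel
theorem pl1_2 : plK nets 20 1 eqs2 = true := by decide +kernel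
theorem pl1_3 : plK nets 20 1 eqs3 = true := by decide +kernel
theorem pl1_4 : plK nets 20 1 eqs4 = true := by decide +kernel
theorem pl2_0 : plK nets 20 2 eqs0 = true := by decide +kernel
theorem pl2_1 : plK nets 20 2 eqs1 = true := by decide +kernel
theorem pl2_2 : plK nets 20 2 eqs2 = true := by decide +kernel
theorem pl2_3 : plK nets 20 2 eqs3 = true := by decide +kernel
theorem pl2_4 : plK nets 20 2 eqs4 = true := by decide +kernel
theorem pl3_0 : plK nets 20 3 eqs0 = true := by decide +kernel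
theorem pl3_1 : plK nets 20 3 eqs1 = true := by decide +kernel
theorem pl3_2 : plK nets 20 3 eqs2 = true := by decide +kernel
theorem pl3_3 : plK nets 20 3 eqs3 = true := by decide +kernel
theorem pl3_4 : plK nets 20 3 eqs4 = true := by decide +kernel
theorem pl4_0 : plK nets 20 4 eqs0 = true := by decide +kernel
theorem pl4_1 : plK nets 20 4 eqs1 = true := by decide +kernel
theorem pl4_2 : plK nets 20 4 eqs2 = true := by decide +kernel
theorem pl4_3 : plK nets 20 4 eqs3 = true := by decide +kernel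
theorem pl4_4 : plK nets 20 4 eqs4 = true := by decide +kernel

end Cfsg.Agent.Lib.FEWP0
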