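import Cfsg.Agent.Lib.FEWB

set_option autoImplicit false
set_option linter.all false
set_option maxRecDepth 100000
set_option Elab.async false

namespace Cfsg.Agent.Lib.FEWP1
open Cfsg.Spor Cfsg.Agent.Lib.BenesPerm Cfsg.Agent.Lib.BenesAct Cfsg.Agent.Lib.BenesWord
open Cfsg.Agent.Lib.BenesPlane Cfsg.Agent.Lib.CosetClosure Cfsg.Agent.Lib.CosetFacts
open Cfsg.Agent.Lib.CosetMain Cfsg.Agent.Lib.CoxBridge Cfsg.Agent.Lib.CosetGroup Cfsg.Agent.Lib.CosetInst Cfsg.Agent.Lib.CosetInj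
open Cfsg.Agent.Lib.BenesPack Cfsg.Agent.Lib.CosetPack Cfsg.Agent.Lib.CosetChain Cfsg.Agent.Lib.CosetWide Cfsg.Agent.Lib.CosetWide2
open Cfsg.Agent.Lib.FERel Cfsg.Agent.Lib.FEWN0 Cfsg.Agent.Lib.FEWN1 Cfsg.Agent.Lib.FEWN2 Cfsg.Agent.Lib.FEWN3 Cfsg.Agent.Lib.FEWN4 Cfsg.Agent.Lib.FEWN5 Cfsg.Agent.Lib.FEWN6 Cfsg.Agent.Lib.FEWN7 Cfsg.Agent.Lib.FEWN8 Cfsg.Agent.Lib.FEWN9 Cfsg.Agent.Lib.FEWN10 Cfsg.Agent.Lib.FEWN11 Cfsg.Agent.Lib.FEWN12 Cfsg.Agent.Lib.FEWN13 Cfsg.Agent.Lib.FEWN14 Cfsg.Agent.Lib.FEWN15 Cfsg.Agent.Lib.FEWR0 Cfsg.Agent.Lib.FEWR1 Cfsg.Agent.Lib.FEWR2 Cfsg.Agent.Lib.FEWR3 Cfsg.Agent.Lib.FEWR4 Cfsg.Agent.Lib.FEWR5 Cfsg.Agent.Lib.FEWD Cfsg.Agent.Lib.FEWB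

theorem pl5_0 : plK nets 20 5 eqs0 = true := by decide +kernel
theorem pl5_1 : plK nets 20 5 eqs1 = true := by decide +kernel
theorem pl5_2 : plK nets 20 5 eqs2 = true := by decide +kernel
theorem pl5_3 : plK nets 20 5 eqs3 = true := by decide +kernel
theorem pl5_4 : plK nets 20 5 eqs4 = true := by decide +kernel
theorem pl6_0 : plK nets 20 6 eqs0 = true := by decide +kernel
theorem pl6_1 : plK nets 20 6 eqs1 = true := by decide +kernel
theorem pl6_2 : plK nets 20 6 eqs2 = true := by decide +kernel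
theorem pl6_3 : plK nets 20 6 eqs3 = true := by decide +kernel
theorem pl6_4 : plK nets 20 6 eqs4 = true := by decide +kernel
theorem pl7_0 : plK nets 20 7 eqs0 = true := by decide +kernel
theorem pl7_1 : plK nets 20 7 eqs1 = true := by decide +kernel
theorem pl7_2 : plK nets 20 7 eqs2 = true := by decide +kernel
theorem pl7_3 : plK nets 20 7 eqs3 = true := by decide +kernel
theorem pl7_4 : plK nets 20 7 eqs4 = true := by decide +kernel
theorem pl8_0 : plK nets 20 8 eqs0 = true := by decide +kernel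
theorem pl8_1 : plK nets 20 8 eqs1 = true := by decide +kernel
theorem pl8_2 : plK nets 20 8 eqs2 = true := by decide +kernel
theorem pl8_3 : plK nets 20 8 eqs3 = true := by decide +kernel
theorem pl8_4 : plK nets 20 8 eqs4 = true := by decide +kernel
theorem pl9_0 : plK nets 20 9 eqs0 = true := by decide +kernel
theorem pl9_1 : plK nets 20 9 eqs1 = true := by decide +kernel
theorem pl9_2 : plK nets 20 9 eqs2 = true := by decide +kernel
theorem pl9_3 : plK nets 20 9 eqs3 = true := by decide +kernel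
theorem pl9_4 : plK nets 20 9 eqs4 = true := by decide +kernel

end Cfsg.Agent.Lib.FEWP1
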