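import Cfsg.Agent.Lib.FEWB

set_option autoImplicit false
set_option linter.all false
set_option maxRecDepth 100000
set_option Elab.async false

namespace Cfsg.Agent.Lib.FEWP2
open Cfsg.Spor Cfsg.Agent.Lib.BenesPerm Cfsg.Agent.Lib.BenesAct Cfsg.Agent.Lib.BenesWord
open Cfsg.Agent.Lib.BenesPlane Cfsg.Agent.Lib.CosetClosure Cfsg.Agent.Lib.CosetFacts
open Cfsg.Agent.Lib.CosetMain Cfsg.Agent.Lib.CoxBridge Cfsg.Agent.Lib.CosetGroup Cfsg.Agent.Lib.CosetInst Cfsg.Agent.Lib.CosetInj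
open Cfsg.Agent.Lib.BenesPack Cfsg.Agent.Lib.CosetPack Cfsg.Agent.Lib.CosetChain Cfsg.Agent.Lib.CosetWide Cfsg.Agent.Lib.CosetWide2
open Cfsg.Agent.Lib.FERel Cfsg.Agent.Lib.FEWN0 Cfsg.Agent.Lib.FEWN1 Cfsg.Agent.Lib.FEWN2 Cfsg.Agent.Lib.FEWN3 Cfsg.Agent.Lib.FEWN4 Cfsg.Agent.Lib.FEWN5 Cfsg.Agent.Lib.FEWN6 Cfsg.Agent.Lib.FEWN7 Cfsg.Agent.Lib.FEWN8 Cfsg.Agent.Lib.FEWN9 Cfsg.Agent.Lib.FEWN10 Cfsg.Agent.Lib.FEWN11 Cfsg.Agent.Lib.FEWN12 Cfsg.Agent.Lib.FEWN13 Cfsg.Agent.Lib.FEWN14 Cfsg.Agent.Lib.FEWN15 Cfsg.Agent.Lib.FEWR0 Cfsg.Agent.Lib.FEWR1 Cfsg.Agent.Lib.FEWR2 Cfsg.Agent.Lib.FEWR3 Cfsg.Agent.Lib.FEWR4 Cfsg.Agent.Lib.FEWR5 Cfsg.Agent.Lib.FEWD Cfsg.Agent.Lib.FEWB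

theorem pl10_0 : plK nets 20 10 eqs0 = true := by decide +kernel
theorem pl10_1 : plK nets 20 10 eqs1 = true := by decide +kernel
theorem pl10_2 : plK nets 20 10 eqs2 = true := by decide +kernel
theorem pl10_3 : plK nets 20 10 eqs3 = true := by decide +kernel
theorem pl10_4 : plK nets 20 10 eqs4 = true := by decide +kernel
theorem pl11_0 : plK nets 20 11 eqs0 = true := by decide +kernel
theorem pl11_1 : plK nets 20 11 eqs1 = true := by decide +kernel
theorem pl11_2 : plK nets 20 11 eqs2 = true := by decide +kernel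
theorem pl11_3 : plK nets 20 11 eqs3 = true := by decide +kernel
theorem pl11_4 : plK nets 20 11 eqs4 = true := by decide +kernel
theorem pl12_0 : plK nets 20 12 eqs0 = true := by decide +kernel
theorem pl12_1 : plK nets 20 12 eqs1 = true := by decide +kernel
theorem pl12_2 : plK nets 20 12 eqs2 = true := by decide +kernel
theorem pl12_3 : plK nets 20 12 eqs3 = true := by decide +kernel
theorem pl12_4 : plK nets 20 12 eqs4 = true := by decide +kernel
theorem pl13_0 : plK nets 20 13 eqs0 = true := by decide +kernel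
theorem pl13_1 : plK nets 20 13 eqs1 = true := by decide +kernel
theorem pl13_2 : plK nets 20 13 eqs2 = true := by decide +kernel
theorem pl13_3 : plK nets 20 13 eqs3 = true := by decide +kernel
theorem pl13_4 : plK nets 20 13 eqs4 = true := by decide +kernel
theorem pl14_0 : plK nets 20 14 eqs0 = true := by decide +kernel
theorem pl14_1 : plK nets 20 14 eqs1 = true := by decide +kernel
theorem pl14_2 : plK nets 20 14 eqs2 = true := by decide +kernel
theorem pl14_3 : plK nets 20 14 eqs3 = true := by decide +kernel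
theorem pl14_4 : plK nets 20 14 eqs4 = true := by decide +kernel

end Cfsg.Agent.Lib.FEWP2
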