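import Cfsg.Agent.Lib.FEWB

set_option autoImplicit false
set_option linter.all false
set_option maxRecDepth 100000
set_option Elab.async false

namespace Cfsg.Agent.Lib.FEWP3
open Cfsg.Spor Cfsg.Agent.Lib.BenesPerm Cfsg.Agent.Lib.BenesAct Cfsg.Agent.Lib.BenesWord
open Cfsg.Agent.Lib.BenesPlane Cfsg.Agent.Lib.CosetClosure Cfsg.Agent.Lib.CosetFacts
open Cfsg.Agent.Lib.CosetMain Cfsg.Agent.Lib.CoxBridge Cfsg.Agent.Lib.CosetGroup Cfsg.Agent.Lib.CosetInst Cfsg.Agent.Lib.CosetInj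
open Cfsg.Agent.Lib.BenesPack Cfsg.Agent.Lib.CosetPack Cfsg.Agent.Lib.CosetChain Cfsg.Agent.Lib.CosetWide Cfsg.Agent.Lib.CosetWide2
open Cfsg.Agent.Lib.FERel Cfsg.Agent.Lib.FEWN0 Cfsg.Agent.Lib.FEWN1 Cfsg.Agent.Lib.FEWN2 Cfsg.Agent.Lib.FEWN3 Cfsg.Agent.Lib.FEWN4 Cfsg.Agent.Lib.FEWN5 Cfsg.Agent.Lib.FEWN6 Cfsg.Agent.Lib.FEWN7 Cfsg.Agent.Lib.FEWN8 Cfsg.Agent.Lib.FEWN9 Cfsg.Agent.Lib.FEWN10 Cfsg.Agent.Lib.FEWN11 Cfsg.Agent.Lib.FEWN12 Cfsg.Agent.Lib.FEWN13 Cfsg.Agent.Lib.FEWN14 Cfsg.Agent.Lib.FEWN15 Cfsg.Agent.Lib.FEWR0 Cfsg.Agent.Lib.FEWR1 Cfsg.Agent.Lib.FEWR2 Cfsg.Agent.Lib.FEWR3 Cfsg.Agent.Lib.FEWR4 Cfsg.Agent.Lib.FEWR5 Cfsg.Agent.Lib.FEWD Cfsg.Agent.Lib.FEWB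

theorem pl15_0 : plK nets 20 15 eqs0 = true := by decide +kernel
theorem pl15_1 : plK nets 20 15 eqs1 = true := by decide +kernel
theorem pl15_2 : plK nets 20 15 eqs2 = true := by decide +kernel
theorem pl15_3 : plK nets 20 15 eqs3 = true := by decide +kernel
theorem pl15_4 : plK nets 20 15 eqs4 = true := by decide +kernel
theorem pl16_0 : plK nets 20 16 eqs0 = true := by decide +kernel
theorem pl16_1 : plK nets 20 16 eqs1 = true := by decide +kernel
theorem pl16_2 : plK nets 20 16 eqs2 = true := by decide +kernel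
theorem pl16_3 : plK nets 20 16 eqs3 = true := by decide +kernel
theorem pl16_4 : plK nets 20 16 eqs4 = true := by decide +kernel
theorem pl17_0 : plK nets 20 17 eqs0 = true := by decide +kernel
theorem pl17_1 : plK nets 20 17 eqs1 = true := by decide +kernel
theorem pl17_2 : plK nets 20 17 eqs2 = true := by decide +kernel
theorem pl17_3 : plK nets 20 17 eqs3 = true := by decide +kernel
theorem pl17_4 : plK nets 20 17 eqs4 = true := by decide +kernel
theorem pl18_0 : plK nets 20 18 eqs0 = true := by decide +kernel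
theorem pl18_1 : plK nets 20 18 eqs1 = true := by decide +kernel
theorem pl18_2 : plK nets 20 18 eqs2 = true := by decide +kernel
theorem pl18_3 : plK nets 20 18 eqs3 = true := by decide +kernel
theorem pl18_4 : plK nets 20 18 eqs4 = true := by decide +kernel
theorem pl19_0 : plK nets 20 19 eqs0 = true := by decide +kernel
theorem pl19_1 : plK nets 20 19 eqs1 = true := by decide +kernel
theorem pl19_2 : plK nets 20 19 eqs2 = true := by decide +kernel
theorem pl19_3 : plK nets 20 19 eqs3 = true := by decide +kernel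
theorem pl19_4 : plK nets 20 19 eqs4 = true := by decide +kernel

end Cfsg.Agent.Lib.FEWP3
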