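import Cfsg.Agent.Lib.FEWS
import Cfsg.Agent.Lib.FEWP0
import Cfsg.Agent.Lib.FEWP1
import Cfsg.Agent.Lib.FEWP2
import Cfsg.Agent.Lib.FEWP3
import Cfsg.Agent.Lib.FEWF0
import Cfsg.Agent.Lib.FEWC0
import Cfsg.Agent.Lib.FEWC1
import Cfsg.Agent.Lib.FEWC2
import Cfsg.Agent.Lib.FEWC3
import Cfsg.Agent.Lib.FEWC4
import Cfsg.Agent.Lib.FEWC5
import Cfsg.Agent.Lib.FEWC6

set_option autoImplicit false
set_option linter.all false
set_option maxRecDepth 100000
set_option Elab.async false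

namespace Cfsg.Agent.Lib.FEW
open Cfsg.Spor Cfsg.Agent.Lib.BenesPerm Cfsg.Agent.Lib.BenesAct Cfsg.Agent.Lib.BenesWord
open Cfsg.Agent.Lib.BenesPlane Cfsg.Agent.Lib.CosetClosure Cfsg.Agent.Lib.CosetFacts
open Cfsg.Agent.Lib.CosetMain Cfsg.Agent.Lib.CoxBridge Cfsg.Agent.Lib.CosetGroup Cfsg.Agent.Lib.CosetInst Cfsg.Agent.Lib.CosetInj
open Cfsg.Agent.Lib.BenesPack Cfsg.Agent.Lib.CosetPack Cfsg.Agent.Lib.CosetChain Cfsg.Agent.Lib.CosetWide Cfsg.Agent.Lib.CosetWide2
open Cfsg.Agent.Lib.FERel Cfsg.Agent.Lib.FEWN0 Cfsg.Agent.Lib.FEWN1 Cfsg.Agent.Lib.FEWN2 Cfsg.Agent.Lib.FEWN3 Cfsg.Agent.Lib.FEWN4 Cfsg.Agent.Lib.FEWN5 Cfsg.Agent.Lib.FEWN6 Cfsg.Agent.Lib.FEWN7 Cfsg.Agent.Lib.FEWN8 Cfsg.Agent.Lib.FEWN9 Cfsg.Agent.Lib.FEWN10 Cfsg.Agent.Lib.FEWN11 Cfsg.Agent.Lib.FEWN12 Cfsg.Agent.Lib.FEWN13 Cfsg.Agent.Lib.FEWN14 Cfsg.Agent.Lib.FEWN15 Cfsg.Agent.Lib.FEWR0 Cfsg.Agent.Lib.FEWR1 Cfsg.Agent.Lib.FEWR2 Cfsg.Agent.Lib.FEWR3 Cfsg.Agent.Lib.FEWR4 Cfsg.Agent.Lib.FEWR5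 Cfsg.Agent.Lib.FEWD Cfsg.Agent.Lib.FEWB Cfsg.Agent.Lib.FEWS Cfsg.Agent.Lib.FEWP0 Cfsg.Agent.Lib.FEWP1 Cfsg.Agent.Lib.FEWP2 Cfsg.Agent.Lib.FEWP3 Cfsg.Agent.Lib.FEWF0 Cfsg.Agent.Lib.FEWC0 Cfsg.Agent.Lib.FEWC1 Cfsg.Agent.Lib.FEWC2 Cfsg.Agent.Lib.FEWC3 Cfsg.Agent.Lib.FEWC4 Cfsg.Agent.Lib.FEWC5 Cfsg.Agent.Lib.FEWC6

/-- further elements of the group used as letters -/
noncomputable def L0 : List (CoxPresented FE.Gen FE.edges FE.extra) := xw.map (fun W => W.eval (C.x []))

theorem rel_eval (L : List (CoxPresented FE.Gen FE.edges FE.extra)) : ∀ W ∈ rels, W.eval (C.x L) = 1 := by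
  have h := C.rel_x L
  intro W hW
  rcases List.mem_append.mp hW with h1 | h1
  · exact h.1 W (by rw [show coxWds FE.edges C.gen C.nn = coxW from coxW_eq]; exact h1)
  · exact h.2.1 W h1

theorem xw_lets : ∀ W ∈ xw, lets 11 W = true := by decide

theorem x_further (j : ℕ) (hj : j < xw.length) : (xw[j]).eval (C.x L0) = C.x L0 (11 + j) := by
  have h1 : C.x L0 (11 + j) = (L0[j]?).getD 1 := C.x_ge L0 j
  rw [h1, L0, List.getElem?_map, List.getElem?_eq_getElem hj]
  exact eval_x_congr C _ _ (xw_lets _ (List.getElem_mem hj))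

theorem wrel_eval : ∀ W ∈ wrels, W.eval (C.x L0) = 1 :=
  eval_of_wOK (C.x L0) x_further (rel_eval L0) c_wok

theorem x_iv0 : ∀ c, C.x L0 (ivx c) = (C.x L0 c)⁻¹ := by
  have h2 : ∀ i, i < 10 → C.x L0 i = (C.x L0 i)⁻¹ := fun i hi => mul_eq_one_iff_eq_inv.mp ((C.rel_x L0).2.2 i hi)
  intro c
  by_cases hc : c < 17
  · interval_cases c
    · exact h2 0 (by norm_num)
    · exact h2 1 (by norm_num)
    · exact h2 2 (by norm_num)
    · exact h2 3 (by norm_num)
    · exact h2 4 (by norm_num)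
    · exact h2 5 (by norm_num)
    · exact h2 6 (by norm_num)
    · exact h2 7 (by norm_num)
    · exact h2 8 (by norm_num)
    · exact h2 9 (by norm_num)
    · exact mul_eq_one_iff_eq_inv.mp ((pow_two _).symm.trans (rel_eval L0 (Wd.pow (Wd.g 10) 2) (by decide)))
    · change C.x L0 12 = (C.x L0 11)⁻¹; rfl
    · change C.x L0 11 = (C.x L0 12)⁻¹; exact (inv_inv _).symm
    · change C.x L0 14 = (C.x L0 13)⁻¹; rfl
    · change C.x L0 13 = (C.x L0 14)⁻¹; exact (inv_inv _).symm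
    · change C.x L0 16 = (C.x L0 15)⁻¹; rfl
    · change C.x L0 15 = (C.x L0 16)⁻¹; exact (inv_inv _).symm
  · have h1 : ivx c = c := ivOf_ge _ (by simpa using hc)
    obtain ⟨d, rfl⟩ := Nat.exists_eq_add_of_le (not_lt.mp hc)
    rw [h1, show C.x L0 (17 + d) = 1 from ?_, inv_one]
    have h3 : 17 + d = C.ng + (6 + d) := by change 17 + d = 11 + (6 + d); omega
    rw [h3, C.x_ge, List.getElem?_eq_none (by simp [L0, xw])]; rfl

theorem c_pl : ∀ b, b < 20 → plK nets 20 b eqs = true := by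
  intro b hb
  interval_cases b
  · exact (plK_append pl0_0 (plK_append pl0_1 (plK_append pl0_2 (plK_append pl0_3 pl0_4))))
  · exact (plK_append pl1_0 (plK_append pl1_1 (plK_append pl1_2 (plK_append pl1_3 pl1_4))))
  · exact (plK_append pl2_0 (plK_append pl2_1 (plK_append pl2_2 (plK_append pl2_3 pl2_4))))
  · exact (plK_append pl3_0 (plK_append pl3_1 (plK_append pl3_2 (plK_append pl3_3 pl3_4))))
  · exact (plK_append pl4_0 (plK_append pl4_1 (plK_append pl4_2 (plK_append pl4_3 pl4_4))))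
  · exact (plK_append pl5_0 (plK_append pl5_1 (plK_append pl5_2 (plK_append pl5_3 pl5_4))))
  · exact (plK_append pl6_0 (plK_append pl6_1 (plK_append pl6_2 (plK_append pl6_3 pl6_4))))
  · exact (plK_append pl7_0 (plK_append pl7_1 (plK_append pl7_2 (plK_append pl7_3 pl7_4))))
  · exact (plK_append pl8_0 (plK_append pl8_1 (plK_append pl8_2 (plK_append pl8_3 pl8_4))))
  · exact (plK_append pl9_0 (plK_append pl9_1 (plK_append pl9_2 (plK_append pl9_3 pl9_4))))
  · exact (plK_append pl10_0 (plK_append pl10_1 (plK_append pl10_2 (plK_append pl10_3 pl10_4))))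
  · exact (plK_append pl11_0 (plK_append pl11_1 (plK_append pl11_2 (plK_append pl11_3 pl11_4))))
  · exact (plK_append pl12_0 (plK_append pl12_1 (plK_append pl12_2 (plK_append pl12_3 pl12_4))))
  · exact (plK_append pl13_0 (plK_append pl13_1 (plK_append pl13_2 (plK_append pl13_3 pl13_4))))
  · exact (plK_append pl14_0 (plK_append pl14_1 (plK_append pl14_2 (plK_append pl14_3 pl14_4))))
  · exact (plK_append pl15_0 (plK_append pl15_1 (plK_append pl15_2 (plK_append pl15_3 pl15_4))))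
  · exact (plK_append pl16_0 (plK_append pl16_1 (plK_append pl16_2 (plK_append pl16_3 pl16_4))))
  · exact (plK_append pl17_0 (plK_append pl17_1 (plK_append pl17_2 (plK_append pl17_3 pl17_4))))
  · exact (plK_append pl18_0 (plK_append pl18_1 (plK_append pl18_2 (plK_append pl18_3 pl18_4))))
  · exact (plK_append pl19_0 (plK_append pl19_1 (plK_append pl19_2 (plK_append pl19_3 pl19_4))))

theorem lane_inv : ∀ c, sperm nets (ivx c) = (sperm nets c)⁻¹ :=
  lane_iv (nc := 17) c_nets rfl (fun c hc => ivOf_ge _ hc) c_pl c_inv_sub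

theorem lane_wrels : ∀ W ∈ wrels, W.eval (sperm nets) = 1 := lane_rel c_nets lane_inv c_pl c_rel_sub

theorem c_iv : ivK nets 20 ivx 17 = true := ivK_of c_nets 17 (by decide +kernel) (fun c _ => lane_inv c)

theorem wrelK : ∀ W ∈ wrels, relK nets 20 (W.flat ivx) = true :=
  fun W hW => relK_of_eval c_nets lane_inv (lane_wrels W hW)

theorem lane_defs : ∀ j (hj : j < xw.length), (xw[j]).eval (sperm nets) = sperm nets (11 + j) := by
  intro j hj
  change j < 6 at hj
  interval_cases j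
  · exact (inv_mul_eq_one.mp (lane_wrels ((Wd.mul (Wd.inv (Wd.g 11)) (Wd.mul (Wd.mul (Wd.mul (Wd.mul (Wd.mul (Wd.mul (Wd.mul (Wd.mul (Wd.g 3) (Wd.g 2)) (Wd.g 1)) (Wd.g 3)) (Wd.g 4)) (Wd.g 5)) (Wd.g 3)) (Wd.g 7)) (Wd.g 8)))) (by decide))).symm
  · exact (congrArg (·⁻¹) (inv_mul_eq_one.mp (lane_wrels ((Wd.mul (Wd.inv (Wd.g 11)) (Wd.mul (Wd.mul (Wd.mul (Wd.mul (Wd.mul (Wd.mul (Wd.mul (Wd.mul (Wd.g 3) (Wd.g 2)) (Wd.g 1)) (Wd.g 3)) (Wd.g 4)) (Wd.g 5)) (Wd.g 3)) (Wd.g 7)) (Wd.g 8)))) (by decide))).symm).trans (lane_inv 11).symm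
  · exact (inv_mul_eq_one.mp (lane_wrels ((Wd.mul (Wd.inv (Wd.g 13)) (Wd.mul (Wd.mul (Wd.mul (Wd.mul (Wd.mul (Wd.mul (Wd.g 0) (Wd.g 1)) (Wd.g 2)) (Wd.g 3)) (Wd.g 4)) (Wd.g 5)) (Wd.g 7)))) (by decide))).symm
  · exact (congrArg (·⁻¹) (inv_mul_eq_one.mp (lane_wrels ((Wd.mul (Wd.inv (Wd.g 13)) (Wd.mul (Wd.mul (Wd.mul (Wd.mul (Wd.mul (Wd.mul (Wd.g 0) (Wd.g 1)) (Wd.g 2)) (Wd.g 3)) (Wd.g 4)) (Wd.g 5)) (Wd.g 7)))) (by decide))).symm).trans (lane_inv 13).symm
  · exact (inv_mul_eq_one.mp (lane_wrels ((Wd.mul (Wd.inv (Wd.g 15)) (Wd.pow (Wd.mul (Wd.mul (Wd.g 10) (Wd.g 9)) (Wd.g 0)) 3))) (by decide))).symm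
  · exact (congrArg (·⁻¹) (inv_mul_eq_one.mp (lane_wrels ((Wd.mul (Wd.inv (Wd.g 15)) (Wd.pow (Wd.mul (Wd.mul (Wd.g 10) (Wd.g 9)) (Wd.g 0)) 3))) (by decide))).symm).trans (lane_inv 15).symm

theorem lane_rels : ∀ W ∈ rels, W.eval (sperm nets) = 1 := eval_of_wBack (sperm nets) lane_defs lane_wrels c_wback

theorem phi_exists : ∃ φ : (CoxPresented FE.Gen FE.edges FE.extra) →* Equiv.Perm ℕ, ∀ c, φ (C.x L0 c) = sperm nets c := by
  refine exists_phi' C (k := 20) (rels := rels) rfl c_nets lane_rels ?_ xw rfl rfl xw_lets lane_defs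
  intro i hi
  change i < 10 at hi
  have h := lane_inv i
  have e : ivx i = i := by interval_cases i <;> rfl
  rw [e] at h
  exact mul_eq_one_iff_eq_inv.mpr h

theorem cf22 : factsK nets ivx R 17 920808 (2 ^ 20) nd T DT patL 890 scr22 = true := fact22
theorem cf21 : factsK nets ivx R 17 920808 (2 ^ 20) nd T DT patL 850 scr21 = true := factsK_appS s21 scr22 850 fact21 (by rw [show 850 + s21.len = 890 from slen21]; exact cf22)
theorem cf20 : factsK nets ivx R 17 920808 (2 ^ 20) nd T DT patL 810 scr20 = true := factsK_appS s20 scr21 810 fact20 (by rw [show 810 + s20.len = 850 from slen20]; exact cf21)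
theorem cf19 : factsK nets ivx R 17 920808 (2 ^ 20) nd T DT patL 770 scr19 = true := factsK_appS s19 scr20 770 fact19 (by rw [show 770 + s19.len = 810 from slen19]; exact cf20)
theorem cf18 : factsK nets ivx R 17 920808 (2 ^ 20) nd T DT patL 730 scr18 = true := factsK_appS s18 scr19 730 fact18 (by rw [show 730 + s18.len = 770 from slen18]; exact cf19)
theorem cf17 : factsK nets ivx R 17 920808 (2 ^ 20) nd T DT patL 690 scr17 = true := factsK_appS s17 scr18 690 fact17 (by rw [show 690 + s17.len = 730 from slen17]; exact cf18)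
theorem cf16 : factsK nets ivx R 17 920808 (2 ^ 20) nd T DT patL 650 scr16 = true := factsK_appS s16 scr17 650 fact16 (by rw [show 650 + s16.len = 690 from slen16]; exact cf17)
theorem cf15 : factsK nets ivx R 17 920808 (2 ^ 20) nd T DT patL 610 scr15 = true := factsK_appS s15 scr16 610 fact15 (by rw [show 610 + s15.len = 650 from slen15]; exact cf16)
theorem cf14 : factsK nets ivx R 17 920808 (2 ^ 20) nd T DT patL 570 scr14 = true := factsK_appS s14 scr15 570 fact14 (by rw [show 570 + s14.len = 610 from slen14]; exact cf15)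
theorem cf13 : factsK nets ivx R 17 920808 (2 ^ 20) nd T DT patL 530 scr13 = true := factsK_appS s13 scr14 530 fact13 (by rw [show 530 + s13.len = 570 from slen13]; exact cf14)
theorem cf12 : factsK nets ivx R 17 920808 (2 ^ 20) nd T DT patL 490 scr12 = true := factsK_appS s12 scr13 490 fact12 (by rw [show 490 + s12.len = 530 from slen12]; exact cf13)
theorem cf11 : factsK nets ivx R 17 920808 (2 ^ 20) nd T DT patL 450 scr11 = true := factsK_appS s11 scr12 450 fact11 (by rw [show 450 + s11.len = 490 from slen11]; exact cf12)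
theorem cf10 : factsK nets ivx R 17 920808 (2 ^ 20) nd T DT patL 410 scr10 = true := factsK_appS s10 scr11 410 fact10 (by rw [show 410 + s10.len = 450 from slen10]; exact cf11)
theorem cf9 : factsK nets ivx R 17 920808 (2 ^ 20) nd T DT patL 370 scr9 = true := factsK_appS s9 scr10 370 fact9 (by rw [show 370 + s9.len = 410 from slen9]; exact cf10)
theorem cf8 : factsK nets ivx R 17 920808 (2 ^ 20) nd T DT patL 330 scr8 = true := factsK_appS s8 scr9 330 fact8 (by rw [show 330 + s8.len = 370 from slen8]; exact cf9)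
theorem cf7 : factsK nets ivx R 17 920808 (2 ^ 20) nd T DT patL 290 scr7 = true := factsK_appS s7 scr8 290 fact7 (by rw [show 290 + s7.len = 330 from slen7]; exact cf8)
theorem cf6 : factsK nets ivx R 17 920808 (2 ^ 20) nd T DT patL 250 scr6 = true := factsK_appS s6 scr7 250 fact6 (by rw [show 250 + s6.len = 290 from slen6]; exact cf7)
theorem cf5 : factsK nets ivx R 17 920808 (2 ^ 20) nd T DT patL 210 scr5 = true := factsK_appS s5 scr6 210 fact5 (by rw [show 210 + s5.len = 250 from slen5]; exact cf6)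
theorem cf4 : factsK nets ivx R 17 920808 (2 ^ 20) nd T DT patL 170 scr4 = true := factsK_appS s4 scr5 170 fact4 (by rw [show 170 + s4.len = 210 from slen4]; exact cf5)
theorem cf3 : factsK nets ivx R 17 920808 (2 ^ 20) nd T DT patL 130 scr3 = true := factsK_appS s3 scr4 130 fact3 (by rw [show 130 + s3.len = 170 from slen3]; exact cf4)
theorem cf2 : factsK nets ivx R 17 920808 (2 ^ 20) nd T DT patL 90 scr2 = true := factsK_appS s2 scr3 90 fact2 (by rw [show 90 + s2.len = 130 from slen2]; exact cf3)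
theorem cf1 : factsK nets ivx R 17 920808 (2 ^ 20) nd T DT patL 50 scr1 = true := factsK_appS s1 scr2 50 fact1 (by rw [show 50 + s1.len = 90 from slen1]; exact cf2)
theorem cf0 : factsK nets ivx R 17 920808 (2 ^ 20) nd T DT patL 10 scr0 = true := factsK_appS s0 scr1 10 fact0 (by rw [show 10 + s0.len = 50 from slen0]; exact cf1)
theorem c_facts : factsK nets ivx R 17 920808 (2 ^ 20) nd T DT patL 10 scr = true := cf0

/-- all covered masks -/
noncomputable def ms : Net := (appN cl0 (appN cl1 (appN cl2 (appN cl3 (appN cl4 (appN cl5 (appN cl6 (appN cl7 (appN cl8 (appN cl9 (appN cl10 (appN cl11 (appN cl12 (appN cl13 (appN cl14 (appN cl15 (appN cl16 (appN cl17 (appN cl18 (appN cl19 (appN cl20 (appN cl21 (appN cl22 (appN cl23 (appN cl24 (appN cl25 (appN cl26 (appN cl27 (appN cl28 (appN cl29 (appN cl30 (appN cl31 (appN cl32 (appN cl33 (appN cl34 (appN cl35 (appN cl36 (appN cl37 (appN cl38 (appN cl39 (appN cl40 (appN cl41 (appN cl42 (appN cl43 (appN cl44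 (appN cl45 (appN cl46 (appN cl47 (appN cl48 (appN cl49 (appN cl50 (appN cl51 (exM E D)))))))))))))))))))))))))))))))))))))))))))))))))))))

theorem c_cover : coverK nets ivx 920808 ms 17 = true := by decide +kernel

theorem map_exists (H : Subgroup (CoxPresented FE.Gen FE.edges FE.extra)) (hH : H = Subgroup.closure (wset (C.x L0) WS)) :
    ∃ f : ℕ → (CoxPresented FE.Gen FE.edges FE.extra) ⧸ H, f 0 = ((1 : (CoxPresented FE.Gen FE.edges FE.extra)) : (CoxPresented FE.Gen FE.edges FE.extra) ⧸ H) ∧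
      ∀ c i, c < 17 → i < 920808 → C.x L0 c • f i = f (sig nets c i) := by
  refine exists_map_masks (k := 20) (P := 8) (D := D) (R := R) (pats := pats) (scr := scr) (E := E) (T := T) (DT := DT)
    (nd := nd) (g := 10) c_nets (by norm_num) c_iv c_full c_len c_sym x_iv0 ?_ c_disj c_tree c_treelet ?_ c_dtab ?_ c_facts c_ex
    ms ?_ c_cover
  · rfl
  · intro W hW
    rcases List.mem_append.mp hW with h | h
    · simp only [wtriv, List.mem_cons, List.not_mem_nil, or_false] at h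
      have h3 : ∀ c, C.x L0 c * C.x L0 (ivx c) = 1 := fun c => by rw [x_iv0, mul_inv_cancel]
      rcases h with rfl | rfl | rfl | rfl | rfl | rfl | rfl | rfl | rfl | rfl | rfl <;> exact h3 _
    · rcases List.mem_append.mp h with h | h
      · exact rel_eval L0 W h
      · obtain ⟨V, hV, rfl⟩ := List.mem_map.mp h
        simp only [Wd.eval, rel_eval L0 V hV, inv_one]
  · intro j hj
    have h1 : ∀ j, j < 10 → eSrc (T.get j) = 0 ∧ eDst (T.get j) = 0 ∧ eLet (T.get j) = nthK 0 [0, 1, 2, 3, 4, 5, 6, 7, 8, 9] j := by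
      decide +kernel
    obtain ⟨h2, h3, h4⟩ := h1 j hj
    refine ⟨h2, h3, ?_⟩
    rw [h4]
    apply smul_one_coset
    rw [hH]
    interval_cases j
    · exact mem_wset (x := C.x L0) (W := (Wd.g 0)) (by simp [WS])
    · exact mem_wset (x := C.x L0) (W := (Wd.g 1)) (by simp [WS])
    · exact mem_wset (x := C.x L0) (W := (Wd.g 2)) (by simp [WS])
    · exact mem_wset (x := C.x L0) (W := (Wd.g 3)) (by simp [WS])
    · exact mem_wset (x := C.x L0) (W := (Wd.g 4)) (by simp [WS])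
    · exact mem_wset (x := C.x L0) (W := (Wd.g 5)) (by simp [WS])
    · exact mem_wset (x := C.x L0) (W := (Wd.g 6)) (by simp [WS])
    · exact mem_wset (x := C.x L0) (W := (Wd.g 7)) (by simp [WS])
    · exact mem_wset (x := C.x L0) (W := (Wd.g 8)) (by simp [WS])
    · exact mem_wset (x := C.x L0) (W := (Wd.g 9)) (by simp [WS])
  · intro f h0
    have key : ∀ (simd : List (Wd × ℕ)), (∀ q ∈ simd, q.1 ∈ wrels) → simdLetK ivx 17 simd = true → ∀ cl : Net,
        relsMK nets ivx R 8 (simd.map (splitW ivx)) Net.nil (claimK cl) = true → AllM (CovMask (C.x L0) f nets R 17 920808) cl :=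
      fun simd hm hl cl hc => claim_cov c_nets c_iv c_full c_len x_iv0 (fun q hq => wrelK _ (hm q hq))
        (fun q hq => wrel_eval _ (hm q hq)) hl cl hc
    exact (allM_appN (key simd0 smem0 slet0 cl0 cov0) (allM_appN (key simd1 smem1 slet1 cl1 cov1) (allM_appN (key simd2 smem2 slet2 cl2 cov2) (allM_appN (key simd3 smem3 slet3 cl3 cov3) (allM_appN (key simd4 smem4 slet4 cl4 cov4) (allM_appN (key simd5 smem5 slet5 cl5 cov5) (allM_appN (key simd6 smem6 slet6 cl6 cov6) (allM_appN (key simd7 smem7 slet7 cl7 cov7) (allM_appN (key simd8 smem8 slet8 cl8 cov8) (allM_appN (key simd9 smem9 slet9 cl9 cov9) (allM_appN (key simd10 smem10 slet10 cl10 cov10) (allM_appN (key simd11 smem11 slet11 cl11 cov11) (allM_appN (key simd12 smem12 slet12 cl12 cov12) (allM_appN (key simd13 smem13 slet13 cl13 cov13) (allM_appN (key simd14 smem14 slet14 cl14 cov14) (allM_appN (key simd15 smem15 slet15 cl15 cov15) (allM_appN (key simd16 smem16 slet16 cl16 cov16) (allM_appN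 (key simd17 smem17 slet17 cl17 cov17) (allM_appN (key simd18 smem18 slet18 cl18 cov18) (allM_appN (key simd19 smem19 slet19 cl19 cov19) (allM_appN (key simd20 smem20 slet20 cl20 cov20) (allM_appN (key simd21 smem21 slet21 cl21 cov21) (allM_appN (key simd22 smem22 slet22 cl22 cov22) (allM_appN (key simd23 smem23 slet23 cl23 cov23) (allM_appN (key simd24 smem24 slet24 cl24 cov24) (allM_appN (key simd25 smem25 slet25 cl25 cov25) (allM_appN (key simd26 smem26 slet26 cl26 cov26) (allM_appN (key simd27 smem27 slet27 cl27 cov27) (allM_appN (key simd28 smem28 slet28 cl28 cov28) (allM_appN (key simd29 smem29 slet29 cl29 cov29) (allM_appN (key simd30 smem30 slet30 cl30 cov30) (allM_appN (key simd31 smem31 slet31 cl31 cov31) (allM_appN (key simd32 smem32 slet32 cl32 cov32) (allM_appN (key simd33 smem33 slet33 cl33 cov33) (allM_appN (key simd34 smem34 slet34 cl34 cov34) (allM_appN (key simd35 smem35 slet35 cl35 cov35) (allM_appN (key simd36 smem36 slet36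 cl36 cov36) (allM_appN (key simd37 smem37 slet37 cl37 cov37) (allM_appN (key simd38 smem38 slet38 cl38 cov38) (allM_appN (key simd39 smem39 slet39 cl39 cov39) (allM_appN (key simd40 smem40 slet40 cl40 cov40) (allM_appN (key simd41 smem41 slet41 cl41 cov41) (allM_appN (key simd42 smem42 slet42 cl42 cov42) (allM_appN (key simd43 smem43 slet43 cl43 cov43) (allM_appN (key simd44 smem44 slet44 cl44 cov44) (allM_appN (key simd45 smem45 slet45 cl45 cov45) (allM_appN (key simd46 smem46 slet46 cl46 cov46) (allM_appN (key simd47 smem47 slet47 cl47 cov47) (allM_appN (key simd48 smem48 slet48 cl48 cov48) (allM_appN (key simd49 smem49 slet49 cl49 cov49) (allM_appN (key simd50 smem50 slet50 cl50 cov50) (allM_appN (key simd51 smem51 slet51 cl51 cov51) h0))))))))))))))))))))))))))))))))))))))))))))))))))))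


end Cfsg.Agent.Lib.FEW
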