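import Cfsg.Agent.Lib.FEW

set_option autoImplicit false
set_option linter.all false
set_option maxRecDepth 100000
set_option Elab.async false

namespace Cfsg.Agent.Lib.FEWIdx
open Cfsg.Spor Cfsg.Agent.Lib.BenesPerm Cfsg.Agent.Lib.BenesAct Cfsg.Agent.Lib.BenesWord
open Cfsg.Agent.Lib.BenesPlane Cfsg.Agent.Lib.CosetClosure Cfsg.Agent.Lib.CosetFacts
open Cfsg.Agent.Lib.CosetMain Cfsg.Agent.Lib.CoxBridge Cfsg.Agent.Lib.CosetGroup Cfsg.Agent.Lib.CosetInst Cfsg.Agent.Lib.CosetInj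
open Cfsg.Agent.Lib.BenesPack Cfsg.Agent.Lib.CosetPack Cfsg.Agent.Lib.CosetChain Cfsg.Agent.Lib.CosetWide Cfsg.Agent.Lib.CosetWide2
open Cfsg.Agent.Lib.FERel Cfsg.Agent.Lib.FEWN0 Cfsg.Agent.Lib.FEWN1 Cfsg.Agent.Lib.FEWN2 Cfsg.Agent.Lib.FEWN3 Cfsg.Agent.Lib.FEWN4 Cfsg.Agent.Lib.FEWN5 Cfsg.Agent.Lib.FEWN6 Cfsg.Agent.Lib.FEWN7 Cfsg.Agent.Lib.FEWN8 Cfsg.Agent.Lib.FEWN9 Cfsg.Agent.Lib.FEWN10 Cfsg.Agent.Lib.FEWN11 Cfsg.Agent.Lib.FEWN12 Cfsg.Agent.Lib.FEWN13 Cfsg.Agent.Lib.FEWN14 Cfsg.Agent.Lib.FEWN15 Cfsg.Agent.Lib.FEWR0 Cfsg.Agent.Lib.FEWR1 Cfsg.Agent.Lib.FEWR2 Cfsg.Agent.Lib.FEWR3 Cfsg.Agent.Lib.FEWR4 Cfsg.Agent.Lib.FEWR5 Cfsg.Agent.Lib.FEWD Cfsg.Agent.Lib.FEWB Cfsg.Agent.Lib.FEWS Cfsg.Agent.Lib.FEW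

/-- reachability steps for the whole group -/
def steps0 : List ℕ := [10, 0, 1, 0, 2, 11, 10, 13, 11, 13, 6, 11, 13, 10, 11, 13, 6, 11, 13, 3, 11, 13, 6, 10, 11, 13, 6, 11, 13, 3, 2, 11, 10, 13, 6, 11, 13, 11, 13, 11, 6, 10, 3]

theorem c_fix : invK nets (WS.map (Wd.flat ivx)) (2 ^ 0) = true := by decide +kernel
theorem c_inv0 : invK nets ((letterW 17).map (Wd.flat ivx)) (2 ^ 920808 - 1) = true := by decide +kernel
theorem c_reach0 : reachK nets (stepsW ((letterW 17).map (Wd.flat ivx)) steps0) (2 ^ 0) (fun V => Nat.beq V (2 ^ 920808 - 1)) = true := by decide +kernel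

theorem gen_top : Subgroup.closure (wset (C.x L0) (letterW 17)) = ⊤ := by
  rw [eq_top_iff, ← C.closure_letters L0]
  apply Subgroup.closure_mono
  rintro _ ⟨W, hW, rfl⟩
  obtain ⟨c, hc, rfl⟩ := List.mem_map.mp hW
  have hc := List.mem_range.mp hc
  change c < 11 at hc
  exact ⟨Wd.g c, List.mem_map.mpr ⟨c, List.mem_range.mpr (by omega), rfl⟩, rfl⟩

/-- index of the subgroup, action on the cosets and suborbits -/
theorem main (H : Subgroup (CoxPresented FE.Gen FE.edges FE.extra)) (hH : H = Subgroup.closure (wset (C.x L0) WS)) :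
    ∃ (φ : (CoxPresented FE.Gen FE.edges FE.extra) →* Equiv.Perm ℕ) (f : ℕ → (CoxPresented FE.Gen FE.edges FE.extra) ⧸ H), (∀ c, φ (C.x L0 c) = sperm nets c) ∧
      f 0 = ((1 : (CoxPresented FE.Gen FE.edges FE.extra)) : (CoxPresented FE.Gen FE.edges FE.extra) ⧸ H) ∧ (∀ g i, i < 920808 → g • f i = f (φ g i)) ∧ (∀ g i, i < 920808 → φ g i < 920808) ∧
      (∀ i j, i < 920808 → j < 920808 → f i = f j → i = j) ∧ (∀ j, (∃ g, φ g 0 = j) ↔ j < 920808) ∧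
      (∀ h ∈ H, φ h 0 = 0) ∧ (∀ q : (CoxPresented FE.Gen FE.edges FE.extra) ⧸ H, ∃ i, i < 920808 ∧ f i = q) ∧ H.index = 920808 := by
  obtain ⟨φ, hφ⟩ := phi_exists
  obtain ⟨f, hf0, hf⟩ := map_exists H hH
  have h := cert_full (k := 20) (n := 920808) (nc := 17) c_nets hφ x_iv0 gen_top (by norm_num)
    c_full WS c_fix steps0 c_inv0 c_reach0 H hH f hf0 hf
  have h' := cert_index (k := 20) (n := 920808) (nc := 17) c_nets hφ x_iv0 gen_top (by norm_num) (by norm_num)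
    c_full WS c_fix steps0 c_inv0 c_reach0 H hH f hf0 hf
  refine ⟨φ, f, hφ, hf0, h.2.1, h.2.2.1, h.2.2.2.1, h.2.2.2.2.1, h.2.2.2.2.2.1, h.2.2.2.2.2.2, h.1⟩

end Cfsg.Agent.Lib.FEWIdx
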