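import Cfsg.Agent.Lib.BenesPerm

set_option autoImplicit false
set_option linter.all false
set_option maxRecDepth 100000

namespace Cfsg.Agent.Lib.FEWN15
open Cfsg.Agent.Lib.BenesPerm

noncomputable def n15 : Net := Net.nil
noncomputable def n16 : Net := Cfsg.Agent.Lib.FEWN15.n15

end Cfsg.Agent.Lib.FEWN15
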