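import Cfsg.Agent.Lib.FEWB

set_option autoImplicit false
set_option linter.all false
set_option maxRecDepth 100000
set_option Elab.async false

namespace Cfsg.Agent.Lib.FEWS
open Cfsg.Spor Cfsg.Agent.Lib.BenesPerm Cfsg.Agent.Lib.BenesAct Cfsg.Agent.Lib.BenesWord
open Cfsg.Agent.Lib.BenesPlane Cfsg.Agent.Lib.CosetClosure Cfsg.Agent.Lib.CosetFacts
open Cfsg.Agent.Lib.CosetMain Cfsg.Agent.Lib.CoxBridge Cfsg.Agent.Lib.CosetGroup Cfsg.Agent.Lib.CosetInst Cfsg.Agent.Lib.CosetInj
open Cfsg.Agent.Lib.BenesPack Cfsg.Agent.Lib.CosetPack Cfsg.Agent.Lib.CosetChain Cfsg.Agent.Lib.CosetWide Cfsg.Agent.Lib.CosetWide2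
open Cfsg.Agent.Lib.FERel Cfsg.Agent.Lib.FEWN0 Cfsg.Agent.Lib.FEWN1 Cfsg.Agent.Lib.FEWN2 Cfsg.Agent.Lib.FEWN3 Cfsg.Agent.Lib.FEWN4 Cfsg.Agent.Lib.FEWN5 Cfsg.Agent.Lib.FEWN6 Cfsg.Agent.Lib.FEWN7 Cfsg.Agent.Lib.FEWN8 Cfsg.Agent.Lib.FEWN9 Cfsg.Agent.Lib.FEWN10 Cfsg.Agent.Lib.FEWN11 Cfsg.Agent.Lib.FEWN12 Cfsg.Agent.Lib.FEWN13 Cfsg.Agent.Lib.FEWN14 Cfsg.Agent.Lib.FEWN15 Cfsg.Agent.Lib.FEWR0 Cfsg.Agent.Lib.FEWR1 Cfsg.Agent.Lib.FEWR2 Cfsg.Agent.Lib.FEWR3 Cfsg.Agent.Lib.FEWR4 Cfsg.Agent.Lib.FEWR5 Cfsg.Agent.Lib.FEWD Cfsg.Agent.Lib.FEWB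

theorem c_nets : netsCheck (2 ^ 20) nets = true := by decide +kernel
theorem c_full : fullInvK nets 920808 17 = true := by decide +kernel
theorem c_len : lenK R 8 17 = true := by decide +kernel
theorem sym0 : symOneK nets ivx R 0 = true := by decide +kernel
theorem sym1 : symOneK nets ivx R 1 = true := by decide +kernel
theorem sym2 : symOneK nets ivx R 2 = true := by decide +kernel
theorem sym3 : symOneK nets ivx R 3 = true := by decide +kernel
theorem sym4 : symOneK nets ivx R 4 = true := by decide +kernel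
theorem sym5 : symOneK nets ivx R 5 = true := by decide +kernel
theorem sym6 : symOneK nets ivx R 6 = true := by decide +kernel
theorem sym7 : symOneK nets ivx R 7 = true := by decide +kernel
theorem sym8 : symOneK nets ivx R 8 = true := by decide +kernel
theorem sym9 : symOneK nets ivx R 9 = true := by decide +kernel
theorem sym10 : symOneK nets ivx R 10 = true := by decide +kernel
theorem sym11 : symOneK nets ivx R 11 = true := by decide +kernel
theorem sym12 : symOneK nets ivx R 12 = true := by decide +kernel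
theorem sym13 : symOneK nets ivx R 13 = true := by decide +kernel
theorem sym14 : symOneK nets ivx R 14 = true := by decide +kernel
theorem sym15 : symOneK nets ivx R 15 = true := by decide +kernel
theorem sym16 : symOneK nets ivx R 16 = true := by decide +kernel
theorem c_sym : symK nets ivx R 17 = true := symK_of 17 (by
  intro c hc
  interval_cases c
  · exact sym0
  · exact sym1
  · exact sym2
  · exact sym3
  · exact sym4
  · exact sym5
  · exact sym6
  · exact sym7
  · exact sym8
  · exact sym9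
  · exact sym10
  · exact sym11
  · exact sym12
  · exact sym13
  · exact sym14
  · exact sym15
  · exact sym16)
theorem c_disj : disjK D 1 = true := by decide +kernel
theorem tr0 : treeOneK nets 20 0 d0 = true := by decide +kernel
theorem tr1 : treeOneK nets 20 1 d1 = true := by decide +kernel
theorem tr2 : treeOneK nets 20 2 d2 = true := by decide +kernel
theorem tr3 : treeOneK nets 20 3 d3 = true := by decide +kernel
theorem tr4 : treeOneK nets 20 4 d4 = true := by decide +kernel
theorem tr5 : treeOneK nets 20 5 d5 = true := by decide +kernel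
theorem tr6 : treeOneK nets 20 6 d6 = true := by decide +kernel
theorem tr7 : treeOneK nets 20 7 d7 = true := by decide +kernel
theorem tr8 : treeOneK nets 20 8 d8 = true := by decide +kernel
theorem tr9 : treeOneK nets 20 9 d9 = true := by decide +kernel
theorem tr10 : treeOneK nets 20 10 d10 = true := by decide +kernel
theorem c_tree : treeK nets 20 D = true := (treeK_cons tr0 (treeK_cons tr1 (treeK_cons tr2 (treeK_cons tr3 (treeK_cons tr4 (treeK_cons tr5 (treeK_cons tr6 (treeK_cons tr7 (treeK_cons tr8 (treeK_cons tr9 (treeK_cons tr10 rfl)))))))))))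
theorem c_treelet : netLetK 17 D = true := by decide +kernel
theorem c_dtab : dtabK (2 ^ 20) nd DT = true := by decide +kernel
theorem c_ex : exK nets R 17 T (10 + scr.len) E = true := by decide +kernel

end Cfsg.Agent.Lib.FEWS
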