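import Mathlib
import Cfsg.Agent.Lib.ExtSLH94
import Cfsg.Agent.Lib.SpTrans

set_option autoImplicit false
set_option linter.unusedSectionVars false
set_option linter.unusedSimpArgs false
set_option linter.unusedVariables false

/-!
Overgroups of extension field subgroups in the symplectic group (self-adjoint fields).
-/

namespace Cfsg.Agent.Lib.FldSpH94

open Module Cfsg.Agent.Lib.SLMax Cfsg.Agent.Lib.SLUn Cfsg.Agent.Lib.SLBlockH94 Cfsg.Agent.Lib.ExtFldH94
  Cfsg.Agent.Lib.ExtSLH94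

variable {F K V : Type*} [Field F] [Field K] [Algebra F K] [AddCommGroup V] [Module F V] [Module K V]
  [IsScalarTower F K V] [FiniteDimensional F K] [FiniteDimensional K V] [FiniteDimensional F V]
  {M : Subgroup (V ≃ₗ[F] V)}

/-- the situation -/
structure SD (B : V →ₗ[F] V →ₗ[F] F) (b : Dual F K) (C : V →ₗ[K] V →ₗ[K] K) (M : Subgroup (V ≃ₗ[F] V)) :
    Prop where
  hb : b ≠ 0
  bC : ∀ x y, b (C x y) = B x y
  alt : ∀ x, C x x = 0
  nd : ∀ x, (∀ y, C x y = 0) → x = 0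
  sp : ∀ m ∈ M, ∀ x y, B (m x) (m y) = B x y
  HS : ∀ g : V ≃ₗ[K] V, (∀ x y, C (g x) (g y) = C x y) → g.restrictScalars F ∈ M

namespace SD

variable {B : V →ₗ[F] V →ₗ[F] F} {b : Dual F K} {C : V →ₗ[K] V →ₗ[K] K} (S : SD B b C M)
include S

theorem neg (x y : V) : C x y = - C y x := by
  have h := S.alt (x + y)
  simp only [map_add, LinearMap.add_apply, S.alt, zero_add, add_zero] at h
  linear_combination h

theorem bzero {c : K} (h : ∀ a, b (a * c) = 0) : c = 0 := by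
  by_contra hc0
  apply S.hb
  apply LinearMap.ext
  intro a
  have := h (a * c⁻¹)
  rw [mul_assoc, inv_mul_cancel₀ hc0, mul_one] at this
  exact this

theorem bB (a : K) (x y : V) : b (a * C x y) = B (a • x) y := by
  rw [← S.bC, map_smul, LinearMap.smul_apply, smul_eq_mul]

theorem bB' (a : K) (x y : V) : b (a * C x y) = B x (a • y) := by
  rw [← S.bC, map_smul, smul_eq_mul]

theorem sa (a : K) (x y : V) : B (a • x) y = B x (a • y) := by rw [← S.bB, ← S.bB']

theorem C_zero {x y : V} (h : ∀ a : K, B (a • x) y = 0) : C x y = 0 :=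
  S.bzero (fun a => by rw [S.bB]; exact h a)

/-- every functional over the big field is given by the form -/
theorem exists_rep (φ : V →ₗ[K] K) : ∃ y, ∀ z, φ z = C z y := by
  have hinj : Function.Injective C.flip := by
    rw [injective_iff_map_eq_zero]
    intro y hy
    apply S.nd
    intro z
    rw [S.neg]
    have : C.flip y z = 0 := by rw [hy]; rfl
    rw [show C z y = 0 from this, neg_zero]
  have hs := (LinearMap.injective_iff_surjective_of_finrank_eq_finrank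
    (Subspace.dual_finrank_eq (K := K) (V := V)).symm).1 hinj
  obtain ⟨y, hy⟩ := hs φ
  exact ⟨y, fun z => by rw [← hy]; rfl⟩

/-- transvections over the big field -/
theorem kt_mem (v : V) (a : K) : ∃ m ∈ M, ∀ z, m z = z + (a * C z v) • v := by
  have h : (a • C.flip v) v = 0 := by
    rw [LinearMap.smul_apply, LinearMap.flip_apply, S.alt, smul_zero]
  refine ⟨kt v (a • C.flip v) h, S.HS _ ?_, fun z => ?_⟩
  · intro x y
    rw [tr_apply, tr_apply]
    simp only [map_add, map_smul, LinearMap.add_apply, LinearMap.smul_apply, LinearMap.flip_apply, smul_eq_mul,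
      S.alt, mul_zero, add_zero]
    rw [S.neg v y]
    ring
  · rw [kt_apply]; rfl

/-- long Siegel type elements over the big field -/
theorem q_mem {v y : V} (hvy : C v y = 0) : ∃ m ∈ M, (∀ z, m z = z + C z v • y + C z y • v) ∧
    (∀ z, m⁻¹ z = z - C z v • y - C z y • v) := by
  have hyv : C y v = 0 := by rw [S.neg, hvy, neg_zero]
  have h1 : (C.flip v) y = 0 := hyv
  have h2 : (C.flip y) v = 0 := hvy
  have hq : ∀ z, (tr y (C.flip v) h1 * tr v (C.flip y) h2 : V ≃ₗ[K] V) z = z + C z v • y + C z y • v := by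
    intro z
    rw [LinearEquiv.mul_apply, tr_apply, tr_apply]
    simp only [LinearMap.flip_apply, map_add, map_smul, LinearMap.add_apply, LinearMap.smul_apply, S.alt, smul_zero,
      add_zero]
    abel
  refine ⟨(tr y (C.flip v) h1 * tr v (C.flip y) h2 : V ≃ₗ[K] V).restrictScalars F, S.HS _ ?_, hq, fun z => ?_⟩
  · intro x z
    rw [hq, hq]
    simp only [map_add, map_smul, LinearMap.add_apply, LinearMap.smul_apply, smul_eq_mul, S.alt, hvy, hyv,
      mul_zero, add_zero]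
    rw [S.neg v z, S.neg y z]
    ring
  · obtain ⟨q, hqd⟩ : ∃ q : V ≃ₗ[F] V, q = (tr y (C.flip v) h1 * tr v (C.flip y) h2 : V ≃ₗ[K] V).restrictScalars F :=
      ⟨_, rfl⟩
    rw [← hqd]
    have hq' : ∀ z, q z = z + C z v • y + C z y • v := by rw [hqd]; exact hq
    apply q.injective
    rw [← LinearEquiv.mul_apply, mul_inv_cancel, hq']
    simp only [map_sub, map_smul, LinearMap.sub_apply, LinearMap.smul_apply, smul_eq_mul, S.alt, hvy, hyv,
      mul_zero, sub_zero]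
    show z = _
    abel

end SD

/-- the maximal intersection dimension -/
theorem exists_max (hk : 2 ≤ finrank K V) (hex : ∃ g ∈ M, ¬ ∀ a : K, ∃ b : K, ∀ x, g (a • x) = b • g x) :
    ∃ w, 0 < w ∧ w < finrank F K ∧ Pr K M w ∧ ∀ w', w < w' → w' < finrank F K → ¬ Pr K M w' := by
  classical
  obtain ⟨w, h1, h2, h3⟩ := Pr_start (K := K) hk hex
  have h4 := Nat.findGreatest_spec (P := fun w => 0 < w ∧ w < finrank F K ∧ Pr K M w) (le_of_lt h2) ⟨h1, h2, h3⟩
  refine ⟨_, h4.1, h4.2.1, h4.2.2, fun w' h5 h6 h7 => ?_⟩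
  exact Nat.findGreatest_is_greatest h5 (le_of_lt h6) ⟨by omega, h6, h7⟩

/-- growing intersections -/
theorem grow {w : ℕ} (hmax : ∀ w', w < w' → w' < finrank F K → ¬ Pr K M w') {g : V ≃ₗ[F] V} (hg : g ∈ M)
    {U : Submodule F V} {v' : V} (hv' : v' ≠ 0)
    (hw : finrank F (U ⊓ (Ln K v').map (g : V →ₗ[F] V) : Submodule F V) = w) {m : V ≃ₗ[F] V} (hm : m ∈ M)
    (hmW : ∀ y ∈ U ⊓ (Ln K v').map (g : V →ₗ[F] V), m y = y) {u₁ : V}
    (hu₁ : u₁ ∈ (Ln K v').map (g : V →ₗ[F] V)) (hu₁' : u₁ ∉ U) (h : m u₁ ∈ (Ln K v').map (g : V →ₗ[F] V)) :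
    ∀ y ∈ (Ln K v').map (g : V →ₗ[F] V), m y ∈ (Ln K v').map (g : V →ₗ[F] V) := by
  obtain ⟨U', hU'⟩ : ∃ U' : Submodule F V, U' = (Ln K v').map (g : V →ₗ[F] V) := ⟨_, rfl⟩
  rw [← hU'] at hw hmW hu₁ h ⊢
  have hU'r : finrank F U' = finrank F K := by
    rw [hU', ← finrank_Ln (F := F) (K := K) hv']
    exact LinearEquiv.finrank_map_eq g _
  have h1 := Pr_of (K := K) hg (mul_mem hm hg) hv' hv'
  rw [← map_map', ← hU'] at h1
  have hle : (U ⊓ U') ⊔ Submodule.span F {m u₁} ≤ U' ⊓ U'.map (m : V →ₗ[F] V) := by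
    apply sup_le
    · intro y hy
      exact ⟨hy.2, ⟨y, hy.2, hmW y hy⟩⟩
    · rw [Submodule.span_singleton_le_iff_mem]
      exact ⟨h, ⟨u₁, hu₁, rfl⟩⟩
  have hlt : w < finrank F (U' ⊓ U'.map (m : V →ₗ[F] V) : Submodule F V) := by
    rw [← hw]
    apply Submodule.finrank_lt_finrank_of_lt
    refine lt_of_le_of_ne (le_sup_left.trans hle) fun heq => ?_
    have h2 : m u₁ ∈ U' ⊓ U'.map (m : V →ₗ[F] V) :=
      hle (Submodule.mem_sup_right (Submodule.mem_span_singleton_self _))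
    rw [← heq] at h2
    apply hu₁'
    have h3 := hmW _ h2
    have h4 : m u₁ = u₁ := m.injective h3
    rw [h4] at h2
    exact h2.1
  have hIr : finrank F (U' ⊓ U'.map (m : V →ₗ[F] V) : Submodule F V) ≤ finrank F K := by
    rw [← hU'r]; exact Submodule.finrank_mono inf_le_left
  have hIeq : finrank F (U' ⊓ U'.map (m : V →ₗ[F] V) : Submodule F V) = finrank F K := by
    by_contra hne
    exact hmax _ hlt (lt_of_le_of_ne hIr hne) h1
  have h2 : U' ⊓ U'.map (m : V →ₗ[F] V) = U' :=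
    Submodule.eq_of_le_of_finrank_eq inf_le_left (by rw [hIeq, hU'r])
  have h3 : U'.map (m : V →ₗ[F] V) = U' := by
    have h4 : U' ≤ U'.map (m : V →ₗ[F] V) := inf_eq_left.1 h2
    exact (Submodule.eq_of_le_of_finrank_eq h4 (LinearEquiv.finrank_map_eq _ _).symm).symm
  intro y hy
  rw [← h3]
  exact ⟨y, hy, rfl⟩

/-- a functional separating two vectors -/
theorem exists_phi (hr : (finrank F K).Prime) {v u₁ u₂ : V} {U' : Submodule F V} (hu₁ : u₁ ∈ U')
    (hu₁' : u₁ ∉ (Ln K v : Submodule F V)) (hu₂ : u₂ ∈ U')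
    (hu₂' : u₂ ∉ ((Ln K v : Submodule F V) ⊓ U') ⊔ Submodule.span F {u₁}) :
    ∃ φ : V →ₗ[K] K, φ v = 0 ∧ φ u₁ = 1 ∧ φ u₂ ∉ Set.range (algebraMap F K) := by
  obtain ⟨φ₁, h1, h2⟩ := exists_dual1 (F := F) (K := K) (v := v) (x := u₁) hu₁'
  by_cases hu2 : u₂ ∈ Submodule.span K {v, u₁}
  · refine ⟨φ₁, h2, h1, ?_⟩
    obtain ⟨a, b, hab⟩ := Submodule.mem_span_pair.1 hu2
    rintro ⟨s, hs⟩
    have hb : b = algebraMap F K s := by
      rw [hs, ← hab, map_add, map_smul, map_smul, h1, h2]; simp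
    apply hu₂'
    have h3 : a • v ∈ (Ln K v : Submodule F V) ⊓ U' := by
      refine ⟨smul_mem_Ln v a, ?_⟩
      have h4 : a • v = u₂ - s • u₁ := by
        rw [← hab, hb, algebraMap_smul, add_sub_cancel_right]
      rw [h4]
      exact Submodule.sub_mem _ hu₂ (Submodule.smul_mem _ _ hu₁)
    rw [← hab, hb, algebraMap_smul]
    exact Submodule.add_mem_sup h3 (Submodule.smul_mem _ _ (Submodule.mem_span_singleton_self _))
  · obtain ⟨φ₂, h3, h4⟩ := exists_dual hu2
    obtain ⟨κ, hκ⟩ := exists_not_F (F := F) hr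
    refine ⟨φ₁ + (κ - φ₁ u₂) • φ₂, ?_, ?_, ?_⟩
    · rw [LinearMap.add_apply, LinearMap.smul_apply, h2, h4 v (Submodule.subset_span (by simp)), smul_zero,
        add_zero]
    · rw [LinearMap.add_apply, LinearMap.smul_apply, h1, h4 u₁ (Submodule.subset_span (by simp)), smul_zero,
        add_zero]
    · rw [LinearMap.add_apply, LinearMap.smul_apply, h3, smul_eq_mul, mul_one, add_sub_cancel]
      exact hκ

/-- the scalars moving a vector into a subspace: stability forces everything -/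
theorem stable_line (hr : (finrank F K).Prime) {v : V} (hv : v ≠ 0) {U' : Submodule F V}
    (h0 : 0 < finrank F ((Ln K v : Submodule F V) ⊓ U' : Submodule F V))
    (h1 : finrank F ((Ln K v : Submodule F V) ⊓ U' : Submodule F V) < finrank F K) {κ : K}
    (hκ : κ ∉ Set.range (algebraMap F K)) (hst : ∀ c : K, c • v ∈ U' → (κ * c) • v ∈ U') : False := by
  obtain ⟨C, hC⟩ : ∃ C : Submodule F K, ∀ a, a ∈ C ↔ a • v ∈ U' :=
    ⟨U'.comap ((LinearMap.toSpanSingleton K V v).restrictScalars F), fun a => Iff.rfl⟩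
  obtain ⟨w₀, hw₀, hw₀0⟩ : ∃ x ∈ (Ln K v : Submodule F V) ⊓ U', x ≠ 0 := by
    obtain ⟨x, hx, hx0⟩ := Dec.exists_out (U := (Ln K v : Submodule F V) ⊓ U') (W := (⊥ : Submodule F V)) (by
      rw [finrank_bot]; exact h0)
    exact ⟨x, hx, fun h => hx0 (by rw [h]; exact Submodule.zero_mem _)⟩
  obtain ⟨c₀, hc₀⟩ := mem_Ln.1 hw₀.1
  have hc₀C : c₀ ∈ C := by rw [hC, ← hc₀]; exact hw₀.2
  have hc₀0 : c₀ ≠ 0 := by rintro rfl; rw [zero_smul] at hc₀; exact hw₀0 hc₀
  have h2 : (Ln K v : Submodule F V) ≤ U' := by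
    intro y hy
    obtain ⟨a, rfl⟩ := mem_Ln.1 hy
    have := stable hr hκ (C := C) (fun c hc => by rw [hC] at hc ⊢; exact hst c hc) (a * c₀⁻¹) hc₀C
    rw [mul_assoc, inv_mul_cancel₀ hc₀0, mul_one, hC] at this
    exact this
  rw [inf_eq_left.2 h2, finrank_Ln hv] at h1
  omega

variable (K) in
/-- an element of the group inducing a transvection on a line -/
structure TD (M : Subgroup (V ≃ₗ[F] V)) (w₀ u₁ : V) (ω : Dual F V) : Prop where
  w0 : w₀ ≠ 0
  u1 : u₁ ∈ (Ln K w₀ : Submodule F V)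
  ωw : ω w₀ = 0
  ωu : ω u₁ = 1
  mem : ∀ y : F, ∃ m ∈ M, ∀ u ∈ (Ln K w₀ : Submodule F V), m u = u + (y * ω u) • w₀

namespace SD

variable {B : V →ₗ[F] V →ₗ[F] F} {b : Dual F K} {C : V →ₗ[K] V →ₗ[K] K} (S : SD B b C M)
include S

theorem exists_TD (hr : (finrank F K).Prime) (hk : 2 ≤ finrank K V)
    (hex : ∃ g ∈ M, ¬ ∀ a : K, ∃ b : K, ∀ x, g (a • x) = b • g x) : ∃ w₀ u₁ ω, TD K M w₀ u₁ ω := by
  obtain ⟨w, hw0, hwr, ⟨g, hg, v, v', hv, hv', hfr⟩, hmax⟩ := exists_max hk hex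
  obtain ⟨U', hU'⟩ : ∃ U' : Submodule F V, U' = (Ln K v').map (g : V →ₗ[F] V) := ⟨_, rfl⟩
  have hgr := fun {m : V ≃ₗ[F] V} => grow (K := K) hmax hg (U := Ln K v) hv' hfr (m := m)
  simp only [← hU'] at hgr
  rw [← hU'] at hfr
  have hU'r : finrank F U' = finrank F K := by
    rw [hU', ← finrank_Ln (F := F) (K := K) hv']
    exact LinearEquiv.finrank_map_eq g _
  have hgU' : ∀ y, y ∈ U' ↔ g.symm y ∈ (Ln K v' : Submodule F V) := by
    intro y
    rw [hU']
    constructor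
    · rintro ⟨x, hx, rfl⟩
      show g.symm (g x) ∈ _
      rw [LinearEquiv.symm_apply_apply]; exact hx
    · intro h
      exact ⟨_, h, LinearEquiv.apply_symm_apply g y⟩
  obtain ⟨w₁, hw₁, hw₁0⟩ : ∃ x ∈ (Ln K v : Submodule F V) ⊓ U', x ≠ 0 := by
    obtain ⟨x, hx, hx0⟩ := Dec.exists_out (U := (Ln K v : Submodule F V) ⊓ U') (W := (⊥ : Submodule F V)) (by
      rw [finrank_bot, hfr]; exact hw0)
    exact ⟨x, hx, fun h => hx0 (by rw [h]; exact Submodule.zero_mem _)⟩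
  by_cases hA : ∃ u₁ ∈ U', C u₁ v ≠ 0
  · -- case A
    obtain ⟨u₁, hu₁, ha⟩ := hA
    obtain ⟨c₀, hc₀⟩ := mem_Ln.1 hw₁.1
    have hu₁U : u₁ ∉ (Ln K v : Submodule F V) := by
      intro h
      obtain ⟨d, rfl⟩ := mem_Ln.1 h
      apply ha
      rw [map_smul, LinearMap.smul_apply, S.alt, smul_zero]
    have hfix : ∀ c : K, c • v ∈ U' → ∀ m : V ≃ₗ[F] V, m ∈ M → (∀ z, m z = z + ((c * (C u₁ v)⁻¹) * C z v) • v) →
        ∀ y ∈ U', m y ∈ U' := by
      intro c hc m hm hmz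
      apply hgr hm ?_ hu₁ hu₁U
      · rw [hmz, mul_assoc, inv_mul_cancel₀ ha, mul_one]
        exact Submodule.add_mem _ hu₁ hc
      · intro y hy
        obtain ⟨d, rfl⟩ := mem_Ln.1 hy.1
        rw [hmz, map_smul, LinearMap.smul_apply, S.alt, smul_zero, mul_zero, zero_smul, add_zero]
    have hκ : ∀ y ∈ U', (C u₁ v)⁻¹ * C y v ∈ Set.range (algebraMap F K) := by
      intro y hy
      by_contra hcon
      refine stable_line hr hv (U' := U') (by rw [hfr]; exact hw0) (by rw [hfr]; exact hwr) hcon (fun c hc => ?_)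
      obtain ⟨m, hm, hmz⟩ := S.kt_mem v (c * (C u₁ v)⁻¹)
      have h1 := hfix c hc m hm hmz y hy
      rw [hmz] at h1
      have h2 := Submodule.sub_mem _ h1 hy
      rw [add_sub_cancel_left] at h2
      have h3 : (C u₁ v)⁻¹ * C y v * c = c * (C u₁ v)⁻¹ * C y v := by ring
      rw [h3]; exact h2
    obtain ⟨f, hf⟩ : ∃ f : Dual F K, f 1 = 1 := by
      obtain ⟨f, hf, -⟩ := exists_fun (F := F) (V := K) (W := (⊥ : Submodule F K)) (x := (1 : K)) (by
        rw [Submodule.mem_bot]; exact one_ne_zero)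
      exact ⟨f, hf⟩
    obtain ⟨ω, hω⟩ : ∃ ω : Dual F V, ∀ z, ω z = f ((C u₁ v)⁻¹ * C (g z) v) :=
      ⟨f ∘ₗ (((C u₁ v)⁻¹ • C.flip v).restrictScalars F) ∘ₗ (g : V →ₗ[F] V), fun z => rfl⟩
    have hLn : (Ln K (g.symm w₁) : Submodule F V) = Ln K v' :=
      Ln_eq ((hgU' _).1 hw₁.2) (fun h => hw₁0 (by rwa [LinearEquiv.map_eq_zero_iff] at h))
    refine ⟨g.symm w₁, g.symm u₁, ω, ⟨fun h => hw₁0 (by rwa [LinearEquiv.map_eq_zero_iff] at h), ?_, ?_, ?_, ?_⟩⟩
    · rw [hLn]; exact (hgU' _).1 hu₁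
    · rw [hω, LinearEquiv.apply_symm_apply, hc₀, map_smul, LinearMap.smul_apply, S.alt, smul_zero, mul_zero,
        map_zero]
    · rw [hω, LinearEquiv.apply_symm_apply, inv_mul_cancel₀ ha, hf]
    · intro y
      obtain ⟨m, hm, hmz⟩ := S.kt_mem v (algebraMap F K y * c₀ * (C u₁ v)⁻¹)
      refine ⟨g⁻¹ * m * g, mul_mem (mul_mem (inv_mem hg) hm) hg, fun u hu => ?_⟩
      rw [hLn] at hu
      have hgu : g u ∈ U' := by rw [hgU', LinearEquiv.symm_apply_apply]; exact hu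
      obtain ⟨s, hs⟩ := hκ _ hgu
      have h1 : ω u = s := by
        rw [hω, ← hs, Algebra.algebraMap_eq_smul_one, map_smul, hf, smul_eq_mul, mul_one]
      have h2 : (g⁻¹ * m * g) u = g.symm (m (g u)) := rfl
      rw [h2, hmz, mul_assoc, ← hs, h1, mul_assoc, mul_comm c₀, ← mul_assoc, ← map_mul, mul_smul, ← hc₀, algebraMap_smul,
        map_add, LinearEquiv.symm_apply_apply, LinearEquiv.map_smul]
  · -- case B
    push Not at hA
    have hw1 : w + 1 = finrank F K := by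
      by_contra hne
      obtain ⟨u₁, hu₁, hu₁W⟩ : ∃ x ∈ U', x ∉ (Ln K v : Submodule F V) ⊓ U' := Dec.exists_out (by omega)
      have hu₁U : u₁ ∉ (Ln K v : Submodule F V) := fun h => hu₁W ⟨h, hu₁⟩
      obtain ⟨u₂, hu₂, hu₂W⟩ : ∃ x ∈ U', x ∉ ((Ln K v : Submodule F V) ⊓ U') ⊔ Submodule.span F {u₁} := by
        apply Dec.exists_out
        have h1 := Submodule.finrank_add_le_finrank_add_finrank ((Ln K v : Submodule F V) ⊓ U')
          (Submodule.span F {u₁})
        have h2 : finrank F (Submodule.span F {u₁}) ≤ 1 := by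
          have := finrank_span_le_card (R := F) ({u₁} : Set V)
          simpa using this
        omega
      obtain ⟨φ, h1, h2, h3⟩ := exists_phi hr hu₁ hu₁U hu₂ hu₂W
      obtain ⟨y, hy⟩ := S.exists_rep φ
      have hvy : C v y = 0 := by rw [← hy, h1]
      refine stable_line hr hv (U' := U') (by rw [hfr]; exact hw0) (by rw [hfr]; exact hwr) h3 (fun c hc => ?_)
      obtain ⟨m, hm, hmz, -⟩ := S.q_mem (v := v) (y := c • y) (by rw [map_smul, hvy, smul_zero])
      have h4 : ∀ z ∈ U', m z = z + (c * φ z) • v := by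
        intro z hz
        rw [hmz, hA z hz, zero_smul, add_zero, map_smul, ← hy, smul_eq_mul]
      have h5 := hgr hm (by
        intro z hz
        rw [h4 z hz.2]
        obtain ⟨d, rfl⟩ := mem_Ln.1 hz.1
        rw [map_smul, h1, smul_zero, mul_zero, zero_smul, add_zero]) hu₁ hu₁U (by
        rw [h4 u₁ hu₁, h2, mul_one]
        exact Submodule.add_mem _ hu₁ hc) u₂ hu₂
      rw [h4 u₂ hu₂] at h5
      have h6 := Submodule.sub_mem _ h5 hu₂
      rw [add_sub_cancel_left] at h6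
      rw [mul_comm]; exact h6
    have hvr : finrank F (Ln K v : Submodule F V) = finrank F K := finrank_Ln hv
    have hr2 := hr.two_le
    obtain ⟨u₁, hu₁, hu₁W⟩ : ∃ x ∈ (Ln K v : Submodule F V), x ∉ (Ln K v : Submodule F V) ⊓ U' :=
      Dec.exists_out (by omega)
    have hgu₁ : g.symm u₁ ∉ (Ln K v' : Submodule F V) := fun h => hu₁W ⟨hu₁, (hgU' _).2 h⟩
    obtain ⟨φ, hφ1, hφ0⟩ := exists_dual1 hgu₁
    obtain ⟨y, hy⟩ := S.exists_rep φ
    obtain ⟨v'', hv''⟩ : ∃ v'', v'' = g.symm w₁ := ⟨_, rfl⟩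
    obtain ⟨d, hd⟩ := mem_Ln.1 ((hgU' w₁).1 hw₁.2)
    rw [← hv''] at hd
    have hv''y : C v'' y = 0 := by rw [← hy, hd, map_smul, hφ0, smul_zero]
    have hperp : C (g.symm u₁) v'' = 0 := by
      rw [S.neg, neg_eq_zero]
      apply S.C_zero
      intro a
      have h1 : g (a • v'') ∈ U' := by
        rw [hgU', LinearEquiv.symm_apply_apply, hd]
        exact Ln_smul _ (smul_mem_Ln _ _)
      rw [← S.sp g hg, LinearEquiv.apply_symm_apply]
      obtain ⟨e, rfl⟩ := mem_Ln.1 hu₁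
      rw [← S.bB', hA _ h1, mul_zero, map_zero]
    have hLn : (Ln K w₁ : Submodule F V) = Ln K v := Ln_eq hw₁.1 hw₁0
    obtain ⟨ω, hω1, hω0⟩ := exists_fun hu₁W
    refine ⟨w₁, u₁, ω, ⟨hw₁0, by rw [hLn]; exact hu₁, hω0 _ hw₁, hω1, fun t => ?_⟩⟩
    obtain ⟨m, hm, hmz, -⟩ := S.q_mem (v := v'') (y := t • y) (by
      rw [← algebraMap_smul K t y, map_smul, hv''y, smul_zero])
    have hm1 : ∀ z ∈ (Ln K v' : Submodule F V), m z = z := by
      intro z hz
      obtain ⟨e, rfl⟩ := mem_Ln.1 hz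
      have e1 : C v' v'' = 0 := by rw [hd, map_smul, S.alt, smul_zero]
      have e2 : C v' y = 0 := by rw [← hy, hφ0]
      rw [hmz, ← algebraMap_smul K t y]
      simp only [map_smul, LinearMap.smul_apply, e1, e2, smul_zero, zero_smul, add_zero]
    have hm2 : m (g.symm u₁) = g.symm u₁ + t • v'' := by
      rw [hmz, hperp, zero_smul, add_zero, ← algebraMap_smul K t y, map_smul, ← hy, hφ1, smul_eq_mul, mul_one,
        algebraMap_smul]
    refine ⟨g * m * g⁻¹, mul_mem (mul_mem hg hm) (inv_mem hg), fun u hu => ?_⟩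
    rw [hLn] at hu
    have h1 := hyper (W := (Ln K v : Submodule F V) ⊓ U') inf_le_left (by omega) hu₁ hu₁W hω1 hω0 hu
    have h2 : ∀ z, (g * m * g⁻¹ : V ≃ₗ[F] V) z = g (m (g.symm z)) := fun z => rfl
    have h3 : u = (u - ω u • u₁) + ω u • u₁ := by abel
    conv_lhs => rw [h3]
    rw [map_add, LinearEquiv.map_smul, h2, h2, hm1 _ ((hgU' _).1 h1.2), hm2, map_add, LinearEquiv.apply_symm_apply,
      LinearEquiv.apply_symm_apply, LinearEquiv.map_smul, hv'', LinearEquiv.apply_symm_apply]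
    module

end SD

end Cfsg.Agent.Lib.FldSpH94
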