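import Mathlib
import Cfsg.Agent.Lib.FldSpH94
import Cfsg.Agent.Lib.UnTrans
import Cfsg.Agent.Lib.UnMax

set_option autoImplicit false
set_option linter.unusedSectionVars false
set_option linter.unusedSimpArgs false
set_option linter.unusedVariables false

/-!
Overgroups of extension field subgroups in unitary groups: the situation.
-/

namespace Cfsg.Agent.Lib.FldUH94

open Module Cfsg.Agent.Lib.UnTrans Cfsg.Agent.Lib.UnMax Cfsg.Agent.Lib.ExtFldH94
open Cfsg.Agent.Lib.SpTrans (isom mem_isom)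

variable {F K V : Type*} [Field F] [Field K] [Algebra F K] [AddCommGroup V] [Module F V] [Module K V]
  [IsScalarTower F K V] [FiniteDimensional F K] [FiniteDimensional K V] [FiniteDimensional F V]
  {σ : F →+* F} {τ : K →+* K} {h : V → V → F} {C : V → V → K} {Hh : HS σ h} {HC : HS τ C} {b : Dual F K}
  {M : Subgroup (V ≃ₗ[F] V)}

/-- the situation -/
structure FU (Hh : HS σ h) (HC : HS τ C) (b : Dual F K) (M : Subgroup (V ≃ₗ[F] V)) : Prop where
  hb : b ≠ 0
  bC : ∀ x y, b (C x y) = h x y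
  bτ : ∀ x, b (τ x) = σ (b x)
  τF : ∀ a : F, τ (algebraMap F K a) = algebraMap F K (σ a)
  nd : Nd C (⊤ : Submodule K V)
  hr : (finrank F K).Prime
  hk : 4 ≤ finrank K V
  hM : M ≤ isom h
  hT : ∀ g ∈ tgrp HC (⊤ : Submodule K V), g.restrictScalars F ∈ M

variable (C M) in
/-- images of singular lines -/
def Mem (U : Submodule F V) : Prop := ∃ m ∈ M, ∃ v, v ≠ 0 ∧ C v v = 0 ∧ U = (Ln K v).map (m : V →ₗ[F] V)

variable (C M) in
/-- upper bound for proper intersections -/
def Mx (w : ℕ) : Prop := ∀ U U' : Submodule F V, Mem C M U → Mem C M U' →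
  finrank F (U ⊓ U' : Submodule F V) < finrank F K → finrank F (U ⊓ U' : Submodule F V) ≤ w

theorem Mem.map {U : Submodule F V} (h : Mem C M U) {g : V ≃ₗ[F] V} (hg : g ∈ M) :
    Mem C M (U.map (g : V →ₗ[F] V)) := by
  obtain ⟨m, hm, v, hv, hqv, rfl⟩ := h
  refine ⟨g * m, mul_mem hg hm, v, hv, hqv, ?_⟩
  rw [← Submodule.map_comp]; rfl

theorem Mem.finrank_eq {U : Submodule F V} (h : Mem C M U) : finrank F U = finrank F K := by
  obtain ⟨m, hm, v, hv, hqv, rfl⟩ := h
  rw [← finrank_Ln (F := F) (K := K) hv]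
  exact LinearEquiv.finrank_map_eq m _

theorem mem_Ln' {v : V} (hv : v ≠ 0) (hqv : C v v = 0) : Mem C M (Ln K v) := by
  refine ⟨1, one_mem _, v, hv, hqv, ?_⟩
  exact (Submodule.map_id _).symm

namespace FU

variable (S : FU Hh HC b M)
include S

theorem bzero {c : K} (hc : ∀ a, b (a * c) = 0) : c = 0 := by
  by_contra hc0
  apply S.hb
  apply LinearMap.ext
  intro a
  have := hc (a * c⁻¹)
  rw [mul_assoc, inv_mul_cancel₀ hc0, mul_one] at this
  exact this

theorem bh (a : K) (x y : V) : b (a * C x y) = h (a • x) y := by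
  rw [← S.bC, HC.smul_left]

theorem bh' (a : K) (x y : V) : b (τ a * C x y) = h x (a • y) := by
  rw [← S.bC, HC.smul_right]

theorem C_zero {x y : V} (hxy : ∀ a : K, h (a • x) y = 0) : C x y = 0 :=
  S.bzero (fun a => by rw [S.bh]; exact hxy a)

theorem hMh {m : V ≃ₗ[F] V} (hm : m ∈ M) (x y : V) : h (m x) (m y) = h x y := S.hM hm x y

/-- images of singular lines are totally singular -/
theorem ts {U : Submodule F V} (hU : Mem C M U) {u u' : V} (hu : u ∈ U) (hu' : u' ∈ U) : h u u' = 0 := by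
  obtain ⟨m, hm, v, hv, hqv, rfl⟩ := hU
  obtain ⟨x, hx, rfl⟩ := hu
  obtain ⟨y, hy, rfl⟩ := hu'
  obtain ⟨a, rfl⟩ := mem_Ln.1 hx
  obtain ⟨c, rfl⟩ := mem_Ln.1 hy
  show h (m (a • v)) (m (c • v)) = 0
  rw [S.hMh hm, ← S.bC, HC.smul_left, HC.smul_right, hqv, mul_zero, mul_zero, map_zero]

/-- every linear functional over the big field is given by the form -/
theorem rep (φ : V →ₗ[K] K) : ∃ y, ∀ z, φ z = C z y := by
  obtain ⟨y, hy⟩ := fl_surj HC S.nd φ
  exact ⟨y, fun z => by rw [← hy]; rfl⟩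

/-- Eichler elements over the big field -/
theorem kr {e u : V} {c : K} (he : C e e = 0) (hu : C u e = 0) (hc : c + τ c + C u u = 0) :
    ∃ m ∈ M, ∀ z, m z = rho C e u c z := by
  have h4 : 4 ≤ finrank K (⊤ : Submodule K V) := by rw [finrank_top]; exact S.hk
  obtain ⟨t, ht, htz⟩ := rhoIn_all HC (M := tgrp HC ⊤) (W := ⊤) le_rfl S.nd h4 (e := e) (u := u) trivial he trivial hu
    c hc
  exact ⟨t.restrictScalars F, S.hT t ht, htz⟩

/-- transvections over the big field -/
theorem kt {e : V} {c : K} (he : C e e = 0) (hc : c + τ c = 0) : ∃ m ∈ M, ∀ z, m z = z + (c * C z e) • e := by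
  refine ⟨(tv HC e he c hc).restrictScalars F, S.hT _ (tv_mem_tgrp HC (W := ⊤) trivial he c hc), fun z => ?_⟩
  exact tv_apply HC e he c hc z

/-- transitivity over the big field -/
theorem move {x y : V} (hx : x ≠ 0) (hy : y ≠ 0) (hxy : C x x = C y y) : ∃ m ∈ M, m x = y ∧
    (∀ (a : K) z, m (a • z) = a • m z) ∧ ∀ z z', C (m z) (m z') = C z z' := by
  have h4 : 4 ≤ finrank K (⊤ : Submodule K V) := by rw [finrank_top]; exact S.hk
  obtain ⟨t, ht, htx⟩ := exists_move HC (W := ⊤) S.nd h4 trivial trivial hx hy hxy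
  exact ⟨t.restrictScalars F, S.hT t ht, htx, fun a z => t.map_smul a z, tgrp_le_isom HC _ ht⟩

/-- scalars of trace zero span -/
theorem tr0_span {U : Submodule F V} {e : V} {a : K} (ha : a ≠ 0) (hU : ∀ c : K, c + τ c = 0 → (c * a) • e ∈ U)
    (x : K) : x • e ∈ U := by
  obtain ⟨ε, hε0, hε⟩ := Hh.exists_tr0
  obtain ⟨α, hα⟩ := Hh.ne
  have hK : ∀ x : K, ∃ u v : K, τ u = u ∧ τ v = v ∧ x = u + algebraMap F K α * v := by
    intro x
    have hα' : algebraMap F K α - algebraMap F K (σ α) ≠ 0 := by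
      rw [← map_sub, Ne, map_eq_zero]
      exact sub_ne_zero.2 (Ne.symm hα)
    have hv : τ ((x - τ x) / (algebraMap F K α - algebraMap F K (σ α))) =
        (x - τ x) / (algebraMap F K α - algebraMap F K (σ α)) := by
      rw [map_div₀, map_sub, map_sub, S.τF, S.τF, HC.inv, Hh.inv, ← neg_sub x, ← neg_sub (algebraMap F K α), neg_div_neg_eq]
    refine ⟨x - algebraMap F K α * ((x - τ x) / (algebraMap F K α - algebraMap F K (σ α))), _, ?_, hv, by ring⟩
    rw [map_sub, map_mul, hv, S.τF]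
    field_simp
    ring
  have hE : ∀ v : K, τ v = v → (algebraMap F K ε * v * a) • e ∈ U := by
    intro v hv
    apply hU
    rw [map_mul, S.τF, hv, ← add_mul, ← map_add, hε, map_zero, zero_mul]
  obtain ⟨u, v, hu, hv, huv⟩ := hK ((algebraMap F K ε)⁻¹ * (x * a⁻¹))
  obtain ⟨ε', hε'⟩ : ∃ ε', ε' = algebraMap F K ε := ⟨_, rfl⟩
  have hε'0 : ε' ≠ 0 := by rw [hε', Ne, map_eq_zero]; exact hε0
  have h1 := U.add_mem (hE u hu) (U.smul_mem α (hE v hv))
  rw [← hε'] at h1 huv
  have h2 : x • e = (ε' * u * a) • e + α • (ε' * v * a) • e := by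
    rw [← algebraMap_smul K α, smul_smul, ← add_smul]
    congr 1
    have h3 : x = ε' * (ε'⁻¹ * (x * a⁻¹)) * a := by field_simp
    rw [h3, huv]
    ring
  rw [h2]
  exact h1

end FU

end Cfsg.Agent.Lib.FldUH94
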