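import Mathlib
import Cfsg.Agent.Lib.FU1H94

set_option autoImplicit false
set_option linter.unusedSectionVars false
set_option linter.unusedSimpArgs false
set_option linter.unusedVariables false

/-!
Overgroups of extension field subgroups in unitary groups: maximal pairs.
-/

namespace Cfsg.Agent.Lib.FldUH94

open Module Cfsg.Agent.Lib.UnTrans Cfsg.Agent.Lib.UnMax Cfsg.Agent.Lib.ExtFldH94
open Cfsg.Agent.Lib.SpTrans (isom mem_isom)
open Cfsg.Agent.Lib.SLBlockH94 (Dec)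
open Cfsg.Agent.Lib.FldSpH94 (exists_phi stable_line TD)

variable {F K V : Type*} [Field F] [Field K] [Algebra F K] [AddCommGroup V] [Module F V] [Module K V]
  [IsScalarTower F K V] [FiniteDimensional F K] [FiniteDimensional K V] [FiniteDimensional F V]
  {σ : F →+* F} {τ : K →+* K} {h : V → V → F} {C : V → V → K} {Hh : HS σ h} {HC : HS τ C} {b : Dual F K}
  {M : Subgroup (V ≃ₗ[F] V)}

/-- normalising a pair -/
theorem norm_pair {U U' : Submodule F V} (hU : Mem C M U) (hU' : Mem C M U') :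
    ∃ v, v ≠ 0 ∧ C v v = 0 ∧ ∃ m ∈ M, U = (Ln K v).map (m : V →ₗ[F] V) ∧ ∃ U₃ : Submodule F V, Mem C M U₃ ∧
      (∀ y, y ∈ U₃ ↔ m y ∈ U') ∧ finrank F (Ln K v ⊓ U₃ : Submodule F V) = finrank F (U ⊓ U' : Submodule F V) := by
  obtain ⟨m, hm, v, hv, hqv, rfl⟩ := hU
  obtain ⟨U₃, hU₃⟩ : ∃ U₃ : Submodule F V, U₃ = U'.map ((m⁻¹ : V ≃ₗ[F] V) : V →ₗ[F] V) := ⟨_, rfl⟩
  have hm1 : ∀ y, m (m⁻¹ y) = y := fun y => by rw [← LinearEquiv.mul_apply, mul_inv_cancel]; rfl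
  have hm2 : ∀ y, m⁻¹ (m y) = y := fun y => by rw [← LinearEquiv.mul_apply, inv_mul_cancel]; rfl
  have h1 : ∀ y, y ∈ U₃ ↔ m y ∈ U' := by
    intro y
    rw [hU₃]
    constructor
    · rintro ⟨x, hx, rfl⟩
      show m (m⁻¹ x) ∈ U'
      rw [hm1]; exact hx
    · intro h
      exact ⟨m y, h, hm2 y⟩
  refine ⟨v, hv, hqv, m, hm, rfl, U₃, by rw [hU₃]; exact hU'.map (inv_mem hm), h1, ?_⟩
  have h2 : (Ln K v ⊓ U₃).map (m : V →ₗ[F] V) = (Ln K v).map (m : V →ₗ[F] V) ⊓ U' := by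
    ext y
    constructor
    · rintro ⟨x, hx, rfl⟩
      exact ⟨⟨x, hx.1, rfl⟩, (h1 x).1 hx.2⟩
    · rintro ⟨⟨x, hx, rfl⟩, hy⟩
      exact ⟨x, ⟨hx, (h1 x).2 hy⟩, rfl⟩
  rw [← h2]
  exact (LinearEquiv.finrank_map_eq m _).symm

/-- growing intersections -/
theorem grow {w : ℕ} (hmax : Mx C M w) {U U' : Submodule F V} (hU' : Mem C M U')
    (hw : finrank F (U ⊓ U' : Submodule F V) = w) {m : V ≃ₗ[F] V} (hm : m ∈ M)
    (hmW : ∀ y ∈ U ⊓ U', m y = y) {u₁ : V} (hu₁ : u₁ ∈ U') (hu₁' : u₁ ∉ U) (h : m u₁ ∈ U') :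
    ∀ y ∈ U', m y ∈ U' := by
  have hU'r := hU'.finrank_eq
  have hle : (U ⊓ U') ⊔ Submodule.span F {m u₁} ≤ U' ⊓ U'.map (m : V →ₗ[F] V) := by
    apply sup_le
    · intro y hy
      exact ⟨hy.2, ⟨y, hy.2, hmW y hy⟩⟩
    · rw [Submodule.span_singleton_le_iff_mem]
      exact ⟨h, ⟨u₁, hu₁, rfl⟩⟩
  have hlt : w < finrank F (U' ⊓ U'.map (m : V →ₗ[F] V) : Submodule F V) := by
    rw [← hw]
    apply Submodule.finrank_lt_finrank_of_lt
    refine lt_of_le_of_ne (le_sup_left.trans hle) fun heq => ?_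
    have h2 : m u₁ ∈ U' ⊓ U'.map (m : V →ₗ[F] V) :=
      hle (Submodule.mem_sup_right (Submodule.mem_span_singleton_self _))
    rw [← heq] at h2
    apply hu₁'
    have h3 := hmW _ h2
    have h4 : m u₁ = u₁ := m.injective h3
    rw [h4] at h2
    exact h2.1
  have hIr : finrank F (U' ⊓ U'.map (m : V →ₗ[F] V) : Submodule F V) ≤ finrank F K := by
    rw [← hU'r]; exact Submodule.finrank_mono inf_le_left
  have hIeq : finrank F (U' ⊓ U'.map (m : V →ₗ[F] V) : Submodule F V) = finrank F K := by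
    by_contra hne
    have := hmax _ _ hU' (hU'.map hm) (lt_of_le_of_ne hIr hne)
    omega
  have h2 : U' ⊓ U'.map (m : V →ₗ[F] V) = U' :=
    Submodule.eq_of_le_of_finrank_eq inf_le_left (by rw [hIeq, hU'r])
  have h3 : U'.map (m : V →ₗ[F] V) = U' := by
    have h4 : U' ≤ U'.map (m : V →ₗ[F] V) := inf_eq_left.1 h2
    exact (Submodule.eq_of_le_of_finrank_eq h4 (LinearEquiv.finrank_map_eq _ _).symm).symm
  intro y hy
  rw [← h3]
  exact ⟨y, hy, rfl⟩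

namespace FU

variable (S : FU Hh HC b M)
include S
variable [Finite K]

theorem exists_max (hadj : ∃ U U' : Submodule F V, Mem C M U ∧ Mem C M U' ∧ U ≠ U' ∧ U ⊓ U' ≠ ⊥) :
    ∃ w, 0 < w ∧ w < finrank F K ∧ Mx C M w ∧ ∃ v, v ≠ 0 ∧ C v v = 0 ∧ ∃ U' : Submodule F V, Mem C M U' ∧
      finrank F (Ln K v ⊓ U' : Submodule F V) = w := by
  classical
  obtain ⟨U, U', hU, hU', hne, hbot⟩ := hadj
  obtain ⟨P, hP⟩ : ∃ P : ℕ → Prop, ∀ w, P w ↔ (0 < w ∧ w < finrank F K ∧ ∃ U U' : Submodule F V, Mem C M U ∧ Mem C M U' ∧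
    finrank F (U ⊓ U' : Submodule F V) = w) := ⟨_, fun w => Iff.rfl⟩
  have h0 : P (finrank F (U ⊓ U' : Submodule F V)) := by
    rw [hP]
    refine ⟨?_, ?_, U, U', hU, hU', rfl⟩
    · apply Nat.pos_of_ne_zero
      intro h
      exact hbot (Submodule.finrank_eq_zero.1 h)
    · have h1 : finrank F (U ⊓ U' : Submodule F V) ≤ finrank F K := by
        rw [← hU.finrank_eq]; exact Submodule.finrank_mono inf_le_left
      refine lt_of_le_of_ne h1 fun h2 => hne ?_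
      have h3 : U ⊓ U' = U := Submodule.eq_of_le_of_finrank_eq inf_le_left (by rw [h2, hU.finrank_eq])
      have h4 : U ⊓ U' = U' := Submodule.eq_of_le_of_finrank_eq inf_le_right (by rw [h2, hU'.finrank_eq])
      rw [← h3, h4]
  have h1 := Nat.findGreatest_spec (P := P) (m := finrank F (U ⊓ U' : Submodule F V)) (n := finrank F K)
    (le_of_lt ((hP _).1 h0).2.1) h0
  obtain ⟨w, hw⟩ : ∃ w, w = Nat.findGreatest P (finrank F K) := ⟨_, rfl⟩
  rw [← hw, hP] at h1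
  obtain ⟨h2, h3, U₁, U₂, hU₁, hU₂, hf⟩ := h1
  refine ⟨w, h2, h3, ?_, ?_⟩
  · intro U₃ U₄ hU₃ hU₄ hlt
    by_contra hcon
    rw [hw] at hcon
    exact Nat.findGreatest_is_greatest (P := P) (lt_of_not_ge hcon) (le_of_lt hlt) ((hP _).2
      ⟨by omega, hlt, U₃, U₄, hU₃, hU₄, rfl⟩)
  · obtain ⟨v, hv0, hv, m, hm, -, U₃, hU₃, -, hfr⟩ := norm_pair hU₁ hU₂
    exact ⟨v, hv0, hv, U₃, hU₃, by rw [hfr, hf]⟩


end FU

end Cfsg.Agent.Lib.FldUH94
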