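import Mathlib
import Cfsg.Agent.Lib.FU2H94

set_option autoImplicit false
set_option linter.unusedSectionVars false
set_option linter.unusedSimpArgs false
set_option linter.unusedVariables false

/-!
Overgroups of extension field subgroups in unitary groups: the members do not form a spread
different from the set of singular lines.
-/

namespace Cfsg.Agent.Lib.FldUH94

open Module Cfsg.Agent.Lib.UnTrans Cfsg.Agent.Lib.UnMax Cfsg.Agent.Lib.ExtFldH94
open Cfsg.Agent.Lib.SpTrans (isom mem_isom)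
open Cfsg.Agent.Lib.SLBlockH94 (Dec)
open Cfsg.Agent.Lib.FldSpH94 (exists_phi stable_line TD)

variable {F K V : Type*} [Field F] [Field K] [Algebra F K] [AddCommGroup V] [Module F V] [Module K V]
  [IsScalarTower F K V] [FiniteDimensional F K] [FiniteDimensional K V] [FiniteDimensional F V]
  {σ : F →+* F} {τ : K →+* K} {h : V → V → F} {C : V → V → K} {Hh : HS σ h} {HC : HS τ C} {b : Dual F K}
  {M : Subgroup (V ≃ₗ[F] V)}

/-- an element of `M` fixing a nonzero vector of a member of a partial spread stabilises it -/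
theorem stab_of_fix (hsp : ∀ U U' : Submodule F V, Mem C M U → Mem C M U' → U ≠ U' → U ⊓ U' = ⊥)
    {U : Submodule F V} (hU : Mem C M U) {z : V} (hz : z ∈ U) (hz0 : z ≠ 0) {m : V ≃ₗ[F] V} (hm : m ∈ M)
    (hmz : m z = z) : ∀ y ∈ U, m y ∈ U := by
  have h1 : U.map (m : V →ₗ[F] V) = U := by
    by_contra hne
    have h2 := hsp _ _ (hU.map hm) hU hne
    have h3 : z ∈ U.map (m : V →ₗ[F] V) ⊓ U := ⟨⟨z, hz, hmz⟩, hz⟩
    rw [h2] at h3
    exact hz0 ((Submodule.mem_bot F).1 h3)
  intro y hy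
  rw [← h1]
  exact ⟨y, hy, rfl⟩

theorem eq_Ln_of_ge {U : Submodule F V} (hU : Mem C M U) {v : V} (hv0 : v ≠ 0) (h1 : ∀ x : K, x • v ∈ U) :
    U = Ln K v := by
  have h2 : (Ln K v : Submodule F V) ≤ U := by
    intro y hy
    obtain ⟨a, rfl⟩ := mem_Ln.1 hy
    exact h1 a
  exact (Submodule.eq_of_le_of_finrank_eq h2 (by rw [finrank_Ln hv0, hU.finrank_eq])).symm

theorem eq_Ln_of_le {U : Submodule F V} (hU : Mem C M U) {v : V} (hv0 : v ≠ 0)
    (h1 : ∀ y ∈ U, y ∈ (Ln K v : Submodule F V)) : U = Ln K v :=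
  Submodule.eq_of_le_of_finrank_eq h1 (by rw [finrank_Ln hv0, hU.finrank_eq])

namespace FU

variable (S : FU Hh HC b M)
include S

theorem o_step {U : Submodule F V} (hU : Mem C M U) {v : V} (hv0 : v ≠ 0) (hv : C v v = 0)
    (hst : ∀ m ∈ M, ∀ c : K, (∀ z, m z = z + (c * C z v) • v) → ∀ y ∈ U, m y ∈ U) {u : V} (hu : u ∈ U)
    (hne : C u v ≠ 0) : U = Ln K v := by
  refine eq_Ln_of_ge hU hv0 (S.tr0_span (e := v) (a := C u v) hne fun c hc => ?_)
  obtain ⟨m, hm, hmz⟩ := S.kt hv hc
  have h1 := U.sub_mem (hst m hm c hmz u hu) hu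
  rwa [hmz, add_sub_cancel_left] at h1

theorem not_spread (hsp : ∀ U U' : Submodule F V, Mem C M U → Mem C M U' → U ≠ U' → U ⊓ U' = ⊥)
    {U : Submodule F V} (hU : Mem C M U) : ∃ v, v ≠ 0 ∧ C v v = 0 ∧ U = Ln K v := by
  obtain ⟨z, hz, hz0⟩ : ∃ z ∈ U, z ≠ 0 := by
    apply Submodule.exists_mem_ne_zero_of_ne_bot
    rintro rfl
    have h1 := hU.finrank_eq
    rw [finrank_bot] at h1
    exact absurd h1.symm (finrank_pos (R := F) (M := K)).ne'
  by_cases hzz : C z z = 0
  · refine ⟨z, hz0, hzz, ?_⟩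
    by_cases hex : ∃ u ∈ U, C u z ≠ 0
    · obtain ⟨u, hu, hne⟩ := hex
      refine S.o_step hU hz0 hzz (fun m hm c hmz => ?_) hu hne
      apply stab_of_fix hsp hU hz hz0 hm
      rw [hmz, hzz, mul_zero, zero_smul, add_zero]
    push Not at hex
    by_cases hy : ∃ y ∈ U, y ∉ (Ln K z : Submodule F V)
    · exfalso
      obtain ⟨y, hyU, hyz⟩ := hy
      obtain ⟨φ, hφ1, hφ0⟩ := exists_dual1 hyz
      obtain ⟨d, hd⟩ := S.rep φ
      have hzd : C z d = 0 := by rw [← hd]; exact hφ0
      have hyd : C y d = 1 := by rw [← hd]; exact hφ1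
      have hdz : C d z = 0 := HC.symm_zero hzd
      apply hyz
      rw [← eq_Ln_of_ge hU hz0 ?_]
      · exact hyU
      intro x
      obtain ⟨c, hc⟩ := HC.exists_trace (-(C (τ x • d) (τ x • d))) (by rw [map_neg, HC.self_fixed])
      obtain ⟨m, hm, hmz⟩ := S.kr (e := z) (u := τ x • d) (c := c) hzz (by rw [HC.smul_left, hdz, mul_zero])
        (by rw [hc, neg_add_cancel])
      have h1 : m z = z := by
        rw [hmz, rho, hzz, HC.smul_right, hzd, mul_zero, mul_zero, zero_smul, zero_smul, add_zero, sub_zero,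
          add_zero]
      have h2 := U.sub_mem hyU (stab_of_fix hsp hU hz hz0 hm h1 y hyU)
      rw [hmz, rho, hex y hyU, HC.smul_right, HC.inv, hyd, mul_one, mul_zero, zero_smul, zero_smul, add_zero, add_zero,
        sub_sub_cancel] at h2
      exact h2
    · push Not at hy
      exact eq_Ln_of_le hU hz0 hy
  · exfalso
    have hperp : ∀ v, C v v = 0 → C v z = 0 → ∀ u ∈ U, C u v = 0 := by
      intro v hv hvz u hu
      by_cases hv0 : v = 0
      · rw [hv0, HC.zero_right]
      by_contra hne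
      have h1 := S.o_step hU hv0 hv (fun m hm c hmz => by
        apply stab_of_fix hsp hU hz hz0 hm
        rw [hmz, HC.symm_zero hvz, mul_zero, zero_smul, add_zero]) hu hne
      rw [h1] at hz
      obtain ⟨a, rfl⟩ := mem_Ln.1 hz
      apply hzz
      rw [HC.smul_left, HC.smul_right, hv, mul_zero, mul_zero]
    have h4 : 4 ≤ finrank K (⊤ : Submodule K V) := by rw [finrank_top]; exact S.hk
    obtain ⟨z', -, hz'z, hz'z', y, -, hyz, hz'y⟩ := HC.exists_hyp S.nd h4 (w := z) trivial
    have hmem : ∀ x, x ∈ LinearMap.ker (HC.fl z) ↔ C x z = 0 := fun x => Iff.rfl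
    have hle : ∀ u ∈ U, u ∈ (Ln K z : Submodule F V) := by
      intro u hu
      have h2 : u ∈ Submodule.span K {z} := by
        refine HC.mem_span_of_perp S.nd (w := z) (u := u) trivial trivial fun x _ hxz => ?_
        have h3 := HC.mem_span_iso (U := LinearMap.ker (HC.fl z)) ((hmem _).2 hz'z) hz'z' ((hmem _).2 hyz) hz'y
          ((hmem _).2 hxz)
        have h5 : x ∈ LinearMap.ker (HC.fl u) := by
          refine Submodule.span_le.2 ?_ h3
          rintro w ⟨hw1, hw2⟩
          exact HC.symm_zero (hperp w hw2 ((hmem _).1 hw1) u hu)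
        exact h5
      exact h2
    have hUz := eq_Ln_of_le hU hz0 hle
    apply hzz
    apply S.C_zero
    intro a
    refine S.ts hU ?_ hz
    rw [hUz]
    exact smul_mem_Ln z a

end FU

end Cfsg.Agent.Lib.FldUH94
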