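import Mathlib
import Cfsg.Agent.Lib.FU1H94

set_option autoImplicit false
set_option linter.unusedSectionVars false
set_option linter.unusedSimpArgs false
set_option linter.unusedVariables false

/-!
Overgroups of extension field subgroups in unitary groups: preserving the singular lines implies
semilinearity.
-/

namespace Cfsg.Agent.Lib.FldUH94

open Module Cfsg.Agent.Lib.UnTrans Cfsg.Agent.Lib.UnMax Cfsg.Agent.Lib.ExtFldH94
open Cfsg.Agent.Lib.SpTrans (isom mem_isom)

variable {F K V : Type*} [Field F] [Field K] [Algebra F K] [AddCommGroup V] [Module F V] [Module K V]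
  [IsScalarTower F K V] [FiniteDimensional F K] [FiniteDimensional K V] [FiniteDimensional F V]
  {σ : F →+* F} {τ : K →+* K} {h : V → V → F} {C : V → V → K} {Hh : HS σ h} {HC : HS τ C} {b : Dual F K}
  {M : Subgroup (V ≃ₗ[F] V)}

/-- two dimensional subspaces contain singular vectors -/
theorem sing_two_u1b {K V : Type*} [Field K] [AddCommGroup V] [Module K V] [FiniteDimensional K V] {σ : K →+* K}
    {f : V → V → K} (H : HS σ f) {U : Submodule K V} (hU : 2 ≤ finrank K U) : ∃ e ∈ U, e ≠ 0 ∧ f e e = 0 := by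
  obtain ⟨x, hx, hx0⟩ : ∃ x ∈ U, x ≠ 0 := Submodule.exists_mem_ne_zero_of_ne_bot (by
    rintro rfl; rw [finrank_bot] at hU; omega)
  by_cases hxx : f x x = 0
  · exact ⟨x, hx, hx0, hxx⟩
  obtain ⟨y', hy', hy'0, hyx'⟩ : ∃ y' ∈ U, y' ≠ 0 ∧ f y' x = 0 := by
    have h1 := HS.finrank_inf_ker U (H.fl x)
    have h2 : U ⊓ LinearMap.ker (H.fl x) ≠ ⊥ := by
      intro h3
      rw [h3, finrank_bot] at h1
      omega
    obtain ⟨c, hc, hc0⟩ := Submodule.exists_mem_ne_zero_of_ne_bot h2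
    exact ⟨c, hc.1, hc0, hc.2⟩
  obtain ⟨c, hc⟩ := H.norm (-(f y' y') / f x x) (by rw [map_div₀, map_neg, H.self_fixed, H.self_fixed])
  refine ⟨y' + c • x, U.add_mem hy' (U.smul_mem _ hx), ?_, ?_⟩
  · intro h0
    have h1 : f (y' + c • x) x = 0 := by rw [h0, H.zero_left]
    rw [H.add_left, hyx', zero_add, H.smul_left] at h1
    rcases mul_eq_zero.1 h1 with h2 | h2
    · rw [h2, zero_smul, add_zero] at h0
      exact hy'0 h0
    · exact hxx h2
  · rw [H.add_left, H.add_right, H.add_right, H.smul_left, H.smul_left, H.smul_right, H.smul_right, hyx',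
      H.symm_zero hyx']
    have : c * (σ c * f x x) = -(f y' y') := by
      rw [← mul_assoc, hc, div_mul_cancel₀ _ hxx]
    rw [this]; ring

namespace FU

variable (S : FU Hh HC b M)
include S

/-- a hyperbolic pair and a vector of norm `-2` orthogonal to it -/
theorem frame_u1b : ∃ e f x : V, C e e = 0 ∧ C f f = 0 ∧ C e f = 1 ∧ C x e = 0 ∧ C x f = 0 ∧ C x x = -2 ∧ x ≠ 0 := by
  have h4 : 4 ≤ finrank K (⊤ : Submodule K V) := by rw [finrank_top]; exact S.hk
  obtain ⟨z, -, -, hz, y, -, -, hzy⟩ := HC.exists_hyp S.nd h4 (w := 0) trivial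
  obtain ⟨a, ha⟩ := HC.exists_add_norm hz hzy (map_zero τ)
  obtain ⟨f₀, hf₀⟩ : ∃ f₀, f₀ = y + a • z := ⟨_, rfl⟩
  rw [← hf₀] at ha
  have hzf : C z f₀ ≠ 0 := by
    rw [hf₀, HC.add_right, HC.smul_right, hz, mul_zero, add_zero]; exact hzy
  obtain ⟨f, hf⟩ : ∃ f, f = τ ((C z f₀)⁻¹) • f₀ := ⟨_, rfl⟩
  have hff : C f f = 0 := by rw [hf, HC.smul_left, HC.smul_right, ha, mul_zero, mul_zero]
  have hzf1 : C z f = 1 := by rw [hf, HC.smul_right, HC.inv, inv_mul_cancel₀ hzf]
  have hfz1 : C f z = 1 := by rw [HC.herm, hzf1, map_one]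
  -- the orthogonal complement of the pair
  obtain ⟨P, hP⟩ : ∃ P : Submodule K V, P = perp HC (Submodule.span K {z, f}) := ⟨_, rfl⟩
  have memP : ∀ x, x ∈ P ↔ C x z = 0 ∧ C x f = 0 := by
    intro x
    rw [hP, mem_perp]
    constructor
    · intro hx
      exact ⟨hx z (Submodule.subset_span (by simp)), hx f (Submodule.subset_span (by simp))⟩
    · rintro ⟨h1, h2⟩ w hw
      obtain ⟨s, t, rfl⟩ := Submodule.mem_span_pair.1 hw
      rw [HC.add_right, HC.smul_right, HC.smul_right, h1, h2, mul_zero, mul_zero, add_zero]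
  have hprj : ∀ v, v - C v f • z - C v z • f ∈ P := by
    intro v
    rw [memP]
    constructor
    · rw [HC.sub_left, HC.sub_left, HC.smul_left, HC.smul_left, hz, hfz1]; ring
    · rw [HC.sub_left, HC.sub_left, HC.smul_left, HC.smul_left, hff, hzf1]; ring
  have hPn : Nd C P := by
    intro x hx hx0
    obtain ⟨y, -, hxy⟩ := S.nd x trivial hx0
    obtain ⟨h1, h2⟩ := (memP x).1 hx
    refine ⟨_, hprj y, ?_⟩
    rw [HC.sub_right, HC.sub_right, HC.smul_right, HC.smul_right, h1, h2, mul_zero, mul_zero, sub_zero, sub_zero]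
    exact hxy
  have hPr : 2 ≤ finrank K P := by
    have h1 := HS.finrank_inf_ker (⊤ : Submodule K V) (HC.fl z)
    have h2 := HS.finrank_inf_ker ((⊤ : Submodule K V) ⊓ LinearMap.ker (HC.fl z)) (HC.fl f)
    have h3 : (⊤ : Submodule K V) ⊓ LinearMap.ker (HC.fl z) ⊓ LinearMap.ker (HC.fl f) = P := by
      ext x
      rw [memP]
      simp only [Submodule.mem_inf, Submodule.mem_top, true_and, LinearMap.mem_ker]
      exact Iff.rfl
    rw [h3] at h2
    omega
  obtain ⟨d, hdP, hd0, hdd⟩ := sing_two_u1b HC hPr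
  obtain ⟨y', hy'P, hdy⟩ := hPn d hdP hd0
  obtain ⟨a', ha'⟩ := HC.exists_add_norm hdd hdy (c := -2) (by rw [map_neg, map_ofNat])
  obtain ⟨h1, h2⟩ := (memP _).1 (P.add_mem hy'P (P.smul_mem a' hdP))
  refine ⟨z, f, y' + a' • d, hz, hff, hzf1, h1, h2, ha', ?_⟩
  intro h0
  have h3 : C d (y' + a' • d) = 0 := by rw [h0, HC.zero_right]
  rw [HC.add_right, HC.smul_right, hdd, mul_zero, add_zero] at h3
  exact hdy h3

/-- preserving the singular lines implies semilinearity -/
theorem semilinear {g : V ≃ₗ[F] V} (hg : g ∈ M)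
    (hl : ∀ v, v ≠ 0 → C v v = 0 → ∃ v', v' ≠ 0 ∧ C v' v' = 0 ∧ (Ln K v).map (g : V →ₗ[F] V) = Ln K v') :
    ∀ a : K, ∃ c : K, ∀ x, g (a • x) = c • g x := by
  have hk := S.hk
  have hgp : ∀ x y, h (g x) (g y) = h x y := S.hMh hg
  have h1 : ∀ v, C v v = 0 → C (g v) (g v) = 0 ∧ ∀ a : K, ∃ c : K, g (a • v) = c • g v := by
    intro v hv
    by_cases hv0 : v = 0
    · subst hv0
      exact ⟨by rw [map_zero, HC.zero_left], fun a => ⟨0, by rw [smul_zero, map_zero, smul_zero]⟩⟩
    obtain ⟨v', hv'0, hqv', hmap⟩ := hl v hv0 hv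
    have h2 : ∀ a : K, g (a • v) ∈ (Ln K v' : Submodule F V) := fun a => by
      rw [← hmap]; exact ⟨_, smul_mem_Ln v a, rfl⟩
    obtain ⟨c₁, hc₁⟩ := mem_Ln.1 (h2 1)
    rw [one_smul] at hc₁
    have hc0 : c₁ ≠ 0 := by
      rintro rfl
      rw [zero_smul] at hc₁
      exact hv0 ((LinearEquiv.map_eq_zero_iff g).1 hc₁)
    refine ⟨by rw [hc₁, HC.smul_left, HC.smul_right, hqv', mul_zero, mul_zero], fun a => ?_⟩
    obtain ⟨c, hc⟩ := mem_Ln.1 (h2 a)
    exact ⟨c * c₁⁻¹, by rw [hc, hc₁, smul_smul, mul_assoc, inv_mul_cancel₀ hc0, mul_one]⟩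
  have hsurj : ∀ v, v ≠ 0 → C v v = 0 → ∀ c : K, ∃ a : K, g (a • v) = c • g v := by
    intro v hv0 hv c
    obtain ⟨v', hv'0, hqv', hmap⟩ := hl v hv0 hv
    have h2 : g v ∈ (Ln K v' : Submodule F V) := by rw [← hmap]; exact ⟨v, self_mem_Ln v, rfl⟩
    have h3 : c • g v ∈ (Ln K v' : Submodule F V) := Ln_smul c h2
    rw [← hmap] at h3
    obtain ⟨x, hx, hxe⟩ := h3
    obtain ⟨a, rfl⟩ := mem_Ln.1 hx
    exact ⟨a, hxe⟩
  have hperp : ∀ v x, C v v = 0 → C v x = 0 → C (g v) (g x) = 0 := by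
    intro v x hv hvx
    by_cases hv0 : v = 0
    · rw [hv0, map_zero, HC.zero_left]
    apply S.C_zero
    intro c
    obtain ⟨a, ha⟩ := hsurj v hv0 hv c
    rw [← ha, hgp, ← S.bh, hvx, mul_zero, map_zero]
  obtain ⟨e, f, x₁, hee, hff, hef, hx₁e, hx₁f, hx₁x, hx₁0⟩ := S.frame_u1b
  have hfe : C f e = 1 := by rw [HC.herm, hef, map_one]
  have he0 : e ≠ 0 := by rintro rfl; rw [HC.zero_left] at hef; exact zero_ne_one hef
  have hf0 : f ≠ 0 := by rintro rfl; rw [HC.zero_right] at hef; exact zero_ne_one hef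
  have hne : C (g e) (g f) ≠ 0 := by
    intro h2
    obtain ⟨a, ha⟩ : ∃ a : K, b a ≠ 0 := by
      by_contra hcon
      push Not at hcon
      exact S.hb (LinearMap.ext hcon)
    apply ha
    have h3 : b (a * C e f) = 0 := by
      rw [S.bh, ← hgp]
      obtain ⟨c, hc⟩ := (h1 e hee).2 a
      rw [hc, ← S.bh, h2, mul_zero, map_zero]
    rwa [hef, mul_one] at h3
  have hne' : C (g f) (g e) ≠ 0 := HC.symm_ne hne
  choose T hT using (h1 e hee).2
  choose T' hT' using (h1 f hff).2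
  have key : ∀ (x : V) (s : K), C x e = 0 → C x f = 0 → s + τ s + C x x = 0 → ∀ t : K,
      g (t • x) = T t • g x ∧ T' (t * s) = T t * T' s := by
    intro x s hxe hxf hsx t
    have hs : C (e + s • f + x) (e + s • f + x) = 0 := by
      have hex : C e x = 0 := HC.symm_zero hxe
      have hfx : C f x = 0 := HC.symm_zero hxf
      simp only [HC.add_left, HC.add_right, HC.smul_left, HC.smul_right, hee, hff, hef, hfe, hxe, hxf, hex, hfx]
      linear_combination hsx
    obtain ⟨c, hc⟩ := (h1 _ hs).2 t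
    have e1 : t • (e + s • f + x) = t • e + (t * s) • f + t • x := by
      rw [smul_add, smul_add, smul_smul]
    rw [e1, map_add, map_add, map_add, map_add, hT, hT', hT'] at hc
    have hxg : ∀ s : K, C (g (s • x)) (g f) = 0 := fun s =>
      HC.symm_zero (hperp f _ hff (by rw [HC.smul_right, HC.symm_zero hxf, mul_zero]))
    have hxg' : ∀ s : K, C (g (s • x)) (g e) = 0 := fun s =>
      HC.symm_zero (hperp e _ hee (by rw [HC.smul_right, HC.symm_zero hxe, mul_zero]))
    have hx1 : C (g x) (g f) = 0 := HC.symm_zero (hperp f x hff (HC.symm_zero hxf))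
    have hx2 : C (g x) (g e) = 0 := HC.symm_zero (hperp e x hee (HC.symm_zero hxe))
    have hgff : C (g f) (g f) = 0 := (h1 f hff).1
    have hgee : C (g e) (g e) = 0 := (h1 e hee).1
    have h3 := congrArg (fun y => C y (g f)) hc
    simp only [HC.add_left, HC.smul_left, hgff, hxg, hx1, mul_zero, add_zero] at h3
    have h4 : T t = c := mul_right_cancel₀ hne h3
    have h5 := congrArg (fun y => C y (g e)) hc
    simp only [HC.add_left, HC.smul_left, hgee, hxg', hx2, mul_zero, add_zero, zero_add] at h5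
    have h6 : T' (t * s) = T t * T' s := by
      apply mul_right_cancel₀ hne'
      rw [h5, h4]; ring
    refine ⟨?_, h6⟩
    rw [h6, ← h4] at hc
    have h7 : g (t • x) = (T t • g e + (T t * T' s) • g f + g (t • x)) - (T t • g e + (T t * T' s) • g f) := by
      abel
    rw [h7, hc]
    module
  have hgx₁ : g x₁ ≠ 0 := (LinearEquiv.map_ne_zero_iff g).2 hx₁0
  have hgf : g f ≠ 0 := (LinearEquiv.map_ne_zero_iff g).2 hf0
  have hτ1 : T' 1 = 1 := by
    have h3 := hT' 1
    rw [one_smul] at h3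
    have h4 : (1 - T' 1) • g f = 0 := by rw [sub_smul, one_smul, ← h3, sub_self]
    rcases smul_eq_zero.1 h4 with h5 | h5
    · exact (sub_eq_zero.1 h5).symm
    · exact absurd h5 hgf
  have hττ : ∀ t, T' t = T t := by
    intro t
    have h3 := (key x₁ 1 hx₁e hx₁f (by rw [map_one, hx₁x]; ring) t).2
    rwa [mul_one, hτ1, mul_one] at h3
  have key2 : ∀ x : V, C x e = 0 → C x f = 0 → ∀ t : K, g (t • x) = T t • g x := by
    intro x hxe hxf t
    obtain ⟨s, hs⟩ := HC.exists_trace (-(C x x)) (by rw [map_neg, HC.self_fixed])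
    exact (key x s hxe hxf (by rw [hs]; ring) t).1
  have hmul : ∀ s t, T (s * t) = T s * T t := by
    intro s t
    have h3 := key2 x₁ hx₁e hx₁f (s * t)
    rw [mul_smul, key2 (t • x₁) (by rw [HC.smul_left, hx₁e, mul_zero]) (by rw [HC.smul_left, hx₁f, mul_zero]) s,
      key2 x₁ hx₁e hx₁f t, smul_smul] at h3
    have h4 : (T s * T t - T (s * t)) • g x₁ = 0 := by rw [sub_smul, h3, sub_self]
    rcases smul_eq_zero.1 h4 with h5 | h5
    · exact (sub_eq_zero.1 h5).symm
    · exact absurd h5 hgx₁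
  intro a
  refine ⟨T a, fun z => ?_⟩
  obtain ⟨w, hw⟩ : ∃ w, w = z - C z f • e - C z e • f := ⟨_, rfl⟩
  have hwe : C w e = 0 := by
    rw [hw, HC.sub_left, HC.sub_left, HC.smul_left, HC.smul_left, hee, hfe]; ring
  have hwf : C w f = 0 := by
    rw [hw, HC.sub_left, HC.sub_left, HC.smul_left, HC.smul_left, hff, hef]; ring
  have hz : z = C z f • e + C z e • f + w := by rw [hw]; abel
  rw [hz, smul_add, smul_add, smul_smul, smul_smul, map_add, map_add, hT, hT', hττ, key2 w hwe hwf a, hmul, hmul,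
    map_add, map_add, hT, hT', hττ]
  module

end FU

end Cfsg.Agent.Lib.FldUH94
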