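import Mathlib
import Cfsg.Agent.Lib.FU2H94

set_option autoImplicit false
set_option linter.unusedSectionVars false

/-!
Overgroups of extension field subgroups in unitary groups: maximal pairs are orthogonal or opposite.
-/

namespace Cfsg.Agent.Lib.FldUH94

open Module Cfsg.Agent.Lib.UnTrans Cfsg.Agent.Lib.UnMax Cfsg.Agent.Lib.ExtFldH94
open Cfsg.Agent.Lib.SpTrans (isom mem_isom)
open Cfsg.Agent.Lib.SLBlockH94 (Dec)
open Cfsg.Agent.Lib.FldSpH94 (exists_phi stable_line TD)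

variable {F K V : Type*} [Field F] [Field K] [Algebra F K] [AddCommGroup V] [Module F V] [Module K V]
  [IsScalarTower F K V] [FiniteDimensional F K] [FiniteDimensional K V] [FiniteDimensional F V]
  {σ : F →+* F} {τ : K →+* K} {h : V → V → F} {C : V → V → K} {Hh : HS σ h} {HC : HS τ C} {b : Dual F K}
  {M : Subgroup (V ≃ₗ[F] V)}

namespace FU

variable (S : FU Hh HC b M)
include S

theorem dicho {w : ℕ} (hw0 : 0 < w) (hwr : w < finrank F K) (hmax : Mx C M w) {v : V} (hv0 : v ≠ 0) (hv : C v v = 0)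
    {U' : Submodule F V} (hU' : Mem C M U') (hfr : finrank F (Ln K v ⊓ U' : Submodule F V) = w) {u₁ : V}
    (hu₁ : u₁ ∈ U') (hβ : C u₁ v ≠ 0) {y : V} (hy : y ∈ U') (hvy : C y v = 0) :
    y ∈ (Ln K v : Submodule F V) := by
  by_contra hyn
  have hk := S.hk
  have hinv : ∀ d c, C d v = 0 → c + τ c + C d d = 0 → C y d • v ∈ U' → ∀ z ∈ U', rho C v d c z ∈ U' := by
    intro d c hvd hc hd z hz
    obtain ⟨m, hm, hmz⟩ := S.kr hv hvd hc
    rw [← hmz]
    refine grow hmax hU' hfr hm ?_ hy hyn ?_ z hz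
    · rintro x ⟨hx, -⟩
      obtain ⟨a, rfl⟩ := mem_Ln.1 hx
      rw [hmz, rho, HC.smul_left, HC.smul_left, hv, HC.symm_zero hvd]
      simp
    · rw [hmz, rho, hvy, zero_smul, mul_zero, zero_smul, add_zero, add_zero]
      exact U'.sub_mem hy hd
  have htr : ∀ d, ∃ c, c + τ c + C d d = 0 := by
    intro d
    obtain ⟨c, hc⟩ := HC.exists_trace (-(C d d)) (by rw [map_neg, HC.self_fixed])
    exact ⟨c, by rw [hc, neg_add_cancel]⟩
  have hkey : ∀ d d', C d v = 0 → C d' v = 0 → C y d • v ∈ U' → C y d' • v ∈ U' →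
      (C u₁ v * C d d') • v ∈ U' := by
    intro d d' hvd hvd' hd hd'
    obtain ⟨c, hc⟩ := htr d
    obtain ⟨c', hc'⟩ := htr d'
    have h1 := U'.sub_mem (hinv d c hvd hc hd u₁ hu₁) hu₁
    have h2 : rho C v d c u₁ - u₁ = C u₁ v • d + (c * C u₁ v - C u₁ d) • v := by
      rw [rho, sub_smul]; abel
    rw [h2] at h1
    have hdv : C v d' = 0 := HC.symm_zero hvd'
    have h3 := U'.sub_mem h1 (hinv d' c' hvd' hc' hd' _ h1)
    have h4 : C (C u₁ v • d + (c * C u₁ v - C u₁ d) • v) v = 0 := by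
      rw [HC.add_left, HC.smul_left, HC.smul_left, hvd, hv]; simp
    have h5 : C (C u₁ v • d + (c * C u₁ v - C u₁ d) • v) d' = C u₁ v * C d d' := by
      rw [HC.add_left, HC.smul_left, HC.smul_left, hdv]; simp
    rw [rho, h4, h5] at h3
    simpa using h3
  -- a vector of the line in U'
  obtain ⟨x₀, hx₀, hx₀0⟩ : ∃ x ∈ (Ln K v ⊓ U' : Submodule F V), x ≠ 0 := by
    apply Submodule.exists_mem_ne_zero_of_ne_bot
    intro h
    rw [h, finrank_bot] at hfr
    omega
  obtain ⟨c₀, hc₀⟩ := mem_Ln.1 hx₀.1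
  have hc₀0 : c₀ ≠ 0 := by rintro rfl; rw [zero_smul] at hc₀; exact hx₀0 hc₀
  have hc₀U : c₀ • v ∈ U' := by rw [← hc₀]; exact hx₀.2
  -- the vectors d, d'
  obtain ⟨d, hvd, hyd, hdv⟩ : ∃ d, C d v = 0 ∧ C d y = 0 ∧ d ∉ Submodule.span K {v} := by
    by_contra hcon
    push Not at hcon
    have h1 : (⊤ ⊓ LinearMap.ker (HC.fl v) : Submodule K V) ⊓ LinearMap.ker (HC.fl y) ≤ Submodule.span K {v} := by
      rintro d ⟨⟨-, h1⟩, h2⟩
      exact hcon d h1 h2
    have h2 := Submodule.finrank_mono h1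
    rw [finrank_span_singleton hv0] at h2
    have h3 := HS.finrank_inf_ker (⊤ : Submodule K V) (HC.fl v)
    have h4 := HS.finrank_inf_ker (⊤ ⊓ LinearMap.ker (HC.fl v) : Submodule K V) (HC.fl y)
    rw [finrank_top] at h3
    omega
  obtain ⟨d', hvd', hdd', hd'y⟩ : ∃ d', C d' v = 0 ∧ C d d' ≠ 0 ∧ C y d' • v ∈ U' := by
    by_cases hds : d ∈ Submodule.span K {v, y}
    · obtain ⟨φ, hφ1, hφ2⟩ := exists_dual1 (K := K) (F := F) hyn
      obtain ⟨d', hd'⟩ := S.rep φ
      have hvd'' : C v d' = 0 := by rw [← hd', hφ2]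
      have hyd' : C y d' = 1 := by rw [← hd', hφ1]
      refine ⟨τ c₀ • d', by rw [HC.smul_left, HC.symm_zero hvd'', mul_zero], ?_, ?_⟩
      · obtain ⟨s, t, rfl⟩ := Submodule.mem_span_pair.1 hds
        rw [HC.smul_right, HC.inv, HC.add_left, HC.smul_left, HC.smul_left, hvd'', hyd', mul_zero, zero_add, mul_one]
        refine mul_ne_zero hc₀0 ?_
        rintro rfl
        apply hdv
        rw [zero_smul, add_zero]
        exact Submodule.smul_mem _ _ (Submodule.mem_span_singleton_self v)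
      · rw [HC.smul_right, HC.inv, hyd', mul_one]
        exact hc₀U
    · obtain ⟨φ, hφ1, hφ2⟩ := exists_dual (K := K) hds
      obtain ⟨d', hd'⟩ := S.rep φ
      refine ⟨d', ?_, ?_, ?_⟩
      · apply HC.symm_zero
        rw [← hd']
        exact hφ2 v (Submodule.subset_span (by simp))
      · rw [← hd', hφ1]
        exact one_ne_zero
      · rw [← hd', hφ2 y (Submodule.subset_span (by simp)), zero_smul]
        exact U'.zero_mem
  have hall : ∀ a : K, a • v ∈ U' := by
    intro a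
    have hne : C u₁ v * C d d' ≠ 0 := mul_ne_zero hβ hdd'
    have h1 := hkey ((a * (C u₁ v * C d d')⁻¹) • d) d' (by rw [HC.smul_left, hvd, mul_zero]) hvd' (by
      rw [HC.smul_right, HC.symm_zero hyd, mul_zero, zero_smul]
      exact U'.zero_mem) hd'y
    rw [HC.smul_left] at h1
    have h3 : C u₁ v * (a * (C u₁ v * C d d')⁻¹ * C d d') = a := by
      have : C u₁ v * (a * (C u₁ v * C d d')⁻¹ * C d d') =
        a * ((C u₁ v * C d d')⁻¹ * (C u₁ v * C d d')) := by ring
      rw [this, inv_mul_cancel₀ hne, mul_one]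
    rwa [h3] at h1
  have h1 : Ln K v ≤ U' := by
    intro x hx
    obtain ⟨a, rfl⟩ := mem_Ln.1 hx
    exact hall a
  rw [inf_eq_left.2 h1, finrank_Ln hv0] at hfr
  omega

end FU

end Cfsg.Agent.Lib.FldUH94
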