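import Mathlib
import Cfsg.Agent.Lib.FU2H94

set_option autoImplicit false
set_option linter.unusedSectionVars false
set_option linter.unusedSimpArgs false
set_option linter.unusedVariables false

/-!
Overgroups of extension field subgroups in unitary groups: orthogonal maximal pairs.
-/

namespace Cfsg.Agent.Lib.FldUH94

open Module Cfsg.Agent.Lib.UnTrans Cfsg.Agent.Lib.UnMax Cfsg.Agent.Lib.ExtFldH94
open Cfsg.Agent.Lib.SpTrans (isom mem_isom)
open Cfsg.Agent.Lib.SLBlockH94 (Dec)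
open Cfsg.Agent.Lib.FldSpH94 (exists_phi stable_line TD)

/-- two dimensional subspaces contain singular vectors -/
theorem exists_sing77 {F V : Type*} [Field F] [AddCommGroup V] [Module F V] [FiniteDimensional F V]
    {σ : F →+* F} {f : V → V → F}
    (H : HS σ f) {U : Submodule F V} (hU : 2 ≤ finrank F U) : ∃ e ∈ U, e ≠ 0 ∧ f e e = 0 := by
  obtain ⟨x, hx, hx0⟩ : ∃ x ∈ U, x ≠ 0 := Submodule.exists_mem_ne_zero_of_ne_bot (by
    rintro rfl; rw [finrank_bot] at hU; omega)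
  by_cases hxx : f x x = 0
  · exact ⟨x, hx, hx0, hxx⟩
  obtain ⟨y, hy, hyx⟩ : ∃ y ∈ U, y ∉ Submodule.span F {x} := by
    by_contra hcon
    push Not at hcon
    have := Submodule.finrank_mono (show U ≤ Submodule.span F {x} from hcon)
    rw [finrank_span_singleton hx0] at this
    omega
  obtain ⟨y', hy', hy'0, hyx'⟩ : ∃ y' ∈ U, y' ≠ 0 ∧ f y' x = 0 := by
    refine ⟨y - (f y x / f x x) • x, U.sub_mem hy (U.smul_mem _ hx), ?_, ?_⟩
    · intro h0
      apply hyx
      rw [sub_eq_zero] at h0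
      rw [h0]
      exact Submodule.smul_mem _ _ (Submodule.mem_span_singleton_self x)
    · rw [H.sub_left, H.smul_left, div_mul_cancel₀ _ hxx, sub_self]
  obtain ⟨c, hc⟩ := H.norm (-(f y' y') / f x x) (by rw [map_div₀, map_neg, H.self_fixed, H.self_fixed])
  refine ⟨y' + c • x, U.add_mem hy' (U.smul_mem _ hx), ?_, ?_⟩
  · intro h0
    have h1 : f (y' + c • x) x = 0 := by rw [h0, H.zero_left]
    rw [H.add_left, hyx', zero_add, H.smul_left] at h1
    rcases mul_eq_zero.1 h1 with h2 | h2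
    · rw [h2, zero_smul, add_zero] at h0
      exact hy'0 h0
    · exact hxx h2
  · rw [H.add_left, H.add_right, H.add_right, H.smul_left, H.smul_left, H.smul_right, H.smul_right, hyx',
      H.symm_zero hyx']
    have : c * (σ c * f x x) = -(f y' y') := by
      rw [← mul_assoc, hc, div_mul_cancel₀ _ hxx]
    rw [this]; ring

variable {F K V : Type*} [Field F] [Field K] [Algebra F K] [AddCommGroup V] [Module F V] [Module K V]
  [IsScalarTower F K V] [FiniteDimensional F K] [FiniteDimensional K V] [FiniteDimensional F V]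
  {σ : F →+* F} {τ : K →+* K} {h : V → V → F} {C : V → V → K} {Hh : HS σ h} {HC : HS τ C} {b : Dual F K}
  {M : Subgroup (V ≃ₗ[F] V)}

namespace FU

variable (S : FU Hh HC b M)
include S

/-- the perp of a hyperbolic pair -/
theorem pair_nd {v f : V} (hv : C v v = 0) (hfv : C f v = 1) (hf : C f f = 0) :
    Nd C (perp HC (Submodule.span K {v, f})) := by
  have hvf : C v f = 1 := by rw [HC.herm, hfv, map_one]
  apply nd_perp HC S.nd
  intro x hx hx0
  obtain ⟨s, t, rfl⟩ := Submodule.mem_span_pair.1 hx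
  by_cases hs : s = 0
  · refine ⟨v, Submodule.subset_span (by simp), ?_⟩
    rw [HC.add_left, HC.smul_left, HC.smul_left, hv, hfv, mul_zero, zero_add, mul_one]
    rintro rfl
    apply hx0
    rw [hs, zero_smul, zero_smul, add_zero]
  · refine ⟨f, Submodule.subset_span (by simp), ?_⟩
    rw [HC.add_left, HC.smul_left, HC.smul_left, hvf, hf, mul_zero, add_zero, mul_one]
    exact hs

theorem pair_perp_dim {v f : V} (hv : C v v = 0) (hfv : C f v = 1) (hf : C f f = 0) :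
    2 ≤ finrank K (perp HC (Submodule.span K {v, f}) : Submodule K V) := by
  have hvf : C v f = 1 := by rw [HC.herm, hfv, map_one]
  have h0 : Nd C (Submodule.span K {v, f}) := by
    intro x hx hx0
    obtain ⟨s, t, rfl⟩ := Submodule.mem_span_pair.1 hx
    by_cases hs : s = 0
    · refine ⟨v, Submodule.subset_span (by simp), ?_⟩
      rw [HC.add_left, HC.smul_left, HC.smul_left, hv, hfv, mul_zero, zero_add, mul_one]
      rintro rfl
      apply hx0
      rw [hs, zero_smul, zero_smul, add_zero]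
    · refine ⟨f, Submodule.subset_span (by simp), ?_⟩
      rw [HC.add_left, HC.smul_left, HC.smul_left, hvf, hf, mul_zero, add_zero, mul_one]
      exact hs
  have h1 := finrank_perp HC h0
  have h2 := finrank_pair_le (K := K) v f
  have h3 := S.hk
  omega

/-- opposite maximal pairs lie in a hyperbolic plane -/
theorem inL77 {w : ℕ} (hw0 : 0 < w) (hmax : Mx C M w) {v : V} (hv0 : v ≠ 0) (hv : C v v = 0)
    {U' : Submodule F V} (hU' : Mem C M U') (hfr : finrank F (Ln K v ⊓ U' : Submodule F V) = w) {u₁ : V}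
    (hu₁ : u₁ ∈ U') (hβ : C u₁ v ≠ 0) {f : V} (hf : C f f = 0) (hfv : C f v = 1)
    (hPu : ∀ p, C p v = 0 → C p f = 0 → C u₁ p = 0) {y : V} (hy : y ∈ U') {p : V}
    (hvp : C p v = 0) (hfp : C p f = 0) : C y p = 0 := by
  have hu₁U : u₁ ∉ (Ln K v : Submodule F V) := by
    intro h
    obtain ⟨c, rfl⟩ := mem_Ln.1 h
    apply hβ
    rw [HC.smul_left, hv, mul_zero]
  -- singular vectors first
  have hsing : ∀ p, C p v = 0 → C p f = 0 → C p p = 0 → C y p = 0 := by
    intro p hvp hfp hpp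
    by_contra hyp
    have hp0 : p ≠ 0 := by rintro rfl; exact hyp (HC.zero_right y)
    have hall : ∀ x : K, x • p ∈ U' := by
      refine S.tr0_span hyp fun c hc => ?_
      obtain ⟨m, hm, hmz⟩ := S.kt hpp hc
      have hmfix : ∀ z, C z p = 0 → m z = z := by
        intro z hz
        rw [hmz, hz, mul_zero, zero_smul, add_zero]
      have h1 : m y ∈ U' := by
        refine grow hmax hU' hfr hm ?_ hu₁ hu₁U ?_ y hy
        · rintro x ⟨hx, -⟩
          obtain ⟨a, rfl⟩ := mem_Ln.1 hx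
          apply hmfix
          rw [HC.smul_left, HC.symm_zero hvp, mul_zero]
        · rw [hmfix u₁ (hPu p hvp hfp)]
          exact hu₁
      have h2 := U'.sub_mem h1 hy
      rwa [hmz, add_sub_cancel_left] at h2
    have hle : (Ln K p : Submodule F V) ≤ U' := by
      intro x hx
      obtain ⟨a, rfl⟩ := mem_Ln.1 hx
      exact hall a
    have heq : (Ln K p : Submodule F V) = U' :=
      Submodule.eq_of_le_of_finrank_eq hle (by rw [finrank_Ln hp0, hU'.finrank_eq])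
    rw [← heq] at hu₁
    obtain ⟨a, rfl⟩ := mem_Ln.1 hu₁
    apply hβ
    rw [HC.smul_left, hvp, mul_zero]
  obtain ⟨P, hP⟩ : ∃ P, P = perp HC (Submodule.span K {v, f}) := ⟨_, rfl⟩
  have hPm : ∀ x, x ∈ P ↔ C x v = 0 ∧ C x f = 0 := by
    intro x
    rw [hP, mem_perp]
    constructor
    · intro hx
      exact ⟨hx v (Submodule.subset_span (by simp)), hx f (Submodule.subset_span (by simp))⟩
    · rintro ⟨h1, h2⟩ z hz
      obtain ⟨s, t, rfl⟩ := Submodule.mem_span_pair.1 hz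
      rw [HC.add_right, HC.smul_right, HC.smul_right, h1, h2, mul_zero, mul_zero, add_zero]
  have hPn : Nd C P := by rw [hP]; exact S.pair_nd hv hfv hf
  have hPr : 2 ≤ finrank K P := by rw [hP]; exact S.pair_perp_dim hv hfv hf
  obtain ⟨z, hz, hz0, hzz⟩ := exists_sing77 HC hPr
  obtain ⟨y', hy', hzy'⟩ := hPn z hz hz0
  have hpP : p ∈ P := (hPm p).2 ⟨hvp, hfp⟩
  have h1 := HC.mem_span_iso hz hzz hy' hzy' hpP
  have h2 : Submodule.span K {x | x ∈ P ∧ C x x = 0} ≤ LinearMap.ker (HC.fl y) := by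
    rw [Submodule.span_le]
    rintro x ⟨hx, hxx⟩
    show C x y = 0
    exact HC.symm_zero (hsing x ((hPm x).1 hx).1 ((hPm x).1 hx).2 hxx)
  have h3 : C p y = 0 := h2 h1
  exact HC.symm_zero h3

/-- an orthogonal maximal pair -/
theorem orth_pair (hdich : ∀ {w : ℕ}, 0 < w → w < finrank F K → Mx C M w → ∀ {v : V}, v ≠ 0 → C v v = 0 →
      ∀ {U' : Submodule F V}, Mem C M U' → finrank F (Ln K v ⊓ U' : Submodule F V) = w → ∀ {u₁ : V},
      u₁ ∈ U' → C u₁ v ≠ 0 → ∀ {y : V}, y ∈ U' → C y v = 0 → y ∈ (Ln K v : Submodule F V))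
    {w : ℕ} (hw0 : 0 < w) (hwr : w < finrank F K) (hmax : Mx C M w) {v : V} (hv0 : v ≠ 0) (hv : C v v = 0)
    {U' : Submodule F V} (hU' : Mem C M U') (hfr : finrank F (Ln K v ⊓ U' : Submodule F V) = w) :
    ∃ v, v ≠ 0 ∧ C v v = 0 ∧ ∃ U' : Submodule F V, Mem C M U' ∧ finrank F (Ln K v ⊓ U' : Submodule F V) = w ∧
      ∀ y ∈ U', C y v = 0 := by
  by_cases hA : ∀ y ∈ U', C y v = 0
  · exact ⟨v, hv0, hv, U', hU', hfr, hA⟩
  push Not at hA
  obtain ⟨u₁, hu₁, hβ⟩ := hA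
  obtain ⟨β, hβe⟩ : ∃ β, β = C u₁ v := ⟨_, rfl⟩
  rw [← hβe] at hβ
  have hτβ : τ β ≠ 0 := HC.sigma_ne hβ
  have hvu₁ : C v u₁ = τ β := by rw [HC.herm, hβe]
  -- the hyperbolic pair
  obtain ⟨x, hxe⟩ : ∃ x, x = β⁻¹ • u₁ := ⟨_, rfl⟩
  have hxv : C x v = 1 := by rw [hxe, HC.smul_left, ← hβe, inv_mul_cancel₀ hβ]
  have hvx : C v x = 1 := by rw [HC.herm, hxv, map_one]
  obtain ⟨s, hs⟩ := HC.exists_trace (-(C x x)) (by rw [map_neg, HC.self_fixed])
  obtain ⟨f, hfe⟩ : ∃ f, f = x + s • v := ⟨_, rfl⟩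
  have hfv : C f v = 1 := by rw [hfe, HC.add_left, HC.smul_left, hxv, hv, mul_zero, add_zero]
  have hf : C f f = 0 := by
    rw [hfe, HC.add_left, HC.add_right, HC.add_right, HC.smul_left, HC.smul_left, HC.smul_right, HC.smul_right,
      hxv, hvx, hv, mul_zero, mul_zero, mul_one, mul_one, add_zero]
    have h1 : C x x = -(s + τ s) := by rw [hs, neg_neg]
    rw [h1]; ring
  have hvf : C v f = 1 := by rw [HC.herm, hfv, map_one]
  have hu₁f : u₁ = β • (f - s • v) := by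
    rw [hfe, add_sub_cancel_right, hxe, smul_smul, mul_inv_cancel₀ hβ, one_smul]
  have hPu : ∀ p, C p v = 0 → C p f = 0 → C u₁ p = 0 := by
    intro p h1 h2
    rw [hu₁f, HC.smul_left, HC.sub_left, HC.smul_left, HC.symm_zero h1, HC.symm_zero h2, mul_zero, sub_zero,
      mul_zero]
  have hL : ∀ {y : V}, y ∈ U' → ∀ {p : V}, C p v = 0 → C p f = 0 → C y p = 0 := by
    intro y hy p hvp hfp
    exact S.inL77 hw0 hmax hv0 hv hU' hfr hu₁ (by rw [← hβe]; exact hβ) hf hfv hPu hy hvp hfp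
  obtain ⟨x₀, hx₀, hx₀0⟩ : ∃ x ∈ (Ln K v ⊓ U' : Submodule F V), x ≠ 0 := by
    apply Submodule.exists_mem_ne_zero_of_ne_bot
    intro h
    rw [h, finrank_bot] at hfr
    omega
  obtain ⟨c₀, hc₀⟩ := mem_Ln.1 hx₀.1
  have hc₀U : c₀ • v ∈ U' := by rw [← hc₀]; exact hx₀.2
  -- the Eichler element
  obtain ⟨c, hce⟩ : ∃ c, c = τ c₀ * (τ β)⁻¹ := ⟨_, rfl⟩
  have hPn := S.pair_nd hv hfv hf
  have hPr := S.pair_perp_dim hv hfv hf
  obtain ⟨z₀, hz₀, hz₀0, hz₀z⟩ := exists_sing77 HC hPr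
  obtain ⟨u, hu, hz₀u⟩ := hPn z₀ hz₀ hz₀0
  obtain ⟨a, ha⟩ := HC.exists_add_norm hz₀z hz₀u (c := -(c + τ c)) (by
    rw [map_neg, map_add, HC.inv]; ring)
  obtain ⟨d, hde⟩ : ∃ d, d = u + a • z₀ := ⟨_, rfl⟩
  rw [← hde] at ha
  have hdP : d ∈ perp HC (Submodule.span K {v, f}) := by
    rw [hde]; exact Submodule.add_mem _ hu (Submodule.smul_mem _ _ hz₀)
  have hdv : C d v = 0 := hdP v (Submodule.subset_span (by simp))
  have hdf : C d f = 0 := hdP f (Submodule.subset_span (by simp))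
  have hd0 : d ≠ 0 := by
    intro h0
    apply hz₀u
    have h1 : C z₀ d = C z₀ u := by rw [hde, HC.add_right, HC.smul_right, hz₀z, mul_zero, add_zero]
    rw [← h1, h0, HC.zero_right]
  obtain ⟨m, hm, hmz⟩ := S.kr (e := v) (u := d) (c := c) hv hdv (by rw [ha]; ring)
  have hmU : ∀ z ∈ U', m z = z + C z v • d + (c * C z v) • v := by
    intro z hz
    rw [hmz, rho, hL hz hdv hdf, zero_smul, sub_zero]
  have hmv : ∀ a : K, m (a • v) = a • v := fun a => by
    rw [hmz, rho, HC.smul_left, hv, HC.smul_left, HC.symm_zero hdv]; simp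
  obtain ⟨U'', hU''⟩ : ∃ U'' : Submodule F V, U'' = U'.map (m : V →ₗ[F] V) := ⟨_, rfl⟩
  have hU''M : Mem C M U'' := by rw [hU'']; exact hU'.map hm
  have horth : ∀ z ∈ U'', h z u₁ = 0 := by
    intro z hz
    rw [hU''] at hz
    obtain ⟨z, hz, rfl⟩ := hz
    show h (m z) u₁ = 0
    rw [hmU z hz, ← S.bC, HC.add_left, HC.add_left, HC.smul_left, HC.smul_left, HC.symm_zero (hPu d hdv hdf), hvu₁,
      mul_zero, add_zero, map_add, S.bC, S.ts hU' hz hu₁, zero_add]
    have e1 : c * C z v * τ β = τ c₀ * C z v := by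
      rw [hce]; field_simp
    rw [e1, S.bh', S.ts hU' hz hc₀U]
  have hmu : m u₁ ∉ U' := by
    intro h
    have h1 := U'.sub_mem h hu₁
    have h2 : m u₁ - u₁ = β • d + (c * β) • v := by
      rw [hmU u₁ hu₁, ← hβe]; abel
    rw [h2] at h1
    have h3 := hdich hw0 hwr hmax hv0 hv hU' hfr hu₁ (by rw [← hβe]; exact hβ) h1 (by
      rw [HC.add_left, HC.smul_left, HC.smul_left, hdv, hv, mul_zero, mul_zero, add_zero])
    obtain ⟨a', ha'⟩ := mem_Ln.1 h3
    have h4 : β • d = (a' - c * β) • v := by rw [sub_smul, ← ha']; abel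
    have h5 : C (β • d) f = C ((a' - c * β) • v) f := by rw [h4]
    rw [HC.smul_left, HC.smul_left, hdf, hvf, mul_zero, mul_one] at h5
    rw [← h5, zero_smul] at h4
    rcases smul_eq_zero.1 h4 with h6 | h6
    · exact hβ h6
    · exact hd0 h6
  have hWle : (Ln K v ⊓ U' : Submodule F V) ≤ U'' ⊓ U' := by
    rintro x ⟨hx, hx'⟩
    refine ⟨?_, hx'⟩
    obtain ⟨a', rfl⟩ := mem_Ln.1 hx
    rw [hU'']
    exact ⟨a' • v, hx', hmv a'⟩
  have hlt : finrank F (U'' ⊓ U' : Submodule F V) < finrank F K := by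
    have h1 : finrank F (U'' ⊓ U' : Submodule F V) ≤ finrank F K := by
      rw [← hU'.finrank_eq]; exact Submodule.finrank_mono inf_le_right
    refine lt_of_le_of_ne h1 fun h2 => hmu ?_
    have h3 : U'' ⊓ U' = U'' := Submodule.eq_of_le_of_finrank_eq inf_le_left (by rw [h2, hU''M.finrank_eq])
    have h4 : m u₁ ∈ U'' ⊓ U' := by rw [h3, hU'']; exact ⟨u₁, hu₁, rfl⟩
    exact h4.2
  have hfr2 : finrank F (U'' ⊓ U' : Submodule F V) = w := by
    apply le_antisymm (hmax _ _ hU''M hU' hlt)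
    rw [← hfr]; exact Submodule.finrank_mono hWle
  have hWeq : (Ln K v ⊓ U' : Submodule F V) = U'' ⊓ U' :=
    Submodule.eq_of_le_of_finrank_eq hWle (by rw [hfr, hfr2])
  obtain ⟨v₂, hv₂0, hv₂, m₂, hm₂, hU''e, U₃, hU₃, hU₃m, hfr3⟩ := norm_pair hU''M hU'
  refine ⟨v₂, hv₂0, hv₂, U₃, hU₃, by rw [hfr3, hfr2], ?_⟩
  by_contra hcon
  push Not at hcon
  obtain ⟨u₂, hu₂, hne⟩ := hcon
  have hm1 : ∀ y, m₂ (m₂⁻¹ y) = y := fun y => by rw [← LinearEquiv.mul_apply, mul_inv_cancel]; rfl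
  have h1 : m₂⁻¹ u₁ ∈ U₃ := by rw [hU₃m, hm1]; exact hu₁
  have h2 : C (m₂⁻¹ u₁) v₂ = 0 := by
    apply HC.symm_zero
    apply S.C_zero
    intro a'
    rw [← S.hMh hm₂, hm1]
    apply horth
    rw [hU''e]
    exact ⟨a' • v₂, smul_mem_Ln v₂ a', rfl⟩
  have h3 := hdich hw0 hwr hmax hv₂0 hv₂ hU₃ (by rw [hfr3, hfr2]) hu₂ hne h1 h2
  have h4 : u₁ ∈ U'' := by
    rw [hU''e]
    exact ⟨_, h3, hm1 u₁⟩
  have h5 : u₁ ∈ (Ln K v ⊓ U' : Submodule F V) := by rw [hWeq]; exact ⟨h4, hu₁⟩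
  obtain ⟨a', ha'⟩ := mem_Ln.1 h5.1
  apply hβ
  rw [hβe, ha', HC.smul_left, hv, mul_zero]

end FU

end Cfsg.Agent.Lib.FldUH94
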