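import Mathlib
import Cfsg.Agent.Lib.FU2H94

set_option autoImplicit false
set_option linter.unusedSectionVars false
set_option linter.unusedSimpArgs false
set_option linter.unusedVariables false

/-!
Overgroups of extension field subgroups in unitary groups: an element inducing a transvection on a singular line
(piece U3 of the plan of helper94; helper23).
-/

namespace Cfsg.Agent.Lib.FldUH94

open Module Cfsg.Agent.Lib.UnTrans Cfsg.Agent.Lib.UnMax Cfsg.Agent.Lib.ExtFldH94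
open Cfsg.Agent.Lib.SpTrans (isom mem_isom)
open Cfsg.Agent.Lib.SLBlockH94 (Dec)
open Cfsg.Agent.Lib.FldSpH94 (exists_phi stable_line TD)

variable {F K V : Type*} [Field F] [Field K] [Algebra F K] [AddCommGroup V] [Module F V] [Module K V]
  [IsScalarTower F K V] [FiniteDimensional F K] [FiniteDimensional K V] [FiniteDimensional F V]
  {σ : F →+* F} {τ : K →+* K} {h : V → V → F} {C : V → V → K} {Hh : HS σ h} {HC : HS τ C} {b : Dual F K}
  {M : Subgroup (V ≃ₗ[F] V)}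

namespace FU

variable (S : FU Hh HC b M)
include S

omit S in
theorem C_comm0 (HC : HS τ C) {x y : V} (hxy : C x y = 0) : C y x = 0 := by
  rw [HC.herm, hxy, map_zero]

/-- elements acting as `z ↦ z + s (C z y) e` on the orthogonal space of `e` -/
theorem kr' {e y : V} (he : C e e = 0) (hy : C y e = 0) (s : K) :
    ∃ m ∈ M, ∀ z, C z e = 0 → m z = z + (s * C z y) • e := by
  have hu : C (-(τ s) • y) e = 0 := by rw [HC.smul_left, hy, mul_zero]
  obtain ⟨c, hc⟩ := HC.exists_trace (-(C (-(τ s) • y) (-(τ s) • y))) (by rw [map_neg, ← HC.herm])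
  obtain ⟨m, hm, hmz⟩ := S.kr he hu (c := c) (by rw [hc]; ring)
  refine ⟨m, hm, fun z hz => ?_⟩
  rw [hmz, rho, hz, HC.smul_right, map_neg, HC.inv]
  module

theorem exists_TD {w : ℕ} (hw0 : 0 < w) (hwr : w < finrank F K) (hmax : Mx C M w) {v : V} (hv0 : v ≠ 0)
    (hv : C v v = 0) {U' : Submodule F V} (hU' : Mem C M U') (hfr : finrank F (Ln K v ⊓ U' : Submodule F V) = w)
    (horth : ∀ y ∈ U', C y v = 0) : ∃ (w₀ u₁ : V) (ω : Dual F V), C w₀ w₀ = 0 ∧ TD K M w₀ u₁ ω := by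
  have hr := S.hr
  have hgr := fun {m : V ≃ₗ[F] V} => grow hmax hU' (U := Ln K v) hfr (m := m)
  have hU'r : finrank F U' = finrank F K := hU'.finrank_eq
  obtain ⟨g, hg, v', hv'0, hv', hU'e⟩ := hU'
  have hgU' : ∀ y, y ∈ U' ↔ g.symm y ∈ (Ln K v' : Submodule F V) := by
    intro y
    rw [hU'e]
    constructor
    · rintro ⟨x, hx, rfl⟩
      show g.symm (g x) ∈ _
      rw [LinearEquiv.symm_apply_apply]; exact hx
    · intro h
      exact ⟨_, h, LinearEquiv.apply_symm_apply g y⟩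
  obtain ⟨w₁, hw₁, hw₁0⟩ : ∃ x ∈ (Ln K v : Submodule F V) ⊓ U', x ≠ 0 := by
    obtain ⟨x, hx, hx0⟩ := Dec.exists_out (U := (Ln K v : Submodule F V) ⊓ U') (W := (⊥ : Submodule F V)) (by
      rw [finrank_bot, hfr]; exact hw0)
    exact ⟨x, hx, fun h => hx0 (by rw [h]; exact Submodule.zero_mem _)⟩
  have hw1 : w + 1 = finrank F K := by
    by_contra hne
    obtain ⟨u₁, hu₁, hu₁W⟩ : ∃ x ∈ U', x ∉ (Ln K v : Submodule F V) ⊓ U' := Dec.exists_out (by omega)
    have hu₁U : u₁ ∉ (Ln K v : Submodule F V) := fun h => hu₁W ⟨h, hu₁⟩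
    obtain ⟨u₂, hu₂, hu₂W⟩ : ∃ x ∈ U', x ∉ ((Ln K v : Submodule F V) ⊓ U') ⊔ Submodule.span F {u₁} := by
      apply Dec.exists_out
      have h1 := Submodule.finrank_add_le_finrank_add_finrank ((Ln K v : Submodule F V) ⊓ U')
        (Submodule.span F {u₁})
      have h2 : finrank F (Submodule.span F {u₁}) ≤ 1 := by
        have := finrank_span_le_card (R := F) ({u₁} : Set V)
        simpa using this
      omega
    obtain ⟨φ, h1, h2, h3⟩ := exists_phi hr hu₁ hu₁U hu₂ hu₂W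
    obtain ⟨y, hy⟩ := S.rep φ
    have hyv : C y v = 0 := C_comm0 HC (by rw [← hy, h1])
    refine stable_line hr hv0 (U' := U') (by rw [hfr]; exact hw0) (by rw [hfr]; exact hwr) h3 (fun c hc => ?_)
    obtain ⟨m, hm, hmz⟩ := S.kr' hv hyv c
    have h4 : ∀ z ∈ U', m z = z + (c * φ z) • v := fun z hz => by rw [hmz z (horth z hz), hy]
    have h5 := hgr hm (by
      intro z hz
      rw [h4 z hz.2]
      obtain ⟨d, rfl⟩ := mem_Ln.1 hz.1
      rw [map_smul, h1, smul_zero, mul_zero, zero_smul, add_zero]) hu₁ hu₁U (by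
      rw [h4 u₁ hu₁, h2, mul_one]
      exact Submodule.add_mem _ hu₁ hc) u₂ hu₂
    rw [h4 u₂ hu₂] at h5
    have h6 := Submodule.sub_mem _ h5 hu₂
    rw [add_sub_cancel_left] at h6
    rw [mul_comm]; exact h6
  have hvr : finrank F (Ln K v : Submodule F V) = finrank F K := finrank_Ln hv0
  have hr2 := hr.two_le
  obtain ⟨u₁, hu₁, hu₁W⟩ : ∃ x ∈ (Ln K v : Submodule F V), x ∉ (Ln K v : Submodule F V) ⊓ U' :=
    Dec.exists_out (by omega)
  have hgu₁ : g.symm u₁ ∉ (Ln K v' : Submodule F V) := fun h => hu₁W ⟨hu₁, (hgU' _).2 h⟩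
  obtain ⟨φ, hφ1, hφ0⟩ := exists_dual1 hgu₁
  obtain ⟨y, hy⟩ := S.rep φ
  obtain ⟨v'', hv''⟩ : ∃ v'', v'' = g.symm w₁ := ⟨_, rfl⟩
  obtain ⟨d, hd⟩ := mem_Ln.1 ((hgU' w₁).1 hw₁.2)
  rw [← hv''] at hd
  have hv''0 : C v'' v'' = 0 := by rw [hd, HC.smul_left, HC.smul_right, hv', mul_zero, mul_zero]
  have hyv'' : C y v'' = 0 := C_comm0 HC (by rw [← hy, hd, map_smul, hφ0, smul_zero])
  have hperp : C (g.symm u₁) v'' = 0 := by
    apply C_comm0 HC
    apply S.C_zero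
    intro a
    have h1 : g (a • v'') ∈ U' := by
      rw [hgU', LinearEquiv.symm_apply_apply, hd]
      exact Ln_smul _ (smul_mem_Ln _ _)
    rw [← S.hMh hg, LinearEquiv.apply_symm_apply]
    obtain ⟨e, rfl⟩ := mem_Ln.1 hu₁
    rw [← S.bh', horth _ h1, mul_zero, map_zero]
  have hLn : (Ln K w₁ : Submodule F V) = Ln K v := Ln_eq hw₁.1 hw₁0
  obtain ⟨ω, hω1, hω0⟩ := Cfsg.Agent.Lib.ExtSLH94.exists_fun hu₁W
  have hw₁w : C w₁ w₁ = 0 := by
    obtain ⟨e, rfl⟩ := mem_Ln.1 hw₁.1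
    rw [HC.smul_left, HC.smul_right, hv, mul_zero, mul_zero]
  refine ⟨w₁, u₁, ω, hw₁w, ⟨hw₁0, by rw [hLn]; exact hu₁, hω0 _ hw₁, hω1, fun t => ?_⟩⟩
  obtain ⟨m, hm, hmz⟩ := S.kr' hv''0 hyv'' (algebraMap F K t)
  have hm1 : ∀ z ∈ (Ln K v' : Submodule F V), m z = z := by
    intro z hz
    obtain ⟨e, rfl⟩ := mem_Ln.1 hz
    have e1 : C v' v'' = 0 := by rw [hd, HC.smul_right, hv', mul_zero]
    rw [hmz _ (by rw [HC.smul_left, e1, mul_zero]), ← hy, map_smul, hφ0, smul_zero, mul_zero, zero_smul, add_zero]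
  have hm2 : m (g.symm u₁) = g.symm u₁ + t • v'' := by
    rw [hmz _ hperp, ← hy, hφ1, mul_one, algebraMap_smul]
  refine ⟨g * m * g⁻¹, mul_mem (mul_mem hg hm) (inv_mem hg), fun u hu => ?_⟩
  rw [hLn] at hu
  have h1 := Cfsg.Agent.Lib.ExtSLH94.hyper (W := (Ln K v : Submodule F V) ⊓ U') inf_le_left (by omega) hu₁ hu₁W hω1 hω0 hu
  have h2 : ∀ z, (g * m * g⁻¹ : V ≃ₗ[F] V) z = g (m (g.symm z)) := fun z => rfl
  have h3 : u = (u - ω u • u₁) + ω u • u₁ := by abel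
  conv_lhs => rw [h3]
  rw [map_add, LinearEquiv.map_smul, h2, h2, hm1 _ ((hgU' _).1 h1.2), hm2, map_add, LinearEquiv.apply_symm_apply,
    LinearEquiv.apply_symm_apply, LinearEquiv.map_smul, hv'', LinearEquiv.apply_symm_apply]
  module

end FU

end Cfsg.Agent.Lib.FldUH94
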