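import Mathlib
import Cfsg.Agent.Lib.FU2H94

set_option autoImplicit false
set_option linter.unusedSectionVars false
set_option linter.unusedSimpArgs false
set_option linter.unusedVariables false

/-!
Overgroups of extension field subgroups in unitary groups: transvections over the small field
(piece U4 of the plan of helper94; helper23).
-/

namespace Cfsg.Agent.Lib.FldUH94

open Module Cfsg.Agent.Lib.UnTrans Cfsg.Agent.Lib.UnMax Cfsg.Agent.Lib.ExtFldH94
open Cfsg.Agent.Lib.SpTrans (isom mem_isom)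
open Cfsg.Agent.Lib.SLBlockH94 (Dec)
open Cfsg.Agent.Lib.FldSpH94 (exists_phi stable_line TD)

variable {F K V : Type*} [Field F] [Field K] [Algebra F K] [AddCommGroup V] [Module F V] [Module K V]
  [IsScalarTower F K V] [FiniteDimensional F K] [FiniteDimensional K V] [FiniteDimensional F V]
  {σ : F →+* F} {τ : K →+* K} {h : V → V → F} {C : V → V → K} {Hh : HS σ h} {HC : HS τ C} {b : Dual F K}
  {M : Subgroup (V ≃ₗ[F] V)}

/-- the elements of the centre of the unipotent radical contained in the group -/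
def BEu (C : V → V → K) (M : Subgroup (V ≃ₗ[F] V)) (w₀ : V) (H : K → K) : Prop :=
  ∃ m ∈ M, ∀ z, m z = z + H (C z w₀) • w₀

namespace FU

variable (S : FU Hh HC b M)
include S

theorem beu_inv {w₀ : V} (hw₀ : C w₀ w₀ = 0) {H : K → K} {m : V ≃ₗ[F] V} (hm : ∀ z, m z = z + H (C z w₀) • w₀) (z : V) :
    m⁻¹ z = z - H (C z w₀) • w₀ := by
  apply m.injective
  rw [← LinearEquiv.mul_apply, mul_inv_cancel, hm]
  have : C (z - H (C z w₀) • w₀) w₀ = C z w₀ := by
    rw [sub_eq_add_neg, ← neg_smul, HC.add_left, HC.smul_left, hw₀, mul_zero, add_zero]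
  rw [this, sub_add_cancel]; rfl

theorem beu_sub {w₀ : V} (hw₀ : C w₀ w₀ = 0) {H H' : K → K} (h1 : BEu C M w₀ H) (h2 : BEu C M w₀ H') {H'' : K → K}
    (hh : ∀ t, H'' t = H t - H' t) : BEu C M w₀ H'' := by
  obtain ⟨m, hm, hmz⟩ := h1
  obtain ⟨m', hm', hmz'⟩ := h2
  refine ⟨m * m'⁻¹, mul_mem hm (inv_mem hm'), fun z => ?_⟩
  rw [LinearEquiv.mul_apply, S.beu_inv hw₀ hmz', hmz]
  have : C (z - H' (C z w₀) • w₀) w₀ = C z w₀ := by
    rw [sub_eq_add_neg, ← neg_smul, HC.add_left, HC.smul_left, hw₀, mul_zero, add_zero]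
  rw [this, hh]
  module

section TDsec
variable {w₀ u₁ : V} {ω : Dual F V} (hw₀ : C w₀ w₀ = 0) (T : TD K M w₀ u₁ ω)
include T

theorem exists_nuu : ∃ ν : K, ν ≠ 0 ∧ b ν = 0 ∧ ∀ a : K, ω (a • w₀) = b (a * ν) := by
  obtain ⟨ψ, hψ⟩ := exists_lift (K := K) (V := K) S.hb (ω ∘ₗ ((LinearMap.toSpanSingleton K V w₀).restrictScalars F))
  have h1 : ∀ a : K, ω (a • w₀) = b (a * ψ 1) := by
    intro a
    have h2 : ψ a = a * ψ 1 := by
      have := ψ.map_smul a 1
      rwa [smul_eq_mul, mul_one, smul_eq_mul] at this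
    rw [← h2, ← hψ]; rfl
  refine ⟨ψ 1, ?_, ?_, h1⟩
  · intro h0
    obtain ⟨a, ha⟩ := mem_Ln.1 T.u1
    have h2 := T.ωu
    rw [ha, h1, h0, mul_zero, map_zero] at h2
    exact zero_ne_one h2
  · have := h1 1
    rw [one_smul, T.ωw, one_mul] at this
    exact this.symm

include hw₀

/-- conjugation by the element inducing a transvection -/
theorem beu_conj {ν : K} (hν : ∀ a : K, ω (a • w₀) = b (a * ν)) {H : K → K} (h1 : BEu C M w₀ H) (y : F)
    {H' : K → K}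
    (hh' : ∀ t, H' t = H (t + (σ y * b t) • τ ν) + (y * b (H (t + (σ y * b t) • τ ν) * ν)) • (1 : K)) :
    BEu C M w₀ H' := by
  obtain ⟨x, hx, hxz⟩ := h1
  obtain ⟨m, hm, hmu⟩ := T.mem y
  refine ⟨m * x * m⁻¹, mul_mem (mul_mem hm hx) (inv_mem hm), fun z => ?_⟩
  have h1 : C (m⁻¹ z) w₀ = C z w₀ + (σ y * b (C z w₀)) • τ ν := by
    rw [← sub_eq_zero]
    apply S.bzero
    intro a'
    obtain ⟨a, rfl⟩ : ∃ a, a' = τ a := ⟨τ a', (HC.inv a').symm⟩
    have e1 : m (m⁻¹ z) = z := by rw [← LinearEquiv.mul_apply, mul_inv_cancel]; rfl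
    have e2 : b (τ a * C (m⁻¹ z) w₀) = h z (a • w₀) + (σ y * b (τ a * τ ν)) * h z w₀ := by
      rw [S.bh', ← S.hMh hm, e1, hmu _ (smul_mem_Ln w₀ a), hν, Hh.add_right, Hh.smul_right, map_mul, ← S.bτ, map_mul]
    have e3 : b (τ a * (C z w₀ + (σ y * b (C z w₀)) • τ ν)) = h z (a • w₀) + (σ y * b (τ a * τ ν)) * h z w₀ := by
      rw [mul_add, map_add, S.bh', mul_smul_comm, b.map_smul, smul_eq_mul, S.bC]
      ring
    rw [mul_sub, map_sub, e2, e3, sub_self]
  rw [LinearEquiv.mul_apply, LinearEquiv.mul_apply, hxz, map_add, h1, hmu _ (smul_mem_Ln w₀ _), hν, hh']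
  have e1 : m (m⁻¹ z) = z := by rw [← LinearEquiv.mul_apply, mul_inv_cancel]; rfl
  rw [e1, add_smul, smul_assoc, one_smul]

/-- the basic commutators -/
theorem beu_D {ν : K} (hν : ∀ a : K, ω (a • w₀) = b (a * ν)) (y : F) {a : K} (ha : a + τ a = 0) {H : K → K}
    (hh : ∀ t, H t = (σ y * b t) • (a * τ ν) + (y * b (a * ν * t)) • (1 : K) +
      (y * σ y * b t * b (a * ν * τ ν)) • (1 : K)) :
    BEu C M w₀ H := by
  have H1 : BEu C M w₀ (fun t => a * t) := by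
    obtain ⟨m, hm, hmz⟩ := S.kt hw₀ ha
    exact ⟨m, hm, hmz⟩
  have H2 := S.beu_conj hw₀ T hν H1 y (H' := fun t => a * t + H t) (fun t => by
    simp only [hh, mul_add, add_mul, mul_smul_comm, smul_mul_assoc, map_add, map_smul, smul_eq_mul]
    have e1 : a * t * ν = a * ν * t := by ring
    have e2 : a * τ ν * ν = a * ν * τ ν := by ring
    rw [e1, e2]
    module)
  exact S.beu_sub hw₀ H2 H1 (fun t => by simp only [add_sub_cancel_left])

theorem w_cen : w₀ ∈ cen Hh M := by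
  obtain ⟨ν, hν0, hbν, hν⟩ := S.exists_nuu T
  have hh0 : h w₀ w₀ = 0 := by rw [← S.bC, hw₀, map_zero]
  refine ⟨hh0, fun hz μ hμ => ?_⟩
  obtain ⟨t, ht⟩ := Hh.exists_trace 1 (map_one σ)
  -- an element of value one fixed by the involution
  obtain ⟨k₀, hk₀, hbk₀⟩ : ∃ k₀ : K, τ k₀ = k₀ ∧ b k₀ = 1 := by
    obtain ⟨α, hα⟩ := Hh.exists_trace 1 (map_one σ)
    obtain ⟨e, he⟩ : ∃ e : K, b e ≠ 0 := by
      by_contra hcon
      push Not at hcon
      exact S.hb (LinearMap.ext hcon)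
    obtain ⟨x, hx⟩ : ∃ x : K, b x = α := ⟨(α / b e) • e, by rw [map_smul, smul_eq_mul, div_mul_cancel₀ _ he]⟩
    refine ⟨x + τ x, by rw [map_add, HC.inv, add_comm], by rw [map_add, S.bτ, hx, hα]⟩
  have hτν : τ ν ≠ 0 := by
    intro h0
    apply hν0
    rw [← HC.inv ν, h0, map_zero]
  obtain ⟨a, ha⟩ : ∃ a : K, a = algebraMap F K μ * k₀ * (ν * τ ν)⁻¹ := ⟨_, rfl⟩
  have hσμ : σ μ = -μ := by
    rw [eq_neg_iff_add_eq_zero, add_comm]; exact hμ
  have haτ : a + τ a = 0 := by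
    rw [ha, map_mul, map_mul, map_inv₀, map_mul, HC.inv, S.τF, hσμ, hk₀, map_neg, mul_comm (τ ν) ν]
    ring
  have hab : b (a * ν * τ ν) = μ := by
    have e1 : a * ν * τ ν = μ • k₀ := by
      rw [ha, Algebra.smul_def]
      field_simp
    rw [e1, map_smul, smul_eq_mul, hbk₀, mul_one]
  have D1 := S.beu_D hw₀ T hν (t + 1) haτ (fun t' => rfl)
  have D2 := S.beu_D hw₀ T hν t haτ (fun t' => rfl)
  have D3 := S.beu_D hw₀ T hν 1 haτ (fun t' => rfl)
  obtain ⟨m, hm, hmz⟩ := S.beu_sub hw₀ (S.beu_sub hw₀ D1 D2 (fun t' => rfl)) D3 (H'' := fun s => (μ * b s) • (1 : K))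
    (fun s => by
      simp only [hab, map_add, map_one]
      have e1 : (μ * b s) • (1 : K) = ((t + σ t) * (μ * b s)) • (1 : K) := by rw [ht, one_mul]
      rw [e1]
      module)
  have hmeq : tv Hh w₀ hz μ hμ = m := by
    apply LinearEquiv.ext
    intro z
    rw [tv_apply, hmz]
    show z + (μ * h z w₀) • w₀ = z + ((μ * b (C z w₀)) • (1 : K)) • w₀
    rw [S.bC, smul_assoc, one_smul]
  rw [hmeq]
  exact hm

end TDsec

theorem cen_of_TD {w₀ u₁ : V} {ω : Dual F V} (hw₀ : C w₀ w₀ = 0) (T : TD K M w₀ u₁ ω) :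
    ∀ v, C v v = 0 → v ∈ cen Hh M := by
  intro v hv
  by_cases hv0 : v = 0
  · rw [hv0]; exact cen_zero
  obtain ⟨n, hn, hnv, -, -⟩ := S.move T.w0 hv0 (by rw [hw₀, hv])
  rw [← hnv]
  exact cen_map S.hM (S.w_cen hw₀ T) hn

end FU

end Cfsg.Agent.Lib.FldUH94
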