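import Mathlib
import Cfsg.Agent.Lib.FU1H94
import Cfsg.Agent.Lib.TenUAll

set_option autoImplicit false
set_option linter.unusedSectionVars false
set_option linter.unusedSimpArgs false
set_option linter.unusedVariables false

/-!
Overgroups of extension field subgroups in unitary groups: if all transvections with K-singular centres are in `M`
then `M` contains all transvections (piece U5 of S5864-PLAN, helper1).
-/

namespace Cfsg.Agent.Lib.FldUH94

open Module Cfsg.Agent.Lib.UnTrans Cfsg.Agent.Lib.UnMax Cfsg.Agent.Lib.ExtFldH94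
open Cfsg.Agent.Lib.SpTrans (isom mem_isom)

variable {F K V : Type*} [Field F] [Field K] [Algebra F K] [AddCommGroup V] [Module F V] [Module K V]
  [IsScalarTower F K V] [FiniteDimensional F K] [FiniteDimensional K V] [FiniteDimensional F V]
  {σ : F →+* F} {τ : K →+* K} {h : V → V → F} {C : V → V → K} {Hh : HS σ h} {HC : HS τ C} {b : Dual F K}
  {M : Subgroup (V ≃ₗ[F] V)}

namespace FU

variable (S : FU Hh HC b M)
include S

theorem h0 {x y : V} (hxy : C x y = 0) : h x y = 0 := by rw [← S.bC, hxy, map_zero]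

theorem exists_hypK {e : V} (he0 : e ≠ 0) (he : C e e = 0) : ∃ f, C f f = 0 ∧ C f e = 1 := by
  obtain ⟨y, -, hy⟩ := S.nd e trivial he0
  have hye : C y e ≠ 0 := HC.symm_ne hy
  set y' := (C y e)⁻¹ • y with hy'
  have h1 : C y' e = 1 := by rw [hy', HC.smul_left, inv_mul_cancel₀ hye]
  clear_value y'
  have h2 : C e y' ≠ 0 := HC.symm_ne (by rw [h1]; exact one_ne_zero)
  obtain ⟨a, ha⟩ := HC.exists_add_norm (z := e) (u := y') he h2 (map_zero τ)
  exact ⟨y' + a • e, ha, by rw [HC.add_left, HC.smul_left, he, h1, mul_zero, add_zero]⟩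

theorem exists_hyp2K {e f : V} (he : C e e = 0) (hf : C f f = 0) (hfe : C f e = 1) :
    ∃ d d' : V, C d d = 0 ∧ C d' d' = 0 ∧ C d' d = 1 ∧ C d e = 0 ∧ C d f = 0 ∧ C d' e = 0 ∧ C d' f = 0 := by
  have hef : C e f = 1 := by rw [HC.herm, hfe, map_one]
  have h1 := HS.finrank_inf_ker (⊤ : Submodule K V) (HC.fl e)
  have h2 := HS.finrank_inf_ker ((⊤ : Submodule K V) ⊓ LinearMap.ker (HC.fl e)) (HC.fl f)
  rw [finrank_top] at h1
  have h5 := S.hk
  obtain ⟨d, hd, hd0, hdd⟩ := TenUH94.exists_sing HC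
    (U := ((⊤ : Submodule K V) ⊓ LinearMap.ker (HC.fl e)) ⊓ LinearMap.ker (HC.fl f)) (by omega)
  have hde : C d e = 0 := hd.1.2
  have hdf : C d f = 0 := hd.2
  obtain ⟨y, -, hy⟩ := S.nd d trivial hd0
  have hyd : C y d ≠ 0 := HC.symm_ne hy
  set y' := (C y d)⁻¹ • (y - C y f • e - C y e • f) with hy'
  have e1 : C y' e = 0 := by
    rw [hy', HC.smul_left, HC.sub_left, HC.sub_left, HC.smul_left, HC.smul_left, he, hfe]; ring
  have e2 : C y' f = 0 := by
    rw [hy', HC.smul_left, HC.sub_left, HC.sub_left, HC.smul_left, HC.smul_left, hf, hef]; ring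
  have e3 : C y' d = 1 := by
    rw [hy', HC.smul_left, HC.sub_left, HC.sub_left, HC.smul_left, HC.smul_left, HC.symm_zero hde,
      HC.symm_zero hdf, mul_zero, mul_zero, sub_zero, sub_zero, inv_mul_cancel₀ hyd]
  clear_value y'
  have e4 : C d y' ≠ 0 := HC.symm_ne (by rw [e3]; exact one_ne_zero)
  obtain ⟨a, ha⟩ := HC.exists_add_norm (z := d) (u := y') hdd e4 (map_zero τ)
  refine ⟨d, y' + a • d, hdd, ha, ?_, hde, hdf, ?_, ?_⟩
  · rw [HC.add_left, HC.smul_left, hdd, mul_zero, add_zero]; exact e3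
  · rw [HC.add_left, HC.smul_left, e1, hde]; ring
  · rw [HC.add_left, HC.smul_left, e2, hdf]; ring

/-- step (i) -/
theorem rho_i (hcen : ∀ v, C v v = 0 → v ∈ cen Hh M) {e u : V} (he : C e e = 0) (hu : C u u = 0)
    (hue : C u e = 0) : RhoIn h M e u 0 := by
  have hW : ∀ z ∈ Submodule.span F {e, u}, C z z = 0 := by
    intro z hz
    obtain ⟨s, t, rfl⟩ := Submodule.mem_span_pair.1 hz
    rw [← algebraMap_smul K s, ← algebraMap_smul K t, HC.add_left, HC.add_right, HC.add_right, HC.smul_left,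
      HC.smul_left, HC.smul_right, HC.smul_right, HC.smul_right, HC.smul_right, HC.smul_left, HC.smul_left,
      he, hu, hue, HC.symm_zero hue]
    ring
  have hM : tgrp Hh (Submodule.span F {e, u}) ≤ M := tgrp_le_of_cen fun z hz _ => hcen z (hW z hz)
  exact rhoIn_iso Hh hM (Submodule.subset_span (by simp)) (Submodule.subset_span (by simp)) (S.h0 he) (S.h0 hu)
    (S.h0 hue)

theorem exists_bval (c : F) : ∃ k : K, b k = c := by
  obtain ⟨k, hk⟩ : ∃ k, b k ≠ 0 := by
    by_contra hcon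
    push Not at hcon
    exact S.hb (LinearMap.ext hcon)
  refine ⟨(c / b k) • k, ?_⟩
  rw [map_smul, smul_eq_mul, div_mul_cancel₀ _ hk]

/-- step (ii) -/
theorem rho_ii (hcen : ∀ v, C v v = 0 → v ∈ cen Hh M) {e f : V} (he : C e e = 0) (hf : C f f = 0)
    (hfe : C f e = 1) {x : K} (hx : b x = 0) : RhoIn h M e (x • f) 0 := by
  obtain ⟨d, d', hdd, hd'd', hd'd, hde, hdf, hd'e, hd'f⟩ := S.exists_hyp2K he hf hfe
  obtain ⟨κ, hκ⟩ := S.exists_bval (-1)
  have hsm : ∀ (a : K) (v : V), C v v = 0 → C (a • v) (a • v) = 0 := by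
    intro a v hv
    rw [HC.smul_left, HC.smul_right, hv]; ring
  have r1 : RhoIn h M e (τ κ • d) 0 := S.rho_i hcen he (hsm _ _ hdd) (by rw [HC.smul_left, hde, mul_zero])
  have r2 : RhoIn h M d' (x • f) 0 := S.rho_i hcen hd'd' (hsm _ _ hf)
    (by rw [HC.smul_left, HC.symm_zero hd'f, mul_zero])
  have r3 : RhoIn h M d' (-(x • f)) 0 := by
    rw [← neg_smul]
    exact S.rho_i hcen hd'd' (hsm _ _ hf) (by rw [HC.smul_left, HC.symm_zero hd'f, mul_zero])
  have r4 := TenUH94.rho_comm Hh S.hM r1 r2 r3 (S.h0 hd'e) (by rw [← S.bC, HC.smul_left, hfe, mul_one, hx])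
    (S.h0 (by rw [HC.smul_left, HC.smul_right, HC.symm_zero hdf, mul_zero, mul_zero]))
    (S.h0 (by rw [HC.smul_left, HC.symm_zero hd'f, mul_zero])) (S.h0 hd'd') (S.h0 (hsm _ _ hf))
  have e1 : h d' (τ κ • d) = -1 := by rw [← S.bC, HC.smul_right, HC.inv, hd'd, mul_one, hκ]
  rw [e1, neg_neg, one_smul] at r4
  exact r4

/-- step (iii) -/
theorem rho_iii (hcen : ∀ v, C v v = 0 → v ∈ cen Hh M) {e : V} (he0 : e ≠ 0) (he : C e e = 0) {u : V}
    (hue : h u e = 0) {c : F} (hc : c + σ c + h u u = 0) : RhoIn h M e u c := by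
  obtain ⟨f, hf, hfe⟩ := S.exists_hypK he0 he
  obtain ⟨d, d', hdd, hd'd', hd'd, hde, hdf, hd'e, hd'f⟩ := S.exists_hyp2K he hf hfe
  have hee : h e e = 0 := S.h0 he
  have hsm : ∀ (a : K) (v : V), C v v = 0 → C (a • v) (a • v) = 0 := by
    intro a v hv
    rw [HC.smul_left, HC.smul_right, hv]; ring
  let P : V → Prop := fun u => h u e = 0 ∧ ∃ c, c + σ c + h u u = 0 ∧ RhoIn h M e u c
  have P0 : P 0 := ⟨Hh.zero_left _, 0, by rw [Hh.zero_left, map_zero]; ring, ⟨1, one_mem _, fun x => by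
    simp [rho, Hh.zero_right]⟩⟩
  have Padd : ∀ u v, P u → P v → P (u + v) := by
    rintro u v ⟨hu, c, hc, hcu⟩ ⟨hv, c', hc', hcv⟩
    refine ⟨by rw [Hh.add_left, hu, hv, add_zero], c + c' - h v u, ?_, rhoIn_comp Hh hee hu hv hcu hcv⟩
    rw [map_sub, map_add, ← Hh.herm u v, Hh.add_left, Hh.add_right, Hh.add_right]
    linear_combination hc + hc'
  have Ps : ∀ w : V, C w w = 0 → C w e = 0 → P w := by
    intro w hw hwe
    refine ⟨S.h0 hwe, 0, ?_, S.rho_i hcen he hw hwe⟩
    rw [S.h0 hw, map_zero]; ring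
  have Pw : ∀ w : V, C w e = 0 → P w := by
    intro w hw
    have hmem : w ∈ Submodule.span K {z | z ∈ LinearMap.ker (HC.fl e) ∧ C z z = 0} := by
      refine HC.mem_span_iso (U := LinearMap.ker (HC.fl e)) (z := d) (y := d') ?_ hdd ?_ ?_ ?_
      · exact hde
      · exact hd'e
      · exact HC.symm_ne (by rw [hd'd]; exact one_ne_zero)
      · exact hw
    have key : ∀ w ∈ Submodule.span K {z | z ∈ LinearMap.ker (HC.fl e) ∧ C z z = 0}, ∀ a : K, P (a • w) := by
      intro w hw
      induction hw using Submodule.span_induction with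
      | mem z hz =>
        intro a
        have hze : C z e = 0 := hz.1
        exact Ps _ (hsm a z hz.2) (by rw [HC.smul_left, hze, mul_zero])
      | zero => intro a; rw [smul_zero]; exact P0
      | add z z' _ _ ih ih' => intro a; rw [smul_add]; exact Padd _ _ (ih a) (ih' a)
      | smul c z _ ih => intro a; rw [smul_smul]; exact ih _
    have := key w hmem 1
    rwa [one_smul] at this
  have Pu : P u := by
    have hx : b (C u e) = 0 := by rw [S.bC]; exact hue
    have e1 : u = C u e • f + (u - C u e • f) := by abel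
    rw [e1]
    apply Padd
    · refine ⟨?_, 0, ?_, S.rho_ii hcen he hf hfe hx⟩
      · rw [← S.bC, HC.smul_left, hfe, mul_one, hx]
      · rw [S.h0 (hsm _ _ hf), map_zero]; ring
    · apply Pw
      rw [HC.sub_left, HC.smul_left, hfe, mul_one, sub_self]
  obtain ⟨-, c0, hc0, hr0⟩ := Pu
  have hcc : (c - c0) + σ (c - c0) = 0 := by rw [map_sub]; linear_combination hc - hc0
  have r1 : RhoIn h M e 0 (c - c0) := by
    refine ⟨tv Hh e hee (c - c0) hcc, (hcen e he).2 _ _ _, fun v => ?_⟩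
    rw [tv_apply, rho, Hh.zero_right]
    simp
  have r2 := rhoIn_comp Hh hee hue (Hh.zero_left _) hr0 r1
  rw [Hh.zero_left, add_zero] at r2
  convert r2 using 1
  ring

theorem all_of_cen (hcen : ∀ v, C v v = 0 → v ∈ cen Hh M) : tgrp Hh ⊤ ≤ M := by
  refine tgrp_le_of_cen fun z _ hzz => ?_
  by_cases hz0 : z = 0
  · rw [hz0]; exact cen_zero
  -- a K-singular vector not orthogonal to z
  obtain ⟨e, he, hze⟩ : ∃ e : V, C e e = 0 ∧ h z e ≠ 0 := by
    by_contra hcon
    push Not at hcon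
    obtain ⟨d, -, hd0, hdd⟩ := TenUH94.exists_sing HC (U := (⊤ : Submodule K V))
      (by rw [finrank_top]; have := S.hk; omega)
    obtain ⟨y, hyy, hyd⟩ := S.exists_hypK hd0 hdd
    have hdy : C d y ≠ 0 := HC.symm_ne (by rw [hyd]; exact one_ne_zero)
    have hall : ∀ w : V, C w z = 0 := by
      intro w
      have hmem : w ∈ Submodule.span K {z | z ∈ (⊤ : Submodule K V) ∧ C z z = 0} :=
        HC.mem_span_iso (U := ⊤) (z := d) (y := y) trivial hdd trivial hdy trivial
      have hle : Submodule.span K {z | z ∈ (⊤ : Submodule K V) ∧ C z z = 0} ≤ LinearMap.ker (HC.fl z) := by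
        refine Submodule.span_le.2 fun w hw => ?_
        show C w z = 0
        apply S.C_zero
        intro a
        apply Hh.symm_zero
        apply hcon
        rw [HC.smul_left, HC.smul_right, hw.2]; ring
      exact hle hmem
    obtain ⟨y, -, hy⟩ := S.nd z trivial hz0
    exact hy (HC.symm_zero (hall y))
  have he0 : e ≠ 0 := by rintro rfl; exact hze (Hh.zero_right _)
  obtain ⟨f, hf, hfe⟩ := S.exists_hypK he0 he
  obtain ⟨k, hk⟩ := S.exists_bval 1
  set e' := k • f with he'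
  have he'C : C e' e' = 0 := by rw [he', HC.smul_left, HC.smul_right, hf]; ring
  have he'c : e' ∈ cen Hh M := hcen e' he'C
  have he'e : h e' e = 1 := by rw [← S.bC, he', HC.smul_left, hfe, mul_one, hk]
  have he'e' : h e' e' = 0 := cen_iso he'c
  set z1 := (h z e)⁻¹ • z with hz1
  have hz1e : h z1 e = 1 := by rw [hz1, Hh.smul_left, inv_mul_cancel₀ hze]
  have hz1z1 : h z1 z1 = 0 := by rw [hz1, Hh.smul_left, Hh.smul_right, hzz]; ring
  have hue : h (z1 - e') e = 0 := by rw [Hh.sub_left, hz1e, he'e, sub_self]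
  obtain ⟨t, ht, htv⟩ := S.rho_iii hcen he0 he (u := z1 - e') (c := h e' (z1 - e')) hue (by
    rw [← Hh.herm (z1 - e') e']
    simp only [Hh.sub_left, Hh.sub_right]
    linear_combination hz1z1 - he'e')
  have h1 := cen_map S.hM he'c ht
  have h2 : t e' = z1 := by
    rw [htv, rho, he'e]
    module
  rw [h2] at h1
  exact cen_of_smul (inv_ne_zero hze) h1

end FU

end Cfsg.Agent.Lib.FldUH94
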