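import Mathlib
import Cfsg.Agent.Lib.FUaH94
import Cfsg.Agent.Lib.FUbH94
import Cfsg.Agent.Lib.FUcH94
import Cfsg.Agent.Lib.FUdH94
import Cfsg.Agent.Lib.FUeH94
import Cfsg.Agent.Lib.FUfH94
import Cfsg.Agent.Lib.FUgH94

set_option autoImplicit false
set_option linter.unusedSectionVars false

/-!
Overgroups of extension field subgroups in unitary groups: the main result.
-/

namespace Cfsg.Agent.Lib.FldUH94

open Module Cfsg.Agent.Lib.UnTrans Cfsg.Agent.Lib.UnMax Cfsg.Agent.Lib.ExtFldH94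
open Cfsg.Agent.Lib.SpTrans (isom mem_isom)
open Cfsg.Agent.Lib.SLBlockH94 (Dec)
open Cfsg.Agent.Lib.FldSpH94 (exists_phi stable_line TD)

variable {F K V : Type*} [Field F] [Field K] [Algebra F K] [AddCommGroup V] [Module F V] [Module K V]
  [IsScalarTower F K V] [FiniteDimensional F K] [FiniteDimensional K V] [FiniteDimensional F V]
  {σ : F →+* F} {τ : K →+* K} {h : V → V → F} {C : V → V → K} {Hh : HS σ h} {HC : HS τ C} {b : Dual F K}
  {M : Subgroup (V ≃ₗ[F] V)}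

namespace FU
variable (S : FU Hh HC b M)
include S

/-- overgroups of the extension field subgroup -/
theorem main [Finite K] : tgrp Hh ⊤ ≤ M ∨ ∀ g ∈ M, ∀ a : K, ∃ c : K, ∀ x, g (a • x) = c • g x := by
  by_cases hsp : ∀ U U' : Submodule F V, Mem C M U → Mem C M U' → U ≠ U' → U ⊓ U' = ⊥
  · right
    intro g hg
    apply S.semilinear hg
    intro v hv0 hv
    exact S.not_spread hsp ((mem_Ln' hv0 hv).map hg)
  · left
    push Not at hsp
    obtain ⟨w, hw0, hwr, hmax, v₀, hv₀0, hv₀, U₀, hU₀, hfr₀⟩ := S.exists_max hsp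
    obtain ⟨v, hv0, hv, U', hU', hfr, hB⟩ := S.orth_pair (fun a1 a2 a3 _ a4 a5 _ a6 a7 _ a8 a9 _ a10 a11 =>
      S.dicho a1 a2 a3 a4 a5 a6 a7 a8 a9 a10 a11) hw0 hwr hmax hv₀0 hv₀ hU₀ hfr₀
    obtain ⟨w₀, u₁, ω, hw₀, T⟩ := S.exists_TD hw0 hwr hmax hv0 hv hU' hfr hB
    exact S.all_of_cen (S.cen_of_TD hw₀ T)

end FU

end Cfsg.Agent.Lib.FldUH94
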