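import Mathlib
import Cfsg.Agent.Lib.OrthDec2H94
import Cfsg.Agent.Lib.FldSpH94

set_option autoImplicit false
set_option linter.unusedSectionVars false
set_option linter.unusedSimpArgs false
set_option linter.unusedVariables false

/-!
Overgroups of extension field subgroups in orthogonal groups (self-adjoint fields), odd characteristic.
-/

namespace Cfsg.Agent.Lib.FldOH94

open QuadraticMap Module Cfsg.Agent.Lib.Quad Cfsg.Agent.Lib.OrthMax Cfsg.Agent.Lib.OrthNd
  Cfsg.Agent.Lib.ExtFldH94 Cfsg.Agent.Lib.OrthDecH94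
open Cfsg.Agent.Lib.SLBlockH94 (Dec)

section generic

variable {K V : Type*} [Field K] [Finite K] [AddCommGroup V] [Module K V] [FiniteDimensional K V]
  {q : QuadraticForm K V}

theorem nds_top (hq : Nd q) : NDs q (⊤ : Submodule K V) := by
  rw [NDs, eq_bot_iff]
  rintro x ⟨-, hx⟩
  rw [Submodule.mem_bot]
  exact hq.eq_zero fun y => mem_perp'.1 hx y trivial

theorem perp_of_sing (hq : Nd q) {A : Submodule K V} (hA : NDs q A) (hdim : 3 ≤ finrank K A) {y : V}
    (h : ∀ e ∈ A, q e = 0 → polar q y e = 0) : ∀ a ∈ A, polar q y a = 0 := by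
  obtain ⟨e, he, f, hf, hqe, hqf, hef⟩ := exists_pair_in hq hA hdim
  exact functional_zero he hf hqe hqf hef (polarBilin q y) fun z hzA hz => h z hzA hz

theorem exists_pair_top (hq : Nd q) (hk : 3 ≤ finrank K V) {e : V} (he0 : e ≠ 0) (hqe : q e = 0) :
    ∃ f, q f = 0 ∧ polar q e f = 1 := by
  obtain ⟨f, -, h1, h2⟩ := exists_partner hq (nds_top hq) (z := e) trivial he0 hqe
  exact ⟨f, h1, h2⟩

theorem gen_of_two (h2 : (2 : K) ≠ 0) : GenHyp q :=
  Or.inl ⟨-1, neg_ne_zero.2 one_ne_zero, fun h => h2 (by linear_combination -h)⟩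

/-- products of two reflections of equal norm -/
theorem rr_Om (hq : Nd q) (h2 : (2 : K) ≠ 0) (hk : 4 ≤ finrank K V) {a a' : V} (ha : q a ≠ 0) (haa : q a = q a') :
    refl q a * refl q a' ∈ Om q := by
  rw [hq.Om_eq_Sg (gen_of_two h2) hk]
  exact refl_mul_refl_mem_Sg' hq hk ha haa

theorem pperp_dim (hq : Nd q) (hk : 4 ≤ finrank K V) (v f : V) :
    2 ≤ finrank K ((⊤ : Submodule K V) ⊓ perp q (Submodule.span K {v, f}) : Submodule K V) := by
  have := finrank_cut hq (⊤ : Submodule K V) v f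
  rw [finrank_top] at this
  omega

/-- the torus elements -/
theorem tor_Om (hq : Nd q) (h2 : (2 : K) ≠ 0) (hk : 4 ≤ finrank K V) {v f : V} (hv : q v = 0) (hf : q f = 0)
    (hvf : polar q v f = 1) {a : K} (ha : a ≠ 0) : ∃ g ∈ Om q, g v = a • v := by
  have hP := nds_cut hq (nds_top hq) (e := v) (f := f) trivial trivial hv hf hvf
  obtain ⟨p, hp, hqp⟩ := universal hq h2 hP (pperp_dim hq hk v f) (-a)
  obtain ⟨p', hp', hqp'⟩ := universal hq h2 hP (pperp_dim hq hk v f) (-1)
  obtain ⟨-, hvp, hfp⟩ := mem_cut.1 hp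
  obtain ⟨-, hvp', hfp'⟩ := mem_cut.1 hp'
  have hA : q (v - f) = -1 := by rw [Q_sub, hv, hf, hvf]; ring
  have hB : q (v - a • f) = -a := by rw [Q_sub, Q_smul, hv, hf, polar_smul_right, hvf, smul_eq_mul]; ring
  have hA0 : q (v - f) ≠ 0 := by rw [hA]; exact neg_ne_zero.2 one_ne_zero
  have hB0 : q (v - a • f) ≠ 0 := by rw [hB]; exact neg_ne_zero.2 ha
  refine ⟨refl q (v - f) * (refl q (v - a • f) * refl q p) * refl q p', ?_, ?_⟩
  · have h1 : refl q (v - a • f) * refl q p ∈ Om q := rr_Om hq h2 hk hB0 (by rw [hB, hqp])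
    have h3 : refl q (v - f) * refl q p' ∈ Om q := rr_Om hq h2 hk hA0 (by rw [hA, hqp'])
    have e : refl q (v - f) * (refl q (v - a • f) * refl q p) * refl q p' =
        (refl q (v - f) * (refl q (v - a • f) * refl q p) * (refl q (v - f))⁻¹) * (refl q (v - f) * refl q p') := by
      group
    rw [e]
    refine mul_mem ?_ h3
    rw [hq.Om_eq_Sg (gen_of_two h2) hk] at h1 ⊢
    exact Sg_conj hq (refl_mem _) h1
  · have e1 : refl q p' v = v := refl_of_perp (by rw [polar_comm]; exact hvp')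
    have e2 : refl q p v = v := refl_of_perp (by rw [polar_comm]; exact hvp)
    have e3 : refl q (v - a • f) v = a • f := by
      rw [refl_apply hB0, hB, polar_sub_left, polar_self', hv, polar_smul_left, polar_comm q f v, hvf]
      simp only [mul_zero, smul_eq_mul, mul_one, zero_sub]
      rw [show (-a)⁻¹ * -a = 1 from inv_mul_cancel₀ (neg_ne_zero.2 ha), one_smul]
      abel
    have e4 : refl q (v - f) (a • f) = a • v := by
      rw [refl_apply hA0, hA, polar_sub_left, polar_smul_right, polar_smul_right, polar_self', hf, hvf]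
      simp only [mul_zero, smul_eq_mul, mul_one, sub_zero]
      rw [inv_neg, inv_one, neg_mul, one_mul, neg_smul, smul_sub]
      abel
    show refl q (v - f) (refl q (v - a • f) (refl q p (refl q p' v))) = a • v
    rw [e1, e2, e3, e4]

/-- transitivity on singular vectors -/
theorem trans_Om (hq : Nd q) (h2 : (2 : K) ≠ 0) (hk : 4 ≤ finrank K V) {u v : V} (hu0 : u ≠ 0) (hu : q u = 0)
    (hv0 : v ≠ 0) (hv : q v = 0) : ∃ g ∈ Om q, g u = v := by
  obtain ⟨g, hg, hgu⟩ := hq.Om_trans_ts (gen_of_two h2) (U := K ∙ u) (W := K ∙ v) (by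
    intro x hx
    obtain ⟨c, rfl⟩ := Submodule.mem_span_singleton.1 hx
    rw [Q_smul, hu, mul_zero]) (by
    intro x hx
    obtain ⟨c, rfl⟩ := Submodule.mem_span_singleton.1 hx
    rw [Q_smul, hv, mul_zero]) (by rw [finrank_span_singleton hu0, finrank_span_singleton hv0]) (by
    rw [finrank_span_singleton hu0]; omega)
  have h1 : g u ∈ K ∙ v := by
    rw [← hgu]; exact ⟨u, Submodule.mem_span_singleton_self u, rfl⟩
  obtain ⟨c, hc⟩ := Submodule.mem_span_singleton.1 h1
  have hc0 : c ≠ 0 := by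
    rintro rfl
    rw [zero_smul] at hc
    exact hu0 ((LinearEquiv.map_eq_zero_iff g).1 hc.symm)
  obtain ⟨f, hf, hvf⟩ := exists_pair_top hq (by omega) hv0 hv
  obtain ⟨h, hh, hhv⟩ := tor_Om hq h2 hk hv hf hvf (inv_ne_zero hc0)
  refine ⟨h * g, mul_mem hh hg, ?_⟩
  rw [LinearEquiv.mul_apply, ← hc, map_smul, hhv, smul_smul, mul_inv_cancel₀ hc0, one_smul]

end generic

variable {F K V : Type*} [Field F] [Field K] [Algebra F K] [AddCommGroup V] [Module F V] [Module K V]
  [IsScalarTower F K V] [FiniteDimensional F K] [FiniteDimensional K V] [FiniteDimensional F V]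
  {Q : QuadraticForm F V} {b : Dual F K} {q : QuadraticForm K V} {M : Subgroup (V ≃ₗ[F] V)}

/-- the situation -/
structure FO (Q : QuadraticForm F V) (b : Dual F K) (q : QuadraticForm K V) (M : Subgroup (V ≃ₗ[F] V)) : Prop where
  h2 : (2 : F) ≠ 0
  hb : b ≠ 0
  bq : ∀ x, b (q x) = Q x
  nd : Nd q
  hr : (finrank F K).Prime
  hk : 4 ≤ finrank K V
  hM : M ≤ O Q
  HS : ∀ x ∈ Om q, x.restrictScalars F ∈ M

variable (q M) in
/-- images of singular lines -/
def Mem (U : Submodule F V) : Prop := ∃ m ∈ M, ∃ v, v ≠ 0 ∧ q v = 0 ∧ U = (Ln K v).map (m : V →ₗ[F] V)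

theorem Mem.map {U : Submodule F V} (h : Mem q M U) {g : V ≃ₗ[F] V} (hg : g ∈ M) :
    Mem q M (U.map (g : V →ₗ[F] V)) := by
  obtain ⟨m, hm, v, hv, hqv, rfl⟩ := h
  refine ⟨g * m, mul_mem hg hm, v, hv, hqv, ?_⟩
  rw [← Submodule.map_comp]; rfl

theorem Mem.finrank_eq {U : Submodule F V} (h : Mem q M U) : finrank F U = finrank F K := by
  obtain ⟨m, hm, v, hv, hqv, rfl⟩ := h
  rw [← finrank_Ln (F := F) (K := K) hv]
  exact LinearEquiv.finrank_map_eq m _

theorem mem_Ln' {v : V} (hv : v ≠ 0) (hqv : q v = 0) : Mem q M (Ln K v) := by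
  refine ⟨1, one_mem _, v, hv, hqv, ?_⟩
  exact (Submodule.map_id _).symm

namespace FO

variable (S : FO Q b q M)
include S

theorem bp (x y : V) : b (polar q x y) = polar Q x y := by
  rw [polar, polar, map_sub, map_sub, S.bq, S.bq, S.bq]

theorem h2K : (2 : K) ≠ 0 := by
  intro h
  apply S.h2
  have : algebraMap F K 2 = 0 := by rw [map_ofNat]; exact h
  exact (map_eq_zero (algebraMap F K)).1 this

theorem bzero {c : K} (h : ∀ a, b (a * c) = 0) : c = 0 := by
  by_contra hc0
  apply S.hb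
  apply LinearMap.ext
  intro a
  have := h (a * c⁻¹)
  rw [mul_assoc, inv_mul_cancel₀ hc0, mul_one] at this
  exact this

theorem sq_zero {c : K} (h : ∀ a, b (a * a * c) = 0) : c = 0 := by
  apply S.bzero
  intro a
  have h1 := h (a + 1)
  have e : (a + 1) * (a + 1) * c = a * a * c + 1 * 1 * c + (a * c + a * c) := by ring
  rw [e, map_add, map_add, map_add, h, h, zero_add, zero_add, ← two_mul] at h1
  exact (mul_eq_zero.1 h1).resolve_left S.h2

theorem smul_sq {U : Submodule F V} {x : V} (h : ∀ a : K, (a * a) • x ∈ U) (a : K) : a • x ∈ U := by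
  have h4 : (4 : K) ≠ 0 := by
    have h5 := mul_ne_zero S.h2K S.h2K
    norm_num at h5
    exact h5
  obtain ⟨c, hc⟩ : ∃ c : K, a = 4 * c := ⟨4⁻¹ * a, by rw [mul_inv_cancel_left₀ h4]⟩
  have e : a = (c + 1) * (c + 1) - (c - 1) * (c - 1) := by rw [hc]; ring
  rw [e, sub_smul]
  exact U.sub_mem (h _) (h _)

theorem bQ (a : K) (x y : V) : b (a * polar q x y) = polar Q (a • x) y := by
  rw [← S.bp, polar_smul_left, smul_eq_mul]

theorem bQ' (a : K) (x y : V) : b (a * polar q x y) = polar Q x (a • y) := by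
  rw [← S.bp, polar_smul_right, smul_eq_mul]

theorem C_zero {x y : V} (h : ∀ a : K, polar Q (a • x) y = 0) : polar q x y = 0 :=
  S.bzero fun a => by rw [S.bQ]; exact h a

theorem C_zero' {x y : V} (h : ∀ z ∈ (Ln K x : Submodule F V), polar Q z y = 0) : polar q x y = 0 :=
  S.C_zero fun a => h _ (smul_mem_Ln x a)

theorem ndQ : Nd Q := by
  apply nd_of
  intro x hx
  apply S.nd.eq_zero
  intro y
  apply S.bzero
  intro a
  rw [S.bQ', hx]

theorem ts {U : Submodule F V} (h : Mem q M U) : ∀ u ∈ U, Q u = 0 := by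
  obtain ⟨m, hm, v, hv, hqv, rfl⟩ := h
  rintro _ ⟨x, hx, rfl⟩
  have h1 : Q (m x) = Q x := S.hM hm x
  obtain ⟨a, rfl⟩ := mem_Ln.1 hx
  show Q (m (a • v)) = 0
  rw [h1, ← S.bq, Q_smul, hqv, mul_zero, map_zero]

theorem ts2 {U : Submodule F V} (h : Mem q M U) {u u' : V} (hu : u ∈ U) (hu' : u' ∈ U) : polar Q u u' = 0 := by
  rw [polar, S.ts h _ (U.add_mem hu hu'), S.ts h _ hu, S.ts h _ hu']; ring

variable [Finite K]

/-- Siegel elements over the big field -/
theorem sg {e d : V} (he : q e = 0) (hed : polar q e d = 0) : ∃ m ∈ M, ∀ z, m z = siegMap q e d z := by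
  refine ⟨(sieg S.nd he hed).restrictScalars F, S.HS _ (S.nd.sieg_mem_Om (gen_of_two S.h2K) he hed), fun z => ?_⟩
  show sieg S.nd he hed z = _
  rw [sieg_apply, siegMap_apply]

theorem rr {a a' : V} (ha : q a ≠ 0) (haa : q a = q a') : ∃ m ∈ M, ∀ z, m z = refl q a (refl q a' z) :=
  ⟨(refl q a * refl q a').restrictScalars F, S.HS _ (rr_Om S.nd S.h2K S.hk ha haa), fun z => rfl⟩

theorem tor {v : V} (hv0 : v ≠ 0) (hv : q v = 0) {a : K} (ha : a ≠ 0) :
    ∃ m ∈ M, m v = a • v ∧ ∀ (c : K) x, m (c • x) = c • m x := by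
  obtain ⟨f, hf, hvf⟩ := exists_pair_top S.nd (by have := S.hk; omega) hv0 hv
  obtain ⟨g, hg, hgv⟩ := tor_Om S.nd S.h2K S.hk hv hf hvf ha
  exact ⟨g.restrictScalars F, S.HS g hg, hgv, fun c x => g.map_smul c x⟩

theorem trans {u v : V} (hu0 : u ≠ 0) (hu : q u = 0) (hv0 : v ≠ 0) (hv : q v = 0) :
    ∃ m ∈ M, m u = v ∧ ∀ (c : K) x, m (c • x) = c • m x := by
  obtain ⟨g, hg, hgv⟩ := trans_Om S.nd S.h2K S.hk hu0 hu hv0 hv
  exact ⟨g.restrictScalars F, S.HS g hg, hgv, fun c x => g.map_smul c x⟩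

/-- invariant subspaces contain lines -/
theorem line_of_inv {U : Submodule F V} {e d y : V} (he : q e = 0) (hed : polar q e d = 0) (hqd : q d ≠ 0)
    (hy : y ∈ U) (hey : polar q e y ≠ 0) (hinv : ∀ κ : K, siegMap q e (κ • d) y ∈ U) (a : K) : a • e ∈ U := by
  have h1 : ∀ κ : K, (κ * κ) • ((q d * polar q e y) • e) ∈ U := by
    intro κ
    have h2 := U.add_mem (hinv κ) (hinv (-κ))
    have h3 : siegMap q e (κ • d) y + siegMap q e (-κ • d) y =
        y + y - ((κ * κ) • ((q d * polar q e y) • e) + (κ * κ) • ((q d * polar q e y) • e)) := by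
      rw [siegMap_apply, siegMap_apply, Q_smul, Q_smul, polar_smul_left, polar_smul_left, smul_eq_mul, smul_eq_mul]
      module
    rw [h3] at h2
    have h4 := U.sub_mem (U.add_mem hy hy) h2
    rw [sub_sub_cancel] at h4
    have h5 := U.smul_mem (2⁻¹ : F) h4
    have h6 : (2⁻¹ : F) • ((κ * κ) • ((q d * polar q e y) • e) + (κ * κ) • ((q d * polar q e y) • e)) =
        (κ * κ) • ((q d * polar q e y) • e) := by
      rw [← two_smul F ((κ * κ) • ((q d * polar q e y) • e)), smul_smul, inv_mul_cancel₀ S.h2, one_smul]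
    rwa [h6] at h5
  have h2 := S.smul_sq h1 (a * (q d * polar q e y)⁻¹)
  rwa [smul_smul, mul_assoc, inv_mul_cancel₀ (mul_ne_zero hqd hey), mul_one] at h2

theorem eq_Ln {U : Submodule F V} (hU : Mem q M U) {e : V} (he0 : e ≠ 0) (h : ∀ a : K, a • e ∈ U) : U = Ln K e := by
  symm
  apply Submodule.eq_of_le_of_finrank_eq
  · intro x hx
    obtain ⟨a, rfl⟩ := mem_Ln.1 hx
    exact h a
  · rw [finrank_Ln he0, hU.finrank_eq]

theorem eq_Ln' {U : Submodule F V} (hU : Mem q M U) {e : V} (he0 : e ≠ 0) (h : ∀ x ∈ U, x ∈ (Ln K e : Submodule F V)) :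
    U = Ln K e :=
  Submodule.eq_of_le_of_finrank_eq h (by rw [finrank_Ln he0, hU.finrank_eq])

omit S in
theorem sieg_self {u d : V} (hu : q u = 0) (hd : polar q u d = 0) : siegMap q u d u = u := by
  rw [siegMap_apply, polar_self', hu, polar_comm q d u, hd]; simp

omit S in
theorem sieg_fix {u e d : V} (he : polar q e u = 0) (hd : polar q d u = 0) : siegMap q e d u = u := by
  rw [siegMap_apply, he, hd]; simp

/-- partial spreads -/
theorem not_spread (hsp : ∀ U U' : Submodule F V, Mem q M U → Mem q M U' → U ≠ U' → U ⊓ U' = ⊥)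
    {U : Submodule F V} (hU : Mem q M U) : ∃ v, v ≠ 0 ∧ q v = 0 ∧ U = Ln K v := by
  have hk := S.hk
  have hUr := hU.finrank_eq
  have hfix : ∀ m ∈ M, ∀ u ∈ U, u ≠ 0 → m u = u → ∀ v ∈ U, m v ∈ U := by
    intro m hm u hu hu0 hmu v hv
    have h1 : U.map (m : V →ₗ[F] V) = U := by
      by_contra hne
      have h2 := hsp _ _ (hU.map hm) hU hne
      have h3 : u ∈ U.map (m : V →ₗ[F] V) ⊓ U := ⟨⟨u, hu, hmu⟩, hu⟩
      rw [h2] at h3
      exact hu0 h3
    rw [← h1]
    exact ⟨v, hv, rfl⟩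
  by_cases hall : ∀ u ∈ U, q u = 0
  · obtain ⟨u, hu, hu0⟩ : ∃ u ∈ U, u ≠ 0 := by
      apply Submodule.exists_mem_ne_zero_of_ne_bot
      rintro rfl
      rw [finrank_bot] at hUr
      exact absurd S.hr.pos (by omega)
    refine ⟨u, hu0, hall u hu, S.eq_Ln' hU hu0 fun y hy => ?_⟩
    have hqu := hall u hu
    by_contra hyn
    have hinv : ∀ d, polar q u d = 0 → ∀ y ∈ U, siegMap q u d y ∈ U := by
      intro d hd y hy
      obtain ⟨m, hm, hmz⟩ := S.sg hqu hd
      rw [← hmz]
      exact hfix m hm u hu hu0 (by rw [hmz, sieg_self hqu hd]) y hy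
    have huy : polar q u y = 0 := by
      by_contra huy
      obtain ⟨d, -, hud, hqd⟩ := exists_nonsing_perp' S.nd (nds_top S.nd) (by rw [finrank_top]; omega)
        (e := u) trivial hu0 hqu
      have h1 := S.line_of_inv hqu hud hqd hy huy fun κ => hinv _ (by rw [polar_smul_right, hud, smul_zero]) y hy
      rw [S.eq_Ln hU hu0 h1] at hy
      exact hyn hy
    obtain ⟨d, -, hd, hyd⟩ := exists_one_in S.nd (nds_top S.nd) (B := K ∙ u) le_top (v := y) trivial (by
      intro h
      obtain ⟨c, rfl⟩ := Submodule.mem_span_singleton.1 h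
      exact hyn (smul_mem_Ln u c))
    have hud : polar q u d = 0 := hd u (Submodule.mem_span_singleton_self u)
    have h1 : ∀ a : K, a • u ∈ U := by
      intro a
      have h2 := hinv (a • d) (by rw [polar_smul_right, hud, smul_zero]) y hy
      rw [siegMap_apply, huy, polar_smul_left, polar_comm q d y, hyd] at h2
      have h3 := U.sub_mem hy h2
      simpa using h3
    rw [S.eq_Ln hU hu0 h1] at hy
    exact hyn hy
  · exfalso
    push Not at hall
    obtain ⟨u, hu, hqu⟩ := hall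
    have hu0 : u ≠ 0 := by rintro rfl; exact hqu (QuadraticMap.map_zero q)
    obtain ⟨A, hA⟩ : ∃ A, A = (⊤ : Submodule K V) ⊓ perp q (K ∙ u) := ⟨_, rfl⟩
    have hAn : NDs q A := by rw [hA]; exact nds_cut1 S.nd S.h2K (nds_top S.nd) trivial hqu
    have hAr : 3 ≤ finrank K A := by
      have := finrank_cut1 S.nd (A := (⊤ : Submodule K V)) (a := u)
      rw [finrank_top, ← hA] at this
      omega
    have hAm : ∀ x ∈ A, polar q u x = 0 := fun x hx => by
      rw [hA] at hx; exact (mem_cut1.1 hx).2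
    have h1 : ∀ y ∈ U, ∀ e ∈ A, q e = 0 → polar q y e = 0 := by
      intro y hy e he hqe
      by_contra hye
      have he0 : e ≠ 0 := by rintro rfl; rw [polar_zero_right] at hye; exact hye rfl
      obtain ⟨d, hd, hed, hqd⟩ := exists_nonsing_perp' S.nd hAn hAr he he0 hqe
      have h2 := S.line_of_inv hqe hed hqd hy (by rwa [polar_comm]) (fun κ => by
        have hed' : polar q e (κ • d) = 0 := by rw [polar_smul_right, hed, smul_zero]
        obtain ⟨m, hm, hmz⟩ := S.sg hqe hed'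
        rw [← hmz]
        refine hfix m hm u hu hu0 ?_ y hy
        rw [hmz]
        exact sieg_fix (by rw [polar_comm]; exact hAm e he) (by
          rw [polar_smul_left, polar_comm q d u, hAm d hd, smul_zero]))
      rw [S.eq_Ln hU he0 h2] at hu
      obtain ⟨c, rfl⟩ := mem_Ln.1 hu
      exact hqu (by rw [Q_smul, hqe, mul_zero])
    have h2 : U = Ln K u := by
      apply S.eq_Ln' hU hu0
      intro y hy
      have h3 := perp_of_sing S.nd hAn hAr (h1 y hy)
      have h4 : y ∈ perp q (perp q (K ∙ u)) := by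
        rw [mem_perp']
        intro a ha
        exact h3 a (by rw [hA]; exact ⟨trivial, ha⟩)
      rw [S.nd.perp_perp] at h4
      obtain ⟨c, rfl⟩ := Submodule.mem_span_singleton.1 h4
      exact smul_mem_Ln u c
    apply hqu
    apply S.sq_zero
    intro a
    have h3 : Q (a • u) = 0 := S.ts hU _ (by rw [h2]; exact smul_mem_Ln u a)
    rwa [← S.bq, Q_smul] at h3

/-- preserving the singular lines implies semilinearity -/
theorem semilinear {g : V ≃ₗ[F] V} (hg : g ∈ M)
    (h : ∀ v, v ≠ 0 → q v = 0 → ∃ v', v' ≠ 0 ∧ q v' = 0 ∧ (Ln K v).map (g : V →ₗ[F] V) = Ln K v') :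
    ∀ a : K, ∃ c : K, ∀ x, g (a • x) = c • g x := by
  have hk := S.hk
  have hgp : ∀ x y, polar Q (g x) (g y) = polar Q x y := O_polar (S.hM hg)
  have h1 : ∀ v, q v = 0 → q (g v) = 0 ∧ ∀ a : K, ∃ c : K, g (a • v) = c • g v := by
    intro v hv
    by_cases hv0 : v = 0
    · subst hv0
      exact ⟨by rw [map_zero, QuadraticMap.map_zero], fun a => ⟨0, by rw [smul_zero, map_zero, smul_zero]⟩⟩
    obtain ⟨v', hv'0, hqv', hmap⟩ := h v hv0 hv
    have h2 : ∀ a : K, g (a • v) ∈ (Ln K v' : Submodule F V) := fun a => by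
      rw [← hmap]; exact ⟨_, smul_mem_Ln v a, rfl⟩
    obtain ⟨c₁, hc₁⟩ := mem_Ln.1 (h2 1)
    rw [one_smul] at hc₁
    have hc0 : c₁ ≠ 0 := by
      rintro rfl
      rw [zero_smul] at hc₁
      exact hv0 ((LinearEquiv.map_eq_zero_iff g).1 hc₁)
    refine ⟨by rw [hc₁, Q_smul, hqv', mul_zero], fun a => ?_⟩
    obtain ⟨c, hc⟩ := mem_Ln.1 (h2 a)
    exact ⟨c * c₁⁻¹, by rw [hc, hc₁, smul_smul, mul_assoc, inv_mul_cancel₀ hc0, mul_one]⟩
  have hsurj : ∀ v, v ≠ 0 → q v = 0 → ∀ c : K, ∃ a : K, g (a • v) = c • g v := by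
    intro v hv0 hv c
    obtain ⟨v', hv'0, hqv', hmap⟩ := h v hv0 hv
    have h2 : g v ∈ (Ln K v' : Submodule F V) := by rw [← hmap]; exact ⟨v, self_mem_Ln v, rfl⟩
    have h3 : c • g v ∈ (Ln K v' : Submodule F V) := Ln_smul c h2
    rw [← hmap] at h3
    obtain ⟨x, hx, hxe⟩ := h3
    obtain ⟨a, rfl⟩ := mem_Ln.1 hx
    exact ⟨a, hxe⟩
  have hperp : ∀ v x, q v = 0 → polar q v x = 0 → polar q (g v) (g x) = 0 := by
    intro v x hv hvx
    by_cases hv0 : v = 0
    · rw [hv0, map_zero, polar_zero_left]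
    apply S.C_zero
    intro c
    obtain ⟨a, ha⟩ := hsurj v hv0 hv c
    rw [← ha, hgp, ← S.bQ, hvx, mul_zero, map_zero]
  obtain ⟨e, -, f, -, hqe, hqf, hef⟩ := exists_pair_in S.nd (nds_top S.nd) (by rw [finrank_top]; omega)
  have he0 : e ≠ 0 := by rintro rfl; rw [polar_zero_left] at hef; exact zero_ne_one hef
  have hf0 : f ≠ 0 := by rintro rfl; rw [polar_zero_right] at hef; exact zero_ne_one hef
  have hne : polar q (g e) (g f) ≠ 0 := by
    intro h2
    obtain ⟨a, ha⟩ : ∃ a : K, b a ≠ 0 := by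
      by_contra hcon
      push Not at hcon
      exact S.hb (LinearMap.ext hcon)
    apply ha
    have h3 : b (a * polar q e f) = 0 := by
      rw [S.bQ, ← hgp]
      obtain ⟨c, hc⟩ := (h1 e hqe).2 a
      rw [hc, ← S.bQ, h2, mul_zero, map_zero]
    rwa [hef, mul_one] at h3
  have hne' : polar q (g f) (g e) ≠ 0 := by rwa [polar_comm]
  choose τ hτ using (h1 e hqe).2
  choose τ' hτ' using (h1 f hqf).2
  obtain ⟨W, hW⟩ : ∃ W, W = (⊤ : Submodule K V) ⊓ perp q (Submodule.span K {e, f}) := ⟨_, rfl⟩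
  have hWn : NDs q W := by rw [hW]; exact nds_cut S.nd (nds_top S.nd) trivial trivial hqe hqf hef
  have hWr : 2 ≤ finrank K W := by rw [hW]; exact pperp_dim S.nd hk e f
  have hWm : ∀ x, x ∈ W ↔ polar q e x = 0 ∧ polar q f x = 0 := fun x => by
    rw [hW, mem_cut]; simp
  have key : ∀ x ∈ W, ∀ t : K, g (t • x) = τ t • g x ∧ τ' (t * q x) = τ t * τ' (q x) := by
    intro x hx t
    obtain ⟨hex, hfx⟩ := (hWm x).1 hx
    have hs : q (e - q x • f + x) = 0 := by
      rw [Q_add, Q_sub, Q_smul, hqe, hqf, polar_smul_right, hef, polar_sub_left, polar_smul_left, hex, hfx]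
      simp
    obtain ⟨c, hc⟩ := (h1 _ hs).2 t
    have e1 : t • (e - q x • f + x) = t • e - (t * q x) • f + t • x := by
      rw [smul_add, smul_sub, smul_smul]
    rw [e1, map_add, map_sub, map_add, map_sub, hτ, hτ', hτ'] at hc
    have hfx' : ∀ s : K, polar q (g f) (g (s • x)) = 0 := fun s =>
      hperp f _ hqf (by rw [polar_smul_right, hfx, smul_zero])
    have hex' : ∀ s : K, polar q (g e) (g (s • x)) = 0 := fun s =>
      hperp e _ hqe (by rw [polar_smul_right, hex, smul_zero])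
    have hfx1 : polar q (g f) (g x) = 0 := hperp f x hqf hfx
    have hex1 : polar q (g e) (g x) = 0 := hperp e x hqe hex
    have hff : polar q (g f) (g f) = 0 := by rw [polar_self', (h1 f hqf).1, mul_zero]
    have hee : polar q (g e) (g e) = 0 := by rw [polar_self', (h1 e hqe).1, mul_zero]
    have h3 := congrArg (polar q (g f)) hc
    rw [polar_add_right, polar_sub_right, polar_smul_right, polar_smul_right, hff, hfx', polar_smul_right,
      polar_add_right, polar_sub_right, polar_smul_right, hff, hfx1] at h3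
    simp only [smul_eq_mul, mul_zero, sub_zero, add_zero] at h3
    have h4 : τ t = c := mul_right_cancel₀ hne' h3
    have h5 := congrArg (polar q (g e)) hc
    rw [polar_add_right, polar_sub_right, polar_smul_right, polar_smul_right, hee, hex', polar_smul_right,
      polar_add_right, polar_sub_right, polar_smul_right, hee, hex1] at h5
    simp only [smul_eq_mul, mul_zero, zero_sub, add_zero, mul_neg, neg_inj] at h5
    have h6 : τ' (t * q x) = τ t * τ' (q x) := by
      apply mul_right_cancel₀ hne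
      rw [h5, h4]; ring
    refine ⟨?_, h6⟩
    rw [h6, ← h4] at hc
    have h7 : g (t • x) = (τ t • g e - (τ t * τ' (q x)) • g f + g (t • x)) - (τ t • g e - (τ t * τ' (q x)) • g f) := by
      abel
    rw [h7, hc]
    module
  obtain ⟨x₁, hx₁, hqx₁⟩ := universal S.nd S.h2K hWn hWr 1
  have hx₁0 : x₁ ≠ 0 := by rintro rfl; rw [QuadraticMap.map_zero] at hqx₁; exact zero_ne_one hqx₁
  have hgx₁ : g x₁ ≠ 0 := (LinearEquiv.map_ne_zero_iff g).2 hx₁0
  have hgf : g f ≠ 0 := (LinearEquiv.map_ne_zero_iff g).2 hf0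
  have hτ1 : τ' 1 = 1 := by
    have h3 := hτ' 1
    rw [one_smul] at h3
    have h4 : (1 - τ' 1) • g f = 0 := by rw [sub_smul, one_smul, ← h3, sub_self]
    rcases smul_eq_zero.1 h4 with h5 | h5
    · exact (sub_eq_zero.1 h5).symm
    · exact absurd h5 hgf
  have hττ : ∀ t, τ' t = τ t := by
    intro t
    have h3 := (key x₁ hx₁ t).2
    rwa [hqx₁, mul_one, hτ1, mul_one] at h3
  have hmul : ∀ s t, τ (s * t) = τ s * τ t := by
    intro s t
    have h3 := (key x₁ hx₁ (s * t)).1
    rw [mul_smul, (key (t • x₁) (W.smul_mem _ hx₁) s).1, (key x₁ hx₁ t).1, smul_smul] at h3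
    have h4 : (τ s * τ t - τ (s * t)) • g x₁ = 0 := by rw [sub_smul, h3, sub_self]
    rcases smul_eq_zero.1 h4 with h5 | h5
    · exact (sub_eq_zero.1 h5).symm
    · exact absurd h5 hgx₁
  intro a
  refine ⟨τ a, fun z => ?_⟩
  obtain ⟨w, hw⟩ : ∃ w, w = z - polar q f z • e - polar q e z • f := ⟨_, rfl⟩
  have hwW : w ∈ W := by
    rw [hWm, hw]
    constructor
    · rw [polar_sub_right, polar_sub_right, polar_smul_right, polar_smul_right, polar_self', hqe, hef]; simp
    · rw [polar_sub_right, polar_sub_right, polar_smul_right, polar_smul_right, polar_self', hqf, polar_comm q f e, hef]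
      simp
  have hz : z = polar q f z • e + polar q e z • f + w := by rw [hw]; abel
  rw [hz, smul_add, smul_add, smul_smul, smul_smul, map_add, map_add, hτ, hτ', hττ, (key w hwW a).1, hmul, hmul,
    map_add, map_add, hτ, hτ', hττ]
  module

/-- adjacent pairs -/
theorem exists_adj (hex : ∃ g ∈ M, ¬ ∀ a : K, ∃ c : K, ∀ x, g (a • x) = c • g x) :
    ∃ U U' : Submodule F V, Mem q M U ∧ Mem q M U' ∧ U ≠ U' ∧ U ⊓ U' ≠ ⊥ := by
  by_contra hcon
  push Not at hcon
  obtain ⟨g, hg, hgn⟩ := hex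
  apply hgn
  apply S.semilinear hg
  intro v hv0 hv
  exact S.not_spread hcon ((mem_Ln' hv0 hv).map hg)

end FO

end Cfsg.Agent.Lib.FldOH94
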