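import Mathlib
import Cfsg.Agent.Lib.FldOH94

set_option autoImplicit false
set_option linter.unusedSectionVars false
set_option linter.unusedSimpArgs false
set_option linter.unusedVariables false

/-!
Overgroups of extension field subgroups in orthogonal groups: adjacent pairs and transvections on lines.
-/

namespace Cfsg.Agent.Lib.FldOH94

open QuadraticMap Module Cfsg.Agent.Lib.Quad Cfsg.Agent.Lib.OrthMax Cfsg.Agent.Lib.OrthNd
  Cfsg.Agent.Lib.ExtFldH94 Cfsg.Agent.Lib.OrthDecH94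
open Cfsg.Agent.Lib.SLBlockH94 (Dec)
open Cfsg.Agent.Lib.FldSpH94 (exists_phi stable_line)
open Cfsg.Agent.Lib.ExtFldH94 (exists_dual1)

variable {F K V : Type*} [Field F] [Field K] [Algebra F K] [AddCommGroup V] [Module F V] [Module K V]
  [IsScalarTower F K V] [FiniteDimensional F K] [FiniteDimensional K V] [FiniteDimensional F V]
  {Q : QuadraticForm F V} {b : Dual F K} {q : QuadraticForm K V} {M : Subgroup (V ≃ₗ[F] V)}

variable (q M) in
/-- upper bound for proper intersections -/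
def Mx (w : ℕ) : Prop := ∀ U U' : Submodule F V, Mem q M U → Mem q M U' →
  finrank F (U ⊓ U' : Submodule F V) < finrank F K → finrank F (U ⊓ U' : Submodule F V) ≤ w

/-- normalising a pair -/
theorem norm_pair {U U' : Submodule F V} (hU : Mem q M U) (hU' : Mem q M U') :
    ∃ v, v ≠ 0 ∧ q v = 0 ∧ ∃ m ∈ M, U = (Ln K v).map (m : V →ₗ[F] V) ∧ ∃ U₃ : Submodule F V, Mem q M U₃ ∧
      (∀ y, y ∈ U₃ ↔ m y ∈ U') ∧ finrank F (Ln K v ⊓ U₃ : Submodule F V) = finrank F (U ⊓ U' : Submodule F V) := by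
  obtain ⟨m, hm, v, hv, hqv, rfl⟩ := hU
  obtain ⟨U₃, hU₃⟩ : ∃ U₃ : Submodule F V, U₃ = U'.map ((m⁻¹ : V ≃ₗ[F] V) : V →ₗ[F] V) := ⟨_, rfl⟩
  have hm1 : ∀ y, m (m⁻¹ y) = y := fun y => by rw [← LinearEquiv.mul_apply, mul_inv_cancel]; rfl
  have hm2 : ∀ y, m⁻¹ (m y) = y := fun y => by rw [← LinearEquiv.mul_apply, inv_mul_cancel]; rfl
  have h1 : ∀ y, y ∈ U₃ ↔ m y ∈ U' := by
    intro y
    rw [hU₃]
    constructor
    · rintro ⟨x, hx, rfl⟩
      show m (m⁻¹ x) ∈ U'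
      rw [hm1]; exact hx
    · intro h
      exact ⟨m y, h, hm2 y⟩
  refine ⟨v, hv, hqv, m, hm, rfl, U₃, by rw [hU₃]; exact hU'.map (inv_mem hm), h1, ?_⟩
  have h2 : (Ln K v ⊓ U₃).map (m : V →ₗ[F] V) = (Ln K v).map (m : V →ₗ[F] V) ⊓ U' := by
    ext y
    constructor
    · rintro ⟨x, hx, rfl⟩
      exact ⟨⟨x, hx.1, rfl⟩, (h1 x).1 hx.2⟩
    · rintro ⟨⟨x, hx, rfl⟩, hy⟩
      exact ⟨x, ⟨hx, (h1 x).2 hy⟩, rfl⟩
  rw [← h2]
  exact (LinearEquiv.finrank_map_eq m _).symm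

/-- growing intersections -/
theorem grow {w : ℕ} (hmax : Mx q M w) {U U' : Submodule F V} (hU' : Mem q M U')
    (hw : finrank F (U ⊓ U' : Submodule F V) = w) {m : V ≃ₗ[F] V} (hm : m ∈ M)
    (hmW : ∀ y ∈ U ⊓ U', m y = y) {u₁ : V} (hu₁ : u₁ ∈ U') (hu₁' : u₁ ∉ U) (h : m u₁ ∈ U') :
    ∀ y ∈ U', m y ∈ U' := by
  have hU'r := hU'.finrank_eq
  have hle : (U ⊓ U') ⊔ Submodule.span F {m u₁} ≤ U' ⊓ U'.map (m : V →ₗ[F] V) := by
    apply sup_le
    · intro y hy
      exact ⟨hy.2, ⟨y, hy.2, hmW y hy⟩⟩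
    · rw [Submodule.span_singleton_le_iff_mem]
      exact ⟨h, ⟨u₁, hu₁, rfl⟩⟩
  have hlt : w < finrank F (U' ⊓ U'.map (m : V →ₗ[F] V) : Submodule F V) := by
    rw [← hw]
    apply Submodule.finrank_lt_finrank_of_lt
    refine lt_of_le_of_ne (le_sup_left.trans hle) fun heq => ?_
    have h2 : m u₁ ∈ U' ⊓ U'.map (m : V →ₗ[F] V) :=
      hle (Submodule.mem_sup_right (Submodule.mem_span_singleton_self _))
    rw [← heq] at h2
    apply hu₁'
    have h3 := hmW _ h2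
    have h4 : m u₁ = u₁ := m.injective h3
    rw [h4] at h2
    exact h2.1
  have hIr : finrank F (U' ⊓ U'.map (m : V →ₗ[F] V) : Submodule F V) ≤ finrank F K := by
    rw [← hU'r]; exact Submodule.finrank_mono inf_le_left
  have hIeq : finrank F (U' ⊓ U'.map (m : V →ₗ[F] V) : Submodule F V) = finrank F K := by
    by_contra hne
    have := hmax _ _ hU' (hU'.map hm) (lt_of_le_of_ne hIr hne)
    omega
  have h2 : U' ⊓ U'.map (m : V →ₗ[F] V) = U' :=
    Submodule.eq_of_le_of_finrank_eq inf_le_left (by rw [hIeq, hU'r])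
  have h3 : U'.map (m : V →ₗ[F] V) = U' := by
    have h4 : U' ≤ U'.map (m : V →ₗ[F] V) := inf_eq_left.1 h2
    exact (Submodule.eq_of_le_of_finrank_eq h4 (LinearEquiv.finrank_map_eq _ _).symm).symm
  intro y hy
  rw [← h3]
  exact ⟨y, hy, rfl⟩

namespace FO

variable (S : FO Q b q M)
include S
variable [Finite K]

theorem exists_max (hex : ∃ g ∈ M, ¬ ∀ a : K, ∃ c : K, ∀ x, g (a • x) = c • g x) :
    ∃ w, 0 < w ∧ w < finrank F K ∧ Mx q M w ∧ ∃ v, v ≠ 0 ∧ q v = 0 ∧ ∃ U' : Submodule F V, Mem q M U' ∧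
      finrank F (Ln K v ⊓ U' : Submodule F V) = w := by
  classical
  obtain ⟨U, U', hU, hU', hne, hbot⟩ := S.exists_adj hex
  obtain ⟨P, hP⟩ : ∃ P : ℕ → Prop, ∀ w, P w ↔ (0 < w ∧ w < finrank F K ∧ ∃ U U' : Submodule F V, Mem q M U ∧ Mem q M U' ∧
    finrank F (U ⊓ U' : Submodule F V) = w) := ⟨_, fun w => Iff.rfl⟩
  have h0 : P (finrank F (U ⊓ U' : Submodule F V)) := by
    rw [hP]
    refine ⟨?_, ?_, U, U', hU, hU', rfl⟩
    · apply Nat.pos_of_ne_zero
      intro h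
      exact hbot (Submodule.finrank_eq_zero.1 h)
    · have h1 : finrank F (U ⊓ U' : Submodule F V) ≤ finrank F K := by
        rw [← hU.finrank_eq]; exact Submodule.finrank_mono inf_le_left
      refine lt_of_le_of_ne h1 fun h2 => hne ?_
      have h3 : U ⊓ U' = U := Submodule.eq_of_le_of_finrank_eq inf_le_left (by rw [h2, hU.finrank_eq])
      have h4 : U ⊓ U' = U' := Submodule.eq_of_le_of_finrank_eq inf_le_right (by rw [h2, hU'.finrank_eq])
      rw [← h3, h4]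
  have h1 := Nat.findGreatest_spec (P := P) (m := finrank F (U ⊓ U' : Submodule F V)) (n := finrank F K)
    (le_of_lt ((hP _).1 h0).2.1) h0
  obtain ⟨w, hw⟩ : ∃ w, w = Nat.findGreatest P (finrank F K) := ⟨_, rfl⟩
  rw [← hw, hP] at h1
  obtain ⟨h2, h3, U₁, U₂, hU₁, hU₂, hf⟩ := h1
  refine ⟨w, h2, h3, ?_, ?_⟩
  · intro U₃ U₄ hU₃ hU₄ hlt
    by_contra hcon
    rw [hw] at hcon
    exact Nat.findGreatest_is_greatest (P := P) (lt_of_not_ge hcon) (le_of_lt hlt) ((hP _).2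
      ⟨by omega, hlt, U₃, U₄, hU₃, hU₄, rfl⟩)
  · obtain ⟨v, hv0, hv, m, hm, -, U₃, hU₃, -, hfr⟩ := norm_pair hU₁ hU₂
    exact ⟨v, hv0, hv, U₃, hU₃, by rw [hfr, hf]⟩

/-- maximal pairs are orthogonal or opposite -/
theorem dicho {w : ℕ} (hw0 : 0 < w) (hwr : w < finrank F K) (hmax : Mx q M w) {v : V} (hv0 : v ≠ 0) (hv : q v = 0)
    {U' : Submodule F V} (hU' : Mem q M U') (hfr : finrank F (Ln K v ⊓ U' : Submodule F V) = w) {u₁ : V}
    (hu₁ : u₁ ∈ U') (hβ : polar q v u₁ ≠ 0) {y : V} (hy : y ∈ U') (hvy : polar q v y = 0) :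
    y ∈ (Ln K v : Submodule F V) := by
  by_contra hyn
  have hk := S.hk
  have hinv : ∀ d, polar q v d = 0 → polar q d y • v ∈ U' → ∀ z ∈ U', siegMap q v d z ∈ U' := by
    intro d hvd hd z hz
    obtain ⟨m, hm, hmz⟩ := S.sg hv hvd
    rw [← hmz]
    refine grow hmax hU' hfr hm ?_ hy hyn ?_ z hz
    · rintro x ⟨hx, -⟩
      obtain ⟨c, rfl⟩ := mem_Ln.1 hx
      rw [hmz, map_smul, sieg_self hv hvd]
    · rw [hmz, siegMap_apply, hvy, zero_smul, mul_zero, zero_smul, add_zero, sub_zero]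
      exact U'.sub_mem hy hd
  have hkey : ∀ d d', polar q v d = 0 → polar q v d' = 0 → polar q d y • v ∈ U' → polar q d' y • v ∈ U' →
      (polar q v u₁ * polar q d' d) • v ∈ U' := by
    intro d d' hvd hvd' hd hd'
    have h1 := U'.sub_mem (hinv d hvd hd u₁ hu₁) hu₁
    have h2 : siegMap q v d u₁ - u₁ = polar q v u₁ • d - (polar q d u₁ + q d * polar q v u₁) • v := by
      rw [siegMap_apply, add_smul]; abel
    rw [h2] at h1
    have hdv : polar q d' v = 0 := by rw [polar_comm]; exact hvd'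
    have h3 := U'.sub_mem h1 (hinv d' hvd' hd' _ h1)
    rw [siegMap_apply] at h3
    have h4 : polar q v (polar q v u₁ • d - (polar q d u₁ + q d * polar q v u₁) • v) = 0 := by
      rw [polar_sub_right, polar_smul_right, polar_smul_right, hvd, polar_self', hv]; simp
    have h5 : polar q d' (polar q v u₁ • d - (polar q d u₁ + q d * polar q v u₁) • v) = polar q v u₁ * polar q d' d := by
      rw [polar_sub_right, polar_smul_right, polar_smul_right, hdv]; simp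
    rw [h4, h5] at h3
    simpa using h3
  -- a vector of the line in U'
  obtain ⟨x₀, hx₀, hx₀0⟩ : ∃ x ∈ (Ln K v ⊓ U' : Submodule F V), x ≠ 0 := by
    apply Submodule.exists_mem_ne_zero_of_ne_bot
    intro h
    rw [h, finrank_bot] at hfr
    omega
  obtain ⟨c₀, hc₀⟩ := mem_Ln.1 hx₀.1
  have hc₀0 : c₀ ≠ 0 := by rintro rfl; rw [zero_smul] at hc₀; exact hx₀0 hc₀
  have hc₀U : c₀ • v ∈ U' := by rw [← hc₀]; exact hx₀.2
  -- the vectors d, d'
  obtain ⟨d, hd, hdv⟩ : ∃ d ∈ perp q (Submodule.span K {v, y}), d ∉ K ∙ v := by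
    by_contra hcon
    push Not at hcon
    have h1 := Submodule.finrank_mono (show perp q (Submodule.span K {v, y}) ≤ K ∙ v from hcon)
    rw [finrank_span_singleton hv0] at h1
    have h3 := S.nd.finrank_add_finrank_perp (Submodule.span K {v, y})
    have h4 := finrank_pair_le (K := K) v y
    omega
  rw [mem_perp_span] at hd
  have hvd : polar q v d = 0 := hd v (by simp)
  have hyd : polar q y d = 0 := hd y (by simp)
  obtain ⟨d', hvd', hdd', hd'y⟩ : ∃ d', polar q v d' = 0 ∧ polar q d d' ≠ 0 ∧ polar q d' y • v ∈ U' := by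
    by_cases hds : d ∈ Submodule.span K {v, y}
    · obtain ⟨d', -, hvd', hyd'⟩ := exists_one_in S.nd (nds_top S.nd) (B := K ∙ v) le_top (v := y) trivial (by
        intro h
        obtain ⟨c, rfl⟩ := Submodule.mem_span_singleton.1 h
        exact hyn (smul_mem_Ln v c))
      have hvd'' : polar q v d' = 0 := hvd' v (Submodule.mem_span_singleton_self v)
      refine ⟨c₀ • d', by rw [polar_smul_right, hvd'', smul_zero], ?_, ?_⟩
      · obtain ⟨s, t, rfl⟩ := Submodule.mem_span_pair.1 hds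
        rw [polar_smul_right, polar_add_left, polar_smul_left, polar_smul_left, hvd'', hyd', smul_zero, zero_add,
          smul_eq_mul, smul_eq_mul, mul_one]
        refine mul_ne_zero hc₀0 ?_
        rintro rfl
        apply hdv
        rw [zero_smul, add_zero]
        exact Submodule.smul_mem _ _ (Submodule.mem_span_singleton_self v)
      · rw [polar_smul_left, polar_comm q d' y, hyd', smul_eq_mul, mul_one]
        exact hc₀U
    · obtain ⟨d', -, hvd', hyd'⟩ := exists_one_in S.nd (nds_top S.nd) (B := Submodule.span K {v, y}) le_top (v := d)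
        trivial hds
      refine ⟨d', hvd' v (Submodule.subset_span (by simp)), by rw [hyd']; exact one_ne_zero, ?_⟩
      rw [polar_comm q d' y, hvd' y (Submodule.subset_span (by simp)), zero_smul]
      exact U'.zero_mem
  have hall : ∀ a : K, a • v ∈ U' := by
    intro a
    have hne : polar q v u₁ * polar q d' d ≠ 0 := mul_ne_zero hβ (by rwa [polar_comm])
    have h1 := hkey ((a * (polar q v u₁ * polar q d' d)⁻¹) • d) d' (by rw [polar_smul_right, hvd, smul_zero]) hvd' (by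
      rw [polar_smul_left, polar_comm q d y, hyd, smul_zero, zero_smul]
      exact U'.zero_mem) hd'y
    rw [polar_smul_right, smul_eq_mul] at h1
    have h3 : polar q v u₁ * (a * (polar q v u₁ * polar q d' d)⁻¹ * polar q d' d) = a := by
      have : polar q v u₁ * (a * (polar q v u₁ * polar q d' d)⁻¹ * polar q d' d) =
        a * ((polar q v u₁ * polar q d' d)⁻¹ * (polar q v u₁ * polar q d' d)) := by ring
      rw [this, inv_mul_cancel₀ hne, mul_one]
    rwa [h3] at h1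
  have h1 := S.eq_Ln hU' hv0 hall
  rw [h1, inf_idem, finrank_Ln hv0] at hfr
  omega

theorem exists_l : ∃ l : K, l ≠ 0 ∧ l ≠ 1 ∧ l ≠ -1 := by
  obtain ⟨κ, hκ⟩ := exists_not_F (F := F) (K := K) S.hr
  refine ⟨κ, ?_, ?_, ?_⟩
  · rintro rfl; exact hκ ⟨0, map_zero _⟩
  · rintro rfl; exact hκ ⟨1, map_one _⟩
  · rintro rfl; exact hκ ⟨-1, by rw [map_neg, map_one]⟩

/-- opposite maximal pairs lie in a hyperbolic plane -/
theorem inL {w : ℕ} (hw0 : 0 < w) (hwr : w < finrank F K) (hmax : Mx q M w) {v : V} (hv0 : v ≠ 0) (hv : q v = 0)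
    {U' : Submodule F V} (hU' : Mem q M U') (hfr : finrank F (Ln K v ⊓ U' : Submodule F V) = w) {u₁ : V}
    (hu₁ : u₁ ∈ U') (hβ : polar q v u₁ ≠ 0) {f : V} (hf : q f = 0) (hvf : polar q v f = 1)
    (hPu : ∀ p, polar q v p = 0 → polar q f p = 0 → polar q u₁ p = 0) {y : V} (hy : y ∈ U') {p : V}
    (hvp : polar q v p = 0) (hfp : polar q f p = 0) : polar q y p = 0 := by
  by_contra hyp
  have hk := S.hk
  obtain ⟨P, hP⟩ : ∃ P, P = (⊤ : Submodule K V) ⊓ perp q (Submodule.span K {v, f}) := ⟨_, rfl⟩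
  have hPn : NDs q P := by rw [hP]; exact nds_cut S.nd (nds_top S.nd) trivial trivial hv hf hvf
  have hPr : 2 ≤ finrank K P := by rw [hP]; exact pperp_dim S.nd hk v f
  have hPm : ∀ x, x ∈ P ↔ polar q v x = 0 ∧ polar q f x = 0 := fun x => by
    rw [hP, mem_cut]; simp
  have hfv : polar q f v = 1 := by rw [polar_comm]; exact hvf
  obtain ⟨y', hy'⟩ : ∃ y', y' = y - polar q f y • v - polar q v y • f := ⟨_, rfl⟩
  have hy'P : y' ∈ P := by
    rw [hPm, hy']
    constructor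
    · rw [polar_sub_right, polar_sub_right, polar_smul_right, polar_smul_right, polar_self', hv, hvf]; simp
    · rw [polar_sub_right, polar_sub_right, polar_smul_right, polar_smul_right, polar_self', hf, hfv]; simp
  have hyy : ∀ x ∈ P, polar q x y' = polar q x y := by
    intro x hx
    obtain ⟨h1, h2⟩ := (hPm x).1 hx
    rw [hy', polar_sub_right, polar_sub_right, polar_smul_right, polar_smul_right, polar_comm q x v, h1,
      polar_comm q x f, h2, smul_zero, smul_zero, sub_zero, sub_zero]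
  have hy'0 : y' ≠ 0 := by
    intro h
    have h1 := hyy p ((hPm p).2 ⟨hvp, hfp⟩)
    rw [h, polar_zero_right, polar_comm] at h1
    exact hyp h1.symm
  obtain ⟨l, hl0, hl1, hl2⟩ := S.exists_l
  obtain ⟨a, ha, hqa, hay, -⟩ := exists_third S.nd S.h2K hl0 hl1 hl2 hPn hPr hy'P hy'0
  have ha0 : a ≠ 0 := by rintro rfl; exact hqa (QuadraticMap.map_zero q)
  obtain ⟨u, hu, hqu, hua, hua'⟩ := exists_third S.nd S.h2K hl0 hl1 hl2 hPn hPr ha ha0
  obtain ⟨a', ha'⟩ : ∃ a', a' = refl q u a := ⟨_, rfl⟩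
  have ha'e : a' = a - ((q u)⁻¹ * polar q u a) • u := by rw [ha', refl_apply hqu]
  have ha'P : a' ∈ P := by rw [ha'e]; exact P.sub_mem ha (P.smul_mem _ hu)
  have hqa' : q a = q a' := by rw [ha', refl_mem u a]
  have hqa'0 : q a' ≠ 0 := by rw [← hqa']; exact hqa
  have hne : a ∉ K ∙ a' := by
    intro h3
    obtain ⟨s, hs⟩ := Submodule.mem_span_singleton.1 h3
    have hs0 : s ≠ 0 := by rintro rfl; rw [zero_smul] at hs; exact ha0 hs.symm
    apply hua'
    rw [Submodule.mem_span_singleton]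
    obtain ⟨n, hn⟩ : ∃ n, n = (q u)⁻¹ * polar q u a := ⟨_, rfl⟩
    have hn0 : n ≠ 0 := by rw [hn]; exact mul_ne_zero (inv_ne_zero hqu) hua
    have h4 : a' = s⁻¹ • a := by rw [← hs, smul_smul, inv_mul_cancel₀ hs0, one_smul]
    have h5 : n • u = (1 - s⁻¹) • a := by
      rw [sub_smul, one_smul, ← h4, ha'e, ← hn]; abel
    exact ⟨n⁻¹ * (1 - s⁻¹), by rw [mul_smul, ← h5, smul_smul, inv_mul_cancel₀ hn0, one_smul]⟩
  obtain ⟨m, hm, hmz⟩ := S.rr hqa hqa'
  obtain ⟨hva, hfa⟩ := (hPm a).1 ha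
  obtain ⟨hva', hfa'⟩ := (hPm a').1 ha'P
  have hmfix : ∀ z, polar q a z = 0 → polar q a' z = 0 → m z = z := by
    intro z h1 h2
    rw [hmz, refl_of_perp h2, refl_of_perp h1]
  have hu₁U : u₁ ∉ (Ln K v : Submodule F V) := by
    intro h
    obtain ⟨c, rfl⟩ := mem_Ln.1 h
    apply hβ
    rw [polar_smul_right, polar_self', hv]; simp
  have h1 : m y ∈ U' := by
    refine grow hmax hU' hfr hm ?_ hu₁ hu₁U ?_ y hy
    · rintro x ⟨hx, -⟩
      obtain ⟨c, rfl⟩ := mem_Ln.1 hx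
      apply hmfix
      · rw [polar_smul_right, polar_comm q a v, hva, smul_zero]
      · rw [polar_smul_right, polar_comm q a' v, hva', smul_zero]
    · rw [hmfix u₁ (by rw [polar_comm]; exact hPu a hva hfa) (by rw [polar_comm]; exact hPu a' hva' hfa')]
      exact hu₁
  have h2 : m y - y ∈ P := by
    rw [hmz, refl_apply hqa, refl_apply hqa'0]
    have e1 : ∀ z : K, y - ((q a')⁻¹ * polar q a' y) • a' - z • a - y = -(((q a')⁻¹ * polar q a' y) • a') - z • a := by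
      intro z; abel
    rw [e1]
    exact P.sub_mem (P.neg_mem (P.smul_mem _ ha'P)) (P.smul_mem _ ha)
  obtain ⟨h3, h4⟩ := (hPm _).1 h2
  have h5 := S.dicho hw0 hwr hmax hv0 hv hU' hfr hu₁ hβ (U'.sub_mem h1 hy) h3
  obtain ⟨c, hc⟩ := mem_Ln.1 h5
  rw [hc, polar_smul_right, hfv, smul_eq_mul, mul_one] at h4
  rw [h4, zero_smul, sub_eq_zero] at hc
  have h6 : refl q a' y = refl q a y := by
    have h7 := congrArg (refl q a) hc
    rwa [hmz, refl_refl] at h7
  rw [refl_apply hqa'0, refl_apply hqa, sub_right_inj] at h6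
  apply hne
  rw [Submodule.mem_span_singleton]
  have h8 : (q a)⁻¹ * polar q a y ≠ 0 := mul_ne_zero (inv_ne_zero hqa) (by rw [← hyy a ha]; exact hay)
  exact ⟨((q a)⁻¹ * polar q a y)⁻¹ * ((q a')⁻¹ * polar q a' y), by
    rw [mul_smul, h6, smul_smul, inv_mul_cancel₀ h8, one_smul]⟩

/-- an orthogonal maximal pair -/
theorem caseB {w : ℕ} (hw0 : 0 < w) (hwr : w < finrank F K) (hmax : Mx q M w) {v : V} (hv0 : v ≠ 0) (hv : q v = 0)
    {U' : Submodule F V} (hU' : Mem q M U') (hfr : finrank F (Ln K v ⊓ U' : Submodule F V) = w) :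
    ∃ v, v ≠ 0 ∧ q v = 0 ∧ ∃ U' : Submodule F V, Mem q M U' ∧ finrank F (Ln K v ⊓ U' : Submodule F V) = w ∧
      ∀ y ∈ U', polar q v y = 0 := by
  by_cases hA : ∀ y ∈ U', polar q v y = 0
  · exact ⟨v, hv0, hv, U', hU', hfr, hA⟩
  push Not at hA
  obtain ⟨u₁, hu₁, hβ⟩ := hA
  have hk := S.hk
  obtain ⟨β, hβe⟩ : ∃ β, β = polar q v u₁ := ⟨_, rfl⟩
  rw [← hβe] at hβ
  obtain ⟨f, hfe⟩ : ∃ f, f = β⁻¹ • u₁ - q (β⁻¹ • u₁) • v := ⟨_, rfl⟩
  obtain ⟨hf, hvf⟩ := adjust_singular (Q := q) (y := β⁻¹ • u₁) hv (by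
    rw [polar_smul_right, ← hβe, smul_eq_mul, inv_mul_cancel₀ hβ])
  rw [← hfe] at hf hvf
  have hfv : polar q f v = 1 := by rw [polar_comm]; exact hvf
  have hu₁f : u₁ = β • f + (β * q (β⁻¹ • u₁)) • v := by
    rw [hfe, smul_sub, smul_smul, mul_inv_cancel₀ hβ, one_smul, smul_smul]; abel
  have hPu : ∀ p, polar q v p = 0 → polar q f p = 0 → polar q u₁ p = 0 := by
    intro p h1 h2
    rw [hu₁f, polar_add_left, polar_smul_left, polar_smul_left, h1, h2]; simp
  have hL : ∀ {y : V}, y ∈ U' → ∀ {p : V}, polar q v p = 0 → polar q f p = 0 → polar q y p = 0 := by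
    intro y hy p hvp hfp
    exact S.inL hw0 hwr hmax hv0 hv hU' hfr hu₁ (by rw [← hβe]; exact hβ) hf hvf hPu hy hvp hfp
  obtain ⟨x₀, hx₀, hx₀0⟩ : ∃ x ∈ (Ln K v ⊓ U' : Submodule F V), x ≠ 0 := by
    apply Submodule.exists_mem_ne_zero_of_ne_bot
    intro h
    rw [h, finrank_bot] at hfr
    omega
  obtain ⟨c₀, hc₀⟩ := mem_Ln.1 hx₀.1
  have hc₀0 : c₀ ≠ 0 := by rintro rfl; rw [zero_smul] at hc₀; exact hx₀0 hc₀
  have hc₀U : c₀ • v ∈ U' := by rw [← hc₀]; exact hx₀.2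
  have hPn := nds_cut S.nd (nds_top S.nd) (e := v) (f := f) trivial trivial hv hf hvf
  obtain ⟨d, hd, hqd⟩ := universal S.nd S.h2K hPn (pperp_dim S.nd hk v f) (c₀ * β⁻¹)
  obtain ⟨-, hvd, hfd⟩ := mem_cut.1 hd
  obtain ⟨m, hm, hmz⟩ := S.sg hv hvd
  have hmU : ∀ z ∈ U', m z = z + polar q v z • d - (c₀ * β⁻¹ * polar q v z) • v := by
    intro z hz
    rw [hmz, siegMap_apply, polar_comm q d z, hL hz hvd hfd, hqd, zero_smul, sub_zero]
  have hmv : ∀ c : K, m (c • v) = c • v := fun c => by rw [hmz, map_smul, sieg_self hv hvd]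
  obtain ⟨U'', hU''⟩ : ∃ U'' : Submodule F V, U'' = U'.map (m : V →ₗ[F] V) := ⟨_, rfl⟩
  have hU''M : Mem q M U'' := by rw [hU'']; exact hU'.map hm
  have horth : ∀ z ∈ U'', polar Q z u₁ = 0 := by
    intro z hz
    rw [hU''] at hz
    obtain ⟨z, hz, rfl⟩ := hz
    show polar Q (m z) u₁ = 0
    rw [hmU z hz, polar_sub_left, polar_add_left, S.ts2 hU' hz hu₁, ← S.bQ, ← S.bQ, polar_comm q d u₁,
      hPu d hvd hfd, ← hβe]
    have e1 : c₀ * β⁻¹ * polar q v z * β = c₀ * polar q v z := by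
      rw [mul_assoc, mul_assoc, mul_comm (polar q v z) β, inv_mul_cancel_left₀ hβ]
    rw [e1, S.bQ, S.ts2 hU' hc₀U hz, mul_zero, map_zero]; ring
  have hmu : m u₁ ∉ U' := by
    intro h
    have h1 := U'.sub_mem h hu₁
    have h2 : m u₁ - u₁ = β • d - (c₀ * β⁻¹ * β) • v := by
      rw [hmU u₁ hu₁, ← hβe]; abel
    rw [h2] at h1
    have h3 := S.dicho hw0 hwr hmax hv0 hv hU' hfr hu₁ (by rw [← hβe]; exact hβ) h1 (by
      rw [polar_sub_right, polar_smul_right, polar_smul_right, hvd, polar_self', hv]; simp)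
    obtain ⟨c, hc⟩ := mem_Ln.1 h3
    have h4 : β • d = (c + c₀ * β⁻¹ * β) • v := by rw [add_smul, ← hc]; abel
    have h5 := congrArg (polar q f) h4
    rw [polar_smul_right, polar_smul_right, hfd, hfv, smul_zero, smul_eq_mul, mul_one] at h5
    rw [← h5, zero_smul] at h4
    rcases smul_eq_zero.1 h4 with h6 | h6
    · exact hβ h6
    · rw [h6, QuadraticMap.map_zero] at hqd
      exact mul_ne_zero hc₀0 (inv_ne_zero hβ) hqd.symm
  have hWle : (Ln K v ⊓ U' : Submodule F V) ≤ U'' ⊓ U' := by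
    rintro x ⟨hx, hx'⟩
    refine ⟨?_, hx'⟩
    obtain ⟨c, rfl⟩ := mem_Ln.1 hx
    rw [hU'']
    exact ⟨c • v, hx', hmv c⟩
  have hlt : finrank F (U'' ⊓ U' : Submodule F V) < finrank F K := by
    have h1 : finrank F (U'' ⊓ U' : Submodule F V) ≤ finrank F K := by
      rw [← hU'.finrank_eq]; exact Submodule.finrank_mono inf_le_right
    refine lt_of_le_of_ne h1 fun h2 => hmu ?_
    have h3 : U'' ⊓ U' = U'' := Submodule.eq_of_le_of_finrank_eq inf_le_left (by rw [h2, hU''M.finrank_eq])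
    have h4 : m u₁ ∈ U'' ⊓ U' := by rw [h3, hU'']; exact ⟨u₁, hu₁, rfl⟩
    exact h4.2
  have hfr2 : finrank F (U'' ⊓ U' : Submodule F V) = w := by
    apply le_antisymm (hmax _ _ hU''M hU' hlt)
    rw [← hfr]; exact Submodule.finrank_mono hWle
  have hWeq : (Ln K v ⊓ U' : Submodule F V) = U'' ⊓ U' :=
    Submodule.eq_of_le_of_finrank_eq hWle (by rw [hfr, hfr2])
  obtain ⟨v₂, hv₂0, hv₂, m₂, hm₂, hU''e, U₃, hU₃, hU₃m, hfr3⟩ := norm_pair hU''M hU'
  refine ⟨v₂, hv₂0, hv₂, U₃, hU₃, by rw [hfr3, hfr2], ?_⟩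
  by_contra hcon
  push Not at hcon
  obtain ⟨u₂, hu₂, hne⟩ := hcon
  have hm1 : ∀ y, m₂ (m₂⁻¹ y) = y := fun y => by rw [← LinearEquiv.mul_apply, mul_inv_cancel]; rfl
  have h1 : m₂⁻¹ u₁ ∈ U₃ := by rw [hU₃m, hm1]; exact hu₁
  have h2 : polar q v₂ (m₂⁻¹ u₁) = 0 := by
    apply S.C_zero'
    intro z hz
    rw [← O_polar (S.hM hm₂), hm1]
    apply horth
    rw [hU''e]
    exact ⟨z, hz, rfl⟩
  have h3 := S.dicho hw0 hwr hmax hv₂0 hv₂ hU₃ (by rw [hfr3, hfr2]) hu₂ hne h1 h2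
  have h4 : u₁ ∈ U'' := by
    rw [hU''e]
    exact ⟨_, h3, hm1 u₁⟩
  have h5 : u₁ ∈ (Ln K v ⊓ U' : Submodule F V) := by rw [hWeq]; exact ⟨h4, hu₁⟩
  obtain ⟨c, hc⟩ := mem_Ln.1 h5.1
  apply hβ
  rw [hβe, hc, polar_smul_right, polar_self', hv]; simp

end FO

end Cfsg.Agent.Lib.FldOH94
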