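import Mathlib
import Cfsg.Agent.Lib.FldO2H94

set_option autoImplicit false
set_option linter.unusedSectionVars false
set_option linter.unusedSimpArgs false
set_option linter.unusedVariables false

/-!
Overgroups of extension field subgroups in orthogonal groups: root elements inside lines.
-/

namespace Cfsg.Agent.Lib.FldOH94

open QuadraticMap Module Cfsg.Agent.Lib.Quad Cfsg.Agent.Lib.OrthMax Cfsg.Agent.Lib.OrthNd
  Cfsg.Agent.Lib.ExtFldH94 Cfsg.Agent.Lib.OrthDecH94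
open Cfsg.Agent.Lib.SLBlockH94 (Dec)
open Cfsg.Agent.Lib.FldSpH94 (exists_phi stable_line)
open Cfsg.Agent.Lib.ExtFldH94 (exists_dual1)

theorem hyper' {F V : Type*} [Field F] [AddCommGroup V] [Module F V] [FiniteDimensional F V] {U W : Submodule F V}
    (hWU : W ≤ U) (h : finrank F U ≤ finrank F W + 1) {x : V} (hx : x ∈ U)
    (hxW : x ∉ W) {ω : Dual F V} (h1 : ω x = 1) (h0 : ∀ w ∈ W, ω w = 0) {u : V} (hu : u ∈ U) :
    u - ω u • x ∈ W := by
  have hlt : W < W ⊔ Submodule.span F {x} := by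
    refine lt_of_le_of_ne le_sup_left fun heq => hxW ?_
    rw [heq]
    exact Submodule.mem_sup_right (Submodule.mem_span_singleton_self _)
  have hle : W ⊔ Submodule.span F {x} ≤ U := sup_le hWU ((Submodule.span_singleton_le_iff_mem _ _).2 hx)
  have heq : W ⊔ Submodule.span F {x} = U := by
    apply Submodule.eq_of_le_of_finrank_le hle
    have := Submodule.finrank_lt_finrank_of_lt hlt
    omega
  rw [← heq] at hu
  obtain ⟨w, hw, y, hy, rfl⟩ := Submodule.mem_sup.1 hu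
  obtain ⟨s, rfl⟩ := Submodule.mem_span_singleton.1 hy
  rw [map_add, h0 w hw, map_smul, h1, zero_add, smul_eq_mul, mul_one, add_sub_cancel_right]
  exact hw

theorem exists_fun' {F V : Type*} [Field F] [AddCommGroup V] [Module F V] {W : Submodule F V} {x : V} (hx : x ∉ W) :
    ∃ φ : Dual F V, φ x = 1 ∧ ∀ w ∈ W, φ w = 0 := by
  obtain ⟨f, h1, h2⟩ := Submodule.exists_le_ker_of_notMem hx
  refine ⟨(f x)⁻¹ • f, ?_, fun w hw => ?_⟩
  · rw [LinearMap.smul_apply, smul_eq_mul, inv_mul_cancel₀ h1]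
  · rw [LinearMap.smul_apply, show f w = 0 from h2 hw, smul_zero]

/-- functionals are given by the form -/
theorem exists_rep {K V : Type*} [Field K] [AddCommGroup V] [Module K V] [FiniteDimensional K V]
    {q : QuadraticForm K V} (hq : Nd q) (φ : V →ₗ[K] K) : ∃ y, ∀ z, φ z = polar q y z := by
  have hinj : Function.Injective (polarBilin q) := by
    rw [injective_iff_map_eq_zero]
    intro y hy
    exact hq.eq_zero fun z => DFunLike.congr_fun hy z
  have hsurj := (LinearMap.injective_iff_surjective_of_finrank_eq_finrank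
    (Subspace.dual_finrank_eq (K := K) (V := V)).symm).1 hinj
  obtain ⟨y, hy⟩ := hsurj φ
  exact ⟨y, fun z => by rw [← hy]; rfl⟩

variable {F K V : Type*} [Field F] [Field K] [Algebra F K] [AddCommGroup V] [Module F V] [Module K V]
  [IsScalarTower F K V] [FiniteDimensional F K] [FiniteDimensional K V] [FiniteDimensional F V]
  {Q : QuadraticForm F V} {b : Dual F K} {q : QuadraticForm K V} {M : Subgroup (V ≃ₗ[F] V)}

namespace FO

variable (S : FO Q b q M)
include S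

omit [FiniteDimensional K V] [FiniteDimensional F V] in
/-- transvections do not normalise the field -/
theorem p_contra (hb : b ≠ 0) (h2 : (2 : F) ≠ 0) (hr : (finrank F K).Prime) {c : K} (hc0 : c ≠ 0) (hbc : b c = 0)
    (h : ∀ κ : K, ∃ X : K, ∀ a : K, a * X + b (a * X) • c = κ * (a + b a • c)) : False := by
  obtain ⟨κ, hκ⟩ := exists_not_F (F := F) (K := K) hr
  obtain ⟨X, hX⟩ := h κ
  obtain ⟨a₁, ha₁⟩ : ∃ a : K, b a = 1 := by
    obtain ⟨a, ha⟩ : ∃ a : K, b a ≠ 0 := by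
      by_contra hcon
      push Not at hcon
      exact hb (LinearMap.ext hcon)
    exact ⟨(b a)⁻¹ • a, by rw [map_smul, smul_eq_mul, inv_mul_cancel₀ ha]⟩
  by_cases hXκ : X = κ
  · subst hXκ
    have h1 := hX a₁
    rw [ha₁, one_smul, mul_add, mul_comm X a₁, add_right_inj, Algebra.smul_def] at h1
    exact hκ ⟨_, mul_right_cancel₀ hc0 h1⟩
  obtain ⟨s, hs⟩ : ∃ s, s = b (c * X) := ⟨_, rfl⟩
  have hXs : X = κ - algebraMap F K s := by
    have h1 := hX c
    rw [hbc, zero_smul, add_zero, ← hs, Algebra.smul_def] at h1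
    apply mul_right_cancel₀ hc0
    linear_combination h1
  have hs0 : s ≠ 0 := by
    rintro hs0
    apply hXκ
    rw [hXs, hs0, map_zero, sub_zero]
  have hs0' : algebraMap F K s ≠ 0 := fun h => hs0 ((map_eq_zero (algebraMap F K)).1 h)
  obtain ⟨t, ht⟩ : ∃ t, t = b (a₁ * X) := ⟨_, rfl⟩
  have ha₁e : algebraMap F K s * a₁ = (algebraMap F K t - κ) * c := by
    have h1 := hX a₁
    rw [ha₁, one_smul, ← ht, Algebra.smul_def] at h1
    rw [hXs] at h1
    linear_combination -h1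
  have hker : ∀ y : K, b y = 0 → ∃ u : F, y = algebraMap F K u * c := by
    intro y hy
    have h1 := hX y
    rw [hy, zero_smul, add_zero, Algebra.smul_def] at h1
    refine ⟨s⁻¹ * b (y * X), ?_⟩
    rw [map_mul, map_inv₀]
    have h3 : algebraMap F K s * y = algebraMap F K (b (y * X)) * c := by
      rw [hXs] at h1 ⊢
      linear_combination -h1
    rw [mul_assoc, ← h3, inv_mul_cancel_left₀ hs0']
  obtain ⟨β, hβ⟩ : ∃ β, β = b (κ * κ * c) := ⟨_, rfl⟩
  obtain ⟨u, hu⟩ := hker (κ * κ * c - β • a₁) (by rw [map_sub, map_smul, ha₁, ← hβ, smul_eq_mul, mul_one, sub_self])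
  rw [Algebra.smul_def] at hu
  obtain ⟨σ, hσ⟩ : ∃ σ, σ = algebraMap F K s := ⟨_, rfl⟩
  obtain ⟨τ, hτ⟩ : ∃ τ, τ = algebraMap F K t := ⟨_, rfl⟩
  obtain ⟨β', hβ'⟩ : ∃ β', β' = algebraMap F K β := ⟨_, rfl⟩
  obtain ⟨u', hu'⟩ : ∃ u', u' = algebraMap F K u := ⟨_, rfl⟩
  rw [← hβ', ← hu'] at hu
  rw [← hσ, ← hτ] at ha₁e
  rw [← hσ] at hXs hs0'
  have hquad : σ * (κ * κ) = β' * (τ - κ) + σ * u' := by
    apply mul_right_cancel₀ hc0
    linear_combination σ * hu + β' * ha₁e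
  -- the square of X
  have hXX : ∀ a, a * (X * X) + b (a * (X * X)) • c = κ * κ * (a + b a • c) := by
    intro a
    have h1 := hX (a * X)
    rw [hX a] at h1
    rw [← mul_assoc, h1]; ring
  have hinj : ∀ x y : K, x + b x • c = y + b y • c → x = y := by
    intro x y hxy
    have h1 := congrArg b hxy
    rw [map_add, map_add, map_smul, map_smul, hbc, smul_zero, smul_zero, add_zero, add_zero] at h1
    rw [h1] at hxy
    exact add_right_cancel hxy
  have hXq : σ * (X * X) = β' * (τ - X) + σ * u' := by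
    apply hinj
    have e1 : ∀ (z : F) (x : K), b (algebraMap F K z * x) = z * b x := fun z x => by
      rw [← Algebra.smul_def, map_smul, smul_eq_mul]
    have h1 := hXX 1
    have h3 := hX 1
    rw [one_mul] at h1 h3
    have h4 : b (σ * (X * X)) = s * b (X * X) := by rw [hσ, e1]
    have h5 : b (β' * (τ - X) + σ * u') = β * (t * b 1 - b X) + s * u * b 1 := by
      have e2 : β' * (τ - X) + σ * u' = algebraMap F K β * (algebraMap F K t * 1 - X) +
        algebraMap F K s * (algebraMap F K u * 1) := by rw [hβ', hτ, hσ, hu']; ring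
      rw [e2, map_add, e1, map_sub, e1, e1, e1]; ring
    rw [h4, h5]
    simp only [Algebra.smul_def, map_mul, map_add, map_sub] at h1 h3 ⊢
    rw [← hσ, ← hτ, ← hβ', ← hu']
    linear_combination σ * h1 + β' * h3 + (1 + algebraMap F K (b 1) * c) * hquad
  have h3 : (2 : K) * κ = algebraMap F K (s - s⁻¹ * β) := by
    have h4 : σ * (σ * (2 * κ)) = σ * (σ * σ - β') := by
      rw [hXs] at hXq
      linear_combination hquad - hXq
    have h5 := mul_left_cancel₀ hs0' h4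
    rw [map_sub, map_mul, map_inv₀, ← hσ, ← hβ']
    apply mul_left_cancel₀ hs0'
    rw [h5, mul_sub, mul_inv_cancel_left₀ hs0']
  apply hκ
  refine ⟨2⁻¹ * (s - s⁻¹ * β), ?_⟩
  rw [map_mul, map_inv₀, ← h3, map_ofNat]
  have h22 : (2 : K) ≠ 0 := by
    intro h
    apply h2
    have : algebraMap F K 2 = 0 := by rw [map_ofNat]; exact h
    exact (map_eq_zero (algebraMap F K)).1 this
  rw [inv_mul_cancel_left₀ h22]

variable [Finite K]

/-- transvections on a singular line, with a given axis -/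
theorem tv0 (hex : ∃ g ∈ M, ¬ ∀ a : K, ∃ c : K, ∀ x, g (a • x) = c • g x) :
    ∃ v, v ≠ 0 ∧ q v = 0 ∧ ∃ ω : Dual F K, ω ≠ 0 ∧ ∀ c : K, ω c = 0 → ∃ m ∈ M, ∀ κ : K,
      m (κ • v) = κ • v + ω κ • (c • v) := by
  have hr := S.hr
  obtain ⟨w, hw0, hwr, hmax, v₀, hv₀0, hv₀, U₀, hU₀, hfr₀⟩ := S.exists_max hex
  obtain ⟨v, hv0, hv, U', hU', hfr, hB⟩ := S.caseB hw0 hwr hmax hv₀0 hv₀ hU₀ hfr₀
  have hU'r := hU'.finrank_eq
  have hvr : finrank F (Ln K v : Submodule F V) = finrank F K := finrank_Ln hv0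
  -- the intersection is a hyperplane
  have hw1 : w + 1 = finrank F K := by
    by_contra hne
    obtain ⟨u₁, hu₁, hu₁W⟩ : ∃ x ∈ U', x ∉ (Ln K v : Submodule F V) ⊓ U' := Dec.exists_out (by omega)
    have hu₁U : u₁ ∉ (Ln K v : Submodule F V) := fun h => hu₁W ⟨h, hu₁⟩
    obtain ⟨u₂, hu₂, hu₂W⟩ : ∃ x ∈ U', x ∉ ((Ln K v : Submodule F V) ⊓ U') ⊔ Submodule.span F {u₁} := by
      apply Dec.exists_out
      have h1 := Submodule.finrank_add_le_finrank_add_finrank ((Ln K v : Submodule F V) ⊓ U')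
        (Submodule.span F {u₁})
      have h2 : finrank F (Submodule.span F {u₁}) ≤ 1 := by
        have := finrank_span_le_card (R := F) ({u₁} : Set V)
        simpa using this
      omega
    obtain ⟨φ, h1, h2, h3⟩ := exists_phi hr hu₁ hu₁U hu₂ hu₂W
    obtain ⟨y, hy⟩ := exists_rep S.nd φ
    have hvy : polar q v y = 0 := by rw [polar_comm, ← hy, h1]
    refine stable_line hr hv0 (U' := U') (by rw [hfr]; exact hw0) (by rw [hfr]; exact hwr) h3 (fun c hc => ?_)
    obtain ⟨m, hm, hmz⟩ := S.sg hv (d := -(c • y)) (by rw [polar_neg_right, polar_smul_right, hvy, smul_zero, neg_zero])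
    have h4 : ∀ z ∈ U', m z = z + (c * φ z) • v := by
      intro z hz
      rw [hmz, siegMap_apply, hB z hz, zero_smul, mul_zero, zero_smul, sub_zero, add_zero, polar_neg_left,
        polar_smul_left, ← hy, smul_eq_mul, neg_smul, sub_neg_eq_add]
    have h5 := grow hmax hU' hfr hm (by
      rintro z ⟨hz, hz'⟩
      rw [h4 z hz']
      obtain ⟨d, rfl⟩ := mem_Ln.1 hz
      rw [map_smul, h1, smul_zero, mul_zero, zero_smul, add_zero]) hu₁ hu₁U (by
      rw [h4 u₁ hu₁, h2, mul_one]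
      exact Submodule.add_mem _ hu₁ hc) u₂ hu₂
    rw [h4 u₂ hu₂] at h5
    have h6 := Submodule.sub_mem _ h5 hu₂
    rw [add_sub_cancel_left] at h6
    rw [mul_comm]; exact h6
  -- the other side
  obtain ⟨g, hg, v', hv'0, hv', hU'e⟩ := hU'
  have hgU' : ∀ y, y ∈ U' ↔ g.symm y ∈ (Ln K v' : Submodule F V) := by
    intro y
    rw [hU'e]
    constructor
    · rintro ⟨x, hx, rfl⟩
      show g.symm (g x) ∈ _
      rw [LinearEquiv.symm_apply_apply]; exact hx
    · intro h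
      exact ⟨_, h, LinearEquiv.apply_symm_apply g y⟩
  have hr2 := hr.two_le
  obtain ⟨u₁, hu₁, hu₁W⟩ : ∃ x ∈ (Ln K v : Submodule F V), x ∉ (Ln K v : Submodule F V) ⊓ U' :=
    Dec.exists_out (by omega)
  have hgu₁ : g.symm u₁ ∉ (Ln K v' : Submodule F V) := fun h => hu₁W ⟨hu₁, (hgU' _).2 h⟩
  obtain ⟨φ, hφ1, hφ0⟩ := exists_dual1 hgu₁
  obtain ⟨y, hy⟩ := exists_rep S.nd φ
  have hperp : polar q v' (g.symm u₁) = 0 := by
    apply S.C_zero'
    intro z hz
    rw [← O_polar (S.hM hg), LinearEquiv.apply_symm_apply]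
    have h1 : g z ∈ U' := by rw [hU'e]; exact ⟨z, hz, rfl⟩
    obtain ⟨e, rfl⟩ := mem_Ln.1 hu₁
    rw [← S.bQ', polar_comm q (g z) v, hB _ h1, mul_zero, map_zero]
  obtain ⟨ω', hω1, hω0⟩ := exists_fun' hu₁W
  obtain ⟨ω, hω⟩ : ∃ ω : Dual F K, ∀ κ, ω κ = ω' (κ • v) :=
    ⟨ω' ∘ₗ ((LinearMap.toSpanSingleton K V v).restrictScalars F), fun κ => rfl⟩
  have hyp : ∀ {u : V}, u ∈ (Ln K v : Submodule F V) → u - ω' u • u₁ ∈ (Ln K v : Submodule F V) ⊓ U' :=
    fun hu => hyper' inf_le_left (by omega) hu₁ hu₁W hω1 hω0 hu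
  refine ⟨v, hv0, hv, ω, ?_, fun c hc => ?_⟩
  · intro h
    obtain ⟨e, he⟩ := mem_Ln.1 hu₁
    have h1 := hω e
    rw [h, ← he, hω1] at h1
    exact zero_ne_one h1
  · have hcU : c • v ∈ U' := by
      have h1 := hyp (smul_mem_Ln v c)
      rw [← hω, hc, zero_smul, sub_zero] at h1
      exact h1.2
    obtain ⟨κ₀, hκ₀⟩ := mem_Ln.1 ((hgU' _).1 hcU)
    have hv'y : polar q v' y = 0 := by rw [polar_comm, ← hy, hφ0]
    obtain ⟨m, hm, hmz⟩ := S.sg hv' (d := -(κ₀ • y)) (by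
      rw [polar_neg_right, polar_smul_right, hv'y, smul_zero, neg_zero])
    have h4 : ∀ z, polar q v' z = 0 → m z = z + (κ₀ * φ z) • v' := by
      intro z hz
      rw [hmz, siegMap_apply, hz, zero_smul, mul_zero, zero_smul, sub_zero, add_zero, polar_neg_left,
        polar_smul_left, ← hy, smul_eq_mul, neg_smul, sub_neg_eq_add]
    have hm1 : ∀ z ∈ (Ln K v' : Submodule F V), m z = z := by
      intro z hz
      obtain ⟨e, rfl⟩ := mem_Ln.1 hz
      rw [h4 _ (by rw [polar_smul_right, polar_self', hv']; simp), map_smul, hφ0, smul_zero, mul_zero, zero_smul,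
        add_zero]
    have hm2 : m (g.symm u₁) = g.symm u₁ + g.symm (c • v) := by
      rw [h4 _ hperp, hφ1, mul_one, hκ₀]
    refine ⟨g * m * g⁻¹, mul_mem (mul_mem hg hm) (inv_mem hg), fun κ => ?_⟩
    have h1 := hyp (smul_mem_Ln v κ)
    have h2 : ∀ z, (g * m * g⁻¹ : V ≃ₗ[F] V) z = g (m (g.symm z)) := fun z => rfl
    have h3 : κ • v = (κ • v - ω' (κ • v) • u₁) + ω' (κ • v) • u₁ := by abel
    conv_lhs => rw [h3]
    rw [map_add, LinearEquiv.map_smul, h2, h2, hm1 _ ((hgU' _).1 h1.2), hm2, map_add, LinearEquiv.apply_symm_apply,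
      LinearEquiv.apply_symm_apply, LinearEquiv.apply_symm_apply, hω]
    module

/-- all transvections on singular lines -/
theorem tv (hex : ∃ g ∈ M, ¬ ∀ a : K, ∃ c : K, ∀ x, g (a • x) = c • g x) {v : V} (hv0 : v ≠ 0) (hv : q v = 0)
    (ω : Dual F K) (c : K) (hc : ω c = 0) : ∃ m ∈ M, ∀ κ : K, m (κ • v) = κ • v + ω κ • (c • v) := by
  by_cases hω : ω = 0
  · exact ⟨1, one_mem _, fun κ => by rw [hω, LinearMap.zero_apply, zero_smul, add_zero]; rfl⟩
  obtain ⟨v₀, hv₀0, hv₀, ω₀, hω₀, H⟩ := S.tv0 hex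
  obtain ⟨ψ, hψ⟩ := exists_lift (K := K) (V := K) hω₀ ω
  have hψ1 : ∀ x, ψ x = ψ 1 * x := fun x => by
    have := ψ.map_smul x 1
    rwa [smul_eq_mul, mul_one, smul_eq_mul, mul_comm] at this
  obtain ⟨a, ha⟩ : ∃ a, a = ψ 1 := ⟨_, rfl⟩
  have hωa : ∀ κ, ω κ = ω₀ (a * κ) := fun κ => by rw [hψ, hψ1, ha]
  have ha0 : a ≠ 0 := by
    rintro rfl
    apply hω
    apply LinearMap.ext
    intro κ
    rw [hωa, zero_mul, map_zero]; rfl
  obtain ⟨m, hm, hmκ⟩ := H (a * c) (by rw [← hωa]; exact hc)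
  obtain ⟨n, hn, hnv, hnK⟩ := S.trans (smul_ne_zero ha0 hv₀0) (u := a • v₀) (by rw [Q_smul, hv₀, mul_zero]) hv0 hv
  have hnκ : ∀ κ : K, n ((a * κ) • v₀) = κ • v := by
    intro κ
    rw [mul_comm a κ, mul_smul, hnK, hnv]
  refine ⟨n * m * n⁻¹, mul_mem (mul_mem hn hm) (inv_mem hn), fun κ => ?_⟩
  have h1 : n⁻¹ (κ • v) = (a * κ) • v₀ := by
    rw [← hnκ, ← LinearEquiv.mul_apply, inv_mul_cancel]; rfl
  rw [LinearEquiv.mul_apply, LinearEquiv.mul_apply, h1, hmκ, map_add, hnκ, LinearEquiv.map_smul, hnκ, hωa]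

end FO

end Cfsg.Agent.Lib.FldOH94
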