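import Mathlib
import Cfsg.Agent.Lib.FldO3H94

set_option autoImplicit false
set_option linter.unusedSectionVars false
set_option linter.unusedSimpArgs false
set_option linter.unusedVariables false

/-!
Overgroups of extension field subgroups in orthogonal groups: commutators and root elements.
-/

namespace Cfsg.Agent.Lib.FldOH94

open QuadraticMap Module Cfsg.Agent.Lib.Quad Cfsg.Agent.Lib.OrthMax Cfsg.Agent.Lib.OrthNd
  Cfsg.Agent.Lib.ExtFldH94 Cfsg.Agent.Lib.OrthDecH94
open Cfsg.Agent.Lib.SLBlockH94 (Dec)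

variable {F K V : Type*} [Field F] [Field K] [Algebra F K] [AddCommGroup V] [Module F V] [Module K V]
  [IsScalarTower F K V] [FiniteDimensional F K] [FiniteDimensional K V] [FiniteDimensional F V]
  {Q : QuadraticForm F V} {b : Dual F K} {q : QuadraticForm K V} {M : Subgroup (V ≃ₗ[F] V)}

variable (q M) in
/-- elements of the centre of the radical of a line -/
def BE (v : V) (A : K → K) : Prop := ∃ m ∈ M, ∀ z, m z = z + A (polar q v z) • v

namespace FO

variable (S : FO Q b q M)
include S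
variable [Finite K]

theorem be_sub {v : V} (hv : q v = 0) {A A' : K → K} (h : BE q M v A) (h' : BE q M v A') :
    BE q M v (fun κ => A κ - A' κ) := by
  obtain ⟨m, hm, hmz⟩ := h
  obtain ⟨m', hm', hmz'⟩ := h'
  have h1 : ∀ z, polar q v (z - A' (polar q v z) • v) = polar q v z := fun z => by
    rw [polar_sub_right, polar_smul_right, polar_self', hv]; simp
  have hinv : ∀ z, m'⁻¹ z = z - A' (polar q v z) • v := by
    intro z
    apply m'.injective
    rw [← LinearEquiv.mul_apply, mul_inv_cancel, hmz', h1, sub_add_cancel]; rfl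
  refine ⟨m * m'⁻¹, mul_mem hm (inv_mem hm'), fun z => ?_⟩
  rw [LinearEquiv.mul_apply, hinv, hmz, h1]
  module

theorem exists_dualvec {v : V} (hv0 : v ≠ 0) (κ : K) : ∃ z, polar q v z = κ := by
  obtain ⟨y, hy⟩ := S.nd.exists_polar_one' hv0
  exact ⟨κ • y, by rw [polar_smul_right, hy, smul_eq_mul, mul_one]⟩

theorem be_skew {v : V} (hv0 : v ≠ 0) (hv : q v = 0) {A : K → K} (h : BE q M v A) (κ : K) : b (A κ * κ) = 0 := by
  obtain ⟨m, hm, hmz⟩ := h
  obtain ⟨z, hz⟩ := S.exists_dualvec (q := q) hv0 κ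
  have h1 := S.hM hm z
  have h2 : Q (A κ • v) = 0 := by rw [← S.bq, Q_smul, hv, mul_zero, map_zero]
  rw [hmz, hz, Q_add, h2, ← S.bQ', polar_comm q z v, hz, add_zero] at h1
  linear_combination h1

/-- conjugation -/
theorem be_conj {v : V} (hv0 : v ≠ 0) (hv : q v = 0) {A : K → K} (h : BE q M v A) {m : V ≃ₗ[F] V} (hm : m ∈ M)
    {p p' : K → K} (hp : ∀ κ : K, m (κ • v) = p κ • v) (hpp : ∀ κ x, b (p κ * x) = b (κ * p' x)) :
    BE q M v (fun κ => p (A (p' κ))) := by
  obtain ⟨n, hn, hnz⟩ := h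
  have hm1 : ∀ y, m (m⁻¹ y) = y := fun y => by rw [← LinearEquiv.mul_apply, mul_inv_cancel]; rfl
  have h1 : ∀ z, polar q v (m⁻¹ z) = p' (polar q v z) := by
    intro z
    apply sub_eq_zero.1
    apply S.bzero
    intro κ
    rw [mul_sub, map_sub, S.bQ, ← hpp, S.bQ, ← hp, ← O_polar (S.hM hm) (κ • v), hm1, sub_self]
  refine ⟨m * n * m⁻¹, mul_mem (mul_mem hm hn) (inv_mem hm), fun z => ?_⟩
  rw [LinearEquiv.mul_apply, LinearEquiv.mul_apply, hnz, map_add, hm1, hp, h1]

/-- a nontrivial element -/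
theorem exists_BE (hex : ∃ g ∈ M, ¬ ∀ a : K, ∃ c : K, ∀ x, g (a • x) = c • g x) {v : V} (hv0 : v ≠ 0)
    (hv : q v = 0) : ∃ A : K → K, BE q M v A ∧ ∃ κ, A κ ≠ 0 := by
  have hr2 := S.hr.two_le
  by_contra hcon
  push Not at hcon
  obtain ⟨c, hbc, hc0⟩ : ∃ c ∈ LinearMap.ker b, c ≠ 0 := by
    apply Submodule.exists_mem_ne_zero_of_ne_bot
    intro h
    have h1 := LinearMap.finrank_range_add_finrank_ker b
    have h3 := Submodule.finrank_le (LinearMap.range b)
    rw [finrank_self] at h3
    rw [h, finrank_bot] at h1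
    omega
  rw [LinearMap.mem_ker] at hbc
  obtain ⟨m, hm, hmκ⟩ := S.tv hex hv0 hv b c hbc
  obtain ⟨p, hp⟩ : ∃ p : K →ₗ[F] K, ∀ κ, p κ = κ + b κ • c := ⟨LinearMap.id + b.smulRight c, fun κ => rfl⟩
  have hmp : ∀ κ : K, m (κ • v) = p κ • v := fun κ => by rw [hmκ, hp, add_smul, smul_assoc]
  obtain ⟨p', hp'⟩ : ∃ p' : K → K, ∀ x, p' x = x + b (c * x) • (1 : K) := ⟨_, fun x => rfl⟩
  have hpp : ∀ κ x, b (p κ * x) = b (κ * p' x) := by
    intro κ x
    rw [hp, hp', add_mul, mul_add, map_add, map_add, smul_mul_assoc, mul_smul_comm, map_smul, map_smul, mul_one,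
      smul_eq_mul, smul_eq_mul]
    ring
  have hm1 : ∀ y, m (m⁻¹ y) = y := fun y => by rw [← LinearEquiv.mul_apply, mul_inv_cancel]; rfl
  have hm2 : ∀ y, m⁻¹ (m y) = y := fun y => by rw [← LinearEquiv.mul_apply, inv_mul_cancel]; rfl
  have hpinj : Function.Injective p := by
    intro x y hxy
    have h1 : m (x • v) = m (y • v) := by rw [hmp, hmp, hxy]
    have h2 := m.injective h1
    have h3 : (x - y) • v = 0 := by rw [sub_smul, h2, sub_self]
    rcases smul_eq_zero.1 h3 with h4 | h4
    · exact sub_eq_zero.1 h4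
    · exact absurd h4 hv0
  have hpsurj : Function.Surjective p := LinearMap.injective_iff_surjective.1 hpinj
  have hminv : ∀ κ : K, ∃ κ' : K, m⁻¹ (κ • v) = κ' • v := by
    intro κ
    obtain ⟨κ', rfl⟩ := hpsurj κ
    exact ⟨κ', by rw [← hmp, hm2]⟩
  have hCm : ∀ z, polar q v (m⁻¹ z) = p' (polar q v z) := by
    intro z
    apply sub_eq_zero.1
    apply S.bzero
    intro κ
    rw [mul_sub, map_sub, S.bQ, ← hpp, S.bQ, ← hmp, ← O_polar (S.hM hm) (κ • v), hm1, sub_self]
  have hCm0 : ∀ u, polar q v u = 0 → polar q v (m u) = 0 := by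
    intro u hu
    apply S.C_zero
    intro κ
    obtain ⟨κ', hκ'⟩ := hminv κ
    rw [← hm1 (κ • v), O_polar (S.hM hm), hκ', ← S.bQ, hu, mul_zero, map_zero]
  have hCm0' : ∀ u, polar q v u = 0 → polar q v (m⁻¹ u) = 0 := by
    intro u hu
    apply S.C_zero
    intro κ
    rw [← O_polar (S.hM hm), hm1, hmp, ← S.bQ, hu, mul_zero, map_zero]
  -- the commutator relation
  have hE : ∀ d d', polar q v d = 0 → polar q v d' = 0 → ∀ κ : K,
      p (polar q d (m⁻¹ (κ • d'))) = polar q d' (m (p' κ • d)) := by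
    intro d d' hvd hvd' κ
    obtain ⟨x, hx, hxz⟩ := S.sg hv hvd'
    obtain ⟨y, hy, hyz⟩ := S.sg hv hvd
    have hdv : polar q d v = 0 := by rw [polar_comm]; exact hvd
    have hdv' : polar q d' v = 0 := by rw [polar_comm]; exact hvd'
    obtain ⟨A, hA⟩ : ∃ A : K → K, ∀ κ, A κ = p (polar q d (m⁻¹ (κ • d'))) - polar q d' (m (p' κ • d)) :=
      ⟨_, fun κ => rfl⟩
    obtain ⟨x', hx'⟩ : ∃ x', x' = m * y * m⁻¹ := ⟨_, rfl⟩
    have hx'M : x' ∈ M := by rw [hx']; exact mul_mem (mul_mem hm hy) (inv_mem hm)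
    have hxe : ∀ z, x z = z + polar q v z • d' - polar q d' z • v - (q d' * polar q v z) • v := fun z => by
      rw [hxz, siegMap_apply]
    have hx'e : ∀ z, x' z = z + m (p' (polar q v z) • d) - p (polar q d (m⁻¹ z) + q d * p' (polar q v z)) • v := by
      intro z
      rw [hx', LinearEquiv.mul_apply, LinearEquiv.mul_apply, hyz, siegMap_apply, hCm, sub_sub, ← add_smul, map_sub,
        map_add, hm1, hmp]
    have hPw : ∀ w, polar q v (m (p' (polar q v w) • d)) = 0 := fun w =>
      hCm0 _ (by rw [polar_smul_right, hvd, smul_zero])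
    have hvv : polar q v v = 0 := by rw [polar_self', hv, mul_zero]
    have hvx : ∀ w, polar q v (x w) = polar q v w := by
      intro w
      rw [hxe, polar_sub_right, polar_sub_right, polar_add_right, polar_smul_right, polar_smul_right,
        polar_smul_right, hvd', hvv]
      simp
    have hvx' : ∀ w, polar q v (x' w) = polar q v w := by
      intro w
      rw [hx'e, polar_sub_right, polar_add_right, polar_smul_right, hPw, hvv]
      simp
    have hdm : ∀ c : K, polar q d (m⁻¹ (c • v)) = 0 := by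
      intro c
      obtain ⟨c', hc'⟩ := hminv c
      rw [hc', polar_smul_right, hdv, smul_zero]
    have hcomm : ∀ w, x (x' w) = x' (x w) + A (polar q v w) • v := by
      intro w
      rw [hxe (x' w), hx'e (x w), hvx', hvx, hA]
      have e1 : polar q d' (x' w) = polar q d' w + polar q d' (m (p' (polar q v w) • d)) := by
        rw [hx'e, polar_sub_right, polar_add_right, polar_smul_right, hdv', smul_zero, sub_zero]
      have e2 : polar q d (m⁻¹ (x w)) = polar q d (m⁻¹ w) + polar q d (m⁻¹ (polar q v w • d')) := by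
        have e3 : x w = w + polar q v w • d' - (polar q d' w + q d' * polar q v w) • v := by
          rw [hxe, add_smul]; abel
        rw [e3, map_sub, map_add, polar_sub_right, polar_add_right, hdm, sub_zero]
      rw [e1, e2, hx'e w, hxe w]
      simp only [map_add]
      module
    have hBE : BE q M v A := by
      refine ⟨x * x' * x⁻¹ * x'⁻¹, mul_mem (mul_mem (mul_mem hx hx'M) (inv_mem hx)) (inv_mem hx'M), fun z => ?_⟩
      obtain ⟨w, hw⟩ : ∃ w, w = x⁻¹ (x'⁻¹ z) := ⟨_, rfl⟩
      have hz : z = x' (x w) := by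
        rw [hw, ← LinearEquiv.mul_apply x, mul_inv_cancel, LinearEquiv.coe_one, id, ← LinearEquiv.mul_apply x',
          mul_inv_cancel]
        rfl
      have h1 : (x * x' * x⁻¹ * x'⁻¹) z = x (x' w) := by rw [hw]; rfl
      have h2 : polar q v z = polar q v w := by rw [hz, hvx', hvx]
      rw [h1, hcomm, ← hz, h2]
    have h1 := hcon A hBE κ
    rw [hA] at h1
    exact sub_eq_zero.1 h1
  -- two dual vectors
  obtain ⟨d, hdP, hdv⟩ : ∃ d ∈ perp q (K ∙ v), d ∉ K ∙ v := by
    by_contra hcon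
    push Not at hcon
    have h1 := Submodule.finrank_mono (show perp q (K ∙ v) ≤ K ∙ v from hcon)
    rw [finrank_span_singleton hv0] at h1
    have h3 := S.nd.finrank_add_finrank_perp (K ∙ v)
    rw [finrank_span_singleton hv0] at h3
    have := S.hk
    omega
  have hvd : polar q v d = 0 := mem_perp_singleton.1 hdP
  obtain ⟨z₁, -, hz₁, hdz⟩ := exists_one_in S.nd (nds_top S.nd) (B := K ∙ v) le_top (v := d) trivial hdv
  have hvz : polar q v z₁ = 0 := hz₁ v (Submodule.mem_span_singleton_self v)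
  have hvm : polar q v (m z₁) = 0 := hCm0 _ hvz
  refine S.p_contra S.hb S.h2 S.hr hc0 hbc fun κ => ⟨polar q d (m⁻¹ (κ • m z₁)), fun a => ?_⟩
  rw [← hp, ← hp]
  have hvad : polar q v (a • d) = 0 := by rw [polar_smul_right, hvd, smul_zero]
  have h1 := hE (a • d) (κ • m z₁) hvad (by rw [polar_smul_right, hvm, smul_zero]) 1
  have h2 := hE (a • d) (m z₁) hvad hvm 1
  rw [one_smul, polar_smul_left, polar_smul_left, smul_eq_mul, smul_eq_mul] at h1
  rw [one_smul, hm2, polar_smul_left, hdz, smul_eq_mul, mul_one] at h2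
  rw [h1, h2]

/-- pure elements -/
theorem exists_pure (hex : ∃ g ∈ M, ¬ ∀ a : K, ∃ c : K, ∀ x, g (a • x) = c • g x) {v : V} (hv0 : v ≠ 0)
    (hv : q v = 0) : ∃ x y : K, x ∉ F ∙ y ∧ y ≠ 0 ∧ SI Q M (x • v) (y • v) := by
  have hr2 := S.hr.two_le
  obtain ⟨A, hA, ν, hν⟩ := S.exists_BE hex hv0 hv
  have hQv : ∀ c : K, Q (c • v) = 0 := fun c => by rw [← S.bq, Q_smul, hv, mul_zero, map_zero]
  have hskew := S.be_skew hv0 hv hA
  -- A is additive
  have hlin : ∃ A' : K →ₗ[F] K, ∀ κ, A' κ = A κ := by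
    obtain ⟨m, hm, hmz⟩ := hA
    obtain ⟨y, hy⟩ := S.nd.exists_polar_one' hv0
    have h1 : ∀ κ : K, m (κ • y) = κ • y + A κ • v := fun κ => by
      rw [hmz, polar_smul_right, hy, smul_eq_mul, mul_one]
    have hcan : ∀ x z : K, x • v = z • v → x = z := by
      intro x z h
      have h3 : (x - z) • v = 0 := by rw [sub_smul, h, sub_self]
      rcases smul_eq_zero.1 h3 with h4 | h4
      · exact sub_eq_zero.1 h4
      · exact absurd h4 hv0
    refine ⟨⟨⟨A, fun x z => hcan _ _ ?_⟩, fun s x => hcan _ _ ?_⟩, fun κ => rfl⟩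
    · have h2 := h1 (x + z)
      rw [add_smul, map_add, h1, h1] at h2
      rw [add_smul]
      have h3 : x • y + z • y + (A x • v + A z • v) = x • y + z • y + A (x + z) • v := by
        rw [← h2]; abel
      exact (add_left_cancel h3).symm
    · show A (s • x) • v = (s • A x) • v
      have h2 := h1 (s • x)
      rw [smul_assoc, map_smul, h1, smul_add] at h2
      rw [smul_assoc]
      exact (add_left_cancel h2).symm
  obtain ⟨A', hA'⟩ := hlin
  have hsk2 : ∀ x y, b (A x * y) = - b (A y * x) := by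
    intro x y
    have h1 := hskew (x + y)
    rw [← hA', map_add, hA', hA'] at h1
    have e : (A x + A y) * (x + y) = A x * x + A y * y + A x * y + A y * x := by ring
    rw [e, map_add, map_add, map_add, hskew, hskew] at h1
    linear_combination h1
  by_cases hr3 : 3 ≤ finrank F K
  · -- a centre
    obtain ⟨c, hc, hcA⟩ : ∃ c ∈ LinearMap.ker (b ∘ₗ LinearMap.mulLeft F ν), c ∉ F ∙ A ν := by
      apply Dec.exists_out
      have h1 := LinearMap.finrank_range_add_finrank_ker (b ∘ₗ LinearMap.mulLeft F ν)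
      have h2 := Submodule.finrank_le (LinearMap.range (b ∘ₗ LinearMap.mulLeft F ν))
      rw [finrank_self] at h2
      rw [finrank_span_singleton hν]
      omega
    have hbc : b (ν * c) = 0 := hc
    obtain ⟨m, hm, hmκ⟩ := S.tv hex hv0 hv (b ∘ₗ LinearMap.mulLeft F ν) c hc
    have h1 := S.be_conj hv0 hv hA hm (p := fun κ => κ + b (ν * κ) • c) (p' := fun x => x + b (c * x) • ν)
      (fun κ => by rw [hmκ, add_smul, smul_assoc]; rfl) (fun κ x => by
        rw [add_mul, mul_add, map_add, map_add, smul_mul_assoc, mul_smul_comm, map_smul, map_smul, smul_eq_mul,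
          smul_eq_mul, mul_comm ν κ]
        ring)
    have h2 := S.be_sub hv h1 hA
    obtain ⟨m', hm', hmz'⟩ := h2
    refine ⟨c, A ν, hcA, hν, m', hm', fun z => ?_⟩
    rw [hmz', siegMap_apply, hQv, ← S.bQ, ← S.bQ, zero_mul, zero_smul, sub_zero]
    have e1 : A (polar q v z + b (c * polar q v z) • ν) = A (polar q v z) + b (c * polar q v z) • A ν := by
      rw [← hA', map_add, map_smul, hA', hA']
    have e2 : b (ν * (A (polar q v z) + b (c * polar q v z) • A ν)) = - b (A ν * polar q v z) := by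
      rw [mul_add, map_add, mul_smul_comm, map_smul, mul_comm ν (A ν), hskew, smul_zero, add_zero, mul_comm ν,
        hsk2]
    simp only [e1, e2, neg_smul]
    have e3 : (A (polar q v z) + b (c * polar q v z) • A ν + -(b (A ν * polar q v z) • c) - A (polar q v z)) • v =
        b (c * polar q v z) • A ν • v - b (A ν * polar q v z) • c • v := by
      rw [← smul_assoc, ← smul_assoc, ← sub_smul]
      congr 1
      abel
    rw [e3]; abel
  · have hr : finrank F K = 2 := by omega
    have hν0 : ν ≠ 0 := by rintro rfl; rw [← hA', map_zero] at hν; exact hν rfl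
    obtain ⟨c₀, hc₀⟩ : ∃ c₀, b (c₀ * ν) = 1 := by
      obtain ⟨a, ha⟩ : ∃ a : K, b a ≠ 0 := by
        by_contra hcon
        push Not at hcon
        exact S.hb (LinearMap.ext hcon)
      refine ⟨(b a)⁻¹ • (a * ν⁻¹), ?_⟩
      rw [smul_mul_assoc, mul_assoc, inv_mul_cancel₀ hν0, mul_one, map_smul, smul_eq_mul, inv_mul_cancel₀ ha]
    obtain ⟨D, hD⟩ : ∃ D : K →ₗ[F] K, ∀ κ, D κ = A κ - b (c₀ * κ) • A ν + b (A ν * κ) • c₀ :=
      ⟨A' - (b ∘ₗ LinearMap.mulLeft F c₀).smulRight (A ν) + (b ∘ₗ LinearMap.mulLeft F (A ν)).smulRight c₀, fun κ => by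
        show A' κ - b (c₀ * κ) • A ν + b (A ν * κ) • c₀ = _
        rw [hA']⟩
    have hDν : D ν = 0 := by
      rw [hD, hc₀, hskew, one_smul, zero_smul, sub_self, add_zero]
    have hDs : ∀ κ, b (D κ * κ) = 0 := by
      intro κ
      rw [hD, add_mul, sub_mul, map_add, map_sub, smul_mul_assoc, smul_mul_assoc, map_smul, map_smul, hskew,
        smul_eq_mul, smul_eq_mul]
      ring
    have hDν2 : ∀ κ, b (D κ * ν) = 0 := by
      intro κ
      have h1 := hDs (κ + ν)
      rw [map_add, hDν, add_zero, mul_add, map_add, hDs, zero_add] at h1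
      exact h1
    have hD0 : ∀ κ, D κ = 0 := by
      intro κ
      by_cases hκ : κ ∈ F ∙ ν
      · obtain ⟨s, rfl⟩ := Submodule.mem_span_singleton.1 hκ
        rw [map_smul, hDν, smul_zero]
      · have hli : LinearIndependent F ![ν, κ] := by
          rw [LinearIndependent.pair_iff' hν0]
          intro s hs
          exact hκ (Submodule.mem_span_singleton.2 ⟨s, hs⟩)
        have h5 := finrank_span_eq_card hli
        have h6 : Set.range ![ν, κ] = {ν, κ} := by
          rw [Matrix.range_cons, Matrix.range_cons, Matrix.range_empty, Set.union_empty]; rfl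
        rw [h6, Fintype.card_fin] at h5
        have h7 : Submodule.span F {ν, κ} = ⊤ := Submodule.eq_top_of_finrank_eq (by rw [hr]; exact h5)
        apply S.bzero
        intro a
        obtain ⟨s, t, hst⟩ := Submodule.mem_span_pair.1 (show a ∈ Submodule.span F {ν, κ} by rw [h7]; trivial)
        rw [← hst, add_mul, map_add, smul_mul_assoc, smul_mul_assoc, map_smul, map_smul, mul_comm ν, mul_comm κ,
          hDν2, hDs, smul_zero, smul_zero, add_zero]
    obtain ⟨m, hm, hmz⟩ := hA
    refine ⟨c₀, A ν, ?_, hν, m, hm, fun z => ?_⟩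
    · intro h
      obtain ⟨s, hs⟩ := Submodule.mem_span_singleton.1 h
      rw [← hs, smul_mul_assoc, map_smul, hskew, smul_zero] at hc₀
      exact zero_ne_one hc₀
    · rw [hmz, siegMap_apply, hQv, ← S.bQ, ← S.bQ, zero_mul, zero_smul, sub_zero]
      have h1 := hD0 (polar q v z)
      rw [hD] at h1
      have h2 : A (polar q v z) = b (c₀ * polar q v z) • A ν - b (A ν * polar q v z) • c₀ := by
        rw [← sub_eq_zero, ← h1]; abel
      rw [h2, sub_smul, smul_assoc, smul_assoc]
      abel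

/-- all root elements inside singular lines -/
theorem all_SF (hex : ∃ g ∈ M, ¬ ∀ a : K, ∃ c : K, ∀ x, g (a • x) = c • g x) {v : V} (hv : q v = 0) (x y : K) :
    SF Q M (x • v) (y • v) := by
  by_cases hv0 : v = 0
  · rw [hv0, smul_zero, smul_zero]; exact SF.zero (QuadraticMap.map_zero Q)
  have hQv : ∀ c : K, Q (c • v) = 0 := fun c => by rw [← S.bq, Q_smul, hv, mul_zero, map_zero]
  have hpv : ∀ c d : K, polar Q (c • v) (d • v) = 0 := fun c d => by
    rw [polar, ← add_smul, hQv, hQv, hQv]; ring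
  -- scalars
  have hs1 : ∀ x y : K, SI Q M (x • v) (y • v) → SF Q M (x • v) (y • v) := by
    intro x y h
    refine ⟨hQv x, hpv x y, fun s => ?_⟩
    have hsq : ∀ s : F, SI Q M (x • v) ((s * s) • (y • v)) := by
      intro s
      by_cases hs : s = 0
      · rw [hs, zero_mul, zero_smul]; exact SI.zero _
      obtain ⟨m, hm, hmv, hmK⟩ := S.tor hv0 hv (a := algebraMap F K s) (fun h => hs ((map_eq_zero (algebraMap F K)).1 h))
      have h1 := h.map hm (S.hM hm)
      have e : ∀ z : K, m (z • v) = s • (z • v) := fun z => by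
        rw [hmK, hmv, algebraMap_smul, smul_comm]
      rw [e, e, SI.smul_left, smul_smul] at h1
      exact h1
    have h4 : (4 : F) ≠ 0 := by
      have h5 := mul_ne_zero S.h2 S.h2
      norm_num at h5
      exact h5
    obtain ⟨c, hc⟩ : ∃ c : F, s = 4 * c := ⟨4⁻¹ * s, by rw [mul_inv_cancel_left₀ h4]⟩
    have e : s = (c + 1) * (c + 1) - (c - 1) * (c - 1) := by rw [hc]; ring
    rw [e, sub_smul]
    exact (hsq _).sub (hQv x) (by rw [polar_smul_right, hpv, smul_zero]) (by rw [polar_smul_right, hpv, smul_zero])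
      (hsq _)
  -- from one pair
  have hs2 : ∀ x y : K, x ≠ 0 → y ∉ F ∙ x → SF Q M (x • v) (y • v) → ∀ c : K, SF Q M (x • v) (c • v) := by
    intro x y hx0 hyx h c
    by_cases hyc : y ∈ Submodule.span F {x, c}
    · obtain ⟨s, t, hst⟩ := Submodule.mem_span_pair.1 hyc
      have ht0 : t ≠ 0 := by
        rintro rfl
        apply hyx
        rw [← hst, zero_smul, add_zero]
        exact Submodule.smul_mem _ _ (Submodule.mem_span_singleton_self x)
      have h1 := h.sub ((SF.self (M := M) (hQv x)).smul s)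
      have h2 : y • v - s • x • v = t • (c • v) := by
        rw [← hst, add_smul, smul_assoc, smul_assoc]; abel
      rw [h2] at h1
      exact h1.of_smul ht0
    · obtain ⟨ω, hω1, hω0⟩ := exists_fun' hyc
      obtain ⟨m, hm, hmκ⟩ := S.tv hex hv0 hv ω c (hω0 c (Submodule.subset_span (by simp)))
      have h1 := h.map S.hM hm
      rw [hmκ, hmκ, hω1, hω0 x (Submodule.subset_span (by simp)), zero_smul, add_zero, one_smul] at h1
      have h2 := h1.sub h
      rwa [add_sub_cancel_left] at h2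
  obtain ⟨x₀, y₀, hxy, hy₀, hSI⟩ := S.exists_pure hex hv0 hv
  have hx₀ : x₀ ≠ 0 := by rintro rfl; exact hxy (Submodule.zero_mem _)
  have hyx : y₀ ∉ F ∙ x₀ := by
    intro h
    obtain ⟨s, hs⟩ := Submodule.mem_span_singleton.1 h
    have hs0 : s ≠ 0 := by rintro rfl; rw [zero_smul] at hs; exact hy₀ hs.symm
    apply hxy
    rw [Submodule.mem_span_singleton]
    exact ⟨s⁻¹, by rw [← hs, smul_smul, inv_mul_cancel₀ hs0, one_smul]⟩
  have h0 := hs2 x₀ y₀ hx₀ hyx (hs1 _ _ hSI)
  by_cases hx : x ∈ F ∙ x₀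
  · obtain ⟨s, rfl⟩ := Submodule.mem_span_singleton.1 hx
    rw [smul_assoc]
    exact (h0 y).smul_left s
  · have hx0 : x ≠ 0 := by rintro rfl; exact hx (Submodule.zero_mem _)
    refine hs2 x x₀ hx0 ?_ ((h0 x).swap (hQv x)) y
    intro h
    obtain ⟨s, hs⟩ := Submodule.mem_span_singleton.1 h
    have hs0 : s ≠ 0 := by rintro rfl; rw [zero_smul] at hs; exact hx₀ hs.symm
    apply hx
    rw [Submodule.mem_span_singleton]
    exact ⟨s⁻¹, by rw [← hs, smul_smul, inv_mul_cancel₀ hs0, one_smul]⟩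

end FO

end Cfsg.Agent.Lib.FldOH94
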