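import Mathlib
import Cfsg.Agent.Lib.FldO4H94

set_option autoImplicit false
set_option linter.unusedSectionVars false
set_option linter.unusedSimpArgs false
set_option linter.unusedVariables false

/-!
Overgroups of extension field subgroups in orthogonal groups (self-adjoint fields), odd characteristic:
conclusion.
-/

namespace Cfsg.Agent.Lib.FldOH94

open QuadraticMap Module Cfsg.Agent.Lib.Quad Cfsg.Agent.Lib.OrthMax Cfsg.Agent.Lib.OrthNd
  Cfsg.Agent.Lib.ExtFldH94 Cfsg.Agent.Lib.OrthDecH94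
open Cfsg.Agent.Lib.SLBlockH94 (Dec)

variable {F K V : Type*} [Field F] [Field K] [Algebra F K] [AddCommGroup V] [Module F V] [Module K V]
  [IsScalarTower F K V] [FiniteDimensional F K] [FiniteDimensional K V] [FiniteDimensional F V]
  {Q : QuadraticForm F V} {b : Dual F K} {q : QuadraticForm K V} {M : Subgroup (V ≃ₗ[F] V)}

namespace FO

variable (S : FO Q b q M)
include S
variable [Finite K]

/-- absorbing lemma for `K`-nonsingular vectors -/
theorem absorbK {u : V} (hu : q u ≠ 0) {U : Submodule F V}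
    (hinv : ∀ m ∈ M, m u = u → ∀ y ∈ U, m y ∈ U) {y : V} (hy : y ∈ U) (hyu : y ∉ (K ∙ u : Submodule K V)) :
    ∀ a, polar q u a = 0 → a ∈ U := by
  have hk := S.hk
  obtain ⟨A, hA⟩ : ∃ A, A = (⊤ : Submodule K V) ⊓ perp q (K ∙ u) := ⟨_, rfl⟩
  have hAn : NDs q A := by rw [hA]; exact nds_cut1 S.nd S.h2K (nds_top S.nd) trivial hu
  have hAr : 3 ≤ finrank K A := by
    have := finrank_cut1 S.nd (A := (⊤ : Submodule K V)) (a := u)
    rw [finrank_top, ← hA] at this
    omega
  have hAm : ∀ x ∈ A, polar q u x = 0 := fun x hx => by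
    rw [hA] at hx; exact (mem_cut1.1 hx).2
  have h1 : ∀ e ∈ A, q e = 0 → ∀ y ∈ U, polar q e y ≠ 0 → ∀ a : K, a • e ∈ U := by
    intro e he hqe y hy hey a
    have he0 : e ≠ 0 := by rintro rfl; rw [polar_zero_left] at hey; exact hey rfl
    obtain ⟨d, hd, hed, hqd⟩ := exists_nonsing_perp' S.nd hAn hAr he he0 hqe
    refine S.line_of_inv hqe hed hqd hy hey (fun κ => ?_) a
    have hed' : polar q e (κ • d) = 0 := by rw [polar_smul_right, hed, smul_zero]
    obtain ⟨m, hm, hmz⟩ := S.sg hqe hed'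
    rw [← hmz]
    refine hinv m hm ?_ y hy
    rw [hmz]
    exact sieg_fix (by rw [polar_comm]; exact hAm e he) (by
      rw [polar_smul_left, polar_comm q d u, hAm d hd, smul_zero])
  obtain ⟨e, he, hqe, hey⟩ : ∃ e ∈ A, q e = 0 ∧ polar q e y ≠ 0 := by
    by_contra hcon
    push Not at hcon
    have h3 := perp_of_sing S.nd hAn hAr (y := y) (fun e he hqe => by rw [polar_comm]; exact hcon e he hqe)
    have h4 : y ∈ perp q (perp q (K ∙ u)) := by
      rw [mem_perp']
      intro a ha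
      exact h3 a (by rw [hA]; exact ⟨trivial, ha⟩)
    rw [S.nd.perp_perp] at h4
    exact hyu h4
  have h2 : ∀ e' ∈ A, q e' = 0 → ∀ a : K, a • e' ∈ U := by
    intro e' he' hqe' a
    have hee : e ∈ U := by
      have := h1 e he hqe y hy hey 1
      rwa [one_smul] at this
    by_cases h3 : polar q e' y = 0
    · by_cases h4 : polar q e' e = 0
      · have h5 : q (e + e') = 0 := by rw [Q_add, hqe, hqe', polar_comm q e e', h4]; simp
        have h6 := h1 (e + e') (A.add_mem he he') h5 y hy (by rw [polar_add_left, h3, add_zero]; exact hey) a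
        have h7 := U.sub_mem h6 (h1 e he hqe y hy hey a)
        rwa [smul_add, add_sub_cancel_left] at h7
      · exact h1 e' he' hqe' e hee h4 a
    · exact h1 e' he' hqe' y hy h3 a
  intro a ha
  have haA : a ∈ A := by rw [hA]; exact mem_cut1.2 ⟨trivial, ha⟩
  obtain ⟨e₀, he₀, f₀, hf₀, hqe₀, hqf₀, hef₀⟩ := exists_pair_in S.nd hAn hAr
  obtain ⟨w, hw⟩ : ∃ w, w = a - polar q f₀ a • e₀ - polar q e₀ a • f₀ := ⟨_, rfl⟩
  have hwA : w ∈ A := by
    rw [hw]; exact A.sub_mem (A.sub_mem haA (A.smul_mem _ he₀)) (A.smul_mem _ hf₀)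
  have hew : polar q e₀ w = 0 := by
    rw [hw, polar_sub_right, polar_sub_right, polar_smul_right, polar_smul_right, polar_self', hqe₀, hef₀]; simp
  have hfw : polar q f₀ w = 0 := by
    rw [hw, polar_sub_right, polar_sub_right, polar_smul_right, polar_smul_right, polar_self', hqf₀,
      polar_comm q f₀ e₀, hef₀]
    simp
  have hs : q (e₀ - q w • f₀ + w) = 0 := by
    rw [Q_add, Q_sub, Q_smul, hqe₀, hqf₀, polar_smul_right, hef₀, polar_sub_left, polar_smul_left, hew, hfw]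
    simp
  have hwU : w ∈ U := by
    have h3 := h2 _ (A.add_mem (A.sub_mem he₀ (A.smul_mem _ hf₀)) hwA) hs 1
    rw [one_smul] at h3
    have h4 := h2 e₀ he₀ hqe₀ 1
    rw [one_smul] at h4
    have h5 := h2 f₀ hf₀ hqf₀ (q w)
    have h6 := U.add_mem (U.sub_mem h3 h4) h5
    have e : e₀ - q w • f₀ + w - e₀ + q w • f₀ = w := by abel
    rwa [e] at h6
  have e : a = polar q f₀ a • e₀ + polar q e₀ a • f₀ + w := by rw [hw]; abel
  rw [e]
  exact U.add_mem (U.add_mem (h2 _ he₀ hqe₀ _) (h2 _ hf₀ hqf₀ _)) hwU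

/-- **Overgroups of orthogonal groups over extension fields.** -/
theorem main (hex : ∃ g ∈ M, ¬ ∀ a : K, ∃ c : K, ∀ x, g (a • x) = c • g x) : Om Q ≤ M := by
  have hk := S.hk
  have h2K := S.h2K
  obtain ⟨v, -, f, -, hqv, hqf, hvf⟩ := exists_pair_in S.nd (nds_top S.nd) (by rw [finrank_top]; omega)
  have hv0 : v ≠ 0 := by rintro rfl; rw [polar_zero_left] at hvf; exact zero_ne_one hvf
  obtain ⟨κ', hκ'0, hκ'⟩ : ∃ κ' : K, κ' ≠ 0 ∧ b κ' = 0 := by
    have h1 := LinearMap.finrank_range_add_finrank_ker b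
    have h2 := Submodule.finrank_le (LinearMap.range b)
    rw [finrank_self] at h2
    have h3 := S.hr.two_le
    have h4 : LinearMap.ker b ≠ ⊥ := by
      intro h
      rw [h, finrank_bot] at h1
      omega
    obtain ⟨x, hx, hx0⟩ := Submodule.exists_mem_ne_zero_of_ne_bot h4
    exact ⟨x, hx0, hx⟩
  obtain ⟨κ₀, hκ₀⟩ : ∃ κ₀ : K, b κ₀ = 1 := by
    obtain ⟨a, ha⟩ : ∃ a : K, b a ≠ 0 := by
      by_contra hcon
      push Not at hcon
      exact S.hb (LinearMap.ext hcon)
    exact ⟨(b a)⁻¹ • a, by rw [map_smul, smul_eq_mul, inv_mul_cancel₀ ha]⟩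
  obtain ⟨u, hu⟩ : ∃ u, u = f + κ' • v := ⟨_, rfl⟩
  have hqu : q u = κ' := by
    rw [hu, Q_add, Q_smul, hqf, hqv, polar_smul_right, polar_comm q f v, hvf]; simp
  have hQu : Q u = 0 := by rw [← S.bq, hqu, hκ']
  have hqu0 : q u ≠ 0 := by rw [hqu]; exact hκ'0
  have huv : polar q u v = 1 := by
    rw [hu, polar_add_left, polar_smul_left, polar_self', hqv, polar_comm q f v, hvf]; simp
  have huf : polar q u f = κ' := by
    rw [hu, polar_add_left, polar_smul_left, polar_self', hqf, hvf]; simp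
  have hQv : ∀ c : K, Q (c • v) = 0 := fun c => by rw [← S.bq, Q_smul, hqv, mul_zero, map_zero]
  have hmem : ∀ κ : K, b κ = 1 → ∀ κ'' : K,
      κ'' • f + (b (κ * κ'') • κ' - b (κ' * κ'') • κ) • v ∈ Us Q M hQu := by
    intro κ hκ κ''
    have h1 := S.all_SF hex hqv κ κ'
    obtain ⟨m, hm, hmz⟩ := h1.2.2 1
    rw [one_smul] at hmz
    have hgf : ∀ x : K, m (x • f) = x • f + (b (κ * x) • κ' - b (κ' * x) • κ) • v := by
      intro x
      have e1 : polar Q (κ • v) (x • f) = b (κ * x) := by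
        rw [← S.bQ, polar_smul_right, hvf, smul_eq_mul, mul_one]
      have e2 : polar Q (κ' • v) (x • f) = b (κ' * x) := by
        rw [← S.bQ, polar_smul_right, hvf, smul_eq_mul, mul_one]
      rw [hmz, siegMap_apply, e1, e2, hQv, zero_mul, zero_smul, sub_zero, sub_smul, smul_assoc, smul_assoc]
      abel
    have hmf : m f = u := by
      have h3 := hgf 1
      rw [one_smul, mul_one, mul_one, hκ, hκ', one_smul, zero_smul, sub_zero] at h3
      rw [h3, hu]
    have h4 := (S.all_SF hex hqf 1 κ'').map S.hM hm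
    rw [one_smul, hmf, hgf] at h4
    exact h4
  have hinv : ∀ m ∈ M, m u = u → ∀ y ∈ Us Q M hQu, m y ∈ Us Q M hQu := by
    intro m hm hmu y hy
    have h1 := SF.map S.hM (show SF Q M u y from hy) hm
    rwa [hmu] at h1
  -- a vector outside the line
  obtain ⟨κ'', hκ''⟩ : ∃ κ'' : K, b (κ₀ * κ'') • κ' - b (κ' * κ'') • κ₀ ≠ κ'' * κ' := by
    by_contra hcon
    push Not at hcon
    apply hκ'0
    apply S.sq_zero
    intro a
    have h1 := hcon a
    rw [mul_assoc, ← h1, mul_sub, map_sub, mul_smul_comm, mul_smul_comm, map_smul, map_smul, smul_eq_mul,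
      smul_eq_mul, mul_comm a κ', mul_comm a κ₀]
    ring
  have hA := S.absorbK hqu0 hinv (hmem κ₀ hκ₀ κ'') (by
    intro h
    obtain ⟨c, hc⟩ := Submodule.mem_span_singleton.1 h
    have h1 : (b (κ₀ * κ'') • κ' - b (κ' * κ'') • κ₀ - κ'' * κ') • v = (c - κ'') • u := by
      rw [sub_smul _ (κ'' * κ'), sub_smul c, hc, hu]
      module
    have h3 := congrArg q h1
    rw [Q_smul, Q_smul, hqv, hqu, mul_zero] at h3
    have h4 : (c - κ'') * (c - κ'') = 0 := (mul_eq_zero.1 h3.symm).resolve_right hκ'0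
    have h5 : c - κ'' = 0 := by rcases mul_eq_zero.1 h4 with h | h <;> exact h
    rw [h5, zero_smul] at h1
    rcases smul_eq_zero.1 h1 with h6 | h6
    · exact hκ'' (sub_eq_zero.1 h6)
    · exact hv0 h6)
  -- the full centre
  have hfull : Full Q M u := by
    refine ⟨hQu, fun y hy => ?_⟩
    have hy' : y ∈ Us Q M hQu := by
      obtain ⟨κ₁, hκ₁⟩ : ∃ κ₁, κ₁ = polar q u y := ⟨_, rfl⟩
      have hbκ₁ : b κ₁ = 0 := by rw [hκ₁, S.bp, hy]
      obtain ⟨κ₂, hκ₂⟩ : ∃ κ₂ : K, b (κ' * κ₂) = 1 := by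
        refine ⟨κ'⁻¹ * κ₀, ?_⟩
        rw [mul_inv_cancel_left₀ hκ'0, hκ₀]
      have h1 := hmem κ₀ hκ₀ κ₂
      have h3 := hmem (κ₀ + κ₁) (by rw [map_add, hκ₀, hbκ₁, add_zero]) κ₂
      have h4 := (Us Q M hQu).sub_mem h3 h1
      have e1 : κ₂ • f + (b ((κ₀ + κ₁) * κ₂) • κ' - b (κ' * κ₂) • (κ₀ + κ₁)) • v -
          (κ₂ • f + (b (κ₀ * κ₂) • κ' - b (κ' * κ₂) • κ₀) • v) = (b (κ₁ * κ₂) • κ' - κ₁) • v := by
        rw [add_mul, map_add, hκ₂, one_smul, one_smul, add_smul (b (κ₀ * κ₂)) (b (κ₁ * κ₂)) κ']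
        module
      rw [e1] at h4
      -- `y = κ₁ v + a`, with `a` modulo `u`
      have h5 : (b (κ₁ * κ₂)) • u ∈ Us Q M hQu := (Us Q M hQu).smul_mem _ (SF.self hQu)
      have h6 : y - κ₁ • v + (b (κ₁ * κ₂) • κ') • v - ((2 : F)⁻¹ * b (κ₁ * κ₂)) • u ∈ Us Q M hQu := by
        apply hA
        have e2 : polar q u (((2 : F)⁻¹ * b (κ₁ * κ₂)) • u) = b (κ₁ * κ₂) • κ' := by
          rw [← algebraMap_smul K ((2 : F)⁻¹ * b (κ₁ * κ₂)) u, polar_smul_right, polar_self', hqu, smul_eq_mul,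
            map_mul, map_inv₀, map_ofNat, Algebra.smul_def]
          field_simp
        rw [polar_sub_right, e2, polar_add_right, polar_sub_right, polar_smul_right, polar_smul_right, huv, ← hκ₁]
        simp
      have h7 := (Us Q M hQu).sub_mem h6 h4
      have h8 := (Us Q M hQu).add_mem h7 ((Us Q M hQu).smul_mem ((2 : F)⁻¹) h5)
      have e3 : y - κ₁ • v + (b (κ₁ * κ₂) • κ') • v - ((2 : F)⁻¹ * b (κ₁ * κ₂)) • u -
          (b (κ₁ * κ₂) • κ' - κ₁) • v + (2 : F)⁻¹ • (b (κ₁ * κ₂)) • u = y := by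
        rw [smul_smul, sub_smul (b (κ₁ * κ₂) • κ')]
        abel
      rwa [e3] at h8
    have h9 := (show SF Q M u y from hy').2.2 1
    rwa [one_smul] at h9
  -- a second one
  have hP := nds_cut S.nd (nds_top S.nd) (e := v) (f := f) trivial trivial hqv hqf hvf
  obtain ⟨d, hd, hqd⟩ := universal S.nd h2K hP (pperp_dim S.nd hk v f) κ₀
  obtain ⟨-, hvd, hfd⟩ := mem_cut.1 hd
  obtain ⟨m, hm, hmz⟩ := S.sg hqv hvd
  have hvu : polar q v u = 1 := by rw [polar_comm]; exact huv
  have hdu : polar q d u = 0 := by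
    rw [hu, polar_add_right, polar_smul_right, polar_comm q d v, hvd, polar_comm q d f, hfd]; simp
  have hmu : m u = u + d - κ₀ • v := by
    rw [hmz, siegMap_apply, hvu, hdu, hqd]; simp
  have hud : polar q u d = 0 := by rw [polar_comm]; exact hdu
  have hne : polar Q u (m u) ≠ 0 := by
    rw [hmu, ← S.bp, polar_sub_right, polar_add_right, polar_self', hqu, hud, polar_smul_right, huv, add_zero,
      map_sub, smul_eq_mul, mul_one, hκ₀]
    have : b (2 * κ') = 0 := by rw [two_mul, map_add, hκ', add_zero]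
    rw [this, zero_sub]
    exact neg_ne_zero.2 one_ne_zero
  have : Finite F := Finite.of_injective _ (algebraMap F K).injective
  have hdim : 4 ≤ finrank F V := by
    rw [← finrank_mul_finrank F K V]
    have := S.hr.two_le
    nlinarith
  exact Om_le_of_two S.ndQ (gen_of_two S.h2) hdim S.hM hfull (hfull.map S.hM hm) hne

end FO

end Cfsg.Agent.Lib.FldOH94
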