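import Mathlib
import Cfsg.Agent.Lib.FldSpH94

set_option autoImplicit false
set_option linter.unusedSectionVars false
set_option linter.unusedSimpArgs false
set_option linter.unusedVariables false

/-!
Overgroups of extension field subgroups in the symplectic group: transvections over the small field.
-/

namespace Cfsg.Agent.Lib.FldSpH94

open Module Cfsg.Agent.Lib.SLMax Cfsg.Agent.Lib.SLUn Cfsg.Agent.Lib.SLBlockH94 Cfsg.Agent.Lib.ExtFldH94
  Cfsg.Agent.Lib.ExtSLH94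

variable {F K V : Type*} [Field F] [Field K] [Algebra F K] [AddCommGroup V] [Module F V] [Module K V]
  [IsScalarTower F K V] [FiniteDimensional F K] [FiniteDimensional K V] [FiniteDimensional F V]
  {M : Subgroup (V ≃ₗ[F] V)}

/-- the elements of the centre of the unipotent radical contained in the group -/
def BE (C : V →ₗ[K] V →ₗ[K] K) (M : Subgroup (V ≃ₗ[F] V)) (w₀ : V) (h : K →ₗ[F] K) : Prop :=
  ∃ m ∈ M, ∀ z, m z = z + h (C z w₀) • w₀

namespace SD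

variable {B : V →ₗ[F] V →ₗ[F] F} {b : Dual F K} {C : V →ₗ[K] V →ₗ[K] K} (S : SD B b C M)
include S

theorem be_inv {w₀ : V} {h : K →ₗ[F] K} {m : V ≃ₗ[F] V} (hm : ∀ z, m z = z + h (C z w₀) • w₀) (z : V) :
    m⁻¹ z = z - h (C z w₀) • w₀ := by
  apply m.injective
  rw [← LinearEquiv.mul_apply, mul_inv_cancel, hm]
  have : C (z - h (C z w₀) • w₀) w₀ = C z w₀ := by
    rw [map_sub, LinearMap.sub_apply, map_smul, LinearMap.smul_apply, S.alt, smul_zero, sub_zero]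
  rw [this, sub_add_cancel]; rfl

theorem be_sub {w₀ : V} {h h' : K →ₗ[F] K} (H : BE C M w₀ h) (H' : BE C M w₀ h') {h'' : K →ₗ[F] K}
    (hh : ∀ t, h'' t = h t - h' t) : BE C M w₀ h'' := by
  obtain ⟨m, hm, hmz⟩ := H
  obtain ⟨m', hm', hmz'⟩ := H'
  refine ⟨m * m'⁻¹, mul_mem hm (inv_mem hm'), fun z => ?_⟩
  rw [LinearEquiv.mul_apply, S.be_inv hmz', hmz]
  have : C (z - h' (C z w₀) • w₀) w₀ = C z w₀ := by
    rw [map_sub, LinearMap.sub_apply, map_smul, LinearMap.smul_apply, S.alt, smul_zero, sub_zero]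
  rw [this, hh]
  module

theorem be_mul (w₀ : V) (a : K) {h : K →ₗ[F] K} (hh : ∀ t, h t = a * t) : BE C M w₀ h := by
  obtain ⟨m, hm, hmz⟩ := S.kt_mem w₀ a
  exact ⟨m, hm, fun z => by rw [hmz, hh]⟩

section TDsec
variable {w₀ u₁ : V} {ω : Dual F V} (T : TD K M w₀ u₁ ω)
include T

theorem exists_nu : ∃ ν : K, ν ≠ 0 ∧ b ν = 0 ∧ ∀ a : K, ω (a • w₀) = b (a * ν) := by
  obtain ⟨ψ, hψ⟩ := exists_lift (K := K) (V := K) S.hb (ω ∘ₗ ((LinearMap.toSpanSingleton K V w₀).restrictScalars F))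
  have h1 : ∀ a : K, ω (a • w₀) = b (a * ψ 1) := by
    intro a
    have h2 : ψ a = a * ψ 1 := by
      have := ψ.map_smul a 1
      rwa [smul_eq_mul, mul_one, smul_eq_mul] at this
    rw [← h2, ← hψ]; rfl
  refine ⟨ψ 1, ?_, ?_, h1⟩
  · intro h0
    obtain ⟨a, ha⟩ := mem_Ln.1 T.u1
    have h2 := T.ωu
    rw [ha, h1, h0, mul_zero, map_zero] at h2
    exact zero_ne_one h2
  · have := h1 1
    rw [one_smul, T.ωw, one_mul] at this
    exact this.symm

/-- conjugation by the element inducing a transvection -/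
theorem be_conj {ν : K} (hν : ∀ a : K, ω (a • w₀) = b (a * ν)) {h : K →ₗ[F] K} (H : BE C M w₀ h) (y : F)
    {h' : K →ₗ[F] K}
    (hh' : ∀ t, h' t = h (t + (y * b t) • ν) + (y * b (h (t + (y * b t) • ν) * ν)) • (1 : K)) :
    BE C M w₀ h' := by
  obtain ⟨x, hx, hxz⟩ := H
  obtain ⟨m, hm, hmu⟩ := T.mem y
  refine ⟨m * x * m⁻¹, mul_mem (mul_mem hm hx) (inv_mem hm), fun z => ?_⟩
  have h1 : C (m⁻¹ z) w₀ = C z w₀ + (y * b (C z w₀)) • ν := by
    rw [← sub_eq_zero]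
    apply S.bzero
    intro a
    have e1 : m (m⁻¹ z) = z := by rw [← LinearEquiv.mul_apply, mul_inv_cancel]; rfl
    have e2 : b (a * C (m⁻¹ z) w₀) = B z (a • w₀) + (y * b (a * ν)) * B z w₀ := by
      rw [S.bB', ← S.sp m hm, e1, hmu _ (smul_mem_Ln w₀ a), hν, map_add, (B z).map_smul, smul_eq_mul]
    have e3 : b (a * (C z w₀ + (y * b (C z w₀)) • ν)) = B z (a • w₀) + (y * b (a * ν)) * B z w₀ := by
      rw [mul_add, map_add, S.bB', mul_smul_comm, b.map_smul, smul_eq_mul, S.bC]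
      ring
    rw [mul_sub, map_sub, e2, e3, sub_self]
  rw [LinearEquiv.mul_apply, LinearEquiv.mul_apply, hxz, map_add, h1, hmu _ (smul_mem_Ln w₀ _), hν, hh']
  have e1 : m (m⁻¹ z) = z := by rw [← LinearEquiv.mul_apply, mul_inv_cancel]; rfl
  rw [e1, add_smul, smul_assoc, one_smul]

/-- the basic commutators -/
theorem be_D {ν : K} (hν : ∀ a : K, ω (a • w₀) = b (a * ν)) (y : F) (a : K) {h : K →ₗ[F] K}
    (hh : ∀ t, h t = (y * b t) • (a * ν) + (y * b (a * ν * t)) • (1 : K) + (y * y * b t * b (a * ν * ν)) • (1 : K)) :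
    BE C M w₀ h := by
  have H1 := S.be_mul w₀ a (h := LinearMap.mulLeft F a) (fun t => rfl)
  have H2 := S.be_conj T hν H1 y (h' := LinearMap.mulLeft F a + h) (fun t => by
    rw [LinearMap.add_apply, hh]
    simp only [LinearMap.mulLeft_apply, mul_add, add_mul, mul_smul_comm, smul_mul_assoc, map_add, map_smul,
      smul_eq_mul]
    have e1 : a * t * ν = a * ν * t := by ring
    rw [e1]
    module)
  exact S.be_sub H2 H1 (fun t => by rw [LinearMap.add_apply]; abel)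

/-- more than two scalars -/
theorem tv_a {y : F} (hy0 : y ≠ 0) (hy1 : y ≠ 1) (c : F) : ∃ m ∈ M, ∀ z, m z = z + (c * B z w₀) • w₀ := by
  obtain ⟨ν, hν0, hbν, hν⟩ := S.exists_nu T
  have hyy : y * y - y ≠ 0 := by
    rw [← mul_sub_one]
    exact mul_ne_zero hy0 (sub_ne_zero.2 hy1)
  obtain ⟨e, he⟩ : ∃ e : K, b e ≠ 0 := by
    by_contra hcon
    push Not at hcon
    exact S.hb (LinearMap.ext hcon)
  obtain ⟨a, ha⟩ : ∃ a : K, b (a * ν * ν) = c / (y * y - y) := by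
    refine ⟨((c / (y * y - y)) / b e) • (e * ν⁻¹ * ν⁻¹), ?_⟩
    rw [smul_mul_assoc, smul_mul_assoc, map_smul, smul_eq_mul]
    have : e * ν⁻¹ * ν⁻¹ * ν * ν = e := by field_simp
    rw [this, div_mul_cancel₀ _ he]
  obtain ⟨b1, hb1⟩ : ∃ b1 : K →ₗ[F] K, ∀ t, b1 t = b t • (1 : K) := ⟨b.smulRight (1 : K), fun t => rfl⟩
  obtain ⟨b2, hb2⟩ : ∃ b2 : K →ₗ[F] K, ∀ t, b2 t = b t • (a * ν) := ⟨b.smulRight (a * ν), fun t => rfl⟩
  obtain ⟨b3, hb3⟩ : ∃ b3 : K →ₗ[F] K, ∀ t, b3 t = b (a * ν * t) • (1 : K) :=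
    ⟨(b ∘ₗ LinearMap.mulLeft F (a * ν)).smulRight (1 : K), fun t => rfl⟩
  have H1 := S.be_D T hν y a (h := y • b2 + y • b3 + (y * y * b (a * ν * ν)) • b1) (fun t => by
    simp only [LinearMap.add_apply, LinearMap.smul_apply, hb1, hb2, hb3]
    module)
  have H2 := S.be_D T hν 1 (y • a) (h := y • b2 + y • b3 + (y * b (a * ν * ν)) • b1) (fun t => by
    simp only [LinearMap.add_apply, LinearMap.smul_apply, hb1, hb2, hb3, smul_mul_assoc, map_smul, smul_eq_mul]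
    module)
  obtain ⟨m, hm, hmz⟩ := S.be_sub H1 H2 (h'' := c • b1) (fun t => by
    simp only [LinearMap.add_apply, LinearMap.smul_apply, hb1, hb2, hb3, ha]
    have : c = (y * y - y) * (c / (y * y - y)) := by field_simp
    conv_lhs => rw [this]
    module)
  refine ⟨m, hm, fun z => ?_⟩
  rw [hmz, LinearMap.smul_apply, hb1, S.bC, smul_assoc, smul_assoc, one_smul, smul_smul]

end TDsec

/-- transitivity -/
theorem exists_move {u v : V} (hu : u ≠ 0) (hv : v ≠ 0) : ∃ m ∈ M, m u = v ∧ (∀ (a : K) x, m (a • x) = a • m x) ∧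
    ∀ x y, C (m x) (m y) = C x y := by
  have hnd : Cfsg.Agent.Lib.SpTrans.NdOn C ⊤ := by
    intro x _ hx
    by_contra hcon
    push Not at hcon
    exact hx (S.nd x (fun y => hcon y trivial))
  have halt : C.IsAlt := S.alt
  obtain ⟨t, ht, htu⟩ := Cfsg.Agent.Lib.SpTrans.exists_move halt hnd (W := (⊤ : Submodule K V))
    (Submodule.mem_top) (Submodule.mem_top) hu hv
  have hti := Cfsg.Agent.Lib.SpTrans.tgrp_le_isom halt _ ht
  exact ⟨t.restrictScalars F, S.HS t hti, htu, fun a x => t.map_smul a x, hti⟩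

/-- all transvections over the small field -/
theorem all_tv {w₀ : V} (hw₀ : w₀ ≠ 0) (h : ∀ c : F, ∃ m ∈ M, ∀ z, m z = z + (c * B z w₀) • w₀) (u : V) (c : F) :
    ∃ m ∈ M, ∀ z, m z = z + (c * B z u) • u := by
  by_cases hu : u = 0
  · exact ⟨1, one_mem _, fun z => by rw [hu, smul_zero, add_zero]; rfl⟩
  · obtain ⟨n, hn, hnu, -, -⟩ := S.exists_move hw₀ hu
    obtain ⟨m, hm, hmz⟩ := h c
    refine ⟨n * m * n⁻¹, mul_mem (mul_mem hn hm) (inv_mem hn), fun z => ?_⟩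
    have e1 : n (n⁻¹ z) = z := by rw [← LinearEquiv.mul_apply, mul_inv_cancel]; rfl
    rw [LinearEquiv.mul_apply, LinearEquiv.mul_apply, hmz, map_add, LinearEquiv.map_smul, e1, hnu,
      ← S.sp n hn (n⁻¹ z) w₀, e1, hnu]

omit S in
/-- Hua's identity and hyperplanes closed under inversion -/
theorem exists_hua (hr : (finrank F K).Prime) (hr3 : 3 ≤ finrank F K) (h2 : ∀ y : F, y ≠ 0 → y = 1)
    {b : Dual F K} (hb : b ≠ 0) {ν : K} (hν0 : ν ≠ 0) (hbν : b ν = 0) :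
    ∃ x : K, x ≠ 0 ∧ b (x * ν) ≠ 0 ∧ b (x⁻¹ * ν) = 0 := by
  by_contra hcon
  push Not at hcon
  obtain ⟨H, hH⟩ : ∃ H : Submodule F K, ∀ x, x ∈ H ↔ b (x * ν) = 0 :=
    ⟨LinearMap.ker (b ∘ₗ LinearMap.mulRight F ν), fun x => Iff.rfl⟩
  have hinv : ∀ x ∈ H, x⁻¹ ∈ H := by
    intro x hx
    by_cases hx0 : x = 0
    · rw [hx0, inv_zero]; exact H.zero_mem
    · by_contra h
      rw [hH] at h hx
      have h3 := hcon x⁻¹ (inv_ne_zero hx0) h
      rw [inv_inv] at h3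
      exact h3 hx
  have h1 : (1 : K) ∈ H := by rw [hH, one_mul, hbν]
  have hsq : ∀ a ∈ H, ∀ c ∈ H, a * a * c ∈ H := by
    intro a ha c hc
    by_cases ha0 : a = 0
    · rw [ha0]; simp
    by_cases hc0 : c = 0
    · rw [hc0]; simp
    by_cases hac : a * c = 1
    · rw [mul_assoc, hac, mul_one]; exact ha
    have h3 : c⁻¹ - a ≠ 0 := by
      intro h4
      apply hac
      rw [← sub_eq_zero.1 h4, inv_mul_cancel₀ hc0]
    have h5 : a⁻¹ + (c⁻¹ - a)⁻¹ ∈ H := H.add_mem (hinv a ha) (hinv _ (H.sub_mem (hinv c hc) ha))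
    have h6 := H.sub_mem ha (hinv _ h5)
    have h7 : 1 - a * c ≠ 0 := sub_ne_zero.2 (Ne.symm hac)
    have h8 : a⁻¹ + (c⁻¹ - a)⁻¹ = (a * (1 - a * c))⁻¹ := by
      have h9 : c⁻¹ - a = (1 - a * c) * c⁻¹ := by
        rw [sub_mul, one_mul, mul_assoc, mul_inv_cancel₀ hc0, mul_one]
      rw [h9]
      field_simp
      ring
    rw [h8, inv_inv] at h6
    have h9 : a - a * (1 - a * c) = a * a * c := by ring
    rwa [h9] at h6
  by_cases hex : ∃ a ∈ H, a * a ∉ Set.range (algebraMap F K)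
  · obtain ⟨a, ha, haa⟩ := hex
    apply hb
    apply LinearMap.ext
    intro x
    have h3 := stable hr haa (C := H) (hsq a ha) (x * ν⁻¹) h1
    rw [mul_one, hH, mul_assoc, inv_mul_cancel₀ hν0, mul_one] at h3
    exact h3
  · push Not at hex
    have h3 : H ≤ Submodule.span F {(1 : K)} := by
      intro a ha
      obtain ⟨s, hs⟩ := hex a ha
      by_cases ha0 : a = 0
      · rw [ha0]; exact Submodule.zero_mem _
      have hs0 : s ≠ 0 := by
        rintro rfl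
        rw [map_zero] at hs
        exact ha0 (mul_self_eq_zero.1 hs.symm)
      rw [h2 s hs0, map_one] at hs
      rcases mul_self_eq_one_iff.1 hs.symm with h4 | h4
      · rw [h4]; exact Submodule.mem_span_singleton_self _
      · rw [h4]; exact Submodule.neg_mem _ (Submodule.mem_span_singleton_self _)
    have h4 := Submodule.finrank_mono h3
    have h5 : finrank F (Submodule.span F {(1 : K)}) ≤ 1 := by
      have := finrank_span_le_card (R := F) ({(1 : K)} : Set K)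
      simpa using this
    have h6 := LinearMap.finrank_range_add_finrank_ker (b ∘ₗ LinearMap.mulRight F ν)
    have h7 : finrank F (LinearMap.range (b ∘ₗ LinearMap.mulRight F ν)) ≤ 1 := by
      have := Submodule.finrank_le (LinearMap.range (b ∘ₗ LinearMap.mulRight F ν))
      rwa [finrank_self] at this
    have h8 : H = LinearMap.ker (b ∘ₗ LinearMap.mulRight F ν) := by
      ext x
      rw [hH]; exact Iff.rfl
    rw [← h8] at h6
    omega

/-- scaling -/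
theorem be_scale {w₀ : V} (hw₀ : w₀ ≠ 0) {κ : K} (hκ : κ ≠ 0) {h : K →ₗ[F] K} (H : BE C M w₀ h) {h' : K →ₗ[F] K}
    (hh' : ∀ t, h' t = κ * h (κ * t)) : BE C M w₀ h' := by
  obtain ⟨x, hx, hxz⟩ := H
  obtain ⟨n, hn, hnw, hnl, hnC⟩ := S.exists_move hw₀ (v := κ • w₀) (smul_ne_zero hκ hw₀)
  refine ⟨n * x * n⁻¹, mul_mem (mul_mem hn hx) (inv_mem hn), fun z => ?_⟩
  have e1 : n (n⁻¹ z) = z := by rw [← LinearEquiv.mul_apply, mul_inv_cancel]; rfl
  rw [LinearEquiv.mul_apply, LinearEquiv.mul_apply, hxz, map_add, e1, hnl, hnw, smul_smul, ← hnC (n⁻¹ z) w₀, e1, hnw,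
    map_smul, smul_eq_mul, hh', mul_comm κ (h _)]

/-- two scalars, degree at least three -/
theorem tv_b (hr : (finrank F K).Prime) (hr3 : 3 ≤ finrank F K) (h2 : ∀ y : F, y ≠ 0 → y = 1) {w₀ u₁ : V}
    {ω : Dual F V} (T : TD K M w₀ u₁ ω) (c : F) : ∃ m ∈ M, ∀ z, m z = z + (c * B z w₀) • w₀ := by
  obtain ⟨ν, hν0, hbν, hν⟩ := S.exists_nu T
  obtain ⟨x, hx0, hx1, hx2⟩ := exists_hua hr hr3 h2 S.hb hν0 hbν
  have hx1' := h2 _ hx1
  obtain ⟨b1, hb1⟩ : ∃ b1 : K →ₗ[F] K, ∀ t, b1 t = b t • (1 : K) := ⟨b.smulRight (1 : K), fun t => rfl⟩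
  obtain ⟨b2, hb2⟩ : ∃ b2 : K →ₗ[F] K, ∀ t, b2 t = b t • x := ⟨b.smulRight x, fun t => rfl⟩
  obtain ⟨b3, hb3⟩ : ∃ b3 : K →ₗ[F] K, ∀ t, b3 t = b (x * t) • (1 : K) :=
    ⟨(b ∘ₗ LinearMap.mulLeft F x).smulRight (1 : K), fun t => rfl⟩
  obtain ⟨b4, hb4⟩ : ∃ b4 : K →ₗ[F] K, ∀ t, b4 t = b t • x⁻¹ := ⟨b.smulRight x⁻¹, fun t => rfl⟩
  obtain ⟨b5, hb5⟩ : ∃ b5 : K →ₗ[F] K, ∀ t, b5 t = b (x⁻¹ * t) • (1 : K) :=
    ⟨(b ∘ₗ LinearMap.mulLeft F x⁻¹).smulRight (1 : K), fun t => rfl⟩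
  have e1 : x * ν⁻¹ * ν = x := by rw [mul_assoc, inv_mul_cancel₀ hν0, mul_one]
  have e2 : x⁻¹ * ν⁻¹ * ν = x⁻¹ := by rw [mul_assoc, inv_mul_cancel₀ hν0, mul_one]
  have H1 := S.be_D T hν 1 (x * ν⁻¹) (h := b2 + b3 + b1) (fun t => by
    simp only [LinearMap.add_apply, hb1, hb2, hb3, e1, hx1']
    module)
  have H2 := S.be_D T hν 1 (x⁻¹ * ν⁻¹) (h := b4 + b5) (fun t => by
    simp only [LinearMap.add_apply, hb4, hb5, e2, hx2]
    module)
  have H3 := S.be_scale T.w0 hx0 H2 (h' := b3 + b2) (fun t => by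
    simp only [LinearMap.add_apply, hb2, hb3, hb4, hb5]
    rw [← mul_assoc, inv_mul_cancel₀ hx0, one_mul, mul_add, mul_smul_comm, mul_smul_comm, mul_inv_cancel₀ hx0,
      mul_one])
  obtain ⟨m, hm, hmz⟩ := S.be_sub H1 H3 (h'' := b1) (fun t => by
    simp only [LinearMap.add_apply]; abel)
  by_cases hc : c = 0
  · exact ⟨1, one_mem _, fun z => by rw [hc, zero_mul, zero_smul, add_zero]; rfl⟩
  · refine ⟨m, hm, fun z => ?_⟩
    rw [hmz, hb1, S.bC, smul_assoc, one_smul, h2 c hc, one_mul]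

end SD

end Cfsg.Agent.Lib.FldSpH94
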