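import Mathlib
import Cfsg.Agent.Lib.FldSp2H94

set_option autoImplicit false
set_option linter.unusedSectionVars false
set_option linter.unusedSimpArgs false
set_option linter.unusedVariables false

/-!
Overgroups of extension field subgroups in the symplectic group: degree two over the field with two elements.
-/

namespace Cfsg.Agent.Lib.FldSpH94

open Module Cfsg.Agent.Lib.SLMax Cfsg.Agent.Lib.SLUn Cfsg.Agent.Lib.SLBlockH94 Cfsg.Agent.Lib.ExtFldH94
  Cfsg.Agent.Lib.ExtSLH94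

variable {F K V : Type*} [Field F] [Field K] [Algebra F K] [AddCommGroup V] [Module F V] [Module K V]
  [IsScalarTower F K V] [FiniteDimensional F K] [FiniteDimensional K V] [FiniteDimensional F V]
  {M : Subgroup (V ≃ₗ[F] V)}

/-- elements of the field with four elements -/
theorem four (h2 : ∀ y : F, y ≠ 0 → y = 1) (hr : finrank F K = 2) {a : K} (ha : a ∉ Set.range (algebraMap F K)) :
    a * a = 1 + a := by
  have h11 : (1 : F) + 1 = 0 := by
    by_contra h
    have := h2 _ h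
    exact one_ne_zero (add_eq_left.1 this)
  have hKK : ∀ x : K, x + x = 0 := by
    intro x
    have : x + x = ((1 : F) + 1) • x := by rw [add_smul, one_smul]
    rw [this, h11, zero_smul]
  have hF : ∀ y : F, y = 0 ∨ y = 1 := fun y => by
    by_cases h : y = 0
    · exact Or.inl h
    · exact Or.inr (h2 y h)
  have ha0 : a ≠ 0 := by rintro rfl; exact ha ⟨0, map_zero _⟩
  have ha1 : a ≠ 1 := by rintro rfl; exact ha ⟨1, map_one _⟩
  have hK : ∀ c : K, ∃ s t : F, c = s • (1 : K) + t • a := by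
    intro c
    have hli : LinearIndependent F ![(1 : K), a] := by
      rw [LinearIndependent.pair_iff]
      intro s t hst
      by_cases ht : t = 0
      · rw [ht, zero_smul, add_zero] at hst
        exact ⟨(smul_eq_zero.1 hst).resolve_right one_ne_zero, ht⟩
      · exfalso
        apply ha
        refine ⟨s, ?_⟩
        rw [h2 t ht, one_smul, Algebra.smul_def, mul_one] at hst
        have := eq_neg_of_add_eq_zero_left hst
        rw [this]
        exact neg_eq_of_add_eq_zero_left (hKK a)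
    have hspan : Submodule.span F (Set.range ![(1 : K), a]) = ⊤ :=
      hli.span_eq_top_of_card_eq_finrank (by rw [hr]; rfl)
    have h3 : c ∈ Submodule.span F {(1 : K), a} := by
      have : Set.range ![(1 : K), a] = {1, a} := by simp [Set.pair_comm]
      rw [← this, hspan]; trivial
    obtain ⟨s, t, hst⟩ := Submodule.mem_span_pair.1 h3
    exact ⟨s, t, hst.symm⟩
  obtain ⟨s, t, hst⟩ := hK (a * a)
  rcases hF s with rfl | rfl <;> rcases hF t with rfl | rfl
  · exfalso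
    simp only [zero_smul, add_zero] at hst
    exact ha0 (mul_self_eq_zero.1 hst)
  · exfalso
    simp only [zero_smul, zero_add, one_smul] at hst
    exact ha1 (mul_left_cancel₀ ha0 (by rw [hst, mul_one]))
  · exfalso
    simp only [zero_smul, add_zero, one_smul] at hst
    have h3 : (a + 1) * (a + 1) = 0 := by
      have : (a + 1) * (a + 1) = a * a + (a + a) + 1 := by ring
      rw [this, hst, hKK a, add_zero, hKK]
    have h4 := mul_self_eq_zero.1 h3
    apply ha1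
    have h5 := eq_neg_of_add_eq_zero_left h4
    rw [h5]; exact neg_eq_of_add_eq_zero_left (hKK 1)
  · simpa using hst

namespace SD

variable {B : V →ₗ[F] V →ₗ[F] F} {b : Dual F K} {C : V →ₗ[K] V →ₗ[K] K} (S : SD B b C M)
include S

theorem B_nd {x : V} (h : ∀ y, B x y = 0) : x = 0 := by
  apply S.nd
  intro y
  apply S.bzero
  intro a
  rw [S.bB', h]

theorem B_neg (x y : V) : B x y = - B y x := by rw [← S.bC, S.neg, map_neg, S.bC]

/-- a non-isotropic image of a line -/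
theorem exists_nonperp (h2 : ∀ y : F, y ≠ 0 → y = 1) (hr : finrank F K = 2) (hk : 2 ≤ finrank K V)
    (hex : ∃ g ∈ M, ¬ ∀ a : K, ∃ b : K, ∀ x, g (a • x) = b • g x) :
    ∃ g ∈ M, ∃ (v : V) (κ : K), C (g (κ • v)) (g v) ≠ 0 := by
  by_contra hcon
  push Not at hcon
  obtain ⟨g, hg, hgN⟩ := hex
  have h11 : (1 : F) + 1 = 0 := by
    by_contra h
    have := h2 _ h
    exact one_ne_zero (add_eq_left.1 this)
  have hKK : ∀ x : K, x + x = 0 := by
    intro x
    have : x + x = ((1 : F) + 1) • x := by rw [add_smul, one_smul]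
    rw [this, h11, zero_smul]
  have gg : ∀ (g : V ≃ₗ[F] V) (x : V), g (g⁻¹ x) = x := fun g x => by
    rw [← LinearEquiv.mul_apply, mul_inv_cancel]; rfl
  have gg' : ∀ (g : V ≃ₗ[F] V) (x : V), g⁻¹ (g x) = x := fun g x => by
    rw [← LinearEquiv.mul_apply, inv_mul_cancel]; rfl
  have hsa : ∀ g ∈ M, ∀ (a : K) (x y : V), B (g (a • g⁻¹ x)) y = B x (g (a • g⁻¹ y)) := by
    intro g hg a x y
    conv_lhs => rw [← gg g y]
    conv_rhs => rw [← gg g x]
    rw [S.sp g hg, S.sp g hg, S.sa]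
  have C1 : ∀ g ∈ M, ∀ (a κ : K) (x : V), g (a • g⁻¹ (κ • x)) = κ • g (a • g⁻¹ x) := by
    intro g hg a κ x
    have halt : ∀ x, B (κ • x) (g (a • g⁻¹ x)) = 0 := by
      intro x
      have h3 := hcon g hg (g⁻¹ x) a
      rw [gg] at h3
      rw [← S.bB, S.neg, h3, neg_zero, mul_zero, map_zero]
    have h4 : ∀ y, B (κ • x) (g (a • g⁻¹ y)) + B (κ • y) (g (a • g⁻¹ x)) = 0 := by
      intro y
      have h5 := halt (x + y)
      simp only [smul_add, map_add, LinearMap.add_apply] at h5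
      have h6 := halt x
      have h7 := halt y
      rw [h6, h7] at h5
      linear_combination h5
    rw [← sub_eq_zero]
    apply S.B_nd
    intro y
    rw [map_sub, LinearMap.sub_apply, hsa g hg, S.sa κ (g (a • g⁻¹ x)) y, S.B_neg (g (a • g⁻¹ x)) (κ • y)]
    have := h4 y
    linear_combination this
  obtain ⟨v, a, hva⟩ := exists_not_line hk hgN
  have ha : a ∉ Set.range (algebraMap F K) := by
    rintro ⟨s, rfl⟩
    apply hva
    rw [algebraMap_smul, LinearEquiv.map_smul]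
    exact Submodule.smul_mem _ _ (self_mem_Ln _)
  have haa := four h2 hr ha
  obtain ⟨ρ, hρ⟩ : ∃ ρ : V →ₗ[F] V, ∀ x, ρ x = g (a • g⁻¹ x) :=
    ⟨(g : V →ₗ[F] V) ∘ₗ (LinearMap.lsmul K V a).restrictScalars F ∘ₗ ((g⁻¹ : V ≃ₗ[F] V) : V →ₗ[F] V), fun y => rfl⟩
  have hρK : ∀ (κ : K) x, ρ (κ • x) = κ • ρ x := fun κ x => by rw [hρ, hρ]; exact C1 g hg a κ x
  have hρsa : ∀ x y, B (ρ x) y = B x (ρ y) := fun x y => by rw [hρ, hρ]; exact hsa g hg a x y
  have hρρ : ∀ x, ρ (ρ x) = x + ρ x := by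
    intro x
    rw [hρ (ρ x), hρ x, gg', smul_smul, haa, add_smul, one_smul, map_add, gg]
  have hCsa : ∀ x y, C (ρ x) y = C x (ρ y) := by
    intro x y
    rw [← sub_eq_zero]
    apply S.bzero
    intro κ
    rw [mul_sub, map_sub, S.bB', S.bB', hρsa, hρK, sub_self]
  obtain ⟨v₁, hv₁⟩ : ∃ v₁, v₁ = g v := ⟨_, rfl⟩
  have hρv : ρ v₁ ∉ (Ln K v₁ : Submodule F V) := by
    rw [hρ, hv₁, gg']; exact hva
  have hv₁0 : v₁ ≠ 0 := by
    rintro rfl
    apply hρv
    rw [map_zero]; exact Submodule.zero_mem _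
  have hCv : C (ρ v₁) v₁ = 0 := by
    rw [hρ, hv₁, gg']
    exact hcon g hg v a
  obtain ⟨t, ht, htz⟩ := S.kt_mem v₁ 1
  have htz' : ∀ z, t z = z + C z v₁ • v₁ := fun z => by rw [htz, one_mul]
  have hti : ∀ z, t⁻¹ z = z - C z v₁ • v₁ := by
    intro z
    apply t.injective
    rw [gg, htz']
    simp only [map_sub, map_smul, LinearMap.sub_apply, LinearMap.smul_apply, S.alt, smul_zero, sub_zero,
      sub_add_cancel]
  have hcomm : ∀ z, t (ρ (t⁻¹ (ρ z))) = ρ (t (ρ (t⁻¹ z))) := by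
    intro z
    have hg' : g⁻¹ * t * g ∈ M := mul_mem (mul_mem (inv_mem hg) ht) hg
    have h3 := C1 (g⁻¹ * t * g) hg' a a (g⁻¹ z)
    have e1 : ∀ x, (g⁻¹ * t * g : V ≃ₗ[F] V) x = g⁻¹ (t (g x)) := fun x => rfl
    have e2 : ∀ x, (g⁻¹ * t * g : V ≃ₗ[F] V)⁻¹ x = g⁻¹ (t⁻¹ (g x)) := fun x => by
      rw [mul_inv_rev, mul_inv_rev, inv_inv]; rfl
    rw [e1, e1, e2, e2, gg] at h3
    have h4 := congrArg (fun x => g x) h3
    simp only [gg] at h4
    simp only [hρ]
    exact h4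
  have hform : ∀ z, t (ρ (t⁻¹ z)) = ρ z - C z v₁ • ρ v₁ + C z (ρ v₁) • v₁ := by
    intro z
    rw [hti, map_sub, hρK, htz', map_sub, LinearMap.sub_apply, map_smul, LinearMap.smul_apply, hCv, smul_zero, sub_zero,
      hCsa]
  obtain ⟨z, hz⟩ : ∃ z, C z v₁ = 1 := by
    by_contra hcon
    push Not at hcon
    apply hv₁0
    apply S.nd
    intro y
    by_contra hy
    apply hcon ((-(C v₁ y)⁻¹) • y)
    rw [map_smul, LinearMap.smul_apply, S.neg y v₁, smul_eq_mul, neg_mul_neg, inv_mul_cancel₀ hy]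
  have h5 := hcomm z
  rw [hform, hform, hCsa, hCsa, hρρ, hρρ] at h5
  simp only [map_add, map_sub, hρK, hρρ, hz, one_smul] at h5
  obtain ⟨p, hp⟩ : ∃ p, p = C z (ρ v₁) := ⟨_, rfl⟩
  rw [← hp] at h5
  have hVV : ∀ x : V, x + x = 0 := by
    intro x
    have : x + x = ((1 : F) + 1) • x := by rw [add_smul, one_smul]
    rw [this, h11, zero_smul]
  apply hρv
  refine mem_Ln.2 ⟨-p, ?_⟩
  have h6 : ρ v₁ - (-p) • v₁ = ((z + ρ z - p • ρ v₁ + (1 + p) • v₁) - (z + ρ z - (v₁ + ρ v₁) + p • ρ v₁)) -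
      (v₁ + v₁) + (p • ρ v₁ + p • ρ v₁) := by module
  rw [h5, hVV, hVV, sub_self, sub_zero, add_zero] at h6
  exact sub_eq_zero.1 h6

/-- functionals on lines -/
theorem exists_coef (α : Dual F V) (y : V) : ∃ η : K, ∀ a : K, α (a • y) = b (a * η) := by
  obtain ⟨ψ, hψ⟩ := exists_lift (K := K) S.hb α
  exact ⟨ψ y, fun a => by rw [hψ, map_smul, smul_eq_mul]⟩

theorem exists_XX (hr : finrank F K = 2) {g : V ≃ₗ[F] V} (hg : g ∈ M) {v : V} {κ : K}
    (h : C (g (κ • v)) (g v) ≠ 0) : ∃ x ∈ M, ∃ ω : Dual F V, (∀ z, B z v = 0 → x z = z + ω z • v) ∧ ω v = 0 ∧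
      ω (κ • v) = 1 := by
  obtain ⟨e, he⟩ : ∃ e, e = C (g (κ • v)) (g v) := ⟨_, rfl⟩
  rw [← he] at h
  have hbe : b e = 0 := by
    rw [he, S.bC, S.sp g hg, ← S.bB, S.alt, mul_zero, map_zero]
  obtain ⟨m, hm, hmz⟩ := S.kt_mem (g v) e⁻¹
  obtain ⟨f, hf⟩ : ∃ f : Dual F K, f 1 = 1 := by
    obtain ⟨f, hf, -⟩ := exists_fun (F := F) (V := K) (W := (⊥ : Submodule F K)) (x := (1 : K)) (by
      rw [Submodule.mem_bot]; exact one_ne_zero)
    exact ⟨f, hf⟩
  have hker : ∀ t : K, b t = 0 → ∃ s : F, t = s • e := by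
    intro t ht
    have h3 : Submodule.span F {e} = LinearMap.ker b := by
      apply Submodule.eq_of_le_of_finrank_le
      · rw [Submodule.span_singleton_le_iff_mem]; exact hbe
      · rw [finrank_span_singleton h]
        have h4 := LinearMap.finrank_range_add_finrank_ker b
        have h5 : 0 < finrank F (LinearMap.range b) := by
          apply Nat.pos_of_ne_zero
          intro h6
          rw [Submodule.finrank_eq_zero, LinearMap.range_eq_bot] at h6
          exact S.hb h6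
        omega
    have h4 : t ∈ Submodule.span F {e} := by rw [h3]; exact ht
    obtain ⟨s, hs⟩ := Submodule.mem_span_singleton.1 h4
    exact ⟨s, hs.symm⟩
  obtain ⟨ω, hω⟩ : ∃ ω : Dual F V, ∀ z, ω z = f (e⁻¹ * C (g z) (g v)) :=
    ⟨f ∘ₗ ((e⁻¹ • C.flip (g v)).restrictScalars F) ∘ₗ (g : V →ₗ[F] V), fun z => rfl⟩
  refine ⟨g⁻¹ * m * g, mul_mem (mul_mem (inv_mem hg) hm) hg, ω, fun z hz => ?_, ?_, ?_⟩
  · have h1 : (g⁻¹ * m * g : V ≃ₗ[F] V) z = g.symm (m (g z)) := rfl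
    obtain ⟨s, hs⟩ := hker (C (g z) (g v)) (by rw [S.bC, S.sp g hg, hz])
    have h2 : e⁻¹ * C (g z) (g v) = algebraMap F K s := by
      rw [hs, mul_smul_comm, inv_mul_cancel₀ h, Algebra.algebraMap_eq_smul_one]
    rw [h1, hmz, hω, h2, algebraMap_smul, map_add, LinearEquiv.symm_apply_apply, LinearEquiv.map_smul,
      LinearEquiv.symm_apply_apply, Algebra.algebraMap_eq_smul_one, f.map_smul, hf, smul_eq_mul, mul_one]
  · rw [hω, S.alt, mul_zero, map_zero]
  · rw [hω, ← he, inv_mul_cancel₀ h, hf]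

/-- degree two over two scalars -/
theorem tv_c (h2 : ∀ y : F, y ≠ 0 → y = 1) (hr : finrank F K = 2) (hk : 3 ≤ finrank K V)
    (hex : ∃ g ∈ M, ¬ ∀ a : K, ∃ b : K, ∀ x, g (a • x) = b • g x) :
    ∃ v : V, v ≠ 0 ∧ ∀ c : F, ∃ m ∈ M, ∀ z, m z = z + (c * B z v) • v := by
  obtain ⟨g, hg, v, κ₀, hne⟩ := S.exists_nonperp h2 hr (by omega) hex
  obtain ⟨x, hx, ω, hxz, hωv, hωκ⟩ := S.exists_XX hr hg hne
  have h11 : (1 : F) + 1 = 0 := by
    by_contra h
    have := h2 _ h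
    exact one_ne_zero (add_eq_left.1 this)
  have gg : ∀ (g : V ≃ₗ[F] V) (x : V), g (g⁻¹ x) = x := fun g x => by
    rw [← LinearEquiv.mul_apply, mul_inv_cancel]; rfl
  have gg' : ∀ (g : V ≃ₗ[F] V) (x : V), g⁻¹ (g x) = x := fun g x => by
    rw [← LinearEquiv.mul_apply, inv_mul_cancel]; rfl
  have hv0 : v ≠ 0 := by
    rintro rfl
    rw [smul_zero, map_zero] at hωκ
    exact zero_ne_one hωκ
  have hLnv : ∀ a : K, B (a • v) v = 0 := fun a => by rw [← S.bB, S.alt, mul_zero, map_zero]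
  have T : TD K M v (κ₀ • v) ω := by
    refine ⟨hv0, smul_mem_Ln _ _, hωv, hωκ, fun y => ?_⟩
    by_cases hy : y = 0
    · exact ⟨1, one_mem _, fun u _ => by rw [hy]; simp⟩
    · refine ⟨x, hx, fun u hu => ?_⟩
      obtain ⟨a, rfl⟩ := mem_Ln.1 hu
      rw [hxz _ (hLnv a), h2 y hy, one_mul]
  obtain ⟨ν, hν0, hbν, hν⟩ := S.exists_nu T
  -- the vector y
  obtain ⟨z₀, hz₀⟩ := exists_out1 (F := F) (K := K) (by omega : 2 ≤ finrank K V) v
  obtain ⟨y, hyv, hyL⟩ : ∃ y, C y v = 0 ∧ y ∉ Submodule.span K {v} := by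
    obtain ⟨y, hy, hyL⟩ : ∃ y ∈ LinearMap.ker (C.flip v), y ∉ Submodule.span K {v} := by
      apply Dec.exists_out
      rw [finrank_span_singleton hv0]
      have h4 := LinearMap.finrank_range_add_finrank_ker (C.flip v)
      have h5 : finrank K (LinearMap.range (C.flip v)) ≤ 1 := by
        have := Submodule.finrank_le (LinearMap.range (C.flip v))
        rwa [finrank_self] at this
      omega
    exact ⟨y, hy, hyL⟩
  have hvy : C v y = 0 := by rw [S.neg, hyv, neg_zero]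
  obtain ⟨η, hη⟩ := S.exists_coef ω y
  obtain ⟨q, hq, hqz, hqi⟩ := S.q_mem hvy
  have hLny : ∀ a : K, B (a • y) v = 0 := fun a => by rw [← S.bB, hyv, mul_zero, map_zero]
  obtain ⟨a₀, ha₀⟩ : ∃ a₀, a₀ = ν • y + η • v := ⟨_, rfl⟩
  have ha₀v : C a₀ v = 0 := by
    rw [ha₀]
    simp only [map_add, map_smul, LinearMap.add_apply, LinearMap.smul_apply, hyv, S.alt, smul_zero, add_zero]
  have hva₀ : C v a₀ = 0 := by rw [S.neg, ha₀v, neg_zero]
  have ha₀L : a₀ ∉ Submodule.span K {v} := by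
    intro h
    apply hyL
    have h3 : ν • y ∈ Submodule.span K {v} := by
      have := Submodule.sub_mem _ h (Submodule.smul_mem _ η (Submodule.mem_span_singleton_self v))
      rwa [ha₀, add_sub_cancel_right] at this
    have h4 := Submodule.smul_mem _ ν⁻¹ h3
    rwa [smul_smul, inv_mul_cancel₀ hν0, one_smul] at h4
  -- the first commutator
  obtain ⟨σ, hσ⟩ : ∃ σ : V ≃ₗ[F] V, σ = x * q * x⁻¹ * q⁻¹ := ⟨_, rfl⟩
  have hσM : σ ∈ M := by
    rw [hσ]; exact mul_mem (mul_mem (mul_mem hx hq) (inv_mem hx)) (inv_mem hq)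
  have hVV : ∀ x : V, x + x = 0 := by
    intro x
    have : x + x = ((1 : F) + 1) • x := by rw [add_smul, one_smul]
    rw [this, h11, zero_smul]
  have hσz : ∀ z, σ z = z + B z v • a₀ + B z a₀ • v := by
    intro z
    obtain ⟨z', hz'⟩ : ∃ z', z' = q⁻¹ z := ⟨_, rfl⟩
    obtain ⟨t, ht⟩ : ∃ t, t = C z v := ⟨_, rfl⟩
    obtain ⟨s, hs⟩ : ∃ s, s = C z y := ⟨_, rfl⟩
    have hz'' : z' = z - t • y - s • v := by rw [hz', hqi, ht, hs]
    have ht' : C z' v = t := by
      rw [hz'']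
      simp only [map_sub, map_smul, LinearMap.sub_apply, LinearMap.smul_apply, hyv, S.alt, smul_zero, sub_zero, ← ht]
    have hs' : C z' y = s := by
      rw [hz'']
      simp only [map_sub, map_smul, LinearMap.sub_apply, LinearMap.smul_apply, hvy, S.alt, smul_zero, sub_zero, ← hs]
    have ht1 : C (x⁻¹ z') v = t + b t • ν := by
      rw [← sub_eq_zero]
      apply S.bzero
      intro a
      have e2 : b (a * C (x⁻¹ z') v) = b (a * t) + b (a * ν) * b t := by
        rw [S.bB', ← S.sp x hx, gg, hxz _ (hLnv a), hν, map_add, (B z').map_smul, smul_eq_mul, ← S.bB', ht',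
          ← S.bC, ht']
      have e3 : b (a * (t + b t • ν)) = b (a * t) + b (a * ν) * b t := by
        rw [mul_add, map_add, mul_smul_comm, b.map_smul, smul_eq_mul]; ring
      rw [mul_sub, map_sub, e2, e3, sub_self]
    have hs1 : C (x⁻¹ z') y = s + b t • η := by
      rw [← sub_eq_zero]
      apply S.bzero
      intro a
      have e2 : b (a * C (x⁻¹ z') y) = b (a * s) + b (a * η) * b t := by
        rw [S.bB', ← S.sp x hx, gg, hxz _ (hLny a), hη, map_add, (B z').map_smul, smul_eq_mul, ← S.bB', hs',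
          ← S.bC, ht']
      have e3 : b (a * (s + b t • η)) = b (a * s) + b (a * η) * b t := by
        rw [mul_add, map_add, mul_smul_comm, b.map_smul, smul_eq_mul]; ring
      rw [mul_sub, map_sub, e2, e3, sub_self]
    have h3 : σ z = x (q (x⁻¹ (q⁻¹ z))) := by rw [hσ]; rfl
    have hBa : B z a₀ = b (ν * s) + b (η * t) := by
      rw [ha₀, map_add, ← S.bB', ← S.bB', ← hs, ← ht]
    rw [h3, ← hz', hqz, ht1, hs1, map_add x, map_add x, gg, hxz _ (hLny _), hxz _ (hLnv _), hη, hν, hBa,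
      ← S.bC, ← ht, hz'', ha₀]
    have e4 : b ((t + b t • ν) * η) = b (η * t) + b t * b (ν * η) := by
      rw [add_mul, map_add, smul_mul_assoc, b.map_smul, smul_eq_mul, mul_comm t η]
    have e5 : b ((s + b t • η) * ν) = b (ν * s) + b t * b (ν * η) := by
      rw [add_mul, map_add, smul_mul_assoc, b.map_smul, smul_eq_mul, mul_comm s ν, mul_comm η ν]
    rw [e4, e5]
    have e6 : z - t • y - s • v + ((t + b t • ν) • y + (b (η * t) + b t * b (ν * η)) • v) +
        ((s + b t • η) • v + (b (ν * s) + b t * b (ν * η)) • v) =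
        z + b t • (ν • y + η • v) + (b (ν * s) + b (η * t)) • v + ((b t * b (ν * η)) • v + (b t * b (ν * η)) • v) := by
      simp only [add_smul, smul_add, smul_assoc]
      abel
    rw [e6, hVV, add_zero]
  have hσi : ∀ z, σ⁻¹ z = z - B z v • a₀ - B z a₀ • v := by
    intro z
    apply σ.injective
    rw [gg, hσz]
    have e1 : B a₀ v = 0 := by rw [← S.bC, ha₀v, map_zero]
    have e2 : B v a₀ = 0 := by rw [← S.bC, hva₀, map_zero]
    have e3 : B v v = 0 := by rw [← S.bC, S.alt, map_zero]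
    have e4 : B a₀ a₀ = 0 := by rw [← S.bC, S.alt, map_zero]
    simp only [map_sub, map_smul, LinearMap.sub_apply, LinearMap.smul_apply, e1, e2, e3, e4, smul_zero, sub_zero]
    abel
  -- the vector y₂
  obtain ⟨e, he⟩ : ∃ e : K, b e ≠ 0 := by
    by_contra hcon
    push Not at hcon
    exact S.hb (LinearMap.ext hcon)
  have he1 := h2 _ he
  obtain ⟨κ, hκ⟩ : ∃ κ, κ = e * ν⁻¹ := ⟨_, rfl⟩
  have hκν : κ * ν = e := by rw [hκ, mul_assoc, inv_mul_cancel₀ hν0, mul_one]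
  obtain ⟨φ, hφ1, hφ0⟩ := exists_dual ha₀L
  obtain ⟨y', hy'⟩ := S.exists_rep φ
  obtain ⟨y₂, hy₂⟩ : ∃ y₂, y₂ = (-κ) • y' := ⟨_, rfl⟩
  have hvy₂ : C v y₂ = 0 := by
    rw [hy₂, map_smul, ← hy', hφ0 v (Submodule.mem_span_singleton_self v), smul_zero]
  have hy₂v : C y₂ v = 0 := by rw [S.neg, hvy₂, neg_zero]
  have ha₀y₂ : C a₀ y₂ = -κ := by
    rw [hy₂, map_smul, ← hy', hφ1, smul_eq_mul, mul_one]
  have hy₂a₀ : C y₂ a₀ = κ := by rw [S.neg, ha₀y₂, neg_neg]
  obtain ⟨p, hp, hpz, hpi⟩ := S.q_mem hvy₂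
  obtain ⟨b1, hb1⟩ : ∃ b1 : K →ₗ[F] K, ∀ t, b1 t = b t • (1 : K) := ⟨b.smulRight (1 : K), fun t => rfl⟩
  obtain ⟨b2, hb2⟩ : ∃ b2 : K →ₗ[F] K, ∀ t, b2 t = b t • κ := ⟨b.smulRight κ, fun t => rfl⟩
  obtain ⟨b3, hb3⟩ : ∃ b3 : K →ₗ[F] K, ∀ t, b3 t = b (κ * t) • (1 : K) :=
    ⟨(b ∘ₗ LinearMap.mulLeft F κ).smulRight (1 : K), fun t => rfl⟩
  have H1 : BE C M v (b2 + b3) := by
    refine ⟨σ * p * σ⁻¹ * p⁻¹, mul_mem (mul_mem (mul_mem hσM hp) (inv_mem hσM)) (inv_mem hp), fun z => ?_⟩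
    have h3 : (σ * p * σ⁻¹ * p⁻¹ : V ≃ₗ[F] V) z = σ (p (σ⁻¹ (p⁻¹ z))) := rfl
    obtain ⟨t, ht⟩ : ∃ t, t = C z v := ⟨_, rfl⟩
    obtain ⟨s, hs⟩ : ∃ s, s = C z y₂ := ⟨_, rfl⟩
    obtain ⟨r, hr'⟩ : ∃ r, r = B z a₀ := ⟨_, rfl⟩
    have e1 : p⁻¹ z = z - t • y₂ - s • v := by rw [hpi, ht, hs]
    have e2 : B (p⁻¹ z) v = b t := by
      rw [e1, ← S.bC]
      simp only [map_sub, map_smul, LinearMap.sub_apply, LinearMap.smul_apply, hy₂v, S.alt, smul_zero, sub_zero, ← ht]
    have e3 : B (p⁻¹ z) a₀ = r - b (κ * t) := by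
      rw [e1, map_sub, map_sub, LinearMap.sub_apply, LinearMap.sub_apply, ← S.bB, ← S.bB, hy₂a₀, hva₀, mul_zero,
        map_zero, sub_zero, hr', mul_comm t κ]
    have e4 : σ⁻¹ (p⁻¹ z) = z - t • y₂ - s • v - b t • a₀ - (r - b (κ * t)) • v := by
      rw [hσi, e2, e3, e1]
    have e5 : C (σ⁻¹ (p⁻¹ z)) v = t := by
      rw [e4, ← algebraMap_smul K (b t) a₀, ← algebraMap_smul K (r - b (κ * t)) v]
      simp only [map_sub, map_smul, LinearMap.sub_apply, LinearMap.smul_apply, hy₂v, S.alt, ha₀v, smul_zero, sub_zero,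
        ← ht]
    have e6 : C (σ⁻¹ (p⁻¹ z)) y₂ = s + b t • κ := by
      rw [e4, ← algebraMap_smul K (b t) a₀, ← algebraMap_smul K (r - b (κ * t)) v]
      simp only [map_sub, map_smul, LinearMap.sub_apply, LinearMap.smul_apply, hvy₂, S.alt, ha₀y₂, smul_zero, sub_zero,
        ← hs, smul_neg, sub_neg_eq_add]
      rw [algebraMap_smul]
    have e7 : p (σ⁻¹ (p⁻¹ z)) = z - b t • a₀ - r • v + (b (κ * t) • (1 : K) + b t • κ) • v := by
      rw [hpz, e5, e6, e4]
      simp only [add_smul, sub_smul, smul_assoc, one_smul]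
      abel
    have e8 : B (p (σ⁻¹ (p⁻¹ z))) v = b t := by
      rw [e7]
      have f1 : B a₀ v = 0 := by rw [← S.bC, ha₀v, map_zero]
      have f2 : B v v = 0 := by rw [← S.bC, S.alt, map_zero]
      simp only [map_sub, map_add, map_smul, LinearMap.sub_apply, LinearMap.add_apply, LinearMap.smul_apply, f1, f2,
        hLnv, smul_zero, sub_zero, add_zero]
      rw [← S.bC, ht]
    have e9 : B (p (σ⁻¹ (p⁻¹ z))) a₀ = r := by
      rw [e7]
      have f1 : B a₀ a₀ = 0 := by rw [← S.bC, S.alt, map_zero]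
      have f2 : B v a₀ = 0 := by rw [← S.bC, hva₀, map_zero]
      have f3 : ∀ c : K, B (c • v) a₀ = 0 := fun c => by rw [← S.bB, hva₀, mul_zero, map_zero]
      simp only [map_sub, map_add, map_smul, LinearMap.sub_apply, LinearMap.add_apply, LinearMap.smul_apply, f1, f2,
        f3, smul_zero, sub_zero, add_zero]
      rw [hr']
    rw [h3, hσz, e8, e9, e7, LinearMap.add_apply, hb2, hb3, ← ht]
    abel_nf
  have H2 := S.be_D T hν 1 (κ * ν⁻¹) (h := b2 + b3 + b1) (fun t => by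
    have e1 : κ * ν⁻¹ * ν = κ := by rw [mul_assoc, inv_mul_cancel₀ hν0, mul_one]
    simp only [LinearMap.add_apply, hb1, hb2, hb3, e1, hκν, he1]
    module)
  obtain ⟨m, hm, hmz⟩ := S.be_sub H2 H1 (h'' := b1) (fun t => by
    simp only [LinearMap.add_apply]; abel)
  refine ⟨v, hv0, fun c => ?_⟩
  by_cases hc : c = 0
  · exact ⟨1, one_mem _, fun z => by rw [hc, zero_mul, zero_smul, add_zero]; rfl⟩
  · refine ⟨m, hm, fun z => ?_⟩
    rw [hmz, hb1, S.bC, smul_assoc, one_smul, h2 c hc, one_mul]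

/-- overgroups contain all transvections over the small field -/
theorem main (hr : (finrank F K).Prime) (hk : 2 ≤ finrank K V) (hexc : finrank K V = 2 → 3 ≤ finrank F K)
    (hex : ∃ g ∈ M, ¬ ∀ a : K, ∃ b : K, ∀ x, g (a • x) = b • g x) (u : V) (c : F) :
    ∃ m ∈ M, ∀ z, m z = z + (c * B z u) • u := by
  by_cases hq : ∃ y : F, y ≠ 0 ∧ y ≠ 1
  · obtain ⟨y, h0, h1⟩ := hq
    obtain ⟨w₀, u₁, ω, T⟩ := S.exists_TD hr hk hex
    exact S.all_tv T.w0 (S.tv_a T h0 h1) u c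
  · push Not at hq
    rcases Nat.lt_or_ge (finrank F K) 3 with h3 | h3
    · have h4 := hr.two_le
      obtain ⟨v, hv0, h⟩ := S.tv_c hq (by omega) (by
        by_contra hcon
        have := hexc (by omega)
        omega) hex
      exact S.all_tv hv0 h u c
    · obtain ⟨w₀, u₁, ω, T⟩ := S.exists_TD hr hk hex
      exact S.all_tv T.w0 (S.tv_b hr h3 hq T) u c

end SD

end Cfsg.Agent.Lib.FldSpH94
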