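import Mathlib
import Cfsg.Agent.Lib.FldSp3H94
import Cfsg.Agent.Lib.ExtBrH94

set_option autoImplicit false
set_option linter.unusedSectionVars false
set_option linter.unusedSimpArgs false
set_option linter.unusedVariables false

/-!
Self-adjoint fields: forms over the big field, algebra homomorphism version.
-/

namespace Cfsg.Agent.Lib.FldSpH94

open Module Cfsg.Agent.Lib.ExtFldH94

/-- lifting forms -/
theorem exists_C {F K V : Type*} [Field F] [Field K] [Algebra F K] [AddCommGroup V] [Module F V] [Module K V]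
    [IsScalarTower F K V] [FiniteDimensional F K] [FiniteDimensional K V] [FiniteDimensional F V]
    {b : Dual F K} (hb : b ≠ 0) (B : V →ₗ[F] V →ₗ[F] F) (hsa : ∀ (a : K) x y, B (a • x) y = B x (a • y)) :
    ∃ C : V →ₗ[K] V →ₗ[K] K, ∀ x y, b (C x y) = B x y := by
  have hinj : ∀ c c' : K, (∀ a, b (a * c) = b (a * c')) → c = c' := by
    intro c c' hc
    by_contra hc0
    apply hb
    apply LinearMap.ext
    intro a
    have := hc (a * (c - c')⁻¹)
    rw [← sub_eq_zero, ← map_sub, ← mul_sub, mul_assoc, inv_mul_cancel₀ (sub_ne_zero.2 hc0), mul_one] at this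
    exact this
  have h1 : ∀ y, ∃ ψ : V →ₗ[K] K, ∀ x, B x y = b (ψ x) := fun y => exists_lift hb (B.flip y)
  choose ψ hψ using h1
  have h2 : ∀ (a : K) y x, b (a * ψ y x) = B (a • x) y := by
    intro a y x
    rw [hψ, map_smul, smul_eq_mul]
  have hadd : ∀ y y', ψ (y + y') = ψ y + ψ y' := by
    intro y y'
    apply LinearMap.ext
    intro x
    apply hinj
    intro a
    rw [LinearMap.add_apply, mul_add, map_add, h2, h2, h2, map_add]
  have hsmul : ∀ (c : K) y, ψ (c • y) = c • ψ y := by
    intro c y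
    apply LinearMap.ext
    intro x
    apply hinj
    intro a
    rw [LinearMap.smul_apply, smul_eq_mul, ← mul_assoc, h2, h2, ← hsa, smul_smul, mul_comm c a]
  exact ⟨LinearMap.flip ⟨⟨ψ, hadd⟩, hsmul⟩, fun x y => (hψ y x).symm⟩

/-- overgroups, algebra homomorphism version -/
theorem main_alg (F K V : Type*) [Field F] [Field K] [Algebra F K] [FiniteDimensional F K]
    [AddCommGroup V] [Module F V] [FiniteDimensional F V] (φ : K →ₐ[F] Module.End F V)
    (B : V →ₗ[F] V →ₗ[F] F) (hsa : ∀ a x y, B (φ a x) y = B x (φ a y)) (halt : ∀ a x, B (φ a x) x = 0)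
    (hnd : ∀ x, (∀ y, B x y = 0) → x = 0) (hr : (finrank F K).Prime) (hV : 5 ≤ finrank F V)
    {M : Subgroup (V ≃ₗ[F] V)} (hMB : ∀ m ∈ M, ∀ x y, B (m x) (m y) = B x y)
    (hN : ∀ g : V ≃ₗ[F] V, (∀ x y, B (g x) (g y) = B x y) → (∀ a x, g (φ a x) = φ a (g x)) → g ∈ M)
    (hex : ∃ g ∈ M, ¬ ∀ a, ∃ b, ∀ x, g (φ a x) = φ b (g x)) (u : V) (c : F) :
    ∃ m ∈ M, ∀ z, m z = z + (c * B z u) • u := by
  let _ : Module K V := Module.compHom V φ.toRingHom
  have : IsScalarTower F K V := ⟨fun a x v => by
    show φ (a • x) v = a • φ x v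
    rw [map_smul]; rfl⟩
  have : FiniteDimensional K V := Module.Finite.of_restrictScalars_finite F K V
  have hmul : finrank F K * finrank K V = finrank F V := Module.finrank_mul_finrank F K V
  obtain ⟨b, hb⟩ : ∃ b : Dual F K, b ≠ 0 := by
    have : Nontrivial (Dual F K) := by
      rw [← Module.finrank_pos_iff (R := F), Subspace.dual_finrank_eq]
      exact hr.pos
    exact exists_ne 0
  have hsa' : ∀ (a : K) x y, B (a • x) y = B x (a • y) := hsa
  have halt' : ∀ (a : K) x, B (a • x) x = 0 := halt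
  obtain ⟨C, hC⟩ := exists_C hb B hsa'
  have hbz : ∀ {c : K}, (∀ a, b (a * c) = 0) → c = 0 := by
    intro c hc
    by_contra hc0
    apply hb
    apply LinearMap.ext
    intro a
    have := hc (a * c⁻¹)
    rw [mul_assoc, inv_mul_cancel₀ hc0, mul_one] at this
    exact this
  have hCa : ∀ (a : K) x y, b (a * C x y) = B (a • x) y := by
    intro a x y
    rw [← hC, map_smul, LinearMap.smul_apply, smul_eq_mul]
  have hCalt : ∀ x, C x x = 0 := by
    intro x
    apply hbz
    intro a
    rw [hCa, halt']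
  have hCnd : ∀ x, (∀ y, C x y = 0) → x = 0 := by
    intro x hx
    apply hnd
    intro y
    rw [← hC, hx, map_zero]
  have S : SD B b C M := by
    refine ⟨hb, hC, hCalt, hCnd, hMB, ?_⟩
    intro g hg
    apply hN
    · intro x y
      rw [← hC, ← hC]
      exact congrArg b (hg x y)
    · intro a x
      exact g.map_smul a x
  have hk : 2 ≤ finrank K V := by
    by_contra hcon
    have h1 : finrank K V ≤ 1 := by omega
    obtain ⟨x, hx0⟩ : ∃ x : V, x ≠ 0 := by
      have : Nontrivial V := by
        rw [← Module.finrank_pos_iff (R := F)]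
        omega
      exact exists_ne 0
    have h2 : finrank K V = 1 := by
      have : 0 < finrank K V := by
        have : Nontrivial V := ⟨x, 0, hx0⟩
        exact Module.finrank_pos
      omega
    apply hx0
    apply hCnd
    intro y
    obtain ⟨c, hc⟩ := (finrank_eq_one_iff_of_nonzero' x hx0).1 h2 y
    rw [← hc, map_smul, hCalt, smul_zero]
  have hex' : ∃ g ∈ M, ¬ ∀ a : K, ∃ b : K, ∀ x, g (a • x) = b • g x := hex
  exact S.main hr hk (fun h2 => by rw [h2] at hmul; omega) hex' u c

end Cfsg.Agent.Lib.FldSpH94
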