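import Mathlib
import Cfsg.Agent.Lib.FldO5H94
import Cfsg.Agent.Lib.ExtBrH94
import Cfsg.Agent.Lib.FldSpBrH94
import Cfsg.Agent.Lib.OrthBridge
import Cfsg.Agent.Lib.OrthNdBridge

set_option autoImplicit false
set_option linter.unusedSectionVars false
set_option linter.unusedSimpArgs false
set_option linter.unusedVariables false

/-!
Overgroups of extension field subgroups in orthogonal groups (self-adjoint fields), odd characteristic:
bridges.
-/

namespace Cfsg.Agent.Lib.FldOH94

open QuadraticMap Module Cfsg.Agent.Lib.Quad Cfsg.Agent.Lib.OrthMax Cfsg.Agent.Lib.OrthNd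
  Cfsg.Agent.Lib.ExtFldH94 Cfsg.Agent.Lib.OrthDecH94
open Cfsg.Agent.Lib.SLBlockH94 (Dec)

/-- scalar restriction as a group homomorphism -/
def resHom (F K V : Type*) [Field F] [Field K] [Algebra F K] [AddCommGroup V] [Module F V] [Module K V]
    [IsScalarTower F K V] : (V ≃ₗ[K] V) →* (V ≃ₗ[F] V) where
  toFun g := g.restrictScalars F
  map_one' := rfl
  map_mul' _ _ := rfl

theorem res_Om {F K V : Type*} [Field F] [Field K] [Algebra F K] [AddCommGroup V] [Module F V] [Module K V]
    [IsScalarTower F K V] {Q : QuadraticForm F V} {b : Dual F K} {q : QuadraticForm K V}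
    (bq : ∀ x, b (q x) = Q x) {g : V ≃ₗ[K] V} (hg : g ∈ Om q) : g.restrictScalars F ∈ Om Q := by
  have h1 : (Om q).map (resHom F K V) ≤ Om Q := by
    rw [Om, Om, Subgroup.map_commutator]
    apply Subgroup.commutator_mono
    all_goals
      rintro _ ⟨x, hx, rfl⟩ v
      show Q (x v) = Q v
      rw [← bq, ← bq, hx v]
  exact h1 ⟨g, hg, rfl⟩

/-- the group `Om Q` contains elements which are not semilinear -/
theorem FO.exists_not {F K V : Type*} [Field F] [Field K] [Algebra F K] [AddCommGroup V] [Module F V]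
    [Module K V] [IsScalarTower F K V] [FiniteDimensional F K] [FiniteDimensional K V] [FiniteDimensional F V]
    {Q : QuadraticForm F V} {b : Dual F K} {q : QuadraticForm K V} [Finite K] (S : FO Q b q (Om Q)) :
    ∃ g ∈ Om Q, ¬ ∀ a : K, ∃ c : K, ∀ x, g (a • x) = c • g x := by
  have hk := S.hk
  have : Finite F := Finite.of_injective _ (algebraMap F K).injective
  obtain ⟨v, -, f, -, hqv, hqf, hvf⟩ := exists_pair_in S.nd (nds_top S.nd) (by rw [finrank_top]; omega)
  have hv0 : v ≠ 0 := by rintro rfl; rw [polar_zero_left] at hvf; exact zero_ne_one hvf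
  obtain ⟨κ', hκ'0, hκ'⟩ : ∃ κ' : K, κ' ≠ 0 ∧ b κ' = 0 := by
    have h1 := LinearMap.finrank_range_add_finrank_ker b
    have h2 := Submodule.finrank_le (LinearMap.range b)
    rw [finrank_self] at h2
    have h3 := S.hr.two_le
    have h4 : LinearMap.ker b ≠ ⊥ := by
      intro h
      rw [h, finrank_bot] at h1
      omega
    obtain ⟨x, hx, hx0⟩ := Submodule.exists_mem_ne_zero_of_ne_bot h4
    exact ⟨x, hx0, hx⟩
  obtain ⟨κ, hκ⟩ : ∃ κ₀ : K, b κ₀ = 1 := by
    obtain ⟨a, ha⟩ : ∃ a : K, b a ≠ 0 := by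
      by_contra hcon
      push Not at hcon
      exact S.hb (LinearMap.ext hcon)
    exact ⟨(b a)⁻¹ • a, by rw [map_smul, smul_eq_mul, inv_mul_cancel₀ ha]⟩
  have hQv : ∀ c : K, Q (c • v) = 0 := fun c => by rw [← S.bq, Q_smul, hqv, mul_zero, map_zero]
  have hpol : polar Q (κ • v) (κ' • v) = 0 := by
    rw [polar, ← add_smul, hQv, hQv, hQv]; ring
  refine ⟨sieg S.ndQ (hQv κ) hpol, S.ndQ.sieg_mem_Om (gen_of_two S.h2) _ _, ?_⟩
  intro hcon
  have hgz : ∀ z, sieg S.ndQ (hQv κ) hpol z = z + (b (κ * polar q v z) • κ' - b (κ' * polar q v z) • κ) • v := by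
    intro z
    have e1 : polar Q (κ • v) z = b (κ * polar q v z) := by rw [← S.bQ]
    have e2 : polar Q (κ' • v) z = b (κ' * polar q v z) := by rw [← S.bQ]
    rw [sieg_apply, e1, e2, hQv, zero_mul, zero_smul, sub_zero, sub_smul, smul_assoc, smul_assoc]
    abel
  obtain ⟨w, hw0, hvw⟩ : ∃ w, w ≠ 0 ∧ polar q v w = 0 := ⟨v, hv0, by rw [polar_self', hqv, mul_zero]⟩
  have hlin : ∀ a : K, ∀ x, sieg S.ndQ (hQv κ) hpol (a • x) = a • sieg S.ndQ (hQv κ) hpol x := by
    intro a
    obtain ⟨c, hc⟩ := hcon a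
    have h1 := hc w
    rw [hgz, hgz, polar_smul_right, hvw, smul_zero, mul_zero, mul_zero, map_zero, zero_smul, zero_smul, sub_zero,
      zero_smul, add_zero, add_zero] at h1
    have h3 : (a - c) • w = 0 := by rw [sub_smul, h1, sub_self]
    rcases smul_eq_zero.1 h3 with h4 | h4
    · have h5 := sub_eq_zero.1 h4
      subst h5
      exact hc
    · exact absurd h4 hw0
  apply hκ'0
  apply S.sq_zero
  intro a
  have h1 := hlin a f
  rw [hgz, hgz, polar_smul_right, hvf, smul_eq_mul, mul_one, mul_one, mul_one, hκ, hκ', one_smul, zero_smul, sub_zero,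
    smul_add, smul_smul] at h1
  have h3 := add_left_cancel h1
  have h4 : (b (κ * a) • κ' - b (κ' * a) • κ - a * κ') • v = 0 := by rw [sub_smul, h3, sub_self]
  rcases smul_eq_zero.1 h4 with h5 | h5
  · have h6 := sub_eq_zero.1 h5
    rw [mul_assoc, ← h6, mul_sub, map_sub, mul_smul_comm, mul_smul_comm, map_smul, map_smul, smul_eq_mul,
      smul_eq_mul, mul_comm a κ', mul_comm a κ]
    ring
  · exact absurd h5 hv0

section alg

variable (F K V : Type*) [Field F] [Finite F] [Field K] [Algebra F K] [FiniteDimensional F K]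
    [AddCommGroup V] [Module F V] [FiniteDimensional F V] (φ : K →ₐ[F] Module.End F V)
    (Q : QuadraticForm F V) (hQ : Nd Q) (h2 : (2 : F) ≠ 0)
    (hsa : ∀ a x y, polar Q (φ a x) y = polar Q x (φ a y)) (hr : (finrank F K).Prime)
    (hV : 4 * finrank F K ≤ finrank F V)

include hQ h2 hsa hr hV

/-- overgroups, algebra homomorphism version -/
theorem main_alg {M : Subgroup (V ≃ₗ[F] V)} (hM : M ≤ O Q)
    (hN : ∀ g ∈ Om Q, (∀ a x, g (φ a x) = φ a (g x)) → g ∈ M) :
    ((∃ g ∈ M, ¬ ∀ a, ∃ b, ∀ x, g (φ a x) = φ b (g x)) → Om Q ≤ M) ∧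
      ∃ g ∈ Om Q, ¬ ∀ a, ∃ b, ∀ x, g (φ a x) = φ b (g x) := by
  let _ : Module K V := Module.compHom V φ.toRingHom
  have : IsScalarTower F K V := ⟨fun a x v => by
    show φ (a • x) v = a • φ x v
    rw [map_smul]; rfl⟩
  have : FiniteDimensional K V := Module.Finite.of_restrictScalars_finite F K V
  have hK : Finite K := Module.finite_of_finite F
  have hmul : finrank F K * finrank K V = finrank F V := Module.finrank_mul_finrank F K V
  obtain ⟨b, hb⟩ : ∃ b : Dual F K, b ≠ 0 := by
    have : Nontrivial (Dual F K) := by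
      rw [← Module.finrank_pos_iff (R := F), Subspace.dual_finrank_eq]
      exact hr.pos
    exact exists_ne 0
  have hsa' : ∀ (a : K) x y, polarBilin Q (a • x) y = polarBilin Q x (a • y) := hsa
  obtain ⟨C, hC⟩ := Cfsg.Agent.Lib.FldSpH94.exists_C hb (polarBilin Q) hsa'
  obtain ⟨q, hq⟩ : ∃ q : QuadraticForm K V, ∀ x, q x = (2 : K)⁻¹ * C x x :=
    ⟨(2 : K)⁻¹ • (LinearMap.BilinMap.toQuadraticMap C), fun x => rfl⟩
  have h2K : (2 : K) ≠ 0 := by
    intro h
    apply h2
    have : algebraMap F K 2 = 0 := by rw [map_ofNat]; exact h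
    exact (map_eq_zero (algebraMap F K)).1 this
  have hbq : ∀ x, b (q x) = Q x := by
    intro x
    have e : (2 : K)⁻¹ * C x x = (2 : F)⁻¹ • C x x := by
      rw [Algebra.smul_def, map_inv₀, map_ofNat]
    rw [hq, e, map_smul, hC, polarBilin_apply_apply, polar_self', smul_eq_mul, inv_mul_cancel_left₀ h2]
  have hbp : ∀ x y, b (polar q x y) = polar Q x y := by
    intro x y
    rw [polar, polar, map_sub, map_sub, hbq, hbq, hbq]
  have hnd : Nd q := by
    apply nd_of
    intro x hx
    apply hQ.eq_zero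
    intro y
    rw [← hbp, hx, map_zero]
  have hk : 4 ≤ finrank K V := by
    by_contra hcon
    have h3 : finrank K V ≤ 3 := by omega
    have h4 : finrank F K * finrank K V ≤ finrank F K * 3 := Nat.mul_le_mul_left _ h3
    have := hr.pos
    omega
  constructor
  · intro hex
    have S : FO Q b q M := by
      refine ⟨h2, hb, hbq, hnd, hr, hk, hM, fun g hg => ?_⟩
      exact hN _ (res_Om hbq hg) fun a x => g.map_smul a x
    exact S.main hex
  · have S : FO Q b q (Om Q) := ⟨h2, hb, hbq, hnd, hr, hk, Om_le, fun g hg => res_Om hbq hg⟩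
    exact S.exists_not

end alg

open Cfsg Cfsg.Geo Cfsg.Agent.Lib.GeoBridge Cfsg.Agent.Lib.OrthBridge Cfsg.Agent.Lib.ExtBrH94
open scoped MatrixGroups Matrix

theorem dvd_alg (F K V : Type*) [Field F] [Field K] [Algebra F K] [AddCommGroup V] [Module F V]
    (φ : K →ₐ[F] Module.End F V) : finrank F K ∣ finrank F V := by
  let _ : Module K V := Module.compHom V φ.toRingHom
  have : IsScalarTower F K V := ⟨fun a x v => by
    show φ (a • x) v = a • φ x v
    rw [map_smul]; rfl⟩
  exact ⟨_, (Module.finrank_mul_finrank F K V).symm⟩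

theorem dvd_of {F : Type*} [Field F] {ι : Type} [Fintype ι] [DecidableEq ι] [Nonempty ι] {r : ℕ}
    {K : Subalgebra F (Matrix ι ι F)} (hK : IsFieldSubalgebra r K) : r ∣ Fintype.card ι := by
  let _ : Field K := (isField_of hK).toField
  have hfV : finrank F (ι → F) = Fintype.card ι := finrank_fintype_fun_eq_card F
  have hfK : finrank F K = r := hK.finrank_eq
  have := dvd_alg F K (ι → F) (rho K)
  rwa [hfK, hfV] at this

/-- the statement for matrices -/
theorem matrix_main {F : Type*} [Field F] [Fintype F] {ι : Type} [Fintype ι] [DecidableEq ι]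
    {Q : QuadraticForm F (ι → F)} (hQ : Nd Q) (h2 : (2 : F) ≠ 0) {r : ℕ} (hr : r.Prime)
    (hnr : 4 * r ≤ Fintype.card ι) {K : Subalgebra F (Matrix ι ι F)} (hK : IsFieldSubalgebra r K)
    (hsa : IsSelfAdjointFor (QuadraticMap.polar Q) K) :
    IsMaximalIn (omegaGL ⇑Q) (subalgebraNormalizer K ⊓ omegaGL ⇑Q) := by
  classical
  have : Nonempty ι := by
    rw [← Fintype.card_pos_iff]
    have := hr.pos
    omega
  let _ : Field K := (isField_of hK).toField
  have hfV : finrank F (ι → F) = Fintype.card ι := finrank_fintype_fun_eq_card F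
  have hfK : finrank F K = r := hK.finrank_eq
  have hr2 := hr.two_le
  have : FiniteDimensional F K := FiniteDimensional.of_finrank_pos (by rw [hfK]; omega)
  have hsa' : ∀ (a : K) x y, polar Q (rho K a x) y = polar Q x (rho K a y) := fun a x y => hsa a a.2 x y
  have key := fun {M : Subgroup ((ι → F) ≃ₗ[F] (ι → F))} => main_alg F K (ι → F) (rho K) Q hQ h2 hsa'
    (by rw [hfK]; exact hr) (by rw [hfK, hfV]; exact hnr) (M := M)
  apply Om_max_of (P := fun g => ∀ a, ∃ b, ∀ x, g (rho K a x) = rho K b (g x))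
    (fun g => mem_normalizer_iff K g)
  · exact (key (M := Om Q) Om_le (fun g hg _ => hg)).2
  · intro M hM hH hex
    exact (key (hM.trans Om_le) fun g hg hc => hH g hg fun a => ⟨a, hc a⟩).1 hex

end Cfsg.Agent.Lib.FldOH94
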