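import Mathlib
import Cfsg.Agent.Lib.FU1H94
import Cfsg.Agent.Lib.UnBridge
import Cfsg.Agent.Lib.ExtBrH94
import Cfsg.Agent.Lib.FldOBrH94

set_option autoImplicit false
set_option linter.unusedSectionVars false
set_option linter.unusedSimpArgs false
set_option linter.unusedVariables false

/-!
Extension field subgroups of unitary groups: bridges.
-/

namespace Cfsg.Agent.Lib.FldUH94

open Module Cfsg.Agent.Lib.UnTrans Cfsg.Agent.Lib.UnMax Cfsg.Agent.Lib.ExtFldH94
open Cfsg.Agent.Lib.SpTrans (isom mem_isom)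

/-- the adjoint as a ring automorphism -/
theorem exists_tau {F K V : Type*} [Field F] [Field K] [Algebra F K] [AddCommGroup V] [Module F V]
    [FiniteDimensional F V] [Nontrivial V] {σ : F →+* F} {h : V → V → F} (Hh : HS σ h)
    (nd : Nd h (⊤ : Submodule F V)) (φ : K →ₐ[F] Module.End F V)
    (hadj : ∀ a, ∃ a', ∀ x y, h (φ a x) y = h x (φ a' y)) :
    ∃ τ : K →+* K, (∀ a x y, h (φ a x) y = h x (φ (τ a) y)) ∧ (∀ a, τ (τ a) = a) ∧
      ∀ a : F, τ (algebraMap F K a) = algebraMap F K (σ a) := by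
  have hinj : Function.Injective φ := φ.toRingHom.injective
  have huniq : ∀ a a' : K, (∀ x y, h x (φ a y) = h x (φ a' y)) → a = a' := by
    intro a a' hh
    apply hinj
    apply LinearMap.ext
    intro y
    rw [← sub_eq_zero]
    by_contra hne
    obtain ⟨x, -, hx⟩ := nd _ trivial hne
    apply hx
    apply Hh.symm_zero
    rw [Hh.sub_right, hh, sub_self]
  choose t ht using hadj
  have h1 : t 1 = 1 := huniq _ _ fun x y => by
    rw [← ht, map_one]; rfl
  have h0 : t 0 = 0 := huniq _ _ fun x y => by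
    rw [← ht, map_zero]
    show h 0 y = h x 0
    rw [Hh.zero_left, Hh.zero_right]
  have hmul : ∀ a b, t (a * b) = t a * t b := fun a b => huniq _ _ fun x y => by
    rw [← ht, mul_comm a b, map_mul, Module.End.mul_apply, ht, ht, map_mul, Module.End.mul_apply]
  have hadd : ∀ a b, t (a + b) = t a + t b := fun a b => huniq _ _ fun x y => by
    rw [← ht, map_add, LinearMap.add_apply, Hh.add_left, ht, ht, map_add, LinearMap.add_apply, Hh.add_right]
  refine ⟨⟨⟨⟨t, h1⟩, hmul⟩, h0, hadd⟩, ht, ?_, ?_⟩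
  · intro a
    apply huniq
    intro x y
    show h x (φ (t (t a)) y) = _
    rw [← ht, Hh.herm, Hh.herm x, ht]
  · intro a
    apply huniq
    intro x y
    show h x (φ (t (algebraMap F K a)) y) = _
    rw [← ht, AlgHom.commutes, AlgHom.commutes]
    show h (a • x) y = h x (σ a • y)
    rw [Hh.smul_left, Hh.smul_right, Hh.inv]

/-- functionals compatible with the automorphisms -/
theorem exists_b {F K : Type*} [Field F] [Field K] [Algebra F K] [FiniteDimensional F K] {σ : F →+* F} {τ : K →+* K}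
    (σσ : ∀ a, σ (σ a) = a) (σne : ∃ a, σ a ≠ a) (ττ : ∀ a, τ (τ a) = a)
    (τF : ∀ a : F, τ (algebraMap F K a) = algebraMap F K (σ a)) :
    ∃ b : Dual F K, b ≠ 0 ∧ ∀ x, b (τ x) = σ (b x) := by
  obtain ⟨b₀, hb₀⟩ : ∃ b : Dual F K, b ≠ 0 := exists_ne 0
  have τs : ∀ (a : F) (x : K), τ (a • x) = σ a • τ x := by
    intro a x
    rw [Algebra.smul_def, map_mul, τF, ← Algebra.smul_def]
  let B : F → Dual F K := fun k =>
    { toFun := fun x => k * b₀ x + σ (k * b₀ (τ x))
      map_add' := fun x y => by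
        simp only [map_add, mul_add]
        ring
      map_smul' := fun a x => by
        simp only [map_smul, τs, smul_eq_mul, map_mul, σσ, RingHom.id_apply]
        ring }
  have hB : ∀ k x, B k x = k * b₀ x + σ (k * b₀ (τ x)) := fun k x => rfl
  have hBτ : ∀ k x, B k (τ x) = σ (B k x) := by
    intro k x
    rw [hB, hB, map_add, ττ, σσ]
    ring
  by_cases h1 : B 1 = 0
  · obtain ⟨a, ha⟩ := σne
    refine ⟨B a, ?_, hBτ a⟩
    intro h2
    apply hb₀
    apply LinearMap.ext
    intro x
    have e1 := DFunLike.congr_fun h1 x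
    have e2 := DFunLike.congr_fun h2 x
    rw [hB, LinearMap.zero_apply, map_mul] at e1 e2
    rw [map_one] at e1
    have e3 : (a - σ a) * b₀ x = 0 := by linear_combination e2 - σ a * e1
    rcases mul_eq_zero.1 e3 with h | h
    · exact absurd (sub_eq_zero.1 h).symm ha
    · exact h
  · exact ⟨B 1, h1, hBτ 1⟩

/-- hermitian forms over the big field -/
theorem exists_CC {F K V : Type*} [Field F] [Field K] [Finite K] [Algebra F K] [AddCommGroup V] [Module F V] [Module K V]
    [IsScalarTower F K V] [FiniteDimensional F K] [FiniteDimensional K V] [FiniteDimensional F V]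
    {σ : F →+* F} {τ : K →+* K} {h : V → V → F} (Hh : HS σ h) {b : Dual F K} (hb : b ≠ 0)
    (bτ : ∀ x, b (τ x) = σ (b x)) (ττ : ∀ a, τ (τ a) = a) (τne : ∃ a, τ a ≠ a)
    (hadj : ∀ (a : K) x y, h (a • x) y = h x (τ a • y)) :
    ∃ C : V → V → K, HS τ C ∧ ∀ x y, b (C x y) = h x y := by
  have hinj : ∀ c c' : K, (∀ a, b (a * c) = b (a * c')) → c = c' := by
    intro c c' hc
    by_contra hc0
    apply hb
    apply LinearMap.ext
    intro a
    have := hc (a * (c - c')⁻¹)
    rw [← sub_eq_zero, ← map_sub, ← mul_sub, mul_assoc, inv_mul_cancel₀ (sub_ne_zero.2 hc0), mul_one] at this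
    exact this
  have h1 : ∀ y, ∃ ψ : V →ₗ[K] K, ∀ x, h x y = b (ψ x) := fun y => exists_lift hb (Hh.fl y)
  choose ψ hψ using h1
  have h2 : ∀ (a : K) y x, b (a * ψ y x) = h (a • x) y := by
    intro a y x
    rw [hψ, map_smul, smul_eq_mul]
  refine ⟨fun x y => ψ y x, ?_, fun x y => (hψ y x).symm⟩
  apply HS.of_finite ττ τne
  · intro x y z
    exact map_add _ _ _
  · intro c x y
    exact map_smul _ _ _
  · intro x y
    apply hinj
    intro a
    show b (a * ψ y x) = b (a * τ (ψ x y))
    have e1 : a * τ (ψ x y) = τ (τ a * ψ x y) := by rw [map_mul, ττ]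
    rw [h2, e1, bτ, h2, ← Hh.herm, hadj]

end Cfsg.Agent.Lib.FldUH94
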