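import Mathlib
import Cfsg.Agent.Lib.FU1H94

set_option autoImplicit false
set_option linter.unusedSectionVars false
set_option linter.unusedSimpArgs false
set_option linter.unusedVariables false

/-!
Overgroups of extension field subgroups in unitary groups: forms over the big field and the
algebra homomorphism version (piece U6b).
-/

namespace Cfsg.Agent.Lib.FldUH94

open Module Cfsg.Agent.Lib.UnTrans Cfsg.Agent.Lib.UnMax Cfsg.Agent.Lib.ExtFldH94
open Cfsg.Agent.Lib.SpTrans (isom mem_isom)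

/-- a functional compatible with the automorphisms -/
theorem exists_bU {F K : Type*} [Field F] [Field K] [Algebra F K] [FiniteDimensional F K]
    {σ : F →+* F} (hσ : ∀ x, σ (σ x) = x) (hne : ∃ a, σ a ≠ a) (τ : K →+* K) (hττ : ∀ x, τ (τ x) = x)
    (hτF : ∀ a, τ (algebraMap F K a) = algebraMap F K (σ a)) :
    ∃ b : Dual F K, b ≠ 0 ∧ ∀ x, b (τ x) = σ (b x) := by
  obtain ⟨b₀, hb₀⟩ : ∃ b : Dual F K, b ≠ 0 := by
    have : Nontrivial (Dual F K) := by
      rw [← Module.finrank_pos_iff (R := F), Subspace.dual_finrank_eq]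
      exact Module.finrank_pos
    exact exists_ne 0
  have hτs : ∀ (a : F) x, τ (a • x) = σ a • τ x := by
    intro a x
    rw [Algebra.smul_def, map_mul, hτF, ← Algebra.smul_def]
  obtain ⟨B, hB⟩ : ∃ B : F → Dual F K, ∀ c x, B c x = c * b₀ x + σ (c * b₀ (τ x)) := by
    refine ⟨fun c => ⟨⟨fun x => c * b₀ x + σ (c * b₀ (τ x)), ?_⟩, ?_⟩, fun c x => rfl⟩
    · intro x y
      rw [map_add, map_add, map_add, mul_add, mul_add, map_add]
      ring
    · intro a x
      simp only [hτs, map_smul, smul_eq_mul, map_mul, hσ, RingHom.id_apply]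
      ring
  obtain ⟨x, hx⟩ : ∃ x : K, b₀ x = 1 := by
    obtain ⟨a, ha⟩ : ∃ a : K, b₀ a ≠ 0 := by
      by_contra hcon
      push Not at hcon
      exact hb₀ (LinearMap.ext hcon)
    exact ⟨(b₀ a)⁻¹ • a, by rw [map_smul, smul_eq_mul, inv_mul_cancel₀ ha]⟩
  obtain ⟨c, hc⟩ : ∃ c, B c ≠ 0 := by
    by_contra hcon
    push Not at hcon
    have h1 : ∀ c, c + σ c * σ (b₀ (τ x)) = 0 := by
      intro c
      have := LinearMap.congr_fun (hcon c) x
      rwa [hB, hx, mul_one, map_mul, LinearMap.zero_apply] at this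
    have h2 : σ (b₀ (τ x)) = -1 := by
      have := h1 1
      rw [map_one, one_mul] at this
      linear_combination this
    obtain ⟨a, ha⟩ := hne
    apply ha
    have := h1 a
    rw [h2] at this
    linear_combination -this
  refine ⟨B c, hc, fun x => ?_⟩
  rw [hB, hB, hττ, map_add, hσ]
  ring

section lift

variable {F K V : Type*} [Field F] [Field K] [Algebra F K] [AddCommGroup V] [Module F V] [Module K V]
  [IsScalarTower F K V] [FiniteDimensional F K] [FiniteDimensional K V] [FiniteDimensional F V]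

/-- lifting hermitian forms -/
theorem exists_CU [Finite K] {σ : F →+* F} {h : V → V → F} (Hh : HS σ h) (τ : K →+* K) (hττ : ∀ x, τ (τ x) = x)
    (hτF : ∀ a, τ (algebraMap F K a) = algebraMap F K (σ a)) (had : ∀ (a : K) x y, h (a • x) y = h x (τ a • y))
    {b : Dual F K} (hb : b ≠ 0) (hbτ : ∀ x, b (τ x) = σ (b x)) :
    ∃ C : V → V → K, HS τ C ∧ ∀ x y, b (C x y) = h x y := by
  have hinj : ∀ c c' : K, (∀ a, b (a * c) = b (a * c')) → c = c' := by
    intro c c' hc
    by_contra hc0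
    apply hb
    apply LinearMap.ext
    intro a
    have := hc (a * (c - c')⁻¹)
    rw [← sub_eq_zero, ← map_sub, ← mul_sub, mul_assoc, inv_mul_cancel₀ (sub_ne_zero.2 hc0), mul_one] at this
    exact this
  have h1 : ∀ y, ∃ ψ : V →ₗ[K] K, ∀ x, Hh.fl y x = b (ψ x) := fun y => exists_lift hb (Hh.fl y)
  choose ψ hψ using h1
  have h2 : ∀ (a : K) y x, b (a * ψ y x) = h (a • x) y := by
    intro a y x
    rw [← Hh.fl_apply, hψ, map_smul, smul_eq_mul]
  refine ⟨fun x y => ψ y x, ?_, fun x y => (hψ y x).symm⟩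
  apply HS.of_finite hττ
  · obtain ⟨a, ha⟩ := Hh.ne
    refine ⟨algebraMap F K a, fun hcon => ha ?_⟩
    rw [hτF] at hcon
    exact (algebraMap F K).injective hcon
  · intro x y z; exact map_add _ _ _
  · intro c x y; exact map_smul _ _ _
  · intro x y
    apply hinj
    intro a
    have e1 : a * τ (ψ x y) = τ (τ a * ψ x y) := by rw [map_mul, hττ]
    rw [h2, e1, hbτ, h2, ← Hh.herm, had]

/-- the group generated by the small transvections contains elements which are not semilinear -/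
theorem FU.exists_not {σ : F →+* F} {τ : K →+* K} {h : V → V → F} {C : V → V → K} {Hh : HS σ h}
    {HC : HS τ C} {b : Dual F K} {M : Subgroup (V ≃ₗ[F] V)} (S : FU Hh HC b M) :
    ∃ g ∈ tgrp Hh (⊤ : Submodule F V), ¬ ∀ a : K, ∃ c : K, ∀ x, g (a • x) = c • g x := by
  have hk := S.hk
  obtain ⟨v, hv0, hv⟩ : ∃ v : V, v ≠ 0 ∧ C v v = 0 := by
    have h4 : 4 ≤ finrank K (⊤ : Submodule K V) := by rw [finrank_top]; exact S.hk
    obtain ⟨z, -, -, hz, y, -, -, hzy⟩ := HC.exists_hyp S.nd h4 (w := (0 : V)) trivial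
    refine ⟨z, ?_, hz⟩
    rintro rfl
    exact hzy (HC.zero_left y)
  obtain ⟨ε, hε0, hε⟩ := Hh.exists_tr0
  have hvh : h v v = 0 := by rw [← S.bC, hv, map_zero]
  refine ⟨tv Hh v hvh ε hε, tv_mem_tgrp Hh (W := ⊤) trivial hvh ε hε, ?_⟩
  intro hcon
  have hlin : ∀ a : K, ∀ x, tv Hh v hvh ε hε (a • x) = a • tv Hh v hvh ε hε x := by
    intro a
    obtain ⟨c, hc⟩ := hcon a
    have h1 := hc v
    rw [tv_apply, tv_apply, ← S.bh, hv, hvh, mul_zero, mul_zero, map_zero, mul_zero] at h1
    simp only [zero_smul, add_zero] at h1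
    have h3 : (a - c) • v = 0 := by rw [sub_smul, h1, sub_self]
    rcases smul_eq_zero.1 h3 with h4 | h4
    · have h5 := sub_eq_zero.1 h4
      subst h5
      exact hc
    · exact absurd h4 hv0
  obtain ⟨w, -, hw⟩ := S.nd v trivial hv0
  have hw' : C w v ≠ 0 := HC.symm_ne hw
  -- b (a * C z v) = a * b (C z v)
  have key : ∀ (a : K) z, algebraMap F K (b (a * C z v)) = a * algebraMap F K (b (C z v)) := by
    intro a z
    have h1 := hlin a z
    rw [tv_apply, tv_apply, smul_add, add_right_inj, ← S.bh, ← S.bC z v] at h1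
    have h2 : (algebraMap F K (ε * b (a * C z v)) - a * algebraMap F K (ε * b (C z v))) • v = 0 := by
      rw [sub_smul, mul_smul, algebraMap_smul, algebraMap_smul, h1, sub_self]
    rcases smul_eq_zero.1 h2 with h4 | h4
    · have h5 := sub_eq_zero.1 h4
      rw [(algebraMap F K).map_mul, (algebraMap F K).map_mul] at h5
      have hε' : algebraMap F K ε ≠ 0 := by rwa [Ne, map_eq_zero]
      apply mul_left_cancel₀ hε'
      rw [h5]; ring
    · exact absurd h4 hv0
  obtain ⟨κ, hκ⟩ : ∃ κ₀ : K, b κ₀ = 1 := by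
    obtain ⟨a, ha⟩ : ∃ a : K, b a ≠ 0 := by
      by_contra hcon
      push Not at hcon
      exact S.hb (LinearMap.ext hcon)
    exact ⟨(b a)⁻¹ • a, by rw [map_smul, smul_eq_mul, inv_mul_cancel₀ ha]⟩
  have hz : C ((κ * (C w v)⁻¹) • w) v = κ := by
    rw [HC.smul_left, mul_assoc, inv_mul_cancel₀ hw', mul_one]
  have hall : ∀ a : K, a = algebraMap F K (b (a * κ)) := by
    intro a
    have := key a ((κ * (C w v)⁻¹) • w)
    rw [hz, hκ, map_one, mul_one] at this
    exact this.symm
  have h2 := S.hr.two_le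
  have h3 : finrank F K ≤ 1 := by
    have : Function.Surjective (Algebra.linearMap F K) := fun a => ⟨_, (hall a).symm⟩
    have h4 := LinearMap.finrank_le_finrank_of_surjective this
    rwa [finrank_self] at h4
  omega

theorem det_res {τ : K →+* K} {C : V → V → K} (HC : HS τ C) {g : V ≃ₗ[K] V}
    (hg : g ∈ tgrp HC (⊤ : Submodule K V)) :
    LinearMap.det ((g.restrictScalars F : V ≃ₗ[F] V) : V →ₗ[F] V) = 1 := by
  have h1 : ((g.restrictScalars F : V ≃ₗ[F] V) : V →ₗ[F] V) = (g : V →ₗ[K] V).restrictScalars F := rfl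
  rw [h1, LinearMap.det_restrictScalars, tgrp_det HC hg, map_one]

end lift

/-- overgroups, algebra homomorphism version -/
theorem main_algU (F K V : Type*) [Field F] [Finite F] [Field K] [Algebra F K] [FiniteDimensional F K]
    [AddCommGroup V] [Module F V] [FiniteDimensional F V] (φ : K →ₐ[F] Module.End F V)
    {σ : F →+* F} {h : V → V → F} (Hh : HS σ h) (hnd : Nd h (⊤ : Submodule F V))
    (hmain : ∀ [Module K V] [IsScalarTower F K V] [FiniteDimensional K V] [Finite K]
      {τ : K →+* K} {C : V → V → K} {HC : HS τ C} {b : Dual F K} {M : Subgroup (V ≃ₗ[F] V)},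
      FU Hh HC b M → tgrp Hh ⊤ ≤ M ∨ ∀ g ∈ M, ∀ a : K, ∃ c : K, ∀ x, g (a • x) = c • g x)
    (τ : K →+* K) (hττ : ∀ x, τ (τ x) = x) (hτF : ∀ a, τ (algebraMap F K a) = algebraMap F K (σ a))
    (had : ∀ a x y, h (φ a x) y = h x (φ (τ a) y)) (hr : (finrank F K).Prime)
    (hV : 4 * finrank F K ≤ finrank F V) {M : Subgroup (V ≃ₗ[F] V)} (hM : M ≤ isom h)
    (hN : ∀ g ∈ isom h, LinearMap.det ((g : V ≃ₗ[F] V) : V →ₗ[F] V) = 1 →
      (∀ a x, g (φ a x) = φ a (g x)) → g ∈ M) :
    ((∃ g ∈ M, ¬ ∀ a, ∃ b, ∀ x, g (φ a x) = φ b (g x)) → tgrp Hh ⊤ ≤ M) ∧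
      ∃ g ∈ tgrp Hh ⊤, ¬ ∀ a, ∃ b, ∀ x, g (φ a x) = φ b (g x) := by
  let _ : Module K V := Module.compHom V φ.toRingHom
  have : IsScalarTower F K V := ⟨fun a x v => by
    show φ (a • x) v = a • φ x v
    rw [map_smul]; rfl⟩
  have : FiniteDimensional K V := Module.Finite.of_restrictScalars_finite F K V
  have hK : Finite K := Module.finite_of_finite F
  have hmul : finrank F K * finrank K V = finrank F V := Module.finrank_mul_finrank F K V
  obtain ⟨b, hb, hbτ⟩ := exists_bU Hh.inv Hh.ne τ hττ hτF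
  have had' : ∀ (a : K) x y, h (a • x) y = h x (τ a • y) := had
  obtain ⟨C, HC, hC⟩ := exists_CU Hh τ hττ hτF had' hb hbτ
  have hk : 4 ≤ finrank K V := by
    by_contra hcon
    have h3 : finrank K V ≤ 3 := by omega
    have h4 : finrank F K * finrank K V ≤ finrank F K * 3 := Nat.mul_le_mul_left _ h3
    have := hr.pos
    omega
  have hndC : Nd C (⊤ : Submodule K V) := by
    intro x _ hx
    obtain ⟨y, -, hy⟩ := hnd x trivial hx
    refine ⟨y, trivial, fun hcon => hy ?_⟩
    rw [← hC, hcon, map_zero]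
  have S : FU Hh HC b M := by
    refine ⟨hb, hC, hbτ, hτF, hndC, hr, hk, hM, fun g hg => ?_⟩
    refine hN _ ?_ ?_ fun a x => g.map_smul a x
    · intro x y
      rw [← hC, ← hC]
      exact congrArg b (tgrp_le_isom HC _ hg x y)
    · exact det_res HC hg
  constructor
  · rintro ⟨g, hg, hgn⟩
    rcases hmain S with h1 | h1
    · exact h1
    · exact absurd (h1 g hg) hgn
  · exact S.exists_not

end Cfsg.Agent.Lib.FldUH94
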