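import Mathlib
import Cfsg.Agent.Lib.FUhH94
import Cfsg.Agent.Lib.FUiH94

set_option autoImplicit false
set_option linter.unusedSectionVars false
set_option linter.unusedSimpArgs false
set_option linter.unusedVariables false

/-!
Extension field subgroups of unitary groups: the matrix statement from the statement on overgroups.
-/

namespace Cfsg.Agent.Lib.FldUH94

open Module Cfsg.Agent.Lib.UnTrans Cfsg.Agent.Lib.UnMax Cfsg.Agent.Lib.ExtFldH94
open Cfsg.Agent.Lib.SpTrans (isom mem_isom)
open Cfsg Cfsg.Geo Cfsg.Agent.Lib.GeoBridge Cfsg.Agent.Lib.UnBridge Cfsg.Agent.Lib.ExtBrH94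
open scoped MatrixGroups Matrix

universe u

/-- the matrix statement from the main theorem on overgroups -/
theorem c3_of_main {F : Type u} [Field F] [Fintype F] {n q r : ℕ} (hF : Fintype.card F = q ^ 2) (hr : r.Prime)
    (hn : 4 * r ≤ n) (K : Subalgebra F (Matrix (Fin n) (Fin n) F)) (hK : IsFieldSubalgebra r K)
    (hac : IsAdjointClosedFor (hermForm n F q) K)
    (hmain : ∀ (L V : Type u) [Field L] [Algebra F L] [AddCommGroup V] [Module F V] [Module L V]
      [IsScalarTower F L V] [FiniteDimensional F L] [FiniteDimensional L V] [FiniteDimensional F V] [Finite L]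
      {σ : F →+* F} {τ : L →+* L} {h : V → V → F} {C : V → V → L} {Hh : HS σ h} {HC : HS τ C} {b : Dual F L}
      {M : Subgroup (V ≃ₗ[F] V)},
      FU Hh HC b M → tgrp Hh ⊤ ≤ M ∨ ∀ g ∈ M, ∀ a : L, ∃ c : L, ∀ x, g (a • x) = c • g x) :
    IsMaximalIn (GU n F q ⊓ specialLinear (Fin n) F) (subalgebraNormalizer K ⊓ (GU n F q ⊓ specialLinear (Fin n) F)) := by
  classical
  have hr2 := hr.two_le
  have : Nonempty (Fin n) := ⟨⟨0, by omega⟩⟩
  let _ : Field K := (isField_of hK).toField
  have hfV : finrank F (Fin n → F) = n := by rw [finrank_fintype_fun_eq_card, Fintype.card_fin]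
  have hfK : finrank F K = r := hK.finrank_eq
  have : FiniteDimensional F K := FiniteDimensional.of_finrank_pos (by rw [hfK]; omega)
  have Hh : HS (sig hF) (hermForm n F q) := herm_HS n hF
  have hnd : Nd (hermForm n F q) (⊤ : Submodule F (Fin n → F)) := herm_nd n hF
  obtain ⟨τ, hτ, hττ, hτF⟩ := exists_tau Hh hnd (rho K) (fun a => by
    obtain ⟨k', hk', h⟩ := hac a a.2
    exact ⟨⟨k', hk'⟩, h⟩)
  have key := fun {M : Subgroup ((Fin n → F) ≃ₗ[F] (Fin n → F))} => main_algU F K (Fin n → F) (rho K) Hh hnd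
    (by
      intro i1 i2 i3 i4 τ' C' HC' b' M' S'
      exact hmain K (Fin n → F) S')
    τ hττ hτF hτ (by rw [hfK]; exact hr) (by rw [hfK, hfV]; exact hn) (M := M)
  have h4 : 4 ≤ finrank F (Fin n → F) := by rw [hfV]; omega
  have hbase := key (M := isom (hermForm n F q)) le_rfl (fun g hg _ _ => hg)
  apply SU_max_of n (P := fun g => ∀ a : K, ∃ b : K, ∀ x, g (rho K a x) = rho K b (g x))
    (fun g => mem_normalizer_iff K g)
  · obtain ⟨g, hg, hgn⟩ := hbase.2
    exact ⟨g, tgrp_le_isom Hh _ hg, tgrp_det Hh hg, hgn⟩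
  · intro M hM hH hdet hex g hg hgd
    have h1 := (key hM fun g hg hgd hc => hH g hg hgd fun a => ⟨a, hc a⟩).1 hex
    exact h1 (su_le Hh hnd h4 hg hgd)

end Cfsg.Agent.Lib.FldUH94
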