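import Mathlib
import Cfsg.Agent.Lib.FUMainH94
import Cfsg.Agent.Lib.FUjH94

set_option autoImplicit false
set_option linter.unusedSectionVars false
set_option linter.unusedSimpArgs false
set_option linter.unusedVariables false

/-!
Extension field subgroups of unitary groups: maximality.
-/

namespace Cfsg.Agent.Lib.FldUH94

open Module Cfsg.Agent.Lib.UnTrans Cfsg.Agent.Lib.UnMax Cfsg.Agent.Lib.ExtFldH94
open Cfsg Cfsg.Geo

/-- maximality of extension field subgroups of odd prime degree -/
theorem c3_max {F : Type*} [Field F] [Fintype F] {n q r : ℕ} (hF : Fintype.card F = q ^ 2) (hr : r.Prime)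
    (hn : 4 * r ≤ n) (K : Subalgebra F (Matrix (Fin n) (Fin n) F)) (hK : IsFieldSubalgebra r K)
    (hac : IsAdjointClosedFor (hermForm n F q) K) :
    IsMaximalIn (GU n F q ⊓ specialLinear (Fin n) F)
      (subalgebraNormalizer K ⊓ (GU n F q ⊓ specialLinear (Fin n) F)) :=
  c3_of_main hF hr hn K hK hac (fun L V => fun S => S.main)

end Cfsg.Agent.Lib.FldUH94
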