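import Mathlib
import Cfsg.Agent.Lib.FU2H94

set_option autoImplicit false
set_option linter.unusedSectionVars false
set_option linter.unusedSimpArgs false
set_option linter.unusedVariables false

/-!
Overgroups of the degree 5 extension field subgroups of ten dimensional unitary groups: the situation (helper46).
-/

namespace Cfsg.Agent.Lib.FV46

open Module Cfsg.Agent.Lib.UnTrans Cfsg.Agent.Lib.UnMax Cfsg.Agent.Lib.ExtFldH94 Cfsg.Agent.Lib.FldUH94
open Cfsg.Agent.Lib.SpTrans (isom mem_isom)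

variable {F K V : Type*} [Field F] [Field K] [Algebra F K] [AddCommGroup V] [Module F V] [Module K V]
  [IsScalarTower F K V] [FiniteDimensional F K] [FiniteDimensional K V] [FiniteDimensional F V]
  {σ : F →+* F} {τ : K →+* K} {h : V → V → F} {C : V → V → K} {Hh : HS σ h} {HC : HS τ C} {b : Dual F K}
  {M : Subgroup (V ≃ₗ[F] V)}

/-- the situation -/
structure FV (Hh : HS σ h) (HC : HS τ C) (b : Dual F K) (M : Subgroup (V ≃ₗ[F] V)) : Prop where
  hb : b ≠ 0
  bC : ∀ x y, b (C x y) = h x y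
  bτ : ∀ x, b (τ x) = σ (b x)
  τF : ∀ a : F, τ (algebraMap F K a) = algebraMap F K (σ a)
  nd : Nd C (⊤ : Submodule K V)
  hr : finrank F K = 5
  hk : finrank K V = 2
  hM : M ≤ isom h
  hN : ∀ g : V ≃ₗ[K] V, (∀ x y, C (g x) (g y) = C x y) →
    Algebra.norm F (LinearMap.det (g : V →ₗ[K] V)) = 1 → g.restrictScalars F ∈ M

variable (C M) in
/-- elements of the radical of the stabiliser of `K v` -/
def BE (v : V) (H : K →ₗ[F] K) : Prop := ∃ m ∈ M, ∀ z, m z = z + H (C z v) • v

/-- skew hermitian maps -/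
def SkH (σ : F →+* F) (τ : K →+* K) (b : Dual F K) (H : K →ₗ[F] K) : Prop :=
  ∀ s s' : K, b (H s * τ s') + σ (b (H s' * τ s)) = 0

namespace FV

variable (S : FV Hh HC b M)
include S

theorem bzero {c : K} (hc : ∀ a, b (a * c) = 0) : c = 0 := by
  by_contra hc0
  apply S.hb
  apply LinearMap.ext
  intro a
  have := hc (a * c⁻¹)
  rw [mul_assoc, inv_mul_cancel₀ hc0, mul_one] at this
  exact this

theorem bh (a : K) (x y : V) : b (a * C x y) = h (a • x) y := by
  rw [← S.bC, HC.smul_left]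

theorem bh' (a : K) (x y : V) : b (τ a * C x y) = h x (a • y) := by
  rw [← S.bC, HC.smul_right]

theorem C_zero {x y : V} (hxy : ∀ a : K, h (a • x) y = 0) : C x y = 0 :=
  S.bzero (fun a => by rw [S.bh]; exact hxy a)

theorem hMh {m : V ≃ₗ[F] V} (hm : m ∈ M) (x y : V) : h (m x) (m y) = h x y := S.hM hm x y

/-- images of singular lines are totally singular -/
theorem ts {U : Submodule F V} (hU : Mem C M U) {u u' : V} (hu : u ∈ U) (hu' : u' ∈ U) : h u u' = 0 := by
  obtain ⟨m, hm, v, hv, hqv, rfl⟩ := hU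
  obtain ⟨x, hx, rfl⟩ := hu
  obtain ⟨y, hy, rfl⟩ := hu'
  obtain ⟨a, rfl⟩ := mem_Ln.1 hx
  obtain ⟨c, rfl⟩ := mem_Ln.1 hy
  show h (m (a • v)) (m (c • v)) = 0
  rw [S.hMh hm, ← S.bC, HC.smul_left, HC.smul_right, hqv, mul_zero, mul_zero, map_zero]

/-- transvections over the big field -/
theorem kt {e : V} {c : K} (he : C e e = 0) (hc : c + τ c = 0) : ∃ m ∈ M, ∀ z, m z = z + (c * C z e) • e := by
  refine ⟨(tv HC e he c hc).restrictScalars F, S.hN _ (fun x y => tv_mem HC e he c hc x y) ?_, fun z => ?_⟩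
  · rw [tgrp_det HC (tv_mem_tgrp HC (W := ⊤) trivial he c hc), map_one]
  · exact tv_apply HC e he c hc z

/-- hyperbolic partners -/
theorem exists_hyp {e : V} (he0 : e ≠ 0) (he : C e e = 0) : ∃ f, C f f = 0 ∧ C f e = 1 := by
  obtain ⟨y, -, hy⟩ := S.nd e trivial he0
  have hye : C y e ≠ 0 := HC.symm_ne hy
  set y' := (C y e)⁻¹ • y with hy'
  have h1 : C y' e = 1 := by rw [hy', HC.smul_left, inv_mul_cancel₀ hye]
  clear_value y'
  have h2 : C e y' ≠ 0 := HC.symm_ne (by rw [h1]; exact one_ne_zero)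
  obtain ⟨a, ha⟩ := HC.exists_add_norm (z := e) (u := y') he h2 (map_zero τ)
  exact ⟨y' + a • e, ha, by rw [HC.add_left, HC.smul_left, he, h1, mul_zero, add_zero]⟩

/-- coordinates -/
theorem coord {e f : V} (he : C e e = 0) (hf : C f f = 0) (hfe : C f e = 1) (z : V) :
    z = C z f • e + C z e • f := by
  have hef : C e f = 1 := by rw [HC.herm, hfe, map_one]
  have hzl : ∀ y, C 0 y = 0 := fun y => by
    have := HC.smul_left 0 (0 : V) y
    rwa [zero_smul, zero_mul] at this
  have hli : LinearIndependent K ![e, f] := by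
    rw [LinearIndependent.pair_iff]
    intro s t hst
    have h1 : C (s • e + t • f) f = 0 := by rw [hst, hzl]
    have h2 : C (s • e + t • f) e = 0 := by rw [hst, hzl]
    rw [HC.add_left, HC.smul_left, HC.smul_left, hef, hf, mul_one, mul_zero, add_zero] at h1
    rw [HC.add_left, HC.smul_left, HC.smul_left, he, hfe, mul_one, mul_zero, zero_add] at h2
    exact ⟨h1, h2⟩
  have hsp : (⊤ : Submodule K V) ≤ Submodule.span K (Set.range ![e, f]) := by
    rw [hli.span_eq_top_of_card_eq_finrank (by rw [S.hk]; rfl)]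
  have hz : z ∈ Submodule.span K (Set.range ![e, f]) := hsp trivial
  rw [Matrix.range_cons_cons_empty, Submodule.mem_span_pair] at hz
  obtain ⟨x, y, rfl⟩ := hz
  have h1 : C (x • e + y • f) f = x := by
    rw [HC.add_left, HC.smul_left, HC.smul_left, hef, hf, mul_one, mul_zero, add_zero]
  have h2 : C (x • e + y • f) e = y := by
    rw [HC.add_left, HC.smul_left, HC.smul_left, he, hfe, mul_one, mul_zero, zero_add]
  rw [h1, h2]

/-- vectors perpendicular to a singular vector -/
theorem perp_line {e : V} (he0 : e ≠ 0) (he : C e e = 0) {z : V} (hz : C z e = 0) : z ∈ (Ln K e : Submodule F V) := by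
  obtain ⟨f, hf, hfe⟩ := S.exists_hyp he0 he
  have := S.coord he hf hfe z
  rw [hz, zero_smul, add_zero] at this
  rw [mem_Ln]
  exact ⟨C z f, this⟩

end FV

end Cfsg.Agent.Lib.FV46
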