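import Mathlib

set_option autoImplicit false
set_option linter.all false

namespace Cfsg.Agent.Lib.FV46

open Module

namespace ALG

universe uF uK

variable {F : Type uF} {K : Type uK} [Field F] [Field K] [Algebra F K] [FiniteDimensional F K]
  {σ : F →+* F} {τ : K →+* K}

def EE (τ : K →+* K) (φ : K ≃ₐ[F] K) (β : K) (x : K) : K →ₗ[F] K :=
  LinearMap.mulLeft F x ∘ₗ φ.toLinearMap -
    LinearMap.mulLeft F (β⁻¹ * φ.symm (β * τ x)) ∘ₗ φ.symm.toLinearMap

theorem EE_apply (φ : K ≃ₐ[F] K) (β x s : K) :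
    EE τ φ β x s = x * φ s - β⁻¹ * φ.symm (β * τ x) * φ.symm s := rfl

theorem EE_add (φ : K ≃ₐ[F] K) (β x y : K) : EE τ φ β (x + y) = EE τ φ β x + EE τ φ β y := by
  ext s
  simp only [LinearMap.add_apply, EE_apply, map_add, mul_add]
  ring

theorem EE_zero (φ : K ≃ₐ[F] K) (β : K) : EE τ φ β 0 = 0 := by
  ext s
  simp only [LinearMap.zero_apply, EE_apply, map_zero, mul_zero, zero_mul, sub_self]

theorem EE_neg (φ : K ≃ₐ[F] K) (β x : K) : EE τ φ β (-x) = - EE τ φ β x := by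
  ext s
  simp only [LinearMap.neg_apply, EE_apply, map_neg, mul_neg]
  ring

/-- rank bound -/
theorem rank_big (hr : finrank F K = 5)
    (hker : ∀ (φ : K ≃ₐ[F] K), φ ≠ 1 → ∀ {a c d : K}, (a ≠ 0 ∨ c ≠ 0 ∨ d ≠ 0) → ∀ {H : K →ₗ[F] K},
      (∀ s, H s = a * s + c * φ s + d * φ (φ s)) → finrank F (LinearMap.ker H) ≤ 2)
    (φ : K ≃ₐ[F] K) (hφ : φ ≠ 1) {β : K} {a x : K} {H : K →ₗ[F] K}
    (hH : H = LinearMap.mulLeft F a + EE τ φ β x) (h0 : H ≠ 0) : 3 ≤ finrank F (LinearMap.range H) := by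
  have h1 : ∀ t, (H ∘ₗ φ.toLinearMap) t = (-(β⁻¹ * φ.symm (β * τ x))) * t + a * φ t + x * φ (φ t) := by
    intro t
    rw [hH]
    show a * φ t + EE τ φ β x (φ t) = _
    rw [EE_apply, AlgEquiv.symm_apply_apply]
    ring
  have h2 : (-(β⁻¹ * φ.symm (β * τ x))) ≠ 0 ∨ a ≠ 0 ∨ x ≠ 0 := by
    by_contra hcon
    push Not at hcon
    obtain ⟨-, ha, hx⟩ := hcon
    apply h0
    rw [hH, ha, hx, EE_zero]
    ext s
    simp
  have h3 := hker φ hφ h2 h1
  have h4 : finrank F (LinearMap.range (H ∘ₗ φ.toLinearMap)) + finrank F (LinearMap.ker (H ∘ₗ φ.toLinearMap)) = finrank F K :=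
    LinearMap.finrank_range_add_finrank_ker _
  have h5 : LinearMap.range (H ∘ₗ φ.toLinearMap) = LinearMap.range H := by
    apply LinearMap.range_comp_of_range_eq_top
    rw [LinearMap.range_eq_top]
    exact φ.surjective
  rw [h5, hr] at h4
  omega

theorem exists_phi [Finite K] (hr : finrank F K = 5) : ∃ φ : K ≃ₐ[F] K, φ ≠ 1 ∧ φ * φ ≠ 1 := by
  haveI : Finite F := Finite.of_injective (algebraMap F K) (algebraMap F K).injective
  have hc : Nat.card (K ≃ₐ[F] K) = 5 := by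
    rw [IsGalois.card_aut_eq_finrank, hr]
  haveI : Nontrivial (K ≃ₐ[F] K) := by
    rw [← Finite.one_lt_card_iff_nontrivial, hc]; norm_num
  obtain ⟨φ, hφ⟩ := exists_ne (1 : K ≃ₐ[F] K)
  refine ⟨φ, hφ, ?_⟩
  intro h
  have h1 : orderOf φ ∣ 2 := orderOf_dvd_of_pow_eq_one (by rw [sq]; exact h)
  have h2 : orderOf φ ∣ 5 := by rw [← hc]; exact orderOf_dvd_natCard φ
  have h3 := Nat.dvd_gcd h1 h2
  rw [show Nat.gcd 2 5 = 1 by decide, Nat.dvd_one, orderOf_eq_one_iff] at h3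
  exact hφ h3

/-- the abstract argument -/
theorem full [Finite K] (hr : finrank F K = 5) {P Q : (K →ₗ[F] K) → Prop}
    (hadd : ∀ H H', P H → P H' → P (H + H')) (hneg : ∀ H, P H → P (-H))
    (hmul : ∀ c : K, c + τ c = 0 → P (LinearMap.mulLeft F c))
    (htor : ∀ k : K, k ≠ 0 → Algebra.norm F (k * (τ k)⁻¹) = 1 → ∀ H, P H →
      P (LinearMap.mulLeft F k ∘ₗ H ∘ₗ LinearMap.mulLeft F (τ k)))
    {β : K}
    (hker : ∀ (φ : K ≃ₐ[F] K), φ ≠ 1 → ∀ {a c d : K}, (a ≠ 0 ∨ c ≠ 0 ∨ d ≠ 0) → ∀ {H : K →ₗ[F] K},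
      (∀ s, H s = a * s + c * φ s + d * φ (φ s)) → finrank F (LinearMap.ker H) ≤ 2)
    (hrep : ∀ {φ : K ≃ₐ[F] K}, φ ≠ 1 → ∀ {H : K →ₗ[F] K}, Q H →
      ∃ a x y : K, a + τ a = 0 ∧ H = LinearMap.mulLeft F a + EE τ φ β x + EE τ (φ * φ) β y)
    (htorus : ∀ (φ : K ≃ₐ[F] K) (k x : K),
      LinearMap.mulLeft F k ∘ₗ EE τ φ β x ∘ₗ LinearMap.mulLeft F (τ k) = EE τ φ β (k * φ (τ k) * x))
    (hdec1 : ∀ (φ : K ≃ₐ[F] K), φ ≠ 1 → ∀ {B : AddSubgroup (K × K)},
      (∀ k : K, k ≠ 0 → τ k = k → ∀ x ∈ B, (k * φ k * x.1, k * φ (φ k) * x.2) ∈ B) → ∀ {x : K × K}, x ∈ B →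
      ∀ {y y' : K}, τ y = y → τ y' = y' → (y * x.1, y' * x.2) ∈ B)
    (hdec2 : ∀ (φ : K ≃ₐ[F] K), φ ≠ 1 → ∀ {B : AddSubgroup K},
      (∀ y, τ y = y → ∀ x ∈ B, y * x ∈ B) →
      (∀ k : K, k ≠ 0 → Algebra.norm F (k * (τ k)⁻¹) = 1 → ∀ x ∈ B, k * φ (τ k) * x ∈ B) → ∀ {x : K}, x ∈ B →
      x ≠ 0 → ∀ (y : K), y ∈ B)
    {H : K →ₗ[F] K} (hH0 : H ≠ 0) (hHr : finrank F (LinearMap.range H) ≤ 2) (hPH : P H) (hQH : Q H) :
    ∀ H', Q H' → P H' := by
  obtain ⟨φ, hφ, hφ2⟩ := exists_phi (F := F) (K := K) hr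
  have hP0 : P 0 := by
    have := hmul 0 (by rw [map_zero, add_zero])
    have h1 : LinearMap.mulLeft F (0 : K) = 0 := by ext s; simp
    rwa [h1] at this
  let B : AddSubgroup (K × K) :=
    { carrier := {x | P (EE τ φ β x.1 + EE τ (φ * φ) β x.2)}
      zero_mem' := by
        show P (EE τ φ β 0 + EE τ (φ * φ) β 0)
        rw [EE_zero, EE_zero, add_zero]; exact hP0
      add_mem' := by
        intro x y hx hy
        show P (EE τ φ β (x.1 + y.1) + EE τ (φ * φ) β (x.2 + y.2))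
        rw [EE_add, EE_add]
        have := hadd _ _ hx hy
        have h1 : EE τ φ β x.1 + EE τ φ β y.1 + (EE τ (φ * φ) β x.2 + EE τ (φ * φ) β y.2) =
          EE τ φ β x.1 + EE τ (φ * φ) β x.2 + (EE τ φ β y.1 + EE τ (φ * φ) β y.2) := by abel
        rw [h1]; exact this
      neg_mem' := by
        intro x hx
        show P (EE τ φ β (-x.1) + EE τ (φ * φ) β (-x.2))
        rw [EE_neg, EE_neg, ← neg_add]
        exact hneg _ hx }
  have hBm : ∀ x y, (x, y) ∈ B ↔ P (EE τ φ β x + EE τ (φ * φ) β y) := fun x y => Iff.rfl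
  have htorB : ∀ k : K, k ≠ 0 → Algebra.norm F (k * (τ k)⁻¹) = 1 → ∀ x y, (x, y) ∈ B →
      (k * φ (τ k) * x, k * φ (φ (τ k)) * y) ∈ B := by
    intro k hk0 hk x y hxy
    rw [hBm] at hxy ⊢
    have h1 := htor k hk0 hk _ hxy
    rw [LinearMap.add_comp, LinearMap.comp_add, htorus, htorus] at h1
    exact h1
  have hBk : ∀ k : K, k ≠ 0 → τ k = k → ∀ x ∈ B, (k * φ k * x.1, k * φ (φ k) * x.2) ∈ B := by
    intro k hk0 hk x hx
    have h1 := htorB k hk0 (by rw [hk, mul_inv_cancel₀ hk0, map_one]) x.1 x.2 hx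
    rw [hk] at h1
    exact h1
  have hd1 : ∀ {x : K × K}, x ∈ B → ∀ {y y' : K}, τ y = y → τ y' = y' → (y * x.1, y' * x.2) ∈ B :=
    fun hx _ _ hy hy' => hdec1 φ hφ hBk hx hy hy'
  -- the given element
  obtain ⟨a, x, y, ha, hH⟩ := hrep hφ hQH
  have hxyB : (x, y) ∈ B := by
    rw [hBm]
    have h1 := hadd _ _ (hneg _ (hmul a ha)) hPH
    have h2 : -LinearMap.mulLeft F a + H = EE τ φ β x + EE τ (φ * φ) β y := by rw [hH]; abel
    rwa [h2] at h1
  have hx0 : x ≠ 0 := by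
    intro hx
    have h1 : H = LinearMap.mulLeft F a + EE τ (φ * φ) β y := by rw [hH, hx, EE_zero, add_zero]
    have := rank_big hr hker (φ * φ) hφ2 h1 hH0
    omega
  have hy0 : y ≠ 0 := by
    intro hy
    have h1 : H = LinearMap.mulLeft F a + EE τ φ β x := by rw [hH, hy, EE_zero, add_zero]
    have := rank_big hr hker φ hφ h1 hH0
    omega
  have hB1 : ∀ z, (z, (0 : K)) ∈ B := by
    let B1 : AddSubgroup K :=
      { carrier := {z | (z, (0 : K)) ∈ B}
        zero_mem' := B.zero_mem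
        add_mem' := by
          intro u w hu hw
          have := B.add_mem hu hw
          simpa using this
        neg_mem' := by
          intro u hu
          have := B.neg_mem hu
          simpa using this }
    have hm : ∀ z, z ∈ B1 ↔ (z, (0 : K)) ∈ B := fun z => Iff.rfl
    have h1 : x ∈ B1 := by
      rw [hm]
      have := hd1 hxyB (y := 1) (y' := 0) (map_one τ) (map_zero τ)
      simpa using this
    intro z
    rw [← hm]
    refine hdec2 φ hφ (B := B1) ?_ ?_ h1 hx0 z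
    · intro u hu w hw
      rw [hm] at hw ⊢
      have := hd1 hw (y := u) (y' := 0) hu (map_zero τ)
      simpa using this
    · intro k hk0 hk w hw
      rw [hm] at hw ⊢
      have := htorB k hk0 hk w 0 hw
      simpa using this
  have hB2 : ∀ z, ((0 : K), z) ∈ B := by
    let B2 : AddSubgroup K :=
      { carrier := {z | ((0 : K), z) ∈ B}
        zero_mem' := B.zero_mem
        add_mem' := by
          intro u w hu hw
          have := B.add_mem hu hw
          simpa using this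
        neg_mem' := by
          intro u hu
          have := B.neg_mem hu
          simpa using this }
    have hm : ∀ z, z ∈ B2 ↔ ((0 : K), z) ∈ B := fun z => Iff.rfl
    have h1 : y ∈ B2 := by
      rw [hm]
      have := hd1 hxyB (y := 0) (y' := 1) (map_zero τ) (map_one τ)
      simpa using this
    intro z
    rw [← hm]
    refine hdec2 (φ * φ) hφ2 (B := B2) ?_ ?_ h1 hy0 z
    · intro u hu w hw
      rw [hm] at hw ⊢
      have := hd1 hw (y := 0) (y' := u) (map_zero τ) hu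
      simpa using this
    · intro k hk0 hk w hw
      rw [hm] at hw ⊢
      have := htorB k hk0 hk 0 w hw
      simpa using this
  intro H' hH'
  obtain ⟨a', x', y', ha', hH2⟩ := hrep hφ hH'
  have h1 : (x', y') ∈ B := by
    have := B.add_mem (hB1 x') (hB2 y')
    simpa using this
  rw [hBm] at h1
  have h2 := hadd _ _ (hmul a' ha') h1
  rw [hH2, add_assoc]
  exact h2

end ALG

end Cfsg.Agent.Lib.FV46
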