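import Mathlib

set_option autoImplicit false

/-! S5840, pieces DEC1/DEC2: auxiliary facts on finite fields (helper6). -/

namespace Cfsg.Agent.Lib.FV46.DEC

section abstractfield

variable {E : Type*} [Field E] [Finite E]

/-- two ring endomorphisms of a finite field commute -/
theorem comm_hom (f g : E →+* E) (x : E) : f (g x) = g (f x) := by
  classical
  rcases eq_or_ne x 0 with rfl | hx
  · simp
  obtain ⟨u, hu⟩ := IsCyclic.exists_generator (α := Eˣ)
  obtain ⟨i, hi⟩ := Subgroup.mem_zpowers_iff.1 (hu (Units.map f.toMonoidHom u))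
  obtain ⟨j, hj⟩ := Subgroup.mem_zpowers_iff.1 (hu (Units.map g.toMonoidHom u))
  obtain ⟨n, hn⟩ := Subgroup.mem_zpowers_iff.1 (hu (Units.mk0 x hx))
  have hf : ∀ m : ℤ, Units.map f.toMonoidHom (u ^ m) = u ^ (i * m) := by
    intro m; rw [map_zpow, ← hi, zpow_mul]
  have hg : ∀ m : ℤ, Units.map g.toMonoidHom (u ^ m) = u ^ (j * m) := by
    intro m; rw [map_zpow, ← hj, zpow_mul]
  have h1 : Units.map f.toMonoidHom (Units.map g.toMonoidHom (Units.mk0 x hx)) =
      Units.map g.toMonoidHom (Units.map f.toMonoidHom (Units.mk0 x hx)) := by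
    rw [← hn, hf, hg, hf, hg]
    congr 1
    ring
  exact congrArg Units.val h1

/-- values of `k * g k` generate -/
theorem values_top (g : E →+* E) (hk : ∀ k : E, k * g k = 1 → k = 1 ∨ k = -1) (L : Subring E)
    (hL : ∀ k, k * g k ∈ L) : L = ⊤ := by
  classical
  haveI := Fintype.ofFinite E
  have h1 : ((Finset.univ : Finset E).erase 0).card ≤ 2 *
      (((Finset.univ : Finset E).erase 0).image (fun k => k * g k)).card := by
    apply Finset.card_le_mul_card_image
    intro b hb
    obtain ⟨k, hk0, rfl⟩ := Finset.mem_image.1 hb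
    have hk1 : k ≠ 0 := (Finset.mem_erase.1 hk0).1
    refine (Finset.card_le_card (t := {k, -k}) ?_).trans Finset.card_le_two
    intro a ha
    obtain ⟨ha1, ha2⟩ := Finset.mem_filter.1 ha
    have ha0 : a ≠ 0 := (Finset.mem_erase.1 ha1).1
    have hgk : g k ≠ 0 := by rwa [Ne, map_eq_zero]
    have h3 : (a / k) * g (a / k) = 1 := by
      rw [map_div₀, div_mul_div_comm, ha2, div_self (mul_ne_zero hk1 hgk)]
    rw [Finset.mem_insert, Finset.mem_singleton]
    rcases hk _ h3 with h4 | h4
    · left; rwa [div_eq_one_iff_eq hk1] at h4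
    · right; rw [div_eq_iff hk1] at h4; rw [h4]; ring
  have h2 : (insert 0 (((Finset.univ : Finset E).erase 0).image (fun k => k * g k))) ⊆
      Finset.univ.filter (fun x => x ∈ L) := by
    intro x hx
    refine Finset.mem_filter.2 ⟨Finset.mem_univ _, ?_⟩
    rcases Finset.mem_insert.1 hx with rfl | h3
    · exact L.zero_mem
    · obtain ⟨k, -, rfl⟩ := Finset.mem_image.1 h3
      exact hL k
  have h3 := Finset.card_le_card h2
  rw [Finset.card_insert_of_notMem (by
    intro h4
    obtain ⟨k, hk0, h5⟩ := Finset.mem_image.1 h4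
    have hk1 : k ≠ 0 := (Finset.mem_erase.1 hk0).1
    have hgk : g k ≠ 0 := by rwa [Ne, map_eq_zero]
    exact mul_ne_zero hk1 hgk h5)] at h3
  rw [Finset.card_erase_of_mem (Finset.mem_univ _), Finset.card_univ] at h1
  have h4 : Nat.card L.toAddSubgroup = (Finset.univ.filter (fun x => x ∈ L)).card := by
    rw [← Fintype.card_subtype, ← Nat.card_eq_fintype_card]; rfl
  have h5 := AddSubgroup.card_mul_index L.toAddSubgroup
  have h6 : L.toAddSubgroup.index ≠ 0 := AddSubgroup.index_ne_zero_of_finite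
  have h7 : L.toAddSubgroup.index < 2 := by
    by_contra hc
    push Not at hc
    have : Nat.card L.toAddSubgroup * 2 ≤ Nat.card L.toAddSubgroup * L.toAddSubgroup.index :=
      Nat.mul_le_mul_left _ hc
    rw [h5, Nat.card_eq_fintype_card (α := E), h4] at this
    omega
  have h8 : L.toAddSubgroup = ⊤ := AddSubgroup.index_eq_one.1 (by omega)
  rw [eq_top_iff]
  intro x _
  have : x ∈ L.toAddSubgroup := by rw [h8]; trivial
  exact this

/-- the subring of `E × E` generated by the pairs `(k f(k), k f²(k))` -/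
theorem full (f : E →+* E) (h5 : ∀ x, f (f (f (f (f x)))) = x) (hne : ∃ x, f x ≠ x) (S : Subring (E × E))
    (hS : ∀ k, (k * f k, k * f (f k)) ∈ S) : S = ⊤ := by
  classical
  have hinj : Function.Injective f := f.injective
  have hf2 : ∀ x, f (f x) = x → f x = x := by
    intro x hx
    have := h5 x
    rwa [hx, hx] at this
  have hpm : ∀ k : E, k ≠ 0 → f k = k → k * k = 1 → k = 1 ∨ k = -1 := by
    intro k _ _ h; exact mul_self_eq_one_iff.1 h
  have hker1 : ∀ k : E, k * f k = 1 → k = 1 ∨ k = -1 := by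
    intro k hk
    have hk0 : k ≠ 0 := by rintro rfl; rw [zero_mul] at hk; exact zero_ne_one hk
    have h1 : f k = k⁻¹ := eq_inv_of_mul_eq_one_right hk
    have h2 : f (f k) = k := by rw [h1, map_inv₀, h1, inv_inv]
    have h3 := hf2 k h2
    exact hpm k hk0 h3 (by rwa [h3] at hk)
  have hker2 : ∀ k : E, k * (f.comp f) k = 1 → k = 1 ∨ k = -1 := by
    intro k hk
    rw [RingHom.comp_apply] at hk
    have hk0 : k ≠ 0 := by rintro rfl; rw [zero_mul] at hk; exact zero_ne_one hk
    have h1 : f (f k) = k⁻¹ := eq_inv_of_mul_eq_one_right hk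
    have h2 : f (f (f (f k))) = k := by rw [h1, map_inv₀, map_inv₀, h1, inv_inv]
    have h3 : f k = k := by
      have := h5 k
      rwa [h2] at this
    have h4 : k = k⁻¹ := by rw [← h1, h3, h3]
    exact hpm k hk0 h3 (by nth_rewrite 2 [h4]; exact mul_inv_cancel₀ hk0)
  have hp1 : S.map (RingHom.fst E E) = ⊤ := by
    apply values_top f hker1
    intro k
    exact ⟨_, hS k, rfl⟩
  have hp2 : S.map (RingHom.snd E E) = ⊤ := by
    apply values_top (f.comp f) hker2
    intro k
    exact ⟨_, hS k, rfl⟩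
  have hx1 : ∀ x : E, ∃ y, (x, y) ∈ S := by
    intro x
    have : x ∈ S.map (RingHom.fst E E) := by rw [hp1]; trivial
    obtain ⟨⟨a, b⟩, hab, rfl⟩ := this
    exact ⟨b, hab⟩
  have hx2 : ∀ y : E, ∃ x, (x, y) ∈ S := by
    intro x
    have : x ∈ S.map (RingHom.snd E E) := by rw [hp2]; trivial
    obtain ⟨⟨a, b⟩, hab, rfl⟩ := this
    exact ⟨a, hab⟩
  have hfin : ((1 : E), (0 : E)) ∈ S → S = ⊤ := by
    intro h10
    have h01 : ((0 : E), (1 : E)) ∈ S := by
      have := S.sub_mem S.one_mem h10
      have e : (1 : E × E) - (1, 0) = (0, 1) := by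
        apply Prod.ext
        · simp
        · simp
      rwa [e] at this
    rw [eq_top_iff]
    rintro ⟨x, y⟩ -
    obtain ⟨v, hv⟩ := hx1 x
    obtain ⟨w, hw⟩ := hx2 y
    have h1 := S.mul_mem hv h10
    have h2 := S.mul_mem hw h01
    have h3 := S.add_mem h1 h2
    simpa using h3
  by_cases hcase : ∃ y : E, y ≠ 0 ∧ (y, (0 : E)) ∈ S
  · obtain ⟨y, hy0, hy⟩ := hcase
    apply hfin
    obtain ⟨w, hw⟩ := hx1 y⁻¹
    have := S.mul_mem hw hy
    simpa [inv_mul_cancel₀ hy0] using this
  by_cases hcase2 : ∃ y : E, y ≠ 0 ∧ ((0 : E), y) ∈ S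
  · obtain ⟨y, hy0, hy⟩ := hcase2
    apply hfin
    obtain ⟨w, hw⟩ := hx2 y⁻¹
    have h1 := S.mul_mem hw hy
    have h2 : ((0 : E), (1 : E)) ∈ S := by simpa [inv_mul_cancel₀ hy0] using h1
    have := S.sub_mem S.one_mem h2
    have e : (1 : E × E) - (0, 1) = (1, 0) := by
      apply Prod.ext
      · simp
      · simp
    rwa [e] at this
  exfalso
  push Not at hcase hcase2
  -- `S` is the graph of an automorphism
  let e0 : S →+* E := (RingHom.fst E E).comp S.subtype
  have he0 : Function.Bijective e0 := by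
    constructor
    · rw [injective_iff_map_eq_zero]
      rintro ⟨⟨a, b⟩, hab⟩ h0
      change a = 0 at h0
      subst h0
      have hb : b = 0 := by
        by_contra hb
        exact hcase2 b hb hab
      subst hb
      rfl
    · intro x
      obtain ⟨y, hy⟩ := hx1 x
      exact ⟨⟨(x, y), hy⟩, rfl⟩
  let e1 : S ≃+* E := RingEquiv.ofBijective e0 he0
  let θ : E →+* E := ((RingHom.snd E E).comp S.subtype).comp (e1.symm : E →+* S)
  have hθ : ∀ x y : E, (x, y) ∈ S → θ x = y := by
    intro x y hxy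
    have h1 : e1.symm x = ⟨(x, y), hxy⟩ := by
      rw [RingEquiv.symm_apply_eq]; rfl
    change ((e1.symm x : S) : E × E).2 = y
    rw [h1]
  have hN : ∀ k, θ (k * f k) = k * f (f k) := fun k => hθ _ _ (hS k)
  have hT : ∀ k, θ (k + f k) = k + f (f k) := by
    intro k
    apply hθ
    have h1 := S.sub_mem (S.sub_mem (hS (k + 1)) (hS k)) S.one_mem
    have h2 : ((k + 1) * f (k + 1), (k + 1) * f (f (k + 1))) - (k * f k, k * f (f k)) - 1 = (k + f k, k + f (f k)) := by
      apply Prod.ext
      · simp only [Prod.fst_sub, Prod.fst_one, map_add, map_one]; ring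
      · simp only [Prod.snd_sub, Prod.snd_one, map_add, map_one]; ring
    rwa [h2] at h1
  have hroot : ∀ k, θ k = k ∨ θ k = f (f k) := by
    intro k
    have h1 : (θ k - k) * (θ k - f (f k)) = 0 := by
      have h2 : (θ k - k) * (θ k - f (f k)) = θ k * θ k - θ k * (k + f (f k)) + k * f (f k) := by ring
      rw [h2, ← hT, ← hN, ← map_mul, ← map_mul, ← map_sub, ← map_add]
      have : k * k - k * (k + f k) + k * f k = 0 := by ring
      rw [this, map_zero]
    rcases mul_eq_zero.1 h1 with h2 | h2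
    · left; exact sub_eq_zero.1 h2
    · right; exact sub_eq_zero.1 h2
  obtain ⟨u, hu⟩ := IsCyclic.exists_generator (α := Eˣ)
  have hgen : ∀ s t : E →+* E, s (u : E) = t (u : E) → ∀ x, s x = t x := by
    intro s t hst x
    rcases eq_or_ne x 0 with rfl | hx
    · rw [map_zero, map_zero]
    obtain ⟨n, hn⟩ := Subgroup.mem_zpowers_iff.1 (hu (Units.mk0 x hx))
    have h1 : (x : E) = (u : E) ^ n := by
      have := congrArg Units.val hn
      rw [Units.val_zpow_eq_zpow_val] at this
      exact this.symm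
    rw [h1, map_zpow₀, map_zpow₀, hst]
  have hu0 : (u : E) ≠ 0 := u.ne_zero
  obtain ⟨x, hx⟩ := hne
  rcases hroot (u : E) with h1 | h1
  · have h2 : ∀ x, θ x = x := hgen θ (RingHom.id E) h1
    have h3 := hN (u : E)
    rw [h2] at h3
    have h4 : f (u : E) = f (f (u : E)) := mul_left_cancel₀ hu0 h3
    have h5' : f (u : E) = (u : E) := (hinj h4).symm
    exact hx (hgen f (RingHom.id E) h5' x)
  · have h2 : ∀ x, θ x = f (f x) := hgen θ (f.comp f) h1
    have h3 := hN (u : E)
    rw [h2, map_mul, map_mul] at h3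
    -- f f u * f f f u = u * f f u
    have h4 : f (f (u : E)) ≠ 0 := by rw [Ne, map_eq_zero, map_eq_zero]; exact hu0
    have h6 : f (f (f (u : E))) = u := by
      rw [mul_comm] at h3
      exact mul_right_cancel₀ h4 h3
    have h7 : f (u : E) = u := by
      have := h5 (u : E)
      rw [h6] at this
      exact hf2 _ this
    exact hx (hgen f (RingHom.id E) h7 x)

/-- cardinality of the fixed field of an involution -/
theorem card_fix (s : E →+* E) (h2 : ∀ x, s (s x) = x) (hne : ∃ j, s j ≠ j) :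
    Nat.card E = Nat.card {x : E // s x = x} * Nat.card {x : E // s x = x} := by
  obtain ⟨j, hj⟩ := hne
  have hj' : j - s j ≠ 0 := fun h => hj (sub_eq_zero.1 h).symm
  rw [← Nat.card_prod]
  refine (Nat.card_congr (Equiv.ofBijective (fun p : {x : E // s x = x} × {x : E // s x = x} =>
    (p.1 : E) + p.2 * j) ⟨?_, ?_⟩)).symm
  · rintro ⟨⟨a, ha⟩, ⟨b, hb⟩⟩ ⟨⟨a', ha'⟩, ⟨b', hb'⟩⟩ h
    simp only at h
    have h1 := congrArg s h
    rw [map_add, map_mul, map_add, map_mul, ha, hb, ha', hb'] at h1
    have h3 : (b - b') * (j - s j) = 0 := by linear_combination h - h1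
    have h4 : b = b' := sub_eq_zero.1 ((mul_eq_zero.1 h3).resolve_right hj')
    subst h4
    have h5 : a = a' := add_right_cancel h
    subst h5
    rfl
  · intro x
    have hb : s ((x - s x) / (j - s j)) = (x - s x) / (j - s j) := by
      rw [map_div₀, map_sub, map_sub, h2, h2, ← neg_sub x, ← neg_sub j, neg_div_neg_eq]
    refine ⟨⟨⟨x - (x - s x) / (j - s j) * j, ?_⟩, ⟨(x - s x) / (j - s j), hb⟩⟩, ?_⟩
    · rw [map_sub, map_mul, hb]
      have : (x - s x) / (j - s j) * (j - s j) = x - s x := div_mul_cancel₀ _ hj'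
      linear_combination this
    · simp only
      ring

end abstractfield

end Cfsg.Agent.Lib.FV46.DEC
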