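import Mathlib
import Cfsg.Agent.Lib.FV1H46
import Cfsg.Agent.Lib.FV_DEC0

set_option autoImplicit false
set_option linter.unusedSectionVars false
set_option linter.unusedSimpArgs false
set_option linter.unusedVariables false

namespace Cfsg.Agent.Lib.FV46

open Module Cfsg.Agent.Lib.UnTrans Cfsg.Agent.Lib.UnMax Cfsg.Agent.Lib.ExtFldH94 Cfsg.Agent.Lib.FldUH94
open Cfsg.Agent.Lib.SpTrans (isom mem_isom)

variable {F K V : Type*} [Field F] [Field K] [Algebra F K] [AddCommGroup V] [Module F V] [Module K V]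
  [IsScalarTower F K V] [FiniteDimensional F K] [FiniteDimensional K V] [FiniteDimensional F V]
  {σ : F →+* F} {τ : K →+* K} {h : V → V → F} {C : V → V → K} {Hh : HS σ h} {HC : HS τ C} {b : Dual F K}
  {M : Subgroup (V ≃ₗ[F] V)}

theorem DEC.finF [Finite K] : Finite F := Finite.of_injective _ (algebraMap F K).injective

theorem DEC.card_gal [Finite K] (S : FV Hh HC b M) : Nat.card (K ≃ₐ[F] K) = 5 := by
  haveI : Finite F := DEC.finF (K := K)
  haveI : IsGalois F K := inferInstance
  rw [IsGalois.card_aut_eq_finrank]; exact S.hr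

theorem DEC.phi5 [Finite K] (S : FV Hh HC b M) (φ : K ≃ₐ[F] K) (x : K) : φ (φ (φ (φ (φ x)))) = x := by
  have h1 : φ ^ 5 = 1 := by
    rw [← DEC.card_gal S]; exact pow_card_eq_one'
  have h2 := congrArg (fun g : K ≃ₐ[F] K => g x) h1
  exact h2

/-- `K₀` is not centralised by `φ` -/
theorem DEC.exists_ne [Finite K] (S : FV Hh HC b M) (φ : K ≃ₐ[F] K) (hφ : φ ≠ 1) : ∃ x, τ x = x ∧ φ x ≠ x := by
  by_contra hcon
  push Not at hcon
  apply hφ
  obtain ⟨j, hj⟩ := Hh.ne
  set J := algebraMap F K j with hJ
  have hτJ : τ J = algebraMap F K (σ j) := S.τF j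
  have hJne : J - τ J ≠ 0 := by
    rw [hτJ, hJ, sub_ne_zero]
    intro h0
    exact hj ((algebraMap F K).injective h0).symm
  have hφJ : φ J = J := φ.commutes j
  ext x
  have hb : τ ((x - τ x) / (J - τ J)) = (x - τ x) / (J - τ J) := by
    rw [map_div₀, map_sub, map_sub, HC.inv, HC.inv, ← neg_sub x, ← neg_sub J, neg_div_neg_eq]
  have ha : τ (x - (x - τ x) / (J - τ J) * J) = x - (x - τ x) / (J - τ J) * J := by
    rw [map_sub, map_mul, hb]
    have : (x - τ x) / (J - τ J) * (J - τ J) = x - τ x := div_mul_cancel₀ _ hJne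
    linear_combination this
  have h1 := hcon _ ha
  have h2 := hcon _ hb
  have h3 : x = (x - (x - τ x) / (J - τ J) * J) + (x - τ x) / (J - τ J) * J := by ring
  change φ x = x
  calc φ x = φ ((x - (x - τ x) / (J - τ J) * J) + (x - τ x) / (J - τ J) * J) := by rw [← h3]
    _ = (x - (x - τ x) / (J - τ J) * J) + (x - τ x) / (J - τ J) * J := by rw [map_add, h1, map_mul, h2, hφJ]
    _ = x := h3.symm

-- PIECE DEC1
theorem dec1 [Finite K] (S : FV Hh HC b M) (φ : K ≃ₐ[F] K) (hφ : φ ≠ 1) {B : AddSubgroup (K × K)}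
    (hB : ∀ k : K, k ≠ 0 → τ k = k → ∀ x ∈ B, (k * φ k * x.1, k * φ (φ k) * x.2) ∈ B) {x : K × K} (hx : x ∈ B)
    {y y' : K} (hy : τ y = y) (hy' : τ y' = y') : (y * x.1, y' * x.2) ∈ B := by
  let K0 : Subfield K := τ.eqLocusField (RingHom.id K)
  have hK0 : ∀ x : K, x ∈ K0 ↔ τ x = x := fun x => Iff.rfl
  have hcomm : ∀ x, τ (φ x) = φ (τ x) := fun x => DEC.comm_hom τ (φ : K →+* K) x
  let f : K0 →+* K0 := ((φ : K →+* K).comp K0.subtype).codRestrict K0 (fun x => by
    rw [hK0]
    change τ (φ (x : K)) = φ (x : K)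
    rw [hcomm, (hK0 _).1 x.2])
  have hf : ∀ x : K0, ((f x : K0) : K) = φ x := fun x => rfl
  let S' : Subring (K0 × K0) :=
    { carrier := {p | ∀ x ∈ B, ((p.1 : K) * x.1, (p.2 : K) * x.2) ∈ B}
      mul_mem' := by
        intro p q hp hq x hx
        have h1 := hp _ (hq x hx)
        simp only at h1
        have h2 : (((p * q).1 : K) * x.1, ((p * q).2 : K) * x.2) =
            ((p.1 : K) * ((q.1 : K) * x.1), (p.2 : K) * ((q.2 : K) * x.2)) := by
          apply Prod.ext
          · change ((p.1 * q.1 : K0) : K) * x.1 = _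
            rw [Subfield.coe_mul, mul_assoc]
          · change ((p.2 * q.2 : K0) : K) * x.2 = _
            rw [Subfield.coe_mul, mul_assoc]
        rw [h2]; exact h1
      one_mem' := by
        intro x hx
        have h2 : (((1 : K0 × K0).1 : K) * x.1, ((1 : K0 × K0).2 : K) * x.2) = x := by
          apply Prod.ext
          · change ((1 : K0) : K) * x.1 = _
            rw [Subfield.coe_one, one_mul]
          · change ((1 : K0) : K) * x.2 = _
            rw [Subfield.coe_one, one_mul]
        rw [h2]; exact hx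
      add_mem' := by
        intro p q hp hq x hx
        have h1 := B.add_mem (hp x hx) (hq x hx)
        have h2 : (((p + q).1 : K) * x.1, ((p + q).2 : K) * x.2) =
            ((p.1 : K) * x.1, (p.2 : K) * x.2) + ((q.1 : K) * x.1, (q.2 : K) * x.2) := by
          apply Prod.ext
          · change ((p.1 + q.1 : K0) : K) * x.1 = _
            rw [Subfield.coe_add, add_mul]; rfl
          · change ((p.2 + q.2 : K0) : K) * x.2 = _
            rw [Subfield.coe_add, add_mul]; rfl
        rw [h2]; exact h1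
      zero_mem' := by
        intro x hx
        have h2 : (((0 : K0 × K0).1 : K) * x.1, ((0 : K0 × K0).2 : K) * x.2) = 0 := by
          apply Prod.ext
          · change ((0 : K0) : K) * x.1 = _
            rw [Subfield.coe_zero, zero_mul]; rfl
          · change ((0 : K0) : K) * x.2 = _
            rw [Subfield.coe_zero, zero_mul]; rfl
        rw [h2]; exact B.zero_mem
      neg_mem' := by
        intro p hp x hx
        have h1 := B.neg_mem (hp x hx)
        have h2 : (((-p).1 : K) * x.1, ((-p).2 : K) * x.2) = -((p.1 : K) * x.1, (p.2 : K) * x.2) := by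
          apply Prod.ext
          · change ((-p.1 : K0) : K) * x.1 = _
            rw [Subfield.coe_neg, neg_mul]; rfl
          · change ((-p.2 : K0) : K) * x.2 = _
            rw [Subfield.coe_neg, neg_mul]; rfl
        rw [h2]; exact h1 }
  have htop : S' = ⊤ := by
    apply DEC.full f
    · intro x
      apply Subtype.ext
      exact DEC.phi5 S φ x
    · obtain ⟨x, hx1, hx2⟩ := DEC.exists_ne S φ hφ
      exact ⟨⟨x, hx1⟩, fun h0 => hx2 (congrArg Subtype.val h0)⟩
    · intro k
      change ∀ x ∈ B, (((k * f k : K0) : K) * x.1, ((k * f (f k) : K0) : K) * x.2) ∈ B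
      intro x hx
      by_cases hk : (k : K) = 0
      · have hk' : k = 0 := Subtype.ext hk
        have h2 : (((k * f k : K0) : K) * x.1, ((k * f (f k) : K0) : K) * x.2) = 0 := by
          rw [hk', zero_mul, zero_mul]
          apply Prod.ext
          · change ((0 : K0) : K) * x.1 = _
            rw [Subfield.coe_zero, zero_mul]; rfl
          · change ((0 : K0) : K) * x.2 = _
            rw [Subfield.coe_zero, zero_mul]; rfl
        rw [h2]; exact B.zero_mem
      · exact hB k hk k.2 x hx
  have h1 : ((⟨y, hy⟩, ⟨y', hy'⟩) : K0 × K0) ∈ S' := by rw [htop]; trivial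
  exact h1 x hx

end Cfsg.Agent.Lib.FV46
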