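import Mathlib
import Cfsg.Agent.Lib.FV1H46

set_option autoImplicit false
set_option linter.unusedSectionVars false
set_option linter.unusedSimpArgs false
set_option linter.unusedVariables false

namespace Cfsg.Agent.Lib.FV46

open Module Cfsg.Agent.Lib.UnTrans Cfsg.Agent.Lib.UnMax Cfsg.Agent.Lib.ExtFldH94 Cfsg.Agent.Lib.FldUH94
open Cfsg.Agent.Lib.SpTrans (isom mem_isom)

variable {F K V : Type*} [Field F] [Field K] [Algebra F K] [AddCommGroup V] [Module F V] [Module K V]
  [IsScalarTower F K V] [FiniteDimensional F K] [FiniteDimensional K V] [FiniteDimensional F V]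
  {σ : F →+* F} {τ : K →+* K} {h : V → V → F} {C : V → V → K} {Hh : HS σ h} {HC : HS τ C} {b : Dual F K}
  {M : Subgroup (V ≃ₗ[F] V)}

namespace DEC2

/-- ring endomorphisms of a finite field commute -/
theorem comm_hom [Finite K] (f g : K →+* K) (x : K) : f (g x) = g (f x) := by
  obtain ⟨u, hu⟩ := IsCyclic.exists_generator (α := Kˣ)
  by_cases hx : x = 0
  · subst hx; simp
  have key : ∀ f : K →+* K, ∃ n : ℕ, ∀ y : K, y ≠ 0 → f y = y ^ n := by
    intro f
    have hfu : f (u : K) ≠ 0 := by
      rw [Ne, map_eq_zero]; exact u.ne_zero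
    obtain ⟨n, hn⟩ := (mem_powers_iff_mem_zpowers (x := u) (y := Units.mk0 _ hfu)).2 (hu _)
    refine ⟨n, fun y hy => ?_⟩
    obtain ⟨m, hm⟩ := (mem_powers_iff_mem_zpowers (x := u) (y := Units.mk0 y hy)).2 (hu _)
    have h1 : (u : K) ^ n = f u := by
      have := congrArg (fun w : Kˣ => (w : K)) hn
      simpa using this
    have h2 : (u : K) ^ m = y := by
      have := congrArg (fun w : Kˣ => (w : K)) hm
      simpa using this
    rw [← h2, map_pow, ← h1, ← pow_mul, ← pow_mul, mul_comm]
  obtain ⟨m, hm⟩ := key f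
  obtain ⟨n, hn⟩ := key g
  rw [hn x hx, hm x hx, hm _ (pow_ne_zero _ hx), hn _ (pow_ne_zero _ hx), ← pow_mul, ← pow_mul, mul_comm]

/-- fixed points of a nontrivial automorphism in degree five -/
theorem fix_mem (hr : finrank F K = 5) (φ : K ≃ₐ[F] K) (hφ : φ ≠ 1) {y : K} (hy : φ y = y) :
    ∃ a : F, algebraMap F K a = y := by
  have h1 : finrank F (IntermediateField.adjoin F {y}) ∣ 5 := by
    rw [← hr, ← IntermediateField.finrank_top' (F := F) (E := K)]
    exact IntermediateField.finrank_dvd_of_le_right le_top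
  rcases (Nat.dvd_prime (by norm_num)).1 h1 with h2 | h2
  · have h3 := IntermediateField.finrank_eq_one_iff.1 h2
    have h4 : y ∈ IntermediateField.adjoin F {y} := IntermediateField.mem_adjoin_simple_self F y
    rw [h3, IntermediateField.mem_bot] at h4
    exact h4
  · exfalso
    apply hφ
    have h3 : IntermediateField.adjoin F {y} = ⊤ := by
      apply IntermediateField.eq_of_le_of_finrank_eq le_top
      rw [h2, IntermediateField.finrank_top', hr]
    have h4 : Algebra.adjoin F {y} = ⊤ := IntermediateField.adjoin_eq_top_iff.1 h3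
    have h5 : (φ : K →ₐ[F] K) = AlgHom.id F K := by
      apply AlgHom.ext_of_adjoin_eq_top h4
      intro z hz
      rw [Set.mem_singleton_iff.1 hz]
      exact hy
    ext z
    exact congrArg (fun f : K →ₐ[F] K => f z) h5

end DEC2

theorem dec2 [Finite K] (S : FV Hh HC b M) (φ : K ≃ₐ[F] K) (hφ : φ ≠ 1) {B : AddSubgroup K}
    (h1 : ∀ y, τ y = y → ∀ x ∈ B, y * x ∈ B)
    (h2 : ∀ k : K, k ≠ 0 → Algebra.norm F (k * (τ k)⁻¹) = 1 → ∀ x ∈ B, k * φ (τ k) * x ∈ B) {x : K} (hx : x ∈ B)
    (hx0 : x ≠ 0) (y : K) : y ∈ B := by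
  classical
  have hcom : ∀ z, φ (τ z) = τ (φ z) := fun z => DEC2.comm_hom (φ : K →+* K) τ z
  -- a basis over the fixed field
  have hdec : ∀ α : K, τ α ≠ α → ∀ z : K, ∃ u v : K, τ u = u ∧ τ v = v ∧ z = u + α * v := by
    intro α hα z
    have hα' : α - τ α ≠ 0 := sub_ne_zero.2 (Ne.symm hα)
    have hv : τ ((z - τ z) / (α - τ α)) = (z - τ z) / (α - τ α) := by
      rw [map_div₀, map_sub, map_sub, HC.inv, HC.inv, ← neg_sub z, ← neg_sub α, neg_div_neg_eq]
    refine ⟨z - α * ((z - τ z) / (α - τ α)), _, ?_, hv, by ring⟩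
    rw [map_sub, map_mul, hv]
    field_simp
    ring
  by_cases hex : ∃ α : K, τ α ≠ α ∧ ∀ x ∈ B, α * x ∈ B
  · obtain ⟨α, hα, hαB⟩ := hex
    obtain ⟨u, v, hu, hv, huv⟩ := hdec α hα (y * x⁻¹)
    have h3 : y = u * x + α * (v * x) := by
      have : y = (y * x⁻¹) * x := by rw [mul_assoc, inv_mul_cancel₀ hx0, mul_one]
      rw [this, huv]; ring
    rw [h3]
    exact B.add_mem (h1 u hu x hx) (hαB _ (h1 v hv x hx))
  · exfalso
    push Not at hex
    obtain ⟨α, hα⟩ := Hh.ne
    obtain ⟨α', hα'⟩ : ∃ α' : K, α' = algebraMap F K α := ⟨_, rfl⟩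
    have hτα : τ α' ≠ α' := by
      rw [hα', S.τF]
      intro h3
      exact hα ((algebraMap F K).injective h3)
    have hφα : φ α' = α' := by rw [hα']; exact φ.commutes α
    -- the fifth powers
    have hw : ∀ z : K, z ≠ 0 → ∃ a : F, algebraMap F K a = (z * (τ z)⁻¹) ^ 5 := by
      intro z hz
      have hτz : τ z ≠ 0 := by rw [Ne, map_eq_zero]; exact hz
      obtain ⟨w, hwd⟩ : ∃ w, w = z * (τ z)⁻¹ := ⟨_, rfl⟩
      have hw0 : w ≠ 0 := by rw [hwd]; exact mul_ne_zero hz (inv_ne_zero hτz)
      have hφw0 : φ w ≠ 0 := by rw [Ne, map_eq_zero_iff φ φ.injective]; exact hw0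
      have hφz0 : φ z ≠ 0 := by rw [Ne, map_eq_zero_iff φ φ.injective]; exact hz
      obtain ⟨k, hkd⟩ : ∃ k, k = z * (φ z)⁻¹ := ⟨_, rfl⟩
      have hk0 : k ≠ 0 := by rw [hkd]; exact mul_ne_zero hz (inv_ne_zero hφz0)
      have hτk0 : τ k ≠ 0 := by rw [Ne, map_eq_zero]; exact hk0
      have hkw : k * (τ k)⁻¹ = w * (φ w)⁻¹ := by
        rw [hkd, hwd, map_mul, map_inv₀, map_mul, map_inv₀, hcom]
        have h6 : τ (φ z) ≠ 0 := by rw [Ne, map_eq_zero]; exact hφz0
        field_simp
      have hN : Algebra.norm F (k * (τ k)⁻¹) = 1 := by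
        have h9 : Algebra.norm F w ≠ 0 := by rw [Ne, Algebra.norm_eq_zero_iff]; exact hw0
        have h10 : Algebra.norm F w = Algebra.norm F (w * (φ w)⁻¹) * Algebra.norm F w := by
          conv_rhs => rw [← Algebra.norm_eq_of_algEquiv φ w]
          rw [← map_mul, mul_assoc, inv_mul_cancel₀ hφw0, mul_one]
        rw [hkw]
        exact mul_right_cancel₀ h9 (by rw [one_mul]; exact h10.symm)
      have h3 : τ (k * φ (τ k)) = k * φ (τ k) := by
        by_contra hne
        obtain ⟨x', hx', hx''⟩ := hex _ hne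
        exact hx'' (h2 k hk0 hN x' hx')
      have h4 : τ k * φ k = k * φ (τ k) := by
        rw [← h3, map_mul, ← hcom (τ k), HC.inv]
      have h5 : φ (k * (τ k)⁻¹) = k * (τ k)⁻¹ := by
        rw [map_mul, map_inv₀]
        have h6 : φ (τ k) ≠ 0 := by rw [Ne, map_eq_zero_iff φ φ.injective]; exact hτk0
        field_simp
        linear_combination h4
      obtain ⟨c, hc⟩ := DEC2.fix_mem S.hr φ hφ h5
      have hc5 : c ^ 5 = 1 := by
        rw [← S.hr, ← Algebra.norm_algebraMap (S := K), hc, hN]
      rw [← hwd]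
      apply DEC2.fix_mem S.hr φ hφ
      rw [map_pow]
      have h7 : w = algebraMap F K c * φ w := by
        rw [hc, hkw, mul_assoc, inv_mul_cancel₀ hφw0, mul_one]
      have h8 : w ^ 5 = (algebraMap F K c * φ w) ^ 5 := by rw [← h7]
      rw [h8, mul_pow, ← map_pow (algebraMap F K), hc5, map_one, one_mul]
    have : Finite F := Finite.of_injective _ (algebraMap F K).injective
    have := Fintype.ofFinite F
    have := Fintype.ofFinite K
    -- counting
    obtain ⟨K0, hK0⟩ : ∃ s : Finset K, s = Finset.univ.filter (fun t : K => τ t = t) := ⟨_, rfl⟩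
    have hmem : ∀ t, t ∈ K0 ↔ τ t = t := fun t => by rw [hK0]; simp
    have hKcard : Fintype.card K = Fintype.card F ^ 5 := by
      rw [Module.card_eq_pow_finrank (K := F) (V := K), S.hr]
    have hK2 : Fintype.card K ≤ K0.card * K0.card := by
      rw [← Finset.card_product]
      have hsurj : Finset.univ ⊆ (K0 ×ˢ K0).image (fun p : K × K => p.1 + α' * p.2) := by
        intro z _
        obtain ⟨u, v, hu, hv, huv⟩ := hdec α' hτα z
        rw [Finset.mem_image]
        exact ⟨(u, v), by rw [Finset.mem_product]; exact ⟨(hmem u).2 hu, (hmem v).2 hv⟩, huv.symm⟩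
      calc Fintype.card K = (Finset.univ : Finset K).card := Finset.card_univ.symm
        _ ≤ _ := Finset.card_le_card hsurj
        _ ≤ _ := Finset.card_image_le
    have hF3 : 3 ≤ Fintype.card F := by
      have h3 : ({0, 1, α} : Finset F).card = 3 := by
        rw [Finset.card_insert_of_notMem, Finset.card_insert_of_notMem, Finset.card_singleton]
        · rw [Finset.mem_singleton]
          rintro rfl
          exact hα (map_one σ)
        · rw [Finset.mem_insert, Finset.mem_singleton, not_or]
          refine ⟨zero_ne_one, ?_⟩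
          rintro rfl
          exact hα (map_zero σ)
      rw [← h3]
      exact Finset.card_le_univ _
    have hK5 : K0.card ≤ 5 * Fintype.card F := by
      -- the map `t ↦ (t + α) / (t + τ α)`
      obtain ⟨f, hf⟩ : ∃ f : K → K, ∀ t, f t = (t + α') * (τ (t + α'))⁻¹ := ⟨_, fun t => rfl⟩
      have hne : ∀ t ∈ K0, t + α' ≠ 0 := by
        intro t ht h3
        apply hτα
        have h4 : α' = -t := by linear_combination h3
        rw [h4, map_neg, (hmem t).1 ht]
      have hinj : Set.InjOn f K0 := by
        intro s hs t ht hst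
        rw [hf, hf, map_add, map_add, (hmem s).1 hs, (hmem t).1 ht] at hst
        have e1 : s + τ α' ≠ 0 := by
          have := hne s hs
          intro h3
          apply this
          have h4 := congrArg τ h3
          rwa [map_add, HC.inv, (hmem s).1 hs, map_zero] at h4
        have e2 : t + τ α' ≠ 0 := by
          have := hne t ht
          intro h3
          apply this
          have h4 := congrArg τ h3
          rwa [map_add, HC.inv, (hmem t).1 ht, map_zero] at h4
        field_simp at hst
        have h5 : (s - t) * (τ α' - α') = 0 := by linear_combination hst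
        rcases mul_eq_zero.1 h5 with h6 | h6
        · exact sub_eq_zero.1 h6
        · exact absurd (sub_eq_zero.1 h6) hτα
      rw [← Finset.card_image_of_injOn hinj]
      have hsub : K0.image f ⊆ (Finset.univ : Finset F).biUnion
          (fun a => (Polynomial.nthRoots 5 (algebraMap F K a)).toFinset) := by
        intro w hw'
        rw [Finset.mem_image] at hw'
        obtain ⟨t, ht, rfl⟩ := hw'
        obtain ⟨a, ha⟩ := hw (t + α') (hne t ht)
        rw [Finset.mem_biUnion]
        refine ⟨a, Finset.mem_univ _, ?_⟩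
        rw [Multiset.mem_toFinset, Polynomial.mem_nthRoots (by norm_num), hf, ha]
      calc (K0.image f).card ≤ _ := Finset.card_le_card hsub
        _ ≤ (Finset.univ : Finset F).card * 5 := Finset.card_biUnion_le_card_mul _ _ _ (fun a _ =>
            (Multiset.toFinset_card_le _).trans (Polynomial.card_nthRoots 5 _))
        _ = 5 * Fintype.card F := by rw [Finset.card_univ, mul_comm]
    have hfin : Fintype.card F ^ 5 ≤ (5 * Fintype.card F) * (5 * Fintype.card F) := by
      rw [← hKcard]
      exact hK2.trans (Nat.mul_le_mul hK5 hK5)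
    have h27 : 27 ≤ Fintype.card F ^ 3 := by
      calc 27 = 3 ^ 3 := by norm_num
        _ ≤ _ := Nat.pow_le_pow_left hF3 3
    have hpos : 0 < Fintype.card F ^ 2 := by positivity
    nlinarith [Nat.mul_le_mul_right (Fintype.card F ^ 2) h27]

end Cfsg.Agent.Lib.FV46
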