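import Mathlib

/-! S5840, piece KER: the kernel of a linearised polynomial of `φ`-degree at most 2. -/

set_option autoImplicit false
set_option linter.unusedSectionVars false
set_option linter.unusedVariables false

namespace Cfsg.Agent.Lib.FV46

open Module

variable {F K : Type*} [Field F] [Field K] [Algebra F K] [FiniteDimensional F K]

theorem KER.fix (hr : finrank F K = 5) (φ : K ≃ₐ[F] K) (hφ : φ ≠ 1) {s : K} (hs : φ s = s) :
    ∃ f : F, algebraMap F K f = s := by
  let E := IntermediateField.fixedField (F := F) (E := K) (Subgroup.zpowers φ)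
  have hmem : ∀ x : K, φ x = x → x ∈ E := by
    intro x hx
    rw [IntermediateField.mem_fixedField_iff]
    intro f hf
    have h1 : Subgroup.zpowers φ ≤ MulAction.stabilizer (K ≃ₐ[F] K) x := by
      rw [Subgroup.zpowers_le, MulAction.mem_stabilizer_iff]
      exact hx
    have h2 := h1 hf
    rw [MulAction.mem_stabilizer_iff] at h2
    exact h2
  have hmul := Module.finrank_mul_finrank F E K
  rw [hr] at hmul
  have hdvd : finrank F E ∣ 5 := Dvd.intro _ hmul
  rcases (Nat.dvd_prime (by norm_num)).1 hdvd with h | h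
  · rw [IntermediateField.finrank_eq_one_iff] at h
    have h3 := hmem s hs
    rw [h, IntermediateField.mem_bot] at h3
    obtain ⟨f, hf⟩ := h3
    exact ⟨f, hf⟩
  · exfalso
    rw [h] at hmul
    have h4 : finrank E K = 1 := by omega
    have h5 : E = ⊤ := IntermediateField.finrank_eq_one_iff_eq_top.1 h4
    apply hφ
    ext x
    have h6 : x ∈ E := by rw [h5]; exact IntermediateField.mem_top
    rw [IntermediateField.mem_fixedField_iff] at h6
    exact h6 φ (Subgroup.mem_zpowers φ)

theorem KER.deg1 (hr : finrank F K = 5) (φ : K ≃ₐ[F] K) (hφ : φ ≠ 1) {a c : K} (h0 : a ≠ 0 ∨ c ≠ 0)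
    {H : K →ₗ[F] K} (hH : ∀ s, H s = a * s + c * φ s) : finrank F (LinearMap.ker H) ≤ 1 := by
  by_cases hb : LinearMap.ker H = ⊥
  · rw [hb, finrank_bot]; exact Nat.zero_le 1
  · obtain ⟨s, hs, hs0⟩ := Submodule.exists_mem_ne_zero_of_ne_bot hb
    refine finrank_le_one (⟨s, hs⟩ : LinearMap.ker H) ?_
    rintro ⟨t, ht⟩
    rw [LinearMap.mem_ker, hH] at hs ht
    have hφs : φ s ≠ 0 := by
      intro h
      exact hs0 ((map_eq_zero φ).1 h)
    have hc : c ≠ 0 := by
      intro h
      rw [h, zero_mul, add_zero] at hs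
      rcases h0 with h1 | h1
      · rcases mul_eq_zero.1 hs with h2 | h2
        · exact h1 h2
        · exact hs0 h2
      · exact h1 h
    -- φ (t / s) = t / s
    have h1 : φ (t / s) = t / s := by
      rw [map_div₀, div_eq_div_iff hφs hs0]
      have h2 : c * (φ t * s - t * φ s) = 0 := by linear_combination s * ht - t * hs
      rcases mul_eq_zero.1 h2 with h3 | h3
      · exact absurd h3 hc
      · exact sub_eq_zero.1 h3
    obtain ⟨f, hf⟩ := KER.fix hr φ hφ h1
    refine ⟨f, ?_⟩
    apply Subtype.ext
    change f • s = t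
    rw [Algebra.smul_def, hf, div_mul_cancel₀ _ hs0]

/-- PIECE KER -/
theorem ker_le_two [Finite K] (hr : finrank F K = 5) (φ : K ≃ₐ[F] K) (hφ : φ ≠ 1) {a c d : K}
    (h0 : a ≠ 0 ∨ c ≠ 0 ∨ d ≠ 0) {H : K →ₗ[F] K} (hH : ∀ s, H s = a * s + c * φ s + d * φ (φ s)) :
    finrank F (LinearMap.ker H) ≤ 2 := by
  by_cases hb : LinearMap.ker H = ⊥
  · rw [hb, finrank_bot]; exact Nat.zero_le 2
  · obtain ⟨s, hs, hs0⟩ := Submodule.exists_mem_ne_zero_of_ne_bot hb
    rw [LinearMap.mem_ker, hH] at hs
    have hus : φ s / s * s = φ s := div_mul_cancel₀ _ hs0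
    obtain ⟨u, hu⟩ : ∃ u : K, u * s = φ s := ⟨φ s / s, hus⟩
    have hus2 : φ u * φ s = φ (φ s) := by rw [← map_mul, hu]
    let D : K →ₗ[F] K := φ.toLinearMap - LinearMap.mulLeft F u
    have hD : ∀ x, D x = (-u) * x + 1 * φ x := by
      intro x
      change φ x - u * x = _
      ring
    let H' : K →ₗ[F] K := LinearMap.mulLeft F (c + d * φ u) + LinearMap.mulLeft F d ∘ₗ φ.toLinearMap
    have hH' : ∀ x, H' x = (c + d * φ u) * x + d * φ x := fun x => rfl
    have hr0 : a + (c + d * φ u) * u = 0 := by
      have h1 : (a + (c + d * φ u) * u) * s = 0 := by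
        rw [← hus2] at hs
        linear_combination hs + (c + d * φ u) * hu
      rcases mul_eq_zero.1 h1 with h2 | h2
      · exact h2
      · exact absurd h2 hs0
    have hcomp : ∀ x, H x = H' (D x) := by
      intro x
      rw [hH, hH', hD, map_add, map_mul, map_mul, map_neg, map_one]
      linear_combination x * hr0
    have hne : c + d * φ u ≠ 0 ∨ d ≠ 0 := by
      by_contra hcon
      push Not at hcon
      obtain ⟨h1, h2⟩ := hcon
      rw [h2, zero_mul, add_zero] at h1
      rw [h2, h1] at hr0
      simp only [zero_mul, add_zero] at hr0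
      rcases h0 with h | h | h
      · exact h hr0
      · exact h h1
      · exact h h2
    have k1 : finrank F (LinearMap.ker D) ≤ 1 := KER.deg1 hr φ hφ (Or.inr one_ne_zero) hD
    have k2 : finrank F (LinearMap.ker H') ≤ 1 := KER.deg1 hr φ hφ hne hH'
    let f : LinearMap.ker H →ₗ[F] K := D.domRestrict (LinearMap.ker H)
    have e1 := LinearMap.finrank_range_add_finrank_ker f
    have e2 : LinearMap.range f ≤ LinearMap.ker H' := by
      rintro _ ⟨x, rfl⟩
      rw [LinearMap.mem_ker]
      change H' (D x.1) = 0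
      rw [← hcomp]
      exact x.2
    have e3 : finrank F (LinearMap.range f) ≤ 1 := le_trans (Submodule.finrank_mono e2) k2
    have e4 : finrank F (LinearMap.ker f) ≤ finrank F (LinearMap.ker D) := by
      let g : LinearMap.ker f →ₗ[F] LinearMap.ker D :=
        LinearMap.codRestrict (LinearMap.ker D) ((LinearMap.ker H).subtype ∘ₗ (LinearMap.ker f).subtype) (by
          intro x
          rw [LinearMap.mem_ker]
          exact x.2)
      refine LinearMap.finrank_le_finrank_of_injective (f := g) ?_
      intro x y hxy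
      apply Subtype.ext
      apply Subtype.ext
      exact congrArg (fun z : LinearMap.ker D => (z : K)) hxy
    omega

end Cfsg.Agent.Lib.FV46
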