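import Mathlib
import Cfsg.Agent.Lib.FV1H46

set_option autoImplicit false
set_option linter.unusedSectionVars false
set_option linter.unusedSimpArgs false
set_option linter.unusedVariables false

/-! Piece REP of S5840: representation of skew hermitian maps (helper25). -/

namespace Cfsg.Agent.Lib.FV46

open Module Cfsg.Agent.Lib.UnTrans Cfsg.Agent.Lib.UnMax Cfsg.Agent.Lib.ExtFldH94 Cfsg.Agent.Lib.FldUH94
open Cfsg.Agent.Lib.SpTrans (isom mem_isom)

namespace REP

/-- endomorphisms of a finite field are power maps -/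
theorem end_pow {K : Type*} [Field K] [Finite K] (τ : K →+* K) :
    ∃ m : ℕ, ∀ x : K, x ≠ 0 → τ x = x ^ m := by
  classical
  obtain ⟨u, hu⟩ := IsCyclic.exists_generator (α := Kˣ)
  obtain ⟨m, hm⟩ := Submonoid.mem_powers_iff _ _ |>.1
    (mem_powers_iff_mem_zpowers.2 (hu (Units.map (τ : K →* K) u)))
  refine ⟨m, fun x hx => ?_⟩
  obtain ⟨k, hk⟩ := Submonoid.mem_powers_iff _ _ |>.1
    (mem_powers_iff_mem_zpowers.2 (hu (Units.mk0 x hx)))
  have h1 : (u : K) ^ m = τ u := by
    have := congrArg (Units.val) hm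
    simpa using this
  have h2 : (u : K) ^ k = x := by
    have := congrArg (Units.val) hk
    simpa using this
  rw [← h2, map_pow, ← h1, ← pow_mul, ← pow_mul, mul_comm]

theorem end_comm {K : Type*} [Field K] [Finite K] (τ φ : K →+* K) (x : K) : φ (τ x) = τ (φ x) := by
  by_cases hx : x = 0
  · subst hx; simp
  · obtain ⟨m, hm⟩ := end_pow τ
    rw [hm x hx, map_pow, hm (φ x) ((map_ne_zero φ).2 hx)]

theorem comm_alg {F K : Type*} [Field F] [Field K] [Algebra F K] [Finite K] (τ : K →+* K) (φ : K ≃ₐ[F] K) (x : K) :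
    φ (τ x) = τ (φ x) :=
  end_comm τ (φ : K →+* K) x

theorem trace_alg {F K : Type*} [Field F] [Field K] [Algebra F K] [Finite K] [FiniteDimensional F K]
    (φ : K ≃ₐ[F] K) (x : K) : Algebra.trace F K (φ x) = Algebra.trace F K x :=
  Algebra.trace_eq_of_algEquiv φ x

theorem isGal {F K : Type*} [Field F] [Field K] [Algebra F K] [Finite K] : IsGalois F K := by
  have : Finite F := Finite.of_injective (algebraMap F K) (algebraMap F K).injective
  infer_instance

theorem trace_semi {F K : Type*} [Field F] [Field K] [Algebra F K] [Finite K] [FiniteDimensional F K]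
    {σ : F →+* F} {τ : K →+* K} (hτ : ∀ a : F, τ (algebraMap F K a) = algebraMap F K (σ a)) (x : K) :
    Algebra.trace F K (τ x) = σ (Algebra.trace F K x) := by
  have := isGal (F := F) (K := K)
  apply (algebraMap F K).injective
  rw [← hτ, trace_eq_sum_automorphisms, trace_eq_sum_automorphisms, map_sum]
  apply Finset.sum_congr rfl
  intro g _
  exact comm_alg τ g x

theorem trace_nd {F K : Type*} [Field F] [Field K] [Algebra F K] [Finite K] [FiniteDimensional F K]
    {y : K} (h : ∀ x, Algebra.trace F K (y * x) = 0) : y = 0 := by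
  have := isGal (F := F) (K := K)
  have hnd := traceForm_nondegenerate F K
  exact hnd.1 y (fun x => by rw [Algebra.traceForm_apply]; exact h x)

end REP

open REP

variable {F K V : Type*} [Field F] [Field K] [Algebra F K] [AddCommGroup V] [Module F V] [Module K V]
  [IsScalarTower F K V] [FiniteDimensional F K] [FiniteDimensional K V] [FiniteDimensional F V]
  {σ : F →+* F} {τ : K →+* K} {h : V → V → F} {C : V → V → K} {Hh : HS σ h} {HC : HS τ C} {b : Dual F K}
  {M : Subgroup (V ≃ₗ[F] V)}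

variable (b) in
/-- the basic skew hermitian map with leading term `x φ(s)` -/
def EE (τ : K →+* K) (φ : K ≃ₐ[F] K) (β : K) (x : K) : K →ₗ[F] K :=
  LinearMap.mulLeft F x ∘ₗ φ.toLinearMap -
    LinearMap.mulLeft F (β⁻¹ * φ.symm (β * τ x)) ∘ₗ φ.symm.toLinearMap

theorem REP.EE_apply (τ : K →+* K) (φ : K ≃ₐ[F] K) (β x s : K) :
    EE τ φ β x s = x * φ s - β⁻¹ * φ.symm (β * τ x) * φ.symm s := rfl

theorem exists_beta [Finite K] (S : FV Hh HC b M) :
    ∃ β : K, β ≠ 0 ∧ τ β = β ∧ ∀ x, b x = Algebra.trace F K (β * x) := by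
  have := isGal (F := F) (K := K)
  have hnd := traceForm_nondegenerate F K
  set β := ((Algebra.traceForm F K).toDual hnd).symm b with hβ
  have hb : ∀ x, b x = Algebra.trace F K (β * x) := by
    intro x
    have h1 : (Algebra.traceForm F K).toDual hnd β = b := by rw [hβ, LinearEquiv.apply_symm_apply]
    have h2 := LinearMap.congr_fun h1 x
    rw [LinearMap.BilinForm.toDual_def, Algebra.traceForm_apply] at h2
    exact h2.symm
  refine ⟨β, ?_, ?_, hb⟩
  · intro h0
    apply S.hb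
    apply LinearMap.ext
    intro x
    rw [hb, h0, zero_mul, map_zero]
    rfl
  · rw [← sub_eq_zero]
    apply trace_nd (F := F)
    intro x
    have h1 := S.bτ (τ x)
    rw [HC.inv, hb, hb, ← trace_semi S.τF, map_mul τ, HC.inv] at h1
    rw [sub_mul, map_sub, h1, sub_self]

theorem sk_EE [Finite K] (S : FV Hh HC b M) {β : K} (hβ0 : β ≠ 0) (hβ : τ β = β)
    (hb : ∀ x, b x = Algebra.trace F K (β * x)) (φ : K ≃ₐ[F] K) (x : K) : SkH σ τ b (EE τ φ β x) := by
  intro s s'
  have hcs : ∀ y, φ.symm (τ y) = τ (φ.symm y) := comm_alg τ φ.symm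
  have hc : ∀ y, φ (τ y) = τ (φ y) := comm_alg τ φ
  rw [← S.bτ, hb, hb, ← map_add]
  rw [REP.EE_apply, REP.EE_apply]
  have e1 : Algebra.trace F K (β * τ ((x * φ s' - β⁻¹ * φ.symm (β * τ x) * φ.symm s') * τ s)) =
      Algebra.trace F K (β * τ x * τ (φ s') * s) - Algebra.trace F K (x * β * φ s * τ s') := by
    rw [← trace_alg φ.symm (x * β * φ s * τ s'), ← map_sub]
    congr 1
    simp only [map_mul, map_sub, map_inv₀, HC.inv, hβ, ← hcs, AlgEquiv.symm_apply_apply]
    field_simp
  have e2 : Algebra.trace F K (β * ((x * φ s - β⁻¹ * φ.symm (β * τ x) * φ.symm s) * τ s')) =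
      Algebra.trace F K (x * β * φ s * τ s') - Algebra.trace F K (β * τ x * τ (φ s') * s) := by
    rw [← trace_alg φ.symm (β * τ x * τ (φ s') * s), ← map_sub]
    congr 1
    simp only [map_mul, map_sub, map_inv₀, HC.inv, hβ, hcs, AlgEquiv.symm_apply_apply]
    field_simp
  rw [map_add, e1, e2]
  ring

theorem EE_torus [Finite K] (S : FV Hh HC b M) {β : K} (hβ0 : β ≠ 0) (hβ : τ β = β) (φ : K ≃ₐ[F] K) (k x : K) :
    LinearMap.mulLeft F k ∘ₗ EE τ φ β x ∘ₗ LinearMap.mulLeft F (τ k) = EE τ φ β (k * φ (τ k) * x) := by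
  apply LinearMap.ext
  intro s
  have hcs : ∀ y, φ.symm (τ y) = τ (φ.symm y) := comm_alg τ φ.symm
  have hc : ∀ y, φ (τ y) = τ (φ y) := comm_alg τ φ
  rw [LinearMap.comp_apply, LinearMap.comp_apply, LinearMap.mulLeft_apply, LinearMap.mulLeft_apply, REP.EE_apply,
    REP.EE_apply]
  simp only [map_mul, HC.inv, hβ, hc, hcs, AlgEquiv.symm_apply_apply]
  ring

/-- every linear map is a combination of automorphisms -/
theorem REP.exists_coef {F K : Type*} [Field F] [Field K] [Algebra F K] [Finite K] [FiniteDimensional F K]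
    (H : K →ₗ[F] K) : ∃ c : (K ≃ₐ[F] K) → K, ∀ s, H s = ∑ g, c g * g s := by
  classical
  have := isGal (F := F) (K := K)
  have hli : LinearIndependent K (fun g : K ≃ₐ[F] K => ((g : K →ₐ[F] K).toLinearMap : K →ₗ[F] K)) :=
    (linearIndependent_toLinearMap F K K).comp (fun g : K ≃ₐ[F] K => (g : K →ₐ[F] K))
      (fun g g' hg => AlgEquiv.ext (fun x => DFunLike.congr_fun hg x))
  have hsp := hli.span_eq_top_of_card_eq_finrank' (by
    rw [Module.finrank_linearMap_self, ← IsGalois.card_aut_eq_finrank F K, Nat.card_eq_fintype_card])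
  have hmem : H ∈ Submodule.span K (Set.range (fun g : K ≃ₐ[F] K => ((g : K →ₐ[F] K).toLinearMap : K →ₗ[F] K))) := by
    rw [hsp]; trivial
  obtain ⟨c, hc⟩ := (Submodule.mem_span_range_iff_exists_fun K).1 hmem
  refine ⟨c, fun s => ?_⟩
  rw [← hc]
  simp

theorem REP.coef_zero {F K : Type*} [Field F] [Field K] [Algebra F K] [Finite K] [FiniteDimensional F K]
    (d : (K ≃ₐ[F] K) → K) (hd : ∀ s, ∑ g, d g * g s = 0) (g : K ≃ₐ[F] K) : d g = 0 := by
  classical
  have hli : LinearIndependent K (fun g : K ≃ₐ[F] K => ((g : K →ₐ[F] K).toLinearMap : K →ₗ[F] K)) :=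
    (linearIndependent_toLinearMap F K K).comp (fun g : K ≃ₐ[F] K => (g : K →ₐ[F] K))
      (fun g g' hg => AlgEquiv.ext (fun x => DFunLike.congr_fun hg x))
  refine Fintype.linearIndependent_iff.1 hli d ?_ g
  apply LinearMap.ext
  intro s
  have := hd s
  simpa using this

theorem REP.sum_five {F K : Type*} [Field F] [Field K] [Algebra F K] [Finite K] [FiniteDimensional F K]
    (hr : finrank F K = 5) {φ : K ≃ₐ[F] K} (hφ : φ ≠ 1) (f : (K ≃ₐ[F] K) → K) :
    ∑ g, f g = f 1 + f φ + f φ⁻¹ + f (φ * φ) + f (φ * φ)⁻¹ := by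
  classical
  have := isGal (F := F) (K := K)
  have hcard : Nat.card (K ≃ₐ[F] K) = 5 := by rw [IsGalois.card_aut_eq_finrank F K, hr]
  haveI : Fact (Nat.Prime 5) := ⟨by norm_num⟩
  have h5 : φ ^ 5 = 1 := by rw [← hcard]; exact pow_card_eq_one'
  have hord : orderOf φ = 5 := orderOf_eq_prime h5 hφ
  have htop : ∀ x, x ∈ Subgroup.zpowers φ := fun x => mem_zpowers_of_prime_card hcard hφ
  have him := IsCyclic.image_range_card htop
  rw [← him, Finset.sum_image, hcard]
  · have e3 : φ ^ 3 = (φ * φ)⁻¹ := by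
      rw [eq_inv_iff_mul_eq_one, ← pow_two, ← pow_add]; exact h5
    have e4 : φ ^ 4 = φ⁻¹ := by
      rw [eq_inv_iff_mul_eq_one, ← pow_succ]; exact h5
    rw [Finset.sum_range_succ, Finset.sum_range_succ, Finset.sum_range_succ, Finset.sum_range_succ,
      Finset.sum_range_succ, Finset.sum_range_zero, e3, e4, pow_zero, pow_one, pow_two]
    ring
  · intro i hi j hj hij
    have hi' : i < 5 := by rw [← hcard]; simpa using hi
    have hj' : j < 5 := by rw [← hcard]; simpa using hj
    exact pow_injOn_Iio_orderOf (by rw [hord]; exact hi') (by rw [hord]; exact hj') hij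

theorem REP.relation [Finite K] (S : FV Hh HC b M) {β : K} (hβ0 : β ≠ 0) (hβ : τ β = β)
    (hb : ∀ x, b x = Algebra.trace F K (β * x)) {H : K →ₗ[F] K} (hH : SkH σ τ b H) (c : (K ≃ₐ[F] K) → K)
    (hc : ∀ s, H s = ∑ g, c g * g s) (g : K ≃ₐ[F] K) : β * c g + g (β * τ (c g⁻¹)) = 0 := by
  refine REP.coef_zero (fun g => β * c g + g (β * τ (c g⁻¹))) ?_ g
  intro s
  apply trace_nd (F := F)
  intro y
  have h1 := hH s (τ y)
  rw [HC.inv, ← S.bτ, hb, hb] at h1
  have e1 : β * (H s * y) = ∑ g, β * c g * g s * y := by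
    rw [hc, Finset.sum_mul, Finset.mul_sum]
    exact Finset.sum_congr rfl (fun g _ => by ring)
  have e2 : Algebra.trace F K (β * τ (H (τ y) * τ s)) =
      Algebra.trace F K (∑ g : K ≃ₐ[F] K, g (β * τ (c g⁻¹)) * g s * y) := by
    have e3 : β * τ (H (τ y) * τ s) = ∑ g, β * τ (c g) * g y * s := by
      rw [hc, map_mul, HC.inv, map_sum, Finset.sum_mul, Finset.mul_sum]
      refine Finset.sum_congr rfl (fun g _ => ?_)
      rw [map_mul, comm_alg τ g, HC.inv]
      ring
    rw [e3, map_sum, map_sum, ← Equiv.sum_comp (Equiv.inv (K ≃ₐ[F] K))]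
    refine Finset.sum_congr rfl (fun g _ => ?_)
    rw [← trace_alg g]
    congr 1
    rw [Equiv.inv_apply, map_mul, map_mul]
    have : g (g⁻¹ y) = y := AlgEquiv.apply_symm_apply g y
    rw [this]
    ring
  rw [e2, e1, ← map_add, ← Finset.sum_add_distrib] at h1
  rw [Finset.sum_mul, ← h1]
  congr 1
  exact Finset.sum_congr rfl (fun g _ => by ring)

theorem sk_rep [Finite K] (S : FV Hh HC b M) {β : K} (hβ0 : β ≠ 0) (hβ : τ β = β)
    (hb : ∀ x, b x = Algebra.trace F K (β * x)) {φ : K ≃ₐ[F] K} (hφ : φ ≠ 1) {H : K →ₗ[F] K} (hH : SkH σ τ b H) :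
    ∃ a x y : K, a + τ a = 0 ∧ H = LinearMap.mulLeft F a + EE τ φ β x + EE τ (φ * φ) β y := by
  obtain ⟨c, hc⟩ := REP.exists_coef H
  have hrel := REP.relation S hβ0 hβ hb hH c hc
  have key : ∀ g : K ≃ₐ[F] K, c g⁻¹ = -(β⁻¹ * g.symm (β * τ (c g))) := by
    intro g
    have h1 := hrel g⁻¹
    rw [inv_inv] at h1
    have h2 : g⁻¹ (β * τ (c g)) = g.symm (β * τ (c g)) := rfl
    rw [h2] at h1
    field_simp
    linear_combination h1
  refine ⟨c 1, c φ, c (φ * φ), ?_, ?_⟩
  · have h1 := hrel 1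
    rw [inv_one, AlgEquiv.one_apply, ← mul_add] at h1
    exact (mul_eq_zero.1 h1).resolve_left hβ0
  · apply LinearMap.ext
    intro s
    rw [hc, REP.sum_five S.hr hφ (fun g => c g * g s), key φ, key (φ * φ)]
    rw [LinearMap.add_apply, LinearMap.add_apply, LinearMap.mulLeft_apply, REP.EE_apply, REP.EE_apply]
    have h1 : φ⁻¹ s = φ.symm s := rfl
    have h2 : (φ * φ)⁻¹ s = (φ * φ).symm s := rfl
    rw [AlgEquiv.one_apply, h1, h2]
    ring

end Cfsg.Agent.Lib.FV46
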