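import Mathlib
import Cfsg.Agent.Lib.FV1H46
import Cfsg.Agent.Lib.FV_ALGa
import Cfsg.Agent.Lib.FV_KER
import Cfsg.Agent.Lib.FV_REP
import Cfsg.Agent.Lib.FV_DEC1
import Cfsg.Agent.Lib.FV_DEC2

set_option autoImplicit false
set_option linter.all false

namespace Cfsg.Agent.Lib.FV46

open Module Cfsg.Agent.Lib.UnTrans Cfsg.Agent.Lib.UnMax Cfsg.Agent.Lib.ExtFldH94 Cfsg.Agent.Lib.FldUH94
open Cfsg.Agent.Lib.SpTrans (isom mem_isom)

variable {F K V : Type*} [Field F] [Field K] [Algebra F K] [AddCommGroup V] [Module F V] [Module K V]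
  [IsScalarTower F K V] [FiniteDimensional F K] [FiniteDimensional K V] [FiniteDimensional F V]
  {σ : F →+* F} {τ : K →+* K} {h : V → V → F} {C : V → V → K} {Hh : HS σ h} {HC : HS τ C} {b : Dual F K}
  {M : Subgroup (V ≃ₗ[F] V)}

-- PIECE ALG
theorem alg_full [Finite K] (S : FV Hh HC b M) {P : (K →ₗ[F] K) → Prop} (hP : ∀ H, P H → SkH σ τ b H)
    (hadd : ∀ H H', P H → P H' → P (H + H')) (hneg : ∀ H, P H → P (-H))
    (hmul : ∀ c : K, c + τ c = 0 → P (LinearMap.mulLeft F c))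
    (htor : ∀ k : K, k ≠ 0 → Algebra.norm F (k * (τ k)⁻¹) = 1 → ∀ H, P H →
      P (LinearMap.mulLeft F k ∘ₗ H ∘ₗ LinearMap.mulLeft F (τ k)))
    {H : K →ₗ[F] K} (hH0 : H ≠ 0) (hHr : finrank F (LinearMap.range H) ≤ 2) (hPH : P H) :
    ∀ H', SkH σ τ b H' → P H' := by
  obtain ⟨β, hβ0, hβ, hb⟩ := exists_beta S
  have hEE : ∀ (φ : K ≃ₐ[F] K) (x : K), EE τ φ β x = ALG.EE τ φ β x := fun _ _ => rfl
  refine ALG.full (τ := τ) (P := P) (Q := SkH σ τ b) S.hr hadd hneg hmul htor (β := β) ?_ ?_ ?_ ?_ ?_ hH0 hHr hPH (hP H hPH)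
  · intro φ hφ a c d h0 H hH
    exact ker_le_two S.hr φ hφ h0 hH
  · intro φ hφ H hH
    exact sk_rep S hβ0 hβ hb hφ hH
  · intro φ k x
    exact EE_torus S hβ0 hβ φ k x
  · intro φ hφ B hB x hx y y' hy hy'
    exact dec1 S φ hφ hB hx hy hy'
  · intro φ hφ B h1 h2 x hx hx0 y
    exact dec2 S φ hφ h1 h2 hx hx0 y


end Cfsg.Agent.Lib.FV46
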