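import Mathlib
import Cfsg.Agent.Lib.FV1H46

set_option autoImplicit false
set_option linter.unusedSectionVars false
set_option linter.unusedSimpArgs false
set_option linter.unusedVariables false

/-!
S5840, piece ALL: all skew hermitian maps at one singular vector give the whole group.
-/

namespace Cfsg.Agent.Lib.FV46

open Module Cfsg.Agent.Lib.UnTrans Cfsg.Agent.Lib.UnMax Cfsg.Agent.Lib.ExtFldH94 Cfsg.Agent.Lib.FldUH94
open Cfsg.Agent.Lib.SpTrans (isom mem_isom)

variable {F K V : Type*} [Field F] [Field K] [Algebra F K] [AddCommGroup V] [Module F V] [Module K V]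
  [IsScalarTower F K V] [FiniteDimensional F K] [FiniteDimensional K V] [FiniteDimensional F V]
  {σ : F →+* F} {τ : K →+* K} {h : V → V → F} {C : V → V → K} {Hh : HS σ h} {HC : HS τ C} {b : Dual F K}
  {M : Subgroup (V ≃ₗ[F] V)}

namespace ALL

/-- rank one maps `s ↦ (a * b (t * s)) • x` -/
def R1 (b : Dual F K) (a : F) (t x : K) : K →ₗ[F] K where
  toFun s := (a * b (t * s)) • x
  map_add' s s' := by rw [mul_add, map_add, mul_add, add_smul]
  map_smul' r s := by
    rw [mul_smul_comm, map_smul, smul_eq_mul, RingHom.id_apply, smul_smul]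
    congr 1
    ring

theorem R1_apply (b : Dual F K) (a : F) (t x s : K) : R1 b a t x s = (a * b (t * s)) • x := rfl

theorem b_R1 (b : Dual F K) (a : F) (t x s r : K) : b (R1 b a t x s * r) = a * b (t * s) * b (x * r) := by
  rw [R1_apply, smul_mul_assoc, map_smul, smul_eq_mul]

theorem skew_b (S : FV Hh HC b M) (x y : K) : σ (b (x * τ y)) = b (y * τ x) := by
  rw [← S.bτ, map_mul, HC.inv, mul_comm]

/-- step 1 -/
theorem cen_line (S : FV Hh HC b M) {v : V} (hv : C v v = 0)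
    (hall : ∀ H' : K →ₗ[F] K, SkH σ τ b H' → BE C M v H') (x : K) : x • v ∈ cen Hh M := by
  have h0 : h (x • v) (x • v) = 0 := by
    rw [← S.bC, HC.smul_left, HC.smul_right, hv, mul_zero, mul_zero, map_zero]
  refine ⟨h0, fun hz a ha => ?_⟩
  obtain ⟨m, hm, hmz⟩ := hall (R1 b a (τ x) x) (by
    intro s s'
    rw [b_R1, b_R1, map_mul σ, map_mul σ, mul_comm (τ x) s', mul_comm (τ x) s, skew_b S s' x, skew_b S x s]
    linear_combination (b (s * τ x) * b (x * τ s')) * ha)
  have : tv Hh (x • v) hz a ha = m := by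
    apply LinearEquiv.ext
    intro z
    rw [tv_apply, hmz, R1_apply, ← S.bC z (x • v), HC.smul_right, smul_assoc]
  rw [this]
  exact hm

end ALL

open ALL

theorem all_of_BE (S : FV Hh HC b M) {v : V} (hv0 : v ≠ 0) (hv : C v v = 0)
    (hall : ∀ H' : K →ₗ[F] K, SkH σ τ b H' → BE C M v H') : tgrp Hh ⊤ ≤ M := by
  obtain ⟨f, hf, hfv⟩ := S.exists_hyp hv0 hv
  have hvf : C v f = 1 := by rw [HC.herm, hfv, map_one]
  obtain ⟨c, hc0, hc⟩ := HC.exists_tr0
  have hc' : (-c⁻¹) + τ (-c⁻¹) = 0 := by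
    have h1 : τ c = -c := by linear_combination hc
    rw [map_neg, map_inv₀, h1]
    field_simp
    ring
  obtain ⟨m1, hm1, h1⟩ := S.kt hf hc
  obtain ⟨m2, hm2, h2⟩ := S.kt hv hc'
  -- the opposite line
  have hfl : ∀ y : K, y • f ∈ cen Hh M := by
    intro y
    have h3 := cen_map S.hM (cen_map S.hM (cen_line S hv hall (y * c⁻¹)) hm1) hm2
    have h4 : m2 (m1 ((y * c⁻¹) • v)) = y • f := by
      rw [h1, h2, HC.smul_left, hvf, HC.add_left, HC.smul_left, HC.smul_left, hv, hfv, mul_one, mul_zero, mul_one,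
        zero_add]
      have h5 : -c⁻¹ * (c * (y * c⁻¹)) = -(y * c⁻¹) := by field_simp
      have h6 : c * (y * c⁻¹) = y := by field_simp
      rw [h5, h6, neg_smul]
      abel
    rw [h4] at h3
    exact h3
  refine tgrp_le_of_cen fun z _ hzz => ?_
  have hz := S.coord hv hf hfv z
  obtain ⟨x, hx⟩ : ∃ x, x = C z f := ⟨_, rfl⟩
  obtain ⟨y, hy⟩ : ∃ y, y = C z v := ⟨_, rfl⟩
  rw [← hx, ← hy] at hz
  by_cases hy0 : y = 0
  · rw [hy0, zero_smul, add_zero] at hz
    rw [hz]
    exact cen_line S hv hall x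
  have hκ : b (x * τ y) + σ (b (x * τ y)) = 0 := by
    rw [← S.bC, hz, HC.add_left, HC.add_right, HC.add_right] at hzz
    simp only [HC.smul_left, HC.smul_right, hv, hf, hvf, hfv, mul_zero, mul_one, zero_add, add_zero, map_add] at hzz
    rw [skew_b S]
    exact hzz
  obtain ⟨κ, hκ'⟩ : ∃ κ, κ = b (x * τ y) := ⟨_, rfl⟩
  obtain ⟨q, hq⟩ : ∃ q, b q = 1 := by
    obtain ⟨q, hq⟩ : ∃ q, b q ≠ 0 := by
      by_contra hcon
      push Not at hcon
      exact S.hb (LinearMap.ext hcon)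
    exact ⟨(b q)⁻¹ • q, by rw [map_smul, smul_eq_mul, inv_mul_cancel₀ hq]⟩
  obtain ⟨p, hp⟩ : ∃ p, τ p * y = q := ⟨τ (q * y⁻¹), by rw [HC.inv, mul_assoc, inv_mul_cancel₀ hy0, mul_one]⟩
  obtain ⟨m, hm, hmz⟩ := hall (R1 b 1 (τ p) x - R1 b 1 (τ x) p - R1 b κ (τ p) p) (by
    intro s s'
    simp only [LinearMap.sub_apply, sub_mul, map_sub, b_R1, one_mul, map_mul σ]
    rw [mul_comm (τ p) s, mul_comm (τ x) s, mul_comm (τ p) s', mul_comm (τ x) s', skew_b S s' p, skew_b S s' x,
      skew_b S x s, skew_b S p s]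
    rw [← hκ'] at hκ
    linear_combination (- b (s * τ p) * b (p * τ s')) * hκ)
  have h5 : m (y • f) = z := by
    rw [hmz, HC.smul_left, hfv, mul_one]
    have h6 : (R1 b 1 (τ p) x - R1 b 1 (τ x) p - R1 b κ (τ p) p) y = x := by
      rw [LinearMap.sub_apply, LinearMap.sub_apply, R1_apply, R1_apply, R1_apply, hp, hq, mul_comm (τ x) y]
      have h7 : b (y * τ x) = -κ := by
        rw [← skew_b S, hκ']
        linear_combination hκ
      rw [h7]
      simp
    rw [h6]
    conv_rhs => rw [hz]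
    rw [add_comm]
  rw [← h5]
  exact cen_map S.hM (hfl y) hm

end Cfsg.Agent.Lib.FV46
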