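import Mathlib
import Cfsg.Agent.Lib.FV1H46

set_option autoImplicit false
set_option linter.unusedSectionVars false
set_option linter.unusedSimpArgs false
set_option linter.unusedVariables false

/-! Piece BE of S5840 (helper64). -/

namespace Cfsg.Agent.Lib.FV46

open Module Cfsg.Agent.Lib.UnTrans Cfsg.Agent.Lib.UnMax Cfsg.Agent.Lib.ExtFldH94 Cfsg.Agent.Lib.FldUH94
open Cfsg.Agent.Lib.SpTrans (isom mem_isom)

variable {F K V : Type*} [Field F] [Field K] [Algebra F K] [AddCommGroup V] [Module F V] [Module K V]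
  [IsScalarTower F K V] [FiniteDimensional F K] [FiniteDimensional K V] [FiniteDimensional F V]
  {σ : F →+* F} {τ : K →+* K} {h : V → V → F} {C : V → V → K} {Hh : HS σ h} {HC : HS τ C} {b : Dual F K}
  {M : Subgroup (V ≃ₗ[F] V)}

theorem be_skh (S : FV Hh HC b M) {v : V} (hv0 : v ≠ 0) (hv : C v v = 0) {H : K →ₗ[F] K} (hB : BE C M v H) :
    SkH σ τ b H := by
  obtain ⟨m, hm, hmz⟩ := hB
  obtain ⟨f, hf, hfv⟩ := S.exists_hyp hv0 hv
  have hvf : C v f = 1 := by rw [HC.herm, hfv, map_one]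
  intro s s'
  have h1 := S.hMh hm (s • f) (s' • f)
  have e1 : ∀ t : K, C (t • f) v = t := fun t => by rw [HC.smul_left, hfv, mul_one]
  rw [hmz, hmz, e1, e1, Hh.add_left, Hh.add_right, Hh.add_right] at h1
  have e2 : ∀ x y : K, h (x • v) (y • v) = 0 := fun x y => by
    rw [← S.bC, HC.smul_left, HC.smul_right, hv, mul_zero, mul_zero, map_zero]
  have e3 : ∀ x y : K, h (x • v) (y • f) = b (x * τ y) := fun x y => by
    rw [← S.bC, HC.smul_left, HC.smul_right, hvf, mul_one]
  rw [e2, e3, Hh.herm (s • f) (H s' • v), e3, add_zero] at h1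
  linear_combination h1

theorem be_add (S : FV Hh HC b M) {v : V} (hv : C v v = 0) {H H' : K →ₗ[F] K} (hB : BE C M v H) (hB' : BE C M v H') :
    BE C M v (H + H') := by
  obtain ⟨m, hm, hmz⟩ := hB
  obtain ⟨m', hm', hmz'⟩ := hB'
  refine ⟨m * m', mul_mem hm hm', fun z => ?_⟩
  rw [LinearEquiv.mul_apply, hmz', hmz]
  have : C (z + H' (C z v) • v) v = C z v := by
    rw [HC.add_left, HC.smul_left, hv, mul_zero, add_zero]
  rw [this, LinearMap.add_apply]
  module

theorem be_neg (S : FV Hh HC b M) {v : V} (hv : C v v = 0) {H : K →ₗ[F] K} (hB : BE C M v H) : BE C M v (-H) := by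
  obtain ⟨m, hm, hmz⟩ := hB
  refine ⟨m⁻¹, inv_mem hm, fun z => ?_⟩
  apply m.injective
  rw [← LinearEquiv.mul_apply, mul_inv_cancel, hmz]
  have : C (z + (-H) (C z v) • v) v = C z v := by
    rw [HC.add_left, HC.smul_left, hv, mul_zero, add_zero]
  rw [this, LinearMap.neg_apply]
  show z = _
  module

theorem be_mul (S : FV Hh HC b M) {v : V} (hv : C v v = 0) {c : K} (hc : c + τ c = 0) :
    BE C M v (LinearMap.mulLeft F c) := by
  obtain ⟨m, hm, hmz⟩ := S.kt hv hc
  exact ⟨m, hm, fun z => by rw [hmz, LinearMap.mulLeft_apply]⟩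

namespace BE64

/-- the torus elements -/
noncomputable def tor (HC : HS τ C) (e f : V) (k l : K) : V →ₗ[K] V :=
  (k • HC.fl f).smulRight e + (l • HC.fl e).smulRight f

theorem tor_apply (HC : HS τ C) (e f : V) (k l : K) (z : V) :
    tor HC e f k l z = (k * C z f) • e + (l * C z e) • f := rfl

theorem exists_torus (S : FV Hh HC b M) {e f : V} (he : C e e = 0) (hf : C f f = 0) (hfe : C f e = 1) {k : K}
    (hk0 : k ≠ 0) (hk : Algebra.norm F (k * (τ k)⁻¹) = 1) :
    ∃ t ∈ M, (∀ (a : K) z, t (a • z) = a • t z) ∧ (∀ x y, C (t x) (t y) = C x y) ∧ t e = k • e ∧ t f = (τ k)⁻¹ • f := by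
  have hef : C e f = 1 := by rw [HC.herm, hfe, map_one]
  have hτk : τ k ≠ 0 := HC.sigma_ne hk0
  have hTe : ∀ k l : K, tor HC e f k l e = k • e := fun k l => by
    rw [tor_apply, hef, he, mul_one, mul_zero, zero_smul, add_zero]
  have hTf : ∀ k l : K, tor HC e f k l f = l • f := fun k l => by
    rw [tor_apply, hf, hfe, mul_one, mul_zero, zero_smul, zero_add]
  have hcomp : ∀ k l k' l' : K, k * k' = 1 → l * l' = 1 → ∀ z, tor HC e f k l (tor HC e f k' l' z) = z := by
    intro k l k' l' h1 h2 z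
    rw [tor_apply HC e f k' l', map_add, map_smul, map_smul, hTe, hTf, smul_smul, smul_smul]
    have e1 : k' * C z f * k = C z f := by rw [mul_right_comm, mul_comm k' k, h1, one_mul]
    have e2 : l' * C z e * l = C z e := by rw [mul_right_comm, mul_comm l' l, h2, one_mul]
    rw [e1, e2]
    exact (S.coord he hf hfe z).symm
  obtain ⟨t, ht⟩ : ∃ t : V ≃ₗ[K] V, ∀ z, t z = tor HC e f k (τ k)⁻¹ z :=
    ⟨LinearEquiv.ofLinearMap (tor HC e f k (τ k)⁻¹) (tor HC e f k⁻¹ (τ k))
      (LinearMap.ext fun z => hcomp _ _ _ _ (mul_inv_cancel₀ hk0) (inv_mul_cancel₀ hτk) z)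
      (LinearMap.ext fun z => hcomp _ _ _ _ (inv_mul_cancel₀ hk0) (mul_inv_cancel₀ hτk) z), fun z => rfl⟩
  have hiso : ∀ x y, C (t x) (t y) = C x y := by
    intro x y
    have h1 : ∀ p q p' q' : K, C (p • e + q • f) (p' • e + q' • f) = p * τ q' + q * τ p' := by
      intro p q p' q'
      simp only [HC.add_left, HC.add_right, HC.smul_left, HC.smul_right, he, hf, hfe, hef]
      ring
    conv_rhs => rw [S.coord he hf hfe x, S.coord he hf hfe y]
    rw [ht, ht, tor_apply, tor_apply, h1, h1, map_mul, map_mul, map_inv₀, HC.inv]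
    field_simp
  have hdet : LinearMap.det (t : V →ₗ[K] V) = k * (τ k)⁻¹ := by
    have hzl : ∀ y, C 0 y = 0 := fun y => HC.zero_left y
    have hli : LinearIndependent K ![e, f] := by
      rw [LinearIndependent.pair_iff]
      intro s t hst
      have h1 : C (s • e + t • f) f = 0 := by rw [hst, hzl]
      have h2 : C (s • e + t • f) e = 0 := by rw [hst, hzl]
      rw [HC.add_left, HC.smul_left, HC.smul_left, hef, hf, mul_one, mul_zero, add_zero] at h1
      rw [HC.add_left, HC.smul_left, HC.smul_left, he, hfe, mul_one, mul_zero, zero_add] at h2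
      exact ⟨h1, h2⟩
    obtain ⟨B, hB⟩ : ∃ B : Basis (Fin 2) K V, ∀ i, B i = ![e, f] i :=
      ⟨basisOfLinearIndependentOfCardEqFinrank hli (by rw [S.hk]; rfl), fun i => by
        rw [coe_basisOfLinearIndependentOfCardEqFinrank]⟩
    have hB0 : B 0 = e := hB 0
    have hB1 : B 1 = f := hB 1
    rw [← LinearMap.det_toMatrix B, Matrix.det_fin_two]
    have h0 : (t : V →ₗ[K] V) (B 0) = k • B 0 := by rw [hB0]; exact (ht e).trans (hTe _ _)
    have h1 : (t : V →ₗ[K] V) (B 1) = (τ k)⁻¹ • B 1 := by rw [hB1]; exact (ht f).trans (hTf _ _)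
    rw [LinearMap.toMatrix_apply, LinearMap.toMatrix_apply, LinearMap.toMatrix_apply, LinearMap.toMatrix_apply, h0, h1]
    simp
  refine ⟨t.restrictScalars F, S.hN t hiso (by rw [hdet]; exact hk), fun a z => t.map_smul a z, hiso, ?_, ?_⟩
  · exact (ht e).trans (hTe _ _)
  · exact (ht f).trans (hTf _ _)

end BE64

theorem be_torus (S : FV Hh HC b M) {v : V} (hv0 : v ≠ 0) (hv : C v v = 0) {k : K} (hk0 : k ≠ 0)
    (hk : Algebra.norm F (k * (τ k)⁻¹) = 1) {H : K →ₗ[F] K} (hB : BE C M v H) :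
    BE C M v (LinearMap.mulLeft F k ∘ₗ H ∘ₗ LinearMap.mulLeft F (τ k)) := by
  obtain ⟨f, hf, hfv⟩ := S.exists_hyp hv0 hv
  obtain ⟨t, ht, htl, htC, htv, -⟩ := BE64.exists_torus S hv hf hfv hk0 hk
  obtain ⟨m, hm, hmz⟩ := hB
  refine ⟨t * m * t⁻¹, mul_mem (mul_mem ht hm) (inv_mem ht), fun z => ?_⟩
  have e1 : t (t⁻¹ z) = z := by rw [← LinearEquiv.mul_apply, mul_inv_cancel]; rfl
  have e2 : C (t⁻¹ z) v = τ k * C z v := by
    rw [← htC, e1, htv, HC.smul_right]
  rw [LinearEquiv.mul_apply, LinearEquiv.mul_apply, hmz, map_add, e1, e2, htl, htv, smul_smul]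
  rw [LinearMap.comp_apply, LinearMap.comp_apply, LinearMap.mulLeft_apply, LinearMap.mulLeft_apply, mul_comm]

end Cfsg.Agent.Lib.FV46
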