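import Mathlib
import Cfsg.Agent.Lib.FV1H46
import Cfsg.Agent.Lib.FUbH94
import Cfsg.Agent.Lib.FUhH94
import Cfsg.Agent.Lib.FUiH94

set_option autoImplicit false
set_option linter.unusedSectionVars false
set_option linter.unusedSimpArgs false
set_option linter.unusedVariables false

/-!
Degree 5 extension field subgroups of ten dimensional unitary groups: the bridge (helper98).
-/

namespace Cfsg.Agent.Lib.FV46

open Module Cfsg.Agent.Lib.UnTrans Cfsg.Agent.Lib.UnMax Cfsg.Agent.Lib.ExtFldH94 Cfsg.Agent.Lib.FldUH94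
open Cfsg.Agent.Lib.SpTrans (isom mem_isom)

section
variable {F K V : Type*} [Field F] [Field K] [Algebra F K] [AddCommGroup V] [Module F V] [Module K V]
  [IsScalarTower F K V] [FiniteDimensional F K] [FiniteDimensional K V] [FiniteDimensional F V]
  {σ : F →+* F} {τ : K →+* K} {h : V → V → F} {C : V → V → K} {Hh : HS σ h} {HC : HS τ C} {b : Dual F K}
  {M : Subgroup (V ≃ₗ[F] V)}

/-- the group generated by the small transvections contains elements which are not semilinear -/
theorem BR.exists_not (S : FV Hh HC b M) :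
    ∃ g ∈ tgrp Hh (⊤ : Submodule F V), ¬ ∀ a : K, ∃ c : K, ∀ x, g (a • x) = c • g x := by
  obtain ⟨v, -, hv0, hv⟩ : ∃ v ∈ (⊤ : Submodule K V), v ≠ 0 ∧ C v v = 0 :=
    sing_two_u1b HC (by rw [finrank_top, S.hk])
  obtain ⟨ε, hε0, hε⟩ := Hh.exists_tr0
  have hvh : h v v = 0 := by rw [← S.bC, hv, map_zero]
  refine ⟨tv Hh v hvh ε hε, tv_mem_tgrp Hh (W := ⊤) trivial hvh ε hε, ?_⟩
  intro hcon
  have hlin : ∀ a : K, ∀ x, tv Hh v hvh ε hε (a • x) = a • tv Hh v hvh ε hε x := by
    intro a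
    obtain ⟨c, hc⟩ := hcon a
    have h1 := hc v
    rw [tv_apply, tv_apply, ← S.bh, hv, hvh, mul_zero, mul_zero, map_zero, mul_zero] at h1
    simp only [zero_smul, add_zero] at h1
    have h3 : (a - c) • v = 0 := by rw [sub_smul, h1, sub_self]
    rcases smul_eq_zero.1 h3 with h4 | h4
    · have h5 := sub_eq_zero.1 h4
      subst h5
      exact hc
    · exact absurd h4 hv0
  obtain ⟨w, -, hw⟩ := S.nd v trivial hv0
  have hw' : C w v ≠ 0 := HC.symm_ne hw
  have key : ∀ (a : K) z, algebraMap F K (b (a * C z v)) = a * algebraMap F K (b (C z v)) := by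
    intro a z
    have h1 := hlin a z
    rw [tv_apply, tv_apply, smul_add, add_right_inj, ← S.bh, ← S.bC z v] at h1
    have h2 : (algebraMap F K (ε * b (a * C z v)) - a * algebraMap F K (ε * b (C z v))) • v = 0 := by
      rw [sub_smul, mul_smul, algebraMap_smul, algebraMap_smul, h1, sub_self]
    rcases smul_eq_zero.1 h2 with h4 | h4
    · have h5 := sub_eq_zero.1 h4
      rw [(algebraMap F K).map_mul, (algebraMap F K).map_mul] at h5
      have hε' : algebraMap F K ε ≠ 0 := by rwa [Ne, map_eq_zero]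
      apply mul_left_cancel₀ hε'
      rw [h5]; ring
    · exact absurd h4 hv0
  obtain ⟨κ, hκ⟩ : ∃ κ₀ : K, b κ₀ = 1 := by
    obtain ⟨a, ha⟩ : ∃ a : K, b a ≠ 0 := by
      by_contra hcon
      push Not at hcon
      exact S.hb (LinearMap.ext hcon)
    exact ⟨(b a)⁻¹ • a, by rw [map_smul, smul_eq_mul, inv_mul_cancel₀ ha]⟩
  have hz : C ((κ * (C w v)⁻¹) • w) v = κ := by
    rw [HC.smul_left, mul_assoc, inv_mul_cancel₀ hw', mul_one]
  have hall : ∀ a : K, a = algebraMap F K (b (a * κ)) := by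
    intro a
    have := key a ((κ * (C w v)⁻¹) • w)
    rw [hz, hκ, map_one, mul_one] at this
    exact this.symm
  have h2 := S.hr
  have h3 : finrank F K ≤ 1 := by
    have : Function.Surjective (Algebra.linearMap F K) := fun a => ⟨_, (hall a).symm⟩
    have h4 := LinearMap.finrank_le_finrank_of_surjective this
    rwa [finrank_self] at h4
  omega

end

/-- overgroups, algebra homomorphism version -/
theorem BR.main_alg (F K V : Type*) [Field F] [Finite F] [Field K] [Algebra F K] [FiniteDimensional F K]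
    [AddCommGroup V] [Module F V] [FiniteDimensional F V] (φ : K →ₐ[F] Module.End F V)
    {σ : F →+* F} {h : V → V → F} (Hh : HS σ h) (hnd : Nd h (⊤ : Submodule F V))
    (hmain : ∀ [Module K V] [IsScalarTower F K V] [FiniteDimensional K V] [Finite K]
      {τ : K →+* K} {C : V → V → K} {HC : HS τ C} {b : Dual F K} {M : Subgroup (V ≃ₗ[F] V)},
      FV Hh HC b M → tgrp Hh ⊤ ≤ M ∨ ∀ g ∈ M, ∀ a : K, ∃ c : K, ∀ x, g (a • x) = c • g x)
    (τ : K →+* K) (hττ : ∀ x, τ (τ x) = x) (hτF : ∀ a, τ (algebraMap F K a) = algebraMap F K (σ a))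
    (had : ∀ a x y, h (φ a x) y = h x (φ (τ a) y)) (hr : finrank F K = 5)
    (hV : finrank F V = 10) {M : Subgroup (V ≃ₗ[F] V)} (hM : M ≤ isom h)
    (hN : ∀ g ∈ isom h, LinearMap.det ((g : V ≃ₗ[F] V) : V →ₗ[F] V) = 1 →
      (∀ a x, g (φ a x) = φ a (g x)) → g ∈ M) :
    ((∃ g ∈ M, ¬ ∀ a, ∃ b, ∀ x, g (φ a x) = φ b (g x)) → tgrp Hh ⊤ ≤ M) ∧
      ∃ g ∈ tgrp Hh ⊤, ¬ ∀ a, ∃ b, ∀ x, g (φ a x) = φ b (g x) := by
  let _ : Module K V := Module.compHom V φ.toRingHom
  have : IsScalarTower F K V := ⟨fun a x v => by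
    show φ (a • x) v = a • φ x v
    rw [map_smul]; rfl⟩
  have : FiniteDimensional K V := Module.Finite.of_restrictScalars_finite F K V
  have hK : Finite K := Module.finite_of_finite F
  have hmul : finrank F K * finrank K V = finrank F V := Module.finrank_mul_finrank F K V
  obtain ⟨b, hb, hbτ⟩ := exists_bU Hh.inv Hh.ne τ hττ hτF
  have had' : ∀ (a : K) x y, h (a • x) y = h x (τ a • y) := had
  obtain ⟨C, HC, hC⟩ := exists_CU Hh τ hττ hτF had' hb hbτ
  have hk : finrank K V = 2 := by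
    rw [hr, hV] at hmul
    omega
  have hndC : Nd C (⊤ : Submodule K V) := by
    intro x _ hx
    obtain ⟨y, -, hy⟩ := hnd x trivial hx
    refine ⟨y, trivial, fun hcon => hy ?_⟩
    rw [← hC, hcon, map_zero]
  have S : FV Hh HC b M := by
    refine ⟨hb, hC, hbτ, hτF, hndC, hr, hk, hM, fun g hg hgd => ?_⟩
    refine hN _ ?_ ?_ fun a x => g.map_smul a x
    · intro x y
      rw [← hC, ← hC]
      exact congrArg b (hg x y)
    · have h1 : ((g.restrictScalars F : V ≃ₗ[F] V) : V →ₗ[F] V) = (g : V →ₗ[K] V).restrictScalars F := rfl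
      rw [h1, LinearMap.det_restrictScalars, hgd]
  constructor
  · rintro ⟨g, hg, hgn⟩
    rcases hmain S with h1 | h1
    · exact h1
    · exact absurd (h1 g hg) hgn
  · exact BR.exists_not S

open Cfsg Cfsg.Geo Cfsg.Agent.Lib.GeoBridge Cfsg.Agent.Lib.UnBridge Cfsg.Agent.Lib.ExtBrH94
open scoped MatrixGroups Matrix

universe u

/-- the matrix statement from the main theorem on overgroups -/
theorem c3_of_main10 {F : Type u} [Field F] [Fintype F] {q : ℕ} (hF : Fintype.card F = q ^ 2)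
    (K : Subalgebra F (Matrix (Fin 10) (Fin 10) F)) (hK : IsFieldSubalgebra 5 K)
    (hac : IsAdjointClosedFor (hermForm 10 F q) K)
    (hmain : ∀ (L V : Type u) [Field L] [Algebra F L] [AddCommGroup V] [Module F V] [Module L V]
      [IsScalarTower F L V] [FiniteDimensional F L] [FiniteDimensional L V] [FiniteDimensional F V] [Finite L]
      {σ : F →+* F} {τ : L →+* L} {h : V → V → F} {C : V → V → L} {Hh : HS σ h} {HC : HS τ C} {b : Dual F L}
      {M : Subgroup (V ≃ₗ[F] V)},
      FV Hh HC b M → tgrp Hh ⊤ ≤ M ∨ ∀ g ∈ M, ∀ a : L, ∃ c : L, ∀ x, g (a • x) = c • g x) :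
    IsMaximalIn (GU 10 F q ⊓ specialLinear (Fin 10) F)
      (subalgebraNormalizer K ⊓ (GU 10 F q ⊓ specialLinear (Fin 10) F)) := by
  classical
  let _ : Field K := (isField_of hK).toField
  have hfV : finrank F (Fin 10 → F) = 10 := by rw [finrank_fintype_fun_eq_card, Fintype.card_fin]
  have hfK : finrank F K = 5 := hK.finrank_eq
  have : FiniteDimensional F K := FiniteDimensional.of_finrank_pos (by rw [hfK]; omega)
  have Hh : HS (sig hF) (hermForm 10 F q) := herm_HS 10 hF
  have hnd : Nd (hermForm 10 F q) (⊤ : Submodule F (Fin 10 → F)) := herm_nd 10 hF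
  obtain ⟨τ, hτ, hττ, hτF⟩ := exists_tau Hh hnd (rho K) (fun a => by
    obtain ⟨k', hk', h⟩ := hac a a.2
    exact ⟨⟨k', hk'⟩, h⟩)
  have key := fun {M : Subgroup ((Fin 10 → F) ≃ₗ[F] (Fin 10 → F))} => BR.main_alg F K (Fin 10 → F) (rho K) Hh hnd
    (by
      intro i1 i2 i3 i4 τ' C' HC' b' M' S'
      exact hmain K (Fin 10 → F) S')
    τ hττ hτF hτ hfK hfV (M := M)
  have h4 : 4 ≤ finrank F (Fin 10 → F) := by rw [hfV]; omega
  have hbase := key (M := isom (hermForm 10 F q)) le_rfl (fun g hg _ _ => hg)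
  apply SU_max_of 10 (P := fun g => ∀ a : K, ∃ b : K, ∀ x, g (rho K a x) = rho K b (g x))
    (fun g => mem_normalizer_iff K g)
  · obtain ⟨g, hg, hgn⟩ := hbase.2
    exact ⟨g, tgrp_le_isom Hh _ hg, tgrp_det Hh hg, hgn⟩
  · intro M hM hH hdet hex g hg hgd
    have h1 := (key hM fun g hg hgd hc => hH g hg hgd fun a => ⟨a, hc a⟩).1 hex
    exact h1 (su_le Hh hnd h4 hg hgd)

end Cfsg.Agent.Lib.FV46
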