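import Mathlib
import Cfsg.Agent.Lib.FV1H46

set_option autoImplicit false
set_option linter.unusedSectionVars false
set_option linter.unusedSimpArgs false
set_option linter.unusedVariables false

/-! S5840 piece CNT (helper24): number of isotropic vectors. -/

namespace Cfsg.Agent.Lib.FV46

open Module Cfsg.Agent.Lib.UnTrans Cfsg.Agent.Lib.UnMax Cfsg.Agent.Lib.ExtFldH94 Cfsg.Agent.Lib.FldUH94
open Cfsg.Agent.Lib.SpTrans (isom mem_isom)

variable {F K V : Type*} [Field F] [Field K] [Algebra F K] [AddCommGroup V] [Module F V] [Module K V]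
  [IsScalarTower F K V] [FiniteDimensional F K] [FiniteDimensional K V] [FiniteDimensional F V]
  {σ : F →+* F} {τ : K →+* K} {h : V → V → F} {C : V → V → K} {Hh : HS σ h} {HC : HS τ C} {b : Dual F K}
  {M : Subgroup (V ≃ₗ[F] V)}

namespace CNT

theorem ker_range {A B : Type*} [AddCommGroup A] [AddCommGroup B] [Finite A] (g : A →+ B) :
    Nat.card A = Nat.card g.range * Nat.card g.ker := by
  rw [AddSubgroup.card_eq_card_quotient_mul_card_addSubgroup g.ker,
    Nat.card_congr (QuotientAddGroup.quotientKerEquivRange g).toEquiv]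

/-- the number of skew elements is the number of fixed elements -/
theorem skew_fix {L U : Type*} [Field L] [AddCommGroup U] [Module L U] {ρ : L →+* L} {f : U → U → L} (H : HS ρ f) :
    Nat.card {a : L // a + ρ a = 0} = Nat.card {a : L // ρ a = a} := by
  obtain ⟨t, ht0, ht⟩ := H.exists_tr0
  have ht' : ρ t = -t := by linear_combination ht
  refine Nat.card_congr ⟨fun s => ⟨s.1 / t, ?_⟩, fun a => ⟨a.1 * t, ?_⟩, ?_, ?_⟩
  · have hs : ρ s.1 = -s.1 := by linear_combination s.2
    rw [map_div₀, hs, ht', neg_div_neg_eq]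
  · rw [map_mul, ht', a.2]; ring
  · intro s; apply Subtype.ext; show s.1 / t * t = s.1; field_simp
  · intro a; apply Subtype.ext; show a.1 * t / t = a.1; field_simp

/-- the order of the field is the square of the number of fixed elements -/
theorem card_sq {L U : Type*} [Field L] [Finite L] [AddCommGroup U] [Module L U] {ρ : L →+* L} {f : U → U → L} (H : HS ρ f) :
    Nat.card L = Nat.card {a : L // ρ a = a} ^ 2 := by
  let g : L →+ L := AddMonoidHom.id L + (ρ : L →+* L).toAddMonoidHom
  have hg : ∀ x, g x = x + ρ x := fun x => rfl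
  have h1 : Nat.card g.ker = Nat.card {a : L // a + ρ a = 0} := by
    apply Nat.card_congr
    exact Equiv.subtypeEquivRight (fun x => by rw [AddMonoidHom.mem_ker, hg])
  have h2 : Nat.card g.range = Nat.card {a : L // ρ a = a} := by
    apply Nat.card_congr
    refine Equiv.subtypeEquivRight (fun x => ?_)
    rw [AddMonoidHom.mem_range]
    constructor
    · rintro ⟨y, rfl⟩
      rw [hg, map_add, H.inv]; ring
    · intro hx
      obtain ⟨y, hy⟩ := H.exists_trace x hx
      exact ⟨y, by rw [hg, hy]⟩
  rw [ker_range g, h1, h2, skew_fix H, pow_two]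

/-- an isotropic vector -/
theorem exists_sing (S : FV Hh HC b M) : ∃ e : V, e ≠ 0 ∧ C e e = 0 := by
  have h2 : finrank K V = 2 := S.hk
  haveI : Nontrivial V := Module.nontrivial_of_finrank_pos (R := K) (by omega)
  obtain ⟨x, hx⟩ := exists_ne (0 : V)
  by_cases hxx : C x x = 0
  · exact ⟨x, hx, hxx⟩
  have hker : 0 < finrank K (LinearMap.ker (HC.fl x)) := by
    have h3 := LinearMap.finrank_range_add_finrank_ker (HC.fl x)
    have h4 : finrank K (LinearMap.range (HC.fl x)) ≤ 1 := by
      have := Submodule.finrank_le (LinearMap.range (HC.fl x))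
      rwa [finrank_self] at this
    omega
  haveI : Nontrivial (LinearMap.ker (HC.fl x)) := Module.nontrivial_of_finrank_pos hker
  obtain ⟨⟨y, hy⟩, hy0⟩ := exists_ne (0 : LinearMap.ker (HC.fl x))
  have hyx : C y x = 0 := hy
  have hy0' : y ≠ 0 := fun h0 => hy0 (Subtype.ext h0)
  by_cases hyy : C y y = 0
  · exact ⟨y, hy0', hyy⟩
  obtain ⟨a, ha⟩ := HC.norm (-(C x x) / C y y) (by
    rw [map_div₀, map_neg, HC.self_fixed, HC.self_fixed])
  have hxy : C x y = 0 := HC.symm_zero hyx
  have h5 : a * τ a * C y y = - C x x := by rw [ha]; field_simp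
  refine ⟨x + a • y, ?_, ?_⟩
  · intro h0
    apply hxx
    have h6 : x = -(a • y) := eq_neg_of_add_eq_zero_left h0
    have h7 : C x x = C (-(a • y)) x := congrArg (fun z => C z x) h6
    rw [h7, HC.neg_left, HC.smul_left, hyx, mul_zero, neg_zero]
  · rw [HC.add_left, HC.add_right, HC.add_right, HC.smul_left, HC.smul_left, HC.smul_right, HC.smul_right,
      hyx, hxy]
    linear_combination h5

end CNT

theorem card_iso [Finite K] (S : FV Hh HC b M) : ∃ q : ℕ, 2 ≤ q ∧ Nat.card F = q ^ 2 ∧
    Nat.card {a : K // τ a = a} = q ^ 5 ∧ Nat.card {a : K // a + τ a = 0} = q ^ 5 ∧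
    Nat.card {z : V // z ≠ 0 ∧ h z z = 0} = (q ^ 10 - 1) * (q ^ 9 + 1) := by
  classical
  haveI : Finite F := Finite.of_injective (algebraMap F K) (algebraMap F K).injective
  haveI : Finite V := Module.finite_of_finite K
  set q := Nat.card {a : F // σ a = a} with hq
  have hF : Nat.card F = q ^ 2 := CNT.card_sq Hh
  have hK : Nat.card K = q ^ 10 := by
    rw [Module.natCard_eq_pow_finrank (K := F) (V := K), S.hr, hF, ← pow_mul]
  have hfix : Nat.card {a : K // τ a = a} = q ^ 5 := by
    have h1 : Nat.card K = Nat.card {a : K // τ a = a} ^ 2 := CNT.card_sq HC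
    rw [hK, show q ^ 10 = (q ^ 5) ^ 2 by rw [← pow_mul]] at h1
    exact (Nat.pow_left_injective (n := 2) (by norm_num) h1).symm
  have hq2 : 2 ≤ q := by
    have h1 : Nontrivial {a : F // σ a = a} :=
      ⟨⟨0, map_zero σ⟩, ⟨1, map_one σ⟩, fun h0 => zero_ne_one (congrArg Subtype.val h0)⟩
    have h2 := Finite.one_lt_card (α := {a : F // σ a = a})
    omega
  refine ⟨q, hq2, hF, hfix, ?_, ?_⟩
  · rw [CNT.skew_fix HC, hfix]
  -- the hyperbolic pair
  obtain ⟨e, he0, he⟩ := CNT.exists_sing S
  obtain ⟨f, hf, hfe⟩ := S.exists_hyp he0 he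
  have hef : C e f = 1 := by rw [HC.herm, hfe, map_one]
  -- the kernel count
  let g : K →+ F := b.toAddMonoidHom + (σ : F →+* F).toAddMonoidHom.comp b.toAddMonoidHom
  have hg : ∀ x, g x = b x + σ (b x) := fun x => rfl
  have hbs : Function.Surjective b := by
    have h1 := LinearMap.surjective_of_ne_zero (f := b) S.hb
    exact h1
  have hgr : Nat.card g.range = q := by
    rw [hq]
    apply Nat.card_congr
    refine Equiv.subtypeEquivRight (fun x => ?_)
    rw [AddMonoidHom.mem_range]
    constructor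
    · rintro ⟨y, rfl⟩
      rw [hg, map_add, Hh.inv]; ring
    · intro hx
      obtain ⟨y, hy⟩ := Hh.exists_trace x hx
      obtain ⟨w, rfl⟩ := hbs y
      exact ⟨w, by rw [hg, hy]⟩
  have hgk : Nat.card g.ker = q ^ 9 := by
    have h1 := CNT.ker_range g
    rw [hK, hgr] at h1
    have h2 : q * Nat.card g.ker = q * q ^ 9 := by rw [← h1]; ring
    exact Nat.eq_of_mul_eq_mul_left (by omega) h2
  -- all isotropic vectors
  have hzz : ∀ z, h z z = g (C z f * τ (C z e)) := by
    intro z
    have h1 : C z z = C z f * τ (C z e) + τ (C z f * τ (C z e)) := by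
      have h2 : C z z = C (C z f • e + C z e • f) z := congrArg (fun w => C w z) (S.coord he hf hfe z)
      rw [h2, HC.add_left, HC.smul_left, HC.smul_left, HC.herm e z, HC.herm f z, map_mul, HC.inv]
      ring
    rw [← S.bC, h1, map_add, S.bτ, hg]
  let E : V ≃ K × K :=
    { toFun := fun z => (C z f, C z e)
      invFun := fun p => p.1 • e + p.2 • f
      left_inv := fun z => (S.coord he hf hfe z).symm
      right_inv := fun p => by
        ext
        · show C (p.1 • e + p.2 • f) f = p.1
          rw [HC.add_left, HC.smul_left, HC.smul_left, hef, hf, mul_one, mul_zero, add_zero]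
        · show C (p.1 • e + p.2 • f) e = p.2
          rw [HC.add_left, HC.smul_left, HC.smul_left, he, hfe, mul_one, mul_zero, zero_add] }
  have hall : Nat.card {z : V // h z z = 0} = q ^ 10 + (q ^ 10 - 1) * q ^ 9 := by
    have h1 : Nat.card {z : V // h z z = 0} = Nat.card {p : K × K // g (p.1 * τ p.2) = 0} := by
      apply Nat.card_congr
      exact E.subtypeEquiv (fun z => by rw [hzz]; rfl)
    rw [h1]
    haveI : Fintype K := Fintype.ofFinite K
    have h2 : Nat.card {p : K × K // g (p.1 * τ p.2) = 0} = ∑ x : K, Nat.card {y : K // g (x * τ y) = 0} := by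
      rw [← Nat.card_sigma]
      apply Nat.card_congr
      exact ⟨fun p => ⟨p.1.1, p.1.2, p.2⟩, fun s => ⟨(s.1, s.2.1), s.2.2⟩, fun p => rfl, fun s => rfl⟩
    rw [h2, ← Finset.add_sum_erase Finset.univ _ (Finset.mem_univ (0 : K))]
    have h3 : Nat.card {y : K // g (0 * τ y) = 0} = q ^ 10 := by
      rw [← hK]
      apply Nat.card_congr
      exact Equiv.subtypeUnivEquiv (fun y => by rw [zero_mul, map_zero])
    have h4 : ∀ x ∈ Finset.univ.erase (0 : K), Nat.card {y : K // g (x * τ y) = 0} = q ^ 9 := by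
      intro x hx
      have hx0 : x ≠ 0 := (Finset.mem_erase.mp hx).1
      rw [← hgk]
      apply Nat.card_congr
      refine ⟨fun y => ⟨x * τ y.1, y.2⟩, fun w => ⟨τ (w.1 / x), ?_⟩, ?_, ?_⟩
      · rw [HC.inv, mul_div_cancel₀ _ hx0]; exact w.2
      · intro y; apply Subtype.ext
        show τ (x * τ y.1 / x) = y.1
        rw [mul_div_cancel_left₀ _ hx0, HC.inv]
      · intro w; apply Subtype.ext
        show x * τ (τ (w.1 / x)) = w.1
        rw [HC.inv, mul_div_cancel₀ _ hx0]
    rw [h3, Finset.sum_congr rfl h4, Finset.sum_const, Finset.card_erase_of_mem (Finset.mem_univ _),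
      Finset.card_univ, ← Nat.card_eq_fintype_card, hK, smul_eq_mul]
  have hsub : Nat.card {z : V // h z z = 0} = Nat.card {z : V // z ≠ 0 ∧ h z z = 0} + 1 := by
    have h0 : h (0 : V) 0 = 0 := Hh.zero_left 0
    have hset : {z : V | h z z = 0} = insert 0 {z : V | z ≠ 0 ∧ h z z = 0} := by
      ext z
      simp only [Set.mem_setOf_eq, Set.mem_insert_iff]
      constructor
      · intro hz
        by_cases hz0 : z = 0
        · exact Or.inl hz0
        · exact Or.inr ⟨hz0, hz⟩
      · rintro (rfl | hz)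
        · exact h0
        · exact hz.2
    have h5 : Nat.card {z : V // h z z = 0} = Set.ncard {z : V | h z z = 0} := Nat.card_coe_set_eq _
    have h6 : Nat.card {z : V // z ≠ 0 ∧ h z z = 0} = Set.ncard {z : V | z ≠ 0 ∧ h z z = 0} := Nat.card_coe_set_eq _
    rw [h5, h6, hset]
    exact Set.ncard_insert_of_notMem (fun h7 => h7.1 rfl) (Set.toFinite _)
  have hpos : 1 ≤ q ^ 10 := Nat.one_le_pow _ _ (by omega)
  have h9 : (q ^ 10 - 1) * (q ^ 9 + 1) + 1 = q ^ 10 + (q ^ 10 - 1) * q ^ 9 := by
    obtain ⟨m, hm⟩ := Nat.exists_eq_add_of_le hpos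
    rw [hm]
    simp only [Nat.add_sub_cancel_left]
    ring
  omega

end Cfsg.Agent.Lib.FV46
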