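import Mathlib
import Cfsg.Agent.Lib.FV1H46

set_option autoImplicit false
set_option linter.unusedSectionVars false
set_option linter.unusedSimpArgs false
set_option linter.unusedVariables false

namespace Cfsg.Agent.Lib.FV46

open Module Cfsg.Agent.Lib.UnTrans Cfsg.Agent.Lib.UnMax Cfsg.Agent.Lib.ExtFldH94 Cfsg.Agent.Lib.FldUH94
open Cfsg.Agent.Lib.SpTrans (isom mem_isom)

variable {F K V : Type*} [Field F] [Field K] [Algebra F K] [AddCommGroup V] [Module F V] [Module K V]
  [IsScalarTower F K V] [FiniteDimensional F K] [FiniteDimensional K V] [FiniteDimensional F V]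
  {σ : F →+* F} {τ : K →+* K} {h : V → V → F} {C : V → V → K} {Hh : HS σ h} {HC : HS τ C} {b : Dual F K}
  {M : Subgroup (V ≃ₗ[F] V)}

theorem w_data [Finite K] (S : FV Hh HC b M) {w : ℕ} (hw0 : 0 < w) (hwr : w < finrank F K) (hmax : Mx C M w) {v : V}
    (hv0 : v ≠ 0) (hv : C v v = 0) {U' : Submodule F V} (hU' : Mem C M U')
    (hfr : finrank F (Ln K v ⊓ U' : Submodule F V) = w) :
    ∃ W L : Submodule F K, (∀ x, x ∈ W ↔ x • v ∈ U') ∧ (∀ l, l ∈ L ↔ ∃ u ∈ U', C u v = l) ∧ finrank F W = w ∧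
      finrank F W + finrank F L = 5 ∧ (∀ x ∈ W, ∀ l ∈ L, b (l * τ x) = 0) ∧
      ∀ a : K, a + τ a = 0 → ∀ l ∈ L, l ≠ 0 → a * l ∈ W → ∀ l' ∈ L, a * l' ∈ W := by
  let ι : K →ₗ[F] V := (LinearMap.toSpanSingleton K V v).restrictScalars F
  let κ : V →ₗ[F] K := (HC.fl v : V →ₗ[K] K).restrictScalars F
  have hι : ∀ x : K, ι x = x • v := fun x => rfl
  have hκ : ∀ z : V, κ z = C z v := fun z => rfl
  have hιi : Function.Injective ι := by
    intro x y hxy
    rw [hι, hι] at hxy
    exact smul_left_injective K hv0 hxy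
  have h1 : ∀ x, x ∈ U'.comap ι ↔ x • v ∈ U' := fun x => Iff.rfl
  have h2 : ∀ l, l ∈ U'.map κ ↔ ∃ u ∈ U', C u v = l := fun l => Iff.rfl
  have h3 : finrank F (U'.comap ι : Submodule F K) = w := by
    have he : (U'.comap ι).map ι = Ln K v ⊓ U' := by
      ext y
      constructor
      · rintro ⟨x, hx, rfl⟩
        exact ⟨mem_Ln.2 ⟨x, rfl⟩, hx⟩
      · rintro ⟨hy, hy'⟩
        obtain ⟨x, rfl⟩ := mem_Ln.1 hy
        exact ⟨x, hy', rfl⟩
    rw [(Submodule.equivMapOfInjective ι hιi (U'.comap ι)).finrank_eq, he, hfr]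
  have h4 : finrank F (U'.comap ι : Submodule F K) + finrank F (U'.map κ : Submodule F K) = 5 := by
    have e1 := LinearMap.finrank_range_add_finrank_ker (κ.domRestrict U')
    rw [LinearMap.range_domRestrict, hU'.finrank_eq, S.hr] at e1
    have e2 : finrank F (LinearMap.ker (κ.domRestrict U')) = w := by
      have he : (LinearMap.ker (κ.domRestrict U')).map U'.subtype = Ln K v ⊓ U' := by
        ext y
        constructor
        · rintro ⟨x, hx, rfl⟩
          have hx' : C (x : V) v = 0 := hx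
          exact ⟨S.perp_line hv0 hv hx', x.2⟩
        · rintro ⟨hy, hy'⟩
          refine ⟨⟨y, hy'⟩, ?_, rfl⟩
          show C y v = 0
          obtain ⟨x, rfl⟩ := mem_Ln.1 hy
          rw [HC.smul_left, hv, mul_zero]
      rw [(Submodule.equivMapOfInjective U'.subtype U'.injective_subtype _).finrank_eq, he, hfr]
    omega
  refine ⟨U'.comap ι, U'.map κ, h1, h2, h3, h4, ?_, ?_⟩
  · intro x hx l hl
    obtain ⟨u, hu, rfl⟩ := (h2 l).1 hl
    rw [mul_comm, S.bh']
    exact S.ts hU' hu ((h1 x).1 hx)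
  · intro a ha l hl hl0 hal l' hl'
    obtain ⟨u, hu, hul⟩ := (h2 l).1 hl
    obtain ⟨u', hu', hul'⟩ := (h2 l').1 hl'
    obtain ⟨m, hm, hmz⟩ := S.kt (e := v) hv ha
    have hnot : u ∉ (Ln K v : Submodule F V) := by
      intro hin
      obtain ⟨x, rfl⟩ := mem_Ln.1 hin
      rw [HC.smul_left, hv, mul_zero] at hul
      exact hl0 hul.symm
    have hgr := grow hmax hU' hfr hm (fun y hy => by
      obtain ⟨x, rfl⟩ := mem_Ln.1 hy.1
      rw [hmz, HC.smul_left, hv, mul_zero, mul_zero, zero_smul, add_zero]) hu hnot (by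
      rw [hmz, hul]
      exact U'.add_mem hu ((h1 _).1 hal))
    have h5 := U'.sub_mem (hgr u' hu') hu'
    rw [hmz, hul', add_sub_cancel_left] at h5
    exact (h1 _).2 h5

end Cfsg.Agent.Lib.FV46
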