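import Mathlib
import Cfsg.Agent.Lib.FV1H46

set_option autoImplicit false
set_option linter.unusedSectionVars false
set_option linter.unusedSimpArgs false
set_option linter.unusedVariables false

namespace Cfsg.Agent.Lib.FV46.LIN

open Module

theorem card_fix {E : Type*} [Field E] [Finite E] (s : E →+* E) (hs : ∀ x, s (s x) = x) {ω : E} (hω : s ω ≠ ω) :
    Nat.card E = Nat.card {x : E // s x = x} ^ 2 := by
  have hd : ω - s ω ≠ 0 := fun h => hω (sub_eq_zero.1 h).symm
  have e : ({x : E // s x = x} × {x : E // s x = x}) ≃ E :=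
    Equiv.ofBijective (fun p => p.1.1 + ω * p.2.1) (by
      constructor
      · rintro ⟨⟨u, hu⟩, ⟨v, hv⟩⟩ ⟨⟨u', hu'⟩, ⟨v', hv'⟩⟩ h
        simp only at h
        have h2 := congrArg s h
        rw [map_add, map_add, map_mul, map_mul, hu, hv, hu', hv'] at h2
        have h3 : (ω - s ω) * (v - v') = 0 := by linear_combination h - h2
        have h4 : v = v' := by
          rcases mul_eq_zero.1 h3 with h5 | h5
          · exact absurd h5 hd
          · exact sub_eq_zero.1 h5
        subst h4
        have h5 : u = u' := by linear_combination h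
        subst h5
        rfl
      · intro y
        have hv : s ((y - s y) / (ω - s ω)) = (y - s y) / (ω - s ω) := by
          rw [map_div₀, map_sub, map_sub, hs, hs, div_eq_div_iff (by rw [← neg_sub]; exact neg_ne_zero.2 hd) hd]
          ring
        refine ⟨⟨⟨y - ω * ((y - s y) / (ω - s ω)), ?_⟩, ⟨(y - s y) / (ω - s ω), hv⟩⟩, ?_⟩
        · rw [map_sub, map_mul, hv]
          field_simp
          ring
        · simp)
  rw [← Nat.card_congr e, Nat.card_prod, sq]

section
variable {F K : Type*} [Field F] [Field K] [Algebra F K] [FiniteDimensional F K] [Finite K]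
  {σ : F →+* F} {τ : K →+* K} {b : Dual F K}

/-- the abstract data -/
structure Dat (σ : F →+* F) (τ : K →+* K) (b : Dual F K) : Prop where
  bz : ∀ c : K, (∀ a, b (a * c) = 0) → c = 0
  bτ : ∀ x, b (τ x) = σ (b x)
  τF : ∀ a : F, τ (algebraMap F K a) = algebraMap F K (σ a)
  σσ : ∀ a, σ (σ a) = a
  ττ : ∀ a, τ (τ a) = a
  ne : ∃ a, σ a ≠ a
  hr : finrank F K = 5

theorem finF (F K : Type*) [Field F] [Field K] [Algebra F K] [Finite K] : Finite F :=
  Finite.of_injective (algebraMap F K) (algebraMap F K).injective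

theorem cards (D : Dat σ τ b) : ∃ Q : ℕ, 2 ≤ Q ∧ Nat.card {x : F // σ x = x} = Q ∧ Nat.card F = Q ^ 2 ∧
    Nat.card {x : K // τ x = x} = Q ^ 5 := by
  have := finF F K
  obtain ⟨ω, hω⟩ := D.ne
  refine ⟨Nat.card {x : F // σ x = x}, ?_, rfl, card_fix σ D.σσ hω, ?_⟩
  · have h1 : Nontrivial {x : F // σ x = x} := ⟨⟨0, map_zero σ⟩, ⟨1, map_one σ⟩, fun h => zero_ne_one (congrArg Subtype.val h)⟩
    exact Finite.one_lt_card
  · have hω' : τ (algebraMap F K ω) ≠ algebraMap F K ω := by
      rw [D.τF]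
      intro h
      exact hω ((algebraMap F K).injective h)
    have h1 := card_fix τ D.ττ hω'
    rw [Module.natCard_eq_pow_finrank (K := F) (V := K), D.hr, card_fix σ D.σσ hω, ← pow_mul, mul_comm, pow_mul] at h1
    exact (Nat.pow_left_injective (n := 2) (by norm_num) h1).symm

/-- large case -/
theorem not_ge_three (D : Dat σ τ b) {W L : Submodule F K} (hd : finrank F W + finrank F L = 5)
    (hW : 0 < finrank F W)
    (hP : ∀ a : K, a + τ a = 0 → ∀ l ∈ L, l ≠ 0 → a * l ∈ W → ∀ l' ∈ L, a * l' ∈ W) : finrank F L ≤ 2 := by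
  have := finF F K
  by_contra hcon
  push Not at hcon
  obtain ⟨Q, hQ2, hQ, hF, hK0⟩ := cards D
  have hWb : W ≠ ⊥ := by
    rintro rfl
    rw [finrank_bot] at hW
    exact lt_irrefl _ hW
  obtain ⟨x0, hx0W, hx0⟩ := Submodule.exists_mem_ne_zero_of_ne_bot hWb
  let f : L → {x : K // τ x = x} := fun l => ⟨x0 * τ l + τ x0 * l, by
    rw [map_add, map_mul, map_mul, D.ττ, D.ττ]; ring⟩
  have hninj : ¬ Function.Injective f := by
    intro hinj
    have h1 := Nat.card_le_card_of_injective f hinj
    rw [hK0, Module.natCard_eq_pow_finrank (K := F) (V := L), hF, ← pow_mul] at h1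
    have h2 := (Nat.pow_le_pow_iff_right hQ2).1 h1
    omega
  rw [Function.Injective] at hninj
  push Not at hninj
  obtain ⟨l1, l2, h12, hne⟩ := hninj
  set l : K := (l1 : K) - l2 with hl
  have hl0 : l ≠ 0 := fun h => hne (Subtype.ext (sub_eq_zero.1 h))
  have hlL : l ∈ L := L.sub_mem l1.2 l2.2
  have h3 : x0 * τ l + τ x0 * l = 0 := by
    have := congrArg Subtype.val h12
    simp only [f] at this
    rw [hl, map_sub]
    linear_combination this
  have hτl : τ l ≠ 0 := (map_ne_zero τ).2 hl0
  have ha : x0 / l + τ (x0 / l) = 0 := by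
    rw [map_div₀, div_add_div _ _ hl0 hτl, div_eq_zero_iff]
    left
    linear_combination h3
  have h4 := hP (x0 / l) ha l hlL hl0 (by rw [div_mul_cancel₀ _ hl0]; exact hx0W)
  have ha0 : x0 / l ≠ 0 := div_ne_zero hx0 hl0
  let g : L →ₗ[F] W := (LinearMap.mulLeft F (x0 / l)).restrict (p := L) (q := W) h4
  have hg : Function.Injective g := by
    intro u v huv
    have := congrArg Subtype.val huv
    exact Subtype.ext (mul_left_cancel₀ ha0 this)
  have h5 := LinearMap.finrank_le_finrank_of_injective hg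
  omega

/-- perp -/
theorem perp_mem (D : Dat σ τ b) {W L : Submodule F K} (hd : finrank F W + finrank F L = 5)
    (hperp : ∀ x ∈ W, ∀ l ∈ L, b (l * τ x) = 0) {x : K} (hx : ∀ l ∈ L, b (l * τ x) = 0) : x ∈ W := by
  have := finF F K
  let N : Submodule F K :=
    { carrier := {y | τ y ∈ L}
      add_mem' := fun {u v} hu hv => by
        show τ (u + v) ∈ L
        rw [map_add]; exact L.add_mem hu hv
      zero_mem' := by
        show τ 0 ∈ L
        rw [map_zero]; exact L.zero_mem
      smul_mem' := fun c u hu => by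
        show τ (c • u) ∈ L
        rw [Algebra.smul_def, map_mul, D.τF, ← Algebra.smul_def]
        exact L.smul_mem _ hu }
  have hNL : finrank F N = finrank F L := by
    have e : N ≃ L := 
      { toFun := fun u => ⟨τ u, u.2⟩
        invFun := fun u => ⟨τ u, by show τ (τ u) ∈ L; rw [D.ττ]; exact u.2⟩
        left_inv := fun u => Subtype.ext (D.ττ _)
        right_inv := fun u => Subtype.ext (D.ττ _) }
    have h1 := Nat.card_congr e
    rw [Module.natCard_eq_pow_finrank (K := F) (V := N), Module.natCard_eq_pow_finrank (K := F) (V := L)] at h1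
    exact Nat.pow_right_injective (Finite.one_lt_card : 1 < Nat.card F) h1
  let Θ : K →ₗ[F] Dual F K := (LinearMap.mul F K).compr₂ b
  have hΘ : Function.Injective Θ := by
    rw [injective_iff_map_eq_zero]
    intro y hy
    apply D.bz
    intro a
    have := LinearMap.congr_fun hy a
    rw [mul_comm]
    exact this
  have h2 : finrank F (N.map Θ) = finrank F L := by
    rw [← hNL]
    exact (Submodule.equivMapOfInjective Θ hΘ N).finrank_eq.symm
  have h3 := Subspace.finrank_add_finrank_dualCoannihilator_eq (N.map Θ)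
  have hmem : ∀ x : K, (∀ l ∈ L, b (l * τ x) = 0) → x ∈ (N.map Θ).dualCoannihilator := by
    intro x hx
    rw [Submodule.mem_dualCoannihilator]
    rintro φ ⟨y, hy, rfl⟩
    show b (y * x) = 0
    have h4 := hx (τ y) hy
    rw [← map_mul, D.bτ] at h4
    have h5 := congrArg σ h4
    rwa [D.σσ, map_zero] at h5
  have hle : W ≤ (N.map Θ).dualCoannihilator := fun x hx => hmem x (hperp x hx)
  have heq : W = (N.map Θ).dualCoannihilator := by
    refine Submodule.eq_of_le_of_finrank_eq hle ?_
    rw [D.hr] at h3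
    omega
  rw [heq]
  exact hmem x hx

theorem not_two (D : Dat σ τ b) {W L : Submodule F K} (hd : finrank F W + finrank F L = 5)
    (hperp : ∀ x ∈ W, ∀ l ∈ L, b (l * τ x) = 0)
    (hP : ∀ a : K, a + τ a = 0 → ∀ l ∈ L, l ≠ 0 → a * l ∈ W → ∀ l' ∈ L, a * l' ∈ W) : finrank F L ≠ 2 := by
  have := finF F K
  intro hL2
  have hW3 : finrank F W = 3 := by omega
  obtain ⟨Q, hQ2, hQ, hF, hK0⟩ := cards D
  obtain ⟨ω, hω⟩ := D.ne
  set ε : F := ω - σ ω with hε
  have hε0 : ε ≠ 0 := fun h => hω (sub_eq_zero.1 h).symm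
  have hσε : σ ε = -ε := by rw [hε, map_sub, D.σσ]; ring
  clear_value ε
  have hε' : algebraMap F K ε ≠ 0 := (map_ne_zero _).2 hε0
  obtain ⟨l0, l2, hl0L, hl0', hexp⟩ : ∃ l0 l2 : K, l0 ∈ L ∧ l0 ≠ 0 ∧
      ∀ l ∈ L, ∃ x y : F, l = algebraMap F K x * l0 + algebraMap F K y * l2 := by
    let B := Module.finBasisOfFinrankEq F L hL2
    refine ⟨((B 0 : L) : K), ((B 1 : L) : K), (B 0).2, fun h => B.ne_zero 0 (Subtype.ext h), ?_⟩
    intro l hl
    have h1 := B.sum_repr ⟨l, hl⟩
    rw [Fin.sum_univ_two] at h1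
    have h2 := congrArg (Subtype.val) h1
    refine ⟨B.repr ⟨l, hl⟩ 0, B.repr ⟨l, hl⟩ 1, ?_⟩
    rw [← Algebra.smul_def, ← Algebra.smul_def]
    exact h2.symm
  let K0 : AddSubgroup K := τ.toAddMonoidHom.eqLocus (AddMonoidHom.id K)
  let F0 : AddSubgroup F := σ.toAddMonoidHom.eqLocus (AddMonoidHom.id F)
  have hK0c : Nat.card K0 = Q ^ 5 := hK0
  have hF0c : Nat.card F0 = Q := hQ
  let f : K0 →+ F0 × F :=
    { toFun := fun s => (⟨b (s * (l0 * τ l0)), by
          show σ (b (s * (l0 * τ l0))) = b (s * (l0 * τ l0))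
          have hs : τ (s : K) = s := s.2
          have h0 : τ (s * (l0 * τ l0)) = s * (l0 * τ l0) := by
            rw [map_mul τ, map_mul τ, D.ττ, hs, mul_comm (τ l0)]
          rw [← D.bτ, h0]⟩, b (s * (l2 * τ l0)))
      map_zero' := by
        refine Prod.ext (Subtype.ext ?_) ?_
        · show b ((0 : K) * _) = 0
          rw [zero_mul, map_zero]
        · show b ((0 : K) * _) = 0
          rw [zero_mul, map_zero]
      map_add' := fun s t => by
        refine Prod.ext (Subtype.ext ?_) ?_
        · show b (((s : K) + t) * _) = b _ + b _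
          rw [add_mul, map_add]
        · show b (((s : K) + t) * _) = b _ + b _
          rw [add_mul, map_add] }
  have hker : Q ^ 2 ≤ Nat.card f.ker := by
    have h1 := AddSubgroup.card_eq_card_quotient_mul_card_addSubgroup f.ker
    have h2 : Nat.card (K0 ⧸ f.ker) ≤ Nat.card (F0 × F) :=
      Nat.card_le_card_of_injective _ (QuotientAddGroup.kerLift_injective f)
    rw [Nat.card_prod, hF0c, hF] at h2
    rw [hK0c] at h1
    have h3 : Q ^ 3 * Q ^ 2 ≤ Q ^ 3 * Nat.card f.ker := by
      calc Q ^ 3 * Q ^ 2 = Q ^ 5 := by ring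
        _ = Nat.card (K0 ⧸ f.ker) * Nat.card f.ker := h1
        _ ≤ (Q * Q ^ 2) * Nat.card f.ker := Nat.mul_le_mul_right _ h2
        _ = Q ^ 3 * Nat.card f.ker := by ring
    exact Nat.le_of_mul_le_mul_left h3 (by positivity)
  -- a nonzero element
  have hmemW : ∀ s : K0, s ∈ f.ker → algebraMap F K ε * s * l0 ∈ W := by
    intro s hs
    apply perp_mem D hd hperp
    intro l hl
    obtain ⟨x, y, rfl⟩ := hexp l hl
    have h1 : f s = 0 := hs
    have h2 : b ((s : K) * (l0 * τ l0)) = 0 := congrArg (fun p => (p.1 : F)) h1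
    have h3 : b ((s : K) * (l2 * τ l0)) = 0 := congrArg (fun p => p.2) h1
    have hs' : τ (s : K) = s := s.2
    have h4 : (algebraMap F K x * l0 + algebraMap F K y * l2) * τ (algebraMap F K ε * s * l0) =
        (x * σ ε) • ((s : K) * (l0 * τ l0)) + (y * σ ε) • ((s : K) * (l2 * τ l0)) := by
      rw [map_mul, map_mul, D.τF, hs', Algebra.smul_def, Algebra.smul_def, map_mul, map_mul]
      ring
    rw [h4, map_add, map_smul, map_smul, h2, h3, smul_zero, smul_zero, add_zero]
  have hex1 : ∃ s : K0, s ∈ f.ker ∧ s ≠ 0 := by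
    by_contra hcon
    push Not at hcon
    have h1 : f.ker = ⊥ := by
      rw [eq_bot_iff]
      intro s hs
      exact hcon s hs
    rw [h1, AddSubgroup.card_bot] at hker
    nlinarith
  obtain ⟨s, hs, hs0⟩ := hex1
  have hs0' : (s : K) ≠ 0 := fun h => hs0 (Subtype.ext h)
  have hτs : τ (s : K) = s := s.2
  have hex2 : ∃ s' : K0, s' ∈ f.ker ∧ ∀ x : F, σ x = x → (s' : K) ≠ algebraMap F K x * s := by
    by_contra hcon
    push Not at hcon
    choose! g hg1 hg2 using hcon
    have h1 : Nat.card f.ker ≤ Nat.card F0 := by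
      refine Nat.card_le_card_of_injective (fun s' : f.ker => (⟨g s', hg1 s' s'.2⟩ : F0)) ?_
      intro u v huv
      have h2 : g u = g v := congrArg Subtype.val huv
      apply Subtype.ext
      apply Subtype.ext
      rw [hg2 u u.2, hg2 v v.2, h2]
    rw [hF0c] at h1
    nlinarith
  obtain ⟨s', hs', hne⟩ := hex2
  have hτs' : τ (s' : K) = s' := s'.2
  set c : K := (s' : K) / s with hc
  have hcs : c * s = s' := div_mul_cancel₀ _ hs0'
  have hτc : τ c = c := by rw [hc, map_div₀, hτs, hτs']
  clear_value c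
  have hcF : c ∉ (algebraMap F K).range := by
    rintro ⟨x, hx⟩
    have h1 : σ x = x := by
      apply (algebraMap F K).injective
      rw [← D.τF, hx, hτc]
    exact hne x h1 (by rw [hx, hcs])
  have hc0 : c ≠ 0 := by
    rintro rfl
    exact hcF ⟨0, map_zero _⟩
  set a : K := algebraMap F K ε * s with ha
  have ha0 : a ≠ 0 := mul_ne_zero hε' hs0'
  have hskew : ∀ t : K, τ t = t → a * t + τ (a * t) = 0 := by
    intro t ht
    rw [ha, map_mul, map_mul, D.τF, hτs, ht, hσε, map_neg]
    ring
  have haW : ∀ l ∈ L, a * l ∈ W := by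
    have h1 : a + τ a = 0 := by
      have := hskew 1 (map_one τ)
      rwa [mul_one] at this
    exact hP a h1 l0 hl0L hl0' (hmemW s hs)
  have hcaW : ∀ l ∈ L, a * c * l ∈ W := by
    have h2 : algebraMap F K ε * s' * l0 = a * c * l0 := by
      rw [ha, ← hcs]; ring
    exact hP (a * c) (hskew c hτc) l0 hl0L hl0' (by rw [← h2]; exact hmemW s' hs')
  -- an element `l` with `l, c l ∈ L`
  have hexl : ∃ l ∈ L, l ≠ 0 ∧ c * l ∈ L := by
    let E : Submodule F K := L.map (LinearMap.mulLeft F c)
    have hinjc : Function.Injective (LinearMap.mulLeft F c) := fun u v h => mul_left_cancel₀ hc0 h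
    have hE : finrank F E = 2 := by
      rw [← hL2]
      exact (Submodule.equivMapOfInjective _ hinjc L).finrank_eq.symm
    have hsup : finrank F (L ⊔ E : Submodule F K) ≤ 3 := by
      rw [← hW3]
      have hle : ∀ z ∈ (L ⊔ E : Submodule F K), LinearMap.mulLeft F a z ∈ W := by
        intro z hz
        obtain ⟨u, hu, v, hv, rfl⟩ := Submodule.mem_sup.1 hz
        obtain ⟨v', hv', rfl⟩ := hv
        rw [map_add]
        refine W.add_mem (haW u hu) ?_
        show a * (c * v') ∈ W
        rw [← mul_assoc]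
        exact hcaW v' hv'
      let g := (LinearMap.mulLeft F a).restrict hle
      have hg : Function.Injective g := by
        intro u v huv
        have := congrArg Subtype.val huv
        exact Subtype.ext (mul_left_cancel₀ ha0 this)
      exact LinearMap.finrank_le_finrank_of_injective hg
    have h1 := Submodule.finrank_sup_add_finrank_inf_eq L E
    have h2 : 0 < finrank F (L ⊓ E : Submodule F K) := by omega
    have h3 : (L ⊓ E : Submodule F K) ≠ ⊥ := by
      intro h
      rw [h, finrank_bot] at h2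
      exact lt_irrefl _ h2
    obtain ⟨y, hy, hy0⟩ := Submodule.exists_mem_ne_zero_of_ne_bot h3
    obtain ⟨l, hl, rfl⟩ := hy.2
    refine ⟨l, hl, ?_, hy.1⟩
    rintro rfl
    exact hy0 (map_zero _)
  obtain ⟨l, hl, hl0n, hcl⟩ := hexl
  have hcl0 : c * l ≠ 0 := mul_ne_zero hc0 hl0n
  have p0 : a * l * c ^ 0 ∈ W := by rw [pow_zero, mul_one]; exact haW l hl
  have p1 : a * l * c ^ 1 ∈ W := by
    have := haW _ hcl
    rwa [show a * (c * l) = a * l * c ^ 1 by ring] at this
  have p2 : a * l * c ^ 2 ∈ W := by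
    have := hcaW _ hcl
    rwa [show a * c * (c * l) = a * l * c ^ 2 by ring] at this
  have p3 : a * l * c ^ 3 ∈ W := by
    have h1 := hP (a * c ^ 2) (hskew (c ^ 2) (by rw [map_pow, hτc])) l hl hl0n
      (by rw [show a * c ^ 2 * l = a * l * c ^ 2 by ring]; exact p2) (c * l) hcl
    rwa [show a * c ^ 2 * (c * l) = a * l * c ^ 3 by ring] at h1
  -- linear independence
  have hint : IsIntegral F c := Algebra.IsIntegral.isIntegral c
  have hdeg : (minpoly F c).natDegree = 5 := by
    have h1 := minpoly.degree_dvd hint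
    rw [D.hr] at h1
    rcases (Nat.dvd_prime (by norm_num : Nat.Prime 5)).1 h1 with h2 | h2
    · exact absurd (minpoly.natDegree_eq_one_iff.1 h2) hcF
    · exact h2
  have hli := linearIndependent_pow (K := F) c
  have hli4 : LinearIndependent F (fun i : Fin 4 => c ^ (i : ℕ)) := by
    have := hli.comp (Fin.castLE (by omega : 4 ≤ (minpoly F c).natDegree)) (Fin.castLE_injective _)
    exact this
  have hli5 : LinearIndependent F (fun i : Fin 4 => a * l * c ^ (i : ℕ)) := by
    have h1 : Function.Injective (LinearMap.mulLeft F (a * l)) := fun u v h =>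
      mul_left_cancel₀ (mul_ne_zero ha0 hl0n) h
    exact hli4.map' (LinearMap.mulLeft F (a * l)) (LinearMap.ker_eq_bot.2 h1)
  have hWi : ∀ i : Fin 4, a * l * c ^ (i : ℕ) ∈ W := by
    intro i
    fin_cases i
    · exact p0
    · exact p1
    · exact p2
    · exact p3
  have hli6 : LinearIndependent F (fun i : Fin 4 => (⟨a * l * c ^ (i : ℕ), hWi i⟩ : W)) :=
    LinearIndependent.of_comp W.subtype hli5
  have := hli6.fintype_card_le_finrank
  rw [Fintype.card_fin, hW3] at this
  omega

end

end Cfsg.Agent.Lib.FV46.LIN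

namespace Cfsg.Agent.Lib.FV46

open Module Cfsg.Agent.Lib.UnTrans Cfsg.Agent.Lib.UnMax Cfsg.Agent.Lib.ExtFldH94 Cfsg.Agent.Lib.FldUH94
open Cfsg.Agent.Lib.SpTrans (isom mem_isom)

variable {F K V : Type*} [Field F] [Field K] [Algebra F K] [AddCommGroup V] [Module F V] [Module K V]
  [IsScalarTower F K V] [FiniteDimensional F K] [FiniteDimensional K V] [FiniteDimensional F V]
  {σ : F →+* F} {τ : K →+* K} {h : V → V → F} {C : V → V → K} {Hh : HS σ h} {HC : HS τ C} {b : Dual F K}
  {M : Subgroup (V ≃ₗ[F] V)}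

theorem lin45 [Finite K] (S : FV Hh HC b M) {W L : Submodule F K} (hd : finrank F W + finrank F L = 5)
    (hW : 0 < finrank F W) (hL : 0 < finrank F L) (hperp : ∀ x ∈ W, ∀ l ∈ L, b (l * τ x) = 0)
    (hP : ∀ a : K, a + τ a = 0 → ∀ l ∈ L, l ≠ 0 → a * l ∈ W → ∀ l' ∈ L, a * l' ∈ W) : finrank F L = 1 := by
  have D : LIN.Dat σ τ b :=
    { bz := fun c hc => S.bzero hc
      bτ := S.bτ
      τF := S.τF
      σσ := Hh.inv
      ττ := HC.inv
      ne := Hh.ne
      hr := S.hr }
  have h1 := LIN.not_ge_three D hd hW hP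
  have h2 := LIN.not_two D hd hperp hP
  omega

end Cfsg.Agent.Lib.FV46
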