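import Mathlib
import Cfsg.Agent.Lib.FV1H46

/-! S5840, piece SL (helper66) -/

set_option autoImplicit false
set_option linter.unusedSectionVars false
set_option linter.unusedSimpArgs false
set_option linter.unusedVariables false

namespace Cfsg.Agent.Lib.FV46

open Module Cfsg.Agent.Lib.UnTrans Cfsg.Agent.Lib.UnMax Cfsg.Agent.Lib.ExtFldH94 Cfsg.Agent.Lib.FldUH94
open Cfsg.Agent.Lib.SpTrans (isom mem_isom)

variable {F K V : Type*} [Field F] [Field K] [Algebra F K] [AddCommGroup V] [Module F V] [Module K V]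
  [IsScalarTower F K V] [FiniteDimensional F K] [FiniteDimensional K V] [FiniteDimensional F V]
  {σ : F →+* F} {τ : K →+* K} {h : V → V → F} {C : V → V → K} {Hh : HS σ h} {HC : HS τ C} {b : Dual F K}
  {M : Subgroup (V ≃ₗ[F] V)}

theorem SL_iso (S : FV Hh HC b M) : ∃ e : V, e ≠ 0 ∧ C e e = 0 := by
  have hfr := S.hk
  haveI : Nontrivial V := Module.nontrivial_of_finrank_pos (R := K) (by omega)
  obtain ⟨u, hu⟩ := exists_ne (0 : V)
  by_cases huu : C u u = 0
  · exact ⟨u, hu, huu⟩
  obtain ⟨w0, hw0⟩ : ∃ w0 : V, w0 ∉ Submodule.span K {u} := by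
    by_contra hcon
    push Not at hcon
    have h1 : (Submodule.span K {u} : Submodule K V) = ⊤ := by
      rw [eq_top_iff]; intro x _; exact hcon x
    have h2 := finrank_span_singleton (K := K) hu
    rw [h1, finrank_top, hfr] at h2
    omega
  set w := w0 - (C w0 u * (C u u)⁻¹) • u with hw
  have hwu : C w u = 0 := by
    rw [hw, HC.sub_left, HC.smul_left, mul_assoc, inv_mul_cancel₀ huu, mul_one, sub_self]
  have hw1 : w ≠ 0 := by
    intro h0
    apply hw0
    rw [Submodule.mem_span_singleton]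
    exact ⟨_, (sub_eq_zero.1 (hw ▸ h0)).symm⟩
  by_cases hww : C w w = 0
  · exact ⟨w, hw1, hww⟩
  have huw : C u w = 0 := HC.symm_zero hwu
  obtain ⟨x, hx⟩ := HC.norm (-(C u u * (C w w)⁻¹)) (by
    rw [map_neg, map_mul, map_inv₀, HC.self_fixed, HC.self_fixed])
  refine ⟨u + x • w, ?_, ?_⟩
  · intro h0
    have : C (u + x • w) u = 0 := by rw [h0, HC.zero_left]
    rw [HC.add_left, HC.smul_left, hwu, mul_zero, add_zero] at this
    exact huu this
  · rw [HC.add_left, HC.add_right, HC.add_right, HC.smul_left, HC.smul_left, HC.smul_right, HC.smul_right, huw, hwu,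
      mul_zero, mul_zero, add_zero, zero_add, ← mul_assoc, hx, neg_mul, mul_assoc, inv_mul_cancel₀ hww, mul_one,
      add_neg_cancel]

theorem semilinear2 [Finite K] (S : FV Hh HC b M) {g : V ≃ₗ[F] V} (hg : g ∈ M)
    (hl : ∀ v, v ≠ 0 → C v v = 0 → ∃ v', v' ≠ 0 ∧ C v' v' = 0 ∧ (Ln K v).map (g : V →ₗ[F] V) = Ln K v') :
    ∀ a : K, ∃ c : K, ∀ x, g (a • x) = c • g x := by
  obtain ⟨e, he0, he⟩ := SL_iso S
  obtain ⟨f, hf, hfe⟩ := S.exists_hyp he0 he
  have hef : C e f = 1 := by rw [HC.herm, hfe, map_one]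
  have hf0 : f ≠ 0 := by
    rintro rfl
    rw [HC.zero_left] at hfe
    exact zero_ne_one hfe
  have hline : ∀ v, v ≠ 0 → C v v = 0 → ∀ x : K, ∃ c : K, g (x • v) = c • g v := by
    intro v hv0 hv x
    obtain ⟨v', hv', -, hm⟩ := hl v hv0 hv
    have h1 : g (x • v) ∈ (Ln K v' : Submodule F V) := by
      rw [← hm]; exact ⟨x • v, smul_mem_Ln v x, rfl⟩
    have h2 : g v ∈ (Ln K v' : Submodule F V) := by
      rw [← hm]; exact ⟨v, self_mem_Ln v, rfl⟩
    obtain ⟨p, hp⟩ := mem_Ln.1 h1
    obtain ⟨q, hq⟩ := mem_Ln.1 h2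
    have hq0 : q ≠ 0 := by
      rintro rfl
      rw [zero_smul] at hq
      exact hv0 (g.map_eq_zero_iff.1 hq)
    exact ⟨p * q⁻¹, by rw [hp, hq, smul_smul, mul_assoc, inv_mul_cancel₀ hq0, mul_one]⟩
  have hge : g e ≠ 0 := fun h0 => he0 (g.map_eq_zero_iff.1 h0)
  have hgf : g f ≠ 0 := fun h0 => hf0 (g.map_eq_zero_iff.1 h0)
  choose A hA using hline e he0 he
  choose D hD using hline f hf0 hf
  have canc : ∀ {u : V}, u ≠ 0 → ∀ {p q : K}, p • u = q • u → p = q := fun hu _ _ hpq => smul_left_injective K hu hpq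
  have Aadd : ∀ x y, A (x + y) = A x + A y := by
    intro x y
    apply canc hge
    rw [← hA, add_smul, map_add, hA, hA, add_smul]
  have Dadd : ∀ x y, D (x + y) = D x + D y := by
    intro x y
    apply canc hgf
    rw [← hD, add_smul, map_add, hD, hD, add_smul]
  have DF : ∀ (α : F) (y : K), D (algebraMap F K α * y) = algebraMap F K α * D y := by
    intro α y
    apply canc hgf
    rw [← hD, mul_smul, mul_smul, algebraMap_smul, algebraMap_smul, map_smul, hD]
  have Ainj : Function.Injective A := by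
    intro x y hxy
    have : g (x • e) = g (y • e) := by rw [hA, hA, hxy]
    exact canc he0 (g.injective this)
  have Dinj : Function.Injective D := by
    intro x y hxy
    have : g (x • f) = g (y • f) := by rw [hD, hD, hxy]
    exact canc hf0 (g.injective this)
  have Asurj := Finite.surjective_of_injective Ainj
  have Dsurj := Finite.surjective_of_injective Dinj
  have A0 : A 0 = 0 := by
    have := Aadd 0 0
    rw [add_zero] at this
    exact left_eq_add.1 this
  have D1 : D 1 = 1 := by
    apply canc hgf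
    rw [← hD, one_smul, one_smul]
  have A1 : A 1 = 1 := by
    apply canc hge
    rw [← hA, one_smul, one_smul]
  have ind : ∀ p q p' q' : K, p • g f + q • g e = p' • g f + q' • g e → p = p' ∧ q = q' := by
    intro p q p' q' hpq
    obtain ⟨y, rfl⟩ := Dsurj p
    obtain ⟨x, rfl⟩ := Asurj q
    obtain ⟨y', rfl⟩ := Dsurj p'
    obtain ⟨x', rfl⟩ := Asurj q'
    rw [← hD, ← hA, ← hD, ← hA, ← map_add, ← map_add] at hpq
    have h1 := g.injective hpq
    have h2 : y = y' := by
      have := congrArg (fun z => C z e) h1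
      simp only [HC.add_left, HC.smul_left, he, hfe, mul_zero, mul_one, add_zero] at this
      exact this
    have h3 : x = x' := by
      have := congrArg (fun z => C z f) h1
      simp only [HC.add_left, HC.smul_left, hf, hef, mul_zero, mul_one, zero_add] at this
      exact this
    rw [h2, h3]
    exact ⟨rfl, rfl⟩
  have key : ∀ (y c : K), c + τ c = 0 → A (y * c) = D y * A c := by
    intro y c hc
    have hv : C (f + c • e) (f + c • e) = 0 := by
      rw [HC.add_left, HC.add_right, HC.add_right, HC.smul_left, HC.smul_left, HC.smul_right, HC.smul_right, hf, hfe,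
        hef, he, mul_zero, mul_zero, mul_one, mul_one, zero_add, add_zero, add_comm, hc]
    have hv0 : f + c • e ≠ 0 := by
      intro h0
      have : C (f + c • e) e = 0 := by rw [h0, HC.zero_left]
      rw [HC.add_left, HC.smul_left, he, mul_zero, add_zero, hfe] at this
      exact one_ne_zero this
    obtain ⟨ρ, hρ⟩ := hline _ hv0 hv y
    rw [smul_add, smul_smul, map_add, hD, hA, map_add, hA, smul_add, smul_smul] at hρ
    obtain ⟨h1, h2⟩ := ind _ _ _ _ hρ
    rw [h2, ← h1]
  obtain ⟨c0, hc00, hc0⟩ := HC.exists_tr0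
  have Ac0 : A c0 ≠ 0 := fun h0 => hc00 (Ainj (by rw [h0, A0]))
  have Dk : ∀ y k : K, τ k = k → D (y * k) = D y * D k := by
    intro y k hk
    have hs : k * c0 + τ (k * c0) = 0 := by
      rw [map_mul, hk, ← mul_add, hc0, mul_zero]
    have h1 := key y (k * c0) hs
    have h2 := key (y * k) c0 hc0
    have h3 := key k c0 hc0
    rw [← mul_assoc, h2, h3, ← mul_assoc] at h1
    exact mul_right_cancel₀ Ac0 h1
  obtain ⟨α, hα⟩ := Hh.ne
  have hα' : algebraMap F K α - τ (algebraMap F K α) ≠ 0 := by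
    rw [S.τF, sub_ne_zero]
    intro h0
    exact hα ((algebraMap F K).injective h0).symm
  have Dmul : ∀ y w : K, D (y * w) = D y * D w := by
    intro y w
    set δ := algebraMap F K α - τ (algebraMap F K α) with hδ
    set k2 := (w - τ w) * δ⁻¹ with hk2
    set k1 := w - algebraMap F K α * k2 with hk1
    have hδτ : τ δ = -δ := by
      rw [hδ, map_sub, HC.inv]; ring
    have t2 : τ k2 = k2 := by
      rw [hk2, map_mul, map_inv₀, hδτ, map_sub, HC.inv, inv_neg]; ring
    have e1 : k2 * δ = w - τ w := by rw [hk2, mul_assoc, inv_mul_cancel₀ hα', mul_one]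
    have t1 : τ k1 = k1 := by
      rw [hk1, map_sub, map_mul, t2]
      have : τ (algebraMap F K α) = algebraMap F K α - δ := by rw [hδ]; ring
      rw [this]
      linear_combination e1
    have hw : w = k1 + algebraMap F K α * k2 := by rw [hk1]; ring
    have e2 : y * w = y * k1 + algebraMap F K α * (y * k2) := by rw [hw]; ring
    rw [e2, Dadd, DF, Dk y k1 t1, Dk y k2 t2]
    conv_rhs => rw [hw, Dadd, DF]
    ring
  have hAD : ∀ x, A x = D (x * c0⁻¹) * A c0 := by
    intro x
    rw [← key _ _ hc0, mul_assoc, inv_mul_cancel₀ hc00, mul_one]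
  intro a
  refine ⟨D a, fun x => ?_⟩
  have hx := S.coord he hf hfe x
  have hAa : ∀ x, A (a * x) = D a * A x := by
    intro x
    rw [hAD, mul_assoc, Dmul, mul_assoc, ← hAD]
  rw [hx, smul_add, smul_smul, smul_smul, map_add, map_add, hA, hD, hA, hD, hAa, Dmul, smul_add, smul_smul, smul_smul]

end Cfsg.Agent.Lib.FV46
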