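import Mathlib
import Cfsg.Agent.Lib.FV1H46

/-! S5840, piece SM (helper19) -/

set_option autoImplicit false
set_option linter.unusedSectionVars false
set_option linter.unusedSimpArgs false
set_option linter.unusedVariables false

namespace Cfsg.Agent.Lib.FV46

open Module Cfsg.Agent.Lib.UnTrans Cfsg.Agent.Lib.UnMax Cfsg.Agent.Lib.ExtFldH94 Cfsg.Agent.Lib.FldUH94
open Cfsg.Agent.Lib.SpTrans (isom mem_isom)

variable {F K V : Type*} [Field F] [Field K] [Algebra F K] [AddCommGroup V] [Module F V] [Module K V]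
  [IsScalarTower F K V] [FiniteDimensional F K] [FiniteDimensional K V] [FiniteDimensional F V]
  {σ : F →+* F} {τ : K →+* K} {h : V → V → F} {C : V → V → K} {Hh : HS σ h} {HC : HS τ C} {b : Dual F K}
  {M : Subgroup (V ≃ₗ[F] V)}

namespace SM

/-- counting: a skew element `a` with `a l0 ∈ W`, not in `F c` -/
theorem exists_skew [Finite K] (S : FV Hh HC b M) {W : Submodule F K} (hW : finrank F W = 4) (l0 c : K) :
    ∃ a : K, a + τ a = 0 ∧ a * l0 ∈ W ∧ ∀ t : F, a ≠ t • c := by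
  classical
  haveI : Finite F := Finite.of_injective (algebraMap F K) (algebraMap F K).injective
  -- the skew elements
  let tr : K →+ K := AddMonoidHom.id K + τ.toAddMonoidHom
  have htr : ∀ x, tr x = x + τ x := fun x => rfl
  obtain ⟨ε, hε0, hε⟩ := HC.exists_tr0
  have h1 : Nat.card tr.range ≤ Nat.card tr.ker := by
    refine Nat.card_le_card_of_injective (fun x : tr.range => (⟨ε * x.1, ?_⟩ : tr.ker)) ?_
    · obtain ⟨y, hy⟩ := x.2
      rw [AddMonoidHom.mem_ker, htr]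
      have h3 : (x : K) = y + τ y := hy.symm
      have : τ (x : K) = x := by rw [h3, map_add, HC.inv, add_comm]
      rw [map_mul, this, ← add_mul, hε, zero_mul]
    · intro x y hxy
      have := congrArg Subtype.val hxy
      exact Subtype.ext (mul_left_cancel₀ hε0 this)
  have h2 : Nat.card K = Nat.card tr.ker * Nat.card tr.range := by
    rw [← AddSubgroup.card_mul_index tr.ker, AddSubgroup.index_ker]
  -- the condition
  let ψ : tr.ker →+ K ⧸ W := (W.mkQ.toAddMonoidHom.comp (AddMonoidHom.mulRight l0)).comp tr.ker.subtype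
  have hψ : ∀ x : tr.ker, ψ x = 0 ↔ x.1 * l0 ∈ W := fun x => Submodule.Quotient.mk_eq_zero W
  have h3 : Nat.card tr.ker = Nat.card ψ.ker * Nat.card ψ.range := by
    rw [← AddSubgroup.card_mul_index ψ.ker, AddSubgroup.index_ker]
  have hq : Nat.card (K ⧸ W) = Nat.card F := by
    have h4 : finrank F (K ⧸ W) = 1 := by
      have := W.finrank_quotient_add_finrank
      rw [hW, S.hr] at this; omega
    rw [Module.natCard_eq_pow_finrank (K := F) (V := K ⧸ W), h4, pow_one]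
  haveI : Finite (K ⧸ W) := Finite.of_surjective W.mkQ (Submodule.mkQ_surjective W)
  have h5 : Nat.card ψ.range ≤ Nat.card F := by
    rw [← hq]
    exact Nat.card_le_card_of_injective _ Subtype.val_injective
  have h6 : Nat.card K = Nat.card F ^ 5 := by
    rw [Module.natCard_eq_pow_finrank (K := F) (V := K), S.hr]
  have hF2 : 2 ≤ Nat.card F := Finite.one_lt_card
  by_contra hcon
  push Not at hcon
  have h7 : Nat.card ψ.ker ≤ Nat.card F := by
    have hch : ∀ x : ψ.ker, ∃ t : F, (x.1.1 : K) = t • c := by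
      intro x
      obtain ⟨t, ht⟩ := hcon x.1.1 ((htr _).symm.trans ((AddMonoidHom.mem_ker).1 x.1.2)) ((hψ x.1).1 ((AddMonoidHom.mem_ker).1 x.2))
      exact ⟨t, ht⟩
    choose T hT using hch
    refine Nat.card_le_card_of_injective T ?_
    intro x y hxy
    apply Subtype.ext
    apply Subtype.ext
    rw [hT x, hT y, hxy]
  have h8 : Nat.card tr.ker ≤ Nat.card F ^ 2 := by
    rw [h3, pow_two]
    exact Nat.mul_le_mul h7 h5
  have h9 : Nat.card F ^ 5 ≤ Nat.card F ^ 4 := by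
    rw [← h6, h2]
    calc Nat.card tr.ker * Nat.card tr.range ≤ Nat.card F ^ 2 * Nat.card F ^ 2 := Nat.mul_le_mul h8 (h1.trans h8)
      _ = Nat.card F ^ 4 := by ring
  have := Nat.pow_lt_pow_right (a := Nat.card F) (by omega) (show 4 < 5 by norm_num)
  omega

end SM

theorem exists_small [Finite K] (S : FV Hh HC b M) (hmax : Mx C M 4)
    (hdat : ∀ {v : V}, v ≠ 0 → C v v = 0 → ∀ {U' : Submodule F V}, Mem C M U' →
      finrank F (Ln K v ⊓ U' : Submodule F V) = 4 → ∃ W L : Submodule F K, (∀ x, x ∈ W ↔ x • v ∈ U') ∧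
      (∀ l, l ∈ L ↔ ∃ u ∈ U', C u v = l) ∧ finrank F W = 4 ∧
      finrank F W + finrank F L = 5 ∧ (∀ x ∈ W, ∀ l ∈ L, b (l * τ x) = 0) ∧
      ∀ a : K, a + τ a = 0 → ∀ l ∈ L, l ≠ 0 → a * l ∈ W → ∀ l' ∈ L, a * l' ∈ W)
    {v : V} (hv0 : v ≠ 0) (hv : C v v = 0) {U' : Submodule F V} (hU' : Mem C M U')
    (hfr : finrank F (Ln K v ⊓ U' : Submodule F V) = 4) :
    ∃ H : K →ₗ[F] K, H ≠ 0 ∧ finrank F (LinearMap.range H) ≤ 2 ∧ BE C M v H := by
  classical
  obtain ⟨W, L, hW, hL, hW4, hWL, -, -⟩ := hdat hv0 hv hU' hfr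
  obtain ⟨g, hg, v', hv'0, hv', rfl⟩ := hU'
  have hU'' : Mem C M ((Ln K v).map ((g⁻¹ : V ≃ₗ[F] V) : V →ₗ[F] V)) := (mem_Ln' hv0 hv).map (inv_mem hg)
  have hgg : ∀ z, g (g⁻¹ z) = z := fun z => by
    have : (g * g⁻¹) z = z := by rw [mul_inv_cancel]; rfl
    exact this
  have hgg' : ∀ z, g⁻¹ (g z) = z := fun z => by
    have : (g⁻¹ * g) z = z := by rw [inv_mul_cancel]; rfl
    exact this
  -- membership in the two lines
  have hmem' : ∀ u, u ∈ (Ln K v' : Submodule F V).map (g : V →ₗ[F] V) ↔ ∃ y : K, u = g (y • v') := by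
    intro u
    constructor
    · rintro ⟨x, hx, rfl⟩
      obtain ⟨y, rfl⟩ := mem_Ln.1 hx
      exact ⟨y, rfl⟩
    · rintro ⟨y, rfl⟩
      exact ⟨y • v', mem_Ln.2 ⟨y, rfl⟩, rfl⟩
  have hmem'' : ∀ u, u ∈ (Ln K v : Submodule F V).map ((g⁻¹ : V ≃ₗ[F] V) : V →ₗ[F] V) ↔ ∃ y : K, g u = y • v := by
    intro u
    constructor
    · rintro ⟨x, hx, rfl⟩
      obtain ⟨y, rfl⟩ := mem_Ln.1 hx
      exact ⟨y, hgg _⟩
    · rintro ⟨y, hy⟩
      exact ⟨y • v, mem_Ln.2 ⟨y, rfl⟩, by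
        show g⁻¹ (y • v) = u
        rw [← hy, hgg']⟩
  have hfr'' : finrank F (Ln K v' ⊓ (Ln K v).map ((g⁻¹ : V ≃ₗ[F] V) : V →ₗ[F] V) : Submodule F V) = 4 := by
    rw [← hfr]
    have e : (Ln K v ⊓ (Ln K v').map (g : V →ₗ[F] V) : Submodule F V) =
        (Ln K v' ⊓ (Ln K v).map ((g⁻¹ : V ≃ₗ[F] V) : V →ₗ[F] V) : Submodule F V).map (g : V →ₗ[F] V) := by
      ext x
      constructor
      · rintro ⟨h1, h2⟩
        obtain ⟨y, rfl⟩ := (hmem' x).1 h2
        obtain ⟨y', hy'⟩ := mem_Ln.1 h1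
        exact ⟨y • v', ⟨mem_Ln.2 ⟨y, rfl⟩, (hmem'' _).2 ⟨y', hy'⟩⟩, rfl⟩
      · rintro ⟨u, ⟨h1, h2⟩, rfl⟩
        obtain ⟨y, rfl⟩ := mem_Ln.1 h1
        obtain ⟨y', hy'⟩ := (hmem'' _).1 h2
        exact ⟨mem_Ln.2 ⟨y', hy'⟩, (hmem' _).2 ⟨y, rfl⟩⟩
    rw [e]
    exact (LinearEquiv.finrank_map_eq g _).symm
  obtain ⟨W', L', hW', hL', hW4', hWL', -, -⟩ := hdat hv'0 hv' hU'' hfr''
  -- generators of the one-dimensional spaces
  obtain ⟨l0, hl0, hl00, hl0g⟩ : ∃ l0 ∈ L, l0 ≠ 0 ∧ ∀ l ∈ L, ∃ t : F, l = t • l0 := by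
    have h1 : finrank F L = 1 := by omega
    obtain ⟨⟨l0, hl0⟩, h2, h3⟩ := finrank_eq_one_iff'.1 h1
    refine ⟨l0, hl0, fun h => h2 (Subtype.ext h), fun l hl => ?_⟩
    obtain ⟨t, ht⟩ := h3 ⟨l, hl⟩
    exact ⟨t, (congrArg Subtype.val ht).symm⟩
  obtain ⟨l0', hl0', hl00', hl0g'⟩ : ∃ l0 ∈ L', l0 ≠ 0 ∧ ∀ l ∈ L', ∃ t : F, l = t • l0 := by
    have h1 : finrank F L' = 1 := by omega
    obtain ⟨⟨l0, hl0⟩, h2, h3⟩ := finrank_eq_one_iff'.1 h1
    refine ⟨l0, hl0, fun h => h2 (Subtype.ext h), fun l hl => ?_⟩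
    obtain ⟨t, ht⟩ := h3 ⟨l, hl⟩
    exact ⟨t, (congrArg Subtype.val ht).symm⟩
  -- the element `a'`
  obtain ⟨a', ha', haW', ha'0⟩ := SM.exists_skew S hW4' l0' 0
  have ha'1 : a' ≠ 0 := by
    have := ha'0 0
    simpa using this
  obtain ⟨d', hd'⟩ : ∃ d' : K, g ((a' * l0') • v') = d' • v := (hmem'' _).1 ((hW' _).1 haW')
  obtain ⟨a, ha, haW, ha0⟩ := SM.exists_skew S hW4 l0 (d' * l0⁻¹)
  obtain ⟨m, hm, hmz⟩ := S.kt hv ha
  obtain ⟨k', hk', hkz⟩ := S.kt hv' ha'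
  -- the nilpotent maps
  let A : V →ₗ[F] V := (m : V →ₗ[F] V) - LinearMap.id
  let m' : V ≃ₗ[F] V := g * k' * g⁻¹
  have hm' : m' ∈ M := mul_mem (mul_mem hg hk') (inv_mem hg)
  let B : V →ₗ[F] V := (m' : V →ₗ[F] V) - LinearMap.id
  have hA : ∀ z, A z = (a * C z v) • v := by
    intro z
    show m z - z = _
    rw [hmz, add_sub_cancel_left]
  have hB : ∀ z, B z = g ((a' * C (g⁻¹ z) v') • v') := by
    intro z
    show g (k' (g⁻¹ z)) - z = _
    rw [hkz, map_add, hgg, add_sub_cancel_left]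
  have hmA : ∀ z, m z = z + A z := by
    intro z; rw [hmz, hA]
  have hmB : ∀ z, m' z = z + B z := by
    intro z
    show m' z = z + (m' z - z)
    abel
  have hCv : ∀ x : K, C (x • v) v = 0 := fun x => by rw [HC.smul_left, hv, mul_zero]
  have hCv' : ∀ x : K, C (x • v') v' = 0 := fun x => by rw [HC.smul_left, hv', mul_zero]
  have hAK : ∀ x : K, A (x • v) = 0 := fun x => by rw [hA, hCv, mul_zero, zero_smul]
  have hBU : ∀ y : K, B (g (y • v')) = 0 := fun y => by rw [hB, hgg', hCv', mul_zero, zero_smul, map_zero]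
  -- `A` on `U'`
  have hAU : ∀ y : K, ∃ t : F, A (g (y • v')) = (t • (a * l0)) • v := by
    intro y
    have h1 : C (g (y • v')) v ∈ L := (hL _).2 ⟨g (y • v'), (hmem' _).2 ⟨y, rfl⟩, rfl⟩
    obtain ⟨t, ht⟩ := hl0g _ h1
    exact ⟨t, by rw [hA, ht, mul_smul_comm]⟩
  have hAU' : ∀ y : K, ∃ y' : K, A (g (y • v')) = g (y' • v') := by
    intro y
    obtain ⟨t, ht⟩ := hAU y
    have h1 : t • (a * l0) ∈ W := W.smul_mem t haW
    have h2 := (hW _).1 h1
    obtain ⟨y', hy'⟩ := (hmem' _).1 h2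
    exact ⟨y', ht.trans hy'⟩
  -- `B` on `K v`
  have hBK : ∀ x : K, ∃ t : F, B (x • v) = (t • d') • v := by
    intro x
    have h1 : C (g⁻¹ (x • v)) v' ∈ L' := (hL' _).2 ⟨g⁻¹ (x • v), (hmem'' _).2 ⟨x, hgg _⟩, rfl⟩
    obtain ⟨t, ht⟩ := hl0g' _ h1
    refine ⟨t, ?_⟩
    rw [hB, ht, mul_smul_comm, smul_assoc, map_smul, hd', smul_assoc]
  -- triple products
  have hAA : ∀ z, A (A z) = 0 := fun z => by rw [hA z, hAK]
  have hBB : ∀ z, B (B z) = 0 := fun z => by rw [hB z, hBU]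
  have hABA : ∀ z, A (B (A z)) = 0 := fun z => by
    rw [hA z]
    obtain ⟨t, ht⟩ := hBK (a * C z v)
    rw [ht, hAK]
  have hBAB : ∀ z, B (A (B z)) = 0 := fun z => by
    rw [hB z]
    obtain ⟨t, ht⟩ := hAU' (a' * C (g⁻¹ z) v')
    rw [ht, hBU]
  -- the commutator
  let n : V ≃ₗ[F] V := m * m' * (m' * m)⁻¹
  have hn : n ∈ M := mul_mem (mul_mem hm hm') (inv_mem (mul_mem hm' hm))
  let N : V →ₗ[F] V := A ∘ₗ B - B ∘ₗ A
  have hN : ∀ z, N z = A (B z) - B (A z) := fun z => rfl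
  have hnz : ∀ z, n z = z + N z := by
    intro z
    obtain ⟨y, rfl⟩ : ∃ y, m' (m y) = z := ⟨m⁻¹ (m'⁻¹ z), by
      have : (m' * (m * m⁻¹) * m'⁻¹) z = z := by
        rw [mul_inv_cancel, mul_one, mul_inv_cancel]; rfl
      exact this⟩
    have h1 : n (m' (m y)) = m (m' y) := by
      have : (n * (m' * m)) y = (m * m') y := by
        show (m * m' * (m' * m)⁻¹ * (m' * m)) y = (m * m') y
        rw [inv_mul_cancel_right]
      exact this
    rw [h1, hN, hmA, hmB, hmB, hmA]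
    simp only [map_add, hAA, hBB, hABA, hBAB, map_zero, add_zero, zero_add]
    abel
  -- `N` kills `K v`, has image in `K v`
  have hNK : ∀ x : K, N (x • v) = 0 := by
    intro x
    rw [hN, hAK, map_zero, sub_zero]
    obtain ⟨t, ht⟩ := hBK x
    rw [ht, hAK]
  obtain ⟨f, hf, hfv⟩ := S.exists_hyp hv0 hv
  have hvf : C v f = 1 := by rw [HC.herm, hfv, map_one]
  have hCf : ∀ x : K, C (x • v) f = x := fun x => by rw [HC.smul_left, hvf, mul_one]
  have hsF : ∀ (t : F) (x y : V), C (t • x) y = t • C x y := by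
    intro t x y
    rw [← algebraMap_smul K t x, HC.smul_left, Algebra.smul_def]
  have hform : ∀ z, ∃ s t : F, N z = (s • (a * l0) - t • d') • v := by
    intro z
    obtain ⟨s, hs⟩ := hAU (a' * C (g⁻¹ z) v')
    rw [← hB] at hs
    obtain ⟨t, ht⟩ := hBK (a * C z v)
    rw [← hA] at ht
    exact ⟨s, t, by rw [hN, hs, ht, sub_smul]⟩
  let H : K →ₗ[F] K :=
    { toFun := fun s => C (N (s • f)) f
      map_add' := fun s t => by rw [add_smul, map_add, HC.add_left]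
      map_smul' := fun t s => by rw [smul_assoc, map_smul, hsF]; rfl }
  have hH : ∀ s, H s = C (N (s • f)) f := fun s => rfl
  have hHN : ∀ z, H (C z v) • v = N z := by
    intro z
    have h1 : N z = N (C z v • f) := by
      conv_lhs => rw [S.coord hv hf hfv z]
      rw [map_add, hNK, zero_add]
    obtain ⟨s, t, hst⟩ := hform (C z v • f)
    rw [hH, h1, hst, hCf]
  refine ⟨H, ?_, ?_, n, hn, fun z => by rw [hnz, hHN]⟩
  · -- nonzero
    intro hH0
    have hN0 : ∀ z, N z = 0 := by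
      intro z
      rw [← hHN, hH0, LinearMap.zero_apply, zero_smul]
    obtain ⟨u, hu, hul⟩ := (hL l0).1 hl0
    obtain ⟨y, rfl⟩ := (hmem' u).1 hu
    obtain ⟨f', hf', hfv'⟩ := S.exists_hyp hv'0 hv'
    set z := g ((a'⁻¹ * y) • f') with hz
    have hBz : B z = g (y • v') := by
      rw [hB, hz, hgg', HC.smul_left, hfv', mul_one, mul_inv_cancel_left₀ ha'1]
    have h1 := hN0 z
    rw [hN, hBz, hA (g (y • v')), hul, hA z] at h1
    obtain ⟨t, ht⟩ := hBK (a * C z v)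
    rw [ht, ← sub_smul, smul_eq_zero] at h1
    rcases h1 with h1 | h1
    · apply ha0 t
      rw [sub_eq_zero] at h1
      rw [← smul_mul_assoc, ← h1, mul_inv_cancel_right₀ hl00]
    · exact hv0 h1
  · -- rank
    have h1 : LinearMap.range H ≤ Submodule.span F {a * l0, d'} := by
      rintro _ ⟨s, rfl⟩
      obtain ⟨r, t, hrt⟩ := hform (s • f)
      rw [hH, hrt, hCf, Submodule.mem_span_pair]
      exact ⟨r, -t, by rw [neg_smul, sub_eq_add_neg]⟩
    refine (Submodule.finrank_mono h1).trans ?_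
    have h2 := finrank_span_le_card (R := F) ({a * l0, d'} : Set K)
    refine h2.trans ?_
    rw [Set.toFinset_insert, Set.toFinset_singleton]
    exact Finset.card_le_two

end Cfsg.Agent.Lib.FV46
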