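import Mathlib
import Cfsg.Agent.Lib.FV1H46

set_option autoImplicit false
set_option linter.unusedSectionVars false
set_option linter.unusedSimpArgs false
set_option linter.unusedVariables false
set_option maxHeartbeats 1000000

/-! S5840, piece SPR (helper2): members are `K`-lines if the members form a partial spread. -/

namespace Cfsg.Agent.Lib.FV46

open Module Cfsg.Agent.Lib.UnTrans Cfsg.Agent.Lib.UnMax Cfsg.Agent.Lib.ExtFldH94 Cfsg.Agent.Lib.FldUH94
open Cfsg.Agent.Lib.SpTrans (isom mem_isom)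

variable {F K V : Type*} [Field F] [Field K] [Algebra F K] [AddCommGroup V] [Module F V] [Module K V]
  [IsScalarTower F K V] [FiniteDimensional F K] [FiniteDimensional K V] [FiniteDimensional F V]
  {σ : F →+* F} {τ : K →+* K} {h : V → V → F} {C : V → V → K} {Hh : HS σ h} {HC : HS τ C} {b : Dual F K}
  {M : Subgroup (V ≃ₗ[F] V)}

namespace SPR

theorem exists_G (S : FV Hh HC b M) {e f : V} (he : C e e = 0) (hf : C f f = 0) (hfe : C f e = 1) {l c : K}
    (hl0 : l ≠ 0) (hl : τ l = l) (hc : c + τ c = 0) :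
    ∃ g ∈ M, ∀ z, g z = (l * C z f + c * C z e) • e + (l⁻¹ * C z e) • f := by
  have hef : C e f = 1 := by rw [HC.herm, hfe, map_one]
  have hli0 : l⁻¹ ≠ 0 := inv_ne_zero hl0
  -- coordinates of combinations
  have c1 : ∀ x y : K, C (x • e + y • f) f = x := fun x y => by
    rw [HC.add_left, HC.smul_left, HC.smul_left, hef, hf, mul_one, mul_zero, add_zero]
  have c2 : ∀ x y : K, C (x • e + y • f) e = y := fun x y => by
    rw [HC.add_left, HC.smul_left, HC.smul_left, he, hfe, mul_one, mul_zero, zero_add]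
  have c3 : ∀ x y x' y' : K, C (x • e + y • f) (x' • e + y' • f) = x * τ y' + y * τ x' := fun x y x' y' => by
    rw [HC.add_right, HC.smul_right, HC.smul_right, c1, c2]; ring
  let g : V ≃ₗ[K] V :=
    { toFun := fun z => (l * C z f + c * C z e) • e + (l⁻¹ * C z e) • f
      map_add' := by
        intro x y
        rw [HC.add_left, HC.add_left]
        module
      map_smul' := by
        intro a x
        rw [HC.smul_left, HC.smul_left, RingHom.id_apply]
        module
      invFun := fun z => (l⁻¹ * C z f + (-c) * C z e) • e + (l * C z e) • f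
      left_inv := by
        intro z
        simp only [c1, c2]
        have h1 : l⁻¹ * (l * C z f + c * C z e) + -c * (l⁻¹ * C z e) = C z f := by
          field_simp; ring
        have h2 : l * (l⁻¹ * C z e) = C z e := by rw [← mul_assoc, mul_inv_cancel₀ hl0, one_mul]
        rw [h1, h2]
        exact (S.coord he hf hfe z).symm
      right_inv := by
        intro z
        simp only [c1, c2]
        have h1 : l * (l⁻¹ * C z f + -c * C z e) + c * (l * C z e) = C z f := by
          field_simp; ring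
        have h2 : l⁻¹ * (l * C z e) = C z e := by rw [← mul_assoc, inv_mul_cancel₀ hl0, one_mul]
        rw [h1, h2]
        exact (S.coord he hf hfe z).symm }
  have hg : ∀ z, g z = (l * C z f + c * C z e) • e + (l⁻¹ * C z e) • f := fun z => rfl
  have hτli : τ l⁻¹ = l⁻¹ := by rw [map_inv₀, hl]
  refine ⟨g.restrictScalars F, S.hN g ?_ ?_, fun z => hg z⟩
  · intro x y
    rw [hg, hg, c3]
    conv_rhs => rw [S.coord he hf hfe x, S.coord he hf hfe y, c3]
    rw [map_mul, map_add, map_mul, map_mul, hτli, hl]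
    have hτc : τ c = -c := by linear_combination hc
    rw [hτc]
    field_simp
    ring
  · have hli : LinearIndependent K ![e, f] := by
      rw [LinearIndependent.pair_iff]
      intro s t hst
      have hzl : ∀ y, C 0 y = 0 := fun y => by
        have := HC.smul_left 0 (0 : V) y
        rwa [zero_smul, zero_mul] at this
      have h1 := c1 s t
      have h2 := c2 s t
      rw [hst, hzl] at h1 h2
      exact ⟨h1.symm, h2.symm⟩
    let B : Basis (Fin 2) K V := basisOfLinearIndependentOfCardEqFinrank hli (by rw [S.hk]; rfl)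
    have hB0 : B 0 = e := by simp [B]
    have hB1 : B 1 = f := by simp [B]
    have hM : (g : V →ₗ[K] V) = Matrix.toLin B B !![l, c; 0, l⁻¹] := by
      apply B.ext
      intro j
      rw [Matrix.toLin_self, Fin.sum_univ_two, hB0, hB1]
      fin_cases j
      · show g (B 0) = _
        rw [hB0, hg, hef, he]
        simp
      · show g (B 1) = _
        rw [hB1, hg, hf, hfe]
        simp
    rw [hM, LinearMap.det_toLin, Matrix.det_fin_two_of, mul_zero, sub_zero, mul_inv_cancel₀ hl0, map_one]

end SPR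

open SPR

theorem spread_lines [Finite K] (S : FV Hh HC b M)
    (hst : ∀ {e f : V}, e ≠ 0 → C e e = 0 → C f f = 0 → C f e = 1 → ∀ {T : Submodule F V}, Mem C M T →
      (∀ v, v ≠ 0 → C v v = 0 → T ≠ Ln K v) → ∀ {l c : K}, l ≠ 0 → τ l = l → c + τ c = 0 → ∀ {g : V ≃ₗ[F] V},
      (∀ z, g z = (l * C z f + c * C z e) • e + (l⁻¹ * C z e) • f) → T.map (g : V →ₗ[F] V) = T → c = 0 ∧ l * l = 1)
    (hcnt : ∃ q : ℕ, 2 ≤ q ∧ Nat.card F = q ^ 2 ∧
      Nat.card {a : K // τ a = a} = q ^ 5 ∧ Nat.card {a : K // a + τ a = 0} = q ^ 5 ∧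
      Nat.card {z : V // z ≠ 0 ∧ h z z = 0} = (q ^ 10 - 1) * (q ^ 9 + 1))
    (hsp : ∀ U U' : Submodule F V, Mem C M U → Mem C M U' → U ≠ U' → U ⊓ U' = ⊥) {U : Submodule F V}
    (hU : Mem C M U) : ∃ v, v ≠ 0 ∧ C v v = 0 ∧ U = Ln K v := by
  by_contra hcon
  have hTn : ∀ v, v ≠ 0 → C v v = 0 → U ≠ Ln K v := fun v hv0 hv hUv => hcon ⟨v, hv0, hv, hUv⟩
  obtain ⟨q, hq2, hqF, hqK, hqs, hqi⟩ := hcnt
  obtain ⟨m0, -, e, he0, he, -⟩ := id hU
  obtain ⟨f, hf, hfe⟩ := S.exists_hyp he0 he
  have hef : C e f = 1 := by rw [HC.herm, hfe, map_one]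
  haveI : Finite V := Module.finite_of_finite K
  haveI : Finite F := Finite.of_injective (algebraMap F K) (algebraMap F K).injective
  classical
  let A := {l : K // l ≠ 0 ∧ τ l = l}
  let D := {c : K // c + τ c = 0}
  let R := {t : V // t ∈ U ∧ t ≠ 0}
  let I := {z : V // z ≠ 0 ∧ h z z = 0}
  have hG : ∀ (l : A) (c : D), ∃ g ∈ M, ∀ z, g z = (l.1 * C z f + c.1 * C z e) • e + (l.1⁻¹ * C z e) • f :=
    fun l c => exists_G S he hf hfe l.2.1 l.2.2 c.2
  choose G hGM hGz using hG
  let Ψ : A × D × R → I := fun p => ⟨G p.1 p.2.1 p.2.2.1, by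
    refine ⟨fun h0 => p.2.2.2.2 ?_, ?_⟩
    · exact (map_eq_zero_iff _ (G p.1 p.2.1).injective).1 h0
    · exact S.ts (hU.map (hGM p.1 p.2.1)) (Submodule.mem_map_of_mem p.2.2.2.1) (Submodule.mem_map_of_mem p.2.2.2.1)⟩
  have claim : ∀ p p' : A × D × R, Ψ p = Ψ p' → (p.1.1 = p'.1.1 ∨ p.1.1 = - p'.1.1) ∧ (p.1 = p'.1 → p = p') := by
    rintro ⟨l, c, t⟩ ⟨l', c', t'⟩ hpp
    have hz : G l c t.1 = G l' c' t'.1 := congrArg Subtype.val hpp
    have hmap : U.map (G l c : V →ₗ[F] V) = U.map (G l' c' : V →ₗ[F] V) := by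
      by_contra hne
      have h1 := hsp _ _ (hU.map (hGM l c)) (hU.map (hGM l' c')) hne
      have h2 : G l c t.1 ∈ U.map (G l c : V →ₗ[F] V) ⊓ U.map (G l' c' : V →ₗ[F] V) := by
        refine ⟨Submodule.mem_map_of_mem t.2.1, ?_⟩
        rw [hz]
        exact Submodule.mem_map_of_mem t'.2.1
      rw [h1, Submodule.mem_bot] at h2
      exact t.2.2 ((map_eq_zero_iff _ (G l c).injective).1 h2)
    have hl0 := l.2.1
    have hl0' := l'.2.1
    have c1 : ∀ x y : K, C (x • e + y • f) f = x := fun x y => by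
      rw [HC.add_left, HC.smul_left, HC.smul_left, hef, hf, mul_one, mul_zero, add_zero]
    have c2 : ∀ x y : K, C (x • e + y • f) e = y := fun x y => by
      rw [HC.add_left, HC.smul_left, HC.smul_left, he, hfe, mul_one, mul_zero, zero_add]
    -- the quotient
    set g : V ≃ₗ[F] V := (G l c).trans (G l' c').symm with hg
    have hgz : ∀ z, g z = ((l'.1⁻¹ * l.1) * C z f + (l'.1⁻¹ * c.1 - c'.1 * l.1⁻¹) * C z e) • e +
        ((l'.1⁻¹ * l.1)⁻¹ * C z e) • f := by
      intro z
      rw [hg, LinearEquiv.trans_apply, LinearEquiv.symm_apply_eq, hGz l' c', c1, c2, hGz l c]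
      congr 2
      · field_simp; ring
      · field_simp
    have hgU : U.map (g : V →ₗ[F] V) = U := by
      apply le_antisymm
      · rintro _ ⟨u, hu, rfl⟩
        have h1 : G l c u ∈ U.map (G l' c' : V →ₗ[F] V) := by
          rw [← hmap]; exact Submodule.mem_map_of_mem hu
        obtain ⟨u', hu', h2⟩ := h1
        have h3 : g u = u' := by
          rw [hg, LinearEquiv.trans_apply, LinearEquiv.symm_apply_eq]
          exact h2.symm
        show g u ∈ U
        rw [h3]; exact hu'
      · intro u hu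
        have h1 : G l' c' u ∈ U.map (G l c : V →ₗ[F] V) := by
          rw [hmap]; exact Submodule.mem_map_of_mem hu
        obtain ⟨u', hu', h2⟩ := h1
        refine ⟨u', hu', ?_⟩
        show g u' = u
        rw [hg, LinearEquiv.trans_apply, LinearEquiv.symm_apply_eq]
        exact h2
    have hτl := l.2.2
    have hτl' := l'.2.2
    have hτc : τ c.1 = - c.1 := by linear_combination c.2
    have hτc' : τ c'.1 = - c'.1 := by linear_combination c'.2
    have hkey := hst he0 he hf hfe hU hTn (l := l'.1⁻¹ * l.1) (c := l'.1⁻¹ * c.1 - c'.1 * l.1⁻¹)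
      (mul_ne_zero (inv_ne_zero hl0') hl0) (by rw [map_mul, map_inv₀, hτl, hτl'])
      (by rw [map_sub, map_mul, map_mul, map_inv₀, map_inv₀, hτl, hτl', hτc, hτc']; ring) hgz hgU
    refine ⟨?_, ?_⟩
    · show l.1 = l'.1 ∨ l.1 = - l'.1
      have h1 : l.1 * l.1 = l'.1 * l'.1 := by
        have h2 := hkey.2
        have h3 : (l'.1 * l'.1) * (l'.1⁻¹ * l.1 * (l'.1⁻¹ * l.1)) = l'.1 * l'.1 := by rw [h2, mul_one]
        rw [← h3]; field_simp
      exact mul_self_eq_mul_self_iff.1 h1
    · intro hll
      have hll' : l = l' := hll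
      subst hll'
      have h1 : c.1 = c'.1 := by
        have h2 := hkey.1
        have h3 : l.1 * (l.1⁻¹ * c.1 - c'.1 * l.1⁻¹) = c.1 - c'.1 := by field_simp
        rw [h2, mul_zero] at h3
        exact (sub_eq_zero.1 h3.symm)
      have h2 : c = c' := Subtype.ext h1
      subst h2
      have h3 : t = t' := Subtype.ext ((G l c).injective hz)
      rw [h3]
  haveI : Fintype A := Fintype.ofFinite A
  haveI : Fintype D := Fintype.ofFinite D
  haveI : Fintype R := Fintype.ofFinite R
  haveI : Fintype I := Fintype.ofFinite I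
  have count : ∀ N : ℕ, (∀ l : K, ({l, -l} : Finset K).card ≤ N) → Nat.card A * (Nat.card D * Nat.card R) ≤ N * Nat.card I := by
    intro N hN
    have h1 := Finset.card_le_mul_card_image_of_maps_to (s := (Finset.univ : Finset (A × D × R))) (t := (Finset.univ : Finset I))
      (f := Ψ) (fun _ _ => Finset.mem_univ _) N (by
        intro z _
        by_cases hz : ∃ p0, Ψ p0 = z
        · obtain ⟨p0, hp0⟩ := hz
          refine le_trans (Finset.card_le_card_of_injOn (t := ({p0.1.1, -p0.1.1} : Finset K)) (fun p => p.1.1) ?_ ?_) (hN p0.1.1)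
          · intro p hp
            have hp' : Ψ p = z := (Finset.mem_filter.1 hp).2
            have := (claim p p0 (by rw [hp', hp0])).1
            rw [Finset.mem_coe, Finset.mem_insert, Finset.mem_singleton]
            exact this
          · intro p hp p' hp' hpp'
            have h1 : Ψ p = z := (Finset.mem_filter.1 hp).2
            have h2 : Ψ p' = z := (Finset.mem_filter.1 hp').2
            exact (claim p p' (by rw [h1, h2])).2 (Subtype.ext hpp')
        · have : Finset.filter (fun p => Ψ p = z) Finset.univ = ∅ := by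
            rw [Finset.filter_eq_empty_iff]
            intro p _ hp
            exact hz ⟨p, hp⟩
          rw [this, Finset.card_empty]
          exact Nat.zero_le _)
    rw [Finset.card_univ, Finset.card_univ, Fintype.card_prod, Fintype.card_prod] at h1
    rw [Nat.card_eq_fintype_card, Nat.card_eq_fintype_card, Nat.card_eq_fintype_card, Nat.card_eq_fintype_card]
    exact h1
  have hA : Nat.card A = q ^ 5 - 1 := by
    have h1 : Nat.card {a : K // τ a = a} = Nat.card A + 1 := by
      have e1 : {a : K // τ a = a} ≃ Option A :=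
        { toFun := fun a => if h0 : a.1 = 0 then none else some ⟨a.1, h0, a.2⟩
          invFun := fun o => match o with
            | none => ⟨0, map_zero τ⟩
            | some a => ⟨a.1, a.2.2⟩
          left_inv := by
            rintro ⟨a, ha⟩
            by_cases h0 : a = 0
            · subst h0; simp
            · simp [h0]
          right_inv := by
            intro o
            rcases o with _ | ⟨a, ha0, ha⟩
            · simp
            · simp [ha0] }
      rw [Nat.card_congr e1, Finite.card_option]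
    rw [hqK] at h1
    omega
  have hR : Nat.card R = q ^ 10 - 1 := by
    have h1 : Nat.card U = Nat.card R + 1 := by
      have e1 : U ≃ Option R :=
        { toFun := fun a => if h0 : a.1 = 0 then none else some ⟨a.1, a.2, h0⟩
          invFun := fun o => match o with
            | none => ⟨0, U.zero_mem⟩
            | some a => ⟨a.1, a.2.1⟩
          left_inv := by
            rintro ⟨a, ha⟩
            by_cases h0 : a = 0
            · subst h0; simp
            · simp [h0]
          right_inv := by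
            intro o
            rcases o with _ | ⟨a, ha, ha0⟩
            · simp
            · simp [ha0] }
      rw [Nat.card_congr e1, Finite.card_option]
    have h2 : Nat.card U = q ^ 10 := by
      rw [Module.natCard_eq_pow_finrank (K := F), hqF, hU.finrank_eq, S.hr, ← pow_mul]
    omega
  have hq10 : 0 < q ^ 10 - 1 := by
    have : 2 ^ 10 ≤ q ^ 10 := Nat.pow_le_pow_left hq2 10
    omega
  have hq5 : 1 ≤ q ^ 5 := Nat.one_le_pow _ _ (by omega)
  have fin : ∀ N : ℕ, (∀ l : K, ({l, -l} : Finset K).card ≤ N) → (q ^ 5 - 1) * q ^ 5 ≤ N * (q ^ 9 + 1) := by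
    intro N hN
    have h1 := count N hN
    have hD : Nat.card D = q ^ 5 := hqs
    have hI : Nat.card I = (q ^ 10 - 1) * (q ^ 9 + 1) := hqi
    rw [hA, hD, hR, hI] at h1
    have h2 : (q ^ 10 - 1) * ((q ^ 5 - 1) * q ^ 5) ≤ (q ^ 10 - 1) * (N * (q ^ 9 + 1)) := by
      calc (q ^ 10 - 1) * ((q ^ 5 - 1) * q ^ 5) = (q ^ 5 - 1) * (q ^ 5 * (q ^ 10 - 1)) := by ring
        _ ≤ N * ((q ^ 10 - 1) * (q ^ 9 + 1)) := h1
        _ = _ := by ring
    exact Nat.le_of_mul_le_mul_left h2 hq10
  by_cases hch : (-1 : K) = 1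
  · have h1 := fin 1 (by
      intro l
      have : -l = l := by rw [← neg_one_mul, hch, one_mul]
      rw [this]; simp)
    obtain ⟨k, rfl⟩ : ∃ k, q = k + 2 := ⟨q - 2, by omega⟩
    have h2 : (k + 2) ^ 5 - 1 + 1 = (k + 2) ^ 5 := Nat.sub_add_cancel hq5
    have h3 : ((k + 2) ^ 5 - 1) * (k + 2) ^ 5 + (k + 2) ^ 5 = (k + 2) ^ 10 := by
      calc ((k + 2) ^ 5 - 1) * (k + 2) ^ 5 + (k + 2) ^ 5 = ((k + 2) ^ 5 - 1 + 1) * (k + 2) ^ 5 := by ring
        _ = _ := by rw [h2]; ring
    have h4 : (k + 2) ^ 10 ≤ (k + 2) ^ 9 + 1 + (k + 2) ^ 5 := by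
      rw [← h3]; omega
    have h5 : (k + 2) ^ 10 = (k + 2) * (k + 2) ^ 9 := by ring
    have h6 : 2 ^ 4 * (k + 2) ^ 5 ≤ (k + 2) ^ 9 := by
      calc 2 ^ 4 * (k + 2) ^ 5 ≤ (k + 2) ^ 4 * (k + 2) ^ 5 := Nat.mul_le_mul_right _ (Nat.pow_le_pow_left hq2 4)
        _ = _ := by ring
    have h7 : 2 * (k + 2) ^ 9 ≤ (k + 2) * (k + 2) ^ 9 := Nat.mul_le_mul_right _ hq2
    omega
  · have hq3 : 3 ≤ q := by
      by_contra hlt
      have hq : q = 2 := by omega
      subst hq
      apply hch
      haveI : Fintype F := Fintype.ofFinite F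
      have h4 : Fintype.card F = 4 := by rw [← Nat.card_eq_fintype_card, hqF]; norm_num
      have h5 : ((4 : ℕ) : F) = 0 := by rw [← h4]; exact Nat.cast_card_eq_zero F
      have h6 : (2 : F) = 0 := by
        have : (2 : F) * 2 = 0 := by
          have e : ((4 : ℕ) : F) = 2 * 2 := by norm_num
          rw [← e, h5]
        exact mul_self_eq_zero.1 this
      have h7 : (2 : K) = 0 := by
        have := congrArg (algebraMap F K) h6
        rwa [map_ofNat, map_zero] at this
      linear_combination -h7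
    have h1 := fin 2 (fun l => Finset.card_le_two)
    have h2 : q ^ 5 - 1 + 1 = q ^ 5 := Nat.sub_add_cancel hq5
    have h3 : (q ^ 5 - 1) * q ^ 5 + q ^ 5 = q ^ 10 := by
      calc (q ^ 5 - 1) * q ^ 5 + q ^ 5 = (q ^ 5 - 1 + 1) * q ^ 5 := by ring
        _ = _ := by rw [h2]; ring
    have h4 : q ^ 10 ≤ 2 * (q ^ 9 + 1) + q ^ 5 := by
      rw [← h3]; omega
    have h5 : q ^ 10 = q * q ^ 9 := by ring
    have h6 : 3 ^ 4 * q ^ 5 ≤ q ^ 9 := by
      calc 3 ^ 4 * q ^ 5 ≤ q ^ 4 * q ^ 5 := Nat.mul_le_mul_right _ (Nat.pow_le_pow_left hq3 4)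
        _ = _ := by ring
    have h7 : 3 * q ^ 9 ≤ q * q ^ 9 := Nat.mul_le_mul_right _ hq3
    omega

end Cfsg.Agent.Lib.FV46
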