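import Mathlib
import Cfsg.Agent.Lib.FV1H46

set_option autoImplicit false
set_option linter.unusedSectionVars false
set_option linter.unusedSimpArgs false
set_option linter.unusedVariables false

/-! Stabilisers of members of a spread (S5840, piece ST, helper73) -/

namespace Cfsg.Agent.Lib.FV46

open Module Cfsg.Agent.Lib.UnTrans Cfsg.Agent.Lib.UnMax Cfsg.Agent.Lib.ExtFldH94 Cfsg.Agent.Lib.FldUH94
open Cfsg.Agent.Lib.SpTrans (isom mem_isom)

namespace ST

/-- in degree 5 an element conjugate to its inverse is `±1` -/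
theorem gal5 {F K : Type*} [Field F] [Field K] [Algebra F K] [FiniteDimensional F K] [Finite K]
    (hr : finrank F K = 5) {l : K} (hl0 : l ≠ 0) (hm : Polynomial.aeval l⁻¹ (minpoly F l) = 0) : l * l = 1 := by
  have : Finite F := Finite.of_injective (algebraMap F K) (algebraMap F K).injective
  have hint : IsIntegral F l := Algebra.IsIntegral.isIntegral l
  have h1 : minpoly F l = minpoly F l⁻¹ :=
    minpoly.eq_of_irreducible_of_monic (minpoly.irreducible hint) hm (minpoly.monic hint)
  have h2 : IsConjRoot F l l⁻¹ := h1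
  have hgal : IsGalois F K := inferInstance
  obtain ⟨φ, hφ⟩ := isConjRoot_iff_exists_algEquiv.1 h2
  have hc : Nat.card (K ≃ₐ[F] K) = 5 := by rw [IsGalois.card_aut_eq_finrank, hr]
  have h5 : φ ^ 5 = 1 := by rw [← hc]; exact pow_card_eq_one'
  have e3 : φ l⁻¹ = l := hφ
  have e2 : φ l = l⁻¹ := by
    rw [map_inv₀] at hφ
    rw [← hφ, inv_inv, hφ]
  have h6 : (φ ^ 5) l = l⁻¹ := by
    show φ (φ (φ (φ (φ l)))) = l⁻¹
    rw [e2, e3, e2, e3, e2]
  rw [h5] at h6
  have h7 : l = l⁻¹ := h6
  nth_rewrite 2 [h7]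
  exact mul_inv_cancel₀ hl0

end ST

variable {F K V : Type*} [Field F] [Field K] [Algebra F K] [AddCommGroup V] [Module F V] [Module K V]
  [IsScalarTower F K V] [FiniteDimensional F K] [FiniteDimensional K V] [FiniteDimensional F V]
  {σ : F →+* F} {τ : K →+* K} {h : V → V → F} {C : V → V → K} {Hh : HS σ h} {HC : HS τ C} {b : Dual F K}
  {M : Subgroup (V ≃ₗ[F] V)}

include HC in
/-- polynomials in an element acting diagonally -/
theorem ST.poly {e f : V} {T : Submodule F V} {l l' : K} {g : V →ₗ[F] V} (hgT : ∀ z ∈ T, g z ∈ T)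
    (h1 : ∀ z, C (g z) f = l * C z f) (h2 : ∀ z, C (g z) e = l' * C z e) (P : Polynomial F) :
    ∀ z ∈ T, Polynomial.aeval g P z ∈ T ∧ C (Polynomial.aeval g P z) f = Polynomial.aeval l P * C z f ∧
      C (Polynomial.aeval g P z) e = Polynomial.aeval l' P * C z e := by
  have hs : ∀ (a : F) (x y : V), C (a • x) y = algebraMap F K a * C x y := by
    intro a x y
    rw [← algebraMap_smul K a x, HC.smul_left]
  induction P using Polynomial.induction_on' with
  | add P Q hP hQ =>
    intro z hz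
    obtain ⟨p1, p2, p3⟩ := hP z hz
    obtain ⟨q1, q2, q3⟩ := hQ z hz
    simp only [map_add, LinearMap.add_apply, HC.add_left]
    exact ⟨T.add_mem p1 q1, by rw [p2, q2]; ring, by rw [p3, q3]; ring⟩
  | monomial n a =>
    induction n with
    | zero =>
      intro z hz
      simp only [Polynomial.monomial_zero_left, Polynomial.aeval_C, Module.algebraMap_end_apply]
      exact ⟨T.smul_mem a hz, hs a z f, hs a z e⟩
    | succ n ih =>
      intro z hz
      obtain ⟨p1, p2, p3⟩ := ih (g z) (hgT z hz)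
      rw [h1] at p2
      rw [h2] at p3
      have e1 : Polynomial.aeval g (Polynomial.monomial (n + 1) a) z = Polynomial.aeval g (Polynomial.monomial n a) (g z) := by
        rw [← Polynomial.monomial_mul_X, map_mul, Polynomial.aeval_X]
        rfl
      rw [e1]
      refine ⟨p1, ?_, ?_⟩
      · rw [p2, ← Polynomial.monomial_mul_X, map_mul, Polynomial.aeval_X]; ring
      · rw [p3, ← Polynomial.monomial_mul_X, map_mul, Polynomial.aeval_X]; ring

-- PIECE ST
theorem stab_pm [Finite K] (S : FV Hh HC b M)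
    (hsp : ∀ U U' : Submodule F V, Mem C M U → Mem C M U' → U ≠ U' → U ⊓ U' = ⊥) {e f : V} (he0 : e ≠ 0)
    (he : C e e = 0) (hf : C f f = 0) (hfe : C f e = 1) {T : Submodule F V} (hT : Mem C M T)
    (hTn : ∀ v, v ≠ 0 → C v v = 0 → T ≠ Ln K v) {l c : K} (hl0 : l ≠ 0) (hl : τ l = l) (hc : c + τ c = 0)
    {g : V ≃ₗ[F] V} (hg : ∀ z, g z = (l * C z f + c * C z e) • e + (l⁻¹ * C z e) • f)
    (hgT : T.map (g : V →ₗ[F] V) = T) : c = 0 ∧ l * l = 1 := by
  have hef : C e f = 1 := by rw [HC.herm, hfe, map_one]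
  have hgT' : ∀ z ∈ T, g z ∈ T := by
    intro z hz
    rw [← hgT]
    exact ⟨z, hz, rfl⟩
  have hTe : ∀ z ∈ T, ∀ v, v ≠ 0 → C v v = 0 → z ∈ (Ln K v : Submodule F V) → z = 0 := by
    intro z hz v hv0 hv hzv
    have h1 := hsp T (Ln K v) hT (mem_Ln' hv0 hv) (hTn v hv0 hv)
    have h2 : z ∈ T ⊓ Ln K v := ⟨hz, hzv⟩
    rw [h1] at h2
    exact h2
  have hTfr := hT.finrank_eq
  have hr := S.hr
  obtain ⟨z₀, hz₀, hz₀0⟩ : ∃ z ∈ T, z ≠ 0 := by
    apply Submodule.exists_mem_ne_zero_of_ne_bot
    rintro rfl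
    rw [finrank_bot] at hTfr
    omega
  have hsq : l * l = 1 := by
    by_contra hne
    have hd : l - l⁻¹ ≠ 0 := by
      intro h0
      apply hne
      have : l = l⁻¹ := sub_eq_zero.1 h0
      nth_rewrite 2 [this]
      exact mul_inv_cancel₀ hl0
    set β : K := -c / (l - l⁻¹) with hβ
    have hβc : β * (l - l⁻¹) = -c := div_mul_cancel₀ _ hd
    have hβτ : τ β = -β := by
      rw [hβ, map_div₀, map_neg, map_sub, map_inv₀, hl]
      have : τ c = -c := by linear_combination hc
      rw [this, neg_neg, neg_div, neg_neg]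
    set f' : V := f + β • e with hf'
    have hf'e : C f' e = 1 := by rw [hf', HC.add_left, HC.smul_left, he, hfe, mul_zero, add_zero]
    have hzf' : ∀ z, C z f' = C z f - β * C z e := by
      intro z
      rw [hf', HC.add_right, HC.smul_right, hβτ]; ring
    have hf'f' : C f' f' = 0 := by
      rw [hzf', hf'e, hf', HC.add_left, HC.smul_left, hf, hef]; ring
    have hf'0 : f' ≠ 0 := by
      intro h0
      rw [h0, HC.zero_left] at hf'e
      exact zero_ne_one hf'e
    have hge : ∀ z, C (g z) e = l⁻¹ * C z e := by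
      intro z
      rw [hg, HC.add_left, HC.smul_left, HC.smul_left, he, hfe]; ring
    have hgf : ∀ z, C (g z) f' = l * C z f' := by
      intro z
      rw [hzf', hge, hg, HC.add_left, HC.smul_left, HC.smul_left, hef, hf, hzf']
      linear_combination (C z e) * hβc
    obtain ⟨p1, p2, p3⟩ := ST.poly (HC := HC) (g := (g : V →ₗ[F] V)) hgT' hgf hge (minpoly F l) z₀ hz₀
    rw [minpoly.aeval, zero_mul] at p2
    have h0 : Polynomial.aeval (g : V →ₗ[F] V) (minpoly F l) z₀ = 0 := by
      apply hTe _ p1 f' hf'0 hf'f'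
      exact S.perp_line hf'0 hf'f' p2
    rw [h0, HC.zero_left] at p3
    have hz₀e : C z₀ e ≠ 0 := fun h1 => hz₀0 (hTe z₀ hz₀ e he0 he (S.perp_line he0 he h1))
    rcases mul_eq_zero.1 p3.symm with h1 | h1
    · exact hne (ST.gal5 hr hl0 h1)
    · exact hz₀e h1
  refine ⟨?_, hsq⟩
  by_contra hc0
  have hli : l⁻¹ = l := by
    rw [inv_eq_iff_eq_inv]
    exact eq_inv_of_mul_eq_one_left hsq
  have hlz : ∀ z ∈ T, l • z ∈ T := by
    intro z hz
    have h1 : (l - 1) * (l + 1) = 0 := by linear_combination hsq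
    rcases mul_eq_zero.1 h1 with h2 | h2
    · rw [sub_eq_zero.1 h2, one_smul]; exact hz
    · rw [eq_neg_of_add_eq_zero_left h2, neg_smul, one_smul]; exact T.neg_mem hz
  have hz0 : ∀ z ∈ T, C z e = 0 := by
    intro z hz
    have h1 : (c * C z e) • e = g z - l • z := by
      conv_rhs => rw [S.coord he hf hfe z]
      rw [hg, hli]
      have h3 : C (C z f • e + C z e • f) f = C z f := by rw [← S.coord he hf hfe z]
      have h4 : C (C z f • e + C z e • f) e = C z e := by rw [← S.coord he hf hfe z]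
      rw [h3, h4, smul_add, smul_smul, smul_smul, add_smul]
      abel
    have h2 : (c * C z e) • e ∈ T := by
      rw [h1]; exact T.sub_mem (hgT' z hz) (hlz z hz)
    have h3 := hTe _ h2 e he0 he (smul_mem_Ln e _)
    rcases smul_eq_zero.1 h3 with h4 | h4
    · rcases mul_eq_zero.1 h4 with h5 | h5
      · exact absurd h5 hc0
      · exact h5
    · exact absurd h4 he0
  exact hz₀0 (hTe z₀ hz₀ e he0 he (S.perp_line he0 he (hz0 z₀ hz₀)))

end Cfsg.Agent.Lib.FV46
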