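import Cfsg.Agent.Lib.Fi22CovD
import Cfsg.Agent.Lib.Fi22Ord
import Cfsg.Agent.Lib.StemDbl

/-!
The covering group `3·Fi₂₂` as a group of matrices of degree 27 over the field with four elements (helper57).
-/

set_option autoImplicit false
set_option linter.all false
set_option maxRecDepth 100000

namespace Cfsg.Agent.Lib.Fi22Cov

open Subgroup Cfsg.Spor Cfsg.Agent.Lib.H58SM Cfsg.Agent.Lib.Cov Cfsg.Agent.Lib.ProjCov Cfsg.Agent.Lib.BenesWord
open Cfsg.Agent.Lib.VecCov Cfsg.Agent.Lib.Fi22CovD Cfsg.Agent.Lib.CosetGroup Cfsg.Agent.Lib.CoxBridge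

/-- the matrix group -/
abbrev GM : Type := (Matrix (Fin 27) (Fin 27) K4.K4)ˣ

theorem hx : ∀ x y, (fc4).ad x y = Nat.xor x y := fun _ _ => rfl

theorem tab : ∀ c < 9, tabOk fc4 27 P (TB c) = true := fun c hc => alln_iff.1 tab_ok c hc

theorem d1 : (fc4).δ 1 = 1 := rfl

theorem rel_sc {l : List ℕ} (hl : ∀ c ∈ l, c < 9) (h : scOk fc4 27 P TB 1 l = true) :
    (l.map fun c => Mt fc4 27 P (TB c)).prod = 1 := by
  rw [scOk_spec hx tab d1 u1 u1 hl h, d1, map_one]

theorem sq (c : ℕ) (hc : c < 9) : Mt fc4 27 P (TB c) * Mt fc4 27 P (TB c) = 1 := by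
  have h := rel_sc (l := [c, c]) (by
    intro d hd
    rcases List.mem_cons.1 hd with rfl | hd
    · exact hc
    · rw [List.mem_singleton.1 hd]; exact hc) (alln_iff.1 sq_ok c hc)
  rw [List.map_cons, List.map_cons, List.map_nil, List.prod_cons, List.prod_cons, List.prod_nil, mul_one] at h
  exact h

theorem lets_ok : (Fi22Rel.coxW ++ Fi22Rel.extraW).all (CoxBridge.lets 9) = true := by decide +kernel

theorem lets_of {W : Wd} (h : W ∈ Fi22Rel.coxW ++ Fi22Rel.extraW) : ∀ c ∈ W.flat (fun c => c), c < 9 :=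
  letters_flat (List.all_eq_true.1 lets_ok W h)

theorem off_ok : Mt fc4 27 P (TB 3) 0 1 ≠ 0 := by decide +kernel

/-- the presented group -/
abbrev Gf : Type := CoxPresented Fi22.Gen Fi22.edges Fi22.extra

theorem card_Gf : Nat.card Gf = 64561751654400 := Fi22Ord.main.2.1

instance finGf : Finite Gf := Nat.finite_of_card_ne_zero (by rw [card_Gf]; norm_num)

theorem perfect_Gf : commutator Gf = ⊤ := by
  apply StemDbl.perfect_of_simple Fi22Ord.main.1
  intro h3
  haveI := Fi22Ord.main.1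
  letI : CommGroup Gf := { (inferInstance : Group Gf) with mul_comm := h3 }
  have h5 : (Nat.card Gf).Prime := IsSimpleGroup.prime_card
  rw [card_Gf] at h5
  revert h5
  norm_num

theorem w_ne : (fc4).δ 2 ≠ 0 := by decide +kernel
theorem w_ne1 : (fc4).δ 2 ≠ 1 := by decide +kernel
theorem w_cube : ((fc4).δ 2) ^ 3 = 1 := by decide +kernel

/-- the value of a word in units -/
theorem val_of {x : ℕ → GM} (hx9 : ∀ c < 9, (x c : Matrix (Fin 27) (Fin 27) K4.K4) = Mt fc4 27 P (TB c)) {l : List ℕ}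
    (hl : ∀ c ∈ l, c < 9) {z : ℕ} (hz : uOk fc4 27 z = true) (h : scOk fc4 27 P TB z l = true) :
    (((l.map x).prod : GM) : Matrix (Fin 27) (Fin 27) K4.K4) = Matrix.scalar (Fin 27) ((fc4).δ z) := by
  rw [VecCov.prod_val hx9 hl, scOk_spec hx tab d1 u1 hz hl h]

/-- the projective representation -/
theorem exists_phi : ∃ (x : ℕ → GM) (φ : Gf →* GM ⧸ SC K4.K4 27),
    (∀ c < 9, (x c : Matrix (Fin 27) (Fin 27) K4.K4) = Mt fc4 27 P (TB c)) ∧ (∀ c, 9 ≤ c → x c = 1) ∧
    (∀ c, x c * x c = 1) ∧ (∀ c < 9, φ (PresentedGroup.of (Fi22Rel.C.gen c)) = QuotientGroup.mk' _ (x c)) ∧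
    Function.Injective φ := by
  obtain ⟨x, hx9, hx1, hsq⟩ := VecCov.exists_units (C := fc4) (N := 27) (P := P) (TB := TB) (k := 9) sq
  have hrel : ∀ W ∈ coxWds Fi22.edges Fi22Rel.C.gen Fi22Rel.C.nn ++ Fi22Rel.C.extraW,
      ((W.flat fun c => c).map x).prod ∈ SC K4.K4 27 := by
    intro W hW
    have hW' : W ∈ Fi22Rel.coxW ++ Fi22Rel.extraW := hW
    have hl := lets_of hW'
    rcases List.mem_append.1 hW' with h | h
    · have h1 := val_of hx9 hl u1 (List.all_eq_true.1 cox_ok W h)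
      exact mem_SC.2 ⟨_, by rw [d1]; exact one_ne_zero, h1⟩
    · rw [ext_eq] at h
      rcases List.mem_cons.1 h with rfl | h
      · exact mem_SC.2 ⟨_, w_ne, val_of hx9 hl u2 sp_ok⟩
      rcases List.mem_cons.1 h with rfl | h
      · exact mem_SC.2 ⟨_, by rw [d1]; exact one_ne_zero, val_of hx9 hl u1 e71_ok⟩
      · rw [List.mem_singleton.1 h] at hl ⊢
        exact mem_SC.2 ⟨_, by rw [d1]; exact one_ne_zero, val_of hx9 hl u1 e72_ok⟩
  obtain ⟨φ, hφ⟩ := exists_proj Fi22Rel.C (S := SC K4.K4 27) (fun c => by rw [hsq c]; exact one_mem _) hrel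
  refine ⟨x, φ, hx9, hx1, hsq, hφ, ?_⟩
  rw [← MonoidHom.ker_eq_bot_iff]
  rcases Fi22Ord.main.1.eq_bot_or_eq_top_of_normal φ.ker inferInstance with h | h
  · exact h
  exfalso
  have h3 : PresentedGroup.of (Fi22Rel.C.gen 3) ∈ φ.ker := by rw [h]; trivial
  rw [MonoidHom.mem_ker, hφ 3 (by decide)] at h3
  have h4 : x 3 ∈ SC K4.K4 27 := (QuotientGroup.eq_one_iff _).1 h3
  obtain ⟨z, hz, h5⟩ := mem_SC.1 h4
  rw [hx9 3 (by norm_num)] at h5
  apply off_ok
  rw [h5, Matrix.scalar_apply, Matrix.diagonal_apply_ne _ (by decide)]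

/-- the central extension -/
theorem exists_cover : ∃ (Δ : Type) (_ : Group Δ) (_ : Finite Δ) (τ : Δ →* Gf) (y : ℕ → Δ) (f : Δ →* GM),
    Function.Surjective τ ∧ τ.ker ≤ center Δ ∧ (∀ c < 9, τ (y c) = PresentedGroup.of (Fi22Rel.C.gen c)) ∧
    (∀ c, y c * y c = 1) ∧ Function.Injective f ∧
    (∀ c < 9, (f (y c) : Matrix (Fin 27) (Fin 27) K4.K4) = Mt fc4 27 P (TB c)) ∧
    ∃ (Γ : Type) (_ : Group Γ) (_ : Finite Γ) (σ : Γ →* Gf), IsStemExtension σ ∧ 3 ∣ Nat.card σ.ker := by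
  obtain ⟨x, φ, hx9, hx1, hsq, hφ, hinj⟩ := exists_phi
  have hxm : ∀ c, x c ∈ PG φ := by
    intro c
    by_cases hc : c < 9
    · exact ⟨_, hφ c hc⟩
    · rw [hx1 c (by omega)]; exact one_mem _
  let y : ℕ → PG φ := fun c => ⟨x c, hxm c⟩
  have hy2 : ∀ c, y c * y c = 1 := fun c => Subtype.ext (hsq c)
  refine ⟨PG φ, inferInstance, inferInstance, sg φ hinj, y, (PG φ).subtype, sg_surj φ hinj, ?_, ?_, hy2,
    Subtype.coe_injective, hx9, ?_⟩
  · intro t ht
    have h1 : (t : GM) ∈ SC K4.K4 27 := (sg_eq_one φ hinj t).1 ht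
    rw [mem_center_iff]
    intro g
    exact Subtype.ext (mem_center_iff.1 (SC_center h1) (g : GM))
  · intro c hc
    apply hinj
    show φ ((MonoidHom.ofInjective hinj).symm (toR φ (y c))) = _
    have h1 : φ ((MonoidHom.ofInjective hinj).symm (toR φ (y c))) = (toR φ (y c) : GM ⧸ SC K4.K4 27) :=
      MonoidHom.apply_ofInjective_symm hinj _
    rw [h1, hφ c hc]
    rfl
  · obtain ⟨Γ, i1, i2, σ, hσ, hord⟩ := exists_stem φ hinj SC_center perfect_Gf
    refine ⟨Γ, i1, i2, σ, hσ, ?_⟩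
    have hE : ∀ s ∈ SC K4.K4 27, s ^ 3 = 1 := by
      intro s hs
      have := SC_pow (K := K4.K4) hs
      rwa [K4.card_K4] at this
    have hall : ∀ t : PG φ, t ∈ TT (PG φ) 3 := TT_all φ hinj perfect_Gf hE
    have hyc : ∀ c, y c ∈ commutator (PG φ) := by
      intro c
      have h5 : y c ∈ TT (PG φ) (Nat.gcd 2 3) := TT_gcd (TT_pow (by rw [pow_two, hy2])) (hall (y c))
      have e : Nat.gcd 2 3 = 1 := by norm_num
      rw [e] at h5
      rw [← TT_one]
      exact h5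
    let w : List ℕ := spid.flat fun c => c
    have hwl : ∀ c ∈ w, c < 9 := lets_of (W := spid) (by rw [ext_eq]; simp)
    have hval : (((w.map y).prod : PG φ) : GM) = (w.map x).prod := by
      have := map_list_prod (PG φ).subtype (w.map y)
      rw [List.map_map] at this
      exact this
    have hwv := val_of hx9 hwl u2 sp_ok
    have hzS : (((w.map y).prod : PG φ) : GM) ∈ SC K4.K4 27 := by
      rw [hval]; exact mem_SC.2 ⟨_, w_ne, hwv⟩
    have hz3 : ((w.map y).prod) ^ 3 = 1 := Subtype.ext (hE _ hzS)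
    have hne3 : (w.map y).prod ≠ 1 := by
      intro h3
      have h5 : ((w.map x).prod : GM) = 1 := by rw [← hval, h3]; rfl
      rw [h5, Units.val_one] at hwv
      have h6 := congrFun (congrFun hwv 0) 0
      rw [Matrix.scalar_apply, Matrix.diagonal_apply_eq, Matrix.one_apply_eq] at h6
      exact w_ne1 h6.symm
    have ho3 : orderOf (w.map y).prod = 3 := orderOf_eq_prime hz3 hne3
    have hc3 : (w.map y).prod ∈ commutator (PG φ) := by
      apply Subgroup.list_prod_mem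
      intro t ht
      obtain ⟨c, hc, rfl⟩ := List.mem_map.1 ht
      exact hyc c
    rw [← ho3]
    exact hord _ hzS hc3

end Cfsg.Agent.Lib.Fi22Cov
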