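import Cfsg.Agent.Lib.Fi22SMM
import Cfsg.Agent.Lib.Fi22Cov
import Cfsg.Agent.Lib.Fi23Dbl

/-!
The Schur multiplier of the Fischer group `Fi₂₂`, from a bound for the multiplier of `U₆(2)` (helper57)
-/

set_option autoImplicit false
set_option linter.all false

namespace Cfsg.Agent.Lib.Fi22Mult

open Subgroup Cfsg.Agent.Lib.SchurSylow Cfsg.Agent.Lib.StemDbl Cfsg.Agent.Lib.H26Mult6 Cfsg.Agent.Lib.SchurFiber
open Cfsg.Spor Cfsg.Agent.Lib.Fi22SMM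

/-- the double cover -/
theorem exists_two : ∃ (Γ : Type) (_ : Group Γ) (_ : Finite Γ) (σ : Γ →* Gf), IsStemExtension σ ∧ Nat.card σ.ker = 2 := by
  obtain ⟨H, hH⟩ : ∃ H : Subgroup (CoxPresented Fi23.Gen Fi23.edges Fi23.extra),
      H = Subgroup.closure (Cfsg.Agent.Lib.CoxBridge.wset (Fi23Rel.C.x Fi23A.L0) Fi23A.WS) := ⟨_, rfl⟩
  have h := Fi23Dbl.main H hH
  have hfin : Finite (CoxPresented Fi23.Gen Fi23.edges Fi23.extra) :=
    Nat.finite_of_card_ne_zero (by rw [Fi23Ord.main.2.1]; norm_num)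
  obtain ⟨σ, h1, h2⟩ := dbl_stem h Fi22Cov.perfect_Gf
  exact ⟨H, inferInstance, inferInstance, σ, h1, h2⟩

theorem exists_six (h6 : StemDvd Gf 6) :
    ∃ (Γ : Type) (_ : Group Γ) (_ : Finite Γ) (σ : Γ →* Gf), IsStemExtension σ ∧ Nat.card σ.ker = 6 := by
  obtain ⟨Δ, _, _, τ, y, f, -, -, -, -, -, -, Γ, _, _, σ, hσ, h3⟩ := Fi22Cov.exists_cover
  have h1 := h6 Γ σ hσ
  have h2 : Nat.card σ.ker ≤ 6 := Nat.le_of_dvd (by norm_num) h1
  by_cases h : Nat.card σ.ker = 6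
  · exact ⟨Γ, _, inferInstance, σ, hσ, h⟩
  have h4 : Nat.card σ.ker = 3 := by
    interval_cases (Nat.card σ.ker) <;> first | rfl | omega
  obtain ⟨Γ₂, _, _, σ₂, hσ₂, hc⟩ := exists_two
  obtain ⟨h5, h7⟩ := fib_stem hσ hσ₂ (by rw [h4, hc]; norm_num)
  exact ⟨fib σ σ₂, inferInstance, inferInstance, p0 σ σ₂, h5, by rw [h7, h4, hc]⟩

/-- the multiplier of `Fi₂₂` -/
theorem mult (hG : StemDvd (PSU 6 K4.K4 2) 12) : HasCyclicSchurMultiplier Fi22 6 := by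
  have h6 : StemDvd Gf 6 := stem_six hG
  exact hasCyclic_of_squarefree (by decide +kernel) h6 (exists_six h6)

end Cfsg.Agent.Lib.Fi22Mult
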