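import Cfsg.Agent.Lib.SMCox57
import Cfsg.Agent.Lib.Fi22SM2
import Cfsg.Agent.Lib.Fi22SM3
import Cfsg.Agent.Lib.Fi22SM5
import Cfsg.Agent.Lib.StemDbl
import Cfsg.Agent.Lib.Fi22U6
import Cfsg.Agent.Lib.H92StemB

/-!
An upper bound for the Schur multiplier of the Fischer group `Fi₂₂`, from a bound for the multiplier of `U₆(2)` (helper57)
-/

set_option autoImplicit false
set_option linter.all false
set_option maxRecDepth 100000

namespace Cfsg.Agent.Lib.Fi22SMM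

open Subgroup Cfsg.Agent.Lib.SchurSylow Cfsg.Agent.Lib.H58SM Cfsg.Agent.Lib.H92SMPres Cfsg.Agent.Lib.SMCox57
open Cfsg.Spor Cfsg.Agent.Lib.BenesWord Cfsg.Agent.Lib.CoxBridge Cfsg.Agent.Lib.CosetGroup
open Cfsg.Agent.Lib.K4 Cfsg.Agent.Lib.Fi22Rel Cfsg.Agent.Lib.Fi22A Cfsg.Agent.Lib.StemDbl
open scoped commutatorElement

/-- the presented group -/
abbrev Gf : Type := CoxPresented Fi22.Gen Fi22.edges Fi22.extra

/-- all relators as words -/
def RW : List Wd := allRel 9 coxW extraW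

theorem RW_eq : allRel C.nn (coxWds Fi22.edges C.gen C.nn) C.extraW = RW := rfl

theorem m2 : mOk Fi22c2.Q.toDat RW = true := by decide +kernel
theorem m3 : mOk Fi22c3.Q.toDat RW = true := by decide +kernel
theorem m5 : mOk Fi22c5.Q.toDat RW = true := by decide +kernel
theorem f2 : fOk Fi22c2.Q.toDat WS = true := by decide +kernel
theorem f3 : fOk Fi22c3.Q.toDat WS = true := by decide +kernel
theorem f5 : fOk Fi22c5.Q.toDat WS = true := by decide +kernel

theorem simple_U6 : IsSimpleGroup (PSU 6 K4 2) := Cfsg.Agent.S0283.result (by rw [card_K4]; norm_num) 6 (by norm_num) (by norm_num)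

theorem perfect_U6 : commutator (PSU 6 K4 2) = ⊤ := by
  apply perfect_of_simple simple_U6
  intro hcomm
  have hcP : Nat.card (PSU 6 K4 2) = 9196830720 := U6Class.card_psu62 card_K4
  haveI := simple_U6
  letI : CommGroup (PSU 6 K4 2) := { (inferInstance : Group (PSU 6 K4 2)) with mul_comm := hcomm }
  haveI hfin : Finite (PSU 6 K4 2) := Nat.finite_of_card_ne_zero (by rw [hcP]; norm_num)
  have h1 : (Nat.card (PSU 6 K4 2)).Prime := IsSimpleGroup.prime_card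
  rw [hcP] at h1
  revert h1
  norm_num

/-- the subgroup -/
theorem exists_H : ∃ H : Subgroup Gf, H = closure (wset (C.x L0) WS) ∧ H.index = 3510 ∧
    Cfsg.IsNonsplitDoubleCover H (PSU 6 K4 2) ∧ commutator H = ⊤ := by
  obtain ⟨H, hH⟩ : ∃ H : Subgroup Gf, H = closure (wset (C.x L0) WS) := ⟨_, rfl⟩
  have hd := Fi22U6.main H hH
  have hidx : H.index = 3510 := by
    obtain ⟨_, _, _, _, _, _, _, _, _, _, hidx, _⟩ := Cfsg.Agent.Lib.Fi22AIdx.main H hH
    exact hidx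
  have hfinG : Finite Gf := Nat.finite_of_card_ne_zero (by rw [Fi22Ord.main.2.1]; norm_num)
  exact ⟨H, hH, hidx, hd, dbl_perfect hd perfect_U6⟩

theorem card_Gf : Nat.card Gf = 64561751654400 := Fi22Ord.main.2.1

instance fin_Gf : Finite Gf := Nat.finite_of_card_ne_zero (by rw [card_Gf]; norm_num)

theorem stem_H {H : Subgroup Gf} (hd : Cfsg.IsNonsplitDoubleCover H (PSU 6 K4 2)) (hG : StemDvd (PSU 6 K4 2) 12) :
    StemDvd H 6 := stemDvd_dbl hd perfect_U6 (n := 6) hG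

theorem two (hG : StemDvd (PSU 6 K4 2) 12) : PStemDvd 2 Gf 2 := by
  obtain ⟨H, hH, hi, hd, hp⟩ := exists_H
  have h6 : PStemDvd 2 H (2 ^ 1) := pStem_of_mul (m := 3) (by norm_num) (stem_H hd hG)
  exact SMCox57.pStemDvd (p := 2) (s := 1) (q := 1) (N := 1) (M := 2) C L0 RW RW_eq Fi22c2.Q.toDat (by decide) rfl Fi22c2.tab1_ok
    Fi22c2.tab2_ok Fi22c2.tab3_ok Fi22c2.w_ok Fi22c2.rel_ok m2 H WS hH hi f2 Fi22c2.nr Fi22c2.nr_ok Fi22c2.zl_ok rfl rfl (by decide)
    Fi22c2.chk_ok Fi22c2.gen_ok Fi22c2.par_ok (by intro r hr; cases hr) rfl h6 (not_dvd_index_of_perfect hp)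

theorem three (hG : StemDvd (PSU 6 K4 2) 12) : PStemDvd 3 Gf 3 := by
  obtain ⟨H, hH, hi, hd, hp⟩ := exists_H
  have h6 : PStemDvd 3 H (3 ^ 1) := pStem_of_mul (m := 2) (by norm_num) (stem_H hd hG)
  exact SMCox57.pStemDvd (p := 3) (s := 1) (q := 1) (N := 1) (M := 3) C L0 RW RW_eq Fi22c3.Q.toDat (by decide) rfl Fi22c3.tab1_ok
    Fi22c3.tab2_ok Fi22c3.tab3_ok Fi22c3.w_ok Fi22c3.rel_ok m3 H WS hH hi f3 Fi22c3.nr Fi22c3.nr_ok Fi22c3.zl_ok rfl rfl (by decide)
    Fi22c3.chk_ok Fi22c3.gen_ok Fi22c3.par_ok (by intro r hr; cases hr) rfl h6 (not_dvd_index_of_perfect hp)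

theorem five (hG : StemDvd (PSU 6 K4 2) 12) : PStemDvd 5 Gf 1 := by
  haveI : Fact (Nat.Prime 5) := ⟨by norm_num⟩
  obtain ⟨H, hH, hi, hd, hp⟩ := exists_H
  have h6 : PStemDvd 5 H 1 := pStem_one_of (by norm_num) (stem_H hd hG)
  exact SMCox57.pStemDvd (p := 5) (s := 1) (q := 1) (N := 1) (M := 1) C L0 RW RW_eq Fi22c5.Q.toDat (by decide) rfl Fi22c5.tab1_ok
    Fi22c5.tab2_ok Fi22c5.tab3_ok Fi22c5.w_ok Fi22c5.rel_ok m5 H WS hH hi f5 Fi22c5.nr Fi22c5.nr_ok Fi22c5.zl_ok rfl rfl (by decide)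
    Fi22c5.chk_ok Fi22c5.gen_ok Fi22c5.par_ok (by intro r hr; cases hr) rfl h6 (not_dvd_index_of_perfect hp)

/-- the upper bound -/
theorem stem_six (hG : StemDvd (PSU 6 K4 2) 12) : StemDvd Gf 6 := by
  apply StemDvd.of_forall
  intro p hp
  haveI : Fact p.Prime := ⟨hp⟩
  by_cases h2 : p = 2
  · subst h2; exact (two hG).mono (by norm_num)
  by_cases h3 : p = 3
  · subst h3; exact (three hG).mono (by norm_num)
  by_cases h5 : p = 5
  · subst h5; exact (five hG).mono (by norm_num)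
  refine (Cfsg.Agent.Lib.H92Stem.pStemDvd_of_sq ?_).mono (one_dvd _)
  rw [card_Gf]
  intro hd
  have h1 : p ∣ 64561751654400 := (dvd_pow_self p two_ne_zero).trans hd
  rw [show (64561751654400 : ℕ) = 2 ^ 17 * (3 ^ 9 * (5 ^ 2 * (7 * (11 * 13)))) by norm_num] at h1
  rcases hp.dvd_mul.1 h1 with h | h1
  · exact absurd ((Nat.prime_dvd_prime_iff_eq hp Nat.prime_two).1 (hp.dvd_of_dvd_pow h)) h2
  rcases hp.dvd_mul.1 h1 with h | h1
  · exact absurd ((Nat.prime_dvd_prime_iff_eq hp Nat.prime_three).1 (hp.dvd_of_dvd_pow h)) h3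
  rcases hp.dvd_mul.1 h1 with h | h1
  · exact absurd ((Nat.prime_dvd_prime_iff_eq hp (by norm_num)).1 (hp.dvd_of_dvd_pow h)) h5
  rcases hp.dvd_mul.1 h1 with h | h1
  · have := (Nat.prime_dvd_prime_iff_eq hp (by norm_num)).1 h
    subst this; revert hd; norm_num
  rcases hp.dvd_mul.1 h1 with h | h
  · have := (Nat.prime_dvd_prime_iff_eq hp (by norm_num)).1 h
    subst this; revert hd; norm_num
  · have := (Nat.prime_dvd_prime_iff_eq hp (by norm_num)).1 h
    subst this; revert hd; norm_num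

end Cfsg.Agent.Lib.Fi22SMM
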