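import Cfsg.Agent.Lib.Fi23Dbl

/-!
The projection of the subgroup `2·Fi₂₂` of the presented Fischer group `Fi₂₃` onto the presented `Fi₂₂`, and a pair of
commuting elements (helper57)
-/

set_option autoImplicit false
set_option linter.all false
set_option maxRecDepth 100000

namespace Cfsg.Agent.Lib.Fi23Proj

open Cfsg.Spor Cfsg.Agent.Lib.BenesPerm Cfsg.Agent.Lib.BenesAct Cfsg.Agent.Lib.BenesWord
open Cfsg.Agent.Lib.BenesPlane Cfsg.Agent.Lib.CosetClosure Cfsg.Agent.Lib.CosetFacts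
open Cfsg.Agent.Lib.CosetMain Cfsg.Agent.Lib.CoxBridge Cfsg.Agent.Lib.CosetGroup Cfsg.Agent.Lib.CosetInst Cfsg.Agent.Lib.CosetInj
open Cfsg.Agent.Lib.BenesPack Cfsg.Agent.Lib.CosetPack Cfsg.Agent.Lib.CosetOrder Cfsg.Agent.Lib.CosetChain
open Cfsg.Agent.Lib.Fi23Rel Cfsg.Agent.Lib.Fi23NetsA Cfsg.Agent.Lib.Fi23CertA Cfsg.Agent.Lib.Fi23A
open Cfsg.Agent.Lib.DblCover Cfsg.Agent.Lib.Fi23Dbl

/-- a word from a list of letters -/
def wl : List ℕ → Wd
  | [] => Wd.one
  | c :: l => Wd.mul (Wd.g c) (wl l)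

def X : Wd := wl [2, 3, 7, 8, 4, 3, 7, 6, 5, 4, 3, 2, 3, 4, 5, 6, 7, 3, 4, 8, 7, 3, 2, 1, 3, 2, 1, 7, 3, 2, 8, 7, 3,
  2, 3, 7, 8, 4, 3, 7, 6, 5, 4, 3, 2, 3, 4, 5, 6, 7, 3, 4, 8, 7, 3, 2, 1, 3, 7, 8, 2, 3, 7, 1, 2, 3]
def Y : Wd := wl [1, 2, 3, 2, 1, 7, 3, 2, 8, 7, 3, 1, 2, 3, 7, 8, 2, 3, 7, 1, 2, 3]
def G : Wd := wl [0, 1, 2, 3, 4, 5, 6, 9, 7, 8, 3, 4, 5, 2, 3, 4, 1, 2, 3, 7, 6, 5, 4, 3, 2, 1, 0, 1, 2, 3, 4, 5, 6, 7, 3, 2, 1,
  4, 3, 2, 5, 4, 3, 8, 7, 9, 6, 5, 4, 3, 2, 1, 0, 9, 5]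

/-- the words to check -/
def xW : List Wd := [Wd.mul (Wd.mul X Y) (Wd.mul (Wd.inv X) (Wd.inv Y)), Wd.mul (Wd.mul (Wd.mul G X) (Wd.inv G)) X,
  Wd.mul (Wd.mul (Wd.mul G Y) (Wd.inv G)) (Wd.inv Y)]

theorem x_rels : relsD nets 15 4 iv xW = true := by decide +kernel

theorem x_eval : ∀ W ∈ xW, W.eval (C.x L0) = 1 := by
  obtain ⟨hsimp, hcard, φ, hφ, hinj, -⟩ := Fi23Ord.main
  exact fun W hW => eval_eq_one hinj c_nets x_iv0 hφ (relK_of_relsD c_nets x_rels W hW)

/-- the projection -/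
theorem exists_pi (H : Subgroup (CoxPresented Fi23.Gen Fi23.edges Fi23.extra)) (hH : H = Subgroup.closure (wset (C.x L0) WS)) :
    ∃ (y : ℕ → H) (π : H →* CoxPresented Fi22.Gen Fi22.edges Fi22.extra), Function.Surjective π ∧ π.ker ≤ Subgroup.center H ∧
      Nat.card π.ker = 2 ∧ (∀ c < 9, (y c : CoxPresented Fi23.Gen Fi23.edges Fi23.extra) = C.x L0 c) ∧
      (∀ c < 9, π (y c) = PresentedGroup.of (Fi22Rel.C.gen c)) := by
  obtain ⟨hsimp, hcard, φ, hφ, hinj, -⟩ := Fi23Ord.main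
  obtain ⟨hs22, hc22, -⟩ := Fi22Ord.main
  have hidx : H.index = 31671 := by
    obtain ⟨_, _, _, _, _, _, _, _, _, _, hidx, _⟩ := Cfsg.Agent.Lib.Fi23AIdx.main H hH
    exact hidx
  have hcH : Nat.card H = 129123503308800 := by
    have h1 := H.card_mul_index
    rw [hidx, hcard] at h1
    omega
  have hfinH : Finite H := Nat.finite_of_card_ne_zero (by rw [hcH]; norm_num)
  have hv : ∀ W ∈ vW, W.eval (C.x L0) = 1 := fun W hW => eval_eq_one hinj c_nets x_iv0 hφ (relK_of_relsD c_nets v_rels W hW)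
  have hmem : ∀ c, c < 9 → C.x L0 c ∈ H := by
    intro c hc
    rw [hH]
    apply mem_wset (W := Wd.g c)
    revert c
    decide
  let y : ℕ → H := fun c => if h : c < 9 then ⟨C.x L0 c, hmem c h⟩ else 1
  have hy : ∀ c, c < 9 → (y c : CoxPresented Fi23.Gen Fi23.edges Fi23.extra) = C.x L0 c := by
    intro c hc
    simp only [y, hc, dif_pos]
  have hrelH : ∀ W : Wd, lets 9 W = true → W.eval (C.x L0) = 1 → W.eval y = 1 := by
    intro W hW h
    apply Subtype.ext
    rw [eval_coe hy W hW, h]; rfl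
  have hgen := gen_top hy hH (by decide)
  have hy2 : ∀ c, c < 9 → y c * y c = 1 := by
    intro c hc
    apply Subtype.ext
    rw [Subgroup.coe_mul, hy c hc, (C.rel_x L0).2.2 c (by change c < 10; omega)]; rfl
  -- the central element
  let z : H := zW.eval y
  have hz2 : z * z = 1 := hrelH (Wd.mul zW zW) (by decide) (hv _ (by simp [vW]))
  have hzy : ∀ c, c < 9 → z * y c = y c * z := by
    intro c hc
    have h1 : (z * y c) * (z * y c) = 1 := by
      apply hrelH (Wd.mul (Wd.mul zW (Wd.g c)) (Wd.mul zW (Wd.g c)))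
      · interval_cases c <;> decide
      · apply hv
        interval_cases c <;> simp [vW]
    have h2 := eq_inv_of_mul_eq_one_left h1
    rw [mul_inv_rev, inv_eq_of_mul_eq_one_left (hy2 c hc), inv_eq_of_mul_eq_one_left hz2] at h2
    exact h2
  have hzc : z ∈ Subgroup.center H := by
    have h1 : Subgroup.centralizer {z} = ⊤ := by
      apply hgen
      intro c hc
      rw [Subgroup.mem_centralizer_singleton_iff]
      exact (hzy c hc).symm
    rw [Subgroup.mem_center_iff]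
    intro g
    have h2 : g ∈ Subgroup.centralizer {z} := by rw [h1]; trivial
    exact (Subgroup.mem_centralizer_singleton_iff.mp h2)
  let Z : Subgroup H := Subgroup.zpowers z
  have hZc : Z ≤ Subgroup.center H := by rwa [Subgroup.zpowers_le]
  have hZn : Z.Normal := by
    constructor
    intro n hn g
    rw [Subgroup.mem_center_iff.mp (hZc hn) g, mul_inv_cancel_right]
    exact hn
  have hcZ : Nat.card Z ≤ 2 := by
    rw [Nat.card_zpowers]
    exact Nat.le_of_dvd (by norm_num) (orderOf_dvd_of_pow_eq_one (by rw [pow_two, hz2]))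
  -- the homomorphism
  have hyq : ∀ W : Wd, W.eval y ∈ Z → W.eval (fun c => (y c : H ⧸ Z)) = 1 := by
    intro W hW
    have h1 := Wd.map_eval (QuotientGroup.mk' Z) y W
    have h2 : (QuotientGroup.mk' Z) (W.eval y) = 1 := (QuotientGroup.eq_one_iff _).mpr hW
    rw [h2] at h1
    exact h1.symm
  obtain ⟨ψ, hψ⟩ := Fi22Rel.C.hom (fun c => (y c : H ⧸ Z))
    (by
      intro i hi
      exact hyq (Wd.mul (Wd.g i) (Wd.g i)) (by
        change y i * y i ∈ Z
        rw [hy2 i hi]; exact Z.one_mem))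
    (by
      intro W hW
      apply hyq
      have h1 : ∀ W ∈ Fi22Rel.coxW, lets 9 W = true ∧ W ∈ rels := by decide
      obtain ⟨h2, h3⟩ := h1 W (by rw [← Fi22Rel.coxW_eq]; exact hW)
      rw [hrelH W h2 (rel_eval L0 W h3)]
      exact Z.one_mem)
    (by
      intro W hW
      apply hyq
      have h1 : ∀ W ∈ Fi22Rel.extraW, W = zW ∨ (lets 9 W = true ∧ W ∈ rels) := by decide
      rcases h1 W hW with rfl | ⟨h2, h3⟩
      · exact Subgroup.mem_zpowers z
      · rw [hrelH W h2 (rel_eval L0 W h3)]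
        exact Z.one_mem)
  have hψs : Function.Surjective ψ := by
    rw [← MonoidHom.range_eq_top]
    have h1 : ψ.range.comap (QuotientGroup.mk' Z) = ⊤ := by
      apply hgen
      intro c hc
      exact ⟨_, hψ c hc⟩
    rw [eq_top_iff]
    rintro q -
    obtain ⟨g, rfl⟩ := QuotientGroup.mk_surjective q
    have h2 : g ∈ ψ.range.comap (QuotientGroup.mk' Z) := by rw [h1]; trivial
    exact h2
  have hcq : Nat.card Z * Nat.card (H ⧸ Z) = 129123503308800 := by
    rw [mul_comm, ← Subgroup.card_eq_card_quotient_mul_card_subgroup, hcH]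
  have hψi : Function.Injective ψ := by
    rw [← MonoidHom.ker_eq_bot_iff]
    rcases hs22.eq_bot_or_eq_top_of_normal ψ.ker inferInstance with h | h
    · exact h
    · exfalso
      have h1 : Nat.card (H ⧸ Z) = 1 := by
        rw [Nat.card_eq_one_iff_unique]
        refine ⟨⟨?_⟩, ⟨1⟩⟩
        intro a b
        obtain ⟨a, rfl⟩ := hψs a
        obtain ⟨b, rfl⟩ := hψs b
        have ha : a ∈ ψ.ker := by rw [h]; trivial
        have hb : b ∈ ψ.ker := by rw [h]; trivial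
        rw [MonoidHom.mem_ker.mp ha, MonoidHom.mem_ker.mp hb]
      rw [h1] at hcq
      omega
  let e := MulEquiv.ofBijective ψ ⟨hψi, hψs⟩
  have hcq2 : Nat.card Z = 2 := by
    have h1 : Nat.card (H ⧸ Z) = 64561751654400 := by rw [← Nat.card_congr e.toEquiv, hc22]
    rw [h1] at hcq
    omega
  have hker : (e.symm.toMonoidHom.comp (QuotientGroup.mk' Z)).ker = Z := by
    ext t
    rw [MonoidHom.mem_ker]
    show e.symm (QuotientGroup.mk t) = 1 ↔ _
    rw [map_eq_one_iff e.symm e.symm.injective, QuotientGroup.eq_one_iff]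
  refine ⟨y, e.symm.toMonoidHom.comp (QuotientGroup.mk' Z), e.symm.surjective.comp (QuotientGroup.mk'_surjective Z), ?_, ?_, hy, ?_⟩
  · rw [hker]; exact hZc
  · rw [hker]; exact hcq2
  · intro c hc
    show e.symm (QuotientGroup.mk (y c)) = _
    rw [MulEquiv.symm_apply_eq]
    exact (hψ c hc).symm

end Cfsg.Agent.Lib.Fi23Proj
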