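import Cfsg.Agent.Lib.H92SMPres
import Cfsg.Agent.Lib.SMGen

/-!
Schur multiplier engine for Coxeter-type presented groups with a subgroup generated by words (helper57)
-/

set_option autoImplicit false

namespace Cfsg.Agent.Lib.SMCox57

open Subgroup Cfsg.Agent.Lib.SchurSylow Cfsg.Agent.Lib.H58SM Cfsg.Agent.Lib.H92SMPres
open Cfsg.Spor Cfsg.Agent.Lib.BenesWord Cfsg.Agent.Lib.CoxBridge Cfsg.Agent.Lib.CosetGroup

/-- comparison of lists -/
def leq : List ℕ → List ℕ → Bool
  | [], [] => true
  | a :: l, b :: m => Nat.beq a b && leq l m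
  | _, _ => false

theorem leq_eq {l m : List ℕ} (h : leq l m = true) : l = m := by
  induction l generalizing m with
  | nil => cases m with
    | nil => rfl
    | cons b m => exact absurd h (by simp [leq])
  | cons a l ih => cases m with
    | nil => exact absurd h (by simp [leq])
    | cons b m =>
      have h : (Nat.beq a b && leq l m) = true := h
      rw [Bool.and_eq_true] at h
      rw [Nat.eq_of_beq_eq_true h.1, ih h.2]

/-- the relators are listed in the same order -/
def mOk (D : Dat) (R : List Wd) : Bool :=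
  Nat.beq D.J R.length && (List.range D.J).all fun j => leq (D.W j) (pl (R.getD j Wd.one))

theorem match_of {D : Dat} {R : List Wd} (h : mOk D R = true) : Match D R := by
  unfold mOk at h
  rw [Bool.and_eq_true, List.all_eq_true] at h
  have hJ : D.J = R.length := Nat.eq_of_beq_eq_true h.1
  have hj : ∀ j < D.J, D.W j = pl (R.getD j Wd.one) := fun j hj => leq_eq (h.2 j (List.mem_range.2 hj))
  refine ⟨?_, ?_⟩
  · intro W hW
    obtain ⟨j, hj', rfl⟩ := List.getElem_of_mem hW
    refine ⟨j, by omega, ?_⟩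
    rw [hj j (by omega), List.getD_eq_getElem _ _ hj']
  · intro j hj'
    refine ⟨R.getD j Wd.one, ?_, hj j hj'⟩
    rw [List.getD_eq_getElem _ _ (by omega)]
    exact List.getElem_mem _

/-- the words of the subgroup fix the base point -/
def fOk (D : Dat) (WS : List Wd) : Bool :=
  WS.all fun W => (pl W).all (fun l => Nat.blt l (Nat.mul 2 D.k)) && Nat.beq (Dat.ptf D.T (pl W) 0) 0

variable {α : Type} [DecidableEq α] {edges : List (α × ℕ × α)} {extra : List (FreeGroup α)}

theorem gen_top (C : CoxData α edges extra) (L : List (CoxPresented α edges extra)) :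
    closure {z | ∃ i < C.ng, z = C.x L i} = ⊤ := by
  rw [← C.closure_letters L]
  congr 1
  ext z
  constructor
  · rintro ⟨i, hi, rfl⟩
    exact ⟨Wd.g i, List.mem_map.2 ⟨i, List.mem_range.2 hi, rfl⟩, rfl⟩
  · rintro ⟨W, hW, rfl⟩
    obtain ⟨i, hi, rfl⟩ := List.mem_map.1 hW
    exact ⟨i, List.mem_range.1 hi, rfl⟩

/-- the action on the table; the stabilizer of the base point is the given subgroup -/
theorem exists_act (C : CoxData α edges extra) (L : List (CoxPresented α edges extra))
    [Finite (CoxPresented α edges extra)] (R : List Wd)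
    (hR : allRel C.nn (coxWds edges C.gen C.nn) C.extraW = R) (D : Dat) (hpos : 0 < D.n) (hk : D.k = C.ng)
    (ht1 : D.tab1 = true) (ht2 : D.tab2 = true) (ht3 : D.tab3 = true) (hW : D.wOk = true) (hr : D.relOk = true)
    (hm : mOk D R = true) (H : Subgroup (CoxPresented α edges extra)) (WS : List Wd)
    (hH : H = closure (wset (C.x L) WS)) (hidx : H.index = D.n) (hf : fOk D WS = true) :
    ∃ act : MulAction (CoxPresented α edges extra) (Fin D.n),
      Act D.n D.k (C.x L) (pe0 hpos) D.T D.pi D.pq ∧ MulAction.stabilizer (CoxPresented α edges extra) (pe0 hpos 0) = H ∧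
      ∀ j < D.J, ev (C.x L) (D.W j) = 1 := by
  have hM : Match D (allRel C.nn (coxWds edges C.gen C.nn) C.extraW) := by rw [hR]; exact match_of hm
  obtain ⟨ψ, hψ⟩ := exists_hom hM hk ht1 ht2 hW hr
  letI act : MulAction (CoxPresented α edges extra) (Fin D.n) := MulAction.compHom (Fin D.n) ψ
  have hact : ∀ (g : CoxPresented α edges extra) (a : Fin D.n), g • a = ψ g a := fun _ _ => rfl
  have hfwd : ∀ i < D.k, ∀ a < D.n, C.x L i • (pe0 hpos a) = pe0 hpos (D.T (2 * i) a) := by
    intro i hi a ha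
    rw [hact]
    apply Fin.ext
    have h := hψ L [2 * i] (by intro l hl; rw [List.mem_singleton] at hl; omega) (pe0 hpos a)
    rw [ev_cons, ev_nil, one_mul, lt, if_pos (by omega), show 2 * i / 2 = i by omega] at h
    rw [h, pe0_val hpos ha]
    have h1 : D.T (2 * i) a < D.n := Sol.blt_iff.1 (alln_iff.1 (alln_iff.1 ht1 (2 * i) (show 2 * i < 2 * D.k by omega)) a ha)
    rw [pe0_val hpos h1]; rfl
  have hbase : ∀ a < D.n, pe0 hpos a = pe0 hpos 0 → a = 0 := by
    intro a ha h
    have := congrArg Fin.val h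
    rwa [pe0_val hpos ha, pe0_val hpos hpos] at this
  have A : Act D.n D.k (C.x L) (pe0 hpos) D.T D.pi D.pq := Dat.act_of hpos ht1 ht2 ht3 hfwd hbase
  have hgen : closure {z | ∃ i < D.k, z = C.x L i} = ⊤ := by rw [hk]; exact gen_top C L
  refine ⟨act, A, ?_, hM.hrel _⟩
  have hc := A.card_stabilizer hgen
  have hle : H ≤ MulAction.stabilizer (CoxPresented α edges extra) (pe0 hpos 0) := by
    rw [hH, closure_le]
    rintro _ ⟨W, hWm, rfl⟩
    show W.eval (C.x L) • pe0 hpos 0 = pe0 hpos 0
    unfold fOk at hf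
    rw [List.all_eq_true] at hf
    have h1 := hf W hWm
    rw [Bool.and_eq_true, List.all_eq_true] at h1
    obtain ⟨h2, h3⟩ := h1
    have h4 := Sol.beq_iff.1 h3
    rw [Dat.ptf_eq] at h4
    rw [← ev_pl, A.smul_ev (fun l hl => Sol.blt_iff.1 (h2 l hl)) hpos, h4]
  symm
  apply eq_of_le_of_card_ge hle
  have h5 := H.card_mul_index
  rw [hidx] at h5
  rw [← h5, mul_comm] at hc
  exact le_of_eq (Nat.eq_of_mul_eq_mul_right hpos hc)

/-- the engine for presented groups -/
theorem pStemDvd {p s q N M : ℕ} [hp : Fact p.Prime] (C : CoxData α edges extra)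
    (L : List (CoxPresented α edges extra)) [Finite (CoxPresented α edges extra)] (R : List Wd)
    (hR : allRel C.nn (coxWds edges C.gen C.nn) C.extraW = R) (D : Dat) (hpos : 0 < D.n) (hk : D.k = C.ng)
    (ht1 : D.tab1 = true) (ht2 : D.tab2 = true) (ht3 : D.tab3 = true) (hW : D.wOk = true) (hr : D.relOk = true)
    (hm : mOk D R = true) (H : Subgroup (CoxPresented α edges extra)) (WS : List Wd)
    (hH : H = closure (wset (C.x L) WS)) (hidx : H.index = D.n) (hf : fOk D WS = true)
    (nr : ℕ → ℕ × ℕ) (hnr : D.nrOk nr = true) (hzl : D.zlOk nr = true)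
    (hDp : D.p = p) (hDm : D.m = p ^ s) (hpq : p * q ∣ D.m)
    (hchk : ∀ x < D.N, D.chk x = true)
    {gl : List (ℕ × ℕ × List (ℕ × ℕ))} {Cc : ℕ → List (ℕ × ℕ) × List (ℕ × ℕ)}
    (hg : D.genOk gl = true) (hpar : D.parOk gl Cc = true) (hq : ∀ r ∈ gl, r.2.1 ∣ q)
    (hN : (gl.map fun r => r.2.1).prod = N)
    (hS : PStemDvd p H M) (hab : ¬ p ∣ (commutator H).index) : PStemDvd p (CoxPresented α edges extra) (N * M) := by
  obtain ⟨act, A, hst, hrel⟩ := exists_act C L R hR D hpos hk ht1 ht2 ht3 hW hr hm H WS hH hidx hf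
  have hgen : closure {z | ∃ i < D.k, z = C.x L i} = ⊤ := by rw [hk]; exact gen_top C L
  rw [← hst] at hS hab
  exact Cfsg.Agent.Lib.SMGen.pStemDvd_of_checks_gen D A hgen hS hab hW hrel nr hnr hzl hDp hDm hpq hchk hg hpar
    hq hN

end Cfsg.Agent.Lib.SMCox57
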