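import Cfsg.Agent.Lib.Fi22Mult
import Cfsg.Agent.Lib.Fi23Proj
import Cfsg.Agent.Lib.SMCox57

/-!
The Schur multiplier of the Fischer group `Fi₂₃`, from a bound for the multiplier of `U₆(2)` (helper57)
-/

set_option autoImplicit false
set_option linter.all false
set_option maxRecDepth 100000

namespace Cfsg.Agent.Lib.Fi23Mult

open Subgroup Cfsg.Agent.Lib.SchurSylow Cfsg.Agent.Lib.StemDbl
open Cfsg.Spor Cfsg.Agent.Lib.BenesWord Cfsg.Agent.Lib.CoxBridge Cfsg.Agent.Lib.CosetGroup Cfsg.Agent.Lib.DblCover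
open Cfsg.Agent.Lib.Cov Cfsg.Agent.Lib.VecCov Cfsg.Agent.Lib.ProjCov
open scoped commutatorElement

universe u

/-! ### general facts -/

/-- it suffices to exclude kernels of order `p` -/
theorem pStem_one_of_no_prime {G : Type u} [Group G] {p : ℕ} [hp : Fact p.Prime]
    (h : ∀ (Γ : Type u) [Group Γ] [Finite Γ] (σ : Γ →* G), IsStemExtension σ → Nat.card σ.ker ≠ p) : PStemDvd p G 1 := by
  intro Γ _ _ σ hσ hpg
  obtain ⟨n, hn⟩ := IsPGroup.iff_card.1 hpg
  rcases Nat.eq_zero_or_pos n with h0 | h0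
  · rw [hn, h0, pow_zero]
  exfalso
  obtain ⟨B0, hB0⟩ := Sylow.exists_subgroup_card_pow_prime (G := σ.ker) p (n := n - 1) (by rw [hn]; exact pow_dvd_pow p (by omega))
  let B : Subgroup Γ := B0.map σ.ker.subtype
  have hB : B ≤ σ.ker := by
    rintro _ ⟨x, -, rfl⟩
    exact x.2
  haveI hBn : B.Normal := by
    refine ⟨fun x hx g => ?_⟩
    have : g * x * g⁻¹ = x := by rw [mem_center_iff.1 (hσ.2.1 (hB hx)) g]; group
    rw [this]; exact hx
  obtain ⟨hst, hker⟩ := quotient_isStem σ hσ B hB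
  apply h _ _ hst
  rw [hker]
  have h1 : Nat.card (σ.ker.map (QuotientGroup.mk' B)) * Nat.card B = Nat.card σ.ker := by
    let F : σ.ker →* (σ.ker.map (QuotientGroup.mk' B)) :=
      { toFun := fun x => ⟨QuotientGroup.mk' B (x : Γ), ⟨x, x.2, rfl⟩⟩
        map_one' := Subtype.ext (map_one _)
        map_mul' := fun x y => Subtype.ext (map_mul _ _ _) }
    have hF : Function.Surjective F := by
      rintro ⟨_, x, hx, rfl⟩
      exact ⟨⟨x, hx⟩, rfl⟩
    have hFk : F.ker = B0 := by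
      ext x
      rw [MonoidHom.mem_ker]
      constructor
      · intro hx
        have h6 : QuotientGroup.mk' B (x : Γ) = 1 := congrArg Subtype.val hx
        rw [QuotientGroup.mk'_apply, QuotientGroup.eq_one_iff] at h6
        obtain ⟨y, hy, hyx⟩ := h6
        have : y = x := Subtype.ext hyx
        rwa [← this]
      · intro hx
        apply Subtype.ext
        show QuotientGroup.mk' B (x : Γ) = 1
        rw [QuotientGroup.mk'_apply, QuotientGroup.eq_one_iff]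
        exact ⟨x, hx, rfl⟩
    have h7 : Nat.card B = Nat.card B0 := (Nat.card_congr (B0.equivMapOfInjective _ (subtype_injective σ.ker)).toEquiv).symm
    rw [h7, ← hFk, card_eq_card_quotient_mul_card_subgroup F.ker]
    congr 1
    exact (Nat.card_congr (QuotientGroup.quotientKerEquivOfSurjective F hF).toEquiv).symm
  have h7 : Nat.card B = p ^ (n - 1) := by
    rw [← hB0]; exact (Nat.card_congr (B0.equivMapOfInjective _ (subtype_injective σ.ker)).toEquiv).symm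
  rw [h7, hn] at h1
  have h8 : p ^ n = p * p ^ (n - 1) := by rw [← pow_succ']; congr 1; omega
  rw [h8] at h1
  exact Nat.eq_of_mul_eq_mul_right (pow_pos hp.out.pos _) h1

/-- a commuting pair, the first member inverted and the second one centralized modulo a central subgroup of order three -/
theorem swap {Γ : Type u} [Group Γ] {Z : Subgroup Γ} (hZ : Z ≤ center Γ) (h3 : ∀ z ∈ Z, z ^ 3 = 1) {x y g : Γ}
    (hc : x * y * (x⁻¹ * y⁻¹) ∈ Z) (h1 : g * x * g⁻¹ * x ∈ Z) (h2 : g * y * g⁻¹ * y⁻¹ ∈ Z) : x * y * (x⁻¹ * y⁻¹) = 1 := by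
  have hcen : ∀ z ∈ Z, ∀ t : Γ, t * z = z * t := fun z hz t => mem_center_iff.1 (hZ hz) t
  set c := x * y * (x⁻¹ * y⁻¹) with hcdef
  obtain ⟨z1, hz1, e1⟩ : ∃ z ∈ Z, g * x * g⁻¹ = z * x⁻¹ := ⟨_, h1, by group⟩
  obtain ⟨z2, hz2, e2⟩ : ∃ z ∈ Z, g * y * g⁻¹ = z * y := ⟨_, h2, by group⟩
  have h4 : g * c * g⁻¹ = c := by rw [hcen c hc g]; group
  have h5 : g * c * g⁻¹ = (g * x * g⁻¹) * (g * y * g⁻¹) * ((g * x * g⁻¹)⁻¹ * (g * y * g⁻¹)⁻¹) := by
    rw [hcdef]; group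
  rw [e1, e2] at h5
  have h6 : z1 * x⁻¹ * (z2 * y) * ((z1 * x⁻¹)⁻¹ * (z2 * y)⁻¹) = x⁻¹ * y * (x * y⁻¹) := by
    have a1 : z1 * x⁻¹ * (z2 * y) * ((z1 * x⁻¹)⁻¹ * (z2 * y)⁻¹) = z1 * (x⁻¹ * z2) * y * x * (z1⁻¹ * y⁻¹) * z2⁻¹ := by group
    have hz1i : z1⁻¹ ∈ Z := inv_mem hz1
    have hz2i : z2⁻¹ ∈ Z := inv_mem hz2
    rw [a1, hcen z2 hz2 x⁻¹, ← hcen z1⁻¹ hz1i y⁻¹]
    have a2 : z1 * (z2 * x⁻¹) * y * x * (y⁻¹ * z1⁻¹) * z2⁻¹ = z1 * z2 * (x⁻¹ * y * x * y⁻¹ * z1⁻¹) * z2⁻¹ := by group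
    rw [a2, hcen z1⁻¹ hz1i (x⁻¹ * y * x * y⁻¹)]
    have a3 : z1 * z2 * (z1⁻¹ * (x⁻¹ * y * x * y⁻¹)) * z2⁻¹ = z1 * z2 * z1⁻¹ * ((x⁻¹ * y * x * y⁻¹) * z2⁻¹) := by group
    rw [a3, hcen z2⁻¹ hz2i (x⁻¹ * y * x * y⁻¹)]
    have a4 : z1 * z2 * z1⁻¹ = z2 := by rw [hcen z2 hz2 z1]; group
    rw [a4]; group
  rw [h6, h4] at h5
  have h7 : x⁻¹ * y * (x * y⁻¹) = c⁻¹ := by
    have a5 : x⁻¹ * y * (x * y⁻¹) = x⁻¹ * c⁻¹ * x := by rw [hcdef]; group
    rw [a5, hcen c⁻¹ (inv_mem hc) x⁻¹]; group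
  rw [h7] at h5
  have h8 : c * c = 1 := by
    nth_rewrite 1 [h5]
    group
  have h9 := h3 c hc
  rw [pow_succ, pow_two, h8, one_mul] at h9
  exact h9

/-- powers of products of two involutions -/
theorem invol_pow {Γ : Type u} [Group Γ] {Z : Subgroup Γ} (hZ : Z ≤ center Γ) (h3 : ∀ z ∈ Z, z ^ 3 = 1) {x y : Γ}
    (hx : x * x = 1) (hy : y * y = 1) {m : ℕ} (h : (x * y) ^ m ∈ Z) : (x * y) ^ m = 1 := by
  have hxi : x⁻¹ = x := inv_eq_of_mul_eq_one_left hx
  have hyi : y⁻¹ = y := inv_eq_of_mul_eq_one_left hy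
  set c := (x * y) ^ m with hc
  have h1 : x * c * x⁻¹ = c := by rw [mem_center_iff.1 (hZ h) x]; group
  have h2 : x * c * x⁻¹ = c⁻¹ := by
    rw [hc, ← conj_pow, ← inv_pow]
    congr 1
    rw [mul_inv_rev, hxi, hyi, ← mul_assoc, hx, one_mul]
  have h5 : c = c⁻¹ := h1.symm.trans h2
  have h8 : c * c = 1 := by
    nth_rewrite 1 [h5]
    group
  have h9 := h3 c h
  rw [pow_succ, pow_two, h8, one_mul] at h9
  exact h9

/-- pattern of Coxeter relators -/
def isP : Wd → Bool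
  | .pow (.mul (.g _) (.g _)) _ => true
  | _ => false

theorem isP_spec {W : Wd} (h : isP W = true) : ∃ a b m, W = Wd.pow (Wd.mul (Wd.g a) (Wd.g b)) m := by
  unfold isP at h
  split at h
  · exact ⟨_, _, _, rfl⟩
  · exact absurd h Bool.false_ne_true

theorem eval_mem_sub {Γ : Type u} [Group Γ] {K : Subgroup Γ} {x : ℕ → Γ} {n : ℕ} (h : ∀ c < n, x c ∈ K) (W : Wd)
    (hW : lets n W = true) : W.eval x ∈ K := by
  induction W with
  | one => exact one_mem K
  | g c => exact h c (by simpa [lets] using hW)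
  | inv u ih => exact inv_mem (ih hW)
  | mul u v ihu ihv =>
    simp only [lets, Bool.and_eq_true] at hW
    exact mul_mem (ihu hW.1) (ihv hW.2)
  | pow u m ih => exact pow_mem (ih hW) m

/-! ### the Fischer group -/

/-- the presented group -/
abbrev Gt : Type := CoxPresented Fi23.Gen Fi23.edges Fi23.extra

theorem card_Gt : Nat.card Gt = 4089470473293004800 := Fi23Ord.main.2.1

instance fin_Gt : Finite Gt := Nat.finite_of_card_ne_zero (by rw [card_Gt]; norm_num)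

theorem cox_pat : (Fi23Rel.coxW.all fun W => isP W && lets 10 W) = true := by decide +kernel
theorem ext_lets : (Fi23Rel.extraW.all fun W => lets 9 W) = true := by decide +kernel

theorem lets_mono {m n : ℕ} (h : m ≤ n) {W : Wd} (hW : lets m W = true) : lets n W = true := by
  induction W with
  | one => rfl
  | g c => simp only [lets, decide_eq_true_eq] at hW ⊢; omega
  | inv u ih => exact ih hW
  | mul u v ihu ihv =>
    simp only [lets, Bool.and_eq_true] at hW ⊢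
    exact ⟨ihu hW.1, ihv hW.2⟩
  | pow u m ih => exact ih hW

/-- the split case -/
theorem case_split {Γ : Type} [Group Γ] {σ : Γ →* Gt} (hσ : IsStemExtension σ) (h3 : ∀ z ∈ σ.ker, z ^ 3 = 1)
    {H : Subgroup Gt} (hm : ∀ c < 9, Fi23Rel.C.x Fi23A.L0 c ∈ H) (hperf : commutator H = ⊤)
    (hbot : σ.ker ⊓ ⁅H.comap σ, H.comap σ⁆ = ⊥) : σ.ker = ⊥ := by
  have hx2 : ∀ c < 10, Fi23Rel.C.x Fi23A.L0 c * Fi23Rel.C.x Fi23A.L0 c = 1 := fun c hc => (Fi23Rel.C.rel_x Fi23A.L0).2.2 c hc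
  choose l hl using fun c => hσ.1 (Fi23Rel.C.x Fi23A.L0 c)
  let x : ℕ → Γ := fun c => if c < 10 then l c ^ 3 else 1
  have hxd : ∀ c < 10, x c = l c ^ 3 := fun c hc => if_pos hc
  have hσx : ∀ c < 10, σ (x c) = Fi23Rel.C.x Fi23A.L0 c := by
    intro c hc
    rw [hxd c hc, map_pow, hl, pow_succ, pow_two, hx2 c hc, one_mul]
  have hxx : ∀ c < 10, x c * x c = 1 := by
    intro c hc
    rw [hxd c hc, ← pow_add, show 3 + 3 = 2 * 3 from rfl, pow_mul]
    apply h3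
    rw [MonoidHom.mem_ker, map_pow, hl, pow_two, hx2 c hc]
  set K := ⁅H.comap σ, H.comap σ⁆ with hK
  have hxK : ∀ c < 9, x c ∈ K := by
    intro c hc
    set τ : H.comap σ →* H := σ.subgroupComap H with hτdef
    have hτs : Function.Surjective τ := by
      intro h
      obtain ⟨g, hg⟩ := hσ.1 h.1
      refine ⟨⟨g, ?_⟩, Subtype.ext hg⟩
      rw [mem_comap, hg]; exact h.2
    have hmem : x c ∈ H.comap σ := by rw [mem_comap, hσx c (by omega)]; exact hm c hc
    obtain ⟨k, hk, z, hz, e⟩ := Cfsg.Agent.Lib.SchurPerfect.exists_commutator_mul (isPerfect_of hperf) τ hτs ⟨x c, hmem⟩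
    have hk' : (k : Γ) ∈ K := by
      rw [hK, ← map_subtype_commutator]
      exact ⟨k, hk, rfl⟩
    have hz' : (z : Γ) ∈ σ.ker := congrArg Subtype.val (MonoidHom.mem_ker.1 hz)
    have e' : x c = (k : Γ) * (z : Γ) := congrArg Subtype.val e
    have h1 : x c = x c ^ 3 := by rw [pow_succ, pow_two, hxx c (by omega), one_mul]
    have hcm : (k : Γ) * (z : Γ) = (z : Γ) * (k : Γ) := mem_center_iff.1 (hσ.2.1 hz') _
    have h2 : ((k : Γ) * (z : Γ)) ^ 3 = (k : Γ) ^ 3 := by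
      rw [(show Commute (k : Γ) (z : Γ) from hcm).mul_pow, h3 _ hz', mul_one]
    rw [h1, e', h2]
    exact pow_mem hk' 3
  have hev : ∀ W : Wd, lets 10 W = true → W.eval (Fi23Rel.C.x Fi23A.L0) = 1 → W.eval x ∈ σ.ker := by
    intro W hW h
    rw [MonoidHom.mem_ker, Wd.map_eval, eval_congr (n := 10) (y' := Fi23Rel.C.x Fi23A.L0) (fun c hc => hσx c hc) W hW, h]
  obtain ⟨r1, r2, -⟩ := Fi23Rel.C.rel_x Fi23A.L0
  obtain ⟨s, hs⟩ := Fi23Rel.C.hom x (fun c hc => hxx c hc)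
    (by
      intro W hW
      have h1 := List.all_eq_true.1 cox_pat W hW
      rw [Bool.and_eq_true] at h1
      have h2 := hev W h1.2 (r1 W hW)
      obtain ⟨a, b, m, rfl⟩ := isP_spec h1.1
      have hl2 := h1.2
      simp only [lets, Bool.and_eq_true, decide_eq_true_eq] at hl2
      exact invol_pow hσ.2.1 h3 (hxx a hl2.1) (hxx b hl2.2) h2)
    (by
      intro W hW
      have h1 : lets 9 W = true := List.all_eq_true.1 ext_lets W hW
      have h2 := hev W (lets_mono (by norm_num) h1) (r2 W hW)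
      have h4 : W.eval x ∈ σ.ker ⊓ K := ⟨h2, eval_mem_sub hxK W h1⟩
      rw [hbot] at h4
      exact mem_bot.1 h4)
  have hss : ∀ g, σ (s g) = g := by
    have h1 : σ.comp s = MonoidHom.id Gt := by
      apply PresentedGroup.ext
      intro a
      show σ (s (PresentedGroup.of a)) = PresentedGroup.of a
      have h2 : Fi23Rel.C.gen (Fi23Rel.C.idx a) = a := Fi23Rel.C.hgi a
      have h3' : Fi23Rel.C.idx a < 10 := Fi23Rel.C.hlt a
      have h4 := hs (Fi23Rel.C.idx a) h3'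
      rw [h2] at h4
      rw [h4, hσx _ h3', Fi23Rel.C.x_of_lt _ h3', h2]
    exact fun g => DFunLike.congr_fun h1 g
  have hcr : commutator Γ ≤ s.range := by
    rw [_root_.commutator_def, commutator_le]
    intro a _ b _
    have key : ∀ a : Γ, ∃ z ∈ σ.ker, a = s (σ a) * z := fun a => ⟨(s (σ a))⁻¹ * a, by
      rw [MonoidHom.mem_ker, map_mul, map_inv, hss, inv_mul_cancel], by group⟩
    obtain ⟨z, hz, e1⟩ := key a
    obtain ⟨w, hw, e2⟩ := key b
    rw [e1, e2, Cfsg.Agent.Lib.SchurMult.commutatorElement_mul_central (hσ.2.1 hz) (hσ.2.1 hw), ← map_commutatorElement]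
    exact ⟨_, rfl⟩
  rw [eq_bot_iff]
  intro z hz
  obtain ⟨g, rfl⟩ := hcr (hσ.2.2 hz)
  have h5 : σ (s g) = 1 := hz
  rw [hss] at h5
  rw [h5, map_one]; exact one_mem _

/-- the commutator word -/
def cW : Wd := Wd.mul (Wd.mul Fi23Proj.X Fi23Proj.Y) (Wd.mul (Wd.inv Fi23Proj.X) (Wd.inv Fi23Proj.Y))

theorem comm_ok : scOk fc4 27 Fi22CovD.P Fi22CovD.TB 3 (cW.flat fun c => c) = true := by decide +kernel
theorem u3 : uOk fc4 27 3 = true := by decide +kernel
theorem X_lets : lets 9 Fi23Proj.X = true := by decide +kernel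
theorem Y_lets : lets 9 Fi23Proj.Y = true := by decide +kernel
theorem c_lets : lets 9 cW = true := by decide +kernel
theorem w2_ne1 : (fc4).δ 3 ≠ 1 := by decide +kernel

/-- the word in the covering group -/
theorem c_ne {Δ : Type} [Group Δ] {y : ℕ → Δ} {f : Δ →* Fi22Cov.GM} (h2 : ∀ c, y c * y c = 1)
    (hf : ∀ c < 9, (f (y c) : Matrix (Fin 27) (Fin 27) K4.K4) = Mt fc4 27 Fi22CovD.P (Fi22CovD.TB c)) : cW.eval y ≠ 1 := by
  intro h
  have h3 : ∀ c, y c = (y c)⁻¹ := fun c => eq_inv_of_mul_eq_one_left (h2 c)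
  have h4 := Wd.eval_flat y (fun c => c) h3 cW
  rw [h] at h4
  have h5 := Fi22Cov.val_of (x := fun c => f (y c)) hf (letters_flat c_lets) u3 comm_ok
  have h6 : ((cW.flat fun c => c).map fun c => f (y c)).prod = f ((cW.flat fun c => c).map y).prod := by
    rw [map_list_prod, List.map_map]; rfl
  rw [h6, h4, map_one, Units.val_one] at h5
  have h7 := congrFun (congrFun h5 0) 0
  rw [Matrix.scalar_apply, Matrix.diagonal_apply_eq, Matrix.one_apply_eq] at h7
  exact w2_ne1 h7.symm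

/-- no stem extension with kernel of order three -/
theorem no_three (h6 : StemDvd Fi22Cov.Gf 6) (Γ : Type) [Group Γ] [Finite Γ] (σ : Γ →* Gt) (hσ : IsStemExtension σ) :
    Nat.card σ.ker ≠ 3 := by
  intro hcard
  have h3 : ∀ z ∈ σ.ker, z ^ 3 = 1 := by
    intro z hz
    have := pow_card_eq_one' (G := σ.ker) (x := ⟨z, hz⟩)
    rw [hcard] at this
    exact congrArg Subtype.val this
  obtain ⟨H, hH⟩ : ∃ H : Subgroup Gt, H = Subgroup.closure (wset (Fi23Rel.C.x Fi23A.L0) Fi23A.WS) := ⟨_, rfl⟩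
  have hdbl := Fi23Dbl.main H hH
  have hperf : commutator H = ⊤ := dbl_perfect hdbl Fi22Cov.perfect_Gf
  obtain ⟨y, π, hπs, hπc, hπ2, hy, hπy⟩ := Fi23Proj.exists_pi H hH
  have hm : ∀ c < 9, Fi23Rel.C.x Fi23A.L0 c ∈ H := fun c hc => by rw [← hy c hc]; exact (y c).2
  set B := σ.ker ⊓ ⁅H.comap σ, H.comap σ⁆ with hB
  have hBd : Nat.card B ∣ 3 := by rw [← hcard]; exact card_dvd_of_le inf_le_left
  rcases (Nat.dvd_prime Nat.prime_three).1 hBd with h1 | h1
  · have hb : B = ⊥ := card_eq_one.1 h1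
    have := case_split hσ h3 hm hperf hb
    rw [this, card_bot] at hcard
    exact absurd hcard (by norm_num)
  -- the nonsplit case
  have hBe : B = σ.ker := eq_of_le_of_card_ge inf_le_left (by rw [h1, hcard])
  have hker : σ.ker ≤ ⁅H.comap σ, H.comap σ⁆ := by rw [← hBe]; exact inf_le_right
  set τ : H.comap σ →* H := σ.subgroupComap H with hτdef
  have hτ : ∀ x, ((τ x : H) : Gt) = σ x := fun x => rfl
  have hτs : Function.Surjective τ := by
    intro h
    obtain ⟨g, hg⟩ := hσ.1 h.1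
    refine ⟨⟨g, ?_⟩, Subtype.ext hg⟩
    rw [mem_comap, hg]; exact h.2
  have hk : ∀ x : H.comap σ, x ∈ τ.ker ↔ (x : Γ) ∈ σ.ker := by
    intro x
    rw [MonoidHom.mem_ker, MonoidHom.mem_ker, ← hτ]
    exact ⟨fun h => by rw [h]; rfl, fun h => Subtype.ext h⟩
  have hst : IsStemExtension τ := by
    refine ⟨hτs, ?_, ?_⟩
    · intro x hx
      rw [mem_center_iff]
      intro t
      exact Subtype.ext (mem_center_iff.1 (hσ.2.1 ((hk x).1 hx)) t)
    · intro x hx
      have h2 := hker ((hk x).1 hx)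
      rw [← map_subtype_commutator] at h2
      obtain ⟨w, hw, e⟩ := h2
      have : w = x := Subtype.ext e
      rwa [← this]
  have hck : Nat.card τ.ker = 3 := by
    rw [← hcard]
    exact Nat.card_congr
      { toFun := fun x => ⟨(x : H.comap σ), (hk x).1 x.2⟩
        invFun := fun z => ⟨⟨z, by
          have h2 : σ (z : Γ) = 1 := z.2
          rw [mem_comap, h2]; exact one_mem _⟩, (hk _).2 z.2⟩
        left_inv := fun x => rfl
        right_inv := fun z => rfl }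
  obtain ⟨hst2, hc2⟩ := comp_stem hst π hπs hπc hperf
  rw [hck, hπ2] at hc2
  obtain ⟨Δ, _, _, τΔ, yΔ, fM, hΔs, hΔc, hΔy, hΔ2, -, hfM, -⟩ := Fi22Cov.exists_cover
  obtain ⟨f, hf⟩ := exists_hom_of_max Fi22Cov.perfect_Gf h6 hst2 (by rw [hc2]) hΔs hΔc
  -- lifts of the letters
  choose xt hxt using fun c => hτs (y c)
  -- comparison in the covering group
  have hcmp : ∀ W : Wd, lets 9 W = true → ∃ z ∈ τΔ.ker, f (W.eval xt) = W.eval yΔ * z := by
    intro W hW
    refine ⟨(W.eval yΔ)⁻¹ * f (W.eval xt), ?_, by group⟩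
    rw [MonoidHom.mem_ker, map_mul, map_inv, hf, inv_mul_eq_one]
    rw [Wd.map_eval, Wd.map_eval]
    refine eval_congr (n := 9) ?_ W hW
    intro c hc
    show τΔ (yΔ c) = π (τ (xt c))
    rw [hΔy c hc, hxt, hπy c hc]
  obtain ⟨zx, hzx, ex⟩ := hcmp Fi23Proj.X X_lets
  obtain ⟨zy, hzy, ey⟩ := hcmp Fi23Proj.Y Y_lets
  have hne : cW.eval xt ≠ 1 := by
    intro h
    apply c_ne hΔ2 hfM
    have e1 : f (cW.eval xt) = cW.eval yΔ := by
      have e2 : cW.eval xt = ⁅Fi23Proj.X.eval xt, Fi23Proj.Y.eval xt⁆ := by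
        show Fi23Proj.X.eval xt * Fi23Proj.Y.eval xt * ((Fi23Proj.X.eval xt)⁻¹ * (Fi23Proj.Y.eval xt)⁻¹) = _
        rw [commutatorElement_def, mul_assoc (_ * _)]
      have e3 : cW.eval yΔ = ⁅Fi23Proj.X.eval yΔ, Fi23Proj.Y.eval yΔ⁆ := by
        show Fi23Proj.X.eval yΔ * Fi23Proj.Y.eval yΔ * ((Fi23Proj.X.eval yΔ)⁻¹ * (Fi23Proj.Y.eval yΔ)⁻¹) = _
        rw [commutatorElement_def, mul_assoc (_ * _)]
      rw [e2, e3, map_commutatorElement, ex, ey,
        Cfsg.Agent.Lib.SchurMult.commutatorElement_mul_central (hΔc hzx) (hΔc hzy)]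
    rw [← e1, h, map_one]
  -- the relations in the extension
  obtain ⟨g, hg⟩ := hσ.1 (Fi23Proj.G.eval (Fi23Rel.C.x Fi23A.L0))
  let x' : Γ := (Fi23Proj.X.eval xt : H.comap σ)
  let y' : Γ := (Fi23Proj.Y.eval xt : H.comap σ)
  have hval : ∀ W : Wd, lets 9 W = true → σ ((W.eval xt : H.comap σ) : Γ) = W.eval (Fi23Rel.C.x Fi23A.L0) := by
    intro W hW
    rw [← hτ, Wd.map_eval]
    have e1 : W.eval (fun c => τ (xt c)) = W.eval y := eval_congr (n := 9) (fun c _ => hxt c) W hW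
    rw [e1]
    exact eval_coe (nn := 9) hy W hW
  have hX : σ x' = Fi23Proj.X.eval (Fi23Rel.C.x Fi23A.L0) := hval _ X_lets
  have hY : σ y' = Fi23Proj.Y.eval (Fi23Rel.C.x Fi23A.L0) := hval _ Y_lets
  have hr := Fi23Proj.x_eval
  have r1 := hr (Wd.mul (Wd.mul Fi23Proj.X Fi23Proj.Y) (Wd.mul (Wd.inv Fi23Proj.X) (Wd.inv Fi23Proj.Y))) (by simp [Fi23Proj.xW])
  have r2 := hr (Wd.mul (Wd.mul (Wd.mul Fi23Proj.G Fi23Proj.X) (Wd.inv Fi23Proj.G)) Fi23Proj.X) (by simp [Fi23Proj.xW])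
  have r3 := hr (Wd.mul (Wd.mul (Wd.mul Fi23Proj.G Fi23Proj.Y) (Wd.inv Fi23Proj.G)) (Wd.inv Fi23Proj.Y)) (by simp [Fi23Proj.xW])
  have k1 : x' * y' * (x'⁻¹ * y'⁻¹) ∈ σ.ker := by
    rw [MonoidHom.mem_ker]
    simp only [map_mul, map_inv, hX, hY]
    exact r1
  have k2 : g * x' * g⁻¹ * x' ∈ σ.ker := by
    rw [MonoidHom.mem_ker]
    simp only [map_mul, map_inv, hX, hg]
    exact r2
  have k3 : g * y' * g⁻¹ * y'⁻¹ ∈ σ.ker := by
    rw [MonoidHom.mem_ker]
    simp only [map_mul, map_inv, hY, hg]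
    exact r3
  have h8 := swap hσ.2.1 h3 k1 k2 k3
  exact hne (Subtype.ext h8)

/-- the multiplier of `Fi₂₃` -/
theorem stem_one (h6 : StemDvd Fi22Cov.Gf 6) : StemDvd Gt 1 := by
  obtain ⟨H, hH⟩ : ∃ H : Subgroup Gt, H = Subgroup.closure (wset (Fi23Rel.C.x Fi23A.L0) Fi23A.WS) := ⟨_, rfl⟩
  have hdbl := Fi23Dbl.main H hH
  have hidx : H.index = 31671 := by
    obtain ⟨_, _, _, _, _, _, _, _, _, _, hidx, _⟩ := Cfsg.Agent.Lib.Fi23AIdx.main H hH
    exact hidx
  have hH3 : StemDvd H 3 := stemDvd_dbl hdbl Fi22Cov.perfect_Gf (n := 3) h6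
  apply StemDvd.of_forall
  intro p hp
  haveI : Fact p.Prime := ⟨hp⟩
  by_cases h2 : p = 2
  · subst h2
    exact PStemDvd.of_index (by rw [hidx]; norm_num) (pStem_one_of (by norm_num) hH3)
  by_cases h3 : p = 3
  · subst h3; exact pStem_one_of_no_prime fun Γ _ _ σ hσ => no_three h6 Γ σ hσ
  by_cases h5 : p = 5
  · subst h5
    exact PStemDvd.of_index (by rw [hidx]; norm_num) (pStem_one_of (by norm_num) hH3)
  refine (Cfsg.Agent.Lib.H92Stem.pStemDvd_of_sq ?_).mono (one_dvd _)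
  rw [card_Gt]
  intro hd
  have h1 : p ∣ 4089470473293004800 := (dvd_pow_self p two_ne_zero).trans hd
  rw [show (4089470473293004800 : ℕ) = 2 ^ 18 * (3 ^ 13 * (5 ^ 2 * (7 * (11 * (13 * (17 * 23)))))) by norm_num] at h1
  rcases hp.dvd_mul.1 h1 with h | h1
  · exact absurd ((Nat.prime_dvd_prime_iff_eq hp Nat.prime_two).1 (hp.dvd_of_dvd_pow h)) h2
  rcases hp.dvd_mul.1 h1 with h | h1
  · exact absurd ((Nat.prime_dvd_prime_iff_eq hp Nat.prime_three).1 (hp.dvd_of_dvd_pow h)) h3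
  rcases hp.dvd_mul.1 h1 with h | h1
  · exact absurd ((Nat.prime_dvd_prime_iff_eq hp (by norm_num)).1 (hp.dvd_of_dvd_pow h)) h5
  rcases hp.dvd_mul.1 h1 with h | h1
  · have := (Nat.prime_dvd_prime_iff_eq hp (by norm_num)).1 h
    subst this; revert hd; norm_num
  rcases hp.dvd_mul.1 h1 with h | h1
  · have := (Nat.prime_dvd_prime_iff_eq hp (by norm_num)).1 h
    subst this; revert hd; norm_num
  rcases hp.dvd_mul.1 h1 with h | h1
  · have := (Nat.prime_dvd_prime_iff_eq hp (by norm_num)).1 h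
    subst this; revert hd; norm_num
  rcases hp.dvd_mul.1 h1 with h | h
  · have := (Nat.prime_dvd_prime_iff_eq hp (by norm_num)).1 h
    subst this; revert hd; norm_num
  · have := (Nat.prime_dvd_prime_iff_eq hp (by norm_num)).1 h
    subst this; revert hd; norm_num

/-- the multiplier of `Fi₂₃` -/
theorem mult (hG : StemDvd (PSU 6 K4.K4 2) 12) : HasCyclicSchurMultiplier Fi23 1 :=
  hasTrivial_of_stemDvd (stem_one (Fi22SMM.stem_six hG))

end Cfsg.Agent.Lib.Fi23Mult
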