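import Cfsg.Agent.Lib.FiPerf
import Cfsg.Agent.Lib.Layer
/-
The layer of a primitive 3-transposition group with a sign homomorphism (helper91).
-/
set_option autoImplicit false
set_option linter.all false

namespace Cfsg.Agent.Lib.FiLay

open Cfsg Cfsg.Agent.Lib.ThreeRank3 Cfsg.Agent.Lib.ThreeDescent Cfsg.Agent.Lib.ThreeQuot Cfsg.Agent.Lib.FiPar
  Cfsg.Agent.Lib.FiMu
open scoped commutatorElement

variable {G : Type*} [Group G] {D : Set G}

/-- every non-trivial normal subgroup contains the commutator subgroup -/
theorem comm_le (hD : IsThreeTranspositionGroup D) (hprim : IsPrimitiveUnderConj D) (hZ : Subgroup.center G = ⊥)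
    {N : Subgroup G} (hN : N.Normal) (h : N ≠ ⊥) : commutator G ≤ N := by
  obtain ⟨a, ha, b, hb, hab⟩ := hprim.2.1
  have hpair : ∀ x ∈ D, ∀ y ∈ D, x * y ∈ N := by
    intro x hx y hy
    obtain ⟨n, hn, rfl⟩ := normal_trans hD hprim hZ hN h hy hx
    have h1 := N.mul_mem hn (hN.conj_mem _ (N.inv_mem hn) y)
    have h2 := inv_self hD.1 hy
    have e : n * (y * n⁻¹ * y⁻¹) = n * y * n⁻¹ * y := by rw [h2]; group
    rwa [e] at h1
  rw [commutator_def, Subgroup.commutator_le]
  intro g _ k _
  rcases gen_cases hN hpair ha hD.2.2 g with h1 | h1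
  · have h2 := N.mul_mem h1 (hN.conj_mem _ (N.inv_mem h1) k)
    have e : g * (k * g⁻¹ * k⁻¹) = ⁅g, k⁆ := by rw [commutatorElement_def]; group
    rwa [e] at h2
  · rcases gen_cases hN hpair ha hD.2.2 k with h2 | h2
    · have h3 := N.mul_mem (hN.conj_mem _ h2 g) (N.inv_mem h2)
      have e : g * k * g⁻¹ * k⁻¹ = ⁅g, k⁆ := by rw [commutatorElement_def]
      rwa [e] at h3
    · have h3 : g * k⁻¹ ∈ N := by
        have := N.mul_mem h1 (N.inv_mem h2)
        have e : g * a * (k * a)⁻¹ = g * k⁻¹ := by group
        rwa [e] at this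
      have h4 : k⁻¹ * g ∈ N := by
        have := hN.conj_mem _ h3 k⁻¹
        have e : k⁻¹ * (g * k⁻¹) * k⁻¹⁻¹ = k⁻¹ * g := by group
        rwa [e] at this
      have h5 := N.mul_mem h3 (hN.conj_mem _ (N.mul_mem (hN.conj_mem _ (N.inv_mem h4) k) N.one_mem) k)
      have e : ⁅g, k⁆ = (g * k⁻¹) * (k * (k * (k⁻¹ * g)⁻¹ * k⁻¹ * 1) * k⁻¹) := by
        rw [commutatorElement_def]; group
      rw [e]; exact h5

/-- the commutator subgroup is not commutative -/
theorem comm_ncomm (hD : IsThreeTranspositionGroup D) (hprim : IsPrimitiveUnderConj D)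
    {a b c : G} (ha : a ∈ D) (hb : b ∈ D) (hc : c ∈ D) (hac : a ≠ c) (hcm : Commute a c) (hba : ¬ Commute b a)
    (hbc : ¬ Commute b c) : ∃ x ∈ commutator G, ∃ y ∈ commutator G, ¬ Commute x y := by
  have hone : ∀ a ∈ D, ∀ b ∈ D, ∃ g, g * a * g⁻¹ = b := hprim.1
  have hp := pair_mem_commutator hone (fun a ha => sq_one hD.1 ha)
  refine ⟨a * b, hp a ha b hb, a * c, hp a ha c hc, ?_⟩
  intro h
  have aa := sq_one hD.1 ha
  have bb := sq_one hD.1 hb
  have cc := sq_one hD.1 hc
  have h1 : a * b * (a * c) = a * c * (a * b) := h.eq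
  have h2 : b * a * c = c * a * b := by
    calc b * a * c = (a * a) * (b * a * c) := by rw [aa, one_mul]
      _ = a * (a * b * (a * c)) := by group
      _ = a * (a * c * (a * b)) := by rw [h1]
      _ = (a * a) * (c * a * b) := by group
      _ = c * a * b := by rw [aa, one_mul]
  have h3 : b * a * b = a * b * a := by
    have := braid hD.1 hb ha hba
    rw [this]
  have h4 : b * c * b = c * b * c := by
    have := braid hD.1 hb hc hbc
    rw [this]
  have h5 : (a * b * a) * (c * b * c) = a * c := by
    rw [← h3, ← h4]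
    calc b * a * b * (b * c * b) = b * a * (b * b) * c * b := by group
      _ = b * a * c * b := by rw [bb, mul_one]
      _ = c * a * b * b := by rw [h2]
      _ = c * a * (b * b) := by group
      _ = a * c := by rw [bb, mul_one, hcm.eq]
  have h6 : b * (a * c) * b = 1 := by
    calc b * (a * c) * b = (a * a) * (b * (a * c) * b) * (c * c) := by rw [aa, cc, one_mul, mul_one]
      _ = a * ((a * b * a) * (c * b * c)) * c := by group
      _ = a * (a * c) * c := by rw [h5]
      _ = (a * a) * (c * c) := by group
      _ = 1 := by rw [aa, cc, one_mul]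
  have h7 : a * c = 1 := by
    calc a * c = (b * b) * (a * c) * (b * b) := by rw [bb, one_mul, mul_one]
      _ = b * (b * (a * c) * b) * b := by group
      _ = b * b := by rw [h6, mul_one]
      _ = 1 := bb
  apply hac
  calc a = a * (c * c) := by rw [cc, mul_one]
    _ = (a * c) * c := by group
    _ = c := by rw [h7, one_mul]

/-- the commutator subgroup is the kernel of the sign -/
theorem comm_eq_ker (hD : IsThreeTranspositionGroup D) (hprim : IsPrimitiveUnderConj D) (χ : G →* ℤˣ)
    (hχ : ∀ d ∈ D, χ d = -1) : commutator G = χ.ker := by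
  obtain ⟨a, ha, b, hb, hab⟩ := hprim.2.1
  apply le_antisymm
  · exact Abelianization.commutator_subset_ker χ
  · intro g hg
    rw [MonoidHom.mem_ker] at hg
    rcases gen_cases (N := commutator G) inferInstance
      (pair_mem_commutator hprim.1 (fun a ha => sq_one hD.1 ha)) ha hD.2.2 g with h1 | h1
    · exact h1
    · exfalso
      have h2 := Abelianization.commutator_subset_ker χ h1
      rw [MonoidHom.mem_ker, map_mul, hg, hχ a ha] at h2
      exact absurd h2 (by decide)

theorem comm_index (hD : IsThreeTranspositionGroup D) (hprim : IsPrimitiveUnderConj D) (χ : G →* ℤˣ)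
    (hχ : ∀ d ∈ D, χ d = -1) : (commutator G).index = 2 := by
  obtain ⟨a, ha, b, hb, hab⟩ := hprim.2.1
  rw [comm_eq_ker hD hprim χ hχ, Subgroup.index_ker]
  have : χ.range = ⊤ := by
    rw [MonoidHom.range_eq_top]
    intro u
    rcases Int.units_eq_one_or u with rfl | rfl
    · exact ⟨1, map_one χ⟩
    · exact ⟨a, hχ a ha⟩
  rw [this, Subgroup.card_top, Nat.card_eq_fintype_card]
  rfl

/-- the layer is the commutator subgroup, of index 2 -/
theorem layer_eq [Finite G] (hD : IsThreeTranspositionGroup D) (hprim : IsPrimitiveUnderConj D) (hZ : Subgroup.center G = ⊥)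
    (hn : ∃ x ∈ commutator G, ∃ y ∈ commutator G, ¬ Commute x y) : layer G = commutator G := by
  apply le_antisymm
  · rw [← Layer.layer_perfect G, commutator_def]
    exact Subgroup.commutator_mono le_top le_top
  · have hln : (layer G).Normal := by
      have := Layer.layer_characteristic G
      infer_instance
    apply comm_le hD hprim hZ hln
    intro hbot
    obtain ⟨x, hx, y, hy, hxy⟩ := hn
    by_cases hf : fittingSubgroup G = ⊥
    · have h1 := Layer.centralizer_genFitting_le (G := G)
      have h2 : generalizedFittingSubgroup G = ⊥ := by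
        unfold generalizedFittingSubgroup
        rw [hbot, hf, sup_bot_eq]
      rw [h2] at h1
      have h3 : ∀ g : G, g = 1 := by
        intro g
        have : g ∈ Subgroup.centralizer ((⊥ : Subgroup G) : Set G) := by
          rw [Subgroup.mem_centralizer_iff]
          intro z hz
          have hz1 : z = 1 := by simpa using hz
          rw [hz1, one_mul, mul_one]
        simpa using h1 this
      apply hxy
      rw [h3 x, h3 y]
    · have hFn : (fittingSubgroup G).Normal := inferInstance
      have hnil := Layer.isNilpotent_fittingSubgroup G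
      have hnt : Nontrivial ↥(fittingSubgroup G) := (Subgroup.nontrivial_iff_ne_bot _).mpr hf
      have hZne : Subgroup.center ↥(fittingSubgroup G) ≠ ⊥ := by
        exact Group.IsNilpotent.center_ne_bot _
      set Z : Subgroup G := (Subgroup.center ↥(fittingSubgroup G)).map (fittingSubgroup G).subtype with hZdef
      have hZn : Z.Normal := Layer.map_subtype_normal inferInstance
      have hZb : Z ≠ ⊥ := by
        intro h
        apply hZne
        rw [hZdef, Subgroup.map_eq_bot_iff] at h
        rw [eq_bot_iff]
        exact h.trans (by rw [Subgroup.ker_subtype])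
      have h1 := comm_le hD hprim hZ hZn hZb
      apply hxy
      obtain ⟨x', hx', rfl⟩ := h1 hx
      obtain ⟨y', hy', rfl⟩ := h1 hy
      have h2 := Subgroup.mem_center_iff.mp hx' y'
      show (fittingSubgroup G).subtype x' * (fittingSubgroup G).subtype y' = (fittingSubgroup G).subtype y' * (fittingSubgroup G).subtype x'
      rw [← map_mul, ← map_mul, h2]

end Cfsg.Agent.Lib.FiLay
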