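import Cfsg.Agent.Lib.H89MV8
/-
Groups of type M(22): automorphisms acting trivially on C(d₁,d₂)/O₂ (helper37).
-/
set_option autoImplicit false
set_option linter.all false

namespace Cfsg.Agent.Lib.FiLE

open Cfsg Cfsg.Agent.Lib.ThreeRank3 Cfsg.Agent.Lib.ThreeDescent Cfsg.Agent.Lib.ThreeQuot Cfsg.Agent.Lib.FiPar
  Cfsg.Agent.Lib.ThreeSimple Cfsg.Agent.Lib.ThreeTypes Cfsg.Agent.Lib.FiComp Cfsg.Agent.Lib.FiMu
open Cfsg.Agent.Lib.UnTrans Cfsg.Agent.Lib.UnBridge Cfsg.Agent.Lib.H89MU Cfsg.Agent.Lib.H89MV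
open Cfsg.Agent.Lib.U6Class (SS P tr)
open scoped Matrix

variable {G : Type*} [Group G] {D : Set G}
variable {d₁ d₂ : G} {F : Type} [Field F] [Fintype F] [CharP F 2] {hF : Fintype.card F = 2 ^ 2}
  {π : SS (hermForm 6 F 2) →* QQ D d₁}

/-- automorphisms preserving `D` and the pair, and trivial on `KK/EE` -/
structure QP (C : Ctx D d₁ d₂ F hF π) (α : MulAut G) : Prop where
  hD : ∀ x ∈ D, α x ∈ D
  pr : (α d₁ = d₁ ∧ α d₂ = d₂) ∨ (α d₁ = d₂ ∧ α d₂ = d₁)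
  tr : ∀ k ∈ KK d₁ d₂, α k * k⁻¹ ∈ C.EE

variable (C : Ctx D d₁ d₂ F hF π)
include C

theorem QP.mK {α : MulAut G} (h : QP C α) {k : G} (hk : k ∈ KK d₁ d₂) : α k ∈ KK d₁ d₂ := by
  have := C.EE_le (h.tr k hk)
  have e : α k = (α k * k⁻¹) * k := by group
  rw [e]; exact mul_mem this hk

theorem QP.mE {α : MulAut G} (h : QP C α) {k : G} (hk : k ∈ C.EE) : α k ∈ C.EE := by
  have := h.tr k (C.EE_le hk)
  have e : α k = (α k * k⁻¹) * k := by group
  rw [e]; exact mul_mem this hk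

theorem QP.mul {α β : MulAut G} (hα : QP C α) (hβ : QP C β) : QP C (α * β) where
  hD := fun x hx => hα.hD _ (hβ.hD x hx)
  pr := by
    show (α (β d₁) = d₁ ∧ α (β d₂) = d₂) ∨ (α (β d₁) = d₂ ∧ α (β d₂) = d₁)
    rcases hα.pr with h | h <;> rcases hβ.pr with h' | h'
    · left; rw [h'.1, h'.2]; exact h
    · right; rw [h'.1, h'.2]; exact ⟨h.2, h.1⟩
    · right; rw [h'.1, h'.2]; exact h
    · left; rw [h'.1, h'.2]; exact ⟨h.2, h.1⟩
  tr := fun k hk => by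
    have e : (α * β) k * k⁻¹ = (α (β k) * (β k)⁻¹) * (β k * k⁻¹) := by
      rw [MulAut.mul_apply]; group
    rw [e]
    exact mul_mem (hα.tr _ (hβ.mK C hk)) (hβ.tr k hk)

theorem QP.inn {e : G} (he : e ∈ C.EE) : QP C (MulAut.conj e) where
  hD := fun x hx => C.tg.2.1 e x hx
  pr := by
    left
    have := mem_KK.1 (C.EE_le he)
    rw [MulAut.conj_apply, MulAut.conj_apply]
    exact ⟨by rw [this.1.eq, mul_inv_cancel_right], by rw [this.2.eq, mul_inv_cancel_right]⟩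
  tr := fun k hk => by
    rw [MulAut.conj_apply]
    have e1 : e * k * e⁻¹ * k⁻¹ = e * (k * e⁻¹ * k⁻¹) := by group
    rw [e1]
    exact mul_mem he (C.EE_conj hk (inv_mem he))

theorem QP.line {α : MulAut G} (hα : QP C α) {v : Fin 4 → F} (hiso : hermForm 4 F 2 v v = 0) (hne : v ≠ 0) (x : F) :
    ∃ y, α (C.Av v x) = C.Av v y := by
  have hA := C.Av_KK hiso hne x
  have hAm := C.Av_mem hiso hne x
  have hbK := hα.mK C hA
  have hbne : α (C.Av v x) ≠ d₁ := by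
    intro h
    rcases hα.pr with h' | h'
    · have := α.injective (h.trans h'.1.symm)
      exact hAm.2.1 this
    · have := α.injective (h.trans h'.2.symm)
      exact C.Av_ne_d2 hiso hne x this
  have hb : α (C.Av v x) ∈ Dd D d₁ := ⟨hα.hD _ hAm.1, hbne, (mem_KK.1 hbK).1.symm⟩
  have hb2 : Commute (α (C.Av v x)) d₂ := (mem_KK.1 hbK).2
  obtain ⟨w, hw, hw0, hwA⟩ := C.A_surj hb
  have hwe : hermForm 6 F 2 w ee = 0 := by
    rw [← C.A_comm hw hw0 ee_ee ee_ne, C.A_ee, hwA]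
    exact hb2
  have h4 := hα.tr _ hA
  rw [C.mem_EE] at h4
  obtain ⟨h5, h6⟩ := h4
  have hwK : C.A w ∈ KK d₁ d₂ := C.A_KK hw hw0 hwe
  have h7 : (⟨α (C.Av v x) * (C.Av v x)⁻¹, h5⟩ : KK d₁ d₂) = ⟨C.A w, hwK⟩ * (⟨C.Av v x, hA⟩)⁻¹ := by
    apply Subtype.ext
    show α (C.Av v x) * (C.Av v x)⁻¹ = C.A w * (C.Av v x)⁻¹
    rw [hwA]
  rw [h7, map_mul, map_inv, C.Phi_A hw hw0 hwe, C.Phi_Av hiso hne x, MonoidHom.mem_ker, map_mul, map_inv,
    mul_inv_eq_one] at h6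
  have h8 : H89MU.TT hF (tvc hF hiso x) = H89MU.TT hF (tvc hF hiso 0) := by
    have h9 : sv hF hiso x 0 ∈ RK hF := sv_mem hF hiso x 0
    rw [MonoidHom.mem_ker, sv, map_mul] at h9
    have h10 : sv hF hiso 0 0 ∈ RK hF := sv_mem hF hiso 0 0
    rw [MonoidHom.mem_ker, sv, map_mul] at h10
    exact (eq_inv_of_mul_eq_one_left h9).trans (eq_inv_of_mul_eq_one_left h10).symm
  rw [h8] at h6
  obtain ⟨μ, hμ, hpr⟩ := tm_same hF hw hwe hiso hne h6
  refine ⟨μ⁻¹ * w 0, ?_⟩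
  rw [← hwA]
  have h11 : w = μ • (io v + (μ⁻¹ * w 0) • ee) := by
    conv_lhs => rw [decomp_perp hwe]
    rw [smul_vc, hpr, ← mul_assoc, mul_inv_cancel₀ hμ, one_mul]
  conv_lhs => rw [h11]
  rw [C.A_smul (vc_iso hF hiso _) (vc_ne hne _) hμ]

/-- elements of EE act as translations on the lines -/
theorem EE_trans {e : G} (he : e ∈ C.EE) {v : Fin 4 → F} (hv : hermForm 4 F 2 v v = 0) (hv0 : v ≠ 0) :
    ∃ τ, ∀ x, e * C.Av v x * e⁻¹ = C.Av v (x + τ) := by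
  obtain ⟨hK, h⟩ := C.mem_EE.1 he
  refine ⟨cc (C.Phi ⟨e, hK⟩) v, fun y => ?_⟩
  have := C.Av_conj ⟨e, hK⟩ hv hv0 y
  rw [MonoidHom.mem_ker.1 h] at this
  exact this

theorem exists_EE (d : F) : ∃ e ∈ C.EE, ∀ x, e * C.Av v1 x * e⁻¹ = C.Av v1 (x + d) := by
  obtain ⟨r, hr, hrc⟩ := exists_rr hF d
  obtain ⟨kr, hkr⟩ := C.lift_M r
  refine ⟨kr, C.mem_EE.2 ⟨kr.2, by rw [show (⟨(kr : G), kr.2⟩ : KK d₁ d₂) = kr from rfl, hkr]; exact hr⟩, fun x => ?_⟩
  rw [C.Av_conj kr v1_iso v1_ne, hkr, hrc, MonoidHom.mem_ker.1 hr]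
  rfl

theorem scal (β : F) (hβ : β ≠ 0) : ∃ k ∈ KK d₁ d₂, ∀ x, k * C.Av v1 x * k⁻¹ = C.Av v1 (β⁻¹ * x) := by
  have hiso := v1_iso (F := F)
  have hne := v1_ne (F := F)
  obtain ⟨m, hm1, hm2⟩ := exists_kk hF hβ
  obtain ⟨k, hk⟩ := C.lift_M m
  refine ⟨k, k.2, fun x => ?_⟩
  rw [C.Av_conj k hiso hne, hk, hm1, hm2, add_zero]
  have e : io (β • v1) + x • (ee : Fin 6 → F) = β • (io v1 + (β⁻¹ * x) • ee) := by
    rw [smul_vc, ← mul_assoc, mul_inv_cancel₀ hβ, one_mul]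
  show C.A (io (β • v1) + x • ee) = _
  rw [e, C.A_smul (vc_iso hF hiso _) (vc_ne hne _) hβ]

/-- the square acts as an element of EE -/
def SqE (C : Ctx D d₁ d₂ F hF π) (α : MulAut G) : Prop := ∃ e ∈ C.EE, ∀ x, α (α x) = e * x * e⁻¹

theorem trans0 {α : MulAut G} (hα : QP C α) (hs : SqE C α) (h0 : α (C.Av v1 0) = C.Av v1 0) :
    ∀ x, α (C.Av v1 x) = C.Av v1 x := by
  have hiso := v1_iso (F := F)
  have hne := v1_ne (F := F)
  choose φ hφ using fun x => hα.line C hiso hne x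
  have hφ0 : φ 0 = 0 := C.Av_inj hiso hne ((hφ 0).symm.trans h0)
  have hcommute : ∀ β : F, β ≠ 0 → ∀ x, φ (β⁻¹ * x) = β⁻¹ * φ x := by
    intro β hβ x
    obtain ⟨k, hkK, hk⟩ := scal C β hβ
    set u : G := α k * k⁻¹ with hu
    have huE : u ∈ C.EE := hα.tr k hkK
    have hku : α k = u * k := by rw [hu]; group
    obtain ⟨τ, hτ⟩ := EE_trans C huE hiso hne
    have e0 : ∀ y, α (C.Av v1 (β⁻¹ * y)) = C.Av v1 (β⁻¹ * φ y + τ) := by
      intro y
      rw [← hk, map_mul, map_mul, map_inv, hφ, hku]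
      have e1 : u * k * C.Av v1 (φ y) * (u * k)⁻¹ = u * (k * C.Av v1 (φ y) * k⁻¹) * u⁻¹ := by group
      rw [e1, hk, hτ]
    have hτ0 : τ = 0 := by
      have h1 := e0 0
      rw [mul_zero, h0, hφ0, mul_zero, zero_add] at h1
      exact (C.Av_inj hiso hne h1).symm
    have h1 := e0 x
    rw [hφ, hτ0, add_zero] at h1
    exact C.Av_inj hiso hne h1
  have hlin : ∀ x, φ x = x * φ 1 := by
    intro x
    by_cases hx : x = 0
    · rw [hx, hφ0, zero_mul]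
    · have := hcommute x⁻¹ (inv_ne_zero hx) 1
      rwa [inv_inv, mul_one] at this
  obtain ⟨e, heE, he⟩ := hs
  obtain ⟨τ, hτ⟩ := EE_trans C heE hiso hne
  have hsq : ∀ x, φ (φ x) = x + τ := by
    intro x
    have h1 := he (C.Av v1 x)
    rw [hφ, hφ, hτ] at h1
    exact C.Av_inj hiso hne h1
  have hτ0 : τ = 0 := by
    have h1 := hsq 0
    rw [hφ0, hφ0, zero_add] at h1
    exact h1.symm
  have h1 : φ 1 * φ 1 = 1 := by
    have h2 := hsq 1
    rw [hτ0, add_zero, hlin (φ 1)] at h2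
    exact h2
  have h2 : φ 1 = 1 := by
    have h3 : (φ 1 + 1) * (φ 1 + 1) = 0 := by
      have : (φ 1 + 1) * (φ 1 + 1) = φ 1 * φ 1 + (φ 1 + φ 1) + 1 := by ring
      rw [this, h1, CharTwo.add_self_eq_zero, add_zero, CharTwo.add_self_eq_zero]
    have h4 := mul_self_eq_zero.1 h3
    rw [← CharTwo.add_self_eq_zero (1 : F)] at h4
    exact add_right_cancel h4
  intro x
  rw [hφ, hlin, h2, mul_one]

theorem SqE.mulE {α : MulAut G} (hα : QP C α) (hs : SqE C α) {e : G} (he : e ∈ C.EE) : SqE C (MulAut.conj e * α) := by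
  obtain ⟨f, hf, hf1⟩ := hs
  refine ⟨e * α e * f, mul_mem (mul_mem he (hα.mE C he)) hf, fun x => ?_⟩
  show e * α (e * α x * e⁻¹) * e⁻¹ = _
  rw [map_mul, map_mul, map_inv, hf1]
  group

theorem trans1 {α : MulAut G} (hα : QP C α) (hs : SqE C α) : ∃ τ, ∀ x, α (C.Av v1 x) = C.Av v1 (x + τ) := by
  have hiso := v1_iso (F := F)
  have hne := v1_ne (F := F)
  obtain ⟨d, hd⟩ := hα.line C hiso hne 0
  obtain ⟨e, he, hed⟩ := exists_EE C d
  have h1 := trans0 C ((QP.inn C he).mul C hα) (SqE.mulE C hα hs he) (by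
    rw [MulAut.mul_apply, hd, MulAut.conj_apply, hed, CharTwo.add_self_eq_zero])
  refine ⟨d, fun x => ?_⟩
  have h2 := h1 x
  rw [MulAut.mul_apply, MulAut.conj_apply] at h2
  have h3 := hed (x + d)
  rw [add_assoc, CharTwo.add_self_eq_zero, add_zero] at h3
  exact mul_left_cancel (mul_right_cancel (h2.trans h3.symm))

omit C in
theorem tup3 {a b c : G} (ha : a ∈ D) (hb : b ∈ Dd D a) (hc : c ∈ Dd D a) (hcb : c ∈ Dd D b) : Tup D 3 [a, b, c] := by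
  refine ⟨?_, rfl, ?_, ?_⟩
  · simp only [List.nodup_cons, List.mem_cons, List.not_mem_nil, or_false, not_or, List.nodup_nil, and_true, not_false_iff]
    exact ⟨⟨hb.2.1.symm, hc.2.1.symm⟩, hcb.2.1.symm⟩
  · intro x hx
    simp only [List.mem_cons, List.not_mem_nil, or_false] at hx
    rcases hx with rfl | rfl | rfl
    · exact ha
    · exact hb.1
    · exact hc.1
  · intro x hx y hy
    simp only [List.mem_cons, List.not_mem_nil, or_false] at hx hy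
    rcases hx with rfl | rfl | rfl <;> rcases hy with rfl | rfl | rfl
    · exact Commute.refl _
    · exact hb.2.2
    · exact hc.2.2
    · exact hb.2.2.symm
    · exact Commute.refl _
    · exact hcb.2.2
    · exact hc.2.2.symm
    · exact hcb.2.2.symm
    · exact Commute.refl _

/-- KK is transitive on the transpositions commuting with `d₁, d₂` -/
theorem exists_move {x y : G} (hx : x ∈ Dd D d₁) (hx2 : x ∈ Dd D d₂) (hy : y ∈ Dd D d₁) (hy2 : y ∈ Dd D d₂) :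
    ∃ g ∈ KK d₁ d₂, g * x * g⁻¹ = y := by
  obtain ⟨g, hg⟩ := C.t3 _ _ (tup3 C.h₁ C.h₂ hx hx2) (tup3 C.h₁ C.h₂ hy hy2)
  simp only [List.map_cons, List.map_nil, List.cons.injEq, and_true] at hg
  exact ⟨g, mem_KK.2 ⟨mul_inv_eq_iff_eq_mul.1 hg.1, mul_inv_eq_iff_eq_mul.1 hg.2.1⟩, hg.2.2⟩

/-- the line of `v` is conjugate to the line of `v1` -/
theorem exists_param {v : Fin 4 → F} (hv : hermForm 4 F 2 v v = 0) (hv0 : v ≠ 0) :
    ∃ g ∈ KK d₁ d₂, ∃ μ : F, μ ≠ 0 ∧ ∃ γ : F, ∀ x, g * C.Av v1 x * g⁻¹ = C.Av v (μ * x + γ) := by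
  have hiso := v1_iso (F := F)
  have hne := v1_ne (F := F)
  have s1 := C.Av_mem hiso hne 0
  have s2 := C.Av_mem hv hv0 0
  obtain ⟨g, hg, hg0⟩ := exists_move C s1 ⟨s1.1, C.Av_ne_d2 hiso hne 0, (mem_KK.1 (C.Av_KK hiso hne 0)).2.symm⟩
    s2 ⟨s2.1, C.Av_ne_d2 hv hv0 0, (mem_KK.1 (C.Av_KK hv hv0 0)).2.symm⟩
  have h1 := fun x => C.Av_conj ⟨g, hg⟩ hiso hne x
  set w := a4 (H89MU.TT hF (C.Phi ⟨g, hg⟩)) v1 with hw
  set γ := cc (C.Phi ⟨g, hg⟩) v1 with hγ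
  have hwiso : hermForm 4 F 2 w w = 0 := TT_iso hF (C.Phi ⟨g, hg⟩) hiso
  have hwne : w ≠ 0 := by
    intro h
    have : (v1 : Fin 4 → F) = 0 := by
      apply (a4 (H89MU.TT hF (C.Phi ⟨g, hg⟩))).injective
      rw [← hw, h, map_zero]
    exact hne this
  have h2 := (h1 0).symm.trans hg0
  obtain ⟨c, hc, hc2⟩ := C.A_inj (vc_iso hF hwiso _) (vc_ne hwne _) (vc_iso hF hv _) (vc_ne hv0 _) h2
  rw [smul_vc] at hc2
  obtain ⟨e1, e2⟩ := vc_inj hc2
  refine ⟨g, hg, c⁻¹, inv_ne_zero hc, c⁻¹ * γ, fun x => ?_⟩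
  rw [show g * C.Av v1 x * g⁻¹ = C.Av w (x + γ) from h1 x, e1]
  have e : io (c • v) + (x + γ) • (ee : Fin 6 → F) = c • (io v + (c⁻¹ * x + c⁻¹ * γ) • ee) := by
    rw [smul_vc, ← mul_add, ← mul_assoc, mul_inv_cancel₀ hc, one_mul]
  show C.A (io (c • v) + (x + γ) • ee) = _
  rw [e, C.A_smul (vc_iso hF hv _) (vc_ne hv0 _) hc]

/-- the action on all lines is by translations -/
theorem trans {α : MulAut G} (hα : QP C α) (hs : SqE C α) {v : Fin 4 → F} (hv : hermForm 4 F 2 v v = 0) (hv0 : v ≠ 0) :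
    ∃ τ, ∀ x, α (C.Av v x) = C.Av v (x + τ) := by
  obtain ⟨g, hg, μ, hμ, γ, hγ⟩ := exists_param C hv hv0
  obtain ⟨τ, hτ⟩ := trans1 C hα hs
  set u : G := α g * g⁻¹ with hu
  have huE : u ∈ C.EE := hα.tr g hg
  have hgu : α g = u * g := by rw [hu]; group
  obtain ⟨σ, hσ⟩ := EE_trans C huE hv hv0
  refine ⟨μ * τ + σ, fun y => ?_⟩
  have e1 : C.Av v y = g * C.Av v1 (μ⁻¹ * (y + γ)) * g⁻¹ := by
    rw [hγ, ← mul_assoc, mul_inv_cancel₀ hμ, one_mul, add_assoc, CharTwo.add_self_eq_zero, add_zero]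
  rw [e1, map_mul, map_mul, map_inv, hτ, hgu]
  have e2 : u * g * C.Av v1 (μ⁻¹ * (y + γ) + τ) * (u * g)⁻¹ = u * (g * C.Av v1 (μ⁻¹ * (y + γ) + τ) * g⁻¹) * u⁻¹ := by group
  rw [e2, hγ, hσ]
  congr 1
  rw [mul_add, ← mul_assoc, mul_inv_cancel₀ hμ, one_mul]
  have h2 : γ + γ = 0 := CharTwo.add_self_eq_zero γ
  linear_combination h2

/-- commutators with EE lie in ⟨d₁d₂⟩ -/
theorem comm_J {α : MulAut G} (hα : QP C α) (hs : SqE C α) {e : G} (he : e ∈ C.EE) :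
    α e = e ∨ α e = e * (d₁ * d₂) := by
  have hj : α (d₁ * d₂) = d₁ * d₂ := by
    rw [map_mul]
    rcases hα.pr with h | h
    · rw [h.1, h.2]
    · rw [h.1, h.2]; exact C.h₂.2.2.eq.symm
  have hjc : ∀ k ∈ KK d₁ d₂, Commute k (d₁ * d₂) := fun k hk => (mem_KK.1 hk).1.mul_right (mem_KK.1 hk).2
  have hjj : (d₁ * d₂) * (d₁ * d₂) = 1 := by
    have : (d₁ * d₂) * (d₁ * d₂) = d₁ * (d₂ * d₁) * d₂ := by group
    rw [this, ← C.h₂.2.2.eq, ← mul_assoc, C.d1_sq, one_mul, C.d2_sq]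
  have hE := C.EE_eq ▸ he
  refine Subgroup.closure_induction (p := fun e _ => α e = e ∨ α e = e * (d₁ * d₂)) ?_ ?_ ?_ ?_ hE |> fun h => h
  · intro x hx
    rcases hx with hx | hx
    swap
    · simp only [Set.mem_insert_iff, Set.mem_singleton_iff] at hx
      have i1 : d₂ = d₁ * (d₁ * d₂) := by rw [← mul_assoc, C.d1_sq, one_mul]
      have i2 : d₁ = d₂ * (d₁ * d₂) := by rw [C.h₂.2.2.eq, ← mul_assoc, C.d2_sq, one_mul]
      rcases hx with rfl | rfl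
      · rcases hα.pr with h | h
        · exact Or.inl h.1
        · exact Or.inr (h.1.trans i1)
      · rcases hα.pr with h | h
        · exact Or.inl h.2
        · exact Or.inr (h.2.trans i2)
    obtain ⟨v, hv, hv0, c, d, rfl⟩ := hx
    obtain ⟨τ, hτ⟩ := trans C hα hs hv hv0
    have sq : ∀ a, C.Av v a * C.Av v a = 1 := C.Av_sq hv hv0
    have cm : ∀ a b, C.Av v a * C.Av v b = C.Av v b * C.Av v a := fun a b => (C.Av_comm hv hv0 a b).eq
    have inv : (C.Av v c * C.Av v d) * (C.Av v c * C.Av v d) = 1 := by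
      calc (C.Av v c * C.Av v d) * (C.Av v c * C.Av v d) = C.Av v c * (C.Av v d * C.Av v c) * C.Av v d := by group
        _ = (C.Av v c * C.Av v c) * (C.Av v d * C.Av v d) := by rw [cm d c]; group
        _ = 1 := by rw [sq, sq, one_mul]
    rw [map_mul, hτ, hτ]
    rcases C.pair_Av hv hv0 c d τ with h | h
    · left
      exact mul_left_cancel (h.trans inv.symm)
    · right
      have : (C.Av v c * C.Av v d) * ((C.Av v c * C.Av v d) * (d₁ * d₂)) = d₁ * d₂ := by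
        rw [← mul_assoc, inv, one_mul]
      exact mul_left_cancel (h.trans this.symm)
  · left; exact map_one α
  · intro x y hx hy h1 h2
    have hyK : Commute y (d₁ * d₂) := hjc y (C.EE_le (by rw [C.EE_eq]; exact hy))
    rw [map_mul]
    rcases h1 with h1 | h1 <;> rcases h2 with h2 | h2 <;> rw [h1, h2]
    · left; rfl
    · right; rw [mul_assoc]
    · right
      rw [mul_assoc, ← hyK.eq, ← mul_assoc]
    · left
      have e1 : x * (d₁ * d₂) * (y * (d₁ * d₂)) = x * ((d₁ * d₂) * y) * (d₁ * d₂) := by group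
      rw [e1, ← hyK.eq]
      have e2 : x * (y * (d₁ * d₂)) * (d₁ * d₂) = x * y * ((d₁ * d₂) * (d₁ * d₂)) := by group
      rw [e2, hjj, mul_one]
  · intro x hx h1
    have hxK : Commute x (d₁ * d₂) := hjc x (C.EE_le (by rw [C.EE_eq]; exact hx))
    rw [map_inv]
    rcases h1 with h1 | h1 <;> rw [h1]
    · left; rfl
    · right
      rw [mul_inv_rev, inv_eq_of_mul_eq_one_left hjj]
      exact hxK.inv_left.eq.symm

end Cfsg.Agent.Lib.FiLE
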