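import Cfsg.Agent.Lib.FiLE0
/-
Groups of type M(22): transpositions not commuting with d₂ (helper37).
-/
set_option autoImplicit false
set_option linter.all false

namespace Cfsg.Agent.Lib.FiLE

open Cfsg Cfsg.Agent.Lib.ThreeRank3 Cfsg.Agent.Lib.ThreeDescent Cfsg.Agent.Lib.ThreeQuot Cfsg.Agent.Lib.FiPar
  Cfsg.Agent.Lib.ThreeSimple Cfsg.Agent.Lib.ThreeTypes Cfsg.Agent.Lib.FiComp Cfsg.Agent.Lib.FiMu
open Cfsg.Agent.Lib.UnTrans Cfsg.Agent.Lib.UnBridge Cfsg.Agent.Lib.H89MU Cfsg.Agent.Lib.H89MV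
open Cfsg.Agent.Lib.U6Class (SS P tr)
open scoped Matrix

section vec

variable {F : Type} [Field F] [Fintype F] [CharP F 2]

/-- the opposite isotropic vector -/
def ff (ω : F) : Fin 6 → F := x0 + ω • ee

theorem two_zero : (2 : F) = 0 := CharTwo.two_eq_zero

theorem ff_ee (ω : F) : hermForm 6 F 2 (ff ω) ee = 1 := by
  rw [f6_ee_right]
  show (1 + ω * 1) + (0 + ω * 1) = 1
  linear_combination ω * (two_zero (F := F))

theorem ff_ff (ω : F) : hermForm 6 F 2 (ff ω) (ff ω) = 1 + ω + ω ^ 2 := by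
  rw [f6_apply]
  show (1 + ω * 1) * (1 + ω * 1) ^ 2 + (0 + ω * 1) * (0 + ω * 1) ^ 2 + (0 + ω * 0) * (0 + ω * 0) ^ 2 +
    (0 + ω * 0) * (0 + ω * 0) ^ 2 + (0 + ω * 0) * (0 + ω * 0) ^ 2 + (0 + ω * 0) * (0 + ω * 0) ^ 2 = _
  linear_combination (ω + ω ^ 2 + ω ^ 3) * (two_zero (F := F))

theorem ff_iso {ω : F} (hω : ω ^ 2 = ω + 1) : hermForm 6 F 2 (ff ω) (ff ω) = 0 := by
  rw [ff_ff]
  linear_combination hω + (ω + 1) * (two_zero (F := F))

theorem ff_ne (ω : F) : ff ω ≠ 0 := by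
  intro h
  have := ff_ee ω
  rw [h, f6_apply] at this
  simp at this

theorem pr_x0 : pr (x0 : Fin 6 → F) = 0 := by
  ext i
  fin_cases i <;> rfl

theorem pr_ff (ω : F) : pr (ff ω) = 0 := by
  rw [ff, map_add, map_smul, pr_ee, pr_x0, smul_zero, add_zero]

theorem reach_add (hF : Fintype.card F = 2 ^ 2) {u v : Fin 4 → F} (hu : ∃ r ∈ RK hF, pr (ap r x0) = u)
    (hv : ∃ r ∈ RK hF, pr (ap r x0) = v) : ∃ r ∈ RK hF, pr (ap r x0) = u + v := by
  obtain ⟨r, hr, rfl⟩ := hu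
  obtain ⟨s, hs, rfl⟩ := hv
  refine ⟨r * s, mul_mem hr hs, ?_⟩
  rw [ap_mul]
  have h1 : ap s x0 0 + ap s x0 1 = 1 := by
    rw [← f6_ee_right, show hermForm 6 F 2 (ap s x0) ee = hermForm 6 F 2 (ap s x0) (ap s ee) by rw [ap_ee], ap_form, x0_ee]
  have e : ∀ (a : Fin 4 → F) (b : F), pr (ap r (io a + b • ee + x0)) = a + pr (ap r x0) := by
    intro a b
    have e1 : ap r (io a + b • ee + x0) = (io a + cc r a • ee) + b • ee + ap r x0 := by
      rw [map_add (ap r), map_add (ap r), map_smul (ap r), (mem_RK hF).1 hr, ap_ee]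
    rw [e1, map_add, map_add, map_add, map_smul, map_smul, pr_ee, smul_zero, smul_zero, add_zero, add_zero, pr_io]
  have e2 := decomp_all (ap s x0)
  rw [h1, one_smul] at e2
  rw [show ap r (ap s x0) = ap r (io (pr (ap s x0)) + ap s x0 1 • ee + x0) from congrArg (ap r) e2, e, add_comm]

theorem reach_smul (hF : Fintype.card F = 2 ^ 2) {v : Fin 4 → F} (hv : hermForm 4 F 2 v v = 0) (μ : F) :
    ∃ r ∈ RK hF, pr (ap r x0) = μ • v := by
  refine ⟨sv hF hv (sig hF μ) 0, sv_mem hF hv _ _, ?_⟩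
  rw [sv_x0, (herm_HS 6 hF).inv, map_zero, zero_smul, add_zero, map_add, map_smul, pr_vc, pr_x0, zero_add]

theorem reach (hF : Fintype.card F = 2 ^ 2) (u : Fin 4 → F) : ∃ r ∈ RK hF, pr (ap r x0) = u := by
  obtain ⟨ω, h0, h1, hω, -⟩ := exists_omega hF
  obtain ⟨b1, b2, b3, b4⟩ := iso_basis hF h0
  rw [span_iso hF hω u]
  exact reach_add hF (reach_add hF (reach_add hF (reach_smul hF b1 _) (reach_smul hF b2 _)) (reach_smul hF b3 _))
    (reach_smul hF b4 _)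

theorem hit (hF : Fintype.card F = 2 ^ 2) {ω : F} (hω : ω ^ 2 = ω + 1) {w : Fin 6 → F} (hw : hermForm 6 F 2 w w = 0)
    (hwe : hermForm 6 F 2 w ee = 1) : ∃ r ∈ RK hF, ap r (ff ω) = w := by
  obtain ⟨r, hr, hru⟩ := reach hF (pr w)
  have H := herm_HS 6 hF
  have hw01 : w 0 + w 1 = 1 := by rw [← f6_ee_right]; exact hwe
  have hy : ∃ δ : F, ap r (ff ω) = w + δ • ee := by
    have h1 : ap r x0 0 + ap r x0 1 = 1 := by
      rw [← f6_ee_right, show hermForm 6 F 2 (ap r x0) ee = hermForm 6 F 2 (ap r x0) (ap r ee) by rw [ap_ee], ap_form, x0_ee]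
    refine ⟨ap r x0 1 + ω - w 1, ?_⟩
    rw [ff, map_add, map_smul, ap_ee]
    have g1 := decomp_all (ap r x0)
    have g2 := decomp_all w
    rw [hru, h1, one_smul] at g1
    rw [hw01, one_smul] at g2
    have g3 : ap r x0 - w = (ap r x0 1 - w 1) • ee :=
      (congrArg₂ (fun a b => a - b) g1 g2).trans (by module)
    rw [sub_eq_iff_eq_add] at g3
    rw [show ap r x0 + ω • (ee : Fin 6 → F) = ((ap r x0 1 - w 1) • ee + w) + ω • ee from congrArg (fun a => a + ω • (ee : Fin 6 → F)) g3]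
    module
  obtain ⟨δ, hδ⟩ := hy
  have h2 : hermForm 6 F 2 (w + δ • ee) (w + δ • ee) = 0 := by
    rw [← hδ, ap_form, ff_iso hω]
  have hew : hermForm 6 F 2 ee w = 1 := by rw [H.herm, hwe, map_one]
  rw [H.add_left, H.add_right, H.add_right, H.smul_left, H.smul_left, H.smul_right, H.smul_right, hw, hwe, hew, ee_ee,
    mul_one, mul_one, mul_zero, mul_zero, add_zero, zero_add] at h2
  rcases tr0_cases hF δ (by rw [add_comm]; exact h2) with h | h
  · refine ⟨r, hr, ?_⟩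
    rw [hδ, h, zero_smul, add_zero]
  · refine ⟨te hF * r, mul_mem (te_mem_RK hF) hr, ?_⟩
    rw [ap_mul, hδ, h, one_smul, te_apply]
    have h3 : (w + ee : Fin 6 → F) 0 + (w + ee : Fin 6 → F) 1 = 1 := by
      show (w 0 + 1) + (w 1 + 1) = 1
      linear_combination hw01 + (two_zero (F := F))
    rw [h3, one_smul, add_assoc]
    have : (ee + ee : Fin 6 → F) = 0 := by
      ext i
      exact CharTwo.add_self_eq_zero _
    rw [this, add_zero]

end vec

variable {G : Type*} [Group G] {D : Set G}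
variable {d₁ d₂ : G} {F : Type} [Field F] [Fintype F] [CharP F 2] {hF : Fintype.card F = 2 ^ 2}
  {π : SS (hermForm 6 F 2) →* QQ D d₁}

variable (C : Ctx D d₁ d₂ F hF π)
include C

/-- commuting with both -/
theorem S_eq {x : G} (hx : x ∈ Dd D d₁) (hx2 : x ∈ Dd D d₂) : ∃ v : Fin 4 → F, hermForm 4 F 2 v v = 0 ∧ v ≠ 0 ∧
    ∃ c, x = C.Av v c := by
  obtain ⟨w, hw, hw0, rfl⟩ := C.A_surj hx
  have hwe : hermForm 6 F 2 w ee = 0 := by
    rw [← C.A_comm hw hw0 ee_ee ee_ne, C.A_ee]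
    exact hx2.2.2.symm
  have h1 := decomp_perp hwe
  refine ⟨pr w, pr_iso hF hw hwe, ?_, w 0, ?_⟩
  · intro h
    rw [h, map_zero, zero_add] at h1
    have hc : w 0 ≠ 0 := by
      intro h0
      rw [h0, zero_smul] at h1
      exact hw0 h1
    apply hx2.2.1
    rw [h1, C.A_smul ee_ee ee_ne hc, C.A_ee]
  · conv_lhs => rw [h1]

theorem opp_ff {ω : F} (hω : ω ^ 2 = ω + 1) : C.A (ff ω) ∈ Dd D d₁ ∧ ¬ Commute (C.A (ff ω)) d₂ := by
  refine ⟨C.A_mem (ff_iso hω) (ff_ne ω), ?_⟩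
  have := C.A_comm (ff_iso hω) (ff_ne ω) ee_ee ee_ne
  rw [C.A_ee, ff_ee] at this
  rw [this]
  exact one_ne_zero

theorem opp_vec {x : G} (hx : x ∈ Dd D d₁) (hn : ¬ Commute x d₂) : ∃ w, hermForm 6 F 2 w w = 0 ∧ w ≠ 0 ∧
    hermForm 6 F 2 w ee = 1 ∧ x = C.A w := by
  obtain ⟨w, hw, hw0, rfl⟩ := C.A_surj hx
  have H := herm_HS 6 hF
  have hwe : hermForm 6 F 2 w ee ≠ 0 := by
    intro h
    apply hn
    have := (C.A_comm hw hw0 ee_ee ee_ne).2 h
    rwa [C.A_ee] at this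
  refine ⟨(hermForm 6 F 2 w ee)⁻¹ • w, ?_, smul_ne_zero (inv_ne_zero hwe) hw0, ?_, (C.A_smul hw hw0 (inv_ne_zero hwe)).symm⟩
  · rw [H.smul_left, H.smul_right, hw, mul_zero, mul_zero]
  · rw [H.smul_left, inv_mul_cancel₀ hwe]

theorem opp_reach {ω : F} (hω : ω ^ 2 = ω + 1) {x : G} (hx : x ∈ Dd D d₁) (hn : ¬ Commute x d₂) :
    ∃ e ∈ C.EE, e * C.A (ff ω) * e⁻¹ = x := by
  obtain ⟨w, hw, hw0, hwe, rfl⟩ := opp_vec C hx hn
  obtain ⟨r, hr, hrw⟩ := hit hF hω hw hwe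
  obtain ⟨k, hk⟩ := C.lift_M r
  refine ⟨k, C.mem_EE.2 ⟨k.2, by rw [show (⟨(k : G), k.2⟩ : KK d₁ d₂) = k from rfl, hk]; exact hr⟩, ?_⟩
  rw [C.A_conj k (ff_iso hω) (ff_ne ω), hk, hrw]

/-- `EE` is transitive on the transpositions of `Dd d₁` not commuting with `d₂` -/
theorem opp_trans {x y : G} (hx : x ∈ Dd D d₁) (hn : ¬ Commute x d₂) (hy : y ∈ Dd D d₁) (hn' : ¬ Commute y d₂) :
    ∃ e ∈ C.EE, e * x * e⁻¹ = y := by
  obtain ⟨ω, -, -, hω, -⟩ := exists_omega hF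
  obtain ⟨e, he, rfl⟩ := opp_reach C hω hx hn
  obtain ⟨f, hf, rfl⟩ := opp_reach C hω hy hn'
  refine ⟨f * e⁻¹, mul_mem hf (inv_mem he), ?_⟩
  group

/-- each line has a unique member commuting with a given opposite transposition -/
theorem line_one {x : G} (hx : x ∈ Dd D d₁) (hn : ¬ Commute x d₂) {v : Fin 4 → F} (hv : hermForm 4 F 2 v v = 0)
    (hv0 : v ≠ 0) : ∃ c, Commute (C.Av v c) x ∧ ∀ c', Commute (C.Av v c') x → c' = c := by
  obtain ⟨w, hw, hw0, hwe, rfl⟩ := opp_vec C hx hn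
  have H := herm_HS 6 hF
  have hew : hermForm 6 F 2 ee w = 1 := by rw [H.herm, hwe, map_one]
  have key : ∀ c, Commute (C.Av v c) (C.A w) ↔ c = hermForm 6 F 2 (io v) w := by
    intro c
    rw [C.A_comm (vc_iso hF hv c) (vc_ne hv0 c) hw hw0, H.add_left, H.smul_left, hew, mul_one]
    constructor
    · intro h
      linear_combination h - hermForm 6 F 2 (io v) w * (two_zero (F := F))
    · intro h
      rw [h]
      exact CharTwo.add_self_eq_zero _
  exact ⟨_, (key _).2 rfl, fun c' h => (key c').1 h⟩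

/-- the hyperbolic line of `d₂` and `x` -/
theorem hyp_line {x y : G} (hx : x ∈ Dd D d₁) (hn : ¬ Commute x d₂) (hy : y ∈ Dd D d₁)
    (h : ∀ u, u ∈ Dd D d₁ → u ∈ Dd D d₂ → Commute u x → Commute u y) : y = d₂ ∨ y = x ∨ y = d₂ * x * d₂⁻¹ := by
  obtain ⟨ω, hω0, hω1, hω, hcases⟩ := exists_omega hF
  have H := herm_HS 6 hF
  have H4 := herm_HS 4 hF
  -- the standard case
  have key : ∀ y, y ∈ Dd D d₁ → (∀ u, u ∈ Dd D d₁ → u ∈ Dd D d₂ → Commute u (C.A (ff ω)) → Commute u y) →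
      y = d₂ ∨ y = C.A (ff ω) ∨ y = d₂ * C.A (ff ω) * d₂⁻¹ := by
    intro y hy h
    obtain ⟨w, hw, hw0, rfl⟩ := C.A_surj hy
    have h1 : ∀ u : Fin 4 → F, hermForm 4 F 2 u u = 0 → u ≠ 0 → hermForm 4 F 2 u (pr w) = 0 := by
      intro u hu hu0
      have a1 := C.Av_mem hu hu0 0
      have a2 : C.Av u 0 ∈ Dd D d₂ := ⟨a1.1, C.Av_ne_d2 hu hu0 0, (mem_KK.1 (C.Av_KK hu hu0 0)).2.symm⟩
      have a3 : Commute (C.Av u 0) (C.A (ff ω)) := by
        rw [C.A_comm (vc_iso hF hu 0) (vc_ne hu0 0) (ff_iso hω) (ff_ne ω), zero_smul, add_zero, f6_io_left, pr_ff,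
          H4.zero_right]
      have a4 := h _ a1 a2 a3
      rw [C.A_comm (vc_iso hF hu 0) (vc_ne hu0 0) hw hw0, zero_smul, add_zero, f6_io_left] at a4
      exact a4
    have h1' : ∀ u : Fin 4 → F, hermForm 4 F 2 u u = 0 → hermForm 4 F 2 u (pr w) = 0 := by
      intro u hu
      by_cases hu0 : u = 0
      · rw [hu0, H4.zero_left]
      · exact h1 u hu hu0
    have h2 : pr w = 0 := by
      apply f4_nd hF
      intro z
      obtain ⟨b1, b2, b3, b4⟩ := iso_basis hF hω0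
      rw [span_iso hF hω z, H4.add_left, H4.add_left, H4.add_left, H4.smul_left, H4.smul_left, H4.smul_left, H4.smul_left,
        h1' _ b1, h1' _ b2, h1' _ b3, h1' _ b4]
      ring
    have h3 := decomp_all w
    rw [h2, map_zero, zero_add] at h3
    by_cases hβ : w 0 + w 1 = 0
    · left
      rw [hβ, zero_smul, add_zero] at h3
      have hc : w 1 ≠ 0 := by
        intro h0
        rw [h0, zero_smul] at h3
        exact hw0 h3
      rw [h3, C.A_smul ee_ee ee_ne hc, C.A_ee]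
    · right
      set β := w 0 + w 1 with hβdef
      set γ := β⁻¹ * w 1 with hγ
      have h4 : w = β • ff γ := by
        rw [ff, smul_add, smul_smul, hγ, ← mul_assoc, mul_inv_cancel₀ hβ, one_mul, add_comm]
        exact h3
      have h5 : hermForm 6 F 2 (ff γ) (ff γ) = 0 := by
        rw [h4, H.smul_left, H.smul_right] at hw
        rcases mul_eq_zero.1 hw with h | h
        · exact absurd h hβ
        · rcases mul_eq_zero.1 h with h | h
          · exact absurd h (H.sigma_ne hβ)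
          · exact h
      have h6 : C.A w = C.A (ff γ) := by
        rw [h4, C.A_smul h5 (ff_ne γ) hβ]
      rw [h6]
      rw [ff_ff] at h5
      rcases hcases γ with g | g | g | g
      · rw [g] at h5
        simp at h5
      · rw [g] at h5
        exfalso
        apply one_ne_zero (α := F)
        linear_combination h5 - (two_zero (F := F))
      · left; rw [g]
      · right
        have h7 := C.A_conj (⟨d₂, mem_KK.2 ⟨C.h₂.2.2.symm, Commute.refl _⟩⟩ : KK d₁ d₂) (ff_iso hω) (ff_ne ω)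
        rw [C.Phi_d2, te_apply] at h7
        have h8 : (ff ω 0 + ff ω 1 : F) = 1 := by
          rw [← f6_ee_right]; exact ff_ee ω
        rw [h8, one_smul] at h7
        have h9 : (ff ω + ee : Fin 6 → F) = ff (ω + 1) := by
          rw [ff, ff, add_smul, one_smul, add_assoc]
        rw [h9] at h7
        rw [g]
        exact h7.symm
  obtain ⟨e, he, rfl⟩ := opp_reach C hω hx hn
  have heK := mem_KK.1 (C.EE_le he)
  have hc := C.tg.2.1
  have e1 : e * d₁ * e⁻¹ = d₁ := by rw [heK.1.eq, mul_inv_cancel_right]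
  have e2 : e * d₂ * e⁻¹ = d₂ := by rw [heK.2.eq, mul_inv_cancel_right]
  have e1' : e⁻¹ * d₁ * e⁻¹⁻¹ = d₁ := by rw [inv_inv]; nth_rw 1 [← e1]; group
  have e2' : e⁻¹ * d₂ * e⁻¹⁻¹ = d₂ := by rw [inv_inv]; nth_rw 1 [← e2]; group
  have hy' : e⁻¹ * y * e⁻¹⁻¹ ∈ Dd D d₁ := by
    have := Dd_conj hc (g := e⁻¹) hy
    rwa [e1'] at this
  have h1 := key (e⁻¹ * y * e⁻¹⁻¹) hy' (by
    intro u hu1 hu2 huc
    have b1 : e * u * e⁻¹ ∈ Dd D d₁ := by
      have := Dd_conj hc (g := e) hu1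
      rwa [e1] at this
    have b2 : e * u * e⁻¹ ∈ Dd D d₂ := by
      have := Dd_conj hc (g := e) hu2
      rwa [e2] at this
    have b3 := h _ b1 b2 (commute_conj_iff.2 huc)
    have b4 : Commute (e * u * e⁻¹) (e * (e⁻¹ * y * e⁻¹⁻¹) * e⁻¹) := by
      have : e * (e⁻¹ * y * e⁻¹⁻¹) * e⁻¹ = y := by group
      rw [this]; exact b3
    exact commute_conj_iff.1 b4)
  have h2 : y = e * (e⁻¹ * y * e⁻¹⁻¹) * e⁻¹ := by group
  rcases h1 with h1 | h1 | h1
  · left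
    rw [h2, h1, e2]
  · right; left
    rw [h2, h1]
  · right; right
    rw [h2, h1]
    have : e * (d₂ * C.A (ff ω) * d₂⁻¹) * e⁻¹ = (e * d₂ * e⁻¹) * (e * C.A (ff ω) * e⁻¹) * (e * d₂ * e⁻¹)⁻¹ := by group
    rw [this, e2]

end Cfsg.Agent.Lib.FiLE
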