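import Cfsg.Agent.Lib.FiLE1
import Cfsg.Agent.Lib.FiY1
import Cfsg.Agent.Lib.FiPair3
import Cfsg.Agent.Lib.FiOnly
import Cfsg.Agent.Lib.FiGlueE73
/-
Groups of type M(22): automorphisms fixing the transpositions commuting with a transposition (helper37).
-/
set_option autoImplicit false
set_option linter.all false

namespace Cfsg.Agent.Lib.FiLE

open Cfsg Cfsg.Agent.Lib.ThreeRank3 Cfsg.Agent.Lib.ThreeDescent Cfsg.Agent.Lib.ThreeQuot Cfsg.Agent.Lib.FiPar
  Cfsg.Agent.Lib.ThreeSimple Cfsg.Agent.Lib.ThreeTypes Cfsg.Agent.Lib.FiComp Cfsg.Agent.Lib.FiMu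
open Cfsg.Agent.Lib.UnTrans Cfsg.Agent.Lib.UnBridge Cfsg.Agent.Lib.H89MU Cfsg.Agent.Lib.H89MV
open Cfsg.Agent.Lib.U6Class (SS P tr)
open Cfsg.Agent.Lib.FiHex
open Cfsg.Agent.Lib.FiGlue (out22)
open scoped Matrix

theorem mem_cof {X : Type*} [Group X] {a x : X} : x ∈ conjugatesOf a ↔ IsConj a x := Iff.rfl

theorem class_of {X : Type*} [Group X] {N : Set X} (hN : IsThreeTranspositionGroup N) (hprim : IsPrimitiveUnderConj N) :
    IsThreeTranspositionClass N := by
  obtain ⟨h1, ⟨a, ha, _⟩, _⟩ := hprim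
  refine ⟨hN.1, ⟨a, ha, ?_⟩, hN.2.2⟩
  ext x
  rw [mem_cof, isConj_iff]
  constructor
  · intro hx
    exact h1 a ha x hx
  · rintro ⟨c, rfl⟩
    exact hN.2.1 c a ha

theorem class_map {X X' : Type*} [Group X] [Group X'] {N : Set X} (hN : IsThreeTranspositionClass N) (e : X ≃* X') :
    IsThreeTranspositionClass (e '' N) := by
  obtain ⟨⟨h1, h2⟩, ⟨a, ha, h3⟩, h4⟩ := hN
  refine ⟨⟨?_, ?_⟩, ⟨e a, ⟨a, ha, rfl⟩, ?_⟩, ?_⟩
  · rintro _ ⟨x, hx, rfl⟩
    rw [MulEquiv.orderOf_eq]; exact h1 x hx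
  · rintro _ ⟨x, hx, rfl⟩ _ ⟨y, hy, rfl⟩
    rcases h2 x hx y hy with h | h
    · left; rw [← map_mul, ← map_pow, h, map_one]
    · right; rw [← map_mul, ← map_pow, h, map_one]
  · ext y
    rw [mem_cof, isConj_iff]
    constructor
    · rintro ⟨x, hx, rfl⟩
      rw [h3, mem_cof, isConj_iff] at hx
      obtain ⟨c, rfl⟩ := hx
      exact ⟨e c, by rw [map_mul, map_mul, map_inv]⟩
    · rintro ⟨c, rfl⟩
      refine ⟨e.symm c * a * (e.symm c)⁻¹, ?_, by rw [map_mul, map_mul, map_inv, e.apply_symm_apply]⟩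
      rw [h3, mem_cof, isConj_iff]
      exact ⟨_, rfl⟩
  · have h5 : (e '' N : Set X') = e.toMonoidHom '' N := rfl
    rw [h5, ← MonoidHom.map_closure, h4, ← MonoidHom.range_eq_map, MonoidHom.range_eq_top]
    exact e.surjective


variable {G : Type*} [Group G] [Finite G] {D : Set G}

theorem autD (hP : PSU62Simple) (hD : IsThreeTranspositionGroup D) (hprim : IsPrimitiveUnderConj D)
    (h : IsOfTypeM22 G D) (α : MulAut G) : ∀ x ∈ D, α x ∈ D := by
  have h1 : α '' D = D := only_class hP hD hprim h (class_map (class_of hD hprim) α)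
  intro x hx
  rw [← h1]
  exact ⟨x, hx, rfl⟩

theorem cent_HH (hP : PSU62Simple) (hD : IsThreeTranspositionGroup D) (hprim : IsPrimitiveUnderConj D)
    (h : IsOfTypeM22 G D) {d₁ : G} (h₁ : d₁ ∈ D) : HH D d₁ = Subgroup.centralizer {d₁} := by
  obtain ⟨L, hpar, _, _, hcm, hcard⟩ := full22 hP hD hprim h
  exact HH_eq_cent L hcm h₁ (rp22 hP hD hprim h d₁ h₁)

/-- an automorphism fixing `Dd d₁` fixes the centralizer -/
theorem fix_cent (hP : PSU62Simple) (hD : IsThreeTranspositionGroup D) (hprim : IsPrimitiveUnderConj D)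
    (h : IsOfTypeM22 G D) {d₁ : G} (h₁ : d₁ ∈ D) {z : MulAut G} (hz : ∀ x ∈ Dd D d₁, z x = x) {g : G}
    (hg : g * d₁ = d₁ * g) : z g = g := by
  have h1 : g ∈ HH D d₁ := by
    rw [cent_HH hP hD hprim h h₁, Subgroup.mem_centralizer_singleton_iff]
    exact hg
  have h2 : g ∈ Subgroup.closure (Dd D d₁) := h1
  refine Subgroup.closure_induction (p := fun g _ => z g = g) ?_ (map_one z) ?_ ?_ h2
  · intro x hx; exact hz x hx
  · intro x y _ _ hx hy; rw [map_mul, hx, hy]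
  · intro x _ hx; rw [map_inv, hx]

theorem fix_all (hP : PSU62Simple) (hD : IsThreeTranspositionGroup D) (hprim : IsPrimitiveUnderConj D)
    (h : IsOfTypeM22 G D) {d₁ : G} (h₁ : d₁ ∈ D) {z : MulAut G} (hz : ∀ x ∈ Dd D d₁, z x = x) {y₀ : G} (hy₀ : y₀ ∈ D)
    (hn : ¬ Commute d₁ y₀) (hzy : z y₀ = y₀) : z = 1 := by
  have L := (full22 hP hD hprim h).1
  have h2 : ∀ y ∈ D, z y = y := by
    intro y hy
    by_cases hc : Commute d₁ y
    · exact fix_cent hP hD hprim h h₁ hz hc.eq.symm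
    · obtain ⟨g, hg1, hg2⟩ := FiPair.nc_pairs L h₁ hy₀ h₁ hy hn hc
      have hg : z g = g := fix_cent hP hD hprim h h₁ hz (mul_inv_eq_iff_eq_mul.1 hg1)
      rw [← hg2, map_mul, map_mul, map_inv, hg, hzy]
  have h3 : Subgroup.closure D = ⊤ := hD.2.2
  apply MulEquiv.ext
  intro x
  have hx : x ∈ Subgroup.closure D := by rw [h3]; trivial
  refine Subgroup.closure_induction (p := fun g _ => z g = g) ?_ (map_one z) ?_ ?_ hx
  · intro x hx; exact h2 x hx
  · intro x y _ _ hx hy; rw [map_mul, hx, hy]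
  · intro x _ hx; rw [map_inv, hx]

/-- an automorphism fixing `Dd d₁` is trivial or conjugation by `d₁` -/
theorem fix_Dd (hP : PSU62Simple) (hD : IsThreeTranspositionGroup D) (hprim : IsPrimitiveUnderConj D)
    (h : IsOfTypeM22 G D) {d₁ : G} (h₁ : d₁ ∈ D) {z : MulAut G} (hz : ∀ x ∈ Dd D d₁, z x = x) :
    z = 1 ∨ z = MulAut.conj d₁ := by
  have Y := yd22 hP hD hprim h
  have hsq : d₁ * d₁ = 1 := sq_one hD.1 h₁
  have hzd : z d₁ = d₁ := fix_cent hP hD hprim h h₁ hz rfl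
  -- a transposition not commuting with d₁
  obtain ⟨f, hf⟩ : (Dd D d₁).Nonempty := by
    rw [← Set.ncard_pos (Set.toFinite _), Y.hd.u1 d₁ h₁]
    norm_num
  obtain ⟨y₀, hy₀f, hn⟩ := Y.nc f hf.1 d₁ (Dd_symm h₁ hf)
  have hy₀ : y₀ ∈ D := hy₀f.1
  have key : z y₀ = y₀ ∨ z y₀ = d₁ * y₀ * d₁⁻¹ := by
    have hp1 : f ∈ Dd D d₁ := hf
    have hp2 : f ∈ Dd D y₀ := Dd_symm hf.1 hy₀f
    obtain ⟨F, iF, iFt, iCh, hF, π, C⟩ := exists_ctx hP hD hprim h hf.1 (Dd_symm h₁ hp1)
    have hzf : z f = f := hz f hp1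
    have hy1 : y₀ ∈ Dd D f := hy₀f
    have hzy : z y₀ ∈ Dd D f := by
      refine ⟨autD hP hD hprim h z _ hy₀, ?_, ?_⟩
      · intro he
        rw [← hzf] at he
        exact hy1.2.1 (z.injective he)
      · have := hy1.2.2.map z
        rwa [hzf] at this
    rcases hyp_line C hy1 (fun hc => hn hc.symm) hzy (by
      intro u hu1 hu2 huc
      have h3 : Commute (z u) (z y₀) := huc.map z
      rwa [hz u hu2] at h3) with h4 | h4 | h4
    · exfalso
      rw [← hzd] at h4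
      exact hn (by rw [z.injective h4])
    · exact Or.inl h4
    · exact Or.inr h4
  rcases key with hk | hk
  · left
    exact fix_all hP hD hprim h h₁ hz hy₀ hn hk
  · right
    have h1 : MulAut.conj d₁ * z = 1 := by
      apply fix_all hP hD hprim h h₁ _ hy₀ hn
      · rw [MulAut.mul_apply, hk, MulAut.conj_apply]
        have e : d₁ * (d₁ * y₀ * d₁⁻¹) * d₁⁻¹ = (d₁ * d₁) * y₀ * (d₁ * d₁)⁻¹ := by group
        rw [e, hsq, one_mul, inv_one, mul_one]
      · intro x hx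
        rw [MulAut.mul_apply, hz x hx, MulAut.conj_apply, hx.2.2.eq, mul_inv_cancel_right]
    have h2 : MulAut.conj d₁ * MulAut.conj d₁ = (1 : MulAut G) := by
      rw [← map_mul, hsq, map_one]
    calc z = (MulAut.conj d₁ * MulAut.conj d₁) * z := by rw [h2, one_mul]
      _ = MulAut.conj d₁ * (MulAut.conj d₁ * z) := by rw [mul_assoc]
      _ = MulAut.conj d₁ := by rw [h1, mul_one]

section
variable {d₁ d₂ : G} {F : Type} [Field F] [Fintype F] [CharP F 2] {hF : Fintype.card F = 2 ^ 2}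
  {π : SS (hermForm 6 F 2) →* QQ D d₁}

/-- a member of the kernel fixing `d₁` is inner -/
theorem inner_of_fix (hP : PSU62Simple) (hD : IsThreeTranspositionGroup D) (hprim : IsPrimitiveUnderConj D)
    (h : IsOfTypeM22 G D) (C : Ctx D d₁ d₂ F hF π) {t : MulAut G} (ht : QP C t) (hs : SqE C t) (h1 : t d₁ = d₁) :
    t ∈ Inn G := by
  have h2 : t d₂ = d₂ := by
    rcases ht.pr with h | h
    · exact h.2
    · exfalso
      exact C.h₂.2.1 (h.1.symm.trans h1)
  obtain ⟨ω, hω0, hω1, hω, -⟩ := exists_omega hF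
  obtain ⟨hx, hxn⟩ := opp_ff C hω
  set x := C.A (ff ω) with hxdef
  have htx : t x ∈ Dd D d₁ := by
    refine ⟨ht.hD _ hx.1, ?_, ?_⟩
    · intro he
      rw [← h1] at he
      exact hx.2.1 (t.injective he)
    · have := hx.2.2.map t
      rwa [h1] at this
  have htn : ¬ Commute (t x) d₂ := by
    intro hc
    apply hxn
    have h3 : Commute (t x) (t d₂) := by rwa [h2]
    have h4 := h3.map t.symm
    rwa [MulEquiv.symm_apply_apply, MulEquiv.symm_apply_apply] at h4
  obtain ⟨e, he, hex⟩ := opp_trans C htx htn hx hxn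
  have heK := mem_KK.1 (C.EE_le he)
  set t' : MulAut G := MulAut.conj e * t with ht'
  have q1 : QP C t' := (QP.inn C he).mul C ht
  have q2 : SqE C t' := SqE.mulE C ht hs he
  have q3 : t' x = x := by rw [ht', MulAut.mul_apply, MulAut.conj_apply, hex]
  have q4 : t' d₁ = d₁ := by
    rw [ht', MulAut.mul_apply, MulAut.conj_apply, h1, heK.1.eq, mul_inv_cancel_right]
  have q5 : t' d₂ = d₂ := by
    rw [ht', MulAut.mul_apply, MulAut.conj_apply, h2, heK.2.eq, mul_inv_cancel_right]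
  have q6 : ∀ {v : Fin 4 → F}, hermForm 4 F 2 v v = 0 → v ≠ 0 → ∀ c, t' (C.Av v c) = C.Av v c := by
    intro v hv hv0
    obtain ⟨τ, hτ⟩ := trans C q1 q2 hv hv0
    obtain ⟨c, hc, huniq⟩ := line_one C hx hxn hv hv0
    have h3 : Commute (t' (C.Av v c)) (t' x) := hc.map t'
    rw [hτ, q3] at h3
    have h4 := huniq _ h3
    have h5 : τ = 0 := by
      have : c + τ = c + 0 := by rw [h4, add_zero]
      exact add_left_cancel this
    intro c'
    rw [hτ, h5, add_zero]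
  have q7 : ∀ e ∈ C.EE, t' e = e := by
    intro e he
    rw [C.EE_eq] at he
    refine Subgroup.closure_induction (p := fun g _ => t' g = g) ?_ (map_one t') ?_ ?_ he
    · intro x hx
      rcases hx with ⟨v, hv, hv0, c, d, rfl⟩ | hx
      · rw [map_mul, q6 hv hv0, q6 hv hv0]
      · simp only [Set.mem_insert_iff, Set.mem_singleton_iff] at hx
        rcases hx with rfl | rfl
        · exact q4
        · exact q5
    · intro x y _ _ hx hy; rw [map_mul, hx, hy]
    · intro x _ hx; rw [map_inv, hx]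
  have q8 : ∀ y ∈ Dd D d₁, t' y = y := by
    intro y hy
    by_cases hc : Commute y d₂
    · by_cases hy2 : y = d₂
      · rw [hy2]; exact q5
      · obtain ⟨v, hv, hv0, c, rfl⟩ := S_eq C hy ⟨hy.1, hy2, hc.symm⟩
        exact q6 hv hv0 c
    · obtain ⟨f, hf, hfy⟩ := opp_trans C hx hxn hy hc
      rw [← hfy, map_mul, map_mul, map_inv, q7 f hf, q3]
  have q9 : t' ∈ Inn G := by
    rcases fix_Dd hP hD hprim h C.h₁ q8 with h3 | h3
    · rw [h3]; exact one_mem _
    · exact ⟨d₁, h3.symm⟩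
  have q10 : t = (MulAut.conj e)⁻¹ * t' := by rw [ht']; group
  rw [q10]
  exact mul_mem (inv_mem ⟨e, rfl⟩) q9

end

end Cfsg.Agent.Lib.FiLE
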