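import Cfsg.Agent.Lib.FiLE2
/-
Groups of type M(22): the centralizer of an inner automorphism in the automorphism group (helper37).
-/
set_option autoImplicit false
set_option linter.all false

namespace Cfsg.Agent.Lib.FiLE

open Cfsg Cfsg.Agent.Lib.ThreeRank3 Cfsg.Agent.Lib.ThreeDescent Cfsg.Agent.Lib.ThreeQuot Cfsg.Agent.Lib.FiPar
  Cfsg.Agent.Lib.ThreeSimple Cfsg.Agent.Lib.ThreeTypes Cfsg.Agent.Lib.FiComp Cfsg.Agent.Lib.FiMu
open Cfsg.Agent.Lib.UnTrans Cfsg.Agent.Lib.UnBridge Cfsg.Agent.Lib.H89MU Cfsg.Agent.Lib.H89MV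
open Cfsg.Agent.Lib.U6Class (SS P tr)
open Cfsg.Agent.Lib.FiHex
open Cfsg.Agent.Lib.FiGlue (out22)
open scoped Matrix

section gen

variable {G : Type*} [Group G]

theorem conj_eq (α : MulAut G) (g : G) : α * MulAut.conj g * α⁻¹ = MulAut.conj (α g) := by
  ext x
  show α (g * α⁻¹ x * g⁻¹) = α g * x * (α g)⁻¹
  rw [map_mul, map_mul, map_inv]
  congr 2
  exact α.apply_symm_apply x

theorem conj_inj (hZ : Subgroup.center G = ⊥) {a b : G} (h : (MulAut.conj a : MulAut G) = MulAut.conj b) : a = b := by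
  have h1 : b⁻¹ * a ∈ Subgroup.center G := by
    rw [Subgroup.mem_center_iff]
    intro g
    have h2 : a * g * a⁻¹ = b * g * b⁻¹ := by
      have := congrArg (fun e : MulAut G => e g) h
      exact this
    calc g * (b⁻¹ * a) = b⁻¹ * (b * g * b⁻¹) * a := by group
      _ = b⁻¹ * (a * g * a⁻¹) * a := by rw [h2]
      _ = b⁻¹ * a * g := by group
  rw [hZ, Subgroup.mem_bot] at h1
  exact (inv_mul_eq_one.1 h1).symm

theorem exists_act {A K S : Type*} [Group A] [Group K] [Group S] (ρ : A →* MulAut K) (θ : K →* S)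
    (hθ : Function.Surjective θ) (hk : ∀ (a : A) (n : K), θ n = 1 → θ (ρ a n) = 1) :
    ∃ α : A →* MulAut S, ∀ a n, α a (θ n) = θ (ρ a n) := by
  have hker : ∀ a : A, θ.ker ≤ (θ.comp (ρ a : K ≃* K).toMonoidHom).ker := by
    intro a n hn
    exact hk a n hn
  let β : A → (S →* S) := fun a => θ.liftOfSurjective hθ ⟨_, hker a⟩
  have hβ : ∀ a n, β a (θ n) = θ (ρ a n) := fun a n => by
    exact MonoidHom.liftOfRightInverse_comp_apply θ _ _ ⟨_, hker a⟩ n
  have hmul : ∀ a b s, β (a * b) s = β a (β b s) := by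
    intro a b s
    obtain ⟨n, rfl⟩ := hθ s
    rw [hβ, hβ, hβ, map_mul]
    rfl
  have hone : ∀ s, β 1 s = s := by
    intro s
    obtain ⟨n, rfl⟩ := hθ s
    rw [hβ, map_one]
    rfl
  let α : A →* MulAut S :=
    { toFun := fun a => MonoidHom.toMulEquiv (β a) (β a⁻¹)
        (MonoidHom.ext fun s => by
          show β a⁻¹ (β a s) = s
          rw [← hmul, inv_mul_cancel, hone])
        (MonoidHom.ext fun s => by
          show β a (β a⁻¹ s) = s
          rw [← hmul, mul_inv_cancel, hone])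
      map_one' := MulEquiv.ext hone
      map_mul' := fun a b => MulEquiv.ext (hmul a b) }
  exact ⟨α, hβ⟩

end gen

variable {G : Type*} [Group G] {D : Set G}
variable {d₁ d₂ : G} {F : Type} [Field F] [Fintype F] [CharP F 2] {hF : Fintype.card F = 2 ^ 2}
  {π : SS (hermForm 6 F 2) →* QQ D d₁}

/-- the centralizer of the inner automorphism of `d₁d₂` -/
abbrev CA (d₁ d₂ : G) : Subgroup (MulAut G) := Subgroup.centralizer ({MulAut.conj (d₁ * d₂)} : Set (MulAut G))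

theorem mem_CA (hZ : Subgroup.center G = ⊥) {α : MulAut G} : α ∈ CA d₁ d₂ ↔ α (d₁ * d₂) = d₁ * d₂ := by
  rw [Subgroup.mem_centralizer_singleton_iff, ← mul_inv_eq_iff_eq_mul, conj_eq]
  constructor
  · intro h; exact conj_inj hZ h
  · intro h; rw [h]

variable (hZ : Subgroup.center G = ⊥) (hA : ∀ α : MulAut G, ∀ x ∈ D, α x ∈ D) (C : Ctx D d₁ d₂ F hF π)
include hZ hA C

theorem CA_pair {α : MulAut G} (hα : α ∈ CA d₁ d₂) : (α d₁ = d₁ ∧ α d₂ = d₂) ∨ (α d₁ = d₂ ∧ α d₂ = d₁) := by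
  rw [mem_CA hZ] at hα
  rw [map_mul] at hα
  have hne : d₁ ≠ d₂ := C.h₂.2.1.symm
  have hcomm : Commute d₁ d₂ := C.h₂.2.2
  exact pair_eq C.tg.1 C.VT (hA α d₁ C.h₁) (hA α d₂ C.h₂.1) C.h₁ C.h₂.1 (fun h => hne (α.injective h)) hne
    (hcomm.map α) hcomm hα

omit hZ hA C in
theorem CA_KK {α : MulAut G} (hp : (α d₁ = d₁ ∧ α d₂ = d₂) ∨ (α d₁ = d₂ ∧ α d₂ = d₁)) {k : G} (hk : k ∈ KK d₁ d₂) :
    α k ∈ KK d₁ d₂ := by
  rw [mem_KK] at hk ⊢
  have h1 := hk.1.map α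
  have h2 := hk.2.map α
  rcases hp with h | h
  · rw [h.1] at h1; rw [h.2] at h2; exact ⟨h1, h2⟩
  · rw [h.1] at h1; rw [h.2] at h2; exact ⟨h2, h1⟩

/-- the action on `KK` -/
def rho : CA d₁ d₂ →* MulAut (KK d₁ d₂) where
  toFun a :=
    { toFun := fun k => ⟨(a : MulAut G) k, CA_KK (CA_pair hZ hA C a.2) k.2⟩
      invFun := fun k => ⟨((a⁻¹ : CA d₁ d₂) : MulAut G) k, CA_KK (CA_pair hZ hA C (a⁻¹).2) k.2⟩
      left_inv := fun k => Subtype.ext ((a : MulAut G).symm_apply_apply k)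
      right_inv := fun k => Subtype.ext ((a : MulAut G).apply_symm_apply k)
      map_mul' := fun k l => Subtype.ext (map_mul (a : MulAut G) (k : G) (l : G)) }
  map_one' := rfl
  map_mul' a b := rfl

theorem rho_apply (a : CA d₁ d₂) (k : KK d₁ d₂) : ((rho hZ hA C a k : KK d₁ d₂) : G) = (a : MulAut G) (k : G) := rfl

theorem EE_act [Finite G] (hK : Nat.card (KK d₁ d₂) = 26542080) (a : CA d₁ d₂) (n : KK d₁ d₂) (hn : C.Th n = 1) :
    C.Th (rho hZ hA C a n) = 1 := by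
  let φ : KK d₁ d₂ →* PSU 4 F 2 := C.Th.comp (rho hZ hA C a : KK d₁ d₂ ≃* KK d₁ d₂).toMonoidHom
  have hφ : Function.Surjective φ := C.Th_surjective.comp (MulEquiv.surjective _)
  let X : Subgroup (PSU 4 F 2) := C.Th.ker.map φ
  have hX : X.Normal := (MonoidHom.normal_ker C.Th).map φ hφ
  have h2 : IsPGroup 2 X := by
    apply IsPGroup.map
    rintro ⟨n, hn⟩
    have h1 : (n : G) ∈ C.EE := C.Th_ker.1 hn
    obtain ⟨k, hk⟩ := C.EE_isPGroup hK ⟨_, h1⟩
    refine ⟨k, ?_⟩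
    apply Subtype.ext
    apply Subtype.ext
    have := congrArg Subtype.val hk
    exact this
  have h3 := C.not_two_group hX h2
  have h4 : φ n ∈ X := ⟨n, hn, rfl⟩
  rw [h3, Subgroup.mem_bot] at h4
  exact h4

theorem exists_Theta [Finite G] (hK : Nat.card (KK d₁ d₂) = 26542080) : ∃ Θ : CA d₁ d₂ →* MulAut (PSU 4 F 2),
    (∀ a n, Θ a (C.Th n) = C.Th (rho hZ hA C a n)) := exists_act _ C.Th C.Th_surjective (EE_act hZ hA C hK)

theorem ker_iff {Θ : CA d₁ d₂ →* MulAut (PSU 4 F 2)}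
    (hΘ : ∀ a n, Θ a (C.Th n) = C.Th (rho hZ hA C a n)) (a : CA d₁ d₂) : Θ a = 1 ↔ QP C (a : MulAut G) := by
  constructor
  · intro h
    refine ⟨hA _, CA_pair hZ hA C a.2, fun k hk => ?_⟩
    have h1 : C.Th (rho hZ hA C a ⟨k, hk⟩ * (⟨k, hk⟩)⁻¹) = 1 := by
      rw [map_mul, map_inv, ← hΘ, h]
      exact mul_inv_cancel _
    exact C.Th_ker.1 h1
  · intro h
    apply MulEquiv.ext
    intro s
    obtain ⟨n, rfl⟩ := C.Th_surjective s
    rw [hΘ]
    show _ = C.Th n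
    rw [← mul_inv_eq_one, ← map_inv, ← map_mul, C.Th_ker]
    exact h.tr n n.2

omit hZ hA in
theorem inner_EE {g : G} (h : QP C (MulAut.conj g)) : g ∈ C.EE := by
  have h2 : ∀ k ∈ KK d₁ d₂, g * k * g⁻¹ * k⁻¹ ∈ C.EE := fun k hk => h.tr k hk
  rcases h.pr with h1 | h1
  · have hg : g ∈ KK d₁ d₂ := mem_KK.2 ⟨mul_inv_eq_iff_eq_mul.1 h1.1, mul_inv_eq_iff_eq_mul.1 h1.2⟩
    have h3 : C.Th ⟨g, hg⟩ = 1 := by
      apply PSUAut.conj_inj (n := 4) (F := F) (q := 2) hF (by norm_num)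
      rw [map_one]
      apply MulEquiv.ext
      intro s
      obtain ⟨k, rfl⟩ := C.Th_surjective s
      show C.Th ⟨g, hg⟩ * C.Th k * (C.Th ⟨g, hg⟩)⁻¹ = C.Th k
      rw [← mul_inv_eq_one, ← map_inv, ← map_mul, ← map_mul, ← map_inv, ← map_mul, C.Th_ker]
      exact h2 k k.2
    exact C.Th_ker.1 h3
  · exact absurd (C.faithful h1.1 h1.2 h2) id

omit hA C in
theorem conj_CA {g : G} (hg : g ∈ CJ d₁ d₂) : MulAut.conj g ∈ CA d₁ d₂ := by
  rw [mem_CA hZ, MulAut.conj_apply]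
  rw [Subgroup.mem_centralizer_singleton_iff] at hg
  rw [hg, mul_inv_cancel_right]

/-- the map from the centralizer in `G` -/
def iot : CJ d₁ d₂ →* CA d₁ d₂ where
  toFun g := ⟨MulAut.conj (g : G), conj_CA hZ g.2⟩
  map_one' := Subtype.ext (map_one MulAut.conj)
  map_mul' a b := Subtype.ext (map_mul MulAut.conj (a : G) b)

theorem Theta_surj [Finite G] (hK : Nat.card (KK d₁ d₂) = 26542080) {Θ : CA d₁ d₂ →* MulAut (PSU 4 F 2)}
    (hΘ : ∀ a n, Θ a (C.Th n) = C.Th (rho hZ hA C a n)) :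
    Function.Surjective (Θ.comp (iot hZ)) := by
  set α := Θ.comp (iot hZ) with hα
  have hker : α.ker = C.EE.subgroupOf (CJ d₁ d₂) := by
    ext a
    rw [MonoidHom.mem_ker, Subgroup.mem_subgroupOf]
    show Θ (iot hZ a) = 1 ↔ _
    rw [ker_iff hZ hA C hΘ]
    constructor
    · intro h; exact inner_EE C h
    · intro h; exact QP.inn C h
  have c1 : Nat.card (CJ d₁ d₂) = 2 * 26542080 := by
    have h1 := Subgroup.card_mul_index C.NN
    rw [C.NN_index, Nat.card_congr (Subgroup.subgroupOfEquivOfLe (KK_le_CJ d₁ d₂)).toEquiv, hK] at h1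
    omega
  have c2 : Nat.card α.ker = 2 ^ 10 := by
    rw [hker, Nat.card_congr (Subgroup.subgroupOfEquivOfLe (C.EE_le.trans (KK_le_CJ d₁ d₂))).toEquiv, C.card_EE hK]
  have c3 : Nat.card α.range = 51840 := by
    have h1 := Subgroup.card_eq_card_quotient_mul_card_subgroup α.ker
    rw [c1, c2, Nat.card_congr (QuotientGroup.quotientKerEquivRange α).toEquiv] at h1
    omega
  haveI : Finite (PSU 4 F 2) := by
    apply Nat.finite_of_card_ne_zero
    rw [card_PSU42 hF]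
    norm_num
  haveI : Finite (MulAut (PSU 4 F 2)) := Finite.of_injective (fun e : MulAut (PSU 4 F 2) => (e : PSU 4 F 2 → PSU 4 F 2))
    (fun a b h => MulEquiv.ext fun x => congrFun h x)
  have c4 : α.range = ⊤ := by
    apply Subgroup.eq_top_of_le_card
    rw [c3]
    exact card_aut42 hF
  exact MonoidHom.range_eq_top.1 c4

omit hZ hA in
theorem aut_core [Finite G] {X : Subgroup (MulAut (PSU 4 F 2))} (hX : X.Normal) (h2 : IsPGroup 2 X) : X = ⊥ := by
  have hinj : Function.Injective (MulAut.conj : PSU 4 F 2 →* MulAut (PSU 4 F 2)) :=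
    PSUAut.conj_inj (n := 4) (F := F) (q := 2) hF (by norm_num)
  have hY : X.comap MulAut.conj = ⊥ := C.not_two_group (hX.comap _) (h2.comap_of_injective _ hinj)
  rw [eq_bot_iff]
  intro x hx
  rw [Subgroup.mem_bot]
  apply MulEquiv.ext
  intro s
  show x s = s
  have h1 : MulAut.conj (x s * s⁻¹) ∈ X := by
    rw [map_mul, map_inv, ← conj_eq]
    have e : x * MulAut.conj s * x⁻¹ * (MulAut.conj s)⁻¹ = x * (MulAut.conj s * x⁻¹ * (MulAut.conj s)⁻¹) := by group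
    rw [e]
    exact mul_mem hx (hX.conj_mem _ (inv_mem hx) _)
  have h3 : x s * s⁻¹ ∈ X.comap MulAut.conj := h1
  rw [hY, Subgroup.mem_bot, mul_inv_eq_one] at h3
  exact h3

/-- automorphisms centralizing `EE` -/
theorem cent_QP {c : MulAut G} (hc : ∀ e ∈ C.EE, c e = e) : QP C c := by
  have hp : c d₁ = d₁ ∧ c d₂ = d₂ := ⟨hc _ C.d1_EE, hc _ C.d2_EE⟩
  refine ⟨hA c, Or.inl hp, fun k hk => ?_⟩
  have hck : c k ∈ KK d₁ d₂ := CA_KK (Or.inl hp) hk
  have h1 : k⁻¹ * c k ∈ Subgroup.closure ({d₁, d₂} : Set G) := by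
    apply C.cent_EE (mul_mem (inv_mem hk) hck)
    intro e he
    have h2 := hc _ (C.EE_conj hk he)
    rw [map_mul, map_mul, map_inv, hc e he] at h2
    have h3 : c k * e = (k * e * k⁻¹) * c k := by rw [← h2]; group
    calc k⁻¹ * c k * e = k⁻¹ * (c k * e) := by group
      _ = k⁻¹ * ((k * e * k⁻¹) * c k) := by rw [h3]
      _ = e * (k⁻¹ * c k) := by group
  have h2 := C.EE_conj hk (C.V_le h1)
  have e : k * (k⁻¹ * c k) * k⁻¹ = c k * k⁻¹ := by group
  rwa [e] at h2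

end Cfsg.Agent.Lib.FiLE
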