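import Cfsg.Agent.Lib.FiLE3
import Cfsg.Agent.Lib.LargeExtra7
/-
Groups of type M(22): the large extraspecial subgroup of the automorphism group (helper37).
-/
set_option autoImplicit false
set_option linter.all false

namespace Cfsg.Agent.Lib.FiLE

open Cfsg Cfsg.Agent.Lib.ThreeRank3 Cfsg.Agent.Lib.ThreeDescent Cfsg.Agent.Lib.ThreeQuot Cfsg.Agent.Lib.FiPar
  Cfsg.Agent.Lib.ThreeSimple Cfsg.Agent.Lib.ThreeTypes Cfsg.Agent.Lib.FiComp Cfsg.Agent.Lib.FiMu
open Cfsg.Agent.Lib.UnTrans Cfsg.Agent.Lib.UnBridge Cfsg.Agent.Lib.H89MU Cfsg.Agent.Lib.H89MV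
open Cfsg.Agent.Lib.U6Class (SS P tr)
open Cfsg.Agent.Lib.FiHex Cfsg.Agent.Lib.LargeExtra
open Cfsg.Agent.Lib.FiGlue (out22)
open scoped Matrix

variable {G : Type*} [Group G] [Finite G] {D : Set G}

theorem idx (hD : IsThreeTranspositionGroup D) (hprim : IsPrimitiveUnderConj D) (h : IsOfTypeM22 G D) :
    (Inn G).index = 2 := out22 hD hprim h

omit [Finite G] in
theorem tup2 {a b : G} (ha : a ∈ D) (hb : b ∈ Dd D a) : Tup D 2 [a, b] := by
  refine ⟨?_, rfl, ?_, ?_⟩
  · rw [List.nodup_cons]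
    refine ⟨?_, List.nodup_singleton _⟩
    rw [List.mem_singleton]
    exact hb.2.1.symm
  · intro x hx
    simp only [List.mem_cons, List.not_mem_nil, or_false] at hx
    rcases hx with rfl | rfl
    · exact ha
    · exact hb.1
  · intro x hx y hy
    simp only [List.mem_cons, List.not_mem_nil, or_false] at hx hy
    rcases hx with rfl | rfl <;> rcases hy with rfl | rfl
    · exact Commute.refl _
    · exact hb.2.2
    · exact hb.2.2.symm
    · exact Commute.refl _

section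
variable {d₁ d₂ : G} {F : Type} [Field F] [Fintype F] [CharP F 2] {hF : Fintype.card F = 2 ^ 2}
  {π : SS (hermForm 6 F 2) →* QQ D d₁}
variable (hP : PSU62Simple) (hD : IsThreeTranspositionGroup D) (hprim : IsPrimitiveUnderConj D)
    (h : IsOfTypeM22 G D) (C : Ctx D d₁ d₂ F hF π)
include hP hD hprim h C

theorem sqE {α : MulAut G} (hα : QP C α) : SqE C α := by
  have h1 : α * α ∈ Inn G := Subgroup.mul_self_mem_of_index_two (idx hD hprim h) α
  obtain ⟨g, hg⟩ := h1
  have h2 : QP C (MulAut.conj g) := by rw [hg]; exact hα.mul C hα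
  exact ⟨g, inner_EE C h2, fun x => (congrArg (fun e : MulAut G => e x) hg).symm⟩

theorem swap_of_outer {α : MulAut G} (hα : QP C α) (ho : α ∉ Inn G) : α d₁ = d₂ ∧ α d₂ = d₁ := by
  rcases hα.pr with h1 | h1
  · exact absurd (inner_of_fix hP hD hprim h C hα (sqE hP hD hprim h C hα) h1.1) ho
  · exact h1

theorem exists_outer (hK : Nat.card (KK d₁ d₂) = 26542080) : ∃ t : MulAut G, QP C t ∧ t ∉ Inn G := by
  have hA := autD hP hD hprim h
  have hZ := h.1
  obtain ⟨Θ, hΘ⟩ := exists_Theta hZ hA C hK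
  obtain ⟨a, ha⟩ : ∃ a, a ∉ Inn G := by
    by_contra hcon
    push Not at hcon
    have h1 : Inn G = ⊤ := by
      rw [eq_top_iff]; intro x _; exact hcon x
    have h2 := idx hD hprim h
    rw [h1, Subgroup.index_top] at h2
    omega
  have b1 : a d₁ ∈ D := hA a _ C.h₁
  have b2 : a d₂ ∈ Dd D (a d₁) := ⟨hA a _ C.h₂.1, fun he => C.h₂.2.1 (a.injective he), C.h₂.2.2.map a⟩
  obtain ⟨g, hg⟩ := C.t2 _ _ (tup2 b1 b2) (tup2 C.h₁ C.h₂)
  simp only [List.map_cons, List.map_nil, List.cons.injEq, and_true] at hg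
  have c0 : MulAut.conj g * a ∈ CA d₁ d₂ := by
    rw [mem_CA hZ, map_mul, MulAut.mul_apply, MulAut.mul_apply, MulAut.conj_apply, MulAut.conj_apply, hg.1, hg.2]
  obtain ⟨c, hc⟩ := Theta_surj hZ hA C hK hΘ (Θ ⟨MulAut.conj g * a, c0⟩)
  refine ⟨MulAut.conj g * a * (MulAut.conj (c : G))⁻¹, ?_, ?_⟩
  · have h1 : Θ (⟨MulAut.conj g * a, c0⟩ * (iot hZ c)⁻¹) = 1 := by
      rw [map_mul, map_inv, mul_inv_eq_one]
      exact hc.symm
    exact (ker_iff hZ hA C hΘ _).1 h1
  · intro h1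
    apply ha
    have h2 : a = (MulAut.conj g)⁻¹ * (MulAut.conj g * a * (MulAut.conj (c : G))⁻¹) * MulAut.conj (c : G) := by group
    rw [h2]
    exact mul_mem (mul_mem (inv_mem ⟨g, rfl⟩) h1) ⟨c, rfl⟩

omit hP hD hprim h in
theorem j_fix {α : MulAut G} (hα : QP C α) : α (d₁ * d₂) = d₁ * d₂ := by
  rw [map_mul]
  rcases hα.pr with h | h
  · rw [h.1, h.2]
  · rw [h.1, h.2]; exact C.h₂.2.2.eq.symm

omit hP hD hprim h in
theorem z_comm {α : MulAut G} (hα : QP C α) : α * MulAut.conj (d₁ * d₂) = MulAut.conj (d₁ * d₂) * α := by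
  rw [← mul_inv_eq_iff_eq_mul, conj_eq, j_fix C hα]

omit [Finite G] hP hD hprim h in
theorem jj : (d₁ * d₂) * (d₁ * d₂) = 1 := by
  have : (d₁ * d₂) * (d₁ * d₂) = d₁ * (d₂ * d₁) * d₂ := by group
  rw [this, ← C.h₂.2.2.eq, ← mul_assoc, C.d1_sq, one_mul, C.d2_sq]

omit [Finite G] hP hD hprim h in
theorem zz : MulAut.conj (d₁ * d₂) * MulAut.conj (d₁ * d₂) = (1 : MulAut G) := by
  rw [← map_mul, jj C, map_one]

theorem act_E {α : MulAut G} (hα : QP C α) {e : G} (he : e ∈ C.EE) :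
    α * MulAut.conj e = MulAut.conj e * α ∨ α * MulAut.conj e = MulAut.conj (d₁ * d₂) * (MulAut.conj e * α) := by
  have h1 : α * MulAut.conj e = MulAut.conj (α e) * α := by
    rw [← conj_eq]; group
  have h3 := (C.J_central (Subgroup.mem_zpowers (d₁ * d₂)) (C.EE_le he)).eq
  rcases comm_J C hα (sqE hP hD hprim h C hα) he with h2 | h2
  · left; rw [h1, h2]
  · right; rw [h1, h2, h3, map_mul, mul_assoc]

theorem comm_QP {α β : MulAut G} (hα : QP C α) (hβ : QP C β) :
    α * β = β * α ∨ α * β = MulAut.conj (d₁ * d₂) * (β * α) := by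
  have hz := zz C
  by_cases hαi : α ∈ Inn G
  · obtain ⟨e, rfl⟩ := hαi
    have he : e ∈ C.EE := inner_EE C hα
    rcases act_E hP hD hprim h C hβ he with h1 | h1
    · exact Or.inl h1.symm
    · right
      rw [h1, ← mul_assoc (MulAut.conj (d₁ * d₂)) (MulAut.conj (d₁ * d₂)), hz, one_mul]
  · by_cases hβi : β ∈ Inn G
    · obtain ⟨e, rfl⟩ := hβi
      exact act_E hP hD hprim h C hα (inner_EE C hβ)
    · have hi := idx hD hprim h
      have h1 : α * β ∈ Inn G := by
        rw [Subgroup.mul_mem_iff_of_index_two hi]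
        exact iff_of_false hαi hβi
      obtain ⟨f, hf⟩ := h1
      have hf' : f ∈ C.EE := inner_EE C (by rw [hf]; exact hα.mul C hβ)
      have h2 : α * (β * α) = MulAut.conj f * α := by rw [hf, mul_assoc]
      rcases act_E hP hD hprim h C hα hf' with h3 | h3
      · left
        rw [← h2, hf] at h3
        exact mul_left_cancel h3
      · right
        rw [← h2, hf] at h3
        have h4 : α * (α * β) = α * (MulAut.conj (d₁ * d₂) * (β * α)) := by
          rw [h3, ← mul_assoc α (MulAut.conj (d₁ * d₂)), z_comm C hα, mul_assoc]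
        exact mul_left_cancel h4

/-- the extraspecial group as a subgroup of the automorphism group -/
theorem exists_Q (hK : Nat.card (KK d₁ d₂) = 26542080) {Θ : CA d₁ d₂ →* MulAut (PSU 4 F 2)}
    (hΘ : ∀ a n, Θ a (C.Th n) = C.Th (rho h.1 (autD hP hD hprim h) C a n)) (α : MulAut G) :
    α ∈ Θ.ker.map (CA d₁ d₂).subtype ↔ QP C α := by
  have hA := autD hP hD hprim h
  constructor
  · rintro ⟨a, ha, rfl⟩
    exact (ker_iff h.1 hA C hΘ a).1 ha
  · intro hα
    have h1 : α ∈ CA d₁ d₂ := by rw [mem_CA h.1]; exact j_fix C hα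
    exact ⟨⟨α, h1⟩, (ker_iff h.1 hA C hΘ ⟨α, h1⟩).2 hα, rfl⟩

theorem exdata (hK : Nat.card (KK d₁ d₂) = 26542080) {Q : Subgroup (MulAut G)} (hQ : ∀ α, α ∈ Q ↔ QP C α) :
    ExData Q (MulAut.conj (d₁ * d₂)) := by
  obtain ⟨t, ht, hto⟩ := exists_outer hP hD hprim h C hK
  have hts := swap_of_outer hP hD hprim h C ht hto
  have hZ := h.1
  have hjE : d₁ * d₂ ∈ C.EE := mul_mem C.d1_EE C.d2_EE
  apply ExData.of
  · exact zz C
  · intro h1
    rw [← map_one MulAut.conj] at h1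
    have h2 := conj_inj hZ h1
    have h3 : d₁ = d₂⁻¹ := eq_inv_of_mul_eq_one_left h2
    rw [inv_self C.tg.1 C.h₂.1] at h3
    exact C.h₂.2.1 h3.symm
  · rw [hQ]; exact QP.inn C hjE
  · intro q hq; exact z_comm C ((hQ q).1 hq)
  · intro a ha b hb
    exact comm_QP hP hD hprim h C ((hQ a).1 ha) ((hQ b).1 hb)
  · intro q hq hc
    have hq' := (hQ q).1 hq
    have hcE : ∀ e ∈ C.EE, q e = e := by
      intro e he
      have h1 := hc (MulAut.conj e) ((hQ _).2 (QP.inn C he))
      rw [← mul_inv_eq_iff_eq_mul, conj_eq] at h1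
      exact conj_inj hZ h1
    by_cases hqi : q ∈ Inn G
    · obtain ⟨e, rfl⟩ := hqi
      have he : e ∈ C.EE := inner_EE C hq'
      have h1 : e ∈ Subgroup.closure ({d₁, d₂} : Set G) := by
        apply C.EE_center he
        intro f hf
        have := hcE f hf
        rw [MulAut.conj_apply, mul_inv_eq_iff_eq_mul] at this
        exact this
      have h2 : t e = e := by
        have h3 := hc t ((hQ _).2 ht)
        have h4 : t * MulAut.conj e * t⁻¹ = MulAut.conj e := by rw [← h3]; group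
        rw [conj_eq] at h4
        exact conj_inj hZ h4
      rcases C.mem_V.1 h1 with rfl | rfl | rfl | rfl
      · left; exact map_one _
      · exfalso
        exact C.h₂.2.1 (hts.1.symm.trans h2)
      · exfalso
        exact C.h₂.2.1 (h2.symm.trans hts.2)
      · right; rfl
    · exfalso
      have h1 := swap_of_outer hP hD hprim h C hq' hqi
      exact C.h₂.2.1 (h1.1.symm.trans (hcE _ C.d1_EE))
  · refine ⟨t, (hQ _).2 ht, MulAut.conj d₁, (hQ _).2 (QP.inn C C.d1_EE), ?_⟩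
    intro h1
    rw [← mul_inv_eq_iff_eq_mul, conj_eq] at h1
    have h2 := conj_inj hZ h1
    exact C.h₂.2.1 (hts.1.symm.trans h2)

theorem card_Q (hK : Nat.card (KK d₁ d₂) = 26542080) {Q : Subgroup (MulAut G)} (hQ : ∀ α, α ∈ Q ↔ QP C α) :
    Nat.card Q = 2 ^ 11 := by
  obtain ⟨t, ht, hto⟩ := exists_outer hP hD hprim h C hK
  have hi := idx hD hprim h
  have h1 : ((Inn G).subgroupOf Q).index = 2 := by
    rw [Subgroup.index_eq_two_iff]
    refine ⟨⟨t, (hQ _).2 ht⟩, fun b => ?_⟩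
    rw [Subgroup.mem_subgroupOf, Subgroup.mem_subgroupOf]
    show Xor' ((b : MulAut G) * t ∈ Inn G) ((b : MulAut G) ∈ Inn G)
    rw [Subgroup.mul_mem_iff_of_index_two hi]
    by_cases hb : (b : MulAut G) ∈ Inn G
    · right
      exact ⟨hb, fun h2 => hto (h2.1 hb)⟩
    · left
      exact ⟨iff_of_false hb hto, hb⟩
  have h2 : Nat.card ((Inn G).subgroupOf Q) = 2 ^ 10 := by
    rw [← C.card_EE hK]
    symm
    refine Nat.card_congr (Equiv.ofBijective (fun e : C.EE => (⟨⟨MulAut.conj (e : G), (hQ _).2 (QP.inn C e.2)⟩,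
      ⟨e, rfl⟩⟩ : (Inn G).subgroupOf Q)) ⟨?_, ?_⟩)
    · intro a b hab
      apply Subtype.ext
      have := congrArg (fun x : (Inn G).subgroupOf Q => ((x : Q) : MulAut G)) hab
      exact conj_inj h.1 this
    · rintro ⟨⟨x, hx⟩, ⟨g, hg⟩⟩
      have hg' : MulAut.conj g = x := hg
      subst hg'
      exact ⟨⟨g, inner_EE C ((hQ _).1 hx)⟩, rfl⟩
  have h3 := Subgroup.card_mul_index ((Inn G).subgroupOf Q)
  rw [h1, h2] at h3
  rw [← h3]
  norm_num

theorem gen_CA (hK : Nat.card (KK d₁ d₂) = 26542080) {Θ : CA d₁ d₂ →* MulAut (PSU 4 F 2)}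
    (hΘ : ∀ a n, Θ a (C.Th n) = C.Th (rho h.1 (autD hP hD hprim h) C a n)) :
    generalizedFittingSubgroup (CA d₁ d₂) = Θ.ker := by
  haveI : Fact (Nat.Prime 2) := ⟨Nat.prime_two⟩
  haveI : Finite (MulAut G) := Finite.of_injective (fun e : MulAut G => (e : G → G))
    (fun a b h => MulEquiv.ext fun x => congrFun h x)
  have hA := autD hP hD hprim h
  have hQ := exists_Q hP hD hprim h C hK hΘ
  have hsurj : Function.Surjective Θ := by
    intro s
    obtain ⟨c, hc⟩ := Theta_surj h.1 hA C hK hΘ s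
    exact ⟨_, hc⟩
  have hc1 : Nat.card Θ.ker = 2 ^ 11 := by
    rw [← card_Q hP hD hprim h C hK hQ]
    exact (Nat.card_congr (Subgroup.equivMapOfInjective _ _ (CA d₁ d₂).subtype_injective).toEquiv)
  have hcore : pCore 2 (CA d₁ d₂) = Θ.ker := by
    apply le_antisymm
    · have h1 : ((pCore 2 (CA d₁ d₂)).map Θ).Normal := (FusionNormal.pCore_normal (p := 2)).map Θ hsurj
      have h2 := aut_core C h1 ((Cores.isPGroup_pCore 2 _).map Θ)
      rw [Subgroup.map_eq_bot_iff] at h2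
      exact h2
    · exact AmalgamCharP.le_pCore (MonoidHom.normal_ker Θ) (IsPGroup.of_card hc1)
  rw [← hcore, CharPLocal.genFitting_eq_pCore_iff, hcore]
  intro c hc
  rw [Subgroup.mem_centralizer_iff] at hc
  rw [MonoidHom.mem_ker, ker_iff h.1 hA C hΘ]
  apply cent_QP h.1 hA C
  intro e he
  have h1 : MulAut.conj e ∈ Θ.ker.map (CA d₁ d₂).subtype := (hQ _).2 (QP.inn C he)
  obtain ⟨a, ha, hae⟩ := h1
  have h2 := congrArg Subtype.val (hc a ha)
  have h3 : MulAut.conj e * (c : MulAut G) = (c : MulAut G) * MulAut.conj e := by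
    rw [← hae]; exact h2
  have h4 : (c : MulAut G) * MulAut.conj e * (c : MulAut G)⁻¹ = MulAut.conj e := by rw [← h3]; group
  rw [conj_eq] at h4
  exact conj_inj h.1 h4

end

end Cfsg.Agent.Lib.FiLE
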