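import Cfsg.Agent.Lib.FiLE4
/-
Groups of type M(22): odd order subgroups normalized by the large extraspecial subgroup (helper37).
-/
set_option autoImplicit false
set_option linter.all false

namespace Cfsg.Agent.Lib.FiLE

open Cfsg Cfsg.Agent.Lib.ThreeRank3 Cfsg.Agent.Lib.ThreeDescent Cfsg.Agent.Lib.ThreeQuot Cfsg.Agent.Lib.FiPar
  Cfsg.Agent.Lib.ThreeSimple Cfsg.Agent.Lib.ThreeTypes Cfsg.Agent.Lib.FiComp Cfsg.Agent.Lib.FiMu
open Cfsg.Agent.Lib.UnTrans Cfsg.Agent.Lib.UnBridge Cfsg.Agent.Lib.H89MU Cfsg.Agent.Lib.H89MV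
open Cfsg.Agent.Lib.U6Class (SS P tr)
open Cfsg.Agent.Lib.FiHex Cfsg.Agent.Lib.LargeExtra
open Cfsg.Agent.Lib.FiGlue (out22)
open scoped Matrix

theorem inv_of_fpf {G : Type*} [Group G] {H : Subgroup G} [Finite H] {x : G} (hx : x * x = 1)
    (hn : ∀ h ∈ H, x * h * x⁻¹ ∈ H) (hf : ∀ h ∈ H, x * h = h * x → h = 1) : ∀ h ∈ H, x * h * x⁻¹ = h⁻¹ := by
  let φ : H → H := fun h => ⟨(h : G)⁻¹ * (x * h * x⁻¹), mul_mem (inv_mem h.2) (hn h h.2)⟩
  have hinj : Function.Injective φ := by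
    intro a b hab
    have h1 : (a : G)⁻¹ * (x * a * x⁻¹) = (b : G)⁻¹ * (x * b * x⁻¹) := congrArg Subtype.val hab
    have h2 : x * ((b : G) * (a : G)⁻¹) = ((b : G) * (a : G)⁻¹) * x := by
      calc x * ((b : G) * (a : G)⁻¹) = (b : G) * ((b : G)⁻¹ * (x * b * x⁻¹)) * x * (a : G)⁻¹ := by group
        _ = (b : G) * ((a : G)⁻¹ * (x * a * x⁻¹)) * x * (a : G)⁻¹ := by rw [h1]
        _ = ((b : G) * (a : G)⁻¹) * x := by group
    have h3 := hf _ (mul_mem b.2 (inv_mem a.2)) h2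
    exact Subtype.ext (mul_inv_eq_one.1 h3).symm
  have hsurj := Finite.surjective_of_injective hinj
  intro h hh
  obtain ⟨a, ha⟩ := hsurj ⟨h, hh⟩
  have h1 : (a : G)⁻¹ * (x * a * x⁻¹) = h := congrArg Subtype.val ha
  have hxi : x⁻¹ = x := inv_eq_of_mul_eq_one_left hx
  rw [← h1]
  calc x * ((a : G)⁻¹ * (x * a * x⁻¹)) * x⁻¹ = x * (a : G)⁻¹ * (x * a) * (x⁻¹ * x⁻¹) := by group
    _ = x * (a : G)⁻¹ * (x * a) := by rw [hxi, hx, mul_one]
    _ = x * (a : G)⁻¹ * (x⁻¹ * a) := by rw [hxi]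
    _ = ((a : G)⁻¹ * (x * a * x⁻¹))⁻¹ := by group

theorem odd_one {G : Type*} [Group G] {H : Subgroup G} (hodd : Odd (Nat.card H)) {h : G} (hh : h ∈ H) {k : ℕ}
    (hk : h ^ (2 ^ k) = 1) : h = 1 := by
  have h1 : orderOf h ∣ 2 ^ k := orderOf_dvd_of_pow_eq_one hk
  have h2 : orderOf h ∣ Nat.card H := by
    rw [← Subgroup.orderOf_mk h hh]
    exact orderOf_dvd_natCard _
  have h3 : Nat.Coprime (2 ^ k) (Nat.card H) := Nat.Coprime.pow_left k (Nat.coprime_two_left.2 hodd)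
  rw [← orderOf_eq_one_iff]
  exact Nat.eq_one_of_dvd_coprimes h3 h1 h2

variable {G : Type*} [Group G] [Finite G] {D : Set G}

section
variable {d₁ d₂ : G} {F : Type} [Field F] [Fintype F] [CharP F 2] {hF : Fintype.card F = 2 ^ 2}
  {π : SS (hermForm 6 F 2) →* QQ D d₁}

theorem cj_one (C : Ctx D d₁ d₂ F hF π) (hK : Nat.card (KK d₁ d₂) = 26542080) {H : Subgroup G}
    (hodd : Odd (Nat.card H)) (hn : ∀ α, QP C α → ∀ g ∈ H, α g ∈ H) : ∀ g ∈ H, Commute g (d₁ * d₂) → g = 1 := by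
  have hEH : ∀ u ∈ C.EE, u ∈ H → u = 1 := by
    intro u hu huH
    obtain ⟨k, hk⟩ := C.EE_isPGroup hK ⟨u, hu⟩
    have hk' : u ^ 2 ^ k = 1 := by
      have := congrArg Subtype.val hk
      exact this
    exact odd_one hodd huH hk'
  intro g hg hgj
  have hgJ : g ∈ CJ d₁ d₂ := by
    rw [Subgroup.mem_centralizer_singleton_iff]
    exact hgj.eq
  have h1 : ∀ e ∈ C.EE, g * e = e * g := by
    intro e he
    have h2 : g * e * g⁻¹ * e⁻¹ ∈ C.EE := mul_mem (C.EE_normal hK hgJ he) (inv_mem he)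
    have h3 : g * e * g⁻¹ * e⁻¹ ∈ H := by
      have h4 := hn _ (QP.inn C he) _ (inv_mem hg)
      rw [MulAut.conj_apply] at h4
      have h5 : g * e * g⁻¹ * e⁻¹ = g * (e * g⁻¹ * e⁻¹) := by group
      rw [h5]
      exact mul_mem hg h4
    have h6 := hEH _ h2 h3
    calc g * e = (g * e * g⁻¹ * e⁻¹) * (e * g) := by group
      _ = e * g := by rw [h6, one_mul]
  have h2 : g ∈ KK d₁ d₂ := mem_KK.2 ⟨h1 _ C.d1_EE, h1 _ C.d2_EE⟩
  exact hEH g (C.V_le (C.cent_EE h2 h1)) hg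

theorem c1_one (hP : PSU62Simple) (hD : IsThreeTranspositionGroup D) (hprim : IsPrimitiveUnderConj D)
    (h : IsOfTypeM22 G D) (C : Ctx D d₁ d₂ F hF π) (hK : Nat.card (KK d₁ d₂) = 26542080) {H : Subgroup G}
    (hodd : Odd (Nat.card H)) (hn : ∀ α, QP C α → ∀ g ∈ H, α g ∈ H) : ∀ g ∈ H, Commute g d₁ → g = 1 := by
  have hcj := cj_one C hK hodd hn
  have Y := yd22 hP hD hprim h
  set H1 : Subgroup G := H ⊓ Subgroup.centralizer {d₁} with hH1
  have mem1 : ∀ {g : G}, g ∈ H1 ↔ g ∈ H ∧ g * d₁ = d₁ * g := by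
    intro g
    rw [hH1, Subgroup.mem_inf, Subgroup.mem_centralizer_singleton_iff]
  have hcc : d₂ * d₁ = d₁ * d₂ := C.h₂.2.2.eq.symm
  have hi2 : d₂⁻¹ = d₂ := inv_eq_of_mul_eq_one_left C.d2_sq
  have nE : ∀ e ∈ C.EE, ∀ g ∈ H1, e * g * e⁻¹ ∈ H1 := by
    intro e he g hg
    rw [mem1] at hg ⊢
    refine ⟨hn _ (QP.inn C he) _ hg.1, ?_⟩
    have h1 : Commute e d₁ := (mem_KK.1 (C.EE_le he)).1
    have h2 : Commute g d₁ := hg.2
    exact ((h1.mul_left h2).mul_left h1.inv_left).eq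
  have hinv : ∀ g ∈ H1, d₂ * g * d₂⁻¹ = g⁻¹ := by
    apply inv_of_fpf C.d2_sq (nE d₂ C.d2_EE)
    intro g hg hgc
    have hg' := mem1.1 hg
    apply hcj g hg'.1
    exact Commute.mul_right hg'.2 hgc.symm
  by_contra hcon
  push Not at hcon
  obtain ⟨g₀, hg₀, hg₀c, hg₀1⟩ := hcon
  have hg₀' : g₀ ∈ H1 := mem1.2 ⟨hg₀, hg₀c.eq⟩
  set f : G → G := fun g => g * d₂ * g⁻¹ with hf
  have sq1 : ∀ g ∈ H1, g * g = 1 → g = 1 := by
    intro g hg hgg
    exact odd_one (k := 1) hodd (mem1.1 hg).1 (by rw [pow_one, pow_two]; exact hgg)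
  have prod : ∀ g ∈ H1, d₂ * f g = g⁻¹ * g⁻¹ := by
    intro g hg
    have h1 := hinv g hg
    calc d₂ * (g * d₂ * g⁻¹) = (d₂ * g * d₂) * g⁻¹ := by group
      _ = (d₂ * g * d₂⁻¹) * g⁻¹ := by rw [hi2]
      _ = g⁻¹ * g⁻¹ := by rw [h1]
  have fDd : ∀ g ∈ H1, f g ∈ Dd D d₁ := by
    intro g hg
    have hg' := (mem1.1 hg).2
    have := Dd_conj C.tg.2.1 (g := g) C.h₂
    rwa [hg', mul_inv_cancel_right] at this
  have fn : ∀ g ∈ H1, g ≠ 1 → ¬ Commute (f g) d₂ := by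
    intro g hg hg1 hc
    apply hg1
    apply sq1 g hg
    have h1 := prod g hg
    have h2 : d₂ * f g = f g * d₂ := hc.eq.symm
    have h3 : f g * d₂ = g * g := by
      have h4 : f g * d₂ * (d₂ * f g) = 1 := by
        have : f g * d₂ * (d₂ * f g) = f g * (d₂ * d₂) * f g := by group
        rw [this, C.d2_sq, mul_one]
        show g * d₂ * g⁻¹ * (g * d₂ * g⁻¹) = 1
        have : g * d₂ * g⁻¹ * (g * d₂ * g⁻¹) = g * (d₂ * d₂) * g⁻¹ := by group
        rw [this, C.d2_sq, mul_one, mul_inv_cancel]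
      rw [h1] at h4
      calc f g * d₂ = f g * d₂ * (g⁻¹ * g⁻¹) * (g * g) := by group
        _ = g * g := by rw [h4, one_mul]
    have h5 : g⁻¹ * g⁻¹ = g * g := by rw [← h1, h2, h3]
    have h6 : (g * g) * (g * g) = 1 := by
      rw [← mul_inv_rev] at h5
      nth_rw 1 [← h5]
      exact inv_mul_cancel _
    exact sq1 (g * g) (mul_mem hg hg) h6
  -- the set of opposite transpositions
  set Opp : Set G := Dd D d₁ \ (insert d₂ (Dd D d₁ ∩ Dd D d₂)) with hOpp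
  have memO : ∀ {x : G}, x ∈ Opp ↔ x ∈ Dd D d₁ ∧ ¬ Commute x d₂ := by
    intro x
    rw [hOpp, Set.mem_diff, Set.mem_insert_iff, Set.mem_inter_iff, not_or]
    constructor
    · rintro ⟨h1, h2, h3⟩
      exact ⟨h1, fun hc => h3 ⟨h1, h1.1, h2, hc.symm⟩⟩
    · rintro ⟨h1, h2⟩
      refine ⟨h1, ?_, ?_⟩
      · rintro rfl
        exact h2 (Commute.refl _)
      · rintro ⟨_, h3⟩
        exact h2 h3.2.2.symm
  have cardO : Opp.ncard = 512 := by
    rw [hOpp, Set.ncard_diff (by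
      rintro x (rfl | hx)
      · exact C.h₂
      · exact hx.1) (Set.toFinite _), Y.hd.u1 d₁ C.h₁, Set.ncard_insert_of_notMem (by
      rintro ⟨_, h2⟩
      exact h2.2.1 rfl) (Set.toFinite _), Y.hd.u2 d₁ C.h₁ d₂ C.h₂]
  have himg : f '' ((H1 : Set G) \ {1}) = Opp := by
    apply Set.Subset.antisymm
    · rintro _ ⟨g, ⟨hg, hg1⟩, rfl⟩
      exact memO.2 ⟨fDd g hg, fn g hg hg1⟩
    · intro x hx
      rw [memO] at hx
      obtain ⟨e, he, hex⟩ := opp_trans C (fDd g₀ hg₀') (fn g₀ hg₀' hg₀1) hx.1 hx.2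
      refine ⟨e * g₀ * e⁻¹, ⟨nE e he g₀ hg₀', ?_⟩, ?_⟩
      · intro h1
        apply hg₀1
        rw [Set.mem_singleton_iff, mul_inv_eq_one] at h1
        exact mul_left_cancel (h1.trans (mul_one e).symm)
      · have h2 : Commute e d₂ := (mem_KK.1 (C.EE_le he)).2
        show (e * g₀ * e⁻¹) * d₂ * (e * g₀ * e⁻¹)⁻¹ = x
        rw [← hex]
        show _ = e * (g₀ * d₂ * g₀⁻¹) * e⁻¹
        have h3 : (e * g₀ * e⁻¹) * d₂ * (e * g₀ * e⁻¹)⁻¹ = e * g₀ * (e⁻¹ * d₂ * e) * g₀⁻¹ * e⁻¹ := by group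
        have h4 : e⁻¹ * d₂ * e = d₂ := by rw [mul_assoc, ← h2.eq, inv_mul_cancel_left]
        rw [h3, h4]
        group
  have hinjOn : Set.InjOn f ((H1 : Set G) \ {1}) := by
    rintro a ⟨ha, -⟩ b ⟨hb, -⟩ hab
    have ha' : a ∈ H1 := ha
    have hb' : b ∈ H1 := hb
    have h1 : b⁻¹ * a ∈ H1 := mul_mem (inv_mem hb') ha'
    have hab' : a * d₂ * a⁻¹ = b * d₂ * b⁻¹ := hab
    have h2 : (b⁻¹ * a) * d₂ = d₂ * (b⁻¹ * a) := by
      calc (b⁻¹ * a) * d₂ = b⁻¹ * (a * d₂ * a⁻¹) * a := by group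
        _ = b⁻¹ * (b * d₂ * b⁻¹) * a := by rw [hab']
        _ = d₂ * (b⁻¹ * a) := by group
    have h3 := hinv _ h1
    rw [← h2, mul_inv_cancel_right] at h3
    have h4 : (b⁻¹ * a) * (b⁻¹ * a) = 1 := by
      nth_rw 1 [h3]
      exact inv_mul_cancel _
    exact (inv_mul_eq_one.1 (sq1 _ h1 h4)).symm
  have hcard : ((H1 : Set G) \ {1}).ncard = 512 := by
    rw [← cardO, ← himg]
    exact (Set.ncard_image_of_injOn hinjOn).symm
  have hcard1 : Nat.card H1 = 513 := by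
    have h1 := Set.ncard_diff_singleton_add_one (a := (1 : G)) (s := (H1 : Set G)) (one_mem H1) (Set.toFinite _)
    rw [hcard] at h1
    exact h1.symm
  haveI : Fact (Nat.Prime 19) := ⟨by norm_num⟩
  obtain ⟨x, hx⟩ := exists_prime_orderOf_dvd_card' (G := H1) 19 (by rw [hcard1]; norm_num)
  have hx' : orderOf (x : G) = 19 := by rw [Subgroup.orderOf_coe]; exact hx
  have h3 := prod x x.2
  have h4 : (d₂ * f x) ^ 6 = 1 := by
    rcases C.tg.1.2 d₂ C.h₂.1 (f x) (fDd x x.2).1 with h | h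
    · rw [show 6 = 2 * 3 by norm_num, pow_mul, h, one_pow]
    · rw [show 6 = 3 * 2 by norm_num, pow_mul, h, one_pow]
  rw [h3] at h4
  have h5 : (x : G) ^ 12 = 1 := by
    have h6 : ((x : G)⁻¹ * (x : G)⁻¹) ^ 6 = ((x : G) ^ 12)⁻¹ := by
      rw [← pow_two, ← pow_mul, inv_pow]
    rw [h6, inv_eq_one] at h4
    exact h4
  have h6 := orderOf_dvd_of_pow_eq_one h5
  rw [hx'] at h6
  norm_num at h6

theorem odd_bot (hP : PSU62Simple) (hD : IsThreeTranspositionGroup D) (hprim : IsPrimitiveUnderConj D)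
    (h : IsOfTypeM22 G D) (C : Ctx D d₁ d₂ F hF π) (hK : Nat.card (KK d₁ d₂) = 26542080) {H : Subgroup G}
    (hodd : Odd (Nat.card H)) (hn : ∀ α, QP C α → ∀ g ∈ H, α g ∈ H) : H = ⊥ := by
  have k0 := cj_one C hK hodd hn
  have k1 := c1_one hP hD hprim h C hK hodd hn
  obtain ⟨t, ht, hto⟩ := exists_outer hP hD hprim h C hK
  have hts := swap_of_outer hP hD hprim h C ht hto
  have k2 : ∀ g ∈ H, Commute g d₂ → g = 1 := by
    intro g hg hc
    have h1 : Commute (t g) d₁ := by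
      have := hc.map t
      rwa [hts.2] at this
    have h2 := k1 _ (hn t ht g hg) h1
    rw [← map_one t] at h2
    exact t.injective h2
  have i1 := inv_of_fpf C.d1_sq (fun g hg => hn _ (QP.inn C C.d1_EE) g hg) (fun g hg hc => k1 g hg hc.symm)
  have i2 := inv_of_fpf C.d2_sq (fun g hg => hn _ (QP.inn C C.d2_EE) g hg) (fun g hg hc => k2 g hg hc.symm)
  rw [eq_bot_iff]
  intro g hg
  rw [Subgroup.mem_bot]
  apply k0 g hg
  have h1 : (d₁ * d₂) * g * (d₁ * d₂)⁻¹ = g := by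
    calc (d₁ * d₂) * g * (d₁ * d₂)⁻¹ = d₁ * (d₂ * g * d₂⁻¹) * d₁⁻¹ := by group
      _ = d₁ * g⁻¹ * d₁⁻¹ := by rw [i2 g hg]
      _ = g⁻¹⁻¹ := i1 _ (inv_mem hg)
      _ = g := inv_inv g
  exact (mul_inv_eq_iff_eq_mul.1 h1).symm

/-- the final theorem -/
theorem large (hP : PSU62Simple) (hD : IsThreeTranspositionGroup D) (hprim : IsPrimitiveUnderConj D)
    (h : IsOfTypeM22 G D) (C : Ctx D d₁ d₂ F hF π) (hK : Nat.card (KK d₁ d₂) = 26542080) {Q : Subgroup (MulAut G)}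
    (hQ : ∀ α, α ∈ Q ↔ QP C α) : IsLargeExtraspecial Q := by
  haveI : Finite (MulAut G) := Finite.of_injective (fun e : MulAut G => (e : G → G))
    (fun a b h => MulEquiv.ext fun x => congrFun h x)
  have X := exdata hP hD hprim h C hK hQ
  have hA := autD hP hD hprim h
  have hjE : d₁ * d₂ ∈ C.EE := mul_mem C.d1_EE C.d2_EE
  have hcQ : ∀ c : MulAut G, (∀ q ∈ Q, q * c = c * q) → QP C c := by
    intro c hc
    apply cent_QP h.1 hA C
    intro e he
    have h3 := hc (MulAut.conj e) ((hQ _).2 (QP.inn C he))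
    have h4 : c * MulAut.conj e * c⁻¹ = MulAut.conj e := by rw [← h3]; group
    rw [conj_eq] at h4
    exact conj_inj h.1 h4
  refine ⟨isExtraspecial_of_exData X, ?_, ?_, ?_⟩
  · ext c
    rw [Subgroup.mem_centralizer_iff, X.mem_map_iff]
    constructor
    · intro hc
      exact X.center c ((hQ c).2 (hcQ c hc)) (fun x hx => (hc x hx).symm)
    · rintro (rfl | rfl)
      · intro x _; rw [mul_one, one_mul]
      · intro x hx; exact X.cen x hx
  · rw [X.centralizer_map]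
    intro c hc
    have hcA : c ∈ CA d₁ d₂ := hc
    have hp := CA_pair h.1 hA C hcA
    obtain ⟨Θ, hΘ⟩ := exists_Theta h.1 hA C hK
    have hQ' := exists_Q hP hD hprim h C hK hΘ
    have e : Q = Θ.ker.map (CA d₁ d₂).subtype := by
      ext α; rw [hQ, hQ']
    have hnorm : ∀ c ∈ CA d₁ d₂, ∀ q ∈ Q, c * q * c⁻¹ ∈ Q := by
      intro c hc q hq
      rw [e] at hq ⊢
      obtain ⟨a, ha, rfl⟩ := hq
      exact ⟨⟨c, hc⟩ * a * ⟨c, hc⟩⁻¹, (MonoidHom.normal_ker Θ).conj_mem a ha ⟨c, hc⟩, rfl⟩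
    rw [Subgroup.mem_normalizer_iff]
    intro q
    constructor
    · exact hnorm c hcA q
    · intro hq
      have := hnorm c⁻¹ (inv_mem hcA) _ hq
      have e2 : c⁻¹ * (c * q * c⁻¹) * c⁻¹⁻¹ = q := by group
      rwa [e2] at this
  · intro K hodd hnorm
    have hi := idx hD hprim h
    have hKI : K ≤ Inn G := by
      intro k hk
      by_contra hkI
      have h1 : k ^ Nat.card K = 1 := by
        have := pow_card_eq_one' (G := K) (x := ⟨k, hk⟩)
        exact congrArg Subtype.val this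
      obtain ⟨m, hm⟩ := hodd
      rw [hm, pow_succ, pow_mul] at h1
      have h2 : (k ^ 2) ^ m ∈ Inn G := by
        apply pow_mem
        rw [pow_two]
        exact Subgroup.mul_self_mem_of_index_two hi k
      apply hkI
      have h3 : (k ^ 2) ^ m * k ∈ Inn G := by rw [h1]; exact one_mem _
      exact ((Subgroup.mul_mem_iff_of_index_two hi).1 h3).1 h2
    have hb : K.comap (MulAut.conj : G →* MulAut G) = ⊥ := by
      apply odd_bot hP hD hprim h C hK
      · have hinj : Function.Injective (MulAut.conj : G →* MulAut G) := fun a b hab => conj_inj h.1 hab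
        have h1 : Nat.card (K.comap (MulAut.conj : G →* MulAut G)) ∣ Nat.card K := by
          have h2 := Subgroup.card_subgroup_dvd_card ((K.comap (MulAut.conj : G →* MulAut G)).map (MulAut.conj : G →* MulAut G) |>.subgroupOf K)
          have h3 : (K.comap (MulAut.conj : G →* MulAut G)).map (MulAut.conj : G →* MulAut G) ≤ K := Subgroup.map_comap_le _ _
          rw [Nat.card_congr (Subgroup.subgroupOfEquivOfLe h3).toEquiv,
            ← Nat.card_congr (Subgroup.equivMapOfInjective _ _ hinj).toEquiv] at h2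
          exact h2
        exact Odd.of_dvd_nat hodd h1
      · intro α hα g hg
        have h1 := hnorm ((hQ α).2 hα)
        rw [Subgroup.mem_normalizer_iff] at h1
        have h2 := (h1 (MulAut.conj g)).1 hg
        rw [conj_eq] at h2
        exact h2
    rw [eq_bot_iff]
    intro k hk
    obtain ⟨g, rfl⟩ := hKI hk
    have h1 : g ∈ K.comap (MulAut.conj : G →* MulAut G) := hk
    rw [hb, Subgroup.mem_bot] at h1
    rw [Subgroup.mem_bot, h1, map_one]

end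

end Cfsg.Agent.Lib.FiLE
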