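import Mathlib
/-
Lifting involutions through a central extension by a group of order two (helper91).
-/
set_option autoImplicit false
set_option linter.all false

namespace Cfsg.Agent.Lib.FiLift91

/-- moving an element through a product of elements with which it commutes up to `κ` -/
theorem mul_list_prod {C : Type*} [Group C] {κ : C} (hκ : ∀ z : C, κ * z = z * κ) (x : C) :
    ∀ t : List C, (∀ y ∈ t, x * y = κ * (y * x)) → x * t.prod = κ ^ t.length * (t.prod * x)
  | [], _ => by simp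
  | y :: t, h => by
    have h1 := h y (by simp)
    have h2 := mul_list_prod hκ x t fun z hz => h z (by simp [hz])
    rw [List.prod_cons, List.length_cons, ← mul_assoc, h1]
    have hk : κ ^ t.length * y = y * κ ^ t.length := by
      have : Commute (κ ^ t.length) y := Commute.pow_left (hκ y) _
      exact this
    calc κ * (y * x) * t.prod = κ * (y * (x * t.prod)) := by group
      _ = κ * (y * (κ ^ t.length * (t.prod * x))) := by rw [h2]
      _ = κ * ((y * κ ^ t.length) * (t.prod * x)) := by group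
      _ = κ * ((κ ^ t.length * y) * (t.prod * x)) := by rw [hk]
      _ = κ ^ (t.length + 1) * (y * t.prod * x) := by rw [pow_succ' κ t.length]; group

/-- the square of a product of elements commuting pairwise up to `κ` -/
theorem sq_list_prod {C : Type*} [Group C] {κ s : C} (hκ : ∀ z : C, κ * z = z * κ) (hκ2 : κ * κ = 1) (hs : ∀ z : C, s * z = z * s) :
    ∀ t : List C, (∀ x ∈ t, x * x = s) → t.Pairwise (fun x y => x * y = κ * (y * x)) →
      t.prod * t.prod = s ^ t.length * κ ^ (t.length.choose 2)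
  | [], _, _ => by simp
  | x :: t, h1, h2 => by
    rw [List.pairwise_cons] at h2
    have ih := sq_list_prod hκ hκ2 hs t (fun y hy => h1 y (by simp [hy])) h2.2
    have hx := h1 x (by simp)
    have hm := mul_list_prod hκ x t h2.1
    rw [List.prod_cons, List.length_cons]
    have hkk : ∀ (n : ℕ) (z : C), κ ^ n * z = z * κ ^ n := fun n z => Commute.pow_left (hκ z) n
    have hss : ∀ (n : ℕ) (z : C), s ^ n * z = z * s ^ n := fun n z => Commute.pow_left (hs z) n
    have hk1 : ∀ n : ℕ, κ ^ n * κ ^ n = 1 := by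
      intro n
      rw [← pow_add, ← two_mul, pow_mul, pow_two, hκ2, one_pow]
    -- t.prod * x = κ ^ n * (x * t.prod)
    have hm' : t.prod * x = κ ^ t.length * (x * t.prod) := by
      rw [hm, ← mul_assoc, hk1, one_mul]
    have hch : (t.length + 1).choose 2 = t.length + t.length.choose 2 := by
      rw [Nat.choose_succ_succ' t.length 1, Nat.choose_one_right]
    rw [hch]
    calc x * t.prod * (x * t.prod) = x * (t.prod * x) * t.prod := by group
      _ = x * (κ ^ t.length * (x * t.prod)) * t.prod := by rw [hm']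
      _ = (x * κ ^ t.length) * (x * t.prod * t.prod) := by group
      _ = (κ ^ t.length * x) * (x * t.prod * t.prod) := by rw [hkk]
      _ = κ ^ t.length * ((x * x) * (t.prod * t.prod)) := by group
      _ = κ ^ t.length * (s * (s ^ t.length * κ ^ (t.length.choose 2))) := by rw [hx, ih]
      _ = κ ^ t.length * (s ^ (t.length + 1) * κ ^ (t.length.choose 2)) := by rw [pow_succ' s t.length]; group
      _ = s ^ (t.length + 1) * κ ^ t.length * κ ^ (t.length.choose 2) := by rw [← mul_assoc, hkk]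
      _ = s ^ (t.length + 1) * κ ^ (t.length + t.length.choose 2) := by rw [pow_add κ, mul_assoc]

section main

variable {C Q : Type*} [Group C] [Group Q] (π : C →* Q) (hπ : Function.Surjective π) {d : C} (hd : d * d = 1)
  (hker : ∀ x : C, π x = 1 ↔ x = 1 ∨ x = d) (hcen : ∀ x : C, d * x = x * d) {D : Set Q}
  (hinv : ∀ a ∈ D, a * a = 1) (hone : ∀ a ∈ D, ∀ b ∈ D, ∃ g : Q, g * a * g⁻¹ = b)
  (hsub : ∀ g : Q, ∀ a ∈ D, g * a * g⁻¹ ∈ D)
  (htt : ∀ a ∈ D, ∀ b ∈ D, a ≠ b → Commute a b → ∀ a' ∈ D, ∀ b' ∈ D, a' ≠ b' → Commute a' b' →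
    ∃ g : Q, g * a * g⁻¹ = a' ∧ g * b * g⁻¹ = b')

include hd hker hcen in
theorem sq_eq {x y : C} (h : π x = π y) : x * x = y * y := by
  have h1 : π (y⁻¹ * x) = 1 := by rw [map_mul, map_inv, h, inv_mul_cancel]
  rcases (hker _).mp h1 with h2 | h2
  · have : x = y := by
      have := congrArg (y * ·) h2
      simpa using this
    rw [this]
  · have : x = y * d := by
      have := congrArg (y * ·) h2
      simpa using this
    rw [this]
    calc y * d * (y * d) = y * (d * y) * d := by group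
      _ = y * (y * d) * d := by rw [hcen]
      _ = y * y * (d * d) := by group
      _ = y * y := by rw [hd, mul_one]

include hker hcen in
theorem comm_eq {x y x' y' : C} (h : π x = π x') (h' : π y = π y') : x * y * x⁻¹ * y⁻¹ = x' * y' * x'⁻¹ * y'⁻¹ := by
  have h1 : π (x'⁻¹ * x) = 1 := by rw [map_mul, map_inv, h, inv_mul_cancel]
  have h2 : π (y'⁻¹ * y) = 1 := by rw [map_mul, map_inv, h', inv_mul_cancel]
  obtain ⟨z, hz, hzc⟩ : ∃ z : C, x = x' * z ∧ ∀ w : C, z * w = w * z := by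
    refine ⟨x'⁻¹ * x, by group, ?_⟩
    rcases (hker _).mp h1 with h3 | h3 <;> rw [h3]
    · intro w; simp
    · exact hcen
  obtain ⟨t, ht, htc⟩ : ∃ z : C, y = y' * z ∧ ∀ w : C, z * w = w * z := by
    refine ⟨y'⁻¹ * y, by group, ?_⟩
    rcases (hker _).mp h2 with h3 | h3 <;> rw [h3]
    · intro w; simp
    · exact hcen
  subst hz ht
  have e1 : x' * z * (y' * t) = (x' * y') * (z * t) := by
    calc x' * z * (y' * t) = x' * (z * y') * t := by group
      _ = x' * (y' * z) * t := by rw [hzc]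
      _ = _ := by group
  have e2 : (x' * z)⁻¹ = x'⁻¹ * z⁻¹ := by
    rw [← hzc, mul_inv_rev]
  have e3 : (y' * t)⁻¹ = t⁻¹ * y'⁻¹ := by rw [mul_inv_rev]
  calc x' * z * (y' * t) * (x' * z)⁻¹ * (y' * t)⁻¹ = (x' * y') * (z * t) * (x'⁻¹ * z⁻¹) * (t⁻¹ * y'⁻¹) := by rw [e1, e2, e3]
    _ = (x' * y') * (z * (t * (x'⁻¹ * z⁻¹ * t⁻¹))) * y'⁻¹ := by group
    _ = (x' * y') * (z * (x'⁻¹ * z⁻¹ * t⁻¹ * t)) * y'⁻¹ := by rw [htc]
    _ = (x' * y') * (z * (x'⁻¹ * z⁻¹)) * y'⁻¹ := by group
    _ = (x' * y') * (x'⁻¹ * z⁻¹ * z) * y'⁻¹ := by rw [hzc]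
    _ = _ := by group

include hπ hd hker hcen hone in
theorem exists_s : (D.Nonempty) → (hinv : ∀ a ∈ D, a * a = 1) → ∃ s : C, (s = 1 ∨ s = d) ∧ ∀ x : C, π x ∈ D → x * x = s := by
  rintro ⟨a, ha⟩ hinv
  obtain ⟨x0, hx0⟩ := hπ a
  refine ⟨x0 * x0, ?_, ?_⟩
  · apply (hker _).mp
    rw [map_mul, hx0, hinv a ha]
  · intro x hx
    obtain ⟨g, hg⟩ := hone a ha (π x) hx
    obtain ⟨γ, rfl⟩ := hπ g
    have h1 : π (γ * x0 * γ⁻¹) = π x := by rw [map_mul, map_mul, map_inv, hx0, hg]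
    have h2 := sq_eq π hd hker hcen h1
    rw [← h2]
    have h3 : π (x0 * x0) = 1 := by rw [map_mul, hx0, hinv a ha]
    have h4 : ∀ w : C, (x0 * x0) * w = w * (x0 * x0) := by
      rcases (hker _).mp h3 with h | h <;> rw [h]
      · intro w; simp
      · exact hcen
    calc γ * x0 * γ⁻¹ * (γ * x0 * γ⁻¹) = γ * (x0 * x0 * γ⁻¹) := by group
      _ = γ * (γ⁻¹ * (x0 * x0)) := by rw [h4]
      _ = x0 * x0 := by group

include hπ hd hker hcen htt in
theorem exists_k : ∃ κ : C, (κ = 1 ∨ κ = d) ∧ ∀ x y : C, π x ∈ D → π y ∈ D → π x ≠ π y → Commute (π x) (π y) → x * y = κ * (y * x) := by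
  by_cases hne : ∃ a ∈ D, ∃ b ∈ D, a ≠ b ∧ Commute a b
  · obtain ⟨a, ha, b, hb, hab, hc⟩ := hne
    obtain ⟨x0, rfl⟩ := hπ a
    obtain ⟨y0, rfl⟩ := hπ b
    have hk1 : π (x0 * y0 * x0⁻¹ * y0⁻¹) = 1 := by
      simp only [map_mul, map_inv]
      rw [hc.eq]; group
    have h4 : ∀ w : C, (x0 * y0 * x0⁻¹ * y0⁻¹) * w = w * (x0 * y0 * x0⁻¹ * y0⁻¹) := by
      rcases (hker _).mp hk1 with h | h <;> rw [h]
      · intro w; simp
      · exact hcen
    refine ⟨x0 * y0 * x0⁻¹ * y0⁻¹, (hker _).mp hk1, ?_⟩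
    intro x y hx hy hxy hxyc
    obtain ⟨g, hg1, hg2⟩ := htt _ ha _ hb hab hc _ hx _ hy hxy hxyc
    obtain ⟨γ, rfl⟩ := hπ g
    have h1 : π (γ * x0 * γ⁻¹) = π x := by rw [map_mul, map_mul, map_inv, hg1]
    have h2 : π (γ * y0 * γ⁻¹) = π y := by rw [map_mul, map_mul, map_inv, hg2]
    have h3 := comm_eq π hker hcen h1 h2
    have h5 : x * y * x⁻¹ * y⁻¹ = x0 * y0 * x0⁻¹ * y0⁻¹ := by
      rw [← h3]
      calc γ * x0 * γ⁻¹ * (γ * y0 * γ⁻¹) * (γ * x0 * γ⁻¹)⁻¹ * (γ * y0 * γ⁻¹)⁻¹ = γ * ((x0 * y0 * x0⁻¹ * y0⁻¹) * γ⁻¹) := by group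
        _ = γ * (γ⁻¹ * (x0 * y0 * x0⁻¹ * y0⁻¹)) := by rw [h4]
        _ = _ := by group
    rw [← h5]
    group
  · push Not at hne
    exact ⟨1, Or.inl rfl, fun x y hx hy hxy hc => absurd hc (hne _ hx _ hy hxy)⟩

/-- a list of distinct commuting members of product one -/
def Rel (D : Set Q) (n : ℕ) : Prop := ∃ l : List Q, l.length = n ∧ l.Nodup ∧ (∀ x ∈ l, x ∈ D) ∧
  (∀ x ∈ l, ∀ y ∈ l, Commute x y) ∧ l.prod = 1

include hπ hd hker hcen in
theorem rel_eq {s κ : C} (hs : s = 1 ∨ s = d) (hκ : κ = 1 ∨ κ = d) (hs' : ∀ x : C, π x ∈ D → x * x = s)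
    (hκ' : ∀ x y : C, π x ∈ D → π y ∈ D → π x ≠ π y → Commute (π x) (π y) → x * y = κ * (y * x)) {n : ℕ} (hr : Rel D n) :
    s ^ n * κ ^ (n.choose 2) = 1 := by
  obtain ⟨l, hl, hnd, hlD, hlc, hprod⟩ := hr
  have hscen : ∀ z : C, s * z = z * s := by
    rcases hs with rfl | rfl
    · intro z; simp
    · exact hcen
  have hκcen : ∀ z : C, κ * z = z * κ := by
    rcases hκ with rfl | rfl
    · intro z; simp
    · exact hcen
  have hκ2 : κ * κ = 1 := by
    rcases hκ with rfl | rfl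
    · simp
    · exact hd
  set σ : Q → C := Function.surjInv hπ with hσ
  have hσ' : ∀ q, π (σ q) = q := Function.surjInv_eq hπ
  have h1 : ∀ x ∈ l.map σ, x * x = s := by
    intro x hx
    obtain ⟨q, hq, rfl⟩ := List.mem_map.mp hx
    exact hs' _ (by rw [hσ']; exact hlD q hq)
  have h2 : (l.map σ).Pairwise (fun x y => x * y = κ * (y * x)) := by
    rw [List.pairwise_map]
    have h3 : l.Pairwise (fun a b => a ≠ b) := hnd
    refine List.Pairwise.imp_of_mem ?_ h3
    intro a b ha hb hab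
    exact hκ' _ _ (by rw [hσ']; exact hlD a ha) (by rw [hσ']; exact hlD b hb) (by rw [hσ', hσ']; exact hab)
      (by rw [hσ', hσ']; exact hlc a ha b hb)
  have h3 := sq_list_prod hκcen hκ2 hscen (l.map σ) h1 h2
  rw [List.length_map, hl] at h3
  rw [← h3]
  have h4 : π (l.map σ).prod = 1 := by
    rw [map_list_prod, List.map_map]
    have : (⇑π ∘ σ) = id := funext hσ'
    rw [this, List.map_id, hprod]
  rcases (hker _).mp h4 with h | h <;> rw [h]
  · simp
  · exact hd

include hπ hd hker hcen hinv hone htt in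
/-- **lifting of involutions** -/
theorem lift_inv (hne : D.Nonempty) (h6 : Rel D 6) {n : ℕ} (hn : n % 2 = 1) (hodd : Rel D n)
    (hP : ∀ x : Q, x * x = 1 → x ≠ 1 → ∃ l : List Q, (∀ y ∈ l, y ∈ D) ∧ (∀ y ∈ l, ∀ z ∈ l, Commute y z) ∧ l.prod = x)
    (x : Q) (hx : x * x = 1) (hx1 : x ≠ 1) : ∃ y : C, π y = x ∧ y * y = 1 ∧ y ≠ 1 := by
  obtain ⟨s, hs, hs'⟩ := exists_s π hπ hd hker hcen hone hne hinv
  obtain ⟨κ, hκ, hκ'⟩ := exists_k π hπ hd hker hcen htt
  have e6 := rel_eq π hπ hd hker hcen hs hκ hs' hκ' h6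
  have en := rel_eq π hπ hd hker hcen hs hκ hs' hκ' hodd
  have hs2 : s ^ 2 = 1 := by
    rcases hs with rfl | rfl
    · simp
    · rw [pow_two]; exact hd
  have hκ2 : κ ^ 2 = 1 := by
    rcases hκ with rfl | rfl
    · simp
    · rw [pow_two]; exact hd
  have hκ1 : κ = 1 := by
    have h15 : Nat.choose 6 2 = 15 := by decide
    rw [h15, show s ^ 6 = (s ^ 2) ^ 3 by rw [← pow_mul], hs2, one_pow, one_mul, show κ ^ 15 = (κ ^ 2) ^ 7 * κ by
      rw [← pow_mul, ← pow_succ], hκ2, one_pow, one_mul] at e6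
    exact e6
  have hs1 : s = 1 := by
    rw [hκ1, one_pow, mul_one] at en
    have : n = 2 * (n / 2) + 1 := by omega
    rw [this, pow_succ, pow_mul, hs2, one_pow, one_mul] at en
    exact en
  -- lifts of commuting members commute
  have hcomm : ∀ x y : C, π x ∈ D → π y ∈ D → Commute (π x) (π y) → x * y = y * x := by
    intro x y hx hy hxy
    by_cases h : π x = π y
    · have h1 := comm_eq π hker hcen h rfl (y := y) (y' := y)
      have h2 : x * y * x⁻¹ * y⁻¹ = 1 := by rw [h1]; group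
      have := congrArg (· * (y * x)) h2
      simpa [mul_assoc] using this
    · have := hκ' x y hx hy h hxy
      rw [hκ1, one_mul] at this
      exact this
  have hsq : ∀ x : C, π x ∈ D → x * x = 1 := by
    intro x hx
    rw [hs' x hx, hs1]
  obtain ⟨l, hl1, hl2, rfl⟩ := hP x hx hx1
  set σ : Q → C := Function.surjInv hπ with hσ
  have hσ' : ∀ q, π (σ q) = q := Function.surjInv_eq hπ
  have hprod : ∀ t : List Q, (∀ y ∈ t, y ∈ D) → (∀ y ∈ t, ∀ z ∈ t, Commute y z) → (t.map σ).prod * (t.map σ).prod = 1 := by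
    intro t ht1 ht2
    have h1 : ∀ x ∈ t.map σ, x * x = (1 : C) := by
      intro x hx
      obtain ⟨q, hq, rfl⟩ := List.mem_map.mp hx
      exact hsq _ (by rw [hσ']; exact ht1 q hq)
    have h2 : (t.map σ).Pairwise (fun x y => x * y = (1 : C) * (y * x)) := by
      rw [List.pairwise_map]
      have h3 : t.Pairwise (fun a b => a ∈ D ∧ b ∈ D ∧ Commute a b) := by
        rw [List.pairwise_iff_forall_sublist]
        intro a b hab
        have ha := hab.subset (List.mem_cons_self)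
        have hb := hab.subset (List.mem_cons_of_mem _ (List.mem_cons_self))
        exact ⟨ht1 a ha, ht1 b hb, ht2 a ha b hb⟩
      refine h3.imp ?_
      rintro a b ⟨ha, hb, hab⟩
      rw [one_mul]
      exact hcomm _ _ (by rw [hσ']; exact ha) (by rw [hσ']; exact hb) (by rw [hσ', hσ']; exact hab)
    have h3 := sq_list_prod (κ := (1 : C)) (s := 1) (by simp) (by simp) (by simp) (t.map σ) h1 h2
    simpa using h3
  have hπp : π (l.map σ).prod = l.prod := by
    rw [map_list_prod, List.map_map]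
    have : (⇑π ∘ σ) = id := funext hσ'
    rw [this, List.map_id]
  refine ⟨(l.map σ).prod, hπp, hprod l hl1 hl2, ?_⟩
  intro h
  rw [h, map_one] at hπp
  exact hx1 hπp.symm

end main

end Cfsg.Agent.Lib.FiLift91
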