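import Cfsg.Agent.Lib.FiLift91b
import Cfsg.Agent.Lib.U6Hyp
import Cfsg.Agent.Lib.U6Invol
import Cfsg.Agent.Lib.U6Bridge
import Cfsg.Agent.Lib.U6Level
/-
Lifting involutions: double covers of `PSU_6(2)` (helper91).
-/
set_option autoImplicit false
set_option linter.all false

namespace Cfsg.Agent.Lib.FiLift91

open Module Cfsg Cfsg.Agent.Lib.UnTrans Cfsg.Agent.Lib.UnBridge Cfsg.Agent.Lib.FiPar Cfsg.Agent.Lib.U6Class
open Cfsg.Agent.Lib.SpTrans (isom mem_isom)
open Cfsg.Agent.Lib.ThreeRank3 Cfsg.Agent.Lib.ThreeDescent Cfsg.Agent.Lib.FiMu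
open scoped Matrix

universe u v w

section pre

variable {F : Type u} {V : Type v} [Field F] [CharP F 2] [AddCommGroup V] [Module F V] {σ : F →+* F} {f : V → V → F}

theorem tr_sq (H : HS σ f) (w : V) (hw : f w w = 0) : tr H w hw * tr H w hw = 1 := by
  ext x
  show tr H w hw (tr H w hw x) = x
  rw [tr_apply, tr_apply, H.add_left, H.smul_left, hw, mul_zero, add_zero, add_assoc, add_self' F, add_zero]

theorem tr_congr (H : HS σ f) {w w' : V} (h : w = w') (hw : f w w = 0) (hw' : f w' w' = 0) : tr H w hw = tr H w' hw' := by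
  subst h; rfl

theorem tr_cube (H : HS σ f) {w v : V} (hw : f w w = 0) (hv : f v v = 0) (h : f w v = 1) :
    (tr H w hw * tr H v hv) ^ 3 = 1 := by
  have h' : f v w = 1 := by rw [H.herm, h, map_one]
  have e1 := tr_conj H (tr_mem_isom H w hw) v hv
  have e2 := tr_conj H (tr_mem_isom H v hv) w hw
  have e3 : tr H w hw * tr H v hv * (tr H w hw)⁻¹ = tr H v hv * tr H w hw * (tr H v hv)⁻¹ := by
    rw [e1, e2]
    apply tr_congr
    rw [tr_apply, tr_apply, h, h', one_smul, one_smul, add_comm]
  have s1 := tr_sq H w hw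
  have s2 := tr_sq H v hv
  set a := tr H w hw
  set b := tr H v hv
  have ia : a⁻¹ = a := inv_eq_of_mul_eq_one_left s1
  have ib : b⁻¹ = b := inv_eq_of_mul_eq_one_left s2
  rw [ia, ib] at e3
  calc (a * b) ^ 3 = (a * b * a) * (b * a * b) := by
        rw [pow_succ, pow_two]; group
    _ = (a * b * a) * (a * b * a) := by rw [e3]
    _ = a * b * (a * a) * b * a := by group
    _ = a * (b * b) * a := by rw [s1]; group
    _ = 1 := by rw [s2, mul_one, s1]

/-- the setting without a class -/
structure Pre (H : HS σ f) (G₁ : Type w) [Group G₁] (π : SS f →* G₁) : Prop where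
  fin : FiniteDimensional F V
  nd : Nd f (⊤ : Submodule F V)
  dim : finrank F V = 6
  sq : ∀ c : F, σ c = c ^ 2
  cube : ∀ c : F, c ≠ 0 → c ^ 3 = 1
  surj : Function.Surjective π
  ker : ∀ s : SS f, π s = 1 ↔ ∃ μ : F, ∀ x, (s : V ≃ₗ[F] V) x = μ • x

variable {H : HS σ f} {G₁ : Type w} [Group G₁] {π : SS f →* G₁}

theorem class_of_pre [Finite F] (S : Pre H G₁ π) (hs : IsSimpleGroup G₁) :
    ∃ D : Set G₁, IsThreeTranspositionGroup D ∧ D.Nonempty := by
  have hfin := S.fin
  have hnorm : ∀ c : F, c ≠ 0 → σ c * c = 1 := by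
    intro c hc
    rw [S.sq, ← pow_succ]; exact S.cube c hc
  have hfix : ∀ c : F, σ c = c → c = 0 ∨ c = 1 := by
    intro c hc
    by_cases h0 : c = 0
    · exact Or.inl h0
    · right
      rw [S.sq, pow_two] at hc
      exact mul_left_cancel₀ h0 (by rw [hc, mul_one])
  have hne1 : ∀ (w : V) (hw : f w w = 0), w ≠ 0 → P π H S.fin w hw ≠ 1 := by
    intro w hw hw0 h
    rw [P, S.ker] at h
    obtain ⟨μ, hμ⟩ := h
    obtain ⟨y, _, hy⟩ := S.nd w trivial hw0
    have hy' : f y w ≠ 0 := H.symm_ne hy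
    have h1 : tr H w hw y = μ • y := hμ y
    rw [tr_apply] at h1
    have h2 : f y w • w = (μ - 1) • y := by
      rw [sub_smul, one_smul, ← h1]; abel
    have h3 : f (f y w • w) w = f ((μ - 1) • y) w := by rw [h2]
    rw [H.smul_left, H.smul_left, hw, mul_zero] at h3
    have h4 : μ - 1 = 0 := by
      rcases mul_eq_zero.mp h3.symm with h | h
      · exact h
      · exact absurd h hy'
    rw [h4, zero_smul] at h2
    rcases smul_eq_zero.mp h2 with h | h
    · exact hy' h
    · exact hw0 h
  have hPsq : ∀ (w : V) (hw : f w w = 0), P π H S.fin w hw * P π H S.fin w hw = 1 := by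
    intro w hw
    rw [P, ← map_mul]
    have : (⟨tr H w hw, tr_mem H w hw⟩ : SS f) * ⟨tr H w hw, tr_mem H w hw⟩ = 1 := Subtype.ext (tr_sq H w hw)
    rw [this, map_one]
  refine ⟨{t | ∃ (w : V) (hw : f w w = 0), w ≠ 0 ∧ P π H S.fin w hw = t}, ⟨⟨?_, ?_⟩, ?_, ?_⟩, ?_⟩
  · rintro t ⟨w, hw, hw0, rfl⟩
    exact orderOf_eq_prime (by rw [pow_two]; exact hPsq w hw) (hne1 w hw hw0)
  · rintro t ⟨w, hw, hw0, rfl⟩ t' ⟨v, hv, hv0, rfl⟩
    by_cases hwv : f w v = 0
    · left
      have hc : P π H S.fin w hw * P π H S.fin v hv = P π H S.fin v hv * P π H S.fin w hw := by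
        rw [P, P, ← map_mul, ← map_mul]
        congr 1
        exact Subtype.ext (tr_comm H hw hv hwv)
      have h1 := hPsq w hw
      have h2 := hPsq v hv
      set a := P π H S.fin w hw
      set b := P π H S.fin v hv
      rw [pow_two]
      calc a * b * (a * b) = a * (b * a) * b := by group
        _ = a * (a * b) * b := by rw [hc]
        _ = (a * a) * (b * b) := by group
        _ = 1 := by rw [h1, h2, mul_one]
    · right
      set c := f w v with hc
      have hci : c⁻¹ ≠ 0 := inv_ne_zero hwv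
      have hw' : f (c⁻¹ • w) (c⁻¹ • w) = 0 := by rw [H.smul_left, H.smul_right, hw, mul_zero, mul_zero]
      have e1 := tr_smul H hnorm hci w hw hw'
      have e2 : f (c⁻¹ • w) v = 1 := by rw [H.smul_left, ← hc, inv_mul_cancel₀ hwv]
      have e3 := tr_cube H hw' hv e2
      rw [e1] at e3
      rw [P, P, ← map_mul, ← map_pow]
      have : ((⟨tr H w hw, tr_mem H w hw⟩ : SS f) * ⟨tr H v hv, tr_mem H v hv⟩) ^ 3 = 1 := Subtype.ext e3
      rw [this, map_one]
  · rintro g t ⟨w, hw, hw0, rfl⟩
    obtain ⟨s, rfl⟩ := S.surj g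
    have hs1 := s.2.1
    refine ⟨(s : V ≃ₗ[F] V) w, by rw [hs1]; exact hw, ?_, ?_⟩
    · intro h
      exact hw0 ((s : V ≃ₗ[F] V).map_eq_zero_iff.mp h)
    · rw [P, P, ← map_inv, ← map_mul, ← map_mul]
      congr 1
      exact Subtype.ext (tr_conj H hs1 w hw).symm
  · -- generation
    set D : Set G₁ := {t | ∃ (w : V) (hw : f w w = 0), w ≠ 0 ∧ P π H S.fin w hw = t} with hD
    have hconj : ∀ g : G₁, ∀ t ∈ D, g * t * g⁻¹ ∈ D := by
      rintro g t ⟨w, hw, hw0, rfl⟩
      obtain ⟨s, rfl⟩ := S.surj g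
      have hs1 := s.2.1
      refine ⟨(s : V ≃ₗ[F] V) w, by rw [hs1]; exact hw, ?_, ?_⟩
      · intro h
        exact hw0 ((s : V ≃ₗ[F] V).map_eq_zero_iff.mp h)
      · rw [P, P, ← map_inv, ← map_mul, ← map_mul]
        congr 1
        exact Subtype.ext (tr_conj H hs1 w hw).symm
    have hnorm : (Subgroup.closure D).Normal := by
      refine ⟨fun n hn g => ?_⟩
      have h1 : Subgroup.closure D ≤ (Subgroup.closure D).comap (MulAut.conj g).toMonoidHom := by
        rw [Subgroup.closure_le]
        intro t ht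
        show g * t * g⁻¹ ∈ Subgroup.closure D
        exact Subgroup.subset_closure (hconj g t ht)
      exact h1 hn
    rcases hs.eq_bot_or_eq_top_of_normal _ hnorm with h | h
    · exfalso
      obtain ⟨w, _, hw0, hw⟩ := exists_iso_two H (by
          intro c hc
          rw [S.sq, ← pow_succ]; exact S.cube c hc) hfix S.nd (by rw [finrank_top, S.dim]; norm_num)
      have h1 : P π H S.fin w hw ∈ Subgroup.closure D := Subgroup.subset_closure ⟨w, hw, hw0, rfl⟩
      rw [h, Subgroup.mem_bot] at h1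
      exact hne1 w hw hw0 h1
    · exact h
  · obtain ⟨w, _, hw0, hw⟩ := exists_iso_two H hnorm hfix S.nd (by rw [finrank_top, S.dim]; norm_num)
    exact ⟨_, w, hw, hw0, rfl⟩

end pre

theorem class_of_equiv {F : Type} [Field F] [Fintype F] (hF : Fintype.card F = 4) (hs : IsSimpleGroup (PSU 6 F 2))
    {G₁ : Type w} [Group G₁] (e : G₁ ≃* PSU 6 F 2) : ∃ D : Set G₁, IsThreeTranspositionGroup D ∧ D.Nonempty := by
  have hF2 : Fintype.card F = 2 ^ 2 := by rw [hF]; norm_num
  have hch : (2 : F) = 0 := by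
    have h1 : ((Fintype.card F : ℕ) : F) = 0 := Nat.cast_card_eq_zero F
    rw [hF] at h1
    have h2 : (2 : F) * 2 = 0 := by
      have : ((4 : ℕ) : F) = 2 * 2 := by norm_num
      rw [← this]; exact h1
    exact mul_self_eq_zero.mp h2
  have hchar : CharP F 2 := CharTwo.of_one_ne_zero_of_two_eq_zero one_ne_zero hch
  have hfin : Finite F := inferInstance
  have hs1 : IsSimpleGroup G₁ := e.isSimpleGroup
  refine class_of_pre (H := herm_HS 6 hF2) (π := e.symm.toMonoidHom.comp
      ((QuotientGroup.mk' (Subgroup.center (SU 6 F 2))).comp (toSU 6 F 2))) ?_ hs1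
  · refine ⟨inferInstance, herm_nd 6 hF2, by rw [finrank_fin_fun], ?_, ?_, ?_, ?_⟩
    · intro c; exact sig_apply hF2 c
    · intro c hc
      have := FiniteField.pow_card_sub_one_eq_one c hc
      rwa [hF] at this
    · exact e.symm.surjective.comp ((QuotientGroup.mk'_surjective _).comp toSU_surj)
    · intro s
      rw [← toSU_center hF2 (by norm_num) s]
      show e.symm (QuotientGroup.mk (toSU 6 F 2 s)) = 1 ↔ _
      rw [MulEquiv.map_eq_one_iff, QuotientGroup.eq_one_iff]

theorem one_class_of_simple {G : Type*} [Group G] {D : Set G} (hs : IsSimpleGroup G) (hD : IsThreeTranspositionGroup D)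
    (hnc : ∃ a ∈ D, ∃ b ∈ D, ¬ Commute a b) : OneClass D := by
  intro a ha b hb
  by_contra hcon
  push Not at hcon
  set K : Set G := {x | ∃ g : G, g * a * g⁻¹ = x} with hK
  have hnorm : (Subgroup.closure K).Normal := by
    refine ⟨fun n hn g => ?_⟩
    have h1 : Subgroup.closure K ≤ (Subgroup.closure K).comap (MulAut.conj g).toMonoidHom := by
      rw [Subgroup.closure_le]
      rintro t ⟨h, rfl⟩
      show g * (h * a * h⁻¹) * g⁻¹ ∈ Subgroup.closure K
      exact Subgroup.subset_closure ⟨g * h, by group⟩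
    exact h1 hn
  have haK : a ∈ Subgroup.closure K := Subgroup.subset_closure ⟨1, by group⟩
  have ha1 : a ≠ 1 := by
    intro h
    have := hD.1.1 a ha
    rw [h, orderOf_one] at this
    omega
  have htop : Subgroup.closure K = ⊤ := by
    rcases hs.eq_bot_or_eq_top_of_normal _ hnorm with h | h
    · rw [h, Subgroup.mem_bot] at haK
      exact absurd haK ha1
    · exact h
  have hcomm : ∀ x ∈ K, Commute x b := by
    rintro x ⟨g, hx⟩
    by_contra hxb
    have hxD : x ∈ D := by rw [← hx]; exact hD.2.1 g a ha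
    have h3 : (x * b) ^ 3 = 1 := by
      rcases hD.1.2 x hxD b hb with h | h
      · exact absurd (commute_of_sq (sq_one hD.1 hxD) (sq_one hD.1 hb) h) hxb
      · exact h
    have hxx := sq_one hD.1 hxD
    have hbb := sq_one hD.1 hb
    -- x * b * x * b * x * b = 1 so (x b) x (x b)⁻¹ = b
    have h4 : (x * b) * x * (x * b)⁻¹ = b := by
      have ib : b⁻¹ = b := inv_eq_of_mul_eq_one_left hbb
      have ix : x⁻¹ = x := inv_eq_of_mul_eq_one_left hxx
      have h5 : x * b * (x * b) * (x * b) = 1 := by rw [← h3, pow_succ, pow_two]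
      rw [mul_inv_rev, ib, ix]
      calc x * b * x * (b * x) = (x * b * (x * b) * (x * b)) * b * (x * x) * 1 := by
            rw [h5, hxx]
            have : x * b * x * (b * x) = (x * b * (x * b) * (x * b)) * b⁻¹ := by group
            rw [this, h5, ib]
            group
        _ = b := by rw [h5, hxx]; group
    refine hcon (x * b * g) ?_
    calc x * b * g * a * (x * b * g)⁻¹ = x * b * (g * a * g⁻¹) * (x * b)⁻¹ := by group
      _ = b := by rw [hx, h4]
  have hbc : b ∈ Subgroup.center G := by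
    rw [Subgroup.mem_center_iff]
    intro g
    have hg : g ∈ Subgroup.closure K := by rw [htop]; trivial
    have hle : Subgroup.closure K ≤ Subgroup.centralizer ({b} : Set G) := by
      rw [Subgroup.closure_le]
      intro x hx
      exact Subgroup.mem_centralizer_singleton_iff.mpr (hcomm x hx).eq
    exact Subgroup.mem_centralizer_singleton_iff.mp (hle hg)
  rcases hs.eq_bot_or_eq_top_of_normal (Subgroup.center G) inferInstance with h | h
  · rw [h, Subgroup.mem_bot] at hbc
    have := hD.1.1 b hb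
    rw [hbc, orderOf_one] at this
    omega
  · obtain ⟨p, hp, q, hq, hpq⟩ := hnc
    apply hpq
    have : p ∈ Subgroup.center G := by rw [h]; trivial
    exact (Subgroup.mem_center_iff.mp this q).symm

theorem lh_psu {F : Type} [Field F] [Fintype F] (hF : Fintype.card F = 4) (hs : IsSimpleGroup (PSU 6 F 2))
    {G₁ : Type w} [Group G₁] (e : G₁ ≃* PSU 6 F 2) : ∃ D : Set G₁, LH D := by
  obtain ⟨D, hD, hne⟩ := class_of_equiv hF hs e
  have hs1 : IsSimpleGroup G₁ := e.isSimpleGroup
  have hfin : Finite G₁ := Finite.of_equiv _ e.symm.toEquiv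
  obtain ⟨hpar, _, _, _, _⟩ := level_of_equiv hF hD hne e
  have hnc : ∃ a ∈ D, ∃ b ∈ D, ¬ Commute a b := by
    by_contra hcon
    push Not at hcon
    obtain ⟨a, ha⟩ := hne
    have h1 : Dd D a = D \ {a} := by
      ext x
      constructor
      · intro hx
        exact ⟨hx.1, hx.2.1⟩
      · rintro ⟨hx, hxa⟩
        exact ⟨hx, hxa, hcon a ha x hx⟩
    have h2 := hpar.c1 a ha
    rw [h1, Set.ncard_diff_singleton_of_mem ha, hpar.card] at h2
    norm_num at h2
  have hone := one_class_of_simple hs1 hD hnc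
  have htt := tt_two hD hone hpar (by norm_num)
  have hline := lineProp_of_equiv hF hD hne e
  have htrip := tripP_of_equiv hF hD hne e
  obtain ⟨a, ha⟩ := hne
  obtain ⟨b, hb⟩ : (Dd D a).Nonempty := by
    rw [← Set.ncard_pos (Set.toFinite _), hpar.c1 a ha]; norm_num
  obtain ⟨d1, hd1, d2, hd2, d3, hd3, hnd, hcc, hprod, _, huniq⟩ := hline a ha b hb.1 hb.2.1.symm hb.2.2
  refine ⟨D, ⟨a, ha⟩, fun x hx => sq_one hD.1 hx, hone, ?_, ?_, ?_, ?_⟩
  · intro a ha b hb hab hc a' ha' b' hb' hab' hc'
    have hT : ∀ {a b : G₁}, a ∈ D → b ∈ D → a ≠ b → Commute a b → Tup D 2 [a, b] := by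
      intro a b ha hb hab hc
      refine ⟨by simp [hab], rfl, ?_, ?_⟩
      · intro x hx
        simp only [List.mem_cons, List.not_mem_nil, or_false] at hx
        rcases hx with rfl | rfl <;> assumption
      · intro x hx y hy
        simp only [List.mem_cons, List.not_mem_nil, or_false] at hx hy
        rcases hx with rfl | rfl <;> rcases hy with rfl | rfl
        · exact Commute.refl _
        · exact hc
        · exact hc.symm
        · exact Commute.refl _
    obtain ⟨g, hg⟩ := htt _ _ (hT ha hb hab hc) (hT ha' hb' hab' hc')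
    simp only [List.map_cons, List.map_nil, List.cons.injEq, and_true] at hg
    exact ⟨g, hg.1, hg.2⟩
  · -- six
    have h51 := hpar.c2 a ha b hb
    obtain ⟨x, hx, hxn⟩ : ∃ x ∈ Dd D a ∩ Dd D b, x ∉ ({d1, d2, d3} : Set G₁) := by
      by_contra hcon
      push Not at hcon
      have h1 : (Dd D a ∩ Dd D b).ncard ≤ ({d1, d2, d3} : Set G₁).ncard := Set.ncard_le_ncard hcon (Set.toFinite _)
      have h2 : ({d1, d2, d3} : Set G₁).ncard ≤ 3 := by
        refine le_trans (Set.ncard_insert_le _ _) ?_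
        have := Set.ncard_insert_le d2 ({d3} : Set G₁)
        rw [Set.ncard_singleton] at this
        omega
      omega
    simp only [Set.mem_insert_iff, Set.mem_singleton_iff, not_or] at hxn
    rcases htrip a ha b hb.1 x hx.1.1 hb.2.1.symm hx.1.2.1.symm hx.2.2.1.symm hb.2.2 hx.1.2.2 hx.2.2.2 with h | h
    · exfalso
      obtain ⟨y, hy, z, hz, h1, h2, h3⟩ := h
      have h4 := huniq x hx.1.1 y hy z hz h1 h2 h3
      simp only [List.mem_cons, List.not_mem_nil, or_false] at h4
      rcases h4 with h | h | h | h | h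
      · exact hx.1.2.1 h
      · exact hx.2.2.1 h
      · exact hxn.1 h
      · exact hxn.2.1 h
      · exact hxn.2.2 h
    · obtain ⟨x', y', z', hD', h1, _⟩ := h
      obtain ⟨h2, h3, h4⟩ := h1 0
      refine ⟨[a, b, x, x' 0, y' 0, z' 0], rfl, h2, ?_, h3, ?_⟩
      · intro u hu
        simp only [List.mem_cons, List.not_mem_nil, or_false] at hu
        rcases hu with rfl | rfl | rfl | rfl | rfl | rfl
        · exact ha
        · exact hb.1
        · exact hx.1.1
        · exact (hD' 0).1
        · exact (hD' 0).2.1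
        · exact (hD' 0).2.2
      · simpa [mul_assoc] using h4
  · refine ⟨5, by norm_num, [a, b, d1, d2, d3], rfl, hnd, ?_, hcc, by simpa [mul_assoc] using hprod⟩
    intro u hu
    simp only [List.mem_cons, List.not_mem_nil, or_false] at hu
    rcases hu with rfl | rfl | rfl | rfl | rfl
    · exact ha
    · exact hb.1
    · exact hd1
    · exact hd2
    · exact hd3
  · intro x hx hx1
    obtain ⟨m, _, _, l, _, _, h1, h2, h3⟩ := invP_of_equiv hF hD ⟨a, ha⟩ e x hx hx1
    exact ⟨l, h1, h2, h3⟩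

end Cfsg.Agent.Lib.FiLift91
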