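import Cfsg.Agent.Lib.FiPsu73
import Cfsg.Agent.Lib.H92TyM
import Cfsg.Agent.Lib.FiTypes

/-!
# Transport of the type M(22) along an isomorphism with the presented group (helper73 for helper89)
-/

set_option autoImplicit false
set_option linter.all false

namespace Cfsg.Agent.Lib.FiPsu

open Cfsg Cfsg.Spor Cfsg.Agent.Lib.CosetGroup Cfsg.Agent.Lib.CoxBridge Cfsg.Agent.Lib.BenesWord

universe u

variable {G : Type u} [Group G] {D : Set G}

theorem type_of_iso (hc : ∀ g : G, ∀ d ∈ D, g * d * g⁻¹ ∈ D) (hcl : ∀ a ∈ D, ∀ b ∈ D, ∃ g : G, g * a * g⁻¹ = b)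
    (e : Spor.Fi22 ≃* G) (he : ∀ x, e (PresentedGroup.of x) ∈ D) : IsOfTypeM22 G D := by
  have h0 : e (Fi22Rel.C.x Fi22A.L0 0) ∈ D := by
    have h1 : Fi22Rel.C.x Fi22A.L0 0 = PresentedGroup.of (Fi22Rel.gen 0) := Fi22Rel.C.x_of_lt Fi22A.L0 (by decide)
    rw [h1]
    exact he _
  refine FiMu.type22_map e ?_ H92Ty22.type22
  intro x
  constructor
  · intro hx
    obtain ⟨g, hg⟩ := isConj_iff.mp (show IsConj _ x from hx)
    rw [← hg, map_mul, map_mul, map_inv]
    exact hc _ _ h0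
  · intro hx
    obtain ⟨g, hg⟩ := hcl _ h0 _ hx
    obtain ⟨h, rfl⟩ := e.surjective g
    apply isConj_iff.mpr
    refine ⟨h, ?_⟩
    apply e.injective
    rw [map_mul, map_mul, map_inv]
    exact hg

end Cfsg.Agent.Lib.FiPsu
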