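import Cfsg.Agent.Lib.FiRepTab
import Cfsg.Agent.Lib.PackOk
import Cfsg.Agent.Lib.BenesWord

/-!
78-dimensional matrices over the field with 13 elements: kernel-fast multiplication.
-/

set_option autoImplicit false
set_option exponentiation.threshold 200000

namespace Cfsg.Agent.Lib.FiRep

open Cfsg Cfsg.Agent.Lib.PackMat Cfsg.Agent.Lib.PackLane Cfsg.Agent.Lib.BenesWord

theorem P_const_mul (c w n : ℕ) : P (fun _ => c) w n * (2 ^ w - 1) = c * (2 ^ (w * n) - 1) := by
  induction n with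
  | zero => simp [P]
  | succ n ih =>
    rw [P_succ, add_mul, ih]
    have h1 : 1 ≤ 2 ^ w := Nat.one_le_two_pow
    have h2 : 1 ≤ 2 ^ (w * n) := Nat.one_le_two_pow
    have h3 : 2 ^ (w * (n + 1)) = 2 ^ (w * n) * 2 ^ w := by rw [← pow_add]; ring_nf
    rw [h3]
    obtain ⟨a, ha⟩ := Nat.exists_eq_add_of_le h1
    obtain ⟨b, hb⟩ := Nat.exists_eq_add_of_le h2
    rw [ha, hb]
    have e1 : 1 + a - 1 = a := by omega
    have e2 : 1 + b - 1 = b := by omega
    have e3 : (1 + b) * (1 + a) - 1 = a + b + a * b := by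
      have : (1 + b) * (1 + a) = 1 + (a + b + a * b) := by ring
      rw [this]; omega
    rw [e1, e2, e3]; ring

theorem P_const_eq {c w n C : ℕ} (hw : 0 < w)
    (h : Nat.beq (Nat.mul C (Nat.sub (Nat.pow 2 w) 1)) (Nat.mul c (Nat.sub (Nat.pow 2 (Nat.mul w n)) 1)) = true) :
    C = P (fun _ => c) w n := by
  have h1 : C * (2 ^ w - 1) = c * (2 ^ (w * n) - 1) := Nat.eq_of_beq_eq_true h
  rw [← P_const_mul] at h1
  have h2 : 0 < 2 ^ w - 1 := by
    have := Nat.one_lt_two_pow (n := w) (by omega)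
    omega
  exact Nat.eq_of_mul_eq_mul_right h2 h1

/-- masks -/
def cmc : ℕ := Nat.div (Nat.mul 268435455 (Nat.sub (Nat.pow 2 170352) 1)) (Nat.sub (Nat.pow 2 2184) 1)
def rmc : ℕ := Nat.sub (Nat.pow 2 2184) 1
def lmc : ℕ := Nat.div (Nat.mul 1023 (Nat.sub (Nat.pow 2 170352) 1)) (Nat.sub (Nat.pow 2 28) 1)
def topc : ℕ := Nat.pow 2 170352
def mmc : ℕ := Nat.div (Nat.mul 16777215 (Nat.sub (Nat.pow 2 170352) 1)) (Nat.sub (Nat.pow 2 28) 1)
def fvc : ℕ := Nat.div (Nat.mul 3 (Nat.sub (Nat.pow 2 170352) 1)) (Nat.sub (Nat.pow 2 28) 1)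

/-- product of codes -/
def mu (a b : ℕ) : ℕ :=
  forceN cmc fun cm => forceN rmc fun rm => forceN lmc fun lm => forceN a fun a => forceN b fun b =>
    mulG 78 28 13 20165 18 cm rm lm 2184 a b

theorem mu_eq (a b : ℕ) : mu a b = mulG 78 28 13 20165 18 cmc rmc lmc 2184 a b := by
  unfold mu
  rw [forceN_eq, forceN_eq, forceN_eq, forceN_eq, forceN_eq]

/-- matrices -/
abbrev Mt : Type := Matrix (Fin 78) (Fin 78) (ZMod 13)

theorem red_ok (x : ℕ) (hx : x ≤ 78 * ((13 - 1) * (13 - 1))) :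
    ((x * 20165) >>> 18) &&& (2 ^ (28 - 18) - 1) = x / 13 := by
  rw [Nat.and_two_pow_sub_one_eq_mod, Nat.shiftRight_eq_div_pow]
  have hx' : x ≤ 11232 := hx
  have h0 : (2 : ℕ) ^ 18 = 262144 := by norm_num
  have h1 : (2 : ℕ) ^ (28 - 18) = 1024 := by norm_num
  rw [h0, h1]
  obtain ⟨q, hq⟩ : ∃ q, q = x / 13 := ⟨_, rfl⟩
  obtain ⟨r, hr⟩ : ∃ r, r = x % 13 := ⟨_, rfl⟩
  have h2 : x = 13 * q + r := by omega
  have h3 : x * 20165 = 262144 * q + (q + 20165 * r) := by omega
  have h4 : x * 20165 / 262144 = q := by omega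
  rw [h4, ← hq]
  omega

theorem par : Par 78 28 13 20165 18 cmc rmc lmc 2184 where
  hw := by norm_num
  hsh := by norm_num
  hp0 := by norm_num
  hp := by norm_num
  hwn := by norm_num
  hcm := P_const_eq (by norm_num) (by decide +kernel)
  hrm := by decide +kernel
  hlm := P_const_eq (by norm_num) (by decide +kernel)
  hb := by norm_num
  hred := red_ok

/-- code of a matrix -/
def cdm (A : Mt) : ℕ := rep 28 A

theorem mu_cdm (A B : Mt) : mu (cdm A) (cdm B) = cdm (A * B) := by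
  rw [mu_eq]; exact mulG_rep par A B

theorem cdm_inj {A B : Mt} (h : cdm A = cdm B) : A = B := rep_inj (by norm_num) (by norm_num) h

/-- decoding -/
def dc (c : ℕ) : Mt := dec 78 13 28 c

/-- validity -/
def ok (c : ℕ) : Bool := okS 4 topc mmc fvc c

theorem cdm_dc {c : ℕ} (h : ok c = true) : cdm (dc c) = c := by
  apply rep_dec_of_okS (kb := 4) (top := topc) (M := mmc) (A := fvc) (by norm_num) (by norm_num) _ _ _ h
  · decide +kernel
  · exact P_const_eq (by norm_num) (by decide +kernel)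
  · exact P_const_eq (by norm_num) (by decide +kernel)

end Cfsg.Agent.Lib.FiRep
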