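import Cfsg.Agent.Lib.FiRepRel
import Cfsg.Agent.Lib.Fi22Ord

/-!
The Fischer group `Fi22` embeds in `GL(78, 13)`.
-/

set_option autoImplicit false
set_option exponentiation.threshold 200000

namespace Cfsg.Agent.Lib.FiRep

open Cfsg Cfsg.Agent.Lib.PackMat Cfsg.Agent.Lib.PackLane Cfsg.Agent.Lib.BenesWord
open Cfsg.Agent.Lib.CoxBridge Cfsg.Agent.Lib.CosetGroup

/-- check of a relator -/
noncomputable def chk (W : Wd) : Bool := cond (ni W) (Nat.beq (evC W) Ic) false

/-- check of a list of relators -/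
noncomputable def chkL (L : List Wd) : Bool :=
  List.rec (motive := fun _ => Bool) true (fun W _ ih => cond (chk W) ih false) L

theorem chkL_spec {L : List Wd} (h : chkL L = true) : ∀ W ∈ L, W.eval yG = 1 := by
  induction L with
  | nil => intro W hW; simp at hW
  | cons V L ih =>
    have h1 : chkL (V :: L) = cond (chk V) (chkL L) false := rfl
    rw [h1] at h
    have h2 : chk V = true ∧ chkL L = true := by
      cases h3 : chk V <;> rw [h3] at h <;> simp at h ⊢
      exact h
    intro W hW
    rcases List.mem_cons.1 hW with rfl | hW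
    · have h4 := h2.1
      unfold chk at h4
      have h5 : ni W = true ∧ Nat.beq (evC W) Ic = true := by
        cases h6 : ni W <;> rw [h6] at h4 <;> simp at h4 ⊢
        exact h4
      exact eval_one h5.1 h5.2
    · exact ih h2.2 W hW

theorem c1 : chkL (Fi22Rel.coxW.take 9) = true := by decide +kernel
theorem c2 : chkL ((Fi22Rel.coxW.drop 9).take 9) = true := by decide +kernel
theorem c3 : chkL ((Fi22Rel.coxW.drop 18).take 9) = true := by decide +kernel
theorem c4 : chkL (Fi22Rel.coxW.drop 27) = true := by decide +kernel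
theorem c5 : chkL (Fi22Rel.extraW.take 1) = true := by decide +kernel
theorem c6 : chkL ((Fi22Rel.extraW.drop 1).take 1) = true := by decide +kernel
theorem c7 : chkL (Fi22Rel.extraW.drop 2) = true := by decide +kernel

theorem cox_all : ∀ W ∈ Fi22Rel.coxW, W.eval yG = 1 := by
  intro W hW
  rw [← List.take_append_drop 9 Fi22Rel.coxW] at hW
  rcases List.mem_append.1 hW with hW | hW
  · exact chkL_spec c1 W hW
  rw [← List.take_append_drop 9 (Fi22Rel.coxW.drop 9), List.drop_drop] at hW
  rcases List.mem_append.1 hW with hW | hW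
  · exact chkL_spec c2 W hW
  rw [← List.take_append_drop 9 (Fi22Rel.coxW.drop (9 + 9)), List.drop_drop] at hW
  rcases List.mem_append.1 hW with hW | hW
  · exact chkL_spec c3 W hW
  · exact chkL_spec c4 W hW

theorem extra_all : ∀ W ∈ Fi22Rel.extraW, W.eval yG = 1 := by
  intro W hW
  rw [← List.take_append_drop 1 Fi22Rel.extraW] at hW
  rcases List.mem_append.1 hW with hW | hW
  · exact chkL_spec c5 W hW
  rw [← List.take_append_drop 1 (Fi22Rel.extraW.drop 1), List.drop_drop] at hW
  rcases List.mem_append.1 hW with hW | hW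
  · exact chkL_spec c6 W hW
  · exact chkL_spec c7 W hW

theorem cox_all2 : ∀ W ∈ coxWds Spor.Fi22.edges Fi22Rel.C.gen Fi22Rel.C.nn, W.eval yG = 1 := by
  have h : coxWds Spor.Fi22.edges Fi22Rel.C.gen Fi22Rel.C.nn = Fi22Rel.coxW := Fi22Rel.coxW_eq
  rw [h]
  exact cox_all

theorem exists_hom : ∃ φ : Spor.Fi22 →* GG, φ (PresentedGroup.of Spor.Fi22.Gen.a) = yG 0 := by
  have h1 := CoxData.hom Fi22Rel.C yG
  have h2 := h1 (fun i _ => y_sq i)
  have h3 := h2 cox_all2
  have h4 := h3 extra_all
  obtain ⟨φ, h⟩ := h4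
  exact ⟨φ, h 0 (by decide)⟩

theorem y0_ne : yG 0 ≠ 1 := by
  intro h
  have h1 := cd_y 0
  rw [h, cd_one] at h1
  have h2 : Nat.beq Ic gc0 = false := by decide +kernel
  have h3 : Ic = gc0 := h1
  rw [h3, Nat.beq_refl] at h2
  exact absurd h2 (by decide)

theorem exists_injective : ∃ f : Spor.Fi22 →* GG, Function.Injective f := by
  obtain ⟨φ, h⟩ := exists_hom
  refine ⟨φ, ?_⟩
  have hs : IsSimpleGroup Spor.Fi22 := Fi22Ord.main.1
  rw [← MonoidHom.ker_eq_bot_iff]
  rcases IsSimpleGroup.eq_bot_or_eq_top_of_normal φ.ker inferInstance with h1 | h1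
  · exact h1
  · exfalso
    have h2 : PresentedGroup.of Spor.Fi22.Gen.a ∈ φ.ker := by rw [h1]; exact Subgroup.mem_top _
    rw [MonoidHom.mem_ker, h] at h2
    exact y0_ne h2

end Cfsg.Agent.Lib.FiRep
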