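import Cfsg.Agent.Lib.FiRepBase
import Cfsg.Agent.Lib.GolayCode

/-!
Nine involutions of `GL(78, 13)` and evaluation of words by codes.
-/

set_option autoImplicit false
set_option exponentiation.threshold 200000

namespace Cfsg.Agent.Lib.FiRep

open Cfsg.Agent.Lib.Golay (allLt allLt_iff)
open Cfsg Cfsg.Agent.Lib.PackMat Cfsg.Agent.Lib.PackLane Cfsg.Agent.Lib.BenesWord

/-- codes of the generators -/
noncomputable def gcode (c : ℕ) : ℕ :=
  match c with
  | 0 => gc0
  | 1 => gc1
  | 2 => gc2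
  | 3 => gc3
  | 4 => gc4
  | 5 => gc5
  | 6 => gc6
  | 7 => gc7
  | _ => gc8

theorem gcode_cases (p : ℕ → Prop) (h0 : p gc0) (h1 : p gc1) (h2 : p gc2) (h3 : p gc3) (h4 : p gc4) (h5 : p gc5)
    (h6 : p gc6) (h7 : p gc7) (h8 : p gc8) (c : ℕ) : p (gcode c) := by
  unfold gcode
  split <;> assumption

theorem gok (c : ℕ) : ok (gcode c) = true := by
  apply gcode_cases (fun x => ok x = true) <;> decide +kernel

theorem gsq (c : ℕ) : Nat.beq (mu (gcode c) (gcode c)) Ic = true := by
  apply gcode_cases (fun x => Nat.beq (mu x x) Ic = true) <;> decide +kernel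

theorem Iok : ok Ic = true := by decide +kernel

theorem I_entries : allLt 78 (fun i => allLt 78 (fun j => Nat.beq (Nat.land (Nat.shiftRight Ic
    (Nat.mul 28 (Nat.add (Nat.mul 78 i) j))) 268435455) (cond (Nat.beq i j) 1 0))) = true := by
  decide +kernel

theorem dc_I : dc Ic = 1 := by
  ext i j
  have h := Nat.eq_of_beq_eq_true ((allLt_iff.1 ((allLt_iff.1 I_entries) i.1 i.2)) j.1 j.2)
  have h1 : dc Ic i j = (((Ic >>> (28 * (78 * (i : ℕ) + (j : ℕ)))) &&& (2 ^ 28 - 1) : ℕ) : ZMod 13) := rfl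
  have h2 : ((Ic >>> (28 * (78 * (i : ℕ) + (j : ℕ)))) &&& (2 ^ 28 - 1) : ℕ) = cond (Nat.beq i.1 j.1) 1 0 := h
  rw [h1, h2]
  by_cases hij : i = j
  · subst hij
    rw [Nat.beq_refl, Matrix.one_apply_eq]
    simp
  · have h3 : Nat.beq i.1 j.1 = false := by
      cases hb : Nat.beq i.1 j.1 with
      | false => rfl
      | true => exact absurd (Fin.ext (Nat.eq_of_beq_eq_true hb)) hij
    rw [h3, Matrix.one_apply_ne hij]
    simp

theorem cdm_one : cdm 1 = Ic := by
  rw [← dc_I]; exact cdm_dc Iok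

/-- the group -/
abbrev GG : Type := GL (Fin 78) (ZMod 13)

theorem dc_sq (c : ℕ) : dc (gcode c) * dc (gcode c) = 1 := by
  apply cdm_inj
  rw [← mu_cdm, cdm_dc (gok c), cdm_one]
  exact Nat.eq_of_beq_eq_true (gsq c)

/-- the nine involutions -/
noncomputable def yG (c : ℕ) : GG := ⟨dc (gcode c), dc (gcode c), dc_sq c, dc_sq c⟩

/-- code of a group element -/
def cd (g : GG) : ℕ := cdm (g.1 : Mt)

theorem cd_mul (g h : GG) : cd (g * h) = mu (cd g) (cd h) := (mu_cdm _ _).symm

theorem cd_one : cd 1 = Ic := cdm_one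

theorem cd_inj {g h : GG} (e : cd g = cd h) : g = h := Units.ext (cdm_inj e)

theorem cd_y (c : ℕ) : cd (yG c) = gcode c := cdm_dc (gok c)

theorem y_sq (c : ℕ) : yG c * yG c = 1 := Units.ext (dc_sq c)

/-- powers of a code -/
noncomputable def powC (a n : ℕ) : ℕ := Nat.rec (motive := fun _ => ℕ) Ic (fun _ ih => mu a ih) n

theorem cd_pow (g : GG) (n : ℕ) : cd (g ^ n) = powC (cd g) n := by
  induction n with
  | zero => rw [pow_zero, cd_one]; rfl
  | succ n ih => rw [pow_succ', cd_mul, ih]; rfl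

/-- codes of words without inverses -/
noncomputable def evC (W : Wd) : ℕ :=
  Wd.rec (motive := fun _ => ℕ) Ic (fun c => gcode c) (fun _ _ => 0) (fun _ _ a b => mu a b)
    (fun _ n a => forceN a fun a => powC a n) W

/-- no inverses -/
def ni : Wd → Bool
  | .one => true
  | .g _ => true
  | .inv _ => false
  | .mul u v => ni u && ni v
  | .pow u _ => ni u

theorem cd_eval (W : Wd) (h : ni W = true) : cd (W.eval yG) = evC W := by
  induction W with
  | one => exact cd_one
  | g c => exact cd_y c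
  | inv u ih => exact absurd h (by simp [ni])
  | mul u v ihu ihv =>
    rw [ni, Bool.and_eq_true] at h
    show cd (u.eval yG * v.eval yG) = _
    rw [cd_mul, ihu h.1, ihv h.2]
    rfl
  | pow u n ih =>
    rw [ni] at h
    show cd ((u.eval yG) ^ n) = _
    rw [cd_pow, ih h]
    show _ = forceN (evC u) (fun a => powC a n)
    rw [forceN_eq]

theorem eval_one {W : Wd} (h : ni W = true) (h2 : Nat.beq (evC W) Ic = true) : W.eval yG = 1 := by
  apply cd_inj
  rw [cd_eval W h, cd_one]
  exact Nat.eq_of_beq_eq_true h2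

end Cfsg.Agent.Lib.FiRep
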