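import Mathlib

/-!
# From an action on the lanes `< n` to a permutation group of degree `n`
-/

set_option autoImplicit false

namespace Cfsg.Agent.Lib.FinAct

variable {G : Type*} [Group G]

/-- the action on `Fin n` -/
def toFin (φ : G →* Equiv.Perm ℕ) (n : ℕ) (hpres : ∀ g i, i < n → φ g i < n) : G →* Equiv.Perm (Fin n) where
  toFun g :=
    { toFun := fun i => ⟨φ g i, hpres g i i.2⟩
      invFun := fun i => ⟨φ g⁻¹ i, hpres g⁻¹ i i.2⟩
      left_inv := by
        intro i
        apply Fin.ext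
        change φ g⁻¹ (φ g i) = i
        rw [← Equiv.Perm.mul_apply, ← map_mul, inv_mul_cancel, map_one]; rfl
      right_inv := by
        intro i
        apply Fin.ext
        change φ g (φ g⁻¹ i) = i
        rw [← Equiv.Perm.mul_apply, ← map_mul, mul_inv_cancel, map_one]; rfl }
  map_one' := by
    ext i
    change φ 1 i = i
    rw [map_one]; rfl
  map_mul' := by
    intro g h
    ext i
    change φ (g * h) i = φ g (φ h i)
    rw [map_mul]; rfl

@[simp] theorem toFin_apply (φ : G →* Equiv.Perm ℕ) (n : ℕ) (hpres : ∀ g i, i < n → φ g i < n) (g : G) (i : Fin n) :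
    ((toFin φ n hpres g i : Fin n) : ℕ) = φ g i := rfl

theorem toFin_inj (φ : G →* Equiv.Perm ℕ) (n : ℕ) (hpres : ∀ g i, i < n → φ g i < n) {bs : List ℕ}
    (hbs : ∀ b ∈ bs, b < n) (hb : ∀ g, (∀ b ∈ bs, φ g b = b) → g = 1) :
    Function.Injective (toFin φ n hpres) := by
  rw [← MonoidHom.ker_eq_bot_iff, eq_bot_iff]
  intro g hg
  rw [Subgroup.mem_bot]
  apply hb
  intro b hbb
  have h1 := congrArg (fun p : Equiv.Perm (Fin n) => ((p ⟨b, hbs b hbb⟩ : Fin n) : ℕ)) (MonoidHom.mem_ker.mp hg)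
  exact h1

/-- transitivity of the image -/
theorem pretransitive (φ : G →* Equiv.Perm ℕ) (n : ℕ) (hpres : ∀ g i, i < n → φ g i < n)
    (horb : ∀ j, j < n → ∃ g, φ g 0 = j) : MulAction.IsPretransitive (toFin φ n hpres).range (Fin n) := by
  refine ⟨fun i j => ?_⟩
  obtain ⟨g, hg⟩ := horb i i.2
  obtain ⟨h, hh⟩ := horb j j.2
  refine ⟨⟨toFin φ n hpres (h * g⁻¹), ⟨h * g⁻¹, rfl⟩⟩, ?_⟩
  apply Fin.ext
  change φ (h * g⁻¹) i = j
  have h1 : φ g⁻¹ i = 0 := by
    rw [← hg, ← Equiv.Perm.mul_apply, ← map_mul, inv_mul_cancel, map_one]; rfl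
  rw [map_mul, Equiv.Perm.mul_apply, h1, hh]

theorem card_stab {n : ℕ} [NeZero n] (H : Subgroup (Equiv.Perm (Fin n))) [MulAction.IsPretransitive H (Fin n)]
    {s U : ℕ} (hU : Nat.card H = U) (h : s * n = U) : Nat.card (MulAction.stabilizer H (0 : Fin n)) = s := by
  have h1 := (MulAction.stabilizer H (0 : Fin n)).card_mul_index
  rw [MulAction.index_stabilizer_of_transitive, hU, Nat.card_fin, ← h] at h1
  exact Nat.eq_of_mul_eq_mul_right (Nat.pos_of_ne_zero (NeZero.ne n)) h1

/-- an embedded simple group of given order gives a simple subgroup -/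
theorem simple_range {A B : Type*} [Group A] [Group B] (ψ : A →* B) (hψ : Function.Injective ψ) {m : ℕ}
    (hs : IsSimpleGroup A) (hc : Nat.card A = m) : IsSimpleGroup ψ.range ∧ Nat.card ψ.range = m := by
  have e : A ≃* ψ.range := MonoidHom.ofInjective hψ
  have h : Nontrivial ψ.range := e.symm.toEquiv.nontrivial
  exact ⟨IsSimpleGroup.isSimpleGroup_of_surjective e.toMonoidHom e.surjective, by rw [← Nat.card_congr e.toEquiv, hc]⟩

end Cfsg.Agent.Lib.FinAct
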