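import Cfsg.Agent.Lib.FischerSp

/-!
# The involutions `t(x)` of a Fischer space (helper89), S5366
-/

set_option autoImplicit false
set_option linter.all false

namespace Cfsg.Agent.Lib.FischerAut

open Cfsg Cfsg.Agent.Lib.FischerSp

variable {X Y : Type*} {L : Set (Set X)} {M : Set (Set Y)}

/-- the collinear triples -/
def LX (L : Set (Set X)) (x y z : X) : Prop := x ≠ y ∧ y ≠ z ∧ z ≠ x ∧ ({x, y, z} : Set X) ∈ L

theorem triple (hpl : LineSystem.IsPartialLinear L) (h3 : ∀ l ∈ L, l.ncard = 3) : IsTriple L (LX L) where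
  mem := by
    intro l
    constructor
    · intro hl
      obtain ⟨x, y, z, hxy, hxz, hyz, rfl⟩ := Set.ncard_eq_three.1 (h3 l hl)
      exact ⟨x, y, z, ⟨hxy, hyz, hxz.symm, hl⟩, rfl⟩
    · rintro ⟨x, y, z, h, rfl⟩
      exact h.2.2.2
  swap := by
    rintro x y z ⟨h1, h2, h3, h4⟩
    refine ⟨h1.symm, h3.symm, h2.symm, ?_⟩
    have : ({y, x, z} : Set X) = {x, y, z} := by ext u; simp; tauto
    rw [this]; exact h4
  rot := by
    rintro x y z ⟨h1, h2, h3, h4⟩
    refine ⟨h2, h3, h1, ?_⟩
    have : ({y, z, x} : Set X) = {x, y, z} := by ext u; simp; tauto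
    rw [this]; exact h4
  ne := fun x y z h => h.1
  fn := by
    rintro x y z z' ⟨h1, h2, h3', h4⟩ ⟨_, h5, h6, h7⟩
    have := hpl _ h4 _ h7 x y h1 (by simp) (by simp) (by simp) (by simp)
    have hz : z ∈ ({x, y, z'} : Set X) := this ▸ (by simp)
    rcases hz with h | h | h
    · exact absurd h h3'
    · exact absurd h.symm h2
    · exact h

theorem lineMap_eq (hT : IsTriple L (LX L)) {x y z : X} (h : LX L x y z) : LineSystem.lineMap L x y = z := by
  have hex : ∃ z : X, z ≠ x ∧ z ≠ y ∧ x ≠ y ∧ ({x, y, z} : Set X) ∈ L := ⟨z, h.2.2.1, h.2.1.symm, h.1, h.2.2.2⟩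
  have h1 : LineSystem.lineMap L x y = hex.choose := by
    unfold LineSystem.lineMap
    rw [dif_pos hex]
  rw [h1]
  obtain ⟨h2, h3, h4, h5⟩ := hex.choose_spec
  exact hT.fn _ _ _ _ ⟨h4, h3.symm, h2, h5⟩ h

theorem lineMap_fix {x y : X} (h : ∀ z, ¬ LX L x y z) : LineSystem.lineMap L x y = y := by
  unfold LineSystem.lineMap
  rw [dif_neg]
  rintro ⟨z, h1, h2, h3, h4⟩
  exact h z ⟨h3, h2.symm, h1, h4⟩

theorem isSubspace_span (S : Set X) : LineSystem.IsSubspace L (LineSystem.span L S) := by
  intro l hl x hx y hy hne hxl hyl u hu T hT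
  exact hT.2 l hl x (hx T hT) y (hy T hT) hne hxl hyl hu

theorem subset_span (S : Set X) : S ⊆ LineSystem.span L S := fun x hx T hT => hT.1 hx

/-- a model of a plane with its third-point map -/
structure Good (M : Set (Set Y)) (LY : Y → Y → Y → Prop) (tY : Y → Y → Y) : Prop where
  tr : IsTriple M LY
  aut : ∀ x a b c, LY a b c → LY (tY x a) (tY x b) (tY x c)
  eq : ∀ x a z, LY x a z → tY x a = z
  fix : ∀ x a, (∀ z, ¬ LY x a z) → tY x a = a

theorem transport {LY : Y → Y → Y → Prop} (hT : IsTriple L (LX L)) (hM : IsTriple M LY) {S : Set X}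
    (hS : LineSystem.IsSubspace L S) (e : S ≃ Y) (he : LineSystem.IsIso (LineSystem.restrict L S) M e)
    (p q r : S) : LX L (p : X) q r ↔ LY (e p) (e q) (e r) := by
  constructor
  · intro h
    have h1 : ({p, q, r} : Set S) ∈ LineSystem.restrict L S := by
      refine ⟨{(p : X), (q : X), (r : X)}, h.2.2.2, ?_, ?_⟩
      · rintro u (rfl | rfl | rfl)
        · exact p.2
        · exact q.2
        · exact r.2
      · ext u
        simp [Subtype.ext_iff]
    have h2 := (he _).1 h1
    have h3 : e '' ({p, q, r} : Set S) = {e p, e q, e r} := by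
      rw [Set.image_insert_eq, Set.image_insert_eq, Set.image_singleton]
    rw [h3] at h2
    have hne : e p ≠ e q := fun h4 => h.1 (by rw [e.injective h4])
    obtain ⟨z, hz, heq⟩ := hM.of_mem h2 (by simp : e p ∈ ({e p, e q, e r} : Set Y)) (by simp : e q ∈ ({e p, e q, e r} : Set Y)) hne
    have hr : e r ∈ ({e p, e q, z} : Set Y) := heq ▸ (by simp)
    rcases hr with h5 | h5 | h5
    · exact absurd (congrArg Subtype.val (e.injective h5)) h.2.2.1
    · exact absurd (congrArg Subtype.val (e.injective h5)).symm h.2.1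
    · rw [Set.mem_singleton_iff.1 h5]; exact hz
  · intro h
    have h1 : ({e p, e q, e r} : Set Y) ∈ M := (hM.mem _).2 ⟨_, _, _, h, rfl⟩
    have h3 : e '' ({p, q, r} : Set S) = {e p, e q, e r} := by
      rw [Set.image_insert_eq, Set.image_insert_eq, Set.image_singleton]
    rw [← h3] at h1
    obtain ⟨l, hl, hls, heq⟩ := (he _).2 h1
    have hp : (p : X) ∈ l := by
      have : p ∈ {x : S | (x : X) ∈ l} := heq ▸ (by simp)
      exact this
    have hq : (q : X) ∈ l := by
      have : q ∈ {x : S | (x : X) ∈ l} := heq ▸ (by simp)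
      exact this
    have hr : (r : X) ∈ l := by
      have : r ∈ {x : S | (x : X) ∈ l} := heq ▸ (by simp)
      exact this
    have hne : (p : X) ≠ q := fun h4 => hM.ne _ _ _ h (by rw [Subtype.ext h4])
    have hqr : (q : X) ≠ r := fun h4 => hM.ne _ _ _ (hM.rot _ _ _ h) (by rw [Subtype.ext h4])
    have hrp : (r : X) ≠ p := fun h4 => hM.ne _ _ _ (hM.rot _ _ _ (hM.rot _ _ _ h)) (by rw [Subtype.ext h4])
    obtain ⟨z, hz, heq2⟩ := hT.of_mem hl hp hq hne
    rw [heq2] at hr
    rcases hr with h5 | h5 | h5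
    · exact absurd h5 hrp
    · exact absurd h5.symm hqr
    · rw [Set.mem_singleton_iff.1 h5]; exact hz

theorem aut_of_model {LY : Y → Y → Y → Prop} {tY : Y → Y → Y} (hT : IsTriple L (LX L)) (hM : Good M LY tY) {S : Set X}
    (hS : LineSystem.IsSubspace L S) (hiso : LineSystem.Isomorphic (LineSystem.restrict L S) M)
    {x a b c : X} (hx : x ∈ S) (ha : a ∈ S) (hb : b ∈ S) (hc : c ∈ S) (h : LX L a b c) :
    LX L (LineSystem.lineMap L x a) (LineSystem.lineMap L x b) (LineSystem.lineMap L x c) := by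
  obtain ⟨e, he⟩ := hiso
  have key : ∀ x a : S, ∃ a' : S, LineSystem.lineMap L x a = a' ∧ e a' = tY (e x) (e a) := by
    intro x a
    by_cases hex : ∃ z, LX L (x : X) a z
    · obtain ⟨z, hz⟩ := hex
      have hzS : z ∈ S := hS _ hz.2.2.2 x x.2 a a.2 hz.1 (by simp) (by simp) (by simp)
      refine ⟨⟨z, hzS⟩, lineMap_eq hT hz, ?_⟩
      have := (transport hT hM.tr hS e he x a ⟨z, hzS⟩).1 hz
      exact (hM.eq _ _ _ this).symm
    · push Not at hex
      refine ⟨a, lineMap_fix hex, ?_⟩
      rw [hM.fix]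
      intro z hz
      have := (transport hT hM.tr hS e he x a (e.symm z)).2 (by rw [e.apply_symm_apply]; exact hz)
      exact hex _ this
  obtain ⟨a', ha1, ha2⟩ := key ⟨x, hx⟩ ⟨a, ha⟩
  obtain ⟨b', hb1, hb2⟩ := key ⟨x, hx⟩ ⟨b, hb⟩
  obtain ⟨c', hc1, hc2⟩ := key ⟨x, hx⟩ ⟨c, hc⟩
  have h1 := (transport hT hM.tr hS e he ⟨a, ha⟩ ⟨b, hb⟩ ⟨c, hc⟩).1 h
  have h2 := hM.aut (e ⟨x, hx⟩) _ _ _ h1
  rw [← ha2, ← hb2, ← hc2] at h2
  have h3 := (transport hT hM.tr hS e he a' b' c').2 h2
  simp only at ha1 hb1 hc1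
  rw [ha1, hb1, hc1]
  exact h3

/-- third-point map of the affine plane -/
def tA (x a : Fin 2 → ZMod 3) : Fin 2 → ZMod 3 := -(x + a)

theorem good_affine : Good affinePlaneThree LA tA where
  tr := triple_affine
  aut := by
    rintro x a b c ⟨h, rfl⟩
    refine ⟨?_, ?_⟩
    · intro h1
      apply h
      have h2 : x + a = x + b := neg_injective h1
      exact add_left_cancel h2
    · have key : ∀ x a b : ZMod 3, -(x + -(a + b)) = -(-(x + a) + -(x + b)) := by decide
      ext i
      exact key _ _ _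
  eq := by
    rintro x a z ⟨h, rfl⟩
    rfl
  fix := by
    intro x a h
    by_cases hxa : x = a
    · subst hxa
      have key : ∀ a : ZMod 3, -(a + a) = a := by decide
      ext i
      exact key _
    · exact absurd ⟨hxa, rfl⟩ (h (-(x + a)))

/-- third-point map of the dual affine plane -/
def tD (x a : DualAffinePoint) : DualAffinePoint :=
  if LD x a p01 then p01 else if LD x a p02 then p02 else if LD x a p03 then p03 else if LD x a p12 then p12 else
    if LD x a p13 then p13 else if LD x a p23 then p23 else a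

theorem tD_eq : ∀ x a z : DualAffinePoint, LD x a z → tD x a = z := by
  decide

theorem tD_fix (x a : DualAffinePoint) (h : ∀ z, ¬ LD x a z) : tD x a = a := by
  unfold tD
  simp only [h, if_false]

theorem tD_aut : ∀ x a b c : DualAffinePoint, LD a b c → LD (tD x a) (tD x b) (tD x c) := by
  decide

theorem good_dual : Good dualAffinePlaneTwo LD tD where
  tr := triple_dual
  aut := tD_aut
  eq := tD_eq
  fix := tD_fix

theorem lineMap_self (x : X) : LineSystem.lineMap L x x = x := lineMap_fix fun z h => h.1 rfl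

theorem lineMap_invol (hT : IsTriple L (LX L)) (x y : X) :
    LineSystem.lineMap L x (LineSystem.lineMap L x y) = y := by
  by_cases h : ∃ z, LX L x y z
  · obtain ⟨z, hz⟩ := h
    rw [lineMap_eq hT hz, lineMap_eq hT (hT.swap _ _ _ (hT.rot _ _ _ (hT.rot _ _ _ hz)))]
  · push Not at h
    rw [lineMap_fix h, lineMap_fix h]

theorem lineMap_aut (hL : IsFischerSpace L) {x a b c : X} (h : LX L a b c) :
    LX L (LineSystem.lineMap L x a) (LineSystem.lineMap L x b) (LineSystem.lineMap L x c) := by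
  have hT := triple hL.1 hL.2.1
  have online : ∀ {b c : X}, LX L x b c →
      LX L (LineSystem.lineMap L x x) (LineSystem.lineMap L x b) (LineSystem.lineMap L x c) := by
    intro b c h
    have h' := hT.swap _ _ _ (hT.rot _ _ _ (hT.rot _ _ _ h))
    rw [lineMap_self, lineMap_eq hT h, lineMap_eq hT h']
    exact h'
  have core : ∀ {a b c z : X}, LX L x a z → LX L a b c → x ≠ a → x ≠ b → x ≠ c →
      LX L (LineSystem.lineMap L x a) (LineSystem.lineMap L x b) (LineSystem.lineMap L x c) := by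
    intro a b c z h1 h2 n1 n2 n3
    have hlm : ({x, a, z} : Set X) ≠ {a, b, c} := by
      intro h
      have hx : x ∈ ({a, b, c} : Set X) := h ▸ (by simp)
      rcases hx with h | h | h
      · exact n1 h
      · exact n2 h
      · exact n3 h
    have hmem : ∀ u ∈ (({x, a, z} : Set X) ∪ {a, b, c}), u ∈ LineSystem.span L (({x, a, z} : Set X) ∪ {a, b, c}) :=
      fun u hu => subset_span _ hu
    rcases hL.2.2 _ h1.2.2.2 _ h2.2.2.2 hlm ⟨a, by simp, by simp⟩ with hiso | hiso
    · exact aut_of_model hT good_dual (isSubspace_span _) hiso (hmem x (by simp)) (hmem a (by simp))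
        (hmem b (by simp)) (hmem c (by simp)) h2
    · exact aut_of_model hT good_affine (isSubspace_span _) hiso (hmem x (by simp)) (hmem a (by simp))
        (hmem b (by simp)) (hmem c (by simp)) h2
  by_cases n1 : x = a
  · subst n1; exact online h
  by_cases n2 : x = b
  · subst n2; exact hT.rot _ _ _ (hT.rot _ _ _ (online (hT.rot _ _ _ h)))
  by_cases n3 : x = c
  · subst n3; exact hT.rot _ _ _ (online (hT.rot _ _ _ (hT.rot _ _ _ h)))
  by_cases c1 : ∃ z, LX L x a z
  · obtain ⟨z, hz⟩ := c1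
    exact core hz h n1 n2 n3
  by_cases c2 : ∃ z, LX L x b z
  · obtain ⟨z, hz⟩ := c2
    exact hT.rot _ _ _ (hT.rot _ _ _ (core hz (hT.rot _ _ _ h) n2 n3 n1))
  by_cases c3 : ∃ z, LX L x c z
  · obtain ⟨z, hz⟩ := c3
    exact hT.rot _ _ _ (core hz (hT.rot _ _ _ (hT.rot _ _ _ h)) n3 n1 n2)
  push Not at c1 c2 c3
  rw [lineMap_fix c1, lineMap_fix c2, lineMap_fix c3]
  exact h

/-- `t(x)` as a permutation -/
noncomputable def tE (hT : IsTriple L (LX L)) (x : X) : Equiv.Perm X :=
  ⟨LineSystem.lineMap L x, LineSystem.lineMap L x, lineMap_invol hT x, lineMap_invol hT x⟩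

theorem tE_apply (hT : IsTriple L (LX L)) (x y : X) : tE hT x y = LineSystem.lineMap L x y := rfl

theorem tE_sq (hT : IsTriple L (LX L)) (x : X) : tE hT x * tE hT x = 1 := by
  ext y
  exact lineMap_invol hT x y

theorem tE_isIso (hL : IsFischerSpace L) (hT : IsTriple L (LX L)) (x : X) : LineSystem.IsIso L L (tE hT x) := by
  have h1 : ∀ l ∈ L, tE hT x '' l ∈ L := by
    intro l hl
    obtain ⟨a, b, c, habc, rfl⟩ := (hT.mem l).1 hl
    rw [Set.image_insert_eq, Set.image_insert_eq, Set.image_singleton]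
    exact (lineMap_aut hL habc (x := x)).2.2.2
  intro l
  refine ⟨h1 l, fun h => ?_⟩
  have h2 := h1 _ h
  rw [← Set.image_comp] at h2
  have h3 : (tE hT x : X → X) ∘ (tE hT x) = id := by
    ext y; exact lineMap_invol hT x y
  rw [h3, Set.image_id] at h2
  exact h2

theorem equivariant (hL : IsFischerSpace L) (hT : IsTriple L (LX L)) (x y w : X) :
    LineSystem.lineMap L (LineSystem.lineMap L x y) (LineSystem.lineMap L x w)
      = LineSystem.lineMap L x (LineSystem.lineMap L y w) := by
  by_cases h : ∃ z, LX L y w z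
  · obtain ⟨z, hz⟩ := h
    rw [lineMap_eq hT hz, lineMap_eq hT (lineMap_aut hL hz)]
  · push Not at h
    rw [lineMap_fix h, lineMap_fix]
    intro z hz
    have := lineMap_aut hL hz (x := x)
    rw [lineMap_invol hT, lineMap_invol hT] at this
    exact h _ this

theorem tE_conj (hL : IsFischerSpace L) (hT : IsTriple L (LX L)) (x y : X) :
    tE hT x * tE hT y * tE hT x = tE hT (LineSystem.lineMap L x y) := by
  ext w
  have := equivariant hL hT x y (LineSystem.lineMap L x w)
  rw [lineMap_invol hT] at this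
  exact this.symm

/-- statement S5366 -/
theorem main (hL : IsFischerSpace L) (hnd : LineSystem.IsNondegenerate L) :
    (∀ x : X, ∃ σ : Equiv.Perm X, ⇑σ = LineSystem.lineMap L x ∧ orderOf σ = 2 ∧ LineSystem.IsIso L L σ) ∧
      IsThreeTranspositionSet {σ : Equiv.Perm X | ∃ x : X, ⇑σ = LineSystem.lineMap L x} := by
  have hT := triple hL.1 hL.2.1
  have hord : ∀ x, orderOf (tE hT x) = 2 := by
    intro x
    rw [orderOf_eq_prime_iff]
    refine ⟨by rw [pow_two]; exact tE_sq hT x, ?_⟩
    intro h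
    obtain ⟨l, hl, hx⟩ := hnd x
    obtain ⟨a, b, c, habc, rfl⟩ := (hT.mem l).1 hl
    have key : ∀ {y z}, LX L x y z → False := by
      intro y z hyz
      have h1 : tE hT x y = z := lineMap_eq hT hyz
      rw [h] at h1
      exact hyz.2.1 h1
    rcases hx with rfl | rfl | hx
    · exact key habc
    · exact key (hT.rot _ _ _ habc)
    · obtain rfl := Set.mem_singleton_iff.1 hx
      exact key (hT.rot _ _ _ (hT.rot _ _ _ habc))
  refine ⟨fun x => ⟨tE hT x, rfl, hord x, tE_isIso hL hT x⟩, ?_, ?_⟩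
  · rintro σ ⟨x, hx⟩
    have : σ = tE hT x := DFunLike.coe_injective (by rw [hx]; rfl)
    rw [this]; exact hord x
  · rintro σ ⟨x, hx⟩ τ ⟨y, hy⟩
    have h1 : σ = tE hT x := DFunLike.coe_injective (by rw [hx]; rfl)
    have h2 : τ = tE hT y := DFunLike.coe_injective (by rw [hy]; rfl)
    rw [h1, h2]
    by_cases h : ∃ z, LX L x y z
    · obtain ⟨z, hz⟩ := h
      right
      have e1 := tE_conj hL hT x y
      have e2 := tE_conj hL hT y x
      rw [lineMap_eq hT hz] at e1
      rw [lineMap_eq hT (hT.swap _ _ _ hz)] at e2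
      calc (tE hT x * tE hT y) ^ 3 = (tE hT x * tE hT y * tE hT x) * (tE hT y * tE hT x * tE hT y) := by
            rw [pow_succ, pow_two]; simp only [mul_assoc]
        _ = 1 := by rw [e1, e2]; exact tE_sq hT z
    · push Not at h
      left
      have e1 := tE_conj hL hT x y
      rw [lineMap_fix h] at e1
      calc (tE hT x * tE hT y) ^ 2 = (tE hT x * tE hT y * tE hT x) * tE hT y := by
            rw [pow_two]; simp only [mul_assoc]
        _ = 1 := by rw [e1]; exact tE_sq hT y

end Cfsg.Agent.Lib.FischerAut
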