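import Cfsg.Agent.Lib.ThreeTranspV
import Cfsg.Prelude.Def_FischerSpaces

/-!
# The line system of a set of 3-transpositions is a Fischer space (helper89), S5367
-/

set_option autoImplicit false
set_option linter.all false

namespace Cfsg.Agent.Lib.FischerSp

open Cfsg Cfsg.Agent.Lib.ThreeTransp

section Abstract

variable {X Y : Type*} {L : Set (Set X)} {M : Set (Set Y)} {LX : X → X → X → Prop} {LY : Y → Y → Y → Prop}

/-- `L` is the set of triples `{x,y,z}` with `LX x y z`, `LX` symmetric and "functional". -/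
structure IsTriple (L : Set (Set X)) (LX : X → X → X → Prop) : Prop where
  mem : ∀ l : Set X, l ∈ L ↔ ∃ x y z, LX x y z ∧ l = {x, y, z}
  swap : ∀ x y z, LX x y z → LX y x z
  rot : ∀ x y z, LX x y z → LX y z x
  ne : ∀ x y z, LX x y z → x ≠ y
  fn : ∀ x y z z', LX x y z → LX x y z' → z = z'

theorem IsTriple.of_mem (h : IsTriple L LX) {l : Set X} (hl : l ∈ L) {x y : X} (hx : x ∈ l) (hy : y ∈ l)
    (hne : x ≠ y) : ∃ z, LX x y z ∧ l = {x, y, z} := by
  obtain ⟨a, b, c, habc, rfl⟩ := (h.mem l).1 hl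
  have hbca := h.rot _ _ _ habc
  have hcab := h.rot _ _ _ hbca
  rcases hx with rfl | rfl | rfl <;> rcases hy with rfl | rfl | rfl
  · exact absurd rfl hne
  · exact ⟨c, habc, rfl⟩
  · refine ⟨b, h.swap _ _ _ hcab, ?_⟩
    ext u; simp; tauto
  · refine ⟨c, h.swap _ _ _ habc, ?_⟩
    ext u; simp; tauto
  · exact absurd rfl hne
  · refine ⟨a, hbca, ?_⟩
    ext u; simp; tauto
  · refine ⟨b, hcab, ?_⟩
    ext u; simp; tauto
  · refine ⟨a, h.swap _ _ _ hbca, ?_⟩
    ext u; simp; tauto
  · exact absurd rfl hne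

theorem IsTriple.partialLinear (h : IsTriple L LX) : LineSystem.IsPartialLinear L := by
  intro l hl m hm x y hne hxl hyl hxm hym
  obtain ⟨z, hz, rfl⟩ := h.of_mem hl hxl hyl hne
  obtain ⟨z', hz', rfl⟩ := h.of_mem hm hxm hym hne
  rw [h.fn _ _ _ _ hz hz']

theorem IsTriple.ncard (h : IsTriple L LX) {l : Set X} (hl : l ∈ L) : l.ncard = 3 := by
  obtain ⟨x, y, z, hxyz, rfl⟩ := (h.mem l).1 hl
  rw [Set.ncard_eq_three]
  have h1 := h.rot _ _ _ hxyz
  have h2 := h.rot _ _ _ h1
  exact ⟨x, y, z, h.ne _ _ _ hxyz, (h.ne _ _ _ h2).symm, h.ne _ _ _ h1, rfl⟩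

/-- the isomorphism criterion. -/
theorem isomorphic_of_model (h : IsTriple L LX) (hM : IsTriple M LY) {f : Y → X} (hf : Function.Injective f)
    (h1 : ∀ p q r, LY p q r → LX (f p) (f q) (f r))
    (h2 : ∀ p q z, LX (f p) (f q) z → ∃ r, z = f r ∧ LY p q r)
    {S : Set X} (hS : S ⊆ Set.range f)
    (hgen : ∀ T : Set X, S ⊆ T → LineSystem.IsSubspace L T → Set.range f ⊆ T) :
    LineSystem.Isomorphic (LineSystem.restrict L (LineSystem.span L S)) M := by
  have hsub : LineSystem.IsSubspace L (Set.range f) := by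
    rintro l hl x ⟨p, rfl⟩ y ⟨q, rfl⟩ hne hx hy
    obtain ⟨z, hz, rfl⟩ := h.of_mem hl hx hy hne
    obtain ⟨r, rfl, -⟩ := h2 _ _ _ hz
    rintro u (rfl | rfl | rfl)
    · exact ⟨_, rfl⟩
    · exact ⟨_, rfl⟩
    · exact ⟨_, rfl⟩
  have hspan : LineSystem.span L S = Set.range f := by
    apply Set.Subset.antisymm
    · intro x hx
      exact hx (Set.range f) ⟨hS, hsub⟩
    · intro x hx T hT
      exact hgen T hT.1 hT.2 hx
  let e : Y ≃ ↥(LineSystem.span L S) := (Equiv.ofInjective f hf).trans (Equiv.setCongr hspan.symm)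
  have he : ∀ y, ((e y : ↥(LineSystem.span L S)) : X) = f y := fun y => rfl
  refine ⟨e.symm, fun s => ?_⟩
  constructor
  · rintro ⟨l, hl, hls, rfl⟩
    obtain ⟨x, y, z, hxyz, rfl⟩ := (h.mem l).1 hl
    rw [hspan] at hls
    obtain ⟨p, rfl⟩ := hls (show x ∈ ({x, y, z} : Set X) by simp)
    obtain ⟨q, rfl⟩ := hls (show y ∈ ({f p, y, z} : Set X) by simp)
    obtain ⟨r, rfl, hr⟩ := h2 _ _ _ hxyz
    rw [hM.mem]
    refine ⟨p, q, r, hr, ?_⟩
    ext u
    constructor
    · rintro ⟨v, hv, rfl⟩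
      have hv' : (v : X) ∈ ({f p, f q, f r} : Set X) := hv
      have hv2 : f (e.symm v) = v := by rw [← he, e.apply_symm_apply]
      rw [← hv2] at hv'
      rcases hv' with h3 | h3 | h3
      · left; exact hf h3
      · right; left; exact hf h3
      · right; right; exact hf h3
    · intro hu
      refine ⟨e u, ?_, e.symm_apply_apply u⟩
      show f u ∈ ({f p, f q, f r} : Set X)
      rcases hu with rfl | rfl | rfl
      · simp
      · simp
      · simp
  · intro hs
    obtain ⟨p, q, r, hpqr, heq⟩ := (hM.mem _).1 hs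
    refine ⟨{f p, f q, f r}, (h.mem _).2 ⟨_, _, _, h1 _ _ _ hpqr, rfl⟩, ?_, ?_⟩
    · rw [hspan]
      rintro u (rfl | rfl | rfl)
      · exact ⟨_, rfl⟩
      · exact ⟨_, rfl⟩
      · exact ⟨_, rfl⟩
    · ext v
      have h3 : v ∈ s ↔ e.symm v ∈ e.symm '' s := by
        constructor
        · intro hv; exact ⟨v, hv, rfl⟩
        · rintro ⟨w, hw, hwv⟩
          rw [← e.symm.injective hwv]; exact hw
      rw [h3, heq]
      have hv2 : f (e.symm v) = v := by rw [← he, e.apply_symm_apply]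
      show e.symm v ∈ ({p, q, r} : Set Y) ↔ (v : X) ∈ ({f p, f q, f r} : Set X)
      rw [← hv2]
      constructor
      · rintro (h4 | h4 | h4)
        · rw [h4]; simp
        · rw [h4]; simp
        · rw [Set.mem_singleton_iff.1 h4]; simp
      · rintro (h4 | h4 | h4)
        · left; exact hf h4
        · right; left; exact hf h4
        · right; right; exact hf h4

end Abstract

/-! ### models -/

/-- lines of the affine plane -/
def LA (p q r : Fin 2 → ZMod 3) : Prop := p ≠ q ∧ r = -(p + q)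

theorem triple_affine : IsTriple affinePlaneThree LA where
  mem := by
    intro l
    have h3 : ∀ x y : ZMod 3, x + 2 * (y - x) = -(x + y) := by decide
    have hc : ∀ c : ZMod 3, c = 0 ∨ c = 1 ∨ c = 2 := by decide
    have h0 : ∀ x y : ZMod 3, -(x + (x + y)) = x + 2 * y := by decide
    constructor
    · rintro ⟨v, w, hw, rfl⟩
      refine ⟨v, v + w, -(v + (v + w)), ⟨fun h => hw (by simpa using h), rfl⟩, ?_⟩
      ext x
      constructor
      · rintro ⟨c, rfl⟩
        rcases hc c with rfl | rfl | rfl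
        · left; simp
        · right; left; simp
        · right; right
          ext i
          simp only [Pi.add_apply, Pi.smul_apply, smul_eq_mul, Pi.neg_apply]
          rw [h0]
      · rintro (rfl | rfl | rfl)
        · exact ⟨0, by simp⟩
        · exact ⟨1, by simp⟩
        · refine ⟨2, ?_⟩
          ext i
          simp only [Pi.add_apply, Pi.smul_apply, smul_eq_mul, Pi.neg_apply]
          rw [h0]
    · rintro ⟨p, q, r, ⟨hpq, rfl⟩, rfl⟩
      refine ⟨p, q - p, fun h => hpq (sub_eq_zero.1 h).symm, ?_⟩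
      ext x
      constructor
      · rintro (rfl | rfl | rfl)
        · exact ⟨0, by simp⟩
        · exact ⟨1, by simp⟩
        · refine ⟨2, ?_⟩
          ext i
          simp only [Pi.add_apply, Pi.smul_apply, smul_eq_mul, Pi.neg_apply, Pi.sub_apply]
          rw [h3]
      · rintro ⟨c, rfl⟩
        rcases hc c with rfl | rfl | rfl
        · left; simp
        · right; left; simp
        · right; right
          ext i
          simp only [Pi.add_apply, Pi.smul_apply, smul_eq_mul, Pi.neg_apply, Pi.sub_apply]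
          rw [h3]
  swap := by
    rintro x y z ⟨h1, rfl⟩
    exact ⟨h1.symm, by rw [add_comm]⟩
  rot := by
    rintro x y z ⟨h1, rfl⟩
    have key : ∀ a b : ZMod 3, -(b + -(a + b)) = a := by decide
    have key2 : ∀ a b : ZMod 3, b = -(a + b) → a = b := by decide
    refine ⟨?_, ?_⟩
    · intro h
      apply h1
      ext i
      exact key2 _ _ (congrFun h i)
    · ext i
      exact (key (x i) (y i)).symm
  ne := fun x y z h => h.1
  fn := by
    rintro x y z z' ⟨_, rfl⟩ ⟨_, rfl⟩; rfl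

/-- lines of the dual affine plane -/
def LD (p q r : DualAffinePoint) : Prop :=
  p ≠ q ∧ q ≠ r ∧ r ≠ p ∧ ∃ i : Fin 4, i ∉ p.val ∧ i ∉ q.val ∧ i ∉ r.val

instance : ∀ p q r, Decidable (LD p q r) := fun p q r => by unfold LD; infer_instance

theorem triple_dual : IsTriple dualAffinePlaneTwo LD where
  mem := by
    intro l
    have h1 : ∀ i : Fin 4, ∃ p q r : DualAffinePoint, LD p q r ∧ ∀ s : DualAffinePoint, i ∉ s.val ↔ s = p ∨ s = q ∨ s = r := by
      decide
    have h2 : ∀ p q r : DualAffinePoint, LD p q r → ∃ i : Fin 4, ∀ s : DualAffinePoint, i ∉ s.val ↔ s = p ∨ s = q ∨ s = r := by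
      decide
    constructor
    · rintro ⟨i, rfl⟩
      obtain ⟨p, q, r, h, h3⟩ := h1 i
      refine ⟨p, q, r, h, ?_⟩
      ext s
      exact h3 s
    · rintro ⟨p, q, r, h, rfl⟩
      obtain ⟨i, h3⟩ := h2 p q r h
      refine ⟨i, ?_⟩
      ext s
      exact (h3 s).symm
  swap := by
    rintro x y z ⟨h1, h2, h3, i, h4, h5, h6⟩
    exact ⟨h1.symm, h3.symm, h2.symm, i, h5, h4, h6⟩
  rot := by
    rintro x y z ⟨h1, h2, h3, i, h4, h5, h6⟩
    exact ⟨h2, h3, h1, i, h5, h6, h4⟩
  ne := fun x y z h => h.1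
  fn := by
    have : ∀ x y z z' : DualAffinePoint, LD x y z → LD x y z' → z = z' := by
      decide
    exact this

/-! ### the transpositions -/

section Group

variable {G : Type*} [Group G] {D : Set G}

/-- collinear triples of transpositions -/
def LT (D : Set G) (x y z : D) : Prop := ¬ Commute (x : G) (y : G) ∧ (z : G) = (y : G) * (x : G) * (y : G)⁻¹

theorem LT_swap (hD : IsThreeTranspositionSet D) {x y z : D} (h : LT D x y z) : LT D y x z := by
  refine ⟨fun h' => h.1 h'.symm, ?_⟩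
  rw [h.2, inv_eq hD x.2, inv_eq hD y.2]
  exact (braid hD x.2 y.2 h.1).symm

theorem LT_conj (hD : IsThreeTranspositionSet D) {x y z : D} (h : LT D x y z) : (z : G) = (x : G) * (y : G) * (x : G)⁻¹ :=
  (LT_swap hD h).2

theorem mkLT (hD : IsThreeTranspositionSet D) {x y z : D} (h : ¬ Commute (x : G) (y : G))
    (h' : (z : G) = (x : G) * (y : G) * (x : G)⁻¹) : LT D x y z := LT_swap hD ⟨fun h1 => h h1.symm, h'⟩

theorem LT_rot (hD : IsThreeTranspositionSet D) {x y z : D} (h : LT D x y z) : LT D y z x := by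
  refine ⟨?_, ?_⟩
  · rw [h.2]
    intro h1
    apply h.1
    have e : (y : G) = (y : G) * (y : G) * (y : G)⁻¹ := by group
    rw [e] at h1
    have h2 : Commute ((y : G) * (y : G) * (y : G)⁻¹) ((y : G) * (x : G) * (y : G)⁻¹) := by
      convert h1 using 2 <;> group
    exact ((commute_conj_iff (y : G)).1 h2).symm
  · have hyy := mul_self hD y.2
    have hxx := mul_self hD x.2
    have hyi := inv_eq hD y.2
    have hzi := inv_eq hD z.2
    have hb := braid hD x.2 y.2 h.1
    rw [hzi, h.2, hyi]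
    calc (x : G) = (y * y) * x * (y * y) := by rw [hyy]; group
      _ = y * (y * x * y) * y := by group
      _ = y * (x * y * x) * y := by rw [hb]
      _ = y * x * y * (x * y) := by group
      _ = y * x * y * (1 : G) * x * y := by group
      _ = y * x * y * (y * y) * x * y := by rw [hyy]
      _ = y * x * y * y * (y * x * y) := by group

theorem triple_trans (hD : IsThreeTranspositionSet D) (hconj : ∀ g : G, ∀ d ∈ D, g * d * g⁻¹ ∈ D) :
    IsTriple (threeTranspositionLines D) (LT D) where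
  mem := by
    intro l
    constructor
    · rintro ⟨x, y, h, rfl⟩
      refine ⟨x, y, ⟨y * x * (y : G)⁻¹, hconj y x x.2⟩, ⟨h, rfl⟩, ?_⟩
      ext z
      simp only [Set.mem_setOf_eq, Set.mem_insert_iff, Set.mem_singleton_iff, Subtype.ext_iff]
    · rintro ⟨x, y, z, ⟨h, hz⟩, rfl⟩
      refine ⟨x, y, h, ?_⟩
      ext w
      simp only [Set.mem_setOf_eq, Set.mem_insert_iff, Set.mem_singleton_iff, Subtype.ext_iff, hz]
  swap := fun x y z h => LT_swap hD h
  rot := fun x y z h => LT_rot hD h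
  ne := by
    rintro x y z h rfl
    exact h.1 (Commute.refl _)
  fn := fun x y z z' h h' => Subtype.ext (h.2.trans h'.2.symm)

/-- conjugation transports noncommutation -/
theorem nonc (hD : IsThreeTranspositionSet D) {e p p' q q' : D} (hp : (p' : G) = e * p * (e : G)⁻¹)
    (hq : (q' : G) = e * q * (e : G)⁻¹) (h : ¬ Commute (p' : G) (q' : G)) : ¬ Commute (p : G) (q : G) := by
  intro h1
  apply h
  rw [hp, hq]
  exact (commute_conj_iff (e : G)).2 h1

/-- conjugation transports thirds -/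
theorem third_conj {e p p' q q' r r' : D} (hp : (p' : G) = e * p * (e : G)⁻¹)
    (hq : (q' : G) = e * q * (e : G)⁻¹) (h : LT D p q r) (h' : LT D p' q' r') :
    (r' : G) = e * r * (e : G)⁻¹ := by
  rw [h'.2, h.2, hp, hq]; group

def p01 : DualAffinePoint := ⟨{0, 1}, by decide⟩
def p02 : DualAffinePoint := ⟨{0, 2}, by decide⟩
def p03 : DualAffinePoint := ⟨{0, 3}, by decide⟩
def p12 : DualAffinePoint := ⟨{1, 2}, by decide⟩
def p13 : DualAffinePoint := ⟨{1, 3}, by decide⟩
def p23 : DualAffinePoint := ⟨{2, 3}, by decide⟩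

/-- base triples of the dual affine plane -/
def baseD : List (DualAffinePoint × DualAffinePoint × DualAffinePoint) :=
  [(p12, p01, p02), (p12, p23, p13), (p01, p13, p03), (p02, p23, p03)]

def memD (p q r : DualAffinePoint) : Bool := decide ((p, q, r) ∈ baseD)

theorem baseD_spec' : ∀ p q r, LD p q r → memD p q r = true ∨ memD q r p = true ∨ memD r p q = true ∨
    memD q p r = true ∨ memD p r q = true ∨ memD r q p = true := by
  decide

theorem baseD_spec : ∀ p q r, LD p q r → (p, q, r) ∈ baseD ∨ (q, r, p) ∈ baseD ∨ (r, p, q) ∈ baseD ∨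
    (q, p, r) ∈ baseD ∨ (p, r, q) ∈ baseD ∨ (r, q, p) ∈ baseD := by
  intro p q r h
  have := baseD_spec' p q r h
  simp only [memD, decide_eq_true_eq] at this
  exact this

theorem pairD_spec : ∀ p q : DualAffinePoint, p ≠ q → (∃ r, LD p q r) ∨ (p = p01 ∧ q = p23) ∨ (p = p23 ∧ q = p01) ∨
    (p = p02 ∧ q = p13) ∨ (p = p13 ∧ q = p02) ∨ (p = p03 ∧ q = p12) ∨ (p = p12 ∧ q = p03) := by
  decide

theorem allD_spec : ∀ p : DualAffinePoint, p = p01 ∨ p = p02 ∨ p = p03 ∨ p = p12 ∨ p = p13 ∨ p = p23 := by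
  decide

theorem caseA (hD : IsThreeTranspositionSet D) (hconj : ∀ g : G, ∀ d ∈ D, g * d * g⁻¹ ∈ D)
    {x u u' v v' : D} (h1 : LT D x u u') (h2 : LT D x v v') (huv : Commute (u : G) (v : G)) (hne : u ≠ v) :
    LineSystem.Isomorphic (LineSystem.restrict (threeTranspositionLines D)
      (LineSystem.span (threeTranspositionLines D) ({x, u, u'} ∪ {x, v, v'}))) dualAffinePlaneTwo := by
  classical
  have hT := triple_trans hD hconj
  -- conj by x
  have hxu := LT_conj hD h1
  have hxv := LT_conj hD h2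
  have huv' : Commute (u' : G) (v' : G) := by
    rw [hxu, hxv]; exact (commute_conj_iff (x : G)).2 huv
  have hne' : u' ≠ v' := by
    intro h
    apply hne
    have h3 : (x : G) * u * (x : G)⁻¹ = x * v * (x : G)⁻¹ := by rw [← hxu, ← hxv, h]
    exact Subtype.ext (mul_left_cancel (mul_right_cancel h3))
  -- w = third of u, v'
  have hxv' : (v : G) = x * v' * (x : G)⁻¹ := LT_conj hD (LT_swap hD (LT_rot hD (LT_rot hD h2)))
  have hnuv' : ¬ Commute (u : G) (v' : G) := by
    -- conj by v: u ↦ u, v' ↦ x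
    have hc1 : (u : G) = v * u * (v : G)⁻¹ := by rw [← huv.eq]; group
    have hc2 : (x : G) = v * v' * (v : G)⁻¹ := LT_conj hD (LT_rot hD h2)
    exact nonc hD (e := v) hc1 hc2 (fun h => h1.1 h.symm)
  let w : D := ⟨(v' : G) * u * (v' : G)⁻¹, hconj v' u u.2⟩
  have h3 : LT D u v' w := ⟨hnuv', rfl⟩
  have h4 : LT D u' v w := by
    -- conj of (u, v', w) by x is (u', v, x w x⁻¹) ; and x commutes with w
    have hwx : Commute (w : G) (x : G) := by
      -- w = u v' u = u x v x u
      have hw : (w : G) = u * x * v * x * u := by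
        have e1 : (w : G) = u * v' * (u : G)⁻¹ := LT_conj hD h3
        rw [e1, hxv, inv_eq hD u.2, inv_eq hD x.2]; group
      have hb := braid hD u.2 x.2 (fun h => h1.1 h.symm)
      have := string_comm huv.eq hb
      rw [hw]
      exact this.symm
    have hc : (w : G) = x * w * (x : G)⁻¹ := by rw [← hwx.eq]; group
    refine ⟨?_, ?_⟩
    · have hc1 : (u : G) = x * u' * (x : G)⁻¹ := LT_conj hD (LT_swap hD (LT_rot hD (LT_rot hD h1)))
      exact nonc hD (e := x) hc1 hxv hnuv'
    · rw [hc, h3.2, hxv', hxu]; group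
  have hwx : Commute (w : G) (x : G) := by
    have hw : (w : G) = u * x * v * x * u := by
      have e1 : (w : G) = u * v' * (u : G)⁻¹ := LT_conj hD h3
      rw [e1, hxv, inv_eq hD u.2, inv_eq hD x.2]; group
    have hb := braid hD u.2 x.2 (fun h => h1.1 h.symm)
    have := string_comm huv.eq hb
    rw [hw]
    exact this.symm
  have hwx' : w ≠ x := by
    intro h
    -- then third(u,v') = x = third(u,u') so v' = u'
    rw [h] at h3
    have h5 : LT D u x v' := LT_swap hD (LT_rot hD (LT_rot hD h3))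
    exact hne' (hT.fn _ _ _ _ (LT_swap hD h1) h5)
  let f : DualAffinePoint → D := fun s =>
    if s = p01 then u else if s = p02 then u' else if s = p03 then w else if s = p12 then x else
      if s = p13 then v' else v
  have f01 : f p01 = u := rfl
  have f02 : f p02 = u' := by simp only [f, if_neg (show p02 ≠ p01 by decide), if_true]
  have f03 : f p03 = w := by
    simp only [f, if_neg (show p03 ≠ p01 by decide), if_neg (show p03 ≠ p02 by decide), if_true]
  have f12 : f p12 = x := by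
    simp only [f, if_neg (show p12 ≠ p01 by decide), if_neg (show p12 ≠ p02 by decide),
      if_neg (show p12 ≠ p03 by decide), if_true]
  have f13 : f p13 = v' := by
    simp only [f, if_neg (show p13 ≠ p01 by decide), if_neg (show p13 ≠ p02 by decide),
      if_neg (show p13 ≠ p03 by decide), if_neg (show p13 ≠ p12 by decide), if_true]
  have f23 : f p23 = v := by
    simp only [f, if_neg (show p23 ≠ p01 by decide), if_neg (show p23 ≠ p02 by decide),
      if_neg (show p23 ≠ p03 by decide), if_neg (show p23 ≠ p12 by decide), if_neg (show p23 ≠ p13 by decide)]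
  have hbase : ∀ t ∈ baseD, LT D (f t.1) (f t.2.1) (f t.2.2) := by
    intro t ht
    simp only [baseD, List.mem_cons, List.not_mem_nil, or_false] at ht
    rcases ht with rfl | rfl | rfl | rfl
    · rw [f12, f01, f02]; exact h1
    · rw [f12, f23, f13]; exact h2
    · rw [f01, f13, f03]; exact h3
    · rw [f02, f23, f03]; exact h4
  have hlines : ∀ p q r, LD p q r → LT D (f p) (f q) (f r) := by
    intro p q r h
    rcases baseD_spec p q r h with h | h | h | h | h | h
    · exact hbase _ h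
    · exact LT_rot hD (LT_rot hD (hbase _ h))
    · exact LT_rot hD (hbase _ h)
    · exact LT_swap hD (hbase _ h)
    · exact LT_rot hD (LT_swap hD (hbase _ h))
    · exact LT_swap hD (LT_rot hD (hbase _ h))
  have hpair : ∀ p q : DualAffinePoint, p ≠ q → (∃ r, LD p q r) ∨ (Commute (f p : G) (f q : G) ∧ f p ≠ f q) := by
    intro p q hpq
    rcases pairD_spec p q hpq with h | ⟨rfl, rfl⟩ | ⟨rfl, rfl⟩ | ⟨rfl, rfl⟩ | ⟨rfl, rfl⟩ | ⟨rfl, rfl⟩ | ⟨rfl, rfl⟩
    · exact Or.inl h
    · right; rw [f01, f23]; exact ⟨huv, hne⟩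
    · right; rw [f01, f23]; exact ⟨huv.symm, hne.symm⟩
    · right; rw [f02, f13]; exact ⟨huv', hne'⟩
    · right; rw [f02, f13]; exact ⟨huv'.symm, hne'.symm⟩
    · right; rw [f03, f12]; exact ⟨hwx, hwx'⟩
    · right; rw [f03, f12]; exact ⟨hwx.symm, hwx'.symm⟩
  apply isomorphic_of_model hT triple_dual (f := f)
  · intro p q h
    by_contra hpq
    rcases hpair p q hpq with ⟨r, hr⟩ | ⟨-, h'⟩
    · exact hT.ne _ _ _ (hlines _ _ _ hr) h
    · exact h' h
  · exact hlines
  · intro p q z hz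
    by_cases hpq : p = q
    · subst hpq
      exact absurd (Commute.refl _) hz.1
    rcases hpair p q hpq with ⟨r, hr⟩ | ⟨h', -⟩
    · exact ⟨r, hT.fn _ _ _ _ hz (hlines _ _ _ hr), hr⟩
    · exact absurd h' hz.1
  · rintro y (hy | hy)
    · rcases hy with rfl | rfl | rfl
      · exact ⟨p12, f12⟩
      · exact ⟨p01, f01⟩
      · exact ⟨p02, f02⟩
    · rcases hy with rfl | rfl | rfl
      · exact ⟨p12, f12⟩
      · exact ⟨p23, f23⟩
      · exact ⟨p13, f13⟩
  · intro T hS hsub
    have mx : x ∈ T := hS (by simp)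
    have mu : u ∈ T := hS (by simp)
    have mu' : u' ∈ T := hS (by simp)
    have mv : v ∈ T := hS (by simp)
    have mv' : v' ∈ T := hS (by simp)
    have mw : w ∈ T := by
      have hl : ({u, v', w} : Set D) ∈ threeTranspositionLines D := (hT.mem _).2 ⟨_, _, _, h3, rfl⟩
      exact hsub _ hl u mu v' mv' (hT.ne _ _ _ h3) (by simp) (by simp) (by simp)
    rintro _ ⟨p, rfl⟩
    rcases allD_spec p with rfl | rfl | rfl | rfl | rfl | rfl
    · rw [f01]; exact mu
    · rw [f02]; exact mu'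
    · rw [f03]; exact mw
    · rw [f12]; exact mx
    · rw [f13]; exact mv'
    · rw [f23]; exact mv

/-- base triples of the affine plane -/
def baseA : List ((ZMod 3 × ZMod 3) × (ZMod 3 × ZMod 3) × (ZMod 3 × ZMod 3)) :=
  [((0,0),(1,0),(2,0)), ((0,0),(0,1),(0,2)), ((1,0),(0,1),(2,2)), ((1,0),(0,2),(2,1)), ((2,0),(0,1),(1,2)),
   ((2,0),(0,2),(1,1)), ((0,0),(2,2),(1,1)), ((0,0),(2,1),(1,2)), ((1,0),(1,2),(1,1)), ((2,0),(2,2),(2,1)),
   ((0,1),(2,1),(1,1)), ((0,2),(2,2),(1,2))]

def memA (p q r : ZMod 3 × ZMod 3) : Bool := decide ((p, q, r) ∈ baseA)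

theorem baseA_spec' : ∀ p q : ZMod 3 × ZMod 3, p ≠ q →
    memA p q (-(p + q)) = true ∨ memA q (-(p + q)) p = true ∨ memA (-(p + q)) p q = true ∨
    memA q p (-(p + q)) = true ∨ memA p (-(p + q)) q = true ∨ memA (-(p + q)) q p = true := by
  decide

theorem baseA_spec : ∀ p q : ZMod 3 × ZMod 3, p ≠ q →
    (p, q, (-(p + q) : ZMod 3 × ZMod 3)) ∈ baseA ∨ (q, (-(p + q) : ZMod 3 × ZMod 3), p) ∈ baseA ∨
    ((-(p + q) : ZMod 3 × ZMod 3), p, q) ∈ baseA ∨
    (q, p, (-(p + q) : ZMod 3 × ZMod 3)) ∈ baseA ∨ (p, (-(p + q) : ZMod 3 × ZMod 3), q) ∈ baseA ∨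
    ((-(p + q) : ZMod 3 × ZMod 3), q, p) ∈ baseA := by
  intro p q h
  have := baseA_spec' p q h
  simp only [memA, decide_eq_true_eq] at this
  exact this

theorem caseB (hD : IsThreeTranspositionSet D) (hconj : ∀ g : G, ∀ d ∈ D, g * d * g⁻¹ ∈ D)
    {x u u' v v' : D} (h1 : LT D x u u') (h2 : LT D x v v') (n1 : ¬ Commute (u : G) (v : G))
    (n2 : ¬ Commute (u : G) (v' : G)) (n3 : ¬ Commute (u' : G) (v : G)) (n4 : ¬ Commute (u' : G) (v' : G)) :
    LineSystem.Isomorphic (LineSystem.restrict (threeTranspositionLines D)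
      (LineSystem.span (threeTranspositionLines D) ({x, u, u'} ∪ {x, v, v'}))) affinePlaneThree := by
  classical
  have hT := triple_trans hD hconj
  -- symmetric variants
  have sw : ∀ {p q r : D}, LT D p q r → LT D q p r := fun h => LT_swap hD h
  have ro : ∀ {p q r : D}, LT D p q r → LT D q r p := fun h => LT_rot hD h
  have cj : ∀ {p q r : D}, LT D p q r → (r : G) = p * q * (p : G)⁻¹ := fun h => LT_conj hD h
  obtain ⟨a, h3⟩ : ∃ a, LT D u v a := ⟨⟨_, hconj v u u.2⟩, n1, rfl⟩
  obtain ⟨b, h4⟩ : ∃ b, LT D u v' b := ⟨⟨_, hconj v' u u.2⟩, n2, rfl⟩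
  obtain ⟨c, h5⟩ : ∃ c, LT D u' v c := ⟨⟨_, hconj v u' u'.2⟩, n3, rfl⟩
  obtain ⟨d, h6⟩ : ∃ d, LT D u' v' d := ⟨⟨_, hconj v' u' u'.2⟩, n4, rfl⟩
  -- images under conjugation
  have xu : (u' : G) = x * u * (x : G)⁻¹ := cj h1
  have xu' : (u : G) = x * u' * (x : G)⁻¹ := cj (sw (ro (ro h1)))
  have xv : (v' : G) = x * v * (x : G)⁻¹ := cj h2
  have xv' : (v : G) = x * v' * (x : G)⁻¹ := cj (sw (ro (ro h2)))
  have ux : (u' : G) = u * x * (u : G)⁻¹ := cj (sw h1)
  have uu' : (x : G) = u * u' * (u : G)⁻¹ := cj (ro h1)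
  have u'x : (u : G) = u' * x * (u' : G)⁻¹ := cj (ro (ro h1))
  have u'u : (x : G) = u' * u * (u' : G)⁻¹ := cj (sw (ro h1))
  have vx : (v' : G) = v * x * (v : G)⁻¹ := cj (sw h2)
  have vv' : (x : G) = v * v' * (v : G)⁻¹ := cj (ro h2)
  have v'x : (v : G) = v' * x * (v' : G)⁻¹ := cj (ro (ro h2))
  have v'v : (x : G) = v' * v * (v' : G)⁻¹ := cj (sw (ro h2))
  have uv : (a : G) = u * v * (u : G)⁻¹ := cj h3
  have vu : (a : G) = v * u * (v : G)⁻¹ := cj (sw h3)
  have ua : (v : G) = u * a * (u : G)⁻¹ := cj (sw (ro (ro h3)))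
  have va : (u : G) = v * a * (v : G)⁻¹ := cj (ro h3)
  have ub : (v' : G) = u * b * (u : G)⁻¹ := cj (sw (ro (ro h4)))
  have v'u : (b : G) = v' * u * (v' : G)⁻¹ := cj (sw h4)
  have v'b : (u : G) = v' * b * (v' : G)⁻¹ := cj (ro h4)
  have u'v : (c : G) = u' * v * (u' : G)⁻¹ := cj h5
  have u'c : (v : G) = u' * c * (u' : G)⁻¹ := cj (sw (ro (ro h5)))
  have nxu := h1.1
  have nxv := h2.1
  have h7 : LT D x a d := mkLT hD (nonc hD (e := u) ux ua n3) (third_conj xu xv h3 h6)
  have h8 : LT D x b c := mkLT hD (nonc hD (e := u) ux ub n4) (third_conj xu xv' h4 h5)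
  have h9 : LT D u c d := mkLT hD (nonc hD (e := u') u'u u'c nxv) (third_conj uu' uv h5 h7)
  have h10 : LT D u' a b := mkLT hD (nonc hD (e := u) uu' ua nxv) (third_conj u'u u'v h3 (sw (ro (ro h8))))
  have h11 : LT D v b d := mkLT hD (nonc hD (e := v') v'v v'b nxu) (third_conj vu vv' h4 (sw h7))
  have h12 : LT D v' a c := mkLT hD (nonc hD (e := v) vv' va nxu) (third_conj v'u v'v h3 (sw h8))
  let g : ZMod 3 × ZMod 3 → D := fun t =>
    if t = (0, 0) then x else if t = (0, 1) then v else if t = (0, 2) then v' else if t = (1, 0) then u else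
    if t = (1, 1) then d else if t = (1, 2) then c else if t = (2, 0) then u' else if t = (2, 1) then b else a
  have g00 : g (0, 0) = x := rfl
  have g01 : g (0, 1) = v := rfl
  have g02 : g (0, 2) = v' := rfl
  have g10 : g (1, 0) = u := rfl
  have g11 : g (1, 1) = d := rfl
  have g12 : g (1, 2) = c := rfl
  have g20 : g (2, 0) = u' := rfl
  have g21 : g (2, 1) = b := rfl
  have g22 : g (2, 2) = a := rfl
  have hbase : ∀ t ∈ baseA, LT D (g t.1) (g t.2.1) (g t.2.2) := by
    intro t ht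
    simp only [baseA, List.mem_cons, List.not_mem_nil, or_false] at ht
    rcases ht with rfl | rfl | rfl | rfl | rfl | rfl | rfl | rfl | rfl | rfl | rfl | rfl
    · exact h1
    · exact h2
    · exact h3
    · exact h4
    · exact h5
    · exact h6
    · exact h7
    · exact h8
    · exact h9
    · exact h10
    · exact h11
    · exact h12
  have hg : ∀ p q : ZMod 3 × ZMod 3, p ≠ q → LT D (g p) (g q) (g (-(p + q))) := by
    intro p q hpq
    rcases baseA_spec p q hpq with h | h | h | h | h | h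
    · exact hbase _ h
    · exact ro (ro (hbase _ h))
    · exact ro (hbase _ h)
    · exact sw (hbase _ h)
    · exact ro (sw (hbase _ h))
    · exact sw (ro (hbase _ h))
  let f : (Fin 2 → ZMod 3) → D := fun p => g (p 0, p 1)
  have hlines : ∀ p q r, LA p q r → LT D (f p) (f q) (f r) := by
    rintro p q r ⟨hpq, rfl⟩
    have h := hg (p 0, p 1) (q 0, q 1) (by
      intro h
      apply hpq
      have h1 := (Prod.mk.injEq _ _ _ _).mp h
      ext i
      fin_cases i
      · exact h1.1
      · exact h1.2)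
    exact h
  apply isomorphic_of_model hT triple_affine (f := f)
  · intro p q h
    by_contra hpq
    exact hT.ne _ _ _ (hlines p q _ ⟨hpq, rfl⟩) h
  · exact hlines
  · intro p q z hz
    by_cases hpq : p = q
    · subst hpq
      exact absurd (Commute.refl _) hz.1
    exact ⟨-(p + q), hT.fn _ _ _ _ hz (hlines _ _ _ ⟨hpq, rfl⟩), hpq, rfl⟩
  · rintro y (hy | hy)
    · rcases hy with rfl | rfl | rfl
      · exact ⟨![0, 0], rfl⟩
      · exact ⟨![1, 0], rfl⟩
      · exact ⟨![2, 0], rfl⟩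
    · rcases hy with rfl | rfl | rfl
      · exact ⟨![0, 0], rfl⟩
      · exact ⟨![0, 1], rfl⟩
      · exact ⟨![0, 2], rfl⟩
  · intro T hS hsub
    have mx : x ∈ T := hS (by simp)
    have mu : u ∈ T := hS (by simp)
    have mu' : u' ∈ T := hS (by simp)
    have mv : v ∈ T := hS (by simp)
    have mv' : v' ∈ T := hS (by simp)
    have key : ∀ {p q r : D}, LT D p q r → p ∈ T → q ∈ T → r ∈ T := by
      intro p q r h hp hq
      have hl : ({p, q, r} : Set D) ∈ threeTranspositionLines D := (hT.mem _).2 ⟨_, _, _, h, rfl⟩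
      exact hsub _ hl p hp q hq (hT.ne _ _ _ h) (by simp) (by simp) (by simp)
    have ma := key h3 mu mv
    have mb := key h4 mu mv'
    have mc := key h5 mu' mv
    have md := key h6 mu' mv'
    rintro _ ⟨p, rfl⟩
    have hall : ∀ t : ZMod 3 × ZMod 3, t = (0, 0) ∨ t = (0, 1) ∨ t = (0, 2) ∨ t = (1, 0) ∨ t = (1, 1) ∨ t = (1, 2) ∨
      t = (2, 0) ∨ t = (2, 1) ∨ t = (2, 2) := by decide
    show g (p 0, p 1) ∈ T
    rcases hall (p 0, p 1) with h | h | h | h | h | h | h | h | h
    · rw [h]; exact mx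
    · rw [h]; exact mv
    · rw [h]; exact mv'
    · rw [h]; exact mu
    · rw [h]; exact md
    · rw [h]; exact mc
    · rw [h]; exact mu'
    · rw [h]; exact mb
    · rw [h]; exact ma

/-- statement S5367 -/
theorem fischerSpace (hD : IsThreeTranspositionSet D) (hconj : ∀ g : G, ∀ d ∈ D, g * d * g⁻¹ ∈ D) :
    IsFischerSpace (threeTranspositionLines D) := by
  have hT := triple_trans hD hconj
  refine ⟨hT.partialLinear, fun l hl => hT.ncard hl, ?_⟩
  rintro l hl m hm hlm ⟨x, hxl, hxm⟩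
  -- write l = {x, u, u'}
  have hform : ∀ {l : Set D}, l ∈ threeTranspositionLines D → x ∈ l → ∃ u u', LT D x u u' ∧ l = {x, u, u'} := by
    intro l hl hx
    obtain ⟨a, b, c, habc, rfl⟩ := (hT.mem l).1 hl
    rcases hx with rfl | rfl | rfl
    · exact ⟨b, c, habc, rfl⟩
    · refine ⟨a, c, hT.swap _ _ _ habc, ?_⟩
      ext u; simp; tauto
    · refine ⟨a, b, hT.rot _ _ _ (hT.rot _ _ _ habc), ?_⟩
      ext u; simp; tauto
  obtain ⟨u, u', hu, rfl⟩ := hform hl hxl
  obtain ⟨v, v', hv, rfl⟩ := hform hm hxm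
  have hswl : ∀ {a b : D}, LT D x a b → LT D x b a := fun h => hT.swap _ _ _ (hT.rot _ _ _ (hT.rot _ _ _ h))
  have hset : ∀ a b : D, ({x, a, b} : Set D) = {x, b, a} := by
    intro a b; ext y; simp; tauto
  have hne : ∀ a a' b b' : D, LT D x a a' → LT D x b b' → ({x, a, a'} : Set D) = {x, u, u'} →
      ({x, b, b'} : Set D) = {x, v, v'} → a ≠ b := by
    rintro a a' b b' h1 h2 h3 h4 rfl
    apply hlm
    rw [← h3, ← h4, hT.fn _ _ _ _ h1 h2]
  by_cases c1 : Commute (u : G) (v : G)
  · left; exact caseA hD hconj hu hv c1 (hne _ _ _ _ hu hv rfl rfl)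
  by_cases c2 : Commute (u : G) (v' : G)
  · left
    rw [hset v v']
    exact caseA hD hconj hu (hswl hv) c2 (hne _ _ _ _ hu (hswl hv) rfl (hset _ _))
  by_cases c3 : Commute (u' : G) (v : G)
  · left
    rw [hset u u']
    exact caseA hD hconj (hswl hu) hv c3 (hne _ _ _ _ (hswl hu) hv (hset _ _) rfl)
  by_cases c4 : Commute (u' : G) (v' : G)
  · left
    rw [hset u u', hset v v']
    exact caseA hD hconj (hswl hu) (hswl hv) c4 (hne _ _ _ _ (hswl hu) (hswl hv) (hset _ _) (hset _ _))
  right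
  exact caseB hD hconj hu hv c1 c2 c3 c4

end Group

end Cfsg.Agent.Lib.FischerSp
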