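import Cfsg.Agent.Lib.CoprimeAction2
import Cfsg.Agent.Lib.CoprimeHyper
import Cfsg.Agent.Lib.H23Nilp

/-!
# The nilpotent residual and the lower nilpotent (Fitting) series of a subgroup (helper61)
-/

set_option autoImplicit false
set_option linter.unusedSectionVars false

namespace Cfsg.Agent.Lib.FitLenA

open Subgroup
open scoped commutatorElement

universe u v

variable {G : Type u} [Group G]

theorem lcs_mono {H K : Subgroup G} (h : H ≤ K) (n : ℕ) :
    H.lowerCentralSeries n ≤ K.lowerCentralSeries n := by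
  induction n with
  | zero => simpa using h
  | succ n ih =>
    rw [Subgroup.lowerCentralSeries_succ, Subgroup.lowerCentralSeries_succ]
    exact commutator_mono ih h

theorem lcs_le (H : Subgroup G) (n : ℕ) : H.lowerCentralSeries n ≤ H := by
  have := H.lowerCentralSeries_antitone (Nat.zero_le n)
  simpa using this

/-- the nilpotent residual -/
def res (H : Subgroup G) : Subgroup G := ⨅ k, H.lowerCentralSeries k

theorem res_le_lcs (H : Subgroup G) (k : ℕ) : res H ≤ H.lowerCentralSeries k := iInf_le _ k

theorem res_le (H : Subgroup G) : res H ≤ H := (res_le_lcs H 0).trans (lcs_le H 0)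

theorem res_mono {H K : Subgroup G} (h : H ≤ K) : res H ≤ res K :=
  le_iInf fun k => (res_le_lcs H k).trans (lcs_mono h k)

/-- the lower nilpotent series -/
def resn : ℕ → Subgroup G → Subgroup G
  | 0, H => H
  | n + 1, H => res (resn n H)

theorem resn_zero (H : Subgroup G) : resn 0 H = H := rfl

theorem resn_succ (n : ℕ) (H : Subgroup G) : resn (n + 1) H = res (resn n H) := rfl

theorem resn_mono (n : ℕ) {H K : Subgroup G} (h : H ≤ K) : resn n H ≤ resn n K := by
  induction n with
  | zero => exact h
  | succ n ih => exact res_mono ih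

theorem resn_succ_le (n : ℕ) (H : Subgroup G) : resn (n + 1) H ≤ resn n H := res_le _

theorem resn_antitone (H : Subgroup G) : Antitone fun n => resn n H :=
  antitone_nat_of_succ_le fun n => resn_succ_le n H

theorem resn_le (n : ℕ) (H : Subgroup G) : resn n H ≤ H := resn_antitone H (Nat.zero_le n)

section Fin

variable [Finite G]

theorem exists_res (H : Subgroup G) : ∃ k, ∀ m, k ≤ m → res H = H.lowerCentralSeries m := by
  classical
  -- choose `k` with the order of the `k`-th term minimal
  obtain ⟨k, hk⟩ : ∃ k, ∀ m, Nat.card (H.lowerCentralSeries k) ≤ Nat.card (H.lowerCentralSeries m) := by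
    have hne : (Set.range fun k => Nat.card (H.lowerCentralSeries k)).Nonempty := ⟨_, 0, rfl⟩
    obtain ⟨k, hk⟩ := Nat.sInf_mem hne
    refine ⟨k, fun m => ?_⟩
    have h1 : sInf (Set.range fun k => Nat.card (H.lowerCentralSeries k)) ≤
      Nat.card (H.lowerCentralSeries m) := Nat.sInf_le ⟨m, rfl⟩
    rw [← hk] at h1
    exact h1
  have heq : ∀ m, k ≤ m → H.lowerCentralSeries m = H.lowerCentralSeries k := fun m hm =>
    eq_of_le_of_card_ge (H.lowerCentralSeries_antitone hm) (hk m)
  refine ⟨k, fun m hm => ?_⟩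
  rw [heq m hm]
  refine le_antisymm (res_le_lcs H k) (le_iInf fun j => ?_)
  rcases le_total j k with h | h
  · exact H.lowerCentralSeries_antitone h
  · rw [heq j h]

theorem res_commutator (H : Subgroup G) : ⁅res H, H⁆ = res H := by
  obtain ⟨k, hk⟩ := exists_res H
  have h1 := hk k le_rfl
  have h2 := hk (k + 1) (Nat.le_succ k)
  rw [Subgroup.lowerCentralSeries_succ, ← h1] at h2
  exact h2.symm

theorem res_le_iff {H N : Subgroup G} : res H ≤ N ↔ ∃ k, H.lowerCentralSeries k ≤ N := by
  constructor
  · intro h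
    obtain ⟨k, hk⟩ := exists_res H
    exact ⟨k, by rw [← hk k le_rfl]; exact h⟩
  · rintro ⟨k, hk⟩
    exact (res_le_lcs H k).trans hk

theorem map_res {K : Type v} [Group K] [Finite K] (f : G →* K) (H : Subgroup G) :
    (res H).map f = res (H.map f) := by
  obtain ⟨k, hk⟩ := exists_res H
  obtain ⟨l, hl⟩ := exists_res (H.map f)
  rw [hk (max k l) (le_max_left _ _), hl (max k l) (le_max_right _ _), map_lowerCentralSeries]

theorem map_resn {K : Type v} [Group K] [Finite K] (f : G →* K) (n : ℕ) (H : Subgroup G) :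
    (resn n H).map f = resn n (H.map f) := by
  induction n with
  | zero => rfl
  | succ n ih => rw [resn_succ, resn_succ, map_res, ih]

theorem resn_conj (n : ℕ) (H : Subgroup G) {g : G} (hg : g ∈ normalizer (H : Set G)) {x : G}
    (hx : x ∈ resn n H) : g * x * g⁻¹ ∈ resn n H := by
  have h1 := map_resn (MulAut.conj g).toMonoidHom n H
  have h2 : H.map (MulAut.conj g).toMonoidHom = H := by
    ext y
    rw [mem_map]
    constructor
    · rintro ⟨z, hz, rfl⟩
      exact (mem_normalizer_iff.mp hg z).mp hz
    · intro hy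
      refine ⟨g⁻¹ * y * g, ?_, ?_⟩
      · rw [mem_normalizer_iff.mp hg]
        have : g * (g⁻¹ * y * g) * g⁻¹ = y := by group
        rw [this]; exact hy
      · show g * (g⁻¹ * y * g) * g⁻¹ = y
        group
  rw [h2] at h1
  rw [← h1]
  exact ⟨x, hx, rfl⟩

theorem normalizer_resn (n : ℕ) (H : Subgroup G) :
    normalizer (H : Set G) ≤ normalizer (resn n H : Set G) := by
  intro g hg
  rw [mem_normalizer_iff]
  intro x
  constructor
  · exact resn_conj n H hg
  · intro hx
    have := resn_conj n H (inv_mem hg) hx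
    have h2 : g⁻¹ * (g * x * g⁻¹) * g⁻¹⁻¹ = x := by group
    rwa [h2] at this

instance resn_normal (n : ℕ) (H : Subgroup G) [H.Normal] : (resn n H).Normal := by
  constructor
  intro x hx g
  exact resn_conj n H (by rw [normalizer_eq_top H]; trivial) hx

theorem res_eq_bot_iff {H : Subgroup G} : res H = ⊥ ↔ Group.IsNilpotent H := by
  rw [isNilpotent_iff_lowerCentralSeries, ← le_bot_iff, res_le_iff]
  simp only [le_bot_iff]

/-- elements of coprime orders commute modulo the nilpotent residual -/
theorem commutator_mem_res {H : Subgroup G} {x y : G} (hx : x ∈ H) (hy : y ∈ H)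
    (hxy : (orderOf x).Coprime (orderOf y)) : ⁅x, y⁆ ∈ res H := by
  -- pass to the quotient of `H` by `res H`
  have hn : ((res H).subgroupOf H).Normal := by
    have : H ≤ normalizer (res H : Set G) := le_normalizer.trans (normalizer_resn 1 H)
    exact SubgroupTools.normal_subgroupOf_iff_le_normalizer' this
  let N : Subgroup H := (res H).subgroupOf H
  have hnil : Group.IsNilpotent (H ⧸ N) := by
    rw [Subgroup.nilpotent_iff_lowerCentralSeries]
    obtain ⟨k, hk⟩ := exists_res H
    refine ⟨k, ?_⟩
    have h1 : (⊤ : Subgroup (H ⧸ N)) = (⊤ : Subgroup H).map (QuotientGroup.mk' N) :=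
      (Subgroup.map_top_of_surjective _ (QuotientGroup.mk'_surjective N)).symm
    rw [h1, ← map_lowerCentralSeries, eq_bot_iff, map_le_iff_le_comap]
    intro z hz
    rw [mem_comap, mem_bot, QuotientGroup.mk'_apply, QuotientGroup.eq_one_iff]
    show (z : G) ∈ res H
    rw [hk k le_rfl, ← top_subtype_lowerCentralSeries]
    exact ⟨z, hz, rfl⟩
  let f : H →* H ⧸ N := QuotientGroup.mk' N
  have hcom : Commute (f ⟨x, hx⟩) (f ⟨y, hy⟩) := by
    apply H23Nilp.commute_of_coprime_orderOf
    apply Nat.Coprime.coprime_dvd_left _ (Nat.Coprime.coprime_dvd_right _ hxy)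
    · have := orderOf_map_dvd f (⟨x, hx⟩ : H)
      rwa [Subgroup.orderOf_mk] at this
    · have := orderOf_map_dvd f (⟨y, hy⟩ : H)
      rwa [Subgroup.orderOf_mk] at this
  have h2 : f ⁅(⟨x, hx⟩ : H), ⟨y, hy⟩⁆ = 1 := by
    rw [map_commutatorElement, commutatorElement_eq_one_iff_commute]
    exact hcom
  have h3 : ⁅(⟨x, hx⟩ : H), ⟨y, hy⟩⁆ ∈ N := (QuotientGroup.eq_one_iff _).mp h2
  exact h3

end Fin

end Cfsg.Agent.Lib.FitLenA
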