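import Cfsg.Agent.Lib.FitLenA

/-!
# Elements of order prime to `p`, and auxiliary lemmas for the Fitting length of fixed points (helper61)
-/

set_option autoImplicit false
set_option linter.unusedSectionVars false

namespace Cfsg.Agent.Lib.FitLenB

open Subgroup Cfsg.Agent.Lib.FitLenA
open scoped commutatorElement

universe u v

variable {G : Type u} [Group G] [Finite G]

/-- the elements of `S` of order prime to `p` lie in `N` -/
def QE (p : ℕ) (N S : Subgroup G) : Prop := ∀ s ∈ S, ¬ p ∣ orderOf s → s ∈ N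

theorem QE.mono {p : ℕ} {N N' S S' : Subgroup G} (h : QE p N S) (hN : N ≤ N') (hS : S' ≤ S) :
    QE p N' S' := fun s hs ho => hN (h s (hS hs) ho)

theorem exists_split {q : ℕ} (hq : q.Prime) (x : G) :
    ∃ i j a : ℕ, x ^ i * x ^ j = x ∧ (x ^ i) ^ (q ^ a) = 1 ∧ ¬ q ∣ orderOf (x ^ j) := by
  have hn : orderOf x ≠ 0 := (orderOf_pos x).ne'
  set n := orderOf x with hndef
  set a := n.factorization q with ha
  set m := n / q ^ a with hm
  have hnm : q ^ a * m = n := Nat.ordProj_mul_ordCompl_eq_self n q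
  have hqm : ¬ q ∣ m := Nat.not_dvd_ordCompl hq hn
  have hcop : (q ^ a).Coprime m := Nat.Coprime.pow_left a ((hq.coprime_iff_not_dvd).mpr hqm)
  obtain ⟨j, hj1, hj2⟩ := Nat.chineseRemainder hcop 0 1
  obtain ⟨i, hi1, hi2⟩ := Nat.chineseRemainder hcop 1 0
  refine ⟨i, j, a, ?_, ?_, ?_⟩
  · rw [← pow_add]
    have h1 : i + j ≡ 1 [MOD q ^ a * m] := by
      rw [← Nat.modEq_and_modEq_iff_modEq_mul hcop]
      exact ⟨(hi1.add hj1), (hi2.add hj2)⟩
    rw [hnm] at h1
    have h2 := pow_eq_pow_iff_modEq.mpr (show i + j ≡ 1 [MOD orderOf x] from h1)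
    rw [h2, pow_one]
  · have h1 : m ∣ i := (Nat.modEq_zero_iff_dvd).mp hi2
    obtain ⟨c, hc⟩ := h1
    rw [← pow_mul, hc, mul_comm m c, mul_assoc, mul_comm m, hnm, mul_comm, pow_mul,
      pow_orderOf_eq_one, one_pow]
  · intro hdvd
    have h1 : q ^ a ∣ j := (Nat.modEq_zero_iff_dvd).mp hj1
    obtain ⟨c, hc⟩ := h1
    have h2 : (x ^ j) ^ m = 1 := by
      rw [← pow_mul, hc, mul_assoc, mul_comm c m, ← mul_assoc, hnm, pow_mul, pow_orderOf_eq_one,
        one_pow]
    exact hqm (hdvd.trans (orderOf_dvd_of_pow_eq_one h2))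

/-- if some power `x ^ (q ^ k)` lies in `N`, then so does `x` when `q` does not divide its order -/
theorem mem_of_pow_mem {N : Subgroup G} {x : G} {n : ℕ} (hq : n.Coprime (orderOf x))
    (h : x ^ n ∈ N) : x ∈ N := by
  obtain ⟨m, hm⟩ := exists_pow_eq_self_of_coprime hq
  rw [← hm]
  exact pow_mem h m

theorem fix_of_coprime {m s d : G} (h : s * m * s⁻¹ = d * m) (hdm : Commute d m)
    (hds : Commute d s) {q : ℕ} (hd : d ^ q = 1) (hq : q.Coprime (orderOf s)) : d = 1 := by
  have key : ∀ j : ℕ, s ^ j * m * (s ^ j)⁻¹ = d ^ j * m := by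
    intro j
    induction j with
    | zero => simp
    | succ j ih =>
      have h1 : s ^ (j + 1) * m * (s ^ (j + 1))⁻¹ = s * (s ^ j * m * (s ^ j)⁻¹) * s⁻¹ := by
        rw [pow_succ']
        group
      rw [h1, ih]
      have h2 : s * (d ^ j * m) * s⁻¹ = d ^ j * (s * m * s⁻¹) := by
        have := (hds.pow_left j).eq
        calc s * (d ^ j * m) * s⁻¹ = (s * d ^ j) * m * s⁻¹ := by group
          _ = (d ^ j * s) * m * s⁻¹ := by rw [this]
          _ = d ^ j * (s * m * s⁻¹) := by group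
      rw [h2, h, ← mul_assoc, ← pow_succ]
  have h1 := key (orderOf s)
  rw [pow_orderOf_eq_one] at h1
  simp only [one_mul, inv_one, mul_one] at h1
  have h2 : d ^ orderOf s = 1 := by
    have : (1 : G) * m = d ^ orderOf s * m := by rw [one_mul]; exact h1
    exact (mul_right_cancel this).symm
  have h3 := pow_gcd_eq_one.mpr ⟨hd, h2⟩
  rwa [Nat.Coprime.gcd_eq_one hq, pow_one] at h3

/-- if `[R, L] = R` and the `p'`-elements of `R` are centralised by `L`, then `R` is a `p`-group -/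
theorem zc {p : ℕ} [hp : Fact p.Prime] {R L : Subgroup G} (hRL : ⁅R, L⁆ = R) (hle : R ≤ L)
    (hc : ∀ s ∈ R, ¬ p ∣ orderOf s → ∀ l ∈ L, Commute s l) (s : G) (hs : s ∈ R)
    (ho : ¬ p ∣ orderOf s) : s = 1 := by
  -- `R / Z(R)` is a `p`-group
  have hnil : Group.IsNilpotent R := by
    have h1 : IsPGroup p (R ⧸ center R) := by
      intro x
      obtain ⟨y, rfl⟩ := QuotientGroup.mk_surjective x
      obtain ⟨i, j, a, h1, h2, h3⟩ := exists_split hp.out (y : G)
      refine ⟨a, ?_⟩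
      have hj : y ^ j ∈ center R := by
        rw [mem_center_iff]
        intro z
        apply Subtype.ext
        exact (hc ((y : G) ^ j) (pow_mem y.2 j) h3 z (hle z.2)).eq.symm
      have hi : (y ^ i) ^ p ^ a = 1 := Subtype.ext (by simpa using h2)
      have hy : y = y ^ i * y ^ j := Subtype.ext (by simpa using h1.symm)
      have h4 : ((y : R ⧸ center R)) = ((y ^ i : R) : R ⧸ center R) := by
        rw [QuotientGroup.eq]
        have h5 : y⁻¹ * y ^ i = (y ^ j)⁻¹ := by
          rw [inv_mul_eq_iff_eq_mul, eq_mul_inv_iff_mul_eq]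
          exact hy.symm
        rw [h5]
        exact inv_mem hj
      rw [h4, ← QuotientGroup.mk_pow, hi, QuotientGroup.mk_one]
    have h2 : Group.IsNilpotent (R ⧸ center R) := h1.isNilpotent
    exact Group.of_quotient_center_nilpotent h2
  -- products of `p`-elements of `R` are `p`-elements
  obtain ⟨P⟩ : Nonempty (Sylow p R) := inferInstance
  have hPn : (P : Subgroup R).Normal := inferInstance
  have hPall : ∀ x : R, (∃ a, x ^ p ^ a = 1) → x ∈ (P : Subgroup R) := by
    rintro x ⟨a, ha⟩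
    have h1 : IsPGroup p (zpowers x) := by
      intro y
      obtain ⟨k, hk⟩ := mem_zpowers_iff.mp y.2
      refine ⟨a, Subtype.ext ?_⟩
      rw [Subgroup.coe_pow, ← hk, ← zpow_natCast, ← zpow_mul, mul_comm, zpow_mul, zpow_natCast, ha,
        one_zpow, Subgroup.coe_one]
    obtain ⟨Q, hQ⟩ := h1.exists_le_sylow
    have : Q = P := by
      let _ := Sylow.unique_of_normal P hPn
      exact Subsingleton.elim _ _
    rw [← this]
    exact hQ (mem_zpowers x)
  have hLR : L ≤ normalizer (R : Set G) := by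
    rw [le_normalizer_iff_commutator_le_left, hRL]
  -- `[R, L]` consists of `p`-elements
  have hsub : ⁅R, L⁆ ≤ (P : Subgroup R).map R.subtype := by
    rw [commutator_le]
    intro x hx l hl
    obtain ⟨i, j, a, h1, h2, h3⟩ := exists_split hp.out x
    have hj : Commute (x ^ j) l := hc (x ^ j) (pow_mem hx j) h3 l hl
    have h4 : ⁅x, l⁆ = ⁅x ^ i, l⁆ := by
      conv_lhs => rw [← h1]
      exact CoprimeAction2.commutatorElement_mul_left_of_commute hj
    rw [h4, commutatorElement_def]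
    have hxi : x ^ i ∈ R := pow_mem hx i
    have h5 : (⟨x ^ i, hxi⟩ : R) ∈ (P : Subgroup R) := hPall _ ⟨a, Subtype.ext (by simpa using h2)⟩
    have h6 : l * (x ^ i)⁻¹ * l⁻¹ ∈ R := (mem_normalizer_iff.mp (hLR hl) _).mp (inv_mem hxi)
    have h7 : (⟨l * (x ^ i)⁻¹ * l⁻¹, h6⟩ : R) ∈ (P : Subgroup R) := by
      apply hPall
      refine ⟨a, Subtype.ext ?_⟩
      show (l * (x ^ i)⁻¹ * l⁻¹) ^ p ^ a = 1
      rw [conj_pow, inv_pow, h2]
      group
    refine ⟨⟨x ^ i, hxi⟩ * ⟨l * (x ^ i)⁻¹ * l⁻¹, h6⟩, mul_mem h5 h7, ?_⟩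
    show x ^ i * (l * (x ^ i)⁻¹ * l⁻¹) = x ^ i * l * (x ^ i)⁻¹ * l⁻¹
    group
  rw [hRL] at hsub
  obtain ⟨y, hy, hys⟩ := hsub hs
  obtain ⟨a, ha⟩ := P.2 ⟨y, hy⟩
  have h1 : s ^ p ^ a = 1 := by
    rw [← hys]
    have := congrArg (fun z : (P : Subgroup R) => ((z : R) : G)) ha
    simpa using this
  have h2 : orderOf s ∣ p ^ a := orderOf_dvd_of_pow_eq_one h1
  rw [← orderOf_eq_one_iff]
  exact Nat.Coprime.eq_one_of_dvd (Nat.Coprime.pow_right a
    (((hp.out.coprime_iff_not_dvd).mpr ho).symm)) h2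

end Cfsg.Agent.Lib.FitLenB
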