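import Cfsg.Agent.Lib.FitLenB

/-!
# Chief factors: they are elementary abelian, and normal `q`-groups of operators are trivial (helper61)
-/

set_option autoImplicit false
set_option linter.unusedSectionVars false

namespace Cfsg.Agent.Lib.FitLenC

open Subgroup Cfsg.Agent.Lib.FitLenA Cfsg.Agent.Lib.FitLenB
open scoped commutatorElement

universe u v

variable {G : Type u} [Group G]

/-- `M / K` is a chief factor -/
structure Chief (K M : Subgroup G) : Prop where
  lt : K < M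
  min : ∀ L : Subgroup G, L.Normal → K ≤ L → L ≤ M → L = K ∨ L = M

/-- Chief factors of solvable groups are abelian. -/
theorem Chief.abelian [Group.IsSolvable G] {K N : Subgroup G} [hK : K.Normal] [hN : N.Normal]
    (h : Chief K N) : ∀ x ∈ N, ∀ y ∈ N, ⁅x, y⁆ ∈ K := by
  have hne : N.map (QuotientGroup.mk' K) ≠ ⊥ := by
    intro h'
    rw [Subgroup.map_eq_bot_iff, QuotientGroup.ker_mk'] at h'
    exact absurd h' h.lt.not_ge
  have hlt2 := Group.IsSolvable.commutator_lt_of_ne_bot hne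
  rw [← Subgroup.map_commutator] at hlt2
  have hN' : K ⊔ ⁅N, N⁆ = K := by
    rcases h.min (K ⊔ ⁅N, N⁆) inferInstance le_sup_left
      (sup_le h.lt.le (Subgroup.commutator_le_right N N)) with h | h
    · exact h
    · exfalso
      have h1 : N.map (QuotientGroup.mk' K) = (⁅N, N⁆).map (QuotientGroup.mk' K) := by
        conv_lhs => rw [← h]
        rw [Subgroup.map_sup]
        have : K.map (QuotientGroup.mk' K) = ⊥ := by
          rw [Subgroup.map_eq_bot_iff, QuotientGroup.ker_mk']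
        rw [this, bot_sup_eq]
      exact hlt2.ne h1.symm
  intro x hx y hy
  rw [← hN']
  exact (le_sup_right : ⁅N, N⁆ ≤ K ⊔ ⁅N, N⁆) (Subgroup.commutator_mem_commutator hx hy)

/-- the subgroup of the elements of `M` whose commutators with all of `S` lie in `K` -/
def cen (K M : Subgroup G) [K.Normal] (S : Set G) : Subgroup G where
  carrier := {m | m ∈ M ∧ ∀ s ∈ S, ⁅m, s⁆ ∈ K}
  mul_mem' := by
    rintro a b ⟨ha, ha'⟩ ⟨hb, hb'⟩
    refine ⟨mul_mem ha hb, fun s hs => ?_⟩
    have h1 : ⁅a * b, s⁆ = (a * ⁅b, s⁆ * a⁻¹) * ⁅a, s⁆ := by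
      rw [commutatorElement_def, commutatorElement_def, commutatorElement_def]
      group
    rw [h1]
    exact mul_mem (‹K.Normal›.conj_mem _ (hb' s hs) a) (ha' s hs)
  one_mem' := ⟨one_mem _, fun s _ => by rw [commutatorElement_one_left]; exact one_mem _⟩
  inv_mem' := by
    rintro a ⟨ha, ha'⟩
    refine ⟨inv_mem ha, fun s hs => ?_⟩
    have h1 : ⁅a⁻¹, s⁆ = a⁻¹ * ⁅a, s⁆⁻¹ * a⁻¹⁻¹ := by
      rw [commutatorElement_def, commutatorElement_def]
      group
    rw [h1]
    exact ‹K.Normal›.conj_mem _ (inv_mem (ha' s hs)) a⁻¹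

theorem mem_cen {K M : Subgroup G} [K.Normal] {S : Set G} {m : G} :
    m ∈ cen K M S ↔ m ∈ M ∧ ∀ s ∈ S, ⁅m, s⁆ ∈ K := Iff.rfl

theorem cen_normal {K M L : Subgroup G} [hK : K.Normal] [hM : M.Normal] [hL : L.Normal] :
    (cen K M (L : Set G)).Normal := by
  constructor
  rintro m ⟨hm, hm'⟩ g
  refine ⟨hM.conj_mem _ hm g, fun s hs => ?_⟩
  have h1 : ⁅g * m * g⁻¹, s⁆ = g * ⁅m, g⁻¹ * s * g⁆ * g⁻¹ := by
    rw [commutatorElement_def, commutatorElement_def]
    group
  rw [h1]
  refine hK.conj_mem _ (hm' _ ?_) g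
  have := hL.conj_mem s hs g⁻¹
  rwa [inv_inv] at this

theorem le_cen {K M : Subgroup G} [hK : K.Normal] (hKM : K ≤ M) (S : Set G) : K ≤ cen K M S := by
  intro k hk
  refine ⟨hKM hk, fun s _ => ?_⟩
  rw [commutatorElement_def, mul_assoc, mul_assoc]
  refine mul_mem hk ?_
  have := hK.conj_mem _ (inv_mem hk) s
  rwa [mul_assoc] at this

/-- the kernel of the action of `X` on `M / K` -/
def ker (X K M : Subgroup G) [K.Normal] [M.Normal] : Subgroup G where
  carrier := {x | x ∈ X ∧ ∀ m ∈ M, ⁅m, x⁆ ∈ K}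
  mul_mem' := by
    rintro a b ⟨ha, ha'⟩ ⟨hb, hb'⟩
    refine ⟨mul_mem ha hb, fun m hm => ?_⟩
    have h1 : ⁅m, a * b⁆ = ⁅m, a⁆ * (a * ⁅m, b⁆ * a⁻¹) := by
      rw [commutatorElement_def, commutatorElement_def, commutatorElement_def]
      group
    rw [h1]
    exact mul_mem (ha' m hm) (‹K.Normal›.conj_mem _ (hb' m hm) a)
  one_mem' := ⟨one_mem _, fun s _ => by rw [commutatorElement_one_right]; exact one_mem _⟩
  inv_mem' := by
    rintro a ⟨ha, ha'⟩
    refine ⟨inv_mem ha, fun m hm => ?_⟩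
    have h1 : ⁅m, a⁻¹⁆ = a⁻¹ * ⁅m, a⁆⁻¹ * a⁻¹⁻¹ := by
      rw [commutatorElement_def, commutatorElement_def]
      group
    rw [h1]
    exact ‹K.Normal›.conj_mem _ (inv_mem (ha' m hm)) a⁻¹

theorem mem_ker {X K M : Subgroup G} [K.Normal] [M.Normal] {x : G} :
    x ∈ ker X K M ↔ x ∈ X ∧ ∀ m ∈ M, ⁅m, x⁆ ∈ K := Iff.rfl

instance ker_normal {X K M : Subgroup G} [hK : K.Normal] [hM : M.Normal] [hX : X.Normal] :
    (ker X K M).Normal := by
  constructor
  rintro x ⟨hx, hx'⟩ g
  refine ⟨hX.conj_mem _ hx g, fun m hm => ?_⟩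
  have h1 : ⁅m, g * x * g⁻¹⁆ = g * ⁅g⁻¹ * m * g, x⁆ * g⁻¹ := by
    rw [commutatorElement_def, commutatorElement_def]
    group
  rw [h1]
  refine hK.conj_mem _ (hx' _ ?_) g
  have := hM.conj_mem m hm g⁻¹
  rwa [inv_inv] at this

theorem ker_le {X K M : Subgroup G} [K.Normal] [M.Normal] : ker X K M ≤ X := fun _ h => h.1

variable [Finite G]

/-- Chief factors of solvable groups have prime exponent. -/
theorem Chief.exists_prime [Group.IsSolvable G] {K M : Subgroup G} [hK : K.Normal] [hM : M.Normal]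
    (h : Chief K M) : ∃ q : ℕ, q.Prime ∧ ∀ x ∈ M, x ^ q ∈ K := by
  obtain ⟨y, hyM, hyK⟩ := SetLike.exists_of_lt h.lt
  -- an element whose image in `G / K` has prime order
  let f := QuotientGroup.mk' K
  have hy1 : orderOf (f y) ≠ 1 := by
    rw [Ne, orderOf_eq_one_iff]
    intro h'
    exact hyK ((QuotientGroup.eq_one_iff y).mp h')
  obtain ⟨q, hq, hqy⟩ := Nat.exists_prime_and_dvd hy1
  obtain ⟨c, hc⟩ := hqy
  have hab := h.abelian
  let J : Subgroup G :=
    { carrier := {x | x ∈ M ∧ x ^ q ∈ K}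
      mul_mem' := by
        rintro a b ⟨ha, ha'⟩ ⟨hb, hb'⟩
        refine ⟨mul_mem ha hb, ?_⟩
        have hcom : Commute (f a) (f b) := by
          rw [← commutatorElement_eq_one_iff_commute, ← map_commutatorElement]
          exact (QuotientGroup.eq_one_iff _).mpr (hab a ha b hb)
        rw [← QuotientGroup.eq_one_iff]
        show f ((a * b) ^ q) = 1
        rw [map_pow, map_mul, hcom.mul_pow, ← map_pow, ← map_pow]
        have h1 : f (a ^ q) = 1 := (QuotientGroup.eq_one_iff _).mpr ha'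
        have h2 : f (b ^ q) = 1 := (QuotientGroup.eq_one_iff _).mpr hb'
        rw [h1, h2, one_mul]
      one_mem' := ⟨one_mem _, by rw [one_pow]; exact one_mem _⟩
      inv_mem' := by
        rintro a ⟨ha, ha'⟩
        exact ⟨inv_mem ha, by rw [inv_pow]; exact inv_mem ha'⟩ }
  have hJn : J.Normal := by
    constructor
    rintro x ⟨hx, hx'⟩ g
    exact ⟨hM.conj_mem _ hx g, by rw [conj_pow]; exact hK.conj_mem _ hx' g⟩
  refine ⟨q, hq, ?_⟩
  rcases h.min J hJn (fun x hx => ⟨h.lt.le hx, pow_mem hx q⟩) (fun x hx => hx.1) with h1 | h1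
  · exfalso
    -- the element `y ^ c`
    have h2 : y ^ c ∈ J := by
      refine ⟨pow_mem hyM c, ?_⟩
      rw [← QuotientGroup.eq_one_iff]
      show f ((y ^ c) ^ q) = 1
      rw [← pow_mul, mul_comm, map_pow, ← hc, pow_orderOf_eq_one]
    rw [h1] at h2
    have h3 : f y ^ c = 1 := by
      rw [← map_pow]
      exact (QuotientGroup.eq_one_iff _).mpr h2
    have h4 : orderOf (f y) ∣ c := orderOf_dvd_of_pow_eq_one h3
    rw [hc] at h4
    have hc0 : 0 < c := by
      rcases Nat.eq_zero_or_pos c with h0 | h0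
      · rw [h0, mul_zero] at hc
        exact absurd hc (orderOf_pos _).ne'
      · exact h0
    have h5 := Nat.le_of_dvd hc0 h4
    have h6 : 2 * c ≤ q * c := Nat.mul_le_mul_right c hq.two_le
    omega
  · intro x hx
    rw [← h1] at hx
    exact hx.2

/-- a normal subgroup acting as a `q`-group on a chief factor that is a `q`-group centralises it -/
theorem Chief.centralize {K M L : Subgroup G} [hK : K.Normal] [hM : M.Normal] [hL : L.Normal]
    (h : Chief K M) {q : ℕ} (hq : q.Prime) (hM' : ∀ x ∈ M, x ^ q ∈ K)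
    (hact : ∀ l ∈ L, ∃ k : ℕ, ∀ m ∈ M, ⁅m, l ^ q ^ k⁆ ∈ K) : ∀ l ∈ L, ∀ m ∈ M, ⁅m, l⁆ ∈ K := by
  have hqf : Fact q.Prime := ⟨hq⟩
  let f := QuotientGroup.mk' K
  let V : Subgroup (G ⧸ K) := M.map f
  have hVn : V.Normal := hM.map f (QuotientGroup.mk'_surjective K)
  let φ : G →* MulAut V := (MulAut.conjNormal : (G ⧸ K) →* MulAut V).comp f
  have hφ : ∀ (g : G) (v : V), ((φ g v : V) : G ⧸ K) = f g * v * (f g)⁻¹ := fun g v => rfl
  let T : Subgroup (MulAut V) := L.map φ
  have hTp : IsPGroup q T := by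
    rintro ⟨t, l, hl, rfl⟩
    obtain ⟨k, hk⟩ := hact l hl
    refine ⟨k, Subtype.ext ?_⟩
    rw [Subgroup.coe_pow, Subgroup.coe_one, ← map_pow]
    ext v
    obtain ⟨_, m, hm, rfl⟩ := v
    rw [hφ]
    show f (l ^ q ^ k) * f m * (f (l ^ q ^ k))⁻¹ = f m
    have h1 : f ⁅m, l ^ q ^ k⁆ = 1 := (QuotientGroup.eq_one_iff _).mpr (hk m hm)
    rw [map_commutatorElement, commutatorElement_eq_one_iff_commute] at h1
    rw [← h1.eq, mul_inv_cancel_right]
  have hVp : IsPGroup q V := by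
    rintro ⟨_, m, hm, rfl⟩
    refine ⟨1, Subtype.ext ?_⟩
    rw [Subgroup.coe_pow, Subgroup.coe_one, pow_one]
    show f m ^ q = 1
    rw [← map_pow]
    exact (QuotientGroup.eq_one_iff _).mpr (hM' m hm)
  have hVnt : Nontrivial V := by
    obtain ⟨y, hyM, hyK⟩ := SetLike.exists_of_lt h.lt
    refine ⟨⟨⟨f y, mem_map_of_mem f hyM⟩, 1, fun h' => hyK ?_⟩⟩
    exact (QuotientGroup.eq_one_iff y).mp (congrArg Subtype.val h')
  have hcard : q ∣ Nat.card V := by
    obtain ⟨n, hn⟩ := hVp.exists_card_eq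
    rw [hn]
    have hn0 : n ≠ 0 := by
      rintro rfl
      have h1 : 1 < Nat.card V := Finite.one_lt_card
      rw [hn, pow_zero] at h1
      exact lt_irrefl _ h1
    exact dvd_pow_self q hn0
  obtain ⟨v, hv, hv1⟩ := hTp.exists_fixed_point_of_prime_dvd_card_of_fixed_point V hcard
    (a := (1 : V)) (by
      intro t
      show (t : MulAut V) 1 = 1
      exact map_one _)
  obtain ⟨_, m, hm, rfl⟩ := v
  -- the fixed points form a normal subgroup
  have hcn : (cen K M (L : Set G)).Normal := cen_normal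
  have hmc : m ∈ cen K M (L : Set G) := by
    refine ⟨hm, fun l hl => ?_⟩
    have h1 := hv ⟨φ l, mem_map_of_mem φ hl⟩
    have h2 := congrArg (Subtype.val : V → G ⧸ K) h1
    have h3 : f l * f m * (f l)⁻¹ = f m := h2
    rw [← QuotientGroup.eq_one_iff]
    show f ⁅m, l⁆ = 1
    rw [map_commutatorElement, commutatorElement_eq_one_iff_commute]
    have h4 : f l * f m = f m * f l := by
      rwa [mul_inv_eq_iff_eq_mul] at h3
    exact h4.symm
  rcases h.min _ hcn (le_cen h.lt.le _) (fun x hx => hx.1) with h5 | h5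
  · exfalso
    rw [h5] at hmc
    apply hv1
    apply Subtype.ext
    show 1 = f m
    exact ((QuotientGroup.eq_one_iff m).mpr hmc).symm
  · intro l hl m hm
    rw [← h5] at hm
    exact hm.2 l hl

end Cfsg.Agent.Lib.FitLenC
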