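import Cfsg.Agent.Lib.FitLenC

/-!
# Fixed points of elementary abelian groups: Fitting length (helper61)
-/

set_option autoImplicit false
set_option linter.unusedSectionVars false

namespace Cfsg.Agent.Lib.FitLenD

open Subgroup Cfsg.Agent.Lib.FitLenA Cfsg.Agent.Lib.FitLenB Cfsg.Agent.Lib.FitLenC
  Cfsg.Agent.Lib.CoprimeHyper Cfsg.Agent.Lib.CoprimeAction Cfsg.Agent.Lib.SubgroupTools
open scoped commutatorElement

universe u v

variable {G : Type u} [Group G] [Finite G]

/-- If a `p'`-element of `L` does not lie in `K` modulo ..., choose a chief factor `M / K`, not a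
`p`-group, that is not centralised by `L`. -/
theorem exists_chief [Group.IsSolvable G] {X N L : Subgroup G} [hX : X.Normal] [hN : N.Normal]
    [_hL : L.Normal] (hNX : N ≤ X) (hLX : L ≤ X) {p : ℕ} (hp : p.Prime) (h : ¬ QE p N (res L)) :
    ∃ (K M : Subgroup G) (_ : K.Normal) (_ : M.Normal) (q : ℕ), N ≤ K ∧ M ≤ X ∧ Chief K M ∧
      q.Prime ∧ q ≠ p ∧ (∀ x ∈ M, x ^ q ∈ K) ∧ ¬ (∀ l ∈ L, ∀ m ∈ M, ⁅m, l⁆ ∈ K) := by
  have hpf : Fact p.Prime := ⟨hp⟩
  -- `K` maximal
  obtain ⟨K, hKprop, hKmax⟩ := (Set.toFinite {K : Subgroup G | K.Normal ∧ N ≤ K ∧ K ≤ X ∧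
    ¬ QE p K (res L)}).exists_maximal ⟨N, hN, le_rfl, hNX, h⟩
  obtain ⟨hKn, hNK, hKX, hK⟩ := hKprop
  have hRX : res L ≤ X := (res_le L).trans hLX
  have hKX' : K < X := by
    refine lt_of_le_of_ne hKX ?_
    rintro rfl
    exact hK fun s hs _ => hRX hs
  obtain ⟨M, hMprop, hMmin⟩ := (Set.toFinite {M : Subgroup G | M.Normal ∧ K < M ∧ M ≤ X}).exists_minimal
    ⟨X, hX, hKX', le_rfl⟩
  obtain ⟨hMn, hKM, hMX⟩ := hMprop
  have hch : Chief K M := by
    refine ⟨hKM, fun J hJ h1 h2 => ?_⟩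
    by_cases h3 : J = K
    · exact Or.inl h3
    · right
      exact le_antisymm h2 (hMmin ⟨hJ, lt_of_le_of_ne h1 (Ne.symm h3), h2.trans hMX⟩ h2)
  have hM : QE p M (res L) := by
    by_contra h1
    have := hKmax ⟨hMn, hNK.trans hKM.le, hMX, h1⟩ hKM.le
    exact absurd this hKM.not_ge
  obtain ⟨q, hq, hMq⟩ := hch.exists_prime
  have hqp : q ≠ p := by
    rintro rfl
    apply hK
    intro s hs ho
    exact mem_of_pow_mem ((hq.coprime_iff_not_dvd).mpr ho) (hMq s (hM s hs ho))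
  refine ⟨K, M, hKn, hMn, q, hNK, hMX, hch, hq, hqp, hMq, ?_⟩
  intro hcent
  apply hK
  -- pass to `G / K`
  let f := QuotientGroup.mk' K
  have hR : ⁅(res L).map f, L.map f⁆ = (res L).map f := by
    rw [← map_commutator, res_commutator]
  have hle : (res L).map f ≤ L.map f := map_mono (res_le L)
  have hkey := zc (p := p) hR hle (by
    rintro _ ⟨s, hs, rfl⟩ ho _ ⟨l, hl, rfl⟩
    -- the `p'`-part of `s`
    obtain ⟨i, j, a, h1, h2, h3⟩ := exists_split hp s
    have h4 : s ^ j ∈ M := hM _ (pow_mem hs j) h3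
    have h5 : f s = f (s ^ j) := by
      -- `f (s ^ i)` has order a power of `p` and is a power of `f s`
      have h6 : f (s ^ i) = 1 := by
        have h7 : (f s) ^ (i * p ^ a) = 1 := by
          rw [pow_mul, ← map_pow, ← map_pow, h2, map_one]
        have h8 : orderOf (f s) ∣ i := by
          apply Nat.Coprime.dvd_of_dvd_mul_right _ (orderOf_dvd_of_pow_eq_one h7)
          exact Nat.Coprime.pow_right a (((hp.coprime_iff_not_dvd).mpr ho).symm)
        rw [map_pow]
        exact orderOf_dvd_iff_pow_eq_one.mp h8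
      conv_lhs => rw [← h1]
      rw [map_mul, h6, one_mul]
    rw [h5]
    have h9 : f ⁅s ^ j, l⁆ = 1 := (QuotientGroup.eq_one_iff _).mpr (hcent l hl _ h4)
    rw [map_commutatorElement, commutatorElement_eq_one_iff_commute] at h9
    exact h9)
  intro s hs ho
  have h1 := hkey (f s) (mem_map_of_mem f hs) (fun h2 => ho (h2.trans (orderOf_map_dvd f s)))
  exact (QuotientGroup.eq_one_iff s).mp h1

/-- The key step. -/
theorem step [Group.IsSolvable G] {K M Z : Subgroup G} [hKn : K.Normal] [hMn : M.Normal]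
    (hab : ∀ x ∈ M, ∀ y ∈ M, ⁅x, y⁆ ∈ K) {q p : ℕ} (hq : q.Prime) (hp : p.Prime) (hqp : q ≠ p)
    (hMq : ∀ x ∈ M, x ^ q ∈ K) (n : ℕ) {s m : G} (hs : s ∈ resn n Z) (ho : ¬ q ∣ orderOf s)
    (hm : m ∈ M) (hmZ : m ∈ Z) (hms : ⁅m, s⁆ ∉ K) : ¬ QE p K (resn (n + 1) Z) := by
  intro hQ
  apply hms
  set T := resn n Z with hT
  rw [resn_succ, ← hT] at hQ
  let f := QuotientGroup.mk' K
  have hfK : ∀ x, f x = 1 ↔ x ∈ K := fun x => QuotientGroup.eq_one_iff x
  -- `res T ⊓ M ≤ K`
  have h1 : ∀ x ∈ res T, x ∈ M → x ∈ K := by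
    intro x hx hxM
    obtain ⟨i, j, a, h1, h2, h3⟩ := exists_split hp x
    have h4 : x ^ j ∈ K := hQ _ (pow_mem hx j) h3
    have h5 : x ^ i ∈ K := by
      apply mem_of_pow_mem (n := q) _ (hMq _ (pow_mem hxM i))
      have h6 : orderOf (x ^ i) ∣ p ^ a := orderOf_dvd_of_pow_eq_one h2
      apply Nat.Coprime.coprime_dvd_right h6
      exact Nat.Coprime.pow_right a ((Nat.coprime_primes hq hp).mpr hqp)
    rw [← h1]
    exact mul_mem h5 h4
  -- `s` centralises `T ⊓ M` modulo `K`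
  have h2 : ∀ u ∈ T, u ∈ M → Commute (f u) (f s) := by
    intro u hu huM
    obtain ⟨i, j, a, h3, h4, h5⟩ := exists_split hq u
    have h6 : u ^ j ∈ K := by
      apply mem_of_pow_mem (n := q) _ (hMq _ (pow_mem huM j))
      exact (hq.coprime_iff_not_dvd).mpr h5
    have h7 : ⁅u ^ i, s⁆ ∈ res T := by
      apply commutator_mem_res (pow_mem hu i) hs
      have h8 : orderOf (u ^ i) ∣ q ^ a := orderOf_dvd_of_pow_eq_one h4
      apply Nat.Coprime.coprime_dvd_left h8
      exact Nat.Coprime.pow_left a ((hq.coprime_iff_not_dvd).mpr ho)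
    have h8 : ⁅u ^ i, s⁆ ∈ M := by
      rw [commutatorElement_def, mul_assoc, mul_assoc]
      refine mul_mem (pow_mem huM i) ?_
      have := hMn.conj_mem _ (inv_mem (pow_mem huM i)) s
      rwa [mul_assoc] at this
    have h9 : f ⁅u ^ i, s⁆ = 1 := (hfK _).mpr (h1 _ h7 h8)
    rw [map_commutatorElement, commutatorElement_eq_one_iff_commute] at h9
    have h10 : f u = f (u ^ i) := by
      conv_lhs => rw [← h3]
      rw [map_mul, (hfK _).mpr h6, mul_one]
    rw [h10]
    exact h9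
  -- the element `d = ⁅s, m⁆`
  have hsZ : s ∈ Z := resn_le n Z hs
  have hdT : ⁅s, m⁆ ∈ T := by
    have h3 : m * s⁻¹ * m⁻¹ ∈ T := by
      have h4 : Z ≤ normalizer (T : Set G) := le_normalizer.trans (normalizer_resn n Z)
      exact (mem_normalizer_iff.mp (h4 hmZ) _).mp (inv_mem hs)
    have h5 : ⁅s, m⁆ = s * (m * s⁻¹ * m⁻¹) := by
      rw [commutatorElement_def]
      group
    rw [h5]
    exact mul_mem hs h3
  have hdM : ⁅s, m⁆ ∈ M := by
    rw [commutatorElement_def]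
    exact mul_mem (hMn.conj_mem _ hm s) (inv_mem hm)
  have hd1 := h2 _ hdT hdM
  have hd2 : Commute (f ⁅s, m⁆) (f m) := by
    rw [← commutatorElement_eq_one_iff_commute, ← map_commutatorElement, hfK]
    exact hab _ hdM _ hm
  have hd3 : f ⁅s, m⁆ = 1 := by
    refine fix_of_coprime (m := f m) (s := f s) (q := q) ?_ hd2 hd1 ?_ ?_
    · rw [← map_mul, ← map_inv, ← map_mul, ← map_mul, commutatorElement_def]
      congr 1
      group
    · rw [← map_pow, hfK]
      exact hMq _ hdM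
    · apply Nat.Coprime.coprime_dvd_right (orderOf_map_dvd f s)
      exact (hq.coprime_iff_not_dvd).mpr ho
  have h3 := (hfK _).mp hd3
  have h4 : ⁅m, s⁆ = ⁅s, m⁆⁻¹ := by rw [commutatorElement_inv]
  rw [h4]
  exact inv_mem h3

variable {r : ℕ} [hr : Fact r.Prime] {A X : Subgroup G} [hXn : X.Normal]

theorem base (hA : Cfsg.IsElementaryAbelian r A) (hX : ¬ r ∣ Nat.card ↥X) {p : ℕ} (hp : p.Prime)
    {N : Subgroup G} [hN : N.Normal] (hNX : N ≤ X) (h : ¬ QE p N X) :
    ∃ B : Subgroup G, B ≤ A ∧ Nat.card ↥A ≤ r * Nat.card ↥B ∧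
      ¬ QE p N (X ⊓ centralizer (B : Set G)) := by
  obtain ⟨q, hq, hqp, hqi⟩ : ∃ q : ℕ, q.Prime ∧ q ≠ p ∧ q ∣ N.relIndex X := by
    by_contra hcon
    push Not at hcon
    apply h
    intro s hs ho
    have h1 : N.relIndex X = p ^ (N.relIndex X).primeFactorsList.length := by
      apply Nat.eq_prime_pow_of_unique_prime_dvd
      · exact Subgroup.index_ne_zero_of_finite (H := N.subgroupOf X)
      · intro d hd hdi
        by_contra hne
        exact hcon d hd hne hdi
    have h2 : s ^ N.relIndex X ∈ N := by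
      have h3 : (N.subgroupOf X).Normal := inferInstance
      have h4 := Subgroup.pow_index_mem (N.subgroupOf X) (⟨s, hs⟩ : X)
      exact h4
    apply mem_of_pow_mem (n := N.relIndex X) _ h2
    rw [h1]
    exact Nat.Coprime.pow_left _ ((hp.coprime_iff_not_dvd).mpr ho)
  have hqf : Fact q.Prime := ⟨hq⟩
  have hAX : A ≤ normalizer (X : Set G) := by rw [normalizer_eq_top X]; exact le_top
  have hcop := elemAb_coprime hA hX
  obtain ⟨Q, hQX, hQq, hQi, hQA⟩ := exists_invariant_sylow hAX hcop (Or.inl (elemAb_solvable hA)) q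
  have hQN : ¬ Q ≤ N := by
    intro hle
    apply hQi
    exact hqi.trans (relIndex_dvd_of_le_left X hle)
  have hQr : ¬ r ∣ Nat.card ↥Q := fun h1 => hX (h1.trans (card_dvd_of_le hQX))
  by_contra hcon
  push Not at hcon
  apply hQN
  apply le_of_hyper hA hQr hQA
  intro B hB hBi y hy
  obtain ⟨hyQ, hyB⟩ := mem_inf.mp hy
  have h1 := card_mul_relIndex_of_le hB
  have h2 := hcon B hB (by
    rw [← h1, mul_comm]
    exact Nat.mul_le_mul_right _ hBi)
  apply h2 y (mem_inf.mpr ⟨hQX hyQ, hyB⟩)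
  -- `y` is a `q`-element
  obtain ⟨k, hk⟩ := hQq ⟨y, hyQ⟩
  have h3 : y ^ q ^ k = 1 := congrArg Subtype.val hk
  intro h4
  have h5 := h4.trans (orderOf_dvd_of_pow_eq_one h3)
  exact hqp ((Nat.prime_dvd_prime_iff_eq hp hq).mp (hp.dvd_of_dvd_pow h5)).symm

theorem main [Group.IsSolvable G] (hA : Cfsg.IsElementaryAbelian r A) (hX : ¬ r ∣ Nat.card ↥X)
    (n : ℕ) : ∀ (p : ℕ) (_ : p.Prime) (N : Subgroup G) [N.Normal], N ≤ X → ¬ QE p N (resn n X) →
      ∃ B : Subgroup G, B ≤ A ∧ Nat.card ↥A ≤ r ^ (n + 1) * Nat.card ↥B ∧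
        ¬ QE p N (resn n (X ⊓ centralizer (B : Set G))) := by
  induction n with
  | zero =>
    intro p hp N hN hNX h
    obtain ⟨B, h1, h2, h3⟩ := base hA hX hp hNX h
    exact ⟨B, h1, by simpa using h2, h3⟩
  | succ n ih =>
    intro p hp N hN hNX h
    obtain ⟨K, M, hKn, hMn, q, hNK, hMX, hch, hq, hqp, hMq, hcent⟩ :=
      exists_chief (L := resn n X) hNX (resn_le n X) hp h
    -- the kernel
    have h1 : ¬ QE q (ker X K M) (resn n X) := by
      intro hQ
      apply hcent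
      apply hch.centralize hq hMq
      intro l hl
      obtain ⟨i, j, a, h1, h2, h3⟩ := exists_split hq l
      refine ⟨a, fun m hm => ?_⟩
      have h4 : l ^ j ∈ ker X K M := hQ _ (pow_mem hl j) h3
      have h5 : l ^ q ^ a = (l ^ j) ^ q ^ a := by
        have hc : Commute (l ^ i) (l ^ j) := (Commute.refl l).pow_pow i j
        conv_lhs => rw [← h1]
        rw [hc.mul_pow, h2, one_mul]
      rw [h5]
      exact (pow_mem h4 _).2 m hm
    obtain ⟨B₁, hB₁A, hB₁c, hB₁⟩ := ih q hq (ker X K M) ker_le h1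
    unfold QE at hB₁
    push Not at hB₁
    obtain ⟨s, hs, hso, hsk⟩ := hB₁
    have hsX : s ∈ X := (mem_inf.mp (resn_le n _ hs)).1
    -- the fixed points of `s` modulo `K`
    have hD : ¬ M ≤ cen K M {s} := by
      intro hle
      apply hsk
      exact ⟨hsX, fun m hm => (hle hm).2 s rfl⟩
    have hMr : ¬ r ∣ Nat.card ↥M := fun h1 => hX (h1.trans (card_dvd_of_le hMX))
    have hB₁ea := elemAb_mono hA hB₁A
    obtain ⟨B, hBB₁, hBi, hB⟩ : ∃ B : Subgroup G, B ≤ B₁ ∧ B.relIndex B₁ ≤ r ∧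
        ¬ M ⊓ centralizer (B : Set G) ≤ cen K M {s} := by
      by_contra hcon
      push Not at hcon
      apply hD
      apply le_of_hyper hB₁ea hMr (by rw [normalizer_eq_top M]; exact le_top)
      exact hcon
    obtain ⟨m, hm, hmD⟩ := SetLike.not_le_iff_exists.mp hB
    obtain ⟨hmM, hmB⟩ := mem_inf.mp hm
    have hms : ⁅m, s⁆ ∉ K := by
      intro h2
      apply hmD
      refine ⟨hmM, fun t ht => ?_⟩
      rw [Set.mem_singleton_iff] at ht
      rw [ht]
      exact h2
    refine ⟨B, hBB₁.trans hB₁A, ?_, ?_⟩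
    · have h2 := card_mul_relIndex_of_le hBB₁
      calc Nat.card ↥A ≤ r ^ (n + 1) * Nat.card ↥B₁ := hB₁c
        _ = r ^ (n + 1) * (Nat.card ↥B * B.relIndex B₁) := by rw [h2]
        _ ≤ r ^ (n + 1) * (Nat.card ↥B * r) :=
            Nat.mul_le_mul_left _ (Nat.mul_le_mul_left _ hBi)
        _ = r ^ (n + 1 + 1) * Nat.card ↥B := by ring
    · intro hQ
      have h3 : X ⊓ centralizer (B₁ : Set G) ≤ X ⊓ centralizer (B : Set G) :=
        inf_le_inf_left _ (centralizer_le hBB₁)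
      refine step (M := M) (Z := X ⊓ centralizer (B : Set G)) hch.abelian hq hp hqp hMq n
        (resn_mono n h3 hs) hso hmM (mem_inf.mpr ⟨hMX hmM, hmB⟩) hms ?_
      exact hQ.mono hNK le_rfl

/-- If all fixed-point subgroups of non-trivial elements have Fitting length at most `n`, and the
rank is at least `n + 2`, then the Fitting length is at most `n`. -/
theorem resn_eq_bot [Group.IsSolvable G] (hA : Cfsg.IsElementaryAbelian r A)
    (hX : ¬ r ∣ Nat.card ↥X) (n : ℕ) (hcard : r ^ (n + 2) ≤ Nat.card ↥A)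
    (hcent : ∀ a ∈ A, a ≠ 1 → resn n (X ⊓ centralizer ({a} : Set G)) = ⊥) : resn n X = ⊥ := by
  by_contra hne
  have h1 : ¬ QE r ⊥ (resn n X) := by
    intro hQ
    apply hne
    rw [eq_bot_iff]
    intro x hx
    apply hQ x hx
    intro hd
    apply hX
    have h2 : orderOf x ∣ Nat.card ↥X := by
      have := orderOf_dvd_natCard (⟨x, resn_le n X hx⟩ : X)
      rwa [Subgroup.orderOf_mk] at this
    exact hd.trans h2
  obtain ⟨B, hBA, hBc, hB⟩ := main hA hX n r hr.out ⊥ bot_le h1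
  have h2 : 1 < Nat.card ↥B := by
    by_contra hle
    rw [not_lt] at hle
    have h3 : Nat.card ↥A ≤ r ^ (n + 1) := by
      calc Nat.card ↥A ≤ r ^ (n + 1) * Nat.card ↥B := hBc
        _ ≤ r ^ (n + 1) * 1 := Nat.mul_le_mul_left _ hle
        _ = r ^ (n + 1) := mul_one _
    have h4 : r ^ (n + 1) < r ^ (n + 2) := Nat.pow_lt_pow_right hr.out.one_lt (Nat.lt_succ_self _)
    omega
  have h3 : B ≠ ⊥ := by
    rintro rfl
    rw [card_bot] at h2
    exact lt_irrefl _ h2
  obtain ⟨b, hb, hb1⟩ : ∃ b ∈ B, b ≠ 1 := by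
    by_contra hcon
    push Not at hcon
    exact h3 ((Subgroup.eq_bot_iff_forall B).mpr hcon)
  apply hB
  have h4 : resn n (X ⊓ centralizer (B : Set G)) = ⊥ := by
    rw [eq_bot_iff, ← hcent b (hBA hb) hb1]
    apply resn_mono
    apply inf_le_inf_left
    apply centralizer_le
    rw [Set.singleton_subset_iff]
    exact hb
  rw [h4]
  intro s hs _
  exact hs

end Cfsg.Agent.Lib.FitLenD
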