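import Cfsg.Agent.Lib.FongSwan3

/-!
# Fong-Swan, part 4: normal `p`-subgroups and the main theorem (helper74)
-/

set_option autoImplicit false
set_option linter.all false

namespace Cfsg.Agent.Lib.FongSwan

open scoped ComplexConjugate
open Cfsg Cfsg.Agent.Lib.CharBasic Cfsg.Agent.Lib.Clifford Cfsg.Agent.Lib.CliffordCorr
open Cfsg.Agent.Lib.CanonExt Cfsg.Agent.Lib.IndStages

universe u

attribute [local instance 5000] Fintype.ofFinite

variable {G : Type u} [Group G] [Finite G] {p : ℕ} [hp : Fact p.Prime]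

theorem orderOf_conj4 (g x : G) : orderOf (g * x * g⁻¹) = orderOf x := by
  have := orderOf_injective (MulAut.conj g).toMonoidHom (MulAut.conj g).injective x
  simpa using this

/-- the class function of `G ⧸ P` with the values of `ψ` on `p`-regular elements -/
theorem exists_descend (hG : IsPSolvable p G) {P : Subgroup G} [hPn : P.Normal] (hP : IsPGroup p P) {ψ : G → ℂ}
    (hψ : IsClassFunction G ψ) : ∃ f : G ⧸ P → ℂ, IsClassFunction (G ⧸ P) f ∧
      (∀ x : G, ¬ p ∣ orderOf x → f (x : G ⧸ P) = ψ x) ∧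
      ∀ y : G ⧸ P, (¬ ∃ x : G, ¬ p ∣ orderOf x ∧ (x : G ⧸ P) = y) → f y = 0 := by
  classical
  let f : G ⧸ P → ℂ := fun y => if h : ∃ x : G, ¬ p ∣ orderOf x ∧ (x : G ⧸ P) = y then ψ h.choose else 0
  have hf1 : ∀ x : G, ¬ p ∣ orderOf x → f (x : G ⧸ P) = ψ x := by
    intro x hx
    have h : ∃ x' : G, ¬ p ∣ orderOf x' ∧ (x' : G ⧸ P) = (x : G ⧸ P) := ⟨x, hx, rfl⟩
    have h1 : f (x : G ⧸ P) = ψ h.choose := dif_pos h
    rw [h1]
    apply hψ.conj_eq
    exact isConj_of_mk hG hP h.choose_spec.1 hx (by rw [h.choose_spec.2])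
  have hf0 : ∀ y : G ⧸ P, (¬ ∃ x : G, ¬ p ∣ orderOf x ∧ (x : G ⧸ P) = y) → f y = 0 := fun y h => dif_neg h
  refine ⟨f, ?_, hf1, hf0⟩
  intro y c
  obtain ⟨g, rfl⟩ := QuotientGroup.mk_surjective c
  by_cases h : ∃ x : G, ¬ p ∣ orderOf x ∧ (x : G ⧸ P) = y
  · obtain ⟨x, hx, rfl⟩ := h
    have h1 : (g : G ⧸ P) * (x : G ⧸ P) * (g : G ⧸ P)⁻¹ = ((g * x * g⁻¹ : G) : G ⧸ P) := rfl
    rw [h1, hf1 _ (by rw [orderOf_conj4]; exact hx), hf1 x hx]
    exact hψ x g
  · rw [hf0 _ h, hf0]
    rintro ⟨x, hx, hx'⟩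
    apply h
    refine ⟨g⁻¹ * x * g⁻¹⁻¹, by rw [orderOf_conj4]; exact hx, ?_⟩
    have h1 : ((g⁻¹ * x * g⁻¹⁻¹ : G) : G ⧸ P) = (g : G ⧸ P)⁻¹ * (x : G ⧸ P) * (g : G ⧸ P)⁻¹⁻¹ := rfl
    rw [h1, hx']
    group

section pstep

variable {Z P : Subgroup G} [hZn : Z.Normal] [hPn : P.Normal]

def zb (Z P : Subgroup G) [P.Normal] : Z →* (G ⧸ P) := (QuotientGroup.mk' P).comp Z.subtype

theorem zb_injective (hpZ : ¬ p ∣ Nat.card Z) (hP : IsPGroup p P) : Function.Injective (zb Z P) := by
  rw [injective_iff_map_eq_one]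
  intro z hz
  have h1 : (z : G) ∈ P := (QuotientGroup.eq_one_iff _).1 hz
  obtain ⟨n, hn⟩ := hP ⟨_, h1⟩
  have hn' : z ^ p ^ n = 1 := by
    have h := congrArg (fun x : P => (x : G)) hn
    apply Subtype.ext
    exact h
  have h2 : orderOf z = 1 := by
    refine Nat.eq_one_of_dvd_coprimes ?_ (orderOf_dvd_of_pow_eq_one hn') (orderOf_dvd_natCard z)
    exact Nat.Coprime.pow_left _ ((Nat.Prime.coprime_iff_not_dvd hp.out).2 hpZ)
  exact orderOf_eq_one_iff.1 h2

theorem zb_range_center (hZ : Z ≤ Subgroup.center G) : (zb Z P).range ≤ Subgroup.center _ := by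
  rintro _ ⟨z, rfl⟩
  rw [Subgroup.mem_center_iff]
  intro y
  obtain ⟨y, rfl⟩ := QuotientGroup.mk_surjective y
  have h1 := Subgroup.mem_center_iff.1 (hZ z.2) y
  show ((y * (z : G) : G) : G ⧸ P) = ((z : G) * y : G)
  rw [h1]

instance zb_range_normal : (zb Z P).range.Normal := by
  have : (zb Z P).range = Z.map (QuotientGroup.mk' P) := by
    unfold zb
    rw [MonoidHom.range_comp, Subgroup.range_subtype]
  rw [this]
  exact hZn.map _ (QuotientGroup.mk'_surjective P)

theorem pgroup_step (hG : IsPSolvable p G) (hZ : Z ≤ Subgroup.center G) (hP : IsPGroup p P)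
    (hpZ : ¬ p ∣ Nat.card Z) {lam : Z → ℂ} (hlam : IsIrrCharacter Z lam) (hlam1 : lam 1 = 1)
    (e : Z ≃* (zb Z P).range) (he : ∀ z, ((e z : (zb Z P).range) : G ⧸ P) = ((z : G) : G ⧸ P))
    (D : FS p (zb Z P).range (fun x => lam (e.symm x))) : Nonempty (FS p Z lam) := by
  have hlamb : IsIrrCharacter (zb Z P).range (fun x => lam (e.symm x)) :=
    hlam.comp_surjective e.symm.toMonoidHom e.symm.surjective
  let q : G →* G ⧸ P := QuotientGroup.mk' P
  have hq : Function.Surjective q := QuotientGroup.mk'_surjective _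
  have hcjZ : ∀ (g : G) (ζ : Z → ℂ), cj Z g ζ = ζ := by
    intro g ζ
    funext x
    rw [cj_apply]
    refine congrArg ζ (Subtype.ext ?_)
    show g * (x : G) * g⁻¹ = x
    have := Subgroup.mem_center_iff.1 (hZ x.2) g
    rw [this, mul_inv_cancel_right]
  have hcjb : ∀ (g : G ⧸ P) (ζ : (zb Z P).range → ℂ), cj (zb Z P).range g ζ = ζ := by
    intro g ζ
    funext x
    rw [cj_apply]
    refine congrArg ζ (Subtype.ext ?_)
    show g * (x : G ⧸ P) * g⁻¹ = x
    have := Subgroup.mem_center_iff.1 (zb_range_center hZ x.2) g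
    rw [this, mul_inv_cancel_right]
  -- transport of inner products
  have htr : ∀ (a : (zb Z P).range → ℂ) (ζ : Z → ℂ),
      classInner (fun z : Z => a (e z)) ζ = classInner a (fun x => ζ (e.symm x)) := by
    intro a ζ
    rw [← classInner_comp_equiv e]
    congr 1
    funext z
    rw [MulEquiv.symm_apply_apply]
  -- complements
  have hK : ∀ i, ∃ K : Subgroup G, K.map q = D.K i ∧ ¬ p ∣ Nat.card K := by
    intro i
    let L : Subgroup G := (D.K i).comap q
    have hPL : P ≤ L := by
      intro x hx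
      show q x ∈ D.K i
      have : q x = 1 := (QuotientGroup.eq_one_iff _).2 hx
      rw [this]; exact one_mem _
    have hcard : Nat.card (P.subgroupOf L) = Nat.card P :=
      Nat.card_congr (Subgroup.subgroupOfEquivOfLe hPL).toEquiv
    have hidx : (P.subgroupOf L).index = Nat.card (D.K i) := by
      have h1 := Subgroup.relIndex_ker (K := L) q
      rw [QuotientGroup.ker_mk'] at h1
      show P.relIndex L = _
      rw [h1]
      have h2 : L.map q = D.K i := Subgroup.map_comap_eq_self_of_surjective hq _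
      rw [h2]
    obtain ⟨n, hn⟩ := IsPGroup.iff_card.1 hP
    have hcop : Nat.Coprime (Nat.card (P.subgroupOf L)) (P.subgroupOf L).index := by
      rw [hcard, hidx, hn]
      exact Nat.Coprime.pow_left _ ((Nat.Prime.coprime_iff_not_dvd hp.out).2 (D.Kp i))
    obtain ⟨H, hH⟩ := Subgroup.exists_right_complement'_of_coprime hcop
    refine ⟨H.map L.subtype, ?_, ?_⟩
    · apply le_antisymm
      · rintro _ ⟨_, ⟨x, hx, rfl⟩, rfl⟩
        exact x.2
      · intro y hy
        obtain ⟨x, rfl⟩ := hq y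
        have hxL : x ∈ L := hy
        obtain ⟨⟨⟨a, ha⟩, ⟨b, hb⟩⟩, hab⟩ := hH.2 ⟨x, hxL⟩
        refine ⟨(b : G), ⟨b, hb, rfl⟩, ?_⟩
        have h4 : x = (a : G) * (b : G) := (congrArg Subtype.val hab).symm
        have h5 : q (a : G) = 1 := (QuotientGroup.eq_one_iff _).2 (Subgroup.mem_subgroupOf.1 ha)
        rw [h4, map_mul, h5, one_mul]
    · have h3 := hH.card_mul
      have h4 := (P.subgroupOf L).card_mul_index
      have h5 : Nat.card H = Nat.card (D.K i) := by
        rw [← hidx]
        have h6 : Nat.card (P.subgroupOf L) * Nat.card H = Nat.card (P.subgroupOf L) * (P.subgroupOf L).index := by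
          rw [h3, h4]
        exact Nat.eq_of_mul_eq_mul_left Nat.card_pos h6
      rw [Nat.card_congr (H.equivMapOfInjective L.subtype Subtype.coe_injective).symm.toEquiv, h5]
      exact D.Kp i
  choose K hKmap hKp using hK
  have hqK : ∀ i (k : K i), q k ∈ D.K i := fun i k => by
    rw [← hKmap i]; exact Subgroup.mem_map_of_mem q k.2
  let f : ∀ i, K i →* D.K i := fun i =>
    { toFun := fun k => ⟨q k, hqK i k⟩
      map_one' := Subtype.ext (map_one q)
      map_mul' := fun a b => Subtype.ext (map_mul q (a : G) (b : G)) }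
  have hf : ∀ i, Function.Surjective (f i) := by
    rintro i ⟨y, hy⟩
    rw [← hKmap i] at hy
    obtain ⟨k, hk, rfl⟩ := hy
    exact ⟨⟨k, hk⟩, rfl⟩
  have hZK : ∀ i, Z ≤ K i := by
    intro i z hz
    have h1 : q z ∈ D.K i := D.NK i ⟨⟨z, hz⟩, rfl⟩
    rw [← hKmap i] at h1
    obtain ⟨k, hk, hkz⟩ := h1
    have h2 : k⁻¹ * z ∈ P := QuotientGroup.eq.1 hkz
    have hcomm : Commute k⁻¹ z := Subgroup.mem_center_iff.1 (hZ hz) k⁻¹
    obtain ⟨n, hn⟩ := hP ⟨_, h2⟩
    have hn' : (k⁻¹ * z) ^ p ^ n = 1 := congrArg Subtype.val hn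
    have h3 : (k⁻¹ * z) ^ (Nat.card (K i) * Nat.card Z) = 1 := by
      rw [hcomm.mul_pow]
      have h4 : k⁻¹ ^ Nat.card (K i) = 1 := by
        have := pow_card_eq_one' (G := K i) (x := ⟨k⁻¹, inv_mem hk⟩)
        exact congrArg Subtype.val this
      have h5 : z ^ Nat.card Z = 1 := by
        have := pow_card_eq_one' (G := Z) (x := ⟨z, hz⟩)
        exact congrArg Subtype.val this
      rw [pow_mul, h4, one_pow, one_mul, mul_comm, pow_mul, h5, one_pow]
    have h6 : orderOf (k⁻¹ * z) = 1 := by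
      refine Nat.eq_one_of_dvd_coprimes ?_ (orderOf_dvd_of_pow_eq_one hn') (orderOf_dvd_of_pow_eq_one h3)
      apply Nat.Coprime.pow_left
      exact Nat.Coprime.mul_right ((Nat.Prime.coprime_iff_not_dvd hp.out).2 (hKp i))
        ((Nat.Prime.coprime_iff_not_dvd hp.out).2 hpZ)
    rw [orderOf_eq_one_iff] at h6
    have h7 : z = k := by
      rw [← mul_right_inj k⁻¹, h6, inv_mul_cancel]
    rw [h7]; exact hk
  have hdual : ∀ i j, classInner (fun k : K i => D.χ j (q k)) (fun k : K i => D.α i (f i k)) =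
      classInner (fun k : D.K i => D.χ j k) (D.α i) := fun i j =>
    PF9.classInner_comp_hom (hf i) (fun k : D.K i => D.χ j k) (D.α i)
  refine ⟨{ I := D.I
            fin := inferInstance
            χ := fun i x => D.χ i (q x)
            K := K
            α := fun i k => D.α i (f i k)
            irr := fun i => (D.irr i).comp_surjective q hq
            ov := ?_
            NK := hZK
            Kp := hKp
            αc := fun i => (D.αc i).comp (f i)
            αN := ?_
            dual_self := fun i => by rw [hdual]; exact D.dual_self i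
            dual_ne := fun i j h => by rw [hdual]; exact D.dual_ne i j h
            span := ?_ }⟩
  · intro i
    have h1 := htr (fun x => D.χ i x) lam
    have h2 : (fun z : Z => D.χ i ((e z : (zb Z P).range) : G ⧸ P)) = fun z : Z => D.χ i (q z) := by
      funext z
      rw [he]
      rfl
    rw [h2] at h1
    rw [h1]
    exact D.ov i
  · intro i ζ hζ h1
    refine ⟨1, ?_⟩
    rw [hcjZ]
    have h2 : resTo Z (K i) (hZK i) (fun k => D.α i (f i k)) =
        fun z : Z => resTo (zb Z P).range (D.K i) (D.NK i) (D.α i) (e z) := by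
      funext z
      refine congrArg (D.α i) (Subtype.ext ?_)
      exact (he z).symm
    rw [h2, htr] at h1
    have hζ' : IsIrrCharacter (zb Z P).range (fun x => ζ (e.symm x)) :=
      hζ.comp_surjective e.symm.toMonoidHom e.symm.surjective
    obtain ⟨g, hg⟩ := D.αN i _ hζ' h1
    rw [hcjb] at hg
    funext z
    have h3 := congrFun hg (e z)
    simp only [MulEquiv.symm_apply_apply] at h3
    exact h3
  · intro ψ hψ h1
    -- `ψ (z x) = lam z * ψ x`
    have hψz : ∀ (z : Z) (x : G), ψ (z * x) = lam z * ψ x := by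
      intro z x
      obtain ⟨w, -, hw⟩ := central_mul hψ (hZ z.2)
      have h2 := res_eq_smul_of_invariant hψ hlam (fun g => hcjZ g lam) h1
      have h3 := congrFun h2 z
      have h4 := congrFun h2 1
      simp only [Pi.smul_apply, smul_eq_mul, hlam1, mul_one] at h3 h4
      have h5 : ψ z = ψ 1 * lam z := by
        rw [h3, ← h4]; rfl
      have h6 := hw 1
      rw [mul_one, h5] at h6
      have h7 : w = lam z := by
        apply mul_right_cancel₀ hψ.one_ne_zero
        rw [← h6]; ring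
      rw [hw, h7]
    obtain ⟨F, hF, hF1, hF0⟩ := exists_descend hG hP hψ.isClassFunction
    have hFz : ∀ (z : Z) (y : G ⧸ P), F (q z * y) = lam z * F y := by
      intro z y
      have hreg : ∀ (z : Z) (x : G), ¬ p ∣ orderOf x → ¬ p ∣ orderOf ((z : G) * x) := by
        intro z x hx h
        have hcomm : Commute (z : G) x := (Subgroup.mem_center_iff.1 (hZ z.2) x).symm
        have h2 : orderOf ((z : G) * x) ∣ orderOf (z : G) * orderOf x := hcomm.orderOf_mul_dvd_mul_orderOf
        have h3 := h.trans h2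
        rw [hp.out.dvd_mul] at h3
        rcases h3 with h3 | h3
        · rw [Subgroup.orderOf_coe] at h3
          exact hpZ (h3.trans (orderOf_dvd_natCard z))
        · exact hx h3
      by_cases h : ∃ x : G, ¬ p ∣ orderOf x ∧ (x : G ⧸ P) = y
      · obtain ⟨x, hx, rfl⟩ := h
        have h2 : q z * (x : G ⧸ P) = (((z : G) * x : G) : G ⧸ P) := rfl
        rw [h2, hF1 _ (hreg z x hx), hF1 x hx, hψz]
      · rw [hF0 y h, mul_zero]
        apply hF0
        rintro ⟨x, hx, hx'⟩
        apply h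
        refine ⟨((z⁻¹ : Z) : G) * x, hreg z⁻¹ x hx, ?_⟩
        have h2 : ((((z⁻¹ : Z) : G) * x : G) : G ⧸ P) = (q z)⁻¹ * (x : G ⧸ P) := rfl
        rw [h2, hx', inv_mul_cancel_left]
    -- expansion of `F`
    have hFσ : ∀ σ : IrrCharacter (G ⧸ P), classInner F (σ : G ⧸ P → ℂ) ≠ 0 →
        classInner (fun x : (zb Z P).range => (σ : G ⧸ P → ℂ) x) (fun x => lam (e.symm x)) ≠ 0 := by
      intro σ hσ
      have h2 : ∀ z : Z, (σ : G ⧸ P → ℂ) (q z) = (σ : G ⧸ P → ℂ) 1 * lam z := by
        intro z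
        obtain ⟨w, hw1, hw⟩ := central_mul σ.2 (zb_range_center hZ (P := P) ⟨z, rfl⟩)
        have h3 : classInner F (σ : G ⧸ P → ℂ) = lam z * conj w * classInner F (σ : G ⧸ P → ℂ) := by
          conv_lhs => rw [classInner_def]
          rw [classInner_def, mul_left_comm]
          congr 1
          rw [Finset.mul_sum]
          refine (Fintype.sum_equiv (Equiv.mulLeft (q z)) _ _ ?_).symm
          intro y
          show lam z * conj w * (F y * conj ((σ : G ⧸ P → ℂ) y)) = F (q z * y) * conj ((σ : G ⧸ P → ℂ) (q z * y))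
          have h4 : (σ : G ⧸ P → ℂ) (q z * y) = w * (σ : G ⧸ P → ℂ) y := hw y
          rw [hFz, h4, map_mul]; ring
        have h4 : lam z * conj w = 1 := by
          apply mul_right_cancel₀ hσ
          rw [← h3, one_mul]
        have h5 : lam z = w := by
          calc lam z = lam z * (w * conj w) := by rw [hw1, mul_one]
            _ = (lam z * conj w) * w := by ring
            _ = w := by rw [h4, one_mul]
        have h6 := hw 1
        rw [mul_one] at h6
        show (σ : G ⧸ P → ℂ) (zb Z P z) = _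
        rw [h6, h5]; ring
      have h3 : (fun x : (zb Z P).range => (σ : G ⧸ P → ℂ) x) =
          (σ : G ⧸ P → ℂ) 1 • fun x : (zb Z P).range => lam (e.symm x) := by
        funext x
        obtain ⟨z, rfl⟩ := e.surjective x
        show (σ : G ⧸ P → ℂ) ((e z : (zb Z P).range) : G ⧸ P) = (σ : G ⧸ P → ℂ) 1 * lam (e.symm (e z))
        rw [MulEquiv.symm_apply_apply, he]
        exact h2 z
      rw [h3, classInner_smul_left, hlamb.classInner_self, mul_one]
      exact σ.2.one_ne_zero
    have hspan : ∀ σ : IrrCharacter (G ⧸ P), ∃ c : D.I → ℂ, classInner F (σ : G ⧸ P → ℂ) ≠ 0 →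
        ∀ x : G ⧸ P, ¬ p ∣ orderOf x → (σ : G ⧸ P → ℂ) x = ∑ i, c i * D.χ i x := by
      intro σ
      by_cases h : classInner F (σ : G ⧸ P → ℂ) = 0
      · exact ⟨0, fun h' => absurd h h'⟩
      · obtain ⟨c, hc⟩ := D.span σ σ.2 (hFσ σ h)
        exact ⟨c, fun _ => hc⟩
    choose c hc using hspan
    refine ⟨fun i => ∑ σ : IrrCharacter (G ⧸ P), classInner F (σ : G ⧸ P → ℂ) * c σ i, fun x hx => ?_⟩
    have hx' : ¬ p ∣ orderOf (x : G ⧸ P) := fun h => hx (h.trans (orderOf_map_dvd (QuotientGroup.mk' P) x))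
    rw [← hF1 x hx]
    have h2 := congrFun hF.expansion (x : G ⧸ P)
    simp only [Finset.sum_apply, Pi.smul_apply, smul_eq_mul] at h2
    rw [h2]
    have h3 : ∀ σ : IrrCharacter (G ⧸ P), classInner F (σ : G ⧸ P → ℂ) * (σ : G ⧸ P → ℂ) (x : G ⧸ P) =
        ∑ i, classInner F (σ : G ⧸ P → ℂ) * c σ i * D.χ i (x : G ⧸ P) := by
      intro σ
      by_cases h : classInner F (σ : G ⧸ P → ℂ) = 0
      · rw [h]; simp
      · rw [hc σ h _ hx', Finset.mul_sum]
        refine Finset.sum_congr rfl fun i _ => by ring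
    calc _ = ∑ σ : IrrCharacter (G ⧸ P), ∑ i, classInner F (σ : G ⧸ P → ℂ) * c σ i * D.χ i (x : G ⧸ P) := by
            refine Finset.sum_congr rfl fun σ _ => h3 σ
      _ = _ := by
            rw [Finset.sum_comm]
            refine Finset.sum_congr rfl fun i _ => ?_
            rw [Finset.sum_mul]
            rfl

end pstep

end Cfsg.Agent.Lib.FongSwan
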