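import Cfsg.Agent.Lib.FongSwan4

/-!
# Fong-Swan, part 5: the main theorem (helper74)
-/

set_option autoImplicit false
set_option linter.all false

namespace Cfsg.Agent.Lib.FongSwan

open scoped ComplexConjugate
open Cfsg Cfsg.Agent.Lib.CharBasic Cfsg.Agent.Lib.Clifford Cfsg.Agent.Lib.CliffordCorr
open Cfsg.Agent.Lib.CanonExt Cfsg.Agent.Lib.IndStages Cfsg.Agent.Lib.CharTriple

universe u

attribute [local instance 5000] Fintype.ofFinite
attribute [local instance] Triple.j_norm

variable {p : ℕ} [hp : Fact p.Prime]

/-- the statement for normal subgroups of index `m` -/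
def Stm (p : ℕ) (m : ℕ) : Prop :=
  ∀ (G : Type u) [Group G] [Finite G], IsPSolvable p G → ∀ (N : Subgroup G) [N.Normal],
    ¬ p ∣ Nat.card N → N.index = m → ∀ θ : N → ℂ, IsIrrCharacter N θ → Nonempty (FS p N θ)

theorem card_mul_relIndex5 {G : Type*} [Group G] {H K : Subgroup G} (h : H ≤ K) :
    Nat.card H * H.relIndex K = Nat.card K := card_mul_relIndex' h

theorem central_case {n : ℕ} (IH : ∀ m < n, Stm.{u} p m) {Y : Type u} [Group Y] [Finite Y]
    (hY : IsPSolvable p Y) {Z : Subgroup Y} [hZn : Z.Normal] (hZ : Z ≤ Subgroup.center Y)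
    (hpZ : ¬ p ∣ Nat.card Z) (hidx : Z.index = n) (hne : Z ≠ ⊤) {lam : Z → ℂ}
    (hlam : IsIrrCharacter Z lam) (hlam1 : lam 1 = 1) : Nonempty (FS p Z lam) := by
  obtain ⟨M, hMn, hZM, hM⟩ := PSolvTools.exists_step hY Z hne
  have hrel1 : Z.relIndex M * M.index = Z.index := Subgroup.relIndex_mul_index hZM.le
  have hrel2 : 1 < Z.relIndex M := by
    have h1 : Z.relIndex M ≠ 1 := fun h => hZM.not_ge (Subgroup.relIndex_eq_one.1 h)
    have h2 : Z.relIndex M ≠ 0 := by
      have : (Z.subgroupOf M).index ≠ 0 := Subgroup.index_ne_zero_of_finite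
      exact this
    omega
  have hMi : 0 < M.index := Nat.pos_of_ne_zero Subgroup.index_ne_zero_of_finite
  have hcardM : Nat.card Z * Z.relIndex M = Nat.card M := card_mul_relIndex5 hZM.le
  rcases hM with ⟨k, hk⟩ | hco
  · -- `M = Z × P`
    obtain ⟨j, hj, hj'⟩ := (Nat.dvd_prime_pow hp.out).1 hk
    have hj0 : j ≠ 0 := by
      rintro rfl
      rw [hj', pow_zero] at hrel2
      exact lt_irrefl _ hrel2
    let S : Sylow p M := default
    have hScard : Nat.card S = p ^ j := by
      rw [S.card_eq_multiplicity, ← hcardM, hj']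
      congr 1
      rw [Nat.factorization_mul Nat.card_pos.ne' (pow_ne_zero _ hp.out.ne_zero), Nat.factorization_pow]
      simp only [Finsupp.coe_add, Pi.add_apply, Finsupp.coe_smul, Pi.smul_apply, smul_eq_mul]
      rw [Nat.factorization_eq_zero_of_not_dvd hpZ, hp.out.factorization_self, zero_add, mul_one]
    have hsup : (Z.subgroupOf M) ⊔ (S : Subgroup M) = ⊤ := by
      rw [← Subgroup.index_eq_one]
      have h1 : ((Z.subgroupOf M) ⊔ (S : Subgroup M)).index ∣ p ^ j := by
        have h2 : ((Z.subgroupOf M) ⊔ (S : Subgroup M)).index ∣ (Z.subgroupOf M).index :=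
          Subgroup.index_dvd_of_le le_sup_left
        have h3 : (Z.subgroupOf M).index = p ^ j := hj'
        rwa [h3] at h2
      have h2 : ((Z.subgroupOf M) ⊔ (S : Subgroup M)).index ∣ Nat.card Z := by
        have h3 : ((Z.subgroupOf M) ⊔ (S : Subgroup M)).index ∣ (S : Subgroup M).index :=
          Subgroup.index_dvd_of_le le_sup_right
        have h4 : (S : Subgroup M).index = Nat.card Z := by
          have h5 := (S : Subgroup M).card_mul_index
          rw [hScard, ← hcardM, hj', mul_comm (Nat.card Z)] at h5
          exact Nat.eq_of_mul_eq_mul_left (pow_pos hp.out.pos _) h5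
        rwa [h4] at h3
      refine Nat.eq_one_of_dvd_coprimes ?_ h1 h2
      exact Nat.Coprime.pow_left _ ((Nat.Prime.coprime_iff_not_dvd hp.out).2 hpZ)
    have hSn : (S : Subgroup M).Normal := by
      rw [← Subgroup.normalizer_eq_top_iff, eq_top_iff, ← hsup]
      refine sup_le ?_ Subgroup.le_normalizer
      intro z hz
      have hz' : (z : Y) ∈ Z := Subgroup.mem_subgroupOf.1 hz
      rw [Subgroup.mem_normalizer_iff]
      intro x
      have h1 : z * x * z⁻¹ = x := by
        apply Subtype.ext
        show (z : Y) * x * (z : Y)⁻¹ = x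
        have := Subgroup.mem_center_iff.1 (hZ hz') (x : Y)
        rw [← this, mul_inv_cancel_right]
      rw [h1]
    have hSc : (S : Subgroup M).Characteristic := S.characteristic_of_normal hSn
    obtain ⟨P, hPdef⟩ : ∃ P : Subgroup Y, P = (S : Subgroup M).map M.subtype := ⟨_, rfl⟩
    have hPn : P.Normal := by
      rw [hPdef]
      exact ConjAct.normal_of_characteristic_of_normal
    have hP : IsPGroup p P := by
      rw [hPdef]; exact S.isPGroup'.map _
    have hPcard : Nat.card P = p ^ j := by
      rw [hPdef, ← hScard]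
      exact Nat.card_congr ((S : Subgroup M).equivMapOfInjective M.subtype Subtype.coe_injective).symm.toEquiv
    have hP1 : 1 < Nat.card P := by
      rw [hPcard]; exact Nat.one_lt_pow hj0 hp.out.one_lt
    let e : Z ≃* (zb Z P).range := MonoidHom.ofInjective (zb_injective hpZ hP)
    have he : ∀ z, ((e z : (zb Z P).range) : Y ⧸ P) = ((z : Y) : Y ⧸ P) := fun z => rfl
    have hcardb : Nat.card (zb Z P).range = Nat.card Z := (Nat.card_congr e.toEquiv).symm
    have hlt : (zb Z P).range.index < n := by
      have h1 := (zb Z P).range.card_mul_index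
      have h2 := P.card_mul_index
      have h3 : Nat.card (Y ⧸ P) = P.index := rfl
      have h4 := Z.card_mul_index
      rw [h3, hcardb] at h1
      rw [← h1, ← h4, mul_left_comm] at h2
      have h5 := Nat.eq_of_mul_eq_mul_left Nat.card_pos h2
      have h6 : 0 < (zb Z P).range.index := Nat.pos_of_ne_zero Subgroup.index_ne_zero_of_finite
      rw [← hidx, ← h5]
      calc (zb Z P).range.index = 1 * (zb Z P).range.index := (one_mul _).symm
        _ < Nat.card P * (zb Z P).range.index := Nat.mul_lt_mul_of_pos_right hP1 h6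
    obtain ⟨D⟩ := IH _ hlt (Y ⧸ P) (H32PSolv.isPSolvable_quotient hY P) (zb Z P).range (by rw [hcardb]; exact hpZ) rfl
      (fun x => lam (e.symm x)) (hlam.comp_surjective e.symm.toMonoidHom e.symm.surjective)
    exact pgroup_step hY hZ hP hpZ hlam hlam1 e he D
  · -- `M` is a `p'`-group
    have hMp : ¬ p ∣ Nat.card M := by
      rw [← hcardM, hp.out.dvd_mul]
      rintro (h | h)
      · exact hpZ h
      · exact hp.out.one_lt.ne' (Nat.dvd_one.1 (hco ▸ Nat.dvd_gcd h dvd_rfl))
    have hlt : M.index < n := by
      rw [← hidx, ← hrel1]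
      calc M.index = 1 * M.index := (one_mul _).symm
        _ < Z.relIndex M * M.index := Nat.mul_lt_mul_of_pos_right hrel2 hMi
    exact orbits hZM.le hZ hlam (fun θ _ => IH _ hlt Y hY M hMp rfl θ θ.2)

theorem stm : ∀ n : ℕ, Stm.{u} p n := by
  intro n
  induction n using Nat.strong_induction_on with
  | _ n IH =>
    intro G _ _ hG N hN hpN hidx θ hθ
    by_cases htop : N = ⊤
    · exact base htop hpN hθ
    by_cases hinv : ∀ g : G, cj N g θ = θ
    · obtain ⟨t, ht⟩ := exists_triple_pprime hpN hθ hinv
      refine (?_ : Nonempty (FS p (zq t).range (lamZ t))).elim fun D => triple_step hθ t hpN ht D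
      have hjinj : Function.Injective t.j := by
        intro a b hab
        have := congrArg t.π hab
        rw [t.π_j, t.π_j] at this
        exact Subtype.ext this
      have hker : (Nat.card t.π.ker).Coprime p := ((Nat.Prime.coprime_iff_not_dvd hp.out).2 ht).symm
      have hY : IsPSolvable p t.Y := by
        refine ClassProdPS.isPSolvable_of_quotient t.π.ker (Or.inr hker) ?_
        exact H32PSolv.isPSolvable_map hG (QuotientGroup.quotientKerEquivOfSurjective t.π t.π_surj).symm.toMonoidHom
          (QuotientGroup.quotientKerEquivOfSurjective t.π t.π_surj).symm.surjective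
      have hY1 : IsPSolvable p (t.Y ⧸ t.j.range) := H32PSolv.isPSolvable_quotient hY _
      have hcard : Nat.card (zq t).range = Nat.card t.π.ker := (Nat.card_congr (eZ t).toEquiv).symm
      have hcardj : Nat.card t.j.range = Nat.card N := (Nat.card_congr (MonoidHom.ofInjective hjinj).toEquiv).symm
      have hindex : (zq t).range.index = n := by
        have h1 := (zq t).range.card_mul_index
        have h2 := t.j.range.card_mul_index
        have h3 : Nat.card (t.Y ⧸ t.j.range) = t.j.range.index := rfl
        have h4 := t.π.ker.card_mul_index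
        rw [Subgroup.index_ker, t.π.range_eq_top.mpr t.π_surj, Subgroup.card_top] at h4
        have h5 := N.card_mul_index
        rw [h3, hcard] at h1
        rw [hcardj, ← h1, ← h4, ← h5] at h2
        have h6 : Nat.card N * (Nat.card t.π.ker * (zq t).range.index) =
            Nat.card N * (Nat.card t.π.ker * N.index) := by rw [h2]; ring
        have h7 := Nat.eq_of_mul_eq_mul_left Nat.card_pos h6
        have h8 := Nat.eq_of_mul_eq_mul_left Nat.card_pos h7
        rw [h8, hidx]
      refine central_case IH hY1 (range_le_center t) (by rw [hcard]; exact ht) hindex ?_ (lamZ_irr t) (lamZ_one t)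
      intro h
      rw [h, Subgroup.index_top] at hindex
      apply htop
      rw [← Subgroup.index_eq_one, hidx, ← hindex]
    · have hNT : N ≤ inertia N θ := le_inertia hθ.isClassFunction
      have hTne : inertia N θ ≠ ⊤ := by
        intro h
        apply hinv
        intro g
        have : g ∈ inertia N θ := by rw [h]; trivial
        exact mem_inertia.1 this
      have hT : ∀ g : G, g ∈ inertia N θ ↔ cj N g θ = θ := fun g => mem_inertia
      have h1 : N.relIndex (inertia N θ) * (inertia N θ).index = N.index := Subgroup.relIndex_mul_index hNT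
      have h2 : 1 < (inertia N θ).index := by
        have h3 : (inertia N θ).index ≠ 1 := fun h => hTne (Subgroup.index_eq_one.1 h)
        have h4 : (inertia N θ).index ≠ 0 := Subgroup.index_ne_zero_of_finite
        omega
      have h3 : 0 < N.relIndex (inertia N θ) := Nat.pos_of_ne_zero (by
        have : (N.subgroupOf (inertia N θ)).index ≠ 0 := Subgroup.index_ne_zero_of_finite
        exact this)
      have hlt : (N.subgroupOf (inertia N θ)).index < n := by
        rw [← hidx, ← h1]
        calc (N.subgroupOf (inertia N θ)).index = N.relIndex (inertia N θ) * 1 := (mul_one _).symm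
          _ < N.relIndex (inertia N θ) * (inertia N θ).index := Nat.mul_lt_mul_of_pos_left h2 h3
      have hcardN : Nat.card (N.subgroupOf (inertia N θ)) = Nat.card N :=
        Nat.card_congr (Subgroup.subgroupOfEquivOfLe hNT).toEquiv
      obtain ⟨D⟩ := IH _ hlt (inertia N θ) (H32PSolv.isPSolvable_subgroup hG _) (N.subgroupOf (inertia N θ))
        (by rw [hcardN]; exact hpN) rfl (fun x => θ (subEquiv N (inertia N θ) hNT x))
        ((isIrrCharacter_comp_mulEquiv_iff (subEquiv N _ hNT)).mpr hθ)
      exact clifford_step hNT hθ hT D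

/-- Fong-Swan: there are irreducible characters `χ i` of the `p`-solvable group `G` and characters `Φ i` vanishing
on the `p`-singular elements, dual to each other, such that `ψ = ∑ (ψ, Φ i) χ i` on `p`-regular elements for all
irreducible `ψ`. -/
theorem fong_swan {G : Type u} [Group G] [Finite G] (hG : IsPSolvable p G) :
    ∃ (I : Type u) (_ : Finite I) (χ Φ : I → G → ℂ),
      (∀ i, IsIrrCharacter G (χ i)) ∧ (∀ i, IsCharacter G (Φ i)) ∧
      (∀ i x, p ∣ orderOf x → Φ i x = 0) ∧
      (∀ i, classInner (χ i) (Φ i) = 1) ∧ (∀ i j, i ≠ j → classInner (χ j) (Φ i) = 0) ∧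
      ∀ ψ, IsIrrCharacter G ψ → ∀ x, ¬ p ∣ orderOf x → ψ x = ∑ i, classInner ψ (Φ i) * χ i x := by
  have hθ : IsIrrCharacter (⊥ : Subgroup G) (1 : (⊥ : Subgroup G) → ℂ) := isIrrCharacter_one
  obtain ⟨D⟩ := stm _ G hG ⊥ (by
    rw [Subgroup.card_bot]; exact fun h => hp.out.one_lt.ne' (Nat.dvd_one.1 h)) rfl 1 hθ
  have hfr : ∀ i (ψ : G → ℂ), IsClassFunction G ψ →
      classInner ψ (indFun (D.K i) (D.α i)) = classInner (fun k : D.K i => ψ k) (D.α i) := fun i ψ hψ =>
    IndFun.frobenius_reciprocity' (D.K i) (D.α i) ψ hψ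
  have hov : ∀ ψ : G → ℂ, IsIrrCharacter G ψ → classInner (fun n : (⊥ : Subgroup G) => ψ n) 1 ≠ 0 := by
    intro ψ hψ
    have h1 : (fun n : (⊥ : Subgroup G) => ψ n) = (ψ 1) • (1 : (⊥ : Subgroup G) → ℂ) := by
      funext n
      have : n = 1 := Subsingleton.elim _ _
      rw [this]
      simp
    rw [h1, classInner_smul_left, hθ.classInner_self, mul_one]
    exact hψ.one_ne_zero
  refine ⟨D.I, inferInstance, D.χ, fun i => indFun (D.K i) (D.α i), D.irr,
    fun i => isCharacter_indFun _ (D.αc i), ?_, ?_, ?_, ?_⟩
  · intro i x hx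
    apply IndFun.indFun_eq_zero
    intro y hy
    have h1 : orderOf (y⁻¹ * x * y) = orderOf x := by
      have := orderOf_conj4 y⁻¹ x
      rwa [inv_inv] at this
    have h2 : orderOf (y⁻¹ * x * y) ∣ Nat.card (D.K i) := by
      have := orderOf_dvd_natCard (⟨_, hy⟩ : D.K i)
      rwa [Subgroup.orderOf_mk] at this
    rw [h1] at h2
    exact D.Kp i (hx.trans h2)
  · intro i
    rw [hfr i _ (D.irr i).isClassFunction]; exact D.dual_self i
  · intro i j h
    rw [hfr i _ (D.irr j).isClassFunction]; exact D.dual_ne i j h
  · intro ψ hψ x hx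
    obtain ⟨c, hc⟩ := D.span ψ hψ (hov ψ hψ)
    have h1 : ∀ i, classInner ψ (indFun (D.K i) (D.α i)) = c i := by
      intro i
      rw [hfr i _ hψ.isClassFunction]
      have h2 : (fun k : D.K i => ψ k) = ∑ j, c j • fun k : D.K i => D.χ j k := by
        funext k
        have h3 : ¬ p ∣ orderOf (k : G) := by
          intro h
          rw [Subgroup.orderOf_coe] at h
          exact D.Kp i (h.trans (orderOf_dvd_natCard k))
        simp only [Finset.sum_apply, Pi.smul_apply, smul_eq_mul]
        exact hc k h3
      rw [h2, classInner_sum_left, Finset.sum_eq_single i]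
      · rw [classInner_smul_left, D.dual_self, mul_one]
      · intro j _ hji
        rw [classInner_smul_left, D.dual_ne i j hji.symm, mul_zero]
      · intro h
        exact absurd (Finset.mem_univ _) h
    simp only [h1]
    exact hc x hx

end Cfsg.Agent.Lib.FongSwan
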