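import Cfsg.Agent.Lib.FongSwan5
import Cfsg.Agent.Lib.BlockIndep

/-!
# Kiyota-Okuyama: unions of blocks of `p`-solvable groups (helper74)
-/

set_option autoImplicit false
set_option linter.all false

namespace Cfsg.Agent.Lib.FongSwan6

open Cfsg Cfsg.Agent.Lib.BlockRing Cfsg.Agent.Lib.BlockGA Cfsg.Agent.Lib.BlockIdem
open Cfsg.Agent.Lib.BlockOsima Cfsg.Agent.Lib.CharBasic Cfsg.Agent.Lib.FongSwan
open scoped ComplexConjugate

universe u

attribute [local instance 5000] Fintype.ofFinite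

variable {G : Type u} [Group G] [Finite G] {p : ℕ} {M : Ideal AlgInt}

/-- Osima: a set of characters with `∑ χ(x) conj χ(y) = 0` for `x` `p`-regular, `y` `p`-singular has an integral
idempotent -/
theorem locA_of_orth (hM : IsPModular p M) {U : Set (IrrCharacter G)}
    (horth : ∀ x y : G, ¬ p ∣ orderOf x → p ∣ orderOf y →
      ∑ χ ∈ (Set.toFinite U).toFinset, (χ : G → ℂ) x * conj ((χ : G → ℂ) y) = 0) : LocA M (eB U) := by
  have := isPrime hM
  have : Fact p.Prime := ⟨hM.1⟩
  intro y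
  rw [coeff_eB]
  set S := (Set.toFinite U).toFinset with hS
  by_cases hy : p ∣ orderOf y
  · have h1 : ¬ p ∣ orderOf (1 : G) := by
      rw [orderOf_one]; exact fun h => hM.1.one_lt.ne' (Nat.dvd_one.1 h)
    rw [blockCoeff, finsum_mem_eq_finite_toFinset_sum _ (Set.toFinite _), horth 1 y h1 hy, mul_zero]
    exact loc_zero
  obtain ⟨P⟩ : Nonempty (Sylow p G) := inferInstance
  rw [blockCoeff, finsum_mem_eq_finite_toFinset_sum _ (Set.toFinite _)]
  have hcard : (Nat.card (P : Subgroup G) : ℂ) ≠ 0 := by exact_mod_cast Nat.card_pos.ne'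
  have horth : ∀ u : (P : Subgroup G), u ≠ 1 →
      ∑ χ ∈ S, (χ : G → ℂ) (u : G) * conj ((χ : G → ℂ) y) = 0 := by
    intro u hu
    have hpu : p ∣ orderOf (u : G) := by
      rw [Subgroup.orderOf_coe]
      obtain ⟨k, hk⟩ := P.isPGroup' u
      have h1 : orderOf u ∣ p ^ k := orderOf_dvd_of_pow_eq_one hk
      obtain ⟨j, -, hj⟩ := (Nat.dvd_prime_pow hM.1).mp h1
      rw [hj]
      rcases j with _ | j
      · exfalso
        apply hu
        rw [pow_zero] at hj
        exact orderOf_eq_one_iff.mp hj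
      · exact dvd_pow_self p (Nat.succ_ne_zero j)
    have h2 := horth y u hy hpu
    have h3 := congrArg (starRingEnd ℂ) h2
    rw [map_sum, map_zero] at h3
    rw [← h3]
    refine Finset.sum_congr rfl fun χ _ => ?_
    rw [map_mul, Complex.conj_conj, mul_comm]
  have key : ∑ χ ∈ S, (χ : G → ℂ) 1 * conj ((χ : G → ℂ) y) =
      (Nat.card (P : Subgroup G) : ℂ) * ∑ χ ∈ S, conj ((χ : G → ℂ) y) *
        classInner (fun u : (P : Subgroup G) => (χ : G → ℂ) u) 1 := by
    have h1 : ∀ χ ∈ S, conj ((χ : G → ℂ) y) *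
        classInner (fun u : (P : Subgroup G) => (χ : G → ℂ) u) 1 =
        (Nat.card (P : Subgroup G) : ℂ)⁻¹ *
          ∑ u : (P : Subgroup G), (χ : G → ℂ) u * conj ((χ : G → ℂ) y) := by
      intro χ _
      rw [classInner, mul_left_comm, Finset.mul_sum]
      congr 1
      refine Finset.sum_congr rfl fun u _ => ?_
      simp [mul_comm]
    rw [Finset.sum_congr rfl h1, ← Finset.mul_sum, ← mul_assoc, mul_inv_cancel₀ hcard, one_mul,
      Finset.sum_comm, Finset.sum_eq_single (1 : (P : Subgroup G))]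
    · rfl
    · intro u _ hu
      exact horth u hu
    · intro h
      exact absurd (Finset.mem_univ _) h
  rw [key]
  have hidx : (Nat.card G : ℂ)⁻¹ * (Nat.card (P : Subgroup G) : ℂ) =
      ((P : Subgroup G).index : ℂ)⁻¹ := by
    rw [← (P : Subgroup G).card_mul_index]
    push_cast
    have : ((P : Subgroup G).index : ℂ) ≠ 0 := by
      exact_mod_cast Subgroup.index_ne_zero_of_finite
    field_simp
  rw [← mul_assoc, hidx]
  refine loc_mul (loc_inv_natCast hM P.not_dvd_index) (loc_sum fun χ _ => loc_mul ?_ ?_)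
  · exact BlockDefect.loc_conj_value χ.2.isCharacter y
  · obtain ⟨n, hn⟩ := (χ.2.isCharacter.restrict (P : Subgroup G)).classInner_nat
      (isIrrCharacter_one (G := (P : Subgroup G))).isCharacter
    rw [hn]
    exact loc_natCast n

theorem mem_of_orth (hM : IsPModular p M) {U : Set (IrrCharacter G)}
    (horth : ∀ x y : G, ¬ p ∣ orderOf x → p ∣ orderOf y →
      ∑ χ ∈ (Set.toFinite U).toFinset, (χ : G → ℂ) x * conj ((χ : G → ℂ) y) = 0) {χ ψ : IrrCharacter G}
    (hχ : χ ∈ U) (h : SameBlock M (χ : G → ℂ) (ψ : G → ℂ)) : ψ ∈ U := by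
  have := isPrime hM
  have h1 := locA_of_orth hM horth
  have h2 := sameBlock_omega χ.2.isClassFunction ψ.2.isClassFunction h (eB_mem_center _) h1
  rw [omega_eB_mem hχ] at h2
  by_contra h3
  rw [omega_eB_not_mem h3, sub_zero] at h2
  exact one_not_idl h2

theorem main [hp : Fact p.Prime] (hM : IsPModular p M) (hG : IsPSolvable p G) {U : Set (IrrCharacter G)}
    (hU : ∀ x : G, p ∣ orderOf x → ∑ χ ∈ (Set.toFinite U).toFinset, (χ : G → ℂ) 1 * (χ : G → ℂ) x = 0)
    {χ ψ : IrrCharacter G} (hχ : χ ∈ U) (h : SameBlock M (χ : G → ℂ) (ψ : G → ℂ)) : ψ ∈ U := by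
  classical
  obtain ⟨I, hI, X, Φ, hX, hΦ, hΦ0, hd1, hd0, hsp⟩ := fong_swan hG
  set S := (Set.toFinite U).toFinset with hS
  have hmS : ∀ ψ : IrrCharacter G, ψ ∈ S ↔ ψ ∈ U := fun ψ => by rw [hS, Set.Finite.mem_toFinset]
  let X' : I → IrrCharacter G := fun i => ⟨X i, hX i⟩
  have h1r : ¬ p ∣ orderOf (1 : G) := by
    rw [orderOf_one]; exact fun h => hM.1.one_lt.ne' (Nat.dvd_one.1 h)
  let θ : G → ℂ := fun x => ∑ χ ∈ S, (χ : G → ℂ) 1 * (χ : G → ℂ) x
  have hθ0 : ∀ x : G, p ∣ orderOf x → θ x = 0 := hU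
  -- multiplicities in `θ`
  have hmult : ∀ ψ : IrrCharacter G, classInner (ψ : G → ℂ) θ = if ψ ∈ U then (ψ : G → ℂ) 1 else 0 := by
    intro ψ
    have h2 : θ = ∑ χ ∈ S, ((χ : G → ℂ) 1) • (χ : G → ℂ) := by
      funext x
      simp only [Finset.sum_apply, Pi.smul_apply, smul_eq_mul]
      rfl
    rw [h2, classInner_sum_right]
    have h3 : ∀ χ : IrrCharacter G, classInner (ψ : G → ℂ) (((χ : G → ℂ) 1) • (χ : G → ℂ)) =
        if χ = ψ then (ψ : G → ℂ) 1 else 0 := by
      intro χ
      rw [classInner_smul_right]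
      by_cases h4 : χ = ψ
      · rw [if_pos h4, h4, ψ.2.classInner_self, mul_one]
        obtain ⟨n, -, hn⟩ := ψ.2.exists_degree
        rw [hn, Complex.conj_natCast]
      · rw [if_neg h4, ψ.2.classInner_eq_zero χ.2 (fun h => h4 (Subtype.ext h.symm)), mul_zero]
    rw [Finset.sum_congr rfl fun χ _ => h3 χ, Finset.sum_ite_eq' S ψ (fun _ => (ψ : G → ℂ) 1)]
    simp only [hmS]
  -- the coefficients
  have hc : ∀ (ψ : IrrCharacter G) (i : I), ∃ n : ℕ, classInner (ψ : G → ℂ) (Φ i) = n := fun ψ i =>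
    ψ.2.isCharacter.classInner_nat (hΦ i)
  choose c hc using hc
  have hval : ∀ (ψ : IrrCharacter G) (x : G), ¬ p ∣ orderOf x → (ψ : G → ℂ) x = ∑ i, (c ψ i : ℂ) * X i x := by
    intro ψ x hx
    rw [hsp ψ ψ.2 x hx]
    refine Finset.sum_congr rfl fun i _ => by rw [hc]
  have hθψ : ∀ ψ : IrrCharacter G, classInner (ψ : G → ℂ) θ = ∑ i, (c ψ i : ℂ) * classInner (X i) θ := by
    intro ψ
    have h2 : classInner (ψ : G → ℂ) θ = classInner (∑ i, (c ψ i : ℂ) • X i) θ := by
      rw [classInner_def, classInner_def]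
      congr 1
      refine Finset.sum_congr rfl fun g _ => ?_
      by_cases hg : p ∣ orderOf g
      · rw [hθ0 g hg]; simp
      · rw [hval ψ g hg]
        simp only [Finset.sum_apply, Pi.smul_apply, smul_eq_mul]
    rw [h2, classInner_sum_left]
    refine Finset.sum_congr rfl fun i _ => by rw [classInner_smul_left]
  have hdeg : ∀ i, ∃ d : ℕ, 0 < d ∧ X i 1 = d := fun i => (hX i).exists_degree
  choose d hd0' hd using hdeg
  have hsplit : ∀ (ψ : IrrCharacter G) (i : I), (ψ ∈ U ↔ X' i ∉ U) → c ψ i = 0 := by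
    intro ψ i hψi
    have h2 := hθψ ψ
    have h3 := hval ψ 1 h1r
    rw [hmult] at h2
    have h4 : ∀ i, classInner (X i) θ = if X' i ∈ U then (d i : ℂ) else 0 := by
      intro i
      have := hmult (X' i)
      rw [← hd i]
      exact this
    simp only [h4] at h2
    simp only [hd] at h3
    by_cases hψ : ψ ∈ U
    · rw [if_pos hψ, h3] at h2
      have h5 : ∑ i, c ψ i * d i = ∑ i, c ψ i * (if X' i ∈ U then d i else 0) := by
        have h6 : ((∑ i, c ψ i * d i : ℕ) : ℂ) = ((∑ i, c ψ i * (if X' i ∈ U then d i else 0) : ℕ) : ℂ) := by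
          push_cast
          rw [h2]
        exact_mod_cast h6
      have h7 : ∀ j ∈ (Finset.univ : Finset I), c ψ j * (if X' j ∈ U then d j else 0) ≤ c ψ j * d j := by
        intro j _
        apply Nat.mul_le_mul_left
        split_ifs
        · exact le_rfl
        · exact Nat.zero_le _
      have h8 := (Finset.sum_eq_sum_iff_of_le h7).1 h5.symm i (Finset.mem_univ _)
      rw [if_neg (hψi.1 hψ), mul_zero] at h8
      rcases Nat.mul_eq_zero.1 h8.symm with h9 | h9
      · exact h9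
      · exact absurd h9 (hd0' i).ne'
    · rw [if_neg hψ] at h2
      have hi : X' i ∈ U := by
        by_contra hi
        exact hψ (hψi.2 hi)
      have h5 : ∑ i, c ψ i * (if X' i ∈ U then d i else 0) = 0 := by
        have h6 : ((∑ i, c ψ i * (if X' i ∈ U then d i else 0) : ℕ) : ℂ) = ((0 : ℕ) : ℂ) := by
          push_cast
          rw [← h2]
        exact_mod_cast h6
      have h8 := (Finset.sum_eq_zero_iff.1 h5) i (Finset.mem_univ _)
      rw [if_pos hi] at h8
      rcases Nat.mul_eq_zero.1 h8 with h9 | h9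
      · exact h9
      · exact absurd h9 (hd0' i).ne'
  -- orthogonality
  refine mem_of_orth hM ?_ hχ h
  intro x y hx hy
  have h2 : ∀ ψ ∈ S, (ψ : G → ℂ) x * conj ((ψ : G → ℂ) y) =
      ∑ i, (if X' i ∈ U then X i x * ((c ψ i : ℂ) * conj ((ψ : G → ℂ) y)) else 0) := by
    intro ψ hψ
    rw [hval ψ x hx, Finset.sum_mul]
    refine Finset.sum_congr rfl fun i _ => ?_
    by_cases hi : X' i ∈ U
    · rw [if_pos hi]; ring
    · rw [if_neg hi, hsplit ψ i ⟨fun _ => hi, fun _ => (hmS ψ).1 hψ⟩]; simp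
  rw [Finset.sum_congr rfl h2, Finset.sum_comm]
  apply Finset.sum_eq_zero
  intro i _
  by_cases hi : X' i ∈ U
  · simp only [if_pos hi]
    rw [← Finset.mul_sum]
    have h3 : ∑ ψ ∈ S, (c ψ i : ℂ) * conj ((ψ : G → ℂ) y) = conj (Φ i y) := by
      have h4 := congrFun (hΦ i).isClassFunction.expansion y
      simp only [Finset.sum_apply, Pi.smul_apply, smul_eq_mul] at h4
      rw [h4, map_sum]
      refine Finset.sum_subset_zero_on_sdiff (Finset.subset_univ S) ?_ ?_
      · intro ψ hψ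
        have hψ' : ψ ∉ U := fun h => (Finset.mem_sdiff.1 hψ).2 ((hmS ψ).2 h)
        have h5 := hc ψ i
        rw [hsplit ψ i ⟨fun h => absurd h hψ', fun h => absurd hi h⟩] at h5
        rw [← conj_classInner, h5]
        simp
      · intro ψ _
        rw [← conj_classInner, hc, map_mul, Complex.conj_conj]
    rw [h3, hΦ0 i y hy, map_zero, mul_zero]
  · simp only [if_neg hi]
    exact Finset.sum_const_zero

end Cfsg.Agent.Lib.FongSwan6
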