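import Cfsg.Agent.Lib.FormConj

set_option autoImplicit false
set_option linter.unusedSectionVars false

/-! Equivalence of invariant alternating forms of a semisimple isometry (helper43). -/

namespace Cfsg.Agent.Lib.FormConj2

open Module Cfsg.Agent.Lib.FormConj

universe u v

variable {F : Type u} [Field F] {V : Type v} [AddCommGroup V] [Module F V] [FiniteDimensional F V]

/-- the decomposition `V = ker T ⊕ im T` -/
theorem isCompl_ker_range (T : Module.End F V) (hss : ∀ x, T (T x) = 0 → T x = 0) : IsCompl (LinearMap.ker T) (LinearMap.range T) := by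
  have hdisj : Disjoint (LinearMap.ker T) (LinearMap.range T) := by
    rw [Submodule.disjoint_def]
    rintro _ hx ⟨y, rfl⟩
    exact hss y hx
  apply Submodule.isCompl_iff_disjoint _ _ ?_ |>.mpr hdisj
  have := LinearMap.finrank_range_add_finrank_ker T
  omega

/-- `ker (f - λ)` and `im (f - λ)` are orthogonal when `λ² = 1`. -/
theorem orth (B : V →ₗ[F] V →ₗ[F] F) (f : Module.End F V) (hf : ∀ x y, B (f x) (f y) = B x y) (l : F) (hl : l * l = 1)
    (x y : V) (hx : f x = l • x) : B x (f y - l • y) = 0 := by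
  have h1 : B x (f y) = l * B x y := by
    have h2 := hf x y
    rw [hx, map_smul, LinearMap.smul_apply, smul_eq_mul] at h2
    rw [← h2, ← mul_assoc, hl, one_mul]
  rw [map_sub, h1, map_smul, smul_eq_mul, sub_self]

/-- Splitting off the eigenvalue `λ = ±1`. -/
theorem split (B B' : V →ₗ[F] V →ₗ[F] F) (halt : ∀ x, B x x = 0) (halt' : ∀ x, B' x x = 0) (hnd : ∀ x, (∀ y, B x y = 0) → x = 0)
    (hnd' : ∀ x, (∀ y, B' x y = 0) → x = 0)
    (f : Module.End F V) (hf : ∀ x y, B (f x) (f y) = B x y) (hf' : ∀ x y, B' (f x) (f y) = B' x y)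
    (l : F) (hl : l * l = 1) (hss : ∀ x, f (f x - l • x) = l • (f x - l • x) → f x = l • x)
    (ih : ∀ (W : Submodule F V) (B₁ B₂ : W →ₗ[F] W →ₗ[F] F) (g : Module.End F W), (∀ x, B₁ x x = 0) → (∀ x, B₂ x x = 0) →
      (∀ x, (∀ y, B₁ x y = 0) → x = 0) → (∀ x, (∀ y, B₂ x y = 0) → x = 0) → (∀ x : W, (g x : V) = f x) →
      (∀ x y, B₁ (g x) (g y) = B₁ x y) → (∀ x y, B₂ (g x) (g y) = B₂ x y) → (∀ x : W, f x = l • (x : V) → x = 0) →
      ∃ c : Module.End F W, (∀ x y, B₁ (c x) (c y) = B₂ x y) ∧ (∀ x, c (g x) = g (c x))) :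
    ∃ c : Module.End F V, (∀ x y, B (c x) (c y) = B' x y) ∧ (∀ x, c (f x) = f (c x)) := by
  have hswap : ∀ (B : V →ₗ[F] V →ₗ[F] F), (∀ x, B x x = 0) → ∀ u v, B u v = - B v u := by
    intro B halt u v
    have := halt (u + v)
    rw [map_add B, LinearMap.add_apply, map_add, map_add, halt, halt, zero_add, add_zero] at this
    exact eq_neg_of_add_eq_zero_left this
  let T : Module.End F V := f - l • 1
  have hT : ∀ x, T x = f x - l • x := fun _ => rfl
  let U := LinearMap.ker T
  let W := LinearMap.range T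
  have hU : ∀ x : V, x ∈ U ↔ f x = l • x := by
    intro x
    rw [LinearMap.mem_ker, hT, sub_eq_zero]
  have hc : IsCompl U W := isCompl_ker_range T (by
    intro x hx
    rw [hT, hT, sub_eq_zero] at hx
    rw [hT, sub_eq_zero]
    exact hss x hx)
  have horth : ∀ (B : V →ₗ[F] V →ₗ[F] F), (∀ x y, B (f x) (f y) = B x y) → ∀ (x : U) (y : W), B x y = 0 := by
    rintro B hf ⟨x, hx⟩ ⟨_, y, rfl⟩
    exact orth B f hf l hl x y ((hU x).mp hx)
  have hdec : ∀ x : V, ∃ (u : U) (w : W), (u : V) + w = x := by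
    intro x
    have : x ∈ U ⊔ W := by rw [hc.sup_eq_top]; trivial
    obtain ⟨u, hu, w, hw, h⟩ := Submodule.mem_sup.mp this
    exact ⟨⟨u, hu⟩, ⟨w, hw⟩, h⟩
  have hndU : ∀ (B : V →ₗ[F] V →ₗ[F] F), (∀ x, (∀ y, B x y = 0) → x = 0) → (∀ x y, B (f x) (f y) = B x y) →
      ∀ x : U, (∀ y : U, B x y = 0) → x = 0 := by
    intro B hnd hf x hx
    apply Subtype.ext
    apply hnd
    intro y
    obtain ⟨u, w, rfl⟩ := hdec y
    rw [map_add, hx, horth B hf, add_zero]
  have hndW : ∀ (B : V →ₗ[F] V →ₗ[F] F), (∀ x, B x x = 0) → (∀ x, (∀ y, B x y = 0) → x = 0) → (∀ x y, B (f x) (f y) = B x y) →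
      ∀ x : W, (∀ y : W, B x y = 0) → x = 0 := by
    intro B halt hnd hf x hx
    apply Subtype.ext
    apply hnd
    intro y
    obtain ⟨u, w, rfl⟩ := hdec y
    rw [map_add, hx, hswap B halt, horth B hf, neg_zero, zero_add]
  have hWf : ∀ x ∈ W, f x ∈ W := by
    rintro _ ⟨y, rfl⟩
    refine ⟨f y, ?_⟩
    rw [hT, hT, map_sub, map_smul]
  have hUf : ∀ x ∈ U, f x ∈ U := by
    intro x hx
    rw [hU] at hx ⊢
    rw [hx, map_smul, hx]
  let g : Module.End F W := f.restrict hWf
  have hg : ∀ x : W, (g x : V) = f x := fun _ => rfl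
  obtain ⟨cW, hcW, hcWg⟩ := ih W (B.domRestrict₁₂ W W) (B'.domRestrict₁₂ W W) g (fun x => halt x) (fun x => halt' x)
    (fun x hx => hndW B halt hnd hf x hx) (fun x hx => hndW B' halt' hnd' hf' x hx) hg (fun x y => hf x y) (fun x y => hf' x y) (by
      intro x hx
      have h1 : (x : V) ∈ U ⊓ W := ⟨(hU x).mpr hx, x.2⟩
      rw [hc.inf_eq_bot] at h1
      exact Subtype.ext ((Submodule.mem_bot F).mp h1))
  -- on `U`
  obtain ⟨cU, hcU⟩ : ∃ cU : Module.End F U, ∀ x y : U, B (cU x) (cU y) = B' x y := by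
    obtain ⟨m, e, he⟩ := SympBasis.exists_equiv (B.domRestrict₁₂ U U) (fun x => halt x) (fun x hx => hndU B hnd hf x hx)
    have hdim : finrank F U = 2 * m := by
      rw [← e.finrank_eq, Module.finrank_fintype_fun_eq_card, Fintype.card_sum, Fintype.card_fin]; ring
    obtain ⟨e', he'⟩ := SympBasis.exists_equiv_of_finrank hdim (B'.domRestrict₁₂ U U) (fun x => halt' x) (fun x hx => hndU B' hnd' hf' x hx)
    refine ⟨(e'.symm.trans e).toLinearMap, ?_⟩
    intro x y
    have h1 := he (e'.symm x) (e'.symm y)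
    have h2 := he' (e'.symm x) (e'.symm y)
    rw [LinearEquiv.apply_symm_apply, LinearEquiv.apply_symm_apply] at h2
    exact h1.trans h2.symm
  let c : Module.End F V := LinearMap.ofIsCompl hc (U.subtype ∘ₗ cU) (W.subtype ∘ₗ cW)
  have hcl : ∀ x : U, c x = cU x := fun x => LinearMap.ofIsCompl_apply_left hc x
  have hcr : ∀ x : W, c x = cW x := fun x => LinearMap.ofIsCompl_apply_right hc x
  have horth' : ∀ (B : V →ₗ[F] V →ₗ[F] F), (∀ x, B x x = 0) → (∀ x y, B (f x) (f y) = B x y) → ∀ (x : U) (y : W), B y x = 0 := by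
    intro B halt hf x y
    rw [hswap B halt, horth B hf, neg_zero]
  refine ⟨c, ?_, ?_⟩
  · intro x y
    obtain ⟨u, w, rfl⟩ := hdec x
    obtain ⟨u', w', rfl⟩ := hdec y
    simp only [map_add, LinearMap.add_apply, hcl, hcr]
    rw [hcU, horth B hf, horth' B halt hf, horth B' hf', horth' B' halt' hf']
    have := hcW w w'
    rw [LinearMap.domRestrict₁₂_apply, LinearMap.domRestrict₁₂_apply] at this
    rw [this]
  · intro x
    obtain ⟨u, w, rfl⟩ := hdec x
    have h1 : f (u : V) = ((⟨f u, hUf u u.2⟩ : U) : V) := rfl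
    have h2 : f (w : V) = ((g w : W) : V) := rfl
    rw [map_add, map_add, map_add, map_add, h1, h2, hcl, hcr, hcl, hcr, hcWg, hg]
    congr 1
    have h3 : (⟨f u, hUf u u.2⟩ : U) = l • u := Subtype.ext ((hU u).mp u.2)
    rw [h3, map_smul]
    exact ((hU (cU u)).mp (cU u).2).symm

/-- Two invariant alternating non-degenerate forms of a semisimple isometry are equivalent by a map commuting with it. -/
theorem exists_alt [Finite F] (B B' : V →ₗ[F] V →ₗ[F] F) (halt : ∀ x, B x x = 0) (halt' : ∀ x, B' x x = 0) (hnd : ∀ x, (∀ y, B x y = 0) → x = 0)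
    (hnd' : ∀ x, (∀ y, B' x y = 0) → x = 0)
    (f : Module.End F V) (hf : ∀ x y, B (f x) (f y) = B x y) (hf' : ∀ x y, B' (f x) (f y) = B' x y)
    (hss : ∀ (l : F), l * l = 1 → ∀ x, f (f x - l • x) = l • (f x - l • x) → f x = l • x) :
    ∃ c : Module.End F V, (∀ x y, B (c x) (c y) = B' x y) ∧ (∀ x, c (f x) = f (c x)) := by
  apply split B B' halt halt' hnd hnd' f hf hf' 1 (by ring) (hss 1 (by ring))
  intro W B₁ B₂ g h1 h2 h3 h4 h5 h6 h7 h8
  have hg8 : ∀ x : W, g x = (1 : F) • x → x = 0 := by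
    intro x hx
    apply h8
    rw [← h5, hx]; rfl
  apply split B₁ B₂ h1 h2 h3 h4 g h6 h7 (-1) (by ring) (by
    intro x hx
    have h9 := hss (-1) (by ring) (x : V) (by
      have := congrArg Subtype.val hx
      rw [h5] at this
      simp only [Submodule.coe_smul, AddSubgroupClass.coe_sub] at this
      rw [h5] at this
      exact this)
    apply Subtype.ext
    rw [h5, h9]; rfl)
  intro W' B₁' B₂' g' h1' h2' h3' h4' h5' h6' h7' h8'
  apply exists_of_no_eigenvalue B₁' B₂' h3' h4' (-1) (by ring) ?_ ?_ g' h6' h7' ?_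
  · intro x y
    have := h1' (x + y)
    rw [map_add B₁', LinearMap.add_apply, map_add, map_add, h1', h1', zero_add, add_zero] at this
    rw [neg_one_mul]
    exact eq_neg_of_add_eq_zero_right this
  · intro x y
    have := h2' (x + y)
    rw [map_add B₂', LinearMap.add_apply, map_add, map_add, h2', h2', zero_add, add_zero] at this
    rw [neg_one_mul]
    exact eq_neg_of_add_eq_zero_right this
  · intro x hx
    have h10 : g (g (x : W)) = x := by
      rw [← h5', ← h5', hx]
    -- `y = g x + x` is fixed by `g`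
    have h11 : g (g (x : W) + x) = (1 : F) • (g (x : W) + x) := by
      rw [map_add, h10, one_smul, add_comm]
    have h12 := hg8 _ h11
    apply h8'
    rw [eq_neg_of_add_eq_zero_left h12, neg_one_smul]

end Cfsg.Agent.Lib.FormConj2
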