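import Cfsg.Agent.Lib.FormConj2
import Cfsg.Agent.Lib.QuadBasic

set_option autoImplicit false
set_option linter.unusedSectionVars false

/-! Conjugacy of odd order semisimple isometries of quadratic forms (helper43). -/

namespace Cfsg.Agent.Lib.FormConj3

open Module Cfsg.Agent.Lib.FormConj Cfsg.Agent.Lib.FormConj2 Cfsg.Agent.Lib.Quad QuadraticMap

universe u v

variable {F : Type u} [Field F] {V : Type v} [AddCommGroup V] [Module F V] [FiniteDimensional F V]

/-- a `p'`-element acts semisimply at the eigenvalue `1` -/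
theorem semisimple_one {p : ℕ} [CharP F p] (f : Module.End F V) (n : ℕ) (hn : ¬ p ∣ n) (hf : f ^ n = 1) (x : V)
    (hx : f (f x - x) = f x - x) : f x = x := by
  set y := f x - x with hy
  have h2 : ∀ k : ℕ, (f ^ k) x = x + (k : F) • y := by
    intro k
    have hfx : f x = x + y := by rw [hy]; abel
    induction k with
    | zero => rw [pow_zero, Nat.cast_zero, zero_smul, add_zero]; rfl
    | succ k ih =>
      rw [pow_succ', Module.End.mul_apply, ih, map_add, map_smul, hfx, hx, Nat.cast_succ]
      module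
  have h3 := h2 n
  rw [hf, Module.End.one_apply, left_eq_add] at h3
  rcases smul_eq_zero.mp h3 with h | h
  · exact absurd ((CharP.cast_eq_zero_iff F p n).mp h) hn
  · exact sub_eq_zero.mp h

theorem exists_conj [Finite F] {p : ℕ} [CharP F p] (Q : QuadraticForm F V) (hQ : Nd Q) (f g : Module.End F V) (hf : ∀ x, Q (f x) = Q x)
    (hg : ∀ x, Q (g x) = Q x) (n : ℕ) (hodd : Odd n) (hn : ¬ p ∣ n) (hfn : f ^ n = 1) (G : V ≃ₗ[F] V) (hG : ∀ x, G (f x) = g (G x)) :
    ∃ h ∈ O Q, ∀ x, h (f x) = g (h x) := by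
  let T : Module.End F V := f - 1
  have hT : ∀ x, T x = f x - x := fun _ => rfl
  let U := LinearMap.ker T
  let W := LinearMap.range T
  have hU : ∀ x : V, x ∈ U ↔ f x = x := by
    intro x
    rw [LinearMap.mem_ker, hT, sub_eq_zero]
  have hc : IsCompl U W := isCompl_ker_range T (by
    intro x hx
    rw [hT, hT, sub_eq_zero] at hx
    rw [hT, sub_eq_zero]
    exact semisimple_one (p := p) f n hn hfn x hx)
  have hdec : ∀ x : V, ∃ (u : U) (w : W), (u : V) + w = x := by
    intro x
    have : x ∈ U ⊔ W := by rw [hc.sup_eq_top]; trivial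
    obtain ⟨u, hu, w, hw, h⟩ := Submodule.mem_sup.mp this
    exact ⟨⟨u, hu⟩, ⟨w, hw⟩, h⟩
  have hUW : ∀ x, x ∈ U → x ∈ W → x = 0 := by
    intro x h1 h2
    have h3 : x ∈ U ⊓ W := ⟨h1, h2⟩
    rw [hc.inf_eq_bot] at h3
    exact (Submodule.mem_bot F).mp h3
  -- the two bilinear forms
  let b : V →ₗ[F] V →ₗ[F] F := polarBilin Q
  let b' : V →ₗ[F] V →ₗ[F] F := b.compl₁₂ G.toLinearMap G.toLinearMap
  have hb : ∀ x y, b x y = polar Q x y := fun _ _ => rfl
  have hb' : ∀ x y, b' x y = polar Q (G x) (G y) := fun _ _ => rfl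
  have hpf : ∀ x y, polar Q (f x) (f y) = polar Q x y := fun x y => polar_map f hf x y
  have hpg : ∀ x y, polar Q (g x) (g y) = polar Q x y := fun x y => polar_map g hg x y
  have hbf : ∀ x y, b (f x) (f y) = b x y := hpf
  have hbf' : ∀ x y, b' (f x) (f y) = b' x y := by
    intro x y
    rw [hb', hb', hG, hG, hpg]
  have horth : ∀ (b : V →ₗ[F] V →ₗ[F] F), (∀ x y, b (f x) (f y) = b x y) → ∀ (x : U) (y : W), b x y = 0 := by
    rintro b hf ⟨x, hx⟩ ⟨_, y, rfl⟩
    have h1 := orth b f hf 1 (by ring) x y (by rw [one_smul]; exact (hU x).mp hx)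
    rw [one_smul] at h1
    exact h1
  have hsymm : ∀ x y, b y x = b x y := fun x y => polar_comm Q y x
  have hsymm' : ∀ x y, b' y x = b' x y := fun x y => polar_comm Q _ _
  have hndW : ∀ (b : V →ₗ[F] V →ₗ[F] F), (∀ x y, b y x = b x y) → (∀ x, (∀ y, b x y = 0) → x = 0) → (∀ x y, b (f x) (f y) = b x y) →
      ∀ x : W, (∀ y : W, b x y = 0) → x = 0 := by
    intro b hs hnd hf x hx
    apply Subtype.ext
    apply hnd
    intro y
    obtain ⟨u, w, rfl⟩ := hdec y
    rw [map_add, hx, hs, horth b hf, zero_add]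
  have hnd : ∀ x, (∀ y, b x y = 0) → x = 0 := fun x hx => hQ.eq_zero hx
  have hnd' : ∀ x, (∀ y, b' x y = 0) → x = 0 := by
    intro x hx
    apply G.injective
    rw [map_zero]
    apply hnd
    intro y
    have := hx (G.symm y)
    rw [hb', LinearEquiv.apply_symm_apply] at this
    exact this
  have hWf : ∀ x ∈ W, f x ∈ W := by
    rintro _ ⟨y, rfl⟩
    refine ⟨f y, ?_⟩
    rw [hT, hT, map_sub]
  let fW : Module.End F W := f.restrict hWf
  have hfW : ∀ x : W, (fW x : V) = f x := fun _ => rfl
  obtain ⟨c, hcb, hcf⟩ := exists_of_no_eigenvalue (b.domRestrict₁₂ W W) (b'.domRestrict₁₂ W W) (fun x hx => hndW b hsymm hnd hbf x hx)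
    (fun x hx => hndW b' hsymm' hnd' hbf' x hx) 1 (by ring) (fun x y => by rw [one_mul]; exact hsymm _ _) (fun x y => by rw [one_mul]; exact hsymm' _ _)
    fW (fun x y => hbf x y) (fun x y => hbf' x y) (by
      intro x hx
      apply Subtype.ext
      apply hUW _ _ x.2
      rw [hU]
      have h1 : f (f (x : V)) = x := congrArg Subtype.val hx
      obtain ⟨k, rfl⟩ := hodd
      have h2 : ∀ k : ℕ, (f ^ (2 * k)) (x : V) = x := by
        intro k
        induction k with
        | zero => rfl
        | succ k ih => rw [mul_add, pow_add, Module.End.mul_apply, mul_one, pow_two, Module.End.mul_apply, h1, ih]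
      have h3 : (f ^ (2 * k + 1)) (x : V) = x := by rw [hfn]; rfl
      rw [pow_succ', Module.End.mul_apply, h2] at h3
      exact h3)
  have hcb' : ∀ x y : W, polar Q (c x) (c y) = polar Q (G x) (G y) := hcb
  have hcinj : Function.Injective c := by
    rw [injective_iff_map_eq_zero]
    intro x hx
    apply hndW b' hsymm' hnd' hbf'
    intro y
    rw [hb', ← hcb', hx]
    exact QuadraticMap.polar_zero_left Q _
  let C : W ≃ₗ[F] W := LinearEquiv.ofBijective c ⟨hcinj, LinearMap.injective_iff_surjective.mp hcinj⟩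
  have hC : ∀ x, c (C.symm x) = x := fun x => C.apply_symm_apply x
  -- `Q (c x) = Q (G x)` on `W`
  have hQc : ∀ x : W, Q (c x) = Q (G x) := by
    have hadd : ∀ x y : W, Q (c (x + y)) - Q (G ((x + y : W) : V)) = (Q (c x) - Q (G x)) + (Q (c y) - Q (G y)) := by
      intro x y
      have h1 := hcb' x y
      rw [polar, polar] at h1
      rw [map_add c, Submodule.coe_add, Submodule.coe_add, map_add G]
      linear_combination h1
    have hfix : ∀ x : W, Q (c (fW x)) - Q (G ((fW x : W) : V)) = Q (c x) - Q (G x) := by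
      intro x
      rw [hcf, hfW, hf, hfW, hG, hg]
    have hneg : ∀ x : W, Q (c (-x)) - Q (G ((-x : W) : V)) = Q (c x) - Q (G x) := by
      intro x
      rw [map_neg, Submodule.coe_neg, Submodule.coe_neg, map_neg G, QuadraticMap.map_neg, QuadraticMap.map_neg]
    have hzero : ∀ x : W, (Q (c x) - Q (G x)) + (Q (c x) - Q (G x)) = 0 := by
      intro x
      have h1 := hadd x (-x)
      rw [hneg, add_neg_cancel, map_zero c, Submodule.coe_zero, map_zero G, sub_self] at h1
      exact h1.symm
    have hsurj : ∀ x : W, ∃ y : W, fW y + -y = x := by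
      intro x
      have hinj : Function.Injective ((fW - 1 : Module.End F W) : W → W) := by
        rw [injective_iff_map_eq_zero]
        intro y hy
        apply Subtype.ext
        apply hUW _ _ y.2
        rw [hU]
        rw [LinearMap.sub_apply, Module.End.one_apply, sub_eq_zero] at hy
        exact congrArg Subtype.val hy
      obtain ⟨y, hy⟩ := LinearMap.injective_iff_surjective.mp hinj x
      refine ⟨y, ?_⟩
      rw [← hy, LinearMap.sub_apply, Module.End.one_apply, sub_eq_add_neg]
    intro x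
    obtain ⟨y, rfl⟩ := hsurj x
    have h1 := hadd (fW y) (-y)
    rw [hneg, hfix, hzero] at h1
    exact sub_eq_zero.mp h1
  -- the partial isometry
  let α : W →ₗ[F] V := (G.toLinearMap ∘ₗ W.subtype) ∘ₗ C.symm.toLinearMap
  have hα : ∀ x : W, α x = G ((C.symm x : W) : V) := fun _ => rfl
  have hαinj : Function.Injective α := by
    intro x y h
    rw [hα, hα] at h
    exact C.symm.injective (Subtype.ext (G.injective h))
  obtain ⟨h, hhO, hh⟩ := hQ.witt W α hαinj (by
    intro x
    rw [hα, ← hQc, hC])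
  refine ⟨h, hhO, ?_⟩
  have hCf : ∀ x : W, C.symm (fW x) = fW (C.symm x) := by
    intro x
    rw [LinearEquiv.symm_apply_eq]
    show fW x = c (fW (C.symm x))
    rw [hcf, hC]
  -- surjectivity of `g`
  have hgs : Function.Surjective g := by
    intro x
    have hfinj : Function.Injective f := by
      rw [injective_iff_map_eq_zero]
      intro x hx
      apply hnd
      intro y
      rw [← hbf, hx, map_zero, LinearMap.zero_apply]
    obtain ⟨y, hy⟩ := LinearMap.injective_iff_surjective.mp hfinj (G.symm x)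
    refine ⟨G y, ?_⟩
    rw [← hG, hy, LinearEquiv.apply_symm_apply]
  intro x
  obtain ⟨u, w, rfl⟩ := hdec x
  rw [map_add, map_add, map_add, map_add]
  congr 1
  · rw [(hU u).mp u.2]
    -- `h u` is orthogonal to `range (g - 1)`
    have h1 : ∀ z, polar Q (h u) (g z) = polar Q (h u) z := by
      intro z
      have h2 : g z - z ∈ (⊤ : Submodule F V) := trivial
      obtain ⟨y, rfl⟩ := G.surjective z
      have h3 : f y - y ∈ W := ⟨y, rfl⟩
      have h4 : G (f y - y) = h (c ⟨f y - y, h3⟩) := by
        rw [hh, hα]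
        congr 1
        have : C.symm (c ⟨f y - y, h3⟩) = ⟨f y - y, h3⟩ := C.symm_apply_apply _
        rw [this]
      have h5 : polar Q (h u) (G (f y - y)) = 0 := by
        rw [h4, O_polar hhO]
        exact horth b hbf u _
      rw [map_sub, hG, polar_sub_right] at h5
      exact sub_eq_zero.mp h5
    have h2 : g (h u) = h u := by
      rw [← sub_eq_zero]
      apply hnd
      intro z
      obtain ⟨z, rfl⟩ := hgs z
      rw [hb, polar_sub_left, hpg, h1, sub_self]
    exact h2.symm
  · have h1 : f (w : V) = ((fW w : W) : V) := rfl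
    rw [h1, hh, hh, hα, hα, hCf, hfW, hG]

end Cfsg.Agent.Lib.FormConj3
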