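import Cfsg.Agent.Lib.JordanType
import Cfsg.Agent.Lib.SympBasis

set_option autoImplicit false
set_option linter.unusedSectionVars false

/-! Jordan types of unipotent isometries (helper43). -/

namespace Cfsg.Agent.Lib.FormJordan

open Module Polynomial Cfsg.Agent.Lib.FXType Cfsg.Agent.Lib.GLClass Cfsg.Agent.Lib.JordanType

universe u v

variable {F : Type u} [Field F] {V : Type v} [AddCommGroup V] [Module F V]

theorem finrank_map_of_ker_le [FiniteDimensional F V] {W : Type*} [AddCommGroup W] [Module F W] (T : V →ₗ[F] W) (S : Submodule F V)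
    (h : LinearMap.ker T ≤ S) : finrank F (S.map T) + finrank F (LinearMap.ker T) = finrank F S := by
  have h1 := LinearMap.finrank_range_add_finrank_ker (T.domRestrict S)
  rw [LinearMap.range_domRestrict] at h1
  rw [← h1]
  congr 1
  have h2 : LinearMap.ker (T.domRestrict S) = (LinearMap.ker T).comap S.subtype := by
    ext x
    rfl
  rw [h2]
  exact (Submodule.comapSubtypeEquivOfLe h).finrank_eq.symm

/-- The rank of an alternating form is even. -/
theorem even_alt {U : Type*} [AddCommGroup U] [Module F U] [FiniteDimensional F U] (β : U →ₗ[F] U →ₗ[F] F) (halt : ∀ x, β x x = 0) :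
    ∃ m, finrank F U = finrank F (LinearMap.ker β) + 2 * m := by
  have hswap : ∀ u v, β u v = - β v u := by
    intro u v
    have := halt (u + v)
    rw [map_add β, LinearMap.add_apply, map_add, map_add, halt, halt, zero_add, add_zero] at this
    exact eq_neg_of_add_eq_zero_left this
  obtain ⟨C, hC⟩ := Submodule.exists_isCompl (LinearMap.ker β)
  let β' : C →ₗ[F] C →ₗ[F] F := β.domRestrict₁₂ C C
  have hβ' : ∀ x y : C, β' x y = β x y := fun _ _ => rfl
  obtain ⟨m, e, -⟩ := SympBasis.exists_equiv β' (fun x => halt x) (by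
    intro x hx
    have h1 : (x : U) ∈ LinearMap.ker β := by
      rw [LinearMap.mem_ker]
      ext y
      obtain ⟨r, hr, c, hc, rfl⟩ : ∃ r ∈ LinearMap.ker β, ∃ c ∈ C, r + c = y := by
        have : y ∈ LinearMap.ker β ⊔ C := by rw [hC.sup_eq_top]; trivial
        exact Submodule.mem_sup.mp this
      rw [map_add, hswap x r, LinearMap.mem_ker.mp hr, LinearMap.zero_apply, neg_zero, zero_add, LinearMap.zero_apply]
      exact hx ⟨c, hc⟩
    have h2 : (x : U) ∈ LinearMap.ker β ⊓ C := ⟨h1, x.2⟩
    rw [hC.inf_eq_bot] at h2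
    exact Subtype.ext ((Submodule.mem_bot F).mp h2))
  refine ⟨m, ?_⟩
  rw [← Submodule.finrank_add_eq_of_isCompl hC, ← e.finrank_eq, Module.finrank_fintype_fun_eq_card, Fintype.card_sum, Fintype.card_fin]
  omega

section Necessity

variable [FiniteDimensional F V] (B : V →ₗ[F] V →ₗ[F] F) (f : Module.End F V)

theorem inv_pow (hinv : ∀ x y, B (f x) (f y) = B x y) (a : ℕ) (x y : V) : B ((f ^ a) x) ((f ^ a) y) = B x y := by
  induction a generalizing x y with
  | zero => rfl
  | succ a ih => rw [pow_succ, Module.End.mul_apply, Module.End.mul_apply, ih, hinv]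

theorem comm_pow (a b : ℕ) (x : V) : (f ^ a) (((f - 1) ^ b) x) = ((f - 1) ^ b) ((f ^ a) x) := by
  have : Commute (f ^ a) ((f - 1) ^ b) := by
    apply Commute.pow_pow
    exact (Commute.refl f).sub_right (Commute.one_right f)
  rw [← Module.End.mul_apply, ← Module.End.mul_apply, this.eq]

theorem adj_pow (hinv : ∀ x y, B (f x) (f y) = B x y) (a : ℕ) (x y : V) :
    B ((f ^ a) x) (((f - 1) ^ a) y) = (-1) ^ a * B (((f - 1) ^ a) x) y := by
  induction a generalizing x y with
  | zero => rw [pow_zero, pow_zero, pow_zero, one_mul]; rfl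
  | succ a ih =>
    have h1 : ∀ x y, B (f x) ((f - 1) y) = - B ((f - 1) x) y := by
      intro x y
      rw [LinearMap.sub_apply, LinearMap.sub_apply, map_sub, hinv, Module.End.one_apply, Module.End.one_apply, map_sub, LinearMap.sub_apply]
      ring
    rw [pow_succ' f, pow_succ' (f - 1), Module.End.mul_apply, Module.End.mul_apply, h1]
    have h2 : (f - 1) ((f ^ a) x) = (f ^ a) ((f - 1) x) := by
      have := comm_pow f a 1 x
      rw [pow_one] at this
      exact this.symm
    have h3 : ((f - 1) ^ a) ((f - 1) x) = ((f - 1) * (f - 1) ^ a) x := by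
      rw [← pow_succ', pow_succ]; rfl
    rw [h2, ih, h3, pow_succ (-1 : F)]
    ring

theorem ker_nd (hnd : ∀ x, (∀ y, B x y = 0) → x = 0) : (B : LinearMap.BilinForm F V).Nondegenerate := by
  apply (LinearMap.BilinForm.nondegenerate_iff_ker_eq_bot (B := B)).mpr
  rw [LinearMap.ker_eq_bot']
  intro x hx
  exact hnd x fun y => by rw [hx]; rfl

theorem f_surj (hnd : ∀ x, (∀ y, B x y = 0) → x = 0) (hinv : ∀ x y, B (f x) (f y) = B x y) (a : ℕ) : Function.Surjective (f ^ a) := by
  have hinj : Function.Injective (f ^ a) := by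
    rw [injective_iff_map_eq_zero]
    intro x hx
    apply hnd
    intro y
    rw [← inv_pow B f hinv a, hx, map_zero, LinearMap.zero_apply]
  exact LinearMap.injective_iff_surjective.mp hinj

/-- `(ker N^j)^⊥ = im N^j` -/
theorem perp_ker (hnd : ∀ x, (∀ y, B x y = 0) → x = 0) (hinv : ∀ x y, B (f x) (f y) = B x y) (j : ℕ) (z : V) :
    (∀ y, ((f - 1) ^ j) y = 0 → B y z = 0) ↔ z ∈ LinearMap.range ((f - 1) ^ j) := by
  have hle : LinearMap.range ((f - 1) ^ j) ≤ LinearMap.BilinForm.orthogonal B (LinearMap.ker ((f - 1) ^ j)) := by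
    rintro _ ⟨w, rfl⟩
    rw [LinearMap.BilinForm.mem_orthogonal_iff]
    intro y hy
    obtain ⟨y', rfl⟩ := f_surj B f hnd hinv j y
    show B ((f ^ j) y') (((f - 1) ^ j) w) = 0
    rw [adj_pow B f hinv]
    have h1 : ((f - 1) ^ j) y' = 0 := by
      rw [LinearMap.mem_ker, ← comm_pow] at hy
      have hinj : Function.Injective (f ^ j) := LinearMap.injective_iff_surjective.mpr (f_surj B f hnd hinv j)
      apply hinj
      rw [hy, map_zero]
    rw [h1, map_zero, LinearMap.zero_apply, mul_zero]
  have heq : LinearMap.range ((f - 1) ^ j) = LinearMap.BilinForm.orthogonal B (LinearMap.ker ((f - 1) ^ j)) := by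
    apply Submodule.eq_of_le_of_finrank_eq hle
    rw [LinearMap.BilinForm.finrank_orthogonal (ker_nd B hnd)]
    have := LinearMap.finrank_range_add_finrank_ker ((f - 1) ^ j)
    omega
  rw [heq, LinearMap.BilinForm.mem_orthogonal_iff]
  rfl

/-- If `B(x, N^(j-1) y)` is alternating on `ker N^j` then the number of blocks of size `j` is even. -/
theorem even_count [DecidableEq (F[X] × ℕ)] (hnd : ∀ x, (∀ y, B x y = 0) → x = 0) (hinv : ∀ x y, B (f x) (f y) = B x y) {s : Multiset (F[X] × ℕ)} (hs : HasType f s)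
    (j : ℕ) (hβ : ∀ x, ((f - 1) ^ (j + 1)) x = 0 → B x (((f - 1) ^ j) x) = 0) : Even (s.count (X - 1, j + 1)) := by
  set N := f - 1 with hN
  set U := LinearMap.ker (N ^ (j + 1)) with hU
  let β : U →ₗ[F] U →ₗ[F] F := (B.compl₂ (N ^ j)).domRestrict₁₂ U U
  have hβ' : ∀ x y : U, β x y = B x ((N ^ j) y) := fun _ _ => rfl
  have halt : ∀ x, β x x = 0 := fun x => hβ x x.2
  obtain ⟨m, hm⟩ := even_alt β halt
  have hswap : ∀ u v, β u v = - β v u := by
    intro u v
    have := halt (u + v)
    rw [map_add β, LinearMap.add_apply, map_add, map_add, halt, halt, zero_add, add_zero] at this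
    exact eq_neg_of_add_eq_zero_left this
  -- the radical
  let R : Submodule F V := U ⊓ (LinearMap.range (N ^ (j + 1))).comap (N ^ j)
  have hR : LinearMap.ker β = R.comap U.subtype := by
    ext x
    rw [LinearMap.mem_ker, Submodule.mem_comap]
    have h1 : β x = 0 ↔ ∀ y : U, β y x = 0 := by
      constructor
      · intro h y
        rw [hswap, h, LinearMap.zero_apply, neg_zero]
      · intro h
        ext y
        rw [hswap, h, neg_zero, LinearMap.zero_apply]
    rw [h1]
    have h2 := perp_ker B f hnd hinv (j + 1) ((N ^ j) (x : V))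
    constructor
    · intro h
      refine ⟨x.2, ?_⟩
      rw [SetLike.mem_coe, Submodule.mem_comap, ← hN] at *
      apply h2.mp
      intro y hy
      exact h ⟨y, hy⟩
    · rintro ⟨-, h⟩ y
      rw [SetLike.mem_coe, Submodule.mem_comap] at h
      exact h2.mpr h y y.2
  have hRU : R ≤ U := inf_le_left
  have hfR : finrank F (LinearMap.ker β) = finrank F R := by
    rw [hR]
    exact (Submodule.comapSubtypeEquivOfLe hRU).finrank_eq
  -- `dim R = dim ker N^j + dim (ker N ∩ im N^(j+1))`
  have hker : ∀ a b : ℕ, a ≤ b → LinearMap.ker (N ^ a) ≤ LinearMap.ker (N ^ b) := by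
    intro a b hab x hx
    obtain ⟨c, rfl⟩ := Nat.exists_eq_add_of_le hab
    rw [LinearMap.mem_ker] at hx ⊢
    rw [add_comm, pow_add, Module.End.mul_apply, hx, map_zero]
  have e1 := finrank_map_of_ker_le (N ^ j) R (by
    intro x hx
    refine ⟨hker j (j + 1) (Nat.le_succ j) hx, ?_⟩
    rw [SetLike.mem_coe, Submodule.mem_comap, LinearMap.mem_ker.mp hx]
    exact Submodule.zero_mem _)
  have e2 : R.map (N ^ j) = LinearMap.ker N ⊓ LinearMap.range (N ^ (j + 1)) := by
    ext z
    constructor
    · rintro ⟨x, ⟨hx1, hx2⟩, rfl⟩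
      refine ⟨?_, hx2⟩
      rw [SetLike.mem_coe, LinearMap.mem_ker, ← Module.End.mul_apply, ← pow_succ']
      exact hx1
    · rintro ⟨hz1, w, rfl⟩
      refine ⟨N w, ⟨?_, ?_⟩, ?_⟩
      · rw [SetLike.mem_coe, LinearMap.mem_ker, ← Module.End.mul_apply, ← pow_succ, pow_succ', Module.End.mul_apply]
        exact hz1
      · rw [SetLike.mem_coe, Submodule.mem_comap, ← Module.End.mul_apply, ← pow_succ]
        exact ⟨w, rfl⟩
      · rw [← Module.End.mul_apply, ← pow_succ]
  have e3 := finrank_map_of_ker_le (N ^ (j + 1)) (LinearMap.ker (N ^ (j + 2))) (hker _ _ (by omega))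
  have e4 : (LinearMap.ker (N ^ (j + 2))).map (N ^ (j + 1)) = LinearMap.ker N ⊓ LinearMap.range (N ^ (j + 1)) := by
    ext z
    constructor
    · rintro ⟨x, hx, rfl⟩
      refine ⟨?_, ⟨x, rfl⟩⟩
      rw [SetLike.mem_coe, LinearMap.mem_ker, ← Module.End.mul_apply, ← pow_succ']
      exact hx
    · rintro ⟨hz1, w, rfl⟩
      refine ⟨w, ?_, rfl⟩
      rw [SetLike.mem_coe, LinearMap.mem_ker, pow_succ', Module.End.mul_apply]
      exact hz1
  rw [e2] at e1
  rw [e4] at e3
  have hc := count_formula s hs.good (X - 1) X1_monic X1_irreducible j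
  have hk : ∀ a, finrank F (LinearMap.ker (N ^ a)) = (s.map fun d => gdeg ((X - 1) ^ a) (d.1 ^ d.2)).sum := by
    intro a
    rw [← hs.finrank_ker, map_pow, map_sub, aeval_X, map_one]
  rw [← hk, ← hk, ← hk, X1_natDegree, one_mul] at hc
  rw [hfR] at hm
  refine ⟨m, ?_⟩
  have hU' : finrank F U = finrank F (LinearMap.ker (N ^ (j + 1))) := rfl
  omega

end Necessity

end Cfsg.Agent.Lib.FormJordan
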