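import Cfsg.Agent.Lib.FormJordan

set_option autoImplicit false
set_option linter.unusedSectionVars false

/-! Existence of unipotent isometries with given Jordan types (helper43). -/

namespace Cfsg.Agent.Lib.FormJordan2

open Module Polynomial Cfsg.Agent.Lib.FXMod Cfsg.Agent.Lib.FXType Cfsg.Agent.Lib.GLClass Cfsg.Agent.Lib.JordanType

universe u v

variable {F : Type u} [Field F]

/-- unipotent type with block sizes `m` -/
noncomputable def uni (F : Type u) [Field F] (m : Multiset ℕ) : Multiset (F[X] × ℕ) := m.map fun k => ((X - 1 : F[X]), k)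

/-- realised by a unipotent symplectic isometry -/
def SReal (F : Type u) [Field F] (m : Multiset ℕ) : Prop :=
  ∃ (V : Type u) (_ : AddCommGroup V) (_ : Module F V) (B : V →ₗ[F] V →ₗ[F] F) (f : Module.End F V),
    (∀ x, B x x = 0) ∧ (∀ x, (∀ y, B x y = 0) → x = 0) ∧ (∀ x y, B (f x) (f y) = B x y) ∧ HasType f (uni F m)

/-- realised by a unipotent isometry of a quadratic form with non-degenerate polar form -/
def QReal (F : Type u) [Field F] (m : Multiset ℕ) : Prop :=
  ∃ (V : Type u) (_ : AddCommGroup V) (_ : Module F V) (Q : QuadraticForm F V) (f : Module.End F V),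
    (∀ x, (∀ y, QuadraticMap.polar Q x y = 0) → x = 0) ∧ (∀ x, Q (f x) = Q x) ∧ HasType f (uni F m)

theorem uni_add (m m' : Multiset ℕ) : uni F (m + m') = uni F m + uni F m' := Multiset.map_add _ _ _

theorem SReal_zero : SReal F 0 := by
  refine ⟨PUnit, inferInstance, inferInstance, 0, 1, fun _ => rfl, fun _ _ => rfl, fun _ _ => rfl, ?_⟩
  exact hasType_zero _

theorem QReal_zero : QReal F 0 := by
  refine ⟨PUnit, inferInstance, inferInstance, 0, 1, fun _ _ => rfl, fun _ => rfl, ?_⟩
  exact hasType_zero _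

theorem SReal_add {m m' : Multiset ℕ} (h : SReal F m) (h' : SReal F m') : SReal F (m + m') := by
  obtain ⟨V, _, _, B, f, h1, h2, h3, h4⟩ := h
  obtain ⟨V', _, _, B', f', h1', h2', h3', h4'⟩ := h'
  let C : (V × V') →ₗ[F] (V × V') →ₗ[F] F := LinearMap.mk₂ F (fun x y => B x.1 y.1 + B' x.2 y.2)
    (by intro x x' y; simp only [Prod.fst_add, Prod.snd_add, map_add, LinearMap.add_apply]; ring)
    (by intro c x y; simp only [Prod.smul_fst, Prod.smul_snd, map_smul, LinearMap.smul_apply, smul_add])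
    (by intro x y y'; simp only [Prod.fst_add, Prod.snd_add, map_add]; ring)
    (by intro c x y; simp only [Prod.smul_fst, Prod.smul_snd, map_smul, smul_add])
  have hC : ∀ x y, C x y = B x.1 y.1 + B' x.2 y.2 := fun _ _ => rfl
  refine ⟨V × V', inferInstance, inferInstance, C, LinearMap.prodMap f f', ?_, ?_, ?_, ?_⟩
  · intro x; rw [hC, h1, h1', add_zero]
  · intro x hx
    apply Prod.ext
    · apply h2
      intro y
      have := hx (y, 0)
      rw [hC, map_zero, add_zero] at this
      exact this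
    · apply h2'
      intro y
      have := hx (0, y)
      rw [hC, map_zero, zero_add] at this
      exact this
  · intro x y
    rw [hC, hC]
    show B (f x.1) (f y.1) + B' (f' x.2) (f' y.2) = _
    rw [h3, h3']
  · rw [uni_add]
    exact h4.prod h4'

theorem QReal_add {m m' : Multiset ℕ} (h : QReal F m) (h' : QReal F m') : QReal F (m + m') := by
  obtain ⟨V, _, _, Q, f, h1, h2, h3⟩ := h
  obtain ⟨V', _, _, Q', f', h1', h2', h3'⟩ := h'
  have hC : ∀ x, Q.prod Q' x = Q x.1 + Q' x.2 := fun _ => rfl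
  have hpol : ∀ x y, QuadraticMap.polar (Q.prod Q') x y = QuadraticMap.polar Q x.1 y.1 + QuadraticMap.polar Q' x.2 y.2 := by
    intro x y
    rw [QuadraticMap.polar, QuadraticMap.polar, QuadraticMap.polar, hC, hC, hC, Prod.fst_add, Prod.snd_add]
    ring
  refine ⟨V × V', inferInstance, inferInstance, Q.prod Q', LinearMap.prodMap f f', ?_, ?_, ?_⟩
  · intro x hx
    apply Prod.ext
    · apply h1
      intro y
      have := hx (y, 0)
      rw [hpol] at this
      simpa using this
    · apply h1'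
      intro y
      have := hx (0, y)
      rw [hpol] at this
      simpa using this
  · intro x
    rw [hC, hC]
    show Q (f x.1) + Q' (f' x.2) = _
    rw [h2, h2']
  · rw [uni_add]
    exact h3.prod h3'

/-- a criterion for a single unipotent block -/
theorem hasType_single {V : Type v} [AddCommGroup V] [Module F V] [FiniteDimensional F V] (g : Module.End F V) (j : ℕ) (hj : 0 < j)
    (hdim : finrank F V = j) (hnil : (g - 1) ^ j = 0) (hne : (g - 1) ^ (j - 1) ≠ 0) : HasType g {((X - 1 : F[X]), j)} := by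
  obtain ⟨s, hs⟩ := exists_hasType g
  have hN : ∀ a : ℕ, aeval g ((X - 1 : F[X]) ^ a) = (g - 1) ^ a := by
    intro a
    rw [map_pow, map_sub, aeval_X, map_one]
  have h1 : ∀ d ∈ s, d.1 = X - 1 := by
    intro d hd
    have h2 := (hs.aeval_eq_zero_iff ((X - 1) ^ j)).mp (by rw [hN, hnil]) d hd
    have hg := hs.good d hd
    have h3 : d.1 ∣ (X - 1) ^ j := (dvd_pow_self _ hg.2.2.ne').trans h2
    exact eq_of_monic_of_associated hg.1 X1_monic (hg.2.1.associated_of_dvd X1_irreducible (hg.2.1.prime.dvd_of_dvd_pow h3))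
  have h2 : ∃ d ∈ s, j ≤ d.2 := by
    by_contra hcon
    push Not at hcon
    apply hne
    rw [← hN]
    rw [hs.aeval_eq_zero_iff]
    intro d hd
    rw [h1 d hd]
    apply pow_dvd_pow
    have := hcon d hd
    omega
  obtain ⟨d, hd, hjd⟩ := h2
  obtain ⟨s', rfl⟩ := Multiset.exists_cons_of_mem hd
  have h3 := hs.finrank
  rw [hdim, Multiset.map_cons, Multiset.sum_cons, h1 d hd, X1_natDegree, one_mul] at h3
  have h4 : (s'.map fun d => d.1.natDegree * d.2).sum = 0 := by omega
  have h5 : s' = 0 := by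
    rw [Multiset.eq_zero_iff_forall_notMem]
    intro x hx
    rw [Multiset.sum_eq_zero_iff] at h4
    have h6 := h4 _ (Multiset.mem_map_of_mem _ hx)
    have hx' : x ∈ d ::ₘ s' := Multiset.mem_cons_of_mem hx
    rw [h1 x hx', X1_natDegree, one_mul] at h6
    have := (hs.good x hx').2.2
    omega
  subst h5
  have h6 : d.2 = j := by omega
  have h7 : d = ((X - 1 : F[X]), j) := Prod.ext (h1 d hd) h6
  rw [h7] at hs
  exact hs

theorem topCoeff_mk (m : ℕ) (p : F[X]) (hm : 0 < m) : topCoeff (X ^ m : F[X]) (monic_X_pow m) (AdjoinRoot.mk _ p) = p.coeff (m - 1) := by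
  show (AdjoinRoot.modByMonicHom (monic_X_pow m) (AdjoinRoot.mk _ p)).coeff ((X ^ m : F[X]).natDegree - 1) = _
  rw [AdjoinRoot.modByMonicHom_mk, natDegree_X_pow]
  conv_rhs => rw [← modByMonic_add_div p (X ^ m)]
  rw [coeff_add, coeff_X_pow_mul', if_neg (by omega), add_zero]

/-! #### Pairs -/

section Pair

variable (j : ℕ)

/-- the ring `F[X]/(X-1)^j` -/
abbrev R1 (F : Type u) [Field F] (j : ℕ) := AdjoinRoot ((X - 1 : F[X]) ^ j)

theorem root_unit (j : ℕ) : IsUnit (AdjoinRoot.root ((X - 1 : F[X]) ^ j)) := by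
  have h1 : IsNilpotent (AdjoinRoot.root ((X - 1 : F[X]) ^ j) - 1) := by
    refine ⟨j, ?_⟩
    rw [← AdjoinRoot.mk_X, ← map_one (AdjoinRoot.mk ((X - 1 : F[X]) ^ j)), ← map_sub, ← map_pow, AdjoinRoot.mk_self]
  have h2 := h1.isUnit_one_add
  rwa [add_sub_cancel] at h2

/-- multiplication by the inverse of the root -/
theorem type_inv_root (hj : 0 < j) (r : (R1 F j)ˣ) (hr : (r : R1 F j) = AdjoinRoot.root _) :
    HasType (LinearMap.mulLeft F ((r⁻¹ : (R1 F j)ˣ) : R1 F j)) {((X - 1 : F[X]), j)} := by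
  have hfin := finite_adjoinRoot ((X - 1 : F[X]) ^ j) (pow_ne_zero _ X1_irreducible.ne_zero)
  have hpow : ∀ a : ℕ, (LinearMap.mulLeft F ((r⁻¹ : (R1 F j)ˣ) : R1 F j) - 1) ^ a = LinearMap.mulLeft F ((((r⁻¹ : (R1 F j)ˣ) : R1 F j) - 1) ^ a) := by
    intro a
    rw [← LinearMap.pow_mulLeft]
    congr 1
    refine LinearMap.ext fun x => ?_
    show ((r⁻¹ : (R1 F j)ˣ) : R1 F j) * x - x = (((r⁻¹ : (R1 F j)ˣ) : R1 F j) - 1) * x
    rw [sub_mul, one_mul]
  have hid : ∀ a : ℕ, (((r⁻¹ : (R1 F j)ˣ) : R1 F j) - 1) ^ a = ((r⁻¹ : (R1 F j)ˣ) : R1 F j) ^ a * (-1) ^ a * AdjoinRoot.mk _ ((X - 1) ^ a) := by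
    intro a
    rw [map_pow, map_sub, AdjoinRoot.mk_X, map_one, ← hr, ← mul_pow, ← mul_pow]
    congr 1
    rw [mul_assoc, mul_sub, mul_sub, neg_one_mul, mul_neg, Units.inv_mul]
    ring
  apply hasType_single _ j hj
  · rw [finrank_adjoinRoot _ (pow_ne_zero _ X1_irreducible.ne_zero), X1_monic.natDegree_pow, X1_natDegree, mul_one]
  · rw [hpow, hid, AdjoinRoot.mk_self, mul_zero]
    exact LinearMap.mulLeft_zero_eq_zero F _
  · rw [hpow, hid]
    intro h
    have h1 := LinearMap.congr_fun h 1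
    rw [LinearMap.mulLeft_apply, mul_one, LinearMap.zero_apply] at h1
    have hu : IsUnit (((r⁻¹ : (R1 F j)ˣ) : R1 F j) ^ (j - 1) * (-1) ^ (j - 1)) :=
      ((r⁻¹).isUnit.pow _).mul (isUnit_neg_one.pow _)
    rw [hu.mul_right_eq_zero, AdjoinRoot.mk_eq_zero] at h1
    have h2 := natDegree_le_of_dvd h1 (pow_ne_zero _ X1_irreducible.ne_zero)
    rw [X1_monic.natDegree_pow, X1_monic.natDegree_pow, X1_natDegree] at h2
    omega

theorem SReal_pair (hj : 0 < j) : SReal F {j, j} := by
  obtain ⟨r, hr⟩ := root_unit (F := F) j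
  let tc := topCoeff ((X - 1 : F[X]) ^ j) (X1_monic.pow j)
  let C : (R1 F j × R1 F j) →ₗ[F] (R1 F j × R1 F j) →ₗ[F] F := LinearMap.mk₂ F (fun x y => tc (x.1 * y.2) - tc (x.2 * y.1))
    (by intro x x' y; simp only [Prod.fst_add, Prod.snd_add, add_mul, map_add]; ring)
    (by intro c x y; simp only [Prod.smul_fst, Prod.smul_snd, smul_mul_assoc, map_smul, smul_sub])
    (by intro x y y'; simp only [Prod.fst_add, Prod.snd_add, mul_add, map_add]; ring)
    (by intro c x y; simp only [Prod.smul_fst, Prod.smul_snd, mul_smul_comm, map_smul, smul_sub])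
  have hC : ∀ x y, C x y = tc (x.1 * y.2) - tc (x.2 * y.1) := fun _ _ => rfl
  refine ⟨R1 F j × R1 F j, inferInstance, inferInstance, C,
    LinearMap.prodMap (LinearMap.mulLeft F (AdjoinRoot.root _)) (LinearMap.mulLeft F ((r⁻¹ : (R1 F j)ˣ) : R1 F j)), ?_, ?_, ?_, ?_⟩
  · intro x; rw [hC, mul_comm, sub_self]
  · intro x hx
    apply Prod.ext
    · apply topCoeff_nondeg _ (X1_monic.pow j)
      intro b
      have := hx (0, b)
      rw [hC, mul_zero, map_zero, sub_zero] at this
      exact this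
    · apply topCoeff_nondeg _ (X1_monic.pow j)
      intro b
      have := hx (b, 0)
      rw [hC, mul_zero, map_zero, zero_sub, neg_eq_zero] at this
      exact this
  · intro x y
    rw [hC, hC]
    show tc ((AdjoinRoot.root _ * x.1) * (((r⁻¹ : (R1 F j)ˣ) : R1 F j) * y.2)) - tc ((((r⁻¹ : (R1 F j)ˣ) : R1 F j) * x.2) * (AdjoinRoot.root _ * y.1)) = _
    rw [← hr, mul_mul_mul_comm, Units.mul_inv, one_mul, mul_mul_mul_comm, Units.inv_mul, one_mul]
  · have := (hasType_cyc _ (good_X1 (F := F) hj)).prod (type_inv_root j hj r hr)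
    exact this

theorem QReal_pair (hj : 0 < j) : QReal F {j, j} := by
  obtain ⟨r, hr⟩ := root_unit (F := F) j
  let tc := topCoeff ((X - 1 : F[X]) ^ j) (X1_monic.pow j)
  let C : LinearMap.BilinMap F (R1 F j × R1 F j) F := LinearMap.mk₂ F (fun x y => tc (x.1 * y.2))
    (by intro x x' y; simp only [Prod.fst_add, add_mul, map_add])
    (by intro c x y; simp only [Prod.smul_fst, smul_mul_assoc, map_smul])
    (by intro x y y'; simp only [Prod.snd_add, mul_add, map_add])
    (by intro c x y; simp only [Prod.smul_snd, mul_smul_comm, map_smul])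
  have hC : ∀ x y, C x y = tc (x.1 * y.2) := fun _ _ => rfl
  refine ⟨R1 F j × R1 F j, inferInstance, inferInstance, C.toQuadraticMap,
    LinearMap.prodMap (LinearMap.mulLeft F (AdjoinRoot.root _)) (LinearMap.mulLeft F ((r⁻¹ : (R1 F j)ˣ) : R1 F j)), ?_, ?_, ?_⟩
  · intro x hx
    apply Prod.ext
    · apply topCoeff_nondeg _ (X1_monic.pow j)
      intro b
      have := hx (0, b)
      rw [LinearMap.BilinMap.polar_toQuadraticMap, hC, hC, zero_mul, map_zero, add_zero] at this
      exact this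
    · apply topCoeff_nondeg _ (X1_monic.pow j)
      intro b
      have := hx (b, 0)
      rw [LinearMap.BilinMap.polar_toQuadraticMap, hC, hC, mul_zero, map_zero, zero_add, mul_comm] at this
      exact this
  · intro x
    rw [LinearMap.BilinMap.toQuadraticMap_apply, LinearMap.BilinMap.toQuadraticMap_apply, hC, hC]
    show tc ((AdjoinRoot.root _ * x.1) * (((r⁻¹ : (R1 F j)ˣ) : R1 F j) * x.2)) = _
    rw [← hr, mul_mul_mul_comm, Units.mul_inv, one_mul]
  · have := (hasType_cyc _ (good_X1 (F := F) hj)).prod (type_inv_root j hj r hr)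
    exact this

end Pair

end Cfsg.Agent.Lib.FormJordan2
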