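import Cfsg.Agent.Lib.FormJordan2

set_option autoImplicit false
set_option linter.unusedSectionVars false

/-! Existence of regular unipotent isometries (helper43). -/

namespace Cfsg.Agent.Lib.FormJordan3

open Module Polynomial Cfsg.Agent.Lib.FXMod Cfsg.Agent.Lib.FXType Cfsg.Agent.Lib.GLClass Cfsg.Agent.Lib.JordanType Cfsg.Agent.Lib.FormJordan2

universe u v

variable {F : Type u} [Field F]

/-- the ring `F[X]/X^j` -/
abbrev P0 (F : Type u) [Field F] (j : ℕ) := AdjoinRoot ((X : F[X]) ^ j)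

/-- top coefficient -/
noncomputable def tc (F : Type u) [Field F] (j : ℕ) : P0 F j →ₗ[F] F := topCoeff ((X : F[X]) ^ j) (monic_X_pow j)

theorem tc_nondeg (j : ℕ) (a : P0 F j) (h : ∀ b, tc F j (a * b) = 0) : a = 0 := topCoeff_nondeg _ (monic_X_pow j) a h

theorem tc_mk (j : ℕ) (hj : 0 < j) (p : F[X]) : tc F j (AdjoinRoot.mk _ p) = p.coeff (j - 1) := topCoeff_mk j p hj

/-- the root -/
noncomputable def rt (F : Type u) [Field F] (j : ℕ) : P0 F j := AdjoinRoot.root _

theorem rt_pow (j : ℕ) : rt F j ^ j = 0 := by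
  rw [rt, ← AdjoinRoot.mk_X, ← map_pow, AdjoinRoot.mk_self]

theorem tc_rt (j : ℕ) (hj : 0 < j) : tc F j (rt F j ^ (j - 1)) = 1 := by
  rw [rt, ← AdjoinRoot.mk_X, ← map_pow, tc_mk j hj, coeff_X_pow_self]

theorem finrank_P0 (j : ℕ) : finrank F (P0 F j) = j := by
  rw [finrank_adjoinRoot _ (pow_ne_zero _ X_ne_zero), natDegree_X_pow]

instance finite_P0 (j : ℕ) : FiniteDimensional F (P0 F j) := finite_adjoinRoot _ (pow_ne_zero _ X_ne_zero)

/-- `X ↦ -X` -/
noncomputable def σ (F : Type u) [Field F] (j : ℕ) : P0 F j →ₐ[F] P0 F j :=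
  AdjoinRoot.liftAlgHom _ (Algebra.ofId F (P0 F j)) (-(rt F j)) (by
    show eval₂ (algebraMap F (P0 F j)) (-(rt F j)) (X ^ j) = 0
    rw [eval₂_pow, eval₂_X, neg_pow, rt_pow, mul_zero])

theorem σ_rt (j : ℕ) : σ F j (rt F j) = - rt F j := AdjoinRoot.liftAlgHom_root _ _ _ _

theorem σ_mk (j : ℕ) (p : F[X]) : σ F j (AdjoinRoot.mk _ p) = AdjoinRoot.mk _ (p.comp (-X)) := by
  rw [← AdjoinRoot.aeval_eq, ← Polynomial.aeval_algHom_apply, ← AdjoinRoot.aeval_eq, Polynomial.aeval_comp]
  congr 2
  rw [map_neg, aeval_X]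
  exact σ_rt j

theorem coeff_comp_neg (p : F[X]) (i : ℕ) : (p.comp (-X)).coeff i = (-1) ^ i * p.coeff i := by
  have : (-X : F[X]) = C (-1) * X := by rw [C_neg, C_1, neg_one_mul]
  rw [this, comp_C_mul_X_coeff, mul_comm]

theorem tc_σ (j : ℕ) (hj : 0 < j) (a : P0 F j) : tc F j (σ F j a) = (-1) ^ (j - 1) * tc F j a := by
  obtain ⟨p, rfl⟩ := AdjoinRoot.mk_surjective a
  rw [σ_mk, tc_mk j hj, tc_mk j hj, coeff_comp_neg]

theorem σ_σ (j : ℕ) (a : P0 F j) : σ F j (σ F j a) = a := by
  obtain ⟨p, rfl⟩ := AdjoinRoot.mk_surjective a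
  rw [σ_mk, σ_mk, comp_neg_X_comp_neg_X]

/-- the form -/
noncomputable def Bf (F : Type u) [Field F] (j : ℕ) : P0 F j →ₗ[F] P0 F j →ₗ[F] F :=
  LinearMap.mk₂ F (fun x y => tc F j (x * σ F j y))
    (by intro x x' y; rw [add_mul, map_add])
    (by intro c x y; rw [smul_mul_assoc, map_smul])
    (by intro x y y'; rw [map_add, mul_add, map_add])
    (by intro c x y; rw [map_smul, mul_smul_comm, map_smul])

theorem Bf_apply (j : ℕ) (x y : P0 F j) : Bf F j x y = tc F j (x * σ F j y) := rfl

theorem Bf_swap (j : ℕ) (hj : 0 < j) (x y : P0 F j) : Bf F j y x = (-1) ^ (j - 1) * Bf F j x y := by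
  rw [Bf_apply, Bf_apply, ← tc_σ j hj, map_mul (σ F j), σ_σ, mul_comm]

theorem Bf_nondeg (j : ℕ) (x : P0 F j) (h : ∀ y, Bf F j x y = 0) : x = 0 := by
  apply tc_nondeg
  intro b
  have := h (σ F j b)
  rw [Bf_apply, σ_σ] at this
  exact this

/-- an invertible element `g = (1 + x)/(1 - x)` with `g σ(g) = 1` -/
theorem exists_g (j : ℕ) : ∃ (g u : P0 F j), g * σ F j g = 1 ∧ IsUnit u ∧ g - 1 = 2 * rt F j * u := by
  have hnil : IsNilpotent (rt F j) := ⟨j, rt_pow j⟩
  obtain ⟨v, hv⟩ : IsUnit (1 - rt F j) := by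
    have := (hnil.neg).isUnit_one_add
    rwa [← sub_eq_add_neg] at this
  obtain ⟨w, hw⟩ : IsUnit (1 + rt F j) := hnil.isUnit_one_add
  let vi : P0 F j := ((v⁻¹ : (P0 F j)ˣ) : P0 F j)
  let wi : P0 F j := ((w⁻¹ : (P0 F j)ˣ) : P0 F j)
  have hvi : vi * (1 - rt F j) = 1 := by rw [← hv]; exact Units.inv_mul v
  have hwi : wi * (1 + rt F j) = 1 := by rw [← hw]; exact Units.inv_mul w
  have hσ : σ F j vi * (1 + rt F j) = 1 := by
    have := congrArg (σ F j) hvi
    rwa [map_mul, map_sub, map_one, σ_rt, sub_neg_eq_add] at this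
  refine ⟨(1 + rt F j) * vi, vi, ?_, (v⁻¹).isUnit, ?_⟩
  · rw [map_mul, map_add, map_one, σ_rt, ← sub_eq_add_neg]
    calc (1 + rt F j) * vi * ((1 - rt F j) * σ F j vi) = (vi * (1 - rt F j)) * (σ F j vi * (1 + rt F j)) := by ring
      _ = 1 := by rw [hvi, hσ, one_mul]
  · calc (1 + rt F j) * vi - 1 = (1 + rt F j) * vi - vi * (1 - rt F j) := by rw [hvi]
      _ = 2 * rt F j * vi := by ring

theorem exists_cayley (h2 : (2 : F) ≠ 0) (j : ℕ) (hj : 0 < j) : ∃ f : Module.End F (P0 F j),
    (∀ x y, Bf F j (f x) (f y) = Bf F j x y) ∧ HasType f {((X - 1 : F[X]), j)} := by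
  obtain ⟨g, u, hg, hu, hgu⟩ := exists_g (F := F) j
  refine ⟨LinearMap.mulLeft F g, ?_, ?_⟩
  · intro x y
    rw [Bf_apply, Bf_apply, LinearMap.mulLeft_apply, LinearMap.mulLeft_apply, map_mul (σ F j), mul_mul_mul_comm, hg, one_mul]
  · have hpow : ∀ a : ℕ, (LinearMap.mulLeft F g - 1) ^ a = LinearMap.mulLeft F ((g - 1) ^ a) := by
      intro a
      rw [← LinearMap.pow_mulLeft]
      congr 1
      refine LinearMap.ext fun x => ?_
      show g * x - x = (g - 1) * x
      rw [sub_mul, one_mul]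
    apply hasType_single _ j hj (finrank_P0 j)
    · rw [hpow, hgu, mul_pow, mul_pow, rt_pow, mul_zero, zero_mul]
      exact LinearMap.mulLeft_zero_eq_zero F _
    · rw [hpow, hgu, mul_pow, mul_pow]
      intro h
      have h1 := LinearMap.congr_fun h 1
      rw [LinearMap.mulLeft_apply, mul_one, LinearMap.zero_apply] at h1
      have h2' : IsUnit (2 : P0 F j) := by
        have : (2 : P0 F j) = algebraMap F _ 2 := by rw [map_ofNat]
        rw [this]
        exact (IsUnit.mk0 _ h2).map _
      rw [mul_comm, ← mul_assoc, ((hu.pow _).mul (h2'.pow _)).mul_right_eq_zero] at h1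
      have h3 := tc_rt (F := F) j hj
      rw [h1, map_zero] at h3
      exact zero_ne_one h3

theorem SReal_even_odd_char (h2 : (2 : F) ≠ 0) (j : ℕ) (hj : 0 < j) (he : Even j) : SReal F {j} := by
  obtain ⟨f, hf, ht⟩ := exists_cayley h2 j hj
  refine ⟨P0 F j, inferInstance, inferInstance, Bf F j, f, ?_, Bf_nondeg j, hf, ht⟩
  intro x
  have h1 := Bf_swap j hj x x
  have h3 : Odd (j - 1) := by
    obtain ⟨k, hk⟩ := he
    exact ⟨k - 1, by omega⟩
  rw [h3.neg_one_pow, neg_one_mul] at h1
  have h4 : 2 * Bf F j x x = 0 := by rw [two_mul]; nth_rewrite 1 [h1]; ring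
  exact (mul_eq_zero.mp h4).resolve_left h2

theorem QReal_odd (h2 : (2 : F) ≠ 0) (j : ℕ) (ho : Odd j) : QReal F {j} := by
  have hj : 0 < j := ho.pos
  obtain ⟨f, hf, ht⟩ := exists_cayley h2 j hj
  let B : LinearMap.BilinMap F (P0 F j) F := Bf F j
  refine ⟨P0 F j, inferInstance, inferInstance, B.toQuadraticMap, f, ?_, ?_, ht⟩
  · intro x hx
    apply Bf_nondeg
    intro y
    have h1 := hx y
    rw [LinearMap.BilinMap.polar_toQuadraticMap] at h1
    have h3 : B y x = B x y := by
      have := Bf_swap j hj x y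
      rw [Even.neg_one_pow (by obtain ⟨k, hk⟩ := ho; exact ⟨k, by omega⟩), one_mul] at this
      exact this
    rw [h3, ← two_mul] at h1
    exact (mul_eq_zero.mp h1).resolve_left h2
  · intro x
    exact hf x x

/-! #### Characteristic two -/

section Two

variable [CharP F 2]

theorem two_eq_zero' : (2 : F) = 0 := CharTwo.two_eq_zero

/-- the coefficient of `X^m` in the product of the representatives -/
noncomputable def hh (F : Type u) [Field F] (m : ℕ) (a b : P0 F m) : F :=
  (AdjoinRoot.modByMonicHom (monic_X_pow m) a * AdjoinRoot.modByMonicHom (monic_X_pow m) b).coeff m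

noncomputable def C2 (F : Type u) [Field F] (m : ℕ) : LinearMap.BilinMap F (P0 F m × P0 F m) F :=
  LinearMap.mk₂ F (fun x y => hh F m x.1 y.1 + hh F m x.2 y.2 + tc F m (x.1 * y.2))
    (by intro x x' y; simp only [hh, Prod.fst_add, Prod.snd_add, add_mul, map_add, coeff_add]; ring)
    (by intro c x y; simp only [hh, Prod.smul_fst, Prod.smul_snd, smul_mul_assoc, map_smul, coeff_smul, smul_add])
    (by intro x y y'; simp only [hh, Prod.fst_add, Prod.snd_add, mul_add, map_add, coeff_add]; ring)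
    (by intro c x y; simp only [hh, Prod.smul_fst, Prod.smul_snd, mul_smul_comm, map_smul, coeff_smul, smul_add])

theorem C2_apply (m : ℕ) (x y : P0 F m × P0 F m) : C2 F m x y = hh F m x.1 y.1 + hh F m x.2 y.2 + tc F m (x.1 * y.2) := rfl

theorem hh_comm (m : ℕ) (a b : P0 F m) : hh F m a b = hh F m b a := by rw [hh, hh, mul_comm]

theorem C2_polar (m : ℕ) (x y : P0 F m × P0 F m) : QuadraticMap.polar (C2 F m).toQuadraticMap x y = tc F m (x.1 * y.2) + tc F m (y.1 * x.2) := by
  rw [LinearMap.BilinMap.polar_toQuadraticMap, C2_apply, C2_apply, hh_comm m y.1, hh_comm m y.2]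
  have := CharTwo.two_eq_zero (R := F)
  linear_combination (hh F m x.1 y.1 + hh F m x.2 y.2) * this

/-- `(a, b) ↦ (b, a + X b)` -/
noncomputable def f2 (F : Type u) [Field F] (m : ℕ) : Module.End F (P0 F m × P0 F m) where
  toFun x := (x.2, x.1 + rt F m * x.2)
  map_add' x y := by
    apply Prod.ext
    · rfl
    · show (x.1 + y.1) + rt F m * (x.2 + y.2) = (x.1 + rt F m * x.2) + (y.1 + rt F m * y.2)
      ring
  map_smul' c x := by
    apply Prod.ext
    · rfl
    · show c • x.1 + rt F m * (c • x.2) = c • (x.1 + rt F m * x.2)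
      rw [smul_add, mul_smul_comm]

theorem hh_rt (m : ℕ) (hm : 0 < m) (b : P0 F m) : hh F m (rt F m * b) (rt F m * b) = tc F m (rt F m * (b * b)) := by
  obtain ⟨q, rfl⟩ := AdjoinRoot.mk_surjective b
  set p := q %ₘ X ^ m with hp
  have hq : AdjoinRoot.mk (X ^ m : F[X]) q = AdjoinRoot.mk _ p := by
    conv_lhs => rw [← modByMonic_add_div q (X ^ m)]
    rw [map_add, map_mul, AdjoinRoot.mk_self, zero_mul, add_zero]
  have hdeg : p.degree < (X ^ m : F[X]).degree := degree_modByMonic_lt q (monic_X_pow m)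
  rw [hq]
  have h1 : rt F m * (AdjoinRoot.mk _ p * AdjoinRoot.mk _ p) = AdjoinRoot.mk _ (X * (p * p)) := by
    rw [rt, ← AdjoinRoot.mk_X, ← map_mul, ← map_mul]
  have h2 : rt F m * AdjoinRoot.mk _ p = AdjoinRoot.mk _ (X * p) := by
    rw [rt, ← AdjoinRoot.mk_X, ← map_mul]
  rw [h1, tc_mk m hm, h2, hh, AdjoinRoot.modByMonicHom_mk]
  -- `X p = (X p mod X^m) + c X^m`
  obtain ⟨c, hc⟩ : ∃ c : F[X], X * p = (X * p) %ₘ X ^ m + X ^ m * c := ⟨_, (modByMonic_add_div (X * p) (X ^ m)).symm⟩
  have hc2 : ((X * p) %ₘ X ^ m) * ((X * p) %ₘ X ^ m) = (X * p) * (X * p) + X ^ m * (X ^ m * (c * c)) + (2 : F[X]) * (-(X * p * (X ^ m * c))) := by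
    have : (X * p) %ₘ X ^ m = X * p - X ^ m * c := by rw [eq_sub_iff_add_eq]; exact hc.symm
    rw [this]; ring
  have h20 : (2 : F[X]) = 0 := CharTwo.two_eq_zero
  rw [hc2, h20, zero_mul, add_zero, coeff_add, coeff_X_pow_mul', if_pos le_rfl, Nat.sub_self, coeff_X_pow_mul', if_neg (by omega), add_zero]
  obtain ⟨m', rfl⟩ : ∃ m', m = m' + 1 := ⟨m - 1, by omega⟩
  rw [mul_assoc, coeff_X_mul, Nat.add_sub_cancel]
  congr 1
  ring

theorem f2_inv (m : ℕ) (hm : 0 < m) (x : P0 F m × P0 F m) : (C2 F m).toQuadraticMap (f2 F m x) = (C2 F m).toQuadraticMap x := by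
  obtain ⟨a, b⟩ := x
  rw [LinearMap.BilinMap.toQuadraticMap_apply, LinearMap.BilinMap.toQuadraticMap_apply]
  show hh F m b b + hh F m (a + rt F m * b) (a + rt F m * b) + tc F m (b * (a + rt F m * b)) = hh F m a a + hh F m b b + tc F m (a * b)
  have h1 : hh F m (a + rt F m * b) (a + rt F m * b) = hh F m a a + hh F m (rt F m * b) (rt F m * b) + 2 * hh F m a (rt F m * b) := by
    simp only [hh, map_add, add_mul, mul_add, coeff_add]
    rw [mul_comm (AdjoinRoot.modByMonicHom (monic_X_pow m) (rt F m * b)) (AdjoinRoot.modByMonicHom (monic_X_pow m) a)]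
    ring
  have h2 : tc F m (b * (a + rt F m * b)) = tc F m (a * b) + tc F m (rt F m * (b * b)) := by
    rw [← map_add]
    congr 1
    ring
  rw [h1, h2, hh_rt m hm]
  have := CharTwo.two_eq_zero (R := F)
  linear_combination (hh F m a (rt F m * b) + tc F m (rt F m * (b * b))) * this

theorem QReal_even_char_two (m : ℕ) (hm : 0 < m) : QReal F {2 * m} := by
  refine ⟨P0 F m × P0 F m, inferInstance, inferInstance, (C2 F m).toQuadraticMap, f2 F m, ?_, f2_inv m hm, ?_⟩
  · intro x hx
    apply Prod.ext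
    · apply tc_nondeg
      intro b
      have := hx (0, b)
      rw [C2_polar, zero_mul, map_zero, add_zero] at this
      exact this
    · apply tc_nondeg
      intro b
      have := hx (b, 0)
      rw [C2_polar, mul_zero, map_zero, zero_add, mul_comm] at this
      exact this
  · -- `(f - 1)^2 = X f`
    have h20 : (2 : P0 F m) = 0 := by
      have : (2 : P0 F m) = algebraMap F _ 2 := by rw [map_ofNat]
      rw [this, CharTwo.two_eq_zero, map_zero]
    have hN : ∀ x, (f2 F m - 1) x = (x.2 - x.1, x.1 + rt F m * x.2 - x.2) := fun x => rfl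
    have hNN : ∀ x, (f2 F m - 1) ((f2 F m - 1) x) = (rt F m * x.2, rt F m * (x.1 + rt F m * x.2)) := by
      intro x
      rw [hN, hN]
      apply Prod.ext
      · show (x.1 + rt F m * x.2 - x.2) - (x.2 - x.1) = rt F m * x.2
        linear_combination (x.1 - x.2) * h20
      · show (x.2 - x.1) + rt F m * (x.1 + rt F m * x.2 - x.2) - (x.1 + rt F m * x.2 - x.2) = rt F m * (x.1 + rt F m * x.2)
        linear_combination (x.2 - x.1 - rt F m * x.2) * h20
    have hNpow : ∀ (k : ℕ) (x : P0 F m × P0 F m), ((f2 F m - 1) ^ (2 * k)) x = (rt F m ^ k * ((f2 F m ^ k) x).1, rt F m ^ k * ((f2 F m ^ k) x).2) := by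
      intro k
      induction k with
      | zero => intro x; simp
      | succ k ih =>
        intro x
        rw [show 2 * (k + 1) = 2 + 2 * k by ring, pow_add, Module.End.mul_apply, ih, pow_two, Module.End.mul_apply, hNN]
        rw [pow_succ' (f2 F m), Module.End.mul_apply]
        apply Prod.ext
        · show rt F m * (rt F m ^ k * ((f2 F m ^ k) x).2) = rt F m ^ (k + 1) * ((f2 F m ^ k) x).2
          ring
        · show rt F m * (rt F m ^ k * ((f2 F m ^ k) x).1 + rt F m * (rt F m ^ k * ((f2 F m ^ k) x).2)) = rt F m ^ (k + 1) * (((f2 F m ^ k) x).1 + rt F m * ((f2 F m ^ k) x).2)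
          ring
    apply hasType_single _ (2 * m) (by omega)
    · rw [Module.finrank_prod, finrank_P0]; ring
    · refine LinearMap.ext fun x => ?_
      rw [hNpow, rt_pow, zero_mul, zero_mul]
      rfl
    · intro h
      have h1 := LinearMap.congr_fun h (1, 0)
      have h3 : (f2 F m - 1) ((1 : P0 F m), (0 : P0 F m)) = (1, 1) := by
        rw [hN]
        apply Prod.ext
        · show (0 : P0 F m) - 1 = 1
          linear_combination (-1) * h20
        · show (1 : P0 F m) + rt F m * 0 - 0 = 1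
          ring
      have h4 : ∀ k : ℕ, rt F m ^ (m - 1) * ((f2 F m ^ k) ((1 : P0 F m), (1 : P0 F m))).1 = rt F m ^ (m - 1) ∧ rt F m ^ (m - 1) * ((f2 F m ^ k) ((1 : P0 F m), (1 : P0 F m))).2 = rt F m ^ (m - 1) := by
        intro k
        induction k with
        | zero => exact ⟨mul_one _, mul_one _⟩
        | succ k ih =>
          rw [pow_succ', Module.End.mul_apply]
          refine ⟨ih.2, ?_⟩
          show rt F m ^ (m - 1) * (((f2 F m ^ k) ((1 : P0 F m), (1 : P0 F m))).1 + rt F m * ((f2 F m ^ k) ((1 : P0 F m), (1 : P0 F m))).2) = rt F m ^ (m - 1)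
          have h5 : rt F m ^ (m - 1) * rt F m = 0 := by
            rw [← pow_succ, Nat.sub_add_cancel (by omega), rt_pow]
          rw [mul_add, ih.1, ← mul_assoc, h5, zero_mul, add_zero]
      rw [show 2 * m - 1 = 2 * (m - 1) + 1 by omega, pow_succ, Module.End.mul_apply, h3, hNpow, LinearMap.zero_apply] at h1
      have h6 := (h4 (m - 1)).1
      have h7 : rt F m ^ (m - 1) * ((f2 F m ^ (m - 1)) ((1 : P0 F m), (1 : P0 F m))).1 = 0 := congrArg Prod.fst h1
      rw [h7] at h6
      have h8 := tc_rt (F := F) m hm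
      rw [← h6, map_zero] at h8
      exact zero_ne_one h8

end Two

/-! #### Assembling -/

theorem SReal_of_QReal [CharP F 2] {m : Multiset ℕ} (h : QReal F m) : SReal F m := by
  obtain ⟨V, _, _, Q, f, h1, h2, h3⟩ := h
  refine ⟨V, inferInstance, inferInstance, QuadraticMap.polarBilin Q, f, ?_, ?_, ?_, h3⟩
  · intro x
    rw [QuadraticMap.polarBilin_apply_apply, QuadraticMap.polar_self, ← Nat.cast_smul_eq_nsmul F, Nat.cast_ofNat, CharTwo.two_eq_zero, zero_smul]
  · intro x hx
    exact h1 x hx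
  · intro x y
    rw [QuadraticMap.polarBilin_apply_apply, QuadraticMap.polarBilin_apply_apply, QuadraticMap.polar, QuadraticMap.polar, ← map_add f, h2, h2, h2]

/-- induction principle -/
theorem multiset_induction {P : Multiset ℕ → Prop} (bad : ℕ → Prop) (h0 : P 0) (hadd : ∀ m m', P m → P m' → P (m + m'))
    (hpair : ∀ j, 0 < j → P {j, j}) (hsingle : ∀ j, 0 < j → ¬ bad j → P {j}) (m : Multiset ℕ) (hpos : ∀ j ∈ m, 0 < j)
    (hm : ∀ j, bad j → Even (m.count j)) : P m := by
  classical
  induction h : Multiset.card m using Nat.strong_induction_on generalizing m with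
  | _ n ih =>
    rcases Multiset.empty_or_exists_mem m with rfl | ⟨j, hj⟩
    · exact h0
    · by_cases hb : bad j
      · have h1 : 0 < m.count j := Multiset.count_pos.mpr hj
        have h2 : 2 ≤ m.count j := by
          obtain ⟨k, hk⟩ := hm j hb
          omega
        have hle : ({j, j} : Multiset ℕ) ≤ m := by
          have : ({j, j} : Multiset ℕ) = Multiset.replicate 2 j := rfl
          rw [this, ← Multiset.le_count_iff_replicate_le]
          exact h2
        obtain ⟨m', rfl⟩ := Multiset.le_iff_exists_add.mp hle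
        have hc : ∀ i, bad i → Even (m'.count i) := by
          intro i hi
          have h3 := hm i hi
          rw [Multiset.count_add] at h3
          have h4 : Even (({j, j} : Multiset ℕ).count i) := by
            have : ({j, j} : Multiset ℕ) = Multiset.replicate 2 j := rfl
            rw [this, Multiset.count_replicate]
            split_ifs
            · exact even_two
            · exact Even.zero
          exact (Nat.even_add.mp h3).mp h4
        refine hadd _ _ (hpair j (hpos j hj)) (ih (Multiset.card m') ?_ m' (fun i hi => hpos i (Multiset.mem_add.mpr (Or.inr hi))) hc rfl)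
        rw [← h, Multiset.card_add]
        show Multiset.card m' < 2 + Multiset.card m'
        omega
      · obtain ⟨m', rfl⟩ := Multiset.exists_cons_of_mem hj
        have hc : ∀ i, bad i → Even (m'.count i) := by
          intro i hi
          have h3 := hm i hi
          have hne : i ≠ j := fun h => hb (h ▸ hi)
          rwa [Multiset.count_cons_of_ne hne] at h3
        have hPm' := ih (Multiset.card m') (by rw [← h, Multiset.card_cons]; omega) m' (fun i hi => hpos i (Multiset.mem_cons_of_mem hi)) hc rfl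
        have := hadd _ _ (hsingle j (hpos j hj) hb) hPm'
        exact this

theorem SReal_of_parity (m : Multiset ℕ) (hpos : ∀ j ∈ m, 0 < j) (hm : ∀ j, Odd j → Even (m.count j)) : SReal F m := by
  apply multiset_induction (P := SReal F) Odd SReal_zero (fun _ _ => SReal_add) (fun j hj => SReal_pair j hj) ?_ m hpos hm
  intro j hj hb
  rw [Nat.not_odd_iff_even] at hb
  by_cases h2 : (2 : F) = 0
  · haveI : CharP F 2 := CharTwo.of_one_ne_zero_of_two_eq_zero one_ne_zero h2
    obtain ⟨k, rfl⟩ := hb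
    have := QReal_even_char_two (F := F) k (by omega)
    rw [two_mul] at this
    exact SReal_of_QReal this
  · exact SReal_even_odd_char h2 j hj hb

theorem QReal_of_parity (h2 : (2 : F) ≠ 0) (m : Multiset ℕ) (hpos : ∀ j ∈ m, 0 < j) (hm : ∀ j, Even j → Even (m.count j)) : QReal F m := by
  apply multiset_induction (P := QReal F) Even QReal_zero (fun _ _ => QReal_add) (fun j hj => QReal_pair j hj) ?_ m hpos hm
  intro j hj hb
  rw [Nat.not_even_iff_odd] at hb
  exact QReal_odd h2 j hb

theorem QReal_of_parity_two [CharP F 2] (m : Multiset ℕ) (hpos : ∀ j ∈ m, 0 < j) (hm : ∀ j, Odd j → Even (m.count j)) : QReal F m := by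
  apply multiset_induction (P := QReal F) Odd QReal_zero (fun _ _ => QReal_add) (fun j hj => QReal_pair j hj) ?_ m hpos hm
  intro j hj hb
  rw [Nat.not_odd_iff_even] at hb
  obtain ⟨k, rfl⟩ := hb
  have := QReal_even_char_two (F := F) k (by omega)
  rw [two_mul] at this
  exact this

end Cfsg.Agent.Lib.FormJordan3
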