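import Cfsg.Agent.Lib.FormJordan3
import Cfsg.Agent.Lib.SympAux

set_option autoImplicit false
set_option linter.unusedSectionVars false

/-! Jordan types of unipotent isometries: necessary conditions (helper43). -/

namespace Cfsg.Agent.Lib.FormJordan4

open Module Polynomial Cfsg.Agent.Lib.FXMod Cfsg.Agent.Lib.FXType Cfsg.Agent.Lib.GLClass Cfsg.Agent.Lib.JordanType Cfsg.Agent.Lib.FormJordan Cfsg.Agent.Lib.FormJordan2

universe u v

variable {F : Type u} [Field F] {V : Type v} [AddCommGroup V] [Module F V] [FiniteDimensional F V] (B : V →ₗ[F] V →ₗ[F] F) (f : Module.End F V)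

theorem fix_pow (hinv : ∀ x y, B (f x) (f y) = B x y) (a : ℕ) (x z : V) (hz : (f - 1) z = 0) : B ((f ^ a) x) z = B x z := by
  have h1 : f z = z := by
    rw [LinearMap.sub_apply, Module.End.one_apply, sub_eq_zero] at hz
    exact hz
  have h2 : (f ^ a) z = z := by
    induction a with
    | zero => rfl
    | succ a ih => rw [pow_succ, Module.End.mul_apply, h1, ih]
  conv_lhs => rw [← h2]
  exact inv_pow B f hinv a x z

/-- alternating forms, odd block size -/
theorem beta_alt (halt : ∀ x, B x x = 0) (hinv : ∀ x y, B (f x) (f y) = B x y) (a : ℕ) (x : V) (hx : ((f - 1) ^ (2 * a + 1)) x = 0) :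
    B x (((f - 1) ^ (2 * a)) x) = 0 := by
  have hz : (f - 1) (((f - 1) ^ (2 * a)) x) = 0 := by
    rw [← Module.End.mul_apply, ← pow_succ']
    exact hx
  rw [← fix_pow B f hinv a x _ hz, two_mul, pow_add, Module.End.mul_apply, adj_pow B f hinv, halt, mul_zero]

/-- symmetric forms, even block size -/
theorem beta_symm (h2 : (2 : F) ≠ 0) (hsymm : ∀ x y, B x y = B y x) (hinv : ∀ x y, B (f x) (f y) = B x y) (a : ℕ) (ha : Odd a) (x : V)
    (hx : ((f - 1) ^ (a + 1)) x = 0) : B x (((f - 1) ^ a) x) = 0 := by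
  have hz : (f - 1) (((f - 1) ^ a) x) = 0 := by
    rw [← Module.End.mul_apply, ← pow_succ']
    exact hx
  have h1 := fix_pow B f hinv a x _ hz
  rw [adj_pow B f hinv, ha.neg_one_pow, neg_one_mul, hsymm] at h1
  have h3 : 2 * B x (((f - 1) ^ a) x) = 0 := by rw [two_mul]; nth_rewrite 1 [← h1]; ring
  exact (mul_eq_zero.mp h3).resolve_left h2

theorem MType.reindex {ι κ : Type*} [Fintype ι] [DecidableEq ι] [Fintype κ] [DecidableEq κ] (e : ι ≃ κ) {A : Matrix ι ι F} {s : Multiset (F[X] × ℕ)}
    (h : MType A s) : MType (Matrix.reindex e e A) s := by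
  refine HasType.ofEquiv (g := Matrix.mulVecLin (Matrix.reindex e e A)) h (LinearEquiv.funCongrLeft F F e) ?_
  intro x
  funext i
  show ((Matrix.reindex e e A).mulVec x) (e i) = A.mulVec (fun j => x (e j)) i
  rw [Matrix.mulVec, Matrix.mulVec, dotProduct, dotProduct, ← Equiv.sum_comp e]
  apply Finset.sum_congr rfl
  intro j _
  rw [Matrix.reindex_apply, Matrix.submatrix_apply, Equiv.symm_apply_apply, Equiv.symm_apply_apply]

theorem count_uni (m : Multiset ℕ) (j : ℕ) [DecidableEq (F[X] × ℕ)] : (uni F m).count (X - 1, j) = m.count j := by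
  have hinj : Function.Injective (fun k : ℕ => ((X - 1 : F[X]), k)) := fun a b h => congrArg Prod.snd h
  exact Multiset.count_map_eq_count' _ _ hinj j

theorem count_univ {t : ℕ} (d : Fin t → ℕ) (j : ℕ) : (Finset.univ.val.map d).count j = (Finset.univ.filter (fun k : Fin t => d k = j)).card := by
  rw [Multiset.count_map, ← Finset.filter_val, Finset.card_val]
  congr 1
  ext k
  simp [eq_comm]

theorem jordanType_uni {t : ℕ} (d : Fin t → ℕ) (hd : ∀ k, 1 ≤ d k) : MType (Cfsg.jordanTypeMatrix d F) (uni F (Finset.univ.val.map d)) := by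
  have := jordanType_type (F := F) d hd
  rw [uni, Multiset.map_map]
  exact this

end Cfsg.Agent.Lib.FormJordan4
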