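import Cfsg.Agent.Lib.H32Cores
import Mathlib

/-!
# Groups with a four-subgroup all of whose involutions have small centralisers
-/

set_option autoImplicit false
set_option linter.all false
set_option maxHeartbeats 400000

namespace Cfsg.Agent.Lib.FourBound

open Cfsg

universe u

section quot

variable {Y : Type u} [Group Y] [Finite Y]

theorem card_centralizer_quot (A : Subgroup Y) [A.Normal] (hA : A ≤ Subgroup.center Y) (e : Y) :
    Nat.card (Subgroup.centralizer ({(QuotientGroup.mk' A e)} : Set (Y ⧸ A))) ≤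
      Nat.card (Subgroup.centralizer ({e} : Set Y)) := by
  classical
  set C := Subgroup.centralizer ({(QuotientGroup.mk' A e)} : Set (Y ⧸ A)) with hC
  set P := C.comap (QuotientGroup.mk' A) with hP
  have hAc : ∀ a ∈ A, ∀ y : Y, y * a = a * y := fun a ha y => (Subgroup.mem_center_iff.1 (hA ha) y)
  have hcomm : ∀ g : P, (g : Y) * e * (g : Y)⁻¹ * e⁻¹ ∈ A := by
    intro g
    have h1 : QuotientGroup.mk' A (g : Y) ∈ C := g.2
    rw [hC, Subgroup.mem_centralizer_singleton_iff] at h1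
    rw [← QuotientGroup.eq_one_iff]
    change QuotientGroup.mk' A ((g : Y) * e * (g : Y)⁻¹ * e⁻¹) = 1
    rw [map_mul, map_mul, map_mul, map_inv, map_inv, h1]
    group
  let φ : P →* A :=
    { toFun := fun g => ⟨_, hcomm g⟩
      map_one' := by
        apply Subtype.ext
        simp
      map_mul' := by
        intro g h
        apply Subtype.ext
        have h1 := hAc _ (hcomm h) (g : Y)
        show (g : Y) * (h : Y) * e * ((g : Y) * (h : Y))⁻¹ * e⁻¹ =
          ((g : Y) * e * (g : Y)⁻¹ * e⁻¹) * ((h : Y) * e * (h : Y)⁻¹ * e⁻¹)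
        have h2 := hAc _ (hcomm h) ((g : Y) * e * (g : Y)⁻¹ * e⁻¹)
        rw [h2]
        calc (g : Y) * (h : Y) * e * ((g : Y) * (h : Y))⁻¹ * e⁻¹
            = ((g : Y) * ((h : Y) * e * (h : Y)⁻¹ * e⁻¹)) * (e * (g : Y)⁻¹ * e⁻¹) := by group
          _ = (((h : Y) * e * (h : Y)⁻¹ * e⁻¹) * (g : Y)) * (e * (g : Y)⁻¹ * e⁻¹) := by rw [h1]
          _ = _ := by group }
  have h1 : Nat.card φ.ker ≤ Nat.card (Subgroup.centralizer ({e} : Set Y)) := by
    apply Nat.card_le_card_of_injective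
      (fun g : φ.ker => (⟨((g : P) : Y), by
        rw [Subgroup.mem_centralizer_singleton_iff]
        have h2 : ((φ (g : P) : A) : Y) = 1 := by
          have := g.2
          rw [MonoidHom.mem_ker] at this
          rw [this]; rfl
        have h3 : ((g : P) : Y) * e * ((g : P) : Y)⁻¹ * e⁻¹ = 1 := h2
        exact mul_inv_eq_iff_eq_mul.1 (mul_inv_eq_one.1 h3)⟩ :
        Subgroup.centralizer ({e} : Set Y)))
    intro a b hab
    have h4 : ((a : P) : Y) = ((b : P) : Y) := by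
      simpa using hab
    exact Subtype.ext (Subtype.ext h4)
  have h2 : Nat.card P = Nat.card φ.ker * Nat.card φ.range := by
    rw [← Subgroup.index_ker]
    exact (Subgroup.card_mul_index φ.ker).symm
  have h3 : Nat.card φ.range ≤ Nat.card A := Subgroup.card_le_card_group _
  have h4 : Nat.card P = Nat.card C * Nat.card A := by
    have h5 : P.index = C.index := Subgroup.index_comap_of_surjective C (QuotientGroup.mk'_surjective A)
    have h6 := Subgroup.card_mul_index P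
    have h7 := Subgroup.card_mul_index C
    have h8 := Subgroup.card_eq_card_quotient_mul_card_subgroup A
    rw [h5] at h6
    rw [← h7] at h8
    rw [h8] at h6
    have h9 : 0 < C.index := Nat.pos_of_ne_zero Subgroup.index_ne_zero_of_finite
    apply Nat.eq_of_mul_eq_mul_right h9
    rw [h6]
    ring
  have h5 : 0 < Nat.card A := Nat.card_pos
  have h6 : Nat.card C * Nat.card A ≤ Nat.card (Subgroup.centralizer ({e} : Set Y)) * Nat.card A := by
    rw [← h4, h2]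
    exact Nat.mul_le_mul h1 h3
  exact Nat.le_of_mul_le_mul_right h6 h5

end quot

section bound

variable {X : Type u} [Group X] [Finite X]

theorem card_eq_filter [Fintype X] (R : Subgroup X) [DecidablePred (· ∈ R)] :
    Nat.card R = (Finset.univ.filter (· ∈ R)).card :=
  Nat.subtype_card (p := fun x => x ∈ R) (Finset.univ.filter (· ∈ R)) (by simp)

theorem card_le_conj [Fintype X] [DecidableEq X] {e : X} {m : ℕ}
    (hm : Nat.card (Subgroup.centralizer ({e} : Set X)) ≤ m) (R : Subgroup X) [DecidablePred (· ∈ R)] :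
    Nat.card R ≤ m * ((Finset.univ.filter (· ∈ R)).image (fun r : X => r * e * r⁻¹)).card := by
  classical
  rw [card_eq_filter R]
  apply Finset.card_le_mul_card_image
  intro b hb
  obtain ⟨r₀, hr₀, rfl⟩ := Finset.mem_image.1 hb
  refine le_trans ?_ hm
  rw [card_eq_filter (Subgroup.centralizer ({e} : Set X))]
  apply Finset.card_le_card_of_injOn (fun r => r₀⁻¹ * r)
  · intro r hr
    simp only [Finset.coe_filter, Finset.mem_filter, Finset.mem_univ, true_and, Set.mem_setOf_eq] at hr ⊢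
    rw [Subgroup.mem_centralizer_singleton_iff]
    have h1 : r * e * r⁻¹ = r₀ * e * r₀⁻¹ := hr.2
    have h2 : r * e = r₀ * e * r₀⁻¹ * r := by rw [← h1]; group
    calc r₀⁻¹ * r * e = r₀⁻¹ * (r * e) := by group
      _ = r₀⁻¹ * (r₀ * e * r₀⁻¹ * r) := by rw [h2]
      _ = e * (r₀⁻¹ * r) := by group
  · intro a _ b _ hab
    exact mul_left_cancel hab

/-- two involutions whose product has odd order are conjugate by a power of the product -/
theorem conj_of_odd {a b : X} (ha : a * a = 1) (hb : b * b = 1) {n : ℕ} (hn : Odd n)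
    (h : (a * b) ^ n = 1) : ∃ k : ℕ, (a * b) ^ k * b * ((a * b) ^ k)⁻¹ = a := by
  obtain ⟨j, rfl⟩ := hn
  have hai : a⁻¹ = a := inv_eq_of_mul_eq_one_left ha
  have hbi : b⁻¹ = b := inv_eq_of_mul_eq_one_left hb
  have hinv : b * (a * b) * b⁻¹ = (a * b)⁻¹ := by
    rw [mul_inv_rev, hai, hbi]
    calc b * (a * b) * b = b * a * (b * b) := by group
      _ = b * a := by rw [hb, mul_one]
  refine ⟨j + 1, ?_⟩
  have h1 : b * ((a * b) ^ (j + 1))⁻¹ * b⁻¹ = (a * b) ^ (j + 1) := by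
    rw [← inv_pow, ← conj_pow, ← inv_inv (b * (a * b)⁻¹ * b⁻¹)]
    have h2 : (b * (a * b)⁻¹ * b⁻¹)⁻¹ = (a * b)⁻¹ := by
      have h3 : (b * (a * b)⁻¹ * b⁻¹)⁻¹ = b * (a * b) * b⁻¹ := by group
      exact h3.trans hinv
    rw [h2, inv_inv]
  have h3 : b * ((a * b) ^ (j + 1))⁻¹ = (a * b) ^ (j + 1) * b := by
    calc b * ((a * b) ^ (j + 1))⁻¹ = (b * ((a * b) ^ (j + 1))⁻¹ * b⁻¹) * b := by group
      _ = _ := by rw [h1]
  rw [mul_assoc, h3, ← mul_assoc, ← pow_add]
  have h4 : (a * b) ^ (j + 1 + (j + 1)) = a * b := by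
    rw [show j + 1 + (j + 1) = (2 * j + 1) + 1 by ring, pow_succ, h, one_mul]
  rw [h4, mul_assoc, hb, mul_one]

theorem odd_bound {e₁ e₂ : X} (h₁ : e₁ * e₁ = 1) (h₂ : e₂ * e₂ = 1) (h12 : e₁ * e₂ = e₂ * e₁)
    {R : Subgroup X} (hodd : Odd (Nat.card R)) (hn₁ : e₁ ∈ Subgroup.normalizer (R : Set X))
    (hn₂ : e₂ ∈ Subgroup.normalizer (R : Set X)) (h3 : e₁ ≠ e₂) {m : ℕ}
    (hm₁ : Nat.card (Subgroup.centralizer ({e₁} : Set X)) ≤ m)
    (hm₂ : Nat.card (Subgroup.centralizer ({e₂} : Set X)) ≤ m)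
    (hm₃ : Nat.card (Subgroup.centralizer ({e₁ * e₂} : Set X)) ≤ m) : Nat.card R ≤ m ^ 4 := by
  classical
  haveI := Fintype.ofFinite X
  have hn₁' := Subgroup.mem_normalizer_iff.1 hn₁
  have hn₂' := Subgroup.mem_normalizer_iff.1 hn₂
  have hi₁ : e₁⁻¹ = e₁ := inv_eq_of_mul_eq_one_left h₁
  have hi₂ : e₂⁻¹ = e₂ := inv_eq_of_mul_eq_one_left h₂
  set e₃ := e₁ * e₂ with he₃
  have h₃ : e₃ * e₃ = 1 := by
    rw [he₃]
    calc e₁ * e₂ * (e₁ * e₂) = e₁ * e₂ * (e₂ * e₁) := by rw [← h12]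
      _ = e₁ * (e₂ * e₂) * e₁ := by group
      _ = 1 := by rw [h₂, mul_one, h₁]
  have he₃1 : e₃ ≠ 1 := by
    intro h
    apply h3
    rw [← hi₂]
    exact eq_inv_of_mul_eq_one_left h
  have hRpow : ∀ x ∈ R, x ^ Nat.card R = 1 := by
    intro x hx
    have h := pow_card_eq_one' (x := (⟨x, hx⟩ : R))
    exact congrArg Subtype.val h
  have he₃R : e₃ ∉ R := by
    intro h
    have h4 := hRpow _ h
    obtain ⟨j, hj⟩ := hodd
    rw [hj, pow_succ, pow_mul, pow_two, h₃, one_pow, one_mul] at h4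
    exact he₃1 h4
  set S₁ := (Finset.univ.filter (· ∈ R)).image (fun r : X => r * e₁ * r⁻¹) with hS₁
  set S₂ := (Finset.univ.filter (· ∈ R)).image (fun r : X => r * e₂ * r⁻¹) with hS₂
  set S₃ := (Finset.univ.filter (· ∈ R)).image (fun r : X => r * e₃ * r⁻¹) with hS₃
  have c1 := card_le_conj hm₁ R
  have c2 := card_le_conj hm₂ R
  have c3 : S₃.card ≤ Nat.card R := by
    rw [card_eq_filter R]
    exact Finset.card_image_le
  -- the key inclusion
  have key : S₁ ×ˢ S₂ ⊆ S₃.biUnion (fun u =>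
      (Finset.univ.filter (· ∈ Subgroup.centralizer ({u} : Set X))) ×ˢ
        (Finset.univ.filter (· ∈ Subgroup.centralizer ({u} : Set X)))) := by
    rintro ⟨t₁, t₂⟩ ht
    rw [Finset.mem_product] at ht
    obtain ⟨r₁, hr₁, hrt₁⟩ := Finset.mem_image.1 ht.1
    obtain ⟨r₂, hr₂, hrt₂⟩ := Finset.mem_image.1 ht.2
    simp only at hrt₁ hrt₂
    rw [Finset.mem_filter] at hr₁ hr₂
    have ht₁ : t₁ * t₁ = 1 := by
      rw [← hrt₁]
      calc r₁ * e₁ * r₁⁻¹ * (r₁ * e₁ * r₁⁻¹) = r₁ * (e₁ * e₁) * r₁⁻¹ := by group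
        _ = 1 := by rw [h₁]; group
    have ht₂ : t₂ * t₂ = 1 := by
      rw [← hrt₂]
      calc r₂ * e₂ * r₂⁻¹ * (r₂ * e₂ * r₂⁻¹) = r₂ * (e₂ * e₂) * r₂⁻¹ := by group
        _ = 1 := by rw [h₂]; group
    have hti₁ : t₁⁻¹ = t₁ := inv_eq_of_mul_eq_one_left ht₁
    have hti₂ : t₂⁻¹ = t₂ := inv_eq_of_mul_eq_one_left ht₂
    -- t₁ t₂ ∈ R e₃
    have hw1 : t₁ * t₂ * e₃ ∈ R := by
      have a1 : e₁ * (r₁⁻¹ * r₂) * e₁⁻¹ ∈ R := (hn₁' _).1 (R.mul_mem (R.inv_mem hr₁.2) hr₂.2)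
      have a2 : e₃ * r₂⁻¹ * e₃⁻¹ ∈ R := by
        have a3 := (hn₁' _).1 ((hn₂' _).1 (R.inv_mem hr₂.2))
        have a4 : e₃ * r₂⁻¹ * e₃⁻¹ = e₁ * (e₂ * r₂⁻¹ * e₂⁻¹) * e₁⁻¹ := by rw [he₃]; group
        rw [a4]; exact a3
      have a5 : t₁ * t₂ * e₃ = r₁ * (e₁ * (r₁⁻¹ * r₂) * e₁⁻¹) * (e₃ * r₂⁻¹ * e₃⁻¹) := by
        have a6 : e₃⁻¹ = e₃ := inv_eq_of_mul_eq_one_left h₃
        rw [← hrt₁, ← hrt₂, a6]
        calc r₁ * e₁ * r₁⁻¹ * (r₂ * e₂ * r₂⁻¹) * e₃
            = r₁ * (e₁ * (r₁⁻¹ * r₂) * e₁⁻¹) * (e₁ * e₂ * r₂⁻¹ * e₃) := by group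
          _ = _ := by rw [← he₃]
      rw [a5]
      exact R.mul_mem (R.mul_mem hr₁.2 a1) a2
    set w := t₁ * t₂ with hw
    have hconjw : ∀ s ∈ R, w * s * w⁻¹ ∈ R := by
      intro s hs
      have a1 : e₃ * s * e₃⁻¹ ∈ R := by
        have a3 := (hn₁' _).1 ((hn₂' _).1 hs)
        have a4 : e₃ * s * e₃⁻¹ = e₁ * (e₂ * s * e₂⁻¹) * e₁⁻¹ := by rw [he₃]; group
        rw [a4]; exact a3
      have a6 : e₃⁻¹ = e₃ := inv_eq_of_mul_eq_one_left h₃
      have a5 : w * s * w⁻¹ = (w * e₃) * (e₃ * s * e₃⁻¹) * (w * e₃)⁻¹ := by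
        calc w * s * w⁻¹ = w * (e₃ * e₃) * s * (e₃ * e₃)⁻¹ * w⁻¹ := by rw [h₃]; group
          _ = (w * e₃) * (e₃ * s * e₃⁻¹) * (w * e₃)⁻¹ := by group
      rw [a5]
      exact R.mul_mem (R.mul_mem hw1 a1) (R.inv_mem hw1)
    have hw2 : w * w ∈ R := by
      have a6 : e₃⁻¹ = e₃ := inv_eq_of_mul_eq_one_left h₃
      have a1 : e₃ * (w * e₃) * e₃⁻¹ ∈ R := by
        have a3 := (hn₁' _).1 ((hn₂' _).1 hw1)
        have a4 : e₃ * (w * e₃) * e₃⁻¹ = e₁ * (e₂ * (w * e₃) * e₂⁻¹) * e₁⁻¹ := by rw [he₃]; group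
        rw [a4]; exact a3
      have a2 : w * w = (w * e₃) * (e₃ * (w * e₃) * e₃⁻¹) := by
        calc w * w = w * (e₃ * e₃) * w := by rw [h₃, mul_one]
          _ = (w * e₃) * (e₃ * (w * e₃) * e₃⁻¹) := by group
      rw [a2]
      exact R.mul_mem hw1 a1
    obtain ⟨j, hj⟩ := hodd
    set u := w ^ (2 * j + 1) with hu
    have huR : u * e₃ ∈ R := by
      rw [hu, pow_succ, pow_mul, pow_two, mul_assoc]
      exact R.mul_mem (R.pow_mem hw2 j) hw1
    have huu : u * u = 1 := by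
      rw [hu, ← pow_add, show 2 * j + 1 + (2 * j + 1) = 2 * (2 * j + 1) by ring, pow_mul, pow_two, ← hj]
      exact hRpow _ hw2
    have hwt₁ : t₁ * w * t₁⁻¹ = w⁻¹ := by
      rw [hw, mul_inv_rev, hti₁, hti₂]
      calc t₁ * (t₁ * t₂) * t₁ = (t₁ * t₁) * t₂ * t₁ := by group
        _ = t₂ * t₁ := by rw [ht₁, one_mul]
    have hwt₂ : t₂ * w * t₂⁻¹ = w⁻¹ := by
      rw [hw, mul_inv_rev, hti₁, hti₂]
      calc t₂ * (t₁ * t₂) * t₂ = t₂ * t₁ * (t₂ * t₂) := by group
        _ = t₂ * t₁ := by rw [ht₂, mul_one]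
    have hui : u⁻¹ = u := inv_eq_of_mul_eq_one_left huu
    have c₁ : t₁ * u = u * t₁ := by
      have a1 : t₁ * u * t₁⁻¹ = u := by
        rw [hu, ← conj_pow, hwt₁, inv_pow, ← hu, hui]
      exact mul_inv_eq_iff_eq_mul.1 a1
    have c₂ : t₂ * u = u * t₂ := by
      have a1 : t₂ * u * t₂⁻¹ = u := by
        rw [hu, ← conj_pow, hwt₂, inv_pow, ← hu, hui]
      exact mul_inv_eq_iff_eq_mul.1 a1
    obtain ⟨k, hk⟩ := conj_of_odd huu h₃ (n := Nat.card R) (by rw [hj]; exact ⟨j, rfl⟩) (hRpow _ huR)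
    rw [Finset.mem_biUnion]
    refine ⟨u, ?_, ?_⟩
    · rw [hS₃, Finset.mem_image]
      exact ⟨(u * e₃) ^ k, by rw [Finset.mem_filter]; exact ⟨Finset.mem_univ _, R.pow_mem huR k⟩, hk⟩
    · rw [Finset.mem_product, Finset.mem_filter, Finset.mem_filter,
        Subgroup.mem_centralizer_singleton_iff, Subgroup.mem_centralizer_singleton_iff]
      exact ⟨⟨Finset.mem_univ _, c₁⟩, ⟨Finset.mem_univ _, c₂⟩⟩
  have hS₃m : ∀ u ∈ S₃, (Finset.univ.filter (· ∈ Subgroup.centralizer ({u} : Set X))).card ≤ m := by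
    intro u hu
    obtain ⟨r, hr, rfl⟩ := Finset.mem_image.1 hu
    rw [← card_eq_filter]
    refine le_trans (le_of_eq ?_) hm₃
    refine Nat.card_congr (Equiv.symm ?_)
    exact
      { toFun := fun g => ⟨r * g * r⁻¹, by
          have := Subgroup.mem_centralizer_singleton_iff.1 g.2
          rw [Subgroup.mem_centralizer_singleton_iff]
          calc r * (g : X) * r⁻¹ * (r * e₃ * r⁻¹) = r * ((g : X) * e₃) * r⁻¹ := by group
            _ = r * (e₃ * (g : X)) * r⁻¹ := by rw [this]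
            _ = _ := by group⟩
        invFun := fun g => ⟨r⁻¹ * g * r, by
          have := Subgroup.mem_centralizer_singleton_iff.1 g.2
          rw [Subgroup.mem_centralizer_singleton_iff]
          calc r⁻¹ * (g : X) * r * e₃ = r⁻¹ * ((g : X) * (r * e₃ * r⁻¹)) * r := by group
            _ = r⁻¹ * ((r * e₃ * r⁻¹) * (g : X)) * r := by rw [this]
            _ = _ := by group⟩
        left_inv := fun g => by apply Subtype.ext; simp [mul_assoc]
        right_inv := fun g => by apply Subtype.ext; simp [mul_assoc] }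
  have h5 : S₁.card * S₂.card ≤ Nat.card R * (m * m) := by
    rw [← Finset.card_product]
    refine (Finset.card_le_card key).trans ?_
    refine Finset.card_biUnion_le.trans ?_
    calc ∑ u ∈ S₃, ((Finset.univ.filter (· ∈ Subgroup.centralizer ({u} : Set X))) ×ˢ
        (Finset.univ.filter (· ∈ Subgroup.centralizer ({u} : Set X)))).card ≤ ∑ u ∈ S₃, m * m := by
          apply Finset.sum_le_sum
          intro u hu
          rw [Finset.card_product]
          exact Nat.mul_le_mul (hS₃m u hu) (hS₃m u hu)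
      _ = S₃.card * (m * m) := by rw [Finset.sum_const, smul_eq_mul]
      _ ≤ _ := Nat.mul_le_mul_right _ c3
  have h6 : Nat.card R * Nat.card R ≤ (m * S₁.card) * (m * S₂.card) := Nat.mul_le_mul c1 c2
  have h7 : Nat.card R * Nat.card R ≤ Nat.card R * m ^ 4 := by
    calc Nat.card R * Nat.card R ≤ (m * S₁.card) * (m * S₂.card) := h6
      _ = m * m * (S₁.card * S₂.card) := by ring
      _ ≤ m * m * (Nat.card R * (m * m)) := Nat.mul_le_mul_left _ h5
      _ = Nat.card R * m ^ 4 := by ring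
  exact Nat.le_of_mul_le_mul_left h7 Nat.card_pos

end bound

end Cfsg.Agent.Lib.FourBound
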