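import Cfsg.Agent.Lib.FourBound

/-!
# Groups with a four-subgroup all of whose involutions have small centralisers, II
-/

set_option autoImplicit false
set_option linter.all false
set_option maxHeartbeats 400000

namespace Cfsg.Agent.Lib.FourBound

open Cfsg Cfsg.Agent.Lib.H32Cores

universe u

variable {X : Type u} [Group X] [Finite X]

/-- The Brauer--Fowler count: a normal subgroup `N` contains an element outside a small subgroup `R` with large
centraliser in `N`. -/
theorem exists_small_index {e₁ : X} (h₁ : e₁ * e₁ = 1) {m w : ℕ}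
    (hm : Nat.card (Subgroup.centralizer ({e₁} : Set X)) ≤ m) (N R : Subgroup X) [hN : N.Normal]
    (hR : Nat.card R ≤ w) (hbig : 2 * w * m ≤ Nat.card N) (hm0 : 0 < m) :
    ∃ x ∈ N, x ∉ R ∧ Nat.card N ≤ 2 * m ^ 2 * Nat.card (Subgroup.centralizer ({x} : Set X) ⊓ N : Subgroup X) := by
  classical
  haveI := Fintype.ofFinite X
  by_contra hcon
  push_neg at hcon
  have c1 := card_le_conj hm N
  set S := (Finset.univ.filter (· ∈ N)).image (fun r : X => r * e₁ * r⁻¹) with hS
  have hSm : ∀ t ∈ S, t * t = 1 := by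
    intro t ht
    obtain ⟨r, hr, rfl⟩ := Finset.mem_image.1 ht
    calc r * e₁ * r⁻¹ * (r * e₁ * r⁻¹) = r * (e₁ * e₁) * r⁻¹ := by group
      _ = 1 := by rw [h₁]; group
  have hSN : ∀ t ∈ S, ∀ t' ∈ S, t * t' ∈ N := by
    intro t ht t' ht'
    obtain ⟨r, hr, rfl⟩ := Finset.mem_image.1 ht
    obtain ⟨r', hr', rfl⟩ := Finset.mem_image.1 ht'
    rw [Finset.mem_filter] at hr hr'
    have hi₁ : e₁⁻¹ = e₁ := inv_eq_of_mul_eq_one_left h₁
    have h2 : r * e₁ * r⁻¹ * (r' * e₁ * r'⁻¹) = r * (e₁ * (r⁻¹ * r') * e₁⁻¹) * r'⁻¹ := by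
      rw [hi₁]; group
    rw [h2]
    exact N.mul_mem (N.mul_mem hr.2 (hN.conj_mem _ (N.mul_mem (N.inv_mem hr.2) hr'.2) _)) (N.inv_mem hr'.2)
  -- pairs
  set A := (S ×ˢ S).filter (fun q => q.1 * q.2 ∈ R) with hA
  set B := (S ×ˢ S).filter (fun q => ¬ q.1 * q.2 ∈ R) with hB
  have hAB : A.card + B.card = S.card * S.card := by
    rw [hA, hB, Finset.card_filter_add_card_filter_not, Finset.card_product]
  have hAc : A.card ≤ S.card * w := by
    have h2 : A.card ≤ (S ×ˢ (Finset.univ.filter (· ∈ R))).card := by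
      apply Finset.card_le_card_of_injOn (fun q => (q.1, q.1 * q.2))
      · intro q hq
        simp only [hA, Finset.coe_filter, Finset.mem_product, Set.mem_setOf_eq, Finset.coe_product,
          Set.mem_prod, Finset.mem_coe, Finset.mem_filter, Finset.mem_univ, true_and] at hq ⊢
        exact ⟨hq.1.1, hq.2⟩
      · intro q _ q' _ h
        simp only [Prod.mk.injEq] at h
        obtain ⟨h3, h4⟩ := h
        rw [h3] at h4
        exact Prod.ext h3 (mul_left_cancel h4)
    rw [Finset.card_product, ← card_eq_filter] at h2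
    exact h2.trans (Nat.mul_le_mul_left _ hR)
  -- fibres of the product map on B
  have hBc : B.card * (2 * m ^ 2) ≤ Nat.card N * (Nat.card N - 1) := by
    have h2 : B.card = ∑ x ∈ B.image (fun q => q.1 * q.2), (B.filter (fun q => q.1 * q.2 = x)).card :=
      Finset.card_eq_sum_card_image _ _
    have h3 : (B.image (fun q => q.1 * q.2)).card ≤ Nat.card N := by
      rw [card_eq_filter N]
      apply Finset.card_le_card
      intro x hx
      obtain ⟨q, hq, rfl⟩ := Finset.mem_image.1 hx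
      rw [hB, Finset.mem_filter, Finset.mem_product] at hq
      rw [Finset.mem_filter]
      exact ⟨Finset.mem_univ _, hSN _ hq.1.1 _ hq.1.2⟩
    rw [h2, Finset.sum_mul]
    refine le_trans (Finset.sum_le_card_nsmul _ _ (Nat.card N - 1) ?_) ?_
    · intro x hx
      obtain ⟨q₀, hq₀, hqx⟩ := Finset.mem_image.1 hx
      rw [hB, Finset.mem_filter, Finset.mem_product] at hq₀
      have hxN : x ∈ N := by rw [← hqx]; exact hSN _ hq₀.1.1 _ hq₀.1.2
      have hxR : x ∉ R := by rw [← hqx]; exact hq₀.2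
      have h4 := hcon x hxN hxR
      have h5 : (B.filter (fun q => q.1 * q.2 = x)).card ≤
          Nat.card (Subgroup.centralizer ({x} : Set X) ⊓ N : Subgroup X) := by
        rw [card_eq_filter (Subgroup.centralizer ({x} : Set X) ⊓ N : Subgroup X)]
        apply Finset.card_le_card_of_injOn (fun q => q₀.1 * q.1)
        · intro q hq
          simp only [hB, Finset.coe_filter, Finset.mem_filter, Finset.mem_product, Set.mem_setOf_eq,
            Finset.mem_univ, true_and] at hq ⊢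
          obtain ⟨⟨⟨hq1, hq2⟩, hqR⟩, hqx'⟩ := hq
          refine ⟨?_, hSN _ hq₀.1.1 _ hq1⟩
          -- q.1 inverts x and q₀.1 inverts x
          have inv : ∀ a b : X, a * a = 1 → b * b = 1 → a * b = x → a * x = x⁻¹ * a := by
            intro a b ha hb hab
            have hai : a⁻¹ = a := inv_eq_of_mul_eq_one_left ha
            have hbi : b⁻¹ = b := inv_eq_of_mul_eq_one_left hb
            rw [← hab, mul_inv_rev, hai, hbi]
            calc a * (a * b) = a * a * b := by group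
              _ = b * (a * a) := by rw [ha, one_mul, mul_one]
              _ = b * a * a := by group
          have i1 := inv _ _ (hSm _ hq1) (hSm _ hq2) hqx'
          have i2 := inv _ _ (hSm _ hq₀.1.1) (hSm _ hq₀.1.2) hqx
          show q₀.1 * q.1 ∈ Subgroup.centralizer ({x} : Set X)
          rw [Subgroup.mem_centralizer_singleton_iff]
          have i3 : q₀.1 * x⁻¹ = x * q₀.1 := by
            have : x * (q₀.1 * x) * x⁻¹ = x * (x⁻¹ * q₀.1) * x⁻¹ := by rw [i2]
            calc q₀.1 * x⁻¹ = x * (x⁻¹ * q₀.1) * x⁻¹ := by group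
              _ = x * (q₀.1 * x) * x⁻¹ := this.symm
              _ = x * q₀.1 := by group
          calc q₀.1 * q.1 * x = q₀.1 * (q.1 * x) := by group
            _ = q₀.1 * (x⁻¹ * q.1) := by rw [i1]
            _ = (q₀.1 * x⁻¹) * q.1 := by group
            _ = x * (q₀.1 * q.1) := by rw [i3]; group
        · intro q hq q' hq' h6
          simp only [Finset.coe_filter, Set.mem_setOf_eq] at hq hq'
          have h7 : q.1 = q'.1 := mul_left_cancel h6
          have h8 : q.1 * q.2 = q'.1 * q'.2 := by rw [hq.2, hq'.2]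
          rw [h7] at h8
          exact Prod.ext h7 (mul_left_cancel h8)
      calc (B.filter (fun q => q.1 * q.2 = x)).card * (2 * m ^ 2)
          ≤ Nat.card (Subgroup.centralizer ({x} : Set X) ⊓ N : Subgroup X) * (2 * m ^ 2) :=
            Nat.mul_le_mul_right _ h5
        _ = 2 * m ^ 2 * Nat.card (Subgroup.centralizer ({x} : Set X) ⊓ N : Subgroup X) := by ring
        _ ≤ Nat.card N - 1 := by omega
    · rw [smul_eq_mul]
      exact Nat.mul_le_mul_right _ h3
  -- combine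
  have hN0 : 0 < Nat.card N := Nat.card_pos
  have h8 : 2 * w ≤ S.card := by
    by_contra hlt
    push_neg at hlt
    have : m * S.card < m * (2 * w) := Nat.mul_lt_mul_of_pos_left hlt hm0
    have h9 : 2 * w * m = m * (2 * w) := by ring
    omega
  have h9 : 2 * (S.card * w) ≤ S.card * S.card := by
    calc 2 * (S.card * w) = S.card * (2 * w) := by ring
      _ ≤ _ := Nat.mul_le_mul_left _ h8
  have h10 : S.card * S.card ≤ 2 * B.card := by omega
  have h11 : Nat.card N * Nat.card N ≤ m ^ 2 * (S.card * S.card) := by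
    calc Nat.card N * Nat.card N ≤ (m * S.card) * (m * S.card) := Nat.mul_le_mul c1 c1
      _ = _ := by ring
  have h12 : m ^ 2 * (S.card * S.card) ≤ m ^ 2 * (2 * B.card) := Nat.mul_le_mul_left _ h10
  have h13 : m ^ 2 * (2 * B.card) = B.card * (2 * m ^ 2) := by ring
  have h14 : Nat.card N * (Nat.card N - 1) < Nat.card N * Nat.card N :=
    Nat.mul_lt_mul_of_pos_left (by omega) hN0
  omega

/-- a fixed involution for a commuting pair of involutions acting on a nontrivial elementary abelian subgroup -/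
theorem exists_fixed {e₁ e₂ : X} (h₁ : e₁ * e₁ = 1) (h₂ : e₂ * e₂ = 1) (h12 : e₁ * e₂ = e₂ * e₁)
    (Z : Set X) (hZ : ∀ z ∈ Z, z * z = 1) (hmul : ∀ z ∈ Z, ∀ z' ∈ Z, z * z' ∈ Z ∧ z * z' = z' * z)
    (hc : ∀ z ∈ Z, ∀ g : X, g * z * g⁻¹ ∈ Z) (hne : ∃ z ∈ Z, z ≠ 1) :
    ∃ z ∈ Z, z ≠ 1 ∧ e₁ * z * e₁⁻¹ = z ∧ e₂ * z * e₂⁻¹ = z := by
  have step : ∀ (e : X), e * e = 1 → ∀ Z' : Set X, Z' ⊆ Z → (∀ z ∈ Z', ∀ z' ∈ Z', z * z' ∈ Z') →
      (∀ z ∈ Z', e * z * e⁻¹ ∈ Z') → (∃ z ∈ Z', z ≠ 1) → ∃ z ∈ Z', z ≠ 1 ∧ e * z * e⁻¹ = z := by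
    rintro e he Z' hZ' hm hc' ⟨z, hz, hz1⟩
    have hei : e⁻¹ = e := inv_eq_of_mul_eq_one_left he
    by_cases h : z * (e * z * e⁻¹) = 1
    · refine ⟨z, hz, hz1, ?_⟩
      have h2 := hZ z (hZ' hz)
      exact mul_left_cancel (h.trans h2.symm)
    · refine ⟨z * (e * z * e⁻¹), hm _ hz _ (hc' z hz), h, ?_⟩
      have h3 := (hmul _ (hZ' hz) _ (hZ' (hc' z hz))).2
      rw [hei] at h3 ⊢
      calc e * (z * (e * z * e)) * e = (e * z * e) * (z * (e * e)) := by
            have : e * (z * (e * z * e)) * e = (e * z * e) * z * (e * e) := by group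
            rw [this]; group
        _ = (e * z * e) * z := by rw [he, mul_one]
        _ = z * (e * z * e) := h3.symm
  obtain ⟨z, hz, hz1⟩ := hne
  obtain ⟨z₁, hz₁, hz₁1, hf₁⟩ := step e₁ h₁ Z subset_rfl (fun a ha b hb => (hmul a ha b hb).1)
    (fun z hz => hc z hz e₁) ⟨z, hz, hz1⟩
  obtain ⟨z₂, hz₂, hz₂1, hf₂⟩ := step e₂ h₂ {z | z ∈ Z ∧ e₁ * z * e₁⁻¹ = z} (fun z hz => hz.1)
    (fun a ha b hb => ⟨(hmul a ha.1 b hb.1).1, by
      calc e₁ * (a * b) * e₁⁻¹ = (e₁ * a * e₁⁻¹) * (e₁ * b * e₁⁻¹) := by group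
        _ = a * b := by rw [ha.2, hb.2]⟩)
    (fun a ha => ⟨hc a ha.1 e₂, by
      have hi₁ : e₁⁻¹ = e₁ := inv_eq_of_mul_eq_one_left h₁
      have h21 : e₁ * e₂ * a * (e₁ * e₂)⁻¹ = e₂ * (e₁ * a * e₁⁻¹) * e₂⁻¹ := by rw [h12]; group
      calc e₁ * (e₂ * a * e₂⁻¹) * e₁⁻¹ = e₁ * e₂ * a * (e₁ * e₂)⁻¹ := by group
        _ = e₂ * (e₁ * a * e₁⁻¹) * e₂⁻¹ := h21
        _ = _ := by rw [ha.2]⟩)
    ⟨z₁, ⟨hz₁, hf₁⟩, hz₁1⟩
  exact ⟨z₂, hz₂.1, hz₂1, hz₂.2, hf₂⟩

end Cfsg.Agent.Lib.FourBound
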