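import Cfsg.Agent.Lib.FourBound2

/-!
# Groups with a four-subgroup all of whose involutions have small centralisers, III: the bound
-/

set_option autoImplicit false
set_option linter.all false
set_option maxHeartbeats 400000

namespace Cfsg.Agent.Lib.FourBound

open Cfsg Cfsg.Agent.Lib.H32Cores

universe u

/-- `X` has a four-subgroup whose involutions have centralisers of order at most `m`. -/
def FH (m : ℕ) (X : Type u) [Group X] : Prop :=
  ∃ e₁ e₂ : X, e₁ * e₁ = 1 ∧ e₂ * e₂ = 1 ∧ e₁ * e₂ = e₂ * e₁ ∧ e₁ ≠ 1 ∧ e₂ ≠ 1 ∧ e₁ ≠ e₂ ∧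
    Nat.card (Subgroup.centralizer ({e₁} : Set X)) ≤ m ∧
    Nat.card (Subgroup.centralizer ({e₂} : Set X)) ≤ m ∧
    Nat.card (Subgroup.centralizer ({e₁ * e₂} : Set X)) ≤ m

theorem fh_quot {Y : Type u} [Group Y] [Finite Y] {m : ℕ} {e₁ e₂ : Y} (h₁ : e₁ * e₁ = 1) (h₂ : e₂ * e₂ = 1)
    (h12 : e₁ * e₂ = e₂ * e₁) (A : Subgroup Y) [A.Normal] (hA : A ≤ Subgroup.center Y)
    (n₁ : e₁ ∉ A) (n₂ : e₂ ∉ A) (n₃ : e₁ * e₂ ∉ A)
    (c₁ : Nat.card (Subgroup.centralizer ({e₁} : Set Y)) ≤ m)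
    (c₂ : Nat.card (Subgroup.centralizer ({e₂} : Set Y)) ≤ m)
    (c₃ : Nat.card (Subgroup.centralizer ({e₁ * e₂} : Set Y)) ≤ m) : FH m (Y ⧸ A) := by
  refine ⟨QuotientGroup.mk' A e₁, QuotientGroup.mk' A e₂, ?_, ?_, ?_, ?_, ?_, ?_, ?_, ?_, ?_⟩
  · rw [← map_mul, h₁, map_one]
  · rw [← map_mul, h₂, map_one]
  · rw [← map_mul, h12, map_mul]
  · intro h
    exact n₁ ((QuotientGroup.eq_one_iff e₁).1 h)
  · intro h
    exact n₂ ((QuotientGroup.eq_one_iff e₂).1 h)
  · intro h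
    apply n₃
    rw [← QuotientGroup.eq_one_iff]
    change QuotientGroup.mk' A (e₁ * e₂) = 1
    rw [map_mul, h, ← map_mul, h₂, map_one]
  · exact (card_centralizer_quot A hA e₁).trans c₁
  · exact (card_centralizer_quot A hA e₂).trans c₂
  · rw [← map_mul]
    exact (card_centralizer_quot A hA (e₁ * e₂)).trans c₃

theorem index_normalCore_le {X : Type u} [Group X] [Finite X] (H : Subgroup X) :
    H.normalCore.index ≤ H.index.factorial := by
  rw [Subgroup.normalCore_eq_ker, Subgroup.index_ker]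
  refine (Subgroup.card_le_card_group _).trans ?_
  rw [Nat.card_perm]
  exact le_rfl

theorem odd_of_fact {n : ℕ} (hn : n ≠ 0) (h : n.factorization 2 = 0) : Odd n := by
  rcases (Nat.factorization_eq_zero_iff n 2).1 h with h1 | h1 | h1
  · exact absurd Nat.prime_two h1
  · rw [← Nat.not_even_iff_odd, even_iff_two_dvd]; exact h1
  · exact absurd h1 hn

theorem card_centralizer_sub {X : Type u} [Group X] [Finite X] (Y : Subgroup X) (e : Y) :
    Nat.card (Subgroup.centralizer ({e} : Set Y)) ≤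
      Nat.card (Subgroup.centralizer ({(e : X)} : Set X)) := by
  apply Nat.card_le_card_of_injective
    (fun g : Subgroup.centralizer ({e} : Set Y) => (⟨((g : Y) : X), by
      rw [Subgroup.mem_centralizer_singleton_iff]
      have := Subgroup.mem_centralizer_singleton_iff.1 g.2
      exact congrArg Subtype.val this⟩ : Subgroup.centralizer ({(e : X)} : Set X)))
  intro a b hab
  have h4 : ((a : Y) : X) = ((b : Y) : X) := by simpa using hab
  exact Subtype.ext (Subtype.ext h4)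

/-- The case of a central involution. -/
theorem central_aux {m a F : ℕ}
    (hF : ∀ (Y : Type u) [Group Y] [Finite Y], FH m Y → (Nat.card Y).factorization 2 ≤ a → Nat.card Y ≤ F)
    (Y : Type u) [Group Y] [Finite Y] {e₁ e₂ l : Y} (h₁ : e₁ * e₁ = 1) (h₂ : e₂ * e₂ = 1)
    (h12 : e₁ * e₂ = e₂ * e₁) (c₁ : Nat.card (Subgroup.centralizer ({e₁} : Set Y)) ≤ m)
    (c₂ : Nat.card (Subgroup.centralizer ({e₂} : Set Y)) ≤ m)
    (c₃ : Nat.card (Subgroup.centralizer ({e₁ * e₂} : Set Y)) ≤ m)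
    (n₁ : e₁ ≠ 1) (n₂ : e₂ ≠ 1) (n₃ : e₁ * e₂ ≠ 1)
    (hX : (Nat.card Y).factorization 2 ≤ a + 1) (hl : l * l = 1) (hl1 : l ≠ 1)
    (hc : ∀ g : Y, g * l = l * g) (d₁ : e₁ ≠ l) (d₂ : e₂ ≠ l) (d₃ : e₁ * e₂ ≠ l) :
    Nat.card Y ≤ 2 * F := by
  have hAc : Subgroup.zpowers l ≤ Subgroup.center Y := by
    rw [Subgroup.zpowers_le, Subgroup.mem_center_iff]
    exact hc
  haveI hn : (Subgroup.zpowers l).Normal := by
    constructor
    intro x hx g
    have h := Subgroup.mem_center_iff.1 (hAc hx) g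
    rw [h, mul_assoc, mul_inv_cancel, mul_one]
    exact hx
  have hAmem : ∀ x : Y, x ∈ Subgroup.zpowers l → x = 1 ∨ x = l := by
    rintro x ⟨k, rfl⟩
    change l ^ k = 1 ∨ l ^ k = l
    rcases Int.even_or_odd' k with ⟨j, hj | hj⟩
    · left
      rw [hj, zpow_mul, zpow_two, hl, one_zpow]
    · right
      rw [hj, zpow_add, zpow_mul, zpow_two, hl, one_zpow, one_mul, zpow_one]
  have hAcard : Nat.card (Subgroup.zpowers l) = 2 := by
    rw [Nat.card_zpowers]
    exact orderOf_eq_prime (by rw [pow_two, hl]) hl1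
  have h6 := Subgroup.card_eq_card_quotient_mul_card_subgroup (Subgroup.zpowers l)
  have h5 := hF (Y ⧸ Subgroup.zpowers l) (fh_quot h₁ h₂ h12 (Subgroup.zpowers l) hAc
    (fun h => (hAmem _ h).elim n₁ d₁) (fun h => (hAmem _ h).elim n₂ d₂)
    (fun h => (hAmem _ h).elim n₃ d₃) c₁ c₂ c₃) (by
      rw [h6, hAcard, Nat.factorization_mul Nat.card_pos.ne' (by norm_num)] at hX
      have h9 : (2 : ℕ).factorization 2 = 1 := Nat.prime_two.factorization_self
      rw [Finsupp.add_apply, h9] at hX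
      omega)
  rw [h6, hAcard]
  omega

theorem central_case' {m a F : ℕ}
    (hF : ∀ (Y : Type u) [Group Y] [Finite Y], FH m Y → (Nat.card Y).factorization 2 ≤ a → Nat.card Y ≤ F)
    {X : Type u} [Group X] [Finite X] (Y : Subgroup X) {e₁ e₂ l : Y}
    (h₁ : (e₁ : X) * e₁ = 1) (h₂ : (e₂ : X) * e₂ = 1)
    (h12 : (e₁ : X) * e₂ = e₂ * e₁) (c₁ : Nat.card (Subgroup.centralizer ({(e₁ : X)} : Set X)) ≤ m)
    (c₂ : Nat.card (Subgroup.centralizer ({(e₂ : X)} : Set X)) ≤ m)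
    (c₃ : Nat.card (Subgroup.centralizer ({(e₁ : X) * e₂} : Set X)) ≤ m)
    (n₁ : (e₁ : X) ≠ 1) (n₂ : (e₂ : X) ≠ 1) (n₃ : (e₁ : X) * e₂ ≠ 1)
    (hX : (Nat.card X).factorization 2 ≤ a + 1) (hl : (l : X) * l = 1) (hl1 : (l : X) ≠ 1)
    (hc : ∀ y ∈ Y, y * (l : X) = l * y)
    (d₁ : (e₁ : X) ≠ l) (d₂ : (e₂ : X) ≠ l) (d₃ : (e₁ : X) * e₂ ≠ l) :
    Nat.card Y ≤ 2 * F := by
  have hfac : (Nat.card Y).factorization 2 ≤ a + 1 := by
    have h7 : Nat.card Y ∣ Nat.card X := Subgroup.card_subgroup_dvd_card _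
    exact ((Nat.factorization_le_iff_dvd Nat.card_pos.ne' Nat.card_pos.ne').2 h7 2).trans hX
  have h₁' : e₁ * e₁ = 1 := Subtype.ext (by rw [Subgroup.coe_mul, h₁, Subgroup.coe_one])
  have h₂' : e₂ * e₂ = 1 := Subtype.ext (by rw [Subgroup.coe_mul, h₂, Subgroup.coe_one])
  have h12' : e₁ * e₂ = e₂ * e₁ := Subtype.ext (by rw [Subgroup.coe_mul, Subgroup.coe_mul, h12])
  have hl' : l * l = 1 := Subtype.ext (by rw [Subgroup.coe_mul, hl, Subgroup.coe_one])
  have c₁' : Nat.card (Subgroup.centralizer ({e₁} : Set Y)) ≤ m := (card_centralizer_sub Y e₁).trans c₁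
  have c₂' : Nat.card (Subgroup.centralizer ({e₂} : Set Y)) ≤ m := (card_centralizer_sub Y e₂).trans c₂
  have c₃' : Nat.card (Subgroup.centralizer ({e₁ * e₂} : Set Y)) ≤ m := by
    refine (card_centralizer_sub Y _).trans ?_
    rw [Subgroup.coe_mul]
    exact c₃
  have hc' : ∀ g : Y, g * l = l * g := fun g => Subtype.ext (by
    rw [Subgroup.coe_mul, Subgroup.coe_mul]; exact hc g g.2)
  have n₁' : e₁ ≠ 1 := fun h => n₁ (by rw [h, Subgroup.coe_one])
  have n₂' : e₂ ≠ 1 := fun h => n₂ (by rw [h, Subgroup.coe_one])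
  have n₃' : e₁ * e₂ ≠ 1 := fun h => n₃ (by rw [← Subgroup.coe_mul, h, Subgroup.coe_one])
  have nl' : l ≠ 1 := fun h => hl1 (by rw [h, Subgroup.coe_one])
  have d₁' : e₁ ≠ l := fun h => d₁ (by rw [h])
  have d₂' : e₂ ≠ l := fun h => d₂ (by rw [h])
  have d₃' : e₁ * e₂ ≠ l := fun h => d₃ (by rw [← Subgroup.coe_mul, h])
  exact central_aux hF Y h₁' h₂' h12' c₁' c₂' c₃' n₁' n₂' n₃' hfac hl' nl' hc' d₁' d₂' d₃'

theorem central_case {m a F : ℕ}
    (hF : ∀ (Y : Type u) [Group Y] [Finite Y], FH m Y → (Nat.card Y).factorization 2 ≤ a → Nat.card Y ≤ F)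
    {X : Type u} [Group X] [Finite X] {e₁ e₂ : X} (h₁ : e₁ * e₁ = 1) (h₂ : e₂ * e₂ = 1)
    (h12 : e₁ * e₂ = e₂ * e₁) (c₁ : Nat.card (Subgroup.centralizer ({e₁} : Set X)) ≤ m)
    (c₂ : Nat.card (Subgroup.centralizer ({e₂} : Set X)) ≤ m)
    (c₃ : Nat.card (Subgroup.centralizer ({e₁ * e₂} : Set X)) ≤ m)
    (n₁ : e₁ ≠ 1) (n₂ : e₂ ≠ 1) (n₃ : e₁ ≠ e₂)
    (hX : (Nat.card X).factorization 2 ≤ a + 1) {l : X} (hl : l * l = 1) (hl1 : l ≠ 1)
    (f₁ : e₁ * l * e₁⁻¹ = l) (f₂ : e₂ * l * e₂⁻¹ = l) :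
    Nat.card (Subgroup.centralizer ({l} : Set X)) ≤ m + 2 * F := by
  by_cases d₁ : e₁ = l
  · rw [← d₁]; exact c₁.trans (Nat.le_add_right _ _)
  by_cases d₂ : e₂ = l
  · rw [← d₂]; exact c₂.trans (Nat.le_add_right _ _)
  by_cases d₃ : e₁ * e₂ = l
  · rw [← d₃]; exact c₃.trans (Nat.le_add_right _ _)
  have n₃' : e₁ * e₂ ≠ 1 := by
    intro h'
    apply n₃
    have h6 : e₁ = e₂⁻¹ := eq_inv_of_mul_eq_one_left h'
    rw [h6]; exact inv_eq_of_mul_eq_one_left h₂
  have hlY : l ∈ Subgroup.centralizer ({l} : Set X) := Subgroup.mem_centralizer_singleton_iff.2 rfl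
  have hY₁ : e₁ ∈ Subgroup.centralizer ({l} : Set X) :=
    Subgroup.mem_centralizer_singleton_iff.2 (mul_inv_eq_iff_eq_mul.1 f₁)
  have hY₂ : e₂ ∈ Subgroup.centralizer ({l} : Set X) :=
    Subgroup.mem_centralizer_singleton_iff.2 (mul_inv_eq_iff_eq_mul.1 f₂)
  exact (central_case' hF (Subgroup.centralizer ({l} : Set X)) (e₁ := ⟨e₁, hY₁⟩) (e₂ := ⟨e₂, hY₂⟩)
    (l := ⟨l, hlY⟩) h₁ h₂ h12 c₁ c₂ c₃ n₁ n₂ n₃' hX hl hl1
    (fun y hy => Subgroup.mem_centralizer_singleton_iff.1 hy) d₁ d₂ d₃).trans (Nat.le_add_left _ _)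

theorem inner_step {m a F : ℕ}
    (hF : ∀ (Y : Type u) [Group Y] [Finite Y], FH m Y → (Nat.card Y).factorization 2 ≤ a → Nat.card Y ≤ F) :
    ∀ v k : ℕ, ∃ B : ℕ, ∀ (X : Type u) [Group X] [Finite X], FH m X →
      (Nat.card X).factorization 2 ≤ a + 1 → ∀ N : Subgroup X, N.Normal → N.index ≤ k →
      (Nat.card N).factorization 2 ≤ v → Nat.card X ≤ B := by
  intro v
  induction v with
  | zero =>
    intro k
    refine ⟨m ^ 4 * k, ?_⟩
    rintro X _ _ ⟨e₁, e₂, h₁, h₂, h12, n₁, n₂, n₃, c₁, c₂, c₃⟩ hX N hN hi hv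
    have h1 : Odd (Nat.card N) := odd_of_fact Nat.card_pos.ne' (Nat.le_zero.1 hv)
    have h2 := odd_bound h₁ h₂ h12 h1 (by rw [Subgroup.normalizer_eq_top]; trivial)
      (by rw [Subgroup.normalizer_eq_top]; trivial) n₃ c₁ c₂ c₃
    rw [← Subgroup.card_mul_index N]
    exact Nat.mul_le_mul h2 hi
  | succ v ih =>
    intro k
    obtain ⟨B', hB'⟩ := ih (Nat.factorial (2 * m ^ 2 * k))
    refine ⟨B' + 2 * m ^ 4 * m * k + (m + 2 * F) * Nat.factorial (2 * m ^ 2 * k), ?_⟩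
    rintro X _ _ ⟨e₁, e₂, h₁, h₂, h12, n₁, n₂, n₃, c₁, c₂, c₃⟩ hX N hN hi hv
    haveI := hN
    have hm0 : 0 < m := lt_of_lt_of_le Nat.card_pos c₁
    have hRodd : Odd (Nat.card (pPrimeCore 2 X)) := by
      have h1 := pPrimeCore_coprime (p := 2) (G := X)
      rw [← Nat.not_even_iff_odd, even_iff_two_dvd]
      intro h2
      have h3 := Nat.dvd_gcd h2 (dvd_refl 2)
      rw [h1] at h3
      omega
    haveI hRn : (pPrimeCore 2 X).Normal := inferInstance
    have hR := odd_bound h₁ h₂ h12 hRodd (by rw [Subgroup.normalizer_eq_top]; trivial)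
      (by rw [Subgroup.normalizer_eq_top]; trivial) n₃ c₁ c₂ c₃
    by_cases hbig : 2 * m ^ 4 * m ≤ Nat.card N
    swap
    · push_neg at hbig
      have h1 : Nat.card X ≤ 2 * m ^ 4 * m * k := by
        rw [← Subgroup.card_mul_index N]
        exact Nat.mul_le_mul hbig.le hi
      omega
    obtain ⟨x, hxN, hxR, hx⟩ := exists_small_index h₁ c₁ N _ hR hbig hm0
    set C : Subgroup X := Subgroup.centralizer ({x} : Set X) ⊓ N with hC
    have hCi : C.index ≤ 2 * m ^ 2 * k := by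
      have h1 : Nat.card N = C.relIndex N * Nat.card C := card_eq_relIndex_mul inf_le_right
      have h2 : C.relIndex N * Nat.card C ≤ 2 * m ^ 2 * Nat.card C := by rw [← h1]; exact hx
      have h3 := Nat.le_of_mul_le_mul_right h2 Nat.card_pos
      have h4 : C.relIndex N * N.index = C.index := Subgroup.relIndex_mul_index inf_le_right
      rw [← h4]
      exact Nat.mul_le_mul h3 hi
    set N' : Subgroup X := C.normalCore with hN'
    have hN'i : N'.index ≤ Nat.factorial (2 * m ^ 2 * k) :=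
      (index_normalCore_le C).trans (Nat.factorial_le hCi)
    have hN'C : N' ≤ C := Subgroup.normalCore_le C
    have hN'N : N' ≤ N := hN'C.trans inf_le_right
    haveI : N'.Normal := inferInstance
    by_cases hv' : (Nat.card N').factorization 2 ≤ v
    · have h1 := hB' X ⟨e₁, e₂, h₁, h₂, h12, n₁, n₂, n₃, c₁, c₂, c₃⟩ hX N' inferInstance hN'i hv'
      omega
    push_neg at hv'
    -- |N : N'| is odd
    have hodd : Odd (N'.relIndex N) := by
      have h1 : Nat.card N = N'.relIndex N * Nat.card N' := card_eq_relIndex_mul hN'N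
      have h2 : N'.relIndex N ≠ 0 := by
        intro h
        rw [h, zero_mul] at h1
        exact Nat.card_pos.ne' h1
      apply odd_of_fact h2
      rw [h1, Nat.factorization_mul h2 Nat.card_pos.ne', Finsupp.add_apply] at hv
      omega
    have hodd2 : ∀ z ∈ N, z * z = 1 → z ∈ N' := by
      intro z hz hzz
      have h1 : (⟨z, hz⟩ : N) ^ (N'.subgroupOf N).index ∈ N'.subgroupOf N := Subgroup.pow_index_mem _ _
      rw [Subgroup.mem_subgroupOf] at h1
      have h2 : (N'.subgroupOf N).index = N'.relIndex N := rfl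
      obtain ⟨j, hj⟩ := hodd
      rw [h2, hj] at h1
      have h3 : (((⟨z, hz⟩ : N) ^ (2 * j + 1) : N) : X) = z := by
        show z ^ (2 * j + 1) = z
        rw [pow_succ, pow_mul, pow_two, hzz, one_pow, one_mul]
      rw [h3] at h1
      exact h1
    -- the normal closure of x
    set L : Subgroup X := Subgroup.normalClosure {x} with hL
    have hLN : L ≤ N := Subgroup.normalClosure_le_normal (by simpa using hxN)
    have hcent : ∀ n ∈ N', ∀ y ∈ L, n * y = y * n := by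
      intro n hn y hy
      have h1 : L ≤ Subgroup.centralizer (N' : Set X) := by
        haveI : (Subgroup.centralizer (N' : Set X)).Normal := inferInstance
        apply Subgroup.normalClosure_le_normal
        intro y hy
        rw [Set.mem_singleton_iff] at hy
        subst hy
        rw [SetLike.mem_coe, Subgroup.mem_centralizer_iff]
        intro n hn
        have := (hN'C hn).1
        exact Subgroup.mem_centralizer_singleton_iff.1 this
      exact (Subgroup.mem_centralizer_iff.1 (h1 hy)) n hn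
    have hLeven : 2 ∣ Nat.card L := by
      by_contra h
      apply hxR
      have h1 : L ≤ pPrimeCore 2 X := by
        apply le_pPrimeCore (hN := (inferInstance : L.Normal))
        exact (Nat.Prime.coprime_iff_not_dvd Nat.prime_two).2 h |>.symm
      exact h1 (Subgroup.subset_normalClosure rfl)
    haveI : Fact (Nat.Prime 2) := ⟨Nat.prime_two⟩
    obtain ⟨z₀, hz₀⟩ := exists_prime_orderOf_dvd_card' 2 hLeven
    have hz₀2 : (z₀ : X) * (z₀ : X) = 1 := by
      have h1 : z₀ ^ 2 = 1 := by rw [← hz₀]; exact pow_orderOf_eq_one z₀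
      rw [pow_two] at h1
      exact congrArg Subtype.val h1
    have hz₀1 : (z₀ : X) ≠ 1 := by
      intro h
      have h1 : z₀ = 1 := Subtype.ext h
      rw [h1, orderOf_one] at hz₀
      omega
    obtain ⟨l, ⟨hlL, hl2⟩, hl1, f₁, f₂⟩ := exists_fixed h₁ h₂ h12 {z | z ∈ L ∧ z * z = 1}
      (fun z hz => hz.2)
      (by
        rintro z ⟨hz, hzz⟩ z' ⟨hz', hzz'⟩
        have h1 : z * z' = z' * z := hcent z (hodd2 z (hLN hz) hzz) z' hz'
        refine ⟨⟨L.mul_mem hz hz', ?_⟩, h1⟩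
        calc z * z' * (z * z') = z * z' * (z' * z) := by rw [h1]
          _ = z * (z' * z') * z := by group
          _ = 1 := by rw [hzz', mul_one, hzz])
      (by
        rintro z ⟨hz, hzz⟩ g
        refine ⟨(inferInstance : L.Normal).conj_mem z hz g, ?_⟩
        calc g * z * g⁻¹ * (g * z * g⁻¹) = g * (z * z) * g⁻¹ := by group
          _ = 1 := by rw [hzz]; group)
      ⟨z₀, ⟨z₀.2, hz₀2⟩, hz₀1⟩
    have h1 := central_case hF h₁ h₂ h12 c₁ c₂ c₃ n₁ n₂ n₃ hX hl2 hl1 f₁ f₂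
    have h2 : N' ≤ Subgroup.centralizer ({l} : Set X) := by
      intro n hn
      rw [Subgroup.mem_centralizer_singleton_iff]
      exact hcent n hn l hlL
    have h3 : (Subgroup.centralizer ({l} : Set X)).index ≤ Nat.factorial (2 * m ^ 2 * k) :=
      (Nat.le_of_dvd (Nat.pos_of_ne_zero Subgroup.index_ne_zero_of_finite)
        (Subgroup.index_dvd_of_le h2)).trans hN'i
    have h4 : Nat.card X ≤ (m + 2 * F) * Nat.factorial (2 * m ^ 2 * k) := by
      rw [← Subgroup.card_mul_index (Subgroup.centralizer ({l} : Set X))]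
      exact Nat.mul_le_mul h1 h3
    omega

theorem main_bound (m : ℕ) : ∀ a : ℕ, ∃ F : ℕ, ∀ (X : Type u) [Group X] [Finite X], FH m X →
    (Nat.card X).factorization 2 ≤ a → Nat.card X ≤ F := by
  intro a
  induction a with
  | zero =>
    refine ⟨0, ?_⟩
    rintro X _ _ ⟨e₁, e₂, h₁, h₂, h12, n₁, n₂, n₃, c₁, c₂, c₃⟩ hX
    exfalso
    obtain ⟨j, hj⟩ := odd_of_fact Nat.card_pos.ne' (Nat.le_zero.1 hX)
    have h1 : e₁ ^ Nat.card X = 1 := pow_card_eq_one'
    rw [hj, pow_succ, pow_mul, pow_two, h₁, one_pow, one_mul] at h1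
    exact n₁ h1
  | succ a ih =>
    obtain ⟨F, hF⟩ := ih
    obtain ⟨B, hB⟩ := inner_step hF (a + 1) 1
    refine ⟨B, ?_⟩
    intro X _ _ hX1 hX2
    refine hB X hX1 hX2 ⊤ inferInstance (by rw [Subgroup.index_top]) ?_
    rw [Subgroup.card_top]
    exact hX2

end Cfsg.Agent.Lib.FourBound
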