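import Mathlib.GroupTheory.ClassEquation
import Mathlib.Algebra.Order.Floor.Semiring
import Cfsg.Agent.Lib.CharBasic

set_option autoImplicit false

/-!
# Landau's theorem: the order is bounded in terms of the number of classes (helper78)
-/

namespace Cfsg.Agent.Lib.LandauBound

open Cfsg

/-- Representations of a rational number as a sum of `k` unit fractions have bounded denominators. -/
theorem egypt (k : ℕ) : ∀ q : ℚ, ∃ N : ℕ, ∀ s : Multiset ℕ, s.card = k → (∀ n ∈ s, 0 < n) →
    (s.map (fun n : ℕ => (1 : ℚ) / n)).sum = q → ∀ n ∈ s, n ≤ N := by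
  induction k with
  | zero =>
    intro q
    refine ⟨0, fun s hs _ _ n hn => ?_⟩
    rw [Multiset.card_eq_zero] at hs
    rw [hs] at hn
    exact absurd hn (Multiset.notMem_zero n)
  | succ k ih =>
    intro q
    choose f hf using ih
    set L : ℕ := ⌊((k : ℚ) + 1) / q⌋₊ with hL
    refine ⟨L + ∑ v ∈ Finset.range (L + 1), f (q - 1 / (v : ℚ)), fun s hs hpos hsum n hn => ?_⟩
    -- q is positive
    have hsumpos : ∀ t : Multiset ℕ, (∀ m ∈ t, 0 < m) →
        0 ≤ (t.map (fun n : ℕ => (1 : ℚ) / n)).sum := by
      intro t ht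
      apply Multiset.sum_nonneg
      intro x hx
      rw [Multiset.mem_map] at hx
      obtain ⟨m, _, rfl⟩ := hx
      positivity
    have hq : 0 < q := by
      obtain ⟨t, rfl⟩ := Multiset.exists_cons_of_mem hn
      rw [Multiset.map_cons, Multiset.sum_cons] at hsum
      have h1 := hsumpos t (fun m hm => hpos m (Multiset.mem_cons_of_mem hm))
      have h2 : (0 : ℚ) < 1 / n := by
        have : (0 : ℚ) < n := by exact_mod_cast hpos n hn
        positivity
      linarith
    -- a small element
    have hsmall : ∃ v ∈ s, v ≤ L := by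
      by_contra hno
      push Not at hno
      have hbound : (s.map (fun n : ℕ => (1 : ℚ) / n)).sum < q := by
        have h3 : ∀ x ∈ s, (1 : ℚ) / x < q / (k + 1) := by
          intro x hx
          have h4 := hno x hx
          rw [hL, Nat.floor_lt (by positivity)] at h4
          have hx0 : (0 : ℚ) < x := by exact_mod_cast hpos x hx
          rw [div_lt_div_iff₀ hx0 (by positivity)]
          rw [div_lt_iff₀ hq] at h4
          linarith
        have h5 : (s.map (fun n : ℕ => (1 : ℚ) / n)).sum < (s.map (fun _ : ℕ => q / ((k : ℚ) + 1))).sum := by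
          apply Multiset.sum_lt_sum_of_nonempty
          · rintro rfl
            simp at hs
          · exact h3
        rw [Multiset.map_const', Multiset.sum_replicate, hs] at h5
        have h6 : (k + 1) • (q / ((k : ℚ) + 1)) = q := by
          rw [nsmul_eq_mul]
          push_cast
          field_simp
        rw [h6] at h5
        exact h5
      rw [hsum] at hbound
      exact lt_irrefl _ hbound
    obtain ⟨v, hv, hvL⟩ := hsmall
    obtain ⟨t, rfl⟩ := Multiset.exists_cons_of_mem hv
    rw [Multiset.mem_cons] at hn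
    rcases hn with rfl | hn
    · omega
    · rw [Multiset.card_cons] at hs
      have h7 := hf (q - 1 / (v : ℚ)) t (by omega)
        (fun m hm => hpos m (Multiset.mem_cons_of_mem hm)) (by
          rw [← hsum, Multiset.map_cons, Multiset.sum_cons]; ring) n hn
      have h8 : f (q - 1 / (v : ℚ)) ≤ ∑ v ∈ Finset.range (L + 1), f (q - 1 / (v : ℚ)) :=
        Finset.single_le_sum (f := fun v : ℕ => f (q - 1 / (v : ℚ))) (fun _ _ => Nat.zero_le _)
          (Finset.mem_range.mpr (by omega))
      omega

/-- Landau: the order of a finite group with `k` conjugacy classes is bounded. -/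
theorem landau (k : ℕ) : ∃ N : ℕ, ∀ (G : Type*) [Group G] [Finite G],
    Nat.card (ConjClasses G) = k → Nat.card G ≤ N := by
  obtain ⟨N, hN⟩ := egypt k 1
  refine ⟨N, fun G _ _ hk => ?_⟩
  classical
  have := Fintype.ofFinite G
  have := Fintype.ofFinite (ConjClasses G)
  -- denominators
  have hdiv : ∀ c : ConjClasses G, ∃ n : ℕ, 0 < n ∧ c.carrier.ncard * n = Nat.card G := by
    intro c
    obtain ⟨a, rfl⟩ := ConjClasses.mk_surjective c
    refine ⟨Nat.card (Subgroup.centralizer ({a} : Set G)), Nat.card_pos, ?_⟩
    rw [← CharBasic.card_isConj_mul_card_centralizer a]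
    congr 1
  choose f hf0 hf using hdiv
  have h1 : f (ConjClasses.mk 1) = Nat.card G := by
    have h2 := hf (ConjClasses.mk 1)
    have h3 : (ConjClasses.mk (1 : G)).carrier.ncard = 1 := by
      rw [Set.ncard_eq_one]
      refine ⟨1, ?_⟩
      ext x
      rw [ConjClasses.mem_carrier_iff_mk_eq, ConjClasses.mk_eq_mk_iff_isConj,
        Set.mem_singleton_iff, isConj_one_left]
    rw [h3, one_mul] at h2
    exact h2
  rw [← h1]
  apply hN ((Finset.univ : Finset (ConjClasses G)).val.map f)
  · rw [Multiset.card_map, Finset.card_val, Finset.card_univ, ← Nat.card_eq_fintype_card, hk]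
  · intro n hn
    rw [Multiset.mem_map] at hn
    obtain ⟨c, _, rfl⟩ := hn
    exact hf0 c
  · rw [Multiset.map_map]
    change ∑ c : ConjClasses G, (1 : ℚ) / (f c : ℚ) = 1
    have h4 : ∀ c : ConjClasses G, (1 : ℚ) / (f c : ℚ) = (c.carrier.ncard : ℚ) / (Nat.card G : ℚ) := by
      intro c
      have h5 : (c.carrier.ncard : ℚ) * f c = Nat.card G := by exact_mod_cast hf c
      have h6 : (f c : ℚ) ≠ 0 := by exact_mod_cast (hf0 c).ne'
      have h7 : (Nat.card G : ℚ) ≠ 0 := by exact_mod_cast Nat.card_pos.ne'
      rw [div_eq_div_iff h6 h7, h5, one_mul]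
    simp only [h4]
    rw [← Finset.sum_div]
    have h8 : (∑ c : ConjClasses G, (c.carrier.ncard : ℚ)) = Nat.card G := by
      have h9 := Group.sum_card_conj_classes_eq_card G
      rw [finsum_eq_sum_of_fintype] at h9
      exact_mod_cast h9
    rw [h8, div_self]
    exact_mod_cast Nat.card_pos.ne'
  · exact Multiset.mem_map_of_mem f (Finset.mem_val.mpr (Finset.mem_univ _))

/-- Landau, with a bound on the number of classes. -/
theorem landau_le (k : ℕ) : ∃ N : ℕ, ∀ (G : Type*) [Group G] [Finite G],
    Nat.card (ConjClasses G) ≤ k → Nat.card G ≤ N := by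
  choose f hf using landau
  refine ⟨∑ i ∈ Finset.range (k + 1), f i, fun G _ _ hk => ?_⟩
  refine (hf _ G rfl).trans ?_
  exact Finset.single_le_sum (f := f) (fun _ _ => Nat.zero_le _) (Finset.mem_range.mpr (by omega))

end Cfsg.Agent.Lib.LandauBound
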