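import Cfsg.Agent.Lib.FourBound3
import Cfsg.Agent.Lib.BlockThird
import Cfsg.Agent.Lib.BlockFirst
import Cfsg.Agent.S4718

/-!
# Groups without non-principal 2-blocks of large defect
-/

set_option autoImplicit false
set_option linter.all false
set_option maxHeartbeats 400000

namespace Cfsg.Agent.Lib.FourBound

open Cfsg Cfsg.Agent.Lib.H32Cores

universe u

theorem card_two_pow_of_le {G : Type u} [Group G] [Finite G] {E A : Subgroup G} {n : ℕ}
    (hE : Nat.card E = 2 ^ n) (hA : A ≤ E) : ∃ i ≤ n, Nat.card A = 2 ^ i := by
  have h1 : Nat.card A ∣ 2 ^ n := by rw [← hE]; exact Subgroup.card_dvd_of_le hA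
  exact (Nat.dvd_prime_pow Nat.prime_two).1 h1

theorem descend (a N₀ : ℕ) : ∀ j : ℕ, ∃ b : ℕ, ∀ (G : Type u) [Group G] [Finite G] (r : ℕ) (E : Subgroup G),
    (Nat.card G).factorization 2 ≤ a → (∀ x ∈ E, ∀ y ∈ E, x * y = y * x) → (∀ x ∈ E, x * x = 1) →
    Nat.card E = 2 ^ (r + 1) →
    (∀ Q : Subgroup G, Q ≤ E → 2 ^ r ≤ Nat.card Q → Nat.card (Subgroup.centralizer (Q : Set G)) ≤ N₀) →
    ∀ A : Subgroup G, A ≤ E → 2 ^ r ≤ Nat.card A * 2 ^ j →
      Nat.card (Subgroup.centralizer (A : Set G)) ≤ b := by
  intro j
  induction j with
  | zero =>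
    refine ⟨N₀, ?_⟩
    intro G _ _ r E hG hab hsq hE hQ A hA h
    rw [pow_zero, mul_one] at h
    exact hQ A hA h
  | succ j ih =>
    obtain ⟨b, hb⟩ := ih
    obtain ⟨F, hF⟩ := main_bound.{u} b a
    refine ⟨b + F * 2 ^ a, ?_⟩
    intro G _ _ r E hG hab hsq hE hQ A hA h
    by_cases hA2 : 2 ^ r ≤ Nat.card A * 2 ^ j
    · exact (hb G r E hG hab hsq hE hQ A hA hA2).trans (Nat.le_add_right _ _)
    obtain ⟨i, hi, hAi⟩ := card_two_pow_of_le hE hA
    rw [hAi, ← pow_add] at hA2
    have hij : i + j < r := by
      by_contra h1
      exact hA2 (Nat.pow_le_pow_right (by norm_num) (by omega))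
    rw [hAi, ← pow_add] at h
    have hij2 : r ≤ i + (j + 1) := (Nat.pow_le_pow_iff_right (by norm_num)).1 h
    have hia : i ≤ a := by
      refine le_trans ?_ hG
      have h1 : 2 ^ i ∣ Nat.card G := by rw [← hAi]; exact Subgroup.card_subgroup_dvd_card A
      exact (Nat.prime_two.pow_dvd_iff_le_factorization Nat.card_pos.ne').1 h1
    -- bigger subgroups
    have hbig : ∀ e ∈ E, e ∉ A → Nat.card (Subgroup.centralizer ((A ⊔ Subgroup.zpowers e : Subgroup G) : Set G)) ≤ b := by
      intro e he heA
      have h1 : A ⊔ Subgroup.zpowers e ≤ E := sup_le hA (by rw [Subgroup.zpowers_le]; exact he)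
      obtain ⟨i', hi', hAi'⟩ := card_two_pow_of_le hE h1
      apply hb G r E hG hab hsq hE hQ _ h1
      have h2 : Nat.card A < Nat.card (A ⊔ Subgroup.zpowers e : Subgroup G) := by
        rcases lt_or_eq_of_le (Subgroup.card_le_of_le (le_sup_left : A ≤ A ⊔ Subgroup.zpowers e)) with h3 | h3
        · exact h3
        · exfalso
          apply heA
          have h4 := Subgroup.eq_of_le_of_card_ge (le_sup_left : A ≤ A ⊔ Subgroup.zpowers e) h3.ge
          rw [h4]
          exact (le_sup_right : Subgroup.zpowers e ≤ A ⊔ Subgroup.zpowers e) (Subgroup.mem_zpowers e)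
      rw [hAi, hAi'] at h2
      have h3 : i < i' := (Nat.pow_lt_pow_iff_right (by norm_num)).1 h2
      rw [hAi', ← pow_add]
      exact Nat.pow_le_pow_right (by norm_num) (by omega)
    -- two elements
    obtain ⟨e₁, he₁, he₁A⟩ : ∃ e ∈ E, e ∉ A := by
      by_contra hcon
      push_neg at hcon
      have h1 := Subgroup.card_le_of_le (show E ≤ A from hcon)
      rw [hE, hAi] at h1
      have := (Nat.pow_le_pow_iff_right (by norm_num : 1 < 2)).1 h1
      omega
    obtain ⟨e₂, he₂, he₂A⟩ : ∃ e ∈ E, e ∉ A ⊔ Subgroup.zpowers e₁ := by
      by_contra hcon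
      push_neg at hcon
      have h1 := Subgroup.card_le_of_le (show E ≤ A ⊔ Subgroup.zpowers e₁ from hcon)
      have h2 : Nat.card (A ⊔ Subgroup.zpowers e₁ : Subgroup G) ≤ 2 ^ i * 2 := by
        haveI : A.Normal → True := fun _ => trivial
        have h3 : (A ⊔ Subgroup.zpowers e₁ : Subgroup G) ≤ (A ⊔ Subgroup.zpowers e₁ : Subgroup G) := le_rfl
        have hset : ((A ⊔ Subgroup.zpowers e₁ : Subgroup G) : Set G) ⊆
            ((A : Set G)) ∪ ((fun x => x * e₁) '' (A : Set G)) := by
          intro x hx
          have hx' : x ∈ A ⊔ Subgroup.zpowers e₁ := hx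
          have hle : (A ⊔ Subgroup.zpowers e₁ : Subgroup G) ≤
              Subgroup.closure ((A : Set G) ∪ {e₁}) := by
            apply sup_le
            · intro y hy; exact Subgroup.subset_closure (Or.inl hy)
            · rw [Subgroup.zpowers_le]; exact Subgroup.subset_closure (Or.inr rfl)
          have hx2 := hle hx'
          induction hx2 using Subgroup.closure_induction_right with
          | one => exact Or.inl A.one_mem
          | mul_right y hy z hz ih =>
            have hyA : y ∈ (A ⊔ Subgroup.zpowers e₁ : Subgroup G) := by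
              have : Subgroup.closure ((A : Set G) ∪ {e₁}) ≤ A ⊔ Subgroup.zpowers e₁ := by
                rw [Subgroup.closure_le]
                rintro w (hw | hw)
                · exact (le_sup_left : A ≤ _) hw
                · rw [Set.mem_singleton_iff] at hw; rw [hw]
                  exact (le_sup_right : Subgroup.zpowers e₁ ≤ _) (Subgroup.mem_zpowers e₁)
              exact this hy
            rcases ih hyA hyA with h4 | ⟨w, hw, rfl⟩
            · rcases hz with hz | hz
              · exact Or.inl (A.mul_mem h4 hz)
              · rw [Set.mem_singleton_iff] at hz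
                rw [hz]; exact Or.inr ⟨y, h4, rfl⟩
            · rcases hz with hz | hz
              · right
                refine ⟨w * z, A.mul_mem hw hz, ?_⟩
                show w * z * e₁ = w * e₁ * z
                rw [mul_assoc, mul_assoc, hab z (hA hz) e₁ he₁]
              · rw [Set.mem_singleton_iff] at hz
                rw [hz]; left
                show w * e₁ * e₁ ∈ A
                rw [mul_assoc, hsq e₁ he₁, mul_one]; exact hw
          | mul_inv_cancel y hy z hz ih =>
            have hyA : y ∈ (A ⊔ Subgroup.zpowers e₁ : Subgroup G) := by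
              have : Subgroup.closure ((A : Set G) ∪ {e₁}) ≤ A ⊔ Subgroup.zpowers e₁ := by
                rw [Subgroup.closure_le]
                rintro w (hw | hw)
                · exact (le_sup_left : A ≤ _) hw
                · rw [Set.mem_singleton_iff] at hw; rw [hw]
                  exact (le_sup_right : Subgroup.zpowers e₁ ≤ _) (Subgroup.mem_zpowers e₁)
              exact this hy
            have hzE : z ∈ E := by
              rcases hz with hz | hz
              · exact hA hz
              · rw [Set.mem_singleton_iff] at hz; rw [hz]; exact he₁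
            have hzi : z⁻¹ = z := inv_eq_of_mul_eq_one_left (hsq z hzE)
            rw [hzi]
            rcases ih hyA hyA with h4 | ⟨w, hw, rfl⟩
            · rcases hz with hz | hz
              · exact Or.inl (A.mul_mem h4 hz)
              · rw [Set.mem_singleton_iff] at hz
                rw [hz]; exact Or.inr ⟨y, h4, rfl⟩
            · rcases hz with hz | hz
              · right
                refine ⟨w * z, A.mul_mem hw hz, ?_⟩
                show w * z * e₁ = w * e₁ * z
                rw [mul_assoc, mul_assoc, hab z (hA hz) e₁ he₁]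
              · rw [Set.mem_singleton_iff] at hz
                rw [hz]; left
                show w * e₁ * e₁ ∈ A
                rw [mul_assoc, hsq e₁ he₁, mul_one]; exact hw
        have h5 := Set.ncard_le_ncard hset (Set.toFinite _)
        have h6 := h5.trans (Set.ncard_union_le _ _)
        have h7 : ((fun x => x * e₁) '' (A : Set G)).ncard ≤ (A : Set G).ncard := Set.ncard_image_le (Set.toFinite _)
        have h8 : (A : Set G).ncard = 2 ^ i := by rw [← hAi]; rfl
        have h9 : ((A ⊔ Subgroup.zpowers e₁ : Subgroup G) : Set G).ncard =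
          Nat.card (A ⊔ Subgroup.zpowers e₁ : Subgroup G) := rfl
        omega
      rw [hE] at h1
      have h3 : 2 ^ (r + 1) ≤ 2 ^ (i + 1) := by rw [pow_succ 2 i]; exact h1.trans h2
      have := (Nat.pow_le_pow_iff_right (by norm_num : 1 < 2)).1 h3
      omega
    have he₂A' : e₂ ∉ A := fun h1 => he₂A ((le_sup_left : A ≤ _) h1)
    have he₃A : e₁ * e₂ ∉ A := by
      intro h1
      apply he₂A
      have h2 : e₂ = e₁⁻¹ * (e₁ * e₂) := by group
      rw [h2]
      exact Subgroup.mul_mem _ (Subgroup.inv_mem _ ((le_sup_right : Subgroup.zpowers e₁ ≤ _)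
        (Subgroup.mem_zpowers e₁))) ((le_sup_left : A ≤ _) h1)
    -- the group C = C_G(A)
    have hEC : E ≤ Subgroup.centralizer (A : Set G) := by
      intro x hx
      rw [Subgroup.mem_centralizer_iff]
      intro y hy
      exact hab y (hA hy) x hx
    have hAC : A ≤ Subgroup.centralizer (A : Set G) := hA.trans hEC
    have hcen : ∀ e : Subgroup.centralizer (A : Set G), (e : G) ∈ E → (e : G) ∉ A →
        Nat.card (Subgroup.centralizer ({e} : Set (Subgroup.centralizer (A : Set G)))) ≤ b := by
      intro e he heA
      refine le_trans ?_ (hbig e he heA)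
      apply Nat.card_le_card_of_injective
        (fun g : Subgroup.centralizer ({e} : Set (Subgroup.centralizer (A : Set G))) =>
          (⟨((g : Subgroup.centralizer (A : Set G)) : G), by
            have h1 := congrArg Subtype.val (Subgroup.mem_centralizer_singleton_iff.1 g.2)
            have h1' : ((g : Subgroup.centralizer (A : Set G)) : G) * (e : G) =
              (e : G) * ((g : Subgroup.centralizer (A : Set G)) : G) := h1
            have h2 := (g : Subgroup.centralizer (A : Set G)).2
            rw [Subgroup.mem_centralizer_iff] at h2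
            have h3 : (A ⊔ Subgroup.zpowers (e : G) : Subgroup G) ≤
                Subgroup.centralizer ({((g : Subgroup.centralizer (A : Set G)) : G)} : Set G) := by
              apply sup_le
              · intro y hy
                rw [Subgroup.mem_centralizer_singleton_iff]
                exact h2 y hy
              · rw [Subgroup.zpowers_le, Subgroup.mem_centralizer_singleton_iff]
                exact h1'.symm
            rw [Subgroup.mem_centralizer_iff]
            intro y hy
            exact Subgroup.mem_centralizer_singleton_iff.1 (h3 hy)⟩ :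
            Subgroup.centralizer ((A ⊔ Subgroup.zpowers (e : G) : Subgroup G) : Set G)))
      intro x y hxy
      have h4 : ((x : Subgroup.centralizer (A : Set G)) : G) = ((y : Subgroup.centralizer (A : Set G)) : G) := by
        simpa using hxy
      exact Subtype.ext (Subtype.ext h4)
    have hAcen : A.subgroupOf (Subgroup.centralizer (A : Set G)) ≤
        Subgroup.center (Subgroup.centralizer (A : Set G)) := by
      intro x hx
      rw [Subgroup.mem_subgroupOf] at hx
      rw [Subgroup.mem_center_iff]
      intro g
      apply Subtype.ext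
      exact ((Subgroup.mem_centralizer_iff.1 g.2) x hx).symm
    haveI hn : (A.subgroupOf (Subgroup.centralizer (A : Set G))).Normal := by
      constructor
      intro x hx g
      have h := Subgroup.mem_center_iff.1 (hAcen hx) g
      rw [h, mul_assoc, mul_inv_cancel, mul_one]
      exact hx
    have hfh : FH b (Subgroup.centralizer (A : Set G) ⧸ A.subgroupOf (Subgroup.centralizer (A : Set G))) := by
      apply fh_quot (e₁ := ⟨e₁, hEC he₁⟩) (e₂ := ⟨e₂, hEC he₂⟩) (Subtype.ext (hsq e₁ he₁))
        (Subtype.ext (hsq e₂ he₂)) (Subtype.ext (hab e₁ he₁ e₂ he₂)) _ hAcen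
      · rw [Subgroup.mem_subgroupOf]; exact he₁A
      · rw [Subgroup.mem_subgroupOf]; exact he₂A'
      · rw [Subgroup.mem_subgroupOf]; exact he₃A
      · exact hcen _ he₁ he₁A
      · exact hcen _ he₂ he₂A'
      · exact hcen _ (E.mul_mem he₁ he₂) he₃A
    have hcard := Subgroup.card_eq_card_quotient_mul_card_subgroup
      (A.subgroupOf (Subgroup.centralizer (A : Set G)))
    have hfin := hF _ hfh (by
      refine le_trans ?_ hG
      have h1 : Nat.card (Subgroup.centralizer (A : Set G) ⧸ A.subgroupOf (Subgroup.centralizer (A : Set G))) ∣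
          Nat.card G := (Dvd.intro _ hcard.symm).trans (Subgroup.card_subgroup_dvd_card _)
      exact (Nat.factorization_le_iff_dvd Nat.card_pos.ne' Nat.card_pos.ne').2 h1 2)
    rw [hcard]
    have h1 : Nat.card (A.subgroupOf (Subgroup.centralizer (A : Set G))) = 2 ^ i := by
      rw [Nat.card_congr (Subgroup.subgroupOfEquivOfLe hAC).toEquiv, hAi]
    rw [h1]
    refine le_trans ?_ (Nat.le_add_left _ _)
    exact Nat.mul_le_mul hfin (Nat.pow_le_pow_right (by norm_num) hia)

end Cfsg.Agent.Lib.FourBound
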