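import Cfsg.Agent.Lib.FourBound4

set_option autoImplicit false
set_option linter.all false
set_option maxHeartbeats 400000

namespace Cfsg.Agent.Lib.FourBound

open Cfsg Cfsg.Agent.Lib.BlockRing Cfsg.Agent.Lib.BlockGA Cfsg.Agent.Lib.BlockIdem
open Cfsg.Agent.Lib.BlockHom Cfsg.Agent.Lib.BlockDefect Cfsg.Agent.Lib.BlockFirst

universe u

theorem only_principal {G : Type u} [Group G] [Finite G] {M : Ideal AlgInt} (hM : IsPModular 2 M) {r : ℕ}
    (hB : ∀ B : Set (IrrCharacter G), IsPBlock M B → B ≠ principalBlock M G → blockDefect 2 B < r)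
    {Q : Subgroup G} (hQ : IsPGroup 2 Q) (hr : 2 ^ r ≤ Nat.card Q)
    (b : Set (IrrCharacter (Q ⊔ Subgroup.centralizer (Q : Set G) : Subgroup G))) (hb : IsPBlock M b) :
    b = principalBlock M (Q ⊔ Subgroup.centralizer (Q : Set G) : Subgroup G) := by
  haveI := isPrime hM
  haveI : Fact (Nat.Prime 2) := ⟨Nat.prime_two⟩
  have hN : Q ⊔ Subgroup.centralizer (Q : Set G) ≤ Subgroup.normalizer (Q : Set G) :=
    sup_le Subgroup.le_normalizer (Subgroup.centralizer_le_normalizer _)
  obtain ⟨B, hB'⟩ := inducedBlockDefined hM hQ le_sup_left le_sup_right hN hb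
  rw [BlockThird.induced_principal_iff hM hB']
  by_contra hne
  have h1 := hB B hB'.2.1 hne
  obtain ⟨D, hD⟩ := exists_defectGroup hM hb
  have h2 := subgroupOf_le_defectGroup hM hQ le_sup_left hN hb hD
  obtain ⟨E, hE⟩ := exists_defectGroup hM hB'.2.1
  obtain ⟨x, hx⟩ := exists_conj_le hM hB' hD hE
  have h3 : Nat.card E = 2 ^ blockDefect 2 B := defectGroup_card hM hB'.2.1 hE
  have h4 := Subgroup.card_le_of_le hx
  rw [BlockDefect.card_map_conj, h3, Subgroup.card_map_of_injective (Subgroup.subtype_injective _)] at h4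
  have h5 := Subgroup.card_le_of_le h2
  rw [Nat.card_congr (Subgroup.subgroupOfEquivOfLe le_sup_left).toEquiv] at h5
  have h6 : 2 ^ r ≤ 2 ^ blockDefect 2 B := hr.trans (h5.trans h4)
  have h7 := (Nat.pow_le_pow_iff_right (by norm_num : 1 < 2)).1 h6
  omega

theorem main4719 (a : ℕ) : ∃ N : ℕ, ∀ (G : Type u) [Group G] [Finite G] (M : Ideal Cfsg.AlgInt) (r : ℕ)
    (P : Sylow 2 G), Cfsg.IsPModular 2 M → Nat.card P = 2 ^ a →
    (∀ B : Set (Cfsg.IrrCharacter G), Cfsg.IsPBlock M B → B ≠ Cfsg.principalBlock M G →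
      Cfsg.blockDefect 2 B < r) →
    (∃ E : Subgroup G, E ≤ (P : Subgroup G) ∧ IsMulCommutative E ∧ (∀ x ∈ E, x * x = 1) ∧
      Nat.card E = 2 ^ (r + 1)) → Nat.card G ≤ N := by
  classical
  haveI : Fact (Nat.Prime 2) := ⟨Nat.prime_two⟩
  choose f hf using fun a' => S4718.result.{u} 2 a'
  obtain ⟨b, hb⟩ := descend.{u} a (∑ a' ∈ Finset.range (a + 1), f a') a
  refine ⟨b, ?_⟩
  rintro G _ _ M r P hM hP hB ⟨E, hEP, hEc, hsq, hE⟩
  have hG : (Nat.card G).factorization 2 = a := by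
    have h1 := P.card_eq_multiplicity
    rw [hP] at h1
    exact (Nat.pow_right_injective le_rfl h1).symm
  have hab : ∀ x ∈ E, ∀ y ∈ E, x * y = y * x := by
    intro x hx y hy
    have := hEc.is_comm.comm (⟨x, hx⟩ : E) ⟨y, hy⟩
    exact congrArg Subtype.val this
  have hra : r + 1 ≤ a := by
    have h1 : 2 ^ (r + 1) ∣ 2 ^ a := by
      rw [← hE, ← hP]
      exact Subgroup.card_dvd_of_le hEP
    exact (Nat.pow_dvd_pow_iff_le_right (by norm_num)).1 h1
  have hQ : ∀ Q : Subgroup G, Q ≤ E → 2 ^ r ≤ Nat.card Q →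
      Nat.card (Subgroup.centralizer (Q : Set G)) ≤ ∑ a' ∈ Finset.range (a + 1), f a' := by
    intro Q hQE hr
    have hQp : IsPGroup 2 Q := P.isPGroup'.to_le (hQE.trans hEP)
    have h1 := only_principal hM hB hQp hr
    have h2 : (Nat.card (Q ⊔ Subgroup.centralizer (Q : Set G) : Subgroup G)).factorization 2 ≤ a := by
      rw [← hG]
      exact (Nat.factorization_le_iff_dvd Nat.card_pos.ne' Nat.card_pos.ne').2
        (Subgroup.card_subgroup_dvd_card _) 2
    have h3 := hf _ (Q ⊔ Subgroup.centralizer (Q : Set G) : Subgroup G) M hM rfl h1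
    have h4 : Nat.card (Subgroup.centralizer (Q : Set G)) ≤
        Nat.card (Q ⊔ Subgroup.centralizer (Q : Set G) : Subgroup G) := Subgroup.card_le_of_le le_sup_right
    refine h4.trans (h3.trans ?_)
    exact Finset.single_le_sum (f := f) (fun _ _ => Nat.zero_le _) (Finset.mem_range.mpr (by omega))
  have h1 := hb G r E hG.le hab hsq hE hQ ⊥ bot_le (by
    rw [Subgroup.card_bot, one_mul]
    exact Nat.pow_le_pow_right (by norm_num) (by omega))
  have h2 : Subgroup.centralizer ((⊥ : Subgroup G) : Set G) = ⊤ := by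
    rw [eq_top_iff]
    intro x _
    rw [Subgroup.mem_centralizer_iff]
    intro y hy
    rw [SetLike.mem_coe, Subgroup.mem_bot] at hy
    rw [hy, one_mul, mul_one]
  rw [h2, Subgroup.card_top] at h1
  exact h1

end Cfsg.Agent.Lib.FourBound
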