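import Cfsg.Agent.Lib.KInf5
import Cfsg.Agent.Lib.CoprimeGen
import Mathlib.GroupTheory.SpecificGroups.KleinFour
import Cfsg.Prelude.Def_CaseTheorems

/-!
Normal four-subgroups of a Sylow 2-subgroup in a group of characteristic 2 type lie in
`O_2(C(u))` for each of their involutions `u`.
-/

set_option autoImplicit false

namespace Cfsg.Agent.Lib.FourChar2

open Cfsg.Agent.Lib.CFSylow Cfsg.Agent.Lib.CFWeak Cfsg.Agent.Lib.CFWeak3 Cfsg.Agent.Lib.KInf1

variable {G : Type*} [Group G]

/-- membership in `{1, u, v, v u}` -/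
theorem mem_four {U : Subgroup G} (hU4 : IsKleinFour ↥U) {u v w : G} (hu : u ∈ U) (hv : v ∈ U) (hw : w ∈ U)
    (hu1 : u ≠ 1) (hv1 : v ≠ 1) (huv : v ≠ u) : w = 1 ∨ w = u ∨ w = v ∨ w = v * u := by
  classical
  by_contra hcon
  push Not at hcon
  obtain ⟨h1, h2, h3, h4⟩ := hcon
  have hcard : Nat.card U = 4 := IsKleinFour.card_four
  have _ : Finite U := Nat.finite_of_card_ne_zero (by omega)
  let _ : Fintype U := Fintype.ofFinite U
  have hvu : v * u ≠ 1 := by
    intro h
    have h5 : u * u = 1 := congrArg Subtype.val (IsKleinFour.mul_self (⟨u, hu⟩ : U))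
    exact huv (mul_right_cancel (h.trans h5.symm))
  have key : ({⟨1, one_mem U⟩, ⟨u, hu⟩, ⟨v, hv⟩, ⟨v * u, mul_mem hv hu⟩, ⟨w, hw⟩} : Finset U).card = 5 := by
    rw [Finset.card_insert_of_notMem, Finset.card_insert_of_notMem, Finset.card_insert_of_notMem,
      Finset.card_insert_of_notMem, Finset.card_singleton]
    · simp only [Finset.mem_singleton, Subtype.mk.injEq]; exact fun h => h4 h.symm
    · simp only [Finset.mem_insert, Finset.mem_singleton, Subtype.mk.injEq]
      rintro (h | h)
      · exact hu1 (mul_left_cancel (a := v) (by rw [← h, mul_one]))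
      · exact h3 h.symm
    · simp only [Finset.mem_insert, Finset.mem_singleton, Subtype.mk.injEq]
      rintro (h | h | h)
      · exact huv h.symm
      · exact hv1 (mul_right_cancel (b := u) (by rw [← h, one_mul]))
      · exact h2 h.symm
    · simp only [Finset.mem_insert, Finset.mem_singleton, Subtype.mk.injEq]
      rintro (h | h | h | h)
      · exact hu1 h.symm
      · exact hv1 h.symm
      · exact hvu h.symm
      · exact h1 h.symm
  have h6 := Finset.card_le_univ ({⟨1, one_mem U⟩, ⟨u, hu⟩, ⟨v, hv⟩, ⟨v * u, mul_mem hv hu⟩, ⟨w, hw⟩} : Finset U)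
  rw [key, ← Nat.card_eq_fintype_card, hcard] at h6
  omega

theorem four_sq {U : Subgroup G} (hU4 : IsKleinFour ↥U) {u : G} (hu : u ∈ U) : u * u = 1 :=
  congrArg Subtype.val (IsKleinFour.mul_self (⟨u, hu⟩ : U))

theorem four_comm {U : Subgroup G} (hU4 : IsKleinFour ↥U) {u v : G} (hu : u ∈ U) (hv : v ∈ U) : u * v = v * u := by
  have h := (IsKleinFour.isMulCommutative (G := U)).is_comm.comm ⟨u, hu⟩ ⟨v, hv⟩
  exact congrArg Subtype.val h

theorem four_conj {U : Subgroup G} (hU4 : IsKleinFour ↥U) {u v s : G} (hu : u ∈ U) (hv : v ∈ U) (hu1 : u ≠ 1)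
    (hsv : s * v * s⁻¹ ∈ U) (hsu : s * u * s⁻¹ = u) : s * v * s⁻¹ = v ∨ s * v * s⁻¹ = v * u := by
  by_cases hv1 : v = 1
  · left; rw [hv1]; simp
  by_cases hvu : v = u
  · left; rw [hvu, hsu]
  rcases mem_four hU4 hu hv hsv hu1 hv1 hvu with h | h | h | h
  · exact absurd (conj_eq_one_iff.1 h) hv1
  · exfalso
    apply hvu
    have : s * v * s⁻¹ = s * u * s⁻¹ := h.trans hsu.symm
    exact mul_left_cancel (mul_right_cancel this)
  · exact Or.inl h
  · exact Or.inr h

variable [Finite G]

theorem le_core_of_sylow (h2 : Cfsg.IsCharacteristicTwoType G) {U : Subgroup G} (hU4 : IsKleinFour ↥U)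
    {u : G} (hu : u ∈ U) (hu1 : u ≠ 1) {S : Subgroup G}
    (hS : SylIn 2 S (Subgroup.centralizer ({u} : Set G))) (hSU : S ≤ nz U) :
    U ≤ Cfsg.pCoreOf 2 (Subgroup.centralizer ({u} : Set G)) := by
  have _ : Fact (Nat.Prime 2) := ⟨Nat.prime_two⟩
  have huu := four_sq hU4 hu
  have hzp : ∀ x ∈ Subgroup.zpowers u, x = 1 ∨ x = u := by
    rintro x hx
    obtain ⟨n, rfl⟩ := Subgroup.mem_zpowers_iff.1 hx
    rcases Int.even_or_odd' n with ⟨k, hk | hk⟩
    · left; rw [hk, zpow_mul]; simp [zpow_ofNat, pow_two, huu]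
    · right; rw [hk, zpow_add, zpow_mul]; simp [zpow_ofNat, pow_two, huu]
  have hCN : Subgroup.centralizer ({u} : Set G) = nz (Subgroup.zpowers u) := by
    apply le_antisymm
    · intro x hx
      rw [Subgroup.mem_centralizer_singleton_iff] at hx
      apply centralizer_le_normalizer
      rw [mem_centralizer]
      intro a ha
      rcases hzp a ha with rfl | rfl
      · simp
      · rw [hx]; simp
    · intro x hx
      rw [Subgroup.mem_centralizer_singleton_iff]
      have h1 : x * u * x⁻¹ ∈ Subgroup.zpowers u :=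
        le_normalizer_iff.1 (le_refl (nz (Subgroup.zpowers u))) x hx u (Subgroup.mem_zpowers u)
      rcases hzp _ h1 with h | h
      · exact absurd (conj_eq_one_iff.1 h) hu1
      · exact mul_inv_eq_iff_eq_mul.1 h
  have hu2 : IsPGroup 2 (Subgroup.zpowers u) := by
    rintro ⟨x, hx⟩
    refine ⟨1, Subtype.ext ?_⟩
    rcases hzp x hx with rfl | rfl
    · simp
    · simp [pow_two, huu]
  have hne : Subgroup.zpowers u ≠ ⊥ := by
    rw [Ne, Subgroup.zpowers_eq_bot]; exact hu1
  have hchar := h2.2 (Subgroup.zpowers u) hu2 hne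
  set N := Subgroup.centralizer ({u} : Set G) with hN
  change Cfsg.IsOfCharacteristicTwo ↥(nz (Subgroup.zpowers u)) at hchar
  rw [← hCN] at hchar
  set R := Cfsg.pCoreOf 2 N with hR
  have hRp : IsPGroup 2 R := pCoreOf_isPGroup N
  have hRN : R ≤ N := pCoreOf_le_self N
  have hNR : N ≤ nz R := le_nz_pCoreOf N
  have hRS : R ≤ S := pCoreOf_le_sylow hS
  have hNR' := le_normalizer_iff.1 hNR
  have hcomm : ∀ n ∈ N, n * u = u * n := fun n hn => Subgroup.mem_centralizer_singleton_iff.1 hn
  have hcent : ∀ x ∈ N, (∀ r ∈ R, x * r = r * x) → x ∈ R := by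
    intro x hx h
    have h3 : (⟨x, hx⟩ : N) ∈ Subgroup.centralizer (Cfsg.pCore 2 N : Set N) := by
      rw [Subgroup.mem_centralizer_iff]
      intro y hy
      exact Subtype.ext (h y ⟨y, hy, rfl⟩).symm
    exact ⟨⟨x, hx⟩, hchar h3, rfl⟩
  -- the stabiliser
  let D : Subgroup G :=
    { carrier := {g | g ∈ N ∧ ∀ r ∈ R, g * r * g⁻¹ = r ∨ g * r * g⁻¹ = r * u}
      one_mem' := ⟨one_mem _, fun r _ => Or.inl (by simp)⟩
      mul_mem' := by
        rintro a b ⟨ha, ha'⟩ ⟨hb, hb'⟩
        refine ⟨mul_mem ha hb, fun r hr => ?_⟩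
        have e : a * b * r * (a * b)⁻¹ = a * (b * r * b⁻¹) * a⁻¹ := by group
        rw [e]
        rcases hb' r hr with h | h
        · rw [h]; exact ha' r hr
        · rw [h]
          have e2 : a * (r * u) * a⁻¹ = (a * r * a⁻¹) * u := by
            have : u * a⁻¹ = a⁻¹ * u := (hcomm a⁻¹ (inv_mem ha)).symm
            rw [mul_assoc, mul_assoc r, this]; group
          rw [e2]
          rcases ha' r hr with h' | h'
          · right; rw [h']
          · left; rw [h', mul_assoc, huu, mul_one]
      inv_mem' := by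
        rintro a ⟨ha, ha'⟩
        refine ⟨inv_mem ha, fun r hr => ?_⟩
        have hr' : a⁻¹ * r * a⁻¹⁻¹ ∈ R := hNR' a⁻¹ (inv_mem ha) r hr
        have h1 := ha' _ hr'
        have e : a * (a⁻¹ * r * a⁻¹⁻¹) * a⁻¹ = r := by group
        rw [e] at h1
        rcases h1 with h | h
        · exact Or.inl h.symm
        · right
          calc a⁻¹ * r * a⁻¹⁻¹ = a⁻¹ * r * a⁻¹⁻¹ * u * u := by rw [mul_assoc _ u u, huu, mul_one]
            _ = r * u := by rw [← h] }
  have hDN : D ≤ N := fun x hx => hx.1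
  have hND : N ≤ nz D := by
    rw [le_normalizer_iff]
    rintro n hn g ⟨hg, hg'⟩
    refine ⟨mul_mem (mul_mem hn hg) (inv_mem hn), fun r hr => ?_⟩
    have hr' : n⁻¹ * r * n⁻¹⁻¹ ∈ R := hNR' n⁻¹ (inv_mem hn) r hr
    have e : n * g * n⁻¹ * r * (n * g * n⁻¹)⁻¹ = n * (g * (n⁻¹ * r * n⁻¹⁻¹) * g⁻¹) * n⁻¹ := by group
    rw [e]
    rcases hg' _ hr' with h | h
    · left; rw [h]; group
    · right; rw [h]
      have : u * n⁻¹ = n⁻¹ * u := (hcomm n⁻¹ (inv_mem hn)).symm
      have e2 : n * (n⁻¹ * r * n⁻¹⁻¹ * u) * n⁻¹ = n * (n⁻¹ * r * n⁻¹⁻¹) * (u * n⁻¹) := by group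
      rw [e2, this]; group
  have hDp : IsPGroup 2 D := by
    rintro ⟨g, hg, hg'⟩
    have hsq : g * g ∈ R := by
      refine hcent _ (mul_mem hg hg) (fun r hr => ?_)
      have : g * (g * r * g⁻¹) * g⁻¹ = r := by
        rcases hg' r hr with h | h
        · rw [h, h]
        · rw [h]
          have e2 : g * (r * u) * g⁻¹ = (g * r * g⁻¹) * u := by
            have : u * g⁻¹ = g⁻¹ * u := (hcomm g⁻¹ (inv_mem hg)).symm
            rw [mul_assoc, mul_assoc r, this]; group
          rw [e2, h, mul_assoc, huu, mul_one]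
      calc g * g * r = (g * (g * r * g⁻¹) * g⁻¹) * (g * g) := by group
        _ = r * (g * g) := by rw [this]
    obtain ⟨k, hk⟩ := hRp ⟨g * g, hsq⟩
    refine ⟨k + 1, Subtype.ext ?_⟩
    have hk' : (g * g) ^ 2 ^ k = 1 := congrArg Subtype.val hk
    change g ^ 2 ^ (k + 1) = 1
    rw [pow_succ', pow_mul, pow_two]
    exact hk'
  have hDR : D ≤ R := le_pCoreOf hDN hND hDp
  refine le_trans ?_ hDR
  intro v hv
  have hvN : v ∈ N := by
    rw [hN, Subgroup.mem_centralizer_singleton_iff]
    exact four_comm hU4 hv hu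
  refine ⟨hvN, fun r hr => ?_⟩
  have hrv : r * v * r⁻¹ ∈ U := le_normalizer_iff.1 hSU r (hRS hr) v hv
  have hru : r * u * r⁻¹ = u := by rw [hcomm r (hRN hr)]; simp
  have hvv := four_sq hU4 hv
  have hvi : v⁻¹ = v := inv_eq_of_mul_eq_one_right hvv
  rcases four_conj hU4 hu hv hu1 hrv hru with h | h
  · left
    have h1 : r * v = v * r := mul_inv_eq_iff_eq_mul.1 h
    rw [← h1]; simp
  · right
    have h1 : r * v = v * u * r := mul_inv_eq_iff_eq_mul.1 h
    have h2 : v * (r * v) = u * r := by rw [h1, ← mul_assoc, ← mul_assoc, hvv, one_mul]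
    rw [hvi, mul_assoc, h2, hcomm r (hRN hr)]

/-- each involution `u` of the normal four-group `U` has a Sylow 2-subgroup of its centralizer normalizing `U` -/
theorem exists_sylow (P : Sylow 2 G) {U : Subgroup G} (hU4 : IsKleinFour ↥U) (hUP : U ≤ (P : Subgroup G))
    (hUn : (P : Subgroup G) ≤ nz U)
    (hUZ : ¬ IsCyclic ↥((P : Subgroup G) ⊓ Subgroup.centralizer ((P : Subgroup G) : Set G)) →
      U ≤ Subgroup.centralizer ((P : Subgroup G) : Set G))
    {u : G} (hu : u ∈ U) (hu1 : u ≠ 1) :
    ∃ S : Subgroup G, SylIn 2 S (Subgroup.centralizer ({u} : Set G)) ∧ S ≤ nz U := by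
  classical
  have _ : Fact (Nat.Prime 2) := ⟨Nat.prime_two⟩
  by_cases hup : (P : Subgroup G) ≤ Subgroup.centralizer {u}
  · exact ⟨P, sylIn_sylow_of_le P hup, hUn⟩
  have hcyc : IsCyclic ↥((P : Subgroup G) ⊓ Subgroup.centralizer ((P : Subgroup G) : Set G)) := by
    by_contra hne
    apply hup
    intro x hx
    rw [Subgroup.mem_centralizer_singleton_iff]
    exact Subgroup.mem_centralizer_iff.1 (hUZ hne hu) x hx
  obtain ⟨t, htP, htu⟩ := SetLike.not_le_iff_exists.1 hup
  rw [Subgroup.mem_centralizer_singleton_iff] at htu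
  have hUn' := le_normalizer_iff.1 hUn
  -- the central involution
  obtain ⟨z, hzU, hz1, hz⟩ := exists_fixed (S := (P : Subgroup G)) (N := U) (K := ⊥) (Q := (P : Subgroup G))
    P.isPGroup'.isNilpotent hUP le_rfl
    (by
      rw [Subgroup.commutator_le]
      intro a ha b hb
      rw [commutatorElement_def, mul_assoc, mul_assoc]
      exact mul_mem ha (by
        have := hUn' b hb a⁻¹ (inv_mem ha)
        rwa [mul_assoc] at this))
    (by
      intro h
      have := h hu
      exact hu1 (Subgroup.mem_bot.1 this))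
  have hz1' : z ≠ 1 := fun h => hz1 (by rw [h]; exact one_mem _)
  have hzc : ∀ q ∈ (P : Subgroup G), q * z = z * q := by
    intro q hq
    have := Subgroup.mem_bot.1 (hz q hq)
    rw [commutatorElement_eq_one_iff_mul_comm] at this
    exact this.symm
  have hzz := four_sq hU4 hzU
  have huu := four_sq hU4 hu
  have huz : u ≠ z := by
    rintro rfl
    exact htu (hzc t htP)
  have hcj : ∀ s ∈ (P : Subgroup G), s * u * s⁻¹ = u ∨ s * u * s⁻¹ = u * z := by
    intro s hs
    exact four_conj hU4 hzU hu hz1' (hUn' s hs u hu) (by rw [hzc s hs]; simp)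
  have htuz : t * u * t⁻¹ = u * z := by
    rcases hcj t htP with h | h
    · exact absurd (mul_inv_eq_iff_eq_mul.1 h) htu
    · exact h
  -- involutions in the centre
  have hcen : ∀ b ∈ (P : Subgroup G), (∀ q ∈ (P : Subgroup G), q * b = b * q) → b * b = 1 → b = 1 ∨ b = z := by
    intro b hb hbc hbb
    by_contra hcon
    push Not at hcon
    set Z := (P : Subgroup G) ⊓ Subgroup.centralizer ((P : Subgroup G) : Set G) with hZ
    have hbZ : b ∈ Z := ⟨hb, Subgroup.mem_centralizer_iff.2 hbc⟩
    have hzZ : z ∈ Z := ⟨hUP hzU, Subgroup.mem_centralizer_iff.2 hzc⟩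
    let _ : Fintype Z := Fintype.ofFinite Z
    have hle := IsCyclic.card_pow_eq_one_le (α := Z) (n := 2) (by norm_num)
    have hsub : ({⟨1, one_mem Z⟩, ⟨z, hzZ⟩, ⟨b, hbZ⟩} : Finset Z) ⊆ Finset.univ.filter (fun a : Z => a ^ 2 = 1) := by
      intro x hx
      simp only [Finset.mem_insert, Finset.mem_singleton] at hx
      simp only [Finset.mem_filter, Finset.mem_univ, true_and]
      rcases hx with rfl | rfl | rfl
      · exact Subtype.ext (by simp)
      · exact Subtype.ext (by simp [pow_two, hzz])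
      · exact Subtype.ext (by simp [pow_two, hbb])
    have h3 : ({⟨1, one_mem Z⟩, ⟨z, hzZ⟩, ⟨b, hbZ⟩} : Finset Z).card = 3 := by
      rw [Finset.card_insert_of_notMem, Finset.card_insert_of_notMem, Finset.card_singleton]
      · simp only [Finset.mem_singleton, Subtype.mk.injEq]; exact fun h => hcon.2 h.symm
      · simp only [Finset.mem_insert, Finset.mem_singleton, Subtype.mk.injEq]
        rintro (h | h)
        · exact hz1' h.symm
        · exact hcon.1 h.symm
    have h4 := Finset.card_le_card hsub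
    have h5 : (Finset.univ.filter (fun a : Z => a ^ 2 = 1)).card ≤ 2 := by
      convert hle
    omega
  -- the subgroup T
  set T := (P : Subgroup G) ⊓ Subgroup.centralizer {u} with hT
  have hTp : IsPGroup 2 T := P.isPGroup'.to_le inf_le_left
  obtain ⟨S, hS, hTS⟩ := exists_sylIn_ge (p := 2) hTp (inf_le_right : T ≤ Subgroup.centralizer {u})
  refine ⟨S, hS, ?_⟩
  have huT : ∀ x ∈ T, x * u = u * x := fun x hx => Subgroup.mem_centralizer_singleton_iff.1 hx.2
  have hUT : U ≤ T := by
    intro v hv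
    exact ⟨hUP hv, Subgroup.mem_centralizer_singleton_iff.2 (four_comm hU4 hv hu)⟩
  have hTU : ∀ x ∈ T, ∀ v ∈ U, x * v = v * x := by
    intro x hx v hv
    have h1 := huT x hx
    have h2 := hzc x hx.1
    rcases mem_four hU4 hzU hu hv hz1' hu1 huz with rfl | rfl | rfl | rfl
    · simp
    · exact h2
    · exact h1
    · rw [← mul_assoc, h1, mul_assoc, h2, ← mul_assoc]
  -- index of T in P
  have hPT : T.relIndex (P : Subgroup G) ≤ 2 := by
    have h1 : ∀ s ∈ (P : Subgroup G), s ∉ T → t⁻¹ * s ∈ T := by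
      intro s hs hsT
      refine Subgroup.mem_inf.2 ⟨mul_mem (inv_mem htP) hs, ?_⟩
      rw [Subgroup.mem_centralizer_singleton_iff]
      have hsu : s * u * s⁻¹ = u * z := by
        rcases hcj s hs with h | h
        · exact absurd ⟨hs, Subgroup.mem_centralizer_singleton_iff.2 (mul_inv_eq_iff_eq_mul.1 h)⟩ hsT
        · exact h
      have h2 : t * u * t⁻¹ = s * u * s⁻¹ := by rw [htuz, hsu]
      calc t⁻¹ * s * u = t⁻¹ * (s * u * s⁻¹) * s := by group
        _ = t⁻¹ * (t * u * t⁻¹) * s := by rw [h2]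
        _ = u * (t⁻¹ * s) := by group
    rw [Subgroup.relIndex, Subgroup.index]
    have hsurj : Function.Surjective (fun b : Bool => if b then (QuotientGroup.mk (1 : (P : Subgroup G)) :
        ↥(P : Subgroup G) ⧸ T.subgroupOf (P : Subgroup G)) else QuotientGroup.mk (⟨t, htP⟩ : (P : Subgroup G))) := by
      intro q
      obtain ⟨s, rfl⟩ := QuotientGroup.mk_surjective q
      by_cases hs : (s : G) ∈ T
      · refine ⟨true, ?_⟩
        simp only [if_true]
        rw [QuotientGroup.eq, Subgroup.mem_subgroupOf]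
        simpa using hs
      · refine ⟨false, ?_⟩
        simp only [Bool.false_eq_true, if_false]
        rw [QuotientGroup.eq, Subgroup.mem_subgroupOf]
        exact h1 s s.2 hs
    have := Nat.card_le_card_of_surjective _ hsurj
    simpa using this
  have hcardT : Nat.card P ≤ 2 * Nat.card T := by
    have h1 := Subgroup.relIndex_mul_relIndex ⊥ T (P : Subgroup G) bot_le inf_le_left
    rw [Subgroup.relIndex_bot_left, Subgroup.relIndex_bot_left] at h1
    rw [← h1, mul_comm]
    exact Nat.mul_le_mul_right _ hPT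
  have hScard : Nat.card S ≤ Nat.card P := (sylIn_sylow P).card_le hS.isPGroup le_top
  have hTSn : S ≤ nz T := by
    have h1 : T.relIndex S ≤ 2 := by
      have h1 := Subgroup.relIndex_mul_relIndex ⊥ T S bot_le hTS
      rw [Subgroup.relIndex_bot_left, Subgroup.relIndex_bot_left] at h1
      have h2 : Nat.card T * T.relIndex S ≤ Nat.card T * 2 := by
        rw [h1]; omega
      exact Nat.le_of_mul_le_mul_left h2 Nat.card_pos
    have h3 : T.relIndex S ≠ 0 := Subgroup.index_ne_zero_of_finite
    rcases (by omega : T.relIndex S = 1 ∨ T.relIndex S = 2) with h | h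
    · exact (Subgroup.relIndex_eq_one.1 h).trans Subgroup.le_normalizer
    · have : (T.subgroupOf S).Normal := Subgroup.normal_of_index_eq_two h
      exact (Subgroup.normal_subgroupOf_iff_le_normalizer hTS).1 this
  rw [le_normalizer_iff]
  intro s hs v hv
  -- `s v s⁻¹` lies in `Ω₁(Z(T))`
  have hkey : ∀ a ∈ T, (∀ x ∈ T, x * a = a * x) → a * a = 1 → a ∈ U := by
    intro a ha hac haa
    have htT : ∀ x ∈ T, t * x * t⁻¹ ∈ T := by
      intro x hx
      refine Subgroup.mem_inf.2 ⟨mul_mem (mul_mem htP hx.1) (inv_mem htP), ?_⟩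
      rw [Subgroup.mem_centralizer_singleton_iff]
      have h1 : t⁻¹ * u * t⁻¹⁻¹ ∈ U := hUn' t⁻¹ (inv_mem htP) u hu
      have h2 := hTU x hx _ h1
      calc t * x * t⁻¹ * u = t * (x * (t⁻¹ * u * t⁻¹⁻¹)) * t⁻¹ := by group
        _ = t * ((t⁻¹ * u * t⁻¹⁻¹) * x) * t⁻¹ := by rw [h2]
        _ = u * (t * x * t⁻¹) := by group
    have htT' : ∀ x ∈ T, t⁻¹ * x * t ∈ T := by
      intro x hx
      refine Subgroup.mem_inf.2 ⟨mul_mem (mul_mem (inv_mem htP) hx.1) htP, ?_⟩
      rw [Subgroup.mem_centralizer_singleton_iff]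
      have h1 : t * u * t⁻¹ ∈ U := hUn' t htP u hu
      have h2 := hTU x hx _ h1
      calc t⁻¹ * x * t * u = t⁻¹ * (x * (t * u * t⁻¹)) * t := by group
        _ = t⁻¹ * ((t * u * t⁻¹) * x) * t := by rw [h2]
        _ = u * (t⁻¹ * x * t) := by group
    have htt : t * t ∈ T := by
      refine Subgroup.mem_inf.2 ⟨mul_mem htP htP, ?_⟩
      rw [Subgroup.mem_centralizer_singleton_iff]
      have h1 : t * (u * z) * t⁻¹ = u := by
        have : t * (u * z) * t⁻¹ = (t * u * t⁻¹) * (t * z * t⁻¹) := by group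
        rw [this, htuz, hzc t htP]
        have : u * z * (z * t * t⁻¹) = u * (z * z) := by group
        rw [this, hzz, mul_one]
      calc t * t * u = t * (t * u * t⁻¹) * t⁻¹ * (t * t) := by group
        _ = u * (t * t) := by rw [htuz, h1]
    -- centre of `P`: centralized by `T` and `t`
    have hPgen : ∀ b, (∀ x ∈ T, x * b = b * x) → t * b = b * t → ∀ q ∈ (P : Subgroup G), q * b = b * q := by
      intro b hb htb q hq
      by_cases hqT : q ∈ T
      · exact hb q hqT
      · have hq' : t⁻¹ * q ∈ T := by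
          refine Subgroup.mem_inf.2 ⟨mul_mem (inv_mem htP) hq, ?_⟩
          rw [Subgroup.mem_centralizer_singleton_iff]
          have hsu : q * u * q⁻¹ = u * z := by
            rcases hcj q hq with h | h
            · exact absurd ⟨hq, Subgroup.mem_centralizer_singleton_iff.2 (mul_inv_eq_iff_eq_mul.1 h)⟩ hqT
            · exact h
          have h2 : t * u * t⁻¹ = q * u * q⁻¹ := by rw [htuz, hsu]
          calc t⁻¹ * q * u = t⁻¹ * (q * u * q⁻¹) * q := by group
            _ = t⁻¹ * (t * u * t⁻¹) * q := by rw [h2]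
            _ = u * (t⁻¹ * q) := by group
        have h3 := hb _ hq'
        calc q * b = t * (t⁻¹ * q * b) := by group
          _ = t * (b * (t⁻¹ * q)) := by rw [h3]
          _ = (t * b) * (t⁻¹ * q) := by group
          _ = (b * t) * (t⁻¹ * q) := by rw [htb]
          _ = b * q := by group
    -- `t a t⁻¹` is in `A`
    set a' := t * a * t⁻¹ with ha'
    have ha'T : a' ∈ T := htT a ha
    have ha'c : ∀ x ∈ T, x * a' = a' * x := by
      intro x hx
      have h1 := hac _ (htT' x hx)
      calc x * a' = t * (t⁻¹ * x * t * a) * t⁻¹ := by rw [ha']; group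
        _ = t * (a * (t⁻¹ * x * t)) * t⁻¹ := by rw [h1]
        _ = a' * x := by rw [ha']; group
    have ha'a' : a' * a' = 1 := by
      rw [ha']
      calc t * a * t⁻¹ * (t * a * t⁻¹) = t * (a * a) * t⁻¹ := by group
        _ = 1 := by rw [haa]; group
    have haa' : a * a' = a' * a := ha'c a ha
    have htb : t * (a * a') = a * a' * t := by
      have h1 := hac _ htt
      calc t * (a * a') = (t * a * t⁻¹) * (t * t * a) * (t * t)⁻¹ * t := by rw [ha']; group
        _ = a' * (a * (t * t)) * (t * t)⁻¹ * t := by rw [h1, ← ha']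
        _ = (a' * a) * t := by group
        _ = a * a' * t := by rw [haa']
    have hbc := hPgen (a * a') (fun x hx => by
      rw [← mul_assoc x a a', hac x hx, mul_assoc a x a', ha'c x hx, ← mul_assoc a a' x]) htb
    have hbb : a * a' * (a * a') = 1 := by
      calc a * a' * (a * a') = a * (a' * a) * a' := by group
        _ = a * (a * a') * a' := by rw [haa']
        _ = (a * a) * (a' * a') := by group
        _ = 1 := by rw [haa, ha'a', mul_one]
    have haP : a ∈ (P : Subgroup G) := ha.1
    rcases hcen (a * a') (mul_mem haP ha'T.1) hbc hbb with h | h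
    · -- `a` central
      have h1 : a' = a := by
        have h2 := mul_left_cancel (h.trans haa.symm)
        exact h2
      have h2 : t * a = a * t := mul_inv_eq_iff_eq_mul.1 h1
      rcases hcen a haP (hPgen a hac h2) haa with h | h
      · rw [h]; exact one_mem _
      · rw [h]; exact hzU
    · -- `a u` central
      have h1 : a' = a * z := by
        calc a' = (a * a) * a' := by rw [haa, one_mul]
          _ = a * (a * a') := by group
          _ = a * z := by rw [h]
      have hauc : ∀ x ∈ T, x * (a * u) = (a * u) * x := by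
        intro x hx
        rw [← mul_assoc, hac x hx, mul_assoc, huT x hx, mul_assoc]
      have hza : z * u = u * z := four_comm hU4 hzU hu
      have h2 : t * (a * u) = (a * u) * t := by
        calc t * (a * u) = (t * a * t⁻¹) * (t * u * t⁻¹) * t := by group
          _ = (a * z) * (u * z) * t := by rw [← ha', h1, htuz]
          _ = a * (z * u) * z * t := by group
          _ = a * (u * z) * z * t := by rw [hza]
          _ = a * u * (z * z) * t := by group
          _ = a * u * t := by rw [hzz, mul_one]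
      have h3 : a * u * (a * u) = 1 := by
        have h4 : u * a = a * u := hac u (hUT hu)
        calc a * u * (a * u) = a * (u * a) * u := by group
          _ = a * (a * u) * u := by rw [h4]
          _ = (a * a) * (u * u) := by group
          _ = 1 := by rw [haa, huu, mul_one]
      have h5 : a = a * u * u := by rw [mul_assoc, huu, mul_one]
      rcases hcen (a * u) (mul_mem haP (hUP hu)) (hPgen _ hauc h2) h3 with h | h
      · rw [h5, h, one_mul]; exact hu
      · rw [h5, h]; exact mul_mem hzU hu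
  have hsT := le_normalizer_iff.1 hTSn
  refine hkey _ (hsT s hs v (hUT hv)) ?_ ?_
  · intro x hx
    have hx' : s⁻¹ * x * s⁻¹⁻¹ ∈ T := hsT s⁻¹ (inv_mem hs) x hx
    have h1 := hTU _ hx' v hv
    calc x * (s * v * s⁻¹) = s * ((s⁻¹ * x * s⁻¹⁻¹) * v) * s⁻¹ := by group
      _ = s * (v * (s⁻¹ * x * s⁻¹⁻¹)) * s⁻¹ := by rw [h1]
      _ = s * v * s⁻¹ * x := by group
  · calc s * v * s⁻¹ * (s * v * s⁻¹) = s * (v * v) * s⁻¹ := by group
      _ = 1 := by rw [four_sq hU4 hv]; group

end Cfsg.Agent.Lib.FourChar2
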