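import Cfsg.Agent.Lib.FpfRing

/-!
Fixed-point-free automorphisms of order four: the linear part of the argument (helper59).
-/

set_option autoImplicit false

namespace Cfsg.Agent.Lib.FpfFour

open Subgroup Cfsg.Agent.Lib.FpfRing
open scoped commutatorElement

universe u v

variable {K : Type v} {R : Type u} [Group K] [Finite K] [Ring R]

theorem odd_card (σ : MulAut K) (hσ : ∀ x, σ (σ (σ (σ x))) = x) (hfpf : ∀ g, σ g = g → g = 1) :
    Odd (Nat.card K) := by
  classical
  let _ := Fintype.ofFinite K
  have hp : Fact (Nat.Prime 2) := ⟨Nat.prime_two⟩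
  let f : Function.End K := fun x => σ x
  have hf : f ^ 2 ^ 2 = 1 := by
    funext x
    exact hσ x
  have h1 := Equiv.Perm.card_fixedPoints_modEq (p := 2) (n := 2) hf
  have h2 : Fintype.card ↑(Function.fixedPoints f) = 1 := by
    rw [Fintype.card_eq_one_iff]
    refine ⟨⟨1, map_one σ⟩, ?_⟩
    rintro ⟨x, hx⟩
    exact Subtype.ext (hfpf x hx)
  rw [h2] at h1
  rw [Nat.card_eq_fintype_card, Nat.odd_iff]
  exact h1

omit [Finite K] in
theorem eq_one_of_sq {x : K} (hK : Odd (Nat.card K)) (h : x * x = 1) : x = 1 := by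
  have h1 : x ^ 2 = 1 := by rw [pow_two, h]
  have h2 : x ^ Nat.card K = 1 := pow_card_eq_one'
  have h3 := pow_gcd_eq_one.mpr ⟨h1, h2⟩
  rwa [(Nat.coprime_two_left.2 hK : Nat.gcd 2 (Nat.card K) = 1), pow_one] at h3

omit [Finite K] in
theorem mem_of_sq {x : K} {D : Subgroup K} (hK : Odd (Nat.card K)) (h : x * x ∈ D) : x ∈ D := by
  obtain ⟨k, hk⟩ := hK
  have h2 : x ^ Nat.card K = 1 := pow_card_eq_one'
  have h3 : (x * x) ^ (k + 1) = x := by
    rw [← pow_two, ← pow_mul, show 2 * (k + 1) = Nat.card K + 1 by omega, pow_succ, h2, one_mul]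
  rw [← h3]
  exact D.pow_mem h _

/-- **Lemma B**: the square of the automorphism acts trivially. -/
theorem order_four_solvable [Group.IsSolvable K] {p : ℕ} (hp : p.Prime) (hR : (p : R) = 0)
    (σ : MulAut K)
    (hσ : ∀ x, σ (σ (σ (σ x))) = x) (hfpf : ∀ g, σ g = g → g = 1) (s : R)
    (hs : 1 + s + s ^ 2 + s ^ 3 = 0) (h : K →* R) (hinj : Function.Injective h)
    (hsh : ∀ x, s * h x = h (σ x) * s) :
    ∀ n : ℕ, ∀ U : Subgroup K, Nat.card U ≤ n → (∀ x ∈ U, σ x ∈ U) → ¬ p ∣ Nat.card U →
      ∀ z ∈ U, σ (σ z) = z := by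
  have hodd : Odd (Nat.card K) := odd_card σ hσ hfpf
  intro n
  induction n with
  | zero =>
    intro U hU
    exact absurd hU (by have := Nat.card_pos (α := U); omega)
  | succ n ih =>
    intro U hUn hUσ hUp
    by_cases hUb : U = ⊥
    · intro z hz
      rw [hUb, mem_bot] at hz
      rw [hz, map_one, map_one]
    have hlt : ∀ V : Subgroup K, V < U → (∀ x ∈ V, σ x ∈ V) → ∀ z ∈ V, σ (σ z) = z := by
      intro V hV hVσ
      apply ih V _ hVσ
      · exact fun hd => hUp (hd.trans (card_dvd_of_le hV.le))
      · have h1 := card_dvd_of_le hV.le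
        have h2 : Nat.card V ≠ Nat.card U := by
          intro h3
          exact hV.ne (eq_of_le_of_card_ge hV.le h3.ge)
        have h3 := Nat.le_of_dvd Nat.card_pos h1
        omega
    set D : Subgroup K := ⁅U, U⁆ with hD
    have hDU : D < U := Group.IsSolvable.commutator_lt_of_ne_bot hUb
    have hDσ : ∀ x ∈ D, σ x ∈ D := by
      intro x hx
      have h1 : σ.toMonoidHom x ∈ D.map σ.toMonoidHom := mem_map_of_mem _ hx
      rw [hD, map_commutator] at h1
      have h2 : U.map σ.toMonoidHom ≤ U := by
        rintro _ ⟨y, hy, rfl⟩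
        exact hUσ y hy
      exact commutator_mono h2 h2 h1
    have hDτ := hlt D hDU hDσ
    set W : Subgroup K := closure {w | ∃ x ∈ U, w = x⁻¹ * σ (σ x)} with hW
    have hWU : W ≤ U := by
      rw [hW, closure_le]
      rintro _ ⟨x, hx, rfl⟩
      exact U.mul_mem (U.inv_mem hx) (hUσ _ (hUσ x hx))
    by_cases hWU' : W = U
    swap
    · -- proper
      have hWσ : ∀ x ∈ W, σ x ∈ W := by
        intro x hx
        have h1 : W ≤ W.comap σ.toMonoidHom := by
          conv_lhs => rw [hW]
          rw [closure_le]
          rintro _ ⟨x, hx, rfl⟩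
          apply Subgroup.subset_closure
          refine ⟨σ x, hUσ x hx, ?_⟩
          simp
        exact h1 hx
      have hWτ := hlt W (lt_of_le_of_ne hWU hWU') hWσ
      intro x hx
      have hf : x⁻¹ * σ (σ x) ∈ W := Subgroup.subset_closure ⟨x, hx, rfl⟩
      have h1 := hWτ _ hf
      have h2 : σ (σ (x⁻¹ * σ (σ x))) = (σ (σ x))⁻¹ * x := by
        rw [map_mul, map_mul, map_inv, map_inv, hσ]
      rw [h2] at h1
      have h3 : (x⁻¹ * σ (σ x)) * (x⁻¹ * σ (σ x)) = 1 := by
        nth_rewrite 1 [← h1]
        group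
      have h4 := eq_one_of_sq hodd h3
      exact (inv_mul_eq_one.1 h4).symm
    · exfalso
      -- `D` is central in `U`
      have hDc : U ≤ centralizer (D : Set K) := by
        rw [← hWU', hW, closure_le]
        rintro _ ⟨x, hx, rfl⟩
        rw [SetLike.mem_coe, mem_centralizer_iff]
        intro d hd
        have h1 : x * d * x⁻¹ ∈ D := by
          have h2 : x * d * x⁻¹ = ⁅x, d⁆ * d := by rw [commutatorElement_def]; group
          rw [h2]
          exact D.mul_mem (commutator_mem_commutator hx (hDU.le hd)) hd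
        have h2 := hDτ _ h1
        rw [map_mul, map_mul, map_inv, map_mul, map_mul, map_inv, hDτ d hd] at h2
        calc d * (x⁻¹ * σ (σ x)) = x⁻¹ * (x * d * x⁻¹) * σ (σ x) := by group
          _ = x⁻¹ * (σ (σ x) * d * (σ (σ x))⁻¹) * σ (σ x) := by rw [h2]
          _ = _ := by group
      have hcen : ∀ x ∈ U, ∀ d ∈ D, d * x = x * d := by
        intro x hx d hd
        exact mem_centralizer_iff.1 (hDc hx) d hd
      -- `τ` inverts modulo `D`
      have hinvD : ∀ x ∈ U, x * σ (σ x) ∈ D := by
        intro x hx
        have hx' : x ∈ closure {w | ∃ x ∈ U, w = x⁻¹ * σ (σ x)} := by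
          rw [← hW, hWU']; exact hx
        have : x ∈ U ∧ x * σ (σ x) ∈ D := by
          refine closure_induction (p := fun x _ => x ∈ U ∧ x * σ (σ x) ∈ D) ?_ ?_ ?_ ?_ hx'
          · rintro _ ⟨y, hy, rfl⟩
            refine ⟨U.mul_mem (U.inv_mem hy) (hUσ _ (hUσ y hy)), ?_⟩
            have h2 : σ (σ (y⁻¹ * σ (σ y))) = (σ (σ y))⁻¹ * y := by
              rw [map_mul, map_mul, map_inv, map_inv, hσ]
            rw [h2]
            have : y⁻¹ * σ (σ y) * ((σ (σ y))⁻¹ * y) = 1 := by group
            rw [this]
            exact D.one_mem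
          · refine ⟨U.one_mem, ?_⟩
            simp
          · rintro x y - - ⟨hx, hx'⟩ ⟨hy, hy'⟩
            refine ⟨U.mul_mem hx hy, ?_⟩
            have : x * y * σ (σ (x * y)) = (x * σ (σ x)) * ⁅(σ (σ x))⁻¹, y⁆ * (y * σ (σ y)) := by
              rw [commutatorElement_def, map_mul, map_mul]; group
            rw [this]
            exact D.mul_mem (D.mul_mem hx' (commutator_mem_commutator
              (U.inv_mem (hUσ _ (hUσ x hx))) hy)) hy'
          · rintro x - ⟨hx, hx'⟩
            refine ⟨U.inv_mem hx, ?_⟩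
            have h1 : x⁻¹ * σ (σ x⁻¹) = x⁻¹ * (x * σ (σ x))⁻¹ * x := by
              rw [map_inv, map_inv]; group
            rw [h1, mul_assoc, hcen x hx _ (D.inv_mem hx'), inv_mul_cancel_left]
            exact D.inv_mem hx'
        exact this.2
      have hcomm : ∀ x ∈ U, σ x * x = x * σ x := by
        intro x hx
        have hσx := hUσ x hx
        set f := x * σ (σ x) with hf
        have hfD : f ∈ D := hinvD x hx
        have hτx : σ (σ x) = x⁻¹ * f := by rw [hf]; group
        set c := ⁅x, σ x⁆ with hc
        have hcD : c ∈ D := commutator_mem_commutator hx hσx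
        have h1 : σ c = c := by
          have e1 : σ c = ⁅σ x, x⁻¹ * f⁆ := by
            rw [hc, map_commutatorElement, hτx]
          have e2 : f * (σ x)⁻¹ = (σ x)⁻¹ * f := hcen _ (U.inv_mem hσx) f hfD
          have e3 : c * x = x * c := hcen x hx c hcD
          calc σ c = σ x * x⁻¹ * (f * (σ x)⁻¹) * f⁻¹ * x := by
                rw [e1, commutatorElement_def]; group
            _ = σ x * x⁻¹ * (σ x)⁻¹ * x := by rw [e2]; group
            _ = x⁻¹ * (c * x) := by rw [hc, commutatorElement_def]; group
            _ = c := by rw [e3]; group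
        have h2 := hfpf c h1
        rw [hc, commutatorElement_eq_one_iff_mul_comm] at h2
        exact h2.symm
      -- final contradiction
      apply hDU.not_ge
      intro x hx
      set Q : Subgroup K := closure ({x, σ x} ∪ (D : Set K)) with hQ
      have hQU : Q ≤ U := by
        rw [hQ, closure_le]
        rintro y (hy | hy)
        · rcases hy with rfl | hy
          · exact hx
          · rw [Set.mem_singleton_iff.1 hy]; exact hUσ x hx
        · exact hDU.le hy
      have hgen : ∀ a ∈ ({x, σ x} ∪ (D : Set K)), ∀ b ∈ ({x, σ x} ∪ (D : Set K)), a * b = b * a := by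
        rintro a (ha | ha) b (hb | hb)
        · rcases ha with rfl | ha
          · rcases hb with rfl | hb
            · rfl
            · rw [Set.mem_singleton_iff.1 hb]; exact (hcomm _ hx).symm
          · rw [Set.mem_singleton_iff.1 ha]
            rcases hb with rfl | hb
            · exact hcomm _ hx
            · rw [Set.mem_singleton_iff.1 hb]
        · have haU : a ∈ U := by
            rcases ha with rfl | ha
            · exact hx
            · rw [Set.mem_singleton_iff.1 ha]; exact hUσ x hx
          exact (hcen a haU b hb).symm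
        · have hbU : b ∈ U := by
            rcases hb with rfl | hb
            · exact hx
            · rw [Set.mem_singleton_iff.1 hb]; exact hUσ x hx
          exact hcen b hbU a ha
        · exact hcen b (hDU.le hb) a ha
      have hQc : ∀ a ∈ Q, ∀ b ∈ Q, a * b = b * a := by
        have := isMulCommutative_closure hgen
        intro a ha b hb
        exact congrArg (Subtype.val : Q → K) (this.is_comm.comm ⟨a, ha⟩ ⟨b, hb⟩)
      have hQσ : ∀ a ∈ Q, σ a ∈ Q := by
        intro a ha
        have h1 : Q ≤ Q.comap σ.toMonoidHom := by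
          conv_lhs => rw [hQ]
          rw [closure_le]
          rintro y (hy | hy)
          · rcases hy with rfl | hy
            · apply Subgroup.subset_closure
              left; right; rfl
            · rw [Set.mem_singleton_iff.1 hy]
              change σ (σ x) ∈ Q
              have h2 : σ (σ x) = x⁻¹ * (x * σ (σ x)) := by group
              rw [h2]
              apply Q.mul_mem
              · apply Q.inv_mem
                apply Subgroup.subset_closure
                left; left; rfl
              · apply Subgroup.subset_closure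
                right; exact hinvD x hx
          · apply Subgroup.subset_closure
            right
            exact hDσ y hy
        exact h1 ha
      have hQp : ¬ p ∣ Nat.card Q := fun hd => hUp (hd.trans (card_dvd_of_le hQU))
      have h1 := (order_four_abelian hp hR σ hσ hfpf s hs h hsh Q hQσ hQc hQp).1 x
        (Subgroup.subset_closure (Or.inl (Or.inl rfl)))
      have h2 := hinj h1
      have h3 := hinvD x hx
      rw [h2] at h3
      exact mem_of_sq hodd h3

omit [Finite K] in
/-- on a subgroup where `σ²` is trivial, the fixed-point-free `σ` is the inversion -/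
theorem comm_of_sq [Finite K] (σ : MulAut K) (hfpf : ∀ g, σ g = g → g = 1) (C : Subgroup K)
    (hCσ : ∀ x ∈ C, σ x ∈ C) (hC : ∀ x ∈ C, σ (σ x) = x) : ∀ x ∈ C, ∀ y ∈ C, x * y = y * x := by
  let φ : C →* C := (σ.toMonoidHom.comp C.subtype).codRestrict C (fun x => hCσ x x.2)
  have h1 : MonoidHom.FixedPointFree φ := by
    intro x hx
    have h2 : σ (x : K) = x := congrArg (Subtype.val : C → K) hx
    exact Subtype.ext (hfpf _ h2)
  have h2 : Function.Involutive φ := by
    intro x
    exact Subtype.ext (hC x x.2)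
  intro x hx y hy
  have h3 := h1.commute_all_of_involutive h2 ⟨x, hx⟩ ⟨y, hy⟩
  exact congrArg (Subtype.val : C → K) h3

/-- **Theorem X** -/
theorem abelian_of_rep [Group.IsSolvable K] {p : ℕ} (hp : p.Prime) (hR : (p : R) = 0)
    (σ : MulAut K) (hσ : ∀ x, σ (σ (σ (σ x))) = x) (hfpf : ∀ g, σ g = g → g = 1) (s : R)
    (hs : 1 + s + s ^ 2 + s ^ 3 = 0) (h : K →* R) (hinj : Function.Injective h)
    (hsh : ∀ x, s * h x = h (σ x) * s) (hUp : ¬ p ∣ Nat.card (commutator K))
    (hO : ∀ N : Subgroup K, N.Normal → IsPGroup p N → N = ⊥) :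
    ∀ x y : K, x * y = y * x := by
  have hodd : Odd (Nat.card K) := odd_card σ hσ hfpf
  set U : Subgroup K := commutator K with hU
  have hUσ : ∀ x ∈ U, σ x ∈ U := by
    intro x hx
    exact (Subgroup.characteristic_iff_le_comap.1 (inferInstance : U.Characteristic) σ) hx
  have hUτ := order_four_solvable hp hR σ hσ hfpf s hs h hinj hsh (Nat.card U) U le_rfl hUσ hUp
  have hUc := comm_of_sq σ hfpf U hUσ hUτ
  have hA := (order_four_abelian hp hR σ hσ hfpf s hs h hsh U hUσ hUc hUp).2
  have hs2 : ∀ x, s ^ 2 * h x = h (σ (σ x)) * s ^ 2 := by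
    intro x
    rw [pow_two, mul_assoc, hsh, ← mul_assoc, hsh, mul_assoc]
  have hneg : ∀ x ∈ U, s ^ 2 * (h x - 1) = - (h x - 1) := by
    intro x hx
    have h1 := hA x hx
    have h2 : s ^ 2 * (h x - 1) = (h x - 1) * s ^ 2 := by
      rw [mul_sub, sub_mul, hs2, hUτ x hx, mul_one, one_mul]
    rw [h2, eq_neg_iff_add_eq_zero, ← h1]
    noncomm_ring
  have hhU : ∀ g, ∀ x ∈ U, h g * (h x - 1) = (h (g * x * g⁻¹) - 1) * h g := by
    intro g x _
    rw [mul_sub, sub_mul, ← map_mul, ← map_mul, mul_one, one_mul]
    congr 2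
    group
  have hUn : U.Normal := inferInstance
  -- `(v)`
  have hv : ∀ g, ∀ x ∈ U, h (g⁻¹ * σ (σ g)) * (h x - 1) = h x - 1 := by
    intro g x hx
    have h1 : s ^ 2 * (h g * (h x - 1)) = - (h (σ (σ g)) * (h x - 1)) := by
      rw [← mul_assoc, hs2, mul_assoc, hneg x hx, mul_neg]
    have h2 : s ^ 2 * (h g * (h x - 1)) = - (h g * (h x - 1)) := by
      rw [hhU g x hx, ← mul_assoc, hneg _ (hUn.conj_mem x hx g), neg_mul]
    have h3 : h (σ (σ g)) * (h x - 1) = h g * (h x - 1) := neg_injective (h1.symm.trans h2)
    rw [map_mul, mul_assoc, h3, ← mul_assoc, ← map_mul, inv_mul_cancel, map_one, one_mul]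
  -- `(vi)`
  have hvi : ∀ y, (∀ x ∈ U, h y * (h x - 1) = h x - 1) → ∀ x ∈ U, x * y = y * x := by
    intro y hy x hx
    have hinvy : ∀ z ∈ U, h y⁻¹ * (h z - 1) = h z - 1 := by
      intro z hz
      calc h y⁻¹ * (h z - 1) = h y⁻¹ * (h y * (h z - 1)) := by rw [hy z hz]
        _ = _ := by rw [← mul_assoc, ← map_mul, inv_mul_cancel, map_one, one_mul]
    have hconj : ∀ z ∈ U, h (x * y⁻¹ * x⁻¹) * (h z - 1) = h z - 1 := by
      intro z hz
      have h1 := hhU x⁻¹ z hz
      have h2 : x⁻¹ * z * x⁻¹⁻¹ ∈ U := hUn.conj_mem z hz x⁻¹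
      rw [map_mul, mul_assoc, h1, ← mul_assoc, map_mul, mul_assoc (h x), hinvy _ h2, hhU x _ h2,
        mul_assoc, ← map_mul]
      have h3 : x * (x⁻¹ * z * x⁻¹⁻¹) * x⁻¹ = z := by group
      rw [h3, mul_inv_cancel, map_one, mul_one]
    set c := ⁅y, x⁆ with hc
    have hcU : c ∈ U := by
      rw [hU]
      exact commutator_mem_commutator (mem_top _) (mem_top _)
    have h1 : h c * (h c - 1) = h c - 1 := by
      have h5 : c = y * (x * y⁻¹ * x⁻¹) := by rw [hc, commutatorElement_def]; group
      have h6 : h c = h y * h (x * y⁻¹ * x⁻¹) := by rw [← map_mul, ← h5]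
      calc h c * (h c - 1) = h y * (h (x * y⁻¹ * x⁻¹) * (h c - 1)) := by
            rw [← mul_assoc, ← h6]
        _ = h c - 1 := by rw [hconj c hcU, hy c hcU]
    have h2 : (h c - 1) ^ 2 = 0 := by
      rw [pow_two, sub_mul, one_mul, h1, sub_self]
    have h3 : h c = 1 := by
      refine eq_one_of_unipotent hp hR h2 (m := Nat.card U) ?_ hUp
      rw [← map_pow]
      have h4 : (⟨c, hcU⟩ : U) ^ Nat.card U = 1 := pow_card_eq_one'
      have h6 : c ^ Nat.card U = 1 := congrArg (Subtype.val : U → K) h4
      rw [h6, map_one]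
    have h4 : c = 1 := hinj (by rw [h3, map_one])
    rw [hc, commutatorElement_eq_one_iff_mul_comm] at h4
    exact h4.symm
  -- `(vii)`
  let C : Subgroup K :=
    { carrier := {x | σ (σ x) = x}
      one_mem' := by simp
      mul_mem' := by
        intro a b ha hb
        change σ (σ (a * b)) = a * b
        rw [map_mul, map_mul, ha, hb]
      inv_mem' := by
        intro a ha
        change σ (σ a⁻¹) = a⁻¹
        rw [map_inv, map_inv, ha] }
  have hCc := comm_of_sq σ hfpf C (fun x hx => by
    change σ (σ (σ x)) = σ x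
    rw [show σ (σ x) = x from hx]) (fun x hx => hx)
  -- `U` is central
  have hcentral : ∀ g : K, ∀ x ∈ U, x * g = g * x := by
    intro g
    set y := g⁻¹ * σ (σ g) with hy
    have hτy : σ (σ y) = y⁻¹ := by
      rw [hy, map_mul, map_mul, map_inv, map_inv, hσ]; group
    have hyU : ∀ x ∈ U, x * y = y * x := hvi y (hv g)
    obtain ⟨k, hk⟩ := hodd
    set w := y ^ (k + 1) with hw
    have hww : w * w = y := by
      rw [hw, ← pow_add, show k + 1 + (k + 1) = Nat.card K + 1 by omega, pow_succ,
        pow_card_eq_one', one_mul]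
    have hτw : σ (σ w) = w⁻¹ := by
      rw [hw, map_pow, map_pow, hτy, inv_pow]
    have hc : g * w ∈ C := by
      change σ (σ (g * w)) = g * w
      rw [map_mul, map_mul, hτw]
      have : σ (σ g) = g * y := by rw [hy]; group
      rw [this, ← hww]
      group
    intro x hx
    have hxC : x ∈ C := hUτ x hx
    have h1 := hCc x hxC _ hc
    have h2 : Commute x w := by
      rw [hw]
      exact Commute.pow_right (hyU x hx) _
    have h3 : g = (g * w) * w⁻¹ := by group
    have h4 : Commute x g := by
      rw [h3]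
      exact Commute.mul_right h1 h2.inv_right
    exact h4
  have hnil : Group.IsNilpotent K := by
    apply Group.of_quotient_center_nilpotent
    have hle : commutator K ≤ center K := by
      intro x hx
      rw [mem_center_iff]
      intro g
      exact (hcentral g x hx).symm
    have hc : ∀ a b : K ⧸ center K, a * b = b * a := by
      intro a b
      induction a using QuotientGroup.induction_on with | H a => ?_
      induction b using QuotientGroup.induction_on with | H b => ?_
      rw [← QuotientGroup.mk_mul, ← QuotientGroup.mk_mul, QuotientGroup.eq]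
      have : (a * b)⁻¹ * (b * a) = ⁅b⁻¹, a⁻¹⁆ := by
        rw [commutatorElement_def]; group
      rw [this]
      exact hle (commutator_mem_commutator (mem_top _) (mem_top _))
    let inst : CommGroup (K ⧸ center K) :=
      { (inferInstance : Group (K ⧸ center K)) with mul_comm := hc }
    exact CommGroup.isNilpotent (G := K ⧸ center K)
  have hKp : ¬ p ∣ Nat.card K := by
    have := Fact.mk hp
    obtain ⟨P⟩ : Nonempty (Sylow p K) := inferInstance
    have hPn : (P : Subgroup K).Normal := by
      have h1 := (Group.isNilpotent_of_finite_tfae (G := K)).out 0 3 |>.mp hnil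
      exact h1 p this P
    have hPb := hO P hPn P.isPGroup'
    have h1 := P.not_dvd_index
    rw [hPb, index_bot] at h1
    exact h1
  have hτ := order_four_solvable hp hR σ hσ hfpf s hs h hinj hsh (Nat.card K) ⊤
    (by rw [card_top]) (fun x _ => mem_top _) (by rwa [card_top])
  intro x y
  exact comm_of_sq σ hfpf ⊤ (fun x _ => mem_top _) hτ x (mem_top _) y (mem_top _)

end Cfsg.Agent.Lib.FpfFour
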