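import Cfsg.Agent.Lib.FratRep
import Cfsg.Agent.Lib.PConstraint
import Cfsg.Agent.Lib.GL4A8
import Cfsg.Agent.Lib.H70Frattini

/-! The action of `G` on `O_p(G)/Φ(O_p(G))` for `C_G(O_p(G)) ≤ O_p(G)`; embedding in `A_8` for sectional 2-rank
at most 4 (S3103) (helper30). -/

set_option autoImplicit false
open scoped commutatorElement

namespace Cfsg.Agent.Lib.FratConstr

open Module Cfsg.Agent.Lib.CoprimeAction2 Cfsg.Agent.Lib.HBBasic Cfsg Cfsg.Agent.Lib.FratRep

universe u

variable {p : ℕ} {G : Type u} [Group G] {N : Subgroup G} {V : Type u} [AddCommGroup V] [Module (ZMod p) V]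

/-- If `C_G(O_p(G)) ≤ O_p(G)` the kernel of the action on `O_p/Φ(O_p)` is `O_p`. -/
theorem ρ_eq_one_iff_mem [hp : Fact p.Prime] [Finite G]
    (hC : Subgroup.centralizer ((pCore p G : Subgroup G) : Set G) ≤ pCore p G)
    (D : Data p (pCore p G) V) (g : G) : D.ρ g = 1 ↔ g ∈ pCore p G := by
  have hNp : IsPGroup p (pCore p G) := Cfsg.Agent.Lib.H32Cores.pCore_isPGroup p
  constructor
  · intro hg
    -- the kernel is a normal p-subgroup
    have hle : D.ρ.toHomUnits.ker ≤ pCore p G := by
      apply Cfsg.Agent.Lib.H32Cores.le_pCore p (MonoidHom.normal_ker _)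
      rw [IsPGroup.iff_orderOf]
      rintro ⟨k, hk⟩
      rw [Subgroup.orderOf_mk]
      obtain ⟨a, m, hm, hak⟩ := Nat.exists_eq_pow_mul_and_not_dvd (n := orderOf k) (orderOf_pos k).ne' p hp.out.ne_one
      -- the p'-part is trivial
      refine ⟨a, ?_⟩
      have hz : k ^ (p ^ a) = 1 := by
        have hord : orderOf (k ^ (p ^ a)) = m := by
          rw [orderOf_pow' _ (pow_ne_zero _ hp.out.ne_zero), hak, Nat.gcd_eq_right (Dvd.intro _ rfl),
            Nat.mul_div_cancel_left _ (pow_pos hp.out.pos a)]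
        have h1 : Subgroup.zpowers (k ^ (p ^ a)) ≤ Subgroup.centralizer ((pCore p G : Subgroup G) : Set G) := by
          apply le_centralizer_of_frattini
          · rw [Subgroup.normalizer_eq_top]; exact le_top
          · rw [Nat.card_zpowers, hord]
            obtain ⟨c, hc⟩ := IsPGroup.iff_card.mp (hNp.to_subgroup (frattini (pCore p G)))
            rw [hc]
            exact Nat.Coprime.pow_right c ((Nat.Prime.coprime_iff_not_dvd hp.out).mpr hm).symm
          · intro b hb a' ha'
            have hbk : b ∈ D.ρ.toHomUnits.ker := by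
              have : Subgroup.zpowers (k ^ (p ^ a)) ≤ D.ρ.toHomUnits.ker := by
                rw [Subgroup.zpowers_le]; exact pow_mem hk _
              exact this hb
            have h2 : D.ρ b = 1 := congrArg Units.val hbk
            exact (D.ρ_eq_one_iff b).mp h2 a' ha'
        have h2 := h1.trans hC
        have h3 := h2 (Subgroup.mem_zpowers _)
        obtain ⟨c, hc⟩ := hNp ⟨_, h3⟩
        have h4 : (k ^ (p ^ a)) ^ (p ^ c) = 1 := congrArg Subtype.val hc
        have h5 := orderOf_dvd_of_pow_eq_one h4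
        rw [hord] at h5
        have h6 : m = 1 := by
          have : Nat.Coprime m (p ^ c) := Nat.Coprime.pow_right c ((Nat.Prime.coprime_iff_not_dvd hp.out).mpr hm).symm
          exact Nat.Coprime.eq_one_of_dvd this h5
        rw [h6, orderOf_eq_one_iff] at hord
        exact hord
      have hm1 : m = 1 := by
        have h1 := orderOf_dvd_of_pow_eq_one hz
        rw [hak] at h1
        have h2 : m ∣ p ^ a := (Dvd.intro_left _ rfl).trans h1
        exact Nat.Coprime.eq_one_of_dvd (Nat.Coprime.pow_right a ((Nat.Prime.coprime_iff_not_dvd hp.out).mpr hm).symm) h2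
      rw [hak, hm1, mul_one]
    exact hle (Units.ext hg)
  · intro hg
    rw [D.ρ_eq_one_iff]
    intro a ha
    refine ⟨⁅(⟨g, hg⟩ : pCore p G), (⟨a, ha⟩ : pCore p G)⁆, ?_, rfl⟩
    exact commutator_le_frattini hNp (Subgroup.commutator_mem_commutator (Subgroup.mem_top _) (Subgroup.mem_top _))

/-- the induced faithful representation of `G/O_p(G)`. -/
theorem exists_quot [hp : Fact p.Prime] [Finite G]
    (hC : Subgroup.centralizer ((pCore p G : Subgroup G) : Set G) ≤ pCore p G)
    (D : Data p (pCore p G) V) : ∃ σ : (G ⧸ pCore p G) →* Module.End (ZMod p) V,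
      Function.Injective σ ∧ ∀ g, σ (QuotientGroup.mk' _ g) = D.ρ g := by
  let σ' : (G ⧸ pCore p G) →* (Module.End (ZMod p) V)ˣ := QuotientGroup.lift (pCore p G) D.ρ.toHomUnits (by
    intro g hg
    apply Units.ext
    exact (ρ_eq_one_iff_mem hC D g).mpr hg)
  refine ⟨(Units.coeHom _).comp σ', ?_, fun g => rfl⟩
  intro a b hab
  obtain ⟨a, rfl⟩ := QuotientGroup.mk'_surjective _ a
  obtain ⟨b, rfl⟩ := QuotientGroup.mk'_surjective _ b
  have h1 : D.ρ a = D.ρ b := hab
  have h2 : D.ρ (a⁻¹ * b) = 1 := by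
    rw [_root_.map_mul, ← h1, ← _root_.map_mul, inv_mul_cancel, _root_.map_one]
  rw [ρ_eq_one_iff_mem hC] at h2
  exact QuotientGroup.eq.mpr h2

theorem card_V [hp : Fact p.Prime] [Finite G] (D : Data p N V) : Nat.card V = (frattini N).index := by
  let f : N →* Multiplicative V :=
    { toFun := fun a => Multiplicative.ofAdd (D.π a)
      map_one' := by rw [D.map_one]; rfl
      map_mul' := fun a b => by rw [D.map_mul]; rfl }
  have hf : Function.Surjective f := fun v => by
    obtain ⟨a, ha⟩ := D.surj v.toAdd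
    exact ⟨a, congrArg Multiplicative.ofAdd ha⟩
  have hk : f.ker = frattini N := by
    ext a
    rw [MonoidHom.mem_ker, ← D.map_eq_zero a]
    exact Iff.rfl
  rw [← hk, Subgroup.index_ker, MonoidHom.range_eq_top.mpr hf, Subgroup.card_top]
  rfl

/-- padding: `End V` embeds in `4 x 4` matrices if `dim V ≤ 4` -/
theorem exists_pad {H : Type*} [Group H] {K W : Type*} [Field K] [AddCommGroup W] [Module K W] [Module.Finite K W]
    {n : ℕ} (hn : Module.finrank K W ≤ n) (σ : H →* Module.End K W) (hσ : Function.Injective σ) :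
    ∃ f : H →* GL (Fin n) K, Function.Injective f := by
  obtain ⟨k, hk⟩ := Nat.exists_eq_add_of_le hn
  have hfr : Module.finrank K (W × (Fin k → K)) = n := by
    rw [Module.finrank_prod, Module.finrank_fin_fun, hk]
  let b : Module.Basis (Fin n) K (W × (Fin k → K)) := Module.finBasisOfFinrankEq K _ hfr
  let P : Module.End K W →* Module.End K (W × (Fin k → K)) :=
    { toFun := fun f => f.prodMap LinearMap.id
      map_one' := by ext <;> rfl
      map_mul' := fun f g => by ext <;> simp }
  let τ : H →* Matrix (Fin n) (Fin n) K :=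
    ((LinearMap.toMatrixAlgEquiv b : Module.End K (W × (Fin k → K)) ≃ₐ[K] Matrix (Fin n) (Fin n) K) :
      Module.End K (W × (Fin k → K)) →* Matrix (Fin n) (Fin n) K).comp (P.comp σ)
  refine ⟨τ.toHomUnits, ?_⟩
  intro x y h
  have h1 : τ x = τ y := congrArg Units.val h
  have h2 : P (σ x) = P (σ y) := (LinearMap.toMatrixAlgEquiv b).injective h1
  apply hσ
  ext w
  have h3 := congrArg (fun f : Module.End K (W × (Fin k → K)) => (f (w, 0)).1) h2
  exact h3

theorem s3103 {X : Type u} [Group X] [Finite X] (hc : Cfsg.IsPConstrained 2 X) (hO : Cfsg.oddCore X = ⊥)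
    (h4 : Cfsg.SectionalPRankLE 2 4 ↥(Cfsg.pCore 2 X)) :
    ∃ f : X ⧸ Cfsg.pCore 2 X →* ↥(alternatingGroup (Fin 8)), Function.Injective f := by
  have : Fact (Nat.Prime 2) := ⟨Nat.prime_two⟩
  have hC : Subgroup.centralizer ((pCore 2 X : Subgroup X) : Set X) ≤ pCore 2 X :=
    (PConstraint.isPConstrained_iff_of_pPrimeCore_eq_bot hO).mp hc
  have hNp : IsPGroup 2 (pCore 2 X) := Cfsg.Agent.Lib.H32Cores.pCore_isPGroup 2
  obtain ⟨V, _, _, _, ⟨D⟩⟩ := exists_data (pCore 2 X) inferInstance hNp
  obtain ⟨σ, hσ, -⟩ := exists_quot hC D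
  have hidx : (frattini (pCore 2 X)).index ≤ 2 ^ 4 := by
    have h5 := h4 ⊤ ((frattini (pCore 2 X)).comap (⊤ : Subgroup (pCore 2 X)).subtype) ⊤ ?_ ?_
    · rw [Subgroup.card_top, ← Subgroup.index_eq_card, Subgroup.index_comap_of_surjective] at h5
      · exact h5
      · intro x; exact ⟨⟨x, Subgroup.mem_top x⟩, rfl⟩
    · refine ⟨⟨?_⟩⟩
      rintro ⟨a, -⟩ ⟨b, -⟩
      obtain ⟨a, rfl⟩ := QuotientGroup.mk'_surjective _ a
      obtain ⟨b, rfl⟩ := QuotientGroup.mk'_surjective _ b
      apply Subtype.ext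
      change (QuotientGroup.mk' _ a * QuotientGroup.mk' _ b) = QuotientGroup.mk' _ b * QuotientGroup.mk' _ a
      rw [← map_mul, ← map_mul]
      apply (QuotientGroup.eq).mpr
      change ((a * b)⁻¹ * (b * a)).1 ∈ frattini (pCore 2 X)
      apply commutator_le_frattini hNp
      have h6 : ((a * b)⁻¹ * (b * a)).1 = ⁅b.1⁻¹, a.1⁻¹⁆ := by
        simp only [commutatorElement_def, Subgroup.coe_mul, Subgroup.coe_inv]; group
      rw [h6]
      exact Subgroup.commutator_mem_commutator (Subgroup.mem_top _) (Subgroup.mem_top _)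
    · rintro a -
      obtain ⟨a, rfl⟩ := QuotientGroup.mk'_surjective _ a
      rw [← map_pow]
      apply (QuotientGroup.eq_one_iff _).mpr
      change (a ^ 2).1 ∈ frattini (pCore 2 X)
      exact H70Frattini.pow_mem_frattini hNp a.1
  have hfr : Module.finrank (ZMod 2) V ≤ 4 := by
    have h5 := card_V D
    rw [Module.natCard_eq_pow_finrank (K := ZMod 2), Nat.card_zmod] at h5
    rw [← h5] at hidx
    exact (Nat.pow_le_pow_iff_right (by norm_num)).mp hidx
  obtain ⟨f, hf⟩ := exists_pad hfr σ hσ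
  exact ⟨GL4A8.toAlt.comp f, GL4A8.toAlt_injective.comp hf⟩

end Cfsg.Agent.Lib.FratConstr
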