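import Mathlib
import Cfsg.Agent.Lib.FrobBlk5
import Cfsg.Agent.Lib.BlockHomo4
import Cfsg.Agent.S0944

/-!
# The principal block of a group with abelian Sylow `p`-subgroup and automizer of order 3 (S4721)
-/

set_option autoImplicit false
set_option linter.all false
set_option maxHeartbeats 400000

namespace Cfsg.Agent.Lib.FrobBlk

open Cfsg Cfsg.Agent.Lib.BlockRing Cfsg.Agent.Lib.BlockGA
open Cfsg.Agent.Lib.BlockIdem Cfsg.Agent.Lib.BlockThird Cfsg.Agent.Lib.BlockSecond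
open Cfsg.Agent.Lib.CharBasic Cfsg.Agent.Lib.BlockHomo
open scoped ComplexConjugate
open MonoidAlgebra (single)

universe u

theorem vander (u2 u3 u4 r2 r3 r4 : ℚ) (h2 : r2 < 1) (h3 : r3 < 1) (h4 : r4 < 1)
    (e0 : 1 + u2 + u3 + u4 = 0) (e1 : 1 + u2 * r2 + u3 * r3 + u4 * r4 = 0)
    (e2 : 1 + u2 * r2 ^ 2 + u3 * r3 ^ 2 + u4 * r4 ^ 2 = 0) :
    0 < u2 * u3 * u4 ∧ IsSquare (u2 * u3 * u4) := by
  have A2 : (1 - r3) * (1 - r4) + u2 * ((r2 - r3) * (r2 - r4)) = 0 := by
    linear_combination (r3 * r4) * e0 - (r3 + r4) * e1 + e2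
  have A3 : (1 - r2) * (1 - r4) + u3 * ((r3 - r2) * (r3 - r4)) = 0 := by
    linear_combination (r2 * r4) * e0 - (r2 + r4) * e1 + e2
  have A4 : (1 - r2) * (1 - r3) + u4 * ((r4 - r2) * (r4 - r3)) = 0 := by
    linear_combination (r2 * r3) * e0 - (r2 + r3) * e1 + e2
  set V := (r2 - r3) * (r2 - r4) * (r3 - r4) with hV
  set W := (1 - r2) * (1 - r3) * (1 - r4) with hW
  have hWpos : 0 < W := by
    have a := sub_pos.2 h2
    have b := sub_pos.2 h3
    have c := sub_pos.2 h4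
    positivity
  have key : u2 * u3 * u4 * V ^ 2 = W ^ 2 := by
    have B2 : u2 * ((r2 - r3) * (r2 - r4)) = -((1 - r3) * (1 - r4)) := by linear_combination A2
    have B3 : u3 * ((r3 - r2) * (r3 - r4)) = -((1 - r2) * (1 - r4)) := by linear_combination A3
    have B4 : u4 * ((r4 - r2) * (r4 - r3)) = -((1 - r2) * (1 - r3)) := by linear_combination A4
    have : u2 * u3 * u4 * V ^ 2 = -(u2 * ((r2 - r3) * (r2 - r4))) * (u3 * ((r3 - r2) * (r3 - r4))) *
        (u4 * ((r4 - r2) * (r4 - r3))) := by rw [hV]; ring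
    rw [this, B2, B3, B4, hW]; ring
  have hV0 : V ≠ 0 := by
    intro h
    rw [h] at key
    nlinarith
  have hsq : u2 * u3 * u4 = (W / V) * (W / V) := by
    field_simp
    linear_combination key
  refine ⟨?_, ⟨W / V, hsq⟩⟩
  rw [hsq]
  exact mul_self_pos.2 (div_ne_zero hWpos.ne' hV0)

theorem two_of_sum {X : Type*} [DecidableEq X] (S : Finset X) (v : X → ℤ) (h0 : ∀ x ∈ S, v x ≠ 0)
    (h : ∑ x ∈ S, v x ^ 2 = 2) : ∃ a b, a ≠ b ∧ S = {a, b} ∧ (v a = 1 ∨ v a = -1) ∧ (v b = 1 ∨ v b = -1) := by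
  have h1 : ∀ x ∈ S, v x = 1 ∨ v x = -1 := by
    intro x hx
    have h2 : v x ^ 2 ≤ 2 := by
      rw [← h]
      exact Finset.single_le_sum (f := fun x => v x ^ 2) (fun y _ => sq_nonneg _) hx
    have h3 : v x < 2 := by nlinarith
    have h4 : -2 < v x := by nlinarith
    have := h0 x hx
    omega
  have h2 : S.card = 2 := by
    have : ∑ x ∈ S, v x ^ 2 = (S.card : ℤ) := by
      rw [Finset.card_eq_sum_ones]
      push_cast
      refine Finset.sum_congr rfl fun x hx => ?_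
      rcases h1 x hx with h | h <;> rw [h] <;> norm_num
    rw [this] at h
    exact_mod_cast h
  obtain ⟨a, b, hab, hS⟩ := Finset.card_eq_two.1 h2
  exact ⟨a, b, hab, hS, h1 a (by rw [hS]; simp), h1 b (by rw [hS]; simp)⟩

variable {G : Type u} [Group G] [Finite G]
variable {p : ℕ} {M : Ideal AlgInt} {P : Subgroup G} {A : Subgroup (MulAut P)} {k : ℕ}

namespace FC

/-- The sum formula over the principal block. -/
theorem sum_sq (h : FC p M P A k) {x : P} (hx1 : x ≠ 1) (z : G)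
    (hz : ∀ a c : G, Commute (x : G) c → ¬ p ∣ orderOf c → ¬ IsConj (z * (a * z * a⁻¹)) ((x : G) * c)⁻¹) :
    ∑ χ ∈ PB M G, (χ : G → ℂ) z * (χ : G → ℂ) z * (χ : G → ℂ) x / (χ : G → ℂ) 1 = 0 := by
  classical
  have hcomp := h.comp x hx1
  obtain ⟨j, hj⟩ := h.exists_order x
  set H := Subgroup.centralizer ({(x : G)} : Set G) with hH
  obtain ⟨N, hN, hN2, hNi⟩ := hcomp
  have hmem : ∀ g, g ∈ H ↔ Commute (x : G) g :=
    fun g => by rw [hH, Subgroup.mem_centralizer_singleton_iff]; exact ⟨fun h => h.symm, fun h => h.symm⟩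
  have fH : Fintype H := Fintype.ofFinite H
  have h1r : ¬ p ∣ orderOf (1 : G) := h.not_dvd_one
  have hE : eB (principalBlock M H) = BlockCore.normE N := BlockCore.eB_of_normal_complement h.hM hN2 hNi
  have hin : ∀ χ : IrrCharacter G, χ ∈ principalBlock M G →
      lin (χ : G → ℂ) (single ((x : G) * 1) 1 * incH H (BlockCore.normE N)) = (χ : G → ℂ) x := by
    intro χ hχ
    rw [← hE, BlockSection.principal_section h.hM hj h1r (Commute.one_right _) hmem hχ, mul_one]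
  have hout : ∀ χ : IrrCharacter G, χ ∉ principalBlock M G →
      lin (χ : G → ℂ) (single ((x : G) * 1) 1 * incH H (BlockCore.normE N)) = 0 := by
    intro χ hχ
    rw [← hE, BlockSection.not_principal_of_principal h.hM hj h1r (Commute.one_right _) hmem hχ]
  have h2 : ∑ χ ∈ PB M G, (χ : G → ℂ) z * (χ : G → ℂ) z * (χ : G → ℂ) x / (χ : G → ℂ) 1 =
      ∑ χ : IrrCharacter G, (χ : G → ℂ) z * (χ : G → ℂ) z *
        lin (χ : G → ℂ) (single ((x : G) * 1) 1 * incH H (BlockCore.normE N)) / (χ : G → ℂ) 1 := by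
    rw [PB, Finset.sum_filter]
    refine Finset.sum_congr rfl fun χ _ => ?_
    split_ifs with hχ
    · rw [hin χ hχ]
    · rw [hout χ hχ, mul_zero, zero_div]
  rw [h2]
  have h3 : ∀ χ : IrrCharacter G, lin (χ : G → ℂ) (single ((x : G) * 1) 1 * incH H (BlockCore.normE N)) =
      ∑ c : H, (BlockCore.normE N).coeff c * (χ : G → ℂ) ((x : G) * c) := by
    intro χ
    rw [mul_one, lin_single_mul_eq, lin_incH, lin_apply]
  have h4 : ∀ χ : IrrCharacter G, (χ : G → ℂ) z * (χ : G → ℂ) z *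
        lin (χ : G → ℂ) (single ((x : G) * 1) 1 * incH H (BlockCore.normE N)) / (χ : G → ℂ) 1 =
      ∑ c : H, (BlockCore.normE N).coeff c *
        ((χ : G → ℂ) z * (χ : G → ℂ) z * (χ : G → ℂ) ((x : G) * c) / (χ : G → ℂ) 1) := by
    intro χ
    rw [h3, Finset.mul_sum, Finset.sum_div]
    refine Finset.sum_congr rfl fun c _ => ?_
    ring
  rw [Finset.sum_congr rfl fun χ _ => h4 χ, Finset.sum_comm]
  refine Finset.sum_eq_zero fun c _ => ?_
  rw [← Finset.mul_sum]
  by_cases hc : c ∈ N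
  · rw [BlockHomo.sum_sq_div, mul_zero]
    intro a
    apply hz a c ((hmem c).1 c.2)
    intro h'
    apply hN2
    rw [Subgroup.orderOf_coe] at h'
    have h1 : orderOf (⟨c, hc⟩ : N) = orderOf c := Subgroup.orderOf_mk _ _
    rw [← h1] at h'
    exact h'.trans (orderOf_dvd_natCard _)
  · have : (BlockCore.normE N).coeff c = 0 := by
      rw [BlockCore.normE, coeff_ofFun, if_neg hc]
    rw [this, zero_mul]

/-- reality -/
theorem isConj_inv (h : FC p M P A k) {x : P} {z a c : G} (hz : z * z = 1) (hxc : Commute (x : G) c)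
    (hc : ¬ p ∣ orderOf c) (hconj : IsConj (z * (a * z * a⁻¹)) ((x : G) * c)⁻¹) :
    IsConj (x : G) ((x⁻¹ : P) : G) := by
  obtain ⟨j, hj⟩ := h.exists_order x
  have e1 := BlockHomo.isConj_inv_of_invol (a := a) hz
  have e2 : IsConj ((x : G) * c) ((x : G) * c)⁻¹ := by
    have e3 : IsConj ((z : G) * (a * z * a⁻¹))⁻¹ (((x : G) * c)⁻¹)⁻¹ := by
      obtain ⟨b, hb⟩ := isConj_iff.1 hconj
      exact isConj_iff.2 ⟨b, by rw [← hb]; group⟩
    rw [inv_inv] at e3
    exact (hconj.symm.trans (e1.trans e3)).symm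
  obtain ⟨b, hb⟩ := isConj_iff.1 e2
  have e4 : (b * x * b⁻¹) * (b * c * b⁻¹) = (x : G)⁻¹ * (c : G)⁻¹ := by
    rw [← mul_inv_rev, ← hxc.eq, ← hb]; group
  have e5 : Commute (b * x * b⁻¹) (b * c * b⁻¹) := hxc.map (MulAut.conj b).toMonoidHom
  have e6 : Commute (x : G)⁻¹ (c : G)⁻¹ := hxc.inv_left.inv_right
  have e7 := eq_of_comm_of_orders h.hM.1 e5 e6 e4 (by rw [orderOf_conj]; exact hj)
    (by rw [orderOf_inv]; exact hj) (by rw [orderOf_conj]; exact hc) (by rw [orderOf_inv]; exact hc)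
  exact isConj_iff.2 ⟨b, e7.1⟩

theorem sq_eq_one_of_isConj_inv (h : FC p M P A k) (hA : Nat.card A = 3) {x : P}
    (hx : IsConj (x : G) ((x⁻¹ : P) : G)) : x * x = 1 := by
  obtain ⟨a, ha, hax⟩ := (h.fus x x⁻¹).1 hx
  by_cases hx1 : x = 1
  · rw [hx1, one_mul]
  have h1 : (a * a) x = (1 : MulAut P) x := by
    rw [MulAut.mul_apply, hax, map_inv, hax, inv_inv, MulAut.one_apply]
  have h2 : a * a = 1 := h.inj hx1 (A.mul_mem ha ha) A.one_mem h1
  have h3 : a ^ 3 = 1 := by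
    have := pow_card_eq_one' (x := (⟨a, ha⟩ : A))
    rw [hA] at this
    exact congrArg Subtype.val this
  have h4 : a = 1 := by
    have : a ^ 3 = a * a * a := by rw [pow_succ, pow_two]
    rw [this, h2, one_mul] at h3
    exact h3
  rw [h4, MulAut.one_apply] at hax
  nth_rewrite 1 [hax]
  rw [inv_mul_cancel]

/-- `p` odd -/
theorem not_product_odd (h : FC p M P A k) (hA : Nat.card A = 3) (hp : p ≠ 2) {x : P} (hx1 : x ≠ 1)
    {z : G} (hz : z * z = 1) (a c : G) (hxc : Commute (x : G) c) (hc : ¬ p ∣ orderOf c) :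
    ¬ IsConj (z * (a * z * a⁻¹)) ((x : G) * c)⁻¹ := by
  intro hconj
  have h1 := h.sq_eq_one_of_isConj_inv hA (h.isConj_inv hz hxc hc hconj)
  have h2 : orderOf x ∣ 2 := orderOf_dvd_of_pow_eq_one (by rw [pow_two]; exact h1)
  have h3 := h.dvd_order hx1
  rw [Subgroup.orderOf_coe] at h3
  have h4 := Nat.le_of_dvd (by norm_num) (h3.trans h2)
  have h5 := h.hM.1.two_le
  omega

/-- the structure of `A` -/
theorem exists_gen (hA : Nat.card A = 3) : ∃ b ∈ A, b ≠ 1 ∧ b * b ≠ 1 ∧ b * b ≠ b ∧ b * (b * b) = 1 ∧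
    ∀ a ∈ A, a = 1 ∨ a = b ∨ a = b * b := by
  classical
  have : Fintype A := Fintype.ofFinite A
  have h1 : ∃ b : A, b ≠ 1 := by
    by_contra hcon
    push Not at hcon
    have : Nat.card A = 1 := by
      rw [Nat.card_eq_one_iff_unique]
      exact ⟨⟨fun a b => by rw [hcon a, hcon b]⟩, ⟨1⟩⟩
    omega
  obtain ⟨b, hb⟩ := h1
  have h3 : b ^ 3 = 1 := by
    have := pow_card_eq_one' (x := b)
    rwa [hA] at this
  have h3' : b * (b * b) = 1 := by rw [← h3, pow_succ, pow_two, mul_assoc]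
  have h4 : b * b ≠ 1 := by
    intro h
    rw [h, mul_one] at h3'
    exact hb h3'
  have h5 : b * b ≠ b := fun h => hb (mul_eq_left.1 h)
  have h6 : ({1, b, b * b} : Finset A) = Finset.univ := by
    apply Finset.eq_univ_of_card
    rw [Finset.card_insert_of_notMem, Finset.card_insert_of_notMem, Finset.card_singleton,
      ← Nat.card_eq_fintype_card, hA]
    · simp only [Finset.mem_singleton]; exact h5.symm
    · simp only [Finset.mem_insert, Finset.mem_singleton, not_or]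
      exact ⟨hb.symm, h4.symm⟩
  refine ⟨b, b.2, fun h => hb (Subtype.ext h), fun h => h4 (Subtype.ext h), fun h => h5 (Subtype.ext h),
    congrArg Subtype.val h3', ?_⟩
  intro a ha
  have h7 : (⟨a, ha⟩ : A) ∈ ({1, b, b * b} : Finset A) := by rw [h6]; simp
  simp only [Finset.mem_insert, Finset.mem_singleton] at h7
  rcases h7 with h | h | h
  · exact Or.inl (congrArg Subtype.val h)
  · exact Or.inr (Or.inl (congrArg Subtype.val h))
  · exact Or.inr (Or.inr (congrArg Subtype.val h))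

theorem mul_three (h : FC p M P A k) {b : MulAut P} (hb : b ∈ A) (hb1 : b ≠ 1) (hb3 : b * (b * b) = 1) (x : P) :
    x * b x * b (b x) = 1 := by
  apply h.fpf b hb hb1
  have e : b (b (b x)) = x := by
    have := congrArg (fun c : MulAut P => c x) hb3
    simpa [MulAut.mul_apply] using this
  rw [map_mul, map_mul, e, h.comm (b x * b (b x)) x, mul_assoc]

/-- decomposition in the centralizer -/
theorem exists_conj_mod (h : FC p M P A k) {H : Subgroup G} (hPH : P ≤ H) {N : Subgroup H} [hN : N.Normal]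
    (hN2 : ¬ p ∣ Nat.card N) (hNi : N.index = p ^ k) (g : H) :
    ∃ q : P, (⟨q, hPH q.2⟩ : H)⁻¹ * g ∈ N ∧ ((∃ j, orderOf g = p ^ j) → IsConj (g : G) (q : G)) := by
  have : Fact p.Prime := ⟨h.hM.1⟩
  set Q := P.subgroupOf H with hQ
  have hQc : Nat.card Q = p ^ k := by
    rw [← h.card]; exact Nat.card_congr (Subgroup.subgroupOfEquivOfLe hPH).toEquiv
  have hcop : (Nat.card N).Coprime (Nat.card Q) := by
    rw [hQc]
    exact Nat.Coprime.pow_right _ ((Nat.Prime.coprime_iff_not_dvd h.hM.1).2 hN2).symm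
  have hcompl : Subgroup.IsComplement' N Q := by
    apply Subgroup.isComplement'_of_coprime _ hcop
    rw [hQc, ← hNi, N.card_mul_index]
  have hdec : ∀ g : H, ∃ n ∈ N, ∃ q ∈ Q, n * q = g := by
    intro g
    obtain ⟨⟨n, q⟩, hnq⟩ := hcompl.2 g
    exact ⟨n, n.2, q, q.2, hnq⟩
  have hmod : ∀ q ∈ Q, ∀ q' ∈ Q, q⁻¹ * q' ∈ N → q = q' := by
    intro q hq q' hq' h1
    have h2 : q⁻¹ * q' ∈ N ⊓ Q := ⟨h1, Q.mul_mem (Q.inv_mem hq) hq'⟩
    rw [Subgroup.inf_eq_bot_of_coprime hcop, Subgroup.mem_bot] at h2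
    exact inv_mul_eq_one.1 h2
  obtain ⟨n, hn, q, hq, rfl⟩ := hdec g
  have hqP : (q : G) ∈ P := Subgroup.mem_subgroupOf.1 hq
  refine ⟨⟨q, hqP⟩, ?_, ?_⟩
  · have e : (⟨((⟨q, hqP⟩ : P) : G), hPH hqP⟩ : H) = q := rfl
    rw [e, ← mul_assoc]
    have := hN.conj_mem n hn q⁻¹
    rwa [inv_inv] at this
  · rintro ⟨j, hj⟩
    -- a Sylow argument in `H`
    have hQS : ∃ S : Sylow p H, (S : Subgroup H) = Q := by
      have h1 : Nat.card H = Nat.card N * p ^ k := by rw [← hNi, N.card_mul_index]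
      refine ⟨Sylow.ofCard Q ?_, rfl⟩
      rw [hQc, h1, Nat.factorization_mul Nat.card_pos.ne' (pow_ne_zero _ h.hM.1.ne_zero),
        Nat.factorization_pow, h.hM.1.factorization]
      simp [Nat.factorization_eq_zero_of_not_dvd hN2]
    obtain ⟨S, hS⟩ := hQS
    have hz : IsPGroup p (Subgroup.zpowers (n * q)) := by
      apply IsPGroup.of_card (n := j)
      rw [Nat.card_zpowers, hj]
    obtain ⟨S', hS'⟩ := hz.exists_le_sylow
    obtain ⟨x, hx⟩ := MulAction.exists_smul_eq H S' S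
    have hx' : x * (n * q) * x⁻¹ ∈ Q := by
      rw [← hS, ← hx]
      rw [Sylow.coe_subgroup_smul]
      exact Subgroup.smul_mem_pointwise_smul _ _ _ (hS' (Subgroup.mem_zpowers _))
    obtain ⟨n', hn', q', hq', rfl⟩ := hdec x
    have hcm : q' * q = q * q' := by
      have := h.comm ⟨q', Subgroup.mem_subgroupOf.1 hq'⟩ ⟨q, hqP⟩
      have e : (q' : G) * (q : G) = (q : G) * (q' : G) := congrArg Subtype.val this
      exact Subtype.ext e
    have h1 : n' * q' * (n * q) * (n' * q')⁻¹ = q := by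
      symm
      apply hmod q hq _ hx'
      -- work modulo `N`
      have e1 : ((q⁻¹ * (n' * q' * (n * q) * (n' * q')⁻¹) : H) : H ⧸ N) = 1 := by
        have z1 : ((n' : H) : H ⧸ N) = 1 := (QuotientGroup.eq_one_iff _).2 hn'
        have z2 : ((n : H) : H ⧸ N) = 1 := (QuotientGroup.eq_one_iff _).2 hn
        have z3 : ((q' : H) : H ⧸ N) * (q : H ⧸ N) = (q : H ⧸ N) * (q' : H ⧸ N) := by
          rw [← QuotientGroup.mk_mul, hcm, QuotientGroup.mk_mul]
        simp only [QuotientGroup.mk_mul, QuotientGroup.mk_inv, z1, z2, one_mul]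
        rw [z3]; group
      exact (QuotientGroup.eq_one_iff _).1 e1
    have h2 : ((n' * q' : H) : G) * ((n * q : H) : G) * ((n' * q' : H) : G)⁻¹ = (q : G) := by
      have := congrArg Subtype.val h1
      simpa using this
    exact isConj_iff.2 ⟨_, h2⟩

/-- `p = 2` -/
theorem not_product_two {A : Subgroup (MulAut P)} (h : FC 2 M P A k) (hA : Nat.card A = 3) {x : P} (hx1 : x ≠ 1)
    {z : P} (hz : z * z = 1) (hxz : ¬ IsConj (z : G) (x : G)) (a c : G) (hxc : Commute (x : G) c)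
    (hc : ¬ 2 ∣ orderOf c) :
    ¬ IsConj ((z : G) * (a * z * a⁻¹)) ((x : G) * c)⁻¹ := by
  intro hconj
  have hz' : (z : G) * (z : G) = 1 := by
    have := congrArg Subtype.val hz
    simpa using this
  have hxx := h.sq_eq_one_of_isConj_inv hA (h.isConj_inv hz' hxc hc hconj)
  have hxx' : (x : G) * (x : G) = 1 := by
    have := congrArg Subtype.val hxx
    simpa using this
  have hxinv : (x : G)⁻¹ = x := inv_eq_of_mul_eq_one_left hxx'
  obtain ⟨g, hg⟩ := isConj_iff.1 hconj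
  -- the two involutions
  set t1 := g * z * g⁻¹ with ht1
  set t2 := g * a * z * (g * a)⁻¹ with ht2
  have h12 : t1 * t2 = ((x : G) * c)⁻¹ := by rw [← hg, ht1, ht2]; group
  have ht1z : IsConj (z : G) t1 := isConj_iff.2 ⟨g, rfl⟩
  have ht2z : IsConj (z : G) t2 := isConj_iff.2 ⟨g * a, rfl⟩
  have ht11 : t1 * t1 = 1 := by
    rw [ht1]
    calc g * z * g⁻¹ * (g * z * g⁻¹) = g * ((z : G) * z) * g⁻¹ := by group
      _ = 1 := by rw [hz']; group
  have ht22 : t2 * t2 = 1 := by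
    rw [ht2]
    calc g * a * z * (g * a)⁻¹ * (g * a * z * (g * a)⁻¹) = g * a * ((z : G) * z) * (g * a)⁻¹ := by group
      _ = 1 := by rw [hz']; group
  have ht1inv : t1⁻¹ = t1 := inv_eq_of_mul_eq_one_left ht11
  have ht2inv : t2⁻¹ = t2 := inv_eq_of_mul_eq_one_left ht22
  obtain ⟨j, hj⟩ := h.exists_order x
  -- `t1` centralizes `x`
  have hcx1 : t1 * x * t1⁻¹ = x := by
    have e1 : t1 * (t1 * t2) * t1⁻¹ = (t1 * t2)⁻¹ := by
      calc t1 * (t1 * t2) * t1⁻¹ = (t1 * t1) * t2 * t1⁻¹ := by simp only [mul_assoc]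
        _ = t2⁻¹ * t1⁻¹ := by rw [ht11, one_mul, ht2inv]
        _ = (t1 * t2)⁻¹ := (mul_inv_rev _ _).symm
    rw [h12, inv_inv, mul_inv_rev] at e1
    have e2 : (t1 * (x : G)⁻¹ * t1⁻¹) * (t1 * c⁻¹ * t1⁻¹) = (x : G) * c := by
      rw [← e1, ← (hxc.inv_left.inv_right).eq]; group
    have e3 : Commute (t1 * (x : G)⁻¹ * t1⁻¹) (t1 * c⁻¹ * t1⁻¹) :=
      (hxc.inv_left.inv_right).map (MulAut.conj t1).toMonoidHom
    have e4 := eq_of_comm_of_orders h.hM.1 e3 hxc e2 (by rw [orderOf_conj, orderOf_inv]; exact hj) hj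
      (by rw [orderOf_conj, orderOf_inv]; exact hc) hc
    rw [hxinv] at e4
    exact e4.1
  have hcomp := h.comp x hx1
  set H := Subgroup.centralizer ({(x : G)} : Set G) with hH
  obtain ⟨N, hN, hN2, hNi⟩ := hcomp
  have hmem : ∀ g, g ∈ H ↔ Commute (x : G) g :=
    fun g => by rw [hH, Subgroup.mem_centralizer_singleton_iff]; exact ⟨fun h => h.symm, fun h => h.symm⟩
  have hPH : P ≤ H := by
    intro y hy
    rw [hmem]
    exact congrArg Subtype.val (h.comm x ⟨y, hy⟩)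
  have h1H : t1 ∈ H := by
    rw [hmem]
    rw [mul_inv_eq_iff_eq_mul] at hcx1
    exact hcx1.symm
  have hxcH : (x : G) * c ∈ H := H.mul_mem ((hmem _).2 (Commute.refl _)) ((hmem c).2 hxc)
  have h2H : t2 ∈ H := by
    have : t2 = t1⁻¹ * ((x : G) * c)⁻¹ := by rw [← h12]; group
    rw [this]
    exact H.mul_mem (H.inv_mem h1H) (H.inv_mem hxcH)
  have hord : ∀ t : H, (t : G) * (t : G) = 1 → ∃ j, orderOf t = 2 ^ j := by
    intro t ht
    have : orderOf t ∣ 2 ^ 1 := orderOf_dvd_of_pow_eq_one (by rw [pow_one, pow_two]; exact Subtype.ext ht)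
    obtain ⟨j, -, hj⟩ := (Nat.dvd_prime_pow Nat.prime_two).1 this
    exact ⟨j, hj⟩
  obtain ⟨q1, hq1, hq1c⟩ := h.exists_conj_mod hPH hN2 hNi (⟨t1, h1H⟩ : H)
  obtain ⟨q2, hq2, hq2c⟩ := h.exists_conj_mod hPH hN2 hNi (⟨t2, h2H⟩ : H)
  have c1 : IsConj (z : G) (q1 : G) := ht1z.trans (hq1c (hord _ ht11))
  have c2 : IsConj (z : G) (q2 : G) := ht2z.trans (hq2c (hord _ ht22))
  -- `x = q1 q2`
  have hcN : (⟨c, (hmem c).2 hxc⟩ : H) ∈ N := BlockCore.mem_of_regular Nat.prime_two hNi (by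
    rw [Subgroup.orderOf_mk]; exact hc)
  have hxq : x = q1 * q2 := by
    have e1 : ((⟨q1, hPH q1.2⟩ : H) : H ⧸ N) = ((⟨t1, h1H⟩ : H) : H ⧸ N) := QuotientGroup.eq.2 hq1
    have e2 : ((⟨q2, hPH q2.2⟩ : H) : H ⧸ N) = ((⟨t2, h2H⟩ : H) : H ⧸ N) := QuotientGroup.eq.2 hq2
    have e3 : ((⟨t1, h1H⟩ * ⟨t2, h2H⟩ : H) : H ⧸ N) = ((⟨x, hPH x.2⟩ : H) : H ⧸ N) := by
      have e4 : (⟨t1, h1H⟩ * ⟨t2, h2H⟩ : H) = (⟨c, (hmem c).2 hxc⟩ : H)⁻¹ * (⟨x, hPH x.2⟩ : H) := by
        apply Subtype.ext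
        show t1 * t2 = c⁻¹ * (x : G)
        rw [h12, mul_inv_rev, hxinv]
      rw [e4, QuotientGroup.mk_mul, QuotientGroup.mk_inv, (QuotientGroup.eq_one_iff _).2 hcN, inv_one, one_mul]
    have e5 : ((⟨q1 * q2, hPH (q1 * q2).2⟩ : H) : H ⧸ N) = ((⟨x, hPH x.2⟩ : H) : H ⧸ N) := by
      rw [← e3, QuotientGroup.mk_mul, ← e1, ← e2, ← QuotientGroup.mk_mul]
      rfl
    rw [QuotientGroup.eq] at e5
    have e6 : ((q1 * q2)⁻¹ * x : P) = 1 := by
      have e7 : orderOf ((q1 * q2)⁻¹ * x : P) = 1 := by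
        obtain ⟨i, hi⟩ := h.exists_order ((q1 * q2)⁻¹ * x)
        rw [Subgroup.orderOf_coe] at hi
        have e8 : orderOf ((q1 * q2)⁻¹ * x : P) ∣ Nat.card N := by
          have : orderOf (⟨_, e5⟩ : N) = orderOf ((q1 * q2)⁻¹ * x : P) := by
            rw [Subgroup.orderOf_mk, ← Subgroup.orderOf_coe, ← Subgroup.orderOf_coe]
            rfl
          rw [← this]
          exact orderOf_dvd_natCard _
        rw [hi] at e8 ⊢
        rcases Nat.eq_zero_or_pos i with h0 | h0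
        · rw [h0, pow_zero]
        · exact absurd ((dvd_pow_self 2 h0.ne').trans e8) hN2
      exact orderOf_eq_one_iff.1 e7
    exact (inv_mul_eq_one.1 e6).symm
  -- final contradiction
  obtain ⟨b1, hb1, e1⟩ := (h.fus z q1).1 c1
  obtain ⟨b2, hb2, e2⟩ := (h.fus z q2).1 c2
  by_cases hb : b1 = b2
  · apply hx1
    rw [hxq, ← e1, ← e2, hb, ← map_mul, hz, map_one]
  · obtain ⟨b, hbA, hbne, hbb1, hbb, hb3, hall⟩ := exists_gen hA
    have h3 := h.mul_three hbA hbne hb3 z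
    have hnot : ∀ b' ∈ A, b' z ≠ x := fun b' hb' e => hxz ((h.fus z x).2 ⟨b', hb', e⟩)
    have hzz : ∀ b' : MulAut P, b' z * b' z = 1 := fun b' => by rw [← map_mul, hz, map_one]
    have n1 := hnot 1 A.one_mem
    have n2 := hnot b hbA
    have n3 := hnot (b * b) (A.mul_mem hbA hbA)
    rw [MulAut.one_apply] at n1
    rw [MulAut.mul_apply] at n3
    have s1 := hzz b
    have s2 := hzz (b * b)
    rw [MulAut.mul_apply] at s2
    -- products of two
    have p1 : z * b z = b (b z) := by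
      have := mul_eq_one_iff_eq_inv.1 h3
      rw [this]; exact (inv_eq_of_mul_eq_one_left s2)
    have p2 : b z * b (b z) = z := by
      have e : z * (b z * b (b z)) = 1 := by rw [← mul_assoc]; exact h3
      have := mul_eq_one_iff_inv_eq.1 e
      rw [← this]; exact inv_eq_of_mul_eq_one_left hz
    have p3 : z * b (b z) = b z := by
      have e : z * b (b z) = z * (b z * (b z * b (b z))) := by
        rw [← mul_assoc (b z), s1, one_mul]
      rw [e, p2, h.comm (b z) z, ← mul_assoc, hz, one_mul]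
    rcases hall b1 hb1 with rfl | rfl | rfl <;> rcases hall b2 hb2 with rfl | rfl | rfl
    · exact hb rfl
    · rw [MulAut.one_apply] at e1; apply n3; rw [hxq, ← e1, ← e2, p1]
    · rw [MulAut.one_apply] at e1; rw [MulAut.mul_apply] at e2; apply n2; rw [hxq, ← e1, ← e2, p3]
    · rw [MulAut.one_apply] at e2; apply n3; rw [hxq, ← e1, ← e2, h.comm, p1]
    · exact hb rfl
    · rw [MulAut.mul_apply] at e2; apply n1; rw [hxq, ← e1, ← e2, p2]
    · rw [MulAut.one_apply] at e2; rw [MulAut.mul_apply] at e1; apply n2; rw [hxq, ← e1, ← e2, h.comm, p3]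
    · rw [MulAut.mul_apply] at e1; apply n1; rw [hxq, ← e1, ← e2, h.comm, p2]
    · exact hb rfl

end FC

end Cfsg.Agent.Lib.FrobBlk
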