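import Mathlib
import Cfsg.Agent.Lib.FrobBlk6
import Cfsg.Agent.Lib.CharValues

/-!
# The principal block of a group with abelian Sylow `p`-subgroup and automizer of order 3 (S4721), II
-/

set_option autoImplicit false
set_option linter.all false
set_option maxHeartbeats 400000

namespace Cfsg.Agent.Lib.FrobBlk

open Cfsg Cfsg.Agent.Lib.BlockRing Cfsg.Agent.Lib.BlockGA
open Cfsg.Agent.Lib.BlockIdem Cfsg.Agent.Lib.BlockThird Cfsg.Agent.Lib.BlockSecond
open Cfsg.Agent.Lib.CharBasic Cfsg.Agent.Lib.BlockHomo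
open scoped ComplexConjugate
open MonoidAlgebra (single)

universe u

variable {G : Type u} [Group G] [Finite G]
variable {p : ℕ} {M : Ideal AlgInt} {P : Subgroup G} {A : Subgroup (MulAut P)} {k : ℕ}

theorem exists_ker {χ : G → ℂ} (hχ : IsCharacter G χ) :
    ∃ N : Subgroup G, N.Normal ∧ ∀ g, g ∈ N ↔ χ g = χ 1 := by
  obtain ⟨n, ρ, rfl⟩ := hχ
  refine ⟨MonoidHom.ker ρ, inferInstance, fun g => ?_⟩
  rw [ρ.char_one, CharValues.character_eq_finrank_iff, MonoidHom.mem_ker]
  rfl

/-- A normal-closure argument -/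
theorem eq_triv_of_normal {χ : IrrCharacter G} {t : G}
    (hK : ∀ K : Subgroup G, K.Normal → t ∈ K → K = ⊤) (ht : (χ : G → ℂ) t = (χ : G → ℂ) 1) :
    χ = triv G := by
  classical
  have := Fintype.ofFinite G
  obtain ⟨N, hN, hmem⟩ := exists_ker χ.2.isCharacter
  have htop := hK N hN ((hmem t).2 ht)
  have hall : ∀ g, (χ : G → ℂ) g = (χ : G → ℂ) 1 := fun g => (hmem g).1 (by rw [htop]; trivial)
  by_contra hne
  have h1 := irr_orthonormal χ (triv G)
  rw [if_neg hne, classInner_def] at h1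
  have h2 : ∑ g : G, (χ : G → ℂ) g * conj (((triv G : IrrCharacter G) : G → ℂ) g) =
      (Nat.card G : ℂ) * (χ : G → ℂ) 1 := by
    rw [Finset.sum_congr rfl (g := fun _ => (χ : G → ℂ) 1) fun g _ => by rw [hall g, coe_triv]; simp,
      Finset.sum_const, Finset.card_univ, nsmul_eq_mul, Nat.card_eq_fintype_card]
  have hG : (Nat.card G : ℂ) ≠ 0 := by exact_mod_cast Nat.card_pos.ne'
  rw [h2, inv_mul_cancel_left₀ hG] at h1
  exact χ.2.one_ne_zero h1

theorem lt_of_normal {χ : IrrCharacter G} (hχ : χ ≠ triv G) {t : G}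
    (hK : ∀ K : Subgroup G, K.Normal → t ∈ K → K = ⊤) {n : ℤ} (hn : (χ : G → ℂ) t = n) :
    n < FC.D χ := by
  have h1 := BlockCore.re_le_one χ.2.isCharacter t
  rw [hn, ← FC.D_cast χ] at h1
  have h2 : n ≤ FC.D χ := by
    have := h1.1
    simp only [Complex.intCast_re] at this
    exact_mod_cast this
  refine lt_of_le_of_ne h2 fun he => ?_
  exact hχ (eq_triv_of_normal hK (by rw [hn, he, FC.D_cast]))

namespace FC

theorem sum_deg (h : FC p M P A k) {y : P} (hy : y ≠ 1) :
    ∑ χ ∈ PB M G, (χ : G → ℂ) 1 * (χ : G → ℂ) y = 0 := by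
  have e1 := h.sum_not_conj (x := 1) (y := y⁻¹) (by
    intro hc
    rw [Subgroup.coe_one] at hc
    have := isConj_one_right.1 hc
    have e : y⁻¹ = 1 := Subtype.ext this
    exact hy (inv_eq_one.1 e))
  rw [← e1]
  refine Finset.sum_congr rfl fun χ _ => ?_
  rw [Subgroup.coe_one, Subgroup.coe_inv, χ.2.inv, Complex.conj_conj]

namespace Coh

variable {m : ℤ} {e : (IrrCharacter G → ℤ) → IrrCharacter G} {d s : ℤ} [Fintype P]

/-- the sum of the exceptional characters on `P#` -/
theorem sum_exc (c : Coh M P m e d s) (h : FC p M P A k) [Fintype A] (hr : 2 ≤ (FF M P).card)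
    {y : P} (hy : y ≠ 1) : ∑ w ∈ FF M P, ((e w : IrrCharacter G) : G → ℂ) y = (FF M P).card * d + s := by
  classical
  obtain ⟨v, hv⟩ : (FF M P).Nonempty := Finset.card_pos.1 (by omega)
  have e1 := h.sum_deg hy
  rw [c.sum_PB hr] at e1
  have e2 := c.reg_rel h hr hv hv (g := 1) h.not_dvd_one
  have e3 : ∑ χ ∈ XX M P e, (χ : G → ℂ) 1 * (χ : G → ℂ) y = ∑ χ ∈ XX M P e, (v χ : ℂ) * (χ : G → ℂ) 1 := by
    refine Finset.sum_congr rfl fun χ hχ => ?_
    rw [c.value_XX h hv hχ hy]; ring
  have e4 : ∑ w ∈ FF M P, ((e w : IrrCharacter G) : G → ℂ) 1 * ((e w : IrrCharacter G) : G → ℂ) y =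
      ((e v : IrrCharacter G) : G → ℂ) 1 * ∑ w ∈ FF M P, ((e w : IrrCharacter G) : G → ℂ) y := by
    rw [Finset.mul_sum]
    refine Finset.sum_congr rfl fun w hw => ?_
    rw [c.reg_eq h hr hw hv h.not_dvd_one]
  rw [e3, e4] at e1
  have h0 := (e v).2.one_ne_zero
  have e5 : ((e v : IrrCharacter G) : G → ℂ) 1 * (∑ w ∈ FF M P, ((e w : IrrCharacter G) : G → ℂ) y -
      ((FF M P).card * d + s)) = 0 := by linear_combination e1 - e2
  exact sub_eq_zero.1 ((mul_eq_zero.1 e5).resolve_left h0)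

/-- exchanging the two exceptional characters -/
theorem swap (c : Coh M P m e d s) (hr : (FF M P).card = 2) : ∃ e', Coh M P m e' (d + s) (-s) := by
  classical
  obtain ⟨v₁, v₂, hne, hF⟩ := Finset.card_eq_two.1 hr
  have hm1 : v₁ ∈ FF M P := by rw [hF]; simp
  have hm2 : v₂ ∈ FF M P := by rw [hF]; simp
  have hmem : ∀ v ∈ FF M P, v = v₁ ∨ v = v₂ := by
    intro v hv
    rw [hF] at hv
    simpa using hv
  refine ⟨fun v => if v = v₁ then e v₂ else e v₁, ?_, ?_, ?_, ?_, ?_⟩
  · rcases c.hs with h | h <;> rw [h] <;> norm_num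
  · intro v hv w hw hvw
    rcases hmem v hv with rfl | rfl <;> rcases hmem w hw with rfl | rfl
    · rfl
    · simp only [if_true, if_neg hne.symm] at hvw
      exact c.inj hm1 hm2 hvw.symm
    · simp only [if_true, if_neg hne.symm] at hvw
      exact c.inj hm2 hm1 hvw.symm
    · rfl
  · intro v hv w hw x hxv hxw
    rcases hmem v hv with rfl | rfl <;> rcases hmem w hw with rfl | rfl
    · rfl
    · simp only [if_true, if_neg hne.symm] at hxv hxw
      exact c.diff _ hm1 _ hm2 x hxw hxv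
    · simp only [if_true, if_neg hne.symm] at hxv hxw
      exact c.diff _ hm2 _ hm1 x hxw hxv
    · rfl
  · intro v hv w hw hvw
    rcases hmem v hv with rfl | rfl <;> rcases hmem w hw with rfl | rfl
    · exact absurd rfl hvw
    · rw [if_neg hne.symm]; exact c.diag _ hm1
    · rw [if_pos rfl]; exact c.diag _ hm2
    · exact absurd rfl hvw
  · intro v hv
    rcases hmem v hv with rfl | rfl
    · rw [if_pos rfl, c.off _ hm1 _ hm2 hne]; ring
    · rw [if_neg hne.symm, c.off _ hm2 _ hm1 hne.symm]; ring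

end Coh

theorem not_ten {p k : ℕ} (hp : p.Prime) (h : p ^ k = 10) : False := by
  have hk : k ≠ 0 := by rintro rfl; norm_num at h
  have h1 : p ∣ 10 := by rw [← h]; exact dvd_pow_self p hk
  have h2 : p ≤ 10 := Nat.le_of_dvd (by norm_num) h1
  have h3 : 2 ^ k ≤ 10 := by rw [← h]; exact Nat.pow_le_pow_left hp.two_le k
  have h4 : k < 4 := by
    by_contra hcon
    have : 2 ^ 4 ≤ 2 ^ k := Nat.pow_le_pow_right (by norm_num) (by omega)
    omega
  interval_cases p <;> interval_cases k <;> first | omega | (norm_num at h; done) | (norm_num at hp; done)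

/-- for automizers of order 3 one can take `d = 0` -/
theorem exists_coh_three (h : FC p M P A k) [Fintype P] [Fintype A] (hA : Fintype.card A = 3)
    (hr : 2 ≤ (FF M P).card) (hk : k ≠ 0) : ∃ e s, Coh M P 3 e 0 s := by
  classical
  obtain ⟨e, d, s, c'⟩ := h.exists_coh hr
  have c : Coh M P 3 e d s := ⟨c'.hs, c'.inj, c'.diff, c'.off, c'.diag⟩
  obtain ⟨v, hv⟩ : (FF M P).Nonempty := Finset.card_pos.1 (by omega)
  have hn := c.norm_eq h hr hv
  have hvt : v (triv G) = 1 := by
    obtain ⟨l, hl, rfl⟩ := mem_FF.1 hv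
    exact h.Phi_triv hl
  rw [← Finset.add_sum_erase _ _ (c.triv_mem_XX h hr), hvt, hA] at hn
  by_cases hd : d = 0
  · subst hd; exact ⟨e, s, c⟩
  have hT : 0 ≤ ∑ x ∈ (Coh.XX M P e).erase (triv G), v x ^ 2 := Finset.sum_nonneg fun x _ => sq_nonneg _
  have hr' : (1 : ℤ) ≤ ((FF M P).card : ℤ) - 1 := by
    have : (2 : ℤ) ≤ ((FF M P).card : ℤ) := by exact_mod_cast hr
    omega
  have hd2 : 1 ≤ d ^ 2 := by
    have : 0 < d ^ 2 := by positivity
    omega
  have hds : d = -s := by
    by_contra hne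
    have h1 : 1 ≤ (d + s) ^ 2 := by
      have : d + s ≠ 0 := fun h => hne (by omega)
      have : 0 < (d + s) ^ 2 := by positivity
      omega
    have h2 : d ^ 2 ≤ 3 := by
      have : d ^ 2 ≤ ((FF M P).card - 1) * d ^ 2 := by nlinarith
      push_cast at hn
      nlinarith
    have h3 : d < 2 := by nlinarith
    have h4 : -2 < d := by nlinarith
    push_cast at hn
    rcases c.hs with h5 | h5
    · have : d = 1 := by omega
      rw [this, h5] at hn
      nlinarith
    · have : d = -1 := by omega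
      rw [this, h5] at hn
      nlinarith
  by_cases hr2 : (FF M P).card = 2
  · obtain ⟨e', c2⟩ := c.swap hr2
    have : d + s = 0 := by omega
    rw [this] at c2
    exact ⟨e', -s, c2⟩
  exfalso
  have hr4 : (FF M P).card ≤ 4 := by
    have : ((FF M P).card : ℤ) - 1 ≤ 3 := by
      push_cast at hn
      nlinarith
    omega
  have hcF := h.card_FF
  rw [hA] at hcF
  have hcases : (FF M P).card = 3 ∨ (FF M P).card = 4 := by omega
  rcases hcases with h3 | h4
  · rw [h3] at hcF
    have : p ^ k = 10 := by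
      have : 0 < p ^ k := pow_pos h.hM.1.pos k
      omega
    exact not_ten h.hM.1 this
  · -- only the trivial nonexceptional character
    rw [h4] at hn
    have hs2 : s ^ 2 = 1 := by rcases c.hs with h5 | h5 <;> rw [h5] <;> norm_num
    have hT0 : ∑ x ∈ (Coh.XX M P e).erase (triv G), v x ^ 2 = 0 := by
      rw [hds] at hn
      push_cast at hn
      nlinarith
    have hX : (Coh.XX M P e).erase (triv G) = ∅ := by
      by_contra hne
      obtain ⟨x, hx⟩ := Finset.nonempty_iff_ne_empty.2 hne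
      have h6 := (Finset.sum_eq_zero_iff_of_nonneg (fun x _ => sq_nonneg _)).1 hT0 x hx
      exact c.ne_zero h hk hv (Finset.mem_erase.1 hx).2 (by simpa using h6)
    have e2 := c.reg_rel h hr hv hv (g := 1) h.not_dvd_one
    rw [← Finset.add_sum_erase _ _ (c.triv_mem_XX h hr), hX, Finset.sum_empty, hvt, coe_triv, h4,
      ← D_cast, hds] at e2
    have e3 : (4 * (-s) + s) * D (e v) + 1 = 0 := by
      have : (((4 * (-s) + s) * D (e v) + 1 : ℤ) : ℂ) = 0 := by
        push_cast
        push_cast at e2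
        linear_combination e2
      exact_mod_cast this
    have : (3 : ℤ) ∣ 1 := ⟨s * D (e v), by linear_combination e3⟩
    norm_num at this

end FC

end Cfsg.Agent.Lib.FrobBlk
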