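import Mathlib
import Cfsg.Agent.Lib.FrobBlk7

/-!
# The principal block of a group with abelian Sylow `p`-subgroup and automizer of order 3 (S4721), III
-/

set_option autoImplicit false
set_option linter.all false
set_option maxHeartbeats 400000

namespace Cfsg.Agent.Lib.FrobBlk

open Cfsg Cfsg.Agent.Lib.BlockRing Cfsg.Agent.Lib.BlockGA
open Cfsg.Agent.Lib.BlockIdem Cfsg.Agent.Lib.BlockThird Cfsg.Agent.Lib.BlockSecond
open Cfsg.Agent.Lib.CharBasic Cfsg.Agent.Lib.BlockHomo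
open scoped ComplexConjugate
open MonoidAlgebra (single)

universe u

variable {G : Type u} [Group G] [Finite G]
variable {p : ℕ} {M : Ideal AlgInt} {P : Subgroup G} {A : Subgroup (MulAut P)} {k : ℕ}

namespace FC

namespace Coh

variable {e : (IrrCharacter G → ℤ) → IrrCharacter G} {s : ℤ} [Fintype P]

theorem sum_three (c : Coh M P 3 e 0 s) (h : FC p M P A k) [Fintype A] (hr : 2 ≤ (FF M P).card)
    [DecidableEq (IrrCharacter G)] {x2 x3 : IrrCharacter G} (hne : x2 ≠ x3)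
    (hX : (XX M P e).erase (triv G) = {x2, x3}) (f : IrrCharacter G → ℂ) :
    ∑ χ ∈ XX M P e, f χ = f (triv G) + (f x2 + f x3) := by
  rw [← Finset.add_sum_erase _ _ (c.triv_mem_XX h hr), hX, Finset.sum_pair hne]

theorem main_sum (c : Coh M P 3 e 0 s) (h : FC p M P A k) [Fintype A] (hr : 2 ≤ (FF M P).card)
    [DecidableEq (IrrCharacter G)]
    {v : IrrCharacter G → ℤ} (hv : v ∈ FF M P) {x2 x3 : IrrCharacter G} (hne : x2 ≠ x3)
    (hX : (XX M P e).erase (triv G) = {x2, x3}) {y : P} (hy : y ≠ 1) (z : G)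
    (hz : ∀ a c : G, Commute (y : G) c → ¬ p ∣ orderOf c → ¬ IsConj (z * (a * z * a⁻¹)) ((y : G) * c)⁻¹) :
    1 + ((x2 : G → ℂ) z * (x2 : G → ℂ) z * (v x2 : ℂ) / (x2 : G → ℂ) 1 +
      (x3 : G → ℂ) z * (x3 : G → ℂ) z * (v x3 : ℂ) / (x3 : G → ℂ) 1) +
      (((e v : IrrCharacter G) : G → ℂ) 1)⁻¹ * ∑ w ∈ FF M P, ((e w : IrrCharacter G) : G → ℂ) z *
        ((e w : IrrCharacter G) : G → ℂ) z * ((e w : IrrCharacter G) : G → ℂ) y = 0 := by
  have e1 := h.sum_sq hy z hz
  rw [c.sum_PB hr, c.sum_three h hr hne hX] at e1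
  have m2 : x2 ∈ XX M P e := by
    have : x2 ∈ (XX M P e).erase (triv G) := by rw [hX]; simp
    exact Finset.mem_of_mem_erase this
  have m3 : x3 ∈ XX M P e := by
    have : x3 ∈ (XX M P e).erase (triv G) := by rw [hX]; simp
    exact Finset.mem_of_mem_erase this
  rw [c.value_XX h hv m2 hy, c.value_XX h hv m3 hy, coe_triv] at e1
  have e2 : ∑ w ∈ FF M P, ((e w : IrrCharacter G) : G → ℂ) z * ((e w : IrrCharacter G) : G → ℂ) z *
      ((e w : IrrCharacter G) : G → ℂ) y / ((e w : IrrCharacter G) : G → ℂ) 1 =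
      (((e v : IrrCharacter G) : G → ℂ) 1)⁻¹ * ∑ w ∈ FF M P, ((e w : IrrCharacter G) : G → ℂ) z *
        ((e w : IrrCharacter G) : G → ℂ) z * ((e w : IrrCharacter G) : G → ℂ) y := by
    rw [Finset.mul_sum]
    refine Finset.sum_congr rfl fun w hw => ?_
    rw [c.reg_eq h hr hw hv h.not_dvd_one, div_eq_inv_mul]
  rw [e2] at e1
  linear_combination e1

theorem last_odd (c : Coh M P 3 e 0 s) (h : FC p M P A k) [Fintype A] (hA : Nat.card A = 3)
    (hp : p ≠ 2) (hr : 2 ≤ (FF M P).card) [DecidableEq (IrrCharacter G)]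
    {v : IrrCharacter G → ℤ} (hv : v ∈ FF M P) {x2 x3 : IrrCharacter G} (hne : x2 ≠ x3)
    (hX : (XX M P e).erase (triv G) = {x2, x3}) (h2 : v x2 = 1 ∨ v x2 = -1) (h3 : v x3 = 1 ∨ v x3 = -1)
    {t : G} (ht : orderOf t = 2) (hK : ∀ K : Subgroup G, K.Normal → t ∈ K → K = ⊤) {y : P} (hy : y ≠ 1) :
    v x2 * v x3 * s = 1 ∧ IsSquare (charDegree ((e v : IrrCharacter G) : G → ℂ) *
      (charDegree (x2 : G → ℂ) * charDegree (x3 : G → ℂ))) := by
  have hss : s * s = 1 := by rcases c.hs with h' | h' <;> rw [h'] <;> norm_num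
  have ht2 : t * t = 1 := by rw [← pow_two, ← ht, pow_orderOf_eq_one]
  have htr : ¬ p ∣ orderOf t := by
    rw [ht]
    intro h'
    exact hp ((Nat.prime_dvd_prime_iff_eq h.hM.1 Nat.prime_two).1 h')
  obtain ⟨n2, hn2, -⟩ := Cfsg.Agent.S0944.result x2 t ht
  obtain ⟨n3, hn3, -⟩ := Cfsg.Agent.S0944.result x3 t ht
  obtain ⟨n4, hn4, -⟩ := Cfsg.Agent.S0944.result (e v) t ht
  have m2 : x2 ≠ triv G := by
    have : x2 ∈ (XX M P e).erase (triv G) := by rw [hX]; simp
    exact (Finset.mem_erase.1 this).1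
  have m3 : x3 ≠ triv G := by
    have : x3 ∈ (XX M P e).erase (triv G) := by rw [hX]; simp
    exact (Finset.mem_erase.1 this).1
  have l2 := lt_of_normal m2 hK hn2
  have l3 := lt_of_normal m3 hK hn3
  have l4 := lt_of_normal (c.ne_triv h hr hv) hK hn4
  have p2 := D_pos x2
  have p3 := D_pos x3
  have p4 := D_pos (e v)
  have hvt : v (triv G) = 1 := by
    obtain ⟨l, hl, rfl⟩ := mem_FF.1 hv
    exact h.Phi_triv hl
  have E0 := c.reg_rel h hr hv hv (g := 1) h.not_dvd_one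
  have E1 := c.reg_rel h hr hv hv (g := t) htr
  rw [c.sum_three h hr hne hX, hvt, coe_triv] at E0 E1
  rw [← D_cast, ← D_cast, ← D_cast] at E0
  rw [hn2, hn3, hn4] at E1
  have E2 := c.main_sum h hr hv hne hX hy t (fun a c' h1 h2 => h.not_product_odd hA hp hy ht2 a c' h1 h2)
  have e5 : ∑ w ∈ FF M P, ((e w : IrrCharacter G) : G → ℂ) t * ((e w : IrrCharacter G) : G → ℂ) t *
      ((e w : IrrCharacter G) : G → ℂ) y = (n4 : ℂ) * n4 * s := by
    have e6 := c.sum_exc h hr hy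
    have e7 : ∑ w ∈ FF M P, ((e w : IrrCharacter G) : G → ℂ) t * ((e w : IrrCharacter G) : G → ℂ) t *
      ((e w : IrrCharacter G) : G → ℂ) y = (n4 : ℂ) * n4 * ∑ w ∈ FF M P, ((e w : IrrCharacter G) : G → ℂ) y := by
      rw [Finset.mul_sum]
      refine Finset.sum_congr rfl fun w hw => ?_
      rw [c.reg_eq h hr hw hv htr, hn4]
    rw [e7, e6]; push_cast; ring
  rw [e5, hn2, hn3, ← D_cast, ← D_cast, ← D_cast] at E2
  have q0 : 1 + (v x2 : ℚ) * D x2 + (v x3 : ℚ) * D x3 + (s : ℚ) * D (e v) = 0 := by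
    have : ((1 + (v x2 : ℚ) * D x2 + (v x3 : ℚ) * D x3 + (s : ℚ) * D (e v) : ℚ) : ℂ) = 0 := by
      push_cast
      push_cast at E0
      linear_combination E0
    exact_mod_cast this
  have q1 : 1 + (v x2 : ℚ) * n2 + (v x3 : ℚ) * n3 + (s : ℚ) * n4 = 0 := by
    have : ((1 + (v x2 : ℚ) * n2 + (v x3 : ℚ) * n3 + (s : ℚ) * n4 : ℚ) : ℂ) = 0 := by
      push_cast
      push_cast at E1
      linear_combination E1
    exact_mod_cast this
  have q2 : 1 + (n2 : ℚ) * n2 * v x2 / D x2 + (n3 : ℚ) * n3 * v x3 / D x3 + (n4 : ℚ) * n4 * s / D (e v) = 0 := by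
    have : ((1 + (n2 : ℚ) * n2 * v x2 / D x2 + (n3 : ℚ) * n3 * v x3 / D x3 +
        (n4 : ℚ) * n4 * s / D (e v) : ℚ) : ℂ) = 0 := by
      push_cast
      linear_combination E2
    exact_mod_cast this
  have d2 : (0 : ℚ) < D x2 := by exact_mod_cast p2
  have d3 : (0 : ℚ) < D x3 := by exact_mod_cast p3
  have d4 : (0 : ℚ) < D (e v) := by exact_mod_cast p4
  obtain ⟨hpos, hsq⟩ := vander ((v x2 : ℚ) * D x2) ((v x3 : ℚ) * D x3) ((s : ℚ) * D (e v))
    ((n2 : ℚ) / D x2) ((n3 : ℚ) / D x3) ((n4 : ℚ) / D (e v))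
    (by rw [div_lt_one d2]; exact_mod_cast l2) (by rw [div_lt_one d3]; exact_mod_cast l3)
    (by rw [div_lt_one d4]; exact_mod_cast l4) q0
    (by
      rw [← q1]
      field_simp)
    (by
      rw [← q2]
      field_simp)
  have hsign : v x2 * v x3 * s = 1 := by
    have e8 : ((v x2 * v x3 * s : ℤ) : ℚ) * (D x2 * D x3 * D (e v)) > 0 := by
      push_cast
      have : (v x2 : ℚ) * v x3 * s * (D x2 * D x3 * D (e v)) =
        (v x2 : ℚ) * D x2 * (v x3 * D x3) * (s * D (e v)) := by ring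
      rw [this]; exact hpos
    have e9 : (0 : ℚ) < D x2 * D x3 * D (e v) := by positivity
    have e10 : (0 : ℚ) < ((v x2 * v x3 * s : ℤ) : ℚ) := pos_of_mul_pos_left e8 e9.le
    have e11 : 0 < v x2 * v x3 * s := by exact_mod_cast e10
    rcases h2 with a | a <;> rcases h3 with b | b <;> rcases c.hs with c' | c' <;> rw [a, b, c'] at e11 ⊢ <;>
      first | (exfalso; revert e11; norm_num; done) | norm_num
  refine ⟨hsign, ?_⟩
  rw [← Rat.isSquare_natCast_iff]
  have e12 : ((charDegree ((e v : IrrCharacter G) : G → ℂ) *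
      (charDegree (x2 : G → ℂ) * charDegree (x3 : G → ℂ)) : ℕ) : ℚ) =
      (v x2 : ℚ) * D x2 * (v x3 * D x3) * (s * D (e v)) := by
    have e13 : ((v x2 * v x3 * s : ℤ) : ℚ) = 1 := by rw [hsign]; norm_num
    push_cast at e13 ⊢
    simp only [D]
    push_cast
    linear_combination (-(charDegree ((e v : IrrCharacter G) : G → ℂ) : ℚ) *
      (charDegree (x2 : G → ℂ) * charDegree (x3 : G → ℂ))) * e13
  rw [e12]
  exact hsq

open scoped Classical in
/-- the value of an exceptional character as an orbit sum -/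
theorem value_orbit (c : Coh M P 3 e 0 s) (h : FC p M P A k) [Fintype A] (hA : Nat.card A = 3)
    (hr : 2 ≤ (FF M P).card) {b : MulAut P} (hb : b ∈ A) (hb1 : b ≠ 1) (hbb1 : b * b ≠ 1) (hbb : b * b ≠ b)
    (hall : ∀ a ∈ A, a = 1 ∨ a = b ∨ a = b * b)
    {l : IrrCharacter P} (hl : l ≠ triv P) {y : P} (hy : y ≠ 1) :
    ((e (Phi M l) : IrrCharacter G) : G → ℂ) y =
      -(s : ℂ) * ((l : P → ℂ) y + (l : P → ℂ) (b y) + (l : P → ℂ) (b (b y))) := by
  rw [c.value_YY h hr (mem_FF.2 ⟨l, hl, rfl⟩) hy]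
  have h1 : (Finset.univ : Finset (IrrCharacter P)).filter (fun l' => l' ≠ triv P ∧ Phi M l' = Phi M l) =
      {l, tw b l, tw (b * b) l} := by
    ext l'
    simp only [Finset.mem_filter, Finset.mem_univ, true_and, Finset.mem_insert, Finset.mem_singleton]
    constructor
    · rintro ⟨hl', he⟩
      obtain ⟨a, ha, e1⟩ := (h.Phi_eq_iff hl' hl).1 he
      rcases hall a ha with rfl | rfl | rfl
      · left; rw [← e1, tw_one]
      · right; left; exact e1.symm
      · right; right; exact e1.symm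
    · rintro (rfl | rfl | rfl)
      · exact ⟨hl, rfl⟩
      · exact ⟨tw_ne_triv hl, (h.Phi_eq_iff (tw_ne_triv hl) hl).2 ⟨b, hb, rfl⟩⟩
      · exact ⟨tw_ne_triv hl, (h.Phi_eq_iff (tw_ne_triv hl) hl).2 ⟨b * b, A.mul_mem hb hb, rfl⟩⟩
  have n1 : l ≠ tw b l := fun e1 => hb1 (h.tw_injective hl hb A.one_mem (by rw [tw_one]; exact e1.symm))
  have n2 : l ≠ tw (b * b) l := fun e1 => hbb1 (h.tw_injective hl (A.mul_mem hb hb) A.one_mem (by rw [tw_one]; exact e1.symm))
  have n3 : tw b l ≠ tw (b * b) l := fun e1 => hbb (h.tw_injective hl (A.mul_mem hb hb) hb e1.symm)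
  rw [h1, Finset.sum_insert (by simp [n1, n2]), Finset.sum_insert (by simp [n3]), Finset.sum_singleton,
    tw_apply, tw_apply, MulAut.mul_apply]
  push_cast
  ring

theorem sq_rel (h : FC p M P A k) {b : MulAut P} (hb : b ∈ A) (hb1 : b ≠ 1) (hb3 : b * (b * b) = 1)
    (l : IrrCharacter P) {z : P} (hz : z * z = 1) :
    ((l : P → ℂ) z + (l : P → ℂ) (b z) + (l : P → ℂ) (b (b z))) *
      ((l : P → ℂ) z + (l : P → ℂ) (b z) + (l : P → ℂ) (b (b z))) =
      2 * ((l : P → ℂ) z + (l : P → ℂ) (b z) + (l : P → ℂ) (b (b z))) + 3 := by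
  have e1 : (l : P → ℂ) z = 1 ∨ (l : P → ℂ) z = -1 := by
    have : (l : P → ℂ) z * (l : P → ℂ) z = 1 := by rw [← h.lmul, hz, h.deg_one]
    exact mul_self_eq_one_iff.1 this
  have e2 : (l : P → ℂ) (b z) = 1 ∨ (l : P → ℂ) (b z) = -1 := by
    have : (l : P → ℂ) (b z) * (l : P → ℂ) (b z) = 1 := by
      rw [← h.lmul, ← map_mul, hz, map_one, h.deg_one]
    exact mul_self_eq_one_iff.1 this
  have e3 : (l : P → ℂ) z * (l : P → ℂ) (b z) * (l : P → ℂ) (b (b z)) = 1 := by
    rw [← h.lmul, ← h.lmul, h.mul_three hb hb1 hb3, h.deg_one]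
  rcases e1 with e1 | e1 <;> rcases e2 with e2 | e2 <;> rw [e1, e2] at e3 ⊢
  · have : (l : P → ℂ) (b (b z)) = 1 := by linear_combination e3
    rw [this]; norm_num
  · have : (l : P → ℂ) (b (b z)) = -1 := by linear_combination -e3
    rw [this]; norm_num
  · have : (l : P → ℂ) (b (b z)) = -1 := by linear_combination -e3
    rw [this]; norm_num
  · have : (l : P → ℂ) (b (b z)) = 1 := by linear_combination e3
    rw [this]; norm_num

theorem last_two {A : Subgroup (MulAut P)} [Fintype A] (c : Coh M P 3 e 0 s) (h : FC 2 M P A k)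
    (hA : Nat.card A = 3) (hr : 2 ≤ (FF M P).card) (hk : 4 ≤ k) [DecidableEq (IrrCharacter G)]
    {v : IrrCharacter G → ℤ} (hv : v ∈ FF M P) {x2 x3 : IrrCharacter G} (hne : x2 ≠ x3)
    (hX : (XX M P e).erase (triv G) = {x2, x3}) (h2 : v x2 = 1 ∨ v x2 = -1) (h3 : v x3 = 1 ∨ v x3 = -1)
    {z : P} (hz : z * z = 1) (hz1 : z ≠ 1) (hK : ∀ K : Subgroup G, K.Normal → (z : G) ∈ K → K = ⊤) : False := by
  have : DecidableEq P := Classical.decEq _
  obtain ⟨b, hbA, hb1, hbb1, hbb, hb3, hall⟩ := exists_gen hA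
  have hss : (s : ℂ) * s = 1 := by rcases c.hs with h' | h' <;> rw [h'] <;> norm_num
  have s2 : (v x2 : ℂ) * v x2 = 1 := by rcases h2 with h' | h' <;> rw [h'] <;> norm_num
  have s3 : (v x3 : ℂ) * v x3 = 1 := by rcases h3 with h' | h' <;> rw [h'] <;> norm_num
  have mm2 : x2 ∈ (XX M P e).erase (triv G) := by rw [hX]; simp
  have mm3 : x3 ∈ (XX M P e).erase (triv G) := by rw [hX]; simp
  have m2 := Finset.mem_of_mem_erase mm2
  have m3 := Finset.mem_of_mem_erase mm3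
  -- an element not conjugate to `z`
  obtain ⟨y, hy, hyz⟩ : ∃ y : P, y ≠ 1 ∧ ¬ IsConj (z : G) (y : G) := by
    by_contra hcon
    push Not at hcon
    have h1 : (Finset.univ : Finset P) ⊆ {1, z, b z, b (b z)} := by
      intro y _
      simp only [Finset.mem_insert, Finset.mem_singleton]
      by_cases hy : y = 1
      · exact Or.inl hy
      right
      obtain ⟨a, ha, e1⟩ := (h.fus z y).1 (hcon y hy)
      rcases hall a ha with rfl | rfl | rfl
      · left; rw [← e1, MulAut.one_apply]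
      · right; left; exact e1.symm
      · right; right; rw [← e1, MulAut.mul_apply]
    have h2 := Finset.card_le_card h1
    rw [Finset.card_univ, ← Nat.card_eq_fintype_card, h.card] at h2
    have h3 : ({1, z, b z, b (b z)} : Finset P).card ≤ 4 := Finset.card_le_four
    have h4 : 2 ^ 4 ≤ 2 ^ k := Nat.pow_le_pow_right (by norm_num) hk
    omega
  have hvt : v (triv G) = 1 := by
    obtain ⟨l, hl, rfl⟩ := mem_FF.1 hv
    exact h.Phi_triv hl
  have E0 := c.reg_rel h hr hv hv (g := 1) h.not_dvd_one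
  rw [c.sum_three h hr hne hX, hvt, coe_triv] at E0
  have E2 := c.main_sum h hr hv hne hX hy (z : G) (fun a c' h1 h2 =>
    h.not_product_two hA hy hz hyz a c' h1 h2)
  rw [c.value_XX h hv m2 hz1, c.value_XX h hv m3 hz1] at E2
  -- orthogonality
  have E3 : ∑ χ ∈ PB M G, (χ : G → ℂ) z * (χ : G → ℂ) y = 0 := by
    have e1 := h.sum_not_conj (x := z) (y := y⁻¹) (by
      intro hc
      apply hyz
      obtain ⟨g, hg⟩ := isConj_iff.1 hc
      have hz' : (z : G) * (z : G) = 1 := by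
        have := congrArg Subtype.val hz
        simpa using this
      have hzi : (z : G)⁻¹ = z := inv_eq_of_mul_eq_one_left hz'
      refine isConj_iff.2 ⟨g, ?_⟩
      rw [Subgroup.coe_inv] at hg
      rw [← inv_inv (y : G), ← hg]
      rw [mul_inv_rev, mul_inv_rev, inv_inv, hzi, mul_assoc])
    rw [← e1]
    refine Finset.sum_congr rfl fun χ _ => ?_
    rw [Subgroup.coe_inv, χ.2.inv, Complex.conj_conj]
  rw [c.sum_PB hr, c.sum_three h hr hne hX, c.value_XX h hv m2 hz1, c.value_XX h hv m3 hz1,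
    c.value_XX h hv m2 hy, c.value_XX h hv m3 hy, coe_triv] at E3
  have E4 := c.sum_exc h hr hy
  have E5 : ∑ w ∈ FF M P, ((e w : IrrCharacter G) : G → ℂ) z * ((e w : IrrCharacter G) : G → ℂ) z *
      ((e w : IrrCharacter G) : G → ℂ) y = -2 * s * ∑ w ∈ FF M P, ((e w : IrrCharacter G) : G → ℂ) z *
        ((e w : IrrCharacter G) : G → ℂ) y + 3 * ∑ w ∈ FF M P, ((e w : IrrCharacter G) : G → ℂ) y := by
    rw [Finset.mul_sum, Finset.mul_sum, ← Finset.sum_add_distrib]
    refine Finset.sum_congr rfl fun w hw => ?_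
    obtain ⟨l, hl, rfl⟩ := mem_FF.1 hw
    have v1 := c.value_orbit h hA hr hbA hb1 hbb1 hbb hall hl hz1
    have v2 := sq_rel h hbA hb1 hb3 l hz
    have v3 : ((e (Phi M l) : IrrCharacter G) : G → ℂ) z * ((e (Phi M l) : IrrCharacter G) : G → ℂ) z =
        -2 * s * ((e (Phi M l) : IrrCharacter G) : G → ℂ) z + 3 := by
      rw [v1]
      linear_combination (((l : P → ℂ) z + (l : P → ℂ) (b z) + (l : P → ℂ) (b (b z))) *
        ((l : P → ℂ) z + (l : P → ℂ) (b z) + (l : P → ℂ) (b (b z))) - 2 *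
        ((l : P → ℂ) z + (l : P → ℂ) (b z) + (l : P → ℂ) (b (b z)))) * hss + v2
    rw [v3]; ring
  have E6 : ∑ w ∈ FF M P, ((e w : IrrCharacter G) : G → ℂ) z * ((e w : IrrCharacter G) : G → ℂ) y = -3 := by
    linear_combination E3 - s2 - s3
  rw [E6, E4] at E5
  rw [E5] at E2
  have p2 := D_pos x2
  have p3 := D_pos x3
  have p4 := D_pos (e v)
  rw [← D_cast, ← D_cast, ← D_cast] at E0 E2
  have d2 : (D x2 : ℂ) ≠ 0 := by exact_mod_cast p2.ne'
  have d3 : (D x3 : ℂ) ≠ 0 := by exact_mod_cast p3.ne'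
  have d4 : (D (e v) : ℂ) ≠ 0 := by exact_mod_cast p4.ne'
  -- the relation
  have E7 : 1 + (v x2 : ℂ) / D x2 + (v x3 : ℂ) / D x3 + 9 * s / D (e v) = 0 := by
    have e1 : (v x2 : ℂ) * v x2 * v x2 / D x2 = v x2 / D x2 := by rw [s2, one_mul]
    have e2 : (v x3 : ℂ) * v x3 * v x3 / D x3 = v x3 / D x3 := by rw [s3, one_mul]
    rw [e1, e2] at E2
    push_cast at E2
    rw [div_eq_mul_inv (9 * (s : ℂ))]
    linear_combination E2
  have E8 : (D x2 : ℂ) * D x3 * D (e v) + v x2 * D x3 * D (e v) + v x3 * D x2 * D (e v) +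
      9 * s * D x2 * D x3 = 0 := by
    have e1 : (D x2 : ℂ) * D x3 * D (e v) * (1 + (v x2 : ℂ) / D x2 + (v x3 : ℂ) / D x3 + 9 * s / D (e v)) =
        (D x2 : ℂ) * D x3 * D (e v) + v x2 * D x3 * D (e v) + v x3 * D x2 * D (e v) +
          9 * s * D x2 * D x3 := by field_simp
    rw [← e1, E7, mul_zero]
  have E9 : (s : ℂ) * D (e v) = -(1 + v x2 * D x2 + v x3 * D x3) := by
    push_cast at E0
    linear_combination E0
  have E10 : ((v x2 * D x2) * (v x3 * D x3) + v x2 * D x2 + v x3 * D x3) *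
      (1 + v x2 * D x2 + v x3 * D x3) = 9 * ((v x2 * D x2) * (v x3 * D x3)) := by
    have : ((((v x2 * D x2) * (v x3 * D x3) + v x2 * D x2 + v x3 * D x3) *
      (1 + v x2 * D x2 + v x3 * D x3) : ℤ) : ℂ) = ((9 * ((v x2 * D x2) * (v x3 * D x3)) : ℤ) : ℂ) := by
      push_cast
      -- multiply `E8` by `s a b`
      have f1 : (s : ℂ) * v x2 * v x3 * ((D x2 : ℂ) * D x3 * D (e v) + v x2 * D x3 * D (e v) +
          v x3 * D x2 * D (e v) + 9 * s * D x2 * D x3) = 0 := by rw [E8, mul_zero]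
      have f2 : (s : ℂ) * v x2 * v x3 * ((D x2 : ℂ) * D x3 * D (e v) + v x2 * D x3 * D (e v) +
          v x3 * D x2 * D (e v) + 9 * s * D x2 * D x3) =
          (s * D (e v)) * (v x2 * D x2 * (v x3 * D x3) + (v x2 * v x2) * (v x3 * D x3) +
            (v x3 * v x3) * (v x2 * D x2)) + 9 * (s * s) * (v x2 * D x2 * (v x3 * D x3)) := by ring
      rw [f2, E9, s2, s3, hss] at f1
      linear_combination -f1
    exact_mod_cast this
  have h16 : (16 : ℤ) ∣ 2 ^ k := by
    have : (2 : ℤ) ^ 4 ∣ 2 ^ k := pow_dvd_pow 2 hk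
    norm_num at this
    exact this
  have hD16 : ∀ χ ∈ XX M P e, (v χ = 1 ∨ v χ = -1) → (16 : ℤ) ∣ v χ * D χ - 1 := by
    intro χ hχ hvχ
    have hdeg := h.degree χ
    have hsum : ∑ l : IrrCharacter P, (dd χ l : ℂ) = ∑ l : IrrCharacter P, ((if l = triv P then (v χ : ℂ) else 0) - v χ) := by
      refine Finset.sum_congr rfl fun l _ => ?_
      split_ifs with hl
      · rw [hl, dd_triv]; simp
      · have hlF : Phi M l ∈ FF M P := mem_FF.2 ⟨l, hl, rfl⟩
        have hnot := (mem_XX.1 hχ).2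
        have e1 := c.diff _ hlF _ hv χ (fun e1 => hnot (mem_YY.2 ⟨_, hlF, e1.symm⟩))
          (fun e1 => hnot (mem_YY.2 ⟨_, hv, e1.symm⟩))
        rw [Phi_apply l (mem_XX.1 hχ).1] at e1
        have : dd χ l = -v χ := by omega
        rw [this]; push_cast; ring
    rw [hsum, Finset.sum_sub_distrib, Finset.sum_ite_eq' Finset.univ (triv P), if_pos (Finset.mem_univ _),
      Finset.sum_const, Finset.card_univ, h.card_irrP, nsmul_eq_mul, ← D_cast] at hdeg
    have hdeg' : D χ = v χ - 2 ^ k * v χ + 2 ^ k * aN χ (triv P) := by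
      have : ((D χ : ℤ) : ℂ) = ((v χ - 2 ^ k * v χ + 2 ^ k * aN χ (triv P) : ℤ) : ℂ) := by
        push_cast
        push_cast at hdeg
        exact hdeg
      exact_mod_cast this
    obtain ⟨d, hd⟩ := h16
    rw [hd] at hdeg'
    have hvv : v χ * v χ = 1 := by rcases hvχ with h' | h' <;> rw [h'] <;> norm_num
    refine ⟨v χ * (d * aN χ (triv P) - d * v χ), ?_⟩
    rw [hdeg']
    linear_combination hvv
  obtain ⟨f1, -⟩ := BlockHomo.arith _ _ (hD16 x2 m2 h2) (hD16 x3 m3 h3) E10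
  have ha1 : v x2 = 1 := by
    rcases h2 with h' | h'
    · exact h'
    · rw [h'] at f1; omega
  have hD1 : D x2 = 1 := by rw [ha1, one_mul] at f1; exact f1
  apply (Finset.mem_erase.1 mm2).1
  apply eq_triv_of_normal hK
  rw [c.value_XX h hv m2 hz1, ha1, ← D_cast, hD1]

end Coh

end FC

end Cfsg.Agent.Lib.FrobBlk
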