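import Mathlib
import Cfsg.Agent.Lib.FrobBlk8

/-!
# The principal block of a group with abelian Sylow `p`-subgroup and automizer of order 3 (S4721), IV
-/

set_option autoImplicit false
set_option linter.all false
set_option maxHeartbeats 400000

namespace Cfsg.Agent.Lib.FrobBlk

open Cfsg Cfsg.Agent.Lib.BlockRing Cfsg.Agent.Lib.BlockGA
open Cfsg.Agent.Lib.BlockIdem Cfsg.Agent.Lib.BlockThird Cfsg.Agent.Lib.BlockSecond
open Cfsg.Agent.Lib.CharBasic Cfsg.Agent.Lib.BlockHomo
open scoped ComplexConjugate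

universe u

variable {G : Type u} [Group G] [Finite G]
variable {p : ℕ} {M : Ideal AlgInt}

theorem main4721 [hp : Fact p.Prime] (hM : IsPModular p M) (P : Sylow p G)
    (hab : IsMulCommutative (P : Subgroup G)) (hP1 : Nat.card (P : Subgroup G) ≠ 1)
    (hCN : (Subgroup.centralizer ((P : Subgroup G) : Set G)).relIndex
      (Subgroup.normalizer ((P : Subgroup G) : Set G)) = 3)
    (hm2 : 3 + 1 < Nat.card (P : Subgroup G))
    (hfrob : ∀ y : G, y ∈ (P : Subgroup G) → y ≠ 1 → Subgroup.centralizer ({y} : Set G) ⊓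
      Subgroup.normalizer ((P : Subgroup G) : Set G) = Subgroup.centralizer ((P : Subgroup G) : Set G)) :
    ∃ (X Y : Set (IrrCharacter G)), principalBlock M G = X ∪ Y ∧ Disjoint X Y ∧
      Nat.card X = 3 ∧ Nat.card Y = (Nat.card (P : Subgroup G) - 1) / 3 ∧
      (∃ χ₁ ∈ X, (χ₁ : G → ℂ) = fun _ => 1) ∧
      ∃ (a : IrrCharacter G → ℤ) (δ : ℤ) (ζ : (↥(P : Subgroup G) →* ℂˣ) → IrrCharacter G),
        (δ = 1 ∨ δ = -1) ∧ (∀ χ ∈ X, (a χ = 1 ∨ a χ = -1) ∧ ∀ z y : G, IsPPart p z y → y ∈ (P : Subgroup G) →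
          y ≠ 1 → (χ : G → ℂ) z = (a χ : ℂ)) ∧
        (∀ ψ : ↥(P : Subgroup G) →* ℂˣ, ψ ≠ 1 → ζ ψ ∈ Y) ∧
        (∀ η ∈ Y, ∃ ψ : ↥(P : Subgroup G) →* ℂˣ, ψ ≠ 1 ∧ ζ ψ = η) ∧
        (∀ ψ ψ' : ↥(P : Subgroup G) →* ℂˣ, ψ ≠ 1 →
          (∃ n : G, n ∈ Subgroup.normalizer ((P : Subgroup G) : Set G) ∧
            ∀ w w' : ↥(P : Subgroup G), (w' : G) = n * w * n⁻¹ → ψ' w' = ψ w) → ζ ψ' = ζ ψ) ∧
        (∀ ψ : ↥(P : Subgroup G) →* ℂˣ, ψ ≠ 1 → ∀ (z : G) (y : ↥(P : Subgroup G)),
          IsPPart p z (y : G) → (y : G) ≠ 1 → (ζ ψ : G → ℂ) z = (δ : ℂ) *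
            ∑ᶠ ψ' ∈ {ψ' : ↥(P : Subgroup G) →* ℂˣ | ∃ n : G,
              n ∈ Subgroup.normalizer ((P : Subgroup G) : Set G) ∧
              ∀ w w' : ↥(P : Subgroup G), (w' : G) = n * w * n⁻¹ → ψ' w' = ψ w}, ((ψ' y : ℂˣ) : ℂ)) ∧
        ((∃ t : G, orderOf t = 2 ∧ ∀ K : Subgroup G, K.Normal → t ∈ K → K = ⊤) →
          Nat.card {χ : IrrCharacter G // χ ∈ X ∧ (χ : G → ℂ) ≠ (fun _ => 1) ∧ a χ = -1} +
            (if δ = 1 then 1 else 0) = 2 ∧
          ∀ η ∈ Y, IsSquare (charDegree (η : G → ℂ) *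
            ∏ᶠ χ ∈ {χ : IrrCharacter G | χ ∈ X ∧ (χ : G → ℂ) ≠ fun _ => 1}, charDegree (χ : G → ℂ))) := by
  classical
  set P' := (P : Subgroup G) with hP'
  have h := exists_FC hM P hab hfrob
  set k := (Nat.card G).factorization p with hk
  have fP : Fintype P' := Fintype.ofFinite _
  have fA : Fintype (AA P') := Fintype.ofFinite _
  have hA' : Nat.card (AA P') = 3 := by rw [card_AA, hCN]
  have hA : Fintype.card (AA P') = 3 := by rw [← Nat.card_eq_fintype_card, hA']
  have hq := h.card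
  have hk0 : k ≠ 0 := by
    rintro e
    rw [e, pow_zero] at hq
    exact hP1 hq
  set r := (FC.FF M P').card with hrdef
  have hcF : r * 3 = Nat.card P' - 1 := by
    have := h.card_FF
    rw [hA, ← hq] at this
    exact this
  have hr : 2 ≤ r := by omega
  have hdivN : (Nat.card P' - 1) / 3 = r := by omega
  obtain ⟨e, s, c⟩ := h.exists_coh_three hA hr hk0
  obtain ⟨v₀, hv₀⟩ : (FC.FF M P').Nonempty := Finset.card_pos.1 (by omega)
  have htX := c.triv_mem_XX h hr
  have hvt : v₀ (triv G) = 1 := by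
    obtain ⟨l, hl, rfl⟩ := FC.mem_FF.1 hv₀
    exact h.Phi_triv hl
  -- the nonexceptional characters
  obtain ⟨x2, x3, hne, hX, h2, h3⟩ : ∃ a b, a ≠ b ∧ (FC.Coh.XX M P' e).erase (triv G) = {a, b} ∧
      (v₀ a = 1 ∨ v₀ a = -1) ∧ (v₀ b = 1 ∨ v₀ b = -1) := by
    apply two_of_sum
    · intro x hx
      exact c.ne_zero h hk0 hv₀ (Finset.mem_of_mem_erase hx)
    · have hn := c.norm_eq h hr hv₀
      rw [← Finset.add_sum_erase _ _ htX, hvt, hA] at hn
      rcases c.hs with h' | h' <;> rw [h'] at hn <;> norm_num at hn <;> linarith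
  have mm2 : x2 ∈ (FC.Coh.XX M P' e).erase (triv G) := by rw [hX]; simp
  have mm3 : x3 ∈ (FC.Coh.XX M P' e).erase (triv G) := by rw [hX]; simp
  have n2 := (Finset.mem_erase.1 mm2).1
  have n3 := (Finset.mem_erase.1 mm3).1
  have hXX : FC.Coh.XX M P' e = {triv G, x2, x3} := by
    rw [← Finset.insert_erase htX, hX]
  have hmemX : ∀ χ : IrrCharacter G, χ ∈ FC.Coh.XX M P' e ↔ χ = triv G ∨ χ = x2 ∨ χ = x3 := by
    intro χ; rw [hXX]; simp
  have hva : ∀ χ ∈ FC.Coh.XX M P' e, v₀ χ = 1 ∨ v₀ χ = -1 := by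
    intro χ hχ
    rcases (hmemX χ).1 hχ with rfl | rfl | rfl
    · exact Or.inl hvt
    · exact h2
    · exact h3
  have hne1 : ∀ χ : IrrCharacter G, ((χ : G → ℂ) ≠ fun _ => 1) ↔ χ ≠ triv G := by
    intro χ
    constructor
    · rintro h1 rfl; exact h1 rfl
    · intro h1 h2'; exact h1 (Subtype.ext h2')
  refine ⟨(FC.Coh.XX M P' e : Set (IrrCharacter G)),
    (FC.Coh.YY M P' e : Set (IrrCharacter G)), ?_, ?_, ?_, ?_, ?_, v₀, -s,
    fun ψ => e (FC.Phi M (toIrr ψ)), ?_, ?_, ?_, ?_, ?_, ?_, ?_⟩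
  · ext χ
    rw [Set.mem_union, Finset.mem_coe, Finset.mem_coe, FC.Coh.mem_XX, ← mem_PB]
    constructor
    · intro hχ
      by_cases hY : χ ∈ FC.Coh.YY M P' e
      · exact Or.inr hY
      · exact Or.inl ⟨hχ, hY⟩
    · rintro (hχ | hχ)
      · exact hχ.1
      · obtain ⟨v, hv, rfl⟩ := FC.Coh.mem_YY.1 hχ
        exact c.mem_PB hr hv
  · rw [Set.disjoint_left]
    intro χ h1 h2
    exact (FC.Coh.mem_XX.1 (Finset.mem_coe.1 h1)).2 (Finset.mem_coe.1 h2)
  · rw [Nat.card_coe_set_eq, Set.ncard_coe_finset, hXX, Finset.card_insert_of_notMem,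
      Finset.card_pair hne]
    simp [n2.symm, n3.symm]
  · rw [Nat.card_coe_set_eq, Set.ncard_coe_finset, c.card_YY, hdivN]
  · exact ⟨triv G, Finset.mem_coe.2 htX, rfl⟩
  · rcases c.hs with h' | h' <;> rw [h'] <;> norm_num
  · intro χ hχ
    rw [Finset.mem_coe] at hχ
    refine ⟨hva χ hχ, fun z y hz hy hy1 => ?_⟩
    have hy1' : (⟨y, hy⟩ : P') ≠ 1 := fun e => hy1 (congrArg Subtype.val e)
    rw [h.section_value (FC.Coh.mem_XX.1 hχ).1 hy1' hz, c.value_XX h hv₀ hχ hy1']
  · intro ψ hψ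
    rw [Finset.mem_coe, FC.Coh.mem_YY]
    exact ⟨_, FC.mem_FF.2 ⟨_, toIrr_ne_triv hψ, rfl⟩, rfl⟩
  · intro η hη
    rw [Finset.mem_coe, FC.Coh.mem_YY] at hη
    obtain ⟨v, hv, rfl⟩ := hη
    obtain ⟨l, hl, rfl⟩ := FC.mem_FF.1 hv
    obtain ⟨ψ, rfl⟩ := toIrr_surjective h l
    exact ⟨ψ, fun e => hl (by rw [e, toIrr_one]), rfl⟩
  · intro ψ ψ' hψ hex
    rw [orbit_iff] at hex
    have h1 : toIrr ψ' ≠ triv P' := by
      intro e
      obtain ⟨a, ha, e2⟩ := hex
      rw [e, FC.tw_triv] at e2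
      exact toIrr_ne_triv hψ e2.symm
    show e (FC.Phi M (toIrr ψ')) = e (FC.Phi M (toIrr ψ))
    rw [(h.Phi_eq_iff (toIrr_ne_triv hψ) h1).2 hex]
  · intro ψ hψ z y hz hy
    have hv : FC.Phi M (toIrr ψ) ∈ FC.FF M P' := FC.mem_FF.2 ⟨_, toIrr_ne_triv hψ, rfl⟩
    have hy' : y ≠ 1 := fun e => hy (congrArg Subtype.val e)
    show ((e (FC.Phi M (toIrr ψ)) : IrrCharacter G) : G → ℂ) z = _
    rw [h.section_value (c.mem_PB hr hv) hy' hz, c.value_YY h hr hv hy', orbit_sum h hψ]
    push_cast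
    ring
  · rintro ⟨t, ht, hK⟩
    by_cases hp2 : p = 2
    · -- impossible
      exfalso
      subst hp2
      have hk4 : 4 ≤ k := by
        by_contra hcon
        have : k < 4 := by omega
        rw [hq] at hcF hm2
        interval_cases k <;> omega
      -- move `t` into `P`
      have hzt : IsPGroup 2 (Subgroup.zpowers t) := by
        apply IsPGroup.of_card (n := 1)
        rw [Nat.card_zpowers, ht, pow_one]
      obtain ⟨S', hS'⟩ := hzt.exists_le_sylow
      obtain ⟨g, hg⟩ := MulAction.exists_smul_eq G S' P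
      have hz : g * t * g⁻¹ ∈ P' := by
        rw [hP', ← hg, Sylow.coe_subgroup_smul]
        exact Subgroup.smul_mem_pointwise_smul _ _ _ (hS' (Subgroup.mem_zpowers _))
      have htt : t * t = 1 := by rw [← pow_two, ← ht, pow_orderOf_eq_one]
      have hzz : (⟨g * t * g⁻¹, hz⟩ : P') * ⟨g * t * g⁻¹, hz⟩ = 1 := by
        apply Subtype.ext
        show g * t * g⁻¹ * (g * t * g⁻¹) = 1
        calc g * t * g⁻¹ * (g * t * g⁻¹) = g * (t * t) * g⁻¹ := by group
          _ = 1 := by rw [htt]; group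
      have hz1 : (⟨g * t * g⁻¹, hz⟩ : P') ≠ 1 := by
        intro e1
        have e2 : g * t * g⁻¹ = 1 := congrArg Subtype.val e1
        have e3 : t = 1 := by
          have : t = g⁻¹ * (g * t * g⁻¹) * g := by group
          rw [this, e2]; group
        rw [e3, orderOf_one] at ht
        norm_num at ht
      refine c.last_two h hA' hr hk4 hv₀ hne hX h2 h3 hzz hz1 (fun K hKn hKm => hK K hKn ?_)
      have : t = g⁻¹ * (g * t * g⁻¹) * (g⁻¹)⁻¹ := by group
      rw [this]
      exact hKn.conj_mem _ hKm _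
    · -- `p` odd
      obtain ⟨y, hy⟩ : ∃ y : P', y ≠ 1 := by
        by_contra hcon
        push Not at hcon
        apply hP1
        rw [Nat.card_eq_one_iff_unique]
        exact ⟨⟨fun a b => by rw [hcon a, hcon b]⟩, ⟨1⟩⟩
      obtain ⟨hsign, -⟩ := c.last_odd h hA' hp2 hr hv₀ hne hX h2 h3 ht hK hy
      -- not all signs are positive
      have hnall : ¬ (v₀ x2 = 1 ∧ v₀ x3 = 1 ∧ s = 1) := by
        rintro ⟨a1, a2, a3⟩
        have E0 := c.reg_rel h hr hv₀ hv₀ (g := 1) h.not_dvd_one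
        rw [c.sum_three h hr hne hX, hvt, coe_triv, a1, a2, a3, ← FC.D_cast, ← FC.D_cast, ← FC.D_cast] at E0
        have : FC.D (e v₀) + (1 + (FC.D x2 + FC.D x3)) = 0 := by
          have : ((FC.D (e v₀) + (1 + (FC.D x2 + FC.D x3)) : ℤ) : ℂ) = 0 := by
            push_cast
            push_cast at E0
            linear_combination E0
          exact_mod_cast this
        have p2 := FC.D_pos x2
        have p3 := FC.D_pos x3
        have p4 := FC.D_pos (e v₀)
        omega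
      constructor
      · have hset : {χ : IrrCharacter G | χ ∈ (FC.Coh.XX M P' e : Set (IrrCharacter G)) ∧
            ((χ : G → ℂ) ≠ fun _ => 1) ∧ v₀ χ = -1} =
            ((({x2, x3} : Finset (IrrCharacter G)).filter (fun χ => v₀ χ = -1) : Finset (IrrCharacter G)) :
              Set (IrrCharacter G)) := by
          ext χ
          simp only [Set.mem_setOf_eq, Finset.mem_coe, Finset.mem_filter, Finset.mem_insert,
            Finset.mem_singleton, hmemX, hne1]
          constructor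
          · rintro ⟨h1 | h1, h4, h5⟩
            · exact absurd h1 h4
            · exact ⟨h1, h5⟩
          · rintro ⟨h1, h5⟩
            refine ⟨Or.inr h1, ?_, h5⟩
            rcases h1 with rfl | rfl
            · exact n2
            · exact n3
        have hcard : Nat.card {χ : IrrCharacter G // χ ∈ (FC.Coh.XX M P' e : Set (IrrCharacter G)) ∧
            ((χ : G → ℂ) ≠ fun _ => 1) ∧ v₀ χ = -1} =
            (({x2, x3} : Finset (IrrCharacter G)).filter (fun χ => v₀ χ = -1)).card := by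
          have : Nat.card {χ : IrrCharacter G // χ ∈ (FC.Coh.XX M P' e : Set (IrrCharacter G)) ∧
            ((χ : G → ℂ) ≠ fun _ => 1) ∧ v₀ χ = -1} =
            Set.ncard {χ : IrrCharacter G | χ ∈ (FC.Coh.XX M P' e : Set (IrrCharacter G)) ∧
            ((χ : G → ℂ) ≠ fun _ => 1) ∧ v₀ χ = -1} := Nat.card_coe_set_eq _
          rw [this, hset, Set.ncard_coe_finset]
        rw [hcard, Finset.card_filter, Finset.sum_pair hne]
        rcases h2 with a1 | a1 <;> rcases h3 with a2 | a2 <;> rcases c.hs with a3 | a3 <;>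
          rw [a1, a2, a3] at hsign ⊢ <;>
          first | (exfalso; revert hsign; norm_num; done) | (exfalso; exact hnall ⟨a1, a2, a3⟩) | norm_num
      · intro η hη
        rw [Finset.mem_coe, FC.Coh.mem_YY] at hη
        obtain ⟨w, hw, rfl⟩ := hη
        have hset : {χ : IrrCharacter G | χ ∈ (FC.Coh.XX M P' e : Set (IrrCharacter G)) ∧
            (χ : G → ℂ) ≠ fun _ => 1} = (({x2, x3} : Finset (IrrCharacter G)) : Set (IrrCharacter G)) := by
          ext χ
          simp only [Set.mem_setOf_eq, Finset.mem_coe, Finset.mem_insert,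
            Finset.mem_singleton, hmemX, hne1]
          constructor
          · rintro ⟨h1 | h1, h4⟩
            · exact absurd h1 h4
            · exact h1
          · intro h1
            refine ⟨Or.inr h1, ?_⟩
            rcases h1 with rfl | rfl
            · exact n2
            · exact n3
        rw [hset, finprod_mem_coe_finset, Finset.prod_pair hne]
        have o2 : w x2 = v₀ x2 := c.out hw hv₀ (by
          have := (FC.Coh.mem_XX.1 (Finset.mem_of_mem_erase mm2)).2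
          rwa [FC.Coh.YY] at this)
        have o3 : w x3 = v₀ x3 := c.out hw hv₀ (by
          have := (FC.Coh.mem_XX.1 (Finset.mem_of_mem_erase mm3)).2
          rwa [FC.Coh.YY] at this)
        exact (c.last_odd h hA' hp2 hr hw hne hX (by rw [o2]; exact h2) (by rw [o3]; exact h3) ht hK hy).2

end Cfsg.Agent.Lib.FrobBlk
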