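import Cfsg.Agent.Lib.FrobGroup

/-!
# Conjugacy of Frobenius complements
-/

set_option autoImplicit false
open Cfsg
open scoped Pointwise

namespace Cfsg.Agent.Lib.FrobConj

open FrobGroup

universe u

/-- Every non-identity element of the smaller complement lies in a conjugate of the larger one. -/
theorem exists_mem_conj {G : Type*} [Group G] [Finite G] {H H₀ : Subgroup G}
    (hH : IsFrobeniusComplement H) (hH₀ : IsFrobeniusComplement H₀)
    (hle : Nat.card H₀ ≤ Nat.card H) {x : G} (hx : x ∈ H₀) (hx1 : x ≠ 1) :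
    ∃ g : G, g⁻¹ * x * g ∈ H := by
  classical
  by_contra hcon
  push Not at hcon
  let S : Set G := {y | y ∈ H₀ ∧ y ≠ 1 ∧ y ∈ frobeniusKernel H}
  have hxS : x ∈ S := ⟨hx, hx1, mem_kernel_iff.2 (Or.inr hcon)⟩
  have h1 := card_conj_set hH₀ S (fun y hy => hy.1) (fun h => h.2.1 rfl) (by
    rintro h hh s ⟨hs1, hs2, hs3⟩
    refine ⟨H₀.mul_mem (H₀.mul_mem (H₀.inv_mem hh) hs1) hh, ?_, ?_⟩
    · intro h3
      apply hs2
      have : s = h * (h⁻¹ * s * h) * h⁻¹ := by group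
      rw [this, h3]; group
    · simpa using kernel_conj_mem hs3 h⁻¹)
  have hsub : {x : G | ∃ g : G, g⁻¹ * x * g ∈ S} ⊆ frobeniusKernel H \ {1} := by
    rintro y ⟨g, hg1, hg2, hg3⟩
    refine ⟨?_, ?_⟩
    · have := kernel_conj_mem hg3 g
      have h2 : g * (g⁻¹ * y * g) * g⁻¹ = y := by group
      rwa [h2] at this
    · rintro rfl
      apply hg2; group
  have h2 : Nat.card {x : G | ∃ g : G, g⁻¹ * x * g ∈ S} ≤ Nat.card ↥(frobeniusKernel H \ {1}) :=
    Nat.card_mono (Set.toFinite _) hsub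
  have h3 : Nat.card ↥(frobeniusKernel H \ {1}) = H.index - 1 := by
    have h4 : Nat.card (frobeniusKernel H) = H.index := card_kernel hH
    have h5 : (frobeniusKernel H \ {1}).ncard = (frobeniusKernel H).ncard - 1 :=
      Set.ncard_sdiff_singleton_of_mem (one_mem_kernel H)
    change (frobeniusKernel H \ {1}).ncard = _
    rw [h5]
    change Nat.card (frobeniusKernel H) - 1 = _
    rw [h4]
  have h4 : 0 < Nat.card S := by
    have : Nonempty S := ⟨⟨x, hxS⟩⟩
    exact Nat.card_pos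
  have h5 : H.index ≤ H₀.index := by
    have e1 := H.card_mul_index
    have e2 := H₀.card_mul_index
    by_contra h6
    push Not at h6
    have : Nat.card H₀ * H₀.index < Nat.card H * H.index := by
      calc Nat.card H₀ * H₀.index ≤ Nat.card H * H₀.index := Nat.mul_le_mul_right _ hle
        _ < Nat.card H * H.index := Nat.mul_lt_mul_of_pos_left h6 Nat.card_pos
    omega
  have h6 := one_lt_index hH
  have h7 : H₀.index ≤ H₀.index * Nat.card S := Nat.le_mul_of_pos_right _ h4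
  omega

/-- Intersection of two Frobenius complements as a Frobenius complement of one. -/
theorem inf_isFrobeniusComplement {G : Type*} [Group G] {H H₀ : Subgroup G}
    (hH : IsFrobeniusComplement H) (h1 : H₀ ⊓ H ≠ ⊥) (h2 : ¬ H₀ ≤ H) :
    IsFrobeniusComplement (H.subgroupOf H₀) := by
  refine ⟨?_, ?_, ?_⟩
  · intro h
    rw [Subgroup.subgroupOf_eq_bot, disjoint_comm, disjoint_iff] at h
    exact h1 h
  · rw [Ne, Subgroup.subgroupOf_eq_top]; exact h2
  · intro g hg
    rw [eq_bot_iff]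
    rintro x ⟨hx1, hx2⟩
    replace hx2 : x ∈ MulAut.conj g • H.subgroupOf H₀ := hx2
    rw [mem_conj_smul] at hx2
    have h3 : (g : G) ∉ H := hg
    rw [Subgroup.mem_bot]
    by_contra hne
    exact h3 (mem_of_conj_mem hH (x := (x : G)) hx1 (fun h => hne (Subtype.ext h)) hx2)

theorem aux (n : ℕ) : ∀ {G : Type u} [Group G] [Finite G] (_ : Nat.card G = n) (H H₀ : Subgroup G)
    (_ : IsFrobeniusComplement H) (_ : IsFrobeniusComplement H₀) (_ : Nat.card H₀ ≤ Nat.card H),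
    ∃ g : G, MulAut.conj g • H₀ ≤ H := by
  induction n using Nat.strong_induction_on with
  | _ n ih =>
  intro G _ _ hG H H₀ hH hH₀ hle
  classical
  obtain ⟨x, hx, hx1⟩ := exists_ne_one hH₀
  obtain ⟨g, hg⟩ := exists_mem_conj hH hH₀ hle hx hx1
  -- replace `H` by a conjugate
  let H₁ : Subgroup G := MulAut.conj g • H
  have hH₁ : IsFrobeniusComplement H₁ := FrobGroup.conj hH g
  have hxH₁ : x ∈ H₁ := mem_conj_smul.2 hg
  have hne : H₀ ⊓ H₁ ≠ ⊥ := by
    intro h
    apply hx1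
    rw [← Subgroup.mem_bot, ← h]; exact ⟨hx, hxH₁⟩
  have hconj : ∀ {a : G}, H₀ ≤ MulAut.conj a • H → ∃ g : G, MulAut.conj g • H₀ ≤ H := by
    intro a ha
    refine ⟨a⁻¹, ?_⟩
    rw [map_inv]
    intro z hz
    rw [Subgroup.mem_inv_pointwise_smul_iff] at hz
    have h1 := ha hz
    rwa [Subgroup.smul_mem_pointwise_smul_iff] at h1
  by_cases hle1 : H₀ ≤ H₁
  · exact hconj hle1
  have hD := inf_isFrobeniusComplement hH₁ hne hle1
  obtain ⟨y, hy, hy1⟩ := exists_kernel_ne_one hD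
  have hcard : Nat.card H₁ = Nat.card H :=
    (Nat.card_congr (Subgroup.equivSMul (MulAut.conj g) H).toEquiv).symm
  obtain ⟨b, hb⟩ := exists_mem_conj hH₁ hH₀ (hle.trans hcard.ge) y.2
    (fun h => hy1 (Subtype.ext h))
  let H₂ : Subgroup G := MulAut.conj b • H₁
  have hH₂ : IsFrobeniusComplement H₂ := FrobGroup.conj hH₁ b
  have hyH₂ : (y : G) ∈ H₂ := mem_conj_smul.2 hb
  have hne2 : H₀ ⊓ H₂ ≠ ⊥ := by
    intro h
    apply hy1
    apply Subtype.ext
    rw [OneMemClass.coe_one, ← Subgroup.mem_bot, ← h]; exact ⟨y.2, hyH₂⟩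
  by_cases hle2 : H₀ ≤ H₂
  · apply hconj (a := b * g)
    rwa [map_mul, mul_smul]
  have hD' := inf_isFrobeniusComplement hH₂ hne2 hle2
  have hlt : Nat.card H₀ < n := by
    rw [← hG]
    apply lt_of_le_of_ne (Subgroup.card_le_card_group H₀)
    intro h
    exact hH₀.2.1 (Subgroup.eq_top_of_card_eq _ h)
  rw [mem_kernel_iff'] at hy
  have hy' : ∀ k : H₀, (k : G) * y * (k : G)⁻¹ ∉ H₁ := by
    intro k hk
    rcases hy with hy | hy
    · exact hy1 hy
    · exact hy k hk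
  exfalso
  rcases le_total (Nat.card (H₁.subgroupOf H₀)) (Nat.card (H₂.subgroupOf H₀)) with h | h
  · obtain ⟨k, hk⟩ := ih _ hlt rfl _ _ hD' hD h
    obtain ⟨z, hz, hz1⟩ := exists_ne_one hD
    have h1 : k * z * k⁻¹ ∈ H₂.subgroupOf H₀ :=
      hk (Subgroup.smul_mem_pointwise_smul _ _ _ hz)
    have h2 : (k : G) * z * (k : G)⁻¹ ∈ H₂ := h1
    rw [mem_conj_smul] at h2
    have h3 : b⁻¹ * k ∈ H₁ := by
      apply mem_of_conj_mem' hH₁ (x := (z : G)) hz (fun h => hz1 (Subtype.ext h))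
      have : b⁻¹ * (k : G) * z * (b⁻¹ * k)⁻¹ = b⁻¹ * (k * z * (k : G)⁻¹) * b := by group
      rw [this]; exact h2
    apply hy' k⁻¹
    have h4 := H₁.mul_mem (H₁.mul_mem (H₁.inv_mem h3) hb) h3
    have : (b⁻¹ * (k : G))⁻¹ * (b⁻¹ * y * b) * (b⁻¹ * k) = ((k⁻¹ : H₀) : G) * y * ((k⁻¹ : H₀) : G)⁻¹ := by
      push_cast; group
    rwa [this] at h4
  · obtain ⟨k, hk⟩ := ih _ hlt rfl _ _ hD hD' h
    obtain ⟨z, hz, hz1⟩ := exists_ne_one hD'
    have h1 : k * z * k⁻¹ ∈ H₁.subgroupOf H₀ :=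
      hk (Subgroup.smul_mem_pointwise_smul _ _ _ hz)
    have h2 : (k : G) * z * (k : G)⁻¹ ∈ H₁ := h1
    have hz' : (z : G) ∈ H₂ := hz
    rw [mem_conj_smul] at hz'
    have h3 : (k : G) * b ∈ H₁ := by
      apply mem_of_conj_mem' hH₁ hz'
      · intro h
        apply hz1
        apply Subtype.ext
        have : (z : G) = b * (b⁻¹ * z * b) * b⁻¹ := by group
        rw [this, h]; simp
      · have : (k : G) * b * (b⁻¹ * z * b) * (k * b)⁻¹ = k * z * (k : G)⁻¹ := by group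
        rw [this]; exact h2
    apply hy' k
    have h4 := H₁.mul_mem (H₁.mul_mem h3 hb) (H₁.inv_mem h3)
    have : (k : G) * b * (b⁻¹ * y * b) * ((k : G) * b)⁻¹ = k * y * (k : G)⁻¹ := by group
    rwa [this] at h4

/-- The smaller of two Frobenius complements is conjugate into the larger. -/
theorem exists_conj_le {G : Type*} [Group G] [Finite G] {H H₀ : Subgroup G}
    (hH : IsFrobeniusComplement H) (hH₀ : IsFrobeniusComplement H₀)
    (hle : Nat.card H₀ ≤ Nat.card H) : ∃ g : G, MulAut.conj g • H₀ ≤ H :=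
  aux _ rfl H H₀ hH hH₀ hle

end Cfsg.Agent.Lib.FrobConj
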