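import Mathlib

set_option autoImplicit false

/-!
Frobenius' theorem: if `m` divides `|G|` then `m` divides the number of solutions of `x ^ m = 1`.
Elementary proof by induction on `|G|`.
-/

namespace Cfsg.Agent.Lib.FrobDiv

universe u v w

theorem dvd_card_of_fibers {A : Type u} {B : Type v} [Finite A] (f : A → B) (d : ℕ)
    (h : ∀ a : A, d ∣ Nat.card {a' : A // f a' = f a}) : d ∣ Nat.card A := by
  classical
  have := Fintype.ofFinite A
  have e1 : Nat.card A = Nat.card (Σ b : Set.range f, {a : A // f a = b}) := by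
    refine Nat.card_congr ?_
    refine (Equiv.sigmaFiberEquiv (Set.rangeFactorization f)).symm.trans ?_
    refine Equiv.sigmaCongrRight fun b => ?_
    refine Equiv.subtypeEquivRight fun a => ?_
    rw [Subtype.ext_iff]
    rfl
  have := Fintype.ofFinite (Set.range f)
  rw [e1, Nat.card_sigma]
  refine Finset.dvd_sum ?_
  rintro ⟨_, ⟨a, rfl⟩⟩ _
  exact h a

theorem card_isConj {G : Type u} [Group G] [Finite G] (g : G) :
    Nat.card {x : G // IsConj g x} = (Subgroup.centralizer ({g} : Set G)).index := by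
  have h1 : {x : G | IsConj g x} = MulAction.orbit (ConjAct G) g := by
    ext x
    rw [ConjAct.mem_orbit_conjAct]
    exact isConj_comm
  have h2 := MulAction.index_stabilizer (ConjAct G) g
  have h3 := Subgroup.card_mul_index (MulAction.stabilizer (ConjAct G) g)
  rw [h2, ← h1, ← Subgroup.nat_card_centralizer_nat_card_stabilizer] at h3
  have h4 := Subgroup.card_mul_index (Subgroup.centralizer ({g} : Set G))
  have h5 : Nat.card (ConjAct G) = Nat.card G := rfl
  rw [h5, ← h4] at h3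
  exact Nat.eq_of_mul_eq_mul_left Nat.card_pos h3

/-- number of solutions of `x ^ n = c` -/
noncomputable def b (G : Type u) [Group G] (c : G) (n : ℕ) : ℕ := Nat.card {x : G // x ^ n = c}

/-- the property proved by induction -/
def Q (G : Type u) [Group G] (n : ℕ) : Prop := ∀ c ∈ Subgroup.center G, Nat.gcd n (Nat.card G) ∣ b G c n

section
variable {G : Type u} [Group G] [Finite G]

/-- the number of solutions of `x ^ n ∈ C`, `C` the class of `c`, in terms of the centralizer of `c` -/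
theorem card_class_solutions (c : G) (n : ℕ) :
    Nat.card {x : G // IsConj (x ^ n) c} =
      (Subgroup.centralizer {c}).index *
        Nat.card {x : Subgroup.centralizer ({c} : Set G) //
          x ^ n = (⟨c, Subgroup.mem_centralizer_singleton_iff.2 rfl⟩ : Subgroup.centralizer ({c} : Set G))} := by
  classical
  -- all fibers over the class have the same cardinality
  have h1 : ∀ d : G, IsConj d c → Nat.card {x : G // x ^ n = d} = Nat.card {x : G // x ^ n = c} := by
    intro d hd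
    obtain ⟨g, hg⟩ := isConj_iff.1 hd
    refine Nat.card_congr ((MulAut.conj g).toEquiv.subtypeEquiv ?_)
    intro x
    show x ^ n = d ↔ (MulAut.conj g x) ^ n = c
    rw [← map_pow, ← hg, ← MulAut.conj_apply]
    exact ((MulAut.conj g).injective.eq_iff).symm
  have e : {x : G // IsConj (x ^ n) c} ≃ Σ d : {d : G // IsConj d c}, {x : G // x ^ n = d.1} :=
    { toFun := fun x => ⟨⟨x.1 ^ n, x.2⟩, ⟨x.1, rfl⟩⟩
      invFun := fun y => ⟨y.2.1, by rw [y.2.2]; exact y.1.2⟩
      left_inv := fun x => rfl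
      right_inv := by
        rintro ⟨⟨d, hd⟩, ⟨x, hx⟩⟩
        simp only at hx
        subst hx
        rfl }
  have := Fintype.ofFinite {d : G // IsConj d c}
  rw [Nat.card_congr e, Nat.card_sigma, Finset.sum_congr rfl (fun d _ => h1 d.1 d.2), Finset.sum_const,
    Finset.card_univ, smul_eq_mul, ← Nat.card_eq_fintype_card]
  have h2 : Nat.card {d : G // IsConj d c} = (Subgroup.centralizer ({c} : Set G)).index := by
    rw [← card_isConj c]
    exact Nat.card_congr (Equiv.subtypeEquivRight fun d => ⟨fun h => h.symm, fun h => h.symm⟩)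
  rw [h2]
  congr 1
  refine Nat.card_congr ⟨fun x => ⟨⟨x.1, ?_⟩, ?_⟩, fun x => ⟨x.1.1, ?_⟩, ?_, ?_⟩
  · rw [Subgroup.mem_centralizer_singleton_iff]
    have h3 : Commute x.1 c := by
      have := Commute.pow_right (Commute.refl x.1) n
      rwa [x.2] at this
    exact h3.eq
  · exact Subtype.ext x.2
  · exact congrArg Subtype.val x.2
  · intro x; rfl
  · intro x; rfl

/-- the multiplicity in the classes outside the centre -/
theorem dvd_class_solutions {n : ℕ} (c : G)
    (h : ∀ H : Subgroup G, Nat.card H < Nat.card G → Q H n) (hc : c ∉ Subgroup.center G) :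
    Nat.gcd n (Nat.card G) ∣ Nat.card {x : G // IsConj (x ^ n) c} := by
  have hlt : Nat.card (Subgroup.centralizer ({c} : Set G)) < Nat.card G := by
    refine lt_of_le_of_ne (Nat.card_le_card_of_injective _ Subtype.val_injective) ?_
    intro he
    apply hc
    have h1 := Subgroup.eq_top_of_card_eq _ he
    rw [Subgroup.mem_center_iff]
    intro g
    have h2 : g ∈ Subgroup.centralizer ({c} : Set G) := by rw [h1]; trivial
    exact (Subgroup.mem_centralizer_singleton_iff.1 h2)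
  have h1 := h _ hlt ⟨c, Subgroup.mem_centralizer_singleton_iff.2 rfl⟩ (by
    rw [Subgroup.mem_center_iff]
    intro g
    exact Subtype.ext (Subgroup.mem_centralizer_singleton_iff.1 g.2))
  rw [card_class_solutions]
  have h2 := (Subgroup.centralizer ({c} : Set G)).card_mul_index
  have h3 : Nat.gcd n (Nat.card G) ∣ (Subgroup.centralizer ({c} : Set G)).index *
      Nat.gcd n (Nat.card (Subgroup.centralizer ({c} : Set G))) := by
    rw [← Nat.gcd_mul_left]
    refine Nat.dvd_gcd ?_ ?_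
    · exact (Nat.gcd_dvd_left _ _).trans (Dvd.intro_left _ rfl)
    · rw [mul_comm, h2]; exact Nat.gcd_dvd_right _ _
  exact h3.trans (Nat.mul_dvd_mul_left _ h1)

/-- solutions of `x ^ n ∈ D` for a union of classes `D` -/
theorem dvd_union {n : ℕ} (D : G → Prop) (hD : ∀ g d, D d → D (g * d * g⁻¹)) (k : ℕ)
    (h : ∀ c, D c → k ∣ Nat.card {x : G // IsConj (x ^ n) c}) :
    k ∣ Nat.card {x : G // D (x ^ n)} := by
  refine dvd_card_of_fibers (fun x => ConjClasses.mk (x.1 ^ n)) k ?_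
  rintro ⟨x, hx⟩
  have h1 := h (x ^ n) hx
  have e : Nat.card {a' : {x : G // D (x ^ n)} // ConjClasses.mk (a'.1 ^ n) = ConjClasses.mk (x ^ n)} =
      Nat.card {y : G // IsConj (y ^ n) (x ^ n)} := by
    refine Nat.card_congr ⟨fun y => ⟨y.1.1, ConjClasses.mk_eq_mk_iff_isConj.1 y.2⟩,
      fun y => ⟨⟨y.1, ?_⟩, ConjClasses.mk_eq_mk_iff_isConj.2 y.2⟩, fun _ => rfl, fun _ => rfl⟩
    obtain ⟨g, hg⟩ := isConj_iff.1 y.2.symm
    rw [← hg]
    exact hD g _ hx
  rw [e]
  exact h1

theorem card_isConj_center {n : ℕ} {c : G} (hc : c ∈ Subgroup.center G) :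
    Nat.card {x : G // IsConj (x ^ n) c} = b G c n := by
  refine Nat.card_congr (Equiv.subtypeEquivRight fun x => ?_)
  constructor
  · intro h
    obtain ⟨g, hg⟩ := isConj_iff.1 h.symm
    rw [← hg, Subgroup.mem_center_iff.1 hc g, mul_assoc, mul_inv_cancel, mul_one]
  · rintro rfl
    exact IsConj.refl _

/-- coprime factorization -/
theorem Q_mul {n₁ n₂ : ℕ} (hcop : Nat.Coprime n₁ n₂) (h1 : Q G n₁) (h2 : Q G n₂)
    (hH1 : ∀ H : Subgroup G, Nat.card H < Nat.card G → Q H n₁)
    (hH2 : ∀ H : Subgroup G, Nat.card H < Nat.card G → Q H n₂) : Q G (n₁ * n₂) := by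
  have key : ∀ n n' : ℕ, Q G n → (∀ H : Subgroup G, Nat.card H < Nat.card G → Q H n) → ∀ c ∈ Subgroup.center G,
      Nat.gcd n (Nat.card G) ∣ Nat.card {x : G // (x ^ n) ^ n' = c} := by
    intro n n' hn hH c hc
    refine dvd_union (fun d => d ^ n' = c) ?_ _ ?_
    · intro g d hd
      show (g * d * g⁻¹) ^ n' = c
      rw [conj_pow, hd, Subgroup.mem_center_iff.1 hc g, mul_assoc, mul_inv_cancel, mul_one]
    · intro d _
      by_cases hdc : d ∈ Subgroup.center G
      · rw [card_isConj_center hdc]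
        exact hn d hdc
      · exact dvd_class_solutions d hH hdc
  intro c hc
  have h3 := key n₁ n₂ h1 hH1 c hc
  have h4 := key n₂ n₁ h2 hH2 c hc
  have e1 : Nat.card {x : G // (x ^ n₁) ^ n₂ = c} = b G c (n₁ * n₂) := by
    unfold b; simp only [pow_mul]
  have e2 : Nat.card {x : G // (x ^ n₂) ^ n₁ = c} = b G c (n₁ * n₂) := by
    unfold b; simp only [← pow_mul, mul_comm n₂ n₁]
  rw [e1] at h3
  rw [e2] at h4
  rw [Nat.gcd_comm, Nat.Coprime.gcd_mul _ hcop, Nat.gcd_comm _ n₁, Nat.gcd_comm _ n₂]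
  refine Nat.Coprime.mul_dvd_of_dvd_of_dvd ?_ h3 h4
  exact Nat.Coprime.coprime_dvd_left (Nat.gcd_dvd_left _ _)
    (Nat.Coprime.coprime_dvd_right (Nat.gcd_dvd_left _ _) hcop)

theorem orderOf_of_pow_eq {p e : ℕ} (hp : p.Prime) {c x : G} (hpc : p ∣ orderOf c) (hx : x ^ (p ^ e) = c) :
    orderOf x = p ^ e * orderOf c := by
  have hn0 : 0 < p ^ e := pow_pos hp.pos _
  have h1 : orderOf (x ^ (p ^ e)) = orderOf c := by rw [hx]
  have h3 : orderOf x = orderOf c * Nat.gcd (orderOf x) (p ^ e) := by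
    rw [orderOf_pow' x hn0.ne'] at h1
    rw [← h1, Nat.div_mul_cancel (Nat.gcd_dvd_left _ _)]
  obtain ⟨j, hj, hjn⟩ := (Nat.dvd_prime_pow hp).1 (Nat.gcd_dvd_right (orderOf x) (p ^ e))
  have h4 : j = e := by
    by_contra hne
    have hje : j + 1 ≤ e := by omega
    have h5 : p ^ (j + 1) ∣ Nat.gcd (orderOf x) (p ^ e) := by
      refine Nat.dvd_gcd ?_ (pow_dvd_pow p hje)
      rw [h3, hjn, pow_succ, mul_comm]
      exact Nat.mul_dvd_mul hpc dvd_rfl
    rw [hjn] at h5
    have := (Nat.pow_dvd_pow_iff_le_right hp.one_lt).1 h5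
    omega
  rw [h3, hjn, h4, mul_comm]

/-- prime powers, `p` dividing the order of `c` -/
theorem dvd_of_dvd_order {p e : ℕ} (hp : p.Prime) {c : G} (hpc : p ∣ orderOf c) : p ^ e ∣ b G c (p ^ e) := by
  unfold b
  refine dvd_card_of_fibers (fun x => Subgroup.zpowers x.1) _ ?_
  rintro ⟨x, hx⟩
  have hn0 : 0 < p ^ e := pow_pos hp.pos _
  have hm0 : 0 < orderOf c := orderOf_pos c
  have hord := orderOf_of_pow_eq hp hpc hx
  have hxm : orderOf (x ^ orderOf c) = p ^ e := by
    rw [orderOf_pow_of_dvd hm0.ne' (by rw [hord]; exact Dvd.intro_left _ rfl), hord, Nat.mul_div_cancel _ hm0]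
  have e1 : Nat.card (Subgroup.zpowers (x ^ orderOf c)) = p ^ e := by rw [Nat.card_zpowers, hxm]
  have e2 : Nat.card (Subgroup.zpowers (x ^ orderOf c)) =
      Nat.card {y : {x : G // x ^ (p ^ e) = c} // Subgroup.zpowers y.1 = Subgroup.zpowers x} := by
    have hmul : ∀ z ∈ Subgroup.zpowers (x ^ orderOf c), (x * z) ^ (p ^ e) = c := by
      rintro z ⟨k, rfl⟩
      have hcomm : Commute x ((x ^ orderOf c) ^ k) := ((Commute.refl x).pow_right _).zpow_right k
      show (x * (x ^ orderOf c) ^ k) ^ (p ^ e) = c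
      rw [hcomm.mul_pow, hx, ← zpow_natCast, ← zpow_mul, mul_comm k, zpow_mul, zpow_natCast, ← hxm,
        pow_orderOf_eq_one, one_zpow, mul_one]
    refine Nat.card_congr (Equiv.ofBijective (fun z => ⟨⟨x * z.1, hmul z.1 z.2⟩, ?_⟩) ⟨?_, ?_⟩)
    · show Subgroup.zpowers (x * z.1) = Subgroup.zpowers x
      refine Subgroup.eq_of_le_of_card_ge ?_ ?_
      · rw [Subgroup.zpowers_le]
        refine Subgroup.mul_mem _ (Subgroup.mem_zpowers x) ?_
        exact (Subgroup.zpowers_le.2 (Subgroup.npow_mem_zpowers x _)) z.2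
      · rw [Nat.card_zpowers, Nat.card_zpowers, hord, orderOf_of_pow_eq hp hpc (hmul z.1 z.2)]
    · intro z z' hz
      have h1 : x * z.1 = x * z'.1 := congrArg (fun w => w.1.1) hz
      exact Subtype.ext (mul_left_cancel h1)
    · rintro ⟨⟨y, hy⟩, hyx⟩
      have hyx' : Subgroup.zpowers y = Subgroup.zpowers x := hyx
      have h1 : y ∈ Subgroup.zpowers x := by rw [← hyx']; exact Subgroup.mem_zpowers y
      obtain ⟨k, hk⟩ := h1
      have hk' : x ^ k = y := hk
      have h2 : x⁻¹ * y ∈ Subgroup.zpowers (x ^ orderOf c) := by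
        have h3 : (x ^ (k - 1)) ^ (p ^ e) = 1 := by
          rw [← zpow_natCast, ← zpow_mul, mul_comm, zpow_mul, zpow_natCast, hx]
          have h4 : c ^ (k - 1) = c ^ k * c⁻¹ := by rw [zpow_sub, zpow_one]
          have h5 : c ^ k = c := by
            conv_lhs => rw [← hx, ← zpow_natCast, ← zpow_mul, mul_comm, zpow_mul, zpow_natCast, hk', hy]
          rw [h4, h5, mul_inv_cancel]
        have h4 : ((orderOf x : ℕ) : ℤ) ∣ (k - 1) * ((p ^ e : ℕ) : ℤ) := by
          rw [orderOf_dvd_iff_zpow_eq_one, zpow_mul, zpow_natCast]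
          exact h3
        rw [hord, Nat.cast_mul, mul_comm] at h4
        have h5 : ((orderOf c : ℕ) : ℤ) ∣ k - 1 := by
          have h6 : (((p ^ e : ℕ) : ℤ)) ≠ 0 := by exact_mod_cast hn0.ne'
          exact Int.dvd_of_mul_dvd_mul_right h6 h4
        obtain ⟨l, hl⟩ := h5
        refine ⟨l, ?_⟩
        show (x ^ orderOf c) ^ l = x⁻¹ * y
        rw [← hk', ← zpow_natCast, ← zpow_mul, ← hl, zpow_sub, zpow_one]
        exact (((Commute.refl x).zpow_left k).inv_right).eq
      exact ⟨⟨x⁻¹ * y, h2⟩, Subtype.ext (Subtype.ext (by simp))⟩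
  exact dvd_of_eq (e1.symm.trans e2)

/-- the `p'`-part of the centre -/
def Zp (G : Type u) [Group G] [Finite G] (p : ℕ) : Subgroup G where
  carrier := {z | z ∈ Subgroup.center G ∧ (orderOf z).Coprime p}
  mul_mem' := by
    rintro x y ⟨hx, hx'⟩ ⟨hy, hy'⟩
    refine ⟨mul_mem hx hy, ?_⟩
    have hc : Commute x y := (Subgroup.mem_center_iff.1 hy x)
    have h1 := hc.orderOf_mul_dvd_mul_orderOf
    exact Nat.Coprime.coprime_dvd_left h1 (Nat.Coprime.mul_left hx' hy')
  one_mem' := ⟨one_mem _, by rw [orderOf_one]; exact Nat.coprime_one_left p⟩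
  inv_mem' := by
    rintro x ⟨hx, hx'⟩
    exact ⟨inv_mem hx, by rwa [orderOf_inv]⟩

theorem not_dvd_card_Zp {p : ℕ} (hp : p.Prime) : ¬ p ∣ Nat.card (Zp G p) := by
  intro hd
  have := Fact.mk hp
  obtain ⟨x, hx⟩ := exists_prime_orderOf_dvd_card' p hd
  have h1 := x.2.2
  rw [Subgroup.orderOf_coe, hx, Nat.coprime_self] at h1
  exact hp.one_lt.ne' h1

theorem exists_root {p f : ℕ} {c : G} (hc : c ∈ Zp G p) : ∃ z ∈ Zp G p, z ^ (p ^ f) = c := by
  obtain ⟨m, hm⟩ := exists_pow_eq_self_of_coprime (n := p ^ f) (x := c) (Nat.Coprime.pow_left f hc.2.symm)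
  exact ⟨c ^ m, Subgroup.pow_mem _ hc m, by rw [← pow_mul, mul_comm, pow_mul, hm]⟩

theorem b_eq_b_one {p f : ℕ} {c : G} (hc : c ∈ Zp G p) : b G c (p ^ f) = b G 1 (p ^ f) := by
  obtain ⟨z, hz, hzc⟩ := exists_root (f := f) hc
  have hcomm : ∀ x : G, Commute x z := fun x => Subgroup.mem_center_iff.1 hz.1 x
  refine Nat.card_congr ((Equiv.mulRight z⁻¹).subtypeEquiv ?_)
  intro x
  show x ^ (p ^ f) = c ↔ (x * z⁻¹) ^ (p ^ f) = 1
  rw [(hcomm x).inv_right.mul_pow, inv_pow, hzc, mul_inv_eq_one]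

theorem card_mem_Zp {p f : ℕ} (hp : p.Prime) :
    Nat.card {x : G // x ^ (p ^ f) ∈ Zp G p} = Nat.card (Zp G p) * b G 1 (p ^ f) := by
  unfold b
  rw [← Nat.card_prod]
  symm
  have hcomm : ∀ z : Zp G p, ∀ x : G, Commute (z : G) x := fun z x => (Subgroup.mem_center_iff.1 z.2.1 x).symm
  refine Nat.card_congr (Equiv.ofBijective (fun y => ⟨y.1.1 * y.2.1, ?_⟩) ⟨?_, ?_⟩)
  · rw [(hcomm y.1 y.2.1).mul_pow, y.2.2, mul_one]
    exact pow_mem y.1.2 _
  · rintro ⟨⟨z, hz⟩, ⟨x, hx⟩⟩ ⟨⟨z', hz'⟩, ⟨x', hx'⟩⟩ h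
    have h1 : z * x = z' * x' := congrArg Subtype.val h
    have h2 : z ^ (p ^ f) = z' ^ (p ^ f) := by
      have h3 : (z * x) ^ (p ^ f) = (z' * x') ^ (p ^ f) := by rw [h1]
      rwa [(hcomm ⟨z, hz⟩ x).mul_pow, (hcomm ⟨z', hz'⟩ x').mul_pow, hx, hx', mul_one, mul_one] at h3
    have h3 : z = z' := by
      have h4 : (z * z'⁻¹) ^ (p ^ f) = 1 := by
        rw [(hcomm ⟨z, hz⟩ z'⁻¹).mul_pow, inv_pow, h2, mul_inv_cancel]
      have h5 : z * z'⁻¹ ∈ Zp G p := mul_mem hz (inv_mem hz')
      have h6 : orderOf (z * z'⁻¹) = 1 := by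
        have h7 := orderOf_dvd_of_pow_eq_one h4
        exact Nat.eq_one_of_dvd_coprimes (Nat.Coprime.pow_right f h5.2) dvd_rfl h7
      rw [orderOf_eq_one_iff] at h6
      exact mul_inv_eq_one.1 h6
    subst h3
    have h4 := mul_left_cancel h1
    subst h4
    rfl
  · rintro ⟨y, hy⟩
    obtain ⟨z, hz, hzy⟩ := exists_root (f := f) hy
    refine ⟨⟨⟨z, hz⟩, ⟨z⁻¹ * y, ?_⟩⟩, Subtype.ext (by simp)⟩
    have h1 : Commute z⁻¹ y := (hcomm ⟨z, hz⟩ y).inv_left
    rw [h1.mul_pow, inv_pow, hzy, inv_mul_cancel]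

theorem Q_prime_pow_aux {p f : ℕ} (hp : p.Prime) (hH : ∀ H : Subgroup G, Nat.card H < Nat.card G → Q H (p ^ f))
    (hf : p ^ f ∣ Nat.card G) : p ^ f ∣ b G 1 (p ^ f) := by
  have h1 : p ^ f ∣ Nat.card {x : G // ¬ x ^ (p ^ f) ∈ Zp G p} := by
    refine dvd_union (fun c => ¬ c ∈ Zp G p) ?_ _ ?_
    · intro g d hd hd'
      apply hd
      have h2 : g * d * g⁻¹ ∈ Zp G p := hd'
      have h3 : d = g * d * g⁻¹ := by
        have h4 := Subgroup.mem_center_iff.1 h2.1 g
        have h5 : g * d * g⁻¹ * g = g * d := by group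
        rw [h5] at h4
        exact (mul_left_cancel h4).symm
      rw [h3]; exact h2
    · intro c hc
      by_cases hcc : c ∈ Subgroup.center G
      · rw [card_isConj_center hcc]
        refine dvd_of_dvd_order hp ?_
        by_contra hcon
        exact hc ⟨hcc, (Nat.coprime_comm.1 ((Nat.Prime.coprime_iff_not_dvd hp).2 hcon))⟩
      · have h2 := dvd_class_solutions c hH hcc
        rwa [Nat.gcd_eq_left hf] at h2
  have h2 : Nat.card {x : G // x ^ (p ^ f) ∈ Zp G p} + Nat.card {x : G // ¬ x ^ (p ^ f) ∈ Zp G p} = Nat.card G := by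
    classical
    rw [← Nat.card_sum]
    exact Nat.card_congr (Equiv.sumCompl _)
  have h3 : p ^ f ∣ Nat.card {x : G // x ^ (p ^ f) ∈ Zp G p} := by
    rw [← h2] at hf
    exact (Nat.dvd_add_left h1).1 hf
  rw [card_mem_Zp hp] at h3
  refine Nat.Coprime.dvd_of_dvd_mul_left ?_ h3
  exact Nat.Coprime.pow_left f ((Nat.Prime.coprime_iff_not_dvd hp).2 (not_dvd_card_Zp hp))

theorem Q_prime_pow {p e : ℕ} (hp : p.Prime)
    (hH : ∀ (H : Subgroup G) (f : ℕ), Nat.card H < Nat.card G → Q H (p ^ f)) : Q G (p ^ e) := by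
  intro c hc
  by_cases hpc : p ∣ orderOf c
  · exact (Nat.gcd_dvd_left _ _).trans (dvd_of_dvd_order hp hpc)
  · have hc' : c ∈ Zp G p := ⟨hc, Nat.coprime_comm.1 ((Nat.Prime.coprime_iff_not_dvd hp).2 hpc)⟩
    rw [b_eq_b_one hc']
    obtain ⟨f, hf, hfe⟩ := (Nat.dvd_prime_pow hp).1 (Nat.gcd_dvd_left (p ^ e) (Nat.card G))
    rw [hfe]
    have h1 : b G 1 (p ^ e) = b G 1 (p ^ f) := by
      refine Nat.card_congr (Equiv.subtypeEquivRight fun x => ?_)
      constructor
      · intro hx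
        rw [← hfe]
        exact pow_gcd_eq_one.2 ⟨hx, pow_card_eq_one'⟩
      · intro hx
        obtain ⟨k, hk⟩ := pow_dvd_pow p hf
        rw [hk, pow_mul, hx, one_pow]
    rw [h1]
    refine Q_prime_pow_aux hp (fun H hlt => hH H f hlt) ?_
    rw [← hfe]; exact Nat.gcd_dvd_right _ _

end

/-- Frobenius' theorem in the form used by the induction -/
theorem Q_all : ∀ (g : ℕ) (G : Type u) [Group G] [Finite G], Nat.card G = g → ∀ n : ℕ, 0 < n → Q G n := by
  intro g
  induction g using Nat.strong_induction_on with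
  | _ g ih =>
    intro G _ _ hg n
    induction n using Nat.recOnPosPrimePosCoprime with
    | zero => intro h; exact absurd h (lt_irrefl _)
    | one => intro _ c _; simp
    | prime_pow p k hp hk =>
      intro _
      refine Q_prime_pow hp ?_
      intro H f hlt
      exact ih _ (by rw [← hg]; exact hlt) H rfl _ (pow_pos hp.pos _)
    | coprime a b ha hb hab iha ihb =>
      intro _
      refine Q_mul hab (iha (by omega)) (ihb (by omega)) ?_ ?_
      · intro H hlt
        exact ih _ (by rw [← hg]; exact hlt) H rfl _ (by omega)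
      · intro H hlt
        exact ih _ (by rw [← hg]; exact hlt) H rfl _ (by omega)

/-- Frobenius' theorem -/
theorem frobenius {G : Type u} [Group G] [Finite G] (m : ℕ) (hm : m ∣ Nat.card G) :
    m ∣ Nat.card {g : G // g ^ m = 1} := by
  have hm0 : 0 < m := Nat.pos_of_dvd_of_pos hm Nat.card_pos
  have h := Q_all _ G rfl m hm0 1 (one_mem _)
  rwa [Nat.gcd_eq_left hm] at h

end Cfsg.Agent.Lib.FrobDiv
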