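import Cfsg.Agent.Lib.FrobDiv

set_option autoImplicit false

/-!
Weisner's theorem: the number of elements of order divisible by `n` is divisible by the part of `|G|` prime to `n`.
-/

namespace Cfsg.Agent.Lib.FrobDiv2

open Cfsg.Agent.Lib.FrobDiv

universe u v w

variable {G : Type u} [Group G] [Finite G]

theorem solutions_divisor (H : Type u) [Group H] [Finite H] {M : ℕ} (hM : 0 < M) :
    Nat.gcd M (Nat.card H) ∣ Nat.card {x : H // x ^ M = 1} :=
  Q_all _ H rfl M hM 1 (one_mem _)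

/-- `N M = |G|`, `a ≡ 1 (N)`, `a ≡ 0 (M)` -/
theorem fiber_dvd {N M a : ℕ} (hNM : N * M = Nat.card G) (ha1 : N ∣ a - 1) (ha : 1 ≤ a) (ha0 : M ∣ a) (g₀ : G) :
    M ∣ Nat.card {x : G // IsConj (x ^ a) (g₀ ^ a)} := by
  rw [card_class_solutions]
  set c := g₀ ^ a with hc
  set C := Subgroup.centralizer ({c} : Set G) with hC
  have hpos : 0 < Nat.card G := Nat.card_pos
  have hM : 0 < M := Nat.pos_of_ne_zero (by rintro rfl; simp at hNM; omega)
  have hdiv : Nat.card G ∣ a * (a - 1) := by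
    rw [← hNM, mul_comm a]; exact Nat.mul_dvd_mul ha1 ha0
  have hdiv2 : Nat.card G ∣ M * (a - 1) := by
    rw [← hNM, mul_comm M]; exact Nat.mul_dvd_mul ha1 dvd_rfl
  have hpow : ∀ (x : G) (k : ℕ), Nat.card G ∣ k → x ^ k = 1 := by
    rintro x k ⟨l, rfl⟩
    rw [pow_mul, pow_card_eq_one', one_pow]
  have hca : c ^ a = c := by
    have h1 : c ^ (a - 1) = 1 := by
      rw [hc, ← pow_mul]; exact hpow _ _ hdiv
    have h2 : a = (a - 1) + 1 := by omega
    conv_lhs => rw [h2, pow_succ, h1, one_mul]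
  have hcC : c ∈ C := Subgroup.mem_centralizer_singleton_iff.2 rfl
  have e : Nat.card {x : C // x ^ a = (⟨c, hcC⟩ : C)} = Nat.card {x : C // x ^ M = 1} := by
    refine Nat.card_congr ((Equiv.mulLeft (⟨c, hcC⟩ : C)⁻¹).subtypeEquiv ?_)
    intro x
    have hcomm : Commute (⟨c, hcC⟩ : C) x :=
      Subtype.ext (Subgroup.mem_centralizer_singleton_iff.1 x.2).symm
    show x ^ a = _ ↔ ((⟨c, hcC⟩ : C)⁻¹ * x) ^ M = 1
    rw [hcomm.inv_left.mul_pow]
    constructor
    · intro hx
      have h1 : (⟨c, hcC⟩ : C)⁻¹ ^ M = (x ^ M)⁻¹ := by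
        rw [← hx, inv_pow, ← pow_mul]
        congr 1
        have h2 : a * M = M * (a - 1) + M := by
          have : a = (a - 1) + 1 := by omega
          conv_lhs => rw [this]
          ring
        rw [h2, pow_add]
        have h3 : x ^ (M * (a - 1)) = 1 := Subtype.ext (by
          rw [Subgroup.coe_pow]; exact hpow _ _ hdiv2)
        rw [h3, one_mul]
      rw [h1, inv_mul_cancel]
    · intro hx
      have h1 : x ^ M = (⟨c, hcC⟩ : C) ^ M := by
        rw [inv_pow] at hx
        exact (inv_mul_eq_one.1 hx).symm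
      obtain ⟨l, hl⟩ := ha0
      rw [hl, pow_mul, h1, ← pow_mul, ← hl]
      exact Subtype.ext (by rw [Subgroup.coe_pow]; exact hca)
  rw [e]
  have h1 := solutions_divisor C hM
  have h2 := C.card_mul_index
  have h3 : M ∣ C.index * Nat.gcd M (Nat.card C) := by
    rw [← Nat.gcd_mul_left]
    refine Nat.dvd_gcd (Dvd.intro_left _ rfl) ?_
    rw [mul_comm, h2, ← hNM]
    exact Dvd.intro_left _ rfl
  exact h3.trans (Nat.mul_dvd_mul_left _ h1)

theorem weisner (n : ℕ) (hn : 0 < n) :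
    (Nat.card G / Nat.gcd (Nat.card G) (n ^ Nat.card G)) ∣ Nat.card {g : G // n ∣ orderOf g} := by
  classical
  set N := Nat.gcd (Nat.card G) (n ^ Nat.card G) with hN
  have hpos : 0 < Nat.card G := Nat.card_pos
  have hN0 : 0 < N := Nat.gcd_pos_of_pos_left _ hpos
  obtain ⟨M, hM⟩ : N ∣ Nat.card G := Nat.gcd_dvd_left _ _
  have hdiv : Nat.card G / N = M := by rw [hM, Nat.mul_div_cancel_left _ hN0]
  rw [hdiv]
  have hM0 : 0 < M := Nat.pos_of_ne_zero (by rintro rfl; simp at hM; omega)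
  -- `M` is prime to `n`
  have hMn : Nat.Coprime M n := by
    rw [Nat.coprime_iff_gcd_eq_one]
    by_contra hne
    obtain ⟨p, hp, hpd⟩ := Nat.exists_prime_and_dvd hne
    have hpM : p ∣ M := hpd.trans (Nat.gcd_dvd_left _ _)
    have hpn : p ∣ n := hpd.trans (Nat.gcd_dvd_right _ _)
    -- `p ^ (v_p |G|) ∣ N`, so `p ∤ M`
    have h1 : p ^ (Nat.card G).factorization p ∣ N := by
      refine Nat.dvd_gcd (Nat.ordProj_dvd _ _) ?_
      have h2 : (Nat.card G).factorization p ≤ Nat.card G := by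
        have := Nat.factorization_lt p hpos.ne'
        omega
      exact (pow_dvd_pow p h2).trans (pow_dvd_pow_of_dvd hpn _)
    have h2 : p ^ ((Nat.card G).factorization p + 1) ∣ Nat.card G := by
      rw [pow_succ]
      conv_rhs => rw [hM]
      exact Nat.mul_dvd_mul h1 hpM
    have := (hp.pow_dvd_iff_le_factorization hpos.ne').1 h2
    omega
  -- primes of `N` divide `n`
  have hNM : Nat.Coprime N M := by
    have h1 : Nat.Coprime (n ^ Nat.card G) M := Nat.Coprime.pow_left _ hMn.symm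
    exact Nat.Coprime.coprime_dvd_left (Nat.gcd_dvd_right _ _) h1
  obtain ⟨a, ha1, ha0⟩ := Nat.chineseRemainder hNM 1 0
  have ha0' : M ∣ a := (Nat.modEq_zero_iff_dvd).1 ha0
  -- make `a ≥ 1`
  obtain ⟨a', h1, h2, h3⟩ : ∃ a', 1 ≤ a' ∧ N ∣ a' - 1 ∧ M ∣ a' := by
    refine ⟨a + N * M, ?_, ?_, ?_⟩
    · have : 0 < N * M := Nat.mul_pos hN0 hM0
      omega
    · have h4 : 1 ≡ a + N * M [MOD N] := by
        have h5 : a + N * M ≡ 1 + 0 [MOD N] :=
          Nat.ModEq.add ha1 ((Nat.modEq_zero_iff_dvd).2 (Dvd.intro _ rfl))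
        exact h5.symm
      have h6 : 0 < N * M := Nat.mul_pos hN0 hM0
      exact (Nat.modEq_iff_dvd' (by omega)).1 h4
    · exact (Nat.dvd_add_right ha0').2 (Dvd.intro_left _ rfl)
  -- `n ∣ orderOf g ↔ n ∣ orderOf (g ^ a')`
  have key : ∀ g : G, n ∣ orderOf g ↔ n ∣ orderOf (g ^ a') := by
    intro g
    constructor
    · intro h
      have h4 : orderOf g ∣ orderOf (g ^ a') * M := by
        rw [orderOf_dvd_iff_pow_eq_one]
        have h5 : (g ^ M) = (g ^ M) ^ a' := by
          have h6 : (g ^ M) ^ (a' - 1) = 1 := by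
            obtain ⟨l, hl⟩ := h2
            rw [hl, ← pow_mul, ← mul_assoc, mul_comm M N, ← hM, pow_mul, pow_card_eq_one', one_pow]
          conv_rhs => rw [show a' = (a' - 1) + 1 by omega, pow_succ, h6, one_mul]
        have h7 : g ^ (orderOf (g ^ a') * M) = ((g ^ a') ^ orderOf (g ^ a')) ^ M := by
          have h8 : g ^ (orderOf (g ^ a') * M) = (g ^ M) ^ orderOf (g ^ a') := by
            rw [← pow_mul, mul_comm]
          rw [h8, h5]
          simp only [← pow_mul]
          congr 1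
          ring
        rw [h7, pow_orderOf_eq_one, one_pow]
      exact hMn.symm.dvd_of_dvd_mul_right (h.trans h4)
    · intro h
      exact h.trans (orderOf_pow_dvd a')
  refine dvd_card_of_fibers (fun g => ConjClasses.mk (g.1 ^ a')) M ?_
  rintro ⟨g, hg⟩
  have h4 := fiber_dvd hM.symm h2 h1 h3 g
  have e : Nat.card {x : {g : G // n ∣ orderOf g} // ConjClasses.mk (x.1 ^ a') = ConjClasses.mk (g ^ a')} =
      Nat.card {x : G // IsConj (x ^ a') (g ^ a')} := by
    refine Nat.card_congr ⟨fun y => ⟨y.1.1, ConjClasses.mk_eq_mk_iff_isConj.1 y.2⟩,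
      fun y => ⟨⟨y.1, ?_⟩, ConjClasses.mk_eq_mk_iff_isConj.2 y.2⟩, fun _ => rfl, fun _ => rfl⟩
    rw [key]
    obtain ⟨x, hx⟩ := y
    obtain ⟨h, hh⟩ := isConj_iff.1 hx
    have h5 : orderOf (x ^ a') = orderOf (g ^ a') := by
      rw [← hh, ← MulAut.conj_apply, MulEquiv.orderOf_eq]
    show n ∣ orderOf (x ^ a')
    rw [h5, ← key]
    exact hg
  rw [e]
  exact h4

end Cfsg.Agent.Lib.FrobDiv2
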