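import Cfsg.Agent.Lib.FrobExist

/-!
# Existence of Frobenius groups with prescribed complement and kernel
-/

set_option autoImplicit false
open Cfsg

namespace Cfsg.Agent.Lib.FrobExistCard

open FrobAction FrobExist

/-- The semidirect product of a fixed-point-free action is a Frobenius group; the order of its kernel is `|V|`. -/
theorem of_action_card {A V : Type} [Group A] [Group V] [Finite A] [Finite V]
    [Nontrivial A] [Nontrivial V] (act : A →* MulAut V)
    (hf : ∀ a : A, a ≠ 1 → ∀ v : V, act a v = v → v = 1) :
    ∃ (L : Type) (_ : Group L) (_ : Finite L) (H : Subgroup L), IsFrobeniusComplement H ∧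
      Nonempty (A ≃* H) ∧ Nat.card (frobeniusKernel H) = Nat.card V := by
  let L := SemidirectProduct V A act
  have hfin : Finite L := Finite.of_equiv (V × A) SemidirectProduct.equivProd.symm
  let H : Subgroup L := (SemidirectProduct.inr : A →* L).range
  have hHF : IsFrobeniusComplement H := by
    rw [FrobBasic.isFrobeniusComplement_iff]
    refine ⟨?_, ?_, ?_⟩
    · intro h
      obtain ⟨a, ha⟩ := exists_ne (1 : A)
      have : (SemidirectProduct.inr a : L) ∈ H := ⟨a, rfl⟩
      rw [h, Subgroup.mem_bot] at this
      apply ha
      exact SemidirectProduct.inr_injective (this.trans (map_one _).symm)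
    · intro h
      obtain ⟨v, hv⟩ := exists_ne (1 : V)
      have : (SemidirectProduct.inl v : L) ∈ H := by rw [h]; trivial
      obtain ⟨a, ha⟩ := this
      apply hv
      have := congrArg SemidirectProduct.left ha
      simpa using this.symm
    · rintro g hg _ ⟨a, rfl⟩ ⟨b, hb⟩
      by_contra ha
      have ha1 : a ≠ 1 := by
        rintro rfl; exact ha (map_one _)
      -- inr a * g = g * inr b
      have h1 : (SemidirectProduct.inr a : L) * g = g * SemidirectProduct.inr b := by
        rw [hb]; group
      have hl := congrArg SemidirectProduct.left h1
      have hl' : act a g.left = g.left := by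
        rw [SemidirectProduct.mul_left, SemidirectProduct.mul_left, SemidirectProduct.left_inr,
          SemidirectProduct.left_inr, SemidirectProduct.right_inr, one_mul, map_one, mul_one] at hl
        exact hl
      have := hf a ha1 _ hl'
      apply hg
      refine ⟨g.right, ?_⟩
      ext
      · simp [this]
      · simp
  have e : A ≃* H := MonoidHom.ofInjective SemidirectProduct.inr_injective
  refine ⟨L, inferInstance, hfin, H, hHF, ⟨e⟩, ?_⟩
  rw [FrobGroup.card_kernel hHF]
  have h1 := H.index_mul_card
  have h2 : Nat.card L = Nat.card V * Nat.card A := SemidirectProduct.card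
  rw [h2, ← Nat.card_congr e.toEquiv] at h1
  exact Nat.eq_of_mul_eq_mul_right Nat.card_pos h1

end Cfsg.Agent.Lib.FrobExistCard
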