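import Cfsg.Agent.Lib.FrobFinal
import Cfsg.Agent.Lib.AutAlt

/-!
# Non-solvable Frobenius complements: the quotient by the centralizer of the elements of order three
-/

set_option autoImplicit false
set_option linter.unusedSimpArgs false
open Cfsg Subgroup

namespace Cfsg.Agent.Lib.FrobList

open FrobExist FrobAction FrobAction3 ZasGroup FrobSolv ZasQuat FrobStruct

/-- homomorphisms to a symmetric group with image of index at most two -/
theorem perm_cases {G : Type*} [Group G] {n : ℕ} (f : G →* Equiv.Perm (Fin n))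
    (h : f.range.index = 1 ∨ f.range.index = 2) :
    (∃ g : G →* alternatingGroup (Fin n), Function.Surjective g ∧ g.ker = f.ker) ∨
      (∃ g : G →* Equiv.Perm (Fin n), Function.Surjective g ∧ g.ker = f.ker) := by
  rcases h with h | h
  · right
    exact ⟨f, MonoidHom.range_eq_top.1 (index_eq_one.1 h), rfl⟩
  · left
    have h1 := Equiv.Perm.eq_alternatingGroup_of_index_eq_two h
    refine ⟨f.codRestrict (alternatingGroup (Fin n)) (fun x => ?_), ?_, ?_⟩
    · rw [← h1]; exact ⟨x, rfl⟩
    · rintro ⟨y, hy⟩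
      rw [← h1] at hy
      obtain ⟨x, hx⟩ := hy
      exact ⟨x, Subtype.ext hx⟩
    · ext x
      rw [MonoidHom.mem_ker, MonoidHom.mem_ker]
      exact Subtype.ext_iff

/-- 2-elements and the order of the centre -/
theorem card_inf {G : Type*} [Group G] (h : Occurs G) (hns : ¬ Group.IsSolvable G) :
    Nat.card (N3 G ⊓ K0 G : Subgroup G) = 2 ∧ (∀ P : Sylow 2 (K0 G), IsCyclic P) := by
  have hfin := h.finite
  obtain ⟨V, _, _, _, act, hf⟩ := to_action h
  obtain ⟨S, _, _, ρ, hZ⟩ := FrobZas.exists_zcfg h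
  have hex : ∃ a c : G, orderOf a = 3 ∧ orderOf c = 3 ∧ tt ρ a c * tt ρ a c = 5 := by
    by_contra hcon
    push Not at hcon
    exact hns (solvable_of_no_pair hf hZ hcon)
  obtain ⟨a, c, ha, hc, hac⟩ := hex
  obtain ⟨r5, -, -⟩ := hZ.rel5 ha hc hac
  have hzN : (a * c) ^ 5 ∈ N3 G := pow_mem (mul_mem (mem_N3 ha) (mem_N3 hc)) 5
  generalize (a * c) ^ 5 = z at *
  have hzc : ∀ g : G, g * z = z * g := hZ.central r5
  have hzK : z ∈ K0 G := by
    rw [mem_K0]; intro e _; exact (hzc e).symm
  have hz1 : z ≠ 1 := hZ.sq_ne r5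
  have htwo : ∀ t ∈ K0 G, ∀ k : ℕ, orderOf t = 2 ^ k → t = 1 ∨ t = z := fun t ht k hk =>
    two_element hZ ha hc hac r5 ht hk
  constructor
  · obtain ⟨-, -, -, M, -, -, -, hinf, -, -, hM⟩ := FrobFinal.structure_thm h hns
    have hall : ∀ t ∈ (N3 G ⊓ K0 G : Subgroup G), t = 1 ∨ t = z := by
      intro t ht
      obtain ⟨k, m, hm, hk⟩ := Nat.exists_eq_two_pow_mul_odd (orderOf_pos t).ne'
      have h1 : t ^ (2 ^ k) = 1 := by
        have h2 : t ^ (2 ^ k) ∈ (N3 G ⊓ M : Subgroup G) := by
          refine ⟨pow_mem ht.1 _, hM _ (pow_mem ht.2 _) ?_⟩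
          rw [orderOf_pow_of_dvd (by positivity) (by rw [hk]; exact Dvd.intro _ rfl), hk,
            Nat.mul_div_cancel_left _ (by positivity)]
          exact fun h => (Nat.not_even_iff_odd.2 hm) (even_iff_two_dvd.2 h)
        rwa [hinf, mem_bot] at h2
      obtain ⟨j, -, hj⟩ := (Nat.dvd_prime_pow Nat.prime_two).1 (orderOf_dvd_of_pow_eq_one h1)
      exact htwo t ht.2 j hj
    have hset : ((N3 G ⊓ K0 G : Subgroup G) : Set G) = {1, z} := by
      ext t
      constructor
      · intro ht; exact hall t ht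
      · rintro (rfl | rfl)
        · exact one_mem _
        · exact ⟨hzN, hzK⟩
    have : Nat.card (N3 G ⊓ K0 G : Subgroup G) = ((N3 G ⊓ K0 G : Subgroup G) : Set G).ncard := rfl
    rw [this, hset, Set.ncard_pair hz1.symm]
  · intro P
    have hP : ∀ t ∈ P, (t : G) = 1 ∨ (t : G) = z := by
      intro t ht
      obtain ⟨k, hk⟩ := (IsPGroup.iff_orderOf.mp P.2) ⟨t, ht⟩
      have hk' : orderOf t = 2 ^ k := by rw [← hk]; exact Subgroup.orderOf_coe (⟨t, ht⟩ : P)
      exact htwo t t.2 k (by rw [← hk']; exact Subgroup.orderOf_coe t)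
    have hle : Nat.card P ≤ 2 := by
      have hinj : Function.Injective (fun t : P => ((t : K0 G) : G)) :=
        (K0 G).subtype_injective.comp (Subgroup.subtype_injective _)
      have h1 : ((fun t : P => ((t : K0 G) : G)) '' Set.univ) ⊆ {1, z} := by
        rintro _ ⟨t, -, rfl⟩
        exact hP t t.2
      have h2 := Set.ncard_le_ncard h1 (Set.toFinite _)
      rw [Set.ncard_image_of_injective _ hinj, Set.ncard_univ, Set.ncard_pair hz1.symm] at h2
      exact h2
    have hpos := Nat.card_pos (α := P)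
    have hdvd : Nat.card P ∣ 2 := by
      have : Nat.card P = 1 ∨ Nat.card P = 2 := by omega
      rcases this with h1 | h1 <;> rw [h1] <;> norm_num
    have : Fact (Nat.Prime 2) := ⟨Nat.prime_two⟩
    exact isCyclic_of_card_dvd_prime hdvd

/-- odd Sylow subgroups are cyclic -/
theorem zgroup_of_sylow_two {G : Type*} [Group G] (h : Occurs G) (N : Subgroup G)
    (h2 : ∀ P : Sylow 2 N, IsCyclic P) : IsZGroup N := by
  have hfin := h.finite
  obtain ⟨V, _, _, _, act, hf⟩ := to_action h
  refine ⟨fun p hp P => ?_⟩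
  have := Fact.mk hp
  by_cases hp2 : p = 2
  · subst hp2; exact h2 P
  · rcases pgroup_cyclic_or_quaternion (hf.comp (N.subtype.comp (P : Subgroup N).subtype)
      (N.subtype_injective.comp (Subgroup.subtype_injective _))) P.2 with h | ⟨h, -⟩
    · exact h
    · exact absurd h hp2

/-- a homomorphism to `S₅` with kernel `K0` -/
theorem exists_hom {G : Type*} [Group G] (h : Occurs G) (hns : ¬ Group.IsSolvable G) :
    ∃ f : G →* Equiv.Perm (Fin 5), f.ker = K0 G ∧ (f.range.index = 1 ∨ f.range.index = 2) := by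
  have hfin := h.finite
  obtain ⟨⟨e⟩, hc120, hidx, M, hMn, hMK, hsup, hinf, hZ, h30, hM⟩ := FrobFinal.structure_thm h hns
  obtain ⟨hc2, -⟩ := card_inf h hns
  have hKn : (K0 G).Normal := ⟨fun k hk g => conj_mem_K0 hk g⟩
  let N := (N3 G).map (QuotientGroup.mk' (K0 G))
  have hNn : N.Normal := Subgroup.Normal.map inferInstance _ (QuotientGroup.mk'_surjective _)
  -- the order of `N`
  have hker : (((QuotientGroup.mk' (K0 G)).comp (N3 G).subtype).ker) = (K0 G).subgroupOf (N3 G) := by
    ext x
    rw [MonoidHom.mem_ker, mem_subgroupOf, MonoidHom.comp_apply]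
    exact QuotientGroup.eq_one_iff _
  have hrange : ((QuotientGroup.mk' (K0 G)).comp (N3 G).subtype).range = N := by
    rw [MonoidHom.range_comp, range_subtype]
  have hcN : Nat.card N = 60 := by
    have h1 := Subgroup.index_ker ((QuotientGroup.mk' (K0 G)).comp (N3 G).subtype)
    rw [hker, hrange] at h1
    have h2 := ((K0 G).subgroupOf (N3 G)).card_mul_index
    have h3 : Nat.card ((K0 G).subgroupOf (N3 G)) = 2 := by
      rw [← hc2]
      have e1 := Nat.card_congr (((K0 G).subgroupOf (N3 G)).equivMapOfInjective _ (N3 G).subtype_injective).toEquiv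
      rw [Subgroup.subgroupOf_map_subtype, inf_comm] at e1
      exact e1
    rw [h3, hc120, h1] at h2
    omega
  have hrel : (K0 G).relIndex (N3 G) = 60 := by
    have h1 := Subgroup.index_ker ((QuotientGroup.mk' (K0 G)).comp (N3 G).subtype)
    rw [hker, hrange, hcN] at h1
    exact h1
  have hidxK : (K0 G).index = 60 ∨ (K0 G).index = 120 := by
    have h1 := Subgroup.relIndex_mul_index (le_sup_right : K0 G ≤ N3 G ⊔ K0 G)
    rw [Subgroup.relIndex_sup_right, hrel] at h1
    rcases hidx with h2 | h2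
    · left; rw [← h1, h2]
    · right; rw [← h1, h2]
  have hNs : ¬ Group.IsSolvable N := by
    intro hN
    apply hns
    have hKZ := zgroup_of_sylow_two h (K0 G) (card_inf h hns).2
    have s1 : Group.IsSolvable (K0 G) := inferInstance
    have s2 : Group.IsSolvable (G ⧸ K0 G) := by
      have hidxN : N.index = 1 ∨ N.index = 2 := by
        have h2 := N.card_mul_index
        rw [hcN] at h2
        change 60 * N.index = (K0 G).index at h2
        omega
      have s3 : Group.IsSolvable ((G ⧸ K0 G) ⧸ N) := by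
        have : Fact (Nat.Prime 2) := ⟨Nat.prime_two⟩
        have hcyc : IsCyclic ((G ⧸ K0 G) ⧸ N) := by
          apply isCyclic_of_card_dvd_prime (p := 2)
          change N.index ∣ 2
          rcases hidxN with h | h <;> rw [h] <;> norm_num
        exact Group.isSolvable_of_comm (fun a b => hcyc.commGroup.mul_comm a b)
      exact Group.isSolvable_of_ker_le_range N.subtype (QuotientGroup.mk' N) (by simp)
    exact Group.isSolvable_of_ker_le_range (K0 G).subtype (QuotientGroup.mk' (K0 G)) (by simp)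
  have hsimple := SL25.isSimpleGroup_of_card_sixty hcN hNs
  obtain ⟨e5⟩ := ClSmall.equiv_alternating_five hcN
  have hbij := AutAlt.bijective_conjNormal (α := Fin 5) (by simp) (by simp)
  let eP : Equiv.Perm (Fin 5) ≃* MulAut (alternatingGroup (Fin 5)) := MulEquiv.ofBijective _ hbij
  let f : G →* Equiv.Perm (Fin 5) :=
    (eP.symm.toMonoidHom.comp ((MulAut.congr e5).toMonoidHom.comp (MulAut.conjNormal (H := N)))).comp
      (QuotientGroup.mk' (K0 G))
  have hfker : f.ker = K0 G := by
    ext g
    have h1 : g ∈ f.ker ↔ MulAut.conjNormal (H := N) (g : G ⧸ K0 G) = 1 := by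
      rw [MonoidHom.mem_ker]
      change eP.symm (MulAut.congr e5 (MulAut.conjNormal (H := N) (g : G ⧸ K0 G))) = 1 ↔ _
      rw [MulEquiv.map_eq_one_iff, MulEquiv.map_eq_one_iff]
    rw [h1]
    constructor
    · intro h2
      rw [mem_K0]
      intro x hx
      have hxN : (x : G ⧸ K0 G) ∈ N := ⟨x, mem_N3 hx, rfl⟩
      have h3 : (g : G ⧸ K0 G) * x * (g : G ⧸ K0 G)⁻¹ = x := by
        have := congrArg (fun φ : MulAut N => ((φ ⟨x, hxN⟩ : N) : G ⧸ K0 G)) h2
        simpa [MulAut.conjNormal_apply] using this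
      have h4 : g * x * g⁻¹ * x⁻¹ ∈ (N3 G ⊓ K0 G : Subgroup G) := by
        rw [mem_inf]
        constructor
        · exact mul_mem (mem_N3 (order_conj hx g)) (inv_mem (mem_N3 hx))
        · rw [← QuotientGroup.eq_one_iff, QuotientGroup.mk_mul, QuotientGroup.mk_mul, QuotientGroup.mk_mul,
            QuotientGroup.mk_inv, QuotientGroup.mk_inv, h3, mul_inv_cancel]
      have h5 : (g * x * g⁻¹ * x⁻¹) ^ 2 = 1 := by
        have := pow_card_eq_one' (x := (⟨_, h4⟩ : (N3 G ⊓ K0 G : Subgroup G)))
        rw [hc2] at this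
        exact congrArg Subtype.val this
      have h6 := mem_K0.1 h4.2 x hx
      have h7 : g * x * g⁻¹ = (g * x * g⁻¹ * x⁻¹) * x := by group
      have h8 : (g * x * g⁻¹) ^ 3 = 1 := by
        rw [← order_conj hx g]; exact pow_orderOf_eq_one _
      have hx3 : x ^ 3 = 1 := by rw [← hx]; exact pow_orderOf_eq_one _
      rw [h7, (show Commute _ _ from h6).mul_pow, hx3, mul_one, pow_succ, h5, one_mul] at h8
      exact mul_inv_eq_iff_eq_mul.1 (mul_inv_eq_one.1 h8)
    · intro hg
      rw [(QuotientGroup.eq_one_iff g).2 hg, map_one]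
  refine ⟨f, hfker, ?_⟩
  have h1 := f.range.card_mul_index
  rw [← Subgroup.index_ker, hfker, Nat.card_perm, Nat.card_fin] at h1
  have h2 : Nat.factorial 5 = 120 := rfl
  rw [h2] at h1
  rcases hidxK with h3 | h3
  · right; rw [h3] at h1; omega
  · left; rw [h3] at h1; omega

end Cfsg.Agent.Lib.FrobList
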