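import Cfsg.Agent.Lib.FrobList1
import Cfsg.Agent.Lib.H55Oct
import Cfsg.Agent.S3742

/-!
# Solvable Frobenius complements: normal Z-subgroups with quotient in a short list
-/

set_option autoImplicit false
set_option linter.unusedSimpArgs false
open Cfsg Subgroup

namespace Cfsg.Agent.Lib.FrobList

open FrobExist FrobAction FrobAction3 ZasGroup FrobSolv ZasQuat FrobStruct

theorem zgroup_of_map {G : Type*} [Group G] (h : Occurs G) (N : Subgroup G) {Q : Type*} [Group Q] (φ : G →* Q)
    (hker : ¬ 2 ∣ Nat.card φ.ker) (C : Subgroup Q) [IsCyclic C] (hN : ∀ x ∈ N, φ x ∈ C) : IsZGroup N := by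
  have hfin := h.finite
  have f2 : Fact (Nat.Prime 2) := ⟨Nat.prime_two⟩
  apply zgroup_of_sylow_two h
  intro P
  let g : P →* C := (φ.comp (N.subtype.comp (P : Subgroup N).subtype)).codRestrict C (fun x => hN _ (x : N).2)
  apply isCyclic_of_injective g
  rw [injective_iff_map_eq_one]
  intro x hx
  have h1 : φ ((x : N) : G) = 1 := congrArg Subtype.val hx
  obtain ⟨k, hk⟩ := (IsPGroup.iff_orderOf.mp P.2) x
  have hk' : orderOf ((x : N) : G) = 2 ^ k := by
    rw [← hk, ← Subgroup.orderOf_coe, ← Subgroup.orderOf_coe]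
  have h2 : orderOf ((x : N) : G) ∣ Nat.card φ.ker := by
    have := orderOf_dvd_natCard (⟨((x : N) : G), h1⟩ : φ.ker)
    rwa [← Subgroup.orderOf_coe] at this
  rcases k with _ | k
  · rw [pow_zero, orderOf_eq_one_iff] at hk'
    apply Subtype.ext
    apply Subtype.ext
    exact hk'
  · exfalso
    rw [hk', pow_succ] at h2
    exact hker ((Dvd.intro_left _ rfl).trans h2)

/-- the homomorphism from a generalized quaternion group to the Klein four-group -/
theorem exists_quat_klein (n : ℕ) (hn : 1 ≤ n) : ∃ f : QuaternionGroup (2 ^ n) →* DihedralGroup 2,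
    Function.Surjective f ∧ ∀ x, f x = 1 → x ∈ zpowers (QuaternionGroup.a 1 : QuaternionGroup (2 ^ n)) := by
  have hne : NeZero (2 ^ n) := ⟨by positivity⟩
  obtain ⟨m, rfl⟩ : ∃ m, n = m + 1 := ⟨n - 1, by omega⟩
  have h1 : (DihedralGroup.r 1 : DihedralGroup 2) ^ (2 * 2 ^ (m + 1)) = 1 := by
    rw [pow_mul]
    have : (DihedralGroup.r 1 : DihedralGroup 2) ^ 2 = 1 := by decide
    rw [this, one_pow]
  have h2 : (DihedralGroup.sr 0 : DihedralGroup 2) * DihedralGroup.sr 0 = (DihedralGroup.r 1) ^ (2 ^ (m + 1)) := by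
    rw [pow_succ', pow_mul]
    have : (DihedralGroup.r 1 : DihedralGroup 2) ^ 2 = 1 := by decide
    rw [this, one_pow]
    decide
  have h3 : (DihedralGroup.r 1 : DihedralGroup 2) * DihedralGroup.sr 0 = DihedralGroup.sr 0 * (DihedralGroup.r 1)⁻¹ := by
    decide
  let f := QuatLift.lift (2 ^ (m + 1)) (DihedralGroup.r 1 : DihedralGroup 2) (DihedralGroup.sr 0) h1 h2 h3
  have hfa : ∀ i, f (QuaternionGroup.a i) = (DihedralGroup.r 1 : DihedralGroup 2) ^ i.val := fun i => by
    exact QuatLift.pw_eq_pow_val _ _ h1 i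
  have hfx : ∀ i, f (QuaternionGroup.xa i) = DihedralGroup.sr 0 * (DihedralGroup.r 1 : DihedralGroup 2) ^ i.val :=
    fun i => by
      change DihedralGroup.sr 0 * (QuatLift.pw _ _ h1 i).toMul = _
      rw [QuatLift.pw_eq_pow_val]
  refine ⟨f, ?_, ?_⟩
  · have hv1 : (1 : ZMod (2 * 2 ^ (m + 1))).val = 1 := by
      have : Fact (1 < 2 * 2 ^ (m + 1)) := ⟨by have : 1 ≤ 2 ^ (m + 1) := Nat.one_le_two_pow; omega⟩
      exact ZMod.val_one _
    intro y
    have hy : y = 1 ∨ y = DihedralGroup.r 1 ∨ y = DihedralGroup.sr 0 ∨ y = DihedralGroup.sr 0 * DihedralGroup.r 1 := by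
      revert y; decide
    rcases hy with rfl | rfl | rfl | rfl
    · exact ⟨1, map_one f⟩
    · exact ⟨QuaternionGroup.a 1, by rw [hfa, hv1, pow_one]⟩
    · exact ⟨QuaternionGroup.xa 0, by rw [hfx, ZMod.val_zero, pow_zero, mul_one]⟩
    · exact ⟨QuaternionGroup.xa 1, by rw [hfx, hv1, pow_one]⟩
  · rintro (i | i) hi
    · refine ⟨(i.val : ℤ), ?_⟩
      simp only
      rw [zpow_natCast, QuaternionGroup.a_one_pow, ZMod.natCast_zmod_val]
    · exfalso
      rw [hfx, DihedralGroup.r_one_pow, DihedralGroup.sr_mul_r] at hi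
      exact absurd hi (by rw [DihedralGroup.one_def]; intro h; cases h)

/-- **Existence in the solvable case** -/
theorem exists_solvable {G : Type*} [Group G] (h : Occurs G) (hs : Group.IsSolvable G) :
    ∃ N : Subgroup G, N.Normal ∧ IsZGroup N ∧ (N = ⊤ ∨ (∃ f : G →* DihedralGroup 2, Function.Surjective f ∧ f.ker = N) ∨
        (∃ f : G →* alternatingGroup (Fin 4), Function.Surjective f ∧ f.ker = N) ∨
        (∃ f : G →* Equiv.Perm (Fin 4), Function.Surjective f ∧ f.ker = N)) := by
  have hfin := h.finite
  have f2 : Fact (Nat.Prime 2) := ⟨Nat.prime_two⟩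
  obtain ⟨V, _, _, _, act, hf⟩ := to_action h
  obtain ⟨T⟩ : Nonempty (Sylow 2 G) := inferInstance
  have hkerodd : ¬ 2 ∣ Nat.card (QuotientGroup.mk' (oddCore G)).ker := by
    rw [QuotientGroup.ker_mk']
    intro hd
    have := Nat.Coprime.eq_one_of_dvd (Cores.coprime_card_pPrimeCore 2 G).symm hd
    omega
  rcases pgroup_cyclic_or_quaternion (hf.comp (T : Subgroup G).subtype (Subgroup.subtype_injective _)) T.2
    with hcyc | ⟨-, n, hn, ⟨eT⟩⟩
  · -- all Sylow subgroups are cyclic
    refine ⟨⊤, inferInstance, ?_, Or.inl rfl⟩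
    apply zgroup_of_sylow_two h
    intro P
    let P' : Sylow 2 G := P.mapSurjective (f := (⊤ : Subgroup G).subtype) (fun x => ⟨⟨x, trivial⟩, rfl⟩)
    have e1 : (P' : Subgroup G) ≃* (T : Subgroup G) := P'.equiv T
    have hP' : IsCyclic P' := isCyclic_of_injective e1.toMonoidHom e1.injective
    let g : P →* P' := ((⊤ : Subgroup G).subtype.comp (P : Subgroup (⊤ : Subgroup G)).subtype).codRestrict _
      (fun x => ⟨x, x.2, rfl⟩)
    apply isCyclic_of_injective g
    intro x y hxy
    have h1 : ((g x : P') : G) = ((g y : P') : G) := congrArg Subtype.val hxy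
    exact Subtype.ext (Subtype.ext h1)
  · have hs' : Group.IsSolvable (G ⧸ oddCore G) := inferInstance
    have hcore : pPrimeCore 2 (G ⧸ oddCore G) = ⊥ := Cores.pPrimeCore_quotient_pPrimeCore 2 G
    have hsurj := QuotientGroup.mk'_surjective (oddCore G)
    set T' : Sylow 2 (G ⧸ oddCore G) := T.mapSurjective hsurj with hT'
    obtain ⟨e1⟩ := H55QuatSolv.exists_equiv_map (T : Subgroup G) T.2
    have e2 : ↥(T' : Subgroup (G ⧸ oddCore G)) ≃* QuaternionGroup (2 ^ n) := e1.symm.trans eT
    have hpos : NeZero ((2 : ℕ) ^ n) := ⟨by positivity⟩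
    have hle : pCore 2 (G ⧸ oddCore G) ≤ (T' : Subgroup (G ⧸ oddCore G)) := Cores.pCore_le_sylow T'
    by_cases h2 : IsPGroup 2 (G ⧸ oddCore G)
    · have htop : (T' : Subgroup (G ⧸ oddCore G)) = ⊤ := by
        have h3 : IsPGroup 2 (⊤ : Subgroup (G ⧸ oddCore G)) := h2.to_subgroup _
        exact (T'.is_maximal' h3 le_top).symm
      have e3 : (G ⧸ oddCore G) ≃* QuaternionGroup (2 ^ n) :=
        (topEquiv.symm.trans (MulEquiv.subgroupCongr htop.symm)).trans e2
      obtain ⟨q, hq1, hq2⟩ := exists_quat_klein n hn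
      let φ : G →* QuaternionGroup (2 ^ n) := e3.toMonoidHom.comp (QuotientGroup.mk' (oddCore G))
      have hφk : φ.ker = (QuotientGroup.mk' (oddCore G)).ker := by
        ext x
        rw [MonoidHom.mem_ker, MonoidHom.mem_ker]
        change e3 _ = 1 ↔ _
        rw [MulEquiv.map_eq_one_iff]
      refine ⟨(q.comp φ).ker, inferInstance, ?_, Or.inr (Or.inl ⟨q.comp φ, ?_, rfl⟩)⟩
      · apply zgroup_of_map h _ φ (by rw [hφk]; exact hkerodd) (zpowers (QuaternionGroup.a 1))
        intro x hx
        exact hq2 _ hx
      · exact hq1.comp (e3.surjective.comp hsurj)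
    · rcases H55QuatSolv.dichotomy hs' hcore (by
        intro x y hx hy
        have h3 : ∀ w : ↥(pCore 2 (G ⧸ oddCore G)), orderOf w = 2 →
            e2 (Subgroup.inclusion hle w) = QuaternionGroup.a (((2 ^ n : ℕ)) : ZMod (2 * 2 ^ n)) := by
          intro w hw
          apply H55Quat.eq_of_orderOf_two
          rw [MulEquiv.orderOf_eq, orderOf_injective (Subgroup.inclusion hle) (Subgroup.inclusion_injective hle)]
          exact hw
        apply Subgroup.inclusion_injective hle
        apply e2.injective
        rw [h3 x hx, h3 y hy]) with h3 | ⟨⟨e⟩⟩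
      · exact absurd h3 h2
      · obtain ⟨eS⟩ := Cfsg.Agent.S3742.result
        let φ : G →* Equiv.Perm (Fin 4) :=
          (eS.toMonoidHom.comp (H55Oct.phi e)).comp (QuotientGroup.mk' (oddCore G))
        have hφk : ∀ x : G, x ∈ φ.ker ↔ H55Oct.phi e (x : G ⧸ oddCore G) = 1 := by
          intro x
          rw [MonoidHom.mem_ker]
          change eS _ = 1 ↔ _
          rw [MulEquiv.map_eq_one_iff]
          rfl
        have hord := H55Oct.orderOf_z e
        have hZ : IsZGroup φ.ker := by
          have hcyc : IsCyclic (zpowers (H55Oct.iota e (.a 2))) := inferInstance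
          apply zgroup_of_map h _ (QuotientGroup.mk' (oddCore G)) hkerodd (zpowers (H55Oct.iota e (.a 2)))
          intro x hx
          rw [hφk] at hx
          rcases H55Oct.phi_eq_one hs' hcore e hx with h1 | h1
          · change (x : G ⧸ oddCore G) ∈ _
            rw [h1]; exact one_mem _
          · change (x : G ⧸ oddCore G) ∈ _
            rw [h1]; exact mem_zpowers _
        have hkc : Nat.card (H55Oct.phi e).ker = 2 := by
          have hset : (H55Oct.phi e).ker = zpowers (H55Oct.iota e (.a 2)) := by
            apply le_antisymm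
            · intro x hx
              rcases H55Oct.phi_eq_one hs' hcore e hx with h1 | h1
              · rw [h1]; exact one_mem _
              · rw [h1]; exact mem_zpowers _
            · rw [zpowers_le]
              exact H55Oct.phi_z e
          rw [hset, Nat.card_zpowers, hord]
        -- the order of the image
        have hidx : φ.range.index = 1 ∨ φ.range.index = 2 := by
          have hr1 : Nat.card φ.range = Nat.card (H55Oct.phi e).range := by
            have : φ.range = ((H55Oct.phi e).range).map eS.toMonoidHom := by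
              change ((eS.toMonoidHom.comp (H55Oct.phi e)).comp (QuotientGroup.mk' (oddCore G))).range = _
              rw [MonoidHom.range_comp, MonoidHom.range_eq_top.2 hsurj, ← MonoidHom.range_eq_map,
                MonoidHom.range_comp]
            rw [this]
            exact Subgroup.card_map_of_injective eS.injective
          have hr2 : Nat.card (H55Oct.phi e).ker * Nat.card (H55Oct.phi e).range = Nat.card (G ⧸ oddCore G) := by
            rw [← Subgroup.index_ker]; exact Subgroup.card_mul_index _
          rw [hkc] at hr2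
          have h8 : 8 ∣ Nat.card (G ⧸ oddCore G) := by
            rw [← H55Oct.card_O e]; exact Subgroup.card_subgroup_dvd_card _
          have hmul := φ.range.card_mul_index
          rw [hr1, Nat.card_perm, Nat.card_fin] at hmul
          have h24 : Nat.factorial 4 = 24 := rfl
          rw [h24] at hmul
          -- an odd prime
          obtain ⟨p, hp, hp2, hpd⟩ : ∃ p : ℕ, p.Prime ∧ p ≠ 2 ∧ p ∣ Nat.card (G ⧸ oddCore G) := by
            by_contra hcon
            push Not at hcon
            apply h2
            rw [IsPGroup.iff_card]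
            refine (Nat.eq_prime_pow_of_unique_prime_dvd Nat.card_pos.ne' (fun {d} hd hdd => ?_)) |> fun h => ⟨_, h⟩
            by_contra hne
            exact hcon d hd hne hdd
          have hp3 : p ∣ Nat.card (H55Oct.phi e).range := by
            rw [← hr2] at hpd
            rcases (Nat.Prime.dvd_mul hp).1 hpd with h4 | h4
            · exfalso
              exact hp2 ((Nat.prime_dvd_prime_iff_eq hp Nat.prime_two).1 h4)
            · exact h4
          have hp4 : p ∣ 24 := hp3.trans (Dvd.intro _ hmul)
          have hp5 : p = 3 := by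
            have h5 : p ∣ 2 ^ 3 * 3 := hp4
            rcases (Nat.Prime.dvd_mul hp).1 h5 with h6 | h6
            · exact absurd ((Nat.prime_dvd_prime_iff_eq hp Nat.prime_two).1 (hp.dvd_of_dvd_pow h6)) hp2
            · exact (Nat.prime_dvd_prime_iff_eq hp Nat.prime_three).1 h6
          rw [hp5] at hp3
          rw [← hr2] at h8
          have h4 : 4 ∣ Nat.card (H55Oct.phi e).range := by omega
          obtain ⟨k, hk⟩ : 12 ∣ Nat.card (H55Oct.phi e).range := by omega
          rw [hk] at hmul
          have hi := φ.range.index_ne_zero_of_finite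
          have hkk : k * φ.range.index = 2 := by nlinarith
          have : φ.range.index ∣ 2 := Dvd.intro_left _ hkk
          exact (Nat.dvd_prime Nat.prime_two).1 this
        refine ⟨φ.ker, inferInstance, hZ, Or.inr (Or.inr ?_)⟩
        exact perm_cases φ hidx

end Cfsg.Agent.Lib.FrobList
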