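import Cfsg.Agent.Lib.FrobList2

/-!
# Uniqueness of the normal Z-subgroup
-/

set_option autoImplicit false
set_option linter.unusedSimpArgs false
set_option maxRecDepth 100000
open Cfsg Subgroup

namespace Cfsg.Agent.Lib.FrobList

open FrobExist FrobAction FrobAction3 ZasGroup FrobSolv ZasQuat FrobStruct

/-- no nontrivial normal cyclic subgroup -/
def NP (H : Type*) [Group H] : Prop := ∀ g : H, (zpowers g).Normal → g = 1

theorem np4 : ∀ g : Equiv.Perm (Fin 4), g ≠ 1 → ∃ h : Equiv.Perm (Fin 4), Equiv.Perm.sign h = 1 ∧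
    ∀ k : Fin 4, h * g * h⁻¹ ≠ g ^ (k : ℕ) := by decide +kernel

theorem np5 : ∀ g : Equiv.Perm (Fin 5), g ≠ 1 → ∃ h : Equiv.Perm (Fin 5), Equiv.Perm.sign h = 1 ∧
    ∀ k : Fin 6, h * g * h⁻¹ ≠ g ^ (k : ℕ) := by decide +kernel

theorem ord4 : ∀ g : Equiv.Perm (Fin 4), g ^ 4 = 1 ∨ g ^ 3 = 1 := by decide +kernel

theorem ord5 : ∀ g : Equiv.Perm (Fin 5), g ^ 4 = 1 ∨ g ^ 5 = 1 ∨ g ^ 6 = 1 := by decide +kernel

theorem orderOf_le4 (g : Equiv.Perm (Fin 4)) : orderOf g ≤ 4 := by
  rcases ord4 g with h | h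
  · exact orderOf_le_of_pow_eq_one (by norm_num) h
  · exact (orderOf_le_of_pow_eq_one (by norm_num) h).trans (by norm_num)

theorem orderOf_le6 (g : Equiv.Perm (Fin 5)) : orderOf g ≤ 6 := by
  rcases ord5 g with h | h | h
  · exact (orderOf_le_of_pow_eq_one (by norm_num) h).trans (by norm_num)
  · exact (orderOf_le_of_pow_eq_one (by norm_num) h).trans (by norm_num)
  · exact orderOf_le_of_pow_eq_one (by norm_num) h

theorem np_of {n m : ℕ} (ho : ∀ g : Equiv.Perm (Fin n), orderOf g ≤ m)
    (hn : ∀ g : Equiv.Perm (Fin n), g ≠ 1 → ∃ h : Equiv.Perm (Fin n), Equiv.Perm.sign h = 1 ∧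
      ∀ k : Fin m, h * g * h⁻¹ ≠ g ^ (k : ℕ)) (g : Equiv.Perm (Fin n))
    (h : ∀ h : Equiv.Perm (Fin n), Equiv.Perm.sign h = 1 → h * g * h⁻¹ ∈ zpowers g) : g = 1 := by
  by_contra hne
  obtain ⟨x, hx, hk⟩ := hn g hne
  have h1 := h x hx
  rw [← mem_powers_iff_mem_zpowers, mem_powers_iff_mem_range_orderOf] at h1
  simp only [Finset.mem_image, Finset.mem_range] at h1
  obtain ⟨k, hk1, hk2⟩ := h1
  exact hk ⟨k, hk1.trans_le (ho g)⟩ hk2.symm

theorem np_perm {n m : ℕ} (ho : ∀ g : Equiv.Perm (Fin n), orderOf g ≤ m)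
    (hn : ∀ g : Equiv.Perm (Fin n), g ≠ 1 → ∃ h : Equiv.Perm (Fin n), Equiv.Perm.sign h = 1 ∧
      ∀ k : Fin m, h * g * h⁻¹ ≠ g ^ (k : ℕ)) : NP (Equiv.Perm (Fin n)) := by
  intro g hg
  apply np_of ho hn g
  intro h _
  exact hg.conj_mem g (mem_zpowers g) h

theorem np_alt {n m : ℕ} (ho : ∀ g : Equiv.Perm (Fin n), orderOf g ≤ m)
    (hn : ∀ g : Equiv.Perm (Fin n), g ≠ 1 → ∃ h : Equiv.Perm (Fin n), Equiv.Perm.sign h = 1 ∧
      ∀ k : Fin m, h * g * h⁻¹ ≠ g ^ (k : ℕ)) : NP (alternatingGroup (Fin n)) := by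
  intro g hg
  apply Subtype.ext
  apply np_of ho hn g
  intro h hh
  obtain ⟨k, hk⟩ := hg.conj_mem g (mem_zpowers g) ⟨h, (Equiv.Perm.mem_alternatingGroup).2 hh⟩
  exact ⟨k, congrArg Subtype.val hk⟩

/-- normal Z-subgroups are trivial -/
theorem zgroup_bot {H : Type*} [Group H] [Finite H] (hH : NP H) (B : Subgroup H) [hB : B.Normal] (hZ : IsZGroup B) :
    B = ⊥ := by
  have key : ∀ D : Subgroup H, D.Normal → IsCyclic D → D = ⊥ := by
    intro D hD hc
    obtain ⟨g, hg⟩ := hc.exists_generator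
    have h1 : D = zpowers (g : H) := by
      apply le_antisymm
      · intro x hx
        obtain ⟨k, hk⟩ := hg ⟨x, hx⟩
        exact ⟨k, congrArg Subtype.val hk⟩
      · rw [zpowers_le]; exact g.2
    rw [h1] at hD ⊢
    rw [hH _ hD, zpowers_one_eq_bot]
  have h1 : IsCyclic (commutator B) := IsZGroup.isCyclic_commutator B
  have h2 : ((commutator B).map B.subtype).Normal := inferInstance
  have h3 : IsCyclic ((commutator B).map B.subtype) :=
    isCyclic_of_surjective _ ((commutator B).equivMapOfInjective _ B.subtype_injective).surjective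
  have h4 := key _ h2 h3
  have h5 : commutator B = ⊥ := by
    rw [Subgroup.map_eq_bot_iff_of_injective _ B.subtype_injective] at h4
    exact h4
  have h6 : IsCyclic (Abelianization B) := IsZGroup.isCyclic_abelianization
  apply key B hB
  apply isCyclic_of_injective (Abelianization.of : B →* Abelianization B)
  rw [← MonoidHom.ker_eq_bot_iff, Abelianization.ker_of, h5]

/-- Lemma A -/
theorem le_ker {G H : Type*} [Group G] [Finite G] [Group H] [Finite H] (hH : NP H) (f : G →* H)
    (hf : Function.Surjective f) (N : Subgroup G) [hN : N.Normal] (hZ : IsZGroup N) : N ≤ f.ker := by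
  have hn : (N.map f).Normal := hN.map f hf
  have h1 : IsZGroup (N.map f) := IsZGroup.of_surjective (f.subgroupMap_surjective N)
  have h2 := zgroup_bot hH (N.map f) h1
  rw [Subgroup.map_eq_bot_iff] at h2
  exact h2

/-- types of quotients -/
def Big {G : Type*} [Group G] (N : Subgroup G) : Prop :=
  ∃ (H : Type) (_ : Group H) (_ : Finite H) (f : G →* H), NP H ∧ 4 < Nat.card H ∧ Function.Surjective f ∧ f.ker = N

def Klein {G : Type*} [Group G] (N : Subgroup G) : Prop :=
  ∃ f : G →* DihedralGroup 2, Function.Surjective f ∧ f.ker = N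

theorem card_D2 : Nat.card (DihedralGroup 2) = 4 := by
  rw [Nat.card_eq_fintype_card, DihedralGroup.card]

theorem not_zgroup_D2 : ¬ IsZGroup (DihedralGroup 2) := by
  intro h
  have f2 : Fact (Nat.Prime 2) := ⟨Nat.prime_two⟩
  have hp : IsPGroup 2 (DihedralGroup 2) := IsPGroup.of_card (n := 2) (by rw [card_D2]; norm_num)
  have hc : IsCyclic (DihedralGroup 2) := by
    have h1 : IsCyclic (⊤ : Subgroup (DihedralGroup 2)) := (hp.to_subgroup ⊤).isCyclic_of_isZGroup
    exact isCyclic_of_surjective (topEquiv (G := DihedralGroup 2)) (topEquiv (G := DihedralGroup 2)).surjective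
  obtain ⟨g, hg⟩ := hc.exists_generator
  have h2 : Nat.card (zpowers g) = 4 := by
    rw [← card_D2]
    have : zpowers g = ⊤ := by rw [eq_top_iff]; intro x _; exact hg x
    rw [this, Subgroup.card_top]
  rw [Nat.card_zpowers] at h2
  have h3 : g ^ 2 = 1 := by
    have : ∀ g : DihedralGroup 2, g ^ 2 = 1 := by decide
    exact this g
  have := orderOf_dvd_of_pow_eq_one h3
  rw [h2] at this
  omega

theorem index_klein {G : Type*} [Group G] {N : Subgroup G} (h : Klein N) : N.index = 4 := by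
  obtain ⟨f, hf, rfl⟩ := h
  rw [Subgroup.index_ker, MonoidHom.range_eq_top.2 hf, Subgroup.card_top, card_D2]

theorem index_big {G : Type*} [Group G] {N : Subgroup G} (h : Big N) : 4 < N.index := by
  obtain ⟨H, _, _, f, -, hc, hf, rfl⟩ := h
  rw [Subgroup.index_ker, MonoidHom.range_eq_top.2 hf, Subgroup.card_top]
  exact hc

/-- Lemma E -/
theorem klein_unique {G : Type*} [Group G] (h : Occurs G) {N₁ N₂ : Subgroup G} (h1 : Klein N₁) (h2 : Klein N₂) :
    N₁ = N₂ := by
  have hfin := h.finite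
  have f2 : Fact (Nat.Prime 2) := ⟨Nat.prime_two⟩
  have i1 := index_klein h1
  have i2 := index_klein h2
  obtain ⟨f₁, hf₁, rfl⟩ := h1
  obtain ⟨f₂, hf₂, rfl⟩ := h2
  obtain ⟨V, _, _, _, act, hf⟩ := to_action h
  obtain ⟨T⟩ : Nonempty (Sylow 2 G) := inferInstance
  let φ : G →* DihedralGroup 2 × DihedralGroup 2 := f₁.prod f₂
  have hφk : φ.ker = f₁.ker ⊓ f₂.ker := by
    ext x
    simp only [φ, MonoidHom.mem_ker, MonoidHom.prod_apply, Prod.mk_eq_one, mem_inf]
  have hsq : ∀ x : DihedralGroup 2 × DihedralGroup 2, x * x = 1 := by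
    have : ∀ g : DihedralGroup 2, g * g = 1 := by decide
    rintro ⟨a, b⟩
    exact Prod.ext (this a) (this b)
  have hcomm : ∀ x y : DihedralGroup 2 × DihedralGroup 2, x * y = y * x := by
    have : ∀ g h : DihedralGroup 2, g * h = h * g := by decide
    rintro ⟨a, b⟩ ⟨c, d⟩
    exact Prod.ext (this a c) (this b d)
  -- `T` maps onto the range
  have hpr : IsPGroup 2 φ.range := by
    intro x
    refine ⟨1, ?_⟩
    apply Subtype.ext
    rw [pow_one, pow_two]
    exact hsq x
  have hT : (T : Subgroup G).map φ = φ.range := by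
    let T' : Sylow 2 φ.range := T.mapSurjective φ.rangeRestrict_surjective
    have h3 : (T' : Subgroup φ.range) = ⊤ := (T'.is_maximal' (hpr.to_subgroup _) le_top).symm
    have h4 : (T' : Subgroup φ.range) = (T : Subgroup G).map φ.rangeRestrict := rfl
    rw [h4] at h3
    have h5 := congrArg (Subgroup.map φ.range.subtype) h3
    rw [Subgroup.map_map, φ.subtype_comp_rangeRestrict, ← MonoidHom.range_eq_map, Subgroup.range_subtype] at h5
    exact h5
  have hle : Nat.card φ.range ≤ 4 := by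
    rw [← hT]
    suffices hS : ∃ α χ : DihedralGroup 2 × DihedralGroup 2, ∀ x ∈ (T : Subgroup G).map φ,
        x ∈ ({1, α, χ, χ * α} : Finset (DihedralGroup 2 × DihedralGroup 2)) by
      obtain ⟨α, χ, hS⟩ := hS
      have h6 : (((T : Subgroup G).map φ : Subgroup _) : Set (DihedralGroup 2 × DihedralGroup 2)) ⊆
          (({1, α, χ, χ * α} : Finset (DihedralGroup 2 × DihedralGroup 2)) : Set _) := hS
      have h7 := Set.ncard_le_ncard h6 (Finset.finite_toSet _)
      rw [Set.ncard_coe_finset] at h7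
      exact h7.trans Finset.card_le_four
    have hpow : ∀ (α : DihedralGroup 2 × DihedralGroup 2) (k : ℕ), α ^ k = 1 ∨ α ^ k = α := by
      intro α k
      induction k with
      | zero => left; rw [pow_zero]
      | succ k ih =>
        rcases ih with h | h
        · right; rw [pow_succ, h, one_mul]
        · left; rw [pow_succ, h, hsq]
    rcases pgroup_cyclic_or_quaternion (hf.comp (T : Subgroup G).subtype (Subgroup.subtype_injective _)) T.2
      with hcyc | ⟨-, n, hn, ⟨eT⟩⟩
    · obtain ⟨t, ht⟩ := hcyc.exists_generator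
      refine ⟨φ t, 1, ?_⟩
      rintro _ ⟨x, hx, rfl⟩
      have h8 := ht ⟨x, hx⟩
      rw [← mem_powers_iff_mem_zpowers] at h8
      obtain ⟨k, hk⟩ := h8
      have hk' : (t : G) ^ k = x := congrArg Subtype.val hk
      rw [← hk', map_pow]
      simp only [Finset.mem_insert, Finset.mem_singleton]
      rcases hpow (φ t) k with h9 | h9
      · left; exact h9
      · right; left; exact h9
    · have hpos : NeZero ((2 : ℕ) ^ n) := ⟨by positivity⟩
      let ψ : QuaternionGroup (2 ^ n) →* DihedralGroup 2 × DihedralGroup 2 :=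
        φ.comp ((T : Subgroup G).subtype.comp eT.symm.toMonoidHom)
      refine ⟨ψ (QuaternionGroup.a 1), ψ (QuaternionGroup.xa 0), ?_⟩
      rintro _ ⟨x, hx, rfl⟩
      have h10 : φ x = ψ (eT ⟨x, hx⟩) := by
        change φ x = φ ((eT.symm (eT ⟨x, hx⟩) : T) : G)
        rw [MulEquiv.symm_apply_apply]
      rw [h10]
      simp only [Finset.mem_insert, Finset.mem_singleton]
      rcases eT ⟨x, hx⟩ with i | i
      · have : (QuaternionGroup.a i : QuaternionGroup (2 ^ n)) = (QuaternionGroup.a 1) ^ i.val := by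
          rw [QuaternionGroup.a_one_pow, ZMod.natCast_zmod_val]
        rw [this, map_pow]
        rcases hpow (ψ (QuaternionGroup.a 1)) i.val with h9 | h9
        · left; exact h9
        · right; left; exact h9
      · have : (QuaternionGroup.xa i : QuaternionGroup (2 ^ n)) = QuaternionGroup.xa 0 * (QuaternionGroup.a 1) ^ i.val := by
          rw [QuaternionGroup.a_one_pow, ZMod.natCast_zmod_val, QuaternionGroup.xa_mul_a, zero_add]
        rw [this, map_mul, map_pow]
        rcases hpow (ψ (QuaternionGroup.a 1)) i.val with h9 | h9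
        · right; right; left; rw [h9, mul_one]
        · right; right; right; rw [h9]
  have hidx : (f₁.ker ⊓ f₂.ker).index ≤ 4 := by
    rw [← hφk, Subgroup.index_ker]; exact hle
  have key : ∀ {A B : Subgroup G}, A ≤ B → A.index ≤ B.index → A = B := by
    intro A B hAB hi
    have h3 := Subgroup.relIndex_mul_index hAB
    have h4 : 0 < B.index := Nat.pos_of_ne_zero B.index_ne_zero_of_finite
    have h5 : 0 < A.index := Nat.pos_of_ne_zero A.index_ne_zero_of_finite
    have h6 : A.relIndex B = 1 := by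
      have h7 : A.relIndex B ≠ 0 := by intro h0; rw [h0, zero_mul] at h3; omega
      nlinarith [Nat.pos_of_ne_zero h7]
    exact le_antisymm hAB (Subgroup.relIndex_eq_one.1 h6)
  have e1 := key (inf_le_left : f₁.ker ⊓ f₂.ker ≤ f₁.ker) (by rw [i1]; exact hidx)
  have e2 := key (inf_le_right : f₁.ker ⊓ f₂.ker ≤ f₂.ker) (by rw [i2]; exact hidx)
  rw [← e1, e2]

/-- **Uniqueness** -/
theorem unique {G : Type*} [Group G] (h : Occurs G) {N₁ N₂ : Subgroup G} [n1 : N₁.Normal] [n2 : N₂.Normal]
    (z1 : IsZGroup N₁) (z2 : IsZGroup N₂) (h1 : N₁ = ⊤ ∨ Klein N₁ ∨ Big N₁) (h2 : N₂ = ⊤ ∨ Klein N₂ ∨ Big N₂) :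
    N₁ = N₂ := by
  have hfin := h.finite
  have hle : ∀ {A B : Subgroup G}, A.Normal → IsZGroup A → Big B → A ≤ B := by
    rintro A B hA hZ ⟨H, _, _, f, hH, -, hf, rfl⟩
    exact le_ker hH f hf A hZ
  have htop : ∀ {A B : Subgroup G}, A = ⊤ → IsZGroup A → Klein B → False := by
    rintro A B rfl hZ ⟨f, hf, -⟩
    apply not_zgroup_D2
    have : Function.Surjective (f.comp (⊤ : Subgroup G).subtype) := by
      intro y
      obtain ⟨x, hx⟩ := hf y
      exact ⟨⟨x, trivial⟩, hx⟩
    exact IsZGroup.of_surjective this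
  have htop2 : ∀ {A B : Subgroup G}, A = ⊤ → IsZGroup A → Big B → False := by
    intro A B hA hZ hB
    have h3 := hle (by rw [hA]; infer_instance) hZ hB
    have h4 := index_big hB
    rw [hA, top_le_iff] at h3
    rw [h3, index_top] at h4
    omega
  have hkb : ∀ {A B : Subgroup G}, A.Normal → IsZGroup A → Klein A → Big B → False := by
    intro A B hA hZ hkA hB
    have h3 := hle hA hZ hB
    have h4 := index_big hB
    have h5 := index_klein hkA
    have h6 := Nat.le_of_dvd (by rw [h5]; norm_num) (Subgroup.index_dvd_of_le h3)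
    omega
  rcases h1 with h1 | h1 | h1 <;> rcases h2 with h2 | h2 | h2
  · rw [h1, h2]
  · exact (htop h1 z1 h2).elim
  · exact (htop2 h1 z1 h2).elim
  · exact (htop h2 z2 h1).elim
  · exact klein_unique h h1 h2
  · exact (hkb n1 z1 h1 h2).elim
  · exact (htop2 h2 z2 h1).elim
  · exact (hkb n2 z2 h2 h1).elim
  · exact le_antisymm (hle n1 z1 h2) (hle n2 z2 h1)

end Cfsg.Agent.Lib.FrobList
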