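import Cfsg.Agent.Lib.FusionSimpleGroup

set_option autoImplicit false

/-!
Simplicity of the fusion system of a finite group `G`: a normal subsystem over `S` contains all automorphisms of
subgroups `R` of `S` induced by the groups generated by the `p`-elements of `N_G(R)`; criterion `CritG`, in which the
self-centralizing subgroups used need not be normal in `S`.
-/

namespace Cfsg.Agent.Lib.FusionGood

open Cfsg Cfsg.FusionSystem Cfsg.Agent.Lib.FusionSimple

section general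

variable {Ω : Type*} [Group Ω] {S : Subgroup Ω}

/-- Transport of `Aut_E(Q)` along an isomorphism of `F`. -/
theorem transport_autGroup (F E : FusionSystem S) (hE : E.IsInvariantIn F) {Q R : Subgroup Ω} (hQ : Q ≤ S)
    {φ : Q →* Ω} (hφ : φ ∈ F.Hom Q) (hφR : ∀ x : Q, φ x ∈ R) (hφR' : ∀ y : R, ∃ x : Q, φ x = y)
    {δ : MulAut Q} (hδ : δ ∈ E.autGroup Q) {γ : MulAut R}
    (hγ : ∀ x : Q, ((γ ⟨φ x, hφR x⟩ : R) : Ω) = φ (δ x)) : γ ∈ E.autGroup R := by
  obtain ⟨hsub, -, hinv, hfr⟩ := hE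
  rw [mem_autGroup E hQ] at hδ
  obtain ⟨α, hα, φ₀, hφ₀, hfac⟩ := hfr Q hQ _ hφ
  have hφ₀S : ∀ x : Q, φ₀ x ∈ S := (E.le_of_mem hφ₀).2
  obtain ⟨ψ, hψ, hψx⟩ := E.inv_mem hφ₀
  have hψR : ∀ y : φ₀.range, ψ y ∈ Q := by
    rintro ⟨_, x, rfl⟩
    rw [hψx]; exact x.2
  have h1 : (Q.subtype.comp δ.toMonoidHom).comp (ψ.codRestrict Q hψR) ∈ E.Hom φ₀.range :=
    E.comp_mem hψ hδ hψR
  have h2 : ∀ y : φ₀.range, ((Q.subtype.comp δ.toMonoidHom).comp (ψ.codRestrict Q hψR)) y ∈ Q :=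
    fun y => (δ (ψ.codRestrict Q hψR y)).2
  have h3 := E.comp_mem h1 hφ₀ h2
  set ρ := φ₀.comp (((Q.subtype.comp δ.toMonoidHom).comp (ψ.codRestrict Q hψR)).codRestrict Q h2) with hρ
  have hρx : ∀ (x : Q), ρ ⟨φ₀ x, ⟨x, rfl⟩⟩ = φ₀ (δ x) := by
    intro x
    show φ₀ _ = φ₀ _
    congr 1
    apply Subtype.ext
    show ((δ (ψ.codRestrict Q hψR ⟨φ₀ x, ⟨x, rfl⟩⟩) : Q) : Ω) = (δ x : Q)
    congr 2
    apply Subtype.ext
    exact hψx x
  have hQS : φ₀.range ≤ S := by
    rintro _ ⟨x, rfl⟩; exact hφ₀S x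
  obtain ⟨χ, hχ, hχx⟩ := hinv φ₀.range hQS ρ h3 α hα
  have hle : R ≤ (φ₀.range.subgroupOf S).map (S.subtype.comp α.toMonoidHom) := by
    intro y hy
    obtain ⟨x, hx⟩ := hφR' ⟨y, hy⟩
    refine ⟨⟨φ₀ x, hφ₀S _⟩, ?_, ?_⟩
    · show φ₀ x ∈ φ₀.range
      exact ⟨_, rfl⟩
    · show ((α ⟨φ₀ x, hφ₀S _⟩ : S) : Ω) = y
      rw [← hfac x (hφ₀S _), hx]
  refine mem_autGroup_of E (hom_restrict E hle hχ) ?_
  intro y
  obtain ⟨x, hx⟩ := hφR' y
  have hy : y = ⟨φ x, hφR x⟩ := Subtype.ext hx.symm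
  subst hy
  have h6 : ρ ⟨φ₀ x, ⟨x, rfl⟩⟩ ∈ S := (E.le_of_mem h3).2 _
  have h7 : ((α ⟨φ₀ x, hφ₀S x⟩ : S) : Ω) ∈ (φ₀.range.subgroupOf S).map (S.subtype.comp α.toMonoidHom) :=
    ⟨⟨φ₀ x, hφ₀S x⟩, ⟨x, rfl⟩, rfl⟩
  have h8 := hχx ⟨φ₀ x, ⟨x, rfl⟩⟩ h6 h7
  have h9 : Subgroup.inclusion hle ⟨φ x, hφR x⟩ = ⟨((α ⟨φ₀ x, hφ₀S x⟩ : S) : Ω), h7⟩ := by
    apply Subtype.ext
    exact hfac x (hφ₀S x)
  show _ = χ (Subgroup.inclusion hle ⟨φ x, hφR x⟩)
  rw [h9, h8, hγ]
  have h10 : (⟨ρ ⟨φ₀ x, ⟨x, rfl⟩⟩, h6⟩ : S) = ⟨φ₀ (δ x), hφ₀S _⟩ := Subtype.ext (hρx x)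
  rw [h10]
  exact hfac (δ x) (hφ₀S _)

/-- An invariant subsystem over the whole of `S` contains every `p`-element of `Aut_F(R)`, for every `R ≤ S`. -/
theorem pElement_mem_any {p : ℕ} [Fact p.Prime] [Finite S] (F E : FusionSystem S) (hF : F.IsSaturated p)
    (hE : E.IsInvariantIn F) {R : Subgroup Ω} (hRS : R ≤ S) {γ : MulAut R} (hγ : γ ∈ F.autGroup R) {k : ℕ}
    (hk : γ ^ p ^ k = 1) : γ ∈ E.autGroup R := by
  obtain ⟨Q, ⟨χ, hχ, rfl⟩, hQa, -⟩ := hF R hRS
  have hP'S := hQa.1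
  have hχinj := F.injective_of_mem hχ
  let e : R ≃* χ.range := MonoidHom.ofInjective hχinj
  obtain ⟨ψ, hψ, hψx⟩ := F.inv_mem hχ
  have hψP : ∀ y : χ.range, ψ y ∈ R := by
    rintro ⟨_, x, rfl⟩
    rw [hψx]; exact x.2
  have htr : MulAut.congr e γ ∈ F.autGroup χ.range := by
    rw [mem_autGroup F hRS] at hγ
    have h7 := F.comp_mem hψ hγ hψP
    have h8 : ∀ y : χ.range, ((R.subtype.comp γ.toMonoidHom).comp (ψ.codRestrict R hψP)) y ∈ R :=
      fun y => (γ (ψ.codRestrict R hψP y)).2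
    refine mem_autGroup_of F (F.comp_mem h7 hχ h8) ?_
    rintro ⟨_, x, rfl⟩
    show χ (γ (e.symm ⟨χ x, _⟩)) = χ _
    congr 1
    apply Subtype.ext
    show ((γ (e.symm (e x)) : R) : Ω) = ((γ (ψ.codRestrict R hψP ⟨χ x, ⟨x, rfl⟩⟩) : R) : Ω)
    congr 2
    rw [e.symm_apply_apply]
    apply Subtype.ext
    exact (hψx x).symm
  have hk' : (MulAut.congr e γ) ^ p ^ k = 1 := by
    rw [← map_pow, hk, map_one]
  have h1 := pElement_mem_of_invariant F E hE hQa htr hk'
  refine transport_autGroup F E hE hP'S hψ hψP (fun y => ⟨⟨χ y, ⟨y, rfl⟩⟩, hψx y⟩) h1 ?_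
  rintro ⟨_, x, rfl⟩
  have h2 : (⟨ψ ⟨χ x, ⟨x, rfl⟩⟩, hψP _⟩ : R) = x := Subtype.ext (hψx x)
  have h3 : (MulAut.congr e γ) ⟨χ x, ⟨x, rfl⟩⟩ = ⟨χ (γ x), ⟨γ x, rfl⟩⟩ := by
    show e (γ (e.symm (e x))) = e (γ x)
    rw [e.symm_apply_apply]
  rw [h3, h2]
  exact (hψx (γ x)).symm

end general

section group

variable {G : Type*} [Group G] {S : Subgroup G}

/-- `g` normalizes `P` and acts on it as an element of `Aut_E(P)`. -/
def Good (E : FusionSystem S) (P : Subgroup G) (g : G) : Prop :=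
  g ∈ Subgroup.normalizer (P : Set G) ∧ conjHom P g ∈ E.Hom P

theorem Good.one {E : FusionSystem S} {P : Subgroup G} (hP : P ≤ S) : Good E P 1 :=
  ⟨Subgroup.one_mem _, E.conj_mem hP S.one_mem⟩

theorem Good.mul {E : FusionSystem S} {P : Subgroup G} {x y : G} (hx : Good E P x) (hy : Good E P y) :
    Good E P (x * y) := by
  refine ⟨Subgroup.mul_mem _ hx.1 hy.1, ?_⟩
  refine comp_mem' E hy.2 hx.2 (fun r => (Subgroup.mem_normalizer_iff.mp hy.1 r).mp r.2) ?_
  intro r
  show x * y * r * (x * y)⁻¹ = x * (y * r * y⁻¹) * x⁻¹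
  group

theorem Good.inv {E : FusionSystem S} {P : Subgroup G} [Finite P] (hP : P ≤ S) {x : G} (hx : Good E P x) :
    Good E P x⁻¹ := by
  have hxi : x⁻¹ ∈ Subgroup.normalizer (P : Set G) := Subgroup.inv_mem _ hx.1
  refine ⟨hxi, ?_⟩
  have h1 : ∀ (y : G), y ∈ Subgroup.normalizer (P : Set G) → ∀ r : P, conjHom P y r ∈ P :=
    fun y hy r => (Subgroup.mem_normalizer_iff.mp hy r).mp r.2
  have hinj : ∀ y : G, Function.Injective (conjHom P y) := fun y a b hab =>
    Subtype.ext ((MulAut.conj y).injective hab)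
  let γ : MulAut P := autOfHom (conjHom P x) (hinj x) (h1 x hx.1)
  let γ' : MulAut P := autOfHom (conjHom P x⁻¹) (hinj x⁻¹) (h1 x⁻¹ hxi)
  have hγ : γ ∈ E.autGroup P := mem_autGroup_of E hx.2 (fun r => rfl)
  have hγγ' : γ' = γ⁻¹ := by
    rw [eq_comm, inv_eq_iff_mul_eq_one]
    ext r
    show x * (x⁻¹ * r * x⁻¹⁻¹) * x⁻¹ = r
    group
  have h3 : γ' ∈ E.autGroup P := by rw [hγγ']; exact (E.autGroup P).inv_mem hγ
  exact (mem_autGroup E hP).mp h3

theorem Good.closure {E : FusionSystem S} {P : Subgroup G} [Finite P] (hP : P ≤ S) {A : Set G}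
    (hA : ∀ a ∈ A, Good E P a) {g : G} (hg : g ∈ Subgroup.closure A) : Good E P g := by
  induction hg using Subgroup.closure_induction with
  | mem x hx => exact hA x hx
  | one => exact Good.one hP
  | mul x y _ _ hx hy => exact hx.mul hy
  | inv x _ hx => exact hx.inv hP

theorem Good.restrict {E : FusionSystem S} {P Q : Subgroup G} (hQP : Q ≤ P) {g : G} (hg : Good E P g)
    (hgQ : g ∈ Subgroup.normalizer (Q : Set G)) : Good E Q g :=
  ⟨hgQ, hom_restrict E hQP hg.2⟩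

theorem Good.pElement {p : ℕ} [Fact p.Prime] [Finite S] {E : FusionSystem S}
    (hF : (groupFusionSystem S).IsSaturated p) (hE : E.IsInvariantIn (groupFusionSystem S)) {R : Subgroup G}
    (hRS : R ≤ S) {x : G} (hx : x ∈ Subgroup.normalizer (R : Set G)) {k : ℕ} (hk : orderOf x = p ^ k) :
    Good E R x := by
  refine ⟨hx, ?_⟩
  have hfR : Finite R := Finite.of_injective _ (Subgroup.inclusion_injective hRS)
  have h1 : ∀ (y : G), y ∈ Subgroup.normalizer (R : Set G) → ∀ r : R, conjHom R y r ∈ R :=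
    fun y hy r => (Subgroup.mem_normalizer_iff.mp hy r).mp r.2
  have hinj : ∀ y : G, Function.Injective (conjHom R y) := fun y a b hab =>
    Subtype.ext ((MulAut.conj y).injective hab)
  let γ : MulAut R := autOfHom (conjHom R x) (hinj x) (h1 x hx)
  have hγF : γ ∈ (groupFusionSystem S).autGroup R :=
    mem_autGroup_of _ (φ := conjHom R x) ⟨hRS, fun r => hRS (h1 x hx r), x, fun r => rfl⟩ (fun r => rfl)
  have hγp : γ ^ p ^ k = 1 := by
    have h2 : ∀ (m : ℕ) (r : R), (((γ ^ m) r : R) : G) = x ^ m * r * (x ^ m)⁻¹ := by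
      intro m
      induction m with
      | zero => intro r; simp
      | succ m ih =>
        intro r
        rw [pow_succ', MulAut.mul_apply]
        show x * (((γ ^ m) r : R) : G) * x⁻¹ = _
        rw [ih, pow_succ' x]; group
    ext r
    rw [h2, ← hk, pow_orderOf_eq_one]
    simp
  have h3 := pElement_mem_any (groupFusionSystem S) E hF hE hRS hγF hγp
  exact (mem_autGroup E hRS).mp h3

/-- one-step extension -/
theorem Good.extend_step {E : FusionSystem S} (hsub : E.IsSubsystemOf (groupFusionSystem S)) {R N : Subgroup G}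
    (hrec : E.IsReceptive R) (hcent : ∀ c : G, (∀ r ∈ R, c * r = r * c) → c ∈ R) (hRN : R ≤ N) (hNS : N ≤ S)
    (hNR : N ≤ Subgroup.normalizer (R : Set G)) {g : G} (hg : Good E R g)
    (hgN : g ∈ Subgroup.normalizer (N : Set G)) : Good E N g := by
  refine ⟨hgN, ?_⟩
  have hRS := hRN.trans hNS
  have hφr : (conjHom R g).range = R := by
    apply le_antisymm
    · rintro _ ⟨x, rfl⟩
      exact (Subgroup.mem_normalizer_iff.mp hg.1 x).mp x.2
    · intro r hr
      refine ⟨⟨g⁻¹ * r * g, (Subgroup.mem_normalizer_iff.mp hg.1 _).mpr ?_⟩, ?_⟩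
      · have : g * (g⁻¹ * r * g) * g⁻¹ = r := by group
        rw [this]; exact hr
      · show g * (g⁻¹ * r * g) * g⁻¹ = r
        group
  obtain ⟨ψ, hψ, hψx⟩ := hrec.2 R _ hg.2 hφr
  have hNext : N ≤ extender S R (conjHom R g) := by
    intro n hn
    apply Subgroup.subset_closure
    refine ⟨hNS hn, hNR hn, g * n * g⁻¹, hNS ((Subgroup.mem_normalizer_iff.mp hgN n).mp hn), ?_⟩
    intro x hx
    show g * (n * x * n⁻¹) * g⁻¹ = g * n * g⁻¹ * (g * x * g⁻¹) * (g * n * g⁻¹)⁻¹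
    group
  have hψN := hom_restrict E hNext hψ
  obtain ⟨-, -, h, hh⟩ := hsub _ hψN
  have hz : h⁻¹ * g ∈ R := by
    apply hcent
    intro r hr
    have h1 := hψx r hr (hNext (hRN hr))
    have h2 := hh ⟨r, hRN hr⟩
    have h3 : h * r * h⁻¹ = g * r * g⁻¹ := h2.symm.trans h1
    calc h⁻¹ * g * r = h⁻¹ * (g * r * g⁻¹) * g := by group
      _ = h⁻¹ * (h * r * h⁻¹) * g := by rw [h3]
      _ = r * (h⁻¹ * g) := by group
  refine comp_mem' E (E.conj_mem (P := N) (g := h⁻¹ * g) hNS (hRS hz)) hψN (fun x => ?_) ?_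
  · exact N.mul_mem (N.mul_mem (hRN hz) x.2) (N.inv_mem (hRN hz))
  · intro x
    have h2 := hh ⟨h⁻¹ * g * x * (h⁻¹ * g)⁻¹, N.mul_mem (N.mul_mem (hRN hz) x.2) (N.inv_mem (hRN hz))⟩
    show g * x * g⁻¹ = _
    refine Eq.trans ?_ h2.symm
    show g * x * g⁻¹ = h * (h⁻¹ * g * x * (h⁻¹ * g)⁻¹) * h⁻¹
    group

theorem normalizer_grow {p : ℕ} [Fact p.Prime] [Finite G] {R W : Subgroup G} (hW : IsPGroup p W) (hRW : R ≤ W)
    (hne : R ≠ W) : R ≠ W ⊓ Subgroup.normalizer (R : Set G) := by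
  intro hRN'
  have : Group.IsNilpotent W := hW.isNilpotent
  have h1 : R.subgroupOf W < ⊤ := by
    rw [lt_top_iff_ne_top]
    intro h
    exact hne (le_antisymm hRW (Subgroup.subgroupOf_eq_top.mp h))
  have h2 := Group.normalizerCondition_of_isNilpotent (G := W) _ h1
  obtain ⟨x, hxN, hxC⟩ := SetLike.exists_of_lt h2
  apply hxC
  rw [Subgroup.mem_subgroupOf, hRN']
  refine Subgroup.mem_inf.mpr ⟨x.2, ?_⟩
  rw [Subgroup.mem_normalizer_iff]
  intro r
  have h3 := Subgroup.mem_normalizer_iff.mp hxN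
  constructor
  · intro hr
    have := (h3 ⟨r, hRW hr⟩).mp hr
    exact this
  · intro hr
    have h4 : r ∈ W := by
      have h5 := W.mul_mem (W.mul_mem (W.inv_mem x.2) (hRW hr)) x.2
      have h6 : (x : G)⁻¹ * ((x : G) * r * (x : G)⁻¹) * x = r := by group
      rwa [h6] at h5
    exact (h3 ⟨r, h4⟩).mpr hr

theorem Good.extend {p : ℕ} [Fact p.Prime] [Finite G] {E : FusionSystem S} (hS : IsPGroup p S)
    (hsub : E.IsSubsystemOf (groupFusionSystem S))
    (hrec : ∀ R : Subgroup G, R ≤ S → (∀ c : G, (∀ r ∈ R, c * r = r * c) → c ∈ R) → E.IsReceptive R)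
    {R W : Subgroup G} (hcent : ∀ c : G, (∀ r ∈ R, c * r = r * c) → c ∈ R) (hRW : R ≤ W) (hWS : W ≤ S)
    {g : G} (hg : Good E R g) (hgW : g ∈ Subgroup.normalizer (W : Set G)) : Good E W g := by
  induction hn : Nat.card W - Nat.card R using Nat.strong_induction_on generalizing R with
  | _ n ih =>
  by_cases hRW' : R = W
  · rw [← hRW']; exact hg
  have hlt := normalizer_grow (hS.to_le hWS) hRW hRW'
  set N := W ⊓ Subgroup.normalizer (R : Set G) with hN
  have hRN : R ≤ N := le_inf hRW Subgroup.le_normalizer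
  have hNW : N ≤ W := inf_le_left
  have hgR := hg.1
  have hgN : g ∈ Subgroup.normalizer (N : Set G) := by
    rw [Subgroup.mem_normalizer_iff]
    intro x
    have h1 : ∀ y : G, y ∈ Subgroup.normalizer (R : Set G) → ∀ z : G,
        z ∈ Subgroup.normalizer (R : Set G) → y * z * y⁻¹ ∈ Subgroup.normalizer (R : Set G) := fun y hy z hz =>
      Subgroup.mul_mem _ (Subgroup.mul_mem _ hy hz) (Subgroup.inv_mem _ hy)
    rw [hN, Subgroup.mem_inf, Subgroup.mem_inf]
    constructor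
    · rintro ⟨ha, hb⟩
      exact ⟨(Subgroup.mem_normalizer_iff.mp hgW x).mp ha, h1 g hgR x hb⟩
    · rintro ⟨ha, hb⟩
      refine ⟨(Subgroup.mem_normalizer_iff.mp hgW x).mpr ha, ?_⟩
      have h2 := h1 g⁻¹ (Subgroup.inv_mem _ hgR) _ hb
      have h3 : g⁻¹ * (g * x * g⁻¹) * g⁻¹⁻¹ = x := by group
      rwa [h3] at h2
  have hcard : Nat.card R < Nat.card N := by
    have h1 : Nat.card R ≤ Nat.card N := Subgroup.card_le_of_le hRN
    refine lt_of_le_of_ne h1 (fun h => hlt ?_)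
    exact Subgroup.eq_of_le_of_card_ge hRN h.ge
  have hcardN : Nat.card N ≤ Nat.card W := Subgroup.card_le_of_le hNW
  have h2 := Good.extend_step hsub (hrec R (hRW.trans hWS) hcent) hcent hRN (hNW.trans hWS) inf_le_right hg hgN
  refine ih (Nat.card W - Nat.card N) (by omega) ?_ hNW h2 rfl
  intro c hc
  exact hRN (hcent c fun r hr => hc r (hRN hr))

/-- The criterion: no proper nontrivial strongly closed subgroup, and a self-centralizing `R ≤ U`, normalized by
`N_G(U)`, such that `N_G(U)` is contained in the group generated by elements of `N_G(R)` which are products of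
`p`-elements of `N_G(R₁)` for self-centralizing subgroups `R₁` of `U`. -/
def CritG (p : ℕ) (U : Subgroup G) : Prop :=
  (∀ T : Subgroup G, T ≤ U → (∀ x ∈ T, ∀ g : G, g * x * g⁻¹ ∈ U → g * x * g⁻¹ ∈ T) → T = ⊥ ∨ T = U) ∧
  ∃ R : Subgroup G, R ≤ U ∧ (∀ c : G, (∀ r ∈ R, c * r = r * c) → c ∈ R) ∧
    ∀ g ∈ Subgroup.normalizer (U : Set G), g ∈ Subgroup.normalizer (R : Set G) ∧
      g ∈ Subgroup.closure {h : G | h ∈ Subgroup.normalizer (R : Set G) ∧
        ∃ R₁ : Subgroup G, R₁ ≤ U ∧ (∀ c : G, (∀ r ∈ R₁, c * r = r * c) → c ∈ R₁) ∧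
          h ∈ Subgroup.closure {x : G | x ∈ Subgroup.normalizer (R₁ : Set G) ∧ ∃ k : ℕ, orderOf x = p ^ k}}

theorem normalizer_map_iff {H : Type*} [Group H] (e : G ≃* H) (U : Subgroup G) (g : G) :
    e g ∈ Subgroup.normalizer ((U.map e.toMonoidHom : Subgroup H) : Set H) ↔
      g ∈ Subgroup.normalizer (U : Set G) := by
  constructor
  · intro h
    have h1 := FusionSimpleGroup.map_normalizer_mem e.symm (U.map e.toMonoidHom) h
    rw [e.symm_apply_apply] at h1
    have h2 : (U.map e.toMonoidHom).map e.symm.toMonoidHom = U := by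
      rw [Subgroup.map_map]
      have : e.symm.toMonoidHom.comp e.toMonoidHom = MonoidHom.id G := by
        ext x; exact e.symm_apply_apply x
      rw [this, Subgroup.map_id]
    rwa [h2] at h1
  · exact FusionSimpleGroup.map_normalizer_mem e U

theorem cent_map {H : Type*} [Group H] (e : G ≃* H) {R : Subgroup G}
    (hR : ∀ c : G, (∀ r ∈ R, c * r = r * c) → c ∈ R) :
    ∀ c : H, (∀ r ∈ R.map e.toMonoidHom, c * r = r * c) → c ∈ R.map e.toMonoidHom := by
  intro c hc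
  refine ⟨e.symm c, hR _ ?_, e.apply_symm_apply c⟩
  intro r hr
  apply e.injective
  rw [map_mul, map_mul, e.apply_symm_apply]
  exact hc (e r) ⟨r, hr, rfl⟩

theorem CritG.map {p : ℕ} {H : Type*} [Group H] (e : G ≃* H) {U : Subgroup G} (h : CritG p U) :
    CritG p (U.map e.toMonoidHom) := by
  obtain ⟨ha, R, hRU, hRc, hb⟩ := h
  refine ⟨?_, R.map e.toMonoidHom, Subgroup.map_mono hRU, cent_map e hRc, ?_⟩
  · intro T hT hTc
    have h1 := ha (T.comap e.toMonoidHom) (by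
      intro x hx
      obtain ⟨u, hu, hue⟩ := hT hx
      have : u = x := e.injective hue
      rwa [← this]) (by
      intro x hx g hg
      have h2 := hTc (e x) hx (e g) ⟨g * x * g⁻¹, hg, by simp⟩
      show e (g * x * g⁻¹) ∈ T
      rw [map_mul, map_mul, map_inv]
      exact h2)
    rcases h1 with h1 | h1
    · left
      rw [eq_bot_iff]
      intro x hx
      have h2 : e.symm x ∈ T.comap e.toMonoidHom := by
        show e (e.symm x) ∈ T
        rwa [e.apply_symm_apply]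
      rw [h1, Subgroup.mem_bot] at h2
      rw [Subgroup.mem_bot, ← e.apply_symm_apply x, h2, map_one]
    · right
      apply le_antisymm hT
      rintro _ ⟨u, hu, rfl⟩
      rw [← h1] at hu
      exact hu
  · intro g hg
    have hg' : e.symm g ∈ Subgroup.normalizer (U : Set G) := by
      rw [← normalizer_map_iff e, e.apply_symm_apply]; exact hg
    obtain ⟨h1, h2⟩ := hb _ hg'
    refine ⟨?_, ?_⟩
    · rw [← e.apply_symm_apply g, normalizer_map_iff]; exact h1
    · have h3 := FusionSimpleGroup.map_closure_mem e.toMonoidHom (B := {h : H |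
        h ∈ Subgroup.normalizer ((R.map e.toMonoidHom : Subgroup H) : Set H) ∧
        ∃ R₁ : Subgroup H, R₁ ≤ U.map e.toMonoidHom ∧ (∀ c : H, (∀ r ∈ R₁, c * r = r * c) → c ∈ R₁) ∧
          h ∈ Subgroup.closure {x : H | x ∈ Subgroup.normalizer (R₁ : Set H) ∧ ∃ k : ℕ, orderOf x = p ^ k}}) ?_ h2
      · have h4 : e.toMonoidHom (e.symm g) = g := e.apply_symm_apply g
        rwa [h4] at h3
      · rintro a ⟨haR, R₁, hR₁U, hR₁c, haR₁⟩
        refine ⟨(normalizer_map_iff e R a).mpr haR, R₁.map e.toMonoidHom, Subgroup.map_mono hR₁U, cent_map e hR₁c, ?_⟩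
        refine FusionSimpleGroup.map_closure_mem e.toMonoidHom ?_ haR₁
        rintro x ⟨hx, k, hk⟩
        refine ⟨(normalizer_map_iff e R₁ x).mpr hx, k, ?_⟩
        rw [← hk]
        exact MulEquiv.orderOf_eq e x

theorem receptive_of_selfcent {p : ℕ} [Fact p.Prime] [Finite G] (S : Sylow p G)
    {E : FusionSystem (S : Subgroup G)} (hEs : E.IsSaturated p)
    (hsub : E.IsSubsystemOf (groupFusionSystem (S : Subgroup G))) (R : Subgroup G) (hR : R ≤ (S : Subgroup G))
    (hcent : ∀ c : G, (∀ r ∈ R, c * r = r * c) → c ∈ R) : E.IsReceptive R := by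
  apply FusionSat.receptive_of_fullyCentralized S.isPGroup' hEs
  refine fullyCentralized_of_centric (groupFusionSystem (S : Subgroup G)) E hsub ?_
  refine ⟨hR, ?_⟩
  rintro _ ⟨χ, ⟨-, -, k, hk⟩, rfl⟩
  intro y hy
  have hy2 := Subgroup.mem_centralizer_iff.mp (Subgroup.mem_inf.mp hy).2
  have h1 : k⁻¹ * y * k ∈ R := by
    apply hcent
    intro r hr
    have h2 := hy2 (χ ⟨r, hr⟩) ⟨_, rfl⟩
    rw [hk] at h2
    have h3 : k⁻¹ * y * k * r = k⁻¹ * (y * (k * r * k⁻¹)) * k := by group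
    have h4 : k * r * k⁻¹ * y = y * (k * r * k⁻¹) := h2
    rw [h3, ← h4]; group
  refine ⟨⟨_, h1⟩, ?_⟩
  rw [hk]
  show k * (k⁻¹ * y * k) * k⁻¹ = y
  group

theorem simple_of_critG {p : ℕ} [Fact p.Prime] [Finite G] (S : Sylow p G) (hS : (S : Subgroup G) ≠ ⊥)
    (h : CritG p (S : Subgroup G)) : (groupFusionSystem (S : Subgroup G)).IsSimple p := by
  obtain ⟨ha, R, hRS, hRc, hb⟩ := h
  have hF := FusionGroup.groupFusionSystem_isSaturated S
  refine simple_of _ hF hS ?_ ?_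
  · intro T hT
    refine ha T hT.1 ?_
    intro x hx g hg
    have hxT' : Subgroup.zpowers x ≤ T := (Subgroup.zpowers_le).mpr hx
    have h2 : conjHom (Subgroup.zpowers x) g ∈ (groupFusionSystem (S : Subgroup G)).Hom
        (Subgroup.zpowers x) := by
      refine ⟨hxT'.trans hT.1, ?_, g, fun y => rfl⟩
      rintro ⟨_, m, rfl⟩
      show g * x ^ m * g⁻¹ ∈ (S : Subgroup G)
      rw [← conj_zpow]
      exact Subgroup.zpow_mem _ hg m
    exact hT.2 _ hxT' _ h2 ⟨x, Subgroup.mem_zpowers _⟩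
  · intro E hE α hα
    have hEs : E.IsSaturated p := hE.1.1
    have hEi : E.IsInvariantIn (groupFusionSystem (S : Subgroup G)) := hE.1.2.2
    have hsub := hEi.1
    have hrec := receptive_of_selfcent S hEs hsub
    rw [autGroup_group le_rfl] at hα
    obtain ⟨g, -, hg⟩ := exists_of_mem_autInducedBy hα
    have hgS : g ∈ Subgroup.normalizer ((S : Subgroup G) : Set G) := by
      rw [Subgroup.mem_normalizer_iff]
      intro x
      constructor
      · intro hx
        have h1 := hg ⟨x, hx⟩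
        rw [← h1]; exact (α ⟨x, hx⟩).2
      · intro hx
        have h1 := hg (α⁻¹ ⟨g * x * g⁻¹, hx⟩)
        rw [MulAut.apply_inv_self] at h1
        have h2 : g * x * g⁻¹ = g * ((α⁻¹ ⟨g * x * g⁻¹, hx⟩ : S) : G) * g⁻¹ := h1
        have h3 : x = ((α⁻¹ ⟨g * x * g⁻¹, hx⟩ : S) : G) := mul_left_cancel (mul_right_cancel h2)
        rw [h3]; exact (α⁻¹ ⟨g * x * g⁻¹, hx⟩).2
    obtain ⟨-, h2⟩ := hb g hgS
    have h3 : Good E R g := by
      refine Good.closure hRS ?_ h2
      rintro a ⟨haR, R₁, hR₁U, hR₁c, haR₁⟩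
      have h4 : Good E R₁ a := by
        refine Good.closure hR₁U ?_ haR₁
        rintro x ⟨hx, k, hk⟩
        exact Good.pElement hF hEi hR₁U hx hk
      have h5 : a ∈ Subgroup.normalizer ((R ⊔ R₁ : Subgroup G) : Set G) := by
        have h6 : ∀ y : G, y ∈ Subgroup.normalizer (R : Set G) → y ∈ Subgroup.normalizer (R₁ : Set G) →
            ∀ z ∈ R ⊔ R₁, y * z * y⁻¹ ∈ R ⊔ R₁ := by
          intro y hy hy1 z hz
          rw [Subgroup.sup_eq_closure] at hz
          induction hz using Subgroup.closure_induction with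
          | mem z hz =>
            rcases hz with hz | hz
            · exact Subgroup.mem_sup_left ((Subgroup.mem_normalizer_iff.mp hy z).mp hz)
            · exact Subgroup.mem_sup_right ((Subgroup.mem_normalizer_iff.mp hy1 z).mp hz)
          | one => simp
          | mul a b _ _ ha hb =>
            have : y * (a * b) * y⁻¹ = y * a * y⁻¹ * (y * b * y⁻¹) := by group
            rw [this]; exact Subgroup.mul_mem _ ha hb
          | inv a _ ha =>
            have : y * a⁻¹ * y⁻¹ = (y * a * y⁻¹)⁻¹ := by group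
            rw [this]; exact Subgroup.inv_mem _ ha
        rw [Subgroup.mem_normalizer_iff]
        intro z
        constructor
        · exact h6 a haR h4.1 z
        · intro hz
          have h7 := h6 a⁻¹ (Subgroup.inv_mem _ haR) (Subgroup.inv_mem _ h4.1) _ hz
          have h8 : a⁻¹ * (a * z * a⁻¹) * a⁻¹⁻¹ = z := by group
          rwa [h8] at h7
      have h6 : Good E (R ⊔ R₁) a := Good.extend S.isPGroup' hsub hrec hR₁c le_sup_right (sup_le hRS hR₁U) h4 h5
      exact h6.restrict le_sup_left haR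
    have h4 : Good E (S : Subgroup G) g := Good.extend S.isPGroup' hsub hrec hRc hRS le_rfl h3 hgS
    exact mem_autGroup_of E h4.2 hg

/-- The criterion for one Sylow subgroup of an isomorphic group suffices. -/
theorem simple_of_equiv {p : ℕ} [Fact p.Prime] [Finite G] {H : Type*} [Group H] [Finite H] (e : G ≃* H)
    (U : Sylow p G) (hU : (U : Subgroup G) ≠ ⊥) (h : CritG p (U : Subgroup G)) (S : Sylow p H) :
    (groupFusionSystem (S : Subgroup H)).IsSimple p := by
  obtain ⟨g, hg⟩ := MulAction.exists_smul_eq H (U.mapSurjective (f := e.toMonoidHom) e.surjective) S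
  have h1 : (S : Subgroup H) = (U : Subgroup G).map (e.trans (MulAut.conj g)).toMonoidHom := by
    rw [← hg, Sylow.coe_subgroup_smul]
    ext x
    constructor
    · intro hx
      obtain ⟨y, hy, rfl⟩ := (Subgroup.mem_smul_pointwise_iff_exists _ _ _).mp hx
      obtain ⟨u, hu, rfl⟩ := hy
      exact ⟨u, hu, rfl⟩
    · rintro ⟨u, hu, rfl⟩
      exact (Subgroup.mem_smul_pointwise_iff_exists _ _ _).mpr ⟨e u, ⟨u, hu, rfl⟩, rfl⟩
  apply simple_of_critG S
  · intro h2
    apply hU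
    rw [h1, Subgroup.map_eq_bot_iff_of_injective] at h2
    · exact h2
    · exact (e.trans (MulAut.conj g)).injective
  · rw [h1]; exact h.map _

end group

end Cfsg.Agent.Lib.FusionGood
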