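import Cfsg.Agent.Lib.LargeExtra7
import Cfsg.Agent.Lib.LargeExtraSymm

/-!
# Involutions acting on a large extraspecial 2-group (helper30): S1784
-/

set_option autoImplicit false

namespace Cfsg.Agent.Lib.GF2Invol

open Subgroup Cfsg
open Cfsg.Agent.Lib.LargeExtra Cfsg.Agent.Lib.LargeExtraSymm

variable {G : Type*} [Group G] {Q Q₀ : Subgroup G} {z α : G}

/-- elements of `Q` are normalized by `α` -/
theorem conj_mem (h : PreLarge Q z) (hαz : α * z = z * α) {q : G} (hq : q ∈ Q) : α * q * α⁻¹ ∈ Q :=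
  h.norm α hαz q hq

theorem comm_mem (h : PreLarge Q z) (hαz : α * z = z * α) {q : G} (hq : q ∈ Q) : α * q * α⁻¹ * q⁻¹ ∈ Q :=
  mul_mem (conj_mem h hαz hq) (inv_mem hq)

theorem z_inv (h : PreLarge Q z) : z⁻¹ = z := by
  rw [inv_eq_iff_mul_eq_one]; exact h.sq

/-- `a b a⁻¹ = δ b` with `δ ∈ {1, z}` -/
theorem exists_sign (h : PreLarge Q z) {a b : G} (ha : a ∈ Q) (hb : b ∈ Q) :
    ∃ δ : G, (δ = 1 ∨ δ = z) ∧ a * b * a⁻¹ = δ * b := by
  rcases h.comm a ha b hb with h1 | h1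
  · exact ⟨1, Or.inl rfl, by rw [h1, mul_inv_cancel_right, one_mul]⟩
  · refine ⟨z, Or.inr rfl, ?_⟩
    rw [h1, mul_assoc z, mul_inv_cancel_right]

theorem sign_comm {δ x : G} (hδ : δ = 1 ∨ δ = z) (hx : x * z = z * x) : x * δ = δ * x := by
  rcases hδ with rfl | rfl
  · rw [mul_one, one_mul]
  · exact hx

theorem sign_sq (h : PreLarge Q z) {δ : G} (hδ : δ = 1 ∨ δ = z) : δ * δ = 1 := by
  rcases hδ with rfl | rfl
  · exact mul_one 1
  · exact h.sq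

/-- elements of `Q` commuting with all `[α, r]` have `[α, q] ∈ ⟨z⟩` -/
theorem comm_mem_of_centralizes (h : PreLarge Q z) (hαz : α * z = z * α) (hα2 : α * α = 1) {q : G} (hq : q ∈ Q)
    (hc : ∀ r ∈ Q, q * (α * r * α⁻¹ * r⁻¹) = (α * r * α⁻¹ * r⁻¹) * q) :
    α * q * α⁻¹ * q⁻¹ = 1 ∨ α * q * α⁻¹ * q⁻¹ = z := by
  have hαi : α⁻¹ = α := by rw [inv_eq_iff_mul_eq_one]; exact hα2
  apply h.center _ (comm_mem h hαz hq)
  intro r hr
  obtain ⟨δ, hδ, hqr⟩ := exists_sign h hq hr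
  have hrz := h.cen r hr
  have hqz := h.cen q hq
  set e := α * r * α⁻¹ * r⁻¹ with he
  have he2 : e ∈ Q := comm_mem h hαz hr
  have hqe : q * e = e * q := hc r hr
  -- `α⁻¹ r α = e r`
  have h1 : α⁻¹ * r * α = e * r := by
    rw [he, hαi]
    have : α * r * α * r⁻¹ * r = α * r * α := by group
    rw [this]
  -- `q⁻¹ r q = δ r`
  have h2 : q⁻¹ * r * q = δ * r := by
    have h3 : q * (δ * r) * q⁻¹ = r := by
      calc q * (δ * r) * q⁻¹ = (q * δ) * r * q⁻¹ := by group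
        _ = δ * (q * r * q⁻¹) := by rw [sign_comm hδ hqz]; group
        _ = r := by rw [hqr, ← mul_assoc, sign_sq h hδ, one_mul]
    calc q⁻¹ * r * q = q⁻¹ * (q * (δ * r) * q⁻¹) * q := by rw [h3]
      _ = δ * r := by group
  -- conjugate `r` by `c`
  have h4 : (α * q * α⁻¹ * q⁻¹) * r * (α * q * α⁻¹ * q⁻¹)⁻¹ = r := by
    calc (α * q * α⁻¹ * q⁻¹) * r * (α * q * α⁻¹ * q⁻¹)⁻¹
        = α * (q * (α⁻¹ * (q⁻¹ * r * q) * α) * q⁻¹) * α⁻¹ := by group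
      _ = α * (q * (α⁻¹ * (δ * r) * α) * q⁻¹) * α⁻¹ := by rw [h2]
      _ = α * (q * (δ * (α⁻¹ * r * α)) * q⁻¹) * α⁻¹ := by
          have h5 : α⁻¹ * (δ * r) * α = δ * (α⁻¹ * r * α) := by
            have h6 : α⁻¹ * δ = δ * α⁻¹ := by
              rw [hαi]; exact sign_comm hδ hαz
            calc α⁻¹ * (δ * r) * α = (α⁻¹ * δ) * r * α := by group
              _ = δ * (α⁻¹ * r * α) := by rw [h6]; group
          rw [h5]
      _ = α * (q * (δ * (e * r)) * q⁻¹) * α⁻¹ := by rw [h1]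
      _ = α * (δ * (e * (q * r * q⁻¹))) * α⁻¹ := by
          have h5 : q * (δ * (e * r)) * q⁻¹ = δ * (e * (q * r * q⁻¹)) := by
            calc q * (δ * (e * r)) * q⁻¹ = (q * δ) * e * r * q⁻¹ := by group
              _ = δ * (q * e) * r * q⁻¹ := by rw [sign_comm hδ hqz]; group
              _ = δ * (e * (q * r * q⁻¹)) := by rw [hqe]; group
          rw [h5]
      _ = α * (δ * (e * (δ * r))) * α⁻¹ := by rw [hqr]
      _ = α * (e * r) * α⁻¹ := by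
          have h5 : δ * (e * (δ * r)) = e * r := by
            have h6 : e * δ = δ * e := sign_comm hδ (h.cen e he2)
            calc δ * (e * (δ * r)) = δ * (e * δ) * r := by group
              _ = (δ * δ) * e * r := by rw [h6]; group
              _ = e * r := by rw [sign_sq h hδ, one_mul]
          rw [h5]
      _ = α * (α⁻¹ * r * α) * α⁻¹ := by rw [h1]
      _ = r := by group
  calc (α * q * α⁻¹ * q⁻¹) * r = ((α * q * α⁻¹ * q⁻¹) * r * (α * q * α⁻¹ * q⁻¹)⁻¹) * (α * q * α⁻¹ * q⁻¹) := by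
        group
    _ = r * (α * q * α⁻¹ * q⁻¹) := by rw [h4]

/-- S1784 -/
theorem main [Finite G] (h : PreLarge Q z) (hαz : α * z = z * α) (hα2 : α * α = 1) (hα1 : α ≠ 1) (hαQ : α ∉ Q)
    (hQ₀ : ∀ q : G, q ∈ Q₀ ↔ (q ∈ Q ∧ α * q * α⁻¹ * q⁻¹ ∈ Subgroup.zpowers z)) :
    Subgroup.closure ((fun q : G => α * q * α⁻¹ * q⁻¹) '' (Q : Set G)) = (Subgroup.center ↥Q₀).map Q₀.subtype ∧
      (¬ Q₀ ≤ (Q ⊓ Subgroup.centralizer ({α} : Set G)) ⊔ Subgroup.zpowers z → ∃ q ∈ Q, q * α * q⁻¹ = α * z) := by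
  have hαi : α⁻¹ = α := by rw [inv_eq_iff_mul_eq_one]; exact hα2
  have hzp : ∀ x : G, x ∈ zpowers z ↔ x = 1 ∨ x = z := fun x => mem_zpowers_of_sq h.sq
  simp only [hzp] at hQ₀
  set D := Subgroup.closure ((fun q : G => α * q * α⁻¹ * q⁻¹) '' (Q : Set G)) with hD
  have hgen : ∀ q ∈ Q, α * q * α⁻¹ * q⁻¹ ∈ D := fun q hq => subset_closure ⟨q, hq, rfl⟩
  have hDQ : D ≤ Q := by
    rw [hD, closure_le]
    rintro _ ⟨q, hq, rfl⟩
    exact comm_mem h hαz hq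
  -- `Q₀` centralizes `D`
  have hcent : ∀ w ∈ Q₀, ∀ d ∈ D, w * d = d * w := by
    intro w hw d hd
    have h1 : D ≤ centralizer ({w} : Set G) := by
      rw [hD, closure_le]
      rintro _ ⟨q, hq, rfl⟩
      rw [SetLike.mem_coe, mem_centralizer_singleton_iff]
      obtain ⟨hwQ, hε⟩ := (hQ₀ w).1 hw
      obtain ⟨δ, hδ, hwq⟩ := exists_sign h hwQ hq
      obtain ⟨ε, hε', hwε⟩ : ∃ ε : G, (ε = 1 ∨ ε = z) ∧ α * w * α⁻¹ * w⁻¹ = ε := ⟨_, hε, rfl⟩
      have hwz := h.cen w hwQ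
      -- `w α w⁻¹ = α ε`
      have h2 : w * α * w⁻¹ = α * ε := by
        have h3 : α * w * α⁻¹ = ε * w := by rw [← hwε]; group
        have h4 : w = α * (ε * w) * α⁻¹ := by
          calc w = α⁻¹ * (α * w * α⁻¹) * α := by group
            _ = α * (ε * w) * α⁻¹ := by rw [h3, hαi]
        have h5 : w * α = α * (ε * w) := by
          calc w * α = (α * (ε * w) * α⁻¹) * α := by rw [← h4]
            _ = α * (ε * w) := by group
        rw [h5]; group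
      have h2' : w * α⁻¹ * w⁻¹ = α⁻¹ * ε := by rw [hαi]; exact h2
      have h6 : w * q⁻¹ * w⁻¹ = q⁻¹ * δ := by
        have h7 : w * q⁻¹ * w⁻¹ = (w * q * w⁻¹)⁻¹ := by group
        rw [h7, hwq, mul_inv_rev]
        congr 1
        rw [inv_eq_iff_mul_eq_one]; exact sign_sq h hδ
      have h8 : w * (α * q * α⁻¹ * q⁻¹) * w⁻¹ = α * q * α⁻¹ * q⁻¹ := by
        have hεα : ε * α⁻¹ = α⁻¹ * ε := by rw [hαi]; exact (sign_comm hε' hαz).symm
        have hεq : q * ε = ε * q := sign_comm hε' (h.cen q hq)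
        have hδq : q * δ = δ * q := sign_comm hδ (h.cen q hq)
        have hδα : α⁻¹ * δ = δ * α⁻¹ := by rw [hαi]; exact sign_comm hδ hαz
        have hεε := sign_sq h hε'
        have hδδ := sign_sq h hδ
        have hδε : δ * ε = ε * δ := by
          rcases hδ with rfl | rfl
          · rw [one_mul, mul_one]
          · exact sign_comm hε' rfl
        have hεqi : q⁻¹ * ε = ε * q⁻¹ := sign_comm hε' (h.cen _ (inv_mem hq))
        have hδqi : q⁻¹ * δ = δ * q⁻¹ := sign_comm hδ (h.cen _ (inv_mem hq))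
        calc w * (α * q * α⁻¹ * q⁻¹) * w⁻¹
            = (w * α * w⁻¹) * (w * q * w⁻¹) * (w * α⁻¹ * w⁻¹) * (w * q⁻¹ * w⁻¹) := by group
          _ = (α * ε) * (δ * q) * (α⁻¹ * ε) * (q⁻¹ * δ) := by rw [h2, hwq, h2', h6]
          _ = α * (ε * δ) * q * (α⁻¹ * ε) * (δ * q⁻¹) := by rw [hδqi]; group
          _ = α * (δ * ε) * q * (ε * α⁻¹) * (δ * q⁻¹) := by rw [hδε, hεα]
          _ = α * δ * ε * (q * ε) * (α⁻¹ * δ) * q⁻¹ := by group
          _ = α * δ * ε * (ε * q) * (δ * α⁻¹) * q⁻¹ := by rw [hεq, hδα]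
          _ = α * δ * (ε * ε) * (q * δ) * α⁻¹ * q⁻¹ := by group
          _ = α * δ * (q * δ) * α⁻¹ * q⁻¹ := by rw [hεε, mul_one]
          _ = α * (δ * δ) * q * α⁻¹ * q⁻¹ := by rw [hδq]; group
          _ = α * q * α⁻¹ * q⁻¹ := by rw [hδδ, mul_one]
      calc (α * q * α⁻¹ * q⁻¹) * w = (w * (α * q * α⁻¹ * q⁻¹) * w⁻¹) * w := by rw [h8]
        _ = w * (α * q * α⁻¹ * q⁻¹) := by group
    exact (mem_centralizer_singleton_iff.1 (h1 hd)).symm
  -- `D ≤ Q₀`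
  have hDQ₀ : D ≤ Q₀ := by
    rw [hD, closure_le]
    rintro _ ⟨q, hq, rfl⟩
    have hd := comm_mem h hαz hq
    refine (hQ₀ _).2 ⟨hd, ?_⟩
    have h1 : α * (α * q * α⁻¹ * q⁻¹) * α⁻¹ = (α * q * α⁻¹ * q⁻¹)⁻¹ := by
      calc α * (α * q * α⁻¹ * q⁻¹) * α⁻¹ = (α * α) * q * α⁻¹ * q⁻¹ * α⁻¹ := by group
        _ = q * α * q⁻¹ * α⁻¹ := by rw [hα2, one_mul, hαi]
        _ = (α * q * α⁻¹ * q⁻¹)⁻¹ := by group
    have h2 : α * (α * q * α⁻¹ * q⁻¹) * α⁻¹ * (α * q * α⁻¹ * q⁻¹)⁻¹ =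
        ((α * q * α⁻¹ * q⁻¹) * (α * q * α⁻¹ * q⁻¹))⁻¹ := by
      rw [h1]; exact (mul_inv_rev _ _).symm
    show α * (α * q * α⁻¹ * q⁻¹) * α⁻¹ * (α * q * α⁻¹ * q⁻¹)⁻¹ = 1 ∨
      α * (α * q * α⁻¹ * q⁻¹) * α⁻¹ * (α * q * α⁻¹ * q⁻¹)⁻¹ = z
    rw [h2]
    rcases h.qsq _ hd with h3 | h3
    · left; rw [h3, inv_one]
    · right; rw [h3, z_inv h]
  -- `z ∈ D`
  have hzD : z ∈ D := by
    have hD1 : ∃ q ∈ Q, α * q * α⁻¹ * q⁻¹ ≠ 1 := by
      by_contra hcon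
      push Not at hcon
      have h1 := h.cent α (fun q hq => by
        have h2 := hcon q hq
        calc q * α = (α * q * α⁻¹ * q⁻¹)⁻¹ * (α * q) := by group
          _ = α * q := by rw [h2, inv_one, one_mul])
      rcases h1 with h1 | h1
      · exact hα1 h1
      · exact hαQ (h1 ▸ h.mem)
    obtain ⟨q, hq, hq1⟩ := hD1
    refine h.mem_of_inf_ne_bot (N := D) ?_ (comm_mem h hαz hq) (hgen q hq) hq1
    intro r hr n hn
    have h1 : D ≤ D.map (MulAut.conj r⁻¹).toMonoidHom := by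
      rw [hD, closure_le]
      rintro _ ⟨s, hs, rfl⟩
      refine ⟨r * (α * s * α⁻¹ * s⁻¹) * r⁻¹, ?_, by
        show r⁻¹ * (r * (α * s * α⁻¹ * s⁻¹) * r⁻¹) * r⁻¹⁻¹ = α * s * α⁻¹ * s⁻¹
        group⟩
      have h2 : r * (α * s * α⁻¹ * s⁻¹) * r⁻¹ =
          (α * r * α⁻¹ * r⁻¹)⁻¹ * (α * (r * s) * α⁻¹ * (r * s)⁻¹) := by group
      rw [h2]
      exact D.mul_mem (D.inv_mem (hgen r hr)) (hgen (r * s) (Q.mul_mem hr hs))
    obtain ⟨d, hd, hdn⟩ := h1 hn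
    have h2 : r⁻¹ * d * r⁻¹⁻¹ = n := hdn
    have h3 : r * n * r⁻¹ = d := by rw [← h2]; group
    rw [h3]; exact hd
  have hEX := EX.of h
  constructor
  · apply le_antisymm
    · intro d hd
      refine ⟨⟨d, hDQ₀ hd⟩, ?_, rfl⟩
      rw [SetLike.mem_coe, mem_center_iff]
      intro g
      exact Subtype.ext (hcent g g.2 d hd)
    · rintro _ ⟨x, hx, rfl⟩
      by_contra hxD
      obtain ⟨q, hq, hqD, hqx⟩ := hEX.dual hDQ hzD ((hQ₀ _).1 x.2).1 hxD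
      have hqQ₀ : q ∈ Q₀ := (hQ₀ q).2 ⟨hq, comm_mem_of_centralizes h hαz hα2 hq (fun r hr => hqD _ (hgen r hr))⟩
      have h1 := congrArg Subtype.val ((mem_center_iff.1 hx) ⟨q, hqQ₀⟩)
      have h2 : q * (x : G) = (x : G) * q := h1
      have h3 : q * (x : G) = z * ((x : G) * q) := hqx
      rw [h2] at h3
      have h4 : z = 1 := (mul_eq_right.1 h3.symm)
      exact h.ne h4
  · intro hnot
    obtain ⟨q, hq, hq2⟩ := SetLike.not_le_iff_exists.1 hnot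
    obtain ⟨hqQ, h1⟩ := (hQ₀ q).1 hq
    rcases h1 with h1 | h1
    · exfalso
      apply hq2
      apply mem_sup_left
      refine mem_inf.2 ⟨hqQ, mem_centralizer_singleton_iff.2 ?_⟩
      calc q * α = (α * q * α⁻¹ * q⁻¹)⁻¹ * (α * q) := by group
        _ = α * q := by rw [h1, inv_one, one_mul]
    · refine ⟨q, hqQ, ?_⟩
      have h2 : q * α⁻¹ * q⁻¹ = α⁻¹ * z := by
        rw [← h1]; group
      rw [hαi] at h2
      exact h2

end Cfsg.Agent.Lib.GF2Invol
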