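import Cfsg.Agent.Lib.SL2Class
import Cfsg.Agent.Lib.ClGL2Cls
import Cfsg.Agent.Lib.ClGL2Pts
import Cfsg.Agent.Lib.CharCentral
import Cfsg.Agent.S2330

/-! Irreducible characters of `GL₂(q)`: principal series and degrees. -/

set_option autoImplicit false

namespace Cfsg.Agent.Lib.GL2Ps

open Cfsg Classical Matrix ComplexConjugate
open Cfsg.Agent.Lib.CharBasic Cfsg.Agent.Lib.LinChar
open Cfsg.Agent.Lib.IndFun (extendByZero_eq indFun_isClassFunction frobenius_reciprocity')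

universe u

variable {F : Type u} [Field F]

local notation "GL2" => Matrix.GeneralLinearGroup (Fin 2) F
local notation "M2" => Matrix (Fin 2) (Fin 2) F
local notation "Bo" => Cfsg.upperTriangularGL 2 F
local notation "q" => (Nat.card F : ℂ)

theorem mem_bo {g : GL2} : g ∈ Bo ↔ (g : M2) 1 0 = 0 := ClGL2Pts.mem_upper

/-- upper triangular matrices -/
def ut (a : Fˣ) (s : F) (d : Fˣ) : GL2 :=
  GeneralLinearGroup.mkOfDetNeZero !![(a : F), s; 0, (d : F)] (by simp [det_fin_two])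

theorem coe_ut (a : Fˣ) (s : F) (d : Fˣ) : (ut a s d : M2) = !![(a : F), s; 0, (d : F)] := rfl

@[simp] theorem ut_00 (a : Fˣ) (s : F) (d : Fˣ) : (ut a s d : M2) 0 0 = a := rfl
@[simp] theorem ut_01 (a : Fˣ) (s : F) (d : Fˣ) : (ut a s d : M2) 0 1 = s := rfl
@[simp] theorem ut_10 (a : Fˣ) (s : F) (d : Fˣ) : (ut a s d : M2) 1 0 = 0 := rfl
@[simp] theorem ut_11 (a : Fˣ) (s : F) (d : Fˣ) : (ut a s d : M2) 1 1 = d := rfl

theorem ext2 {g h : GL2} (h00 : (g : M2) 0 0 = (h : M2) 0 0) (h01 : (g : M2) 0 1 = (h : M2) 0 1)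
    (h10 : (g : M2) 1 0 = (h : M2) 1 0) (h11 : (g : M2) 1 1 = (h : M2) 1 1) : g = h := by
  apply Units.ext
  ext i j
  fin_cases i <;> fin_cases j <;> assumption

theorem ut_mem (a : Fˣ) (s : F) (d : Fˣ) : ut a s d ∈ Bo := mem_bo.2 rfl

theorem det_ne (g : GL2) : (g : M2) 0 0 * (g : M2) 1 1 - (g : M2) 0 1 * (g : M2) 1 0 ≠ 0 := by
  have hd : (g : M2).det ≠ 0 := g.det_ne_zero
  rwa [det_fin_two] at hd

theorem exists_ut {g : GL2} (h : (g : M2) 1 0 = 0) : ∃ a s d, ut a s d = g := by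
  have hd := det_ne g
  rw [h, mul_zero, sub_zero] at hd
  exact ⟨Units.mk0 _ (left_ne_zero_of_mul hd), (g : M2) 0 1, Units.mk0 _ (right_ne_zero_of_mul hd),
    ext2 rfl rfl h.symm rfl⟩

/-- the parametrization of the Borel subgroup -/
noncomputable def utEquiv : Fˣ × F × Fˣ ≃ Bo :=
  Equiv.ofBijective (fun t => ⟨ut t.1 t.2.1 t.2.2, ut_mem _ _ _⟩) (by
    constructor
    · rintro ⟨a, s, d⟩ ⟨a', s', d'⟩ h
      have h' : ut a s d = ut a' s' d' := congrArg Subtype.val h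
      have h0 : (a : F) = a' := congrArg (fun g : GL2 => (g : M2) 0 0) h'
      have h1 : s = s' := congrArg (fun g : GL2 => (g : M2) 0 1) h'
      have h2 : (d : F) = d' := congrArg (fun g : GL2 => (g : M2) 1 1) h'
      rw [Units.ext h0, h1, Units.ext h2]
    · rintro ⟨g, hg⟩
      obtain ⟨a, s, d, h⟩ := exists_ut (mem_bo.1 hg)
      exact ⟨⟨a, s, d⟩, Subtype.ext h⟩)

theorem utEquiv_apply (a : Fˣ) (s : F) (d : Fˣ) : (utEquiv (a, s, d) : GL2) = ut a s d := rfl

theorem inv_entries (g : GL2) : ((g⁻¹ : GL2) : M2) = (g : M2).det⁻¹ • !![(g : M2) 1 1, -(g : M2) 0 1; -(g : M2) 1 0, (g : M2) 0 0] := by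
  rw [coe_units_inv, Matrix.inv_def, Matrix.adjugate_fin_two, Ring.inverse_eq_inv']

theorem conj_10 (x g : GL2) : ((x * g * x⁻¹ : GL2) : M2) 1 0 = (x : M2).det⁻¹ *
    ((x : M2) 1 1 * ((g : M2) 1 0 * (x : M2) 1 1 - (g : M2) 1 1 * (x : M2) 1 0) +
      (x : M2) 1 0 * ((g : M2) 0 0 * (x : M2) 1 1 - (g : M2) 0 1 * (x : M2) 1 0)) := by
  rw [Units.val_mul, Units.val_mul, inv_entries, Matrix.mul_smul, Matrix.smul_apply, Matrix.mul_apply,
    Fin.sum_univ_two, Matrix.mul_apply, Matrix.mul_apply, Fin.sum_univ_two, Fin.sum_univ_two, smul_eq_mul]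
  congr 1
  simp
  ring

theorem conj_00 (x g : GL2) : ((x * g * x⁻¹ : GL2) : M2) 0 0 = (x : M2).det⁻¹ *
    ((x : M2) 0 1 * ((g : M2) 1 0 * (x : M2) 1 1 - (g : M2) 1 1 * (x : M2) 1 0) +
      (x : M2) 0 0 * ((g : M2) 0 0 * (x : M2) 1 1 - (g : M2) 0 1 * (x : M2) 1 0)) := by
  rw [Units.val_mul, Units.val_mul, inv_entries, Matrix.mul_smul, Matrix.smul_apply, Matrix.mul_apply,
    Fin.sum_univ_two, Matrix.mul_apply, Matrix.mul_apply, Fin.sum_univ_two, Fin.sum_univ_two, smul_eq_mul]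
  congr 1
  simp
  ring

theorem conj_11 (x g : GL2) : ((x * g * x⁻¹ : GL2) : M2) 1 1 = (x : M2).det⁻¹ *
    ((x : M2) 1 1 * ((g : M2) 1 1 * (x : M2) 0 0 - (g : M2) 1 0 * (x : M2) 0 1) +
      (x : M2) 1 0 * ((g : M2) 0 1 * (x : M2) 0 0 - (g : M2) 0 0 * (x : M2) 0 1)) := by
  rw [Units.val_mul, Units.val_mul, inv_entries, Matrix.mul_smul, Matrix.smul_apply, Matrix.mul_apply,
    Fin.sum_univ_two, Matrix.mul_apply, Matrix.mul_apply, Fin.sum_univ_two, Fin.sum_univ_two, smul_eq_mul]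
  congr 1
  simp
  ring

section card

theorem card_bo [Finite F] : Nat.card Bo = Nat.card F * (Nat.card F - 1) ^ 2 := by
  have := Fintype.ofFinite F
  rw [← Nat.card_congr utEquiv, Nat.card_prod, Nat.card_prod, Nat.card_units]
  ring

theorem card_GL2 [Finite F] : Nat.card GL2 = Nat.card F * (Nat.card F - 1) ^ 2 * (Nat.card F + 1) := by
  have := Fintype.ofFinite F
  have h := Matrix.card_GL_field (𝔽 := F) 2
  rw [← Nat.card_eq_fintype_card] at h
  rw [h, Fin.prod_univ_two]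
  obtain ⟨m, hm⟩ : ∃ m, Nat.card F = m + 1 := ⟨Nat.card F - 1, by have := Nat.card_pos (α := F); omega⟩
  rw [hm]
  simp only [Nat.add_sub_cancel, Fin.val_zero, Fin.val_one, pow_zero, pow_one]
  rw [show (m + 1) ^ 2 - 1 = m * (m + 2) by rw [show (m + 1) ^ 2 = m * (m + 2) + 1 by ring, Nat.add_sub_cancel],
    show (m + 1) ^ 2 - (m + 1) = (m + 1) * m by rw [show (m + 1) ^ 2 = (m + 1) * m + (m + 1) by ring, Nat.add_sub_cancel]]
  ring

theorem card_bo_cast [Finite F] : (Nat.card Bo : ℂ) = q * (q - 1) ^ 2 := by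
  rw [card_bo]
  have : 1 ≤ Nat.card F := Nat.card_pos
  push_cast [Nat.cast_sub this]
  ring

theorem card_GL2_cast [Finite F] : (Nat.card GL2 : ℂ) = q * (q - 1) ^ 2 * (q + 1) := by
  rw [card_GL2]
  have : 1 ≤ Nat.card F := Nat.card_pos
  push_cast [Nat.cast_sub this]
  ring

theorem q_ne_zero [Finite F] : q ≠ 0 := by
  have : 0 < Nat.card F := Nat.card_pos
  exact_mod_cast this.ne'

theorem one_lt_card [Finite F] : 1 < Nat.card F := Finite.one_lt_card

theorem q_sub_one_ne_zero [Finite F] : q - 1 ≠ 0 := by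
  rw [sub_ne_zero]
  have := one_lt_card (F := F)
  exact_mod_cast this.ne'

end card

/-- the linear character of the Borel subgroup -/
noncomputable def lam (α β : MulChar F ℂ) : Bo → ℂ :=
  fun b => α (((b : GL2) : M2) 0 0) * β (((b : GL2) : M2) 1 1)

/-- the linear character as a homomorphism -/
noncomputable def boHom (α β : MulChar F ℂ) : Bo →* ℂ where
  toFun := lam α β
  map_one' := by simp [lam]
  map_mul' := by
    rintro ⟨a, ha⟩ ⟨b, hb⟩
    rw [mem_bo] at ha hb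
    change α (((a * b : GL2) : M2) 0 0) * β (((a * b : GL2) : M2) 1 1) =
      α ((a : M2) 0 0) * β ((a : M2) 1 1) * (α ((b : M2) 0 0) * β ((b : M2) 1 1))
    rw [Units.val_mul, Matrix.mul_apply, Matrix.mul_apply, Fin.sum_univ_two, Fin.sum_univ_two, ha, hb,
      mul_zero, zero_mul, add_zero, zero_add, map_mul, map_mul]
    ring

section ps

variable [Finite F] [Fintype (Matrix.GeneralLinearGroup (Fin 2) F)]

/-- the principal series -/
noncomputable def ps (α β : MulChar F ℂ) : GL2 → ℂ := Cfsg.indFun Bo (lam α β)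

theorem ps_isCharacter (α β : MulChar F ℂ) : IsCharacter GL2 (ps α β) :=
  IsCharacter.indFun _ (isCharacter_of_hom (boHom α β))

theorem ps_isClassFunction (α β : MulChar F ℂ) : IsClassFunction GL2 (ps α β) :=
  indFun_isClassFunction _ _

theorem ps_apply (α β : MulChar F ℂ) (g : GL2) : ps α β g = (Nat.card Bo : ℂ)⁻¹ *
    ∑ x : GL2, if ((x * g * x⁻¹ : GL2) : M2) 1 0 = 0 then
      α (((x * g * x⁻¹ : GL2) : M2) 0 0) * β (((x * g * x⁻¹ : GL2) : M2) 1 1) else 0 := by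
  rw [ps, SL2Ind.indFun_apply']
  congr 1
  apply Finset.sum_congr rfl
  intro x _
  rw [extendByZero_eq]
  by_cases h : x * g * x⁻¹ ∈ Bo
  · rw [dif_pos h, if_pos (mem_bo.1 h)]; rfl
  · rw [dif_neg h, if_neg (fun h' => h (mem_bo.2 h'))]

omit [Fintype (Matrix.GeneralLinearGroup (Fin 2) F)] in
theorem card_bo_ne_zero : (Nat.card Bo : ℂ) ≠ 0 := by
  rw [card_bo_cast]
  exact mul_ne_zero q_ne_zero (pow_ne_zero _ q_sub_one_ne_zero)

/-- value at central elements -/
theorem ps_center (α β : MulChar F ℂ) (a : Fˣ) :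
    ps α β (ut a 0 a) = (q + 1) * (α a * β a) := by
  rw [ps_apply]
  have h1 : ∀ x : GL2, x * (ut a 0 a) * x⁻¹ = ut a 0 a := by
    intro x
    have : x * ut a 0 a = ut a 0 a * x := by
      apply ext2 <;> rw [Units.val_mul, Units.val_mul, Matrix.mul_apply, Matrix.mul_apply, Fin.sum_univ_two, Fin.sum_univ_two] <;>
        simp <;> ring
    rw [this]; group
  simp only [h1, ut_10, ut_00, ut_11, if_true]
  rw [Finset.sum_const, Finset.card_univ, nsmul_eq_mul,
    ← Nat.card_eq_fintype_card, card_GL2_cast, card_bo_cast]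
  have h2 := q_ne_zero (F := F)
  have h3 := q_sub_one_ne_zero (F := F)
  field_simp

theorem ps_one (α β : MulChar F ℂ) : ps α β 1 = q + 1 := by
  have h : (1 : GL2) = ut 1 0 1 := ext2 rfl rfl rfl rfl
  rw [h, ps_center]
  simp

/-- value at parabolic elements -/
theorem ps_par (α β : MulChar F ℂ) (a : Fˣ) {s : F} (hs : s ≠ 0) :
    ps α β (ut a s a) = α a * β a := by
  obtain ⟨g, hg⟩ : ∃ g : GL2, g = ut a s a := ⟨_, rfl⟩
  have h00 : (g : M2) 0 0 = a := by rw [hg]; rfl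
  have h01 : (g : M2) 0 1 = s := by rw [hg]; rfl
  have h10 : (g : M2) 1 0 = 0 := by rw [hg]; rfl
  have h11 : (g : M2) 1 1 = a := by rw [hg]; rfl
  rw [← hg, ps_apply]
  have h1 : ∀ x : GL2, (if ((x * g * x⁻¹ : GL2) : M2) 1 0 = 0 then
      α (((x * g * x⁻¹ : GL2) : M2) 0 0) * β (((x * g * x⁻¹ : GL2) : M2) 1 1) else 0) =
      if x ∈ Bo then α a * β a else 0 := by
    intro x
    have hd := det_ne x
    have hd' : (x : M2).det = (x : M2) 0 0 * (x : M2) 1 1 - (x : M2) 0 1 * (x : M2) 1 0 := det_fin_two _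
    have e10 := conj_10 x g
    have e00 := conj_00 x g
    have e11 := conj_11 x g
    rw [hd', h00, h01, h10, h11] at e10 e00 e11
    by_cases hx : x ∈ Bo
    · have hx' := mem_bo.1 hx
      rw [if_pos hx]
      rw [hx', mul_zero, sub_zero] at hd e10 e00 e11
      have h3 := left_ne_zero_of_mul hd
      have h4 := right_ne_zero_of_mul hd
      have e10' : ((x * g * x⁻¹ : GL2) : M2) 1 0 = 0 := by rw [e10]; ring
      have e00' : ((x * g * x⁻¹ : GL2) : M2) 0 0 = a := by rw [e00]; field_simp; try ring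
      have e11' : ((x * g * x⁻¹ : GL2) : M2) 1 1 = a := by rw [e11]; field_simp; try ring
      rw [if_pos e10', e00', e11']
    · rw [if_neg hx, if_neg]
      rw [e10]
      intro h
      have hx' : (x : M2) 1 0 ≠ 0 := fun h => hx (mem_bo.2 h)
      have h5 := (mul_eq_zero.1 h).resolve_left (inv_ne_zero hd)
      have h6 : s * ((x : M2) 1 0 * (x : M2) 1 0) = 0 := by linear_combination -h5
      rcases mul_eq_zero.1 h6 with h7 | h7
      · exact hs h7
      · exact hx' (mul_self_eq_zero.1 h7)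
  simp only [h1]
  rw [SL2Ind.sum_ite_mem_subgroup, ← mul_assoc, inv_mul_cancel₀ card_bo_ne_zero, one_mul]

/-- the Weyl element -/
def wW : GL2 := GeneralLinearGroup.mkOfDetNeZero !![0, 1; 1, 0] (by simp [det_fin_two])

/-- value at split elements -/
theorem ps_split (α β : MulChar F ℂ) {a d : Fˣ} (had : a ≠ d) :
    ps α β (ut a 0 d) = α a * β d + α d * β a := by
  obtain ⟨g, hg⟩ : ∃ g : GL2, g = ut a 0 d := ⟨_, rfl⟩
  have h00 : (g : M2) 0 0 = a := by rw [hg]; rfl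
  have h01 : (g : M2) 0 1 = 0 := by rw [hg]; rfl
  have h10 : (g : M2) 1 0 = 0 := by rw [hg]; rfl
  have h11 : (g : M2) 1 1 = d := by rw [hg]; rfl
  rw [← hg, ps_apply]
  have hadF : (a : F) - d ≠ 0 := sub_ne_zero.2 (fun h => had (Units.ext h))
  have h1 : ∀ x : GL2, (if ((x * g * x⁻¹ : GL2) : M2) 1 0 = 0 then
      α (((x * g * x⁻¹ : GL2) : M2) 0 0) * β (((x * g * x⁻¹ : GL2) : M2) 1 1) else 0) =
      (if x ∈ Bo then α a * β d else 0) + (if x * wW ∈ Bo then α d * β a else 0) := by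
    intro x
    have hd := det_ne x
    have hd' : (x : M2).det = (x : M2) 0 0 * (x : M2) 1 1 - (x : M2) 0 1 * (x : M2) 1 0 := det_fin_two _
    have e10 := conj_10 x g
    have e00 := conj_00 x g
    have e11 := conj_11 x g
    rw [hd', h00, h01, h10, h11] at e10 e00 e11
    have hw : ((x * wW : GL2) : M2) 1 0 = (x : M2) 1 1 := by
      rw [Units.val_mul, Matrix.mul_apply, Fin.sum_univ_two]
      simp [wW, GeneralLinearGroup.mkOfDetNeZero]
    by_cases hx : x ∈ Bo
    · have hx' := mem_bo.1 hx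
      have hx1 : x * wW ∉ Bo := by
        rw [mem_bo, hw]
        intro h
        rw [hx', h] at hd; apply hd; ring
      rw [if_pos hx, if_neg hx1, add_zero]
      rw [hx', mul_zero, sub_zero] at hd e10 e00 e11
      have h3 := left_ne_zero_of_mul hd
      have h4 := right_ne_zero_of_mul hd
      have e10' : ((x * g * x⁻¹ : GL2) : M2) 1 0 = 0 := by rw [e10]; ring
      have e00' : ((x * g * x⁻¹ : GL2) : M2) 0 0 = a := by rw [e00]; field_simp; try ring
      have e11' : ((x * g * x⁻¹ : GL2) : M2) 1 1 = d := by rw [e11]; field_simp; try ring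
      rw [if_pos e10', e00', e11']
    · by_cases hx1 : x * wW ∈ Bo
      · have hx' : (x : M2) 1 1 = 0 := by rw [← hw]; exact mem_bo.1 hx1
        rw [if_neg hx, if_pos hx1, zero_add]
        rw [hx', mul_zero, zero_sub] at hd e10 e00 e11
        have h3 := left_ne_zero_of_mul (neg_ne_zero.1 hd)
        have h4 := right_ne_zero_of_mul (neg_ne_zero.1 hd)
        have e10' : ((x * g * x⁻¹ : GL2) : M2) 1 0 = 0 := by rw [e10]; ring
        have e00' : ((x * g * x⁻¹ : GL2) : M2) 0 0 = d := by rw [e00]; field_simp; try ring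
        have e11' : ((x * g * x⁻¹ : GL2) : M2) 1 1 = a := by rw [e11]; field_simp; try ring
        rw [if_pos e10', e00', e11']
      · rw [if_neg hx, if_neg hx1, add_zero, if_neg]
        rw [e10]
        intro h
        have hx' : (x : M2) 1 0 ≠ 0 := fun h => hx (mem_bo.2 h)
        have hx1' : (x : M2) 1 1 ≠ 0 := fun h => hx1 (mem_bo.2 (hw.trans h))
        have h5 := (mul_eq_zero.1 h).resolve_left (inv_ne_zero hd)
        have h6 : (x : M2) 1 0 * (x : M2) 1 1 * ((a : F) - d) = 0 := by linear_combination h5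
        exact mul_ne_zero (mul_ne_zero hx' hx1') hadF h6
  simp only [h1]
  rw [Finset.sum_add_distrib, SL2Ind.sum_ite_mem_subgroup,
    Fintype.sum_equiv (Equiv.mulRight (wW : GL2)) (fun x => if x * wW ∈ Bo then α d * β a else 0)
      (fun x => if x ∈ Bo then α d * β a else 0) (fun x => rfl), SL2Ind.sum_ite_mem_subgroup, ← mul_add,
    ← mul_assoc, inv_mul_cancel₀ card_bo_ne_zero, one_mul]

/-- value at elliptic elements -/
theorem ps_ell (α β : MulChar F ℂ) {g : GL2}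
    (hg : ∀ (c : F) (v : Fin 2 → F), v ≠ 0 → (g : M2).mulVec v ≠ c • v) : ps α β g = 0 := by
  rw [ps_apply, Finset.sum_eq_zero, mul_zero]
  intro x _
  rw [if_neg]
  intro h
  have e : ((x⁻¹ : GL2) : M2) *ᵥ ![1, 0] ≠ 0 := by
    intro h0
    have h2 : ((x : GL2) : M2) *ᵥ (((x⁻¹ : GL2) : M2) *ᵥ ![1, 0]) = 0 := by rw [h0, Matrix.mulVec_zero]
    rw [Matrix.mulVec_mulVec, ← Units.val_mul, mul_inv_cancel, Units.val_one, Matrix.one_mulVec] at h2
    have := congrFun h2 0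
    simp at this
  apply hg (((x * g * x⁻¹ : GL2) : M2) 0 0) _ e
  have h3 : ((x * g * x⁻¹ : GL2) : M2) *ᵥ ![1, 0] = (((x * g * x⁻¹ : GL2) : M2) 0 0) • ![1, 0] := by
    generalize ((x * g * x⁻¹ : GL2) : M2) = M at h ⊢
    ext i
    fin_cases i
    · simp [Matrix.mulVec_fin_two]
    · simp [Matrix.mulVec_fin_two, h]
  have h4 : (g : M2) *ᵥ (((x⁻¹ : GL2) : M2) *ᵥ ![1, 0]) =
      ((x⁻¹ : GL2) : M2) *ᵥ (((x * g * x⁻¹ : GL2) : M2) *ᵥ ![1, 0]) := by
    rw [Matrix.mulVec_mulVec, Matrix.mulVec_mulVec, ← Units.val_mul, ← Units.val_mul]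
    congr 2
    group
  rw [h4, h3, Matrix.mulVec_smul]

/-! ### conjugacy -/

omit [Finite F] [Fintype (Matrix.GeneralLinearGroup (Fin 2) F)] in
theorem conj_split {a d : Fˣ} (had : a ≠ d) (s : F) : IsConj (ut a s d) (ut a 0 d) := by
  apply ClGL2Cls.isConj_of_trace_det
  · rw [ClGL2Cls.isSc_iff]
    rintro ⟨_, _, h⟩
    exact had (Units.ext h)
  · rw [ClGL2Cls.isSc_iff]
    rintro ⟨_, _, h⟩
    exact had (Units.ext h)
  · rw [trace_fin_two, trace_fin_two]; rfl
  · rw [det_fin_two, det_fin_two]; simp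

omit [Finite F] [Fintype (Matrix.GeneralLinearGroup (Fin 2) F)] in
theorem conj_par (a : Fˣ) {s : F} (hs : s ≠ 0) : IsConj (ut a s a) (ut a 1 a) := by
  apply ClGL2Cls.isConj_of_trace_det
  · rw [ClGL2Cls.isSc_iff]
    rintro ⟨h, _, _⟩
    exact hs h
  · rw [ClGL2Cls.isSc_iff]
    rintro ⟨h, _, _⟩
    exact one_ne_zero h
  · rw [trace_fin_two, trace_fin_two]; rfl
  · rw [det_fin_two, det_fin_two]; simp

/-- sum over the unipotent radical -/
noncomputable def J [Fintype F] (χ : GL2 → ℂ) (a d : Fˣ) : ℂ := ∑ s : F, χ (ut a s d)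

omit [Finite F] [Fintype (Matrix.GeneralLinearGroup (Fin 2) F)] in
theorem J_split [Fintype F] {χ : GL2 → ℂ} (hχ : IsClassFunction GL2 χ) {a d : Fˣ} (had : a ≠ d) :
    J χ a d = q * χ (ut a 0 d) := by
  rw [J, Finset.sum_congr rfl (fun s _ => hχ.conj_eq (conj_split had s)), Finset.sum_const,
    Finset.card_univ, nsmul_eq_mul, Nat.card_eq_fintype_card]

omit [Finite F] [Fintype (Matrix.GeneralLinearGroup (Fin 2) F)] in
theorem J_par [Fintype F] {χ : GL2 → ℂ} (hχ : IsClassFunction GL2 χ) (a : Fˣ) :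
    J χ a a = χ (ut a 0 a) + (q - 1) * χ (ut a 1 a) := by
  rw [J, ← Finset.add_sum_erase _ _ (Finset.mem_univ (0 : F)), Finset.sum_congr rfl
    (g := fun _ => χ (ut a 1 a)) (fun s hs => hχ.conj_eq (conj_par a (Finset.ne_of_mem_erase hs))),
    Finset.sum_const, Finset.card_erase_of_mem (Finset.mem_univ _), Finset.card_univ, nsmul_eq_mul,
    Nat.card_eq_fintype_card]
  have : 1 ≤ Fintype.card F := Fintype.card_pos
  push_cast [Nat.cast_sub this]
  rfl

theorem J_ps [Fintype F] (α β : MulChar F ℂ) (a d : Fˣ) :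
    J (ps α β) a d = q * (α a * β d + α d * β a) := by
  by_cases had : a = d
  · subst had
    rw [J_par (ps_isClassFunction _ _), ps_center, ps_par _ _ _ one_ne_zero]
    ring
  · rw [J_split (ps_isClassFunction _ _) had, ps_split _ _ had]

/-- Frobenius reciprocity with the principal series -/
theorem inner_ps [Fintype F] {χ : GL2 → ℂ} (hχ : IsClassFunction GL2 χ) (α β : MulChar F ℂ) :
    (q * (q - 1) ^ 2) * classInner χ (ps α β) =
      ∑ a : Fˣ, ∑ d : Fˣ, J χ a d * (conj (α (a : F)) * conj (β (d : F))) := by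
  have : Fintype Bo := Fintype.ofFinite _
  rw [ps, frobenius_reciprocity' _ _ _ hχ, classInner_def, ← card_bo_cast, ← mul_assoc,
    mul_inv_cancel₀ card_bo_ne_zero, one_mul, ← Equiv.sum_comp utEquiv, Fintype.sum_prod_type]
  apply Finset.sum_congr rfl
  intro a _
  rw [Fintype.sum_prod_type, Finset.sum_comm]
  apply Finset.sum_congr rfl
  intro d _
  rw [J, Finset.sum_mul]
  apply Finset.sum_congr rfl
  intro s _
  rw [utEquiv_apply, lam, utEquiv_apply, ut_00, ut_11, map_mul]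

theorem sum_two [Fintype F] (α β α' β' : MulChar F ℂ) :
    ∑ a : Fˣ, ∑ d : Fˣ, (α' a * β' d) * (conj (α (a : F)) * conj (β (d : F))) =
      if α' = α ∧ β' = β then (q - 1) ^ 2 else 0 := by
  have h : ∀ a d : Fˣ, (α' a * β' d) * (conj (α (a : F)) * conj (β (d : F))) =
    (α' a * conj (α (a : F))) * (β' d * conj (β (d : F))) := fun a d => by ring
  simp only [h]
  rw [← Finset.sum_mul_sum, sum_mulChar_mul_conj, sum_mulChar_mul_conj]
  by_cases h1 : α' = α
  · by_cases h2 : β' = β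
    · rw [if_pos h1, if_pos h2, if_pos ⟨h1, h2⟩]; ring
    · rw [if_neg h2, if_neg (show ¬ (α' = α ∧ β' = β) from fun h => h2 h.2), mul_zero]
  · rw [if_neg h1, if_neg (show ¬ (α' = α ∧ β' = β) from fun h => h1 h.1), zero_mul]

omit [Fintype (Matrix.GeneralLinearGroup (Fin 2) F)] in
theorem qq_ne_zero : (q * (q - 1) ^ 2) ≠ 0 := mul_ne_zero q_ne_zero (pow_ne_zero _ q_sub_one_ne_zero)

theorem inner_ps_ps (α β α' β' : MulChar F ℂ) :
    classInner (ps α' β') (ps α β) = (if α' = α ∧ β' = β then 1 else 0) +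
      (if β' = α ∧ α' = β then 1 else 0) := by
  have := Fintype.ofFinite F
  apply mul_left_cancel₀ (qq_ne_zero (F := F))
  rw [inner_ps (ps_isClassFunction _ _)]
  have h : ∀ a d : Fˣ, J (ps α' β') a d * (conj (α (a : F)) * conj (β (d : F))) =
    q * ((α' a * β' d) * (conj (α (a : F)) * conj (β (d : F)))) +
    q * ((β' a * α' d) * (conj (α (a : F)) * conj (β (d : F)))) := by
    intro a d
    rw [J_ps]
    ring
  simp only [h, Finset.sum_add_distrib, ← Finset.mul_sum, sum_two]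
  split_ifs <;> ring

/-- linear characters -/
noncomputable def lin (α : MulChar F ℂ) : GL2 → ℂ := fun g => α ((g : M2).det)

omit [Finite F] in
theorem lin_isIrr (α : MulChar F ℂ) : IsIrrCharacter GL2 (lin α) := by
  let f : GL2 →* ℂ :=
    { toFun := lin α
      map_one' := by simp [lin]
      map_mul' := fun a b => by
        change α _ = α _ * α _
        rw [Units.val_mul, det_mul, map_mul] }
  have h : IsCharacter GL2 (lin α) := isCharacter_of_hom f
  apply h.isIrr_of_one_eq_one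
  exact f.map_one

omit [Finite F] [Fintype (Matrix.GeneralLinearGroup (Fin 2) F)] in
theorem lin_ut (α : MulChar F ℂ) (a : Fˣ) (s : F) (d : Fˣ) : lin α (ut a s d) = α a * α d := by
  rw [lin, coe_ut, det_fin_two_of, mul_zero, sub_zero, map_mul]

omit [Finite F] [Fintype (Matrix.GeneralLinearGroup (Fin 2) F)] in
theorem lin_one (α : MulChar F ℂ) : lin α 1 = 1 := by simp [lin]

omit [Finite F] [Fintype (Matrix.GeneralLinearGroup (Fin 2) F)] in
theorem J_lin [Fintype F] (α : MulChar F ℂ) (a d : Fˣ) : J (lin α) a d = q * (α a * α d) := by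
  rw [J, Finset.sum_congr rfl (fun s _ => lin_ut α a s d), Finset.sum_const, Finset.card_univ,
    nsmul_eq_mul, Nat.card_eq_fintype_card]

theorem inner_lin_ps (γ α β : MulChar F ℂ) :
    classInner (lin γ) (ps α β) = if γ = α ∧ γ = β then 1 else 0 := by
  have := Fintype.ofFinite F
  apply mul_left_cancel₀ (qq_ne_zero (F := F))
  rw [inner_ps (lin_isIrr γ).isClassFunction]
  simp only [J_lin, mul_assoc, ← Finset.mul_sum]
  have h := sum_two α β γ γ
  simp only [mul_assoc, ← Finset.mul_sum] at h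
  rw [h]
  split_ifs <;> ring

theorem ps_isIrr {α β : MulChar F ℂ} (h : α ≠ β) : IsIrrCharacter GL2 (ps α β) := by
  apply (ps_isCharacter α β).isIrr_of_norm_one
  rw [inner_ps_ps, if_pos ⟨rfl, rfl⟩, if_neg (fun h' => h h'.2), add_zero]

/-- the twisted Steinberg characters -/
noncomputable def St (α : MulChar F ℂ) : GL2 → ℂ := ps α α - lin α

theorem St_isIrr (α : MulChar F ℂ) : IsIrrCharacter GL2 (St α) := by
  have h1 : classInner (lin α) (ps α α) = 1 := by rw [inner_lin_ps, if_pos ⟨rfl, rfl⟩]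
  have h2 : classInner (ps α α) (lin α) = 1 := by rw [← conj_classInner, h1, map_one]
  have h3 : IsCharacter GL2 (St α) := (ps_isCharacter α α).sub_constituent (lin_isIrr α) (by rw [h2]; exact one_ne_zero)
  apply h3.isIrr_of_norm_one
  rw [St, classInner_sub_left, classInner_sub_right, classInner_sub_right, h1, h2, inner_ps_ps,
    if_pos ⟨rfl, rfl⟩, (lin_isIrr α).classInner_self]
  ring

theorem St_one (α : MulChar F ℂ) : St α 1 = q := by
  rw [St, Pi.sub_apply, ps_one, lin_one]; ring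

theorem inner_St_ps (γ α β : MulChar F ℂ) :
    classInner (St γ) (ps α β) = if γ = α ∧ γ = β then 1 else 0 := by
  rw [St, classInner_sub_left, inner_ps_ps, inner_lin_ps]
  split_ifs <;> ring

/-- a constituent of a principal series character -/
theorem constituent {χ : GL2 → ℂ} (hχ : IsIrrCharacter GL2 χ) {α β : MulChar F ℂ}
    (h : classInner χ (ps α β) ≠ 0) :
    χ = lin α ∨ χ = St α ∨ (α ≠ β ∧ χ = ps α β) := by
  by_cases hab : α = β
  · subst hab
    by_contra hcon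
    push Not at hcon
    apply h
    have : ps α α = lin α + St α := by rw [St]; abel
    rw [this, classInner_add_right, hχ.classInner_eq_zero (lin_isIrr α) hcon.1,
      hχ.classInner_eq_zero (St_isIrr α) hcon.2.1, add_zero]
  · right; right
    refine ⟨hab, ?_⟩
    by_contra hne
    exact h (hχ.classInner_eq_zero (ps_isIrr hab) hne)

/-- Fourier inversion on the torus -/
theorem J_eq_zero [Fintype F] {χ : GL2 → ℂ} (hχ : IsClassFunction GL2 χ)
    (h : ∀ α β : MulChar F ℂ, classInner χ (ps α β) = 0) (a₀ d₀ : Fˣ) : J χ a₀ d₀ = 0 := by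
  have : Fintype (MulChar F ℂ) := Fintype.ofFinite _
  have h1 : ∀ α β : MulChar F ℂ, (∑ a : Fˣ, ∑ d : Fˣ, J χ a d * (conj (α (a : F)) * conj (β (d : F)))) *
      (α a₀ * β d₀) = 0 := by
    intro α β
    rw [← inner_ps hχ, h, mul_zero, zero_mul]
  have h2 : ∑ α : MulChar F ℂ, ∑ β : MulChar F ℂ,
      (∑ a : Fˣ, ∑ d : Fˣ, J χ a d * (conj (α (a : F)) * conj (β (d : F)))) * (α a₀ * β d₀) = 0 :=
    Finset.sum_eq_zero (fun α _ => Finset.sum_eq_zero (fun β _ => h1 α β))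
  have h3 : ∀ α : MulChar F ℂ, ∀ a : Fˣ, conj (α (a : F)) * α a₀ = α ((a₀ * a⁻¹ : Fˣ) : F) := by
    intro α a
    rw [conj_mulChar, inv_apply_unit, Units.val_mul, map_mul, mul_comm]
  have h3' : ∀ α : MulChar F ℂ, ∀ a : Fˣ, conj (α (a : F)) * α d₀ = α ((d₀ * a⁻¹ : Fˣ) : F) := by
    intro α a
    rw [conj_mulChar, inv_apply_unit, Units.val_mul, map_mul, mul_comm]
  have h4 : ∑ α : MulChar F ℂ, ∑ β : MulChar F ℂ,
      (∑ a : Fˣ, ∑ d : Fˣ, J χ a d * (conj (α (a : F)) * conj (β (d : F)))) * (α a₀ * β d₀) =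
      ∑ a : Fˣ, ∑ d : Fˣ, J χ a d * ((∑ α : MulChar F ℂ, α ((a₀ * a⁻¹ : Fˣ) : F)) *
        (∑ β : MulChar F ℂ, β ((d₀ * d⁻¹ : Fˣ) : F))) := by
    have e1 : ∀ α β : MulChar F ℂ, (∑ a : Fˣ, ∑ d : Fˣ, J χ a d * (conj (α (a : F)) * conj (β (d : F)))) *
      (α a₀ * β d₀) = ∑ a : Fˣ, ∑ d : Fˣ, J χ a d * (α ((a₀ * a⁻¹ : Fˣ) : F) * β ((d₀ * d⁻¹ : Fˣ) : F)) := by
      intro α β
      rw [Finset.sum_mul]
      apply Finset.sum_congr rfl
      intro a _
      rw [Finset.sum_mul]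
      apply Finset.sum_congr rfl
      intro d _
      rw [← h3 α a, ← h3' β d]; ring
    simp only [e1]
    rw [Finset.sum_congr rfl (fun α _ => Finset.sum_comm), Finset.sum_comm]
    apply Finset.sum_congr rfl
    intro a _
    rw [Finset.sum_congr rfl (fun α _ => Finset.sum_comm), Finset.sum_comm]
    apply Finset.sum_congr rfl
    intro d _
    simp only [← Finset.mul_sum, ← Finset.sum_mul]
  rw [h4] at h2
  simp only [sum_mulChars, mul_inv_eq_one] at h2
  simp only [mul_ite, ite_mul, mul_zero, zero_mul, Finset.sum_ite_eq, Finset.mem_univ, if_true] at h2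
  have h5 := q_sub_one_ne_zero (F := F)
  rcases mul_eq_zero.1 h2 with h6 | h6
  · exact h6
  · exact absurd h6 (mul_ne_zero h5 h5)

/-- a cuspidal irreducible character: degree and value at a transvection -/
theorem cuspidal {χ : GL2 → ℂ} (hχ : IsIrrCharacter GL2 χ)
    (h : ∀ α β : MulChar F ℂ, classInner χ (ps α β) = 0) :
    ∃ n : ℕ, 1 ≤ n ∧ χ 1 = (q - 1) * n ∧ χ (ut 1 1 1) = - n ∧
      ∀ a d : Fˣ, a ≠ d → χ (ut a 0 d) = 0 := by
  have := Fintype.ofFinite F
  have hJ := J_eq_zero hχ.isClassFunction h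
  have h1 := hJ 1 1
  rw [J_par hχ.isClassFunction] at h1
  have e1 : (ut 1 0 1 : GL2) = 1 := ext2 rfl rfl rfl rfl
  rw [e1] at h1
  obtain ⟨m, hm0, hm⟩ := hχ.exists_degree
  have hint : IsIntegral ℤ (χ (ut 1 1 1)) := by
    obtain ⟨n, ρ, hρ⟩ := hχ.isCharacter
    rw [← hρ]
    exact CharValues.isIntegral_character ρ _
  have h5 := q_sub_one_ne_zero (F := F)
  have h6 : χ (ut 1 1 1) = ((-(m : ℚ) / ((Nat.card F : ℚ) - 1) : ℚ) : ℂ) := by
    push_cast
    rw [eq_div_iff h5, ← hm]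
    linear_combination h1
  obtain ⟨k, hk⟩ := CharCentral.exists_int_of_isIntegral_rat hint _ h6
  have h7 : (m : ℤ) = ((Nat.card F : ℤ) - 1) * (-k) := by
    rw [hk, hm] at h1
    have : ((m : ℤ) : ℂ) = (((Nat.card F : ℤ) - 1) * (-k) : ℤ) := by
      push_cast
      linear_combination h1
    exact_mod_cast this
  have hq := one_lt_card (F := F)
  have h8 : 0 < -k := by
    by_contra hcon
    have h9 : ((Nat.card F : ℤ) - 1) * (-k) ≤ 0 := mul_nonpos_of_nonneg_of_nonpos (by omega) (by omega)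
    omega
  refine ⟨(-k).toNat, by omega, ?_, ?_, ?_⟩
  · rw [hm]
    have h9 : (((-k).toNat : ℤ) : ℂ) = ((-k : ℤ) : ℂ) := by rw [Int.toNat_of_nonneg h8.le]
    rw [Int.cast_natCast] at h9
    rw [h9]
    have : ((m : ℤ) : ℂ) = (((Nat.card F : ℤ) - 1) * (-k) : ℤ) := by rw [h7]
    push_cast at this ⊢
    exact this
  · have h9 : (((-k).toNat : ℤ) : ℂ) = ((-k : ℤ) : ℂ) := by rw [Int.toNat_of_nonneg h8.le]
    rw [Int.cast_natCast] at h9
    rw [hk, h9]; push_cast; ring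
  · intro a d had
    have h9 := hJ a d
    rw [J_split hχ.isClassFunction had] at h9
    exact (mul_eq_zero.1 h9).resolve_left q_ne_zero

theorem lin_injective : Function.Injective (lin : MulChar F ℂ → GL2 → ℂ) := by
  intro α β h
  have h1 : classInner (lin α) (ps β β) = 1 := by rw [h, inner_lin_ps, if_pos ⟨rfl, rfl⟩]
  rw [inner_lin_ps] at h1
  by_contra hne
  rw [if_neg (fun h => hne h.1)] at h1
  exact zero_ne_one h1

theorem St_injective : Function.Injective (St : MulChar F ℂ → GL2 → ℂ) := by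
  intro α β h
  have h1 : classInner (St α) (ps β β) = 1 := by rw [h, inner_St_ps, if_pos ⟨rfl, rfl⟩]
  rw [inner_St_ps] at h1
  by_contra hne
  rw [if_neg (fun h => hne h.1)] at h1
  exact zero_ne_one h1

theorem ps_eq_iff {α β α' β' : MulChar F ℂ} (h : α ≠ β) (h' : α' ≠ β') :
    ps α β = ps α' β' ↔ (α' = α ∧ β' = β) ∨ (α' = β ∧ β' = α) := by
  constructor
  · intro he
    have h1 : classInner (ps α' β') (ps α β) = 1 := by rw [he, (ps_isIrr h').classInner_self]
    rw [inner_ps_ps] at h1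
    by_contra hcon
    push Not at hcon
    rw [if_neg (fun h => hcon.1 h.1 h.2), if_neg (fun h => hcon.2 h.2 h.1), add_zero] at h1
    exact zero_ne_one h1
  · rintro (⟨e1, e2⟩ | ⟨e1, e2⟩)
    · rw [e1, e2]
    · by_contra hne
      have h1 := (ps_isIrr h).classInner_eq_zero (ps_isIrr h') hne
      rw [inner_ps_ps, if_pos (show β = α' ∧ α = β' from ⟨e1.symm, e2.symm⟩)] at h1
      split_ifs at h1 <;> norm_num at h1

/-- the four kinds of irreducible characters -/
theorem kinds {χ : GL2 → ℂ} (hχ : IsIrrCharacter GL2 χ) :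
    (∃ α : MulChar F ℂ, χ = lin α) ∨ (∃ α : MulChar F ℂ, χ = St α) ∨
    (∃ α β : MulChar F ℂ, α ≠ β ∧ χ = ps α β) ∨
    (∀ α β : MulChar F ℂ, classInner χ (ps α β) = 0) := by
  by_cases h : ∀ α β : MulChar F ℂ, classInner χ (ps α β) = 0
  · exact Or.inr (Or.inr (Or.inr h))
  · push Not at h
    obtain ⟨α, β, h⟩ := h
    rcases constituent hχ h with h | h | ⟨h, h'⟩
    · exact Or.inl ⟨α, h⟩
    · exact Or.inr (Or.inl ⟨α, h⟩)
    · exact Or.inr (Or.inr (Or.inl ⟨α, β, h, h'⟩))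

def PL (χ : GL2 → ℂ) : Prop := ∃ α : MulChar F ℂ, χ = lin α
def PS (χ : GL2 → ℂ) : Prop := ∃ α : MulChar F ℂ, χ = St α
def PP (χ : GL2 → ℂ) : Prop := ∃ α β : MulChar F ℂ, α ≠ β ∧ χ = ps α β
def PC (χ : GL2 → ℂ) : Prop := ∀ α β : MulChar F ℂ, classInner χ (ps α β) = 0

theorem card_PL : Nat.card {χ : IrrCharacter GL2 // PL (χ : GL2 → ℂ)} = Nat.card F - 1 := by
  rw [← card_mulChar (F := F)]
  symm
  apply Nat.card_eq_of_bijective (fun α : MulChar F ℂ => (⟨⟨lin α, lin_isIrr α⟩, α, rfl⟩ :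
    {χ : IrrCharacter GL2 // PL (χ : GL2 → ℂ)}))
  constructor
  · intro α β h
    exact lin_injective (congrArg (fun t : {χ : IrrCharacter GL2 // PL (χ : GL2 → ℂ)} => (t.1 : GL2 → ℂ)) h)
  · rintro ⟨⟨χ, hχ⟩, α, h⟩
    exact ⟨α, Subtype.ext (Subtype.ext h.symm)⟩

theorem card_PS : Nat.card {χ : IrrCharacter GL2 // PS (χ : GL2 → ℂ)} = Nat.card F - 1 := by
  rw [← card_mulChar (F := F)]
  symm
  apply Nat.card_eq_of_bijective (fun α : MulChar F ℂ => (⟨⟨St α, St_isIrr α⟩, α, rfl⟩ :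
    {χ : IrrCharacter GL2 // PS (χ : GL2 → ℂ)}))
  constructor
  · intro α β h
    exact St_injective (congrArg (fun t : {χ : IrrCharacter GL2 // PS (χ : GL2 → ℂ)} => (t.1 : GL2 → ℂ)) h)
  · rintro ⟨⟨χ, hχ⟩, α, h⟩
    exact ⟨α, Subtype.ext (Subtype.ext h.symm)⟩

omit [Fintype (Matrix.GeneralLinearGroup (Fin 2) F)] in
theorem card_offDiag : Nat.card {p : MulChar F ℂ × MulChar F ℂ // p.1 ≠ p.2} =
    (Nat.card F - 1) * (Nat.card F - 2) := by
  have : Fintype (MulChar F ℂ) := Fintype.ofFinite _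
  rw [Nat.card_eq_fintype_card, Fintype.card_subtype]
  have h : (Finset.univ.filter (fun p : MulChar F ℂ × MulChar F ℂ => p.1 ≠ p.2)) =
    (Finset.univ : Finset (MulChar F ℂ)).offDiag := by
    ext p; simp [Finset.mem_offDiag]
  rw [h, Finset.offDiag_card, Finset.card_univ, ← Nat.card_eq_fintype_card, card_mulChar,
    ← Nat.mul_sub_one]
  congr 1

theorem card_PP : 2 * Nat.card {χ : IrrCharacter GL2 // PP (χ : GL2 → ℂ)} =
    (Nat.card F - 1) * (Nat.card F - 2) := by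
  rw [← card_offDiag]
  let f : {p : MulChar F ℂ × MulChar F ℂ // p.1 ≠ p.2} → IrrCharacter GL2 :=
    fun p => ⟨ps p.1.1 p.1.2, ps_isIrr p.2⟩
  have h := two_mul_card_image f (fun p => ⟨(p.1.2, p.1.1), p.2.symm⟩) ?_ ?_
  · rw [← h]
    congr 2
    have : (Set.range f) = {χ : IrrCharacter GL2 | PP (χ : GL2 → ℂ)} := by
      ext χ
      constructor
      · rintro ⟨p, rfl⟩
        exact ⟨p.1.1, p.1.2, p.2, rfl⟩
      · rintro ⟨α, β, hα, h⟩
        exact ⟨⟨(α, β), hα⟩, Subtype.ext h.symm⟩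
    rw [this]
    rfl
  · intro p h
    have h1 : p.1.2 = p.1.1 := congrArg (fun t : {p : MulChar F ℂ × MulChar F ℂ // p.1 ≠ p.2} => t.1.1) h
    exact p.2 h1.symm
  · intro p p'
    have h1 : f p = f p' ↔ ps p.1.1 p.1.2 = ps p'.1.1 p'.1.2 := Subtype.ext_iff
    rw [h1, ps_eq_iff p.2 p'.2, Subtype.ext_iff, Subtype.ext_iff, Prod.ext_iff, Prod.ext_iff]

/-- decomposition of sums over the irreducible characters -/
theorem sum_kinds (f : IrrCharacter GL2 → ℂ) : ∑ χ : IrrCharacter GL2, f χ =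
    ∑ χ : IrrCharacter GL2, (if PL (χ : GL2 → ℂ) then f χ else 0) +
    ∑ χ : IrrCharacter GL2, (if PS (χ : GL2 → ℂ) then f χ else 0) +
    ∑ χ : IrrCharacter GL2, (if PP (χ : GL2 → ℂ) then f χ else 0) +
    ∑ χ : IrrCharacter GL2, (if PC (χ : GL2 → ℂ) then f χ else 0) := by
  rw [← Finset.sum_add_distrib, ← Finset.sum_add_distrib, ← Finset.sum_add_distrib]
  apply Finset.sum_congr rfl
  intro χ _
  have hq := one_lt_card (F := F)
  have hLS : PL (χ : GL2 → ℂ) → ¬ PS (χ : GL2 → ℂ) := by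
    rintro ⟨α, h⟩ ⟨β, h'⟩
    have := congrFun (h.symm.trans h') 1
    rw [lin_one, St_one] at this
    have : (1 : ℕ) = Nat.card F := by exact_mod_cast this
    omega
  have hLP : PL (χ : GL2 → ℂ) → ¬ PP (χ : GL2 → ℂ) := by
    rintro ⟨α, h⟩ ⟨β, γ, _, h'⟩
    have := congrFun (h.symm.trans h') 1
    rw [lin_one, ps_one] at this
    have : (1 : ℕ) = Nat.card F + 1 := by exact_mod_cast this
    omega
  have hSP : PS (χ : GL2 → ℂ) → ¬ PP (χ : GL2 → ℂ) := by
    rintro ⟨α, h⟩ ⟨β, γ, _, h'⟩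
    have := congrFun (h.symm.trans h') 1
    rw [St_one, ps_one] at this
    have : Nat.card F = Nat.card F + 1 := by exact_mod_cast this
    omega
  have hLC : PL (χ : GL2 → ℂ) → ¬ PC (χ : GL2 → ℂ) := by
    rintro ⟨α, h⟩ h'
    have := h' α α
    rw [h, inner_lin_ps, if_pos ⟨rfl, rfl⟩] at this
    exact one_ne_zero this
  have hSC : PS (χ : GL2 → ℂ) → ¬ PC (χ : GL2 → ℂ) := by
    rintro ⟨α, h⟩ h'
    have := h' α α
    rw [h, inner_St_ps, if_pos ⟨rfl, rfl⟩] at this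
    exact one_ne_zero this
  have hPC : PP (χ : GL2 → ℂ) → ¬ PC (χ : GL2 → ℂ) := by
    rintro ⟨α, β, hne, h⟩ h'
    have := h' α β
    rw [h, (ps_isIrr hne).classInner_self] at this
    exact one_ne_zero this
  rcases kinds χ.2 with h | h | h | h
  · have h : PL (χ : GL2 → ℂ) := h
    rw [if_pos h, if_neg (hLS h), if_neg (hLP h), if_neg (hLC h)]; ring
  · have h : PS (χ : GL2 → ℂ) := h
    rw [if_neg (fun h' => hLS h' h), if_pos h, if_neg (hSP h), if_neg (hSC h)]; ring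
  · have h : PP (χ : GL2 → ℂ) := h
    rw [if_neg (fun h' => hLP h' h), if_neg (fun h' => hSP h' h), if_pos h, if_neg (hPC h)]; ring
  · have h : PC (χ : GL2 → ℂ) := h
    rw [if_neg (fun h' => hLC h' h), if_neg (fun h' => hSC h' h), if_neg (fun h' => hPC h' h), if_pos h]; ring

theorem sum_ind {ι : Type*} [Fintype ι] (P : ι → Prop) :
    ∑ i : ι, (if P i then (1 : ℂ) else 0) = (Nat.card {i // P i} : ℂ) := by
  rw [Finset.sum_boole, Nat.card_eq_fintype_card, Fintype.card_subtype]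

theorem card_irr_GL2 : (Fintype.card (IrrCharacter GL2) : ℂ) = q ^ 2 - 1 := by
  have := Fintype.ofFinite F
  rw [← Nat.card_eq_fintype_card, card_irr, S2330.result, ← Nat.card_eq_fintype_card]
  have : 1 ≤ Nat.card F ^ 2 := Nat.one_le_pow _ _ Nat.card_pos
  push_cast [Nat.cast_sub this]
  ring

theorem card_PL_cast : (Nat.card {χ : IrrCharacter GL2 // PL (χ : GL2 → ℂ)} : ℂ) = q - 1 := by
  rw [card_PL]
  have : 1 ≤ Nat.card F := Nat.card_pos
  push_cast [Nat.cast_sub this]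
  ring

theorem card_PS_cast : (Nat.card {χ : IrrCharacter GL2 // PS (χ : GL2 → ℂ)} : ℂ) = q - 1 := by
  rw [card_PS]
  have : 1 ≤ Nat.card F := Nat.card_pos
  push_cast [Nat.cast_sub this]
  ring

theorem card_PP_cast : 2 * (Nat.card {χ : IrrCharacter GL2 // PP (χ : GL2 → ℂ)} : ℂ) = (q - 1) * (q - 2) := by
  have h := card_PP (F := F)
  have h1 : 1 ≤ Nat.card F := Nat.card_pos
  have h2 : 2 ≤ Nat.card F := one_lt_card
  have h3 := congrArg (Nat.cast : ℕ → ℂ) h
  push_cast [Nat.cast_sub h1, Nat.cast_sub h2] at h3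
  exact h3

theorem card_PC_cast : 2 * (Nat.card {χ : IrrCharacter GL2 // PC (χ : GL2 → ℂ)} : ℂ) = q * (q - 1) := by
  have h := sum_kinds (F := F) (fun _ => 1)
  rw [sum_ind, sum_ind, sum_ind, sum_ind] at h
  simp only [Finset.sum_const, Finset.card_univ, nsmul_eq_mul, mul_one] at h
  rw [card_irr_GL2, card_PL_cast, card_PS_cast] at h
  linear_combination -2 * h - card_PP_cast (F := F)

/-- cuspidal characters have degree `q - 1` -/
theorem PC_degree {χ : GL2 → ℂ} (hχ : IsIrrCharacter GL2 χ) (h : PC χ) : χ 1 = q - 1 := by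
  have hs := sum_kinds (F := F) (fun χ => (χ : GL2 → ℂ) 1 ^ 2)
  rw [sum_degree_sq, card_GL2_cast] at hs
  have e1 : ∑ χ : IrrCharacter GL2, (if PL (χ : GL2 → ℂ) then (χ : GL2 → ℂ) 1 ^ 2 else 0) = q - 1 := by
    rw [← card_PL_cast, ← sum_ind]
    apply Finset.sum_congr rfl
    intro χ _
    split_ifs with h1
    · obtain ⟨α, h1⟩ := h1
      rw [h1, lin_one]; ring
    · rfl
  have e2 : ∑ χ : IrrCharacter GL2, (if PS (χ : GL2 → ℂ) then (χ : GL2 → ℂ) 1 ^ 2 else 0) = (q - 1) * q ^ 2 := by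
    rw [← card_PS_cast, ← sum_ind, Finset.sum_mul]
    apply Finset.sum_congr rfl
    intro χ _
    split_ifs with h1
    · obtain ⟨α, h1⟩ := h1
      rw [h1, St_one]; ring
    · rw [zero_mul]
  have e3 : 2 * ∑ χ : IrrCharacter GL2, (if PP (χ : GL2 → ℂ) then (χ : GL2 → ℂ) 1 ^ 2 else 0) =
      (q - 1) * (q - 2) * (q + 1) ^ 2 := by
    rw [← card_PP_cast, ← sum_ind, mul_assoc, Finset.sum_mul]
    congr 1
    apply Finset.sum_congr rfl
    intro χ _
    split_ifs with h1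
    · obtain ⟨α, β, -, h1⟩ := h1
      rw [h1, ps_one]; ring
    · rw [zero_mul]
  have e4 : ∑ χ : IrrCharacter GL2, (if PC (χ : GL2 → ℂ) then (χ : GL2 → ℂ) 1 ^ 2 - (q - 1) ^ 2 else 0) = 0 := by
    have e5 : ∑ χ : IrrCharacter GL2, (if PC (χ : GL2 → ℂ) then (χ : GL2 → ℂ) 1 ^ 2 - (q - 1) ^ 2 else 0) =
        ∑ χ : IrrCharacter GL2, (if PC (χ : GL2 → ℂ) then (χ : GL2 → ℂ) 1 ^ 2 else 0) -
        (∑ χ : IrrCharacter GL2, (if PC (χ : GL2 → ℂ) then (1 : ℂ) else 0)) * (q - 1) ^ 2 := by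
      rw [Finset.sum_mul, ← Finset.sum_sub_distrib]
      apply Finset.sum_congr rfl
      intro χ _
      split_ifs <;> ring
    rw [e5, sum_ind]
    rw [e1, e2] at hs
    have e6 := card_PC_cast (F := F)
    have h2 : (2 : ℂ) ≠ 0 := two_ne_zero
    apply mul_left_cancel₀ h2
    linear_combination -2 * hs - e3 - (q - 1) ^ 2 * e6
  -- each term is nonnegative
  choose! n hn using fun (χ : IrrCharacter GL2) (h : PC (χ : GL2 → ℂ)) => cuspidal χ.2 h
  have e7 : ∑ χ : IrrCharacter GL2, (if PC (χ : GL2 → ℂ) then ((Nat.card F : ℝ) - 1) ^ 2 * ((n χ : ℝ) ^ 2 - 1) else 0) = 0 := by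
    have e8 : ∀ χ : IrrCharacter GL2, ((if PC (χ : GL2 → ℂ) then ((Nat.card F : ℝ) - 1) ^ 2 * ((n χ : ℝ) ^ 2 - 1) else 0 : ℝ) : ℂ) =
        (if PC (χ : GL2 → ℂ) then (χ : GL2 → ℂ) 1 ^ 2 - (q - 1) ^ 2 else 0) := by
      intro χ
      split_ifs with h1
      · rw [(hn χ h1).2.1]
        push_cast
        ring
      · simp
    have : ((∑ χ : IrrCharacter GL2, (if PC (χ : GL2 → ℂ) then ((Nat.card F : ℝ) - 1) ^ 2 * ((n χ : ℝ) ^ 2 - 1) else 0) : ℝ) : ℂ) = 0 := by
      rw [Complex.ofReal_sum, ← e4]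
      exact Finset.sum_congr rfl (fun χ _ => e8 χ)
    exact_mod_cast this
  rw [Finset.sum_eq_zero_iff_of_nonneg] at e7
  · have e9 := e7 ⟨χ, hχ⟩ (Finset.mem_univ _)
    have hP : PC ((⟨χ, hχ⟩ : IrrCharacter GL2) : GL2 → ℂ) := h
    rw [if_pos hP] at e9
    have hq := one_lt_card (F := F)
    have hq1 : ((Nat.card F : ℝ) - 1) ≠ 0 := by
      rw [sub_ne_zero]; exact_mod_cast hq.ne'
    have e10 := (mul_eq_zero.1 e9).resolve_left (pow_ne_zero _ hq1)
    have e11 : ((n ⟨χ, hχ⟩ : ℝ)) ^ 2 = 1 := by linarith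
    have e12 : n ⟨χ, hχ⟩ ^ 2 = 1 := by exact_mod_cast e11
    have e13 : n ⟨χ, hχ⟩ = 1 := by
      rcases Nat.eq_zero_or_pos (n ⟨χ, hχ⟩) with h0 | h0
      · rw [h0] at e12; norm_num at e12
      · nlinarith
    have e14 := (hn ⟨χ, hχ⟩ hP).2.1
    rw [e13] at e14
    have e15 : χ 1 = (q - 1) * ((1 : ℕ) : ℂ) := e14
    rw [e15]; simp
  · intro χ _
    split_ifs with h1
    · have h2 := (hn χ h1).1
      have h3 : (1 : ℝ) ≤ n χ := by exact_mod_cast h2
      have h4 : (0 : ℝ) ≤ (n χ : ℝ) ^ 2 - 1 := by nlinarith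
      positivity
    · exact le_refl 0

/-- the degrees of the four kinds -/
theorem degree_cases {χ : GL2 → ℂ} (hχ : IsIrrCharacter GL2 χ) :
    (PL χ ∧ χ 1 = ((1 : ℤ) : ℂ)) ∨ (PS χ ∧ χ 1 = ((Nat.card F : ℤ) : ℂ)) ∨
    (PP χ ∧ χ 1 = (((Nat.card F : ℤ) + 1 : ℤ) : ℂ)) ∨ (PC χ ∧ χ 1 = (((Nat.card F : ℤ) - 1 : ℤ) : ℂ)) := by
  rcases kinds hχ with h | h | h | h
  · left
    refine ⟨h, ?_⟩
    obtain ⟨α, rfl⟩ := h
    rw [lin_one]; simp
  · right; left
    refine ⟨h, ?_⟩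
    obtain ⟨α, rfl⟩ := h
    rw [St_one]; simp
  · right; right; left
    refine ⟨h, ?_⟩
    obtain ⟨α, β, -, rfl⟩ := h
    rw [ps_one]; simp
  · right; right; right
    refine ⟨h, ?_⟩
    rw [PC_degree hχ h]; simp

omit [Fintype (Matrix.GeneralLinearGroup (Fin 2) F)] in
theorem norm_mulChar (α : MulChar F ℂ) (a : Fˣ) : ‖α (a : F)‖ = 1 := by
  have h1 : α (a : F) * conj (α (a : F)) = 1 := by
    rw [conj_mulChar, inv_apply_unit, mulChar_unit_mul_inv]
  rw [Complex.mul_conj, Complex.normSq_eq_norm_sq] at h1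
  have h2 : ‖α (a : F)‖ ^ 2 = 1 := by exact_mod_cast h1
  have h3 := norm_nonneg (α (a : F))
  nlinarith

end ps

end Cfsg.Agent.Lib.GL2Ps
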