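import Mathlib

set_option autoImplicit false
set_option linter.unusedSectionVars false

/-! Subgroups of `GL_4(2)` of order divisible by 70 are 2-transitive on non-zero vectors (helper43). -/

namespace Cfsg.Agent.Lib.GL4TwoTrans

open MulAction

variable {F : Type*} [Field F] [Fintype F]

/-- the non-zero vectors -/
abbrev X (F : Type*) [Field F] := {v : Fin 4 → F // v ≠ 0}

/-- the action -/
@[reducible] def act (F : Type*) [Field F] : MulAction (GL (Fin 4) F) (X F) where
  smul g v := ⟨(g : Matrix (Fin 4) (Fin 4) F).mulVec v.1, by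
    intro h
    apply v.2
    have h1 := congrArg (((g⁻¹ : GL (Fin 4) F) : Matrix (Fin 4) (Fin 4) F).mulVec) h
    rw [Matrix.mulVec_mulVec, ← Units.val_mul, inv_mul_cancel, Matrix.mulVec_zero] at h1
    rwa [Units.val_one, Matrix.one_mulVec] at h1⟩
  one_smul v := Subtype.ext (Matrix.one_mulVec _)
  mul_smul g h v := Subtype.ext (by
    show ((g * h : GL (Fin 4) F) : Matrix (Fin 4) (Fin 4) F).mulVec v.1 = _
    rw [Units.val_mul, ← Matrix.mulVec_mulVec]
    rfl)

attribute [local instance] act

theorem smul_val (g : GL (Fin 4) F) (v : X F) : (g • v).1 = (g : Matrix (Fin 4) (Fin 4) F).mulVec v.1 := rfl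

theorem card_X (hF : Fintype.card F = 2) : Nat.card (X F) = 15 := by
  classical
  rw [Nat.card_eq_fintype_card, Fintype.card_subtype_compl, Fintype.card_fun, hF, Fintype.card_fin, Fintype.card_subtype_eq]
  norm_num

theorem card_fixed (hF : Fintype.card F = 2) (g : GL (Fin 4) F) (hg : g ≠ 1) :
    ∃ k : ℕ, k < 4 ∧ Nat.card {v : X F // g • v = v} + 1 = 2 ^ k := by
  classical
  let W := LinearMap.ker (Matrix.mulVecLin ((g : Matrix (Fin 4) (Fin 4) F) - 1))
  have hW : ∀ v, v ∈ W ↔ (g : Matrix (Fin 4) (Fin 4) F).mulVec v = v := by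
    intro v
    rw [LinearMap.mem_ker, Matrix.mulVecLin_apply, Matrix.sub_mulVec, Matrix.one_mulVec, sub_eq_zero]
  refine ⟨Module.finrank F W, ?_, ?_⟩
  · have h1 : Module.finrank F W < Module.finrank F (Fin 4 → F) := by
      apply Submodule.finrank_lt
      intro h
      apply hg
      apply Units.ext
      apply Matrix.ext
      intro i j
      have h2 : (Pi.single j 1 : Fin 4 → F) ∈ W := by rw [h]; trivial
      rw [hW, Matrix.mulVec_single_one] at h2
      have h3 := congrFun h2 i
      rw [Matrix.col_apply] at h3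
      rw [h3, Units.val_one, Matrix.one_apply, Pi.single_apply]
    rwa [Module.finrank_fintype_fun_eq_card, Fintype.card_fin] at h1
  · have h1 : Nat.card W = 2 ^ Module.finrank F W := by
      rw [Module.natCard_eq_pow_finrank (K := F) (V := W), Nat.card_eq_fintype_card, hF]
    rw [← h1]
    have h2 : Nat.card (Option {v : X F // g • v = v}) = Nat.card W := by
      apply Nat.card_congr
      refine Equiv.ofBijective (fun o => match o with
        | none => 0
        | some v => ⟨v.1.1, (hW _).mpr (congrArg Subtype.val v.2)⟩) ⟨?_, ?_⟩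
      · rintro (_ | v) (_ | w) h
        · rfl
        · exact absurd (congrArg Subtype.val h).symm w.1.2
        · exact absurd (congrArg Subtype.val h) v.1.2
        · have h3 : v.1.1 = w.1.1 := congrArg (fun z : W => (z : Fin 4 → F)) h
          congr 1
          exact Subtype.ext (Subtype.ext h3)
      · rintro ⟨w, hw⟩
        by_cases h0 : w = 0
        · subst h0; exact ⟨none, rfl⟩
        · exact ⟨some ⟨⟨w, h0⟩, Subtype.ext ((hW w).mp hw)⟩, rfl⟩
    rw [← h2, Finite.card_option]

theorem mod_fixed {H Y : Type*} [Group H] [MulAction H Y] [Finite Y] (p : ℕ) [hp : Fact p.Prime] (g : H) (hg : orderOf g = p) :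
    Nat.card Y ≡ Nat.card {y : Y // g • y = y} [MOD p] := by
  have h1 : IsPGroup p (Subgroup.zpowers g) := by
    apply IsPGroup.of_card (n := 1)
    rw [Nat.card_zpowers, hg, pow_one]
  have h2 := h1.card_modEq_card_fixedPoints Y
  refine h2.trans ?_
  have : Nat.card (fixedPoints (Subgroup.zpowers g) Y) = Nat.card {y : Y // g • y = y} := by
    apply Nat.card_congr
    refine Equiv.subtypeEquivRight ?_
    intro y
    constructor
    · intro h
      exact h ⟨g, Subgroup.mem_zpowers g⟩
    · rintro h ⟨x, hx⟩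
      obtain ⟨k, rfl⟩ := Subgroup.mem_zpowers_iff.mp hx
      have : g ∈ stabilizer H y := h
      exact (stabilizer H y).zpow_mem this k
  rw [this]

theorem fixed_five (hF : Fintype.card F = 2) (g : GL (Fin 4) F) (hg : orderOf g = 5) (v : X F) : g • v ≠ v := by
  intro hv
  have h1 : g ≠ 1 := by rintro rfl; rw [orderOf_one] at hg; omega
  obtain ⟨k, hk, hc⟩ := card_fixed hF g h1
  have : Fact (Nat.Prime 5) := ⟨by norm_num⟩
  have h2 := mod_fixed (Y := X F) 5 g hg
  rw [card_X hF] at h2
  have h3 : 0 < Nat.card {v : X F // g • v = v} := by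
    have : Nonempty {v : X F // g • v = v} := ⟨⟨v, hv⟩⟩
    exact Nat.card_pos
  have h4 : Nat.card {v : X F // g • v = v} % 5 = 0 := by
    have := h2.symm
    rw [Nat.ModEq] at this
    omega
  interval_cases k <;> omega

theorem fixed_seven (hF : Fintype.card F = 2) (g : GL (Fin 4) F) (hg : orderOf g = 7) : Nat.card {v : X F // g • v = v} = 1 := by
  have h1 : g ≠ 1 := by rintro rfl; rw [orderOf_one] at hg; omega
  obtain ⟨k, hk, hc⟩ := card_fixed hF g h1
  have : Fact (Nat.Prime 7) := ⟨by norm_num⟩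
  have h2 := mod_fixed (Y := X F) 7 g hg
  rw [card_X hF] at h2
  have h4 : Nat.card {v : X F // g • v = v} % 7 = 1 := by
    have := h2.symm
    rw [Nat.ModEq] at this
    omega
  interval_cases k <;> omega

/-- the pairs of distinct non-zero vectors -/
abbrev P (F : Type*) [Field F] := {p : X F × X F // p.1 ≠ p.2}

/-- the action on pairs -/
@[reducible] def actP (F : Type*) [Field F] : MulAction (GL (Fin 4) F) (P F) where
  smul g p := ⟨(g • p.1.1, g • p.1.2), fun h => p.2 (smul_left_cancel g h)⟩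
  one_smul p := Subtype.ext (Prod.ext (one_smul _ _) (one_smul _ _))
  mul_smul g h p := Subtype.ext (Prod.ext (mul_smul _ _ _) (mul_smul _ _ _))

attribute [local instance] actP

theorem smulP_val (g : GL (Fin 4) F) (p : P F) : (g • p).1 = (g • p.1.1, g • p.1.2) := rfl

theorem card_P (hF : Fintype.card F = 2) : Nat.card (P F) = 210 := by
  classical
  have h1 : Nat.card (P F) + Nat.card {p : X F × X F // ¬ p.1 ≠ p.2} = Nat.card (X F × X F) := by
    rw [← Nat.card_sum]
    exact Nat.card_congr (Equiv.sumCompl _)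
  have h2 : Nat.card {p : X F × X F // ¬ p.1 ≠ p.2} = Nat.card (X F) := by
    apply Nat.card_congr
    exact { toFun := fun p => p.1.1
            invFun := fun x => ⟨(x, x), fun h => h rfl⟩
            left_inv := by
              rintro ⟨⟨x, y⟩, h⟩
              rw [not_not] at h
              obtain rfl : x = y := h
              rfl
            right_inv := fun x => rfl }
  rw [Nat.card_prod, h2, card_X hF] at h1
  omega

theorem moved {g : GL (Fin 4) F} (hg : g ≠ 1) : ∃ x : X F, g • x ≠ x := by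
  classical
  by_contra hcon
  push Not at hcon
  apply hg
  apply Units.ext
  apply Matrix.ext
  intro i j
  have h1 : (Pi.single j 1 : Fin 4 → F) ≠ 0 := by
    intro h
    have := congrFun h j
    rw [Pi.single_eq_same] at this
    exact one_ne_zero this
  have h2 : (g : Matrix (Fin 4) (Fin 4) F).mulVec (Pi.single j 1) = Pi.single j 1 := congrArg Subtype.val (hcon ⟨_, h1⟩)
  rw [Matrix.mulVec_single_one] at h2
  have h3 := congrFun h2 i
  rw [Matrix.col_apply] at h3
  rw [h3, Units.val_one, Matrix.one_apply, Pi.single_apply]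

theorem transitive (hF : Fintype.card F = 2) (H : Subgroup (GL (Fin 4) F)) (h70 : 70 ∣ Nat.card H) (x : X F) : orbit H x = Set.univ := by
  classical
  obtain ⟨g5, hg5⟩ := exists_prime_orderOf_dvd_card' (G := H) 5 ((by norm_num : 5 ∣ 70).trans h70) (hp := ⟨by norm_num⟩)
  obtain ⟨g7, hg7⟩ := exists_prime_orderOf_dvd_card' (G := H) 7 ((by norm_num : 7 ∣ 70).trans h70) (hp := ⟨by norm_num⟩)
  have c5 := mod_fixed (Y := orbit H x) 5 (hp := ⟨by norm_num⟩) g5 hg5
  have c7 := mod_fixed (Y := orbit H x) 7 (hp := ⟨by norm_num⟩) g7 hg7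
  have f5 : Nat.card {y : orbit H x // g5 • y = y} = 0 := by
    have : IsEmpty {y : orbit H x // g5 • y = y} := by
      constructor
      rintro ⟨y, hy⟩
      apply fixed_five hF (g5 : GL (Fin 4) F) (by rw [Subgroup.orderOf_coe, hg5]) y.1
      exact congrArg Subtype.val hy
    exact Nat.card_of_isEmpty
  have f7 : Nat.card {y : orbit H x // g7 • y = y} ≤ 1 := by
    rw [← fixed_seven hF (g7 : GL (Fin 4) F) (by rw [Subgroup.orderOf_coe, hg7])]
    refine Nat.card_le_card_of_injective (fun y => ⟨y.1.1, congrArg Subtype.val y.2⟩) ?_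
    rintro ⟨y, hy⟩ ⟨z, hz⟩ h
    have h' : y.1 = z.1 := congrArg (fun w : {v : X F // (g7 : GL (Fin 4) F) • v = v} => w.1) h
    exact Subtype.ext (Subtype.ext h')
  have hle : Nat.card (orbit H x) ≤ 15 := by
    rw [← card_X hF]
    exact Nat.card_le_card_of_injective _ Subtype.val_injective
  have hpos : 0 < Nat.card (orbit H x) := by
    have : Nonempty (orbit H x) := ⟨⟨x, mem_orbit_self x⟩⟩
    exact Nat.card_pos
  rw [f5] at c5
  have h15 : Nat.card (orbit H x) = 15 := by
    rw [Nat.ModEq] at c5 c7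
    interval_cases (Nat.card (orbit H x)) <;> omega
  have h1 : (orbit H x).ncard = Nat.card (X F) := by rw [← Nat.card_coe_set_eq, h15, card_X hF]
  exact Set.eq_of_subset_of_ncard_le (Set.subset_univ _) (by rw [Set.ncard_univ, h1])

theorem main (hF : Fintype.card F = 2) (H : Subgroup (GL (Fin 4) F)) (h70 : 70 ∣ Nat.card H) (p q : P F) : ∃ g ∈ H, g • p = q := by
  classical
  obtain ⟨g5, hg5⟩ := exists_prime_orderOf_dvd_card' (G := H) 5 ((by norm_num : 5 ∣ 70).trans h70) (hp := ⟨by norm_num⟩)
  obtain ⟨g7, hg7⟩ := exists_prime_orderOf_dvd_card' (G := H) 7 ((by norm_num : 7 ∣ 70).trans h70) (hp := ⟨by norm_num⟩)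
  obtain ⟨g2, hg2⟩ := exists_prime_orderOf_dvd_card' (G := H) 2 ((by norm_num : 2 ∣ 70).trans h70) (hp := ⟨by norm_num⟩)
  obtain ⟨x, hx⟩ := moved (F := F) (g := (g2 : GL (Fin 4) F)) (by
    intro h
    have : g2 = 1 := Subtype.ext h
    rw [this, orderOf_one] at hg2
    omega)
  have hyx : g2 • (g2 • x) = x := by
    rw [smul_smul, ← pow_two, ← hg2, pow_orderOf_eq_one, one_smul]
  let p0 : P F := ⟨(x, g2 • x), fun h => hx h.symm⟩
  have hsw : ∀ p : P F, p ∈ orbit H p0 → (⟨(p.1.2, p.1.1), fun h => p.2 h.symm⟩ : P F) ∈ orbit H p0 := by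
    rintro _ ⟨g, rfl⟩
    refine ⟨g * g2, ?_⟩
    apply Subtype.ext
    apply Prod.ext
    · show (g * g2) • x = g • (g2 • x)
      rw [mul_smul]
    · show (g * g2) • (g2 • x) = g • x
      rw [mul_smul, hyx]
  set O := orbit H p0 with hO
  have c5 := mod_fixed (Y := O) 5 (hp := ⟨by norm_num⟩) g5 hg5
  have c7 := mod_fixed (Y := O) 7 (hp := ⟨by norm_num⟩) g7 hg7
  have f5 : Nat.card {y : O // g5 • y = y} = 0 := by
    have : IsEmpty {y : O // g5 • y = y} := by
      constructor
      rintro ⟨y, hy⟩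
      apply fixed_five hF (g5 : GL (Fin 4) F) (by rw [Subgroup.orderOf_coe, hg5]) y.1.1.1
      exact congrArg (fun z : O => z.1.1.1) hy
    exact Nat.card_of_isEmpty
  have f7 : Nat.card {y : O // g7 • y = y} = 0 := by
    have : IsEmpty {y : O // g7 • y = y} := by
      constructor
      rintro ⟨y, hy⟩
      have h1 : Nat.card {v : X F // (g7 : GL (Fin 4) F) • v = v} = 1 := fixed_seven hF (g7 : GL (Fin 4) F) (by rw [Subgroup.orderOf_coe, hg7])
      rw [Nat.card_eq_one_iff_unique] at h1
      obtain ⟨h1, -⟩ := h1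
      have e1 : (g7 : GL (Fin 4) F) • y.1.1.1 = y.1.1.1 := congrArg (fun z : O => z.1.1.1) hy
      have e2 : (g7 : GL (Fin 4) F) • y.1.1.2 = y.1.1.2 := congrArg (fun z : O => z.1.1.2) hy
      have e3 : (⟨y.1.1.1, e1⟩ : {v : X F // (g7 : GL (Fin 4) F) • v = v}) = ⟨y.1.1.2, e2⟩ := Subsingleton.elim _ _
      exact y.1.2 (congrArg Subtype.val e3)
    exact Nat.card_of_isEmpty
  have c2 : Nat.card O ≡ 0 [MOD 2] := by
    let f : Function.End O := fun p : O => ⟨⟨(p.1.1.2, p.1.1.1), fun h => p.1.2 h.symm⟩, hsw p.1 p.2⟩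
    have hf : ∀ p, f (f p) = p := fun p => rfl
    have h1 : Nat.card O = Fintype.card O := Nat.card_eq_fintype_card
    have hp2 : Fact (Nat.Prime 2) := ⟨Nat.prime_two⟩
    have h2 := Equiv.Perm.card_fixedPoints_modEq (f := f) (p := 2) (n := 1) (by
      rw [pow_one]
      exact (pow_two f).trans (funext hf))
    rw [h1]
    refine h2.trans ?_
    have h3 : Fintype.card (Function.fixedPoints f) = 0 := by
      rw [Fintype.card_eq_zero_iff]
      constructor
      rintro ⟨p, hp⟩
      apply p.1.2
      exact (congrArg (fun z : O => z.1.1.2) hp : _)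
    rw [h3]
  have c15 : 15 ∣ Nat.card O := by
    have h1 : (stabilizer H p0) ≤ stabilizer H x := by
      intro g hg
      rw [mem_stabilizer_iff] at hg ⊢
      exact congrArg (fun z : P F => z.1.1) hg
    have h2 := Subgroup.index_dvd_of_le h1
    rw [index_stabilizer, index_stabilizer, transitive hF H h70 x, Set.ncard_univ, card_X hF] at h2
    exact h2
  have hle : Nat.card O ≤ 210 := by
    rw [← card_P hF]
    exact Nat.card_le_card_of_injective _ Subtype.val_injective
  have hpos : 0 < Nat.card O := by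
    have : Nonempty O := ⟨⟨p0, mem_orbit_self p0⟩⟩
    exact Nat.card_pos
  have h210 : Nat.card O = 210 := by
    rw [f7] at c7
    rw [Nat.modEq_zero_iff_dvd] at c7 c2
    omega
  have h1 : O.ncard = Nat.card (P F) := by rw [← Nat.card_coe_set_eq, h210, card_P hF]
  have huniv : O = Set.univ := Set.eq_of_subset_of_ncard_le (Set.subset_univ _) (by rw [Set.ncard_univ, h1])
  have hp : p ∈ O := by rw [huniv]; trivial
  have hq : q ∈ O := by rw [huniv]; trivial
  obtain ⟨g, hg⟩ := hp
  obtain ⟨g', hg'⟩ := hq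
  refine ⟨(g' * g⁻¹ : H), (g' * g⁻¹ : H).2, ?_⟩
  show (g' * g⁻¹ : H) • p = q
  rw [mul_smul, ← hg, ← hg']
  show g' • (g⁻¹ • (g • p0)) = g' • p0
  rw [inv_smul_smul]

end Cfsg.Agent.Lib.GL4TwoTrans
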