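import Cfsg.Prelude.Def_LinearParabolics
import Cfsg.Agent.Lib.GLLabel
import Cfsg.Agent.Lib.GLBruhat
import Mathlib

set_option autoImplicit false

/-!
Orders of the parabolic subgroups of `GL_n(q)` and their indices.
-/

namespace Cfsg.Agent.Lib.GLIndex

open Cfsg Matrix Finset
open scoped MatrixGroups

variable {F : Type*} [Field F]

/-- block triangular matrices with non-zero determinant -/
lemma card_blockTri [Fintype F] {ι α : Type} [Fintype ι] [DecidableEq ι] [Fintype α] [LinearOrder α] (b : ι → α) :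
    Nat.card {M : Matrix ι ι F // M.BlockTriangular b ∧ M.det ≠ 0} =
      (∏ k : α, Nat.card {N : Matrix {i // b i = k} {i // b i = k} F // N.det ≠ 0}) *
        Fintype.card F ^ (Fintype.card {p : ι × ι // b p.1 < b p.2}) := by
  classical
  have e : {M : Matrix ι ι F // M.BlockTriangular b ∧ M.det ≠ 0} ≃
      (∀ k : α, {N : Matrix {i // b i = k} {i // b i = k} F // N.det ≠ 0}) × ({p : ι × ι // b p.1 < b p.2} → F) := {
    toFun := fun M => (fun k => ⟨M.1.toSquareBlock b k, by
      have h := M.2.2
      rw [M.2.1.det_fintype] at h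
      exact Finset.prod_ne_zero_iff.mp h k (Finset.mem_univ _)⟩, fun p => M.1 p.1.1 p.1.2)
    invFun := fun x => ⟨Matrix.of fun i j => if h : b i = b j then (x.1 (b j)).1 ⟨i, h⟩ ⟨j, rfl⟩ else if h' : b i < b j then x.2 ⟨(i, j), h'⟩ else 0, by
      have htri : (Matrix.of fun i j => if h : b i = b j then (x.1 (b j)).1 ⟨i, h⟩ ⟨j, rfl⟩ else if h' : b i < b j then x.2 ⟨(i, j), h'⟩ else 0 : Matrix ι ι F).BlockTriangular b := by
        intro i j hij
        rw [Matrix.of_apply, dif_neg (ne_of_gt hij), dif_neg (not_lt.mpr hij.le)]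
      refine ⟨htri, ?_⟩
      rw [htri.det_fintype]
      apply Finset.prod_ne_zero_iff.mpr
      intro k _
      have : (Matrix.of fun i j => if h : b i = b j then (x.1 (b j)).1 ⟨i, h⟩ ⟨j, rfl⟩ else if h' : b i < b j then x.2 ⟨(i, j), h'⟩ else 0 : Matrix ι ι F).toSquareBlock b k = (x.1 k).1 := by
        ext ⟨i, hi⟩ ⟨j, hj⟩
        subst hj
        rw [Matrix.toSquareBlock_def, Matrix.of_apply, Matrix.of_apply, dif_pos hi]
      rw [this]
      exact (x.1 k).2⟩
    left_inv := by
      intro M
      apply Subtype.ext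
      ext i j
      dsimp only
      rw [Matrix.of_apply]
      split_ifs with h1 h2
      · rfl
      · rfl
      · exact (M.2.1 (lt_of_le_of_ne (not_lt.mp h2) (Ne.symm h1))).symm
    right_inv := by
      rintro ⟨x, y⟩
      apply Prod.ext
      · funext k
        apply Subtype.ext
        ext ⟨i, hi⟩ ⟨j, hj⟩
        subst hj
        dsimp only
        rw [Matrix.toSquareBlock_def, Matrix.of_apply, Matrix.of_apply, dif_pos hi]
      · funext ⟨⟨i, j⟩, hp⟩
        dsimp only at hp ⊢
        rw [Matrix.of_apply, dif_neg (ne_of_lt hp), dif_pos hp] }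
  rw [Nat.card_congr e, Nat.card_prod, Nat.card_pi, Nat.card_eq_fintype_card (α := {p : ι × ι // b p.1 < b p.2} → F), Fintype.card_fun]

/-- number of invertible matrices -/
lemma card_inv_eq [Fintype F] (m : ℕ) {ι : Type} [Fintype ι] [DecidableEq ι] (h : Fintype.card ι = m) :
    Nat.card {N : Matrix ι ι F // N.det ≠ 0} = Nat.card (GL (Fin m) F) := by
  classical
  let e : ι ≃ Fin m := Fintype.equivFinOfCardEq h
  have e1 : {N : Matrix ι ι F // N.det ≠ 0} ≃ {N : Matrix (Fin m) (Fin m) F // N.det ≠ 0} := {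
    toFun := fun N => ⟨Matrix.reindex e e N.1, by rw [Matrix.det_reindex_self]; exact N.2⟩
    invFun := fun N => ⟨Matrix.reindex e.symm e.symm N.1, by rw [Matrix.det_reindex_self]; exact N.2⟩
    left_inv := fun N => by apply Subtype.ext; ext i j; simp
    right_inv := fun N => by apply Subtype.ext; ext i j; simp }
  have e2 : {N : Matrix (Fin m) (Fin m) F // N.det ≠ 0} ≃ GL (Fin m) F := {
    toFun := fun N => Matrix.GeneralLinearGroup.mkOfDetNeZero N.1 N.2
    invFun := fun g => ⟨(g : Matrix (Fin m) (Fin m) F), ((Matrix.isUnit_iff_isUnit_det _).mp (Units.isUnit g)).ne_zero⟩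
    left_inv := fun N => rfl
    right_inv := fun g => Units.ext rfl }
  exact Nat.card_congr (e1.trans e2)

/-- the `q`-factorial -/
def qf (q m : ℕ) : ℕ := ∏ j ∈ range m, ∑ l ∈ range (j + 1), q ^ l

lemma qf_pos (q m : ℕ) : 0 < qf q m := by
  apply Finset.prod_pos
  intro j _
  rw [Finset.sum_range_succ']
  simp

lemma qf_succ (q m : ℕ) : qf q (m + 1) = qf q m * ∑ l ∈ range (m + 1), q ^ l := by
  unfold qf; rw [Finset.prod_range_succ]

lemma qpow_sub_one (q m : ℕ) (hq : 1 ≤ q) : q ^ m - 1 = (q - 1) * ∑ l ∈ range m, q ^ l := by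
  induction m with
  | zero => simp
  | succ m ih =>
    rw [Finset.sum_range_succ, mul_add, ← ih]
    obtain ⟨r, rfl⟩ : ∃ r, q = r + 1 := ⟨q - 1, by omega⟩
    have : 1 ≤ (r + 1) ^ m := Nat.one_le_pow _ _ (by omega)
    have h2 : (r + 1) ^ (m + 1) = (r + 1) ^ m + r * (r + 1) ^ m := by ring
    rw [h2]
    simp only [Nat.add_sub_cancel]
    omega

lemma card_GL_qf [Fintype F] (m : ℕ) :
    Nat.card (GL (Fin m) F) = Fintype.card F ^ (m * (m - 1) / 2) * ((Fintype.card F - 1) ^ m * qf (Fintype.card F) m) := by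
  have hq : 1 ≤ Fintype.card F := Fintype.card_pos
  rw [Matrix.card_GL_field]
  set q := Fintype.card F with hqd
  have h1 : ∀ i : Fin m, q ^ m - q ^ (i : ℕ) = q ^ (i : ℕ) * (q ^ (m - i.val) - 1) := by
    intro i
    rw [Nat.mul_sub, ← pow_add, mul_one]
    congr 2
    omega
  rw [Finset.prod_congr rfl (fun i _ => h1 i), Finset.prod_mul_distrib]
  have h2 : ∏ i : Fin m, q ^ (i : ℕ) = q ^ (m * (m - 1) / 2) := by
    rw [Finset.prod_pow_eq_pow_sum, Fin.sum_univ_eq_sum_range (fun i => i), Finset.sum_range_id]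
  rw [h2]
  congr 1
  rw [Fin.prod_univ_eq_prod_range (fun i => q ^ (m - i) - 1), ← Finset.prod_range_reflect]
  unfold qf
  rw [← Finset.card_range m, ← Finset.prod_const, Finset.card_range, ← Finset.prod_mul_distrib]
  apply Finset.prod_congr rfl
  intro j hj
  rw [Finset.mem_range] at hj
  have : m - (m - 1 - j) = j + 1 := by omega
  rw [this, qpow_sub_one q _ hq]

lemma pairs_identity {n : ℕ} {α : Type} [Fintype α] [LinearOrder α] (b : Fin n → α) :
    n * (n - 1) / 2 = (∑ k : α, (Fintype.card {i // b i = k}) * (Fintype.card {i // b i = k} - 1) / 2) +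
      Fintype.card {p : Fin n × Fin n // b p.1 < b p.2} := by
  classical
  have hA : ∀ m : ℕ, m * m = 2 * (m * (m - 1) / 2) + m := by
    intro m
    have h2 : 2 ∣ m * (m - 1) := (Nat.even_mul_pred_self m).two_dvd
    have h3 : m * m = m * (m - 1) + m := by
      cases m with
      | zero => rfl
      | succ k => simp only [Nat.add_sub_cancel]; ring
    omega
  have hn : ∑ k : α, Fintype.card {i // b i = k} = n := by
    have := Fintype.card_congr (Equiv.sigmaFiberEquiv b)
    rw [Fintype.card_sigma, Fintype.card_fin] at this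
    exact this
  have hsq : n * n = (∑ k : α, Fintype.card {i // b i = k} * Fintype.card {i // b i = k}) +
      2 * Fintype.card {p : Fin n × Fin n // b p.1 < b p.2} := by
    have h1 : Fintype.card (Fin n × Fin n) = n * n := by simp
    have h2 : Fintype.card (Fin n × Fin n) = Fintype.card {p : Fin n × Fin n // b p.1 = b p.2} +
        Fintype.card {p : Fin n × Fin n // b p.1 < b p.2} + Fintype.card {p : Fin n × Fin n // b p.2 < b p.1} := by
      rw [Fintype.card_subtype, Fintype.card_subtype, Fintype.card_subtype, ← Finset.card_univ,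
        ← Finset.card_union_of_disjoint, ← Finset.card_union_of_disjoint]
      · congr 1
        ext p
        simp only [Finset.mem_univ, Finset.mem_union, Finset.mem_filter, true_and, true_iff]
        rcases lt_trichotomy (b p.1) (b p.2) with h | h | h
        · exact Or.inl (Or.inr h)
        · exact Or.inl (Or.inl h)
        · exact Or.inr h
      · rw [Finset.disjoint_left]
        intro p hp hp'
        simp only [Finset.mem_union, Finset.mem_filter, Finset.mem_univ, true_and] at hp hp'
        rcases hp with h | h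
        · rw [h] at hp'; exact lt_irrefl _ hp'
        · exact lt_asymm h hp'
      · rw [Finset.disjoint_left]
        intro p hp hp'
        simp only [Finset.mem_filter, Finset.mem_univ, true_and] at hp hp'
        rw [hp] at hp'; exact lt_irrefl _ hp'
    have h3 : Fintype.card {p : Fin n × Fin n // b p.2 < b p.1} = Fintype.card {p : Fin n × Fin n // b p.1 < b p.2} := by
      apply Fintype.card_congr
      exact (Equiv.prodComm _ _).subtypeEquiv (fun p => Iff.rfl)
    have h4 : Fintype.card {p : Fin n × Fin n // b p.1 = b p.2} = ∑ k : α, Fintype.card {i // b i = k} * Fintype.card {i // b i = k} := by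
      have e : {p : Fin n × Fin n // b p.1 = b p.2} ≃ Σ k : α, {i // b i = k} × {i // b i = k} := {
        toFun := fun p => ⟨b p.1.2, ⟨p.1.1, p.2⟩, ⟨p.1.2, rfl⟩⟩
        invFun := fun x => ⟨(x.2.1.1, x.2.2.1), by rw [x.2.1.2, x.2.2.2]⟩
        left_inv := fun p => rfl
        right_inv := by
          rintro ⟨k, ⟨i, hi⟩, ⟨j, hj⟩⟩
          subst hj
          rfl }
      rw [Fintype.card_congr e, Fintype.card_sigma]
      apply Finset.sum_congr rfl
      intro k _
      rw [Fintype.card_prod]
    rw [h1, h3, h4] at h2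
    omega
  have h5 : (∑ k : α, Fintype.card {i // b i = k} * Fintype.card {i // b i = k}) =
      2 * (∑ k : α, (Fintype.card {i // b i = k}) * (Fintype.card {i // b i = k} - 1) / 2) + n := by
    rw [Finset.sum_congr rfl (fun k _ => hA (Fintype.card {i // b i = k})), Finset.sum_add_distrib, ← Finset.mul_sum, hn]
  have h6 := hA n
  omega

/-- order of the parabolic subgroup -/
theorem card_para [Fintype F] {n : ℕ} (μ : Fin n → ℕ) (hμ : ∑ i, μ i = n) :
    Nat.card (parabolicGL n F μ) =
      Fintype.card F ^ (n * (n - 1) / 2) * ((Fintype.card F - 1) ^ n * ∏ i : Fin n, qf (Fintype.card F) (μ i)) := by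
  classical
  let b : Fin n → Fin n := fun i => ⟨compLabel μ i, GLLabel.compLabel_lt μ hμ i⟩
  have e : parabolicGL n F μ ≃ {M : Matrix (Fin n) (Fin n) F // M.BlockTriangular b ∧ M.det ≠ 0} := {
    toFun := fun g => ⟨(g.1 : Matrix (Fin n) (Fin n) F), fun i j hij => g.2 hij, ((Matrix.isUnit_iff_isUnit_det _).mp (Units.isUnit g.1)).ne_zero⟩
    invFun := fun M => ⟨Matrix.GeneralLinearGroup.mkOfDetNeZero M.1 M.2.2, fun i j hij => M.2.1 hij⟩
    left_inv := fun g => Subtype.ext (Units.ext rfl)
    right_inv := fun M => rfl }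
  have hfib : ∀ k : Fin n, Fintype.card {i // b i = k} = μ k := by
    intro k
    rw [Fintype.card_subtype, ← GLLabel.card_fiber μ hμ k]
    congr 1
    ext i
    simp only [Finset.mem_filter, Finset.mem_univ, true_and, b, Fin.ext_iff]
  rw [Nat.card_congr e, card_blockTri]
  have h1 : ∀ k : Fin n, Nat.card {N : Matrix {i // b i = k} {i // b i = k} F // N.det ≠ 0} =
      Fintype.card F ^ (μ k * (μ k - 1) / 2) * ((Fintype.card F - 1) ^ (μ k) * qf (Fintype.card F) (μ k)) := by
    intro k
    rw [card_inv_eq (μ k) (hfib k), card_GL_qf]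
  rw [Finset.prod_congr rfl (fun k _ => h1 k), Finset.prod_mul_distrib, Finset.prod_mul_distrib,
    Finset.prod_pow_eq_pow_sum, Finset.prod_pow_eq_pow_sum, hμ]
  have h2 := pairs_identity b
  have h3 : (∑ k : Fin n, (Fintype.card {i // b i = k}) * (Fintype.card {i // b i = k} - 1) / 2) = ∑ k : Fin n, μ k * (μ k - 1) / 2 := by
    apply Finset.sum_congr rfl
    intro k _
    rw [hfib k]
  rw [h3] at h2
  rw [h2, pow_add]
  ring

theorem card_index [Fintype F] {n : ℕ} (μ : Fin n → ℕ) (hμ : ∑ i, μ i = n) :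
    Nat.card (GL (Fin n) F ⧸ parabolicGL n F μ) * ∏ i : Fin n, qf (Fintype.card F) (μ i) = qf (Fintype.card F) n := by
  have h1 := Subgroup.card_eq_card_quotient_mul_card_subgroup (parabolicGL n F μ)
  rw [card_para μ hμ, card_GL_qf] at h1
  have hq : 1 < Fintype.card F := Fintype.one_lt_card
  have hpos : 0 < Fintype.card F ^ (n * (n - 1) / 2) * (Fintype.card F - 1) ^ n := by
    apply Nat.mul_pos
    · exact Nat.pow_pos (by omega)
    · exact Nat.pow_pos (by omega)
  apply Nat.eq_of_mul_eq_mul_left hpos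
  rw [mul_assoc, mul_assoc, h1]
  ring

end Cfsg.Agent.Lib.GLIndex
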