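import Cfsg.Prelude.Def_LinearParabolics
import Cfsg.Agent.Lib.GLIndex
import Mathlib

set_option autoImplicit false

/-!
Degrees of the alternating-sum characters of `GL_n(q)`.
-/

open scoped MatrixGroups
open Cfsg

namespace Cfsg.Agent.Lib.GLDegree

open Cfsg.Agent.Lib.GLIndex Finset

/-- the `q`-integer as a complex number -/
noncomputable def qi (q m : ℕ) : ℂ := ((∑ l ∈ Finset.range m, q ^ l : ℕ) : ℂ)

noncomputable def qfc (q m : ℕ) : ℂ := ∏ j ∈ Finset.range m, qi q (j + 1)

lemma qfc_eq (q m : ℕ) : qfc q m = (qf q m : ℂ) := by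
  unfold qfc qf qi; push_cast; rfl

lemma qi_add (q a b : ℕ) : qi q (a + b) = qi q a + (q : ℂ) ^ a * qi q b := by
  unfold qi
  rw [Finset.sum_range_add]
  push_cast
  rw [Finset.mul_sum]
  congr 1
  apply Finset.sum_congr rfl
  intro i _
  rw [pow_add]

lemma qfc_succ (q m : ℕ) : qfc q (m + 1) = qfc q m * qi q (m + 1) := by
  unfold qfc; rw [Finset.prod_range_succ]

lemma qfc_ne (q m : ℕ) : qfc q m ≠ 0 := by
  rw [qfc_eq]; exact_mod_cast (qf_pos q m).ne'

/-- `[a+j]! = [a]! · ∏_{s<j} ([a+j] - [s]) / q^s` -/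
lemma qfc_fall (q a j : ℕ) : qfc q (a + j) * (q : ℂ) ^ (∑ s ∈ range j, s) = qfc q a * ∏ s ∈ range j, (qi q (a + j) - qi q s) := by
  have h1 : ∀ s ∈ range j, qi q (a + j) - qi q s = (q : ℂ) ^ s * qi q (a + j - s) := by
    intro s hs
    rw [Finset.mem_range] at hs
    have : a + j = s + (a + j - s) := by omega
    rw [this, qi_add]
    have h2 : s + (a + j - s) - s = a + j - s := by omega
    rw [h2]; ring
  rw [Finset.prod_congr rfl h1, Finset.prod_mul_distrib, Finset.prod_pow_eq_pow_sum]
  have h3 : ∀ j a : ℕ, qfc q (a + j) = qfc q a * ∏ s ∈ range j, qi q (a + j - s) := by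
    intro j
    induction j with
    | zero => intro a; simp
    | succ j ih =>
      intro a
      rw [Finset.prod_range_succ']
      have e1 : a + (j + 1) = (a + j) + 1 := by ring
      rw [e1, qfc_succ, ih a]
      have e2 : ∏ s ∈ range j, qi q (a + j + 1 - (s + 1)) = ∏ s ∈ range j, qi q (a + j - s) := by
        apply Finset.prod_congr rfl
        intro s _
        congr 1; omega
      rw [e2]
      simp only [Nat.sub_zero]
      ring
  rw [h3 j a]; ring


lemma sum_sum (n : ℕ) : ∑ j ∈ range n, ∑ s ∈ range j, s = n * (n - 1) * (n - 2) / 6 := by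
  have h : ∀ n : ℕ, 6 * ∑ j ∈ range (n + 2), ∑ s ∈ range j, s = (n + 2) * (n + 1) * n := by
    intro n
    induction n with
    | zero => simp [Finset.sum_range_succ]
    | succ n ih =>
      rw [Finset.sum_range_succ, mul_add, ih]
      have h2 := Finset.sum_range_id_mul_two (n + 2)
      have h3 : n + 2 - 1 = n + 1 := by omega
      rw [h3] at h2
      nlinarith [h2]
  match n with
  | 0 => simp
  | 1 => simp
  | n + 2 =>
    have := h n
    have h3 : n + 2 - 1 = n + 1 := by omega
    have h4 : n + 2 - 2 = n := by omega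
    rw [h3, h4]
    omega

open Polynomial in
/-- the monic polynomials -/
noncomputable def pol (q j : ℕ) : ℂ[X] := ∏ s ∈ range j, (X - C (qi q s))

open Polynomial in
lemma pol_monic (q j : ℕ) : (pol q j).Monic := Polynomial.monic_prod_of_monic _ _ fun s _ => Polynomial.monic_X_sub_C _

open Polynomial in
lemma pol_deg (q j : ℕ) : (pol q j).natDegree = j := by
  unfold pol
  rw [Polynomial.natDegree_prod_of_monic _ _ fun s _ => Polynomial.monic_X_sub_C _]
  simp

open Polynomial in
lemma pol_eval (q j : ℕ) (x : ℂ) : (pol q j).eval x = ∏ s ∈ range j, (x - qi q s) := by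
  unfold pol
  rw [Polynomial.eval_prod]
  simp

noncomputable def E (q : ℕ) {n : ℕ} (lam : Fin n → ℕ) : Matrix (Fin n) (Fin n) ℂ :=
  Matrix.of fun i j => if j.val ≤ lam i then (qfc q (lam i - j.val))⁻¹ else 0

lemma det_E (q : ℕ) {n : ℕ} (lam : Fin n → ℕ) :
    (E q lam).det * (q : ℂ) ^ (n * (n - 1) * (n - 2) / 6) * ∏ i, qfc q (lam i) =
      ∏ i : Fin n, ∏ j ∈ Finset.Ioi i, (qi q (lam j) - qi q (lam i)) := by
  have h1 := Matrix.det_eval_matrixOfPolynomials_eq_det_vandermonde (fun i => qi q (lam i)) (fun j => pol q j.val)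
    (fun j => pol_deg q j) (fun j => pol_monic q j)
  rw [Matrix.det_vandermonde] at h1
  rw [h1]
  have h2 : (Matrix.of fun i j => Polynomial.eval ((fun i => qi q (lam i)) i) ((fun j : Fin n => pol q j.val) j) : Matrix (Fin n) (Fin n) ℂ) =
      Matrix.of fun i j => qfc q (lam i) * (Matrix.of (fun i j : Fin n => (q : ℂ) ^ (∑ s ∈ range j.val, s) * E q lam i j)) i j := by
    ext i j
    rw [Matrix.of_apply, Matrix.of_apply, Matrix.of_apply]
    simp only [E, Matrix.of_apply]
    rw [pol_eval]
    by_cases h : j.val ≤ lam i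
    · rw [if_pos h]
      have h3 := qfc_fall q (lam i - j.val) j.val
      have h4 : lam i - j.val + j.val = lam i := by omega
      rw [h4] at h3
      have h5 := qfc_ne q (lam i - j.val)
      field_simp
      rw [h3, mul_comm]
    · rw [if_neg h, mul_zero, mul_zero]
      apply Finset.prod_eq_zero (i := lam i)
      · rw [Finset.mem_range]; omega
      · rw [sub_self]
  rw [h2, Matrix.det_mul_column, Matrix.det_mul_row]
  have h3 : ∏ j : Fin n, (q : ℂ) ^ (∑ s ∈ range j.val, s) = (q : ℂ) ^ (n * (n - 1) * (n - 2) / 6) := by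
    rw [Finset.prod_pow_eq_pow_sum, Fin.sum_univ_eq_sum_range (fun j => ∑ s ∈ range j, s), sum_sum]
  rw [h3]
  ring

lemma char_one {F : Type*} [Field F] [Fintype F] {n : ℕ} (ν : Fin n → ℕ) (hsum : ∑ i, ν i = n) :
    Cfsg.unipotentCharacterGL n F ν 1 = qfc (Fintype.card F) n * (E (Fintype.card F) (fun i => ν i + i.val)).det := by
  rw [← Matrix.det_transpose, Matrix.det_apply', Finset.mul_sum]
  unfold Cfsg.unipotentCharacterGL
  apply Finset.sum_congr rfl
  intro κ _
  split_ifs with h
  · have hs : ∑ i : Fin n, (ν i + i.val - (κ i).val) = n := by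
      have h1 : ∑ i : Fin n, (ν i + i.val - (κ i).val) + ∑ i : Fin n, (κ i).val = ∑ i : Fin n, ν i + ∑ i : Fin n, i.val := by
        rw [← Finset.sum_add_distrib, ← Finset.sum_add_distrib]
        apply Finset.sum_congr rfl
        intro i _
        have := h i
        omega
      rw [Equiv.sum_comp κ (fun i : Fin n => i.val), hsum] at h1
      omega
    have h1 := card_index (F := F) _ hs
    have h2 : Cfsg.fixedPointCharacter (Cfsg.parabolicGL n F fun i => ν i + i.val - (κ i).val) 1 =
        (Nat.card (GL (Fin n) F ⧸ parabolicGL n F fun i => ν i + i.val - (κ i).val) : ℂ) := by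
      unfold Cfsg.fixedPointCharacter
      congr 1
      rw [Nat.card_congr]
      have : MulAction.fixedBy (GL (Fin n) F ⧸ parabolicGL n F fun i => ν i + i.val - (κ i).val) (1 : GL (Fin n) F) = Set.univ := by
        ext x; simp
      rw [this]
      exact Equiv.Set.univ _
    rw [h2]
    have h3 : (Nat.card (GL (Fin n) F ⧸ parabolicGL n F fun i => ν i + i.val - (κ i).val) : ℂ) *
        ∏ i : Fin n, qfc (Fintype.card F) (ν i + i.val - (κ i).val) = qfc (Fintype.card F) n := by
      simp only [qfc_eq]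
      exact_mod_cast h1
    have h4 : ∏ i : Fin n, (E (Fintype.card F) (fun i => ν i + i.val)).transpose (κ i) i =
        (∏ i : Fin n, qfc (Fintype.card F) (ν i + i.val - (κ i).val))⁻¹ := by
      rw [← Finset.prod_inv_distrib]
      apply Finset.prod_congr rfl
      intro i _
      rw [Matrix.transpose_apply]
      simp only [E, Matrix.of_apply]
      rw [if_pos (h i)]
    rw [h4, ← h3]
    have h5 : ∏ i : Fin n, qfc (Fintype.card F) (ν i + i.val - (κ i).val) ≠ 0 :=
      Finset.prod_ne_zero_iff.mpr fun i _ => qfc_ne _ _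
    field_simp
  · push Not at h
    obtain ⟨i, hi⟩ := h
    have : ∏ i : Fin n, (E (Fintype.card F) (fun i => ν i + i.val)).transpose (κ i) i = 0 := by
      apply Finset.prod_eq_zero (Finset.mem_univ i)
      rw [Matrix.transpose_apply]
      simp only [E, Matrix.of_apply]
      rw [if_neg (by omega)]
    rw [this]; simp

end Cfsg.Agent.Lib.GLDegree
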