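import Cfsg.Prelude.Def_LinearParabolics
import Cfsg.Agent.Lib.GLLabel
import Cfsg.Agent.Lib.GLBruhat
import Mathlib

set_option autoImplicit false

/-!
Relative positions are the non-negative integer matrices with given row and column sums.
-/

namespace Cfsg.Agent.Lib.GLPos

open Cfsg Finset
open Cfsg.Agent.Lib.GLBruhat Cfsg.Agent.Lib.GLLabel

variable {n : ℕ}

lemma exists_equiv_fib {X Y Z : Type*} [Fintype X] [Fintype Y] [DecidableEq Z] (f : X → Z) (g : Y → Z)
    (h : ∀ z, Fintype.card {x // f x = z} = Fintype.card {y // g y = z}) : ∃ e : X ≃ Y, ∀ x, g (e x) = f x := by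
  let e : ∀ z, {x // f x = z} ≃ {y // g y = z} := fun z => Fintype.equivOfCardEq (h z)
  refine ⟨(Equiv.sigmaFiberEquiv f).symm.trans ((Equiv.sigmaCongrRight e).trans (Equiv.sigmaFiberEquiv g)), ?_⟩
  intro x
  exact (e (f x) ⟨x, rfl⟩).2

/-- matrices with given row and column sums -/
def Mats (α β : Fin n → ℕ) : Type :=
  {A : Fin n → Fin n → ℕ // (∀ s, ∑ t, A s t = α s) ∧ (∀ t, ∑ s, A s t = β t)}

lemma pos_row (α β : Fin n → ℕ) (hα : ∑ i, α i = n) (hβ : ∑ i, β i = n) (w : Equiv.Perm (Fin n)) (s : Fin n) :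
    ∑ t : Fin n, pos (compLabel α) (compLabel β) w s.val t.val = α s := by
  classical
  have h1 : (Finset.univ.filter fun j : Fin n => compLabel α (w j) = s.val).card = α s := by
    rw [← card_fiber α hα s]
    apply Finset.card_bij (fun j _ => w j)
    · intro j hj; rw [Finset.mem_filter] at hj ⊢; exact ⟨Finset.mem_univ _, hj.2⟩
    · intro a _ a' _ h; exact w.injective h
    · intro j hj
      rw [Finset.mem_filter] at hj
      exact ⟨w⁻¹ j, by rw [Finset.mem_filter]; exact ⟨Finset.mem_univ _, by simpa using hj.2⟩, by simp⟩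
  rw [← h1, Finset.card_eq_sum_card_fiberwise (f := fun j => (⟨compLabel β j, compLabel_lt β hβ j⟩ : Fin n)) (t := Finset.univ) (fun _ _ => Finset.mem_coe.mpr (Finset.mem_univ _))]
  apply Finset.sum_congr rfl
  intro t _
  unfold pos
  congr 1
  ext j
  simp only [Finset.mem_filter, Finset.mem_univ, true_and, Fin.ext_iff]

lemma pos_col (α β : Fin n → ℕ) (hα : ∑ i, α i = n) (hβ : ∑ i, β i = n) (w : Equiv.Perm (Fin n)) (t : Fin n) :
    ∑ s : Fin n, pos (compLabel α) (compLabel β) w s.val t.val = β t := by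
  classical
  rw [← card_fiber β hβ t, Finset.card_eq_sum_card_fiberwise (f := fun j => (⟨compLabel α (w j), compLabel_lt α hα _⟩ : Fin n)) (t := Finset.univ) (fun _ _ => Finset.mem_coe.mpr (Finset.mem_univ _))]
  apply Finset.sum_congr rfl
  intro s _
  unfold pos
  congr 1
  ext j
  simp only [Finset.mem_filter, Finset.mem_univ, true_and, Fin.ext_iff]
  tauto

lemma pos_zero_left (α β : Fin n → ℕ) (hα : ∑ i, α i = n) (w : Equiv.Perm (Fin n)) (s t : ℕ) (hs : n ≤ s) :
    pos (compLabel α) (compLabel β) w s t = 0 := by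
  unfold pos
  rw [Finset.card_eq_zero, Finset.filter_eq_empty_iff]
  rintro j _ ⟨h, _⟩
  have := compLabel_lt α hα (w j)
  omega

lemma pos_zero_right (α β : Fin n → ℕ) (hβ : ∑ i, β i = n) (w : Equiv.Perm (Fin n)) (s t : ℕ) (ht : n ≤ t) :
    pos (compLabel α) (compLabel β) w s t = 0 := by
  unfold pos
  rw [Finset.card_eq_zero, Finset.filter_eq_empty_iff]
  rintro j _ ⟨_, h⟩
  have := compLabel_lt β hβ j
  omega

lemma pos_surj (α β : Fin n → ℕ) (hα : ∑ i, α i = n) (hβ : ∑ i, β i = n) (A : Mats α β) :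
    ∃ w : Equiv.Perm (Fin n), ∀ s t : Fin n, pos (compLabel α) (compLabel β) w s.val t.val = A.1 s t := by
  classical
  let X := Σ p : Fin n × Fin n, Fin (A.1 p.1 p.2)
  let c : Fin n → Fin n := fun i => ⟨compLabel β i, compLabel_lt β hβ i⟩
  let b : Fin n → Fin n := fun i => ⟨compLabel α i, compLabel_lt α hα i⟩
  obtain ⟨e1, he1⟩ := exists_equiv_fib (fun x : X => x.1.2) c (by
    intro t
    have ec : {x : X // x.1.2 = t} ≃ Σ s : Fin n, Fin (A.1 s t) := {
      toFun := fun x => ⟨x.1.1.1, Fin.cast (by rw [x.2]) x.1.2⟩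
      invFun := fun y => ⟨⟨(y.1, t), y.2⟩, rfl⟩
      left_inv := by
        rintro ⟨⟨⟨s, t'⟩, k⟩, h⟩
        dsimp only at h
        subst h
        rfl
      right_inv := fun y => rfl }
    rw [Fintype.card_congr ec, Fintype.card_sigma]
    simp only [Fintype.card_fin]
    rw [A.2.2 t, Fintype.card_subtype, ← card_fiber β hβ t]
    congr 1
    ext i
    simp only [Finset.mem_filter, Finset.mem_univ, true_and, c, Fin.ext_iff])
  obtain ⟨e2, he2⟩ := exists_equiv_fib (fun x : X => x.1.1) b (by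
    intro s
    have ec : {x : X // x.1.1 = s} ≃ Σ t : Fin n, Fin (A.1 s t) := {
      toFun := fun x => ⟨x.1.1.2, Fin.cast (by rw [x.2]) x.1.2⟩
      invFun := fun y => ⟨⟨(s, y.1), y.2⟩, rfl⟩
      left_inv := by
        rintro ⟨⟨⟨s', t⟩, k⟩, h⟩
        dsimp only at h
        subst h
        rfl
      right_inv := fun y => rfl }
    rw [Fintype.card_congr ec, Fintype.card_sigma]
    simp only [Fintype.card_fin]
    rw [A.2.1 s, Fintype.card_subtype, ← card_fiber α hα s]
    congr 1
    ext i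
    simp only [Finset.mem_filter, Finset.mem_univ, true_and, b, Fin.ext_iff])
  refine ⟨e1.symm.trans e2, ?_⟩
  intro s t
  have h1 : Fintype.card {x : X // x.1.1 = s ∧ x.1.2 = t} = A.1 s t := by
    have ec : {x : X // x.1.1 = s ∧ x.1.2 = t} ≃ Fin (A.1 s t) := {
      toFun := fun x => Fin.cast (by rw [x.2.1, x.2.2]) x.1.2
      invFun := fun y => ⟨⟨(s, t), y⟩, rfl, rfl⟩
      left_inv := by
        rintro ⟨⟨⟨s', t'⟩, k⟩, h, h'⟩
        dsimp only at h h'
        subst h; subst h'
        rfl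
      right_inv := fun y => rfl }
    rw [Fintype.card_congr ec, Fintype.card_fin]
  rw [← h1, Fintype.card_subtype]
  unfold pos
  symm
  apply Finset.card_bij (fun x _ => e1 x)
  · intro x hx
    rw [Finset.mem_filter] at hx ⊢
    refine ⟨Finset.mem_univ _, ?_, ?_⟩
    · rw [Equiv.trans_apply, Equiv.symm_apply_apply]
      have := congrArg Fin.val (he2 x)
      rw [hx.2.1] at this
      exact this
    · have := congrArg Fin.val (he1 x)
      rw [hx.2.2] at this
      exact this
  · intro a _ a' _ h; exact e1.injective h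
  · intro j hj
    rw [Finset.mem_filter] at hj
    refine ⟨e1.symm j, ?_, by simp⟩
    rw [Finset.mem_filter]
    refine ⟨Finset.mem_univ _, ?_, ?_⟩
    · have h := hj.2.1
      rw [Equiv.trans_apply] at h
      rw [← he2 (e1.symm j)]
      exact Fin.ext h
    · rw [← he1 (e1.symm j), Equiv.apply_symm_apply]
      exact Fin.ext hj.2.2

theorem card_range_pos (α β : Fin n → ℕ) (hα : ∑ i, α i = n) (hβ : ∑ i, β i = n) :
    Nat.card (Set.range (pos (compLabel α) (compLabel β))) = Nat.card (Mats α β) := by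
  apply Nat.card_congr
  refine Equiv.ofBijective (fun X => ⟨fun s t => X.1 s.val t.val, ?_, ?_⟩) ⟨?_, ?_⟩
  · obtain ⟨_, w, rfl⟩ := X
    exact pos_row α β hα hβ w
  · obtain ⟨_, w, rfl⟩ := X
    exact pos_col α β hα hβ w
  · rintro ⟨_, w, rfl⟩ ⟨_, w', rfl⟩ h
    apply Subtype.ext
    funext s t
    by_cases hs : s < n
    · by_cases ht : t < n
      · exact congrFun (congrFun (congrArg Subtype.val h) ⟨s, hs⟩) ⟨t, ht⟩
      · dsimp only
        rw [pos_zero_right α β hβ w s t (not_lt.mp ht), pos_zero_right α β hβ w' s t (not_lt.mp ht)]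
    · dsimp only
      rw [pos_zero_left α β hα w s t (not_lt.mp hs), pos_zero_left α β hα w' s t (not_lt.mp hs)]
  · intro A
    obtain ⟨w, hw⟩ := pos_surj α β hα hβ A
    refine ⟨⟨_, w, rfl⟩, ?_⟩
    apply Subtype.ext
    funext s t
    exact hw s t

end Cfsg.Agent.Lib.GLPos
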