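import Cfsg.Prelude.Def_LinearParabolics
import Cfsg.Agent.Lib.GLPos
import Mathlib

set_option autoImplicit false

/-!
A Jacobi–Trudi type identity and the orthonormality of the alternating sums.
-/

namespace Cfsg.Agent.Lib.GLJacobi

open Finset MvPolynomial
open Cfsg.Agent.Lib.GLPos

variable {n : ℕ}

/-- the coefficient ring -/
abbrev R (n : ℕ) := MvPolynomial (Fin n) ℤ

/-- geometric series in `y_k t` -/
noncomputable def G (k : Fin n) : PowerSeries (R n) := PowerSeries.mk fun m => (X k : R n) ^ m

/-- linear factor -/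
noncomputable def Lf (k : Fin n) : PowerSeries (R n) := 1 - PowerSeries.C (X k : R n) * PowerSeries.X

lemma G_mul_L (k : Fin n) : G k * Lf k = 1 := by
  ext m
  rw [Lf, mul_sub, mul_one, map_sub, ← mul_assoc, mul_comm (G k) (PowerSeries.C _), mul_assoc, PowerSeries.coeff_C_mul]
  cases m with
  | zero => simp [G]
  | succ m =>
    rw [PowerSeries.coeff_succ_mul_X]
    simp only [G, PowerSeries.coeff_mk]
    rw [PowerSeries.coeff_one, if_neg (by omega), pow_succ', sub_self]

/-- the generating function of the complete symmetric polynomials -/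
noncomputable def H (n : ℕ) : PowerSeries (R n) := ∏ k : Fin n, G k

/-- complementary linear factors -/
noncomputable def E (j : Fin n) : PowerSeries (R n) := ∏ k ∈ Finset.univ.erase j, Lf k

lemma H_mul_E (j : Fin n) : H n * E j = G j := by
  unfold H E
  rw [← Finset.mul_prod_erase Finset.univ _ (Finset.mem_univ j), mul_assoc, ← Finset.prod_mul_distrib,
    Finset.prod_congr rfl (fun k _ => G_mul_L k), Finset.prod_const_one, mul_one]

lemma coeff_E (j : Fin n) (q : ℕ) (hq : n ≤ q) : PowerSeries.coeff q (E j) = 0 := by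
  have h1 : E j = ((∏ k ∈ Finset.univ.erase j, (1 - Polynomial.C (X k : R n) * Polynomial.X) : Polynomial (R n)) : PowerSeries (R n)) := by
    unfold E Lf
    rw [← Polynomial.coeToPowerSeries.ringHom_apply, map_prod]
    apply Finset.prod_congr rfl
    intro k _
    simp
  rw [h1, Polynomial.coeff_coe]
  apply Polynomial.coeff_eq_zero_of_natDegree_lt
  have hn : 0 < n := Fin.pos j
  refine lt_of_le_of_lt (Polynomial.natDegree_prod_le _ _) ?_
  have h2 : ∑ k ∈ Finset.univ.erase j, (1 - Polynomial.C (X k : R n) * Polynomial.X : Polynomial (R n)).natDegree ≤ ∑ k ∈ Finset.univ.erase j, 1 := by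
    apply Finset.sum_le_sum
    intro k _
    refine (Polynomial.natDegree_sub_le _ _).trans ?_
    rw [Polynomial.natDegree_one]
    apply max_le (by omega)
    refine (Polynomial.natDegree_C_mul_X_pow_le (X k : R n) 1).trans' ?_
    rw [pow_one]
  refine lt_of_le_of_lt h2 ?_
  simp
  omega

/-- complete symmetric polynomials -/
noncomputable def h (n m : ℕ) : R n := PowerSeries.coeff m (H n)

lemma h_zero (n : ℕ) : h n 0 = 1 := by
  unfold h H
  rw [PowerSeries.coeff_zero_eq_constantCoeff_apply, map_prod]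
  apply Finset.prod_eq_one
  intro k _
  rw [← PowerSeries.coeff_zero_eq_constantCoeff_apply]
  simp [G]

lemma h_eq (n m : ℕ) : h n m = ∑ l ∈ finsuppAntidiag (Finset.univ : Finset (Fin n)) m, monomial l (1 : ℤ) := by
  unfold h H
  rw [PowerSeries.coeff_prod]
  apply Finset.sum_congr rfl
  intro l _
  rw [MvPolynomial.monomial_eq, map_one, one_mul, Finsupp.prod_fintype _ _ (fun _ => by simp)]
  apply Finset.prod_congr rfl
  intro k _
  simp [G]

lemma conv (j : Fin n) (a : ℕ) :
    ∑ k : Fin n, (if k.val ≤ a then h n (a - k.val) else 0) * PowerSeries.coeff k.val (E j) = (X j : R n) ^ a := by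
  have h1 : PowerSeries.coeff a (H n * E j) = (X j : R n) ^ a := by
    rw [H_mul_E]; simp [G]
  rw [← h1, mul_comm (H n), PowerSeries.coeff_mul, Finset.Nat.sum_antidiagonal_eq_sum_range_succ (fun p q => PowerSeries.coeff p (E j) * PowerSeries.coeff q (H n))]
  rw [Fin.sum_univ_eq_sum_range (fun k => (if k ≤ a then h n (a - k) else 0) * PowerSeries.coeff k (E j))]
  have h2 : ∑ k ∈ range n, (if k ≤ a then h n (a - k) else 0) * PowerSeries.coeff k (E j) =
      ∑ k ∈ range (max n (a+1)), (if k ≤ a then h n (a - k) else 0) * PowerSeries.coeff k (E j) := by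
    apply Finset.sum_subset
    · intro k hk; rw [Finset.mem_range] at hk ⊢; exact lt_max_of_lt_left hk
    · intro k _ hk
      rw [Finset.mem_range, not_lt] at hk
      rw [coeff_E j k hk, mul_zero]
  have h3 : ∑ k ∈ range (a + 1), PowerSeries.coeff k (E j) * PowerSeries.coeff (a - k) (H n) =
      ∑ k ∈ range (max n (a+1)), (if k ≤ a then h n (a - k) else 0) * PowerSeries.coeff k (E j) := by
    rw [← Finset.sum_subset (s₁ := range (a + 1)) (s₂ := range (max n (a+1)))
      (f := fun k => (if k ≤ a then h n (a - k) else 0) * PowerSeries.coeff k (E j))]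
    · apply Finset.sum_congr rfl
      intro k hk
      rw [Finset.mem_range] at hk
      rw [if_pos (by omega), mul_comm]; rfl
    · intro k hk; rw [Finset.mem_range] at hk ⊢; exact lt_max_of_lt_right hk
    · intro k _ hk
      rw [Finset.mem_range, not_lt] at hk
      rw [if_neg (by omega), zero_mul]
  rw [h2, h3]

/-- the Jacobi–Trudi matrix -/
noncomputable def M (lam : Fin n → ℕ) : Matrix (Fin n) (Fin n) (R n) :=
  Matrix.of fun i k => if k.val ≤ lam i then h n (lam i - k.val) else 0

/-- elementary coefficients -/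
noncomputable def Cm (n : ℕ) : Matrix (Fin n) (Fin n) (R n) := Matrix.of fun k j => PowerSeries.coeff k.val (E j)

/-- generalized Vandermonde matrix -/
noncomputable def V (lam : Fin n → ℕ) : Matrix (Fin n) (Fin n) (R n) := Matrix.of fun i j => (X j : R n) ^ lam i

lemma M_mul_C (lam : Fin n → ℕ) : M lam * Cm n = V lam := by
  ext1 i j
  rw [Matrix.mul_apply]
  exact conv j (lam i)

lemma det_M_id : (M (fun i : Fin n => i.val)).det = 1 := by
  rw [Matrix.det_of_isLowerTriangular]
  · apply Finset.prod_eq_one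
    intro i _
    simp [M, h_zero]
  · intro i j hij
    have : i < j := hij
    simp only [M, Matrix.of_apply]
    rw [if_neg]
    omega

lemma det_M_mul (lam : Fin n → ℕ) : (M lam).det * (V (fun i : Fin n => i.val)).det = (V lam).det := by
  rw [← M_mul_C lam, ← M_mul_C (fun i : Fin n => i.val), Matrix.det_mul, Matrix.det_mul, det_M_id, one_mul]

/-- finsupp of a function -/
noncomputable def fs (f : Fin n → ℕ) : Fin n →₀ ℕ := Finsupp.equivFunOnFinite.symm f

@[simp] lemma fs_apply (f : Fin n → ℕ) (i : Fin n) : fs f i = f i := rfl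

lemma fs_inj {f g : Fin n → ℕ} : fs f = fs g ↔ f = g := Finsupp.equivFunOnFinite.symm.injective.eq_iff

lemma prod_pow_eq (f : Fin n → ℕ) : ∏ i, (X i : R n) ^ f i = monomial (fs f) 1 := by
  rw [MvPolynomial.monomial_eq, map_one, one_mul, Finsupp.prod_fintype _ _ (fun _ => by simp)]
  rfl

lemma det_V (lam : Fin n → ℕ) : (V lam).det = ∑ σ : Equiv.Perm (Fin n), (Equiv.Perm.sign σ : ℤ) • monomial (fs (fun i => lam (σ i))) (1 : ℤ) := by
  rw [Matrix.det_apply]
  apply Finset.sum_congr rfl
  intro σ _
  rw [← prod_pow_eq]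
  rfl

instance (α β : Fin n → ℕ) : Finite (Mats α β) := by
  apply Finite.of_injective (β := Fin n → Fin n → Fin (∑ i, α i + 1)) (fun A s t => ⟨A.1 s t, by
    have h1 : A.1 s t ≤ ∑ t, A.1 s t := Finset.single_le_sum (f := fun t => A.1 s t) (fun _ _ => Nat.zero_le _) (Finset.mem_univ t)
    have h2 : α s ≤ ∑ i, α i := Finset.single_le_sum (f := fun t => α t) (fun _ _ => Nat.zero_le _) (Finset.mem_univ s)
    rw [A.2.1 s] at h1
    omega⟩)
  intro A B hAB
  apply Subtype.ext
  funext s t
  exact congrArg Fin.val (congrFun (congrFun hAB s) t)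

/-- coefficients of products of complete symmetric polynomials -/
lemma coeff_prod_h (α β : Fin n → ℕ) : coeff (fs β) (∏ i, h n (α i)) = (Nat.card (Mats α β) : ℤ) := by
  classical
  have h1 : ∏ i, h n (α i) = ∑ p ∈ Fintype.piFinset (fun i : Fin n => finsuppAntidiag (Finset.univ : Finset (Fin n)) (α i)),
      monomial (∑ i, p i) (1 : ℤ) := by
    rw [Finset.prod_congr rfl (fun i _ => h_eq n (α i)), Finset.prod_univ_sum]
    apply Finset.sum_congr rfl
    intro p _
    rw [MvPolynomial.monomial_sum_one]
  rw [h1, MvPolynomial.coeff_sum]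
  simp only [MvPolynomial.coeff_monomial]
  rw [Finset.sum_boole]
  congr 1
  have e : Mats α β ≃ {x // x ∈ ((Fintype.piFinset fun i : Fin n => finsuppAntidiag (Finset.univ : Finset (Fin n)) (α i)).filter
      fun x => ∑ i, x i = fs β)} := {
    toFun := fun A => ⟨fun i => fs (A.1 i), by
      rw [Finset.mem_filter, Fintype.mem_piFinset]
      constructor
      · intro i
        rw [Finset.mem_finsuppAntidiag]
        exact ⟨A.2.1 i, Finset.subset_univ _⟩
      · ext t
        rw [Finsupp.finsetSum_apply]
        exact A.2.2 t⟩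
    invFun := fun x => ⟨fun i k => x.1 i k, by
      have hx := x.2
      rw [Finset.mem_filter, Fintype.mem_piFinset] at hx
      constructor
      · intro i
        have := hx.1 i
        rw [Finset.mem_finsuppAntidiag] at this
        exact this.1
      · intro t
        have := DFunLike.congr_fun hx.2 t
        rw [Finsupp.finsetSum_apply] at this
        exact this⟩
    left_inv := fun A => rfl
    right_inv := fun x => by
      apply Subtype.ext
      funext i
      ext k
      rfl }
  rw [Nat.card_congr e, Nat.card_eq_fintype_card, Fintype.card_coe]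

/-- shifted difference -/
lemma coeff_det_M (lam β : Fin n → ℕ) : coeff (fs β) (M lam).det =
    ∑ κ : Equiv.Perm (Fin n), if ∀ i, (κ i).val ≤ lam i then
      ((Equiv.Perm.sign κ : ℤ)) * (Nat.card (Mats (fun i => lam i - (κ i).val) β) : ℤ) else 0 := by
  rw [← Matrix.det_transpose, Matrix.det_apply, MvPolynomial.coeff_sum]
  apply Finset.sum_congr rfl
  intro κ _
  have e1 : (Equiv.Perm.sign κ • ∏ i, (M lam).transpose (κ i) i : R n) = (Equiv.Perm.sign κ : ℤ) • ∏ i, (M lam).transpose (κ i) i := rfl
  rw [e1, MvPolynomial.coeff_smul]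
  split_ifs with hc
  · rw [← coeff_prod_h, smul_eq_mul]
    congr 2
    apply Finset.prod_congr rfl
    intro i _
    simp only [M, Matrix.transpose_apply, Matrix.of_apply]
    rw [if_pos (hc i)]
  · push Not at hc
    obtain ⟨i, hi⟩ := hc
    have : ∏ i, (M lam).transpose (κ i) i = 0 := by
      apply Finset.prod_eq_zero (Finset.mem_univ i)
      simp only [M, Matrix.transpose_apply, Matrix.of_apply]
      rw [if_neg (by omega)]
    rw [this]; simp

theorem alt_sum (lam lam' : Fin n → ℕ) :
    (∑ κ : Equiv.Perm (Fin n), ∑ κ' : Equiv.Perm (Fin n),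
      if (∀ i, (κ i).val ≤ lam i) ∧ (∀ i, (κ' i).val ≤ lam' i) then
        (Equiv.Perm.sign κ : ℤ) * (Equiv.Perm.sign κ' : ℤ) *
          (Nat.card (Mats (fun i => lam i - (κ i).val) (fun i => lam' i - (κ' i).val)) : ℤ) else 0) =
      ∑ σ : Equiv.Perm (Fin n), if (fun i => lam (σ i)) = lam' then (Equiv.Perm.sign σ : ℤ) else 0 := by
  classical
  have h1 : coeff (fs lam') ((M lam).det * (V (fun i : Fin n => i.val)).det) = coeff (fs lam') (V lam).det := by
    rw [det_M_mul]
  rw [det_V, det_V, MvPolynomial.coeff_sum, Finset.mul_sum, MvPolynomial.coeff_sum] at h1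
  have h2 : ∀ σ : Equiv.Perm (Fin n), coeff (fs lam') ((Equiv.Perm.sign σ : ℤ) • monomial (fs (fun i => lam (σ i))) (1 : ℤ)) =
      if (fun i => lam (σ i)) = lam' then (Equiv.Perm.sign σ : ℤ) else 0 := by
    intro σ
    rw [MvPolynomial.coeff_smul, MvPolynomial.coeff_monomial]
    simp only [fs_inj]
    split_ifs <;> simp
  rw [Finset.sum_congr rfl (fun σ _ => h2 σ)] at h1
  rw [← h1, Finset.sum_comm]
  apply Finset.sum_congr rfl
  intro κ' _
  rw [mul_smul_comm, MvPolynomial.coeff_smul, mul_comm (M lam).det, MvPolynomial.coeff_monomial_mul']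
  by_cases hk : ∀ i, (κ' i).val ≤ lam' i
  · have h3 : fs (fun i => (κ' i).val) ≤ fs lam' := fun i => hk i
    have h4 : fs lam' - fs (fun i => (κ' i).val) = fs (fun i => lam' i - (κ' i).val) := by
      ext i; rfl
    rw [if_pos h3, h4, coeff_det_M, one_mul, smul_eq_mul, Finset.mul_sum]
    apply Finset.sum_congr rfl
    intro κ _
    by_cases hc : ∀ i, (κ i).val ≤ lam i
    · rw [if_pos ⟨hc, hk⟩, if_pos hc]; ring
    · rw [if_neg (fun hh => hc hh.1), if_neg hc, mul_zero]
  · have h3 : ¬ fs (fun i => (κ' i).val) ≤ fs lam' := fun hh => hk fun i => hh i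
    rw [if_neg h3, smul_zero]
    apply Finset.sum_eq_zero
    intro κ _
    rw [if_neg (fun hh => hk hh.2)]

/-- orthonormality -/
theorem alt_sum_mono (lam lam' : Fin n → ℕ) (hl : StrictMono lam) (hl' : StrictMono lam') :
    (∑ κ : Equiv.Perm (Fin n), ∑ κ' : Equiv.Perm (Fin n),
      if (∀ i, (κ i).val ≤ lam i) ∧ (∀ i, (κ' i).val ≤ lam' i) then
        (Equiv.Perm.sign κ : ℤ) * (Equiv.Perm.sign κ' : ℤ) *
          (Nat.card (Mats (fun i => lam i - (κ i).val) (fun i => lam' i - (κ' i).val)) : ℤ) else 0) =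
      if lam = lam' then 1 else 0 := by
  classical
  rw [alt_sum]
  have h1 : ∀ σ : Equiv.Perm (Fin n), (fun i => lam (σ i)) = lam' → σ = 1 := by
    intro σ hσ
    have h2 : StrictMono σ := by
      intro i j hij
      have := hl' hij
      rw [← hσ] at this
      exact hl.lt_iff_lt.mp this
    ext i
    have h3 := congrArg (fun f : Fin n ≃o Fin n => f i) (Subsingleton.elim (StrictMono.orderIsoOfSurjective σ h2 σ.surjective) (OrderIso.refl _))
    simpa using congrArg Fin.val h3
  rw [Finset.sum_eq_single (1 : Equiv.Perm (Fin n))]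
  · simp
  · intro σ _ hσ
    rw [if_neg (fun hh => hσ (h1 σ hh))]
  · intro hh; exact absurd (Finset.mem_univ _) hh

end Cfsg.Agent.Lib.GLJacobi
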