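import Cfsg.Prelude.Def_LinearParabolics
import Cfsg.Agent.Lib.GLJacobi
import Cfsg.Agent.Lib.GLDegree
import Cfsg.Agent.Lib.CharBasic2
import Mathlib

set_option autoImplicit false

/-!
The alternating sums of flag permutation characters of `GL_n(q)` are irreducible and distinct.
-/

namespace Cfsg.Agent.Lib.GLUnip

open Cfsg Finset
open scoped MatrixGroups ComplexConjugate
open Cfsg.Agent.Lib.GLJacobi Cfsg.Agent.Lib.GLPos Cfsg.Agent.Lib.GLBruhat Cfsg.Agent.Lib.GLLabel
open Cfsg.Agent.Lib.GLOrbits Cfsg.Agent.Lib.CharBasic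

universe u
variable {n : ℕ} {F : Type u} [Field F]

lemma inner_fixed [Fintype (GL (Fin n) F)] (α β : Fin n → ℕ) (hα : ∑ i, α i = n) (hβ : ∑ i, β i = n) :
    classInner (fixedPointCharacter (parabolicGL n F α)) (fixedPointCharacter (parabolicGL n F β)) = (Nat.card (Mats α β) : ℂ) := by
  unfold classInner
  have h1 : ∀ g : GL (Fin n) F, conj (fixedPointCharacter (parabolicGL n F β) g) = fixedPointCharacter (parabolicGL n F β) g := by
    intro g
    unfold fixedPointCharacter
    exact Complex.conj_natCast _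
  simp only [h1]
  rw [inner_eq_orbits, parabolicGL_eq, parabolicGL_eq, card_orbits_para _ _ (compLabel_mono α) (compLabel_mono β),
    card_range_pos α β hα hβ]

lemma unip_eq (ν : Fin n → ℕ) : unipotentCharacterGL n F ν = ∑ κ : Equiv.Perm (Fin n),
    (if ∀ i : Fin n, (κ i).val ≤ ν i + i.val then ((Equiv.Perm.sign κ : ℤ) : ℂ) else 0) •
      fixedPointCharacter (parabolicGL n F fun i => ν i + i.val - (κ i).val) := by
  funext g
  unfold unipotentCharacterGL
  rw [Finset.sum_apply]
  apply Finset.sum_congr rfl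
  intro κ _
  rw [Pi.smul_apply, smul_eq_mul]
  split_ifs
  · rfl
  · rw [zero_mul]

lemma sum_shift (ν : Fin n → ℕ) (hsum : ∑ i, ν i = n) (κ : Equiv.Perm (Fin n)) (h : ∀ i : Fin n, (κ i).val ≤ ν i + i.val) :
    ∑ i : Fin n, (ν i + i.val - (κ i).val) = n := by
  have h1 : ∑ i : Fin n, (ν i + i.val - (κ i).val) + ∑ i : Fin n, (κ i).val = ∑ i : Fin n, ν i + ∑ i : Fin n, i.val := by
    rw [← Finset.sum_add_distrib, ← Finset.sum_add_distrib]
    apply Finset.sum_congr rfl
    intro i _
    have := h i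
    omega
  rw [Equiv.sum_comp κ (fun i : Fin n => i.val), hsum] at h1
  omega

theorem inner_unip [Fintype (GL (Fin n) F)] (ν ν' : Fin n → ℕ) (hmono : Monotone ν) (hmono' : Monotone ν')
    (hsum : ∑ i, ν i = n) (hsum' : ∑ i, ν' i = n) :
    classInner (unipotentCharacterGL n F ν) (unipotentCharacterGL n F ν') = if ν = ν' then 1 else 0 := by
  rw [unip_eq, unip_eq, classInner_sum_left]
  have h1 : ∀ κ : Equiv.Perm (Fin n), classInner ((if ∀ i : Fin n, (κ i).val ≤ ν i + i.val then ((Equiv.Perm.sign κ : ℤ) : ℂ) else 0) •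
      fixedPointCharacter (parabolicGL n F fun i => ν i + i.val - (κ i).val)) (∑ κ : Equiv.Perm (Fin n),
    (if ∀ i : Fin n, (κ i).val ≤ ν' i + i.val then ((Equiv.Perm.sign κ : ℤ) : ℂ) else 0) •
      fixedPointCharacter (parabolicGL n F fun i => ν' i + i.val - (κ i).val)) =
      ((∑ κ' : Equiv.Perm (Fin n), if (∀ i, (κ i).val ≤ ν i + i.val) ∧ (∀ i, (κ' i).val ≤ ν' i + i.val) then
        (Equiv.Perm.sign κ : ℤ) * (Equiv.Perm.sign κ' : ℤ) *
          (Nat.card (Mats (fun i => ν i + i.val - (κ i).val) (fun i => ν' i + i.val - (κ' i).val)) : ℤ) else 0 : ℤ) : ℂ) := by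
    intro κ
    rw [classInner_sum_right, Int.cast_sum]
    apply Finset.sum_congr rfl
    intro κ' _
    rw [classInner_smul_left, classInner_smul_right]
    by_cases hc : ∀ i : Fin n, (κ i).val ≤ ν i + i.val
    · by_cases hc' : ∀ i : Fin n, (κ' i).val ≤ ν' i + i.val
      · rw [if_pos hc, if_pos hc', if_pos ⟨hc, hc'⟩, inner_fixed _ _ (sum_shift ν hsum κ hc) (sum_shift ν' hsum' κ' hc')]
        push_cast
        rw [map_intCast (starRingEnd ℂ)]
        ring
      · have hn : ¬ ((∀ i : Fin n, (κ i).val ≤ ν i + i.val) ∧ ∀ i : Fin n, (κ' i).val ≤ ν' i + i.val) := fun hh => hc' hh.2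
        rw [if_neg hc', if_neg hn]
        simp
    · have hn : ¬ ((∀ i : Fin n, (κ i).val ≤ ν i + i.val) ∧ ∀ i : Fin n, (κ' i).val ≤ ν' i + i.val) := fun hh => hc hh.1
      rw [if_neg hc, if_neg hn]
      simp
  rw [Finset.sum_congr rfl (fun κ _ => h1 κ), ← Int.cast_sum]
  have hl : StrictMono (fun i : Fin n => ν i + i.val) := by
    intro i j hij
    have := hmono hij.le
    have h2 : i.val < j.val := hij
    simp only
    omega
  have hl' : StrictMono (fun i : Fin n => ν' i + i.val) := by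
    intro i j hij
    have := hmono' hij.le
    have h2 : i.val < j.val := hij
    simp only
    omega
  rw [alt_sum_mono _ _ hl hl']
  by_cases hv : ν = ν'
  · rw [if_pos hv, if_pos (by rw [hv])]; simp
  · rw [if_neg hv, if_neg]
    · simp
    · intro hh
      apply hv
      funext i
      have := congrFun hh i
      omega

lemma unip_gen [Finite F] (ν : Fin n → ℕ) : IsGeneralizedCharacter (GL (Fin n) F) (unipotentCharacterGL n F ν) := by
  rw [unip_eq]
  apply isGeneralized_sum
  intro κ _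
  split_ifs with h
  · apply IsGeneralizedCharacter.intCast_smul
    exact IsCharacter.isGeneralized (isCharacter_perm (X := GL (Fin n) F ⧸ parabolicGL n F fun i => ν i + i.val - (κ i).val))
  · rw [zero_smul]
    exact isGeneralized_zero

open Cfsg.Agent.Lib.GLDegree Cfsg.Agent.Lib.GLIndex in
lemma unip_one_nonneg [Fintype F] (ν : Fin n → ℕ) (hmono : Monotone ν) (hsum : ∑ i, ν i = n) :
    0 ≤ (unipotentCharacterGL n F ν 1).re := by
  rw [char_one ν hsum]
  have h := det_E (Fintype.card F) (fun i : Fin n => ν i + i.val)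
  set q := Fintype.card F with hq
  have hq1 : 0 < q := Fintype.card_pos
  set a : ℝ := (q : ℝ) ^ (n * (n - 1) * (n - 2) / 6) * ∏ i : Fin n, (qf q (ν i + i.val) : ℝ) with ha
  set b : ℝ := ∏ i : Fin n, ∏ j ∈ Finset.Ioi i, (((∑ l ∈ Finset.range (ν j + j.val), q ^ l : ℕ) : ℝ) - ((∑ l ∈ Finset.range (ν i + i.val), q ^ l : ℕ) : ℝ)) with hb
  have ha0 : 0 < a := by
    apply mul_pos
    · exact pow_pos (by exact_mod_cast hq1) _
    · exact Finset.prod_pos fun i _ => by exact_mod_cast qf_pos q _
  have hb0 : 0 ≤ b := by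
    apply Finset.prod_nonneg
    intro i _
    apply Finset.prod_nonneg
    intro j hj
    rw [Finset.mem_Ioi] at hj
    rw [sub_nonneg]
    have h1 := hmono hj.le
    have h2 : i.val < j.val := hj
    have h3 : ∑ l ∈ Finset.range (ν i + i.val), q ^ l ≤ ∑ l ∈ Finset.range (ν j + j.val), q ^ l := by
      apply Finset.sum_le_sum_of_subset
      intro x hx
      rw [Finset.mem_range] at hx ⊢
      omega
    exact_mod_cast h3
  have h2 : (E q (fun i : Fin n => ν i + i.val)).det * (a : ℂ) = (b : ℂ) := by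
    rw [ha, hb]
    push_cast
    rw [← mul_assoc]
    simp only [qfc_eq, qi] at h
    push_cast at h
    exact h
  have h3 : (E q (fun i : Fin n => ν i + i.val)).det = ((b / a : ℝ) : ℂ) := by
    have ha1 : (a : ℂ) ≠ 0 := by exact_mod_cast ha0.ne'
    rw [eq_comm, Complex.ofReal_div, div_eq_iff ha1, h2]
  rw [h3, qfc_eq]
  have h4 : ((qf q n : ℂ) * ((b / a : ℝ) : ℂ)) = (((qf q n : ℝ) * (b / a) : ℝ) : ℂ) := by push_cast; rfl
  rw [h4, Complex.ofReal_re]
  positivity

theorem unip_irr [Finite F] (ν : Fin n → ℕ) (hmono : Monotone ν) (hsum : ∑ i, ν i = n) :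
    IsIrrCharacter (GL (Fin n) F) (unipotentCharacterGL n F ν) := by
  classical
  have := Fintype.ofFinite F
  have : Fintype (GL (Fin n) F) := Fintype.ofFinite _
  apply IsGeneralizedCharacter.irr_of_norm_one (unip_gen ν)
  · rw [inner_unip ν ν hmono hmono hsum hsum, if_pos rfl]
  · exact unip_one_nonneg ν hmono hsum

theorem unip_distinct [Finite F] (ν ν' : Fin n → ℕ) (hmono : Monotone ν) (hmono' : Monotone ν')
    (hsum : ∑ i, ν i = n) (hsum' : ∑ i, ν' i = n) (h : unipotentCharacterGL n F ν = unipotentCharacterGL n F ν') : ν = ν' := by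
  classical
  have := Fintype.ofFinite F
  have : Fintype (GL (Fin n) F) := Fintype.ofFinite _
  by_contra hne
  have h1 := inner_unip (F := F) ν ν' hmono hmono' hsum hsum'
  rw [if_neg hne, ← h, inner_unip ν ν hmono hmono hsum hsum, if_pos rfl] at h1
  exact one_ne_zero h1

end Cfsg.Agent.Lib.GLUnip
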