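import Cfsg.Agent.Lib.H10Enum

set_option autoImplicit false
set_option maxRecDepth 100000
set_option linter.style.longLine false

/-! Certificate data (coset enumeration). -/

namespace Cfsg.Agent.Lib.GT27A7

open Cfsg.Agent.Lib.H10Enum

/-- the facts -/
def T : ℕ := 0x60000000000000b0000100a0000100800002005000030060000400600005007000080090000a00c0000a00b0000800d0200b00d0400c00b0600900c0400a00a020060070400600606003003060020020200100104000000020000000600d00a0200c0090600b0080200a008040090070400800506007005060060040200500404004003020030020400200106001000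

/-- the relators -/
def R : List (List ℕ) := [[2, 2], [4, 4], [6, 6], [2, 4, 2, 4, 2, 4, 2, 4, 2, 4, 2, 4, 2, 4], [2, 6, 2, 6], [4, 6, 4, 6, 4, 6], [2, 4, 6, 2, 4, 6, 2, 4, 6, 2, 4, 6, 2, 4, 6, 2, 4, 6, 2, 4, 6], [2, 3], [4, 5], [6, 7]]

/-- rules -/
def rs0 : List Rule := [
  ⟨3, 1, 1, 1, [0x140010000a0008000600040021000500070009000b001100150014]⟩,
  ⟨4, 0, 1, 1, [0x2001d0003000f, 0xc000b000f0013, 0x160015001b0017]⟩,
  ⟨4, 1, 1, 1, [0x6002300070011]⟩,
  ⟨5, 0, 1, 1, [0xc000800250009000d0012]⟩,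
  ⟨5, 1, 0, 1, [0x2d0012000e001100170016]⟩,
  ⟨5, 1, 1, 1, [0x40002001f000300050010]⟩,
  ⟨6, 0, 0, 1, [0x120029000c000800060022000400200002001e001c00030005000700240009000b000f001300190015]⟩,
  ⟨6, 0, 1, 0, [0x15002b001b0031002f002d0019002e00160015002b001b0031002f002d0019002e00160015002b001b0018]⟩,
  ⟨7, 1, 0, 0, [0x14003200310019, 0x1500360018001b, 0xb003a0029001d, 0x7003e003d000b001f, 0x20004200150021]⟩,
  ⟨8, 1, 0, 0, [0x2a0034002f001a, 0x1100380012001c, 0x9003c0027001e, 0x5004000110020]⟩,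
  ⟨9, 0, 0, 1, [0x460035004500020023]⟩,
  ⟨9, 1, 0, 0, [0x3004200170022]⟩]

/-- all rules -/
def rs : List Rule := rs0

theorem ok : check T 14 22 13 36 [1, 2] [13, 14] R rs = true := by decide +kernel

/-- the target fact 35: letter 3 -/
theorem tgt3 : fct T 35 = 100663296 := by decide +kernel

end Cfsg.Agent.Lib.GT27A7
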