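import Cfsg.Agent.Lib.GT27A8
import Cfsg.Agent.Lib.GT27A7
import Cfsg.Agent.Lib.GT27A12x7
import Cfsg.Agent.Lib.GT27A12x8
import Cfsg.Agent.Lib.GT27A12x12
import Cfsg.Agent.Lib.GT27B7
import Cfsg.Agent.Lib.GT27B8
import Cfsg.Agent.Lib.GT27B12
import Cfsg.Agent.Lib.J2Pres

set_option autoImplicit false
set_option linter.all false

/-! Coset enumerations for `G₂(2)` (helper11). -/

namespace Cfsg.Agent.Lib.GT27En

open Cfsg.Agent.Lib.H10Enum Cfsg.Agent.Lib.J2Pres Subgroup

section defs
variable {G : Type*} [Group G]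

/-- triangle relations -/
structure Tri (a b c : G) : Prop where
  a2 : a * a = 1
  b2 : b * b = 1
  c2 : c * c = 1
  ab : (a * b) ^ 7 = 1
  ac : (a * c) ^ 2 = 1
  bc : (b * c) ^ 3 = 1

/-- the relations of `G₂(2)` without the last one -/
structure Rel (a b c d : G) : Prop extends Tri a b c where
  abc : (a * b * c) ^ 8 = 1
  d2 : d * d = 1
  dac : Commute d (a * c)
  dw : Commute d (b * a * b * a * c * b)
  ad : (a * d) ^ 3 = 1

/-- the letters -/
def gl (a b c d : G) : ℕ → G
  | 1 => a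
  | 2 => b
  | 3 => c
  | 4 => d
  | _ => 1

theorem Tri.map {H : Type*} [Group H] (f : G →* H) {a b c : G} (h : Tri a b c) : Tri (f a) (f b) (f c) where
  a2 := by rw [← map_mul, h.a2, map_one]
  b2 := by rw [← map_mul, h.b2, map_one]
  c2 := by rw [← map_mul, h.c2, map_one]
  ab := by rw [← map_mul, ← map_pow, h.ab, map_one]
  ac := by rw [← map_mul, ← map_pow, h.ac, map_one]
  bc := by rw [← map_mul, ← map_pow, h.bc, map_one]

theorem Tri.hiv {a b c : G} (h : Tri a b c) (d : G) : ∀ n, (14 : ℕ).testBit n = true → (gl a b c d n)⁻¹ = gl a b c d n := by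
  intro n hn
  have hlt := tb_lt (n := 14) (by norm_num) hn
  interval_cases n <;> first | (exfalso; revert hn; decide) | skip
  · exact inv_of_sq h.a2
  · exact inv_of_sq h.b2
  · exact inv_of_sq h.c2

theorem Rel.hiv {a b c d : G} (h : Rel a b c d) : ∀ n, (30 : ℕ).testBit n = true → (gl a b c d n)⁻¹ = gl a b c d n := by
  intro n hn
  have hlt := tb_lt (n := 30) (by norm_num) hn
  interval_cases n <;> first | (exfalso; revert hn; decide) | skip
  · exact inv_of_sq h.a2
  · exact inv_of_sq h.b2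
  · exact inv_of_sq h.c2
  · exact inv_of_sq h.d2

theorem r7 {x y : G} (h : (x * y) ^ 7 = 1) : x * (y * (x * (y * (x * (y * (x * (y * (x * (y * (x * (y * (x * y)))))))))))) = 1 := by
  rw [← h]; simp only [pow_succ, pow_zero, one_mul, mul_assoc]

theorem r2 {x y : G} (h : (x * y) ^ 2 = 1) : x * (y * (x * y)) = 1 := by
  rw [← h]; simp only [pow_succ, pow_zero, one_mul, mul_assoc]

theorem r3 {x y : G} (h : (x * y) ^ 3 = 1) : x * (y * (x * (y * (x * y)))) = 1 := by
  rw [← h]; simp only [pow_succ, pow_zero, one_mul, mul_assoc]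

theorem A8R {a b c : G} (h : Tri a b c) (h8 : (a * b * c) ^ 8 = 1) (d : G) : ∀ v ∈ GT27A8.R, wval (gl a b c d) v = 1 := by
  unfold GT27A8.R
  simp only [List.forall_mem_cons, List.not_mem_nil, false_implies, implies_true, and_true]
  refine ⟨?_, ?_, ?_, ?_, ?_, ?_, ?_, ?_, ?_, ?_⟩
  · simpa [wval, val, gl] using h.a2
  · simpa [wval, val, gl] using h.b2
  · simpa [wval, val, gl] using h.c2
  · simpa [wval, val, gl, mul_assoc, pow_succ] using h.ab
  · simpa [wval, val, gl, mul_assoc, pow_succ] using h.ac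
  · simpa [wval, val, gl, mul_assoc, pow_succ] using h.bc
  · simpa [wval, val, gl, mul_assoc, pow_succ] using h8
  · simp [wval, val, gl]
  · simp [wval, val, gl]
  · simp [wval, val, gl]

theorem A7R {a b c : G} (h : Tri a b c) (h8 : (a * b * c) ^ 7 = 1) (d : G) : ∀ v ∈ GT27A7.R, wval (gl a b c d) v = 1 := by
  unfold GT27A7.R
  simp only [List.forall_mem_cons, List.not_mem_nil, false_implies, implies_true, and_true]
  refine ⟨?_, ?_, ?_, ?_, ?_, ?_, ?_, ?_, ?_, ?_⟩
  · simpa [wval, val, gl] using h.a2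
  · simpa [wval, val, gl] using h.b2
  · simpa [wval, val, gl] using h.c2
  · simpa [wval, val, gl, mul_assoc, pow_succ] using h.ab
  · simpa [wval, val, gl, mul_assoc, pow_succ] using h.ac
  · simpa [wval, val, gl, mul_assoc, pow_succ] using h.bc
  · simpa [wval, val, gl, mul_assoc, pow_succ] using h8
  · simp [wval, val, gl]
  · simp [wval, val, gl]
  · simp [wval, val, gl]

theorem A12x7R {a b c : G} (h : Tri a b c) (h8 : (a * b * c) ^ 12 = 1) (hu : (a * b * a * b * c) ^ 7 = 1) (d : G) :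
    ∀ v ∈ GT27A12x7.R, wval (gl a b c d) v = 1 := by
  unfold GT27A12x7.R
  simp only [List.forall_mem_cons, List.not_mem_nil, false_implies, implies_true, and_true]
  refine ⟨?_, ?_, ?_, ?_, ?_, ?_, ?_, ?_, ?_, ?_, ?_⟩
  · simpa [wval, val, gl] using h.a2
  · simpa [wval, val, gl] using h.b2
  · simpa [wval, val, gl] using h.c2
  · simpa [wval, val, gl, mul_assoc, pow_succ] using h.ab
  · simpa [wval, val, gl, mul_assoc, pow_succ] using h.ac
  · simpa [wval, val, gl, mul_assoc, pow_succ] using h.bc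
  · simpa [wval, val, gl, mul_assoc, pow_succ] using h8
  · simpa [wval, val, gl, mul_assoc, pow_succ] using hu
  · simp [wval, val, gl]
  · simp [wval, val, gl]
  · simp [wval, val, gl]

theorem A12x8R {a b c : G} (h : Tri a b c) (h8 : (a * b * c) ^ 12 = 1) (hu : (a * b * a * b * c) ^ 8 = 1) (d : G) :
    ∀ v ∈ GT27A12x8.R, wval (gl a b c d) v = 1 := by
  unfold GT27A12x8.R
  simp only [List.forall_mem_cons, List.not_mem_nil, false_implies, implies_true, and_true]
  refine ⟨?_, ?_, ?_, ?_, ?_, ?_, ?_, ?_, ?_, ?_, ?_⟩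
  · simpa [wval, val, gl] using h.a2
  · simpa [wval, val, gl] using h.b2
  · simpa [wval, val, gl] using h.c2
  · simpa [wval, val, gl, mul_assoc, pow_succ] using h.ab
  · simpa [wval, val, gl, mul_assoc, pow_succ] using h.ac
  · simpa [wval, val, gl, mul_assoc, pow_succ] using h.bc
  · simpa [wval, val, gl, mul_assoc, pow_succ] using h8
  · simpa [wval, val, gl, mul_assoc, pow_succ] using hu
  · simp [wval, val, gl]
  · simp [wval, val, gl]
  · simp [wval, val, gl]

theorem A12x12R {a b c : G} (h : Tri a b c) (h8 : (a * b * c) ^ 12 = 1) (hu : (a * b * a * b * c) ^ 12 = 1) (d : G) :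
    ∀ v ∈ GT27A12x12.R, wval (gl a b c d) v = 1 := by
  unfold GT27A12x12.R
  simp only [List.forall_mem_cons, List.not_mem_nil, false_implies, implies_true, and_true]
  refine ⟨?_, ?_, ?_, ?_, ?_, ?_, ?_, ?_, ?_, ?_, ?_⟩
  · simpa [wval, val, gl] using h.a2
  · simpa [wval, val, gl] using h.b2
  · simpa [wval, val, gl] using h.c2
  · simpa [wval, val, gl, mul_assoc, pow_succ] using h.ab
  · simpa [wval, val, gl, mul_assoc, pow_succ] using h.ac
  · simpa [wval, val, gl, mul_assoc, pow_succ] using h.bc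
  · simpa [wval, val, gl, mul_assoc, pow_succ] using h8
  · simpa [wval, val, gl, mul_assoc, pow_succ] using hu
  · simp [wval, val, gl]
  · simp [wval, val, gl]
  · simp [wval, val, gl]

theorem comm_rel {d w : G} (h : Commute d w) : w * (d * (w⁻¹ * d⁻¹)) = 1 := by
  have h1 : w * (d * (w⁻¹ * d⁻¹)) = w * d * w⁻¹ * d⁻¹ := by group
  rw [h1, ← h.eq]; group

theorem Rel.R0 {a b c d : G} (h : Rel a b c d) : wval (gl a b c d) [2, 6, 8, 6, 2, 8] = 1 ∧
    wval (gl a b c d) [4, 2, 4, 2, 6, 4, 8, 4, 6, 2, 4, 2, 4, 8] = 1 ∧ wval (gl a b c d) [2, 8, 2, 8, 2, 8] = 1 := by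
  have ai := inv_of_sq h.a2
  have bi := inv_of_sq h.b2
  have ci := inv_of_sq h.c2
  have di := inv_of_sq h.d2
  refine ⟨?_, ?_, ?_⟩
  · have := comm_rel h.dac
    rw [mul_inv_rev, ai, ci, di] at this
    simpa [wval, val, gl, mul_assoc] using this
  · have := comm_rel h.dw
    simp only [mul_inv_rev, ai, bi, ci, di] at this
    simpa [wval, val, gl, mul_assoc] using this
  · simpa [wval, val, gl, mul_assoc, pow_succ] using h.ad

theorem B7R {a b c d : G} (h : Rel a b c d) (hk : (b * d) ^ 7 = 1) : ∀ v ∈ GT27B7.R, wval (gl a b c d) v = 1 := by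
  have hA := A8R h.toTri h.abc d
  unfold GT27A8.R at hA
  simp only [List.forall_mem_cons, List.not_mem_nil, false_implies, implies_true, and_true] at hA
  obtain ⟨h1, h2, h3, h4, h5, h6, h7, h8, h9, h10⟩ := hA
  obtain ⟨k1, k2, k3⟩ := h.R0
  unfold GT27B7.R
  simp only [List.forall_mem_cons, List.not_mem_nil, false_implies, implies_true, and_true]
  refine ⟨h1, h2, h3, h4, h5, h6, h7, ?_, k1, k2, k3, ?_, h8, h9, h10, ?_⟩
  · simpa [wval, val, gl] using h.d2
  · simpa [wval, val, gl, mul_assoc, pow_succ] using hk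
  · simp [wval, val, gl]

theorem B8R {a b c d : G} (h : Rel a b c d) (hk : (b * d) ^ 8 = 1) : ∀ v ∈ GT27B8.R, wval (gl a b c d) v = 1 := by
  have hA := A8R h.toTri h.abc d
  unfold GT27A8.R at hA
  simp only [List.forall_mem_cons, List.not_mem_nil, false_implies, implies_true, and_true] at hA
  obtain ⟨h1, h2, h3, h4, h5, h6, h7, h8, h9, h10⟩ := hA
  obtain ⟨k1, k2, k3⟩ := h.R0
  unfold GT27B8.R
  simp only [List.forall_mem_cons, List.not_mem_nil, false_implies, implies_true, and_true]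
  refine ⟨h1, h2, h3, h4, h5, h6, h7, ?_, k1, k2, k3, ?_, h8, h9, h10, ?_⟩
  · simpa [wval, val, gl] using h.d2
  · simpa [wval, val, gl, mul_assoc, pow_succ] using hk
  · simp [wval, val, gl]

theorem B12R {a b c d : G} (h : Rel a b c d) (hk : (b * d) ^ 12 = 1) : ∀ v ∈ GT27B12.R, wval (gl a b c d) v = 1 := by
  have hA := A8R h.toTri h.abc d
  unfold GT27A8.R at hA
  simp only [List.forall_mem_cons, List.not_mem_nil, false_implies, implies_true, and_true] at hA
  obtain ⟨h1, h2, h3, h4, h5, h6, h7, h8, h9, h10⟩ := hA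
  obtain ⟨k1, k2, k3⟩ := h.R0
  unfold GT27B12.R
  simp only [List.forall_mem_cons, List.not_mem_nil, false_implies, implies_true, and_true]
  refine ⟨h1, h2, h3, h4, h5, h6, h7, ?_, k1, k2, k3, ?_, h8, h9, h10, ?_⟩
  · simpa [wval, val, gl] using h.d2
  · simpa [wval, val, gl, mul_assoc, pow_succ] using hk
  · simp [wval, val, gl]

theorem fix_of_mem {a : G} {B : Subgroup G} (h : a ∈ B) : a • ((1 : G) : G ⧸ B) = ((1 : G) : G ⧸ B) := by
  rw [MulAction.Quotient.smul_coe, smul_eq_mul, mul_one, QuotientGroup.eq]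
  simpa using B.inv_mem h

theorem mem_of_fact {T k n v : ℕ} {x : ℕ → G} {B : Subgroup G} (hk : fct T k = v)
    (h1 : fsrc v = 0) (h2 : fdst v = 0) (h3 : flet v = 2 * n)
    (hg : Good T x (pts T x ((1 : G) : G ⧸ B)) k) : x n ∈ B := by
  unfold Good at hg
  rw [hk, h1, h2, h3, pts_zero, val_even] at hg
  change ((1 : G) : G ⧸ B) = ((x n * 1 : G) : G ⧸ B) at hg
  rw [QuotientGroup.eq] at hg
  simpa using hg

/-- the Petrie element has order dividing 8 -/
theorem petrie (hs : ∀ g : G, g ^ 7 = 1 ∨ g ^ 8 = 1 ∨ g ^ 12 = 1) {a b c : G} (h : Tri a b c)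
    (hc : c ∉ closure ({a, b} : Set G)) : (a * b * c) ^ 8 = 1 := by
  set B : Subgroup G := closure ({a, b} : Set G) with hB
  have hsub : ∀ n ∈ [1, 2], gl a b c 1 n • ((1 : G) : G ⧸ B) = ((1 : G) : G ⧸ B) := by
    intro n hn
    simp only [List.mem_cons, List.not_mem_nil, or_false] at hn
    rcases hn with rfl | rfl
    · exact fix_of_mem (subset_closure (Or.inl rfl))
    · exact fix_of_mem (subset_closure (Or.inr rfl))
  rcases hs (a * b * c) with h7 | h8 | h12
  · exfalso
    apply hc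
    exact mem_of_fact (x := gl a b c 1) (n := 3) GT27A7.tgt3 (by decide +kernel) (by decide +kernel) (by decide +kernel)
      (sound rfl (h.hiv 1) (A7R h h7 1) hsub GT27A7.ok _ (by norm_num))
  · exact h8
  · exfalso
    apply hc
    rcases hs (a * b * a * b * c) with k | k | k
    · exact mem_of_fact (x := gl a b c 1) (n := 3) GT27A12x7.tgt3 (by decide +kernel) (by decide +kernel) (by decide +kernel)
        (sound rfl (h.hiv 1) (A12x7R h h12 k 1) hsub GT27A12x7.ok _ (by norm_num))
    · exact mem_of_fact (x := gl a b c 1) (n := 3) GT27A12x8.tgt3 (by decide +kernel) (by decide +kernel) (by decide +kernel)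
        (sound rfl (h.hiv 1) (A12x8R h h12 k 1) hsub GT27A12x8.ok _ (by norm_num))
    · exact mem_of_fact (x := gl a b c 1) (n := 3) GT27A12x12.tgt3 (by decide +kernel) (by decide +kernel) (by decide +kernel)
        (sound rfl (h.hiv 1) (A12x12R h h12 k 1) hsub GT27A12x12.ok _ (by norm_num))

end defs

end Cfsg.Agent.Lib.GT27En
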