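import Cfsg.Agent.Lib.GT27SpecA

/-!
The element orders of `G₂(2)` (helper51), second part.
-/

set_option autoImplicit false

namespace Cfsg.Agent.Lib.GT27Spec

open Cfsg Cfsg.Lie Matrix Cfsg.Agent.Lib.ChevRel Cfsg.Agent.Lib.H10G2U3

universe u

variable {F : Type u} [Field F] (e : ZMod 2 ≃+* F)

def R (g : GL chevG2.Idx F) (c : ℕ) : Prop := ∀ i < 63, get c i < 63 ∧
  (g : Matrix chevG2.Idx chevG2.Idx F) *ᵥ ev e i = ev e (get c i)

theorem R.one : R e 1 idc := by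
  intro i hi
  have h := fixn_ok idc 1 63 idc_ok i hi
  have h1 : get idc i = i := h
  rw [h1]
  refine ⟨hi, ?_⟩
  show (1 : Matrix chevG2.Idx chevG2.Idx F) *ᵥ _ = _
  rw [one_mulVec]

variable {e}

theorem R.mul {g h : GL chevG2.Idx F} {c d : ℕ} (hg : R e g c) (hh : R e h d) : R e (g * h) (cmp c d) := by
  intro i hi
  obtain ⟨h1, h2⟩ := hh i hi
  obtain ⟨h3, h4⟩ := hg _ h1
  rw [get_cmp c d hi]
  refine ⟨h3, ?_⟩
  rw [Units.val_mul, ← mulVec_mulVec, h2, h4]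

theorem R.eq {g h : GL chevG2.Idx F} {c : ℕ} (hg : R e g c) (hh : R e h c) : g = h := by
  apply Units.ext
  apply eq_of_agree' e
  intro i hi
  rw [(hg i hi).2, (hh i hi).2]

variable (e)

theorem R_x {r : ℕ} (hr : r < 12) : R e (xg chevG2 F r 1) (tc r) := by
  intro i hi
  have h := tc_ok
  rw [List.all_eq_true] at h
  have h := h r (List.mem_range.mpr hr)
  rw [List.all_eq_true] at h
  have h := Nat.beq_eq.mp (h i (List.mem_range.mpr hi))
  rw [h, coe_xg ChevOkG2.good]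
  exact ⟨(app_eq hr hi).2, ev_mulVec e hr hi⟩

theorem gw_cons (r : ℕ) (l : List ℕ) : gw F (r :: l) = xg chevG2 F r 1 * gw F l := by simp [gw]

theorem gw_nil : gw F [] = 1 := by simp [gw]

theorem R_gw : ∀ w : List ℕ, (∀ r ∈ w, r < 12) → R e (gw F w) (cw w)
  | [], _ => by rw [gw_nil]; exact R.one e
  | r :: l, h => by
    rw [gw_cons]
    exact (R_x e (h r (List.mem_cons_self ..))).mul (R_gw l fun s hs => h s (List.mem_cons_of_mem _ hs))

variable {e}

theorem R.pow {g : GL chevG2.Idx F} {c : ℕ} (hg : R e g c) : ∀ (k i : ℕ), i < 63 → iter c k i < 63 ∧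
    ((g ^ k : GL chevG2.Idx F) : Matrix chevG2.Idx chevG2.Idx F) *ᵥ ev e i = ev e (iter c k i)
  | 0, i, hi => by
    refine ⟨hi, ?_⟩
    rw [pow_zero]
    show (1 : Matrix chevG2.Idx chevG2.Idx F) *ᵥ _ = _
    rw [one_mulVec]; rfl
  | k + 1, i, hi => by
    obtain ⟨h1, h2⟩ := hg i hi
    obtain ⟨h3, h4⟩ := R.pow hg k _ h1
    refine ⟨h3, ?_⟩
    rw [pow_succ, Units.val_mul, ← mulVec_mulVec, h2, h4]
    rfl

theorem R.pow_one {g : GL chevG2.Idx F} {c : ℕ} (hg : R e g c) {k : ℕ} (h : fixn c k 63 = true) : g ^ k = 1 := by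
  apply Units.ext
  apply eq_of_agree' e
  intro i hi
  rw [(hg.pow k i hi).2, fixn_ok c k 63 h i hi]
  show _ = (1 : Matrix chevG2.Idx chevG2.Idx F) *ᵥ _
  rw [one_mulVec]

variable (e)

def Ug (g : GL chevG2.Idx F) : Prop := ∃ c ∈ UL, R e g c

def Wg (g : GL chevG2.Idx F) : Prop := ∃ c ∈ WL, R e g c

variable {e}

theorem exists_U {c : ℕ} (hc : c ∈ UL) : ∃ w : List ℕ, (∀ r ∈ w, 6 ≤ r ∧ r < 12) ∧ R e (gw F w) c := by
  rw [← uw_ok] at hc
  obtain ⟨w, hw, rfl⟩ := List.mem_map.mp hc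
  have h1 : ∀ r ∈ w, 6 ≤ r ∧ r < 12 := by
    intro r hr
    have h := uw_lt
    rw [List.all_eq_true] at h
    have h := h w hw
    rw [List.all_eq_true] at h
    have h := h r hr
    rw [Bool.and_eq_true] at h
    exact ⟨Nat.le_of_ble_eq_true h.1, Nat.blt_eq.mp h.2⟩
  exact ⟨w, h1, R_gw e w fun r hr => (h1 r hr).2⟩

theorem exists_W {c : ℕ} (hc : c ∈ WL) : ∃ g : GL chevG2.Idx F, R e g c := by
  rw [← wv_ok] at hc
  obtain ⟨w, hw, rfl⟩ := List.mem_map.mp hc
  refine ⟨gw F w, R_gw e w fun r hr => ?_⟩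
  have h := wv_lt
  rw [List.all_eq_true] at h
  have h := h w hw
  rw [List.all_eq_true] at h
  exact Nat.blt_eq.mp (h r hr)

theorem Ug.x_mul {g : GL chevG2.Idx F} (hg : Ug e g) {r : ℕ} (h6 : 6 ≤ r) (hr : r < 12) :
    Ug e (xg chevG2 F r 1 * g) := by
  obtain ⟨c, hc, h1⟩ := hg
  have h := u_ok
  rw [List.all_eq_true] at h
  have h := h c hc
  rw [List.all_eq_true] at h
  have h := memb_iff _ _ (h (r - 6) (List.mem_range.mpr (by omega)))
  rw [show 6 + (r - 6) = r by omega] at h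
  exact ⟨_, h, (R_x e hr).mul h1⟩

theorem Ug.gw_mul {g : GL chevG2.Idx F} (hg : Ug e g) : ∀ w : List ℕ, (∀ r ∈ w, 6 ≤ r ∧ r < 12) → Ug e (gw F w * g)
  | [], _ => by rw [gw_nil, one_mul]; exact hg
  | r :: l, h => by
    rw [gw_cons, mul_assoc]
    have h1 := h r (List.mem_cons_self ..)
    exact (Ug.gw_mul hg l fun s hs => h s (List.mem_cons_of_mem _ hs)).x_mul h1.1 h1.2

theorem Ug.mul {g h : GL chevG2.Idx F} (hg : Ug e g) (hh : Ug e h) : Ug e (g * h) := by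
  obtain ⟨c, hc, h1⟩ := hg
  obtain ⟨w, hw, h2⟩ := exists_U (e := e) hc
  rw [h1.eq h2]
  exact hh.gw_mul w hw

theorem Ug.one : Ug e (1 : GL chevG2.Idx F) := ⟨idc, len_ok.2.2.1, R.one e⟩

theorem Wg.one : Wg e (1 : GL chevG2.Idx F) := ⟨idc, len_ok.2.2.2, R.one e⟩

/-- the reflections -/
noncomputable def nr (F : Type u) [Field F] (i : ℕ) : GL chevG2.Idx F := cond (Nat.beq i 0) (gw F [7, 4, 7]) (gw F [6, 5, 6])

noncomputable def xr (F : Type u) [Field F] (i : ℕ) : GL chevG2.Idx F := cond (Nat.beq i 0) (xg chevG2 F 7 1) (xg chevG2 F 6 1)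

noncomputable def xre (F : Type u) [Field F] (i k : ℕ) : GL chevG2.Idx F := cond (Nat.beq k 0) 1 (xr F i)

theorem R_nr {i : ℕ} (hi : i < 2) : R e (nr F i) (nc i) := by
  have h := n_ok
  rw [Bool.and_eq_true] at h
  interval_cases i
  · rw [Nat.beq_eq.mp h.1]
    exact R_gw e _ (by decide)
  · rw [Nat.beq_eq.mp h.2]
    exact R_gw e _ (by decide)

theorem R_xr {i : ℕ} (hi : i < 2) : R e (xr F i) (xc i) := by
  interval_cases i
  · exact R_x e (by norm_num)
  · exact R_x e (by norm_num)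

theorem R_xre {i : ℕ} (hi : i < 2) {k : ℕ} (hk : k < 2) : R e (xre F i k) (xe i k) := by
  interval_cases k
  · exact R.one e
  · exact R_xr hi

theorem nr_sq {i : ℕ} (hi : i < 2) (e : ZMod 2 ≃+* F) : nr F i * nr F i = 1 := by
  have h := nn_ok
  simp only [Bool.and_eq_true] at h
  have h1 := (R_nr (e := e) (F := F) hi).mul (R_nr hi)
  have h2 : cmp (nc i) (nc i) = idc := by
    interval_cases i
    · exact Nat.beq_eq.mp h.1.1.1.1.1.1.1
    · exact Nat.beq_eq.mp h.1.1.1.1.1.1.2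
  rw [h2] at h1
  exact h1.eq (R.one e)

theorem x_sq {r : ℕ} (hr : 4 ≤ r) (hr' : r < 8) (e : ZMod 2 ≃+* F) : xg chevG2 F r 1 * xg chevG2 F r 1 = 1 := by
  have h := nn_ok
  simp only [Bool.and_eq_true] at h
  have h1 := (R_x (F := F) e (show r < 12 by omega)).mul (R_x e (show r < 12 by omega))
  have h2 : cmp (tc r) (tc r) = idc := by
    interval_cases r
    · exact Nat.beq_eq.mp h.1.1.1.2
    · exact Nat.beq_eq.mp h.1.1.2
    · exact Nat.beq_eq.mp h.1.1.1.1.2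
    · exact Nat.beq_eq.mp h.1.1.1.1.1.2
  rw [h2] at h1
  exact h1.eq (R.one e)

theorem xr_sq {i : ℕ} (hi : i < 2) (e : ZMod 2 ≃+* F) : xr F i * xr F i = 1 := by
  interval_cases i
  · exact x_sq (by norm_num) (by norm_num) e
  · exact x_sq (by norm_num) (by norm_num) e

theorem n_u {i : ℕ} (hi : i < 2) {g : GL chevG2.Idx F} (hg : Ug e g) : ∃ u, Ug e u ∧ ∃ k < 2,
    nr F i * g = u * (nr F i * xre F i k) := by
  obtain ⟨c, hc, h1⟩ := hg
  have h := nu_ok
  rw [List.all_eq_true] at h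
  have h := h i (List.mem_range.mpr hi)
  rw [List.all_eq_true] at h
  have h := h c hc
  rw [Bool.or_eq_true] at h
  rcases h with h | h
  · refine ⟨nr F i * (g * nr F i), ⟨_, memb_iff _ _ h, (R_nr hi).mul (h1.mul (R_nr hi))⟩, 0, by norm_num, ?_⟩
    show _ = _ * (nr F i * 1)
    rw [mul_one, mul_assoc, mul_assoc, nr_sq hi e, mul_one]
  · refine ⟨nr F i * (g * (xr F i * nr F i)), ⟨_, memb_iff _ _ h, (R_nr hi).mul (h1.mul ((R_xr hi).mul (R_nr hi)))⟩,
      1, by norm_num, ?_⟩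
    show _ = _ * (nr F i * xr F i)
    calc nr F i * g = nr F i * g * (xr F i * 1 * xr F i) := by rw [mul_one, xr_sq hi e, mul_one]
      _ = nr F i * g * (xr F i * (nr F i * nr F i) * xr F i) := by rw [nr_sq hi e]
      _ = _ := by group

theorem n_w {i : ℕ} (hi : i < 2) {k : ℕ} (hk : k < 2) {g : GL chevG2.Idx F} (hg : Wg e g) :
    ∃ a b c, Ug e a ∧ Wg e b ∧ Ug e c ∧ nr F i * (xre F i k * g) = a * (b * c) := by
  obtain ⟨w, hw, h1⟩ := hg
  obtain ⟨j, hj, rfl⟩ := List.getElem_of_mem hw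
  have hj' : j < 12 := by rw [← len_ok.2.1]; exact hj
  have h := nw_ok
  rw [List.all_eq_true] at h
  have h := h i (List.mem_range.mpr hi)
  rw [List.all_eq_true] at h
  have h := h k (List.mem_range.mpr hk)
  rw [List.all_eq_true] at h
  have h := h j (List.mem_range.mpr hj')
  simp only [Bool.and_eq_true] at h
  obtain ⟨⟨⟨h2, h3⟩, h4⟩, h5⟩ := h
  generalize Q4.getD (24 * i + 12 * k + j) (0, 0, 0) = q at h2 h3 h4 h5
  have h2 := Nat.blt_eq.mp h2
  have h3 := Nat.blt_eq.mp h3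
  have h4 := Nat.blt_eq.mp h4
  have h5 := Nat.beq_eq.mp h5
  have m1 : UL.getD q.1 0 ∈ UL := by
    rw [List.getD_eq_getElem _ _ (by rw [len_ok.1]; exact h2)]; exact List.getElem_mem _
  have m2 : WL.getD q.2.1 0 ∈ WL := by
    rw [List.getD_eq_getElem _ _ (by rw [len_ok.2.1]; exact h3)]; exact List.getElem_mem _
  have m3 : UL.getD q.2.2 0 ∈ UL := by
    rw [List.getD_eq_getElem _ _ (by rw [len_ok.1]; exact h4)]; exact List.getElem_mem _
  obtain ⟨wa, -, ha⟩ := exists_U (e := e) m1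
  obtain ⟨b, hb⟩ := exists_W (e := e) m2
  obtain ⟨wc, -, hc⟩ := exists_U (e := e) m3
  refine ⟨gw F wa, b, gw F wc, ⟨_, m1, ha⟩, ⟨_, m2, hb⟩, ⟨_, m3, hc⟩, ?_⟩
  have h6 := (R_nr (e := e) hi).mul ((R_xre hi hk).mul h1)
  rw [List.getD_eq_getElem _ _ hj] at h5
  rw [h5] at h6
  exact h6.eq (ha.mul (hb.mul hc))

variable (e)

def P (g : GL chevG2.Idx F) : Prop := ∃ a b c, Ug e a ∧ Wg e b ∧ Ug e c ∧ g = a * (b * c)

variable {e}

theorem P.u_mul {g u : GL chevG2.Idx F} (hg : P e g) (hu : Ug e u) : P e (u * g) := by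
  obtain ⟨a, b, c, ha, hb, hc, rfl⟩ := hg
  exact ⟨u * a, b, c, hu.mul ha, hb, hc, (mul_assoc _ _ _).symm⟩

theorem P.n_mul {g : GL chevG2.Idx F} (hg : P e g) {i : ℕ} (hi : i < 2) : P e (nr F i * g) := by
  obtain ⟨a, b, c, ha, hb, hc, rfl⟩ := hg
  obtain ⟨u, hu, k, hk, h1⟩ := n_u hi ha
  obtain ⟨a', b', c', ha', hb', hc', h2⟩ := n_w hi hk hb
  refine ⟨u * a', b', c' * c, hu.mul ha', hb', hc'.mul hc, ?_⟩
  calc nr F i * (a * (b * c)) = (nr F i * a) * (b * c) := by rw [mul_assoc]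
    _ = u * (nr F i * (xre F i k * b)) * c := by rw [h1]; group
    _ = _ := by rw [h2]; group

theorem x_low {i : ℕ} (hi : i < 2) (e : ZMod 2 ≃+* F) : xg chevG2 F (4 + i) 1 = xr F i * (nr F i * xr F i) := by
  have h := nn_ok
  simp only [Bool.and_eq_true] at h
  have h1 := (R_xr (F := F) (e := e) hi).mul ((R_nr hi).mul (R_xr hi))
  have h2 := R_x (F := F) e (show 4 + i < 12 by omega)
  have h3 : tc (4 + i) = cmp (xc i) (cmp (nc i) (xc i)) := by
    interval_cases i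
    · exact Nat.beq_eq.mp h.1.2
    · exact Nat.beq_eq.mp h.2
  rw [h3] at h2
  exact h2.eq h1

theorem Ug_xr {i : ℕ} (hi : i < 2) : Ug e (xr F i) := by
  interval_cases i
  · have := (Ug.one (e := e)).x_mul (r := 7) (by norm_num) (by norm_num)
    rwa [mul_one] at this
  · have := (Ug.one (e := e)).x_mul (r := 6) (by norm_num) (by norm_num)
    rwa [mul_one] at this

theorem P.x_mul {g : GL chevG2.Idx F} (hg : P e g) {r : ℕ} (hr : 4 ≤ r) (hr' : r < 8) : P e (xg chevG2 F r 1 * g) := by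
  have h4 : ∀ i < 2, P e (xg chevG2 F (4 + i) 1 * g) := by
    intro i hi
    rw [x_low hi e, mul_assoc, mul_assoc]
    exact ((hg.u_mul (Ug_xr hi)).n_mul hi).u_mul (Ug_xr hi)
  have h5 : ∀ i < 2, P e (xr F i * g) := fun i hi => hg.u_mul (Ug_xr hi)
  interval_cases r
  · exact h4 0 (by norm_num)
  · exact h4 1 (by norm_num)
  · exact h5 1 (by norm_num)
  · exact h5 0 (by norm_num)

theorem P_all (e : ZMod 2 ≃+* F) {g : GL chevG2.Idx F} (hg : g ∈ chevG2.group F) : P e g := by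
  rw [ChevAuto.group_eq_simple ChevOkG2.good] at hg
  have key : ∀ x ∈ {g | ∃ i < chevG2.rank, ∃ t : F, g = xg chevG2 F (chevG2.simple i) t ∨
      g = xg chevG2 F (chevG2.neg (chevG2.simple i)) t}, x = 1 ∨ ∃ r, 4 ≤ r ∧ r < 8 ∧ x = xg chevG2 F r 1 := by
    rintro x ⟨i, hi, t, hx⟩
    have ht : t = 0 ∨ t = 1 := by
      rw [← e.apply_symm_apply t]
      have : ∀ y : ZMod 2, y = 0 ∨ y = 1 := by decide
      rcases this (e.symm t) with h | h
      · left; rw [h, map_zero]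
      · right; rw [h, map_one]
    rcases ht with rfl | rfl
    · left
      rcases hx with rfl | rfl <;> exact xg_zero ChevOkG2.good _
    · right
      change i < 2 at hi
      interval_cases i
      · rcases hx with rfl | rfl
        · exact ⟨7, by norm_num, by norm_num, rfl⟩
        · exact ⟨4, by norm_num, by norm_num, rfl⟩
      · rcases hx with rfl | rfl
        · exact ⟨6, by norm_num, by norm_num, rfl⟩
        · exact ⟨5, by norm_num, by norm_num, rfl⟩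
  induction hg using Subgroup.closure_induction_left with
  | one => exact ⟨1, 1, 1, Ug.one, Wg.one, Ug.one, by simp⟩
  | mul_left x hx y hy ih =>
    rcases key x hx with rfl | ⟨r, h1, h2, rfl⟩
    · rwa [one_mul]
    · exact ih.x_mul h1 h2
  | inv_mul_cancel x hx y hy ih =>
    rcases key x hx with rfl | ⟨r, h1, h2, rfl⟩
    · rwa [inv_one, one_mul]
    · rw [inv_eq_of_mul_eq_one_left (x_sq h1 h2 e)]
      exact ih.x_mul h1 h2

theorem spec_of (e : ZMod 2 ≃+* F) {g : GL chevG2.Idx F} (hg : g ∈ chevG2.group F) : g ^ 7 = 1 ∨ g ^ 8 = 1 ∨ g ^ 12 = 1 := by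
  obtain ⟨a, b, c, ha, ⟨w, hw, hb⟩, hc, rfl⟩ := P_all e hg
  obtain ⟨u, hu, h1⟩ := hc.mul ha
  have h := ord_ok
  rw [List.all_eq_true] at h
  have h := h w hw
  rw [List.all_eq_true] at h
  have h := h u hu
  have h2 := hb.mul h1
  have h3 : ∀ k : ℕ, (b * (c * a)) ^ k = 1 → (a * (b * c)) ^ k = 1 := by
    intro k hk
    have : a * (b * c) = a * (b * (c * a)) * a⁻¹ := by group
    rw [this, conj_pow, hk, mul_one, mul_inv_cancel]
  simp only [Bool.or_eq_true] at h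
  rcases h with (h | h) | h
  · exact Or.inl (h3 7 (h2.pow_one h))
  · exact Or.inr (Or.inl (h3 8 (h2.pow_one h)))
  · exact Or.inr (Or.inr (h3 12 (h2.pow_one h)))

theorem order8 (e : ZMod 2 ≃+* F) : ∃ g ∈ chevG2.group F, orderOf g = 8 := by
  have h1 := R_gw (F := F) e [6, 7] (by decide)
  refine ⟨gw F [6, 7], gw_mem _, ?_⟩
  have h2 : gw F [6, 7] ^ 8 = 1 := h1.pow_one ord8_ok.2
  have h3 : gw F [6, 7] ^ 4 ≠ 1 := by
    intro h
    have h4 := h1.pow 4 0 (by norm_num)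
    rw [h] at h4
    have h5 : (1 : Matrix chevG2.Idx chevG2.Idx F) *ᵥ ev e 0 = ev e (iter (cw [6, 7]) 4 0) := h4.2
    rw [one_mulVec] at h5
    have h6 := ev_inj e (by norm_num) h4.1 h5
    have h7 := ord8_ok.1
    rw [← h6] at h7
    exact absurd h7 (by decide)
  exact orderOf_eq_prime_pow (p := 2) (n := 2) h3 h2

theorem spec {F : Type*} [Field F] [Fintype F] (hF : Fintype.card F = 2) :
    (∀ g : (Cfsg.Lie.chevG2.group F), g ^ 7 = 1 ∨ g ^ 8 = 1 ∨ g ^ 12 = 1) ∧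
      ∃ g : (Cfsg.Lie.chevG2.group F), orderOf g = 8 := by
  have e := ZMod.ringEquivOfPrime F Nat.prime_two hF
  constructor
  · rintro ⟨g, hg⟩
    rcases spec_of e hg with h | h | h
    · exact Or.inl (Subtype.ext h)
    · exact Or.inr (Or.inl (Subtype.ext h))
    · exact Or.inr (Or.inr (Subtype.ext h))
  · obtain ⟨g, hg, h⟩ := order8 e
    exact ⟨⟨g, hg⟩, by rw [← h]; exact Subgroup.orderOf_mk g hg⟩

end Cfsg.Agent.Lib.GT27Spec
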