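import Cfsg.Agent.Lib.GT27XC

set_option autoImplicit false
set_option linter.style.longLine false

/-!
# Sylow 7-subgroups: the group generated by the triangle is maximal of order 336
-/

namespace Cfsg.Agent.Lib.GT27XD

open Subgroup Cfsg.Agent.Lib.GT27XB

instance f7 : Fact (Nat.Prime 7) := ⟨by norm_num⟩

theorem isP {Γ : Type*} [Group Γ] (P : Subgroup Γ) (hP : Nat.card P = 7) : IsPGroup 7 P :=
  IsPGroup.of_card (n := 1) (by rw [hP, pow_one])

theorem not_dvd_index {Γ : Type*} [Group Γ] [Finite Γ] (P : Subgroup Γ) (hP : Nat.card P = 7)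
    (h49 : ¬ 49 ∣ Nat.card Γ) : ¬ 7 ∣ P.index := by
  intro h
  apply h49
  obtain ⟨k, hk⟩ := h
  rw [← P.card_mul_index, hP, hk]
  exact ⟨k, by ring⟩

theorem index_modEq {Γ : Type*} [Group Γ] [Finite Γ] (P : Subgroup Γ) (hP : Nat.card P = 7)
    (h49 : ¬ 49 ∣ Nat.card Γ) : (normalizer (P : Set Γ)).index ≡ 1 [MOD 7] := by
  have h1 := card_sylow_modEq_one 7 Γ
  rw [Sylow.card_eq_index_normalizer ((isP P hP).toSylow (not_dvd_index P hP h49))] at h1
  exact h1

theorem conj_into {Γ : Type*} [Group Γ] [Finite Γ] (P : Subgroup Γ) (hP : Nat.card P = 7)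
    (h49 : ¬ 49 ∣ Nat.card Γ) {y : Γ} (hy : orderOf y = 7) : ∃ u : Γ, u * y * u⁻¹ ∈ P := by
  obtain ⟨Q, hQ⟩ := (isP (zpowers y) (by rw [Nat.card_zpowers, hy])).exists_le_sylow
  obtain ⟨u, hu⟩ := MulAction.exists_smul_eq Γ Q ((isP P hP).toSylow (not_dvd_index P hP h49))
  refine ⟨u, ?_⟩
  have h1 : u * y * u⁻¹ ∈ ((u • Q : Sylow 7 Γ) : Subgroup Γ) := by
    rw [Sylow.coe_subgroup_smul, Subgroup.mem_pointwise_smul_iff_inv_smul_mem]
    have h3 : (MulAut.conj u)⁻¹ • (u * y * u⁻¹) = y := by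
      rw [← map_inv, MulAut.smul_def, MulAut.conj_apply, inv_inv]; group
    rw [h3]
    exact hQ (mem_zpowers y)
  rw [hu] at h1
  exact h1

theorem mem_norm {G : Type*} [Group G] [Finite G] {P : Subgroup G} (hP : Nat.card P = 7) {q t : G} (hq : q ∈ P)
    (hq7 : orderOf q = 7) (ht : t * q * t⁻¹ ∈ P) : t ∈ normalizer (P : Set G) := by
  have e1 : zpowers q = P := by
    apply Subgroup.eq_of_le_of_card_ge
    · rw [zpowers_le]; exact hq
    · rw [Nat.card_zpowers, hq7, hP]
  have e2 : P.map (MulAut.conj t).toMonoidHom = P := by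
    apply Subgroup.eq_of_le_of_card_ge
    · rw [← e1, MonoidHom.map_zpowers, zpowers_le, e1]
      exact ht
    · exact le_of_eq (Nat.card_congr (P.equivMapOfInjective _ (MulAut.conj t).injective).toEquiv)
  rw [Subgroup.mem_normalizer_iff]
  intro x
  constructor
  · intro hx
    rw [← e2]
    exact ⟨x, hx, rfl⟩
  · intro hx
    rw [← e2] at hx
    obtain ⟨z, hz, hz2⟩ := hx
    have : z = x := by
      have h3 : t * z * t⁻¹ = t * x * t⁻¹ := hz2
      exact mul_left_cancel (mul_right_cancel h3)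
    rw [← this]; exact hz

section main

variable {G : Type*} [Group G] [Finite G]

theorem not49 (hcard : Nat.card G = 12096) (Y : Subgroup G) : ¬ 49 ∣ Nat.card Y := by
  intro h
  have := h.trans (Subgroup.card_subgroup_dvd_card Y)
  rw [hcard] at this
  revert this; decide

theorem rel_modEq (hcard : Nat.card G = 12096) (P Y : Subgroup G) (hP : Nat.card P = 7) (hPY : P ≤ Y) :
    ((normalizer (P : Set G)).subgroupOf Y).index ≡ 1 [MOD 7] := by
  rw [subgroupOf_normalizer_eq hPY]
  exact index_modEq (P.subgroupOf Y) (by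
    rw [← hP]; exact Nat.card_congr (Subgroup.subgroupOfEquivOfLe hPY).toEquiv) (not49 hcard Y)

/-- the centralizer of a 7-subgroup -/
theorem cent7 (hcard : Nat.card G = 12096) (hs : ∀ g : G, g ^ 7 = 1 ∨ g ^ 8 = 1 ∨ g ^ 12 = 1) {p : G}
    (hp : orderOf p = 7) {y : G} (hy : y * p = p * y) : y ∈ zpowers p := by
  have hc : Commute y p := hy
  have hp7 : p ^ 7 = 1 := by rw [← hp]; exact pow_orderOf_eq_one p
  have hp1 : ∀ k, p ^ k = 1 → 7 ∣ k := fun k hk => by rw [← hp]; exact orderOf_dvd_of_pow_eq_one hk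
  have h7 : y ^ 7 = 1 := by
    by_contra hne
    have hw := hs (y * p)
    rw [hc.mul_pow, hc.mul_pow, hc.mul_pow, hp7, mul_one] at hw
    rcases hs y with h | h | h
    · exact hne h
    · rcases hw with h1 | h1 | h1
      · exact hne h1
      · rw [h, one_mul] at h1
        have := hp1 8 h1
        omega
      · have h2 := congrArg (· ^ 2) h1
        simp only [one_pow] at h2
        rw [(hc.pow_pow 12 12).mul_pow, ← pow_mul, ← pow_mul, show 12 * 2 = 8 * 3 by norm_num, pow_mul y, h,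
          one_pow, one_mul] at h2
        have := hp1 _ h2
        omega
    · rcases hw with h1 | h1 | h1
      · exact hne h1
      · have h2 := congrArg (· ^ 3) h1
        simp only [one_pow] at h2
        rw [(hc.pow_pow 8 8).mul_pow, ← pow_mul, ← pow_mul, show 8 * 3 = 12 * 2 by norm_num, pow_mul y, h,
          one_pow, one_mul] at h2
        have := hp1 _ h2
        omega
      · rw [h, one_mul] at h1
        have := hp1 12 h1
        omega
  have h49 : ¬ 49 ∣ Nat.card G := by rw [hcard]; decide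
  have hP : Nat.card (zpowers p) = 7 := by rw [Nat.card_zpowers, hp]
  let Q := (isP (zpowers p) hP).toSylow (not_dvd_index _ hP h49)
  have hy1 : IsPGroup 7 (zpowers y) := by
    have h1 : orderOf y ∣ 7 ^ 1 := orderOf_dvd_of_pow_eq_one (by simpa using h7)
    obtain ⟨k, _, hk⟩ := (Nat.dvd_prime_pow (by norm_num : Nat.Prime 7)).1 h1
    exact IsPGroup.of_card (n := k) (by rw [Nat.card_zpowers, hk])
  have h1 := hy1.inf_normalizer_sylow Q
  have h2 : y ∈ zpowers y ⊓ normalizer (Q : Set G) := by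
    refine ⟨mem_zpowers y, ?_⟩
    refine mem_norm (P := zpowers p) hP (mem_zpowers p) hp ?_
    rw [hy, mul_inv_cancel_right]
    exact mem_zpowers p
  rw [h1] at h2
  exact h2.2

theorem card_norm (hcard : Nat.card G = 12096) (hs : ∀ g : G, g ^ 7 = 1 ∨ g ^ 8 = 1 ∨ g ^ 12 = 1) {p : G}
    (hp : orderOf p = 7) : Nat.card (normalizer (zpowers p : Set G)) = 42 := by
  have hP : Nat.card (zpowers p) = 7 := by rw [Nat.card_zpowers, hp]
  have h49 : ¬ 49 ∣ Nat.card G := by rw [hcard]; decide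
  have h1 := index_modEq (zpowers p) hP h49
  have h2 := (normalizer (zpowers p : Set G)).card_mul_index
  rw [hcard] at h2
  have hk := Subgroup.card_mul_index (zpowers p).normalizerMonoidHom.ker
  rw [Subgroup.index_ker] at hk
  have hker : Nat.card (zpowers p).normalizerMonoidHom.ker = 7 := by
    rw [Subgroup.normalizerMonoidHom_ker]
    have hle : centralizer (zpowers p : Set G) ≤ normalizer (zpowers p : Set G) := by
      intro y hy
      refine mem_norm hP (mem_zpowers p) hp ?_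
      have := Subgroup.mem_centralizer_iff.1 hy p (mem_zpowers p)
      rw [← this, mul_inv_cancel_right]
      exact mem_zpowers p
    rw [Nat.card_congr (Subgroup.subgroupOfEquivOfLe hle).toEquiv]
    have : centralizer (zpowers p : Set G) = zpowers p := by
      apply le_antisymm
      · intro y hy
        exact cent7 hcard hs hp (Subgroup.mem_centralizer_iff.1 hy p (mem_zpowers p)).symm
      · rw [zpowers_le, Subgroup.mem_centralizer_iff]
        rintro z hz
        obtain ⟨k, rfl⟩ := hz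
        exact ((Commute.refl p).zpow_left k).eq
    rw [this, hP]
  have hrange : Nat.card (zpowers p).normalizerMonoidHom.range ∣ 6 := by
    have : Nat.card (MulAut (zpowers p)) = 6 := by
      rw [IsCyclic.card_mulAut, hP]; decide
    rw [← this]
    exact Subgroup.card_subgroup_dvd_card _
  rw [hker] at hk
  generalize Nat.card (zpowers p).normalizerMonoidHom.range = e at hk hrange
  generalize (normalizer (zpowers p : Set G)).index = n at h1 h2
  rw [← hk] at h2 ⊢
  have he : e ≤ 6 := Nat.le_of_dvd (by norm_num) hrange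
  have h3 : n % 7 = 1 := h1
  interval_cases e
  · omega
  · omega
  · omega
  · omega
  · revert hrange; decide
  · revert hrange; decide
  · omega

/-- the order of `X` -/
theorem main (hcard : Nat.card G = 12096) (hs : ∀ g : G, g ^ 7 = 1 ∨ g ^ 8 = 1 ∨ g ^ 12 = 1) {c0 c1 c2 : G}
    (h : RelX c0 c1 c2) (hne : c0 ≠ c1) :
    orderOf (c0 * c1) = 7 ∧ Nat.card (closure ({c0, c1, c2} : Set G)) = 336 ∧
      normalizer (zpowers (c0 * c1) : Set G) ≤ closure ({c0, c1, c2} : Set G) := by
  have i0 : c0⁻¹ = c0 := inv_eq_of_mul_eq_one_left h.s0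
  have i1 : c1⁻¹ = c1 := inv_eq_of_mul_eq_one_left h.s1
  have i2 : c2⁻¹ = c2 := inv_eq_of_mul_eq_one_left h.s2
  have hp1 : c0 * c1 ≠ 1 := fun hh => hne (by rw [← i1]; exact eq_inv_of_mul_eq_one_left hh)
  have hp : orderOf (c0 * c1) = 7 := orderOf_eq_prime h.r01 hp1
  set p := c0 * c1 with hpd
  have hpk : ∀ k, p ^ k = 1 → 7 ∣ k := fun k hk => by rw [← hp]; exact orderOf_dvd_of_pow_eq_one hk
  set X := closure ({c0, c1, c2} : Set G) with hX
  have m0 : c0 ∈ X := subset_closure (by simp)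
  have m1 : c1 ∈ X := subset_closure (by simp)
  have m2 : c2 ∈ X := subset_closure (by simp)
  have mp : p ∈ X := X.mul_mem m0 m1
  have hPX : zpowers p ≤ X := by rw [zpowers_le]; exact mp
  have hP : Nat.card (zpowers p) = 7 := by rw [Nat.card_zpowers, hp]
  set N := normalizer (zpowers p : Set G) with hN
  have hN42 : Nat.card N = 42 := card_norm hcard hs hp
  have pN : p ∈ N := mem_norm hP (mem_zpowers p) hp (by rw [mul_inv_cancel_right]; exact mem_zpowers p)
  have c0N : c0 ∈ N := by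
    refine mem_norm hP (mem_zpowers p) hp ?_
    have : c0 * p * c0⁻¹ = p⁻¹ := by
      rw [i0, hpd, mul_inv_rev, i0, i1, ← mul_assoc, h.s0, one_mul]
    rw [this]
    exact (zpowers p).inv_mem (mem_zpowers p)
  have c1N : c1 ∈ N := by
    have : c1 = c0 * p := by rw [hpd, ← mul_assoc, h.s0, one_mul]
    rw [this]; exact N.mul_mem c0N pN
  have hc01 : c0 ≠ 1 := by
    intro hh
    have h1 : p ^ 2 = 1 := by rw [hpd, hh, one_mul, pow_two, h.s1]
    have := hpk 2 h1
    omega
  -- `c0 c2` is not in `⟨p⟩` with `c1 c2`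
  have c12 : c1 ≠ c2 := by
    intro hh
    have h1 : p ^ 2 = 1 := by rw [hpd, hh]; exact h.r02
    have := hpk 2 h1
    omega
  have hnX : ¬ X ≤ N := by
    intro hle
    have c2N : c2 ∈ N := hle m2
    have hnor : ((zpowers p).subgroupOf N).Normal := Subgroup.normal_in_normalizer
    let q := QuotientGroup.mk' ((zpowers p).subgroupOf N)
    have e1 : q ⟨c0, c0N⟩ * q ⟨c1, c1N⟩ = 1 := by
      rw [← map_mul]
      exact (QuotientGroup.eq_one_iff _).2 (by
        rw [Subgroup.mem_subgroupOf]; exact mem_zpowers p)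
    have e2 : q ⟨c1, c1N⟩ * q ⟨c1, c1N⟩ = 1 := by
      rw [← map_mul, show (⟨c1, c1N⟩ * ⟨c1, c1N⟩ : N) = 1 from Subtype.ext h.s1, map_one]
    have e3 : q ⟨c0, c0N⟩ = q ⟨c1, c1N⟩ := by
      rw [← mul_left_inj (q ⟨c1, c1N⟩), e1, e2]
    have e4 : (q ⟨c0, c0N⟩ * q ⟨c2, c2N⟩) ^ 2 = 1 := by
      rw [← map_mul, ← map_pow, show ((⟨c0, c0N⟩ * ⟨c2, c2N⟩ : N)) ^ 2 = 1 from Subtype.ext h.r02, map_one]
    have e5 : (q ⟨c1, c1N⟩ * q ⟨c2, c2N⟩) ^ 3 = 1 := by
      rw [← map_mul, ← map_pow, show ((⟨c1, c1N⟩ * ⟨c2, c2N⟩ : N)) ^ 3 = 1 from Subtype.ext h.r12, map_one]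
    rw [← e3] at e5
    have e6 : q ⟨c0, c0N⟩ * q ⟨c2, c2N⟩ = 1 := by
      have : (q ⟨c0, c0N⟩ * q ⟨c2, c2N⟩) ^ 3 = (q ⟨c0, c0N⟩ * q ⟨c2, c2N⟩) ^ 2 * (q ⟨c0, c0N⟩ * q ⟨c2, c2N⟩) := pow_succ _ _
      rw [e5, e4, one_mul] at this
      exact this.symm
    rw [← map_mul] at e6
    have e7 := (QuotientGroup.eq_one_iff _).1 e6
    rw [Subgroup.mem_subgroupOf] at e7
    change c0 * c2 ∈ zpowers p at e7
    have e8 : (⟨c0 * c2, e7⟩ : zpowers p) ^ 7 = 1 := by rw [← hP]; exact pow_card_eq_one'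
    have e9 : (c0 * c2) ^ 7 = 1 := congrArg Subtype.val e8
    have e10 : c0 * c2 = 1 := by
      have : (c0 * c2) ^ 7 = (c0 * c2) ^ 2 * (c0 * c2) ^ 2 * (c0 * c2) ^ 2 * (c0 * c2) := by
        rw [← pow_add, ← pow_add, ← pow_succ]
      rw [e9, h.r02, one_mul, one_mul, one_mul] at this
      exact this.symm
    have e11 : c0 = c2 := by rw [← i2]; exact eq_inv_of_mul_eq_one_left e10
    have e12 : p⁻¹ ^ 3 = 1 := by
      rw [hpd, mul_inv_rev, i0, i1]
      nth_rewrite 1 [e11]
      exact h.r12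
    rw [inv_pow, inv_eq_one] at e12
    have := hpk 3 e12
    omega
  have hXdvd : Nat.card X ∣ 336 := card_dvd h
  have hmod := rel_modEq hcard (zpowers p) X hP hPX
  have hmul := (N.subgroupOf X).card_mul_index
  have h7 : 7 ∣ Nat.card (N.subgroupOf X) := by
    have := orderOf_dvd_natCard (⟨⟨p, mp⟩, by rw [Subgroup.mem_subgroupOf]; exact pN⟩ : N.subgroupOf X)
    rwa [Subgroup.orderOf_mk, Subgroup.orderOf_mk, hp] at this
  have h2 : 2 ∣ Nat.card (N.subgroupOf X) := by
    have := orderOf_dvd_natCard (⟨⟨c0, m0⟩, by rw [Subgroup.mem_subgroupOf]; exact c0N⟩ : N.subgroupOf X)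
    rwa [Subgroup.orderOf_mk, Subgroup.orderOf_mk,
      orderOf_eq_prime (p := 2) (by rw [pow_two]; exact h.s0) hc01] at this
  have h3 : 3 ∣ Nat.card X := by
    have := orderOf_dvd_natCard (⟨c1 * c2, X.mul_mem m1 m2⟩ : X)
    rwa [Subgroup.orderOf_mk, orderOf_eq_prime (p := 3) h.r12
      (fun hh => c12 (by rw [← i2]; exact eq_inv_of_mul_eq_one_left hh))] at this
  have hidx1 : (N.subgroupOf X).index ≠ 1 := by
    intro hh
    rw [Subgroup.index_eq_one, Subgroup.subgroupOf_eq_top] at hh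
    exact hnX hh
  have h14 : 14 ∣ Nat.card (N.subgroupOf X) := by omega
  obtain ⟨k, hk⟩ := h14
  have hmod' : (N.subgroupOf X).index % 7 = 1 := hmod
  generalize (N.subgroupOf X).index = n at hmul hmod' hidx1
  rw [hk] at hmul
  obtain ⟨m, hm⟩ := hXdvd
  have hprod : k * (n * m) = 24 := by
    have : 14 * (k * (n * m)) = 14 * 24 := by
      calc 14 * (k * (n * m)) = 14 * k * n * m := by ring
        _ = Nat.card X * m := by rw [hmul]
        _ = 14 * 24 := by rw [← hm]
    exact Nat.eq_of_mul_eq_mul_left (by norm_num) this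
  have hn24 : n ∣ 24 := ⟨k * m, by rw [← hprod]; ring⟩
  have hnle : n ≤ 24 := Nat.le_of_dvd (by norm_num) hn24
  have hn8 : n = 8 := by
    interval_cases n <;> first | rfl | (exfalso; revert hmod'; decide) | (exfalso; exact hidx1 rfl) | (exfalso; revert hn24; decide)
  subst hn8
  have hkm : k * m = 3 := by
    have : 8 * (k * m) = 8 * 3 := by
      have h9 : 8 * (k * m) = k * (8 * m) := by ring
      rw [h9, hprod]
    exact Nat.eq_of_mul_eq_mul_left (by norm_num) this
  have hk3 : k = 3 := by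
    have hkd : k ∣ 3 := ⟨m, hkm.symm⟩
    rcases (Nat.dvd_prime Nat.prime_three).1 hkd with h5 | h5
    · exfalso
      rw [h5] at hmul
      rw [← hmul] at h3
      revert h3; decide
    · exact h5
  subst hk3
  refine ⟨hp, by rw [← hmul], ?_⟩
  have h42 : Nat.card (N ⊓ X : Subgroup G) = 42 := by
    rw [show (42 : ℕ) = 14 * 3 by norm_num, ← hk]
    exact (Nat.card_congr (Subgroup.subgroupOfEquivOfLe (inf_le_right : N ⊓ X ≤ X)).symm.toEquiv).trans (by
      rw [Subgroup.inf_subgroupOf_right])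
  have h43 : N ⊓ X = N := Subgroup.eq_of_le_of_card_ge inf_le_left (by rw [h42, hN42])
  exact inf_eq_left.1 h43

theorem maximal (hcard : Nat.card G = 12096) (hs : ∀ g : G, g ^ 7 = 1 ∨ g ^ 8 = 1 ∨ g ^ 12 = 1) {p : G} (hp : orderOf p = 7)
    {X : Subgroup G} (hX : Nat.card X = 336) (hN : normalizer (zpowers p : Set G) ≤ X) (Y : Subgroup G) (hY : X < Y) :
    Y = ⊤ := by
  have hP : Nat.card (zpowers p) = 7 := by rw [Nat.card_zpowers, hp]
  have hNY := hN.trans hY.le
  have hPN : zpowers p ≤ normalizer (zpowers p : Set G) := Subgroup.le_normalizer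
  have hmod := rel_modEq hcard (zpowers p) Y hP (hPN.trans hNY)
  have hmul := ((normalizer (zpowers p : Set G)).subgroupOf Y).card_mul_index
  rw [Nat.card_congr (Subgroup.subgroupOfEquivOfLe hNY).toEquiv, card_norm hcard hs hp] at hmul
  obtain ⟨j, hj⟩ := Subgroup.card_dvd_of_le hY.le
  have hYd := Subgroup.card_subgroup_dvd_card Y
  rw [hX] at hj
  rw [hj, hcard] at hYd
  have hmod' : ((normalizer (zpowers p : Set G)).subgroupOf Y).index % 7 = 1 := hmod
  generalize ((normalizer (zpowers p : Set G)).subgroupOf Y).index = n at hmul hmod'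
  rw [hj] at hmul
  have hn : n = 8 * j := by omega
  have hj36 : j ∣ 36 := by
    have : 336 * j ∣ 336 * 36 := by simpa using hYd
    exact Nat.dvd_of_mul_dvd_mul_left (by norm_num) this
  have hjle : j ≤ 36 := Nat.le_of_dvd (by norm_num) hj36
  have hj1 : j ≠ 1 := by
    rintro rfl
    exact hY.ne (Subgroup.eq_of_le_of_card_ge hY.le (by rw [hj, hX]))
  have : j = 36 := by
    rw [hn] at hmod'
    interval_cases j <;> first | rfl | (exfalso; revert hmod'; decide) | (exfalso; exact hj1 rfl) | (exfalso; revert hj36; decide)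
  subst this
  exact Subgroup.eq_top_of_card_eq Y (by rw [hj, hcard])

end main

end Cfsg.Agent.Lib.GT27XD
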