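import Mathlib
import Cfsg.Agent.Lib.GT27XD

/-!
# The triple of involutions (helper11)
-/

set_option autoImplicit false
set_option linter.all false

namespace Cfsg.Agent.Lib.GT27Trq

open Subgroup

section

variable {G : Type*} [Group G] [Finite G] (hcard : Nat.card G = 12096)
  (hs : ∀ g : G, g ^ 7 = 1 ∨ g ^ 8 = 1 ∨ g ^ 12 = 1)

include hcard hs

/-- an element acting as the cube map -/
theorem exists_cube {p : G} (hp : orderOf p = 7) : ∃ f : G, f * p * f⁻¹ = p ^ 3 := by
  classical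
  letI : Fintype G := Fintype.ofFinite G
  set N : Subgroup G := normalizer (zpowers p : Set G) with hN
  have hN42 : Nat.card N = 42 := GT27XD.card_norm hcard hs hp
  have hp1 : p ≠ 1 := by intro h; rw [h, orderOf_one] at hp; norm_num at hp
  have hmem : ∀ n ∈ N, n * p * n⁻¹ ∈ zpowers p := fun n hn => (mem_normalizer_iff.1 hn p).1 (mem_zpowers p)
  let s : Finset G := Finset.univ.filter (fun n => n ∈ N)
  have hs' : s.card = 42 := by
    rw [← hN42, Nat.card_eq_fintype_card, Fintype.card_subtype]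
  let t : Finset G := (Finset.univ.filter (fun n => n ∈ zpowers p)).erase 1
  have ht : t.card = 6 := by
    rw [Finset.card_erase_of_mem (by rw [Finset.mem_filter]; exact ⟨Finset.mem_univ _, one_mem _⟩)]
    have : (Finset.univ.filter (fun n => n ∈ zpowers p)).card = 7 := by
      rw [← hp, ← Nat.card_zpowers, Nat.card_eq_fintype_card, Fintype.card_subtype]
    rw [this]
  have himg : s.image (fun n => n * p * n⁻¹) ⊆ t := by
    intro y hy
    rw [Finset.mem_image] at hy
    obtain ⟨n, hn, rfl⟩ := hy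
    rw [Finset.mem_filter] at hn
    rw [Finset.mem_erase, Finset.mem_filter]
    refine ⟨?_, Finset.mem_univ _, hmem n hn.2⟩
    intro h
    apply hp1
    calc p = n⁻¹ * (n * p * n⁻¹) * n := by group
      _ = 1 := by rw [h]; group
  have hfib : ∀ a ∈ s.image (fun n => n * p * n⁻¹), (s.filter (fun n => n * p * n⁻¹ = a)).card ≤ 7 := by
    intro a ha
    rw [Finset.mem_image] at ha
    obtain ⟨n0, hn0, rfl⟩ := ha
    have h7 : (Finset.univ.filter (fun n => n ∈ zpowers p)).card = 7 := by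
      rw [← hp, ← Nat.card_zpowers, Nat.card_eq_fintype_card, Fintype.card_subtype]
    rw [← h7]
    apply Finset.card_le_card_of_injOn (fun n => n0⁻¹ * n)
    · intro n hn
      rw [Finset.mem_coe, Finset.mem_filter] at hn
      rw [Finset.mem_coe, Finset.mem_filter]
      refine ⟨Finset.mem_univ _, ?_⟩
      apply GT27XD.cent7 hcard hs hp
      calc n0⁻¹ * n * p = n0⁻¹ * (n * p * n⁻¹) * n := by group
        _ = n0⁻¹ * (n0 * p * n0⁻¹) * n := by rw [hn.2]
        _ = p * (n0⁻¹ * n) := by group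
    · intro x _ y _ hxy
      exact mul_left_cancel hxy
  have hcardle := Finset.card_le_mul_card_image s 7 hfib
  rw [hs'] at hcardle
  have heq : s.image (fun n => n * p * n⁻¹) = t := by
    apply Finset.eq_of_subset_of_card_le himg
    rw [ht]; omega
  have hp3 : p ^ 3 ∈ t := by
    rw [Finset.mem_erase, Finset.mem_filter]
    refine ⟨?_, Finset.mem_univ _, pow_mem (mem_zpowers p) 3⟩
    intro h
    have := orderOf_dvd_of_pow_eq_one h
    rw [hp] at this
    norm_num at this
  rw [← heq, Finset.mem_image] at hp3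
  obtain ⟨f, -, hf⟩ := hp3
  exact ⟨f, hf⟩

/-- the complement of order 6 -/
theorem exists_f {p : G} (hp : orderOf p = 7) : ∃ f : G, f * p * f⁻¹ = p ^ 3 ∧ f ^ 6 = 1 := by
  obtain ⟨f, hf⟩ := exists_cube hcard hs hp
  have hp7 : p ^ 7 = 1 := by rw [← hp]; exact pow_orderOf_eq_one p
  have hp1 : ∀ k, p ^ k = 1 → 7 ∣ k := fun k hk => by rw [← hp]; exact orderOf_dvd_of_pow_eq_one hk
  have hpow : ∀ k : ℕ, f ^ k * p * (f ^ k)⁻¹ = p ^ (3 ^ k) := by
    intro k
    induction k with
    | zero => simp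
    | succ k ih =>
      calc f ^ (k + 1) * p * (f ^ (k + 1))⁻¹ = f * (f ^ k * p * (f ^ k)⁻¹) * f⁻¹ := by group
        _ = f * p ^ (3 ^ k) * f⁻¹ := by rw [ih]
        _ = (f * p * f⁻¹) ^ (3 ^ k) := by rw [conj_pow]
        _ = p ^ (3 ^ (k + 1)) := by rw [hf, ← pow_mul, pow_succ, mul_comm]
  have hkey : ∀ k : ℕ, f ^ k = 1 → 7 ∣ 3 ^ k - 1 := by
    intro k hk
    apply hp1
    have h1 := hpow k
    rw [hk, one_mul, inv_one, mul_one] at h1
    have h2 : p ^ (3 ^ k - 1) * p = p := by
      rw [← pow_succ, Nat.sub_add_cancel (Nat.one_le_pow _ _ (by norm_num))]; exact h1.symm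
    exact mul_eq_right.1 h2
  refine ⟨f, hf, ?_⟩
  have h12 : f ^ 12 = 1 := by
    rcases hs f with h | h | h
    · have := hkey 7 h; norm_num at this
    · have := hkey 8 h; norm_num at this
    · exact h
  have h6 : f ^ 6 ∈ zpowers p := by
    apply GT27XD.cent7 hcard hs hp
    have h1 := hpow 6
    have h2 : p ^ (3 ^ 6) = p := by
      calc p ^ (3 ^ 6) = p ^ (7 * 104 + 1) := by norm_num
        _ = (p ^ 7) ^ 104 * p := by rw [← pow_mul, ← pow_succ]
        _ = p := by rw [hp7, one_pow, one_mul]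
    rw [h2] at h1
    exact mul_inv_eq_iff_eq_mul.1 h1
  have h67 : (f ^ 6) ^ 7 = 1 := by
    obtain ⟨k, hk⟩ := mem_zpowers_iff.1 h6
    rw [← hk, ← zpow_natCast, ← zpow_mul, mul_comm, zpow_mul, zpow_natCast, hp7, one_zpow]
  calc f ^ 6 = (f ^ 6) ^ 7 * ((f ^ 12) ^ 3)⁻¹ := by group
    _ = 1 := by rw [h67, h12]; simp

/-- an involution of `T` central in a Sylow 2-subgroup -/
theorem exists_t (T : Subgroup G) [T.Normal] (hidx : T.index = 2) : ∃ t : G, t ∈ T ∧ t ≠ 1 ∧ t * t = 1 ∧
    (∀ g : G, ∃ x ∈ T, g * t * g⁻¹ = x * t * x⁻¹) ∧ 32 ∣ Nat.card ((centralizer ({t} : Set G)) ⊓ T : Subgroup G) := by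
  classical
  haveI : Fact (Nat.Prime 2) := ⟨Nat.prime_two⟩
  obtain ⟨S⟩ : Nonempty (Sylow 2 G) := inferInstance
  have hS : Nat.card (S : Subgroup G) = 64 := by
    have h1 := S.card_eq_multiplicity
    rw [hcard] at h1
    have h2 : (12096 : ℕ).factorization 2 = 6 := by
      rw [show (12096 : ℕ) = 2 ^ 6 * 189 by norm_num, Nat.factorization_mul (by norm_num) (by norm_num),
        Nat.Prime.factorization_pow (by norm_num)]
      simp [Nat.factorization_eq_zero_of_not_dvd]
    rw [h2] at h1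
    exact h1
  have hT : Nat.card T = 6048 := by
    have := T.card_mul_index
    rw [hidx, hcard] at this
    omega
  set K : Subgroup G := (S : Subgroup G) ⊓ T with hK
  have hK32 : 32 ∣ Nat.card K := by
    have h1 : T.relIndex (S : Subgroup G) ∣ 2 := (relIndex_dvd_index_of_normal T (S : Subgroup G)).trans (dvd_of_eq hidx)
    have h2 : (T.subgroupOf (S : Subgroup G)).index * Nat.card (T.subgroupOf (S : Subgroup G)) = 64 := by
      rw [← hS]; exact index_mul_card _
    have h3 : Nat.card (T.subgroupOf (S : Subgroup G)) = Nat.card K := by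
      rw [← Subgroup.inf_subgroupOf_left]
      exact Nat.card_congr (Subgroup.subgroupOfEquivOfLe inf_le_left).toEquiv
    rw [h3] at h2
    change (T.subgroupOf (S : Subgroup G)).index ∣ 2 at h1
    rcases (Nat.dvd_prime Nat.prime_two).1 h1 with h4 | h4
    · rw [h4] at h2; omega
    · rw [h4] at h2; omega
  letI act : MulAction (S : Subgroup G) K :=
    { smul := fun s k => ⟨s * k * (s : G)⁻¹, (S : Subgroup G).mul_mem ((S : Subgroup G).mul_mem s.2 k.2.1) ((S : Subgroup G).inv_mem s.2),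
        (inferInstance : T.Normal).conj_mem _ k.2.2 _⟩
      one_smul := fun k => Subtype.ext (by
        show ((1 : (S : Subgroup G)) : G) * k * ((1 : (S : Subgroup G)) : G)⁻¹ = k
        simp)
      mul_smul := fun a b k => Subtype.ext (by
        show ((a * b : (S : Subgroup G)) : G) * k * ((a * b : (S : Subgroup G)) : G)⁻¹ = a * (b * k * (b : G)⁻¹) * (a : G)⁻¹
        rw [Subgroup.coe_mul]; group) }
  have hsm : ∀ (s : (S : Subgroup G)) (k : K), ((s • k : K) : G) = s * k * (s : G)⁻¹ := fun s k => rfl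
  have h1fix : (1 : K) ∈ MulAction.fixedPoints (S : Subgroup G) K := by
    intro s
    apply Subtype.ext
    rw [hsm]; simp
  obtain ⟨b, hb, hb1⟩ := S.2.exists_fixed_point_of_prime_dvd_card_of_fixed_point K ((by norm_num : 2 ∣ 32).trans hK32) h1fix
  have hbc : ∀ s ∈ (S : Subgroup G), Commute s (b : G) := by
    intro s hs1
    have h1 := congrArg Subtype.val (hb ⟨s, hs1⟩)
    rw [hsm] at h1
    exact mul_inv_eq_iff_eq_mul.1 h1
  obtain ⟨j, hj⟩ := (IsPGroup.iff_orderOf.1 S.2) ⟨b, b.2.1⟩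
  have hj' : orderOf (b : G) = 2 ^ j := by
    rw [← hj, ← Subgroup.orderOf_coe]
  have hj0 : j ≠ 0 := by
    intro h0
    rw [h0, pow_zero, orderOf_eq_one_iff] at hj'
    exact hb1 (Subtype.ext hj'.symm)
  obtain ⟨m, rfl⟩ := Nat.exists_eq_succ_of_ne_zero hj0
  refine ⟨(b : G) ^ (2 ^ m), pow_mem b.2.2 _, ?_, ?_, ?_, ?_⟩
  · intro h
    have h1 := orderOf_dvd_of_pow_eq_one h
    rw [hj'] at h1
    have h2 := Nat.le_of_dvd (by positivity) h1
    have h3 : 2 ^ m < 2 ^ (m + 1) := Nat.pow_lt_pow_right (by norm_num) (by omega)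
    rw [Nat.succ_eq_add_one] at h2
    omega
  · rw [← pow_add, ← two_mul, ← pow_succ', ← Nat.succ_eq_add_one, ← hj', pow_orderOf_eq_one]
  · intro g
    by_cases hg : g ∈ T
    · exact ⟨g, hg, rfl⟩
    · have hST : ∃ s ∈ (S : Subgroup G), s ∉ T := by
        by_contra hcon
        push Not at hcon
        have h1 := Subgroup.card_dvd_of_le (show (S : Subgroup G) ≤ T from hcon)
        rw [hS, hT] at h1
        norm_num at h1
      obtain ⟨s, hsS, hsT⟩ := hST
      refine ⟨g * s⁻¹, ?_, ?_⟩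
      · rw [Subgroup.mul_mem_iff_of_index_two hidx, inv_mem_iff]
        exact ⟨fun h => absurd h hg, fun h => absurd h hsT⟩
      · have h1 : Commute s ((b : G) ^ (2 ^ m)) := (hbc s hsS).pow_right _
        have h2 : s⁻¹ * (b : G) ^ (2 ^ m) * s = (b : G) ^ (2 ^ m) := by
          rw [mul_assoc, ← h1.eq, ← mul_assoc, inv_mul_cancel, one_mul]
        calc g * (b : G) ^ (2 ^ m) * g⁻¹ = g * (s⁻¹ * (b : G) ^ (2 ^ m) * s) * g⁻¹ := by rw [h2]
          _ = g * s⁻¹ * (b : G) ^ (2 ^ m) * (g * s⁻¹)⁻¹ := by group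
  · refine hK32.trans (Subgroup.card_dvd_of_le ?_)
    intro x hx
    refine ⟨mem_centralizer_singleton_iff.2 ?_, hx.2⟩
    exact ((hbc x hx.1).pow_right _).eq

theorem exists_triple (T : Subgroup G) [T.Normal] (hidx : T.index = 2)
    (H : ∀ s r : T, orderOf s = 7 → orderOf r = 3 → r * s * r⁻¹ ∈ Subgroup.zpowers s → IsConj r r⁻¹ ∧
      ∀ t : T, orderOf t = 2 → Nat.card {w : T // IsConj t w ∧ IsConj r (w * s)} *
        (Nat.card (Subgroup.centralizer ({t} : Set T)) * Nat.card (Subgroup.centralizer ({r} : Set T))) = 6048) :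
    ∃ c0 c1 c2 : G, c0 * c0 = 1 ∧ c1 * c1 = 1 ∧ c2 * c2 = 1 ∧ (c0 * c1) ^ 7 = 1 ∧ (c0 * c2) ^ 2 = 1 ∧
      (c1 * c2) ^ 3 = 1 ∧ c0 ≠ c1 ∧ c2 ∉ Subgroup.closure {c0, c1} := by
  classical
  letI : Fintype G := Fintype.ofFinite G
  haveI : Fact (Nat.Prime 7) := ⟨by norm_num⟩
  haveI : Fact (Nat.Prime 2) := ⟨Nat.prime_two⟩
  haveI : Fact (Nat.Prime 3) := ⟨Nat.prime_three⟩
  have hsq : ∀ g : G, g * g ∈ T := fun g => Subgroup.mul_self_mem_of_index_two hidx g
  obtain ⟨p, hp⟩ := exists_prime_orderOf_dvd_card' (G := G) 7 (by rw [hcard]; norm_num)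
  have hp7 : p ^ 7 = 1 := by rw [← hp]; exact pow_orderOf_eq_one p
  have hp1 : p ≠ 1 := by intro h; rw [h, orderOf_one] at hp; norm_num at hp
  have hpT : p ∈ T := by
    have : p = p ^ 4 * p ^ 4 := by
      calc p = p ^ 7 * p := by rw [hp7, one_mul]
        _ = p ^ 4 * p ^ 4 := by rw [← pow_succ, ← pow_add]
    rw [this]; exact hsq _
  obtain ⟨f, hf, hf6⟩ := exists_f hcard hs hp
  have hpow : ∀ k : ℕ, f ^ k * p * (f ^ k)⁻¹ = p ^ (3 ^ k) := by
    intro k
    induction k with
    | zero => simp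
    | succ k ih =>
      calc f ^ (k + 1) * p * (f ^ (k + 1))⁻¹ = f * (f ^ k * p * (f ^ k)⁻¹) * f⁻¹ := by group
        _ = f * p ^ (3 ^ k) * f⁻¹ := by rw [ih]
        _ = (f * p * f⁻¹) ^ (3 ^ k) := by rw [conj_pow]
        _ = p ^ (3 ^ (k + 1)) := by rw [hf, ← pow_mul, pow_succ, mul_comm]
  -- the involution and the element of order 3
  set i : G := f ^ 3 with hi
  set r : G := f ^ 2 with hr
  have hii : i * i = 1 := by rw [hi, ← pow_add]; exact hf6
  have hiinv : i⁻¹ = i := inv_eq_of_mul_eq_one_left hii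
  have hr3 : r ^ 3 = 1 := by rw [hr, ← pow_mul]; exact hf6
  have hir : i * r = r * i := by rw [hi, hr, ← pow_add, ← pow_add]
  have hip : i * p * i = p⁻¹ := by
    have h1 := hpow 3
    rw [← hi, hiinv] at h1
    rw [h1]
    calc p ^ (3 ^ 3) = p ^ (7 * 4) * p⁻¹ := by
          rw [eq_mul_inv_iff_mul_eq, ← pow_succ]; norm_num
        _ = p⁻¹ := by rw [pow_mul, hp7, one_pow, one_mul]
  have hrp : r * p * r⁻¹ = p ^ 2 := by
    have h1 := hpow 2
    rw [← hr] at h1
    rw [h1]
    calc p ^ (3 ^ 2) = p ^ 7 * p ^ 2 := by rw [← pow_add]; norm_num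
        _ = p ^ 2 := by rw [hp7, one_mul]
  have hr1 : r ≠ 1 := by
    intro h
    rw [h, one_mul, inv_one, mul_one] at hrp
    apply hp1
    calc p = p⁻¹ * p ^ 2 := by group
      _ = 1 := by rw [← hrp]; group
  have hrT : r ∈ T := by rw [hr, pow_two]; exact hsq f
  obtain ⟨t, htT, ht1, htt, htc, ht32⟩ := exists_t hcard hs T hidx
  -- transfer to `T`
  set p' : T := ⟨p, hpT⟩ with hp'
  set r' : T := ⟨r, hrT⟩ with hr'
  set t' : T := ⟨t, htT⟩ with ht'
  have hop : orderOf p' = 7 := by rw [← Subgroup.orderOf_coe]; exact hp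
  have hor : orderOf r' = 3 := orderOf_eq_prime (Subtype.ext (by simpa using hr3)) (by
    intro h; exact hr1 (congrArg Subtype.val h))
  have hot : orderOf t' = 2 := orderOf_eq_prime (Subtype.ext (by
    rw [Subgroup.coe_pow, pow_two]; exact htt)) (by intro h; exact ht1 (congrArg Subtype.val h))
  have hrp' : r' * p' * r'⁻¹ ∈ zpowers p' := by
    have : r' * p' * r'⁻¹ = p' ^ 2 := Subtype.ext (by
      show r * p * r⁻¹ = ((p' ^ 2 : T) : G)
      rw [hrp]; rfl)
    rw [this]
    exact pow_mem (mem_zpowers p') 2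
  obtain ⟨hreal, hcount⟩ := H p' r' hop hor hrp'
  have hcount' := hcount t' hot
  -- the number is odd
  have h32 : 32 ∣ Nat.card (centralizer ({t'} : Set T)) := by
    refine ht32.trans (dvd_of_eq ?_)
    refine Nat.card_congr ⟨fun x => ⟨⟨x.1, x.2.2⟩, ?_⟩, fun x => ⟨x.1.1, ?_, x.1.2⟩, fun _ => rfl, fun _ => rfl⟩
    · have h1 := x.2.1
      have h2 := mem_centralizer_singleton_iff.1 h1
      exact mem_centralizer_singleton_iff.2 (Subtype.ext h2)
    · have h1 := mem_centralizer_singleton_iff.1 x.2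
      exact mem_centralizer_singleton_iff.2 (congrArg Subtype.val h1)
  have hodd : ¬ 2 ∣ Nat.card {w : T // IsConj t' w ∧ IsConj r' (w * p')} := by
    rintro ⟨k, hk⟩
    obtain ⟨m, hm⟩ := h32
    rw [hk, hm] at hcount'
    have h1 : 64 ∣ 6048 := ⟨k * (m * Nat.card (centralizer ({r'} : Set T))), by rw [← hcount']; ring⟩
    norm_num at h1
  -- conjugation by `i`
  have hTi : ∀ x : T, i * x * i ∈ T := fun x => by
    have := (inferInstance : T.Normal).conj_mem _ x.2 i
    rwa [hiinv] at this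
  have hstab : ∀ w : T, (IsConj t' w ∧ IsConj r' (w * p')) →
      (IsConj t' (⟨i * w * i, hTi w⟩ : T) ∧ IsConj r' ((⟨i * w * i, hTi w⟩ : T) * p')) := by
    rintro w ⟨h1, h2⟩
    obtain ⟨x, hx⟩ := isConj_iff.1 h1
    have hx' : (x : G) * t * (x : G)⁻¹ = w := congrArg Subtype.val hx
    have hww : (w : G) * w = 1 := by
      rw [← hx']
      calc (x : G) * t * (x : G)⁻¹ * ((x : G) * t * (x : G)⁻¹) = x * (t * t) * (x : G)⁻¹ := by group
        _ = 1 := by rw [htt]; group
    have hwinv : (w : G)⁻¹ = w := inv_eq_of_mul_eq_one_left hww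
    refine ⟨?_, ?_⟩
    · obtain ⟨y, hyT, hy⟩ := htc (i * x)
      rw [isConj_iff]
      refine ⟨⟨y, hyT⟩, Subtype.ext ?_⟩
      show y * t * y⁻¹ = i * w * i
      rw [← hy, ← hx', mul_inv_rev, hiinv]
      group
    · have h3 : IsConj r' ((w * p'⁻¹ : T)) := by
        refine hreal.trans ?_
        obtain ⟨y, hy⟩ := isConj_iff.1 h2
        have hy' : (y : G) * r * (y : G)⁻¹ = w * p := congrArg Subtype.val hy
        rw [isConj_iff]
        refine ⟨w * y, Subtype.ext ?_⟩
        show ((w : G) * y) * r⁻¹ * ((w : G) * y)⁻¹ = w * p⁻¹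
        calc ((w : G) * y) * r⁻¹ * ((w : G) * y)⁻¹ = w * (y * r * (y : G)⁻¹)⁻¹ * (w : G)⁻¹ := by group
          _ = w * (p⁻¹ * (w : G)⁻¹) * (w : G)⁻¹ := by rw [hy', mul_inv_rev]
          _ = w * p⁻¹ * ((w : G)⁻¹ * (w : G)⁻¹) := by group
          _ = w * p⁻¹ := by rw [hwinv, hww, mul_one]
      obtain ⟨y, hy⟩ := isConj_iff.1 h3
      have hy' : (y : G) * r * (y : G)⁻¹ = w * p⁻¹ := congrArg Subtype.val hy
      rw [isConj_iff]
      refine ⟨⟨i * y * i, hTi y⟩, Subtype.ext ?_⟩
      show (i * y * i) * r * (i * y * i)⁻¹ = i * w * i * p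
      calc (i * y * i) * r * (i * y * i)⁻¹ = i * y * (i * r) * i⁻¹ * (y : G)⁻¹ * i⁻¹ := by group
        _ = i * (y * r * (y : G)⁻¹) * i⁻¹ := by rw [hir]; group
        _ = i * w * p⁻¹ * i := by rw [hy', hiinv]; group
        _ = i * w * (i * i) * p⁻¹ * i := by rw [hii, mul_one]
        _ = i * w * i * (i * p * i)⁻¹ := by rw [mul_inv_rev, mul_inv_rev, hiinv]; group
        _ = i * w * i * p := by rw [hip, inv_inv]
  let W : Type _ := {w : T // IsConj t' w ∧ IsConj r' (w * p')}
  let φ : W → W := fun w => ⟨⟨i * w.1 * i, hTi w.1⟩, hstab w.1 w.2⟩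
  have hφ : Function.Involutive φ := by
    intro w
    apply Subtype.ext
    apply Subtype.ext
    show i * (i * w.1 * i) * i = (w.1 : G)
    calc i * (i * w.1 * i) * i = (i * i) * w.1 * (i * i) := by group
      _ = w.1 := by rw [hii, one_mul, mul_one]
  obtain ⟨w, hw⟩ := Equiv.Perm.exists_fixed_point_of_prime (p := 2) (n := 1) (α := W)
    (by rw [← Nat.card_eq_fintype_card]; exact hodd) (σ := hφ.toPerm) (by
      rw [pow_one, pow_two]; ext1 x; exact hφ x)
  have hw' : i * (w.1 : G) * i = w.1 := congrArg (fun x : W => ((x.1 : T) : G)) hw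
  set w0 : G := ((w.1 : T) : G) with hw0
  obtain ⟨x, hx⟩ := isConj_iff.1 w.2.1
  have hx' : (x : G) * t * (x : G)⁻¹ = w0 := congrArg Subtype.val hx
  have hww : w0 * w0 = 1 := by
    rw [← hx']
    calc (x : G) * t * (x : G)⁻¹ * ((x : G) * t * (x : G)⁻¹) = x * (t * t) * (x : G)⁻¹ := by group
      _ = 1 := by rw [htt]; group
  obtain ⟨y, hy⟩ := isConj_iff.1 w.2.2
  have hy' : (y : G) * r * (y : G)⁻¹ = w0 * p := congrArg Subtype.val hy
  have hwp3 : (w0 * p) ^ 3 = 1 := by rw [← hy', conj_pow, hr3]; group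
  have hwp1 : w0 * p ≠ 1 := by
    intro h
    rw [h] at hy'
    apply hr1
    calc r = (y : G)⁻¹ * (y * r * (y : G)⁻¹) * y := by group
      _ = 1 := by rw [hy']; group
  have hwinv : w0⁻¹ = w0 := inv_eq_of_mul_eq_one_left hww
  refine ⟨i, i * p, i * w0, hii, ?_, ?_, ?_, ?_, ?_, ?_, ?_⟩
  · calc i * p * (i * p) = (i * p * i) * p := by group
      _ = 1 := by rw [hip]; group
  · calc i * w0 * (i * w0) = (i * w0 * i) * w0 := by group
      _ = 1 := by rw [hw', hww]
  · rw [← mul_assoc, hii, one_mul, hp7]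
  · rw [← mul_assoc, hii, one_mul, pow_two, hww]
  · have h1 : i * p * (i * w0) = (w0 * p)⁻¹ := by
      calc i * p * (i * w0) = (i * p * i) * w0 := by group
        _ = (w0 * p)⁻¹ := by rw [hip, mul_inv_rev, hwinv]
    rw [h1, inv_pow, hwp3, inv_one]
  · intro h
    exact hp1 (mul_eq_left.1 h.symm)
  · intro hmem
    have hA7 : ∀ a ∈ zpowers p, i * a * i = a⁻¹ := by
      intro a ha
      obtain ⟨k, rfl⟩ := mem_zpowers_iff.1 ha
      have h1 : i * p ^ k * i = (i * p * i⁻¹) ^ k := by rw [conj_zpow, hiinv]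
      rw [h1, hiinv, hip, inv_zpow]
    have hcl : ∀ g ∈ closure ({i, i * p} : Set G), g ∈ zpowers p ∨ i * g ∈ zpowers p := by
      intro g hg
      induction hg using Subgroup.closure_induction with
      | mem g hg =>
        rcases hg with rfl | hg
        · right; rw [hii]; exact one_mem _
        · right
          rw [Set.mem_singleton_iff] at hg
          rw [hg, ← mul_assoc, hii, one_mul]; exact mem_zpowers p
      | one => left; exact one_mem _
      | mul a b _ _ ha hb =>
        rcases ha with ha | ha <;> rcases hb with hb | hb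
        · left; exact mul_mem ha hb
        · right
          have h1 : i * (a * b) = (i * a * i) * (i * b) := by
            calc i * (a * b) = i * a * (i * i) * b := by rw [hii]; group
              _ = (i * a * i) * (i * b) := by group
          rw [h1, hA7 a ha]
          exact mul_mem (inv_mem ha) hb
        · right
          rw [← mul_assoc]; exact mul_mem ha hb
        · left
          have h1 : a * b = (i * (i * a) * i) * (i * b) := by
            calc a * b = (i * i) * a * (i * i) * b := by rw [hii]; group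
              _ = (i * (i * a) * i) * (i * b) := by group
          rw [h1, hA7 _ ha]
          exact mul_mem (inv_mem ha) hb
      | inv a _ ha =>
        rcases ha with ha | ha
        · left; exact inv_mem ha
        · right
          have h1 : i * a⁻¹ = i * (i * a)⁻¹ * i := by
            rw [mul_inv_rev, hiinv]
            calc i * a⁻¹ = i * a⁻¹ * (i * i) := by rw [hii, mul_one]
              _ = i * (a⁻¹ * i) * i := by group
          rw [h1, hA7 _ (inv_mem ha), inv_inv]
          exact ha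
    have hw0 : w0 * p ∈ closure ({i, i * p} : Set G) := by
      have h1 : w0 * p = i * (i * w0) * (i * (i * p)) := by
        calc w0 * p = (i * i) * w0 * ((i * i) * p) := by rw [hii]; group
          _ = _ := by group
      rw [h1]
      exact mul_mem (mul_mem (subset_closure (Or.inl rfl)) hmem)
        (mul_mem (subset_closure (Or.inl rfl)) (subset_closure (Or.inr rfl)))
    rcases hcl _ hw0 with h | h
    · obtain ⟨k, hk⟩ := mem_zpowers_iff.1 h
      have h7 : (w0 * p) ^ 7 = 1 := by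
        rw [← hk, ← zpow_natCast, ← zpow_mul, mul_comm, zpow_mul, zpow_natCast, hp7, one_zpow]
      apply hwp1
      calc w0 * p = (w0 * p) ^ 7 * (((w0 * p) ^ 3) ^ 2)⁻¹ := by group
        _ = 1 := by rw [h7, hwp3]; simp
    · have h2 : (w0 * p) ^ 2 = 1 := by
        have h1 := hA7 _ h
        calc (w0 * p) ^ 2 = (i * i) * (w0 * p) * ((i * i) * (w0 * p)) := by rw [hii, one_mul, pow_two]
          _ = (i * (i * (w0 * p)) * i) * (i * (w0 * p)) := by group
          _ = 1 := by rw [h1]; group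
      apply hwp1
      calc w0 * p = (w0 * p) ^ 3 * ((w0 * p) ^ 2)⁻¹ := by group
        _ = 1 := by rw [h2, hwp3]; simp

end

end Cfsg.Agent.Lib.GT27Trq
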