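import Cfsg.Agent.Lib.GT27XD

set_option autoImplicit false
set_option linter.style.longLine false

/-!
# The extra involution in a group with the order and spectrum of `G2(2)`
-/

namespace Cfsg.Agent.Lib.GT27X

open Subgroup Cfsg.Agent.Lib.GT27XA Cfsg.Agent.Lib.GT27XB Cfsg.Agent.Lib.GT27XC

section orb

variable {G : Type*} [Group G] [Finite G] {X : Subgroup G}

/-- the base point -/
abbrev b0 (X : Subgroup G) : G ⧸ X := ((1 : G) : G ⧸ X)

omit [Finite G] in
theorem mem_iff {g : G} : g • b0 X = b0 X ↔ g ∈ X := by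
  rw [b0, MulAction.Quotient.smul_coe, smul_eq_mul, mul_one, eq_comm, QuotientGroup.eq]
  simp

omit [Finite G] in
theorem exists_g (β : G ⧸ X) : ∃ g : G, g • b0 X = β := by
  induction β using QuotientGroup.induction_on with
  | H g => exact ⟨g, by rw [b0, MulAction.Quotient.smul_coe, smul_eq_mul, mul_one]⟩

/-- `7` does not divide the stabilizer of another point -/
theorem stab7 (hcard : Nat.card G = 12096) {p : G} (hp : orderOf p = 7) (hpX : p ∈ X)
    (hN : normalizer (zpowers p : Set G) ≤ X) {β : G ⧸ X} (hβ : β ≠ b0 X) :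
    ¬ 7 ∣ Nat.card (MulAction.stabilizer X β) := by
  intro h7
  obtain ⟨g, rfl⟩ := exists_g β
  obtain ⟨y, hy⟩ := exists_prime_orderOf_dvd_card' 7 h7
  have hy1 : orderOf (y : X) = 7 := by rw [Subgroup.orderOf_coe]; exact hy
  have hy2 : orderOf ((y : X) : G) = 7 := by rw [Subgroup.orderOf_coe]; exact hy1
  have hst : ((y : X) : G) • (g • b0 X) = g • b0 X := y.2
  have hz : g⁻¹ * (y : X) * g ∈ X := by
    rw [← mem_iff, mul_smul, mul_smul, hst, inv_smul_smul]
  have hz7 : orderOf (⟨_, hz⟩ : X) = 7 := by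
    rw [Subgroup.orderOf_mk, ← hy2]
    have := orderOf_injective (MulAut.conj g⁻¹).toMonoidHom (MulAut.conj g⁻¹).injective ((y : X) : G)
    rw [← this]
    congr 1
    simp [MulAut.conj_apply]
  let P : Subgroup X := zpowers ⟨p, hpX⟩
  have hP : Nat.card P = 7 := by rw [Nat.card_zpowers, Subgroup.orderOf_mk, hp]
  have h49 : ¬ 49 ∣ Nat.card X := GT27XD.not49 hcard X
  obtain ⟨u, hu⟩ := GT27XD.conj_into P hP h49 hy1
  obtain ⟨v, hv⟩ := GT27XD.conj_into P hP h49 hz7
  have toG : ∀ w : X, w ∈ P → (w : G) ∈ zpowers p := by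
    rintro w ⟨k, rfl⟩
    exact ⟨k, by simp⟩
  have hu' := toG _ hu
  have hv' := toG _ hv
  have hPG : Nat.card (zpowers p) = 7 := by rw [Nat.card_zpowers, hp]
  simp only [Subgroup.coe_mul, Subgroup.coe_inv] at hu' hv'
  have hq7 : orderOf ((v : G) * (g⁻¹ * (y : X) * g) * (v : G)⁻¹) = 7 := by
    have := orderOf_injective (MulAut.conj ((v : G) * g⁻¹)).toMonoidHom (MulAut.conj ((v : G) * g⁻¹)).injective ((y : X) : G)
    rw [hy2] at this
    rw [← this]
    congr 1
    simp [MulAut.conj_apply, mul_assoc]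
  have ht : (u : G) * g * (v : G)⁻¹ ∈ normalizer (zpowers p : Set G) := by
    refine GT27XD.mem_norm hPG hv' hq7 ?_
    have : (u : G) * g * (v : G)⁻¹ * ((v : G) * (g⁻¹ * (y : X) * g) * (v : G)⁻¹) * ((u : G) * g * (v : G)⁻¹)⁻¹ =
      (u : G) * ((y : X) : G) * (u : G)⁻¹ := by group
    rw [this]; exact hu'
  have ht2 := hN ht
  have : g ∈ X := by
    have e : g = (u : G)⁻¹ * ((u : G) * g * (v : G)⁻¹) * v := by group
    rw [e]
    exact X.mul_mem (X.mul_mem (X.inv_mem u.2) ht2) v.2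
  exact hβ (mem_iff.2 this)

theorem orb_card (β : G ⧸ X) (hX : Nat.card X = 336) :
    Nat.card (MulAction.stabilizer X β) * (MulAction.orbit X β).ncard = 336 := by
  rw [← MulAction.index_stabilizer, Subgroup.card_mul_index, hX]

/-- possible stabilizers -/
theorem cases (hcard : Nat.card G = 12096) (hX : Nat.card X = 336) {p : G} (hp : orderOf p = 7) (hpX : p ∈ X)
    (hN : normalizer (zpowers p : Set G) ≤ X) (h48 : ∀ S : Subgroup X, Nat.card S ≠ 48) {β : G ⧸ X} (hβ : β ≠ b0 X)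
    (hle : (MulAction.orbit X β).ncard ≤ 35) :
    (Nat.card (MulAction.stabilizer X β) = 24 ∧ (MulAction.orbit X β).ncard = 14) ∨
    (Nat.card (MulAction.stabilizer X β) = 16 ∧ (MulAction.orbit X β).ncard = 21) ∨
    (Nat.card (MulAction.stabilizer X β) = 12 ∧ (MulAction.orbit X β).ncard = 28) := by
  have h1 := orb_card β hX
  have h7 := stab7 hcard hp hpX hN hβ
  have h48' := h48 (MulAction.stabilizer X β)
  generalize (MulAction.orbit X β).ncard = o at h1 hle ⊢
  generalize Nat.card (MulAction.stabilizer X β) = s at h1 h7 h48' ⊢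
  have h7' : 7 ∣ o := by
    have : 7 ∣ s * o := by rw [h1]; norm_num
    exact ((Nat.Prime.dvd_mul (by norm_num)).1 this).resolve_left h7
  obtain ⟨m, rfl⟩ := h7'
  have hm : s * m = 48 := by
    have : 7 * (s * m) = 7 * 48 := by
      have e : 7 * (s * m) = s * (7 * m) := by ring
      rw [e, h1]
    exact Nat.eq_of_mul_eq_mul_left (by norm_num) this
  have hm5 : m ≤ 5 := by omega
  interval_cases m
  · omega
  · omega
  · left; constructor <;> omega
  · right; left; constructor <;> omega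
  · right; right; constructor <;> omega
  · omega

theorem base_orbit : MulAction.orbit X (b0 X) = {b0 X} := by
  ext β
  constructor
  · rintro ⟨g, rfl⟩
    exact mem_iff.2 g.2
  · rintro rfl
    exact MulAction.mem_orbit_self _

/-- the orbits of `X` -/
theorem orbits (hcard : Nat.card G = 12096) (hX : Nat.card X = 336) {p : G} (hp : orderOf p = 7) (hpX : p ∈ X)
    (hN : normalizer (zpowers p : Set G) ≤ X) (h48 : ∀ S : Subgroup X, Nat.card S ≠ 48) :
    ∃ β γ : G ⧸ X, β ≠ b0 X ∧ γ ≠ b0 X ∧ Nat.card (MulAction.stabilizer X β) = 24 ∧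
      Nat.card (MulAction.stabilizer X γ) = 16 ∧ (MulAction.orbit X β).ncard = 14 ∧
      (MulAction.orbit X γ).ncard = 21 ∧
      ∀ δ : G ⧸ X, δ = b0 X ∨ δ ∈ MulAction.orbit X β ∨ δ ∈ MulAction.orbit X γ := by
  have hΩ : Nat.card (G ⧸ X) = 36 := by
    have h1 := X.card_mul_index
    rw [hX, hcard] at h1
    have h2 : X.index = 36 := by omega
    exact h2
  have hdis : ∀ β δ : G ⧸ X, δ ∉ MulAction.orbit X β → Disjoint (MulAction.orbit X β) (MulAction.orbit X δ) := by
    intro β δ hδ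
    rw [Set.disjoint_left]
    intro ε h1 h2
    apply hδ
    rw [← MulAction.orbit_eq_iff.2 h1, MulAction.orbit_eq_iff.2 h2]
    exact MulAction.mem_orbit_self _
  have hnc : ∀ A : Set (G ⧸ X), A.ncard ≤ 36 := by
    intro A
    rw [← hΩ, ← Set.ncard_univ]
    exact Set.ncard_le_ncard (Set.subset_univ _) (Set.toFinite _)
  have hfull : ∀ A : Set (G ⧸ X), A.ncard = 36 → ∀ δ, δ ∈ A := by
    intro A hA δ
    have : A = Set.univ := by
      apply Set.eq_of_subset_of_ncard_le (Set.subset_univ _) _ (Set.toFinite _)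
      rw [Set.ncard_univ, hΩ, hA]
    rw [this]; trivial
  have hex : ∀ A : Set (G ⧸ X), A.ncard < 36 → ∃ δ, δ ∉ A := by
    intro A hA
    by_contra hh
    push Not at hh
    have : A = Set.univ := Set.eq_univ_of_forall hh
    rw [this, Set.ncard_univ, hΩ] at hA
    omega
  have hdisb : ∀ δ : G ⧸ X, δ ≠ b0 X → Disjoint ({b0 X} : Set (G ⧸ X)) (MulAction.orbit X δ) := by
    intro δ hδ
    have := hdis (b0 X) δ (by rw [base_orbit]; exact hδ)
    rwa [base_orbit] at this
  have hle : ∀ δ : G ⧸ X, δ ≠ b0 X → (MulAction.orbit X δ).ncard ≤ 35 := by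
    intro δ hδ
    have h1 := hnc ({b0 X} ∪ MulAction.orbit X δ)
    rw [Set.ncard_union_eq (hdisb δ hδ) (Set.toFinite _) (Set.toFinite _), Set.ncard_singleton] at h1
    omega
  have key := fun (δ : G ⧸ X) (hδ : δ ≠ b0 X) => cases hcard hX hp hpX hN h48 hδ (hle δ hδ)
  obtain ⟨β1, hβ1⟩ := hex {b0 X} (by rw [Set.ncard_singleton]; norm_num)
  rw [Set.mem_singleton_iff] at hβ1
  have k1 := key β1 hβ1
  have c1 : ({b0 X} ∪ MulAction.orbit X β1).ncard = 1 + (MulAction.orbit X β1).ncard := by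
    rw [Set.ncard_union_eq (hdisb β1 hβ1) (Set.toFinite _) (Set.toFinite _), Set.ncard_singleton]
  obtain ⟨β2, hβ2⟩ := hex ({b0 X} ∪ MulAction.orbit X β1) (by omega)
  rw [Set.mem_union, not_or, Set.mem_singleton_iff] at hβ2
  have k2 := key β2 hβ2.1
  have d2 : Disjoint ({b0 X} ∪ MulAction.orbit X β1) (MulAction.orbit X β2) :=
    Set.disjoint_union_left.2 ⟨hdisb β2 hβ2.1, hdis β1 β2 hβ2.2⟩
  have c2 : ({b0 X} ∪ MulAction.orbit X β1 ∪ MulAction.orbit X β2).ncard =
      1 + (MulAction.orbit X β1).ncard + (MulAction.orbit X β2).ncard := by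
    rw [Set.ncard_union_eq d2 (Set.toFinite _) (Set.toFinite _), c1]
  have b2 := hnc ({b0 X} ∪ MulAction.orbit X β1 ∪ MulAction.orbit X β2)
  rcases k1 with ⟨s1, o1⟩ | ⟨s1, o1⟩ | ⟨s1, o1⟩
  · rcases k2 with ⟨s2, o2⟩ | ⟨s2, o2⟩ | ⟨s2, o2⟩
    · exfalso
      obtain ⟨β3, hβ3⟩ := hex ({b0 X} ∪ MulAction.orbit X β1 ∪ MulAction.orbit X β2) (by omega)
      rw [Set.mem_union, Set.mem_union, not_or, not_or, Set.mem_singleton_iff] at hβ3
      have d3 : Disjoint ({b0 X} ∪ MulAction.orbit X β1 ∪ MulAction.orbit X β2) (MulAction.orbit X β3) :=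
        Set.disjoint_union_left.2 ⟨Set.disjoint_union_left.2 ⟨hdisb β3 hβ3.1.1, hdis β1 β3 hβ3.1.2⟩,
          hdis β2 β3 hβ3.2⟩
      have b3 := hnc ({b0 X} ∪ MulAction.orbit X β1 ∪ MulAction.orbit X β2 ∪ MulAction.orbit X β3)
      rw [Set.ncard_union_eq d3 (Set.toFinite _) (Set.toFinite _), c2] at b3
      rcases key β3 hβ3.1.1 with ⟨_, o3⟩ | ⟨_, o3⟩ | ⟨_, o3⟩ <;> omega
    · refine ⟨β1, β2, hβ1, hβ2.1, s1, s2, o1, o2, fun δ => ?_⟩
      have := hfull _ (by rw [c2, o1, o2]) δ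
      rw [Set.mem_union, Set.mem_union, Set.mem_singleton_iff] at this
      tauto
    · omega
  · rcases k2 with ⟨s2, o2⟩ | ⟨s2, o2⟩ | ⟨s2, o2⟩
    · refine ⟨β2, β1, hβ2.1, hβ1, s2, s1, o2, o1, fun δ => ?_⟩
      have := hfull _ (by rw [c2, o1, o2]) δ
      rw [Set.mem_union, Set.mem_union, Set.mem_singleton_iff] at this
      tauto
    · omega
    · omega
  · rcases k2 with ⟨s2, o2⟩ | ⟨s2, o2⟩ | ⟨s2, o2⟩ <;> omega

/-- the stabilizers of `g X` and `g⁻¹ X` have the same order -/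
theorem stab_inv (g : G) :
    Nat.card (MulAction.stabilizer X (g • b0 X)) = Nat.card (MulAction.stabilizer X (g⁻¹ • b0 X)) := by
  have key : ∀ (k : G) (y : X), y ∈ MulAction.stabilizer X (k • b0 X) ↔ k⁻¹ * y * k ∈ X := by
    intro k y
    rw [← mem_iff (X := X) (g := k⁻¹ * ((y : X) : G) * k), mul_smul, mul_smul, inv_smul_eq_iff]
    rfl
  refine Nat.card_congr ⟨fun y => ⟨⟨g⁻¹ * (y : X) * g, (key g y).1 y.2⟩, ?_⟩,
    fun y => ⟨⟨g * (y : X) * g⁻¹, ?_⟩, ?_⟩, fun y => ?_, fun y => ?_⟩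
  · rw [key]
    have : (g⁻¹)⁻¹ * (g⁻¹ * ((y : X) : G) * g) * g⁻¹ = ((y : X) : G) := by group
    show (g⁻¹)⁻¹ * (g⁻¹ * ((y : X) : G) * g) * g⁻¹ ∈ X
    rw [this]; exact (y : X).2
  · have := (key g⁻¹ y).1 y.2
    rwa [inv_inv] at this
  · rw [key]
    have : g⁻¹ * (g * ((y : X) : G) * g⁻¹) * g = ((y : X) : G) := by group
    show g⁻¹ * (g * ((y : X) : G) * g⁻¹) * g ∈ X
    rw [this]; exact (y : X).2
  · apply Subtype.ext; apply Subtype.ext
    show g * (g⁻¹ * ((y : X) : G) * g) * g⁻¹ = ((y : X) : G)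
    group
  · apply Subtype.ext; apply Subtype.ext
    show g⁻¹ * (g * ((y : X) : G) * g⁻¹) * g = ((y : X) : G)
    group

end orb

theorem exists_h {G : Type*} [Group G] [Finite G] (hcard : Nat.card G = 12096)
    (hs : ∀ g : G, g ^ 7 = 1 ∨ g ^ 8 = 1 ∨ g ^ 12 = 1) (c0 c1 c2 : G) (h0 : c0 * c0 = 1) (h1 : c1 * c1 = 1)
    (h2 : c2 * c2 = 1) (h01 : (c0 * c1) ^ 7 = 1) (h02 : (c0 * c2) ^ 2 = 1) (h12 : (c1 * c2) ^ 3 = 1)
    (h012 : (c0 * c1 * c2) ^ 8 = 1) (hne : c0 ≠ c1) :
    Nat.card (Subgroup.closure ({c0, c1, c2} : Set G)) = 336 ∧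
      (∀ Y : Subgroup G, Subgroup.closure ({c0, c1, c2} : Set G) < Y → Y = ⊤) ∧
      ∃ h : G, h ∉ Subgroup.closure ({c0, c1, c2} : Set G) ∧ h * h = 1 ∧ Commute h (c0 * c2) ∧
        Commute h (c1 * c0 * c1 * c0 * c2 * c1) ∧ (c0 * h) ^ 3 = 1 := by
  have hr : RelX c0 c1 c2 := ⟨h0, h1, h2, h01, h02, h12, h012⟩
  obtain ⟨hp, hX, hN⟩ := GT27XD.main hcard hs hr hne
  set X := Subgroup.closure ({c0, c1, c2} : Set G) with hXd
  refine ⟨hX, fun Y hY => GT27XD.maximal hcard hs hp hX hN Y hY, ?_⟩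
  have m0 : c0 ∈ X := subset_closure (by simp)
  have m1 : c1 ∈ X := subset_closure (by simp)
  have m2 : c2 ∈ X := subset_closure (by simp)
  have hpX : c0 * c1 ∈ X := X.mul_mem m0 m1
  let C0 : X := ⟨c0, m0⟩
  let C1 : X := ⟨c1, m1⟩
  let C2 : X := ⟨c2, m2⟩
  have hrX : RelX C0 C1 C2 := RelX.of_inj X.subtype X.subtype_injective hr
  have htop : closure ({C0, C1, C2} : Set X) = ⊤ := by
    rw [← closure_closure_coe_preimage (k := ({c0, c1, c2} : Set G))]
    congr 1
    ext x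
    simp only [Set.mem_insert_iff, Set.mem_singleton_iff, Set.mem_preimage, Subtype.ext_iff, C0, C1, C2]
  obtain ⟨κ, k1, k2, k3, k4, k5, k6, k7, k8⟩ := exists_kappa hrX htop hX
  have K : Kap κ C0 C1 C2 := ⟨k1, k2, k3, k4, k5, k6, k7, k8⟩
  have h48 := K.no48 hX hrX.r012
  obtain ⟨β0, γ, hβ0, hγ, s24, s16, o14, o21, hall⟩ := orbits hcard hX hp hpX hN h48
  obtain ⟨x0, hx0⟩ := K.sub24 hX hrX.r012 _ s24
  -- the point with stabilizer `⟨a, b⟩`
  set β : G ⧸ X := x0⁻¹ • β0 with hβd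
  have hst : ∀ y : X, y • β = β ↔ κ y ∈ LB := by
    intro y
    rw [← hx0 y, MulAction.mem_stabilizer_iff, hβd, mul_smul, mul_smul]
    constructor
    · intro hh
      rw [hh, smul_inv_smul]
    · intro hh
      rw [eq_inv_smul_iff]; exact hh
  have horb : MulAction.orbit X β = MulAction.orbit X β0 := MulAction.orbit_eq_iff.2 ⟨x0⁻¹, rfl⟩
  have hβ : β ≠ b0 X := by
    intro hh
    rw [← horb, hh, base_orbit, Set.ncard_singleton] at o14
    omega
  have hcardβ : Nat.card (MulAction.stabilizer X β) = 24 := by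
    have e1 := orb_card β hX
    rw [horb, o14] at e1
    omega
  obtain ⟨g, hg⟩ := exists_g β
  -- the swap
  have e1 : Nat.card (MulAction.stabilizer X (g⁻¹ • b0 X)) = 24 := by
    rw [← stab_inv, hg, hcardβ]
  have e2 : g⁻¹ • b0 X ∈ MulAction.orbit X β := by
    rcases hall (g⁻¹ • b0 X) with h | h | h
    · exfalso
      rw [inv_smul_eq_iff] at h
      exact hβ (by rw [← hg]; exact h.symm)
    · rw [horb]; exact h
    · exfalso
      have e3 := orb_card (g⁻¹ • b0 X) hX
      rw [e1, MulAction.orbit_eq_iff.2 h, o21] at e3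
      omega
  obtain ⟨y, hy⟩ := e2
  have hy' : (y : G) • β = g⁻¹ • b0 X := hy
  set t : G := g * y with ht
  have t1 : t • b0 X = β := by
    rw [ht, mul_smul, mem_iff.2 y.2, hg]
  have t2 : t • β = b0 X := by
    rw [ht, mul_smul, hy', smul_inv_smul]
  have ti1 : t⁻¹ • β = b0 X := by rw [← t1, inv_smul_smul]
  have ti2 : t⁻¹ • b0 X = β := by rw [← t2, inv_smul_smul]
  -- elements of the two point stabilizer
  have conjmem : ∀ s : X, κ s ∈ LB → ∃ s' : X, (s' : G) = t * s * t⁻¹ ∧ κ s' ∈ LB := by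
    intro s hs'
    have hsβ : (s : G) • β = β := (hst s).2 hs'
    have hs0 : (s : G) • b0 X = b0 X := mem_iff.2 s.2
    have i1 : t * (s : G) * t⁻¹ ∈ X := by
      rw [← mem_iff, mul_smul, mul_smul, ti2, hsβ, t2]
    refine ⟨⟨_, i1⟩, rfl, (hst _).1 ?_⟩
    show (t * (s : G) * t⁻¹) • β = β
    rw [mul_smul, mul_smul, ti1, hs0, t1]
  set a : X := C0 * C2 with ha
  set b : X := C1 * C0 * C1 * C0 * C2 * C1 with hb
  have ka : κ a ∈ LB := by rw [ha, K.ka]; decide
  have kb : κ b ∈ LB := by rw [hb, K.kb]; decide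
  obtain ⟨a', ha', ka'⟩ := conjmem a ka
  obtain ⟨b', hb', kb'⟩ := conjmem b kb
  obtain ⟨q1, q2, q3, q4, q5, q6⟩ := K.ords ha hb
  have tr : ∀ z z' : X, (z' : G) = t * z * t⁻¹ → (z' = 1 ↔ z = 1) := by
    intro z z' hz
    constructor
    · intro hh
      rw [hh] at hz
      apply Subtype.ext
      have : (z : G) = t⁻¹ * (t * z * t⁻¹) * t := by group
      rw [this, ← hz]; simp
    · intro hh
      apply Subtype.ext
      rw [hz, hh]; simp
  obtain ⟨s, hsB, f1, f2⟩ := K.aut ha hb ka' kb'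
    ((tr (a * a) (a' * a') (by simp only [coe_mul, ha']; group)).2 q1)
    (fun hh => q2 ((tr a a' ha').1 hh))
    ((tr (b * (b * b)) (b' * (b' * b')) (by simp only [coe_mul, hb']; group)).2 q3)
    (fun hh => q4 ((tr b b' hb').1 hh))
    ((tr ((a * b) * (a * b) * ((a * b) * (a * b))) _ (by
      simp only [coe_mul, ha', hb']; group)).2 q5)
    (fun hh => q6 ((tr ((a * b) * (a * b)) _ (by simp only [coe_mul, ha', hb']; group)).1 hh))
  set h : G := (s : G)⁻¹ * t with hh
  have sβ : (s : G) • β = β := (hst s).2 hsB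
  have s0 : (s : G) • b0 X = b0 X := mem_iff.2 s.2
  have hh1 : h • b0 X = β := by rw [hh, mul_smul, t1, inv_smul_eq_iff, sβ]
  have hh2 : h • β = b0 X := by rw [hh, mul_smul, t2, inv_smul_eq_iff, s0]
  have f1' : (s : G) * a = a' * s := congrArg Subtype.val f1
  have f2' : (s : G) * b = b' * s := congrArg Subtype.val f2
  have ca : Commute h (a : G) := by
    show (s : G)⁻¹ * t * a = a * ((s : G)⁻¹ * t)
    have w1 : (s : G)⁻¹ * t * a = (s : G)⁻¹ * (t * a * t⁻¹) * t := by group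
    rw [w1, ← ha']
    have w2 : (a' : G) = s * a * (s : G)⁻¹ := by rw [f1']; group
    rw [w2]; group
  have cb : Commute h (b : G) := by
    show (s : G)⁻¹ * t * b = b * ((s : G)⁻¹ * t)
    have w1 : (s : G)⁻¹ * t * b = (s : G)⁻¹ * (t * b * t⁻¹) * t := by group
    rw [w1, ← hb']
    have w2 : (b' : G) = s * b * (s : G)⁻¹ := by rw [f2']; group
    rw [w2]; group
  set v : X := a * b * b * a * b with hv
  have cv : Commute h (v : G) := by
    rw [hv]
    simp only [coe_mul]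
    exact (((ca.mul_right cb).mul_right cb).mul_right ca).mul_right cb
  -- elements of the two point stabilizer commuting with `a` and `v` are trivial
  have triv : ∀ z : G, z • b0 X = b0 X → z • β = β → Commute z (a : G) → Commute z (v : G) → z = 1 := by
    intro z z1 z2 z3 z4
    have zX : z ∈ X := mem_iff.1 z1
    have := K.cent ha hb (x := ⟨z, zX⟩) ((hst _).1 z2) (Subtype.ext z3) (Subtype.ext z4)
    exact congrArg Subtype.val this
  have hhX : h ∉ X := by
    intro hX'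
    exact hβ (by rw [← hh1]; exact mem_iff.2 hX')
  have hsq : h * h = 1 := triv _ (by rw [mul_smul, hh1, hh2]) (by rw [mul_smul, hh2, hh1])
    (ca.mul_left ca) (cv.mul_left cv)
  -- `c0` commutes with `a` and `v`
  have c0a : Commute c0 (a : G) := (congrArg Subtype.val (K.c0a ha)).symm
  have c0v : Commute c0 (v : G) := (congrArg Subtype.val (K.c0v ha hb)).symm
  have c00 : c0 • b0 X = b0 X := mem_iff.2 m0
  have aβ : (a : G) • β = β := (hst a).2 ka
  have kv : κ v = Cfsg.Agent.Lib.GT27XA.cv := K.kv ha hb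
  have vB : κ v ∈ LB := by rw [kv]; decide
  have vβ : (v : G) • β = β := (hst v).2 vB
  have v1 : v ≠ 1 := by
    intro hv1
    rw [hv1, K.one] at kv
    revert kv; decide
  have v3 : v ^ 3 = 1 := by
    apply K.inj
    rw [pow_succ, pow_two, K.mul, K.mul, kv, K.one]
    decide
  set β' : G ⧸ X := c0 • β with hβ'
  have hββ' : β' ≠ β := by
    intro hc
    exact K.c0n ((hst C0).1 hc)
  have c0β' : c0 • β' = β := by rw [hβ', ← mul_smul, h0, one_smul]
  have hβ'0 : β' ≠ b0 X := by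
    intro hc
    apply hβ
    rw [← c0β', hc, c00]
  have hδ : h • β' = β' := by
    have p1 : (a : G) • (h • β') = h • β' := by
      rw [← mul_smul, ← ca.eq, mul_smul, hβ', ← mul_smul (a : G), ← c0a.eq, mul_smul c0, aβ]
    have p2 : (v : G) • (h • β') = h • β' := by
      rw [← mul_smul, ← cv.eq, mul_smul, hβ', ← mul_smul (v : G), ← c0v.eq, mul_smul c0, vβ]
    rcases hall (h • β') with hc | hc | hc
    · exfalso
      rw [← hh2] at hc
      exact hββ' (MulAction.injective h hc)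
    · rw [← horb] at hc
      obtain ⟨x, hx⟩ := hc
      have hx' : (x : G) • β = h • β' := hx
      have r1 : κ (x⁻¹ * a * x) ∈ LB := by
        rw [← hst]
        show ((x : G)⁻¹ * a * x) • β = β
        rw [mul_smul, mul_smul, hx', p1, ← hx', inv_smul_smul]
      have r2 : κ (x⁻¹ * (a * b * b * a * b) * x) ∈ LB := by
        rw [← hst, ← hv]
        show ((x : G)⁻¹ * v * x) • β = β
        rw [mul_smul, mul_smul, hx', p2, ← hx', inv_smul_smul]
      rcases K.fix ha hb r1 r2 with h5 | h5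
      · exfalso
        have h6 : (x : G) • β = β := (hst x).2 h5
        rw [h6] at hx'
        rw [← hh1] at hx'
        exact hβ'0 (MulAction.injective h hx').symm
      · have h6 : (c0 * (x : G)) • β = β := (hst (C0 * x)).2 h5
        rw [mul_smul, hx'] at h6
        have h7 : c0 • (h • β') = c0 • β' := by rw [h6, c0β']
        exact MulAction.injective c0 h7
    · exfalso
      have s3 : Nat.card (MulAction.stabilizer X (h • β')) = 16 := by
        have e3 := orb_card (h • β') hX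
        rw [MulAction.orbit_eq_iff.2 hc, o21] at e3
        omega
      have hvo : orderOf (⟨v, p2⟩ : MulAction.stabilizer X (h • β')) = 3 :=
        orderOf_eq_prime (Subtype.ext v3) (fun hc1 => v1 (congrArg Subtype.val hc1))
      have := orderOf_dvd_natCard (⟨v, p2⟩ : MulAction.stabilizer X (h • β'))
      rw [hvo, s3] at this
      revert this; decide
  have w1 : (c0 * h) • b0 X = β' := by rw [mul_smul, hh1]
  have w2 : (c0 * h) • β' = β := by rw [mul_smul, hδ, c0β']
  have w3 : (c0 * h) • β = b0 X := by rw [mul_smul, hh2, c00]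
  refine ⟨h, hhX, hsq, ca, cb, ?_⟩
  rw [pow_succ, pow_two]
  apply triv
  · rw [mul_smul, mul_smul, w1, w2, w3]
  · rw [mul_smul, mul_smul, w3, w1, w2]
  · exact ((c0a.mul_left ca).mul_left (c0a.mul_left ca)).mul_left (c0a.mul_left ca)
  · exact ((c0v.mul_left cv).mul_left (c0v.mul_left cv)).mul_left (c0v.mul_left cv)

end Cfsg.Agent.Lib.GT27X
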