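import Cfsg.Agent.Lib.GT27XA
import Cfsg.Agent.Lib.GT27A8
import Cfsg.Agent.Lib.J2Pres
import Cfsg.Agent.Lib.DihedralHom

set_option autoImplicit false
set_option linter.style.longLine false

/-!
# The triangle group presentation of `PGL(2,7)`: order and codes
-/

namespace Cfsg.Agent.Lib.GT27XB

open Subgroup Cfsg.Agent.Lib.GT27XA Cfsg.Agent.Lib.H10Enum

/-- the relations -/
structure RelX {K : Type*} [Group K] (c0 c1 c2 : K) : Prop where
  s0 : c0 * c0 = 1
  s1 : c1 * c1 = 1
  s2 : c2 * c2 = 1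
  r01 : (c0 * c1) ^ 7 = 1
  r02 : (c0 * c2) ^ 2 = 1
  r12 : (c1 * c2) ^ 3 = 1
  r012 : (c0 * c1 * c2) ^ 8 = 1

theorem RelX.map {K H : Type*} [Group K] [Group H] {c0 c1 c2 : K} (h : RelX c0 c1 c2) (f : K →* H) :
    RelX (f c0) (f c1) (f c2) where
  s0 := by rw [← map_mul, h.s0, map_one]
  s1 := by rw [← map_mul, h.s1, map_one]
  s2 := by rw [← map_mul, h.s2, map_one]
  r01 := by rw [← map_mul, ← map_pow, h.r01, map_one]
  r02 := by rw [← map_mul, ← map_pow, h.r02, map_one]
  r12 := by rw [← map_mul, ← map_pow, h.r12, map_one]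
  r012 := by rw [← map_mul, ← map_mul, ← map_pow, h.r012, map_one]

theorem RelX.of_inj {K H : Type*} [Group K] [Group H] {c0 c1 c2 : K} (f : K →* H) (hf : Function.Injective f)
    (h : RelX (f c0) (f c1) (f c2)) : RelX c0 c1 c2 where
  s0 := hf (by rw [map_mul, h.s0, map_one])
  s1 := hf (by rw [map_mul, h.s1, map_one])
  s2 := hf (by rw [map_mul, h.s2, map_one])
  r01 := hf (by rw [map_pow, map_mul, h.r01, map_one])
  r02 := hf (by rw [map_pow, map_mul, h.r02, map_one])
  r12 := hf (by rw [map_pow, map_mul, h.r12, map_one])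
  r012 := hf (by rw [map_pow, map_mul, map_mul, h.r012, map_one])

/-- the letters -/
def gl {K : Type*} [Group K] (c0 c1 c2 : K) : ℕ → K
  | 1 => c0
  | 2 => c1
  | 3 => c2
  | _ => 1

theorem card_dih {K : Type*} [Group K] {c0 c1 : K} (s0 : c0 * c0 = 1) (s1 : c1 * c1 = 1) (r01 : (c0 * c1) ^ 7 = 1) :
    Finite (closure ({c0, c1} : Set K)) ∧ Nat.card (closure ({c0, c1} : Set K)) ≤ 14 := by
  have h0 : c0⁻¹ = c0 := inv_eq_of_mul_eq_one_left s0
  have h1 : c1⁻¹ = c1 := inv_eq_of_mul_eq_one_left s1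
  have hr : c0 * (c0 * c1) * c0 = (c0 * c1)⁻¹ := by
    rw [mul_inv_rev, h0, h1, ← mul_assoc, s0, one_mul]
  let f := DihedralHom.lift (n := 7) (c0 * c1) c0 r01 s0 hr
  have e1 : f (DihedralGroup.r 1) = c0 * c1 := DihedralHom.lift_r_one _ _ _ _ _
  have e2 : f (DihedralGroup.sr 0) = c0 := DihedralHom.lift_sr_zero _ _ _ _ _
  have hle : closure ({c0, c1} : Set K) ≤ f.range := by
    rw [closure_le]
    rintro x (rfl | rfl)
    · exact ⟨_, e2⟩
    · refine ⟨DihedralGroup.sr 0 * DihedralGroup.r 1, ?_⟩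
      rw [map_mul, e1, e2, ← mul_assoc, s0, one_mul]
  haveI : Finite f.range := Finite.of_surjective f.rangeRestrict f.rangeRestrict_surjective
  have hfin : Finite (closure ({c0, c1} : Set K)) := Set.Finite.subset (Set.toFinite (f.range : Set K)) hle
  refine ⟨hfin, ?_⟩
  calc Nat.card (closure ({c0, c1} : Set K)) ≤ Nat.card f.range := Subgroup.card_le_of_le hle
    _ ≤ Nat.card (DihedralGroup 7) := Nat.card_le_card_of_surjective f.rangeRestrict f.rangeRestrict_surjective
    _ = 14 := by rw [Nat.card_eq_fintype_card, DihedralGroup.card]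

theorem tb_lt {n c : ℕ} (hn : n < 16) (h : n.testBit c = true) : c < 4 := by
  by_contra hc8
  rw [Nat.testBit_lt_two_pow (x := n) (i := c)] at h
  · simp at h
  · exact lt_of_lt_of_le (by norm_num; exact hn : n < 2 ^ 4) (Nat.pow_le_pow_right (by norm_num) (by omega))

theorem card_le {K : Type*} [Group K] {c0 c1 c2 : K} (h : RelX c0 c1 c2) (ht : closure ({c0, c1, c2} : Set K) = ⊤) :
    Finite K ∧ Nat.card K ≤ 336 := by
  have hiv : ∀ c, (14 : ℕ).testBit c = true → (gl c0 c1 c2 c)⁻¹ = gl c0 c1 c2 c := by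
    intro c hc
    have hlt := tb_lt (n := 14) (by norm_num) hc
    interval_cases c
    · exfalso; revert hc; decide
    · exact inv_eq_of_mul_eq_one_left h.s0
    · exact inv_eq_of_mul_eq_one_left h.s1
    · exact inv_eq_of_mul_eq_one_left h.s2
  have hR : ∀ v ∈ GT27A8.R, wval (gl c0 c1 c2) v = 1 := by
    unfold GT27A8.R
    have e0 := h.s0
    have e1 := h.s1
    have e2 := h.s2
    have e3 := h.r01
    have e4 := h.r02
    have e5 := h.r12
    have e6 := h.r012
    simp only [pow_succ, pow_zero, one_mul] at e3 e4 e5 e6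
    simp only [List.forall_mem_cons, List.not_mem_nil, false_implies, implies_true, and_true]
    refine ⟨?_, ?_, ?_, ?_, ?_, ?_, ?_, ?_, ?_, ?_⟩
    · simpa [wval, val, gl, mul_assoc] using e0
    · simpa [wval, val, gl, mul_assoc] using e1
    · simpa [wval, val, gl, mul_assoc] using e2
    · simpa [wval, val, gl, mul_assoc] using e3
    · simpa [wval, val, gl, mul_assoc] using e4
    · simpa [wval, val, gl, mul_assoc] using e5
    · simpa [wval, val, gl, mul_assoc] using e6
    · simp [wval, val, gl]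
    · simp [wval, val, gl]
    · simp [wval, val, gl]
  obtain ⟨hf1, hb1⟩ := card_dih h.s0 h.s1 h.r01
  haveI := hf1
  have hE : ∀ c ∈ [1, 2, 3], chkC GT27A8.T 14 24 45
      ((fun c => if c = 1 then GT27A8.E1 else if c = 2 then GT27A8.E2 else GT27A8.E3) c) c 24 = true := by
    intro c hc
    simp only [List.mem_cons, List.not_mem_nil, or_false] at hc
    rcases hc with rfl | rfl | rfl
    · exact GT27A8.cl1
    · exact GT27A8.cl2
    · exact GT27A8.cl3
  have h5 := J2Pres.enum_index (g := gl c0 c1 c2) [1, 2, 3] _ rfl hiv hR (closure ({c0, c1} : Set K))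
    (by
      intro c hc
      simp only [List.mem_cons, List.not_mem_nil, or_false] at hc
      rcases hc with rfl | rfl
      · exact subset_closure (by simp [gl])
      · exact subset_closure (by simp [gl]))
    GT27A8.ok (by norm_num)
    (by
      rw [← ht]
      congr 1
      ext x
      simp only [List.mem_cons, List.not_mem_nil, or_false, Set.mem_setOf_eq, Set.mem_insert_iff,
        Set.mem_singleton_iff]
      constructor
      · rintro ⟨c, (rfl | rfl | rfl), rfl⟩ <;> simp [gl]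
      · rintro (rfl | rfl | rfl)
        · exact ⟨1, by simp, rfl⟩
        · exact ⟨2, by simp, rfl⟩
        · exact ⟨3, by simp, rfl⟩)
    hE
  exact J2Pres.card_le_mul (closure ({c0, c1} : Set K)) h5 hb1

theorem card_closure_le {K : Type*} [Group K] {c0 c1 c2 : K} (h : RelX c0 c1 c2) :
    Finite (closure ({c0, c1, c2} : Set K)) ∧ Nat.card (closure ({c0, c1, c2} : Set K)) ≤ 336 := by
  set D := closure ({c0, c1, c2} : Set K) with hD
  have m0 : c0 ∈ D := subset_closure (by simp)
  have m1 : c1 ∈ D := subset_closure (by simp)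
  have m2 : c2 ∈ D := subset_closure (by simp)
  refine card_le (c0 := (⟨c0, m0⟩ : D)) (c1 := ⟨c1, m1⟩) (c2 := ⟨c2, m2⟩)
    (RelX.of_inj D.subtype D.subtype_injective h) ?_
  rw [← closure_closure_coe_preimage (k := ({c0, c1, c2} : Set K))]
  congr 1
  ext x
  simp only [Set.mem_insert_iff, Set.mem_singleton_iff, Set.mem_preimage, Subtype.ext_iff]

/-- the generators -/
def p0 : Equiv.Perm (Fin 8) := ⟨![0, 1, 3, 2, 7, 6, 5, 4], ![0, 1, 3, 2, 7, 6, 5, 4], by decide, by decide⟩
/-- the generators -/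
def p1 : Equiv.Perm (Fin 8) := ⟨![0, 2, 1, 4, 3, 5, 7, 6], ![0, 2, 1, 4, 3, 5, 7, 6], by decide, by decide⟩
/-- the generators -/
def p2 : Equiv.Perm (Fin 8) := ⟨![1, 0, 2, 3, 5, 4, 7, 6], ![1, 0, 2, 3, 5, 4, 7, 6], by decide, by decide⟩

theorem relP : RelX p0 p1 p2 where
  s0 := by decide +kernel
  s1 := by decide +kernel
  s2 := by decide +kernel
  r01 := by decide +kernel
  r02 := by decide +kernel
  r12 := by decide +kernel
  r012 := by decide +kernel

theorem codeP : code p0 = mc 0 ∧ code p1 = mc 1 ∧ code p2 = mc 2 := by decide +kernel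

/-- three letters -/
def tri {K : Type*} (c0 c1 c2 : K) (i : ℕ) : K := match i with
  | 0 => c0
  | 1 => c1
  | _ => c2

theorem evl_prod {K : Type*} [Group K] (κ : K → ℕ) (hm : ∀ x y, κ (x * y) = mulc (κ x) (κ y))
    (h1 : κ 1 = 0x76543210) (x : ℕ → K) (g : ℕ → ℕ) (hg : ∀ i, κ (x i) = g i) (w : List ℕ) :
    κ ((w.map x).prod) = evl g w := by
  induction w with
  | nil => simpa [evl] using h1
  | cons i w ih => rw [List.map_cons, List.prod_cons, hm, ih, hg]; rfl

theorem mem_prod {K : Type*} [Group K] (S : Subgroup K) (x : ℕ → K) (hx : ∀ i, x i ∈ S) (w : List ℕ) :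
    (w.map x).prod ∈ S := by
  apply Subgroup.list_prod_mem
  intro y hy
  obtain ⟨i, _, rfl⟩ := List.mem_map.1 hy
  exact hx i

/-- the graph subgroup has order 336 -/
theorem graph {K : Type*} [Group K] {c0 c1 c2 : K} (h : RelX c0 c1 c2) :
    let D := closure ({(c0, p0), (c1, p1), (c2, p2)} : Set (K × Equiv.Perm (Fin 8)))
    Finite D ∧ Nat.card D = 336 ∧ (∀ x : D, code x.1.2 ∈ L) ∧ (∀ c ∈ L, ∃ x : D, code x.1.2 = c) ∧
      Function.Injective (fun x : D => code x.1.2) := by
  intro D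
  have hr : RelX ((c0, p0) : K × Equiv.Perm (Fin 8)) (c1, p1) (c2, p2) := by
    constructor
    · exact Prod.ext h.s0 relP.s0
    · exact Prod.ext h.s1 relP.s1
    · exact Prod.ext h.s2 relP.s2
    · exact Prod.ext h.r01 relP.r01
    · exact Prod.ext h.r02 relP.r02
    · exact Prod.ext h.r12 relP.r12
    · exact Prod.ext h.r012 relP.r012
  obtain ⟨hfin, hle⟩ := card_closure_le hr
  change Finite D at hfin
  change Nat.card D ≤ 336 at hle
  have m0 : ((c0, p0) : K × Equiv.Perm (Fin 8)) ∈ D := subset_closure (by simp)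
  have m1 : ((c1, p1) : K × Equiv.Perm (Fin 8)) ∈ D := subset_closure (by simp)
  have m2 : ((c2, p2) : K × Equiv.Perm (Fin 8)) ∈ D := subset_closure (by simp)
  let κ : D → ℕ := fun x => code x.1.2
  have hm : ∀ x y : D, κ (x * y) = mulc (κ x) (κ y) := fun x y => code_mul _ _
  have h1 : κ 1 = 0x76543210 := code_one
  have hsurj : ∀ c ∈ L, ∃ x : D, κ x = c := by
    intro c hc
    rw [← evalL] at hc
    obtain ⟨w, _, rfl⟩ := List.mem_map.1 hc
    refine ⟨(w.map (tri (⟨_, m0⟩ : D) ⟨_, m1⟩ ⟨_, m2⟩)).prod, ?_⟩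
    apply evl_prod κ hm h1
    intro i
    rcases i with _ | _ | i
    · exact codeP.1
    · exact codeP.2.1
    · exact codeP.2.2
  haveI := Fintype.ofFinite D
  classical
  have hcard : (Finset.univ : Finset D).card ≤ 336 := by
    rw [Finset.card_univ, ← Nat.card_eq_fintype_card]; exact hle
  have hsub : L.toFinset ⊆ (Finset.univ : Finset D).image κ := by
    intro c hc
    obtain ⟨x, hx⟩ := hsurj c (List.mem_toFinset.1 hc)
    exact Finset.mem_image.2 ⟨x, Finset.mem_univ _, hx⟩
  have hLc : L.toFinset.card = 336 := by rw [List.toFinset_card_of_nodup nodupL, lenL]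
  have hic : ((Finset.univ : Finset D).image κ).card ≤ 336 := Finset.card_image_le.trans hcard
  have heq : L.toFinset = (Finset.univ : Finset D).image κ := Finset.eq_of_subset_of_card_le hsub (by rw [hLc]; exact hic)
  have hic2 : ((Finset.univ : Finset D).image κ).card = 336 := by rw [← heq, hLc]
  have hcard2 : (Finset.univ : Finset D).card = 336 := le_antisymm hcard (by rw [← hic2]; exact Finset.card_image_le)
  refine ⟨hfin, ?_, ?_, hsurj, ?_⟩
  · rw [Nat.card_eq_fintype_card, ← Finset.card_univ, hcard2]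
  · intro x
    have : κ x ∈ (Finset.univ : Finset D).image κ := Finset.mem_image_of_mem _ (Finset.mem_univ _)
    rw [← heq] at this
    exact List.mem_toFinset.1 this
  · have h3 := Finset.card_image_iff.1 (hic2.trans hcard2.symm)
    intro x y hxy
    exact h3 (Finset.mem_coe.2 (Finset.mem_univ _)) (Finset.mem_coe.2 (Finset.mem_univ _)) hxy

theorem map_graph {K : Type*} [Group K] (c0 c1 c2 : K) :
    (closure ({(c0, p0), (c1, p1), (c2, p2)} : Set (K × Equiv.Perm (Fin 8)))).map (MonoidHom.fst K _) =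
      closure ({c0, c1, c2} : Set K) := by
  rw [MonoidHom.map_closure]
  congr 1
  simp [Set.image_insert_eq]

theorem card_dvd {K : Type*} [Group K] {c0 c1 c2 : K} (h : RelX c0 c1 c2) :
    Nat.card (closure ({c0, c1, c2} : Set K)) ∣ 336 := by
  obtain ⟨hf, hc, -⟩ := graph h
  rw [← map_graph, ← hc]
  exact Subgroup.card_map_dvd _ _

theorem exists_kappa {X : Type*} [Group X] [Finite X] {c0 c1 c2 : X} (h : RelX c0 c1 c2)
    (ht : closure ({c0, c1, c2} : Set X) = ⊤) (hX : Nat.card X = 336) :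
    ∃ κ : X → ℕ, Function.Injective κ ∧ (∀ x y, κ (x * y) = mulc (κ x) (κ y)) ∧ κ 1 = 0x76543210 ∧
      κ c0 = mc 0 ∧ κ c1 = mc 1 ∧ κ c2 = mc 2 ∧ (∀ x, κ x ∈ L) ∧ ∀ c ∈ L, ∃ x, κ x = c := by
  obtain ⟨hf, hc, hL, hs, hi⟩ := graph h
  set D := closure ({(c0, p0), (c1, p1), (c2, p2)} : Set (X × Equiv.Perm (Fin 8))) with hD
  have m0 : ((c0, p0) : X × Equiv.Perm (Fin 8)) ∈ D := subset_closure (by simp)
  have m1 : ((c1, p1) : X × Equiv.Perm (Fin 8)) ∈ D := subset_closure (by simp)
  have m2 : ((c2, p2) : X × Equiv.Perm (Fin 8)) ∈ D := subset_closure (by simp)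
  let f : D →* X := (MonoidHom.fst X _).comp D.subtype
  have hsurj : Function.Surjective f := by
    intro x
    have hx : x ∈ D.map (MonoidHom.fst X _) := by rw [hD, map_graph, ht]; trivial
    obtain ⟨y, hy, rfl⟩ := hx
    exact ⟨⟨y, hy⟩, rfl⟩
  have hbij : Function.Bijective f := hsurj.bijective_of_nat_card_le (by rw [hc, hX])
  let e : D ≃* X := MulEquiv.ofBijective f hbij
  have e0 : e.symm c0 = ⟨_, m0⟩ := by rw [MulEquiv.symm_apply_eq]; rfl
  have e1 : e.symm c1 = ⟨_, m1⟩ := by rw [MulEquiv.symm_apply_eq]; rfl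
  have e2 : e.symm c2 = ⟨_, m2⟩ := by rw [MulEquiv.symm_apply_eq]; rfl
  refine ⟨fun x => code (e.symm x).1.2, ?_, ?_, ?_, ?_, ?_, ?_, ?_, ?_⟩
  · intro x y hxy
    exact e.symm.injective (hi hxy)
  · intro x y
    show code (e.symm (x * y)).1.2 = _
    rw [map_mul]
    exact code_mul _ _
  · show code (e.symm 1).1.2 = _
    rw [map_one]
    exact code_one
  · show code (e.symm c0).1.2 = _
    rw [e0]; exact codeP.1
  · show code (e.symm c1).1.2 = _
    rw [e1]; exact codeP.2.1
  · show code (e.symm c2).1.2 = _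
    rw [e2]; exact codeP.2.2
  · intro x; exact hL _
  · intro c hc'
    obtain ⟨x, hx⟩ := hs c hc'
    exact ⟨e x, by simpa using hx⟩

end Cfsg.Agent.Lib.GT27XB
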