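import Cfsg.Agent.Lib.GT27XB

set_option autoImplicit false
set_option linter.style.longLine false

/-!
# Subgroups of order 24 of `PGL(2,7)`
-/

namespace Cfsg.Agent.Lib.GT27XC

open Subgroup Cfsg.Agent.Lib.GT27XA Cfsg.Agent.Lib.GT27XB

/-- codes on a group -/
structure Kap {X : Type*} [Group X] (κ : X → ℕ) (c0 c1 c2 : X) : Prop where
  inj : Function.Injective κ
  mul : ∀ x y, κ (x * y) = mulc (κ x) (κ y)
  one : κ 1 = 0x76543210
  e0 : κ c0 = mc 0
  e1 : κ c1 = mc 1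
  e2 : κ c2 = mc 2
  mem : ∀ x, κ x ∈ L
  surj : ∀ c ∈ L, ∃ x, κ x = c

namespace Kap

variable {X : Type*} [Group X] {κ : X → ℕ} {c0 c1 c2 : X}

theorem tri_eq (h : Kap κ c0 c1 c2) (i : ℕ) : κ (tri c0 c1 c2 i) = mc i := by
  rcases i with _ | _ | i
  · exact h.e0
  · exact h.e1
  · exact h.e2

theorem ka (h : Kap κ c0 c1 c2) : κ (c0 * c2) = ca := by
  rw [h.mul, h.e0, h.e2]; exact vals.1

theorem kb (h : Kap κ c0 c1 c2) : κ (c1 * c0 * c1 * c0 * c2 * c1) = cb := by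
  have h1 := evl_prod κ h.mul h.one (tri c0 c1 c2) mc h.tri_eq [1, 0, 1, 0, 2, 1]
  rw [vals.2.1] at h1
  rw [← h1]
  congr 1
  simp [tri, mul_assoc]

theorem kr (h : Kap κ c0 c1 c2) : κ (c0 * c1 * c2) = cr := by
  have h1 := evl_prod κ h.mul h.one (tri c0 c1 c2) mc h.tri_eq [0, 1, 2]
  rw [vals.2.2.2.1] at h1
  rw [← h1]
  congr 1
  simp [tri, mul_assoc]

theorem kf (h : Kap κ c0 c1 c2) : κ ((c0 * c1 * c2) * (c0 * c1 * c2)) = cf := by
  rw [h.mul, h.kr]; exact vals.2.2.2.2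

theorem kab (h : Kap κ c0 c1 c2) (i : ℕ) :
    κ (tri (c0 * c2) (c1 * c0 * c1 * c0 * c2 * c1) (c1 * c0 * c1 * c0 * c2 * c1) i) = gab i := by
  rcases i with _ | _ | i
  · exact h.ka
  · exact h.kb
  · exact h.kb

theorem kv (h : Kap κ c0 c1 c2) {a b : X} (ha : a = c0 * c2) (hb : b = c1 * c0 * c1 * c0 * c2 * c1) :
    κ (a * b * b * a * b) = cv := by
  subst ha; subst hb
  have h1 := evl_prod κ h.mul h.one _ gab h.kab [0, 1, 1, 0, 1]
  rw [vals.2.2.1] at h1
  rw [← h1]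
  congr 1
  simp [tri, mul_assoc]

theorem eq_one_iff (h : Kap κ c0 c1 c2) (x : X) : κ x = 0x76543210 ↔ x = 1 := by
  constructor
  · intro hx; exact h.inj (hx.trans h.one.symm)
  · rintro rfl; exact h.one

/-- a subgroup of order 24 containing `a` and `b` -/
theorem mem_iff [Finite X] (h : Kap κ c0 c1 c2) (S : Subgroup X) (hS : Nat.card S = 24) (ha : c0 * c2 ∈ S)
    (hb : c1 * c0 * c1 * c0 * c2 * c1 ∈ S) (y : X) : y ∈ S ↔ κ y ∈ LB := by
  classical
  have hsub : ∀ c ∈ LB, ∃ x ∈ S, κ x = c := by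
    intro c hc
    rw [← evalB] at hc
    obtain ⟨w, _, rfl⟩ := List.mem_map.1 hc
    refine ⟨_, mem_prod S (tri (c0 * c2) (c1 * c0 * c1 * c0 * c2 * c1) (c1 * c0 * c1 * c0 * c2 * c1)) ?_ w,
      evl_prod κ h.mul h.one _ gab h.kab w⟩
    intro i
    rcases i with _ | _ | i
    · exact ha
    · exact hb
    · exact hb
  have := Fintype.ofFinite X
  let F : Finset X := Finset.univ.filter (fun x => x ∈ S)
  have hF : F.card = 24 := by
    rw [← hS, Nat.card_eq_fintype_card, Fintype.card_subtype]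
  have hLc : LB.toFinset.card = 24 := by rw [List.toFinset_card_of_nodup nodupB, lenB]
  have hs : LB.toFinset ⊆ F.image κ := by
    intro c hc
    obtain ⟨x, hx, hx2⟩ := hsub c (List.mem_toFinset.1 hc)
    exact Finset.mem_image.2 ⟨x, Finset.mem_filter.2 ⟨Finset.mem_univ _, hx⟩, hx2⟩
  have heq : LB.toFinset = F.image κ := Finset.eq_of_subset_of_card_le hs (by
    rw [hLc, ← hF]; exact Finset.card_image_le)
  constructor
  · intro hy
    have : κ y ∈ F.image κ := Finset.mem_image_of_mem _ (Finset.mem_filter.2 ⟨Finset.mem_univ _, hy⟩)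
    rw [← heq] at this
    exact List.mem_toFinset.1 this
  · intro hy
    obtain ⟨x, hx, hx2⟩ := hsub _ hy
    rw [← h.inj hx2]; exact hx

theorem rel7 (h : Kap κ c0 c1 c2) {y : X} (hy : is7 (κ y) = true) : orderOf y = 7 := by
  unfold is7 at hy
  rw [Bool.and_eq_true] at hy
  obtain ⟨h1, h2⟩ := hy
  have h1' := Nat.eq_of_beq_eq_true h1
  rw [← h.mul, ← h.mul, ← h.mul, ← h.mul, h.eq_one_iff] at h1'
  have h3 : y ≠ 1 := by
    rintro rfl
    rw [h.one] at h2
    exact absurd h2 (by decide)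
  have h4 : y ^ 7 = 1 := by
    rw [← h1']; simp only [pow_succ, pow_zero, one_mul, mul_assoc]
  have := Fact.mk (show Nat.Prime 7 by norm_num)
  exact orderOf_eq_prime h4 h3

/-- the conjugate subgroup -/
def cj (S : Subgroup X) (g : X) : Subgroup X := S.map (MulAut.conj g).toMonoidHom

theorem mem_cj {S : Subgroup X} {g y : X} : y ∈ cj S g ↔ g⁻¹ * y * g ∈ S := by
  unfold cj
  rw [Subgroup.mem_map]
  constructor
  · rintro ⟨z, hz, rfl⟩
    simpa [MulAut.conj_apply, mul_assoc] using hz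
  · intro hy
    exact ⟨_, hy, by simp [MulAut.conj_apply, mul_assoc]⟩

theorem card_cj (S : Subgroup X) (g : X) : Nat.card (cj S g) = Nat.card S :=
  Nat.card_congr (S.equivMapOfInjective _ (MulAut.conj g).injective).symm.toEquiv

theorem exists_conj [Finite X] (hX : Nat.card X = 336) {r : X} (hr : r ^ 8 = 1) (S : Subgroup X)
    (h8 : 8 ∣ Nat.card S) :
    ∃ g : X, r * r ∈ cj S g ∧ (16 ∣ Nat.card S → r ∈ cj S g) := by
  have f2 := Fact.mk Nat.prime_two
  have hz : IsPGroup 2 (zpowers r) := by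
    have h1 : orderOf r ∣ 2 ^ 3 := orderOf_dvd_of_pow_eq_one (by simpa using hr)
    obtain ⟨k, _, hk⟩ := (Nat.dvd_prime_pow Nat.prime_two).1 h1
    exact IsPGroup.of_card (n := k) (by rw [Nat.card_zpowers, hk])
  obtain ⟨Q0, hQ0⟩ := hz.exists_le_sylow
  obtain ⟨T⟩ : Nonempty (Sylow 2 S) := inferInstance
  have hT : IsPGroup 2 ((T : Subgroup S).map S.subtype) := T.2.map _
  obtain ⟨Q, hQ⟩ := hT.exists_le_sylow
  obtain ⟨g, hg⟩ := MulAction.exists_smul_eq X Q Q0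
  refine ⟨g, ?_⟩
  set T2 : Subgroup X := cj ((T : Subgroup S).map S.subtype) g with hT2
  have hT2S : T2 ≤ cj S g := by
    intro y hy
    rw [mem_cj] at hy ⊢
    obtain ⟨z, _, hz2⟩ := hy
    rw [← hz2]; exact z.2
  have hT2Q : T2 ≤ (Q0 : Subgroup X) := by
    intro y hy
    rw [mem_cj] at hy
    have h1 := hQ hy
    have h2 : y ∈ ((g • Q : Sylow 2 X) : Subgroup X) := by
      rw [Sylow.coe_subgroup_smul, Subgroup.mem_pointwise_smul_iff_inv_smul_mem]
      have h3 : (MulAut.conj g)⁻¹ • y = g⁻¹ * y * g := by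
        rw [← map_inv, MulAut.smul_def, MulAut.conj_apply, inv_inv]
      rw [h3]
      exact h1
    rw [hg] at h2
    exact h2
  have cT2 : Nat.card T2 = Nat.card T := by
    rw [hT2, card_cj]
    exact Nat.card_congr ((T : Subgroup S).equivMapOfInjective _ S.subtype_injective).symm.toEquiv
  have d8 : 8 ∣ Nat.card T := T.pow_dvd_card_of_pow_dvd_card (n := 3) h8
  have cQ : Nat.card Q0 ∣ 336 := hX ▸ Subgroup.card_subgroup_dvd_card _
  have dQ : 16 ∣ Nat.card Q0 := Q0.pow_dvd_card_of_pow_dvd_card (n := 4) (by rw [hX]; norm_num)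
  obtain ⟨k, hk⟩ := (IsPGroup.iff_card).1 Q0.2
  have hQ16 : Nat.card Q0 = 16 := by
    have hk' : Nat.card Q0 = 2 ^ k := hk
    rw [hk'] at cQ dQ
    have h5 : k < 5 := by
      by_contra hh
      have : 2 ^ 5 ∣ 336 := (pow_dvd_pow 2 (by omega)).trans cQ
      revert this; decide
    rw [hk']
    interval_cases k <;> revert dQ <;> decide
  have hmul : Nat.card T2 * (T2.subgroupOf Q0).index = 16 := by
    rw [← hQ16, ← Subgroup.card_mul_index (T2.subgroupOf (Q0 : Subgroup X))]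
    congr 1
    exact Nat.card_congr (Subgroup.subgroupOfEquivOfLe hT2Q).symm.toEquiv
  have hrQ : r ∈ (Q0 : Subgroup X) := hQ0 (mem_zpowers r)
  rw [cT2] at hmul
  have hfull : ((T2.subgroupOf Q0).index = 1) → r ∈ T2 := by
    intro h1
    rw [Subgroup.index_eq_one, Subgroup.subgroupOf_eq_top] at h1
    exact h1 hrQ
  obtain ⟨m, hm⟩ := d8
  have hm2 : m * (T2.subgroupOf Q0).index = 2 := by
    rw [hm] at hmul
    have : 8 * (m * (T2.subgroupOf Q0).index) = 8 * 2 := by rw [← mul_assoc, hmul]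
    exact Nat.eq_of_mul_eq_mul_left (by norm_num) this
  have hidx : (T2.subgroupOf Q0).index ∣ 2 := ⟨m, by rw [mul_comm]; exact hm2.symm⟩
  constructor
  · rcases (Nat.dvd_prime Nat.prime_two).1 hidx with h1 | h1
    · exact hT2S (T2.mul_mem (hfull h1) (hfull h1))
    · have h2 := Subgroup.mul_self_mem_of_index_two h1 (⟨r, hrQ⟩ : (Q0 : Subgroup X))
      rw [Subgroup.mem_subgroupOf] at h2
      exact hT2S h2
  · intro h16
    have d16 : 16 ∣ Nat.card T := T.pow_dvd_card_of_pow_dvd_card (n := 4) h16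
    apply hT2S
    apply hfull
    obtain ⟨m', hm'⟩ := d16
    have : m = 2 * m' := by omega
    rw [this] at hm2
    have h6 : m' * (T2.subgroupOf Q0).index = 1 := by
      have : 2 * (m' * (T2.subgroupOf Q0).index) = 2 * 1 := by rw [← mul_assoc, hm2]
      exact Nat.eq_of_mul_eq_mul_left (by norm_num) this
    exact Nat.eq_one_of_mul_eq_one_left h6

theorem no48 [Finite X] (h : Kap κ c0 c1 c2) (hX : Nat.card X = 336) (hr : (c0 * c1 * c2) ^ 8 = 1) (S : Subgroup X) :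
    Nat.card S ≠ 48 := by
  intro hS
  obtain ⟨g, -, hg⟩ := exists_conj hX hr S (by rw [hS]; norm_num)
  have hrS := hg (by rw [hS]; norm_num)
  set S1 := cj S g with hS1
  have c1' : Nat.card S1 = 48 := by rw [hS1, card_cj, hS]
  have f3 := Fact.mk Nat.prime_three
  obtain ⟨t, ht⟩ := exists_prime_orderOf_dvd_card' 3 (show 3 ∣ Nat.card S1 by rw [c1']; norm_num)
  have ht3 : (t : X) * ((t : X) * t) = 1 := by
    have h1 := pow_orderOf_eq_one t
    rw [ht] at h1
    have h2 := congrArg (fun z : S1 => (z : X)) h1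
    simp only [Subgroup.coe_pow, Subgroup.coe_one] at h2
    rw [← h2]; simp only [pow_succ, pow_zero, one_mul, mul_assoc]
  have ht1 : (t : X) ≠ 1 := by
    intro hh
    have : t = 1 := Subtype.ext hh
    rw [this, orderOf_one] at ht
    omega
  have no7 : ∀ y ∈ S1, is7 (κ y) ≠ true := by
    intro y hy h7
    have h1 := h.rel7 h7
    have h2 : orderOf (⟨y, hy⟩ : S1) = 7 := by rw [Subgroup.orderOf_mk]; exact h1
    have h3 := orderOf_dvd_natCard (⟨y, hy⟩ : S1)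
    rw [h2, c1'] at h3
    revert h3; decide
  have hg8 := gen8 (κ t) (h.mem _) (by rw [← h.mul, ← h.mul, ht3, h.one])
  rcases hg8 with h1 | ⟨w, hw, h7⟩
  · exact ht1 ((h.eq_one_iff _).1 h1)
  · rw [← h.kr] at hw
    unfold ws8 at hw
    simp only [← h.mul] at hw
    have htS := t.2
    simp only [List.mem_cons, List.not_mem_nil, or_false] at hw
    rcases hw with rfl | rfl | rfl | rfl | rfl
    · exact no7 _ (S1.mul_mem (S1.mul_mem hrS hrS) htS) h7
    · exact no7 _ (S1.mul_mem (S1.mul_mem (S1.mul_mem (S1.mul_mem hrS hrS) hrS) htS) (S1.mul_mem hrS (S1.mul_mem htS htS))) h7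
    · exact no7 _ (S1.mul_mem (S1.mul_mem hrS hrS) (S1.mul_mem htS htS)) h7
    · exact no7 _ (S1.mul_mem (S1.mul_mem (S1.mul_mem (S1.mul_mem hrS hrS) hrS) htS) (S1.mul_mem hrS htS)) h7
    · exact no7 _ (S1.mul_mem (S1.mul_mem (S1.mul_mem (S1.mul_mem hrS hrS) hrS) (S1.mul_mem htS htS)) (S1.mul_mem hrS (S1.mul_mem htS htS))) h7

theorem b3 (h : Kap κ c0 c1 c2) {b : X} (hb : b = c1 * c0 * c1 * c0 * c2 * c1) : b * (b * b) = 1 := by
  apply h.inj
  rw [h.mul, h.mul, hb, h.kb, h.one]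
  exact ordB.2.2.1

theorem sub24 [Finite X] (h : Kap κ c0 c1 c2) (hX : Nat.card X = 336) (hr : (c0 * c1 * c2) ^ 8 = 1) (S : Subgroup X)
    (hS : Nat.card S = 24) : ∃ x : X, ∀ y, x * y * x⁻¹ ∈ S ↔ κ y ∈ LB := by
  obtain ⟨g, hg, -⟩ := exists_conj hX hr S (by rw [hS]; norm_num)
  set S1 := cj S g with hS1
  have c1' : Nat.card S1 = 24 := by rw [hS1, card_cj, hS]
  have f3 := Fact.mk Nat.prime_three
  obtain ⟨t, ht⟩ := exists_prime_orderOf_dvd_card' 3 (show 3 ∣ Nat.card S1 by rw [c1']; norm_num)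
  have ht3 : (t : X) * ((t : X) * t) = 1 := by
    have h1 := pow_orderOf_eq_one t
    rw [ht] at h1
    have h2 := congrArg (fun z : S1 => (z : X)) h1
    simp only [Subgroup.coe_pow, Subgroup.coe_one] at h2
    rw [← h2]; simp only [pow_succ, pow_zero, one_mul, mul_assoc]
  have ht1 : (t : X) ≠ 1 := by
    intro hh
    have : t = 1 := Subtype.ext hh
    rw [this, orderOf_one] at ht
    omega
  have no7 : ∀ y ∈ S1, is7 (κ y) ≠ true := by
    intro y hy h7
    have h1 := h.rel7 h7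
    have h2 : orderOf (⟨y, hy⟩ : S1) = 7 := by rw [Subgroup.orderOf_mk]; exact h1
    have h3 := orderOf_dvd_natCard (⟨y, hy⟩ : S1)
    rw [h2, c1'] at h3
    revert h3; decide
  have htS := t.2
  set f := (c0 * c1 * c2) * (c0 * c1 * c2) with hf
  set a := c0 * c2 with ha
  set b := c1 * c0 * c1 * c0 * c2 * c1 with hb
  have kf : κ f = cf := h.kf
  rcases gen3 (κ t) (h.mem _) (by rw [← h.mul, ← h.mul, ht3, h.one]) with h1 | ⟨w, hw, h7⟩ | ⟨x, hx, hx2⟩
  · exact absurd ((h.eq_one_iff _).1 h1) ht1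
  · exfalso
    rw [← kf] at hw
    unfold ws3 at hw
    simp only [← h.mul] at hw
    simp only [List.mem_cons, List.not_mem_nil, or_false] at hw
    rcases hw with rfl | rfl
    · exact no7 _ (S1.mul_mem (S1.mul_mem (S1.mul_mem hg hg) htS) (S1.mul_mem hg (S1.mul_mem htS htS))) h7
    · exact no7 _ (S1.mul_mem (S1.mul_mem hg hg) htS) h7
  · obtain ⟨hxL, hxf⟩ := subX x hx
    obtain ⟨x', rfl⟩ := h.surj x hxL
    have e1 : x' * (a * b) = f * x' := by
      apply h.inj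
      rw [h.mul x' (a * b), h.mul a b, h.mul f x', h.ka, h.kb, kf]
      exact hxf
    have b3 : b * (b * b) = 1 := h.b3 hb
    have e2 : x' * b * x'⁻¹ ∈ S1 := by
      rcases hx2 with h2 | h2
      · have : x' * b = t * x' := by
          apply h.inj
          rw [h.mul x' b, h.mul (t : X) x', h.kb]; exact h2
        rw [this, mul_assoc, mul_inv_cancel, mul_one]; exact htS
      · have h3 : x' * (b * b) = t * x' := by
          apply h.inj
          rw [h.mul x' (b * b), h.mul b b, h.mul (t : X) x', h.kb]; exact h2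
        have h4 : b = (b * b)⁻¹ := eq_inv_of_mul_eq_one_left b3
        have h5 : x' * b * x'⁻¹ = (t : X)⁻¹ := by
          have h6 : (t : X) = x' * (b * b) * x'⁻¹ := by rw [h3]; group
          rw [h6]
          nth_rewrite 1 [h4]
          group
        rw [h5]; exact S1.inv_mem htS
    have e3 : x' * a * x'⁻¹ ∈ S1 := by
      have : x' * a * x'⁻¹ = f * (x' * b * x'⁻¹)⁻¹ := by
        have h6 : f = x' * (a * b) * x'⁻¹ := by rw [e1]; group
        rw [h6]; group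
      rw [this]; exact S1.mul_mem hg (S1.inv_mem e2)
    have h7 := h.mem_iff (cj S1 x'⁻¹) (by rw [card_cj, c1']) (by rw [mem_cj, inv_inv]; exact e3)
      (by rw [mem_cj, inv_inv]; exact e2)
    refine ⟨g⁻¹ * x', fun y => ?_⟩
    rw [← h7 y, mem_cj, inv_inv, hS1, mem_cj]
    have : g⁻¹ * x' * y * (g⁻¹ * x')⁻¹ = g⁻¹ * (x' * y * x'⁻¹) * g := by group
    rw [this]

theorem fix (h : Kap κ c0 c1 c2) {a b : X} (ha : a = c0 * c2) (hb : b = c1 * c0 * c1 * c0 * c2 * c1) {x : X}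
    (h1 : κ (x⁻¹ * a * x) ∈ LB) (h2 : κ (x⁻¹ * (a * b * b * a * b) * x) ∈ LB) : κ x ∈ LB ∨ κ (c0 * x) ∈ LB := by
  have h3 := fixK (κ x) (h.mem x) ⟨_, h1, by rw [← h.ka, ← ha, ← h.mul, ← h.mul]; congr 1; group⟩
    ⟨_, h2, by rw [← h.kv ha hb, ← h.mul, ← h.mul]; congr 1; group⟩
  rw [← h.e0, ← h.mul] at h3
  exact h3

theorem cent (h : Kap κ c0 c1 c2) {a b : X} (ha : a = c0 * c2) (hb : b = c1 * c0 * c1 * c0 * c2 * c1) {x : X}
    (hx : κ x ∈ LB) (h1 : x * a = a * x) (h2 : x * (a * b * b * a * b) = (a * b * b * a * b) * x) : x = 1 := by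
  rw [← h.eq_one_iff]
  apply centK (κ x) hx
  · rw [← h.ka, ← ha, ← h.mul, ← h.mul, h1]
  · rw [← h.kv ha hb, ← h.mul, ← h.mul, h2]

theorem c0v (h : Kap κ c0 c1 c2) {a b : X} (ha : a = c0 * c2) (hb : b = c1 * c0 * c1 * c0 * c2 * c1) :
    (a * b * b * a * b) * c0 = c0 * (a * b * b * a * b) := by
  apply h.inj
  rw [h.mul (a * b * b * a * b) c0, h.mul c0 (a * b * b * a * b), h.kv ha hb, h.e0]
  exact comm0

theorem c0a (h : Kap κ c0 c1 c2) {a : X} (ha : a = c0 * c2) : a * c0 = c0 * a := by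
  apply h.inj
  rw [h.mul, h.mul, ha, h.ka, h.e0]
  exact comm0a

theorem c0n (h : Kap κ c0 c1 c2) : κ c0 ∉ LB := by rw [h.e0]; exact c0B

/-- conjugation data -/
theorem aut (h : Kap κ c0 c1 c2) {a b : X} (ha : a = c0 * c2) (hb : b = c1 * c0 * c1 * c0 * c2 * c1) {a' b' : X}
    (ha' : κ a' ∈ LB) (hb' : κ b' ∈ LB) (h1 : a' * a' = 1) (h2 : a' ≠ 1) (h3 : b' * (b' * b') = 1)
    (h4 : b' ≠ 1) (h5 : (a' * b') * (a' * b') * ((a' * b') * (a' * b')) = 1) (h6 : (a' * b') * (a' * b') ≠ 1) :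
    ∃ s, κ s ∈ LB ∧ s * a = a' * s ∧ s * b = b' * s := by
  have h7 := autB (κ a') ha' (κ b') hb' (by rw [← h.mul, h1, h.one]) (by rw [ne_eq, h.eq_one_iff]; exact h2)
    (by rw [← h.mul, ← h.mul, h3, h.one]) (by rw [ne_eq, h.eq_one_iff]; exact h4)
    (by rw [← h.mul, ← h.mul, ← h.mul, h5, h.one]) (by rw [← h.mul, ← h.mul, ne_eq, h.eq_one_iff]; exact h6)
  obtain ⟨s, hs, e1, e2⟩ := h7
  obtain ⟨s', rfl⟩ := h.surj s (subB s hs)
  refine ⟨s', hs, ?_, ?_⟩
  · apply h.inj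
    rw [h.mul, h.mul, ha, h.ka]; exact e1
  · apply h.inj
    rw [h.mul, h.mul, hb, h.kb]; exact e2

theorem ords (h : Kap κ c0 c1 c2) {a b : X} (ha : a = c0 * c2) (hb : b = c1 * c0 * c1 * c0 * c2 * c1) :
    a * a = 1 ∧ a ≠ 1 ∧ b * (b * b) = 1 ∧ b ≠ 1 ∧ (a * b) * (a * b) * ((a * b) * (a * b)) = 1 ∧
      (a * b) * (a * b) ≠ 1 := by
  have h1 := ordB
  rw [← h.ka, ← h.kb, ← ha, ← hb] at h1
  simp only [← h.mul] at h1
  obtain ⟨e1, e2, e3, e4, e5, e6⟩ := h1
  rw [ne_eq, h.eq_one_iff] at e2 e4 e6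
  rw [h.eq_one_iff] at e1 e3 e5
  exact ⟨e1, e2, e3, e4, e5, e6⟩

end Kap

end Cfsg.Agent.Lib.GT27XC
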