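import Cfsg.Agent.Lib.ClUnitary

/-!
Elements of `GU_n(q)` whose image under a field automorphism of odd order is a scalar multiple (helper48).
-/

set_option autoImplicit false

namespace Cfsg.Agent.Lib.GUField

open Cfsg Cfsg.Agent.Lib.HermMat Cfsg.Agent.Lib.ClUnitary

section mem

variable {F : Type*} [Field F] [Fintype F] {q n : ℕ}

theorem mem_GU_iff (hF : Fintype.card F = q ^ 2) (g : GL (Fin n) F) :
    g ∈ GU n F q ↔ ∀ i j, ∑ k, (g : Matrix (Fin n) (Fin n) F) k i * ((g : Matrix (Fin n) (Fin n) F) k j) ^ q = if i = j then 1 else 0 := by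
  have hq : q ≠ 0 := by have := two_le_q hF; omega
  constructor
  · intro h i j
    have h1 : hermForm n F q ((g : Matrix (Fin n) (Fin n) F).mulVec (Pi.single i 1)) ((g : Matrix (Fin n) (Fin n) F).mulVec (Pi.single j 1)) =
        hermForm n F q (Pi.single i 1) (Pi.single j 1) := h _ _
    rw [hermForm_def] at h1
    simp only [Matrix.mulVec_single_one, Matrix.col_apply] at h1
    rw [h1, hermForm_def]
    rw [Finset.sum_eq_single i]
    · rw [Pi.single_eq_same, one_mul]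
      by_cases hij : i = j
      · rw [if_pos hij, hij, Pi.single_eq_same, one_pow]
      · rw [if_neg hij, Pi.single_eq_of_ne hij, zero_pow hq]
    · intro b _ hb
      rw [Pi.single_eq_of_ne hb, zero_mul]
    · intro h; exact absurd (Finset.mem_univ _) h
  · intro h u v
    change hermForm n F q ((g : Matrix (Fin n) (Fin n) F).mulVec u) ((g : Matrix (Fin n) (Fin n) F).mulVec v) = hermForm n F q u v
    rw [hermForm_def, hermForm_def]
    have e1 : ∀ k, (g : Matrix (Fin n) (Fin n) F).mulVec u k * ((g : Matrix (Fin n) (Fin n) F).mulVec v k) ^ q =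
        ∑ i, ∑ j, (u i * (v j) ^ q) * ((g : Matrix (Fin n) (Fin n) F) k i * ((g : Matrix (Fin n) (Fin n) F) k j) ^ q) := by
      intro k
      rw [Matrix.mulVec, Matrix.mulVec, dotProduct, dotProduct, sum_pow_q hF, Finset.sum_mul_sum]
      refine Finset.sum_congr rfl fun i _ => Finset.sum_congr rfl fun j _ => ?_
      rw [mul_pow]; ring
    rw [Finset.sum_congr rfl (fun k _ => e1 k), Finset.sum_comm]
    refine Finset.sum_congr rfl fun i _ => ?_
    rw [Finset.sum_comm]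
    have e2 : ∀ j, ∑ k, (u i * (v j) ^ q) * ((g : Matrix (Fin n) (Fin n) F) k i * ((g : Matrix (Fin n) (Fin n) F) k j) ^ q) =
        if i = j then u i * (v j) ^ q else 0 := by
      intro j
      rw [← Finset.mul_sum, h i j, mul_ite, mul_one, mul_zero]
    rw [Finset.sum_congr rfl (fun j _ => e2 j), Finset.sum_ite_eq Finset.univ i, if_pos (Finset.mem_univ _)]

end mem

variable {K : Type*} [Field K] [Fintype K] {q₀ q r n : ℕ}

variable (σ : K ≃+* K)

/-- the fixed field of `σ`. -/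
def K0 : Subfield K where
  carrier := {x | σ x = x}
  mul_mem' := fun {a b} ha hb => by simp only [Set.mem_ofPred_eq] at *; rw [map_mul, ha, hb]
  one_mem' := map_one σ
  add_mem' := fun {a b} ha hb => by simp only [Set.mem_ofPred_eq] at *; rw [map_add, ha, hb]
  zero_mem' := map_zero σ
  neg_mem' := fun {a} ha => by simp only [Set.mem_ofPred_eq] at *; rw [map_neg, ha]
  inv_mem' := fun a ha => by simp only [Set.mem_ofPred_eq] at *; rw [map_inv₀, ha]

theorem mem_K0 {x : K} : x ∈ K0 σ ↔ σ x = x := Iff.rfl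

theorem card_K0 (hr : r.Prime) (hq : q = q₀ ^ r) (hK : Fintype.card K = q ^ 2) (hσ : orderOf σ = r) :
    Nat.card (K0 σ) = q₀ ^ 2 := by
  classical
  have hfin : Finite (K ≃+* K) := Finite.of_injective (fun e => (e : K → K)) DFunLike.coe_injective
  have h1 : Module.finrank (FixedPoints.subfield (Subgroup.zpowers σ) K) K = r := by
    have := Fintype.ofFinite (Subgroup.zpowers σ)
    rw [FixedPoints.finrank_eq_card, ← Nat.card_eq_fintype_card, Nat.card_zpowers, hσ]
  have h2 : (FixedPoints.subfield (Subgroup.zpowers σ) K : Subfield K) = K0 σ := by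
    ext x
    rw [mem_K0]
    constructor
    · intro h
      exact h ⟨σ, Subgroup.mem_zpowers σ⟩
    · rintro h ⟨τ, hτ⟩
      change τ x = x
      have h3 : Subgroup.zpowers σ ≤ MulAction.stabilizer (K ≃+* K) x := by
        rw [Subgroup.zpowers_le]
        exact h
      exact h3 hτ
  rw [← h2]
  have h3 := Module.card_eq_pow_finrank (K := FixedPoints.subfield (Subgroup.zpowers σ) K) (V := K)
  rw [h1, Fintype.card_eq_nat_card, Fintype.card_eq_nat_card] at h3
  rw [Fintype.card_eq_nat_card, hq] at hK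
  rw [hK, ← pow_mul, mul_comm r 2, pow_mul] at h3
  exact (Nat.pow_left_injective hr.ne_zero h3).symm

theorem pow_q_of_mem (hr : r.Prime) (hr2 : r ≠ 2) (hq : q = q₀ ^ r) (hK : Fintype.card K = q ^ 2) (hσ : orderOf σ = r)
    {x : K} (hx : x ∈ K0 σ) : x ^ q = x ^ q₀ := by
  have hc := card_K0 σ hr hq hK hσ
  have := Fintype.ofFinite (K0 σ)
  have h1 : x ^ q₀ ^ 2 = x := by
    have h2 := FiniteField.pow_card (⟨x, hx⟩ : K0 σ)
    rw [Fintype.card_eq_nat_card, hc] at h2
    exact congrArg Subtype.val h2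
  obtain ⟨j, hj⟩ := hr.odd_of_ne_two hr2
  have h3 : ∀ j : ℕ, x ^ q₀ ^ (2 * j) = x := by
    intro j
    induction j with
    | zero => simp
    | succ j ih => rw [mul_add, mul_one, pow_add, pow_mul, ih, h1]
  rw [hq, hj, pow_succ, pow_mul, h3]

/-- scalar matrices -/
noncomputable def scal (n : ℕ) : Kˣ →* GL (Fin n) K := Units.map (Matrix.scalar (Fin n)).toMonoidHom

theorem scal_mul_apply (b : Kˣ) (g : GL (Fin n) K) (i j : Fin n) :
    ((scal n b * g : GL (Fin n) K) : Matrix (Fin n) (Fin n) K) i j = (b : K) * (g : Matrix (Fin n) (Fin n) K) i j := by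
  change (Matrix.scalar (Fin n) (b : K) * (g : Matrix (Fin n) (Fin n) K)) i j = _
  rw [Matrix.scalar_apply, Matrix.diagonal_mul]

theorem scal_apply (b : Kˣ) (i j : Fin n) :
    ((scal n b : GL (Fin n) K) : Matrix (Fin n) (Fin n) K) i j = if i = j then (b : K) else 0 := by
  change (Matrix.scalar (Fin n) (b : K)) i j = _
  rw [Matrix.scalar_apply, Matrix.diagonal_apply]

theorem scal_comm (b : Kˣ) (g : GL (Fin n) K) : scal n b * g = g * scal n b := by
  apply Units.ext
  ext i j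
  rw [scal_mul_apply]
  change _ = ((g : Matrix (Fin n) (Fin n) K) * Matrix.scalar (Fin n) (b : K)) i j
  rw [Matrix.scalar_apply, Matrix.mul_diagonal, mul_comm]

theorem scal_mem_GU (hK : Fintype.card K = q ^ 2) {b : Kˣ} (hb : b ^ (q + 1) = 1) : scal n b ∈ GU n K q := by
  have hq : q ≠ 0 := by have := two_le_q hK; omega
  have hb' : (b : K) ^ (q + 1) = 1 := by rw [← Units.val_pow_eq_pow_val, hb, Units.val_one]
  rw [mem_GU_iff hK]
  intro i j
  rw [Finset.sum_eq_single i]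
  · rw [scal_apply, scal_apply, if_pos rfl]
    by_cases hij : i = j
    · rw [if_pos hij, if_pos hij, ← pow_succ', hb']
    · rw [if_neg hij, if_neg hij, zero_pow hq, mul_zero]
  · intro k _ hk
    rw [scal_apply, if_neg hk, zero_mul]
  · intro h; exact absurd (Finset.mem_univ _) h

/-- `GU_n(q₀)` inside `GL_n(K)`. -/
noncomputable def GUs (n q₀ : ℕ) : Subgroup (GL (Fin n) K) :=
  (GU n (K0 σ) q₀).map (Matrix.GeneralLinearGroup.map (K0 σ).subtype)

theorem mem_GUs (hr : r.Prime) (hr2 : r ≠ 2) (hq : q = q₀ ^ r) (hK : Fintype.card K = q ^ 2) (hσ : orderOf σ = r)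
    (g : GL (Fin n) K) : g ∈ GUs σ n q₀ ↔ g ∈ GU n K q ∧ ∀ i j, σ ((g : Matrix (Fin n) (Fin n) K) i j) = (g : Matrix (Fin n) (Fin n) K) i j := by
  have hc := card_K0 σ hr hq hK hσ
  have := Fintype.ofFinite (K0 σ)
  have hc' : Fintype.card (K0 σ) = q₀ ^ 2 := by rw [Fintype.card_eq_nat_card, hc]
  have hent : ∀ (h : GL (Fin n) (K0 σ)) (i j : Fin n), ((Matrix.GeneralLinearGroup.map (K0 σ).subtype h : GL (Fin n) K) : Matrix (Fin n) (Fin n) K) i j =
      (((h : Matrix (Fin n) (Fin n) (K0 σ)) i j : K0 σ) : K) := fun h i j => rfl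
  have key : ∀ h : GL (Fin n) (K0 σ), h ∈ GU n (K0 σ) q₀ ↔ Matrix.GeneralLinearGroup.map (K0 σ).subtype h ∈ GU n K q := by
    intro h
    rw [mem_GU_iff hc', mem_GU_iff hK]
    refine forall_congr' fun i => forall_congr' fun j => ?_
    rw [← (K0 σ).subtype_injective.eq_iff]
    rw [map_sum]
    have e1 : ∀ k, (K0 σ).subtype ((h : Matrix (Fin n) (Fin n) (K0 σ)) k i * ((h : Matrix (Fin n) (Fin n) (K0 σ)) k j) ^ q₀) =
        ((Matrix.GeneralLinearGroup.map (K0 σ).subtype h : GL (Fin n) K) : Matrix (Fin n) (Fin n) K) k i *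
          (((Matrix.GeneralLinearGroup.map (K0 σ).subtype h : GL (Fin n) K) : Matrix (Fin n) (Fin n) K) k j) ^ q := by
      intro k
      rw [hent, hent, map_mul, map_pow, pow_q_of_mem σ hr hr2 hq hK hσ (Subtype.mem _)]
      rfl
    rw [Finset.sum_congr rfl (fun k _ => e1 k)]
    by_cases hij : i = j
    · rw [if_pos hij, if_pos hij, map_one]
    · rw [if_neg hij, if_neg hij, map_zero]
  constructor
  · rintro ⟨h, hh, rfl⟩
    exact ⟨(key h).mp hh, fun i j => by rw [hent]; exact ((h : Matrix (Fin n) (Fin n) (K0 σ)) i j).2⟩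
  · rintro ⟨h1, h2⟩
    let M : Matrix (Fin n) (Fin n) (K0 σ) := Matrix.of fun i j => ⟨(g : Matrix (Fin n) (Fin n) K) i j, h2 i j⟩
    have hM : (K0 σ).subtype.mapMatrix M = (g : Matrix (Fin n) (Fin n) K) := by
      ext i j; rfl
    have hdet : M.det ≠ 0 := by
      intro h
      have h3 := congrArg (K0 σ).subtype h
      rw [RingHom.map_det, hM, map_zero] at h3
      exact (Matrix.isUnits_det_units g).ne_zero h3
    refine ⟨Matrix.GeneralLinearGroup.mkOfDetNeZero M hdet, ?_, ?_⟩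
    · rw [SetLike.mem_coe, key]
      convert h1
      apply Units.ext
      exact hM
    · apply Units.ext
      exact hM

theorem card_GUs (hr : r.Prime) (hq : q = q₀ ^ r) (hK : Fintype.card K = q ^ 2) (hσ : orderOf σ = r) :
    Nat.card (GUs σ n q₀) = q₀ ^ (n * (n - 1) / 2) * ∏ i ∈ Finset.range n, (if Even i then q₀ ^ (i + 1) + 1 else q₀ ^ (i + 1) - 1) := by
  have hc := card_K0 σ hr hq hK hσ
  have := Fintype.ofFinite (K0 σ)
  have hc' : Fintype.card (K0 σ) = q₀ ^ 2 := by rw [Fintype.card_eq_nat_card, hc]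
  rw [← card_GU hc']
  apply Subgroup.card_map_of_injective
  intro a b h
  apply Units.ext
  ext i j
  have := congrArg (fun x : GL (Fin n) K => (x : Matrix (Fin n) (Fin n) K) i j) h
  exact this

/-- norm one scalars -/
def U1 (K : Type*) [Field K] (q : ℕ) : Subgroup Kˣ := (powMonoidHom (q + 1) : Kˣ →* Kˣ).ker

theorem mem_U1 {b : Kˣ} : b ∈ U1 K q ↔ b ^ (q + 1) = 1 := Iff.rfl

theorem card_U1 (hK : Fintype.card K = q ^ 2) : Nat.card (U1 K q) = q + 1 := by
  rw [← card_norm_one_units hK]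
  exact Nat.card_congr (Equiv.subtypeEquivRight fun x => Iff.rfl)

/-- the product map. -/
noncomputable def ff (n q₀ q : ℕ) : (U1 K q) × (GUs σ n q₀) →* GL (Fin n) K :=
  MonoidHom.mk' (fun x => scal n (x.1 : Kˣ) * (x.2 : GL (Fin n) K)) (by
    rintro ⟨a, g⟩ ⟨b, h⟩
    change scal n ((a * b : U1 K q) : Kˣ) * ((g * h : GUs σ n q₀) : GL (Fin n) K) = _
    rw [Subgroup.coe_mul, Subgroup.coe_mul, map_mul]
    calc scal n (a : Kˣ) * scal n (b : Kˣ) * (↑g * ↑h) = scal n (a : Kˣ) * (scal n (b : Kˣ) * ↑g) * ↑h := by group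
      _ = scal n (a : Kˣ) * (↑g * scal n (b : Kˣ)) * ↑h := by rw [scal_comm (b : Kˣ) (g : GL (Fin n) K)]
      _ = _ := by group)

theorem ff_apply (x : (U1 K q) × (GUs σ n q₀)) : ff σ n q₀ q x = scal n (x.1 : Kˣ) * (x.2 : GL (Fin n) K) := rfl

theorem card_ker (hr : r.Prime) (hr2 : r ≠ 2) (hn : 1 ≤ n) (hq : q = q₀ ^ r) (hK : Fintype.card K = q ^ 2) (hσ : orderOf σ = r) :
    Nat.card (ff σ n q₀ q).ker = q₀ + 1 := by
  have hc := card_K0 σ hr hq hK hσ
  have := Fintype.ofFinite (K0 σ)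
  have hc' : Fintype.card (K0 σ) = q₀ ^ 2 := by rw [Fintype.card_eq_nat_card, hc]
  rw [← card_norm_one_units hc']
  symm
  have hin : ∀ x : (K0 σ)ˣ, x ^ (q₀ + 1) = 1 → Units.map (K0 σ).subtype.toMonoidHom x ∈ U1 K q := by
    intro x hx
    rw [mem_U1]
    apply Units.ext
    rw [Units.val_pow_eq_pow_val, Units.coe_map, Units.val_one]
    change ((x : K0 σ) : K) ^ (q + 1) = 1
    rw [pow_succ, pow_q_of_mem σ hr hr2 hq hK hσ (Subtype.mem _), ← pow_succ]
    have := congrArg (fun y : (K0 σ)ˣ => ((y : K0 σ) : K)) hx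
    simpa using this
  have hin2 : ∀ x : (K0 σ)ˣ, x ^ (q₀ + 1) = 1 → scal n (Units.map (K0 σ).subtype.toMonoidHom x)⁻¹ ∈ GUs σ n q₀ := by
    intro x hx
    rw [← map_inv, mem_GUs σ hr hr2 hq hK hσ]
    refine ⟨scal_mem_GU hK ?_, ?_⟩
    · have := hin x⁻¹ (by rw [inv_pow, hx, inv_one])
      exact this
    · intro i j
      rw [scal_apply]
      by_cases hij : i = j
      · rw [if_pos hij]
        exact ((x⁻¹ : (K0 σ)ˣ) : K0 σ).2
      · rw [if_neg hij, map_zero]
  let e : {x : (K0 σ)ˣ // x ^ (q₀ + 1) = 1} → (ff σ n q₀ q).ker := fun x =>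
    ⟨(⟨_, hin x.1 x.2⟩, ⟨_, hin2 x.1 x.2⟩), by
      rw [MonoidHom.mem_ker, ff_apply]
      change scal n _ * scal n _ = 1
      rw [← map_mul, mul_inv_cancel, map_one]⟩
  apply Nat.card_eq_of_bijective e
  constructor
  · intro x y hxy
    have h1 := congrArg (fun z : (ff σ n q₀ q).ker => ((z.1.1 : Kˣ) : K)) hxy
    apply Subtype.ext
    apply Units.ext
    exact Subtype.ext h1
  · rintro ⟨⟨⟨b, hb⟩, ⟨h, hh⟩⟩, hk⟩
    rw [MonoidHom.mem_ker, ff_apply] at hk
    change scal n b * h = 1 at hk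
    have hh' : h = scal n b⁻¹ := by rw [map_inv]; exact (eq_inv_of_mul_eq_one_right hk)
    subst hh'
    have h1 := ((mem_GUs σ hr hr2 hq hK hσ _).mp hh).2 ⟨0, hn⟩ ⟨0, hn⟩
    rw [scal_apply, if_pos rfl] at h1
    have hbK : σ (b : K) = b := by
      rw [Units.val_inv_eq_inv_val, map_inv₀] at h1
      exact inv_injective h1
    let x : (K0 σ)ˣ := Units.mk0 ⟨(b : K), hbK⟩ (fun h => b.ne_zero (congrArg Subtype.val h))
    have hxb : Units.map (K0 σ).subtype.toMonoidHom x = b := Units.ext rfl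
    have hx1 : x ^ (q₀ + 1) = 1 := by
      apply Units.ext
      apply Subtype.ext
      rw [Units.val_pow_eq_pow_val]
      change (b : K) ^ (q₀ + 1) = 1
      rw [pow_succ, ← pow_q_of_mem σ hr hr2 hq hK hσ hbK, ← pow_succ, ← Units.val_pow_eq_pow_val, mem_U1.mp hb, Units.val_one]
    refine ⟨⟨x, hx1⟩, ?_⟩
    apply Subtype.ext
    apply Prod.ext
    · exact Subtype.ext hxb
    · apply Subtype.ext
      change scal n _ = scal n _
      rw [hxb]

theorem mem_range (hr : r.Prime) (hr2 : r ≠ 2) (hn : 1 ≤ n) (hq : q = q₀ ^ r) (hK : Fintype.card K = q ^ 2) (hσ : orderOf σ = r)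
    (g : GL (Fin n) K) : g ∈ (ff σ n q₀ q).range ↔ g ∈ GU n K q ∧ ∃ c : K, c ≠ 0 ∧
      ((g : GL (Fin n) K) : Matrix (Fin n) (Fin n) K).map σ = c • ((g : GL (Fin n) K) : Matrix (Fin n) (Fin n) K) := by
  have hc := card_K0 σ hr hq hK hσ
  have := Fintype.ofFinite (K0 σ)
  have hc' : Fintype.card (K0 σ) = q₀ ^ 2 := by rw [Fintype.card_eq_nat_card, hc]
  constructor
  · rintro ⟨⟨⟨b, hb⟩, ⟨h, hh⟩⟩, rfl⟩
    rw [ff_apply]
    obtain ⟨h1, h2⟩ := (mem_GUs σ hr hr2 hq hK hσ _).mp hh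
    refine ⟨mul_mem (scal_mem_GU hK hb) h1, σ (b : K) * (b : K)⁻¹, mul_ne_zero ?_ (inv_ne_zero b.ne_zero), ?_⟩
    · exact fun h => b.ne_zero (σ.injective (h.trans (map_zero σ).symm))
    · ext i j
      rw [Matrix.map_apply, Matrix.smul_apply]
      change σ (((scal n b * h : GL (Fin n) K) : Matrix (Fin n) (Fin n) K) i j) = _ • (((scal n b * h : GL (Fin n) K) : Matrix (Fin n) (Fin n) K) i j)
      rw [scal_mul_apply, map_mul, h2, smul_eq_mul]
      field_simp [b.ne_zero]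
  · rintro ⟨hg, c, hc0, hcg⟩
    have hent : ∀ i j, σ ((g : Matrix (Fin n) (Fin n) K) i j) = c * (g : Matrix (Fin n) (Fin n) K) i j := by
      intro i j
      have := congrFun (congrFun hcg i) j
      rwa [Matrix.map_apply, Matrix.smul_apply, smul_eq_mul] at this
    have hgu := (mem_GU_iff hK g).mp hg
    have hc1 : c ^ (q + 1) = 1 := by
      have h1 := hgu ⟨0, hn⟩ ⟨0, hn⟩
      rw [if_pos rfl] at h1
      have h2 := congrArg σ h1
      rw [map_sum, map_one] at h2
      have e1 : ∀ k, σ ((g : Matrix (Fin n) (Fin n) K) k ⟨0, hn⟩ * ((g : Matrix (Fin n) (Fin n) K) k ⟨0, hn⟩) ^ q) =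
          c ^ (q + 1) * ((g : Matrix (Fin n) (Fin n) K) k ⟨0, hn⟩ * ((g : Matrix (Fin n) (Fin n) K) k ⟨0, hn⟩) ^ q) := by
        intro k
        rw [map_mul, map_pow, hent]; ring
      rw [Finset.sum_congr rfl (fun k _ => e1 k), ← Finset.mul_sum, h1, mul_one] at h2
      exact h2
    obtain ⟨k, hk⟩ : ∃ k, (g : Matrix (Fin n) (Fin n) K) k ⟨0, hn⟩ ≠ 0 := by
      by_contra hcon
      push Not at hcon
      have h1 := hgu ⟨0, hn⟩ ⟨0, hn⟩
      rw [if_pos rfl, Finset.sum_eq_zero (fun k _ => by rw [hcon k, zero_mul])] at h1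
      exact zero_ne_one h1
    set a := (g : Matrix (Fin n) (Fin n) K) k ⟨0, hn⟩ with ha
    have hσa : σ a = c * a := hent _ _
    set m := a ^ (q + 1) with hm
    have hm0 : m ≠ 0 := pow_ne_zero _ hk
    have hmσ : σ m = m := by rw [hm, map_pow, hσa, mul_pow, hc1, one_mul]
    have hmq : m ^ q₀ = m := by
      rw [← pow_q_of_mem σ hr hr2 hq hK hσ hmσ, hm, ← pow_mul]
      have h1 : a ^ (q ^ 2) = a := by rw [← hK]; exact FiniteField.pow_card a
      calc a ^ ((q + 1) * q) = a ^ (q ^ 2) * a ^ q := by rw [← pow_add]; congr 1; ring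
        _ = a ^ (q + 1) := by rw [h1, pow_succ']
    obtain ⟨t, ht⟩ := exists_norm hc' (c := (⟨m, hmσ⟩ : K0 σ)⁻¹) (by
      rw [inv_pow]
      congr 1
      exact Subtype.ext hmq)
    have ht' : (t : K) ^ (q₀ + 1) = m⁻¹ := congrArg Subtype.val ht
    have ht'' : (t : K) ^ (q + 1) = m⁻¹ := by
      rw [← ht', pow_succ, pow_q_of_mem σ hr hr2 hq hK hσ t.2, ← pow_succ]
    have ht0 : (t : K) ≠ 0 := by
      intro h
      rw [h, zero_pow (by omega)] at ht'
      exact (inv_ne_zero hm0) ht'.symm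
    set b : Kˣ := Units.mk0 ((t : K) * a) (mul_ne_zero ht0 hk) with hb
    have hb1 : b ^ (q + 1) = 1 := by
      apply Units.ext
      rw [Units.val_pow_eq_pow_val, Units.val_mk0, mul_pow, ht'', ← hm, inv_mul_cancel₀ hm0, Units.val_one]
    have hbσ : σ (b : K) = c * b := by
      rw [Units.val_mk0, map_mul, hσa, show σ (t : K) = t from t.2]; ring
    have hh : scal n b⁻¹ * g ∈ GUs σ n q₀ := by
      rw [mem_GUs σ hr hr2 hq hK hσ]
      refine ⟨mul_mem (scal_mem_GU hK (by rw [inv_pow, hb1, inv_one])) hg, ?_⟩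
      intro i j
      rw [scal_mul_apply, map_mul, hent, Units.val_inv_eq_inv_val, map_inv₀, hbσ]
      field_simp [hc0, b.ne_zero]
    refine ⟨(⟨b, hb1⟩, ⟨_, hh⟩), ?_⟩
    rw [ff_apply]
    change scal n b * (scal n b⁻¹ * g) = g
    rw [← mul_assoc, ← map_mul, mul_inv_cancel, map_one, one_mul]

theorem card_range (hr : r.Prime) (hr2 : r ≠ 2) (hn : 1 ≤ n) (hq : q = q₀ ^ r) (hK : Fintype.card K = q ^ 2) (hσ : orderOf σ = r) :
    Nat.card (ff σ n q₀ q).range = (q + 1) / (q₀ + 1) *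
      (q₀ ^ (n * (n - 1) / 2) * ∏ i ∈ Finset.range n, (if Even i then q₀ ^ (i + 1) + 1 else q₀ ^ (i + 1) - 1)) := by
  have h1 := Subgroup.card_eq_card_quotient_mul_card_subgroup (ff σ n q₀ q).ker
  rw [Nat.card_congr (QuotientGroup.quotientKerEquivRange (ff σ n q₀ q)).toEquiv, card_ker σ hr hr2 hn hq hK hσ,
    Nat.card_prod, card_U1 hK, card_GUs σ hr hq hK hσ] at h1
  have h2 : q₀ + 1 ∣ q + 1 := by
    rw [hq]
    have := (hr.odd_of_ne_two hr2).nat_add_dvd_pow_add_pow q₀ 1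
    rwa [one_pow] at this
  obtain ⟨t, ht⟩ := h2
  rw [ht, Nat.mul_div_cancel_left _ (Nat.succ_pos _)]
  rw [ht] at h1
  have h3 : Nat.card (ff σ n q₀ q).range * (q₀ + 1) = (t * (q₀ ^ (n * (n - 1) / 2) * ∏ i ∈ Finset.range n, (if Even i then q₀ ^ (i + 1) + 1 else q₀ ^ (i + 1) - 1))) * (q₀ + 1) := by
    rw [← h1]; ring
  exact Nat.eq_of_mul_eq_mul_right (Nat.succ_pos _) h3

end Cfsg.Agent.Lib.GUField
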