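import Cfsg.Agent.Lib.Garrison

/-!
# Garrison's bound for the nilpotent length (Isaacs 12.20)
-/

set_option autoImplicit false
set_option linter.all false

namespace Cfsg.Agent.Lib.GarrisonB

open Cfsg Subgroup Module Cfsg.Agent.Lib Cfsg.Agent.Lib.CharBasic

universe u

variable {G : Type u} [Group G]

/-- the set of character degrees -/
def cds (G : Type u) [Group G] : Set ℕ := Set.range fun χ : IrrCharacter G => charDegree (χ : G → ℂ)

theorem cds_finite [Finite G] : (cds G).Finite := Set.finite_range _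

theorem cds_quot [Finite G] (N : Subgroup G) [N.Normal] : cds (G ⧸ N) ⊆ cds G := by
  rintro _ ⟨χ, rfl⟩
  refine ⟨⟨_, χ.2.inflate N⟩, ?_⟩
  have h1 := BlockDeg.charDegree_cast (χ.2.inflate N).isCharacter
  have h2 := BlockDeg.charDegree_cast_irr χ
  rw [QuotientGroup.mk_one, ← h2] at h1
  exact_mod_cast h1

theorem lt_of_fitting_ne_top [Finite G] (hsolv : Group.IsSolvable G) (h : fittingSubgroup G ≠ ⊤) :
    (cds (G ⧸ fittingSubgroup G)).ncard < (cds G).ncard := by
  classical
  set F := fittingSubgroup G with hF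
  haveI : Nonempty (IrrCharacter (G ⧸ F)) := ⟨⟨_, isIrrCharacter_one⟩⟩
  obtain ⟨χ, hχ⟩ := Finite.exists_max (fun χ : IrrCharacter (G ⧸ F) => charDegree (χ : G ⧸ F → ℂ))
  have hχi := χ.2.inflate F
  set X : IrrCharacter G := ⟨_, hχi⟩ with hX
  have hdeg : charDegree (X : G → ℂ) = charDegree (χ : G ⧸ F → ℂ) := by
    have h1 := BlockDeg.charDegree_cast_irr X
    have h2 := BlockDeg.charDegree_cast_irr χ
    have h3 : (X : G → ℂ) 1 = (χ : G ⧸ F → ℂ) 1 := rfl
    rw [h3, ← h2] at h1
    exact_mod_cast h1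
  set K := GalConj.K X with hK
  have hKm : ∀ g : G, g ∈ K ↔ (X : G → ℂ) g = (X : G → ℂ) 1 := fun g => GalConj.mem_K
  have hFK : F ≤ K := by
    intro f hf
    rw [hKm]
    show (χ : G ⧸ F → ℂ) (QuotientGroup.mk f) = (χ : G ⧸ F → ℂ) (QuotientGroup.mk 1)
    rw [(QuotientGroup.eq_one_iff f).2 hf]; rfl
  have hex : ∃ ψ : IrrCharacter G, charDegree (X : G → ℂ) < charDegree (ψ : G → ℂ) := by
    by_cases hKF : K = F
    · obtain ⟨ψ, hψ, -⟩ := Garrison.case2 X K hKm hKF inferInstance (by rw [hKF]; exact h)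
      exact ⟨ψ, hψ⟩
    · obtain ⟨ψ, hψ, -⟩ := Garrison.case1 X K hKm (fun h' => hKF (le_antisymm h' hFK))
      exact ⟨ψ, hψ⟩
  obtain ⟨ψ, hψ⟩ := hex
  apply Set.ncard_lt_ncard _ cds_finite
  refine ⟨cds_quot F, fun hcon => ?_⟩
  obtain ⟨θ, hθ⟩ := hcon ⟨ψ, rfl⟩
  have h1 := hχ θ
  simp only at hθ
  rw [hθ, ← hdeg] at h1
  omega

theorem nilp_quot {G' : Type u} [Group G'] (f : G →* G') (A B : Subgroup G')
    [hA : A.Normal] (h : ((A.comap f).subgroupOf (B.comap f)).Normal)
    (hnil : Group.IsNilpotent (B ⧸ A.subgroupOf B)) :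
    Group.IsNilpotent (↥(B.comap f) ⧸ (A.comap f).subgroupOf (B.comap f)) := by
  set φ : B.comap f →* B ⧸ A.subgroupOf B := (QuotientGroup.mk' _).comp (f.subgroupComap B) with hφ
  have hmem : ∀ x : B.comap f, φ x = 1 ↔ x ∈ (A.comap f).subgroupOf (B.comap f) := by
    intro x
    rw [hφ, MonoidHom.comp_apply, QuotientGroup.mk'_apply, QuotientGroup.eq_one_iff]
    rfl
  set ψ := QuotientGroup.lift ((A.comap f).subgroupOf (B.comap f)) φ (fun x hx => (hmem x).2 hx) with hψ
  refine Subgroup.isNilpotent_of_ker_le_center ψ ?_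
  intro q hq
  obtain ⟨x, rfl⟩ := QuotientGroup.mk_surjective q
  have h1 : φ x = 1 := hq
  rw [(QuotientGroup.eq_one_iff x).2 ((hmem x).1 h1)]
  exact Subgroup.one_mem _

theorem chain (n : ℕ) : ∀ (G : Type u) [Group G] [Finite G], Group.IsSolvable G → (cds G).ncard ≤ n →
    ∃ c : ℕ → Subgroup G, c 0 = ⊥ ∧ (∀ i, n ≤ i → c i = ⊤) ∧ Monotone c ∧ (∀ i, (c i).Normal) ∧
      ∀ i, ∀ h : ((c i).subgroupOf (c (i + 1))).Normal,
        Group.IsNilpotent (↥(c (i + 1)) ⧸ (c i).subgroupOf (c (i + 1))) := by
  induction n with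
  | zero =>
    intro G _ _ _ h
    exfalso
    have h1 : (cds G).ncard = 0 := by omega
    rw [Set.ncard_eq_zero cds_finite] at h1
    have : charDegree ((⟨_, isIrrCharacter_one⟩ : IrrCharacter G) : G → ℂ) ∈ cds G := ⟨_, rfl⟩
    rw [h1] at this
    exact this
  | succ n ih =>
    intro G _ _ hsolv hcd
    by_cases hF : fittingSubgroup G = ⊤
    · have hnil : Group.IsNilpotent G := Cores.fittingSubgroup_eq_top_iff.1 hF
      refine ⟨fun i => if i = 0 then ⊥ else ⊤, by simp, ?_, ?_, ?_, ?_⟩
      · intro i hi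
        have : i ≠ 0 := by omega
        simp [this]
      · apply monotone_nat_of_le_succ
        intro i
        simp
      · intro i
        simp only
        split_ifs
        · infer_instance
        · infer_instance
      · intro i h
        have : Group.IsNilpotent ↥(if i + 1 = 0 then (⊥ : Subgroup G) else ⊤) :=
          Cores.isNilpotent_of_le (Group.isNilpotent_top.2 hnil) le_top
        exact Group.nilpotent_of_surjective (QuotientGroup.mk' _) (QuotientGroup.mk'_surjective _)
    · have hlt := lt_of_fitting_ne_top hsolv hF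
      obtain ⟨d, hd0, hdn, hdm, hdN, hdq⟩ := ih (G ⧸ fittingSubgroup G) inferInstance (by omega)
      set F := fittingSubgroup G with hFdef
      set π := QuotientGroup.mk' F with hπ
      have hc1 : (d 0).comap π = F := by
        rw [hd0, MonoidHom.comap_bot, hπ, QuotientGroup.ker_mk']
      refine ⟨fun i => Nat.casesOn i ⊥ (fun j => (d j).comap π), rfl, ?_, ?_, ?_, ?_⟩
      · intro i hi
        obtain ⟨j, rfl⟩ : ∃ j, i = j + 1 := ⟨i - 1, by omega⟩
        show (d j).comap π = ⊤
        rw [hdn j (by omega), Subgroup.comap_top]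
      · apply monotone_nat_of_le_succ
        intro i
        cases i with
        | zero => exact bot_le
        | succ j => exact Subgroup.comap_mono (hdm (Nat.le_succ j))
      · intro i
        cases i with
        | zero => exact inferInstanceAs (⊥ : Subgroup G).Normal
        | succ j => exact (hdN j).comap π
      · intro i
        cases i with
        | zero =>
          intro h
          have : Group.IsNilpotent ↥((d 0).comap π) := by
            rw [hc1]; exact Cores.isNilpotent_fittingSubgroup G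
          exact Group.nilpotent_of_surjective (QuotientGroup.mk' _) (QuotientGroup.mk'_surjective _)
        | succ j =>
          intro h
          haveI := hdN j
          exact nilp_quot π (d j) (d (j + 1)) h (hdq j inferInstance)

end Cfsg.Agent.Lib.GarrisonB
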