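import Cfsg.Agent.Lib.GlaubAutG
import Cfsg.Agent.Lib.Cores

set_option autoImplicit false

/-!
# Automorphisms centralising a Sylow 2-subgroup (Glauberman)  (helper46)
-/
namespace Cfsg.Agent.Lib.GlaubAut

open Subgroup Cfsg Cfsg.Agent.Lib
open scoped commutatorElement
open Cfsg.Agent.Lib.LocBase Cfsg.Agent.Lib.BG08

universe u

variable {G : Type u} [Group G] [Finite G]

/-- `O(G) = 1`, `C` fixes a Sylow 2-subgroup elementwise: 2-elements of `C'` are trivial. -/
theorem eq_one_of_commutator (hO : ∀ N : Subgroup G, N.Normal → Odd (Nat.card N) → N = ⊥) (S : Sylow 2 G)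
    (C : Subgroup (MulAut G)) (hC : ∀ φ ∈ C, ∀ s : G, s ∈ S → φ s = s) (φ : MulAut G) (hφ : φ ∈ ⁅C, C⁆)
    (hφ2 : IsPGroup 2 (zpowers φ)) : φ = 1 := by
  have h2 : Fact (Nat.Prime 2) := ⟨Nat.prime_two⟩
  let X := G ⋊[MonoidHom.id (MulAut G)] MulAut G
  have hX : Finite X := Finite.of_equiv _ SemidirectProduct.equivProd.symm
  let i : G →* X := SemidirectProduct.inl
  let j : MulAut G →* X := SemidirectProduct.inr
  have hi : Function.Injective i := SemidirectProduct.inl_injective
  have hij : ∀ (a : MulAut G) (g : G), j a * i g * (j a)⁻¹ = i (a g) := by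
    intro a g
    have := SemidirectProduct.inl_aut (φ := MonoidHom.id (MulAut G)) a g
    rw [map_inv] at this
    exact this.symm
  have hiK : ∀ g, i g ∈ (⊤ : Subgroup G).map i := fun g => ⟨g, mem_top g, rfl⟩
  set K := (⊤ : Subgroup G).map i with hK
  set P := (S : Subgroup G).map i with hP
  set D := C.map j with hD
  have hsyl : IsSyl 2 P K := by
    refine ⟨Subgroup.map_mono le_top, S.2.map _, ?_⟩
    rw [hP, hK, Subgroup.relIndex_map_map_of_injective _ _ hi]
    rw [Subgroup.relIndex_top_right]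
    exact Sylow.not_dvd_index S
  have hDP : D ≤ centralizer (P : Set X) := by
    rintro _ ⟨a, ha, rfl⟩
    rw [mem_centralizer_iff]
    rintro _ ⟨s, hs, rfl⟩
    have h3 := hij a s
    rw [hC a ha s hs] at h3
    exact (mul_inv_eq_iff_eq_mul.1 h3).symm
  have hDK : D ≤ normalizer (K : Set X) := by
    rintro _ ⟨a, ha, rfl⟩
    apply mem_normalizer_of_map_conj_le
    rintro _ ⟨_, ⟨g, -, rfl⟩, rfl⟩
    change j a * i g * (j a)⁻¹ ∈ K
    rw [hij]; exact hiK _
  have hwD : j φ ∈ ⁅D, D⁆ := by
    rw [hD, ← map_commutator]; exact ⟨φ, hφ, rfl⟩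
  have hw : IsPGroup 2 (zpowers (j φ)) := by
    rw [← MonoidHom.map_zpowers]; exact hφ2.map _
  have hOK : OP 2 K = ⊥ := by
    have hn : ((OP 2 K).comap i).Normal := by
      constructor
      intro n hn g
      rw [mem_comap, map_mul, map_mul, map_inv]
      exact (mem_normalizer_iff.1 (le_normalizer_OP 2 K (hiK g)) _).1 hn
    have hle : OP 2 K ≤ i.range := by
      rw [MonoidHom.range_eq_map]; exact OP_le 2 K
    have hcard : Nat.card ((OP 2 K).comap i) = Nat.card (OP 2 K) := by
      have h3 := Nat.card_congr (((OP 2 K).comap i).equivMapOfInjective i hi).toEquiv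
      rwa [map_comap_eq_self hle] at h3
    have hodd : Odd (Nat.card ((OP 2 K).comap i)) := by
      rw [hcard]; exact Nat.coprime_two_right.1 (coprime_card_OP 2 K)
    have h3 := hO _ hn hodd
    have h4 := map_comap_eq_self hle
    rw [h3, Subgroup.map_bot] at h4
    exact h4.symm
  have h5 := mem_centralizer_of_commutator hw hsyl hDP hDK hwD hOK
  ext g
  have h6 := mem_centralizer_iff.1 h5 (i g) (hiK g)
  have h7 := hij φ g
  rw [← h6, mul_inv_cancel_right] at h7
  exact (hi h7).symm

/-- A finite group `C` with `C'` of odd order: Sylow 2-subgroups are abelian and have normal complements. -/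
theorem compl_of_odd_commutator {C : Type u} [Group C] [Finite C] (h : Odd (Nat.card (commutator C)))
    (T : Sylow 2 C) : (∀ a b : T, a * b = b * a) ∧ (∃ N : Subgroup C, N.Normal ∧ N.IsComplement' (T : Subgroup C)) ∧
      (∃ N : Subgroup C, N.Normal ∧ Odd (Nat.card N) ∧ commutator C ≤ N) := by
  have h2 : Fact (Nat.Prime 2) := ⟨Nat.prime_two⟩
  have hTC : Disjoint (T : Subgroup C) (commutator C) := by
    apply Subgroup.disjoint_of_coprime_natCard
    obtain ⟨k, hk⟩ := IsPGroup.iff_card.1 T.2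
    rw [hk]
    exact (Nat.coprime_two_left.2 h).pow_left k
  refine ⟨?_, ?_, ⟨commutator C, inferInstance, h, le_rfl⟩⟩
  · intro a b
    have h3 : (a * b * a⁻¹ * b⁻¹ : C) ∈ commutator C :=
      commutator_mem_commutator (mem_top (a : C)) (mem_top (b : C))
    have h4 := Subgroup.disjoint_def.1 hTC (T.mul_mem (T.mul_mem (T.mul_mem a.2 b.2) (T.inv_mem a.2))
      (T.inv_mem b.2)) h3
    rw [mul_inv_eq_one, mul_inv_eq_iff_eq_mul] at h4
    exact Subtype.ext h4
  · set N := pPrimeCore 2 C with hN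
    have hCN : commutator C ≤ N := Cores.le_pPrimeCore inferInstance (Nat.coprime_two_right.2 h)
    have hbot := Cores.pPrimeCore_quotient_pPrimeCore 2 C
    have hcomm : ∀ a b : C ⧸ N, a * b = b * a := by
      intro a b
      obtain ⟨a, rfl⟩ := QuotientGroup.mk_surjective a
      obtain ⟨b, rfl⟩ := QuotientGroup.mk_surjective b
      have h3 : a * b * a⁻¹ * b⁻¹ ∈ N := hCN (commutator_mem_commutator (mem_top a) (mem_top b))
      have h4 : ((a * b * a⁻¹ * b⁻¹ : C) : C ⧸ N) = 1 := (QuotientGroup.eq_one_iff _).2 h3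
      simp only [QuotientGroup.mk_mul, QuotientGroup.mk_inv] at h4
      rw [mul_inv_eq_one, mul_inv_eq_iff_eq_mul] at h4
      exact h4
    obtain ⟨Q⟩ : Nonempty (Sylow 2 (C ⧸ N)) := inferInstance
    obtain ⟨K, hKn, hKc, hKp, -⟩ := H34Basic.exists_compl_of_central_sylow Q (by
      intro x _
      rw [mem_center_iff]
      intro y
      exact hcomm y x)
    have h3 : K ≤ pPrimeCore 2 (C ⧸ N) := Cores.le_pPrimeCore hKn hKp
    rw [hbot, le_bot_iff] at h3
    have h4 : (Q : Subgroup (C ⧸ N)) = ⊤ := by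
      have := hKc.sup_eq_top
      rwa [h3, bot_sup_eq] at this
    have h5 : IsPGroup 2 (C ⧸ N) := by
      have := Q.2
      rw [h4] at this
      exact this.of_equiv Subgroup.topEquiv
    obtain ⟨k, hk⟩ := IsPGroup.iff_card.1 h5
    obtain ⟨l, hl⟩ := IsPGroup.iff_card.1 T.2
    have hNodd : (Nat.card N).Coprime 2 := Cores.coprime_card_pPrimeCore 2 C
    have hcN : Nat.card N * 2 ^ k = Nat.card C := by
      rw [← hk]
      exact Subgroup.card_mul_index N
    have hTi : ¬ 2 ∣ (T : Subgroup C).index := Sylow.not_dvd_index T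
    have hcT : 2 ^ l * (T : Subgroup C).index = Nat.card C := by
      rw [← hl]; exact Subgroup.card_mul_index _
    have hkl : 2 ^ k = 2 ^ l := by
      apply Nat.dvd_antisymm
      · have h6 : 2 ^ k ∣ 2 ^ l * (T : Subgroup C).index := by rw [hcT, ← hcN]; exact dvd_mul_left _ _
        exact (((Nat.Prime.coprime_iff_not_dvd Nat.prime_two).2 hTi).pow_left k).dvd_of_dvd_mul_right h6
      · have h6 : 2 ^ l ∣ Nat.card N * 2 ^ k := by rw [hcN, ← hcT]; exact dvd_mul_right _ _
        exact ((hNodd.pow_right l).symm).dvd_of_dvd_mul_left h6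
    refine ⟨N, inferInstance, ?_⟩
    apply Subgroup.isComplement'_of_coprime
    · rw [hl, ← hkl, hcN]
    · rw [hl]; exact hNodd.pow_right l

end Cfsg.Agent.Lib.GlaubAut
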