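import Cfsg.Agent.Lib.GlaubCyc2
import Cfsg.Agent.Lib.H76Char

set_option autoImplicit false
set_option linter.unusedSectionVars false

/-!
# Fixed point free action of a cyclic group (helper74)
-/

namespace Cfsg.Agent.Lib.GlaubCyc

open scoped ComplexConjugate
open Cfsg Cfsg.Agent.Lib.CharBasic Cfsg.Agent.Lib.Clifford Cfsg.Agent.Lib.BlockRing

universe u v

/-- `Λ (y ^ r) ≡ Λ y (mod r)` for integral values. -/
theorem dvd_sub_of_char {S : Type u} [Group S] [Finite S] {Λ : S → ℂ} (hΛ : IsCharacter S Λ) (y : S)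
    {r : ℕ} (hr : r.Prime) {m m' : ℤ} (hm : Λ y = m) (hm' : Λ (y ^ r) = m') : (r : ℤ) ∣ m' - m := by
  haveI : Fact r.Prime := ⟨hr⟩
  obtain ⟨M, hM⟩ := H76Char.exists_isPModular r
  haveI := isPrime hM
  haveI := charP hM
  obtain ⟨n, μ, h1, h2, -⟩ := H76Char.exists_eigenvalues hΛ y
  have hint : ∀ i, IsIntegral ℤ (μ i) := fun i =>
    IsIntegral.of_pow (orderOf_pos y) (by rw [h1 i]; exact isIntegral_one)
  let a : Fin n → AlgInt := fun i => ⟨μ i, hint i⟩
  have h3 : (∑ i, a i ^ r) - (∑ i, a i) ^ r ∈ M := by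
    rw [← Ideal.Quotient.eq_zero_iff_mem, map_sub, map_pow, map_sum, map_sum, sum_pow_char]
    simp
  have h4 := idl_of_mem h3
  have h5 : (((∑ i, a i ^ r) - (∑ i, a i) ^ r : AlgInt) : ℂ) = ((m' - m ^ r : ℤ) : ℂ) := by
    have e1 : ((∑ i, a i ^ r : AlgInt) : ℂ) = ∑ i, μ i ^ r := by
      push_cast
      rfl
    have e2 : ((∑ i, a i : AlgInt) : ℂ) = ∑ i, μ i := by
      push_cast
      rfl
    have h6 := h2 r
    have h7 := h2 1
    rw [pow_one] at h7
    simp only [pow_one] at h7
    push_cast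
    rw [← hm, ← hm', h6, h7]
  rw [h5, idl_intCast_iff hM] at h4
  have h6 : (r : ℤ) ∣ m ^ r - m := by
    have := ZMod.intCast_eq_intCast_iff_dvd_sub m (m ^ r) r
    rw [← this]
    push_cast
    rw [ZMod.pow_card]
  have h7 := dvd_add h4 h6
  have h8 : m' - m ^ r + (m ^ r - m) = m' - m := by ring
  rwa [h8] at h7

section sub

variable {Γ : Type u} [Group Γ] [Finite Γ] {G S C : Subgroup Γ}

theorem Cyc.exists_beta_sub (h : Cyc G S C) {x : Γ} (hx : x ∈ S)
    (hfix : G ⊓ Subgroup.centralizer ({x} : Set Γ) = C) {χ : G → ℂ} {χh : Γ → ℂ} (c : Can G χ χh) :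
    ∃ β : IrrCharacter C, ∃ ε : ℤ, (ε = 1 ∨ ε = -1) ∧ ∀ y : C, χh (y * x) = (ε : ℂ) * (β : C → ℂ) y := by
  have hn := h.hn
  let X := Subgroup.zpowers x
  let D : Subgroup Γ := G ⊔ X
  have hGD : G ≤ D := le_sup_left
  have hXD : X ≤ D := le_sup_right
  have hCD : C ≤ D := h.C_le.trans hGD
  let G' := G.subgroupOf D
  let X' := X.subgroupOf D
  let C' := C.subgroupOf D
  let x' : D := ⟨x, hXD (Subgroup.mem_zpowers x)⟩
  have hx' : Subgroup.zpowers x' = X' := by
    ext y
    rw [Subgroup.mem_subgroupOf, Subgroup.mem_zpowers_iff, Subgroup.mem_zpowers_iff]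
    constructor
    · rintro ⟨k, hk⟩
      exact ⟨k, congrArg Subtype.val hk⟩
    · rintro ⟨k, hk⟩
      exact ⟨k, Subtype.ext hk⟩
  have hXS : X ≤ S := by rw [Subgroup.zpowers_le]; exact hx
  have hcX : Nat.card X' = Nat.card X := Nat.card_congr (Subgroup.subgroupOfEquivOfLe hXD).toEquiv
  have hcG : Nat.card G' = Nat.card G := Nat.card_congr (Subgroup.subgroupOfEquivOfLe hGD).toEquiv
  have hdvd : Nat.card X ∣ Nat.card S := Subgroup.card_dvd_of_le hXS
  have h' : Cyc G' X' C' := by
    refine ⟨inferInstance, ?_, ?_, ?_⟩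
    · rw [hcX, hcG]; exact h.hcop.coprime_dvd_right hdvd
    · rw [← Subgroup.subgroupOf_sup hGD hXD, Subgroup.subgroupOf_self]
    · ext y
      rw [Subgroup.mem_subgroupOf, Subgroup.mem_inf, Subgroup.mem_subgroupOf, ← hfix, Subgroup.mem_inf,
        Subgroup.mem_centralizer_iff, Subgroup.mem_centralizer_iff]
      refine and_congr_right fun _ => ?_
      constructor
      · intro h1 z hz
        rw [SetLike.mem_coe, ← hx'] at hz
        obtain ⟨k, rfl⟩ := Subgroup.mem_zpowers_iff.1 hz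
        have h2 : Commute x' y := Subtype.ext (h1 x rfl)
        exact (h2.zpow_left k).eq
      · intro h1 z hz
        rw [Set.mem_singleton_iff] at hz
        subst hz
        have h2 := h1 x' (by rw [SetLike.mem_coe, ← hx']; exact Subgroup.mem_zpowers _)
        exact congrArg Subtype.val h2
  have hres : IsIrrCharacter G' (fun g => χ ⟨g, g.2⟩) := c.irr.comp_surjective
    (Subgroup.subgroupOfEquivOfLe hGD).toMonoidHom (Subgroup.subgroupOfEquivOfLe hGD).surjective
  have hextD : ∀ g : G', (fun y : D => χh y) g = χ ⟨g, g.2⟩ := fun g => c.ext ⟨g, g.2⟩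
  have hresD : IsCharacter D (fun y : D => χh y) := c.irr'.isCharacter.restrict D
  have c' : Can G' (fun g => χ ⟨g, g.2⟩) (fun y : D => χh y) := by
    refine ⟨hres, ?_, hextD, ?_⟩
    · have hn' : G'.Normal := inferInstance
      exact CanonExt.isIrr_of_ext hres hresD hextD
    · rw [h'.index, hcX]
      have h1 : (Nat.card S).Coprime (detOrder χh) := by
        have := c.det
        rwa [h.index] at this
      have h2 : detOrder (fun y : D => χh y) ∣ detOrder χh := by
        unfold detOrder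
        apply orderOf_dvd_of_pow_eq_one
        funext y
        have h3 := congrFun (pow_orderOf_eq_one (detChar χh)) (y : Γ)
        rw [Pi.pow_apply, DetChar.detChar_restrict c.irr'.isCharacter D y]
        exact h3
      exact (h1.coprime_dvd_left hdvd).coprime_dvd_right h2
  obtain ⟨β, ε, hε, hβ⟩ := h'.exists_beta hx' c'
  let e := Subgroup.subgroupOfEquivOfLe hCD
  refine ⟨⟨fun y => (β : C' → ℂ) (e.symm y), β.2.comp_surjective e.symm.toMonoidHom e.symm.surjective⟩, ε, hε,
    fun y => ?_⟩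
  exact hβ (e.symm y) x' hx'

/-- in the fixed point free case the character `β` is the same for all `x ≠ 1` in `S` -/
theorem Cyc.fpf_beta (h : Cyc G S C) (hfpf : ∀ x ∈ S, x ≠ 1 → G ⊓ Subgroup.centralizer ({x} : Set Γ) = C)
    {s : Γ} (hs : Subgroup.zpowers s = S) {χ : G → ℂ} {χh : Γ → ℂ} (c : Can G χ χh) {β : IrrCharacter C}
    {ε₀ : ℤ} (hε₀ : ε₀ = 1 ∨ ε₀ = -1) (hβ : ∀ y : C, χh (y * s) = (ε₀ : ℂ) * (β : C → ℂ) y) (k : ℕ) :
    1 ≤ k → s ^ k ≠ 1 → ∃ ε : ℤ, (ε = 1 ∨ ε = -1) ∧ ∀ y : C, χh (y * s ^ k) = (ε : ℂ) * (β : C → ℂ) y := by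
  have := Fintype.ofFinite C
  induction k using Nat.strong_induction_on with
  | _ k ih =>
  intro hk hsk
  by_cases hk1 : k = 1
  · subst hk1
    exact ⟨ε₀, hε₀, by rw [pow_one]; exact hβ⟩
  · obtain ⟨k', hk'⟩ := Nat.minFac_dvd k
    set r := k.minFac with hr
    have hrp : r.Prime := Nat.minFac_prime hk1
    have hk'0 : 1 ≤ k' := by
      rcases Nat.eq_zero_or_pos k' with h0 | h0
      · rw [h0, mul_zero] at hk'; omega
      · exact h0
    have hlt : k' < k := by
      rw [hk']
      exact lt_mul_of_one_lt_left hk'0 hrp.one_lt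
    have hpk : s ^ k = (s ^ k') ^ r := by rw [← pow_mul, mul_comm, ← hk']
    have hsk' : s ^ k' ≠ 1 := by
      intro h0
      apply hsk
      rw [hpk, h0, one_pow]
    obtain ⟨ε1, hε1, hβ1⟩ := ih k' hlt hk'0 hsk'
    have hsS : s ∈ S := mem_gen hs
    obtain ⟨β2, ε2, hε2, hβ2⟩ := h.exists_beta_sub (S.pow_mem hsS k) (hfpf _ (S.pow_mem hsS k) hsk) c
    have hch := h.isCharacter_slice c.irr'.isCharacter β.2
    have e1 : classInner (sl C (s ^ k') χh) (β : C → ℂ) = (ε1 : ℂ) := by
      have h4 : sl C (s ^ k') χh = (ε1 : ℂ) • (β : C → ℂ) := funext fun x => hβ1 x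
      rw [h4, classInner_smul_left, β.2.classInner_self, mul_one]
    have e2 : classInner (sl C (s ^ k) χh) (β : C → ℂ) = (ε2 : ℂ) * classInner (β2 : C → ℂ) (β : C → ℂ) := by
      have h4 : sl C (s ^ k) χh = (ε2 : ℂ) • (β2 : C → ℂ) := funext fun x => hβ2 x
      rw [h4, classInner_smul_left]
    have hne : β2 = β := by
      by_contra hne
      rw [β2.2.classInner_eq_zero β.2 (fun h0 => hne (Subtype.ext h0)), mul_zero] at e2
      have e3 : (fun t : S => classInner (sl C (t : Γ) χh) (β : C → ℂ)) (⟨s ^ k', S.pow_mem hsS k'⟩ : S) =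
          ((ε1 : ℤ) : ℂ) := e1
      have e4 : (fun t : S => classInner (sl C (t : Γ) χh) (β : C → ℂ)) ((⟨s ^ k', S.pow_mem hsS k'⟩ : S) ^ r) =
          ((0 : ℤ) : ℂ) := by
        have e5 : (((⟨s ^ k', S.pow_mem hsS k'⟩ : S) ^ r : S) : Γ) = s ^ k := by
          rw [hpk]; rfl
        show classInner (sl C (((⟨s ^ k', S.pow_mem hsS k'⟩ : S) ^ r : S) : Γ) χh) (β : C → ℂ) = _
        rw [e5, e2, Int.cast_zero]
      have h5 := dvd_sub_of_char hch (⟨s ^ k', S.pow_mem hsS k'⟩ : S) hrp e3 e4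
      rcases hε1 with rfl | rfl
      · have h6 : (r : ℤ) ∣ 1 := by simpa using h5
        have := Int.natAbs_dvd_natAbs.2 h6
        simp only [Int.natAbs_natCast, Int.natAbs_one, Nat.dvd_one] at this
        exact hrp.one_lt.ne' this
      · have h6 : (r : ℤ) ∣ 1 := by simpa using h5
        have := Int.natAbs_dvd_natAbs.2 h6
        simp only [Int.natAbs_natCast, Int.natAbs_one, Nat.dvd_one] at this
        exact hrp.one_lt.ne' this
    subst hne
    exact ⟨ε2, hε2, hβ2⟩

end sub

/-! ### characters of abelian groups with values `±1` off the identity -/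

theorem sum_irr_comm {S : Type u} [Group S] [Fintype S] [DecidableEq S] (hab : ∀ a b : S, a * b = b * a) (x : S) :
    ∑ lam : IrrCharacter S, (lam : S → ℂ) x = if x = 1 then (Nat.card S : ℂ) else 0 := by
  have h1 : ∀ lam : IrrCharacter S, (lam : S → ℂ) 1 = 1 := fun lam => lam.2.one_eq_one_of_comm hab
  split_ifs with hx
  · rw [← sum_degree_sq (G := S)]
    apply Finset.sum_congr rfl
    intro lam _
    rw [hx, h1, one_pow]
  · rw [← sum_degree_mul x hx]
    apply Finset.sum_congr rfl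
    intro lam _
    rw [h1, one_mul]

theorem sign_char {S : Type u} [Group S] [Fintype S] [DecidableEq S] (hab : ∀ a b : S, a * b = b * a)
    {Λ : S → ℂ} (hΛ : IsCharacter S Λ) (h : ∀ x, x ≠ 1 → ∃ ε : ℤ, (ε = 1 ∨ ε = -1) ∧ Λ x = ε) (h0 : Λ 1 ≠ 0) :
    ∃ (t : ℕ) (ε : ℤ) (lam : IrrCharacter S), (ε = 1 ∨ ε = -1) ∧
      ∀ x, Λ x = (t : ℂ) * (if x = 1 then (Nat.card S : ℂ) else 0) + (ε : ℂ) * (lam : S → ℂ) x := by
  classical
  have hone : ∀ lam : IrrCharacter S, (lam : S → ℂ) 1 = 1 := fun lam => lam.2.one_eq_one_of_comm hab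
  have hcardirr : Fintype.card (IrrCharacter S) = Nat.card S := by
    have h1 := sum_irr_comm hab (1 : S)
    rw [if_pos rfl, Finset.sum_congr rfl (fun lam _ => hone lam), Finset.sum_const, nsmul_eq_mul, mul_one,
      Finset.card_univ] at h1
    exact_mod_cast h1
  set n := Nat.card S with hn
  have hn0 : 0 < n := Nat.card_pos
  obtain ⟨c, hc, hs⟩ := hΛ.exists_coeff
  have hval : ∀ x, Λ x = ∑ lam : IrrCharacter S, (c lam : ℂ) * (lam : S → ℂ) x := by
    intro x
    conv_lhs => rw [hs]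
    simp
  set a : ℤ := ∑ lam : IrrCharacter S, (c lam : ℤ) with ha
  have hΛ1 : Λ 1 = (a : ℂ) := by
    rw [hval, ha]
    push_cast
    exact Finset.sum_congr rfl fun lam _ => by rw [hone, mul_one]
  by_cases hn1 : n = 1
  · have hsub : ∀ x : S, x = 1 := by
      intro x
      have : Subsingleton S := (Nat.card_eq_one_iff_unique.1 (hn ▸ hn1)).1
      exact Subsingleton.elim _ _
    have ha1 : 1 ≤ a := by
      have : 0 ≤ a := by rw [ha]; positivity
      rcases this.eq_or_lt with h1 | h1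
      · exfalso; apply h0; rw [hΛ1, ← h1]; simp
      · exact h1
    refine ⟨(a - 1).toNat, 1, ⟨1, isIrrCharacter_one⟩, Or.inl rfl, fun x => ?_⟩
    rw [hsub x, if_pos rfl, hΛ1, hn1]
    have h2 : (((a - 1).toNat : ℕ) : ℂ) = (a : ℂ) - 1 := by
      have : (((a - 1).toNat : ℕ) : ℤ) = a - 1 := Int.toNat_of_nonneg (by omega)
      have h3 : ((((a - 1).toNat : ℕ) : ℤ) : ℂ) = ((a - 1 : ℤ) : ℂ) := by rw [this]
      push_cast at h3
      exact h3
    rw [h2]
    simp
  · have hn2 : 2 ≤ n := by omega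
    -- norm
    have hnorm : (n : ℤ) * ∑ lam : IrrCharacter S, (c lam : ℤ) * c lam = a * a + (n - 1) := by
      have h1 := classInner_eq_sum_coeff (c := fun l => (c l : ℤ)) (d := fun l => (c l : ℤ)) hΛ.isClassFunction
        (fun χ => by rw [hc]; simp) (fun χ => by rw [hc]; simp)
      rw [classInner_def] at h1
      have h2 : ∑ x : S, Λ x * conj (Λ x) = (a : ℂ) * a + (n - 1) := by
        rw [← Finset.add_sum_erase _ _ (Finset.mem_univ (1 : S)), hΛ1]
        have h3 : ∀ x ∈ Finset.univ.erase (1 : S), Λ x * conj (Λ x) = 1 := by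
          intro x hx
          obtain ⟨ε, hε, hε'⟩ := h x (Finset.ne_of_mem_erase hx)
          rw [hε']
          rcases hε with rfl | rfl <;> simp
        rw [Finset.sum_congr rfl h3, Finset.sum_const, Finset.card_erase_of_mem (Finset.mem_univ _), Finset.card_univ,
          nsmul_eq_mul, mul_one, ← Nat.card_eq_fintype_card, ← hn, Nat.cast_sub hn0]
        simp
      have hnC : (n : ℂ) ≠ 0 := Nat.cast_ne_zero.2 hn0.ne'
      rw [h2, inv_mul_eq_iff_eq_mul₀ hnC] at h1
      have h3 : ((n : ℤ) : ℂ) * ((∑ lam : IrrCharacter S, (c lam : ℤ) * c lam : ℤ) : ℂ) = ((a * a + (n - 1) : ℤ) : ℂ) := by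
        push_cast at h1 ⊢
        exact h1.symm
      exact_mod_cast h3
    obtain ⟨t, r, har, hr⟩ : ∃ t r : ℤ, a = n * t + r ∧ 2 * |r| ≤ n := by
      refine ⟨(a - Int.bmod a n) / n, Int.bmod a n, ?_, ?_⟩
      · have h1 : (n : ℤ) ∣ a - Int.bmod a n := by
          have := Int.bmod_emod (x := a) (m := n)
          exact Int.dvd_of_emod_eq_zero (by rw [Int.sub_emod, this]; simp)
        rw [Int.mul_ediv_cancel' h1]
        ring
      · have h1 := Int.le_bmod (x := a) (m := n) hn0
        have h2 := Int.bmod_lt (x := a) (m := n) hn0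
        rw [← abs_two (α := ℤ), ← abs_mul, abs_le]
        constructor
        · omega
        · omega
    set b : IrrCharacter S → ℤ := fun l => (c l : ℤ) - t with hb
    have hsb : ∑ l, b l = r := by
      simp only [hb, Finset.sum_sub_distrib, Finset.sum_const, Finset.card_univ, hcardirr, nsmul_eq_mul]
      rw [← ha, har]; ring
    have hsb2 : (n : ℤ) * ∑ l, b l * b l = r * r + (n - 1) := by
      have h1 : ∑ l, b l * b l = ∑ l : IrrCharacter S, (c l : ℤ) * c l - 2 * t * a + n * (t * t) := by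
        have h2 : ∀ l, b l * b l = (c l : ℤ) * c l - 2 * t * c l + t * t := by
          intro l; simp only [hb]; ring
        rw [Finset.sum_congr rfl fun l _ => h2 l, Finset.sum_add_distrib, Finset.sum_sub_distrib, ← Finset.mul_sum,
          Finset.sum_const, Finset.card_univ, hcardirr, nsmul_eq_mul]
      rw [h1]
      have h3 : (n : ℤ) * (∑ l : IrrCharacter S, (c l : ℤ) * c l - 2 * t * a + n * (t * t)) =
        (n : ℤ) * (∑ l : IrrCharacter S, (c l : ℤ) * c l) - 2 * t * a * n + n * n * (t * t) := by ring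
      rw [h3, hnorm, har]
      ring
    have hle : |r| ≤ ∑ l, b l * b l := by
      rw [← hsb]
      refine (Finset.abs_sum_le_sum_abs _ _).trans (Finset.sum_le_sum fun l _ => ?_)
      rw [← abs_mul_abs_self (b l)]
      rcases (abs_nonneg (b l)).eq_or_lt with h1 | h1
      · rw [← h1]; simp
      · nlinarith
    have hr1 : |r| ≤ 1 := by
      by_contra hcon
      push Not at hcon
      have h1 : (n : ℤ) * |r| ≤ r * r + (n - 1) := by
        rw [← hsb2]
        exact mul_le_mul_of_nonneg_left hle (by positivity)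
      rw [← abs_mul_abs_self r] at h1
      nlinarith
    have hr2 : r * r = 1 := by
      have h1 : r = 0 ∨ r = 1 ∨ r = -1 := by
        rw [abs_le] at hr1; omega
      rcases h1 with rfl | rfl | rfl
      · exfalso
        have h2 : (n : ℤ) ∣ n - 1 := ⟨_, by rw [hsb2]; ring⟩
        have h3 : (n : ℤ) ∣ 1 := by
          have := dvd_sub (dvd_refl (n : ℤ)) h2
          simpa using this
        have h4 := Int.le_of_dvd one_pos h3
        omega
      · norm_num
      · norm_num
    have hb1 : ∑ l, b l * b l = 1 := by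
      rw [hr2] at hsb2
      have h1 : (n : ℤ) * ∑ l, b l * b l = n * 1 := by rw [hsb2]; ring
      exact mul_left_cancel₀ (by exact_mod_cast hn0.ne') h1
    obtain ⟨l0, hl0⟩ : ∃ l, b l ≠ 0 := by
      by_contra hcon
      push Not at hcon
      rw [Finset.sum_eq_zero (fun l _ => by rw [hcon l, mul_zero])] at hb1
      exact zero_ne_one hb1
    have hsplit := Finset.add_sum_erase Finset.univ (fun l => b l * b l) (Finset.mem_univ l0)
    rw [hb1] at hsplit
    have hpos : 1 ≤ b l0 * b l0 := by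
      have : 0 < b l0 * b l0 := mul_self_pos.2 hl0
      omega
    have hnn : 0 ≤ ∑ l ∈ Finset.univ.erase l0, b l * b l := Finset.sum_nonneg fun l _ => mul_self_nonneg _
    have hz : ∑ l ∈ Finset.univ.erase l0, b l * b l = 0 := by
      omega
    have hbl0 : b l0 * b l0 = 1 := by
      omega
    have hz' : ∀ l, l ≠ l0 → b l = 0 := by
      intro l hl
      have := (Finset.sum_eq_zero_iff_of_nonneg fun l _ => mul_self_nonneg (b l)).1 hz l
        (Finset.mem_erase.2 ⟨hl, Finset.mem_univ _⟩)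
      exact mul_self_eq_zero.1 this
    have ht : 0 ≤ t := by
      have : 1 < Fintype.card (IrrCharacter S) := by rw [hcardirr]; omega
      obtain ⟨l, hl⟩ := Fintype.exists_ne_of_one_lt_card this l0
      have h1 := hz' l hl
      simp only [hb] at h1
      have : (0 : ℤ) ≤ c l := by positivity
      omega
    refine ⟨t.toNat, b l0, l0, ?_, fun x => ?_⟩
    · exact mul_self_eq_one_iff.1 hbl0
    · rw [hval, ← sum_irr_comm hab x]
      have h1 : ∀ l : IrrCharacter S, (c l : ℂ) = (t : ℂ) + (b l : ℂ) := by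
        intro l
        simp only [hb]
        push_cast
        ring
      have h2 : ((t.toNat : ℕ) : ℂ) = (t : ℂ) := by
        have : ((t.toNat : ℕ) : ℤ) = t := Int.toNat_of_nonneg ht
        have h3 : (((t.toNat : ℕ) : ℤ) : ℂ) = (t : ℂ) := by rw [this]
        rw [← h3, Int.cast_natCast]
      rw [h2, Finset.sum_congr rfl fun l _ => by rw [h1 l, add_mul], Finset.sum_add_distrib, ← Finset.mul_sum]
      congr 1
      rw [Finset.sum_eq_single l0]
      · intro l _ hl
        rw [hz' l hl]; simp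
      · intro h; exact absurd (Finset.mem_univ _) h

end Cfsg.Agent.Lib.GlaubCyc
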