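import Cfsg.Agent.Lib.GlaubStep
import Cfsg.Agent.Lib.GlaubCorrConj
import Cfsg.Agent.Lib.CoprimeAction
import Cfsg.Agent.Lib.BlockCover2
import Cfsg.Agent.Lib.H76Coset
import Cfsg.Agent.Lib.LinExt

set_option autoImplicit false
set_option linter.unusedSectionVars false

/-!
# Glauberman's lemma on sets of irreducible characters (helper74)
-/

namespace Cfsg.Agent.Lib.GlaubPerm

open scoped ComplexConjugate commutatorElement
open Cfsg Cfsg.Agent.Lib.CharBasic Cfsg.Agent.Lib.Clifford Cfsg.Agent.Lib.GlaubCorr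

universe u v

/-- automorphisms permute the irreducible characters -/
def permIrr (G : Type u) [Group G] : MulAut G →* Equiv.Perm (IrrCharacter G) where
  toFun σ :=
    { toFun := tw σ⁻¹
      invFun := tw σ
      left_inv := fun χ => by
        apply Subtype.ext; funext g
        show (χ : G → ℂ) (σ⁻¹ (σ g)) = _
        rw [MulAut.inv_apply_self]
      right_inv := fun χ => by
        apply Subtype.ext; funext g
        show (χ : G → ℂ) (σ (σ⁻¹ g)) = _
        rw [MulAut.apply_inv_self] }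
  map_one' := by
    apply Equiv.ext; intro χ; apply Subtype.ext; funext g
    show (χ : G → ℂ) ((1 : MulAut G)⁻¹ g) = (χ : G → ℂ) g
    rw [inv_one]; rfl
  map_mul' σ τ := by
    apply Equiv.ext; intro χ; apply Subtype.ext; funext g
    show (χ : G → ℂ) ((σ * τ)⁻¹ g) = (χ : G → ℂ) (τ⁻¹ (σ⁻¹ g))
    rw [mul_inv_rev]; rfl

theorem permIrr_apply {G : Type u} [Group G] (σ : MulAut G) (χ : IrrCharacter G) (g : G) :
    ((permIrr G σ χ : IrrCharacter G) : G → ℂ) g = (χ : G → ℂ) (σ⁻¹ g) := rfl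

section T

variable {Γ : Type u} [Group Γ]

/-- conjugation by the normalizer of `N` on the irreducible characters of `N` -/
noncomputable def T (N : Subgroup Γ) : Subgroup.normalizer (N : Set Γ) →* Equiv.Perm (IrrCharacter N) :=
  (permIrr N).comp N.normalizerMonoidHom

theorem T_apply (N : Subgroup Γ) (x : Subgroup.normalizer (N : Set Γ)) (θ : IrrCharacter N) (n n' : N)
    (h : (n' : Γ) = (x : Γ)⁻¹ * n * x) : ((T N x θ : IrrCharacter N) : N → ℂ) n = (θ : N → ℂ) n' := by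
  show (θ : N → ℂ) ((N.normalizerMonoidHom x)⁻¹ n) = _
  rw [← map_inv]
  refine congrArg (θ : N → ℂ) (Subtype.ext ?_)
  rw [h]
  show ((x⁻¹ : Subgroup.normalizer (N : Set Γ)) : Γ) * n * ((x⁻¹ : Subgroup.normalizer (N : Set Γ)) : Γ)⁻¹ = _
  rw [Subgroup.coe_inv, inv_inv]

theorem T_mem (N : Subgroup Γ) {x : Subgroup.normalizer (N : Set Γ)} (hx : (x : Γ) ∈ N) : T N x = 1 := by
  apply Equiv.ext; intro θ; apply Subtype.ext; funext n
  rw [T_apply N x θ n (⟨x, hx⟩⁻¹ * n * ⟨x, hx⟩) rfl]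
  have := θ.2.isClassFunction n (⟨x, hx⟩⁻¹ : N)
  rw [inv_inv] at this
  rw [this]
  rfl

theorem T_eq_iff (N : Subgroup Γ) (x : Subgroup.normalizer (N : Set Γ)) (θ : IrrCharacter N) :
    T N x θ = θ ↔ ∀ n n' : N, (n' : Γ) = x * n * (x : Γ)⁻¹ → (θ : N → ℂ) n' = (θ : N → ℂ) n := by
  constructor
  · intro h n n' hn
    conv_lhs => rw [← h]
    rw [T_apply N x θ n' n (by rw [hn]; group)]
  · intro h
    apply Subtype.ext; funext n
    have hx := (Subgroup.mem_normalizer_iff''.1 x.2 (n : Γ)).1 n.2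
    rw [T_apply N x θ n ⟨(x : Γ)⁻¹ * n * x, hx⟩ rfl]
    exact (h ⟨(x : Γ)⁻¹ * n * x, hx⟩ n (by simp only; group)).symm

end T

/-- Glauberman's lemma for a permutation representation. -/
theorem exists_fixed {Q : Type u} [Group Q] {X : Type u} [Finite X] (t : Q →* Equiv.Perm X)
    (S : Subgroup Q) (K : Subgroup (Equiv.Perm X)) (hSK : ∀ s ∈ S, ∀ k ∈ K, t s * k * (t s)⁻¹ ∈ K)
    (hcop : (Nat.card (S.map t)).Coprime (Nat.card K))
    (hsolv : Group.IsSolvable (S.map t) ∨ Group.IsSolvable K) (x : X)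
    (hx : ∀ s ∈ S, ∃ k ∈ K, t s x = k x) : ∃ k ∈ K, ∀ s ∈ S, t s (k x) = k x := by
  have hn : S.map t ≤ Subgroup.normalizer (K : Set (Equiv.Perm X)) := by
    rintro _ ⟨s, hs, rfl⟩
    rw [Subgroup.mem_normalizer_iff]
    intro k
    refine ⟨hSK s hs k, fun h => ?_⟩
    have := hSK s⁻¹ (S.inv_mem hs) _ h
    rw [map_inv] at this
    have e : (t s)⁻¹ * (t s * k * (t s)⁻¹) * (t s)⁻¹⁻¹ = k := by group
    rwa [e] at this
  obtain ⟨k, hk, h⟩ := CoprimeAction.exists_fixed_point (X := X) hn hcop hsolv x (by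
    rintro _ ⟨s, hs, rfl⟩
    obtain ⟨k, hk, hkx⟩ := hx s hs
    exact ⟨k, hk, hkx⟩)
  exact ⟨k, hk, fun s hs => h _ ⟨s, hs, rfl⟩⟩

section ov

variable {Γ : Type u} [Group Γ] [Finite Γ]

/-- inner products on `N.subgroupOf G` and on `N` -/
theorem inner_subgroupOf {G N : Subgroup Γ} (hNG : N ≤ G) [Fintype N] [Fintype (N.subgroupOf G)] (χ : G → ℂ) (θ : N → ℂ) :
    classInner (fun n : N.subgroupOf G => χ n) (fun n => θ (Subgroup.subgroupOfEquivOfLe hNG n)) =
      classInner (fun n : N => χ ⟨n, hNG n.2⟩) θ := by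
  rw [← classInner_comp_equiv (Subgroup.subgroupOfEquivOfLe hNG) (fun n : N => χ ⟨n, hNG n.2⟩) θ]
  rfl

theorem irr_subgroupOf {G N : Subgroup Γ} (hNG : N ≤ G) {θ : N → ℂ} (hθ : IsIrrCharacter N θ) :
    IsIrrCharacter (N.subgroupOf G) (fun n => θ (Subgroup.subgroupOfEquivOfLe hNG n)) :=
  hθ.comp_surjective (Subgroup.subgroupOfEquivOfLe hNG).toMonoidHom (Subgroup.subgroupOfEquivOfLe hNG).surjective

theorem exists_over {G N : Subgroup Γ} (hNG : N ≤ G) [(N.subgroupOf G).Normal] [Fintype N] (θ : IrrCharacter N) :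
    ∃ χ : IrrCharacter G, classInner (fun n : N => (χ : G → ℂ) ⟨n, hNG n.2⟩) (θ : N → ℂ) ≠ 0 := by
  have := Fintype.ofFinite G
  have := Fintype.ofFinite (N.subgroupOf G)
  obtain ⟨χ, hχ⟩ := BlockCover.exists_above (N := N.subgroupOf G) ⟨_, irr_subgroupOf hNG θ.2⟩
  exact ⟨χ, by rw [← inner_subgroupOf hNG]; exact hχ⟩

/-- Clifford: constituents of `χ_N` are `G`-conjugate -/
theorem conj_below {G N : Subgroup Γ} (hNG : N ≤ G) [(N.subgroupOf G).Normal] [Fintype N] {χ : G → ℂ}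
    (hχ : IsIrrCharacter G χ) {θ φ : IrrCharacter N}
    (h1 : classInner (fun n : N => χ ⟨n, hNG n.2⟩) (θ : N → ℂ) ≠ 0)
    (h2 : classInner (fun n : N => χ ⟨n, hNG n.2⟩) (φ : N → ℂ) ≠ 0) :
    ∃ g ∈ G, ∀ n n' : N, (n' : Γ) = g * n * g⁻¹ → (φ : N → ℂ) n = (θ : N → ℂ) n' := by
  have := Fintype.ofFinite G
  have := Fintype.ofFinite (N.subgroupOf G)
  rw [← inner_subgroupOf hNG] at h1 h2
  obtain ⟨g, hg⟩ := exists_cj_eq hχ (irr_subgroupOf hNG θ.2) (irr_subgroupOf hNG φ.2) h1 h2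
  refine ⟨g, g.2, fun n n' hn => ?_⟩
  have h3 := congrFun hg ((Subgroup.subgroupOfEquivOfLe hNG).symm n)
  rw [cj_apply] at h3
  rw [MulEquiv.apply_symm_apply] at h3
  rw [h3]
  refine congrArg (θ : N → ℂ) (Subtype.ext ?_)
  rw [hn]
  rfl

theorem over_trans {G M N : Subgroup Γ} (hMG : M ≤ G) (hNM : N ≤ M) [Fintype M] [Fintype N]
    {χ : G → ℂ} (hχ : IsIrrCharacter G χ) {φ : M → ℂ} (hφ : IsIrrCharacter M φ) {θ : N → ℂ} (hθ : IsIrrCharacter N θ)
    (h1 : classInner (fun n : M => χ ⟨n, hMG n.2⟩) φ ≠ 0)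
    (h2 : classInner (fun n : N => φ ⟨n, hNM n.2⟩) θ ≠ 0) :
    classInner (fun n : N => χ ⟨n, hMG (hNM n.2)⟩) θ ≠ 0 := by
  classical
  have hc1 : IsCharacter M (fun n : M => χ ⟨n, hMG n.2⟩) := hχ.isCharacter.comp (Subgroup.inclusion hMG)
  obtain ⟨c, hc, hs⟩ := hc1.exists_coeff
  have h3 : (fun n : N => χ ⟨n, hMG (hNM n.2)⟩) = ∑ ψ : IrrCharacter M, (c ψ : ℂ) • fun n : N => (ψ : M → ℂ) ⟨n, hNM n.2⟩ := by
    funext n
    have := congrFun hs ⟨n, hNM n.2⟩
    simp only [Finset.sum_apply, Pi.smul_apply] at this ⊢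
    exact this
  have h4 : ∀ ψ : IrrCharacter M, ∃ k : ℕ, classInner (fun n : N => (ψ : M → ℂ) ⟨n, hNM n.2⟩) θ = k := fun ψ =>
    (ψ.2.isCharacter.comp (Subgroup.inclusion hNM)).classInner_nat hθ.isCharacter
  choose k hk using h4
  rw [h3, classInner_sum_left]
  simp only [classInner_smul_left, hk]
  have h5 : ((∑ ψ : IrrCharacter M, c ψ * k ψ : ℕ) : ℂ) ≠ 0 := by
    rw [Nat.cast_ne_zero]
    intro h0
    rw [Finset.sum_eq_zero_iff] at h0
    have h6 := h0 ⟨φ, hφ⟩ (Finset.mem_univ _)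
    rcases Nat.mul_eq_zero.1 h6 with h7 | h7
    · apply h1
      have := hc ⟨φ, hφ⟩
      rw [h7, Nat.cast_zero] at this
      exact this
    · apply h2
      have := hk ⟨φ, hφ⟩
      rw [h7, Nat.cast_zero] at this
      exact this
  push_cast at h5
  exact h5

/-- **Isaacs 13.27**: an invariant character has an invariant constituent below. -/
theorem below {G S N : Subgroup Γ} (hNG : N ≤ G) [hNn : (N.subgroupOf G).Normal] [Fintype N]
    (hnorm : ∀ s ∈ S, ∀ g ∈ G, s * g * s⁻¹ ∈ G) (hNS : ∀ s ∈ S, ∀ n ∈ N, s * n * s⁻¹ ∈ N)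
    (hcop : (N.relIndex G).Coprime (N.relIndex S))
    (hsolv : Group.IsSolvable S ∨ Group.IsSolvable (G ⧸ N.subgroupOf G)) (χ : IrrCharacter G)
    (hinv : ∀ s ∈ S, ∀ g g' : G, (g' : Γ) = s * g * s⁻¹ → (χ : G → ℂ) g' = (χ : G → ℂ) g) :
    ∃ θ : IrrCharacter N, classInner (fun n : N => (χ : G → ℂ) ⟨n, hNG n.2⟩) (θ : N → ℂ) ≠ 0 ∧
      ∀ s ∈ S, ∀ g g' : N, (g' : Γ) = s * g * s⁻¹ → (θ : N → ℂ) g' = (θ : N → ℂ) g := by
  classical
  have := Fintype.ofFinite G
  have hSQ : S ≤ Subgroup.normalizer (N : Set Γ) := by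
    intro s hs
    rw [Subgroup.mem_normalizer_iff]
    intro y
    refine ⟨hNS s hs y, fun hy => ?_⟩
    have := hNS s⁻¹ (S.inv_mem hs) _ hy
    have h2 : s⁻¹ * (s * y * s⁻¹) * s⁻¹⁻¹ = y := by group
    rwa [h2] at this
  have hGQ : G ≤ Subgroup.normalizer (N : Set Γ) := Subgroup.le_normalizer_of_normal_subgroupOf hNG
  let S' := S.subgroupOf (Subgroup.normalizer (N : Set Γ))
  let G' := G.subgroupOf (Subgroup.normalizer (N : Set Γ))
  let K := G'.map (T N)
  have hker : N.subgroupOf (Subgroup.normalizer (N : Set Γ)) ≤ (T N).ker := by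
    intro x hx
    exact T_mem N hx
  have hcK : Nat.card K ∣ N.relIndex G := by
    rw [← Subgroup.relIndex_ker, ← Subgroup.relIndex_subgroupOf hGQ]
    exact Subgroup.relIndex_dvd_of_le_left _ hker
  have hcS : Nat.card (S'.map (T N)) ∣ N.relIndex S := by
    rw [← Subgroup.relIndex_ker, ← Subgroup.relIndex_subgroupOf hSQ]
    exact Subgroup.relIndex_dvd_of_le_left _ hker
  -- a starting point
  obtain ⟨θ₀, hθ₀⟩ : ∃ θ : IrrCharacter N, classInner (fun n : N => (χ : G → ℂ) ⟨n, hNG n.2⟩) (θ : N → ℂ) ≠ 0 := by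
    have hc1 : IsCharacter N (fun n : N => (χ : G → ℂ) ⟨n, hNG n.2⟩) := χ.2.isCharacter.comp (Subgroup.inclusion hNG)
    obtain ⟨θ, h⟩ := exists_constituent hc1 (by
      intro h0
      exact χ.2.one_ne_zero (congrFun h0 1))
    exact ⟨θ, h⟩
  obtain ⟨k, hk, hfix⟩ := exists_fixed (T N) S' K (by
      rintro s hs _ ⟨g, hg, rfl⟩
      refine ⟨s * g * s⁻¹, hnorm _ hs _ hg, ?_⟩
      rw [map_mul, map_mul, map_inv])
    ((hcop.symm.coprime_dvd_left hcS).coprime_dvd_right hcK) (by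
      rcases hsolv with h | h
      · left
        have hS' : Group.IsSolvable S' := Group.isSolvable_of_surjective
          (f := (Subgroup.subgroupOfEquivOfLe hSQ).symm.toMonoidHom) (Subgroup.subgroupOfEquivOfLe hSQ).symm.surjective
        exact Group.isSolvable_of_surjective (f := (T N).subgroupMap S') ((T N).subgroupMap_surjective S')
      · right
        let f : G →* Equiv.Perm (IrrCharacter N) := (T N).comp (Subgroup.inclusion hGQ)
        have hf : N.subgroupOf G ≤ f.ker := fun x hx => T_mem N hx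
        have h1 : (QuotientGroup.lift (N.subgroupOf G) f hf).range = K := by
          ext y
          constructor
          · rintro ⟨x, rfl⟩
            obtain ⟨x, rfl⟩ := QuotientGroup.mk_surjective x
            exact ⟨Subgroup.inclusion hGQ x, x.2, rfl⟩
          · rintro ⟨x, hx, rfl⟩
            exact ⟨((⟨x, hx⟩ : G) : G ⧸ N.subgroupOf G), rfl⟩
        rw [← h1]
        exact Group.isSolvable_of_surjective (f := (QuotientGroup.lift (N.subgroupOf G) f hf).rangeRestrict)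
          (MonoidHom.rangeRestrict_surjective _)) θ₀ (by
      intro s hs
      -- `s θ₀` is a constituent
      have h1 : classInner (fun n : N => (χ : G → ℂ) ⟨n, hNG n.2⟩) ((T N s θ₀ : IrrCharacter N) : N → ℂ) ≠ 0 := by
        have h2 := classInner_comp_equiv (N.normalizerMonoidHom s⁻¹) (fun n : N => (χ : G → ℂ) ⟨n, hNG n.2⟩) (θ₀ : N → ℂ)
        rw [← h2] at hθ₀
        have h4 : ((T N s θ₀ : IrrCharacter N) : N → ℂ) = fun n => (θ₀ : N → ℂ) (N.normalizerMonoidHom s⁻¹ n) := by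
          funext n
          show (θ₀ : N → ℂ) ((N.normalizerMonoidHom s)⁻¹ n) = _
          rw [← map_inv]
        rw [h4]
        convert hθ₀ using 2
        funext n
        refine (hinv _ (S.inv_mem hs) ⟨n, hNG n.2⟩ _ rfl).symm
      obtain ⟨g, hg, h2⟩ := conj_below hNG χ.2 h1 hθ₀
      refine ⟨T N ⟨g, hGQ hg⟩, ⟨⟨g, hGQ hg⟩, hg, rfl⟩, ?_⟩
      apply Subtype.ext; funext n
      have hx := (Subgroup.mem_normalizer_iff''.1 (hGQ hg) (n : Γ)).1 n.2
      rw [T_apply N ⟨g, hGQ hg⟩ θ₀ n ⟨g⁻¹ * n * g, hx⟩ rfl, h2 ⟨g⁻¹ * n * g, hx⟩ n (by simp only; group)])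
  obtain ⟨g, hg, rfl⟩ := hk
  refine ⟨T N g θ₀, ?_, ?_⟩
  · have h2 := classInner_comp_equiv (N.normalizerMonoidHom g⁻¹) (fun n : N => (χ : G → ℂ) ⟨n, hNG n.2⟩) (θ₀ : N → ℂ)
    rw [← h2] at hθ₀
    have h4 : ((T N g θ₀ : IrrCharacter N) : N → ℂ) = fun n => (θ₀ : N → ℂ) (N.normalizerMonoidHom g⁻¹ n) := by
      funext n
      show (θ₀ : N → ℂ) ((N.normalizerMonoidHom g)⁻¹ n) = _
      rw [← map_inv]
    rw [h4]
    convert hθ₀ using 2
    funext n
    have h3 := χ.2.isClassFunction ⟨n, hNG n.2⟩ (⟨g, hg⟩⁻¹)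
    rw [← h3]
    rfl
  · intro s hs
    exact (T_eq_iff N ⟨s, hSQ hs⟩ _).1 (hfix ⟨s, hSQ hs⟩ hs)

/-- characters over the same character of a normal subgroup with abelian quotient differ by a linear twist -/
theorem exists_twist {G : Type u} [Group G] [Fintype G] {M : Subgroup G} [M.Normal] [Fintype M]
    (hab : ∀ a b : G ⧸ M, a * b = b * a) {χ ψ : G → ℂ} (hχ : IsIrrCharacter G χ) (hψ : IsIrrCharacter G ψ)
    {φ : M → ℂ} (hφ : IsIrrCharacter M φ) (h1 : classInner (fun n : M => χ n) φ ≠ 0)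
    (h2 : classInner (fun n : M => ψ n) φ ≠ 0) :
    ∃ l : G →* ℂˣ, (∀ m : M, l m = 1) ∧ ψ = fun g => (l g : ℂ) * χ g := by
  classical
  have h3 : classInner (fun n : M => χ n) (fun n : M => ψ n) ≠ 0 :=
    classInner_ne_zero_of_common (hχ.isCharacter.restrict M) (hψ.isCharacter.restrict M) hφ h1 h2
  have h4 : classInner (fun x => H76Coset.cosetInd M 1 x * χ x) ψ =
      (M.index : ℂ) * ((Nat.card G : ℂ)⁻¹ * ∑ n : M, χ n * conj (ψ n)) := by
    rw [classInner_def]
    have h5 : ∀ x : G, H76Coset.cosetInd M 1 x * χ x * conj (ψ x) =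
        if x ∈ M then (M.index : ℂ) * (χ x * conj (ψ x)) else 0 := by
      intro x
      rw [H76Coset.cosetInd_apply M hab]
      have h6 : ((x : G ⧸ M) = ((1 : G) : G ⧸ M)) ↔ x ∈ M := by
        rw [QuotientGroup.mk_one, QuotientGroup.eq_one_iff]
      simp only [h6]
      split_ifs
      · ring
      · ring
    rw [Finset.sum_congr rfl fun x _ => h5 x, ← Finset.sum_filter, ← Finset.mul_sum]
    have h6 : ∑ x ∈ Finset.univ.filter (fun x => x ∈ M), χ x * conj (ψ x) = ∑ n : M, χ n * conj (ψ n) := by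
      apply Finset.sum_subtype
      intro x; simp
    rw [h6]
    ring
  have h5 : classInner (fun x => H76Coset.cosetInd M 1 x * χ x) ψ ≠ 0 := by
    rw [h4]
    rw [classInner_def] at h3
    have h6 := right_ne_zero_of_mul h3
    exact mul_ne_zero (Nat.cast_ne_zero.2 Subgroup.index_ne_zero_of_finite)
      (mul_ne_zero (inv_ne_zero (Nat.cast_ne_zero.2 Nat.card_pos.ne')) h6)
  have h6 : (fun x => H76Coset.cosetInd M 1 x * χ x) = ∑ lam : IrrCharacter (G ⧸ M),
      conj ((lam : G ⧸ M → ℂ) ((1 : G) : G ⧸ M)) • (H76Coset.infl M (lam : G ⧸ M → ℂ) * χ) := by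
    funext x
    simp only [H76Coset.cosetInd, Finset.sum_mul, Finset.sum_apply, Pi.smul_apply, Pi.mul_apply, smul_eq_mul, H76Coset.infl]
    exact Finset.sum_congr rfl fun _ _ => by ring
  rw [h6, classInner_sum_left] at h5
  obtain ⟨lam, -, h7⟩ := Finset.exists_ne_zero_of_sum_ne_zero h5
  rw [classInner_smul_left] at h7
  have h8 := right_ne_zero_of_mul h7
  have hl := H76Coset.isIrr_infl M lam.2
  have hl1 : H76Coset.infl M (lam : G ⧸ M → ℂ) 1 = 1 := by
    show (lam : G ⧸ M → ℂ) ((1 : G) : G ⧸ M) = 1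
    rw [QuotientGroup.mk_one]
    exact lam.2.one_eq_one_of_comm hab
  have h9 : IsIrrCharacter G (H76Coset.infl M (lam : G ⧸ M → ℂ) * χ) := by
    have := hχ.mul_linear hl.isCharacter hl1
    rwa [mul_comm] at this
  have h10 : H76Coset.infl M (lam : G ⧸ M → ℂ) * χ = ψ := by
    by_contra hne
    exact h8 (h9.classInner_eq_zero hψ hne)
  obtain ⟨f, hf⟩ := hl.isCharacter.exists_hom hl1
  refine ⟨f, fun m => ?_, ?_⟩
  · apply Units.ext
    rw [← hf]
    show (lam : G ⧸ M → ℂ) ((m : G) : G ⧸ M) = 1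
    rw [(QuotientGroup.eq_one_iff (m : G)).2 m.2]
    exact lam.2.one_eq_one_of_comm hab
  · rw [← h10]
    funext g
    rw [Pi.mul_apply, hf]

/-- multiplication by linear characters -/
def mulIrr (G : Type u) [Group G] [Finite G] : (G →* ℂˣ) →* Equiv.Perm (IrrCharacter G) where
  toFun l :=
    { toFun := fun χ => ⟨fun g => (l g : ℂ) * (χ : G → ℂ) g, by
        have := χ.2.mul_linear (isCharacter_of_unitsHom l) (by simp)
        rwa [mul_comm] at this⟩
      invFun := fun χ => ⟨fun g => (l⁻¹ g : ℂˣ) * (χ : G → ℂ) g, by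
        have := χ.2.mul_linear (isCharacter_of_unitsHom l⁻¹) (by simp)
        rwa [mul_comm] at this⟩
      left_inv := fun χ => by
        apply Subtype.ext; funext g
        show ((l⁻¹ g : ℂˣ) : ℂ) * ((l g : ℂ) * (χ : G → ℂ) g) = _
        rw [← mul_assoc, ← Units.val_mul, MonoidHom.inv_apply, inv_mul_cancel, Units.val_one, one_mul]
      right_inv := fun χ => by
        apply Subtype.ext; funext g
        show (l g : ℂ) * (((l⁻¹ g : ℂˣ) : ℂ) * (χ : G → ℂ) g) = _
        rw [← mul_assoc, ← Units.val_mul, MonoidHom.inv_apply, mul_inv_cancel, Units.val_one, one_mul] }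
  map_one' := by
    apply Equiv.ext; intro χ; apply Subtype.ext; funext g
    show (((1 : G →* ℂˣ) g : ℂˣ) : ℂ) * (χ : G → ℂ) g = (χ : G → ℂ) g
    simp
  map_mul' l m := by
    apply Equiv.ext; intro χ; apply Subtype.ext; funext g
    show (((l * m) g : ℂˣ) : ℂ) * (χ : G → ℂ) g = (l g : ℂ) * ((m g : ℂ) * (χ : G → ℂ) g)
    rw [MonoidHom.mul_apply, Units.val_mul, mul_assoc]

theorem mulIrr_apply {G : Type u} [Group G] [Finite G] (l : G →* ℂˣ) (χ : IrrCharacter G) (g : G) :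
    ((mulIrr G l χ : IrrCharacter G) : G → ℂ) g = (l g : ℂ) * (χ : G → ℂ) g := rfl

/-- linear characters trivial on `M` -/
def linTriv {G : Type u} [Group G] (M : Subgroup G) : Subgroup (G →* ℂˣ) where
  carrier := {l | ∀ m ∈ M, l m = 1}
  mul_mem' := fun {a b} ha hb m hm => by rw [MonoidHom.mul_apply, ha m hm, hb m hm, one_mul]
  one_mem' := fun m _ => rfl
  inv_mem' := fun {a} ha m hm => by rw [MonoidHom.inv_apply, ha m hm, inv_one]

/-- the abelian step -/
theorem above_abelian {G S M : Subgroup Γ} (hMG : M ≤ G) [hMn : (M.subgroupOf G).Normal] [Fintype M]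
    (hnorm : ∀ s ∈ S, ∀ g ∈ G, s * g * s⁻¹ ∈ G) (hMS : ∀ s ∈ S, ∀ n ∈ M, s * n * s⁻¹ ∈ M)
    (hab : ∀ a b : G ⧸ M.subgroupOf G, a * b = b * a)
    (hcop : (M.relIndex G).Coprime (G.relIndex S)) (φ : IrrCharacter M)
    (hinv : ∀ s ∈ S, ∀ g g' : M, (g' : Γ) = s * g * s⁻¹ → (φ : M → ℂ) g' = (φ : M → ℂ) g) :
    ∃ χ : IrrCharacter G, classInner (fun n : M => (χ : G → ℂ) ⟨n, hMG n.2⟩) (φ : M → ℂ) ≠ 0 ∧
      ∀ s ∈ S, ∀ g g' : G, (g' : Γ) = s * g * s⁻¹ → (χ : G → ℂ) g' = (χ : G → ℂ) g := by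
  classical
  have := Fintype.ofFinite G
  have hSQ : S ≤ Subgroup.normalizer (G : Set Γ) := by
    intro s hs
    rw [Subgroup.mem_normalizer_iff]
    intro y
    refine ⟨hnorm s hs y, fun hy => ?_⟩
    have := hnorm s⁻¹ (S.inv_mem hs) _ hy
    have h2 : s⁻¹ * (s * y * s⁻¹) * s⁻¹⁻¹ = y := by group
    rwa [h2] at this
  let Q := Subgroup.normalizer (G : Set Γ)
  let S' : Subgroup Q := S.subgroupOf Q
  let M' := M.subgroupOf G
  let K := (linTriv M').map (mulIrr G)
  have hker : G.subgroupOf Q ≤ (T G).ker := by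
    intro x hx
    exact T_mem G hx
  have hcS : Nat.card (S'.map (T G)) ∣ G.relIndex S := by
    rw [← Subgroup.relIndex_ker, ← Subgroup.relIndex_subgroupOf hSQ]
    exact Subgroup.relIndex_dvd_of_le_left _ hker
  have hpow : ∀ k ∈ K, k ^ M.relIndex G = 1 := by
    rintro _ ⟨l, hl, rfl⟩
    rw [← map_pow]
    have : l ^ M.relIndex G = 1 := by
      ext g
      rw [MonoidHom.pow_apply]
      have := LinExt.pow_index_eq_one_of_trivial (N := M') l (fun n => hl n n.2) g
      rw [show M.relIndex G = M'.index from rfl, this]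
      rfl
    rw [this, map_one]
  obtain ⟨χ₀, hχ₀⟩ := exists_over hMG φ
  obtain ⟨k, hk, hfix⟩ := exists_fixed (T G) S' K (by
      rintro s hs _ ⟨l, hl, rfl⟩
      refine ⟨l.comp ((G.normalizerMonoidHom s)⁻¹ : MulAut G).toMonoidHom, ?_, ?_⟩
      · intro m hm
        apply hl
        have h1 := hMS _ (S.inv_mem hs) _ hm
        rw [← map_inv]
        exact h1
      · apply Equiv.ext
        intro χ
        apply Subtype.ext
        funext g
        rw [Equiv.Perm.mul_apply, Equiv.Perm.mul_apply, mulIrr_apply]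
        show _ = ((mulIrr G l ((T G s)⁻¹ χ) : IrrCharacter G) : G → ℂ) ((G.normalizerMonoidHom s)⁻¹ g)
        rw [mulIrr_apply]
        congr 1
        rw [← map_inv, ← map_inv]
        show (χ : G → ℂ) g = (χ : G → ℂ) ((G.normalizerMonoidHom s⁻¹)⁻¹ (G.normalizerMonoidHom s⁻¹ g))
        rw [MulAut.inv_apply_self])
    (by
      rw [Nat.coprime_comm]
      apply Nat.coprime_of_dvd
      intro p hp hpK hpS
      haveI : Fact p.Prime := ⟨hp⟩
      obtain ⟨⟨k, hk⟩, hk'⟩ := exists_prime_orderOf_dvd_card' p hpK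
      have h1 : (⟨k, hk⟩ : K) ^ M.relIndex G = 1 := Subtype.ext (hpow k hk)
      have h2 := orderOf_dvd_of_pow_eq_one h1
      rw [hk'] at h2
      exact hp.one_lt.ne' (Nat.eq_one_of_dvd_coprimes hcop h2 (hpS.trans hcS))) (by
      right
      have hc : ∀ a b : K, a * b = b * a := by
        rintro ⟨_, l, hl, rfl⟩ ⟨_, m, hm, rfl⟩
        apply Subtype.ext
        show mulIrr G l * mulIrr G m = mulIrr G m * mulIrr G l
        rw [← map_mul, ← map_mul]
        exact congrArg (mulIrr G) (mul_comm l m)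
      exact Group.isSolvable_of_comm hc) χ₀ (by
      intro s hs
      -- `s χ₀` lies over `φ`
      have h1 : classInner (fun n : M => ((T G s χ₀ : IrrCharacter G) : G → ℂ) ⟨n, hMG n.2⟩) (φ : M → ℂ) ≠ 0 := by
        have hsM : (s : Γ) ∈ Subgroup.normalizer (M : Set Γ) := by
          rw [Subgroup.mem_normalizer_iff]
          intro y
          refine ⟨hMS s hs y, fun hy => ?_⟩
          have h1 : (s : Γ)⁻¹ * (s * y * (s : Γ)⁻¹) * (s : Γ)⁻¹⁻¹ ∈ M := hMS _ (S.inv_mem hs) _ hy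
          have h2 : (s : Γ)⁻¹ * (s * y * (s : Γ)⁻¹) * (s : Γ)⁻¹⁻¹ = y := by group
          rwa [h2] at h1
        have h2 := classInner_comp_equiv (M.normalizerMonoidHom (⟨s, hsM⟩⁻¹ : Subgroup.normalizer (M : Set Γ)))
          (fun n : M => (χ₀ : G → ℂ) ⟨n, hMG n.2⟩) (φ : M → ℂ)
        rw [← h2] at hχ₀
        convert hχ₀ using 2
        · funext n
          exact T_apply G s χ₀ ⟨n, hMG n.2⟩ _ (by
            show (s : Γ)⁻¹ * n * ((s : Γ)⁻¹)⁻¹ = _
            rw [inv_inv])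
        · funext n
          exact (hinv _ (S.inv_mem hs) n _ rfl).symm
      rw [← inner_subgroupOf hMG] at h1
      have h2 := hχ₀
      rw [← inner_subgroupOf hMG] at h2
      obtain ⟨l, hl, h3⟩ := exists_twist hab χ₀.2 (T G s χ₀).2 (irr_subgroupOf hMG φ.2) h2 h1
      refine ⟨mulIrr G l, ⟨l, fun m hm => hl ⟨m, hm⟩, rfl⟩, ?_⟩
      apply Subtype.ext
      rw [h3]
      funext g
      rw [mulIrr_apply])
  obtain ⟨l, hl, rfl⟩ := hk
  refine ⟨mulIrr G l χ₀, ?_, ?_⟩
  · convert hχ₀ using 2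
    funext n
    rw [mulIrr_apply, hl ⟨n, hMG n.2⟩ n.2, Units.val_one, one_mul]
  · intro s hs
    exact (T_eq_iff G ⟨s, hSQ hs⟩ _).1 (hfix ⟨s, hSQ hs⟩ hs)

theorem conj_sup {H K : Subgroup Γ} {x : Γ} (hH : ∀ h ∈ H, x * h * x⁻¹ ∈ H) (hK : ∀ h ∈ K, x * h * x⁻¹ ∈ K) :
    ∀ h ∈ H ⊔ K, x * h * x⁻¹ ∈ H ⊔ K := by
  have h1 : (H ⊔ K).map (MulAut.conj x).toMonoidHom ≤ H ⊔ K := by
    rw [Subgroup.map_sup]
    apply sup_le_sup
    · rintro _ ⟨h, hh, rfl⟩
      exact hH h hh
    · rintro _ ⟨h, hh, rfl⟩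
      exact hK h hh
  intro h hh
  exact h1 ⟨h, hh, rfl⟩

theorem conj_comm {H : Subgroup Γ} {x : Γ} (hH : ∀ h ∈ H, x * h * x⁻¹ ∈ H) :
    ∀ h ∈ ⁅H, H⁆, x * h * x⁻¹ ∈ ⁅H, H⁆ := by
  have h1 : ⁅H, H⁆.map (MulAut.conj x).toMonoidHom ≤ ⁅H, H⁆ := by
    rw [Subgroup.map_commutator]
    apply Subgroup.commutator_mono
    · rintro _ ⟨h, hh, rfl⟩
      exact hH h hh
    · rintro _ ⟨h, hh, rfl⟩
      exact hH h hh
  intro h hh
  exact h1 ⟨h, hh, rfl⟩

/-- **Isaacs 13.29/13.31 (solvable section)**: an invariant character has an invariant constituent above. -/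
theorem above_solvable {S : Subgroup Γ} {N : Subgroup Γ} [Fintype N] (hNS : ∀ s ∈ S, ∀ n ∈ N, s * n * s⁻¹ ∈ N)
    (θ : IrrCharacter N)
    (hinv : ∀ s ∈ S, ∀ g g' : N, (g' : Γ) = s * g * s⁻¹ → (θ : N → ℂ) g' = (θ : N → ℂ) g) (n : ℕ) :
    ∀ (G : Subgroup Γ) (hNG : N ≤ G) [(N.subgroupOf G).Normal], N.relIndex G = n →
    (∀ s ∈ S, ∀ g ∈ G, s * g * s⁻¹ ∈ G) → (N.relIndex G).Coprime (N.relIndex S) →
    Group.IsSolvable (G ⧸ N.subgroupOf G) →
    ∃ χ : IrrCharacter G, classInner (fun n : N => (χ : G → ℂ) ⟨n, hNG n.2⟩) (θ : N → ℂ) ≠ 0 ∧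
      ∀ s ∈ S, ∀ g g' : G, (g' : Γ) = s * g * s⁻¹ → (χ : G → ℂ) g' = (χ : G → ℂ) g := by
  induction n using Nat.strong_induction_on with
  | _ n ih =>
  intro G hNG hNn hn hnorm hcop hsolv
  by_cases hGN : G = N
  · subst hGN
    refine ⟨θ, ?_, hinv⟩
    show classInner (θ : G → ℂ) (θ : G → ℂ) ≠ 0
    rw [θ.2.classInner_self]; exact one_ne_zero
  · let M : Subgroup Γ := ⁅G, G⁆ ⊔ N
    have hcG : ⁅G, G⁆ ≤ G := Subgroup.commutator_le_self G
    have hMG : M ≤ G := sup_le hcG hNG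
    have hNM : N ≤ M := le_sup_right
    have hNconj : ∀ g ∈ G, ∀ n ∈ N, g * n * g⁻¹ ∈ N := by
      intro g hg n hn
      exact hNn.conj_mem ⟨n, hNG hn⟩ hn ⟨g, hg⟩
    have hMconj : ∀ g ∈ G, ∀ n ∈ M, g * n * g⁻¹ ∈ M := by
      intro g hg
      exact conj_sup (conj_comm fun h hh => G.mul_mem (G.mul_mem hg hh) (G.inv_mem hg)) (hNconj g hg)
    have hMS : ∀ s ∈ S, ∀ n ∈ M, s * n * s⁻¹ ∈ M := by
      intro s hs
      exact conj_sup (conj_comm (hnorm s hs)) (hNS s hs)
    have hMn : (M.subgroupOf G).Normal := ⟨fun n hn g => hMconj g g.2 n hn⟩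
    have hNMn : (N.subgroupOf M).Normal := ⟨fun n hn g => hNconj g (hMG g.2) n hn⟩
    have hab : ∀ a b : G ⧸ M.subgroupOf G, a * b = b * a := by
      intro a b
      obtain ⟨a, rfl⟩ := QuotientGroup.mk_surjective a
      obtain ⟨b, rfl⟩ := QuotientGroup.mk_surjective b
      show ((a * b : G) : G ⧸ M.subgroupOf G) = ((b * a : G) : G ⧸ M.subgroupOf G)
      rw [QuotientGroup.eq]
      have h1 : (a * b)⁻¹ * (b * a) = ⁅b⁻¹, a⁻¹⁆ := by
        rw [commutatorElement_def]; group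
      rw [h1, Subgroup.mem_subgroupOf]
      apply Subgroup.mem_sup_left
      exact Subgroup.commutator_mem_commutator (G.inv_mem b.2) (G.inv_mem a.2)
    have hne : M ≠ G := by
      intro hMG'
      have : Nontrivial (G ⧸ N.subgroupOf G) := by
        rw [← not_subsingleton_iff_nontrivial]
        intro hs
        apply hGN
        apply le_antisymm _ hNG
        intro g hg
        have := Subsingleton.elim (((⟨g, hg⟩ : G) : G ⧸ N.subgroupOf G)) 1
        rw [QuotientGroup.eq_one_iff] at this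
        exact this
      have h1 := Group.IsSolvable.commutator_lt_top_of_nontrivial (G ⧸ N.subgroupOf G)
      apply h1.ne
      rw [eq_top_iff]
      intro x _
      obtain ⟨⟨x, hx⟩, rfl⟩ := QuotientGroup.mk_surjective x
      have hx2 : x ∈ M := by rw [hMG']; exact hx
      have h2 : (M.subgroupOf G).map (QuotientGroup.mk' (N.subgroupOf G)) ≤ commutator (G ⧸ N.subgroupOf G) := by
        have h3 : M.subgroupOf G ≤ commutator G ⊔ N.subgroupOf G := by
          have h4 : M = (commutator G ⊔ N.subgroupOf G).map G.subtype := by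
            rw [Subgroup.map_sup, Subgroup.subgroupOf_map_subtype, inf_eq_left.2 hNG, commutator_def,
              Subgroup.map_commutator, ← MonoidHom.range_eq_map, Subgroup.range_subtype]
          rw [h4]
          intro y hy
          rw [Subgroup.mem_subgroupOf] at hy
          obtain ⟨z, hz, hzy⟩ := hy
          have : z = y := Subtype.ext hzy
          rwa [← this]
        refine (Subgroup.map_mono h3).trans ?_
        rw [Subgroup.map_sup, QuotientGroup.map_mk'_self, sup_bot_eq, commutator_def, Subgroup.map_commutator]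
        exact Subgroup.commutator_mono le_top le_top
      exact h2 ⟨⟨x, hx⟩, hx2, rfl⟩
    have hmul : N.relIndex M * M.relIndex G = N.relIndex G := Subgroup.relIndex_mul_relIndex N M G hNM hMG
    have hlt : N.relIndex M < n := by
      rw [← hn, ← hmul]
      have h1 : M.relIndex G ≠ 1 := by
        rw [Ne, Subgroup.relIndex_eq_one]
        intro h; exact hne (le_antisymm hMG h)
      have h2 : M.relIndex G ≠ 0 := Subgroup.index_ne_zero_of_finite (H := M.subgroupOf G)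
      have h3 : 0 < N.relIndex M := Nat.pos_of_ne_zero (Subgroup.index_ne_zero_of_finite (H := N.subgroupOf M))
      apply lt_mul_of_one_lt_right h3
      omega
    have hcop1 : (N.relIndex M).Coprime (N.relIndex S) := hcop.coprime_dvd_left (Dvd.intro _ hmul)
    have hsolvM : Group.IsSolvable (M ⧸ N.subgroupOf M) := by
      let f : M ⧸ N.subgroupOf M →* G ⧸ N.subgroupOf G := QuotientGroup.map _ _ (Subgroup.inclusion hMG) (fun x hx => hx)
      have hf : Function.Injective f := by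
        rw [injective_iff_map_eq_one]
        intro x hx
        obtain ⟨x, rfl⟩ := QuotientGroup.mk_surjective x
        have hx' : ((Subgroup.inclusion hMG x : G) : G ⧸ N.subgroupOf G) = 1 := hx
        rw [QuotientGroup.eq_one_iff] at hx' ⊢
        exact hx'
      exact Group.isSolvable_of_isSolvable_injective hf
    obtain ⟨φ, hφ1, hφ2⟩ := ih _ hlt M hNM rfl hMS hcop1 hsolvM
    have := Fintype.ofFinite M
    obtain ⟨χ, hχ1, hχ2⟩ := above_abelian hMG hnorm hMS hab (by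
      refine (hcop.coprime_dvd_left (Dvd.intro_left _ hmul)).coprime_dvd_right ?_
      exact Subgroup.relIndex_dvd_of_le_left S hNG) φ hφ2
    exact ⟨χ, over_trans hMG hNM χ.2 φ.2 θ.2 hχ1 hφ1, hχ2⟩

end ov

end Cfsg.Agent.Lib.GlaubPerm
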