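import Mathlib

/-! Gleason's lemma (helper13). -/

set_option autoImplicit false

namespace Cfsg.Agent.Lib.Gleason

open MulAction

lemma transitive_of_pgroups {G α : Type*} [Group G] [MulAction G α] [Finite α] {p : ℕ}
    (hp : p.Prime) (h : ∀ x : α, ∃ P : Subgroup G, IsPGroup p P ∧ fixedPoints P α = {x}) :
    IsPretransitive G α := by
  classical
  have := Fact.mk hp
  refine ⟨fun x y => ?_⟩
  by_contra hxy
  have hy : y ∉ orbit G x := by
    rintro ⟨g, hg⟩
    exact hxy ⟨g, hg⟩
  obtain ⟨P, hP, hPx⟩ := h x
  obtain ⟨R, hR, hRy⟩ := h y
  have h1 := hP.card_modEq_card_fixedPoints (orbit G x)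
  have h2 := hR.card_modEq_card_fixedPoints (orbit G x)
  have c1 : Nat.card (fixedPoints P (orbit G x)) = 1 := by
    rw [Nat.card_eq_one_iff_unique]
    constructor
    · constructor
      rintro ⟨a, ha⟩ ⟨b, hb⟩
      apply Subtype.ext
      apply Subtype.ext
      have ha' : (a : α) ∈ fixedPoints P α := fun g => congrArg Subtype.val (ha g)
      have hb' : (b : α) ∈ fixedPoints P α := fun g => congrArg Subtype.val (hb g)
      rw [hPx] at ha' hb'
      exact ha'.trans hb'.symm
    · refine ⟨⟨⟨x, mem_orbit_self x⟩, ?_⟩⟩
      intro g
      apply Subtype.ext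
      have hx' : x ∈ fixedPoints P α := by rw [hPx]; rfl
      exact hx' g
  have c2 : Nat.card (fixedPoints R (orbit G x)) = 0 := by
    rw [Nat.card_eq_zero]
    left
    constructor
    rintro ⟨a, ha⟩
    have ha' : (a : α) ∈ fixedPoints R α := fun g => congrArg Subtype.val (ha g)
    rw [hRy] at ha'
    apply hy
    have : (a : α) = y := ha'
    rw [← this]
    exact a.2
  rw [c1] at h1
  rw [c2] at h2
  have h3 : 1 ≡ 0 [MOD p] := h1.symm.trans h2
  have h4 : p ∣ 1 := (Nat.modEq_zero_iff_dvd).1 h3
  exact hp.one_lt.ne' (Nat.dvd_one.1 h4)

theorem main : ∀ (k : ℕ) {G α : Type*} [Group G] [MulAction G α] [Finite α] {p : ℕ}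
    (_ : p.Prime) (_ : k + 1 < Nat.card α)
    (_ : ∀ s : Set α, s.ncard = k + 1 → ∃ P : Subgroup G, IsPGroup p P ∧ fixedPoints P α = s),
    IsMultiplyPretransitive G α (k + 1) := by
  intro k
  induction k with
  | zero =>
    intro G α _ _ _ p hp _ h
    rw [zero_add, is_one_pretransitive_iff]
    exact transitive_of_pgroups hp fun x => h {x} (by simp)
  | succ k ih =>
    intro G α _ _ _ p hp hk h
    classical
    -- the stabiliser of each point is (k+1)-transitive on the remaining points
    have hstab : ∀ x : α, IsMultiplyPretransitive (stabilizer G x)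
        (SubMulAction.ofStabilizer G x) (k + 1) := by
      intro x
      apply ih hp
      · have : Nat.card (SubMulAction.ofStabilizer G x) + 1 = Nat.card α :=
          SubMulAction.nat_card_ofStabilizer_add_one_eq G x
        omega
      · intro s hs
        have hx : x ∉ (Subtype.val '' s : Set α) := by
          rintro ⟨y, _, hyx⟩
          exact y.2 hyx
        have hcard : (insert x (Subtype.val '' s) : Set α).ncard = k + 1 + 1 := by
          rw [Set.ncard_insert_of_notMem hx (Set.toFinite _),
            Set.ncard_image_of_injective _ Subtype.val_injective, hs]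
        obtain ⟨P, hP, hPs⟩ := h _ hcard
        have hPx : P ≤ stabilizer G x := by
          intro g hg
          have : x ∈ fixedPoints P α := by rw [hPs]; exact Set.mem_insert _ _
          exact this ⟨g, hg⟩
        refine ⟨P.subgroupOf (stabilizer G x), ?_, ?_⟩
        · exact hP.of_equiv (Subgroup.subgroupOfEquivOfLe hPx).symm
        · ext y
          constructor
          · intro hy
            have hy' : (y : α) ∈ fixedPoints P α := by
              intro g
              have := hy ⟨⟨g.1, hPx g.2⟩, g.2⟩
              exact congrArg Subtype.val this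
            rw [hPs] at hy'
            rcases hy' with h' | ⟨z, hz, hzy⟩
            · exact absurd h' y.2
            · rwa [← Subtype.ext hzy]
          · intro hy g
            apply Subtype.ext
            have hy' : (y : α) ∈ fixedPoints P α := by
              rw [hPs]
              exact Set.mem_insert_of_mem _ ⟨y, hy, rfl⟩
            exact hy' ⟨g.1.1, g.2⟩
    have htr : ∀ x : α, IsPretransitive (stabilizer G x) (SubMulAction.ofStabilizer G x) := by
      intro x
      have := hstab x
      have h1 : IsMultiplyPretransitive (stabilizer G x) (SubMulAction.ofStabilizer G x) 1 := by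
        have hle : 1 ≤ k + 1 := by omega
        apply isMultiplyPretransitive_of_le hle
        have : Nat.card (SubMulAction.ofStabilizer G x) + 1 = Nat.card α :=
          SubMulAction.nat_card_ofStabilizer_add_one_eq G x
        omega
      rwa [is_one_pretransitive_iff] at h1
    have hG : IsPretransitive G α := by
      refine ⟨fun x y => ?_⟩
      obtain ⟨z, hz⟩ : ∃ z, z ∉ ({x, y} : Set α) := by
        by_contra hcon
        push Not at hcon
        have h1 : (Set.univ : Set α) ⊆ {x, y} := fun z _ => hcon z
        have h2 := Set.ncard_le_ncard h1 (Set.toFinite _)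
        rw [Set.ncard_univ] at h2
        have h3 : ({x, y} : Set α).ncard ≤ 2 := by
          have := Set.ncard_insert_le x ({y} : Set α)
          rw [Set.ncard_singleton] at this
          exact this
        omega
      simp only [Set.mem_insert_iff, Set.mem_singleton_iff, not_or] at hz
      obtain ⟨g, hg⟩ := (htr z).exists_smul_eq ⟨x, fun h => hz.1 h.symm⟩ ⟨y, fun h => hz.2 h.symm⟩
      exact ⟨g, congrArg Subtype.val hg⟩
    have hne : Nonempty α := by
      by_contra hcon
      rw [not_nonempty_iff] at hcon
      simp at hk
    obtain ⟨x⟩ := hne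
    exact SubMulAction.ofStabilizer.isMultiplyPretransitive.2 (hstab x)

end Cfsg.Agent.Lib.Gleason
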