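import Cfsg.Agent.Lib.GolayModule

/-!
A linear automorphism of the length-24 code fixing the all-one word and sending each octad to an
octad or its complement is, modulo the all-one word, a coordinate permutation.
-/

set_option autoImplicit false

namespace Cfsg.Agent.Lib.GolayAut

open Cfsg Cfsg.Agent.Lib.Golay Cfsg.Agent.Lib.GolayCoset Cfsg.Agent.Lib.GolayModule
open scoped Pointwise

/-- number of octads meeting `s` in an odd number of points -/
def oddCount (s : Finset GolayPt) : ℕ := ((wordsF 8).filter fun o => (o ∩ s).card % 2 = 1).card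

theorem oddCount_mset (m : ℕ) : oddCount (mset m) = cntLt 4096 (fun n =>
    cond (Nat.beq (pc (enc n)) 8) (Nat.beq (Nat.mod (pc (Nat.land (enc n) m)) 2) 1) false) := by
  rw [cntLt_eq]
  have h : (wordsF 8).filter (fun o => (o ∩ mset m).card % 2 = 1) =
      ((Finset.range 4096).filter fun n => (cond (Nat.beq (pc (enc n)) 8)
        (Nat.beq (Nat.mod (pc (Nat.land (enc n) m)) 2) 1) false) = true).image fun n => mset (enc n) := by
    ext s
    simp only [Finset.mem_filter, mem_wordsF, Finset.mem_image, Finset.mem_range, cond_false_eq]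
    constructor
    · rintro ⟨⟨n, hn, rfl, h8⟩, h1⟩
      refine ⟨n, ⟨hn, ?_, ?_⟩, rfl⟩
      · rw [h8]; rfl
      · rw [← mset_and, card_mset] at h1
        exact Nat.beq_eq.symm ▸ h1
    · rintro ⟨n, ⟨hn, h8, h1⟩, rfl⟩
      refine ⟨⟨n, hn, rfl, Nat.eq_of_beq_eq_true h8⟩, ?_⟩
      rw [← mset_and, card_mset]
      exact Nat.eq_of_beq_eq_true h1
  rw [oddCount, h, Finset.card_image_of_injOn]
  intro a ha b hb h
  simp only [Finset.coe_filter, Finset.mem_range, Set.mem_ofPred_eq] at ha hb
  exact enc_injOn ha.1 hb.1 (mset_injOn (enc_lt _) (enc_lt _) h)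

theorem oddCount_smul {g : Equiv.Perm GolayPt} (hg : g ∈ M24) (s : Finset GolayPt) :
    oddCount (g • s) = oddCount s := by
  symm
  apply Finset.card_bij (fun o _ => g • o)
  · intro o ho
    simp only [Finset.mem_filter, mem_wordsF_eight] at ho ⊢
    refine ⟨(smul_mem_octads hg).2 ho.1, ?_⟩
    rw [← smul_inter', card_smul']
    exact ho.2
  · intro o _ o' _ h
    exact smul_left_cancel g h
  · intro o ho
    simp only [Finset.mem_filter, mem_wordsF_eight] at ho
    refine ⟨g⁻¹ • o, ?_, smul_inv_smul g o⟩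
    simp only [Finset.mem_filter, mem_wordsF_eight]
    refine ⟨(smul_mem_octads (M24.inv_mem hg)).2 ho.1, ?_⟩
    rw [← ho.2, ← card_smul' g (g⁻¹ • o ∩ s), smul_inter', smul_inv_smul]

theorem oddCount_two {s : Finset GolayPt} (hs : s.card = 2) : oddCount s = 352 := by
  obtain ⟨g, hg, h⟩ := exists_smul_eq_of_card (s := s) (t := mset 3) (by omega)
    (by rw [hs, card_mset]; decide +kernel)
  rw [← oddCount_smul hg, h, oddCount_mset]
  decide +kernel

theorem oddCount_four {s : Finset GolayPt} (hs : s.card = 4) : oddCount s = 384 := by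
  obtain ⟨g, hg, h⟩ := exists_smul_eq_of_card (s := s) (t := mset 15) (by omega)
    (by rw [hs, card_mset]; decide +kernel)
  rw [← oddCount_smul hg, h, oddCount_mset]
  decide +kernel

theorem oddCount_empty : oddCount ∅ = 0 := by
  simp [oddCount]

/-- sum of a word over a set -/
def sm (s : Finset GolayPt) (w : GolayPt → ZMod 2) : ZMod 2 := ∑ i ∈ s, w i

theorem sm_eq (s : Finset GolayPt) (w : GolayPt → ZMod 2) : sm s w = ∑ i, w i * wordOf s i := by
  simp only [wordOf, mul_ite, mul_one, mul_zero, sm, Finset.sum_ite_mem, Finset.univ_inter]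

theorem sm_symmDiff (s t : Finset GolayPt) (w : GolayPt → ZMod 2) : sm (symmDiff s t) w = sm s w + sm t w := by
  rw [sm_eq, sm_eq, sm_eq, wordOf_symmDiff, ← Finset.sum_add_distrib]
  exact Finset.sum_congr rfl fun i _ => by rw [Pi.add_apply, mul_add]

theorem sm_add (s : Finset GolayPt) (v w : GolayPt → ZMod 2) : sm s (v + w) = sm s v + sm s w := by
  simp only [sm, Pi.add_apply, Finset.sum_add_distrib]

theorem sm_wordOf (s o : Finset GolayPt) : sm s (wordOf o) = ((o ∩ s).card : ZMod 2) := by
  simp only [sm, wordOf, Finset.sum_ite_mem, Finset.sum_const, nsmul_eq_mul, mul_one, Finset.inter_comm]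

theorem sm_wordOf_eq_one (s o : Finset GolayPt) : sm s (wordOf o) = 1 ↔ (o ∩ s).card % 2 = 1 := by
  rw [sm_wordOf, ← Nat.cast_one, ZMod.natCast_eq_natCast_iff]
  rfl

/-- a functional on the code is summation over a set of at most four points -/
theorem functional (f : golayCode →ₗ[ZMod 2] ZMod 2) :
    ∃ t : Finset GolayPt, t.card ≤ 4 ∧ ∀ c : golayCode, f c = sm t c := by
  obtain ⟨F, hF⟩ := LinearMap.exists_extend f
  obtain ⟨w, hw⟩ : ∃ w : GolayPt → ZMod 2, w = fun i => F (fun j => if i = j then 1 else 0) := ⟨_, rfl⟩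
  have h1 : ∀ v, F v = ∑ i, v i * w i := by
    intro v
    have := LinearMap.pi_apply_eq_sum_univ F v
    rw [this, hw]
    simp only [smul_eq_mul]
  obtain ⟨t, ht4, ht⟩ := exists_leader (support₂ w)
  refine ⟨t, ht4, fun c => ?_⟩
  have h2 : f c = F c := by rw [← hF]; rfl
  rw [h2, h1, sm_eq]
  have h3 : w + wordOf t ∈ golayCode := by
    have := (wordOf_mem_iff _).2 ht
    rwa [wordOf_symmDiff, wordOf_support] at this
  have h4 := golay_dot _ _ c.2 h3
  have h5 : ∑ i, (c : GolayPt → ZMod 2) i * w i + ∑ i, (c : GolayPt → ZMod 2) i * wordOf t i = 0 := by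
    rw [← h4, ← Finset.sum_add_distrib]
    exact Finset.sum_congr rfl fun i _ => by rw [Pi.add_apply, mul_add]
  have h6 : ∀ a b : ZMod 2, a + b = 0 → a = b := by decide
  exact h6 _ _ h5

theorem sm_one (t : Finset GolayPt) : sm t (fun _ => 1) = (t.card : ZMod 2) := by
  simp [sm]

theorem one_mem : (fun _ => (1 : ZMod 2)) ∈ golayCode := Submodule.subset_span (Set.mem_union_right _ rfl)

/-- the all-one word as a code word -/
def oneC : golayCode := ⟨fun _ => 1, one_mem⟩

/-- sets orthogonal to the code are code sets -/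
theorem mem_CS_of_sm {t : Finset GolayPt} (h : ∀ c : golayCode, sm t c = 0) : t ∈ CS := by
  rw [← wordOf_mem_iff]
  apply Cfsg.Agent.Lib.GolayFix.dual_mem
  intro v hv
  rw [← sm_eq]
  exact h ⟨v, hv⟩

theorem sm_of_CS {t : Finset GolayPt} (h : t ∈ CS) (c : golayCode) : sm t c = 0 := by
  rw [sm_eq]
  exact golay_dot _ _ c.2 ((wordOf_mem_iff _).2 h)

section

variable (x : golayCode ≃ₗ[ZMod 2] golayCode)

/-- `x` transposed sends `s` to `t` -/
def R (s t : Finset GolayPt) : Prop := ∀ c : golayCode, sm s (x c : GolayPt → ZMod 2) = sm t c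

variable {x}

theorem R.add {s t s' t' : Finset GolayPt} (h : R x s t) (h' : R x s' t') : R x (symmDiff s s') (symmDiff t t') := by
  intro c; rw [sm_symmDiff, sm_symmDiff, h c, h' c]

theorem add_self2 (a : ZMod 2) : a + a = 0 := by revert a; decide

theorem R.unique {s t t' : Finset GolayPt} (h : R x s t) (h' : R x s t') (hc : t.card + t'.card < 8) : t = t' := by
  apply eq_of_small _ hc
  apply mem_CS_of_sm
  intro c
  rw [sm_symmDiff, ← h c, ← h' c, add_self2]

theorem R.inj {s s' t : Finset GolayPt} (h : R x s t) (h' : R x s' t) (hc : s.card + s'.card < 8) : s = s' := by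
  apply eq_of_small _ hc
  apply mem_CS_of_sm
  intro c
  obtain ⟨d, rfl⟩ := x.surjective c
  rw [sm_symmDiff, h d, h' d, add_self2]

/-- hypothesis on octads -/
def OctHyp (x : golayCode ≃ₗ[ZMod 2] golayCode) : Prop :=
  ∀ o ∈ octads, ∀ c : golayCode, (c : GolayPt → ZMod 2) = wordOf o →
    ∃ o' ∈ octads, (x c : GolayPt → ZMod 2) = wordOf o' ∨ (x c : GolayPt → ZMod 2) = wordOf o' + fun _ => 1

/-- the code word of an octad -/
def oc (o : {o // o ∈ octads}) : golayCode := ⟨wordOf o.1, (wordOf_mem_iff _).2 o.2.1⟩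

theorem oddCount_of_R (hx1 : x oneC = oneC) (hx : OctHyp x) {s t : Finset GolayPt} (h : R x s t)
    (hs : s.card % 2 = 0) : oddCount t = oddCount s := by
  classical
  have h1 : ∀ o : {o // o ∈ octads}, ∃ o' : {o // o ∈ octads},
      (x (oc o) : GolayPt → ZMod 2) = wordOf o'.1 ∨ (x (oc o) : GolayPt → ZMod 2) = wordOf o'.1 + fun _ => 1 := by
    intro o
    obtain ⟨o', ho', h2⟩ := hx o.1 o.2 (oc o) rfl
    exact ⟨⟨o', ho'⟩, h2⟩
  choose g hg using h1
  have hs0 : sm s (fun _ => 1) = 0 := by
    rw [sm_one, ZMod.natCast_eq_zero_iff]; omega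
  have hcount : ∀ o : {o // o ∈ octads}, sm t (wordOf o.1) = sm s (wordOf (g o).1) := by
    intro o
    have h2 := h (oc o)
    rcases hg o with h3 | h3
    · rw [h3] at h2; exact h2.symm
    · rw [h3, sm_add, hs0, add_zero] at h2; exact h2.symm
  -- injectivity
  have hdiff : ∀ o o' : {o // o ∈ octads}, g o = g o' → x (oc o) = x (oc o') ∨ x (oc o) = x (oc o' + oneC) := by
    intro o o' h2
    rw [map_add, hx1]
    have h9 : ∀ w : GolayPt → ZMod 2, w + (fun _ => (1 : ZMod 2)) + (fun _ => (1 : ZMod 2)) = w := by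
      intro w; funext i; simp only [Pi.add_apply, add_assoc, add_self2, add_zero]
    rcases hg o with h3 | h3 <;> rcases hg o' with h4 | h4
    · left; apply Subtype.ext; rw [h3, h4, h2]
    · right; apply Subtype.ext
      rw [h3, Submodule.coe_add, h4, h2]
      exact (h9 _).symm
    · right; apply Subtype.ext
      rw [h3, Submodule.coe_add, h4, h2]
      rfl
    · left; apply Subtype.ext; rw [h3, h4, h2]
  have hinj : Function.Injective g := by
    intro o o' h2
    rcases hdiff o o' h2 with h3 | h3
    · have h4 := congrArg (fun z : golayCode => support₂ (z : GolayPt → ZMod 2)) (x.injective h3)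
      simp only [oc, support₂_wordOf] at h4
      exact Subtype.ext h4
    · exfalso
      have h4 := congrArg (fun z : golayCode => support₂ (z : GolayPt → ZMod 2)) (x.injective h3)
      simp only [oc, support₂_wordOf, Submodule.coe_add, support₂_add, oneC] at h4
      have h5 : support₂ (fun _ : GolayPt => (1 : ZMod 2)) = Finset.univ := by
        ext p; simp [support₂]
      rw [h5] at h4
      have h6 := card_symmDiff_add o'.1 Finset.univ
      rw [Finset.inter_univ, ← h4, o.2.2, o'.2.2, Finset.card_univ, card_pt] at h6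
      omega
  have hbij : Function.Bijective g := Finite.injective_iff_bijective.1 hinj
  unfold oddCount
  apply Finset.card_bij (fun o ho => (g ⟨o, mem_wordsF_eight.1 (Finset.mem_filter.1 ho).1⟩).1)
  · intro o ho
    rw [Finset.mem_filter] at ho ⊢
    refine ⟨mem_wordsF_eight.2 (g _).2, ?_⟩
    rw [← sm_wordOf_eq_one, ← hcount]
    exact (sm_wordOf_eq_one _ _).2 ho.2
  · intro o ho o' ho' h2
    have h3 := hinj (Subtype.ext h2)
    exact congrArg Subtype.val h3
  · intro o ho
    rw [Finset.mem_filter] at ho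
    obtain ⟨o', ho'⟩ := hbij.2 ⟨o, mem_wordsF_eight.1 ho.1⟩
    refine ⟨o'.1, ?_, ?_⟩
    · rw [Finset.mem_filter]
      refine ⟨mem_wordsF_eight.2 o'.2, ?_⟩
      rw [← sm_wordOf_eq_one, hcount, ho']
      exact (sm_wordOf_eq_one _ _).2 ho.2
    · rw [Subtype.coe_eta, ho']

theorem exists_R (hx1 : x oneC = oneC) (hx : OctHyp x) {s : Finset GolayPt} (hs : s.card = 2) :
    ∃ t : Finset GolayPt, t.card = 2 ∧ R x s t := by
  let f : golayCode →ₗ[ZMod 2] ZMod 2 :=
    { toFun := fun c => sm s (x c : GolayPt → ZMod 2)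
      map_add' := fun a b => by rw [map_add, Submodule.coe_add, sm_add]
      map_smul' := fun r a => by
        rw [map_smul, Submodule.coe_smul, RingHom.id_apply]
        simp only [sm, Pi.smul_apply, Finset.smul_sum] }
  obtain ⟨t, ht4, ht⟩ := functional f
  have hR : R x s t := ht
  have h1 : sm t (fun _ => 1) = 0 := by
    have h2 := hR oneC
    rw [hx1] at h2
    change sm s (fun _ => 1) = sm t (fun _ => 1) at h2
    rw [← h2, sm_one, hs]; decide
  rw [sm_one, ZMod.natCast_eq_zero_iff] at h1
  have h3 := oddCount_of_R hx1 hx hR (by rw [hs])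
  rw [oddCount_two hs] at h3
  have h4 : t.card = 0 ∨ t.card = 2 ∨ t.card = 4 := by omega
  rcases h4 with h4 | h4 | h4
  · rw [Finset.card_eq_zero] at h4
    rw [h4, oddCount_empty] at h3; omega
  · exact ⟨t, h4, hR⟩
  · rw [oddCount_four h4] at h3; omega

/-- the permutation -/
theorem exists_perm (hx1 : x oneC = oneC) (hx : OctHyp x) : ∃ σ : Equiv.Perm GolayPt,
    ∀ p q, p ≠ q → R x {p, q} {σ p, σ q} := by
  classical
  have h1 : ∀ p q : GolayPt, ∃ t : Finset GolayPt, p ≠ q → t.card = 2 ∧ R x {p, q} t := by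
    intro p q
    by_cases h : p = q
    · exact ⟨∅, fun h' => absurd h h'⟩
    · obtain ⟨t, ht⟩ := exists_R hx1 hx (s := {p, q}) (Finset.card_pair h)
      exact ⟨t, fun _ => ht⟩
  choose T hT using h1
  have hcomm : ∀ p q, p ≠ q → T p q = T q p := by
    intro p q hpq
    have h2 := (hT p q hpq).2
    rw [Finset.pair_comm] at h2
    exact h2.unique (hT q p hpq.symm).2 (by rw [(hT p q hpq).1, (hT q p hpq.symm).1]; norm_num)
  have hsd : ∀ p q r : GolayPt, p ≠ q → p ≠ r → q ≠ r → symmDiff ({p, q} : Finset GolayPt) {p, r} = {q, r} := by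
    intro p q r hpq hpr hqr
    ext z
    simp only [Finset.mem_symmDiff, Finset.mem_insert, Finset.mem_singleton]
    by_cases h1 : z = p
    · subst h1; simp [hpq, hpr]
    · by_cases h2 : z = q
      · subst h2; simp [h1, hqr]
      · simp [h1, h2]
  have hcardle : ∀ a b : Finset GolayPt, (symmDiff a b).card ≤ a.card + b.card := by
    intro a b
    have := card_symmDiff_add a b
    omega
  have htri : ∀ p q r, p ≠ q → p ≠ r → q ≠ r → symmDiff (T p q) (T p r) = T q r := by
    intro p q r hpq hpr hqr
    have h2 := (hT p q hpq).2.add (hT p r hpr).2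
    rw [hsd p q r hpq hpr hqr] at h2
    apply h2.unique (hT q r hqr).2
    have := hcardle (T p q) (T p r)
    rw [(hT p q hpq).1, (hT p r hpr).1] at this
    rw [(hT q r hqr).1]
    omega
  have hint : ∀ p q r, p ≠ q → p ≠ r → q ≠ r → (T p q ∩ T p r).card = 1 := by
    intro p q r hpq hpr hqr
    have h2 := card_symmDiff_add (T p q) (T p r)
    rw [htri p q r hpq hpr hqr, (hT p q hpq).1, (hT p r hpr).1, (hT q r hqr).1] at h2
    omega
  have h24 : ∀ s : Finset GolayPt, s.card < 24 → ∃ z, z ∉ s := by
    intro s hs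
    by_contra h
    push Not at h
    rw [Finset.eq_univ_iff_forall.2 h, Finset.card_univ, card_pt] at hs
    omega
  -- the common point
  have hpt : ∀ p, ∃ a, ∀ s, p ≠ s → a ∈ T p s := by
    intro p
    obtain ⟨q, hq⟩ := h24 {p} (by rw [Finset.card_singleton]; norm_num)
    have hpq : p ≠ q := fun e => hq (by rw [e]; exact Finset.mem_singleton_self q)
    obtain ⟨r, hr⟩ := h24 {p, q} (by rw [Finset.card_pair hpq]; norm_num)
    have hpr : p ≠ r := fun e => hr (by rw [← e]; exact Finset.mem_insert_self _ _)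
    have hqr : q ≠ r := fun e => hr (by rw [← e]; simp)
    obtain ⟨a, ha⟩ := Finset.card_eq_one.1 (hint p q r hpq hpr hqr)
    refine ⟨a, fun s hps => ?_⟩
    have haq : a ∈ T p q := (Finset.mem_inter.1 (ha.symm ▸ Finset.mem_singleton_self a)).1
    have har : a ∈ T p r := (Finset.mem_inter.1 (ha.symm ▸ Finset.mem_singleton_self a)).2
    by_cases hsq : s = q
    · rw [hsq]; exact haq
    by_cases hsr : s = r
    · rw [hsr]; exact har
    by_contra has
    -- T p s = T p q symmDiff T p r
    have h3 := htri p q r hpq hpr hqr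
    obtain ⟨b, hb⟩ := Finset.card_eq_one.1 (hint p q s hpq hps (fun e => hsq e.symm))
    obtain ⟨c, hc⟩ := Finset.card_eq_one.1 (hint p r s hpr hps (fun e => hsr e.symm))
    have hbm := Finset.mem_inter.1 (hb.symm ▸ Finset.mem_singleton_self b)
    have hcm := Finset.mem_inter.1 (hc.symm ▸ Finset.mem_singleton_self c)
    have hba : b ≠ a := fun e => has (e ▸ hbm.2)
    have hca : c ≠ a := fun e => has (e ▸ hcm.2)
    have hbc : b ≠ c := by
      intro e
      have h4 : b ∈ T p q ∩ T p r := Finset.mem_inter.2 ⟨hbm.1, e ▸ hcm.1⟩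
      rw [ha, Finset.mem_singleton] at h4
      exact hba h4
    have hTps : T p s = {b, c} := by
      symm
      apply Finset.eq_of_subset_of_card_le
      · intro z hz
        rw [Finset.mem_insert, Finset.mem_singleton] at hz
        rcases hz with rfl | rfl
        · exact hbm.2
        · exact hcm.2
      · rw [(hT p s hps).1, Finset.card_pair hbc]
    have hTpq : T p q = {a, b} := by
      symm
      apply Finset.eq_of_subset_of_card_le
      · intro z hz
        rw [Finset.mem_insert, Finset.mem_singleton] at hz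
        rcases hz with rfl | rfl
        · exact haq
        · exact hbm.1
      · rw [(hT p q hpq).1, Finset.card_pair hba.symm]
    have hTpr : T p r = {a, c} := by
      symm
      apply Finset.eq_of_subset_of_card_le
      · intro z hz
        rw [Finset.mem_insert, Finset.mem_singleton] at hz
        rcases hz with rfl | rfl
        · exact har
        · exact hcm.1
      · rw [(hT p r hpr).1, Finset.card_pair hca.symm]
    -- {p,q}+{p,r} = {q,r} also corresponds to {b,c} = T p s
    have h5 : R x {q, r} (T p s) := by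
      have h6 := (hT q r hqr).2
      have h7 : T q r = T p s := by
        rw [← h3, hTpq, hTpr, hTps, hsd a b c hba.symm hca.symm hbc]
      rwa [h7] at h6
    have h8 := R.inj h5 (hT p s hps).2 (by rw [Finset.card_pair hqr, Finset.card_pair hps]; norm_num)
    have h9 : p ∈ ({q, r} : Finset GolayPt) := by rw [h8]; exact Finset.mem_insert_self _ _
    rw [Finset.mem_insert, Finset.mem_singleton] at h9
    rcases h9 with h9 | h9
    · exact hpq h9
    · exact hpr h9
  choose σ hσ using hpt
  have hσinj : Function.Injective σ := by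
    intro p q h
    by_contra hpq
    obtain ⟨r, hr⟩ := h24 {p, q} (by rw [Finset.card_pair hpq]; norm_num)
    have hpr : p ≠ r := fun e => hr (by rw [← e]; exact Finset.mem_insert_self _ _)
    have hqr : q ≠ r := fun e => hr (by rw [← e]; simp)
    have h1 := hσ p q hpq
    have h2 := hσ p r hpr
    have h3 := hσ q r hqr
    rw [← htri p q r hpq hpr hqr, Finset.mem_symmDiff, ← h] at h3
    rcases h3 with h3 | h3
    · exact h3.2 h2
    · exact h3.2 h1
  have hbij : Function.Bijective σ := Finite.injective_iff_bijective.1 hσinj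
  refine ⟨Equiv.ofBijective σ hbij, fun p q hpq => ?_⟩
  have h1 : T p q = {σ p, σ q} := by
    symm
    apply Finset.eq_of_subset_of_card_le
    · intro z hz
      rw [Finset.mem_insert, Finset.mem_singleton] at hz
      rcases hz with rfl | rfl
      · exact hσ p q hpq
      · rw [hcomm p q hpq]; exact hσ q p (Ne.symm hpq)
    · rw [(hT p q hpq).1, Finset.card_pair (fun e => hpq (hσinj e))]
  have h2 := (hT p q hpq).2
  rw [h1] at h2
  exact h2

/-- the result -/
theorem exists_M24 (hx1 : x oneC = oneC) (hx : OctHyp x) : ∃ τ ∈ M24, ∀ c : golayCode,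
    (x c : GolayPt → ZMod 2) = act τ c ∨ (x c : GolayPt → ZMod 2) = act τ c + fun _ => 1 := by
  obtain ⟨σ, hσ⟩ := exists_perm hx1 hx
  have h1 : ∀ c : golayCode, (x c : GolayPt → ZMod 2) = act σ.symm c ∨
      (x c : GolayPt → ZMod 2) = act σ.symm c + fun _ => 1 := by
    intro c
    have h2 : ∀ p, (x c : GolayPt → ZMod 2) p = (c : GolayPt → ZMod 2) (σ p) +
        ((x c : GolayPt → ZMod 2) none + (c : GolayPt → ZMod 2) (σ none)) := by
      intro p
      have h5 : ∀ a b c d : ZMod 2, a + b = c + d → a = c + (b + d) := by decide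
      apply h5
      by_cases hp : p = none
      · subst hp; rw [add_self2, add_self2]
      · have h3 := hσ p none hp c
        rw [sm, sm, Finset.sum_pair hp, Finset.sum_pair (fun e => hp (σ.injective e))] at h3
        exact h3
    rcases z2 ((x c : GolayPt → ZMod 2) none + (c : GolayPt → ZMod 2) (σ none)) with h4 | h4
    · left; funext p; rw [h2 p, h4, add_zero]; rfl
    · right; funext p; rw [h2 p, h4]; rfl
  refine ⟨σ.symm, ?_, h1⟩
  apply mem_M24_of_bas
  intro j hj
  rw [← wordOf_mem_iff, ← act_wordOf, wordOf_mset]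
  rcases h1 ⟨wd (bas j), bas_mem j hj⟩ with h2 | h2
  · rw [← h2]; exact Subtype.coe_prop _
  · have h3 : act σ.symm (wd (bas j)) = (x ⟨wd (bas j), bas_mem j hj⟩ : GolayPt → ZMod 2) + fun _ => 1 := by
      rw [h2]; funext i; simp only [Pi.add_apply, add_assoc, add_self2, add_zero]
    rw [h3]
    exact golayCode.add_mem (Subtype.coe_prop _) one_mem

end

end Cfsg.Agent.Lib.GolayAut
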