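import Cfsg.Agent.Lib.GolayElts
import Cfsg.Agent.Lib.GolayTrioEnum

/-!
Numbers of octads, trios, sextets, dodecads fixed by an element of `M24`.
-/

set_option autoImplicit false
set_option linter.constructorNameAsVariable false
set_option linter.unusedVariables false

namespace Cfsg.Agent.Lib.Golay

open Cfsg Cfsg.Agent.Lib.GolayCoset
open scoped Pointwise

/-- number of fixed members of an invariant family is a class function -/
theorem ncard_fixed_conj {X : Type*} [MulAction (Equiv.Perm GolayPt) X] {A : Set X}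
    (hA : ∀ g ∈ M24, ∀ a ∈ A, g • a ∈ A) {u g h : Equiv.Perm GolayPt} (hu : u ∈ M24) (e : u * g * u⁻¹ = h) :
    {x | x ∈ A ∧ g • x = x}.ncard = {x | x ∈ A ∧ h • x = x}.ncard := by
  rw [← ncard_smul_set u {x | x ∈ A ∧ g • x = x}]
  congr 1
  ext x
  rw [Set.mem_smul_set_iff_inv_smul_mem]
  simp only [Set.mem_ofPred_eq]
  constructor
  · rintro ⟨h1, h2⟩
    refine ⟨?_, ?_⟩
    · have := hA u hu _ h1
      rwa [smul_inv_smul] at this
    · rw [← e, mul_smul, mul_smul, h2, smul_inv_smul]
  · rintro ⟨h1, h2⟩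
    refine ⟨hA _ (M24.inv_mem hu) _ h1, ?_⟩
    have h3 : g = u⁻¹ * h * u := by rw [← e]; group
    rw [h3, mul_smul, mul_smul, smul_inv_smul, h2]

theorem smul_mem_octads' (g : Equiv.Perm GolayPt) (hg : g ∈ M24) (o : Finset GolayPt) (ho : o ∈ octads) :
    g • o ∈ octads := (smul_mem_octads hg).mpr ho

def in3 (x a b c : ℕ) : Bool := cond (Nat.beq x a) true (cond (Nat.beq x b) true (Nat.beq x c))

theorem in3_iff {x a b c : ℕ} : in3 x a b c = true ↔ x = a ∨ x = b ∨ x = c := by
  unfold in3
  cases h1 : Nat.beq x a with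
  | true => simp [Nat.eq_of_beq_eq_true h1]
  | false =>
    rw [cond_false]
    have h1' : x ≠ a := fun h => by subst h; rw [Nat.beq_refl] at h1; simp at h1
    cases h2 : Nat.beq x b with
    | true => simp [Nat.eq_of_beq_eq_true h2]
    | false =>
      have h2' : x ≠ b := fun h => by subst h; rw [Nat.beq_refl] at h2; simp at h2
      rw [cond_false, Nat.beq_eq]
      tauto

def fixT (c a b : ℕ) : Bool :=
  cond (in3 (imgM c a) a b (third a b)) (cond (in3 (imgM c b) a b (third a b)) (in3 (imgM c (third a b)) a b (third a b)) false) false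

theorem fixT_iff {c : ℕ} (hc : inM c = true) {a b : ℕ} (ha : a ∈ octL) (hb : b ∈ octL) (h : Nat.land a b = 0) :
    toPerm c • trioOf (a, b) = trioOf (a, b) ↔ fixT c a b = true := by
  have hv := valid_of_inM hc
  obtain ⟨-, -, h3, h4⟩ := third_spec ha hb h
  have key : ∀ m, m ∈ octL → (toPerm c • mset m ∈ trioOf (a, b) ↔ in3 (imgM c m) a b (third a b) = true) := by
    intro m hm
    rw [in3_iff, toPerm_smul_mset hv]
    show mset (imgM c m) ∈ ({mset a, mset b, mset (third a b)} : Finset (Finset GolayPt)) ↔ _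
    rw [Finset.mem_insert, Finset.mem_insert, Finset.mem_singleton]
    have i1 : ∀ k, k ∈ octL → (mset (imgM c m) = mset k ↔ imgM c m = k) := fun k hk =>
      ⟨fun e => mset_injOn (imgM_lt hv _) (octL_spec hk).1 e, fun e => by rw [e]⟩
    rw [i1 a ha, i1 b hb, i1 _ h4]
  have h5 : toPerm c • trioOf (a, b) = trioOf (a, b) ↔ ∀ t ∈ trioOf (a, b), toPerm c • t ∈ trioOf (a, b) := by
    constructor
    · intro e t ht
      rw [← e]
      exact Finset.smul_mem_smul_finset ht
    · intro e
      apply Finset.eq_of_subset_of_card_le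
      · intro t ht
        obtain ⟨s, hs, rfl⟩ := Finset.mem_smul_finset.mp ht
        exact e s hs
      · rw [Finset.card_smul_finset]
  rw [h5]
  unfold fixT
  rw [cond_false_eq, cond_false_eq, ← key a ha, ← key b hb, ← key _ h4]
  show (∀ t ∈ ({mset a, mset b, mset (third a b)} : Finset (Finset GolayPt)), _) ↔ _
  simp only [Finset.mem_insert, Finset.mem_singleton, forall_eq_or_imp, forall_eq]

theorem ncard_fix_trios {c : ℕ} (hc : inM c = true) : {T | T ∈ trios ∧ toPerm c • T = T}.ncard = cntT (fixT c) :=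
  ncard_trios_filter _ _ fun _ ha _ hb h => fixT_iff hc ha hb h

theorem ncard_fix_sextets {c : ℕ} (hc : inM c = true) :
    {S | S ∈ sextets ∧ toPerm c • S = S}.ncard = cntLt 4096 (fun n => cond (tb SX n) (Nat.beq (actS c n) n) false) :=
  ncard_sextets_filter _ _ fun S hS => by
    rw [Nat.beq_eq, ← sx_smul hc hS]
    constructor
    · intro h; rw [h]
    · intro h; exact sx_inj (smul_mem_sextets93 (toPerm_mem_M24 hc) hS) hS h

theorem fixO_iff {c : ℕ} (hc : inM c = true) {n : ℕ} (hn : n < 4096) :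
    toPerm c • mset (enc n) = mset (enc n) ↔ Nat.beq (imgM c (enc n)) (enc n) = true := by
  have hv := valid_of_inM hc
  rw [toPerm_smul_mset hv, Nat.beq_eq]
  exact ⟨fun e => mset_injOn (imgM_lt hv _) (enc_lt _) e, fun e => by rw [e]⟩

theorem ncard_fix_octads {c : ℕ} (hc : inM c = true) :
    {o | o ∈ octads ∧ toPerm c • o = o}.ncard =
      cntLt 4096 (fun n => cond (tb OC n) (Nat.beq (imgM c (enc n)) (enc n)) false) :=
  ncard_octads_filter _ _ fun n hn _ => fixO_iff hc hn

theorem ncard_fix_dodecads {c : ℕ} (hc : inM c = true) :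
    {o | o ∈ dodecads ∧ toPerm c • o = o}.ncard =
      cntLt 4096 (fun n => cond (tb DC n) (Nat.beq (imgM c (enc n)) (enc n)) false) :=
  ncard_dodecads_filter _ _ fun n hn _ => fixO_iff hc hn

theorem cZ_octads : cntLt 4096 (fun n => cond (tb OC n) (Nat.beq (imgM cZ (enc n)) (enc n)) false) = 21 := by
  decide +kernel
theorem cZ_dodecads : cntLt 4096 (fun n => cond (tb DC n) (Nat.beq (imgM cZ (enc n)) (enc n)) false) = 20 := by
  decide +kernel
theorem cZ_sextets : cntLt 4096 (fun n => cond (tb SX n) (Nat.beq (actS cZ n) n) false) = 16 := by decide +kernel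
theorem cZ_trios : cntT (fixT cZ) = 15 := by decide +kernel

theorem cX_sextets : cntLt 4096 (fun n => cond (tb SX n) (Nat.beq (actS cX n) n) false) = 7 := by decide +kernel
theorem cX_trios : cntT (fixT cX) = 15 := by decide +kernel

theorem cA_octads : cntLt 4096 (fun n => cond (tb OC n) (Nat.beq (imgM cA (enc n)) (enc n)) false) = 71 := by
  decide +kernel
theorem cA_sextets : cntLt 4096 (fun n => cond (tb SX n) (Nat.beq (actS cA n) n) false) = 91 := by decide +kernel
theorem cA_trios : cntT (fixT cA) = 99 := by decide +kernel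

theorem cB_octads : cntLt 4096 (fun n => cond (tb OC n) (Nat.beq (imgM cB (enc n)) (enc n)) false) = 15 := by
  decide +kernel
theorem cB_sextets : cntLt 4096 (fun n => cond (tb SX n) (Nat.beq (actS cB n) n) false) = 51 := by decide +kernel
theorem cB_trios : cntT (fixT cB) = 75 := by decide +kernel

theorem fixed_octads {u g : Equiv.Perm GolayPt} (hu : u ∈ M24) {c : ℕ} (hc : inM c = true) (e : u * g * u⁻¹ = toPerm c) :
    {o : Finset GolayPt | o ∈ octads ∧ g • o = o}.ncard =
      cntLt 4096 (fun n => cond (tb OC n) (Nat.beq (imgM c (enc n)) (enc n)) false) := by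
  rw [ncard_fixed_conj smul_mem_octads' hu e, ncard_fix_octads hc]

theorem fixed_dodecads {u g : Equiv.Perm GolayPt} (hu : u ∈ M24) {c : ℕ} (hc : inM c = true) (e : u * g * u⁻¹ = toPerm c) :
    {o : Finset GolayPt | o ∈ dodecads ∧ g • o = o}.ncard =
      cntLt 4096 (fun n => cond (tb DC n) (Nat.beq (imgM c (enc n)) (enc n)) false) := by
  rw [ncard_fixed_conj (fun g hg a ha => (smul_mem_dodecads hg).mpr ha) hu e, ncard_fix_dodecads hc]

theorem fixed_sextets {u g : Equiv.Perm GolayPt} (hu : u ∈ M24) {c : ℕ} (hc : inM c = true) (e : u * g * u⁻¹ = toPerm c) :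
    {S : Finset (Finset GolayPt) | S ∈ sextets ∧ g • S = S}.ncard =
      cntLt 4096 (fun n => cond (tb SX n) (Nat.beq (actS c n) n) false) := by
  rw [ncard_fixed_conj (fun g hg a ha => smul_mem_sextets93 hg ha) hu e, ncard_fix_sextets hc]

theorem fixed_trios {u g : Equiv.Perm GolayPt} (hu : u ∈ M24) {c : ℕ} (hc : inM c = true) (e : u * g * u⁻¹ = toPerm c) :
    {T : Finset (Finset GolayPt) | T ∈ trios ∧ g • T = T}.ncard = cntT (fixT c) := by
  rw [ncard_fixed_conj (fun g hg a ha => smul_mem_trios hg ha) hu e, ncard_fix_trios hc]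

end Cfsg.Agent.Lib.Golay
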