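import Cfsg.Agent.Lib.GolaySeven93

/-!
Centraliser of a fixed-point-free involution of `M24`: order 7680, transitive, inside a sextet stabiliser.
-/

set_option autoImplicit false
set_option linter.constructorNameAsVariable false
set_option linter.unusedVariables false

namespace Cfsg.Agent.Lib.Golay

open Cfsg Cfsg.Agent.Lib.GolayCoset
open scoped Pointwise

def u0 : List ℕ := [21159163873795149579542675899648055, 62925318471815576998528580099103746, 111890735759189500967275039606037505, 136915541470330308725372831941057540, 193669417578677794582030380041296899, 234067211490801529637616538158685197, 255337164764686575280113817449716746, 308311252219189884825252026801773583, 350783247245264603499833677056171019, 396039624223331839404493795984727059, 422463002151035414759514308861811718, 479403235613454836735167220341136392, 521366034510004567398378847634294834, 564965494868570131785659069795195909, 595356285161408209875174814346435600, 627687903055568042267881882895047687, 674483517538154132471079990798113806,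 726013464605551873271240334233361430, 766646788062330081291491915182737452, 810532175849598630430410248965643273, 849159970554141496015138614677658645, 901030106363203946940622167148125204, 922510679485364204438620727435910161, 984818244535754528103549039458486304]
def u1 : List ℕ := [984818244535754528103549039458486304, 976990105829392847739289005721748544, 983556734225721270408659688667254880, 967783437010726580327508948025379968, 980713512359222885226720156970955936, 962711678121735984120932100049250496, 959666860270635675253564797702159584, 978232879086441799526177284869434624, 976455189456385426976386001332653344, 961452504548959019297494014051260736, 973945644914022110970435173357822304, 981933190769939812614888451750270368, 965002964093841418514824439200268736, 973040534515595204814089350291693024, 968582848651142628555300026328332800, 963337350245506149551064534910818848, 978067482872195134868851451309893216, 984196929854884084731797192671549056, 973969207870541855223995183686275744, 974981037794772171629491744464225984]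
def u2 : List ℕ := [984818244535754528103549039458486304, 977839867786251717525204161457686560, 976934804572108675034832543981668384, 981563544338578773660441081710577696, 967192268647656285892130118416173088, 965136812641296295851818046769629216, 982808773341904765705022018148436000, 974393957471495370344329307904968736, 972560815420533050926679905878345760, 980579886636974473769032178493524000, 962286864140653867024520594739169312, 960831283963798152912375878980765728, 975571795165448746742199475274090528, 964085692417081732598734613221345312, 968952242540320471461323713846872096, 959894609041950200578829698494826528]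

theorem u0_ok : (u0.all fun c => cond (inM c) (Nat.beq (mulC c c2bII) (mulC c2bII c)) false) = true := by decide +kernel
theorem u1_ok : (u1.all fun c => cond (inM c) (cond (Nat.beq (mulC c c2bII) (mulC c2bII c)) (Nat.beq (img c 23) 23) false) false)
    = true := by decide +kernel
theorem u2_ok : (u2.all fun c => cond (inM c) (cond (Nat.beq (mulC c c2bII) (mulC c2bII c)) (cond (Nat.beq (img c 23) 23)
    (Nat.beq (img c 1) 1) false) false) false) = true := by decide +kernel
theorem u0_tr : allLt 24 (fun q => u0.any fun c => Nat.beq (img c 23) q) = true := by decide +kernel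
theorem u1_tr : allLt 24 (fun q => cond (tb 8122366 q) (u1.any fun c => Nat.beq (img c 1) q) true) = true := by decide +kernel
theorem u2_tr : allLt 24 (fun q => cond (tb 8120056 q) (u2.any fun c => Nat.beq (img c 3) q) true) = true := by decide +kernel

/-- octads through pairs of the involution -/
def o1L : List ℕ := [8657159, 8663097, 8688833, 12325377, 13062145]
def o2L : List ℕ := [8657159]

theorem o1_ok : (o1L.all fun o => cond (isCode o) (Nat.beq (pc o) 8) false) = true := by decide +kernel
theorem o2_ok : (o2L.all fun o => cond (isCode o) (Nat.beq (pc o) 8) false) = true := by decide +kernel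

/-- the pairs not allowed in the second place -/
theorem o1_all : allLt 24 (fun q => cond (tb 8122366 q) true (cond (Nat.beq q 23) true (cond (Nat.beq q 0) true
    (allLt 24 fun c => o1L.any fun o => cond (tb o 23) (cond (tb o 0) (cond (tb o q) (cond (tb o (img c2bII q))
      (cond (tb o c) (tb o (img c2bII c)) false) false) false) false) false)))) = true := by decide +kernel
theorem o2_all : allLt 24 (fun c => cond (tb 8120056 c) true (cond (Nat.beq c 23) true (cond (Nat.beq c 0) true
    (cond (Nat.beq c 1) true (cond (Nat.beq c 2) true (o2L.any fun o => cond (tb o 23) (cond (tb o 0) (cond (tb o 1) (cond (tb o 2)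
      (cond (tb o c) (tb o (img c2bII c)) false) false) false) false) false)))))) = true := by decide +kernel

/-- the centraliser -/
def C2 : Subgroup (Equiv.Perm GolayPt) := M24 ⊓ Subgroup.centralizer {toPerm c2bII}

theorem mem_C2 {g : Equiv.Perm GolayPt} : g ∈ C2 ↔ g ∈ M24 ∧ g * toPerm c2bII = toPerm c2bII * g := by
  unfold C2
  rw [Subgroup.mem_inf, Subgroup.mem_centralizer_singleton_iff]

/-- frames of pairs of the involution -/
noncomputable def F2 (p q r : GolayPt) : Fin 6 → GolayPt := ![p, toPerm c2bII p, q, toPerm c2bII q, r, toPerm c2bII r]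

theorem inM_c2 : inM c2bII = true := pat_2bII.1

theorem c2_pt {i j : ℕ} (hi : i < 24) (h : img c2bII i = j) : toPerm c2bII (pt i) = pt j := by
  rw [toPerm_pt (valid_of_inM inM_c2) hi, h]

theorem F2_fII : F2 (pt 23) (pt 1) (pt 3) = fII := by
  funext i
  fin_cases i
  · rfl
  · exact c2_pt (by norm_num) (show img c2bII 23 = 0 by decide +kernel)
  · rfl
  · exact c2_pt (by norm_num) (show img c2bII 1 = 2 by decide +kernel)
  · rfl
  · exact c2_pt (by norm_num) (show img c2bII 3 = 4 by decide +kernel)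

theorem F2_map {g : Equiv.Perm GolayPt} (hg : g ∈ C2) (p q r : GolayPt) :
    (fun i => g (F2 p q r i)) = F2 (g p) (g q) (g r) := by
  obtain ⟨-, hc⟩ := mem_C2.mp hg
  have h : ∀ x, g (toPerm c2bII x) = toPerm c2bII (g x) := fun x => DFunLike.congr_fun hc x
  funext i
  fin_cases i
  exacts [rfl, h p, rfl, h q, rfl, h r]

theorem F2_not {g : Equiv.Perm GolayPt} (hg : g ∈ C2) : ¬ InOct (F2 (g (pt 23)) (g (pt 1)) (g (pt 3))) := by
  rw [← F2_map hg, F2_fII, inOct_smul (mem_C2.mp hg).1]
  exact not_inOct_fII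

theorem inOct_of_mask {m a b c a' b' c' : ℕ} (ho : mset m ∈ octads) (ha : a < 24) (hb : b < 24) (hc : c < 24) (ha' : a' < 24)
    (hb' : b' < 24) (hc' : c' < 24) (h1 : tb m a = true) (h2 : tb m b = true) (h3 : tb m c = true)
    (h4 : tb m a' = true) (h5 : tb m b' = true) (h6 : tb m c' = true) :
    InOct ![pt a, pt a', pt b, pt b', pt c, pt c'] :=
  ⟨_, ho, fun i => by
    fin_cases i
    exacts [(mem_mset_tb ha).mpr h1, (mem_mset_tb ha').mpr h4, (mem_mset_tb hb).mpr h2, (mem_mset_tb hb').mpr h5,
      (mem_mset_tb hc).mpr h3, (mem_mset_tb hc').mpr h6]⟩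

theorem F2_pts (i j k : ℕ) (hi : i < 24) (hj : j < 24) (hk : k < 24) :
    F2 (pt i) (pt j) (pt k) = ![pt i, pt (img c2bII i), pt j, pt (img c2bII j), pt k, pt (img c2bII k)] := by
  have hv := valid_of_inM inM_c2
  unfold F2
  rw [toPerm_pt hv hi, toPerm_pt hv hj, toPerm_pt hv hk]

theorem comm_not_z : (allLt 24 fun i => Nat.beq (img cZ (img c2bII i)) (img c2bII (img cZ i))) = false := by decide +kernel
theorem comm_not_z' : (allLt 24 fun i => Nat.beq (img cZ' (img c2bII i)) (img c2bII (img cZ' i))) = false := by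
  decide +kernel

theorem C2_triv {g : Equiv.Perm GolayPt} (hg : g ∈ C2) (h0 : g (pt 23) = pt 23) (h1 : g (pt 1) = pt 1)
    (h2 : g (pt 3) = pt 3) : g = 1 := by
  obtain ⟨hgM, hc⟩ := mem_C2.mp hg
  have hv := valid_of_inM inM_c2
  have h := F2_map hg (pt 23) (pt 1) (pt 3)
  rw [h0, h1, h2, F2_fII] at h
  rcases fixII hgM (fun i => congrFun h i) with e | e | e
  · exact e
  · exfalso
    rw [e] at hc
    have := comm_img (valid_of_inM inM_cZ) hv hc
    rw [comm_not_z] at this
    simp at this
  · exfalso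
    rw [e] at hc
    have := comm_img (valid_of_inM inM_cZ') hv hc
    rw [comm_not_z'] at this
    simp at this

theorem exists_u0 (q : GolayPt) : ∃ c ∈ u0, toPerm c ∈ C2 ∧ toPerm c (pt 23) = q := by
  have h1 := allLt_iff.mp u0_tr (ix q) (ix_lt q)
  obtain ⟨c, hc, h2⟩ := List.any_eq_true.mp h1
  obtain ⟨h3, h4⟩ := cond_false_eq.mp (List.all_eq_true.mp u0_ok c hc)
  refine ⟨c, hc, mem_C2.mpr ⟨toPerm_mem_M24 h3, comm_codes h3 inM_c2 (Nat.eq_of_beq_eq_true h4)⟩, ?_⟩
  rw [toPerm_pt (valid_of_inM h3) (by norm_num), Nat.eq_of_beq_eq_true h2, pt_ix]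

theorem exists_u1 {q : GolayPt} (hq : tb 8122366 (ix q) = true) :
    ∃ c ∈ u1, toPerm c ∈ C2 ∧ toPerm c (pt 23) = pt 23 ∧ toPerm c (pt 1) = q := by
  have h1 := allLt_iff.mp u1_tr (ix q) (ix_lt q)
  rw [hq, cond_true] at h1
  obtain ⟨c, hc, h2⟩ := List.any_eq_true.mp h1
  obtain ⟨h3, h4⟩ := cond_false_eq.mp (List.all_eq_true.mp u1_ok c hc)
  obtain ⟨h4, h5⟩ := cond_false_eq.mp h4
  refine ⟨c, hc, mem_C2.mpr ⟨toPerm_mem_M24 h3, comm_codes h3 inM_c2 (Nat.eq_of_beq_eq_true h4)⟩, ?_, ?_⟩
  · rw [toPerm_pt (valid_of_inM h3) (by norm_num), Nat.eq_of_beq_eq_true h5]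
  · rw [toPerm_pt (valid_of_inM h3) (by norm_num), Nat.eq_of_beq_eq_true h2, pt_ix]

theorem exists_u2 {q : GolayPt} (hq : tb 8120056 (ix q) = true) :
    ∃ c ∈ u2, toPerm c ∈ C2 ∧ toPerm c (pt 23) = pt 23 ∧ toPerm c (pt 1) = pt 1 ∧ toPerm c (pt 3) = q := by
  have h1 := allLt_iff.mp u2_tr (ix q) (ix_lt q)
  rw [hq, cond_true] at h1
  obtain ⟨c, hc, h2⟩ := List.any_eq_true.mp h1
  obtain ⟨h3, h4⟩ := cond_false_eq.mp (List.all_eq_true.mp u2_ok c hc)
  obtain ⟨h4, h5⟩ := cond_false_eq.mp h4
  obtain ⟨h5, h6⟩ := cond_false_eq.mp h5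
  refine ⟨c, hc, mem_C2.mpr ⟨toPerm_mem_M24 h3, comm_codes h3 inM_c2 (Nat.eq_of_beq_eq_true h4)⟩, ?_, ?_, ?_⟩
  · rw [toPerm_pt (valid_of_inM h3) (by norm_num), Nat.eq_of_beq_eq_true h5]
  · rw [toPerm_pt (valid_of_inM h3) (by norm_num), Nat.eq_of_beq_eq_true h6]
  · rw [toPerm_pt (valid_of_inM h3) (by norm_num), Nat.eq_of_beq_eq_true h2, pt_ix]

theorem ne_ix {p : GolayPt} {i : ℕ} (hi : i < 24) (h : p ≠ pt i) : Nat.beq (ix p) i = false := by
  cases h1 : Nat.beq (ix p) i with
  | true =>
    exfalso
    apply h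
    rw [← Nat.eq_of_beq_eq_true h1, pt_ix]
  | false => rfl

theorem C2_O1 {g : Equiv.Perm GolayPt} (hg : g ∈ C2) (h0 : g (pt 23) = pt 23) : tb 8122366 (ix (g (pt 1))) = true := by
  obtain ⟨hgM, hc⟩ := mem_C2.mp hg
  have h := allLt_iff.mp o1_all (ix (g (pt 1))) (ix_lt _)
  cases h1 : tb 8122366 (ix (g (pt 1))) with
  | true => rfl
  | false =>
    exfalso
    have n1 : g (pt 1) ≠ pt 23 := fun e => pt_ne (i := 1) (j := 23) (by norm_num) (by norm_num) (by norm_num)
      (g.injective (e.trans h0.symm))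
    have g0 : g (pt 0) = pt 0 := by
      have := DFunLike.congr_fun hc (pt 23)
      rw [Equiv.Perm.mul_apply, Equiv.Perm.mul_apply, h0, c2_pt (by norm_num) (show img c2bII 23 = 0 by decide +kernel)]
        at this
      exact this
    have n2 : g (pt 1) ≠ pt 0 := fun e => pt_ne (i := 1) (j := 0) (by norm_num) (by norm_num) (by norm_num)
      (g.injective (e.trans g0.symm))
    rw [h1, cond_false, ne_ix (by norm_num) n1, cond_false, ne_ix (by norm_num) n2, cond_false] at h
    obtain ⟨o, ho, h2⟩ := List.any_eq_true.mp (allLt_iff.mp h (ix (g (pt 3))) (ix_lt _))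
    simp only [cond_false_eq] at h2
    obtain ⟨k1, k2, k3, k4, k5, k6⟩ := h2
    apply F2_not hg
    rw [h0, ← pt_ix (g (pt 1)), ← pt_ix (g (pt 3)), F2_pts 23 _ _ (by norm_num) (ix_lt _) (ix_lt _)]
    have hv := valid_of_inM inM_c2
    exact inOct_of_mask (octad_of_isCode (List.all_eq_true.mp o1_ok o ho)) (by norm_num) (ix_lt _) (ix_lt _)
      (img_lt hv (by norm_num)) (img_lt hv (ix_lt _)) (img_lt hv (ix_lt _)) k1 k3 k5
      (by rw [show img c2bII 23 = 0 by decide +kernel]; exact k2) k4 k6

theorem C2_O2 {g : Equiv.Perm GolayPt} (hg : g ∈ C2) (h0 : g (pt 23) = pt 23) (h1 : g (pt 1) = pt 1) :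
    tb 8120056 (ix (g (pt 3))) = true := by
  obtain ⟨hgM, hc⟩ := mem_C2.mp hg
  have h := allLt_iff.mp o2_all (ix (g (pt 3))) (ix_lt _)
  cases h3 : tb 8120056 (ix (g (pt 3))) with
  | true => rfl
  | false =>
    exfalso
    have g0 : g (pt 0) = pt 0 := by
      have := DFunLike.congr_fun hc (pt 23)
      rw [Equiv.Perm.mul_apply, Equiv.Perm.mul_apply, h0, c2_pt (by norm_num) (show img c2bII 23 = 0 by decide +kernel)]
        at this
      exact this
    have g2 : g (pt 2) = pt 2 := by
      have := DFunLike.congr_fun hc (pt 1)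
      rw [Equiv.Perm.mul_apply, Equiv.Perm.mul_apply, h1, c2_pt (by norm_num) (show img c2bII 1 = 2 by decide +kernel)]
        at this
      exact this
    have key : ∀ i < 24, i ≠ 3 → g (pt i) = pt i → g (pt 3) ≠ pt i := fun i hi hi3 e e' =>
      pt_ne (by norm_num) hi (Ne.symm hi3) (g.injective (e'.trans e.symm))
    rw [h3, cond_false, ne_ix (by norm_num) (key 23 (by norm_num) (by norm_num) h0), cond_false,
      ne_ix (by norm_num) (key 0 (by norm_num) (by norm_num) g0), cond_false,
      ne_ix (by norm_num) (key 1 (by norm_num) (by norm_num) h1), cond_false,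
      ne_ix (by norm_num) (key 2 (by norm_num) (by norm_num) g2), cond_false] at h
    obtain ⟨o, ho, h2⟩ := List.any_eq_true.mp h
    simp only [cond_false_eq] at h2
    obtain ⟨k1, k2, k3, k4, k5, k6⟩ := h2
    apply F2_not hg
    rw [h0, h1, ← pt_ix (g (pt 3)), F2_pts 23 1 _ (by norm_num) (by norm_num) (ix_lt _)]
    have hv := valid_of_inM inM_c2
    exact inOct_of_mask (octad_of_isCode (List.all_eq_true.mp o2_ok o ho)) (by norm_num) (by norm_num) (ix_lt _)
      (img_lt hv (by norm_num)) (img_lt hv (by norm_num)) (img_lt hv (ix_lt _)) k1 k3 k5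
      (by rw [show img c2bII 23 = 0 by decide +kernel]; exact k2)
      (by rw [show img c2bII 1 = 2 by decide +kernel]; exact k4) k6

theorem C2_decomp {g : Equiv.Perm GolayPt} (hg : g ∈ C2) : ∃ a ∈ u0, ∃ b ∈ u1, ∃ c ∈ u2,
    g = toPerm a * toPerm b * toPerm c := by
  obtain ⟨a, ha, ha1, ha2⟩ := exists_u0 (g (pt 23))
  have hg1 : (toPerm a)⁻¹ * g ∈ C2 := C2.mul_mem (C2.inv_mem ha1) hg
  have e1 : ((toPerm a)⁻¹ * g) (pt 23) = pt 23 := by
    rw [Equiv.Perm.mul_apply, ← ha2, perm_inv_apply]
  obtain ⟨b, hb, hb1, hb2, hb3⟩ := exists_u1 (C2_O1 hg1 e1)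
  have hg2 : (toPerm b)⁻¹ * ((toPerm a)⁻¹ * g) ∈ C2 := C2.mul_mem (C2.inv_mem hb1) hg1
  have e2 : ((toPerm b)⁻¹ * ((toPerm a)⁻¹ * g)) (pt 23) = pt 23 := by
    rw [Equiv.Perm.mul_apply, e1, Equiv.Perm.inv_eq_iff_eq]; exact hb2.symm
  have e3 : ((toPerm b)⁻¹ * ((toPerm a)⁻¹ * g)) (pt 1) = pt 1 := by
    rw [Equiv.Perm.mul_apply, ← hb3, perm_inv_apply]
  obtain ⟨c, hc, hc1, hc2, hc3, hc4⟩ := exists_u2 (C2_O2 hg2 e2 e3)
  have hg3 : (toPerm c)⁻¹ * ((toPerm b)⁻¹ * ((toPerm a)⁻¹ * g)) ∈ C2 := C2.mul_mem (C2.inv_mem hc1) hg2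
  have := C2_triv hg3 (by rw [Equiv.Perm.mul_apply, e2, Equiv.Perm.inv_eq_iff_eq]; exact hc2.symm)
    (by rw [Equiv.Perm.mul_apply, e3, Equiv.Perm.inv_eq_iff_eq]; exact hc3.symm)
    (by rw [Equiv.Perm.mul_apply, ← hc4, perm_inv_apply])
  refine ⟨a, ha, b, hb, c, hc, ?_⟩
  calc g = toPerm a * toPerm b * toPerm c * ((toPerm c)⁻¹ * ((toPerm b)⁻¹ * ((toPerm a)⁻¹ * g))) := by group
    _ = _ := by rw [this, mul_one]

theorem card_O (m : ℕ) : ({p | tb m (ix p) = true} : Set GolayPt).ncard = (mset m).card := by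
  rw [← Set.ncard_coe_finset]
  congr 1
  ext p
  rw [Finset.mem_coe, mem_mset, Set.mem_ofPred_eq, tb_iff]

theorem card_C2 : Nat.card C2 = 7680 := by
  have h1 := card_eq_mul_inf_stabilizer C2 (pt 23) Set.univ (fun _ _ => Set.mem_univ _) (fun x _ => by
    obtain ⟨c, hc, h1, h2⟩ := exists_u0 x
    exact ⟨toPerm c, h1, h2⟩)
  have h2 := card_eq_mul_inf_stabilizer (C2 ⊓ MulAction.stabilizer (Equiv.Perm GolayPt) (pt 23)) (pt 1)
    {p | tb 8122366 (ix p) = true} (fun g hg => C2_O1 hg.1 hg.2) (fun x hx => by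
    obtain ⟨c, hc, h1, h2, h3⟩ := exists_u1 hx
    exact ⟨toPerm c, ⟨h1, h2⟩, h3⟩)
  have h3 := card_eq_mul_inf_stabilizer (C2 ⊓ MulAction.stabilizer (Equiv.Perm GolayPt) (pt 23) ⊓
    MulAction.stabilizer (Equiv.Perm GolayPt) (pt 1)) (pt 3)
    {p | tb 8120056 (ix p) = true} (fun g hg => C2_O2 hg.1.1 hg.1.2 hg.2) (fun x hx => by
    obtain ⟨c, hc, h1, h2, h3, h4⟩ := exists_u2 hx
    exact ⟨toPerm c, ⟨⟨h1, h2⟩, h3⟩, h4⟩)
  have h4 : (C2 ⊓ MulAction.stabilizer (Equiv.Perm GolayPt) (pt 23) ⊓
    MulAction.stabilizer (Equiv.Perm GolayPt) (pt 1) ⊓ MulAction.stabilizer (Equiv.Perm GolayPt) (pt 3)) = ⊥ := by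
    rw [eq_bot_iff]
    intro g hg
    exact C2_triv hg.1.1.1 hg.1.1.2 hg.1.2 hg.2
  rw [h4, Subgroup.card_bot, card_O, card_mset] at h3
  rw [h3, card_O, card_mset] at h2
  rw [h2, Set.ncard_univ, show Nat.card GolayPt = 24 by rw [Nat.card_eq_fintype_card, card_pt]] at h1
  rw [h1]
  decide +kernel

/-- the invariant sextet -/
def s2L : List ℕ := [2310, 8248, 33984, 3670528, 4407296, 8654849]

theorem s2_ok : sextOK s2L = true := by decide +kernel
theorem s2_fix : ((u0 ++ (u1 ++ u2)).all fun c => subL (s2L.map (imgM c)) s2L) = true := by decide +kernel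
theorem s2_fixt : subL (s2L.map (imgM c2bII)) s2L = true := by decide +kernel

theorem C2_sextet {g : Equiv.Perm GolayPt} (hg : g ∈ C2) : g • famL s2L = famL s2L := by
  obtain ⟨a, ha, b, hb, c, hc, rfl⟩ := C2_decomp hg
  have h := List.all_eq_true.mp s2_fix
  have va : valid a = true := valid_of_inM (cond_false_eq.mp (List.all_eq_true.mp u0_ok a ha)).1
  have vb : valid b = true := valid_of_inM (cond_false_eq.mp (List.all_eq_true.mp u1_ok b hb)).1
  have vc : valid c = true := valid_of_inM (cond_false_eq.mp (List.all_eq_true.mp u2_ok c hc)).1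
  rw [mul_smul, mul_smul, famL_fixed vc (h c (by simp [hc])), famL_fixed vb (h b (by simp [hb])),
    famL_fixed va (h a (by simp [ha]))]

theorem conj_c2 : isoC hs2B cB c2bII = true := by decide +kernel

/-- every fixed-point-free involution of `M24` is conjugate to `c2bII` -/
theorem class2B' {g : Equiv.Perm GolayPt} (hg : g ∈ M24) (h2 : g ^ 2 = 1) (hp : ∀ p, g p ≠ p) :
    ∃ u ∈ M24, g = u * toPerm c2bII * u⁻¹ := by
  obtain ⟨u, hu, e⟩ := class2B hg h2 hp
  obtain ⟨v, hv, e'⟩ := isoC_spec (valid_of_inM inM_cB) (valid_of_inM inM_c2) conj_c2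
  refine ⟨u⁻¹ * v, M24.mul_mem (M24.inv_mem hu) hv, ?_⟩
  calc g = u⁻¹ * (u * g * u⁻¹) * u := by group
    _ = u⁻¹ * (v * toPerm c2bII * v⁻¹) * u := by rw [e, e']
    _ = _ := by group

end Cfsg.Agent.Lib.Golay
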