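import Cfsg.Agent.Lib.GolaySeven
import Cfsg.Agent.Lib.GolaySubdeg
import Cfsg.Agent.Lib.Steiner

/-!
Stabilisers in `M24` of 2-sets and 3-sets are maximal; orbits of the stabiliser of a 3-set on 3-sets.
-/

set_option autoImplicit false
set_option linter.constructorNameAsVariable false
set_option linter.unusedVariables false

namespace Cfsg.Agent.Lib.Golay

open Cfsg
open scoped Pointwise

theorem exists_map_list {l l' : List GolayPt} (h : l.Nodup) (h' : l'.Nodup) (hlen : l.length = l'.length)
    (h5 : l.length ≤ 5) : ∃ g ∈ M24, l.map g = l' := by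
  obtain ⟨g, hg, hi⟩ := exists_emb_of_le h5 ⟨fun i : Fin l.length => l.get i, h.injective_get⟩
    ⟨fun i : Fin l.length => l'.get (i.cast hlen), fun i j hij => by
      have := h'.injective_get hij
      simpa [Fin.ext_iff] using this⟩
  refine ⟨g, hg, ?_⟩
  apply List.ext_getElem
  · rw [List.length_map, hlen]
  · intro i h1 h2
    rw [List.getElem_map]
    have := hi ⟨i, by rwa [List.length_map] at h1⟩
    exact this

theorem smul_toFinset (g : Equiv.Perm GolayPt) (l : List GolayPt) : g • l.toFinset = (l.map g).toFinset := by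
  ext q
  rw [mem_smul_iff, List.mem_toFinset, List.mem_map]
  simp only [List.mem_toFinset]

theorem inter_union_sdiff' (s t : Finset GolayPt) : s ∩ t ∪ s \ t = s := by
  ext x
  rw [Finset.mem_union, Finset.mem_inter, Finset.mem_sdiff]
  tauto

/-- pairs of sets with at most five points altogether -/
theorem exists_smul_pair {s t s' t' : Finset GolayPt} (h1 : s.card = s'.card) (h2 : t.card = t'.card)
    (h3 : (s ∩ t).card = (s' ∩ t').card) (h5 : (s ∪ t).card ≤ 5) : ∃ g ∈ M24, g • s = s' ∧ g • t = t' := by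
  have a1 := Finset.card_sdiff_add_card_inter s t
  have a2 := Finset.card_sdiff_add_card_inter t s
  have a1' := Finset.card_sdiff_add_card_inter s' t'
  have a2' := Finset.card_sdiff_add_card_inter t' s'
  rw [Finset.inter_comm t s] at a2
  rw [Finset.inter_comm t' s'] at a2'
  have a3 := Finset.card_union_add_card_inter s t
  have key : ∀ u v : Finset GolayPt, ((u ∩ v).toList ++ ((u \ v).toList ++ (v \ u).toList)).Nodup := by
    intro u v
    rw [List.nodup_append', List.nodup_append']
    refine ⟨Finset.nodup_toList _, ⟨Finset.nodup_toList _, Finset.nodup_toList _, ?_⟩, ?_⟩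
    · intro x hx hy
      rw [Finset.mem_toList, Finset.mem_sdiff] at hx hy
      exact hy.2 hx.1
    · intro x hx hy
      rw [Finset.mem_toList, Finset.mem_inter] at hx
      rw [List.mem_append, Finset.mem_toList, Finset.mem_toList, Finset.mem_sdiff, Finset.mem_sdiff] at hy
      rcases hy with hy | hy
      · exact hy.2 hx.2
      · exact hy.2 hx.1
  obtain ⟨g, hg, hm⟩ := exists_map_list (key s t) (key s' t') (by
    simp only [List.length_append, Finset.length_toList]; omega) (by
    simp only [List.length_append, Finset.length_toList]; omega)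
  rw [List.map_append, List.map_append] at hm
  obtain ⟨b1, b2⟩ := List.append_inj hm (by rw [List.length_map, Finset.length_toList, Finset.length_toList, h3])
  obtain ⟨b3, b4⟩ := List.append_inj b2 (by
    rw [List.length_map, Finset.length_toList, Finset.length_toList]; omega)
  have c1 : g • (s ∩ t) = s' ∩ t' := by
    rw [← Finset.toList_toFinset (s ∩ t), smul_toFinset, b1, Finset.toList_toFinset]
  have c2 : g • (s \ t) = s' \ t' := by
    rw [← Finset.toList_toFinset (s \ t), smul_toFinset, b3, Finset.toList_toFinset]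
  have c3 : g • (t \ s) = t' \ s' := by
    rw [← Finset.toList_toFinset (t \ s), smul_toFinset, b4, Finset.toList_toFinset]
  refine ⟨g, hg, ?_, ?_⟩
  · rw [← inter_union_sdiff' s t, Finset.smul_finset_union, c1, c2, inter_union_sdiff']
  · rw [← inter_union_sdiff' t s, Finset.smul_finset_union, Finset.inter_comm t s, c1, c3, Finset.inter_comm s' t',
      inter_union_sdiff']

/-- number of `k`-sets meeting `s` in `j` points -/
theorem ncard_subsets_inter (s : Finset GolayPt) (k j : ℕ) (hj : j ≤ k) :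
    {t : Finset GolayPt | t.card = k ∧ (s ∩ t).card = j}.ncard = s.card.choose j * (24 - s.card).choose (k - j) := by
  have : {t : Finset GolayPt | t.card = k ∧ (s ∩ t).card = j} =
      (((Finset.powersetCard j s) ×ˢ (Finset.powersetCard (k - j) sᶜ)).image fun x => x.1 ∪ x.2 :
        Finset (Finset GolayPt)) := by
    ext t
    rw [Finset.mem_coe, Finset.mem_image]
    constructor
    · rintro ⟨h1, h2⟩
      refine ⟨(s ∩ t, t \ s), ?_, ?_⟩
      · rw [Finset.mem_product, Finset.mem_powersetCard, Finset.mem_powersetCard]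
        refine ⟨⟨Finset.inter_subset_left, h2⟩, fun x hx => ?_, ?_⟩
        · rw [Finset.mem_compl]; exact (Finset.mem_sdiff.mp hx).2
        · have := Finset.card_sdiff_add_card_inter t s
          rw [Finset.inter_comm t s] at this
          show (t \ s).card = k - j
          omega
      · show s ∩ t ∪ t \ s = t
        rw [Finset.inter_comm, inter_union_sdiff']
    · rintro ⟨⟨a, b⟩, h, rfl⟩
      rw [Finset.mem_product, Finset.mem_powersetCard, Finset.mem_powersetCard] at h
      obtain ⟨⟨h1, h2⟩, h3, h4⟩ := h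
      have hd : Disjoint a b := by
        rw [Finset.disjoint_left]
        intro x hx hy
        exact (Finset.mem_compl.mp (h3 hy)) (h1 hx)
      constructor
      · show (a ∪ b).card = k
        rw [Finset.card_union_of_disjoint hd]
        have h2 : a.card = j := h2
        have h4 : b.card = k - j := h4
        omega
      · show (s ∩ (a ∪ b)).card = j
        rw [← h2]
        congr 1
        ext x
        rw [Finset.mem_inter, Finset.mem_union]
        constructor
        · rintro ⟨hs, hx | hx⟩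
          · exact hx
          · exact absurd hs (Finset.mem_compl.mp (h3 hx))
        · intro hx; exact ⟨h1 hx, Or.inl hx⟩
  rw [this, Set.ncard_coe_finset, Finset.card_image_of_injOn, Finset.card_product, Finset.card_powersetCard,
    Finset.card_powersetCard, Finset.card_compl, card_pt]
  rintro ⟨a, b⟩ h ⟨a', b'⟩ h' e
  rw [Finset.mem_coe, Finset.mem_product, Finset.mem_powersetCard, Finset.mem_powersetCard] at h h'
  have e : a ∪ b = a' ∪ b' := e
  have key : ∀ a b a' b' : Finset GolayPt, a ⊆ s → b ⊆ sᶜ → a' ⊆ s → b' ⊆ sᶜ → a ∪ b = a' ∪ b' →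
      a ⊆ a' ∧ b ⊆ b' := by
    intro a b a' b' h1 h2 h3 h4 e
    constructor
    · intro x hx
      have : x ∈ a' ∪ b' := by rw [← e]; exact Finset.mem_union_left _ hx
      rcases Finset.mem_union.mp this with h | h
      · exact h
      · exact absurd (h1 hx) (Finset.mem_compl.mp (h4 h))
    · intro x hx
      have : x ∈ a' ∪ b' := by rw [← e]; exact Finset.mem_union_right _ hx
      rcases Finset.mem_union.mp this with h | h
      · exact absurd (h3 h) (Finset.mem_compl.mp (h2 hx))
      · exact h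
  obtain ⟨h1, h2⟩ := key a b a' b' h.1.1 h.2.1 h'.1.1 h'.2.1 e
  obtain ⟨h3, h4⟩ := key a' b' a b h'.1.1 h'.2.1 h.1.1 h.2.1 e.symm
  rw [Finset.Subset.antisymm h1 h3, Finset.Subset.antisymm h2 h4]

/-- `S1563` -/
theorem pair_stab_maximal (s : Finset GolayPt) (hs : s.card = 2) : IsCoatom (MulAction.stabilizer M24 s) := by
  let f : Finset GolayPt → Fin 3 := fun t => if (s ∩ t).card = 0 then 0 else if (s ∩ t).card = 1 then 1 else 2
  have hle : ∀ t, (s ∩ t).card ≤ 2 := fun t => hs ▸ Finset.card_le_card Finset.inter_subset_left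
  have hf0 : ∀ x, f x = 0 ↔ (s ∩ x).card = 0 := by intro x; simp only [f]; split_ifs <;> simp_all
  have hf1 : ∀ x, f x = 1 ↔ (s ∩ x).card = 1 := by intro x; simp only [f]; split_ifs <;> simp_all
  have hf2 : ∀ x, f x = 2 ↔ (s ∩ x).card = 2 := by
    intro x
    have h1 := hle x
    rcases (by omega : (s ∩ x).card = 0 ∨ (s ∩ x).card = 1 ∨ (s ∩ x).card = 2) with h | h | h
    · rw [(hf0 x).mpr h, h]; decide
    · rw [(hf1 x).mpr h, h]; decide
    · simp only [f, h]; decide
  have hfs : f s = 2 := (hf2 s).mpr (by rw [Finset.inter_self, hs])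
  have h012 : ∀ a : Fin 3, a = 0 ∨ a = 1 ∨ a = 2 := by decide
  have hinter : ∀ x y, f x = f y → (s ∩ x).card = (s ∩ y).card := by
    intro x y h
    rcases h012 (f x) with h1 | h1 | h1
    · rw [(hf0 x).mp h1, (hf0 y).mp (h ▸ h1)]
    · rw [(hf1 x).mp h1, (hf1 y).mp (h ▸ h1)]
    · rw [(hf2 x).mp h1, (hf2 y).mp (h ▸ h1)]
  have hS : {t : Finset GolayPt | t.card = 2}.ncard = 276 := by
    have : {t : Finset GolayPt | t.card = 2} = {t | t.card = 2 ∧ ((∅ : Finset GolayPt) ∩ t).card = 0} := by
      ext t; simp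
    rw [this, ncard_subsets_inter _ _ _ (by norm_num), Finset.card_empty]
    norm_num [Nat.choose]
  refine isCoatom_of_classes (S := {t : Finset GolayPt | t.card = 2}) (Set.toFinite _) ?_ ?_ f ![231, 44, 1]
    ?_ ?_ ?_ ?_ ?_
  · intro t ht
    obtain ⟨g, hg, h⟩ := exists_smul_eq_of_card (s := s) (t := t) (by omega) (by rw [hs, ht])
    exact ⟨⟨g, hg⟩, h⟩
  · intro g
    show ((g : Equiv.Perm GolayPt) • s).card = 2
    rw [card_smul', hs]
  · intro y hy z hz hyz
    have h1 := Finset.card_union_add_card_inter s y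
    have hy' : y.card = 2 := hy
    have hz' : z.card = 2 := hz
    obtain ⟨g, hg, g1, g2⟩ := exists_smul_pair (s := s) (t := y) (s' := s) (t' := z) rfl (by rw [hy', hz'])
      (hinter y z hyz) (by omega)
    exact ⟨⟨g, hg⟩, g1, g2⟩
  · intro y hy h
    rw [hfs, hf2] at h
    have hy' : y.card = 2 := hy
    have e1 : s ∩ y = s := Finset.eq_of_subset_of_card_le Finset.inter_subset_left (by rw [h, hs])
    have e2 : s ∩ y = y := Finset.eq_of_subset_of_card_le Finset.inter_subset_right (by rw [h, hy'])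
    rw [← e2, e1]
  · intro i
    fin_cases i
    · show {y | y.card = 2 ∧ f y = 0}.ncard = 231
      simp only [hf0]
      rw [ncard_subsets_inter s 2 0 (by norm_num), hs]; norm_num [Nat.choose]
    · show {y | y.card = 2 ∧ f y = 1}.ncard = 44
      simp only [hf1]
      rw [ncard_subsets_inter s 2 1 (by norm_num), hs]; norm_num [Nat.choose]
    · show {y | y.card = 2 ∧ f y = 2}.ncard = 1
      simp only [hf2]
      rw [ncard_subsets_inter s 2 2 (by norm_num), hs]; norm_num [Nat.choose]
  · rw [hS]; norm_num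
  · rw [hfs, hS]; decide

/-! ### triples -/

/-- the octads containing `T` -/
noncomputable def octOn (T : Finset GolayPt) : Finset (Finset GolayPt) := (wordsF 8).filter fun o => T ⊆ o

theorem mem_octOn {T o : Finset GolayPt} : o ∈ octOn T ↔ o ∈ octads ∧ T ⊆ o := by
  unfold octOn; rw [Finset.mem_filter, mem_wordsF_eight]

theorem card_octOn_three {T : Finset GolayPt} (hT : T.card = 3) : (octOn T).card = 21 := by
  have h := Steiner.octads_containing (α := GolayPt) (B := octads) (by rw [card_pt]) octads_steiner T 3 21 hT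
    (by norm_num) (by norm_num [Nat.choose])
  rw [← h]
  congr 1
  ext o
  rw [mem_octOn, Finset.mem_filter, Steiner.mem_bl]

theorem ncard_special_triads {T : Finset GolayPt} (hT : T.card = 3) :
    {U : Finset GolayPt | U.card = 3 ∧ Disjoint T U ∧ (∃ o ∈ octads, T ∪ U ⊆ o)}.ncard = 210 := by
  have : {U : Finset GolayPt | U.card = 3 ∧ Disjoint T U ∧ (∃ o ∈ octads, T ∪ U ⊆ o)} =
      ((octOn T).biUnion fun o => Finset.powersetCard 3 (o \ T) : Finset (Finset GolayPt)) := by
    ext U
    rw [Finset.mem_coe, Finset.mem_biUnion]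
    constructor
    · rintro ⟨h1, h2, o, ho, h3⟩
      refine ⟨o, mem_octOn.mpr ⟨ho, Finset.subset_union_left.trans h3⟩, ?_⟩
      rw [Finset.mem_powersetCard]
      refine ⟨fun x hx => ?_, h1⟩
      rw [Finset.mem_sdiff]
      exact ⟨h3 (Finset.mem_union_right _ hx), fun hxT => Finset.disjoint_left.mp h2 hxT hx⟩
    · rintro ⟨o, ho, h⟩
      rw [Finset.mem_powersetCard] at h
      rw [mem_octOn] at ho
      refine ⟨h.2, ?_, o, ho.1, Finset.union_subset ho.2 (h.1.trans Finset.sdiff_subset)⟩
      rw [Finset.disjoint_left]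
      intro x hx hxU
      exact (Finset.mem_sdiff.mp (h.1 hxU)).2 hx
  rw [this, Set.ncard_coe_finset, Finset.card_biUnion]
  · rw [Finset.sum_congr rfl (g := fun _ => 10), Finset.sum_const, card_octOn_three hT, smul_eq_mul]
    intro o ho
    rw [mem_octOn] at ho
    rw [Finset.card_powersetCard, Finset.card_sdiff_of_subset ho.2, ho.1.2, hT]
    rfl
  · intro o ho o' ho' hne
    rw [Finset.mem_coe, mem_octOn] at ho ho'
    rw [Function.onFun, Finset.disjoint_left]
    intro U hU hU'
    rw [Finset.mem_powersetCard] at hU hU'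
    apply hne
    apply octad_eq_of_five ho.1 ho'.1
    have hd : Disjoint T U := by
      rw [Finset.disjoint_left]
      intro x hx hxU
      exact (Finset.mem_sdiff.mp (hU.1 hxU)).2 hx
    have h1 : T ∪ U ⊆ o ∩ o' := Finset.subset_inter
      (Finset.union_subset ho.2 (hU.1.trans Finset.sdiff_subset))
      (Finset.union_subset ho'.2 (hU'.1.trans Finset.sdiff_subset))
    have h2 := Finset.card_le_card h1
    rw [Finset.card_union_of_disjoint hd, hT, hU.2] at h2
    omega

theorem ncard_disjoint_triads {T : Finset GolayPt} (hT : T.card = 3) :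
    {U : Finset GolayPt | U.card = 3 ∧ Disjoint T U}.ncard = 1330 := by
  have : {U : Finset GolayPt | U.card = 3 ∧ Disjoint T U} = {U | U.card = 3 ∧ (T ∩ U).card = 0} := by
    ext U
    rw [Set.mem_ofPred_eq, Set.mem_ofPred_eq, Finset.card_eq_zero, Finset.disjoint_iff_inter_eq_empty]
  rw [this, ncard_subsets_inter T 3 0 (by norm_num), hT]
  norm_num [Nat.choose]

theorem ncard_nonspecial_triads {T : Finset GolayPt} (hT : T.card = 3) :
    {U : Finset GolayPt | U.card = 3 ∧ Disjoint T U ∧ ¬ (∃ o ∈ octads, T ∪ U ⊆ o)}.ncard = 1120 := by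
  have h : {U : Finset GolayPt | U.card = 3 ∧ Disjoint T U} =
      {U : Finset GolayPt | U.card = 3 ∧ Disjoint T U ∧ (∃ o ∈ octads, T ∪ U ⊆ o)} ∪
      {U : Finset GolayPt | U.card = 3 ∧ Disjoint T U ∧ ¬ (∃ o ∈ octads, T ∪ U ⊆ o)} := by
    ext U
    rw [Set.mem_union, Set.mem_ofPred_eq, Set.mem_ofPred_eq, Set.mem_ofPred_eq]
    constructor
    · rintro ⟨h1, h2⟩
      by_cases h3 : ∃ o ∈ octads, T ∪ U ⊆ o
      · exact Or.inl ⟨h1, h2, h3⟩
      · exact Or.inr ⟨h1, h2, h3⟩
    · rintro (⟨h1, h2, _⟩ | ⟨h1, h2, _⟩) <;> exact ⟨h1, h2⟩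
  have h2 := ncard_disjoint_triads hT
  rw [h, Set.ncard_union_eq (by
    rw [Set.disjoint_left]
    rintro U ⟨_, _, h3⟩ ⟨_, _, h4⟩
    exact h4 h3) (Set.toFinite _) (Set.toFinite _), ncard_special_triads hT] at h2
  omega

theorem triad_transitive {T : Finset GolayPt} (hT : T.card = 3) (U U' : Finset GolayPt) (hU : U.card = 3)
    (hU' : U'.card = 3) (hd : Disjoint T U) (hd' : Disjoint T U')
    (h : (∃ o ∈ octads, T ∪ U ⊆ o) ↔ (∃ o ∈ octads, T ∪ U' ⊆ o)) :
    ∃ g : Equiv.Perm GolayPt, g ∈ M24 ∧ g • T = T ∧ g • U = U' := by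
  obtain ⟨a, b, c, hab, hac, hbc, rfl⟩ := Finset.card_eq_three.mp hT
  obtain ⟨d, e, f, hde, hdf, hef, rfl⟩ := Finset.card_eq_three.mp hU
  obtain ⟨d', e', f', hde', hdf', hef', rfl⟩ := Finset.card_eq_three.mp hU'
  simp only [Finset.disjoint_insert_left, Finset.disjoint_singleton_left, Finset.mem_insert, Finset.mem_singleton,
    not_or] at hd hd'
  obtain ⟨⟨had, hae, haf⟩, ⟨hbd, hbe, hbf⟩, hcd, hce, hcf⟩ := hd
  obtain ⟨⟨had', hae', haf'⟩, ⟨hbd', hbe', hbf'⟩, hcd', hce', hcf'⟩ := hd'
  have five := five_card hab hac had hae hbc hbd hbe hcd hce hde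
  have five' := five_card hab hac had' hae' hbc hbd' hbe' hcd' hce' hde'
  obtain ⟨o, ho, hs⟩ := exists_octad_of_five five
  obtain ⟨o', ho', hs'⟩ := exists_octad_of_five five'
  simp only [Finset.insert_subset_iff, Finset.singleton_subset_iff] at hs hs'
  obtain ⟨ma, mb, mc, md, me⟩ := hs
  obtain ⟨ma', mb', mc', md', me'⟩ := hs'
  have key : ∀ {d e f : GolayPt} {o : Finset GolayPt}, o ∈ octads → a ∈ o → b ∈ o → c ∈ o → d ∈ o → e ∈ o →
      a ≠ d → a ≠ e → b ≠ d → b ≠ e → c ≠ d → c ≠ e → d ≠ e →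
      ((∃ o ∈ octads, ({a, b, c} ∪ {d, e, f} : Finset GolayPt) ⊆ o) ↔ f ∈ o) := by
    intro d e f o ho ma mb mc md me had hae hbd hbe hcd hce hde
    constructor
    · rintro ⟨p, hp, h⟩
      simp only [Finset.union_subset_iff, Finset.insert_subset_iff, Finset.singleton_subset_iff] at h
      obtain ⟨⟨pa, pb, pc⟩, pd, pe, pf⟩ := h
      rwa [octad_eq_of_pts ho hp hab hac had hae hbc hbd hbe hcd hce hde ⟨ma, pa⟩ ⟨mb, pb⟩ ⟨mc, pc⟩ ⟨md, pd⟩ ⟨me, pe⟩]
    · intro hf
      refine ⟨o, ho, ?_⟩
      simp only [Finset.union_subset_iff, Finset.insert_subset_iff, Finset.singleton_subset_iff]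
      exact ⟨⟨ma, mb, mc⟩, md, me, hf⟩
  rw [key ho ma mb mc md me had hae hbd hbe hcd hce hde,
    key ho' ma' mb' mc' md' me' had' hae' hbd' hbe' hcd' hce' hde'] at h
  by_cases hf : f ∈ o
  · have hf' := h.mp hf
    obtain ⟨g, hg, g1, g2, g3, g4, g5, g6, _⟩ := exists_special ho ho' hab hac had hae hbc hbd hbe hcd hce hde
      ma mb mc md me hf haf hbf hcf hdf hef hab hac had' hae' hbc hbd' hbe' hcd' hce' hde' ma' mb' mc' md' me' hf'
      haf' hbf' hcf' hdf' hef'
    refine ⟨g, hg, ?_, ?_⟩
    · rw [Finset.smul_finset_insert, Finset.smul_finset_insert, Finset.smul_finset_singleton]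
      show ({g a, g b, g c} : Finset GolayPt) = {a, b, c}
      rw [g1, g2, g3]
    · rw [Finset.smul_finset_insert, Finset.smul_finset_insert, Finset.smul_finset_singleton]
      show ({g d, g e, g f} : Finset GolayPt) = {d', e', f'}
      rw [g4, g5, g6]
  · have hf' : f' ∉ o' := fun h1 => hf (h.mpr h1)
    obtain ⟨g, hg, g1, g2, g3, g4, g5, g6, _⟩ := exists_umbral ho ho' hab hac had hae hbc hbd hbe hcd hce hde
      ma mb mc md me hf hab hac had' hae' hbc hbd' hbe' hcd' hce' hde' ma' mb' mc' md' me' hf'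
    refine ⟨g, hg, ?_, ?_⟩
    · rw [Finset.smul_finset_insert, Finset.smul_finset_insert, Finset.smul_finset_singleton]
      show ({g a, g b, g c} : Finset GolayPt) = {a, b, c}
      rw [g1, g2, g3]
    · rw [Finset.smul_finset_insert, Finset.smul_finset_insert, Finset.smul_finset_singleton]
      show ({g d, g e, g f} : Finset GolayPt) = {d', e', f'}
      rw [g4, g5, g6]

/-- `S1564` -/
theorem triple_stab_maximal (s : Finset GolayPt) (hs : s.card = 3) : IsCoatom (MulAction.stabilizer M24 s) := by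
  classical
  let P : Finset GolayPt → Prop := fun U => ∃ o ∈ octads, s ∪ U ⊆ o
  let f : Finset GolayPt → Fin 5 := fun t => if (s ∩ t).card = 0 then (if P t then 0 else 4) else
    if (s ∩ t).card = 1 then 1 else if (s ∩ t).card = 2 then 2 else 3
  have hle : ∀ t, (s ∩ t).card ≤ 3 := fun t => hs ▸ Finset.card_le_card Finset.inter_subset_left
  have hf0 : ∀ x, f x = 0 ↔ (s ∩ x).card = 0 ∧ P x := by intro x; simp only [f]; split_ifs <;> simp_all
  have hf4 : ∀ x, f x = 4 ↔ (s ∩ x).card = 0 ∧ ¬ P x := by intro x; simp only [f]; split_ifs <;> simp_all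
  have hf1 : ∀ x, f x = 1 ↔ (s ∩ x).card = 1 := by intro x; simp only [f]; split_ifs <;> simp_all
  have hf2 : ∀ x, f x = 2 ↔ (s ∩ x).card = 2 := by intro x; simp only [f]; split_ifs <;> simp_all
  have hf3 : ∀ x, f x = 3 ↔ (s ∩ x).card = 3 := by
    intro x
    have h1 := hle x
    rcases (by omega : (s ∩ x).card = 0 ∨ (s ∩ x).card = 1 ∨ (s ∩ x).card = 2 ∨ (s ∩ x).card = 3) with h | h | h | h
    · by_cases hP : P x
      · rw [(hf0 x).mpr ⟨h, hP⟩, h]; decide
      · rw [(hf4 x).mpr ⟨h, hP⟩, h]; decide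
    · rw [(hf1 x).mpr h, h]; decide
    · rw [(hf2 x).mpr h, h]; decide
    · have h3 : f x = 3 := by
        simp only [f, h]
        rw [if_neg (by norm_num), if_neg (by norm_num), if_neg (by norm_num)]
      exact ⟨fun _ => h, fun _ => h3⟩
  have hfs : f s = 3 := (hf3 s).mpr (by rw [Finset.inter_self, hs])
  have h012 : ∀ a : Fin 5, a = 0 ∨ a = 1 ∨ a = 2 ∨ a = 3 ∨ a = 4 := by decide
  have hS : {t : Finset GolayPt | t.card = 3}.ncard = 2024 := by
    have : {t : Finset GolayPt | t.card = 3} = {t | t.card = 3 ∧ ((∅ : Finset GolayPt) ∩ t).card = 0} := by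
      ext t; simp
    rw [this, ncard_subsets_inter _ _ _ (by norm_num), Finset.card_empty]
    norm_num [Nat.choose]
  have hdis : ∀ x : Finset GolayPt, (s ∩ x).card = 0 → Disjoint s x := fun x h => by
    rw [Finset.disjoint_iff_inter_eq_empty, ← Finset.card_eq_zero]; exact h
  refine isCoatom_of_classes (S := {t : Finset GolayPt | t.card = 3}) (Set.toFinite _) ?_ ?_ f ![210, 630, 63, 1, 1120]
    ?_ ?_ ?_ ?_ ?_
  · intro t ht
    obtain ⟨g, hg, h⟩ := exists_smul_eq_of_card (s := s) (t := t) (by omega) (by rw [hs, ht])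
    exact ⟨⟨g, hg⟩, h⟩
  · intro g
    show ((g : Equiv.Perm GolayPt) • s).card = 3
    rw [card_smul', hs]
  · intro y hy z hz hyz
    have h1 := Finset.card_union_add_card_inter s y
    have hy' : y.card = 3 := hy
    have hz' : z.card = 3 := hz
    have key : (s ∩ y).card = (s ∩ z).card → (s ∩ y).card ≠ 0 →
        ∃ h : M24, h • s = s ∧ h • y = z := by
      intro h2 h3
      obtain ⟨g, hg, g1, g2⟩ := exists_smul_pair (s := s) (t := y) (s' := s) (t' := z) rfl (by rw [hy', hz'])
        h2 (by omega)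
      exact ⟨⟨g, hg⟩, g1, g2⟩
    rcases h012 (f y) with h | h | h | h | h
    · have h2 := (hf0 y).mp h
      have h3 := (hf0 z).mp (hyz ▸ h)
      obtain ⟨g, hg, g1, g2⟩ := triad_transitive hs y z hy' hz' (hdis y h2.1) (hdis z h3.1)
        ⟨fun _ => h3.2, fun _ => h2.2⟩
      exact ⟨⟨g, hg⟩, g1, g2⟩
    · have h2 := (hf1 y).mp h
      have h3 := (hf1 z).mp (hyz ▸ h)
      exact key (by rw [h2, h3]) (by omega)
    · have h2 := (hf2 y).mp h
      have h3 := (hf2 z).mp (hyz ▸ h)
      exact key (by rw [h2, h3]) (by omega)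
    · have h2 := (hf3 y).mp h
      have h3 := (hf3 z).mp (hyz ▸ h)
      exact key (by rw [h2, h3]) (by omega)
    · have h2 := (hf4 y).mp h
      have h3 := (hf4 z).mp (hyz ▸ h)
      obtain ⟨g, hg, g1, g2⟩ := triad_transitive hs y z hy' hz' (hdis y h2.1) (hdis z h3.1)
        ⟨fun h => absurd h h2.2, fun h => absurd h h3.2⟩
      exact ⟨⟨g, hg⟩, g1, g2⟩
  · intro y hy h
    rw [hfs, hf3] at h
    have hy' : y.card = 3 := hy
    have e1 : s ∩ y = s := Finset.eq_of_subset_of_card_le Finset.inter_subset_left (by rw [h, hs])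
    have e2 : s ∩ y = y := Finset.eq_of_subset_of_card_le Finset.inter_subset_right (by rw [h, hy'])
    rw [← e2, e1]
  · intro i
    fin_cases i
    · show {y | y.card = 3 ∧ f y = 0}.ncard = 210
      rw [← ncard_special_triads hs]
      congr 1
      ext y
      rw [Set.mem_ofPred_eq, Set.mem_ofPred_eq, hf0, Finset.card_eq_zero, ← Finset.disjoint_iff_inter_eq_empty]
    · show {y | y.card = 3 ∧ f y = 1}.ncard = 630
      simp only [hf1]
      rw [ncard_subsets_inter s 3 1 (by norm_num), hs]; norm_num [Nat.choose]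
    · show {y | y.card = 3 ∧ f y = 2}.ncard = 63
      simp only [hf2]
      rw [ncard_subsets_inter s 3 2 (by norm_num), hs]; norm_num [Nat.choose]
    · show {y | y.card = 3 ∧ f y = 3}.ncard = 1
      simp only [hf3]
      rw [ncard_subsets_inter s 3 3 (by norm_num), hs]; norm_num [Nat.choose]
    · show {y | y.card = 3 ∧ f y = 4}.ncard = 1120
      rw [← ncard_nonspecial_triads hs]
      congr 1
      ext y
      rw [Set.mem_ofPred_eq, Set.mem_ofPred_eq, hf4, Finset.card_eq_zero, ← Finset.disjoint_iff_inter_eq_empty]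
  · rw [hS]; norm_num
  · rw [hfs, hS]; decide

end Cfsg.Agent.Lib.Golay
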