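import Cfsg.Agent.Lib.GolayOrbits
import Cfsg.Agent.Lib.GolayTrans

/-!
Pairs of points relative to two points and a pair (`S1638`).
-/

set_option autoImplicit false
set_option linter.constructorNameAsVariable false
set_option linter.unusedVariables false

namespace Cfsg.Agent.Lib.Golay

open Cfsg
open scoped Pointwise

/-- the octads through 23, 0, 1, 2 -/
def o4L : List ℕ := [12656663, 8536111, 11010247, 9471495, 8657159]

theorem o4_ok : (o4L.all fun o => cond (cond (isCode o) (Nat.beq (pc o) 8) false)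
    (cond (tb o 23) (cond (tb o 0) (cond (tb o 1) (tb o 2) false) false) false) false) = true := by decide +kernel

theorem o4_all : allLt 4096 (fun n => cond (tb OC n) (cond (tb (enc n) 23) (cond (tb (enc n) 0) (cond (tb (enc n) 1)
    (cond (tb (enc n) 2) (o4L.any fun o => Nat.beq (enc n) o) true) true) true) true) true) = true := by decide +kernel

/-- pair number `n` -/
def prF (n : ℕ) : Finset GolayPt := {pt (n / 24), pt (n % 24)}
def prT (n : ℕ) : Bool := Nat.blt (n / 24) (n % 24)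

theorem mem_prF (t : Finset GolayPt) : t ∈ {t : Finset GolayPt | t.card = 2} ↔ ∃ n < 576, prT n = true ∧ t = prF n := by
  constructor
  · intro h
    obtain ⟨a, b, hab, rfl⟩ := Finset.card_eq_two.mp h
    have key : ∀ a b : GolayPt, ix a < ix b → ∃ n < 576, prT n = true ∧ ({a, b} : Finset GolayPt) = prF n := by
      intro a b h
      have ha := ix_lt a
      have hb := ix_lt b
      refine ⟨24 * ix a + ix b, by omega, ?_, ?_⟩
      · unfold prT
        rw [show (24 * ix a + ix b) / 24 = ix a by omega, show (24 * ix a + ix b) % 24 = ix b by omega]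
        exact Nat.ble_eq_true_of_le h
      · unfold prF
        rw [show (24 * ix a + ix b) / 24 = ix a by omega, show (24 * ix a + ix b) % 24 = ix b by omega, pt_ix, pt_ix]
    rcases lt_or_gt_of_ne (fun e => hab (ix_injective e)) with h | h
    · exact key a b h
    · rw [Finset.pair_comm]; exact key b a h
  · rintro ⟨n, hn, h, rfl⟩
    have h1 : n / 24 < n % 24 := Nat.le_of_ble_eq_true h
    exact Finset.card_pair (pt_ne (by omega) (by omega) (by omega))

theorem prF_inj (a : ℕ) (ha : a < 576) (b : ℕ) (hb : b < 576) (ta : prT a = true) (tb' : prT b = true)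
    (h : prF a = prF b) : a = b := by
  have h1 : a / 24 < a % 24 := Nat.le_of_ble_eq_true ta
  have h2 : b / 24 < b % 24 := Nat.le_of_ble_eq_true tb'
  unfold prF at h
  have m1 : pt (a / 24) ∈ ({pt (b / 24), pt (b % 24)} : Finset GolayPt) := by rw [← h]; simp
  have m2 : pt (a % 24) ∈ ({pt (b / 24), pt (b % 24)} : Finset GolayPt) := by rw [← h]; simp
  have pi : ∀ {i j : ℕ}, i < 24 → j < 24 → pt i = pt j → i = j := fun hi hj e => by
    by_contra hne
    exact pt_ne hi hj hne e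
  rw [Finset.mem_insert, Finset.mem_singleton] at m1 m2
  rcases m1 with m1 | m1 <;> rcases m2 with m2 | m2
  · have := pi (by omega) (by omega) m1
    have := pi (by omega) (by omega) m2
    omega
  · have := pi (by omega) (by omega) m1
    have := pi (by omega) (by omega) m2
    omega
  · have := pi (by omega) (by omega) m1
    have := pi (by omega) (by omega) m2
    omega
  · have := pi (by omega) (by omega) m1
    have := pi (by omega) (by omega) m2
    omega

theorem ncard_pairs_filter (P : Finset GolayPt → Prop) (p : ℕ → Bool)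
    (h : ∀ n < 576, prT n = true → (P (prF n) ↔ p n = true)) :
    {t | t ∈ {t : Finset GolayPt | t.card = 2} ∧ P t}.ncard = cntLt 576 (fun n => cond (prT n) (p n) false) :=
  ncard_filter_of {t : Finset GolayPt | t.card = 2} prF prT 576 mem_prF prF_inj P p h

/-- a small number is not one of the base points -/
def nb (i : ℕ) : Bool := cond (Nat.beq i 23) false (cond (Nat.beq i 0) false (cond (Nat.beq i 1) false
  (cond (Nat.beq i 2) false true)))

def io (i j : ℕ) : Bool := o4L.any fun o => cond (tb o i) (tb o j) false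

theorem nb_iff {i : ℕ} (hi : i < 24) : nb i = true ↔ pt i ≠ pt 23 ∧ pt i ≠ pt 0 ∧ pt i ≠ pt 1 ∧ pt i ≠ pt 2 := by
  have h : ∀ i : Fin 24, nb i = true ↔ (i : ℕ) ≠ 23 ∧ (i : ℕ) ≠ 0 ∧ (i : ℕ) ≠ 1 ∧ (i : ℕ) ≠ 2 := by decide
  have h' := h ⟨i, hi⟩
  rw [show (((⟨i, hi⟩ : Fin 24) : ℕ)) = i from rfl] at h'
  have e : ∀ {j : ℕ}, j < 24 → (pt i ≠ pt j ↔ i ≠ j) := fun hj => ⟨fun h e => h (by rw [e]), fun h => pt_ne hi hj h⟩
  rw [h', e (by norm_num), e (by norm_num), e (by norm_num), e (by norm_num)]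

/-- the octad property -/
def OP (p q : GolayPt) (s t : Finset GolayPt) : Prop := ∃ o ∈ octads, p ∈ o ∧ q ∈ o ∧ s ∪ t ⊆ o

theorem OP_iff {i j : ℕ} (hi : i < 24) (hj : j < 24) : OP (pt 23) (pt 0) {pt 1, pt 2} {pt i, pt j} ↔ io i j = true := by
  constructor
  · rintro ⟨o, ho, h1, h2, h3⟩
    obtain ⟨n, hn, h4, rfl⟩ := mem_octads_tb.mp ho
    have h5 := allLt_iff.mp o4_all n hn
    have k1 : pt 1 ∈ mset (enc n) := h3 (by simp)
    have k2 : pt 2 ∈ mset (enc n) := h3 (by simp)
    have ki : pt i ∈ mset (enc n) := h3 (by simp)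
    have kj : pt j ∈ mset (enc n) := h3 (by simp)
    rw [h4, cond_true, (mem_mset_tb (by norm_num)).mp h1, cond_true, (mem_mset_tb (by norm_num)).mp h2, cond_true,
      (mem_mset_tb (by norm_num)).mp k1, cond_true, (mem_mset_tb (by norm_num)).mp k2, cond_true] at h5
    obtain ⟨o, ho', h6⟩ := List.any_eq_true.mp h5
    apply List.any_eq_true.mpr
    refine ⟨o, ho', ?_⟩
    rw [← Nat.eq_of_beq_eq_true h6, (mem_mset_tb hi).mp ki, (mem_mset_tb hj).mp kj]
    rfl
  · intro h
    obtain ⟨o, ho, h1⟩ := List.any_eq_true.mp h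
    have h2 := List.all_eq_true.mp o4_ok o ho
    obtain ⟨h3, h4⟩ := cond_false_eq.mp h2
    simp only [cond_false_eq] at h4 h1
    obtain ⟨k1, k2, k3, k4⟩ := h4
    obtain ⟨k5, k6⟩ := h1
    refine ⟨mset o, octad_of_isCode h3, (mem_mset_tb (by norm_num)).mpr k1, (mem_mset_tb (by norm_num)).mpr k2, ?_⟩
    intro x hx
    simp only [Finset.mem_union, Finset.mem_insert, Finset.mem_singleton] at hx
    rcases hx with (rfl | rfl) | (rfl | rfl)
    · exact (mem_mset_tb (by norm_num)).mpr k3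
    · exact (mem_mset_tb (by norm_num)).mpr k4
    · exact (mem_mset_tb hi).mpr k5
    · exact (mem_mset_tb hj).mpr k6

theorem base_iff {i j : ℕ} (hi : i < 24) (hj : j < 24) :
    (pt 23 ∉ ({pt i, pt j} : Finset GolayPt) ∧ pt 0 ∉ ({pt i, pt j} : Finset GolayPt)) ∧
      Disjoint ({pt 1, pt 2} : Finset GolayPt) {pt i, pt j} ↔ nb i = true ∧ nb j = true := by
  rw [nb_iff hi, nb_iff hj, Finset.disjoint_left]
  simp only [Finset.mem_insert, Finset.mem_singleton, not_or, forall_eq_or_imp, forall_eq]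
  constructor
  · rintro ⟨⟨⟨a1, a2⟩, a3, a4⟩, ⟨a5, a6⟩, a7, a8⟩
    exact ⟨⟨Ne.symm a1, Ne.symm a3, Ne.symm a5, Ne.symm a7⟩, ⟨Ne.symm a2, Ne.symm a4, Ne.symm a6, Ne.symm a8⟩⟩
  · rintro ⟨⟨a1, a3, a5, a7⟩, ⟨a2, a4, a6, a8⟩⟩
    exact ⟨⟨⟨Ne.symm a1, Ne.symm a2⟩, Ne.symm a3, Ne.symm a4⟩, ⟨Ne.symm a5, Ne.symm a6⟩, Ne.symm a7, Ne.symm a8⟩

theorem count30 : cntLt 576 (fun n => cond (prT n) (cond (nb (n / 24)) (cond (nb (n % 24)) (io (n / 24) (n % 24)) false) false)
    false) = 30 := by decide +kernel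
theorem count160 : cntLt 576 (fun n => cond (prT n) (cond (nb (n / 24)) (cond (nb (n % 24))
    (cond (io (n / 24) (n % 24)) false true) false) false) false) = 160 := by decide +kernel

theorem std30 : {t : Finset GolayPt | (t.card = 2 ∧ pt 23 ∉ t ∧ pt 0 ∉ t) ∧ Disjoint {pt 1, pt 2} t ∧
    OP (pt 23) (pt 0) {pt 1, pt 2} t}.ncard = 30 := by
  rw [← count30, ← ncard_pairs_filter (fun t => (pt 23 ∉ t ∧ pt 0 ∉ t) ∧ Disjoint {pt 1, pt 2} t ∧
    OP (pt 23) (pt 0) {pt 1, pt 2} t)]
  · congr 1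
    ext t
    simp only [Set.mem_ofPred_eq]
    tauto
  · intro n hn _
    have h1 : n / 24 < 24 := by omega
    have h2 : n % 24 < 24 := by omega
    rw [cond_false_eq, cond_false_eq, ← OP_iff h1 h2, ← and_assoc, ← and_assoc, ← base_iff h1 h2]
    rfl

theorem std160 : {t : Finset GolayPt | (t.card = 2 ∧ pt 23 ∉ t ∧ pt 0 ∉ t) ∧ Disjoint {pt 1, pt 2} t ∧
    ¬ OP (pt 23) (pt 0) {pt 1, pt 2} t}.ncard = 160 := by
  rw [← count160, ← ncard_pairs_filter (fun t => (pt 23 ∉ t ∧ pt 0 ∉ t) ∧ Disjoint {pt 1, pt 2} t ∧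
    ¬ OP (pt 23) (pt 0) {pt 1, pt 2} t)]
  · congr 1
    ext t
    simp only [Set.mem_ofPred_eq]
    tauto
  · intro n hn _
    have h1 : n / 24 < 24 := by omega
    have h2 : n % 24 < 24 := by omega
    have h3 : (cond (io (n / 24) (n % 24)) false true = true) ↔ ¬ io (n / 24) (n % 24) = true := by
      cases io (n / 24) (n % 24) <;> simp
    rw [cond_false_eq, cond_false_eq, h3, ← OP_iff h1 h2, ← and_assoc, ← and_assoc, ← base_iff h1 h2]
    rfl

theorem OP_smul {g : Equiv.Perm GolayPt} (hg : g ∈ M24) (p q : GolayPt) (s t : Finset GolayPt) :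
    OP (g p) (g q) (g • s) (g • t) ↔ OP p q s t := by
  have key : ∀ g ∈ M24, ∀ (p q : GolayPt) (s t : Finset GolayPt), OP p q s t → OP (g p) (g q) (g • s) (g • t) := by
    rintro g hg p q s t ⟨o, ho, h1, h2, h3⟩
    refine ⟨g • o, (smul_mem_octads hg).mpr ho, (smul_mem_smul _ _ _).mpr h1, (smul_mem_smul _ _ _).mpr h2, ?_⟩
    rw [← Finset.smul_finset_union]
    exact Finset.smul_finset_subset_smul_finset h3
  constructor
  · intro h
    have := key g⁻¹ (M24.inv_mem hg) _ _ _ _ h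
    rwa [perm_inv_apply, perm_inv_apply, inv_smul_smul, inv_smul_smul] at this
  · exact key g hg p q s t

theorem count_transport {g : Equiv.Perm GolayPt} (hg : g ∈ M24) (p q : GolayPt) (s : Finset GolayPt) (P : Prop → Prop) :
    {t : Finset GolayPt | (t.card = 2 ∧ g p ∉ t ∧ g q ∉ t) ∧ Disjoint (g • s) t ∧ P (OP (g p) (g q) (g • s) t)}.ncard =
    {t : Finset GolayPt | (t.card = 2 ∧ p ∉ t ∧ q ∉ t) ∧ Disjoint s t ∧ P (OP p q s t)}.ncard := by
  rw [← ncard_smul_set g {t : Finset GolayPt | (t.card = 2 ∧ p ∉ t ∧ q ∉ t) ∧ Disjoint s t ∧ P (OP p q s t)}]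
  congr 1
  ext t
  obtain ⟨t, rfl⟩ : ∃ t', t = g • t' := ⟨g⁻¹ • t, (smul_inv_smul g t).symm⟩
  rw [Set.smul_mem_smul_set_iff]
  simp only [Set.mem_ofPred_eq]
  have hd : Disjoint (g • s) (g • t) ↔ Disjoint s t := by
    rw [Finset.disjoint_left, Finset.disjoint_left]
    constructor
    · intro h x hx hx'
      exact h ((smul_mem_smul g s x).mpr hx) ((smul_mem_smul g t x).mpr hx')
    · intro h y hy hy'
      obtain ⟨x, rfl⟩ := g.surjective y
      exact h ((smul_mem_smul _ _ _).mp hy) ((smul_mem_smul _ _ _).mp hy')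
  rw [Finset.card_smul_finset, smul_mem_smul, smul_mem_smul, hd, OP_smul hg]

end Cfsg.Agent.Lib.Golay
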