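import Cfsg.Agent.Lib.GolayCoset

/-!
The punctured code of length 23.
-/

set_option autoImplicit false

namespace Cfsg.Agent.Lib.GolayPunct

open Cfsg Cfsg.Agent.Lib.Golay Cfsg.Agent.Lib.GolayCoset

/-- restriction of the code word number `n` to the 23 finite points -/
def pu (n : ℕ) : ZMod 23 → ZMod 2 := fun x => wd (enc n) (some x)

/-- The punctured code -/
abbrev C23 : Set (ZMod 23 → ZMod 2) := {u | ∃ w ∈ golayCode, ∀ x : ZMod 23, u x = w (some x)}

theorem mem_C23_iff {u : ZMod 23 → ZMod 2} : u ∈ C23 ↔ ∃ n < 4096, u = pu n := by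
  constructor
  · rintro ⟨w, hw, h⟩
    obtain ⟨n, hn, rfl⟩ := mem_golayCode_iff.mp hw
    exact ⟨n, hn, funext h⟩
  · rintro ⟨n, hn, rfl⟩
    exact ⟨wd (enc n), wd_enc_mem n, fun x => rfl⟩

theorem pu_injOn {a b : ℕ} (ha : a < 4096) (hb : b < 4096) (h : pu a = pu b) : a = b := by
  have : enc a &&& 4095 = enc b &&& 4095 := by
    apply Nat.eq_of_testBit_eq
    intro i
    rw [Nat.testBit_and, Nat.testBit_and]
    by_cases hi : i < 12
    · have h1 : wd (enc a) (some ((i : ℕ) : ZMod 23)) = wd (enc b) (some ((i : ℕ) : ZMod 23)) :=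
        congrFun h ((i : ℕ) : ZMod 23)
      have hv : ix (some ((i : ℕ) : ZMod 23)) = i := by
        show ZMod.val ((i : ℕ) : ZMod 23) = i
        exact ZMod.val_cast_of_lt (by omega)
      have key : ∀ m : ℕ, m.testBit i = decide (wd m (some ((i : ℕ) : ZMod 23)) = 1) := by
        intro m
        unfold wd
        rw [hv]
        cases m.testBit i <;> decide
      rw [key (enc a), key (enc b), h1]
    · have : (4095 : ℕ).testBit i = false :=
        Nat.testBit_lt_two_pow (lt_of_lt_of_le (by norm_num : 4095 < 2 ^ 12)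
          (Nat.pow_le_pow_right (by norm_num) (by omega)))
      rw [this, Bool.and_false, Bool.and_false]
  rw [enc_and ha, enc_and hb] at this
  exact this

theorem hammingNorm_pu (n : ℕ) : hammingNorm (pu n) = pcR 23 (enc n) := by
  rw [pcR_eq, hammingNorm, Finset.card_filter]
  rw [← Fin.sum_univ_eq_sum_range (fun i => ((enc n).testBit i).toNat) 23]
  apply Finset.sum_congr rfl
  intro p _
  show (if (if (enc n).testBit (ix (some p)) = true then (1 : ZMod 2) else 0) ≠ 0 then 1 else 0)
    = ((enc n).testBit (ix (some p))).toNat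
  cases (enc n).testBit (ix (some p)) <;> rfl

theorem ncard_C23 : C23.ncard = 4096 := by
  have : C23 = ((Finset.range 4096).image pu : Finset _) := by
    ext u
    rw [Finset.mem_coe, Finset.mem_image, mem_C23_iff]
    constructor
    · rintro ⟨n, hn, rfl⟩; exact ⟨n, Finset.mem_range.mpr hn, rfl⟩
    · rintro ⟨n, hn, rfl⟩; exact ⟨n, Finset.mem_range.mp hn, rfl⟩
  rw [this, Set.ncard_coe_finset, Finset.card_image_of_injOn, Finset.card_range]
  intro a ha b hb h
  exact pu_injOn (by simpa using ha) (by simpa using hb) h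

theorem ncard_weight (k : ℕ) : {u : ZMod 23 → ZMod 2 | u ∈ C23 ∧ hammingNorm u = k}.ncard =
    cntLt 4096 (fun n => Nat.beq (pcR 23 (enc n)) k) := by
  have : {u : ZMod 23 → ZMod 2 | u ∈ C23 ∧ hammingNorm u = k} =
      (((Finset.range 4096).filter (fun n => Nat.beq (pcR 23 (enc n)) k = true)).image pu : Finset _) := by
    ext u
    rw [Finset.mem_coe, Finset.mem_image]
    constructor
    · rintro ⟨h1, h2⟩
      obtain ⟨n, hn, rfl⟩ := mem_C23_iff.mp h1
      refine ⟨n, ?_, rfl⟩
      rw [Finset.mem_filter, Finset.mem_range, Nat.beq_eq, ← hammingNorm_pu]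
      exact ⟨hn, h2⟩
    · rintro ⟨n, hn, rfl⟩
      rw [Finset.mem_filter, Finset.mem_range, Nat.beq_eq, ← hammingNorm_pu] at hn
      exact ⟨mem_C23_iff.mpr ⟨n, hn.1, rfl⟩, hn.2⟩
  rw [this, Set.ncard_coe_finset, Finset.card_image_of_injOn, cntLt_eq]
  intro a ha b hb h
  simp only [Finset.coe_filter, Finset.mem_range, Set.mem_ofPred_eq] at ha hb
  exact pu_injOn ha.1 hb.1 h

theorem weights23 : allLt 4096 (fun n => cond (Nat.beq n 0) true (Nat.ble 7 (pcR 23 (enc n)))) = true := by
  decide +kernel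

theorem seven_le {u : ZMod 23 → ZMod 2} (hu : u ∈ C23) (h0 : u ≠ 0) : 7 ≤ hammingNorm u := by
  obtain ⟨n, hn, rfl⟩ := mem_C23_iff.mp hu
  have h := allLt_iff.mp weights23 n hn
  by_cases h1 : n = 0
  · exfalso
    apply h0
    subst h1
    funext x
    simp only [pu, enc_zero, wd_zero]
    rfl
  · have : Nat.beq n 0 = false := by
      cases h2 : Nat.beq n 0
      · rfl
      · exact absurd (Nat.eq_of_beq_eq_true h2) h1
    rw [this, cond_false] at h
    rw [hammingNorm_pu]
    exact Nat.le_of_ble_eq_true h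

theorem sub_mem_C23 {u v : ZMod 23 → ZMod 2} (hu : u ∈ C23) (hv : v ∈ C23) : u - v ∈ C23 := by
  obtain ⟨w, hw, h⟩ := hu
  obtain ⟨w', hw', h'⟩ := hv
  exact ⟨w - w', Submodule.sub_mem _ hw hw', fun x => by simp [h, h']⟩

end Cfsg.Agent.Lib.GolayPunct
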