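import Cfsg.Agent.Lib.GolayElts2
import Cfsg.Agent.Lib.GolayMore

/-!
Elements of order 7 of `M24`: centraliser of order 42, normaliser of order 126, invariant trio.
-/

set_option autoImplicit false
set_option linter.constructorNameAsVariable false
set_option linter.unusedVariables false

namespace Cfsg.Agent.Lib.Golay

open Cfsg Cfsg.Agent.Lib.GolayCoset
open scoped Pointwise

/-- order 7 -/
def c7 : ℕ := 10798348618377404094574795718560833
/-- involution centralising it -/
def c7t : ℕ := 983548720921252936276249910206105632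
/-- order 3, centralising it, permuting the cycles -/
def c7r : ℕ := 381228358466740611857706523218562475
/-- conjugates it to its square -/
def c7n : ℕ := 980225099503731480375123711306512481
/-- inverts it on six points -/
def c7c : ℕ := 970336076044018245289696528149056686
/-- 21 elements of the centraliser -/
def l7 : List ℕ := [984818244535754528103549039458486304, 381228358466740611857706523218562475, 775167165050398873429875497438253268, 10798348618377404094574795718560833, 475421543599046433488545036885471853, 844332759190364717284924471577885830, 65274704707599769217275120109163618, 570588155646831899744821832158893459, 261870207799926848474215503017302500, 109503863569768314789247329032190115, 790044541850088283130474736652692140, 180448106050984772674390505195905743, 132959176629126753675741142892699077, 500009017196960117298123431046653269, 640018699567150916674566505237203222, 213665507636472236567454644139229934, 875082826147161320770195101143444778, 938601489613188615552358004598985288, 601518482480430608974948510994596887,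 419915855221783817003905239305794921, 348017045120433963573500627104438930]

theorem inM_c7 : inM c7 = true := by decide +kernel
theorem inM_c7t : inM c7t = true := by decide +kernel
theorem inM_c7r : inM c7r = true := by decide +kernel
theorem inM_c7n : inM c7n = true := by decide +kernel
theorem inM_c7c : inM c7c = true := by decide +kernel

theorem l7_ok : (l7.all fun c => cond (inM c) (Nat.beq (mulC c c7) (mulC c7 c)) false) = true := by decide +kernel
theorem l7_tr : allLt 24 (fun q => cond (Nat.beq (img c7 q) q) true (l7.any fun c => Nat.beq (img c 23) q)) = true := by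
  decide +kernel

theorem c7_comm_t : mulC c7t c7 = mulC c7 c7t := by decide +kernel
theorem c7_comm_r : mulC c7r c7 = mulC c7 c7r := by decide +kernel
theorem c7_rt : img (mulC c7r c7t) 0 ≠ img (mulC c7t c7r) 0 := by decide +kernel
theorem c7_n : mulC c7n c7 = mulC (mulC c7 c7) c7n := by decide +kernel
theorem c7_seven : mulC c7 (mulC c7 (mulC c7 (mulC c7 (mulC c7 (mulC c7 c7))))) = cId := by decide +kernel
theorem c7_fix : (cntLt 24 fun i => Nat.beq (img c7 i) i) = 3 := by decide +kernel
theorem c7_frame : ∀ i, img c7 (ix (fI i)) = ![0, 1, 2, 3, 5, 14] i := by decide +kernel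
theorem c7_14 : img c7 14 = 23 := by decide +kernel

theorem comm_codes {a b : ℕ} (ha : inM a = true) (hb : inM b = true) (h : mulC a b = mulC b a) :
    toPerm a * toPerm b = toPerm b * toPerm a := by
  rw [← toPerm_mulC (valid_of_inM ha) (valid_of_inM hb), ← toPerm_mulC (valid_of_inM hb) (valid_of_inM ha), h]

theorem comm_img {a b : ℕ} (ha : valid a = true) (hb : valid b = true) (h : toPerm a * toPerm b = toPerm b * toPerm a) :
    (allLt 24 fun i => Nat.beq (img a (img b i)) (img b (img a i))) = true := by
  apply allLt_of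
  intro i hi
  have h8 := DFunLike.congr_fun h (pt i)
  rw [Equiv.Perm.mul_apply, Equiv.Perm.mul_apply] at h8
  have h9 := congrArg ix h8
  rw [ix_toPerm ha, ix_toPerm hb, ix_toPerm hb, ix_toPerm ha, ix_pt hi] at h9
  rw [Nat.beq_eq]
  exact h9

theorem tr6_c7 : (tr6.all fun c => cond (allLt 24 fun i => Nat.beq (img c (img c7 i)) (img c7 (img c i)))
    (cond (Nat.beq c cId) true (Nat.beq c c7t)) true) = true := by decide +kernel

/-- the centraliser -/
def C7 : Subgroup (Equiv.Perm GolayPt) := M24 ⊓ Subgroup.centralizer {toPerm c7}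

theorem mem_C7 {g : Equiv.Perm GolayPt} : g ∈ C7 ↔ g ∈ M24 ∧ g * toPerm c7 = toPerm c7 * g := by
  unfold C7
  rw [Subgroup.mem_inf, Subgroup.mem_centralizer_singleton_iff]

theorem c7_pt {i j : ℕ} (hi : i < 24) (h : img c7 i = j) : toPerm c7 (pt i) = pt j := by
  rw [toPerm_pt (valid_of_inM inM_c7) hi, h]

theorem C7_stab {g : Equiv.Perm GolayPt} (hg : g ∈ C7) (h0 : g (pt 23) = pt 23) : g = 1 ∨ g = toPerm c7t := by
  obtain ⟨hg, hc⟩ := mem_C7.mp hg
  have step : ∀ {i j : ℕ}, i < 24 → img c7 i = j → g (pt i) = pt i → g (pt j) = pt j := by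
    intro i j hi h h1
    have h2 := DFunLike.congr_fun hc (pt i)
    rw [Equiv.Perm.mul_apply, Equiv.Perm.mul_apply, h1, c7_pt hi h] at h2
    exact h2
  have g0 := step (by norm_num) (show img c7 23 = 0 by decide +kernel) h0
  have g1 := step (by norm_num) (show img c7 0 = 1 by decide +kernel) g0
  have g2 := step (by norm_num) (show img c7 1 = 2 by decide +kernel) g1
  have g3 := step (by norm_num) (show img c7 2 = 3 by decide +kernel) g2
  have g5 := step (by norm_num) (show img c7 3 = 5 by decide +kernel) g3
  obtain ⟨c, hc6, rfl⟩ := fixI hg (fun i => by fin_cases i; exacts [h0, g0, g1, g2, g3, g5])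
  have h1 := List.all_eq_true.mp tr6_c7 c hc6
  have hv : valid c = true := valid_of_inM (lvl_mem lvl6 hc6).1
  rw [comm_img hv (valid_of_inM inM_c7) hc, cond_true] at h1
  cases h2 : Nat.beq c cId with
  | true => left; rw [Nat.eq_of_beq_eq_true h2, toPerm_cId]
  | false => right; rw [h2, cond_false] at h1; rw [Nat.eq_of_beq_eq_true h1]

theorem c7t_mem : toPerm c7t ∈ C7 := mem_C7.mpr ⟨toPerm_mem_M24 inM_c7t, comm_codes inM_c7t inM_c7 c7_comm_t⟩
theorem c7r_mem : toPerm c7r ∈ C7 := mem_C7.mpr ⟨toPerm_mem_M24 inM_c7r, comm_codes inM_c7r inM_c7 c7_comm_r⟩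

theorem c7t_ne : toPerm c7t ≠ 1 := by
  intro h
  have h1 : img c7t 4 ≠ 4 := by decide +kernel
  apply h1
  have := ix_toPerm (valid_of_inM inM_c7t) (pt 4)
  rw [h, ix_pt (n := 4) (by norm_num)] at this
  rw [← this]
  exact ix_pt (n := 4) (by norm_num)

theorem c7t_23 : toPerm c7t (pt 23) = pt 23 := by
  rw [toPerm_pt (valid_of_inM inM_c7t) (by norm_num), show img c7t 23 = 23 by decide +kernel]

theorem card_C7 : Nat.card C7 = 42 := by
  have h := card_eq_mul_inf_stabilizer C7 (pt 23) {p | toPerm c7 p ≠ p}
    (fun g hg => by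
      obtain ⟨-, hc⟩ := mem_C7.mp hg
      show toPerm c7 (g (pt 23)) ≠ g (pt 23)
      have h2 := DFunLike.congr_fun hc (pt 23)
      rw [Equiv.Perm.mul_apply, Equiv.Perm.mul_apply] at h2
      rw [← h2, c7_pt (by norm_num) (show img c7 23 = 0 by decide +kernel)]
      intro e
      exact pt_ne (i := 0) (j := 23) (by norm_num) (by norm_num) (by norm_num) (g.injective e))
    (fun x hx => by
      have hx' : toPerm c7 x ≠ x := hx
      have h1 := allLt_iff.mp l7_tr (ix x) (ix_lt x)
      cases h2 : Nat.beq (img c7 (ix x)) (ix x) with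
      | true =>
        exfalso
        apply hx'
        rw [toPerm_apply (valid_of_inM inM_c7), Nat.eq_of_beq_eq_true h2, pt_ix]
      | false =>
        rw [h2, cond_false] at h1
        obtain ⟨c, hc, h3⟩ := List.any_eq_true.mp h1
        obtain ⟨h4, h5⟩ := cond_false_eq.mp (List.all_eq_true.mp l7_ok c hc)
        refine ⟨toPerm c, mem_C7.mpr ⟨toPerm_mem_M24 h4, comm_codes h4 inM_c7 (Nat.eq_of_beq_eq_true h5)⟩, ?_⟩
        show toPerm c (pt 23) = x
        rw [toPerm_pt (valid_of_inM h4) (by norm_num), Nat.eq_of_beq_eq_true h3, pt_ix])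
  have h1 : ({p | toPerm c7 p ≠ p} : Set GolayPt).ncard = 21 := by
    have e : ({p | toPerm c7 p ≠ p} : Set GolayPt) = ((Finset.univ.filter fun p => toPerm c7 p = p)ᶜ : Finset GolayPt) := by
      ext p; simp
    rw [e, Set.ncard_coe_finset, Finset.card_compl, card_fix_code (valid_of_inM inM_c7), c7_fix]
    rfl
  have h2 : Nat.card ↥(C7 ⊓ MulAction.stabilizer (Equiv.Perm GolayPt) (pt 23)) = 2 := by
    have e : ((C7 ⊓ MulAction.stabilizer (Equiv.Perm GolayPt) (pt 23) : Subgroup _) : Set (Equiv.Perm GolayPt)) =
        {1, toPerm c7t} := by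
      ext g
      constructor
      · rintro ⟨h3, h4⟩
        exact C7_stab h3 h4
      · rintro (rfl | rfl)
        · exact Subgroup.one_mem _
        · exact ⟨c7t_mem, c7t_23⟩
    have : Nat.card ↥(C7 ⊓ MulAction.stabilizer (Equiv.Perm GolayPt) (pt 23)) =
        Nat.card ↥(((C7 ⊓ MulAction.stabilizer (Equiv.Perm GolayPt) (pt 23) : Subgroup _) : Set (Equiv.Perm GolayPt))) := rfl
    rw [this, e, Nat.card_coe_set_eq, Set.ncard_pair c7t_ne.symm]
  rw [h, h1, h2]

theorem C7_nonabelian : toPerm c7r * toPerm c7t ≠ toPerm c7t * toPerm c7r := by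
  have vr := valid_of_inM inM_c7r
  have vt := valid_of_inM inM_c7t
  rw [← toPerm_mulC vr vt, ← toPerm_mulC vt vr]
  intro e
  apply c7_rt
  have := ix_toPerm (valid_mulC vr vt) (pt 0)
  rw [e, ix_toPerm (valid_mulC vt vr), ix_pt (by norm_num)] at this
  exact this.symm

/-- no element inverts `c7` -/
theorem no_inv (g : Equiv.Perm GolayPt) (hg : g ∈ M24) : g * toPerm c7 * g⁻¹ ≠ (toPerm c7)⁻¹ := by
  intro h
  -- normalise to fix the point 23
  have hv := valid_of_inM inM_c7
  have hx : toPerm c7 (g⁻¹ (pt 23)) ≠ g⁻¹ (pt 23) := by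
    intro e
    have h1 := DFunLike.congr_fun h (pt 23)
    rw [Equiv.Perm.mul_apply, Equiv.Perm.mul_apply, e, perm_apply_inv] at h1
    have h2 : toPerm c7 (pt 23) = pt 23 := by
      conv_lhs => rw [h1]
      exact perm_apply_inv _ _
    rw [c7_pt (by norm_num) (show img c7 23 = 0 by decide +kernel)] at h2
    exact pt_ne (i := 0) (j := 23) (by norm_num) (by norm_num) (by norm_num) h2
  have h1 := allLt_iff.mp l7_tr (ix (g⁻¹ (pt 23))) (ix_lt _)
  cases h2 : Nat.beq (img c7 (ix (g⁻¹ (pt 23)))) (ix (g⁻¹ (pt 23))) with
  | true =>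
    apply hx
    rw [toPerm_apply hv, Nat.eq_of_beq_eq_true h2, pt_ix]
  | false =>
    rw [h2, cond_false] at h1
    obtain ⟨c, hc, h3⟩ := List.any_eq_true.mp h1
    obtain ⟨h4, h5⟩ := cond_false_eq.mp (List.all_eq_true.mp l7_ok c hc)
    have hcm := comm_codes h4 inM_c7 (Nat.eq_of_beq_eq_true h5)
    have hc23 : toPerm c (pt 23) = g⁻¹ (pt 23) := by
      rw [toPerm_pt (valid_of_inM h4) (by norm_num), Nat.eq_of_beq_eq_true h3, pt_ix]
    -- k = g * c fixes 23 and inverts
    have hk : g * toPerm c ∈ M24 := M24.mul_mem hg (toPerm_mem_M24 h4)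
    have hk23 : (g * toPerm c) (pt 23) = pt 23 := by rw [Equiv.Perm.mul_apply, hc23, perm_apply_inv]
    have hkinv : toPerm c7 * (g * toPerm c) * toPerm c7 = g * toPerm c := by
      have e1 : g * toPerm c7 = (toPerm c7)⁻¹ * g := by rw [← h]; group
      calc toPerm c7 * (g * toPerm c) * toPerm c7 = toPerm c7 * g * (toPerm c * toPerm c7) := by group
        _ = toPerm c7 * (g * toPerm c7) * toPerm c := by rw [hcm]; group
        _ = g * toPerm c := by rw [e1]; group
    generalize g * toPerm c = k at hk hk23 hkinv
    -- k (s x) = y where s y = k x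
    have step : ∀ {i j a b : ℕ}, i < 24 → img c7 i = j → b < 24 → img c7 b = a → k (pt i) = pt a → k (pt j) = pt b := by
      intro i j a b hi h1 hb h2 h3
      have h4 := DFunLike.congr_fun hkinv (pt i)
      rw [Equiv.Perm.mul_apply, Equiv.Perm.mul_apply, c7_pt hi h1, h3, ← c7_pt hb h2] at h4
      exact (toPerm c7).injective h4
    have k0 := step (by norm_num) (show img c7 23 = 0 by decide +kernel) (b := 14) (by norm_num)
      (show img c7 14 = 23 by decide +kernel) hk23
    have k1 := step (by norm_num) (show img c7 0 = 1 by decide +kernel) (b := 5) (by norm_num)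
      (show img c7 5 = 14 by decide +kernel) k0
    have k2 := step (by norm_num) (show img c7 1 = 2 by decide +kernel) (b := 3) (by norm_num)
      (show img c7 3 = 5 by decide +kernel) k1
    have k3 := step (by norm_num) (show img c7 2 = 3 by decide +kernel) (b := 2) (by norm_num)
      (show img c7 2 = 3 by decide +kernel) k2
    have k5 := step (by norm_num) (show img c7 3 = 5 by decide +kernel) (b := 1) (by norm_num)
      (show img c7 1 = 2 by decide +kernel) k3
    have k14 := step (by norm_num) (show img c7 5 = 14 by decide +kernel) (b := 0) (by norm_num)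
      (show img c7 0 = 1 by decide +kernel) k5
    have hvc := valid_of_inM inM_c7c
    have cp : ∀ {i j : ℕ}, i < 24 → img c7c i = j → toPerm c7c (pt i) = pt j := fun hi h => by
      rw [toPerm_pt hvc hi, h]
    obtain ⟨d, hd, e⟩ := cosetI hk inM_c7c (fun i => by
      fin_cases i
      · exact hk23.trans (cp (by norm_num) (show img c7c 23 = 23 by decide +kernel)).symm
      · exact k0.trans (cp (by norm_num) (show img c7c 0 = 14 by decide +kernel)).symm
      · exact k1.trans (cp (by norm_num) (show img c7c 1 = 5 by decide +kernel)).symm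
      · exact k2.trans (cp (by norm_num) (show img c7c 2 = 3 by decide +kernel)).symm
      · exact k3.trans (cp (by norm_num) (show img c7c 3 = 2 by decide +kernel)).symm
      · exact k5.trans (cp (by norm_num) (show img c7c 5 = 1 by decide +kernel)).symm)
    have hd14 : toPerm d (pt 14) = pt 14 := tr6_fix hd _ (by
      rw [mem_mset, ix_pt (by norm_num)]; decide +kernel)
    rw [e, toPerm_mulC hvc (valid_of_inM (lvl_mem lvl6 hd).1), Equiv.Perm.mul_apply, hd14,
      cp (by norm_num) (show img c7c 14 = 17 by decide +kernel)] at k14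
    exact pt_ne (i := 17) (j := 0) (by norm_num) (by norm_num) (by norm_num) k14

/-- the three octads fixed by `c7` -/
def oct7 : List ℕ := [8536111, 5538256, 2702848]

theorem oct7_ok : allLt 4096 (fun n => cond (tb OC n) (cond (Nat.beq (imgM c7 (enc n)) (enc n))
    (oct7.any fun o => Nat.beq (enc n) o) true) true) = true := by decide +kernel
theorem oct7_fix : (oct7.all fun o => cond (cond (isCode o) (Nat.beq (pc o) 8) false) (Nat.beq (imgM c7 o) o) false) = true := by
  decide +kernel

/-- the invariant trio -/
def trio7 : Finset (Finset GolayPt) := {mset 8536111, mset 5538256, mset 2702848}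

theorem trio7_mem : trio7 ∈ trios := by
  have h1 : mset 8536111 ∈ octads := octad_of_isCode (by decide +kernel)
  have h2 : mset 5538256 ∈ octads := octad_of_isCode (by decide +kernel)
  have hd : Disjoint (mset 8536111) (mset 5538256) := by
    rw [Finset.disjoint_iff_inter_eq_empty, ← mset_and]
    have : (8536111 : ℕ) &&& 5538256 = 0 := by decide +kernel
    rw [this, mset_zero]
  have h3 : mset 2702848 = (mset 8536111 ∪ mset 5538256)ᶜ := by
    ext p
    have : ∀ p : GolayPt, (2702848 : ℕ).testBit (ix p) = true ↔
        ¬ ((8536111 : ℕ).testBit (ix p) = true ∨ (5538256 : ℕ).testBit (ix p) = true) := by decide +kernel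
    rw [Finset.mem_compl, Finset.mem_union, mem_mset, mem_mset, mem_mset]
    exact this p
  unfold trio7
  rw [h3]
  exact trio_mem h1 h2 hd

theorem mem_trio7 {o : Finset GolayPt} : o ∈ trio7 ↔ o ∈ octads ∧ toPerm c7 • o = o := by
  have hv := valid_of_inM inM_c7
  constructor
  · intro ho
    obtain ⟨m, hm, rfl⟩ : ∃ m ∈ oct7, o = mset m := by
      unfold trio7 at ho
      simp only [Finset.mem_insert, Finset.mem_singleton] at ho
      rcases ho with rfl | rfl | rfl
      exacts [⟨_, by decide, rfl⟩, ⟨_, by decide, rfl⟩, ⟨_, by decide, rfl⟩]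
    obtain ⟨h1, h2⟩ := cond_false_eq.mp (List.all_eq_true.mp oct7_fix m hm)
    refine ⟨octad_of_isCode h1, ?_⟩
    rw [toPerm_smul_mset hv, Nat.eq_of_beq_eq_true h2]
  · rintro ⟨ho, h⟩
    obtain ⟨n, hn, h1, rfl⟩ := mem_octads_tb.mp ho
    have h2 := allLt_iff.mp oct7_ok n hn
    rw [h1, cond_true] at h2
    rw [toPerm_smul_mset hv] at h
    have h3 := mset_injOn (imgM_lt hv _) (enc_lt _) h
    rw [h3, Nat.beq_refl, cond_true] at h2
    obtain ⟨m, hm, h4⟩ := List.any_eq_true.mp h2
    rw [Nat.eq_of_beq_eq_true h4]
    unfold trio7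
    simp only [Finset.mem_insert, Finset.mem_singleton]
    have : m = 8536111 ∨ m = 5538256 ∨ m = 2702848 := by
      unfold oct7 at hm
      simpa using hm
    rcases this with rfl | rfl | rfl <;> simp

end Cfsg.Agent.Lib.Golay
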