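import Cfsg.Agent.Lib.GolayOrbit
import Cfsg.Agent.Lib.GolayM12b
import Cfsg.Prelude.Def_SporadicCombinatorics

/-!
Sextets: every 4-set lies in exactly one sextet `sx T`; there are 1771 sextets, one orbit of `M24`;
the stabiliser has order 138240.  Coding of sextets by tetrad masks with key `syn`.
-/

set_option autoImplicit false
set_option linter.constructorNameAsVariable false
set_option linter.unusedVariables false

namespace Cfsg.Agent.Lib.Golay

open Cfsg
open scoped Pointwise

/-- the sextet of a 4-set -/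
noncomputable def sx (T : Finset GolayPt) : Finset (Finset GolayPt) :=
  @Finset.filter _ (fun U => U.card = 4 ∧ symmDiff T U ∈ supports (golayCode : Set (GolayPt → ZMod 2)))
    (Classical.decPred _) Finset.univ

theorem mem_sx {T U : Finset GolayPt} :
    U ∈ sx T ↔ U.card = 4 ∧ symmDiff T U ∈ supports (golayCode : Set (GolayPt → ZMod 2)) := by
  exact (@Finset.mem_filter _ _ (Classical.decPred _) _ _).trans
    ⟨fun h => h.2, fun h => ⟨Finset.mem_univ _, h⟩⟩

theorem empty_mem_supports : (∅ : Finset GolayPt) ∈ supports (golayCode : Set (GolayPt → ZMod 2)) := by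
  rw [← mset_zero, ← enc_zero]; exact mem_supports_iff.mpr ⟨0, by norm_num, rfl⟩

theorem self_mem_sx {T : Finset GolayPt} (hT : T.card = 4) : T ∈ sx T := by
  rw [mem_sx]
  refine ⟨hT, ?_⟩
  rw [symmDiff_self]
  exact empty_mem_supports

theorem sx_eq_of_mem {T U : Finset GolayPt} (h : U ∈ sx T) : sx U = sx T := by
  ext V
  rw [mem_sx] at h
  rw [mem_sx, mem_sx]
  constructor
  · rintro ⟨h1, h2⟩
    refine ⟨h1, ?_⟩
    have := symmDiff_mem_supports h.2 h2
    rwa [show symmDiff (symmDiff T U) (symmDiff U V) = symmDiff T V from by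
      rw [symmDiff_assoc, symmDiff_symmDiff_cancel_left]] at this
  · rintro ⟨h1, h2⟩
    refine ⟨h1, ?_⟩
    have := symmDiff_mem_supports h.2 h2
    rwa [show symmDiff (symmDiff T U) (symmDiff T V) = symmDiff U V from by
      rw [symmDiff_comm T U, symmDiff_assoc, symmDiff_symmDiff_cancel_left]] at this

theorem union_octad {U V : Finset GolayPt} (hU : U.card = 4) (hV : V.card = 4) (hne : U ≠ V)
    (h : symmDiff U V ∈ supports (golayCode : Set (GolayPt → ZMod 2))) :
    Disjoint U V ∧ U ∪ V ∈ octads := by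
  have h1 := card_cases h
  have h2 := card_symmDiff_add U V
  have h3 : (symmDiff U V).card ≠ 0 := by
    rw [Ne, Finset.card_eq_zero]
    intro h4
    exact hne (symmDiff_eq_bot.mp h4)
  have h4 : (U ∩ V).card = 0 := by omega
  have h5 : Disjoint U V := Finset.disjoint_iff_inter_eq_empty.mpr (Finset.card_eq_zero.mp h4)
  refine ⟨h5, ?_⟩
  have h6 : symmDiff U V = U ∪ V := by
    rw [← Finset.sup_eq_union]
    exact h5.symmDiff_eq_sup
  rw [← h6]
  exact ⟨h, by omega⟩

theorem symmDiff_of_union_octad {U V : Finset GolayPt} (hU : U.card = 4) (hV : V.card = 4)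
    (h : U ∪ V ∈ octads) : Disjoint U V ∧ symmDiff U V = U ∪ V := by
  have h1 := Finset.card_union_add_card_inter U V
  rw [h.2, hU, hV] at h1
  have h5 : Disjoint U V := Finset.disjoint_iff_inter_eq_empty.mpr (Finset.card_eq_zero.mp (by omega))
  refine ⟨h5, ?_⟩
  rw [← Finset.sup_eq_union]
  exact h5.symmDiff_eq_sup

theorem smul_sx {g : Equiv.Perm GolayPt} (hg : g ∈ M24) (T : Finset GolayPt) : g • sx T = sx (g • T) := by
  ext V
  rw [Finset.mem_smul_finset]
  constructor
  · rintro ⟨U, hU, rfl⟩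
    rw [mem_sx] at hU ⊢
    rw [card_smul', ← smul_symmDiff', smul_mem_supports_iff hg]
    exact hU
  · intro hV
    rw [mem_sx] at hV
    refine ⟨g⁻¹ • V, ?_, smul_inv_smul _ _⟩
    rw [mem_sx, card_smul', ← smul_mem_supports_iff hg, smul_symmDiff', smul_inv_smul]
    exact hV

theorem card_four_octads {T : Finset GolayPt} (hT : T.card = 4) :
    {o : Finset GolayPt | o ∈ octads ∧ T ⊆ o}.ncard = 5 := by
  have h0 : {o : Finset GolayPt | o ∈ octads ∧ mset 15 ⊆ o}.ncard = 5 := by
    rw [ncard_code_sets (fun n => cond (Nat.beq (pc (enc n)) 8) (Nat.beq (Nat.land (enc n) 15) 15) false)]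
    · decide +kernel
    · intro s
      simp only [cond_false_eq, Nat.beq_eq]
      constructor
      · rintro ⟨ho, hs⟩
        obtain ⟨n, hn, rfl, h8⟩ := mem_octads_iff.mp ho
        refine ⟨n, hn, rfl, h8, ?_⟩
        rw [← Finset.inter_eq_right, ← mset_and] at hs
        exact mset_injOn (Nat.and_lt_two_pow _ (by norm_num)) (by norm_num) hs
      · rintro ⟨n, hn, rfl, h8, h⟩
        refine ⟨mem_octads_iff.mpr ⟨n, hn, rfl, h8⟩, ?_⟩
        rw [← Finset.inter_eq_right, ← mset_and]
        exact congrArg mset h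
  obtain ⟨g, hg, rfl⟩ := exists_smul_eq_of_card (s := mset 15) (t := T)
    (by rw [card_mset]; decide +kernel) (by rw [card_mset, hT]; decide +kernel)
  rw [← h0]
  have : {o : Finset GolayPt | o ∈ octads ∧ g • mset 15 ⊆ o} =
      (fun s => g • s) '' {o : Finset GolayPt | o ∈ octads ∧ mset 15 ⊆ o} := by
    ext o
    constructor
    · rintro ⟨ho, h⟩
      refine ⟨g⁻¹ • o, ⟨(smul_mem_octads (M24.inv_mem hg)).mpr ho, ?_⟩, smul_inv_smul _ _⟩
      rwa [Finset.subset_smul_finset_iff, inv_inv] 
    · rintro ⟨s, ⟨hs, h⟩, rfl⟩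
      exact ⟨(smul_mem_octads hg).mpr hs, Finset.smul_finset_subset_smul_finset h⟩
  rw [this, Set.ncard_image_of_injective _ (MulAction.injective g)]

theorem card_sx {T : Finset GolayPt} (hT : T.card = 4) : (sx T).card = 6 := by
  classical
  have h1 : (sx T).erase T = ((wordsF 8).filter (fun o => T ⊆ o)).image (fun o => o \ T) := by
    ext U
    rw [Finset.mem_erase, mem_sx, Finset.mem_image]
    constructor
    · rintro ⟨hne, hU, h⟩
      obtain ⟨hd, ho⟩ := union_octad hT hU (Ne.symm hne) h
      refine ⟨T ∪ U, Finset.mem_filter.mpr ⟨mem_wordsF_eight.mpr ho, Finset.subset_union_left⟩, ?_⟩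
      rw [Finset.union_sdiff_left]
      exact Finset.sdiff_eq_self_of_disjoint hd.symm
    · rintro ⟨o, ho, rfl⟩
      rw [Finset.mem_filter, mem_wordsF_eight] at ho
      have hc : (o \ T).card = 4 := by
        rw [Finset.card_sdiff_of_subset ho.2, ho.1.2, hT]
      refine ⟨?_, hc, ?_⟩
      · intro he
        have : T = ∅ := by
          have hd : Disjoint (o \ T) T := Finset.sdiff_disjoint
          rw [he] at hd
          exact disjoint_self.mp hd
        rw [this] at hT
        simp at hT
      · have : symmDiff T (o \ T) = o := by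
          ext x
          simp only [Finset.mem_symmDiff, Finset.mem_sdiff]
          have := @ho.2 x
          tauto
        rw [this]; exact ho.1.1
  have h2 : ((sx T).erase T).card = 5 := by
    rw [h1, Finset.card_image_of_injOn]
    · rw [← card_four_octads hT, ← Set.ncard_coe_finset]
      congr 1
      ext o
      rw [Finset.mem_coe, Finset.mem_filter, mem_wordsF_eight]
      rfl
    · intro a ha b hb hab
      rw [Finset.mem_coe, Finset.mem_filter] at ha hb
      have h3 : a = (a \ T) ∪ T := (Finset.sdiff_union_of_subset ha.2).symm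
      have h4 : b = (b \ T) ∪ T := (Finset.sdiff_union_of_subset hb.2).symm
      rw [h3, h4]
      show (a \ T) ∪ T = (b \ T) ∪ T
      rw [show a \ T = b \ T from hab]
  rw [Finset.card_erase_of_mem (self_mem_sx hT)] at h2
  omega

theorem sx_mem_sextets {T : Finset GolayPt} (hT : T.card = 4) : sx T ∈ sextets := by
  refine ⟨card_sx hT, fun t ht => (mem_sx.mp ht).1, ?_⟩
  intro t ht u hu hne
  have h1 : u ∈ sx t := by rw [sx_eq_of_mem ht]; exact hu
  exact (union_octad (mem_sx.mp ht).1 (mem_sx.mp hu).1 hne (mem_sx.mp h1).2).2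

theorem eq_sx_of_mem {S : Finset (Finset GolayPt)} (hS : S ∈ sextets) {T : Finset GolayPt} (hT : T ∈ S) :
    S = sx T := by
  obtain ⟨h6, h4, hu⟩ := hS
  apply Finset.eq_of_subset_of_card_le
  · intro U hU
    by_cases hne : T = U
    · rw [← hne]; exact self_mem_sx (h4 T hT)
    · rw [mem_sx]
      refine ⟨h4 U hU, ?_⟩
      have h := hu T hT U hU hne
      rw [(symmDiff_of_union_octad (h4 T hT) (h4 U hU) h).2]
      exact h.1
  · rw [card_sx (h4 T hT), h6]

theorem mem_sextets_iff {S : Finset (Finset GolayPt)} : S ∈ sextets ↔ ∃ T : Finset GolayPt, T.card = 4 ∧ S = sx T := by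
  constructor
  · intro hS
    obtain ⟨T, hT⟩ : S.Nonempty := by rw [← Finset.card_pos, hS.1]; norm_num
    exact ⟨T, hS.2.1 T hT, eq_sx_of_mem hS hT⟩
  · rintro ⟨T, hT, rfl⟩; exact sx_mem_sextets hT

theorem existsUnique_sextet {t : Finset GolayPt} (ht : t.card = 4) :
    ∃! S : Finset (Finset GolayPt), S ∈ sextets ∧ t ∈ S :=
  ⟨sx t, ⟨sx_mem_sextets ht, self_mem_sx ht⟩, fun S hS => eq_sx_of_mem hS.1 hS.2⟩

theorem card_image_of_fibers {α β : Type*} [DecidableEq α] [DecidableEq β] {s : Finset α} {f : α → β} {k : ℕ}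
    (h : ∀ b ∈ s.image f, (s.filter fun a => f a = b).card = k) : s.card = (s.image f).card * k := by
  have h2 := Finset.card_eq_sum_card_image f s
  rw [Finset.sum_congr rfl h, Finset.sum_const, smul_eq_mul] at h2
  exact h2

theorem card_powersetCard_four : ((Finset.univ : Finset GolayPt).powersetCard 4).card = 10626 := by
  rw [Finset.card_powersetCard, Finset.card_univ, card_pt]
  norm_num [Nat.choose]

theorem card_image_sx : (Finset.image sx ((Finset.univ : Finset GolayPt).powersetCard 4)).card * 6 = 10626 := by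
  rw [← card_powersetCard_four]
  refine (card_image_of_fibers ?_).symm
  intro S hS
  rw [Finset.mem_image] at hS
  obtain ⟨T, hT, rfl⟩ := hS
  have hT4 := (Finset.mem_powersetCard.mp hT).2
  rw [← card_sx hT4]
  congr 1
  ext U
  rw [Finset.mem_filter, Finset.mem_powersetCard]
  constructor
  · rintro ⟨⟨_, hU⟩, h⟩
    rw [← h]; exact self_mem_sx hU
  · intro hU
    exact ⟨⟨Finset.subset_univ _, (mem_sx.mp hU).1⟩, sx_eq_of_mem hU⟩

theorem ncard_sextets : sextets.ncard = 1771 := by
  have h1 : sextets = (((Finset.univ : Finset GolayPt).powersetCard 4).image sx : Set (Finset (Finset GolayPt))) := by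
    ext S
    rw [mem_sextets_iff, Finset.mem_coe, Finset.mem_image]
    constructor
    · rintro ⟨T, hT, rfl⟩; exact ⟨T, Finset.mem_powersetCard.mpr ⟨Finset.subset_univ _, hT⟩, rfl⟩
    · rintro ⟨T, hT, rfl⟩; exact ⟨T, (Finset.mem_powersetCard.mp hT).2, rfl⟩
  rw [h1, Set.ncard_coe_finset]
  have h2 := card_image_sx
  generalize (Finset.image sx (Finset.powersetCard 4 (Finset.univ : Finset GolayPt))).card = n at h2 ⊢
  omega

theorem smul_mem_sextets {g : Equiv.Perm GolayPt} (hg : g ∈ M24) {S : Finset (Finset GolayPt)} :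
    g • S ∈ sextets ↔ S ∈ sextets := by
  have key : ∀ {g : Equiv.Perm GolayPt}, g ∈ M24 → ∀ {S : Finset (Finset GolayPt)}, S ∈ sextets → g • S ∈ sextets := by
    intro g hg S hS
    obtain ⟨T, hT, rfl⟩ := mem_sextets_iff.mp hS
    rw [smul_sx hg]
    exact sx_mem_sextets (by rw [card_smul', hT])
  refine ⟨fun h => ?_, key hg⟩
  have := key (M24.inv_mem hg) h
  rwa [inv_smul_smul] at this

theorem sextet_transitive {S S' : Finset (Finset GolayPt)} (hS : S ∈ sextets) (hS' : S' ∈ sextets) :
    ∃ g ∈ M24, g • S = S' := by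
  obtain ⟨T, hT, rfl⟩ := mem_sextets_iff.mp hS
  obtain ⟨T', hT', rfl⟩ := mem_sextets_iff.mp hS'
  obtain ⟨g, hg, h⟩ := exists_smul_eq_of_card (s := T) (t := T') (by omega) (by omega)
  exact ⟨g, hg, by rw [smul_sx hg, h]⟩

theorem card_stab_sextet {S : Finset (Finset GolayPt)} (hS : S ∈ sextets) :
    Nat.card (MulAction.stabilizer M24 S) = 138240 := by
  have h := card_eq_mul_inf_stabilizer (⊤ : Subgroup M24) S sextets
    (fun g _ => (smul_mem_sextets g.2).mpr hS)
    (fun x hx => by
      obtain ⟨g, hg, h⟩ := sextet_transitive hS hx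
      exact ⟨⟨g, hg⟩, Subgroup.mem_top _, h⟩)
  rw [Subgroup.card_top, natCard_M24, ncard_sextets, top_inf_eq] at h
  omega

theorem card_stab_octad {o : Finset GolayPt} (ho : o ∈ octads) :
    Nat.card (MulAction.stabilizer M24 o) = 322560 := by
  have h := card_eq_mul_inf_stabilizer (⊤ : Subgroup M24) o octads
    (fun g _ => (smul_mem_octads g.2).mpr ho)
    (fun x hx => by
      obtain ⟨g, hg, h⟩ := octad_transitive ho hx
      exact ⟨⟨g, hg⟩, Subgroup.mem_top _, h⟩)
  rw [Subgroup.card_top, natCard_M24, ncard_octads, top_inf_eq] at h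
  omega

/-! ### Keys -/

/-- syndrome (in the high 12 bits) -/
def syn (y : ℕ) : ℕ := Nat.xor y (enc (Nat.land y 4095))

theorem syn_eq (y : ℕ) : syn y = y ^^^ enc (y &&& 4095) := rfl

theorem syn_xor (y z : ℕ) : syn (y ^^^ z) = syn y ^^^ syn z := by
  simp only [syn_eq, Nat.and_xor_distrib_right, enc_xor]
  ac_rfl

theorem syn_eq_zero_iff {y : ℕ} : syn y = 0 ↔ isCode y = true := by
  unfold syn isCode
  constructor
  · intro h
    have : y ^^^ enc (Nat.land y 4095) = 0 := h
    rw [Nat.xor_eq_zero_iff] at this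
    rw [← this]; exact Nat.beq_refl _
  · intro h
    show y ^^^ enc (Nat.land y 4095) = 0
    rw [Nat.xor_eq_zero_iff]
    exact (Nat.eq_of_beq_eq_true h).symm

theorem sx_eq_iff_syn {y z : ℕ} (hy : y < 2 ^ 24) (hz : z < 2 ^ 24) (hy4 : pc y = 4) (hz4 : pc z = 4) :
    sx (mset y) = sx (mset z) ↔ syn y = syn z := by
  have h1 : sx (mset y) = sx (mset z) ↔ symmDiff (mset y) (mset z) ∈ supports (golayCode : Set (GolayPt → ZMod 2)) := by
    constructor
    · intro h
      have h2 : mset z ∈ sx (mset y) := by rw [h]; exact self_mem_sx (by rw [card_mset, hz4])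
      exact (mem_sx.mp h2).2
    · intro h
      exact (sx_eq_of_mem (mem_sx.mpr ⟨by rw [card_mset, hz4], h⟩)).symm
  rw [h1, ← mset_xor, mset_mem_supports_iff (Nat.xor_lt_two_pow hy hz), ← syn_eq_zero_iff, syn_xor,
    Nat.xor_eq_zero_iff]

end Cfsg.Agent.Lib.Golay
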