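import Cfsg.Agent.Lib.GolaySextet
import Cfsg.Agent.Lib.GolaySextetOrb
import Cfsg.Agent.Lib.GolayOctadA8
import Cfsg.Agent.Lib.GolayChain

/-!
The stabiliser of a sextet: it induces the symmetric group on the six tetrads, with kernel of order 192 and a normal
elementary abelian subgroup of order 64 (`S1551`).
-/

set_option autoImplicit false
set_option linter.constructorNameAsVariable false
set_option linter.unusedVariables false
set_option linter.style.longLine false

namespace Cfsg.Agent.Lib.Golay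

open Cfsg Cfsg.Agent.Lib.GolayCoset
open scoped Pointwise

/-- `g` acts on `t` as an element of the Klein four-group -/
def KleinOn (g : Equiv.Perm GolayPt) (t : Finset GolayPt) : Prop :=
  (∀ x ∈ t, g x = x) ∨ (g • t = t ∧ ∀ x ∈ t, g x ≠ x ∧ g (g x) = x)

theorem smul_eq_of_fix {g : Equiv.Perm GolayPt} {t : Finset GolayPt} (h : ∀ x ∈ t, g x = x) : g • t = t := by
  apply smul_eq_of_mem_iff
  intro x
  constructor
  · intro hx
    by_contra hxt
    have h1 := h _ hx
    exact hxt (by rwa [← g.injective h1])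
  · intro hx; rw [h x hx]; exact hx

theorem KleinOn.smul_eq {g : Equiv.Perm GolayPt} {t : Finset GolayPt} (h : KleinOn g t) : g • t = t := by
  rcases h with h | h
  · exact smul_eq_of_fix h
  · exact h.1

theorem KleinOn.sq {g : Equiv.Perm GolayPt} {t : Finset GolayPt} (h : KleinOn g t) : ∀ x ∈ t, g (g x) = x := by
  intro x hx
  rcases h with h | h
  · rw [h x hx, h x hx]
  · exact (h.2 x hx).2

theorem KleinOn.fix {g : Equiv.Perm GolayPt} {t : Finset GolayPt} (h : KleinOn g t) {x : GolayPt} (hx : x ∈ t)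
    (hgx : g x = x) : ∀ y ∈ t, g y = y := by
  rcases h with h | h
  · exact h
  · exact absurd hgx (h.2 x hx).1

theorem klein_fin4 : ∀ a b : Equiv.Perm (Fin 4), (∀ x, a x ≠ x ∧ a (a x) = x) → (∀ x, b x ≠ x ∧ b (b x) = x) →
    (∀ x, a (b x) = x) ∨ (∀ x, a (b x) ≠ x ∧ a (b (a (b x))) = x) := by decide +kernel

theorem klein_type {α : Type*} [Fintype α] (h4 : Fintype.card α = 4) (a b : Equiv.Perm α)
    (ha : ∀ x, a x ≠ x ∧ a (a x) = x) (hb : ∀ x, b x ≠ x ∧ b (b x) = x) :
    (∀ x, a (b x) = x) ∨ (∀ x, a (b x) ≠ x ∧ a (b (a (b x))) = x) := by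
  have e := Fintype.equivFinOfCardEq h4
  have key : ∀ c : Equiv.Perm α, (∀ x, c x ≠ x ∧ c (c x) = x) → ∀ x, (e.permCongr c) x ≠ x ∧
      (e.permCongr c) ((e.permCongr c) x) = x := by
    intro c hc x
    rw [Equiv.permCongr_apply, Equiv.permCongr_apply, Equiv.symm_apply_apply, (hc (e.symm x)).2,
      Equiv.apply_symm_apply]
    refine ⟨fun h => (hc (e.symm x)).1 ?_, rfl⟩
    rw [← e.symm_apply_apply (c (e.symm x)), h]
  rcases klein_fin4 _ _ (key a ha) (key b hb) with h | h
  · left; intro x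
    have := h (e x)
    rw [Equiv.permCongr_apply, Equiv.permCongr_apply, Equiv.symm_apply_apply, Equiv.symm_apply_apply] at this
    exact e.injective this
  · right; intro x
    have := h (e x)
    rw [Equiv.permCongr_apply, Equiv.permCongr_apply, Equiv.symm_apply_apply, Equiv.symm_apply_apply,
      Equiv.permCongr_apply, Equiv.permCongr_apply, Equiv.symm_apply_apply, Equiv.symm_apply_apply] at this
    exact ⟨fun h => this.1 (congrArg e h), e.injective this.2⟩

theorem KleinOn.mul {a b : Equiv.Perm GolayPt} {t : Finset GolayPt} (h4 : t.card = 4) (ha : KleinOn a t)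
    (hb : KleinOn b t) : KleinOn (a * b) t := by
  have ha1 := ha.smul_eq
  have hb1 := hb.smul_eq
  rcases ha with ha | ha
  · rcases hb with hb | hb
    · left; intro x hx
      rw [Equiv.Perm.mul_apply, hb x hx, ha x hx]
    · right
      refine ⟨by rw [mul_smul, hb1, ha1], fun x hx => ?_⟩
      have hbx : b x ∈ t := (mem_iff_of_smul_eq hb1 x).mpr hx
      rw [Equiv.Perm.mul_apply, Equiv.Perm.mul_apply, ha _ hbx, (hb.2 x hx).2, ha x hx]
      exact ⟨(hb.2 x hx).1, rfl⟩
  · rcases hb with hb | hb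
    · right
      refine ⟨by rw [mul_smul, hb1, ha1], fun x hx => ?_⟩
      have hax : a x ∈ t := (mem_iff_of_smul_eq ha1 x).mpr hx
      rw [Equiv.Perm.mul_apply, Equiv.Perm.mul_apply, hb x hx, hb _ hax, (ha.2 x hx).2]
      exact ⟨(ha.2 x hx).1, rfl⟩
    · rcases klein_type (α := ↥t) (by rw [Fintype.card_coe, h4])
        (a.subtypePerm (fun x => mem_iff_of_smul_eq ha1 x)) (b.subtypePerm (fun x => mem_iff_of_smul_eq hb1 x))
        (fun x => ⟨fun h => (ha.2 x.1 x.2).1 (congrArg Subtype.val h), Subtype.ext (ha.2 x.1 x.2).2⟩)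
        (fun x => ⟨fun h => (hb.2 x.1 x.2).1 (congrArg Subtype.val h), Subtype.ext (hb.2 x.1 x.2).2⟩) with h | h
      · left; intro x hx
        exact congrArg Subtype.val (h ⟨x, hx⟩)
      · right
        refine ⟨by rw [mul_smul, hb1, ha1], fun x hx => ?_⟩
        exact ⟨fun h' => (h ⟨x, hx⟩).1 (Subtype.ext h'), congrArg Subtype.val (h ⟨x, hx⟩).2⟩

theorem KleinOn.one (t : Finset GolayPt) : KleinOn 1 t := Or.inl fun _ _ => rfl

theorem KleinOn.inv {a : Equiv.Perm GolayPt} {t : Finset GolayPt} (ha : KleinOn a t) : KleinOn a⁻¹ t := by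
  have h1 : ∀ x ∈ t, a⁻¹ x = a x := by
    intro x hx
    have := ha.sq x hx
    conv_lhs => rw [← this]
    exact perm_inv_apply _ _
  have h2 := ha.smul_eq
  rcases ha with ha | ha
  · left; intro x hx; rw [h1 x hx, ha x hx]
  · right
    refine ⟨by conv_lhs => rw [← h2]
               exact inv_smul_smul _ _, fun x hx => ?_⟩
    have hax : a x ∈ t := (mem_iff_of_smul_eq h2 x).mpr hx
    rw [h1 x hx, h1 _ hax]
    exact ha.2 x hx

theorem KleinOn.conj {g : Equiv.Perm GolayPt} {t : Finset GolayPt} (h : KleinOn g t) (k : Equiv.Perm GolayPt) :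
    KleinOn (k * g * k⁻¹) (k • t) := by
  have hk : ∀ x ∈ k • t, ∃ y ∈ t, k y = x := fun x hx => (mem_smul_iff k t x).mp hx
  have hkg : ∀ y, (k * g * k⁻¹) (k y) = k (g y) := by
    intro y; rw [Equiv.Perm.mul_apply, perm_inv_apply, Equiv.Perm.mul_apply]
  rcases h with h | h
  · left
    intro x hx
    obtain ⟨y, hy, rfl⟩ := hk x hx
    rw [hkg, h y hy]
  · right
    refine ⟨by rw [mul_smul, mul_smul, inv_smul_smul, h.1], ?_⟩
    intro x hx
    obtain ⟨y, hy, rfl⟩ := hk x hx
    rw [hkg, hkg, (h.2 y hy).2]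
    exact ⟨fun h' => (h.2 y hy).1 (k.injective h'), rfl⟩

theorem tetrads_cover {S : Finset (Finset GolayPt)} (hS : S ∈ sextets) (p : GolayPt) : ∃ t ∈ S, p ∈ t := by
  obtain ⟨t, ht⟩ : ∃ t, t ∈ S := by
    apply Finset.card_pos.mp
    rw [hS.1]; norm_num
  obtain ⟨u, hu, hn⟩ := exists_tetrad_through (hS.2.1 t ht) p
  rw [← sextet_eq hS ht] at hu
  exact ⟨u, hu, hn⟩

/-- the normal 2-subgroup -/
def NP (S : Finset (Finset GolayPt)) (hS : S ∈ sextets) : Subgroup (Equiv.Perm GolayPt) where
  carrier := {g | g ∈ M24 ∧ ∀ t ∈ S, KleinOn g t}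
  one_mem' := ⟨M24.one_mem, fun t _ => KleinOn.one t⟩
  mul_mem' := fun ha hb => ⟨M24.mul_mem ha.1 hb.1, fun t ht => (ha.2 t ht).mul (hS.2.1 t ht) (hb.2 t ht)⟩
  inv_mem' := fun ha => ⟨M24.inv_mem ha.1, fun t ht => (ha.2 t ht).inv⟩

theorem mem_NP {S : Finset (Finset GolayPt)} {hS : S ∈ sextets} {g : Equiv.Perm GolayPt} :
    g ∈ NP S hS ↔ g ∈ M24 ∧ ∀ t ∈ S, KleinOn g t := Iff.rfl

theorem NP_sq {S : Finset (Finset GolayPt)} {hS : S ∈ sextets} {g : Equiv.Perm GolayPt} (hg : g ∈ NP S hS) :
    g * g = 1 := by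
  apply Equiv.ext
  intro p
  obtain ⟨t, ht, hp⟩ := tetrads_cover hS p
  exact (hg.2 t ht).sq p hp

theorem NP_conj {S : Finset (Finset GolayPt)} {hS : S ∈ sextets} {g k : Equiv.Perm GolayPt} (hk : k ∈ M24)
    (hg : g ∈ NP S hS) {S' : Finset (Finset GolayPt)} {hS' : S' ∈ sextets} (h : k • S = S') :
    k * g * k⁻¹ ∈ NP S' hS' := by
  refine ⟨M24.mul_mem (M24.mul_mem hk hg.1) (M24.inv_mem hk), fun t ht => ?_⟩
  rw [← h, Finset.mem_smul_finset] at ht
  obtain ⟨u, hu, rfl⟩ := ht
  exact (hg.2 u hu).conj k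

theorem card_NP_conj {S S' : Finset (Finset GolayPt)} (hS : S ∈ sextets) (hS' : S' ∈ sextets) {k : Equiv.Perm GolayPt}
    (hk : k ∈ M24) (h : k • S = S') : Nat.card (NP S hS) = Nat.card (NP S' hS') := by
  apply Nat.card_congr
  exact
    { toFun := fun g => ⟨k * g.1 * k⁻¹, NP_conj hk g.2 h⟩
      invFun := fun g => ⟨k⁻¹ * g.1 * k, by
        have := NP_conj (k := k⁻¹) (M24.inv_mem hk) g.2 (S' := S) (hS' := hS) (by rw [← h, inv_smul_smul])
        rwa [inv_inv] at this⟩
      left_inv := fun g => by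
        apply Subtype.ext
        show k⁻¹ * (k * g.1 * k⁻¹) * k = g.1
        group
      right_inv := fun g => by
        apply Subtype.ext
        show k * (k⁻¹ * g.1 * k) * k⁻¹ = g.1
        group }

/-! ### computation for the standard sextet -/

def kleinChk (c t : ℕ) : Bool :=
  cond (allLt 24 fun i => cond (tb t i) (Nat.beq (img c i) i) true) true
    (cond (Nat.beq (imgM c t) t)
      (allLt 24 fun i => cond (tb t i) (cond (Nat.beq (img c i) i) false (Nat.beq (img c (img c i)) i)) true) false)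

theorem kleinChk_spec {c t : ℕ} (hv : valid c = true) (h : kleinChk c t = true) : KleinOn (toPerm c) (mset t) := by
  unfold kleinChk at h
  cases h1 : (allLt 24 fun i => cond (tb t i) (Nat.beq (img c i) i) true) with
  | true =>
    left
    intro x hx
    have h2 := allLt_iff.mp h1 (ix x) (ix_lt x)
    rw [(tb_iff t (ix x)).mpr (mem_mset.mp hx), cond_true] at h2
    rw [toPerm_apply hv, Nat.eq_of_beq_eq_true h2, pt_ix]
  | false =>
    rw [h1, cond_false, cond_false_eq] at h
    obtain ⟨h2, h3⟩ := h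
    right
    refine ⟨by rw [toPerm_smul_mset hv, Nat.eq_of_beq_eq_true h2], ?_⟩
    intro x hx
    have h4 := allLt_iff.mp h3 (ix x) (ix_lt x)
    rw [(tb_iff t (ix x)).mpr (mem_mset.mp hx), cond_true] at h4
    cases h5 : Nat.beq (img c (ix x)) (ix x) with
    | true => rw [h5, cond_true] at h4; exact absurd h4 (by decide)
    | false =>
      rw [h5, cond_false] at h4
      have h6 : ix (toPerm c x) = img c (ix x) := ix_toPerm hv x
      constructor
      · intro h7
        rw [← h6, h7, Nat.beq_refl] at h5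
        exact absurd h5 (by decide)
      · rw [toPerm_apply hv (toPerm c x), h6, Nat.eq_of_beq_eq_true h4, pt_ix]

def nx1 : List ℕ := [984202951082164080105044112956360736, 100734696945008953747646909761674241, 63098155598130777866857538834072290, 5447382388983081592886053788877911]
def nx2 : List ℕ := [984202951082164080105044112956360736, 976934804572108675034832543981668384, 972512676110088067912772961567868960, 961438956620049001677386430328277024]
def nx3 : List ℕ := [984818244535754528103549039458486304, 984724508489452699215480746259449888, 984235865005994746954145143334668320, 984202951082164080105044112956360736]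

theorem nx_lv1 : lvlOK nx1 [] 0 8388615 = true := by decide +kernel
theorem nx_lv2 : lvlOK nx2 [0] 4 4268048 = true := by decide +kernel
theorem nx_lv3 : lvlOK nx3 [0, 4] 6 2621632 = true := by decide +kernel
theorem nx_klein : ((nx1 ++ nx2 ++ nx3).all fun c => pK1.all fun t => kleinChk c t) = true := by decide +kernel

theorem nx_mem {c : ℕ} (hc : c ∈ nx1 ++ nx2 ++ nx3) (hin : inM c = true) : toPerm c ∈ NP (famL pK1) famL_pK1_mem := by
  refine ⟨toPerm_mem_M24 hin, fun t ht => ?_⟩
  obtain ⟨a, ha, rfl⟩ := mem_famL.mp ht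
  exact kleinChk_spec (valid_of_inM hin) (List.all_eq_true.mp (List.all_eq_true.mp nx_klein c hc) a ha)

theorem pK1_mem (a : ℕ) (h : a ∈ pK1) : mset a ∈ famL pK1 := mem_famL.mpr ⟨a, h, rfl⟩

theorem card_NP0 : Nat.card (NP (famL pK1) famL_pK1_mem) = 64 := by
  have hfix : ∀ {g : Equiv.Perm GolayPt} {a : ℕ}, g ∈ NP (famL pK1) famL_pK1_mem → a ∈ pK1 →
      ∀ x ∈ mset a, g x ∈ mset a := by
    intro g a hg ha x hx
    exact (mem_iff_of_smul_eq (hg.2 _ (pK1_mem a ha)).smul_eq x).mpr hx
  have m0 : pt 0 ∈ mset 8388615 := by decide +kernel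
  have m4 : pt 4 ∈ mset 4268048 := by decide +kernel
  have m6 : pt 6 ∈ mset 2621632 := by decide +kernel
  have i1 : 8388615 ∈ pK1 := by decide
  have i2 : 4268048 ∈ pK1 := by decide
  have i3 : 2621632 ∈ pK1 := by decide
  rw [card_level (K := NP (famL pK1) famL_pK1_mem) nx_lv1 (by simp) (by norm_num)
      (fun c hc => nx_mem (by simp only [List.mem_append]; tauto) (lvl_mem nx_lv1 hc).1)
      (L := NP (famL pK1) famL_pK1_mem) (fun g hg _ => hg)
      (fun g hg => hfix hg i1 _ m0),
    card_level (K := NP (famL pK1) famL_pK1_mem) (L := NP (famL pK1) famL_pK1_mem ⊓ St 0) nx_lv2 (by decide) (by norm_num)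
      (fun c hc => nx_mem (by simp only [List.mem_append]; tauto) (lvl_mem nx_lv2 hc).1)
      (fun g hg h => ⟨hg, h 0 (by decide)⟩)
      (fun g hg => hfix hg.1 i2 _ m4),
    card_level (K := NP (famL pK1) famL_pK1_mem) (L := NP (famL pK1) famL_pK1_mem ⊓ St 0 ⊓ St 4) nx_lv3 (by decide) (by norm_num)
      (fun c hc => nx_mem (by simp only [List.mem_append]; tauto) (lvl_mem nx_lv3 hc).1)
      (fun g hg h => ⟨⟨hg, h 0 (by decide)⟩, h 4 (by decide)⟩)
      (fun g hg => hfix hg.1.1 i3 _ m6)]
  have hbot : NP (famL pK1) famL_pK1_mem ⊓ St 0 ⊓ St 4 ⊓ St 6 = ⊥ := by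
    rw [eq_bot_iff]
    intro g hg
    rw [Subgroup.mem_bot]
    have h0 : g (pt 0) = pt 0 := hg.1.1.2
    have h4 : g (pt 4) = pt 4 := hg.1.2
    have h6 : g (pt 6) = pt 6 := hg.2
    have hN := hg.1.1.1
    have ho : mset 12656663 ∈ octads := by
      refine ⟨(mset_mem_supports_iff (by norm_num)).mpr (by decide +kernel), ?_⟩
      rw [card_mset]; decide +kernel
    apply OctPt_fix_eq_one (o := mset 12656663) ho (p := pt 6) (by decide +kernel) _ h6
    rw [mem_OctPt]
    refine ⟨hN.1, fun p hp => ?_⟩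
    have hcov : ∀ p ∈ mset 12656663, p ∈ mset 8388615 ∨ p ∈ mset 4268048 := by decide +kernel
    rcases hcov p hp with h | h
    · exact (hN.2 _ (pK1_mem _ i1)).fix m0 h0 p h
    · exact (hN.2 _ (pK1_mem _ i2)).fix m4 h4 p h
  rw [hbot, Subgroup.card_bot]
  decide +kernel

theorem card_NP {S : Finset (Finset GolayPt)} (hS : S ∈ sextets) : Nat.card (NP S hS) = 64 := by
  obtain ⟨k, hk, h⟩ := sextet_transitive famL_pK1_mem hS
  rw [← card_NP_conj famL_pK1_mem hS hk h, card_NP0]

/-! ### swaps -/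

def swL : List (ℕ × ℕ × ℕ) := [(89051442511424401828487398414353121, 0, 1), (976401829527490742266104635552401409, 0, 2), (70798420460482231808776190147854423, 0, 3), (101506696123055204448204052598522903, 0, 4), (228758467070986392801249166517880259, 0, 5), (29352039325869664845734877654878263, 1, 2), (58871698646719126484539526334677079, 1, 3), (93771498868807599468360915337282583, 1, 4), (504524426941334734596110062469620082, 1, 5), (960988988058082801649758968544264226, 2, 3), (13240901647463870215732118140017729, 2, 4), (420861514734425419482221838463346319, 2, 5), (9633521321339889481096044332124215, 3, 4), (810018249552899363411973469830813941, 3, 5), (168329080717612128045309280512033485, 4, 5)]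

def swChk (x : ℕ × ℕ × ℕ) : Bool :=
  cond (inM x.1) (cond (Nat.beq (imgM x.1 (pK1.getD x.2.1 0)) (pK1.getD x.2.2 0))
    (cond (Nat.beq (imgM x.1 (pK1.getD x.2.2 0)) (pK1.getD x.2.1 0))
      (allLt 6 fun k => cond (Nat.beq k x.2.1) true (cond (Nat.beq k x.2.2) true
        (Nat.beq (imgM x.1 (pK1.getD k 0)) (pK1.getD k 0)))) false) false) false

theorem swL_ok : swL.all swChk = true := by decide +kernel

theorem swL_all' : ∀ i j : Fin 6, i < j → (swL.any fun x => cond (Nat.beq x.2.1 i) (Nat.beq x.2.2 j) false) = true := by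
  decide +kernel

theorem swL_all (i : ℕ) (hi : i < 6) (j : ℕ) (hj : j < 6) (hij : i < j) : ∃ c, (c, i, j) ∈ swL := by
  obtain ⟨x, hx, h⟩ := List.any_eq_true.mp (swL_all' ⟨i, hi⟩ ⟨j, hj⟩ hij)
  obtain ⟨h1, h2⟩ := cond_false_eq.mp h
  refine ⟨x.1, ?_⟩
  have e1 : x.2.1 = i := Nat.eq_of_beq_eq_true h1
  have e2 : x.2.2 = j := Nat.eq_of_beq_eq_true h2
  rw [← e1, ← e2]
  exact hx

/-- every transposition of tetrads is induced -/
def HasSwaps (S : Finset (Finset GolayPt)) : Prop :=
  ∀ x ∈ S, ∀ y ∈ S, x ≠ y → ∃ g ∈ M24, g • x = y ∧ g • y = x ∧ ∀ z ∈ S, z ≠ x → z ≠ y → g • z = z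

theorem hasSwaps0 : HasSwaps (famL pK1) := by
  have key : ∀ i < 6, ∀ j < 6, i < j → ∃ g ∈ M24, g • mset (pK1.getD i 0) = mset (pK1.getD j 0) ∧
      g • mset (pK1.getD j 0) = mset (pK1.getD i 0) ∧
      ∀ k < 6, k ≠ i → k ≠ j → g • mset (pK1.getD k 0) = mset (pK1.getD k 0) := by
    intro i hi j hj hij
    obtain ⟨c, hc⟩ := swL_all i hi j hj hij
    have h := List.all_eq_true.mp swL_ok _ hc
    unfold swChk at h
    simp only [cond_false_eq] at h
    obtain ⟨h1, h2, h3, h4⟩ := h
    have hv := valid_of_inM h1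
    refine ⟨toPerm c, toPerm_mem_M24 h1, ?_, ?_, ?_⟩
    · rw [toPerm_smul_mset hv, Nat.eq_of_beq_eq_true h2]
    · rw [toPerm_smul_mset hv, Nat.eq_of_beq_eq_true h3]
    · intro k hk hki hkj
      have h5 := allLt_iff.mp h4 k hk
      have e1 : Nat.beq k i = false := by rw [← Bool.not_eq_true, Nat.beq_eq]; exact hki
      have e2 : Nat.beq k j = false := by rw [← Bool.not_eq_true, Nat.beq_eq]; exact hkj
      rw [e1, e2, cond_false, cond_false] at h5
      rw [toPerm_smul_mset hv, Nat.eq_of_beq_eq_true h5]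
  have hidx : ∀ z ∈ famL pK1, ∃ k < 6, z = mset (pK1.getD k 0) := by
    intro z hz
    obtain ⟨a, ha, rfl⟩ := mem_famL.mp hz
    obtain ⟨k, hk, hka⟩ := List.getElem_of_mem ha
    exact ⟨k, hk, by rw [List.getD_eq_getElem _ _ hk, hka]⟩
  intro x hx y hy hxy
  obtain ⟨i, hi, rfl⟩ := hidx x hx
  obtain ⟨j, hj, rfl⟩ := hidx y hy
  have hne : i ≠ j := by rintro rfl; exact hxy rfl
  rcases lt_or_gt_of_ne hne with h | h
  · obtain ⟨g, hg, g1, g2, g3⟩ := key i hi j hj h
    refine ⟨g, hg, g1, g2, fun z hz hzx hzy => ?_⟩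
    obtain ⟨k, hk, rfl⟩ := hidx z hz
    exact g3 k hk (by rintro rfl; exact hzx rfl) (by rintro rfl; exact hzy rfl)
  · obtain ⟨g, hg, g1, g2, g3⟩ := key j hj i hi h
    refine ⟨g, hg, g2, g1, fun z hz hzx hzy => ?_⟩
    obtain ⟨k, hk, rfl⟩ := hidx z hz
    exact g3 k hk (by rintro rfl; exact hzy rfl) (by rintro rfl; exact hzx rfl)

theorem hasSwaps {S : Finset (Finset GolayPt)} (hS : S ∈ sextets) : HasSwaps S := by
  obtain ⟨k, hk, rfl⟩ := sextet_transitive famL_pK1_mem hS
  intro x hx y hy hxy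
  rw [Finset.mem_smul_finset] at hx hy
  obtain ⟨x, hx, rfl⟩ := hx
  obtain ⟨y, hy, rfl⟩ := hy
  obtain ⟨g, hg, g1, g2, g3⟩ := hasSwaps0 x hx y hy (by rintro rfl; exact hxy rfl)
  refine ⟨k * g * k⁻¹, M24.mul_mem (M24.mul_mem hk hg) (M24.inv_mem hk), ?_, ?_, ?_⟩
  · rw [mul_smul, inv_smul_smul, mul_smul, g1]
  · rw [mul_smul, inv_smul_smul, mul_smul, g2]
  · intro z hz hzx hzy
    rw [Finset.mem_smul_finset] at hz
    obtain ⟨z, hz, rfl⟩ := hz
    rw [mul_smul, inv_smul_smul, mul_smul, g3 z hz (by rintro rfl; exact hzx rfl) (by rintro rfl; exact hzy rfl)]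

theorem induces_all {S : Finset (Finset GolayPt)} (hS : S ∈ sextets) (e : Equiv.Perm ↥S) :
    ∃ g ∈ M24, ∀ t : ↥S, g • (t : Finset GolayPt) = ((e t : ↥S) : Finset GolayPt) := by
  classical
  induction e using Equiv.Perm.swap_induction_on with
  | one => exact ⟨1, M24.one_mem, fun t => one_smul _ _⟩
  | swap_mul f x y hxy ih =>
    obtain ⟨g, hg, hgt⟩ := ih
    obtain ⟨k, hk, k1, k2, k3⟩ := hasSwaps hS x.1 x.2 y.1 y.2 (fun h => hxy (Subtype.ext h))
    refine ⟨k * g, M24.mul_mem hk hg, fun t => ?_⟩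
    rw [mul_smul, hgt, Equiv.Perm.mul_apply]
    by_cases h1 : f t = x
    · rw [h1, Equiv.swap_apply_left, k1]
    · by_cases h2 : f t = y
      · rw [h2, Equiv.swap_apply_right, k2]
      · rw [Equiv.swap_apply_of_ne_of_ne h1 h2]
        exact k3 _ (f t).2 (fun h => h1 (Subtype.ext h)) (fun h => h2 (Subtype.ext h))

theorem smul_eq_of_induces {S : Finset (Finset GolayPt)} {e : Equiv.Perm ↥S} {g : Equiv.Perm GolayPt}
    (h : ∀ t : ↥S, g • (t : Finset GolayPt) = ((e t : ↥S) : Finset GolayPt)) : g • S = S := by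
  apply Finset.eq_of_subset_of_card_le
  · intro x hx
    rw [Finset.mem_smul_finset] at hx
    obtain ⟨y, hy, rfl⟩ := hx
    have := h ⟨y, hy⟩
    rw [show g • y = _ from this]
    exact (e ⟨y, hy⟩).2
  · have : g • S = S.image (fun a => g • a) := rfl
    rw [this, Finset.card_image_of_injective _ (MulAction.injective _)]

/-- action on the members of a family -/
def famRes (S : Finset (Finset GolayPt)) : MulAction.stabilizer M24 S →* Equiv.Perm ↥S where
  toFun g := 
    { toFun := fun t => ⟨g.1.1 • t.1, by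
        have h : g.1.1 • S = S := g.2
        have := Finset.smul_mem_smul_finset (a := g.1.1) t.2
        rwa [h] at this⟩
      invFun := fun t => ⟨g.1.1⁻¹ • t.1, by
        have h : g.1.1 • S = S := g.2
        have h2 : g.1.1⁻¹ • S = S := inv_smul_eq_iff.mpr h.symm
        have := Finset.smul_mem_smul_finset (a := g.1.1⁻¹) t.2
        rwa [h2] at this⟩
      left_inv := fun t => Subtype.ext (inv_smul_smul _ _)
      right_inv := fun t => Subtype.ext (smul_inv_smul _ _) }
  map_one' := by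
    apply Equiv.ext; intro t; apply Subtype.ext; exact one_smul _ _
  map_mul' := fun g h => by
    apply Equiv.ext; intro t; apply Subtype.ext; exact mul_smul g.1.1 h.1.1 t.1

theorem famRes_apply {S : Finset (Finset GolayPt)} (g : MulAction.stabilizer M24 S) (t : ↥S) :
    ((famRes S g t : ↥S) : Finset GolayPt) = g.1.1 • t.1 := rfl

theorem famRes_surjective {S : Finset (Finset GolayPt)} (hS : S ∈ sextets) : Function.Surjective (famRes S) := by
  intro e
  obtain ⟨g, hg, h⟩ := induces_all hS e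
  refine ⟨⟨⟨g, hg⟩, smul_eq_of_induces h⟩, ?_⟩
  apply Equiv.ext; intro t; apply Subtype.ext; exact h t

theorem natCard_stab_sextet {S : Finset (Finset GolayPt)} (hS : S ∈ sextets) :
    Nat.card (MulAction.stabilizer M24 S) = 138240 := by
  have h := card_eq_mul_inf_stabilizer (⊤ : Subgroup M24) S sextets
    (fun g _ => (smul_mem_sextets g.2).mpr hS)
    (fun x hx => by
      obtain ⟨g, hg, h⟩ := sextet_transitive hS hx
      exact ⟨⟨g, hg⟩, Subgroup.mem_top _, h⟩)
  rw [Subgroup.card_top, natCard_M24, ncard_sextets93, top_inf_eq] at h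
  omega

theorem card_ker_famRes {S : Finset (Finset GolayPt)} (hS : S ∈ sextets) : Nat.card (famRes S).ker = 192 := by
  have h1 : Nat.card (MulAction.stabilizer M24 S) = Nat.card (famRes S).ker * Nat.card (famRes S).range := by
    rw [← Subgroup.index_ker, Subgroup.card_mul_index]
  have h2 : (famRes S).range = ⊤ := MonoidHom.range_eq_top.mpr (famRes_surjective hS)
  rw [h2, Subgroup.card_top, natCard_stab_sextet hS, Nat.card_eq_fintype_card (α := Equiv.Perm ↥S), Fintype.card_perm,
    Fintype.card_coe, hS.1] at h1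
  have h4 : Nat.factorial 6 = 720 := by norm_num [Nat.factorial]
  rw [h4] at h1
  omega

/-- `S1551` -/
theorem sextet_stab (S : Finset (Finset GolayPt)) (hS : S ∈ sextets) :
    (∀ e : Equiv.Perm ↥S, ∃ g ∈ MulAction.stabilizer M24 S, ∀ t : ↥S,
      (g : Equiv.Perm GolayPt) • (t : Finset GolayPt) = ((e t : ↥S) : Finset GolayPt)) ∧
    Nat.card {g : ↥(MulAction.stabilizer M24 S) // ∀ t ∈ S, ((g : M24) : Equiv.Perm GolayPt) • t = t} = 192 ∧
    ∃ N : Subgroup ↥(MulAction.stabilizer M24 S), N.Normal ∧ Nat.card N = 64 ∧ ∀ x ∈ N, x * x = 1 := by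
  refine ⟨?_, ?_, ?_⟩
  · intro e
    obtain ⟨g, hg, h⟩ := induces_all hS e
    exact ⟨⟨g, hg⟩, smul_eq_of_induces h, h⟩
  · rw [← card_ker_famRes hS]
    apply Nat.card_congr
    refine Equiv.subtypeEquivRight ?_
    intro g
    rw [MonoidHom.mem_ker]
    constructor
    · intro h
      apply Equiv.ext; intro t; apply Subtype.ext; exact h t.1 t.2
    · intro h t ht
      have := congrArg (fun e : Equiv.Perm ↥S => ((e ⟨t, ht⟩ : ↥S) : Finset GolayPt)) h
      exact this
  · let f : ↥(MulAction.stabilizer M24 S) →* Equiv.Perm GolayPt := M24.subtype.comp (MulAction.stabilizer M24 S).subtype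
    refine ⟨(NP S hS).comap f, ?_, ?_, ?_⟩
    · constructor
      intro n hn g
      rw [Subgroup.mem_comap] at hn ⊢
      rw [map_mul, map_mul, map_inv]
      exact NP_conj g.1.2 hn g.2
    · rw [← card_NP hS]
      apply Nat.card_congr
      exact
        { toFun := fun g => ⟨f g.1, g.2⟩
          invFun := fun g => ⟨⟨⟨g.1, g.2.1⟩, by
            show g.1 • S = S
            apply Finset.eq_of_subset_of_card_le
            · intro x hx
              rw [Finset.mem_smul_finset] at hx
              obtain ⟨y, hy, rfl⟩ := hx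
              rw [(g.2.2 y hy).smul_eq]; exact hy
            · have : g.1 • S = S.image (fun a => g.1 • a) := rfl
              rw [this, Finset.card_image_of_injective _ (MulAction.injective _)]⟩, g.2⟩
          left_inv := fun g => rfl
          right_inv := fun g => rfl }
    · intro x hx
      apply Subtype.ext
      apply Subtype.ext
      exact NP_sq (hS := hS) hx

end Cfsg.Agent.Lib.Golay
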