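import Cfsg.Agent.Lib.GolayOrbits
import Cfsg.Agent.Lib.GolaySix

/-!
Joint stabiliser of two octads meeting in two points; stabiliser of a hexad on a dodecad (S5614, S5618).
-/

set_option autoImplicit false
set_option linter.constructorNameAsVariable false
set_option linter.unusedVariables false

namespace Cfsg.Agent.Lib.Golay

open Cfsg Cfsg.Agent.Lib.GolayCoset
open scoped Pointwise

theorem tr6_check : allLt 4096 (fun n => cond (tb OC n) (cond (Nat.beq (Nat.land (enc n) 8536111) 147456)
    (tr6.all fun c => cond (Nat.beq c 984818244535754528103549039458486304) true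
      (cond (Nat.beq (imgM c (enc n)) (enc n)) false true)) true) true) = true := by decide +kernel

theorem mset_sdiff_oct0 : ∀ p, p ∈ mset 8536111 ↔ (p ∈ mset 8388655 ∨ p ∈ mset 147456) := by decide +kernel
theorem mset_dis_oct0 : ∀ p, p ∈ mset 8388655 → p ∉ mset 147456 := by decide +kernel

/-- faithfulness on `o \ o'` -/
theorem faithful_six {o o' : Finset GolayPt} (ho : o ∈ octads) (ho' : o' ∈ octads) (h2 : (o ∩ o').card = 2)
    {g : Equiv.Perm GolayPt} (hg : g ∈ M24) (hgo' : g • o' = o') (hfix : ∀ p ∈ o \ o', g p = p) : g = 1 := by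
  have h6 : (o \ o').card = 6 := by
    have := Finset.card_sdiff_add_card_inter o o'
    rw [ho.2] at this; omega
  obtain ⟨k, hk, hkE⟩ := exists_smulI h6 ⟨o, ho, Finset.sdiff_subset⟩
  -- conjugate
  have hko : k⁻¹ • o = mset 8536111 := by
    apply octad_eq_of_five ((smul_mem_octads (M24.inv_mem hk)).mpr ho) oct0_mem
    have h5 : (mset 8388655).card = 6 := by rw [card_mset]; decide +kernel
    have : mset 8388655 ⊆ k⁻¹ • o ∩ mset 8536111 := by
      apply Finset.subset_inter
      · have e : mset 8388655 = k⁻¹ • (o \ o') := by rw [← hkE, inv_smul_smul]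
        rw [e]
        intro p hp
        obtain ⟨q, hq, rfl⟩ := (mem_smul_iff _ _ _).mp hp
        exact (smul_mem_smul _ _ _).mpr (Finset.mem_sdiff.mp hq).1
      · intro p hp
        exact (mset_sdiff_oct0 p).mpr (Or.inl hp)
    have := Finset.card_le_card this
    omega
  obtain ⟨n, hn, ht, hne⟩ := mem_octads_tb.mp ((smul_mem_octads (M24.inv_mem hk)).mpr ho')
  have hland' : enc n &&& 8536111 = 147456 := by
    apply mset_injOn (lt_of_le_of_lt Nat.and_le_left (enc_lt n)) (by norm_num)
    rw [mset_and, ← hne, ← hko]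
    ext p
    rw [Finset.mem_inter]
    have a1 : p ∈ k⁻¹ • o ↔ k p ∈ o := by
      conv_lhs => rw [← perm_inv_apply k p]
      exact smul_mem_smul _ _ _
    have a2 : p ∈ k⁻¹ • o' ↔ k p ∈ o' := by
      conv_lhs => rw [← perm_inv_apply k p]
      exact smul_mem_smul _ _ _
    have a3 : p ∈ mset 8388655 ↔ k p ∈ o \ o' := by
      rw [← hkE]; exact (smul_mem_smul _ _ _).symm
    have a4 := mset_sdiff_oct0 p
    have a5 := mset_dis_oct0 p
    rw [← hko, a1, a3, Finset.mem_sdiff] at a4
    rw [a3, Finset.mem_sdiff] at a5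
    rw [a1, a2]
    tauto
  have hland : Nat.land (enc n) 8536111 = 147456 := hland'
  have hg' : k⁻¹ * g * k ∈ M24 := M24.mul_mem (M24.mul_mem (M24.inv_mem hk) hg) hk
  have hf : ∀ i, (k⁻¹ * g * k) (fI i) = fI i := by
    intro i
    rw [Equiv.Perm.mul_apply, Equiv.Perm.mul_apply, hfix, perm_inv_apply]
    rw [← hkE]
    exact (smul_mem_smul _ _ _).mpr (fI_mem i)
  obtain ⟨c, hc, e⟩ := fixI hg' hf
  have hv := valid_of_inM (lvl_mem lvl6 hc).1
  have h1 := allLt_iff.mp tr6_check n hn
  rw [ht, hland, cond_true, Nat.beq_refl, cond_true] at h1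
  have h4 := List.all_eq_true.mp h1 c hc
  have hfixn : imgM c (enc n) = enc n := by
    apply mset_injOn (imgM_lt hv _) (enc_lt _)
    rw [← toPerm_smul_mset hv, ← hne, ← e, mul_smul, mul_smul, smul_inv_smul, hgo']
  cases h5 : Nat.beq c 984818244535754528103549039458486304 with
  | false =>
    rw [h5, cond_false, hfixn, Nat.beq_refl, cond_true] at h4
    exact absurd h4 (by decide)
  | true =>
    have h6 : c = cId := Nat.eq_of_beq_eq_true h5
    rw [h6, toPerm_cId] at e
    have : g = k * (k⁻¹ * g * k) * k⁻¹ := by group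
    rw [this, e]; group

/-- the joint stabiliser of two octads meeting in two points -/
theorem joint_iso_perm {o o' : Finset GolayPt} (ho : o ∈ octads) (ho' : o' ∈ octads) (h2 : (o ∩ o').card = 2) :
    Nonempty (↥(MulAction.stabilizer M24 o ⊓ MulAction.stabilizer M24 o') ≃* Equiv.Perm (Fin 6)) := by
  have h6 : (o \ o').card = 6 := by
    have := Finset.card_sdiff_add_card_inter o o'
    rw [ho.2] at this; omega
  have hle : MulAction.stabilizer M24 o ⊓ MulAction.stabilizer M24 o' ≤ MulAction.stabilizer M24 (o \ o') := by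
    rintro g ⟨h1, h1'⟩
    have h1 : g.1 • o = o := h1
    have h1' : g.1 • o' = o' := h1'
    show g.1 • (o \ o') = o \ o'
    ext q
    obtain ⟨p, rfl⟩ := g.1.surjective q
    rw [smul_mem_smul, Finset.mem_sdiff, Finset.mem_sdiff]
    conv_rhs => rw [← h1, ← h1']
    rw [smul_mem_smul, smul_mem_smul]
  let f := (restr (o \ o')).comp (Subgroup.inclusion hle)
  have hinj : Function.Injective f := by
    rw [injective_iff_map_eq_one]
    intro g hg
    apply Subtype.ext
    apply Subtype.ext
    refine faithful_six ho ho' h2 g.1.2 g.2.2 (fun p hp => ?_)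
    have := DFunLike.congr_fun hg ⟨p, hp⟩
    exact congrArg Subtype.val this
  have hcard : Nat.card ↥(MulAction.stabilizer M24 o ⊓ MulAction.stabilizer M24 o') = Nat.card (Equiv.Perm ↥(o \ o')) := by
    rw [(joint_orders o o' ho ho').2.2 h2, Nat.card_eq_fintype_card, Fintype.card_perm, Fintype.card_coe, h6]
    decide
  have hbij : Function.Bijective f := (Nat.bijective_iff_injective_and_card f).mpr ⟨hinj, hcard⟩
  refine ⟨(MulEquiv.ofBijective f hbij).trans ?_⟩
  exact (Finset.equivFinOfCardEq h6).permCongrHom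

/-- hexads and octads -/
theorem hexad_octads {d C : Finset GolayPt} (hd : d ∈ dodecads) (hC : C ∈ hexadsOn d) :
    ∃ o ∈ octads, ∃ o' ∈ octads, (o ∩ o').card = 2 ∧ symmDiff o o' = d ∧ o ∩ d = C ∧ o \ o' = C ∧ o' \ o = d \ C := by
  obtain ⟨h6, o, ho, rfl⟩ := hC
  have h4 := card_symmDiff_add o d
  rw [ho.2, hd.2, h6] at h4
  have h5 := card_symmDiff_add o (symmDiff o d)
  rw [symmDiff_symmDiff_cancel_left, ho.2, hd.2] at h5
  refine ⟨o, ho, symmDiff o d, ⟨symmDiff_mem_supports ho.1 hd.1, by omega⟩, by omega, symmDiff_symmDiff_cancel_left _ _,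
    rfl, ?_, ?_⟩
  · ext p
    simp only [Finset.mem_sdiff, Finset.mem_symmDiff, Finset.mem_inter]
    tauto
  · ext p
    simp only [Finset.mem_sdiff, Finset.mem_symmDiff, Finset.mem_inter]
    tauto

theorem stab_dodecad_hexad {d C o o' : Finset GolayPt} (ho : o ∈ octads) (ho' : o' ∈ octads) (hs : symmDiff o o' = d)
    (hoC : o ∩ d = C) (h6 : C.card = 6) :
    MulAction.stabilizer M24 d ⊓ MulAction.stabilizer M24 C = MulAction.stabilizer M24 o ⊓ MulAction.stabilizer M24 o' := by
  ext g
  constructor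
  · rintro ⟨h1, h2⟩
    have h1 : g.1 • d = d := h1
    have h2 : g.1 • C = C := h2
    have h3 : g.1 • o = o := by
      apply octad_eq_of_five ((smul_mem_octads g.2).mpr ho) ho
      have : C ⊆ g.1 • o ∩ o := by
        apply Finset.subset_inter
        · rw [← h2, ← hoC, smul_inter']; exact Finset.inter_subset_left
        · rw [← hoC]; exact Finset.inter_subset_left
      have := Finset.card_le_card this
      omega
    refine ⟨h3, ?_⟩
    show g.1 • o' = o'
    have e : o' = symmDiff o d := by rw [← hs, symmDiff_symmDiff_cancel_left]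
    rw [e, smul_symmDiff', h3, h1]
  · rintro ⟨h1, h2⟩
    have h1 : g.1 • o = o := h1
    have h2 : g.1 • o' = o' := h2
    have h3 : g.1 • d = d := by rw [← hs, smul_symmDiff', h1, h2]
    exact ⟨h3, show g.1 • C = C by rw [← hoC, smul_inter', h1, h3]⟩

/-- `S5618` -/
theorem dodecad_hexad {d : Finset GolayPt} (hd : d ∈ dodecads) {C : Finset GolayPt} (hC : C ∈ hexadsOn d) :
    Nonempty (↥(MulAction.stabilizer M24 d ⊓ MulAction.stabilizer M24 C) ≃* Equiv.Perm (Fin 6)) ∧
    (∀ g ∈ MulAction.stabilizer M24 d ⊓ MulAction.stabilizer M24 C, (∀ p ∈ C, ((g : ↥M24) : Equiv.Perm GolayPt) p = p) →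
      g = 1) ∧
    ∀ g ∈ MulAction.stabilizer M24 d ⊓ MulAction.stabilizer M24 C,
      (∀ p ∈ d \ C, ((g : ↥M24) : Equiv.Perm GolayPt) p = p) → g = 1 := by
  obtain ⟨o, ho, o', ho', h2, hs, hoC, hC1, hC2⟩ := hexad_octads hd hC
  rw [stab_dodecad_hexad ho ho' hs hoC hC.1]
  refine ⟨joint_iso_perm ho ho' h2, fun g hg hf => ?_, fun g hg hf => ?_⟩
  · apply Subtype.ext
    exact faithful_six ho ho' h2 g.2 hg.2 (by rw [hC1]; exact hf)
  · apply Subtype.ext
    exact faithful_six ho' ho (by rw [Finset.inter_comm]; exact h2) g.2 hg.1 (by rw [hC2]; exact hf)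

end Cfsg.Agent.Lib.Golay
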