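import Cfsg.Agent.Lib.QuatLift
import Mathlib.GroupTheory.Sylow

set_option autoImplicit false

namespace Cfsg.Agent.Lib.Nine8

open QuaternionGroup

theorem q8_sq (g : QuaternionGroup 2) (hg : g ≠ 1) : g = a 2 ∨ g * g = a 2 := by
  revert g
  decide

theorem sylow_of_relations {G : Type*} [Group G] [Finite G] (hcard : Nat.card G = 72) {a b i j : G}
    (ha : a ^ 3 = 1) (hb : b ^ 3 = 1) (ha1 : a ≠ 1) (hab : a * b = b * a) (hb' : b ∉ Subgroup.zpowers a)
    (h1 : i * a * i⁻¹ ∈ Subgroup.closure {a, b}) (h2 : i * b * i⁻¹ ∈ Subgroup.closure {a, b})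
    (h3 : j * a * j⁻¹ ∈ Subgroup.closure {a, b}) (h4 : j * b * j⁻¹ ∈ Subgroup.closure {a, b})
    (hi : i ^ 4 = 1) (hi2 : i ^ 2 ≠ 1) (hj : j * j = i ^ 2) (hij : i * j = j * i⁻¹) :
    (∀ Q : Sylow 3 G, (Q : Subgroup G).Normal ∧ Nat.card ↥Q = 9 ∧ ∀ x ∈ (Q : Subgroup G), x ^ 3 = 1) ∧
      ∀ P : Sylow 2 G, Nonempty (↥P ≃* QuaternionGroup 2) := by
  have : Fact (Nat.Prime 3) := ⟨Nat.prime_three⟩
  have : Fact (Nat.Prime 2) := ⟨Nat.prime_two⟩
  set A : Subgroup G := Subgroup.closure {a, b} with hA
  have haA : a ∈ A := Subgroup.subset_closure (by simp)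
  have hbA : b ∈ A := Subgroup.subset_closure (by simp)
  have hcomm : ∀ x ∈ A, ∀ y ∈ A, x * y = y * x := by
    have : A ≤ Subgroup.centralizer (A : Set G) := by
      have h5 : ({a, b} : Set G) ⊆ Subgroup.centralizer ({a, b} : Set G) := by
        rintro x (rfl | rfl) y (rfl | rfl)
        · rfl
        · exact hab.symm
        · exact hab
        · rfl
      have h6 : A ≤ Subgroup.centralizer ({a, b} : Set G) := (Subgroup.closure_le _).mpr h5
      rw [Subgroup.le_centralizer_iff]
      rw [hA, Subgroup.closure_le]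
      intro x hx
      rw [SetLike.mem_coe, Subgroup.mem_centralizer_iff]
      intro y hy
      exact ((Subgroup.mem_centralizer_iff.mp (h6 hy)) x hx).symm
    intro x hx y hy
    exact (Subgroup.mem_centralizer_iff.mp (this hx) y hy).symm
  have hexp : ∀ x ∈ A, x ^ 3 = 1 := by
    intro x hx
    induction hx using Subgroup.closure_induction with
    | mem x hx =>
      rcases hx with rfl | rfl
      · exact ha
      · exact hb
    | one => exact one_pow 3
    | mul x y hx hy ihx ihy =>
      have hc : Commute x y := hcomm x hx y hy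
      rw [hc.mul_pow, ihx, ihy, one_mul]
    | inv x hx ihx => rw [inv_pow, ihx, inv_one]
  have hpA : IsPGroup 3 A := by
    intro x
    refine ⟨1, ?_⟩
    rw [pow_one]
    exact Subtype.ext (hexp x x.2)
  have hfac3 : Nat.factorization 72 3 = 2 := by
    rw [show (72 : ℕ) = 3 ^ 2 * 2 ^ 3 by norm_num, Nat.factorization_mul (by norm_num) (by norm_num),
      Nat.factorization_pow, Nat.factorization_pow]
    simp [Nat.Prime.factorization Nat.prime_three, Nat.Prime.factorization Nat.prime_two]
  have hfac2 : Nat.factorization 72 2 = 3 := by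
    rw [show (72 : ℕ) = 3 ^ 2 * 2 ^ 3 by norm_num, Nat.factorization_mul (by norm_num) (by norm_num),
      Nat.factorization_pow, Nat.factorization_pow]
    simp [Nat.Prime.factorization Nat.prime_three, Nat.Prime.factorization Nat.prime_two]
  have hQcard : ∀ Q : Sylow 3 G, Nat.card Q = 9 := by
    intro Q
    rw [Q.card_eq_multiplicity, hcard, hfac3]; norm_num
  have hPcard : ∀ P : Sylow 2 G, Nat.card P = 8 := by
    intro P
    rw [P.card_eq_multiplicity, hcard, hfac2]; norm_num
  obtain ⟨Q0, hQ0⟩ := hpA.exists_le_sylow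
  have horda : orderOf a = 3 := orderOf_eq_prime ha ha1
  have hcardA : Nat.card A = 9 := by
    have d1 : Nat.card A ∣ 9 := by
      rw [← hQcard Q0]
      exact Subgroup.card_dvd_of_le hQ0
    have d2 : 3 ∣ Nat.card A := by
      rw [← horda, ← Nat.card_zpowers]
      apply Subgroup.card_dvd_of_le
      rw [Subgroup.zpowers_le]; exact haA
    have d3 : Nat.card A ≠ 3 := by
      intro h
      apply hb'
      have : Subgroup.zpowers a = A := by
        apply Subgroup.eq_of_le_of_card_ge
        · rw [Subgroup.zpowers_le]; exact haA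
        · rw [h, Nat.card_zpowers, horda]
      rw [this]; exact hbA
    obtain ⟨k, hk⟩ := d2
    have h9 : Nat.card A ≤ 9 := Nat.le_of_dvd (by norm_num) d1
    have h0 : 0 < Nat.card A := Nat.card_pos
    rw [hk] at d1 d3 h9 h0 ⊢
    have hk3 : k ≤ 3 := by omega
    interval_cases k
    · omega
    · exact absurd rfl d3
    · exact absurd d1 (by decide)
    · rfl
  have hAQ : A = Q0 := Subgroup.eq_of_le_of_card_ge hQ0 (by rw [hcardA]; exact (hQcard Q0).le)
  -- the quaternion group
  let φ : QuaternionGroup 2 →* G := QuatLift.lift 2 i j hi hj hij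
  have hφa : ∀ k : ℕ, φ (QuaternionGroup.a (k : ZMod 4)) = i ^ k := fun k => QuatLift.pw_natCast 2 i hi k
  have hφx : ∀ k : ℕ, φ (QuaternionGroup.xa (k : ZMod 4)) = j * i ^ k := fun k => by
    show j * (QuatLift.pw 2 i hi _).toMul = _
    rw [← QuatLift.pw_natCast 2 i hi k]
  have hφ2 : φ (QuaternionGroup.a 2) = i ^ 2 := hφa 2
  have hinj : Function.Injective φ := by
    rw [injective_iff_map_eq_one]
    intro g hg
    by_contra hne
    rcases q8_sq g hne with h | h
    · rw [h, hφ2] at hg
      exact hi2 hg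
    · have : φ (g * g) = 1 := by rw [map_mul, hg, one_mul]
      rw [h, hφ2] at this
      exact hi2 this
  let e : QuaternionGroup 2 ≃* φ.range := MonoidHom.ofInjective hinj
  have hS : Nat.card φ.range = 8 := by
    rw [← Nat.card_congr e.toEquiv, Nat.card_eq_fintype_card, QuaternionGroup.card]
  -- normality
  have hin : i ∈ Subgroup.normalizer (A : Set G) ∧ j ∈ Subgroup.normalizer (A : Set G) := by
    have key : ∀ t : G, t * a * t⁻¹ ∈ A → t * b * t⁻¹ ∈ A → t ∈ Subgroup.normalizer (A : Set G) := by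
      intro t k1 k2
      have hle : A.map (MulAut.conj t).toMonoidHom ≤ A := by
        rw [Subgroup.map_le_iff_le_comap, hA, Subgroup.closure_le]
        rintro x (rfl | rfl)
        · exact k1
        · exact k2
      have heq : A.map (MulAut.conj t).toMonoidHom = A := by
        apply Subgroup.eq_of_le_of_card_ge hle
        rw [Subgroup.card_map_of_injective (MulAut.conj t).injective]
      rw [Subgroup.mem_normalizer_iff]
      intro x
      constructor
      · intro hx
        exact hle ⟨x, hx, rfl⟩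
      · intro hx
        rw [← heq] at hx
        obtain ⟨y, hy, hxy⟩ := hx
        have : y = x := (MulAut.conj t).injective hxy
        rw [← this]; exact hy
    exact ⟨key i h1 h2, key j h3 h4⟩
  have hSN : φ.range ≤ Subgroup.normalizer (A : Set G) := by
    rintro _ ⟨g, rfl⟩
    cases g with
    | a k =>
      have : k = ((k.val : ℕ) : ZMod 4) := (ZMod.natCast_zmod_val k).symm
      rw [this, hφa]
      exact Subgroup.pow_mem _ hin.1 _
    | xa k =>
      have : k = ((k.val : ℕ) : ZMod 4) := (ZMod.natCast_zmod_val k).symm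
      rw [this, hφx]
      exact Subgroup.mul_mem _ hin.2 (Subgroup.pow_mem _ hin.1 _)
  have hNtop : Subgroup.normalizer (A : Set G) = ⊤ := by
    apply Subgroup.eq_top_of_le_card
    have d1 : 8 ∣ Nat.card (Subgroup.normalizer (A : Set G)) := by
      rw [← hS]; exact Subgroup.card_dvd_of_le hSN
    have d2 : 9 ∣ Nat.card (Subgroup.normalizer (A : Set G)) := by
      rw [← hcardA]; exact Subgroup.card_dvd_of_le Subgroup.le_normalizer
    have d3 : 72 ∣ Nat.card (Subgroup.normalizer (A : Set G)) :=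
      Nat.Coprime.mul_dvd_of_dvd_of_dvd (by norm_num : Nat.Coprime 8 9) d1 d2
    rw [hcard]
    exact Nat.le_of_dvd Nat.card_pos d3
  have hAn : A.Normal := Subgroup.normalizer_eq_top_iff.mp hNtop
  have hQA : ∀ Q : Sylow 3 G, (Q : Subgroup G) = A := by
    intro Q
    have hle : A ≤ Q := hpA.le_sylow_of_normal Q
    exact (Subgroup.eq_of_le_of_card_ge hle (by rw [hcardA]; exact (hQcard Q).le)).symm
  refine ⟨fun Q => ⟨?_, hQcard Q, ?_⟩, fun P => ?_⟩
  · rw [hQA Q]; exact hAn
  · rw [hQA Q]; exact hexp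
  · have hpS : IsPGroup 2 φ.range := IsPGroup.of_card (n := 3) (by rw [hS]; norm_num)
    obtain ⟨P0, hP0⟩ := hpS.exists_le_sylow
    have hSP : φ.range = P0 := Subgroup.eq_of_le_of_card_ge hP0 (by rw [hS]; exact (hPcard P0).le)
    refine ⟨(P.equiv P0).trans ((MulEquiv.subgroupCongr hSP).symm.trans e.symm)⟩

/-- defining relations -/
structure Rel {G : Type*} [Group G] (a b i j : G) : Prop where
  a3 : a * (a * a) = 1
  b3 : b * (b * b) = 1
  ab : a * b = b * a
  ia : i * a = b * i
  ib : i * b = a * (a * i)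
  ja : j * a = a * (a * (b * (b * j)))
  jb : j * b = a * (a * (b * j))
  i4 : i * (i * (i * i)) = 1
  jj : j * j = i * i
  ij : i * (j * i) = j
  a1 : a ≠ 1
  b1 : b ≠ 1
  ba : b ≠ a
  baa : b ≠ a * a
  ii : i * i ≠ 1

theorem Rel.of_map {G H : Type*} [Group G] [Group H] (f : G →* H) (hf : Function.Injective f) {a b i j : G}
    (h : Rel (f a) (f b) (f i) (f j)) : Rel a b i j where
  a3 := hf (by rw [map_mul, map_mul, map_one]; exact h.a3)
  b3 := hf (by rw [map_mul, map_mul, map_one]; exact h.b3)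
  ab := hf (by rw [map_mul, map_mul]; exact h.ab)
  ia := hf (by rw [map_mul, map_mul]; exact h.ia)
  ib := hf (by rw [map_mul, map_mul, map_mul]; exact h.ib)
  ja := hf (by simp only [map_mul]; exact h.ja)
  jb := hf (by simp only [map_mul]; exact h.jb)
  i4 := hf (by simp only [map_mul, map_one]; exact h.i4)
  jj := hf (by simp only [map_mul]; exact h.jj)
  ij := hf (by simp only [map_mul]; exact h.ij)
  a1 := fun e => h.a1 (by rw [e, map_one])
  b1 := fun e => h.b1 (by rw [e, map_one])
  ba := fun e => h.ba (by rw [e])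
  baa := fun e => h.baa (by rw [e, map_mul])
  ii := fun e => h.ii (by rw [← map_mul, e, map_one])

theorem Rel.main {G : Type*} [Group G] [Finite G] (hcard : Nat.card G = 72) {a b i j : G} (h : Rel a b i j) :
    (∀ Q : Sylow 3 G, (Q : Subgroup G).Normal ∧ Nat.card ↥Q = 9 ∧ ∀ x ∈ (Q : Subgroup G), x ^ 3 = 1) ∧
      ∀ P : Sylow 2 G, Nonempty (↥P ≃* QuaternionGroup 2) := by
  classical
  have haA : a ∈ Subgroup.closure {a, b} := Subgroup.subset_closure (by simp)
  have hbA : b ∈ Subgroup.closure {a, b} := Subgroup.subset_closure (by simp)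
  have p3 : ∀ x : G, x * (x * x) = x ^ 3 := fun x => by rw [pow_succ', pow_two]
  have ha3 : a ^ 3 = 1 := by rw [← p3]; exact h.a3
  have hb3 : b ^ 3 = 1 := by rw [← p3]; exact h.b3
  refine sylow_of_relations (i := i) (j := j) hcard ha3 hb3 h.a1 h.ab ?_ ?_ ?_ ?_ ?_ ?_ ?_ ?_ ?_
  · intro hb
    have : Fact (Nat.Prime 3) := ⟨Nat.prime_three⟩
    have ho : orderOf a = 3 := orderOf_eq_prime ha3 h.a1
    have hf : IsOfFinOrder a := isOfFinOrder_of_finite a
    obtain ⟨n, hn, e⟩ := (hf.mem_powers_iff_mem_range_orderOf (y := b)).mp (hf.mem_powers_iff_mem_zpowers.mpr hb) |> Finset.mem_image.mp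
    rw [ho, Finset.mem_range] at hn
    interval_cases n
    · exact h.b1 (by rw [← e]; exact pow_zero a)
    · exact h.ba (by rw [← e]; exact pow_one a)
    · exact h.baa (by rw [← e]; exact pow_two a)
  · rw [h.ia, mul_inv_cancel_right]; exact hbA
  · rw [h.ib, mul_assoc, mul_assoc, mul_inv_cancel, mul_one]; exact Subgroup.mul_mem _ haA haA
  · rw [h.ja]
    have : a * (a * (b * (b * j))) * j⁻¹ = a * (a * (b * b)) := by group
    rw [this]
    exact Subgroup.mul_mem _ haA (Subgroup.mul_mem _ haA (Subgroup.mul_mem _ hbA hbA))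
  · rw [h.jb]
    have : a * (a * (b * j)) * j⁻¹ = a * (a * b) := by group
    rw [this]
    exact Subgroup.mul_mem _ haA (Subgroup.mul_mem _ haA hbA)
  · rw [pow_succ', p3 i |>.symm]; exact h.i4
  · rw [pow_two]; exact h.ii
  · rw [pow_two]; exact h.jj
  · rw [eq_mul_inv_iff_mul_eq, mul_assoc]; exact h.ij

end Cfsg.Agent.Lib.Nine8
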