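import Cfsg.Agent.Lib.GolayM12
import Cfsg.Agent.Lib.Nine8

/-!
The subgroup of `M24` fixing a dodecad and three of its points: `3² : Q₈`.
-/

set_option autoImplicit false
set_option linter.constructorNameAsVariable false
set_option linter.unusedVariables false

namespace Cfsg.Agent.Lib.Golay

open Cfsg Cfsg.Agent.Lib.Nine8
open scoped Pointwise

def qA : ℕ := 487607080158395075740321133224921120
def qB : ℕ := 984769902586367543974814854303385632
def qI : ℕ := 719923664328491199848526586197411872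
def qJ : ℕ := 608405391266436187982588441666881568
def qOK (c : ℕ) : Bool := cond (inM c) (cond (Nat.beq (imgM c dod0) dod0) (cond (Nat.beq (img c 0) 0)
  (cond (Nat.beq (img c 1) 1) (Nat.beq (img c 2) 2) false) false) false) false

theorem qA_ok : qOK qA = true := by decide +kernel
theorem qB_ok : qOK qB = true := by decide +kernel
theorem qI_ok : qOK qI = true := by decide +kernel
theorem qJ_ok : qOK qJ = true := by decide +kernel

theorem qOK_spec {c : ℕ} (h : qOK c = true) : valid c = true ∧ toPerm c ∈ M24 ∧ toPerm c • mset dod0 = mset dod0 ∧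
    toPerm c (pt 0) = pt 0 ∧ toPerm c (pt 1) = pt 1 ∧ toPerm c (pt 2) = pt 2 := by
  unfold qOK at h
  have cf : ∀ {a b : Bool}, cond a b false = true → a = true ∧ b = true := by
    intro a b h; cases a <;> simp_all
  obtain ⟨h1, h⟩ := cf h
  obtain ⟨h2, h⟩ := cf h
  obtain ⟨h3, h⟩ := cf h
  obtain ⟨h4, h5⟩ := cf h
  have hv := valid_of_inM h1
  refine ⟨hv, toPerm_mem_M24 h1, ?_, ?_, ?_, ?_⟩
  · rw [toPerm_smul_mset hv, Nat.eq_of_beq_eq_true h2]
  · rw [toPerm_pt hv (by norm_num), Nat.eq_of_beq_eq_true h3]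
  · rw [toPerm_pt hv (by norm_num), Nat.eq_of_beq_eq_true h4]
  · rw [toPerm_pt hv (by norm_num), Nat.eq_of_beq_eq_true h5]

theorem eq_of_codes {a b : ℕ} (h : a = b) : toPerm a = toPerm b := by rw [h]

theorem ne_of_img {a b : ℕ} (ha : valid a = true) (hb : valid b = true) {i : ℕ} (hi : i < 24) (h : img a i ≠ img b i) :
    toPerm a ≠ toPerm b := by
  intro e
  apply h
  have := ix_toPerm ha (pt i)
  rw [e, ix_toPerm hb, ix_pt hi] at this
  exact this.symm

theorem rel_q : Rel (toPerm qA) (toPerm qB) (toPerm qI) (toPerm qJ) := by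
  have va := (qOK_spec qA_ok).1
  have vb := (qOK_spec qB_ok).1
  have vi := (qOK_spec qI_ok).1
  have vj := (qOK_spec qJ_ok).1
  have mc : ∀ {a b : ℕ}, valid a = true → valid b = true → toPerm a * toPerm b = toPerm (mulC a b) :=
    fun ha hb => (toPerm_mulC ha hb).symm
  have vm : ∀ {a b : ℕ}, valid a = true → valid b = true → valid (mulC a b) = true := fun ha hb => valid_mulC ha hb
  have hid : toPerm 984818244535754528103549039458486304 = 1 := by
    have hv : valid 984818244535754528103549039458486304 = true := by decide +kernel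
    ext1 p
    rw [toPerm_apply hv]
    have : ∀ p : GolayPt, img 984818244535754528103549039458486304 (ix p) = ix p := by decide +kernel
    rw [this, pt_ix]; rfl
  have vid : valid 984818244535754528103549039458486304 = true := by decide +kernel
  constructor
  · rw [mc va va, mc va (vm va va), ← hid]
    exact eq_of_codes (by decide +kernel)
  · rw [mc vb vb, mc vb (vm vb vb), ← hid]
    exact eq_of_codes (by decide +kernel)
  · rw [mc va vb, mc vb va]
    exact eq_of_codes (by decide +kernel)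
  · rw [mc vi va, mc vb vi]
    exact eq_of_codes (by decide +kernel)
  · rw [mc vi vb, mc va vi, mc va (vm va vi)]
    exact eq_of_codes (by decide +kernel)
  · rw [mc vj va, mc vb vj, mc vb (vm vb vj), mc va (vm vb (vm vb vj)), mc va (vm va (vm vb (vm vb vj)))]
    exact eq_of_codes (by decide +kernel)
  · rw [mc vj vb, mc vb vj, mc va (vm vb vj), mc va (vm va (vm vb vj))]
    exact eq_of_codes (by decide +kernel)
  · rw [mc vi vi, mc vi (vm vi vi), mc vi (vm vi (vm vi vi)), ← hid]
    exact eq_of_codes (by decide +kernel)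
  · rw [mc vj vj, mc vi vi]
    exact eq_of_codes (by decide +kernel)
  · rw [mc vj vi, mc vi (vm vj vi)]
    exact eq_of_codes (by decide +kernel)
  · rw [← hid]
    exact ne_of_img va vid (i := 3) (by norm_num) (by decide +kernel)
  · rw [← hid]
    exact ne_of_img vb vid (i := 3) (by norm_num) (by decide +kernel)
  · exact ne_of_img vb va (i := 3) (by norm_num) (by decide +kernel)
  · rw [mc va va]
    exact ne_of_img vb (vm va va) (i := 3) (by norm_num) (by decide +kernel)
  · rw [mc vi vi, ← hid]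
    exact ne_of_img (vm vi vi) vid (i := 4) (by norm_num) (by decide +kernel)

theorem card_three_points {d : Finset GolayPt} (hd : d ∈ dodecads) {p q r : GolayPt} (hp : p ∈ d) (hq : q ∈ d)
    (hr : r ∈ d) (hpq : p ≠ q) (hpr : p ≠ r) (hqr : q ≠ r) :
    Nat.card ↥(MulAction.stabilizer M24 d ⊓ MulAction.stabilizer M24 p ⊓ MulAction.stabilizer M24 q ⊓
      MulAction.stabilizer M24 r) = 72 := by
  have h1 := card_eq_mul_inf_stabilizer (MulAction.stabilizer M24 d ⊓ MulAction.stabilizer M24 p) q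
    (d.erase p : Set GolayPt)
    (fun g hg => by
      have h1 : g.1 • d = d := hg.1
      have h2 : g.1 p = p := hg.2
      show g.1 q ∈ (d.erase p)
      rw [Finset.mem_erase]
      refine ⟨fun e => hpq (g.1.injective (h2.trans e.symm)), ?_⟩
      rw [← h1, smul_mem_smul]; exact hq)
    (fun x hx => by
      obtain ⟨hx1, hx2⟩ := Finset.mem_erase.mp hx
      obtain ⟨g, hg, hgd, h1⟩ := exists_le_five_dodecad hd (n := 2) (by norm_num)
        ⟨![p, q], by intro i j hij; fin_cases i <;> fin_cases j <;> simp_all⟩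
        ⟨![p, x], by intro i j hij; fin_cases i <;> fin_cases j <;> simp_all⟩
        (by intro i; fin_cases i; exacts [hp, hq]) (by intro i; fin_cases i; exacts [hp, hx2])
      exact ⟨⟨g, hg⟩, ⟨hgd, h1 0⟩, h1 1⟩)
  have h2 := card_eq_mul_inf_stabilizer (MulAction.stabilizer M24 d ⊓ MulAction.stabilizer M24 p ⊓
    MulAction.stabilizer M24 q) r ((d.erase p).erase q : Set GolayPt)
    (fun g hg => by
      have h1 : g.1 • d = d := hg.1.1
      have h2 : g.1 p = p := hg.1.2
      have h3 : g.1 q = q := hg.2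
      show g.1 r ∈ ((d.erase p).erase q)
      rw [Finset.mem_erase, Finset.mem_erase]
      refine ⟨fun e => hqr (g.1.injective (h3.trans e.symm)), fun e => hpr (g.1.injective (h2.trans e.symm)), ?_⟩
      rw [← h1, smul_mem_smul]; exact hr)
    (fun x hx => by
      obtain ⟨hx1, hx⟩ := Finset.mem_erase.mp hx
      obtain ⟨hx2, hx3⟩ := Finset.mem_erase.mp hx
      obtain ⟨g, hg, hgd, h1⟩ := exists_le_five_dodecad hd (n := 3) (by norm_num)
        ⟨![p, q, r], by intro i j hij; fin_cases i <;> fin_cases j <;> simp_all⟩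
        ⟨![p, q, x], by intro i j hij; fin_cases i <;> fin_cases j <;> simp_all⟩
        (by intro i; fin_cases i; exacts [hp, hq, hr]) (by intro i; fin_cases i; exacts [hp, hq, hx3])
      exact ⟨⟨g, hg⟩, ⟨⟨hgd, h1 0⟩, h1 1⟩, h1 2⟩)
  have c1 : (d.erase p : Set GolayPt).ncard = 11 := by
    rw [Set.ncard_coe_finset, Finset.card_erase_of_mem hp, hd.2]
  have c2 : ((d.erase p).erase q : Set GolayPt).ncard = 10 := by
    rw [Set.ncard_coe_finset, Finset.card_erase_of_mem (Finset.mem_erase.mpr ⟨hpq.symm, hq⟩),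
      Finset.card_erase_of_mem hp, hd.2]
  rw [c1, card_stab_dodecad_point hd hp] at h1
  rw [c2] at h2
  omega

theorem exists_frame_three {d : Finset GolayPt} (hd : d ∈ dodecads) {p q r : GolayPt} (hp : p ∈ d) (hq : q ∈ d)
    (hr : r ∈ d) (hpq : p ≠ q) (hpr : p ≠ r) (hqr : q ≠ r) :
    ∃ k ∈ M24, k • mset dod0 = d ∧ k (pt 0) = p ∧ k (pt 1) = q ∧ k (pt 2) = r := by
  have hc : 5 ≤ d.card := by rw [hd.2]; norm_num
  obtain ⟨x, hx, ex⟩ := exists_extend hc (n := 3) (by norm_num)
    ⟨![p, q, r], by intro i j hij; fin_cases i <;> fin_cases j <;> simp_all⟩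
    (by intro i; fin_cases i; exacts [hp, hq, hr])
  obtain ⟨k, hk, hkd, hkx⟩ := frame_dodecad hd x hx
  refine ⟨k, hk, hkd, ?_, ?_, ?_⟩
  · have := hkx 0
    rw [show (pt ((0 : Fin 5) : ℕ)) = pt 0 from rfl] at this
    rw [this]; exact ex 0
  · have := hkx 1
    rw [show (pt ((1 : Fin 5) : ℕ)) = pt 1 from rfl] at this
    rw [this]; exact ex 1
  · have := hkx 2
    rw [show (pt ((2 : Fin 5) : ℕ)) = pt 2 from rfl] at this
    rw [this]; exact ex 2

/-- conjugation as a homomorphism to the symmetric group -/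
def conjHom (k : Equiv.Perm GolayPt) (K : Subgroup ↥M24) : ↥K →* Equiv.Perm GolayPt where
  toFun g := k⁻¹ * ((g : ↥M24) : Equiv.Perm GolayPt) * k
  map_one' := by simp
  map_mul' g h := by
    show k⁻¹ * (((g : ↥M24) : Equiv.Perm GolayPt) * ((h : ↥M24) : Equiv.Perm GolayPt)) * k = _
    group

theorem conjHom_injective (k : Equiv.Perm GolayPt) (K : Subgroup ↥M24) : Function.Injective (conjHom k K) := by
  intro g h e
  have e' : k⁻¹ * ((g : ↥M24) : Equiv.Perm GolayPt) * k = k⁻¹ * ((h : ↥M24) : Equiv.Perm GolayPt) * k := e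
  rw [mul_left_inj, mul_right_inj] at e'
  exact Subtype.ext (Subtype.ext e')

theorem three_points_main {d : Finset GolayPt} (hd : d ∈ dodecads) {p q r : GolayPt} (hp : p ∈ d) (hq : q ∈ d)
    (hr : r ∈ d) (hpq : p ≠ q) (hpr : p ≠ r) (hqr : q ≠ r) :
    ∃ a b i j : ↥(MulAction.stabilizer M24 d ⊓ MulAction.stabilizer M24 p ⊓ MulAction.stabilizer M24 q ⊓
      MulAction.stabilizer M24 r), Rel a b i j := by
  obtain ⟨k, hk, hkd, h0, h1, h2⟩ := exists_frame_three hd hp hq hr hpq hpr hqr
  have hex : ∀ c, qOK c = true → ∃ g : ↥(MulAction.stabilizer M24 d ⊓ MulAction.stabilizer M24 p ⊓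
      MulAction.stabilizer M24 q ⊓ MulAction.stabilizer M24 r), conjHom k _ g = toPerm c := by
    intro c hc
    obtain ⟨hv, hm, g0, g1, g2, g3⟩ := qOK_spec hc
    refine ⟨⟨⟨k * toPerm c * k⁻¹, M24.mul_mem (M24.mul_mem hk hm) (M24.inv_mem hk)⟩, ⟨⟨⟨?_, ?_⟩, ?_⟩, ?_⟩⟩, ?_⟩
    · show (k * toPerm c * k⁻¹) • d = d
      rw [mul_smul, mul_smul, ← hkd, inv_smul_smul, g0]
    · show (k * toPerm c * k⁻¹) p = p
      rw [Equiv.Perm.mul_apply, Equiv.Perm.mul_apply, ← h0, perm_inv_apply, g1]
    · show (k * toPerm c * k⁻¹) q = q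
      rw [Equiv.Perm.mul_apply, Equiv.Perm.mul_apply, ← h1, perm_inv_apply, g2]
    · show (k * toPerm c * k⁻¹) r = r
      rw [Equiv.Perm.mul_apply, Equiv.Perm.mul_apply, ← h2, perm_inv_apply, g3]
    · show k⁻¹ * (k * toPerm c * k⁻¹) * k = toPerm c
      group
  obtain ⟨a, ha⟩ := hex _ qA_ok
  obtain ⟨b, hb⟩ := hex _ qB_ok
  obtain ⟨i, hi⟩ := hex _ qI_ok
  obtain ⟨j, hj⟩ := hex _ qJ_ok
  refine ⟨a, b, i, j, Rel.of_map (conjHom k _) (conjHom_injective k _) ?_⟩
  rw [ha, hb, hi, hj]
  exact rel_q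

end Cfsg.Agent.Lib.Golay
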