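import Cfsg.Agent.Lib.GolaySextetStab
import Cfsg.Agent.Lib.GolayTrioOrb
import Mathlib.LinearAlgebra.Matrix.GeneralLinearGroup.Card

/-!
The stabiliser of a trio: `2^6 : (GL(3,2) × S3)` (`S1558`).
-/

set_option autoImplicit false
set_option linter.constructorNameAsVariable false
set_option linter.unusedVariables false
set_option linter.style.longLine false

namespace Cfsg.Agent.Lib.GolayTrioStab

open Cfsg Cfsg.Agent.Lib.Golay Cfsg.Agent.Lib.GolayCoset
open scoped Pointwise

/-! ### the three tetrads and the dual code words -/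

def bm (j : Fin 3) : ℕ := [8388615, 8405001, 8519690].getD j 0
def cm (i : Fin 3) : ℕ := [10305542, 13062145, 1302533].getD i 0

/-- parity of the intersection with the `i`-th dual code word -/
def F (i : Fin 3) (x : Finset GolayPt) : ZMod 2 := ((mset (cm i) ∩ x).card : ZMod 2)

theorem F_add (i : Fin 3) (x y : Finset GolayPt) : F i (symmDiff x y) = F i x + F i y := by
  unfold F
  have h1 : mset (cm i) ∩ symmDiff x y = symmDiff (mset (cm i) ∩ x) (mset (cm i) ∩ y) := by
    ext a; simp only [Finset.mem_inter, Finset.mem_symmDiff]; tauto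
  have h2 := card_symmDiff_add (mset (cm i) ∩ x) (mset (cm i) ∩ y)
  rw [h1, ← Nat.cast_add, ← h2, Nat.cast_add, Nat.cast_mul]
  have : ((2 : ℕ) : ZMod 2) = 0 := rfl
  rw [this, zero_mul, add_zero]

theorem cm_code (i : Fin 3) : mset (cm i) ∈ CS := by
  fin_cases i <;> exact (mset_mem_supports_iff (by decide +kernel)).mpr (by decide +kernel)

theorem F_code (i : Fin 3) {x : Finset GolayPt} (hx : x ∈ CS) : F i x = 0 := by
  unfold F
  have h := even_inter (cm_code i) hx
  rw [ZMod.natCast_eq_zero_iff]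
  exact Nat.dvd_of_mod_eq_zero h

theorem F_empty (i : Fin 3) : F i ∅ = 0 := F_code i empty_mem

theorem F_eq_of_mod {i : Fin 3} {x y : Finset GolayPt} (h : symmDiff x y ∈ CS) : F i x = F i y := by
  have h1 := F_code i h
  rw [F_add] at h1
  exact CharTwo.add_eq_zero.mp h1

theorem F_bm (i j : Fin 3) : F i (mset (bm j)) = if i = j then 1 else 0 := by
  unfold F
  have h : ∀ i j : Fin 3, pc (Nat.land (cm i) (bm j)) % 2 = if i = j then 1 else 0 := by decide +kernel
  have h1 : (mset (cm i) ∩ mset (bm j)).card = pc (Nat.land (cm i) (bm j)) := card_inter_land _ _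
  rw [h1, ← ZMod.natCast_mod, h i j]
  split_ifs <;> rfl

/-- combination of the three tetrads -/
def comb (v : Fin 3 → Bool) : ℕ :=
  Nat.xor (cond (v 0) (bm 0) 0) (Nat.xor (cond (v 1) (bm 1) 0) (cond (v 2) (bm 2) 0))

def D (v : Fin 3 → Bool) : Finset GolayPt := mset (comb v)

def part (v : Fin 3 → Bool) (j : Fin 3) : Finset GolayPt := mset (cond (v j) (bm j) 0)

theorem D_eq (v : Fin 3 → Bool) : D v = symmDiff (part v 0) (symmDiff (part v 1) (part v 2)) := by
  unfold D comb part
  have e : ∀ x y : ℕ, Nat.xor x y = x ^^^ y := fun _ _ => rfl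
  rw [e, e, mset_xor, mset_xor]

theorem part_eq (v : Fin 3 → Bool) (j : Fin 3) : part v j = if v j = true then mset (bm j) else ∅ := by
  unfold part
  cases h : v j with
  | true => simp
  | false => simp [mset_zero]

theorem F_part (i : Fin 3) (v : Fin 3 → Bool) (j : Fin 3) (h : Equiv.Perm GolayPt) :
    F i (h • part v j) = if v j = true then F i (h • mset (bm j)) else 0 := by
  rw [part_eq]
  split_ifs
  · rfl
  · rw [Finset.smul_finset_empty, F_empty]

theorem F_D (i : Fin 3) (v : Fin 3 → Bool) (h : Equiv.Perm GolayPt) :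
    F i (h • D v) = ∑ k, (if v k = true then F i (h • mset (bm k)) else 0) := by
  rw [D_eq, smul_symmDiff', smul_symmDiff', F_add, F_add, F_part, F_part, F_part, Fin.sum_univ_three]
  ring

theorem F_D_one (i : Fin 3) (v : Fin 3 → Bool) : F i (D v) = if v i = true then 1 else 0 := by
  have h := F_D i v 1
  rw [one_smul] at h
  rw [h]
  simp only [one_smul, F_bm]
  revert i v
  decide +kernel

/-- the space spanned by the tetrads modulo the code -/
def U : Set (Finset GolayPt) := {x | ∃ v : Fin 3 → Bool, symmDiff x (D v) ∈ CS}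

theorem comb_xor : ∀ v w : Fin 3 → Bool, Nat.xor (comb v) (comb w) = comb (fun j => xor (v j) (w j)) := by
  decide +kernel

theorem D_add (v w : Fin 3 → Bool) : symmDiff (D v) (D w) = D (fun j => xor (v j) (w j)) := by
  unfold D
  rw [← comb_xor]
  exact (mset_xor _ _).symm

theorem U_add {x y : Finset GolayPt} (hx : x ∈ U) (hy : y ∈ U) : symmDiff x y ∈ U := by
  obtain ⟨v, hv⟩ := hx
  obtain ⟨w, hw⟩ := hy
  refine ⟨fun j => xor (v j) (w j), ?_⟩
  rw [← D_add, show symmDiff (symmDiff x y) (symmDiff (D v) (D w)) = symmDiff (symmDiff x (D v)) (symmDiff y (D w)) from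
    symmDiff_symmDiff_symmDiff_comm _ _ _ _]
  exact symmDiff_mem_supports hv hw

theorem U_code {x : Finset GolayPt} (hx : x ∈ CS) : x ∈ U := by
  refine ⟨fun _ => false, ?_⟩
  have : D (fun _ => false) = ∅ := by
    unfold D; rw [← mset_zero]; congr 1
  rw [this]
  have h2 : symmDiff x ∅ = x := symmDiff_bot x
  rw [h2]; exact hx

/-- maps of `M24` preserving the three generators up to `U` preserve `U` -/
theorem smul_mem_U {g : Equiv.Perm GolayPt} (hg : g ∈ M24) (hb : ∀ j, g • mset (bm j) ∈ U) {x : Finset GolayPt}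
    (hx : x ∈ U) : g • x ∈ U := by
  obtain ⟨v, hv⟩ := hx
  have h1 : x = symmDiff (symmDiff x (D v)) (D v) := by rw [symmDiff_symmDiff_cancel_right]
  have hp : ∀ j, g • part v j ∈ U := by
    intro j
    rw [part_eq]
    split_ifs
    · exact hb j
    · rw [Finset.smul_finset_empty]; exact U_code empty_mem
  rw [h1, smul_symmDiff']
  apply U_add
  · exact U_code ((smul_mem_supports_iff hg _).mpr hv)
  · rw [D_eq, smul_symmDiff', smul_symmDiff']
    exact U_add (hp 0) (U_add (hp 1) (hp 2))

theorem smul_mem_U_iff {g : Equiv.Perm GolayPt} (hg : g ∈ M24) (hb : ∀ j, g • mset (bm j) ∈ U) {x : Finset GolayPt} :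
    g • x ∈ U ↔ x ∈ U := by
  have hsub : g • U ⊆ U := by
    rintro _ ⟨y, hy, rfl⟩; exact smul_mem_U hg hb hy
  have heq : g • U = U := Set.eq_of_subset_of_ncard_le hsub (le_of_eq (ncard_smul_set g U).symm) (Set.toFinite _)
  refine ⟨fun h => ?_, fun h => smul_mem_U hg hb h⟩
  rw [← heq] at h
  exact Set.smul_mem_smul_set_iff.mp h

/-! ### the standard trio and the subgroup preserving `U` -/

def T0 : Finset (Finset GolayPt) := trDec trY0

theorem T0_mem : T0 ∈ trios := trDec_mem trY0_ok

theorem T0_eq : T0 = {mset 8536111, mset 6889680, mset 1351424} := by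
  unfold T0
  rw [trDec_eq trY0_ok]
  have h1 : trA trY0 = 1351424 := by decide +kernel
  have h2 : trB trY0 = 6889680 := by decide +kernel
  have h3 : third (trA trY0) (trB trY0) = 8536111 := by decide +kernel
  rw [h3, h1, h2, perm3_4]

def KU : Subgroup (Equiv.Perm GolayPt) where
  carrier := {g | g ∈ SK T0 ∧ ∀ x, g • x ∈ U ↔ x ∈ U}
  one_mem' := ⟨(SK T0).one_mem, fun x => by rw [one_smul]⟩
  mul_mem' := fun {a b} ha hb => ⟨(SK T0).mul_mem ha.1 hb.1, fun x => by rw [mul_smul, ha.2, hb.2]⟩
  inv_mem' := fun {a} ha => ⟨(SK T0).inv_mem ha.1, fun x => by rw [← ha.2, smul_inv_smul]⟩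

def anyB (f : Bool → Bool) : Bool := cond (f true) true (f false)

theorem anyB_iff {f : Bool → Bool} (h : anyB f = true) : ∃ b, f b = true := by
  unfold anyB at h
  cases h1 : f true with
  | true => exact ⟨true, h1⟩
  | false => rw [h1, cond_false] at h; exact ⟨false, h⟩

def chkU (y : ℕ) : Bool :=
  anyB fun v0 => anyB fun v1 => anyB fun v2 => isCode (Nat.xor y (comb ![v0, v1, v2]))

theorem chkU_spec {y : ℕ} (h : chkU y = true) : mset y ∈ U := by
  obtain ⟨v0, h⟩ := anyB_iff h
  obtain ⟨v1, h⟩ := anyB_iff h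
  obtain ⟨v2, h⟩ := anyB_iff h
  refine ⟨![v0, v1, v2], ?_⟩
  unfold D
  have e : mset (Nat.xor y (comb ![v0, v1, v2])) = symmDiff (mset y) (mset (comb ![v0, v1, v2])) := mset_xor _ _
  rw [← e]
  exact (mset_mem_supports_iff (lt_of_isCode' h)).mpr h

/-- kernel check for membership in `KU` -/
def kuChk (c : ℕ) : Bool :=
  cond (inM c) (cond (Nat.beq (trKey (Nat.add (imgM c (trA trY0)) (Nat.mul (imgM c (trB trY0)) 16777216))) (trKey trY0))
    (cond (chkU (imgM c (bm 0))) (cond (chkU (imgM c (bm 1))) (chkU (imgM c (bm 2))) false) false) false) false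

theorem kuChk_spec {c : ℕ} (h : kuChk c = true) : toPerm c ∈ KU := by
  unfold kuChk at h
  simp only [cond_false_eq] at h
  obtain ⟨h1, h2, h3, h4, h5⟩ := h
  have hv := valid_of_inM h1
  obtain ⟨p1, p2⟩ := trA_pair (b := imgM c (trB trY0)) (imgM_lt hv (trA trY0))
  have hS : toPerm c ∈ SK T0 := by
    refine ⟨toPerm_mem_M24 h1, ?_⟩
    show toPerm c • trDec trY0 = trDec trY0
    rw [← trDec_smul hv p1 p2]
    apply trKey_dec (trP_act h1 p1 p2 trY0_ok) trY0_ok
    exact Nat.eq_of_beq_eq_true h2
  have hb : ∀ j, toPerm c • mset (bm j) ∈ U := by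
    intro j
    rw [toPerm_smul_mset hv]
    fin_cases j
    · exact chkU_spec h3
    · exact chkU_spec h4
    · exact chkU_spec h5
  exact ⟨hS, fun x => smul_mem_U_iff hS.1 hb⟩

theorem card_level_le {K L : Subgroup (Equiv.Perm GolayPt)} {tr pre : List ℕ} {b orb : ℕ}
    (hl : lvlOK tr pre b orb = true) (hpre : ∀ i ∈ pre, i < 24) (hb : b < 24)
    (hK : ∀ c ∈ tr, toPerm c ∈ K)
    (hL : ∀ g ∈ K, (∀ i ∈ pre, g (pt i) = pt i) → g ∈ L) :
    pc orb * Nat.card ↥(L ⊓ MulAction.stabilizer (Equiv.Perm GolayPt) (pt b)) ≤ Nat.card L := by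
  have h := card_eq_mul_inf_stabilizer L (pt b) {x | ∃ g ∈ L, g (pt b) = x}
    (fun g hg => ⟨g, hg, rfl⟩) (fun x hx => hx)
  rw [h]
  apply Nat.mul_le_mul_right
  rw [← card_mset, ← Set.ncard_coe_finset]
  apply Set.ncard_le_ncard _ (Set.toFinite _)
  intro x hx
  obtain ⟨c, hc, h1, h2, h3⟩ := lvl_exists hl hpre hb (Finset.mem_coe.mp hx)
  exact ⟨toPerm c, hL _ (hK c hc) h2, h3⟩

def tk0 : List ℕ := [13475743662566997531168353198085873, 62485560852349147681678502740408503, 96804478660785863245433211673172993, 134239775509062830623760022067797006, 178178897577494905868906447875818189, 219788248318602942900480590276690017, 265213134197440483627408375441232493, 314584785690191552781809300989499088, 354966319618994766403432337499565706, 373934810728299120563018925134422668, 445382132622308939657564520105485812, 460843664134192204017677700763625044, 499990201816006655581211910528674063, 569874281090185054764381409960989286, 594852198417726105580616627351224439, 650581622297882230086348293303576140, 688468189598192562397508962571506822,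 735585209845112478843572933051472993, 766075547768080901427439952113017487, 790668470584725048072938411673524469, 847887996778435727551549390191864210, 894507713583589160025179751157809286, 933682191264677649611582014805874823, 984818244535754528103549039458486304]
theorem tkl0 : lvlOK tk0 [] 23 16777215 = true := by decide +kernel
theorem tkc0 : tk0.all kuChk = true := by decide +kernel
theorem tkp0 : pc 16777215 = 24 := by decide +kernel
def tk1 : List ℕ := [984818244535754528103549039458486304, 971588647847066506317984703820433409, 964645997502055692553748722484806658, 977015613020731562210692273196274755, 982102541457447364314961621680686533, 980950166605070340976236404940111982, 966219117164596884492702534633437265]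
theorem tkl1 : lvlOK tk1 [23] 0 147503 = true := by decide +kernel
theorem tkc1 : tk1.all kuChk = true := by decide +kernel
theorem tkp1 : pc 147503 = 7 := by decide +kernel
def tk2 : List ℕ := [984818244535754528103549039458486304, 981695985895164599322695527184892992, 966281054944768319766654144551106656, 964037637719969835169272317563323552, 970006959865701879310435553789906368, 979567480883476122109250722269828640]
theorem tkl2 : lvlOK tk2 [23, 0] 1 147502 = true := by decide +kernel
theorem tkc2 : tk2.all kuChk = true := by decide +kernel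
theorem tkp2 : pc 147502 = 6 := by decide +kernel
def tk3 : List ℕ := [984818244535754528103549039458486304, 964073805886567692774798621412591648, 963835842514064438119990511449606176, 971333881845163596802180201211004960]
theorem tkl3 : lvlOK tk3 [23, 0, 1] 3 147496 = true := by decide +kernel
theorem tkc3 : tk3.all kuChk = true := by decide +kernel
theorem tkp3 : pc 147496 = 4 := by decide +kernel
def tk4 : List ℕ := [984818244535754528103549039458486304, 965128854020860192151391391390468128, 963721886883755259286232606933354528, 979121071158219704299181131031480352, 968708902336673183175954409307867168, 967812279691448225500382947153381408, 971592882964418941354553515258775584, 970499966350631336865513127433832480, 976448692869377735270425038196672544, 981818691054096003685363657089320992, 972512676110088067912772961567868960, 966182099583441531322624363496310816, 983548720921252936276249910206105632, 975346028712660580592452217730074656, 980224387687010295957922729495201824, 961365507626256404119956257276790816]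
theorem tkl4 : lvlOK tk4 [23, 0, 1, 3] 4 8241104 = true := by decide +kernel
theorem tkc4 : tk4.all kuChk = true := by decide +kernel
theorem tkp4 : pc 8241104 = 16 := by decide +kernel

theorem card_KU_ge : 64512 ≤ Nat.card KU := by
  have h0 := card_level_le (K := KU) (L := KU) tkl0 (by decide) (by norm_num)
    (fun c hc => kuChk_spec (List.all_eq_true.mp tkc0 c hc)) (fun g hg h => hg)
  rw [tkp0] at h0
  have h1 := card_level_le (K := KU) (L := KU ⊓ St 23) tkl1 (by decide) (by norm_num)
    (fun c hc => kuChk_spec (List.all_eq_true.mp tkc1 c hc)) (fun g hg h => ⟨hg, h 23 (by decide)⟩)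
  rw [tkp1] at h1
  have h2 := card_level_le (K := KU) (L := KU ⊓ St 23 ⊓ St 0) tkl2 (by decide) (by norm_num)
    (fun c hc => kuChk_spec (List.all_eq_true.mp tkc2 c hc)) (fun g hg h => ⟨⟨hg, h 23 (by decide)⟩, h 0 (by decide)⟩)
  rw [tkp2] at h2
  have h3 := card_level_le (K := KU) (L := KU ⊓ St 23 ⊓ St 0 ⊓ St 1) tkl3 (by decide) (by norm_num)
    (fun c hc => kuChk_spec (List.all_eq_true.mp tkc3 c hc)) (fun g hg h => ⟨⟨⟨hg, h 23 (by decide)⟩, h 0 (by decide)⟩, h 1 (by decide)⟩)
  rw [tkp3] at h3
  have h4 := card_level_le (K := KU) (L := KU ⊓ St 23 ⊓ St 0 ⊓ St 1 ⊓ St 3) tkl4 (by decide) (by norm_num)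
    (fun c hc => kuChk_spec (List.all_eq_true.mp tkc4 c hc)) (fun g hg h => ⟨⟨⟨⟨hg, h 23 (by decide)⟩, h 0 (by decide)⟩, h 1 (by decide)⟩, h 3 (by decide)⟩)
  rw [tkp4] at h4
  have h5 : 1 ≤ Nat.card ↥(KU ⊓ St 23 ⊓ St 0 ⊓ St 1 ⊓ St 3 ⊓ St 4) := Nat.card_pos
  generalize Nat.card ↥(KU ⊓ St 23 ⊓ St 0 ⊓ St 1 ⊓ St 3 ⊓ St 4) = n5 at *
  generalize Nat.card ↥(KU ⊓ St 23 ⊓ St 0 ⊓ St 1 ⊓ St 3) = n4 at *
  generalize Nat.card ↥(KU ⊓ St 23 ⊓ St 0 ⊓ St 1) = n3 at *
  generalize Nat.card ↥(KU ⊓ St 23 ⊓ St 0) = n2 at *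
  generalize Nat.card ↥(KU ⊓ St 23) = n1 at *
  generalize Nat.card ↥KU = n0 at *
  omega

theorem card_SK_T0 : Nat.card (SK T0) = 64512 := by
  have h := card_SK_mul (A := trios) T0 (fun g hg => smul_mem_trios hg T0_mem) (fun z hz => trio_transitive T0_mem hz)
  rw [natCard_M24, ncard_trios] at h
  omega

theorem KU_eq : KU = SK T0 := by
  apply Subgroup.eq_of_le_of_card_ge
  · exact fun g hg => hg.1
  · rw [card_SK_T0]; exact card_KU_ge

theorem smul_U_iff {g : Equiv.Perm GolayPt} (hg : g ∈ SK T0) (x : Finset GolayPt) : g • x ∈ U ↔ x ∈ U := by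
  rw [← KU_eq] at hg
  exact hg.2 x

theorem bm_mem_U (j : Fin 3) : mset (bm j) ∈ U := by
  fin_cases j <;> exact chkU_spec (by decide +kernel)

/-! ### the homomorphism to `GL(3,2)` -/

abbrev K0 := MulAction.stabilizer M24 T0

theorem K0_SK (g : K0) : g.1.1 ∈ SK T0 := ⟨g.1.2, g.2⟩

def matHom : K0 →* Matrix (Fin 3) (Fin 3) (ZMod 2) where
  toFun g := Matrix.of fun i j => F i (g.1.1 • mset (bm j))
  map_one' := by
    ext i j
    rw [Matrix.of_apply, Matrix.one_apply]
    show F i ((1 : Equiv.Perm GolayPt) • mset (bm j)) = _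
    rw [one_smul, F_bm]
  map_mul' := fun h g => by
    ext i j
    rw [Matrix.of_apply, Matrix.mul_apply]
    show F i ((h.1.1 * g.1.1) • mset (bm j)) = ∑ k, F i (h.1.1 • mset (bm k)) * F k (g.1.1 • mset (bm j))
    obtain ⟨v, hv⟩ := (smul_U_iff (K0_SK g) _).mpr (bm_mem_U j)
    have h1 : symmDiff (h.1.1 • (g.1.1 • mset (bm j))) (h.1.1 • D v) ∈ CS := by
      rw [← smul_symmDiff']
      exact (smul_mem_supports_iff h.1.2 _).mpr hv
    rw [mul_smul, F_eq_of_mod h1, F_D]
    apply Finset.sum_congr rfl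
    intro k _
    rw [F_eq_of_mod hv, F_D_one]
    split_ifs
    · rw [mul_one]
    · rw [mul_zero]

theorem matHom_apply (g : K0) (i j : Fin 3) : matHom g i j = F i (g.1.1 • mset (bm j)) := rfl

noncomputable def eT : ↥T0 ≃ Fin 3 := T0.equivFinOfCardEq T0_mem.1

noncomputable def Phi : K0 →* GL (Fin 3) (ZMod 2) × Equiv.Perm (Fin 3) :=
  MonoidHom.prod matHom.toHomUnits (eT.permCongrHom.toMonoidHom.comp (famRes T0))

theorem mem_ker_Phi {g : K0} : g ∈ Phi.ker ↔ (∀ i j, F i (g.1.1 • mset (bm j)) = if i = j then 1 else 0) ∧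
    ∀ t ∈ T0, g.1.1 • t = t := by
  rw [MonoidHom.mem_ker]
  constructor
  · intro h
    have h1 : matHom.toHomUnits g = 1 := congrArg Prod.fst h
    have h2 : eT.permCongrHom (famRes T0 g) = 1 := congrArg Prod.snd h
    constructor
    · intro i j
      have h3 : matHom g = 1 := congrArg Units.val h1
      have h4 := congrFun (congrFun h3 i) j
      rw [Matrix.one_apply] at h4
      exact h4
    · intro t ht
      have h3 : famRes T0 g = 1 := by
        apply eT.permCongrHom.injective
        rw [h2, map_one]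
      have := congrArg (fun e : Equiv.Perm ↥T0 => ((e ⟨t, ht⟩ : ↥T0) : Finset GolayPt)) h3
      exact this
  · rintro ⟨h1, h2⟩
    apply Prod.ext
    · apply Units.ext
      ext i j
      show F i (g.1.1 • mset (bm j)) = (1 : Matrix (Fin 3) (Fin 3) (ZMod 2)) i j
      rw [h1, Matrix.one_apply]
    · show eT.permCongrHom (famRes T0 g) = 1
      have : famRes T0 g = 1 := by
        apply Equiv.ext; intro t; apply Subtype.ext; exact h2 t.1 t.2
      rw [this, map_one]

/-! ### the kernel -/

/-- the kernel as a group of permutations -/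
noncomputable def NT : Subgroup (Equiv.Perm GolayPt) := Phi.ker.map (M24.subtype.comp K0.subtype)

theorem mem_NT {g : Equiv.Perm GolayPt} : g ∈ NT ↔ g ∈ M24 ∧ (∀ i j, F i (g • mset (bm j)) = if i = j then 1 else 0) ∧
    ∀ t ∈ T0, g • t = t := by
  unfold NT
  rw [Subgroup.mem_map]
  constructor
  · rintro ⟨k, hk, rfl⟩
    exact ⟨k.1.2, mem_ker_Phi.mp hk⟩
  · rintro ⟨h1, h2, h3⟩
    have hT : g • T0 = T0 := by
      apply Finset.eq_of_subset_of_card_le
      · intro x hx
        rw [Finset.mem_smul_finset] at hx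
        obtain ⟨y, hy, rfl⟩ := hx
        rw [h3 y hy]; exact hy
      · have : g • T0 = T0.image (fun a => g • a) := rfl
        rw [this, Finset.card_image_of_injective _ (MulAction.injective _)]
    exact ⟨⟨⟨g, h1⟩, hT⟩, mem_ker_Phi.mpr ⟨h2, h3⟩, rfl⟩

theorem K0_inj : Function.Injective (M24.subtype.comp K0.subtype) := by
  intro a b h
  exact Subtype.ext (Subtype.ext h)

theorem card_NT_eq : Nat.card NT = Nat.card Phi.ker :=
  (Nat.card_congr (Phi.ker.equivMapOfInjective _ K0_inj).toEquiv).symm

def ntChk (c : ℕ) : Bool :=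
  cond (inM c) (cond (Nat.beq (imgM c 8536111) 8536111) (cond (Nat.beq (imgM c 6889680) 6889680)
    (cond (Nat.beq (imgM c 1351424) 1351424)
      (([0, 1, 2] : List (Fin 3)).all fun i => ([0, 1, 2] : List (Fin 3)).all fun j =>
        Nat.beq (Nat.mod (pc (Nat.land (cm i) (imgM c (bm j)))) 2) (cond (Nat.beq i.val j.val) 1 0)) false) false) false) false

theorem ntChk_spec {c : ℕ} (h : ntChk c = true) : toPerm c ∈ NT := by
  unfold ntChk at h
  rw [cond_false_eq, cond_false_eq, cond_false_eq, cond_false_eq] at h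
  obtain ⟨h1, h2, h3, h4, h5⟩ := h
  have hv := valid_of_inM h1
  rw [mem_NT]
  refine ⟨toPerm_mem_M24 h1, ?_, ?_⟩
  · intro i j
    have hmem : ∀ k : Fin 3, k ∈ ([0, 1, 2] : List (Fin 3)) := by decide
    have h6 := Nat.eq_of_beq_eq_true (List.all_eq_true.mp (List.all_eq_true.mp h5 i (hmem i)) j (hmem j))
    unfold F
    rw [toPerm_smul_mset hv]
    have h7 : (mset (cm i) ∩ mset (imgM c (bm j))).card = pc (Nat.land (cm i) (imgM c (bm j))) := card_inter_land _ _
    rw [h7, ← ZMod.natCast_mod]
    have h8 : pc (Nat.land (cm i) (imgM c (bm j))) % 2 = cond (Nat.beq i.val j.val) 1 0 := h6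
    rw [h8]
    by_cases hij : i = j
    · subst hij
      rw [Nat.beq_refl, cond_true, if_pos rfl]; rfl
    · have : Nat.beq i.val j.val = false := by
        rw [← Bool.not_eq_true, Nat.beq_eq]; exact fun h => hij (Fin.ext h)
      rw [this, cond_false, if_neg hij]; rfl
  · intro t ht
    rw [T0_eq] at ht
    simp only [Finset.mem_insert, Finset.mem_singleton] at ht
    rcases ht with rfl | rfl | rfl
    · rw [toPerm_smul_mset hv, Nat.eq_of_beq_eq_true h2]
    · rw [toPerm_smul_mset hv, Nat.eq_of_beq_eq_true h3]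
    · rw [toPerm_smul_mset hv, Nat.eq_of_beq_eq_true h4]

def nt1 : List ℕ := [984818244535754528103549039458486304, 70961312958146288193683039871075042, 154048213725610726826635563622962734, 112498419363478465068426720085990401, 735577844449709145731399745955477605, 29429271468893102754624345968411735, 610957654620063647451999179135534243, 237116076252092615386195900911128017]
def nt2 : List ℕ := [984818244535754528103549039458486304, 972512676110088067912772961567868960, 980224387687010295957922729495201824, 963721886883755259286232606933354528, 965128854020860192151391391390468128, 983548720921252936276249910206105632, 976448692869377735270425038196672544, 961365507626256404119956257276790816]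
theorem nt1_lvl : lvlOK nt1 [] 23 8536111 = true := by decide +kernel
theorem nt2_lvl : lvlOK nt2 [23] 4 6889680 = true := by decide +kernel
theorem nt1_chk : nt1.all ntChk = true := by decide +kernel
theorem nt2_chk : nt2.all ntChk = true := by decide +kernel
theorem nt_sq : (nt1.all fun a => nt2.all fun b => Nat.beq (mulC (mulC a b) (mulC a b)) idC) = true := by decide +kernel

/-- points of the first octad are separated by the three tetrads -/
theorem sep_aux : (allLt 24 fun i => allLt 24 fun j => cond (tb 8536111 i) (cond (tb 8536111 j)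
    (cond (Nat.beq i j) true (cond (xor (tb (bm 0) i) (tb (bm 0) j)) true (cond (xor (tb (bm 1) i) (tb (bm 1) j)) true
      (xor (tb (bm 2) i) (tb (bm 2) j))))) true) true) = true := by decide +kernel

theorem mem_mset_tb' {m : ℕ} {p : GolayPt} : p ∈ mset m ↔ tb m (ix p) = true := by
  rw [mem_mset, tb_iff]

theorem sep {p q : GolayPt} (hp : p ∈ mset 8536111) (hq : q ∈ mset 8536111)
    (h : ∀ j : Fin 3, p ∈ mset (bm j) ↔ q ∈ mset (bm j)) : p = q := by
  have h1 := allLt_iff.mp (allLt_iff.mp sep_aux (ix p) (ix_lt p)) (ix q) (ix_lt q)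
  rw [mem_mset_tb'.mp hp, mem_mset_tb'.mp hq, cond_true, cond_true] at h1
  have h2 : ∀ j : Fin 3, tb (bm j) (ix p) = tb (bm j) (ix q) := by
    intro j
    have := h j
    rw [mem_mset_tb', mem_mset_tb'] at this
    exact Bool.eq_iff_iff.mpr this
  rw [h2 0, h2 1, h2 2, Bool.xor_self, Bool.xor_self, Bool.xor_self] at h1
  simp only [cond_false] at h1
  cases h3 : Nat.beq (ix p) (ix q) with
  | true => exact ix_inj.mp (Nat.eq_of_beq_eq_true h3)
  | false => rw [h3, cond_false] at h1; exact absurd h1 (by decide)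

theorem bm_sub (j : Fin 3) : mset (bm j) ⊆ mset 8536111 := by
  rw [mset_subset_iff (by fin_cases j <;> decide +kernel) (by norm_num)]
  fin_cases j <;> decide +kernel

theorem pt23_bm (j : Fin 3) : pt 23 ∈ mset (bm j) := by
  rw [mem_mset_tb', ix_pt (by norm_num)]
  fin_cases j <;> decide +kernel

theorem o1_mem : mset 8536111 ∈ T0 := by rw [T0_eq]; simp
theorem o2_mem : mset 6889680 ∈ T0 := by rw [T0_eq]; simp

theorem NT_fix {g : Equiv.Perm GolayPt} (hg : g ∈ NT) (h23 : g (pt 23) = pt 23) : g ∈ OctPt (mset 8536111) := by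
  obtain ⟨h1, h2, h3⟩ := mem_NT.mp hg
  have ho1 := h3 _ o1_mem
  have hSK : g ∈ SK T0 := by
    obtain ⟨k, -, rfl⟩ := Subgroup.mem_map.mp hg
    exact K0_SK k
  have hb : ∀ j, g • mset (bm j) = mset (bm j) := by
    intro j
    obtain ⟨v, hv⟩ := (smul_U_iff hSK _).mpr (bm_mem_U j)
    have hvj : ∀ i, v i = decide (i = j) := by
      intro i
      have e1 := F_eq_of_mod (i := i) hv
      rw [h2, F_D_one] at e1
      by_cases hij : i = j
      · rw [if_pos hij] at e1
        rw [decide_eq_true hij]
        by_contra hne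
        rw [if_neg hne] at e1
        exact absurd e1 (by decide)
      · rw [if_neg hij] at e1
        rw [decide_eq_false hij]
        by_contra hne
        rw [if_pos (by simpa using hne)] at e1
        exact absurd e1 (by decide)
    have hD : D v = mset (bm j) := by
      have : v = fun i => decide (i = j) := funext hvj
      rw [this]
      unfold D
      congr 1
      have hh : ∀ j : Fin 3, comb (fun i => decide (i = j)) = bm j := by decide +kernel
      exact hh j
    rw [hD] at hv
    -- the symmetric difference is a code word inside `o1` missing the point 23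
    have hsub : symmDiff (g • mset (bm j)) (mset (bm j)) ⊆ (mset 8536111).erase (pt 23) := by
      intro x hx
      rw [Finset.mem_symmDiff] at hx
      rw [Finset.mem_erase]
      have hg23 : pt 23 ∈ g • mset (bm j) := by
        have := (smul_mem_smul g _ _).mpr (pt23_bm j)
        rwa [h23] at this
      have hgsub : g • mset (bm j) ⊆ mset 8536111 := by
        rw [← ho1]; exact Finset.smul_finset_subset_smul_finset (bm_sub j)
      constructor
      · rintro rfl
        rcases hx with hx | hx
        · exact hx.2 (pt23_bm j)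
        · exact hx.2 hg23
      · rcases hx with hx | hx
        · exact hgsub hx.1
        · exact bm_sub j hx.1
    have hcard := Finset.card_le_card hsub
    have ho8 : (mset 8536111).card = 8 := oct0_mem.2
    rw [Finset.card_erase_of_mem (bm_sub 0 (pt23_bm 0)), ho8] at hcard
    have hcc := card_cases hv
    have h0 : (symmDiff (g • mset (bm j)) (mset (bm j))).card = 0 := by omega
    rw [Finset.card_eq_zero] at h0
    exact symmDiff_eq_bot.mp h0
  rw [mem_OctPt]
  refine ⟨h1, fun p hp => ?_⟩
  have hgp : g p ∈ mset 8536111 := by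
    rw [mem_iff_of_smul_eq ho1]; exact hp
  exact sep hgp hp (fun j => mem_iff_of_smul_eq (hb j) p)

theorem NT_fix_two {g : Equiv.Perm GolayPt} (hg : g ∈ NT) (h23 : g (pt 23) = pt 23) (h4 : g (pt 4) = pt 4) : g = 1 :=
  OctPt_fix_eq_one oct0_mem (p := pt 4) (by decide +kernel) (NT_fix hg h23) h4

theorem NT_orb {g : Equiv.Perm GolayPt} (hg : g ∈ NT) {t : Finset GolayPt} (ht : t ∈ T0) {x : GolayPt} (hx : x ∈ t) :
    g x ∈ t := by
  rw [mem_iff_of_smul_eq ((mem_NT.mp hg).2.2 t ht)]; exact hx

theorem pt23_o1 : pt 23 ∈ mset 8536111 := bm_sub 0 (pt23_bm 0)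
theorem pt4_o2 : pt 4 ∈ mset 6889680 := by rw [mem_mset_tb', ix_pt (by norm_num)]; decide +kernel

theorem card_NT : Nat.card NT = 64 := by
  rw [card_level (K := NT) (L := NT) nt1_lvl (by simp) (by norm_num)
      (fun c hc => ntChk_spec (List.all_eq_true.mp nt1_chk c hc)) (fun g hg _ => hg)
      (fun g hg => NT_orb hg o1_mem pt23_o1),
    card_level (K := NT) (L := NT ⊓ St 23) nt2_lvl (by decide) (by norm_num)
      (fun c hc => ntChk_spec (List.all_eq_true.mp nt2_chk c hc)) (fun g hg h => ⟨hg, h 23 (by decide)⟩)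
      (fun g hg => NT_orb hg.1 o2_mem pt4_o2)]
  have hbot : NT ⊓ St 23 ⊓ St 4 = ⊥ := by
    rw [eq_bot_iff]
    intro g hg
    rw [Subgroup.mem_bot]
    exact NT_fix_two hg.1.1 hg.1.2 hg.2
  rw [hbot, Subgroup.card_bot]
  decide +kernel

theorem NT_sq {g : Equiv.Perm GolayPt} (hg : g ∈ NT) : g * g = 1 := by
  obtain ⟨c1, hc1, m1, _, e1⟩ := lvl_exists (x := g (pt 23)) nt1_lvl (by simp) (by norm_num) (NT_orb hg o1_mem pt23_o1)
  have k1 := ntChk_spec (List.all_eq_true.mp nt1_chk c1 hc1)
  have hg1 : (toPerm c1)⁻¹ * g ∈ NT := NT.mul_mem (NT.inv_mem k1) hg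
  have f1 : ((toPerm c1)⁻¹ * g) (pt 23) = pt 23 := by
    rw [Equiv.Perm.mul_apply, ← e1, perm_inv_apply]
  obtain ⟨c2, hc2, m2, f2, e2⟩ := lvl_exists (x := ((toPerm c1)⁻¹ * g) (pt 4)) nt2_lvl (by decide) (by norm_num)
    (NT_orb hg1 o2_mem pt4_o2)
  have k2 := ntChk_spec (List.all_eq_true.mp nt2_chk c2 hc2)
  have h3 : (toPerm c2)⁻¹ * ((toPerm c1)⁻¹ * g) = 1 := by
    apply NT_fix_two (NT.mul_mem (NT.inv_mem k2) hg1)
    · rw [Equiv.Perm.mul_apply, f1]
      have := f2 23 (by decide)
      conv_lhs => rw [← this]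
      exact perm_inv_apply _ _
    · rw [Equiv.Perm.mul_apply, ← e2, perm_inv_apply]
  have h4 : g = toPerm c1 * toPerm c2 := by
    have : g = toPerm c1 * (toPerm c2 * ((toPerm c2)⁻¹ * ((toPerm c1)⁻¹ * g))) := by group
    rw [this, h3, mul_one]
  have v1 := valid_of_inM (lvl_mem nt1_lvl hc1).1
  have v2 := valid_of_inM (lvl_mem nt2_lvl hc2).1
  have v12 : valid (mulC c1 c2) = true := valid_mulC v1 v2
  rw [h4, ← toPerm_mulC v1 v2, ← toPerm_mulC v12 v12,
    Nat.eq_of_beq_eq_true (List.all_eq_true.mp (List.all_eq_true.mp nt_sq c1 hc1) c2 hc2), toPerm_idC]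

/-! ### surjectivity -/

theorem card_K0 : Nat.card K0 = 64512 := by
  rw [← card_SK_T0]
  apply Nat.card_congr
  exact ⟨fun g => ⟨g.1.1, g.1.2, g.2⟩, fun g => ⟨⟨g.1, g.2.1⟩, g.2.2⟩, fun _ => rfl, fun _ => rfl⟩

theorem card_target : Nat.card (GL (Fin 3) (ZMod 2) × Equiv.Perm (Fin 3)) = 1008 := by
  have : Fact (Nat.Prime 2) := ⟨Nat.prime_two⟩
  rw [Nat.card_prod, Matrix.card_GL_field, Nat.card_eq_fintype_card (α := Equiv.Perm (Fin 3)), Fintype.card_perm,
    Fintype.card_fin, Fin.prod_univ_three, ZMod.card]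
  norm_num [Nat.factorial]

theorem Phi_surjective : Function.Surjective Phi := by
  rw [← MonoidHom.range_eq_top]
  apply Subgroup.eq_top_of_card_eq
  have h1 : Nat.card K0 = Nat.card Phi.ker * Nat.card Phi.range := by
    rw [← Subgroup.index_ker, Subgroup.card_mul_index]
  rw [card_K0, ← card_NT_eq, card_NT] at h1
  rw [card_target]
  omega

theorem Phi_ker_sq {g : K0} (hg : g ∈ Phi.ker) : g * g = 1 := by
  apply K0_inj
  rw [map_mul, map_one]
  exact NT_sq (Subgroup.mem_map.mpr ⟨g, hg, rfl⟩)

/-! ### general trios -/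

/-- conjugation between stabilisers -/
def conjSt {T : Finset (Finset GolayPt)} (k : M24) (h : k.1 • T0 = T) : MulAction.stabilizer M24 T →* K0 where
  toFun g := ⟨k⁻¹ * g.1 * k, by
    show (k⁻¹ * g.1 * k).1 • T0 = T0
    have h1 : g.1.1 • T = T := g.2
    show (k.1⁻¹ * g.1.1 * k.1) • T0 = T0
    rw [mul_smul, mul_smul, h, h1, ← h, inv_smul_smul]⟩
  map_one' := by apply Subtype.ext; show k⁻¹ * 1 * k = 1; group
  map_mul' := fun a b => by
    apply Subtype.ext
    show k⁻¹ * (a.1 * b.1) * k = (k⁻¹ * a.1 * k) * (k⁻¹ * b.1 * k)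
    group

theorem conjSt_inj {T : Finset (Finset GolayPt)} (k : M24) (h : k.1 • T0 = T) : Function.Injective (conjSt k h) := by
  intro a b hab
  have h1 : k⁻¹ * a.1 * k = k⁻¹ * b.1 * k := congrArg Subtype.val hab
  apply Subtype.ext
  have h2 := mul_right_cancel h1
  exact mul_left_cancel h2

theorem conjSt_surj {T : Finset (Finset GolayPt)} (k : M24) (h : k.1 • T0 = T) : Function.Surjective (conjSt k h) := by
  intro b
  refine ⟨⟨k * b.1 * k⁻¹, ?_⟩, ?_⟩
  · have h1 : b.1.1 • T0 = T0 := b.2
    show (k.1 * b.1.1 * k.1⁻¹) • T = T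
    rw [mul_smul, mul_smul, ← h, inv_smul_smul, h1]
  · apply Subtype.ext
    show k⁻¹ * (k * b.1 * k⁻¹) * k = b.1
    group

theorem hasSwaps_trio {T : Finset (Finset GolayPt)} (hT : T ∈ trios) : HasSwaps T := by
  intro x hx y hy hxy
  have hd := hT.2.2 x hx y hy hxy
  obtain ⟨g, hg, h1, h2⟩ := octad_pair (hT.2.1 x hx) (hT.2.1 y hy) (hT.2.1 y hy) (hT.2.1 x hx) (by
    rw [Finset.inter_comm])
  refine ⟨g, hg, h1, h2, fun z hz hzx hzy => ?_⟩
  have hz' : z = (x ∪ y)ᶜ := by
    rw [trio_eq hT hx hy hxy] at hz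
    simp only [Finset.mem_insert, Finset.mem_singleton] at hz
    rcases hz with h | h | h
    · exact absurd h hzx
    · exact absurd h hzy
    · exact h
  rw [hz', Golay.smul_compl93, smul_union', h1, h2, Finset.union_comm]

theorem induces_of_swaps {S : Finset (Finset GolayPt)} (hS : HasSwaps S) (e : Equiv.Perm ↥S) :
    ∃ g ∈ M24, ∀ t : ↥S, g • (t : Finset GolayPt) = ((e t : ↥S) : Finset GolayPt) := by
  classical
  induction e using Equiv.Perm.swap_induction_on with
  | one => exact ⟨1, M24.one_mem, fun t => one_smul _ _⟩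
  | swap_mul f x y hxy ih =>
    obtain ⟨g, hg, hgt⟩ := ih
    obtain ⟨k, hk, k1, k2, k3⟩ := hS x.1 x.2 y.1 y.2 (fun h => hxy (Subtype.ext h))
    refine ⟨k * g, M24.mul_mem hk hg, fun t => ?_⟩
    rw [mul_smul, hgt, Equiv.Perm.mul_apply]
    by_cases h1 : f t = x
    · rw [h1, Equiv.swap_apply_left, k1]
    · by_cases h2 : f t = y
      · rw [h2, Equiv.swap_apply_right, k2]
      · rw [Equiv.swap_apply_of_ne_of_ne h1 h2]
        exact k3 _ (f t).2 (fun h => h1 (Subtype.ext h)) (fun h => h2 (Subtype.ext h))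

/-- `S1558` -/
theorem trio_stab (T : Finset (Finset GolayPt)) (hT : T ∈ trios) :
    (∀ e : Equiv.Perm ↥T, ∃ g ∈ MulAction.stabilizer M24 T, ∀ o : ↥T,
      (g : Equiv.Perm GolayPt) • (o : Finset GolayPt) = ((e o : ↥T) : Finset GolayPt)) ∧
    ∃ (N : Subgroup ↥(MulAction.stabilizer M24 T)) (_ : N.Normal), Nat.card N = 64 ∧ (∀ x ∈ N, x * x = 1) ∧
      Nonempty (↥(MulAction.stabilizer M24 T) ⧸ N ≃* GL (Fin 3) (ZMod 2) × Equiv.Perm (Fin 3)) := by
  refine ⟨?_, ?_⟩
  · intro e
    obtain ⟨g, hg, h⟩ := induces_of_swaps (hasSwaps_trio hT) e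
    exact ⟨⟨g, hg⟩, smul_eq_of_induces h, h⟩
  · obtain ⟨k, hk, h⟩ := trio_transitive T0_mem hT
    let Ψ : ↥(MulAction.stabilizer M24 T) →* GL (Fin 3) (ZMod 2) × Equiv.Perm (Fin 3) := Phi.comp (conjSt ⟨k, hk⟩ h)
    have hΨ : Function.Surjective Ψ := Phi_surjective.comp (conjSt_surj ⟨k, hk⟩ h)
    refine ⟨Ψ.ker, inferInstance, ?_, ?_, ⟨QuotientGroup.quotientKerEquivOfSurjective Ψ hΨ⟩⟩
    · have e1 : Nat.card ↥(MulAction.stabilizer M24 T) = 64512 := by
        rw [← card_K0]
        exact Nat.card_congr (Equiv.ofBijective _ ⟨conjSt_inj ⟨k, hk⟩ h, conjSt_surj ⟨k, hk⟩ h⟩)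
      have e2 : Nat.card ↥(MulAction.stabilizer M24 T) = Nat.card Ψ.ker * Nat.card Ψ.range := by
        rw [← Subgroup.index_ker, Subgroup.card_mul_index]
      rw [e1, MonoidHom.range_eq_top.mpr hΨ, Subgroup.card_top, card_target] at e2
      omega
    · intro x hx
      apply conjSt_inj ⟨k, hk⟩ h
      rw [map_mul, map_one]
      exact Phi_ker_sq hx

end Cfsg.Agent.Lib.GolayTrioStab
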