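import Mathlib
import Cfsg.Agent.Lib.GoldA95a
import Cfsg.Agent.Lib.PSUSylow

set_option autoImplicit false

/-!
# The Sylow `2`-subgroups of `SU₃(2ⁿ)` are TI (for the Goldschmidt groups, helper61)
-/

namespace Cfsg.Agent.Lib.GoldA95

open Matrix
open Cfsg Cfsg.Agent.Lib.ClUnitary Cfsg.Agent.Lib.HermMat Cfsg.Agent.Lib.UnTrans Cfsg.Agent.Lib.UnBridge
open Cfsg.Agent.Lib.PSUAut

variable {F : Type*} [Field F] {q : ℕ} [Fintype F] (hF : Fintype.card F = q ^ 2)

include hF

/-- expansion with respect to a hyperbolic pair and an orthogonal vector -/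
theorem expand3 {v y u : Fin 3 → F} (hv : hermForm 3 F q v v = 0) (hy : hermForm 3 F q y y = 0)
    (hvy : hermForm 3 F q v y = 1) (hu : u ≠ 0) (huv : hermForm 3 F q u v = 0) (huy : hermForm 3 F q u y = 0)
    (x : Fin 3 → F) : ∃ γ : F, x = hermForm 3 F q x y • v + hermForm 3 F q x v • y + γ • u := by
  have H := herm_HS 3 hF
  have hyv : hermForm 3 F q y v = 1 := by rw [H.herm, hvy, map_one]
  have hli : LinearIndependent F ![v, y, u] := by
    rw [Fintype.linearIndependent_iff]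
    intro g hg
    rw [Fin.sum_univ_three] at hg
    simp only [Matrix.cons_val_zero, Matrix.cons_val_one, Matrix.cons_val_two, Matrix.head_cons, Matrix.tail_cons,
      Matrix.cons_val] at hg
    have h0 := congrArg (fun z => hermForm 3 F q z y) hg
    have h1 := congrArg (fun z => hermForm 3 F q z v) hg
    simp only [H.add_left, H.smul_left, hv, hy, hvy, hyv, huv, huy, H.zero_left] at h0 h1
    have h2 : g 0 = 0 := by linear_combination h0
    have h3 : g 1 = 0 := by linear_combination h1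
    rw [h2, h3, zero_smul, zero_smul, zero_add, zero_add] at hg
    have h4 : g 2 = 0 := (smul_eq_zero.1 hg).resolve_right hu
    intro i
    fin_cases i
    · exact h2
    · exact h3
    · exact h4
  have hsp := hli.span_eq_top_of_card_eq_finrank (by simp)
  have hx : x ∈ Submodule.span F (Set.range ![v, y, u]) := by rw [hsp]; trivial
  obtain ⟨c, hc⟩ := (Submodule.mem_span_range_iff_exists_fun F).1 hx
  rw [Fin.sum_univ_three] at hc
  simp only [Matrix.cons_val_zero, Matrix.cons_val_one, Matrix.cons_val_two, Matrix.head_cons, Matrix.tail_cons,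
    Matrix.cons_val] at hc
  refine ⟨c 2, ?_⟩
  have h0 : hermForm 3 F q x y = c 0 := by
    rw [← hc]
    simp only [H.add_left, H.smul_left, hy, hvy, huy]
    ring
  have h1 : hermForm 3 F q x v = c 1 := by
    rw [← hc]
    simp only [H.add_left, H.smul_left, hv, hyv, huv]
    ring
  rw [h0, h1, hc]

/-- the action of a `2`-element fixing `v` on `u` -/
theorem act_u [CharP F 2] {v y u : Fin 3 → F} (hv : hermForm 3 F q v v = 0) (hy : hermForm 3 F q y y = 0)
    (hvy : hermForm 3 F q v y = 1) (hu : u ≠ 0) (huv : hermForm 3 F q u v = 0) (huy : hermForm 3 F q u y = 0)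
    {s : SU 3 F q} (hs : s.1.1 *ᵥ v = v) {k : ℕ} (hk : s ^ (2 ^ k) = 1) :
    ∃ c : F, s.1.1 *ᵥ u = u + c • v := by
  have H := herm_HS 3 hF
  obtain ⟨γ, hγ⟩ := expand3 hF hv hy hvy hu huv huy (s.1.1 *ᵥ u)
  have h1 : hermForm 3 F q (s.1.1 *ᵥ u) v = 0 := by
    have h0 := U_form s u v
    rwa [hs, huv] at h0
  rw [h1, zero_smul, add_zero] at hγ
  set α := hermForm 3 F q (s.1.1 *ᵥ u) y with hα
  have hpow : ∀ j : ℕ, ∃ c : F, (s ^ j).1.1 *ᵥ u = c • v + γ ^ j • u := by
    intro j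
    induction j with
    | zero => exact ⟨0, by rw [pow_zero, U_one_mulVec]; simp⟩
    | succ j ih =>
      obtain ⟨c, hc⟩ := ih
      refine ⟨c + γ ^ j * α, ?_⟩
      rw [pow_succ', U_mul_mulVec, hc, Matrix.mulVec_add, Matrix.mulVec_smul, Matrix.mulVec_smul, hs, hγ]
      module
  obtain ⟨c, hc⟩ := hpow (2 ^ k)
  rw [hk, U_one_mulVec] at hc
  have h2 : c = 0 := by
    have h3 := congrArg (fun z => hermForm 3 F q z y) hc
    simp only [H.add_left, H.smul_left, hvy, huy] at h3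
    linear_combination -h3
  rw [h2, zero_smul, zero_add] at hc
  have h4 : (γ ^ (2 ^ k) - 1) • u = 0 := by rw [sub_smul, one_smul, ← hc, sub_self]
  have h5 := (smul_eq_zero.1 h4).resolve_right hu
  have : Fact (Nat.Prime 2) := ⟨Nat.prime_two⟩
  have h6 : (γ - 1) ^ (2 ^ k) = 0 := by rw [sub_pow_expChar_pow, one_pow, h5]
  have h7 : γ = 1 := sub_eq_zero.1 (pow_eq_zero_iff (by positivity) |>.1 h6)
  exact ⟨α, by rw [hγ, h7, one_smul, add_comm]⟩

/-- a `2`-element fixing the isotropic vector `v` lies in the unipotent radical -/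
theorem mem_QU_of_fix [CharP F 2] {v : Fin 3 → F} (hv0 : v ≠ 0) (hv : hermForm 3 F q v v = 0)
    {s : SU 3 F q} (hs : s.1.1 *ᵥ v = v) {k : ℕ} (hk : s ^ (2 ^ k) = 1) : s ∈ QU q v := by
  have H := herm_HS 3 hF
  obtain ⟨y, hy, hvy, hyv⟩ := exists_hyp hF hv0 hv
  obtain ⟨u, hu, huv, huy⟩ := exists_perp2 hF le_rfl v y
  obtain ⟨c, hc⟩ := act_u hF hv hy hvy hu huv huy hs hk
  refine ⟨hs, fun x hx => ?_⟩
  obtain ⟨γ, hγ⟩ := expand3 hF hv hy hvy hu huv huy x
  rw [hx, zero_smul, add_zero] at hγ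
  set a := hermForm 3 F q x y
  refine ⟨γ * c, ?_⟩
  rw [hγ, Matrix.mulVec_add, Matrix.mulVec_smul, Matrix.mulVec_smul, hs, hc]
  module

/-- a `2`-element fixing a hyperbolic pair is trivial -/
theorem eq_one_of_fix2 [CharP F 2] {v w : Fin 3 → F} (hv0 : v ≠ 0) (hv : hermForm 3 F q v v = 0)
    (hw : hermForm 3 F q w w = 0) (hvw : hermForm 3 F q v w ≠ 0)
    {s : SU 3 F q} (hs : s.1.1 *ᵥ v = v) (hs' : s.1.1 *ᵥ w = w) {k : ℕ} (hk : s ^ (2 ^ k) = 1) : s = 1 := by
  have H := herm_HS 3 hF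
  obtain ⟨d, hd⟩ : ∃ d : F, sig hF d * hermForm 3 F q v w = 1 := by
    refine ⟨sig hF (hermForm 3 F q v w)⁻¹, ?_⟩
    rw [H.inv, inv_mul_cancel₀ hvw]
  have hy : hermForm 3 F q (d • w) (d • w) = 0 := by rw [H.smul_left, H.smul_right, hw, mul_zero, mul_zero]
  have hvy : hermForm 3 F q v (d • w) = 1 := by rw [H.smul_right, hd]
  have hsy : s.1.1 *ᵥ (d • w) = d • w := by rw [Matrix.mulVec_smul, hs']
  obtain ⟨u, hu, huv, huy⟩ := exists_perp2 hF le_rfl v (d • w)
  obtain ⟨c, hc⟩ := act_u hF hv hy hvy hu huv huy hs hk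
  have hc0 : c = 0 := by
    have h1 : hermForm 3 F q (s.1.1 *ᵥ u) (d • w) = 0 := by
      have h0 := U_form s u (d • w)
      rwa [hsy, huy] at h0
    rw [hc, H.add_left, H.smul_left, huy, hvy] at h1
    linear_combination h1
  rw [hc0, zero_smul, add_zero] at hc
  apply eq_of_pair hF hv hy hvy
  · rw [hs, U_one_mulVec]
  · rw [hsy, U_one_mulVec]
  · intro x h1 h2
    obtain ⟨γ, hγ⟩ := expand3 hF hv hy hvy hu huv huy x
    rw [h1, h2, zero_smul, zero_smul, zero_add, zero_add] at hγ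
    rw [U_one_mulVec, hγ, Matrix.mulVec_smul, hc]

/-- orthogonal isotropic vectors are proportional -/
theorem prop_of_perp {v w : Fin 3 → F} (hv0 : v ≠ 0) (hv : hermForm 3 F q v v = 0)
    (hw : hermForm 3 F q w w = 0) (hvw : hermForm 3 F q v w = 0) : ∃ c : F, w = c • v := by
  have H := herm_HS 3 hF
  obtain ⟨y, hy, hvy, hyv⟩ := exists_hyp hF hv0 hv
  obtain ⟨u, hu, huv, huy⟩ := exists_perp2 hF le_rfl v y
  obtain ⟨γ, hγ⟩ := expand3 hF hv hy hvy hu huv huy w
  rw [H.symm_zero hvw, zero_smul, add_zero] at hγ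
  set a := hermForm 3 F q w y
  have huu : hermForm 3 F q u u ≠ 0 := by
    intro h0
    obtain ⟨x, -, hx⟩ := herm_nd 3 hF u trivial hu
    apply hx
    obtain ⟨δ, hδ⟩ := expand3 hF hv hy hvy hu huv huy x
    rw [hδ, H.add_right, H.add_right, H.smul_right, H.smul_right, H.smul_right, huv, huy, h0]
    simp
  have h1 : γ * sig hF γ * hermForm 3 F q u u = 0 := by
    have h2 := hw
    rw [hγ] at h2
    simp only [H.add_left, H.add_right, H.smul_left, H.smul_right, hv, huv, H.symm_zero huv] at h2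
    linear_combination h2
  have h2 : γ = 0 := by
    rcases mul_eq_zero.1 ((mul_eq_zero.1 h1).resolve_right huu) with h | h
    · exact h
    · by_contra hne
      exact H.sigma_ne hne h
  exact ⟨a, by rw [hγ, h2, zero_smul, add_zero]⟩

theorem two_dvd_q [CharP F 2] : 2 ∣ q := by
  have h1 : 2 ∣ Fintype.card F := by
    rw [← CharP.cast_eq_zero_iff F 2]
    exact FiniteField.cast_card_eq_zero F
  rw [hF] at h1
  exact Nat.prime_two.dvd_of_dvd_pow h1

/-- Sylow `2`-subgroups of `SU₃(2ⁿ)` are TI -/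
theorem su3_TI [CharP F 2] (P Q : Sylow 2 (SU 3 F q)) (h : (P : Subgroup (SU 3 F q)) ⊓ (Q : Subgroup (SU 3 F q)) ≠ ⊥) :
    P = Q := by
  have H := herm_HS 3 hF
  have : Fact (Nat.Prime 2) := ⟨Nat.prime_two⟩
  obtain ⟨v, hv0, hv, hPv⟩ := exists_fixed_vector hF (two_dvd_q hF) (by norm_num : 2 ≤ 3) P P.isPGroup'
  obtain ⟨w, hw0, hw, hQw⟩ := exists_fixed_vector hF (two_dvd_q hF) (by norm_num : 2 ≤ 3) Q Q.isPGroup'
  obtain ⟨⟨s, hsP, hsQ⟩, hs1⟩ := Subgroup.ne_bot_iff_exists_ne_one.1 h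
  have hpow : ∀ R : Sylow 2 (SU 3 F q), ∀ t ∈ R, ∃ k : ℕ, t ^ (2 ^ k) = 1 := by
    intro R t ht
    obtain ⟨k, hk⟩ := R.isPGroup' ⟨t, ht⟩
    exact ⟨k, congrArg Subtype.val hk⟩
  by_cases hvw : hermForm 3 F q v w = 0
  · obtain ⟨c, hc⟩ := prop_of_perp hF hv0 hv hw hvw
    have hc0 : c ≠ 0 := by
      rintro rfl
      exact hw0 (by rw [hc, zero_smul])
    have hQv : ∀ t ∈ Q, t.1.1 *ᵥ v = v := by
      intro t ht
      have h1 := hQw t ht
      rw [hc, Matrix.mulVec_smul] at h1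
      exact smul_right_injective _ hc0 h1
    have key : ∀ R : Sylow 2 (SU 3 F q), (∀ t ∈ R, t.1.1 *ᵥ v = v) → QU q v = (R : Subgroup (SU 3 F q)) := by
      intro R hR
      apply R.3 (isPGroup_QU hF (by norm_num) v)
      intro t ht
      obtain ⟨k, hk⟩ := hpow R t ht
      exact mem_QU_of_fix hF hv0 hv (hR t ht) hk
    apply Sylow.ext
    rw [← key P hPv, ← key Q hQv]
  · exfalso
    apply hs1
    obtain ⟨k, hk⟩ := hpow P s hsP
    exact Subtype.ext (eq_one_of_fix2 hF hv0 hv hw hvw (hPv s hsP) (hQw s hsQ) hk)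

theorem psu3_s4free [CharP F 2] : ¬ Involves (Equiv.Perm (Fin 4)) (PSU 3 F q) := by
  intro h
  have h1 : Involves (PSU 3 F q) (SU 3 F q) :=
    Involve.involves_of_surjective (QuotientGroup.mk' (Subgroup.center (SU 3 F q))) (QuotientGroup.mk'_surjective _)
  exact s4free_of_TI (su3_TI hF) (Involve.involves_trans h h1)

end Cfsg.Agent.Lib.GoldA95
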