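import Mathlib
import Cfsg.Agent.Lib.S3Sec
import Cfsg.Agent.Lib.JOneBase

set_option autoImplicit false

/-!
# `S₃` and the Sylow `2`-subgroups of `J₁` (for the Goldschmidt groups, helper61)
-/

namespace Cfsg.Agent.Lib.GoldA95

open Cfsg Cfsg.Agent.Lib.JOne
open Cfsg.Agent.Lib.Golay (allLt allLt_iff)

def wga : List Bool := [true, true, true, false, true, false, true]
def wgb : List Bool := [false, true, true, false, true, false, true, true, false, false, false, false, false, false]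

theorem ga_sq : ev wga * ev wga = 1 := by
  apply cd_inj
  rw [cd_mul, cd_ev, cd_one]
  decide +kernel

theorem gb_sq : ev wgb * ev wgb = 1 := by
  apply cd_inj
  rw [cd_mul, cd_ev, cd_one]
  decide +kernel

theorem gab_cube : (ev wga * ev wgb) ^ 3 = 1 := by
  apply cd_inj
  rw [cd_pow, cd_mul, cd_ev, cd_ev, cd_one]
  decide +kernel

theorem gab_ne : ev wga * ev wgb ≠ 1 := by
  intro h
  have h1 := congrArg cd h
  rw [cd_mul, cd_ev, cd_ev, cd_one] at h1
  exact absurd h1 (by decide +kernel)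

theorem j1_s3 : Involves (Equiv.Perm (Fin 3)) ↥Spor.J1 := by
  have ha := ga_sq
  have hb := gb_sq
  refine S3Sec.involves_perm_three (ev wga * ev wgb) (ev wga) gab_cube gab_ne ha ?_
  have ha' : (ev wga)⁻¹ = ev wga := inv_eq_of_mul_eq_one_left ha
  have hb' : (ev wgb)⁻¹ = ev wgb := inv_eq_of_mul_eq_one_left hb
  rw [mul_inv_rev, ha', hb', ← mul_assoc, ha, one_mul]

theorem E8_comm : ∀ x ∈ E8, ∀ y ∈ E8, x * y = y * x := by
  rintro _ ⟨a, ha, rfl⟩ _ ⟨b, hb, rfl⟩
  apply cd_inj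
  rw [cd_mul, cd_mul, cd_ev, cd_ev]
  have h1 := Nat.eq_of_beq_eq_true ((allLt_iff.1 ((allLt_iff.1 we_mul) a ha)) b hb)
  have h2 := Nat.eq_of_beq_eq_true ((allLt_iff.1 ((allLt_iff.1 we_mul) b hb)) a ha)
  rw [h1, h2]
  congr 2
  exact Nat.xor_comm a b

theorem j1_sylow_comm (T : Sylow 2 ↥Spor.J1) : IsMulCommutative (T : Subgroup ↥Spor.J1) := by
  have : Fact (Nat.Prime 2) := ⟨Nat.prime_two⟩
  have hfin : Finite W := Nat.finite_of_card_ne_zero (by rw [card_W]; norm_num)
  have hE : IsPGroup 2 E8 := IsPGroup.of_card (n := 3) (by rw [card_E8]; norm_num)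
  obtain ⟨S, hS⟩ := hE.exists_le_sylow
  have hSc : Nat.card S = 8 := by
    have h1 := S.card_eq_multiplicity
    rw [h1]
    have h2 : Nat.card (↥Spor.J1) = 175560 := card_W
    rw [h2]
    have h3 : (175560 : ℕ).factorization 2 = 3 := by
      have : (175560 : ℕ) = 2 ^ 3 * 21945 := by norm_num
      rw [this, Nat.factorization_mul (by norm_num) (by norm_num), Nat.Prime.factorization_pow Nat.prime_two]
      simp [Nat.factorization_eq_zero_of_not_dvd (show ¬ 2 ∣ 21945 by norm_num)]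
    rw [h3]; norm_num
  have hSE : E8 = (S : Subgroup W) := Subgroup.eq_of_le_of_card_ge hS (by rw [card_E8]; exact hSc.le)
  obtain ⟨g, rfl⟩ := MulAction.exists_smul_eq W S T
  refine ⟨⟨?_⟩⟩
  rintro ⟨a, ha⟩ ⟨b, hb⟩
  apply Subtype.ext
  show a * b = b * a
  obtain ⟨a', ha', rfl⟩ := ha
  obtain ⟨b', hb', rfl⟩ := hb
  change MulAut.conj g a' * MulAut.conj g b' = MulAut.conj g b' * MulAut.conj g a'
  have ha2 : a' ∈ E8 := by rw [hSE]; exact ha'
  have hb2 : b' ∈ E8 := by rw [hSE]; exact hb'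
  rw [← map_mul, ← map_mul, E8_comm a' ha2 b' hb2]

end Cfsg.Agent.Lib.GoldA95
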