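import Mathlib
import Cfsg.Agent.Lib.S3Sec
import Cfsg.Agent.Lib.ClUnitary2

set_option autoImplicit false

/-!
# `S₃` in `PSU₃(2ⁿ)`: permutation matrices (for the Goldschmidt groups, helper61)
-/

namespace Cfsg.Agent.Lib.GoldA95

open Matrix
open Cfsg

variable {F : Type*} [Field F] {q : ℕ} [Fintype F] (hF : Fintype.card F = q ^ 2)

/-- the cyclic permutation matrix -/
def XM (F : Type*) [Field F] : Matrix (Fin 3) (Fin 3) F := !![0, 1, 0; 0, 0, 1; 1, 0, 0]

/-- a transposition matrix -/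
def BM (F : Type*) [Field F] : Matrix (Fin 3) (Fin 3) F := !![0, 1, 0; 1, 0, 0; 0, 0, 1]

omit [Fintype F] in
theorem XM_form (u v : Fin 3 → F) : hermForm 3 F q (XM F *ᵥ u) (XM F *ᵥ v) = hermForm 3 F q u v := by
  simp only [hermForm, Fin.sum_univ_three, XM, Matrix.mulVec, dotProduct]
  simp
  ring

omit [Fintype F] in
theorem BM_form (u v : Fin 3 → F) : hermForm 3 F q (BM F *ᵥ u) (BM F *ᵥ v) = hermForm 3 F q u v := by
  simp only [hermForm, Fin.sum_univ_three, BM, Matrix.mulVec, dotProduct]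
  simp
  ring

omit [Fintype F] in
theorem det_XM : (XM F).det = 1 := by
  rw [XM, Matrix.det_fin_three]; simp

omit [Fintype F] in
theorem det_BM [CharP F 2] : (BM F).det = 1 := by
  rw [BM, Matrix.det_fin_three]; simp [CharTwo.neg_eq]

/-- the cyclic permutation matrix in `SU₃` -/
def XS (F : Type*) [Field F] (q : ℕ) : SU 3 F q := ⟨⟨XM F, det_XM⟩, fun u v => XM_form u v⟩

/-- a transposition matrix in `SU₃` -/
def BS (F : Type*) [Field F] [CharP F 2] (q : ℕ) : SU 3 F q := ⟨⟨BM F, det_BM⟩, fun u v => BM_form u v⟩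

include hF

theorem psu3_s3 [CharP F 2] : Involves (Equiv.Perm (Fin 3)) (PSU 3 F q) := by
  refine S3Sec.involves_perm_three (QuotientGroup.mk (XS F q) : PSU 3 F q) (QuotientGroup.mk (BS F q)) ?_ ?_ ?_ ?_
  · rw [← QuotientGroup.mk_pow]
    have h1 : (XS F q) ^ 3 = 1 := by
      apply Subtype.ext
      apply Subtype.ext
      show (XM F) ^ 3 = 1
      rw [pow_succ, pow_two, XM]
      ext i j
      fin_cases i <;> fin_cases j <;> simp [Matrix.mul_apply, Fin.sum_univ_three]
    rw [h1]; rfl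
  · intro h
    rw [QuotientGroup.eq_one_iff] at h
    obtain ⟨c, hc⟩ := (ClUnitary.center_SU hF (by norm_num) _).1 h
    have h1 := congrFun (congrFun hc 0) 1
    have h2 : (XS F q).1.1 0 1 = 1 := by show XM F 0 1 = 1; simp [XM]
    rw [h2] at h1
    simp at h1
  · rw [← QuotientGroup.mk_mul]
    have h1 : (BS F q) * (BS F q) = 1 := by
      apply Subtype.ext
      apply Subtype.ext
      show (BM F) * (BM F) = 1
      rw [BM]
      ext i j
      fin_cases i <;> fin_cases j <;> simp [Matrix.mul_apply, Fin.sum_univ_three]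
    rw [h1]; rfl
  · rw [eq_inv_iff_mul_eq_one, ← QuotientGroup.mk_mul, ← QuotientGroup.mk_mul, ← QuotientGroup.mk_mul]
    have h1 : (BS F q) * (XS F q) * (BS F q) * (XS F q) = 1 := by
      apply Subtype.ext
      apply Subtype.ext
      show (BM F) * (XM F) * (BM F) * (XM F) = 1
      rw [BM, XM]
      ext i j
      fin_cases i <;> fin_cases j <;> simp [Matrix.mul_apply, Fin.sum_univ_three]
    rw [h1]; rfl

end Cfsg.Agent.Lib.GoldA95
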