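import Mathlib
import Cfsg.Prelude.Def_LocalEven
import Cfsg.Agent.Lib.GoldA95a
import Cfsg.Agent.Lib.GoldA95b
import Cfsg.Agent.Lib.GoldA95c
import Cfsg.Agent.Lib.GoldA95u
import Cfsg.Agent.Lib.GoldA95j
import Cfsg.Agent.S1163

set_option autoImplicit false

/-!
# The Goldschmidt groups that are not of Ree type (S2755, piece A; helper61)
-/

namespace Cfsg.Agent.Lib.GoldA95

open Cfsg

/-- the Goldschmidt groups not of Ree type -/
def NonRee (G : Type*) [Group G] : Prop :=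
  (∃ (F : Type) (_ : Field F) (_ : Fintype F) (n : ℕ), 3 ≤ n ∧ Fintype.card F = 2 ^ n ∧
      Nonempty (G ≃* Matrix.ProjectiveSpecialLinearGroup (Fin 2) F)) ∨
  Lie.IsoSuzuki G ∨
  (∃ (F : Type) (_ : Field F) (_ : Fintype F) (n : ℕ), 2 ≤ n ∧ Fintype.card F = 4 ^ n ∧
      Nonempty (G ≃* PSU 3 F (2 ^ n))) ∨
  (∃ (F : Type) (_ : Field F) (_ : Fintype F) (q : ℕ), Fintype.card F = q ∧ 5 ≤ q ∧ (q % 8 = 3 ∨ q % 8 = 5) ∧
      Nonempty (G ≃* Matrix.ProjectiveSpecialLinearGroup (Fin 2) F)) ∨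
  Spor.IsoJ1 G

theorem goldschmidt_iff {G : Type*} [Group G] : IsGoldschmidtGroup G ↔ IsReeType G ∨ NonRee G := Iff.rfl

/-- the Suzuki groups have order prime to `3` -/
theorem suz_card {G : Type*} [Group G] (h : Lie.IsoSuzuki G) : ¬ 3 ∣ Nat.card G := by
  obtain ⟨F, _, _, m, hm, hF, ⟨e⟩⟩ := h
  rw [Nat.card_congr e.toEquiv, (S1163.result hm hF).1]
  have h1 : 2 ^ (2 * m + 1) % 3 = 2 := by
    rw [pow_succ, pow_mul, Nat.mul_mod, Nat.pow_mod]
    norm_num
  obtain ⟨k, hk⟩ : ∃ k, 2 ^ (2 * m + 1) = 3 * k + 2 := ⟨2 ^ (2 * m + 1) / 3, by omega⟩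
  rw [hk]
  intro hd
  have h2 : 3 * k + 2 - 1 = 3 * k + 1 := by omega
  rw [h2] at hd
  have h3 : (3 * k + 2) ^ 2 * (3 * k + 1) * ((3 * k + 2) ^ 2 + 1) =
      3 * ((3 * k ^ 2 + 4 * k + 1) * (3 * k + 1) * (9 * k ^ 2 + 12 * k + 5) + (k * (9 * k ^ 2 + 12 * k + 5)) +
        (3 * k ^ 2 + 4 * k + 1)) + 2 := by ring
  rw [h3] at hd
  omega

theorem suz_s3free {G : Type*} [Group G] [Finite G] (h : Lie.IsoSuzuki G) : ¬ Involves (Equiv.Perm (Fin 3)) G := by
  intro h1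
  apply suz_card h
  obtain ⟨K, f, hf⟩ := Involve.exists_hom h1
  have h2 : Nat.card (Equiv.Perm (Fin 3)) ∣ Nat.card K := Subgroup.card_dvd_of_surjective f hf
  have h3 : Nat.card (Equiv.Perm (Fin 3)) = 6 := by
    rw [Nat.card_eq_fintype_card, Fintype.card_perm, Fintype.card_fin]; rfl
  rw [h3] at h2
  exact ((show 3 ∣ 6 by norm_num).trans h2).trans (Subgroup.card_subgroup_dvd_card K)

/-- Suzuki groups and `PSL₂(3^odd)` are `S₃`-free. -/
theorem s3free_of_target {G : Type*} [Group G] [Finite G] (h : IsSuzukiOrPSL2OddPowerThree G) :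
    ¬ Involves (Equiv.Perm (Fin 3)) G := by
  rcases h with h | ⟨F, _, _, n, hF, ⟨e⟩⟩
  · exact suz_s3free h
  · exact psl_s3free hF e

theorem s4_of_s3free {G : Type*} [Group G] [Finite G] (h : ¬ Involves (Equiv.Perm (Fin 3)) G) :
    ¬ Involves (Equiv.Perm (Fin 4)) G := by
  intro h4
  apply h
  refine Involve.involves_trans ?_ h4
  refine S3Sec.involves_perm_three (Equiv.swap 0 1 * Equiv.swap 1 2 : Equiv.Perm (Fin 4)) (Equiv.swap 0 1)
    (by decide) (by decide) (by decide) (by decide)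

theorem involves_congr {H G G' : Type*} [Group H] [Group G] [Group G'] (e : G ≃* G') (h : Involves H G') :
    Involves H G :=
  Involve.involves_trans h (Involve.involves_of_surjective e.toMonoidHom e.surjective)

theorem s4free_nonree {G : Type*} [Group G] [Finite G] (h : NonRee G) : ¬ Involves (Equiv.Perm (Fin 4)) G := by
  rcases h with ⟨F, _, _, n, hn, hF, ⟨e⟩⟩ | h | ⟨F, _, _, n, hn, hF, ⟨e⟩⟩ | ⟨F, _, _, q, hF, hq5, hq, ⟨e⟩⟩ | ⟨⟨e⟩⟩
  · have := char2 hF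
    exact s4free_of_abelian (sylow_comm_of_equiv e psl_even_comm)
  · exact s4_of_s3free (suz_s3free h)
  · have hF' : Fintype.card F = 2 ^ (2 * n) := by rw [hF, pow_mul]; norm_num
    have := char2 hF'
    have hF2 : Fintype.card F = (2 ^ n) ^ 2 := by rw [hF', ← pow_mul, mul_comm]
    intro h
    exact psu3_s4free hF2 (involves_congr e.symm h)
  · exact s4free_of_abelian (sylow_comm_of_equiv e (psl_odd_comm hF hq))
  · exact s4free_of_abelian (sylow_comm_of_equiv e j1_sylow_comm)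

theorem s3free_nonree {G : Type*} [Group G] [Finite G] (h : NonRee G) :
    ¬ Involves (Equiv.Perm (Fin 3)) G ↔ IsSuzukiOrPSL2OddPowerThree G := by
  refine ⟨fun hfree => ?_, s3free_of_target⟩
  rcases h with ⟨F, _, _, n, hn, hF, ⟨e⟩⟩ | h | ⟨F, _, _, n, hn, hF, ⟨e⟩⟩ | ⟨F, _, _, q, hF, hq5, hq, ⟨e⟩⟩ | ⟨⟨e⟩⟩
  · have := char2 hF
    exact absurd (involves_congr e psl_s3_even) hfree
  · exact Or.inl h
  · have hF' : Fintype.card F = 2 ^ (2 * n) := by rw [hF, pow_mul]; norm_num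
    have := char2 hF'
    have hF2 : Fintype.card F = (2 ^ n) ^ 2 := by rw [hF', ← pow_mul, mul_comm]
    exact absurd (involves_congr e (psu3_s3 hF2)) hfree
  · by_cases h3 : (3 : F) = 0
    · obtain ⟨n, hn⟩ := odd_power hF hq h3
      exact Or.inr ⟨F, _, _, n, hn, ⟨e⟩⟩
    · have hodd : Odd (Fintype.card F) := by rw [hF, Nat.odd_iff]; omega
      exact absurd (involves_congr e (psl_s3_odd hodd h3)) hfree
  · exact absurd (involves_congr e j1_s3) hfree

end Cfsg.Agent.Lib.GoldA95
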