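import Mathlib
import Cfsg.Prelude.Def_LocalEven
import Cfsg.Agent.Lib.GoldA95a
import Cfsg.Agent.Lib.GoldA95b
import Cfsg.Agent.Lib.LocBase

set_option autoImplicit false

/-!
# Groups of Ree type have abelian Sylow `2`-subgroups (S2755; helper61)
-/

namespace Cfsg.Agent.Lib.GoldA95

open Subgroup Cfsg

theorem card_mod8 {n : ℕ} : 3 ^ (2 * n + 1) % 8 = 3 := by
  rw [pow_succ, pow_mul, Nat.mul_mod, Nat.pow_mod]
  norm_num

/-- `2`-subgroups of `⟨t⟩ × K` commute if those of `K` do -/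
theorem comm_in_centralizer {G : Type*} [Group G] [Finite G] {t : G} {K : Subgroup G} (ht : orderOf t = 2)
    (hd : IsInternalDirectProduct (zpowers t) K (centralizer ({t} : Set G)))
    (hK : ∀ T : Sylow 2 K, IsMulCommutative (T : Subgroup K)) {Q : Subgroup G} (hQ : IsPGroup 2 Q)
    (hQC : Q ≤ centralizer ({t} : Set G)) : ∀ a ∈ Q, ∀ b ∈ Q, a * b = b * a := by
  have h2p : Fact (Nat.Prime 2) := ⟨Nat.prime_two⟩
  obtain ⟨htC, hKC, hcom, hdisj, hsup⟩ := hd
  have hz : IsPGroup 2 (zpowers t) := IsPGroup.of_card (n := 1) (by rw [Nat.card_zpowers, ht]; rfl)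
  have hcent : ∀ c ∈ centralizer ({t} : Set G), ∀ z ∈ zpowers t, c * z = z * c := by
    rintro c hc _ ⟨k, rfl⟩
    have h1 : Commute c t := mem_centralizer_singleton_iff.1 hc
    exact (h1.zpow_right k).eq
  have hQn : Q ≤ normalizer (zpowers t : Set G) := by
    intro x hx
    have h1 := hcent x (hQC hx)
    rw [mem_normalizer_iff]
    intro z
    constructor
    · intro hz
      rw [h1 z hz, mul_inv_cancel_right]; exact hz
    · intro hz
      have h2 : z = x⁻¹ * (x * z * x⁻¹) * x := by group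
      have h3 : x⁻¹ * (x * z * x⁻¹) = (x * z * x⁻¹) * x⁻¹ := by
        have := h1 _ hz
        rw [eq_mul_inv_iff_mul_eq, mul_assoc, ← this, inv_mul_cancel_left]
      rw [h2, h3, inv_mul_cancel_right]; exact hz
  have hQ' : IsPGroup 2 (Q ⊔ zpowers t : Subgroup G) := IsPGroup.to_sup_of_normal_right' hQ hz hQn
  have hQK : IsPGroup 2 ((Q ⊔ zpowers t : Subgroup G).subgroupOf K) := hQ'.comap_subtype
  obtain ⟨T, hT⟩ := hQK.exists_le_sylow
  have hcommK : ∀ k ∈ K, ∀ l ∈ K, k ∈ (Q ⊔ zpowers t : Subgroup G) → l ∈ (Q ⊔ zpowers t : Subgroup G) → k * l = l * k := by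
    intro k hk l hl hkQ hlQ
    have h1 := (hK T).is_comm.comm (⟨⟨k, hk⟩, hT (mem_subgroupOf.2 hkQ)⟩ : (T : Subgroup K))
      ⟨⟨l, hl⟩, hT (mem_subgroupOf.2 hlQ)⟩
    exact congrArg (fun z : (T : Subgroup K) => ((z : K) : G)) h1
  have hdec : ∀ a ∈ Q, ∃ z ∈ zpowers t, ∃ k ∈ K, a = z * k ∧ k ∈ (Q ⊔ zpowers t : Subgroup G) := by
    intro a ha
    have h1 : a ∈ zpowers t ⊔ K := by rw [hsup]; exact hQC ha
    have hKn : K ≤ normalizer (zpowers t : Set G) := by
      intro x hx
      rw [mem_normalizer_iff]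
      have h1 : ∀ z ∈ zpowers t, x * z = z * x := fun z hz => (hcom z hz x hx).symm
      intro z
      constructor
      · intro hz
        rw [h1 z hz, mul_inv_cancel_right]; exact hz
      · intro hz
        have h2 : z = x⁻¹ * (x * z * x⁻¹) * x := by group
        have h3 : x⁻¹ * (x * z * x⁻¹) = (x * z * x⁻¹) * x⁻¹ := by
          have := h1 _ hz
          rw [eq_mul_inv_iff_mul_eq, mul_assoc, ← this, inv_mul_cancel_left]
        rw [h2, h3, inv_mul_cancel_right]; exact hz
    obtain ⟨z, hz, k, hk, rfl⟩ := LocBase.exists_mul_of_mem_sup_of_le hKn h1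
    refine ⟨z, hz, k, hk, rfl, ?_⟩
    have h2 : k = z⁻¹ * (z * k) := by group
    rw [h2]
    exact mul_mem (mem_sup_right (inv_mem hz)) (mem_sup_left ha)
  intro a ha b hb
  obtain ⟨z, hz, k, hk, rfl, hkQ⟩ := hdec a ha
  obtain ⟨w, hw, l, hl, rfl, hlQ⟩ := hdec b hb
  have h1 := hcommK k hk l hl hkQ hlQ
  have h2 := hcom w hw k hk
  have h3 := hcom z hz l hl
  have h4 : z * w = w * z := by
    obtain ⟨i, rfl⟩ := hz
    obtain ⟨j, rfl⟩ := hw
    exact (Commute.refl t).zpow_zpow i j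
  calc z * k * (w * l) = z * (k * w) * l := by group
    _ = (z * w) * (k * l) := by rw [← h2]; group
    _ = (w * z) * (l * k) := by rw [h4, h1]
    _ = w * (z * l) * k := by group
    _ = w * l * (z * k) := by rw [h3]; group

/-- groups of Ree type have abelian Sylow `2`-subgroups -/
theorem ree_sylow_comm {G : Type*} [Group G] [Finite G] (h : IsReeType G) (T : Sylow 2 G) :
    IsMulCommutative (T : Subgroup G) := by
  have h2p : Fact (Nat.Prime 2) := ⟨Nat.prime_two⟩
  obtain ⟨-, -, t, K, n, hn, ht, hodd, hd, F, _, _, hF, ⟨e⟩⟩ := h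
  have hK : ∀ T : Sylow 2 K, IsMulCommutative (T : Subgroup K) :=
    sylow_comm_of_equiv e (psl_odd_comm hF (Or.inl card_mod8))
  obtain ⟨Q⟩ : Nonempty (Sylow 2 (centralizer ({t} : Set G))) := inferInstance
  have hQp : IsPGroup 2 ((Q : Subgroup (centralizer ({t} : Set G))).map (centralizer ({t} : Set G)).subtype) :=
    Q.isPGroup'.map _
  obtain ⟨S, hS⟩ := hQp.exists_le_sylow
  have hSQ : (Q : Subgroup (centralizer ({t} : Set G))).map (centralizer ({t} : Set G)).subtype = (S : Subgroup G) := by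
    apply Subgroup.eq_of_le_of_card_ge hS
    have h1 : Nat.card ((Q : Subgroup (centralizer ({t} : Set G))).map (centralizer ({t} : Set G)).subtype) =
        Nat.card Q := (Nat.card_congr ((Q : Subgroup (centralizer ({t} : Set G))).equivMapOfInjective _
          (Subgroup.subtype_injective _)).toEquiv).symm
    rw [h1, Q.card_eq_multiplicity, S.card_eq_multiplicity]
    have h2 := (centralizer ({t} : Set G)).card_mul_index
    rw [← h2, Nat.factorization_mul Nat.card_pos.ne' hodd.pos.ne']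
    simp [Nat.factorization_eq_zero_of_not_dvd (fun h3 => (Nat.not_even_iff_odd.2 hodd) (even_iff_two_dvd.2 h3))]
  have hSC : (S : Subgroup G) ≤ centralizer ({t} : Set G) := by
    rw [← hSQ]
    rintro _ ⟨x, -, rfl⟩
    exact x.2
  have hcomm := comm_in_centralizer ht hd hK S.isPGroup' hSC
  obtain ⟨g, rfl⟩ := MulAction.exists_smul_eq G S T
  refine ⟨⟨?_⟩⟩
  rintro ⟨a, ha⟩ ⟨b, hb⟩
  apply Subtype.ext
  show a * b = b * a
  obtain ⟨a', ha', rfl⟩ := ha
  obtain ⟨b', hb', rfl⟩ := hb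
  change MulAut.conj g a' * MulAut.conj g b' = MulAut.conj g b' * MulAut.conj g a'
  rw [← map_mul, ← map_mul, hcomm a' ha' b' hb']

theorem ree_s4free {G : Type*} [Group G] [Finite G] (h : IsReeType G) : ¬ Involves (Equiv.Perm (Fin 4)) G :=
  s4free_of_abelian (ree_sylow_comm h)

end Cfsg.Agent.Lib.GoldA95
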