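import Cfsg.Agent.Lib.StructConst
import Cfsg.Agent.Lib.TIFN3
import Cfsg.Agent.Lib.BlockKlein

set_option autoImplicit false

/-!
# S2755 piece C (helper1): Gram data of three generalized characters of norm four
-/

namespace Cfsg.Agent.Lib.GoldC95

open scoped ComplexConjugate
open Cfsg Cfsg.Agent.Lib.CharBasic Cfsg.Agent.Lib.TIFN

universe u

variable {G : Type u} [Group G]

/-- Three pairwise orthogonal generalized characters of norm four and degree zero whose differences
are divisible by two. -/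
theorem four [Fintype G] (η : Fin 3 → G → ℂ) (hgen : ∀ i, IsGeneralizedCharacter G (η i))
    (h1 : ∀ i, η i 1 = 0) (hn : ∀ i, classInner (η i) (η i) = 4)
    (ho : ∀ i j, i ≠ j → classInner (η i) (η j) = 0)
    (v : Fin 3 → Fin 3 → G → ℂ) (hv : ∀ i j, IsGeneralizedCharacter G (v i j))
    (hd : ∀ i j, η i - η j = (2 : ℂ) • v i j) :
    ∃ (e : ℂ) (X0 X1 X2 X3 : G → ℂ), (e = 1 ∨ e = -1) ∧ IsIrrCharacter G X0 ∧
      IsIrrCharacter G X1 ∧ IsIrrCharacter G X2 ∧ IsIrrCharacter G X3 ∧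
      X0 ≠ X1 ∧ X0 ≠ X2 ∧ X1 ≠ X2 ∧
      X1 1 = X0 1 ∧ X2 1 = X0 1 ∧ X3 1 = X0 1 ∧
      η 0 = e • (X3 + X0 - X1 - X2) ∧ η 1 = e • (X3 - X0 + X1 - X2) ∧
      η 2 = e • (X3 - X0 - X1 + X2) := by
  have hv2 : ∀ i j, v i j = (2 : ℂ)⁻¹ • (η i - η j) := by
    intro i j; rw [hd, smul_smul]; norm_num
  have hc2 : conj (2 : ℂ)⁻¹ = (2 : ℂ)⁻¹ := by
    rw [map_inv₀]; congr 1; exact Complex.conj_ofNat 2
  have hin : ∀ i j k, classInner (v i j) (v i k) =
      (4 : ℂ)⁻¹ * (classInner (η i) (η i) - classInner (η i) (η k) - classInner (η j) (η i)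
        + classInner (η j) (η k)) := by
    intro i j k
    rw [hv2 i j, hv2 i k, classInner_smul_left, classInner_smul_right, hc2, classInner_sub_left,
      classInner_sub_right, classInner_sub_right]
    ring
  obtain ⟨ε, f, hε, hf, hvf⟩ := exceptional_family v hv (fun i j => by
      rw [hv2]; simp [h1]) (fun i j k => by
      rw [hv2, hv2, hv2, ← smul_add]; congr 1; abel)
    (fun i j hij => by rw [hin, hn, hn, ho i j hij, ho j i hij.symm]; norm_num)
    (fun i j k hij hik hjk => by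
      rw [hin, hn, ho i k hik, ho j i hij.symm, ho j k hjk]; norm_num)
    ⟨0, 1, by decide⟩
  have hεε : ε * ε = 1 := by rcases hε with h | h <;> rw [h] <;> norm_num
  have hεc : conj ε = ε := by rcases hε with h | h <;> rw [h] <;> simp
  have hη : ∀ i j, η i - η j = (2 * ε) • ((f i : G → ℂ) - (f j : G → ℂ)) := by
    intro i j; rw [hd, hvf, smul_smul]
  have hdeg : ∀ j, (f j : G → ℂ) 1 = (f 0 : G → ℂ) 1 := by
    intro j
    have h := congrFun (hη j 0) 1
    simp only [Pi.sub_apply, h1, Pi.smul_apply, smul_eq_mul, sub_zero] at h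
    have h2 : (2 * ε) ≠ 0 := by
      intro h0; apply one_ne_zero (α := ℂ); rw [← hεε]
      have : ε = 0 := by simpa using h0
      rw [this]; ring
    have h3 : (f j : G → ℂ) 1 - (f 0 : G → ℂ) 1 = 0 := by
      rcases mul_eq_zero.1 h.symm with h4 | h4
      · exact absurd h4 h2
      · exact h4
    exact sub_eq_zero.1 h3
  -- coefficients
  have hfi : ∀ i j, classInner (f i : G → ℂ) (f j : G → ℂ) = if i = j then 1 else 0 := by
    intro i j
    rw [irr_orthonormal]
    by_cases hij : i = j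
    · rw [if_pos hij, if_pos (by rw [hij])]
    · rw [if_neg hij, if_neg (fun h => hij (hf h))]
  obtain ⟨p, hp⟩ := (hgen 0).classInner_int (f 0).2.isGeneralized
  obtain ⟨r, hr⟩ := (hgen 0).classInner_int (f 1).2.isGeneralized
  obtain ⟨s, hs⟩ := (hgen 0).classInner_int (f 2).2.isGeneralized
  have hp' : classInner (f 0 : G → ℂ) (η 0) = p := by
    rw [← conj_classInner, hp]; simp
  have hr' : classInner (f 1 : G → ℂ) (η 0) = r := by
    rw [← conj_classInner, hr]; simp
  have hs' : classInner (f 2 : G → ℂ) (η 0) = s := by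
    rw [← conj_classInner, hs]; simp
  have key : ∀ j : Fin 3, j ≠ 0 → ∀ c : ℤ, classInner (η 0) (f j : G → ℂ) = c →
      classInner (f j : G → ℂ) (η 0) = c → (p : ℂ) - c = 2 * ε := by
    intro j hj c hc hc'
    have e1 : η j = η 0 - (2 * ε) • ((f 0 : G → ℂ) - (f j : G → ℂ)) := by
      rw [← hη 0 j]; abel
    have e2 := hn j
    rw [e1, classInner_sub_left, classInner_sub_right, classInner_sub_right, classInner_smul_left,
      classInner_smul_left, classInner_smul_right, classInner_smul_right, classInner_sub_left,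
      classInner_sub_left,
      classInner_sub_right, classInner_sub_right, classInner_sub_right, hp, hp', hc, hc', hn, hfi,
      hfi, hfi, hfi, if_pos rfl, if_pos rfl, if_neg hj.symm, if_neg hj, map_mul, hεc,
      Complex.conj_ofNat] at e2
    have e3 : ε * ((p : ℂ) - c) = 2 := by
      have : ε * ε = 1 := hεε
      linear_combination (-1/4) * e2 + 2 * this
    linear_combination ε * e3 - ((p : ℂ) - c) * hεε
  have k1 := key 1 (by decide) r hr hr'
  have k2 := key 2 (by decide) s hs hs'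
  -- the remainder
  set ρ : G → ℂ := η 0 - (p : ℂ) • (f 0 : G → ℂ) - (r : ℂ) • (f 1 : G → ℂ) -
    (s : ℂ) • (f 2 : G → ℂ) with hρ
  have hρg : IsGeneralizedCharacter G ρ :=
    (((hgen 0).sub ((f 0).2.isGeneralized.intCast_smul p)).sub
      ((f 1).2.isGeneralized.intCast_smul r)).sub ((f 2).2.isGeneralized.intCast_smul s)
  have hρn : classInner ρ ρ = 4 - (p : ℂ) ^ 2 - (r : ℂ) ^ 2 - (s : ℂ) ^ 2 := by
    have hcz : ∀ z : ℤ, conj (z : ℂ) = z := fun z => by simp
    rw [hρ]
    simp only [classInner_sub_left, classInner_sub_right, classInner_smul_left,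
      classInner_smul_right, hp, hp', hr, hr', hs, hs', hn, hfi, hcz,
      if_neg (show ¬ ((0 : Fin 3) = 1) by decide), if_neg (show ¬ ((0 : Fin 3) = 2) by decide),
      if_neg (show ¬ ((1 : Fin 3) = 0) by decide), if_neg (show ¬ ((1 : Fin 3) = 2) by decide),
      if_neg (show ¬ ((2 : Fin 3) = 0) by decide), if_neg (show ¬ ((2 : Fin 3) = 1) by decide),
      if_true]
    ring
  have hnn : 0 ≤ 4 - p ^ 2 - r ^ 2 - s ^ 2 := by
    have h2 : (classInner ρ ρ).re = ((4 - p ^ 2 - r ^ 2 - s ^ 2 : ℤ) : ℝ) := by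
      rw [hρn]
      have : (4 - (p : ℂ) ^ 2 - (r : ℂ) ^ 2 - (s : ℂ) ^ 2) =
        (((4 - p ^ 2 - r ^ 2 - s ^ 2 : ℤ) : ℝ) : ℂ) := by push_cast; ring
      rw [this, Complex.ofReal_re]
    have h3 : 0 ≤ (classInner ρ ρ).re := by
      rw [classInner_self, Complex.ofReal_re]
      positivity
    rw [h2] at h3
    exact_mod_cast h3
  -- the signs
  obtain ⟨ez, hez, hez1⟩ : ∃ ez : ℤ, ε = (ez : ℂ) ∧ (ez = 1 ∨ ez = -1) := by
    rcases hε with h | h
    · exact ⟨1, by rw [h]; simp, Or.inl rfl⟩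
    · exact ⟨-1, by rw [h]; simp, Or.inr rfl⟩
  have k1' : p - r = 2 * ez := by rw [hez] at k1; exact_mod_cast k1
  have k2' : p - s = 2 * ez := by rw [hez] at k2; exact_mod_cast k2
  have hf0 : (f 0 : G → ℂ) 1 ≠ 0 := (f 0).2.one_ne_zero
  have hρ1 : ρ 1 = -(p : ℂ) * (f 0 : G → ℂ) 1 - r * (f 0 : G → ℂ) 1 - s * (f 0 : G → ℂ) 1 := by
    rw [hρ]
    simp only [Pi.sub_apply, Pi.smul_apply, smul_eq_mul, h1, hdeg 1, hdeg 2]
    ring
  have hcase : (p = ez ∧ r = -ez ∧ s = -ez) ∨ (p = 2 * ez ∧ r = 0 ∧ s = 0) := by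
    rcases hez1 with h | h
    · subst h
      have hr2 : r = p - 2 := by linarith
      have hs2 : s = p - 2 := by linarith
      subst hr2 hs2
      have h1 : p ≤ 2 := by nlinarith
      have h2 : 1 ≤ p := by nlinarith
      interval_cases p
      · left; norm_num
      · right; norm_num
    · subst h
      have hr2 : r = p + 2 := by linarith
      have hs2 : s = p + 2 := by linarith
      subst hr2 hs2
      have h1 : p ≤ -1 := by nlinarith
      have h2 : -2 ≤ p := by nlinarith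
      interval_cases p
      · right; norm_num
      · left; norm_num
  rcases hcase with ⟨h1', h2', h3'⟩ | ⟨h1', h2', h3'⟩
  swap
  · exfalso
    have hz : classInner ρ ρ = 0 := by
      rw [hρn, h1', h2', h3']
      rcases hez1 with h | h <;> rw [h] <;> norm_num
    have hz2 := classInner_self_eq_zero.1 hz
    rw [hz2, h1', h2', h3'] at hρ1
    simp only [Pi.zero_apply] at hρ1
    rcases hez1 with h | h
    · rw [h] at hρ1
      apply hf0
      push_cast at hρ1
      linear_combination (1/2) * hρ1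
    · rw [h] at hρ1
      apply hf0
      push_cast at hρ1
      linear_combination (-1/2) * hρ1
  have hρn1 : classInner ρ ρ = 1 := by
    rw [hρn, h1', h2', h3']
    rcases hez1 with h | h <;> rw [h] <;> norm_num
  have hρ1' : ρ 1 = ε * (f 0 : G → ℂ) 1 := by
    rw [hρ1, h1', h2', h3', hez]; push_cast; ring
  -- ρ = ε X3
  obtain ⟨X3, hX3, hρX⟩ : ∃ X3 : G → ℂ, IsIrrCharacter G X3 ∧ ρ = ε • X3 := by
    obtain ⟨n0, hn0, hn0'⟩ := (f 0).2.exists_degree
    rcases hρg.irr_or_neg_irr hρn1 with h | h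
    · refine ⟨ρ, h, ?_⟩
      obtain ⟨m, hm, hm'⟩ := h.exists_degree
      rcases hε with h5 | h5
      · rw [h5, one_smul]
      · exfalso
        rw [hm', hn0', h5] at hρ1'
        have : ((m + n0 : ℕ) : ℂ) = 0 := by push_cast; rw [hρ1']; ring
        have h6 : m + n0 = 0 := by exact_mod_cast this
        omega
    · refine ⟨-ρ, h, ?_⟩
      obtain ⟨m, hm, hm'⟩ := h.exists_degree
      rcases hε with h5 | h5
      · exfalso
        simp only [Pi.neg_apply, hρ1', hn0', h5, one_mul] at hm'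
        have : ((m + n0 : ℕ) : ℂ) = 0 := by push_cast; rw [← hm']; ring
        have h6 : m + n0 = 0 := by exact_mod_cast this
        omega
      · rw [h5, neg_smul, one_smul, neg_neg]
  have hη0 : η 0 = ε • (X3 + (f 0 : G → ℂ) - (f 1 : G → ℂ) - (f 2 : G → ℂ)) := by
    have h5 : η 0 = ρ + (p : ℂ) • (f 0 : G → ℂ) + (r : ℂ) • (f 1 : G → ℂ) +
      (s : ℂ) • (f 2 : G → ℂ) := by rw [hρ]; abel
    rw [h5, hρX, h1', h2', h3', hez]
    ext g
    simp only [Pi.add_apply, Pi.sub_apply, Pi.smul_apply, smul_eq_mul]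
    push_cast
    ring
  have hne : ∀ i j : Fin 3, i ≠ j → (f i : G → ℂ) ≠ (f j : G → ℂ) :=
    fun i j hij h => hij (hf (Subtype.ext h))
  refine ⟨ε, f 0, f 1, f 2, X3, hε, (f 0).2, (f 1).2, (f 2).2, hX3, hne _ _ (by decide),
    hne _ _ (by decide), hne _ _ (by decide), hdeg 1, hdeg 2, ?_, hη0, ?_, ?_⟩
  · have h5 := congrFun hρX 1
    rw [hρ1', Pi.smul_apply, smul_eq_mul] at h5
    have hε0 : ε ≠ 0 := fun h => by rw [h, mul_zero] at hεε; exact zero_ne_one hεε
    exact (mul_left_cancel₀ hε0 h5).symm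
  · have h5 : η 1 = η 0 - (2 * ε) • ((f 0 : G → ℂ) - (f 1 : G → ℂ)) := by
      rw [← hη 0 1]; abel
    rw [h5, hη0]
    ext g
    simp only [Pi.add_apply, Pi.sub_apply, Pi.smul_apply, smul_eq_mul]
    ring
  · have h5 : η 2 = η 0 - (2 * ε) • ((f 0 : G → ℂ) - (f 2 : G → ℂ)) := by
      rw [← hη 0 2]; abel
    rw [h5, hη0]
    ext g
    simp only [Pi.add_apply, Pi.sub_apply, Pi.smul_apply, smul_eq_mul]
    ring

end Cfsg.Agent.Lib.GoldC95
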