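import Cfsg.Agent.Lib.GoldC95a

set_option autoImplicit false

/-!
# S2755 piece C (helper1): induced functions supported on elements with 2-part `τ`
-/

namespace Cfsg.Agent.Lib.GoldC95

open scoped ComplexConjugate
open Cfsg Cfsg.Agent.Lib.CharBasic Cfsg.Agent.Lib.TIFN Cfsg.Agent.Lib.IndFun

universe u

variable {G : Type u} [Group G]

/-- the local situation: `C_G(τ) = ⟨τ⟩ × K`. -/
structure Loc (τ : G) (K : Subgroup G) : Prop where
  tt : τ * τ = 1
  tK : τ ∉ K
  cK : ∀ k ∈ K, k * τ = τ * k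
  hC : ∀ g : G, g * τ = τ * g → g ∈ K ∨ τ * g ∈ K

theorem sum_ite_mem [Fintype G] (H : Subgroup G) [Fintype H] [DecidablePred (· ∈ H)] (f : G → ℂ) :
    ∑ g : G, (if g ∈ H then f g else 0) = ∑ k : H, f k := by
  rw [← Finset.sum_filter]
  exact (Finset.sum_subtype (Finset.univ.filter (· ∈ H)) (by simp) f)

theorem sum_C [Fintype G] {τ : G} {K : Subgroup G} (h : Loc τ K) [Fintype K] (f : G → ℂ)
    (hf : ∀ g, g * τ ≠ τ * g → f g = 0) : ∑ g : G, f g = ∑ k : K, (f k + f (τ * k)) := by
  classical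
  have h1 : ∀ g : G, f g = (if g ∈ K then f g else 0) + (if τ * g ∈ K then f g else 0) := by
    intro g
    by_cases h1 : g ∈ K
    · have h2 : τ * g ∉ K := fun h3 => h.tK (by
        have := K.mul_mem h3 (K.inv_mem h1); rwa [mul_inv_cancel_right] at this)
      rw [if_pos h1, if_neg h2, add_zero]
    · by_cases h2 : τ * g ∈ K
      · rw [if_neg h1, if_pos h2, zero_add]
      · rw [if_neg h1, if_neg h2, add_zero]
        apply hf
        intro h3
        rcases h.hC g h3 with h4 | h4
        · exact h1 h4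
        · exact h2 h4
  rw [Finset.sum_congr rfl (fun g _ => h1 g), Finset.sum_add_distrib, sum_ite_mem,
    Finset.sum_add_distrib]
  congr 1
  rw [← sum_ite_mem K (fun g => f (τ * g))]
  refine Fintype.sum_equiv (Equiv.mulLeft τ) _ _ ?_
  intro g
  have h3 : τ * ((Equiv.mulLeft τ) g) = g := by
    show τ * (τ * g) = g
    rw [← mul_assoc, h.tt, one_mul]
  by_cases hg : (Equiv.mulLeft τ) g ∈ K
  · rw [if_pos hg, h3]; exact if_pos hg
  · rw [if_neg hg]; exact if_neg hg

theorem mul_pow_comm {a b : G} (h : b * a = a * b) (n : ℕ) : (a * b) ^ n = a ^ n * b ^ n :=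
  (show Commute a b from h.symm).mul_pow n

theorem tau_pow {τ : G} (htt : τ * τ = 1) {N : ℕ} (hN : Odd N) : τ ^ N = τ := by
  obtain ⟨m, rfl⟩ := hN
  rw [pow_succ, pow_mul, sq, htt, one_pow, one_mul]

/-- values at `τ ρ` of a function induced from a subgroup -/
theorem ind_val [Fintype G] {τ : G} {K : Subgroup G} (h : Loc τ K) [Fintype K] (H : Subgroup G)
    (θ : H → ℂ) (F : G → ℂ) (hF : ∀ z, extendByZero H θ (τ * z) = F z) (N : ℕ) (hN : Odd N)
    (hFN : ∀ z, F z ≠ 0 → z * τ = τ * z ∧ z ^ N = 1) (ρ : G) (hρ : ρ * τ = τ * ρ)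
    (hρN : ρ ^ N = 1) :
    indFun H θ (τ * ρ) = (Nat.card H : ℂ)⁻¹ * (2 * ∑ k : K, F ((k : G)⁻¹ * ρ * k)) := by
  rw [indFun_apply]
  congr 1
  rw [sum_C h (fun x => extendByZero H θ (x⁻¹ * (τ * ρ) * x)), Finset.mul_sum]
  · refine Finset.sum_congr rfl fun k _ => ?_
    have h1 := h.cK k k.2
    have h1' : (k : G)⁻¹ * τ = τ * (k : G)⁻¹ := h.cK _ (K.inv_mem k.2)
    have e1 : (k : G)⁻¹ * (τ * ρ) * k = τ * ((k : G)⁻¹ * ρ * k) := by
      rw [← mul_assoc, h1']; simp only [mul_assoc]
    have e2 : (τ * (k : G))⁻¹ * (τ * ρ) * (τ * k) = τ * ((k : G)⁻¹ * ρ * k) := by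
      calc (τ * (k : G))⁻¹ * (τ * ρ) * (τ * k) = (k : G)⁻¹ * (ρ * τ) * k := by group
        _ = (k : G)⁻¹ * (τ * ρ) * k := by rw [hρ]
        _ = _ := e1
    rw [e1, e2, hF]; ring
  · intro x hx
    by_contra hne
    apply hx
    set z := τ⁻¹ * (x⁻¹ * (τ * ρ) * x) with hz
    have hz' : x⁻¹ * (τ * ρ) * x = τ * z := by rw [hz]; group
    rw [hz', hF] at hne
    obtain ⟨h1, h2⟩ := hFN z hne
    have h3 : (x⁻¹ * (τ * ρ) * x) ^ N = x⁻¹ * τ * x := by
      have h4 : x⁻¹ * (τ * ρ) * x = (MulAut.conj x⁻¹) (τ * ρ) := by simp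
      rw [h4, ← map_pow, mul_pow_comm hρ, hρN, mul_one, tau_pow h.tt hN]
      simp
    rw [hz', mul_pow_comm h1, h2, mul_one, tau_pow h.tt hN] at h3
    calc x * τ = x * (x⁻¹ * τ * x) := by rw [← h3]
      _ = τ * x := by group

/-- Frobenius reciprocity for functions on `H` supported on `τ O`. -/
theorem pair_val [Fintype G] (τ : G) (H : Subgroup G) (θ : H → ℂ)
    (F : G → ℂ) (hF : ∀ z, extendByZero H θ (τ * z) = F z) (χ : G → ℂ) (hχ : IsClassFunction G χ) :
    classInner (indFun H θ) χ = (Nat.card H : ℂ)⁻¹ * ∑ g : G, F g * conj (χ (τ * g)) := by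
  classical
  have := Fintype.ofFinite H
  rw [frobenius_reciprocity H θ χ hχ]
  unfold classInner
  congr 1
  rw [← sum_extendByZero_mul H θ (fun g => conj (χ g))]
  refine Fintype.sum_equiv (Equiv.mulLeft τ⁻¹) _ _ ?_
  intro g
  simp only [Equiv.coe_mulLeft]
  rw [← hF, mul_inv_cancel_left]

/-- `B ∪ d B` for an involution `d` centralizing `B`. -/
def ext2 (B : Subgroup G) (d : G) (hd : d * d = 1) (hc : ∀ b ∈ B, b * d = d * b) : Subgroup G where
  carrier := {g | g ∈ B ∨ d * g ∈ B}
  one_mem' := Or.inl B.one_mem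
  mul_mem' := by
    intro a b ha hb
    rcases ha with ha | ha <;> rcases hb with hb | hb
    · exact Or.inl (B.mul_mem ha hb)
    · right
      have : d * (a * b) = a * (d * b) := by rw [← mul_assoc, ← hc a ha, mul_assoc]
      rw [this]; exact B.mul_mem ha hb
    · right
      rw [← mul_assoc]; exact B.mul_mem ha hb
    · left
      have h1 := hc _ ha
      have : a * b = (d * a) * (d * b) := by
        have h2 : d * a * d = a := by
          rw [h1, ← mul_assoc, hd, one_mul]
        rw [← mul_assoc, h2]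
      rw [this]; exact B.mul_mem ha hb
  inv_mem' := by
    intro a ha
    rcases ha with ha | ha
    · exact Or.inl (B.inv_mem ha)
    · right
      have h1 := B.inv_mem ha
      have h2 := hc _ h1
      have hdi : d⁻¹ = d := inv_eq_of_mul_eq_one_right hd
      have : d * a⁻¹ = (d * a)⁻¹ := by
        rw [mul_inv_rev, hdi] at h2 ⊢
        calc d * a⁻¹ = d * (a⁻¹ * d) * d := by
              rw [← mul_assoc, mul_assoc (d * a⁻¹), hd, mul_one]
          _ = a⁻¹ * d * d * d := by rw [← h2]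
          _ = a⁻¹ * d := by rw [mul_assoc (a⁻¹ * d), hd, mul_one]
      rw [this]; exact h1

theorem mem_ext2 {B : Subgroup G} {d : G} {hd : d * d = 1} {hc : ∀ b ∈ B, b * d = d * b} {g : G} :
    g ∈ ext2 B d hd hc ↔ g ∈ B ∨ d * g ∈ B := Iff.rfl

theorem card_ext2 [Finite G] {B : Subgroup G} {d : G} {hd : d * d = 1}
    {hc : ∀ b ∈ B, b * d = d * b} (hdB : d ∉ B) :
    Nat.card (ext2 B d hd hc) = 2 * Nat.card B := by
  classical
  have hnot : ∀ b : B, d * (b : G) ∉ B := fun b h => hdB (by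
    have := B.mul_mem h (B.inv_mem b.2); rwa [mul_inv_cancel_right] at this)
  have e : ext2 B d hd hc ≃ B ⊕ B :=
    { toFun := fun g => if h : (g : G) ∈ B then Sum.inl ⟨g, h⟩ else
        Sum.inr ⟨d * g, (mem_ext2.1 g.2).resolve_left h⟩
      invFun := fun s => Sum.elim (fun b : B => (⟨(b : G), mem_ext2.2 (Or.inl b.2)⟩ : ext2 B d hd hc))
        (fun b : B => (⟨d * (b : G),
          mem_ext2.2 (Or.inr (by rw [← mul_assoc, hd, one_mul]; exact b.2))⟩ :
          ext2 B d hd hc)) s
      left_inv := by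
        intro g
        by_cases h : (g : G) ∈ B
        · simp [h]
        · simp only [h, dif_neg, not_false_eq_true, Sum.elim_inr]
          apply Subtype.ext
          show d * (d * (g : G)) = g
          rw [← mul_assoc, hd, one_mul]
      right_inv := by
        rintro (b | b)
        · simp
        · simp only [Sum.elim_inr]
          refine (dif_neg (hnot b)).trans ?_
          congr 1
          apply Subtype.ext
          show d * (d * (b : G)) = b
          rw [← mul_assoc, hd, one_mul] }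
  rw [Nat.card_congr e, Nat.card_sum]; ring

/-- a sign character -/
theorem exists_sgn (A B : Subgroup G) (hBA : B ≤ A) (e : G) (he : e * e = 1)
    (hce : ∀ b ∈ B, b * e = e * b) (hA : ∀ g ∈ A, g ∈ B ∨ e * g ∈ B) :
    ∃ s : A →* ℂ, ∀ g : A, ((g : G) ∈ B → s g = 1) ∧ ((g : G) ∉ B → s g = -1) := by
  classical
  refine ⟨{ toFun := fun g => if (g : G) ∈ B then 1 else -1
            map_one' := by simp [B.one_mem]
            map_mul' := ?_ }, fun g => ⟨fun h => if_pos h, fun h => if_neg h⟩⟩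
  intro a b
  by_cases ha : (a : G) ∈ B
  · by_cases hb : (b : G) ∈ B
    · rw [if_pos ha, if_pos hb, if_pos (show ((a * b : A) : G) ∈ B from B.mul_mem ha hb)]; norm_num
    · rw [if_pos ha, if_neg hb, if_neg]
      · norm_num
      · intro h
        apply hb
        have := B.mul_mem (B.inv_mem ha) h
        simpa using this
  · by_cases hb : (b : G) ∈ B
    · rw [if_neg ha, if_pos hb, if_neg]
      · norm_num
      · intro h
        apply ha
        have := B.mul_mem h (B.inv_mem hb)
        simpa using this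
    · have h1 := (hA _ a.2).resolve_left ha
      have h2 := (hA _ b.2).resolve_left hb
      have h3 := hce _ h1
      have h4 : ((a * b : A) : G) = (e * a) * (e * b) := by
        have h5 : e * (a : G) * e = a := by rw [h3, ← mul_assoc, he, one_mul]
        rw [← mul_assoc, h5]; rfl
      rw [if_neg ha, if_neg hb, if_pos (by rw [h4]; exact B.mul_mem h1 h2)]
      norm_num

/-- lifting a linear character of an odd order subgroup -/
theorem exists_lift (A O : Subgroup G) (hAc : ∀ a ∈ A, ∀ b ∈ A, a * b = b * a) (N : ℕ)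
    (hN : ∀ a ∈ A, a ^ (N + 1) ∈ O) (μ : O →* ℂ) :
    ∃ m : A →* ℂ, ∀ g : A, m g = μ ⟨(g : G) ^ (N + 1), hN g g.2⟩ := by
  refine ⟨{ toFun := fun g => μ ⟨(g : G) ^ (N + 1), hN g g.2⟩
            map_one' := ?_
            map_mul' := ?_ }, fun g => rfl⟩
  · rw [← map_one μ]
    congr 1
    apply Subtype.ext
    simp
  · intro a b
    rw [← map_mul]
    congr 1
    apply Subtype.ext
    show ((a : G) * b) ^ (N + 1) = (a : G) ^ (N + 1) * (b : G) ^ (N + 1)
    exact mul_pow_comm (hAc _ b.2 _ a.2) _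

theorem ext_val (τ : G) (H : Subgroup G) (F : G → ℂ) (htt : τ * τ = 1)
    (hF : ∀ z, F z ≠ 0 → τ * z ∈ H) (z : G) :
    extendByZero H (fun h : H => F (τ * h)) (τ * z) = F z := by
  by_cases h : τ * z ∈ H
  · rw [extendByZero_mem _ _ h]
    show F (τ * (τ * z)) = F z
    rw [← mul_assoc, htt, one_mul]
  · rw [extendByZero_not_mem _ _ h]
    by_contra hne
    exact h (hF z (Ne.symm hne))

theorem conj_hom {A : Type u} [Group A] [Finite A] (μ : A →* ℂ) (w : A) : conj (μ w) = μ w⁻¹ := by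
  have h := (isCharacter_of_hom μ).inv w
  exact h.symm

theorem sum_hom {A : Type u} [Group A] [Fintype A] (μ : A →* ℂ) (h : μ ≠ 1) : ∑ w, μ w = 0 := by
  classical
  exact sum_hom_units_eq_zero μ h

end Cfsg.Agent.Lib.GoldC95
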