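import Cfsg.Agent.Lib.GoldC95b

set_option autoImplicit false

/-!
# S2755 piece C (helper1): values and inner products
-/

namespace Cfsg.Agent.Lib.GoldC95

open scoped ComplexConjugate
open Cfsg Cfsg.Agent.Lib.CharBasic Cfsg.Agent.Lib.TIFN Cfsg.Agent.Lib.IndFun
open Cfsg.Agent.Lib.StructConst

universe u

variable {G : Type u} [Group G]

/-- the data: `C_G(τ) = ⟨τ⟩ × K`, `P` Sylow and `U` in a torus of `K`. -/
structure Dat (τ : G) (K P U : Subgroup G) (q : ℕ) : Prop extends Loc τ K where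
  PK : P ≤ K
  UK : U ≤ K
  Pc : ∀ a ∈ P, ∀ b ∈ P, a * b = b * a
  Uc : ∀ a ∈ U, ∀ b ∈ U, a * b = b * a
  cP : Nat.card P = q
  cU : 4 * Nat.card U = q + 1
  cKK : 2 * Nat.card K + q = q ^ 3
  qodd : Odd q
  q3 : 3 ≤ q
  Uodd : Odd (Nat.card U)
  F1 : ∀ x ∈ P, x ≠ 1 → ∀ z ∈ P, z ≠ 1 → Nat.card {k : K // (k : G)⁻¹ * x * k = z} +
    Nat.card {k : K // (k : G)⁻¹ * x * k = z⁻¹} = q
  F1' : ∀ x ∈ P, x ≠ 1 → ∀ k ∈ K, k⁻¹ * x * k ≠ x⁻¹
  F2 : ∀ w ∈ U, w ≠ 1 → ∀ k ∈ K, k⁻¹ * w * k ∈ U → k⁻¹ * w * k = w ∨ k⁻¹ * w * k = w⁻¹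
  F2a : ∀ w ∈ U, w ≠ 1 → 2 * Nat.card {k : K // (k : G)⁻¹ * w * k = w} = q + 1
  F2b : ∀ w ∈ U, w ≠ 1 → 2 * Nat.card {k : K // (k : G)⁻¹ * w * k = w⁻¹} = q + 1
  F2c : ∀ w ∈ U, w ≠ 1 → ∀ k ∈ K, k⁻¹ * w * k = w⁻¹ → k * k = 1
  F3 : 2 * Nat.card {k : K // k * k = 1 ∧ k ≠ 1} + q = q ^ 2
  F4 : ∀ k ∈ K, k * k = 1 → k ≠ 1 → IsConj τ k
  F4' : ∀ k ∈ K, k * k = 1 → IsConj τ (τ * k)

namespace Dat

variable {τ : G} {K P U : Subgroup G} {q : ℕ}

/-- the function on `G` vanishing off `P` -/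
noncomputable def Lam (P : Subgroup G) (lam : P →* ℂ) (g : G) : ℂ := extendByZero P (fun x => lam x) g

theorem Lam_mem {P : Subgroup G} {lam : P →* ℂ} {g : G} (h : g ∈ P) : Lam P lam g = lam ⟨g, h⟩ :=
  extendByZero_mem P _ h

theorem Lam_not_mem {P : Subgroup G} {lam : P →* ℂ} {g : G} (h : g ∉ P) : Lam P lam g = 0 :=
  extendByZero_not_mem P _ h

theorem Lam_one {P : Subgroup G} {lam : P →* ℂ} : Lam P lam 1 = 1 := by
  rw [Lam_mem P.one_mem]; exact map_one lam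

theorem sum_Lam_mul [Fintype G] (P : Subgroup G) [Fintype P] (lam : P →* ℂ) (f : G → ℂ) :
    ∑ g, Lam P lam g * f g = ∑ x : P, lam x * f x :=
  sum_extendByZero_mul P (fun x => lam x) f

theorem sum_Lam [Fintype G] (P : Subgroup G) (lam : P →* ℂ) (h : lam ≠ 1) :
    ∑ g, Lam P lam g = 0 := by
  have := Fintype.ofFinite P
  have h1 := sum_Lam_mul P lam (fun _ => 1)
  simp only [mul_one] at h1
  rw [h1, sum_hom lam h]

theorem sum_Lam_inv [Fintype G] (P : Subgroup G) (lam : P →* ℂ) (h : lam ≠ 1) :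
    ∑ g, Lam P lam g⁻¹ = 0 := by
  rw [← sum_Lam P lam h]
  exact Fintype.sum_equiv (Equiv.inv G) _ _ (fun g => rfl)

/-- sum over `K` of `Lam` on conjugates -/
theorem sum_conj_Lam [Fintype G] (K P : Subgroup G) [Fintype K] [Fintype P] (lam : P →* ℂ) (x : G) :
    ∑ k : K, Lam P lam ((k : G)⁻¹ * x * k) =
      ∑ z : P, lam z * (Nat.card {k : K // (k : G)⁻¹ * x * k = z} : ℂ) := by
  classical
  have h1 : ∀ k : K, Lam P lam ((k : G)⁻¹ * x * k) =
      ∑ z : P, lam z * (if (k : G)⁻¹ * x * k = z then 1 else 0) := by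
    intro k
    by_cases h : (k : G)⁻¹ * x * k ∈ P
    · rw [Lam_mem h, Finset.sum_eq_single ⟨_, h⟩]
      · rw [if_pos rfl, mul_one]
      · intro b _ hb
        rw [if_neg, mul_zero]
        intro hc
        exact hb (Subtype.ext hc.symm)
      · intro hc; exact absurd (Finset.mem_univ _) hc
    · rw [Lam_not_mem h, Finset.sum_eq_zero]
      intro z _
      rw [if_neg, mul_zero]
      intro hc
      exact h (hc ▸ z.2)
  rw [Finset.sum_congr rfl (fun k _ => h1 k), Finset.sum_comm]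
  refine Finset.sum_congr rfl fun z _ => ?_
  rw [← Finset.mul_sum]
  congr 1
  rw [Nat.card_eq_fintype_card, Fintype.card_subtype, Finset.card_eq_sum_ones, Finset.sum_filter]
  push_cast
  rfl

theorem sum_conj_Lam_inv [Fintype G] (K P : Subgroup G) [Fintype K] [Fintype P] (lam : P →* ℂ)
    (x : G) :
    ∑ k : K, Lam P lam ((k : G)⁻¹ * x * k)⁻¹ =
      ∑ z : P, lam z * (Nat.card {k : K // (k : G)⁻¹ * x * k = (z : G)⁻¹} : ℂ) := by
  have h1 : ∀ k : K, ((k : G)⁻¹ * x * k)⁻¹ = (k : G)⁻¹ * x⁻¹ * k := fun k => by group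
  simp only [h1]
  rw [sum_conj_Lam K P lam x⁻¹]
  refine Finset.sum_congr rfl fun z _ => ?_
  congr 2
  apply Nat.card_congr
  apply Equiv.subtypeEquivRight
  intro k
  constructor
  · intro h; rw [← h]; group
  · intro h
    have := congrArg (fun t => t⁻¹) h
    simp only [inv_inv] at this
    rw [← this]; group

variable (D : Dat τ K P U q)
include D

theorem pow_P {x : G} (hx : x ∈ P) : x ^ q = 1 := by
  have h := pow_card_eq_one' (G := P) (x := ⟨x, hx⟩)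
  rw [D.cP] at h
  exact congrArg Subtype.val h

omit D in
theorem pow_U {x : G} (hx : x ∈ U) : x ^ (Nat.card U) = 1 := by
  have h := pow_card_eq_one' (G := U) (x := ⟨x, hx⟩)
  exact congrArg Subtype.val h

theorem one_of {x : G} (h1 : x ^ q = 1) (h2 : x ^ (Nat.card U) = 1) : x = 1 := by
  have h3 : x ^ (q + 1) = 1 := by rw [← D.cU, mul_comm, pow_mul, h2, one_pow]
  rw [pow_succ, h1, one_mul] at h3
  exact h3

/-- exponent -/
theorem powN {x : G} (hx : x ∈ P ∨ x ∈ U) : x ^ (q * Nat.card U) = 1 := by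
  rcases hx with h | h
  · rw [pow_mul, D.pow_P h, one_pow]
  · rw [mul_comm, pow_mul, Dat.pow_U h, one_pow]

theorem oddN : Odd (q * Nat.card U) := D.qodd.mul D.Uodd

theorem ne_inv {x : G} (hx : x ∈ P ∨ x ∈ U) (h1 : x ≠ 1) : x * x ≠ 1 := by
  intro h
  apply h1
  have h2 := D.powN hx
  rwa [tau_pow h D.oddN] at h2

theorem not_P_of_U {x k : G} (hx : x ∈ U) (h1 : x ≠ 1) : k⁻¹ * x * k ∉ P := by
  intro h
  apply h1
  have h2 := D.pow_P h
  have h3 : (k⁻¹ * x * k) ^ (Nat.card U) = 1 := by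
    have h4 : k⁻¹ * x * k = (MulAut.conj k⁻¹) x := by simp
    rw [h4, ← map_pow, Dat.pow_U hx, map_one]
  have h4 := D.one_of h2 h3
  calc x = k * (k⁻¹ * x * k) * k⁻¹ := by group
    _ = 1 := by rw [h4]; group

theorem not_U_of_P {x k : G} (hx : x ∈ P) (h1 : x ≠ 1) : k⁻¹ * x * k ∉ U := by
  intro h
  apply h1
  have h2 := Dat.pow_U h
  have h3 : (k⁻¹ * x * k) ^ q = 1 := by
    have h4 : k⁻¹ * x * k = (MulAut.conj k⁻¹) x := by simp
    rw [h4, ← map_pow, D.pow_P hx, map_one]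
  have h4 := D.one_of h3 h2
  calc x = k * (k⁻¹ * x * k) * k⁻¹ := by group
    _ = 1 := by rw [h4]; group

omit D in
theorem sumP_one [Fintype G] [Fintype K] (lam : P →* ℂ) :
    ∑ k : K, (Lam P lam ((k : G)⁻¹ * 1 * k) + Lam P lam ((k : G)⁻¹ * 1 * k)⁻¹) =
      2 * (Nat.card K : ℂ) := by
  have : ∀ k : K, (Lam P lam ((k : G)⁻¹ * 1 * k) + Lam P lam ((k : G)⁻¹ * 1 * k)⁻¹) = 2 := by
    intro k
    rw [mul_one, inv_mul_cancel, inv_one, Lam_one]; norm_num
  rw [Finset.sum_congr rfl (fun k _ => this k), Finset.sum_const, Finset.card_univ, nsmul_eq_mul,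
    Nat.card_eq_fintype_card]
  ring

theorem sumP_P [Fintype G] [Fintype K] (lam : P →* ℂ) (hl : lam ≠ 1) {x : G} (hx : x ∈ P)
    (h1 : x ≠ 1) :
    ∑ k : K, (Lam P lam ((k : G)⁻¹ * x * k) + Lam P lam ((k : G)⁻¹ * x * k)⁻¹) = -(q : ℂ) := by
  classical
  have := Fintype.ofFinite P
  rw [Finset.sum_add_distrib, sum_conj_Lam, sum_conj_Lam_inv, ← Finset.sum_add_distrib]
  have h2 : ∀ z : P, lam z * (Nat.card {k : K // (k : G)⁻¹ * x * k = z} : ℂ) +
      lam z * (Nat.card {k : K // (k : G)⁻¹ * x * k = (z : G)⁻¹} : ℂ) =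
      (q : ℂ) * lam z - (if z = 1 then (q : ℂ) else 0) := by
    intro z
    by_cases hz : z = 1
    · subst hz
      have e1 : Nat.card {k : K // (k : G)⁻¹ * x * k = ((1 : P) : G)} = 0 := by
        rw [Nat.card_eq_zero]; left
        refine ⟨fun k => h1 ?_⟩
        have : (k.1 : G)⁻¹ * x * k.1 = 1 := k.2
        calc x = (k.1 : G) * ((k.1 : G)⁻¹ * x * k.1) * (k.1 : G)⁻¹ := by group
          _ = 1 := by rw [this]; group
      have e2 : Nat.card {k : K // (k : G)⁻¹ * x * k = ((1 : P) : G)⁻¹} = 0 := by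
        rw [OneMemClass.coe_one, inv_one]; rwa [OneMemClass.coe_one] at e1
      rw [e1, e2, if_pos rfl, map_one]; simp
    · rw [if_neg hz, ← mul_add]
      have h3 := D.F1 x hx h1 z z.2 (fun h => hz (Subtype.ext h))
      rw [← h3]; push_cast; ring
  rw [Finset.sum_congr rfl (fun z _ => h2 z), Finset.sum_sub_distrib, ← Finset.mul_sum,
    sum_hom lam hl, mul_zero, Finset.sum_ite_eq' Finset.univ (1 : P), if_pos (Finset.mem_univ _),
    zero_sub]

theorem sumP_U [Fintype G] [Fintype K] (lam : P →* ℂ) {x : G} (hx : x ∈ U)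
    (h1 : x ≠ 1) :
    ∑ k : K, (Lam P lam ((k : G)⁻¹ * x * k) + Lam P lam ((k : G)⁻¹ * x * k)⁻¹) = 0 := by
  apply Finset.sum_eq_zero
  intro k _
  have h2 := D.not_P_of_U (k := (k : G)) hx h1
  rw [Lam_not_mem h2, Lam_not_mem (fun h => h2 (by simpa using P.inv_mem h)), add_zero]

omit D in
theorem sumU_one [Fintype G] [Fintype K] (mu : U →* ℂ) :
    ∑ k : K, Lam U mu ((k : G)⁻¹ * 1 * k) = (Nat.card K : ℂ) := by
  have : ∀ k : K, Lam U mu ((k : G)⁻¹ * 1 * k) = 1 := by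
    intro k
    rw [mul_one, inv_mul_cancel, Lam_one]
  rw [Finset.sum_congr rfl (fun k _ => this k), Finset.sum_const, Finset.card_univ, nsmul_eq_mul,
    Nat.card_eq_fintype_card, mul_one]

theorem sumU_P [Fintype G] [Fintype K] (mu : U →* ℂ) {x : G} (hx : x ∈ P) (h1 : x ≠ 1) :
    ∑ k : K, Lam U mu ((k : G)⁻¹ * x * k) = 0 := by
  apply Finset.sum_eq_zero
  intro k _
  exact Lam_not_mem (D.not_U_of_P hx h1)

theorem sumU_U [Fintype G] [Fintype K] (mu : U →* ℂ) {w : G} (hw : w ∈ U) (h1 : w ≠ 1) :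
    2 * ∑ k : K, Lam U mu ((k : G)⁻¹ * w * k) = ((q : ℂ) + 1) * (Lam U mu w + Lam U mu w⁻¹) := by
  classical
  have hne : w ≠ w⁻¹ := fun h => D.ne_inv (Or.inr hw) h1 (by
    nth_rewrite 2 [h]; exact mul_inv_cancel w)
  have h2 : ∀ k : K, Lam U mu ((k : G)⁻¹ * w * k) =
      Lam U mu w * (if (k : G)⁻¹ * w * k = w then 1 else 0) +
      Lam U mu w⁻¹ * (if (k : G)⁻¹ * w * k = w⁻¹ then 1 else 0) := by
    intro k
    by_cases h3 : (k : G)⁻¹ * w * k ∈ U
    · rcases D.F2 w hw h1 k k.2 h3 with h4 | h4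
      · rw [h4, if_pos rfl, if_neg hne]; ring
      · rw [h4, if_pos rfl, if_neg hne.symm]; ring
    · rw [Lam_not_mem h3, if_neg (fun h => h3 (by rw [h]; exact hw)),
        if_neg (fun h => h3 (by rw [h]; exact U.inv_mem hw))]
      ring
  have hcard : ∀ z : G, ∑ k : K, (if (k : G)⁻¹ * w * k = z then (1 : ℂ) else 0) =
      (Nat.card {k : K // (k : G)⁻¹ * w * k = z} : ℂ) := by
    intro z
    rw [Nat.card_eq_fintype_card, Fintype.card_subtype, Finset.card_eq_sum_ones, Finset.sum_filter]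
    push_cast
    rfl
  rw [Finset.sum_congr rfl (fun k _ => h2 k), Finset.sum_add_distrib, ← Finset.mul_sum,
    ← Finset.mul_sum, hcard, hcard]
  have h3 : (2 : ℂ) * (Nat.card {k : K // (k : G)⁻¹ * w * k = w} : ℂ) = q + 1 := by
    exact_mod_cast D.F2a w hw h1
  have h4 : (2 : ℂ) * (Nat.card {k : K // (k : G)⁻¹ * w * k = w⁻¹} : ℂ) = q + 1 := by
    exact_mod_cast D.F2b w hw h1
  linear_combination Lam U mu w * h3 + Lam U mu w⁻¹ * h4

end Dat

end Cfsg.Agent.Lib.GoldC95
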