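import Cfsg.Agent.Lib.GoldC95c

set_option autoImplicit false

/-!
# S2755 piece C (helper1): the generalized characters `eta`
-/

namespace Cfsg.Agent.Lib.GoldC95

open scoped ComplexConjugate
open Cfsg Cfsg.Agent.Lib.CharBasic Cfsg.Agent.Lib.TIFN Cfsg.Agent.Lib.IndFun
open Cfsg.Agent.Lib.StructConst

universe u

variable {G : Type u} [Group G]

namespace Dat

variable {τ : G} {K P U : Subgroup G} {q : ℕ}

/-- function supported on `P` -/
noncomputable def FP (lam : P →* ℂ) (z : G) : ℂ := 4 * (Lam P lam z + Lam P lam z⁻¹)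

/-- function supported on `U` -/
noncomputable def FU (mu : U →* ℂ) (z : G) : ℂ := 4 * Lam U mu z

theorem mem_of_FP {lam : P →* ℂ} {z : G} (h : FP lam z ≠ 0) : z ∈ P := by
  by_contra h2
  apply h
  unfold FP
  rw [Lam_not_mem h2, Lam_not_mem (fun h => h2 (by simpa using P.inv_mem h))]
  ring

theorem mem_of_FU {mu : U →* ℂ} {z : G} (h : FU mu z ≠ 0) : z ∈ U := by
  by_contra h2
  apply h
  unfold FU
  rw [Lam_not_mem h2]
  ring

/-- the generalized character -/
noncomputable def eta [Fintype G] (τ : G) (A E : Subgroup G) (lam : P →* ℂ) (mu : U →* ℂ) :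
    G → ℂ :=
  indFun A (fun h : A => FP lam (τ * h)) - indFun E (fun h : E => FU mu (τ * h))

variable (D : Dat τ K P U q)
include D

theorem q_ne : (q : ℂ) ≠ 0 := by
  have := D.q3
  exact_mod_cast (by omega : q ≠ 0)

omit [Group G] D in
theorem q1_ne {q : ℕ} : (q : ℂ) + 1 ≠ 0 := by exact_mod_cast Nat.succ_ne_zero q

theorem cardK_eq : 2 * (Nat.card K : ℂ) = q ^ 3 - q := by
  have := D.cKK
  have h : (2 * (Nat.card K : ℂ)) + q = q ^ 3 := by exact_mod_cast this
  linear_combination h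

theorem cardU_eq : 4 * (Nat.card U : ℂ) = q + 1 := by exact_mod_cast D.cU

variable {A E : Subgroup G} (hA : Nat.card A = 2 * q) (hAP : ∀ z ∈ P, τ * z ∈ A)
  (hE : Nat.card E = q + 1) (hEU : ∀ z ∈ U, τ * z ∈ E)

include hA hAP in
theorem indP_val [Fintype G] [Fintype K] (lam : P →* ℂ) {ρ : G} (hρ : ρ ∈ P ∨ ρ ∈ U) :
    indFun A (fun h : A => FP lam (τ * h)) (τ * ρ) = (q : ℂ)⁻¹ *
      (4 * ∑ k : K, (Lam P lam ((k : G)⁻¹ * ρ * k) + Lam P lam ((k : G)⁻¹ * ρ * k)⁻¹)) := by
  have hρK : ρ ∈ K := hρ.elim (fun h => D.PK h) (fun h => D.UK h)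
  rw [ind_val D.toLoc A _ (FP lam) (ext_val τ A (FP lam) D.tt (fun z hz => hAP z (mem_of_FP hz)))
    (q * Nat.card U) D.oddN (fun z hz => ⟨D.cK z (D.PK (mem_of_FP hz)),
      D.powN (Or.inl (mem_of_FP hz))⟩) ρ (D.cK ρ hρK) (D.powN hρ), hA]
  unfold FP
  rw [← Finset.mul_sum]
  push_cast
  have := D.q_ne
  field_simp

include hE hEU in
theorem indU_val [Fintype G] [Fintype K] (mu : U →* ℂ) {ρ : G} (hρ : ρ ∈ P ∨ ρ ∈ U) :
    indFun E (fun h : E => FU mu (τ * h)) (τ * ρ) = ((q : ℂ) + 1)⁻¹ *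
      (4 * (2 * ∑ k : K, Lam U mu ((k : G)⁻¹ * ρ * k))) := by
  have hρK : ρ ∈ K := hρ.elim (fun h => D.PK h) (fun h => D.UK h)
  rw [ind_val D.toLoc E _ (FU mu) (ext_val τ E (FU mu) D.tt (fun z hz => hEU z (mem_of_FU hz)))
    (q * Nat.card U) D.oddN (fun z hz => ⟨D.cK z (D.UK (mem_of_FU hz)),
      D.powN (Or.inr (mem_of_FU hz))⟩) ρ (D.cK ρ hρK) (D.powN hρ), hE]
  unfold FU
  rw [← Finset.mul_sum]
  push_cast
  have := (q1_ne (q := q))
  field_simp

include hA hAP hE hEU

theorem eta_tau [Fintype G] (lam : P →* ℂ) (mu : U →* ℂ) :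
    eta τ A E lam mu τ = 4 * ((q : ℂ) - 1) := by
  classical
  have := Fintype.ofFinite K
  have h1 : τ = τ * 1 := (mul_one τ).symm
  unfold eta
  rw [Pi.sub_apply]
  conv_lhs => rw [h1]
  rw [← h1]
  have e1 := D.indP_val hA hAP lam (ρ := 1) (Or.inl P.one_mem)
  have e2 := D.indU_val hE hEU mu (ρ := 1) (Or.inl P.one_mem)
  rw [sumP_one] at e1
  rw [sumU_one] at e2
  rw [mul_one] at e1 e2
  rw [e1, e2]
  have h2 := D.cardK_eq
  have h3 := D.q_ne
  have h4 := (q1_ne (q := q))
  field_simp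
  linear_combination h2

theorem eta_P [Fintype G] (lam : P →* ℂ) (hl : lam ≠ 1) (mu : U →* ℂ) {x : G} (hx : x ∈ P)
    (h1 : x ≠ 1) : eta τ A E lam mu (τ * x) = -4 := by
  classical
  have := Fintype.ofFinite K
  unfold eta
  rw [Pi.sub_apply, D.indP_val hA hAP lam (Or.inl hx), D.indU_val hE hEU mu (Or.inl hx),
    D.sumP_P lam hl hx h1, D.sumU_P mu hx h1]
  have h3 := D.q_ne
  field_simp
  ring

theorem eta_U [Fintype G] (lam : P →* ℂ) (mu : U →* ℂ) {w : G} (hw : w ∈ U)
    (h1 : w ≠ 1) : eta τ A E lam mu (τ * w) = -4 * (Lam U mu w + Lam U mu w⁻¹) := by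
  classical
  have := Fintype.ofFinite K
  unfold eta
  rw [Pi.sub_apply, D.indP_val hA hAP lam (Or.inr hw), D.indU_val hE hEU mu (Or.inr hw),
    D.sumP_U lam hw h1, D.sumU_U mu hw h1]
  have h4 := (q1_ne (q := q))
  field_simp
  ring

omit hE hEU in
theorem pairP [Fintype G] (lam : P →* ℂ) (hl : lam ≠ 1) (χ : G → ℂ) (hχ : IsClassFunction G χ)
    (c1 c' : ℂ) (h1 : χ τ = c1) (h2 : ∀ x ∈ P, x ≠ 1 → χ (τ * x) = c') :
    classInner (indFun A (fun h : A => FP lam (τ * h))) χ = (2 * (q : ℂ))⁻¹ *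
      (8 * conj (c1 - c')) := by
  classical
  rw [pair_val τ A _ (FP lam) (ext_val τ A (FP lam) D.tt (fun z hz => hAP z (mem_of_FP hz))) χ hχ,
    hA]
  push_cast
  congr 1
  have h3 : ∀ g : G, FP lam g * conj (χ (τ * g)) = 4 * conj c' * Lam P lam g +
      4 * conj c' * Lam P lam g⁻¹ + (if g = 1 then 8 * conj (c1 - c') else 0) := by
    intro g
    by_cases hg1 : g = 1
    · subst hg1
      rw [if_pos rfl, mul_one, h1]
      unfold FP
      rw [inv_one, Lam_one, map_sub]
      ring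
    · rw [if_neg hg1]
      by_cases hg : g ∈ P
      · rw [h2 g hg hg1]
        unfold FP
        ring
      · unfold FP
        rw [Lam_not_mem hg, Lam_not_mem (fun h => hg (by simpa using P.inv_mem h))]
        ring
  rw [Finset.sum_congr rfl (fun g _ => h3 g), Finset.sum_add_distrib, Finset.sum_add_distrib,
    ← Finset.mul_sum, ← Finset.mul_sum, sum_Lam P lam hl, sum_Lam_inv P lam hl,
    Finset.sum_ite_eq' Finset.univ (1 : G), if_pos (Finset.mem_univ _)]
  ring

omit hA hAP in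
theorem pairU [Fintype G] [Fintype U] (mu : U →* ℂ) (χ : G → ℂ) (hχ : IsClassFunction G χ) :
    classInner (indFun E (fun h : E => FU mu (τ * h))) χ = ((q : ℂ) + 1)⁻¹ *
      (4 * ∑ w : U, mu w * conj (χ (τ * w))) := by
  classical
  rw [pair_val τ E _ (FU mu) (ext_val τ E (FU mu) D.tt (fun z hz => hEU z (mem_of_FU hz))) χ hχ,
    hE]
  push_cast
  congr 1
  unfold FU
  rw [Finset.mul_sum, Finset.sum_congr rfl (fun g _ => mul_assoc _ _ _), ← Finset.mul_sum,
    sum_Lam_mul U mu (fun g => conj (χ (τ * g))), Finset.mul_sum]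

omit D hA hAP hE hEU in
open Classical in
theorem orth1 [Fintype U] (mu mu' : U →* ℂ) :
    ∑ w : U, mu w * conj (mu' w) = if mu = mu' then (Nat.card U : ℂ) else 0 := by
  split_ifs with h
  · subst h
    have : ∀ w : U, mu w * conj (mu w) = 1 := by
      intro w; rw [conj_hom, ← map_mul, mul_inv_cancel, map_one]
    rw [Finset.sum_congr rfl (fun w _ => this w), Finset.sum_const, Finset.card_univ,
      nsmul_eq_mul, mul_one, Nat.card_eq_fintype_card]
  · set f : U →* ℂ := mu * ((starRingEnd ℂ : ℂ →+* ℂ) : ℂ →* ℂ).comp mu' with hf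
    have hf1 : f ≠ 1 := by
      intro h1
      apply h
      ext w
      have h2 : mu w * conj (mu' w) = 1 := by
        have := DFunLike.congr_fun h1 w
        simpa [hf] using this
      have h3 : mu' w * conj (mu' w) = 1 := by
        rw [conj_hom, ← map_mul, mul_inv_cancel, map_one]
      have h4 : conj (mu' w) ≠ 0 := fun h => by rw [h, mul_zero] at h3; exact zero_ne_one h3
      exact mul_right_cancel₀ h4 (h2.trans h3.symm)
    have := sum_hom f hf1
    simpa [hf] using this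

omit D hA hAP hE hEU in
open Classical in
theorem orth2 [Fintype U] (mu mu' : U →* ℂ) :
    ∑ w : U, mu w * mu' w = if mu * mu' = 1 then (Nat.card U : ℂ) else 0 := by
  split_ifs with h
  · have : ∀ w : U, mu w * mu' w = 1 := fun w => DFunLike.congr_fun h w
    rw [Finset.sum_congr rfl (fun w _ => this w), Finset.sum_const, Finset.card_univ,
      nsmul_eq_mul, mul_one, Nat.card_eq_fintype_card]
  · have := sum_hom (mu * mu') h
    simpa using this

open Classical in
theorem gram [Fintype G] (lam : P →* ℂ) (hl : lam ≠ 1) (mu mu' : U →* ℂ) :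
    classInner (eta τ A E lam mu) (eta τ A E lam mu') =
      4 * ((if mu = mu' then 1 else 0) + (if mu * mu' = 1 then 1 else 0)) := by
  have := Fintype.ofFinite U
  have hcf : IsClassFunction G (eta τ A E lam mu') :=
    (indFun_isClassFunction A _).sub (indFun_isClassFunction E _)
  have e1 := D.pairP hA hAP lam hl (eta τ A E lam mu') hcf (4 * ((q : ℂ) - 1)) (-4)
    (D.eta_tau hA hAP hE hEU lam mu') (fun x hx h1 => D.eta_P hA hAP hE hEU lam hl mu' hx h1)
  have e2 := D.pairU hE hEU mu (eta τ A E lam mu') hcf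
  have h3 : ∀ w : U, mu w * conj (eta τ A E lam mu' (τ * w)) =
      -4 * (mu w * conj (mu' w)) - 4 * (mu w * mu' w) +
        (if w = 1 then 4 * ((q : ℂ) + 1) else 0) := by
    intro w
    by_cases hw : w = 1
    · subst hw
      rw [if_pos rfl, OneMemClass.coe_one, mul_one, D.eta_tau hA hAP hE hEU lam mu', map_one,
        map_one]
      simp only [map_mul, map_sub, map_one, Complex.conj_natCast, Complex.conj_ofNat]
      ring
    · rw [if_neg hw, D.eta_U hA hAP hE hEU lam mu' w.2 (fun h => hw (Subtype.ext h)),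
        Lam_mem w.2, Lam_mem (U.inv_mem w.2)]
      have h4 : (⟨(w : G)⁻¹, U.inv_mem w.2⟩ : U) = w⁻¹ := rfl
      have h5 : (⟨(w : G), w.2⟩ : U) = w := rfl
      rw [h4, h5, ← conj_hom]
      simp only [map_mul, map_neg, map_add, Complex.conj_ofNat, Complex.conj_conj]
      ring
  rw [Finset.sum_congr rfl (fun w _ => h3 w), Finset.sum_add_distrib, Finset.sum_sub_distrib,
    ← Finset.mul_sum, ← Finset.mul_sum, orth1, orth2, Finset.sum_ite_eq' Finset.univ (1 : U),
    if_pos (Finset.mem_univ _)] at e2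
  have e3 : classInner (eta τ A E lam mu) (eta τ A E lam mu') =
    classInner (indFun A (fun h : A => FP lam (τ * h))) (eta τ A E lam mu') -
    classInner (indFun E (fun h : E => FU mu (τ * h))) (eta τ A E lam mu') := by
    rw [← CharBasic.classInner_sub_left]; rfl
  rw [e3, e1, e2]
  simp only [map_mul, map_sub, map_neg, map_one, Complex.conj_natCast, Complex.conj_ofNat]
  have h4 := (q1_ne (q := q))
  have h5 := D.q_ne
  have h6 := D.cardU_eq
  have hU : (Nat.card U : ℂ) = ((q : ℂ) + 1) / 4 := by linear_combination (1/4) * h6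
  rw [hU]
  split_ifs <;> field_simp <;> ring

end Dat

end Cfsg.Agent.Lib.GoldC95
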