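import Cfsg.Agent.Lib.GoldC95d
import Cfsg.Agent.Lib.AbTI

set_option autoImplicit false

/-!
# S2755 piece C (helper1): pairs of involutions
-/

namespace Cfsg.Agent.Lib.GoldC95

open scoped ComplexConjugate
open Cfsg Cfsg.Agent.Lib.CharBasic Cfsg.Agent.Lib.TIFN Cfsg.Agent.Lib.IndFun
open Cfsg.Agent.Lib.StructConst

universe u

variable {G : Type u} [Group G]

/-- number of triples `(a, b)` with `τ^a τ^b = g` -/
noncomputable def nu [Fintype G] (τ g : G) : ℂ := ∑ s : G, conjCount τ s * conjCount τ (s⁻¹ * g)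

theorem conj_conjCount [Fintype G] (τ s : G) : conj (conjCount τ s) = conjCount τ s := by
  unfold conjCount
  simp

theorem conj_nu [Fintype G] (τ g : G) : conj (nu τ g) = nu τ g := by
  unfold nu
  simp only [map_sum, map_mul, conj_conjCount]

theorem nu_class [Fintype G] (τ : G) : IsClassFunction G (nu τ) := by
  intro g h
  unfold nu
  refine Fintype.sum_equiv (MulAut.conj h⁻¹).toEquiv _ _ ?_
  intro s
  have e1 : (MulAut.conj h⁻¹).toEquiv s = h⁻¹ * s * h⁻¹⁻¹ := rfl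
  rw [e1, conjCount_isClassFunction τ s h⁻¹]
  congr 1
  rw [← conjCount_isClassFunction τ (s⁻¹ * (h * g * h⁻¹)) h⁻¹]
  congr 1
  group

theorem classInner_nu [Fintype G] (τ : G) (f : G → ℂ) (hf : IsClassFunction G f) :
    classInner f (nu τ) = ∑ b, f (τ * (b * τ * b⁻¹)) := by
  have hG : (Nat.card G : ℂ) ≠ 0 := by exact_mod_cast Nat.card_pos.ne'
  have h1 : ∑ g, f g * conj (nu τ g) = ∑ s, conjCount τ s * ∑ b, f (s * (b * τ * b⁻¹)) := by
    simp only [conj_nu]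
    unfold nu
    simp only [Finset.mul_sum]
    rw [Finset.sum_comm]
    refine Finset.sum_congr rfl fun s _ => ?_
    rw [← Finset.mul_sum, sum_conj_eq τ (fun g => f (s * g)), Finset.mul_sum]
    refine Fintype.sum_equiv (Equiv.mulLeft s⁻¹) _ _ ?_
    intro g
    have e1 : (Equiv.mulLeft s⁻¹) g = s⁻¹ * g := rfl
    rw [e1, mul_inv_cancel_left]
    ring
  unfold classInner
  rw [h1, ← sum_conj_eq τ (fun s => ∑ b, f (s * (b * τ * b⁻¹)))]
  have h2 : ∀ a : G, ∑ b, f (a * τ * a⁻¹ * (b * τ * b⁻¹)) = ∑ b, f (τ * (b * τ * b⁻¹)) := by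
    intro a
    refine Fintype.sum_equiv (Equiv.mulLeft a⁻¹) _ _ ?_
    intro b
    have e1 : (Equiv.mulLeft a⁻¹) b = a⁻¹ * b := rfl
    rw [e1, ← hf (τ * (a⁻¹ * b * τ * (a⁻¹ * b)⁻¹)) a]
    congr 1
    group
  rw [Finset.sum_congr rfl (fun a _ => h2 a), Finset.sum_const, Finset.card_univ, nsmul_eq_mul,
    ← Nat.card_eq_fintype_card, inv_mul_cancel_left₀ hG]

open Classical in
theorem conjCount_val [Fintype G] (τ s : G) :
    conjCount τ s = if IsConj τ s then (Nat.card (Subgroup.centralizer ({τ} : Set G)) : ℂ) else 0 := by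
  unfold conjCount
  split_ifs with h
  · obtain ⟨c, hc⟩ := isConj_iff.1 h
    rw [← AbTI.card_fiber τ s c hc, Nat.card_eq_fintype_card, Fintype.card_subtype]
  · rw [Nat.cast_eq_zero, Finset.card_eq_zero, Finset.filter_eq_empty_iff]
    intro b _ hb
    exact h (isConj_iff.2 ⟨b, hb⟩)

namespace Dat

variable {τ : G} {K P U : Subgroup G} {q : ℕ} (D : Dat τ K P U q)
include D

theorem sq_of_conj {s : G} (h : IsConj τ s) : s * s = 1 ∧ s ≠ 1 := by
  obtain ⟨c, rfl⟩ := isConj_iff.1 h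
  constructor
  · calc c * τ * c⁻¹ * (c * τ * c⁻¹) = c * (τ * τ) * c⁻¹ := by group
      _ = 1 := by rw [D.tt]; group
  · intro h1
    apply D.tK
    have : τ = 1 := by
      calc τ = c⁻¹ * (c * τ * c⁻¹) * c := by group
        _ = 1 := by rw [h1]; group
    rw [this]; exact K.one_mem

open Classical in
theorem r_K [Fintype G] {k : G} (hk : k ∈ K) : conjCount τ k =
    if k * k = 1 ∧ k ≠ 1 then (Nat.card (Subgroup.centralizer ({τ} : Set G)) : ℂ) else 0 := by
  rw [conjCount_val]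
  congr 1
  apply propext
  exact ⟨fun h => D.sq_of_conj h, fun h => D.F4 k hk h.1 h.2⟩

open Classical in
theorem r_tK [Fintype G] {k : G} (hk : k ∈ K) : conjCount τ (τ * k) =
    if k * k = 1 then (Nat.card (Subgroup.centralizer ({τ} : Set G)) : ℂ) else 0 := by
  rw [conjCount_val]
  congr 1
  apply propext
  constructor
  · intro h
    have h1 := (D.sq_of_conj h).1
    have h2 : τ * k * (τ * k) = k * k := by
      rw [← D.cK k hk]
      calc k * τ * (k * τ) = k * (τ * k) * τ := by group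
        _ = k * (k * τ) * τ := by rw [D.cK k hk]
        _ = k * k * (τ * τ) := by group
        _ = k * k := by rw [D.tt, mul_one]
    rw [← h2, h1]
  · exact fun h => D.F4' k hk h

theorem nu_eq [Fintype G] [Fintype K] {ρ : G} (hρ : ρ ∈ P ∨ ρ ∈ U) :
    nu τ (τ * ρ) = ∑ k : K, (conjCount τ (k : G) * conjCount τ (τ * ((k : G)⁻¹ * ρ)) +
      conjCount τ (τ * (k : G)) * conjCount τ ((k : G)⁻¹ * ρ)) := by
  have hρK : ρ ∈ K := hρ.elim (fun h => D.PK h) (fun h => D.UK h)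
  unfold nu
  rw [sum_C D.toLoc]
  · refine Finset.sum_congr rfl fun k _ => ?_
    have e1 : (k : G)⁻¹ * (τ * ρ) = τ * ((k : G)⁻¹ * ρ) := by
      rw [← mul_assoc, D.cK _ (K.inv_mem k.2), mul_assoc]
    have e2 : (τ * (k : G))⁻¹ * (τ * ρ) = (k : G)⁻¹ * ρ := by group
    rw [e1, e2]
  · intro s hs
    by_contra hne
    apply hs
    classical
    rw [conjCount_val, conjCount_val] at hne
    have h1 : IsConj τ s := by
      by_contra h; rw [if_neg h, zero_mul] at hne; exact hne rfl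
    have h2 : IsConj τ (s⁻¹ * (τ * ρ)) := by
      by_contra h; rw [if_neg h, mul_zero] at hne; exact hne rfl
    have h3 := (D.sq_of_conj h1).1
    have h4 := (D.sq_of_conj h2).1
    have hsi : s⁻¹ = s := inv_eq_of_mul_eq_one_right h3
    have h5 : (MulAut.conj s) (τ * ρ) = (τ * ρ)⁻¹ := by
      rw [MulAut.conj_apply, hsi]
      rw [hsi] at h4
      have : s * (τ * ρ) * s * (τ * ρ) = 1 := by rw [← h4]; group
      exact eq_inv_of_mul_eq_one_left this
    have h6 : (τ * ρ) ^ (q * Nat.card U) = τ := by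
      rw [mul_pow_comm (D.cK ρ hρK), D.powN hρ, mul_one, tau_pow D.tt D.oddN]
    have h7 : (MulAut.conj s) τ = τ⁻¹ := by
      have h8 := congrArg (fun t => t ^ (q * Nat.card U)) h5
      simp only [← map_pow, inv_pow, h6] at h8
      exact h8
    have hti : τ⁻¹ = τ := inv_eq_of_mul_eq_one_right D.tt
    rw [hti, MulAut.conj_apply] at h7
    calc s * τ = (s * τ * s⁻¹) * s := by group
      _ = τ * s := by rw [h7]

theorem nu_tau [Fintype G] : nu τ τ =
    (Nat.card (Subgroup.centralizer ({τ} : Set G)) : ℂ) ^ 2 * ((q : ℂ) ^ 2 - q) := by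
  classical
  have := Fintype.ofFinite K
  have h1 := D.nu_eq (ρ := 1) (Or.inl P.one_mem)
  rw [mul_one] at h1
  rw [h1]
  set c : ℂ := (Nat.card (Subgroup.centralizer ({τ} : Set G)) : ℂ) with hc
  have h2 : ∀ k : K, (conjCount τ (k : G) * conjCount τ (τ * ((k : G)⁻¹ * 1)) +
      conjCount τ (τ * (k : G)) * conjCount τ ((k : G)⁻¹ * 1)) =
      2 * c ^ 2 * (if k * k = 1 ∧ k ≠ 1 then 1 else 0) := by
    intro k
    have hki : (k : G)⁻¹ ∈ K := K.inv_mem k.2
    have e1 : ((k : G)⁻¹ * (k : G)⁻¹ = 1) ↔ ((k : G) * k = 1) := by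
      rw [← mul_inv_rev, inv_eq_one]
    have e2 : ((k : G)⁻¹ ≠ 1) ↔ ((k : G) ≠ 1) := by rw [Ne, inv_eq_one]
    have e3 : (k * k = 1) ↔ ((k : G) * k = 1) := by
      rw [← Subgroup.coe_mul, OneMemClass.coe_eq_one]
    have e4 : (k ≠ 1) ↔ ((k : G) ≠ 1) := by rw [Ne, Ne, OneMemClass.coe_eq_one]
    rw [mul_one, D.r_K k.2, D.r_tK k.2, D.r_K hki, D.r_tK hki]
    simp only [e1, e2, e3, e4]
    by_cases h3 : (k : G) * k = 1
    · by_cases h4 : (k : G) = 1
      · simp [h4]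
      · simp only [h3, h4, ne_eq, not_false_eq_true, and_self, if_true]
        ring
    · simp [h3]
  rw [Finset.sum_congr rfl (fun k _ => h2 k), ← Finset.mul_sum]
  have h3 : ∑ k : K, (if k * k = 1 ∧ k ≠ 1 then (1 : ℂ) else 0) =
      (Nat.card {k : K // k * k = 1 ∧ k ≠ 1} : ℂ) := by
    rw [Nat.card_eq_fintype_card, Fintype.card_subtype, Finset.card_eq_sum_ones, Finset.sum_filter]
    push_cast
    rfl
  have h4 : 2 * (Nat.card {k : K // k * k = 1 ∧ k ≠ 1} : ℂ) + q = (q : ℂ) ^ 2 := by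
    exact_mod_cast D.F3
  rw [h3]
  linear_combination c ^ 2 * h4

open Classical in
theorem nu_rho [Fintype G] [Fintype K] {ρ : G} (hρ : ρ ∈ P ∨ ρ ∈ U) (h1 : ρ ≠ 1) :
    nu τ (τ * ρ) = 2 * (Nat.card (Subgroup.centralizer ({τ} : Set G)) : ℂ) ^ 2 *
      ∑ k : K, (if (k : G) * k = 1 ∧ (k : G)⁻¹ * ρ * k = ρ⁻¹ then 1 else 0) := by
  rw [D.nu_eq hρ, Finset.mul_sum]
  refine Finset.sum_congr rfl fun k _ => ?_
  have hρK : ρ ∈ K := hρ.elim (fun h => D.PK h) (fun h => D.UK h)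
  have hki : (k : G)⁻¹ * ρ ∈ K := K.mul_mem (K.inv_mem k.2) hρK
  rw [D.r_K k.2, D.r_tK k.2, D.r_K hki, D.r_tK hki]
  by_cases h3 : (k : G) * k = 1
  · have hk : (k : G)⁻¹ = k := inv_eq_of_mul_eq_one_right h3
    have e1 : ((k : G)⁻¹ * ρ * ((k : G)⁻¹ * ρ) = 1) ↔ ((k : G)⁻¹ * ρ * k = ρ⁻¹) := by
      rw [show (k : G)⁻¹ * ρ * ((k : G)⁻¹ * ρ) = (k : G)⁻¹ * ρ * (k : G)⁻¹ * ρ by group, hk]
      exact mul_eq_one_iff_eq_inv
    by_cases h4 : (k : G)⁻¹ * ρ * k = ρ⁻¹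
    · have h5 : (k : G) ≠ 1 := by
        intro h
        rw [h, inv_one, one_mul, mul_one] at h4
        apply D.ne_inv hρ h1
        nth_rewrite 2 [h4]; exact mul_inv_cancel ρ
      have h6 : (k : G)⁻¹ * ρ ≠ 1 := by
        intro h
        have : (k : G) = ρ := by
          calc (k : G) = k * ((k : G)⁻¹ * ρ) := by rw [h, mul_one]
            _ = ρ := by group
        rw [this] at h3
        exact D.ne_inv hρ h1 h3
      rw [if_pos ⟨h3, h5⟩, if_pos (e1.2 h4), if_pos h3, if_pos ⟨e1.2 h4, h6⟩, if_pos ⟨h3, h4⟩]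
      ring
    · have n1 : ¬ ((k : G)⁻¹ * ρ * ((k : G)⁻¹ * ρ) = 1) := fun h => h4 (e1.1 h)
      have n2 : ¬ ((k : G)⁻¹ * ρ * ((k : G)⁻¹ * ρ) = 1 ∧ (k : G)⁻¹ * ρ ≠ 1) := fun h => n1 h.1
      have n3 : ¬ ((k : G) * k = 1 ∧ (k : G)⁻¹ * ρ * k = ρ⁻¹) := fun h => h4 h.2
      rw [if_neg n1, if_neg n2, if_neg n3]
      ring
  · have n1 : ¬ ((k : G) * k = 1 ∧ (k : G) ≠ 1) := fun h => h3 h.1
    have n3 : ¬ ((k : G) * k = 1 ∧ (k : G)⁻¹ * ρ * k = ρ⁻¹) := fun h => h3 h.1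
    rw [if_neg n1, if_neg h3, if_neg n3]
    ring

theorem nu_P [Fintype G] {x : G} (hx : x ∈ P) (h1 : x ≠ 1) : nu τ (τ * x) = 0 := by
  classical
  have := Fintype.ofFinite K
  rw [D.nu_rho (Or.inl hx) h1, Finset.sum_eq_zero, mul_zero]
  intro k _
  rw [if_neg]
  intro h
  exact D.F1' x hx h1 k k.2 h.2

theorem nu_U [Fintype G] {w : G} (hw : w ∈ U) (h1 : w ≠ 1) : nu τ (τ * w) =
    (Nat.card (Subgroup.centralizer ({τ} : Set G)) : ℂ) ^ 2 * ((q : ℂ) + 1) := by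
  classical
  have := Fintype.ofFinite K
  rw [D.nu_rho (Or.inr hw) h1]
  have h2 : ∀ k : K, (if (k : G) * k = 1 ∧ (k : G)⁻¹ * w * k = w⁻¹ then (1 : ℂ) else 0) =
      if (k : G)⁻¹ * w * k = w⁻¹ then 1 else 0 := by
    intro k
    by_cases h : (k : G)⁻¹ * w * k = w⁻¹
    · rw [if_pos h, if_pos ⟨D.F2c w hw h1 k k.2 h, h⟩]
    · rw [if_neg h, if_neg (fun h' => h h'.2)]
  rw [Finset.sum_congr rfl (fun k _ => h2 k)]
  have hcard : ∑ k : K, (if (k : G)⁻¹ * w * k = w⁻¹ then (1 : ℂ) else 0) =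
      (Nat.card {k : K // (k : G)⁻¹ * w * k = w⁻¹} : ℂ) := by
    rw [Nat.card_eq_fintype_card, Fintype.card_subtype, Finset.card_eq_sum_ones, Finset.sum_filter]
    push_cast
    rfl
  have h4 : (2 : ℂ) * (Nat.card {k : K // (k : G)⁻¹ * w * k = w⁻¹} : ℂ) = q + 1 := by
    exact_mod_cast D.F2b w hw h1
  rw [hcard]
  linear_combination ((Nat.card (Subgroup.centralizer ({τ} : Set G)) : ℂ) ^ 2) * h4

variable {A E : Subgroup G} (hA : Nat.card A = 2 * q) (hAP : ∀ z ∈ P, τ * z ∈ A)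
  (hE : Nat.card E = q + 1) (hEU : ∀ z ∈ U, τ * z ∈ E)
include hA hAP hE hEU

theorem eta_nu [Fintype G] (lam : P →* ℂ) (hl : lam ≠ 1) (mu : U →* ℂ) (hm : mu ≠ 1) :
    ((q : ℂ) + 1) * ∑ b, eta τ A E lam mu (τ * (b * τ * b⁻¹)) =
      8 * q * (Nat.card (Subgroup.centralizer ({τ} : Set G)) : ℂ) ^ 2 := by
  classical
  have := Fintype.ofFinite U
  have hcf : IsClassFunction G (eta τ A E lam mu) :=
    (indFun_isClassFunction A _).sub (indFun_isClassFunction E _)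
  rw [← classInner_nu τ _ hcf]
  set c : ℂ := (Nat.card (Subgroup.centralizer ({τ} : Set G)) : ℂ) with hc
  have hcc : conj c = c := by rw [hc]; simp
  have e1 := D.pairP hA hAP lam hl (nu τ) (nu_class τ) (c ^ 2 * ((q : ℂ) ^ 2 - q)) 0
    D.nu_tau (fun x hx h1 => D.nu_P hx h1)
  have e2 := D.pairU hE hEU mu (nu τ) (nu_class τ)
  have h3 : ∀ w : U, mu w * conj (nu τ (τ * w)) = c ^ 2 * ((q : ℂ) + 1) * mu w +
      (if w = 1 then c ^ 2 * ((q : ℂ) ^ 2 - 2 * q - 1) else 0) := by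
    intro w
    rw [conj_nu]
    by_cases hw : w = 1
    · subst hw
      rw [if_pos rfl, OneMemClass.coe_one, mul_one, D.nu_tau, map_one]
      ring
    · rw [if_neg hw, D.nu_U w.2 (fun h => hw (Subtype.ext h))]
      ring
  rw [Finset.sum_congr rfl (fun w _ => h3 w), Finset.sum_add_distrib, ← Finset.mul_sum,
    sum_hom mu hm, Finset.sum_ite_eq' Finset.univ (1 : U), if_pos (Finset.mem_univ _)] at e2
  have e3 : classInner (eta τ A E lam mu) (nu τ) =
    classInner (indFun A (fun h : A => FP lam (τ * h))) (nu τ) -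
    classInner (indFun E (fun h : E => FU mu (τ * h))) (nu τ) := by
    rw [← CharBasic.classInner_sub_left]; rfl
  rw [e3, e1, e2]
  simp only [map_mul, map_sub, map_pow, map_zero, Complex.conj_natCast, hcc]
  have h4 := (q1_ne (q := q))
  have h5 := D.q_ne
  field_simp
  ring

end Dat

end Cfsg.Agent.Lib.GoldC95
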