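import Cfsg.Agent.Lib.GoldC95e

set_option autoImplicit false

/-!
# S2755 piece C (helper1): the automorphism of order three and the conclusion
-/

namespace Cfsg.Agent.Lib.GoldC95

open scoped ComplexConjugate
open Cfsg Cfsg.Agent.Lib.CharBasic Cfsg.Agent.Lib.TIFN Cfsg.Agent.Lib.IndFun
open Cfsg.Agent.Lib.StructConst

universe u

variable {G : Type u} [Group G]

theorem ext_conj (E : Subgroup G) (y : G) (hyE : ∀ g, g ∈ E ↔ y * g * y⁻¹ ∈ E) (F F' : G → ℂ)
    (h : ∀ g, F' (y * g * y⁻¹) = F g) (z : G) :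
    extendByZero E (fun h : E => F' h) z = extendByZero E (fun h : E => F h) (y⁻¹ * z * y) := by
  have e : y * (y⁻¹ * z * y) * y⁻¹ = z := by group
  by_cases hz : z ∈ E
  · have hz' : y⁻¹ * z * y ∈ E := by rw [hyE, e]; exact hz
    rw [extendByZero_mem _ _ hz, extendByZero_mem _ _ hz']
    show F' z = F (y⁻¹ * z * y)
    rw [← h, e]
  · have hz' : y⁻¹ * z * y ∉ E := by rw [hyE, e]; exact hz
    rw [extendByZero_not_mem _ _ hz, extendByZero_not_mem _ _ hz']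

theorem indFun_conj_inv [Fintype G] (E : Subgroup G) (y : G) (hyE : ∀ g, g ∈ E ↔ y * g * y⁻¹ ∈ E)
    (F F' : G → ℂ) (h : ∀ g, F' (y * g * y⁻¹) = F g) :
    indFun E (fun h : E => F' h) = indFun E (fun h : E => F h) := by
  ext g
  rw [indFun_apply, indFun_apply]
  congr 1
  refine Fintype.sum_equiv (Equiv.mulRight y) _ _ ?_
  intro x
  rw [ext_conj E y hyE F F' h]
  congr 1
  show y⁻¹ * (x⁻¹ * g * x) * y = (x * y)⁻¹ * g * (x * y)
  group

/-- the second part of the data -/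
structure YD (τ v y : G) (U : Subgroup G) : Prop where
  tt : τ * τ = 1
  vv : v * v = 1
  t1 : τ ≠ 1
  v1 : v ≠ 1
  vt : v ≠ τ
  comm : v * τ = τ * v
  Ut : ∀ w ∈ U, w * τ = τ * w
  Uv : ∀ w ∈ U, w * v = v * w
  Uc : ∀ a ∈ U, ∀ b ∈ U, a * b = b * a
  Uodd : Odd (Nat.card U)
  yt : y * τ * y⁻¹ = v
  yv : y * v * y⁻¹ = τ * v
  yU : ∀ w, w ∈ U ↔ y * w * y⁻¹ ∈ U
  ync : ∃ w ∈ U, y * w * y⁻¹ ≠ w
  y3 : y * y * y = 1

namespace YD

variable {τ v y : G} {U : Subgroup G} (Y : YD τ v y U)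
include Y

theorem not_mem {x : G} (h : x * x = 1) (h1 : x ≠ 1) : x ∉ U := by
  intro hx
  apply h1
  have h2 := Dat.pow_U hx
  rwa [tau_pow h Y.Uodd] at h2

theorem tvtv : (τ * v) * (τ * v) = 1 := by
  rw [← Y.comm]
  calc v * τ * (v * τ) = v * (τ * v) * τ := by group
    _ = v * (v * τ) * τ := by rw [Y.comm]
    _ = (v * v) * (τ * τ) := by group
    _ = 1 := by rw [Y.vv, Y.tt, mul_one]

theorem tv1 : τ * v ≠ 1 := by
  intro h
  apply Y.vt
  calc v = τ * τ * v := by rw [Y.tt, one_mul]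
    _ = τ * (τ * v) := by group
    _ = τ := by rw [h, mul_one]

theorem tU : τ ∉ U := Y.not_mem Y.tt Y.t1
theorem vU : v ∉ U := Y.not_mem Y.vv Y.v1
theorem tvU : τ * v ∉ U := Y.not_mem Y.tvtv Y.tv1

theorem Utv : ∀ w ∈ U, w * (τ * v) = τ * v * w := by
  intro w hw
  rw [← mul_assoc, Y.Ut w hw, mul_assoc, Y.Uv w hw, mul_assoc]

/-- `⟨τ⟩U` -/
def Bt : Subgroup G := ext2 U τ Y.tt Y.Ut

theorem Bt_comm : ∀ b ∈ Y.Bt, b * v = v * b := by
  intro b hb
  rcases hb with hb | hb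
  · exact Y.Uv b hb
  · have h1 := Y.Uv _ hb
    calc b * v = τ * τ * b * v := by rw [Y.tt, one_mul]
      _ = τ * (τ * b * v) := by group
      _ = τ * (v * (τ * b)) := by rw [h1]
      _ = (τ * v) * τ * b := by group
      _ = (v * τ) * τ * b := by rw [Y.comm]
      _ = v * (τ * τ) * b := by group
      _ = v * b := by rw [Y.tt, mul_one]

/-- `DU` -/
def E : Subgroup G := ext2 Y.Bt v Y.vv Y.Bt_comm

theorem cardE [Finite G] : Nat.card Y.E = 4 * Nat.card U := by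
  unfold E
  rw [card_ext2]
  · unfold Bt
    rw [card_ext2 Y.tU]; ring
  · intro h
    rcases h with h | h
    · exact Y.vU h
    · exact Y.tvU h

theorem mem_E {g : G} : g ∈ Y.E ↔ ∃ w ∈ U, g = w ∨ g = τ * w ∨ g = v * w ∨ g = τ * v * w := by
  constructor
  · intro h
    rcases h with (h | h) | (h | h)
    · exact ⟨g, h, Or.inl rfl⟩
    · exact ⟨_, h, Or.inr (Or.inl (by rw [← mul_assoc, Y.tt, one_mul]))⟩
    · exact ⟨_, h, Or.inr (Or.inr (Or.inl (by rw [← mul_assoc, Y.vv, one_mul])))⟩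
    · refine ⟨_, h, Or.inr (Or.inr (Or.inr ?_))⟩
      calc g = v * (τ * τ) * v * g := by rw [Y.tt, mul_one, Y.vv, one_mul]
        _ = (v * τ) * (τ * (v * g)) := by group
        _ = τ * v * (τ * (v * g)) := by rw [Y.comm]
  · rintro ⟨w, hw, rfl | rfl | rfl | rfl⟩
    · exact Or.inl (Or.inl hw)
    · exact Or.inl (Or.inr (by rw [← mul_assoc, Y.tt, one_mul]; exact hw))
    · exact Or.inr (Or.inl (by rw [← mul_assoc, Y.vv, one_mul]; exact hw))
    · refine Or.inr (Or.inr ?_)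
      have : τ * (v * (τ * v * w)) = w := by
        calc τ * (v * (τ * v * w)) = (τ * v) * (τ * v) * w := by group
          _ = w := by rw [Y.tvtv, one_mul]
      rw [this]; exact hw

theorem E_comm : ∀ a ∈ Y.E, ∀ b ∈ Y.E, a * b = b * a := by
  have key : ∀ a ∈ Y.E, Commute a τ ∧ Commute a v ∧ ∀ u ∈ U, Commute a u := by
    intro a ha
    obtain ⟨w, hw, h⟩ := Y.mem_E.1 ha
    have c1 : Commute w τ := Y.Ut w hw
    have c2 : Commute w v := Y.Uv w hw
    have c3 : ∀ u ∈ U, Commute w u := fun u hu => Y.Uc w hw u hu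
    have ct : Commute τ v := Y.comm.symm
    have ct' : ∀ u ∈ U, Commute τ u := fun u hu => (Y.Ut u hu).symm
    have cv' : ∀ u ∈ U, Commute v u := fun u hu => (Y.Uv u hu).symm
    rcases h with rfl | rfl | rfl | rfl
    · exact ⟨c1, c2, c3⟩
    · exact ⟨(Commute.refl τ).mul_left c1, ct.mul_left c2, fun u hu => (ct' u hu).mul_left (c3 u hu)⟩
    · exact ⟨ct.symm.mul_left c1, (Commute.refl v).mul_left c2,
        fun u hu => (cv' u hu).mul_left (c3 u hu)⟩
    · exact ⟨((Commute.refl τ).mul_left ct.symm).mul_left c1,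
        (ct.mul_left (Commute.refl v)).mul_left c2,
        fun u hu => ((ct' u hu).mul_left (cv' u hu)).mul_left (c3 u hu)⟩
  intro a ha b hb
  obtain ⟨h1, h2, h3⟩ := key a ha
  obtain ⟨w, hw, h⟩ := Y.mem_E.1 hb
  rcases h with rfl | rfl | rfl | rfl
  · exact h3 _ hw
  · exact h1.mul_right (h3 w hw)
  · exact h2.mul_right (h3 w hw)
  · exact (h1.mul_right h2).mul_right (h3 w hw)

theorem ytv : y * (τ * v) * y⁻¹ = τ := by
  calc y * (τ * v) * y⁻¹ = (y * τ * y⁻¹) * (y * v * y⁻¹) := by group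
    _ = v * (τ * v) := by rw [Y.yt, Y.yv]
    _ = v * (v * τ) := by rw [Y.comm]
    _ = τ := by rw [← mul_assoc, Y.vv, one_mul]

theorem yE_of {g : G} (hg : g ∈ Y.E) : y * g * y⁻¹ ∈ Y.E := by
  obtain ⟨w, hw, h⟩ := Y.mem_E.1 hg
  have hw' := (Y.yU w).1 hw
  rw [Y.mem_E]
  refine ⟨_, hw', ?_⟩
  rcases h with rfl | rfl | rfl | rfl
  · left; rfl
  · right; right; left
    rw [show y * (τ * w) * y⁻¹ = (y * τ * y⁻¹) * (y * w * y⁻¹) by group, Y.yt]
  · right; right; right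
    rw [show y * (v * w) * y⁻¹ = (y * v * y⁻¹) * (y * w * y⁻¹) by group, Y.yv]
  · right; left
    rw [show y * (τ * v * w) * y⁻¹ = (y * (τ * v) * y⁻¹) * (y * w * y⁻¹) by group, Y.ytv]

theorem yE : ∀ g, g ∈ Y.E ↔ y * g * y⁻¹ ∈ Y.E := by
  intro g
  constructor
  · exact Y.yE_of
  · intro h
    have h1 := Y.yE_of (Y.yE_of h)
    have h2 : y * (y * (y * g * y⁻¹) * y⁻¹) * y⁻¹ = g := by
      calc y * (y * (y * g * y⁻¹) * y⁻¹) * y⁻¹ = (y * y * y) * g * (y * y * y)⁻¹ := by group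
        _ = g := by rw [Y.y3]; group
    rwa [h2] at h1

end YD

end Cfsg.Agent.Lib.GoldC95
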