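import Cfsg.Agent.Lib.GoldC95f

set_option autoImplicit false

/-!
# S2755 piece C (helper1): differences of the `eta`
-/

namespace Cfsg.Agent.Lib.GoldC95

open scoped ComplexConjugate
open Cfsg Cfsg.Agent.Lib.CharBasic Cfsg.Agent.Lib.TIFN Cfsg.Agent.Lib.IndFun
open Cfsg.Agent.Lib.StructConst

universe u

variable {G : Type u} [Group G]

namespace YD

variable {τ v y : G} {U : Subgroup G} (Y : YD τ v y U)
include Y

/-- conjugation by `y` on `U` -/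
def cy : U →* U where
  toFun w := ⟨y * w * y⁻¹, (Y.yU w).1 w.2⟩
  map_one' := Subtype.ext (by simp)
  map_mul' a b := Subtype.ext (by
    show y * ((a : G) * b) * y⁻¹ = (y * a * y⁻¹) * (y * b * y⁻¹)
    group)

theorem FU_cy (mu : U →* ℂ) (z : G) : Dat.FU (mu.comp Y.cy) z = Dat.FU mu (y * z * y⁻¹) := by
  unfold Dat.FU
  congr 1
  by_cases hz : z ∈ U
  · rw [Dat.Lam_mem hz, Dat.Lam_mem ((Y.yU z).1 hz)]
    rfl
  · rw [Dat.Lam_not_mem hz, Dat.Lam_not_mem (fun h => hz ((Y.yU z).2 h))]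

/-- `I d = Ind (4 [d h ∈ U] mu (d h))` -/
noncomputable def I [Fintype G] (mu : U →* ℂ) (d : G) : G → ℂ :=
  indFun Y.E (fun h : Y.E => Dat.FU mu (d * h))

theorem I_cy [Fintype G] (mu : U →* ℂ) (d : G) : Y.I (mu.comp Y.cy) d = Y.I mu (y * d * y⁻¹) := by
  unfold I
  symm
  refine indFun_conj_inv Y.E y Y.yE (fun h => Dat.FU (mu.comp Y.cy) (d * h))
    (fun h => Dat.FU mu (y * d * y⁻¹ * h)) ?_
  intro g
  show Dat.FU mu (y * d * y⁻¹ * (y * g * y⁻¹)) = Dat.FU (mu.comp Y.cy) (d * g)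
  rw [Y.FU_cy]
  congr 1
  group

theorem I1 [Fintype G] (mu : U →* ℂ) : Y.I (mu.comp Y.cy) τ = Y.I mu v := by
  rw [Y.I_cy, Y.yt]

theorem I2 [Fintype G] (mu : U →* ℂ) : Y.I ((mu.comp Y.cy).comp Y.cy) τ = Y.I mu (τ * v) := by
  rw [Y.I_cy, Y.yt, Y.I_cy, Y.yv]

theorem pow_mem {a : G} (ha : a ∈ Y.E) : a ^ (Nat.card U + 1) ∈ U := by
  obtain ⟨w, hw, h⟩ := Y.mem_E.1 ha
  obtain ⟨m, hm⟩ := Y.Uodd
  have hev : ∀ x : G, x * x = 1 → x ^ (Nat.card U + 1) = 1 := by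
    intro x hx
    rw [hm, show 2 * m + 1 + 1 = 2 * (m + 1) by ring, pow_mul, sq, hx, one_pow]
  have hw1 : w ^ (Nat.card U + 1) = w := by rw [pow_succ, Dat.pow_U hw, one_mul]
  rcases h with rfl | rfl | rfl | rfl
  · rw [hw1]; exact hw
  · rw [mul_pow_comm (Y.Ut w hw), hev τ Y.tt, one_mul, hw1]; exact hw
  · rw [mul_pow_comm (Y.Uv w hw), hev v Y.vv, one_mul, hw1]; exact hw
  · rw [mul_pow_comm (Y.Utv w hw), hev _ Y.tvtv, one_mul, hw1]; exact hw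

theorem exists_m (mu : U →* ℂ) : ∃ m : Y.E →* ℂ, ∀ (e : G), e * e = 1 → (∀ w ∈ U, w * e = e * w) →
    ∀ (w : G) (hw : w ∈ U) (he : e * w ∈ Y.E), m ⟨e * w, he⟩ = mu ⟨w, hw⟩ := by
  obtain ⟨m, hm⟩ := exists_lift Y.E U Y.E_comm (Nat.card U) (fun a ha => Y.pow_mem ha) mu
  refine ⟨m, ?_⟩
  intro e he hc w hw hew
  rw [hm]
  congr 1
  apply Subtype.ext
  show (e * w) ^ (Nat.card U + 1) = w
  obtain ⟨k, hk⟩ := Y.Uodd
  rw [mul_pow_comm (hc w hw), pow_succ w, Dat.pow_U hw, one_mul, hk,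
    show 2 * k + 1 + 1 = 2 * (k + 1) by ring, pow_mul, sq, he, one_pow, one_mul]

/-- sign characters of `E` -/
theorem exists_s (d : G) (hd : d = τ ∨ d = v ∨ d = τ * v) : ∃ s : Y.E →* ℂ, ∀ g : Y.E,
    (((g : G) ∈ U ∨ d * g ∈ U) → s g = 1) ∧ (¬ ((g : G) ∈ U ∨ d * g ∈ U) → s g = -1) := by
  have htt := Y.tt
  have hvv := Y.vv
  have hcm := Y.comm
  rcases hd with rfl | rfl | rfl
  · exact exists_sgn Y.E Y.Bt (fun g hg => Or.inl hg) v Y.vv Y.Bt_comm (fun g hg => hg)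
  · refine exists_sgn Y.E (ext2 U d Y.vv Y.Uv) ?_ τ Y.tt ?_ ?_
    · intro g hg
      rcases hg with hg | hg
      · exact Or.inl (Or.inl hg)
      · exact Or.inr (Or.inl hg)
    · intro b hb
      rcases hb with hb | hb
      · exact Y.Ut b hb
      · have h1 := Y.Ut _ hb
        calc b * τ = d * d * b * τ := by rw [hvv, one_mul]
          _ = d * (d * b * τ) := by group
          _ = d * (τ * (d * b)) := by rw [h1]
          _ = (d * τ) * d * b := by group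
          _ = (τ * d) * d * b := by rw [hcm]
          _ = τ * (d * d) * b := by group
          _ = τ * b := by rw [hvv, mul_one]
    · intro g hg
      rcases hg with (hg | hg) | (hg | hg)
      · exact Or.inl (Or.inl hg)
      · exact Or.inr (Or.inl hg)
      · exact Or.inl (Or.inr hg)
      · right; right
        rwa [← mul_assoc, hcm, mul_assoc]
  · refine exists_sgn Y.E (ext2 U (τ * v) Y.tvtv Y.Utv) ?_ v Y.vv ?_ ?_
    · intro g hg
      rcases hg with hg | hg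
      · exact Or.inl (Or.inl hg)
      · right; right
        rwa [← mul_assoc]
    · intro b hb
      rcases hb with hb | hb
      · exact Y.Uv b hb
      · have h1 := Y.Uv _ hb
        have h2 : τ * v * v = τ := by rw [mul_assoc, hvv, mul_one]
        calc b * v = (τ * v) * (τ * v) * b * v := by rw [Y.tvtv, one_mul]
          _ = (τ * v) * (τ * v * b * v) := by group
          _ = (τ * v) * (v * (τ * v * b)) := by rw [h1]
          _ = (τ * v * v) * (τ * v) * b := by group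
          _ = τ * (τ * v) * b := by rw [h2]
          _ = (τ * τ) * v * b := by group
          _ = v * b := by rw [htt, one_mul]
    · intro g hg
      rcases hg with (hg | hg) | (hg | hg)
      · exact Or.inl (Or.inl hg)
      · right; right
        have : τ * v * (v * g) = τ * g := by
          calc τ * v * (v * g) = τ * (v * v) * g := by group
            _ = τ * g := by rw [hvv, mul_one]
        show τ * v * (v * g) ∈ U
        rw [this]; exact hg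
      · exact Or.inr (Or.inl hg)
      · left; right
        show τ * v * g ∈ U
        rw [mul_assoc]; exact hg

omit Y in
/-- the three involutions -/
def dd (τ v : G) : Fin 3 → G := ![τ, v, τ * v]

omit Y in
theorem mul_not_mem {x w : G} (hx : x ∉ U) (hw : w ∈ U) : x * w ∉ U := by
  intro h
  apply hx
  have := U.mul_mem h (U.inv_mem hw)
  rwa [mul_inv_cancel_right] at this

theorem diff (mu : U →* ℂ) : ∃ ψ : Fin 3 → (Y.E →* ℂ), ∃ C : Y.E → ℂ,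
    IsGeneralizedCharacter Y.E C ∧ ∀ i, ∀ g : Y.E,
    Dat.FU mu (dd τ v i * g) = C g + 2 * ψ i g := by
  obtain ⟨m, hm⟩ := Y.exists_m mu
  obtain ⟨s0, hs0⟩ := Y.exists_s τ (Or.inl rfl)
  obtain ⟨s1, hs1⟩ := Y.exists_s v (Or.inr (Or.inl rfl))
  obtain ⟨s2, hs2⟩ := Y.exists_s (τ * v) (Or.inr (Or.inr rfl))
  refine ⟨![s0 * m, s1 * m, s2 * m], fun g => (1 - s0 g - s1 g - s2 g) * m g, ?_, ?_⟩
  · exact (((isGeneralized_one.sub (isCharacter_of_hom s0).isGeneralized).sub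
      (isCharacter_of_hom s1).isGeneralized).sub (isCharacter_of_hom s2).isGeneralized).mul
      (isCharacter_of_hom m).isGeneralized
  have hF1 : ∀ z : G, z ∉ U → Dat.FU mu z = 0 := by
    intro z hz
    unfold Dat.FU
    rw [Dat.Lam_not_mem hz, mul_zero]
  have hF2 : ∀ (z : G) (hz : z ∈ U), Dat.FU mu z = 4 * mu ⟨z, hz⟩ := by
    intro z hz
    unfold Dat.FU
    rw [Dat.Lam_mem hz]
  have htt := Y.tt
  have hvv := Y.vv
  have hcm := Y.comm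
  have htv := Y.tvtv
  rintro i ⟨g, hg⟩
  obtain ⟨w, hw, h⟩ := Y.mem_E.1 hg
  rcases h with rfl | rfl | rfl | rfl
  · -- e = 1
    have n0 := mul_not_mem Y.tU hw
    have n1 := mul_not_mem Y.vU hw
    have n2 := mul_not_mem Y.tvU hw
    have e0 := (hs0 ⟨g, hg⟩).1 (Or.inl hw)
    have e1 := (hs1 ⟨g, hg⟩).1 (Or.inl hw)
    have e2 := (hs2 ⟨g, hg⟩).1 (Or.inl hw)
    fin_cases i
    · show Dat.FU mu (τ * g) = (1 - s0 ⟨g, hg⟩ - s1 ⟨g, hg⟩ - s2 ⟨g, hg⟩) * m ⟨g, hg⟩ +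
        2 * (s0 ⟨g, hg⟩ * m ⟨g, hg⟩)
      rw [hF1 _ n0, e0, e1, e2]; ring
    · show Dat.FU mu (v * g) = (1 - s0 ⟨g, hg⟩ - s1 ⟨g, hg⟩ - s2 ⟨g, hg⟩) * m ⟨g, hg⟩ +
        2 * (s1 ⟨g, hg⟩ * m ⟨g, hg⟩)
      rw [hF1 _ n1, e0, e1, e2]; ring
    · show Dat.FU mu (τ * v * g) = (1 - s0 ⟨g, hg⟩ - s1 ⟨g, hg⟩ - s2 ⟨g, hg⟩) * m ⟨g, hg⟩ +
        2 * (s2 ⟨g, hg⟩ * m ⟨g, hg⟩)
      rw [hF1 _ n2, e0, e1, e2]; ring
  · -- e = τ
    set g : G := τ * w with hgd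
    have p0 : τ * g = w := by rw [hgd, ← mul_assoc, htt, one_mul]
    have p1 : v * g = τ * v * w := by rw [hgd, ← mul_assoc, hcm]
    have p2 : τ * v * g = v * w := by
      rw [hgd]
      calc τ * v * (τ * w) = τ * (v * τ) * w := by group
        _ = τ * (τ * v) * w := by rw [hcm]
        _ = (τ * τ) * v * w := by group
        _ = v * w := by rw [htt, one_mul]
    have nn : g ∉ U := mul_not_mem Y.tU hw
    have n1 : v * g ∉ U := by rw [p1]; exact mul_not_mem Y.tvU hw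
    have n2 : τ * v * g ∉ U := by rw [p2]; exact mul_not_mem Y.vU hw
    have n0 : τ * g ∈ U := by rw [p0]; exact hw
    have e0 := (hs0 ⟨g, hg⟩).1 (Or.inr n0)
    have e1 := (hs1 ⟨g, hg⟩).2 (fun h => h.elim nn n1)
    have e2 := (hs2 ⟨g, hg⟩).2 (fun h => h.elim nn n2)
    have em : m ⟨g, hg⟩ = mu ⟨w, hw⟩ := hm τ htt Y.Ut w hw hg
    have ew : mu ⟨τ * g, n0⟩ = mu ⟨w, hw⟩ := congrArg mu (Subtype.ext p0)
    fin_cases i
    · show Dat.FU mu (τ * g) = (1 - s0 ⟨g, hg⟩ - s1 ⟨g, hg⟩ - s2 ⟨g, hg⟩) * m ⟨g, hg⟩ +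
        2 * (s0 ⟨g, hg⟩ * m ⟨g, hg⟩)
      rw [hF2 _ n0, ew, e0, e1, e2, em]; ring
    · show Dat.FU mu (v * g) = (1 - s0 ⟨g, hg⟩ - s1 ⟨g, hg⟩ - s2 ⟨g, hg⟩) * m ⟨g, hg⟩ +
        2 * (s1 ⟨g, hg⟩ * m ⟨g, hg⟩)
      rw [hF1 _ n1, e0, e1, e2]; ring
    · show Dat.FU mu (τ * v * g) = (1 - s0 ⟨g, hg⟩ - s1 ⟨g, hg⟩ - s2 ⟨g, hg⟩) * m ⟨g, hg⟩ +
        2 * (s2 ⟨g, hg⟩ * m ⟨g, hg⟩)
      rw [hF1 _ n2, e0, e1, e2]; ring
  · -- e = v
    set g : G := v * w with hgd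
    have p0 : τ * g = τ * v * w := by rw [hgd, ← mul_assoc]
    have p1 : v * g = w := by rw [hgd, ← mul_assoc, hvv, one_mul]
    have p2 : τ * v * g = τ * w := by
      rw [hgd]
      calc τ * v * (v * w) = τ * (v * v) * w := by group
        _ = τ * w := by rw [hvv, mul_one]
    have nn : g ∉ U := mul_not_mem Y.vU hw
    have n0 : τ * g ∉ U := by rw [p0]; exact mul_not_mem Y.tvU hw
    have n2 : τ * v * g ∉ U := by rw [p2]; exact mul_not_mem Y.tU hw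
    have n1 : v * g ∈ U := by rw [p1]; exact hw
    have e1 := (hs1 ⟨g, hg⟩).1 (Or.inr n1)
    have e0 := (hs0 ⟨g, hg⟩).2 (fun h => h.elim nn n0)
    have e2 := (hs2 ⟨g, hg⟩).2 (fun h => h.elim nn n2)
    have em : m ⟨g, hg⟩ = mu ⟨w, hw⟩ := hm v hvv Y.Uv w hw hg
    have ew : mu ⟨v * g, n1⟩ = mu ⟨w, hw⟩ := congrArg mu (Subtype.ext p1)
    fin_cases i
    · show Dat.FU mu (τ * g) = (1 - s0 ⟨g, hg⟩ - s1 ⟨g, hg⟩ - s2 ⟨g, hg⟩) * m ⟨g, hg⟩ +
        2 * (s0 ⟨g, hg⟩ * m ⟨g, hg⟩)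
      rw [hF1 _ n0, e0, e1, e2]; ring
    · show Dat.FU mu (v * g) = (1 - s0 ⟨g, hg⟩ - s1 ⟨g, hg⟩ - s2 ⟨g, hg⟩) * m ⟨g, hg⟩ +
        2 * (s1 ⟨g, hg⟩ * m ⟨g, hg⟩)
      rw [hF2 _ n1, ew, e0, e1, e2, em]; ring
    · show Dat.FU mu (τ * v * g) = (1 - s0 ⟨g, hg⟩ - s1 ⟨g, hg⟩ - s2 ⟨g, hg⟩) * m ⟨g, hg⟩ +
        2 * (s2 ⟨g, hg⟩ * m ⟨g, hg⟩)
      rw [hF1 _ n2, e0, e1, e2]; ring
  · -- e = τ v
    set g : G := τ * v * w with hgd
    have p0 : τ * g = v * w := by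
      rw [hgd]
      calc τ * (τ * v * w) = (τ * τ) * v * w := by group
        _ = v * w := by rw [htt, one_mul]
    have p1 : v * g = τ * w := by
      rw [hgd]
      calc v * (τ * v * w) = (v * τ) * v * w := by group
        _ = (τ * v) * v * w := by rw [hcm]
        _ = τ * (v * v) * w := by group
        _ = τ * w := by rw [hvv, mul_one]
    have p2 : τ * v * g = w := by rw [hgd, ← mul_assoc, htv, one_mul]
    have nn : g ∉ U := mul_not_mem Y.tvU hw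
    have n0 : τ * g ∉ U := by rw [p0]; exact mul_not_mem Y.vU hw
    have n1 : v * g ∉ U := by rw [p1]; exact mul_not_mem Y.tU hw
    have n2 : τ * v * g ∈ U := by rw [p2]; exact hw
    have e2 := (hs2 ⟨g, hg⟩).1 (Or.inr n2)
    have e0 := (hs0 ⟨g, hg⟩).2 (fun h => h.elim nn n0)
    have e1 := (hs1 ⟨g, hg⟩).2 (fun h => h.elim nn n1)
    have em : m ⟨g, hg⟩ = mu ⟨w, hw⟩ := hm (τ * v) htv Y.Utv w hw hg
    have ew : mu ⟨τ * v * g, n2⟩ = mu ⟨w, hw⟩ := congrArg mu (Subtype.ext p2)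
    fin_cases i
    · show Dat.FU mu (τ * g) = (1 - s0 ⟨g, hg⟩ - s1 ⟨g, hg⟩ - s2 ⟨g, hg⟩) * m ⟨g, hg⟩ +
        2 * (s0 ⟨g, hg⟩ * m ⟨g, hg⟩)
      rw [hF1 _ n0, e0, e1, e2]; ring
    · show Dat.FU mu (v * g) = (1 - s0 ⟨g, hg⟩ - s1 ⟨g, hg⟩ - s2 ⟨g, hg⟩) * m ⟨g, hg⟩ +
        2 * (s1 ⟨g, hg⟩ * m ⟨g, hg⟩)
      rw [hF1 _ n1, e0, e1, e2]; ring
    · show Dat.FU mu (τ * v * g) = (1 - s0 ⟨g, hg⟩ - s1 ⟨g, hg⟩ - s2 ⟨g, hg⟩) * m ⟨g, hg⟩ +
        2 * (s2 ⟨g, hg⟩ * m ⟨g, hg⟩)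
      rw [hF2 _ n2, ew, e0, e1, e2, em]; ring

/-- the differences of the `I d` are divisible by two -/
theorem exists_J [Fintype G] (mu : U →* ℂ) : ∃ J : Fin 3 → G → ℂ,
    (∀ i, IsGeneralizedCharacter G (J i)) ∧
    (∀ i, IsGeneralizedCharacter G (Y.I mu (dd τ v i))) ∧
    ∀ i j, Y.I mu (dd τ v i) - Y.I mu (dd τ v j) = (2 : ℂ) • (J i - J j) := by
  obtain ⟨ψ, C, hC, hψ⟩ := Y.diff mu
  have e : ∀ i, Y.I mu (dd τ v i) = indFun Y.E (fun h => C h) + (2 : ℂ) • indFun Y.E (fun h => ψ i h) := by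
    intro i
    unfold I
    rw [← indFun_smul, ← indFun_add]
    congr 1
    ext g
    rw [hψ]
    rfl
  have hJ : ∀ i, IsGeneralizedCharacter G (indFun Y.E (fun h => ψ i h)) :=
    fun i => ((isCharacter_of_hom (ψ i)).isGeneralized).indFun Y.E
  refine ⟨fun i => indFun Y.E (fun h => ψ i h), hJ, ?_, ?_⟩
  · intro i
    rw [e]
    exact (hC.indFun Y.E).add (by exact_mod_cast (hJ i).intCast_smul 2)
  intro i j
  rw [e, e, smul_sub]
  abel

end YD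

end Cfsg.Agent.Lib.GoldC95
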