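import Cfsg.Agent.Lib.GoldC95g

set_option autoImplicit false

/-!
# S2755 piece C (helper1): assembly
-/

namespace Cfsg.Agent.Lib.GoldC95

open scoped ComplexConjugate
open Cfsg Cfsg.Agent.Lib.CharBasic Cfsg.Agent.Lib.TIFN Cfsg.Agent.Lib.IndFun
open Cfsg.Agent.Lib.StructConst

universe u

variable {G : Type u} [Group G]

theorem exists_hom_ne [Finite G] (A : Subgroup G) (hc : ∀ a ∈ A, ∀ b ∈ A, a * b = b * a) (a : A)
    (ha : a ≠ 1) : ∃ φ : A →* ℂ, φ a ≠ 1 := by
  let inst : CommGroup A :=
    { (inferInstance : Group A) with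
      mul_comm := fun x y => Subtype.ext (hc x x.2 y y.2) }
  obtain ⟨φ, hφ⟩ := @CommGroup.exists_apply_ne_one_of_hasEnoughRootsOfUnity A ℂ inst _ _ _ a ha
  refine ⟨(Units.coeHom ℂ).comp φ, ?_⟩
  intro h
  apply hφ
  exact Units.ext h

/-- the function induced from `⟨τ⟩P` is a generalized character -/
theorem Dat.gen_P [Fintype G] {τ : G} {K P U : Subgroup G} {q : ℕ} (D : Dat τ K P U q)
    (lam : P →* ℂ) (hPt : ∀ b ∈ P, b * τ = τ * b) :
    IsGeneralizedCharacter G (indFun (ext2 P τ D.tt hPt)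
      (fun h : ext2 P τ D.tt hPt => Dat.FP lam (τ * h))) := by
  set A := ext2 P τ D.tt hPt with hA
  have htP : τ ∉ P := fun h => D.tK (D.PK h)
  obtain ⟨s, hs⟩ := exists_sgn A P (fun g hg => Or.inl hg) τ D.tt hPt (fun g hg => hg)
  have hAc : ∀ a ∈ A, ∀ b ∈ A, a * b = b * a := by
    have key : ∀ a ∈ A, Commute a τ ∧ ∀ u ∈ P, Commute a u := by
      intro a ha
      rcases ha with ha | ha
      · exact ⟨hPt a ha, fun u hu => D.Pc a ha u hu⟩
      · have e : a = τ * (τ * a) := by rw [← mul_assoc, D.tt, one_mul]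
        have c1 : Commute (τ * a) τ := hPt _ ha
        rw [e]
        exact ⟨(Commute.refl τ).mul_left c1, fun u hu =>
          (Commute.symm (hPt u hu)).mul_left (D.Pc _ ha u hu)⟩
    intro a ha b hb
    obtain ⟨h1, h2⟩ := key a ha
    rcases hb with hb | hb
    · exact h2 b hb
    · have e : b = τ * (τ * b) := by rw [← mul_assoc, D.tt, one_mul]
      rw [e]
      exact h1.mul_right (h2 _ hb)
  have hodd := D.qodd
  have hpw : ∀ z ∈ P, z ^ (q + 1) = z := by
    intro z hz
    rw [pow_succ, D.pow_P hz, one_mul]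
  have hpt : τ ^ (q + 1) = 1 := by
    obtain ⟨m, hm⟩ := hodd
    rw [hm, show 2 * m + 1 + 1 = 2 * (m + 1) by ring, pow_mul, sq, D.tt, one_pow]
  have hpa : ∀ a ∈ A, (a ∈ P ∧ a ^ (q + 1) = a) ∨ (τ * a ∈ P ∧ a ^ (q + 1) = τ * a) := by
    intro a ha
    rcases ha with ha | ha
    · exact Or.inl ⟨ha, hpw a ha⟩
    · right
      refine ⟨ha, ?_⟩
      have e : a = τ * (τ * a) := by rw [← mul_assoc, D.tt, one_mul]
      conv_lhs => rw [e]
      rw [mul_pow_comm (hPt _ ha), hpt, one_mul, hpw _ ha]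
  obtain ⟨m, hm⟩ := exists_lift A P hAc q (fun a ha => by
    rcases hpa a ha with h | h
    · rw [h.2]; exact h.1
    · rw [h.2]; exact h.1) lam
  have hgen : IsGeneralizedCharacter A (((2 : ℤ) : ℂ) • ((1 - (fun g => s g)) *
      ((fun g => m g) + (fun g => conj (m g))))) := by
    apply IsGeneralizedCharacter.intCast_smul
    exact (isGeneralized_one.sub (isCharacter_of_hom s).isGeneralized).mul
      ((isCharacter_of_hom m).isGeneralized.add ((isCharacter_of_hom m).conj.isGeneralized))
  have heq : (fun h : A => Dat.FP lam (τ * h)) = (((2 : ℤ) : ℂ) • ((1 - (fun g => s g)) *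
      ((fun g => m g) + (fun g => conj (m g))))) := by
    ext g
    simp only [Pi.smul_apply, Pi.mul_apply, Pi.sub_apply, Pi.add_apply, Pi.one_apply, smul_eq_mul]
    by_cases hg : (g : G) ∈ P
    · have h1 : τ * (g : G) ∉ P := fun h => htP (by
        have := P.mul_mem h (P.inv_mem hg); rwa [mul_inv_cancel_right] at this)
      have h2 : Dat.FP lam (τ * g) = 0 := by
        by_contra hne
        exact h1 (Dat.mem_of_FP hne)
      rw [h2, (hs g).1 hg]; ring
    · have h1 : τ * (g : G) ∈ P := g.2.resolve_left hg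
      rw [(hs g).2 hg]
      unfold Dat.FP
      rw [Dat.Lam_mem h1, Dat.Lam_mem (P.inv_mem h1)]
      have e1 : m g = lam ⟨τ * (g : G), h1⟩ := by
        rw [hm]
        congr 1
        apply Subtype.ext
        rcases hpa g g.2 with h | h
        · exact absurd h.1 hg
        · exact h.2
      have e2 : conj (lam ⟨τ * (g : G), h1⟩) = lam ⟨(τ * (g : G))⁻¹, P.inv_mem h1⟩ := by
        rw [conj_hom]; rfl
      rw [e1, e2]
      push_cast
      ring
  rw [heq]
  exact hgen.indFun A

theorem cent_eq [Finite G] {τ : G} {K P U : Subgroup G} {q : ℕ} (D : Dat τ K P U q) :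
    (Nat.card (Subgroup.centralizer ({τ} : Set G)) : ℂ) = (q : ℂ) ^ 3 - q := by
  have h1 : Subgroup.centralizer ({τ} : Set G) = ext2 K τ D.tt D.cK := by
    ext g
    rw [Subgroup.mem_centralizer_singleton_iff, mem_ext2]
    constructor
    · intro h; exact D.hC g h
    · rintro (h | h)
      · exact D.cK g h
      · have := D.cK _ h
        calc g * τ = τ * τ * g * τ := by rw [D.tt, one_mul]
          _ = τ * (τ * g * τ) := by group
          _ = τ * (τ * (τ * g)) := by rw [this]
          _ = (τ * τ) * (τ * g) := by group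
          _ = τ * g := by rw [D.tt, one_mul]
  rw [h1, card_ext2 D.tK, ← D.cardK_eq]
  push_cast; ring

/-- three characters of `U` -/
theorem exists_mu [Finite G] {τ v y : G} {U : Subgroup G} (Y : YD τ v y U) :
    ∃ mu : Fin 3 → (U →* ℂ), mu 1 = (mu 0).comp Y.cy ∧ mu 2 = ((mu 0).comp Y.cy).comp Y.cy ∧
      (∀ i, mu i ≠ 1) ∧ (∀ i j, i ≠ j → mu i ≠ mu j) ∧ (∀ i j, mu i * mu j ≠ 1) := by
  obtain ⟨w, hw, hne⟩ := Y.ync
  obtain ⟨φ, hφ⟩ := exists_hom_ne U Y.Uc (Y.cy ⟨w, hw⟩ * (⟨w, hw⟩ : U)⁻¹) (by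
    intro h
    apply hne
    have := mul_inv_eq_one.1 h
    exact congrArg Subtype.val this)
  have h3 : ∀ x : U, Y.cy (Y.cy (Y.cy x)) = x := by
    intro x
    apply Subtype.ext
    show y * (y * (y * x * y⁻¹) * y⁻¹) * y⁻¹ = x
    calc y * (y * (y * (x : G) * y⁻¹) * y⁻¹) * y⁻¹ = (y * y * y) * x * (y * y * y)⁻¹ := by group
      _ = x := by rw [Y.y3]; group
  have hinv : ∀ x : U, φ x * φ x⁻¹ = 1 := fun x => by rw [← map_mul, mul_inv_cancel, map_one]
  -- the basic non-invariance
  have n1 : ¬ ∀ x, φ (Y.cy x) = φ x := by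
    intro h
    apply hφ
    rw [map_mul, h, hinv]
  -- odd order
  have hodd : ∀ g : U →* ℂ, (∀ x, g x * g x = 1) → g = 1 := by
    intro g hg
    ext x
    obtain ⟨m, hm⟩ := Y.Uodd
    have h1 : x ^ (Nat.card U) = 1 := pow_card_eq_one'
    have h2 : g x ^ (Nat.card U) = 1 := by rw [← map_pow, h1, map_one]
    rw [hm, pow_succ, pow_mul, sq, hg, one_pow, one_mul] at h2
    exact h2
  have n2 : ¬ ∀ x, φ x * φ x = 1 := by
    intro h
    apply hφ
    rw [hodd φ h]; rfl
  have n3 : ¬ ∀ x, φ x * φ (Y.cy x) = 1 := by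
    intro h
    apply n2
    intro x
    have e1 := h x
    have e2 := h (Y.cy x)
    have e3 := h (Y.cy (Y.cy x))
    rw [h3] at e3
    -- φ x φ(cx) = 1, φ(cx) φ(ccx) = 1, φ(ccx) φ x = 1
    calc φ x * φ x = (φ x * φ (Y.cy x)) * (φ (Y.cy (Y.cy x)) * φ x) *
          ((φ (Y.cy x) * φ (Y.cy (Y.cy x)))) * 1 := by
            rw [e1, e2, e3]
            have h5 : φ (Y.cy (Y.cy x)) = φ x := by
              have h6 : φ (Y.cy x) ≠ 0 := fun h0 => by rw [h0, mul_zero] at e1; exact zero_ne_one e1
              apply mul_left_cancel₀ h6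
              rw [e2, mul_comm, e1]
            rw [h5] at e3
            rw [e3]; ring
      _ = 1 := by rw [e1, e2, e3]; ring
  refine ⟨![φ, φ.comp Y.cy, (φ.comp Y.cy).comp Y.cy], rfl, rfl, ?_, ?_, ?_⟩
  · have a0 : φ ≠ 1 := fun h => n2 (fun x => by rw [h]; simp)
    intro i
    fin_cases i
    · exact a0
    · intro h
      apply a0
      ext x
      have := DFunLike.congr_fun h (Y.cy (Y.cy x))
      simpa [h3] using this
    · intro h
      apply a0
      ext x
      have := DFunLike.congr_fun h (Y.cy x)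
      simpa [h3] using this
  · have m01 : φ ≠ φ.comp Y.cy := fun h => n1 (fun x => (DFunLike.congr_fun h x).symm)
    have m12 : φ.comp Y.cy ≠ (φ.comp Y.cy).comp Y.cy := by
      intro h
      apply n1
      intro x
      have := DFunLike.congr_fun h (Y.cy (Y.cy x))
      simp only [MonoidHom.comp_apply, h3] at this
      exact this.symm
    have m02 : φ ≠ (φ.comp Y.cy).comp Y.cy := by
      intro h
      apply n1
      intro x
      have := DFunLike.congr_fun h (Y.cy x)
      simp only [MonoidHom.comp_apply, h3] at this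
      exact this
    intro i j hij
    fin_cases i <;> fin_cases j
    · exact absurd rfl hij
    · exact m01
    · exact m02
    · exact m01.symm
    · exact absurd rfl hij
    · exact m12
    · exact m02.symm
    · exact m12.symm
    · exact absurd rfl hij
  · have m00 : φ * φ ≠ 1 := fun h => n2 (fun x => DFunLike.congr_fun h x)
    have m11 : (φ.comp Y.cy) * (φ.comp Y.cy) ≠ 1 := fun h => n2 (fun x => by
      have := DFunLike.congr_fun h (Y.cy (Y.cy x))
      simpa [h3] using this)
    have m22 : ((φ.comp Y.cy).comp Y.cy) * ((φ.comp Y.cy).comp Y.cy) ≠ 1 := fun h =>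
      n2 (fun x => by
      have := DFunLike.congr_fun h (Y.cy x)
      simpa [h3] using this)
    have m01 : φ * (φ.comp Y.cy) ≠ 1 := fun h => n3 (fun x => DFunLike.congr_fun h x)
    have m12 : (φ.comp Y.cy) * ((φ.comp Y.cy).comp Y.cy) ≠ 1 := fun h => n3 (fun x => by
      have := DFunLike.congr_fun h (Y.cy (Y.cy x))
      simpa [h3] using this)
    have m02 : φ * ((φ.comp Y.cy).comp Y.cy) ≠ 1 := fun h => n3 (fun x => by
      have := DFunLike.congr_fun h (Y.cy x)
      simp only [MonoidHom.mul_apply, MonoidHom.comp_apply, h3, MonoidHom.one_apply] at this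
      rw [mul_comm]; exact this)
    intro i j
    fin_cases i <;> fin_cases j
    · exact m00
    · exact m01
    · exact m02
    · intro h; apply m01; rw [mul_comm]; exact h
    · exact m11
    · exact m12
    · intro h; apply m02; rw [mul_comm]; exact h
    · intro h; apply m12; rw [mul_comm]; exact h
    · exact m22

end Cfsg.Agent.Lib.GoldC95
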