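import Cfsg.Agent.Lib.GoldC95h

set_option autoImplicit false

/-!
# S2755 piece C (helper1): the abstract theorem
-/

namespace Cfsg.Agent.Lib.GoldC95

open scoped ComplexConjugate
open Cfsg Cfsg.Agent.Lib.CharBasic Cfsg.Agent.Lib.TIFN Cfsg.Agent.Lib.IndFun
open Cfsg.Agent.Lib.StructConst

universe u

variable {G : Type u} [Group G]

/-- arithmetic end -/
theorem arith {g f : ℕ} (hg : 0 < g) (hf : 0 < f) {q k : ℕ} (hq : q = 3 ^ k) (hq3 : 3 ≤ q)
    {z a e : ℤ} (he : e = 1 ∨ e = -1) (hz : z = a + 2 * e * (q - 1))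
    (h1 : (g : ℤ) * z = q ^ 3 * (q ^ 2 - 1) * f) (h2 : 3 * a ^ 2 ≤ (q : ℤ) ^ 3 - q) :
    3 ^ (k + 1) ∣ g := by
  have hq' : (3 : ℤ) ≤ q := by exact_mod_cast hq3
  have hz0 : z ≠ 0 := by
    intro h
    rw [h, mul_zero] at h1
    have : (0 : ℤ) < q ^ 3 * (q ^ 2 - 1) * f := by
      apply mul_pos (mul_pos (by positivity) (by nlinarith)) (by exact_mod_cast hf)
    omega
  have hlt : z.natAbs < q ^ 2 := by
    have h3 : |z| < (q : ℤ) ^ 2 := by
      by_contra hcon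
      push Not at hcon
      have h4 : (q : ℤ) ^ 2 - 2 * (q - 1) ≤ |a| := by
        have h5 : |z| ≤ |a| + |2 * e * ((q : ℤ) - 1)| := by rw [hz]; exact abs_add_le _ _
        have h6 : |2 * e * ((q : ℤ) - 1)| = 2 * (q - 1) := by
          rcases he with h | h <;> rw [h]
          · rw [mul_one, abs_of_nonneg (by linarith)]
          · rw [show (2 : ℤ) * -1 * ((q : ℤ) - 1) = -(2 * (q - 1)) by ring, abs_neg,
              abs_of_nonneg (by linarith)]
        linarith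
      have h7 : ((q : ℤ) ^ 2 - 2 * (q - 1)) ^ 2 ≤ a ^ 2 := by
        rw [← sq_abs a]
        exact pow_le_pow_left₀ (by nlinarith) h4 2
      nlinarith [mul_self_nonneg ((q : ℤ) - 3), mul_pos (show (0 : ℤ) < q by linarith)
        (show (0 : ℤ) < q by linarith), mul_nonneg (show (0 : ℤ) ≤ q by linarith)
        (mul_nonneg (show (0 : ℤ) ≤ q - 3 by linarith) (show (0 : ℤ) ≤ q by linarith)),
        mul_nonneg (mul_nonneg (show (0 : ℤ) ≤ q by linarith) (show (0 : ℤ) ≤ q by linarith))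
        (mul_nonneg (show (0 : ℤ) ≤ q - 3 by linarith) (show (0 : ℤ) ≤ q - 3 by linarith))]
    zify
    exact h3
  have hnat : g * z.natAbs = q ^ 3 * (q ^ 2 - 1) * f := by
    have h3 := congrArg Int.natAbs h1
    rw [Int.natAbs_mul, Int.natAbs_natCast] at h3
    rw [h3]
    have h4 : ((q : ℤ) ^ 3 * ((q : ℤ) ^ 2 - 1) * f) = ((q ^ 3 * (q ^ 2 - 1) * f : ℕ) : ℤ) := by
      have h5 : 1 ≤ q ^ 2 := Nat.one_le_pow _ _ (by omega)
      push_cast [Nat.cast_sub h5]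
      ring
    rw [h4, Int.natAbs_natCast]
  have hz' : 0 < z.natAbs := Int.natAbs_pos.2 hz0
  have hdvd : 3 ^ (3 * k) ∣ g * z.natAbs := by
    rw [hnat, hq, ← pow_mul, mul_comm 3 k, mul_assoc]
    exact Dvd.intro _ rfl
  have hfac := (Nat.Prime.pow_dvd_iff_le_factorization Nat.prime_three
    (Nat.mul_ne_zero hg.ne' hz'.ne')).1 hdvd
  rw [Nat.factorization_mul hg.ne' hz'.ne', Finsupp.add_apply] at hfac
  have hzf : (z.natAbs).factorization 3 < 2 * k := by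
    have h5 : 3 ^ ((z.natAbs).factorization 3) ≤ z.natAbs :=
      Nat.le_of_dvd hz' (Nat.ordProj_dvd _ _)
    have h6 : 3 ^ ((z.natAbs).factorization 3) < 3 ^ (2 * k) := by
      calc _ ≤ z.natAbs := h5
        _ < q ^ 2 := hlt
        _ = 3 ^ (2 * k) := by rw [hq, ← pow_mul, mul_comm]
    exact (Nat.pow_lt_pow_iff_right (by norm_num)).1 h6
  rw [Nat.Prime.pow_dvd_iff_le_factorization Nat.prime_three hg.ne']
  omega

theorem sum_four [Finite G] {X0 X1 X2 : G → ℂ} (h0 : IsIrrCharacter G X0)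
    (h1 : IsIrrCharacter G X1) (h2 : IsIrrCharacter G X2) (h01 : X0 ≠ X1) (h02 : X0 ≠ X2)
    (h12 : X1 ≠ X2) (τ : G) {a : ℤ} (e0 : X0 τ = a) (e1 : X1 τ = a) (e2 : X2 τ = a) :
    3 * (a : ℝ) ^ 2 ≤ (Nat.card (Subgroup.centralizer ({τ} : Set G)) : ℝ) := by
  classical
  have h := column_orthogonality τ τ
  rw [if_pos (IsConj.refl τ)] at h
  have h3 : ∑ χ : IrrCharacter G, Complex.normSq ((χ : G → ℂ) τ) =
      (Nat.card (Subgroup.centralizer ({τ} : Set G)) : ℝ) := by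
    have h4 : ((∑ χ : IrrCharacter G, Complex.normSq ((χ : G → ℂ) τ) : ℝ) : ℂ) =
        ((Nat.card (Subgroup.centralizer ({τ} : Set G)) : ℝ) : ℂ) := by
      push_cast
      rw [← h]
      refine Finset.sum_congr rfl fun χ _ => ?_
      rw [Complex.mul_conj]
    exact_mod_cast h4
  rw [← h3]
  set S : Finset (IrrCharacter G) := {⟨X0, h0⟩, ⟨X1, h1⟩, ⟨X2, h2⟩} with hS
  have h5 : ∑ χ ∈ S, Complex.normSq ((χ : G → ℂ) τ) ≤
      ∑ χ : IrrCharacter G, Complex.normSq ((χ : G → ℂ) τ) :=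
    Finset.sum_le_sum_of_subset_of_nonneg (Finset.subset_univ _)
      (fun χ _ _ => Complex.normSq_nonneg _)
  refine le_trans (le_of_eq ?_) h5
  rw [hS, Finset.sum_insert, Finset.sum_insert, Finset.sum_singleton]
  · show 3 * (a : ℝ) ^ 2 = Complex.normSq (X0 τ) + (Complex.normSq (X1 τ) + Complex.normSq (X2 τ))
    rw [e0, e1, e2]
    have : Complex.normSq (a : ℂ) = (a : ℝ) ^ 2 := by
      rw [show ((a : ℤ) : ℂ) = (((a : ℤ) : ℝ) : ℂ) by push_cast; rfl, Complex.normSq_ofReal]; ring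
    rw [this]; ring
  · simp only [Finset.mem_singleton, Subtype.mk.injEq]
    exact h12
  · simp only [Finset.mem_insert, Finset.mem_singleton, Subtype.mk.injEq]
    rintro (h | h)
    · exact h01 h
    · exact h02 h

theorem core [Finite G] {τ v y : G} {K P U : Subgroup G} {q k : ℕ} (D : Dat τ K P U q)
    (Y : YD τ v y U) (hq : q = 3 ^ k) : 3 ^ (k + 1) ∣ Nat.card G := by
  classical
  have := Fintype.ofFinite G
  have := Fintype.ofFinite K
  have := Fintype.ofFinite U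
  -- lam
  obtain ⟨x, hx⟩ : ∃ x : P, x ≠ 1 := by
    by_contra h
    push Not at h
    have : Nat.card P = 1 := by
      rw [Nat.card_eq_one_iff_unique]
      exact ⟨⟨fun a b => by rw [h a, h b]⟩, ⟨1⟩⟩
    rw [D.cP] at this
    have := D.q3
    omega
  obtain ⟨lam, hlam⟩ := exists_hom_ne P D.Pc x hx
  have hl : lam ≠ 1 := fun h => hlam (by rw [h]; rfl)
  obtain ⟨mu, hmu1, hmu2, hm1, hmne, hminv⟩ := exists_mu Y
  have hPt : ∀ b ∈ P, b * τ = τ * b := fun b hb => D.cK b (D.PK hb)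
  set A := ext2 P τ D.tt hPt with hA
  have htP : τ ∉ P := fun h => D.tK (D.PK h)
  have hAc : Nat.card A = 2 * q := by rw [hA, card_ext2 htP, D.cP]
  have hAP : ∀ z ∈ P, τ * z ∈ A := fun z hz => Or.inr (by rw [← mul_assoc, D.tt, one_mul]; exact hz)
  have hEc : Nat.card Y.E = q + 1 := by rw [Y.cardE, D.cU]
  have hEU : ∀ z ∈ U, τ * z ∈ Y.E := fun z hz =>
    Y.mem_E.2 ⟨z, hz, Or.inr (Or.inl rfl)⟩
  set η : Fin 3 → G → ℂ := fun i => Dat.eta τ A Y.E lam (mu i) with hη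
  set Ψ : G → ℂ := indFun A (fun h : A => Dat.FP lam (τ * h)) with hΨ
  have hηI : ∀ i, η i = Ψ - Y.I (mu 0) (YD.dd τ v i) := by
    intro i
    fin_cases i
    · rfl
    · show Ψ - Y.I (mu 1) τ = Ψ - Y.I (mu 0) v
      rw [hmu1, Y.I1]
    · show Ψ - Y.I (mu 2) τ = Ψ - Y.I (mu 0) (τ * v)
      rw [hmu2, Y.I2]
  obtain ⟨J, hJ, hI, hIJ⟩ := Y.exists_J (mu 0)
  have hΨg : IsGeneralizedCharacter G Ψ := D.gen_P lam hPt
  have hηg : ∀ i, IsGeneralizedCharacter G (η i) := by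
    intro i; rw [hηI]; exact hΨg.sub (hI i)
  have hη1 : ∀ i, η i 1 = 0 := by
    intro i
    show indFun A _ 1 - indFun Y.E _ 1 = 0
    rw [indFun_one, indFun_one]
    have e1 : Dat.FP lam (τ * ((1 : A) : G)) = 0 := by
      by_contra h
      exact htP (by simpa using Dat.mem_of_FP h)
    have e2 : Dat.FU (mu i) (τ * ((1 : Y.E) : G)) = 0 := by
      by_contra h
      exact Y.tU (by simpa using Dat.mem_of_FU h)
    rw [e1, e2]; ring
  have hgram := fun i j => D.gram hAc hAP hEc hEU lam hl (mu i) (mu j)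
  have hηn : ∀ i, classInner (η i) (η i) = 4 := by
    intro i
    show classInner (Dat.eta τ A Y.E lam (mu i)) (Dat.eta τ A Y.E lam (mu i)) = 4
    rw [hgram, if_pos rfl, if_neg (hminv i i)]; norm_num
  have hηo : ∀ i j, i ≠ j → classInner (η i) (η j) = 0 := by
    intro i j hij
    show classInner (Dat.eta τ A Y.E lam (mu i)) (Dat.eta τ A Y.E lam (mu j)) = 0
    rw [hgram, if_neg (hmne i j hij), if_neg (hminv i j)]; norm_num
  obtain ⟨e, X0, X1, X2, X3, he, hX0, hX1, hX2, hX3, h01, h02, h12, d1, d2, d3, hη0', hη1', hη2'⟩ :=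
    four η hηg hη1 hηn hηo (fun i j => J j - J i) (fun i j => (hJ j).sub (hJ i)) (by
      intro i j
      rw [hηI, hηI, sub_sub_sub_cancel_left, hIJ])
  -- values at τ
  have htau : orderOf τ = 2 := by
    rw [orderOf_eq_prime_iff (p := 2)]
    exact ⟨by rw [sq, D.tt], Y.t1⟩
  obtain ⟨t0, ht0⟩ := BlockKlein.exists_int_of_involution hX0.isCharacter htau
  obtain ⟨t1, ht1⟩ := BlockKlein.exists_int_of_involution hX1.isCharacter htau
  obtain ⟨t2, ht2⟩ := BlockKlein.exists_int_of_involution hX2.isCharacter htau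
  obtain ⟨t3, ht3⟩ := BlockKlein.exists_int_of_involution hX3.isCharacter htau
  have hval : ∀ i, η i τ = 4 * ((q : ℂ) - 1) := fun i => D.eta_tau hAc hAP hEc hEU lam (mu i)
  have v0 := hval 0
  have v1 := hval 1
  have v2 := hval 2
  rw [hη0'] at v0
  rw [hη1'] at v1
  rw [hη2'] at v2
  simp only [Pi.smul_apply, Pi.add_apply, Pi.sub_apply, smul_eq_mul, ht0, ht1, ht2, ht3] at v0 v1 v2
  obtain ⟨ez, hez, hez1⟩ : ∃ ez : ℤ, e = (ez : ℂ) ∧ (ez = 1 ∨ ez = -1) := by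
    rcases he with h | h
    · exact ⟨1, by rw [h]; simp, Or.inl rfl⟩
    · exact ⟨-1, by rw [h]; simp, Or.inr rfl⟩
  have w0 : ez * (t3 + t0 - t1 - t2) = 4 * ((q : ℤ) - 1) := by
    rw [hez] at v0; exact_mod_cast v0
  have w1 : ez * (t3 - t0 + t1 - t2) = 4 * ((q : ℤ) - 1) := by
    rw [hez] at v1; exact_mod_cast v1
  have w2 : ez * (t3 - t0 - t1 + t2) = 4 * ((q : ℤ) - 1) := by
    rw [hez] at v2; exact_mod_cast v2
  have ht : t1 = t0 ∧ t2 = t0 ∧ t3 = t0 + 4 * ez * ((q : ℤ) - 1) := by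
    rcases hez1 with h | h <;> subst h <;> refine ⟨by linarith, by linarith, by linarith⟩
  obtain ⟨h10, h20, ht3'⟩ := ht
  rw [h10] at ht1
  rw [h20] at ht2
  obtain ⟨f, hf, hf'⟩ := hX0.exists_degree
  -- the counting identity
  have hQ := D.eta_nu hAc hAP hEc hEU lam hl (mu 0) (hm1 0)
  rw [cent_eq D] at hQ
  have hQ2 : ∑ b, Dat.eta τ A Y.E lam (mu 0) (τ * (b * τ * b⁻¹)) =
      e * ((Nat.card G : ℂ) * t3 * t3 / f + (Nat.card G : ℂ) * t0 * t0 / f -
        (Nat.card G : ℂ) * t0 * t0 / f - (Nat.card G : ℂ) * t0 * t0 / f) := by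
    have e1 : ∀ b : G, Dat.eta τ A Y.E lam (mu 0) (τ * (b * τ * b⁻¹)) =
        e * (X3 (τ * (b * τ * b⁻¹)) + X0 (τ * (b * τ * b⁻¹)) - X1 (τ * (b * τ * b⁻¹)) -
          X2 (τ * (b * τ * b⁻¹))) := by
      intro b
      show η 0 (τ * (b * τ * b⁻¹)) = _
      rw [hη0']
      simp only [Pi.smul_apply, Pi.add_apply, Pi.sub_apply, smul_eq_mul]
    rw [Finset.sum_congr rfl (fun b _ => e1 b), ← Finset.mul_sum, Finset.sum_sub_distrib,
      Finset.sum_sub_distrib, Finset.sum_add_distrib, sum_conj_mul hX0, sum_conj_mul hX1,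
      sum_conj_mul hX2, sum_conj_mul hX3, ht0, ht1, ht2, ht3, d1, d2, d3, hf']
  rw [hQ2] at hQ
  have hf0 : (f : ℂ) ≠ 0 := by exact_mod_cast hf.ne'
  have hq3 := D.q3
  have hqq : ((q : ℂ) ^ 2 - 1) ≠ 0 := by
    have h5 : (1 : ℕ) < q ^ 2 := Nat.one_lt_pow (by norm_num) (by omega)
    have h6 : ((q ^ 2 : ℕ) : ℂ) ≠ 1 := by exact_mod_cast h5.ne'
    intro h7
    apply h6
    push_cast
    linear_combination h7
  have hfin : (Nat.card G : ℂ) * ((t0 : ℂ) + 2 * ez * (q - 1)) = q ^ 3 * (q ^ 2 - 1) * f := by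
    have hee : (ez : ℂ) * ez = 1 := by
      rcases hez1 with h | h <;> rw [h] <;> norm_num
    rw [ht3', hez] at hQ
    push_cast at hQ
    have hQ' : ((q : ℂ) + 1) * ez * (Nat.card G : ℂ) *
        (((t0 : ℂ) + 4 * ez * (q - 1)) ^ 2 - t0 ^ 2) = 8 * q * (q ^ 3 - q) ^ 2 * f := by
      rw [← hQ]
      field_simp
      ring
    apply mul_left_cancel₀ hqq
    have h8 : (8 : ℂ) ≠ 0 := by norm_num
    apply mul_left_cancel₀ h8
    linear_combination hQ' - 8 * ((q : ℂ) ^ 2 - 1) * (Nat.card G : ℂ) *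
      ((t0 : ℂ) + 2 * ez * (q - 1)) * hee
  have hfinz : (Nat.card G : ℤ) * (t0 + 2 * ez * (q - 1)) = q ^ 3 * (q ^ 2 - 1) * f := by
    exact_mod_cast hfin
  have hbd : 3 * t0 ^ 2 ≤ (q : ℤ) ^ 3 - q := by
    have h9 := sum_four hX0 hX1 hX2 h01 h02 h12 τ ht0 ht1 ht2
    have h10 : (Nat.card (Subgroup.centralizer ({τ} : Set G)) : ℝ) = (q : ℝ) ^ 3 - q := by
      have := cent_eq D
      exact_mod_cast this
    rw [h10] at h9
    exact_mod_cast h9
  exact arith Nat.card_pos hf hq hq3 hez1 rfl hfinz hbd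

end Cfsg.Agent.Lib.GoldC95
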