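import Mathlib
import Cfsg.Prelude.Def_LocalEven
import Cfsg.Agent.Lib.H53PSL2b
import Cfsg.Agent.Lib.H53SL2
import Cfsg.Agent.Lib.H53Ree

/-!
Groups of Ree type: Sylow `2`-subgroups, conjugacy of involutions (seat helper95).
-/

set_option autoImplicit false

namespace Cfsg.Agent.Lib.GoldD95

open Subgroup Cfsg.Agent.Lib.H53PSL2

section psl
variable {F : Type*} [Field F]

local notation "SL2" => Matrix.SpecialLinearGroup (Fin 2) F
local notation "M2" => Matrix (Fin 2) (Fin 2) F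
local notation "PSL2" => Matrix.ProjectiveSpecialLinearGroup (Fin 2) F

theorem qw_cube (h2 : (2 : F) ≠ 0) {a b : F} (h : a ^ 2 + b ^ 2 = -1) :
    (qw h2 h * qw h2 h * qw h2 h : SL2) = 1 := by
  apply Subtype.ext
  ext i j
  fin_cases i <;> fin_cases j <;> simp [coe_qw, Matrix.mul_apply] <;> field_simp
  · linear_combination (2 * (a + b - 3)) * h
  · linear_combination (2 * (1 + b - a)) * h
  · linear_combination (2 * (-1 + b - a)) * h
  · linear_combination (2 * (-3 - a - b)) * h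

/-- `A₄` in `PSL₂`. -/
theorem psl_four [Fintype F] (h2 : (2 : F) ≠ 0) : ∃ i j w : PSL2, i * i = 1 ∧ j * j = 1 ∧ i ≠ 1 ∧ j ≠ 1 ∧ i ≠ j ∧ j * i = i * j ∧
    w * i * w⁻¹ = i * j ∧ w * j * w⁻¹ = i ∧ w * w * w = 1 := by
  obtain ⟨a, b, h⟩ := H53SL2.exists_sum_two_sq (-1 : F)
  refine ⟨QuotientGroup.mk (qi F), QuotientGroup.mk (qj h), QuotientGroup.mk (qw h2 h), mk_qi_sq, mk_qj_sq h, mk_qi_ne,
    mk_qj_ne h2 h, mk_qi_ne_qj h2 h, mk_comm h, mk_qw_qi h2 h, mk_qw_qj h2 h, ?_⟩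
  show (QuotientGroup.mk (qw h2 h * qw h2 h * qw h2 h) : PSL2) = 1
  rw [qw_cube]; rfl

end psl

theorem two_ne {F : Type*} [Field F] [Fintype F] {n : ℕ} (hF : Fintype.card F = 3 ^ n) : (2 : F) ≠ 0 := by
  intro h
  have hc : CharP F 2 := CharTwo.of_one_ne_zero_of_two_eq_zero one_ne_zero h
  have h1 : ringChar F = 2 := ringChar.eq F 2 ▸ rfl
  have h2 := FiniteField.even_card_of_char_two h1
  rw [hF] at h2
  have h3 : Odd (3 ^ n) := Odd.pow (by decide)
  rw [Nat.odd_iff] at h3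
  omega

variable {G : Type*} [Group G] [Finite G]

/-- the involution `t` has centralizer `⟨t⟩ × K` with `K ≅ PSL₂(F)` -/
def KD (F : Type*) [Field F] (t : G) (K : Subgroup G) : Prop :=
  orderOf t = 2 ∧ IsInternalDirectProduct (Subgroup.zpowers t) K (Subgroup.centralizer ({t} : Set G)) ∧
    Nonempty (K ≃* Matrix.ProjectiveSpecialLinearGroup (Fin 2) F)

omit [Finite G] in
theorem mem_zpowers_two {t x : G} (ht : orderOf t = 2) (hx : x ∈ Subgroup.zpowers t) : x = 1 ∨ x = t := by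
  have h2 : t * t = 1 := by rw [← pow_two, ← ht]; exact pow_orderOf_eq_one t
  obtain ⟨m, rfl⟩ := hx
  rcases Int.even_or_odd m with ⟨k, hk⟩ | ⟨k, hk⟩
  · left; show t ^ m = 1; rw [hk, ← two_mul, zpow_mul]
    have : t ^ (2 : ℤ) = 1 := by rw [zpow_ofNat, pow_two, h2]
    rw [this, one_zpow]
  · right; show t ^ m = t; rw [hk, zpow_add, zpow_mul]
    have : t ^ (2 : ℤ) = 1 := by rw [zpow_ofNat, pow_two, h2]
    rw [this, one_zpow, one_mul, zpow_one]

omit [Finite G] in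
theorem inv_of_order_two {t : G} (ht : orderOf t = 2) : t * t = 1 ∧ t ≠ 1 ∧ t⁻¹ = t := by
  have h2 : t * t = 1 := by rw [← pow_two, ← ht]; exact pow_orderOf_eq_one t
  refine ⟨h2, ?_, inv_eq_of_mul_eq_one_left h2⟩
  rintro rfl; simp at ht

omit [Finite G] in
theorem order_two_of {t : G} (h1 : t * t = 1) (h2 : t ≠ 1) : orderOf t = 2 :=
  orderOf_eq_prime (by rw [pow_two]; exact h1) h2

omit [Finite G] in
theorem KD.comm {F : Type*} [Field F] {t : G} {K : Subgroup G} (h : KD F t K) {k : G} (hk : k ∈ K) : t * k = k * t :=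
  h.2.1.2.2.1 t (Subgroup.mem_zpowers t) k hk

omit [Finite G] in
theorem KD.nt {F : Type*} [Field F] {t : G} {K : Subgroup G} (h : KD F t K) : t ∉ K := by
  intro hk
  have : t ∈ Subgroup.zpowers t ⊓ K := ⟨Subgroup.mem_zpowers t, hk⟩
  rw [h.2.1.2.2.2.1, Subgroup.mem_bot] at this
  exact (inv_of_order_two h.1).2.1 this

omit [Finite G] in
theorem KD.le_norm {F : Type*} [Field F] {t : G} {K : Subgroup G} (h : KD F t K) :
    K ≤ Subgroup.normalizer ((Subgroup.zpowers t : Subgroup G) : Set G) := by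
  intro x hx
  apply Subgroup.centralizer_le_normalizer
  rw [Subgroup.mem_centralizer_iff]
  intro y hy
  exact h.2.1.2.2.1 y hy x hx

omit [Finite G] in
theorem KD.dec {F : Type*} [Field F] {t : G} {K : Subgroup G} (h : KD F t K) {c : G} (hc : c * t = t * c) :
    c ∈ K ∨ t * c ∈ K := by
  have hc' : c ∈ Subgroup.zpowers t ⊔ K := by
    rw [h.2.1.2.2.2.2, Subgroup.mem_centralizer_singleton_iff]; exact hc
  obtain ⟨u, hu, x, hx, rfl⟩ := (Lib.SubgroupTools.mem_sup_of_le_normalizer h.le_norm).1 hc'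
  rcases mem_zpowers_two h.1 hu with rfl | rfl
  · left; simpa using hx
  · right
    rw [← mul_assoc, (inv_of_order_two h.1).1, one_mul]; exact hx

theorem KD.card {F : Type*} [Field F] {t : G} {K : Subgroup G} (h : KD F t K) :
    Nat.card (Subgroup.centralizer ({t} : Set G)) = 2 * Nat.card K := by
  have := Lib.SubgroupTools.card_sup_of_disjoint h.le_norm (disjoint_iff.2 h.2.1.2.2.2.1)
  rw [h.2.1.2.2.2.2, Nat.card_zpowers, h.1] at this
  exact this

omit [Finite G] in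
theorem KD.conj {F : Type*} [Field F] {t : G} {K : Subgroup G} (h : KD F t K) (g : G) :
    KD F (g * t * g⁻¹) (K.map (MulAut.conj g).toMonoidHom) := by
  obtain ⟨h1, ⟨a1, a2, a3, a4, a5⟩, ⟨e⟩⟩ := h
  have hz : Subgroup.zpowers (g * t * g⁻¹) = (Subgroup.zpowers t).map (MulAut.conj g).toMonoidHom := by
    rw [MonoidHom.map_zpowers]; rfl
  have hcen : Subgroup.centralizer ({g * t * g⁻¹} : Set G) =
      (Subgroup.centralizer ({t} : Set G)).map (MulAut.conj g).toMonoidHom := by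
    ext x
    rw [Subgroup.mem_centralizer_singleton_iff, Subgroup.mem_map]
    constructor
    · intro hx
      refine ⟨g⁻¹ * x * g, ?_, by simp [mul_assoc]⟩
      rw [Subgroup.mem_centralizer_singleton_iff]
      calc g⁻¹ * x * g * t = g⁻¹ * (x * (g * t * g⁻¹)) * g := by group
        _ = g⁻¹ * ((g * t * g⁻¹) * x) * g := by rw [hx]
        _ = t * (g⁻¹ * x * g) := by group
    · rintro ⟨y, hy, rfl⟩
      rw [Subgroup.mem_centralizer_singleton_iff] at hy
      show g * y * g⁻¹ * (g * t * g⁻¹) = g * t * g⁻¹ * (g * y * g⁻¹)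
      calc g * y * g⁻¹ * (g * t * g⁻¹) = g * (y * t) * g⁻¹ := by group
        _ = g * (t * y) * g⁻¹ := by rw [hy]
        _ = _ := by group
  refine ⟨?_, ⟨?_, ?_, ?_, ?_, ?_⟩, ?_⟩
  · have := orderOf_injective (MulAut.conj g).toMonoidHom (MulAut.conj g).injective t
    rw [← h1, ← this]; rfl
  · rw [hz, hcen]; exact Subgroup.map_mono a1
  · rw [hcen]; exact Subgroup.map_mono a2
  · rw [hz]
    rintro _ ⟨x, hx, rfl⟩ _ ⟨y, hy, rfl⟩
    rw [← map_mul, ← map_mul, a3 x hx y hy]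
  · rw [hz, ← Subgroup.map_inf _ _ _ (MulAut.conj g).injective, a4, Subgroup.map_bot]
  · rw [hz, hcen, ← Subgroup.map_sup, a5]
  · exact ⟨(K.equivMapOfInjective _ (MulAut.conj g).injective).symm.trans e⟩

/-- The Ree conditions in abstract form. -/
structure R (G : Type*) [Group G] (F : Type*) [Field F] : Prop where
  conj : ∀ s t : G, orderOf s = 2 → orderOf t = 2 → ∃ g : G, g * s * g⁻¹ = t
  cen : ∀ t : G, orderOf t = 2 → ∃ K : Subgroup G, KD F t K
  sq : ∀ P : Subgroup G, IsPGroup 2 P → ∀ x ∈ P, x * x = 1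

theorem not_16 {n : ℕ} : ¬ 16 ∣ 3 ^ (2 * n + 1) * ((3 ^ (2 * n + 1)) ^ 2 - 1) := by
  have h : 3 ^ (2 * n + 1) % 8 = 3 := by
    rw [pow_succ, pow_mul]
    have : 3 ^ 2 ^ n % 8 = 1 ∨ True := Or.inr trivial
    have h9 : (3 ^ 2) ^ n % 8 = 1 := by
      rw [Nat.pow_mod]; norm_num
    omega
  obtain ⟨k, hk⟩ : ∃ k, 3 ^ (2 * n + 1) = 8 * k + 3 := ⟨3 ^ (2 * n + 1) / 8, by omega⟩
  rw [hk]
  have h2 : (8 * k + 3) ^ 2 - 1 = 8 * ((4 * k + 1) * (2 * k + 1)) := by
    have : (8 * k + 3) ^ 2 = 8 * ((4 * k + 1) * (2 * k + 1)) + 1 := by ring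
    omega
  rw [h2]
  intro h3
  have h4 : 8 * 2 ∣ 8 * ((8 * k + 3) * ((4 * k + 1) * (2 * k + 1))) := by
    convert h3 using 1; ring
  have h5 := Nat.dvd_of_mul_dvd_mul_left (by norm_num) h4
  have h6 : Odd ((8 * k + 3) * ((4 * k + 1) * (2 * k + 1))) := by
    refine Odd.mul ⟨4 * k + 1, by ring⟩ (Odd.mul ⟨2 * k, by ring⟩ ⟨k, by ring⟩)
  rw [Nat.odd_iff] at h6
  omega

/-- Three commuting involutions lie in a Sylow subgroup. -/
theorem exists_sylow3 (t I J : G) (ht : t * t = 1) (hI : I * I = 1) (hJ : J * J = 1) (h12 : t * I = I * t)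
    (h13 : t * J = J * t) (h23 : J * I = I * J) :
    ∃ S : Sylow 2 G, t ∈ (S : Subgroup G) ∧ I ∈ (S : Subgroup G) ∧ J ∈ (S : Subgroup G) := by
  have : Fact (Nat.Prime 2) := ⟨Nat.prime_two⟩
  have z1 : IsPGroup 2 (Subgroup.zpowers t) := isPGroup_zpowers (k := 1) (by rw [pow_one, pow_two]; exact ht)
  have z2 : IsPGroup 2 (Subgroup.zpowers I) := isPGroup_zpowers (k := 1) (by rw [pow_one, pow_two]; exact hI)
  have z3 : IsPGroup 2 (Subgroup.zpowers J) := isPGroup_zpowers (k := 1) (by rw [pow_one, pow_two]; exact hJ)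
  have z4 : IsPGroup 2 (Subgroup.zpowers I ⊔ Subgroup.zpowers J : Subgroup G) := by
    apply z2.to_sup_of_normal_right' z3
    rw [Subgroup.zpowers_le]
    apply Subgroup.centralizer_le_normalizer
    rw [Subgroup.mem_centralizer_iff]
    rintro _ ⟨k, rfl⟩
    have : Commute J I := h23
    exact (this.zpow_left k).eq
  have z5 : IsPGroup 2 (Subgroup.zpowers t ⊔ (Subgroup.zpowers I ⊔ Subgroup.zpowers J) : Subgroup G) := by
    apply z1.to_sup_of_normal_right' z4
    rw [Subgroup.zpowers_le]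
    apply Subgroup.centralizer_le_normalizer
    have : Subgroup.zpowers I ⊔ Subgroup.zpowers J ≤ Subgroup.centralizer ({t} : Set G) := by
      rw [sup_le_iff, Subgroup.zpowers_le, Subgroup.zpowers_le, Subgroup.mem_centralizer_singleton_iff,
        Subgroup.mem_centralizer_singleton_iff]
      exact ⟨h12.symm, h13.symm⟩
    rw [Subgroup.mem_centralizer_iff]
    intro y hy
    exact Subgroup.mem_centralizer_singleton_iff.1 (this hy)
  obtain ⟨S, hS⟩ := z5.exists_le_sylow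
  exact ⟨S, hS (Subgroup.mem_sup_left (Subgroup.mem_zpowers _)),
    hS (Subgroup.mem_sup_right (Subgroup.mem_sup_left (Subgroup.mem_zpowers _))),
    hS (Subgroup.mem_sup_right (Subgroup.mem_sup_right (Subgroup.mem_zpowers _)))⟩

end Cfsg.Agent.Lib.GoldD95
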