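import Mathlib
import Cfsg.Agent.Lib.ReePSL
import Cfsg.Agent.Lib.PSLSylow
import Cfsg.Agent.Lib.SL2Unip
import Cfsg.Agent.Lib.ClSL2Syl
import Cfsg.Agent.Lib.SL2Basic
import Cfsg.Agent.Lib.H53PSL2b

/-! Facts about `PSL₂(3^(2n+1))` for the proof of S2755 (helper29, specification by helper95). -/

set_option autoImplicit false
set_option linter.style.haveILetI false
set_option linter.unusedSimpArgs false

namespace Cfsg.Agent.Lib.GoldPSL95

open Matrix Cfsg.Agent.Lib.PSLAut Cfsg.Agent.Lib.SL2Unip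

structure Facts (K : Type*) [Group K] (q : ℕ) : Prop where
  card : 2 * Nat.card K = q * (q ^ 2 - 1)
  three : ∀ x : K, orderOf x = 3 → Nat.card (Subgroup.centralizer ({x} : Set K)) = q ∧ (∀ a ∈ Subgroup.centralizer ({x} : Set K), a ^ 3 = 1) ∧ (∀ a ∈ Subgroup.centralizer ({x} : Set K), ∀ b ∈ Subgroup.centralizer ({x} : Set K), a * b = b * a)
  noinv : ∀ x g : K, orderOf x = 3 → orderOf g = 2 → ¬ Commute (g * x * g⁻¹) x
  inv : ∀ a : K, orderOf a = 2 → ∃ T : Subgroup K, IsCyclic T ∧ 2 * Nat.card T = q + 1 ∧ a ∈ T ∧ T ≤ Subgroup.centralizer ({a} : Set K) ∧ Nat.card (Subgroup.centralizer ({a} : Set K)) = q + 1 ∧ (∀ g ∈ Subgroup.centralizer ({a} : Set K), g ∉ T → ∀ s ∈ T, g * s * g⁻¹ = s⁻¹) ∧ (∀ w ∈ T, w * w ≠ 1 → Subgroup.centralizer ({w} : Set K) = T)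

/-! ### transport -/

theorem cent_map {G H : Type*} [Group G] [Group H] (e : G ≃* H) (x : G) :
    (Subgroup.centralizer ({x} : Set G)).map e.toMonoidHom = Subgroup.centralizer ({e x} : Set H) := by
  ext y
  rw [Subgroup.mem_map]
  constructor
  · rintro ⟨z, hz, rfl⟩
    rw [Subgroup.mem_centralizer_singleton_iff] at hz ⊢
    show e z * e x = e x * e z
    rw [← map_mul, ← map_mul, hz]
  · intro hy
    refine ⟨e.symm y, ?_, by simp⟩
    rw [Subgroup.mem_centralizer_singleton_iff] at hy ⊢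
    apply e.injective
    rw [map_mul, map_mul, MulEquiv.apply_symm_apply]
    exact hy

theorem card_map {G H : Type*} [Group G] [Group H] (e : G ≃* H) (S : Subgroup G) :
    Nat.card (S.map e.toMonoidHom) = Nat.card S :=
  (Nat.card_congr (e.subgroupMap S).toEquiv).symm

theorem cent_card {G H : Type*} [Group G] [Group H] (e : G ≃* H) (x : G) :
    Nat.card (Subgroup.centralizer ({e x} : Set H)) = Nat.card (Subgroup.centralizer ({x} : Set G)) := by
  rw [← cent_map, card_map]

/-- the property `three` for an element -/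
def P3 (G : Type*) [Group G] (q : ℕ) (x : G) : Prop :=
  Nat.card (Subgroup.centralizer ({x} : Set G)) = q ∧ (∀ a ∈ Subgroup.centralizer ({x} : Set G), a ^ 3 = 1) ∧ (∀ a ∈ Subgroup.centralizer ({x} : Set G), ∀ b ∈ Subgroup.centralizer ({x} : Set G), a * b = b * a)

theorem P3.map {G H : Type*} [Group G] [Group H] (e : G ≃* H) {q : ℕ} {x : G} (h : P3 G q x) : P3 H q (e x) := by
  refine ⟨by rw [cent_card]; exact h.1, ?_, ?_⟩
  · intro a ha
    rw [← cent_map] at ha
    obtain ⟨a', ha', rfl⟩ := ha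
    show (e a') ^ 3 = 1
    rw [← map_pow, h.2.1 a' ha', map_one]
  · intro a ha b hb
    rw [← cent_map] at ha hb
    obtain ⟨a', ha', rfl⟩ := ha
    obtain ⟨b', hb', rfl⟩ := hb
    show e a' * e b' = e b' * e a'
    rw [← map_mul, h.2.2 a' ha' b' hb', map_mul]

theorem Facts.map {G H : Type*} [Group G] [Group H] (e : G ≃* H) {q : ℕ} (h : Facts G q) : Facts H q where
  card := by rw [← h.card, Nat.card_congr e.symm.toEquiv]
  three := by
    intro x hx
    have h1 : orderOf (e.symm x) = 3 := by rw [MulEquiv.orderOf_eq]; exact hx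
    have h2 : P3 H q (e (e.symm x)) := P3.map e (h.three _ h1)
    rwa [MulEquiv.apply_symm_apply] at h2
  noinv := by
    intro x g hx hg hc
    refine h.noinv (e.symm x) (e.symm g) (by rw [MulEquiv.orderOf_eq]; exact hx) (by rw [MulEquiv.orderOf_eq]; exact hg) ?_
    have := hc.map e.symm.toMonoidHom
    simpa using this
  inv := by
    intro a ha
    obtain ⟨T, h1, h2, h3, h4, h5, h6, h7⟩ := h.inv (e.symm a) (by rw [MulEquiv.orderOf_eq]; exact ha)
    have hca : (Subgroup.centralizer ({e.symm a} : Set G)).map e.toMonoidHom = Subgroup.centralizer ({a} : Set H) := by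
      rw [cent_map, MulEquiv.apply_symm_apply]
    refine ⟨T.map e.toMonoidHom, ?_, ?_, ?_, ?_, ?_, ?_, ?_⟩
    · haveI := h1
      exact isCyclic_of_surjective (e.subgroupMap T) (e.subgroupMap T).surjective
    · rw [card_map]; exact h2
    · exact ⟨e.symm a, h3, by simp⟩
    · rw [← hca]; exact Subgroup.map_mono h4
    · rw [← hca, card_map]; exact h5
    · intro g hg hgT s hs
      rw [← hca] at hg
      obtain ⟨g', hg', rfl⟩ := hg
      obtain ⟨s', hs', rfl⟩ := hs
      have h8 : g' ∉ T := fun h9 => hgT ⟨g', h9, rfl⟩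
      have h10 := h6 g' hg' h8 s' hs'
      show e g' * e s' * (e g')⁻¹ = (e s')⁻¹
      rw [← map_inv, ← map_mul, ← map_mul, h10, map_inv]
    · intro w hw hww
      obtain ⟨w', hw', rfl⟩ := hw
      have h8 : w' * w' ≠ 1 := by
        intro h9
        apply hww
        show e w' * e w' = 1
        rw [← map_mul, h9, map_one]
      rw [← h7 w' hw' h8, cent_map]
      rfl

/-! ### matrices -/

section

variable {F : Type*} [Field F]

local notation "SL2" => Matrix.SpecialLinearGroup (Fin 2) F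
local notation "M2" => Matrix (Fin 2) (Fin 2) F
local notation "PSL2" => Matrix.ProjectiveSpecialLinearGroup (Fin 2) F

/-- image of an element of `SL2` -/
abbrev mk (A : SL2) : PSL2 := QuotientGroup.mk A

theorem mk_mul (A B : SL2) : mk (A * B) = mk A * mk B := rfl

theorem neg_coe (x : SL2) : ((-x : SL2) : M2) = -(x : M2) := rfl

theorem mk_eq_iff (A B : SL2) : mk A = mk B ↔ A = B ∨ A = -B := by
  exact SL2Basic.mk_eq_mk_iff A B

theorem upY0 (b : F) (Y : SL2) (j : Fin 2) : ((up b * Y : SL2) : M2) 0 j = (Y : M2) 0 j + b * (Y : M2) 1 j := by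
  rw [Matrix.SpecialLinearGroup.coe_mul, coe_up, Matrix.mul_apply, Fin.sum_univ_two]
  simp

theorem upY1 (b : F) (Y : SL2) (j : Fin 2) : ((up b * Y : SL2) : M2) 1 j = (Y : M2) 1 j := by
  rw [Matrix.SpecialLinearGroup.coe_mul, coe_up, Matrix.mul_apply, Fin.sum_univ_two]
  simp

theorem Yup0 (b : F) (Y : SL2) (i : Fin 2) : ((Y * up b : SL2) : M2) i 0 = (Y : M2) i 0 := by
  rw [Matrix.SpecialLinearGroup.coe_mul, coe_up, Matrix.mul_apply, Fin.sum_univ_two]
  simp

theorem Yup1 (b : F) (Y : SL2) (i : Fin 2) : ((Y * up b : SL2) : M2) i 1 = (Y : M2) i 0 * b + (Y : M2) i 1 := by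
  rw [Matrix.SpecialLinearGroup.coe_mul, coe_up, Matrix.mul_apply, Fin.sum_univ_two]
  simp

theorem negY (Y : SL2) (i j : Fin 2) : ((-Y : SL2) : M2) i j = -(Y : M2) i j := rfl

theorem cent_up (h2 : (2 : F) ≠ 0) {b : F} (hb : b ≠ 0) (y : PSL2) (h : y * mk (up b) = mk (up b) * y) :
    ∃ c : F, y = mk (up c) := by
  obtain ⟨Y, rfl⟩ := QuotientGroup.mk_surjective y
  have hdet : (Y : M2) 0 0 * (Y : M2) 1 1 - (Y : M2) 0 1 * (Y : M2) 1 0 = 1 := by
    rw [← Matrix.det_fin_two]; exact Y.det_coe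
  have h' : mk (Y * up b) = mk (up b * Y) := h
  rw [mk_eq_iff] at h'
  rcases h' with h' | h'
  · have h3 : Y ∈ Subgroup.centralizer ({up b} : Set SL2) := by
      rw [Subgroup.mem_centralizer_singleton_iff]; exact h'
    obtain ⟨h4, h5⟩ := (mem_centralizer_up hb Y).1 h3
    have h6 : (Y : M2) 0 0 * (Y : M2) 0 0 = 1 := by
      rw [h4, mul_zero, sub_zero, ← h5] at hdet; exact hdet
    rcases mul_self_eq_one_iff.1 h6 with h7 | h7
    · refine ⟨(Y : M2) 0 1, ?_⟩
      show mk Y = _
      rw [mk_eq_iff]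
      left
      apply Matrix.SpecialLinearGroup.ext
      intro i j
      fin_cases i <;> fin_cases j <;> simp [coe_up, neg_coe, Matrix.SpecialLinearGroup.coe_mul, h4, ← h5, h7]
    · refine ⟨-(Y : M2) 0 1, ?_⟩
      show mk Y = _
      rw [mk_eq_iff]
      right
      apply Matrix.SpecialLinearGroup.ext
      intro i j
      fin_cases i <;> fin_cases j <;> simp [coe_up, neg_coe, Matrix.SpecialLinearGroup.coe_mul, h4, ← h5, h7]
  · exfalso
    have e00 := congrArg (fun x : SL2 => (x : M2) 0 0) h'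
    have e10 := congrArg (fun x : SL2 => (x : M2) 1 0) h'
    simp only [negY, Yup0, upY0, upY1] at e00 e10
    have h8 : (Y : M2) 1 0 = 0 := by
      have : (2 : F) * (Y : M2) 1 0 = 0 := by linear_combination e10
      exact (mul_eq_zero.1 this).resolve_left h2
    have h9 : (Y : M2) 0 0 = 0 := by
      have : (2 : F) * (Y : M2) 0 0 = 0 := by rw [h8] at e00; linear_combination e00
      exact (mul_eq_zero.1 this).resolve_left h2
    rw [h8, h9] at hdet
    simp at hdet

theorem up_mul (b c : F) : (up b * up c : SL2) = up (b + c) := by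
  apply Matrix.SpecialLinearGroup.ext
  intro i j
  fin_cases i <;> fin_cases j <;> simp [coe_up, neg_coe, Matrix.SpecialLinearGroup.coe_mul, Matrix.mul_apply, Fin.sum_univ_two, add_comm]

theorem up_zero : (up (0 : F) : SL2) = 1 := by
  apply Matrix.SpecialLinearGroup.ext
  intro i j
  fin_cases i <;> fin_cases j <;> simp [coe_up, neg_coe]

theorem mk_up_inj (h2 : (2 : F) ≠ 0) {b c : F} (h : mk (up b) = mk (up c)) : b = c := by
  rw [mk_eq_iff] at h
  rcases h with h | h
  · have := congrArg (fun x : SL2 => (x : M2) 0 1) h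
    simpa [coe_up, neg_coe] using this
  · exfalso
    have := congrArg (fun x : SL2 => (x : M2) 0 0) h
    simp [coe_up, neg_coe] at this
    apply h2
    linear_combination this

theorem P3_up [Fintype F] (h3 : (3 : F) = 0) (h2 : (2 : F) ≠ 0) {b : F} (hb : b ≠ 0) :
    P3 PSL2 (Fintype.card F) (mk (up b)) := by
  have hmem : ∀ y : PSL2, y ∈ Subgroup.centralizer ({mk (up b)} : Set PSL2) ↔ ∃ c : F, y = mk (up c) := by
    intro y
    rw [Subgroup.mem_centralizer_singleton_iff]
    constructor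
    · exact cent_up h2 hb y
    · rintro ⟨c, rfl⟩
      rw [← mk_mul, ← mk_mul, up_mul, up_mul, add_comm]
  refine ⟨?_, ?_, ?_⟩
  · rw [← Nat.card_eq_fintype_card]
    symm
    apply Nat.card_congr
    refine Equiv.ofBijective (fun c => ⟨mk (up c), (hmem _).2 ⟨c, rfl⟩⟩) ⟨?_, ?_⟩
    · intro c d h
      exact mk_up_inj h2 (congrArg Subtype.val h)
    · rintro ⟨y, hy⟩
      obtain ⟨c, rfl⟩ := (hmem y).1 hy
      exact ⟨c, rfl⟩
  · intro a ha
    obtain ⟨c, rfl⟩ := (hmem a).1 ha
    rw [pow_succ, pow_two, ← mk_mul, ← mk_mul, up_mul, up_mul]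
    have : c + c + c = 0 := by linear_combination c * h3
    rw [this, up_zero]
    rfl
  · intro a ha a' ha'
    obtain ⟨c, rfl⟩ := (hmem a).1 ha
    obtain ⟨c', rfl⟩ := (hmem a').1 ha'
    rw [← mk_mul, ← mk_mul, up_mul, up_mul, add_comm]

theorem exists_up [Fintype F] [CharP F 3] (x : PSL2) (hx : orderOf x = 3) :
    ∃ (g : PSL2) (b : F), b ≠ 0 ∧ x = g * mk (up b) * g⁻¹ := by
  haveI : Fact (Nat.Prime 3) := ⟨Nat.prime_three⟩
  have hp : IsPGroup 3 (Subgroup.zpowers x) :=
    H53PSL2.isPGroup_zpowers (p := 3) (k := 1) (by rw [pow_one, ← hx]; exact pow_orderOf_eq_one x)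
  obtain ⟨Q, hQ⟩ := hp.exists_le_sylow
  obtain ⟨g, hg⟩ := MulAction.exists_smul_eq PSL2 (SylUTb 2 F 3) Q
  have hxQ : x ∈ (Q : Subgroup PSL2) := hQ (Subgroup.mem_zpowers x)
  rw [← hg, Sylow.coe_subgroup_smul, Subgroup.mem_pointwise_smul_iff_inv_smul_mem, coe_SylUTb, mem_UTb] at hxQ
  obtain ⟨s, hs, hsx⟩ := hxQ
  have hsup : s = up ((s : M2) 0 1) := by
    apply Matrix.SpecialLinearGroup.ext
    intro i j
    have h00 := hs.1 0
    have h11 := hs.1 1
    have h10 := hs.2 1 0 (by decide)
    fin_cases i <;> fin_cases j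
    · exact h00
    · rfl
    · exact h10
    · exact h11
  have hconj : mk s = g⁻¹ * x * g := by
    have : mk s = (MulAut.conj g)⁻¹ x := hsx
    rw [this, ← map_inv, MulAut.conj_apply, inv_inv]
  have hx' : x = g * mk s * g⁻¹ := by rw [hconj]; group
  refine ⟨g, (s : M2) 0 1, ?_, by rw [← hsup]; exact hx'⟩
  intro h0
  rw [hsup, h0, up_zero] at hx'
  have : x = 1 := by
    rw [hx']
    show g * 1 * g⁻¹ = 1
    group
  rw [this, orderOf_one] at hx
  omega

/-- involutions do not normalize unipotents -/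
theorem noinv_up (h2 : (2 : F) ≠ 0) (hns : ¬ IsSquare (-1 : F)) {b : F} (hb : b ≠ 0) (g : PSL2) (hg : orderOf g = 2) :
    ¬ Commute (g * mk (up b) * g⁻¹) (mk (up b)) := by
  intro hc
  obtain ⟨c, hc'⟩ := cent_up h2 hb _ hc
  obtain ⟨Y, rfl⟩ := QuotientGroup.mk_surjective g
  have hdet : (Y : M2) 0 0 * (Y : M2) 1 1 - (Y : M2) 0 1 * (Y : M2) 1 0 = 1 := by
    rw [← Matrix.det_fin_two]; exact Y.det_coe
  have h1 : mk (Y * up b) = mk (up c * Y) := by
    rw [mk_mul, mk_mul, ← hc']
    show mk Y * mk (up b) = mk Y * mk (up b) * (mk Y)⁻¹ * mk Y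
    group
  rw [mk_eq_iff] at h1
  have h10 : (Y : M2) 1 0 = 0 := by
    rcases h1 with h1 | h1
    · have e11 := congrArg (fun x : SL2 => (x : M2) 1 1) h1
      simp [coe_up, neg_coe, Matrix.SpecialLinearGroup.coe_mul, Matrix.mul_apply, Fin.sum_univ_two] at e11
      rcases e11 with h | h
      · exact h
      · exact absurd h hb
    · have e10 := congrArg (fun x : SL2 => (x : M2) 1 0) h1
      simp only [negY, Yup0, upY1] at e10
      have : (2 : F) * (Y : M2) 1 0 = 0 := by linear_combination e10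
      exact (mul_eq_zero.1 this).resolve_left h2
  rw [h10, mul_zero, sub_zero] at hdet
  have hsq : mk (Y * Y) = mk 1 := by
    have := pow_orderOf_eq_one (mk Y)
    have h3 : orderOf (mk Y) = 2 := hg
    rw [h3, pow_two] at this
    exact this
  have hne : mk Y ≠ 1 := by
    intro h
    have h3 : orderOf (mk Y) = 2 := hg
    rw [h, orderOf_one] at h3
    omega
  rw [mk_eq_iff] at hsq
  rcases hsq with h | h
  · have e00 := congrArg (fun x : SL2 => (x : M2) 0 0) h
    have e01 := congrArg (fun x : SL2 => (x : M2) 0 1) h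
    have e11 := congrArg (fun x : SL2 => (x : M2) 1 1) h
    simp [Matrix.mul_apply, Fin.sum_univ_two, h10] at e00 e01 e11
    apply hne
    have hYY : (Y : M2) 1 1 = (Y : M2) 0 0 := by
      linear_combination (-(Y : M2) 1 1) * e00 + (Y : M2) 0 0 * hdet
    have h01 : (Y : M2) 0 1 = 0 := by
      rw [hYY] at e01
      have h4 : (2 : F) * ((Y : M2) 0 0 * (Y : M2) 0 1) = 0 := by linear_combination e01
      have h5 := (mul_eq_zero.1 h4).resolve_left h2
      rcases mul_eq_zero.1 h5 with h6 | h6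
      · rw [h6, zero_mul] at hdet
        exact absurd hdet.symm one_ne_zero
      · exact h6
    rcases mul_self_eq_one_iff.1 e00 with h7 | h7
    · have : Y = 1 := by
        apply Matrix.SpecialLinearGroup.ext
        intro i j
        fin_cases i <;> fin_cases j <;> simp [h10, h01, hYY, h7]
      rw [this]; rfl
    · have : mk Y = mk 1 := by
        rw [mk_eq_iff]
        right
        apply Matrix.SpecialLinearGroup.ext
        intro i j
        fin_cases i <;> fin_cases j <;> simp [h10, h01, hYY, h7]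
      rw [this]; rfl
  · have e00 := congrArg (fun x : SL2 => (x : M2) 0 0) h
    simp [Matrix.mul_apply, Fin.sum_univ_two, h10] at e00
    exact hns ⟨(Y : M2) 0 0, e00.symm⟩

theorem inv_psl [Fintype F] [CharP F 3] (h4 : 4 ≤ Fintype.card F) (h8 : Fintype.card F % 8 = 3)
    (h3' : Fintype.card F % 3 = 0) (a : PSL2) (ha : orderOf a = 2) :
    ∃ T : Subgroup PSL2, IsCyclic T ∧ 2 * Nat.card T = Fintype.card F + 1 ∧ a ∈ T ∧
      T ≤ Subgroup.centralizer ({a} : Set PSL2) ∧
      Nat.card (Subgroup.centralizer ({a} : Set PSL2)) = Fintype.card F + 1 ∧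
      (∀ g ∈ Subgroup.centralizer ({a} : Set PSL2), g ∉ T → ∀ s ∈ T, g * s * g⁻¹ = s⁻¹) ∧
      (∀ w ∈ T, w * w ≠ 1 → Subgroup.centralizer ({w} : Set PSL2) = T) := by
  haveI : Fact (Nat.Prime 3) := ⟨Nat.prime_three⟩
  have ha1 : a ≠ 1 := by rintro rfl; rw [orderOf_one] at ha; omega
  have hgcd : Nat.gcd 2 (Fintype.card F - 1) = 2 := by
    apply Nat.gcd_eq_left
    omega
  obtain ⟨T, N, hTN, hT, haT, hcardT, hcardN, hsq, hn⟩ := ReePSL.tor 3 h4 a ha1 (by rw [ha]; norm_num)
  rw [hgcd] at hcardT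
  have hdvd : 2 ∣ Nat.card T := by
    have := orderOf_dvd_natCard (⟨a, haT⟩ : T)
    rwa [Subgroup.orderOf_mk, ha] at this
  have hcT : 2 * Nat.card T = Fintype.card F + 1 := by
    rcases hcardT with h | h
    · exfalso
      omega
    · exact h
  have hcomm : ∀ s ∈ T, ∀ t ∈ T, s * t = t * s := by
    haveI := hT
    intro s hs t ht
    have := (IsCyclic.commGroup (α := T)).mul_comm ⟨s, hs⟩ ⟨t, ht⟩
    exact congrArg Subtype.val this
  have hinv := fun {t : PSL2} (ht : t ∈ N) (htT : t ∉ T) {s : PSL2} (hs : s ∈ T) =>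
    ReePSL.inverts hTN hsq ht htT hs
  have hTC : T ≤ Subgroup.centralizer ({a} : Set PSL2) := by
    intro s hs
    rw [Subgroup.mem_centralizer_singleton_iff]
    exact hcomm s hs a haT
  have hai : a⁻¹ = a := by
    apply inv_eq_of_mul_eq_one_left
    have := pow_orderOf_eq_one a
    rwa [ha, pow_two] at this
  have hCN : Subgroup.centralizer ({a} : Set PSL2) = N := by
    apply le_antisymm
    · intro g hg
      rw [Subgroup.mem_centralizer_singleton_iff] at hg
      apply hn
      rw [hg, mul_inv_cancel_right]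
      exact Subgroup.mem_zpowers a
    · intro g hg
      by_cases hgT : g ∈ T
      · exact hTC hgT
      · rw [Subgroup.mem_centralizer_singleton_iff]
        have h5 := hinv hg hgT haT
        rw [hai] at h5
        calc g * a = g * a * g⁻¹ * g := by group
          _ = a * g := by rw [h5]
  refine ⟨T, hT, hcT, haT, hTC, by rw [hCN, hcardN]; exact hcT, ?_, ?_⟩
  · intro g hg hgT s hs
    rw [hCN] at hg
    exact hinv hg hgT hs
  · intro w hw hww
    have hw1 : w ≠ 1 := by rintro rfl; exact hww (by group)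
    have hwo : orderOf w ∣ Nat.card T := by
      have := orderOf_dvd_natCard (⟨w, hw⟩ : T)
      rwa [Subgroup.orderOf_mk] at this
    have hw3 : ¬ 3 ∣ orderOf w := by
      intro h
      have h5 := h.trans hwo
      obtain ⟨m, hm⟩ := h5
      omega
    obtain ⟨T', N', hTN', hT', hwT', hcardT', hcardN', hsq', hn'⟩ := ReePSL.tor 3 h4 w hw1 hw3
    rw [hgcd] at hcardT'
    have hcomm' : ∀ s ∈ T', ∀ t ∈ T', s * t = t * s := by
      haveI := hT'
      intro s hs t ht
      have := (IsCyclic.commGroup (α := T')).mul_comm ⟨s, hs⟩ ⟨t, ht⟩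
      exact congrArg Subtype.val this
    have hC' : Subgroup.centralizer ({w} : Set PSL2) = T' := by
      apply le_antisymm
      · intro g hg
        rw [Subgroup.mem_centralizer_singleton_iff] at hg
        exact ReePSL.cent hTN' hsq' hwT' hww hn' hg
      · intro g hg
        rw [Subgroup.mem_centralizer_singleton_iff]
        exact hcomm' g hg w hwT'
    have hTT' : T ≤ T' := by
      rw [← hC']
      intro s hs
      rw [Subgroup.mem_centralizer_singleton_iff]
      exact hcomm s hs w hw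
    rw [hC']
    symm
    apply Subgroup.eq_of_le_of_card_ge hTT'
    have h6 := Subgroup.card_dvd_of_le hTT'
    rcases hcardT' with h7 | h7
    · exfalso
      have h8 : 0 < Nat.card T' := Nat.card_pos
      have h9 := Nat.le_of_dvd h8 h6
      omega
    · omega

end

theorem facts {K : Type*} [Group K] [Finite K] {F : Type*} [Field F] [Fintype F] {n : ℕ} (hn : 1 ≤ n)
    (hF : Fintype.card F = 3 ^ (2 * n + 1))
    (e : Nonempty (K ≃* Matrix.ProjectiveSpecialLinearGroup (Fin 2) F)) : Facts K (3 ^ (2 * n + 1)) := by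
  obtain ⟨e⟩ := e
  haveI : Fact (Nat.Prime 3) := ⟨Nat.prime_three⟩
  haveI : CharP F 3 := by
    obtain ⟨p, hp⟩ := CharP.exists F
    haveI := hp
    obtain ⟨m, hpp, hm⟩ := FiniteField.card F p
    rw [hF] at hm
    have h1 : p ∣ 3 ^ (2 * n + 1) := by rw [hm]; exact dvd_pow_self p m.pos.ne'
    have h2 := (Nat.prime_dvd_prime_iff_eq hpp Nat.prime_three).1 (hpp.dvd_of_dvd_pow h1)
    rw [← h2]; exact hp
  have h3 : (3 : F) = 0 := by
    have := CharP.cast_eq_zero F 3
    exact_mod_cast this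
  have h2 : (2 : F) ≠ 0 := by
    intro h
    apply one_ne_zero (α := F)
    linear_combination h3 - h
  have h8 : Fintype.card F % 8 = 3 := by
    rw [hF, pow_succ, pow_mul, Nat.mul_mod, Nat.pow_mod]
    norm_num
  have h4 : 4 ≤ Fintype.card F := by
    rw [hF]
    calc 4 ≤ 3 ^ 3 := by norm_num
      _ ≤ 3 ^ (2 * n + 1) := Nat.pow_le_pow_right (by norm_num) (by omega)
  have h3' : Fintype.card F % 3 = 0 := by
    rw [hF, pow_succ]
    exact Nat.mul_mod_left _ _
  have hodd : Odd (Fintype.card F) := by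
    rw [Nat.odd_iff]; omega
  have hns : ¬ IsSquare (-1 : F) := by
    rw [FiniteField.isSquare_neg_one_iff]
    omega
  have key : Facts (Matrix.ProjectiveSpecialLinearGroup (Fin 2) F) (Fintype.card F) :=
    { card := ClSL2Syl.card_PSL2 hodd
      three := by
        intro x hx
        obtain ⟨g, b, hb, rfl⟩ := exists_up x hx
        exact (P3_up h3 h2 hb).map (MulAut.conj g)
      noinv := by
        intro x g hx hg hc
        obtain ⟨k, b, hb, rfl⟩ := exists_up x hx
        refine noinv_up h2 hns hb (k⁻¹ * g * k) ?_ ?_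
        · have : k⁻¹ * g * k = MulAut.conj k⁻¹ g := by rw [MulAut.conj_apply, inv_inv]
          rw [this, MulEquiv.orderOf_eq]
          exact hg
        · have h5 : Commute (MulAut.conj k⁻¹ (g * (k * mk (up b) * k⁻¹) * g⁻¹)) (MulAut.conj k⁻¹ (k * mk (up b) * k⁻¹)) :=
            hc.map (MulAut.conj k⁻¹).toMonoidHom
          rw [MulAut.conj_apply, MulAut.conj_apply, inv_inv] at h5
          have e1 : k⁻¹ * (g * (k * mk (up b) * k⁻¹) * g⁻¹) * k = (k⁻¹ * g * k) * mk (up b) * (k⁻¹ * g * k)⁻¹ := by group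
          have e2 : k⁻¹ * (k * mk (up b) * k⁻¹) * k = mk (up b) := by group
          rw [e1, e2] at h5
          exact h5
      inv := inv_psl h4 h8 h3' }
  rw [hF] at key
  exact key.map e.symm

end Cfsg.Agent.Lib.GoldPSL95
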