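import Mathlib
import Cfsg.Agent.Lib.GoldD95a
import Cfsg.Agent.Lib.GoldPSL95

/-!
Groups of Ree type: Sylow `2`-subgroups, conjugacy of involutions, part 2 (seat helper95).
-/

set_option autoImplicit false

namespace Cfsg.Agent.Lib.GoldD95

open Subgroup Cfsg.Agent.Lib.H53PSL2 Cfsg.Agent.Lib.GoldPSL95

variable {G : Type*} [Group G] [Finite G]

set_option maxHeartbeats 1000000 in
theorem R.of_ree (h : IsReeType G) : ∃ (F : Type) (_ : Field F) (_ : Fintype F) (n : ℕ), 1 ≤ n ∧
    Fintype.card F = 3 ^ (2 * n + 1) ∧ R G F ∧ ∃ t : G, orderOf t = 2 := by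
  classical
  have : Fact (Nat.Prime 2) := ⟨Nat.prime_two⟩
  obtain ⟨hsim, hnc, t, K, n, hn, ht, hodd, hdir, F, iF, iFt, hF, ⟨e⟩⟩ := h
  refine ⟨F, iF, iFt, n, hn, hF, ?_, t, ht⟩
  have hKD : KD F t K := ⟨ht, hdir, ⟨e⟩⟩
  have hfa := facts (K := K) hn hF ⟨e⟩
  obtain ⟨htt, ht1, -⟩ := inv_of_order_two ht
  obtain ⟨i, j, w, hii, hjj, hi1, hj1, hij, hji, hwi, hwj, hwww⟩ := psl_four (two_ne hF)
  set I : G := (e.symm i : G) with hId
  set J : G := (e.symm j : G) with hJd
  set W : G := (e.symm w : G) with hWd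
  have hIK : I ∈ K := (e.symm i).2
  have hJK : J ∈ K := (e.symm j).2
  have hWK : W ∈ K := (e.symm w).2
  have hII : I * I = 1 := by rw [hId, ← Subgroup.coe_mul, ← map_mul, hii, map_one]; rfl
  have hJJ : J * J = 1 := by rw [hJd, ← Subgroup.coe_mul, ← map_mul, hjj, map_one]; rfl
  have hI1 : I ≠ 1 := fun h => hi1 (by
    apply e.symm.injective; apply Subtype.ext; rw [map_one]; exact h)
  have hJ1 : J ≠ 1 := fun h => hj1 (by
    apply e.symm.injective; apply Subtype.ext; rw [map_one]; exact h)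
  have hIJ : I ≠ J := fun h => hij (by
    apply e.symm.injective; apply Subtype.ext; exact h)
  have hJI : J * I = I * J := by
    rw [hId, hJd, ← Subgroup.coe_mul, ← Subgroup.coe_mul, ← map_mul, ← map_mul, hji]
  have hWI : W * I * W⁻¹ = I * J := by
    rw [hId, hJd, hWd, ← Subgroup.coe_inv, ← Subgroup.coe_mul, ← Subgroup.coe_mul, ← Subgroup.coe_mul, ← map_inv,
      ← map_mul, ← map_mul, ← map_mul, hwi]
  have hWJ : W * J * W⁻¹ = I := by
    rw [hId, hJd, hWd, ← Subgroup.coe_inv, ← Subgroup.coe_mul, ← Subgroup.coe_mul, ← map_inv,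
      ← map_mul, ← map_mul, hwj]
  have htI := hKD.comm hIK
  have htJ := hKD.comm hJK
  have hWT : W * t * W⁻¹ = t := by rw [← hKD.comm hWK, mul_inv_cancel_right]
  have hnt : ∀ x ∈ K, t ≠ x := fun x hx he => hKD.nt (he ▸ hx)
  obtain ⟨S, hTS, hIS, hJS⟩ := exists_sylow3 t I J htt hII hJJ htI htJ hJI
  -- order of S
  have h16 : ¬ 16 ∣ Nat.card G := by
    intro h
    have h1 := (Subgroup.centralizer ({t} : Set G)).card_mul_index
    have h2 : Nat.Coprime 16 (Subgroup.centralizer ({t} : Set G)).index := by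
      have : Nat.Coprime (2 ^ 4) (Subgroup.centralizer ({t} : Set G)).index :=
        Nat.Coprime.pow_left 4 ((Nat.coprime_two_left).2 hodd)
      simpa using this
    rw [← h1] at h
    have h3 := h2.dvd_of_dvd_mul_right h
    rw [hKD.card, hfa.card] at h3
    exact not_16 h3
  have hcS : Nat.card (S : Subgroup G) ≤ 8 := by
    obtain ⟨m, hm⟩ := IsPGroup.iff_card.1 S.isPGroup'
    have h1 : Nat.card (S : Subgroup G) ∣ Nat.card G := Subgroup.card_subgroup_dvd_card _
    have hm' : Nat.card (S : Subgroup G) = 2 ^ m := hm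
    rw [hm'] at h1 ⊢
    have h2 : m ≤ 3 := by
      by_contra hcon
      apply h16
      have : (2 : ℕ) ^ 4 ∣ 2 ^ m := pow_dvd_pow 2 (by omega)
      exact this.trans h1
    calc 2 ^ m ≤ 2 ^ 3 := Nat.pow_le_pow_right (by norm_num) h2
      _ = 8 := by norm_num
  have hIJ1 : I * J ≠ 1 := fun h => hIJ (by
    have : J⁻¹ = J := inv_eq_of_mul_eq_one_left hJJ
    rw [← this]; exact eq_inv_of_mul_eq_one_left h)
  have dI : I ≠ I * J := fun h => hJ1 (by simpa using h)
  have dJ : J ≠ I * J := fun h => hI1 (by simpa using h)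
  have hE0 : ∀ x ∈ (S : Subgroup G), x = 1 ∨ x = I ∨ x = J ∨ x = I * J ∨ x = t ∨ x = t * I ∨ x = t * J ∨
      x = t * (I * J) := by
    let V : Finset G := {1, I, J, I * J}
    have hV : V.card = 4 := by
      rw [Finset.card_insert_of_notMem, Finset.card_insert_of_notMem, Finset.card_insert_of_notMem,
        Finset.card_singleton]
      · simpa using dJ
      · simpa using ⟨hIJ, hJ1⟩
      · simpa using ⟨hI1.symm, hJ1.symm, hIJ1.symm⟩
    have hVK : ∀ x ∈ V, x ∈ K := by
      intro x hx
      simp only [V, Finset.mem_insert, Finset.mem_singleton] at hx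
      rcases hx with rfl | rfl | rfl | rfl
      · exact one_mem _
      · exact hIK
      · exact hJK
      · exact mul_mem hIK hJK
    let V' : Finset G := V.image (fun x => t * x)
    have hV' : V'.card = 4 := by
      rw [Finset.card_image_of_injective _ (mul_right_injective t), hV]
    have hdis : Disjoint V V' := by
      rw [Finset.disjoint_left]
      intro x hx hx'
      obtain ⟨y, hy, rfl⟩ := Finset.mem_image.1 hx'
      have h1 := hVK _ hx
      have h2 := hVK _ hy
      exact hKD.nt ((Subgroup.mul_mem_cancel_right K h2).1 h1)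
    have hsub : ((V ∪ V' : Finset G) : Set G) ⊆ (S : Set G) := by
      intro x hx
      rw [Finset.mem_coe, Finset.mem_union] at hx
      have hVS : ∀ x ∈ V, x ∈ (S : Subgroup G) := by
        intro x hx
        simp only [V, Finset.mem_insert, Finset.mem_singleton] at hx
        rcases hx with rfl | rfl | rfl | rfl
        · exact one_mem _
        · exact hIS
        · exact hJS
        · exact mul_mem hIS hJS
      rcases hx with hx | hx
      · exact hVS x hx
      · obtain ⟨y, hy, rfl⟩ := Finset.mem_image.1 hx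
        exact mul_mem hTS (hVS y hy)
    have heq : ((V ∪ V' : Finset G) : Set G) = (S : Set G) := by
      apply Set.eq_of_subset_of_ncard_le hsub
      · rw [Set.ncard_coe_finset, Finset.card_union_of_disjoint hdis, hV, hV']
        exact hcS
    intro x hx
    have hx' : x ∈ ((V ∪ V' : Finset G) : Set G) := by rw [heq]; exact hx
    rw [Finset.mem_coe, Finset.mem_union] at hx'
    rcases hx' with hx' | hx'
    · simp only [V, Finset.mem_insert, Finset.mem_singleton] at hx'
      rcases hx' with h | h | h | h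
      · exact Or.inl h
      · exact Or.inr (Or.inl h)
      · exact Or.inr (Or.inr (Or.inl h))
      · exact Or.inr (Or.inr (Or.inr (Or.inl h)))
    · obtain ⟨y, hy, rfl⟩ := Finset.mem_image.1 hx'
      simp only [V, Finset.mem_insert, Finset.mem_singleton] at hy
      rcases hy with rfl | rfl | rfl | rfl
      · exact Or.inr (Or.inr (Or.inr (Or.inr (Or.inl (mul_one t)))))
      · exact Or.inr (Or.inr (Or.inr (Or.inr (Or.inr (Or.inl rfl)))))
      · exact Or.inr (Or.inr (Or.inr (Or.inr (Or.inr (Or.inr (Or.inl rfl))))))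
      · exact Or.inr (Or.inr (Or.inr (Or.inr (Or.inr (Or.inr (Or.inr rfl))))))
  have hIJsq : (I * J) * (I * J) = 1 := by
    calc (I * J) * (I * J) = I * (J * I) * J := by group
      _ = I * (I * J) * J := by rw [hJI]
      _ = (I * I) * (J * J) := by group
      _ = 1 := by rw [hII, hJJ, one_mul]
  have htsq : ∀ x ∈ K, x * x = 1 → (t * x) * (t * x) = 1 := by
    intro x hx hxx
    calc (t * x) * (t * x) = t * (x * t) * x := by group
      _ = t * (t * x) * x := by rw [hKD.comm hx]
      _ = (t * t) * (x * x) := by group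
      _ = 1 := by rw [htt, hxx, one_mul]
  have hsqS : ∀ x ∈ (S : Subgroup G), x * x = 1 := by
    intro x hx
    rcases hE0 x hx with h | h | h | h | h | h | h | h <;> rw [h]
    · exact one_mul 1
    · exact hII
    · exact hJJ
    · exact hIJsq
    · exact htt
    · exact htsq I hIK hII
    · exact htsq J hJK hJJ
    · exact htsq _ (mul_mem hIK hJK) hIJsq
  have hcomS : ∀ a ∈ (S : Subgroup G), ∀ b ∈ (S : Subgroup G), a * b = b * a := by
    intro a ha b hb
    have h1 := hsqS _ (mul_mem ha hb)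
    have ha' := hsqS a ha
    have hb' := hsqS b hb
    calc a * b = a * (a * b * (a * b)) * b := by rw [h1]; group
      _ = (a * a) * (b * a) * (b * b) := by group
      _ = b * a := by rw [ha', hb']; group
  have hab : IsMulCommutative (S : Subgroup G) := ⟨⟨fun a b => Subtype.ext (hcomS a a.2 b b.2)⟩⟩
  have hca := H53Ree.conj_all hnc S hab t I J W hTS hIS hJS htt hII hJJ ht1 hI1 hJ1 hIJ (hnt I hIK) (hnt J hJK)
    (hnt _ (mul_mem hIK hJK)) hWT hWI hWJ hE0
  have hall : ∀ s : G, orderOf s = 2 → ∃ g : G, g * t * g⁻¹ = s := by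
    intro s hs
    obtain ⟨hss, hs1, -⟩ := inv_of_order_two hs
    obtain ⟨S', hS'⟩ := (isPGroup_zpowers (p := 2) (k := 1) (x := s) (by rw [pow_one, pow_two]; exact hss)).exists_le_sylow
    have hsS' : s ∈ (S' : Subgroup G) := hS' (Subgroup.mem_zpowers s)
    obtain ⟨g, rfl⟩ := MulAction.exists_smul_eq G S S'
    rw [Sylow.smul_def, Sylow.pointwise_smul_def] at hsS'
    have h1 : g⁻¹ * s * g ∈ (S : Subgroup G) := by
      rw [Subgroup.mem_pointwise_smul_iff_inv_smul_mem] at hsS'
      simpa [MulAut.smul_def] using hsS'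
    obtain ⟨k, hk⟩ := hca _ h1 (by
      intro h
      apply hs1
      have : s = g * (g⁻¹ * s * g) * g⁻¹ := by group
      rw [this, h]; group)
    refine ⟨g * k, ?_⟩
    calc g * k * t * (g * k)⁻¹ = g * (k * t * k⁻¹) * g⁻¹ := by group
      _ = s := by rw [hk]; group
  refine ⟨?_, ?_, ?_⟩
  · intro s s' hs hs'
    obtain ⟨g, hg⟩ := hall s hs
    obtain ⟨g', hg'⟩ := hall s' hs'
    refine ⟨g' * g⁻¹, ?_⟩
    rw [← hg, ← hg']; group
  · intro s hs
    obtain ⟨g, rfl⟩ := hall s hs
    exact ⟨_, hKD.conj g⟩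
  · intro P hP x hx
    obtain ⟨S', hS'⟩ := hP.exists_le_sylow
    have hsS' : x ∈ (S' : Subgroup G) := hS' hx
    obtain ⟨g, rfl⟩ := MulAction.exists_smul_eq G S S'
    rw [Sylow.smul_def, Sylow.pointwise_smul_def] at hsS'
    have h1 : g⁻¹ * x * g ∈ (S : Subgroup G) := by
      rw [Subgroup.mem_pointwise_smul_iff_inv_smul_mem] at hsS'
      simpa [MulAut.smul_def] using hsS'
    have h2 := hsqS _ h1
    calc x * x = g * ((g⁻¹ * x * g) * (g⁻¹ * x * g)) * g⁻¹ := by group
      _ = 1 := by rw [h2]; group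

end Cfsg.Agent.Lib.GoldD95
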