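import Mathlib
import Cfsg.Agent.Lib.BrauerFowler
import Cfsg.Agent.Lib.ThreeTranspW1

/-!
# Piece Q of S2755 (helper36): a 3-local lemma
-/

set_option autoImplicit false

namespace Cfsg.Agent.Lib.GoldQ95

open Subgroup

/-- Decomposition `g = c r⁻¹` for the involution `t`, when the commutator `g⁻¹ g^t` has odd order. -/
theorem decomp {C : Type*} [Group C] (t g : C) (ht : t * t = 1)
    (hodd : Odd (orderOf (g⁻¹ * (t * g * t⁻¹)))) :
    ∃ r ∈ zpowers (g⁻¹ * (t * g * t⁻¹)), r * r = g⁻¹ * (t * g * t⁻¹) ∧ t * r * t⁻¹ = r⁻¹ ∧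
      (g * r) * t = t * (g * r) := by
  set m := g⁻¹ * (t * g * t⁻¹) with hm
  have hti : t⁻¹ = t := inv_eq_of_mul_eq_one_right ht
  have hinv : t * m * t⁻¹ = m⁻¹ := by
    rw [hm, hti]
    have : t * (g⁻¹ * (t * g * t)) * t = t * g⁻¹ * t * g * (t * t) := by group
    rw [this, ht, mul_one]
    simp only [mul_inv_rev, inv_inv, hti]
    group
  obtain ⟨j, hj⟩ := hodd
  refine ⟨m ^ (j + 1), pow_mem (mem_zpowers m) _, ?_, ?_, ?_⟩
  · rw [← pow_add]
    have : j + 1 + (j + 1) = (2 * j + 1) + 1 := by ring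
    rw [this, pow_succ, ← hj, pow_orderOf_eq_one, one_mul]
  · rw [← conj_pow, hinv, inv_pow]
  · have hr2 : m ^ (j + 1) * m ^ (j + 1) = m := by
      rw [← pow_add]
      have : j + 1 + (j + 1) = (2 * j + 1) + 1 := by ring
      rw [this, pow_succ, ← hj, pow_orderOf_eq_one, one_mul]
    have hr1 : t * m ^ (j + 1) * t⁻¹ = (m ^ (j + 1))⁻¹ := by rw [← conj_pow, hinv, inv_pow]
    set r := m ^ (j + 1) with hr
    have h1 : t * (g * r) * t⁻¹ = g * r := by
      calc t * (g * r) * t⁻¹ = (t * g * t⁻¹) * (t * r * t⁻¹) := by group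
        _ = (g * m) * r⁻¹ := by rw [hr1, hm]; group
        _ = g * (r * r) * r⁻¹ := by rw [hr2]
        _ = g * r := by group
    exact (mul_inv_eq_iff_eq_mul.1 h1).symm

theorem aux {C : Type*} [Group C] [Finite C] (t : C) (ht : orderOf t = 2)
    (q k : ℕ) (hq : q = 3 ^ k) (P : Subgroup C) (hPcard : Nat.card P = q)
    (hPab : ∀ a ∈ P, ∀ b ∈ P, a * b = b * a) (hPt : ∀ a ∈ P, a * t = t * a)
    (hC : ∀ g : C, g * t = t * g → g ∈ P ∨ t * g ∈ P)
    (h4 : ¬ 4 ∣ Nat.card C)
    (hS3 : ∀ s : C, (∃ j, s ^ 3 ^ j = 1) → t * s * t⁻¹ = s⁻¹ → s = 1) :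
    ∃ M : Subgroup C, M.Normal ∧ Nat.Coprime (Nat.card M) 6 ∧ (∀ m ∈ M, t * m * t⁻¹ = m⁻¹) ∧
      Nat.card C = 2 * q * Nat.card M ∧
      (∀ g : C, Nat.Coprime (orderOf g) 6 → g ∈ M) := by
  classical
  haveI : Fact (Nat.Prime 3) := ⟨Nat.prime_three⟩
  have htt : t * t = 1 := by rw [← pow_two, ← ht, pow_orderOf_eq_one]
  have h2C : 2 ∣ Nat.card C := ht ▸ orderOf_dvd_natCard t
  have hmod : Nat.card C % 4 = 2 := by omega
  obtain ⟨Y, hY⟩ := Cfsg.Agent.Lib.BrauerFowler.exists_index_two_of_two_mod_four hmod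
  haveI hYn : Y.Normal := Subgroup.normal_of_index_eq_two hY
  have hYcard : Nat.card Y * 2 = Nat.card C := by rw [← hY]; exact Y.card_mul_index
  have hYodd : Odd (Nat.card Y) := by
    rw [Nat.odd_iff]; omega
  have htY : t ∉ Y := by
    intro h
    have h1 : orderOf t ∣ Nat.card Y := by
      have := orderOf_dvd_natCard (⟨t, h⟩ : Y)
      rwa [Subgroup.orderOf_mk] at this
    rw [ht] at h1
    rw [Nat.odd_iff] at hYodd; omega
  have hYodd' : ∀ y ∈ Y, Odd (orderOf y) := by
    intro y hy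
    have h1 : orderOf y ∣ Nat.card Y := by
      have := orderOf_dvd_natCard (⟨y, hy⟩ : Y)
      rwa [Subgroup.orderOf_mk] at this
    exact Odd.of_dvd_nat hYodd h1
  -- odd-order elements lie in Y
  have hoddY : ∀ g : C, Odd (orderOf g) → g ∈ Y := by
    intro g hg
    have h1 : orderOf (QuotientGroup.mk' Y g) ∣ orderOf g := orderOf_map_dvd _ g
    have h2 : orderOf (QuotientGroup.mk' Y g) ∣ 2 := by
      have := orderOf_dvd_natCard (QuotientGroup.mk' Y g)
      rwa [← Subgroup.index_eq_card, hY] at this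
    have h3 : orderOf (QuotientGroup.mk' Y g) ∣ 1 := by
      have h4 : Nat.Coprime (orderOf g) 2 := Nat.coprime_two_right.2 hg
      rw [← h4.gcd_eq_one]
      exact Nat.dvd_gcd h1 h2
    have h4 : QuotientGroup.mk' Y g = 1 := orderOf_eq_one_iff.1 (Nat.dvd_one.1 h3)
    exact (QuotientGroup.eq_one_iff g).1 h4
  have hcommY : ∀ g : C, g⁻¹ * (t * g * t⁻¹) ∈ Y := by
    intro g
    have h1 : ∀ a b : C ⧸ Y, a * b = b * a := by
      have hc : Nat.card (C ⧸ Y) = 2 := by rw [← Subgroup.index_eq_card, hY]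
      haveI := isCyclic_of_prime_card (p := 2) (hp := ⟨Nat.prime_two⟩) hc
      intro a b
      exact (IsCyclic.commGroup (α := C ⧸ Y)).mul_comm a b
    rw [← QuotientGroup.eq_one_iff]
    show ((g⁻¹ * (t * g * t⁻¹) : C) : C ⧸ Y) = 1
    have : ((g⁻¹ * (t * g * t⁻¹) : C) : C ⧸ Y) =
      (g : C ⧸ Y)⁻¹ * ((t : C ⧸ Y) * (g : C ⧸ Y) * (t : C ⧸ Y)⁻¹) := rfl
    rw [this, h1 (t : C ⧸ Y) (g : C ⧸ Y)]
    group
  have hPpow : ∀ a ∈ P, a ^ q = 1 := by
    intro a ha
    have := pow_card_eq_one' (x := (⟨a, ha⟩ : P))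
    rw [hPcard] at this
    exact congrArg Subtype.val this
  have hqodd : Odd q := by rw [hq]; exact Odd.pow (by decide)
  have hPY : P ≤ Y := by
    intro a ha
    apply hoddY
    exact Odd.of_dvd_nat hqodd (orderOf_dvd_of_pow_eq_one (hPpow a ha))
  have hPp : IsPGroup 3 P := IsPGroup.of_card (n := k) (by rw [hPcard, hq])
  -- elements of Y commuting with t are in P
  have hCY : ∀ g ∈ Y, g * t = t * g → g ∈ P := by
    intro g hg hgt
    rcases hC g hgt with h | h
    · exact h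
    · exfalso
      apply htY
      have : t = (t * g) * g⁻¹ := by group
      rw [this]
      exact Y.mul_mem (hPY h) (Y.inv_mem hg)
  -- (a) invariant Sylow
  have hsup : Y ⊔ zpowers t = ⊤ := by
    by_contra hne
    have h1 : (Y ⊔ zpowers t).index ∣ 2 := by
      rw [← hY]; exact Subgroup.index_dvd_of_le le_sup_left
    have h2 : (Y ⊔ zpowers t).index ≠ 1 := fun h => hne (Subgroup.index_eq_one.1 h)
    have h3 : (Y ⊔ zpowers t).index = 2 := by
      rcases (Nat.dvd_prime Nat.prime_two).1 h1 with h | h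
      · exact absurd h h2
      · exact h
    have h4 : Y = Y ⊔ zpowers t := by
      apply Subgroup.eq_of_le_of_card_ge le_sup_left
      have h5 := (Y ⊔ zpowers t).card_mul_index
      rw [h3] at h5
      omega
    exact htY (h4 ▸ (le_sup_right (a := Y) (b := zpowers t)) (mem_zpowers t))
  obtain ⟨R, hR⟩ := Cfsg.Agent.Lib.ThreeTransp.exists_invariant_sylow (r := 3) (by decide) hYodd htt hsup
  have hR3 : ∀ s ∈ R, ∃ j, s ^ 3 ^ j = 1 := by
    intro s hs
    obtain ⟨j, hj⟩ := R.isPGroup' ⟨s, hs⟩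
    exact ⟨j, congrArg Subtype.val hj⟩
  have hti : t⁻¹ = t := inv_eq_of_mul_eq_one_right htt
  have hRP : (R : Subgroup C) ≤ P := by
    intro s hs
    have hm : s⁻¹ * (t * s * t⁻¹) ∈ R := mul_mem (inv_mem hs) (hR s hs)
    have h1 : s⁻¹ * (t * s * t⁻¹) = 1 := by
      apply hS3 _ (hR3 _ hm)
      rw [hti]
      have : t * (s⁻¹ * (t * s * t)) * t = t * s⁻¹ * t * s * (t * t) := by group
      rw [this, htt, mul_one]
      simp only [mul_inv_rev, inv_inv, hti]
      group
    have h2 : t * s * t⁻¹ = s := by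
      have := congrArg (s * ·) h1
      simpa [mul_assoc] using this
    have h3 : s * t = t * s := (mul_inv_eq_iff_eq_mul.1 h2).symm
    apply hCY s _ h3
    apply hoddY
    obtain ⟨j, hj⟩ := hR3 s hs
    exact Odd.of_dvd_nat (Odd.pow (by decide)) (orderOf_dvd_of_pow_eq_one hj)
  have hPR : P = (R : Subgroup C) := R.is_maximal' hPp hRP
  -- (b)
  have hNC : normalizer ((R : Subgroup C) : Set C) ≤ centralizer ((R : Subgroup C) : Set C) := by
    rw [← hPR]
    intro g hg
    rw [mem_centralizer_iff]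
    intro a ha
    have ha' : a ∈ P := ha
    obtain ⟨r, hr, hr2, hrt, hgr⟩ := decomp t g htt (hYodd' _ (hcommY g))
    set m := g⁻¹ * (t * g * t⁻¹) with hm
    -- c = g r centralises P
    have hc : ∀ b ∈ P, (g * r) * b = b * (g * r) := by
      intro b hb
      rcases hC _ hgr with h | h
      · exact hPab _ h _ hb
      · have h1 := hPab _ h _ hb
        have h2 := hPt b hb
        have h3 : g * r = t * (t * (g * r)) := by rw [← mul_assoc, htt, one_mul]
        rw [h3, mul_assoc, h1, ← mul_assoc, ← h2, mul_assoc]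
    have hcN : g * r ∈ normalizer (P : Set C) := by
      rw [mem_normalizer_iff]
      intro b
      constructor
      · intro hb
        rw [hc b hb, mul_inv_cancel_right]
        exact hb
      · intro hb
        have := hc _ hb
        have h2 : b = (g * r) * b * (g * r)⁻¹ := by
          have h3 : (g * r) * ((g * r) * b * (g * r)⁻¹) = (g * r) * b * (g * r)⁻¹ * (g * r) := this
          rw [inv_mul_cancel_right] at h3
          exact (mul_left_cancel h3).symm
        rw [h2]; exact hb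
    have hrN : r ∈ normalizer (P : Set C) := by
      have : r = g⁻¹ * (g * r) := by group
      rw [this]
      exact mul_mem (inv_mem hg) hcN
    have hra : r * a * r⁻¹ ∈ P := (mem_normalizer_iff.1 hrN a).1 ha'
    have h1 : r * a * r⁻¹ = r⁻¹ * a * r := by
      have h2 : t * (r * a * r⁻¹) * t⁻¹ = r * a * r⁻¹ := by
        rw [← hPt _ hra, mul_inv_cancel_right]
      have h3 : t * (r * a * r⁻¹) * t⁻¹ = (t * r * t⁻¹) * (t * a * t⁻¹) * (t * r * t⁻¹)⁻¹ := by group
      rw [hrt, ← hPt a ha', mul_inv_cancel_right, inv_inv] at h3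
      rw [← h2, h3]
    have h2 : Commute m a := by
      show m * a = a * m
      rw [← hr2]
      calc r * r * a = r * (r * a * r⁻¹) * r := by group
        _ = r * (r⁻¹ * a * r) * r := by rw [h1]
        _ = a * (r * r) := by group
    have h3 : Commute r a := by
      obtain ⟨j, rfl⟩ := hr
      exact h2.zpow_left j
    have h4 : (g * r) * a = a * (g * r) := hc a ha'
    have h5 : g * a = a * g := by
      have h6 : g * r * a = g * a * r := by rw [mul_assoc, h3.eq, mul_assoc]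
      rw [h6, ← mul_assoc] at h4
      exact mul_right_cancel h4
    exact h5.symm
  -- (c)
  set K := (MonoidHom.transferSylow R hNC).ker with hK
  have hKc : K.IsComplement' R := MonoidHom.ker_transferSylow_isComplement' R hNC
  have hK3 : ¬ 3 ∣ Nat.card K := MonoidHom.not_dvd_card_ker_transferSylow R hNC
  have hKidx : K.index = q := by
    rw [hKc.symm.index_eq_card, ← hPcard, hPR]
  haveI hKn : K.Normal := by rw [hK]; infer_instance
  -- elements of order prime to 3 are in K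
  have hKmem : ∀ g : C, Nat.Coprime (orderOf g) 3 → g ∈ K := by
    intro g hg
    have h1 : orderOf (QuotientGroup.mk' K g) ∣ orderOf g := orderOf_map_dvd _ g
    have h2 : orderOf (QuotientGroup.mk' K g) ∣ q := by
      have := orderOf_dvd_natCard (QuotientGroup.mk' K g)
      rwa [← Subgroup.index_eq_card, hKidx] at this
    have h3 : orderOf (QuotientGroup.mk' K g) ∣ 1 := by
      have h4 : Nat.Coprime (orderOf g) q := by rw [hq]; exact Nat.Coprime.pow_right _ hg
      rw [← h4.gcd_eq_one]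
      exact Nat.dvd_gcd h1 h2
    have h4 : QuotientGroup.mk' K g = 1 := orderOf_eq_one_iff.1 (Nat.dvd_one.1 h3)
    exact (QuotientGroup.eq_one_iff g).1 h4
  have htK : t ∈ K := hKmem t (by rw [ht]; decide)
  have hMc : Nat.Coprime (Nat.card (K ⊓ Y : Subgroup C)) 6 := by
    have h6 : (6 : ℕ) = 2 * 3 := rfl
    rw [h6]
    apply Nat.Coprime.mul_right
    · apply Nat.coprime_two_right.2
      exact Odd.of_dvd_nat hYodd (card_dvd_of_le inf_le_right)
    · rw [Nat.coprime_comm, Nat.Prime.coprime_iff_not_dvd Nat.prime_three]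
      intro h
      exact hK3 (h.trans (card_dvd_of_le inf_le_left))
  have hMn : (K ⊓ Y : Subgroup C).Normal := inferInstance
  refine ⟨K ⊓ Y, hMn, hMc, ?_, ?_, ?_⟩
  · intro g hg
    have hmM : g⁻¹ * (t * g * t⁻¹) ∈ K ⊓ Y := mul_mem (inv_mem hg) (hMn.conj_mem g hg t)
    obtain ⟨r, hr, hr2, hrt, hgr⟩ := decomp t g htt (hYodd' _ (hcommY g))
    have hrM : r ∈ K ⊓ Y := (zpowers_le.2 hmM) hr
    have hcM : g * r ∈ K ⊓ Y := mul_mem hg hrM
    have hcP : g * r ∈ P := hCY _ hcM.2 hgr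
    have h1 : orderOf (g * r) ∣ 1 := by
      have h2 : orderOf (g * r) ∣ q := orderOf_dvd_of_pow_eq_one (hPpow _ hcP)
      have h3 : orderOf (g * r) ∣ Nat.card (K ⊓ Y : Subgroup C) := by
        have := orderOf_dvd_natCard (⟨g * r, hcM⟩ : (K ⊓ Y : Subgroup C))
        rwa [Subgroup.orderOf_mk] at this
      have h4 : Nat.Coprime (Nat.card (K ⊓ Y : Subgroup C)) q := by
        rw [hq]
        exact Nat.Coprime.pow_right _ (hMc.coprime_dvd_right (by decide))
      rw [← h4.gcd_eq_one]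
      exact Nat.dvd_gcd h3 h2
    have h5 : g * r = 1 := orderOf_eq_one_iff.1 (Nat.dvd_one.1 h1)
    have h6 : g = r⁻¹ := eq_inv_of_mul_eq_one_left h5
    rw [h6]
    have h7 : t * r⁻¹ * t⁻¹ = (t * r * t⁻¹)⁻¹ := by group
    rw [h7, hrt]
  · have h1 : (K ⊓ Y : Subgroup C).index = 2 * q := by
      have h2 : Y.relIndex K * K.index = (K ⊓ Y : Subgroup C).index := by
        rw [inf_comm, ← Subgroup.inf_relIndex_right, Subgroup.relIndex_mul_index inf_le_right]
      have h3 : Y.relIndex K = 2 := by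
        have h4 : Y.relIndex K ∣ 2 := by
          rw [← hY]; exact Subgroup.relIndex_dvd_index_of_normal Y K
        rcases (Nat.dvd_prime Nat.prime_two).1 h4 with h | h
        · exact absurd (Subgroup.relIndex_eq_one.1 h htK) htY
        · exact h
      rw [← h2, h3, hKidx]
    rw [← h1, mul_comm]
    exact ((K ⊓ Y : Subgroup C).card_mul_index).symm
  · intro g hg
    refine ⟨hKmem g (hg.coprime_dvd_right (by decide)), hoddY g ?_⟩
    exact Nat.coprime_two_right.1 (hg.coprime_dvd_right (by decide))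

theorem main {G : Type*} [Group G] [Finite G] (t x : G) (ht : orderOf t = 2) (hx : orderOf x = 3) (htx : t * x = x * t)
    (q k : ℕ) (hq : q = 3 ^ k) (P : Subgroup G) (hPcard : Nat.card P = q)
    (hPab : ∀ a ∈ P, ∀ b ∈ P, a * b = b * a) (hPx : ∀ a ∈ P, a * x = x * a) (hPt : ∀ a ∈ P, a * t = t * a)
    (hC : ∀ g : G, g * x = x * g → g * t = t * g → g ∈ P ∨ t * g ∈ P)
    (h4 : ¬ 4 ∣ Nat.card (Subgroup.centralizer ({x} : Set G)))
    (hS3 : ∀ s : G, (∃ j, s ^ 3 ^ j = 1) → t * s * t⁻¹ = s⁻¹ → s = 1) :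
    ∃ M : Subgroup G, (∀ m ∈ M, m * x = x * m) ∧ (∀ g : G, g * x = x * g → ∀ m ∈ M, g * m * g⁻¹ ∈ M) ∧
      Nat.Coprime (Nat.card M) 6 ∧ (∀ m ∈ M, t * m * t⁻¹ = m⁻¹) ∧
      Nat.card (Subgroup.centralizer ({x} : Set G)) = 2 * q * Nat.card M ∧
      (∀ g : G, g * x = x * g → Nat.Coprime (orderOf g) 6 → g ∈ M) := by
  classical
  set C := Subgroup.centralizer ({x} : Set G) with hCdef
  have hmemC : ∀ g : G, g ∈ C ↔ g * x = x * g := by
    intro g
    rw [hCdef, mem_centralizer_singleton_iff]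
  have htC : t ∈ C := (hmemC t).2 htx
  have hPC : P ≤ C := fun a ha => (hmemC a).2 (hPx a ha)
  obtain ⟨M, hMn, hMc, hMt, hcard, hMm⟩ := aux (C := C) ⟨t, htC⟩ (by rw [Subgroup.orderOf_mk]; exact ht) q k hq
    (P.subgroupOf C) (by rw [← hPcard]; exact Nat.card_congr (Subgroup.subgroupOfEquivOfLe hPC).toEquiv)
    (fun a ha b hb => Subtype.ext (hPab a ha b hb)) (fun a ha => Subtype.ext (hPt a ha))
    (fun g hg => by
      rcases hC g ((hmemC _).1 g.2) (congrArg Subtype.val hg) with h | h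
      · exact Or.inl h
      · exact Or.inr h)
    h4
    (fun s hs hst => by
      obtain ⟨j, hj⟩ := hs
      exact Subtype.ext (hS3 s ⟨j, congrArg Subtype.val hj⟩ (congrArg Subtype.val hst)))
  refine ⟨M.map C.subtype, ?_, ?_, ?_, ?_, ?_, ?_⟩
  · rintro _ ⟨m, hm, rfl⟩
    exact (hmemC _).1 m.2
  · rintro g hg _ ⟨m, hm, rfl⟩
    exact ⟨⟨g, (hmemC g).2 hg⟩ * m * ⟨g, (hmemC g).2 hg⟩⁻¹, hMn.conj_mem m hm _, rfl⟩
  · rw [Subgroup.card_map_of_injective C.subtype_injective]
    exact hMc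
  · rintro _ ⟨m, hm, rfl⟩
    exact congrArg Subtype.val (hMt m hm)
  · rw [Subgroup.card_map_of_injective C.subtype_injective]
    exact hcard
  · intro g hg ho
    exact ⟨⟨g, (hmemC g).2 hg⟩, hMm _ (by rw [Subgroup.orderOf_mk]; exact ho), rfl⟩

end Cfsg.Agent.Lib.GoldQ95
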