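import Mathlib
import Cfsg.Agent.Lib.GoldD95b
import Cfsg.Agent.Lib.GoldQ95

/-!
Groups of Ree type: `3`-local analysis under the `S₃`-free hypothesis (seat helper95).
-/

set_option autoImplicit false

namespace Cfsg.Agent.Lib.GoldD95

open Subgroup Cfsg.Agent.Lib.H53PSL2 Cfsg.Agent.Lib.GoldPSL95

/-- no involution inverts a nontrivial `3`-element -/
def S3F (G : Type*) [Group G] : Prop :=
  ∀ u s : G, u * u = 1 → (∃ j, s ^ 3 ^ j = 1) → u * s * u⁻¹ = s⁻¹ → s = 1

variable {G : Type*} [Group G] [Finite G] {F : Type*} [Field F] [Fintype F] {n : ℕ}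

theorem KD.facts {t : G} {K : Subgroup G} (h : KD F t K) (hn : 1 ≤ n) (hF : Fintype.card F = 3 ^ (2 * n + 1)) :
    Facts K (3 ^ (2 * n + 1)) := GoldPSL95.facts hn hF h.2.2

/-- elements of odd order commuting with `t` lie in `K` -/
theorem KD.mem_of_odd {t : G} {K : Subgroup G} (h : KD F t K) {g : G} (hg : g * t = t * g) {m : ℕ} (hm : Odd m)
    (hgm : g ^ m = 1) : g ∈ K := by
  rcases h.dec hg with h1 | h1
  · exact h1
  · exfalso
    have h2 : (t * g) ^ m = t := by
      have hc : Commute t g := hg.symm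
      rw [hc.mul_pow, hgm, mul_one]
      obtain ⟨k, rfl⟩ := hm
      rw [pow_succ, pow_mul, pow_two, (inv_of_order_two h.1).1, one_pow, one_mul]
    exact h.nt (h2 ▸ pow_mem h1 m)

theorem KD.cent3 {t : G} {K : Subgroup G} (h : KD F t K) (hn : 1 ≤ n) (hF : Fintype.card F = 3 ^ (2 * n + 1))
    {x : G} (hx : x ∈ K) (hx3 : orderOf x = 3) :
    Nat.card (Subgroup.centralizer ({x} : Set G) ⊓ K : Subgroup G) = 3 ^ (2 * n + 1) ∧
      (∀ a ∈ (Subgroup.centralizer ({x} : Set G) ⊓ K : Subgroup G), a ^ 3 = 1) ∧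
      (∀ a ∈ (Subgroup.centralizer ({x} : Set G) ⊓ K : Subgroup G),
        ∀ b ∈ (Subgroup.centralizer ({x} : Set G) ⊓ K : Subgroup G), a * b = b * a) := by
  have hx' : orderOf (⟨x, hx⟩ : K) = 3 := by rw [← hx3]; exact (Subgroup.orderOf_mk x hx)
  obtain ⟨h1, h2, h3⟩ := (h.facts hn hF).three ⟨x, hx⟩ hx'
  have hmem : ∀ a (ha : a ∈ K), a ∈ Subgroup.centralizer ({x} : Set G) ↔
      (⟨a, ha⟩ : K) ∈ Subgroup.centralizer ({(⟨x, hx⟩ : K)} : Set K) := by
    intro a ha
    rw [Subgroup.mem_centralizer_singleton_iff, Subgroup.mem_centralizer_singleton_iff]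
    constructor
    · intro h; exact Subtype.ext h
    · intro h; exact congrArg Subtype.val h
  have heq : (Subgroup.centralizer ({x} : Set G) ⊓ K : Subgroup G) =
      (Subgroup.centralizer ({(⟨x, hx⟩ : K)} : Set K)).map K.subtype := by
    ext a
    rw [Subgroup.mem_inf, Subgroup.mem_map]
    constructor
    · rintro ⟨ha, haK⟩
      exact ⟨⟨a, haK⟩, (hmem a haK).1 ha, rfl⟩
    · rintro ⟨⟨b, hb⟩, hb', rfl⟩
      exact ⟨(hmem b hb).2 hb', hb⟩
  refine ⟨?_, ?_, ?_⟩
  · rw [heq, Subgroup.card_map_of_injective K.subtype_injective, h1]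
  · rintro a ⟨ha, haK⟩
    exact congrArg Subtype.val (h2 ⟨a, haK⟩ ((hmem a haK).1 ha))
  · rintro a ⟨ha, haK⟩ b ⟨hb, hbK⟩
    exact congrArg Subtype.val (h3 ⟨a, haK⟩ ((hmem a haK).1 ha) ⟨b, hbK⟩ ((hmem b hbK).1 hb))

theorem loc3 (hn : 1 ≤ n) (hF : Fintype.card F = 3 ^ (2 * n + 1)) (hR : R G F) (hS : S3F G) {t : G} {K : Subgroup G}
    (h : KD F t K) {x : G} (hx : x ∈ K) (hx3 : orderOf x = 3) :
    ∃ M : Subgroup G, (∀ m ∈ M, m * x = x * m) ∧ (∀ g : G, g * x = x * g → ∀ m ∈ M, g * m * g⁻¹ ∈ M) ∧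
      Nat.Coprime (Nat.card M) 6 ∧ (∀ m ∈ M, t * m * t⁻¹ = m⁻¹) ∧
      Nat.card (Subgroup.centralizer ({x} : Set G)) = 2 * 3 ^ (2 * n + 1) * Nat.card M ∧
      (∀ g : G, g * x = x * g → Nat.Coprime (orderOf g) 6 → g ∈ M) := by
  obtain ⟨h1, h2, h3⟩ := h.cent3 hn hF hx hx3
  obtain ⟨htt, ht1, hti⟩ := inv_of_order_two h.1
  have htx := h.comm hx
  have hC : ∀ g : G, g * x = x * g → g * t = t * g → g ∈ (Subgroup.centralizer ({x} : Set G) ⊓ K : Subgroup G) ∨
      t * g ∈ (Subgroup.centralizer ({x} : Set G) ⊓ K : Subgroup G) := by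
    intro g hgx hgt
    rcases h.dec hgt with h4 | h4
    · left; exact ⟨Subgroup.mem_centralizer_singleton_iff.2 hgx, h4⟩
    · right; exact ⟨Subgroup.mem_centralizer_singleton_iff.2 (by rw [mul_assoc, hgx, ← mul_assoc, htx, mul_assoc]), h4⟩
  refine GoldQ95.main t x h.1 hx3 htx _ (2 * n + 1) rfl (Subgroup.centralizer ({x} : Set G) ⊓ K) h1 h3 ?_ ?_ hC ?_ ?_
  · rintro a ⟨ha, -⟩; exact Subgroup.mem_centralizer_singleton_iff.1 ha
  · rintro a ⟨-, ha⟩; exact (h.comm ha).symm
  · intro h4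
    have : Fact (Nat.Prime 2) := ⟨Nat.prime_two⟩
    set C := Subgroup.centralizer ({x} : Set G) with hCd
    have htC : t ∈ C := Subgroup.mem_centralizer_singleton_iff.2 htx
    have hz : IsPGroup 2 (Subgroup.zpowers (⟨t, htC⟩ : C)) :=
      isPGroup_zpowers (k := 1) (by rw [pow_one, pow_two]; exact Subtype.ext htt)
    obtain ⟨S, hSz⟩ := hz.exists_le_sylow
    have hSt : (⟨t, htC⟩ : C) ∈ (S : Subgroup C) := hSz (Subgroup.mem_zpowers _)
    have h5 : 2 ^ 2 ∣ Nat.card (S : Subgroup C) := S.pow_dvd_card_of_pow_dvd_card h4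
    have hsq : ∀ s : C, s ∈ (S : Subgroup C) → (s : G) * s = 1 := by
      intro s hs
      exact hR.sq ((S : Subgroup C).map C.subtype) (S.isPGroup'.map _) s ⟨s, hs, rfl⟩
    have hall : ∀ s : C, s ∈ (S : Subgroup C) → s = 1 ∨ s = ⟨t, htC⟩ := by
      intro s hs
      have h6 := hsq _ (mul_mem hs hSt)
      have h7 := hsq s hs
      have hst : (s : G) * t = t * s := by
        have e1 : ((s : G) * t) * (s * t) = 1 := h6
        calc (s : G) * t = s * ((s * t) * (s * t)) * t := by rw [e1]; group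
          _ = (s * s) * (t * s) * (t * t) := by group
          _ = t * s := by rw [h7, htt]; group
      have hsC : (s : G) * x = x * s := Subgroup.mem_centralizer_singleton_iff.1 s.2
      have hodd : ∀ a ∈ (C ⊓ K : Subgroup G), a * a = 1 → a = 1 := by
        intro a ha haa
        have := h2 a ha
        rw [pow_succ, pow_two, haa, one_mul] at this
        exact this
      rcases hC s hsC hst with h8 | h8
      · left; exact Subtype.ext (hodd _ h8 h7)
      · right
        have h9 := hodd _ h8 (by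
          calc (t * (s : G)) * (t * s) = t * (s * t) * s := by group
            _ = t * (t * s) * s := by rw [hst]
            _ = (t * t) * (s * s) := by group
            _ = 1 := by rw [htt, h7, one_mul])
        apply Subtype.ext
        show (s : G) = t
        rw [← hti]; exact eq_inv_of_mul_eq_one_right h9
    have h10 : Nat.card (S : Subgroup C) ≤ 2 := by
      have : ((S : Subgroup C) : Set C) ⊆ ({1, ⟨t, htC⟩} : Set C) := by
        intro s hs
        rcases hall s hs with h | h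
        · left; exact h
        · right; exact h
      calc Nat.card (S : Subgroup C) = ((S : Subgroup C) : Set C).ncard := rfl
        _ ≤ ({1, ⟨t, htC⟩} : Set C).ncard := Set.ncard_le_ncard this (Set.toFinite _)
        _ ≤ 2 := (Set.ncard_insert_le _ _).trans (by rw [Set.ncard_singleton])
    have h11 := Nat.le_of_dvd Nat.card_pos h5
    omega
  · intro s hs hts
    exact hS t s htt hs hts

/-- a Sylow `3`-subgroup of `G` has order `q` -/
theorem v3 (hn : 1 ≤ n) (hF : Fintype.card F = 3 ^ (2 * n + 1)) (hR : R G F) (hS : S3F G) {t : G} {K : Subgroup G}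
    (h : KD F t K) {y : G} (hy : y ∈ K) (hy3 : orderOf y = 3) : ¬ 3 ^ (2 * n + 2) ∣ Nat.card G := by
  have : Fact (Nat.Prime 3) := ⟨Nat.prime_three⟩
  intro hcon
  have key : ∀ x ∈ K, orderOf x = 3 → ∀ a, 3 ^ a ∣ Nat.card (Subgroup.centralizer ({x} : Set G)) → a ≤ 2 * n + 1 := by
    intro x hx hx3 a ha
    obtain ⟨M, -, -, hM6, -, hcard, -⟩ := loc3 hn hF hR hS h hx hx3
    rw [hcard] at ha
    have h1 : Nat.Coprime (3 ^ a) (Nat.card M) := by
      apply Nat.Coprime.pow_left
      exact (Nat.Coprime.coprime_dvd_right (by norm_num) hM6).symm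
    have h2 : 3 ^ a ∣ 2 * 3 ^ (2 * n + 1) := h1.dvd_of_dvd_mul_right ha
    have h3 : Nat.Coprime (3 ^ a) 2 := Nat.Coprime.pow_left _ (by norm_num)
    have h4 := h3.dvd_of_dvd_mul_left h2
    exact (Nat.pow_dvd_pow_iff_le_right (by norm_num)).1 h4
  obtain ⟨h1, h2, h3⟩ := h.cent3 hn hF hy hy3
  set P : Subgroup G := Subgroup.centralizer ({y} : Set G) ⊓ K with hP
  have hPp : IsPGroup 3 P := IsPGroup.of_card h1
  obtain ⟨S, hPS⟩ := hPp.exists_le_sylow
  have hyP : y ∈ P := ⟨Subgroup.mem_centralizer_singleton_iff.2 rfl, hy⟩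
  have hScard : 3 ^ (2 * n + 2) ∣ Nat.card (S : Subgroup G) := S.pow_dvd_card_of_pow_dvd_card hcon
  have hSnt : Nontrivial (S : Subgroup G) := by
    refine ⟨⟨⟨y, hPS hyP⟩, 1, fun h => ?_⟩⟩
    have : y = 1 := congrArg Subtype.val h
    rw [this, orderOf_one] at hy3; omega
  have hZ := S.isPGroup'.center_nontrivial
  have hZp : IsPGroup 3 (Subgroup.center (S : Subgroup G)) := S.isPGroup'.to_subgroup _
  obtain ⟨z, hz⟩ : ∃ z : Subgroup.center (S : Subgroup G), orderOf z = 3 := by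
    obtain ⟨k, hk, hk'⟩ := (IsPGroup.nontrivial_iff_card hZp).1 hZ
    apply exists_prime_orderOf_dvd_card' 3
    rw [hk']; exact dvd_pow_self 3 hk.ne'
  set z' : G := ((z : (S : Subgroup G)) : G) with hz'
  have hz3 : orderOf z' = 3 := by
    rw [← hz, hz']
    rw [Subgroup.orderOf_coe, Subgroup.orderOf_coe]
  have hzS : ∀ s ∈ (S : Subgroup G), s * z' = z' * s := by
    intro s hs
    exact congrArg Subtype.val (Subgroup.mem_center_iff.1 z.2 ⟨s, hs⟩)
  have hzy : z' * y = y * z' := (hzS y (hPS hyP)).symm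
  -- z' ∈ P
  have hzP : z' ∈ P := by
    have hle : Subgroup.zpowers z' ≤ Subgroup.normalizer (P : Set G) := by
      rw [Subgroup.zpowers_le]
      apply Subgroup.centralizer_le_normalizer
      rw [Subgroup.mem_centralizer_iff]
      intro p hp
      exact hzS p (hPS hp)
    have hQle : P ⊔ Subgroup.zpowers z' ≤ (S : Subgroup G) := by
      rw [sup_le_iff, Subgroup.zpowers_le]
      exact ⟨hPS, (z : (S : Subgroup G)).2⟩
    have hQp : IsPGroup 3 (P ⊔ Subgroup.zpowers z' : Subgroup G) := S.isPGroup'.to_le hQle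
    have hQC : P ⊔ Subgroup.zpowers z' ≤ Subgroup.centralizer ({y} : Set G) := by
      rw [sup_le_iff, Subgroup.zpowers_le]
      exact ⟨inf_le_left, Subgroup.mem_centralizer_singleton_iff.2 hzy⟩
    obtain ⟨a, ha⟩ := IsPGroup.iff_card.1 hQp
    have h4 := Subgroup.card_dvd_of_le hQC
    rw [ha] at h4
    have h5 := key y hy hy3 a h4
    have h6 : P = P ⊔ Subgroup.zpowers z' := by
      apply Subgroup.eq_of_le_of_card_ge le_sup_left
      rw [ha, h1]
      exact Nat.pow_le_pow_right (by norm_num) h5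
    rw [h6]
    exact Subgroup.mem_sup_right (Subgroup.mem_zpowers z')
  have hSC : (S : Subgroup G) ≤ Subgroup.centralizer ({z'} : Set G) := by
    intro s hs
    exact Subgroup.mem_centralizer_singleton_iff.2 (hzS s hs)
  have h7 := key z' hzP.2 hz3 (2 * n + 2) (hScard.trans (Subgroup.card_dvd_of_le hSC))
  omega

end Cfsg.Agent.Lib.GoldD95
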