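import Mathlib
import Cfsg.Agent.Lib.GoldD95a
import Cfsg.Agent.Lib.GoldPSL95

/-!
# Piece U of S2755 (helper36): the torus of `C_G(D)`
-/

set_option autoImplicit false

namespace Cfsg.Agent.Lib.GoldU95

open Subgroup Cfsg.Agent.Lib.GoldD95

/-- the torus inside `K` -/
theorem torusK {K : Type*} [Group K] [Finite K] (k : K) (hk : orderOf k = 2) (T : Subgroup K) (hT : IsCyclic T)
    (m : ℕ) (hm : Odd m) (hcard : Nat.card T = 2 * m) (hkT : k ∈ T) (hTc : T ≤ centralizer ({k} : Set K))
    (hcc : Nat.card (centralizer ({k} : Set K)) = 4 * m)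
    (hinv : ∀ g ∈ centralizer ({k} : Set K), g ∉ T → ∀ s ∈ T, g * s * g⁻¹ = s⁻¹)
    (hcen : ∀ w ∈ T, w * w ≠ 1 → centralizer ({w} : Set K) = T) :
    ∃ U : Subgroup K, (∀ g, g ∈ U ↔ (g * k = k * g ∧ g ^ m = 1)) ∧ IsCyclic U ∧ Nat.card U = m ∧
      (∀ w ∈ U, w ≠ 1 → ∀ c, c * w = w * c → ∃ a, (a = 1 ∨ a = k) ∧ ∃ u ∈ U, c = a * u) := by
  classical
  obtain ⟨j, hj⟩ := hm
  have hk2 : k * k = 1 := (inv_of_order_two hk).1
  have hk1 : k ≠ 1 := (inv_of_order_two hk).2.1
  obtain ⟨⟨γ, hγ⟩, hgen⟩ := hT.exists_generator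
  have hord : orderOf γ = 2 * m := by
    have h1 := orderOf_eq_card_of_forall_mem_zpowers hgen
    rw [hcard, Subgroup.orderOf_mk] at h1
    exact h1
  have hTz : ∀ s ∈ T, s ∈ zpowers γ := by
    intro s hs
    obtain ⟨i, hi⟩ := hgen ⟨s, hs⟩
    exact ⟨i, congrArg Subtype.val hi⟩
  have hγ2 : orderOf (γ ^ 2) = m := by
    rw [orderOf_pow, hord]
    have : Nat.gcd (2 * m) 2 = 2 := Nat.gcd_eq_right (Dvd.intro _ rfl)
    rw [this]; omega
  have hUT : zpowers (γ ^ 2) ≤ T := by
    rw [zpowers_le]; exact pow_mem hγ 2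
  -- elements of T of order prime to 2
  have hmem : ∀ s ∈ T, s ^ m = 1 → s ∈ zpowers (γ ^ 2) := by
    intro s hs hsm
    obtain ⟨i, rfl⟩ := hTz s hs
    have h1 : γ ^ (i * (m : ℤ)) = 1 := by
      rw [zpow_mul, zpow_natCast]; exact hsm
    have h2 : ((orderOf γ : ℕ) : ℤ) ∣ i * m := orderOf_dvd_iff_zpow_eq_one.2 h1
    rw [hord] at h2
    have hm0 : (m : ℤ) ≠ 0 := by omega
    have h3 : (2 : ℤ) ∣ i := by
      have : (2 : ℤ) * m ∣ i * m := by exact_mod_cast h2
      exact Int.dvd_of_mul_dvd_mul_right hm0 this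
    obtain ⟨l, rfl⟩ := h3
    refine ⟨l, ?_⟩
    show (γ ^ 2) ^ l = γ ^ (2 * l)
    rw [zpow_mul]; norm_cast
  have hsq : ∀ s ∈ T, s * s = 1 → s = 1 ∨ s = k := by
    intro s hs hss
    by_contra hcon
    push Not at hcon
    haveI : Fintype T := Fintype.ofFinite T
    have h1 := hT.card_pow_eq_one_le (n := 2) (by norm_num)
    have h2 : ({1, ⟨s, hs⟩, ⟨k, hkT⟩} : Finset T) ⊆ Finset.univ.filter (fun a : T => a ^ 2 = 1) := by
      intro a ha
      simp only [Finset.mem_insert, Finset.mem_singleton] at ha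
      rw [Finset.mem_filter]
      refine ⟨Finset.mem_univ _, ?_⟩
      rcases ha with rfl | rfl | rfl
      · exact one_pow 2
      · apply Subtype.ext; show s ^ 2 = 1; rw [pow_two, hss]
      · apply Subtype.ext; show k ^ 2 = 1; rw [pow_two, hk2]
    have h3 : ({1, ⟨s, hs⟩, ⟨k, hkT⟩} : Finset T).card = 3 := by
      rw [Finset.card_insert_of_notMem, Finset.card_insert_of_notMem, Finset.card_singleton]
      · rw [Finset.mem_singleton]
        intro h; exact hcon.2 (congrArg Subtype.val h)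
      · rw [Finset.mem_insert, Finset.mem_singleton]
        rintro (h | h)
        · exact hcon.1 (congrArg Subtype.val h).symm
        · exact hk1 (congrArg Subtype.val h).symm
    have h4 := Finset.card_le_card h2
    rw [h3] at h4
    have h5 := h4.trans h1
    omega
  have hdec : ∀ s ∈ T, ∃ a, (a = 1 ∨ a = k) ∧ ∃ u ∈ zpowers (γ ^ 2), s = a * u := by
    intro s hs
    have hs2m : s ^ (2 * m) = 1 := by
      have := pow_card_eq_one' (x := (⟨s, hs⟩ : T))
      rw [hcard] at this
      exact congrArg Subtype.val this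
    refine ⟨s ^ m, hsq _ (pow_mem hs m) ?_, s ^ (m + 1), ?_, ?_⟩
    · rw [← pow_add, ← two_mul, hs2m]
    · apply hmem _ (pow_mem hs _)
      rw [← pow_mul]
      have : (m + 1) * m = 2 * m * (j + 1) := by rw [hj]; ring
      rw [this, pow_mul, hs2m, one_pow]
    · rw [← pow_add]
      have : m + (m + 1) = 2 * m + 1 := by ring
      rw [this, pow_succ, hs2m, one_mul]
  have hidx : ∀ g ∈ centralizer ({k} : Set K), g * g ∈ T := by
    intro g hg
    have h1 : T.relIndex (centralizer ({k} : Set K)) = 2 := by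
      have h2 := Subgroup.relIndex_mul_relIndex ⊥ T (centralizer ({k} : Set K)) bot_le hTc
      rw [Subgroup.relIndex_bot_left, Subgroup.relIndex_bot_left, hcc, hcard] at h2
      have hm0 : 0 < m := by omega
      have : 2 * m * T.relIndex (centralizer ({k} : Set K)) = 2 * m * 2 := by rw [h2]; ring
      exact Nat.eq_of_mul_eq_mul_left (by omega) this
    have h3 : (T.subgroupOf (centralizer ({k} : Set K))).index = 2 := h1
    have h4 := Subgroup.mul_self_mem_of_index_two h3 (⟨g, hg⟩ : centralizer ({k} : Set K))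
    exact h4
  refine ⟨zpowers (γ ^ 2), ?_, inferInstance, ?_, ?_⟩
  · intro g
    constructor
    · intro hg
      refine ⟨mem_centralizer_singleton_iff.1 (hTc (hUT hg)), ?_⟩
      obtain ⟨i, rfl⟩ := hg
      show ((γ ^ 2) ^ i) ^ m = 1
      rw [← zpow_natCast, ← zpow_mul, mul_comm, zpow_mul, zpow_natCast, ← hγ2, pow_orderOf_eq_one, one_zpow]
    · rintro ⟨h1, h2⟩
      have hgc : g ∈ centralizer ({k} : Set K) := mem_centralizer_singleton_iff.2 h1
      by_cases hgT : g ∈ T
      · exact hmem g hgT h2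
      · exfalso
        have h3 := hinv g hgc hgT (g * g) (hidx g hgc)
        have h4 : g ^ 4 = 1 := by
          have h5 : g * (g * g) * g⁻¹ = g * g := by group
          rw [h5] at h3
          have h6 : (g * g) * (g * g) = 1 := by
            nth_rewrite 1 [h3]; group
          have : g ^ 4 = (g * g) * (g * g) := by simp only [pow_succ, pow_zero, one_mul, mul_assoc]
          rw [this, h6]
        have h5 : orderOf g ∣ 1 := by
          have h6 : Nat.Coprime m 4 := by
            have : Nat.Coprime m 2 := Nat.coprime_two_right.2 ⟨j, hj⟩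
            exact Nat.Coprime.pow_right 2 this
          rw [← h6.gcd_eq_one]
          exact Nat.dvd_gcd (orderOf_dvd_of_pow_eq_one h2) (orderOf_dvd_of_pow_eq_one h4)
        have h6 : g = 1 := orderOf_eq_one_iff.1 (Nat.dvd_one.1 h5)
        exact hgT (h6 ▸ T.one_mem)
  · rw [Nat.card_zpowers, hγ2]
  · intro w hw hw1 c hc
    have hwT := hUT hw
    have hww : w * w ≠ 1 := by
      intro h
      have h1 : w ^ m = 1 := by
        obtain ⟨i, rfl⟩ := hw
        show ((γ ^ 2) ^ i) ^ m = 1
        rw [← zpow_natCast, ← zpow_mul, mul_comm, zpow_mul, zpow_natCast, ← hγ2, pow_orderOf_eq_one, one_zpow]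
      have h5 : orderOf w ∣ 1 := by
        have h6 : Nat.Coprime m 2 := Nat.coprime_two_right.2 ⟨j, hj⟩
        rw [← h6.gcd_eq_one]
        exact Nat.dvd_gcd (orderOf_dvd_of_pow_eq_one h1) (orderOf_dvd_of_pow_eq_one (by rw [pow_two, h]))
      exact hw1 (orderOf_eq_one_iff.1 (Nat.dvd_one.1 h5))
    have hcT : c ∈ T := by
      rw [← hcen w hwT hww]
      exact mem_centralizer_singleton_iff.2 hc
    exact hdec c hcT

theorem main {G : Type*} [Group G] [Finite G] {F : Type*} [Field F] [Fintype F] {n : ℕ} (hn : 1 ≤ n) (hF : Fintype.card F = 3 ^ (2 * n + 1)) (hR : R G F) (d e : G) (hd : orderOf d = 2) (he : orderOf e = 2) (hde : d ≠ e) (hcomm : d * e = e * d) :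
    ∃ U : Subgroup G, (∀ g, g ∈ U ↔ (g * d = d * g ∧ g * e = e * g ∧ g ^ ((3 ^ (2 * n + 1) + 1) / 4) = 1)) ∧ IsCyclic U ∧ 4 * Nat.card U = 3 ^ (2 * n + 1) + 1 ∧
      (∀ w ∈ U, w ≠ 1 → ∀ c, c * d = d * c → c * w = w * c → ∃ a, (a = 1 ∨ a = d ∨ a = e ∨ a = d * e) ∧ ∃ u ∈ U, c = a * u) := by
  classical
  obtain ⟨K, hK⟩ := hR.cen d hd
  have facts := Cfsg.Agent.Lib.GoldPSL95.facts (K := K) hn hF hK.2.2
  set q := 3 ^ (2 * n + 1) with hq
  have hq8 : q % 8 = 3 := by
    rw [hq, pow_succ, pow_mul]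
    have h9 : (3 ^ 2) ^ n % 8 = 1 := by
      rw [Nat.pow_mod]; norm_num
    omega
  set m := (q + 1) / 4 with hm
  have hm4 : 4 * m = q + 1 := by omega
  have hmodd : Odd m := by rw [Nat.odd_iff]; omega
  have hd2 := inv_of_order_two hd
  have he2 := inv_of_order_two he
  -- the involution k of K
  obtain ⟨k, hkK, hk, hke⟩ : ∃ k ∈ K, orderOf k = 2 ∧ (k = e ∨ k = d * e) := by
    rcases hK.dec hcomm.symm with h | h
    · exact ⟨e, h, he, Or.inl rfl⟩
    · refine ⟨d * e, h, order_two_of ?_ ?_, Or.inr rfl⟩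
      · calc d * e * (d * e) = d * (e * d) * e := by group
          _ = d * (d * e) * e := by rw [hcomm]
          _ = (d * d) * (e * e) := by group
          _ = 1 := by rw [hd2.1, he2.1, one_mul]
      · intro h1
        apply hde
        rw [mul_eq_one_iff_eq_inv.1 h1, he2.2.2]
  obtain ⟨T, hT1, hT2, hT3, hT4, hT5, hT6, hT7⟩ := facts.inv ⟨k, hkK⟩ (by rw [Subgroup.orderOf_mk]; exact hk)
  obtain ⟨U, hU1, hU2, hU3, hU4⟩ := torusK (K := K) ⟨k, hkK⟩ (by rw [Subgroup.orderOf_mk]; exact hk) T hT1 m hmodd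
    (by omega) hT3 hT4 (by rw [hT5]; omega) hT6 hT7
  have hdd : ∀ c : G, d * (d * c) = c := fun c => by rw [← mul_assoc, hd2.1, one_mul]
  -- commuting with d: commuting with k iff with e
  have hcomke : ∀ g : G, g * d = d * g → (g * k = k * g ↔ g * e = e * g) := by
    intro g hg
    rcases hke with h | h
    · rw [h]
    · rw [h]
      constructor
      · intro h1
        have h2 : d * (g * e) = d * (e * g) := by
          rw [← mul_assoc, ← hg, mul_assoc, h1, mul_assoc]
        exact mul_left_cancel h2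
      · intro h1
        rw [← mul_assoc, hg, mul_assoc, h1, mul_assoc]
  refine ⟨U.map K.subtype, ?_, ?_, ?_, ?_⟩
  · intro g
    constructor
    · rintro ⟨x, hx, rfl⟩
      obtain ⟨h1, h2⟩ := (hU1 x).1 hx
      have h3 : (x : G) * d = d * x := (hK.comm x.2).symm
      refine ⟨h3, (hcomke _ h3).1 (congrArg Subtype.val h1), congrArg Subtype.val h2⟩
    · rintro ⟨h1, h2, h3⟩
      have hgK : g ∈ K := by
        rcases hK.dec h1 with h | h
        · exact h
        · exfalso
          apply hK.nt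
          have h4 : (d * g) ^ m = d := by
            have hc : Commute d g := h1.symm
            rw [hc.mul_pow, h3, mul_one]
            obtain ⟨j, hj⟩ := hmodd
            rw [hj, pow_succ, pow_mul, pow_two, hd2.1, one_pow, one_mul]
          rw [← h4]; exact pow_mem h m
      refine ⟨⟨g, hgK⟩, (hU1 _).2 ⟨Subtype.ext ((hcomke g h1).2 h2), Subtype.ext h3⟩, rfl⟩
  · exact (U.equivMapOfInjective K.subtype K.subtype_injective).isCyclic.1 hU2
  · rw [Subgroup.card_map_of_injective K.subtype_injective, hU3]; exact hm4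
  · rintro _ ⟨w, hw, rfl⟩ hw1 c hcd hcw
    have hw1' : w ≠ 1 := fun h => hw1 (by rw [h]; rfl)
    rcases hK.dec hcd with h | h
    · obtain ⟨a, ha, u, hu, hau⟩ := hU4 w hw hw1' ⟨c, h⟩ (Subtype.ext hcw)
      have hau' : c = (a : G) * u := congrArg Subtype.val hau
      refine ⟨(a : G), ?_, (u : G), ⟨u, hu, rfl⟩, hau'⟩
      rcases ha with rfl | rfl
      · left; rfl
      · rcases hke with h | h
        · right; right; left; exact h
        · right; right; right; exact h
    · have hcw' : (d * c) * (w : G) = (w : G) * (d * c) := by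
        rw [mul_assoc]
        have : c * (w : G) = (w : G) * c := hcw
        rw [this, ← mul_assoc, hK.comm w.2, mul_assoc]
      obtain ⟨a, ha, u, hu, hau⟩ := hU4 w hw hw1' ⟨d * c, h⟩ (Subtype.ext hcw')
      have hau' : d * c = (a : G) * u := congrArg Subtype.val hau
      refine ⟨d * (a : G), ?_, (u : G), ⟨u, hu, rfl⟩, ?_⟩
      · rcases ha with rfl | rfl
        · right; left; exact mul_one d
        · rcases hke with h | h
          · right; right; right; show d * k = d * e; rw [h]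
          · right; right; left; show d * k = e; rw [h, hdd]
      · rw [mul_assoc, ← hau', hdd]

end Cfsg.Agent.Lib.GoldU95
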