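import Cfsg.Agent.Lib.S3Fpf

/-!
Fixed-point-free action of `S₃`, external version (helper59).
-/

set_option autoImplicit false

namespace Cfsg.Agent.Lib.S3Fpf2

open Module Subgroup Cfsg Cfsg.Agent.Lib.ActSemi Cfsg.Agent.Lib.SubgroupTools
open scoped commutatorElement

universe u v w

/-- the action induced on an invariant subgroup -/
theorem exists_restrict {G A : Type*} [Group G] [Group A] (φ : A →* MulAut G)
    (L : Subgroup G) (hL : ∀ a, ∀ x ∈ L, φ a x ∈ L) :
    ∃ ψ : A →* MulAut L, ∀ a (x : L), ((ψ a x : L) : G) = φ a x := by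
  refine ⟨{ toFun := fun a =>
      { toFun := fun x => ⟨φ a x, hL a x x.2⟩
        invFun := fun x => ⟨φ a⁻¹ x, hL a⁻¹ x x.2⟩
        left_inv := ?_
        right_inv := ?_
        map_mul' := ?_ }
            map_one' := ?_
            map_mul' := ?_ }, ?_⟩
  · intro x
    apply Subtype.ext
    change φ a⁻¹ (φ a x) = x
    rw [← MulAut.mul_apply, ← map_mul, inv_mul_cancel, map_one, MulAut.one_apply]
  · intro x
    apply Subtype.ext
    change φ a (φ a⁻¹ x) = x
    rw [← MulAut.mul_apply, ← map_mul, mul_inv_cancel, map_one, MulAut.one_apply]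
  · intro x y
    apply Subtype.ext
    change φ a ((x : G) * y) = φ a x * φ a y
    rw [map_mul]
  · ext x
    change φ 1 (x : G) = x
    rw [map_one, MulAut.one_apply]
  · intro a b
    ext x
    change φ (a * b) (x : G) = φ a (φ b (x : G))
    rw [map_mul, MulAut.mul_apply]
  · intro a x
    rfl

variable {A : Type v} [Group A] [Fintype A]

theorem commutator_eq_bot_ext {K : Type u} [Group K] [Finite K]
    (hKs : Group.IsSolvable K) (φ : A →* MulAut K) (hcop : (Nat.card K).Coprime 6)
    (hAc : Nat.card A = 6) (c : A) (hc3 : c ^ 3 = 1) (hc1 : c ≠ 1)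
    (hAinv : ∀ a : A, a ∉ zpowers c → a ^ 2 = 1 ∧ a * c * a⁻¹ = c⁻¹)
    (hAind : ∀ a b : A, a ∉ zpowers c → b ∉ zpowers c → a * b ∈ zpowers c)
    (hfix : ∀ g, (∀ a, φ a g = g) → g = 1)
    {k : Type w} [Field k] [IsAlgClosed k]
    {W : Type*} [AddCommGroup W] [Module k W] [FiniteDimensional k W]
    (h : K →* Module.End k W) (s : A →* Module.End k W) (hinj : ∀ g, h g = 1 → g = 1)
    (hsh : ∀ a g, s a * h g = h (φ a g) * s a) (hsum : ∑ a, s a = 0)
    (hab : ∀ x ∈ _root_.commutator K, ∀ y ∈ _root_.commutator K, x * y = y * x)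
    (hk : (Nat.card (_root_.commutator K) : k) ≠ 0) : _root_.commutator K = ⊥ := by
  classical
  obtain ⟨H, hH1, hH2⟩ := Ward2.exists_lift φ h s hsh
  have hKGn := KG_normal φ
  have hfin : Fintype (KA φ) := Fintype.ofFinite _
  have hcommKG : ⁅KG φ, KG φ⁆ = up φ (_root_.commutator K) := by
    rw [up, _root_.commutator_def, map_commutator, ← MonoidHom.range_eq_map]
    rfl
  have hzp : ∀ a : A, (SemidirectProduct.inr a : K ⋊[φ] A) ∈ zpowers (SemidirectProduct.inr c) ↔
      a ∈ zpowers c := by
    intro a
    constructor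
    · intro ha
      obtain ⟨n, hn⟩ := mem_zpowers_iff.1 ha
      rw [← map_zpow] at hn
      exact mem_zpowers_iff.2 ⟨n, SemidirectProduct.inr_injective hn⟩
    · intro ha
      obtain ⟨n, hn⟩ := mem_zpowers_iff.1 ha
      exact mem_zpowers_iff.2 ⟨n, by rw [← map_zpow, hn]⟩
  have hmain := S3Fpf.commutator_eq_bot (Γ := K ⋊[φ] A) H (KG φ) (KA φ)
    (Group.isSolvable_of_surjective
      (f := (SemidirectProduct.inl : K →* K ⋊[φ] A).rangeRestrict)
      (MonoidHom.rangeRestrict_surjective _))
    (by
      rintro _ ⟨x, rfl⟩ hx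
      rw [hH1] at hx
      rw [hinj x hx, map_one])
    (by rw [card_KG]; exact hcop) (by rw [card_KA, hAc]) (SemidirectProduct.inr c) ⟨c, rfl⟩
    (by rw [← map_pow, hc3, map_one])
    (fun h0 => hc1 (SemidirectProduct.inr_injective (h0.trans (map_one _).symm)))
    (by
      rintro _ ⟨a, rfl⟩ ha
      obtain ⟨h1, h2⟩ := hAinv a (fun h => ha ((hzp a).2 h))
      refine ⟨by rw [← map_pow, h1, map_one], by rw [← map_inv, ← map_mul, ← map_mul, h2, map_inv]⟩)
    (by
      rintro _ ⟨a, rfl⟩ _ ⟨b, rfl⟩ ha hb
      rw [← map_mul, hzp]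
      exact hAind a b (fun h => ha ((hzp a).2 h)) (fun h => hb ((hzp b).2 h)))
    (by
      rw [eq_bot_iff]
      rintro _ ⟨⟨x, rfl⟩, hx⟩
      rw [mem_bot]
      have : x = 1 := by
        apply hfix
        intro a
        have h2 := mem_centralizer_iff.1 hx (SemidirectProduct.inr a) ⟨a, rfl⟩
        apply SemidirectProduct.inl_injective (φ := φ)
        rw [← conj_inl, h2]
        group
      rw [this, map_one])
    (by
      intro w
      have h1 : ∑ a : KA φ, H (a : K ⋊[φ] A) w = ∑ a : A, s a w := by
        let e : A ≃ KA φ := (MonoidHom.ofInjective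
          (SemidirectProduct.inr_injective (φ := φ))).toEquiv
        have he : ∀ a : A, ((e a : KA φ) : K ⋊[φ] A) = SemidirectProduct.inr a := fun a => rfl
        symm
        exact Fintype.sum_equiv e (fun a : A => s a w) (fun a : KA φ => H (a : K ⋊[φ] A) w)
          (fun a => by rw [he, hH2])
      rw [h1]
      have h3 := congrArg (fun f : Module.End k W => f w) hsum
      simpa [LinearMap.sum_apply] using h3)
    (by
      rw [hcommKG]
      rintro _ ⟨x, hx, rfl⟩ _ ⟨y, hy, rfl⟩
      rw [← map_mul, hab x hx y hy, map_mul])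
    (by rw [hcommKG, card_up]; exact hk)
  rw [hcommKG, up, Subgroup.map_eq_bot_iff_of_injective] at hmain
  · exact hmain
  · exact SemidirectProduct.inl_injective

theorem abelian_of_rep (hAc : Nat.card A = 6) (c : A) (hc3 : c ^ 3 = 1) (hc1 : c ≠ 1)
    (hAinv : ∀ a : A, a ∉ zpowers c → a ^ 2 = 1 ∧ a * c * a⁻¹ = c⁻¹)
    (hAind : ∀ a b : A, a ∉ zpowers c → b ∉ zpowers c → a * b ∈ zpowers c)
    {k : Type w} [Field k] [IsAlgClosed k] {r : ℕ} [CharP k r]
    {W : Type*} [AddCommGroup W] [Module k W] [FiniteDimensional k W] (s : A →* Module.End k W)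
    (hsum : ∑ a, s a = 0) : ∀ n : ℕ, ∀ (K : Type u) [Group K] [Finite K]
    (_ : Group.IsSolvable K) (φ : A →* MulAut K) (_ : (Nat.card K).Coprime 6)
    (_ : ∀ g, (∀ a, φ a g = g) → g = 1)
    (h : K →* Module.End k W) (_ : ∀ g, h g = 1 → g = 1)
    (_ : ∀ a g, s a * h g = h (φ a g) * s a) (_ : ¬ r ∣ Nat.card (_root_.commutator K))
    (_ : Nat.card K ≤ n), _root_.commutator K = ⊥ := by
  intro n
  induction n with
  | zero =>
    intro K _ _ _ φ _ _ _ _ _ _ hcard
    exact absurd hcard (by have := Nat.card_pos (α := K); omega)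
  | succ n ih =>
    intro K _ _ hKs φ hcop hfix h hinj hsh hr hcard
    by_contra hne
    have hnt : Nontrivial K := by
      by_contra hK
      rw [not_nontrivial_iff_subsingleton] at hK
      exact hne (Subsingleton.elim _ _)
    have hlt : _root_.commutator K < ⊤ := Group.IsSolvable.commutator_lt_top_of_nontrivial K
    have hinv : ∀ a, ∀ x ∈ _root_.commutator K, φ a x ∈ _root_.commutator K := fun a x hx =>
      (Subgroup.characteristic_iff_le_comap.1
        (inferInstance : (_root_.commutator K).Characteristic) (φ a)) hx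
    obtain ⟨ψ, hψ⟩ := exists_restrict φ (_root_.commutator K) hinv
    have hc : Nat.card (_root_.commutator K) < Nat.card K := by
      have h1 := Subgroup.card_mul_index (_root_.commutator K)
      have h2 : 1 < (_root_.commutator K).index :=
        Subgroup.one_lt_index_of_ne_top hlt.ne
      have h3 : 0 < Nat.card (_root_.commutator K) := Nat.card_pos
      nlinarith
    have h1 := ih (_root_.commutator K) inferInstance ψ
      (Nat.Coprime.coprime_dvd_left (Subgroup.card_subgroup_dvd_card _) hcop)
      (by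
        intro g hg
        apply Subtype.ext
        apply hfix
        intro a
        rw [← hψ, hg a])
      (h.comp (_root_.commutator K).subtype)
      (by
        intro g hg
        exact Subtype.ext (hinj g hg))
      (by
        intro a g
        change s a * h g = h ((ψ a g : _root_.commutator K) : K) * s a
        rw [hψ]
        exact hsh a g)
      (fun h0 => hr (h0.trans (Subgroup.card_subgroup_dvd_card _)))
      (by omega)
    apply hne
    refine commutator_eq_bot_ext hKs φ hcop hAc c hc3 hc1 hAinv hAind hfix h s hinj hsh hsum ?_ ?_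
    · intro x hx y hy
      have h2 : ⁅(⟨x, hx⟩ : _root_.commutator K), ⟨y, hy⟩⁆ ∈
          _root_.commutator (_root_.commutator K) := commutator_mem_commutator trivial trivial
      rw [h1, mem_bot, commutatorElement_eq_one_iff_mul_comm] at h2
      exact congrArg (Subtype.val : _root_.commutator K → K) h2
    · rwa [Ne, CharP.cast_eq_zero_iff k r]

end Cfsg.Agent.Lib.S3Fpf2
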