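import Cfsg.Agent.Lib.GrossA
import Cfsg.Agent.Lib.FitRed
import Cfsg.Agent.Lib.FpfCop
import Cfsg.Agent.Lib.ClosedRep
import Cfsg.Agent.Lib.S3Fpf2

/-!
Gross' theorem on fixed-point-free automorphisms of order `2^n` (helper59): reduction to the
configuration.
-/

set_option autoImplicit false

namespace Cfsg.Agent.Lib.GrossB

open Module Subgroup Cfsg Cfsg.Agent.Lib.ActSemi Cfsg.Agent.Lib.SubgroupTools
open scoped commutatorElement

universe u v w

section Fit

variable {K : Type u} [Group K] [Finite K]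

/-- a `t`-element of the second Fitting subgroup centralizing `O_q(K)` for all `q ≠ t` lies in
`O_t(K)` -/
theorem mem_pCore {M : Subgroup K} (hM : M.Normal)
    (hMk : ∃ k, M.lowerCentralSeries k ≤ fittingSubgroup K) {t : ℕ} (ht : t.Prime) {c : K}
    (hc : c ∈ M) (hct : IsPGroup t (zpowers c))
    (hcomm : ∀ q : ℕ, q.Prime → q ≠ t → ∀ y ∈ pCore q K, Commute c y) : c ∈ pCore t K := by
  have htf := Fact.mk ht
  have hOn : (pCore t K).Normal := Lib.Fitting.normal_pCore t
  have hOq : ∀ q : ℕ, (pCore q K).Normal := fun q => Lib.Fitting.normal_pCore q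
  let C : Subgroup K := ⨅ q : {q : ℕ // q.Prime ∧ q ≠ t}, centralizer (pCore q.1 K : Set K)
  have hCmem : ∀ x, x ∈ C ↔ ∀ q : ℕ, q.Prime → q ≠ t → ∀ y ∈ pCore q K, y * x = x * y := by
    intro x
    rw [Subgroup.mem_iInf]
    constructor
    · intro h q hq hqt y hy
      exact mem_centralizer_iff.1 (h ⟨q, hq, hqt⟩) y hy
    · rintro h ⟨q, hq, hqt⟩
      exact mem_centralizer_iff.2 (h q hq hqt)
  have hCn : C.Normal := by
    apply Subgroup.normal_iInf_normal
    rintro ⟨q, hq, hqt⟩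
    have := hOq q
    infer_instance
  -- `[F, C] ≤ O_t`
  let N' : Subgroup K :=
    { carrier := {x | ∀ y ∈ C, ⁅x, y⁆ ∈ pCore t K}
      one_mem' := fun y _ => by rw [commutatorElement_one_left]; exact one_mem _
      mul_mem' := by
        intro a b ha hb y hy
        have h1 : ⁅a * b, y⁆ = a * ⁅b, y⁆ * a⁻¹ * ⁅a, y⁆ := by
          simp only [commutatorElement_def]; group
        rw [h1]
        exact mul_mem (hOn.conj_mem _ (hb y hy) a) (ha y hy)
      inv_mem' := by
        intro a ha y hy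
        have h1 : ⁅a⁻¹, y⁆ = a⁻¹ * ⁅a, y⁆⁻¹ * a⁻¹⁻¹ := by
          simp only [commutatorElement_def]; group
        rw [h1]
        exact hOn.conj_mem _ (inv_mem (ha y hy)) a⁻¹ }
  have hFN : fittingSubgroup K ≤ N' := by
    rw [Fitting.fittingSubgroup_eq_iSup_pCore]
    refine iSup_le fun q x hx y hy => ?_
    by_cases hqt : (q : ℕ) = t
    · rw [hqt] at hx
      have h1 : ⁅x, y⁆ = x * (y * x⁻¹ * y⁻¹) := by rw [commutatorElement_def]; group
      rw [h1]
      exact mul_mem hx (hOn.conj_mem _ (inv_mem hx) y)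
    · have h1 : ⁅x, y⁆ = 1 :=
        commutatorElement_eq_one_iff_mul_comm.2 ((hCmem y).1 hy q q.2 hqt x hx)
      rw [h1]
      exact one_mem _
  set P : Subgroup K := M ⊓ C with hP
  have hPn : P.Normal := inferInstance
  obtain ⟨k, hk⟩ := hMk
  have hPk : P.lowerCentralSeries (k + 1) ≤ pCore t K := by
    have h1 : P.lowerCentralSeries k ≤ N' := ((FitRed.lcs_mono inf_le_left k).trans hk).trans hFN
    change ⁅P.lowerCentralSeries k, P⁆ ≤ pCore t K
    rw [commutator_le]
    intro x hx y hy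
    exact h1 hx y hy.2
  -- the quotient
  set π := QuotientGroup.mk' (pCore t K) with hπ
  have hPnil : Group.IsNilpotent (P.map π) := FitRed.isNilpotent_map_of_lcs hPk
  have hPnorm : (P.map π).Normal := hPn.map π (QuotientGroup.mk'_surjective _)
  have hcC : c ∈ C := (hCmem c).2 fun q hq hqt y hy => (hcomm q hq hqt y hy).eq.symm
  have hcP : π c ∈ P.map π := mem_map_of_mem _ ⟨hc, hcC⟩
  have hsub : ∀ (S : Sylow t (P.map π)), ∀ x ∈ (S : Subgroup (P.map π)), x = 1 := by
    intro S x hx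
    have hSn : (S : Subgroup (P.map π)).Normal := inferInstance
    have hSc : (S : Subgroup (P.map π)).Characteristic := S.characteristic_of_normal hSn
    have h1 : (S : Subgroup (P.map π)).map (P.map π).subtype ≤ pCore t (K ⧸ pCore t K) :=
      Fitting.le_pCore t inferInstance (S.2.map _)
    rw [Fitting.pCore_quotient_pCore t] at h1
    have h2 := h1 (mem_map_of_mem _ hx)
    rw [mem_bot] at h2
    exact Subtype.ext h2
  have hz : IsPGroup t (zpowers (⟨π c, hcP⟩ : P.map π)) := by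
    intro g
    obtain ⟨i, hi'⟩ := mem_zpowers_iff.1 g.2
    obtain ⟨m, hm⟩ := hct ⟨c ^ i, zpow_mem (mem_zpowers c) i⟩
    refine ⟨m, Subtype.ext ?_⟩
    rw [Subgroup.coe_pow, ← hi']
    apply Subtype.ext
    rw [Subgroup.coe_pow, Subgroup.coe_zpow]
    change (π c ^ i) ^ t ^ m = 1
    rw [← map_zpow, ← map_pow]
    have h3 := congrArg Subtype.val hm
    change (c ^ i) ^ t ^ m = 1 at h3
    rw [h3, map_one]
  obtain ⟨S, hS⟩ := hz.exists_le_sylow
  have h1 := hsub S _ (hS (mem_zpowers _))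
  have h2 : π c = 1 := congrArg Subtype.val h1
  exact (QuotientGroup.eq_one_iff _).1 h2

end Fit

section Act

variable {K : Type u} [Group K] [Finite K] {A : Type v} [Group A] [Fintype A]

theorem le_fitting (φ : A →* MulAut K) (hcop : (Nat.card A).Coprime (Nat.card K))
    (hAs : Group.IsSolvable A) (hodd : ¬ 2 ∣ Nat.card K) {τ : A} (hτ : τ * τ = 1)
    (hY : ∃ M : Subgroup K, M.Normal ∧ fittingSubgroup K ≤ M ∧
      (∃ k, M.lowerCentralSeries k ≤ fittingSubgroup K) ∧ ∀ g, g⁻¹ * φ τ g ∈ M)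
    (hcomm : ∀ q t : ℕ, q.Prime → t.Prime → q ≠ t → t ≠ 2 → ∀ T : Subgroup K, IsPGroup t T →
      (∀ a, ∀ x ∈ T, φ a x ∈ T) → ∀ x ∈ T, ∀ y ∈ pCore q K, Commute (x⁻¹ * φ τ x) y) :
    ∀ g, g⁻¹ * φ τ g ∈ fittingSubgroup K := by
  obtain ⟨M, hMn, hFM, ⟨k, hk⟩, hMτ⟩ := hY
  have hFn : (fittingSubgroup K).Normal := Fitting.normal_fittingSubgroup
  have hFc : (fittingSubgroup K).Characteristic := FitRed.characteristic_fittingSubgroup K
  have hFinv : ∀ a, ∀ x ∈ fittingSubgroup K, φ a x ∈ fittingSubgroup K := fun a x hx =>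
    (Subgroup.characteristic_iff_le_comap.1 hFc (φ a)) hx
  set π := QuotientGroup.mk' (fittingSubgroup K) with hπ
  have hF2n : (fittingSubgroup (K ⧸ fittingSubgroup K)).Normal := Fitting.normal_fittingSubgroup
  set F₂ : Subgroup K := (fittingSubgroup (K ⧸ fittingSubgroup K)).comap π with hF₂
  have hMF : M ≤ F₂ := by
    rw [hF₂, ← Subgroup.map_le_iff_le_comap]
    exact Fitting.le_fittingSubgroup (hMn.map π (QuotientGroup.mk'_surjective _))
      (FitRed.isNilpotent_map_of_lcs hk)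
  obtain ⟨ψ, hψ⟩ := ActRep.exists_quot φ (fittingSubgroup K) hFinv
  have hF₂inv : ∀ a, ∀ x ∈ F₂, φ a x ∈ F₂ := by
    intro a x hx
    have h1 : (fittingSubgroup (K ⧸ fittingSubgroup K)).Characteristic :=
      FitRed.characteristic_fittingSubgroup _
    have h2 := (Subgroup.characteristic_iff_le_comap.1 h1 (ψ a)) hx
    rw [mem_comap] at h2
    change ψ a (x : K ⧸ fittingSubgroup K) ∈ _ at h2
    rw [hψ] at h2
    exact h2
  have hF₂k : ∃ k, F₂.lowerCentralSeries k ≤ fittingSubgroup K := by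
    have h2 : Group.IsNilpotent (fittingSubgroup (K ⧸ fittingSubgroup K)) :=
      Fitting.isNilpotent_fittingSubgroup
    rw [Subgroup.isNilpotent_iff_lowerCentralSeries] at h2
    obtain ⟨i, hi⟩ := h2
    refine ⟨i, ?_⟩
    have h3 : (F₂.lowerCentralSeries i).map π = ⊥ := by
      rw [map_lowerCentralSeries, hF₂, map_comap_eq_self_of_surjective
        (QuotientGroup.mk'_surjective _), hi]
    rwa [Subgroup.map_eq_bot_iff, QuotientGroup.ker_mk'] at h3
  have hF₂n : F₂.Normal := inferInstance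
  let E : Subgroup K :=
    { carrier := {x | x⁻¹ * φ τ x ∈ fittingSubgroup K}
      one_mem' := by
        change (1 : K)⁻¹ * φ τ 1 ∈ fittingSubgroup K
        rw [map_one, inv_one, one_mul]; exact one_mem _
      mul_mem' := by
        intro a b ha hb
        change (a * b)⁻¹ * φ τ (a * b) ∈ fittingSubgroup K
        have h1 : (a * b)⁻¹ * φ τ (a * b) = b⁻¹ * (a⁻¹ * φ τ a) * b⁻¹⁻¹ * (b⁻¹ * φ τ b) := by
          rw [map_mul]; group
        rw [h1]
        exact mul_mem (hFn.conj_mem _ ha _) hb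
      inv_mem' := by
        intro a ha
        change a⁻¹⁻¹ * φ τ a⁻¹ ∈ fittingSubgroup K
        have h1 : a⁻¹⁻¹ * φ τ a⁻¹ = a * (a⁻¹ * φ τ a)⁻¹ * a⁻¹ := by
          rw [map_inv]; group
        rw [h1]
        exact hFn.conj_mem _ (inv_mem ha) _ }
  have hF₂E : F₂ ≤ E := by
    rw [← subgroupOf_eq_top]
    apply Fitting.eq_top_of_sylow_le
    intro t ht
    have htf := Fact.mk ht
    by_cases ht2 : t = 2
    · refine ⟨⊥, bot_le, ?_⟩
      rw [index_bot, ht2]
      exact fun h => hodd (h.trans (card_subgroup_dvd_card _))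
    obtain ⟨χ, hχ⟩ := S3Fpf2.exists_restrict φ F₂ hF₂inv
    obtain ⟨P, hPt, hPi, hPA⟩ := exists_invariant_sylow χ
      (hcop.coprime_dvd_right (card_subgroup_dvd_card F₂)) (Or.inl hAs) t
    refine ⟨P, ?_, hPi⟩
    intro x hx
    rw [mem_subgroupOf]
    change (x : K)⁻¹ * φ τ x ∈ fittingSubgroup K
    have hT : IsPGroup t (P.map F₂.subtype) := hPt.map _
    have hTA : ∀ a, ∀ x ∈ P.map F₂.subtype, φ a x ∈ P.map F₂.subtype := by
      rintro a _ ⟨y, hy, rfl⟩
      exact ⟨χ a y, hPA a y hy, hχ a y⟩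
    have hxT : (x : K) ∈ P.map F₂.subtype := ⟨x, hx, rfl⟩
    have hcT : (x : K)⁻¹ * φ τ x ∈ P.map F₂.subtype := mul_mem (inv_mem hxT) (hTA τ _ hxT)
    apply Fitting.pCore_le_fittingSubgroup t
    refine mem_pCore hF₂n hF₂k ht (mul_mem (inv_mem x.2) (hF₂inv τ x x.2))
      (hT.to_le (zpowers_le.2 hcT)) ?_
    intro q hq hqt y hy
    exact hcomm q t hq ht hqt ht2 _ hT hTA x hxT y hy
  intro g
  have hc := hF₂E (hMF (hMτ g))
  change (g⁻¹ * φ τ g)⁻¹ * φ τ (g⁻¹ * φ τ g) ∈ fittingSubgroup K at hc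
  have h1 : φ τ (g⁻¹ * φ τ g) = (g⁻¹ * φ τ g)⁻¹ := by
    rw [map_mul, map_inv, ← MulAut.mul_apply, ← map_mul, hτ, map_one, MulAut.one_apply]
    group
  rw [h1, ← mul_inv_rev] at hc
  have h2 : (g⁻¹ * φ τ g) ^ 2 ∈ fittingSubgroup K := by
    rw [pow_two]
    exact (inv_mem_iff).1 hc
  have h3 : Nat.Coprime 2 (Nat.card K) := (Nat.Prime.coprime_iff_not_dvd Nat.prime_two).2 hodd
  obtain ⟨m, hm⟩ := exists_pow_eq_self_of_coprime (n := 2) (x := g⁻¹ * φ τ g)
    (h3.coprime_dvd_right (orderOf_dvd_natCard _))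
  rw [← hm]
  exact pow_mem h2 m

end Act

section Rep

variable {K : Type u} {A : Type v} [Group K] [Finite K] [Group A] [Fintype A]

theorem comm_of_rep (hKs : Group.IsSolvable K) (φ : A →* MulAut K) {σ : A}
    (hgen : ∀ a : A, a ∈ zpowers σ) {n : ℕ} (hn : 0 < n) (ho : orderOf σ = 2 ^ n)
    (hcop : (Nat.card A).Coprime (Nat.card K))
    {k : Type w} [Field k] [IsAlgClosed k] {r : ℕ} (hr : r.Prime) [CharP k r]
    (hk2 : (2 : k) ≠ 0)
    {W : Type*} [AddCommGroup W] [Module k W] [FiniteDimensional k W]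
    (h : K →* Module.End k W) (s : A →* Module.End k W) (hinj : ∀ g, h g = 1 → g = 1)
    (hsh : ∀ a g, s a * h g = h (φ a g) * s a) (hsum : ∑ a, s a = 0)
    {q t : ℕ} (hqp : q.Prime) (ht : t.Prime) (hqt : q ≠ t) (ht2 : t ≠ 2) (hqr : q ≠ r)
    (T : Subgroup K) (hTp : IsPGroup t T) (hTA : ∀ a, ∀ x ∈ T, φ a x ∈ T) :
    ∀ x ∈ T, ∀ y ∈ pCore q K, Commute (x⁻¹ * φ (σ ^ 2 ^ (n - 1)) x) y := by
  classical
  obtain ⟨H, hH1, hH2⟩ := Ward2.exists_lift φ h s hsh
  have hqf := Fact.mk hqp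
  have hKGn := KG_normal φ
  have hchar : (pCore q K).Characteristic := FitRed.characteristic_pCore K q
  have hfin : Fintype (KA φ) := Fintype.ofFinite _
  set τ : A := σ ^ 2 ^ (n - 1) with hτ
  have hconf := GrossA.config (Γ := K ⋊[φ] A) H (KG φ) (KA φ) (up φ (pCore q K)) (up φ T)
    (σ := SemidirectProduct.inr σ) (τ := SemidirectProduct.inr τ) (n := n) (q := q) (t := t)
    (Group.isSolvable_of_surjective
      (f := (SemidirectProduct.inl : K →* K ⋊[φ] A).rangeRestrict)
      (MonoidHom.rangeRestrict_surjective _))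
    (by
      rintro _ ⟨x, rfl⟩ hx
      rw [hH1] at hx
      rw [hinj x hx, map_one])
    (by
      apply le_antisymm
      · rintro _ ⟨a, rfl⟩
        obtain ⟨i, rfl⟩ := mem_zpowers_iff.1 (hgen a)
        rw [map_zpow]
        exact zpow_mem (mem_zpowers _) i
      · rw [zpowers_le]
        exact ⟨σ, rfl⟩) hn
    (by rw [orderOf_injective _ (SemidirectProduct.inr_injective (φ := φ)), ho])
    (by rw [hτ, map_pow])
    (by rw [card_KA, card_KG]; exact hcop)
    (by
      intro w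
      have h1 : ∑ a : KA φ, H (a : K ⋊[φ] A) w = ∑ a : A, s a w := by
        let e : A ≃ KA φ := (MonoidHom.ofInjective
          (SemidirectProduct.inr_injective (φ := φ))).toEquiv
        have he : ∀ a : A, ((e a : KA φ) : K ⋊[φ] A) = SemidirectProduct.inr a := fun a => rfl
        symm
        exact Fintype.sum_equiv e (fun a : A => s a w) (fun a : KA φ => H (a : K ⋊[φ] A) w)
          (fun a => by rw [he, hH2])
      rw [h1]
      have h3 := congrArg (fun f : Module.End k W => f w) hsum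
      simpa [LinearMap.sum_apply] using h3)
    hqp ht hqt ht2
    (by
      intro h0
      rw [CharP.cast_eq_zero_iff k r] at h0
      exact hqr ((Nat.prime_dvd_prime_iff_eq hr hqp).1 h0).symm) hk2
    ((Fitting.isPGroup_pCore (G := K) q).map _) (up_le φ _)
    (by
      rw [le_normalizer_iff]
      rintro _ ⟨g, rfl⟩ _ ⟨x, hx, rfl⟩
      rw [Ward2.conj_inl_inl]
      have hn : (pCore q K).Normal := inferInstance
      exact (inl_mem_up φ).2 (hn.conj_mem x hx g))
    (KA_le_normalizer_up φ fun a x hx =>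
      (Subgroup.characteristic_iff_le_comap.1 hchar (φ a)) hx)
    (hTp.map _) (up_le φ _) (KA_le_normalizer_up φ hTA)
  intro x hx y hy
  have h1 : (SemidirectProduct.inl (x⁻¹ * φ τ x) : K ⋊[φ] A) =
      ⁅(SemidirectProduct.inl x⁻¹ : K ⋊[φ] A), SemidirectProduct.inr τ⁆ := by
    rw [commutatorElement_def, map_mul, ← conj_inl, map_inv, inv_inv]
    simp only [mul_assoc]
  have h2 : (SemidirectProduct.inl (x⁻¹ * φ τ x) : K ⋊[φ] A) ∈
      ⁅up φ T, zpowers (SemidirectProduct.inr τ)⁆ := by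
    rw [h1]
    exact commutator_mem_commutator ((inl_mem_up φ).2 (inv_mem hx)) (mem_zpowers _)
  have h3 := commutator_mem_commutator ((inl_mem_up φ).2 hy) h2
  rw [hconf, mem_bot, commutatorElement_eq_one_iff_mul_comm, ← map_mul, ← map_mul] at h3
  exact (SemidirectProduct.inl_injective h3).symm

end Rep

end Cfsg.Agent.Lib.GrossB
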