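import Cfsg.Agent.Lib.GrossB

/-!
Gross' theorem on fixed-point-free automorphisms of order `2^n` (helper59): `[G, τ] ≤ F₂(G)` for
the involution `τ` of `⟨σ⟩`.
-/

set_option autoImplicit false

namespace Cfsg.Agent.Lib.GrossC

open Module Subgroup Cfsg Cfsg.Agent.Lib.ActSemi Cfsg.Agent.Lib.SubgroupTools
open scoped commutatorElement

universe u v w

/-- `G/N` modulo a nilpotent normal subgroup is centralized by `α` -/
def YP {G : Type*} [Group G] (α : MulAut G) (N : Subgroup G) : Prop :=
  ∃ M : Subgroup G, M.Normal ∧ N ≤ M ∧ (∃ k, M.lowerCentralSeries k ≤ N) ∧ ∀ g, g⁻¹ * α g ∈ M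

theorem YP_top {G : Type*} [Group G] (α : MulAut G) : YP α ⊤ :=
  ⟨⊤, inferInstance, le_rfl, ⟨0, le_top⟩, fun _ => mem_top _⟩

theorem YP_mono {G : Type*} [Group G] {α : MulAut G} {M N : Subgroup G} (hN : N.Normal)
    (hMN : M ≤ N) (h : YP α M) : YP α N := by
  obtain ⟨P, hP, hMP, ⟨k, hk⟩, hPα⟩ := h
  refine ⟨P ⊔ N, inferInstance, le_sup_right, ⟨k, ?_⟩, fun g => mem_sup_left (hPα g)⟩
  have h1 : ((P ⊔ N).lowerCentralSeries k).map (QuotientGroup.mk' N) = ⊥ := by
    have h2 : N.map (QuotientGroup.mk' N) = ⊥ := by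
      rw [Subgroup.map_eq_bot_iff, QuotientGroup.ker_mk']
    rw [map_lowerCentralSeries, Subgroup.map_sup, h2, sup_bot_eq, ← map_lowerCentralSeries,
      Subgroup.map_eq_bot_iff, QuotientGroup.ker_mk']
    exact hk.trans hMN
  rwa [Subgroup.map_eq_bot_iff, QuotientGroup.ker_mk'] at h1

theorem YP_inf {G : Type*} [Group G] {α : MulAut G} {M N : Subgroup G} (hM : YP α M)
    (hN : YP α N) : YP α (M ⊓ N) := by
  obtain ⟨P, hP, hMP, ⟨k, hk⟩, hPα⟩ := hM
  obtain ⟨Q, hQ, hNQ, ⟨l, hl⟩, hQα⟩ := hN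
  refine ⟨P ⊓ Q, inferInstance, inf_le_inf hMP hNQ, ⟨max k l, ?_⟩, fun g =>
    mem_inf.2 ⟨hPα g, hQα g⟩⟩
  exact le_inf (((Subgroup.lowerCentralSeries_antitone _ (le_max_left _ _)).trans
      (FitRed.lcs_mono inf_le_left _)).trans hk)
    (((Subgroup.lowerCentralSeries_antitone _ (le_max_right _ _)).trans
      (FitRed.lcs_mono inf_le_right _)).trans hl)

theorem lcs_comap_le {G H : Type*} [Group G] [Group H] (f : G →* H) (K L : Subgroup H) (i : ℕ)
    (h : K.lowerCentralSeries i ≤ L) : (K.comap f).lowerCentralSeries i ≤ L.comap f := by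
  rw [← Subgroup.map_le_iff_le_comap, map_lowerCentralSeries]
  exact (Lib.FitRed.lcs_mono (Subgroup.map_comap_le f K) i).trans h

theorem YP_comap {G : Type*} [Group G] {N : Subgroup G} [N.Normal] {α : MulAut G}
    {β : MulAut (G ⧸ N)} (h : ∀ g : G, β (g : G ⧸ N) = ((α g : G) : G ⧸ N)) {L : Subgroup (G ⧸ N)}
    (hL : YP β L) : YP α (L.comap (QuotientGroup.mk' N)) := by
  obtain ⟨P, hP, hMP, ⟨k, hk⟩, hPα⟩ := hL
  refine ⟨P.comap (QuotientGroup.mk' N), hP.comap _, Subgroup.comap_mono hMP,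
    ⟨k, lcs_comap_le _ _ _ _ hk⟩, fun g => ?_⟩
  have h1 := hPα (g : G ⧸ N)
  rw [h] at h1
  exact h1

theorem key {A : Type v} [Group A] [Fintype A] {σ : A} (hgen : ∀ a : A, a ∈ zpowers σ) {n : ℕ}
    (hn : 0 < n) (ho : orderOf σ = 2 ^ n) :
    ∀ N : ℕ, ∀ (G : Type u) [Group G] [Finite G] (_ : Group.IsSolvable G)
    (φ : A →* MulAut G) (_ : ∀ g : G, φ σ g = g → g = 1), Nat.card G ≤ N →
    YP (φ (σ ^ 2 ^ (n - 1))) (fittingSubgroup G) := by
  intro N
  induction N with
  | zero =>
    intro G _ _ _ φ _ hcard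
    exact absurd hcard (by have := Nat.card_pos (α := G); omega)
  | succ N ih =>
    intro G _ _ hG φ hfpf hcard
    have h2f : Fact (Nat.Prime 2) := ⟨Nat.prime_two⟩
    set τ : A := σ ^ 2 ^ (n - 1) with hτ
    have hττ : τ * τ = 1 := by
      rw [← pow_two]
      exact (ShultGross.order_pow_prime Nat.prime_two hn ho).1
    have hAc : Nat.card A = 2 ^ n := by
      rw [← ho]
      exact (orderOf_eq_card_of_forall_mem_zpowers hgen).symm
    have hAp : IsPGroup 2 A := IsPGroup.of_card hAc
    have hAs : Group.IsSolvable A := by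
      have : Group.IsNilpotent A := hAp.isNilpotent
      infer_instance
    have hfix' : ∀ (L : Type u) [Group L] (ψ : A →* MulAut L), (∀ g : L, ψ σ g = g → g = 1) →
        ∀ g, (∀ a, ψ a g = g) → g = 1 := fun L _ ψ h g hg => h g (hg σ)
    have hndvd : ¬ 2 ∣ Nat.card G := FpfCop.not_dvd_of_fpf φ hAp (hfix' G φ hfpf)
    by_contra hnot
    have hinv : ∀ N : Subgroup G, N.Characteristic → ∀ a, ∀ x ∈ N, φ a x ∈ N := fun N hNc a x hx =>
      (Subgroup.characteristic_iff_le_comap.1 hNc (φ a)) hx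
    have hquot : ∀ M : Subgroup G, ∀ [M.Normal], M.Characteristic → M ≠ ⊥ →
        ∀ ψ : A →* MulAut (G ⧸ M), (∀ a (g : G), ψ a (g : G ⧸ M) = ((φ a g : G) : G ⧸ M)) →
        YP (ψ τ) (fittingSubgroup (G ⧸ M)) := by
      intro M _ hMc hMb ψ hψ
      refine ih (G ⧸ M) inferInstance ψ
        (FpfQuot.quot_fpf (φ σ) hfpf M (hinv M hMc σ) (ψ σ) (hψ σ)) ?_
      have h1 := M.card_eq_card_quotient_mul_card_subgroup
      have h2 : 1 < Nat.card M := by
        rw [Subgroup.one_lt_card_iff_ne_bot]; exact hMb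
      have h3 : 0 < Nat.card (G ⧸ M) := Nat.card_pos
      nlinarith
    obtain ⟨r, hr, hFr, hPp, hPb, hPc, hPexp, -, hcent⟩ := FitRed.fit_red
      (YP (φ τ)) (YP_top _)
      (fun M M' _ hN hMN hM => YP_mono hN hMN hM) (fun M M' _ _ hM hM' => YP_inf hM hM')
      (by
        intro M hMc hMb
        have hMn : M.Normal := inferInstance
        obtain ⟨ψ, hψ⟩ := ActRep.exists_quot φ M (hinv M hMc)
        have h1 := hquot M hMc hMb ψ hψ
        have hFn : (fittingSubgroup (G ⧸ M)).Normal := Fitting.normal_fittingSubgroup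
        refine ⟨(fittingSubgroup (G ⧸ M)).comap (QuotientGroup.mk' M), inferInstance, ?_,
          YP_comap (hψ τ) h1, ?_⟩
        · have h2 := MonoidHom.ker_le_comap (QuotientGroup.mk' M) (fittingSubgroup (G ⧸ M))
          rwa [QuotientGroup.ker_mk'] at h2
        · have h2 : Group.IsNilpotent (fittingSubgroup (G ⧸ M)) := Fitting.isNilpotent_fittingSubgroup
          rw [Subgroup.isNilpotent_iff_lowerCentralSeries] at h2
          obtain ⟨i, hi⟩ := h2
          refine ⟨i, ?_⟩
          have h3 : (((fittingSubgroup (G ⧸ M)).comap (QuotientGroup.mk' M)).lowerCentralSeries i).map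
              (QuotientGroup.mk' M) = ⊥ := by
            rw [map_lowerCentralSeries, map_comap_eq_self_of_surjective
              (QuotientGroup.mk'_surjective M), hi]
          rwa [Subgroup.map_eq_bot_iff, QuotientGroup.ker_mk'] at h3)
      hnot
    have := Fact.mk hr
    have hPchar : (pCore r G).Characteristic := FitRed.characteristic_pCore G r
    have hPn : (pCore r G).Normal := inferInstance
    have hPinv := hinv _ hPchar
    obtain ⟨k, _, _, _, W, _, _, _, h, s, hker, hsh, hsum⟩ := ClosedRep.exists_closed_rep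
      φ (pCore r G) hPinv hPc r hPexp
    obtain ⟨ψ, hψ⟩ := ActRep.exists_quot φ (pCore r G) hPinv
    have hker' : pCore r G ≤ h.ker := by
      intro x hx
      rw [MonoidHom.mem_ker, hker, hcent]
      exact hx
    let hb : (G ⧸ pCore r G) →* Module.End k W := QuotientGroup.lift (pCore r G) h hker'
    have hb1 : ∀ g : G, hb (g : G ⧸ pCore r G) = h g := fun g => rfl
    have hbinj : ∀ x, hb x = 1 → x = 1 := by
      intro x
      induction x using QuotientGroup.induction_on with | H g => ?_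
      intro hg
      rw [hb1, hker, hcent] at hg
      exact (QuotientGroup.eq_one_iff _).2 hg
    have hbsh : ∀ a x, s a * hb x = hb (ψ a x) * s a := by
      intro a x
      induction x using QuotientGroup.induction_on with | H g => ?_
      rw [hψ, hb1, hb1]
      exact hsh a g
    have hs0 : ∑ a, s a = 0 := by
      exact hsum A (fun a => a) Set.univ
          (fun b _ => ⟨Equiv.mulLeft b, fun i => rfl⟩)
          (fun x _ hx => hfpf x (hx σ trivial))
    have hψfix : ∀ x, ψ σ x = x → x = 1 :=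
      FpfQuot.quot_fpf (φ σ) hfpf (pCore r G) (hPinv σ) (ψ σ) (hψ σ)
    have hr2 : r ≠ 2 := by
      rintro rfl
      have h1 : 2 ∣ Nat.card (pCore 2 G) := by
        obtain ⟨m, hm⟩ := IsPGroup.iff_card.1 hPp
        rw [hm]
        apply dvd_pow_self
        rintro rfl
        rw [pow_zero] at hm
        exact hPb (Subgroup.card_eq_one.1 hm)
      exact hndvd (h1.trans (Subgroup.card_subgroup_dvd_card _))
    have hndvdK : ¬ 2 ∣ Nat.card (G ⧸ pCore r G) := fun h0 =>
      hndvd (h0.trans (card_quotient_dvd_card _))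
    have hcopK : (Nat.card A).Coprime (Nat.card (G ⧸ pCore r G)) := by
      rw [hAc]
      exact Nat.Coprime.pow_left n ((Nat.Prime.coprime_iff_not_dvd Nat.prime_two).2 hndvdK)
    have hk2 : (2 : k) ≠ 0 := by
      intro h0
      have h1 : ((2 : ℕ) : k) = 0 := by exact_mod_cast h0
      rw [CharP.cast_eq_zero_iff k r, Nat.prime_dvd_prime_iff_eq hr Nat.prime_two] at h1
      exact hr2 h1
    have hfin := GrossB.le_fitting ψ hcopK hAs hndvdK hττ (hquot (pCore r G) hPchar hPb ψ hψ)
      (by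
        intro q t hq ht hqt ht2 T hT hTA
        by_cases hqr : q = r
        · intro x _ y hy
          rw [hqr, Fitting.pCore_quotient_pCore r, mem_bot] at hy
          rw [hy]
          exact Commute.one_right _
        exact GrossB.comm_of_rep (K := G ⧸ pCore r G) inferInstance ψ hgen hn ho hcopK (k := k) hr hk2 hb s
          hbinj hbsh hs0 hq ht hqt ht2 hqr T hT hTA)
    apply hnot
    have hFn : (fittingSubgroup (G ⧸ pCore r G)).Normal := Fitting.normal_fittingSubgroup
    refine ⟨(fittingSubgroup (G ⧸ pCore r G)).comap (QuotientGroup.mk' (pCore r G)),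
      hFn.comap _, ?_, ?_, ?_⟩
    · rw [hFr]
      have h2 := MonoidHom.ker_le_comap (QuotientGroup.mk' (pCore r G))
        (fittingSubgroup (G ⧸ pCore r G))
      rwa [QuotientGroup.ker_mk'] at h2
    · have h2 : Group.IsNilpotent (fittingSubgroup (G ⧸ pCore r G)) :=
        Fitting.isNilpotent_fittingSubgroup
      rw [Subgroup.isNilpotent_iff_lowerCentralSeries] at h2
      obtain ⟨i, hi⟩ := h2
      refine ⟨i, ?_⟩
      have h3 := lcs_comap_le (QuotientGroup.mk' (pCore r G)) (fittingSubgroup (G ⧸ pCore r G)) ⊥ i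
        hi.le
      rw [MonoidHom.comap_bot, QuotientGroup.ker_mk'] at h3
      exact h3.trans hFr.ge
    · intro g
      have h1 := hfin (g : G ⧸ pCore r G)
      rw [hψ] at h1
      exact h1

end Cfsg.Agent.Lib.GrossC
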