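import Mathlib

/-! Grün's lemma. -/

set_option autoImplicit false

namespace Cfsg.Agent.Lib.Grun

open scoped commutatorElement

/-- In a perfect group, an element centralising everything modulo the centre is central. -/
theorem mem_center_of_perfect {G : Type*} [Group G] (hG : commutator G = ⊤) (g : G)
    (h : ∀ x, g * x * (x * g)⁻¹ ∈ Subgroup.center G) : g ∈ Subgroup.center G := by
  let φ : G →* Subgroup.center G :=
    { toFun := fun x => ⟨g * x * (x * g)⁻¹, h x⟩
      map_one' := by apply Subtype.ext; simp
      map_mul' := by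
        intro x y
        apply Subtype.ext
        show g * (x * y) * (x * y * g)⁻¹ = g * x * (x * g)⁻¹ * (g * y * (y * g)⁻¹)
        have hy := Subgroup.mem_center_iff.1 (h y) x
        calc g * (x * y) * (x * y * g)⁻¹
            = (g * x * (x * g)⁻¹) * (x * (g * y * (y * g)⁻¹) * x⁻¹) := by group
          _ = (g * x * (x * g)⁻¹) * ((g * y * (y * g)⁻¹) * x * x⁻¹) := by rw [hy]
          _ = g * x * (x * g)⁻¹ * (g * y * (y * g)⁻¹) := by group }
  have hk : commutator G ≤ φ.ker := by
    rw [commutator_def, Subgroup.commutator_le]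
    intro a _ b _
    rw [MonoidHom.mem_ker, map_commutatorElement, commutatorElement_eq_one_iff_mul_comm]
    apply Subtype.ext
    exact Subgroup.mem_center_iff.1 (φ b).2 (φ a).1
  rw [Subgroup.mem_center_iff]
  intro x
  have hx : x ∈ φ.ker := hk (by rw [hG]; trivial)
  have h1 : g * x * (x * g)⁻¹ = 1 := congrArg Subtype.val ((MonoidHom.mem_ker).1 hx)
  exact (mul_inv_eq_one.1 h1).symm

end Cfsg.Agent.Lib.Grun
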