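import Cfsg.Agent.Lib.ChevAuto
import Cfsg.Agent.Lib.ChevOkG2

/-!
The 63 long root vectors of the Lie algebra of type `G₂` over the field of two elements (helper10).
-/

set_option autoImplicit false

namespace Cfsg.Agent.Lib.H10G2U3

open Cfsg Cfsg.Lie Matrix

/-- the long root vectors, 14-bit codes -/
def VE : List ℕ := [10880, 11220, 14976, 14318, 9557, 13932, 15327, 184, 14073, 8149, 9309, 7608, 14199, 4107, 9288, 188, 12219, 398, 506, 11257, 8066, 340, 12555, 15222, 7671, 4795, 502, 10917, 4096, 264, 4644, 15805, 9544, 7499, 7998, 12015, 12288, 15616, 386, 12, 348, 4239, 256, 15610, 8192, 8448, 8, 11998, 14885, 8045, 4772, 4, 8197, 4671, 15435, 7424, 12674, 4224, 8461, 12162, 132, 12421, 128]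

/-- columns of the fundamental root matrices -/
def XC : List (List ℕ) := [[1, 6, 4, 8, 16, 32, 64, 128, 264, 512, 1040, 2080, 4224, 8197], [9, 10, 4, 8, 16, 32, 64, 132, 256, 528, 1024, 2112, 4107, 8448], [17, 2, 4, 8, 16, 36, 72, 128, 256, 516, 1032, 2066, 4644, 9288], [33, 34, 4, 8, 20, 32, 68, 128, 340, 640, 1059, 2176, 4096, 10880], [1, 66, 4, 8, 24, 40, 64, 184, 256, 577, 1280, 2304, 7424, 8192], [129, 2, 4, 12, 16, 32, 96, 128, 386, 512, 1536, 2048, 4096, 12288], [257, 2, 12, 8, 16, 96, 64, 386, 256, 1536, 1024, 2048, 12288, 8192], [1, 514, 4, 184, 144, 160, 577, 128, 7424, 512, 5120, 6144, 4096, 8192], [1025, 1026, 340, 8, 272, 1059, 320, 10880, 256, 8704, 1024, 10240, 4096, 8192], [2049, 2, 4644, 9288, 2066, 4128, 8256, 128, 256, 4608, 9216, 2048, 4096, 8192], [4097, 4098, 132, 4107, 528, 32, 2112, 128, 8448, 512, 1024, 2048, 4096, 8192], [1, 8194, 8197, 264, 1040, 2080, 64, 4224, 256, 512, 1024,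 2048, 4096, 8192]]

/-- action of the root elements on the long root vectors -/
def TT : List (List ℕ) := [[27, 19, 48, 12, 32, 8, 23, 7, 5, 49, 14, 55, 3, 41, 10, 15, 59, 38, 26, 1, 34, 40, 56, 6, 33, 53, 18, 0, 57, 42, 50, 37, 4, 24, 20, 47, 61, 31, 17, 39, 21, 13, 29, 54, 52, 58, 46, 35, 2, 9, 30, 51, 44, 25, 43, 11, 22, 28, 45, 16, 60, 36, 62], [1, 0, 6, 8, 10, 12, 2, 15, 3, 20, 4, 24, 5, 28, 32, 7, 35, 38, 26, 27, 9, 21, 36, 48, 11, 50, 18, 19, 13, 29, 53, 43, 14, 55, 49, 16, 22, 54, 17, 39, 40, 57, 42, 31, 45, 44, 46, 59, 23, 34, 25, 51, 58, 30, 37, 33, 61, 41, 52, 47, 62, 56, 60], [47, 59, 43, 56, 58, 36, 31, 15, 61, 24, 52, 20, 22, 53, 44, 7, 19, 17, 26, 16, 11, 40, 12, 37, 9, 41, 18, 35, 30, 29, 28, 6, 45, 49, 55, 27, 5, 23, 38, 39, 21, 25, 42, 2, 14, 32, 46, 0, 54, 33, 57, 51, 10, 13, 48, 34, 3, 50, 4, 1, 60, 8, 62], [44, 45, 36, 31, 59, 54, 22, 15, 43, 20, 47, 33, 37, 13, 35, 7, 32, 18, 17, 58, 9,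 42, 6, 56, 55, 53, 38, 52, 28, 40, 50, 3, 16, 11, 49, 14, 2, 12, 26, 39, 29, 41, 21, 8, 0, 1, 46, 10, 61, 34, 30, 51, 27, 25, 5, 24, 23, 57, 19, 4, 60, 48, 62], [19, 27, 8, 6, 10, 48, 3, 62, 2, 50, 4, 57, 23, 33, 32, 60, 59, 26, 38, 0, 25, 40, 54, 12, 41, 20, 17, 1, 55, 29, 49, 61, 14, 13, 53, 47, 37, 36, 18, 39, 21, 24, 42, 56, 44, 45, 46, 35, 5, 30, 9, 51, 52, 34, 22, 28, 43, 11, 58, 16, 15, 31, 7], [2, 23, 0, 32, 12, 14, 19, 15, 10, 24, 8, 34, 4, 41, 5, 7, 31, 29, 40, 6, 55, 26, 58, 1, 9, 53, 21, 48, 28, 17, 30, 16, 3, 49, 11, 54, 44, 59, 42, 46, 18, 13, 38, 47, 36, 56, 39, 43, 27, 33, 50, 51, 61, 25, 35, 20, 45, 57, 22, 37, 60, 52, 62], [59, 47, 20, 50, 10, 30, 9, 18, 25, 6, 4, 43, 53, 22, 14, 26, 19, 60, 7, 16, 2, 40, 13, 34, 31, 8, 15, 35, 36, 29, 5, 24, 32, 54, 23, 27, 28, 55, 62, 51, 21, 61, 42, 11, 44, 45, 46, 1, 49, 48, 3, 39, 58, 12, 33, 37, 57, 56, 52, 0, 17, 41, 38], [2, 4, 0, 6, 1, 10, 3, 46,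 14, 21, 5, 29, 23, 25, 8, 39, 22, 34, 33, 32, 38, 9, 16, 12, 26, 13, 24, 48, 28, 11, 50, 58, 19, 18, 17, 47, 36, 45, 20, 15, 49, 53, 55, 54, 44, 37, 7, 35, 27, 40, 30, 51, 52, 41, 43, 42, 59, 57, 31, 56, 60, 61, 62], [62, 60, 57, 31, 52, 53, 41, 16, 43, 61, 58, 25, 30, 13, 32, 35, 7, 47, 19, 18, 56, 51, 22, 48, 50, 11, 27, 26, 28, 29, 12, 3, 14, 54, 49, 15, 36, 55, 59, 40, 39, 6, 42, 8, 44, 45, 46, 17, 23, 34, 24, 21, 4, 5, 33, 37, 20, 2, 10, 38, 1, 9, 0], [2, 26, 0, 17, 12, 39, 31, 43, 25, 24, 53, 18, 4, 54, 46, 47, 19, 3, 11, 16, 59, 23, 33, 21, 9, 8, 1, 61, 28, 32, 51, 6, 29, 22, 40, 41, 36, 55, 38, 5, 34, 35, 42, 7, 44, 45, 14, 15, 52, 58, 60, 30, 48, 10, 13, 37, 56, 57, 49, 20, 50, 27, 62], [0, 21, 2, 49, 9, 35, 40, 25, 43, 4, 47, 16, 24, 46, 54, 53, 11, 58, 19, 18, 59, 1, 29, 26, 12, 7, 23, 48, 28, 22, 50, 34, 33, 32, 31, 5, 36, 55, 56, 41, 6, 39, 45, 8, 44, 42, 13, 10, 27, 3, 30, 60, 61, 15, 14, 37,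 38, 57, 17, 20, 51, 52, 62], [2, 9, 0, 35, 21, 49, 47, 11, 19, 1, 40, 7, 23, 22, 32, 31, 25, 41, 43, 8, 59, 4, 13, 12, 26, 16, 24, 50, 28, 46, 48, 15, 14, 54, 53, 3, 36, 37, 56, 58, 10, 17, 42, 18, 44, 45, 29, 6, 30, 5, 27, 52, 51, 34, 33, 55, 38, 62, 39, 20, 61, 60, 57]]

/-- basis vectors as sums of long root vectors -/
def CB : List (List ℕ) := [[0, 1, 2, 3, 4, 6, 8, 14], [4, 5, 7, 12, 14, 15], [7, 15], [3, 5, 7, 8, 12, 15], [0, 1, 2, 3, 4, 6, 7, 8, 10, 15], [0, 1, 2, 4, 6, 7, 8, 12, 14], [2, 5, 6, 7, 12, 15], [5, 8, 10, 14], [3, 4, 5, 7, 8, 10, 12, 15], [1, 4, 5, 6, 8, 12, 15], [1, 2, 4, 5, 6, 7, 8, 14, 16], [0, 3, 5, 6, 7, 10, 12, 14, 15, 16], [0, 2], [1, 3, 4, 5, 7, 16]]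

def bit (c n : ℕ) : ZMod 2 := cond (Nat.testBit c n) 1 0

theorem bit_xor (a b n : ℕ) : bit (a ^^^ b) n = bit a n + bit b n := by
  unfold bit
  rw [Nat.testBit_xor]
  cases Nat.testBit a n <;> cases Nat.testBit b n <;> decide

theorem bit_zero (n : ℕ) : bit 0 n = 0 := by
  unfold bit
  rw [Nat.zero_testBit]; rfl

theorem bit_cond (b : Bool) (m n : ℕ) : bit (cond b m 0) n = cond b 1 0 * bit m n := by
  cases b
  · show bit 0 n = 0 * _
    rw [bit_zero, zero_mul]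
  · show bit m n = 1 * _
    rw [one_mul]

/-- matrix times vector -/
def app (m : ℕ → ℕ) (c : ℕ) : ℕ → ℕ
  | 0 => 0
  | n + 1 => app m c n ^^^ cond (Nat.testBit c n) (m n) 0

theorem bit_app (m : ℕ → ℕ) (c k : ℕ) : ∀ n, bit (app m c n) k = ∑ j ∈ Finset.range n, bit (m j) k * bit c j
  | 0 => by rw [Finset.sum_range_zero]; exact bit_zero k
  | n + 1 => by
    rw [Finset.sum_range_succ, ← bit_app m c k n]
    show bit (app m c n ^^^ cond (Nat.testBit c n) (m n) 0) k = _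
    rw [bit_xor, bit_cond, mul_comm (bit (m n) k)]
    rfl

def ix : chevG2.Idx → ℕ
  | Sum.inl i => i.val
  | Sum.inr s => 2 + s.val

def mc (r j : ℕ) : ℕ := (XC.getD r []).getD j 0

def dec (c : ℕ) : chevG2.Idx → ZMod 2 := fun k => bit c (ix k)

theorem sum_ix {M : Type*} [AddCommMonoid M] (h : ℕ → M) : ∑ j : chevG2.Idx, h (ix j) = ∑ j ∈ Finset.range 14, h j := by
  rw [Fintype.sum_sum_type, show (14 : ℕ) = 2 + 12 from rfl, Finset.sum_range_add, ← Fin.sum_univ_eq_sum_range,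
    ← Fin.sum_univ_eq_sum_range]
  rfl

/-- boolean check of an entry -/
def xb (r : Fin 12) (i j : Fin 2 ⊕ Fin 12) : Bool :=
  decide (chevG2.x (ZMod 2) r 1 (i : chevG2.Idx) (j : chevG2.Idx) = bit (mc r (ix j)) (ix i))

theorem xb_ok : ∀ (r : Fin 12) (i j : Fin 2 ⊕ Fin 12), xb r i j = true := by
  decide +kernel

theorem x_entry (r : Fin 12) (i j : chevG2.Idx) : chevG2.x (ZMod 2) r 1 i j = bit (mc r (ix j)) (ix i) :=
  of_decide_eq_true (xb_ok r i j)

theorem x_mulVec (r : Fin 12) (c : ℕ) : chevG2.x (ZMod 2) r 1 *ᵥ dec c = dec (app (mc r) c 14) := by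
  funext i
  show ∑ j : chevG2.Idx, chevG2.x (ZMod 2) r 1 i j * dec c j = bit (app (mc r) c 14) (ix i)
  rw [bit_app, ← sum_ix (fun j => bit (mc r j) (ix i) * bit c j)]
  exact Finset.sum_congr rfl fun j _ => by rw [x_entry]; rfl

def ve (i : ℕ) : ℕ := VE.getD i 0
def tr (r i : ℕ) : ℕ := (TT.getD r []).getD i 0

theorem app_ok : (List.range 12).all (fun r => (List.range 63).all fun i =>
    Nat.beq (app (mc r) (ve i) 14) (ve (tr r i)) && Nat.blt (tr r i) 63) = true := by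
  decide +kernel

theorem app_eq {r i : ℕ} (hr : r < 12) (hi : i < 63) : app (mc r) (ve i) 14 = ve (tr r i) ∧ tr r i < 63 := by
  have h := app_ok
  rw [List.all_eq_true] at h
  have h := h r (List.mem_range.mpr hr)
  rw [List.all_eq_true] at h
  have h := h i (List.mem_range.mpr hi)
  rw [Bool.and_eq_true] at h
  exact ⟨Nat.beq_eq.mp h.1, Nat.blt_eq.mp h.2⟩

theorem ve_inj_ok : (List.range 63).all (fun i => (List.range i).all fun j => !(Nat.beq (ve i) (ve j))) = true := by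
  decide +kernel

theorem ve_lt_ok : (List.range 63).all (fun i => Nat.blt (ve i) 16384) = true := by decide +kernel

theorem ve_inj {i j : ℕ} (hi : i < 63) (hj : j < 63) (h : ve i = ve j) : i = j := by
  have key : ∀ {i j : ℕ}, i < 63 → j < i → ve i ≠ ve j := by
    intro i j hi hj he
    have h := ve_inj_ok
    rw [List.all_eq_true] at h
    have h := h i (List.mem_range.mpr hi)
    rw [List.all_eq_true] at h
    have h := h j (List.mem_range.mpr hj)
    rw [he] at h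
    simp at h
  rcases lt_trichotomy i j with h1 | h1 | h1
  · exact absurd h.symm (key hj h1)
  · exact h1
  · exact absurd h (key hi h1)

theorem dec_inj {c d : ℕ} (hc : c < 16384) (hd : d < 16384) (h : dec c = dec d) : c = d := by
  apply Nat.eq_of_testBit_eq
  intro n
  by_cases hn : n < 14
  · have key : bit c n = bit d n := by
      by_cases h2 : n < 2
      · exact congrFun h (Sum.inl ⟨n, h2⟩)
      · have := congrFun h (Sum.inr ⟨n - 2, by show n - 2 < 12; omega⟩)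
        have h3 : bit c (2 + (n - 2)) = bit d (2 + (n - 2)) := this
        rwa [show 2 + (n - 2) = n by omega] at h3
    unfold bit at key
    cases h1 : Nat.testBit c n <;> cases h2 : Nat.testBit d n <;> rw [h1, h2] at key <;> revert key <;> decide
  · have h14 : 16384 ≤ 2 ^ n := by
      rw [show (16384 : ℕ) = 2 ^ 14 by norm_num]
      exact Nat.pow_le_pow_right (by norm_num) (by omega)
    rw [Nat.testBit_lt_two_pow (lt_of_lt_of_le hc h14), Nat.testBit_lt_two_pow (lt_of_lt_of_le hd h14)]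

theorem ve_lt {i : ℕ} (hi : i < 63) : ve i < 16384 := by
  have h := ve_lt_ok
  rw [List.all_eq_true] at h
  exact Nat.blt_eq.mp (h i (List.mem_range.mpr hi))

/-- xor of a list -/
def xl : List ℕ → ℕ
  | [] => 0
  | i :: l => ve i ^^^ xl l

theorem cb_ok : (List.range 14).all (fun j => Nat.beq (xl (CB.getD j [])) (Nat.shiftLeft 1 j) &&
    (CB.getD j []).all fun i => Nat.blt i 63) = true := by decide +kernel

theorem dec_xl (l : List ℕ) : dec (xl l) = (l.map fun i => dec (ve i)).sum := by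
  induction l with
  | nil => funext k; exact bit_zero _
  | cons i l ih =>
    rw [List.map_cons, List.sum_cons, ← ih]
    funext k
    exact bit_xor _ _ _

theorem dec_basis (k : chevG2.Idx) : dec (Nat.shiftLeft 1 (ix k)) = Pi.single k 1 := by
  revert k
  have : ∀ k j : Fin 2 ⊕ Fin 12, decide (dec (Nat.shiftLeft 1 (ix k)) j = (Pi.single k 1 : chevG2.Idx → ZMod 2) j) = true := by
    decide +kernel
  intro k
  funext j
  exact of_decide_eq_true (this k j)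

theorem ix_lt (k : chevG2.Idx) : ix k < 14 := by
  rcases k with k | k
  · have : k.val < 2 := k.2
    show k.val < 14; omega
  · have : k.val < 12 := k.2
    show 2 + k.val < 14; omega

theorem cb_eq (k : chevG2.Idx) : xl (CB.getD (ix k) []) = Nat.shiftLeft 1 (ix k) ∧ ∀ i ∈ CB.getD (ix k) [], i < 63 := by
  have h := cb_ok
  rw [List.all_eq_true] at h
  have h := h (ix k) (List.mem_range.mpr (ix_lt k))
  rw [Bool.and_eq_true, List.all_eq_true] at h
  exact ⟨Nat.beq_eq.mp h.1, fun i hi => Nat.blt_eq.mp (h.2 i hi)⟩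

/-- two matrices agreeing on the root vectors are equal -/
theorem eq_of_agree {A B : Matrix chevG2.Idx chevG2.Idx (ZMod 2)} (h : ∀ i < 63, A *ᵥ dec (ve i) = B *ᵥ dec (ve i)) : A = B := by
  have key : ∀ l : List ℕ, (∀ i ∈ l, i < 63) → A *ᵥ (l.map fun i => dec (ve i)).sum = B *ᵥ (l.map fun i => dec (ve i)).sum := by
    intro l hl
    induction l with
    | nil => rw [List.map_nil, List.sum_nil, mulVec_zero, mulVec_zero]
    | cons i l ih =>
      rw [List.map_cons, List.sum_cons, mulVec_add, mulVec_add, h i (hl i (List.mem_cons_self ..)),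
        ih fun j hj => hl j (List.mem_cons_of_mem _ hj)]
  refine Matrix.ext fun i k => ?_
  obtain ⟨h1, h2⟩ := cb_eq k
  have h3 := key _ h2
  rw [← dec_xl, h1, dec_basis, mulVec_single_one, mulVec_single_one] at h3
  exact congrFun h3 i

end Cfsg.Agent.Lib.H10G2U3
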