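import Cfsg.Agent.Lib.H10G2U3a
import Cfsg.Agent.Lib.H58J2U3c
import Cfsg.Agent.Lib.SUTransport
import Cfsg.Agent.S1059
import Cfsg.Agent.S0283

/-!
The commutator subgroup of `G₂(2)` is `SU(3,3)` (helper10).
-/

set_option autoImplicit false

namespace Cfsg.Agent.Lib.H10G2U3

open Cfsg Cfsg.Lie Matrix Cfsg.Agent.Lib.ChevRel Cfsg.Agent.Lib.H58J2 Cfsg.Agent.Lib.H58F9

universe u

variable {F : Type u} [Field F] (e : ZMod 2 ≃+* F)

/-- the root vectors over `F` -/
def ev (i : ℕ) : chevG2.Idx → F := fun k => e (dec (ve i) k)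

theorem ev_mulVec {r i : ℕ} (hr : r < 12) (hi : i < 63) : chevG2.x F r 1 *ᵥ ev e i = ev e (tr r i) := by
  have h1 : chevG2.x F r 1 = (chevG2.x (ZMod 2) r 1).map (e : ZMod 2 →+* F) := by
    rw [ChevAuto.x_map ChevOkG2.good, map_one]
  funext k
  have h2 := RingHom.map_mulVec (e : ZMod 2 →+* F) (chevG2.x (ZMod 2) r 1) (dec (ve i)) k
  have h3 := x_mulVec ⟨r, hr⟩ (ve i)
  rw [(app_eq hr hi).1] at h3
  rw [h3] at h2
  rw [h1]
  exact h2.symm

theorem ev_inj {i j : ℕ} (hi : i < 63) (hj : j < 63) (h : ev e i = ev e j) : i = j := by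
  apply ve_inj hi hj
  apply dec_inj (ve_lt hi) (ve_lt hj)
  funext k
  exact e.injective (congrFun h k)

theorem eq_of_agree' {A B : Matrix chevG2.Idx chevG2.Idx F} (h : ∀ i < 63, A *ᵥ ev e i = B *ᵥ ev e i) : A = B := by
  have h1 : ∀ M : Matrix chevG2.Idx chevG2.Idx F, (M.map (e.symm : F →+* ZMod 2)).map (e : ZMod 2 →+* F) = M := by
    intro M
    ext i j
    simp
  have h2 : ∀ (M : Matrix chevG2.Idx chevG2.Idx F) (i : ℕ) (k : chevG2.Idx),
      ((M.map (e.symm : F →+* ZMod 2)) *ᵥ dec (ve i)) k = e.symm ((M *ᵥ ev e i) k) := by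
    intro M i k
    have h3 := RingHom.map_mulVec (e.symm : F →+* ZMod 2) M (ev e i) k
    have h4 : ((e.symm : F →+* ZMod 2) : F → ZMod 2) ∘ ev e i = dec (ve i) := by
      funext k
      show e.symm (e (dec (ve i) k)) = _
      rw [RingEquiv.symm_apply_apply]
    rw [h4] at h3
    exact h3.symm
  rw [← h1 A, ← h1 B]
  congr 1
  apply eq_of_agree
  intro i hi
  funext k
  rw [h2, h2, h i hi]

/-- compatibility of a matrix of the Chevalley group and a unitary matrix -/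
def Rel (g : GL chevG2.Idx F) (s : S3u) : Prop := ∀ i : Fin 63, ∃ (j : Fin 63) (c : F9),
  (g : Matrix chevG2.Idx chevG2.Idx F) *ᵥ ev e i = ev e j ∧ s.1.1 *ᵥ vt i = c • vt j

theorem Rel.one : Rel e 1 1 := by
  intro i
  refine ⟨i, 1, ?_, ?_⟩
  · show (1 : Matrix chevG2.Idx chevG2.Idx F) *ᵥ _ = _
    rw [one_mulVec]
  · show (1 : Matrix (Fin 3) (Fin 3) F9) *ᵥ vt i = _
    rw [one_mulVec, one_smul]

variable {e}

theorem Rel.mul {g h : GL chevG2.Idx F} {s t : S3u} (hg : Rel e g s) (hh : Rel e h t) : Rel e (g * h) (s * t) := by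
  intro i
  obtain ⟨j, c, h1, h2⟩ := hh i
  obtain ⟨k, d, h3, h4⟩ := hg j
  refine ⟨k, c * d, ?_, ?_⟩
  · rw [Units.val_mul, ← mulVec_mulVec, h1, h3]
  · show (s.1.1 * t.1.1) *ᵥ vt i = _
    rw [← mulVec_mulVec, h2, mulVec_smul, h4, smul_smul]

/-- words -/
def WW : List (List ℕ) := [[3, 11, 3], [1], [11, 10], [4, 5, 4]]

def trw : List ℕ → ℕ → ℕ
  | [], i => i
  | r :: l, i => tr r (trw l i)

theorem ww_ok : (List.range 4).all (fun k => (List.range 63).all fun i =>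
    Nat.beq (trw (WW.getD k []) i) (IM.getD (63 * k + i) 0)) = true := by decide +kernel

theorem ww_lt : ∀ k : Fin 4, ∀ r ∈ WW.getD k [], r < 12 := by decide +kernel

/-- the element of a word -/
noncomputable def gw (F : Type u) [Field F] (w : List ℕ) : GL chevG2.Idx F := (w.map fun r => xg chevG2 F r 1).prod

theorem gw_mem (w : List ℕ) : gw F w ∈ chevG2.group F := by
  unfold gw
  apply Subgroup.list_prod_mem
  intro x hx
  obtain ⟨r, -, rfl⟩ := List.mem_map.mp hx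
  exact ChevAuto.xg_mem ChevOkG2.good r 1

theorem trw_lt {w : List ℕ} (hw : ∀ r ∈ w, r < 12) {i : ℕ} (hi : i < 63) : trw w i < 63 := by
  induction w with
  | nil => exact hi
  | cons r l ih =>
    exact (app_eq (hw r (List.mem_cons_self ..)) (ih fun s hs => hw s (List.mem_cons_of_mem _ hs))).2

theorem gw_mulVec {w : List ℕ} (hw : ∀ r ∈ w, r < 12) {i : ℕ} (hi : i < 63) :
    (gw F w : Matrix chevG2.Idx chevG2.Idx F) *ᵥ ev e i = ev e (trw w i) := by
  induction w with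
  | nil =>
    show (1 : Matrix chevG2.Idx chevG2.Idx F) *ᵥ _ = _
    rw [one_mulVec]; rfl
  | cons r l ih =>
    have h1 : gw F (r :: l) = xg chevG2 F r 1 * gw F l := by simp [gw]
    have hl : ∀ s ∈ l, s < 12 := fun s hs => hw s (List.mem_cons_of_mem _ hs)
    rw [h1, Units.val_mul, ← mulVec_mulVec, ih hl, coe_xg ChevOkG2.good,
      ev_mulVec e (hw r (List.mem_cons_self ..)) (trw_lt hl hi)]
    rfl

/-- the generators -/
noncomputable def gk (F : Type u) [Field F] (k : Fin 4) : GL chevG2.Idx F := gw F (WW.getD k [])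

variable (e)

theorem Rel.gen (k : Fin 4) : Rel e (gk F k) (MS k) := by
  intro i
  refine ⟨imF k i, F9.dec (SC.getD (63 * k + i) 0), ?_, ?_⟩
  · unfold gk
    rw [gw_mulVec (ww_lt k) i.2]
    have h := ww_ok
    rw [List.all_eq_true] at h
    have h := h k (List.mem_range.mpr k.2)
    rw [List.all_eq_true] at h
    have h := h i (List.mem_range.mpr i.2)
    rw [Nat.beq_eq.mp h]
    rfl
  · funext l
    have := MM_vt k i l
    show (MM k *ᵥ vt i) l = _
    rw [Matrix.mulVec, dotProduct, Fin.sum_univ_three, this]; rfl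

theorem Rel.unique_left {g h : GL chevG2.Idx F} {s : S3u} (hg : Rel e g s) (hh : Rel e h s) : g = h := by
  apply Units.ext
  apply eq_of_agree' e
  intro i hi
  obtain ⟨j, c, h1, h2⟩ := hg ⟨i, hi⟩
  obtain ⟨k, d, h3, h4⟩ := hh ⟨i, hi⟩
  have hd : d ≠ 0 := by
    rintro rfl
    rw [zero_smul] at h4
    apply vt_ne ⟨i, hi⟩
    have h5 : (s⁻¹).1.1 *ᵥ (s.1.1 *ᵥ vt ⟨i, hi⟩) = vt ⟨i, hi⟩ := by
      rw [mulVec_mulVec]
      have : (s⁻¹).1.1 * s.1.1 = 1 := congrArg (fun x : S3u => x.1.1) (inv_mul_cancel s)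
      rw [this, one_mulVec]
    rw [← h5, h4, mulVec_zero]
  have hc : c ≠ 0 := by
    rintro rfl
    rw [zero_smul] at h2
    rw [h4] at h2
    rcases smul_eq_zero.mp h2 with h | h
    · exact hd h
    · exact vt_ne k h
  have hjk : j = k := by
    apply vt_inj j k (c⁻¹ * d)
    intro l
    have h5 : c • vt j = d • vt k := h2.symm.trans h4
    have h6 := congrFun h5 l
    simp only [Pi.smul_apply, smul_eq_mul] at h6
    rw [mul_assoc, ← h6, ← mul_assoc, inv_mul_cancel₀ hc, one_mul]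
  rw [h1, h3, hjk]

theorem Rel.unique_right {g : GL chevG2.Idx F} {s t : S3u} (hs : Rel e g s) (ht : Rel e g t) : s = t := by
  have h1 : (s⁻¹ * t).1.1 = 1 := by
    apply eq_one_of_fix (s⁻¹ * t).1.2
    intro i
    obtain ⟨j, c, h1, h2⟩ := hs i
    obtain ⟨j', d, h3, h4⟩ := ht i
    have hj : j' = j := Fin.ext (ev_inj e j'.2 j.2 (h3.symm.trans h1))
    subst hj
    have hc : c ≠ 0 := by
      rintro rfl
      rw [zero_smul] at h2
      apply vt_ne i
      have h5 : (s⁻¹).1.1 *ᵥ (s.1.1 *ᵥ vt i) = vt i := by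
        rw [mulVec_mulVec]
        have : (s⁻¹).1.1 * s.1.1 = 1 := congrArg (fun x : S3u => x.1.1) (inv_mul_cancel s)
        rw [this, one_mulVec]
      rw [← h5, h2, mulVec_zero]
    refine ⟨d * c⁻¹, ?_⟩
    show ((s⁻¹).1.1 * t.1.1) *ᵥ vt i = _
    rw [← mulVec_mulVec, h4]
    have h5 : vt j' = c⁻¹ • (s.1.1 *ᵥ vt i) := by rw [h2, smul_smul, inv_mul_cancel₀ hc, one_smul]
    rw [h5, smul_smul, mulVec_smul, mulVec_mulVec]
    have : (s⁻¹).1.1 * s.1.1 = 1 := congrArg (fun x : S3u => x.1.1) (inv_mul_cancel s)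
    rw [this, one_mulVec]
  have h2 : s⁻¹ * t = 1 := Subtype.ext (Subtype.ext h1)
  exact (inv_mul_eq_one.mp h2)

theorem exists_Rel (s : S3u) : ∃ g ∈ chevG2.group F, Rel e g s := by
  obtain ⟨a, ha⟩ := toSU_bij.2 s
  have key : ∀ (g : Pm) (hg : g ∈ AG 4), ∃ s : S3u, DD ⟨g, AG45 hg⟩ s ∧ ∃ h ∈ chevG2.group F, Rel e h s := by
    intro g hg
    unfold AG at hg
    induction hg using Subgroup.closure_induction_left with
    | one => exact ⟨1, DD.one, 1, one_mem _, Rel.one e⟩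
    | mul_left x hx y hy ih =>
      obtain ⟨k, hk, rfl⟩ := hx
      obtain ⟨s, hs, h, hh, hr⟩ := ih
      exact ⟨MS ⟨k, hk⟩ * s, (DD.gen ⟨k, hk⟩).mul hs, gk F ⟨k, hk⟩ * h, mul_mem (gw_mem _) hh,
        (Rel.gen e ⟨k, hk⟩).mul hr⟩
    | inv_mul_cancel x hx y hy ih =>
      obtain ⟨k, hk, rfl⟩ := hx
      obtain ⟨s, hs, h, hh, hr⟩ := ih
      have := (DD.gen ⟨k, hk⟩).mul hs
      refine ⟨MS ⟨k, hk⟩ * s, ?_, gk F ⟨k, hk⟩ * h, mul_mem (gw_mem _) hh, (Rel.gen e ⟨k, hk⟩).mul hr⟩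
      convert this using 1
      apply Subtype.ext
      show (beP k)⁻¹ * y = beP k * y
      rw [gen_inv]
  obtain ⟨t, ht, g, hg, hr⟩ := key a.1 a.2
  have h1 : t = s := by rw [← ha]; exact ht.unique (toSU_spec a)
  subst h1
  exact ⟨g, hg, hr⟩

/-- the embedding -/
noncomputable def toG2 : S3u →* ↥(chevG2.group F) where
  toFun s := ⟨(exists_Rel e s).choose, (exists_Rel e s).choose_spec.1⟩
  map_one' := Subtype.ext ((exists_Rel e 1).choose_spec.2.unique_left e (Rel.one e))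
  map_mul' s t := Subtype.ext ((exists_Rel e (s * t)).choose_spec.2.unique_left e
    ((exists_Rel e s).choose_spec.2.mul (exists_Rel e t).choose_spec.2))

theorem toG2_spec (s : S3u) : Rel e (toG2 e s : GL chevG2.Idx F) s := (exists_Rel e s).choose_spec.2

theorem toG2_inj : Function.Injective (toG2 e) := by
  intro s t h
  have h1 := toG2_spec e s
  rw [h] at h1
  exact Rel.unique_right e h1 (toG2_spec e t)

end Cfsg.Agent.Lib.H10G2U3
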