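import Cfsg.Agent.Lib.H10Enum

set_option autoImplicit false
set_option maxRecDepth 100000
set_option linter.style.longLine false

/-! Certificate data (coset enumeration). -/

namespace Cfsg.Agent.Lib.H10GTB14

open Cfsg.Agent.Lib.H10Enum

/-- the facts -/
def T : ℕ := 0x400c00d0200d00b0200c00a0400b0090400a008020090070200800604007005040060040200500302004002040030010400200002001000

/-- the relators -/
def R : List (List ℕ) := [[2, 2], [4, 4], [2, 4, 2, 4, 2, 4, 2, 4, 2, 4, 2, 4, 2, 4], [2, 3], [4, 5]]

/-- rules -/
def rs0 : List Rule := [
  ⟨2, 1, 1, 1, [0x1800140010000c0008000400030007000b000f00130017001b000d]⟩]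

/-- all rules -/
def rs : List Rule := rs0

theorem ok : check T 6 14 13 14 [] [] R rs = true := by decide +kernel

/-- closure table -/
def E1 : ℕ := 0xc000b000c000b0008000700080007000400030004000300000000

theorem cl1 : chkC T 6 14 14 E1 1 14 = true := by decide +kernel

/-- closure table -/
def E2 : ℕ := 0xd000d000a0009000a000900060005000600050002000100020001

theorem cl2 : chkC T 6 14 14 E2 2 14 = true := by decide +kernel

end Cfsg.Agent.Lib.H10GTB14
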