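import Cfsg.Agent.Lib.H10Enum

set_option autoImplicit false
set_option maxRecDepth 100000
set_option linter.style.longLine false

/-! Certificate data (coset enumeration). -/

namespace Cfsg.Agent.Lib.H10GTB24

open Cfsg.Agent.Lib.H10Enum

/-- the facts -/
def T : ℕ := 0x201701704017017020160160401601606013013060120120601101102014014040100100601000e0600f00f020150150200a00c0600b00d020060080400600606003003040090090600200202001001040000000200000006017015060160140401501304014012020130110201200f0401100e0201000d0400f00c0200e00b0400d00a0600c0090400b0080600a007020090070600800504007005060060040200500404004003020030020400200106001000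

/-- the relators -/
def R : List (List ℕ) := [[2, 2], [4, 4], [6, 6], [2, 4, 2, 4, 2, 4, 2, 4, 2, 4, 2, 4, 2, 4], [2, 6, 2, 6], [4, 6, 4, 6, 4, 6], [2, 4, 6, 2, 4, 6, 2, 4, 6, 2, 4, 6, 2, 4, 6, 2, 4, 6, 2, 4, 6, 2, 4, 6], [2, 3], [4, 5], [6, 7]]

/-- rules -/
def rs0 : List Rule := [
  ⟨3, 0, 1, 1, [0x2a00260022001c0016003f003d003e0017001d00230027002b0021, 0x280024001e0043001b0021004b0020001a0042001f002500290025]⟩,
  ⟨3, 1, 1, 1, [0x12000e000a0008000600040035000500070009000b000f0013001b]⟩,
  ⟨4, 0, 1, 1, [0x2003100030019, 0xc000b0011001e, 0x14001300190020]⟩,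
  ⟨4, 1, 1, 1, [0x600370007001c, 0x200041001d0023, 0x24004700250027, 0x26004f00270028]⟩,
  ⟨5, 0, 1, 1, [0xc0008003b0009000d001d, 0x2c002800510029002d0029, 0x2e002a0053002b002f002b]⟩,
  ⟨5, 1, 1, 1, [0x40002003300030005001a, 0x160010000f0015001b001f, 0x1e001800390019001f0022, 0x220049004b004800230026]⟩,
  ⟨6, 0, 1, 1, [0x55002c004d002800510024001e00180012000e0011003f003d000c000b000f00150042001f004700250029002d002a, 0x59002e0045002a00530026002200490020001a00140013003900190043001b0041001d0023004f0027002b002f002c]⟩,
  ⟨6, 2, 0, 1, [0x2000410016003f000c00080006003600040034000200320030000300050007003a0009000b00110017001d00490024]⟩]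

/-- all rules -/
def rs : List Rule := rs0

theorem ok : check T 14 24 23 45 [1, 2] [23, 24] R rs = true := by decide +kernel

/-- closure table -/
def E1 : ℕ := 0x2c002a00210025001200110012000f0011000d000f0020000d00200008001e0008001e000400040002000200190017

theorem cl1 : chkC T 14 24 45 E1 1 24 = true := by decide +kernel

/-- closure table -/
def E2 : ℕ := 0x2b0029001400130014001300100024000e0010000c000e000a000c001b000a0006001d000600030003000100010018

theorem cl2 : chkC T 14 24 45 E2 2 24 = true := by decide +kernel

/-- closure table -/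
def E3 : ℕ := 0x16001500160015002800270026002300220023001f000b001f0009000b00070009000500070005001c001a00000000

theorem cl3 : chkC T 14 24 45 E3 3 24 = true := by decide +kernel

end Cfsg.Agent.Lib.H10GTB24
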