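import Mathlib
import Cfsg.Agent.Lib.H10GTB36
import Cfsg.Agent.Lib.H10GTB24
import Cfsg.Agent.Lib.H10GTB14
import Cfsg.Agent.Lib.H10GTB12
import Cfsg.Agent.Lib.H10GTB7

set_option autoImplicit false
set_option linter.all false

/-! A presentation of `G2(2)` (coset enumerations) and the resulting isomorphism criterion. -/

namespace Cfsg.Agent.Lib.H10GTEnum

open Cfsg.Agent.Lib.H10Enum

/-- the index bound from a coset enumeration certificate -/
theorem enum_index {Γ : Type*} [Group Γ] {g : ℕ → Γ} {T iv fuel m N n : ℕ} {sub S : List ℕ} {R : List (List ℕ)}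
    {rs : List Rule} (letters : List ℕ) (E : ℕ → ℕ) (hg0 : g 0 = 1) (hiv : ∀ c, iv.testBit c = true → (g c)⁻¹ = g c)
    (hR : ∀ w ∈ R, wval g w = 1) (B : Subgroup Γ) (hsub : ∀ c ∈ sub, g c ∈ B)
    (h : check T iv fuel m N sub S R rs = true) (hn : 0 < n)
    (hgen : Subgroup.closure {a | ∃ c ∈ letters, a = g c} = ⊤)
    (hcl : ∀ c ∈ letters, chkC T iv n N (E c) c n = true) : Finite (Γ ⧸ B) ∧ Nat.card (Γ ⧸ B) ≤ n := by
  have hp : ∀ c ∈ sub, g c • ((1 : Γ) : Γ ⧸ B) = ((1 : Γ) : Γ ⧸ B) := by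
    intro c hc
    rw [MulAction.Quotient.smul_coe, smul_eq_mul, mul_one, QuotientGroup.eq]
    simpa using B.inv_mem (hsub c hc)
  have hgood := sound (x := g) (p := ((1 : Γ) : Γ ⧸ B)) hg0 hiv hR hp h
  refine card_le_of_closed (f := pts T g ((1 : Γ) : Γ ⧸ B)) hn _ hgen ?_
  rintro a ⟨c, hc, rfl⟩ j hj
  exact chkC_sound hiv hgood n (hcl c hc) j hj

section defs
variable {G : Type*} [Group G]

/-- the relations (without the order of `c1 * h`) -/
structure Good (c0 c1 c2 h : G) : Prop where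
  h0 : c0 * c0 = 1
  h1 : c1 * c1 = 1
  h2 : c2 * c2 = 1
  h01 : (c0 * c1) ^ 7 = 1
  h02 : (c0 * c2) ^ 2 = 1
  h12 : (c1 * c2) ^ 3 = 1
  h012 : (c0 * c1 * c2) ^ 8 = 1
  hh : h * h = 1
  hb : Commute h (c0 * c2)
  hd : Commute h (c1 * c0 * c1 * c0 * c2 * c1)
  h0h : (c0 * h) ^ 3 = 1

/-- the letters -/
def gl (c0 c1 c2 h : G) : ℕ → G
  | 1 => c0
  | 2 => c1
  | 3 => c2
  | 4 => h
  | _ => 1

theorem gl_iv {c0 c1 c2 h : G} (h0 : c0 * c0 = 1) (h1 : c1 * c1 = 1) (h2 : c2 * c2 = 1) (hh : h * h = 1) (c : ℕ) :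
    (gl c0 c1 c2 h c)⁻¹ = gl c0 c1 c2 h c := by
  unfold gl
  split
  · exact inv_eq_of_mul_eq_one_left h0
  · exact inv_eq_of_mul_eq_one_left h1
  · exact inv_eq_of_mul_eq_one_left h2
  · exact inv_eq_of_mul_eq_one_left hh
  · exact inv_one

theorem wv {x : ℕ → G} (h : ∀ c, (x c)⁻¹ = x c) (c : ℕ) : val x c = x (c / 2) := by
  unfold val
  split
  · rfl
  · exact h _

theorem closure_gl {c0 c1 c2 h : G} (hgen : Subgroup.closure ({c0, c1, c2, h} : Set G) = ⊤) :
    Subgroup.closure {a | ∃ c ∈ [1, 2, 3, 4], a = gl c0 c1 c2 h c} = ⊤ := by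
  rw [← hgen]
  congr 1
  ext a
  simp only [Set.mem_setOf_eq, List.mem_cons, List.not_mem_nil, or_false, exists_eq_or_imp, exists_eq_left,
    Set.mem_insert_iff, Set.mem_singleton_iff]
  rfl

theorem mem_sub {c0 c1 c2 h : G} : ∀ c ∈ [1, 2, 3], gl c0 c1 c2 h c ∈ Subgroup.closure ({c0, c1, c2} : Set G) := by
  intro c hc
  simp only [List.mem_cons, List.not_mem_nil, or_false] at hc
  rcases hc with rfl | rfl | rfl <;> exact Subgroup.subset_closure (by simp [gl])



theorem comm_rel {h a : G} (hc : Commute h a) : h⁻¹ * a⁻¹ * h * a = 1 := by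
  have : h * a = a * h := hc
  calc h⁻¹ * a⁻¹ * h * a = h⁻¹ * a⁻¹ * (h * a) := by group
    _ = 1 := by rw [this]; group

theorem good_prod {c0 c1 c2 h : G} (H : Good c0 c1 c2 h) :
    c0 * (c1 * (c0 * (c1 * (c0 * (c1 * (c0 * (c1 * (c0 * (c1 * (c0 * (c1 * (c0 * c1)))))))))))) = 1 ∧
    c0 * (c2 * (c0 * c2)) = 1 ∧ c1 * (c2 * (c1 * (c2 * (c1 * c2)))) = 1 ∧
    c0 * (c1 * (c2 * (c0 * (c1 * (c2 * (c0 * (c1 * (c2 * (c0 * (c1 * (c2 * (c0 * (c1 * (c2 * (c0 * (c1 * (c2 *
      (c0 * (c1 * (c2 * (c0 * (c1 * c2)))))))))))))))))))))) = 1 ∧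
    h * (c2 * (c0 * (h * (c0 * c2)))) = 1 ∧
    h * (c1 * (c2 * (c0 * (c1 * (c0 * (c1 * (h * (c1 * (c0 * (c1 * (c0 * (c2 * c1)))))))))))) = 1 ∧
    c0 * (h * (c0 * (h * (c0 * h)))) = 1 := by
  have i0 : c0⁻¹ = c0 := inv_eq_of_mul_eq_one_left H.h0
  have i1 : c1⁻¹ = c1 := inv_eq_of_mul_eq_one_left H.h1
  have i2 : c2⁻¹ = c2 := inv_eq_of_mul_eq_one_left H.h2
  have ih : h⁻¹ = h := inv_eq_of_mul_eq_one_left H.hh
  refine ⟨?_, ?_, ?_, ?_, ?_, ?_, ?_⟩
  · simpa only [pow_succ, pow_zero, one_mul, mul_assoc] using H.h01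
  · simpa only [pow_succ, pow_zero, one_mul, mul_assoc] using H.h02
  · simpa only [pow_succ, pow_zero, one_mul, mul_assoc] using H.h12
  · simpa only [pow_succ, pow_zero, one_mul, mul_assoc] using H.h012
  · simpa only [mul_inv_rev, i0, i1, i2, ih, mul_assoc] using comm_rel H.hb
  · simpa only [mul_inv_rev, i0, i1, i2, ih, mul_assoc] using comm_rel H.hd
  · simpa only [pow_succ, pow_zero, one_mul, mul_assoc] using H.h0h

theorem wval_iv {x : ℕ → G} (hx : ∀ c, (x c)⁻¹ = x c) (a : ℕ) (L : List ℕ) : wval x (a :: L) = x (a / 2) * wval x L := by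
  rw [wval_cons, wv hx]


theorem index8 {c0 c1 c2 h : G} (H : Good c0 c1 c2 h) (h8 : (c1 * h) ^ 8 = 1)
    (hgen : Subgroup.closure ({c0, c1, c2, h} : Set G) = ⊤) :
    Finite (G ⧸ Subgroup.closure ({c0, c1, c2} : Set G)) ∧ Nat.card (G ⧸ Subgroup.closure ({c0, c1, c2} : Set G)) ≤ 36 := by
  have iv := gl_iv (h := h) H.h0 H.h1 H.h2 H.hh
  refine enum_index (g := gl c0 c1 c2 h) [1, 2, 3, 4] (fun c => match c with
    | 1 => H10GTB36.E1 | 2 => H10GTB36.E2 | 3 => H10GTB36.E3 | _ => H10GTB36.E4) rfl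
    (fun c _ => iv c) ?_ _ mem_sub H10GTB36.ok (by norm_num) (closure_gl hgen) ?_
  · obtain ⟨e1, e2, e3, e4, e5, e6, e7⟩ := good_prod H
    have e8 := h8
    simp only [pow_succ, pow_zero, one_mul, mul_assoc] at e8
    intro w hw
    simp only [H10GTB36.R, List.mem_cons, List.not_mem_nil, or_false] at hw
    rcases hw with rfl | rfl | rfl | rfl | rfl | rfl | rfl | rfl | rfl | rfl | rfl | rfl | rfl | rfl | rfl | rfl <;>
      simp only [wval_iv iv, wval_nil, mul_one, Nat.reduceDiv, gl]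
    exacts [H.h0, H.h1, H.h2, e1, e2, e3, e4, H.hh, e5, e6, e7, e8, H.h0, H.h1, H.h2, H.hh]
  · intro c hc
    simp only [List.mem_cons, List.not_mem_nil, or_false] at hc
    rcases hc with rfl | rfl | rfl | rfl
    · exact H10GTB36.cl1
    · exact H10GTB36.cl2
    · exact H10GTB36.cl3
    · exact H10GTB36.cl4

theorem index12 {c0 c1 c2 h : G} (H : Good c0 c1 c2 h) (h8 : (c1 * h) ^ 12 = 1)
    (hgen : Subgroup.closure ({c0, c1, c2, h} : Set G) = ⊤) :
    Finite (G ⧸ Subgroup.closure ({c0, c1, c2} : Set G)) ∧ Nat.card (G ⧸ Subgroup.closure ({c0, c1, c2} : Set G)) ≤ 3 := by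
  have iv := gl_iv (h := h) H.h0 H.h1 H.h2 H.hh
  refine enum_index (g := gl c0 c1 c2 h) [1, 2, 3, 4] (fun c => match c with
    | 1 => H10GTB12.E1 | 2 => H10GTB12.E2 | 3 => H10GTB12.E3 | _ => H10GTB12.E4) rfl
    (fun c _ => iv c) ?_ _ mem_sub H10GTB12.ok (by norm_num) (closure_gl hgen) ?_
  · obtain ⟨e1, e2, e3, e4, e5, e6, e7⟩ := good_prod H
    have e8 := h8
    simp only [pow_succ, pow_zero, one_mul, mul_assoc] at e8
    intro w hw
    simp only [H10GTB12.R, List.mem_cons, List.not_mem_nil, or_false] at hw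
    rcases hw with rfl | rfl | rfl | rfl | rfl | rfl | rfl | rfl | rfl | rfl | rfl | rfl | rfl | rfl | rfl | rfl <;>
      simp only [wval_iv iv, wval_nil, mul_one, Nat.reduceDiv, gl]
    exacts [H.h0, H.h1, H.h2, e1, e2, e3, e4, H.hh, e5, e6, e7, e8, H.h0, H.h1, H.h2, H.hh]
  · intro c hc
    simp only [List.mem_cons, List.not_mem_nil, or_false] at hc
    rcases hc with rfl | rfl | rfl | rfl
    · exact H10GTB12.cl1
    · exact H10GTB12.cl2
    · exact H10GTB12.cl3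
    · exact H10GTB12.cl4

theorem index7 {c0 c1 c2 h : G} (H : Good c0 c1 c2 h) (h8 : (c1 * h) ^ 7 = 1)
    (hgen : Subgroup.closure ({c0, c1, c2, h} : Set G) = ⊤) :
    Finite (G ⧸ Subgroup.closure ({c0, c1, c2} : Set G)) ∧ Nat.card (G ⧸ Subgroup.closure ({c0, c1, c2} : Set G)) ≤ 1 := by
  have iv := gl_iv (h := h) H.h0 H.h1 H.h2 H.hh
  refine enum_index (g := gl c0 c1 c2 h) [1, 2, 3, 4] (fun c => match c with
    | 1 => H10GTB7.E1 | 2 => H10GTB7.E2 | 3 => H10GTB7.E3 | _ => H10GTB7.E4) rfl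
    (fun c _ => iv c) ?_ _ mem_sub H10GTB7.ok (by norm_num) (closure_gl hgen) ?_
  · obtain ⟨e1, e2, e3, e4, e5, e6, e7⟩ := good_prod H
    have e8 := h8
    simp only [pow_succ, pow_zero, one_mul, mul_assoc] at e8
    intro w hw
    simp only [H10GTB7.R, List.mem_cons, List.not_mem_nil, or_false] at hw
    rcases hw with rfl | rfl | rfl | rfl | rfl | rfl | rfl | rfl | rfl | rfl | rfl | rfl | rfl | rfl | rfl | rfl <;>
      simp only [wval_iv iv, wval_nil, mul_one, Nat.reduceDiv, gl]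
    exacts [H.h0, H.h1, H.h2, e1, e2, e3, e4, H.hh, e5, e6, e7, e8, H.h0, H.h1, H.h2, H.hh]
  · intro c hc
    simp only [List.mem_cons, List.not_mem_nil, or_false] at hc
    rcases hc with rfl | rfl | rfl | rfl
    · exact H10GTB7.cl1
    · exact H10GTB7.cl2
    · exact H10GTB7.cl3
    · exact H10GTB7.cl4

theorem closure_gl3 {c0 c1 c2 : G} (hgen : Subgroup.closure ({c0, c1, c2} : Set G) = ⊤) :
    Subgroup.closure {a | ∃ c ∈ [1, 2, 3], a = gl c0 c1 c2 1 c} = ⊤ := by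
  rw [← hgen]
  congr 1
  ext a
  simp only [Set.mem_setOf_eq, List.mem_cons, List.not_mem_nil, or_false, exists_eq_or_imp, exists_eq_left,
    Set.mem_insert_iff, Set.mem_singleton_iff]
  rfl

theorem closure_gl2 {c0 c1 : G} (hgen : Subgroup.closure ({c0, c1} : Set G) = ⊤) :
    Subgroup.closure {a | ∃ c ∈ [1, 2], a = gl c0 c1 1 1 c} = ⊤ := by
  rw [← hgen]
  congr 1
  ext a
  simp only [Set.mem_setOf_eq, List.mem_cons, List.not_mem_nil, or_false, exists_eq_or_imp, exists_eq_left,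
    Set.mem_insert_iff, Set.mem_singleton_iff]
  rfl

theorem card14 {c0 c1 : G} (h0 : c0 * c0 = 1) (h1 : c1 * c1 = 1) (h01 : (c0 * c1) ^ 7 = 1)
    (hgen : Subgroup.closure ({c0, c1} : Set G) = ⊤) : Finite G ∧ Nat.card G ≤ 14 := by
  have iv := gl_iv (c2 := 1) (h := 1) h0 h1 (one_mul 1) (one_mul 1)
  have hR : ∀ w ∈ H10GTB14.R, wval (gl c0 c1 1 1) w = 1 := by
    have e1 := h01
    simp only [pow_succ, pow_zero, one_mul, mul_assoc] at e1
    intro w hw
    simp only [H10GTB14.R, List.mem_cons, List.not_mem_nil, or_false] at hw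
    rcases hw with rfl | rfl | rfl | rfl | rfl <;>
      simp only [wval_iv iv, wval_nil, mul_one, Nat.reduceDiv, gl]
    exacts [h0, h1, e1, h0, h1]
  have key := enum_index (g := gl c0 c1 1 1) (n := 14) [1, 2] (fun c => match c with
    | 1 => H10GTB14.E1 | _ => H10GTB14.E2) rfl
    (fun c _ => iv c) hR (⊥ : Subgroup G) (sub := []) (by simp) H10GTB14.ok (by norm_num) (closure_gl2 hgen) (by
      intro c hc
      simp only [List.mem_cons, List.not_mem_nil, or_false] at hc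
      rcases hc with rfl | rfl
      · exact H10GTB14.cl1
      · exact H10GTB14.cl2)
  · have e : Nat.card (G ⧸ (⊥ : Subgroup G)) = Nat.card G :=
      Nat.card_congr (QuotientGroup.quotientBot (G := G)).toEquiv
    refine ⟨?_, by rw [← e]; exact key.2⟩
    haveI := key.1
    exact Finite.of_equiv _ (QuotientGroup.quotientBot (G := G)).toEquiv

/-- the triangle relations -/
structure Tri (c0 c1 c2 : G) : Prop where
  h0 : c0 * c0 = 1
  h1 : c1 * c1 = 1
  h2 : c2 * c2 = 1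
  h01 : (c0 * c1) ^ 7 = 1
  h02 : (c0 * c2) ^ 2 = 1
  h12 : (c1 * c2) ^ 3 = 1
  h012 : (c0 * c1 * c2) ^ 8 = 1

theorem Good.tri {c0 c1 c2 h : G} (H : Good c0 c1 c2 h) : Tri c0 c1 c2 :=
  ⟨H.h0, H.h1, H.h2, H.h01, H.h02, H.h12, H.h012⟩

theorem index24 {c0 c1 c2 : G} (H : Tri c0 c1 c2)
    (hgen : Subgroup.closure ({c0, c1, c2} : Set G) = ⊤) :
    Finite (G ⧸ Subgroup.closure ({c0, c1} : Set G)) ∧ Nat.card (G ⧸ Subgroup.closure ({c0, c1} : Set G)) ≤ 24 := by
  have iv := gl_iv (h := 1) H.h0 H.h1 H.h2 (one_mul 1)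
  refine enum_index (g := gl c0 c1 c2 1) [1, 2, 3] (fun c => match c with
    | 1 => H10GTB24.E1 | 2 => H10GTB24.E2 | _ => H10GTB24.E3) rfl
    (fun c _ => iv c) ?_ _ (sub := [1, 2]) ?_ H10GTB24.ok (by norm_num) (closure_gl3 hgen) ?_
  · have e1 := H.h01
    have e2 := H.h02
    have e3 := H.h12
    have e4 := H.h012
    simp only [pow_succ, pow_zero, one_mul, mul_assoc] at e1 e2 e3 e4
    intro w hw
    simp only [H10GTB24.R, List.mem_cons, List.not_mem_nil, or_false] at hw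
    rcases hw with rfl | rfl | rfl | rfl | rfl | rfl | rfl | rfl | rfl | rfl <;>
      simp only [wval_iv iv, wval_nil, mul_one, Nat.reduceDiv, gl]
    exacts [H.h0, H.h1, H.h2, e1, e2, e3, e4, H.h0, H.h1, H.h2]
  · intro c hc
    simp only [List.mem_cons, List.not_mem_nil, or_false] at hc
    rcases hc with rfl | rfl <;> exact Subgroup.subset_closure (by simp [gl])
  · intro c hc
    simp only [List.mem_cons, List.not_mem_nil, or_false] at hc
    rcases hc with rfl | rfl | rfl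
    · exact H10GTB24.cl1
    · exact H10GTB24.cl2
    · exact H10GTB24.cl3

end defs

theorem card_le_mul {Γ : Type*} [Group Γ] (B : Subgroup Γ) {n b : ℕ} (h : Finite (Γ ⧸ B) ∧ Nat.card (Γ ⧸ B) ≤ n)
    (hb : Finite B ∧ Nat.card B ≤ b) : Finite Γ ∧ Nat.card Γ ≤ n * b := by
  haveI := h.1
  haveI := hb.1
  have hf : Finite Γ := by
    exact Finite.of_equiv _ (Subgroup.groupEquivQuotientProdSubgroup (s := B)).symm
  refine ⟨hf, ?_⟩
  rw [Subgroup.card_eq_card_quotient_mul_card_subgroup B]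
  exact Nat.mul_le_mul h.2 hb.2

/-- the group generated by a set, as a group generated by the lifts -/
theorem closure_lift {G : Type*} [Group G] (S : Set G) (S' : Set (Subgroup.closure S))
    (h : ∀ x : Subgroup.closure S, (x : G) ∈ S → x ∈ S') : Subgroup.closure S' = ⊤ := by
  rw [eq_top_iff, ← Subgroup.closure_closure_coe_preimage (k := S)]
  exact Subgroup.closure_mono (fun x hx => h x hx)

theorem card336 {G : Type*} [Group G] {c0 c1 c2 : G} (H : Tri c0 c1 c2)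
    (hgen : Subgroup.closure ({c0, c1, c2} : Set G) = ⊤) : Finite G ∧ Nat.card G ≤ 336 := by
  have h := card_le_mul (Subgroup.closure ({c0, c1} : Set G)) (b := 14) (index24 H hgen) ?_
  · exact h
  · let a0 : Subgroup.closure ({c0, c1} : Set G) := ⟨c0, Subgroup.subset_closure (by simp)⟩
    let a1 : Subgroup.closure ({c0, c1} : Set G) := ⟨c1, Subgroup.subset_closure (by simp)⟩
    refine card14 (c0 := a0) (c1 := a1) (Subtype.ext H.h0) (Subtype.ext H.h1) (Subtype.ext H.h01)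
      (closure_lift _ _ ?_)
    rintro ⟨x, hx⟩ hx'
    simp only [Set.mem_insert_iff, Set.mem_singleton_iff] at hx' ⊢
    rcases hx' with h | h
    · exact Or.inl (Subtype.ext h)
    · exact Or.inr (Subtype.ext h)

theorem card336' {G : Type*} [Group G] {c0 c1 c2 : G} (H : Tri c0 c1 c2) :
    Finite (Subgroup.closure ({c0, c1, c2} : Set G)) ∧ Nat.card (Subgroup.closure ({c0, c1, c2} : Set G)) ≤ 336 := by
  let a0 : Subgroup.closure ({c0, c1, c2} : Set G) := ⟨c0, Subgroup.subset_closure (by simp)⟩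
  let a1 : Subgroup.closure ({c0, c1, c2} : Set G) := ⟨c1, Subgroup.subset_closure (by simp)⟩
  let a2 : Subgroup.closure ({c0, c1, c2} : Set G) := ⟨c2, Subgroup.subset_closure (by simp)⟩
  refine card336 (c0 := a0) (c1 := a1) (c2 := a2) ⟨Subtype.ext H.h0, Subtype.ext H.h1, Subtype.ext H.h2,
    Subtype.ext H.h01, Subtype.ext H.h02, Subtype.ext H.h12, Subtype.ext H.h012⟩ (closure_lift _ _ ?_)
  rintro ⟨x, hx⟩ hx'
  simp only [Set.mem_insert_iff, Set.mem_singleton_iff] at hx' ⊢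
  rcases hx' with h | h | h
  · exact Or.inl (Subtype.ext h)
  · exact Or.inr (Or.inl (Subtype.ext h))
  · exact Or.inr (Or.inr (Subtype.ext h))

theorem card12096 {G : Type*} [Group G] {c0 c1 c2 h : G} (H : Good c0 c1 c2 h) (h8 : (c1 * h) ^ 8 = 1)
    (hgen : Subgroup.closure ({c0, c1, c2, h} : Set G) = ⊤) : Finite G ∧ Nat.card G ≤ 12096 :=
  card_le_mul (Subgroup.closure ({c0, c1, c2} : Set G)) (b := 336) (index8 H h8 hgen) (card336' H.tri)

/-- two groups with a common cover of at most the same order are isomorphic -/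
theorem iso_of_le {G M : Type*} [Group G] [Group M] (K : Subgroup (G × M)) [Finite K]
    (h1 : Nat.card K ≤ Nat.card G) (h2 : Nat.card K ≤ Nat.card M)
    (s1 : Function.Surjective ((MonoidHom.fst G M).comp K.subtype))
    (s2 : Function.Surjective ((MonoidHom.snd G M).comp K.subtype)) : Nonempty (G ≃* M) := by
  have b1 : Function.Bijective ((MonoidHom.fst G M).comp K.subtype) := by
    haveI : Finite G := Finite.of_surjective _ s1
    exact (Nat.bijective_iff_surjective_and_card _).2 ⟨s1, le_antisymm h1 (Nat.card_le_card_of_surjective _ s1)⟩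
  have b2 : Function.Bijective ((MonoidHom.snd G M).comp K.subtype) := by
    haveI : Finite M := Finite.of_surjective _ s2
    exact (Nat.bijective_iff_surjective_and_card _).2 ⟨s2, le_antisymm h2 (Nat.card_le_card_of_surjective _ s2)⟩
  exact ⟨(MulEquiv.ofBijective _ b1).symm.trans (MulEquiv.ofBijective _ b2)⟩

/-- the relation `(c1 h)^8 = 1` and generation -/
theorem good8 {G : Type*} [Group G] (hG : Nat.card G = 12096) (hs : ∀ g : G, g ^ 7 = 1 ∨ g ^ 8 = 1 ∨ g ^ 12 = 1)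
    {c0 c1 c2 h : G} (H : Good c0 c1 c2 h)
    (hmax : ∀ Y : Subgroup G, Subgroup.closure ({c0, c1, c2} : Set G) < Y → Y = ⊤)
    (hn : h ∉ Subgroup.closure ({c0, c1, c2} : Set G)) :
    Subgroup.closure ({c0, c1, c2, h} : Set G) = ⊤ ∧ (c1 * h) ^ 8 = 1 := by
  have hgen : Subgroup.closure ({c0, c1, c2, h} : Set G) = ⊤ := by
    refine hmax _ (lt_of_le_of_ne (Subgroup.closure_mono ?_) ?_)
    · intro x hx
      simp only [Set.mem_insert_iff, Set.mem_singleton_iff] at hx ⊢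
      tauto
    · intro he
      exact hn (he ▸ Subgroup.subset_closure (by simp))
  refine ⟨hgen, ?_⟩
  rcases hs (c1 * h) with h7 | h8 | h12
  · exfalso
    have := card_le_mul _ (index7 H h7 hgen) (card336' H.tri)
    omega
  · exact h8
  · exfalso
    have := card_le_mul _ (index12 H h12 hgen) (card336' H.tri)
    omega

theorem nonempty_equiv {G M : Type*} [Group G] [Group M]
    (hG : Nat.card G = 12096) (hsG : ∀ g : G, g ^ 7 = 1 ∨ g ^ 8 = 1 ∨ g ^ 12 = 1)
    (hM : Nat.card M = 12096) (hsM : ∀ g : M, g ^ 7 = 1 ∨ g ^ 8 = 1 ∨ g ^ 12 = 1)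
    {c0 c1 c2 h : G} (HG : Good c0 c1 c2 h)
    (hmaxG : ∀ Y : Subgroup G, Subgroup.closure ({c0, c1, c2} : Set G) < Y → Y = ⊤)
    (hnG : h ∉ Subgroup.closure ({c0, c1, c2} : Set G))
    {d0 d1 d2 k : M} (HM : Good d0 d1 d2 k)
    (hmaxM : ∀ Y : Subgroup M, Subgroup.closure ({d0, d1, d2} : Set M) < Y → Y = ⊤)
    (hnM : k ∉ Subgroup.closure ({d0, d1, d2} : Set M)) : Nonempty (G ≃* M) := by
  obtain ⟨gG, eG⟩ := good8 hG hsG HG hmaxG hnG
  obtain ⟨gM, eM⟩ := good8 hM hsM HM hmaxM hnM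
  set S : Set (G × M) := {(c0, d0), (c1, d1), (c2, d2), (h, k)} with hS
  set K := Subgroup.closure S with hK
  have m0 : ((c0, d0) : G × M) ∈ K := Subgroup.subset_closure (by simp [hS])
  have m1 : ((c1, d1) : G × M) ∈ K := Subgroup.subset_closure (by simp [hS])
  have m2 : ((c2, d2) : G × M) ∈ K := Subgroup.subset_closure (by simp [hS])
  have m3 : ((h, k) : G × M) ∈ K := Subgroup.subset_closure (by simp [hS])
  let a0 : K := ⟨_, m0⟩
  let a1 : K := ⟨_, m1⟩
  let a2 : K := ⟨_, m2⟩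
  let a3 : K := ⟨_, m3⟩
  have HK : Good a0 a1 a2 a3 := by
    refine ⟨?_, ?_, ?_, ?_, ?_, ?_, ?_, ?_, ?_, ?_, ?_⟩
    · exact Subtype.ext (Prod.ext HG.h0 HM.h0)
    · exact Subtype.ext (Prod.ext HG.h1 HM.h1)
    · exact Subtype.ext (Prod.ext HG.h2 HM.h2)
    · exact Subtype.ext (Prod.ext HG.h01 HM.h01)
    · exact Subtype.ext (Prod.ext HG.h02 HM.h02)
    · exact Subtype.ext (Prod.ext HG.h12 HM.h12)
    · exact Subtype.ext (Prod.ext HG.h012 HM.h012)
    · exact Subtype.ext (Prod.ext HG.hh HM.hh)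
    · exact Subtype.ext (Prod.ext HG.hb HM.hb)
    · exact Subtype.ext (Prod.ext HG.hd HM.hd)
    · exact Subtype.ext (Prod.ext HG.h0h HM.h0h)
  have e8 : (a1 * a3) ^ 8 = 1 := Subtype.ext (Prod.ext eG eM)
  have hgenK : Subgroup.closure ({a0, a1, a2, a3} : Set K) = ⊤ := by
    refine closure_lift S _ ?_
    rintro ⟨x, hx⟩ hx'
    simp only [hS, Set.mem_insert_iff, Set.mem_singleton_iff] at hx' ⊢
    rcases hx' with e | e | e | e
    · exact Or.inl (Subtype.ext e)
    · exact Or.inr (Or.inl (Subtype.ext e))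
    · exact Or.inr (Or.inr (Or.inl (Subtype.ext e)))
    · exact Or.inr (Or.inr (Or.inr (Subtype.ext e)))
  obtain ⟨hf, hc⟩ := card12096 HK e8 hgenK
  refine iso_of_le K (by omega) (by omega) ?_ ?_
  · rw [← MonoidHom.range_eq_top, eq_top_iff, ← gG, Subgroup.closure_le]
    intro x hx
    simp only [Set.mem_insert_iff, Set.mem_singleton_iff] at hx
    rcases hx with rfl | rfl | rfl | rfl
    · exact ⟨a0, rfl⟩
    · exact ⟨a1, rfl⟩
    · exact ⟨a2, rfl⟩
    · exact ⟨a3, rfl⟩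
  · rw [← MonoidHom.range_eq_top, eq_top_iff, ← gM, Subgroup.closure_le]
    intro x hx
    simp only [Set.mem_insert_iff, Set.mem_singleton_iff] at hx
    rcases hx with rfl | rfl | rfl | rfl
    · exact ⟨a0, rfl⟩
    · exact ⟨a1, rfl⟩
    · exact ⟨a2, rfl⟩
    · exact ⟨a3, rfl⟩

end Cfsg.Agent.Lib.H10GTEnum
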