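import Cfsg.Agent.Lib.H10J175b

set_option autoImplicit false
set_option linter.unusedSectionVars false

/-! Simple groups of order 175560: centralizers of involutions. -/

namespace Cfsg.Agent.Lib.H10J175

open Subgroup
open Cfsg.Agent.Lib.SmallSimple
open Cfsg.Agent.Lib.Simple168 (exists_mem_orderOf_eq orderOf_dvd_card_of_mem card_orderOf_eq card_centralizer_conj)

section General

variable {G : Type*} [Group G] [Finite G]

theorem mul_self_of_order {t : G} (ht : orderOf t = 2) : t * t = 1 := by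
  have := pow_orderOf_eq_one t
  rwa [ht, sq] at this

theorem ne_one_of_order {t : G} (ht : orderOf t = 2) : t ≠ 1 := by
  rintro rfl
  rw [orderOf_one] at ht
  omega

/-- if every element of order `p` is inverted by an involution, there are many involutions -/
theorem bound {p : ℕ} [Fact p.Prime] (hp2 : p ≠ 2) (hcard : ∀ P : Sylow p G, Nat.card (P : Subgroup G) = p)
    (hinv : ∀ x : G, orderOf x = p → ∃ s : G, orderOf s = 2 ∧ s * x * s⁻¹ = x⁻¹) :
    Nat.card (Sylow p G) * (p - 1) * p ≤ Nat.card {g : G // orderOf g = 2} ^ 2 := by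
  classical
  have hp : p.Prime := Fact.out
  rw [← card_orderOf_eq hcard, sq, ← Nat.card_prod]
  have hp' : Nat.card {g : G // orderOf g = p} * p = Nat.card ({g : G // orderOf g = p} × Fin p) := by
    rw [Nat.card_prod, Nat.card_fin]
  rw [hp']
  have hinv' : ∀ x : {g : G // orderOf g = p}, ∃ s : G, orderOf s = 2 ∧ s * (x : G) * s⁻¹ = (x : G)⁻¹ := fun x => hinv x x.2
  choose s hs1 hs2 using hinv'
  have hord : ∀ (x : {g : G // orderOf g = p}) (i : ℕ), orderOf (s x * (x : G) ^ i) = 2 := by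
    intro x i
    have h1 : s x * (x : G) ^ i * (s x)⁻¹ = ((x : G) ^ i)⁻¹ := by
      rw [← conj_pow, hs2, inv_pow]
    have h2 := mul_self_of_order (hs1 x)
    apply orderOf_eq_prime
    · rw [sq]
      calc s x * (x : G) ^ i * (s x * (x : G) ^ i) = s x * (x : G) ^ i * (s x)⁻¹ * (s x * s x) * (x : G) ^ i := by group
        _ = 1 := by rw [h1, h2]; group
    · intro h3
      have h4 : s x = ((x : G) ^ i)⁻¹ := eq_inv_of_mul_eq_one_left h3
      have h5 : orderOf (s x) ∣ orderOf (x : G) := by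
        rw [h4, orderOf_inv]
        exact orderOf_pow_dvd i
      rw [hs1, x.2] at h5
      exact hp2 ((Nat.prime_dvd_prime_iff_eq Nat.prime_two hp).1 h5).symm
  have hprod : ∀ (x : {g : G // orderOf g = p}) (i : ℕ), (s x * (x : G) ^ i) * (s x * (x : G) ^ (i + 1)) = x := by
    intro x i
    have h1 : s x * (x : G) ^ i * (s x)⁻¹ = ((x : G) ^ i)⁻¹ := by
      rw [← conj_pow, hs2, inv_pow]
    have h2 := mul_self_of_order (hs1 x)
    calc s x * (x : G) ^ i * (s x * (x : G) ^ (i + 1)) = s x * (x : G) ^ i * (s x)⁻¹ * (s x * s x) * (x : G) ^ (i + 1) := by group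
      _ = x := by rw [h1, h2, mul_one, pow_succ, inv_mul_cancel_left]
  apply Nat.card_le_card_of_injective
    (fun y : {g : G // orderOf g = p} × Fin p =>
      ((⟨s y.1 * (y.1 : G) ^ (y.2 : ℕ), hord y.1 y.2⟩, ⟨s y.1 * (y.1 : G) ^ ((y.2 : ℕ) + 1), hord y.1 _⟩) :
        {g : G // orderOf g = 2} × {g : G // orderOf g = 2}))
  rintro ⟨x, i⟩ ⟨x', i'⟩ h
  simp only [Prod.mk.injEq, Subtype.mk.injEq] at h
  obtain ⟨h1, h2⟩ := h
  have h3 : (x : G) = x' := by rw [← hprod x i, ← hprod x' i', h1, h2]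
  have h4 : x = x' := Subtype.ext h3
  subst h4
  have h5 : (x : G) ^ (i : ℕ) = (x : G) ^ (i' : ℕ) := mul_left_cancel h1
  have h6 : (i : ℕ) = i' := by
    have h7 := pow_inj_mod.1 h5
    rw [x.2, Nat.mod_eq_of_lt i.2, Nat.mod_eq_of_lt i'.2] at h7
    exact h7
  rw [Fin.ext h6]

/-- an involution normalizing, not centralizing, a subgroup of prime order inverts it -/
theorem inverts {p : ℕ} [Fact p.Prime] {x s : G} (hx : orderOf x = p) (hs : orderOf s = 2)
    (hN : s ∈ normalizer ((zpowers x : Subgroup G) : Set G)) (hC : s * x ≠ x * s) : s * x * s⁻¹ = x⁻¹ := by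
  have hp : p.Prime := Fact.out
  have h1 : s * x * s⁻¹ ∈ zpowers x := (mem_normalizer_iff.1 hN x).1 (mem_zpowers x)
  obtain ⟨k, hk⟩ := mem_zpowers_iff.1 h1
  have h2 := mul_self_of_order hs
  have hsi : s⁻¹ = s := inv_eq_of_mul_eq_one_left h2
  have h3 : x ^ (k * k) = x := by
    rw [zpow_mul, hk, conj_zpow, hk]
    calc s * (s * x * s⁻¹) * s⁻¹ = (s * s) * x * (s * s)⁻¹ := by group
      _ = x := by rw [h2]; group
  have h4 : (p : ℤ) ∣ (k - 1) * (k + 1) := by
    rw [← hx, orderOf_dvd_iff_zpow_eq_one]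
    have : (k - 1) * (k + 1) = k * k - 1 := by ring
    rw [this, zpow_sub_one, h3, mul_inv_cancel]
  rcases (Int.Prime.dvd_mul' hp h4) with h5 | h5
  · exfalso
    apply hC
    have h6 : x ^ (k - 1) = 1 := by
      rw [← orderOf_dvd_iff_zpow_eq_one, hx]; exact h5
    have h7 : x ^ k = x := by
      rw [zpow_sub_one, mul_inv_eq_one] at h6
      exact h6
    rw [h7] at hk
    rw [eq_mul_inv_iff_mul_eq] at hk
    exact hk.symm
  · have h6 : x ^ (k + 1) = 1 := by
      rw [← orderOf_dvd_iff_zpow_eq_one, hx]; exact h5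
    rw [zpow_add_one] at h6
    rw [← hk]
    exact eq_inv_of_mul_eq_one_left h6

/-- if `|C(P)| = 2p` and `t ∈ C(P)` is an involution then `N(P) ≤ C(t)` -/
theorem norm_le_cent {p : ℕ} [Fact p.Prime] (hp2 : p ≠ 2) (P : Subgroup G) (hP : Nat.card P = p)
    (hC : Nat.card (centralizer (P : Set G)) = 2 * p) {t : G} (ht : orderOf t = 2) (htC : t ∈ centralizer (P : Set G)) :
    normalizer (P : Set G) ≤ centralizer ({t} : Set G) := by
  have hp : p.Prime := Fact.out
  intro g hg
  rw [mem_centralizer_singleton_iff]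
  have hPC : P ≤ centralizer (P : Set G) := le_centralizer_of_comm (isMulCommutative_of_prime_card hp hP)
  have hidx : (P.subgroupOf (centralizer (P : Set G))).index = 2 := by
    have h1 := relIndex_mul_card_of_le hPC
    rw [hP, hC] at h1
    exact Nat.eq_of_mul_eq_mul_right hp.pos h1
  have htC' : g * t * g⁻¹ ∈ centralizer (P : Set G) := by
    rw [mem_centralizer_iff] at htC ⊢
    intro y hy
    have h1 : g⁻¹ * y * g ∈ P := by
      have := (mem_normalizer_iff.1 ((normalizer (P : Set G)).inv_mem hg) y).1 hy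
      rwa [inv_inv] at this
    have h2 := htC _ h1
    calc y * (g * t * g⁻¹) = g * ((g⁻¹ * y * g) * t) * g⁻¹ := by group
      _ = g * (t * (g⁻¹ * y * g)) * g⁻¹ := by rw [h2]
      _ = g * t * g⁻¹ * y := by group
  have hto : orderOf (g * t * g⁻¹) = 2 := by
    have : g * t * g⁻¹ = MulAut.conj g t := rfl
    rw [this, MulEquiv.orderOf_eq]; exact ht
  have hnot : ∀ u : G, orderOf u = 2 → u ∉ P := by
    intro u hu huP
    have h1 := orderOf_dvd_card_of_mem huP
    rw [hu, hP] at h1
    exact hp2 ((Nat.prime_dvd_prime_iff_eq Nat.prime_two hp).1 h1).symm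
  have hx : t * (g * t * g⁻¹) ∈ P := by
    have h1 := (mul_mem_iff_of_index_two hidx (a := (⟨t, htC⟩ : centralizer (P : Set G))) (b := ⟨g * t * g⁻¹, htC'⟩)).2 ?_
    · exact mem_subgroupOf.1 h1
    · rw [mem_subgroupOf, mem_subgroupOf]
      constructor
      · intro h; exact absurd h (hnot t ht)
      · intro h; exact absurd h (hnot _ hto)
  set u := g * t * g⁻¹ with hu
  -- x = t u commutes with t
  have h1 : t * u * t = t * (t * u) := (mem_centralizer_iff.1 htC _ hx)
  have h2 := mul_self_of_order ht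
  have h3 : u * t = t * u := by
    have : t * (u * t) = t * (t * u) := by rw [← mul_assoc]; exact h1
    exact mul_left_cancel this
  have h4 : (t * u) * (t * u) = 1 := by
    calc t * u * (t * u) = t * (u * t) * u := by group
      _ = t * (t * u) * u := by rw [h3]
      _ = (t * t) * (u * u) := by group
      _ = 1 := by rw [h2, mul_self_of_order hto, mul_one]
  have h5 : t * u = 1 := by
    by_contra hne
    have h6 : orderOf (t * u) = 2 := orderOf_eq_prime (by rw [sq]; exact h4) hne
    exact hnot _ h6 hx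
  have h6 : u = t := by
    rw [← inv_eq_of_mul_eq_one_right h5]
    exact inv_eq_of_mul_eq_one_left h2
  rw [hu, mul_inv_eq_iff_eq_mul] at h6
  exact h6

end General

section Order

variable {G : Type*} [Group G] [Finite G] [IsSimpleGroup G]

/-- `|C(t)| = 8c` -/
theorem exists_c (h : Nat.card G = 175560) : ∃ c n2 : ℕ, (∀ t : G, orderOf t = 2 → Nat.card (centralizer ({t} : Set G)) = 8 * c) ∧
    8 * c ≤ 9240 ∧ Nat.card {g : G // orderOf g = 2} = n2 ∧ n2 * c = 21945 := by
  obtain ⟨S⟩ : Nonempty (Sylow 2 G) := inferInstance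
  have hnt : Nontrivial (S : Subgroup G) := by
    rw [← Finite.one_lt_card_iff_nontrivial, card2 h S]; norm_num
  have hz := S.2.center_nontrivial
  obtain ⟨z, hz2⟩ : ∃ z : center (S : Subgroup G), orderOf z = 2 := by
    have h2 : 2 ∣ Nat.card (center (S : Subgroup G)) := by
      have h3 : IsPGroup 2 (center (S : Subgroup G)) := S.2.to_subgroup _
      rcases h3.card_eq_or_dvd with h4 | h4
      · exfalso
        have := (Finite.one_lt_card_iff_nontrivial (α := center (S : Subgroup G))).2 hz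
        omega
      · exact h4
    exact exists_prime_orderOf_dvd_card' 2 h2
  set t0 : G := ((z : (S : Subgroup G)) : G) with ht0
  have hzo : orderOf t0 = 2 := by
    rw [ht0, Subgroup.orderOf_coe, Subgroup.orderOf_coe]; exact hz2
  have hle : (S : Subgroup G) ≤ centralizer ({t0} : Set G) := by
    intro x hx
    rw [mem_centralizer_singleton_iff]
    exact congrArg Subtype.val (mem_center_iff.1 z.2 ⟨x, hx⟩)
  obtain ⟨c, hc⟩ := card_dvd_of_le hle
  rw [card2 h S] at hc
  have hall : ∀ t : G, orderOf t = 2 → Nat.card (centralizer ({t} : Set G)) = 8 * c := by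
    intro t ht
    obtain ⟨g, hg⟩ := isConj_iff.1 (one_class h hzo ht)
    rw [← hg, card_centralizer_conj, hc]
  refine ⟨c, _, hall, ?_, rfl, ?_⟩
  · rw [← hc]
    exact card_le h _ (not_central h (ne_one_of_order hzo))
  · have h1 := card_isConj_mul_card_centralizer t0
    rw [hc, h] at h1
    have h2 : Nat.card {g : G // IsConj t0 g} = Nat.card {g : G // orderOf g = 2} := by
      apply Nat.card_congr
      apply Equiv.subtypeEquivRight
      intro g
      constructor
      · intro hg
        obtain ⟨k, hk⟩ := isConj_iff.1 hg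
        rw [← hk]
        have : k * t0 * k⁻¹ = MulAut.conj k t0 := rfl
        rw [this, MulEquiv.orderOf_eq]; exact hzo
      · intro hg
        exact one_class h hzo hg
    rw [h2] at h1
    have h3 : Nat.card {g : G // orderOf g = 2} * (8 * c) = 8 * (Nat.card {g : G // orderOf g = 2} * c) := by ring
    rw [h3] at h1
    omega

omit [Group G] [Finite G] [IsSimpleGroup G] in
theorem num19 {c m d : ℕ} (hm : m % 19 = 1) (hm2 : m * d = 8 * c) (hd4 : d = 76 ∨ d = 836) (hc8 : 8 * c ≤ 9240)
    (hcd : c ∣ 21945) : False := by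
  rcases hd4 with rfl | rfl
  · have h9 : m ≤ 121 := by omega
    have h11 : m % 2 = 0 := by
      by_contra hcon
      have : 21945 % 2 = 1 := by norm_num
      obtain ⟨k, hk⟩ := hcd
      omega
    have h10 : m = 20 ∨ m = 58 ∨ m = 96 := by omega
    rcases h10 with rfl | rfl | rfl
    · have : c = 190 := by omega
      rw [this] at hcd; revert hcd; norm_num
    · have : c = 551 := by omega
      rw [this] at hcd; revert hcd; norm_num
    · have : c = 912 := by omega
      rw [this] at hcd; revert hcd; norm_num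
  · omega

def okc (c : ℕ) : Bool := (21945 % c == 0) && ((c % 19 != 0) || ((8 * c % 114 == 0) && (8 * c / 114 % 19 == 1))) &&
  ((c % 7 != 0) || ((8 * c % 42 == 0) && (8 * c / 42 % 7 == 1))) &&
  ((c % 19 == 0) || Nat.ble 526680 ((21945 / c) ^ 2)) && ((c % 11 == 0) || Nat.ble 14630 ((21945 / c) ^ 2))

omit [Group G] [Finite G] [IsSimpleGroup G] in
theorem okc_check : ((List.range 1156).all fun c => (!okc c) || [1, 3, 5, 11, 15].contains c) = true := by decide +kernel

section Cent

variable {c n2 : ℕ} (hc : ∀ t : G, orderOf t = 2 → Nat.card (centralizer ({t} : Set G)) = 8 * c)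
include hc

omit [IsSimpleGroup G] in
theorem dvd_of_comm {p : ℕ} [Fact p.Prime] (hp2 : p ≠ 2) (P : Subgroup G) (hP : Nat.card P = p) {t : G} (ht : orderOf t = 2)
    (htC : t ∈ centralizer (P : Set G)) : p ∣ c := by
  have hp : p.Prime := Fact.out
  have h1 : P ≤ centralizer ({t} : Set G) := by
    intro x hx
    rw [mem_centralizer_singleton_iff]
    exact mem_centralizer_iff.1 htC x hx
  have h2 := card_dvd_of_le h1
  rw [hP, hc t ht] at h2
  refine (Nat.Coprime.dvd_of_dvd_mul_left ?_ h2)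
  have : Nat.Coprime p (2 ^ 3) := Nat.Coprime.pow_right 3 ((Nat.coprime_primes hp Nat.prime_two).2 hp2)
  exact this

omit [IsSimpleGroup G] in
theorem exists_comm (h : Nat.card G = 175560) {p : ℕ} [Fact p.Prime] (hcard : ∀ P : Sylow p G, Nat.card (P : Subgroup G) = p)
    (hpc : p ∣ c) (P : Sylow p G) : ∃ t : G, orderOf t = 2 ∧ t ∈ centralizer ((P : Subgroup G) : Set G) := by
  obtain ⟨t0, ht0⟩ := exists_prime_orderOf_dvd_card' (G := G) 2 (by rw [h]; norm_num)
  obtain ⟨x, hx, hxo⟩ := exists_mem_orderOf_eq (centralizer ({t0} : Set G)) p (by rw [hc t0 ht0]; exact hpc.mul_left 8)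
  obtain ⟨Q, hQ⟩ := exists_sylow_eq hcard x hxo
  obtain ⟨g, hg⟩ := MulAction.exists_smul_eq G Q P
  refine ⟨g * t0 * g⁻¹, ?_, ?_⟩
  · have : g * t0 * g⁻¹ = MulAut.conj g t0 := rfl
    rw [this, MulEquiv.orderOf_eq]; exact ht0
  · rw [mem_centralizer_iff]
    intro y hy
    have h1 : g⁻¹ * y * g ∈ (Q : Subgroup G) := by
      have h2 : y ∈ (g • Q : Sylow p G) := by rw [hg]; exact hy
      rw [Sylow.smul_def] at h2
      obtain ⟨z, hz, hzy⟩ := h2
      have h3 : g * z * g⁻¹ = y := hzy
      rw [← h3]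
      have : g⁻¹ * (g * z * g⁻¹) * g = z := by group
      rw [this]; exact hz
    rw [hQ] at h1
    obtain ⟨k, hk⟩ := mem_zpowers_iff.1 h1
    rw [mem_centralizer_singleton_iff] at hx
    have h4 : Commute (x ^ k) t0 := (show Commute x t0 from hx).zpow_left k
    rw [hk] at h4
    have h5 := h4.eq
    calc y * (g * t0 * g⁻¹) = g * ((g⁻¹ * y * g) * t0) * g⁻¹ := by group
      _ = g * (t0 * (g⁻¹ * y * g)) * g⁻¹ := by rw [h5]
      _ = g * t0 * g⁻¹ * y := by group

omit [IsSimpleGroup G] in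
theorem exists_inv {p : ℕ} [Fact p.Prime] (hp2 : p ≠ 2) (hcard : ∀ P : Sylow p G, Nat.card (P : Subgroup G) = p)
    (hpc : ¬ p ∣ c) (hN : ∀ P : Sylow p G, 2 ∣ Nat.card (normalizer ((P : Subgroup G) : Set G))) (x : G) (hx : orderOf x = p) :
    ∃ s : G, orderOf s = 2 ∧ s * x * s⁻¹ = x⁻¹ := by
  obtain ⟨P, hP⟩ := exists_sylow_eq hcard x hx
  obtain ⟨s, hs, hso⟩ := exists_mem_orderOf_eq (normalizer ((P : Subgroup G) : Set G)) 2 (hN P)
  refine ⟨s, hso, inverts hx hso (by rw [← hP]; exact hs) ?_⟩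
  intro hcomm
  apply hpc
  apply dvd_of_comm hc hp2 (P : Subgroup G) (hcard P) hso
  rw [hP, mem_centralizer_iff]
  rintro y hy
  obtain ⟨k, rfl⟩ := mem_zpowers_iff.1 hy
  exact ((show Commute x s from hcomm.symm).zpow_left k).eq

theorem bound_of (h : Nat.card G = 175560) (hn2 : Nat.card {g : G // orderOf g = 2} = n2) {p : ℕ} [Fact p.Prime] (hp2 : p ≠ 2)
    (hcard : ∀ P : Sylow p G, Nat.card (P : Subgroup G) = p) (hpc : ¬ p ∣ c)
    (hN : 2 * Nat.card (Sylow p G) ∣ 175560) : Nat.card (Sylow p G) * (p - 1) * p ≤ n2 ^ 2 := by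
  rw [← hn2]
  apply bound hp2 hcard
  apply exists_inv hc hp2 hcard hpc
  intro P
  have h1 := card_normalizer_mul_nsyl P
  rw [h] at h1
  rw [← h1] at hN
  have hpos : 0 < Nat.card (Sylow p G) := Nat.card_pos
  exact Nat.dvd_of_mul_dvd_mul_right hpos hN

theorem six_case (h : Nat.card G = 175560) {p : ℕ} [Fact p.Prime] (hp2 : p ≠ 2)
    (hcard : ∀ P : Sylow p G, Nat.card (P : Subgroup G) = p) (P : Sylow p G)
    (hN : Nat.card (normalizer ((P : Subgroup G) : Set G)) = 6 * p) (hpc : p ∣ c) :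
    ∃ m, m % p = 1 ∧ m * (6 * p) = 8 * c := by
  have hp : p.Prime := Fact.out
  obtain ⟨t, ht, htC⟩ := exists_comm hc h hcard hpc P
  obtain ⟨e, k, h1, h2, h3, h4⟩ := nc_data (hG h) P (hcard P)
  have h5 : 2 ∣ k := by
    have h6 : 2 ∣ p * k := by
      rw [← h2, ← ht]
      exact orderOf_dvd_card_of_mem htC
    exact (Nat.Coprime.dvd_of_dvd_mul_left ((Nat.coprime_primes Nat.prime_two hp).2 hp2.symm) h6)
  have h6 : e * k = 6 := by
    rw [hN] at h1
    apply Nat.eq_of_mul_eq_mul_right hp.pos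
    rw [h1]; ring
  have h7 : k = 2 := by
    obtain ⟨j, rfl⟩ := h5
    have h8 : e * j = 3 := by
      have : e * (2 * j) = 2 * (e * j) := by ring
      omega
    have h9 : e ∣ 3 := Dvd.intro _ h8
    rcases (Nat.dvd_prime Nat.prime_three).1 h9 with h10 | h10
    · exact absurd h10 h4
    · rw [h10] at h8; omega
  have h8 : Nat.card (centralizer ((P : Subgroup G) : Set G)) = 2 * p := by rw [h2, h7]; ring
  have h9 := norm_le_cent hp2 (P : Subgroup G) (hcard P) h8 ht htC
  have h10 : (P : Subgroup G) ≤ centralizer ({t} : Set G) := le_normalizer.trans h9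
  obtain ⟨m, hm, hm2⟩ := exists_mod P _ h10
  rw [inf_eq_left.2 h9, hN, hc t ht] at hm2
  exact ⟨m, hm, hm2⟩

theorem n19_ne (h : Nat.card G = 175560) (hc8 : 8 * c ≤ 9240) (hn2c : n2 * c = 21945) : Nat.card (Sylow 19 G) ≠ 210 := by
  intro h210
  obtain ⟨P⟩ : Nonempty (Sylow 19 G) := inferInstance
  have hP := cardP h 9240 (by norm_num) (by norm_num) P
  have hN := card_normalizer_mul_nsyl P
  rw [h210, h] at hN
  have hN : Nat.card (normalizer ((P : Subgroup G) : Set G)) = 836 := by omega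
  obtain ⟨e, k, h1, h2, h3, h4⟩ := nc_data (hG h) P hP
  have h5 : e * k = 44 := by
    rw [hN] at h1
    have : e * (19 * k) = 19 * (e * k) := by ring
    omega
  have h6 : e = 2 := by
    have h7 : e ∣ 44 := Dvd.intro _ h5
    have h8 : e ∣ Nat.gcd 44 18 := Nat.dvd_gcd h7 h3
    have h9 : Nat.gcd 44 18 = 2 := by decide
    rw [h9] at h8
    rcases (Nat.dvd_prime Nat.prime_two).1 h8 with h10 | h10
    · exact absurd h10 h4
    · exact h10
  rw [h6] at h5
  have h7 : k = 22 := by omega
  obtain ⟨t, htC, ht⟩ := exists_mem_orderOf_eq (centralizer ((P : Subgroup G) : Set G)) 2 (by rw [h2, h7]; norm_num)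
  have htN : t ∈ normalizer ((P : Subgroup G) : Set G) := centralizer_le_normalizer' _ htC
  have hPt : (P : Subgroup G) ≤ centralizer ({t} : Set G) := by
    intro x hx
    rw [mem_centralizer_singleton_iff]
    exact mem_centralizer_iff.1 htC x hx
  obtain ⟨m, hm, hm2⟩ := exists_mod P _ hPt
  rw [hc t ht] at hm2
  set d := Nat.card ↥(normalizer ((P : Subgroup G) : Set G) ⊓ centralizer ({t} : Set G)) with hd
  have hd1 : d ∣ 836 := by rw [← hN, hd]; exact card_dvd_of_le inf_le_left
  have hd2 : 19 ∣ d := by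
    rw [← hP, hd]
    exact card_dvd_of_le (le_inf le_normalizer hPt)
  have hd3 : 4 ∣ d := by
    have hz : IsPGroup 2 (zpowers (⟨t, htN⟩ : normalizer ((P : Subgroup G) : Set G))) := by
      rw [IsPGroup.iff_card]
      exact ⟨1, by rw [Nat.card_zpowers, orderOf_mk, ht, pow_one]⟩
    obtain ⟨T, hT⟩ := hz.exists_le_sylow
    have hT4 : Nat.card (T : Subgroup (normalizer ((P : Subgroup G) : Set G))) = 2 ^ 2 :=
      sylow_card_of (m := 209) (by rw [hN]; norm_num) (by norm_num) T
    have hTc := IsPGroup.isMulCommutative_of_card_eq_prime_sq hT4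
    have h8 : (T : Subgroup (normalizer ((P : Subgroup G) : Set G))).map (Subgroup.subtype _) ≤
        normalizer ((P : Subgroup G) : Set G) ⊓ centralizer ({t} : Set G) := by
      rintro _ ⟨y, hy, rfl⟩
      refine ⟨y.2, ?_⟩
      apply mem_centralizer_singleton_iff.2
      have h9 := hTc.is_comm.comm (⟨y, hy⟩ : (T : Subgroup (normalizer ((P : Subgroup G) : Set G))))
        ⟨⟨t, htN⟩, hT (mem_zpowers _)⟩
      exact congrArg (fun z : (T : Subgroup (normalizer ((P : Subgroup G) : Set G))) => ((z : normalizer ((P : Subgroup G) : Set G)) : G)) h9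
    have h9 := card_dvd_of_le h8
    have h10 : Nat.card ((T : Subgroup (normalizer ((P : Subgroup G) : Set G))).map (Subgroup.subtype _)) = 2 ^ 2 := by
      rw [← hT4]
      exact (Nat.card_congr ((T : Subgroup (normalizer ((P : Subgroup G) : Set G))).equivMapOfInjective _ (Subgroup.subtype_injective _)).toEquiv).symm
    rw [h10] at h9
    exact h9
  have hd4 : d = 76 ∨ d = 836 := by
    have h8 : 76 ∣ d := by
      have := Nat.Coprime.mul_dvd_of_dvd_of_dvd (by norm_num : Nat.Coprime 19 4) hd2 hd3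
      exact this
    obtain ⟨j, hj⟩ := h8
    rw [hj] at hd1 ⊢
    have h9 : j ∣ 11 := by
      have : (836 : ℕ) = 76 * 11 := by norm_num
      rw [this] at hd1
      exact Nat.dvd_of_mul_dvd_mul_left (by norm_num) hd1
    rcases (Nat.dvd_prime (by norm_num : Nat.Prime 11)).1 h9 with rfl | rfl
    · left; rfl
    · right; rfl
  have hcd : c ∣ 21945 := Dvd.intro_left _ hn2c
  exact num19 hm hm2 hd4 hc8 hcd

/-- the possible centralizer orders -/
theorem c_vals (h : Nat.card G = 175560) (hc8 : 8 * c ≤ 9240) (hn2 : Nat.card {g : G // orderOf g = 2} = n2)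
    (hn2c : n2 * c = 21945) : c = 1 ∨ c = 3 ∨ c = 5 ∨ c = 11 ∨ c = 15 := by
  obtain ⟨h7, h5, h19⟩ := numbers h
  have h19' : Nat.card (Sylow 19 G) = 1540 ∧ (Nat.card (Sylow 11 G) = 133 ∨ Nat.card (Sylow 11 G) = 1596) := by
    rcases h19 with h19 | ⟨h19, -⟩
    · exact h19
    · exact absurd h19 (n19_ne hc h hc8 hn2c)
  obtain ⟨h19a, h11⟩ := h19'
  have hcd : c ∣ 21945 := Dvd.intro_left _ hn2c
  have hP7 := cardP (p := 7) h 25080 (by norm_num) (by norm_num)
  have hP11 := cardP (p := 11) h 15960 (by norm_num) (by norm_num)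
  have hP19 := cardP (p := 19) h 9240 (by norm_num) (by norm_num)
  have a19 : 19 ∣ c → ∃ m, m % 19 = 1 ∧ m * (6 * 19) = 8 * c := by
    intro hd
    obtain ⟨P⟩ : Nonempty (Sylow 19 G) := inferInstance
    apply six_case hc h (by norm_num) hP19 P _ hd
    have hN := card_normalizer_mul_nsyl P
    rw [h19a, h] at hN
    omega
  have a7 : 7 ∣ c → ∃ m, m % 7 = 1 ∧ m * (6 * 7) = 8 * c := by
    intro hd
    obtain ⟨P⟩ : Nonempty (Sylow 7 G) := inferInstance
    apply six_case hc h (by norm_num) hP7 P _ hd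
    have hN := card_normalizer_mul_nsyl P
    rw [h7, h] at hN
    omega
  have b19 : ¬ 19 ∣ c → 526680 ≤ n2 ^ 2 := by
    intro hd
    have := bound_of hc h hn2 (p := 19) (by norm_num) hP19 hd (by rw [h19a]; norm_num)
    rw [h19a] at this
    exact this
  have b11 : ¬ 11 ∣ c → 14630 ≤ n2 ^ 2 := by
    intro hd
    have := bound_of hc h hn2 (p := 11) (by norm_num) hP11 hd (by rcases h11 with h11 | h11 <;> rw [h11] <;> norm_num)
    rcases h11 with h11 | h11 <;> rw [h11] at this <;> omega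
  -- enumerate
  have hc0 : 0 < c := Nat.pos_of_ne_zero (by rintro rfl; omega)
  have hn2' : 21945 / c = n2 := by rw [← hn2c, Nat.mul_div_cancel _ hc0]
  have h1 := okc_check
  rw [List.all_eq_true] at h1
  have h2 := h1 c (List.mem_range.2 (by omega))
  have h3 : okc c = true := by
    unfold okc
    simp only [Bool.and_eq_true, Bool.or_eq_true, beq_iff_eq, bne_iff_ne, Nat.ble_eq]
    rw [hn2']
    refine ⟨⟨⟨⟨Nat.mod_eq_zero_of_dvd hcd, ?_⟩, ?_⟩, ?_⟩, ?_⟩
    · by_cases h0 : c % 19 = 0
      · right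
        obtain ⟨m, hm1, hm2⟩ := a19 (Nat.dvd_of_mod_eq_zero h0)
        rw [← hm2, show 6 * 19 = 114 by norm_num]
        exact ⟨Nat.mul_mod_left _ _, by rw [Nat.mul_div_cancel _ (by norm_num)]; exact hm1⟩
      · exact Or.inl h0
    · by_cases h0 : c % 7 = 0
      · right
        obtain ⟨m, hm1, hm2⟩ := a7 (Nat.dvd_of_mod_eq_zero h0)
        rw [← hm2, show 6 * 7 = 42 by norm_num]
        exact ⟨Nat.mul_mod_left _ _, by rw [Nat.mul_div_cancel _ (by norm_num)]; exact hm1⟩
      · exact Or.inl h0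
    · by_cases h0 : c % 19 = 0
      · exact Or.inl h0
      · exact Or.inr (b19 (fun hd => h0 (Nat.mod_eq_zero_of_dvd hd)))
    · by_cases h0 : c % 11 = 0
      · exact Or.inl h0
      · exact Or.inr (b11 (fun hd => h0 (Nat.mod_eq_zero_of_dvd hd)))
  rw [h3] at h2
  simpa using h2

end Cent

end Order

end Cfsg.Agent.Lib.H10J175
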