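import Cfsg.Agent.Lib.H10J175c
import Cfsg.Agent.Lib.H76Char
import Cfsg.Agent.Lib.DefectZero
import Cfsg.Agent.S4481
import Cfsg.Agent.S4482

set_option autoImplicit false
set_option linter.unusedSectionVars false

/-! Simple groups of order 175560: the Sylow 2-subgroup is not dihedral. -/

namespace Cfsg.Agent.Lib.H10J175

open Subgroup
open Cfsg.Agent.Lib.SmallSimple
open Cfsg.Agent.Lib.Simple168 (exists_mem_orderOf_eq orderOf_dvd_card_of_mem card_orderOf_eq card_centralizer_conj)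

def DD : List ℕ := [1, 2, 3, 4, 5, 6, 7, 8, 10, 11, 12, 14, 15, 19, 20, 21, 22, 24, 28, 30, 33, 35, 38, 40, 42, 44, 55, 56, 57, 60, 66, 70, 76, 77, 84, 88, 95, 105, 110, 114, 120, 132, 133, 140, 152, 154, 165, 168, 190, 209, 210, 220, 228, 231, 264, 266, 280, 285, 308, 330, 380, 385, 399, 418, 420, 440, 456, 462, 532, 570, 616, 627, 660, 665, 760, 770, 798, 836, 840, 924, 1045, 1064, 1140, 1155, 1254, 1320, 1330, 1463, 1540, 1596, 1672, 1848, 1995, 2090, 2280, 2310, 2508, 2660, 2926, 3080, 3135, 3192, 3990, 4180, 4389, 4620, 5016, 5320, 5852, 6270, 7315, 7980, 8360, 8778, 9240, 11704, 12540, 14630, 15960, 17556, 21945, 25080, 29260, 35112, 43890, 58520, 87780, 175560]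

theorem DD_check : ((List.range 420).all fun y => (175560 % y != 0) || (DD.contains y && DD.contains (175560 / y))) = true := by
  decide +kernel

theorem mem_DD {x : ℕ} (hx : x ∣ 175560) : x ∈ DD := by
  obtain ⟨y, hy⟩ := hx
  have h1 := DD_check
  rw [List.all_eq_true] at h1
  have hx0 : 0 < x := Nat.pos_of_ne_zero (by rintro rfl; omega)
  have hy0 : 0 < y := Nat.pos_of_ne_zero (by rintro rfl; omega)
  by_cases h2 : x < 420
  · have h3 := h1 x (List.mem_range.2 h2)
    have h4 : 175560 % x = 0 := by rw [hy, Nat.mul_mod_right]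
    rw [h4] at h3
    simp only [bne_self_eq_false, Bool.false_or, Bool.and_eq_true, List.contains_iff_mem] at h3
    exact h3.1
  · have h5 : y < 420 := by
      by_contra h6
      have : 420 * 420 ≤ x * y := Nat.mul_le_mul (by omega) (by omega)
      omega
    have h3 := h1 y (List.mem_range.2 h5)
    have h4 : 175560 % y = 0 := by rw [hy, Nat.mul_mod_left]
    have h7 : 175560 / y = x := by rw [hy, Nat.mul_div_cancel _ hy0]
    rw [h4, h7] at h3
    simp only [bne_self_eq_false, Bool.false_or, Bool.and_eq_true, List.contains_iff_mem] at h3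
    exact h3.2

/-- divisors of 8 * 15, of 8 * 11 -/
def EE : List ℕ := [1, 2, 3, 4, 5, 6, 8, 10, 11, 12, 15, 20, 22, 24, 30, 40, 44, 60, 88, 120]

def bad1 (c x k1 k2 : ℕ) : Bool :=
  Nat.beq (175560 * (x - 1) ^ 2 * (k1 * k2) ^ 2) (2 * x * (x + 1) * (8 * c) ^ 3 * (k1 + k2) ^ 2)

def bad2 (c x k1 k2 : ℕ) : Bool :=
  Nat.beq (175560 * (x + 1) ^ 2 * (k1 * k2) ^ 2) (2 * x * (x - 1) * (8 * c) ^ 3 * (k1 + k2) ^ 2)

theorem bad_check : ([1, 3, 5, 11, 15].all fun c => EE.all fun k1 => (8 * c % k1 != 0) || EE.all fun k2 => (8 * c % k2 != 0) ||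
    DD.all fun x => !(bad1 c x k1 k2) && !(bad2 c x k1 k2)) = true := by decide +kernel

theorem mem_EE {c k : ℕ} (hc : c = 1 ∨ c = 3 ∨ c = 5 ∨ c = 11 ∨ c = 15) (hk : k ∣ 8 * c) : k ∈ EE := by
  have hk0 : k ≤ 120 := by
    have := Nat.le_of_dvd (by omega) hk
    omega
  have key : ((List.range 121).all fun k => ([1, 3, 5, 11, 15].all fun c => (8 * c % k != 0) || EE.contains k)) = true := by
    decide +kernel
  rw [List.all_eq_true] at key
  have h1 := key k (List.mem_range.2 (by omega))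
  rw [List.all_eq_true] at h1
  have h2 := h1 c (by simp; exact hc)
  rw [Nat.mod_eq_zero_of_dvd hk] at h2
  simp only [bne_self_eq_false, Bool.false_or, List.contains_iff_mem] at h2
  exact h2

theorem no_sol {c x k1 k2 : ℕ} (hc : c = 1 ∨ c = 3 ∨ c = 5 ∨ c = 11 ∨ c = 15) (hx : x ∣ 175560) (h1 : k1 ∣ 8 * c) (h2 : k2 ∣ 8 * c) :
    175560 * (x - 1) ^ 2 * (k1 * k2) ^ 2 ≠ 2 * x * (x + 1) * (8 * c) ^ 3 * (k1 + k2) ^ 2 ∧
    175560 * (x + 1) ^ 2 * (k1 * k2) ^ 2 ≠ 2 * x * (x - 1) * (8 * c) ^ 3 * (k1 + k2) ^ 2 := by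
  have key := bad_check
  rw [List.all_eq_true] at key
  have a1 := key c (by simp; exact hc)
  rw [List.all_eq_true] at a1
  have a2 := a1 k1 (mem_EE hc h1)
  rw [Nat.mod_eq_zero_of_dvd h1] at a2
  simp only [bne_self_eq_false, Bool.false_or] at a2
  rw [List.all_eq_true] at a2
  have a3 := a2 k2 (mem_EE hc h2)
  rw [Nat.mod_eq_zero_of_dvd h2] at a3
  simp only [bne_self_eq_false, Bool.false_or] at a3
  rw [List.all_eq_true] at a3
  have a4 := a3 x (mem_DD hx)
  simp only [Bool.and_eq_true, Bool.not_eq_true', bad1, bad2] at a4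
  constructor
  · intro e
    have := a4.1
    rw [e, Nat.beq_refl] at this
    exact absurd this (by simp)
  · intro e
    have := a4.2
    rw [e, Nat.beq_refl] at this
    exact absurd this (by simp)

variable {G : Type*} [Group G] [Finite G] [IsSimpleGroup G]

theorem not_dihedral (h : Nat.card G = 175560) {c : ℕ} (hc : ∀ t : G, orderOf t = 2 → Nat.card (centralizer ({t} : Set G)) = 8 * c)
    (hcv : c = 1 ∨ c = 3 ∨ c = 5 ∨ c = 11 ∨ c = 15) (S : Sylow 2 G) (r s : (S : Subgroup G)) (hr : orderOf r = 4) (hs : s * s = 1)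
    (hsr : s * r * s = r⁻¹) (hsn : s ∉ zpowers r) : False := by
  obtain ⟨M, hM⟩ := Cfsg.Agent.Lib.H76Char.exists_isPModular 2
  have e : Nonempty ((S : Subgroup G) ≃* DihedralGroup (2 ^ (3 - 1))) :=
    Cfsg.Agent.Lib.DihedralHom.nonempty_mulEquiv (by norm_num) r s hr hs hsr hsn (closure_dihedral (card2 h S) hr hsn)
  have hs1 : s ≠ 1 := fun e => hsn (e ▸ one_mem _)
  have hso : orderOf s = 2 := orderOf_eq_prime (by rw [sq]; exact hs) hs1
  have hζ : IsPrimitiveRoot (Complex.exp (2 * Real.pi * Complex.I / ((2 ^ (3 - 1) : ℕ) : ℂ))) (2 ^ (3 - 1)) :=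
    Complex.isPrimitiveRoot_exp _ (by norm_num)
  have hro : orderOf (r : G) = 2 ^ (3 - 1) := by rw [Subgroup.orderOf_coe]; exact hr
  have hso' : orderOf (s : G) = 2 := by rw [Subgroup.orderOf_coe]; exact hso
  obtain ⟨-, χ, χ₂, χ₃, χ', δ, δ₂, δ₃, hδ, -, -, -, hχ1, -, -, -, -, -, -, hB, hval, -⟩ :=
    Cfsg.Agent.S4481.result M hM 3 le_rfl S e (r : G) r.2 hro _ hζ
  have hsinv : s⁻¹ = s := inv_eq_of_mul_eq_one_left hs
  have hrel : (s : G) * r * (s : G)⁻¹ = (r : G)⁻¹ := by
    have : s * r * s⁻¹ = r⁻¹ := by rw [hsinv]; exact hsr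
    exact congrArg Subtype.val this
  have hgen : closure ({(r : G), (s : G)} : Set G) = (S : Subgroup G) := by
    have h1 := congrArg (Subgroup.map (S : Subgroup G).subtype) (closure_dihedral (card2 h S) hr hsn)
    rw [MonoidHom.map_closure, Set.image_pair] at h1
    rw [← MonoidHom.range_eq_map, Subgroup.range_subtype] at h1
    exact h1
  have hr2 : orderOf ((r : G) ^ 2 ^ (3 - 2)) = 2 := by
    have : orderOf ((r : G) ^ 2) = 2 := by
      rw [orderOf_pow, hro]; norm_num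
    exact this
  have hrs : orderOf ((r : G) * s) = 2 := by
    have h1 : r * s * (r * s) = 1 := by
      calc r * s * (r * s) = r * (s * r * s) := by group
        _ = 1 := by rw [hsr, mul_inv_cancel]
    have h2 : r * s ≠ 1 := by
      intro h3
      apply hsn
      rw [← inv_eq_of_mul_eq_one_right h3]
      exact inv_mem (mem_zpowers r)
    have h3 : orderOf (r * s) = 2 := orderOf_eq_prime (by rw [sq]; exact h1) h2
    rw [← Subgroup.orderOf_coe] at h3
    exact h3
  have hχB : χ ∈ principalBlock M G := by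
    rw [hB]; right; left; rfl
  obtain ⟨hne, hform⟩ := Cfsg.Agent.S4482.result M hM 3 le_rfl S (r : G) (s : G) r.2 s.2 hro hso' hrel hgen
    ⟨one_class h hr2 hso', one_class h hr2 hrs⟩ χ hχB hχ1 δ hδ (fun l hl1 hl2 => (hval l hl1 hl2).1)
  have hx := Cfsg.Agent.Lib.DefectZero.charDegree_dvd χ.2
  rw [h] at hx hform
  rw [hc _ hr2] at hform
  set x := charDegree (χ : G → ℂ) with hxdef
  have hk1 : Nat.card (centralizer ({(r : G) ^ 2 ^ (3 - 2), (s : G)} : Set G)) ∣ 8 * c := by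
    rw [← hc _ hr2]
    exact card_dvd_of_le (centralizer_le (by simp))
  have hk2 : Nat.card (centralizer ({(r : G) ^ 2 ^ (3 - 2), (r : G) * (s : G)} : Set G)) ∣ 8 * c := by
    rw [← hc _ hr2]
    exact card_dvd_of_le (centralizer_le (by simp))
  have hp1 : 0 < Nat.card (centralizer ({(r : G) ^ 2 ^ (3 - 2), (s : G)} : Set G)) := Nat.card_pos
  have hp2 : 0 < Nat.card (centralizer ({(r : G) ^ 2 ^ (3 - 2), (r : G) * (s : G)} : Set G)) := Nat.card_pos
  revert hform hk1 hk2 hp1 hp2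
  generalize Nat.card (centralizer ({(r : G) ^ 2 ^ (3 - 2), (s : G)} : Set G)) = k1
  generalize Nat.card (centralizer ({(r : G) ^ 2 ^ (3 - 2), (r : G) * (s : G)} : Set G)) = k2
  intro hform hk1 hk2 hp1 hp2
  have hx0 : 1 ≤ x := Nat.pos_of_ne_zero (by rintro h0; rw [h0] at hx; revert hx; norm_num)
  obtain ⟨n1, n2⟩ := no_sol hcv hx hk1 hk2
  have hk1' : (k1 : ℚ) ≠ 0 := by positivity
  have hk2' : (k2 : ℚ) ≠ 0 := by positivity
  rcases hδ with hδ | hδ
  · apply n1
    have h5 : ((175560 * (x - 1) ^ 2 * (k1 * k2) ^ 2 : ℕ) : ℚ) = ((2 * x * (x + 1) * (8 * c) ^ 3 * (k1 + k2) ^ 2 : ℕ) : ℚ) := by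
      push_cast [Nat.cast_sub hx0]
      rw [hδ] at hform
      push_cast at hform
      field_simp at hform
      linear_combination hform
    exact_mod_cast h5
  · apply n2
    have h5 : ((175560 * (x + 1) ^ 2 * (k1 * k2) ^ 2 : ℕ) : ℚ) = ((2 * x * (x - 1) * (8 * c) ^ 3 * (k1 + k2) ^ 2 : ℕ) : ℚ) := by
      push_cast [Nat.cast_sub hx0]
      rw [hδ] at hform
      push_cast at hform
      field_simp at hform
      linear_combination hform
    exact_mod_cast h5

end Cfsg.Agent.Lib.H10J175
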