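import Cfsg.Agent.Lib.H10J175d
import Cfsg.Agent.Lib.H10TCI5
import Cfsg.Agent.Lib.JanFin
import Cfsg.Agent.Lib.ElemCent3
import Cfsg.Agent.Lib.Gaschutz
import Cfsg.Agent.Lib.H31Gen
import Cfsg.Agent.Lib.Cores3
import Cfsg.Agent.Lib.SL25
import Cfsg.Agent.Lib.ClSLn
import Cfsg.Agent.S0228
import Cfsg.Agent.S0494

set_option autoImplicit false
set_option linter.unusedSectionVars false

/-! Simple groups of order 175560: elementary abelian Sylow 2-subgroups. -/

namespace Cfsg.Agent.Lib.H10J175

open Subgroup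
open Cfsg.Agent.Lib.SmallSimple
open Cfsg.Agent.Lib.Simple168 (exists_mem_orderOf_eq orderOf_dvd_card_of_mem card_orderOf_eq card_centralizer_conj)

section General

variable {G : Type*} [Group G] [Finite G]

/-- splitting of a central involution from an elementary abelian Sylow 2-subgroup of its centralizer -/
theorem split (S : Sylow 2 G) (hS : ∀ x ∈ (S : Subgroup G), x * x = 1) {t : G} (htS : t ∈ (S : Subgroup G)) (ht : orderOf t = 2)
    (hc : ∀ x ∈ (S : Subgroup G), ∀ y ∈ (S : Subgroup G), x * y = y * x) :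
    ∃ T : Subgroup G, IsInternalDirectProduct (zpowers t) T (centralizer ({t} : Set G)) := by
  have hSC : (S : Subgroup G) ≤ centralizer ({t} : Set G) := fun x hx => mem_centralizer_singleton_iff.2 (hc x hx t htS)
  have htC : t ∈ centralizer ({t} : Set G) := hSC htS
  have hE : IsElementaryAbelian 2 (S : Subgroup G) :=
    ⟨⟨⟨fun x y => Subtype.ext (hc x x.2 y y.2)⟩⟩, fun a ha => by rw [sq]; exact hS a ha⟩
  obtain ⟨B, hBS, htB, hBt, -⟩ := H31Gen.exists_complement hE htS (ne_one_of_order ht)
  have hzC : zpowers t ≤ centralizer ({t} : Set G) := by rw [zpowers_le]; exact htC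
  have hzz : ∀ z ∈ zpowers t, z = 1 ∨ z = t := by
    intro z hz
    obtain ⟨k, rfl⟩ := mem_zpowers_iff.1 hz
    have h2 := mul_self_of_order ht
    rcases Int.even_or_odd' k with ⟨m, hm | hm⟩
    · left; rw [hm, zpow_mul, zpow_ofNat, sq, h2, one_zpow]
    · right; rw [hm, zpow_add, zpow_mul, zpow_ofNat, sq, h2, one_zpow, one_mul, zpow_one]
  set C := centralizer ({t} : Set G) with hCdef
  have hcent : ∀ c : C, (c : G) * t = t * c := fun c => mem_centralizer_singleton_iff.1 c.2
  have hKn : ((zpowers t).subgroupOf C).Normal := by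
    refine ⟨fun n hn g => ?_⟩
    rw [mem_subgroupOf] at hn ⊢
    rcases hzz _ hn with h1 | h1
    · show (g : G) * n * (g : G)⁻¹ ∈ zpowers t
      rw [h1, mul_one, mul_inv_cancel]; exact one_mem _
    · show (g : G) * n * (g : G)⁻¹ ∈ zpowers t
      rw [h1, hcent g, mul_assoc, mul_inv_cancel, mul_one]; exact mem_zpowers t
  have hKc : IsMulCommutative ((zpowers t).subgroupOf C) := by
    refine ⟨⟨fun x y => ?_⟩⟩
    apply Subtype.ext
    apply Subtype.ext
    show ((x : C) : G) * ((y : C) : G) = ((y : C) : G) * ((x : C) : G)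
    rcases hzz _ (mem_subgroupOf.1 x.2) with h1 | h1 <;> rcases hzz _ (mem_subgroupOf.1 y.2) with h2 | h2 <;>
      rw [h1, h2] <;> simp
  have hKcard : Nat.card ((zpowers t).subgroupOf C) = 2 := by
    rw [card_subgroupOf, inf_eq_left.2 hzC, Nat.card_zpowers, ht]
  obtain ⟨H, hH⟩ := Gaschutz.exists_complement ((zpowers t).subgroupOf C) ((S : Subgroup G).subgroupOf C)
    (by
      intro x hx
      rw [mem_subgroupOf] at hx ⊢
      exact (zpowers_le.2 htS) hx)
    (by
      rw [hKcard, Nat.Prime.coprime_iff_not_dvd Nat.prime_two]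
      intro h
      exact S.not_dvd_index (h.trans (relIndex_dvd_index_of_le hSC)))
    (B.subgroupOf C)
    (by
      rw [eq_bot_iff]
      intro x hx
      obtain ⟨h1, h2⟩ := mem_inf.1 hx
      rw [mem_subgroupOf] at h1 h2
      rw [mem_bot]
      apply Subtype.ext
      rcases hzz _ h2 with h3 | h3
      · exact h3
      · exfalso; apply htB; rw [← h3]; exact h1)
    (by
      rw [← hBt, sup_comm B, subgroupOf_sup hzC (hBS.trans hSC)])
  refine ⟨H.map C.subtype, hzC, map_subtype_le _, ?_, ?_, ?_⟩
  · intro a ha b hb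
    obtain ⟨h, hh, rfl⟩ := hb
    rcases hzz a ha with h1 | h1
    · rw [h1]; simp
    · rw [h1]; exact (hcent h).symm
  · rw [eq_bot_iff]
    intro x hx
    obtain ⟨h1, h2⟩ := mem_inf.1 hx
    obtain ⟨h, hh, rfl⟩ := h2
    have h3 : h ∈ (zpowers t).subgroupOf C ⊓ H := ⟨mem_subgroupOf.2 h1, hh⟩
    rw [hH.disjoint.eq_bot, mem_bot] at h3
    rw [h3]; exact one_mem _
  · have h1 := congrArg (Subgroup.map C.subtype) hH.sup_eq_top
    rw [Subgroup.map_sup, subgroupOf_map_subtype, inf_eq_left.2 hzC, ← MonoidHom.range_eq_map, Subgroup.range_subtype] at h1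
    exact h1

/-- a group of order 60 with a Sylow 5-normalizer of order 10 is alternating -/
theorem alt5_of {T : Type*} [Group T] [Finite T] (h60 : Nat.card T = 60) (h5 : Nat.card (Sylow 5 T) ≠ 1) :
    Nonempty (T ≃* alternatingGroup (Fin 5)) := by
  have hT5 : Nat.card T = 5 ^ 1 * 12 := by rw [h60]; norm_num
  have h1 := nsyl_mem hT5 (by norm_num)
  have h2 : (Nat.divisors 12).filter (fun d => d % 5 = 1) = {1, 6} := by decide +kernel
  rw [h2] at h1
  simp only [Finset.mem_insert, Finset.mem_singleton] at h1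
  have h6 := h1.resolve_left h5
  obtain ⟨P⟩ : Nonempty (Sylow 5 T) := inferInstance
  have hN := card_normalizer_mul_nsyl P
  rw [h6, h60] at hN
  have hN10 : Nat.card (normalizer ((P : Subgroup T) : Set T)) = 10 := by omega
  have hns : ¬ Group.IsSolvable T := by
    intro hs
    have hco : IsCoatom (normalizer ((P : Subgroup T) : Set T)) := by
      refine ⟨fun h => ?_, fun M hM => ?_⟩
      · rw [h, card_top, h60] at hN10; omega
      · obtain ⟨m, hm, hm2⟩ := exists_mod P M (le_normalizer.trans hM.le)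
        rw [inf_eq_left.2 hM.le, hN10] at hm2
        have h7 : m * 10 ∣ 60 := by rw [hm2, ← h60]; exact card_subgroup_dvd_card M
        have h8 : m ∣ 6 := by
          obtain ⟨k, hk⟩ := h7
          exact ⟨k, by nlinarith⟩
        have h9 : m ≤ 6 := Nat.le_of_dvd (by norm_num) h8
        have h10 : m = 1 ∨ m = 6 := by omega
        rcases h10 with rfl | rfl
        · exfalso
          have : normalizer ((P : Subgroup T) : Set T) = M := eq_of_le_of_card_ge hM.le (by omega)
          exact hM.ne this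
        · exact eq_top_of_card_eq M (by omega)
    have h7 := Cfsg.Agent.Lib.Cores.isPrimePow_index_of_isCoatom _ hco
    have h11 : (normalizer ((P : Subgroup T) : Set T)).index = 6 := by
      have := P.card_eq_index_normalizer
      rw [h6] at this
      exact this.symm
    rw [h11] at h7
    revert h7
    rw [isPrimePow_nat_iff]
    rintro ⟨p, k, hp, hk, hpk⟩
    have h2 : 2 ∣ p ^ k := by rw [hpk]; norm_num
    have h3 : 3 ∣ p ^ k := by rw [hpk]; norm_num
    have h2' := (Nat.prime_dvd_prime_iff_eq Nat.prime_two hp).1 (Nat.prime_two.dvd_of_dvd_pow h2)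
    have h3' := (Nat.prime_dvd_prime_iff_eq Nat.prime_three hp).1 (Nat.prime_three.dvd_of_dvd_pow h3)
    omega
  have hsimp : IsSimpleGroup T := SL25.isSimpleGroup_of_card_sixty h60 hns
  exact Cfsg.Agent.S0494.result h60

end General

section Order

variable {G : Type*} [Group G] [Finite G] [IsSimpleGroup G]

omit [IsSimpleGroup G] in
theorem comm_of {S : Subgroup G} (hS : ∀ x ∈ S, x * x = 1) : ∀ x ∈ S, ∀ y ∈ S, x * y = y * x := by
  intro x hx y hy
  have h1 := hS x hx
  have h2 := hS y hy
  have h3 := hS _ (S.mul_mem hx hy)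
  calc x * y = (x * y)⁻¹ := (inv_eq_of_mul_eq_one_left h3).symm
    _ = y⁻¹ * x⁻¹ := mul_inv_rev _ _
    _ = y * x := by rw [inv_eq_of_mul_eq_one_left h1, inv_eq_of_mul_eq_one_left h2]

omit [IsSimpleGroup G] in
theorem centralizer_conj (g u : G) : centralizer ({g * u * g⁻¹} : Set G) = (centralizer ({u} : Set G)).map (MulAut.conj g).toMonoidHom := by
  ext y
  rw [mem_centralizer_singleton_iff]
  constructor
  · intro h
    refine ⟨g⁻¹ * y * g, ?_, ?_⟩
    · apply mem_centralizer_singleton_iff.2
      calc g⁻¹ * y * g * u = g⁻¹ * (y * (g * u * g⁻¹)) * g := by group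
        _ = g⁻¹ * ((g * u * g⁻¹) * y) * g := by rw [h]
        _ = u * (g⁻¹ * y * g) := by group
    · show g * (g⁻¹ * y * g) * g⁻¹ = y
      group
  · rintro ⟨z, hz, rfl⟩
    have hz' := mem_centralizer_singleton_iff.1 hz
    show g * z * g⁻¹ * (g * u * g⁻¹) = g * u * g⁻¹ * (g * z * g⁻¹)
    calc g * z * g⁻¹ * (g * u * g⁻¹) = g * (z * u) * g⁻¹ := by group
      _ = g * (u * z) * g⁻¹ := by rw [hz']
      _ = _ := by group

/-- the centralizers of the involutions of `S` form blocks -/
theorem blocks (h : Nat.card G = 175560) (S : Sylow 2 G) (hS : ∀ x ∈ (S : Subgroup G), x * x = 1)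
    {t z : G} (htS : t ∈ (S : Subgroup G)) (ht : t ≠ 1) (hzS : z ∈ (S : Subgroup G)) (hz : z ≠ 1) (htz : t ≠ z)
    (hC : centralizer ({t} : Set G) = centralizer ({z} : Set G)) :
    ∀ u ∈ (S : Subgroup G), u ≠ 1 → centralizer ({u} : Set G) = centralizer ({t} : Set G) := by
  classical
  have h7 := H10Eight.card_X (S := S) (card2 h S)
  have hfin : Finite (H10Eight.X S) := by
    apply Nat.finite_of_card_ne_zero; rw [h7]; norm_num
  have hft : Fintype (H10Eight.X S) := Fintype.ofFinite _
  let f : H10Eight.X S → Subgroup G := fun u => centralizer ({u.1} : Set G)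
  set t' : H10Eight.X S := ⟨t, htS, ht⟩ with ht'
  set z' : H10Eight.X S := ⟨z, hzS, hz⟩ with hz'
  have hfib : ∀ u : H10Eight.X S, (Finset.univ.filter fun v => f v = f u).card = (Finset.univ.filter fun v => f v = f t').card := by
    intro u
    obtain ⟨n, hn, hn2⟩ := trans_elem h S hS htS ht u.2.1 u.2.2
    symm
    refine Finset.card_bij' (fun v _ => (⟨n, hn⟩ : normalizer ((S : Subgroup G) : Set G)) • v)
      (fun v _ => (⟨n, hn⟩ : normalizer ((S : Subgroup G) : Set G))⁻¹ • v) ?_ ?_ ?_ ?_
    · intro v hv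
      simp only [Finset.mem_filter, Finset.mem_univ, true_and] at hv ⊢
      show centralizer ({n * v.1 * n⁻¹} : Set G) = centralizer ({u.1} : Set G)
      rw [← hn2, centralizer_conj, centralizer_conj]
      rw [show centralizer ({v.1} : Set G) = centralizer ({t} : Set G) from hv]
    · intro v hv
      simp only [Finset.mem_filter, Finset.mem_univ, true_and] at hv ⊢
      show centralizer ({n⁻¹ * v.1 * n⁻¹⁻¹} : Set G) = centralizer ({t} : Set G)
      have h1 : t = n⁻¹ * u.1 * n⁻¹⁻¹ := by rw [← hn2]; group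
      rw [h1, centralizer_conj, centralizer_conj, show centralizer ({v.1} : Set G) = centralizer ({u.1} : Set G) from hv]
    · intro v _; exact inv_smul_smul _ v
    · intro v _; exact smul_inv_smul _ v
  have hsum : Fintype.card (H10Eight.X S) = ((Finset.univ.image f).card) * (Finset.univ.filter fun v => f v = f t').card := by
    rw [← Finset.card_univ, Finset.card_eq_sum_card_image f, Finset.sum_const_nat]
    intro b hb
    obtain ⟨u, -, rfl⟩ := Finset.mem_image.1 hb
    exact hfib u
  rw [← Nat.card_eq_fintype_card, h7] at hsum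
  have hd : (Finset.univ.filter fun v => f v = f t').card ∣ 7 := Dvd.intro_left _ hsum.symm
  have h2 : 2 ≤ (Finset.univ.filter fun v => f v = f t').card := by
    have h3 : ({t', z'} : Finset (H10Eight.X S)) ⊆ Finset.univ.filter fun v => f v = f t' := by
      intro v hv
      simp only [Finset.mem_insert, Finset.mem_singleton] at hv
      simp only [Finset.mem_filter, Finset.mem_univ, true_and]
      rcases hv with rfl | rfl
      · rfl
      · exact hC.symm
    have h4 : ({t', z'} : Finset (H10Eight.X S)).card = 2 := by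
      apply Finset.card_pair
      intro e
      exact htz (congrArg Subtype.val e)
    rw [← h4]
    exact Finset.card_le_card h3
  rcases (Nat.dvd_prime (by norm_num : Nat.Prime 7)).1 hd with h3 | h3
  · omega
  · intro u hu hu1
    have h5 : (Finset.univ.filter fun v => f v = f t') = Finset.univ := by
      apply Finset.eq_univ_of_card
      rw [h3, ← Nat.card_eq_fintype_card, h7]
    have h6 : (⟨u, hu, hu1⟩ : H10Eight.X S) ∈ (Finset.univ.filter fun v => f v = f t') := by
      rw [h5]; exact Finset.mem_univ (α := H10Eight.X S) _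
    exact (Finset.mem_filter.1 h6).2

/-- if the block is everything: `C(t)` centralizes `S` -/
theorem cent_le (S : Sylow 2 G) {t : G} (hb : ∀ u ∈ (S : Subgroup G), u ≠ 1 → centralizer ({u} : Set G) = centralizer ({t} : Set G)) :
    centralizer ({t} : Set G) ≤ centralizer ((S : Subgroup G) : Set G) := by
  intro x hx
  rw [mem_centralizer_iff]
  intro u hu
  by_cases hu1 : u = 1
  · rw [hu1]; simp
  · rw [← hb u hu hu1] at hx
    exact (mem_centralizer_singleton_iff.1 hx).symm

theorem seven_dvd (h : Nat.card G = 175560) (S : Sylow 2 G) (hS : ∀ x ∈ (S : Subgroup G), x * x = 1) :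
    7 ∣ Nat.card (normalizer ((S : Subgroup G) : Set G)) := by
  have h7 := H10Eight.card_X (S := S) (card2 h S)
  have hfin : Finite (H10Eight.X S) := by
    apply Nat.finite_of_card_ne_zero; rw [h7]; norm_num
  have hne : Nonempty (H10Eight.X S) := by
    rw [← not_isEmpty_iff]
    intro he
    rw [Nat.card_of_isEmpty] at h7
    omega
  obtain ⟨t⟩ := hne
  have h1 : MulAction.orbit (normalizer ((S : Subgroup G) : Set G)) t = Set.univ := by
    rw [Set.eq_univ_iff_forall]
    intro u
    obtain ⟨n, hn, hn2⟩ := trans_elem h S hS t.2.1 t.2.2 u.2.1 u.2.2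
    exact ⟨⟨n, hn⟩, Subtype.ext hn2⟩
  have h2 := (MulAction.stabilizer (normalizer ((S : Subgroup G) : Set G)) t).index_dvd_card
  rw [MulAction.index_stabilizer, h1, Set.ncard_univ, h7] at h2
  exact h2

section Cent

variable {c : ℕ} (hc : ∀ t : G, orderOf t = 2 → Nat.card (centralizer ({t} : Set G)) = 8 * c)
include hc

/-- facts about `N(P₅)` -/
theorem not_eight_dvd5 (h : Nat.card G = 175560) (P : Sylow 5 G) : ¬ 8 ∣ Nat.card (normalizer ((P : Subgroup G) : Set G)) := by
  intro h8
  have h1 := card_normalizer_mul_nsyl P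
  obtain ⟨-, h5, -⟩ := numbers h
  rw [h] at h1
  obtain ⟨k, hk⟩ := h8
  rw [hk] at h1
  rcases h5 with h5 | h5 | h5 <;> rw [h5] at h1 <;> omega

theorem c_ne_five (h : Nat.card G = 175560) : c ≠ 5 := by
  rintro rfl
  obtain ⟨P⟩ : Nonempty (Sylow 5 G) := inferInstance
  have hP5 := cardP (p := 5) h 35112 (by norm_num) (by norm_num)
  obtain ⟨t, ht, htC⟩ := exists_comm hc h hP5 (by norm_num) P
  have hPt : (P : Subgroup G) ≤ centralizer ({t} : Set G) := by
    intro x hx
    rw [mem_centralizer_singleton_iff]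
    exact mem_centralizer_iff.1 htC x hx
  obtain ⟨m, hm, hm2⟩ := exists_mod P _ hPt
  rw [hc t ht] at hm2
  have h5 : 5 ∣ Nat.card ↥(normalizer ((P : Subgroup G) : Set G) ⊓ centralizer ({t} : Set G)) := by
    have := card_dvd_of_le (le_inf (le_normalizer (H := (P : Subgroup G))) hPt)
    rwa [hP5 P] at this
  have h8 : ¬ 8 ∣ Nat.card ↥(normalizer ((P : Subgroup G) : Set G) ⊓ centralizer ({t} : Set G)) := by
    intro h9
    exact not_eight_dvd5 hc h P (h9.trans (card_dvd_of_le inf_le_left))
  revert hm2 h5 h8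
  generalize Nat.card ↥(normalizer ((P : Subgroup G) : Set G) ⊓ centralizer ({t} : Set G)) = d
  rintro hm2 ⟨k, rfl⟩ h8
  have h9 : m * k = 8 := by nlinarith
  have h10 : m ∣ 8 := Dvd.intro _ h9
  have h11 : m ≤ 8 := Nat.le_of_dvd (by norm_num) h10
  have h12 : m = 1 ∨ m = 6 := by omega
  rcases h12 with rfl | rfl
  · apply h8
    rw [one_mul] at h9
    rw [h9]; norm_num
  · omega

theorem c_ne_one (h : Nat.card G = 175560) (S : Sylow 2 G) (hS : ∀ x ∈ (S : Subgroup G), x * x = 1) : c ≠ 1 := by
  rintro rfl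
  have hcomm := comm_of hS
  have hCS : ∀ t ∈ (S : Subgroup G), orderOf t = 2 → centralizer ({t} : Set G) = S := by
    intro t ht hto
    symm
    apply eq_of_le_of_card_ge
    · intro x hx
      exact mem_centralizer_singleton_iff.2 (hcomm x hx t ht)
    · rw [hc t hto, card2 h S]
  have hncyc : ¬ IsCyclic (S : Subgroup G) := by
    intro hcyc
    obtain ⟨g, hg⟩ := hcyc.exists_generator
    have h1 : orderOf g = 8 := by
      rw [← card2 h S, ← Nat.card_zpowers]
      have : zpowers g = ⊤ := by rw [eq_top_iff]; intro x _; exact hg x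
      rw [this, card_top]
    have h2 : g ^ 2 = 1 := Subtype.ext (by rw [sq]; exact hS g g.2)
    have h3 := orderOf_dvd_of_pow_eq_one h2
    rw [h1] at h3
    revert h3; norm_num
  have hnn : ¬ (S : Subgroup G).Normal := by
    intro hn
    rcases hn.eq_bot_or_eq_top with h1 | h1
    · have := card2 h S
      rw [h1, card_bot] at this
      omega
    · have := card2 h S
      rw [h1, card_top, h] at this
      omega
  obtain ⟨F, _, _, hF, ⟨e⟩⟩ := ElemCent.psl_two S hncyc hnn (by
    intro t ht
    have hp : IsPGroup 2 (zpowers t) := by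
      rw [IsPGroup.iff_card]
      exact ⟨1, by rw [Nat.card_zpowers, ht, pow_one]⟩
    obtain ⟨Q, hQ⟩ := hp.exists_le_sylow
    obtain ⟨g, hg⟩ := MulAction.exists_smul_eq G Q S
    have h1 : g * t * g⁻¹ ∈ (S : Subgroup G) := by
      have : g * t * g⁻¹ ∈ (g • Q : Sylow 2 G) := by
        rw [Sylow.smul_def]; exact ⟨t, hQ (mem_zpowers t), rfl⟩
      rw [hg] at this
      exact this
    have h2 : orderOf (g * t * g⁻¹) = 2 := by
      have : g * t * g⁻¹ = MulAut.conj g t := rfl
      rw [this, MulEquiv.orderOf_eq]; exact ht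
    have h3 := hCS _ h1 h2
    have h4 : ∀ x ∈ centralizer ({t} : Set G), g * x * g⁻¹ ∈ (S : Subgroup G) := by
      intro x hx
      rw [← h3, mem_centralizer_singleton_iff]
      have hx' := mem_centralizer_singleton_iff.1 hx
      calc g * x * g⁻¹ * (g * t * g⁻¹) = g * (x * t) * g⁻¹ := by group
        _ = g * (t * x) * g⁻¹ := by rw [hx']
        _ = _ := by group
    refine ⟨⟨⟨fun x y => ?_⟩⟩, fun x hx => ?_⟩
    · apply Subtype.ext
      have h5 := hcomm _ (h4 x x.2) _ (h4 y y.2)
      have h6 : g * ((x : G) * y) * g⁻¹ = g * ((y : G) * x) * g⁻¹ := by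
        calc g * ((x : G) * y) * g⁻¹ = g * x * g⁻¹ * (g * y * g⁻¹) := by group
          _ = g * y * g⁻¹ * (g * x * g⁻¹) := h5
          _ = _ := by group
      exact mul_left_cancel (mul_right_cancel h6)
    · have h5 := hS _ (h4 x hx)
      have h6 : g * (x * x) * g⁻¹ = 1 := by
        rw [← h5]; group
      rw [sq]
      have : x * x = g⁻¹ * (g * (x * x) * g⁻¹) * g := by group
      rw [this, h6]; group)
  have h8 : Nat.card S = 8 := card2 h S
  rw [h8] at hF
  have h1 := Nat.card_congr e.toEquiv
  have h3 := ClSLn.card_PSL_formula (F := F) hF 2 (by norm_num)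
  norm_num [Finset.prod_range_succ] at h3
  rw [← h1, h] at h3
  omega

/-- `C(t)` normalizes the Sylow `p`-subgroup: the block is everything -/
theorem block_of_normal (h : Nat.card G = 175560) (S : Sylow 2 G) (hS : ∀ x ∈ (S : Subgroup G), x * x = 1)
    {t : G} (htS : t ∈ (S : Subgroup G)) (ht : orderOf t = 2) {p : ℕ} [Fact p.Prime] (hp2 : p ≠ 2) (hp4 : ¬ 4 ∣ p - 1) (hcp : c = p)
    (P : Sylow p G) (hP : Nat.card (P : Subgroup G) = p) (hPt : (P : Subgroup G) ≤ centralizer ({t} : Set G))
    (hCN : centralizer ({t} : Set G) ≤ normalizer ((P : Subgroup G) : Set G)) :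
    ∀ u ∈ (S : Subgroup G), u ≠ 1 → centralizer ({u} : Set G) = centralizer ({t} : Set G) := by
  classical
  have hp : p.Prime := Fact.out
  have hcomm := comm_of hS
  have hSC : (S : Subgroup G) ≤ centralizer ({t} : Set G) := fun x hx => mem_centralizer_singleton_iff.2 (hcomm x hx t htS)
  have hSN : (S : Subgroup G) ≤ normalizer ((P : Subgroup G) : Set G) := hSC.trans hCN
  -- |S : C_S(P)| divides p - 1
  have h1 : (centralizer ((P : Subgroup G) : Set G)).relIndex (S : Subgroup G) ∣ p - 1 := by
    have hCn : ((centralizer ((P : Subgroup G) : Set G)).subgroupOf (normalizer ((P : Subgroup G) : Set G))).Normal := by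
      rw [← normalizerMonoidHom_ker]; infer_instance
    have h2 := relIndex_dvd_index_of_normal
      ((centralizer ((P : Subgroup G) : Set G)).subgroupOf (normalizer ((P : Subgroup G) : Set G)))
      ((S : Subgroup G).subgroupOf (normalizer ((P : Subgroup G) : Set G)))
    rw [relIndex_subgroupOf hSN] at h2
    exact h2.trans (relIndex_centralizer_dvd_pred hp (P : Subgroup G) hP)
  have h2 := relIndex_mul_card_inf (centralizer ((P : Subgroup G) : Set G)) (S : Subgroup G)
  rw [card2 h S] at h2
  have h4 : 4 ∣ Nat.card ↥(centralizer ((P : Subgroup G) : Set G) ⊓ (S : Subgroup G)) := by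
    have h5 : (centralizer ((P : Subgroup G) : Set G)).relIndex (S : Subgroup G) ∣ 2 ^ 3 := Dvd.intro _ h2
    obtain ⟨k, hk, hk2⟩ := (Nat.dvd_prime_pow Nat.prime_two).1 h5
    have hk1 : k ≤ 1 := by
      by_contra hcon
      apply hp4
      have : 2 ^ 2 ∣ 2 ^ k := pow_dvd_pow 2 (by omega)
      rw [← hk2] at this
      exact this.trans h1
    rw [hk2] at h2
    have : k = 0 ∨ k = 1 := by omega
    rcases this with rfl | rfl
    · rw [pow_zero, one_mul] at h2; rw [h2]; norm_num
    · rw [pow_one] at h2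
      exact ⟨1, by omega⟩
  have htP : t ∈ centralizer ((P : Subgroup G) : Set G) := by
    rw [mem_centralizer_iff]
    intro x hx
    exact mem_centralizer_singleton_iff.1 (hPt hx)
  -- another involution
  obtain ⟨z, hz, hz1, hzt⟩ : ∃ z ∈ centralizer ((P : Subgroup G) : Set G) ⊓ (S : Subgroup G), z ≠ 1 ∧ z ≠ t := by
    by_contra hcon
    push Not at hcon
    have h5 : (centralizer ((P : Subgroup G) : Set G) ⊓ (S : Subgroup G)) ≤ zpowers t := by
      intro z hz
      by_cases hz1 : z = 1
      · rw [hz1]; exact one_mem _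
      · rw [hcon z hz hz1]; exact mem_zpowers t
    have h6 := card_dvd_of_le h5
    rw [Nat.card_zpowers, ht] at h6
    have := h4.trans h6
    revert this; norm_num
  obtain ⟨hzP, hzS⟩ := mem_inf.1 hz
  have hzo : orderOf z = 2 := orderOf_eq_prime (by rw [sq]; exact hS z hzS) hz1
  apply blocks h S hS htS (ne_one_of_order ht) hzS hz1 hzt.symm
  have h6 : S ≤ centralizer ({t} : Set G) ⊓ centralizer ({z} : Set G) :=
    le_inf hSC (fun x hx => mem_centralizer_singleton_iff.2 (hcomm x hx z hzS))
  have h7 : (P : Subgroup G) ≤ centralizer ({t} : Set G) ⊓ centralizer ({z} : Set G) :=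
    le_inf hPt (fun x hx => mem_centralizer_singleton_iff.2 (mem_centralizer_iff.1 hzP x hx))
  have h8 := card_dvd_of_le h6
  have h9 := card_dvd_of_le h7
  rw [card2 h S] at h8
  rw [hP] at h9
  have h10 : 8 * c ∣ Nat.card ↥(centralizer ({t} : Set G) ⊓ centralizer ({z} : Set G)) := by
    apply Nat.Coprime.mul_dvd_of_dvd_of_dvd _ h8
    · rw [hcp]; exact h9
    · rw [hcp]
      exact Nat.Coprime.pow_left 3 ((Nat.coprime_primes Nat.prime_two hp).2 hp2.symm)
  have h11 := Nat.le_of_dvd Nat.card_pos h10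
  have e1 : centralizer ({t} : Set G) ⊓ centralizer ({z} : Set G) = centralizer ({t} : Set G) :=
    eq_of_le_of_card_ge inf_le_left (by rw [hc t ht]; exact h11)
  have e2 : centralizer ({t} : Set G) ⊓ centralizer ({z} : Set G) = centralizer ({z} : Set G) :=
    eq_of_le_of_card_ge inf_le_right (by rw [hc z hzo]; exact h11)
  rw [← e1]; exact e2

omit [IsSimpleGroup G] hc in
theorem exists_t (h : Nat.card G = 175560) (S : Sylow 2 G) : ∃ t ∈ (S : Subgroup G), orderOf t = 2 :=
  exists_mem_orderOf_eq (S : Subgroup G) 2 (by rw [card2 h S]; norm_num)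

omit [IsSimpleGroup G] in
theorem exists_P (h : Nat.card G = 175560) {p : ℕ} [Fact p.Prime]
    (hcard : ∀ P : Sylow p G, Nat.card (P : Subgroup G) = p) (hpc : p ∣ c) {t : G} (ht : orderOf t = 2) :
    ∃ P : Sylow p G, (P : Subgroup G) ≤ centralizer ({t} : Set G) := by
  obtain ⟨x, hx, hxo⟩ := exists_mem_orderOf_eq (centralizer ({t} : Set G)) p (by rw [hc t ht]; exact hpc.mul_left 8)
  obtain ⟨P, hP⟩ := exists_sylow_eq hcard x hxo
  exact ⟨P, by rw [hP, zpowers_le]; exact hx⟩

theorem c_ne_eleven (h : Nat.card G = 175560) (S : Sylow 2 G) (hS : ∀ x ∈ (S : Subgroup G), x * x = 1) : c ≠ 11 := by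
  intro hc11
  obtain ⟨t, htS, ht⟩ := exists_t h S
  have hP11 := cardP (p := 11) h 15960 (by norm_num) (by norm_num)
  obtain ⟨P, hPt⟩ := exists_P hc h hP11 (by rw [hc11]) ht
  obtain ⟨m, hm, hm2⟩ := exists_mod P _ hPt
  have hd : 11 ∣ Nat.card ↥(normalizer ((P : Subgroup G) : Set G) ⊓ centralizer ({t} : Set G)) := by
    have := card_dvd_of_le (le_inf (le_normalizer (H := (P : Subgroup G))) hPt)
    rwa [hP11 P] at this
  have hCN : centralizer ({t} : Set G) ≤ normalizer ((P : Subgroup G) : Set G) := by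
    have h1 : Nat.card ↥(normalizer ((P : Subgroup G) : Set G) ⊓ centralizer ({t} : Set G)) = Nat.card (centralizer ({t} : Set G)) := by
      rw [← hm2]
      have h3 : m = 1 := by
        rw [hc t ht, hc11] at hm2
        revert hm2 hd
        generalize Nat.card ↥(normalizer ((P : Subgroup G) : Set G) ⊓ centralizer ({t} : Set G)) = d
        rintro hm2 ⟨k, rfl⟩
        have h9 : m * k = 8 := by nlinarith
        have h11 : m ≤ 8 := Nat.le_of_dvd (by norm_num) (Dvd.intro _ h9)
        omega
      rw [h3, one_mul]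
    have h2 : normalizer ((P : Subgroup G) : Set G) ⊓ centralizer ({t} : Set G) = centralizer ({t} : Set G) :=
      eq_of_le_of_card_ge inf_le_right h1.ge
    rw [← h2]; exact inf_le_left
  have hb := block_of_normal hc h S hS htS ht (by norm_num) (by norm_num) hc11 P (hP11 P) hPt hCN
  have hNN : normalizer ((S : Subgroup G) : Set G) ≤ normalizer ((P : Subgroup G) : Set G) := by
    intro n hn
    have h1 : n * t * n⁻¹ ∈ (S : Subgroup G) := (mem_normalizer_iff.1 hn t).1 htS
    have h2 : n * t * n⁻¹ ≠ 1 := by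
      intro e
      rw [mul_inv_eq_one] at e
      exact ne_one_of_order ht (mul_left_cancel (a := n) (by rw [e, mul_one]))
    have h3 := hb _ h1 h2
    rw [centralizer_conj] at h3
    have h4 : ((n • P : Sylow 11 G) : Subgroup G) ≤ centralizer ({t} : Set G) := by
      rw [← h3]
      intro y hy
      rw [Sylow.smul_def] at hy
      obtain ⟨w, hw, rfl⟩ := hy
      exact ⟨w, hPt hw, rfl⟩
    have h5 : ((n • P : Sylow 11 G) : Subgroup G) ≤ (P : Subgroup G) := by
      have h6 := (n • P : Sylow 11 G).2.inf_normalizer_sylow P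
      intro y hy
      have : y ∈ ((n • P : Sylow 11 G) : Subgroup G) ⊓ normalizer (P : Set G) := ⟨hy, (h4.trans hCN) hy⟩
      rw [h6] at this
      exact this.2
    have h6 : n • P = P := by
      apply Sylow.ext
      apply eq_of_le_of_card_ge h5
      rw [hP11, hP11]
    rw [Sylow.smul_eq_iff_mem_normalizer] at h6
    exact h6
  have h7 := (seven_dvd h S hS).trans (card_dvd_of_le hNN)
  have h8 := card_normalizer_mul_nsyl P
  obtain ⟨-, -, h11⟩ := numbers h
  rw [h] at h8
  obtain ⟨k, hk⟩ := h7
  rw [hk] at h8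
  have h11' : Nat.card (Sylow 11 G) = 133 ∨ Nat.card (Sylow 11 G) = 1596 ∨ Nat.card (Sylow 11 G) = 210 := by omega
  rcases h11' with e | e | e <;> rw [e] at h8 <;> omega

omit [Finite G] hc in
theorem nonsolv (h : Nat.card G = 175560) : ¬ Group.IsSolvable G := by
  intro hs
  have hfin : Finite G := Nat.finite_of_card_ne_zero (by rw [h]; norm_num)
  exact hG h ⟨⟨IsSimpleGroup.comm_iff_isSolvable.2 hs⟩⟩

omit hc in
theorem no_two (h : Nat.card G = 175560) (N : Subgroup G) (hN : N.Normal) : N.index ≠ 2 := by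
  intro h2
  rcases hN.eq_bot_or_eq_top with h3 | h3
  · rw [h3, index_bot, h] at h2; omega
  · rw [h3, index_top] at h2; omega

theorem c_ne_three (h : Nat.card G = 175560) (S : Sylow 2 G) (hS : ∀ x ∈ (S : Subgroup G), x * x = 1) : c ≠ 3 := by
  intro hc3
  obtain ⟨t, htS, ht⟩ := exists_t h S
  have hcomm := comm_of hS
  have hSC : (S : Subgroup G) ≤ centralizer ({t} : Set G) := fun x hx => mem_centralizer_singleton_iff.2 (hcomm x hx t htS)
  obtain ⟨T, hT⟩ := split S hS htS ht hcomm
  have cs := H10TCI.CS.of_direct ht hT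
  have hT12 : Nat.card T = 12 := by
    have := cs.card_cent
    rw [hc t ht, hc3] at this
    omega
  have hP3 := cardP (p := 3) h 58520 (by norm_num) (by norm_num)
  obtain ⟨P, hPt⟩ := exists_P hc h hP3 (by rw [hc3]) ht
  by_cases hz : ∀ z : T, orderOf z = 2 → z ∉ center T
  · obtain ⟨e⟩ := Cfsg.Agent.S0228.result hT12 hz
    have h1 := H10TCI.s3285 (nonsolv h) (no_two h) ⟨ht, S, htS, fun x hx => hcomm x hx t htS⟩ 4 ⟨e⟩ hT
      (fun hs he => by
        obtain ⟨e⟩ := he
        exact JanFin.isoJ1 t ⟨ht, S, htS, fun x hx => hcomm x hx t htS⟩ e)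
    rcases h1 with ⟨-, F, _, _, hF, ⟨φ⟩⟩ | ⟨h2, -⟩
    · have h3 : Nat.card (MulAut (Matrix.ProjectiveSpecialLinearGroup (Fin 2) F)) = 1512 := by
        rw [Cfsg.Agent.S0813.result 2 3 (by norm_num) (by rw [hF]; norm_num) 2 le_rfl (fun _ => by norm_num),
          MobCount.card_G2 (F := F) hF]
        norm_num
      rw [← Nat.card_congr φ.toEquiv, h] at h3
      omega
    · omega
  · push Not at hz
    obtain ⟨z, hzo, hzc⟩ := hz
    have hzo' : orderOf (z : G) = 2 := by rw [Subgroup.orderOf_coe]; exact hzo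
    -- z is central in C(t)
    have hzC : ∀ x ∈ centralizer ({t} : Set G), x * (z : G) = z * x := by
      obtain ⟨h1, h2, h3, h4, h5⟩ := hT
      intro x hx
      rw [← h5] at hx
      have h6 : zpowers t ⊔ T ≤ centralizer ({(z : G)} : Set G) := by
        apply sup_le
        · intro y hy
          exact mem_centralizer_singleton_iff.2 (h3 y hy z z.2)
        · intro y hy
          exact mem_centralizer_singleton_iff.2 (congrArg Subtype.val (mem_center_iff.1 hzc ⟨y, hy⟩))
      exact mem_centralizer_singleton_iff.1 (h6 hx)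
    have hle : centralizer ({t} : Set G) ≤ centralizer ({(z : G)} : Set G) := fun x hx => mem_centralizer_singleton_iff.2 (hzC x hx)
    have heq : centralizer ({t} : Set G) = centralizer ({(z : G)} : Set G) :=
      eq_of_le_of_card_ge hle (by rw [hc t ht, hc _ hzo'])
    have hzS : (z : G) ∈ (S : Subgroup G) := by
      have hzt : (z : G) ∈ centralizer ({t} : Set G) := hT.2.1 z.2
      have hn : (zpowers (z : G)) ≤ normalizer ((S : Subgroup G) : Set G) := by
        rw [zpowers_le]
        apply centralizer_le_normalizer'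
        rw [mem_centralizer_iff]
        intro x hx
        exact hzC x (hSC hx)
      have hp : IsPGroup 2 (zpowers (z : G)) := by
        rw [IsPGroup.iff_card]
        exact ⟨1, by rw [Nat.card_zpowers, hzo', pow_one]⟩
      have h6 := hp.inf_normalizer_sylow S
      have h7 : (z : G) ∈ zpowers (z : G) ⊓ normalizer (S : Set G) := ⟨mem_zpowers _, hn (mem_zpowers _)⟩
      rw [h6] at h7
      exact h7.2
    have htz : t ≠ z := by
      intro e
      exact cs.notin (e ▸ z.2)
    have hb := blocks h S hS htS (ne_one_of_order ht) hzS (ne_one_of_order hzo') htz heq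
    have hCS := cent_le S hb
    have hSP : (S : Subgroup G) ≤ centralizer ((P : Subgroup G) : Set G) := by
      intro x hx
      rw [mem_centralizer_iff]
      intro y hy
      exact (mem_centralizer_iff.1 (hCS (hPt hy)) x hx).symm
    obtain ⟨e, k, h1, h2, h3, h4⟩ := nc_data (hG h) P (hP3 P)
    have he : e = 2 := ((Nat.dvd_prime Nat.prime_two).1 h3).resolve_left h4
    have h5 := card_dvd_of_le hSP
    rw [card2 h S, h2] at h5
    have h6 : Nat.card (normalizer ((P : Subgroup G) : Set G)) ∣ 175560 := by rw [← h]; exact card_subgroup_dvd_card _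
    rw [h1, he] at h6
    obtain ⟨j, hj⟩ := h5
    rw [hj] at h6
    have h7 : 16 ∣ 175560 := (show 16 ∣ 2 * (8 * j) from ⟨j, by ring⟩).trans h6
    revert h7; norm_num

/-- **Recognition of J1 by its order.** -/
theorem c_fifteen (h : Nat.card G = 175560) (S : Sylow 2 G) (hS : ∀ x ∈ (S : Subgroup G), x * x = 1) (hc15 : c = 15) :
    Cfsg.Spor.IsoJ1 G := by
  obtain ⟨t, htS, ht⟩ := exists_t h S
  have hcomm := comm_of hS
  obtain ⟨T, hT⟩ := split S hS htS ht hcomm
  have cs := H10TCI.CS.of_direct ht hT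
  have hT60 : Nat.card T = 60 := by
    have := cs.card_cent
    rw [hc t ht, hc15] at this
    omega
  have hP5 := cardP (p := 5) h 35112 (by norm_num) (by norm_num)
  have h5 : Nat.card (Sylow 5 T) ≠ 1 := by
    intro h1
    obtain ⟨P'⟩ : Nonempty (Sylow 5 T) := inferInstance
    have hn := normal_of_nsyl_eq_one h1 P'
    have hcP' : Nat.card (P' : Subgroup T) = 5 ^ 1 := sylow_card_of (m := 12) (by rw [hT60]; norm_num) (by norm_num) P'
    set Q := (P' : Subgroup T).map T.subtype with hQ
    have hQc : Nat.card Q = 5 := by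
      rw [hQ, ← Nat.card_congr ((P' : Subgroup T).equivMapOfInjective _ (Subgroup.subtype_injective _)).toEquiv, hcP']
      norm_num
    have hQp : IsPGroup 5 Q := IsPGroup.of_card (n := 1) (by rw [hQc]; norm_num)
    obtain ⟨R, hR⟩ := hQp.exists_le_sylow
    have hRQ : (R : Subgroup G) = Q := (eq_of_le_of_card_ge hR (by rw [hP5 R, hQc])).symm
    have hTN : T ≤ normalizer (Q : Set G) := by
      intro x hx
      rw [mem_normalizer_iff]
      intro y
      constructor
      · rintro ⟨w, hw, rfl⟩
        exact ⟨⟨x, hx⟩ * w * ⟨x, hx⟩⁻¹, hn.conj_mem w hw ⟨x, hx⟩, rfl⟩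
      · rintro ⟨w, hw, hwy⟩
        refine ⟨⟨x, hx⟩⁻¹ * w * ⟨x, hx⟩, ?_, ?_⟩
        · have := hn.conj_mem w hw ⟨x, hx⟩⁻¹
          rwa [inv_inv] at this
        · have h2 : (w : G) = x * y * x⁻¹ := hwy
          show x⁻¹ * (w : G) * x = y
          rw [h2]; group
    have hzN : zpowers t ≤ normalizer (Q : Set G) := by
      rw [zpowers_le]
      apply centralizer_le_normalizer'
      rw [mem_centralizer_iff]
      rintro _ ⟨w, -, rfl⟩
      exact cs.comm w w.2
    have hCN : centralizer ({t} : Set G) ≤ normalizer (Q : Set G) := by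
      rw [← hT.2.2.2.2]
      exact sup_le hzN hTN
    have h2 := card_dvd_of_le hCN
    rw [hc t ht] at h2
    rw [← hRQ] at h2
    exact not_eight_dvd5 hc h R ((Dvd.intro _ rfl).trans h2)
  obtain ⟨e⟩ := alt5_of hT60 h5
  obtain ⟨φ⟩ := cs.equiv e
  exact JanFin.isoJ1 t ⟨ht, S, htS, fun x hx => hcomm x hx t htS⟩ φ

end Cent

/-- **Recognition of J1 by its order.** -/
theorem isoJ1 (h : Nat.card G = 175560) : Cfsg.Spor.IsoJ1 G := by
  obtain ⟨c, n2, hc, hc8, hn2, hn2c⟩ := exists_c h
  have hcv := c_vals hc h hc8 hn2 hn2c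
  obtain ⟨S⟩ : Nonempty (Sylow 2 G) := inferInstance
  rcases sylow_cases h S with hS | ⟨r, s, hr, hs, hsr, hsn⟩
  · rcases hcv with e | e | e | e | e
    · exact absurd e (c_ne_one hc h S hS)
    · exact absurd e (c_ne_three hc h S hS)
    · exact absurd e (c_ne_five hc h)
    · exact absurd e (c_ne_eleven hc h S hS)
    · exact c_fifteen hc h S hS e
  · exact (not_dihedral h hc hcv S r s hr hs hsr hsn).elim

end Order

end Cfsg.Agent.Lib.H10J175
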