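import Cfsg.Agent.Lib.LargeExtra7
import Cfsg.Agent.Lib.LargeExtra8
import Cfsg.Agent.Lib.Cores
import Cfsg.Prelude.Def_CaseTheorems

/-!
Large extraspecial subgroups in quotients (helper10): tools for S5428, S5429.
-/

set_option autoImplicit false
set_option linter.style.haveILetI false

namespace Cfsg.Agent.Lib.H10LargeQuot

open Subgroup Cfsg Cfsg.Agent.Lib Cfsg.Agent.Lib.LargeExtra
open scoped commutatorElement

/-- a group whose order is not divisible by 4, with an involution `z`. -/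
theorem mem_or_mul_mem {D : Type*} [Group D] [Finite D] (h4 : ¬ 4 ∣ Nat.card D) {z : D} (hz : orderOf z = 2)
    (x : D) : x ∈ pPrimeCore 2 D ∨ x * z ∈ pPrimeCore 2 D := by
  haveI : Fact (Nat.Prime 2) := ⟨Nat.prime_two⟩
  have h2 : 2 ∣ Nat.card D := by rw [← hz]; exact orderOf_dvd_natCard z
  obtain ⟨P⟩ : Nonempty (Sylow 2 D) := inferInstance
  obtain ⟨k, hk⟩ := IsPGroup.iff_card.mp P.2
  have hPd : Nat.card (P : Subgroup D) ∣ Nat.card D := Subgroup.card_subgroup_dvd_card _
  have hk1 : k = 1 := by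
    rcases k with _ | _ | k
    · exfalso
      rw [pow_zero] at hk
      have h3 := P.not_dvd_index
      have h5 := (P : Subgroup D).card_mul_index
      rw [hk, one_mul] at h5
      rw [h5] at h3
      exact h3 h2
    · rfl
    · exfalso
      apply h4
      rw [hk] at hPd
      refine dvd_trans ?_ hPd
      exact ⟨2 ^ k, by ring⟩
  rw [hk1, pow_one] at hk
  have hcyc : IsCyclic (P : Subgroup D) := isCyclic_of_prime_card hk
  have hmin : (Nat.card D).minFac = 2 := by
    rw [Nat.minFac_eq_two_iff]; exact h2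
  have hcomp := IsCyclic.isComplement' hmin hcyc
  set K := (MonoidHom.transferSylow P (hcyc.normalizer_le_centralizer hmin)).ker with hK
  have hcard := hcomp.card_mul
  rw [hk] at hcard
  have hKodd : (Nat.card K).Coprime 2 := by
    rw [Nat.coprime_two_right]
    by_contra hne
    rw [Nat.not_odd_iff_even, even_iff_two_dvd] at hne
    obtain ⟨m, hm⟩ := hne
    apply h4
    exact ⟨m, by rw [← hcard, hm]; ring⟩
  have hKle : K ≤ pPrimeCore 2 D := Cores.le_pPrimeCore (inferInstance : K.Normal) hKodd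
  have hidx : K.index = 2 := by
    have h5 := K.card_mul_index
    rw [← hcard] at h5
    exact Nat.eq_of_mul_eq_mul_left Nat.card_pos h5
  have hzK : z ∉ K := by
    intro h
    have h5 := Subgroup.orderOf_dvd_natCard K h
    rw [hz] at h5
    rw [Nat.coprime_two_right, Nat.odd_iff] at hKodd
    omega
  by_cases hx : x ∈ K
  · exact Or.inl (hKle hx)
  · right
    apply hKle
    rw [Subgroup.mul_mem_iff_of_index_two hidx]
    exact ⟨fun h => (hx h).elim, fun h => (hzK h).elim⟩

/-- `ExData` is preserved by homomorphisms injective on `Q`. -/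
theorem exData_map {N L : Type*} [Group N] [Group L] (f : N →* L) {Q : Subgroup N} {z : N}
    (h : ExData Q z) (hf : ∀ x ∈ Q, f x = 1 → x = 1) : ExData (Q.map f) (f z) := by
  have inj : ∀ x ∈ Q, ∀ y ∈ Q, f x = f y → x = y := by
    intro x hx y hy hxy
    have h1 := hf (x * y⁻¹) (mul_mem hx (inv_mem hy)) (by rw [map_mul, map_inv, hxy, mul_inv_cancel])
    rwa [mul_inv_eq_one] at h1
  apply ExData.of
  · rw [← map_mul, h.sq, map_one]
  · intro h1; exact h.ne (hf z h.mem h1)
  · exact ⟨z, h.mem, rfl⟩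
  · rintro _ ⟨q, hq, rfl⟩; rw [← map_mul, ← map_mul, h.cen q hq]
  · rintro _ ⟨a, ha, rfl⟩ _ ⟨b, hb, rfl⟩
    rw [← map_mul, ← map_mul, ← map_mul]
    rcases h.comm a ha b hb with h1 | h1
    · left; rw [h1]
    · right; rw [h1]
  · rintro _ ⟨q, hq, rfl⟩ hc
    rcases h.center q hq (fun x hx => inj _ (mul_mem hq hx) _ (mul_mem hx hq) (by
      rw [map_mul, map_mul]; exact hc (f x) ⟨x, hx, rfl⟩)) with h1 | h1
    · left; rw [h1, map_one]
    · right; rw [h1]
  · obtain ⟨a, ha, b, hb, hab⟩ := h.nonab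
    refine ⟨f a, ⟨a, ha, rfl⟩, f b, ⟨b, hb, rfl⟩, fun h1 => hab ?_⟩
    apply inj _ (mul_mem ha hb) _ (mul_mem hb ha)
    rw [map_mul, map_mul, h1]

variable {G : Type*} [Group G]

theorem exData_subgroupOf {R M : Subgroup G} {z : G} (h : ExData R z) (hRM : R ≤ M) :
    ExData (R.subgroupOf M) (⟨z, hRM h.mem⟩ : M) := by
  apply ExData.of
  · exact Subtype.ext h.sq
  · intro h1; exact h.ne (congrArg Subtype.val h1)
  · exact h.mem
  · intro q hq; exact Subtype.ext (h.cen q hq)
  · intro a ha b hb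
    rcases h.comm a ha b hb with h1 | h1
    · left; exact Subtype.ext h1
    · right; exact Subtype.ext h1
  · intro q hq hc
    rcases h.center q hq (fun x hx => congrArg Subtype.val (hc ⟨x, hRM hx⟩ hx)) with h1 | h1
    · left; exact Subtype.ext h1
    · right; exact Subtype.ext h1
  · obtain ⟨a, ha, b, hb, hab⟩ := h.nonab
    exact ⟨⟨a, hRM ha⟩, ha, ⟨b, hRM hb⟩, hb, fun h1 => hab (congrArg Subtype.val h1)⟩

/-- `c q c⁻¹ = u q` with `u` in a group `A` of odd order commuting with `q`, `q` of order dividing 4. -/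
theorem commute_of_odd [Finite G] {A : Subgroup G} (hA : Odd (Nat.card A)) {c q : G} (hq4 : q ^ 4 = 1)
    (hu : c * q * c⁻¹ * q⁻¹ ∈ A) (hqA : ∀ a ∈ A, q * a = a * q) : c * q = q * c := by
  set u := c * q * c⁻¹ * q⁻¹ with hudef
  have h1 : c * q * c⁻¹ = u * q := by rw [hudef]; group
  have hcomm : Commute u q := (hqA u hu).symm
  have h2 : u ^ 4 = 1 := by
    have h3 : (c * q * c⁻¹) ^ 4 = 1 := by rw [conj_pow, hq4, mul_one, mul_inv_cancel]
    rwa [h1, hcomm.mul_pow, hq4, mul_one] at h3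
  have h3 : u = 1 := by
    have h4 : orderOf (⟨u, hu⟩ : A) ∣ Nat.card A := orderOf_dvd_natCard _
    have h5 : orderOf (⟨u, hu⟩ : A) ∣ 4 := by
      apply orderOf_dvd_of_pow_eq_one
      apply Subtype.ext
      exact h2
    have h6 : (Nat.card A).Coprime 4 := by
      rw [show (4 : ℕ) = 2 ^ 2 by norm_num]
      exact (Nat.coprime_two_right.2 hA).pow_right 2
    have h7 := Nat.eq_one_of_dvd_coprimes h6 h4 h5
    rw [orderOf_eq_one_iff] at h7
    exact congrArg Subtype.val h7
  rw [h3, one_mul] at h1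
  rwa [mul_inv_eq_iff_eq_mul] at h1

theorem ExData_pow_four {Q : Subgroup G} {z : G} (h : ExData Q z) {q : G} (hq : q ∈ Q) : q ^ 4 = 1 := by
  have : q ^ 4 = (q * q) * (q * q) := by
    rw [show (4 : ℕ) = 2 + 2 by norm_num, pow_add, pow_two]
  rw [this]
  rcases h.qsq q hq with h | h'
  · rw [h, one_mul]
  · rw [h', h.sq]

end Cfsg.Agent.Lib.H10LargeQuot
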