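import Cfsg.Agent.Lib.H10J175

set_option autoImplicit false
set_option linter.unusedSectionVars false

/-! Simple groups of order `19 k`, `k ∣ 9240`: Sylow arithmetic. -/

namespace Cfsg.Agent.Lib.H10Ord

open Subgroup
open Cfsg.Agent.Lib.SmallSimple
open Cfsg.Agent.Lib.Simple168 (exists_mem_orderOf_eq orderOf_dvd_card_of_mem card_orderOf_eq)
open Cfsg.Agent.Lib.H10J175 (exists_mod exists_sylow_eq sylow_cyclic cardN centralizes two_primes)

instance fact2 : Fact (Nat.Prime 2) := ⟨by norm_num⟩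
instance fact3 : Fact (Nat.Prime 3) := ⟨by norm_num⟩
instance fact5 : Fact (Nat.Prime 5) := ⟨by norm_num⟩
instance fact7 : Fact (Nat.Prime 7) := ⟨by norm_num⟩
instance fact11 : Fact (Nat.Prime 11) := ⟨by norm_num⟩
instance fact19 : Fact (Nat.Prime 19) := ⟨by norm_num⟩

section Order

variable {G : Type*} [Group G] [Finite G] [IsSimpleGroup G] {m : ℕ}

theorem index_ge (hG : ¬ IsMulCommutative G) (h19 : 19 ∣ Nat.card G) (H : Subgroup G) (hH : H ≠ ⊤) : 19 ≤ H.index := by
  have h1 := two_mul_card_dvd_factorial_index hG H hH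
  have h2 : 19 ∣ (H.index).factorial := (Dvd.dvd.trans h19 (Dvd.intro_left 2 rfl)).trans h1
  exact (Nat.Prime.dvd_factorial (by norm_num)).1 h2

omit [IsSimpleGroup G] in
theorem cardP (h : Nat.card G = m) {p : ℕ} [Fact p.Prime] (hp : p ∣ m) (hpp : ¬ p * p ∣ m)
    (P : Sylow p G) : Nat.card (P : Subgroup G) = p := by
  obtain ⟨k, hk⟩ := hp
  have hG5 : Nat.card G = p ^ 1 * k := by rw [h, pow_one, hk]
  have hm : ¬ p ∣ k := by
    rintro ⟨l, hl⟩
    exact hpp ⟨l, by rw [hk, hl, mul_assoc]⟩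
  have := sylow_card_of hG5 hm P
  rw [show Nat.card (P : Subgroup G) = p ^ 1 from this, pow_one]

/-- the conditions on the pair `(p, n_p)` -/
def ok1 (m p n : ℕ) : Bool :=
  if m % p = 0 then (m / p % n == 0) && (n % p == 1) && (decide (19 ≤ n)) && (Nat.gcd (m / p / n) (p - 1) != 1)
  else n == 1

omit [IsSimpleGroup G] in
theorem nsyl_eq_one (h : Nat.card G = m) {p : ℕ} [Fact p.Prime] (hp : ¬ p ∣ m) : Nat.card (Sylow p G) = 1 := by
  have h1 := nsyl_dvd (G := G) (p := p) (k := 0) (m := m) (by rw [h, pow_zero, one_mul]) hp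
  obtain ⟨P⟩ : Nonempty (Sylow p G) := inferInstance
  have h2 : Nat.card (P : Subgroup G) = p ^ 0 := sylow_card_of (by rw [h, pow_zero, one_mul]) hp P
  have h3 : (P : Subgroup G) = ⊥ := by
    rw [pow_zero] at h2
    exact Subgroup.card_eq_one.1 h2
  have h4 : (P : Subgroup G).Normal := by rw [h3]; infer_instance
  have h5 : Nat.card (Sylow p G) = (normalizer ((P : Subgroup G) : Set G)).index := P.card_eq_index_normalizer
  rw [h5, normalizer_eq_top_iff.2 h4, index_top]

theorem nsyl_ok1 (hG : ¬ IsMulCommutative G) (h19 : 19 ∣ m) (h : Nat.card G = m) {p : ℕ} [Fact p.Prime]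
    (hpp : ¬ p * p ∣ m) : ok1 m p (Nat.card (Sylow p G)) = true := by
  have hpr : p.Prime := Fact.out
  unfold ok1
  split_ifs with hp
  · have hp := Nat.dvd_of_mod_eq_zero hp
    obtain ⟨k, hk⟩ := id hp
    have hkp : ¬ p ∣ k := by
      rintro ⟨l, hl⟩
      exact hpp ⟨l, by rw [hk, hl, mul_assoc]⟩
    have hG5 : Nat.card G = p ^ 1 * k := by rw [h, pow_one, hk]
    have h1 := nsyl_dvd hG5 hkp
    have hm' : m / p = k := by rw [hk, Nat.mul_div_cancel_left _ hpr.pos]
    obtain ⟨P⟩ : Nonempty (Sylow p G) := inferInstance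
    obtain ⟨e, c, hN, hC, he, he1⟩ := nc_data hG P (cardP h hp hpp P)
    have h5 := card_normalizer_mul_nsyl P
    rw [hN, h, hk] at h5
    have h6 : e * c * Nat.card (Sylow p G) = k := by
      apply Nat.eq_of_mul_eq_mul_left hpr.pos
      rw [← h5]; ring
    have hpos : 0 < Nat.card (Sylow p G) := Nat.card_pos
    have h7 : k / Nat.card (Sylow p G) = e * c := by
      rw [← h6, Nat.mul_div_cancel _ hpos]
    rw [hm', h7]
    simp only [Bool.and_eq_true, decide_eq_true_eq, beq_iff_eq, bne_iff_ne]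
    refine ⟨⟨⟨Nat.mod_eq_zero_of_dvd h1, nsyl_mod p G⟩, ?_⟩, ?_⟩
    · rw [P.card_eq_index_normalizer]
      apply index_ge hG (by rw [h]; exact h19)
      intro h8
      apply nsyl_ne_one hG (p := p) (by rw [h]; exact hp)
      rw [P.card_eq_index_normalizer, h8, index_top]
    · intro h8
      apply he1
      have h9 : e ∣ Nat.gcd (e * c) (p - 1) := Nat.dvd_gcd (Dvd.intro _ rfl) he
      rw [h8] at h9
      exact Nat.dvd_one.1 h9
  · rw [beq_iff_eq]
    exact nsyl_eq_one h (fun h0 => hp (Nat.mod_eq_zero_of_dvd h0))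

/-- the condition on a pair of Sylow numbers -/
def pairOk (m p q a b : ℕ) : Bool :=
  (m % p != 0) || (m % q != 0) || ((p - 1) % q == 0) || (m / a % q != 0) ||
  ((List.range (m / a / (p * q) + 1)).any fun m1 =>
    (m1 % q == 1) && (a * m1 % b == 0) && ((a * m1 / b) % p == 1) && (m / a % (p * q * m1) == 0))

theorem pairOk_of (h : Nat.card G = m) {p q : ℕ} [Fact p.Prime] [Fact q.Prime]
    (hpp : ¬ p * p ∣ m) (hqq : ¬ q * q ∣ m) (hpq : p ≠ q) :
    pairOk m p q (Nat.card (Sylow p G)) (Nat.card (Sylow q G)) = true := by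
  unfold pairOk
  by_cases h1 : p ∣ m
  swap
  · rw [Bool.or_eq_true, Bool.or_eq_true, Bool.or_eq_true, Bool.or_eq_true]
    left; left; left; left
    rw [bne_iff_ne]
    exact fun h0 => h1 (Nat.dvd_of_mod_eq_zero h0)
  by_cases h2 : q ∣ m
  swap
  · rw [Bool.or_eq_true, Bool.or_eq_true, Bool.or_eq_true, Bool.or_eq_true]
    left; left; left; right
    rw [bne_iff_ne]
    exact fun h0 => h2 (Nat.dvd_of_mod_eq_zero h0)
  by_cases h3 : q ∣ p - 1
  · rw [Bool.or_eq_true, Bool.or_eq_true, Bool.or_eq_true, Bool.or_eq_true]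
    left; left; right
    rw [beq_iff_eq]
    exact Nat.mod_eq_zero_of_dvd h3
  rw [Bool.or_eq_true, Bool.or_eq_true]
  obtain ⟨P⟩ : Nonempty (Sylow p G) := inferInstance
  have h5 := card_normalizer_mul_nsyl P
  have hpos : 0 < Nat.card (Sylow p G) := Nat.card_pos
  have hposq : 0 < Nat.card (Sylow q G) := Nat.card_pos
  have h6 : m / Nat.card (Sylow p G) = Nat.card (normalizer ((P : Subgroup G) : Set G)) := by
    rw [← h, ← h5, Nat.mul_div_cancel _ hpos]
  rw [h6]
  by_cases hd : q ∣ Nat.card (normalizer ((P : Subgroup G) : Set G))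
  · right
    obtain ⟨m1, m2, a1, a2, a3, a4⟩ := two_primes hpq (cardP h h1 hpp) (cardP h h2 hqq) P h3 hd
    rw [← h5, mul_comm] at a4
    have a5 := Nat.dvd_of_mul_dvd_mul_right hpos a4
    have hN : 0 < Nat.card (normalizer ((P : Subgroup G) : Set G)) := Nat.card_pos
    have hpq0 : 0 < p * q := Nat.mul_pos (Nat.Prime.pos Fact.out) (Nat.Prime.pos Fact.out)
    rw [List.any_eq_true]
    refine ⟨m1, ?_, ?_⟩
    · rw [List.mem_range]
      have : m1 ≤ Nat.card (normalizer ((P : Subgroup G) : Set G)) / (p * q) := by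
        rw [Nat.le_div_iff_mul_le hpq0, mul_comm]
        exact Nat.le_of_dvd hN a5
      omega
    · rw [a3, Nat.mul_mod_right, Nat.mul_div_cancel_left _ hposq, a1, a2, Nat.mod_eq_zero_of_dvd a5]
      rfl
  · left; right
    rw [bne_iff_ne]
    intro h0
    exact hd (Nat.dvd_of_mod_eq_zero h0)

end Order

section Count

variable {G : Type*} [Group G] [Finite G] {m : ℕ}

/-- the number of elements of order `p` -/
def cnt (m p n : ℕ) : ℕ := if m % p = 0 then n * (p - 1) else 0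

theorem cnt_eq (h : Nat.card G = m) {p : ℕ} [Fact p.Prime] (hpp : ¬ p * p ∣ m) :
    Nat.card {g : G // orderOf g = p} = cnt m p (Nat.card (Sylow p G)) := by
  unfold cnt
  split_ifs with hp
  · exact card_orderOf_eq (cardP h (Nat.dvd_of_mod_eq_zero hp) hpp)
  · have : IsEmpty {g : G // orderOf g = p} := by
      constructor
      rintro ⟨g, hg⟩
      apply hp
      apply Nat.mod_eq_zero_of_dvd
      rw [← h, ← hg]
      exact orderOf_dvd_natCard g
    exact Nat.card_of_isEmpty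

/-- counting elements by their orders -/
theorem sum_orders_le (G : Type*) [Group G] [Finite G] (L : Finset ℕ) : ∑ n ∈ L, Nat.card {g : G // orderOf g = n} ≤ Nat.card G := by
  classical
  have : Fintype G := Fintype.ofFinite G
  have h1 : ∀ n, Nat.card {g : G // orderOf g = n} = (Finset.univ.filter fun g : G => orderOf g = n).card := by
    intro n
    rw [Nat.card_eq_fintype_card, Fintype.card_subtype]
  simp_rw [h1]
  rw [← Finset.card_biUnion]
  · rw [Nat.card_eq_fintype_card]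
    exact Finset.card_le_univ _
  · intro a _ b _ hab
    rw [Function.onFun, Finset.disjoint_left]
    intro g hg hg'
    rw [Finset.mem_filter] at hg hg'
    exact hab (hg.2.symm.trans hg'.2)

theorem count_le (h : Nat.card G = m) (h3 : ¬ 3 * 3 ∣ m) (h5 : ¬ 5 * 5 ∣ m) (h7 : ¬ 7 * 7 ∣ m) (h11 : ¬ 11 * 11 ∣ m)
    (h19 : ¬ 19 * 19 ∣ m) : 1 + cnt m 3 (Nat.card (Sylow 3 G)) + cnt m 5 (Nat.card (Sylow 5 G)) +
      cnt m 7 (Nat.card (Sylow 7 G)) + cnt m 11 (Nat.card (Sylow 11 G)) + cnt m 19 (Nat.card (Sylow 19 G)) ≤ m := by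
  have h1 := sum_orders_le G {1, 3, 5, 7, 11, 19}
  rw [h] at h1
  rw [Finset.sum_insert (by decide), Finset.sum_insert (by decide), Finset.sum_insert (by decide),
    Finset.sum_insert (by decide), Finset.sum_insert (by decide), Finset.sum_singleton,
    cnt_eq h h3, cnt_eq h h5, cnt_eq h h7, cnt_eq h h11, cnt_eq h h19] at h1
  have h2 : Nat.card {g : G // orderOf g = 1} = 1 := by
    rw [Nat.card_eq_one_iff_unique]
    refine ⟨⟨fun a b => ?_⟩, ⟨⟨1, orderOf_one⟩⟩⟩
    apply Subtype.ext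
    rw [orderOf_eq_one_iff.1 a.2, orderOf_eq_one_iff.1 b.2]
  rw [h2] at h1
  omega

end Count

/-! the numerical check -/

/-- small divisors -/
def D1 : List ℕ := (List.range 420).filter fun k => (k != 0) && (175560 % k == 0)
/-- all divisors of 175560 -/
def D : List ℕ := D1 ++ D1.map fun k => 175560 / k

theorem mem_D {n : ℕ} (h : n ∣ 175560) : n ∈ D := by
  obtain ⟨k, hk⟩ := h
  have hn : n ≠ 0 := by rintro rfl; simp at hk
  have hk0 : k ≠ 0 := by rintro rfl; simp at hk
  unfold D D1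
  rw [List.mem_append]
  by_cases h1 : n < 420
  · left
    rw [List.mem_filter]
    refine ⟨List.mem_range.2 h1, ?_⟩
    simp only [Bool.and_eq_true, beq_iff_eq, bne_iff_ne]
    exact ⟨hn, by rw [hk, Nat.mul_mod_right]⟩
  · right
    rw [List.mem_map]
    have h2 : k < 420 := by
      by_contra h3
      have : 420 * 420 ≤ n * k := Nat.mul_le_mul (by omega) (by omega)
      omega
    refine ⟨k, ?_, by rw [hk, Nat.mul_div_cancel _ (Nat.pos_of_ne_zero hk0)]⟩
    rw [List.mem_filter]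
    refine ⟨List.mem_range.2 h2, ?_⟩
    simp only [Bool.and_eq_true, beq_iff_eq, bne_iff_ne]
    exact ⟨hk0, by rw [hk, Nat.mul_mod_left]⟩

def SOL : List (ℕ × ℕ × ℕ × ℕ × ℕ × ℕ) :=
  [(760, 1, 76, 1, 1, 20), (2280, 76, 76, 1, 1, 20), (15960, 190, 1596, 190, 1, 210), (15960, 1330, 1596, 190, 1, 210),
   (17556, 133, 1, 1254, 133, 77), (35112, 133, 1, 1254, 133, 77), (35112, 532, 1, 1254, 133, 77),
   (35112, 2926, 1, 1254, 1596, 77), (87780, 2926, 2926, 4180, 210, 210), (87780, 2926, 2926, 4180, 1596, 1540)]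

def chk (m : ℕ) : Bool :=
  D.all fun a19 => !ok1 m 19 a19 ||
    D.all fun a11 => !ok1 m 11 a11 || !pairOk m 11 19 a11 a19 || !pairOk m 19 11 a19 a11 ||
      D.all fun a7 => !ok1 m 7 a7 || !pairOk m 7 19 a7 a19 || !pairOk m 19 7 a19 a7 || !pairOk m 7 11 a7 a11 || !pairOk m 11 7 a11 a7 ||
        D.all fun a5 => !ok1 m 5 a5 || !pairOk m 5 19 a5 a19 || !pairOk m 19 5 a19 a5 || !pairOk m 5 11 a5 a11 || !pairOk m 11 5 a11 a5
            || !pairOk m 5 7 a5 a7 || !pairOk m 7 5 a7 a5 ||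
          D.all fun a3 => !ok1 m 3 a3 || !pairOk m 3 19 a3 a19 || !pairOk m 19 3 a19 a3 || !pairOk m 3 11 a3 a11 || !pairOk m 11 3 a11 a3
            || !pairOk m 3 7 a3 a7 || !pairOk m 7 3 a7 a3 || !pairOk m 3 5 a3 a5 || !pairOk m 5 3 a5 a3 ||
            decide (m < 1 + cnt m 3 a3 + cnt m 5 a5 + cnt m 7 a7 + cnt m 11 a11 + cnt m 19 a19) ||
            SOL.contains (m, a3, a5, a7, a11, a19)

theorem chk_all : (D.all fun m => (m % 19 != 0) || (m % 4 != 0) || (m == 175560) || chk m) = true := by decide +kernel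

theorem sq_not_dvd {m : ℕ} (hm : m ∣ 175560) :
    ¬ 3 * 3 ∣ m ∧ ¬ 5 * 5 ∣ m ∧ ¬ 7 * 7 ∣ m ∧ ¬ 11 * 11 ∣ m ∧ ¬ 19 * 19 ∣ m := by
  refine ⟨fun h => ?_, fun h => ?_, fun h => ?_, fun h => ?_, fun h => ?_⟩ <;>
  · have := h.trans hm
    revert this
    norm_num

theorem mem_SOL {G : Type*} [Group G] [Finite G] [IsSimpleGroup G] {m : ℕ} (hG : ¬ IsMulCommutative G)
    (h : Nat.card G = m) (hm : m ∣ 175560) (h19 : 19 ∣ m) (h4 : 4 ∣ m) (hne : m ≠ 175560) :
    (m, Nat.card (Sylow 3 G), Nat.card (Sylow 5 G), Nat.card (Sylow 7 G), Nat.card (Sylow 11 G), Nat.card (Sylow 19 G)) ∈ SOL := by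
  obtain ⟨s3, s5, s7, s11, s19⟩ := sq_not_dvd hm
  have hc := chk_all
  rw [List.all_eq_true] at hc
  have hc := hc m (mem_D hm)
  have hdiv : ∀ p : ℕ, [Fact p.Prime] → Nat.card (Sylow p G) ∈ D := by
    intro p _
    apply mem_D
    apply Dvd.dvd.trans _ hm
    rw [← h]
    obtain ⟨P⟩ : Nonempty (Sylow p G) := inferInstance
    rw [← card_normalizer_mul_nsyl P]
    exact Dvd.intro_left _ rfl
  have e1 : m % 19 = 0 := Nat.mod_eq_zero_of_dvd h19
  have e2 : m % 4 = 0 := Nat.mod_eq_zero_of_dvd h4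
  rw [e1, e2] at hc
  have e3 : (m == 175560) = false := by simpa using hne
  rw [e3] at hc
  have hc : chk m = true := by simpa using hc
  unfold chk at hc
  have c1 := List.all_eq_true.1 hc _ (hdiv 19)
  rw [nsyl_ok1 hG h19 h s19, Bool.not_true, Bool.false_or] at c1
  have c2 := List.all_eq_true.1 c1 _ (hdiv 11)
  rw [nsyl_ok1 hG h19 h s11, pairOk_of h s11 s19 (by norm_num), pairOk_of h s19 s11 (by norm_num), Bool.not_true, Bool.false_or,
    Bool.false_or, Bool.false_or] at c2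
  have c3 := List.all_eq_true.1 c2 _ (hdiv 7)
  rw [nsyl_ok1 hG h19 h s7, pairOk_of h s7 s19 (by norm_num), pairOk_of h s19 s7 (by norm_num),
    pairOk_of h s7 s11 (by norm_num), pairOk_of h s11 s7 (by norm_num), Bool.not_true] at c3
  simp only [Bool.false_or] at c3
  have c4 := List.all_eq_true.1 c3 _ (hdiv 5)
  rw [nsyl_ok1 hG h19 h s5, pairOk_of h s5 s19 (by norm_num), pairOk_of h s19 s5 (by norm_num),
    pairOk_of h s5 s11 (by norm_num), pairOk_of h s11 s5 (by norm_num),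
    pairOk_of h s5 s7 (by norm_num), pairOk_of h s7 s5 (by norm_num), Bool.not_true] at c4
  simp only [Bool.false_or] at c4
  have c5 := List.all_eq_true.1 c4 _ (hdiv 3)
  rw [nsyl_ok1 hG h19 h s3, pairOk_of h s3 s19 (by norm_num), pairOk_of h s19 s3 (by norm_num),
    pairOk_of h s3 s11 (by norm_num), pairOk_of h s11 s3 (by norm_num),
    pairOk_of h s3 s7 (by norm_num), pairOk_of h s7 s3 (by norm_num),
    pairOk_of h s3 s5 (by norm_num), pairOk_of h s5 s3 (by norm_num), Bool.not_true] at c5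
  simp only [Bool.false_or] at c5
  rw [Bool.or_eq_true] at c5
  rcases c5 with c5 | c5
  · exfalso
    rw [decide_eq_true_eq] at c5
    have := count_le h s3 s5 s7 s11 s19
    omega
  · exact List.contains_iff_mem.1 c5

end Cfsg.Agent.Lib.H10Ord
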