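import Cfsg.Agent.Lib.H10Ord1
import Cfsg.Agent.Lib.ThompsonTransfer

set_option autoImplicit false
set_option linter.unusedSectionVars false

/-! No simple groups of order 760, 2280, 15960, 17556, 35112, 87780. -/

namespace Cfsg.Agent.Lib.H10Ord

open Subgroup
open Cfsg.Agent.Lib.SmallSimple
open Cfsg.Agent.Lib.Simple168 (exists_mem_orderOf_eq orderOf_dvd_card_of_mem card_orderOf_eq)
open Cfsg.Agent.Lib.H10J175 (exists_mod exists_sylow_eq sylow_cyclic cardN centralizes two_primes)

section Involutions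

variable {G : Type*} [Group G] [Finite G] [IsSimpleGroup G]

theorem no_index_two (hG : ¬ IsMulCommutative G) (M : Subgroup G) (hM : M.Normal) : M.index ≠ 2 := by
  intro h
  rcases IsSimpleGroup.eq_bot_or_eq_top_of_normal M hM with h1 | h1
  · apply hG
    rw [h1, index_bot] at h
    have : IsCyclic G := isCyclic_of_prime_card h
    infer_instance
  · rw [h1, index_top] at h
    omega

/-- every involution is conjugate into a given subgroup of index two of a Sylow 2-subgroup -/
theorem exists_conj_mem (hG : ¬ IsMulCommutative G) (P : Sylow 2 G) (Q : Subgroup G)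
    (hQi : Q.relIndex (P : Subgroup G) = 2) (u : G) (hu : orderOf u = 2) : ∃ g : G, g * u * g⁻¹ ∈ Q := by
  obtain ⟨g, hg⟩ : ∃ g : G, g * u * g⁻¹ ∈ (P : Subgroup G) := by
    have h2 : IsPGroup 2 (zpowers u) := by
      apply IsPGroup.of_card (n := 1)
      rw [Nat.card_zpowers, hu, pow_one]
    obtain ⟨R, hR⟩ := h2.exists_le_sylow
    obtain ⟨g, hg⟩ := MulAction.exists_smul_eq G R P
    refine ⟨g, ?_⟩
    rw [← hg]
    have h3 : MulAut.conj g u ∈ ((g • R : Sylow 2 G) : Subgroup G) := by
      rw [Sylow.coe_subgroup_smul]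
      exact smul_mem_pointwise_smul u (MulAut.conj g) _ (hR (mem_zpowers u))
    exact h3
  by_contra hno
  push Not at hno
  have hu' : orderOf (g * u * g⁻¹) = 2 := by
    rw [← hu]
    exact Cfsg.Agent.Lib.Simple168.orderOf_eq_of_isConj (isConj_iff.2 ⟨g, rfl⟩).symm
  obtain ⟨M, hM, hMi, -⟩ := Cfsg.Agent.Lib.ThompsonTransfer.thompson_transfer P Q hQi (g * u * g⁻¹) hu' hg (by
    intro k hk
    apply hno (k * g)
    have : k * g * u * (k * g)⁻¹ = k * (g * u * g⁻¹) * k⁻¹ := by group
    rw [this]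
    exact hk)
  exact no_index_two hG M hM hMi

theorem card_cent_conj {u v g : G} (h : g * u * g⁻¹ = v) : Nat.card (centralizer ({u} : Set G)) = Nat.card (centralizer ({v} : Set G)) := by
  rw [← h]
  exact (Cfsg.Agent.Lib.Simple168.card_centralizer_conj u g).symm

/-- if the Sylow 2-subgroups have order 4, then the involutions are conjugate and have centralizers of order divisible by 4 -/
theorem four (hG : ¬ IsMulCommutative G) (P : Sylow 2 G) (hP : Nat.card (P : Subgroup G) = 4) (u : G) (hu : orderOf u = 2) :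
    4 ∣ Nat.card (centralizer ({u} : Set G)) ∧ ∀ v : G, orderOf v = 2 →
      Nat.card (centralizer ({v} : Set G)) = Nat.card (centralizer ({u} : Set G)) := by
  obtain ⟨z, hz, hzo⟩ := exists_mem_orderOf_eq (P : Subgroup G) 2 (by rw [hP]; norm_num)
  have hzP : zpowers z ≤ (P : Subgroup G) := by rwa [zpowers_le]
  have hrel : (zpowers z).relIndex (P : Subgroup G) = 2 := by
    have h1 := relIndex_mul_card_of_le hzP
    rw [Nat.card_zpowers, hzo, hP] at h1
    omega
  have key : ∀ v : G, orderOf v = 2 → ∃ g : G, g * v * g⁻¹ = z := by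
    intro v hv
    obtain ⟨g, hg⟩ := exists_conj_mem hG P (zpowers z) hrel v hv
    refine ⟨g, ?_⟩
    have ho : orderOf (g * v * g⁻¹) = 2 := by
      rw [← hv]
      exact Cfsg.Agent.Lib.Simple168.orderOf_eq_of_isConj (isConj_iff.2 ⟨g, rfl⟩).symm
    obtain ⟨k, hk⟩ := mem_zpowers_iff.1 hg
    rcases Int.even_or_odd' k with ⟨j, hj | hj⟩
    · exfalso
      rw [hj, zpow_mul, zpow_ofNat, ← hzo, pow_orderOf_eq_one, one_zpow] at hk
      rw [← hk, orderOf_one] at ho
      omega
    · rw [hj, zpow_add, zpow_mul, zpow_ofNat, ← hzo, pow_orderOf_eq_one, one_zpow, one_mul, zpow_one] at hk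
      exact hk.symm
  have hcomm : IsMulCommutative (P : Subgroup G) :=
    IsPGroup.isMulCommutative_of_card_eq_prime_sq (p := 2) (by rw [hP]; norm_num)
  have h4z : 4 ∣ Nat.card (centralizer ({z} : Set G)) := by
    rw [← hP]
    apply card_dvd_of_le
    apply (le_centralizer_of_comm hcomm).trans
    apply centralizer_le
    rw [Set.singleton_subset_iff]
    exact hz
  have key2 : ∀ v : G, orderOf v = 2 → Nat.card (centralizer ({v} : Set G)) = Nat.card (centralizer ({z} : Set G)) := by
    intro v hv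
    obtain ⟨g, hg⟩ := key v hv
    exact card_cent_conj hg
  rw [key2 u hu]
  exact ⟨h4z, fun v hv => key2 v hv⟩

/-- if the Sylow 2-subgroups have order 8, then the centralizers of involutions have order divisible by 8 -/
theorem eight (hG : ¬ IsMulCommutative G) (P : Sylow 2 G) (hP : Nat.card (P : Subgroup G) = 8) (u : G) (hu : orderOf u = 2) :
    8 ∣ Nat.card (centralizer ({u} : Set G)) := by
  obtain ⟨g, hg⟩ : ∃ g : G, g * u * g⁻¹ ∈ (P : Subgroup G) := by
    have h2 : IsPGroup 2 (zpowers u) := by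
      apply IsPGroup.of_card (n := 1)
      rw [Nat.card_zpowers, hu, pow_one]
    obtain ⟨R, hR⟩ := h2.exists_le_sylow
    obtain ⟨g, hg⟩ := MulAction.exists_smul_eq G R P
    refine ⟨g, ?_⟩
    rw [← hg]
    have h3 : MulAut.conj g u ∈ ((g • R : Sylow 2 G) : Subgroup G) := by
      rw [Sylow.coe_subgroup_smul]
      exact smul_mem_pointwise_smul u (MulAut.conj g) _ (hR (mem_zpowers u))
    exact h3
  by_cases hc : IsMulCommutative (P : Subgroup G)
  · rw [card_cent_conj (u := u) (g := g) rfl, ← hP]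
    apply card_dvd_of_le
    apply (le_centralizer_of_comm hc).trans
    apply centralizer_le
    rw [Set.singleton_subset_iff]
    exact hg
  -- an element of order four
  obtain ⟨x, hx, hxo⟩ : ∃ x ∈ (P : Subgroup G), orderOf x = 4 := by
    by_contra hcon
    push Not at hcon
    apply hc
    have hord : ∀ x ∈ (P : Subgroup G), orderOf x ∣ 8 := fun x hx => by
      rw [← hP]; exact orderOf_dvd_card_of_mem hx
    have h8 : ∀ x ∈ (P : Subgroup G), orderOf x ≠ 8 := by
      intro x hx ho
      apply hcon (x ^ 2) (pow_mem hx 2)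
      rw [orderOf_pow, ho]
      norm_num
    have hsq : ∀ x ∈ (P : Subgroup G), x * x = 1 := by
      intro x hx
      have h1 := hord x hx
      have h2 := h8 x hx
      have h3 := hcon x hx
      have h4 : orderOf x ∣ 2 := by
        have h5 : orderOf x ≤ 8 := Nat.le_of_dvd (by norm_num) h1
        interval_cases (orderOf x) <;> simp_all
      rw [← pow_two]
      exact orderOf_dvd_iff_pow_eq_one.1 h4
    constructor
    constructor
    rintro ⟨a, ha⟩ ⟨b, hb⟩
    apply Subtype.ext
    change a * b = b * a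
    have h1 := hsq a ha
    have h2 := hsq b hb
    have h3 := hsq (a * b) ((P : Subgroup G).mul_mem ha hb)
    have e1 : a⁻¹ = a := inv_eq_of_mul_eq_one_right h1
    have e2 : b⁻¹ = b := inv_eq_of_mul_eq_one_right h2
    have e3 : (a * b)⁻¹ = a * b := inv_eq_of_mul_eq_one_right h3
    rw [← e3, mul_inv_rev, e1, e2]
  have hxP : zpowers x ≤ (P : Subgroup G) := by rwa [zpowers_le]
  have hrel : (zpowers x).relIndex (P : Subgroup G) = 2 := by
    have h1 := relIndex_mul_card_of_le hxP
    rw [Nat.card_zpowers, hxo, hP] at h1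
    omega
  have huniq : ∀ v ∈ zpowers x, orderOf v = 2 → v = x ^ 2 := by
    intro v hv ho
    obtain ⟨k, hk⟩ := mem_zpowers_iff.1 hv
    have h4 : (4 : ℤ) ∣ 2 * k := by
      have : x ^ (2 * k) = 1 := by
        rw [mul_comm, zpow_mul, hk, zpow_ofNat, ← ho, pow_orderOf_eq_one]
      have := orderOf_dvd_iff_zpow_eq_one.2 this
      rw [hxo] at this
      exact_mod_cast this
    obtain ⟨j, hj⟩ : ∃ j, k = 2 * j := by
      obtain ⟨l, hl⟩ := h4
      exact ⟨l, by omega⟩
    have hx2 : orderOf (x ^ 2) = 2 := by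
      rw [orderOf_pow, hxo]; norm_num
    rcases Int.even_or_odd' j with ⟨l, hl | hl⟩
    · exfalso
      rw [hj, hl, show (2 * (2 * l) : ℤ) = 4 * l by ring, zpow_mul, zpow_ofNat, ← hxo, pow_orderOf_eq_one, one_zpow] at hk
      rw [← hk, orderOf_one] at ho
      omega
    · rw [hj, hl, show (2 * (2 * l + 1) : ℤ) = 4 * l + 2 by ring, zpow_add, zpow_mul, zpow_ofNat, ← hxo, pow_orderOf_eq_one,
        one_zpow, one_mul] at hk
      rw [← hk]
      exact zpow_ofNat x 2
  obtain ⟨k, hk⟩ := exists_conj_mem hG P (zpowers x) hrel u hu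
  have hko : orderOf (k * u * k⁻¹) = 2 := by
    rw [← hu]
    exact Cfsg.Agent.Lib.Simple168.orderOf_eq_of_isConj (isConj_iff.2 ⟨k, rfl⟩).symm
  have hkx := huniq _ hk hko
  rw [card_cent_conj hkx, ← hP]
  apply card_dvd_of_le
  have hnorm : ((zpowers x).subgroupOf (P : Subgroup G)).Normal := normal_of_index_eq_two hrel
  intro s hs
  rw [mem_centralizer_singleton_iff]
  have h1 : s * x ^ 2 * s⁻¹ ∈ zpowers x := by
    have h2 := hnorm.conj_mem ⟨x ^ 2, pow_mem hx 2⟩ (mem_subgroupOf.2 (pow_mem (mem_zpowers x) 2)) ⟨s, hs⟩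
    exact mem_subgroupOf.1 h2
  have h2 : orderOf (s * x ^ 2 * s⁻¹) = 2 := by
    have : orderOf (s * x ^ 2 * s⁻¹) = orderOf (x ^ 2) :=
      Cfsg.Agent.Lib.Simple168.orderOf_eq_of_isConj (isConj_iff.2 ⟨s, rfl⟩).symm
    rw [this, orderOf_pow, hxo]
    norm_num
  have h3 := huniq _ h1 h2
  exact (mul_inv_eq_iff_eq_mul.1 h3)

end Involutions

end Cfsg.Agent.Lib.H10Ord
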