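import Cfsg.Agent.Lib.H10Ord2

set_option autoImplicit false
set_option linter.unusedSectionVars false

/-! No simple groups of order 760, 2280, 15960, 17556, 35112, 87780. -/

namespace Cfsg.Agent.Lib.H10Ord

open Subgroup
open Cfsg.Agent.Lib.SmallSimple
open Cfsg.Agent.Lib.Simple168 (exists_mem_orderOf_eq orderOf_dvd_card_of_mem card_orderOf_eq)
open Cfsg.Agent.Lib.H10J175 (exists_mod exists_sylow_eq sylow_cyclic cardN centralizes two_primes)

/-- counting elements of order `p q` -/
theorem count_pq {G : Type*} [Group G] [Finite G] {p q : ℕ} [Fact p.Prime] [Fact q.Prime] (hpq : p ≠ q)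
    (hcp : ∀ P : Sylow p G, Nat.card (P : Subgroup G) = p)
    (hC : ∀ P : Sylow p G, q ∣ Nat.card (centralizer ((P : Subgroup G) : Set G))) :
    Nat.card (Sylow p G) * (p - 1) * (q - 1) ≤ Nat.card {g : G // orderOf g = p * q} := by
  have hp : p.Prime := Fact.out
  have hq : q.Prime := Fact.out
  have hcop : Nat.Coprime p q := (Nat.coprime_primes hp hq).2 hpq
  have key : ∀ a : {g : G // orderOf g = p}, ∃ b : G, orderOf b = q ∧ Commute (a : G) b := by
    rintro ⟨a, ha⟩
    obtain ⟨P, hP⟩ := exists_sylow_eq hcp a ha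
    obtain ⟨b, hb, hbo⟩ := exists_mem_orderOf_eq _ q (hC P)
    refine ⟨b, hbo, ?_⟩
    rw [mem_centralizer_iff] at hb
    exact hb a (by rw [SetLike.mem_coe, hP]; exact mem_zpowers a)
  choose b hb hab using key
  obtain ⟨u, -, hu⟩ := Nat.exists_mul_mod_eq_one_of_coprime hcop.symm hp.one_lt
  rw [← card_orderOf_eq hcp]
  have h1 : Nat.card ({g : G // orderOf g = p} × Fin (q - 1)) = Nat.card {g : G // orderOf g = p} * (q - 1) := by
    rw [Nat.card_prod, Nat.card_eq_fintype_card (α := Fin (q - 1)), Fintype.card_fin]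
  rw [← h1]
  have hbq : ∀ (a : {g : G // orderOf g = p}) (j : Fin (q - 1)), orderOf (b a ^ ((j : ℕ) + 1)) = q := by
    intro a j
    rw [Nat.Coprime.orderOf_pow, hb a]
    rw [hb a, Nat.Prime.coprime_iff_not_dvd hq]
    intro h
    have h2 := Nat.le_of_dvd (Nat.succ_pos _) h
    have h3 := j.2
    omega
  let F : {g : G // orderOf g = p} × Fin (q - 1) → {g : G // orderOf g = p * q} := fun w =>
    ⟨(w.1 : G) * b w.1 ^ ((w.2 : ℕ) + 1), by
      rw [((hab w.1).pow_right _).orderOf_mul_eq_mul_orderOf_of_coprime (by rw [w.1.2, hbq]; exact hcop), w.1.2, hbq]⟩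
  have hF : ∀ w, (F w : G) ^ (q * u) = (w.1 : G) := by
    intro w
    change ((w.1 : G) * b w.1 ^ ((w.2 : ℕ) + 1)) ^ (q * u) = (w.1 : G)
    rw [((hab w.1).pow_right _).mul_pow]
    have e1 : (b w.1 ^ ((w.2 : ℕ) + 1)) ^ (q * u) = 1 := by
      have e0 := pow_orderOf_eq_one (b w.1 ^ ((w.2 : ℕ) + 1))
      rw [hbq] at e0
      rw [pow_mul, e0, one_pow]
    have e2 : (w.1 : G) ^ (q * u) = w.1 := by
      have := pow_mod_orderOf (w.1 : G) (q * u)
      rw [w.1.2, hu, pow_one] at this
      exact this.symm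
    rw [e1, e2, mul_one]
  apply Nat.card_le_card_of_injective F
  rintro ⟨a, j⟩ ⟨a', j'⟩ h
  have h2 : a = a' := by
    apply Subtype.ext
    rw [← hF (a, j), ← hF (a', j'), h]
  subst h2
  have h3 : (F (a, j) : G) = F (a, j') := by rw [h]
  change (a : G) * b a ^ ((j : ℕ) + 1) = (a : G) * b a ^ ((j' : ℕ) + 1) at h3
  have h4 := mul_left_cancel h3
  rw [pow_inj_mod, hb a] at h4
  have h5 := j.2
  have h6 := j'.2
  rw [Nat.mod_eq_of_lt (by omega), Nat.mod_eq_of_lt (by omega)] at h4
  have h7 : j = j' := by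
    apply Fin.ext
    omega
  rw [h7]

section Cases

variable {G : Type*} [Group G] [Finite G] [IsSimpleGroup G]

theorem no_n20 (hG : ¬ IsMulCommutative G) (h : Nat.card G = 760 ∨ Nat.card G = 2280) (h19 : Nat.card (Sylow 19 G) = 20) : False := by
  obtain ⟨P⟩ : Nonempty (Sylow 19 G) := inferInstance
  have h1 := normalizer_dvd_of_nsyl hG (p := 19) (by norm_num) (by rw [h19]) (by omega) P
  have h2 := card_normalizer_mul_nsyl P
  rw [h19] at h2
  have h3 : Nat.card (normalizer ((P : Subgroup G) : Set G)) = 38 ∨ Nat.card (normalizer ((P : Subgroup G) : Set G)) = 114 := by omega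
  rcases h3 with h3 | h3 <;> rw [h3] at h1 <;> revert h1 <;> decide

theorem cent_ne_top (hG : ¬ IsMulCommutative G) (u : G) (hu : u ≠ 1) : centralizer ({u} : Set G) ≠ ⊤ := by
  intro h
  have h1 : u ∈ center G := by
    rw [mem_center_iff]
    intro g
    have : g ∈ centralizer ({u} : Set G) := by rw [h]; exact mem_top g
    exact (mem_centralizer_singleton_iff.1 this)
  rcases IsSimpleGroup.eq_bot_or_eq_top_of_normal (center G) inferInstance with h2 | h2
  · rw [h2, mem_bot] at h1
    exact hu h1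
  · apply hG
    constructor
    constructor
    intro a b
    have : b ∈ center G := by rw [h2]; exact mem_top b
    rw [mem_center_iff] at this
    exact this a

/-- data for a prime `p` with an involution in `C(P)` -/
theorem exists_inv {p : ℕ} [Fact p.Prime] (P : Sylow p G)
    (hc : 2 ∣ Nat.card (centralizer ((P : Subgroup G) : Set G))) :
    ∃ w : G, orderOf w = 2 ∧ w ∈ centralizer ((P : Subgroup G) : Set G) ∧ (P : Subgroup G) ≤ centralizer ({w} : Set G) := by
  obtain ⟨w, hw, hwo⟩ := exists_mem_orderOf_eq _ 2 hc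
  refine ⟨w, hwo, hw, ?_⟩
  intro x hx
  rw [mem_centralizer_singleton_iff]
  exact (mem_centralizer_iff.1 hw x hx)

/-- `e c' = k`, `e ∣ p - 1`, `e ≠ 1` -/
theorem nc (hG : ¬ IsMulCommutative G) {m n k : ℕ} (h : Nat.card G = m) {p : ℕ} [Fact p.Prime] (hp : p ∣ m) (hpp : ¬ p * p ∣ m)
    (hn : Nat.card (Sylow p G) = n) (hk : m = p * k * n) (P : Sylow p G) :
    Nat.card (normalizer ((P : Subgroup G) : Set G)) = p * k ∧ ∃ e c : ℕ, e * c = k ∧
      Nat.card (centralizer ((P : Subgroup G) : Set G)) = p * c ∧ e ∣ p - 1 ∧ e ≠ 1 := by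
  obtain ⟨e, c, h1, h2, h3, h4⟩ := nc_data hG P (cardP h hp hpp P)
  have h5 := card_normalizer_mul_nsyl P
  have hpos : 0 < Nat.card (Sylow p G) := Nat.card_pos
  have h6 : Nat.card (normalizer ((P : Subgroup G) : Set G)) = p * k := by
    rw [hn] at h5 hpos
    rw [h, hk] at h5
    exact Nat.eq_of_mul_eq_mul_right hpos h5
  refine ⟨h6, e, c, ?_, h2, h3, h4⟩
  rw [h1] at h6
  have hp0 : 0 < p := Nat.Prime.pos Fact.out
  apply Nat.eq_of_mul_eq_mul_left hp0
  rw [← h6]; ring

theorem case17556 (hG : ¬ IsMulCommutative G) (h : Nat.card G = 17556) (h19 : Nat.card (Sylow 19 G) = 77)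
    (h11 : Nat.card (Sylow 11 G) = 133) : False := by
  obtain ⟨P19⟩ : Nonempty (Sylow 19 G) := inferInstance
  obtain ⟨P11⟩ : Nonempty (Sylow 11 G) := inferInstance
  obtain ⟨S⟩ : Nonempty (Sylow 2 G) := inferInstance
  have hS : Nat.card (S : Subgroup G) = 4 := by
    have := sylow_card_of (G := G) (p := 2) (k := 2) (m := 4389) (by rw [h]; norm_num) (by norm_num) S
    exact this
  obtain ⟨n19, e, c, a1, a2, a3, a4⟩ := nc hG h (by norm_num) (by norm_num) h19 (k := 12) (by norm_num) P19
  obtain ⟨n11, e', c', b1, b2, b3, b4⟩ := nc hG h (by norm_num) (by norm_num) h11 (k := 12) (by norm_num) P11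
  have hc : 2 ∣ c := by
    have : e ∣ 6 := by
      have : e ∣ Nat.gcd 12 18 := Nat.dvd_gcd (Dvd.intro _ a1) a3
      exact this
    have he : e ≤ 6 := Nat.le_of_dvd (by norm_num) this
    interval_cases e <;> omega
  have hc' : 2 ∣ c' := by
    have : e' ∣ 2 := by
      have : e' ∣ Nat.gcd 12 10 := Nat.dvd_gcd (Dvd.intro _ b1) b3
      exact this
    have he : e' ≤ 2 := Nat.le_of_dvd (by norm_num) this
    interval_cases e' <;> omega
  obtain ⟨w, hw, hwC, hPw⟩ := exists_inv P19 (by rw [a2]; exact Dvd.dvd.mul_left hc 19)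
  obtain ⟨v, hv, hvC, hPv⟩ := exists_inv P11 (by rw [b2]; exact Dvd.dvd.mul_left hc' 11)
  obtain ⟨h4, hall⟩ := four hG S hS w hw
  have c19 : 19 ∣ Nat.card (centralizer ({w} : Set G)) := by
    have := card_dvd_of_le hPw
    rwa [cardP h (by norm_num) (by norm_num) P19] at this
  have c11 : 11 ∣ Nat.card (centralizer ({w} : Set G)) := by
    have := card_dvd_of_le hPv
    rwa [cardP h (by norm_num) (by norm_num) P11, hall v hv] at this
  have hw1 : w ≠ 1 := by rintro rfl; rw [orderOf_one] at hw; omega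
  have hi := index_ge hG (by rw [h]; norm_num) _ (cent_ne_top hG w hw1)
  have hmul := (centralizer ({w} : Set G)).card_mul_index
  rw [h] at hmul
  obtain ⟨m, hm1, hm2⟩ := exists_mod P19 _ hPw
  have hd := card_dvd_of_le (inf_le_left : normalizer ((P19 : Subgroup G) : Set G) ⊓ centralizer ({w} : Set G) ≤ _)
  rw [n19] at hd
  generalize Nat.card (centralizer ({w} : Set G)) = C at *
  generalize (centralizer ({w} : Set G)).index = I at *
  generalize Nat.card ↥(normalizer ((P19 : Subgroup G) : Set G) ⊓ centralizer ({w} : Set G)) = N at *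
  have hC : C = 836 := by
    have : 836 ∣ C := by
      have : Nat.lcm 4 (Nat.lcm 11 19) ∣ C := Nat.lcm_dvd h4 (Nat.lcm_dvd c11 c19)
      exact this
    obtain ⟨r, hr⟩ := this
    have : r * I = 21 := by rw [hr] at hmul; nlinarith
    have : r ≤ 1 := by
      by_contra hcon
      have : 2 * 19 ≤ r * I := Nat.mul_le_mul (by omega) hi
      omega
    interval_cases r
    · omega
    · omega
  have hN : N ≤ 228 := Nat.le_of_dvd (by norm_num) hd
  have hN19 : 19 ∣ N := by
    have h1 : (19:ℕ).Coprime m := by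
      rw [Nat.Prime.coprime_iff_not_dvd (by norm_num)]
      omega
    exact h1.dvd_of_dvd_mul_left (by rw [hm2]; exact c19)
  obtain ⟨s, hs⟩ := hN19
  have hms : m * s = 44 := by rw [hs, hC] at hm2; nlinarith
  have : m ≤ 44 := by nlinarith [Nat.pos_of_ne_zero (show s ≠ 0 by rintro rfl; omega)]
  have hm : m = 1 ∨ m = 20 ∨ m = 39 := by omega
  rcases hm with rfl | rfl | rfl
  · omega
  · omega
  · omega

theorem case35112 (hG : ¬ IsMulCommutative G) (h : Nat.card G = 35112) (h7 : Nat.card (Sylow 7 G) = 1254)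
    (h11 : Nat.card (Sylow 11 G) = 133 ∨ Nat.card (Sylow 11 G) = 1596) : False := by
  obtain ⟨P7⟩ : Nonempty (Sylow 7 G) := inferInstance
  obtain ⟨S⟩ : Nonempty (Sylow 2 G) := inferInstance
  have hS : Nat.card (S : Subgroup G) = 8 := by
    have := sylow_card_of (G := G) (p := 2) (k := 3) (m := 4389) (by rw [h]; norm_num) (by norm_num) S
    exact this
  obtain ⟨n7, e, c, a1, a2, a3, a4⟩ := nc hG h (by norm_num) (by norm_num) h7 (k := 4) (by norm_num) P7
  have hc : c = 2 := by
    have : e ∣ 2 := by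
      have : e ∣ Nat.gcd 4 6 := Nat.dvd_gcd (Dvd.intro _ a1) a3
      exact this
    have he : e ≤ 2 := Nat.le_of_dvd (by norm_num) this
    interval_cases e <;> omega
  obtain ⟨w, hw, hwC, hPw⟩ := exists_inv P7 (by rw [a2, hc]; norm_num)
  have h8 := eight hG S hS w hw
  have hw1 : w ≠ 1 := by rintro rfl; rw [orderOf_one] at hw; omega
  have hi := index_ge hG (by rw [h]; norm_num) _ (cent_ne_top hG w hw1)
  have hmul := (centralizer ({w} : Set G)).card_mul_index
  rw [h] at hmul
  obtain ⟨m, hm1, hm2⟩ := exists_mod P7 _ hPw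
  have hd := card_dvd_of_le (inf_le_left : normalizer ((P7 : Subgroup G) : Set G) ⊓ centralizer ({w} : Set G) ≤ _)
  rw [n7] at hd
  have c7 : 7 ∣ Nat.card ↥(normalizer ((P7 : Subgroup G) : Set G) ⊓ centralizer ({w} : Set G)) := by
    have := card_dvd_of_le (le_inf (le_normalizer (H := (P7 : Subgroup G))) hPw)
    rwa [cardP h (by norm_num) (by norm_num) P7] at this
  have c2 : 2 ∣ Nat.card ↥(normalizer ((P7 : Subgroup G) : Set G) ⊓ centralizer ({w} : Set G)) := by
    have h1 : w ∈ normalizer ((P7 : Subgroup G) : Set G) ⊓ centralizer ({w} : Set G) :=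
      ⟨centralizer_le_normalizer' _ hwC, mem_centralizer_singleton_iff.2 rfl⟩
    have := orderOf_dvd_card_of_mem h1
    rwa [hw] at this
  have hC : Nat.card (centralizer ({w} : Set G)) = 616 := by
    generalize Nat.card (centralizer ({w} : Set G)) = C at *
    generalize (centralizer ({w} : Set G)).index = I at *
    generalize Nat.card ↥(normalizer ((P7 : Subgroup G) : Set G) ⊓ centralizer ({w} : Set G)) = N at *
    have h14 : 14 ∣ N := by
      have : Nat.lcm 2 7 ∣ N := Nat.lcm_dvd c2 c7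
      exact this
    have hN : N = 14 ∨ N = 28 := by
      have : N ≤ 28 := Nat.le_of_dvd (by norm_num) hd
      obtain ⟨s, hs⟩ := h14
      have : s ≠ 0 := by rintro rfl; rw [hs] at hd; revert hd; norm_num
      omega
    rcases hN with rfl | rfl
    · exfalso
      have h1 : m * I = 2508 := by rw [← hm2] at hmul; nlinarith
      have h2 : 4 ∣ m := by omega
      have h3 : m ≤ 132 := by nlinarith
      have h4 : 2508 % m = 0 := by rw [← h1]; exact Nat.mul_mod_right _ _
      obtain ⟨s, rfl⟩ := h2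
      have : s ≤ 33 := by omega
      interval_cases s <;> omega
    · have h1 : m * I = 1254 := by rw [← hm2] at hmul; nlinarith
      have h2 : 2 ∣ m := by omega
      have h3 : m ≤ 66 := by nlinarith
      have h4 : 1254 % m = 0 := by rw [← h1]; exact Nat.mul_mod_right _ _
      obtain ⟨s, rfl⟩ := h2
      have : s ≤ 33 := by omega
      interval_cases s <;> omega
  obtain ⟨x, hx, hxo⟩ := exists_mem_orderOf_eq (centralizer ({w} : Set G)) 11 (by rw [hC]; norm_num)
  obtain ⟨P11, hP11⟩ := exists_sylow_eq (p := 11) (fun P => cardP h (by norm_num) (by norm_num) P) x hxo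
  have hP11w : (P11 : Subgroup G) ≤ centralizer ({w} : Set G) := by rw [hP11, zpowers_le]; exact hx
  obtain ⟨m', hm1', hm2'⟩ := exists_mod P11 _ hP11w
  have hd' := card_dvd_of_le (inf_le_left : normalizer ((P11 : Subgroup G) : Set G) ⊓ centralizer ({w} : Set G) ≤ _)
  have hN11 := card_normalizer_mul_nsyl P11
  rw [h] at hN11
  have c11 : 11 ∣ Nat.card ↥(normalizer ((P11 : Subgroup G) : Set G) ⊓ centralizer ({w} : Set G)) := by
    have := card_dvd_of_le (le_inf (le_normalizer (H := (P11 : Subgroup G))) hP11w)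
    rwa [cardP h (by norm_num) (by norm_num) P11] at this
  have c2' : 2 ∣ Nat.card ↥(normalizer ((P11 : Subgroup G) : Set G) ⊓ centralizer ({w} : Set G)) := by
    have h0 : w ∈ centralizer ((P11 : Subgroup G) : Set G) := by
      rw [mem_centralizer_iff]
      intro y hy
      exact (mem_centralizer_singleton_iff.1 (hP11w hy))
    have h1 : w ∈ normalizer ((P11 : Subgroup G) : Set G) ⊓ centralizer ({w} : Set G) :=
      ⟨centralizer_le_normalizer' _ h0, mem_centralizer_singleton_iff.2 rfl⟩
    have := orderOf_dvd_card_of_mem h1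
    rwa [hw] at this
  rw [hC] at hm2'
  generalize Nat.card ↥(normalizer ((P11 : Subgroup G) : Set G) ⊓ centralizer ({w} : Set G)) = N' at *
  generalize Nat.card (normalizer ((P11 : Subgroup G) : Set G)) = N at *
  have h22 : 22 ∣ N' := by
    have : Nat.lcm 2 11 ∣ N' := Nat.lcm_dvd c2' c11
    exact this
  obtain ⟨s, rfl⟩ := h22
  have h28 : m' * s = 28 := by nlinarith
  have hm' : m' = 1 := by
    have : m' ≤ 28 := by nlinarith [Nat.pos_of_ne_zero (show s ≠ 0 by rintro rfl; omega)]
    have h1 : m' = 1 ∨ m' = 12 ∨ m' = 23 := by omega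
    rcases h1 with rfl | rfl | rfl
    · rfl
    · omega
    · omega
  have hs : s = 28 := by rw [hm'] at h28; omega
  rw [hs] at hd'
  rcases h11 with h11 | h11
  · rw [h11] at hN11
    have : N = 264 := by omega
    rw [this] at hd'
    revert hd'; norm_num
  · rw [h11] at hN11
    have : N = 22 := by omega
    rw [this] at hd'
    revert hd'; norm_num

theorem case15960 (hG : ¬ IsMulCommutative G) (h : Nat.card G = 15960) (h19 : Nat.card (Sylow 19 G) = 210) : False := by
  obtain ⟨P⟩ : Nonempty (Sylow 19 G) := inferInstance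
  obtain ⟨S⟩ : Nonempty (Sylow 2 G) := inferInstance
  have hS : Nat.card (S : Subgroup G) = 8 := by
    have := sylow_card_of (G := G) (p := 2) (k := 3) (m := 1995) (by rw [h]; norm_num) (by norm_num) S
    exact this
  obtain ⟨n19, e, c, a1, a2, a3, a4⟩ := nc hG h (by norm_num) (by norm_num) h19 (k := 4) (by norm_num) P
  have hc : c = 2 := by
    have : e ∣ 2 := by
      have : e ∣ Nat.gcd 4 18 := Nat.dvd_gcd (Dvd.intro _ a1) a3
      exact this
    have he : e ≤ 2 := Nat.le_of_dvd (by norm_num) this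
    interval_cases e <;> omega
  obtain ⟨w, hw, hwC, hPw⟩ := exists_inv P (by rw [a2, hc]; norm_num)
  have h8 := eight hG S hS w hw
  have hw1 : w ≠ 1 := by rintro rfl; rw [orderOf_one] at hw; omega
  have hi := index_ge hG (by rw [h]; norm_num) _ (cent_ne_top hG w hw1)
  have hmul := (centralizer ({w} : Set G)).card_mul_index
  rw [h] at hmul
  -- w is central in N(P)
  have hPcard : Nat.card (P : Subgroup G) = 19 := cardP h (by norm_num) (by norm_num) P
  have hPC : (P : Subgroup G) ≤ centralizer ((P : Subgroup G) : Set G) :=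
    le_centralizer_of_comm (isMulCommutative_of_prime_card (p := 19) (by norm_num) hPcard)
  have hrel : ((P : Subgroup G).subgroupOf (centralizer ((P : Subgroup G) : Set G))).index = 2 := by
    have h1 := relIndex_mul_card_of_le hPC
    rw [hPcard, a2, hc] at h1
    have : (P : Subgroup G).relIndex (centralizer ((P : Subgroup G) : Set G)) = 2 := by omega
    exact this
  have hnot : ∀ v : G, orderOf v = 2 → v ∉ (P : Subgroup G) := by
    intro v hv hvP
    have := orderOf_dvd_card_of_mem hvP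
    rw [hv, hPcard] at this
    revert this; norm_num
  have huniq : ∀ v ∈ centralizer ((P : Subgroup G) : Set G), orderOf v = 2 → v = w := by
    intro v hv hvo
    have h1 := mul_mem_iff_of_index_two hrel (a := ⟨v, hv⟩) (b := ⟨w, hwC⟩)
    rw [mem_subgroupOf, mem_subgroupOf, mem_subgroupOf] at h1
    have h2 : v * w ∈ (P : Subgroup G) := h1.2 ⟨fun hh => absurd hh (hnot v hvo), fun hh => absurd hh (hnot w hw)⟩
    have hvv : v * v = 1 := by rw [← pow_two, ← hvo, pow_orderOf_eq_one]
    have hww : w * w = 1 := by rw [← pow_two, ← hw, pow_orderOf_eq_one]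
    have h3 : (v * w) * w = w * (v * w) := mem_centralizer_iff.1 hwC _ h2
    have h4 : (v * w) * (v * w) = 1 := by
      calc (v * w) * (v * w) = v * (w * (v * w)) := by group
        _ = v * ((v * w) * w) := by rw [h3]
        _ = (v * v) * (w * w) := by group
        _ = 1 := by rw [hvv, hww, one_mul]
    have h5 : orderOf (v * w) ∣ 2 := orderOf_dvd_of_pow_eq_one (by rw [pow_two]; exact h4)
    have h6 := orderOf_dvd_card_of_mem h2
    rw [hPcard] at h6
    have h7 : orderOf (v * w) ∣ Nat.gcd 2 19 := Nat.dvd_gcd h5 h6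
    have h8 : v * w = 1 := orderOf_eq_one_iff.1 (Nat.dvd_one.1 h7)
    calc v = v * (w * w) := by rw [hww, mul_one]
      _ = (v * w) * w := by group
      _ = w := by rw [h8, one_mul]
  have hNw : normalizer ((P : Subgroup G) : Set G) ≤ centralizer ({w} : Set G) := by
    intro g hg
    rw [mem_centralizer_singleton_iff]
    have h1 : g * w * g⁻¹ ∈ centralizer ((P : Subgroup G) : Set G) := by
      rw [mem_centralizer_iff]
      intro y hy
      have h2 : g⁻¹ * y * g ∈ (P : Subgroup G) := by
        rw [mem_normalizer_iff] at hg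
        have := (hg (g⁻¹ * y * g)).2
        apply this
        have e1 : g * (g⁻¹ * y * g) * g⁻¹ = y := by group
        rw [e1]; exact hy
      have h3 := mem_centralizer_iff.1 hwC _ h2
      calc y * (g * w * g⁻¹) = g * ((g⁻¹ * y * g) * w) * g⁻¹ := by group
        _ = g * (w * (g⁻¹ * y * g)) * g⁻¹ := by rw [h3]
        _ = g * w * g⁻¹ * y := by group
    have h2 : orderOf (g * w * g⁻¹) = 2 := by
      rw [← hw]
      exact Cfsg.Agent.Lib.Simple168.orderOf_eq_of_isConj (isConj_iff.2 ⟨g, rfl⟩).symm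
    exact mul_inv_eq_iff_eq_mul.1 (huniq _ h1 h2)
  obtain ⟨m, hm1, hm2⟩ := exists_mod P _ hPw
  rw [inf_eq_left.2 hNw, n19] at hm2
  generalize Nat.card (centralizer ({w} : Set G)) = C at *
  generalize (centralizer ({w} : Set G)).index = I at *
  have h1 : m * I = 210 := by rw [← hm2] at hmul; nlinarith
  have h2 : 2 ∣ m := by omega
  have h3 : m ≤ 11 := by nlinarith
  omega

theorem case87780 (hG : ¬ IsMulCommutative G) (h : Nat.card G = 87780) (h3 : Nat.card (Sylow 3 G) = 2926)
    (h5 : Nat.card (Sylow 5 G) = 2926) (h7 : Nat.card (Sylow 7 G) = 4180)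
    (h11 : (Nat.card (Sylow 11 G) = 210 ∧ Nat.card (Sylow 19 G) = 210) ∨
      (Nat.card (Sylow 11 G) = 1596 ∧ Nat.card (Sylow 19 G) = 1540)) : False := by
  have q3 : ¬ 3 * 3 ∣ 87780 := by norm_num
  have q5 : ¬ 5 * 5 ∣ 87780 := by norm_num
  have q7 : ¬ 7 * 7 ∣ 87780 := by norm_num
  have q11 : ¬ 11 * 11 ∣ 87780 := by norm_num
  have q19 : ¬ 19 * 19 ∣ 87780 := by norm_num
  have hC3 : ∀ P : Sylow 3 G, 5 ∣ Nat.card (centralizer ((P : Subgroup G) : Set G)) := by
    intro P
    obtain ⟨n3, e, c, a1, a2, a3, a4⟩ := nc hG h (by norm_num) (by norm_num) h3 (k := 10) (by norm_num) P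
    have he : e ≤ 2 := Nat.le_of_dvd (by norm_num) a3
    rw [a2]
    interval_cases e <;> omega
  have h15 := count_pq (p := 3) (q := 5) (by norm_num) (fun P => cardP h (by norm_num) (by norm_num) P) hC3
  rw [h3] at h15
  have hsum := sum_orders_le G {3, 5, 7, 11, 19, 15, 209}
  rw [h] at hsum
  rw [Finset.sum_insert (by decide), Finset.sum_insert (by decide), Finset.sum_insert (by decide),
    Finset.sum_insert (by decide), Finset.sum_insert (by decide), Finset.sum_insert (by decide), Finset.sum_singleton,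
    cnt_eq h q3, cnt_eq h q5, cnt_eq h q7, cnt_eq h q11, cnt_eq h q19, h3, h5, h7] at hsum
  simp only [cnt] at hsum
  norm_num at hsum h15
  rcases h11 with ⟨h11, h19⟩ | ⟨h11, h19⟩
  · have hC19 : ∀ P : Sylow 19 G, 11 ∣ Nat.card (centralizer ((P : Subgroup G) : Set G)) := by
      intro P
      obtain ⟨n3, e, c, a1, a2, a3, a4⟩ := nc hG h (by norm_num) (by norm_num) h19 (k := 22) (by norm_num) P
      have he : e ∣ 2 := by
        have : e ∣ Nat.gcd 22 18 := Nat.dvd_gcd (Dvd.intro _ a1) a3
        exact this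
      have he : e ≤ 2 := Nat.le_of_dvd (by norm_num) he
      rw [a2]
      interval_cases e <;> omega
    have h209 := count_pq (p := 19) (q := 11) (by norm_num) (fun P => cardP h (by norm_num) (by norm_num) P) hC19
    rw [h19] at h209
    norm_num at h209
    rw [h11, h19] at hsum
    omega
  · rw [h11, h19] at hsum
    omega

theorem no_simple (hG : ¬ IsMulCommutative G) (h175 : Nat.card G ∣ 175560) (h19 : 19 ∣ Nat.card G) (h4 : 4 ∣ Nat.card G)
    (hne : Nat.card G ≠ 175560) : False := by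
  have h1 := mem_SOL hG rfl h175 h19 h4 hne
  simp only [SOL, List.mem_cons, Prod.mk.injEq, List.not_mem_nil, or_false] at h1
  rcases h1 with h1 | h1 | h1 | h1 | h1 | h1 | h1 | h1 | h1 | h1
  · exact no_n20 hG (Or.inl h1.1) h1.2.2.2.2.2
  · exact no_n20 hG (Or.inr h1.1) h1.2.2.2.2.2
  · exact case15960 hG h1.1 h1.2.2.2.2.2
  · exact case15960 hG h1.1 h1.2.2.2.2.2
  · exact case17556 hG h1.1 h1.2.2.2.2.2 h1.2.2.2.2.1
  · exact case35112 hG h1.1 h1.2.2.2.1 (Or.inl h1.2.2.2.2.1)
  · exact case35112 hG h1.1 h1.2.2.2.1 (Or.inl h1.2.2.2.2.1)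
  · exact case35112 hG h1.1 h1.2.2.2.1 (Or.inr h1.2.2.2.2.1)
  · exact case87780 hG h1.1 h1.2.1 h1.2.2.1 h1.2.2.2.1 (Or.inl h1.2.2.2.2)
  · exact case87780 hG h1.1 h1.2.1 h1.2.2.1 h1.2.2.2.1 (Or.inr h1.2.2.2.2)

end Cases

end Cfsg.Agent.Lib.H10Ord
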