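import Cfsg.Agent.Lib.H10Ord3

set_option autoImplicit false
set_option linter.unusedSectionVars false

/-! Groups of order `19 k`. -/

namespace Cfsg.Agent.Lib.H10Ord

open Subgroup
open Cfsg.Agent.Lib.SmallSimple
open Cfsg.Agent.Lib.Simple168 (exists_mem_orderOf_eq orderOf_dvd_card_of_mem card_orderOf_eq)

universe u

theorem check4 : (D.all fun m => (m % 4 == 0) || (43890 % m == 0)) = true := by decide +kernel

/-- simple groups -/
theorem simple_case {G : Type*} [Group G] [Finite G] [IsSimpleGroup G] (hG : ¬ IsMulCommutative G) (h : Nat.card G ∣ 175560)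
    (h19 : 19 ∣ Nat.card G) : Nat.card G = 175560 := by
  by_contra hne
  by_cases h4 : 4 ∣ Nat.card G
  · exact no_simple hG h h19 h4 hne
  · have h1 := List.all_eq_true.1 check4 _ (mem_D h)
    rw [Bool.or_eq_true, beq_iff_eq, beq_iff_eq] at h1
    rcases h1 with h1 | h1
    · exact h4 (Nat.dvd_of_mod_eq_zero h1)
    · have h2 : Nat.card G ∣ 43890 := Nat.dvd_of_mod_eq_zero h1
      have h3 : Squarefree 43890 := by decide +kernel
      have h5 : IsZGroup G := IsZGroup.of_squarefree (h3.squarefree_of_dvd h2)
      have h6 : Group.IsSolvable G := inferInstance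
      apply hG
      have h7 := (commutator G).Normal
      have h8 : commutator G < ⊤ := IsZGroup.commutator_lt G
      rcases IsSimpleGroup.eq_bot_or_eq_top_of_normal (commutator G) inferInstance with h9 | h9
      · have h10 : center G = ⊤ := (commutator_eq_bot_iff_center_eq_top G).1 h9
        constructor
        constructor
        intro a b
        have : b ∈ center G := by rw [h10]; exact mem_top b
        rw [mem_center_iff] at this
        exact this a
      · exact absurd h9 h8.ne

/-- a normal subgroup with a normal Sylow 19-subgroup and of order divisible by 19 -/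
theorem lift_normal {G : Type*} [Group G] [Finite G] (h : Nat.card G ∣ 175560) (N : Subgroup G) [N.Normal]
    (h19 : 19 ∣ Nat.card N) (hN : ∀ P : Sylow 19 N, (P : Subgroup N).Normal) (P : Sylow 19 G) : (P : Subgroup G).Normal := by
  obtain ⟨Q⟩ : Nonempty (Sylow 19 N) := inferInstance
  have hQ := hN Q
  have s19 := (sq_not_dvd h).2.2.2.2
  have hQcard : Nat.card (Q : Subgroup N) = 19 :=
    cardP rfl h19 (fun hh => s19 (hh.trans (card_subgroup_dvd_card N))) Q
  have hchar : (Q : Subgroup N).Characteristic := Sylow.characteristic_of_normal Q hQ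
  have hnorm : ((Q : Subgroup N).map N.subtype).Normal := by
    infer_instance
  have hcard : Nat.card ((Q : Subgroup N).map N.subtype) = 19 := by
    rw [card_subtype, hQcard]
  have hPcard : Nat.card (P : Subgroup G) = 19 := cardP rfl (h19.trans (card_subgroup_dvd_card N)) s19 P
  have hle : (Q : Subgroup N).map N.subtype ≤ (P : Subgroup G) := by
    have h2 : IsPGroup 19 ((Q : Subgroup N).map N.subtype) := by
      apply IsPGroup.of_card (n := 1)
      rw [hcard, pow_one]
    obtain ⟨R, hR⟩ := h2.exists_le_sylow
    obtain ⟨g, hg⟩ := MulAction.exists_smul_eq G R P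
    intro x hx
    have h3 : (MulAut.conj g)⁻¹ • x ∈ (Q : Subgroup N).map N.subtype := by
      have := hnorm.conj_mem x hx g⁻¹
      have e : (MulAut.conj g)⁻¹ • x = g⁻¹ * x * g⁻¹⁻¹ := by
        rw [← map_inv]; rfl
      rw [e]; exact this
    have h4 := hR h3
    rw [← hg, Sylow.coe_subgroup_smul]
    exact mem_pointwise_smul_iff_inv_smul_mem.2 h4
  have heq : (Q : Subgroup N).map N.subtype = (P : Subgroup G) :=
    eq_of_le_of_card_ge hle (by rw [hcard, hPcard])
  rw [← heq]
  exact hnorm

/-- elements of order 19 normalizing a subgroup of order less than 19 centralize it -/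
theorem centralizes_small {G : Type*} [Group G] [Finite G] (Q : Subgroup G) (hQ : Nat.card Q < 20) (x : G) (hx : orderOf x = 19)
    (hxN : x ∈ normalizer (Q : Set G)) : x ∈ centralizer (Q : Set G) := by
  set N := normalizer (Q : Set G) with hN
  set C := (centralizer (Q : Set G)).subgroupOf N with hC
  have hCn : C.Normal := by
    rw [hC, ← normalizerMonoidHom_ker]
    infer_instance
  have h1 : C.index ∣ (Nat.card Q - 1).factorial := (relIndex_centralizer_dvd Q).trans (card_mulAut_dvd_factorial Q)
  have h2 : (⟨x, hxN⟩ : N) ∈ C := by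
    apply mem_of_orderOf_coprime_index
    rw [orderOf_mk, hx]
    apply (Nat.Prime.coprime_iff_not_dvd (by norm_num)).2
    intro h
    have := (Nat.Prime.dvd_factorial (p := 19) (by norm_num)).1 (h.trans h1)
    omega
  exact mem_subgroupOf.1 h2

/-- a normal subgroup of index 19: its Sylow subgroups are centralized by a Sylow 19-subgroup -/
theorem frattini {G : Type*} [Group G] [Finite G] (h : Nat.card G ∣ 175560) (h19 : 19 ∣ Nat.card G) (N : Subgroup G) [N.Normal]
    (hN : ¬ 19 ∣ Nat.card N) (P : Sylow 19 G) {q : ℕ} [Fact q.Prime] (Q : Sylow q N) (hQ : Nat.card (Q : Subgroup N) < 20) :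
    Nat.card (Q : Subgroup N) ∣ Nat.card (centralizer ((P : Subgroup G) : Set G)) := by
  have s19 := (sq_not_dvd h).2.2.2.2
  have h1 := Sylow.normalizer_sup_eq_top Q
  set R : Subgroup G := (Q : Subgroup N).map N.subtype with hR
  have hRcard : Nat.card R = Nat.card (Q : Subgroup N) := by rw [hR, card_subtype]
  have h2 : N.relIndex (normalizer (R : Set G)) = N.index := by
    rw [← relIndex_sup_right, h1, relIndex_top_right]
  have h3 : 19 ∣ Nat.card (normalizer (R : Set G)) := by
    have h4 : N.relIndex (normalizer (R : Set G)) ∣ Nat.card (normalizer (R : Set G)) := by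
      rw [relIndex]
      exact index_dvd_card _
    rw [h2] at h4
    apply Dvd.dvd.trans _ h4
    have h5 := N.card_mul_index
    rw [← h5] at h19
    rcases (Nat.Prime.dvd_mul (by norm_num)).1 h19 with h6 | h6
    · exact absurd h6 hN
    · exact h6
  obtain ⟨x, hx, hxo⟩ := exists_mem_orderOf_eq _ 19 h3
  have h4 := centralizes_small R (by rw [hRcard]; exact hQ) x hxo hx
  obtain ⟨P', hP'⟩ := H10J175.exists_sylow_eq (p := 19) (fun P => cardP rfl h19 s19 P) x hxo
  have h5 : R ≤ centralizer ((P' : Subgroup G) : Set G) := by
    intro y hy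
    rw [mem_centralizer_iff]
    intro z hz
    rw [SetLike.mem_coe, hP'] at hz
    obtain ⟨k, rfl⟩ := mem_zpowers_iff.1 hz
    have : Commute x y := (mem_centralizer_iff.1 h4 y hy).symm
    exact (this.zpow_left k).eq
  have h6 := card_dvd_of_le h5
  rw [hRcard] at h6
  obtain ⟨g, hg⟩ := MulAction.exists_smul_eq G P' P
  have h7 : Nat.card (centralizer ((P : Subgroup G) : Set G)) = Nat.card (centralizer ((P' : Subgroup G) : Set G)) := by
    rw [← hg]
    have e : centralizer (((g • P' : Sylow 19 G) : Subgroup G) : Set G) =
        (centralizer ((P' : Subgroup G) : Set G)).map (MulAut.conj g).toMonoidHom := by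
      ext y
      rw [mem_centralizer_iff]
      constructor
      · intro h
        refine ⟨g⁻¹ * y * g, ?_, ?_⟩
        · change g⁻¹ * y * g ∈ centralizer ((P' : Subgroup G) : Set G)
          rw [mem_centralizer_iff]
          intro z hz
          have h8 : g * z * g⁻¹ ∈ ((g • P' : Sylow 19 G) : Subgroup G) := by
            rw [Sylow.coe_subgroup_smul]
            exact smul_mem_pointwise_smul z (MulAut.conj g) _ hz
          have h9 := h _ h8
          calc z * (g⁻¹ * y * g) = g⁻¹ * ((g * z * g⁻¹) * y) * g := by group
            _ = g⁻¹ * (y * (g * z * g⁻¹)) * g := by rw [h9]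
            _ = _ := by group
        · change g * (g⁻¹ * y * g) * g⁻¹ = y
          group
      · rintro ⟨z, hz, rfl⟩ w hw
        change z ∈ centralizer ((P' : Subgroup G) : Set G) at hz
        change w * (g * z * g⁻¹) = g * z * g⁻¹ * w
        have h8 : g⁻¹ * w * g ∈ (P' : Subgroup G) := by
          rw [SetLike.mem_coe, Sylow.coe_subgroup_smul] at hw
          obtain ⟨v, hv, rfl⟩ := hw
          have : g⁻¹ * (g * v * g⁻¹) * g = v := by group
          change g⁻¹ * (g * v * g⁻¹) * g ∈ (P' : Subgroup G)
          rw [this]
          exact hv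
        have h9 := mem_centralizer_iff.1 hz _ h8
        calc w * (g * z * g⁻¹) = g * ((g⁻¹ * w * g) * z) * g⁻¹ := by group
          _ = g * (z * (g⁻¹ * w * g)) * g⁻¹ := by rw [h9]
          _ = _ := by group
    rw [e]
    exact (Nat.card_congr ((centralizer ((P' : Subgroup G) : Set G)).equivMapOfInjective _ (MulAut.conj g).injective).toEquiv).symm
  rw [h7]
  exact h6

/-- a normal subgroup of index 19 and order prime to 19 -/
theorem index_nineteen {G : Type*} [Group G] [Finite G] (h : Nat.card G ∣ 175560) (h19 : 19 ∣ Nat.card G) (N : Subgroup G) [N.Normal]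
    (hN : ¬ 19 ∣ Nat.card N) (hNi : Nat.card G = 19 * Nat.card N) (P : Sylow 19 G) : (P : Subgroup G).Normal := by
  have s19 := (sq_not_dvd h).2.2.2.2
  have hNd : Nat.card N ∣ 9240 := by
    rw [hNi] at h
    exact Nat.dvd_of_mul_dvd_mul_left (by norm_num : 0 < 19) h
  have key : Nat.card N ∣ Nat.card (centralizer ((P : Subgroup G) : Set G)) := by
    rw [Nat.dvd_iff_prime_pow_dvd_dvd]
    intro q k hq hk
    have : Fact q.Prime := ⟨hq⟩
    obtain ⟨Q⟩ : Nonempty (Sylow q N) := inferInstance
    have h1 : Nat.card (Q : Subgroup N) = q ^ (Nat.card N).factorization q := Q.card_eq_multiplicity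
    have h2 : k ≤ (Nat.card N).factorization q := (hq.pow_dvd_iff_le_factorization Nat.card_pos.ne').1 hk
    have h3 : Nat.card (Q : Subgroup N) ∣ 9240 := (card_subgroup_dvd_card _).trans hNd
    have h4 : Nat.card (Q : Subgroup N) < 20 := by
      rw [h1] at h3 ⊢
      generalize (Nat.card N).factorization q = a at h3
      rcases Nat.eq_zero_or_pos a with h0 | h0
      · rw [h0]; norm_num
      have h5 : q ∣ 9240 := (dvd_pow_self q h0.ne').trans h3
      have h6 : q ∈ Nat.primeFactorsList 9240 := (Nat.mem_primeFactorsList (by norm_num)).2 ⟨hq, h5⟩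
      have h7 : q = 2 ∨ q = 3 ∨ q = 5 ∨ q = 7 ∨ q = 11 := by
        have h8 : q ∣ 2 ^ 3 * (3 * (5 * (7 * 11))) := h5
        have p2 : Nat.Prime 2 := by norm_num
        have p3 : Nat.Prime 3 := by norm_num
        have p5 : Nat.Prime 5 := by norm_num
        have p7 : Nat.Prime 7 := by norm_num
        have p11 : Nat.Prime 11 := by norm_num
        rcases (Nat.Prime.dvd_mul hq).1 h8 with h9 | h9
        · left; exact (Nat.prime_dvd_prime_iff_eq hq p2).1 (hq.dvd_of_dvd_pow h9)
        rcases (Nat.Prime.dvd_mul hq).1 h9 with h9 | h9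
        · right; left; exact (Nat.prime_dvd_prime_iff_eq hq p3).1 h9
        rcases (Nat.Prime.dvd_mul hq).1 h9 with h9 | h9
        · right; right; left; exact (Nat.prime_dvd_prime_iff_eq hq p5).1 h9
        rcases (Nat.Prime.dvd_mul hq).1 h9 with h9 | h9
        · right; right; right; left; exact (Nat.prime_dvd_prime_iff_eq hq p7).1 h9
        · right; right; right; right; exact (Nat.prime_dvd_prime_iff_eq hq p11).1 h9
      rcases h7 with rfl | rfl | rfl | rfl | rfl
      · have : a ≤ 3 := by
          by_contra hcon
          have := (pow_dvd_pow 2 (show 4 ≤ a by omega)).trans h3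
          revert this; norm_num
        interval_cases a <;> norm_num
      · have : a ≤ 1 := by
          by_contra hcon
          have := (pow_dvd_pow 3 (show 2 ≤ a by omega)).trans h3
          revert this; norm_num
        interval_cases a; norm_num
      · have : a ≤ 1 := by
          by_contra hcon
          have := (pow_dvd_pow 5 (show 2 ≤ a by omega)).trans h3
          revert this; norm_num
        interval_cases a; norm_num
      · have : a ≤ 1 := by
          by_contra hcon
          have := (pow_dvd_pow 7 (show 2 ≤ a by omega)).trans h3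
          revert this; norm_num
        interval_cases a; norm_num
      · have : a ≤ 1 := by
          by_contra hcon
          have := (pow_dvd_pow 11 (show 2 ≤ a by omega)).trans h3
          revert this; norm_num
        interval_cases a; norm_num
    have h5 := frattini h h19 N hN P Q h4
    rw [h1] at h5
    exact (pow_dvd_pow q h2).trans h5
  have hPcard : Nat.card (P : Subgroup G) = 19 := cardP rfl h19 s19 P
  have hPC : (P : Subgroup G) ≤ centralizer ((P : Subgroup G) : Set G) :=
    le_centralizer_of_comm (isMulCommutative_of_prime_card (p := 19) (by norm_num) hPcard)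
  have h2 := card_dvd_of_le hPC
  rw [hPcard] at h2
  have h3 : 19 * Nat.card N ∣ Nat.card (centralizer ((P : Subgroup G) : Set G)) := by
    apply Nat.Coprime.mul_dvd_of_dvd_of_dvd _ h2 key
    exact (Nat.Prime.coprime_iff_not_dvd (by norm_num)).2 hN
  rw [← hNi] at h3
  have h4 : centralizer ((P : Subgroup G) : Set G) = ⊤ := by
    apply eq_top_of_card_eq
    exact Nat.dvd_antisymm (card_subgroup_dvd_card _) h3
  have h5 : normalizer ((P : Subgroup G) : Set G) = ⊤ := by
    rw [eq_top_iff, ← h4]
    exact centralizer_le_normalizer' _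
  exact normalizer_eq_top_iff.1 h5

theorem main (n : ℕ) : ∀ (G : Type u) [Group G] [Finite G], Nat.card G = n → 19 ∣ n → n ∣ 175560 →
    (∀ P : Sylow 19 G, (P : Subgroup G).Normal) ∨ (n = 175560 ∧ IsSimpleGroup G) := by
  induction n using Nat.strong_induction_on with
  | _ n ih =>
  intro G _ _ hn h19 h
  subst hn
  have hle : Nat.card G ≤ 175560 := Nat.le_of_dvd (by norm_num) h
  have hgt : 19 ≤ Nat.card G := Nat.le_of_dvd Nat.card_pos h19
  have hnt : Nontrivial G := Finite.one_lt_card_iff_nontrivial.1 (by omega)
  -- a proper normal subgroup of order divisible by 19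
  have key1 : ∀ N : Subgroup G, N.Normal → N ≠ ⊤ → 19 ∣ Nat.card N → ∀ P : Sylow 19 G, (P : Subgroup G).Normal := by
    intro N hN hNt h19N
    have hlt : Nat.card N < Nat.card G := by
      apply lt_of_le_of_ne (card_le_card_group N)
      intro h0
      exact hNt (eq_top_of_card_eq N h0)
    rcases ih (Nat.card N) hlt N rfl h19N ((card_subgroup_dvd_card N).trans h) with h1 | h1
    · exact lift_normal h N h19N h1
    · omega
  by_cases hs : IsSimpleGroup G
  · by_cases hc : IsMulCommutative G
    · left
      intro P
      constructor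
      intro x hx g
      have : g * x = x * g := hc.is_comm.comm g x
      rw [this, mul_inv_cancel_right]
      exact hx
    · right
      exact ⟨simple_case hc h h19, hs⟩
  · left
    obtain ⟨N, hN, hNb, hNt⟩ : ∃ N : Subgroup G, N.Normal ∧ N ≠ ⊥ ∧ N ≠ ⊤ := by
      by_contra hcon
      push Not at hcon
      apply hs
      exact ⟨fun N hN => or_iff_not_imp_left.2 (hcon N hN)⟩
    by_cases h19N : 19 ∣ Nat.card N
    · exact key1 N hN hNt h19N
    · have hcm := N.card_mul_index
      have h19i : 19 ∣ N.index := by
        rw [← hcm] at h19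
        rcases (Nat.Prime.dvd_mul (by norm_num)).1 h19 with h6 | h6
        · exact absurd h6 h19N
        · exact h6
      have hNgt : 1 < Nat.card N := by
        have h0 : 0 < Nat.card N := Nat.card_pos
        have h1 : Nat.card N ≠ 1 := fun h1 => hNb (card_eq_one.1 h1)
        omega
      have hipos : 0 < N.index := Nat.pos_of_ne_zero index_ne_zero_of_finite
      have hilt : N.index < Nat.card G := by
        rw [← hcm]
        nlinarith
      have hi : Nat.card (G ⧸ N) = N.index := rfl
      have hid : N.index ∣ 175560 := (index_dvd_card N).trans h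
      obtain ⟨P₀⟩ : Nonempty (Sylow 19 G) := inferInstance
      rcases ih N.index hilt (G ⧸ N) hi h19i hid with h1 | h1
      swap
      · omega
      obtain ⟨R⟩ : Nonempty (Sylow 19 (G ⧸ N)) := inferInstance
      have hR := h1 R
      have hRcard : Nat.card (R : Subgroup (G ⧸ N)) = 19 := cardP hi h19i (sq_not_dvd hid).2.2.2.2 R
      set K : Subgroup G := (R : Subgroup (G ⧸ N)).comap (QuotientGroup.mk' N) with hK
      have hKn : K.Normal := inferInstance
      have hKcard : Nat.card K = 19 * Nat.card N := by
        have h2 : K.index = (R : Subgroup (G ⧸ N)).index := by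
          rw [hK]
          exact index_comap_of_surjective _ (QuotientGroup.mk'_surjective N)
        have h3 := K.card_mul_index
        have h4 := (R : Subgroup (G ⧸ N)).card_mul_index
        rw [hRcard, hi] at h4
        rw [h2] at h3
        have h5 : 0 < (R : Subgroup (G ⧸ N)).index := Nat.pos_of_ne_zero index_ne_zero_of_finite
        apply Nat.eq_of_mul_eq_mul_right h5
        rw [h3, ← hcm, ← h4]
        ring
      by_cases hKt : K = ⊤
      · have h2 : Nat.card G = 19 * Nat.card N := by
          rw [← hKcard, hKt]
          exact (card_top).symm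
        exact index_nineteen h h19 N h19N h2
      · exact key1 K hKn hKt (by rw [hKcard]; exact Dvd.intro _ rfl)

end Cfsg.Agent.Lib.H10Ord
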