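import Mathlib
import Cfsg.Prelude.Def_GeometricClasses

/-!
Spin overgroups in characteristic two: Clifford families of matrices and the stabiliser of a Clifford space.
-/

set_option autoImplicit false
set_option linter.unusedSectionVars false
set_option linter.unusedVariables false

namespace Cfsg.Agent.Lib.H12Spin

open Cfsg Cfsg.Geo QuadraticMap
open scoped Matrix MatrixGroups commutatorElement

variable {κ : Type} [Fintype κ] [DecidableEq κ] {F : Type*} [Field F]

/-- Self-adjoint matrices for the polar form. -/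
def SA (Q : (κ → F) → F) (A : Matrix κ κ F) : Prop := ∀ x y, polar Q (A *ᵥ x) y = polar Q x (A *ᵥ y)

/-- A Clifford family. -/
structure Cl (Q : (κ → F) → F) {ι : Type*} (G : ι → Bool → Matrix κ κ F) : Prop where
  two : (2 : F) = 0
  bil : IsBilinearForm (polar Q)
  sq : ∀ i b, G i b * G i b = 0
  anti : ∀ i, G i true * G i false + G i false * G i true = 1
  comm : ∀ i j, i ≠ j → ∀ b b', G i b * G j b' = G j b' * G i b
  sa : ∀ i b, SA Q (G i b)
  q0 : ∀ i b x, Q (G i b *ᵥ x) = 0

theorem add_self2 (h2 : (2 : F) = 0) (A : Matrix κ κ F) : A + A = 0 := by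
  have : A + A = (2 : F) • A := by rw [two_smul]
  rw [this, h2, zero_smul]

theorem add_selfF (h2 : (2 : F) = 0) (a : F) : a + a = 0 := by
  have : a + a = 2 * a := by ring
  rw [this, h2, zero_mul]

theorem SA.mul {Q : (κ → F) → F} {A B : Matrix κ κ F} (hA : SA Q A) (hB : SA Q B) (hAB : A * B = B * A) : SA Q (A * B) := by
  intro x y
  rw [← Matrix.mulVec_mulVec, hA, hB, Matrix.mulVec_mulVec, hAB]

variable {Q : (κ → F) → F} {ι : Type*} {G : ι → Bool → Matrix κ κ F}

theorem Cl.anti' (h : Cl Q G) (i : ι) (b : Bool) : G i b * G i (!b) + G i (!b) * G i b = 1 := by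
  cases b
  · rw [add_comm]; exact h.anti i
  · exact h.anti i

theorem Cl.pol0 (h : Cl Q G) {A : Matrix κ κ F} (hA : SA Q A) (l : ι) (hc : ∀ b, A * G l b = G l b * A) (x : κ → F) :
    polar Q x (A *ᵥ x) = 0 := by
  have e1 : A *ᵥ x = (A * (G l true * G l false)) *ᵥ x + (A * (G l false * G l true)) *ᵥ x := by
    rw [← Matrix.add_mulVec, ← mul_add, h.anti, mul_one]
  have e2 : polar Q x ((A * (G l true * G l false)) *ᵥ x) = polar Q x ((A * (G l false * G l true)) *ᵥ x) := by
    calc polar Q x ((A * (G l true * G l false)) *ᵥ x) = polar Q x (A *ᵥ (G l true *ᵥ (G l false *ᵥ x))) := by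
          simp only [Matrix.mulVec_mulVec]
      _ = polar Q (G l false *ᵥ (G l true *ᵥ (A *ᵥ x))) x := by
          rw [← hA, ← h.sa l true, ← h.sa l false]
      _ = polar Q x (G l false *ᵥ (G l true *ᵥ (A *ᵥ x))) := polar_comm _ _ _
      _ = polar Q x ((A * (G l false * G l true)) *ᵥ x) := by
          simp only [Matrix.mulVec_mulVec]
          rw [← hc true, ← mul_assoc, ← hc false, mul_assoc]
  rw [e1, h.bil.add_right, e2]
  exact add_selfF h.two _

theorem Cl.iso (h : Cl Q G) {A : Matrix κ κ F} (hA : SA Q A) (l : ι) (hc : ∀ b, A * G l b = G l b * A)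
    (hq : ∀ x, Q (A *ᵥ x) = 0) (x : κ → F) : Q ((1 + A) *ᵥ x) = Q x := by
  have h1 := h.pol0 hA l hc x
  rw [polar, hq] at h1
  rw [Matrix.add_mulVec, Matrix.one_mulVec]
  linear_combination h1

/-- unipotent involutions -/
def uu (h2 : (2 : F) = 0) (A : Matrix κ κ F) (hA : A * A = 0) : GL κ F where
  val := 1 + A
  inv := 1 + A
  val_inv := by
    have : (1 + A) * (1 + A) = 1 + (A + A) + A * A := by noncomm_ring
    rw [this, hA, add_self2 h2]; simp
  inv_val := by
    have : (1 + A) * (1 + A) = 1 + (A + A) + A * A := by noncomm_ring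
    rw [this, hA, add_self2 h2]; simp

theorem mem_iso_of {g : GL κ F} (hg : ∀ x, Q ((g : Matrix κ κ F) *ᵥ x) = Q x) : g ∈ isometryGroup F Q := by
  intro u v
  exact hg u

theorem iso_of_mem {g : GL κ F} (hg : g ∈ isometryGroup F Q) (x : κ → F) : Q ((g : Matrix κ κ F) *ᵥ x) = Q x := hg x x

theorem omega_le : omegaGL Q ≤ isometryGroup F Q := by
  rintro _ ⟨g, -, rfl⟩
  exact g.2

theorem comm_mem_omega {g h : GL κ F} (hg : g ∈ isometryGroup F Q) (hh : h ∈ isometryGroup F Q) :
    g * h * g⁻¹ * h⁻¹ ∈ omegaGL Q := by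
  refine ⟨⁅(⟨g, hg⟩ : isometryGroup F Q), (⟨h, hh⟩ : isometryGroup F Q)⁆, ?_, rfl⟩
  exact Subgroup.commutator_mem_commutator (Subgroup.mem_top _) (Subgroup.mem_top _)

theorem uu_comm (h2 : (2 : F) = 0) {a b : Matrix κ κ F} (ha : a * a = 0) (hb : b * b = 0) (hab : a * b * a = 0)
    (hba : b * a * b = 0) :
    ((uu h2 a ha * uu h2 b hb * (uu h2 a ha)⁻¹ * (uu h2 b hb)⁻¹ : GL κ F) : Matrix κ κ F) = 1 + (a * b + b * a) := by
  show (1 + a) * (1 + b) * (1 + a) * (1 + b) = _
  have e : (1 + a) * (1 + b) * (1 + a) * (1 + b) = 1 + (a * b + b * a) + (a + a) + (b + b) + (a * b + a * b) + a * a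
      + b * b + a * a * b + a * (b * b) + a * b * a + b * a * b + (a * b * a) * b := by noncomm_ring
  rw [e, ha, hb, hab, hba, add_self2 h2, add_self2 h2, add_self2 h2]
  simp

theorem Cl.omega_of (h : Cl Q G) (l : ι) {X Y : Matrix κ κ F} (hXY : Y * X = X * Y) (hX : ∀ b, G l b * X = X * G l b)
    (hY : ∀ b, G l b * Y = Y * G l b) (hX2 : X * X = 0) (hY2 : Y * Y = 0)
    (i1 : ∀ x, Q ((1 + X * G l true) *ᵥ x) = Q x) (i2 : ∀ x, Q ((1 + G l false * Y) *ᵥ x) = Q x)
    (g : GL κ F) (hg : (g : Matrix κ κ F) = 1 + X * Y) : g ∈ omegaGL Q := by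
  have hX' : ∀ b (Z : Matrix κ κ F), G l b * (X * Z) = X * (G l b * Z) := fun b Z => by
    rw [← mul_assoc, hX, mul_assoc]
  have hY' : ∀ b (Z : Matrix κ κ F), G l b * (Y * Z) = Y * (G l b * Z) := fun b Z => by
    rw [← mul_assoc, hY, mul_assoc]
  have hXY' : ∀ (Z : Matrix κ κ F), Y * (X * Z) = X * (Y * Z) := fun Z => by
    rw [← mul_assoc, hXY, mul_assoc]
  have hX2' : ∀ (Z : Matrix κ κ F), X * (X * Z) = 0 := fun Z => by rw [← mul_assoc, hX2, zero_mul]
  have hY2' : ∀ (Z : Matrix κ κ F), Y * (Y * Z) = 0 := fun Z => by rw [← mul_assoc, hY2, zero_mul]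
  have ha : (X * G l true) * (X * G l true) = 0 := by
    simp only [mul_assoc, hX', hX2']
  have hb : (G l false * Y) * (G l false * Y) = 0 := by
    simp only [mul_assoc, hY, hY', hY2']
  have e1 : g = uu h.two _ ha * uu h.two _ hb * (uu h.two _ ha)⁻¹ * (uu h.two _ hb)⁻¹ := by
    apply Units.ext
    rw [uu_comm]
    · rw [hg]
      congr 1
      have e3 : (X * G l true) * (G l false * Y) = X * Y * (G l true * G l false) := by
        simp only [mul_assoc, hY, hY']
      have e2 : (G l false * Y) * (X * G l true) = X * Y * (G l false * G l true) := by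
        simp only [mul_assoc, hX', hY', hXY']
      rw [e2, e3, ← mul_add, h.anti, mul_one]
    · simp only [mul_assoc, hX', hY', hXY', hX2']
    · simp only [mul_assoc, hX', hY', hXY', hY, hY2', mul_zero]
  rw [e1]
  exact comm_mem_omega (mem_iso_of i1) (mem_iso_of i2)

theorem Cl.iso2 (h : Cl Q G) {p r s : ι} (hpr : p ≠ r) (hps : p ≠ s) (hrs : r ≠ s) (c c' : Bool) (x : κ → F) :
    Q ((1 + G p c * G r c') *ᵥ x) = Q x := by
  refine h.iso ((h.sa p c).mul (h.sa r c') (h.comm p r hpr c c')) s (fun d => ?_) (fun x => ?_) x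
  · rw [mul_assoc, h.comm r s hrs, ← mul_assoc, h.comm p s hps, mul_assoc]
  · rw [← Matrix.mulVec_mulVec]; exact h.q0 _ _ _

theorem Cl.iso3 (h : Cl Q G) {p q r s : ι} (hpq : p ≠ q) (hpr : p ≠ r) (hqr : q ≠ r) (hps : p ≠ s) (hqs : q ≠ s)
    (hrs : r ≠ s) (c c' c'' : Bool) (x : κ → F) :
    Q ((1 + G p c * (G q c' * G r c'')) *ᵥ x) = Q x := by
  refine h.iso ((h.sa p c).mul ((h.sa q c').mul (h.sa r c'') (h.comm q r hqr _ _)) ?_) s (fun d => ?_) (fun x => ?_) x
  · rw [← mul_assoc, h.comm p q hpq, mul_assoc, h.comm p r hpr, mul_assoc]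
  · rw [mul_assoc, mul_assoc, h.comm r s hrs, ← mul_assoc (G q c'), h.comm q s hqs, ← mul_assoc, ← mul_assoc, h.comm p s hps]
    simp only [mul_assoc]
  · rw [← Matrix.mulVec_mulVec]; exact h.q0 _ _ _

/-- `w = 1 + E_i E_j` lies in Omega. -/
theorem Cl.two_mem (h : Cl Q G) {i j l : ι} (hij : i ≠ j) (hil : i ≠ l) (hjl : j ≠ l) (b b' : Bool) (g : GL κ F)
    (hg : (g : Matrix κ κ F) = 1 + G i b * G j b') : g ∈ omegaGL Q :=
  h.omega_of l (h.comm j i hij.symm _ _) (fun c => h.comm l i hil.symm _ _) (fun c => h.comm l j hjl.symm _ _)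
    (h.sq _ _) (h.sq _ _) (h.iso2 hil hij hjl.symm _ _) (h.iso2 hjl.symm hil.symm hij.symm _ _) g hg

/-- `w = 1 + E_i E_j E_k` lies in Omega. -/
theorem Cl.three_mem (h : Cl Q G) {i j k l : ι} (hij : i ≠ j) (hik : i ≠ k) (hjk : j ≠ k) (hil : i ≠ l) (hjl : j ≠ l)
    (hkl : k ≠ l) (b b' b'' : Bool) (g : GL κ F)
    (hg : (g : Matrix κ κ F) = 1 + G i b * (G j b' * G k b'')) : g ∈ omegaGL Q := by
  refine h.omega_of l ?_ (fun c => h.comm l i hil.symm _ _) (fun c => ?_)
    (h.sq _ _) ?_ (h.iso2 hil hij hjl.symm _ _) (h.iso3 hjl.symm hkl.symm hjk hil.symm hij.symm hik.symm _ _ _) g hg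
  · rw [mul_assoc, h.comm k i hik.symm, ← mul_assoc, h.comm j i hij.symm, mul_assoc]
  · rw [← mul_assoc, h.comm l j hjl.symm, mul_assoc, h.comm l k hkl.symm, mul_assoc]
  · rw [mul_assoc, ← mul_assoc (G k b''), h.comm k j hjk.symm, mul_assoc (G j b'), h.sq, mul_zero, mul_zero]

/-- The stabiliser of a space of matrices. -/
def stabU (U : Submodule F (Matrix κ κ F)) : Subgroup (GL κ F) where
  carrier := {g | ∀ k : Matrix κ κ F, k ∈ U ↔ (g : Matrix κ κ F) * k * ((g⁻¹ : GL κ F) : Matrix κ κ F) ∈ U}
  mul_mem' {a b} ha hb := by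
    intro k
    rw [hb k, ha, Units.val_mul, mul_inv_rev, Units.val_mul]
    constructor <;> intro h <;> simpa [mul_assoc] using h
  one_mem' := by
    intro k
    simp
  inv_mem' {a} ha := by
    intro k
    have h := ha (((a⁻¹ : GL κ F) : Matrix κ κ F) * k * (a : Matrix κ κ F))
    rw [inv_inv]
    rw [h]
    constructor <;> intro h' <;>
      simpa [mul_assoc, ← Units.val_mul] using h'

/-- The main step. -/
theorem Cl.main (h : Cl Q G) (hne : (1 : Matrix κ κ F) ≠ 0) {i j k l : ι} (hij : i ≠ j) (hik : i ≠ k) (hjk : j ≠ k) (hil : i ≠ l) (hjl : j ≠ l)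
    (hkl : k ≠ l) (U : Submodule F (Matrix κ κ F)) (hU : ∀ i b, G i b ∈ U)
    (hanti : ∀ u ∈ U, ∀ v ∈ U, ∃ c : F, u * v + v * u = c • (1 : Matrix κ κ F))
    (M : Subgroup (GL κ F)) (hM : ∀ g ∈ M, g ∈ omegaGL Q → ∀ u ∈ U, (g : Matrix κ κ F) * u * ((g⁻¹ : GL κ F) : Matrix κ κ F) ∈ U)
    (hw : ∀ g ∈ M, (g : Matrix κ κ F) ≠ 1 + G i true * G j true) :
    ∃ K : Subgroup (GL κ F), M ⊓ omegaGL Q < K ∧ K < omegaGL Q := by
  have sq2 : (G i true * G j true) * (G i true * G j true) = 0 := by
    rw [mul_assoc, ← mul_assoc (G j true), h.comm j i hij.symm, mul_assoc (G i true) (G j true), h.sq, mul_zero, mul_zero]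
  have sq3 : (G i true * (G j true * G k true)) * (G i true * (G j true * G k true)) = 0 := by
    calc (G i true * (G j true * G k true)) * (G i true * (G j true * G k true))
        = G i true * G j true * (G k true * G i true) * (G j true * G k true) := by simp only [mul_assoc]
      _ = G i true * (G j true * G i true) * G k true * (G j true * G k true) := by
          rw [h.comm k i hik.symm]; simp only [mul_assoc]
      _ = (G i true * G i true) * G j true * G k true * (G j true * G k true) := by
          rw [h.comm j i hij.symm]; simp only [mul_assoc]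
      _ = 0 := by rw [h.sq]; simp
  refine ⟨stabU U ⊓ omegaGL Q, lt_of_le_of_ne ?_ ?_, lt_of_le_of_ne inf_le_right ?_⟩
  · rintro g ⟨hgM, hg⟩
    refine ⟨fun u => ⟨fun hu => hM g hgM hg u hu, fun hu => ?_⟩, hg⟩
    have := hM g⁻¹ (M.inv_mem hgM) ((omegaGL Q).inv_mem hg) _ hu
    rw [inv_inv] at this
    simpa [mul_assoc, ← Units.val_mul] using this
  · intro he
    have hmem : uu h.two _ sq2 ∈ stabU U ⊓ omegaGL Q := by
      refine ⟨?_, h.two_mem hij hik hjk true true _ rfl⟩
      have key : ∀ u ∈ U, (1 + G i true * G j true) * u * (1 + G i true * G j true) ∈ U := by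
        intro u hu
        obtain ⟨ci, hci⟩ := hanti u hu (G i true) (hU _ _)
        obtain ⟨cj, hcj⟩ := hanti u hu (G j true) (hU _ _)
        have e1 : u * G i true = G i true * u + ci • (1 : Matrix κ κ F) := by
          rw [← hci, add_comm (u * G i true), ← add_assoc, add_self2 h.two, zero_add]
        have e2 : u * G j true = G j true * u + cj • (1 : Matrix κ κ F) := by
          rw [← hcj, add_comm (u * G j true), ← add_assoc, add_self2 h.two, zero_add]
        have e3 : u * (G i true * G j true) = G i true * G j true * u + (cj • G i true + ci • G j true) := by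
          rw [← mul_assoc, e1, add_mul, mul_assoc, e2, mul_add, mul_assoc]
          simp only [mul_smul_comm, smul_mul_assoc, mul_one, one_mul, add_assoc]
        have e4 : G i true * G j true * (u * (G i true * G j true)) = 0 := by
          rw [e3, mul_add, ← mul_assoc, sq2, zero_mul, zero_add, mul_add]
          simp only [mul_smul_comm, mul_assoc, h.sq, mul_zero, smul_zero, add_zero]
          rw [h.comm j i hij.symm, ← mul_assoc, h.sq, zero_mul, smul_zero]
        have e5 : (1 + G i true * G j true) * u * (1 + G i true * G j true) = u + (cj • G i true + ci • G j true) := by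
          have : (1 + G i true * G j true) * u * (1 + G i true * G j true) = u + G i true * G j true * u
              + u * (G i true * G j true) + G i true * G j true * (u * (G i true * G j true)) := by noncomm_ring
          rw [this, e4, e3, add_zero, add_assoc u, ← add_assoc (G i true * G j true * u), add_self2 h.two, zero_add]
        rw [e5]
        exact U.add_mem hu (U.add_mem (U.smul_mem _ (hU _ _)) (U.smul_mem _ (hU _ _)))
      intro u
      refine ⟨fun hu => key u hu, fun hu => ?_⟩
      have h1 := key _ hu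
      have h2 : (1 + G i true * G j true) * (1 + G i true * G j true) = 1 := (uu h.two _ sq2).val_inv
      have h3 : (1 + G i true * G j true) * ((1 + G i true * G j true) * u * (1 + G i true * G j true)) *
          (1 + G i true * G j true) = u := by
        rw [← mul_assoc, ← mul_assoc, h2, one_mul, mul_assoc, h2, mul_one]
      rwa [← h3]
    rw [← he] at hmem
    exact hw _ hmem.1 rfl
  · intro he
    have hmem : uu h.two _ sq3 ∈ omegaGL Q := h.three_mem hij hik hjk hil hjl hkl true true true _ rfl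
    rw [← he] at hmem
    have h1 := (hmem.1 (G i false)).1 (hU _ _)
    have h2 : ((uu h.two _ sq3 : GL κ F) : Matrix κ κ F) * G i false * (((uu h.two _ sq3)⁻¹ : GL κ F) : Matrix κ κ F) =
        G i false + G j true * G k true := by
      show (1 + G i true * (G j true * G k true)) * G i false * (1 + G i true * (G j true * G k true)) = _
      have c1 : (G j true * G k true) * G i false = G i false * (G j true * G k true) := by
        rw [mul_assoc, h.comm k i hik.symm, ← mul_assoc, h.comm j i hij.symm, mul_assoc]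
      have c2 : (G j true * G k true) * G i true = G i true * (G j true * G k true) := by
        rw [mul_assoc, h.comm k i hik.symm, ← mul_assoc, h.comm j i hij.symm, mul_assoc]
      have c3 : (G j true * G k true) * (G j true * G k true) = 0 := by
        rw [mul_assoc, ← mul_assoc (G k true), h.comm k j hjk.symm, mul_assoc (G j true), h.sq, mul_zero, mul_zero]
      set Y := G j true * G k true with hY
      have c4 : G i true * Y * G i false = G i true * G i false * Y := by rw [mul_assoc, c1, ← mul_assoc]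
      have c5 : G i false * (G i true * Y) = G i false * G i true * Y := by rw [mul_assoc]
      have c6 : G i true * Y * G i false * (G i true * Y) = 0 := by
        rw [c4, mul_assoc, ← mul_assoc Y, c2, mul_assoc (G i true) Y, c3, mul_zero, mul_zero]
      have : (1 + G i true * Y) * G i false * (1 + G i true * Y) = G i false + (G i true * Y * G i false
          + G i false * (G i true * Y)) + G i true * Y * G i false * (G i true * Y) := by noncomm_ring
      rw [this, c6, c4, c5, ← add_mul, h.anti, one_mul, add_zero]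
    rw [h2] at h1
    have h3 : G j true * G k true ∈ U := by
      have := U.sub_mem h1 (hU i false)
      rwa [add_sub_cancel_left] at this
    obtain ⟨c, hc⟩ := hanti _ h3 (G j false) (hU _ _)
    have h4 : G j true * G k true * G j false + G j false * (G j true * G k true) = G k true := by
      rw [mul_assoc, h.comm k j hjk.symm, ← mul_assoc, ← mul_assoc, ← add_mul, h.anti, one_mul]
    rw [h4] at hc
    have h5 := h.sq k true
    rw [hc, smul_mul_smul_comm, one_mul] at h5
    have h6 : c = 0 := by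
      by_contra hc0
      apply hne
      rw [← one_smul F (1 : Matrix κ κ F), ← inv_mul_cancel₀ (mul_ne_zero hc0 hc0), ← smul_smul, h5, smul_zero]
    rw [h6, zero_smul] at hc
    have h7 := h.anti k
    rw [hc, zero_mul, mul_zero, add_zero] at h7
    exact hne h7.symm

end Cfsg.Agent.Lib.H12Spin
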