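import Cfsg.Agent.Lib.AschTensor
import Cfsg.Agent.Lib.H12Spin1

/-!
Spin overgroups in characteristic two: tensor powers.
-/

set_option autoImplicit false
set_option linter.unusedSectionVars false
set_option linter.unusedVariables false

namespace Cfsg.Agent.Lib.H12Spin

open Cfsg Cfsg.Geo QuadraticMap Cfsg.Agent.Lib.AschTensor
open scoped Matrix MatrixGroups

variable {F : Type*} [Field F] {t k : ℕ}

/-- The matrix `A` acting on the factor `i`. -/
def pos (i : Fin t) (A : Matrix (Fin k) (Fin k) F) : Matrix (Fin t → Fin k) (Fin t → Fin k) F :=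
  tp (Function.update (fun _ => 1) i A)

theorem pos_mul (i : Fin t) (A B : Matrix (Fin k) (Fin k) F) : pos i (A * B) = pos i A * pos i B :=
  (tp_update_mul i A B).symm

theorem pos_add (i : Fin t) (A B : Matrix (Fin k) (Fin k) F) : pos i (A + B) = pos i A + pos i B :=
  (tpM F t k).map_update_add _ i A B

theorem pos_smul (i : Fin t) (c : F) (A : Matrix (Fin k) (Fin k) F) : pos i (c • A) = c • pos i A :=
  (tpM F t k).map_update_smul _ i c A

theorem pos_one (i : Fin t) : pos i (1 : Matrix (Fin k) (Fin k) F) = 1 := by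
  rw [pos, ← tp_one]
  congr 1
  funext j
  by_cases h : j = i
  · subst h; rw [Function.update_self]
  · rw [Function.update_of_ne h]

theorem pos_comm {i j : Fin t} (hij : i ≠ j) (A B : Matrix (Fin k) (Fin k) F) : pos i A * pos j B = pos j B * pos i A := by
  rw [pos, pos, tp_mul, tp_mul]
  congr 1
  funext l
  by_cases hi : l = i
  · subst hi
    rw [Function.update_self, Function.update_of_ne hij, mul_one, one_mul]
  · rw [Function.update_of_ne hi, one_mul, mul_one]

theorem pos_zero (i : Fin t) : pos i (0 : Matrix (Fin k) (Fin k) F) = 0 := by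
  have := pos_smul i (0 : F) (0 : Matrix (Fin k) (Fin k) F)
  rwa [zero_smul, zero_smul] at this

theorem pos_conj (gs : Fin t → GL (Fin k) F) (σ : Equiv.Perm (Fin t)) (i : Fin t) (A : Matrix (Fin k) (Fin k) F) :
    (tp (fun j => (gs j : Matrix (Fin k) (Fin k) F)) * fp F k σ) * pos i A =
      pos (σ i) ((gs (σ i) : Matrix (Fin k) (Fin k) F) * A * (((gs (σ i))⁻¹ : GL (Fin k) F) : Matrix (Fin k) (Fin k) F)) *
        (tp (fun j => (gs j : Matrix (Fin k) (Fin k) F)) * fp F k σ) := by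
  rw [pos, pos, mul_assoc, fp_mul_tp, ← mul_assoc, ← mul_assoc, tp_mul, tp_mul]
  congr 2
  funext j
  by_cases h : j = σ i
  · subst h
    rw [Equiv.symm_apply_apply, Function.update_self, Function.update_self, mul_assoc, mul_assoc,
      ← Units.val_mul, inv_mul_cancel, Units.val_one, mul_one]
  · have h' : σ.symm j ≠ i := by rintro rfl; exact h (by simp)
    rw [Function.update_of_ne h, Function.update_of_ne h', one_mul, mul_one]

/-- pure vectors -/
def pureV (xs : Fin t → Fin k → F) : (Fin t → Fin k) → F := fun a => ∏ i, xs i (a i)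

theorem tp_mulVec (M : Fin t → Matrix (Fin k) (Fin k) F) (xs : Fin t → Fin k → F) :
    tp M *ᵥ pureV xs = pureV (fun i => M i *ᵥ xs i) := by
  funext a
  simp only [Matrix.mulVec, dotProduct, tp, pureV]
  rw [Finset.prod_univ_sum, Fintype.piFinset_univ]
  refine Finset.sum_congr rfl fun b _ => ?_
  rw [← Finset.prod_mul_distrib]

theorem pureV_single (a : Fin t → Fin k) : pureV (fun i => Pi.single (a i) (1 : F)) = Pi.single a 1 := by
  funext b
  simp only [pureV, Pi.single_apply]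
  by_cases h : b = a
  · subst h; simp
  · rw [if_neg h]
    obtain ⟨i, hi⟩ := Function.ne_iff.1 h
    exact Finset.prod_eq_zero (Finset.mem_univ i) (if_neg hi)

theorem eq_zero_of_pure (q : ((Fin t → Fin k) → F) → F) (hadd : ∀ x y, q (x + y) = q x + q y)
    (hsm : ∀ (c : F) x, q (c • x) = c ^ 2 * q x) (hp : ∀ xs, q (pureV xs) = 0) (x : (Fin t → Fin k) → F) : q x = 0 := by
  classical
  have h0 : q 0 = 0 := by
    have := hsm 0 0
    rwa [zero_smul, zero_pow two_ne_zero, zero_mul] at this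
  have h1 : ∀ s : Finset (Fin t → Fin k), q (∑ a ∈ s, x a • Pi.single a (1 : F)) = 0 := by
    intro s
    induction s using Finset.induction_on with
    | empty => simpa using h0
    | insert a s ha ih =>
      rw [Finset.sum_insert ha, hadd, ih, hsm, ← pureV_single, hp, mul_zero, add_zero]
  have h2 : x = ∑ a, x a • Pi.single a (1 : F) := by
    funext b
    rw [Finset.sum_apply, Finset.sum_eq_single b]
    · simp
    · intro c _ hc
      simp [Pi.single_apply, hc.symm]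
    · simp
  rw [h2]
  exact h1 _

theorem fp_transpose_mul (σ : Equiv.Perm (Fin t)) : (fp F k σ)ᵀ * fp F k σ = 1 := by
  have : (fp F k σ)ᵀ = fp F k σ.symm := by
    ext x y
    simp only [Matrix.transpose_apply, fp]
    congr 1
    apply propext
    constructor
    · rintro rfl; funext i; simp
    · rintro rfl; funext i; simp
  rw [this, fp_mul_fp, Equiv.self_trans_symm, fp_one]

/-- Isometries of a tensor power form are products of similarities. -/
theorem simil_of_iso {J : Matrix (Fin k) (Fin k) F} (hJ : ∃ p q, J p q ≠ 0) (gs : Fin t → GL (Fin k) F)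
    (σ : Equiv.Perm (Fin t))
    (h : (tp (fun j => (gs j : Matrix (Fin k) (Fin k) F)) * fp F k σ)ᵀ * tp (fun _ => J) *
      (tp (fun j => (gs j : Matrix (Fin k) (Fin k) F)) * fp F k σ) = tp (fun _ => J)) (i : Fin t) :
    ∃ c : F, c ≠ 0 ∧ (gs i : Matrix (Fin k) (Fin k) F)ᵀ * J * (gs i : Matrix (Fin k) (Fin k) F) = c • J := by
  set H : Fin t → Matrix (Fin k) (Fin k) F := fun j => (gs j : Matrix (Fin k) (Fin k) F)ᵀ * J * (gs j : Matrix (Fin k) (Fin k) F) with hH
  have h1 : tp H = tp (fun _ => J) := by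
    have e1 : (tp (fun j => (gs j : Matrix (Fin k) (Fin k) F)) * fp F k σ)ᵀ * tp (fun _ => J) *
      (tp (fun j => (gs j : Matrix (Fin k) (Fin k) F)) * fp F k σ) = (fp F k σ)ᵀ * tp H * fp F k σ := by
      rw [Matrix.transpose_mul, tp_transpose, hH, ← tp_mul, ← tp_mul]
      simp only [mul_assoc]
    rw [e1] at h
    have e2 : (fp F k σ)ᵀ * tp (fun _ => J) * fp F k σ = tp (fun _ => J) := by
      rw [mul_assoc]
      have := fp_mul_tp (F := F) σ (fun _ => J)
      rw [← this, ← mul_assoc, fp_transpose_mul, one_mul]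
    have e3 : fp F k σ * (fp F k σ)ᵀ = 1 := mul_eq_one_comm.1 (fp_transpose_mul σ)
    have e4 : fp F k σ * ((fp F k σ)ᵀ * tp H * fp F k σ) * (fp F k σ)ᵀ = tp H := by
      calc fp F k σ * ((fp F k σ)ᵀ * tp H * fp F k σ) * (fp F k σ)ᵀ
          = (fp F k σ * (fp F k σ)ᵀ) * tp H * (fp F k σ * (fp F k σ)ᵀ) := by simp only [mul_assoc]
        _ = tp H := by rw [e3, one_mul, mul_one]
    have e5 : fp F k σ * ((fp F k σ)ᵀ * tp (fun _ => J) * fp F k σ) * (fp F k σ)ᵀ = tp (fun _ => J) := by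
      calc fp F k σ * ((fp F k σ)ᵀ * tp (fun _ => J) * fp F k σ) * (fp F k σ)ᵀ
          = (fp F k σ * (fp F k σ)ᵀ) * tp (fun _ => J) * (fp F k σ * (fp F k σ)ᵀ) := by simp only [mul_assoc]
        _ = tp (fun _ => J) := by rw [e3, one_mul, mul_one]
    rw [← e4, h, ← e2, e5]
    exact e2.symm
  obtain ⟨p, q, hpq⟩ := hJ
  have h2 : ∀ a b, H i a b * ∏ j ∈ Finset.univ.erase i, H j p q = J a b * ∏ j ∈ (Finset.univ : Finset (Fin t)).erase i, J p q := by
    intro a b
    have h3 := congrFun (congrFun h1 (Function.update (fun _ => p) i a)) (Function.update (fun _ => q) i b)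
    simp only [tp] at h3
    rw [← Finset.mul_prod_erase _ _ (Finset.mem_univ i), ← Finset.mul_prod_erase _ _ (Finset.mem_univ i)] at h3
    rw [Function.update_self, Function.update_self] at h3
    have h4 : ∀ K : Fin t → Matrix (Fin k) (Fin k) F, ∏ j ∈ Finset.univ.erase i, K j (Function.update (fun _ => p) i a j) (Function.update (fun _ => q) i b j) =
        ∏ j ∈ Finset.univ.erase i, K j p q := fun K =>
      Finset.prod_congr rfl fun j hj => by
        rw [Function.update_of_ne (Finset.ne_of_mem_erase hj), Function.update_of_ne (Finset.ne_of_mem_erase hj)]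
    rw [h4 H, h4 (fun _ => J)] at h3
    exact h3
  have h5 : ∏ j ∈ (Finset.univ : Finset (Fin t)).erase i, J p q ≠ 0 := Finset.prod_ne_zero_iff.2 fun _ _ => hpq
  have h6 : ∏ j ∈ Finset.univ.erase i, H j p q ≠ 0 := by
    intro h0
    have := h2 p q
    rw [h0, mul_zero] at this
    exact mul_ne_zero hpq h5 this.symm
  refine ⟨(∏ j ∈ (Finset.univ : Finset (Fin t)).erase i, J p q) / ∏ j ∈ Finset.univ.erase i, H j p q, div_ne_zero h5 h6, ?_⟩
  ext a b
  rw [Matrix.smul_apply, smul_eq_mul]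
  have := h2 a b
  show H i a b = _
  field_simp
  rw [this]; ring

/-! ### Transport to `ι` -/

variable {ι : Type} [Fintype ι] [DecidableEq ι]

theorem psi_mulVec (e : ι ≃ (Fin t → Fin k)) (P : GL ι F) (M : Matrix (Fin t → Fin k) (Fin t → Fin k) F)
    (x : (Fin t → Fin k) → F) :
    psi e P M *ᵥ ((P : Matrix ι ι F) *ᵥ (x ∘ e)) = (P : Matrix ι ι F) *ᵥ ((M *ᵥ x) ∘ e) := by
  rw [psi_apply, Matrix.mulVec_mulVec, mul_assoc, ← Units.val_mul, inv_mul_cancel, Units.val_one, mul_one,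
    ← Matrix.mulVec_mulVec, Matrix.reindex_apply, Matrix.submatrix_mulVec_equiv]
  congr 2
  congr 1
  funext a
  simp

theorem exists_L (e : ι ≃ (Fin t → Fin k)) (P : GL ι F) (v : ι → F) :
    ∃ x : (Fin t → Fin k) → F, v = (P : Matrix ι ι F) *ᵥ (x ∘ e) := by
  refine ⟨(((P⁻¹ : GL ι F) : Matrix ι ι F) *ᵥ v) ∘ e.symm, ?_⟩
  have : ((((P⁻¹ : GL ι F) : Matrix ι ι F) *ᵥ v) ∘ e.symm) ∘ e = ((P⁻¹ : GL ι F) : Matrix ι ι F) *ᵥ v := by
    funext a; simp
  rw [this, Matrix.mulVec_mulVec, ← Units.val_mul, mul_inv_cancel, Units.val_one, Matrix.one_mulVec]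

theorem L_add (e : ι ≃ (Fin t → Fin k)) (P : GL ι F) (x y : (Fin t → Fin k) → F) :
    (P : Matrix ι ι F) *ᵥ ((x + y) ∘ e) = (P : Matrix ι ι F) *ᵥ (x ∘ e) + (P : Matrix ι ι F) *ᵥ (y ∘ e) := by
  rw [← Matrix.mulVec_add]; rfl

theorem L_smul (e : ι ≃ (Fin t → Fin k)) (P : GL ι F) (c : F) (x : (Fin t → Fin k) → F) :
    (P : Matrix ι ι F) *ᵥ ((c • x) ∘ e) = c • ((P : Matrix ι ι F) *ᵥ (x ∘ e)) := by
  rw [← Matrix.mulVec_smul]; rfl

/-- The data of a quadratic form with tensor power polar form. -/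
structure TF (Q : (ι → F) → F) (e : ι ≃ (Fin t → Fin k)) (P : GL ι F) (J : Matrix (Fin k) (Fin k) F) : Prop where
  two : (2 : F) = 0
  bil : IsBilinearForm (polar Q)
  smul : ∀ (c : F) v, Q (c • v) = c ^ 2 * Q v
  J0 : ∃ p q, J p q ≠ 0
  form : ∃ c : F, c ≠ 0 ∧ ∀ x y : (Fin t → Fin k) → F, polar Q ((P : Matrix ι ι F) *ᵥ (x ∘ e)) ((P : Matrix ι ι F) *ᵥ (y ∘ e)) =
    c * (x ⬝ᵥ (tp (fun _ => J) *ᵥ y))
  pure : ∀ xs : Fin t → Fin k → F, Q ((P : Matrix ι ι F) *ᵥ (pureV xs ∘ e)) = 0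

variable {Q : (ι → F) → F} {e : ι ≃ (Fin t → Fin k)} {P : GL ι F} {J : Matrix (Fin k) (Fin k) F}

theorem TF.sa (h : TF Q e P J) (i : Fin t) {A : Matrix (Fin k) (Fin k) F} (hA : Aᵀ * J = J * A) : SA Q (psi e P (pos i A)) := by
  obtain ⟨c, hc, hform⟩ := h.form
  intro v w
  obtain ⟨x, rfl⟩ := exists_L e P v
  obtain ⟨y, rfl⟩ := exists_L e P w
  rw [psi_mulVec, psi_mulVec, hform, hform]
  congr 1
  have h1 : (pos i A)ᵀ * tp (fun _ => J) = tp (fun _ => J) * pos i A := by
    rw [pos, tp_transpose, tp_mul, tp_mul]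
    congr 1
    funext j
    by_cases hj : j = i
    · subst hj; rw [Function.update_self, hA]
    · rw [Function.update_of_ne hj]; simp
  rw [Matrix.mulVec_mulVec, ← h1, ← Matrix.mulVec_mulVec, Matrix.dotProduct_mulVec x, Matrix.vecMul_transpose]

theorem TF.q0 (h : TF Q e P J) (i : Fin t) {A : Matrix (Fin k) (Fin k) F} (hA : Aᵀ * J = J * A) (hA2 : A * A = 0) (v : ι → F) :
    Q (psi e P (pos i A) *ᵥ v) = 0 := by
  obtain ⟨x, rfl⟩ := exists_L e P v
  refine eq_zero_of_pure (fun x => Q (psi e P (pos i A) *ᵥ ((P : Matrix ι ι F) *ᵥ (x ∘ e)))) ?_ ?_ ?_ x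
  · intro x y
    have h1 : polar Q (psi e P (pos i A) *ᵥ ((P : Matrix ι ι F) *ᵥ (x ∘ e))) (psi e P (pos i A) *ᵥ ((P : Matrix ι ι F) *ᵥ (y ∘ e))) = 0 := by
      rw [h.sa i hA, Matrix.mulVec_mulVec, ← map_mul, ← pos_mul, hA2, pos_zero, map_zero, Matrix.zero_mulVec]
      have := h.bil.smul_right 0 ((P : Matrix ι ι F) *ᵥ (x ∘ e)) 0
      rwa [zero_smul, zero_mul] at this
    show Q (psi e P (pos i A) *ᵥ ((P : Matrix ι ι F) *ᵥ ((x + y) ∘ e))) = _
    rw [L_add, Matrix.mulVec_add]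
    rw [polar] at h1
    linear_combination h1
  · intro c x
    show Q (psi e P (pos i A) *ᵥ ((P : Matrix ι ι F) *ᵥ ((c • x) ∘ e))) = _
    rw [L_smul, Matrix.mulVec_smul, h.smul]
  · intro xs
    show Q (psi e P (pos i A) *ᵥ ((P : Matrix ι ι F) *ᵥ ((pureV xs) ∘ e))) = _
    rw [psi_mulVec, pos, tp_mulVec, h.pure]

theorem TF.simil (h : TF Q e P J) (g : GL ι F) (hg : g ∈ isometryGroup F Q) (gs : Fin t → GL (Fin k) F) (σ : Equiv.Perm (Fin t))
    (hgs : (g : Matrix ι ι F) = psi e P (tp (fun j => (gs j : Matrix (Fin k) (Fin k) F)) * fp F k σ)) (i : Fin t) :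
    ∃ c : F, c ≠ 0 ∧ (gs i : Matrix (Fin k) (Fin k) F)ᵀ * J * (gs i : Matrix (Fin k) (Fin k) F) = c • J := by
  obtain ⟨c, hc, hform⟩ := h.form
  refine simil_of_iso h.J0 gs σ ?_ i
  set X := tp (fun j => (gs j : Matrix (Fin k) (Fin k) F)) * fp F k σ with hX
  have h1 : ∀ v w, polar Q ((g : Matrix ι ι F) *ᵥ v) ((g : Matrix ι ι F) *ᵥ w) = polar Q v w := by
    intro v w
    rw [polar, polar, ← Matrix.mulVec_add, iso_of_mem hg, iso_of_mem hg, iso_of_mem hg]
  have h2 : ∀ x y : (Fin t → Fin k) → F, x ⬝ᵥ ((Xᵀ * tp (fun _ => J) * X) *ᵥ y) = x ⬝ᵥ (tp (fun _ => J) *ᵥ y) := by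
    intro x y
    have h3 := h1 ((P : Matrix ι ι F) *ᵥ (x ∘ e)) ((P : Matrix ι ι F) *ᵥ (y ∘ e))
    rw [hgs, psi_mulVec, psi_mulVec, hform, hform] at h3
    have h4 := mul_left_cancel₀ hc h3
    rw [← h4, Matrix.mulVec_mulVec, mul_assoc, ← Matrix.mulVec_mulVec, Matrix.dotProduct_mulVec x, Matrix.vecMul_transpose]
  ext a b
  have h5 := h2 (Pi.single a 1) (Pi.single b 1)
  simpa using h5

end Cfsg.Agent.Lib.H12Spin
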