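import Cfsg.Agent.Lib.H12Spin2

/-!
Spin overgroups in characteristic two: the core theorem.
-/

set_option autoImplicit false
set_option linter.unusedSectionVars false
set_option linter.unusedVariables false

namespace Cfsg.Agent.Lib.H12Spin

open Cfsg Cfsg.Geo QuadraticMap Cfsg.Agent.Lib.AschTensor
open scoped Matrix MatrixGroups

variable {F : Type*} [Field F] {t k : ℕ}

/-- A Clifford family of `k × k` matrices in a space of matrices. -/
structure Fam (J : Matrix (Fin k) (Fin k) F) (𝒰 : Set (Matrix (Fin k) (Fin k) F)) {β : Type}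
    (G : β → Bool → Matrix (Fin k) (Fin k) F) : Prop where
  sq : ∀ i b, G i b * G i b = 0
  anti : ∀ i, G i true * G i false + G i false * G i true = 1
  comm : ∀ i j, i ≠ j → ∀ b b', G i b * G j b' = G j b' * G i b
  sa : ∀ i b, (G i b)ᵀ * J = J * G i b
  mem : ∀ i b, G i b ∈ 𝒰
  scal : ∀ A ∈ 𝒰, ∀ B ∈ 𝒰, ∃ c : F, A * B + B * A = c • (1 : Matrix (Fin k) (Fin k) F)
  conj : ∀ A ∈ 𝒰, ∀ g : GL (Fin k) F, (∃ c : F, c ≠ 0 ∧
    (g : Matrix (Fin k) (Fin k) F)ᵀ * J * (g : Matrix (Fin k) (Fin k) F) = c • J) →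
    (g : Matrix (Fin k) (Fin k) F) * A * ((g⁻¹ : GL (Fin k) F) : Matrix (Fin k) (Fin k) F) ∈ 𝒰

variable {ι : Type} [Fintype ι] [DecidableEq ι]
variable {Q : (ι → F) → F} {e : ι ≃ (Fin t → Fin k)} {P : GL ι F} {J : Matrix (Fin k) (Fin k) F}
  {𝒰 : Set (Matrix (Fin k) (Fin k) F)} {β : Type} {G : β → Bool → Matrix (Fin k) (Fin k) F}

theorem cl_of (h : TF Q e P J) (hG : Fam J 𝒰 G) :
    Cl Q (fun (p : Fin t × β) b => psi e P (pos p.1 (G p.2 b))) where
  two := h.two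
  bil := h.bil
  sq p b := by rw [← map_mul, ← pos_mul, hG.sq, pos_zero, map_zero]
  anti p := by rw [← map_mul, ← map_mul, ← pos_mul, ← pos_mul, ← map_add, ← pos_add, hG.anti, pos_one, map_one]
  comm p q hpq b b' := by
    rw [← map_mul, ← map_mul]
    congr 1
    by_cases h1 : p.1 = q.1
    · have h2 : p.2 ≠ q.2 := fun h2 => hpq (Prod.ext h1 h2)
      rw [h1, ← pos_mul, ← pos_mul, hG.comm _ _ h2]
    · exact pos_comm h1 _ _
  sa p b := h.sa _ (hG.sa _ _)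
  q0 p b x := h.q0 _ (hG.sa _ _) (hG.sq _ _) x

/-- The space spanned by the copies of `𝒰`. -/
def bigU (e : ι ≃ (Fin t → Fin k)) (P : GL ι F) (𝒰 : Set (Matrix (Fin k) (Fin k) F)) : Submodule F (Matrix ι ι F) :=
  Submodule.span F {X | ∃ i, ∃ A ∈ 𝒰, X = psi e P (pos i A)}

theorem bigU_scal (h : TF Q e P J) (hG : Fam J 𝒰 G) (u : Matrix ι ι F) (hu : u ∈ bigU e P 𝒰) (v : Matrix ι ι F)
    (hv : v ∈ bigU e P 𝒰) : ∃ c : F, u * v + v * u = c • (1 : Matrix ι ι F) := by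
  have step : ∀ i, ∀ A ∈ 𝒰, ∀ v ∈ bigU e P 𝒰, ∃ c : F, psi e P (pos i A) * v + v * psi e P (pos i A) = c • (1 : Matrix ι ι F) := by
    intro i A hA v hv
    refine Submodule.span_induction (p := fun v _ => ∃ c : F, psi e P (pos i A) * v + v * psi e P (pos i A) = c • (1 : Matrix ι ι F))
      ?_ ?_ ?_ ?_ hv
    · rintro _ ⟨j, B, hB, rfl⟩
      by_cases hij : i = j
      · subst hij
        obtain ⟨c, hc⟩ := hG.scal A hA B hB
        refine ⟨c, ?_⟩
        rw [← map_mul, ← map_mul, ← pos_mul, ← pos_mul, ← map_add, ← pos_add, hc, pos_smul, pos_one, map_smul, map_one]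
      · refine ⟨0, ?_⟩
        rw [← map_mul, ← map_mul, pos_comm hij, add_self2 h.two, zero_smul]
    · exact ⟨0, by simp⟩
    · rintro x y - - ⟨c, hc⟩ ⟨d, hd⟩
      refine ⟨c + d, ?_⟩
      rw [add_smul, ← hc, ← hd]; noncomm_ring
    · rintro a x - ⟨c, hc⟩
      refine ⟨a * c, ?_⟩
      rw [mul_smul, ← hc, smul_add, mul_smul_comm, smul_mul_assoc]
  refine Submodule.span_induction (p := fun u _ => ∃ c : F, u * v + v * u = c • (1 : Matrix ι ι F)) ?_ ?_ ?_ ?_ hu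
  · rintro _ ⟨j, B, hB, rfl⟩
    exact step j B hB v hv
  · exact ⟨0, by simp⟩
  · rintro x y - - ⟨c, hc⟩ ⟨d, hd⟩
    refine ⟨c + d, ?_⟩
    rw [add_smul, ← hc, ← hd]; noncomm_ring
  · rintro a x - ⟨c, hc⟩
    refine ⟨a * c, ?_⟩
    rw [mul_smul, ← hc, smul_add, mul_smul_comm, smul_mul_assoc]

theorem conj_psi {g : GL ι F} {gs : Fin t → GL (Fin k) F} {σ : Equiv.Perm (Fin t)}
    (hgs : (g : Matrix ι ι F) = psi e P (tp (fun j => (gs j : Matrix (Fin k) (Fin k) F)) * fp F k σ)) (i : Fin t)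
    (A : Matrix (Fin k) (Fin k) F) :
    (g : Matrix ι ι F) * psi e P (pos i A) * ((g⁻¹ : GL ι F) : Matrix ι ι F) =
      psi e P (pos (σ i) ((gs (σ i) : Matrix (Fin k) (Fin k) F) * A * (((gs (σ i))⁻¹ : GL (Fin k) F) : Matrix (Fin k) (Fin k) F))) := by
  have h1 : (g : Matrix ι ι F) * psi e P (pos i A) = psi e P (pos (σ i) ((gs (σ i) : Matrix (Fin k) (Fin k) F) * A *
      (((gs (σ i))⁻¹ : GL (Fin k) F) : Matrix (Fin k) (Fin k) F))) * (g : Matrix ι ι F) := by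
    rw [hgs, ← map_mul, ← map_mul, pos_conj]
  rw [h1, mul_assoc, ← Units.val_mul, mul_inv_cancel, Units.val_one, mul_one]

/-- The core theorem. -/
theorem core (h : TF Q e P J) (hG : Fam J 𝒰 G) (hne : (1 : Matrix ι ι F) ≠ 0) (p₁ p₂ p₃ p₄ : Fin t × β) (h12 : p₁ ≠ p₂) (h13 : p₁ ≠ p₃) (h23 : p₂ ≠ p₃)
    (h14 : p₁ ≠ p₄) (h24 : p₂ ≠ p₄) (h34 : p₃ ≠ p₄) (hf : p₁.1 ≠ p₂.1) (M : Subgroup (GL ι F))
    (hM : ∀ g ∈ M, ∃ (gs : Fin t → GL (Fin k) F) (σ : Equiv.Perm (Fin t)),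
      (g : Matrix ι ι F) = psi e P (tp (fun j => (gs j : Matrix (Fin k) (Fin k) F)) * fp F k σ)) :
    ∃ K : Subgroup (GL ι F), M ⊓ omegaGL Q < K ∧ K < omegaGL Q := by
  have hC := cl_of h hG
  refine hC.main hne h12 h13 h23 h14 h24 h34 (bigU e P 𝒰) (fun i b => Submodule.subset_span ⟨_, _, hG.mem _ _, rfl⟩)
    (bigU_scal h hG) M ?_ ?_
  · intro g hg hgO u hu
    obtain ⟨gs, σ, hgs⟩ := hM g hg
    refine Submodule.span_induction (p := fun u _ => (g : Matrix ι ι F) * u * ((g⁻¹ : GL ι F) : Matrix ι ι F) ∈ bigU e P 𝒰)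
      ?_ ?_ ?_ ?_ hu
    · rintro _ ⟨i, A, hA, rfl⟩
      rw [conj_psi hgs]
      exact Submodule.subset_span ⟨_, _, hG.conj A hA _ (h.simil g (omega_le hgO) gs σ hgs _), rfl⟩
    · rw [mul_zero, zero_mul]; exact Submodule.zero_mem _
    · intro x y _ _ hx hy
      rw [mul_add, add_mul]; exact Submodule.add_mem _ hx hy
    · intro a x _ hx
      rw [mul_smul_comm, smul_mul_assoc]; exact Submodule.smul_mem _ _ hx
  · intro g hg hgw
    obtain ⟨gs, σ, hgs⟩ := hM g hg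
    set E1 := psi e P (pos p₁.1 (G p₁.2 true)) with hE1
    set E2 := psi e P (pos p₂.1 (G p₂.2 true)) with hE2
    set F1 := psi e P (pos p₁.1 (G p₁.2 false)) with hF1
    set F2 := psi e P (pos p₂.1 (G p₂.2 false)) with hF2
    have q11 : E1 * E1 = 0 := hC.sq p₁ true
    have q22 : E2 * E2 = 0 := hC.sq p₂ true
    have a1 : E1 * F1 + F1 * E1 = 1 := hC.anti p₁
    have a2 : E2 * F2 + F2 * E2 = 1 := hC.anti p₂
    have c12 : E2 * E1 = E1 * E2 := hC.comm p₂ p₁ h12.symm true true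
    have c12' : E2 * F1 = F1 * E2 := hC.comm p₂ p₁ h12.symm true false
    have c21' : F2 * F1 = F1 * F2 := hC.comm p₂ p₁ h12.symm false false
    have hcj := conj_psi hgs p₁.1 (G p₁.2 false)
    rw [← hF1] at hcj
    set A' := (gs (σ p₁.1) : Matrix (Fin k) (Fin k) F) * G p₁.2 false * (((gs (σ p₁.1))⁻¹ : GL (Fin k) F) : Matrix (Fin k) (Fin k) F)
    -- `g F1 = (F1 + E2) g`
    have hgw' : (g : Matrix ι ι F) = 1 + E1 * E2 := hgw
    have h1 : (g : Matrix ι ι F) * F1 = (F1 + E2) * (g : Matrix ι ι F) := by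
      rw [hgw']
      have e1 : E1 * E2 * F1 = E1 * F1 * E2 := by rw [mul_assoc, c12', mul_assoc]
      have e2 : F1 * (E1 * E2) = F1 * E1 * E2 := by rw [mul_assoc]
      have e3 : E2 * (E1 * E2) = 0 := by rw [← mul_assoc, c12, mul_assoc, q22, mul_zero]
      have e4 : E1 * F1 * E2 + F1 * E1 * E2 = E2 := by rw [← add_mul, a1, one_mul]
      have e5 : E1 * F1 * E2 = F1 * E1 * E2 + E2 := by
        have e6 : F1 * E1 * E2 + E2 = E1 * F1 * E2 + (F1 * E1 * E2 + F1 * E1 * E2) := by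
          nth_rewrite 2 [← e4]; abel
        rw [e6, add_self2 h.two, add_zero]
      calc (1 + E1 * E2) * F1 = F1 + E1 * E2 * F1 := by noncomm_ring
        _ = F1 + F1 * (E1 * E2) + E2 + E2 * (E1 * E2) := by rw [e1, e3, e2, e5, add_zero, add_assoc]
        _ = (F1 + E2) * (1 + E1 * E2) := by noncomm_ring
    have h2 : psi e P (pos (σ p₁.1) A') = F1 + E2 := by
      rw [← hcj, h1, mul_assoc, ← Units.val_mul, mul_inv_cancel, Units.val_one, mul_one]
    by_cases hl : σ p₁.1 = p₁.1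
    · -- commutes with `F2`
      have h3 : psi e P (pos (σ p₁.1) A') * F2 = F2 * psi e P (pos (σ p₁.1) A') := by
        rw [hF2, ← map_mul, ← map_mul, hl, pos_comm hf]
      rw [h2, add_mul, mul_add, c21'] at h3
      have h4 := add_left_cancel h3
      rw [h4, add_self2 h.two] at a2
      exact hne a2.symm
    · have h3 : psi e P (pos (σ p₁.1) A') * E1 = E1 * psi e P (pos (σ p₁.1) A') := by
        rw [hE1, ← map_mul, ← map_mul, pos_comm hl]
      rw [h2, add_mul, mul_add, c12] at h3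
      have h4 := add_right_cancel h3
      rw [h4, add_self2 h.two] at a1
      exact hne a1.symm

end Cfsg.Agent.Lib.H12Spin
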