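import Cfsg.Agent.Lib.H12Spin3
import Cfsg.Agent.Lib.AltForm
import Cfsg.Agent.Lib.GeoBridge

/-!
Spin overgroups in characteristic two: change of basis, and the families in dimensions two and four.
-/

set_option autoImplicit false
set_option linter.unusedSectionVars false
set_option linter.unusedVariables false

namespace Cfsg.Agent.Lib.H12Spin

open Cfsg Cfsg.Geo QuadraticMap Cfsg.Agent.Lib.AschTensor
open scoped Matrix MatrixGroups

variable {F : Type*} [Field F] {t k : ℕ}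

/-! ### The tensor wreath group -/

theorem tpU_coe (u : Fin t → GL (Fin k) F) : ((tpU u : GL (Fin t → Fin k) F) : Matrix _ _ F) = tp (fun i => (u i : Matrix (Fin k) (Fin k) F)) := rfl

theorem fpU_coe (σ : Equiv.Perm (Fin t)) : ((fpU F k σ : GL (Fin t → Fin k) F) : Matrix _ _ F) = fp F k σ := rfl

theorem tpU_mul (u v : Fin t → GL (Fin k) F) : tpU u * tpU v = tpU (fun i => u i * v i) := by
  apply Units.ext
  rw [Units.val_mul, tpU_coe, tpU_coe, tpU_coe, tp_mul]; rfl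

theorem fpU_mul (σ τ : Equiv.Perm (Fin t)) : fpU F k σ * fpU F k τ = fpU F k (τ.trans σ) := by
  apply Units.ext
  rw [Units.val_mul, fpU_coe, fpU_coe, fpU_coe, fp_mul_fp]

theorem fpU_mul_tpU (σ : Equiv.Perm (Fin t)) (u : Fin t → GL (Fin k) F) :
    fpU F k σ * tpU u = tpU (fun j => u (σ.symm j)) * fpU F k σ := by
  apply Units.ext
  rw [Units.val_mul, Units.val_mul, fpU_coe, tpU_coe, tpU_coe, fp_mul_tp]

theorem tpU_one : tpU (fun _ : Fin t => (1 : GL (Fin k) F)) = 1 := by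
  apply Units.ext
  rw [tpU_coe]
  exact tp_one

theorem fpU_refl : fpU F k (Equiv.refl (Fin t)) = 1 := by
  apply Units.ext
  rw [fpU_coe]
  exact fp_one

theorem std_form {g : GL (Fin t → Fin k) F} (hg : g ∈ tensorWreathStandard k t F) :
    ∃ (gs : Fin t → GL (Fin k) F) (σ : Equiv.Perm (Fin t)), g = tpU gs * fpU F k σ := by
  refine Subgroup.closure_induction (p := fun g _ => ∃ (gs : Fin t → GL (Fin k) F) (σ : Equiv.Perm (Fin t)), g = tpU gs * fpU F k σ)
    ?_ ?_ ?_ ?_ hg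
  · rintro x (⟨gs, h⟩ | ⟨σ, h⟩)
    · refine ⟨gs, Equiv.refl _, ?_⟩
      rw [fpU_refl, mul_one]
      apply Units.ext
      ext a b
      exact h a b
    · refine ⟨fun _ => 1, σ, ?_⟩
      rw [tpU_one, one_mul]
      apply Units.ext
      ext a b
      exact h a b
  · exact ⟨fun _ => 1, Equiv.refl _, by rw [tpU_one, fpU_refl, one_mul]⟩
  · rintro x y - - ⟨u, σ, rfl⟩ ⟨v, τ, rfl⟩
    refine ⟨fun j => u j * v (σ.symm j), τ.trans σ, ?_⟩
    calc tpU u * fpU F k σ * (tpU v * fpU F k τ) = tpU u * (fpU F k σ * tpU v) * fpU F k τ := by simp only [mul_assoc]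
      _ = tpU u * tpU (fun j => v (σ.symm j)) * (fpU F k σ * fpU F k τ) := by rw [fpU_mul_tpU]; simp only [mul_assoc]
      _ = _ := by rw [fpU_mul, tpU_mul]
  · rintro x - ⟨u, σ, rfl⟩
    refine ⟨fun j => (u (σ j))⁻¹, σ.symm, ?_⟩
    rw [inv_eq_iff_mul_eq_one]
    calc tpU u * fpU F k σ * (tpU (fun j => (u (σ j))⁻¹) * fpU F k σ.symm)
        = tpU u * (fpU F k σ * tpU (fun j => (u (σ j))⁻¹)) * fpU F k σ.symm := by simp only [mul_assoc]
      _ = tpU u * tpU (fun j => (u (σ (σ.symm j)))⁻¹) * (fpU F k σ * fpU F k σ.symm) := by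
          rw [fpU_mul_tpU]; simp only [mul_assoc]
      _ = 1 := by
          rw [fpU_mul, tpU_mul, Equiv.symm_trans_self, fpU_refl, mul_one]
          simp only [Equiv.apply_symm_apply, mul_inv_cancel]
          exact tpU_one

variable {ι : Type} [Fintype ι] [DecidableEq ι]

/-- Change of basis. -/
theorem psi_change (e : ι ≃ (Fin t → Fin k)) (P : GL ι F) (T : GL (Fin t → Fin k) F)
    (M : Matrix (Fin t → Fin k) (Fin t → Fin k) F) :
    psi e (P * glReindex e.symm T) M = psi e P ((T : Matrix _ _ F) * M * ((T⁻¹ : GL (Fin t → Fin k) F) : Matrix _ _ F)) := by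
  rw [psi_apply, psi_apply, mul_inv_rev, Units.val_mul, Units.val_mul]
  have h1 : ((glReindex e.symm T : GL ι F) : Matrix ι ι F) = Matrix.reindex e.symm e.symm (T : Matrix _ _ F) := rfl
  have h2 : (((glReindex e.symm T)⁻¹ : GL ι F) : Matrix ι ι F) = Matrix.reindex e.symm e.symm ((T⁻¹ : GL (Fin t → Fin k) F) : Matrix _ _ F) := rfl
  rw [h1, h2]
  have h3 : ∀ A B : Matrix (Fin t → Fin k) (Fin t → Fin k) F, Matrix.reindex e.symm e.symm (A * B) =
      Matrix.reindex e.symm e.symm A * Matrix.reindex e.symm e.symm B := fun A B =>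
    (Matrix.reindexAlgEquiv F F e.symm).map_mul A B
  rw [h3, h3]
  simp only [mul_assoc]

theorem L_change (e : ι ≃ (Fin t → Fin k)) (P : GL ι F) (T : GL (Fin t → Fin k) F) (x : (Fin t → Fin k) → F) :
    ((P * glReindex e.symm T : GL ι F) : Matrix ι ι F) *ᵥ (x ∘ e) = (P : Matrix ι ι F) *ᵥ (((T : Matrix _ _ F) *ᵥ x) ∘ e) := by
  rw [Units.val_mul]
  have h1 : ((glReindex e.symm T : GL ι F) : Matrix ι ι F) = Matrix.reindex e.symm e.symm (T : Matrix _ _ F) := rfl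
  rw [h1, ← Matrix.mulVec_mulVec, Matrix.reindex_apply, Matrix.submatrix_mulVec_equiv]
  congr 2
  congr 1
  funext a
  simp

/-- Reduction to a standard Gram matrix. -/
theorem reduce {Q : (ι → F) → F} (h2 : (2 : F) = 0) (hQ : IsNondegenerateQuadraticForm Q) {e : ι ≃ (Fin t → Fin k)} {P : GL ι F}
    {f₁ : (Fin k → F) → (Fin k → F) → F} (hf₁ : IsSymplecticForm f₁)
    (hT : IsTensorPowerFormStructure id (polar Q) f₁ e P)
    (hpure : ∀ xs : Fin t → (Fin k → F), Q ((P : Matrix ι ι F) *ᵥ ((fun a : Fin t → Fin k => ∏ i, xs i (a i)) ∘ e)) = 0)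
    (J : Matrix (Fin k) (Fin k) F) (hJ0 : ∃ p q, J p q ≠ 0) (hJ1 : ∀ v, v ⬝ᵥ (J *ᵥ v) = 0)
    (hJ2 : ∀ v, (∀ w, v ⬝ᵥ (J *ᵥ w) = 0) → v = 0) :
    ∃ P' : GL ι F, TF Q e P' J ∧ ∀ g ∈ tensorWreathSubgroup k t e P, ∃ (gs : Fin t → GL (Fin k) F) (σ : Equiv.Perm (Fin t)),
      (g : Matrix ι ι F) = psi e P' (tp (fun j => (gs j : Matrix (Fin k) (Fin k) F)) * fp F k σ) := by
  let Bf : (Fin k → F) →ₗ[F] (Fin k → F) →ₗ[F] F := LinearMap.mk₂ F f₁ hf₁.bilinear.add_left
    (fun c x y => hf₁.bilinear.smul_left c x y) (fun x y z => hf₁.bilinear.add_right x y z)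
    (fun c x y => hf₁.bilinear.smul_right c x y)
  have hBf : ∀ x y, Bf x y = f₁ x y := fun x y => rfl
  have hG : ∀ x y, f₁ x y = x ⬝ᵥ (gramMatrix f₁ *ᵥ y) := by
    intro x y
    have e1 : LinearMap.toMatrix₂' F Bf = gramMatrix f₁ := by
      ext i j
      rw [LinearMap.toMatrix₂'_apply]; rfl
    rw [← hBf, ← Matrix.toLinearMap₂'_toMatrix' (R := F) Bf, e1, Matrix.toLinearMap₂'_apply']
  let C : (Fin k → F) →ₗ[F] (Fin k → F) →ₗ[F] F := Matrix.toLinearMap₂' F J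
  have hC : ∀ x y, C x y = x ⬝ᵥ (J *ᵥ y) := fun x y => Matrix.toLinearMap₂'_apply' _ _ _
  obtain ⟨φ, hφ⟩ := AltForm.exists_isometry C (fun v => by rw [hC]; exact hJ1 v)
    (fun v hv => hJ2 v fun w => by rw [← hC]; exact hv w) Bf (fun v => hf₁.alternating v)
    (fun v hv => by
      by_contra hv0
      obtain ⟨x, hx⟩ := (hf₁.nondegenerate v hv0).2
      exact hx (hv x)) rfl
  set B : GL (Fin k) F := GeoBridge.le.symm φ with hB
  have hB1 : ∀ v, (B : Matrix (Fin k) (Fin k) F) *ᵥ v = φ v := fun v => GeoBridge.le_symm_mulVec φ v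
  have hBG : (B : Matrix (Fin k) (Fin k) F)ᵀ * gramMatrix f₁ * (B : Matrix (Fin k) (Fin k) F) = J := by
    have h3 : ∀ u v : Fin k → F, u ⬝ᵥ (((B : Matrix (Fin k) (Fin k) F)ᵀ * gramMatrix f₁ * (B : Matrix (Fin k) (Fin k) F)) *ᵥ v) = u ⬝ᵥ (J *ᵥ v) := by
      intro u v
      rw [mul_assoc, ← Matrix.mulVec_mulVec, Matrix.dotProduct_mulVec, Matrix.vecMul_transpose, ← Matrix.mulVec_mulVec, ← hG,
        hB1, hB1, ← hBf, hφ, hC]
    ext a b
    have h5 := h3 (Pi.single a 1) (Pi.single b 1)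
    simpa using h5
  set T : GL (Fin t → Fin k) F := tpU (fun _ => B) with hTd
  refine ⟨P * glReindex e.symm T, ⟨h2, hQ.polar_bilinear, hQ.smul, hJ0, ?_, ?_⟩, ?_⟩
  · obtain ⟨c, hc, hform⟩ := hT
    refine ⟨c, hc, fun x y => ?_⟩
    rw [L_change, L_change, hform]
    congr 1
    have h4 : ∀ x y : (Fin t → Fin k) → F, ∑ a, ∑ b, x a * (∏ i, gramMatrix f₁ (a i) (b i)) * id (y b) =
        x ⬝ᵥ (tp (fun _ => gramMatrix f₁) *ᵥ y) := by
      intro x y
      simp only [dotProduct, Matrix.mulVec, tp, id, Finset.mul_sum, mul_assoc]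
    rw [h4, ← Matrix.vecMul_transpose (T : Matrix (Fin t → Fin k) (Fin t → Fin k) F) x, ← Matrix.dotProduct_mulVec, Matrix.mulVec_mulVec, Matrix.mulVec_mulVec,
      hTd, tpU_coe, tp_transpose, tp_mul, tp_mul]
    simp only [hBG, ← mul_assoc]
  · intro xs
    rw [L_change, hTd, tpU_coe, tp_mulVec]
    exact hpure _
  · intro g hg
    obtain ⟨k', hk', hgk⟩ := mem_tensorWreathSubgroup.1 hg
    obtain ⟨gs, σ, rfl⟩ := std_form hk'
    refine ⟨fun j => B⁻¹ * gs j * B, σ, ?_⟩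
    rw [psi_change, hgk]
    congr 1
    have h5 : tpU gs * fpU F k σ = T * (tpU (fun j => B⁻¹ * gs j * B) * fpU F k σ) * T⁻¹ := by
      rw [eq_mul_inv_iff_mul_eq, hTd, mul_assoc, fpU_mul_tpU, ← mul_assoc, ← mul_assoc, tpU_mul, tpU_mul]
      congr 2
      funext j
      group
    have h6 := congrArg (fun g : GL (Fin t → Fin k) F => (g : Matrix (Fin t → Fin k) (Fin t → Fin k) F)) h5
    exact h6

end Cfsg.Agent.Lib.H12Spin
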