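import Cfsg.Agent.Lib.H12Spin4

/-!
Spin overgroups in characteristic two: the families in dimensions two and four.
-/

set_option autoImplicit false
set_option linter.unusedSectionVars false
set_option linter.unusedVariables false
set_option linter.unusedSimpArgs false
set_option linter.unusedTactic false
set_option linter.unreachableTactic false

namespace Cfsg.Agent.Lib.H12Spin

open Cfsg Cfsg.Geo
open scoped Matrix MatrixGroups

variable {F : Type*} [Field F]

/-! ### Dimension two -/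

def J2 (F : Type*) [Field F] : Matrix (Fin 2) (Fin 2) F := !![0, 1; 1, 0]

def G2 (F : Type*) [Field F] : Unit → Bool → Matrix (Fin 2) (Fin 2) F
  | _, true => !![0, 1; 0, 0]
  | _, false => !![0, 0; 1, 0]

def U2 (F : Type*) [Field F] : Set (Matrix (Fin 2) (Fin 2) F) := {A | ∃ c : F, A * A = c • (1 : Matrix (Fin 2) (Fin 2) F)}

theorem eq_of_sq (h2 : (2 : F) = 0) {a b : F} (h : a * a = b * b) : a = b := by
  have h1 : (a + b) * (a + b) = 0 := by linear_combination h + (a * b + b * b) * h2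
  have h3 : a + b = 0 := by simpa using h1
  linear_combination h3 - b * h2

theorem fam2 (h2 : (2 : F) = 0) : Fam (J2 F) (U2 F) (G2 F) where
  sq i b := by
    cases b <;> ext a b <;> fin_cases a <;> fin_cases b <;> simp [G2, Matrix.mul_apply, Fin.sum_univ_two]
  anti i := by
    ext a b; fin_cases a <;> fin_cases b <;> simp [G2, Matrix.mul_apply, Fin.sum_univ_two]
  comm i j hij := absurd (Subsingleton.elim i j) hij
  sa i b := by
    cases b <;> ext a b <;> fin_cases a <;> fin_cases b <;> simp [G2, J2, Matrix.mul_apply, Fin.sum_univ_two]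
  mem i b := by
    refine ⟨0, ?_⟩
    rw [zero_smul]
    cases b <;> ext a b <;> fin_cases a <;> fin_cases b <;> simp [G2, Matrix.mul_apply, Fin.sum_univ_two]
  scal A hA B hB := by
    have key : ∀ A ∈ U2 F, A 1 1 = A 0 0 := by
      rintro A ⟨c, hc⟩
      have h00 := congrFun (congrFun hc 0) 0
      have h11 := congrFun (congrFun hc 1) 1
      simp [Matrix.mul_apply, Fin.sum_univ_two] at h00 h11
      apply eq_of_sq h2
      linear_combination h11 - h00
    have hA' := key A hA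
    have hB' := key B hB
    refine ⟨A 0 1 * B 1 0 + B 0 1 * A 1 0, ?_⟩
    ext a b
    fin_cases a <;> fin_cases b <;> simp [Matrix.mul_apply, Fin.sum_univ_two, hA', hB']
    · linear_combination A 0 0 * B 0 0 * h2
    · linear_combination (A 0 0 * B 0 1 + A 0 1 * B 0 0) * h2
    · linear_combination (A 1 0 * B 0 0 + A 0 0 * B 1 0) * h2
    · linear_combination A 0 0 * B 0 0 * h2
  conj A hA g hg := by
    obtain ⟨c, hc⟩ := hA
    refine ⟨c, ?_⟩
    calc (g : Matrix (Fin 2) (Fin 2) F) * A * ((g⁻¹ : GL (Fin 2) F) : Matrix (Fin 2) (Fin 2) F) *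
          ((g : Matrix (Fin 2) (Fin 2) F) * A * ((g⁻¹ : GL (Fin 2) F) : Matrix (Fin 2) (Fin 2) F))
        = (g : Matrix (Fin 2) (Fin 2) F) * A * (((g⁻¹ : GL (Fin 2) F) : Matrix (Fin 2) (Fin 2) F) * (g : Matrix (Fin 2) (Fin 2) F)) * A * ((g⁻¹ : GL (Fin 2) F) : Matrix (Fin 2) (Fin 2) F) := by simp only [mul_assoc]
      _ = (g : Matrix (Fin 2) (Fin 2) F) * (A * A) * ((g⁻¹ : GL (Fin 2) F) : Matrix (Fin 2) (Fin 2) F) := by
          rw [← Units.val_mul, inv_mul_cancel, Units.val_one, mul_one]; simp only [mul_assoc]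
      _ = c • 1 := by
          rw [hc, mul_smul_comm, smul_mul_assoc, mul_one, ← Units.val_mul, mul_inv_cancel, Units.val_one]

/-! ### Dimension four -/

def J4 (F : Type*) [Field F] : Matrix (Fin 4) (Fin 4) F := !![0, 0, 0, 1; 0, 0, 1, 0; 0, 1, 0, 0; 1, 0, 0, 0]

def G4 (F : Type*) [Field F] : Bool → Bool → Matrix (Fin 4) (Fin 4) F
  | false, true => !![0, 0, 1, 0; 0, 0, 0, 1; 0, 0, 0, 0; 0, 0, 0, 0]
  | false, false => !![0, 0, 0, 0; 0, 0, 0, 0; 1, 0, 0, 0; 0, 1, 0, 0]
  | true, true => !![0, 1, 0, 0; 0, 0, 0, 0; 0, 0, 0, 1; 0, 0, 0, 0]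
  | true, false => !![0, 0, 0, 0; 1, 0, 0, 0; 0, 0, 0, 0; 0, 0, 1, 0]

def U4 (F : Type*) [Field F] : Set (Matrix (Fin 4) (Fin 4) F) :=
  {A | (∀ x : Fin 4 → F, x ⬝ᵥ ((J4 F * A) *ᵥ x) = 0) ∧ ∃ c : F, A * A = c • (1 : Matrix (Fin 4) (Fin 4) F)}

theorem U4_form (h2 : (2 : F) = 0) {A : Matrix (Fin 4) (Fin 4) F} (hA : A ∈ U4 F) :
    ∃ a q b r c : F, A = !![a, q, b, 0; r, a, 0, b; c, 0, a, q; 0, c, r, a] := by
  obtain ⟨h1, c, hc⟩ := hA
  have d : ∀ i : Fin 4, (J4 F * A) i i = 0 := by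
    intro i
    have := h1 (Pi.single i 1)
    simpa using this
  have s : ∀ i j : Fin 4, (J4 F * A) i j + (J4 F * A) j i = 0 := by
    intro i j
    have h3 := h1 (Pi.single i 1 + Pi.single j 1)
    rw [Matrix.mulVec_add, dotProduct_add, add_dotProduct, add_dotProduct] at h3
    have e : ∀ a b : Fin 4, (Pi.single a 1 : Fin 4 → F) ⬝ᵥ ((J4 F * A) *ᵥ (Pi.single b 1 : Fin 4 → F)) = (J4 F * A) a b := by
      intro a b; simp
    rw [e, e, e, e, d, d] at h3
    linear_combination h3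
  have d0 := d 0
  have d1 := d 1
  have d2 := d 2
  have d3 := d 3
  have s01 := s 0 1
  have s02 := s 0 2
  have s03 := s 0 3
  have s12 := s 1 2
  have s13 := s 1 3
  have s23 := s 2 3
  have c00 := congrFun (congrFun hc 0) 0
  have c11 := congrFun (congrFun hc 1) 1
  simp [J4, Matrix.mul_apply, Fin.sum_univ_four] at d0 d1 d2 d3 s01 s02 s03 s12 s13 s23 c00 c11
  have hsw : ∀ {a b : F}, a + b = 0 → a = b := fun {a b} h => by linear_combination h - b * h2
  have t01 := hsw s01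
  have t02 := hsw s02
  have t03 := hsw s03
  have t12 := hsw s12
  have t13 := hsw s13
  have t23 := hsw s23
  have haa : A 1 1 = A 0 0 := by
    apply eq_of_sq h2
    rw [d3] at c00
    rw [d2, t23, t01] at c11
    linear_combination c11 - c00
  refine ⟨A 0 0, A 0 1, A 0 2, A 1 0, A 2 0, ?_⟩
  ext i j
  fin_cases i <;> fin_cases j <;> simp [d0, d1, d2, d3, t01, t02, t03, t13, t23, haa]
  · rw [t12, haa]

theorem fam4 (h2 : (2 : F) = 0) : Fam (J4 F) (U4 F) (G4 F) where
  sq i b := by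
    cases i <;> cases b <;> ext a b <;> fin_cases a <;> fin_cases b <;> simp [G4, Matrix.mul_apply, Fin.sum_univ_four]
  anti i := by
    cases i <;> ext a b <;> fin_cases a <;> fin_cases b <;> simp [G4, Matrix.mul_apply, Fin.sum_univ_four]
  comm i j hij b b' := by
    cases i <;> cases j <;> first
      | exact absurd rfl hij
      | (cases b <;> cases b' <;> ext a b <;> fin_cases a <;> fin_cases b <;> simp [G4, Matrix.mul_apply, Fin.sum_univ_four])
  sa i b := by
    cases i <;> cases b <;> ext a b <;> fin_cases a <;> fin_cases b <;> simp [G4, J4, Matrix.mul_apply, Fin.sum_univ_four]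
  mem i b := by
    refine ⟨fun x => ?_, 0, ?_⟩
    · cases i <;> cases b <;> simp [G4, J4, Matrix.mulVec, dotProduct, Matrix.mul_apply, Fin.sum_univ_four]
      · linear_combination (x 0 * x 1) * h2
      · linear_combination (x 2 * x 3) * h2
      · linear_combination (x 0 * x 2) * h2
      · linear_combination (x 1 * x 3) * h2
    · rw [zero_smul]
      cases i <;> cases b <;> ext a b <;> fin_cases a <;> fin_cases b <;> simp [G4, Matrix.mul_apply, Fin.sum_univ_four]
  scal A hA B hB := by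
    obtain ⟨a, q, b, r, c, rfl⟩ := U4_form h2 hA
    obtain ⟨a', q', b', r', c', rfl⟩ := U4_form h2 hB
    refine ⟨q * r' + q' * r + b * c' + b' * c, ?_⟩
    ext i j
    fin_cases i <;> fin_cases j <;> simp [Matrix.mul_apply, Fin.sum_univ_four] <;> ring_nf <;> simp [h2]
  conj A hA g hg := by
    obtain ⟨h1, c, hc⟩ := hA
    obtain ⟨d, hd0, hd⟩ := hg
    refine ⟨fun x => ?_, c, ?_⟩
    · have e1 : x = (g : Matrix (Fin 4) (Fin 4) F) *ᵥ (((g⁻¹ : GL (Fin 4) F) : Matrix (Fin 4) (Fin 4) F) *ᵥ x) := by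
        rw [Matrix.mulVec_mulVec, ← Units.val_mul, mul_inv_cancel, Units.val_one, Matrix.one_mulVec]
      set y := ((g⁻¹ : GL (Fin 4) F) : Matrix (Fin 4) (Fin 4) F) *ᵥ x with hy
      have e2 : (J4 F * ((g : Matrix (Fin 4) (Fin 4) F) * A * ((g⁻¹ : GL (Fin 4) F) : Matrix (Fin 4) (Fin 4) F))) *ᵥ x =
          (J4 F * (g : Matrix (Fin 4) (Fin 4) F) * A) *ᵥ y := by
        rw [hy, Matrix.mulVec_mulVec]; simp only [mul_assoc]
      rw [e2]
      nth_rewrite 1 [e1]
      rw [← Matrix.vecMul_transpose, ← Matrix.dotProduct_mulVec, Matrix.mulVec_mulVec, ← mul_assoc, ← mul_assoc, hd,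
        smul_mul_assoc, Matrix.smul_mulVec, dotProduct_smul, h1, smul_zero]
    · calc (g : Matrix (Fin 4) (Fin 4) F) * A * ((g⁻¹ : GL (Fin 4) F) : Matrix (Fin 4) (Fin 4) F) *
          ((g : Matrix (Fin 4) (Fin 4) F) * A * ((g⁻¹ : GL (Fin 4) F) : Matrix (Fin 4) (Fin 4) F))
        = (g : Matrix (Fin 4) (Fin 4) F) * A * (((g⁻¹ : GL (Fin 4) F) : Matrix (Fin 4) (Fin 4) F) * (g : Matrix (Fin 4) (Fin 4) F)) * A * ((g⁻¹ : GL (Fin 4) F) : Matrix (Fin 4) (Fin 4) F) := by simp only [mul_assoc]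
      _ = (g : Matrix (Fin 4) (Fin 4) F) * (A * A) * ((g⁻¹ : GL (Fin 4) F) : Matrix (Fin 4) (Fin 4) F) := by
          rw [← Units.val_mul, inv_mul_cancel, Units.val_one, mul_one]; simp only [mul_assoc]
      _ = c • 1 := by
          rw [hc, mul_smul_comm, smul_mul_assoc, mul_one, ← Units.val_mul, mul_inv_cancel, Units.val_one]

end Cfsg.Agent.Lib.H12Spin
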