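import Cfsg.Agent.Lib.H13F4a

/-!
`F₄(2)`: induction over pairs of roots (helper13)
-/

set_option autoImplicit false

namespace Cfsg.Agent.Lib.H13F4

open Cfsg.Lie

/-- representatives of the pairs of roots under the Weyl group -/
def B0 : List (ℕ × ℕ) := [(44,3),(44,6),(44,14),(44,29),(44,32),(44,40),(44,44),(44,47),(47,0),(47,18),(47,23),(47,37),(47,41),(47,44),(47,46),(47,47)]

def pA : Bool := (List.range 48).all fun r => Nat.beq r 44 || (Nat.beq r 47 || (List.range 4).any fun i => Nat.blt r (wT i r))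
def pB : Bool := [44, 47].all fun r => (List.range 48).all fun s => B0.any (fun p => Nat.beq p.1 r && Nat.beq p.2 s) ||
  (List.range 4).any fun i => Nat.beq (wT i r) r && Nat.blt s (wT i s)
def pC : Bool := (List.range 4).all fun i => (List.range 48).all fun r => Nat.blt (wT i r) 48 && (Nat.beq (wT i (wT i r)) r &&
  (Nat.beq (wT i (ngT r)) (ngT (wT i r)) && (lng (wT i r) == lng r)))
def pD (i : ℕ) : Bool := (List.range 48).all fun r => (List.range 48).all fun s => Nat.beq s r || (Nat.beq s (ngT r) ||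
  ((cwT (wT i r) (wT i s) == (cwT r s).map (wT i)) && (cwT r s).all fun t => Nat.blt t 48))

set_option maxRecDepth 100000 in
theorem pA_true : pA = true := by decide +kernel
set_option maxRecDepth 100000 in
theorem pB_true : pB = true := by decide +kernel
set_option maxRecDepth 100000 in
theorem pC_true : pC = true := by decide +kernel
set_option maxRecDepth 100000 in
theorem pD0 : pD 0 = true := by decide +kernel
set_option maxRecDepth 100000 in
theorem pD1 : pD 1 = true := by decide +kernel
set_option maxRecDepth 100000 in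
theorem pD2 : pD 2 = true := by decide +kernel
set_option maxRecDepth 100000 in
theorem pD3 : pD 3 = true := by decide +kernel

theorem wT_facts {i r : ℕ} (hi : i < 4) (hr : r < 48) : wT i r < 48 ∧ wT i (wT i r) = r ∧ wT i (ngT r) = ngT (wT i r) ∧ lng (wT i r) = lng r := by
  have h := pC_true
  unfold pC at h
  rw [List.all_eq_true] at h
  have h1 := h i (List.mem_range.2 hi)
  rw [List.all_eq_true] at h1
  have h2 := h1 r (List.mem_range.2 hr)
  simp only [Bool.and_eq_true] at h2
  obtain ⟨a, b, c, d⟩ := h2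
  exact ⟨Nat.blt_eq.mp a, Nat.eq_of_beq_eq_true b, Nat.eq_of_beq_eq_true c, by simpa using d⟩

theorem cw_facts {i r s : ℕ} (hi : i < 4) (hr : r < 48) (hs : s < 48) (h1 : s ≠ r) (h2 : s ≠ ngT r) :
    cwT (wT i r) (wT i s) = (cwT r s).map (wT i) ∧ ∀ t ∈ cwT r s, t < 48 := by
  have h : pD i = true := by
    interval_cases i
    · exact pD0
    · exact pD1
    · exact pD2
    · exact pD3
  unfold pD at h
  rw [List.all_eq_true] at h
  have h3 := h r (List.mem_range.2 hr)
  rw [List.all_eq_true] at h3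
  have h4 := h3 s (List.mem_range.2 hs)
  simp only [Bool.or_eq_true, Bool.and_eq_true] at h4
  rcases h4 with h4 | h4 | h4
  · exact absurd (Nat.eq_of_beq_eq_true h4) h1
  · exact absurd (Nat.eq_of_beq_eq_true h4) h2
  · refine ⟨by simpa using h4.1, ?_⟩
    intro t ht
    have := h4.2
    rw [List.all_eq_true] at this
    exact Nat.blt_eq.mp (this t ht)

theorem wT_inj {i r s : ℕ} (hi : i < 4) (hr : r < 48) (hs : s < 48) (h : wT i r = wT i s) : r = s := by
  rw [← (wT_facts hi hr).2.1, h, (wT_facts hi hs).2.1]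

theorem ngT_lt (r : ℕ) : ngT r < 48 := by
  show 47 - r < 48
  omega

theorem pair_ind (P : ℕ → ℕ → Prop) (hP : ∀ i < 4, ∀ r < 48, ∀ s < 48, P (wT i r) (wT i s) → P r s)
    (hb : ∀ q ∈ B0, P q.1 q.2) : ∀ r < 48, ∀ s < 48, P r s := by
  have hA := pA_true
  have hB := pB_true
  unfold pA at hA
  unfold pB at hB
  rw [List.all_eq_true] at hA hB
  have step1 : ∀ r0 ∈ [44, 47], r0 < 48 → ∀ m s, 48 - s ≤ m → s < 48 → P r0 s := by
    intro r0 hr0 hr0n m
    induction m with
    | zero => intro s hs hs'; omega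
    | succ m ih =>
      intro s hs hs'
      have h := hB r0 hr0
      rw [List.all_eq_true] at h
      have h := h s (List.mem_range.2 hs')
      rw [Bool.or_eq_true, List.any_eq_true, List.any_eq_true] at h
      rcases h with ⟨q, hq, h⟩ | ⟨i, hi, h⟩
      · rw [Bool.and_eq_true] at h
        have e1 := Nat.eq_of_beq_eq_true h.1
        have e2 := Nat.eq_of_beq_eq_true h.2
        rw [← e1, ← e2]
        exact hb q hq
      · rw [Bool.and_eq_true] at h
        have e1 := Nat.eq_of_beq_eq_true h.1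
        have e2 := Nat.blt_eq.mp h.2
        have hi := List.mem_range.1 hi
        apply hP i hi r0 hr0n s hs'
        rw [e1]
        exact ih _ (by omega) (wT_facts hi hs').1
  have step2 : ∀ m r, 48 - r ≤ m → r < 48 → ∀ s < 48, P r s := by
    intro m
    induction m with
    | zero => intro r hr hr'; omega
    | succ m ih =>
      intro r hr hr' s hs
      have h := hA r (List.mem_range.2 hr')
      rw [Bool.or_eq_true, Bool.or_eq_true, List.any_eq_true] at h
      rcases h with h | h | ⟨i, hi, h⟩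
      · have e := Nat.eq_of_beq_eq_true h
        subst e
        exact step1 44 (by simp) hr' _ s le_rfl hs
      · have e := Nat.eq_of_beq_eq_true h
        subst e
        exact step1 47 (by simp) hr' _ s le_rfl hs
      · have e2 := Nat.blt_eq.mp h
        have hi := List.mem_range.1 hi
        apply hP i hi r hr' s hs
        exact ih _ (by omega) (wT_facts hi hr').1 _ (wT_facts hi hs).1
  intro r hr s hs
  exact step2 _ r le_rfl hr s hs

theorem pr_nil {Q : Type*} [Group Q] (y : ℕ → Q) : pr y [] = 1 := rfl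
theorem pr_cons {Q : Type*} [Group Q] (y : ℕ → Q) (r : ℕ) (w : List ℕ) : pr y (r :: w) = y r * pr y w := by simp [pr]
theorem pr_append {Q : Type*} [Group Q] (y : ℕ → Q) (v w : List ℕ) : pr y (v ++ w) = pr y v * pr y w := by simp [pr]
theorem pr_map {Q R : Type*} [Group Q] [Group R] (f : Q →* R) (y : ℕ → Q) (w : List ℕ) : pr (fun r => f (y r)) w = f (pr y w) := by
  induction w with
  | nil => rw [pr_nil, pr_nil, map_one]
  | cons r w ih => rw [pr_cons, pr_cons, map_mul, ih]

section dft
variable {Q : Type*} [Group Q] (y : ℕ → Q)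

/-- the relation for a pair of roots -/
def Rel (r s : ℕ) : Prop := y s * y r = y r * y s * pr y (cwT r s)

theorem pr_conj (n : Q) (w : ℕ → ℕ) (L : List ℕ) (h : ∀ r ∈ L, n * y r * n⁻¹ = y (w r)) : n * pr y L * n⁻¹ = pr y (L.map w) := by
  unfold pr
  induction L with
  | nil => simp
  | cons r L ih =>
    rw [List.map_cons, List.prod_cons, List.map_cons, List.map_cons, List.prod_cons,
      ← ih (fun t ht => h t (List.mem_cons_of_mem _ ht)), ← h r (List.mem_cons_self ..)]
    group

variable {y}

theorem Rel_w {i r s : ℕ} (hi : i < 4) (hr : r < 48) (hs : s < 48) (h1 : s ≠ r) (h2 : s ≠ ngT r) {n : Q}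
    (hn : ∀ t < 48, n * y t * n⁻¹ = y (wT i t)) (h : Rel y (wT i r) (wT i s)) : Rel y r s := by
  obtain ⟨c1, c2⟩ := cw_facts hi hr hs h1 h2
  unfold Rel at h ⊢
  rw [c1, ← pr_conj y n (wT i) _ (fun t ht => hn t (c2 t ht)), ← hn r hr, ← hn s hs] at h
  have e : n * (y s * y r) * n⁻¹ = n * (y r * y s * pr y (cwT r s)) * n⁻¹ := by
    calc n * (y s * y r) * n⁻¹ = n * y s * n⁻¹ * (n * y r * n⁻¹) := by group
      _ = _ := h
      _ = _ := by group
  exact mul_left_cancel (mul_right_cancel e)

theorem ne_w {i r s : ℕ} (hi : i < 4) (hr : r < 48) (hs : s < 48) (h1 : s ≠ r) (h2 : s ≠ ngT r) :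
    wT i s ≠ wT i r ∧ wT i s ≠ ngT (wT i r) := by
  refine ⟨fun h => h1 (wT_inj hi hs hr h), fun h => h2 ?_⟩
  rw [← (wT_facts hi hr).2.2.1] at h
  exact wT_inj hi hs (ngT_lt r) h

/-- all relations follow from those of the representatives -/
theorem rel_ind (n : ℕ → Q) (hn : ∀ i < 4, ∀ t < 48, n i * y t * (n i)⁻¹ = y (wT i t))
    (hb : ∀ q ∈ B0, q.2 ≠ q.1 → q.2 ≠ ngT q.1 → Rel y q.1 q.2) : ∀ r < 48, ∀ s < 48, s ≠ r → s ≠ ngT r → Rel y r s := by
  apply pair_ind (fun r s => s ≠ r → s ≠ ngT r → Rel y r s)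
  · intro i hi r hr s hs h h1 h2
    obtain ⟨g1, g2⟩ := ne_w hi hr hs h1 h2
    exact Rel_w hi hr hs h1 h2 (hn i hi) (h g1 g2)
  · exact hb

end dft

end Cfsg.Agent.Lib.H13F4
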