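import Cfsg.Agent.Lib.H13F4L
import Cfsg.Agent.Lib.H13F4P

/-!
`F₄(2)`: checks of the relations in the 52-dimensional representation (helper13)
-/

set_option autoImplicit false

namespace Cfsg.Agent.Lib.H13F4

open Cfsg.Lie


def smp (i : ℕ) : ℕ := [33, 27, 25, 24].getD i 0

def nw0 (l : ℕ) : List ℕ := [l, ngT l, l]

def lchkA : Bool := (List.range 52).all fun r => ck3 [r, r] []
def lchkB : Bool := (List.range 4).all fun i => ck3 [Nat.add 48 i] (nw0 (smp i))
def lchkC (i : ℕ) : Bool := (List.range 48).all fun r => Nat.blt (wT i r) r || ck3 [Nat.add 48 i, r] [wT i r, Nat.add 48 i]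
def lchkD : Bool := B0.all fun q => Nat.beq q.1 q.2 || Nat.beq q.2 (ngT q.1) ||
  (ck3 [q.2, q.1] ([q.1, q.2] ++ cwT q.1 q.2) || ck3n [q.2, q.1] ([q.1, q.2] ++ cwT q.1 q.2))

set_option maxRecDepth 100000 in
theorem lchkA_true : lchkA = true := by decide +kernel
set_option maxRecDepth 100000 in
theorem lchkB_true : lchkB = true := by decide +kernel
set_option maxRecDepth 100000 in
theorem lchkC0 : lchkC 0 = true := by decide +kernel
set_option maxRecDepth 100000 in
theorem lchkC1 : lchkC 1 = true := by decide +kernel
set_option maxRecDepth 100000 in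
theorem lchkC2 : lchkC 2 = true := by decide +kernel
set_option maxRecDepth 100000 in
theorem lchkC3 : lchkC 3 = true := by decide +kernel
set_option maxRecDepth 100000 in
theorem lchkD_true : lchkD = true := by decide +kernel

end Cfsg.Agent.Lib.H13F4
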