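import Cfsg.Agent.Lib.H13F4M
import Cfsg.Agent.Lib.SchurSylow

/-!
`F₄(2)`: existence of a double cover (helper13)
-/

set_option autoImplicit false

namespace Cfsg.Agent.Lib.H13F4

open Cfsg.Lie Cfsg.Agent.Lib.SchurSylow
open scoped commutatorElement

abbrev GL52 := (M52)ˣ

open Classical in
noncomputable def Y (r : ℕ) : GL52 := if h : Mx r * Mx r = 1 then ⟨Mx r, Mx r, h, h⟩ else 1

theorem wm_nil : wm [] = 1 := rfl
theorem wm_cons (r : ℕ) (w : List ℕ) : wm (r :: w) = Mx r * wm w := by simp [wm]

theorem Mx_sq {r : ℕ} (hr : r < 52) : Mx r * Mx r = 1 := by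
  have h := lchkA_true
  unfold lchkA at h
  rw [List.all_eq_true] at h
  have h1 := ck3_sound (h r (List.mem_range.2 hr))
  rwa [wm_cons, wm_cons, wm_nil, mul_one] at h1

theorem Y_val {r : ℕ} (hr : r < 52) : ((Y r : GL52) : M52) = Mx r := by
  unfold Y
  rw [dif_pos (Mx_sq hr)]

theorem Y_sq {r : ℕ} (hr : r < 52) : Y r * Y r = 1 := by
  apply Units.ext
  rw [Units.val_mul, Y_val hr, Mx_sq hr]; rfl

theorem Y_inv {r : ℕ} (hr : r < 52) : (Y r)⁻¹ = Y r := inv_eq_of_mul_eq_one_right (Y_sq hr)

theorem pr_Y (w : List ℕ) (hw : ∀ r ∈ w, r < 52) : ((pr Y w : GL52) : M52) = wm w := by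
  induction w with
  | nil => rfl
  | cons r w ih =>
    rw [wm_cons, ← ih (fun t ht => hw t (List.mem_cons_of_mem _ ht)), ← Y_val (hw r (List.mem_cons_self ..))]
    simp [pr]

theorem Y_eq {w w' : List ℕ} (h : ck3 w w' = true) (hw : ∀ r ∈ w, r < 52) (hw' : ∀ r ∈ w', r < 52) : pr Y w = pr Y w' := by
  apply Units.ext
  rw [pr_Y w hw, pr_Y w' hw']; exact ck3_sound h

theorem Y_neg {w w' : List ℕ} (h : ck3n w w' = true) (hw : ∀ r ∈ w, r < 52) (hw' : ∀ r ∈ w', r < 52) : pr Y w = - pr Y w' := by
  apply Units.ext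
  rw [Units.val_neg, pr_Y w hw, pr_Y w' hw']; exact ck3n_sound h

attribute [local irreducible] Y Mx x

/-- equivariance -/
theorem Y_w {i r : ℕ} (hi : i < 4) (hr : r < 48) : Y (48 + i) * Y r * (Y (48 + i))⁻¹ = Y (wT i r) := by
  have hc : lchkC i = true := by
    interval_cases i
    · exact lchkC0
    · exact lchkC1
    · exact lchkC2
    · exact lchkC3
  unfold lchkC at hc
  rw [List.all_eq_true] at hc
  have key : ∀ r < 48, ¬ wT i r < r → Y (48 + i) * Y r = Y (wT i r) * Y (48 + i) := by
    intro r hr hlt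
    have h := hc r (List.mem_range.2 hr)
    rw [Bool.or_eq_true] at h
    rcases h with h | h
    · exact absurd (Nat.blt_eq.mp h) hlt
    · have hw := (wT_facts hi hr).1
      have h2 := Y_eq h (by
        intro t ht
        simp only [List.mem_cons, List.not_mem_nil, or_false] at ht
        rcases ht with rfl | rfl
        · show 48 + i < 52
          omega
        · omega) (by
        intro t ht
        simp only [List.mem_cons, List.not_mem_nil, or_false] at ht
        rcases ht with rfl | rfl
        · omega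
        · show 48 + i < 52
          omega)
      rw [pr_cons, pr_cons, pr_cons, pr_cons, pr_nil, mul_one, mul_one, show Nat.add 48 i = 48 + i from rfl] at h2
      exact h2
  have hn : (Y (48 + i))⁻¹ = Y (48 + i) := Y_inv (by omega)
  have hn2 : Y (48 + i) * Y (48 + i) = 1 := Y_sq (by omega)
  by_cases hlt : wT i r < r
  · obtain ⟨w1, w2, -, -⟩ := wT_facts hi hr
    have h := key (wT i r) w1 (by rw [w2]; omega)
    rw [w2] at h
    rw [hn]
    calc Y (48 + i) * Y r * Y (48 + i) = Y (48 + i) * (Y r * Y (48 + i)) := by rw [mul_assoc]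
      _ = Y (48 + i) * (Y (48 + i) * Y (wT i r)) := by rw [h]
      _ = _ := by rw [← mul_assoc, hn2, one_mul]
  · rw [key r hr hlt, mul_inv_cancel_right]

/-- the group of order two -/
noncomputable def Z2 : Subgroup GL52 := Subgroup.zpowers (-1)

theorem mem_Z2 {A : GL52} : A ∈ Z2 ↔ A = 1 ∨ A = -1 := by
  unfold Z2
  constructor
  · intro h
    rw [Subgroup.mem_zpowers_iff] at h
    obtain ⟨k, rfl⟩ := h
    rcases Int.even_or_odd k with hk | hk
    · left; exact hk.neg_one_zpow
    · right; exact hk.neg_one_zpow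
  · rintro (rfl | rfl)
    · exact one_mem _
    · exact Subgroup.mem_zpowers _

instance Z2_normal : Z2.Normal where
  conj_mem A hA B := by
    rw [mem_Z2] at hA ⊢
    rcases hA with rfl | rfl
    · left; group
    · right; rw [mul_neg, mul_one, neg_mul, mul_inv_cancel]

noncomputable def q2 : GL52 →* GL52 ⧸ Z2 := QuotientGroup.mk' Z2

theorem q2_neg (A : GL52) : q2 (-A) = q2 A := by
  unfold q2
  rw [QuotientGroup.mk'_apply, QuotientGroup.mk'_apply, QuotientGroup.eq]
  rw [mem_Z2]
  right
  have h : (-A)⁻¹ = -(A⁻¹) := inv_eq_of_mul_eq_one_right (by rw [neg_mul_neg, mul_inv_cancel])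
  rw [h, neg_mul, inv_mul_cancel]

theorem q2_ker {A : GL52} : q2 A = 1 ↔ A = 1 ∨ A = -1 := by
  rw [← mem_Z2, ← MonoidHom.mem_ker]
  unfold q2
  rw [QuotientGroup.ker_mk']

theorem exists_phi : ∃ φ : G →* GL52 ⧸ Z2, ∀ r < 48, φ (x r) = q2 (Y r) := by
  apply exists_hom (fun r => q2 (Y r))
  · intro r hr
    rw [← map_mul, Y_sq (by omega), map_one]
  · have := rel_ind (y := fun r => q2 (Y r)) (fun i => q2 (Y (48 + i))) (by
      intro i hi r hr
      rw [← map_mul, ← map_inv, ← map_mul, Y_w hi hr]) (by
      intro q hq h1 h2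
      have h := lchkD_true
      unfold lchkD at h
      rw [List.all_eq_true] at h
      have h3 := h q hq
      have hq1 : q.1 < 48 ∧ q.2 < 48 := by
        unfold B0 at hq
        simp only [List.mem_cons, List.not_mem_nil, or_false] at hq
        rcases hq with rfl | rfl | rfl | rfl | rfl | rfl | rfl | rfl | rfl | rfl | rfl | rfl | rfl | rfl | rfl | rfl <;> exact ⟨by norm_num, by norm_num⟩
      have hcw := (cw_facts (i := 0) (by norm_num) hq1.1 hq1.2 h1 h2).2
      simp only [Bool.or_eq_true] at h3
      have ha : ∀ r ∈ [q.2, q.1], r < 52 := by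
        intro r hr
        simp only [List.mem_cons, List.not_mem_nil, or_false] at hr
        rcases hr with rfl | rfl <;> omega
      have hb : ∀ r ∈ [q.1, q.2] ++ cwT q.1 q.2, r < 52 := by
        intro r hr
        rw [List.mem_append] at hr
        rcases hr with hr | hr
        · simp only [List.mem_cons, List.not_mem_nil, or_false] at hr
          rcases hr with rfl | rfl <;> omega
        · have := hcw r hr
          omega
      unfold Rel
      have e1 : q2 (Y q.2) * q2 (Y q.1) = q2 (pr Y [q.2, q.1]) := by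
        rw [pr_cons, pr_cons, pr_nil, mul_one, map_mul]
      have e2 : q2 (Y q.1) * q2 (Y q.2) * pr (fun r => q2 (Y r)) (cwT q.1 q.2) = q2 (pr Y ([q.1, q.2] ++ cwT q.1 q.2)) := by
        rw [pr_append, pr_cons, pr_cons, pr_nil, mul_one, map_mul, map_mul, pr_map]
      rw [e1, e2]
      rcases h3 with (h3 | h3) | (h3 | h3)
      · exact absurd (Nat.eq_of_beq_eq_true h3).symm h1
      · exact absurd (Nat.eq_of_beq_eq_true h3) h2
      · rw [Y_eq h3 ha hb]
      · rw [Y_neg h3 ha hb, q2_neg])
    exact this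

def cwd : List ℕ := [6, 44, 6, 44, 24, 46, 24, 46, 10, 40, 10, 40]

set_option maxRecDepth 100000 in
theorem cwd_x : chkW cwd [] = true := by decide +kernel
set_option maxRecDepth 100000 in
theorem cwd_y : ck3n cwd [] = true := by decide +kernel

theorem neg_one_ne : (-1 : GL52) ≠ 1 := by
  intro h
  have h1 : ((-1 : GL52) : M52) 0 0 = (1 : M52) 0 0 := by rw [h]; rfl
  rw [Units.val_neg, Units.val_one, Matrix.neg_apply, Matrix.one_apply_eq] at h1
  exact absurd h1 (by decide)

/-- there is a stem extension with kernel of order two -/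
theorem exists_stem : ∃ (Γ : Type) (_ : Group Γ) (_ : Finite Γ) (σ : Γ →* G), Cfsg.IsStemExtension σ ∧ Nat.card σ.ker = 2 := by
  obtain ⟨φ, hφ⟩ := exists_phi
  let E : Subgroup (G × GL52) := MonoidHom.eqLocus (φ.comp (MonoidHom.fst G GL52)) (q2.comp (MonoidHom.snd G GL52))
  have hE : ∀ p : G × GL52, p ∈ E ↔ φ p.1 = q2 p.2 := fun p => Iff.rfl
  let σ : E →* G := (MonoidHom.fst G GL52).comp E.subtype
  have hker : ∀ e : E, e ∈ σ.ker ↔ e = 1 ∨ (e : G × GL52) = (1, -1) := by
    intro e
    rw [MonoidHom.mem_ker]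
    constructor
    · intro h
      have h1 : (e : G × GL52).1 = 1 := h
      have h2 := (hE e).1 e.2
      rw [h1, map_one] at h2
      rcases q2_ker.1 h2.symm with h3 | h3
      · left; apply Subtype.ext; exact Prod.ext h1 h3
      · right; exact Prod.ext h1 h3
    · rintro (rfl | h)
      · exact map_one _
      · show (e : G × GL52).1 = 1
        rw [h]
  have hz : ((1, -1) : G × GL52) ∈ E := by
    rw [hE]
    show φ 1 = q2 (-1)
    rw [map_one, q2_neg, map_one]
  let z : E := ⟨(1, -1), hz⟩
  have hX : ∀ r < 48, ((x r, Y r) : G × GL52) ∈ E := by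
    intro r hr
    rw [hE]
    exact hφ r hr
  let X : ℕ → E := fun r => if h : r < 48 then ⟨(x r, Y r), hX r h⟩ else 1
  have hXv : ∀ r < 48, (X r : G × GL52) = (x r, Y r) := fun r hr => by simp only [X, dif_pos hr]
  have hpr : ∀ w : List ℕ, (∀ k ∈ w, k < 48) → ((pr X w : E) : G × GL52) = (pr x w, pr Y w) := by
    intro w hw
    induction w with
    | nil => rfl
    | cons a w ih =>
      rw [pr_cons, pr_cons, pr_cons, Subgroup.coe_mul, ih (fun k hk => hw k (List.mem_cons_of_mem _ hk)), hXv a (hw a List.mem_cons_self)]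
      rfl
  have hsq : ∀ r < 48, X r * X r = 1 := by
    intro r hr
    apply Subtype.ext
    rw [Subgroup.coe_mul, hXv r hr]
    have h2 : Y r * Y r = 1 := Y_sq (lt_trans hr (by norm_num))
    exact Prod.ext (x_sq r) h2
  have hcd : ∀ w : List ℕ, (∀ k ∈ w, k < 48) → ∀ a b, a < 48 → b < 48 → pr X w ∈ commutator E → pr X (a :: b :: a :: b :: w) ∈ commutator E := by
    intro w hw a b ha hb h
    rw [pr_cons, pr_cons, pr_cons, pr_cons, ← mul_assoc, ← mul_assoc, ← mul_assoc]
    apply mul_mem _ h
    have e1 : (X a)⁻¹ = X a := inv_eq_of_mul_eq_one_right (hsq a ha)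
    have e2 : (X b)⁻¹ = X b := inv_eq_of_mul_eq_one_right (hsq b hb)
    have e3 : X a * X b * X a * X b = ⁅X a, X b⁆ := by
      rw [commutatorElement_def, e1, e2]
    rw [e3, commutator_def]
    exact Subgroup.commutator_mem_commutator (Subgroup.mem_top _) (Subgroup.mem_top _)
  have hzc : z ∈ commutator E := by
    have h1 : pr X cwd ∈ commutator E := by
      unfold cwd
      apply hcd _ (by decide) _ _ (by norm_num) (by norm_num)
      apply hcd _ (by decide) _ _ (by norm_num) (by norm_num)
      apply hcd _ (by decide) _ _ (by norm_num) (by norm_num)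
      rw [pr_nil]; exact one_mem _
    have h2 : pr X cwd = z := by
      apply Subtype.ext
      rw [hpr cwd (by decide)]
      refine Prod.ext ?_ ?_
      · have := chkW_sound cwd_x
        rw [wv_nil] at this
        exact this
      · have := Y_neg cwd_y (by decide) (by decide)
        rw [pr_nil] at this
        exact this
    rwa [h2] at h1
  have hfin : Finite GL52 := inferInstance
  have hfG : Finite G := inferInstance
  refine ⟨E, inferInstance, inferInstance, σ, ⟨?_, ?_, ?_⟩, ?_⟩
  · intro g
    obtain ⟨A, hA⟩ := QuotientGroup.mk'_surjective Z2 (φ g)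
    exact ⟨⟨(g, A), (hE _).2 hA.symm⟩, rfl⟩
  · intro e he
    rw [Subgroup.mem_center_iff]
    intro f
    rcases (hker e).1 he with rfl | h
    · rw [mul_one, one_mul]
    · apply Subtype.ext
      rw [Subgroup.coe_mul, Subgroup.coe_mul, h]
      refine Prod.ext ?_ ?_
      · show (f : G × GL52).1 * 1 = 1 * (f : G × GL52).1
        rw [mul_one, one_mul]
      · show (f : G × GL52).2 * (-1) = (-1) * (f : G × GL52).2
        rw [mul_neg, neg_mul, mul_one, one_mul]
  · intro e he
    rcases (hker e).1 he with rfl | h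
    · exact one_mem _
    · rw [show e = z from Subtype.ext h]; exact hzc
  · have hzk : z ∈ σ.ker := (hker z).2 (Or.inr rfl)
    have hz1 : z ≠ 1 := by
      intro h
      have := congrArg (fun e : E => (e : G × GL52).2) h
      exact neg_one_ne this
    have hset : (σ.ker : Set E) = {1, z} := by
      ext e
      constructor
      · intro he
        rcases (hker e).1 he with rfl | h
        · exact Or.inl rfl
        · right; exact Subtype.ext h
      · rintro (rfl | rfl)
        · exact one_mem _
        · exact hzk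
    have : Nat.card σ.ker = Set.ncard ({1, z} : Set E) := by
      rw [← hset]; rfl
    rw [this, Set.ncard_pair hz1.symm]

end Cfsg.Agent.Lib.H13F4
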