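import Cfsg.Agent.Lib.StPres

/-!
`F₄(2)`: root elements over the field with two elements, fast computations with words (helper13)
-/

set_option autoImplicit false

namespace Cfsg.Agent.Lib.H13F4

open Cfsg.Lie Cfsg.Agent.Lib.ChevX Cfsg.Agent.Lib.ChevGood Cfsg.Agent.Lib.ChevRel Cfsg.Agent.Lib.StBase Cfsg.Agent.Lib.StKer

abbrev K := ZMod 2

noncomputable def gd : Good chevF4 := Cfsg.Agent.Lib.ChevOkF4.good

abbrev G : Type := ↥(chevF4.group K)

/-- root elements -/
noncomputable def x (r : ℕ) : G := ⟨xg chevF4 K r 1, Cfsg.Agent.Lib.ChevAuto.xg_mem gd _ _⟩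

def AT : List (List (ℕ × ℕ)) := [
  [(24, 2), (26, 4), (29, 8), (31, 16), (32, 32), (36, 128), (38, 256), (39, 512), (40, 2048), (42, 32768), (43, 65536), (44, 262144), (45, 2097152), (46, 8388608), (47, 1407374883553281), (51, 1)],
  [(23, 1), (25, 4), (28, 8), (30, 16), (32, 64), (35, 128), (37, 256), (39, 1024), (40, 4096), (41, 32768), (43, 131072), (44, 524288), (45, 4194304), (46, 3659174697238530), (47, 16777216), (50, 2), (51, 2)],
  [(21, 1), (22, 2), (27, 8), (30, 32), (31, 64), (34, 128), (37, 512), (38, 1024), (40, 8192), (41, 65536), (42, 131072), (44, 1048576), (45, 2533274790395908), (46, 33554432), (47, 67108864), (50, 4)],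
  [(33, 128), (34, 256), (35, 512), (36, 1024), (37, 2048), (38, 4096), (39, 8192), (40, 16384), (41, 262145), (42, 524290), (43, 1048580), (44, 562949953421320), (45, 134217744), (46, 268435488), (47, 536870976), (48, 8)],
  [(16, 1), (17, 2), (20, 8), (25, 32), (26, 64), (33, 256), (35, 2048), (36, 4096), (39, 16384), (41, 2097152), (42, 4194304), (43, 3096224743817232), (44, 134217728), (46, 1073741824), (47, 2147483648), (50, 16)],
  [(15, 1), (17, 4), (19, 8), (22, 16), (24, 64), (33, 512), (34, 2048), (36, 8192), (38, 16384), (41, 8388608), (42, 4222124650659872), (43, 33554432), (44, 268435456), (45, 1073741824), (47, 4294967296), (50, 32), (51, 32)],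
  [(15, 2), (16, 4), (18, 8), (21, 16), (23, 32), (33, 1024), (34, 4096), (35, 8192), (37, 16384), (41, 1970324836974656), (42, 16777216), (43, 67108864), (44, 536870912), (45, 2147483648), (46, 4294967296), (51, 64)],
  [(14, 8), (27, 256), (28, 512), (29, 1024), (30, 2049), (31, 4098), (32, 8196), (37, 262144), (38, 524288), (39, 1048576), (40, 844424930132096), (44, 8589934592), (45, 17179901952), (46, 34359803904), (47, 68719607808), (48, 128), (49, 128)],
  [(13, 8), (20, 128), (25, 513), (26, 1026), (28, 2048), (29, 4096), (32, 16400), (35, 262144), (36, 524288), (39, 281474976710912), (40, 134217728), (43, 8589967360), (44, 17179869184), (46, 137441050624), (47, 274882101248), (49, 256), (50, 256)],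
  [(12, 8), (19, 128), (22, 257), (24, 1028), (27, 2048), (29, 8192), (31, 16416), (34, 262144), (36, 1048576), (38, 281474976711168), (40, 268435456), (42, 8590000128), (44, 34359738368), (45, 137447342080), (47, 549789368320), (49, 512), (50, 512), (51, 512)],
  [(11, 8), (18, 128), (21, 258), (23, 516), (27, 4096), (28, 8192), (30, 16448), (34, 524288), (35, 1048576), (37, 281474976711680), (40, 536870912), (41, 8590065664), (44, 68719476736), (45, 274894684160), (46, 549822922752), (49, 1024), (51, 1024)],
  [(10, 8), (17, 129), (19, 256), (20, 512), (24, 4112), (26, 8224), (29, 16384), (33, 262144), (36, 844424930134016), (38, 134217728), (39, 268435456), (42, 17181966336), (43, 34368126976), (44, 137438953472), (47, 1100585369600), (48, 2048), (49, 2048), (51, 2048)],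
  [(9, 8), (16, 130), (18, 256), (20, 1024), (23, 2064), (25, 8256), (28, 16384), (33, 524288), (35, 844424930136064), (37, 134217728), (39, 536870912), (41, 17184063488), (43, 68736253952), (44, 274877906944), (46, 1101659111424), (48, 4096), (49, 4096), (50, 4096), (51, 4096)],
  [(8, 8), (15, 132), (18, 512), (19, 1024), (21, 2080), (22, 4160), (27, 16384), (33, 1048576), (34, 844424930140160), (37, 268435456), (38, 536870912), (41, 34393292800), (42, 68786585600), (44, 549755813888), (45, 1103806595072), (48, 8192), (49, 8192), (50, 8192)],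
  [(7, 8), (15, 272), (16, 544), (17, 1088), (18, 2048), (19, 4096), (20, 8192), (33, 281474976727040), (34, 134217728), (35, 268435456), (36, 536870912), (41, 138512695296), (42, 277025390592), (43, 554050781184), (44, 1099511627776), (49, 16384)],
  [(5, 1), (6, 2), (13, 128), (14, 256), (25, 65536), (26, 131072), (28, 262144), (29, 524288), (30, 2097152), (31, 4194304), (32, 2814749767139328), (39, 8589934592), (40, 17179869184), (46, 2199023255552), (47, 4398046511104), (50, 32768)],
  [(4, 1), (6, 4), (12, 128), (14, 512), (22, 32768), (24, 131072), (27, 262144), (29, 1048576), (30, 8388608), (31, 3940649674014720), (32, 33554432), (38, 8589934592), (40, 34359738368), (45, 2199023255552), (47, 8796093022208), (50, 65536), (51, 65536)],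
  [(4, 2), (5, 4), (11, 128), (14, 1024), (21, 32768), (23, 65536), (27, 524288), (28, 1048576), (30, 1688849860395008), (31, 16777216), (32, 67108864), (37, 8589934592), (40, 68719476736), (45, 4398046511104), (46, 8796093022208), (51, 131072)],
  [(6, 9), (10, 128), (12, 256), (13, 512), (14, 2048), (24, 557056), (26, 1114112), (29, 562949953683456), (31, 136314880), (32, 276824064), (36, 8589934592), (38, 17179869184), (39, 34359738368), (40, 137438953472), (47, 19791209299968), (48, 262144), (51, 262144)],
  [(5, 10), (9, 128), (11, 256), (13, 1024), (14, 4096), (23, 294912), (25, 1179648), (28, 562949953945600), (30, 138412032), (32, 553648128), (35, 8589934592), (37, 17179869184), (39, 68719476736), (40, 274877906944), (46, 21990232555520), (48, 524288), (50, 524288), (51, 524288)],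
  [(4, 12), (8, 128), (11, 512), (12, 1024), (14, 8192), (21, 327680), (22, 655360), (27, 562949954469888), (30, 301989888), (31, 603979776), (34, 8589934592), (37, 34359738368), (38, 68719476736), (40, 549755813888), (45, 26388279066624), (48, 1048576), (50, 1048576)],
  [(2, 1), (6, 16), (10, 256), (13, 2048), (17, 32768), (20, 262144), (24, 4194304), (25, 8388608), (26, 3377699722625024), (29, 134217728), (32, 1073741824), (36, 17179869184), (39, 137438953472), (43, 2199023255552), (47, 35184372088832), (50, 2097152), (51, 2097152)],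
  [(2, 2), (5, 16), (9, 256), (13, 4096), (16, 32768), (20, 524288), (23, 2097152), (25, 1125899911036928), (26, 16777216), (28, 134217728), (32, 2147483648), (35, 17179869184), (39, 274877906944), (43, 4398046511104), (46, 35184372088832), (51, 4194304)],
  [(1, 1), (6, 32), (10, 512), (12, 2048), (17, 65536), (19, 262144), (22, 2097152), (24, 2251799822073856), (26, 33554432), (29, 268435456), (31, 1073741824), (36, 34359738368), (38, 137438953472), (42, 2199023255552), (47, 70368744177664), (50, 8388608)],
  [(0, 2), (5, 64), (9, 1024), (11, 4096), (16, 131072), (18, 524288), (21, 4194304), (23, 2251799830462464), (25, 67108864), (28, 536870912), (30, 2147483648), (35, 68719476736), (37, 274877906944), (41, 4398046511104), (46, 140737488355328), (50, 16777216)],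
  [(1, 4), (4, 32), (8, 512), (12, 8192), (15, 65536), (19, 1048576), (21, 8388608), (22, 1125899940397056), (24, 67108864), (27, 268435456), (31, 4294967296), (34, 34359738368), (38, 549755813888), (42, 8796093022208), (45, 70368744177664), (51, 33554432)],
  [(0, 4), (4, 64), (8, 1024), (11, 8192), (15, 131072), (18, 1048576), (21, 3377699787636736), (22, 16777216), (23, 33554432), (27, 536870912), (30, 4294967296), (34, 68719476736), (37, 549755813888), (41, 8796093022208), (45, 140737488355328), (50, 67108864), (51, 67108864)],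
  [(2, 24), (7, 256), (9, 2048), (10, 4096), (13, 16384), (16, 2359296), (17, 4718592), (20, 562950087639040), (25, 1342177280), (26, 2684354560), (33, 17179869184), (35, 137438953472), (36, 274877906944), (39, 1099511627776), (43, 52776558133248), (48, 134217728), (50, 134217728)],
  [(1, 40), (7, 512), (8, 2048), (10, 8192), (12, 16384), (15, 8650752), (17, 34603008), (19, 562950221856768), (22, 1207959552), (24, 4831838208), (33, 34359738368), (34, 137438953472), (36, 549755813888), (38, 1099511627776), (42, 87960930222080), (48, 268435456), (50, 268435456), (51, 268435456)],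
  [(0, 72), (7, 1024), (8, 4096), (9, 8192), (11, 16384), (15, 17301504), (16, 68157440), (18, 562950490292224), (21, 2281701376), (23, 4563402752), (33, 68719476736), (34, 274877906944), (35, 549755813888), (37, 1099511627776), (41, 158329674399744), (48, 536870912), (51, 536870912)],
  [(1, 16), (2, 32), (7, 2048), (10, 16384), (15, 2097152), (16, 8388608), (17, 1688850934005760), (19, 134217728), (20, 268435456), (24, 2147483648), (26, 4294967296), (33, 137438953472), (36, 1099511627776), (42, 35184372088832), (43, 70368744177664), (51, 1073741824)],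
  [(0, 16), (2, 64), (7, 4096), (9, 16384), (15, 4194304), (16, 3940651821432832), (17, 16777216), (18, 134217728), (20, 536870912), (23, 1073741824), (25, 4294967296), (33, 274877906944), (35, 1099511627776), (41, 35184372088832), (43, 140737488355328), (50, 2147483648), (51, 2147483648)],
  [(0, 32), (1, 64), (7, 8192), (8, 16384), (15, 2814754062073856), (16, 33554432), (17, 67108864), (18, 268435456), (19, 536870912), (21, 1073741824), (22, 2147483648), (33, 549755813888), (34, 1099511627776), (41, 70368744177664), (42, 140737488355328), (50, 4294967296)],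
  [(3, 128), (4, 33024), (5, 66048), (6, 132096), (11, 262144), (12, 524288), (13, 1048576), (14, 281483566645248), (27, 17179869184), (28, 34359738368), (29, 68719476736), (30, 2336462209024), (31, 4672924418048), (32, 9345848836096), (40, 17592186044416), (49, 8589934592)],
  [(2, 32896), (3, 256), (5, 2099200), (6, 4198400), (9, 262144), (10, 524288), (13, 844442110001152), (14, 134217728), (20, 8589934592), (25, 2233382993920), (26, 4466765987840), (28, 137438953472), (29, 274877906944), (32, 36283883716608), (39, 17592186044416), (48, 17179869184), (49, 17179869184), (50, 17179869184)],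
  [(1, 65664), (3, 512), (4, 8390656), (6, 33562624), (8, 262144), (10, 1048576), (12, 844459289870336), (14, 268435456), (19, 8589934592), (22, 2216203124736), (24, 8864812498944), (27, 137438953472), (29, 549755813888), (31, 71468255805440), (38, 17592186044416), (48, 34359738368), (49, 34359738368), (50, 34359738368), (51, 34359738368)],
  [(0, 131200), (3, 1024), (4, 16781312), (5, 67117056), (8, 524288), (9, 1048576), (11, 844493649608704), (14, 536870912), (18, 8589934592), (21, 4415226380288), (23, 8830452760576), (27, 274877906944), (28, 549755813888), (30, 141836999983104), (37, 17592186044416), (48, 68719476736), (49, 68719476736), (51, 68719476736)],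
  [(1, 2097408), (2, 8389120), (3, 2048), (6, 1073758208), (7, 262144), (10, 281612415664128), (12, 134217728), (13, 268435456), (17, 2207613190144), (19, 17179869184), (20, 34359738368), (24, 35459249995776), (26, 70918499991552), (29, 1099511627776), (36, 17592186044416), (49, 137438953472), (51, 137438953472)],
  [(0, 4194560), (2, 16778240), (3, 4096), (5, 2147500032), (7, 524288), (9, 281749854617600), (11, 134217728), (13, 536870912), (16, 4406636445696), (18, 17179869184), (20, 68719476736), (23, 35321811042304), (25, 141287244169216), (28, 1099511627776), (35, 17592186044416), (49, 274877906944), (50, 274877906944), (51, 274877906944)],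
  [(0, 33554944), (1, 67109888), (3, 8192), (4, 4294983680), (7, 1048576), (8, 282024732524544), (11, 268435456), (12, 536870912), (15, 8804682956800), (18, 34359738368), (19, 68719476736), (21, 70506183131136), (22, 141012366262272), (27, 1099511627776), (34, 17592186044416), (49, 549755813888), (50, 549755813888)],
  [(0, 1073743872), (1, 2147487744), (2, 4294975488), (3, 16384), (7, 845524441759744), (8, 134217728), (9, 268435456), (10, 536870912), (15, 35201551958016), (16, 70403103916032), (17, 140806207832064), (18, 137438953472), (19, 274877906944), (20, 549755813888), (33, 17592186044416), (48, 1099511627776), (49, 1099511627776)],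
  [(1, 32768), (2, 65536), (3, 262144), (4, 2097152), (5, 8388608), (6, 1972523860230144), (10, 8589934592), (12, 17179869184), (13, 34359738368), (14, 137438953472), (24, 4398046511104), (26, 8796093022208), (29, 17592186044416), (31, 35184372088832), (32, 70368744177664), (51, 2199023255552)],
  [(0, 32768), (2, 131072), (3, 524288), (4, 4194304), (5, 4226522697170944), (6, 16777216), (9, 8589934592), (11, 17179869184), (13, 68719476736), (14, 274877906944), (23, 2199023255552), (25, 8796093022208), (28, 17592186044416), (30, 35184372088832), (32, 140737488355328), (50, 4398046511104), (51, 4398046511104)],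
  [(0, 65536), (1, 131072), (3, 1048576), (4, 3105020836839424), (5, 33554432), (6, 67108864), (8, 8589934592), (11, 34359738368), (12, 68719476736), (14, 549755813888), (21, 2199023255552), (22, 4398046511104), (27, 17592186044416), (30, 70368744177664), (31, 140737488355328), (50, 8796093022208)],
  [(0, 2199023517696), (1, 4398047035392), (2, 8796094070784), (3, 580542139465728), (4, 35184506306560), (5, 70369012613120), (6, 140738025226240), (7, 8589934592), (8, 17179869184), (9, 34359738368), (10, 68719476736), (11, 137438953472), (12, 274877906944), (13, 549755813888), (14, 1099511627776), (48, 17592186044416)],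
  [(0, 2097152), (1, 4194304), (2, 2568459162484736), (3, 134217728), (5, 1073741824), (6, 2147483648), (7, 17179869184), (9, 137438953472), (10, 274877906944), (13, 1099511627776), (16, 2199023255552), (17, 4398046511104), (20, 17592186044416), (25, 70368744177664), (26, 140737488355328), (50, 35184372088832)],
  [(0, 8388608), (1, 3729543441416192), (2, 33554432), (3, 268435456), (4, 1073741824), (6, 4294967296), (7, 34359738368), (8, 137438953472), (10, 549755813888), (12, 1099511627776), (15, 2199023255552), (17, 8796093022208), (19, 17592186044416), (22, 35184372088832), (24, 140737488355328), (50, 70368744177664), (51, 70368744177664)],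
  [(0, 1548112371908608), (1, 16777216), (2, 67108864), (3, 536870912), (4, 2147483648), (5, 4294967296), (7, 68719476736), (8, 274877906944), (9, 549755813888), (11, 1099511627776), (15, 4398046511104), (16, 8796093022208), (18, 17592186044416), (21, 35184372088832), (23, 70368744177664), (51, 140737488355328)]]

def CWT : List (List (List ℕ)) := [
  [[], [], [], [], [], [], [], [], [], [], [], [], [], [], [], [], [], [], [], [], [], [], [], [], [1], [], [2], [], [], [3, 6], [], [4], [5], [], [], [], [7, 17], [], [8, 22], [9, 25], [11, 30], [], [15], [16], [18, 41], [21], [23], []],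
  [[], [], [], [], [], [], [], [], [], [], [], [], [], [], [], [], [], [], [], [], [], [], [], [0], [], [2], [], [], [3, 5], [], [4], [], [6], [], [], [7, 16], [], [8, 21], [], [10, 26], [12, 31], [15], [], [17], [19, 42], [22], [], [24]],
  [[], [], [], [], [], [], [], [], [], [], [], [], [], [], [], [], [], [], [], [], [], [0], [1], [], [], [], [], [3, 4], [], [], [5], [6], [], [], [7, 15], [], [], [9, 23], [10, 24], [], [13, 32], [16], [17], [], [20, 43], [], [25], [26]],
  [[], [], [], [], [], [], [], [], [], [], [], [], [], [], [], [], [], [], [], [], [], [], [], [], [], [], [], [], [], [], [], [], [], [7], [8], [9], [10], [11], [12], [13], [14], [18, 0], [19, 1], [20, 2], [], [27, 4], [28, 5], [29, 6]],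
  [[], [], [], [], [], [], [], [], [], [], [], [], [], [], [], [], [0], [1], [], [], [3, 2], [], [], [], [], [5], [6], [], [], [], [], [], [], [8, 15], [], [11, 23], [12, 24], [], [], [14, 32], [], [21], [22], [], [27, 45], [], [30], [31]],
  [[], [], [], [], [], [], [], [], [], [], [], [], [], [], [], [0], [], [2], [], [3, 1], [], [], [4], [], [6], [], [], [], [], [], [], [], [], [9, 16], [11, 21], [], [13, 26], [], [14, 31], [], [], [23], [], [25], [28, 46], [30], [], [32]],
  [[], [], [], [], [], [], [], [], [], [], [], [], [], [], [], [1], [2], [], [3, 0], [], [], [4], [], [5], [], [], [], [], [], [], [], [], [], [10, 17], [12, 22], [13, 25], [], [14, 30], [], [], [], [], [24], [26], [29, 47], [31], [32], []],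
  [[], [], [], [], [], [], [], [], [], [], [], [], [], [], [3], [], [], [], [], [], [], [], [], [], [], [], [], [8], [9], [10], [11, 0], [12, 1], [13, 2], [], [], [], [], [18], [19], [20], [], [], [], [], [33], [34, 15], [35, 16], [36, 17]],
  [[], [], [], [], [], [], [], [], [], [], [], [], [], [3], [], [], [], [], [], [], [7], [], [], [], [], [9, 0], [10, 1], [], [11], [12], [], [], [14, 4], [], [], [18], [19], [], [], [], [27], [], [], [33, 15], [34], [], [37, 21], [38, 22]],
  [[], [], [], [], [], [], [], [], [], [], [], [], [3], [], [], [], [], [], [], [7], [], [], [8, 0], [], [10, 2], [], [], [11], [], [13], [], [14, 5], [], [], [18], [], [20], [], [], [], [28], [], [33, 16], [], [35], [37, 23], [], [39, 25]],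
  [[], [], [], [], [], [], [], [], [], [], [], [3], [], [], [], [], [], [], [7], [], [], [8, 1], [], [9, 2], [], [], [], [12], [13], [], [14, 6], [], [], [], [19], [20], [], [], [], [], [29], [33, 17], [], [], [36], [38, 24], [39, 26], []],
  [[], [], [], [], [], [], [], [], [], [], [3], [], [], [], [], [], [], [7, 0], [], [8], [9], [], [], [], [12, 4], [], [13, 5], [], [], [14], [], [], [], [18], [], [], [], [], [27], [28], [], [], [34, 21], [35, 23], [37], [], [], [40, 30]],
  [[], [], [], [], [], [], [], [], [], [3], [], [], [], [], [], [], [7, 1], [], [8], [], [10], [], [], [11, 4], [], [13, 6], [], [], [14], [], [], [], [], [19], [], [], [], [27], [], [29], [], [34, 22], [], [36, 24], [38], [], [40, 31], []],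
  [[], [], [], [], [], [], [], [], [3], [], [], [], [], [], [], [7, 2], [], [], [9], [10], [], [11, 5], [12, 6], [], [], [], [], [14], [], [], [], [], [], [20], [], [], [], [28], [29], [], [], [35, 25], [36, 26], [], [39], [40, 32], [], []],
  [[], [], [], [], [], [], [], [3], [], [], [], [], [], [], [], [8, 4], [9, 5], [10, 6], [11], [12], [13], [], [], [], [], [], [], [], [], [], [], [], [], [], [27], [28], [29], [], [], [], [], [37, 30], [38, 31], [39, 32], [40], [], [], []],
  [[], [], [], [], [], [0], [1], [], [], [], [], [], [], [7, 2], [8, 4], [], [], [], [], [], [], [], [], [], [], [16], [17], [], [18, 23], [19, 24], [21], [22], [], [], [], [], [], [], [], [33, 43], [34, 45], [], [], [], [], [], [41], [42]],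
  [[], [], [], [], [0], [], [2], [], [], [], [], [], [7, 1], [], [9, 5], [], [], [], [], [], [], [], [15], [], [17], [], [], [18, 21], [], [20, 26], [23], [], [25], [], [], [], [], [], [33, 42], [], [35, 46], [], [], [], [], [41], [], [43]],
  [[], [], [], [], [1], [2], [], [], [], [], [], [7, 0], [], [], [10, 6], [], [], [], [], [], [], [15], [], [16], [], [], [], [19, 22], [20, 25], [], [], [24], [26], [], [], [], [], [33, 41], [], [], [36, 47], [], [], [], [], [42], [43], []],
  [[], [], [], [], [], [], [3, 0], [], [], [], [7], [], [8], [9], [11], [], [], [], [], [], [], [], [], [], [19, 15], [], [20, 16], [], [], [], [], [27, 21], [28, 23], [], [], [], [33], [], [34], [35], [37], [], [], [], [], [], [], [44, 41]],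
  [[], [], [], [], [], [3, 1], [], [], [], [7], [], [8], [], [10], [12], [], [], [], [], [], [], [], [], [18, 15], [], [20, 17], [], [], [], [], [27, 22], [], [29, 24], [], [], [33], [], [34], [], [36], [38], [], [], [], [], [], [44, 42], []],
  [[], [], [], [], [3, 2], [], [], [], [7], [], [], [9], [10], [], [13], [], [], [], [], [], [], [18, 16], [19, 17], [], [], [], [], [], [], [], [28, 25], [29, 26], [], [], [33], [], [], [35], [36], [], [39], [], [], [], [], [44, 43], [], []],
  [[], [], [0], [], [], [], [4], [], [], [], [8, 1], [], [], [11, 5], [], [], [], [15], [], [], [18, 16], [], [], [], [22], [23], [], [], [], [27, 31], [], [], [30], [], [], [], [34, 42], [], [], [37, 46], [], [], [], [41], [], [], [], [45]],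
  [[], [], [1], [], [], [4], [], [], [], [8, 0], [], [], [], [12, 6], [], [], [15], [], [], [], [19, 17], [], [], [21], [], [], [24], [], [27, 30], [], [], [], [31], [], [], [34, 41], [], [], [], [38, 47], [], [], [], [42], [], [], [45], []],
  [[], [0], [], [], [], [], [5], [], [], [], [9, 2], [], [11, 4], [], [], [], [], [16], [], [18, 15], [], [], [21], [], [], [], [25], [], [], [28, 32], [], [30], [], [], [], [], [35, 43], [], [37, 45], [], [], [], [41], [], [], [], [], [46]],
  [[1], [], [], [], [], [6], [], [], [], [10, 2], [], [12, 4], [], [], [], [], [17], [], [19, 15], [], [], [22], [], [], [], [26], [], [], [29, 32], [], [31], [], [], [], [], [36, 43], [], [38, 45], [], [], [], [42], [], [], [], [], [47], []],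
  [[], [2], [], [], [5], [], [], [], [9, 0], [], [], [], [13, 6], [], [], [16], [], [], [], [20, 17], [], [23], [], [], [26], [], [], [28, 30], [], [], [], [32], [], [], [35, 41], [], [], [], [39, 47], [], [], [], [43], [], [], [46], [], []],
  [[2], [], [], [], [6], [], [], [], [10, 1], [], [], [13, 5], [], [], [], [17], [], [], [20, 16], [], [], [], [24], [25], [], [], [], [29, 31], [], [], [32], [], [], [], [36, 42], [], [], [39, 46], [], [], [], [43], [], [], [], [47], [], []],
  [[], [], [3, 4], [], [], [], [], [8], [], [11], [12], [], [], [14], [], [], [18, 21], [19, 22], [], [], [], [], [], [], [], [28, 30], [29, 31], [], [], [], [], [], [], [34], [], [37], [38], [], [], [40], [], [], [], [44, 45], [], [], [], []],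
  [[], [3, 5], [], [], [], [], [], [9], [11], [], [13], [], [14], [], [], [18, 23], [], [20, 25], [], [], [], [], [27, 30], [], [29, 32], [], [], [], [], [], [], [], [], [35], [37], [], [39], [], [40], [], [], [], [44, 46], [], [], [], [], []],
  [[3, 6], [], [], [], [], [], [], [10], [12], [13], [], [14], [], [], [], [19, 24], [20, 26], [], [], [], [], [27, 31], [], [28, 32], [], [], [], [], [], [], [], [], [], [36], [38], [39], [], [40], [], [], [], [44, 47], [], [], [], [], [], []],
  [[], [4], [5], [], [], [], [], [11, 0], [], [], [14, 6], [], [], [], [], [21], [23], [], [], [27, 22], [28, 25], [], [], [], [31], [], [32], [], [], [], [], [], [], [37, 41], [], [], [40, 47], [], [], [], [], [], [45], [46], [], [], [], []],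
  [[4], [], [6], [], [], [], [], [12, 1], [], [14, 5], [], [], [], [], [], [22], [], [24], [27, 21], [], [29, 26], [], [], [30], [], [32], [], [], [], [], [], [], [], [38, 42], [], [40, 46], [], [], [], [], [], [45], [], [47], [], [], [], []],
  [[5], [6], [], [], [], [], [], [13, 2], [14, 4], [], [], [], [], [], [], [], [25], [26], [28, 23], [29, 24], [], [30], [31], [], [], [], [], [], [], [], [], [], [], [39, 43], [40, 45], [], [], [], [], [], [], [46], [47], [], [], [], [], []],
  [[], [], [], [7], [8, 15], [9, 16], [10, 17], [], [], [], [], [18], [19], [20], [], [], [], [], [], [], [], [], [], [], [], [], [], [34], [35], [36], [37, 41], [38, 42], [39, 43], [], [], [], [], [], [], [], [44], [], [], [], [], [], [], []],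
  [[], [], [7, 15], [8], [], [11, 21], [12, 22], [], [], [18], [19], [], [], [], [27], [], [], [], [], [], [33], [], [], [], [], [35, 41], [36, 42], [], [37], [38], [], [], [40, 45], [], [], [], [], [], [], [44], [], [], [], [], [], [], [], []],
  [[], [7, 16], [], [9], [11, 23], [], [13, 25], [], [18], [], [20], [], [], [], [28], [], [], [], [], [33], [], [], [34, 41], [], [36, 43], [], [], [37], [], [39], [], [40, 46], [], [], [], [], [], [], [44], [], [], [], [], [], [], [], [], []],
  [[7, 17], [], [], [10], [12, 24], [13, 26], [], [], [19], [20], [], [], [], [], [29], [], [], [], [33], [], [], [34, 42], [], [35, 43], [], [], [], [38], [39], [], [40, 47], [], [], [], [], [], [], [44], [], [], [], [], [], [], [], [], [], []],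
  [[], [8, 21], [9, 23], [11], [], [], [14, 30], [18], [], [], [], [], [27], [28], [], [], [], [33, 41], [], [34], [35], [], [], [], [38, 45], [], [39, 46], [], [], [40], [], [], [], [], [], [], [44], [], [], [], [], [], [], [], [], [], [], []],
  [[8, 22], [], [10, 24], [12], [], [14, 31], [], [19], [], [], [], [27], [], [29], [], [], [33, 42], [], [34], [], [36], [], [], [37, 45], [], [39, 47], [], [], [40], [], [], [], [], [], [], [44], [], [], [], [], [], [], [], [], [], [], [], []],
  [[9, 25], [10, 26], [], [13], [14, 32], [], [], [20], [], [], [], [28], [29], [], [], [33, 43], [], [], [35], [36], [], [37, 46], [38, 47], [], [], [], [], [40], [], [], [], [], [], [], [44], [], [], [], [], [], [], [], [], [], [], [], [], []],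
  [[11, 30], [12, 31], [13, 32], [14], [], [], [], [], [27], [28], [29], [], [], [], [], [34, 45], [35, 46], [36, 47], [37], [38], [39], [], [], [], [], [], [], [], [], [], [], [], [], [44], [], [], [], [], [], [], [], [], [], [], [], [], [], []],
  [[], [15], [16], [18, 0], [21], [23], [], [], [], [], [33, 17], [], [34, 22], [35, 25], [37, 30], [], [], [], [], [], [], [], [], [], [42], [], [43], [], [], [44, 47], [], [45], [46], [], [], [], [], [], [], [], [], [], [], [], [], [], [], []],
  [[15], [], [17], [19, 1], [22], [], [24], [], [], [33, 16], [], [34, 21], [], [36, 26], [38, 31], [], [], [], [], [], [], [], [], [41], [], [43], [], [], [44, 46], [], [45], [], [47], [], [], [], [], [], [], [], [], [], [], [], [], [], [], []],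
  [[16], [17], [], [20, 2], [], [25], [26], [], [33, 15], [], [], [35, 23], [36, 24], [], [39, 32], [], [], [], [], [], [], [41], [42], [], [], [], [], [44, 45], [], [], [46], [47], [], [], [], [], [], [], [], [], [], [], [], [], [], [], [], []],
  [[18, 41], [19, 42], [20, 43], [], [27, 45], [28, 46], [29, 47], [33], [34], [35], [36], [37], [38], [39], [40], [], [], [], [], [], [], [], [], [], [], [], [], [], [], [], [], [], [], [], [], [], [], [], [], [], [], [], [], [], [], [], [], []],
  [[21], [22], [], [27, 4], [], [30], [31], [34, 15], [], [37, 23], [38, 24], [], [], [40, 32], [], [], [41], [42], [], [], [44, 43], [], [], [], [], [46], [47], [], [], [], [], [], [], [], [], [], [], [], [], [], [], [], [], [], [], [], [], []],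
  [[23], [], [25], [28, 5], [30], [], [32], [35, 16], [37, 21], [], [39, 26], [], [40, 31], [], [], [41], [], [43], [], [44, 42], [], [], [45], [], [47], [], [], [], [], [], [], [], [], [], [], [], [], [], [], [], [], [], [], [], [], [], [], []],
  [[], [24], [26], [29, 6], [31], [32], [], [36, 17], [38, 22], [39, 25], [], [40, 30], [], [], [], [42], [43], [], [44, 41], [], [], [45], [], [46], [], [], [], [], [], [], [], [], [], [], [], [], [], [], [], [], [], [], [], [], [], [], [], []]]

def WT : List (List ℕ) := [[0, 1, 2, 7, 15, 16, 17, 3, 8, 9, 10, 18, 19, 20, 33, 4, 5, 6, 11, 12, 13, 21, 22, 23, 24, 25, 26, 34, 35, 36, 41, 42, 43, 14, 27, 28, 29, 37, 38, 39, 44, 30, 31, 32, 40, 45, 46, 47], [0, 1, 4, 3, 2, 5, 6, 8, 7, 11, 12, 9, 10, 14, 13, 15, 21, 22, 18, 19, 27, 16, 17, 23, 24, 30, 31, 20, 28, 29, 25, 26, 32, 34, 33, 37, 38, 35, 36, 40, 39, 41, 42, 45, 44, 43, 46, 47], [0, 2, 1, 3, 5, 4, 6, 7, 9, 8, 10, 11, 13, 12, 14, 16, 15, 17, 18, 20, 19, 23, 25, 21, 26, 22, 24, 28, 27, 29, 30, 32, 31, 33, 35, 34, 36, 37, 39, 38, 40, 41, 43, 42, 44, 46, 45, 47],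 [1, 0, 2, 3, 4, 6, 5, 7, 8, 10, 9, 12, 11, 13, 14, 15, 17, 16, 19, 18, 20, 22, 21, 24, 23, 26, 25, 27, 29, 28, 31, 30, 32, 33, 34, 36, 35, 38, 37, 39, 40, 42, 41, 43, 44, 45, 47, 46]]

def LT : List Bool := [true, true, true, false, true, true, true, false, false, false, false, false, false, false, false, true, true, true, false, false, false, true, true, true, true, true, true, false, false, false, true, true, true, false, false, false, false, false, false, false, false, true, true, true, false, true, true, true]

/-! ### bit vectors -/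

def bit (v i : ℕ) : K := if v.testBit i then 1 else 0

theorem bit_xor (v w i : ℕ) : bit (v ^^^ w) i = bit v i + bit w i := by
  unfold bit
  rw [Nat.testBit_xor]
  cases v.testBit i <;> cases w.testBit i <;> simp <;> decide

theorem bit_zero (i : ℕ) : bit 0 i = 0 := by simp [bit]

theorem bit_one (j i : ℕ) : bit (2 ^ j) i = if i = j then 1 else 0 := by
  unfold bit
  rw [Nat.testBit_two_pow]
  by_cases h : j = i
  · subst h; simp
  · have h' : ¬ i = j := fun h' => h h'.symm
    simp [h, h']

def act (L : List (ℕ × ℕ)) (v : ℕ) : ℕ := L.foldr (fun q a => Nat.xor (Nat.mul q.2 (Nat.land (Nat.shiftRight v q.1) 1)) a) v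

theorem land_one (v j : ℕ) : Nat.land (Nat.shiftRight v j) 1 = (v.testBit j).toNat := by
  rw [Nat.toNat_testBit]
  change (v >>> j) &&& 1 = _
  rw [Nat.and_one_is_mod, Nat.shiftRight_eq_div_pow]

theorem bit_act (L : List (ℕ × ℕ)) (v i : ℕ) : bit (act L v) i = bit v i + (L.map fun q => bit v q.1 * bit q.2 i).sum := by
  unfold act
  induction L with
  | nil => simp
  | cons q L ih =>
    rw [List.foldr_cons, List.map_cons, List.sum_cons]
    change bit (Nat.mul q.2 (Nat.land (Nat.shiftRight v q.1) 1) ^^^ _) i = _
    rw [bit_xor, ih, land_one]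
    have h1 : bit (Nat.mul q.2 (v.testBit q.1).toNat) i = bit v q.1 * bit q.2 i := by
      by_cases h : v.testBit q.1 = true
      · have : bit v q.1 = 1 := by simp [bit, h]
        rw [this, h, one_mul]
        change bit (q.2 * 1) i = _
        rw [mul_one]
      · rw [Bool.not_eq_true] at h
        have : bit v q.1 = 0 := by simp [bit, h]
        rw [this, h, zero_mul]
        change bit (q.2 * 0) i = _
        rw [mul_zero, bit_zero]
    rw [h1]; ring

/-- mask of a sparse column -/
def mask (L : List (ℕ × ℕ × ℤ)) : ℕ := L.foldr (fun q a => if q.2.2 % 2 = 0 then a else Nat.xor (Nat.pow 2 q.2.1) a) 0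

theorem csem_mask (L : List (ℕ × ℕ × ℤ)) (i : ℕ) : csem (1 : K) L i = bit (mask L) i := by
  unfold mask csem
  induction L with
  | nil => simp [bit_zero]
  | cons q L ih =>
    rw [List.foldr_cons]
    by_cases h : q.2.2 % 2 = 0
    · rw [if_pos h, ← ih]
      have hz : ((q.2.2 : ℤ) : K) = 0 := by
        rw [ZMod.intCast_zmod_eq_zero_iff_dvd]; exact Int.dvd_of_emod_eq_zero h
      by_cases hi : q.2.1 = i <;> simp [hi, hz]
    · rw [if_neg h]
      have ho : q.2.2 % 2 = 1 := by omega
      have hz : ((q.2.2 : ℤ) : K) = 1 := by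
        have h1 : q.2.2 = 2 * (q.2.2 / 2) + 1 := by omega
        rw [h1]; push_cast
        rw [show (2 : K) = 0 from by decide]; simp
      change _ = bit (2 ^ q.2.1 ^^^ _) i
      rw [bit_xor, ← ih, bit_one]
      by_cases hi : q.2.1 = i
      · subst hi; simp [hz]
      · have hi' : ¬ i = q.2.1 := fun h => hi h.symm
        simp [hi, hi']

def colB (L : List (ℕ × ℕ)) (v : ℕ) : ℕ := L.foldr (fun q a => if q.1 = v then Nat.xor q.2 a else a) (Nat.pow 2 v)

theorem bit_colB (L : List (ℕ × ℕ)) (v i : ℕ) : bit (colB L v) i = bit (2 ^ v) i + (L.map fun q => if q.1 = v then bit q.2 i else 0).sum := by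
  unfold colB
  induction L with
  | nil => simp
  | cons q L ih =>
    rw [List.foldr_cons, List.map_cons, List.sum_cons]
    by_cases h : q.1 = v
    · rw [if_pos h, if_pos h]
      change bit (q.2 ^^^ _) i = _
      rw [bit_xor, ih]; ring
    · rw [if_neg h, if_neg h, ih]; ring

def colOk : Bool := (List.range 48).all fun r => (List.range 52).all fun v =>
  Nat.beq (mask (colX chevF4 chevF4.chainEntry r v)) (colB (AT.getD r []) v)

set_option maxRecDepth 100000 in
theorem colOk_true : colOk = true := by decide +kernel

def idxOk : Bool := (List.range 48).all fun r => (AT.getD r []).all fun q => Nat.blt q.1 52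

theorem idxOk_true : idxOk = true := by decide +kernel

theorem idx_lt {r : ℕ} (hr : r < 48) {q : ℕ × ℕ} (hq : q ∈ AT.getD r []) : q.1 < 52 := by
  have h := idxOk_true
  unfold idxOk at h
  rw [List.all_eq_true] at h
  have h1 := h r (List.mem_range.2 hr)
  rw [List.all_eq_true] at h1
  simpa using h1 q hq

theorem mask_eq {r v : ℕ} (hr : r < 48) (hv : v < 52) : mask (colX chevF4 chevF4.chainEntry r v) = colB (AT.getD r []) v := by
  have h := colOk_true
  unfold colOk at h
  rw [List.all_eq_true] at h
  have h1 := h r (List.mem_range.2 hr)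
  rw [List.all_eq_true] at h1
  exact Nat.eq_of_beq_eq_true (h1 v (List.mem_range.2 hv))

/-- the vector of a bit vector -/
def dec (v : ℕ) : chevF4.Idx → K := fun k => bit v (enc chevF4 k)

theorem sum_single' {ι : Type} [Fintype ι] (e : ι → ℕ) (he : Function.Injective e) (f : ℕ → K) {j : ℕ} (a : ι) (ha : e a = j) :
    ∑ k : ι, (if j = e k then f (e k) else 0) = f j := by
  subst ha
  refine (Finset.sum_eq_single_of_mem a (Finset.mem_univ a) ?_).trans (if_pos rfl)
  intro b _ hb
  exact if_neg fun h => hb (he h.symm)

theorem sum_single (f : ℕ → K) {j : ℕ} (hj : j < 52) : ∑ k : chevF4.Idx, (if j = enc chevF4 k then f (enc chevF4 k) else 0) = f j := by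
  obtain ⟨a, ha⟩ := exists_enc (D := chevF4) (v := j) hj
  exact sum_single' (enc chevF4) (fun _ _ h => enc_inj chevF4 h) f a ha

theorem sum_list (L : List (ℕ × ℕ)) (hL : ∀ q ∈ L, q.1 < 52) (v i : ℕ) :
    ∑ k : chevF4.Idx, (L.map fun q => if q.1 = enc chevF4 k then bit q.2 i else 0).sum * bit v (enc chevF4 k) =
      (L.map fun q => bit v q.1 * bit q.2 i).sum := by
  induction L with
  | nil => simp
  | cons q L ih =>
    simp only [List.map_cons, List.sum_cons, add_mul, Finset.sum_add_distrib]
    rw [ih (fun q hq => hL q (List.mem_cons_of_mem _ hq)), add_left_inj]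
    have h1 := sum_single (fun m => bit q.2 i * bit v m) (hL q List.mem_cons_self)
    rw [mul_comm (bit v q.1), ← h1]
    apply Finset.sum_congr rfl
    intro k _
    by_cases h : q.1 = enc chevF4 k <;> simp [h]

theorem mulVec_act {r : ℕ} (hr : r < 48) (v : ℕ) : (chevF4.x K r 1).mulVec (dec v) = dec (act (AT.getD r []) v) := by
  funext i
  show ∑ k : chevF4.Idx, chevF4.x K r 1 i k * bit v (enc chevF4 k) = bit (act (AT.getD r []) v) (enc chevF4 i)
  rw [bit_act, ← sum_list _ (fun q hq => idx_lt hr hq), ← sum_single (fun m => bit v m) (enc_lt chevF4 i), ← Finset.sum_add_distrib]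
  apply Finset.sum_congr rfl
  intro k _
  rw [x_apply chevF4 gd.chainOK hr (fun _ _ => rfl), csem_mask, mask_eq hr (enc_lt chevF4 k), bit_colB, bit_one, add_mul, add_left_inj]
  by_cases h : enc chevF4 i = enc chevF4 k <;> simp [h]

/-- words -/
noncomputable def wv (w : List ℕ) : G := (w.map x).prod

def wact (w : List ℕ) (v : ℕ) : ℕ := w.foldr (fun r a => act (AT.getD r []) a) v

def vw (w : List ℕ) : Bool := w.all fun r => Nat.blt r 48

theorem coe_x (r : ℕ) : (((x r : G) : GL chevF4.Idx K) : Matrix chevF4.Idx chevF4.Idx K) = chevF4.x K r 1 := coe_xg gd _ _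

theorem wv_nil : wv [] = 1 := rfl
theorem wv_cons (r : ℕ) (w : List ℕ) : wv (r :: w) = x r * wv w := by simp [wv]
theorem wv_append (w w' : List ℕ) : wv (w ++ w') = wv w * wv w' := by simp [wv]
theorem wv_one (r : ℕ) : wv [r] = x r := by simp [wv]

theorem wv_mulVec (w : List ℕ) (hw : vw w = true) (v : ℕ) :
    (((wv w : G) : GL chevF4.Idx K) : Matrix chevF4.Idx chevF4.Idx K).mulVec (dec v) = dec (wact w v) := by
  induction w with
  | nil => simp [wv_nil, wact]
  | cons r w ih =>
    unfold vw at hw
    rw [List.all_cons, Bool.and_eq_true] at hw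
    rw [wv_cons]
    show ((((x r : G) : GL chevF4.Idx K) : Matrix chevF4.Idx chevF4.Idx K) * (((wv w : G) : GL chevF4.Idx K) : Matrix chevF4.Idx chevF4.Idx K)).mulVec _ = _
    rw [← Matrix.mulVec_mulVec, ih hw.2, coe_x, mulVec_act (by simpa using hw.1)]
    rfl

theorem dec_two_pow (k : chevF4.Idx) : dec (2 ^ enc chevF4 k) = Pi.single k 1 := by
  funext i
  unfold dec
  rw [bit_one]
  by_cases h : i = k
  · subst h; simp
  · rw [Pi.single_eq_of_ne h, if_neg]
    intro h'
    exact h (enc_inj chevF4 h')

def chkW (w w' : List ℕ) : Bool := vw w && (vw w' && (List.range 52).all fun j => Nat.beq (wact w (Nat.pow 2 j)) (wact w' (Nat.pow 2 j)))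

theorem chkW_sound {w w' : List ℕ} (h : chkW w w' = true) : wv w = wv w' := by
  unfold chkW at h
  rw [Bool.and_eq_true, Bool.and_eq_true, List.all_eq_true] at h
  apply Subtype.ext
  apply Units.ext
  have key : ∀ k : chevF4.Idx, (((wv w : G) : GL chevF4.Idx K) : Matrix chevF4.Idx chevF4.Idx K).mulVec (Pi.single k 1) =
      (((wv w' : G) : GL chevF4.Idx K) : Matrix chevF4.Idx chevF4.Idx K).mulVec (Pi.single k 1) := by
    intro k
    rw [← dec_two_pow, wv_mulVec w h.1, wv_mulVec w' h.2.1]
    congr 1
    exact Nat.eq_of_beq_eq_true (h.2.2 _ (List.mem_range.2 (enc_lt chevF4 k)))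
  ext i k
  have := congrFun (key k) i
  rwa [Matrix.mulVec_single_one, Matrix.mulVec_single_one] at this

/-! ### relations -/

def cwT (r s : ℕ) : List ℕ := (CWT.getD r []).getD s []
def wT (i r : ℕ) : ℕ := (WT.getD i []).getD r 0
def lng (r : ℕ) : Bool := LT.getD r false
def ngT (r : ℕ) : ℕ := Nat.sub 47 r


def cwN (r s : ℕ) : List ℕ := (chevF4.commTerms r s).filterMap fun c => if c.2.1 % 2 = 0 then none else some c.1

def relOk : Bool := (List.range 48).all fun r => Nat.beq (chevF4.neg r) (ngT r) && (List.range 48).all fun s =>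
  (Nat.beq s r || Nat.beq s (ngT r)) || (decide (cwN r s = cwT r s) &&
    (chevF4.commTerms r s).all fun c => (Nat.blt 0 c.2.2.1 && Nat.blt 0 c.2.2.2) && Nat.blt c.1 48)

set_option maxRecDepth 100000 in
theorem relOk_true : relOk = true := by decide +kernel

theorem neg_eq' {r : ℕ} (hr : r < 48) : chevF4.neg r = ngT r := by
  have h := relOk_true
  unfold relOk at h
  rw [List.all_eq_true] at h
  have h3 := h r (List.mem_range.2 hr)
  rw [Bool.and_eq_true] at h3
  exact Nat.eq_of_beq_eq_true h3.1

theorem rel_data {r s : ℕ} (hr : r < 48) (hs : s < 48) (h1 : s ≠ r) (h2 : s ≠ ngT r) :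
    cwN r s = cwT r s ∧ ∀ c ∈ chevF4.commTerms r s, 0 < c.2.2.1 ∧ 0 < c.2.2.2 ∧ c.1 < 48 := by
  have h := relOk_true
  unfold relOk at h
  rw [List.all_eq_true] at h
  have h3 := h r (List.mem_range.2 hr)
  rw [Bool.and_eq_true, List.all_eq_true] at h3
  have h4 := h3.2 s (List.mem_range.2 hs)
  rw [Bool.or_eq_true, Bool.or_eq_true] at h4
  rcases h4 with (h4 | h4) | h4
  · exact absurd (Nat.eq_of_beq_eq_true h4) h1
  · exact absurd (Nat.eq_of_beq_eq_true h4) h2
  · rw [Bool.and_eq_true, List.all_eq_true, decide_eq_true_eq] at h4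
    refine ⟨h4.1, fun c hc => ?_⟩
    have h5 := h4.2 c hc
    simp only [Bool.and_eq_true, Nat.blt_eq] at h5
    exact ⟨h5.1.1, h5.1.2, h5.2⟩

/-! ### groups with the relations of the root elements -/

section st

variable {Γ : Type*} [Group Γ] (y : ℕ → Γ)

def YX (r : ℕ) (t : K) : Γ := if t = 0 then 1 else y r

theorem YX_zero (r : ℕ) : YX y r 0 = 1 := if_pos rfl
theorem YX_one (r : ℕ) : YX y r 1 = y r := if_neg (by decide)

theorem k_cases (t : K) : t = 0 ∨ t = 1 := by
  revert t; decide

/-- product along a list of roots -/
def pr (w : List ℕ) : Γ := (w.map y).prod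

theorem WX_one (L : List (ℕ × ℤ × ℕ × ℕ)) : WX (YX y) (L.map fun c => (c.1, (c.2.1 : K) * (-1) ^ c.2.2.1 * 1 ^ c.2.2.2)) =
    pr y (L.filterMap fun c => if c.2.1 % 2 = 0 then none else some c.1) := by
  induction L with
  | nil => rfl
  | cons c L ih =>
    rw [List.map_cons, WX_cons, ih, one_pow, mul_one, show (-1 : K) = 1 from by decide, one_pow, mul_one]
    by_cases h : c.2.1 % 2 = 0
    · have hz : ((c.2.1 : ℤ) : K) = 0 := by
        rw [ZMod.intCast_zmod_eq_zero_iff_dvd]; exact Int.dvd_of_emod_eq_zero h
      rw [hz, List.filterMap_cons_none (by simp [h])]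
      rw [YX_zero, one_mul]
    · have ho : c.2.1 % 2 = 1 := by omega
      have hz : ((c.2.1 : ℤ) : K) = 1 := by
        have h1 : c.2.1 = 2 * (c.2.1 / 2) + 1 := by omega
        rw [h1]; push_cast
        rw [show (2 : K) = 0 from by decide]; simp
      rw [hz, List.filterMap_cons_some (by simp [h] : _ = some c.1)]
      show YX y c.1 1 * _ = _
      rw [YX_one]
      unfold pr
      rw [List.map_cons, List.prod_cons]

theorem WX_triv (L : List (ℕ × ℤ × ℕ × ℕ)) (hL : ∀ c ∈ L, 0 < c.2.2.1 ∧ 0 < c.2.2.2 ∧ c.1 < 48) (t u : K) (h : t = 0 ∨ u = 0) :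
    WX (YX y) (L.map fun c => (c.1, (c.2.1 : K) * (-t) ^ c.2.2.1 * u ^ c.2.2.2)) = 1 := by
  induction L with
  | nil => rfl
  | cons c L ih =>
    rw [List.map_cons, WX_cons, ih (fun c hc => hL c (List.mem_cons_of_mem _ hc)), mul_one]
    obtain ⟨h1, h2, -⟩ := hL c List.mem_cons_self
    have : ((c.2.1 : ℤ) : K) * (-t) ^ c.2.2.1 * u ^ c.2.2.2 = 0 := by
      rcases h with rfl | rfl
      · rw [neg_zero, zero_pow (by omega), mul_zero, zero_mul]
      · rw [zero_pow (by omega), mul_zero]
    rw [this]
    exact YX_zero y _

/-- a group with the relations, as a Steinberg structure -/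
noncomputable def st (θ : Γ →* G) (hsq : ∀ r < 48, y r * y r = 1)
    (hrel : ∀ r < 48, ∀ s < 48, s ≠ r → s ≠ ngT r → y s * y r = y r * y s * pr y (cwT r s))
    (hθ : ∀ r < 48, θ (y r) = x r) (hgen : Subgroup.closure {g | ∃ r < 48, g = y r} = ⊤) : StG chevF4 K Γ where
  X := YX y
  θ := (chevF4.group K).subtype.comp θ
  add r hr t u := by
    rcases k_cases t with rfl | rfl <;> rcases k_cases u with rfl | rfl
    · rw [YX_zero, one_mul, zero_add, YX_zero]
    · rw [YX_zero, one_mul, zero_add]
    · rw [YX_zero, mul_one, add_zero]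
    · rw [YX_one, hsq r hr, show (1 + 1 : K) = 0 from by decide, YX_zero]
  comm r hr s hs h1 h2 t u := by
    rw [neg_eq' hr] at h2
    obtain ⟨h3, h4⟩ := rel_data hr hs h1 h2
    rcases k_cases t with rfl | rfl
    · have := WX_triv y _ h4 0 u (Or.inl rfl)
      unfold ChevalleyDatum.commWord
      rw [this, YX_zero, one_mul]
    · rcases k_cases u with rfl | rfl
      · have := WX_triv y _ h4 1 0 (Or.inr rfl)
        unfold ChevalleyDatum.commWord
        rw [this, YX_zero, one_mul, mul_one, mul_one]
      · unfold ChevalleyDatum.commWord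
        rw [WX_one, YX_one, YX_one]
        show _ = _ * pr y (cwN r s)
        rw [h3]
        exact hrel r hr s hs h1 h2
  θX r hr t := by
    rcases k_cases t with rfl | rfl
    · rw [YX_zero, map_one, xg_zero gd]
    · rw [YX_one, MonoidHom.comp_apply, hθ r hr]; rfl
  gen := by
    rw [eq_top_iff, ← hgen, Subgroup.closure_le]
    rintro g ⟨r, hr, rfl⟩
    exact Subgroup.subset_closure ⟨r, hr, 1, (YX_one y r).symm⟩

/-- **main tool**: a group generated by elements with the relations of the root elements maps injectively -/
theorem injective (θ : Γ →* G) (hsq : ∀ r < 48, y r * y r = 1)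
    (hrel : ∀ r < 48, ∀ s < 48, s ≠ r → s ≠ ngT r → y s * y r = y r * y s * pr y (cwT r s))
    (hθ : ∀ r < 48, θ (y r) = x r) (hgen : Subgroup.closure {g | ∃ r < 48, g = y r} = ⊤) : Function.Injective θ := by
  rw [injective_iff_map_eq_one]
  intro g hg
  have h1 := (ker_le gd (st y θ hsq hrel hθ hgen) (Cfsg.Agent.Lib.StPair.pairOK (by simp)) (g := g) (by
    show (chevF4.group K).subtype (θ g) = 1
    rw [hg, map_one])).1
  have h2 : Hb (st y θ hsq hrel hθ hgen) = ⊥ := by
    unfold Hb
    rw [Subgroup.closure_eq_bot_iff]
    rintro g ⟨i, hi, c, hc, rfl⟩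
    rcases k_cases c with rfl | rfl
    · exact absurd rfl hc
    have hi4 : i < 4 := hi
    have hs : chevF4.simple i < 48 := gd.simple_lt i hi
    have hn : ngT (chevF4.simple i) < 48 := by unfold ngT; show 47 - _ < 48; omega
    unfold hb nb
    rw [neg_eq' hs]
    show (YX y (chevF4.simple i) 1 * YX y (ngT (chevF4.simple i)) (-1⁻¹) * YX y (chevF4.simple i) 1) *
      (YX y (chevF4.simple i) (-1) * YX y (ngT (chevF4.simple i)) (-(-1)⁻¹) * YX y (chevF4.simple i) (-1)) = 1
    have hneg : (-1 : K) = 1 := by decide
    simp only [hneg, inv_one, YX_one]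
    have e1 := hsq _ hs
    have e2 := hsq _ hn
    generalize y (chevF4.simple i) = a at *
    generalize y (ngT (chevF4.simple i)) = b at *
    calc a * b * a * (a * b * a) = a * b * (a * a) * b * a := by group
      _ = 1 := by rw [e1, mul_one, mul_assoc a, e2, mul_one, e1]
  rw [h2] at h1
  exact h1

end st

theorem x_zero' {r : ℕ} : xg chevF4 K r 0 = 1 := xg_zero gd r

theorem wg_eq (L : List (ℕ × ℤ × ℕ × ℕ)) : wg chevF4 K (L.map fun c => (c.1, (c.2.1 : K) * (-1) ^ c.2.2.1 * 1 ^ c.2.2.2)) =
    ((pr x (L.filterMap fun c => if c.2.1 % 2 = 0 then none else some c.1) : G) : GL chevF4.Idx K) := by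
  have h := WX_one (fun r => (xg chevF4 K r 1)) L
  have h1 : WX (YX fun r => (xg chevF4 K r 1)) (L.map fun c => (c.1, (c.2.1 : K) * (-1) ^ c.2.2.1 * 1 ^ c.2.2.2)) =
      wg chevF4 K (L.map fun c => (c.1, (c.2.1 : K) * (-1) ^ c.2.2.1 * 1 ^ c.2.2.2)) := by
    unfold WX wg
    congr 1
    apply List.map_congr_left
    rintro ⟨k, t⟩ _
    rcases k_cases t with rfl | rfl
    · exact (YX_zero _ _).trans x_zero'.symm
    · exact YX_one _ _
  rw [← h1, h]
  unfold pr
  generalize (L.filterMap fun c => if c.2.1 % 2 = 0 then none else some c.1) = w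
  induction w with
  | nil => rfl
  | cons a w ih =>
    rw [List.map_cons, List.prod_cons, ih, List.map_cons, List.prod_cons]; rfl

theorem x_sq (r : ℕ) : x r * x r = 1 := by
  apply Subtype.ext
  show xg chevF4 K r 1 * xg chevF4 K r 1 = 1
  rw [xg_add gd, show (1 + 1 : K) = 0 from by decide, xg_zero gd]

theorem pr_x (w : List ℕ) : pr x w = wv w := rfl

theorem x_rel {r s : ℕ} (hr : r < 48) (hs : s < 48) (h1 : s ≠ r) (h2 : s ≠ ngT r) : x s * x r = x r * x s * pr x (cwT r s) := by
  apply Subtype.ext
  obtain ⟨h3, h4⟩ := rel_data hr hs h1 h2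
  have h5 := xg_comm gd (F := K) hr hs h1 (by rw [neg_eq' hr]; exact h2) 1 1
  unfold ChevalleyDatum.commWord at h5
  rw [wg_eq] at h5
  change _ = _ * ((pr x (cwN r s) : G) : GL chevF4.Idx K) at h5
  rw [h3] at h5
  exact h5

theorem gen : Subgroup.closure {g | ∃ r < 48, g = x r} = ⊤ := by
  rw [eq_top_iff]
  have h1 : chevF4.group K ≤ (Subgroup.closure {g | ∃ r < 48, g = x r}).map (chevF4.group K).subtype := by
    conv_lhs => rw [Cfsg.Agent.Lib.ChevAuto.group_eq gd]
    rw [Subgroup.closure_le]
    rintro g ⟨r, hr, t, rfl⟩
    rcases k_cases t with rfl | rfl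
    · rw [xg_zero gd]; exact one_mem _
    · exact ⟨x r, Subgroup.subset_closure ⟨r, hr, rfl⟩, rfl⟩
  intro g _
  obtain ⟨g', hg', he⟩ := h1 g.2
  rw [show g = g' from Subtype.ext he.symm]
  exact hg'

/-- homomorphisms from `F₄(2)` -/
theorem exists_hom {Q : Type*} [Group Q] (y : ℕ → Q) (hsq : ∀ r < 48, y r * y r = 1)
    (hrel : ∀ r < 48, ∀ s < 48, s ≠ r → s ≠ ngT r → y s * y r = y r * y s * pr y (cwT r s)) :
    ∃ φ : G →* Q, ∀ r < 48, φ (x r) = y r := by
  let M : Subgroup (G × Q) := Subgroup.closure {g | ∃ r < 48, g = (x r, y r)}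
  let z : ℕ → M := fun r => if h : r < 48 then ⟨(x r, y r), Subgroup.subset_closure ⟨r, h, rfl⟩⟩ else 1
  have hz : ∀ r < 48, (z r : G × Q) = (x r, y r) := fun r hr => by simp only [z, dif_pos hr]
  have hpr : ∀ w : List ℕ, (∀ k ∈ w, k < 48) → ((pr z w : M) : G × Q) = (pr x w, pr y w) := by
    intro w hw
    induction w with
    | nil => rfl
    | cons a w ih =>
      unfold pr at *
      rw [List.map_cons, List.prod_cons, Subgroup.coe_mul, ih (fun k hk => hw k (List.mem_cons_of_mem _ hk)), hz a (hw a List.mem_cons_self)]
      rfl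
  have hcw : ∀ r < 48, ∀ s < 48, s ≠ r → s ≠ ngT r → ∀ k ∈ cwT r s, k < 48 := by
    intro r hr s hs h1 h2 k hk
    obtain ⟨h3, h4⟩ := rel_data hr hs h1 h2
    rw [← h3] at hk
    unfold cwN at hk
    rw [List.mem_filterMap] at hk
    obtain ⟨c, hc, he⟩ := hk
    have : c.1 = k := by
      by_cases h : c.2.1 % 2 = 0
      · rw [if_pos h] at he; exact absurd he (by simp)
      · rw [if_neg h] at he; exact Option.some.inj he
    rw [← this]; exact (h4 c hc).2.2
  have hinj : Function.Injective ((MonoidHom.fst G Q).comp M.subtype) := by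
    apply injective z
    · intro r hr
      apply Subtype.ext
      rw [Subgroup.coe_mul, hz r hr]
      exact Prod.ext (x_sq r) (hsq r hr)
    · intro r hr s hs h1 h2
      apply Subtype.ext
      rw [Subgroup.coe_mul, Subgroup.coe_mul, Subgroup.coe_mul, hz r hr, hz s hs, hpr _ (hcw r hr s hs h1 h2)]
      exact Prod.ext (x_rel hr hs h1 h2) (hrel r hr s hs h1 h2)
    · intro r hr
      rw [MonoidHom.comp_apply, Subgroup.coe_subtype, hz r hr]; rfl
    · rw [eq_top_iff]
      rintro ⟨g, hg⟩ -
      have h1 : M ≤ (Subgroup.closure {g | ∃ r < 48, g = z r}).map M.subtype := by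
        rw [Subgroup.closure_le]
        rintro g ⟨r, hr, rfl⟩
        exact ⟨z r, Subgroup.subset_closure ⟨r, hr, rfl⟩, hz r hr⟩
      obtain ⟨g', hg', he⟩ := h1 hg
      rw [show (⟨g, hg⟩ : M) = g' from Subtype.ext he.symm]
      exact hg'
  have hsur : Function.Surjective ((MonoidHom.fst G Q).comp M.subtype) := by
    rw [← MonoidHom.range_eq_top, eq_top_iff, ← gen, Subgroup.closure_le]
    rintro g ⟨r, hr, rfl⟩
    exact ⟨z r, by rw [MonoidHom.comp_apply, Subgroup.coe_subtype, hz r hr]; rfl⟩
  let e := MulEquiv.ofBijective _ ⟨hinj, hsur⟩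
  refine ⟨((MonoidHom.snd G Q).comp M.subtype).comp e.symm.toMonoidHom, fun r hr => ?_⟩
  have h1 : e.symm (x r) = z r := by
    rw [MulEquiv.symm_apply_eq]
    show x r = ((z r : G × Q)).1
    rw [hz r hr]
  show ((e.symm (x r) : G × Q)).2 = y r
  rw [h1, hz r hr]

end Cfsg.Agent.Lib.H13F4
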