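import Cfsg.Agent.Lib.H13F4a
import Cfsg.Agent.Lib.PresSpCore6
import Cfsg.Agent.Lib.SymPres
import Cfsg.Agent.Lib.ChevSL2

/-!
`F₄(2)`: the subgroup `Sp₈(2)` generated by the long roots and eight short roots, as a homomorphism (helper13)
-/

set_option autoImplicit false

namespace Cfsg.Agent.Lib.H13F4

open Equiv Matrix Cfsg.Lie Cfsg.Agent.Lib.PresWr Cfsg.Agent.Lib.PresSpMod Cfsg.Agent.Lib.PresSpCore Cfsg.Agent.Lib.PresBC
open Cfsg.Agent.Lib.PresSec Cfsg.Agent.Lib.ClSymp Cfsg.Agent.Lib.SymPres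

def sp (i : Fin 4) : ℕ := ![27, 28, 29, 44] i
def sm (i : Fin 4) : ℕ := ![20, 19, 18, 3] i
def nw (l : ℕ) : List ℕ := [l, ngT l, l]

theorem k_eq (t : K) : t = 0 ∨ t = 1 := k_cases t

theorem up_zero : up (0 : K) = 1 := by
  apply Subtype.ext; ext i j; fin_cases i <;> fin_cases j <;> simp [up]

theorem lo_zero : lo (0 : K) = 1 := by
  apply Subtype.ext; ext i j; fin_cases i <;> fin_cases j <;> simp [lo]

/-- induction on `SL₂(2)` -/
theorem sl2_ind (M : Subgroup (S2 K)) (h1 : up 1 ∈ M) (h2 : lo 1 ∈ M) (g : S2 K) : g ∈ M := by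
  apply sl2_gen M
  · intro t
    rcases k_eq t with rfl | rfl
    · rw [up_zero]; exact one_mem _
    · exact h1
  · intro t
    rcases k_eq t with rfl | rfl
    · rw [lo_zero]; exact one_mem _
    · exact h2

theorem exists_sl {r : ℕ} (hr : r < 48) : ∃ φ : S2 K →* G, φ (up 1) = x r ∧ φ (lo 1) = x (ngT r) := by
  obtain ⟨φ, -, h⟩ := Cfsg.Agent.Lib.ChevSL2.exists_SL2_hom (F := K) gd (r := r) hr
  have h1 : φ (up 1) = ((x r : G) : GL chevF4.Idx K) := by
    apply Units.ext
    rw [coe_x]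
    exact (h (up 1) 1).1 rfl
  have h2 : φ (lo 1) = ((x (ngT r) : G) : GL chevF4.Idx K) := by
    apply Units.ext
    rw [coe_x, ← neg_eq' hr]
    exact (h (lo 1) 1).2 rfl
  have hm : ∀ g, φ g ∈ chevF4.group K := by
    intro g
    refine sl2_ind ((chevF4.group K).comap φ) ?_ ?_ g
    · rw [Subgroup.mem_comap, h1]; exact (x r).2
    · rw [Subgroup.mem_comap, h2]; exact (x (ngT r)).2
  exact ⟨φ.codRestrict _ hm, Subtype.ext h1, Subtype.ext h2⟩

theorem comm_of' {Γ : Type*} [Group Γ] {φ : S2 K →* Γ} {g : Γ} (hu : Commute g (φ (up 1))) (hl : Commute g (φ (lo 1))) (b : S2 K) :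
    Commute g (φ b) := by
  have h := Subgroup.mem_centralizer_singleton_iff.1 (sl2_ind ((Subgroup.centralizer {g}).comap φ)
    (Subgroup.mem_centralizer_singleton_iff.2 hu.symm.eq) (Subgroup.mem_centralizer_singleton_iff.2 hl.symm.eq) b)
  exact h.symm

theorem comm_of {Γ : Type*} [Group Γ] {φ₁ φ₂ : S2 K →* Γ} (h1 : Commute (φ₁ (up 1)) (φ₂ (up 1))) (h2 : Commute (φ₁ (up 1)) (φ₂ (lo 1)))
    (h3 : Commute (φ₁ (lo 1)) (φ₂ (up 1))) (h4 : Commute (φ₁ (lo 1)) (φ₂ (lo 1))) (a b : S2 K) : Commute (φ₁ a) (φ₂ b) :=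
  (comm_of' (comm_of' h1 h2 b).symm (comm_of' h3 h4 b).symm a).symm

theorem w_comm {a b : ℕ} (h : chkW [a, b] [b, a] = true) : Commute (x a) (x b) := by
  have := chkW_sound h
  rw [wv_cons, wv_one, wv_cons, wv_one] at this
  exact this

/-! ### generators of the monomial group -/

def gw (k : Fin 7) : Wr (S2 K) 4 :=
  ![pe (swap 0 1), pe (swap 1 2), pe (swap 2 3), co 0 (Ag 1), co 1 (Ag 1), co 2 (Ag 1), co 3 (Ag 1)] k

def ww (k : Fin 7) : List ℕ := ![nw 25, nw 24, nw 41, nw 27, nw 28, nw 29, nw 44] k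

def sgn4 (i : Fin 4) : Zs 4 → Zs 4
  | Sum.inl j => if j = i then Sum.inr j else Sum.inl j
  | Sum.inr j => if j = i then Sum.inl j else Sum.inr j

def fw (k : Fin 7) : Zs 4 → Zs 4 :=
  ![Sum.map (swap (0 : Fin 4) 1) (swap (0 : Fin 4) 1), Sum.map (swap (1 : Fin 4) 2) (swap (1 : Fin 4) 2),
    Sum.map (swap (2 : Fin 4) 3) (swap (2 : Fin 4) 3), sgn4 0, sgn4 1, sgn4 2, sgn4 3] k

theorem Ag_eq : (Ag 1 : S2 K) = up 1 * lo 1 * up 1 := by
  apply Subtype.ext
  show (!![0, -(((1 : Kˣ)⁻¹ : Kˣ) : K); ((1 : Kˣ) : K), 0] : Matrix (Fin 2) (Fin 2) K) = !![1, 1; 0, 1] * !![1, 0; 1, 1] * !![1, 1; 0, 1]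
  rw [inv_one, Units.val_one]
  decide

theorem hat_ag (i : Fin 4) (a : Zs 4) : (hat K 4 (co i (Ag 1)) : VV K 4 ≃ₗ[K] VV K 4) (ev a) = ev (sgn4 i a) := by
  have h2 : (-1 : K) = 1 := by decide
  rcases a with j | j
  · by_cases h : j = i
    · subst h
      rw [hat_co_inl]
      simp [Ag, sgn4]
    · rw [hat_co_ne (Ne.symm (Ne.symm h)) _ _ rfl]
      simp [sgn4, h]
  · by_cases h : j = i
    · subst h
      rw [hat_co_inr]
      simp [Ag, sgn4, h2]
    · rw [hat_co_ne (Ne.symm (Ne.symm h)) _ _ rfl]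
      simp [sgn4, h]

theorem hat_gw (k : Fin 7) (a : Zs 4) : (hat K 4 (gw k) : VV K 4 ≃ₗ[K] VV K 4) (ev a) = ev (fw k a) := by
  fin_cases k
  · exact hat_pe _ a
  · exact hat_pe _ a
  · exact hat_pe _ a
  · exact hat_ag 0 a
  · exact hat_ag 1 a
  · exact hat_ag 2 a
  · exact hat_ag 3 a

theorem ag_mem (i : Fin 4) : (co i (Ag 1) : Wr (S2 K) 4) ∈ ND K 4 := by
  apply mem_ND
  intro j
  by_cases h : j = i
  · subst h
    right; exact ⟨1, co_left_same _ _⟩
  · left
    exact ⟨1, by rw [co_left_ne h, Dg_one]⟩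

theorem gw_mem (k : Fin 7) : gw k ∈ ND K 4 := by
  fin_cases k
  · exact pe_mem _
  · exact pe_mem _
  · exact pe_mem _
  · exact ag_mem 0
  · exact ag_mem 1
  · exact ag_mem 2
  · exact ag_mem 3

def dL (L : List (Fin 7)) : Wr (S2 K) 4 := (L.map gw).prod
def wL (L : List (Fin 7)) : List ℕ := L.flatMap ww
def fL (L : List (Fin 7)) (a : Zs 4) : Zs 4 := L.foldr (fun k a => fw k a) a

theorem dL_mem (L : List (Fin 7)) : dL L ∈ ND K 4 := by
  unfold dL
  apply Subgroup.list_prod_mem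
  intro g hg
  rw [List.mem_map] at hg
  obtain ⟨k, -, rfl⟩ := hg
  exact gw_mem k

theorem hat_dL (L : List (Fin 7)) (a : Zs 4) : (hat K 4 (dL L) : VV K 4 ≃ₗ[K] VV K 4) (ev a) = ev (fL L a) := by
  unfold dL fL
  induction L with
  | nil => simp
  | cons k L ih =>
    rw [List.map_cons, List.prod_cons, map_mul, ClSymp.mul_apply', ih, hat_gw]; rfl

/-- the homomorphism on the monomial group -/
structure Del (δ : Wr (S2 K) 4 →* G) : Prop where
  gw : ∀ k, δ (gw k) = wv (ww k)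
  up : ∀ i, δ (co i (up 1)) = x (sp i)
  lo : ∀ i, δ (co i (lo 1)) = x (sm i)

def chk1 : Bool := ((List.finRange 4).all fun i => (List.finRange 4).all fun j => decide (i = j) ||
    (chkW [sp i, sp j] [sp j, sp i] && (chkW [sp i, sm j] [sm j, sp i] && (chkW [sm i, sp j] [sp j, sm i] && chkW [sm i, sm j] [sm j, sm i]))))

set_option maxRecDepth 100000 in
theorem chk1_ok : chk1 = true := by decide +kernel

def chk2 : Bool := (List.finRange 3).all fun k => (List.finRange 4).all fun j =>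
  (chkW (ww (k.castLE (by decide)) ++ [sp j]) (sp (swap k.castSucc k.succ j) :: ww (k.castLE (by decide))) &&
    chkW (ww (k.castLE (by decide)) ++ [sm j]) (sm (swap k.castSucc k.succ j) :: ww (k.castLE (by decide))))

set_option maxRecDepth 100000 in
theorem chk2_ok : chk2 = true := by decide +kernel

theorem sq_word (w : List ℕ) (h : chkW (w ++ w) [] = true) : wv w * wv w = 1 := by
  have := chkW_sound h
  rwa [wv_append, wv_nil] at this

/-- equivariance on generators -/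
theorem equiv_ind {Γ : Type*} [Group Γ] (φ : Perm (Fin 4) →* Γ) (ψ : Fin 4 → S2 K →* Γ)
    (h : ∀ k : Fin 3, ∀ j, φ (swap k.castSucc k.succ) * ψ j (up 1) = ψ (swap k.castSucc k.succ j) (up 1) * φ (swap k.castSucc k.succ) ∧
      φ (swap k.castSucc k.succ) * ψ j (lo 1) = ψ (swap k.castSucc k.succ j) (lo 1) * φ (swap k.castSucc k.succ)) :
    ∀ σ i a, φ σ * ψ i a * (φ σ)⁻¹ = ψ (σ i) a := by
  have key : ∀ σ : Perm (Fin 4), σ ∈ Submonoid.closure (Set.range fun k : Fin 3 => swap k.castSucc k.succ) := by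
    intro σ
    rw [Equiv.Perm.mclosure_swap_castSucc_succ]; exact Submonoid.mem_top _
  intro σ
  induction key σ using Submonoid.closure_induction with
  | mem σ hσ =>
    obtain ⟨k, rfl⟩ := hσ
    intro i a
    have h1 : ∀ a, (((MulAut.conj (φ (swap k.castSucc k.succ))).toMonoidHom.comp (ψ i)) a = (ψ (swap k.castSucc k.succ i)) a) := by
      intro a
      refine sl2_ind (MonoidHom.eqLocus ((MulAut.conj (φ (swap k.castSucc k.succ))).toMonoidHom.comp (ψ i)) (ψ (swap k.castSucc k.succ i))) ?_ ?_ a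
      · show φ _ * ψ i (up 1) * (φ _)⁻¹ = _
        rw [(h k i).1, mul_inv_cancel_right]
      · show φ _ * ψ i (lo 1) * (φ _)⁻¹ = _
        rw [(h k i).2, mul_inv_cancel_right]
    exact h1 a
  | one => intro i a; rw [map_one, one_mul, inv_one, mul_one]; rfl
  | mul σ τ _ _ h1 h2 =>
    intro i a
    rw [map_mul, _root_.mul_inv_rev]
    calc φ σ * φ τ * ψ i a * ((φ τ)⁻¹ * (φ σ)⁻¹) = φ σ * (φ τ * ψ i a * (φ τ)⁻¹) * (φ σ)⁻¹ := by group
      _ = _ := by rw [h2, h1]; rfl

def ngOk : Bool := (List.finRange 4).all fun i => Nat.beq (ngT (sp i)) (sm i) && Nat.blt (sp i) 48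

theorem ngOk_ok : ngOk = true := by decide +kernel

def cxOk : Bool := chkW (nw 25 ++ nw 25) [] && (chkW (nw 24 ++ nw 24) [] && (chkW (nw 41 ++ nw 41) [] &&
  (chkW (nw 25 ++ nw 24 ++ nw 25) (nw 24 ++ nw 25 ++ nw 24) && (chkW (nw 24 ++ nw 41 ++ nw 24) (nw 41 ++ nw 24 ++ nw 41) &&
    chkW (nw 25 ++ nw 41) (nw 41 ++ nw 25)))))

set_option maxRecDepth 100000 in
theorem cxOk_ok : cxOk = true := by decide +kernel

theorem exists_delta : ∃ δ : Wr (S2 K) 4 →* G, Del δ := by
  have hng := ngOk_ok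
  unfold ngOk at hng
  rw [List.all_eq_true] at hng
  have hng' : ∀ i, ngT (sp i) = sm i ∧ sp i < 48 := by
    intro i
    have h := hng i (List.mem_finRange i)
    rw [Bool.and_eq_true] at h
    exact ⟨Nat.eq_of_beq_eq_true h.1, by simpa using h.2⟩
  have hψ : ∀ i : Fin 4, ∃ φ : S2 K →* G, φ (up 1) = x (sp i) ∧ φ (lo 1) = x (sm i) := by
    intro i
    have h := exists_sl (hng' i).2
    rwa [(hng' i).1] at h
  choose ψ hu hl using hψ
  have hcx := cxOk_ok
  unfold cxOk at hcx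
  simp only [Bool.and_eq_true] at hcx
  obtain ⟨c1, c2, c3, c4, c5, c6⟩ := hcx
  have hcox : CoxA 3 (fun i => wv (ww (if i = 0 then 0 else if i = 1 then 1 else 2))) := by
    constructor
    · intro i hi
      interval_cases i
      · exact sq_word _ c1
      · exact sq_word _ c2
      · exact sq_word _ c3
    · intro i hi
      have h : i < 2 := by omega
      interval_cases i
      · have := chkW_sound c4
        simp only [wv_append] at this
        exact this
      · have := chkW_sound c5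
        simp only [wv_append] at this
        exact this
    · intro i j hij hj
      have h1 : i = 0 := by omega
      have h2 : j = 2 := by omega
      subst h1; subst h2
      have := chkW_sound c6
      simp only [wv_append] at this
      exact this
  obtain ⟨φ, hφ⟩ := Cfsg.Agent.Lib.SymPres.exists_hom hcox
  have h2 := chk2_ok
  unfold chk2 at h2
  rw [List.all_eq_true] at h2
  have hφ' : ∀ k : Fin 3, φ (swap k.castSucc k.succ) = wv (ww (k.castLE (by decide))) := by
    intro k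
    rw [hφ k]
    fin_cases k <;> rfl
  have heq := equiv_ind φ ψ (by
    intro k j
    have h3 := h2 k (List.mem_finRange k)
    rw [List.all_eq_true] at h3
    have h4 := h3 j (List.mem_finRange j)
    rw [Bool.and_eq_true] at h4
    have h5 := chkW_sound h4.1
    have h6 := chkW_sound h4.2
    rw [wv_append, wv_one, wv_cons] at h5 h6
    rw [hφ' k, hu, hu, hl, hl]
    exact ⟨h5, h6⟩)
  have h1 := chk1_ok
  unfold chk1 at h1
  rw [List.all_eq_true] at h1
  have hcm : ∀ i j, i ≠ j → ∀ a b, Commute (ψ i a) (ψ j b) := by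
    intro i j hij a b
    have h3 := h1 i (List.mem_finRange i)
    rw [List.all_eq_true] at h3
    have h4 := h3 j (List.mem_finRange j)
    rw [Bool.or_eq_true, decide_eq_true_eq] at h4
    rcases h4 with h4 | h4
    · exact absurd h4 hij
    · simp only [Bool.and_eq_true] at h4
      obtain ⟨g1, g2, g3, g4⟩ := h4
      refine comm_of ?_ ?_ ?_ ?_ a b
      · rw [hu, hu]; exact w_comm g1
      · rw [hu, hl]; exact w_comm g2
      · rw [hl, hu]; exact w_comm g3
      · rw [hl, hl]; exact w_comm g4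
  obtain ⟨δ, hδ1, hδ2⟩ := exists_wr φ ψ heq hcm
  have hag : ∀ i, δ (co i (Ag 1)) = wv (nw (sp i)) := by
    intro i
    rw [hδ2, Ag_eq, map_mul, map_mul, hu, hl]
    unfold nw
    rw [wv_cons, wv_cons, wv_one, (hng' i).1, mul_assoc]
  refine ⟨δ, ⟨?_, fun i => by rw [hδ2, hu], fun i => by rw [hδ2, hl]⟩⟩
  intro k
  fin_cases k
  · show δ (pe (swap 0 1)) = _
    rw [hδ1]; exact hφ' 0
  · show δ (pe (swap 1 2)) = _
    rw [hδ1]; exact hφ' 1
  · show δ (pe (swap 2 3)) = _
    rw [hδ1]; exact hφ' 2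
  · exact hag 0
  · exact hag 1
  · exact hag 2
  · exact hag 3

theorem Del.dL {δ : Wr (S2 K) 4 →* G} (h : Del δ) (L : List (Fin 7)) : δ (dL L) = wv (wL L) := by
  unfold H13F4.dL wL
  induction L with
  | nil => simp [wv_nil]
  | cons k L ih =>
    rw [List.map_cons, List.prod_cons, map_mul, ih, List.flatMap_cons, wv_append, h.gw]

/-- the relations without `Sec` -/
theorem stRel {δ : Wr (S2 K) 4 →* G} (h : Del δ) (h1 : chkW [30, 29] [29, 30] = true) (h2 : chkW [30, 18] [18, 30] = true)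
    (h3 : chkW [30, 44] [44, 30] = true) (h4 : chkW [30, 3] [3, 30] = true) (h5 : chkW (ww 2 ++ [30]) (30 :: ww 2) = true)
    (h6 : chkW (ww 0 ++ [30]) (30 :: ww 0) = true) : StRel (0 : Fin 4) 1 δ (x 30) where
  hpq := by decide
  hi i h0 h01 g := by
    have : i = 2 ∨ i = 3 := by
      revert i; decide
    have key : Commute (x 30) ((δ.comp (co i)) g) := by
      rcases this with rfl | rfl
      · apply comm_of' (φ := δ.comp (co 2))
        · show Commute _ (δ (co 2 (up 1)))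
          rw [h.up]; exact w_comm h1
        · show Commute _ (δ (co 2 (lo 1)))
          rw [h.lo]; exact w_comm h2
      · apply comm_of' (φ := δ.comp (co 3))
        · show Commute _ (δ (co 3 (up 1)))
          rw [h.up]; exact w_comm h3
        · show Commute _ (δ (co 3 (lo 1)))
          rw [h.lo]; exact w_comm h4
    exact key.symm
  ht t := by
    have ht : t = 1 := by
      apply Units.ext
      rcases k_eq (t : K) with h | h
      · exact absurd h t.ne_zero
      · exact h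
    subst ht
    rw [inv_one, Dg_one, map_one, map_one, one_mul, map_one]
    exact Commute.one_left _
  hs σ h0 h01 := by
    have : σ = 1 ∨ σ = swap 2 3 := by
      revert σ; decide
    rcases this with rfl | rfl
    · rw [map_one, map_one]; exact Commute.one_left _
    · have e := h.gw 2
      change δ (pe (swap 2 3)) = _ at e
      rw [e]
      have := chkW_sound h5
      rw [wv_append, wv_one, wv_cons] at this
      exact this
  hw := by
    have e := h.gw 0
    change δ (pe (swap 0 1)) = _ at e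
    rw [e]
    have := chkW_sound h6
    rw [wv_append, wv_one, wv_cons] at this
    exact this

theorem Sc_val {δ : Wr (S2 K) 4 →* G} (h : Del δ) (hs : StRel (0 : Fin 4) 1 δ (x 30)) (L : List (Fin 7)) (a b : Zs 4) (k : ℕ)
    (ha : fL L (Sum.inl 0) = a) (hb : fL L (Sum.inl 1) = b) (hk : chkW (wL L ++ [30]) (k :: wL L) = true) :
    Sc 0 1 δ (x 30) (shh 1 (ev a) (ev b)) = x k := by
  have e1 : hat K 4 (dL L) * uh 0 1 * (hat K 4 (dL L))⁻¹ = shh 1 (ev a) (ev b) := by
    rw [sh_conj, hat_dL, hat_dL, ha, hb]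
  show Sec _ _ _ _ _ _ = _
  rw [Sec_eq hs.st (dL_mem L) e1, h.dL]
  have := chkW_sound hk
  rw [wv_append, wv_one, wv_cons] at this
  rw [this, mul_inv_cancel_right]

theorem x_inv (r : ℕ) : (x r)⁻¹ = x r := inv_eq_of_mul_eq_one_right (x_sq r)

def chk3 : Bool := (chkW [30, 29] [29, 30] && (chkW [30, 18] [18, 30] && (chkW [30, 44] [44, 30] && (chkW [30, 3] [3, 30] &&
  (chkW (ww 2 ++ [30]) (30 :: ww 2) && chkW (ww 0 ++ [30]) (30 :: ww 0))))))

set_option maxRecDepth 100000 in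
theorem chk3_ok : chk3 = true := by decide +kernel

def chk4 : Bool := (chkW (wL [3, 0] ++ [30]) (25 :: wL [3, 0]) && (chkW (wL [3, 4] ++ [30]) (17 :: wL [3, 4]) &&
  (chkW (wL [3, 1, 0] ++ [30]) (26 :: wL [3, 1, 0]) && (chkW (wL [3, 2, 1, 0] ++ [30]) (43 :: wL [3, 2, 1, 0]) &&
  (chkW (wL [0, 1] ++ [30]) (32 :: wL [0, 1]) && (chkW (wL [0, 2, 1] ++ [30]) (46 :: wL [0, 2, 1]) &&
  (chkW (wL [1] ++ [30]) (31 :: wL [1]) && (chkW (wL [2, 1] ++ [30]) (45 :: wL [2, 1]) &&
  (chkW (wL [1, 0, 2, 1] ++ [30]) (47 :: wL [1, 0, 2, 1]) && chkW (wL [2, 1, 0, 2, 1] ++ [30]) (47 :: wL [2, 1, 0, 2, 1]))))))))))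

set_option maxRecDepth 100000 in
theorem chk4_ok : chk4 = true := by decide +kernel

def chk5 : Bool := (chkW [27, 30] [30, 27] && (chkW [20, 30, 20, 30] [25, 28] && (chkW [30, 17, 30] (wL [3, 4, 0]) &&
  (chkW [26, 30, 26, 30] [32] && (chkW [43, 30, 43, 30] [46] && (chkW [31, 30] [30, 31] && (chkW [45, 30] [30, 45] &&
  chkW [47, 30] [30, 47])))))))

set_option maxRecDepth 100000 in
theorem chk5_ok : chk5 = true := by decide +kernel

theorem spRel {δ : Wr (S2 K) 4 →* G} (h : Del δ) : SpRel (1 : Kˣ) (0 : Fin 4) 1 δ (x 30) := by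
  have h3 := chk3_ok
  have h4 := chk4_ok
  have h5 := chk5_ok
  unfold chk3 at h3
  unfold chk4 at h4
  unfold chk5 at h5
  simp only [Bool.and_eq_true] at h3 h4 h5
  obtain ⟨a1, a2, a3, a4, a5, a6⟩ := h3
  obtain ⟨b1, b2, b3, b4, b5, b6, b7, b8, b9, b10⟩ := h4
  obtain ⟨c1, c2, c3, c4, c5, c6, c7, c8⟩ := h5
  have hs := stRel h a1 a2 a3 a4 a5 a6
  have hneg : (-1 : K) = 1 := by decide
  have v1 := Sc_val h hs [3, 0] (Sum.inl 1) (Sum.inr 0) 25 (by decide) (by decide) b1
  have v2 := Sc_val h hs [3, 4] (Sum.inr 0) (Sum.inr 1) 17 (by decide) (by decide) b2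
  have v3 := Sc_val h hs [3, 1, 0] (Sum.inl 2) (Sum.inr 0) 26 (by decide) (by decide) b3
  have v4 := Sc_val h hs [3, 2, 1, 0] (Sum.inl 3) (Sum.inr 0) 43 (by decide) (by decide) b4
  have v5 := Sc_val h hs [0, 1] (Sum.inl 1) (Sum.inl 2) 32 (by decide) (by decide) b5
  have v6 := Sc_val h hs [0, 2, 1] (Sum.inl 1) (Sum.inl 3) 46 (by decide) (by decide) b6
  have v7 := Sc_val h hs [1] (Sum.inl 0) (Sum.inl 2) 31 (by decide) (by decide) b7
  have v8 := Sc_val h hs [2, 1] (Sum.inl 0) (Sum.inl 3) 45 (by decide) (by decide) b8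
  have v9 := Sc_val h hs [1, 0, 2, 1] (Sum.inl 2) (Sum.inl 3) 47 (by decide) (by decide) b9
  have v10 := Sc_val h hs [2, 1, 0, 2, 1] (Sum.inl 3) (Sum.inl 2) 47 (by decide) (by decide) b10
  have hr : ∀ r : Fin 4, r ≠ 0 → r ≠ 1 → r = 2 ∨ r = 3 := by decide
  refine { toStRel := hs, ra := ?_, rb := ?_, rf := ?_, rc := ?_, rd := ?_, re := ?_ }
  · show Commute (δ (co 0 (up (-1)))) (x 30)
    rw [hneg, h.up]; exact w_comm c1
  · intro t ht
    have ht : t = 1 := by rcases ht with ht | ht <;> exact ht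
    subst ht
    rw [v1]
    show δ (co 0 (lo 1)) * x 30 * (δ (co 0 (lo 1)))⁻¹ * (x 30)⁻¹ = x 25 * δ (co 1 (up (- -1)))
    have e1 : sm 0 = 20 := rfl
    have e2 : sp 1 = 28 := rfl
    rw [neg_neg, h.lo, h.up, x_inv, x_inv, e1, e2]
    have := chkW_sound c2
    simp only [wv_cons, wv_nil, mul_one] at this
    simpa only [mul_assoc] using this
  · refine ⟨dL [3, 4, 0], dL_mem _, ?_⟩
    rw [v2, h.dL]
    have := chkW_sound c3
    rw [← this]
    simp only [wv_cons, wv_nil, mul_one, mul_assoc]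
  · intro r h0 h1
    rcases hr r h0 h1 with rfl | rfl
    · rw [v3, v5, x_inv, x_inv]
      have := chkW_sound c4
      simp only [wv_cons, wv_nil, mul_one] at this
      simpa only [mul_assoc] using this
    · rw [v4, v6, x_inv, x_inv]
      have := chkW_sound c5
      simp only [wv_cons, wv_nil, mul_one] at this
      simpa only [mul_assoc] using this
  · intro r h0 h1
    rcases hr r h0 h1 with rfl | rfl
    · rw [v7]; exact w_comm c6
    · rw [v8]; exact w_comm c7
  · intro r s h0 h1 g0 g1 hrs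
    rcases hr r h0 h1 with rfl | rfl <;> rcases hr s g0 g1 with rfl | rfl
    · exact absurd rfl hrs
    · rw [v9]; exact w_comm c8
    · rw [v10]; exact w_comm c8
    · exact absurd rfl hrs

theorem rf_val {δ : Wr (S2 K) 4 →* G} (h : Del δ) :
    x 30 * Sc 0 1 δ (x 30) (shh 1 (ev (Sum.inr 0)) (ev (Sum.inr 1))) * x 30 = δ (dL [3, 4, 0]) := by
  have h4 := chk4_ok
  have h5 := chk5_ok
  unfold chk4 at h4
  unfold chk5 at h5
  simp only [Bool.and_eq_true] at h4 h5
  have v2 := Sc_val h (spRel h).toStRel [3, 4] (Sum.inr 0) (Sum.inr 1) 17 (by decide) (by decide) h4.2.1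
  rw [v2, h.dL]
  have := chkW_sound h5.2.2.1
  rw [← this]
  simp only [wv_cons, wv_nil, mul_one, mul_assoc]

end Cfsg.Agent.Lib.H13F4
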