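import Cfsg.Agent.Lib.H13F4b
import Cfsg.Agent.Lib.RootLiftSp
import Cfsg.Agent.Lib.MulPSp

/-!
`F₄(2)`: the homomorphism from `Sp₈(2)` (helper13)
-/

set_option autoImplicit false

namespace Cfsg.Agent.Lib.H13F4

open Equiv Matrix Cfsg.Lie Cfsg.Agent.Lib.PresWr Cfsg.Agent.Lib.PresSpMod Cfsg.Agent.Lib.PresSpCore Cfsg.Agent.Lib.PresBC
open Cfsg.Agent.Lib.PresSec Cfsg.Agent.Lib.ClSymp Cfsg.Agent.Lib.SymPres Cfsg.Agent.Lib.PresSp

section gen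

variable {F : Type} [Field F] {n : ℕ} {Γ Δ : Type} [Group Γ] [Group Δ] {ζ : Fˣ} {p q : Fin n}

theorem Sc_prod (δ₁ : Wr (S2 F) n →* Γ) (δ₂ : Wr (S2 F) n →* Δ) (u₁ : Γ) (u₂ : Δ) (y : Sg F n) :
    Sc p q (δ₁.prod δ₂) (u₁, u₂) y = (Sc p q δ₁ u₁ y, Sc p q δ₂ u₂ y) := by
  classical
  show Sec _ _ _ _ _ _ = (Sec _ _ _ _ _ _, Sec _ _ _ _ _ _)
  unfold Sec
  split_ifs <;> rfl

theorem prodRel {δ₁ : Wr (S2 F) n →* Γ} {δ₂ : Wr (S2 F) n →* Δ} {u₁ : Γ} {u₂ : Δ} (h1 : SpRel ζ p q δ₁ u₁) (h2 : SpRel ζ p q δ₂ u₂)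
    (hm : ∃ m ∈ ND F n, u₁ * Sc p q δ₁ u₁ (shh 1 (ev (Sum.inr p)) (ev (Sum.inr q))) * u₁ = δ₁ m ∧
      u₂ * Sc p q δ₂ u₂ (shh 1 (ev (Sum.inr p)) (ev (Sum.inr q))) * u₂ = δ₂ m) : SpRel ζ p q (δ₁.prod δ₂) (u₁, u₂) where
  hpq := h1.hpq
  hi i hp hq g := Prod.ext (h1.hi i hp hq g) (h2.hi i hp hq g)
  ht t := Prod.ext (h1.ht t) (h2.ht t)
  hs σ hp hq := Prod.ext (h1.hs σ hp hq) (h2.hs σ hp hq)
  hw := Prod.ext h1.hw h2.hw
  ra := Prod.ext h1.ra h2.ra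
  rb t ht := by rw [Sc_prod]; exact Prod.ext (h1.rb t ht) (h2.rb t ht)
  rf := by
    obtain ⟨m, hm, e1, e2⟩ := hm
    refine ⟨m, hm, ?_⟩
    rw [Sc_prod]; exact Prod.ext e1 e2
  rc r hp hq := by rw [Sc_prod, Sc_prod]; exact Prod.ext (h1.rc r hp hq) (h2.rc r hp hq)
  rd r hp hq := by rw [Sc_prod]; exact Prod.ext (h1.rd r hp hq) (h2.rd r hp hq)
  re r s a b c d e := by rw [Sc_prod]; exact Prod.ext (h1.re r s a b c d e) (h2.re r s a b c d e)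

theorem Sc_map (f : Γ →* Δ) (δ : Wr (S2 F) n →* Γ) (u : Γ) (y : Sg F n) : f (Sc p q δ u y) = Sc p q (f.comp δ) (f u) y := by
  classical
  show f (Sec _ _ _ _ _ _) = Sec _ _ _ _ _ _
  unfold Sec
  split_ifs
  · rw [map_mul, map_mul, map_inv]; rfl
  · exact map_one f

theorem restrictRel (f : Γ →* Δ) (hf : Function.Injective f) {δ : Wr (S2 F) n →* Γ} {u : Γ} (h : SpRel ζ p q (f.comp δ) (f u)) :
    SpRel ζ p q δ u where
  hpq := h.hpq
  hi i hp hq g := hf (by rw [map_mul f, map_mul f]; exact h.hi i hp hq g)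
  ht t := hf (by rw [map_mul f, map_mul f]; exact h.ht t)
  hs σ hp hq := hf (by rw [map_mul f, map_mul f]; exact h.hs σ hp hq)
  hw := hf (by rw [map_mul f, map_mul f]; exact h.hw)
  ra := hf (by rw [map_mul f, map_mul f]; exact h.ra)
  rb t ht := hf (by rw [map_mul f, map_mul f, map_mul f, map_inv f, map_inv f, map_mul f, Sc_map]; exact h.rb t ht)
  rf := by
    obtain ⟨m, hm, e⟩ := h.rf
    exact ⟨m, hm, hf (by rw [map_mul f, map_mul f, Sc_map]; exact e)⟩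
  rc r hp hq := hf (by rw [map_mul f, map_mul f, map_mul f, map_inv f, map_inv f, Sc_map, Sc_map]; exact h.rc r hp hq)
  rd r hp hq := hf (by rw [map_mul f, map_mul f, Sc_map]; exact h.rd r hp hq)
  re r s a b c d e := hf (by rw [map_mul f, map_mul f, Sc_map]; exact h.re r s a b c d e)

/-- homomorphisms from the symplectic group -/
theorem exists_sp_hom [Fintype F] (hζ : ∀ x : Fˣ, x ∈ Subgroup.zpowers ζ) {δ : Wr (S2 F) n →* Γ} {u : Γ} (h : SpRel ζ p q δ u)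
    (hm : ∃ m ∈ ND F n, u * Sc p q δ u (shh 1 (ev (Sum.inr p)) (ev (Sum.inr q))) * u = δ m ∧
      uh p q * Sc p q (hat F n) (uh p q) (shh 1 (ev (Sum.inr p)) (ev (Sum.inr q))) * uh p q = hat F n m) :
    ∃ ψ : Sg F n →* Γ, (∀ d, ψ (hat F n d) = δ d) ∧ ψ (uh p q) = u := by
  have h1 : SpRel ζ p q (δ.prod (hat F n)) (u, uh p q) := prodRel h (Cfsg.Agent.Lib.RootLiftSp.model h.hpq) hm
  set M : Subgroup (Γ × Sg F n) := Subgroup.closure (Set.range (δ.prod (hat F n)) ∪ {(u, uh p q)}) with hM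
  have hmem : ∀ d, (δ.prod (hat F n)) d ∈ M := fun d => Subgroup.subset_closure (Or.inl ⟨d, rfl⟩)
  have hu : (u, uh p q) ∈ M := Subgroup.subset_closure (Or.inr rfl)
  let δ₀ : Wr (S2 F) n →* M := (δ.prod (hat F n)).codRestrict M hmem
  let u₀ : M := ⟨(u, uh p q), hu⟩
  have h2 : SpRel ζ p q δ₀ u₀ := restrictRel M.subtype Subtype.val_injective h1
  have htop : Subgroup.closure (Set.range δ₀ ∪ {u₀}) = ⊤ := by
    rw [eq_top_iff]
    have h3 : Subgroup.closure (Set.range (δ.prod (hat F n)) ∪ {(u, uh p q)}) ≤ (Subgroup.closure (Set.range δ₀ ∪ {u₀})).map M.subtype := by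
      rw [Subgroup.closure_le]
      rintro g (⟨d, rfl⟩ | rfl)
      · exact ⟨δ₀ d, Subgroup.subset_closure (Or.inl ⟨d, rfl⟩), rfl⟩
      · exact ⟨u₀, Subgroup.subset_closure (Or.inr rfl), rfl⟩
    rintro ⟨g, hg⟩ -
    obtain ⟨g', hg', he⟩ := h3 hg
    rw [show (⟨g, hg⟩ : M) = g' from Subtype.ext he.symm]
    exact hg'
  let π : M →* Sg F n := (MonoidHom.snd Γ (Sg F n)).comp M.subtype
  have hinj : Function.Injective π := h2.injective hζ htop π (fun _ => rfl) rfl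
  have hsur : Function.Surjective π := by
    rw [← MonoidHom.range_eq_top, eq_top_iff, ← gen_top h.hpq, Subgroup.closure_le]
    rintro g (⟨d, rfl⟩ | rfl)
    · exact ⟨δ₀ d, rfl⟩
    · exact ⟨u₀, rfl⟩
  let e := MulEquiv.ofBijective π ⟨hinj, hsur⟩
  refine ⟨((MonoidHom.fst Γ (Sg F n)).comp M.subtype).comp e.symm.toMonoidHom, fun d => ?_, ?_⟩
  · have h3 : e.symm (hat F n d) = δ₀ d := by rw [MulEquiv.symm_apply_eq]; rfl
    show ((e.symm (hat F n d) : M) : Γ × Sg F n).1 = _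
    rw [h3]; rfl
  · have h3 : e.symm (uh p q) = u₀ := by rw [MulEquiv.symm_apply_eq]; rfl
    show ((e.symm (uh p q) : M) : Γ × Sg F n).1 = _
    rw [h3]

end gen

theorem exists_psi : ∃ ψ : Sg K 4 →* G, ∃ δ : Wr (S2 K) 4 →* G, Del δ ∧ (∀ d, ψ (hat K 4 d) = δ d) ∧ ψ (uh 0 1) = x 30 := by
  obtain ⟨δ, hδ⟩ := exists_delta
  have hmod := Cfsg.Agent.Lib.RootLiftSp.model (F := K) (ζ := 1) (p := (0 : Fin 4)) (q := 1) (by decide)
  have hS : Sc (0 : Fin 4) 1 (hat K 4) (uh 0 1) (shh 1 (ev (Sum.inr 0)) (ev (Sum.inr 1))) = shh 1 (ev (Sum.inr 0)) (ev (Sum.inr 1)) :=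
    map_Sec hmod.toStRel.st (MonoidHom.id _) (fun _ => rfl) rfl (hmod.toStRel.Y_cls (a := Sum.inr 0) (b := Sum.inr 1) (by decide) one_ne_zero)
  obtain ⟨ψ, h1, h2⟩ := exists_sp_hom (ζ := (1 : Kˣ)) (fun t => by
    have ht : t = 1 := by
      apply Units.ext
      rcases k_eq (t : K) with h | h
      · exact absurd h t.ne_zero
      · exact h
    rw [ht]; exact one_mem _) (spRel hδ) ⟨dL [3, 4, 0], dL_mem _, rf_val hδ, by
      rw [hS, model_rf (by decide)]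
      congr 1
      unfold mf dL
      simp only [List.map_cons, List.map_nil, List.prod_cons, List.prod_nil, mul_one, mul_assoc]
      rfl⟩
  exact ⟨ψ, δ, hδ, h1, h2⟩

end Cfsg.Agent.Lib.H13F4
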