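import Cfsg.Agent.Lib.H13F4c
import Cfsg.Agent.Lib.SchurPerfect
import Cfsg.Agent.Lib.ClSymp3

/-!
`F₄(2)`: the subgroup `Sp₈(2)`: simplicity, lifting, root elements (helper13)
-/

set_option autoImplicit false

namespace Cfsg.Agent.Lib.H13F4

open Equiv Matrix Cfsg.Lie Cfsg.Agent.Lib.PresWr Cfsg.Agent.Lib.PresSpMod Cfsg.Agent.Lib.PresSpCore Cfsg.Agent.Lib.PresBC
open Cfsg.Agent.Lib.PresSec Cfsg.Agent.Lib.ClSymp Cfsg.Agent.Lib.SymPres Cfsg.Agent.Lib.PresSp Cfsg.Agent.Lib.SchurSylow

/-- lifting of homomorphisms from perfect groups with trivial multiplier -/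
theorem exists_lift {H E Q : Type} [Group H] [Group E] [Group Q] [Finite H] [Finite E] (hH : Group.IsPerfect H) (hm : StemDvd H 1)
    (f : H →* Q) (π : E →* Q) (hπ : Function.Surjective π) (hc : π.ker ≤ Subgroup.center E) : ∃ s : H →* E, ∀ h, π (s h) = f h := by
  let P : Subgroup (H × E) := MonoidHom.eqLocus (f.comp (MonoidHom.fst H E)) (π.comp (MonoidHom.snd H E))
  have hP : ∀ p : H × E, p ∈ P ↔ f p.1 = π p.2 := fun p => Iff.rfl
  let p1 : P →* H := (MonoidHom.fst H E).comp P.subtype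
  have h1 : Function.Surjective p1 := by
    intro h
    obtain ⟨e, he⟩ := hπ (f h)
    exact ⟨⟨(h, e), (hP _).2 he.symm⟩, rfl⟩
  have h2 : p1.ker ≤ Subgroup.center P := by
    intro p hp
    rw [Subgroup.mem_center_iff]
    intro q
    have e1 : (p : H × E).1 = 1 := hp
    have e2 : (p : H × E).2 ∈ Subgroup.center E := by
      apply hc
      rw [MonoidHom.mem_ker, ← (hP _).1 p.2, e1, map_one]
    apply Subtype.ext
    rw [Subgroup.coe_mul, Subgroup.coe_mul]
    refine Prod.ext ?_ ?_
    · show (q : H × E).1 * (p : H × E).1 = (p : H × E).1 * (q : H × E).1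
      rw [e1, mul_one, one_mul]
    · exact Subgroup.mem_center_iff.1 e2 _
  have h3 : Group.IsPerfect (commutator P) := Cfsg.Agent.Lib.SchurPerfect.isPerfect_commutator hH p1 h1 h2
  let τ : commutator P →* H := p1.comp (commutator P).subtype
  have h4 : Function.Surjective τ := by
    rw [← MonoidHom.range_eq_top]
    have e : (commutator P).map p1 = ⊤ := by
      rw [commutator_def, Subgroup.map_commutator, Subgroup.map_top_of_surjective _ h1, ← commutator_def, hH.commutator_eq_top]
    rw [show τ.range = (commutator P).map p1 by rw [MonoidHom.range_comp, Subgroup.range_subtype]]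
    exact e
  have h5 : Cfsg.IsStemExtension τ := by
    refine ⟨h4, ?_, ?_⟩
    · intro d hd
      rw [Subgroup.mem_center_iff]
      intro d'
      exact Subtype.ext (Subgroup.mem_center_iff.1 (h2 (show (d : P) ∈ p1.ker from hd)) d')
    · rw [h3.commutator_eq_top]; exact le_top
  have h6 := hm _ τ h5
  rw [Nat.dvd_one, Subgroup.card_eq_one] at h6
  have h7 : Function.Injective τ := (MonoidHom.ker_eq_bot_iff τ).1 h6
  let e := MulEquiv.ofBijective τ ⟨h7, h4⟩
  refine ⟨((MonoidHom.snd H E).comp (P.subtype.comp (commutator P).subtype)).comp e.symm.toMonoidHom, fun h => ?_⟩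
  have h8 : p1 ((e.symm h : commutator P) : P) = h := e.apply_symm_apply h
  have h9 := (hP _).1 ((e.symm h : commutator P) : P).2
  show π ((e.symm h : commutator P) : P).1.2 = f h
  rw [← h9]
  exact congrArg f h8

/-- the symplectic group `Sp₈(2)` -/
theorem sg_simple : IsSimpleGroup (Sg K 4) := by
  have h1 : IsSimpleGroup (Matrix.symplecticGroup (Fin 4) K ⧸ Subgroup.center (Matrix.symplecticGroup (Fin 4) K)) :=
    Cfsg.Agent.Lib.ClSymp3.simple 4 (by norm_num) (fun h => absurd h (by norm_num))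
  have h2 : Nat.card (Subgroup.center (Matrix.symplecticGroup (Fin 4) K)) = Nat.gcd 2 (2 - 1) :=
    Cfsg.Agent.Lib.ClSymp3.card_center (ZMod.card 2) 4 (by norm_num)
  have h3 : Subgroup.center (Matrix.symplecticGroup (Fin 4) K) = ⊥ := by
    rw [← Subgroup.card_eq_one, h2]; rfl
  let f : Matrix.symplecticGroup (Fin 4) K ≃* Matrix.symplecticGroup (Fin 4) K ⧸ Subgroup.center (Matrix.symplecticGroup (Fin 4) K) :=
    MulEquiv.ofBijective (QuotientGroup.mk' _) ⟨by
      rw [← MonoidHom.ker_eq_bot_iff, QuotientGroup.ker_mk', h3], QuotientGroup.mk'_surjective _⟩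
  exact (MulEquiv.isSimpleGroup_congr ((Cfsg.Agent.Lib.ClIso.sympEquiv (Fin 4) K).symm.trans f)).2 h1

theorem sg_perfect : Group.IsPerfect (Sg K 4) := by
  constructor
  have h1 : commutator (Matrix.symplecticGroup (Fin 4) K) = ⊤ := Cfsg.Agent.Lib.ClSymp3.perfect 4 (Or.inl (by norm_num))
  let e := Cfsg.Agent.Lib.ClIso.sympEquiv (Fin 4) K
  have h2 : (commutator (Matrix.symplecticGroup (Fin 4) K)).map e.toMonoidHom = commutator (Sg K 4) := by
    rw [commutator_def, commutator_def, Subgroup.map_commutator, Subgroup.map_top_of_surjective _ e.surjective]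
  rw [← h2, h1, Subgroup.map_top_of_surjective _ e.surjective]

theorem sg_finite : Finite (Sg K 4) := by
  exact Finite.of_equiv _ (Cfsg.Agent.Lib.ClIso.sympEquiv (Fin 4) K).toEquiv

theorem sg_stem : StemDvd (Sg K 4) 1 := Cfsg.Agent.Lib.MulPSp.stemDvd_Sn (F := K) (n := 4) (by norm_num) (Or.inr le_rfl)

/-- words conjugating the long root `30` to the other long roots -/
def LW : List (List (Fin 7)) := [[6, 5, 1, 2, 0, 1], [6, 4, 2, 0, 1], [6, 3, 2, 1], [], [6, 2, 1], [6, 2, 0, 1], [6, 1, 2, 0, 1], [], [], [], [], [], [], [], [], [5, 4, 0, 1], [5, 3, 1], [4, 3], [], [], [], [5, 1], [4], [5, 0, 1], [4, 0, 1], [3], [3, 1], [], [], [], [], [1], [0, 1], [], [], [], [], [], [], [], [], [5, 1, 2, 0, 1], [4, 2, 0, 1], [3, 2, 1], [], [2, 1], [2, 0, 1], [1, 2, 0, 1]]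

def shB : List ℕ := [27, 28, 29, 44, 20, 19, 18, 3]

def inB (r : ℕ) : Bool := lng r || shB.any (fun s => Nat.beq s r)

def chkLW : Bool := (List.range 48).all fun r => !(lng r) || chkW (wL (LW.getD r []) ++ [30]) (r :: wL (LW.getD r []))

set_option maxRecDepth 100000 in
theorem chkLW_ok : chkLW = true := by decide +kernel

theorem x_ne_one : x 30 ≠ 1 := by
  intro h
  have h1 : ((x 30 : G) : GL chevF4.Idx K) = 1 := by rw [h]; rfl
  have h2 := (Cfsg.Agent.Lib.ChevRel.xg_eq_one_iff gd (F := K) (r := 30) (by decide) 1).1 h1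
  exact one_ne_zero h2

/-- `Sp₈(2)` in `F₄(2)` -/
theorem main_psi : ∃ ψ : Sg K 4 →* G, Function.Injective ψ ∧ ∀ r < 48, inB r = true → x r ∈ ψ.range := by
  obtain ⟨ψ, δ, hδ, h1, h2⟩ := exists_psi
  refine ⟨ψ, ?_, ?_⟩
  · haveI := sg_simple
    rw [← MonoidHom.ker_eq_bot_iff]
    rcases IsSimpleGroup.eq_bot_or_eq_top_of_normal ψ.ker inferInstance with h | h
    · exact h
    · exfalso
      apply x_ne_one
      rw [← h2]
      have : uh 0 1 ∈ ψ.ker := by rw [h]; trivial
      exact this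
  · intro r hr hB
    unfold inB at hB
    rw [Bool.or_eq_true] at hB
    rcases hB with hB | hB
    · have h := chkLW_ok
      unfold chkLW at h
      rw [List.all_eq_true] at h
      have h3 := h r (List.mem_range.2 hr)
      rw [hB, Bool.not_true, Bool.false_or] at h3
      have h4 := chkW_sound h3
      rw [wv_append, wv_one, wv_cons, ← hδ.dL, ← h1, ← h2, ← map_mul] at h4
      refine ⟨hat K 4 (dL (LW.getD r [])) * uh 0 1 * (hat K 4 (dL (LW.getD r [])))⁻¹, ?_⟩
      rw [map_mul, h4, map_inv, mul_inv_cancel_right]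
    · have hc : ∀ i : Fin 4, x (sp i) ∈ ψ.range ∧ x (sm i) ∈ ψ.range := fun i => by
        rw [← hδ.up i, ← hδ.lo i, ← h1, ← h1]
        exact ⟨⟨_, rfl⟩, ⟨_, rfl⟩⟩
      rw [List.any_eq_true] at hB
      obtain ⟨s, hs, h⟩ := hB
      have e := Nat.eq_of_beq_eq_true h
      subst e
      simp only [shB, List.mem_cons, List.not_mem_nil, or_false] at hs
      rcases hs with rfl | rfl | rfl | rfl | rfl | rfl | rfl | rfl
      · exact (hc 0).1
      · exact (hc 1).1
      · exact (hc 2).1
      · exact (hc 3).1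
      · exact (hc 0).2
      · exact (hc 1).2
      · exact (hc 2).2
      · exact (hc 3).2

end Cfsg.Agent.Lib.H13F4
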