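import Cfsg.Agent.Lib.H13F4d
import Cfsg.Agent.Lib.H13F4P
import Cfsg.Agent.Lib.TwSpec

/-!
`F₄(2)`: the kernel of a stem extension has order at most two (helper13)
-/

set_option autoImplicit false

namespace Cfsg.Agent.Lib.H13F4

open Cfsg.Lie Cfsg.Agent.Lib.PresSpMod Cfsg.Agent.Lib.SchurSylow
open scoped commutatorElement

/-- the root permutation of the graph automorphism -/
def GA : List ℕ := [3, 7, 8, 0, 9, 11, 18, 1, 2, 4, 15, 5, 16, 21, 23, 10, 12, 19, 6, 17, 22, 13, 20, 14, 33, 27, 34, 25, 30, 41, 28, 35, 37, 24, 26, 31, 42, 32, 43, 45, 46, 29, 36, 38, 47, 39, 40, 44]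

def ga (r : ℕ) : ℕ := GA.getD r 0

theorem exists_alpha : ∃ α : G ≃* G, ∀ r < 48, α (x r) = x (ga r) := by
  obtain ⟨α, hα⟩ := Cfsg.Agent.Lib.TwSpec.exists_special (K := K) Cfsg.Agent.Lib.ChevOkF4.good
    (Q := Cfsg.Agent.Lib.TwSpec.spF4) Cfsg.Agent.Lib.TwSpec.chkF4 Nat.prime_two (by simp)
    Cfsg.Agent.Lib.TwSpec.ker_F4 (fun t => ⟨t, by
      show t ^ 2 = t
      rcases k_cases t with rfl | rfl
      · exact zero_pow two_ne_zero
      · exact one_pow 2⟩)
  refine ⟨α, fun r hr => ?_⟩
  have h := hα r hr 1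
  rw [one_pow] at h
  exact h

def smq (i : ℕ) : ℕ := [33, 27, 25, 24].getD i 0

def CT : List (ℕ × ℕ) := [(1, 23), (0, 24), (0, 26), (7, 14), (0, 31), (0, 32), (1, 32), (3, 33), (3, 34), (3, 35), (3, 36), (3, 37), (3, 38), (3, 39), (3, 40), (0, 42), (0, 43), (1, 43), (7, 37), (7, 38), (7, 39), (0, 45), (1, 45), (0, 46), (1, 47), (2, 46), (2, 47), (8, 40), (9, 40), (10, 40), (4, 46), (4, 47), (5, 47), (7, 44), (8, 44), (9, 44), (10, 44), (11, 44), (12, 44), (13, 44), (14, 44), (15, 46), (15, 47), (16, 47), (33, 40), (21, 47), (23, 47), (24, 46)]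

def uA : Bool := (List.range 48).all fun r => Nat.blt (ga r) 48 && (Nat.beq (ga (ga r)) r && (lng (ga r) == !(lng r)))

def uB : Bool := (List.range 48).all fun r => (List.range 48).all fun s => Nat.beq s r || (Nat.beq s (ngT r) || (!(lng r == lng s) ||
  (((cwT r s).all fun t => lng t == lng r) && ((lng r || (cwT (ga r) (ga s) == (cwT r s).map ga)) &&
    (!(Nat.beq (ga s) (ga r)) && !(Nat.beq (ga s) (ngT (ga r))))))))

def uC : Bool := (List.range 48).all fun r => (fun q : ℕ × ℕ => Nat.blt q.1 48 && (Nat.blt q.2 48 && ((lng q.1 == lng r) && ((lng q.2 == lng r) &&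
  (!(Nat.beq q.2 q.1) && (!(Nat.beq q.2 (ngT q.1)) && (cwT q.1 q.2 == [r]))))))) (CT.getD r (0, 0))

def uD : Bool := (List.range 48).all fun r => (List.range 48).all fun s => !(lng r) || (lng s || ((cwT s r == cwT r s) &&
  ((cwT r s == []) || ((cwT r s).length == 2 && (!(lng ((cwT r s).getD 0 0)) && (lng ((cwT r s).getD 1 0) &&
    (cwT ((cwT r s).getD 0 0) ((cwT r s).getD 1 0) == [])))))))

def uE : Bool := (List.range 4).all fun i => (List.range 48).all fun r =>
  chkW [smq i, ngT (smq i), smq i, r] [wT i r, smq i, ngT (smq i), smq i]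

set_option maxRecDepth 100000 in
theorem uA_true : uA = true := by decide +kernel
set_option maxRecDepth 100000 in
theorem uB_true : uB = true := by decide +kernel
set_option maxRecDepth 100000 in
theorem uC_true : uC = true := by decide +kernel
set_option maxRecDepth 100000 in
theorem uD_true : uD = true := by decide +kernel
set_option maxRecDepth 100000 in
theorem uE_true : uE = true := by decide +kernel

theorem ga_facts {r : ℕ} (hr : r < 48) : ga r < 48 ∧ ga (ga r) = r ∧ lng (ga r) = !(lng r) := by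
  have h := uA_true
  unfold uA at h
  rw [List.all_eq_true] at h
  have h1 := h r (List.mem_range.2 hr)
  simp only [Bool.and_eq_true] at h1
  exact ⟨Nat.blt_eq.mp h1.1, Nat.eq_of_beq_eq_true h1.2.1, by simpa using h1.2.2⟩

theorem same_facts {r s : ℕ} (hr : r < 48) (hs : s < 48) (h1 : s ≠ r) (h2 : s ≠ ngT r) (hl : lng r = lng s) :
    (∀ t ∈ cwT r s, lng t = lng r) ∧ (lng r = false → cwT (ga r) (ga s) = (cwT r s).map ga) ∧ ga s ≠ ga r ∧ ga s ≠ ngT (ga r) := by
  have h := uB_true
  unfold uB at h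
  rw [List.all_eq_true] at h
  have h3 := h r (List.mem_range.2 hr)
  rw [List.all_eq_true] at h3
  have h4 := h3 s (List.mem_range.2 hs)
  simp only [Bool.or_eq_true, Bool.and_eq_true] at h4
  rcases h4 with h4 | h4 | h4 | ⟨h4, h5, h6, h7⟩
  · exact absurd (Nat.eq_of_beq_eq_true h4) h1
  · exact absurd (Nat.eq_of_beq_eq_true h4) h2
  · rw [hl] at h4; simp at h4
  · rw [List.all_eq_true] at h4
    refine ⟨fun t ht => by simpa using h4 t ht, ?_, ?_, ?_⟩
    · intro hf
      rcases h5 with h5 | h5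
      · rw [hf] at h5; exact absurd h5 (by simp)
      · simpa using h5
    · intro he
      rw [he] at h6; simp at h6
    · intro he
      rw [he] at h7; simp at h7

theorem ct_facts {r : ℕ} (hr : r < 48) : ∃ a < 48, ∃ b < 48, lng a = lng r ∧ lng b = lng r ∧ b ≠ a ∧ b ≠ ngT a ∧ cwT a b = [r] := by
  have h := uC_true
  unfold uC at h
  rw [List.all_eq_true] at h
  have h1 := h r (List.mem_range.2 hr)
  simp only [Bool.and_eq_true] at h1
  obtain ⟨a1, a2, a3, a4, a5, a6, a7⟩ := h1
  refine ⟨_, Nat.blt_eq.mp a1, _, Nat.blt_eq.mp a2, by simpa using a3, by simpa using a4, ?_, ?_, by simpa using a7⟩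
  · intro he
    rw [he] at a5; simp at a5
  · intro he
    rw [he] at a6; simp at a6

theorem swap_facts {r s : ℕ} (hr : r < 48) (hs : s < 48) (h1 : lng r = true) (h2 : lng s = false) : cwT s r = cwT r s ∧
    (cwT r s = [] ∨ ∃ a b, cwT r s = [a, b] ∧ lng a = false ∧ lng b = true ∧ cwT a b = []) := by
  have h := uD_true
  unfold uD at h
  rw [List.all_eq_true] at h
  have h3 := h r (List.mem_range.2 hr)
  rw [List.all_eq_true] at h3
  have h4 := h3 s (List.mem_range.2 hs)
  simp only [Bool.or_eq_true, Bool.and_eq_true, h1, h2, Bool.not_true, Bool.false_eq_true, false_or] at h4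
  obtain ⟨h5, h6⟩ := h4
  refine ⟨by simpa using h5, ?_⟩
  rcases h6 with h6 | ⟨h6, h7, h8, h9⟩
  · left; simpa using h6
  · right
    have hlen : (cwT r s).length = 2 := by simpa using h6
    obtain ⟨a, b, hab⟩ := List.length_eq_two.1 hlen
    rw [hab] at h7 h8 h9
    exact ⟨a, b, hab, by simpa using h7, by simpa using h8, by simpa using h9⟩

theorem x_w {i r : ℕ} (hi : i < 4) (hr : r < 48) : wv (nw (smq i)) * x r = x (wT i r) * wv (nw (smq i)) := by
  have h := uE_true
  unfold uE at h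
  rw [List.all_eq_true] at h
  have h1 := h i (List.mem_range.2 hi)
  rw [List.all_eq_true] at h1
  have h2 := chkW_sound (h1 r (List.mem_range.2 hr))
  have e1 : wv [smq i, ngT (smq i), smq i, r] = wv (nw (smq i)) * x r := by
    rw [← wv_one r, ← wv_append]; rfl
  have e2 : wv [wT i r, smq i, ngT (smq i), smq i] = x (wT i r) * wv (nw (smq i)) := by
    rw [wv_cons]; rfl
  exact e1.symm.trans (h2.trans e2)

end Cfsg.Agent.Lib.H13F4
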