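import Cfsg.Agent.Lib.H13F4e

/-!
`F₄(2)`: the kernel of a stem extension has order at most two: the argument (helper13)
-/

set_option autoImplicit false

namespace Cfsg.Agent.Lib.H13F4

open Cfsg.Lie Cfsg.Agent.Lib.PresSpMod Cfsg.Agent.Lib.SchurSylow
open scoped commutatorElement

attribute [local irreducible] x

/-- relations in a group mapping injectively to `G` -/
theorem rel_of_inj {H : Type*} [Group H] (ψ : H →* G) (hψ : Function.Injective ψ) (b : ℕ → H) (B : ℕ → Prop)
    (hb : ∀ r < 48, B r → ψ (b r) = x r) {r s : ℕ} (hr : r < 48) (hs : s < 48) (hBr : B r) (hBs : B s) (h1 : s ≠ r) (h2 : s ≠ ngT r)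
    (hB : ∀ t ∈ cwT r s, B t) : Rel b r s := by
  unfold Rel
  apply hψ
  have hlt := (cw_facts (i := 0) (by norm_num) hr hs h1 h2).2
  have hp : ∀ w : List ℕ, (∀ t ∈ w, t < 48 ∧ B t) → ψ (pr b w) = pr x w := by
    intro w hw
    induction w with
    | nil => rw [pr_nil, pr_nil, map_one]
    | cons t w ih =>
      rw [pr_cons, pr_cons, map_mul, ih (fun t' ht' => hw t' (List.mem_cons_of_mem _ ht')), hb t (hw t List.mem_cons_self).1 (hw t List.mem_cons_self).2]
  rw [map_mul, map_mul, map_mul, hb r hr hBr, hb s hs hBs, hp _ (fun t ht => ⟨hlt t ht, hB t ht⟩)]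
  exact x_rel hr hs h1 h2

theorem Rel_map {H Q : Type*} [Group H] [Group Q] (f : H →* Q) {b : ℕ → H} {r s : ℕ} (h : Rel b r s) : Rel (fun r => f (b r)) r s := by
  unfold Rel at h ⊢
  rw [pr_map, ← map_mul, ← map_mul, ← map_mul, h]

theorem pr_congr {Q : Type*} [Group Q] {y z : ℕ → Q} {w : List ℕ} (h : ∀ t ∈ w, y t = z t) : pr y w = pr z w := by
  unfold pr
  rw [List.map_congr_left h]

theorem Rel_congr {Q : Type*} [Group Q] {y z : ℕ → Q} {r s : ℕ} (hr : y r = z r) (hs : y s = z s) (h : ∀ t ∈ cwT r s, y t = z t)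
    (hz : Rel z r s) : Rel y r s := by
  unfold Rel at hz ⊢
  rw [hr, hs, pr_congr h]; exact hz

theorem lng_ng : ∀ a < 48, lng (ngT a) = lng a := by decide +kernel

/-- the data of lifts -/
structure Lifts {E : Type} [Group E] (π : E →* G) where
  y : ℕ → E
  z : ℕ → E
  hy : ∀ r < 48, π (y r) = x r
  hz : ∀ r < 48, inB r = true → π (z r) = x r
  ysq : ∀ r < 48, y r * y r = 1
  zsq : ∀ r < 48, inB r = true → z r * z r = 1
  yz : ∀ r < 48, lng r = true → z r = y r
  yrel : ∀ r < 48, ∀ s < 48, s ≠ r → s ≠ ngT r → lng r = lng s → Rel y r s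
  zrel : ∀ r < 48, ∀ s < 48, s ≠ r → s ≠ ngT r → inB r = true → inB s = true → (∀ t ∈ cwT r s, inB t = true) → Rel z r s

theorem inB_of_lng {r : ℕ} (h : lng r = true) : inB r = true := by
  unfold inB; rw [h, Bool.true_or]

theorem exists_lifts {E : Type} [Group E] [Finite E] (π : E →* G) (hπ : Function.Surjective π) (hc : π.ker ≤ Subgroup.center E) :
    Nonempty (Lifts π) := by
  obtain ⟨ψ, hinj, hran⟩ := main_psi
  obtain ⟨α, hα⟩ := exists_alpha
  have := sg_finite
  obtain ⟨s1, hs1⟩ := exists_lift sg_perfect sg_stem ψ π hπ hc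
  obtain ⟨s2, hs2⟩ := exists_lift sg_perfect sg_stem (α.toMonoidHom.comp ψ) π hπ hc
  have hb : ∀ r : ℕ, ∃ h : Sg K 4, r < 48 → inB r = true → ψ h = x r := by
    intro r
    by_cases hr : r < 48
    · by_cases hB : inB r = true
      · obtain ⟨h, hh⟩ := hran r hr hB
        exact ⟨h, fun _ _ => hh⟩
      · exact ⟨1, fun _ h => absurd h hB⟩
    · exact ⟨1, fun h => absurd h hr⟩
  choose b hb using hb
  have hb1 : ∀ r < 48, inB r = true → b r * b r = 1 := by
    intro r hr hB
    apply hinj
    rw [map_mul, hb r hr hB, x_sq, map_one]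
  have hs2' : ∀ r < 48, lng r = false → π (s2 (b (ga r))) = x r := by
    intro r hr hl
    obtain ⟨g1, g2, g3⟩ := ga_facts hr
    rw [hl] at g3
    rw [hs2]
    show α (ψ (b (ga r))) = x r
    rw [hb _ g1 (inB_of_lng g3), hα _ g1, g2]
  refine ⟨⟨fun r => if lng r = true then s1 (b r) else s2 (b (ga r)), fun r => s1 (b r), ?_, ?_, ?_, ?_, ?_, ?_, ?_⟩⟩
  · intro r hr
    by_cases hl : lng r = true
    · simp only [hl, if_true]
      rw [hs1, hb r hr (inB_of_lng hl)]
    · simp only [if_neg hl]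
      exact hs2' r hr (by simpa using hl)
  · intro r hr hB
    show π (s1 (b r)) = x r
    rw [hs1, hb r hr hB]
  · intro r hr
    by_cases hl : lng r = true
    · simp only [hl, if_true]
      rw [← map_mul, hb1 r hr (inB_of_lng hl), map_one]
    · simp only [if_neg hl]
      obtain ⟨g1, g2, g3⟩ := ga_facts hr
      have hl' : lng r = false := by simpa using hl
      rw [hl'] at g3
      rw [← map_mul, hb1 _ g1 (inB_of_lng g3), map_one]
  · intro r hr hB
    show s1 (b r) * s1 (b r) = 1
    rw [← map_mul, hb1 r hr hB, map_one]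
  · intro r hr hl
    simp only [hl, if_true]
  · intro r hr s hs h1 h2 hl
    obtain ⟨f1, f2, f3, f4⟩ := same_facts hr hs h1 h2 hl
    by_cases hlr : lng r = true
    · have hls : lng s = true := hl ▸ hlr
      have h := Rel_map s1 (rel_of_inj ψ hinj b (fun t => inB t = true) hb hr hs (inB_of_lng hlr) (inB_of_lng hls) h1 h2
        (fun t ht => inB_of_lng ((f1 t ht).trans hlr)))
      apply Rel_congr (z := fun r => s1 (b r)) _ _ _ h
      · simp only [hlr, if_true]
      · simp only [hls, if_true]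
      · intro t ht
        simp only [(f1 t ht).trans hlr, if_true]
    · have hlr' : lng r = false := by simpa using hlr
      have hls' : lng s = false := by rw [← hl]; exact hlr'
      obtain ⟨g1, g2, g3⟩ := ga_facts hr
      obtain ⟨k1, k2, k3⟩ := ga_facts hs
      rw [hlr'] at g3
      rw [hls'] at k3
      have hcw := f2 hlr'
      have hlt := (cw_facts (i := 0) (by norm_num) hr hs h1 h2).2
      have h := Rel_map s2 (rel_of_inj ψ hinj b (fun t => inB t = true) hb g1 k1 (inB_of_lng g3) (inB_of_lng k3) f3 f4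
        (fun t ht => by
          rw [hcw, List.mem_map] at ht
          obtain ⟨t', ht', rfl⟩ := ht
          apply inB_of_lng
          rw [(ga_facts (hlt t' ht')).2.2, f1 t' ht', hlr']; rfl))
      unfold Rel at h ⊢
      rw [hcw] at h
      have e : pr (fun r => s2 (b r)) ((cwT r s).map ga) = pr (fun r => if lng r = true then s1 (b r) else s2 (b (ga r))) (cwT r s) := by
        unfold pr
        rw [List.map_map]
        congr 1
        apply List.map_congr_left
        intro t ht
        have : ¬ lng t = true := by rw [f1 t ht]; exact hlr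
        simp only [Function.comp, if_neg this]
      rw [e] at h
      have n1 : ¬ lng s = true := by rw [hls']; simp
      simp only [if_neg hlr, if_neg n1]
      exact h
  · intro r hr s hs h1 h2 hBr hBs hBt
    exact Rel_map s1 (rel_of_inj ψ hinj b (fun t => inB t = true) hb hr hs hBr hBs h1 h2 hBt)

section main

variable {E : Type} [Group E] {π : E →* G} (L : Lifts π) (hc : π.ker ≤ Subgroup.center E)
include hc

/-- lifts of reflections -/
def Lifts.n (L : Lifts π) (i : ℕ) : E := L.y (smq i) * (L.y (ngT (smq i)) * L.y (smq i))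

omit hc in
theorem n_map {i : ℕ} (hi : i < 4) : π (L.n i) = wv (nw (smq i)) := by
  have h1 : smq i < 48 := by interval_cases i <;> decide
  unfold Lifts.n nw
  rw [map_mul, map_mul, L.hy _ h1, L.hy _ (ngT_lt _), wv_cons, wv_cons, wv_one]

theorem y_w {i r : ℕ} (hi : i < 4) (hr : r < 48) : L.n i * L.y r * (L.n i)⁻¹ = L.y (wT i r) := by
  -- up to central elements
  have key : ∀ t < 48, ∃ c ∈ Subgroup.center E, L.n i * L.y t * (L.n i)⁻¹ = c * L.y (wT i t) ∧ c * c = 1 := by
    intro t ht
    have hw := (wT_facts hi ht).1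
    refine ⟨L.n i * L.y t * (L.n i)⁻¹ * (L.y (wT i t))⁻¹, ?_, by group, ?_⟩
    · apply hc
      rw [MonoidHom.mem_ker, map_mul, map_mul, map_mul, map_inv, map_inv, L.hy t ht, L.hy _ hw, n_map L hi, x_w hi ht]
      group
    · set c := L.n i * L.y t * (L.n i)⁻¹ * (L.y (wT i t))⁻¹ with hcd
      have hcc : c ∈ Subgroup.center E := by
        apply hc
        rw [MonoidHom.mem_ker, hcd, map_mul, map_mul, map_mul, map_inv, map_inv, L.hy t ht, L.hy _ hw, n_map L hi, x_w hi ht]
        group
      have e1 : c * L.y (wT i t) = L.n i * L.y t * (L.n i)⁻¹ := by rw [hcd]; group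
      have e2 : (c * L.y (wT i t)) * (c * L.y (wT i t)) = 1 := by
        rw [e1]
        calc L.n i * L.y t * (L.n i)⁻¹ * (L.n i * L.y t * (L.n i)⁻¹) = L.n i * (L.y t * L.y t) * (L.n i)⁻¹ := by group
          _ = 1 := by rw [L.ysq t ht]; group
      have e3 := Subgroup.mem_center_iff.1 hcc
      calc c * c = c * c * (L.y (wT i t) * L.y (wT i t)) := by rw [L.ysq _ hw, mul_one]
        _ = c * (c * L.y (wT i t)) * L.y (wT i t) := by group
        _ = c * (L.y (wT i t) * c) * L.y (wT i t) := by rw [e3]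
        _ = (c * L.y (wT i t)) * (c * L.y (wT i t)) := by group
        _ = 1 := e2
  obtain ⟨a, ha, b, hb, la, lb, n1, n2, hab⟩ := ct_facts hr
  obtain ⟨m1, m2⟩ := ne_w hi ha hb n1 n2
  have wa := wT_facts hi ha
  have wb := wT_facts hi hb
  have r1 : Rel L.y a b := L.yrel a ha b hb n1 n2 (la.trans lb.symm)
  have r2 : Rel L.y (wT i a) (wT i b) := L.yrel _ wa.1 _ wb.1 m1 m2 (by rw [wa.2.2.2, wb.2.2.2, la, lb])
  have hcw := (cw_facts hi ha hb n1 n2).1
  rw [hab, List.map_cons, List.map_nil] at hcw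
  have hone : ∀ t, pr L.y [t] = L.y t := fun t => by rw [pr_cons, pr_nil, mul_one]
  unfold Rel at r1 r2
  rw [hab, hone] at r1
  rw [hcw, hone] at r2
  obtain ⟨c, hcc, c1, c2⟩ := key a ha
  obtain ⟨d, hdc, d1, d2⟩ := key b hb
  have hcc' := Subgroup.mem_center_iff.1 hcc
  have hdc' := Subgroup.mem_center_iff.1 hdc
  have s1 : L.y r = (L.y a * L.y b)⁻¹ * (L.y b * L.y a) := by rw [r1]; group
  have s2 : L.y (wT i r) = (L.y (wT i a) * L.y (wT i b))⁻¹ * (L.y (wT i b) * L.y (wT i a)) := by rw [r2]; group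
  have s3 : L.n i * L.y r * (L.n i)⁻¹ = ((L.n i * L.y a * (L.n i)⁻¹) * (L.n i * L.y b * (L.n i)⁻¹))⁻¹ *
      ((L.n i * L.y b * (L.n i)⁻¹) * (L.n i * L.y a * (L.n i)⁻¹)) := by rw [s1]; group
  rw [s3, c1, d1, s2]
  set A := L.y (wT i a)
  set B := L.y (wT i b)
  calc (c * A * (d * B))⁻¹ * (d * B * (c * A)) = B⁻¹ * d⁻¹ * (A⁻¹ * c⁻¹) * (d * B * (c * A)) := by group
    _ = B⁻¹ * d⁻¹ * A⁻¹ * c⁻¹ * d * (B * c) * A := by group
    _ = B⁻¹ * d⁻¹ * A⁻¹ * c⁻¹ * d * (c * B) * A := by rw [hcc']
    _ = B⁻¹ * d⁻¹ * A⁻¹ * c⁻¹ * (d * c) * B * A := by group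
    _ = B⁻¹ * d⁻¹ * A⁻¹ * c⁻¹ * (c * d) * B * A := by rw [hcc' d]
    _ = B⁻¹ * d⁻¹ * (A⁻¹ * d) * B * A := by group
    _ = B⁻¹ * d⁻¹ * (d * A⁻¹) * B * A := by rw [hdc']
    _ = (A * B)⁻¹ * (B * A) := by group

/-- the central element -/
def Lifts.ε (L : Lifts π) : E := L.z 29 * (L.y 29)⁻¹

theorem ε_mem : L.ε ∈ π.ker := by
  rw [MonoidHom.mem_ker]
  unfold Lifts.ε
  rw [map_mul, map_inv, L.hz 29 (by norm_num) (by decide), L.hy 29 (by norm_num), mul_inv_cancel]

theorem z_eq {r : ℕ} (hr : r < 48) (hB : inB r = true) : ∃ c ∈ Subgroup.center E, L.z r = c * L.y r := by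
  refine ⟨L.z r * (L.y r)⁻¹, ?_, by group⟩
  apply hc
  rw [MonoidHom.mem_ker, map_mul, map_inv, L.hz r hr hB, L.hy r hr, mul_inv_cancel]

theorem ε_sq : L.ε * L.ε = 1 := by
  have h1 := Subgroup.mem_center_iff.1 (hc (ε_mem L hc)) (L.y 29)
  have h2 : L.z 29 = L.ε * L.y 29 := by unfold Lifts.ε; group
  have h3 := L.zsq 29 (by norm_num) (by decide)
  rw [h2] at h3
  calc L.ε * L.ε = L.ε * L.ε * (L.y 29 * L.y 29) := by rw [L.ysq 29 (by norm_num), mul_one]
    _ = L.ε * (L.ε * L.y 29) * L.y 29 := by group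
    _ = L.ε * (L.y 29 * L.ε) * L.y 29 := by rw [h1]
    _ = L.ε * L.y 29 * (L.ε * L.y 29) := by group
    _ = 1 := h3

/-- the mixed relations modulo `ε` -/
theorem mixed_B0 {Q : Type} [Group Q] (f : E →* Q) (hf : f L.ε = 1) :
    Rel (fun r => f (L.y r)) 44 6 ∧ Rel (fun r => f (L.y r)) 44 32 ∧ Rel (fun r => f (L.y r)) 44 47 := by
  obtain ⟨c, hcc, h44⟩ := z_eq L hc (r := 44) (by norm_num) (by decide)
  have hcc' := Subgroup.mem_center_iff.1 hcc
  have h29 : L.z 29 = L.ε * L.y 29 := by unfold Lifts.ε; group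
  have e6 : L.z 6 = L.y 6 := L.yz 6 (by norm_num) (by decide)
  have e32 : L.z 32 = L.y 32 := L.yz 32 (by norm_num) (by decide)
  have e47 : L.z 47 = L.y 47 := L.yz 47 (by norm_num) (by decide)
  have r6 := L.zrel 44 (by norm_num) 6 (by norm_num) (by decide) (by decide) (by decide) (by decide) (by decide)
  have r32 := L.zrel 44 (by norm_num) 32 (by norm_num) (by decide) (by decide) (by decide) (by decide) (by decide)
  have r47 := L.zrel 44 (by norm_num) 47 (by norm_num) (by decide) (by decide) (by decide) (by decide) (by decide)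
  have w6 : cwT 44 6 = [29, 47] := by decide
  have w32 : cwT 44 32 = [] := by decide
  have w47 : cwT 44 47 = [] := by decide
  unfold Rel at r6 r32 r47 ⊢
  rw [w6, pr_cons, pr_cons, pr_nil, mul_one] at r6 ⊢
  rw [w32, pr_nil, mul_one] at r32 ⊢
  rw [w47, pr_nil, mul_one] at r47 ⊢
  rw [e6, e47, h44, h29] at r6
  rw [e32, h44] at r32
  rw [e47, h44] at r47
  have key : ∀ (t : ℕ) (w : E), L.y t * (c * L.y 44) = c * L.y 44 * L.y t * w → L.y t * L.y 44 = L.y 44 * L.y t * w := by
    intro t w h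
    have h1 : c * (L.y t * L.y 44) = c * (L.y 44 * L.y t * w) := by
      calc c * (L.y t * L.y 44) = (c * L.y t) * L.y 44 := by group
        _ = (L.y t * c) * L.y 44 := by rw [hcc']
        _ = L.y t * (c * L.y 44) := by group
        _ = _ := h
        _ = _ := by group
    exact mul_left_cancel h1
  refine ⟨?_, ?_, ?_⟩
  · have h := congrArg f (key 6 _ r6)
    simp only [map_mul] at h
    rw [hf, one_mul] at h
    exact h
  · have h := congrArg f (key 32 1 (by rw [mul_one]; exact r32))
    simp only [map_mul, map_one, mul_one] at h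
    exact h
  · have h := congrArg f (key 47 1 (by rw [mul_one]; exact r47))
    simp only [map_mul, map_one, mul_one] at h
    exact h

theorem all_rel {Q : Type} [Group Q] (f : E →* Q) (hf : f L.ε = 1) :
    ∀ r < 48, ∀ s < 48, s ≠ r → s ≠ ngT r → Rel (fun r => f (L.y r)) r s := by
  have hn : ∀ i < 4, ∀ t < 48, f (L.n i) * f (L.y t) * (f (L.n i))⁻¹ = f (L.y (wT i t)) := by
    intro i hi t ht
    rw [← map_mul, ← map_inv, ← map_mul, y_w L hc hi ht]
  obtain ⟨b1, b2, b3⟩ := mixed_B0 L hc f hf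
  have hmix : ∀ r < 48, ∀ s < 48, s ≠ r → s ≠ ngT r → lng r = false → lng s = true → Rel (fun r => f (L.y r)) r s := by
    apply pair_ind (fun r s => s ≠ r → s ≠ ngT r → lng r = false → lng s = true → Rel (fun r => f (L.y r)) r s)
    · intro i hi r hr s hs h h1 h2 h3 h4
      obtain ⟨g1, g2⟩ := ne_w hi hr hs h1 h2
      exact Rel_w (y := fun r => f (L.y r)) hi hr hs h1 h2 (hn i hi) (h g1 g2 (by rw [(wT_facts hi hr).2.2.2, h3]) (by rw [(wT_facts hi hs).2.2.2, h4]))
    · intro q hq h1 h2 h3 h4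
      unfold B0 at hq
      simp only [List.mem_cons, List.not_mem_nil, or_false] at hq
      rcases hq with rfl | rfl | rfl | rfl | rfl | rfl | rfl | rfl | rfl | rfl | rfl | rfl | rfl | rfl | rfl | rfl
      · exact absurd h4 (by decide)
      · exact b1
      · exact absurd h4 (by decide)
      · exact absurd h4 (by decide)
      · exact b2
      · exact absurd h4 (by decide)
      · exact absurd h4 (by decide)
      · exact b3
      all_goals exact absurd h3 (by decide)
  intro r hr s hs h1 h2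
  by_cases hl : lng r = lng s
  · exact Rel_map f (L.yrel r hr s hs h1 h2 hl)
  · by_cases hlr : lng r = true
    · have hls : lng s = false := by
        rw [hlr] at hl
        simpa using Ne.symm hl
      have h1' : r ≠ s := Ne.symm h1
      have h2' : r ≠ ngT s := by
        intro h
        apply h2
        rw [h]
        show s = 47 - (47 - s)
        omega
      have h := hmix s hs r hr h1' h2' hls hlr
      obtain ⟨e1, e2⟩ := swap_facts hr hs hlr hls
      have hlt := (cw_facts (i := 0) (by norm_num) hr hs h1 h2).2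
      unfold Rel at h ⊢
      rw [e1] at h
      rcases e2 with e2 | ⟨a, b, e2, la, lb, e3⟩
      · rw [e2, pr_nil, mul_one] at h ⊢
        exact h.symm
      · rw [e2] at hlt
        have ha : a < 48 := hlt a (by simp)
        have hb : b < 48 := hlt b (by simp)
        have hab : Rel (fun r => f (L.y r)) a b := hmix a ha b hb (by rintro rfl; rw [la] at lb; exact absurd lb (by simp))
          (by
            rintro rfl
            rw [lng_ng a ha, la] at lb
            exact absurd lb (by simp)) la lb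
        unfold Rel at hab
        rw [e3, pr_nil, mul_one] at hab
        rw [e2, pr_cons, pr_cons, pr_nil, mul_one] at h ⊢
        have sa : f (L.y a) * f (L.y a) = 1 := by rw [← map_mul, L.ysq a ha, map_one]
        have sb : f (L.y b) * f (L.y b) = 1 := by rw [← map_mul, L.ysq b hb, map_one]
        simp only at h hab ⊢
        calc f (L.y s) * f (L.y r) = f (L.y s) * f (L.y r) * (f (L.y a) * (f (L.y b) * f (L.y b)) * f (L.y a)) := by rw [sb, mul_one, sa, mul_one]
          _ = (f (L.y s) * f (L.y r) * (f (L.y a) * f (L.y b))) * (f (L.y b) * f (L.y a)) := by group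
          _ = (f (L.y r) * f (L.y s)) * (f (L.y b) * f (L.y a)) := by rw [← h]
          _ = f (L.y r) * f (L.y s) * (f (L.y a) * f (L.y b)) := by rw [hab]
    · have hlr' : lng r = false := by simpa using hlr
      have hls : lng s = true := by
        rw [hlr'] at hl
        simpa using Ne.symm hl
      exact hmix r hr s hs h1 h2 hlr' hls

end main

theorem stemDvd : StemDvd G 2 := by
  intro E _ _ π hst
  obtain ⟨L⟩ := exists_lifts π hst.1 hst.2.1
  have hc := hst.2.1
  have hε := ε_mem L hc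
  have hεc := hc hε
  let N : Subgroup E := Subgroup.zpowers L.ε
  have hNk : N ≤ π.ker := by
    rw [Subgroup.zpowers_le]; exact hε
  have hN : N.Normal := ⟨fun a ha g => by
    have h := Subgroup.mem_center_iff.1 (hc (hNk ha)) g
    rw [h, mul_inv_cancel_right]; exact ha⟩
  let f : E →* E ⧸ N := QuotientGroup.mk' N
  have hf : f L.ε = 1 := (QuotientGroup.eq_one_iff _).2 (Subgroup.mem_zpowers _)
  let θ : E ⧸ N →* G := QuotientGroup.lift N π hNk
  have hθ : ∀ e, θ (f e) = π e := fun e => rfl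
  -- generation
  have hD : Subgroup.closure {g | ∃ r < 48, g = L.y r} = ⊤ := by
    set D := Subgroup.closure {g | ∃ r < 48, g = L.y r} with hDd
    have h1 : D.map π = ⊤ := by
      rw [eq_top_iff, ← gen, Subgroup.closure_le]
      rintro g ⟨r, hr, rfl⟩
      exact ⟨L.y r, Subgroup.subset_closure ⟨r, hr, rfl⟩, L.hy r hr⟩
    have h2 : ∀ e : E, ∃ d ∈ D, ∃ z ∈ Subgroup.center E, e = d * z := by
      intro e
      have : π e ∈ D.map π := by rw [h1]; trivial
      obtain ⟨d, hd, hde⟩ := this
      refine ⟨d, hd, d⁻¹ * e, hc ?_, by group⟩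
      rw [MonoidHom.mem_ker, map_mul, map_inv, hde, inv_mul_cancel]
    have h3 : commutator E ≤ D := by
      rw [commutator_def, Subgroup.commutator_le]
      intro a _ b _
      obtain ⟨d, hd, z, hz, rfl⟩ := h2 a
      obtain ⟨d', hd', z', hz', rfl⟩ := h2 b
      rw [Cfsg.Agent.Lib.SchurMult.commutatorElement_mul_central hz hz']
      exact D.mul_mem (D.mul_mem (D.mul_mem hd hd') (D.inv_mem hd)) (D.inv_mem hd')
    rw [eq_top_iff]
    intro e _
    have : π e ∈ D.map π := by rw [h1]; trivial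
    obtain ⟨d, hd, hde⟩ := this
    have h4 : d⁻¹ * e ∈ π.ker := by rw [MonoidHom.mem_ker, map_mul, map_inv, hde, inv_mul_cancel]
    have h5 : e = d * (d⁻¹ * e) := by group
    rw [h5]
    exact D.mul_mem hd (h3 (hst.2.2 h4))
  have hinj : Function.Injective θ := by
    apply injective (fun r => f (L.y r)) θ
    · intro r hr
      rw [← map_mul, L.ysq r hr, map_one]
    · exact all_rel L hc f hf
    · intro r hr
      rw [hθ, L.hy r hr]
    · have h1 : (Subgroup.closure {g | ∃ r < 48, g = L.y r}).map f = Subgroup.closure {g | ∃ r < 48, g = f (L.y r)} := by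
        rw [MonoidHom.map_closure]
        congr 1
        ext g
        constructor
        · rintro ⟨e, ⟨r, hr, rfl⟩, rfl⟩; exact ⟨r, hr, rfl⟩
        · rintro ⟨r, hr, rfl⟩; exact ⟨_, ⟨r, hr, rfl⟩, rfl⟩
      rw [← h1, hD, Subgroup.map_top_of_surjective f (QuotientGroup.mk'_surjective N)]
  have hker : π.ker = N := by
    apply le_antisymm _ hNk
    intro e he
    have h1 : θ (f e) = 1 := by rw [hθ]; exact he
    have h2 : f e = 1 := hinj (by rw [h1, map_one])
    exact (QuotientGroup.eq_one_iff _).1 h2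
  rw [hker, Nat.card_zpowers, orderOf_dvd_iff_pow_eq_one, pow_two]
  exact ε_sq L hc

end Cfsg.Agent.Lib.H13F4
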