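import Cfsg.Agent.Lib.H92SpinCover

/-!
Double covers from permutation representations: an involution with `4 k + 2` transpositions (helper13)
-/

set_option autoImplicit false

namespace Cfsg.Agent.Lib.H13Swaps

open Equiv

/-- an involution is a product of disjoint transpositions -/
theorem exists_swaps {α : Type*} [DecidableEq α] [Fintype α] (σ : Perm α) (h : σ * σ = 1) :
    ∃ l : List (α × α), (∀ p ∈ l, p.1 ≠ p.2) ∧ (∀ p ∈ l, p.1 ∈ σ.support ∧ p.2 ∈ σ.support) ∧
      (l.Pairwise fun p q => p.1 ≠ q.1 ∧ p.1 ≠ q.2 ∧ p.2 ≠ q.1 ∧ p.2 ≠ q.2) ∧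
      σ = (l.map fun p => swap p.1 p.2).prod ∧ 2 * l.length = σ.support.card := by
  have hinv : ∀ (τ : Perm α), τ * τ = 1 → ∀ x, τ (τ x) = x := by
    intro τ hτ x
    have := Perm.ext_iff.1 hτ x
    rwa [Perm.mul_apply, Perm.one_apply] at this
  induction hn : σ.support.card using Nat.strong_induction_on generalizing σ with
  | _ n ih =>
    rcases Finset.eq_empty_or_nonempty σ.support with h0 | ⟨a, ha⟩
    · rw [Perm.support_eq_empty_iff] at h0
      subst h0
      refine ⟨[], by simp, by simp, List.Pairwise.nil, by simp, ?_⟩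
      rw [← hn, Perm.support_one]; rfl
    · rw [Perm.mem_support] at ha
      have hs := hinv σ h
      have hb : σ (σ a) ≠ σ a := by rw [hs]; exact fun e => ha e.symm
      set τ : Perm α := swap a (σ a) * σ with hτ
      have t1 : τ a = a := by rw [hτ, Perm.mul_apply, swap_apply_right]
      have t2 : τ (σ a) = σ a := by rw [hτ, Perm.mul_apply, hs, swap_apply_left]
      have t3 : ∀ x, x ≠ a → x ≠ σ a → τ x = σ x := by
        intro x h1 h2
        rw [hτ, Perm.mul_apply]
        apply swap_apply_of_ne_of_ne
        · intro h3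
          apply h2
          rw [← h3, hs]
        · intro h3
          exact h1 (σ.injective h3)
      have hsupp : τ.support = (σ.support.erase a).erase (σ a) := by
        ext x
        rw [Finset.mem_erase, Finset.mem_erase, Perm.mem_support, Perm.mem_support]
        by_cases h1 : x = a
        · subst h1
          simp [t1]
        by_cases h2 : x = σ a
        · subst h2
          simp [t2]
        · rw [t3 x h1 h2]
          simp [h1, h2]
      have hcard : τ.support.card + 2 = σ.support.card := by
        have h1 : a ∈ σ.support := Perm.mem_support.2 ha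
        have h2 : σ a ∈ σ.support.erase a := Finset.mem_erase.2 ⟨ha, Perm.mem_support.2 hb⟩
        have h3 := Finset.card_erase_of_mem h1
        have h4 := Finset.card_erase_of_mem h2
        have h5 : 0 < σ.support.card := Finset.card_pos.2 ⟨a, h1⟩
        have h6 : 0 < (σ.support.erase a).card := Finset.card_pos.2 ⟨σ a, h2⟩
        rw [hsupp, h4]
        omega
      have hττ : τ * τ = 1 := by
        ext1 x
        rw [Perm.mul_apply, Perm.one_apply]
        by_cases h1 : x = a
        · rw [h1, t1, t1]
        by_cases h2 : x = σ a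
        · rw [h2, t2, t2]
        · rw [t3 x h1 h2]
          rw [t3, hs]
          · intro h3
            apply h2
            rw [← h3, hs]
          · intro h3
            exact h1 (σ.injective h3)
      obtain ⟨l, l1, l2, l3, l4, l5⟩ := ih τ.support.card (by omega) τ hττ rfl
      have hmem : ∀ x, x ∈ τ.support → x ∈ σ.support ∧ x ≠ a ∧ x ≠ σ a := by
        intro x hx
        rw [hsupp, Finset.mem_erase, Finset.mem_erase] at hx
        exact ⟨hx.2.2, hx.2.1, hx.1⟩
      refine ⟨(a, σ a) :: l, ?_, ?_, ?_, ?_, ?_⟩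
      · intro p hp
        rcases List.mem_cons.1 hp with rfl | hp
        · exact ha.symm
        · exact l1 p hp
      · intro p hp
        rcases List.mem_cons.1 hp with rfl | hp
        · exact ⟨Perm.mem_support.2 ha, Perm.mem_support.2 hb⟩
        · exact ⟨(hmem _ (l2 p hp).1).1, (hmem _ (l2 p hp).2).1⟩
      · refine List.Pairwise.cons ?_ l3
        intro p hp
        have h1 := hmem _ (l2 p hp).1
        have h2 := hmem _ (l2 p hp).2
        exact ⟨h1.2.1.symm, h2.2.1.symm, h1.2.2.symm, h2.2.2.symm⟩
      · rw [List.map_cons, List.prod_cons, ← l4, hτ, ← mul_assoc]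
        show σ = swap a (σ a) * swap a (σ a) * σ
        rw [swap_mul_self, one_mul]
      · rw [List.length_cons]
        omega

/-- the spin cover is non-split over a perfect permutation group one of whose involutions moves `8 k + 4` points -/
theorem exists_stem_of_support {G : Type} [Group G] [Finite G] (hperf : commutator G = ⊤) {n : ℕ}
    (ι : G →* Perm (Fin n)) {t : G} (ht : t * t = 1) {k : ℕ} (hk : (ι t).support.card = 8 * k + 4) :
    ∃ (Γ : Type) (_ : Group Γ) (_ : Finite Γ) (σ : Γ →* G), IsStemExtension σ ∧ Nat.card σ.ker = 2 := by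
  obtain ⟨l, l1, -, l3, l4, l5⟩ := exists_swaps (ι t) (by rw [← map_mul, ht, map_one])
  refine Cfsg.Agent.Lib.H92SpinCover.exists_stem_two hperf ι ht l l1 l3 l4 ?_
  have h1 : l.length = 4 * k + 2 := by omega
  rw [h1]
  have h2 : (4 * k + 2) * (4 * k + 2 + 1) / 2 = (2 * k + 1) * (4 * k + 3) := by
    rw [show (4 * k + 2) * (4 * k + 2 + 1) = 2 * ((2 * k + 1) * (4 * k + 3)) by ring]
    exact Nat.mul_div_cancel_left _ (by norm_num)
  rw [h2]
  exact Odd.mul ⟨k, rfl⟩ ⟨2 * k + 1, by ring⟩

/-- permutations of `ℕ` moving only small numbers -/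
noncomputable def restr {G : Type*} [Group G] (φ : G →* Perm ℕ) (N : ℕ) (h : ∀ g, ∀ i, N ≤ i → φ g i = i) :
    G →* Perm (Fin N) :=
  have hlt : ∀ g i, i < N → φ g i < N := by
    intro g i hi
    by_contra hcon
    have h1 := h g _ (not_lt.mp hcon)
    have h2 := (φ g).injective h1
    omega
  let _ : MulAction G (Fin N) :=
    { smul := fun g i => ⟨φ g i, hlt g i i.2⟩
      one_smul := fun i => Fin.ext (by show φ 1 i = i; rw [map_one]; rfl)
      mul_smul := fun g g' i => Fin.ext (by show φ (g * g') i = φ g (φ g' i); rw [map_mul]; rfl) }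
  MulAction.toPermHom G (Fin N)

theorem restr_apply {G : Type*} [Group G] (φ : G →* Perm ℕ) (N : ℕ) (h : ∀ g, ∀ i, N ≤ i → φ g i = i) (g : G)
    (i : Fin N) : ((restr φ N h g i : Fin N) : ℕ) = φ g i := rfl

/-- number of points moved -/
def cnt (f : ℕ → ℕ) (n : ℕ) : ℕ := Nat.rec 0 (fun i r => cond (Nat.beq (f i) i) r (Nat.succ r)) n

theorem cnt_eq (f : ℕ → ℕ) (n : ℕ) : cnt f n = ((Finset.range n).filter fun i => f i ≠ i).card := by
  induction n with
  | zero => rfl
  | succ n ih =>
    have h1 : cnt f (n + 1) = cond (Nat.beq (f n) n) (cnt f n) (Nat.succ (cnt f n)) := rfl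
    rw [h1, Finset.range_add_one, Finset.filter_insert, ih]
    by_cases h2 : f n = n
    · rw [h2, if_neg (by simp), Nat.beq_refl]; rfl
    · rw [if_pos h2, Finset.card_insert_of_notMem (by simp)]
      have : Nat.beq (f n) n = false := by
        cases h : Nat.beq (f n) n
        · rfl
        · exact absurd (Nat.eq_of_beq_eq_true h) h2
      rw [this]; rfl

theorem card_support {G : Type*} [Group G] (φ : G →* Perm ℕ) (N : ℕ) (h : ∀ g, ∀ i, N ≤ i → φ g i = i) (g : G)
    {f : ℕ → ℕ} (hf : ∀ i, φ g i = f i) : (restr φ N h g).support.card = cnt f N := by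
  rw [cnt_eq]
  refine Finset.card_bij (fun (i : Fin N) _ => (i : ℕ)) ?_ ?_ ?_
  · intro i hi
    rw [Perm.mem_support] at hi
    rw [Finset.mem_filter, Finset.mem_range]
    refine ⟨i.2, fun h1 => hi (Fin.ext ?_)⟩
    rw [restr_apply, hf, h1]
  · intro i _ j _ h1
    exact Fin.ext h1
  · intro j hj
    rw [Finset.mem_filter, Finset.mem_range] at hj
    refine ⟨⟨j, hj.1⟩, ?_, rfl⟩
    rw [Perm.mem_support]
    intro h1
    apply hj.2
    rw [← hf]
    exact congrArg Fin.val h1

end Cfsg.Agent.Lib.H13Swaps
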