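import Cfsg.Agent.Lib.H58J2Refl
import Cfsg.Prelude.Def_KGroupFacts

/-!
The central element of the double cover of the Hall-Janko group is a square; `2.J2` is a stem extension (helper58)
-/

set_option autoImplicit false

namespace Cfsg.Agent.Lib.H58J2

open Quaternion Cfsg.Spor ZT Ico

/-- the image of a vector under a generating reflection -/
def rV (k : ℕ) (v : V3) : V3 :=
  let r := Vt (GT.getD k 0)
  ⟨v.x - hf (hm v r * r.x), v.y - hf (hm v r * r.y), v.z - hf (hm v r * r.z)⟩

def rVok (k : ℕ) (v : V3) : Bool :=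
  let r := Vt (GT.getD k 0)
  decide (hf (hm v r * r.x) + hf (hm v r * r.x) = hm v r * r.x) &&
    (decide (hf (hm v r * r.y) + hf (hm v r * r.y) = hm v r * r.y) &&
      decide (hf (hm v r * r.z) + hf (hm v r * r.z) = hm v r * r.z))

theorem rV_comp {a b : Ico} (h : hf b + hf b = b) (c : ℍ[ℝ]) (hc : io b = c) :
    io a - ((1 / 2 : ℝ) : ℍ[ℝ]) * c = io (a - hf b) := by
  have h1 : ((1 / 2 : ℝ) : ℍ[ℝ]) * c = io (hf b) := by
    rw [← hc]
    conv_lhs => rw [← h, io_add, ← mul_two, ← mul_assoc, half_comm, mul_assoc, half_two, mul_one]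
  rw [h1, io_sub]

theorem rV_spec {k : ℕ} {v : V3} (h : rVok k v = true) : qrefl (Lv (Vt (GT.getD k 0))) (Lv v) = Lv (rV k v) := by
  unfold rVok at h
  simp only [Bool.and_eq_true, decide_eq_true_eq] at h
  obtain ⟨h1, h2, h3⟩ := h
  rw [qrefl_eq, qip_Lv]
  have e : ∀ (c d : ℍ[ℝ]), ((1 / 2 : ℝ) • c) * d = ((1 / 2 : ℝ) : ℍ[ℝ]) * (c * d) := by
    intro c d
    rw [← mul_assoc, Quaternion.coe_mul_eq_smul]
  funext t
  fin_cases t
  · show io v.x - ((1 / 2 : ℝ) • io (hm v (Vt (GT.getD k 0)))) * io (Vt (GT.getD k 0)).x = _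
    rw [e]
    exact rV_comp h1 _ (io_mul _ _)
  · show io v.y - ((1 / 2 : ℝ) • io (hm v (Vt (GT.getD k 0)))) * io (Vt (GT.getD k 0)).y = _
    rw [e]
    exact rV_comp h2 _ (io_mul _ _)
  · show io v.z - ((1 / 2 : ℝ) • io (hm v (Vt (GT.getD k 0)))) * io (Vt (GT.getD k 0)).z = _
    rw [e]
    exact rV_comp h3 _ (io_mul _ _)

/-- product of reflections in the double cover -/
noncomputable def Wr : List (Fin 5) → twoJ2
  | [] => 1
  | k :: w => ⟨rf (gIx k), rf_mem _⟩ * Wr w

def wVj : List (Fin 5) → V3 → V3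
  | [], v => v
  | k :: w, v => rV k (wVj w v)

def wVjok : List (Fin 5) → V3 → Bool
  | [], _ => true
  | k :: w, v => rVok k (wVj w v) && wVjok w v

theorem Wr_apply (w : List (Fin 5)) (v : V3) (x : icoLeech) (hx : (x : E) = Lv v) (h : wVjok w v = true) :
    (((Wr w : Equiv.Perm icoLeech) x : icoLeech) : E) = Lv (wVj w v) := by
  induction w with
  | nil => exact hx
  | cons k w ih =>
    unfold wVjok at h
    rw [Bool.and_eq_true] at h
    have h1 := ih h.2
    show ((rf (gIx k) ((Wr w : Equiv.Perm icoLeech) x) : icoLeech) : E) = Lv (rV k (wVj w v))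
    rw [← rV_spec h.1, ← h1]; rfl

theorem th_Wr (w : List (Fin 5)) : th (Wr w) = Wd w := by
  induction w with
  | nil => exact map_one th
  | cons k w ih =>
    show th (⟨rf (gIx k), rf_mem _⟩ * Wr w) = beP k * Wd w
    rw [map_mul, ih]
    congr 1
    exact congrArg Subtype.val (Tr_gen k)

def w2B : List (Fin 5) := [3, 1, 4, 3, 2, 4, 1, 0]

theorem w2B_sq : wOne (w2B ++ w2B) = true := by decide +kernel

theorem w2B_ok : wVjok (w2B ++ w2B) (Vt 0) = true := by decide +kernel

theorem w2B_ne : wVj (w2B ++ w2B) (Vt 0) ≠ Vt 0 := by decide +kernel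

theorem Wr_append (v w : List (Fin 5)) : Wr (v ++ w) = Wr v * Wr w := by
  induction v with
  | nil => rw [List.nil_append]; exact (one_mul _).symm
  | cons k v ih =>
    show _ * Wr (v ++ w) = _ * Wr v * Wr w
    rw [ih, mul_assoc]

/-- an element of order 4 squaring to `-1` -/
theorem exists_sqrt : ∃ w : twoJ2, w * w = ngW := by
  refine ⟨Wr w2B, ?_⟩
  rw [← Wr_append]
  have h1 : Wr (w2B ++ w2B) ∈ th.ker := by
    rw [MonoidHom.mem_ker, th_Wr]
    exact wOne_spec w2B_sq
  rw [ker_th, center_iff] at h1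
  rcases h1 with h | h
  · exfalso
    have h2 := Wr_apply (w2B ++ w2B) (Vt 0) (Rt 0) rfl w2B_ok
    rw [h] at h2
    exact w2B_ne (Lv_injective h2.symm)
  · exact h

theorem commutator_eq_top_of_simple {G : Type*} [Group G] [IsSimpleGroup G] {a b : G} (h : a * b ≠ b * a) :
    commutator G = ⊤ := by
  rcases (inferInstance : (commutator G).Normal).eq_bot_or_eq_top with h1 | h1
  · exfalso
    apply h
    rw [_root_.commutator_def, Subgroup.commutator_eq_bot_iff_le_centralizer] at h1
    have h2 := h1 (Subgroup.mem_top a)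
    rw [Subgroup.mem_centralizer_iff] at h2
    exact (h2 b (Subgroup.mem_top b)).symm
  · exact h1

/-- the noncommuting reflections -/
theorem sg_ncomm : sg 0 * sg 1 ≠ sg 1 * sg 0 := by
  have h : wNeq [0, 1] [1, 0] = true := by decide +kernel
  exact wNeq_spec h

theorem perfect5 : commutator (AG 5) = ⊤ := by
  have := simple5
  exact commutator_eq_top_of_simple sg_ncomm

theorem J2_perfect : commutator J2 = ⊤ := by
  have := simple_J2
  have e : AG 5 ≃* J2 := (MulEquiv.subgroupCongr AG_five).trans equivP.symm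
  apply commutator_eq_top_of_simple (a := e (sg 0)) (b := e (sg 1))
  intro h
  rw [← map_mul, ← map_mul] at h
  exact sg_ncomm (e.injective h)

theorem ng_sq : ngW * ngW = 1 := by
  apply Subtype.ext
  show ng * ng = 1
  ext1 x
  apply Subtype.ext
  rw [Equiv.Perm.mul_apply, ng_apply, ng_apply, neg_neg]; rfl

theorem center_le_commutator : Subgroup.center twoJ2 ≤ commutator twoJ2 := by
  set π : twoJ2 →* J2 := QuotientGroup.mk' (Subgroup.center twoJ2) with hπ
  have h1 : (commutator twoJ2).map π = ⊤ := by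
    rw [_root_.commutator_def, Subgroup.map_commutator, ← MonoidHom.range_eq_map,
      MonoidHom.range_eq_top.2 (QuotientGroup.mk'_surjective _)]
    exact J2_perfect
  obtain ⟨w, hw⟩ := exists_sqrt
  obtain ⟨c, hc, hcw⟩ : π w ∈ (commutator twoJ2).map π := by rw [h1]; trivial
  have h2 : c⁻¹ * w ∈ Subgroup.center twoJ2 := by
    rw [← QuotientGroup.eq]
    exact hcw
  have h3 : ngW ∈ commutator twoJ2 := by
    have h4 : w = c * (c⁻¹ * w) := by group
    have h5 : (c⁻¹ * w) * (c⁻¹ * w) = 1 := by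
      rcases (center_iff _).1 h2 with h | h
      · rw [h, one_mul]
      · rw [h, ng_sq]
    have h6 : w * w = c * c := by
      have h7 := Subgroup.mem_center_iff.1 h2 c
      calc w * w = c * (c⁻¹ * w) * (c * (c⁻¹ * w)) := by rw [← h4]
        _ = c * ((c⁻¹ * w) * c) * (c⁻¹ * w) := by group
        _ = c * c * ((c⁻¹ * w) * (c⁻¹ * w)) := by rw [← h7]; group
        _ = c * c := by rw [h5, mul_one]
    rw [← hw, h6]
    exact mul_mem hc hc
  intro z hz
  rcases (center_iff _).1 hz with rfl | rfl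
  · exact one_mem _
  · exact h3

theorem two_J2_stem : IsStemExtension (QuotientGroup.mk' (Subgroup.center twoJ2)) := by
  refine ⟨QuotientGroup.mk'_surjective _, ?_, ?_⟩
  · rw [QuotientGroup.ker_mk']
  · rw [QuotientGroup.ker_mk']
    exact center_le_commutator

end Cfsg.Agent.Lib.H58J2
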