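import Cfsg.Agent.Lib.H58SMU3
import Cfsg.Agent.Lib.H58SMJ2a
import Cfsg.Agent.Lib.H58SMJ2b
import Cfsg.Agent.Lib.H58SMJ2w

/-!
The stem extensions of the Hall-Janko group have kernels of order at most 2 (helper58)
-/

set_option autoImplicit false

namespace Cfsg.Agent.Lib.H58SM.J2

open Subgroup Cfsg.Agent.Lib.SchurSylow Cfsg.Agent.Lib.H58SM Cfsg.Agent.Lib.H58J2

theorem odds_congr {p : ℕ} [Fact p.Prime] {H K : Type*} [Group H] [Group K] (f : H ≃* K) (h : odds p H = ⊤) :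
    odds p K = ⊤ := by
  rw [eq_top_iff]
  intro y _
  have h1 : f.symm y ∈ odds p H := by rw [h]; trivial
  obtain ⟨N, hN, hx⟩ := h1
  refine ⟨N, hN, ?_⟩
  have h2 : f ((f.symm y) ^ N) ∈ (commutator H).map f.toMonoidHom := ⟨_, hx, rfl⟩
  rw [map_pow, f.apply_symm_apply, _root_.commutator_def, map_commutator] at h2
  refine commutator_mono le_top le_top h2

def P100L : List ℕ := [0, 4, 13, 14, 15, 16, 38, 36, 39, 40, 41, 11, 6, 42, 43, 37, 65, 72, 25, 73, 12, 55, 49, 74, 71, 75, 76, 68, 77, 78, 79, 80, 18, 33, 3, 34, 35, 21, 22, 23, 1, 58, 67, 70, 81, 82, 31, 91, 30, 7, 57, 96, 93, 46, 86, 20, 51, 95, 63, 83, 69, 62, 50, 97, 92, 53, 47, 64, 5, 24, 10, 60, 59, 52, 54, 26, 61, 56, 87, 90, 2, 19, 85, 88, 98, 84, 48, 9, 66, 44, 94, 29, 27, 17, 32, 89, 8, 28, 45, 99]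

def e100 (a : ℕ) : Fin 100 := ⟨P100L.getD a 0 % 100, Nat.mod_lt _ (by norm_num)⟩

def g100 (i : ℕ) : AG 5 := if h : i < 5 then sg ⟨i, h⟩ else 1

def fwdB (T : ℕ → ℕ → ℕ) : Bool :=
  alln (fun i => alln (fun a => Nat.beq (ap (bC i) (P100L.getD a 0 % 100)) (P100L.getD (T (Nat.mul 2 i) a) 0 % 100)) 100) 5

theorem fwd_of {T : ℕ → ℕ → ℕ} (h : fwdB T = true) : ∀ i < 5, ∀ a < 100, g100 i • e100 a = e100 (T (2 * i) a) := by
  intro i hi a ha
  have h := Sol.beq_iff.1 (alln_iff.1 (alln_iff.1 h i hi) a ha)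
  unfold g100
  rw [dif_pos hi]
  apply Fin.ext
  show ((beP ⟨i, hi⟩ (e100 a) : Fin 100) : ℕ) = _
  rw [Is_gen]
  exact h

set_option maxRecDepth 100000 in
theorem fwd2 : fwdB J22.D.T = true := by decide +kernel
set_option maxRecDepth 100000 in
theorem fwd5 : fwdB J25.D.T = true := by decide +kernel

theorem base100 : ∀ a < 100, e100 a = e100 0 → a = 0 := by decide +kernel

theorem act2 : Act 100 5 g100 e100 J22.D.T J22.D.pi J22.D.pq :=
  Dat.act_of (D := J22.D) (by decide) J22.tab1_ok J22.tab2_ok J22.tab3_ok (fwd_of fwd2) base100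

theorem act5 : Act 100 5 g100 e100 J25.D.T J25.D.pi J25.D.pq :=
  Dat.act_of (D := J25.D) (by decide) J25.tab1_ok J25.tab2_ok J25.tab3_ok (fwd_of fwd5) base100

theorem gen100 : closure {z | ∃ i < 5, z = g100 i} = ⊤ := by
  apply mem_of_gen
  intro k
  apply Subgroup.subset_closure
  refine ⟨k, k.2, ?_⟩
  unfold g100
  rw [dif_pos k.2]

theorem surj100 : ∀ x : Fin 100, ∃ a < 100, e100 a = x := by decide +kernel

theorem faith100 (y : AG 5) (h : ∀ a < 100, y • e100 a = e100 a) : y = 1 := by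
  apply Subtype.ext
  ext1 x
  obtain ⟨a, ha, rfl⟩ := surj100 x
  exact h a ha

def stabHom : AG 4 →* MulAction.stabilizer (AG 5) (e100 0) where
  toFun g := ⟨⟨g, AG45 g.2⟩, fix0 g.2⟩
  map_one' := rfl
  map_mul' _ _ := rfl

/-- the point stabilizer -/
noncomputable def stab4 : AG 4 ≃* MulAction.stabilizer (AG 5) (e100 0) :=
  MulEquiv.ofBijective stabHom (by
    constructor
    · intro g h hgh
      exact Subtype.ext (congrArg (fun z : MulAction.stabilizer (AG 5) (e100 0) => ((z : AG 5) : Pm)) hgh)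
    · rintro ⟨⟨g, hg⟩, hs⟩
      exact ⟨⟨g, mem_AG4 hg hs⟩, rfl⟩)

theorem odds4 : odds 2 (AG 4) = ⊤ := by
  rw [eq_top_iff, ← U3.gen224, closure_le]
  rintro _ ⟨i, hi, rfl⟩
  apply mem_odds_of_pow (N := 3) (by norm_num)
  have h : U332.D.nrOk U332.nr = true := U332.nr_ok
  have h3 : ∀ i < 3, ∃ j < U332.D.J, U332.D.W j = List.replicate 3 (2 * i) := by decide +kernel
  obtain ⟨j, hj, hW⟩ := h3 i hi
  rw [← ev_replicate, ← hW]
  exact Dat.rel_of (D := U332.D) U3.act224 U3.faith224 U332.w_ok U332.rel_ok j hj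

theorem two : PStemDvd 2 (AG 5) 2 :=
  pStemDvd_of_checks (s := 2) (q := 2) (N := 2) J22.D act2 gen100 (U3.two.congr stab4)
    (not_dvd_of_odds (odds_congr stab4 odds4)) J22.w_ok
    (Dat.rel_of (D := J22.D) act2 faith100 J22.w_ok J22.rel_ok) J22.nr J22.nr_ok J22.zl_ok rfl rfl (by decide)
    J22.chk_ok J22.gen_ok J22.par_ok (by decide) rfl

theorem five : PStemDvd 5 (AG 5) 1 := by
  have : Fact (Nat.Prime 5) := ⟨by norm_num⟩
  exact pStemDvd_of_checks' (s := 1) (q := 1) (N := 1) (c := 6048) J25.D act5 gen100 (by rw [card5]; rfl) (by norm_num)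
    J25.w_ok (Dat.rel_of (D := J25.D) act5 faith100 J25.w_ok J25.rel_ok) J25.nr J25.nr_ok J25.zl_ok rfl rfl
    (by decide) J25.chk_ok J25.gen_ok J25.par_ok (by intro r hr; cases hr) rfl

theorem three : PStemDvd 3 (AG 5) 1 := by
  have : Fact (Nat.Prime 3) := ⟨by norm_num⟩
  have h1 := act2.card_stabilizer gen100
  have h2 : (MulAction.stabilizer (AG 5) (e100 0)).index = 100 := by
    have h3 := (MulAction.stabilizer (AG 5) (e100 0)).card_mul_index
    rw [← h1, mul_comm] at h3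
    exact Nat.eq_of_mul_eq_mul_right Nat.card_pos h3
  exact PStemDvd.of_index (H := MulAction.stabilizer (AG 5) (e100 0)) (by rw [h2]; norm_num) (U3.three.congr stab4)

theorem stem_two : StemDvd (AG 5) 2 := by
  apply StemDvd.of_forall
  intro p hp
  have : Fact p.Prime := ⟨hp⟩
  by_cases h2 : p = 2
  · subst h2; exact two
  by_cases h3 : p = 3
  · subst h3; exact three.mono (one_dvd _)
  by_cases h5 : p = 5
  · subst h5; exact five.mono (one_dvd _)
  refine PStemDvd.mono ?_ (one_dvd 2)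
  apply Cfsg.Agent.Lib.H92Stem.pStemDvd_of_sq
  rw [card5]
  intro hd
  have h1 : p ∣ 604800 := (dvd_pow_self p two_ne_zero).trans hd
  have h4 : p ∈ Nat.primeFactors 604800 := Nat.mem_primeFactors.2 ⟨hp, h1, by norm_num⟩
  have h6 : Nat.primeFactors 604800 = {2, 3, 5, 7} := by
    rw [show (604800 : ℕ) = 2 ^ 7 * (3 ^ 3 * (5 ^ 2 * 7)) by norm_num]
    rw [Nat.primeFactors_mul (by norm_num) (by norm_num), Nat.primeFactors_mul (by norm_num) (by norm_num),
      Nat.primeFactors_mul (by norm_num) (by norm_num), Nat.primeFactors_prime_pow (by norm_num) (by norm_num),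
      Nat.primeFactors_prime_pow (by norm_num) (by norm_num), Nat.primeFactors_prime_pow (by norm_num) (by norm_num),
      Nat.Prime.primeFactors (by norm_num)]
    decide
  rw [h6] at h4
  simp only [Finset.mem_insert, Finset.mem_singleton] at h4
  have h7 : p = 7 := by tauto
  subst h7
  revert hd
  norm_num

end Cfsg.Agent.Lib.H58SM.J2
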