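import Cfsg.Agent.Lib.SMGen
import Cfsg.Agent.Lib.G2J2
import Cfsg.Agent.Lib.H13G4Dat
import Cfsg.Agent.Lib.H13Swaps
import Cfsg.Agent.Lib.H58SMJ2
import Cfsg.Agent.Lib.H58SMx

/-!
Stem extensions of `G₂(4)`, as the point stabilizer of the presented Suzuki group (helper13)
-/

set_option autoImplicit false
set_option linter.all false
set_option maxRecDepth 100000

namespace Cfsg.Agent.Lib.H13G4

open Cfsg.Spor Cfsg.Agent.Lib.BenesPerm Cfsg.Agent.Lib.BenesAct Cfsg.Agent.Lib.BenesWord
open Cfsg.Agent.Lib.CosetClosure Cfsg.Agent.Lib.CosetFacts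
open Cfsg.Agent.Lib.CosetMain Cfsg.Agent.Lib.CoxBridge Cfsg.Agent.Lib.CosetGroup Cfsg.Agent.Lib.CosetInst Cfsg.Agent.Lib.CosetInj
open Cfsg.Agent.Lib.BenesPack Cfsg.Agent.Lib.CosetPack Cfsg.Agent.Lib.CosetOrder Cfsg.Agent.Lib.CosetChain
open Cfsg.Agent.Lib.SuzRel Cfsg.Agent.Lib.SuzNetsA Cfsg.Agent.Lib.SuzCertA Cfsg.Agent.Lib.SuzA
open Cfsg.Agent.Lib.G2J2Data Cfsg.Agent.Lib.PrimLane Cfsg.Agent.Lib.LabHom Cfsg.Agent.Lib.SliceTab
open Cfsg.Agent.Lib.H58J2 (beP bC ap P100 Is_gen)
open Cfsg.Agent.Lib.G2J2 Cfsg.Agent.Lib.SchurSylow Cfsg.Agent.Lib.H58SM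

/-- the presented Suzuki group -/
abbrev Sz : Type := CoxPresented Suz.Gen Suz.edges Suz.extra

section

variable {φ : Sz →* Equiv.Perm ℕ} (hφ : ∀ c, φ (C.x HL c) = sperm nets c)
include hφ

theorem phi_x (c i : ℕ) : φ (C.x HL c) i = sig nets c i := by
  rw [hφ, sperm_apply hok]

theorem phi_fix (g : Sz) (i : ℕ) (hi : 2048 ≤ i) : φ g i = i := by
  have hg : g ∈ Subgroup.closure (wset (C.x HL) (letterW C.ng)) := by
    rw [C.closure_letters HL]; trivial
  induction hg using Subgroup.closure_induction with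
  | mem g hg =>
    obtain ⟨W, hW, rfl⟩ := hg
    have h1 : ∀ c, φ (C.x HL c) i = i := by
      intro c
      rw [phi_x hφ]
      exact Net.fn_of_le (check_netOf c_nets c) hi
    have h2 : ∃ c, W = Wd.g c := by
      unfold letterW at hW
      obtain ⟨c, -, rfl⟩ := List.mem_map.mp hW
      exact ⟨c, rfl⟩
    obtain ⟨c, rfl⟩ := h2
    exact h1 c
  | one => rw [map_one]; rfl
  | mul a b _ _ iha ihb => rw [map_mul, Equiv.Perm.mul_apply, ihb, iha]
  | inv a _ iha => rw [map_inv, Equiv.Perm.inv_eq_iff_eq, iha]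

end

theorem cnt_ok : H13Swaps.cnt (sig nets 3) 2048 = 1740 := by decide +kernel

/-- the involution -/
theorem x3_sq : C.x HL 3 * C.x HL 3 = 1 := (C.rel_x HL).2.2 3 (by decide)

/-- the double cover of the presented Suzuki group -/
theorem suz_stem : ∃ (Γ : Type) (_ : Group Γ) (_ : Finite Γ) (σ : Γ →* Sz), IsStemExtension σ ∧ Nat.card σ.ker = 2 := by
  obtain ⟨hsimp, hcard, φ, hφ, hinj, hbase⟩ := SuzOrd.main
  haveI : Finite Sz := Nat.finite_of_card_ne_zero (by rw [hcard]; norm_num)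
  refine H13Swaps.exists_stem_of_support (perfect_of_simple hsimp (by rw [hcard]; norm_num))
    (H13Swaps.restr φ 2048 (phi_fix hφ)) x3_sq (k := 217) ?_
  rw [H13Swaps.card_support φ 2048 (phi_fix hφ) _ (phi_x hφ 3), cnt_ok]

/-- a double cover of the point stabilizer `G₂(4)` -/
theorem g4_stem (H : Subgroup Sz) (hH : H = Subgroup.closure (wset (C.x HL) WS)) (hperf : commutator H = ⊤) :
    ∃ (Γ : Type) (_ : Group Γ) (_ : Finite Γ) (σ : Γ →* H), IsStemExtension σ ∧ Nat.card σ.ker = 2 := by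
  obtain ⟨hsimp, hcard, φ, hφ, hinj, hbase⟩ := SuzOrd.main
  haveI : Finite Sz := Nat.finite_of_card_ne_zero (by rw [hcard]; norm_num)
  have hx : C.x HL 3 ∈ H := by
    rw [hH]
    exact Subgroup.subset_closure ⟨Wd.g 3, by simp [WS], rfl⟩
  refine H13Swaps.exists_stem_of_support hperf
    ((H13Swaps.restr φ 2048 (phi_fix hφ)).comp H.subtype) (t := ⟨C.x HL 3, hx⟩) (Subtype.ext x3_sq) (k := 217) ?_
  show ((H13Swaps.restr φ 2048 (phi_fix hφ)) (C.x HL 3)).support.card = _
  rw [H13Swaps.card_support φ 2048 (phi_fix hφ) _ (phi_x hφ 3), cnt_ok]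

/-! ### the action on 416 points -/

theorem fwdB : alln (fun i => alln (fun a => Nat.beq (sig nets i (G24.ln a)) (G24.ln (G24.Q.toDat.T (Nat.mul 2 i) a))) 416) 6 = true := by
  decide +kernel
theorem baseB : alln (fun a => cond (Nat.beq (G24.ln a) (G24.ln 0)) (Nat.beq a 0) true) 416 = true := by decide +kernel

/-- image of a lane under the value of a word -/
noncomputable def path : List ℕ → ℕ → ℕ
  | [], b => b
  | l :: w, b => frc (sig nets (Nat.div l 2) b) fun c => path w c

def bs (i : ℕ) : ℕ := ([160, 2, 1, 0] : List ℕ).getD i 0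

theorem relB : alln (fun j => alln (fun i => Nat.beq (path (G24.WL.getD j []) (bs i)) (bs i)) 4) 20 = true := by decide +kernel
theorem evB : alln (fun j => (G24.WL.getD j []).all fun l => Nat.beq (Nat.mod l 2) 0 && Nat.blt l 12) 20 = true := by decide +kernel

theorem stemJ2 : StemDvd J2 2 :=
  H58SM.J2.stem_two.congr ((MulEquiv.subgroupCongr H58J2.AG_five).trans H58J2.equivP.symm)

section

variable (H : Subgroup Sz) (hH : H = Subgroup.closure (wset (C.x HL) WS))
include hH

theorem x_mem {i : ℕ} (hi : i < 6) : C.x HL i ∈ H := by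
  rw [hH]
  refine Subgroup.subset_closure ⟨Wd.g i, ?_, rfl⟩
  interval_cases i <;> simp [WS]

/-- the generators -/
noncomputable def gI (i : ℕ) : H := if h : i < 6 then ⟨C.x HL i, x_mem H hH h⟩ else 1

theorem gI_coe {i : ℕ} (hi : i < 6) : (gI H hH i : Sz) = C.x HL i := by
  unfold gI; rw [dif_pos hi]

theorem gI_gen : Subgroup.closure {z | ∃ i < 6, z = gI H hH i} = ⊤ := by
  have h1 : ∀ y (hy : y ∈ Subgroup.closure (wset (C.x HL) WS)), (⟨y, hH ▸ hy⟩ : H) ∈ Subgroup.closure {z | ∃ i < 6, z = gI H hH i} := by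
    intro y hy
    induction hy using Subgroup.closure_induction with
    | mem y hy =>
      obtain ⟨W, hW, rfl⟩ := hy
      have h2 : ∃ i < 6, W = Wd.g i := by
        simp only [WS, List.mem_cons, List.not_mem_nil, or_false] at hW
        rcases hW with rfl | rfl | rfl | rfl | rfl | rfl
        · exact ⟨0, by norm_num, rfl⟩
        · exact ⟨1, by norm_num, rfl⟩
        · exact ⟨2, by norm_num, rfl⟩
        · exact ⟨3, by norm_num, rfl⟩
        · exact ⟨4, by norm_num, rfl⟩
        · exact ⟨5, by norm_num, rfl⟩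
      obtain ⟨i, hi, rfl⟩ := h2
      exact Subgroup.subset_closure ⟨i, hi, Subtype.ext (gI_coe H hH hi).symm⟩
    | one => exact Subgroup.one_mem _
    | mul a b ha hb iha ihb => exact Subgroup.mul_mem _ iha ihb
    | inv a ha iha => exact Subgroup.inv_mem _ iha
  rw [eq_top_iff]
  rintro ⟨y, hy⟩ _
  exact h1 y (hH ▸ hy)

theorem ev_phi {φ : Sz →* Equiv.Perm ℕ} (hφ : ∀ c, φ (C.x HL c) = sperm nets c) (w : List ℕ)
    (hw : ∀ l ∈ w, l % 2 = 0 ∧ l < 12) (b : ℕ) : φ (ev (gI H hH) w : H) b = path w b := by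
  induction w generalizing b with
  | nil => rw [ev_nil]; show φ 1 b = b; rw [map_one]; rfl
  | cons l w ih =>
    obtain ⟨h1, h2⟩ := hw l List.mem_cons_self
    rw [ev_cons]
    show φ (((ev (gI H hH) w : H) : Sz) * ((H58SM.lt (gI H hH) l : H) : Sz)) b = frc _ _
    rw [frc_eq, map_mul, Equiv.Perm.mul_apply]
    have h3 : ((H58SM.lt (gI H hH) l : H) : Sz) = C.x HL (l / 2) := by
      unfold H58SM.lt
      rw [if_pos h1, gI_coe H hH (by omega)]
    rw [h3, phi_x hφ, ih fun l hl => hw l (List.mem_cons_of_mem _ hl)]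
    rfl

theorem rels : ∀ j < 20, ev (gI H hH) (G24.WL.getD j []) = 1 := by
  intro j hj
  obtain ⟨hsimp, hcard, φ, hφ, hinj, hbase⟩ := SuzOrd.main
  have h1 := alln_iff.1 evB j hj
  rw [List.all_eq_true] at h1
  apply Subtype.ext
  apply hbase
  intro b hb
  rw [ev_phi H hH hφ _ (by
    intro l hl
    have h2 := h1 l hl
    rw [Bool.and_eq_true] at h2
    exact ⟨Sol.beq_iff.1 h2.1, Sol.blt_iff.1 h2.2⟩)]
  have h3 : ∃ i < 4, b = bs i := by
    simp only [List.mem_cons, List.not_mem_nil, or_false] at hb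
    rcases hb with rfl | rfl | rfl | rfl
    · exact ⟨0, by norm_num, rfl⟩
    · exact ⟨1, by norm_num, rfl⟩
    · exact ⟨2, by norm_num, rfl⟩
    · exact ⟨3, by norm_num, rfl⟩
  obtain ⟨i, hi, rfl⟩ := h3
  exact Sol.beq_iff.1 (alln_iff.1 (alln_iff.1 relB j hj) i hi)

/-- the stabilizer of lane `995` is `J₂` -/
theorem stabJ {φ : Sz →* Equiv.Perm ℕ} (hφ : ∀ c, φ (C.x HL c) = sperm nets c)
    (hcard : Nat.card Sz = 448345497600) :
    Nat.card H = 251596800 ∧ Nonempty (stab φ H 995 ≃* J2) ∧ ((stab φ H 995).subgroupOf H).index = 416 := by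
  have hidx : H.index = 1782 := (Cfsg.Agent.Lib.SuzAIdx.main H hH).1
  have hcH : Nat.card H = 251596800 := by
    have h1 := H.card_mul_index
    rw [hidx, hcard] at h1
    omega
  have hOH : ∀ j, (∃ g ∈ H, φ g 995 = j) ↔ OM.testBit j = true := by
    intro j
    rw [hH]
    exact orbit_lanes c_nets hφ x_iv WS stH h_inv h_reach j
  set J := Subgroup.closure (wset (C.x HL) W0) with hJ
  have hJH : J ≤ H := by
    rw [hJ, hH]
    apply Subgroup.closure_mono
    rintro _ ⟨W, hW, rfl⟩
    refine ⟨W, ?_, rfl⟩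
    revert W hW
    decide
  have hJf : ∀ g ∈ J, φ g 995 = 995 := fix_lane c_nets hφ x_iv W0 f0
  have hJS : J ≤ stab φ H 995 := fun g hg => ⟨hJH hg, hJf g hg⟩
  have hOJ1 : ∀ j, (∃ g ∈ J, φ g 47 = j) ↔ O1.testBit j = true := by
    intro j
    rw [← m00]
    exact orbit_lanes c_nets hφ x_iv W0 (s0 0) (i0 0) (r0 0) j
  have hX : ∀ g ∈ J, ∀ i ∈ {i | O1.testBit i = true}, φ g i ∈ {i | O1.testBit i = true} := by
    intro g hg i hi
    obtain ⟨h, hh, rfl⟩ := (hOJ1 i).mpr hi
    exact (hOJ1 _).mp ⟨g * h, J.mul_mem hg hh, by rw [map_mul]; rfl⟩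
  -- the homomorphism to `Perm (Fin 100)`
  have hJW : ∀ k : Fin 5, (Wd.g k.val).eval (C.x HL) ∈ J := by
    intro k
    apply Subgroup.subset_closure
    refine ⟨Wd.g k.val, ?_, rfl⟩
    revert k; decide
  have hJV : ∀ k : Fin 5, (v k).eval (C.x HL) ∈ J := by
    have key : ∀ W : Wd, (W.flat iv).all (fun c => Nat.blt c 5) = true → W.eval (C.x HL) ∈ J := by
      intro W hW
      rw [← Wd.eval_flat (C.x HL) iv x_iv W]
      apply Subgroup.list_prod_mem
      intro g hg
      obtain ⟨c, hc, rfl⟩ := List.mem_map.mp hg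
      rw [List.all_eq_true] at hW
      have h1 := hW c hc
      rw [Nat.blt_eq] at h1
      exact hJW ⟨c, h1⟩
    intro k
    apply key
    revert k; decide +kernel
  have e1 : ∀ k : Fin 5, hom Lb φ J hX ⟨_, hJW k⟩ = ((u k).map beP).prod := by
    intro k
    ext x
    rw [hom_word hφ hX (hJW k) (fun v hv => sg_lt _ hv) (t1 k) x, sg_spec]
  have e2 : ∀ k : Fin 5, hom Lb φ J hX ⟨_, hJV k⟩ = beP k := by
    intro k
    ext x
    rw [hom_word hφ hX (hJV k) (fun v _ => ap_lt _ _) (t2 k) x, Is_gen]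
  have hrange : (hom Lb φ J hX).range = P100 := by
    apply le_antisymm
    · rintro _ ⟨⟨g, hg⟩, rfl⟩
      have key : ∀ g (hg : g ∈ J), hom Lb φ J hX ⟨g, hg⟩ ∈ P100 := by
        intro g hg
        induction hg using Subgroup.closure_induction with
        | mem g hg' =>
          obtain ⟨W, hW, rfl⟩ := hg'
          have hk : ∃ k : Fin 5, W = Wd.g k.val := by
            simp only [W0, List.mem_cons, List.not_mem_nil, or_false] at hW
            rcases hW with rfl | rfl | rfl | rfl | rfl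
            · exact ⟨0, rfl⟩
            · exact ⟨1, rfl⟩
            · exact ⟨2, rfl⟩
            · exact ⟨3, rfl⟩
            · exact ⟨4, rfl⟩
          obtain ⟨k, rfl⟩ := hk
          rw [e1 k]
          apply Subgroup.list_prod_mem
          intro y hy
          obtain ⟨c, _, rfl⟩ := List.mem_map.mp hy
          exact Subgroup.subset_closure ⟨c, rfl⟩
        | one => exact (map_one (hom Lb φ J hX)).symm ▸ P100.one_mem
        | mul a b ha hb iha ihb =>
          have := P100.mul_mem iha ihb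
          rw [← map_mul] at this
          exact this
        | inv a ha iha =>
          have := P100.inv_mem iha
          rw [← map_inv] at this
          exact this
      exact key g hg
    · unfold P100
      rw [Subgroup.closure_le]
      rintro _ ⟨k, rfl⟩
      exact ⟨_, e2 k⟩
  have hidx4 : ((stab φ H 995).subgroupOf H).index = 416 := by
    have h1 := relIndex_stab φ H 995
    have h2 : orb φ H 995 = {j | OM.testBit j = true} := Set.ext hOH
    rw [h2, ncard_bits om_lt, om_pop] at h1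
    exact h1
  have hcS : Nat.card (stab φ H 995) = 604800 := by
    have h3 := Subgroup.card_mul_index ((stab φ H 995).subgroupOf H)
    rw [hidx4, hcH, Nat.card_congr (Subgroup.subgroupOfEquivOfLe (stab_le φ H 995)).toEquiv] at h3
    omega
  have hfS : Finite (stab φ H 995) := Nat.finite_of_card_ne_zero (by rw [hcS]; norm_num)
  have hfJ : Finite J := Finite.of_injective (Subgroup.inclusion hJS) (Subgroup.inclusion_injective _)
  have hcP : Nat.card (hom Lb φ J hX).range = 604800 := by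
    rw [hrange]; exact H58J2.card_P100
  have hcJ : 604800 ≤ Nat.card J := by
    rw [← hcP]
    exact Nat.card_le_card_of_surjective _ (hom Lb φ J hX).rangeRestrict_surjective
  have hJeq : J = stab φ H 995 := by
    apply Subgroup.eq_of_le_of_card_ge hJS
    rw [hcS]; exact hcJ
  have hcJ' : Nat.card J = 604800 := by rw [hJeq, hcS]
  have hbij : Function.Bijective (hom Lb φ J hX).rangeRestrict := by
    refine (Nat.bijective_iff_surjective_and_card _).mpr ⟨(hom Lb φ J hX).rangeRestrict_surjective, ?_⟩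
    rw [hcJ', hcP]
  have eJ : J ≃* J2 := (MulEquiv.ofBijective _ hbij).trans
    ((MulEquiv.subgroupCongr hrange).trans H58J2.equivP.symm)
  exact ⟨hcH, ⟨(MulEquiv.subgroupCongr hJeq.symm).trans eJ⟩, hidx4⟩

theorem two : PStemDvd 2 H 2 := by
  obtain ⟨hsimp, hcard, φ, hφ, hinj, hbase⟩ := SuzOrd.main
  obtain ⟨hcH, ⟨eJ⟩, -⟩ := stabJ H hH hφ hcard
  haveI : Finite H := Nat.finite_of_card_ne_zero (by rw [hcH]; norm_num)
  letI : MulAction H ℕ := MulAction.compHom ℕ (φ.comp H.subtype)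
  have hsm : ∀ (h : H) (i : ℕ), h • i = φ h i := fun _ _ => rfl
  have A : Act G24.Q.toDat.n G24.Q.toDat.k (gI H hH) G24.ln G24.Q.toDat.T G24.Q.toDat.pi G24.Q.toDat.pq := by
    refine Dat.act_of (by decide) G24.tab1_ok G24.tab2_ok G24.tab3_ok ?_ ?_
    · intro i hi a ha
      have hi : i < 6 := hi
      rw [hsm, gI_coe H hH hi, phi_x hφ]
      exact Sol.beq_iff.1 (alln_iff.1 (alln_iff.1 fwdB i hi) a ha)
    · intro a ha h
      have h1 := alln_iff.1 baseB a ha
      rw [h, Nat.beq_refl] at h1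
      exact Sol.beq_iff.1 h1
  have e0 : G24.ln 0 = 995 := by decide +kernel
  let e : MulAction.stabilizer H (G24.ln 0) ≃* J2 :=
    (MulEquiv.subgroupCongr (show MulAction.stabilizer H (G24.ln 0) = (stab φ H 995).subgroupOf H by
      ext ⟨y, hy⟩
      rw [MulAction.mem_stabilizer_iff, Subgroup.mem_subgroupOf, e0]
      exact ⟨fun h => ⟨hy, h⟩, fun h => h.2⟩)).trans
      ((Subgroup.subgroupOfEquivOfLe (stab_le φ H 995)).trans eJ)
  have hJc : Nat.card J2 = 604800 := H58J2.card_J2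
  haveI : Finite J2 := Nat.finite_of_card_ne_zero (by rw [hJc]; norm_num)
  have hperf : commutator J2 = ⊤ := perfect_of_simple H58J2.simple_J2 (by rw [hJc]; norm_num)
  have hab : ¬ 2 ∣ (commutator (MulAction.stabilizer H (G24.ln 0))).index := by
    have h1 : commutator (MulAction.stabilizer H (G24.ln 0)) = ⊤ := by
      have h2 : (commutator (MulAction.stabilizer H (G24.ln 0))).map e.toMonoidHom = ⊤ := by
        rw [_root_.commutator_def, Subgroup.map_commutator, Subgroup.map_top_of_surjective _ e.surjective]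
        exact hperf
      rw [eq_top_iff]
      intro y _
      have h3 : e y ∈ (commutator (MulAction.stabilizer H (G24.ln 0))).map e.toMonoidHom := by rw [h2]; trivial
      obtain ⟨z, hz, hzy⟩ := h3
      have h4 : z = y := e.injective hzy
      rw [← h4]; exact hz
    rw [h1, Subgroup.index_top]
    norm_num
  have h := SMGen.pStemDvd_of_checks_gen (p := 2) (s := 1) (q := 1) (N := 1) (M := 2) G24.Q.toDat A (gI_gen H hH)
    ((stemJ2.pStemDvd 2).congr e.symm) hab G24.w_ok (fun j hj => rels H hH j hj) G24.nr G24.nr_ok G24.zl_ok rfl rfl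
    (by decide) G24.chk_ok G24.gen_ok G24.par_ok (fun r hr => absurd (show r ∈ ([] : List (ℕ × ℕ × List (ℕ × ℕ))) from hr) List.not_mem_nil) rfl
  exact h

theorem odd_part {p : ℕ} (hp : p.Prime) (h2 : p ≠ 2) : PStemDvd p H 1 := by
  haveI : Fact p.Prime := ⟨hp⟩
  obtain ⟨hsimp, hcard, φ, hφ, hinj, hbase⟩ := SuzOrd.main
  obtain ⟨hcH, ⟨eJ⟩, hidx⟩ := stabJ H hH hφ hcard
  haveI : Finite H := Nat.finite_of_card_ne_zero (by rw [hcH]; norm_num)
  by_cases h13 : p = 13
  · subst h13
    exact H92Stem.pStemDvd_of_sq (by rw [hcH]; norm_num)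
  · have h1 : PStemDvd p J2 1 := by
      intro Γ _ _ σ hσ hpg
      have h3 := stemJ2 Γ σ hσ
      obtain ⟨k, hk⟩ := IsPGroup.iff_card.1 hpg
      rw [hk] at h3 ⊢
      rcases Nat.eq_zero_or_pos k with h4 | h4
      · rw [h4, pow_zero]
      · exfalso
        have h5 : p ∣ 2 := (dvd_pow_self p h4.ne').trans h3
        exact h2 ((Nat.prime_dvd_prime_iff_eq hp Nat.prime_two).1 h5)
    have h4 : ¬ p ∣ ((stab φ H 995).subgroupOf H).index := by
      rw [hidx]
      intro h5
      have h6 : p ∣ 2 ^ 5 * 13 := h5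
      rcases (Nat.Prime.dvd_mul hp).1 h6 with h7 | h7
      · exact h2 ((Nat.prime_dvd_prime_iff_eq hp Nat.prime_two).1 (hp.dvd_of_dvd_pow h7))
      · exact h13 ((Nat.prime_dvd_prime_iff_eq hp (by norm_num)).1 h7)
    exact PStemDvd.of_index h4 (h1.congr ((Subgroup.subgroupOfEquivOfLe (stab_le φ H 995)).trans eJ).symm)

theorem stem_H : StemDvd H 2 := by
  apply StemDvd.of_forall
  intro p hp
  by_cases h2 : p = 2
  · subst h2; exact two H hH
  · exact (odd_part H hH hp h2).mono (one_dvd _)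

end

end Cfsg.Agent.Lib.H13G4
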