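import Cfsg.Agent.Lib.H15BergerA
import Cfsg.Agent.Lib.PGroupOdd
import Cfsg.Agent.Lib.MinNormSolv

set_option autoImplicit false

/-!
# Group theory for Berger's theorem (helper15)
-/

namespace Cfsg.Agent.Lib.H15Berger

open Cfsg

universe u v

/-- `G / N` is solvable. -/
def SolvMod {G : Type u} [Group G] (N : Subgroup G) : Prop := ∃ n : ℕ, derivedSeries G n ≤ N

theorem solvMod_iff {G : Type u} [Group G] (N : Subgroup G) [N.Normal] :
    SolvMod N ↔ Group.IsSolvable (G ⧸ N) := by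
  constructor
  · rintro ⟨n, hn⟩
    refine ⟨n, ?_⟩
    rw [← map_derivedSeries_eq (QuotientGroup.mk'_surjective N) n, Subgroup.map_eq_bot_iff,
      QuotientGroup.ker_mk']
    exact hn
  · rintro ⟨n, hn⟩
    refine ⟨n, ?_⟩
    rw [← map_derivedSeries_eq (QuotientGroup.mk'_surjective N) n, Subgroup.map_eq_bot_iff,
      QuotientGroup.ker_mk'] at hn
    exact hn

theorem SolvMod.mono {G : Type u} [Group G] {N M : Subgroup G} (h : SolvMod N) (hNM : N ≤ M) :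
    SolvMod M := by
  obtain ⟨n, hn⟩ := h
  exact ⟨n, hn.trans hNM⟩

theorem SolvMod.comap {G : Type u} {F : Type v} [Group G] [Group F] {N : Subgroup G}
    (h : SolvMod N) (f : F →* G) : SolvMod (N.comap f) := by
  obtain ⟨n, hn⟩ := h
  refine ⟨n, ?_⟩
  rw [← Subgroup.map_le_iff_le_comap]
  exact (map_derivedSeries_le_derivedSeries f n).trans hn

/-- Chief factors above `N`. -/
theorem exists_chief {G : Type u} [Group G] [Finite G] {N : Subgroup G} [hN : N.Normal]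
    (hsol : SolvMod N) (hne : N ≠ ⊤) :
    ∃ (M : Subgroup G) (p : ℕ), M.Normal ∧ N < M ∧ p.Prime ∧ (∀ x ∈ M, x ^ p ∈ N) ∧
      (∀ x ∈ M, ∀ y ∈ M, x * y * x⁻¹ * y⁻¹ ∈ N) ∧
      (∀ K : Subgroup G, K.Normal → N ≤ K → K ≤ M → K = N ∨ K = M) := by
  have hsolG : Group.IsSolvable (G ⧸ N) := (solvMod_iff N).mp hsol
  have hfin : {B : Subgroup G | B.Normal ∧ N < B}.Finite := Set.toFinite _
  obtain ⟨B, hB⟩ := hfin.exists_minimal ⟨⊤, inferInstance, lt_top_iff_ne_top.mpr hne⟩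
  obtain ⟨hBn, hNB⟩ := hB.prop
  let M := B.map (QuotientGroup.mk' N)
  have hMn : M.Normal := hBn.map _ (QuotientGroup.mk'_surjective N)
  have hM0 : M ≠ ⊥ := by
    intro h
    rw [Subgroup.map_eq_bot_iff, QuotientGroup.ker_mk'] at h
    exact absurd h (not_le_of_gt hNB)
  have hcomap : M.comap (QuotientGroup.mk' N) = B := by
    rw [Subgroup.comap_map_eq, QuotientGroup.ker_mk', sup_eq_left]
    exact hNB.le
  have hminB : ∀ K : Subgroup G, K.Normal → N ≤ K → K ≤ B → K = N ∨ K = B := by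
    intro K hK h1 h2
    rcases h1.lt_or_eq with h3 | h3
    · right
      exact le_antisymm h2 (hB.le_of_le ⟨hK, h3⟩ h2)
    · left; exact h3.symm
  have hmin : ∀ K : Subgroup (G ⧸ N), K.Normal → K ≤ M → K = ⊥ ∨ K = M := by
    intro K hK hKM
    have h1 : N ≤ K.comap (QuotientGroup.mk' N) := by
      intro x hx
      have : (QuotientGroup.mk' N) x = 1 := (QuotientGroup.eq_one_iff x).mpr hx
      rw [Subgroup.mem_comap, this]
      exact K.one_mem
    have h2 : K.comap (QuotientGroup.mk' N) ≤ B := by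
      rw [← hcomap]; exact Subgroup.comap_mono hKM
    have h3 : K = (K.comap (QuotientGroup.mk' N)).map (QuotientGroup.mk' N) :=
      (Subgroup.map_comap_eq_self_of_surjective (QuotientGroup.mk'_surjective N) K).symm
    rcases hminB _ (hK.comap _) h1 h2 with h4 | h4
    · left
      rw [h3, h4, Subgroup.map_eq_bot_iff, QuotientGroup.ker_mk']
    · right
      rw [h3, h4]
  obtain ⟨q, hq, hcomm, hqM⟩ := MinNormSolv.elementary_of_minimal hM0 hmin
  refine ⟨B, q, hBn, hNB, hq, fun x hx => ?_, fun x hx y hy => ?_, hminB⟩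
  · have h1 := hqM _ (Subgroup.mem_map_of_mem (QuotientGroup.mk' N) hx)
    rw [← map_pow] at h1
    exact (QuotientGroup.eq_one_iff _).mp h1
  · have h1 := hcomm.is_comm.comm ⟨_, Subgroup.mem_map_of_mem (QuotientGroup.mk' N) hx⟩
      ⟨_, Subgroup.mem_map_of_mem (QuotientGroup.mk' N) hy⟩
    have h2 := congrArg Subtype.val h1
    simp only [Subgroup.coe_mul] at h2
    rw [← QuotientGroup.eq_one_iff]
    have h3 : ((x * y * x⁻¹ * y⁻¹ : G) : G ⧸ N) =
        (QuotientGroup.mk' N x * QuotientGroup.mk' N y) *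
          (QuotientGroup.mk' N x)⁻¹ * (QuotientGroup.mk' N y)⁻¹ := rfl
    rw [h3, h2]
    group

/-- The first configuration: `M/N` a chief factor complemented by the maximal subgroup `H/N`. -/
structure Cfg {G : Type u} [Group G] (N M H : Subgroup G) (p : ℕ) : Prop where
  hN : N.Normal
  hM : M.Normal
  hNM : N < M
  hNH : N ≤ H
  hinf : ∀ x ∈ M, x ∈ H → x ∈ N
  hmul : ∀ g : G, ∃ m ∈ M, ∃ h ∈ H, g = m * h
  hp : p.Prime
  hpM : ∀ x ∈ M, x ^ p ∈ N
  hcM : ∀ x ∈ M, ∀ y ∈ M, x * y * x⁻¹ * y⁻¹ ∈ N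
  hmin : ∀ K : Subgroup G, K.Normal → N ≤ K → K ≤ M → K = N ∨ K = M
  hfaith : ∀ h ∈ H, (∀ m ∈ M, h * m * h⁻¹ * m⁻¹ ∈ N) → h ∈ N

theorem exists_cfg {G : Type u} [Group G] [Finite G] {N H : Subgroup G} [hN : N.Normal]
    (hsol : SolvMod N) (hmax : IsCoatom H) (hcore : H.normalCore = N) :
    ∃ (M : Subgroup G) (p : ℕ), Cfg N M H p := by
  have hNH : N ≤ H := hcore ▸ H.normalCore_le
  have hne : N ≠ ⊤ := fun h => hmax.1 (top_le_iff.mp (h ▸ hNH))
  obtain ⟨M, p, hM, hNM, hp, hpM, hcM, hmin⟩ := exists_chief hsol hne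
  have hsup : M ⊔ H = ⊤ := by
    apply hmax.2
    rw [right_lt_sup]
    intro hMH
    apply absurd hNM
    rw [← hcore]
    have : M ≤ H.normalCore := (Subgroup.normal_le_normalCore (N := M)).mpr hMH
    exact not_lt_of_ge this
  have hmul : ∀ g : G, ∃ m ∈ M, ∃ h ∈ H, g = m * h := by
    intro g
    have hg : g ∈ M ⊔ H := by rw [hsup]; exact Subgroup.mem_top g
    obtain ⟨m, hm, h, hh, rfl⟩ := Subgroup.mem_sup_of_normal_left.mp hg
    exact ⟨m, hm, h, hh, rfl⟩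
  -- a subgroup of H normalized by H, whose commutators with M lie in N, lies in N
  have key : ∀ K : Subgroup G, N ≤ K → K ≤ H → (∀ h ∈ H, ∀ k ∈ K, h * k * h⁻¹ ∈ K) →
      (∀ m ∈ M, ∀ k ∈ K, m * k * m⁻¹ ∈ K) → K ≤ N := by
    intro K hNK hKH h1 h2
    have hKn : K.Normal := by
      constructor
      intro k hk g
      obtain ⟨m, hm, h, hh, rfl⟩ := hmul g
      have h3 := h2 m hm _ (h1 h hh k hk)
      have h4 : m * h * k * (m * h)⁻¹ = m * (h * k * h⁻¹) * m⁻¹ := by group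
      rw [h4]; exact h3
    rw [← hcore]
    exact (Subgroup.normal_le_normalCore (N := K)).mpr hKH
  refine ⟨M, p, hN, hM, hNM, hNH, ?_, hmul, hp, hpM, hcM, hmin, ?_⟩
  · intro x hxM hxH
    refine key (M ⊓ H) (le_inf hNM.le hNH) inf_le_right ?_ ?_ ⟨hxM, hxH⟩
    · intro h hh k hk
      exact ⟨hM.conj_mem k hk.1 h, H.mul_mem (H.mul_mem hh hk.2) (H.inv_mem hh)⟩
    · intro m hm k hk
      have h1 := hcM m hm k hk.1
      have h2 : m * k * m⁻¹ = (m * k * m⁻¹ * k⁻¹) * k := by group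
      rw [h2]
      exact (M ⊓ H).mul_mem ⟨hNM.le h1, hNH h1⟩ hk
  · intro x hx hxM
    -- the subgroup of elements of H centralizing M/N
    let C : Subgroup G :=
      { carrier := {y | y ∈ H ∧ ∀ m ∈ M, y * m * y⁻¹ * m⁻¹ ∈ N}
        one_mem' := ⟨H.one_mem, fun m _ => by simp⟩
        mul_mem' := by
          rintro a b ⟨ha, ha'⟩ ⟨hb, hb'⟩
          refine ⟨H.mul_mem ha hb, fun m hm => ?_⟩
          have h1 : a * b * m * (a * b)⁻¹ * m⁻¹ =
              (a * (b * m * b⁻¹ * m⁻¹) * a⁻¹) * (a * m * a⁻¹ * m⁻¹) := by group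
          rw [h1]
          exact N.mul_mem (hN.conj_mem _ (hb' m hm) a) (ha' m hm)
        inv_mem' := by
          rintro a ⟨ha, ha'⟩
          refine ⟨H.inv_mem ha, fun m hm => ?_⟩
          have h1 : a⁻¹ * m * a⁻¹⁻¹ * m⁻¹ = a⁻¹ * (a * m * a⁻¹ * m⁻¹)⁻¹ * a⁻¹⁻¹ := by group
          rw [h1]
          exact hN.conj_mem _ (N.inv_mem (ha' m hm)) _ }
    have hNC : N ≤ C := by
      intro n hn
      refine ⟨hNH hn, fun m hm => ?_⟩
      have h1 : n * m * n⁻¹ * m⁻¹ = n * (m * n⁻¹ * m⁻¹) := by group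
      rw [h1]
      exact N.mul_mem hn (hN.conj_mem _ (N.inv_mem hn) m)
    refine key C hNC (fun y hy => hy.1) ?_ ?_ (show x ∈ C from ⟨hx, hxM⟩)
    · rintro h hh k ⟨hk, hk'⟩
      refine ⟨H.mul_mem (H.mul_mem hh hk) (H.inv_mem hh), fun m hm => ?_⟩
      have h1 : h * k * h⁻¹ * m * (h * k * h⁻¹)⁻¹ * m⁻¹ =
          h * (k * (h⁻¹ * m * h⁻¹⁻¹) * k⁻¹ * (h⁻¹ * m * h⁻¹⁻¹)⁻¹) * h⁻¹ := by group
      rw [h1]
      exact hN.conj_mem _ (hk' _ (hM.conj_mem m hm h⁻¹)) h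
    · intro m hm k hk
      have h1 : m * k * m⁻¹ = (k * m * k⁻¹ * m⁻¹)⁻¹ * k := by group
      rw [h1]
      exact C.mul_mem (hNC (N.inv_mem (hk.2 m hm))) hk

/-- The second chief factor. -/
structure Cfg2 {G : Type u} [Group G] (N M M1 H : Subgroup G) (p q : ℕ) : Prop extends
    Cfg N M H p where
  hM1 : M1.Normal
  hMM1 : M < M1
  hq : q.Prime
  hpq : p ≠ q
  hqM : ∀ x ∈ M1, x ^ q ∈ M
  hcM1 : ∀ x ∈ M1, ∀ y ∈ M1, x * y * x⁻¹ * y⁻¹ ∈ M

/-- Some element of `H ∩ M₁` is outside `N`. -/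
theorem Cfg2.exists_mem {G : Type u} [Group G] {N M M1 H : Subgroup G} {p q : ℕ}
    (h : Cfg2 N M M1 H p q) : ∃ x ∈ H, x ∈ M1 ∧ x ∉ N := by
  by_contra hcon
  push Not at hcon
  apply not_le_of_gt h.hMM1
  intro x hx
  obtain ⟨m, hm, y, hy, rfl⟩ := h.hmul x
  have h1 : y ∈ M1 := by
    have := M1.mul_mem (M1.inv_mem (h.hMM1.le hm)) hx
    simpa [mul_assoc] using this
  exact M.mul_mem hm (h.hNM.le (hcon y hy h1))

theorem Cfg.exists_cfg2 {G : Type u} [Group G] [Finite G] {N M H : Subgroup G} {p : ℕ}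
    (h : Cfg N M H p) (hsol : SolvMod N) (hne : M ≠ ⊤) :
    ∃ (M1 : Subgroup G) (q : ℕ), Cfg2 N M M1 H p q := by
  have := h.hN
  have := h.hM
  have hp : Fact p.Prime := ⟨h.hp⟩
  obtain ⟨M1, q, hM1, hMM1, hq, hqM, hcM1, -⟩ := exists_chief (N := M) (hsol.mono h.hNM.le) hne
  refine ⟨M1, q, h, hM1, hMM1, hq, ?_, hqM, hcM1⟩
  rintro rfl
  -- M1/N is a p-group
  let f := QuotientGroup.mk' N
  have hf : Function.Surjective f := QuotientGroup.mk'_surjective N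
  let R := M1.map f
  have hR : IsPGroup p R := by
    rintro ⟨_, ⟨x, hx, rfl⟩⟩
    refine ⟨2, ?_⟩
    apply Subtype.ext
    rw [SubgroupClass.coe_pow, OneMemClass.coe_one, ← map_pow, pow_two, pow_mul]
    exact (QuotientGroup.eq_one_iff _).mpr (h.hpM _ (hqM x hx))
  let M' := (M.map f).subgroupOf R
  have hMn : (M.map f).Normal := h.hM.map _ hf
  have hM'n : M'.Normal := inferInstance
  have hM'1 : M' ≠ ⊥ := by
    intro hbot
    rw [Subgroup.subgroupOf_eq_bot] at hbot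
    have h1 : M.map f ≤ R := Subgroup.map_mono hMM1.le
    have h2 := hbot.le_bot
    apply not_le_of_gt h.hNM
    intro x hx
    have h3 : f x ∈ (⊥ : Subgroup (G ⧸ N)) := h2 ⟨⟨x, hx, rfl⟩, h1 ⟨x, hx, rfl⟩⟩
    exact (QuotientGroup.eq_one_iff x).mp (Subgroup.mem_bot.mp h3)
  obtain ⟨z, hz, hzc, hzo⟩ := PGroupOdd.exists_central_mem hR hM'n hM'1
  obtain ⟨x, hx, hxz⟩ := Subgroup.mem_subgroupOf.mp hz
  -- the elements of M centralized by M1 modulo N
  let D : Subgroup G :=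
    { carrier := {m | m ∈ M ∧ ∀ y ∈ M1, y * m * y⁻¹ * m⁻¹ ∈ N}
      one_mem' := ⟨M.one_mem, fun y _ => by simp⟩
      mul_mem' := by
        rintro a b ⟨ha, ha'⟩ ⟨hb, hb'⟩
        refine ⟨M.mul_mem ha hb, fun y hy => ?_⟩
        have h1 : y * (a * b) * y⁻¹ * (a * b)⁻¹ =
            (y * a * y⁻¹ * a⁻¹) * (a * (y * b * y⁻¹ * b⁻¹) * a⁻¹) := by group
        rw [h1]
        exact N.mul_mem (ha' y hy) (h.hN.conj_mem _ (hb' y hy) a)
      inv_mem' := by
        rintro a ⟨ha, ha'⟩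
        refine ⟨M.inv_mem ha, fun y hy => ?_⟩
        have h1 : y * a⁻¹ * y⁻¹ * a⁻¹⁻¹ = a⁻¹ * (y * a * y⁻¹ * a⁻¹)⁻¹ * a⁻¹⁻¹ := by group
        rw [h1]
        exact h.hN.conj_mem _ (N.inv_mem (ha' y hy)) _ }
  have hDn : D.Normal := by
    constructor
    rintro m ⟨hm, hm'⟩ g
    refine ⟨h.hM.conj_mem m hm g, fun y hy => ?_⟩
    have h1 : y * (g * m * g⁻¹) * y⁻¹ * (g * m * g⁻¹)⁻¹ =
        g * ((g⁻¹ * y * g⁻¹⁻¹) * m * (g⁻¹ * y * g⁻¹⁻¹)⁻¹ * m⁻¹) * g⁻¹ := by group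
    rw [h1]
    exact h.hN.conj_mem _ (hm' _ (hM1.conj_mem y hy g⁻¹)) g
  have hND : N ≤ D := by
    intro n hn
    refine ⟨h.hNM.le hn, fun y hy => ?_⟩
    exact N.mul_mem (h.hN.conj_mem n hn y) (N.inv_mem hn)
  have hxD : x ∈ D := by
    refine ⟨hx, fun y hy => ?_⟩
    have h1 := Subgroup.mem_center_iff.mp hzc ⟨f y, ⟨y, hy, rfl⟩⟩
    have h2 := congrArg Subtype.val h1
    simp only [Subgroup.coe_mul] at h2
    change f y * (z : G ⧸ N) = (z : G ⧸ N) * f y at h2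
    change f x = (z : G ⧸ N) at hxz
    rw [← hxz] at h2
    rw [← QuotientGroup.eq_one_iff]
    change f (y * x * y⁻¹ * x⁻¹) = 1
    rw [map_mul, map_mul, map_mul, map_inv, map_inv, h2]
    group
  have hxN : x ∉ N := by
    intro hxN
    have h1 : f x = 1 := (QuotientGroup.eq_one_iff x).mpr hxN
    change f x = (z : G ⧸ N) at hxz
    have h2 : z = 1 := Subtype.ext (by rw [← hxz, h1]; rfl)
    rw [h2, orderOf_one] at hzo
    exact h.hp.one_lt.ne hzo
  have hDM : D = M := by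
    rcases h.hmin D hDn hND (fun m hm => hm.1) with h1 | h1
    · exact absurd (h1 ▸ hxD) hxN
    · exact h1
  apply not_le_of_gt hMM1
  intro y hy
  obtain ⟨m, hm, k, hk, rfl⟩ := h.hmul y
  have h1 : k ∈ M1 := by
    have := M1.mul_mem (M1.inv_mem (hMM1.le hm)) hy
    simpa [mul_assoc] using this
  refine M.mul_mem hm (h.hNM.le (h.hfaith k hk ?_))
  intro m' hm'
  rw [← hDM] at hm'
  exact hm'.2 k h1

end Cfsg.Agent.Lib.H15Berger
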