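import Cfsg.Agent.Lib.H15BergerB

set_option autoImplicit false

/-!
# The fibre product in Berger's theorem (helper15)
-/

namespace Cfsg.Agent.Lib.H15Berger

open scoped ComplexConjugate
open Cfsg Cfsg.Agent.Lib.CharBasic Cfsg.Agent.Lib.Clifford

universe u v

/-- The fibre product of `G` and `H` over `G / M`. -/
def Fib {G : Type u} [Group G] (M H : Subgroup G) [hM : M.Normal] : Subgroup (G × H) where
  carrier := {x | x.1 * (x.2 : G)⁻¹ ∈ M}
  one_mem' := by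
    show (1 : G) * ((1 : H) : G)⁻¹ ∈ M
    simp
  mul_mem' := by
    intro x y hx hy
    have h1 : (x * y).1 * ((x * y).2 : G)⁻¹ =
        (x.1 * (y.1 * (y.2 : G)⁻¹) * x.1⁻¹) * (x.1 * (x.2 : G)⁻¹) := by
      show x.1 * y.1 * ((x.2 : G) * (y.2 : G))⁻¹ = _
      group
    show (x * y).1 * ((x * y).2 : G)⁻¹ ∈ M
    rw [h1]
    exact M.mul_mem (hM.conj_mem _ hy x.1) hx
  inv_mem' := by
    intro x hx
    have h1 : (x⁻¹).1 * ((x⁻¹).2 : G)⁻¹ = x.1⁻¹ * (x.1 * (x.2 : G)⁻¹)⁻¹ * x.1⁻¹⁻¹ := by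
      show x.1⁻¹ * ((x.2 : G)⁻¹)⁻¹ = _
      group
    show (x⁻¹).1 * ((x⁻¹).2 : G)⁻¹ ∈ M
    rw [h1]
    exact hM.conj_mem _ (M.inv_mem hx) _

section

variable {G : Type u} [Group G] (M H : Subgroup G) [hM : M.Normal]

def f1 : Fib M H →* G := (MonoidHom.fst G H).comp (Fib M H).subtype

def f2 : Fib M H →* H := (MonoidHom.snd G H).comp (Fib M H).subtype

theorem fib_mem (x : Fib M H) : f1 M H x * (f2 M H x : G)⁻¹ ∈ M := x.2

/-- The pair `(g, h)`. -/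
def mkF {g : G} {h : H} (hgh : g * (h : G)⁻¹ ∈ M) : Fib M H := ⟨(g, h), hgh⟩

theorem f1_mk {g : G} {h : H} (hgh : g * (h : G)⁻¹ ∈ M) : f1 M H (mkF M H hgh) = g := rfl
theorem f2_mk {g : G} {h : H} (hgh : g * (h : G)⁻¹ ∈ M) : f2 M H (mkF M H hgh) = h := rfl

variable {M H}

theorem f1_surj (hmul : ∀ g : G, ∃ m ∈ M, ∃ h ∈ H, g = m * h) :
    Function.Surjective (f1 M H) := by
  intro g
  obtain ⟨m, hm, h, hh, rfl⟩ := hmul g
  exact ⟨mkF M H (g := m * h) (h := ⟨h, hh⟩) (by simpa using hm), rfl⟩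

end

/-- If `a + b = A + B` with `‖a‖ ≤ A` and `‖b‖ ≤ B` then `a = A`. -/
theorem eq_of_add_eq {a b : ℂ} {A B : ℝ} (ha : ‖a‖ ≤ A) (hb : ‖b‖ ≤ B)
    (h : a + b = (A : ℂ) + B) : a = A := by
  have h1 : a.re ≤ A := (Complex.re_le_norm _).trans ha
  have h2 : b.re ≤ B := (Complex.re_le_norm _).trans hb
  have h3 := congrArg Complex.re h
  simp only [Complex.add_re, Complex.ofReal_re] at h3
  have h4 : a.re = A := by linarith
  apply Complex.ext
  · simpa using h4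
  · have h5 : ‖a‖ ^ 2 ≤ A ^ 2 := by
      have := norm_nonneg a
      nlinarith
    rw [Complex.sq_norm, Complex.normSq_apply, h4] at h5
    have h6 : a.im = 0 := by nlinarith [mul_self_nonneg a.im]
    simpa using h6

theorem norm_lam {N : Type u} [Group N] [Finite N] (lam : N →* ℂˣ) (n : N) :
    ‖(lam n : ℂ)‖ = 1 := by
  apply Complex.norm_eq_one_of_pow_eq_one (n := Nat.card N)
  · rw [← Units.val_pow_eq_pow_val, ← map_pow, pow_card_eq_one', map_one, Units.val_one]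
  · exact Nat.card_pos.ne'

/-- The scalars on a constituent. -/
theorem scalar_constituent {G : Type u} [Group G] [Finite G] {N H : Subgroup G} (hNH : N ≤ H)
    {χ : G → ℂ} {lam : N →* ℂˣ}
    (hlam : ∀ (n : N) (g : G), χ (n * g) = lam n * χ g) {ψ : H → ℂ} (hψ : IsIrrCharacter H ψ)
    {b : H → ℂ} (hb : IsCharacter H b) (hres : ∀ x : H, χ x = ψ x + b x) (n : N) (x : H) :
    ψ (⟨n, hNH n.2⟩ * x) = lam n * ψ x := by
  obtain ⟨d, hd⟩ := hψ.isCharacter.exists_degree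
  obtain ⟨c, hc⟩ := hb.exists_degree
  have hone : ∀ n : N, ψ ⟨n, hNH n.2⟩ = lam n * ψ 1 := by
    intro n
    have h1 := hlam n 1
    rw [mul_one] at h1
    have h2 := hres ⟨n, hNH n.2⟩
    have h3 := hres 1
    rw [OneMemClass.coe_one] at h3
    change χ n = _ at h2
    have hl : (lam n : ℂ) ≠ 0 := Units.ne_zero _
    have h4 : (lam n : ℂ)⁻¹ * ψ ⟨n, hNH n.2⟩ + (lam n : ℂ)⁻¹ * b ⟨n, hNH n.2⟩ =
        ((d : ℝ) : ℂ) + ((c : ℝ) : ℂ) := by
      rw [← mul_add, ← h2, h1, h3, hd, hc, ← mul_assoc, inv_mul_cancel₀ hl, one_mul]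
      push_cast; rfl
    have h5 := eq_of_add_eq (by
      rw [norm_mul, norm_inv, norm_lam, inv_one, one_mul]
      exact norm_le_degree hψ.isCharacter hd _) (by
      rw [norm_mul, norm_inv, norm_lam, inv_one, one_mul]
      exact norm_le_degree hb hc _) h4
    have h6 : (lam n : ℂ)⁻¹ * ψ ⟨n, hNH n.2⟩ = ψ 1 := by rw [h5, hd]; simp
    rw [← h6, ← mul_assoc, mul_inv_cancel₀ hl, one_mul]
  obtain ⟨lam', hlam'⟩ := exists_scalar_hom hψ (N.subgroupOf H) (by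
    intro x hx
    have h1 := hone ⟨x, hx⟩
    change ψ x = _ at h1
    rw [h1, norm_mul, norm_lam, one_mul])
  have h1 := hlam' ⟨⟨n, hNH n.2⟩, n.2⟩ x
  have h2 := hlam' ⟨⟨n, hNH n.2⟩, n.2⟩ 1
  change ψ (⟨n, hNH n.2⟩ * x) = _ at h1
  rw [mul_one] at h2
  change ψ ⟨n, hNH n.2⟩ = _ at h2
  rw [hone n] at h2
  have h3 := mul_right_cancel₀ hψ.one_ne_zero h2
  rw [h1, h3]

theorem lam_inv {G : Type u} [Group G] [Finite G] {N : Subgroup G} [hN : N.Normal] {χ : G → ℂ}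
    (hχ : IsIrrCharacter G χ) {lam : N →* ℂˣ}
    (hlam : ∀ (n : N) (g : G), χ (n * g) = lam n * χ g) (g : G) (n : N) :
    lam ⟨g * n * g⁻¹, hN.conj_mem n n.2 g⟩ = lam n := by
  apply Units.ext
  have h1 := hlam n 1
  have h2 := hlam ⟨g * n * g⁻¹, hN.conj_mem n n.2 g⟩ 1
  rw [mul_one] at h1 h2
  have h3 : χ (g * n * g⁻¹) = χ n := hχ.isClassFunction n g
  change χ (g * n * g⁻¹) = _ at h2
  rw [h3, h1] at h2
  exact (mul_right_cancel₀ hχ.one_ne_zero h2).symm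

section main

variable {G : Type u} [Group G] [Finite G] {N M M1 H : Subgroup G} {p q : ℕ}

/-- The linear character of `{(g, h) : g ∈ H}`. -/
noncomputable def theta [hM : M.Normal] (h : Cfg N M H p) {χ : G → ℂ} (hχ : IsIrrCharacter G χ)
    {lam : N →* ℂˣ} (hlam : ∀ (n : N) (g : G), χ (n * g) = lam n * χ g) :
    (H.comap (f1 M H)) →* ℂˣ where
  toFun x := lam ⟨f1 M H x * (f2 M H x : G)⁻¹,
    h.hinf _ (fib_mem M H x) (H.mul_mem x.2 (H.inv_mem (f2 M H x).2))⟩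
  map_one' := by
    rw [← map_one lam]
    congr 1
    apply Subtype.ext
    show f1 M H ((1 : H.comap (f1 M H)) : Fib M H) * (f2 M H ((1 : H.comap (f1 M H)) : Fib M H) : G)⁻¹ = 1
    rw [OneMemClass.coe_one, map_one, map_one]
    simp
  map_mul' := by
    intro x y
    have := h.hN
    rw [← lam_inv hχ hlam (f1 M H x) ⟨f1 M H y * (f2 M H y : G)⁻¹,
      h.hinf _ (fib_mem M H y) (H.mul_mem y.2 (H.inv_mem (f2 M H y).2))⟩, mul_comm, ← map_mul]
    congr 1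
    apply Subtype.ext
    show f1 M H ((x * y : H.comap (f1 M H)) : Fib M H) *
      (f2 M H ((x * y : H.comap (f1 M H)) : Fib M H) : G)⁻¹ =
        f1 M H x * (f1 M H y * (f2 M H y : G)⁻¹) * (f1 M H x)⁻¹ *
          (f1 M H x * (f2 M H x : G)⁻¹)
    rw [Subgroup.coe_mul, map_mul, map_mul, Subgroup.coe_mul]
    group

theorem theta_apply [hM : M.Normal] (h : Cfg N M H p) {χ : G → ℂ} (hχ : IsIrrCharacter G χ)
    {lam : N →* ℂˣ} (hlam : ∀ (n : N) (g : G), χ (n * g) = lam n * χ g)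
    (x : H.comap (f1 M H)) :
    theta h hχ hlam x = lam ⟨f1 M H x * (f2 M H x : G)⁻¹,
      h.hinf _ (fib_mem M H x) (H.mul_mem x.2 (H.inv_mem (f2 M H x).2))⟩ := rfl

/-- The factorization `χ ∘ π₁ = χ₁ · (ψ ∘ π₂)`. -/
theorem factor [hM : M.Normal] [Fintype G] [Fintype (Fib M H)] (h : Cfg N M H p) {χ : G → ℂ}
    (hχ : IsIrrCharacter G χ)
    {lam : N →* ℂˣ} (hlam : ∀ (n : N) (g : G), χ (n * g) = lam n * χ g) {ψ : H → ℂ}
    (hψ : IsIrrCharacter H ψ) (hind : indFun H ψ = χ)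
    (hψN : ∀ (n : N) (x : H), ψ (⟨n, h.hNH n.2⟩ * x) = lam n * ψ x) (x : Fib M H) :
    χ (f1 M H x) = indFun (H.comap (f1 M H)) (fun t => (theta h hχ hlam t : ℂ)) x *
      ψ (f2 M H x) := by
  have h0 : χ (f1 M H x) = indFun H ψ (f1 M H x) := by rw [hind]
  rw [h0, indFun_comap (f1_surj h.hmul)]
  have h1 : (fun t : H.comap (f1 M H) => ψ ⟨f1 M H (t : Fib M H), t.2⟩) =
      fun t => (theta h hχ hlam t : ℂ) * (fun y : Fib M H => ψ (f2 M H y)) t := by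
    funext t
    have h2 := hψN ⟨f1 M H t * (f2 M H t : G)⁻¹,
      h.hinf _ (fib_mem M H t) (H.mul_mem t.2 (H.inv_mem (f2 M H t).2))⟩ (f2 M H t)
    rw [theta_apply, ← h2]
    congr 1
    apply Subtype.ext
    show f1 M H t = f1 M H t * (f2 M H t : G)⁻¹ * (f2 M H t : G)
    group
  rw [h1]
  exact congrFun (IndFun.indFun_mul_res _ _ _ (isClassFunction_comp_hom (f2 M H)
    hψ.isClassFunction)) x

end main

end Cfsg.Agent.Lib.H15Berger
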