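import Cfsg.Agent.Lib.H15BergerC

set_option autoImplicit false

/-!
# The homogeneous case in Berger's theorem is impossible (helper15)
-/

namespace Cfsg.Agent.Lib.H15Berger

open scoped ComplexConjugate
open Cfsg Cfsg.Agent.Lib.CharBasic Cfsg.Agent.Lib.Clifford

universe u v

section

variable {G : Type u} [Group G] {N M M1 H : Subgroup G} {p q : ℕ}

theorem Cfg.vanish [Fintype G] (h : Cfg N M H p) {χ : G → ℂ} {ψ : H → ℂ}
    (hind : indFun H ψ = χ) {m : G} (hm : m ∈ M) (hmN : m ∉ N) : χ m = 0 := by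
  rw [← hind]
  apply IndFun.indFun_eq_zero
  intro x hx
  apply hmN
  have h1 : x⁻¹ * m * x ∈ M := by
    have := h.hM.conj_mem m hm x⁻¹
    simpa using this
  have h2 := h.hN.conj_mem _ (h.hinf _ h1 hx) x
  have h3 : x * (x⁻¹ * m * x) * x⁻¹ = m := by group
  rwa [h3] at h2

theorem Cfg.index_eq [Fintype G] (h : Cfg N M H p) : H.index = (N.subgroupOf M).index := by
  classical
  have : Fintype M := Fintype.ofFinite M
  have h1 := RelM2.indFun_res_of_mul (G := G) M H h.hmul (η := (1 : H → ℂ)) (fun _ _ => rfl) 1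
  have h2 : ((1 : M) : G) = 1 := rfl
  rw [h2, IndFun.indFun_one, IndFun.indFun_one] at h1
  simp only [Pi.one_apply, mul_one] at h1
  have h3 : H.subgroupOf M = N.subgroupOf M := by
    ext x
    rw [Subgroup.mem_subgroupOf, Subgroup.mem_subgroupOf]
    exact ⟨fun hx => h.hinf _ x.2 hx, fun hx => h.hNH hx⟩
  rw [h3] at h1
  exact_mod_cast h1

theorem Cfg.data [Fintype G] (h : Cfg N M H p) {χ : G → ℂ} (hχ : IsIrrCharacter G χ)
    {lam : N →* ℂˣ} (hlam : ∀ (n : N) (g : G), χ (n * g) = lam n * χ g) {ψ : H → ℂ}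
    (hind : indFun H ψ = χ) {μ : M → ℂ} (hμ : IsIrrCharacter M μ) {e0 : ℕ}
    (he : (fun m : M => χ m) = (e0 : ℂ) • μ) {d : ℕ} (hd : μ 1 = d) :
    (e0 : ℂ) ≠ 0 ∧ (∀ m : M, (m : G) ∉ N → μ m = 0) ∧
      (∀ n : N, μ ⟨n, h.hNM.le n.2⟩ = lam n * μ 1) ∧ d ^ 2 = (N.subgroupOf M).index := by
  classical
  have he' : ∀ m : M, χ m = e0 * μ m := fun m => congrFun he m
  have he0 : (e0 : ℂ) ≠ 0 := by
    intro h0
    apply hχ.one_ne_zero
    have := he' 1
    rw [h0, zero_mul] at this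
    exact this
  have hv : ∀ m : M, (m : G) ∉ N → μ m = 0 := by
    intro m hm
    have h1 := he' m
    rw [h.vanish hind m.2 hm] at h1
    exact (mul_eq_zero.mp h1.symm).resolve_left he0
  have hs : ∀ n : N, μ ⟨n, h.hNM.le n.2⟩ = lam n * μ 1 := by
    intro n
    have h1 := he' ⟨n, h.hNM.le n.2⟩
    have h2 := he' 1
    have h3 := hlam n 1
    rw [mul_one] at h3
    change χ n = _ at h1
    change χ 1 = _ at h2
    rw [h3, h2] at h1
    apply mul_left_cancel₀ he0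
    rw [← h1]; ring
  refine ⟨he0, hv, hs, ?_⟩
  have : Fintype M := Fintype.ofFinite M
  have : Fintype (N.subgroupOf M) := Fintype.ofFinite _
  have hNn : N.Normal := h.hN
  have h1 := (CliffordCorr.classInner_res_eq_index_iff (N := N.subgroupOf M)
    hμ.classInner_self).mpr (fun m hm => hv m (fun h2 => hm (Subgroup.mem_subgroupOf.mpr h2)))
  have h2 : classInner (fun n : N.subgroupOf M => μ n) (fun n : N.subgroupOf M => μ n) =
      (d : ℂ) ^ 2 := by
    rw [classInner_def]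
    have h3 : ∀ n : N.subgroupOf M, μ n * conj (μ n) = (d : ℂ) ^ 2 := by
      intro n
      have h4 := hs ⟨n, Subgroup.mem_subgroupOf.mp n.2⟩
      change μ n = _ at h4
      rw [Complex.mul_conj, Complex.normSq_eq_norm_sq, h4, norm_mul, norm_lam, one_mul, hd]
      simp
    rw [Finset.sum_congr rfl (fun n _ => h3 n), Finset.sum_const, Finset.card_univ, nsmul_eq_mul,
      Nat.card_eq_fintype_card, ← mul_assoc, inv_mul_cancel₀, one_mul]
    exact_mod_cast Fintype.card_ne_zero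
  rw [h2] at h1
  exact_mod_cast h1

/-- The value of `χ₁` on `N₀`. -/
theorem Cfg.value [hM : M.Normal] [Fintype G] [Fintype (Fib M H)] (h : Cfg N M H p) {χ : G → ℂ}
    (hχ : IsIrrCharacter G χ)
    {lam : N →* ℂˣ} (hlam : ∀ (n : N) (g : G), χ (n * g) = lam n * χ g) {ψ : H → ℂ}
    (hψ : IsIrrCharacter H ψ) (hind : indFun H ψ = χ)
    (hψN : ∀ (n : N) (x : H), ψ (⟨n, h.hNH n.2⟩ * x) = lam n * ψ x)
    {μ : M → ℂ} (hμ : IsIrrCharacter M μ) {e0 : ℕ}
    (he : (fun m : M => χ m) = (e0 : ℂ) • μ) {d : ℕ} (hd : μ 1 = d)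
    (x : Fib M H) (hx : f1 M H x ∈ M) (hx2 : (f2 M H x : G) ∈ N) :
    indFun (H.comap (f1 M H)) (fun t => (theta h hχ hlam t : ℂ)) x =
      (d : ℂ) * (μ ⟨f1 M H x, hx⟩ * (lam ⟨f2 M H x, hx2⟩ : ℂ)⁻¹) := by
  obtain ⟨he0, -, -, hsq⟩ := h.data hχ hlam hind hμ he hd
  have he' : ∀ m : M, χ m = e0 * μ m := fun m => congrFun he m
  have hψ0 := hψ.one_ne_zero
  have h1 := factor h hχ hlam hψ hind hψN x
  have h2 := factor h hχ hlam hψ hind hψN 1
  have h3 := hψN ⟨f2 M H x, hx2⟩ 1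
  rw [mul_one] at h3
  change ψ (f2 M H x) = _ at h3
  rw [h3] at h1
  have h4 := he' ⟨f1 M H x, hx⟩
  change χ (f1 M H x) = _ at h4
  rw [h4] at h1
  rw [map_one, map_one, IndFun.indFun_one, map_one, Units.val_one, mul_one,
    Subgroup.index_comap_of_surjective _ (f1_surj h.hmul), h.index_eq, ← hsq] at h2
  have h5 : χ 1 = e0 * μ 1 := he' 1
  rw [h5, hd] at h2
  have hd0 : (d : ℂ) ≠ 0 := by rw [← hd]; exact hμ.one_ne_zero
  have h6 : (e0 : ℂ) = d * ψ 1 := by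
    apply mul_right_cancel₀ hd0
    rw [h2]; push_cast; ring
  have hl : (lam ⟨f2 M H x, hx2⟩ : ℂ) ≠ 0 := Units.ne_zero _
  rw [h6] at h1
  have h7 : (lam ⟨f2 M H x, hx2⟩ : ℂ) * ψ 1 ≠ 0 := mul_ne_zero hl hψ0
  apply mul_right_cancel₀ h7
  rw [← h1]
  field_simp

/-- If all `q`-th powers lie in `N`, a prime dividing the index is `q`. -/
theorem eq_of_dvd_index {A : Type u} [Group A] [Finite A] {B : Subgroup A} [B.Normal] {q r : ℕ}
    (hq : q.Prime) (hr : r.Prime) (hpow : ∀ x : A, x ^ q ∈ B) (hdvd : r ∣ B.index) : r = q := by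
  have : Fact r.Prime := ⟨hr⟩
  obtain ⟨x, hx⟩ := exists_prime_orderOf_dvd_card' (G := A ⧸ B) r hdvd
  obtain ⟨y, rfl⟩ := QuotientGroup.mk_surjective x
  have h1 : (y : A ⧸ B) ^ q = 1 := by
    rw [← QuotientGroup.mk_pow]
    exact (QuotientGroup.eq_one_iff _).mpr (hpow y)
  have h2 := orderOf_dvd_of_pow_eq_one h1
  rw [hx] at h2
  exact (Nat.prime_dvd_prime_iff_eq hr hq).mp h2

end

end Cfsg.Agent.Lib.H15Berger
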