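import Cfsg.Agent.Lib.H15BergerD

set_option autoImplicit false

/-!
# The homogeneous case in Berger's theorem is impossible (helper15)
-/

namespace Cfsg.Agent.Lib.H15Berger

open scoped ComplexConjugate
open Cfsg Cfsg.Agent.Lib.CharBasic Cfsg.Agent.Lib.Clifford

universe u v

variable {G : Type u} [Group G] {N M M1 H : Subgroup G} {p q : ℕ}

theorem fib_f2 [hM : M.Normal] (h : Cfg N M H p) (x : Fib M H) (hx : f1 M H x ∈ M) :
    (f2 M H x : G) ∈ N := by
  apply h.hinf _ _ (f2 M H x).2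
  have h1 := M.mul_mem (M.inv_mem (fib_mem M H x)) hx
  have h2 : (f1 M H x * (f2 M H x : G)⁻¹)⁻¹ * f1 M H x = f2 M H x := by group
  rwa [h2] at h1

theorem ker_comm {A : Type u} [Group A] [Finite A] {χ : A → ℂ} (hχ : IsCharacter A χ) {t : A}
    (ht : χ t = χ 1) (u : A) : χ (u * t * u⁻¹ * t⁻¹) = χ 1 := by
  obtain ⟨d, ρ, rfl⟩ := hχ
  have h1 : ρ t = LinearMap.id := by
    apply (CharValues.character_eq_finrank_iff ρ t).mp
    rw [ht, Representation.char_one]
  have h1' : ρ t = 1 := h1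
  have h2 : ρ t⁻¹ = 1 := by
    have h3 : ρ t * ρ t⁻¹ = 1 := by rw [← map_mul, mul_inv_cancel, map_one]
    rw [h1', one_mul] at h3
    exact h3
  have h4 : ρ (u * t * u⁻¹ * t⁻¹) = ρ 1 := by
    rw [map_mul, map_mul, map_mul, h1', h2, mul_one, mul_one, ← map_mul, mul_inv_cancel]
  show LinearMap.trace ℂ _ (ρ _) = LinearMap.trace ℂ _ (ρ 1)
  rw [h4]

/-- If the average of numbers of norm at most `B` is `B`, all are `B`. -/
theorem eq_of_sum_eq {ι : Type*} [Fintype ι] {z : ι → ℂ} {B : ℝ} (hz : ∀ i, ‖z i‖ ≤ B)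
    (h : ∑ i, z i = (Fintype.card ι : ℂ) * B) (i : ι) : z i = B := by
  classical
  have h1 : ∑ j, z j = z i + ∑ j ∈ Finset.univ.erase i, z j :=
    (Finset.add_sum_erase _ _ (Finset.mem_univ i)).symm
  have h2 : ‖∑ j ∈ Finset.univ.erase i, z j‖ ≤ ((Fintype.card ι - 1 : ℕ) : ℝ) * B := by
    refine (norm_sum_le _ _).trans ?_
    refine (Finset.sum_le_sum (fun j _ => hz j)).trans ?_
    rw [Finset.sum_const, Finset.card_erase_of_mem (Finset.mem_univ i), Finset.card_univ,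
      nsmul_eq_mul]
  have hpos : 0 < Fintype.card ι := Fintype.card_pos_iff.mpr ⟨i⟩
  refine eq_of_add_eq (hz i) h2 ?_
  rw [← h1, h]
  push_cast
  rw [Nat.cast_sub hpos]
  push_cast
  ring

theorem Cfg2.not_homog [hM : M.Normal] [Fintype G] [Fintype (Fib M H)] (h : Cfg2 N M M1 H p q)
    {χ : G → ℂ} (hχ : IsIrrCharacter G χ)
    {lam : N →* ℂˣ} (hlam : ∀ (n : N) (g : G), χ (n * g) = lam n * χ g) {ψ : H → ℂ}
    (hψ : IsIrrCharacter H ψ) (hind : indFun H ψ = χ)
    (hψN : ∀ (n : N) (x : H), ψ (⟨n, h.hNH n.2⟩ * x) = lam n * ψ x) (hMh : Homog M χ) :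
    ¬ Homog (M1.comap (f1 M H))
      (indFun (H.comap (f1 M H)) (fun t => (theta h.toCfg hχ hlam t : ℂ))) := by
  classical
  rintro ⟨ν, e, hν, he⟩
  obtain ⟨μ, e0, hμ, hμe⟩ := hMh
  obtain ⟨d, hd⟩ := hμ.isCharacter.exists_degree
  obtain ⟨he0, hv, hs, hsq⟩ := h.toCfg.data hχ hlam hind hμ hμe hd
  have hval := h.toCfg.value hχ hlam hψ hind hψN hμ hμe hd
  have hM1n : M1.Normal := h.hM1
  have hNn : N.Normal := h.hN
  set χ1 := indFun (H.comap (f1 M H)) (fun t => (theta h.toCfg hχ hlam t : ℂ)) with hχ1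
  have hχ1c : IsCharacter (Fib M H) χ1 := Clifford.isCharacter_indFun _
    (isCharacter_of_unitsHom (theta h.toCfg hχ hlam))
  have hd0 : (d : ℂ) ≠ 0 := by rw [← hd]; exact hμ.one_ne_zero
  have hχ11 : χ1 1 = ((d ^ 2 : ℕ) : ℂ) := by
    rw [hχ1, IndFun.indFun_one, map_one, Units.val_one, mul_one,
      Subgroup.index_comap_of_surjective _ (f1_surj h.hmul), h.toCfg.index_eq, ← hsq]
  let Nt : Subgroup (Fib M H) := M1.comap (f1 M H)
  let N0 : Subgroup Nt := (M.comap (f1 M H)).subgroupOf Nt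
  have hN0n : N0.Normal := inferInstance
  let g1 : N0 →* M :=
    { toFun := fun x => ⟨f1 M H ((x : Nt) : Fib M H), Subgroup.mem_subgroupOf.mp x.2⟩
      map_one' := Subtype.ext (map_one (f1 M H))
      map_mul' := fun x y => Subtype.ext (map_mul (f1 M H) _ _) }
  have hg1 : Function.Surjective g1 := by
    intro m
    have h1 : (m : G) * (((1 : H) : G))⁻¹ ∈ M := by simp
    refine ⟨⟨⟨mkF M H (g := m) (h := 1) h1, h.hMM1.le m.2⟩, Subgroup.mem_subgroupOf.mpr m.2⟩, ?_⟩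
    rfl
  let l2 : N0 →* ℂˣ :=
    { toFun := fun x => (lam ⟨f2 M H ((x : Nt) : Fib M H),
        fib_f2 h.toCfg _ (Subgroup.mem_subgroupOf.mp x.2)⟩)⁻¹
      map_one' := by
        rw [inv_eq_one, ← map_one lam]
        congr 1
      map_mul' := fun x y => by
        rw [← mul_inv, ← map_mul]
        congr 2 }
  let μ0 : N0 → ℂ := (fun x => μ (g1 x)) * fun x => (l2 x : ℂ)
  have hμ0 : IsIrrCharacter N0 μ0 :=
    (hμ.comp_surjective g1 hg1).mul_linear (isCharacter_of_unitsHom l2) (by simp)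
  have hχ1N0 : ∀ x : N0, χ1 x = d * μ0 x := by
    intro x
    have h1 := hval ((x : Nt) : Fib M H) (Subgroup.mem_subgroupOf.mp x.2)
      (fib_f2 h.toCfg _ (Subgroup.mem_subgroupOf.mp x.2))
    rw [h1]
    congr 1
    show μ _ * _ = μ _ * _
    congr 1
    exact (Units.val_inv_eq_inv_val _).symm
  have hνe : ∀ x : Nt, χ1 x = e * ν x := fun x => congrFun he x
  have he' : (e : ℂ) ≠ 0 := by
    intro h0
    have h1 := hνe 1
    rw [h0, zero_mul] at h1
    change χ1 1 = 0 at h1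
    rw [hχ11] at h1
    apply hd0
    have h2 : d ^ 2 = 0 := by exact_mod_cast h1
    have h3 : d = 0 := by simpa using h2
    rw [h3]; simp
  obtain ⟨f, hf⟩ := (hν.isCharacter.restrict N0).classInner_nat hμ0.isCharacter
  have hνN0' : (fun x : N0 => ν x) = ((d : ℂ) / e) • μ0 := by
    funext x
    have h1 := hνe x
    rw [hχ1N0 x] at h1
    show ν x = (d : ℂ) / e * μ0 x
    field_simp
    rw [mul_comm, ← h1]
  have hfde : (d : ℂ) / e = f := by
    rw [← hf, hνN0', classInner_smul_left, hμ0.classInner_self, mul_one]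
  have hνN0 : (fun x : N0 => ν x) = (f : ℂ) • μ0 := by rw [← hfde]; exact hνN0'
  have hef : e * f = d := by
    have h1 : (e : ℂ) * f = d := by rw [← hfde]; field_simp
    exact_mod_cast h1
  have hdpos : 0 < d := Nat.pos_of_ne_zero (fun h0 => hd0 (by rw [h0]; simp))
  have hf0 : 0 < f := by
    rcases Nat.eq_zero_or_pos f with h0 | h0
    · rw [h0, mul_zero] at hef; omega
    · exact h0
  have hq1 : ∀ a b : Nt, a * b * a⁻¹ * b⁻¹ ∈ N0 := by
    intro a b
    rw [Subgroup.mem_subgroupOf, Subgroup.mem_comap]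
    exact h.hcM1 _ a.2 _ b.2
  obtain ⟨C, -, hCcard, -⟩ := CliffordAb.ramification (N := N0) hq1 hμ0 hν hνN0 hf0
  have hf1 : f = 1 := by
    by_contra hne
    obtain ⟨r, hr, hrf⟩ := Nat.exists_prime_and_dvd hne
    have h1 : r = q := eq_of_dvd_index (A := Nt) (B := N0) h.hq hr (by
      intro x
      rw [Subgroup.mem_subgroupOf, Subgroup.mem_comap]
      have := h.hqM _ x.2
      rw [← map_pow] at this
      exact this) (by
      rw [← hCcard]
      exact (hrf.trans (dvd_pow_self f two_ne_zero)).mul_right _)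
    have h2 : r = p := eq_of_dvd_index (A := M) (B := N.subgroupOf M) h.hp hr (by
      intro x
      rw [Subgroup.mem_subgroupOf]
      exact h.hpM _ x.2) (by
      rw [← hsq, ← hef]
      exact (hrf.mul_left e).trans (dvd_pow_self _ two_ne_zero))
    exact h.hpq (h2.symm.trans h1)
  rw [hf1, mul_one] at hef
  rw [hf1] at hνN0
  -- the norm of χ1 on Nt
  let Ht : Subgroup (Fib M H) := H.comap (f1 M H)
  let D : Subgroup Nt := Ht.subgroupOf Nt
  let θ' : D → ℂ := fun x => (theta h.toCfg hχ hlam ⟨((x : Nt) : Fib M H),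
    Subgroup.mem_subgroupOf.mp x.2⟩ : ℂ)
  have hNT : ∀ g : Fib M H, ∃ n ∈ Nt, ∃ t ∈ Ht, g = n * t := by
    intro x
    have h1 : (f1 M H x * (f2 M H x : G)⁻¹) * ((1 : H) : G)⁻¹ ∈ M := by
      rw [OneMemClass.coe_one, inv_one, mul_one]; exact fib_mem M H x
    have h2 : (f2 M H x : G) * (f2 M H x : G)⁻¹ ∈ M := by
      rw [mul_inv_cancel]; exact M.one_mem
    refine ⟨mkF M H h1, h.hMM1.le (fib_mem M H x), mkF M H h2, (f2 M H x).2, ?_⟩
    apply Subtype.ext
    apply Prod.ext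
    · show f1 M H x = f1 M H x * (f2 M H x : G)⁻¹ * (f2 M H x : G)
      group
    · show f2 M H x = 1 * f2 M H x
      rw [one_mul]
  have hθc : IsClassFunction Ht (fun t => (theta h.toCfg hχ hlam t : ℂ)) :=
    (isCharacter_of_unitsHom (theta h.toCfg hχ hlam)).isClassFunction
  have hres : (fun n : Nt => χ1 n) = indFun D θ' := by
    funext n
    exact RelM2.indFun_res_of_mul Nt Ht hNT hθc n
  have hnorm : classInner (fun n : Nt => χ1 n) (fun n : Nt => χ1 n) = (d : ℂ) ^ 2 := by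
    have h1 : (fun n : Nt => χ1 n) = (e : ℂ) • ν := he
    rw [h1, classInner_smul_left, classInner_smul_right, hν.classInner_self, hef]
    simp [pow_two]
  have hsum : ∑ x : D, θ' x * conj (χ1 ((x : Nt) : Fib M H)) =
      (Fintype.card D : ℂ) * ((((d : ℝ) ^ 2 : ℝ)) : ℂ) := by
    have h1 : classInner (indFun D θ') (fun n : Nt => χ1 n) = (d : ℂ) ^ 2 := by
      rw [← hres]; exact hnorm
    rw [IndFun.frobenius_reciprocity D θ' _ (isClassFunction_res hχ1c.isClassFunction Nt),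
      classInner_def, inv_mul_eq_iff_eq_mul₀ (by exact_mod_cast Nat.card_pos.ne'),
      Nat.card_eq_fintype_card] at h1
    rw [h1]; push_cast; ring
  have hall := eq_of_sum_eq (z := fun x : D => θ' x * conj (χ1 ((x : Nt) : Fib M H)))
    (B := (d : ℝ) ^ 2) (by
      intro x
      rw [norm_mul, RCLike.norm_conj]
      have h1 : ‖θ' x‖ = 1 := norm_lam (N := Ht) (theta h.toCfg hχ hlam) _
      rw [h1, one_mul]
      have h2 := norm_le_degree hχ1c hχ11 ((x : Nt) : Fib M H)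
      push_cast at h2
      exact h2) hsum
  -- the contradiction
  obtain ⟨x, hxH, hxM1, hxN⟩ := h.exists_mem
  apply hxN
  apply h.hfaith x hxH
  intro m hm
  have hx1 : (x : G) * ((⟨x, hxH⟩ : H) : G)⁻¹ ∈ M := by
    show x * x⁻¹ ∈ M
    rw [mul_inv_cancel]; exact M.one_mem
  let t : Fib M H := mkF M H hx1
  have ht1 : χ1 t = χ1 1 := by
    have htD : (⟨t, hxM1⟩ : Nt) ∈ D := Subgroup.mem_subgroupOf.mpr hxH
    have h1 := hall ⟨⟨t, hxM1⟩, htD⟩
    have h2 : θ' ⟨⟨t, hxM1⟩, htD⟩ = 1 := by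
      show ((theta h.toCfg hχ hlam ⟨t, hxH⟩ : ℂˣ) : ℂ) = 1
      rw [theta_apply]
      have h3 : (⟨f1 M H t * (f2 M H t : G)⁻¹, h.hinf _ (fib_mem M H t)
          (H.mul_mem hxH (H.inv_mem (f2 M H t).2))⟩ : N) = 1 := by
        apply Subtype.ext
        show x * x⁻¹ = 1
        exact mul_inv_cancel x
      rw [h3, map_one, Units.val_one]
    change θ' ⟨⟨t, hxM1⟩, htD⟩ * conj (χ1 t) = _ at h1
    rw [h2, one_mul] at h1
    have h4 := congrArg conj h1
    rw [Complex.conj_conj, Complex.conj_ofReal] at h4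
    rw [h4, hχ11]
    push_cast; rfl
  have hm1 : (m : G) * ((1 : H) : G)⁻¹ ∈ M := by simpa using hm
  let u : Fib M H := mkF M H hm1
  have hw := ker_comm hχ1c ht1 u
  have hwM : f1 M H (u * t * u⁻¹ * t⁻¹) ∈ M := by
    show m * x * m⁻¹ * x⁻¹ ∈ M
    have h1 : m * x * m⁻¹ * x⁻¹ = m * (x * m⁻¹ * x⁻¹) := by group
    rw [h1]
    exact M.mul_mem hm (hM.conj_mem _ (M.inv_mem hm) x)
  have hw2 := hval (u * t * u⁻¹ * t⁻¹) hwM (fib_f2 h.toCfg _ hwM)
  by_contra hcon
  have h5 : μ ⟨f1 M H (u * t * u⁻¹ * t⁻¹), hwM⟩ = 0 := by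
    apply hv
    intro h6
    apply hcon
    have h7 : x * m * x⁻¹ * m⁻¹ = (m * x * m⁻¹ * x⁻¹)⁻¹ := by group
    rw [h7]
    exact N.inv_mem h6
  rw [h5, zero_mul, mul_zero] at hw2
  rw [hw2, hχ11] at hw
  apply hd0
  have h8 : d ^ 2 = 0 := by exact_mod_cast hw.symm
  have h9 : d = 0 := by simpa using h8
  rw [h9]; simp


end Cfsg.Agent.Lib.H15Berger
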