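import Cfsg.Agent.Lib.H15BergerE

set_option autoImplicit false

/-!
# Berger's theorem: scalar case (helper15)
-/

namespace Cfsg.Agent.Lib.H15Berger

open scoped ComplexConjugate
open Cfsg Cfsg.Agent.Lib.CharBasic Cfsg.Agent.Lib.Clifford

universe u v

/-- The restrictions of `χ` to all normal subgroups above `N` are homogeneous. -/
def QP {G : Type u} [Group G] (N : Subgroup G) (χ : G → ℂ) : Prop :=
  ∀ M : Subgroup G, M.Normal → N ≤ M → Homog M χ

theorem QP.mono {G : Type u} [Group G] {N M : Subgroup G} {χ : G → ℂ} (h : QP N χ)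
    (hNM : N ≤ M) : QP M χ := fun K hK hMK => h K hK (hNM.trans hMK)

theorem QP.comap {A : Type u} {B : Type v} [Group A] [Group B] {f : A →* B}
    (hf : Function.Surjective f) {N : Subgroup B} {χ : B → ℂ} (h : QP N χ) :
    QP (N.comap f) (fun a => χ (f a)) := by
  intro K hK hNK
  obtain ⟨φ, e, hφ, he⟩ := h (K.map f) (hK.map f hf) (by
    intro n hn
    obtain ⟨a, rfl⟩ := hf n
    exact Subgroup.mem_map_of_mem f (hNK hn))
  let g : K →* K.map f := f.subgroupMap K
  have hg : Function.Surjective g := f.subgroupMap_surjective K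
  refine ⟨fun x => φ (g x), e, hφ.comp_surjective g hg, ?_⟩
  funext x
  exact congrFun he (g x)

theorem exists_induced_of_not_homog {A : Type u} [Group A] [Fintype A] {B : Subgroup A}
    [hB : B.Normal] {χ : A → ℂ} (hχ : IsIrrCharacter A χ) (h : ¬ Homog B χ) :
    ∃ T : Subgroup A, B ≤ T ∧ T ≠ ⊤ ∧ ∃ η : T → ℂ, IsIrrCharacter T η ∧ indFun T η = χ := by
  classical
  have : Fintype B := Fintype.ofFinite B
  have h0 : (fun b : B => χ b) ≠ 0 := by
    intro h0
    exact hχ.one_ne_zero (congrFun h0 1)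
  obtain ⟨ν, hν, hc⟩ := (hχ.isCharacter.restrict B).exists_constituent h0
  refine ⟨inertia B ν, le_inertia hν.isClassFunction, ?_, ?_⟩
  · intro htop
    apply h
    obtain ⟨e, he⟩ := (hχ.isCharacter.restrict B).classInner_nat hν.isCharacter
    refine ⟨ν, e, hν, ?_⟩
    rw [← he]
    exact res_eq_smul_of_invariant hχ hν (fun g => by
      have : g ∈ inertia B ν := by rw [htop]; exact Subgroup.mem_top g
      exact this) hc
  · obtain ⟨η, hη, hη2, -⟩ := CliffordCorr.corr_surj (le_inertia hν.isClassFunction) hν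
      (fun g => Iff.rfl) hχ hc
    exact ⟨η, hη, hη2⟩

/-- The inductive statement. -/
def PP (n : ℕ) : Prop :=
  ∀ {G : Type u} [Group G] [Fintype G] (N : Subgroup G), N.Normal → SolvMod N → N.index = n →
    ∀ χ : G → ℂ, IsIrrCharacter G χ → QP N χ → ∀ K : Subgroup G, N ≤ K → K ≠ ⊤ →
      ∀ ψ : K → ℂ, IsCharacter K ψ → indFun K ψ ≠ χ

theorem scalar_case {n : ℕ} (ih : ∀ m < n, PP.{u} m) {G : Type u} [Group G] [Fintype G]
    {N H : Subgroup G} [hN : N.Normal] (hsol : SolvMod N) (hidx : N.index = n)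
    (hmax : IsCoatom H) (hcore : H.normalCore = N) {χ : G → ℂ} (hχ : IsIrrCharacter G χ)
    (hQP : QP N χ) {lam : N →* ℂˣ} (hlam : ∀ (n : N) (g : G), χ (n * g) = lam n * χ g)
    {ψ : H → ℂ} (hψc : IsCharacter H ψ) (hind : indFun H ψ = χ) : False := by
  classical
  have : Fintype H := Fintype.ofFinite H
  have hψ : IsIrrCharacter H ψ := RelM2.isIrr_of_indFun H hψc (hind ▸ hχ)
  obtain ⟨M, p, h⟩ := exists_cfg hsol hmax hcore
  have hM : M.Normal := h.hM
  have : Fintype (Fib M H) := Fintype.ofFinite _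
  -- scalars on ψ
  have hc : classInner (fun x : H => χ x) ψ ≠ 0 := by
    rw [← IndFun.frobenius_reciprocity' H ψ χ hχ.isClassFunction, hind, hχ.classInner_self]
    exact one_ne_zero
  have hb := (hχ.isCharacter.restrict H).sub_constituent hψ hc
  have hψN := scalar_constituent h.hNH hlam hψ hb (fun x => by simp)
  have hMne : M ≠ ⊤ := by
    intro hMt
    obtain ⟨μ, e0, hμ, he⟩ := hQP M hM h.hNM.le
    obtain ⟨d, hd⟩ := hμ.isCharacter.exists_degree
    obtain ⟨-, -, -, hsq⟩ := h.data hχ hlam hind hμ he hd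
    have hsurj : Function.Surjective M.subtype := by
      intro x
      exact ⟨⟨x, by rw [hMt]; exact Subgroup.mem_top x⟩, rfl⟩
    have hχM : IsIrrCharacter M (fun m : M => χ m) := hχ.comp_surjective M.subtype hsurj
    have : Fintype M := Fintype.ofFinite M
    have h1 := hχM.classInner_self
    rw [he, classInner_smul_left, classInner_smul_right, hμ.classInner_self, mul_one] at h1
    have h2 : e0 * e0 = 1 := by
      have h2' : ((e0 * e0 : ℕ) : ℂ) = 1 := by
        push_cast
        simpa using h1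
      exact_mod_cast h2'
    have h3 : e0 = 1 := Nat.eq_one_of_mul_eq_one_left h2
    have h4 : χ 1 = d := by
      have := congrFun he 1
      rw [h3] at this
      simp only [Nat.cast_one, one_smul] at this
      rw [← hd]; exact this
    have h5 : χ 1 = ((d ^ 2 : ℕ) : ℂ) * ψ 1 := by
      rw [← hind, IndFun.indFun_one, h.index_eq, hsq]
    obtain ⟨k, hk⟩ := hψ.isCharacter.exists_degree
    rw [h4, hk] at h5
    have h6 : d = d ^ 2 * k := by exact_mod_cast h5
    have hd0 : 0 < d := by
      rcases Nat.eq_zero_or_pos d with h7 | h7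
      · exfalso; apply hμ.one_ne_zero; rw [hd, h7]; simp
      · exact h7
    have h7 : d * (d * k) = d * 1 := by rw [mul_one]; rw [pow_two, mul_assoc] at h6; exact h6.symm
    have h8 : d * k = 1 := Nat.eq_of_mul_eq_mul_left hd0 h7
    have h9 : d = 1 := Nat.eq_one_of_mul_eq_one_right h8
    rw [h9, one_pow, ← h.index_eq] at hsq
    exact hmax.1 (Subgroup.index_eq_one.mp hsq.symm)
  obtain ⟨M1, q, h2⟩ := h.exists_cfg2 hsol hMne
  have hM1n : M1.Normal := h2.hM1
  have hnh := h2.not_homog hχ hlam hψ hind hψN (hQP M hM h.hNM.le)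
  have hfac := factor h hχ hlam hψ hind hψN
  set χ1 := indFun (H.comap (f1 M H)) (fun t => (theta h hχ hlam t : ℂ)) with hχ1
  have hsurj := f1_surj (M := M) (H := H) h.hmul
  have hχF : IsIrrCharacter (Fib M H) (fun x => χ (f1 M H x)) := hχ.comp_surjective _ hsurj
  have hχ1irr : IsIrrCharacter (Fib M H) χ1 := by
    apply isIrr_of_mul (β := fun x => ψ (f2 M H x)) (Clifford.isCharacter_indFun _
      (isCharacter_of_unitsHom (theta h hχ hlam))) (hψ.isCharacter.comp (f2 M H))
    have h3 : χ1 * (fun x => ψ (f2 M H x)) = fun x => χ (f1 M H x) := by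
      funext x
      exact (hfac x).symm
    rw [h3]; exact hχF
  obtain ⟨T, hT1, hT2, η, hη, hη2⟩ := exists_induced_of_not_homog hχ1irr hnh
  have hlt : (M.comap (f1 M H)).index < n := by
    rw [Subgroup.index_comap_of_surjective _ hsurj, ← hidx]
    exact Subgroup.index_strictAnti h.hNM
  refine ih _ hlt (M.comap (f1 M H)) inferInstance ((hsol.mono h.hNM.le).comap _) rfl
    (fun x => χ (f1 M H x)) hχF ((hQP.mono h.hNM.le).comap hsurj) T
    ((Subgroup.comap_mono h2.hMM1.le).trans hT1) hT2 (fun t => η t * ψ (f2 M H t)) ?_ ?_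
  · exact hη.isCharacter.mul ((hψ.isCharacter.comp (f2 M H)).restrict T)
  · have h3 := IndFun.indFun_mul_res T η (fun x => ψ (f2 M H x))
      (isClassFunction_comp_hom (f2 M H) hψ.isClassFunction)
    rw [h3, hη2]
    funext x
    exact (hfac x).symm

end Cfsg.Agent.Lib.H15Berger
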