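import Cfsg.Agent.Lib.H15BergerF

set_option autoImplicit false

/-!
# Berger's theorem (helper15)
-/

namespace Cfsg.Agent.Lib.H15Berger

open scoped ComplexConjugate
open Cfsg Cfsg.Agent.Lib.CharBasic Cfsg.Agent.Lib.Clifford

universe u v

/-- A nonzero summand of a multiple of an irreducible character lies over it. -/
theorem classInner_ne_zero_of_add {A : Type u} [Group A] [Fintype A] {a b φ : A → ℂ}
    (ha : IsCharacter A a) (hb : IsCharacter A b) (hφ : IsIrrCharacter A φ) (ha0 : a ≠ 0) {e : ℂ}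
    (h : a + b = e • φ) : classInner a φ ≠ 0 := by
  obtain ⟨γ, hγ, hc⟩ := ha.exists_constituent ha0
  obtain ⟨n, hn⟩ := ha.classInner_nat hγ.isCharacter
  obtain ⟨m, hm⟩ := hb.classInner_nat hγ.isCharacter
  have h1 : classInner (e • φ) γ = ((n + m : ℕ) : ℂ) := by
    rw [← h, classInner_add_left, hn, hm]; push_cast; rfl
  have hn0 : n ≠ 0 := by
    rintro rfl; apply hc; rw [hn]; simp
  by_cases h2 : φ = γ
  · rw [h2]; exact hc
  · rw [classInner_smul_left, hφ.classInner_eq_zero hγ h2, mul_zero] at h1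
    have h3 : n + m = 0 := by exact_mod_cast h1.symm
    omega

section

variable {Y : Type u} [Group Y] [Finite Y] {J : Subgroup Y} [hJ : J.Normal] {ϑ : J → ℂ}

/-- transport of the irreducible character of `J` to `J` inside `A`. -/
theorem irr_sub (hϑ : IsIrrCharacter J ϑ) {ρ : Y → ℂ} (hext : ∀ n : J, ρ n = ϑ n)
    {A : Subgroup Y} (hJA : J ≤ A) :
    IsIrrCharacter (J.subgroupOf A) (fun x : J.subgroupOf A => ρ ((x : A) : Y)) := by
  have h1 := hϑ.comp_surjective (Subgroup.subgroupOfEquivOfLe hJA).toMonoidHom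
    (Subgroup.subgroupOfEquivOfLe hJA).surjective
  have h2 : (fun x : J.subgroupOf A => ρ ((x : A) : Y)) =
      fun h => ϑ ((Subgroup.subgroupOfEquivOfLe hJA).toMonoidHom h) := by
    funext x
    rw [← hext]
    rfl
  rw [h2]; exact h1

theorem gallagher_sub (hϑ : IsIrrCharacter J ϑ) {ρ : Y → ℂ} (hρ : IsCharacter Y ρ)
    (hext : ∀ n : J, ρ n = ϑ n) {A : Subgroup Y} (hJA : J ≤ A) {α b : A → ℂ}
    (hα : IsIrrCharacter A α) (hb : IsCharacter A b) {e : ℂ}
    (hres : ∀ x : A, (x : Y) ∈ J → α x + b x = e * ρ x) :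
    ∃ β : A → ℂ, IsIrrCharacter A β ∧ (∀ x : A, (x : Y) ∈ J → β x = β 1) ∧
      α = β * fun x : A => ρ x := by
  have := Fintype.ofFinite A
  have := Fintype.ofFinite (J.subgroupOf A)
  have h1 := irr_sub hϑ hext hJA
  have h2 : IsIrrCharacter A (fun x : A => ρ x) :=
    CanonExt.isIrr_of_ext (N := J.subgroupOf A) h1 (hρ.restrict A) (fun n => rfl)
  have h3 : (fun n : J.subgroupOf A => α n) ≠ 0 := by
    intro h3
    exact hα.one_ne_zero (congrFun h3 1)
  have h4 := classInner_ne_zero_of_add (hα.isCharacter.restrict (J.subgroupOf A))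
    (hb.restrict (J.subgroupOf A)) h1 h3 (e := e) (by
      funext x
      exact hres x (Subgroup.mem_subgroupOf.mp x.2))
  obtain ⟨β, hβ, hβ1, hβ2⟩ := CanonExt.exists_gallagher (N := J.subgroupOf A) h1 h2
    (fun n => rfl) hα h4
  exact ⟨β, hβ, fun x hx => hβ1 ⟨x, Subgroup.mem_subgroupOf.mpr hx⟩, hβ2⟩

theorem cancel_sub (hϑ : IsIrrCharacter J ϑ) {ρ : Y → ℂ} (hρ : IsCharacter Y ρ)
    (hext : ∀ n : J, ρ n = ϑ n) {A : Subgroup Y} (hJA : J ≤ A) {α β : A → ℂ}
    (hα : IsCharacter A α) (hα1 : ∀ x : A, (x : Y) ∈ J → α x = α 1)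
    (hβ : IsIrrCharacter A β) (hβ1 : ∀ x : A, (x : Y) ∈ J → β x = β 1) {k : ℕ}
    (h : ∀ x : A, α x * ρ x = k * (β x * ρ x)) : α = (k : ℂ) • β := by
  have h1 := irr_sub hϑ hext hJA
  have h2 : IsIrrCharacter A (fun x : A => ρ x) :=
    CanonExt.isIrr_of_ext (N := J.subgroupOf A) h1 (hρ.restrict A) (fun n => rfl)
  refine gallagher_cancel (N := J.subgroupOf A) h1 h2 (fun n => rfl) hα
    (fun n => hα1 n (Subgroup.mem_subgroupOf.mp n.2)) hβ
    (fun n => hβ1 n (Subgroup.mem_subgroupOf.mp n.2)) ?_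
  funext x
  exact h x

end

theorem normalCore_comap {A : Type u} {B : Type v} [Group A] [Group B] {f : A →* B}
    (hf : Function.Surjective f) (H : Subgroup B) :
    (H.comap f).normalCore = H.normalCore.comap f := by
  ext x
  rw [Subgroup.mem_comap]
  constructor
  · intro hx b
    obtain ⟨a, rfl⟩ := hf b
    have h1 := hx a
    rw [Subgroup.mem_comap, map_mul, map_mul, map_inv] at h1
    exact h1
  · intro hx a
    have h1 := hx (f a)
    show a * x * a⁻¹ ∈ H.comap f
    rw [Subgroup.mem_comap, map_mul, map_mul, map_inv]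
    exact h1

theorem berger (n : ℕ) : PP.{u} n := by
  induction n using Nat.strong_induction_on with
  | _ n ih =>
  intro G _ _ N hN hsol hidx χ hχ hQP K hNK hK ψK hψK hindK
  classical
  -- maximal subgroup
  obtain ⟨H, hmax, hKH⟩ := (eq_top_or_exists_le_coatom K).resolve_left hK
  have : Fintype H := Fintype.ofFinite H
  have hfK : Fintype (K.subgroupOf H) := Fintype.ofFinite _
  set ψ : H → ℂ := indFun (K.subgroupOf H)
    (fun x => ψK ⟨(x : H), Subgroup.mem_subgroupOf.mp x.2⟩) with hψdef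
  have hind : indFun H ψ = χ := by
    rw [hψdef, IndFun.indFun_trans K H hKH, hindK]
  have hψc : IsCharacter H ψ := by
    rw [hψdef]
    apply Clifford.isCharacter_indFun
    exact hψK.comp (Subgroup.subgroupOfEquivOfLe hKH).toMonoidHom
  have hNH : N ≤ H := hNK.trans hKH
  -- the core
  have hNcore : N ≤ H.normalCore := Subgroup.normal_le_normalCore.mpr hNH
  rcases hNcore.lt_or_eq with hlt | hcore
  · refine ih _ (hidx ▸ Subgroup.index_strictAnti hlt) H.normalCore inferInstance
      (hsol.mono hNcore) rfl χ hχ (hQP.mono hNcore) H H.normalCore_le hmax.1 ψ hψc hind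
  -- the triple
  obtain ⟨φ, e, hφ, he⟩ := hQP N hN le_rfl
  have he' : ∀ m : N, χ m = e * φ m := fun m => congrFun he m
  have he0 : (e : ℂ) ≠ 0 := by
    intro h0
    apply hχ.one_ne_zero
    have := he' 1
    rw [h0, zero_mul] at this
    exact this
  have hinv : ∀ g : G, cj N g φ = φ := by
    intro g
    have h1 := cj_res (N := N) hχ.isClassFunction g
    rw [he, cj_smul] at h1
    exact smul_right_injective _ he0 h1
  obtain ⟨t⟩ := CharTriple.exists_triple hφ hinv
  have hYf : Fintype t.Y := Fintype.ofFinite _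
  set J : Subgroup t.Y := t.j.range with hJ
  have hJn : J.Normal := t.j_norm
  have hjinj : Function.Injective t.j := by
    intro a b hab
    have := congrArg t.π hab
    rw [t.π_j, t.π_j] at this
    exact Subtype.ext this
  let ej : N ≃* J := MonoidHom.ofInjective hjinj
  have hej : ∀ n, ((ej n : J) : t.Y) = t.j n := fun n => rfl
  let ϑ : J → ℂ := fun x => φ (ej.symm x)
  have hϑ : IsIrrCharacter J ϑ := hφ.comp_surjective ej.symm.toMonoidHom ej.symm.surjective
  have hext : ∀ x : J, t.ρ x = ϑ x := by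
    intro x
    obtain ⟨n, rfl⟩ := ej.surjective x
    show t.ρ _ = φ (ej.symm (ej n))
    rw [MulEquiv.symm_apply_apply, hej]
    exact t.ρ_j n
  have hρ : IsIrrCharacter t.Y t.ρ := CanonExt.isIrr_of_ext hϑ t.ρ_char hext
  have hJN : J ≤ N.comap t.π := by
    rintro _ ⟨n, rfl⟩
    rw [Subgroup.mem_comap, t.π_j]
    exact n.2
  have hJres : ∀ x : t.Y, x ∈ J → χ (t.π x) = e * t.ρ x := by
    rintro _ ⟨n, rfl⟩
    rw [t.π_j, t.ρ_j]
    exact he' n
  have hNH' : N.comap t.π ≤ H.comap t.π := Subgroup.comap_mono hNH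
  have hχY : IsIrrCharacter t.Y (fun y => χ (t.π y)) := hχ.comp_surjective t.π t.π_surj
  -- the character β
  have hfJ : Fintype J := Fintype.ofFinite J
  obtain ⟨β, hβ, hβJ, hχβ⟩ := CanonExt.exists_gallagher (N := J) hϑ hρ hext hχY (by
    have h1 : (fun n : J => χ (t.π n)) = (e : ℂ) • ϑ := by
      funext n
      rw [Pi.smul_apply, ← hext, smul_eq_mul]
      exact hJres n n.2
    rw [h1, classInner_smul_left, hϑ.classInner_self, mul_one]
    exact he0)
  have hχβ' : ∀ y, χ (t.π y) = β y * t.ρ y := fun y => congrFun hχβ y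
  have hscal : ∀ x ∈ N.comap t.π, ‖β x‖ = ‖β 1‖ := by
    intro x hx
    set z : t.Y := x * (t.j ⟨t.π x, hx⟩)⁻¹ with hz
    have hzk : z ∈ t.π.ker := by
      rw [MonoidHom.mem_ker, hz, map_mul, map_inv, t.π_j]
      exact mul_inv_cancel _
    have h1 : x = z * t.j ⟨t.π x, hx⟩ := by rw [hz]; group
    have h2 : β x = β z := by
      conv_lhs => rw [h1]
      exact hβ.isCharacter.mul_eq_of_const J (fun n hn => hβJ ⟨n, hn⟩) z _ ⟨_, rfl⟩
    have h3 := hχβ' z
    have h4 := hχβ' 1
    have h5 := t.ρ_mul ⟨z, hzk⟩ 1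
    rw [mul_one] at h5
    change t.ρ z = _ at h5
    rw [show t.π z = 1 from hzk, h5] at h3
    rw [map_one] at h4
    rw [h4] at h3
    have h6 : β 1 = β z * (t.lam ⟨z, hzk⟩ : ℂ) := by
      apply mul_right_cancel₀ hρ.one_ne_zero
      rw [h3]; ring
    rw [h2, h6, norm_mul, norm_lam, mul_one]
  obtain ⟨lam, hlam⟩ := exists_scalar_hom hβ (N.comap t.π) hscal
  -- the character of H
  have hψ : IsIrrCharacter H ψ := RelM2.isIrr_of_indFun H hψc (hind ▸ hχ)
  have hc : classInner (fun x : H => χ x) ψ ≠ 0 := by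
    rw [← IndFun.frobenius_reciprocity' H ψ χ hχ.isClassFunction, hind, hχ.classInner_self]
    exact one_ne_zero
  have hb := (hχ.isCharacter.restrict H).sub_constituent hψ hc
  let g : H.comap t.π →* H :=
    { toFun := fun x => ⟨t.π (x : t.Y), x.2⟩
      map_one' := Subtype.ext (map_one t.π)
      map_mul' := fun a b => Subtype.ext (map_mul t.π (a : t.Y) (b : t.Y)) }
  have hg : Function.Surjective g := by
    rintro ⟨x, hx⟩
    obtain ⟨y, hy⟩ := t.π_surj x
    exact ⟨⟨y, by rw [Subgroup.mem_comap, hy]; exact hx⟩, Subtype.ext hy⟩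
  obtain ⟨β2, hβ2, hβ2J, hψβ⟩ := gallagher_sub hϑ t.ρ_char hext (hJN.trans hNH')
    (hψ.comp_surjective g hg) (hb.comp g) (e := (e : ℂ)) (by
      intro x hx
      rw [← hJres x hx]
      show ψ (g x) + (χ (g x) - ψ (g x)) = χ (t.π x)
      rw [add_sub_cancel]
      rfl)
  have hαβ : indFun (H.comap t.π) β2 = β := by
    have h1 : indFun (H.comap t.π) β2 * t.ρ = ((1 : ℕ) : ℂ) • (β * t.ρ) := by
      rw [Nat.cast_one, one_smul, ← hχβ]
      have h2 := IndFun.indFun_mul_res (H.comap t.π) β2 t.ρ hρ.isClassFunction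
      have h3 : (fun h : H.comap t.π => β2 h * t.ρ h) =
          fun h : H.comap t.π => ψ ⟨t.π (h : t.Y), h.2⟩ := by
        funext x
        exact (congrFun hψβ x).symm
      rw [h3] at h2
      have h4 : indFun (H.comap t.π) β2 * t.ρ = fun g => indFun (H.comap t.π) β2 g * t.ρ g := rfl
      rw [h4, ← h2]
      funext y
      rw [← hind]
      exact (indFun_comap t.π_surj H ψ y).symm
    have h2 := gallagher_cancel (N := J) hϑ hρ hext
      (Clifford.isCharacter_indFun (H.comap t.π) hβ2.isCharacter) (by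
        intro n
        rw [IndFun.indFun_apply, IndFun.indFun_apply]
        congr 1
        apply Finset.sum_congr rfl
        intro x _
        have h5 : x⁻¹ * (n : t.Y) * x ∈ J := by
          have := hJn.conj_mem n n.2 x⁻¹
          simpa using this
        have h6 : x⁻¹ * (n : t.Y) * x ∈ H.comap t.π := hJN.trans hNH' h5
        have h7 : x⁻¹ * 1 * x = ((1 : H.comap t.π) : t.Y) := by simp
        rw [IndFun.extendByZero_mem _ _ h6, h7, IndFun.extendByZero_coe]
        exact hβ2J _ h5) hβ hβJ h1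
    rw [h2, Nat.cast_one, one_smul]
  -- quasi-primitivity
  have hQPβ : QP (N.comap t.π) β := by
    intro A hA hNA
    obtain ⟨ν, e', hν, hνe⟩ := hQP.comap t.π_surj A hA hNA
    have hνe' : ∀ x : A, χ (t.π x) = e' * ν x := fun x => congrFun hνe x
    have he'0 : (e' : ℂ) ≠ 0 := by
      intro h0
      apply hχY.one_ne_zero
      have h1 := hνe' 1
      rw [h0, zero_mul] at h1
      exact h1
    obtain ⟨β1, hβ1, hβ1J, hνβ⟩ := gallagher_sub hϑ t.ρ_char hext (hJN.trans hNA) hν
      (b := 0) (isCharacter_zero) (e := (e : ℂ) / e') (by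
        intro x hx
        have h1 := hJres x hx
        rw [hνe' x] at h1
        rw [Pi.zero_apply, add_zero]
        field_simp
        rw [mul_comm, ← h1])
    refine ⟨β1, e', hβ1, ?_⟩
    refine cancel_sub hϑ t.ρ_char hext (hJN.trans hNA) (hβ.isCharacter.restrict A)
      (fun x hx => hβJ ⟨x, hx⟩) hβ1 hβ1J ?_
    intro x
    rw [← hχβ', hνe' x]
    congr 1
    exact congrFun hνβ x
  have hNYn : (N.comap t.π).Normal := hN.comap t.π
  exact scalar_case ih (hsol.comap t.π)
    (by rw [Subgroup.index_comap_of_surjective _ t.π_surj, hidx])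
    (Subgroup.isCoatom_comap_of_surjective t.π_surj hmax)
    (by rw [normalCore_comap t.π_surj, ← hcore]) hβ hQPβ hlam hβ2.isCharacter hαβ


end Cfsg.Agent.Lib.H15Berger
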