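import Mathlib

set_option autoImplicit false
set_option linter.all false

/-!
# Counting the conjugates of the nontrivial elements of a TI subgroup
-/

namespace Cfsg.Agent.Lib.H15Cnt

universe u

variable {G : Type u} [Group G] [Fintype G]

open scoped Classical in
/-- the nontrivial elements conjugate into `T` -/
noncomputable def AA (T : Subgroup G) : Finset G := Finset.univ.filter fun g => g ≠ 1 ∧ ∃ x, x⁻¹ * g * x ∈ T

theorem mem_AA {T : Subgroup G} {g : G} : g ∈ AA T ↔ g ≠ 1 ∧ ∃ x, x⁻¹ * g * x ∈ T := by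
  classical
  rw [AA, Finset.mem_filter]
  exact ⟨fun h => h.2, fun h => ⟨Finset.mem_univ _, h⟩⟩

theorem ti_count (T S : Subgroup G) (hn : ∀ s ∈ S, ∀ t ∈ T, s⁻¹ * t * s ∈ T)
    (ti : ∀ g, ∀ t ∈ T, t ≠ 1 → g⁻¹ * t * g ∈ T → g ∈ S) :
    (AA T).card * Nat.card S = Nat.card G * (Nat.card T - 1) := by
  classical
  have h1 : ∑ g : G, ∑ x : G, (if g ≠ 1 ∧ x⁻¹ * g * x ∈ T then 1 else 0) =
      ∑ x : G, ∑ g : G, (if g ≠ 1 ∧ x⁻¹ * g * x ∈ T then 1 else 0) := Finset.sum_comm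
  have h2 : ∀ x : G, ∑ g : G, (if g ≠ 1 ∧ x⁻¹ * g * x ∈ T then 1 else 0) = Nat.card T - 1 := by
    intro x
    have h3 : ∑ g : G, (if g ≠ 1 ∧ x⁻¹ * g * x ∈ T then 1 else 0) = ∑ g : G, (if g ≠ 1 ∧ g ∈ T then 1 else 0) := by
      refine Fintype.sum_equiv (MulAut.conj x⁻¹).toEquiv _ _ fun g => ?_
      have h4 : (MulAut.conj x⁻¹).toEquiv g = x⁻¹ * g * x := by
        change x⁻¹ * g * x⁻¹⁻¹ = _
        rw [inv_inv]
      rw [h4]
      have h5 : x⁻¹ * g * x ≠ 1 ↔ g ≠ 1 := by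
        rw [not_iff_not]
        constructor
        · intro h
          have : g = x * (x⁻¹ * g * x) * x⁻¹ := by group
          rw [this, h]; group
        · rintro rfl; group
      simp only [h5]
    rw [h3, ← Finset.sum_filter, Finset.sum_const, smul_eq_mul, mul_one]
    have h6 : (Finset.univ.filter fun g : G => g ≠ 1 ∧ g ∈ T) = (Finset.univ.filter fun g : G => g ∈ T).erase 1 := by
      ext g; simp [and_comm]
    rw [h6, Finset.card_erase_of_mem (by simp [T.one_mem]), Nat.card_eq_fintype_card, Fintype.card_subtype]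
  rw [Finset.sum_congr rfl fun x _ => h2 x, Finset.sum_const, Finset.card_univ, smul_eq_mul,
    ← Nat.card_eq_fintype_card] at h1
  rw [← h1, ← smul_eq_mul, ← Finset.sum_const]
  have h3 : ∀ g ∉ AA T, ∑ x : G, (if g ≠ 1 ∧ x⁻¹ * g * x ∈ T then 1 else 0) = 0 := by
    intro g hg
    refine Finset.sum_eq_zero fun x _ => if_neg fun h => hg (mem_AA.2 ⟨h.1, x, h.2⟩)
  rw [← Finset.sum_subset (Finset.subset_univ (AA T)) (fun g _ hg => h3 g hg)]
  refine Finset.sum_congr rfl fun g hg => ?_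
  obtain ⟨hg1, y, hy⟩ := mem_AA.1 hg
  have hy1 : y⁻¹ * g * y ≠ 1 := by
    intro h
    apply hg1
    have : g = y * (y⁻¹ * g * y) * y⁻¹ := by group
    rw [this, h]; group
  have h4 : ∑ x : G, (if g ≠ 1 ∧ x⁻¹ * g * x ∈ T then 1 else 0) = ∑ x : G, (if x ∈ S then 1 else 0) := by
    symm
    refine Fintype.sum_equiv (Equiv.mulLeft y) _ _ fun x => ?_
    rw [Equiv.coe_mulLeft]
    have h5 : (y * x)⁻¹ * g * (y * x) = x⁻¹ * (y⁻¹ * g * y) * x := by group
    rw [h5]
    by_cases hx : x ∈ S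
    · rw [if_pos hx, if_pos ⟨hg1, hn x hx _ hy⟩]
    · rw [if_neg hx, if_neg (fun h => hx (ti x _ hy hy1 h.2))]
  rw [h4, ← Finset.sum_filter, Finset.sum_const, smul_eq_mul, mul_one, Nat.card_eq_fintype_card, Fintype.card_subtype]

end Cfsg.Agent.Lib.H15Cnt
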