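import Cfsg.Agent.Lib.CharBasic2

set_option autoImplicit false
set_option linter.all false

/-!
# The character on the fixed points of a normalised subgroup
-/

namespace Cfsg.Agent.Lib.H15Fix

open Cfsg Cfsg.Agent.Lib.CharBasic Module
open scoped ComplexConjugate

universe u

variable {G : Type u} [Group G] [Fintype G]

theorem fixed_char {P E : Subgroup G} [Fintype P] (hn : ∀ h ∈ E, ∀ y ∈ P, h * y * h⁻¹ ∈ P) {χ : G → ℂ}
    (hχ : IsCharacter G χ) : IsCharacter E (fun h => (Nat.card P : ℂ)⁻¹ * ∑ y : P, χ (h * y)) := by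
  classical
  obtain ⟨n, ρ, rfl⟩ := hχ
  let ρP : Representation ℂ P (Fin n → ℂ) := ρ.comp P.subtype
  let W : Submodule ℂ (Fin n → ℂ) := Representation.invariants ρP
  let A : (Fin n → ℂ) →ₗ[ℂ] (Fin n → ℂ) := (Nat.card P : ℂ)⁻¹ • ∑ y : P, ρ y
  have hP0 : (Nat.card P : ℂ) ≠ 0 := by exact_mod_cast Nat.card_pos.ne'
  have hAw : ∀ w ∈ W, A w = w := by
    intro w hw
    change (Nat.card P : ℂ)⁻¹ • (∑ y : P, ρ y) w = w
    rw [LinearMap.sum_apply, Finset.sum_congr rfl (g := fun _ => w), Finset.sum_const, Finset.card_univ,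
      ← Nat.card_eq_fintype_card, ← Nat.cast_smul_eq_nsmul ℂ, smul_smul, inv_mul_cancel₀ hP0, one_smul]
    intro y _
    exact (Representation.mem_invariants ρP w).1 hw y
  have hA : ∀ v, A v ∈ W := by
    intro v
    rw [Representation.mem_invariants]
    intro z
    change ρ z ((Nat.card P : ℂ)⁻¹ • (∑ y : P, ρ y) v) = (Nat.card P : ℂ)⁻¹ • (∑ y : P, ρ y) v
    rw [map_smul, LinearMap.sum_apply, map_sum]
    congr 1
    refine Fintype.sum_equiv (Equiv.mulLeft z) _ _ fun y => ?_
    change (ρ z * ρ y) v = ρ (z * y) v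
    rw [map_mul]
  have hst : ∀ h ∈ E, ∀ w ∈ W, ρ h w ∈ W := by
    intro h hh w hw
    rw [Representation.mem_invariants] at hw ⊢
    intro y
    have h1 : h⁻¹ * (y : G) * h ∈ P := by
      have := hn h⁻¹ (E.inv_mem hh) y y.2
      rwa [inv_inv] at this
    change (ρ y * ρ h) w = ρ h w
    have h2 : ρ (y : G) * ρ h = ρ h * ρ (h⁻¹ * y * h) := by
      rw [← map_mul, ← map_mul]; congr 1; group
    rw [h2]
    change ρ h (ρ (h⁻¹ * y * h) w) = _
    congr 1
    exact hw ⟨_, h1⟩
  let σ : Representation ℂ E W :=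
    { toFun := fun h => (ρ h).restrict (hst h h.2)
      map_one' := by
        ext w : 2
        change ρ 1 (w : Fin n → ℂ) = w
        rw [map_one]; rfl
      map_mul' := by
        intro g h
        ext w : 2
        change ρ (g * h) (w : Fin n → ℂ) = ρ g (ρ h w)
        rw [map_mul]; rfl }
  have hσ := isCharacter_of_rep σ
  convert hσ using 1
  funext h
  change _ = LinearMap.trace ℂ W ((ρ h).restrict (hst h h.2))
  have hmem : ∀ v, (ρ h * A) v ∈ W := fun v => hst h h.2 _ (hA v)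
  have h3 := LinearMap.trace_restrict_eq_of_forall_mem W (ρ h * A) hmem
  have h4 : (ρ h * A).restrict (fun x _ => hmem x) = (ρ h).restrict (hst h h.2) := by
    ext w : 2
    change ρ h (A w) = ρ h w
    rw [hAw w w.2]
  rw [h4] at h3
  rw [h3]
  have h5 : ρ h * A = (Nat.card P : ℂ)⁻¹ • ∑ y : P, ρ (h * y) := by
    change ρ h * ((Nat.card P : ℂ)⁻¹ • ∑ y : P, ρ y) = _
    rw [mul_smul_comm, Finset.mul_sum]
    congr 1
    exact Finset.sum_congr rfl fun y _ => (map_mul _ _ _).symm
  rw [h5, map_smul, map_sum, smul_eq_mul]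
  rfl

end Cfsg.Agent.Lib.H15Fix
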