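import Cfsg.Agent.Lib.H15Val

set_option autoImplicit false
set_option linter.all false

/-!
# Lattices over a valuation subring of `ℂ`
-/

namespace Cfsg.Agent.Lib.H15Lat

open IsLocalRing Module

universe u

variable {G : Type u} [Group G] [Finite G] {O : ValuationSubring ℂ} {n : ℕ}

/-- Every cyclic complex representation has an integral form over `O`. -/
theorem exists_lattice (ρ : Representation ℂ G (Fin n → ℂ)) (v : Fin n → ℂ)
    (hv : Submodule.span ℂ (Set.range fun g => ρ g v) = ⊤) :
    ∃ (a : G →* Matrix (Fin n) (Fin n) O) (w : Fin n → O) (b : Basis (Fin n) ℂ (Fin n → ℂ)),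
      (∀ g i j, b.repr (ρ g (b j)) i = (a g i j : ℂ)) ∧ (∀ i, b.repr v i = (w i : ℂ)) ∧
      Submodule.span O (Set.range fun g => (a g).mulVec w) = ⊤ := by
  classical
  let L : Submodule O (Fin n → ℂ) := Submodule.span O (Set.range fun g => ρ g v)
  haveI : Module.Finite O L := by
    rw [Module.Finite.iff_fg]
    exact Submodule.fg_span (Set.finite_range _)
  haveI : Module.Flat O L := by
    rw [Module.Flat.flat_iff_torsion_eq_bot_of_isBezout, ← Submodule.isTorsionFree_iff_torsion_eq_bot]
    infer_instance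
  haveI : Module.Free O L := Module.free_of_flat_of_isLocalRing
  let bL := Module.Free.chooseBasis O L
  let ι := Module.Free.ChooseBasisIndex O L
  have hli : LinearIndependent O (fun i : ι => ((bL i : L) : Fin n → ℂ)) :=
    bL.linearIndependent.map' L.subtype (Submodule.ker_subtype _)
  have hliC : LinearIndependent ℂ (fun i : ι => ((bL i : L) : Fin n → ℂ)) :=
    (LinearIndependent.iff_fractionRing O ℂ).1 hli
  have hLspan : ∀ x : Fin n → ℂ, x ∈ L → x ∈ Submodule.span ℂ (Set.range fun i : ι => ((bL i : L) : Fin n → ℂ)) := by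
    intro x hx
    have h1 := bL.sum_repr ⟨x, hx⟩
    have h2 : x = ∑ i, (bL.repr ⟨x, hx⟩ i : ℂ) • ((bL i : L) : Fin n → ℂ) := by
      have h3 := congrArg Subtype.val h1
      refine h3.symm.trans ?_
      push_cast
      rfl
    rw [h2]
    exact Submodule.sum_mem _ fun i _ => Submodule.smul_mem _ _ (Submodule.subset_span ⟨i, rfl⟩)
  have hspan : (⊤ : Submodule ℂ (Fin n → ℂ)) ≤ Submodule.span ℂ (Set.range fun i : ι => ((bL i : L) : Fin n → ℂ)) := by
    rw [← hv, Submodule.span_le]
    rintro _ ⟨g, rfl⟩
    exact hLspan _ (Submodule.subset_span ⟨g, rfl⟩)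
  let b0 : Basis ι ℂ (Fin n → ℂ) := Basis.mk hliC hspan
  have hcard : Fintype.card ι = n := by
    rw [← Module.finrank_eq_card_basis b0, Module.finrank_fin_fun]
  let e : ι ≃ Fin n := Fintype.equivFinOfCardEq hcard
  let bO : Basis (Fin n) O L := bL.reindex e
  let b : Basis (Fin n) ℂ (Fin n → ℂ) := b0.reindex e
  have hb : ∀ j, b j = (bO j : L) := by
    intro j
    simp [b, b0, bO]
  have hrepr : ∀ (x : L) (i : Fin n), b.repr (x : Fin n → ℂ) i = (bO.repr x i : ℂ) := by
    intro x i
    have h1 : (x : Fin n → ℂ) = ∑ j, (bO.repr x j : ℂ) • b j := by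
      have h3 := congrArg Subtype.val (bO.sum_repr x)
      refine h3.symm.trans ?_
      push_cast
      refine Finset.sum_congr rfl fun j _ => ?_
      rw [hb]; rfl
    rw [h1, map_sum]
    simp only [map_smul, Basis.repr_self, Finsupp.coe_finset_sum, Finset.sum_apply, Finsupp.smul_apply, smul_eq_mul]
    rw [Finset.sum_eq_single i]
    · simp
    · intro j _ hj
      rw [Finsupp.single_eq_of_ne (Ne.symm hj), mul_zero]
    · intro h; exact absurd (Finset.mem_univ i) h
  have hstab : ∀ g, ∀ x ∈ L, ρ g x ∈ L := by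
    intro g x hx
    induction hx using Submodule.span_induction with
    | mem y hy =>
      obtain ⟨h, rfl⟩ := hy
      refine Submodule.subset_span ⟨g * h, ?_⟩
      change ρ (g * h) v = ρ g (ρ h v)
      rw [map_mul]; rfl
    | zero => rw [map_zero]; exact L.zero_mem
    | add y z _ _ hy hz => rw [map_add]; exact L.add_mem hy hz
    | smul c y _ hy =>
      have h1 : ρ g (c • y) = c • ρ g y := (ρ g).map_smul (c : ℂ) y
      rw [h1]; exact L.smul_mem _ hy
  let ρL : G →* (L →ₗ[O] L) :=
    { toFun := fun g => ((ρ g).restrictScalars O).restrict (hstab g)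
      map_one' := by
        ext x : 2
        change ρ 1 (x : Fin n → ℂ) = x
        rw [map_one]; rfl
      map_mul' := by
        intro g h
        ext x : 2
        change ρ (g * h) (x : Fin n → ℂ) = ρ g (ρ h x)
        rw [map_mul]; rfl }
  let vL : L := ⟨v, Submodule.subset_span ⟨1, by simp⟩⟩
  have hmul : ∀ g (x : L), (LinearMap.toMatrix bO bO (ρL g)).mulVec (bO.repr x) = bO.repr (ρL g x) := fun g x =>
    LinearMap.toMatrix_mulVec_repr bO bO (ρL g) x
  refine ⟨((LinearMap.toMatrixAlgEquiv bO : (L →ₗ[O] L) ≃ₐ[O] _) : (L →ₗ[O] L) →* _).comp ρL, fun i => bO.repr vL i, b,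
    ?_, ?_, ?_⟩
  · intro g i j
    have h1 : ρ g (b j) = ((ρL g (bO j) : L) : Fin n → ℂ) := by
      rw [hb]; rfl
    rw [h1, hrepr]
    change _ = ((LinearMap.toMatrix bO bO (ρL g)) i j : ℂ)
    rw [LinearMap.toMatrix_apply]
  · intro i
    exact hrepr vL i
  · have h1 : (⊤ : Submodule O L) = Submodule.span O (Set.range fun g => ρL g vL) := by
      symm
      rw [eq_top_iff]
      intro x _
      have h2 : ∀ y, ∀ hy : y ∈ L, (⟨y, hy⟩ : L) ∈ Submodule.span O (Set.range fun g => ρL g vL) := by
        intro y hy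
        induction hy using Submodule.span_induction with
        | mem y hy =>
          obtain ⟨h, rfl⟩ := hy
          exact Submodule.subset_span ⟨h, rfl⟩
        | zero => exact Submodule.zero_mem _
        | add y z hy hz ihy ihz => exact Submodule.add_mem _ ihy ihz
        | smul c y hy ihy => exact Submodule.smul_mem _ c ihy
      exact h2 x x.2
    have h2 : (Submodule.span O (Set.range fun g => ρL g vL)).map (bO.equivFun : L →ₗ[O] (Fin n → O)) = ⊤ := by
      rw [← h1, Submodule.map_top, LinearMap.range_eq_top]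
      exact bO.equivFun.surjective
    rw [Submodule.map_span, ← Set.range_comp] at h2
    rw [← h2]
    congr 2
    funext g
    exact hmul g vL

end Cfsg.Agent.Lib.H15Lat
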