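import Cfsg.Agent.Lib.H15TateD
import Cfsg.Agent.Lib.CharBasic
import Cfsg.Agent.Lib.CharValues

set_option autoImplicit false
set_option linter.all false

/-!
# Reduction of complex representations modulo a place above `p`
-/

namespace Cfsg.Agent.Lib.H15Red

open Cfsg Module Cfsg.Agent.Lib.H15Tate Cfsg.Agent.Lib.H15TateG Cfsg.Agent.Lib.H15TateC
  Cfsg.Agent.Lib.H15TateD Cfsg.Agent.Lib.H15Val Cfsg.Agent.Lib.H15Lat IsLocalRing
open scoped ComplexConjugate

universe u

section inv

variable {G : Type u} [Group G] [Fintype G] {n : ℕ} (ρ : Representation ℂ G (Fin n → ℂ)) (N : Subgroup G) [Fintype N]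

theorem finrank_inv : (Nat.card N : ℂ)⁻¹ * ∑ m : N, ρ.character m =
    finrank ℂ (Representation.invariants (ρ.comp N.subtype)) := by
  haveI : Invertible (Nat.card N : ℂ) := invertibleOfNonzero (by exact_mod_cast Nat.card_pos.ne')
  exact Representation.card_inv_mul_sum_char_eq_finrank (ρ.comp N.subtype)

theorem sum_eq_zero (h : ∑ m : N, ρ.character m = 0) (v : Fin n → ℂ) : ∑ m : N, ρ m v = 0 := by
  have h1 := finrank_inv ρ N
  rw [h, mul_zero] at h1
  have h2 : finrank ℂ (Representation.invariants (ρ.comp N.subtype)) = 0 := by exact_mod_cast h1.symm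
  have h3 : Representation.invariants (ρ.comp N.subtype) = ⊥ := Submodule.finrank_eq_zero.1 h2
  have h4 : ∑ m : N, ρ m v ∈ Representation.invariants (ρ.comp N.subtype) := by
    rw [Representation.mem_invariants]
    intro m
    rw [map_sum]
    refine Fintype.sum_equiv (Equiv.mulLeft m) _ _ fun m' => ?_
    change (ρ m * ρ m') v = ρ (m * m') v
    rw [map_mul]
  rw [h3, Submodule.mem_bot] at h4
  exact h4

theorem exists_fixed_of (h : ∑ m : N, ρ.character m ≠ 0) : ∃ v : Fin n → ℂ, v ≠ 0 ∧ ∀ m ∈ N, ρ m v = v := by
  have h1 := finrank_inv ρ N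
  have h2 : finrank ℂ (Representation.invariants (ρ.comp N.subtype)) ≠ 0 := by
    intro h2
    rw [h2, Nat.cast_zero, mul_eq_zero, inv_eq_zero] at h1
    rcases h1 with h1 | h1
    · exact absurd h1 (by exact_mod_cast Nat.card_pos.ne')
    · exact h h1
  have h3 : Representation.invariants (ρ.comp N.subtype) ≠ ⊥ := by
    intro h3
    rw [h3, finrank_bot] at h2
    exact h2 rfl
  obtain ⟨v, hv, hv0⟩ := Submodule.exists_mem_ne_zero_of_ne_bot h3
  exact ⟨v, hv0, fun m hm => (Representation.mem_invariants _ _).1 hv ⟨m, hm⟩⟩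

/-- shifted sums -/
theorem char_sum_zero (h : ∑ m : N, ρ.character m = 0) (a b : G) : ∑ m : N, ρ.character (a * m * b) = 0 := by
  have h1 : ∑ m : N, ρ (a * m * b) = 0 := by
    refine LinearMap.ext fun v => ?_
    rw [LinearMap.sum_apply, LinearMap.zero_apply]
    have h2 : ∀ m : N, ρ (a * m * b) v = ρ a (ρ m (ρ b v)) := by
      intro m
      rw [map_mul, map_mul]; rfl
    rw [Finset.sum_congr rfl fun m _ => h2 m, ← map_sum, sum_eq_zero ρ N h, map_zero]
  have h2 := congrArg (LinearMap.trace ℂ (Fin n → ℂ)) h1
  rw [map_sum, map_zero] at h2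
  exact h2

end inv

section red

variable {G : Type u} [Group G] [Fintype G] {O : ValuationSubring ℂ} {n : ℕ} (a : G →* Matrix (Fin n) (Fin n) O)

/-- the reduction -/
noncomputable def red : Representation (ResidueField O) G (Fin n → ResidueField O) where
  toFun g := Matrix.toLin' ((residue O).mapMatrix (a g))
  map_one' := by rw [map_one, map_one, Matrix.toLin'_one]; rfl
  map_mul' g h := by rw [map_mul, map_mul, Matrix.toLin'_mul]; rfl

theorem red_eq (g : G) : red a g = Matrix.toLin' ((residue O).mapMatrix (a g)) := rfl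

theorem red_apply (g : G) (w : Fin n → O) :
    red a g (fun i => residue O (w i)) = fun i => residue O ((a g).mulVec w i) := by
  rw [red_eq, Matrix.toLin'_apply]
  funext i
  exact (RingHom.map_mulVec (residue O) (a g) w i).symm

theorem red_trace (g : G) : LinearMap.trace (ResidueField O) (Fin n → ResidueField O) (red a g) =
    residue O (Matrix.trace (a g)) := by
  rw [red_eq, Matrix.trace_toLin'_eq, Matrix.trace, Matrix.trace, map_sum]
  rfl

theorem red_span {w : Fin n → O} (h : Submodule.span O (Set.range fun g => (a g).mulVec w) = ⊤) :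
    Submodule.span (ResidueField O) (Set.range fun g => red a g (fun i => residue O (w i))) = ⊤ := by
  rw [eq_top_iff]
  intro v _
  choose v' hv' using fun i => residue_surjective (R := O) (v i)
  have h1 : v = fun i => residue O (v' i) := funext fun i => (hv' i).symm
  have h2 : v' ∈ Submodule.span O (Set.range fun g => (a g).mulVec w) := by rw [h]; trivial
  rw [h1]
  clear h1 hv'
  induction h2 using Submodule.span_induction with
  | mem y hy =>
    obtain ⟨g, rfl⟩ := hy
    refine Submodule.subset_span ⟨g, ?_⟩
    exact red_apply a g w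
  | zero =>
    have : (fun i : Fin n => residue O ((0 : Fin n → O) i)) = 0 := by
      funext i; exact map_zero _
    rw [this]; exact Submodule.zero_mem _
  | add x y _ _ hx hy =>
    have : (fun i : Fin n => residue O ((x + y) i)) = (fun i => residue O (x i)) + fun i => residue O (y i) := by
      funext i; exact map_add _ _ _
    rw [this]; exact Submodule.add_mem _ hx hy
  | smul c x _ hx =>
    have : (fun i : Fin n => residue O ((c • x) i)) = residue O c • (fun i => residue O (x i)) := by
      funext i; exact map_mul _ _ _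
    rw [this]; exact Submodule.smul_mem _ _ hx

theorem charP_k {p : ℕ} [hp : Fact p.Prime] (hpO : (p : O) ∈ maximalIdeal O) : CharP (ResidueField O) p := by
  have h1 : ((p : ℕ) : ResidueField O) = 0 := by
    have h2 := (residue_eq_zero_iff (p : O)).2 hpO
    rwa [map_natCast] at h2
  have h3 := CharP.ringChar_of_prime_eq_zero hp.out h1
  rw [← h3]
  exact ringChar.charP _

end red

section span

variable {G : Type u} [Group G] [Fintype G] {n : ℕ} (ρ : Representation ℂ G (Fin n → ℂ))

omit [Fintype G] in
theorem span_orbit (hirr : ρ.IsIrreducible) {v : Fin n → ℂ} (hv : v ≠ 0) :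
    Submodule.span ℂ (Set.range fun g => ρ g v) = ⊤ := by
  let S : Subrepresentation ρ :=
    { toSubmodule := Submodule.span ℂ (Set.range fun g => ρ g v)
      apply_mem_toSubmodule := by
        intro g w hw
        induction hw using Submodule.span_induction with
        | mem y hy =>
          obtain ⟨g', rfl⟩ := hy
          refine Submodule.subset_span ⟨g * g', ?_⟩
          change ρ (g * g') v = ρ g (ρ g' v)
          rw [map_mul]; rfl
        | zero => rw [map_zero]; exact Submodule.zero_mem _
        | add x y _ _ hx hy => rw [map_add]; exact Submodule.add_mem _ hx hy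
        | smul c x _ hx => rw [map_smul]; exact Submodule.smul_mem _ _ hx }
  have hS : S = ⊥ ∨ S = ⊤ := hirr.eq_bot_or_eq_top S
  rcases hS with hS | hS
  · exfalso
    apply hv
    have h1 : v ∈ S.toSubmodule := Submodule.subset_span ⟨1, by simp⟩
    rw [hS] at h1
    exact h1
  · exact congrArg Subrepresentation.toSubmodule hS

theorem sum_cosets_zero {N : Subgroup G} [Fintype N] [Fintype (G ⧸ N)] (h1 : ∑ g : G, ρ.character g = 0) {v : Fin n → ℂ}
    (hv : ∀ m ∈ N, ρ m v = v) : ∑ q : G ⧸ N, ρ q.out v = 0 := by
  have h2 : ∑ g : G, ρ g v = 0 := by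
    haveI : Fintype (⊤ : Subgroup G) := Fintype.ofFinite _
    have h3 := sum_eq_zero ρ (⊤ : Subgroup G) (by
      rw [← h1]
      exact Fintype.sum_equiv Subgroup.topEquiv.toEquiv _ _ fun _ => rfl) v
    rw [← h3]
    exact (Fintype.sum_equiv Subgroup.topEquiv.toEquiv _ _ fun _ => rfl).symm
  rw [sum_GP N (fun g => ρ g v)] at h2
  have h3 : ∀ q : G ⧸ N, ∑ y : N, ρ (q.out * y) v = (Fintype.card N : ℂ) • ρ q.out v := by
    intro q
    have h4 : ∀ y : N, ρ (q.out * y) v = ρ q.out v := by
      intro y
      rw [map_mul]
      change ρ q.out (ρ y v) = _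
      rw [hv y y.2]
    rw [Finset.sum_congr rfl fun y _ => h4 y, Finset.sum_const, Finset.card_univ, ← Nat.cast_smul_eq_nsmul ℂ]
  rw [Finset.sum_congr rfl fun q _ => h3 q, ← Finset.smul_sum] at h2
  exact (smul_eq_zero.1 h2).resolve_left (by exact_mod_cast Fintype.card_ne_zero)

end span

section mmt

variable {G : Type u} [Group G] [Fintype G] {O : ValuationSubring ℂ} {p : ℕ} [hp : Fact p.Prime]
  {P N E : Subgroup G} {x : G} (D : Dat p P N E x)
  [Fintype P] [Fintype N] [Fintype E] [Fintype (G ⧸ N)]

include D in
theorem dvd_of_fixed (hpO : (p : O) ∈ maximalIdeal O) (C : Cf (ResidueField O) P N E) {n : ℕ}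
    (ρ : Representation ℂ G (Fin n → ℂ)) (hirr : ρ.IsIrreducible) (h1 : ∑ g : G, ρ.character g = 0)
    (hN : ∑ m : N, ρ.character m ≠ 0) : p ∣ n := by
  classical
  haveI := charP_k (O := O) hpO
  obtain ⟨v, hv0, hv⟩ := exists_fixed_of ρ N hN
  have hspan : Submodule.span ℂ (Set.range fun g => ρ g v) = ⊤ := span_orbit ρ hirr hv0
  obtain ⟨a, w, b, hab, hbw, hw⟩ := exists_lattice (O := O) ρ v hspan
  have haw : ∀ g i, b.repr (ρ g v) i = ((a g).mulVec w i : ℂ) := by
    intro g i
    have h2 : v = ∑ j, (w j : ℂ) • b j := by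
      conv_lhs => rw [← b.sum_repr v]
      exact Finset.sum_congr rfl fun j _ => by rw [hbw]
    conv_lhs => rw [h2]
    rw [map_sum, map_sum, Finsupp.finset_sum_apply, Matrix.mulVec, dotProduct]
    push_cast
    refine Finset.sum_congr rfl fun j _ => ?_
    rw [map_smul, map_smul, Finsupp.smul_apply, smul_eq_mul, hab, mul_comm]
  let V := (red a).asModule
  let d : V := (red a).asModuleEquiv.symm (fun i => residue O (w i))
  have hrp : ∀ g (u : Fin n → ResidueField O), rp (k := ResidueField O) (G := G) V g ((red a).asModuleEquiv.symm u) =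
      (red a).asModuleEquiv.symm (red a g u) := by
    intro g u
    rw [Representation.asModuleEquiv_symm_map_rho]; rfl
  have hfin : finrank (ResidueField O) V = n := by
    rw [(red a).asModuleEquiv.finrank_eq, Module.finrank_fin_fun]
  refine dvd_finrank (k := ResidueField O) D C n V d hfin ?_ ?_ ?_
  · intro m hm
    rw [hrp, red_apply]
    congr 1
    funext i
    congr 1
    apply Subtype.ext
    rw [← haw, hv m hm, hbw]
  · rw [Finset.sum_congr rfl fun q _ => hrp _ _, ← map_sum]
    have h2 : ∑ q : G ⧸ N, red a q.out (fun i => residue O (w i)) = 0 := by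
      have h3 : ∑ q : G ⧸ N, ρ q.out v = 0 := sum_cosets_zero ρ h1 hv
      funext i
      rw [Finset.sum_apply, Finset.sum_congr rfl fun q _ => by rw [red_apply], ← map_sum]
      have h4 : ∑ q : G ⧸ N, (a q.out).mulVec w i = 0 := by
        apply Subtype.ext
        push_cast
        rw [Finset.sum_congr rfl fun q _ => (haw q.out i).symm]
        have h5 := congrArg (fun z => b.repr z i) h3
        simp only [map_sum, map_zero, Finsupp.finset_sum_apply, Finsupp.zero_apply] at h5
        exact h5
      rw [h4, map_zero]; rfl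
    rw [h2, map_zero]
  · rw [eq_top_iff]
    intro z _
    obtain ⟨u, rfl⟩ := (red a).asModuleEquiv.symm.surjective z
    have h2 : u ∈ Submodule.span (ResidueField O) (Set.range fun g => red a g (fun i => residue O (w i))) := by
      rw [red_span a hw]; trivial
    induction h2 using Submodule.span_induction with
    | mem y hy =>
      obtain ⟨g, rfl⟩ := hy
      rw [Representation.asModuleEquiv_symm_map_rho]
      exact Submodule.smul_mem _ _ (Submodule.mem_span_singleton_self _)
    | zero => rw [map_zero]; exact Submodule.zero_mem _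
    | add y z _ _ hy hz => rw [map_add]; exact Submodule.add_mem _ (hy trivial) (hz trivial)
    | smul c y _ hy =>
      rw [Representation.asModuleEquiv_symm_map_smul]
      exact Submodule.smul_mem _ _ (hy trivial)

end mmt

end Cfsg.Agent.Lib.H15Red
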