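import Cfsg.Agent.Lib.H15Red
import Cfsg.Agent.Lib.CharBasic2
import Cfsg.Agent.Lib.BlockThird

set_option autoImplicit false
set_option linter.all false

/-!
# Characters of degree prime to `p` do not contain the trivial character of `N(P)`
-/

namespace Cfsg.Agent.Lib.H15RedC

open Cfsg Module Cfsg.Agent.Lib.H15Tate Cfsg.Agent.Lib.H15TateG Cfsg.Agent.Lib.H15TateC Cfsg.Agent.Lib.H15Red
  Cfsg.Agent.Lib.H15TateD Cfsg.Agent.Lib.H15Val Cfsg.Agent.Lib.H15Lat IsLocalRing Cfsg.Agent.Lib.BlockThird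
open scoped ComplexConjugate

universe u

variable {G : Type u} [Group G] [Fintype G] {p : ℕ} [hp : Fact p.Prime] {P N E : Subgroup G} {x : G}

/-- the sums -/
noncomputable def SS (P E : Subgroup G) [Fintype P] [Fintype E] (lam : E → ℂ) (ψ : G → ℂ) (g : G) : ℂ :=
  ∑ h : E, lam h * ∑ y : P, ψ (g * h * y)

/-- auxiliary small characters -/
structure Psi (p : ℕ) (N : Subgroup G) [Fintype N] (ψ : G → ℂ) : Prop where
  irr : IsIrrCharacter G ψ
  real : ∀ g, conj (ψ g) = ψ g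
  deg : ∃ d : ℕ, ψ 1 = d ∧ d < 2 * p
  sing : ∀ g, p ∣ orderOf g → ∃ z : ℤ, ψ g = z
  sum0 : ∑ n : N, ψ n = 0

section S

variable (D : Dat p P N E x) [Fintype P] [Fintype N] [Fintype E] {lam : E → ℂ} {ψ : G → ℂ}

include D in
theorem SS_P (lam : E → ℂ) (ψ : G → ℂ) (g : G) {y₀ : G} (hy₀ : y₀ ∈ P) : SS P E lam ψ (g * y₀) = SS P E lam ψ g := by
  unfold SS
  refine Finset.sum_congr rfl fun h _ => ?_
  congr 1
  have h1 : (h : G)⁻¹ * y₀ * h ∈ P := by
    have := D.norm (h : G)⁻¹ (N.inv_mem (D.EN h.2)) y₀ hy₀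
    rwa [inv_inv] at this
  refine Fintype.sum_equiv (Equiv.mulLeft (⟨_, h1⟩ : P)) _ _ fun y => ?_
  congr 1
  change g * y₀ * h * y = g * h * ((h : G)⁻¹ * y₀ * h * y)
  group

theorem SS_E (hm : ∀ a b, lam (a * b) = lam a * lam b) (g : G) (h₀ : E) :
    SS P E lam ψ (g * h₀) * lam h₀ = SS P E lam ψ g := by
  unfold SS
  rw [Finset.sum_mul]
  refine Fintype.sum_equiv (Equiv.mulLeft h₀) _ _ fun h => ?_
  rw [Equiv.coe_mulLeft, hm, Subgroup.coe_mul, ← mul_assoc g]
  ring

theorem SS_P' (hψ : IsClassFunction G ψ) (g : G) {y₀ : G} (hy₀ : y₀ ∈ P) :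
    SS P E lam ψ (y₀ * g) = SS P E lam ψ g := by
  unfold SS
  refine Finset.sum_congr rfl fun h _ => ?_
  congr 1
  refine Fintype.sum_equiv (Equiv.mulRight (⟨_, hy₀⟩ : P)) _ _ fun y => ?_
  change ψ (y₀ * g * h * y) = ψ (g * h * (y * y₀))
  rw [mul_assoc y₀, mul_assoc y₀, hψ.mul_comm]
  congr 1
  group

include D in
theorem SS_inv (hψ : IsCharacter G ψ) (hr : ∀ g, conj (ψ g) = ψ g) (hl : ∀ h, lam h⁻¹ = conj (lam h)) (g : G) :
    SS P E lam ψ g⁻¹ = SS P E (fun h => conj (lam h)) ψ g := by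
  unfold SS
  refine Fintype.sum_equiv (Equiv.inv E) _ _ fun h => ?_
  have h0 : conj (lam ((Equiv.inv E) h)) = lam h := by
    rw [Equiv.inv_apply, hl, Complex.conj_conj]
  change lam h * _ = conj (lam ((Equiv.inv E) h)) * _
  rw [h0]
  congr 1
  have h1 : ∀ y : P, (h : G) * y * (h : G)⁻¹ ∈ P := fun y => D.norm h (D.EN h.2) y y.2
  refine Fintype.sum_bijective (fun y : P => (⟨(h : G) * (y : G)⁻¹ * (h : G)⁻¹, D.norm h (D.EN h.2) _ (P.inv_mem y.2)⟩ : P))
    ⟨?_, ?_⟩ _ _ ?_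
  · intro a b hab
    have h1 : (h : G) * (a : G)⁻¹ * (h : G)⁻¹ = h * (b : G)⁻¹ * (h : G)⁻¹ := congrArg Subtype.val hab
    exact Subtype.ext (inv_injective (mul_left_cancel (mul_right_cancel h1)))
  · intro b
    have h2 := D.norm (h : G)⁻¹ (N.inv_mem (D.EN h.2)) _ (P.inv_mem b.2)
    rw [inv_inv] at h2
    refine ⟨⟨(h : G)⁻¹ * (b : G)⁻¹ * h, h2⟩, Subtype.ext ?_⟩
    change (h : G) * ((h : G)⁻¹ * (b : G)⁻¹ * h)⁻¹ * (h : G)⁻¹ = b
    group
  · intro y
    change ψ (g⁻¹ * h * y) = ψ (g * ((h⁻¹ : E) : G) * ((h : G) * (y : G)⁻¹ * (h : G)⁻¹))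
    rw [← hr (g⁻¹ * h * y), ← hψ.inv]
    have h2 : (g⁻¹ * (h : G) * y)⁻¹ = (y : G)⁻¹ * ((h : G)⁻¹ * g) := by group
    have h3 : g * ((h⁻¹ : E) : G) * ((h : G) * (y : G)⁻¹ * (h : G)⁻¹) = (g * (y : G)⁻¹) * (h : G)⁻¹ := by
      push_cast; group
    rw [h2, h3, hψ.isClassFunction.mul_comm (g * (y : G)⁻¹), hψ.isClassFunction.mul_comm (y : G)⁻¹]
    congr 1
    group

theorem SS_zero (hψ : IsIrrCharacter G ψ) (h0 : ∑ n : N, ψ n = 0) (a b : G) : ∑ n : N, SS P E lam ψ (a * n * b) = 0 := by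
  obtain ⟨n, ρ, hρ, rfl⟩ := hψ
  unfold SS
  rw [Finset.sum_comm]
  refine Finset.sum_eq_zero fun h _ => ?_
  rw [← Finset.mul_sum, Finset.sum_comm]
  have h1 : ∀ y : P, ∑ m : N, ρ.character (a * m * b * h * y) = 0 := by
    intro y
    rw [← char_sum_zero ρ N h0 a (b * h * y)]
    refine Finset.sum_congr rfl fun m _ => ?_
    congr 1
    group
  rw [Finset.sum_congr rfl fun y _ => h1 y, Finset.sum_const_zero, mul_zero]

end S

section O

variable {O : ValuationSubring ℂ} (hO : ∀ z : ℂ, IsIntegral ℤ z → z ∈ O) (hpO : (p : O) ∈ maximalIdeal O)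

include hpO in
theorem natCast_unit {m : ℕ} (hm : ¬ p ∣ m) : IsUnit (m : O) := by
  by_contra h
  have h1 : (m : O) ∈ maximalIdeal O := (mem_maximalIdeal _).2 h
  haveI := charP_k (O := O) hpO
  apply hm
  rw [← CharP.cast_eq_zero_iff (ResidueField O) p, ← map_natCast (residue O)]
  exact (residue_eq_zero_iff _).2 h1

include hpO in
theorem root_sub_one {m : ℕ} (hm : ¬ p ∣ m) {ζ : O} (h1 : ζ ^ m = 1) (h2 : ζ ≠ 1) : residue O ζ ≠ 1 := by
  intro h3
  haveI := charP_k (O := O) hpO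
  have h4 : (∑ i ∈ Finset.range m, ζ ^ i) * (ζ - 1) = 0 := by rw [geom_sum_mul, h1, sub_self]
  have h5 : ∑ i ∈ Finset.range m, ζ ^ i = 0 := (mul_eq_zero.1 h4).resolve_right (sub_ne_zero.2 h2)
  have h6 := congrArg (residue O) h5
  rw [map_sum, map_zero, Finset.sum_congr rfl fun i _ => by rw [map_pow, h3, one_pow]] at h6
  rw [Finset.sum_const, Finset.card_range, nsmul_eq_mul, mul_one, CharP.cast_eq_zero_iff (ResidueField O) p] at h6
  exact hm h6

theorem char_trace {n : ℕ} (ρ : Representation ℂ G (Fin n → ℂ)) {a : G →* Matrix (Fin n) (Fin n) O}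
    {b : Basis (Fin n) ℂ (Fin n → ℂ)} (hab : ∀ g i j, b.repr (ρ g (b j)) i = (a g i j : ℂ)) (g : G) :
    ρ.character g = ((Matrix.trace (a g) : O) : ℂ) := by
  change LinearMap.trace ℂ _ (ρ g) = _
  rw [LinearMap.trace_eq_matrix_trace ℂ b, Matrix.trace, Matrix.trace]
  push_cast
  refine Finset.sum_congr rfl fun i _ => ?_
  rw [Matrix.diag_apply, Matrix.diag_apply, LinearMap.toMatrix_apply, hab]

theorem char_mem_Rm {ψ : G → ℂ} (hψ : IsCharacter G ψ) {m : ℕ} {g : G} (hg : g ^ m = 1) : ψ g ∈ Rm m := by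
  obtain ⟨n, ρ, rfl⟩ := hψ
  obtain ⟨μ, h1, h2⟩ := CharValues.exists_eigenvalues ρ g
  have h3 := h2 1
  simp only [pow_one] at h3
  rw [h3]
  refine Subalgebra.sum_mem _ fun i _ => root_mem_Rm ?_
  obtain ⟨k, hk⟩ := orderOf_dvd_of_pow_eq_one hg
  rw [hk, pow_mul, h1, one_pow]

variable (D : Dat p P N E x) [Fintype P] [Fintype N] [Fintype E]

include D in
omit [Fintype N] [Fintype E] in
theorem card_G : Nat.card G = p * P.index := by
  rw [← D.cardP, Subgroup.card_mul_index]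

include D in
theorem pow_index {g : G} (hg : ¬ p ∣ orderOf g) : g ^ P.index = 1 := by
  apply orderOf_dvd_iff_pow_eq_one.1
  have h1 : orderOf g ∣ p * P.index := by
    rw [← card_G D]; exact orderOf_dvd_natCard g
  exact ((Nat.Prime.coprime_iff_not_dvd hp.out).2 hg).symm.dvd_of_dvd_mul_left h1

include D in
theorem notdvd_E (h : E) : ¬ p ∣ orderOf (h : G) := by
  intro h1
  apply D.pe
  rw [Subgroup.orderOf_coe] at h1
  exact h1.trans (orderOf_dvd_natCard h)

include D hO in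
theorem exists_y {ψ : G → ℂ} (hsing : ∀ g, p ∣ orderOf g → ∃ z : ℤ, ψ g = z) {n : ℕ} (ρ : Representation ℂ G (Fin n → ℂ))
    (hρ : ρ.character = ψ) {a : G →* Matrix (Fin n) (Fin n) O}
    {b : Basis (Fin n) ℂ (Fin n → ℂ)} (hab : ∀ g i j, b.repr (ρ g (b j)) i = (a g i j : ℂ))
    (μ : E → O) (hμ : ∀ h, (μ h : ℂ) ∈ Rm P.index) (hU : U (P := P) (red a) (fun h => residue O (μ h)) = 0) (g : G) :
    ∃ y : O, (p : ℂ) * (y : ℂ) = SS P E (fun h => (μ h : ℂ)) ψ g := by
  let z : O := ∑ h : E, μ h * ∑ y : P, Matrix.trace (a (g * h * y))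
  have hz : (z : ℂ) = SS P E (fun h => (μ h : ℂ)) ψ g := by
    unfold SS
    simp only [z]
    push_cast
    refine Finset.sum_congr rfl fun h _ => ?_
    congr 1
    refine Finset.sum_congr rfl fun y _ => ?_
    rw [← hρ, char_trace ρ hab]
  have hzm : z ∈ maximalIdeal O := by
    rw [← residue_eq_zero_iff]
    have h1 := sum_char_of_U (red a) hU g
    rw [← h1, map_sum (residue O)]
    refine Finset.sum_congr rfl fun h _ => ?_
    rw [map_mul (residue O), map_sum (residue O)]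
    congr 1
    exact Finset.sum_congr rfl fun y _ => (red_trace a _).symm
  have hψm : ∀ g, ψ g ∈ Rm P.index := by
    intro g
    by_cases hg : p ∣ orderOf g
    · obtain ⟨c, hc⟩ := hsing g hg
      rw [hc]
      exact Subalgebra.intCast_mem _ c
    · refine char_mem_Rm ?_ (pow_index D hg)
      rw [← hρ]; exact ⟨n, ρ, rfl⟩
  have hidx : 0 < P.index := Nat.pos_of_ne_zero Subgroup.index_ne_zero_of_finite
  have hcop : p.Coprime P.index := (Nat.Prime.coprime_iff_not_dvd hp.out).2 D.pG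
  obtain ⟨y, hy⟩ := exists_eq_mul hO hidx hcop (z := z) (by
    rw [hz]
    refine Subalgebra.sum_mem _ fun h _ => Subalgebra.mul_mem _ (hμ h) (Subalgebra.sum_mem _ fun y _ => hψm _)) hzm
  refine ⟨y, ?_⟩
  rw [← hz, hy]
  push_cast
  rfl

include D hO hpO in
theorem exists_c (lam : E → ℂ) (hchar : IsCharacter E lam) (hlam1 : lam 1 = 1) {h₀ : E} (hh₀ : lam h₀ ^ 2 ≠ 1)
    {ψ : G → ℂ} (hψ : Psi p N ψ) :
    ∃ c : G → O, ∀ g, ((p : ℂ) * Nat.card E) * (c g : ℂ) = SS P E lam ψ g := by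
  haveI := charP_k (O := O) hpO
  obtain ⟨n, ρ, hρ, hρψ⟩ := hψ.irr
  have hn : n < 2 * p := by
    obtain ⟨d, hd, hd2⟩ := hψ.deg
    rw [← hρψ, Representation.char_one, Module.finrank_fin_fun] at hd
    have : n = d := by exact_mod_cast hd
    omega
  haveI := CharBasic.nontrivial_of_isIrreducible hρ
  obtain ⟨v, hv⟩ := exists_ne (0 : Fin n → ℂ)
  obtain ⟨a, w, b, hab, -, -⟩ := exists_lattice (O := O) ρ v (span_orbit ρ hρ hv)
  have hroot : ∀ h : E, lam h ^ Nat.card E = 1 := by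
    intro h
    obtain ⟨f, hf⟩ := hchar.exists_hom hlam1
    rw [hf, ← Units.val_pow_eq_pow_val, ← map_pow, pow_card_eq_one', map_one, Units.val_one]
  have hEpos : 0 < Nat.card E := Nat.card_pos
  have hint : ∀ h : E, IsIntegral ℤ (lam h) := fun h => IsIntegral.of_pow hEpos (by rw [hroot]; exact isIntegral_one)
  have hcc : ∀ h : E, lam h * conj (lam h) = 1 := fun h => hchar.mul_conj_of_linear hlam1 h
  have hrootc : ∀ h : E, conj (lam h) ^ Nat.card E = 1 := by
    intro h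
    rw [← map_pow, hroot, map_one]
  have hintc : ∀ h : E, IsIntegral ℤ (conj (lam h)) :=
    fun h => IsIntegral.of_pow hEpos (by rw [hrootc]; exact isIntegral_one)
  let μ₁ : E → O := fun h => ⟨lam h, hO _ (hint h)⟩
  let μ₂ : E → O := fun h => ⟨conj (lam h), hO _ (hintc h)⟩
  have hmul : ∀ a b, lam (a * b) = lam a * lam b := hchar.map_mul_of_linear hlam1
  have hm₁ : ∀ a b, μ₁ (a * b) = μ₁ a * μ₁ b := fun a b => Subtype.ext (hmul a b)
  have hm₂ : ∀ a b, μ₂ (a * b) = μ₂ a * μ₂ b := fun a b => Subtype.ext (by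
    change conj (lam (a * b)) = conj (lam a) * conj (lam b)
    rw [hmul, map_mul])
  have hne : residue O (μ₁ h₀) ≠ residue O (μ₂ h₀) := by
    intro h1
    have h2 : μ₁ h₀ * μ₂ h₀ = 1 := Subtype.ext (hcc h₀)
    have h3 : residue O (μ₁ h₀ ^ 2) = 1 := by
      rw [sq, map_mul]
      conv_lhs => rw [h1]
      rw [← map_mul]
      have h4 : residue O (μ₁ h₀) * residue O (μ₂ h₀) = 1 := by rw [← map_mul, h2, map_one]
      rw [map_mul]
      conv_lhs => rw [← h1]
      rw [h1] at h4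
      rw [h1]
      exact h4
    refine root_sub_one hpO D.pe (ζ := μ₁ h₀ ^ 2) ?_ ?_ h3
    · rw [← pow_mul, mul_comm, pow_mul]
      have h5 : μ₁ h₀ ^ Nat.card E = 1 := Subtype.ext (by push_cast; exact hroot h₀)
      rw [h5, one_pow]
    · intro h5
      apply hh₀
      have := congrArg (Subtype.val) h5
      push_cast at this
      exact this
  have hidx : Nat.card E ∣ P.index := by
    have h1 : (Nat.card E).Coprime p := ((Nat.Prime.coprime_iff_not_dvd hp.out).2 D.pe).symm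
    have h2 : Nat.card E ∣ p * P.index := by
      rw [← card_G D]; exact Subgroup.card_subgroup_dvd_card E
    exact h1.dvd_of_dvd_mul_left h2
  have hR : ∀ ζ : ℂ, ζ ^ Nat.card E = 1 → ζ ∈ Rm P.index := by
    intro ζ hζ
    obtain ⟨k, hk⟩ := hidx
    exact root_mem_Rm (by rw [hk, pow_mul, hζ, one_pow])
  have hkey : ∃ c : G → O, ∀ g, (p : ℂ) * (c g : ℂ) = SS P E lam ψ g := by
    rcases U_or (P := P) (red a) D (μ₁ := fun h => residue O (μ₁ h)) (μ₂ := fun h => residue O (μ₂ h))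
      (fun a b => by rw [hm₁, map_mul]) (fun a b => by rw [hm₂, map_mul]) hne
      (by rw [Module.finrank_fin_fun]; exact hn) with hU | hU
    · choose c hc using fun g => exists_y hO D hψ.sing ρ hρψ hab μ₁ (fun h => hR _ (hroot h)) hU g
      exact ⟨c, hc⟩
    · choose c hc using fun g => exists_y hO D hψ.sing ρ hρψ hab μ₂ (fun h => hR _ (hrootc h)) hU g
      refine ⟨fun g => c g⁻¹, fun g => ?_⟩
      rw [hc]
      have h1 := SS_inv D (lam := lam) hψ.irr.isCharacter hψ.real (fun h => hchar.inv h) g⁻¹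
      rw [inv_inv] at h1
      exact h1.symm
  obtain ⟨c, hc⟩ := hkey
  obtain ⟨e, he⟩ := natCast_unit hpO D.pe
  refine ⟨fun g => (e⁻¹ : Oˣ) * c g, fun g => ?_⟩
  rw [← hc g]
  have h1 : (Nat.card E : O) * ((e⁻¹ : Oˣ) * c g) = c g := by
    rw [← mul_assoc, ← he, Units.mul_inv, one_mul]
  have h2 := congrArg Subtype.val h1
  push_cast at h2
  rw [mul_assoc, ← h2]
  push_cast
  rfl

/-- the coefficient function of a linear character -/
structure CC (P N E : Subgroup G) [Fintype N] (O : ValuationSubring ℂ) (lam : E → O) (c : G → O) : Prop where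
  c1 : c 1 = 1
  cP : ∀ g, ∀ y ∈ P, c (g * y) = c g
  cE : ∀ g, ∀ h : E, c (g * h) * lam h = c g
  cP' : ∀ g, ∀ y ∈ P, c (y * g) = c g
  c0 : ∀ a b : G, residue O (∑ n : N, c (a * n * b)) = 0

include D hO hpO in
theorem exists_CC (lam : E → O) (hchar : IsCharacter E (fun h => (lam h : ℂ))) (hlam1 : lam 1 = 1) {h₀ : E}
    (hh₀ : (lam h₀ : ℂ) ^ 2 ≠ 1) {ψ : G → ℂ} (hψ : Psi p N ψ)
    (hS : SS P E (fun h => (lam h : ℂ)) ψ 1 = (p : ℂ) * Nat.card E) :
    ∃ c : G → O, CC P N E O lam c := by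
  have hl1 : ((lam 1 : O) : ℂ) = 1 := by rw [hlam1]; rfl
  obtain ⟨c, hc⟩ := exists_c hO hpO D (fun h => (lam h : ℂ)) hchar hl1 hh₀ hψ
  have hpe : ((p : ℂ) * Nat.card E) ≠ 0 := by
    have h1 : (p : ℂ) ≠ 0 := by exact_mod_cast hp.out.ne_zero
    have h2 : (Nat.card E : ℂ) ≠ 0 := by exact_mod_cast Nat.card_pos.ne'
    exact mul_ne_zero h1 h2
  have hcf := hψ.irr.isCharacter.isClassFunction
  have hmul : ∀ a b, (lam (a * b) : ℂ) = lam a * lam b := hchar.map_mul_of_linear hl1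
  refine ⟨c, ⟨?_, ?_, ?_, ?_, ?_⟩⟩
  · apply Subtype.ext
    apply mul_left_cancel₀ hpe
    rw [hc, hS]
    push_cast
    rw [mul_one]
  · intro g y hy
    apply Subtype.ext
    apply mul_left_cancel₀ hpe
    rw [hc, hc, SS_P D _ _ _ hy]
  · intro g h
    apply Subtype.ext
    apply mul_left_cancel₀ hpe
    push_cast
    rw [← mul_assoc, hc, hc]
    exact SS_E (lam := fun h => (lam h : ℂ)) hmul g h
  · intro g y hy
    apply Subtype.ext
    apply mul_left_cancel₀ hpe
    rw [hc, hc, SS_P' hcf _ hy]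
  · intro a b
    have h1 : ∑ n : N, c (a * n * b) = 0 := by
      apply Subtype.ext
      apply mul_left_cancel₀ hpe
      push_cast
      rw [mul_zero, Finset.mul_sum, Finset.sum_congr rfl fun n _ => hc _]
      exact SS_zero hψ.irr hψ.sum0 a b
    rw [h1, map_zero]

end O

section main

variable (D : Dat p P N E x) [Fintype P] [Fintype N] [Fintype E]

include D in
/-- an irreducible nontrivial character containing the trivial character of `N` has degree divisible by `p` -/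
theorem mmt (hab : ∀ a b : E, a * b = b * a)
    (hpsi : ∀ i : IrrCharacter E, i ≠ triv E → (∃ h₀, (i : E → ℂ) h₀ ^ 2 ≠ 1) ∧
      ∃ ψ : G → ℂ, Psi p N ψ ∧ SS P E (i : E → ℂ) ψ 1 = (p : ℂ) * Nat.card E)
    {θ : G → ℂ} (hθ : IsIrrCharacter G θ) (h1 : ∑ g : G, θ g = 0) (hN : ∑ n : N, θ n ≠ 0) {d : ℕ} (hd : θ 1 = d) :
    p ∣ d := by
  classical
  haveI : Fintype (G ⧸ N) := Fintype.ofFinite _
  obtain ⟨O, hO, hpO⟩ := exists_val p
  haveI := charP_k (O := O) hpO
  have hlin : ∀ i : IrrCharacter E, (i : E → ℂ) 1 = 1 := fun i => i.2.one_eq_one_of_comm hab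
  have hEpos : 0 < Nat.card E := Nat.card_pos
  have hroot : ∀ (i : IrrCharacter E) (h : E), (i : E → ℂ) h ^ Nat.card E = 1 := by
    intro i h
    obtain ⟨f, hf⟩ := i.2.isCharacter.exists_hom (hlin i)
    rw [hf, ← Units.val_pow_eq_pow_val, ← map_pow, pow_card_eq_one', map_one, Units.val_one]
  let lam : IrrCharacter E → E → O := fun i h =>
    ⟨(i : E → ℂ) h, hO _ (IsIntegral.of_pow hEpos (by rw [hroot]; exact isIntegral_one))⟩
  have hlam1 : ∀ i, lam i 1 = 1 := fun i => Subtype.ext (hlin i)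
  have hex : ∀ i : IrrCharacter E, ∃ c : G → O, CC P N E O (lam i) c := by
    intro i
    by_cases hi : i = triv E
    · refine ⟨fun _ => 1, ⟨rfl, fun _ _ _ => rfl, fun _ h => ?_, fun _ _ _ => rfl, fun a b => ?_⟩⟩
      · rw [one_mul]
        apply Subtype.ext
        change (i : E → ℂ) h = 1
        rw [hi]; rfl
      · rw [Finset.sum_const, Finset.card_univ, nsmul_eq_mul, mul_one, map_natCast, CharP.cast_eq_zero_iff _ p,
          ← Nat.card_eq_fintype_card, ← D.cardP]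
        exact Subgroup.card_dvd_of_le D.PN
    · obtain ⟨⟨h₀, hh₀⟩, ψ, hψ, hS⟩ := hpsi i hi
      exact exists_CC hO hpO D (lam i) i.2.isCharacter (hlam1 i) (h₀ := h₀) hh₀ hψ hS
  choose c hc using hex
  obtain ⟨n, ρ, hρ, hρθ⟩ := hθ
  have hn : n = d := by
    rw [← hρθ, Representation.char_one, Module.finrank_fin_fun] at hd
    exact_mod_cast hd
  subst hn
  let C : Cf (ResidueField O) P N E :=
    { ι := IrrCharacter E
      fi := inferInstance
      lam := fun i h => residue O (lam i h)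
      lam_mul := fun i a b => by
        rw [← map_mul]
        congr 1
        exact Subtype.ext (i.2.isCharacter.map_mul_of_linear (hlin i) a b)
      lam_one := fun i => by rw [hlam1, map_one]
      orth := fun h hh => by
        rw [← map_sum]
        have h2 : ∑ i : IrrCharacter E, lam i h = 0 := by
          apply Subtype.ext
          push_cast
          rw [← CharBasic.sum_degree_mul h hh]
          exact Finset.sum_congr rfl fun i _ => by rw [hlin, one_mul]
        rw [h2, map_zero]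
      orth1 := by
        rw [Finset.sum_const, Finset.card_univ, nsmul_eq_mul, mul_one]
        have h2 : (Fintype.card (IrrCharacter E) : ℂ) = (Nat.card E : ℂ) := by
          rw [← CharBasic.sum_degree_sq, Finset.sum_congr rfl fun i _ => by rw [hlin i, one_pow], Finset.sum_const,
            Finset.card_univ, nsmul_eq_mul, mul_one]
        have h3 : Fintype.card (IrrCharacter E) = Nat.card E := by exact_mod_cast h2
        rw [h3]
      c := fun i g => residue O (c i g)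
      c1 := fun i => by rw [(hc i).c1, map_one]
      cP := fun i g y hy => by rw [(hc i).cP g y hy]
      cE := fun i g h => by rw [← map_mul, (hc i).cE g h]
      cP' := fun i g y hy => by rw [(hc i).cP' g y hy]
      c0 := fun i a b => by rw [← map_sum]; exact (hc i).c0 a b }
  exact dvd_of_fixed D hpO C ρ hρ (by rw [hρθ]; exact h1) (by rw [hρθ]; exact hN)

end main

end Cfsg.Agent.Lib.H15RedC
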