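import Cfsg.Agent.Lib.CharBasic2
import Cfsg.Agent.Lib.IndFun
import Cfsg.Agent.Lib.BlockThird

set_option autoImplicit false
set_option linter.all false

/-!
# Induced characters from an abelian TI subgroup inverted by its normaliser
-/

namespace Cfsg.Agent.Lib.H15TIc

open Cfsg Cfsg.Agent.Lib.CharBasic Cfsg.Agent.Lib.BlockThird
open scoped ComplexConjugate

universe u

variable {G : Type u} [Group G] [Fintype G]

/-- the configuration -/
structure TIc (E M : Subgroup G) : Prop where
  EM : E ≤ M
  cardM : Nat.card M = 2 * Nat.card E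
  ti : ∀ g, ∀ h ∈ E, h ≠ 1 → g⁻¹ * h * g ∈ E → g ∈ M
  inv : ∀ m ∈ M, m ∉ E → ∀ h ∈ E, m⁻¹ * h * m = h⁻¹
  comm : ∀ a ∈ E, ∀ b ∈ E, a * b = b * a

variable {E M : Subgroup G} (T : TIc E M) [Fintype E]

theorem sum_ite (S : Subgroup G) [DecidablePred (· ∈ S)] (c : ℂ) : ∑ x : G, (if x ∈ S then c else 0) = Nat.card S * c := by
  rw [← Finset.sum_filter, Finset.sum_const, nsmul_eq_mul]
  congr 2
  rw [Nat.card_eq_fintype_card, Fintype.card_subtype]

include T in
theorem ind_val {α : E → ℂ} (h1 : α 1 = 0) (h : E) : indFun E α h = α h + α h⁻¹ := by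
  classical
  by_cases hh : h = 1
  · subst hh
    rw [Subgroup.coe_one, IndFun.indFun_one, inv_one, h1, mul_zero, add_zero]
  have hne : (h : G) ≠ 1 := fun h' => hh (Subtype.ext h')
  rw [IndFun.indFun_apply]
  have h2 : ∀ x : G, extendByZero E α (x⁻¹ * h * x) =
      (if x ∈ E then (α h - α h⁻¹) else 0) + (if x ∈ M then α h⁻¹ else 0) := by
    intro x
    by_cases hxE : x ∈ E
    · have h3 : x⁻¹ * h * x = h := by rw [T.comm _ (E.inv_mem hxE) _ h.2, inv_mul_cancel_right]
      rw [h3, if_pos hxE, if_pos (T.EM hxE), IndFun.extendByZero_coe]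
      ring
    · rw [if_neg hxE, zero_add]
      by_cases hxM : x ∈ M
      · rw [if_pos hxM, T.inv x hxM hxE h h.2]
        exact IndFun.extendByZero_coe E α h⁻¹
      · rw [if_neg hxM]
        exact IndFun.extendByZero_not_mem E α (fun h' => hxM (T.ti x h h.2 hne h'))
  rw [Finset.sum_congr rfl fun x _ => h2 x, Finset.sum_add_distrib, sum_ite, sum_ite, T.cardM]
  have hE0 : (Nat.card E : ℂ) ≠ 0 := by exact_mod_cast Nat.card_pos.ne'
  push_cast
  field_simp
  ring

theorem ind_eq_zero {α : E → ℂ} {g : G} (hg : ∀ x : G, x⁻¹ * g * x ∉ E) : indFun E α g = 0 :=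
  IndFun.indFun_eq_zero E α g hg

include T in
theorem ind_inner {α β : E → ℂ} (h1 : β 1 = 0) :
    classInner (indFun E α) (indFun E β) = classInner α (fun h => β h + β h⁻¹) := by
  rw [IndFun.frobenius_reciprocity E α _ (IndFun.indFun_isClassFunction E β)]
  congr 1
  funext h
  exact ind_val T h1 h

/-- the function `1 - λ` -/
noncomputable def al (l : IrrCharacter E) : E → ℂ := (fun _ => 1) - (l : E → ℂ)

/-- the induced function -/
noncomputable def ff (l : IrrCharacter E) : G → ℂ := indFun E (al l)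

variable (hlin : ∀ l : IrrCharacter E, (l : E → ℂ) 1 = 1)

include T in
omit [Fintype G] in
theorem lin (l : IrrCharacter E) : (l : E → ℂ) 1 = 1 :=
  l.2.one_eq_one_of_comm fun a b => Subtype.ext (T.comm a a.2 b b.2)

include T in
theorem al_one (l : IrrCharacter E) : al l 1 = 0 := by
  rw [al, Pi.sub_apply, lin T, sub_self]

include T in
theorem ff_val (l : IrrCharacter E) (h : E) : ff l (h : G) = 2 - (l : E → ℂ) h - (l : E → ℂ) h⁻¹ := by
  rw [ff, ind_val T (al_one T l), al, Pi.sub_apply, Pi.sub_apply]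
  ring

theorem ff_zero (l : IrrCharacter E) {g : G} (hg : ∀ x : G, x⁻¹ * g * x ∉ E) : ff l g = 0 :=
  ind_eq_zero hg

theorem ff_class (l : IrrCharacter E) : IsClassFunction G (ff l) := IndFun.indFun_isClassFunction E _

include T in
theorem ff_one (l : IrrCharacter E) : ff l (1 : G) = 0 := by
  rw [ff, IndFun.indFun_one, al_one T, mul_zero]

theorem ff_gen (l : IrrCharacter E) : IsGeneralizedCharacter G (ff l) :=
  (isGeneralized_one.sub l.2.isGeneralized).indFun E

theorem ff_inner {χ : G → ℂ} (hχ : IsClassFunction G χ) (l : IrrCharacter E) :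
    classInner (ff l) χ = classInner (al l) (fun h : E => χ h) :=
  IndFun.frobenius_reciprocity E _ χ hχ

/-- conjugate character -/
noncomputable def bar (l : IrrCharacter E) : IrrCharacter E := ⟨fun h => conj ((l : E → ℂ) h), l.2.conj⟩

theorem bar_apply (l : IrrCharacter E) (h : E) : (bar l : E → ℂ) h = (l : E → ℂ) h⁻¹ := by
  rw [l.2.isCharacter.inv]; rfl

theorem bar_bar (l : IrrCharacter E) : bar (bar l) = l := by
  apply Subtype.ext
  funext h
  rw [bar_apply, bar_apply, inv_inv]

theorem al_inner_triv (l : IrrCharacter E) (hl : l ≠ triv E) : classInner (al l) (fun _ => 1) = 1 := by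
  have h1 := irr_orthonormal (triv E) (triv E)
  have h2 := irr_orthonormal l (triv E)
  rw [if_pos rfl, coe_triv] at h1
  rw [if_neg hl, coe_triv] at h2
  rw [al, classInner_sub_left, h1, h2, sub_zero]

theorem al_inner_of_eq (l : IrrCharacter E) {φ ψ : E → ℂ} (h1 : al l 1 = 0) (h : ∀ x : E, x ≠ 1 → φ x = ψ x) :
    classInner (al l) φ = classInner (al l) ψ := by
  rw [classInner_def, classInner_def]
  congr 1
  refine Finset.sum_congr rfl fun x _ => ?_
  by_cases hx : x = 1
  · rw [hx, h1, zero_mul, zero_mul]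
  · rw [h x hx]

theorem al_inner_al (l m : IrrCharacter E) (hl : l ≠ triv E) (hm : m ≠ triv E) :
    classInner (al l) (al m) = 1 + if l = m then 1 else 0 := by
  have h1 := irr_orthonormal (triv E) (triv E)
  have h2 := irr_orthonormal l (triv E)
  have h3 := irr_orthonormal (triv E) m
  have h4 := irr_orthonormal l m
  rw [if_pos rfl, coe_triv] at h1
  rw [if_neg hl, coe_triv] at h2
  rw [if_neg (Ne.symm hm), coe_triv] at h3
  rw [al, al, classInner_sub_left, classInner_sub_right, classInner_sub_right, h1, h2, h3, h4]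
  ring

include T in
theorem ff_ff (l m : IrrCharacter E) (hl : l ≠ triv E) (hm : m ≠ triv E) :
    classInner (ff (G := G) l) (ff m) = 2 + (if l = m then 1 else 0) + (if l = bar m then 1 else 0) := by
  have hbm : bar m ≠ triv E := by
    intro h
    apply hm
    rw [← bar_bar m, h]
    apply Subtype.ext
    funext x
    rw [bar_apply]; rfl
  rw [ff, ff, ind_inner T (al_one T m)]
  have h1 : (fun h : E => al m h + al m h⁻¹) = al m + al (bar m) := by
    funext h
    rw [Pi.add_apply, al, al, Pi.sub_apply, Pi.sub_apply, Pi.sub_apply, bar_apply]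
  rw [h1, classInner_add_right, al_inner_al l m hl hm, al_inner_al l (bar m) hl hbm]
  ring

end Cfsg.Agent.Lib.H15TIc
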