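import Cfsg.Agent.Lib.H15TIc

set_option autoImplicit false
set_option linter.all false

/-!
# The normaliser of an odd abelian TI subgroup inverts it
-/

namespace Cfsg.Agent.Lib.H15TIm

open Cfsg Cfsg.Agent.Lib.CharBasic Cfsg.Agent.Lib.BlockThird
open scoped ComplexConjugate

universe u

variable {G : Type u} [Group G] [Fintype G]

/-- no exceptional linear characters in a perfect group -/
theorem triv_of_perfect (hperf : commutator G = ⊤) (M : Subgroup G) [Fintype M] {σ : M → ℂ} (hσ : IsCharacter M σ)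
    (h1 : σ 1 = 1) (hti : ∀ m : M, σ m ≠ 1 → ∀ g : G, g⁻¹ * m * g ∈ M → g ∈ M) (m : M) : σ m = 1 := by
  classical
  by_contra hm
  have hne : (⟨σ, hσ.isIrr_of_one_eq_one h1⟩ : IrrCharacter M) ≠ triv M := by
    intro h
    apply hm
    have := congrArg (fun χ : IrrCharacter M => (χ : M → ℂ) m) h
    exact this
  let s : IrrCharacter M := ⟨σ, hσ.isIrr_of_one_eq_one h1⟩
  let α : M → ℂ := (fun _ => 1) - σ
  have hcf : IsClassFunction M σ := hσ.isClassFunction
  have o1 := irr_orthonormal (triv M) (triv M)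
  have o2 := irr_orthonormal s (triv M)
  have o3 := irr_orthonormal (triv M) s
  have o4 := irr_orthonormal s s
  rw [if_pos rfl, coe_triv] at o1
  rw [if_neg hne, coe_triv] at o2
  rw [if_neg (Ne.symm hne), coe_triv] at o3
  rw [if_pos rfl] at o4
  have hval : ∀ m : M, σ m ≠ 1 → indFun M α m = α m := by
    intro m hm
    rw [IndFun.indFun_apply]
    have h2 : ∀ x : G, extendByZero M α (x⁻¹ * m * x) = if x ∈ M then α m else 0 := by
      intro x
      by_cases hx : x ∈ M
      · rw [if_pos hx, IndFun.extendByZero_mem M α (M.mul_mem (M.mul_mem (M.inv_mem hx) m.2) hx)]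
        change 1 - σ _ = 1 - σ m
        congr 1
        have h3 := hcf m (⟨x, hx⟩⁻¹ : M)
        rw [inv_inv] at h3
        exact h3
      · rw [if_neg hx]
        exact IndFun.extendByZero_not_mem M α (fun h' => hx (hti m hm x h'))
    rw [Finset.sum_congr rfl fun x _ => h2 x, H15TIc.sum_ite, ← mul_assoc, inv_mul_cancel₀, one_mul]
    exact_mod_cast Nat.card_pos.ne'
  have hcl := IndFun.indFun_isClassFunction M α
  have hnorm : classInner (indFun M α) (indFun M α) = 2 := by
    rw [IndFun.frobenius_reciprocity M α _ hcl]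
    have h2 : classInner α (fun h : M => indFun M α h) = classInner α α := by
      rw [classInner_def, classInner_def]
      congr 1
      refine Finset.sum_congr rfl fun x _ => ?_
      by_cases hx : σ x = 1
      · have : α x = 0 := by change 1 - σ x = 0; rw [hx, sub_self]
        rw [this, zero_mul, zero_mul]
      · rw [hval x hx]
    rw [h2]
    change classInner ((fun _ => (1:ℂ)) - σ) ((fun _ => (1:ℂ)) - σ) = 2
    have o3' : classInner (fun _ : M => (1:ℂ)) σ = 0 := o3
    have o2' : classInner σ (fun _ : M => (1:ℂ)) = 0 := o2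
    have o4' : classInner σ σ = 1 := o4
    rw [classInner_sub_left, classInner_sub_right, classInner_sub_right, o1, o2', o3', o4']
    norm_num
  have htriv : classInner (indFun M α) (fun _ => 1) = 1 := by
    rw [IndFun.frobenius_reciprocity M α _ (fun _ _ => rfl)]
    change classInner ((fun _ => (1:ℂ)) - σ) (fun _ => 1) = 1
    have o2' : classInner σ (fun _ : M => (1:ℂ)) = 0 := o2
    rw [classInner_sub_left, o1, o2', sub_zero]
  have htriv' : classInner (fun _ => 1) (indFun M α) = 1 := by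
    rw [← conj_classInner, htriv, map_one]
  have o5 := irr_orthonormal (triv G) (triv G)
  rw [if_pos rfl, coe_triv] at o5
  have hgen : IsGeneralizedCharacter G (indFun M α) :=
    ((isGeneralized_one (G := M)).sub hσ.isGeneralized).indFun M
  have hone : indFun M α 1 = 0 := by
    rw [IndFun.indFun_one]
    change _ * (1 - σ 1) = 0
    rw [h1, sub_self, mul_zero]
  have hη : IsIrrCharacter G ((fun _ => 1) - indFun M α) := by
    apply ((isGeneralized_one (G := G)).sub hgen).irr_of_norm_one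
    · change classInner ((fun _ => (1:ℂ)) - indFun M α) ((fun _ => (1:ℂ)) - indFun M α) = 1
      rw [classInner_sub_left, classInner_sub_right, classInner_sub_right, o5, htriv, htriv', hnorm]
      norm_num
    · change 0 ≤ (((fun _ => (1:ℂ)) - indFun M α : G → ℂ) 1).re
      rw [Pi.sub_apply, hone]; norm_num
  have hη1 : ((fun _ => 1) - indFun M α : G → ℂ) (1 : G) = 1 := by
    rw [Pi.sub_apply, hone, sub_zero]
  have h0 : indFun M α = 0 := by
    funext g
    have h3 := hη.isCharacter.eq_one_on_commutator hη1 (g := g) (by rw [hperf]; trivial)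
    rw [Pi.sub_apply] at h3
    rw [Pi.zero_apply]
    linear_combination -h3
  rw [h0] at hnorm
  have h4 : classInner (0 : G → ℂ) 0 = 0 := by
    rw [classInner_self_eq_zero]
  rw [h4] at hnorm
  norm_num at hnorm

/-- the normaliser inverts -/
theorem inverts (hperf : commutator G = ⊤) {E M : Subgroup G} (hEM : E ≤ M) (hodd : Odd (Nat.card E))
    (hcardM : Nat.card M = 2 * Nat.card E) (hcomm : ∀ a ∈ E, ∀ b ∈ E, a * b = b * a)
    (hnorm : ∀ m ∈ M, ∀ h ∈ E, m⁻¹ * h * m ∈ E) (hti : ∀ g, ∀ h ∈ E, h ≠ 1 → g⁻¹ * h * g ∈ E → g ∈ M) :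
    ∀ m ∈ M, m ∉ E → ∀ h ∈ E, m⁻¹ * h * m = h⁻¹ := by
  classical
  haveI : Fintype M := Fintype.ofFinite _
  have hrel : E.relIndex M = 2 := by
    have h1 := Subgroup.card_mul_index (E.subgroupOf M)
    rw [Nat.card_congr (Subgroup.subgroupOfEquivOfLe hEM).toEquiv, hcardM] at h1
    have h2 : Nat.card E * E.relIndex M = Nat.card E * 2 := by
      rw [mul_comm (Nat.card E) 2]; exact h1
    exact Nat.eq_of_mul_eq_mul_left Nat.card_pos h2
  have hmulmem : ∀ a ∈ M, ∀ b ∈ M, (a * b ∈ E ↔ (a ∈ E ↔ b ∈ E)) := by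
    intro a ha b hb
    have h1 := Subgroup.mul_mem_iff_of_index_two (H := E.subgroupOf M) hrel (a := ⟨a, ha⟩) (b := ⟨b, hb⟩)
    simpa [Subgroup.mem_subgroupOf] using h1
  have hsq : ∀ a ∈ M, a * a ∈ E := fun a ha => (hmulmem a ha a ha).2 Iff.rfl
  intro m₀ hm₀ hm₀E h₀ hh₀
  -- the conjugation
  have hc : ∀ b ∈ M, b ∉ E → ∀ x ∈ E, b⁻¹ * x * b = m₀⁻¹ * x * m₀ := by
    intro b hb hbE x hx
    have h1 : b * m₀⁻¹ ∈ E := by
      rw [hmulmem b hb _ (M.inv_mem hm₀)]
      simp only [E.inv_mem_iff, hbE, hm₀E]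
    have h2 := hcomm _ h1 _ hx
    have h3 : (b * m₀⁻¹)⁻¹ * x * (b * m₀⁻¹) = x := by rw [mul_assoc, ← h2]; group
    calc b⁻¹ * x * b = m₀⁻¹ * ((b * m₀⁻¹)⁻¹ * x * (b * m₀⁻¹)) * m₀ := by group
      _ = _ := by rw [h3]
  have hc' : ∀ b ∈ M, b ∉ E → ∀ x ∈ E, b * x * b⁻¹ = m₀⁻¹ * x * m₀ := by
    intro b hb hbE x hx
    have h1 := hc b⁻¹ (M.inv_mem hb) (by rwa [E.inv_mem_iff]) x hx
    rwa [inv_inv] at h1
  by_contra hcon
  -- a transfer map
  let V : G → G := fun m => if m ∈ E then m * (m₀⁻¹ * m * m₀) else m * m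
  have hVE : ∀ m ∈ M, V m ∈ E := by
    intro m hm
    by_cases h : m ∈ E
    · simp only [V, if_pos h]; exact E.mul_mem h (hnorm _ hm₀ _ h)
    · simp only [V, if_neg h]; exact hsq m hm
  have hVmul : ∀ a ∈ M, ∀ b ∈ M, V (a * b) = V a * V b := by
    intro a ha b hb
    by_cases haE : a ∈ E
    · by_cases hbE : b ∈ E
      · simp only [V, if_pos haE, if_pos hbE, if_pos (E.mul_mem haE hbE)]
        have h1 : m₀⁻¹ * (a * b) * m₀ = (m₀⁻¹ * a * m₀) * (m₀⁻¹ * b * m₀) := by group
        rw [h1]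
        have h2 := hcomm _ (hnorm _ hm₀ _ haE) _ hbE
        calc a * b * (m₀⁻¹ * a * m₀ * (m₀⁻¹ * b * m₀)) = a * (b * (m₀⁻¹ * a * m₀)) * (m₀⁻¹ * b * m₀) := by
              simp only [mul_assoc]
          _ = a * ((m₀⁻¹ * a * m₀) * b) * (m₀⁻¹ * b * m₀) := by rw [h2]
          _ = _ := by simp only [mul_assoc]
      · have hab : a * b ∉ E := by rw [hmulmem a ha b hb]; simp [haE, hbE]
        simp only [V, if_pos haE, if_neg hbE, if_neg hab]
        rw [← hc' b hb hbE a haE]
        group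
    · by_cases hbE : b ∈ E
      · have hab : a * b ∉ E := by rw [hmulmem a ha b hb]; simp [haE, hbE]
        simp only [V, if_neg haE, if_pos hbE, if_neg hab]
        rw [← hc a ha haE b hbE]
        have h2 := hcomm _ (hnorm _ ha _ hbE) _ hbE
        calc a * b * (a * b) = a * a * ((a⁻¹ * b * a) * b) := by group
          _ = a * a * (b * (a⁻¹ * b * a)) := by rw [h2]
      · have hab : a * b ∈ E := by rw [hmulmem a ha b hb]; simp [haE, hbE]
        simp only [V, if_neg haE, if_neg hbE, if_pos hab]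
        rw [← hc a ha haE _ hab]
        have h1 : a * (b * b) * a⁻¹ = b * b := by
          rw [hc' a ha haE _ (hsq b hb), ← hc b hb hbE _ (hsq b hb)]; group
        calc a * b * (a⁻¹ * (a * b) * a) = (a * (b * b) * a⁻¹) * (a * a) := by group
          _ = b * b * (a * a) := by rw [h1]
          _ = a * a * (b * b) := hcomm _ (hsq b hb) _ (hsq a ha)
  let Φ : M →* E :=
    { toFun := fun m => ⟨V m, hVE m m.2⟩
      map_one' := Subtype.ext (by
        change V 1 = 1
        simp only [V, if_pos E.one_mem]; group)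
      map_mul' := fun a b => Subtype.ext (hVmul a a.2 b b.2) }
  have hx : (⟨V h₀, hVE _ (hEM hh₀)⟩ : E) ≠ 1 := by
    intro h
    have h1 : V h₀ = 1 := congrArg Subtype.val h
    simp only [V, if_pos hh₀] at h1
    exact hcon (eq_inv_of_mul_eq_one_right h1)
  obtain ⟨τ, hτ⟩ : ∃ f : E →* ℂˣ, f ⟨V h₀, hVE _ (hEM hh₀)⟩ ≠ 1 := by
    let inst : CommGroup E := { (inferInstance : Group E) with mul_comm := fun a b => Subtype.ext (hcomm a a.2 b b.2) }
    exact @CommGroup.exists_apply_ne_one_of_hasEnoughRootsOfUnity E ℂ inst _ _ _ _ hx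
  let σ : M → ℂ := fun m => ((τ.comp Φ) m : ℂ)
  have hoddmem : ∀ z ∈ M, z ^ Nat.card E = 1 → z ∈ E := by
    intro z hz hz1
    obtain ⟨k, hk⟩ := hodd
    have h1 : z = (z * z) ^ (k + 1) := by
      have h2 : (z * z) ^ (k + 1) = z ^ (Nat.card E) * z := by
        rw [hk, ← pow_two, ← pow_mul, ← pow_succ]; congr 1
      rw [h2, hz1, one_mul]
    rw [h1]
    exact E.pow_mem (hsq z hz) _
  have h1 := triv_of_perfect hperf M (σ := σ) (isCharacter_of_unitsHom (τ.comp Φ)) (by
    change (((τ.comp Φ) 1 : ℂˣ) : ℂ) = 1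
    rw [map_one, Units.val_one]) (by
    intro m hm g hg
    have hV1 : V m ≠ 1 := by
      intro h
      apply hm
      change ((τ ⟨V m, _⟩ : ℂˣ) : ℂ) = 1
      have h2 : (⟨V m, hVE m m.2⟩ : E) = 1 := Subtype.ext h
      rw [h2, map_one, Units.val_one]
    by_cases hmE : (m : G) ∈ E
    · have hm1 : (m : G) ≠ 1 := by
        intro h
        apply hV1
        rw [h]
        simp only [V, if_pos E.one_mem]; group
      refine hti g m hmE hm1 (hoddmem _ hg ?_)
      have h3 : (m : G) ^ Nat.card E = 1 := by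
        have := pow_card_eq_one' (x := (⟨m, hmE⟩ : E))
        exact congrArg Subtype.val this
      have h4 : (g⁻¹ * (m : G) * g) ^ Nat.card E = g⁻¹ * (m : G) ^ Nat.card E * g := by
        have := conj_pow (i := Nat.card E) (a := g⁻¹) (b := (m : G))
        rwa [inv_inv] at this
      rw [h4, h3]; group
    · have hV2 : V m = (m : G) * m := by simp only [V, if_neg hmE]
      rw [hV2] at hV1
      refine hti g _ (hsq m m.2) hV1 ?_
      have h5 : g⁻¹ * ((m : G) * m) * g = (g⁻¹ * (m : G) * g) * (g⁻¹ * (m : G) * g) := by group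
      rw [h5]
      exact hsq _ hg) ⟨h₀, hEM hh₀⟩
  apply hτ
  apply Units.ext
  rw [Units.val_one]
  exact h1

end Cfsg.Agent.Lib.H15TIm
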