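import Mathlib

set_option autoImplicit false
set_option linter.all false

/-!
# Modules over groups with a self-centralizing Sylow subgroup of order `p`, characteristic `p`
-/

namespace Cfsg.Agent.Lib.H15Tate

open Module

section cyclic

variable {k : Type*} [Field k] {p : ℕ} [hp : Fact p.Prime] [CharP k p]

theorem poly_pow : ((Polynomial.X - 1 : Polynomial k)) ^ p = Polynomial.X ^ p - 1 := by
  rw [sub_pow_char, one_pow]

theorem poly_T : ((Polynomial.X - 1 : Polynomial k)) ^ (p - 1) = ∑ i ∈ Finset.range p, Polynomial.X ^ i := by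
  have h1 : (Polynomial.X - 1 : Polynomial k) ≠ 0 := by
    have := Polynomial.X_sub_C_ne_zero (1 : k)
    rwa [Polynomial.C_1] at this
  apply mul_right_cancel₀ h1
  rw [geom_sum_mul, ← pow_succ, Nat.sub_add_cancel hp.out.one_le, poly_pow]

variable {P : Type*} [Group P] [Fintype P] {x : P} (hx : ∀ y : P, y ∈ Subgroup.zpowers x)
  (hP : Fintype.card P = p)
variable {V : Type*} [AddCommGroup V] [Module k V] (ρ : Representation k P V)

include hx hP in
theorem order_x : orderOf x = p := by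
  rw [orderOf_eq_card_of_forall_mem_zpowers hx, Nat.card_eq_fintype_card, hP]

include hx hP in
theorem sum_P {M : Type*} [AddCommMonoid M] (f : P → M) : ∑ y : P, f y = ∑ i ∈ Finset.range p, f (x ^ i) := by
  classical
  rw [← IsCyclic.image_range_orderOf hx, Finset.sum_image, order_x hx hP]
  intro i hi j hj h
  rw [Finset.coe_range, Set.mem_Iio] at hi hj
  exact pow_injOn_Iio_orderOf hi hj h

include hx hP in
theorem T_eq : ∑ y : P, ρ y = (ρ x - 1) ^ (p - 1) := by
  rw [sum_P hx hP]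
  have h1 := congrArg (Polynomial.aeval (ρ x)) (poly_T (k := k) (p := p))
  rw [map_pow, map_sub, Polynomial.aeval_X, map_one, map_sum] at h1
  rw [h1]
  refine Finset.sum_congr rfl fun i _ => ?_
  rw [map_pow, map_pow, Polynomial.aeval_X]

include hx hP in
theorem nil : (ρ x - 1) ^ p = 0 := by
  have h1 := congrArg (Polynomial.aeval (ρ x)) (poly_pow (k := k) (p := p))
  rw [map_pow, map_sub, Polynomial.aeval_X, map_one, map_sub, map_pow, Polynomial.aeval_X, map_one,
    ← map_pow, ← order_x hx hP, pow_orderOf_eq_one, map_one, sub_self] at h1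
  rw [← order_x hx hP]; exact h1

include hx in
theorem fixed_of {v : V} (h : ρ x v = v) (y : P) : ρ y v = v := by
  have h1 : ∀ n : ℕ, ρ (x ^ n) v = v := by
    intro n
    induction n with
    | zero => rw [pow_zero, map_one]; rfl
    | succ n ih => rw [pow_succ, map_mul]; change ρ (x ^ n) (ρ x v) = v; rw [h, ih]
  obtain ⟨n, rfl⟩ := mem_powers_iff_mem_zpowers.2 (hx y)
  exact h1 n

include hx hP in
theorem exists_fixed (W : Submodule k V) (hW : ∀ w ∈ W, ρ x w ∈ W) {w₀ : V} (hw₀ : w₀ ∈ W) (hne : w₀ ≠ 0) :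
    ∃ w ∈ W, w ≠ 0 ∧ ∀ y, ρ y w = w := by
  let π : Module.End k V := ρ x - 1
  have hmem : ∀ n : ℕ, (π ^ n) w₀ ∈ W := by
    intro n
    induction n with
    | zero => rw [pow_zero]; exact hw₀
    | succ n ih =>
      rw [pow_succ']
      change ρ x _ - _ ∈ W
      exact W.sub_mem (hW _ ih) ih
  have hex : ∃ n, (π ^ n) w₀ = 0 := ⟨p, by rw [show π ^ p = 0 from nil hx hP ρ]; rfl⟩
  classical
  obtain ⟨n, hn⟩ : ∃ n, Nat.find hex = n + 1 := by
    refine Nat.exists_eq_succ_of_ne_zero fun h => ?_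
    have := Nat.find_spec hex
    rw [h, pow_zero] at this
    exact hne this
  refine ⟨(π ^ n) w₀, hmem n, fun h => ?_, fixed_of hx ρ ?_⟩
  · have := Nat.find_min' hex h
    omega
  · have h1 := Nat.find_spec hex
    rw [hn, pow_succ'] at h1
    change ρ x _ - _ = 0 at h1
    exact sub_eq_zero.1 h1

variable {K : Type*} [AddCommGroup K] [Module k K] (s : K →ₗ[k] V)

/-- `c ↦ ∑ y, y • s (c y)` -/
def Phi : (P → K) →ₗ[k] V := ∑ y : P, (ρ y ∘ₗ s) ∘ₗ LinearMap.proj y

theorem Phi_apply (c : P → K) : Phi ρ s c = ∑ y : P, ρ y (s (c y)) := by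
  rw [Phi, LinearMap.sum_apply]
  rfl

/-- translation -/
def sh : Representation k P (P → K) where
  toFun z :=
    { toFun := fun c y => c (z⁻¹ * y)
      map_add' := fun _ _ => rfl
      map_smul' := fun _ _ => rfl }
  map_one' := by ext; simp
  map_mul' a b := by
    ext c y
    simp [mul_assoc]

theorem sh_apply (z : P) (c : P → K) (y : P) : sh (k := k) z c y = c (z⁻¹ * y) := rfl

theorem Phi_sh (z : P) (c : P → K) : Phi ρ s (sh (k := k) z c) = ρ z (Phi ρ s c) := by
  rw [Phi_apply, Phi_apply, map_sum]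
  refine Fintype.sum_equiv (Equiv.mulLeft z⁻¹) _ _ fun y => ?_
  rw [sh_apply, Equiv.coe_mulLeft]
  change _ = (ρ z * ρ (z⁻¹ * y)) (s (c (z⁻¹ * y)))
  rw [← map_mul, mul_inv_cancel_left]

include hx hP in
theorem Phi_injective (hs : ∀ v : K, ∑ y : P, ρ y (s v) = 0 → v = 0) : Function.Injective (Phi ρ s) := by
  rw [← LinearMap.ker_eq_bot, Submodule.eq_bot_iff]
  by_contra hcon
  push Not at hcon
  obtain ⟨c, hc, hne⟩ := hcon
  obtain ⟨d, hd, hd0, hdf⟩ := exists_fixed hx hP (sh (k := k) (P := P) (K := K)) (LinearMap.ker (Phi ρ s)) (by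
    intro w hw
    rw [LinearMap.mem_ker] at hw ⊢
    rw [Phi_sh, hw, map_zero]) hc hne
  apply hd0
  have h1 : ∀ y, d y = d 1 := by
    intro y
    have := congrFun (hdf y) y
    rw [sh_apply, inv_mul_cancel] at this
    exact this.symm
  rw [LinearMap.mem_ker, Phi_apply] at hd
  have h2 := hs (d 1) (by rw [← hd]; exact Finset.sum_congr rfl fun y _ => by rw [h1 y])
  funext y
  rw [h1, h2]; rfl

include hx hP in
theorem le_finrank [FiniteDimensional k V] [FiniteDimensional k K] (hs : ∀ v : K, ∑ y : P, ρ y (s v) = 0 → v = 0) :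
    p * finrank k K ≤ finrank k V := by
  have h1 := LinearMap.finrank_le_finrank_of_injective (Phi_injective hx hP ρ s hs)
  rwa [Module.finrank_pi_fintype, Finset.sum_const, Finset.card_univ, hP, smul_eq_mul] at h1

include hx hP in
/-- either there is a non-projective fixed vector, or the identity is a trace -/
theorem higman_or : (∃ d : V, (∀ y, ρ y d = d) ∧ ∀ w, d ≠ ∑ y : P, ρ y w) ∨
    ∃ η : V →ₗ[k] V, ∑ y : P, ρ y ∘ₗ η ∘ₗ ρ y⁻¹ = LinearMap.id := by
  classical
  by_cases h : ∃ d : V, (∀ y, ρ y d = d) ∧ ∀ w, d ≠ ∑ y : P, ρ y w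
  · exact Or.inl h
  right
  push Not at h
  let π : Module.End k V := ρ x - 1
  let T : Module.End k V := ∑ y : P, ρ y
  have hTa : ∀ w, T w = ∑ y : P, ρ y w := fun w => LinearMap.sum_apply _ _ _
  let K : Submodule k V := LinearMap.ker π
  have hK : ∀ v ∈ K, ∀ y, ρ y v = v := by
    intro v hv
    apply fixed_of hx
    rw [LinearMap.mem_ker] at hv
    exact sub_eq_zero.1 hv
  -- a linear section
  obtain ⟨s, hs⟩ : ∃ s : K →ₗ[k] V, ∀ v : K, T (s v) = v := by
    have h1 : ∀ v : K, (v : V) ∈ LinearMap.range T := by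
      intro v
      obtain ⟨w, hw⟩ := h v (hK v v.2)
      exact ⟨w, by rw [hTa]; exact hw.symm⟩
    let j : K →ₗ[k] LinearMap.range T := LinearMap.codRestrict _ K.subtype h1
    obtain ⟨g, hg⟩ := (T.rangeRestrict).exists_rightInverse_of_surjective T.range_rangeRestrict
    refine ⟨g ∘ₗ j, fun v => ?_⟩
    have h2 := LinearMap.congr_fun hg (j v)
    exact congrArg Subtype.val h2
  have hinj : Function.Injective (Phi ρ s) := Phi_injective hx hP ρ s (fun v hv => by
    apply Subtype.ext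
    rw [← hs v, hTa, hv]; rfl)
  have hT : T = π ^ (p - 1) := T_eq hx hP ρ
  have hrange : ∀ w ∈ LinearMap.range (Phi ρ s), π w ∈ LinearMap.range (Phi ρ s) := by
    rintro _ ⟨c, rfl⟩
    refine ⟨sh (k := k) x c - c, ?_⟩
    rw [map_sub, Phi_sh]; rfl
  have hrange' : ∀ n : ℕ, ∀ w ∈ LinearMap.range (Phi ρ s), (π ^ n) w ∈ LinearMap.range (Phi ρ s) := by
    intro n
    induction n with
    | zero => intro w hw; rw [pow_zero]; exact hw
    | succ n ih => intro w hw; rw [pow_succ']; exact hrange _ (ih w hw)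
  have hsr : ∀ v : K, s v ∈ LinearMap.range (Phi ρ s) := by
    intro v
    refine ⟨Pi.single 1 v, ?_⟩
    rw [Phi_apply, Finset.sum_eq_single 1]
    · rw [Pi.single_eq_same, map_one]; rfl
    · intro y _ hy
      rw [Pi.single_eq_of_ne hy, map_zero, map_zero]
    · intro h; exact absurd (Finset.mem_univ _) h
  have hker : ∀ m : ℕ, m ≤ p → ∀ v, (π ^ m) v = 0 → v ∈ LinearMap.range (Phi ρ s) := by
    intro m
    induction m with
    | zero => intro _ v hv; rw [pow_zero] at hv; rw [show v = 0 from hv]; exact Submodule.zero_mem _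
    | succ m ih =>
      intro hm v hv
      have hu : (π ^ m) v ∈ K := by
        rw [LinearMap.mem_ker]
        rw [pow_succ'] at hv
        exact hv
      have h1 : (π ^ m) ((π ^ (p - 1 - m)) (s ⟨_, hu⟩)) = (π ^ m) v := by
        have h2 := hs ⟨_, hu⟩
        rw [hT] at h2
        change (π ^ m * π ^ (p - 1 - m)) (s ⟨_, hu⟩) = _
        rw [← pow_add, show m + (p - 1 - m) = p - 1 by omega]
        exact h2
      have h3 := ih (by omega) (v - (π ^ (p - 1 - m)) (s ⟨_, hu⟩)) (by rw [map_sub, h1, sub_self])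
      have h4 := Submodule.add_mem _ h3 (hrange' (p - 1 - m) _ (hsr ⟨_, hu⟩))
      rwa [sub_add_cancel] at h4
  have hsurj : Function.Surjective (Phi ρ s) := fun v => hker p le_rfl v (by
    have := nil hx hP ρ
    change (π ^ p) v = 0
    rw [show π ^ p = 0 from this]; rfl)
  let Φ : (P → K) ≃ₗ[k] V := LinearEquiv.ofBijective (Phi ρ s) ⟨hinj, hsurj⟩
  refine ⟨s ∘ₗ LinearMap.proj 1 ∘ₗ (Φ.symm : V →ₗ[k] (P → K)), ?_⟩
  ext v
  obtain ⟨c, rfl⟩ := hsurj v
  rw [LinearMap.sum_apply, LinearMap.id_apply]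
  conv_rhs => rw [Phi_apply]
  refine Finset.sum_congr rfl fun y _ => ?_
  change ρ y (s (Φ.symm (ρ y⁻¹ (Phi ρ s c)) 1)) = _
  rw [← Phi_sh]
  have h1 : Φ.symm (Phi ρ s (sh (k := k) y⁻¹ c)) = sh (k := k) y⁻¹ c := Φ.symm_apply_apply _
  rw [h1, sh_apply, inv_inv, mul_one]

end cyclic

end Cfsg.Agent.Lib.H15Tate
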