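import Cfsg.Agent.Lib.H15TateG

set_option autoImplicit false
set_option linter.all false

/-!
# Modules over groups with a self-centralizing Sylow subgroup of order `p`, characteristic `p`, part 3
-/

namespace Cfsg.Agent.Lib.H15TateC

open Module Cfsg.Agent.Lib.H15Tate Cfsg.Agent.Lib.H15TateG

universe u v

/-- coefficient functions -/
structure Cf {G : Type u} [Group G] [Fintype G] (k : Type) [Field k] (P N E : Subgroup G) [Fintype N] where
  ι : Type u
  fi : Fintype ι
  lam : ι → E → k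
  lam_mul : ∀ i a b, lam i (a * b) = lam i a * lam i b
  lam_one : ∀ i, lam i 1 = 1
  orth : ∀ h : E, h ≠ 1 → ∑ i, lam i h = 0
  orth1 : ∑ i : ι, (1 : k) = (Nat.card E : k)
  c : ι → G → k
  c1 : ∀ i, c i 1 = 1
  cP : ∀ i g, ∀ y ∈ P, c i (g * y) = c i g
  cE : ∀ i g, ∀ h : E, c i (g * h) * lam i h = c i g
  cP' : ∀ i g, ∀ y ∈ P, c i (y * g) = c i g
  c0 : ∀ i, ∀ a b : G, ∑ n : N, c i (a * n * b) = 0

attribute [instance] Cf.fi

section rep

variable {k : Type} [Field k] {G : Type u} [Group G] [Fintype G] {V : Type v} [AddCommGroup V] [Module k V]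
  (ρ : Representation k G V)
  {p : ℕ} [hp : Fact p.Prime] [CharP k p] {P N E : Subgroup G} {x : G} (D : Dat p P N E x)
  [Fintype P] [Fintype N] [Fintype E] [Fintype (G ⧸ N)]

omit hp in
include D in
theorem E_ne : (Nat.card E : k) ≠ 0 := by
  rw [Ne, CharP.cast_eq_zero_iff k p]
  exact D.pe

include D in
theorem simple_higman (C : Cf k P N E) (hirr : ∀ t : V, t ≠ 0 → Submodule.span k (Set.range fun g => ρ g t) = ⊤)
    {d : V} (hd0 : d ≠ 0) (hd : ∀ n ∈ N, ρ n d = d) (hs : ∑ q : G ⧸ N, ρ q.out d = 0) :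
    ∃ η : V →ₗ[k] V, ∑ y : P, ρ y ∘ₗ η ∘ₗ ρ (y⁻¹ : P) = LinearMap.id := by
  classical
  have hE : (Nat.card E : k) ≠ 0 := E_ne D
  rcases higman_or (hxP D) (by rw [← Nat.card_eq_fintype_card, D.cardP]) (ρ.comp P.subtype) with ⟨d₀, h1, h2⟩ | h
  swap
  · exact h
  exfalso
  -- weight components
  let w : C.ι → V := fun i => ∑ h : E, C.lam i h⁻¹ • ρ h d₀
  have hw : ∑ i, w i = (Nat.card E : k) • d₀ := by
    rw [Finset.sum_comm, Finset.sum_eq_single (1 : E)]
    · rw [← Finset.sum_smul]
      have h3 : ∑ i : C.ι, C.lam i (1 : E)⁻¹ = (Nat.card E : k) := by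
        rw [← C.orth1]
        exact Finset.sum_congr rfl fun i _ => by rw [inv_one, C.lam_one]
      rw [h3]
      change _ • ρ ((1 : E) : G) d₀ = _
      rw [Subgroup.coe_one, map_one]; rfl
    · intro h _ hh
      rw [← Finset.sum_smul, C.orth _ (by rwa [Ne, inv_eq_one]), zero_smul]
    · intro h; exact absurd (Finset.mem_univ _) h
  have hwP : ∀ i, ∀ y ∈ P, ρ y (w i) = w i := by
    intro i y hy
    rw [map_sum]
    refine Finset.sum_congr rfl fun h _ => ?_
    rw [map_smul]
    congr 1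
    have h3 : ((h : G)⁻¹ * y * h) ∈ P := by
      have := D.norm (h : G)⁻¹ (N.inv_mem (D.EN h.2)) y hy
      rwa [inv_inv] at this
    have h4 : ρ y (ρ h d₀) = ρ h (ρ ((h : G)⁻¹ * y * h) d₀) := by
      change (ρ y * ρ h) d₀ = (ρ h * ρ _) d₀
      rw [← map_mul, ← map_mul]
      congr 2
      group
    rw [h4]
    congr 1
    exact h1 ⟨_, h3⟩
  have hwE : ∀ i, ∀ h : E, ρ h (w i) = C.lam i h • w i := by
    intro i h
    rw [map_sum, Finset.smul_sum]
    refine Fintype.sum_equiv (Equiv.mulLeft h) _ _ fun h' => ?_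
    rw [Equiv.coe_mulLeft, smul_smul, map_smul]
    have h3 : C.lam i h * C.lam i (h * h')⁻¹ = C.lam i h'⁻¹ := by
      rw [mul_inv_rev, C.lam_mul]
      have h4 : C.lam i h * C.lam i h⁻¹ = 1 := by rw [← C.lam_mul, mul_inv_cancel, C.lam_one]
      linear_combination C.lam i h'⁻¹ * h4
    rw [h3]
    congr 1
    rw [Subgroup.coe_mul, map_mul]; rfl
  obtain ⟨i, hi⟩ : ∃ i, ∀ v, w i ≠ ∑ y : P, ρ y v := by
    by_contra hcon
    push Not at hcon
    choose v hv using hcon
    apply h2 ((Nat.card E : k)⁻¹ • ∑ i, v i)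
    have h3 : d₀ = (Nat.card E : k)⁻¹ • ∑ i, w i := by
      rw [hw, smul_smul, inv_mul_cancel₀ hE, one_smul]
    rw [h3]
    change _ = ∑ y : P, ρ y _
    rw [Finset.sum_congr rfl fun i _ => hv i, Finset.sum_comm, Finset.smul_sum]
    exact Finset.sum_congr rfl fun y _ => by rw [map_smul, map_sum]
  obtain ⟨t, ht0, ht⟩ := key ρ D (hwP i) hi (C.c1 i) (by
    intro g n hn
    obtain ⟨h, hh, y, hy, rfl⟩ := D.dec n hn
    rw [← mul_assoc, C.cP i _ y hy]
    have h3 : ρ (g * h * y) (w i) = ρ g (C.lam i ⟨h, hh⟩ • w i) := by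
      rw [map_mul, map_mul]
      change ρ g (ρ h (ρ y (w i))) = _
      rw [hwP i y hy]
      have := hwE i ⟨h, hh⟩
      rw [← this]
    rw [h3, map_smul, smul_smul, C.cE i g ⟨h, hh⟩]) (C.cP' i |> fun h y hy g => h g y hy) (C.c0 i)
  have hall : ∀ v : V, ∑ n : N, ρ n v = 0 := by
    intro v
    have hv : v ∈ Submodule.span k (Set.range fun g => ρ g t) := by rw [hirr t ht0]; trivial
    induction hv using Submodule.span_induction with
    | mem v hv => obtain ⟨g, rfl⟩ := hv; exact ht g
    | zero => simp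
    | add a b _ _ ha hb => simp only [map_add, Finset.sum_add_distrib, ha, hb, add_zero]
    | smul a b _ hb => simp only [map_smul, ← Finset.smul_sum, hb, smul_zero]
  obtain ⟨v, hv⟩ := trace_of_coset_sum ρ D hd hs hE
  exact hd0 (by rw [hv, hall])

end rep

section module

variable {k : Type} [Field k] {G : Type u} [Group G] [Fintype G]
  {p : ℕ} [hp : Fact p.Prime] [CharP k p] {P N E : Subgroup G} {x : G} (D : Dat p P N E x)
  [Fintype P] [Fintype N] [Fintype E] [Fintype (G ⧸ N)] (C : Cf k P N E)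

/-- the representation attached to a module over the group algebra -/
noncomputable def rp (V : Type v) [AddCommGroup V] [Module k V] [Module (MonoidAlgebra k G) V]
    [IsScalarTower k (MonoidAlgebra k G) V] : Representation k G V :=
  ((Algebra.lsmul k k V : MonoidAlgebra k G →ₐ[k] Module.End k V) : MonoidAlgebra k G →* Module.End k V).comp
    (MonoidAlgebra.of k G)

theorem sum_GP {G : Type u} [Group G] [Fintype G] (P : Subgroup G) [Fintype P] [Fintype (G ⧸ P)] {M : Type*} [AddCommMonoid M]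
    (F : G → M) : ∑ g, F g = ∑ q : G ⧸ P, ∑ y : P, F (q.out * y) := by
  rw [← Fintype.sum_prod_type']
  symm
  refine Fintype.sum_bijective (fun z : (G ⧸ P) × P => z.1.out * (z.2 : G)) ⟨?_, ?_⟩ _ _ fun _ => rfl
  · rintro ⟨q, y⟩ ⟨q', y'⟩ h
    have h0 : q.out * (y : G) = q'.out * y' := h
    have h1 : q = q' := by
      have h2 : ((q.out * (y : G) : G) : G ⧸ P) = ((q'.out * y' : G) : G ⧸ P) := by rw [h0]
      rwa [QuotientGroup.mk_mul_of_mem _ y.2, QuotientGroup.mk_mul_of_mem _ y'.2, QuotientGroup.out_eq',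
        QuotientGroup.out_eq'] at h2
    subst h1
    exact Prod.ext rfl (Subtype.ext (mul_left_cancel h0))
  · intro g
    obtain ⟨y, hy⟩ := QuotientGroup.mk_out_eq_mul P g
    exact ⟨((g : G ⧸ P), y⁻¹), by change (g : G ⧸ P).out * ((y⁻¹ : P) : G) = g; rw [hy]; simp⟩

theorem rp_apply {V : Type v} [AddCommGroup V] [Module k V] [Module (MonoidAlgebra k G) V]
    [IsScalarTower k (MonoidAlgebra k G) V] (g : G) (v : V) : rp (k := k) (G := G) V g v = MonoidAlgebra.single g (1 : k) • v :=
  rfl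

include D C in
theorem dvd_finrank : ∀ (n : ℕ) (V : Type v) [AddCommGroup V] [Module k V] [Module (MonoidAlgebra k G) V]
    [IsScalarTower k (MonoidAlgebra k G) V] [Module.Finite k V] (d : V),
    finrank k V = n → (∀ m ∈ N, rp (k := k) (G := G) V m d = d) → ∑ q : G ⧸ N, rp (k := k) (G := G) V q.out d = 0 →
    Submodule.span (MonoidAlgebra k G) {d} = ⊤ → p ∣ n := by
  classical
  intro n
  induction n using Nat.strong_induction_on with
  | _ n ih =>
  intro V _ _ _ _ _ d hn hd hs hspan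
  rcases subsingleton_or_nontrivial V with hV | hV
  · rw [← hn, Module.finrank_zero_of_subsingleton]
    exact dvd_zero _
  haveI : Module.Finite (MonoidAlgebra k G) V := ⟨⟨{d}, by rw [Finset.coe_singleton]; exact hspan⟩⟩
  obtain ⟨W, hW⟩ : ∃ W : Submodule (MonoidAlgebra k G) V, IsCoatom W := by
    obtain ⟨W, hW, -⟩ := (eq_top_or_exists_le_coatom (⊥ : Submodule (MonoidAlgebra k G) V)).resolve_left bot_ne_top
    exact ⟨W, hW⟩
  haveI hsimp : IsSimpleModule (MonoidAlgebra k G) (V ⧸ W) := isSimpleModule_iff_isCoatom.2 hW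
  let f : V →ₗ[MonoidAlgebra k G] V ⧸ W := W.mkQ
  have hf : ∀ g v, f (rp (k := k) (G := G) V g v) = rp (k := k) (G := G) (V ⧸ W) g (f v) := fun g v => f.map_smul _ _
  have hdW : f d ≠ 0 := by
    intro h
    have h1 : d ∈ W := (Submodule.Quotient.mk_eq_zero W).1 h
    apply hW.1
    rw [eq_top_iff, ← hspan, Submodule.span_singleton_le_iff_mem]
    exact h1
  have hirr : ∀ t : V ⧸ W, t ≠ 0 → Submodule.span k (Set.range fun g => rp (k := k) (G := G) (V ⧸ W) g t) = ⊤ := by
    intro t ht
    rw [eq_top_iff]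
    intro v _
    have h1 : v ∈ Submodule.span (MonoidAlgebra k G) {t} := by
      have h2 : Submodule.span (MonoidAlgebra k G) {t} = ⊤ := by
        rcases eq_bot_or_eq_top (Submodule.span (MonoidAlgebra k G) {t}) with h3 | h3
        · exact absurd (Submodule.span_singleton_eq_bot.1 h3) ht
        · exact h3
      rw [h2]; trivial
    obtain ⟨a, rfl⟩ := Submodule.mem_span_singleton.1 h1
    induction a using MonoidAlgebra.induction_on with
    | of g => exact Submodule.subset_span ⟨g, rfl⟩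
    | add a b ha hb =>
      rw [add_smul]
      exact Submodule.add_mem _ (ha trivial (Submodule.smul_mem _ _ (Submodule.mem_span_singleton_self t)))
        (hb trivial (Submodule.smul_mem _ _ (Submodule.mem_span_singleton_self t)))
    | smul r a ha =>
      rw [smul_assoc]
      exact Submodule.smul_mem _ _ (ha trivial (Submodule.smul_mem _ _ (Submodule.mem_span_singleton_self t)))
  obtain ⟨η, hη⟩ := simple_higman (rp (k := k) (G := G) (V ⧸ W)) D C hirr hdW (by
    intro m hm
    rw [← hf, hd m hm]) (by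
    rw [Finset.sum_congr rfl fun q _ => (hf q.out d).symm, ← map_sum, hs, map_zero])
  have hpd : p ∣ finrank k (V ⧸ W) := by
    have h1 : LinearMap.trace k (V ⧸ W) (LinearMap.id) = 0 := by
      rw [← hη, map_sum]
      have h2 : ∀ y : P, LinearMap.trace k (V ⧸ W) (rp (k := k) (G := G) (V ⧸ W) y ∘ₗ η ∘ₗ
          rp (k := k) (G := G) (V ⧸ W) ((y⁻¹ : P) : G)) = LinearMap.trace k (V ⧸ W) η := by
        intro y
        have h3 := LinearMap.trace_mul_comm k (rp (k := k) (G := G) (V ⧸ W) y)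
          (η ∘ₗ rp (k := k) (G := G) (V ⧸ W) ((y⁻¹ : P) : G))
        refine h3.trans ?_
        change LinearMap.trace k (V ⧸ W) (η * rp (k := k) (G := G) (V ⧸ W) ((y⁻¹ : P) : G) *
          rp (k := k) (G := G) (V ⧸ W) y) = _
        rw [mul_assoc, ← map_mul, Subgroup.coe_inv, inv_mul_cancel, map_one, mul_one]
      rw [Finset.sum_congr rfl fun y _ => by rw [h2 y], Finset.sum_const, Finset.card_univ, ← Nat.card_eq_fintype_card,
        D.cardP, nsmul_eq_mul, CharP.cast_eq_zero, zero_mul]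
    rw [LinearMap.trace_id, CharP.cast_eq_zero_iff k p] at h1
    exact h1
  -- the section
  haveI : Fintype (G ⧸ P) := Fintype.ofFinite _
  have hPi : (Fintype.card (G ⧸ P) : k) ≠ 0 := by
    rw [Ne, CharP.cast_eq_zero_iff k p, ← Nat.card_eq_fintype_card]
    exact D.pG
  obtain ⟨s₀, hs₀⟩ := (f.restrictScalars k).exists_rightInverse_of_surjective
    (LinearMap.range_eq_top.2 W.mkQ_surjective)
  let s₁ : (V ⧸ W) →ₗ[MonoidAlgebra k G] V := LinearMap.sumOfConjugatesEquivariant G (s₀ ∘ₗ η)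
  have hs₁ : ∀ u, f (s₁ u) = (Fintype.card (G ⧸ P) : k) • u := by
    intro u
    rw [LinearMap.sumOfConjugatesEquivariant_apply, map_sum]
    have h1 : ∀ g : G, f ((s₀ ∘ₗ η).conjugate g u) =
        rp (k := k) (G := G) (V ⧸ W) g⁻¹ (η (rp (k := k) (G := G) (V ⧸ W) g u)) := by
      intro g
      rw [LinearMap.conjugate_apply]
      have h2 := hf g⁻¹ (s₀ (η (MonoidAlgebra.single g (1 : k) • u)))
      refine h2.trans ?_
      congr 1
      exact LinearMap.congr_fun hs₀ _
    rw [Finset.sum_congr rfl fun g _ => h1 g]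
    rw [← Equiv.sum_comp (Equiv.inv G), sum_GP P]
    have h3 : ∀ q : G ⧸ P, ∑ y : P, rp (k := k) (G := G) (V ⧸ W)
        ((Equiv.inv G) (q.out * (y : G)))⁻¹
        (η (rp (k := k) (G := G) (V ⧸ W) ((Equiv.inv G) (q.out * (y : G))) u)) = u := by
      intro q
      have h4 : ∀ y : P, rp (k := k) (G := G) (V ⧸ W)
        ((Equiv.inv G) (q.out * (y : G)))⁻¹
        (η (rp (k := k) (G := G) (V ⧸ W) ((Equiv.inv G) (q.out * (y : G))) u)) =
        rp (k := k) (G := G) (V ⧸ W) q.out ((rp (k := k) (G := G) (V ⧸ W) y ∘ₗ η ∘ₗ rp (k := k) (G := G) (V ⧸ W) ((y⁻¹ : P) : G))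
          (rp (k := k) (G := G) (V ⧸ W) q.out⁻¹ u)) := by
        intro y
        have h5 : (Equiv.inv G) (q.out * (y : G)) = (y : G)⁻¹ * q.out⁻¹ := by
          rw [← mul_inv_rev]; rfl
        rw [h5, mul_inv_rev, inv_inv, inv_inv, map_mul, map_mul, Subgroup.coe_inv]
        rfl
      rw [Finset.sum_congr rfl fun y _ => h4 y, ← map_sum, ← LinearMap.sum_apply, hη]
      change (rp (k := k) (G := G) (V ⧸ W) q.out * rp (k := k) (G := G) (V ⧸ W) q.out⁻¹) u = u
      rw [← map_mul, mul_inv_cancel, map_one]; rfl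
    rw [Finset.sum_congr rfl fun q _ => h3 q, Finset.sum_const, Finset.card_univ, ← Nat.cast_smul_eq_nsmul k]
  let s : (V ⧸ W) →ₗ[MonoidAlgebra k G] V := (Fintype.card (G ⧸ P) : k)⁻¹ • s₁
  have hs' : ∀ u, f (s u) = u := by
    intro u
    have h1 : s u = (Fintype.card (G ⧸ P) : k)⁻¹ • s₁ u := rfl
    have h2 : f ((Fintype.card (G ⧸ P) : k)⁻¹ • s₁ u) = (Fintype.card (G ⧸ P) : k)⁻¹ • f (s₁ u) :=
      (f.restrictScalars k).map_smul _ _
    rw [h1, h2, hs₁, smul_smul, inv_mul_cancel₀ hPi, one_smul]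
  have hker : ∀ v, v ∈ W ↔ f v = 0 := fun v => (Submodule.Quotient.mk_eq_zero W).symm
  let r : V →ₗ[MonoidAlgebra k G] W := (LinearMap.id - s ∘ₗ f).codRestrict W (by
    intro v
    rw [hker, LinearMap.sub_apply, map_sub, LinearMap.comp_apply, hs', LinearMap.id_apply, sub_self])
  have hr : ∀ v, (r v : V) = v - s (f v) := fun v => rfl
  let e : V ≃ₗ[k] W × (V ⧸ W) :=
    { toFun := fun v => (r v, f v)
      map_add' := fun a b => by rw [map_add, map_add]; rfl
      map_smul' := fun c a => by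
        have h1 := (r.restrictScalars k).map_smul c a
        have h2 := (f.restrictScalars k).map_smul c a
        exact Prod.ext h1 h2
      invFun := fun q => (q.1 : V) + s q.2
      left_inv := fun v => by
        change (r v : V) + s (f v) = v
        rw [hr, sub_add_cancel]
      right_inv := fun q => by
        have h1 : f ((q.1 : V) + s q.2) = q.2 := by
          rw [map_add, (hker _).1 q.1.2, hs', zero_add]
        refine Prod.ext (Subtype.ext ?_) h1
        change (r ((q.1 : V) + s q.2) : V) = q.1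
        rw [hr, h1, add_sub_cancel_right] }
  haveI : Module.Finite k W := Module.Finite.of_surjective (r.restrictScalars k) (by
    intro w
    refine ⟨w, Subtype.ext ?_⟩
    change (r w : V) = w
    rw [hr, (hker _).1 w.2, map_zero, sub_zero])
  have hfin : finrank k V = finrank k W + finrank k (V ⧸ W) := by
    rw [e.finrank_eq, Module.finrank_prod]
  haveI : Nontrivial (V ⧸ W) := ⟨⟨f d, 0, hdW⟩⟩
  have hlt : finrank k W < n := by
    have := Module.finrank_pos (R := k) (M := V ⧸ W)
    omega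
  have hrg : ∀ g v, r (rp (k := k) (G := G) V g v) = rp (k := k) (G := G) W g (r v) := fun g v => r.map_smul _ _
  have hW' := ih _ hlt W (r d) rfl (by
    intro m hm
    rw [← hrg, hd m hm]) (by
    rw [Finset.sum_congr rfl fun q _ => (hrg q.out d).symm, ← map_sum, hs, map_zero]) (by
    rw [eq_top_iff]
    intro w _
    have h1 : (w : V) ∈ Submodule.span (MonoidAlgebra k G) {d} := by rw [hspan]; trivial
    obtain ⟨a, ha⟩ := Submodule.mem_span_singleton.1 h1
    have h2 : w = a • r d := by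
      rw [← r.map_smul, ha]
      refine Subtype.ext ?_
      rw [hr, (hker _).1 w.2, map_zero, sub_zero]
    rw [h2]
    exact Submodule.smul_mem _ _ (Submodule.mem_span_singleton_self _))
  rw [← hn, hfin]
  exact dvd_add hW' hpd

end module

end Cfsg.Agent.Lib.H15TateC
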