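import Mathlib

set_option autoImplicit false
set_option linter.all false

/-!
# A valuation subring of `ℂ` above a prime `p`
-/

namespace Cfsg.Agent.Lib.H15Val

open IsLocalRing

theorem exists_val (p : ℕ) [hp : Fact p.Prime] :
    ∃ O : ValuationSubring ℂ, (∀ z : ℂ, IsIntegral ℤ z → z ∈ O) ∧ (p : O) ∈ maximalIdeal O := by
  let A : Subring ℂ := (Int.castRingHom ℂ).range
  let φ : ℤ →+* A := (Int.castRingHom ℂ).rangeRestrict
  have hφ : Function.Bijective φ :=
    ⟨fun a b h => by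
      have h1 : ((a : ℤ) : ℂ) = b := congrArg Subtype.val h
      exact_mod_cast h1, (Int.castRingHom ℂ).rangeRestrict_surjective⟩
  let e : ℤ ≃+* A := RingEquiv.ofBijective φ hφ
  let P : Ideal A := Ideal.comap (e.symm : A →+* ℤ) (Ideal.span {(p : ℤ)})
  haveI hP0 : (Ideal.span {(p : ℤ)}).IsPrime := by
    rw [Ideal.span_singleton_prime (by exact_mod_cast hp.out.ne_zero)]
    exact Nat.prime_iff_prime_int.1 hp.out
  haveI hP : P.IsPrime := Ideal.comap_isPrime _ _
  have hpP : (p : A) ∈ P := by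
    change e.symm (p : A) ∈ Ideal.span {(p : ℤ)}
    rw [map_natCast]
    exact Ideal.mem_span_singleton_self _
  let L := LocalSubring.ofPrime A P
  obtain ⟨O, hO⟩ := L.exists_le_valuationSubring
  refine ⟨O, ?_, ?_⟩
  · intro z hz
    have h1 : IsIntegral O z := hz.tower_top
    obtain ⟨y, hy⟩ := IsIntegrallyClosed.isIntegral_iff.1 h1
    rw [← hy]
    exact y.2
  · rw [mem_maximalIdeal, mem_nonunits_iff]
    intro hu
    have hpL : (p : L.toSubring) ∈ maximalIdeal L.toSubring := by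
      have h2 := (IsLocalization.AtPrime.to_map_mem_maximal_iff (LocalSubring.ofPrime A P).toSubring P (p : A)).2 hpP
      rwa [map_natCast] at h2
    rw [mem_maximalIdeal, mem_nonunits_iff] at hpL
    apply hpL
    haveI := hO.2
    apply isUnit_of_map_unit (Subring.inclusion hO.1)
    rw [map_natCast]
    exact hu

/-- the ring generated by the `m`-th roots of unity -/
def Rm (m : ℕ) : Subalgebra ℤ ℂ := Algebra.adjoin ℤ {ζ : ℂ | ζ ^ m = 1}

theorem root_mem_Rm {m : ℕ} {ζ : ℂ} (h : ζ ^ m = 1) : ζ ∈ Rm m := Algebra.subset_adjoin h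

theorem Rm_integral {m : ℕ} (hm : 0 < m) {z : ℂ} (hz : z ∈ Rm m) : IsIntegral ℤ z := by
  have h1 : Rm m ≤ integralClosure ℤ ℂ := by
    rw [Rm, Algebra.adjoin_le_iff]
    intro ζ hζ
    exact IsIntegral.of_pow hm (by rw [hζ]; exact isIntegral_one)
  exact h1 hz

theorem frob_Rm {p m f : ℕ} [hp : Fact p.Prime] (hf : p ^ f ≡ 1 [MOD m]) {z : ℂ} (hz : z ∈ Rm m) :
    ∃ y ∈ Rm m, z ^ (p ^ f) = z + p * y := by
  have key : ∀ (z : ℂ) (_ : z ∈ Algebra.adjoin ℤ {ζ : ℂ | ζ ^ m = 1}), ∃ y ∈ Rm m, z ^ (p ^ f) = z + p * y := by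
    intro z hz
    induction hz using Algebra.adjoin_induction with
    | mem ζ hζ =>
      refine ⟨0, Subalgebra.zero_mem _, ?_⟩
      rw [mul_zero, add_zero]
      have h1 : ζ ^ m = 1 := hζ
      have h2 := pow_eq_pow_of_modEq hf h1
      rw [h2, pow_one]
    | algebraMap n =>
      obtain ⟨c, hc⟩ : (p : ℤ) ∣ n ^ (p ^ f) - n := by
        rw [← ZMod.intCast_zmod_eq_zero_iff_dvd] 
        push_cast
        rw [ZMod.pow_card_pow, sub_self]
      refine ⟨algebraMap ℤ ℂ c, Subalgebra.algebraMap_mem _ _, ?_⟩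
      have h2 : ((n ^ (p ^ f) - n : ℤ) : ℂ) = ((p * c : ℤ) : ℂ) := by rw [hc]
      push_cast at h2
      change ((n : ℤ) : ℂ) ^ (p ^ f) = ((n : ℤ) : ℂ) + p * ((c : ℤ) : ℂ)
      linear_combination h2
    | add x y hx hy ihx ihy =>
      obtain ⟨a, ha, ha'⟩ := ihx
      obtain ⟨b, hb, hb'⟩ := ihy
      have hxR : (x : ℂ) ∈ Rm m := hx
      have hyR : (y : ℂ) ∈ Rm m := hy
      obtain ⟨r, hr⟩ := exists_add_pow_prime_pow_eq hp.out (⟨x, hxR⟩ : Rm m) ⟨y, hyR⟩ f
      have hr' := congrArg (Subtype.val) hr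
      push_cast at hr'
      refine ⟨a + b + (x * y * r), ?_, ?_⟩
      · exact Subalgebra.add_mem _ (Subalgebra.add_mem _ ha hb)
          (Subalgebra.mul_mem _ (Subalgebra.mul_mem _ hxR hyR) r.2)
      · skip
        rw [hr', ha', hb']
        push_cast
        ring
    | mul x y hx hy ihx ihy =>
      obtain ⟨a, ha, ha'⟩ := ihx
      obtain ⟨b, hb, hb'⟩ := ihy
      have hxR : (x : ℂ) ∈ Rm m := hx
      have hyR : (y : ℂ) ∈ Rm m := hy
      refine ⟨x * b + a * y + p * (a * b), ?_, ?_⟩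
      · exact Subalgebra.add_mem _ (Subalgebra.add_mem _ (Subalgebra.mul_mem _ hxR hb) (Subalgebra.mul_mem _ ha hyR))
          (Subalgebra.mul_mem _ (Subalgebra.natCast_mem _ p) (Subalgebra.mul_mem _ ha hb))
      · rw [mul_pow, ha', hb']; ring
  exact key z hz

/-- unramifiedness -/
theorem exists_eq_mul {p : ℕ} [hp : Fact p.Prime] {O : ValuationSubring ℂ} (hO : ∀ z : ℂ, IsIntegral ℤ z → z ∈ O)
    {m : ℕ} (hm : 0 < m) (hpm : p.Coprime m) {z : O} (hz : (z : ℂ) ∈ Rm m) (hz' : z ∈ maximalIdeal O) :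
    ∃ y : O, z = p * y := by
  have hf := Nat.ModEq.pow_totient hpm
  obtain ⟨y, hy, hy'⟩ := frob_Rm (p := p) hf hz
  have hq : p ^ m.totient = (p ^ m.totient - 1) + 1 := by
    have := pow_pos hp.out.pos m.totient
    omega
  have hq1 : p ^ m.totient - 1 ≠ 0 := by
    have h1 : 1 < p ^ m.totient := Nat.one_lt_pow (Nat.totient_pos.2 hm).ne' hp.out.one_lt
    omega
  let yO : O := ⟨y, hO y (Rm_integral hm hy)⟩
  have h1 : z ^ (p ^ m.totient) = z + p * yO := by
    apply Subtype.ext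
    push_cast
    exact hy'
  have hs : IsUnit (z ^ (p ^ m.totient - 1) - 1) := by
    by_contra hcon
    have h2 : z ^ (p ^ m.totient - 1) - 1 ∈ maximalIdeal O := (mem_maximalIdeal _).2 hcon
    have h3 : z ^ (p ^ m.totient - 1) ∈ maximalIdeal O := Ideal.pow_mem_of_mem _ hz' _ (Nat.pos_of_ne_zero hq1)
    have h4 : (1 : O) ∈ maximalIdeal O := by
      have := Ideal.sub_mem _ h3 h2
      rwa [sub_sub_cancel] at this
    exact (Ideal.ne_top_iff_one _).1 (IsLocalRing.maximalIdeal.isMaximal O).ne_top h4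
  obtain ⟨s, hs⟩ := hs
  refine ⟨(s⁻¹ : Oˣ) * yO, ?_⟩
  have h2 : (s : O) * z = p * yO := by
    rw [hs, sub_mul, one_mul, ← pow_succ, ← hq, h1]; ring
  calc z = (s⁻¹ : Oˣ) * ((s : O) * z) := by rw [← mul_assoc, Units.inv_mul, one_mul]
    _ = p * ((s⁻¹ : Oˣ) * yO) := by rw [h2]; ring

end Cfsg.Agent.Lib.H15Val
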