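import Cfsg.Agent.Lib.H15TateC
import Cfsg.Agent.Lib.H15Val
import Cfsg.Agent.Lib.H15Lat

set_option autoImplicit false
set_option linter.all false

/-!
# Modules over groups with a self-centralizing Sylow subgroup of order `p`, part 4: small modules
-/

namespace Cfsg.Agent.Lib.H15TateD

open Module Cfsg.Agent.Lib.H15Tate Cfsg.Agent.Lib.H15TateG Cfsg.Agent.Lib.H15TateC

universe u v

section dich

variable {k : Type} [Field k] {G : Type u} [Group G] [Fintype G] {V : Type v} [AddCommGroup V] [Module k V]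
  (ρ : Representation k G V)
  {p : ℕ} [hp : Fact p.Prime] [CharP k p] {P N E : Subgroup G} {x : G} (D : Dat p P N E x)
  [Fintype P] [Fintype N] [Fintype E]

/-- the weighted trace -/
def U (μ : E → k) : V →ₗ[k] V := ∑ h : E, μ h • (ρ h ∘ₗ ∑ y : P, ρ y)

variable (P) in
theorem U_apply (μ : E → k) (v : V) : U (P := P) ρ μ v = ∑ h : E, μ h • ρ h (∑ y : P, ρ y v) := by
  rw [U, LinearMap.sum_apply]
  refine Finset.sum_congr rfl fun h _ => ?_
  rw [LinearMap.smul_apply, LinearMap.comp_apply, LinearMap.sum_apply]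

include D in
/-- `E` commutes with the trace of `P` -/
theorem tr_comm (h : E) (v : V) : ρ h (∑ y : P, ρ y v) = ∑ y : P, ρ y (ρ h v) := by
  rw [map_sum]
  have hmem : ∀ y : P, (h : G) * y * (h : G)⁻¹ ∈ P := fun y => D.norm h (D.EN h.2) y y.2
  refine Fintype.sum_bijective (fun y : P => (⟨(h : G) * y * (h : G)⁻¹, hmem y⟩ : P)) ⟨?_, ?_⟩ _ _ ?_
  · intro a b hab
    have h1 : (h : G) * a * (h : G)⁻¹ = h * b * (h : G)⁻¹ := congrArg Subtype.val hab
    exact Subtype.ext (mul_left_cancel (mul_right_cancel h1))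
  · intro b
    have h2 := D.norm (h : G)⁻¹ (N.inv_mem (D.EN h.2)) b b.2
    rw [inv_inv] at h2
    refine ⟨⟨(h : G)⁻¹ * b * h, h2⟩, Subtype.ext ?_⟩
    change (h : G) * ((h : G)⁻¹ * b * h) * (h : G)⁻¹ = b
    group
  · intro y
    change (ρ h * ρ y) v = (ρ (h * y * (h : G)⁻¹) * ρ h) v
    rw [← map_mul, ← map_mul, inv_mul_cancel_right]

include D in
theorem U_eq (μ : E → k) (v : V) : U (P := P) ρ μ v = ∑ y : P, ρ y (∑ h : E, μ h • ρ h v) := by
  rw [U_apply, Finset.sum_congr rfl fun h _ => by rw [tr_comm ρ D], Finset.sum_congr rfl fun h _ => Finset.smul_sum,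
    Finset.sum_comm]
  refine Finset.sum_congr rfl fun y _ => ?_
  rw [map_sum]
  exact Finset.sum_congr rfl fun h _ => (map_smul _ _ _).symm

theorem U_eig {μ : E → k} (hm : ∀ a b, μ (a * b) = μ a * μ b) (h₀ : E) (v : V) :
    μ h₀ • ρ h₀ (U (P := P) ρ μ v) = U (P := P) ρ μ v := by
  rw [U_apply, map_sum, Finset.smul_sum]
  refine Fintype.sum_equiv (Equiv.mulLeft h₀) _ _ fun h => ?_
  rw [map_smul, smul_smul, ← hm, Equiv.coe_mulLeft, Subgroup.coe_mul, map_mul]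
  rfl

include D in
theorem U_or [FiniteDimensional k V] {μ₁ μ₂ : E → k} (hm₁ : ∀ a b, μ₁ (a * b) = μ₁ a * μ₁ b)
    (hm₂ : ∀ a b, μ₂ (a * b) = μ₂ a * μ₂ b) {h₀ : E} (hne : μ₁ h₀ ≠ μ₂ h₀) (hdim : finrank k V < 2 * p) :
    U (P := P) ρ μ₁ = 0 ∨ U (P := P) ρ μ₂ = 0 := by
  by_contra hcon
  push Not at hcon
  obtain ⟨h1, h2⟩ := hcon
  obtain ⟨v₁, hv₁⟩ : ∃ v, U (P := P) ρ μ₁ v ≠ 0 := by
    by_contra hc
    push Not at hc
    exact h1 (LinearMap.ext hc)
  obtain ⟨v₂, hv₂⟩ : ∃ v, U (P := P) ρ μ₂ v ≠ 0 := by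
    by_contra hc
    push Not at hc
    exact h2 (LinearMap.ext hc)
  set w₁ := U (P := P) ρ μ₁ v₁ with hw₁
  set w₂ := U (P := P) ρ μ₂ v₂ with hw₂
  let s : (Fin 2 → k) →ₗ[k] V :=
    (LinearMap.toSpanSingleton k V (∑ h : E, μ₁ h • ρ h v₁)).comp (LinearMap.proj 0) +
      (LinearMap.toSpanSingleton k V (∑ h : E, μ₂ h • ρ h v₂)).comp (LinearMap.proj 1)
  have hs : ∀ c : Fin 2 → k, ∑ y : P, ρ y (s c) = c 0 • w₁ + c 1 • w₂ := by
    intro c
    have h3 : ∀ y : P, ρ y (s c) = c 0 • ρ y (∑ h : E, μ₁ h • ρ h v₁) + c 1 • ρ y (∑ h : E, μ₂ h • ρ h v₂) := by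
      intro y
      change ρ y (c 0 • _ + c 1 • _) = _
      rw [map_add, map_smul, map_smul]
    rw [Finset.sum_congr rfl fun y _ => h3 y, Finset.sum_add_distrib, ← Finset.smul_sum, ← Finset.smul_sum,
      ← U_eq ρ D, ← U_eq ρ D]
  have h4 := le_finrank (p := p) (hxP D) (by rw [← Nat.card_eq_fintype_card, D.cardP]) (ρ.comp P.subtype) s (by
    intro c hc
    have h5 : c 0 • w₁ + c 1 • w₂ = 0 := by rw [← hs]; exact hc
    have e1 : μ₁ h₀ • ρ h₀ w₁ = w₁ := U_eig ρ hm₁ h₀ v₁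
    have e2 : μ₂ h₀ • ρ h₀ w₂ = w₂ := U_eig ρ hm₂ h₀ v₂
    have h6 := congrArg (ρ h₀) h5
    rw [map_add, map_smul, map_smul, map_zero] at h6
    have h7 : c 0 • μ₂ h₀ • w₁ + c 1 • μ₁ h₀ • w₂ = 0 := by
      have h8 := congrArg (fun z => (μ₁ h₀ * μ₂ h₀) • z) h6
      simp only [smul_add, smul_zero] at h8
      rw [← h8]
      congr 1
      · conv_lhs => rw [← e1]
        rw [smul_smul, smul_smul, smul_smul]
        congr 1; ring
      · conv_lhs => rw [← e2]
        rw [smul_smul, smul_smul, smul_smul]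
        congr 1; ring
    have h9 : ((μ₁ h₀ - μ₂ h₀) * c 0) • w₁ = 0 := by
      have h10 : ((μ₁ h₀ - μ₂ h₀) * c 0) • w₁ = μ₁ h₀ • (c 0 • w₁ + c 1 • w₂) -
          (c 0 • μ₂ h₀ • w₁ + c 1 • μ₁ h₀ • w₂) := by
        simp only [smul_add, smul_smul, sub_mul, sub_smul]
        rw [mul_comm (c 0) (μ₂ h₀), mul_comm (c 1) (μ₁ h₀)]
        abel
      rw [h10, h5, h7, smul_zero, sub_zero]
    have h11 : c 0 = 0 := by
      rcases smul_eq_zero.1 h9 with h | h
      · exact (mul_eq_zero.1 h).resolve_left (sub_ne_zero.2 hne)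
      · exact absurd h hv₁
    have h12 : c 1 = 0 := by
      rw [h11, zero_smul, zero_add] at h5
      exact (smul_eq_zero.1 h5).resolve_right hv₂
    funext i
    fin_cases i
    · exact h11
    · exact h12)
  rw [Module.finrank_fin_fun] at h4
  omega

/-- the dichotomy for character sums -/
theorem sum_char_of_U [FiniteDimensional k V] {μ : E → k} (hU : U (P := P) ρ μ = 0) (g : G) :
    ∑ h : E, μ h * ∑ y : P, LinearMap.trace k V (ρ (g * h * y)) = 0 := by
  have h1 : LinearMap.trace k V (ρ g * U (P := P) ρ μ) = 0 := by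
    rw [hU, mul_zero, map_zero]
  have h2 : ρ g * U (P := P) ρ μ = ∑ h : E, μ h • ∑ y : P, ρ (g * h * y) := by
    rw [U, Finset.mul_sum]
    refine Finset.sum_congr rfl fun h _ => ?_
    rw [mul_smul_comm]
    congr 1
    change ρ g * (ρ h * ∑ y : P, ρ y) = _
    rw [Finset.mul_sum, Finset.mul_sum]
    refine Finset.sum_congr rfl fun y _ => ?_
    rw [map_mul, map_mul, mul_assoc]
  rw [← h1, h2, map_sum]
  refine Finset.sum_congr rfl fun h _ => ?_
  rw [map_smul, map_sum, smul_eq_mul]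

end dich

end Cfsg.Agent.Lib.H15TateD
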