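import Cfsg.Agent.Lib.H15Tate

set_option autoImplicit false
set_option linter.all false

/-!
# Modules over groups with a self-centralizing Sylow subgroup of order `p`, characteristic `p`, part 2
-/

namespace Cfsg.Agent.Lib.H15TateG

open Module Cfsg.Agent.Lib.H15Tate

universe u v

/-- local data -/
structure Dat {G : Type u} [Group G] (p : ℕ) (P N E : Subgroup G) (x : G) : Prop where
  gen : Subgroup.zpowers x = P
  cardP : Nat.card P = p
  PN : P ≤ N
  EN : E ≤ N
  dec : ∀ n ∈ N, ∃ h ∈ E, ∃ y ∈ P, n = h * y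
  dec' : ∀ h ∈ E, h ∈ P → h = 1
  norm : ∀ n ∈ N, ∀ y ∈ P, n * y * n⁻¹ ∈ P
  free : ∀ g, ∀ y ∈ P, y ≠ 1 → g⁻¹ * y * g ∈ N → g ∈ N
  pe : ¬ p ∣ Nat.card E
  pG : ¬ p ∣ P.index

section sums

variable {G : Type u} [Group G] [Fintype G] {p : ℕ} {P N E : Subgroup G} {x : G} (D : Dat p P N E x)
variable [Fintype P] [Fintype N] [Fintype E]

include D in
theorem sum_N {M : Type*} [AddCommMonoid M] (f : G → M) : ∑ n : N, f n = ∑ h : E, ∑ y : P, f (h * y) := by
  classical
  rw [← Fintype.sum_prod_type']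
  symm
  refine Fintype.sum_bijective (fun q : E × P => (⟨q.1 * q.2, N.mul_mem (D.EN q.1.2) (D.PN q.2.2)⟩ : N)) ⟨?_, ?_⟩ _ _
    fun q => rfl
  · rintro ⟨h, y⟩ ⟨h', y'⟩ hh
    have h1 : (h : G) * y = h' * y' := congrArg Subtype.val hh
    have h2 : (h' : G)⁻¹ * h = y' * (y : G)⁻¹ := by
      rw [inv_mul_eq_iff_eq_mul, ← mul_assoc, ← h1, mul_inv_cancel_right]
    have h3 := D.dec' _ (E.mul_mem (E.inv_mem h'.2) h.2) (by rw [h2]; exact P.mul_mem y'.2 (P.inv_mem y.2))
    have h4 : (h : G) = h' := by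
      rw [inv_mul_eq_one] at h3; exact h3.symm
    have h5 : (y : G) = y' := by
      rw [h4] at h1; exact mul_left_cancel h1
    exact Prod.ext (Subtype.ext h4) (Subtype.ext h5)
  · rintro ⟨n, hn⟩
    obtain ⟨h, hh, y, hy, rfl⟩ := D.dec n hn
    exact ⟨(⟨h, hh⟩, ⟨y, hy⟩), rfl⟩

include D in
theorem hxP : ∀ y : P, y ∈ Subgroup.zpowers (⟨x, by rw [← D.gen]; exact Subgroup.mem_zpowers x⟩ : P) := by
  rintro ⟨y, hy⟩
  rw [← D.gen] at hy
  obtain ⟨n, hn⟩ := Subgroup.mem_zpowers_iff.1 hy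
  exact Subgroup.mem_zpowers_iff.2 ⟨n, Subtype.ext (by push_cast; exact hn)⟩

end sums

section rep

variable {k : Type*} [Field k] {G : Type u} [Group G] [Fintype G] {V : Type v} [AddCommGroup V] [Module k V]
  (ρ : Representation k G V)

/-- sum of an equivariant function over a set with a free action outside one point -/
theorem sum_orbits {P : Subgroup G} [Fintype P] {X : Type*} [Fintype X] [MulAction P X] {q₀ : X}
    (h0 : ∀ y : P, y • q₀ = q₀) (hfree : ∀ y : P, y ≠ 1 → ∀ q : X, q ≠ q₀ → y • q ≠ q)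
    (F : X → V) (hF : ∀ (y : P) q, F (y • q) = ρ y (F q)) :
    ∃ w, ∑ q, F q = F q₀ + ∑ y : P, ρ y w := by
  classical
  let X' : SubMulAction P X :=
    { carrier := {q | q ≠ q₀}
      smul_mem' := by
        intro y q hq h
        apply hq
        have h1 : y⁻¹ • (y • q) = y⁻¹ • q₀ := by rw [show y • q = q₀ from h]
        rwa [inv_smul_smul, h0] at h1 }
  haveI : Fintype X' := Fintype.ofFinite _
  let Ω := MulAction.orbitRel.Quotient P X'
  haveI : Fintype Ω := Fintype.ofFinite _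
  let out : Ω → X' := Quotient.out
  have hbij : Function.Bijective (fun z : Ω × P => z.2 • out z.1) := by
    constructor
    · rintro ⟨o, y⟩ ⟨o', y'⟩ h
      have h1 : y • out o = y' • out o' := h
      have h2 : o = o' := by
        rw [← Quotient.out_eq o, ← Quotient.out_eq o']
        apply Quotient.sound
        change out o ∈ MulAction.orbit P (out o')
        refine ⟨y⁻¹ * y', ?_⟩
        change (y⁻¹ * y') • out o' = out o
        rw [mul_smul, ← h1, inv_smul_smul]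
      subst h2
      by_contra hcon
      have hy : y ≠ y' := fun hy => hcon (by rw [hy])
      have h3 : (y'⁻¹ * y) • ((out o : X') : X) = (out o : X') := by
        have h4 : (y'⁻¹ * y) • out o = out o := by rw [mul_smul, h1, inv_smul_smul]
        exact congrArg Subtype.val h4
      exact hfree (y'⁻¹ * y) (fun h => hy (by rw [inv_mul_eq_one] at h; exact h.symm)) _ (out o).2 h3
    · intro q
      have h1 : out (Quotient.mk _ q) ∈ MulAction.orbit P q :=
        MulAction.orbitRel_apply.1 (Quotient.exact (Quotient.out_eq (Quotient.mk _ q)))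
      obtain ⟨y, hy⟩ := h1
      refine ⟨(Quotient.mk _ q, y⁻¹), ?_⟩
      change y⁻¹ • out _ = q
      rw [← hy]
      exact inv_smul_smul y q
  refine ⟨∑ o : Ω, F (out o : X'), ?_⟩
  have h1 : ∑ q, F q = F q₀ + ∑ q : X', F q := by
    rw [← Finset.add_sum_erase _ _ (Finset.mem_univ q₀)]
    congr 1
    refine (Finset.sum_subtype _ ?_ _)
    intro q
    rw [Finset.mem_erase]
    exact ⟨fun h => h.1, fun h => ⟨h, Finset.mem_univ _⟩⟩
  rw [h1]
  congr 1
  rw [← Fintype.sum_bijective _ hbij (fun z : Ω × P => F ((z.2 • out z.1 : X') : X)) _ (fun _ => rfl),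
    Fintype.sum_prod_type, Finset.sum_comm]
  refine Finset.sum_congr rfl fun y _ => ?_
  rw [map_sum]
  refine Finset.sum_congr rfl fun o _ => ?_
  exact hF y (out o : X')

variable {p : ℕ} {P N E : Subgroup G} {x : G} (D : Dat p P N E x) [Fintype P] [Fintype N] [Fintype E] [Fintype (G ⧸ N)]

include D in
theorem sum_cosets (F : G → V) (hN : ∀ g, ∀ n ∈ N, F (g * n) = F g) (hP : ∀ y ∈ P, ∀ g, F (y * g) = ρ y (F g)) :
    ∃ w, ∑ q : G ⧸ N, F q.out = F 1 + ∑ y : P, ρ y w := by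
  classical
  have hout : ∀ g : G, F (g : G ⧸ N).out = F g := by
    intro g
    obtain ⟨n, hn⟩ := QuotientGroup.mk_out_eq_mul N g
    rw [hn, hN _ _ n.2]
  obtain ⟨w, hw⟩ := sum_orbits (P := P) ρ (X := G ⧸ N) (q₀ := ((1 : G) : G ⧸ N)) (by
      intro y
      change (((y : G) * 1 : G) : G ⧸ N) = _
      rw [QuotientGroup.eq, mul_one, mul_one]
      exact N.inv_mem (D.PN y.2)) (by
      intro y hy q hq hyq
      obtain ⟨g, rfl⟩ := QuotientGroup.mk_surjective q
      apply hq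
      rw [eq_comm, QuotientGroup.eq, inv_one, one_mul]
      have h1 : (((y : G) * g : G) : G ⧸ N) = g := hyq
      rw [eq_comm, QuotientGroup.eq] at h1
      refine D.free g y y.2 (fun h => hy (Subtype.ext h)) ?_
      rwa [mul_assoc]) (fun q => F q.out) (by
      intro y q
      obtain ⟨g, rfl⟩ := QuotientGroup.mk_surjective q
      change F (((y : G) * g : G) : G ⧸ N).out = _
      rw [hout, hout, hP y y.2])
  exact ⟨w, by rw [hw, hout]⟩

include D in
/-- the key lemma -/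
theorem key {d : V} (hd : ∀ y ∈ P, ρ y d = d) (hdT : ∀ w, d ≠ ∑ y : P, ρ y w) {c : G → k} (hc1 : c 1 = 1)
    (hcN : ∀ g, ∀ n ∈ N, c (g * n) • ρ (g * n) d = c g • ρ g d) (hcP : ∀ y ∈ P, ∀ g, c (y * g) = c g)
    (hc0 : ∀ a b : G, ∑ n : N, c (a * n * b) = 0) :
    ∃ t, t ≠ 0 ∧ ∀ g, ∑ n : N, ρ n (ρ g t) = 0 := by
  classical
  let F : G → V := fun g => c g • ρ g d
  have hout : ∀ g : G, F (g : G ⧸ N).out = F g := by
    intro g
    obtain ⟨n, hn⟩ := QuotientGroup.mk_out_eq_mul N g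
    rw [hn]; exact hcN _ _ n.2
  obtain ⟨w, hw⟩ := sum_cosets ρ D F hcN (by
    intro y hy g
    change c (y * g) • ρ (y * g) d = ρ y (c g • ρ g d)
    rw [hcP y hy, map_smul, map_mul]; rfl)
  refine ⟨∑ q : G ⧸ N, F q.out, ?_, ?_⟩
  · intro h
    rw [hw] at h
    apply hdT (-w)
    have h1 : F 1 = d := by
      change c 1 • ρ 1 d = d
      rw [hc1, one_smul, map_one]; rfl
    rw [h1] at h
    rw [eq_neg_of_add_eq_zero_left h, ← Finset.sum_neg_distrib]
    exact Finset.sum_congr rfl fun y _ => by rw [map_neg]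
  · intro g
    have h1 : ∀ n : N, ρ n (ρ g (∑ q : G ⧸ N, F q.out)) =
        ∑ q : G ⧸ N, c (g⁻¹ * (n⁻¹ : N) * q.out) • ρ q.out d := by
      intro n
      rw [map_sum, map_sum]
      refine Fintype.sum_equiv (MulAction.toPerm ((n : G) * g)) _ _ fun q => ?_
      obtain ⟨b, rfl⟩ := QuotientGroup.mk_surjective q
      rw [hout]
      obtain ⟨m, hm⟩ := QuotientGroup.mk_out_eq_mul N (((n : G) * g) * b)
      change ρ n (ρ g (c b • ρ b d)) = c (g⁻¹ * (n⁻¹ : N) * ((((n : G) * g) * b : G) : G ⧸ N).out) •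
        ρ ((((n : G) * g) * b : G) : G ⧸ N).out d
      rw [hm]
      have h2 : g⁻¹ * ((n⁻¹ : N) : G) * ((n : G) * g * b * m) = b * m := by
        push_cast; group
      rw [h2]
      have h3 : ρ ((n : G) * g * b * m) d = ρ n (ρ g (ρ (b * m) d)) := by
        rw [mul_assoc, mul_assoc, map_mul, map_mul]; rfl
      have h5 : c (b * m) • ρ n (ρ g (ρ (b * m) d)) = ρ n (ρ g (c (b * m) • ρ (b * m) d)) := by
        rw [map_smul, map_smul]
      rw [h3, h5, hcN b m m.2]
    rw [Finset.sum_congr rfl fun n _ => h1 n, Finset.sum_comm]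
    refine Finset.sum_eq_zero fun q _ => ?_
    rw [← Finset.sum_smul]
    have h4 : ∑ n : N, c (g⁻¹ * (n⁻¹ : N) * q.out) = 0 := by
      rw [← hc0 g⁻¹ q.out]
      exact Fintype.sum_equiv (Equiv.inv N) _ _ fun n => rfl
    rw [h4, zero_smul]

include D in
theorem trace_of_coset_sum {d : V} (hd : ∀ n ∈ N, ρ n d = d) (hs : ∑ q : G ⧸ N, ρ q.out d = 0)
    (hpe : (Nat.card E : k) ≠ 0) : ∃ w, d = ∑ n : N, ρ n w := by
  classical
  obtain ⟨w, hw⟩ := sum_cosets ρ D (fun g => ρ g d) (by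
    intro g n hn
    rw [map_mul]
    change ρ g (ρ n d) = _
    rw [hd n hn]) (by intro y hy g; rw [map_mul]; rfl)
  rw [hs, map_one] at hw
  have h1 : d = ∑ y : P, ρ y (-w) := by
    have h2 : d + ∑ y : P, ρ y w = 0 := hw.symm
    rw [eq_neg_of_add_eq_zero_left h2, ← Finset.sum_neg_distrib]
    exact Finset.sum_congr rfl fun y _ => by rw [map_neg]
  refine ⟨(Nat.card E : k)⁻¹ • (-w), ?_⟩
  have h3 : ∑ n : N, ρ n (-w) = (Nat.card E : k) • d := by
    rw [sum_N D (fun n => ρ n (-w))]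
    have h4 : ∀ h : E, ∑ y : P, ρ ((h : G) * y) (-w) = d := by
      intro h
      have h5 : ∑ y : P, ρ ((h : G) * y) (-w) = ρ h (∑ y : P, ρ y (-w)) := by
        rw [map_sum]
        exact Finset.sum_congr rfl fun y _ => by rw [map_mul]; rfl
      rw [h5, ← h1, hd _ (D.EN h.2)]
    rw [Finset.sum_congr rfl fun h _ => h4 h, Finset.sum_const, Finset.card_univ, Nat.card_eq_fintype_card,
      ← Nat.cast_smul_eq_nsmul k]
  have h6 : ∑ n : N, ρ n ((Nat.card E : k)⁻¹ • (-w)) = (Nat.card E : k)⁻¹ • ∑ n : N, ρ n (-w) := by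
    rw [Finset.smul_sum]
    exact Finset.sum_congr rfl fun n _ => map_smul _ _ _
  rw [h6, h3, smul_smul, inv_mul_cancel₀ hpe, one_smul]

end rep

end Cfsg.Agent.Lib.H15TateG
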