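import Mathlib

/-!
# Sums over the subspaces of a finite vector space (helper16)
-/

set_option autoImplicit false
set_option linter.all false

namespace Cfsg.Agent.Lib.H16GA

open Module Finset

universe u v w

noncomputable def cc (Q : ℂ) (k : ℕ) : ℂ := if k = 0 then 0 else ∏ i ∈ range (k - 1), (1 - Q ^ (i + 1))

theorem cc_zero (Q : ℂ) : cc Q 0 = 0 := by simp [cc]
theorem cc_succ (Q : ℂ) (k : ℕ) : cc Q (k + 1) = ∏ i ∈ range k, (1 - Q ^ (i + 1)) := by simp [cc]

noncomputable def ps (Q : ℂ) (w : ℕ) : ℂ := ∏ i ∈ range w, (-Q ^ i)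

theorem ps_zero (Q : ℂ) : ps Q 0 = 1 := by simp [ps]
theorem ps_succ (Q : ℂ) (w : ℕ) : ps Q (w + 1) = - Q ^ w * ps Q w := by
  rw [ps, prod_range_succ, mul_comm]; rfl

section

variable {κ : Type u} [Field κ] [Finite κ]

noncomputable scoped instance instFS (κ : Type u) [Semiring κ] (X : Type v) [AddCommMonoid X] [Module κ X] [Finite X] :
    Fintype (Submodule κ X) := Fintype.ofFinite _

section fst

variable {Y : Type v} [AddCommGroup Y] [Module κ Y] [Finite Y]

theorem fr_mem (W : Submodule κ (Y × κ)) (h : ((0 : Y), (1 : κ)) ∈ W) :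
    finrank κ W = finrank κ (W.map (LinearMap.fst κ Y κ)) + 1 := by
  have h1 := LinearMap.finrank_range_add_finrank_ker ((LinearMap.fst κ Y κ).domRestrict W)
  rw [LinearMap.range_domRestrict] at h1
  rw [← h1]
  congr 1
  have key : ∃ v : LinearMap.ker ((LinearMap.fst κ Y κ).domRestrict W), v ≠ 0 ∧ ∀ w : LinearMap.ker ((LinearMap.fst κ Y κ).domRestrict W),
      ∃ c : κ, c • v = w := ?_
  · obtain ⟨v, hv, hv2⟩ := key
    exact finrank_eq_one v hv hv2
  refine ⟨⟨⟨(0, 1), h⟩, ?_⟩, ?_, ?_⟩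
  · rw [LinearMap.mem_ker]; rfl
  · intro h0
    have := congrArg (fun z : LinearMap.ker ((LinearMap.fst κ Y κ).domRestrict W) => ((z : W) : Y × κ).2) h0
    exact one_ne_zero this
  · rintro ⟨⟨⟨y, c⟩, hw⟩, hk⟩
    rw [LinearMap.mem_ker] at hk
    have hy : y = 0 := hk
    subst hy
    refine ⟨c, ?_⟩
    apply Subtype.ext
    apply Subtype.ext
    simp

theorem inj_nmem (W : Submodule κ (Y × κ)) (h : ((0 : Y), (1 : κ)) ∉ W) :
    ∀ (x : Y × κ) (_hx : x ∈ W) (_hx' : x.fst = 0), x.snd = 0 := by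
  rintro ⟨y, c⟩ hx hy
  have hy' : y = 0 := hy
  subst hy'
  by_contra hc
  have hc' : c ≠ 0 := hc
  apply h
  have := W.smul_mem c⁻¹ hx
  simpa [hc'] using this

theorem fr_nmem (W : Submodule κ (Y × κ)) (h : ((0 : Y), (1 : κ)) ∉ W) :
    finrank κ W = finrank κ (W.map (LinearMap.fst κ Y κ)) := by
  have h1 := LinearMap.finrank_range_add_finrank_ker ((LinearMap.fst κ Y κ).domRestrict W)
  rw [LinearMap.range_domRestrict] at h1
  rw [← h1]
  have h2 : LinearMap.ker ((LinearMap.fst κ Y κ).domRestrict W) = ⊥ := by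
    rw [eq_bot_iff]
    rintro ⟨⟨y, c⟩, hw⟩ hk
    rw [LinearMap.mem_ker] at hk
    have hy : y = 0 := hk
    have := inj_nmem W h ⟨y, c⟩ hw hy
    have hc : c = 0 := this
    rw [Submodule.mem_bot]
    apply Subtype.ext
    simp [hy, hc]
  rw [h2, finrank_bot]
  rfl

theorem graph_nmem (f : Y →ₗ.[κ] κ) : ((0 : Y), (1 : κ)) ∉ f.graph := by
  intro h
  have := LinearPMap.graph_fst_eq_zero_snd f h rfl
  exact one_ne_zero this

noncomputable def sigEquiv : (Σ W : Submodule κ Y, (W →ₗ[κ] κ)) ≃ {W : Submodule κ (Y × κ) // ((0 : Y), (1 : κ)) ∉ W} where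
  toFun s := ⟨(⟨s.1, s.2⟩ : Y →ₗ.[κ] κ).graph, graph_nmem _⟩
  invFun W := ⟨W.1.toLinearPMap.domain, W.1.toLinearPMap.toFun⟩
  left_inv := by
    rintro ⟨W, f⟩
    have h : ((⟨W, f⟩ : Y →ₗ.[κ] κ).graph).toLinearPMap = ⟨W, f⟩ := by
      apply LinearPMap.eq_of_eq_graph
      rw [Submodule.toLinearPMap_graph_eq]
      exact inj_nmem _ (graph_nmem _)
    simp only
    rw [h]
  right_inv := by
    rintro ⟨W, hW⟩
    apply Subtype.ext
    exact Submodule.toLinearPMap_graph_eq W (inj_nmem W hW)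

theorem sigEquiv_fst (s : Σ W : Submodule κ Y, (W →ₗ[κ] κ)) :
    ((sigEquiv s).1).map (LinearMap.fst κ Y κ) = s.1 :=
  LinearPMap.graph_map_fst_eq_domain (⟨s.1, s.2⟩ : Y →ₗ.[κ] κ)

theorem card_dual (W : Submodule κ Y) : (Nat.card (W →ₗ[κ] κ) : ℂ) = (Nat.card κ : ℂ) ^ finrank κ W := by
  have : Finite W := inferInstance
  rw [Module.natCard_eq_pow_finrank (K := κ), Module.finrank_linearMap, finrank_self, mul_one]
  push_cast; rfl

theorem line_sum0 (a : ℕ → ℂ) (Ψ : Submodule κ Y → ℂ) :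
    ∑ W : Submodule κ (Y × κ), a (finrank κ W) * Ψ (W.map (LinearMap.fst κ Y κ)) =
      ∑ W : Submodule κ Y, (a (finrank κ W + 1) + (Nat.card κ : ℂ) ^ (finrank κ W) * a (finrank κ W)) * Ψ W := by
  classical
  rw [← Finset.sum_filter_add_sum_filter_not univ (fun W : Submodule κ (Y × κ) => ((0 : Y), (1 : κ)) ∈ W)]
  simp only [add_mul, sum_add_distrib]
  congr 1
  · refine Finset.sum_bij' (fun W _ => W.map (LinearMap.fst κ Y κ)) (fun W _ => W.prod (⊤ : Submodule κ κ))
      ?_ ?_ ?_ ?_ ?_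
    · intro W hW; exact mem_univ _
    · intro W hW
      rw [mem_filter]
      exact ⟨mem_univ _, ⟨W.zero_mem, trivial⟩⟩
    · intro W hW
      rw [mem_filter] at hW
      ext ⟨y, c⟩
      rw [Submodule.mem_prod]
      constructor
      · rintro ⟨hy, -⟩
        obtain ⟨⟨y', c'⟩, hy', h⟩ := hy
        have : y' = y := h
        subst this
        have := W.add_mem hy' (W.smul_mem (c - c') hW.2)
        simpa using this
      · intro h
        exact ⟨⟨(y, c), h, rfl⟩, trivial⟩
    · intro W hW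
      ext y
      constructor
      · rintro ⟨⟨y', c'⟩, hy', h⟩
        have : y' = y := h
        subst this
        exact hy'.1
      · intro h
        exact ⟨(y, 0), ⟨h, trivial⟩, rfl⟩
    · intro W hW
      rw [mem_filter] at hW
      rw [fr_mem W hW.2]
  · rw [← Finset.sum_subtype_eq_sum_filter]
    have h0 : (Finset.subtype (fun W : Submodule κ (Y × κ) => ¬ ((0 : Y), (1 : κ)) ∈ W) univ) = univ := by
      ext; simp
    rw [h0]
    haveI : ∀ W : Submodule κ Y, Fintype (W →ₗ[κ] κ) := fun W => by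
      have : Finite (W →ₗ[κ] κ) := Module.finite_of_finite κ
      exact Fintype.ofFinite _
    rw [← Equiv.sum_comp (sigEquiv (κ := κ) (Y := Y)), Fintype.sum_sigma]
    apply Finset.sum_congr rfl
    intro W _
    rw [Finset.sum_congr rfl (g := fun _ => a (finrank κ W) * Ψ W)]
    · rw [sum_const, nsmul_eq_mul, card_univ, ← Nat.card_eq_fintype_card, card_dual, mul_assoc]
    · intro f _
      rw [fr_nmem _ (sigEquiv (κ := κ) (Y := Y) ⟨W, f⟩).2, sigEquiv_fst]

end fst

/-- sum over subspaces by the images modulo a line -/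
theorem line_sum {X : Type v} [AddCommGroup X] [Module κ X] [Finite X] {Y : Type w} [AddCommGroup Y] [Module κ Y] [Finite Y]
    (π : X →ₗ[κ] Y) (hπ : Function.Surjective π) (hk : finrank κ (LinearMap.ker π) = 1)
    (a : ℕ → ℂ) (Ψ : Submodule κ Y → ℂ) :
    ∑ W : Submodule κ X, a (finrank κ W) * Ψ (W.map π) =
      ∑ W : Submodule κ Y, (a (finrank κ W + 1) + (Nat.card κ : ℂ) ^ (finrank κ W) * a (finrank κ W)) * Ψ W := by
  haveI : Module.Finite κ X := Module.Finite.of_finite
  haveI : Module.Finite κ Y := Module.Finite.of_finite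
  obtain ⟨v, hv0, hv⟩ := finrank_eq_one_iff'.1 hk
  obtain ⟨s, hs⟩ := LinearMap.exists_rightInverse_of_surjective π (LinearMap.range_eq_top.2 hπ)
  have hs' : ∀ y, π (s y) = y := fun y => LinearMap.congr_fun hs y
  have hv1 : (v : X) ≠ 0 := fun h => hv0 (Subtype.ext h)
  have hπv : π v = 0 := LinearMap.mem_ker.1 v.2
  let E0 : (Y × κ) →ₗ[κ] X := s.coprod (LinearMap.toSpanSingleton κ X v)
  have hE0 : ∀ y c, E0 (y, c) = s y + c • (v : X) := fun y c => by
    simp [E0]
  have hinj : Function.Injective E0 := by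
    rw [← LinearMap.ker_eq_bot, eq_bot_iff]
    rintro ⟨y, c⟩ h
    rw [LinearMap.mem_ker, hE0] at h
    have h1 := congrArg π h
    rw [map_add, hs', map_smul, hπv, smul_zero, add_zero, map_zero] at h1
    subst h1
    rw [map_zero, zero_add] at h
    rcases smul_eq_zero.1 h with h | h
    · rw [h]; exact Submodule.zero_mem _
    · exact absurd h hv1
  have hsur : Function.Surjective E0 := by
    intro x
    have hx : x - s (π x) ∈ LinearMap.ker π := by
      rw [LinearMap.mem_ker, map_sub, hs', sub_self]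
    obtain ⟨c, hc⟩ := hv ⟨_, hx⟩
    have hc' : c • (v : X) = x - s (π x) := congrArg Subtype.val hc
    refine ⟨(π x, c), ?_⟩
    rw [hE0, hc']; abel
  let E : (Y × κ) ≃ₗ[κ] X := LinearEquiv.ofBijective E0 ⟨hinj, hsur⟩
  rw [← line_sum0, ← Equiv.sum_comp (Submodule.orderIsoMapComap E).toEquiv]
  apply Finset.sum_congr rfl
  intro W _
  have h1 : (Submodule.orderIsoMapComap E).toEquiv W = W.map (E : (Y × κ) →ₗ[κ] X) := rfl
  rw [h1, LinearEquiv.finrank_map_eq]
  congr 2
  rw [← Submodule.map_comp]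
  congr 1
  ext y
  · show π (E0 (y, 0)) = y
    rw [hE0, zero_smul, add_zero, hs']
  · show π (E0 (0, 1)) = 0
    rw [hE0, map_zero, zero_add, one_smul, hπv]

end

end Cfsg.Agent.Lib.H16GA
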