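import Cfsg.Agent.Lib.H16GA

/-!
# Moebius type sums over subspaces (helper16)
-/

set_option autoImplicit false
set_option linter.all false

namespace Cfsg.Agent.Lib.H16GA

open Module Finset

universe u v w

section

variable {κ : Type u} [Field κ] [Finite κ]

scoped instance instFinQuot {X : Type v} [AddCommGroup X] [Module κ X] [Finite X] (S : Submodule κ X) : Finite (X ⧸ S) :=
  Finite.of_surjective _ (Submodule.mkQ_surjective S)

theorem fr_map_ker {X : Type v} [AddCommGroup X] [Module κ X] [Finite X] {Y : Type w} [AddCommGroup Y] [Module κ Y]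
    (π : X →ₗ[κ] Y) (U : Submodule κ X) (hU : LinearMap.ker π ≤ U) :
    finrank κ (U.map π) + finrank κ (LinearMap.ker π) = finrank κ U := by
  haveI : Module.Finite κ X := Module.Finite.of_finite
  have h1 := LinearMap.finrank_range_add_finrank_ker (π.domRestrict U)
  rw [LinearMap.range_domRestrict] at h1
  rw [← h1]
  congr 1
  have h2 : LinearMap.ker (π.domRestrict U) = (LinearMap.ker π).comap U.subtype := by
    rw [LinearMap.ker_domRestrict]
  rw [h2]
  exact (Submodule.comapSubtypeEquivOfLe hU).finrank_eq.symm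

theorem ker_mkQ_span {X : Type v} [AddCommGroup X] [Module κ X] {v : X} (hv : v ≠ 0) :
    finrank κ (LinearMap.ker (Submodule.mkQ (Submodule.span κ {v}))) = 1 := by
  rw [Submodule.ker_mkQ, finrank_span_singleton hv]

theorem quot_span {X : Type v} [AddCommGroup X] [Module κ X] [Finite X] {v : X} (hv : v ≠ 0) :
    finrank κ (X ⧸ (Submodule.span κ {v})) + 1 = finrank κ X := by
  haveI : Module.Finite κ X := Module.Finite.of_finite
  rw [← Submodule.finrank_quotient_add_finrank (Submodule.span κ {v}), finrank_span_singleton hv]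

theorem L1 (m : ℕ) : ∀ (X : Type v) [AddCommGroup X] [Module κ X] [Finite X], finrank κ X = m → ∀ y : ℂ,
    ∑ W : Submodule κ X, ps (Nat.card κ) (finrank κ W) * y ^ (finrank κ W) =
      ∏ i ∈ range m, (1 - (Nat.card κ : ℂ) ^ i * y) := by
  induction m with
  | zero =>
    intro X _ _ _ hX y
    haveI : Module.Finite κ X := Module.Finite.of_finite
    have hs : Subsingleton X := finrank_zero_iff.1 hX
    rw [Fintype.sum_eq_single (⊥ : Submodule κ X)]
    · simp [ps_zero]
    · intro W hW
      exact absurd (Subsingleton.elim W ⊥) hW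
  | succ m ih =>
    intro X _ _ _ hX y
    haveI : Module.Finite κ X := Module.Finite.of_finite
    have hn : Nontrivial X := Module.nontrivial_of_finrank_pos (R := κ) (by omega)
    obtain ⟨v, hv⟩ := exists_ne (0 : X)
    have h1 := line_sum (Submodule.mkQ (Submodule.span κ {v})) (Submodule.mkQ_surjective _) (ker_mkQ_span hv)
      (fun k => ps (Nat.card κ) k * y ^ k) (fun _ => 1)
    simp only [mul_one] at h1
    rw [h1]
    have h2 := quot_span (κ := κ) hv
    have h3 := ih (X ⧸ (Submodule.span κ {v})) (by omega) ((Nat.card κ : ℂ) * y)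
    rw [prod_range_succ', pow_zero, one_mul]
    have h4 : ∏ i ∈ range m, (1 - (Nat.card κ : ℂ) ^ (i + 1) * y) = ∏ i ∈ range m, (1 - (Nat.card κ : ℂ) ^ i * ((Nat.card κ : ℂ) * y)) := by
      apply prod_congr rfl
      intro i _
      ring
    rw [h4, ← h3, sum_mul]
    apply sum_congr rfl
    intro W _
    rw [ps_succ]
    ring

theorem Gsum (s t : ℕ) : ∀ (X : Type v) [AddCommGroup X] [Module κ X] [Finite X] (S : Submodule κ X),
    finrank κ S = s → finrank κ X = s + t → ∀ x y : ℂ,
    ∑ W : Submodule κ X, ps (Nat.card κ) (finrank κ W) * y ^ (finrank κ W) * x ^ (finrank κ (W ⊔ S : Submodule κ X)) =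
      x ^ s * (∏ i ∈ range s, (1 - (Nat.card κ : ℂ) ^ i * y)) * ∏ i ∈ range t, (1 - (Nat.card κ : ℂ) ^ (i + s) * (x * y)) := by
  induction s with
  | zero =>
    intro X _ _ _ S hS hX x y
    haveI : Module.Finite κ X := Module.Finite.of_finite
    rw [Submodule.finrank_eq_zero] at hS
    subst hS
    rw [zero_add] at hX
    have h1 := L1 t X hX (x * y)
    simp only [range_zero, prod_empty, pow_zero, one_mul, add_zero]
    rw [← h1]
    apply sum_congr rfl
    intro W _
    rw [sup_bot_eq]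
    ring
  | succ s ih =>
    intro X _ _ _ S hS hX x y
    haveI : Module.Finite κ X := Module.Finite.of_finite
    have hn : Nontrivial S := Module.nontrivial_of_finrank_pos (R := κ) (by omega)
    obtain ⟨⟨v, hvS⟩, hv0⟩ := exists_ne (0 : S)
    have hv : v ≠ 0 := fun h => hv0 (Subtype.ext h)
    set π := Submodule.mkQ (Submodule.span κ {v}) with hπ
    have hk : LinearMap.ker π = Submodule.span κ {v} := Submodule.ker_mkQ _
    have hk1 : finrank κ (LinearMap.ker π) = 1 := ker_mkQ_span hv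
    have hle : LinearMap.ker π ≤ S := by
      rw [hk, Submodule.span_singleton_le_iff_mem]; exact hvS
    have hS' := fr_map_ker π S hle
    have h2 := quot_span (κ := κ) hv
    have h1 := line_sum π (Submodule.mkQ_surjective _) hk1
      (fun k => ps (Nat.card κ) k * y ^ k) (fun W => x * x ^ (finrank κ (W ⊔ S.map π : Submodule κ (X ⧸ Submodule.span κ {v}))))
    have h3 := ih (X ⧸ (Submodule.span κ {v})) (S.map π) (by omega) (by omega) x ((Nat.card κ : ℂ) * y)
    have h0 : ∑ W : Submodule κ X, ps (Nat.card κ) (finrank κ W) * y ^ (finrank κ W) * x ^ (finrank κ (W ⊔ S : Submodule κ X)) =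
      ∑ W : Submodule κ X, (ps (Nat.card κ) (finrank κ W) * y ^ (finrank κ W)) * (x * x ^ (finrank κ (W.map π ⊔ S.map π : Submodule κ (X ⧸ Submodule.span κ {v})))) := by
      apply sum_congr rfl
      intro W _
      have h5 := fr_map_ker π (W ⊔ S) (hle.trans le_sup_right)
      rw [Submodule.map_sup, hk1] at h5
      rw [← h5, pow_succ']
    rw [h0, h1]
    have h4 : ∏ i ∈ range s, (1 - (Nat.card κ : ℂ) ^ (i + 1) * y) = ∏ i ∈ range s, (1 - (Nat.card κ : ℂ) ^ i * ((Nat.card κ : ℂ) * y)) := by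
      apply prod_congr rfl
      intro i _
      ring
    have h6 : ∏ i ∈ range t, (1 - (Nat.card κ : ℂ) ^ (i + (s + 1)) * (x * y)) = ∏ i ∈ range t, (1 - (Nat.card κ : ℂ) ^ (i + s) * (x * ((Nat.card κ : ℂ) * y))) := by
      apply prod_congr rfl
      intro i _
      ring
    rw [prod_range_succ', pow_zero, one_mul, h4, h6]
    have h7 : x ^ (s + 1) * ((∏ i ∈ range s, (1 - (Nat.card κ : ℂ) ^ i * ((Nat.card κ : ℂ) * y))) * (1 - y)) *
        ∏ i ∈ range t, (1 - (Nat.card κ : ℂ) ^ (i + s) * (x * ((Nat.card κ : ℂ) * y))) =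
        (x * (1 - y)) * (x ^ s * (∏ i ∈ range s, (1 - (Nat.card κ : ℂ) ^ i * ((Nat.card κ : ℂ) * y))) *
        ∏ i ∈ range t, (1 - (Nat.card κ : ℂ) ^ (i + s) * (x * ((Nat.card κ : ℂ) * y)))) := by
      ring
    rw [h7, ← h3, mul_sum]
    apply sum_congr rfl
    intro W _
    rw [ps_succ]
    ring

theorem phi_line {X : Type v} [AddCommGroup X] [Module κ X] [Finite X] {Y : Type w} [AddCommGroup Y] [Module κ Y] [Finite Y]
    (π : X →ₗ[κ] Y) (hπ : Function.Surjective π) (hk : finrank κ (LinearMap.ker π) = 1) (Ψ : Submodule κ Y → ℂ) :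
    ∑ W : Submodule κ X, ((finrank κ W : ℂ) * ps (Nat.card κ) (finrank κ W)) * Ψ (W.map π) =
      - ∑ W : Submodule κ Y, ps (Nat.card κ) (finrank κ W) * (Nat.card κ : ℂ) ^ (finrank κ W) * Ψ W := by
  rw [line_sum π hπ hk (fun k => (k : ℂ) * ps (Nat.card κ) k) Ψ, ← sum_neg_distrib]
  apply sum_congr rfl
  intro W _
  simp only [ps_succ]
  push_cast
  ring

/-- `c(m) = - Σ_W φ(w)` -/
theorem L3 (X : Type v) [AddCommGroup X] [Module κ X] [Finite X] :
    ∑ W : Submodule κ X, (finrank κ W : ℂ) * ps (Nat.card κ) (finrank κ W) = - cc (Nat.card κ) (finrank κ X) := by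
  haveI : Module.Finite κ X := Module.Finite.of_finite
  rcases Nat.eq_zero_or_pos (finrank κ X) with h | h
  · have hs : Subsingleton X := finrank_zero_iff.1 h
    rw [h, cc_zero, neg_zero]
    apply Finset.sum_eq_zero
    intro W _
    rw [Subsingleton.elim W ⊥, finrank_bot]
    simp
  · have hn : Nontrivial X := Module.nontrivial_of_finrank_pos (R := κ) h
    obtain ⟨v, hv⟩ := exists_ne (0 : X)
    have h1 := phi_line (Submodule.mkQ (Submodule.span κ {v})) (Submodule.mkQ_surjective _) (ker_mkQ_span hv) (fun _ => 1)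
    simp only [mul_one] at h1
    have h2 := quot_span (κ := κ) hv
    rw [h1, L1 _ _ rfl, ← h2, cc_succ]
    congr 1

theorem H (s t : ℕ) (X : Type v) [AddCommGroup X] [Module κ X] [Finite X] (S : Submodule κ X)
    (hS : finrank κ S = s + 1) (hX : finrank κ X = s + 1 + t) (x : ℂ) :
    ∑ W : Submodule κ X, ((finrank κ W : ℂ) * ps (Nat.card κ) (finrank κ W)) * x ^ (finrank κ (W ⊔ S : Submodule κ X)) =
      - (x ^ (s + 1) * cc (Nat.card κ) (s + 1) * ∏ i ∈ range t, (1 - (Nat.card κ : ℂ) ^ (i + s + 1) * x)) := by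
  haveI : Module.Finite κ X := Module.Finite.of_finite
  have hn : Nontrivial S := Module.nontrivial_of_finrank_pos (R := κ) (by omega)
  obtain ⟨⟨v, hvS⟩, hv0⟩ := exists_ne (0 : S)
  have hv : v ≠ 0 := fun h => hv0 (Subtype.ext h)
  set π := Submodule.mkQ (Submodule.span κ {v}) with hπ
  have hk : LinearMap.ker π = Submodule.span κ {v} := Submodule.ker_mkQ _
  have hk1 : finrank κ (LinearMap.ker π) = 1 := ker_mkQ_span hv
  have hle : LinearMap.ker π ≤ S := by
    rw [hk, Submodule.span_singleton_le_iff_mem]; exact hvS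
  have hS' := fr_map_ker π S hle
  have h2 := quot_span (κ := κ) hv
  have h0 : ∑ W : Submodule κ X, ((finrank κ W : ℂ) * ps (Nat.card κ) (finrank κ W)) * x ^ (finrank κ (W ⊔ S : Submodule κ X)) =
      ∑ W : Submodule κ X, ((finrank κ W : ℂ) * ps (Nat.card κ) (finrank κ W)) * (x * x ^ (finrank κ (W.map π ⊔ S.map π : Submodule κ (X ⧸ Submodule.span κ {v})))) := by
    apply sum_congr rfl
    intro W _
    have h5 := fr_map_ker π (W ⊔ S) (hle.trans le_sup_right)
    rw [Submodule.map_sup, hk1] at h5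
    rw [← h5, pow_succ']
  rw [h0, phi_line π (Submodule.mkQ_surjective _) hk1
    (fun W => x * x ^ (finrank κ (W ⊔ S.map π : Submodule κ (X ⧸ Submodule.span κ {v}))))]
  have h3 := Gsum s t (X ⧸ (Submodule.span κ {v})) (S.map π) (by omega) (by omega) x (Nat.card κ : ℂ)
  congr 1
  have h4 : ∏ i ∈ range t, (1 - (Nat.card κ : ℂ) ^ (i + s + 1) * x) = ∏ i ∈ range t, (1 - (Nat.card κ : ℂ) ^ (i + s) * (x * (Nat.card κ : ℂ))) := by
    apply prod_congr rfl
    intro i _
    ring
  have h5 : ∏ i ∈ range s, (1 - (Nat.card κ : ℂ) ^ (i + 1)) = ∏ i ∈ range s, (1 - (Nat.card κ : ℂ) ^ i * (Nat.card κ : ℂ)) := by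
    apply prod_congr rfl
    intro i _
    ring
  rw [h4, cc_succ, h5]
  have h6 : x ^ (s + 1) * (∏ i ∈ range s, (1 - (Nat.card κ : ℂ) ^ i * (Nat.card κ : ℂ))) *
      ∏ i ∈ range t, (1 - (Nat.card κ : ℂ) ^ (i + s) * (x * (Nat.card κ : ℂ))) =
      x * (x ^ s * (∏ i ∈ range s, (1 - (Nat.card κ : ℂ) ^ i * (Nat.card κ : ℂ))) *
      ∏ i ∈ range t, (1 - (Nat.card κ : ℂ) ^ (i + s) * (x * (Nat.card κ : ℂ)))) := by ring
  rw [h6, ← h3, mul_sum]
  apply sum_congr rfl
  intro W _
  ring

/-- sums over the subspaces of a subspace -/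
theorem sum_le {X : Type v} [AddCommGroup X] [Module κ X] [Finite X] (K : Submodule κ X) (a : ℕ → ℂ)
    [DecidablePred (fun W : Submodule κ X => W ≤ K)] :
    ∑ W ∈ univ.filter (fun W : Submodule κ X => W ≤ K), a (finrank κ W) =
      ∑ W : Submodule κ K, a (finrank κ W) := by
  symm
  refine Finset.sum_bij' (fun W _ => W.map K.subtype) (fun W _ => W.comap K.subtype) ?_ ?_ ?_ ?_ ?_
  · intro W _
    rw [mem_filter]
    refine ⟨mem_univ _, ?_⟩
    rintro _ ⟨w, _, rfl⟩
    exact w.2
  · intro W _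
    exact mem_univ _
  · intro W _
    exact Submodule.comap_map_eq_of_injective K.injective_subtype W
  · intro W hW
    rw [mem_filter] at hW
    rw [Submodule.map_comap_subtype, inf_eq_right.2 hW.2]
  · intro W _
    rw [Submodule.finrank_map_subtype_eq]

end

end Cfsg.Agent.Lib.H16GA
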