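import Cfsg.Agent.Lib.H16GB

/-!
# Counting nilpotent endomorphisms vanishing on a subspace (helper16)
-/

set_option autoImplicit false
set_option linter.all false

namespace Cfsg.Agent.Lib.H16GA

open Module Finset

universe u v w

section

variable {κ : Type u} [Field κ] [Finite κ]

scoped instance instFinHom {X : Type v} [AddCommGroup X] [Module κ X] [Finite X] {Y : Type w} [AddCommGroup Y] [Module κ Y] [Finite Y] :
    Finite (X →ₗ[κ] Y) :=
  Finite.of_injective (fun f : X →ₗ[κ] Y => (f : X → Y)) DFunLike.coe_injective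

theorem card_hom (X : Type v) [AddCommGroup X] [Module κ X] [Finite X] (Y : Type w) [AddCommGroup Y] [Module κ Y] [Finite Y] :
    Nat.card (X →ₗ[κ] Y) = Nat.card κ ^ (finrank κ X * finrank κ Y) := by
  haveI : Module.Finite κ X := Module.Finite.of_finite
  haveI : Module.Finite κ Y := Module.Finite.of_finite
  rw [Module.natCard_eq_pow_finrank (K := κ), Module.finrank_linearMap]

theorem mkz {X : Type v} [AddCommGroup X] [Module κ X] (R : Submodule κ X) (x : X) : R.mkQ x = 0 ↔ x ∈ R := by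
  rw [Submodule.mkQ_apply, Submodule.Quotient.mk_eq_zero]

/-- nilpotent endomorphisms vanishing on `R` -/
abbrev NilR (X : Type v) [AddCommGroup X] [Module κ X] (R : Submodule κ X) : Type v :=
  {N : X →ₗ[κ] X // R ≤ LinearMap.ker N ∧ IsNilpotent N}

section reduce

variable {X : Type v} [AddCommGroup X] [Module κ X] [Finite X] (R : Submodule κ X)

theorem pow_comm_mkQ {N : X →ₗ[κ] X} {b : (X ⧸ R) →ₗ[κ] (X ⧸ R)} (h : R.mkQ ∘ₗ N = b ∘ₗ R.mkQ) (k : ℕ) :
    R.mkQ ∘ₗ (N ^ k) = (b ^ k) ∘ₗ R.mkQ := by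
  induction k with
  | zero => rfl
  | succ k ih =>
    rw [pow_succ, pow_succ, Module.End.mul_eq_comp, Module.End.mul_eq_comp, ← LinearMap.comp_assoc, ih,
      LinearMap.comp_assoc, h, LinearMap.comp_assoc]

theorem nil_iff {N : X →ₗ[κ] X} {b : (X ⧸ R) →ₗ[κ] (X ⧸ R)} (hR : R ≤ LinearMap.ker N) (h : R.mkQ ∘ₗ N = b ∘ₗ R.mkQ) :
    IsNilpotent N ↔ IsNilpotent b := by
  constructor
  · rintro ⟨k, hk⟩
    refine ⟨k, ?_⟩
    have h1 := pow_comm_mkQ R h k
    rw [hk] at h1
    apply LinearMap.ext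
    intro y
    obtain ⟨x, rfl⟩ := R.mkQ_surjective y
    have := LinearMap.congr_fun h1 x
    simpa using this.symm
  · rintro ⟨k, hk⟩
    refine ⟨k + 1, ?_⟩
    have h1 := pow_comm_mkQ R h k
    rw [hk] at h1
    apply LinearMap.ext
    intro x
    have h2 := LinearMap.congr_fun h1 x
    have h3 : (N ^ k) x ∈ R := by
      rw [← mkz]
      simpa using h2
    rw [pow_succ', Module.End.mul_apply]
    exact LinearMap.mem_ker.1 (hR h3)

/-- decomposition of the nilpotent endomorphisms vanishing on `R` -/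
noncomputable def redEquiv (s : (X ⧸ R) →ₗ[κ] X) (hs : R.mkQ ∘ₗ s = LinearMap.id) :
    NilR X R ≃ ((X ⧸ R) →ₗ[κ] R) × {b : (X ⧸ R) →ₗ[κ] (X ⧸ R) // IsNilpotent b} where
  toFun N :=
    (LinearMap.codRestrict R (N.1 ∘ₗ s - s ∘ₗ (R.mkQ ∘ₗ N.1 ∘ₗ s)) (by
      intro c
      rw [← mkz, LinearMap.sub_apply, map_sub]
      have h1 : R.mkQ ((s ∘ₗ (R.mkQ ∘ₗ N.1 ∘ₗ s)) c) = (R.mkQ ∘ₗ s) ((R.mkQ ∘ₗ N.1 ∘ₗ s) c) := rfl
      rw [h1, hs]
      simp),
    ⟨R.mkQ ∘ₗ N.1 ∘ₗ s, by
      refine (nil_iff R N.2.1 (N := N.1) ?_).1 N.2.2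
      apply LinearMap.ext
      intro x
      have h1 : x - s (R.mkQ x) ∈ R := by
        rw [← mkz, map_sub]
        have h2 : R.mkQ (s (R.mkQ x)) = (R.mkQ ∘ₗ s) (R.mkQ x) := rfl
        rw [h2, hs]; simp
      have h3 : N.1 (x - s (R.mkQ x)) = 0 := LinearMap.mem_ker.1 (N.2.1 h1)
      rw [map_sub, sub_eq_zero] at h3
      show R.mkQ (N.1 x) = R.mkQ (N.1 (s (R.mkQ x)))
      rw [h3]⟩)
  invFun p := ⟨(R.subtype ∘ₗ p.1 + s ∘ₗ p.2.1) ∘ₗ R.mkQ, by
      have hR : R ≤ LinearMap.ker ((R.subtype ∘ₗ p.1 + s ∘ₗ p.2.1) ∘ₗ R.mkQ) := by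
        intro x hx
        rw [LinearMap.mem_ker, LinearMap.comp_apply]
        have : R.mkQ x = 0 := by rw [mkz]; exact hx
        rw [this, map_zero]
      refine ⟨hR, (nil_iff R hR (b := p.2.1) ?_).2 p.2.2⟩
      apply LinearMap.ext
      intro x
      show R.mkQ ((p.1 (R.mkQ x) : X) + s (p.2.1 (R.mkQ x))) = p.2.1 (R.mkQ x)
      rw [map_add]
      have h1 : R.mkQ (p.1 (R.mkQ x) : X) = 0 := by
        rw [mkz]; exact (p.1 (R.mkQ x)).2
      have h2 : R.mkQ (s (p.2.1 (R.mkQ x))) = (R.mkQ ∘ₗ s) (p.2.1 (R.mkQ x)) := rfl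
      rw [h1, h2, hs]; simp⟩
  left_inv := by
    intro N
    apply Subtype.ext
    apply LinearMap.ext
    intro x
    show N.1 (s (R.mkQ x)) - s (R.mkQ (N.1 (s (R.mkQ x)))) + s (R.mkQ (N.1 (s (R.mkQ x)))) = N.1 x
    rw [sub_add_cancel]
    have h1 : s (R.mkQ x) - x ∈ R := by
      rw [← mkz, map_sub]
      have h2 : R.mkQ (s (R.mkQ x)) = (R.mkQ ∘ₗ s) (R.mkQ x) := rfl
      rw [h2, hs]; simp
    have h3 : N.1 (s (R.mkQ x) - x) = 0 := LinearMap.mem_ker.1 (N.2.1 h1)
    rw [map_sub, sub_eq_zero] at h3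
    exact h3
  right_inv := by
    rintro ⟨a, b, hb⟩
    have hs' : ∀ c, R.mkQ (s c) = c := fun c => LinearMap.congr_fun hs c
    have hN : ∀ c, ((R.subtype ∘ₗ a + s ∘ₗ b) ∘ₗ R.mkQ) (s c) = (a c : X) + s (b c) := by
      intro c
      show (a (R.mkQ (s c)) : X) + s (b (R.mkQ (s c))) = _
      rw [hs']
    have hm : ∀ c, R.mkQ ((a c : X) + s (b c)) = b c := by
      intro c
      rw [map_add, hs']
      have h1 : R.mkQ (a c : X) = 0 := by
        rw [mkz]; exact (a c).2
      rw [h1, zero_add]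
    apply Prod.ext
    · apply LinearMap.ext
      intro c
      apply Subtype.ext
      show ((R.subtype ∘ₗ a + s ∘ₗ b) ∘ₗ R.mkQ) (s c) - s (R.mkQ (((R.subtype ∘ₗ a + s ∘ₗ b) ∘ₗ R.mkQ) (s c))) = (a c : X)
      rw [hN, hm]; abel
    · apply Subtype.ext
      apply LinearMap.ext
      intro c
      show R.mkQ (((R.subtype ∘ₗ a + s ∘ₗ b) ∘ₗ R.mkQ) (s c)) = b c
      rw [hN, hm]

theorem card_red : Nat.card (NilR X R) =
    Nat.card κ ^ (finrank κ (X ⧸ R) * finrank κ R) * Nat.card {b : (X ⧸ R) →ₗ[κ] (X ⧸ R) // IsNilpotent b} := by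
  obtain ⟨s, hs⟩ := LinearMap.exists_rightInverse_of_surjective R.mkQ R.range_mkQ
  rw [Nat.card_congr (redEquiv R s hs), Nat.card_prod, card_hom]

end reduce

theorem sum_ps_ker {X : Type v} [AddCommGroup X] [Module κ X] [Finite X] (hX : 0 < finrank κ X) :
    ∑ W : Submodule κ X, ps (Nat.card κ) (finrank κ W) = 0 := by
  have h1 := L1 (κ := κ) _ X rfl 1
  simp only [one_pow, mul_one] at h1
  rw [h1]
  apply Finset.prod_eq_zero (i := 0) (by rw [mem_range]; exact hX)
  simp

theorem ker_pos {X : Type v} [AddCommGroup X] [Module κ X] [Finite X] (hX : 0 < finrank κ X) {N : X →ₗ[κ] X}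
    (hN : IsNilpotent N) : 0 < finrank κ (LinearMap.ker N) := by
  haveI : Module.Finite κ X := Module.Finite.of_finite
  rw [Nat.pos_iff_ne_zero]
  intro h
  rw [Submodule.finrank_eq_zero, LinearMap.ker_eq_bot] at h
  obtain ⟨k, hk⟩ := hN
  have hn : Nontrivial X := Module.nontrivial_of_finrank_pos (R := κ) hX
  obtain ⟨v, hv⟩ := exists_ne (0 : X)
  have h1 : Function.Injective (N ^ k) := by
    rw [Module.End.coe_pow]
    exact h.iterate k
  apply hv
  apply h1
  rw [hk]
  simp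

theorem nil_count (m : ℕ) : ∀ (X : Type v) [AddCommGroup X] [Module κ X] [Finite X], finrank κ X = m →
    (Nat.card {b : X →ₗ[κ] X // IsNilpotent b} = Nat.card κ ^ (m * (m - 1)) ∧
    ∀ R : Submodule κ X, Nat.card (NilR X R) = Nat.card κ ^ ((m - finrank κ R) * (m - 1))) := by
  induction m using Nat.strong_induction_on with
  | _ m ih =>
  intro X _ _ _ hX
  haveI : Module.Finite κ X := Module.Finite.of_finite
  -- the case of a nonzero subspace
  have hpos : ∀ R : Submodule κ X, 0 < finrank κ R → Nat.card (NilR X R) = Nat.card κ ^ ((m - finrank κ R) * (m - 1)) := by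
    intro R hR
    have h1 := Submodule.finrank_quotient_add_finrank R
    rw [card_red, (ih (finrank κ (X ⧸ R)) (by omega) (X ⧸ R) rfl).1, ← pow_add]
    congr 1
    have h2 : m - finrank κ R = finrank κ (X ⧸ R) := by omega
    rw [h2, ← mul_add]
    rcases Nat.eq_zero_or_pos (finrank κ (X ⧸ R)) with h | h
    · rw [h]; simp
    · congr 1; omega
  rcases Nat.eq_zero_or_pos m with h0 | h0
  · subst h0
    have hs : Subsingleton X := finrank_zero_iff.1 hX
    have hss : Subsingleton (X →ₗ[κ] X) := ⟨fun a b => LinearMap.ext fun x => Subsingleton.elim _ _⟩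
    have h1 : ∀ P : (X →ₗ[κ] X) → Prop, P 0 → Nat.card {b : X →ₗ[κ] X // P b} = 1 := by
      intro P hP
      rw [Nat.card_eq_one_iff_unique]
      exact ⟨⟨fun a b => Subtype.ext (Subsingleton.elim _ _)⟩, ⟨⟨0, hP⟩⟩⟩
    refine ⟨?_, fun R => ?_⟩
    · rw [h1 _ (IsNilpotent.zero)]; simp
    · rw [h1 _ ⟨by simp, IsNilpotent.zero⟩]; simp
  have hQ0 : (Nat.card κ : ℂ) ≠ 0 := by
    exact_mod_cast (Nat.card_pos (α := κ)).ne'
  -- the zero subspace
  have hbot : (Nat.card (NilR X (⊥ : Submodule κ X)) : ℂ) = (Nat.card κ : ℂ) ^ (m * (m - 1)) := by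
    classical
    haveI : Fintype {b : X →ₗ[κ] X // IsNilpotent b} := Fintype.ofFinite _
    haveI : Fintype (X →ₗ[κ] X) := Fintype.ofFinite _
    have h1 : ∑ R : Submodule κ X, ps (Nat.card κ) (finrank κ R) * (Nat.card (NilR X R) : ℂ) = 0 := by
      have h2 : ∀ R : Submodule κ X, (Nat.card (NilR X R) : ℂ) = ∑ N ∈ univ.filter (fun N : X →ₗ[κ] X => IsNilpotent N), if R ≤ LinearMap.ker N then 1 else 0 := by
        intro R
        rw [Finset.sum_boole, Finset.filter_filter, Nat.card_eq_fintype_card, Fintype.card_subtype]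
        congr 2
        ext N
        simp [and_comm]
      simp only [h2, mul_sum]
      rw [sum_comm]
      apply Finset.sum_eq_zero
      intro N hN
      rw [mem_filter] at hN
      simp only [mul_ite, mul_one, mul_zero]
      rw [← Finset.sum_filter, sum_le (LinearMap.ker N) (fun k => ps (Nat.card κ) k)]
      exact sum_ps_ker (ker_pos (by omega) hN.2)
    rw [← Finset.add_sum_erase _ _ (mem_univ (⊥ : Submodule κ X)), finrank_bot, ps_zero, one_mul] at h1
    have h3 : ∑ R : Submodule κ X, ps (Nat.card κ) (finrank κ R) * ((Nat.card κ : ℂ) ^ ((m - finrank κ R) * (m - 1))) = 0 := by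
      have h4 := L1 m X hX (((Nat.card κ : ℂ) ^ (m - 1))⁻¹)
      have h5 : ∏ i ∈ range m, (1 - (Nat.card κ : ℂ) ^ i * ((Nat.card κ : ℂ) ^ (m - 1))⁻¹) = 0 := by
        apply Finset.prod_eq_zero (i := m - 1) (by rw [mem_range]; omega)
        rw [mul_inv_cancel₀ (pow_ne_zero _ hQ0), sub_self]
      rw [h5] at h4
      have h6 : ∑ R : Submodule κ X, ps (Nat.card κ) (finrank κ R) * ((Nat.card κ : ℂ) ^ ((m - finrank κ R) * (m - 1))) =
          (Nat.card κ : ℂ) ^ (m * (m - 1)) * ∑ W : Submodule κ X, ps (Nat.card κ) (finrank κ W) * (((Nat.card κ : ℂ) ^ (m - 1))⁻¹) ^ (finrank κ W) := by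
        rw [mul_sum]
        apply sum_congr rfl
        intro R _
        have h7 : finrank κ R ≤ m := by rw [← hX]; exact Submodule.finrank_le R
        have h8 : m * (m - 1) = (m - finrank κ R) * (m - 1) + (m - 1) * finrank κ R := by
          obtain ⟨t, ht⟩ := Nat.exists_eq_add_of_le h7
          have h9 : m - finrank κ R = t := by omega
          rw [h9, mul_comm (m - 1), ← add_mul]
          congr 1
          omega
        rw [h8, pow_add, inv_pow, ← pow_mul]
        field_simp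
      rw [h6, h4, mul_zero]
    rw [← Finset.add_sum_erase _ _ (mem_univ (⊥ : Submodule κ X)), finrank_bot, ps_zero, one_mul, Nat.sub_zero] at h3
    have h4 : ∑ R ∈ univ.erase (⊥ : Submodule κ X), ps (Nat.card κ) (finrank κ R) * (Nat.card (NilR X R) : ℂ) =
        ∑ R ∈ univ.erase (⊥ : Submodule κ X), ps (Nat.card κ) (finrank κ R) * ((Nat.card κ : ℂ) ^ ((m - finrank κ R) * (m - 1))) := by
      apply sum_congr rfl
      intro R hR
      rw [mem_erase] at hR
      have h5 : 0 < finrank κ R := by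
        rw [Nat.pos_iff_ne_zero]
        intro h; exact hR.1 (Submodule.finrank_eq_zero.1 h)
      rw [hpos R h5]
      push_cast; rfl
    rw [h4] at h1
    linear_combination h1 - h3
  have hbot' : Nat.card (NilR X (⊥ : Submodule κ X)) = Nat.card κ ^ (m * (m - 1)) := by exact_mod_cast hbot
  refine ⟨?_, ?_⟩
  · rw [← hbot']
    apply Nat.card_congr
    exact Equiv.subtypeEquivRight (fun N => by simp)
  · intro R
    rcases Nat.eq_zero_or_pos (finrank κ R) with h | h
    · have h2 := h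
      rw [Submodule.finrank_eq_zero] at h2
      subst h2
      rw [hbot', h, Nat.sub_zero]
    · exact hpos R h

end

end Cfsg.Agent.Lib.H16GA
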