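import Cfsg.Agent.Lib.H16GC

/-!
# The norm sum over nilpotent endomorphisms, and the lattice identity (helper16)
-/

set_option autoImplicit false
set_option linter.all false

namespace Cfsg.Agent.Lib.H16GA

open Module Finset

universe u v w

section

variable {κ : Type u} [Field κ] [Finite κ]

theorem card_gl (X : Type v) [AddCommGroup X] [Module κ X] [Finite X] :
    (Nat.card (X ≃ₗ[κ] X) : ℂ) = ps (Nat.card κ) (finrank κ X) * ∏ i ∈ range (finrank κ X), (1 - (Nat.card κ : ℂ) ^ (i + 1)) := by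
  haveI : Module.Finite κ X := Module.Finite.of_finite
  haveI : Fintype κ := Fintype.ofFinite κ
  set n := finrank κ X with hn
  have e1 : (X ≃ₗ[κ] X) ≃ ((Fin n → κ) ≃ₗ[κ] (Fin n → κ)) :=
    { toFun := fun f => ((finBasis κ X).equivFun.symm.trans f).trans (finBasis κ X).equivFun
      invFun := fun f => ((finBasis κ X).equivFun.trans f).trans (finBasis κ X).equivFun.symm
      left_inv := fun f => by ext; simp
      right_inv := fun f => by
        apply LinearEquiv.ext
        intro x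
        show (finBasis κ X).equivFun ((finBasis κ X).equivFun.symm (f ((finBasis κ X).equivFun ((finBasis κ X).equivFun.symm x)))) = f x
        rw [LinearEquiv.apply_symm_apply, LinearEquiv.apply_symm_apply] }
  have e2 : GL (Fin n) κ ≃ ((Fin n → κ) ≃ₗ[κ] (Fin n → κ)) :=
    (Matrix.GeneralLinearGroup.toLin.trans (LinearMap.GeneralLinearGroup.generalLinearEquiv κ (Fin n → κ))).toEquiv
  rw [Nat.card_congr e1, ← Nat.card_congr e2, Matrix.card_GL_field, Finset.prod_range (fun i => (1 - (Nat.card κ : ℂ) ^ (i + 1)))]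
  rw [← Finset.prod_range (fun i => (1 - (Nat.card κ : ℂ) ^ (i + 1)))]
  rw [← Finset.prod_range (fun i => (Fintype.card κ) ^ n - (Fintype.card κ) ^ i)]
  rw [Nat.cast_prod]
  have h1 : ∀ i ∈ range n, ((((Fintype.card κ) ^ n - (Fintype.card κ) ^ i : ℕ)) : ℂ) =
      (Nat.card κ : ℂ) ^ i * ((Nat.card κ : ℂ) ^ (n - 1 - i + 1) - 1) := by
    intro i hi
    rw [mem_range] at hi
    rw [Nat.cast_sub (Nat.pow_le_pow_right Fintype.card_pos hi.le), Nat.card_eq_fintype_card, mul_sub, mul_one, ← pow_add]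
    push_cast
    congr 2
    omega
  rw [prod_congr rfl h1, prod_mul_distrib, Finset.prod_range_reflect (fun j => ((Nat.card κ : ℂ) ^ (j + 1) - 1)) n,
    ← prod_mul_distrib, ps, ← prod_mul_distrib]
  apply prod_congr rfl
  intro i _
  ring

open Classical in
theorem cc_ker {X : Type v} [AddCommGroup X] [Module κ X] [Finite X] (K : Submodule κ X) :
    cc (Nat.card κ) (finrank κ K) =
      - ∑ W : Submodule κ X, if W ≤ K then (finrank κ W : ℂ) * ps (Nat.card κ) (finrank κ W) else 0 := by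
  rw [← Finset.sum_filter, sum_le K (fun k => (k : ℂ) * ps (Nat.card κ) k), L3, neg_neg]

open Classical in
theorem nil_norm (X : Type v) [AddCommGroup X] [Module κ X] [Finite X] [Fintype (X →ₗ[κ] X)] :
    ∑ N : X →ₗ[κ] X, (if IsNilpotent N then cc (Nat.card κ) (finrank κ (LinearMap.ker N)) ^ 2 else 0) =
      - ((finrank κ X : ℂ) * ps (Nat.card κ) (finrank κ X) * cc (Nat.card κ) (finrank κ X)) := by
  haveI : Module.Finite κ X := Module.Finite.of_finite
  set m := finrank κ X with hm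
  have hQ0 : (Nat.card κ : ℂ) ≠ 0 := by
    exact_mod_cast (Nat.card_pos (α := κ)).ne'
  set Q : ℂ := (Nat.card κ : ℂ) with hQ
  let φ : Submodule κ X → ℂ := fun W => (finrank κ W : ℂ) * ps Q (finrank κ W)
  have h1 : ∀ N : X →ₗ[κ] X, (if IsNilpotent N then cc Q (finrank κ (LinearMap.ker N)) ^ 2 else 0) =
      ∑ W1 : Submodule κ X, ∑ W2 : Submodule κ X, φ W1 * φ W2 * (if (W2 ⊔ W1 ≤ LinearMap.ker N ∧ IsNilpotent N) then 1 else 0) := by
    intro N
    by_cases hN : IsNilpotent N
    · rw [if_pos hN, cc_ker, neg_sq, sq, Finset.sum_mul_sum]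
      apply sum_congr rfl; intro W1 _
      apply sum_congr rfl; intro W2 _
      by_cases hW1 : W1 ≤ LinearMap.ker N
      · by_cases hW2 : W2 ≤ LinearMap.ker N
        · rw [if_pos hW1, if_pos hW2, if_pos ⟨sup_le hW2 hW1, hN⟩, mul_one]
        · rw [if_neg hW2, if_neg (fun h : W2 ⊔ W1 ≤ LinearMap.ker N ∧ IsNilpotent N => hW2 (le_sup_left.trans h.1)), mul_zero, mul_zero]
      · rw [if_neg hW1, if_neg (fun h : W2 ⊔ W1 ≤ LinearMap.ker N ∧ IsNilpotent N => hW1 (le_sup_right.trans h.1)), zero_mul, mul_zero]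
    · rw [if_neg hN]
      symm
      apply Finset.sum_eq_zero; intro W1 _
      apply Finset.sum_eq_zero; intro W2 _
      rw [if_neg (fun h : W2 ⊔ W1 ≤ LinearMap.ker N ∧ IsNilpotent N => hN h.2), mul_zero]
  rw [sum_congr rfl (fun N _ => h1 N), sum_comm]
  have h2 : ∀ W1 : Submodule κ X, ∑ N : X →ₗ[κ] X, ∑ W2 : Submodule κ X, φ W1 * φ W2 * (if (W2 ⊔ W1 ≤ LinearMap.ker N ∧ IsNilpotent N) then 1 else 0) =
      Q ^ (m * (m - 1)) * (φ W1 * ∑ W2 : Submodule κ X, φ W2 * ((Q ^ (m - 1))⁻¹) ^ (finrank κ (W2 ⊔ W1 : Submodule κ X))) := by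
    intro W1
    rw [sum_comm, mul_sum, mul_sum]
    apply sum_congr rfl; intro W2 _
    rw [← mul_sum, Finset.sum_boole]
    have h3 : ((univ.filter (fun N : X →ₗ[κ] X => W2 ⊔ W1 ≤ LinearMap.ker N ∧ IsNilpotent N)).card : ℂ) = Nat.card (NilR X (W2 ⊔ W1)) := by
      rw [Nat.card_eq_fintype_card, Fintype.card_subtype]
    rw [h3, (nil_count m X rfl).2]
    have h7 : finrank κ (W2 ⊔ W1 : Submodule κ X) ≤ m := Submodule.finrank_le _
    have h8 : m * (m - 1) = (m - finrank κ (W2 ⊔ W1 : Submodule κ X)) * (m - 1) + (m - 1) * finrank κ (W2 ⊔ W1 : Submodule κ X) := by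
      rw [mul_comm (m - 1), ← add_mul]
      congr 1
      omega
    rw [h8, pow_add, inv_pow, ← pow_mul]
    push_cast
    rw [← hQ]
    have h9 := pow_ne_zero ((m - 1) * finrank κ (W2 ⊔ W1 : Submodule κ X)) hQ0
    field_simp
  rw [sum_congr rfl (fun W _ => h2 W), ← mul_sum]
  rcases Nat.eq_zero_or_pos m with h0 | h0
  · rw [h0]
    have : ∑ W1 : Submodule κ X, (φ W1 * ∑ W2 : Submodule κ X, φ W2 * ((Q ^ (0 - 1))⁻¹) ^ (finrank κ (W2 ⊔ W1 : Submodule κ X))) = 0 := by
      apply Finset.sum_eq_zero; intro W1 _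
      have : finrank κ W1 = 0 := by
        have := Submodule.finrank_le W1
        omega
      simp [φ, this]
    rw [this]; simp
  rw [Finset.sum_eq_single (⊤ : Submodule κ X)]
  · have h4 := H (m - 1) 0 X (⊤ : Submodule κ X) (by rw [finrank_top]; omega) (by omega) ((Q ^ (m - 1))⁻¹)
    rw [← hQ] at h4
    have h5 : m - 1 + 1 = m := by omega
    rw [h5, range_zero, prod_empty, mul_one] at h4
    rw [h4]
    show Q ^ (m * (m - 1)) * ((finrank κ (⊤ : Submodule κ X) : ℂ) * ps Q (finrank κ (⊤ : Submodule κ X)) * _) = _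
    rw [finrank_top, ← hm, inv_pow, ← pow_mul, mul_comm (m - 1) m]
    have h9 := pow_ne_zero (m * (m - 1)) hQ0
    field_simp
  · intro W1 _ hW1
    rcases Nat.eq_zero_or_pos (finrank κ W1) with h | h
    · simp [φ, h]
    · have hlt : finrank κ W1 < m := by
        apply lt_of_le_of_ne (Submodule.finrank_le W1)
        intro h'
        exact hW1 (Submodule.eq_top_of_finrank_eq h')
      have h4 := H (finrank κ W1 - 1) (m - finrank κ W1) X W1 (by omega) (by omega) ((Q ^ (m - 1))⁻¹)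
      rw [← hQ] at h4
      rw [h4]
      have h5 : ∏ i ∈ range (m - finrank κ W1), (1 - Q ^ (i + (finrank κ W1 - 1) + 1) * (Q ^ (m - 1))⁻¹) = 0 := by
        apply Finset.prod_eq_zero (i := m - finrank κ W1 - 1) (by rw [mem_range]; omega)
        have h6 : m - finrank κ W1 - 1 + (finrank κ W1 - 1) + 1 = m - 1 := by omega
        rw [h6, mul_inv_cancel₀ (pow_ne_zero _ hQ0), sub_self]
      rw [h5]; simp
  · intro h; exact absurd (mem_univ _) h

open Classical in
/-- the norm sum in terms of the order of the general linear group -/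
theorem nil_norm' (X : Type v) [AddCommGroup X] [Module κ X] [Finite X] [Fintype (X →ₗ[κ] X)] :
    ((Nat.card κ : ℂ) ^ (finrank κ X) - 1) *
    ∑ N : X →ₗ[κ] X, (if IsNilpotent N then cc (Nat.card κ) (finrank κ (LinearMap.ker N)) ^ 2 else 0) =
      (finrank κ X : ℂ) * Nat.card (X ≃ₗ[κ] X) := by
  rw [nil_norm, card_gl]
  rcases Nat.eq_zero_or_pos (finrank κ X) with h | h
  · rw [h]; simp
  · obtain ⟨m, hm⟩ := Nat.exists_eq_succ_of_ne_zero h.ne'
    rw [hm, Nat.succ_eq_add_one, cc_succ, prod_range_succ]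
    ring

end

end Cfsg.Agent.Lib.H16GA
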