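import Cfsg.Agent.Lib.H16GD

/-!
# The lattice identity (helper16)
-/

set_option autoImplicit false
set_option linter.all false

namespace Cfsg.Agent.Lib.H16GA

open Module Finset

universe u v w

section

variable {κ : Type u} [Field κ] [Finite κ]

scoped instance instFinDual {X : Type v} [AddCommGroup X] [Module κ X] [Finite X] : Finite (Dual κ X) := instFinHom

open Classical in
/-- sums over the subspaces above a subspace, in terms of the codimension -/
theorem sum_codim {X : Type v} [AddCommGroup X] [Module κ X] [Finite X] (T : Submodule κ X) (a : ℕ → ℂ) :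
    ∑ M : Submodule κ X, (if T ≤ M then a (finrank κ X - finrank κ M) else 0) =
      ∑ U : Submodule κ T.dualAnnihilator, a (finrank κ U) := by
  haveI : Module.Finite κ X := Module.Finite.of_finite
  rw [← sum_le T.dualAnnihilator a, Finset.sum_filter]
  let e : Submodule κ X ≃ Submodule κ (Dual κ X) := (Subspace.orderIsoFiniteDimensional (K := κ) (V := X)).toEquiv.trans OrderDual.ofDual
  have he : ∀ M, e M = M.dualAnnihilator := fun M => rfl
  rw [← Equiv.sum_comp e]
  apply sum_congr rfl
  intro M _
  rw [he]
  have h1 : M.dualAnnihilator ≤ T.dualAnnihilator ↔ T ≤ M := Subspace.dualAnnihilator_le_dualAnnihilator_iff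
  have h2 : finrank κ M.dualAnnihilator = finrank κ X - finrank κ M := by
    have := Subspace.finrank_add_finrank_dualAnnihilator_eq M
    omega
  by_cases h : T ≤ M
  · rw [if_pos h, if_pos (h1.2 h), h2]
  · rw [if_neg h, if_neg (fun h' => h (h1.1 h'))]

theorem finrank_dualAnn {X : Type v} [AddCommGroup X] [Module κ X] [Finite X] (T : Submodule κ X) :
    finrank κ T.dualAnnihilator = finrank κ X - finrank κ T := by
  haveI : Module.Finite κ X := Module.Finite.of_finite
  have := Subspace.finrank_add_finrank_dualAnnihilator_eq T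
  omega

open Classical in
theorem codim1 {X : Type v} [AddCommGroup X] [Module κ X] [Finite X] (T : Submodule κ X) (hT : T ≠ ⊤) :
    ∑ M : Submodule κ X, (if T ≤ M then ps (Nat.card κ) (finrank κ X - finrank κ M) else 0) = 0 := by
  haveI : Module.Finite κ X := Module.Finite.of_finite
  rw [sum_codim T (fun k => ps (Nat.card κ) k)]
  have h1 : 0 < finrank κ T.dualAnnihilator := by
    rw [finrank_dualAnn]
    have := Submodule.finrank_lt hT
    omega
  exact sum_ps_ker (κ := κ) (X := ↥T.dualAnnihilator) h1

open Classical in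
theorem codim2 {X : Type v} [AddCommGroup X] [Module κ X] [Finite X] (T : Submodule κ X) :
    ∑ M : Submodule κ X, (if T ≤ M then ((finrank κ X - finrank κ M : ℕ) : ℂ) * ps (Nat.card κ) (finrank κ X - finrank κ M) else 0) =
      - cc (Nat.card κ) (finrank κ X - finrank κ T) := by
  rw [sum_codim T (fun k => (k : ℂ) * ps (Nat.card κ) k), ← finrank_dualAnn]
  exact L3 (κ := κ) ↥T.dualAnnihilator

/-- Nakayama for nilpotent endomorphisms -/
theorem nakayama {X : Type v} [AddCommGroup X] [Module κ X] {N : X →ₗ[κ] X} (hN : IsNilpotent N)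
    {W : Submodule κ X} (hW : W ≤ W.comap N) (h : W ⊔ LinearMap.range N = ⊤) : W = ⊤ := by
  have h1 : ∀ k : ℕ, W ⊔ LinearMap.range (N ^ k) = ⊤ := by
    intro k
    induction k with
    | zero => rw [pow_zero, Module.End.one_eq_id, LinearMap.range_id, sup_top_eq]
    | succ k ih =>
      rw [eq_top_iff]
      intro x _
      have hx : x ∈ W ⊔ LinearMap.range N := by rw [h]; trivial
      obtain ⟨w, hw, y, ⟨z, rfl⟩, rfl⟩ := Submodule.mem_sup.1 hx
      have hz : z ∈ W ⊔ LinearMap.range (N ^ k) := by rw [ih]; trivial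
      obtain ⟨w', hw', y', ⟨z', rfl⟩, rfl⟩ := Submodule.mem_sup.1 hz
      refine Submodule.mem_sup.2 ⟨w + N w', W.add_mem hw (hW hw'), (N ^ (k + 1)) z', ⟨z', rfl⟩, ?_⟩
      rw [pow_succ', Module.End.mul_apply, map_add]
      abel
  obtain ⟨k, hk⟩ := hN
  have h2 := h1 k
  rw [hk, LinearMap.range_zero, sup_bot_eq] at h2
  exact h2

open Classical in
/-- the summand -/
noncomputable def FW {X : Type v} [AddCommGroup X] [Module κ X] (N : X →ₗ[κ] X) (W : Submodule κ X) : ℂ :=
  if W ≤ W.comap N then cc (Nat.card κ) (finrank κ (W ⊓ LinearMap.ker N : Submodule κ X)) else 0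

open Classical in
/-- restriction of the sum to an invariant subspace -/
theorem sum_FW_restrict {X : Type v} [AddCommGroup X] [Module κ X] [Finite X] (N : X →ₗ[κ] X) (M : Submodule κ X)
    (hM : ∀ x ∈ M, N x ∈ M) :
    ∑ W : Submodule κ X, (if W ≤ M then FW N W else 0) = ∑ W : Submodule κ M, FW (N.restrict hM) W := by
  rw [← Finset.sum_filter]
  symm
  refine Finset.sum_bij' (fun W _ => W.map M.subtype) (fun W _ => W.comap M.subtype) ?_ ?_ ?_ ?_ ?_
  · intro W _
    rw [mem_filter]
    refine ⟨mem_univ _, ?_⟩
    rintro _ ⟨w, _, rfl⟩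
    exact w.2
  · intro W _
    exact mem_univ _
  · intro W _
    exact Submodule.comap_map_eq_of_injective M.injective_subtype W
  · intro W hW
    rw [mem_filter] at hW
    rw [Submodule.map_comap_subtype, inf_eq_right.2 hW.2]
  · intro W _
    have h1 : (W ≤ W.comap (N.restrict hM)) ↔ (W.map M.subtype ≤ (W.map M.subtype).comap N) := by
      constructor
      · rintro h _ ⟨w, hw, rfl⟩
        exact ⟨N.restrict hM w, h hw, rfl⟩
      · intro h w hw
        obtain ⟨w', hw', he⟩ := h ⟨w, hw, rfl⟩
        have : w' = N.restrict hM w := Subtype.ext he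
        change N.restrict hM w ∈ W
        rw [← this]; exact hw'
    have h2 : finrank κ (W ⊓ LinearMap.ker (N.restrict hM) : Submodule κ M) =
        finrank κ (W.map M.subtype ⊓ LinearMap.ker N : Submodule κ X) := by
      have h3 : (W ⊓ LinearMap.ker (N.restrict hM)).map M.subtype = W.map M.subtype ⊓ LinearMap.ker N := by
        ext x
        constructor
        · rintro ⟨w, ⟨hw, hk⟩, rfl⟩
          refine ⟨⟨w, hw, rfl⟩, ?_⟩
          exact congrArg Subtype.val (LinearMap.mem_ker.1 hk)
        · rintro ⟨⟨w, hw, rfl⟩, hk⟩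
          exact ⟨w, ⟨hw, LinearMap.mem_ker.2 (Subtype.ext (LinearMap.mem_ker.1 hk))⟩, rfl⟩
      rw [← h3, Submodule.finrank_map_subtype_eq]
    unfold FW
    rw [h2]
    by_cases h : W ≤ W.comap (N.restrict hM)
    · rw [if_pos h, if_pos (h1.1 h)]
    · rw [if_neg h, if_neg (fun h' => h (h1.2 h'))]

theorem nil_restrict {X : Type v} [AddCommGroup X] [Module κ X] {N : X →ₗ[κ] X} (hN : IsNilpotent N)
    {M : Submodule κ X} (hM : ∀ x ∈ M, N x ∈ M) : IsNilpotent (N.restrict hM) := by
  obtain ⟨k, hk⟩ := hN
  refine ⟨k, ?_⟩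
  have h1 : ∀ (j : ℕ) (x : M), (((N.restrict hM) ^ j) x : X) = (N ^ j) (x : X) := by
    intro j
    induction j with
    | zero => intro x; rfl
    | succ j ih =>
      intro x
      rw [pow_succ', pow_succ', Module.End.mul_apply, Module.End.mul_apply, ← ih]
      rfl
  apply LinearMap.ext
  intro x
  apply Subtype.ext
  rw [h1, hk]
  rfl

theorem lattice (m : ℕ) : ∀ (X : Type v) [AddCommGroup X] [Module κ X] [Finite X], finrank κ X = m →
    ∀ N : X →ₗ[κ] X, IsNilpotent N → ∑ W : Submodule κ X, FW N W = m := by
  induction m using Nat.strong_induction_on with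
  | _ m ih =>
  intro X _ _ _ hX N hN
  classical
  haveI : Module.Finite κ X := Module.Finite.of_finite
  rcases Nat.eq_zero_or_pos m with h0 | h0
  · subst h0
    rw [Nat.cast_zero]
    apply Finset.sum_eq_zero
    intro W _
    unfold FW
    have : finrank κ (W ⊓ LinearMap.ker N : Submodule κ X) = 0 := by
      have := Submodule.finrank_le (W ⊓ LinearMap.ker N : Submodule κ X)
      omega
    rw [this, cc_zero]; simp
  set R := LinearMap.range N with hR
  have hRtop : R ≠ ⊤ := by
    intro h
    have := nakayama hN (W := ⊥) bot_le (by rw [← hR, h, bot_sup_eq])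
    have h1 : finrank κ (⊥ : Submodule κ X) = m := by rw [this, finrank_top, hX]
    rw [finrank_bot] at h1
    omega
  -- Moebius double sum
  have key : ∑ M : Submodule κ X, (if R ≤ M then ps (Nat.card κ) (finrank κ X - finrank κ M) *
      (∑ W : Submodule κ X, (if W ≤ M then FW N W else 0)) else 0) = cc (Nat.card κ) (finrank κ (LinearMap.ker N)) := by
    have h1 : ∀ M : Submodule κ X, (if R ≤ M then ps (Nat.card κ) (finrank κ X - finrank κ M) *
      (∑ W : Submodule κ X, (if W ≤ M then FW N W else 0)) else 0) =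
        ∑ W : Submodule κ X, FW N W * (if W ⊔ R ≤ M then ps (Nat.card κ) (finrank κ X - finrank κ M) else 0) := by
      intro M
      by_cases hM : R ≤ M
      · rw [if_pos hM, mul_sum]
        apply sum_congr rfl; intro W _
        by_cases hW : W ≤ M
        · rw [if_pos hW, if_pos (sup_le hW hM), mul_comm]
        · rw [if_neg hW, if_neg (fun h : W ⊔ R ≤ M => hW (le_sup_left.trans h))]; simp
      · rw [if_neg hM]
        symm
        apply Finset.sum_eq_zero; intro W _
        rw [if_neg (fun h : W ⊔ R ≤ M => hM (le_sup_right.trans h)), mul_zero]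
    rw [sum_congr rfl (fun M _ => h1 M), sum_comm]
    rw [Finset.sum_eq_single (⊤ : Submodule κ X)]
    · rw [← mul_sum, Finset.sum_eq_single (⊤ : Submodule κ X)]
      · rw [if_pos le_top, finrank_top, Nat.sub_self, ps_zero, mul_one]
        unfold FW
        rw [if_pos (show (⊤ : Submodule κ X) ≤ Submodule.comap N ⊤ from fun x _ => trivial), top_inf_eq]
      · intro M _ hM
        rw [if_neg]
        rw [top_sup_eq]
        exact fun h => hM (top_le_iff.1 h)
      · intro h; exact absurd (mem_univ _) h
    · intro W _ hW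
      rw [← mul_sum]
      by_cases hWi : W ≤ W.comap N
      · rw [codim1 _ (fun h => hW (nakayama hN hWi h)), mul_zero]
      · unfold FW
        rw [if_neg hWi, zero_mul]
    · intro h; exact absurd (mem_univ _) h
  -- evaluate by induction
  have h2 : ∀ M : Submodule κ X, (if R ≤ M then ps (Nat.card κ) (finrank κ X - finrank κ M) *
      (∑ W : Submodule κ X, (if W ≤ M then FW N W else 0)) else 0) =
      ((m : ℂ) * (if R ≤ M then ps (Nat.card κ) (finrank κ X - finrank κ M) else 0) -
      (if R ≤ M then ((finrank κ X - finrank κ M : ℕ) : ℂ) * ps (Nat.card κ) (finrank κ X - finrank κ M) else 0)) +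
      (if M = ⊤ then (∑ W : Submodule κ X, FW N W) - m else 0) := by
    intro M
    by_cases hM : R ≤ M
    · rw [if_pos hM, if_pos hM, if_pos hM]
      by_cases hMt : M = ⊤
      · rw [if_pos hMt]
        subst hMt
        rw [finrank_top, Nat.sub_self, ps_zero]
        simp
      · rw [if_neg hMt]
        have hMi : ∀ x ∈ M, N x ∈ M := fun x _ => hM ⟨x, rfl⟩
        rw [sum_FW_restrict N M hMi]
        have hlt := Submodule.finrank_lt hMt
        rw [ih (finrank κ M) (by omega) M rfl (N.restrict hMi) (nil_restrict hN hMi)]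
        rw [hX, Nat.cast_sub (by omega)]
        ring
    · rw [if_neg hM, if_neg hM, if_neg hM, if_neg]
      · simp
      · intro h; exact hM (h ▸ le_top)
  rw [sum_congr rfl (fun M _ => h2 M), sum_add_distrib, sum_sub_distrib, ← mul_sum, codim1 R hRtop, codim2,
    Finset.sum_ite_eq' univ (⊤ : Submodule κ X), if_pos (mem_univ _)] at key
  have h3 := LinearMap.finrank_range_add_finrank_ker N
  have h4 : finrank κ X - finrank κ R = finrank κ (LinearMap.ker N) := by rw [hR]; omega
  rw [h4] at key
  linear_combination key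

end

end Cfsg.Agent.Lib.H16GA
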