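import Cfsg.Agent.Lib.CharBasic2
import Cfsg.Agent.Lib.CharGalois
import Cfsg.Agent.Lib.BrauerApp

/-!
# Brauer lift for groups of order prime to the characteristic (helper16)
-/

set_option autoImplicit false
set_option linter.all false

namespace Cfsg.Agent.Lib.H16GF

open Cfsg Cfsg.Agent.Lib
open Cfsg.Agent.Lib.CharBasic Cfsg.Agent.Lib.CharGalois Cfsg.Agent.Lib.CharValues Cfsg.Agent.Lib.CharCentral
open Module
open scoped ComplexConjugate

universe u v w

noncomputable scoped instance instFU (K : Type v) [Monoid K] [Finite K] : Fintype Kˣ := Fintype.ofFinite _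

section

variable {K : Type v} [Field K] [Finite K] {U : Type w} [AddCommGroup U] [Module K U] [Finite U]

noncomputable def mu (T : U →ₗ[K] U) (b : K) : ℕ := finrank K (Module.End.eigenspace T b)

omit [Finite K] [Finite U] in
theorem pow_eig {T : U →ₗ[K] U} {b : K} {x : U} (h : T x = b • x) (k : ℕ) : (T ^ k) x = b ^ k • x := by
  induction k with
  | zero => simp
  | succ k ih => rw [pow_succ', Module.End.mul_apply, ih, map_smul, h, smul_smul, pow_succ]

omit [Finite K] [Finite U] in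
theorem mu_pow {T : U →ₗ[K] U} {n k : ℕ} (hn : 0 < n) (hk : k.Coprime n) (hT : T ^ n = 1) {b : K} (hb : b ^ n = 1) :
    mu (T ^ k) (b ^ k) = mu T b := by
  unfold mu
  have h1 : Module.End.eigenspace (T ^ k) (b ^ k) = Module.End.eigenspace T b := by
    ext x
    rw [Module.End.mem_eigenspace_iff, Module.End.mem_eigenspace_iff]
    constructor
    · intro h
      haveI : NeZero n := ⟨hn.ne'⟩
      obtain ⟨k', hk'⟩ : ∃ k' : ℕ, k * k' ≡ 1 [MOD n] := by
        refine ⟨((k : ZMod n)⁻¹).val, ?_⟩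
        rw [← ZMod.natCast_eq_natCast_iff]
        push_cast
        rw [ZMod.natCast_val, ZMod.cast_id', id, ZMod.coe_mul_inv_eq_one k hk]
      have h2 := pow_eig h k'
      rw [← pow_mul, ← pow_mul] at h2
      have e1 : T ^ (k * k') = T := by
        rw [pow_eq_pow_of_modEq hk' hT, pow_one]
      have e2 : b ^ (k * k') = b := by
        rw [pow_eq_pow_of_modEq hk' hb, pow_one]
      rw [e1, e2] at h2
      exact h2
    · intro h
      exact pow_eig h k
  rw [h1]

theorem card_eig (T : U →ₗ[K] U) (b : K) : Nat.card {x : U // T x = b • x} = Nat.card K ^ mu T b := by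
  haveI : Module.Finite K U := Module.Finite.of_finite
  unfold mu
  rw [← Module.natCard_eq_pow_finrank (K := K)]
  apply Nat.card_congr
  exact Equiv.subtypeEquivRight (fun x => Module.End.mem_eigenspace_iff.symm)

end

section

variable {E : Type u} [Group E] {K : Type v} [Field K] [Finite K] {U : Type w} [AddCommGroup U] [Module K U] [Finite U]

omit [Finite K] [Finite U] in
theorem mu_conj (ρ : E →* Module.End K U) (g h : E) (b : K) : mu (ρ (h * g * h⁻¹)) b = mu (ρ g) b := by
  let e : U ≃ₗ[K] U := LinearEquiv.ofLinear (ρ h) (ρ h⁻¹)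
    (by rw [← Module.End.mul_eq_comp, ← map_mul, mul_inv_cancel, map_one]; rfl)
    (by rw [← Module.End.mul_eq_comp, ← map_mul, inv_mul_cancel, map_one]; rfl)
  have he : ∀ x, e x = ρ h x := fun x => rfl
  have he' : ∀ x, ρ h⁻¹ (ρ h x) = x := fun x => by
    rw [← Module.End.mul_apply, ← map_mul, inv_mul_cancel, map_one]; rfl
  have he'' : ∀ x, ρ h (ρ h⁻¹ x) = x := fun x => by
    rw [← Module.End.mul_apply, ← map_mul, mul_inv_cancel, map_one]; rfl
  unfold mu
  have h1 : Module.End.eigenspace (ρ (h * g * h⁻¹)) b = (Module.End.eigenspace (ρ g) b).map (e : U →ₗ[K] U) := by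
    ext x
    rw [Module.End.mem_eigenspace_iff]
    constructor
    · intro hx
      refine ⟨ρ h⁻¹ x, ?_, he'' x⟩
      show _ ∈ Module.End.eigenspace (ρ g) b
      rw [Module.End.mem_eigenspace_iff]
      have h2 : ρ h⁻¹ (ρ (h * g * h⁻¹) x) = b • ρ h⁻¹ x := by rw [hx, map_smul]
      rw [← h2, map_mul, map_mul, Module.End.mul_apply, Module.End.mul_apply, he']
    · rintro ⟨y, hy, rfl⟩
      have hy' := Module.End.mem_eigenspace_iff.1 hy
      show ρ (h * g * h⁻¹) (ρ h y) = b • (ρ h y)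
      rw [map_mul, map_mul, Module.End.mul_apply, Module.End.mul_apply, he', hy', map_smul]
  rw [h1]
  exact LinearEquiv.finrank_map_eq e _

/-- the Brauer lift of a representation over a finite field -/
noncomputable def beta (ρ : E →* Module.End K U) (θ : Kˣ →* ℂˣ) (g : E) : ℂ :=
  ∑ b : Kˣ, (θ b : ℂ) * mu (ρ g) (b : K)

theorem beta_class (ρ : E →* Module.End K U) (θ : Kˣ →* ℂˣ) : IsClassFunction E (beta ρ θ) := by
  intro g h
  unfold beta
  simp only [mu_conj]

/-- the "q-analogue" of the Brauer lift -/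
noncomputable def betaQ (ρ : E →* Module.End K U) (θ : Kˣ →* ℂˣ) (g : E) : ℂ :=
  (Nat.card Kˣ : ℂ)⁻¹ * ∑ b : Kˣ, (θ b : ℂ) * ((Nat.card K : ℂ) ^ mu (ρ g) (b : K) - 1)

/-- action of `E × Kˣ` on `U` -/
@[reducible] def act (ρ : E →* Module.End K U) : MulAction (E × Kˣ) U where
  smul p x := ((p.2⁻¹ : Kˣ) : K) • ρ p.1 x
  one_smul x := by
    show (((1 : Kˣ)⁻¹ : Kˣ) : K) • ρ 1 x = x
    rw [map_one]; simp
  mul_smul p q x := by
    show (((p.2 * q.2)⁻¹ : Kˣ) : K) • ρ (p.1 * q.1) x = ((p.2⁻¹ : Kˣ) : K) • ρ p.1 (((q.2⁻¹ : Kˣ) : K) • ρ q.1 x)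
    rw [map_smul, smul_smul, map_mul, Module.End.mul_apply, mul_inv]
    push_cast
    rfl

theorem pi_gen (ρ : E →* Module.End K U) :
    IsGeneralizedCharacter (E × Kˣ) (fun p => ((Nat.card K : ℂ) ^ mu (ρ p.1) (p.2 : K) - 1)) := by
  letI := act ρ
  have h1 := isCharacter_perm (G := E × Kˣ) (X := U)
  have h2 : (fun p : E × Kˣ => ((Nat.card K : ℂ) ^ mu (ρ p.1) (p.2 : K) - 1)) =
      (fun g => (Nat.card (MulAction.fixedBy U g) : ℂ)) - (fun _ => (1 : ℂ)) := by
    funext p
    show _ = (Nat.card (MulAction.fixedBy U p) : ℂ) - 1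
    congr 1
    have h3 : Nat.card (MulAction.fixedBy U p) = Nat.card {x : U // ρ p.1 x = (p.2 : K) • x} := by
      apply Nat.card_congr
      apply Equiv.subtypeEquivRight
      intro x
      rw [MulAction.mem_fixedBy]
      show ((p.2⁻¹ : Kˣ) : K) • ρ p.1 x = x ↔ _
      constructor
      · intro h
        have := congrArg (fun y => (p.2 : K) • y) h
        simpa [smul_smul] using this
      · intro h
        rw [h, smul_smul]; simp
    rw [h3, card_eig]
    push_cast; rfl
  rw [h2]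
  refine h1.isGeneralized.sub ?_
  have := isCharacter_of_unitsHom (1 : (E × Kˣ) →* ℂˣ)
  simpa using this.isGeneralized

theorem betaQ_int [Fintype E] (ρ : E →* Module.End K U) (θ : Kˣ →* ℂˣ) {χ : E → ℂ} (hχ : IsGeneralizedCharacter E χ) :
    ∃ n : ℤ, classInner (betaQ ρ θ) χ = n := by
  have h1 : IsGeneralizedCharacter (E × Kˣ) (fun p => χ p.1 * conj (θ p.2 : ℂ)) := by
    have h2 := hχ.comp (MonoidHom.fst E Kˣ)
    have h3 := (isCharacter_of_unitsHom (θ.comp (MonoidHom.snd E Kˣ))).isGeneralized.conj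
    exact h2.mul h3
  obtain ⟨n, hn⟩ := (pi_gen ρ).classInner_int h1
  refine ⟨n, ?_⟩
  rw [← hn]
  unfold classInner betaQ
  rw [Fintype.sum_prod_type, Nat.card_prod]
  push_cast
  rw [mul_inv, mul_assoc]
  congr 1
  rw [Finset.mul_sum]
  apply Finset.sum_congr rfl
  intro g _
  rw [mul_assoc]
  congr 1
  rw [Finset.sum_mul]
  apply Finset.sum_congr rfl
  intro b _
  simp only [map_mul, Complex.conj_conj]
  ring

/-- the correction term -/
def hh (Q m : ℕ) : ℕ := ∑ i ∈ Finset.range m, ∑ j ∈ Finset.range i, Q ^ j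

theorem hh_spec (Q m : ℕ) : (Q : ℂ) ^ m - 1 = ((Q : ℂ) - 1) * (m + ((Q : ℂ) - 1) * hh Q m) := by
  induction m with
  | zero => simp [hh]
  | succ m ih =>
    have h1 : ((Q : ℂ) - 1) * ∑ j ∈ Finset.range m, (Q : ℂ) ^ j = (Q : ℂ) ^ m - 1 := by
      rw [mul_comm]; exact geom_sum_mul (Q : ℂ) m
    have h2 : ((hh Q (m + 1) : ℕ) : ℂ) = hh Q m + ∑ j ∈ Finset.range m, (Q : ℂ) ^ j := by
      have h3 : hh Q (m + 1) = hh Q m + ∑ j ∈ Finset.range m, Q ^ j := by
        rw [hh, hh, Finset.sum_range_succ]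
      rw [h3]; push_cast; rfl
    rw [h2]
    push_cast
    linear_combination ih + ((Q : ℂ) - 1) * (-1 : ℂ) * h1

theorem card_units_cast : (Nat.card Kˣ : ℂ) = (Nat.card K : ℂ) - 1 := by
  rw [Nat.card_units, Nat.cast_sub (Nat.card_pos (α := K))]
  simp

theorem betaQ_eq (ρ : E →* Module.End K U) (θ : Kˣ →* ℂˣ) (g : E) :
    betaQ ρ θ g = beta ρ θ g + (Nat.card Kˣ : ℂ) * ∑ b : Kˣ, (θ b : ℂ) * hh (Nat.card K) (mu (ρ g) (b : K)) := by
  unfold betaQ beta
  have hK : (Nat.card Kˣ : ℂ) ≠ 0 := by exact_mod_cast (Nat.card_pos (α := Kˣ)).ne'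
  rw [inv_mul_eq_iff_eq_mul₀ hK, mul_add, Finset.mul_sum, Finset.mul_sum, Finset.mul_sum, ← Finset.sum_add_distrib]
  apply Finset.sum_congr rfl
  intro b _
  rw [hh_spec, card_units_cast]
  ring

theorem isIntegral_nat (n : ℕ) : IsIntegral ℤ (n : ℂ) := by
  have := isIntegral_algebraMap (R := ℤ) (A := ℂ) (x := (n : ℤ))
  simpa using this

theorem isIntegral_unit {A : Type*} [Group A] [Finite A] (θ : A →* ℂˣ) (b : A) : IsIntegral ℤ (θ b : ℂ) := by
  have h1 : (θ b : ℂ) ^ Nat.card A = 1 := by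
    rw [← Units.val_pow_eq_pow_val, ← map_pow, pow_card_eq_one', map_one, Units.val_one]
  refine ⟨Polynomial.X ^ Nat.card A - 1, Polynomial.monic_X_pow_sub_C 1 (Nat.card_pos (α := A)).ne', ?_⟩
  simp [h1]

theorem isIntegral_gen [Finite E] {χ : E → ℂ} (hχ : IsGeneralizedCharacter E χ) (g : E) : IsIntegral ℤ (χ g) := by
  obtain ⟨a, b, ⟨n, ρ, rfl⟩, ⟨m, σ, rfl⟩, rfl⟩ := hχ
  exact (isIntegral_character ρ g).sub (isIntegral_character σ g)

/-- **Brauer lift** for groups whose order divides `|K| - 1` -/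
theorem beta_gen [Finite E] (hE : Nat.card E ∣ Nat.card Kˣ) (ρ : E →* Module.End K U) (θ : Kˣ →* ℂˣ) :
    IsGeneralizedCharacter E (beta ρ θ) := by
  classical
  haveI := Fintype.ofFinite E
  apply isGeneralized_of_classInner (beta_class ρ θ)
  intro χ hχ
  have hn : 0 < Nat.card Kˣ := Nat.card_pos
  have hE0 : (Nat.card E : ℂ) ≠ 0 := by exact_mod_cast (Nat.card_pos (α := E)).ne'
  -- integrality
  have hint : IsIntegral ℤ (classInner (beta ρ θ) χ) := by
    obtain ⟨c, hc⟩ := hE
    have h1 : classInner (beta ρ θ) χ = classInner (betaQ ρ θ) χ -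
        c * ∑ g : E, (∑ b : Kˣ, (θ b : ℂ) * hh (Nat.card K) (mu (ρ g) (b : K))) * conj (χ g) := by
      unfold classInner
      simp only [betaQ_eq]
      rw [Finset.mul_sum, Finset.mul_sum, Finset.mul_sum, ← Finset.sum_sub_distrib]
      apply Finset.sum_congr rfl
      intro g _
      rw [hc]
      push_cast
      field_simp
      ring
    rw [h1]
    obtain ⟨n, hn⟩ := betaQ_int ρ θ hχ.isGeneralized
    rw [hn]
    refine IsIntegral.sub ?_ ?_
    · have := isIntegral_algebraMap (R := ℤ) (A := ℂ) (x := n)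
      simpa using this
    · refine (isIntegral_nat c).mul (IsIntegral.sum _ fun g _ => ?_)
      refine (IsIntegral.sum _ fun b _ => ?_).mul ?_
      · exact (isIntegral_unit θ b).mul (isIntegral_nat _)
      · rw [← hχ.isGeneralized.inv]
        exact isIntegral_gen hχ.isGeneralized _
  -- rationality
  have hrat : ∃ q : ℚ, classInner (beta ρ θ) χ = (q : ℂ) := by
    apply exists_rat_of_fixed hint.tower_top
    intro σ
    obtain ⟨k, hk, hσ⟩ := exists_pow_of_ringHom (n := Nat.card Kˣ) hn σ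
    have hkE : (Nat.card E).Coprime k := (Nat.Coprime.coprime_dvd_right hE hk).symm
    have hkK : (Nat.card Kˣ).Coprime k := hk.symm
    have h1 : ∀ g, σ (conj (χ g)) = conj (χ (g ^ k)) := by
      intro g
      rw [← hχ.isGeneralized.inv, ← hχ.isGeneralized.inv, map_apply_eq hχ.isCharacter σ k g⁻¹, inv_pow]
      intro μ hμ
      apply hσ
      obtain ⟨d, hd⟩ := (orderOf_dvd_natCard g⁻¹).trans hE
      rw [hd, pow_mul, hμ, one_pow]
    have h2 : ∀ g, σ (beta ρ θ g) = beta ρ θ (g ^ k) := by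
      intro g
      unfold beta
      rw [map_sum]
      refine Eq.trans ?_ (Equiv.sum_comp (powCoprime hkK) (fun b : Kˣ => (θ b : ℂ) * mu (ρ (g ^ k)) (b : K)))
      apply Finset.sum_congr rfl
      intro b _
      rw [map_mul, map_natCast]
      have h3 : σ (θ b : ℂ) = (θ (powCoprime hkK b) : ℂ) := by
        rw [hσ]
        · show _ = (θ (b ^ k) : ℂ)
          rw [map_pow, Units.val_pow_eq_pow_val]
        · rw [← Units.val_pow_eq_pow_val, ← map_pow, pow_card_eq_one', map_one, Units.val_one]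
      rw [h3]
      congr 2
      show mu (ρ g) (b : K) = mu (ρ (g ^ k)) ((b ^ k : Kˣ) : K)
      rw [map_pow, Units.val_pow_eq_pow_val, mu_pow hn hk]
      · obtain ⟨d, hd⟩ := hE
        rw [← map_pow, hd, pow_mul, pow_card_eq_one', one_pow, map_one]
      · rw [← Units.val_pow_eq_pow_val, pow_card_eq_one', Units.val_one]
    unfold classInner
    rw [map_mul, map_inv₀, map_natCast, map_sum]
    congr 1
    refine Eq.trans ?_ (Equiv.sum_comp (powCoprime hkE) (fun g => beta ρ θ g * conj (χ g)))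
    apply Finset.sum_congr rfl
    intro g _
    rw [map_mul, h1, h2]
    rfl
  obtain ⟨q, hq⟩ := hrat
  exact exists_int_of_isIntegral_rat hint q hq

end

end Cfsg.Agent.Lib.H16GF
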