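import Cfsg.Agent.Lib.H16GE
import Cfsg.Agent.Lib.H16GF

/-!
# Structures over the field generated by an eigenvalue (helper16)
-/

set_option autoImplicit false
set_option linter.all false

namespace Cfsg.Agent.Lib.H16GG

open Module Polynomial IntermediateField Cfsg.Agent.Lib.H16GA Cfsg.Agent.Lib.H16GF

universe u v w x y

section basic

variable {F : Type u} {K : Type v} [Field F] [Field K] [Algebra F K] [FiniteDimensional F K]
variable {X : Type w} [AddCommGroup X] [Module F X]

theorem isint (b : K) : IsIntegral F b := Algebra.IsIntegral.isIntegral b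

noncomputable def hom (b : K) (s : Module.End F X) (h : aeval s (minpoly F b) = 0) : F⟮b⟯ →ₐ[F] Module.End F X :=
  (adjoin.powerBasis (isint b)).lift s (by rw [adjoin.powerBasis_gen, minpoly_gen]; exact h)

theorem hom_gen (b : K) (s : Module.End F X) (h : aeval s (minpoly F b) = 0) :
    hom b s h (AdjoinSimple.gen F b) = s := by
  have h1 := PowerBasis.lift_gen (adjoin.powerBasis (isint (F := F) b)) s (by rw [adjoin.powerBasis_gen, minpoly_gen]; exact h)
  exact (congrArg (hom b s h) (adjoin.powerBasis_gen (isint (F := F) b)).symm).trans h1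

theorem adjoin_gen (b : K) : Algebra.adjoin F {AdjoinSimple.gen F b} = ⊤ := by
  have := (adjoin.powerBasis (isint (F := F) b)).adjoin_gen_eq_top
  rw [adjoin.powerBasis_gen] at this
  exact this

@[reducible] noncomputable def modk (b : K) (s : Module.End F X) (h : aeval s (minpoly F b) = 0) : Module F⟮b⟯ X :=
  Module.compHom X (hom b s h).toRingHom

theorem modk_smul (b : K) (s : Module.End F X) (h : aeval s (minpoly F b) = 0) (k : F⟮b⟯) (x : X) :
    letI := modk b s h; k • x = hom b s h k x := rfl

theorem modk_tower (b : K) (s : Module.End F X) (h : aeval s (minpoly F b) = 0) :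
    letI := modk b s h; IsScalarTower F F⟮b⟯ X := by
  letI := modk b s h
  refine ⟨fun a k x => ?_⟩
  show hom b s h (a • k) x = a • (hom b s h k x)
  rw [map_smul]; rfl

end basic

section tower

variable {F : Type u} [Field F] {κ : Type v} [Field κ] [Algebra F κ] {β : κ} (hβ : Algebra.adjoin F {β} = ⊤)
variable {X : Type w} [AddCommGroup X] [Module F X] [Module κ X] [IsScalarTower F κ X]
variable {Y : Type x} [AddCommGroup Y] [Module F Y] [Module κ Y] [IsScalarTower F κ Y]

include hβ in
theorem kind {P : κ → Prop} (h1 : ∀ a : F, P (algebraMap F κ a)) (h2 : P β) (h3 : ∀ a b, P a → P b → P (a + b))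
    (h4 : ∀ a b, P a → P b → P (a * b)) (k : κ) : P k := by
  have hk : k ∈ Algebra.adjoin F {β} := by rw [hβ]; trivial
  induction hk using Algebra.adjoin_induction with
  | mem x hx => rw [Set.mem_singleton_iff] at hx; rw [hx]; exact h2
  | algebraMap r => exact h1 r
  | add x y _ _ hx hy => exact h3 x y hx hy
  | mul x y _ _ hx hy => exact h4 x y hx hy

include hβ in
theorem lin_of_comm (ψ : X →ₗ[F] Y) (h : ∀ x, ψ (β • x) = β • ψ x) (k : κ) (x : X) : ψ (k • x) = k • ψ x := by
  revert x
  refine kind hβ (P := fun k => ∀ x, ψ (k • x) = k • ψ x) ?_ h ?_ ?_ k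
  · intro a x
    rw [algebraMap_smul, map_smul, algebraMap_smul]
  · intro a b ha hb x
    rw [add_smul, map_add, ha, hb, add_smul]
  · intro a b ha hb x
    rw [mul_smul, ha, hb, mul_smul]

/-- linear maps commuting with the generator -/
def toK (ψ : X →ₗ[F] Y) (h : ∀ x, ψ (β • x) = β • ψ x) : X →ₗ[κ] Y where
  toFun := ψ
  map_add' := map_add ψ
  map_smul' := lin_of_comm hβ ψ h

include hβ in
theorem smul_mem_of (W : Submodule F X) (h : ∀ x ∈ W, β • x ∈ W) (k : κ) : ∀ x ∈ W, k • x ∈ W := by
  refine kind hβ (P := fun k => ∀ x ∈ W, k • x ∈ W) ?_ h ?_ ?_ k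
  · intro a x hx
    rw [algebraMap_smul]; exact W.smul_mem a hx
  · intro a b ha hb x hx
    rw [add_smul]; exact W.add_mem (ha x hx) (hb x hx)
  · intro a b ha hb x hx
    rw [mul_smul]; exact ha _ (hb x hx)

/-- subspaces invariant under the generator -/
def subK (W : Submodule F X) (h : ∀ x ∈ W, β • x ∈ W) : Submodule κ X where
  carrier := W
  add_mem' := W.add_mem
  zero_mem' := W.zero_mem
  smul_mem' := fun k x hx => smul_mem_of hβ W h k x hx

theorem fr_tower [FiniteDimensional F κ] [Module.Finite κ X] : finrank F κ * finrank κ X = finrank F X :=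
  Module.finrank_mul_finrank F κ X

end tower

/-! ### multiplicities -/

section mult

variable {F : Type u} {K : Type v} [Field F] [Field K] [Algebra F K] [Finite F] [Finite K]
variable {V : Type w} [AddCommGroup V] [Module F V] [Finite V]

/-- the operator `φ ↦ φ ∘ s` -/
def dualOp (K : Type v) [Field K] [Algebra F K] (s : Module.End F V) : Module.End K (V →ₗ[F] K) where
  toFun φ := φ ∘ₗ s
  map_add' _ _ := rfl
  map_smul' _ _ := rfl

theorem mem_aux (b : K) (s : Module.End F V) (φ : V →ₗ[F] K) (h : ∀ x, φ (s x) = b * φ x) (f : F[X]) (x : V) :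
    φ (aeval s f x) = aeval b f * φ x := by
  induction f using Polynomial.induction_on' with
  | add f g hf hg => rw [map_add, map_add, LinearMap.add_apply, map_add, hf, hg, add_mul]
  | monomial n a =>
    rw [aeval_monomial, aeval_monomial]
    have h1 : ∀ x, φ ((s ^ n) x) = b ^ n * φ x := by
      intro x
      induction n with
      | zero => simp
      | succ n ih => rw [pow_succ', Module.End.mul_apply, h, ih, pow_succ']; ring
    rw [Module.End.mul_apply, Module.algebraMap_end_apply, map_smul, h1, Algebra.smul_def, mul_assoc]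

theorem aeval_inter {X : Type x} [AddCommGroup X] [Module F X] {Y : Type y} [AddCommGroup Y] [Module F Y]
    (π : X →ₗ[F] Y) {s : Module.End F X} {t : Module.End F Y} (h : ∀ x, π (s x) = t (π x)) (f : F[X]) (x : X) :
    π (aeval s f x) = aeval t f (π x) := by
  induction f using Polynomial.induction_on' with
  | add f g hf hg => rw [map_add, map_add, LinearMap.add_apply, map_add, hf, hg, LinearMap.add_apply]
  | monomial n a =>
    rw [aeval_monomial, aeval_monomial]
    have h1 : ∀ x, π ((s ^ n) x) = (t ^ n) (π x) := by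
      intro x
      induction n with
      | zero => simp
      | succ n ih => rw [pow_succ', Module.End.mul_apply, h, ih, pow_succ', Module.End.mul_apply]
    rw [Module.End.mul_apply, Module.algebraMap_end_apply, map_smul, h1, Module.End.mul_apply, Module.algebraMap_end_apply]

theorem aeval_comm {X : Type x} [AddCommGroup X] [Module F X] (s : Module.End F X) (f : F[X]) (x : X) :
    aeval s f (s x) = s (aeval s f x) := by
  have h1 : aeval s f * aeval s (Polynomial.X : Polynomial F) = aeval s (Polynomial.X : Polynomial F) * aeval s f := by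
    rw [← map_mul, ← map_mul, mul_comm]
  rw [aeval_X] at h1
  exact LinearMap.congr_fun h1 x

theorem mu_dual (b : K) (s : Module.End F V) :
    mu (dualOp K s) b = finrank F (LinearMap.ker (aeval s (minpoly F b))) / finrank F F⟮b⟯ := by
  classical
  haveI : Module.Finite F V := Module.Finite.of_finite
  haveI : Module.Finite F K := Module.Finite.of_finite
  haveI : Finite (V →ₗ[F] K) := instFinHom
  set A : Module.End F V := aeval s (minpoly F b) with hA
  have hcomm : ∀ x, A (s x) = s (A x) := aeval_comm s _
  set R : Submodule F V := LinearMap.range A with hR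
  have hRs : R ≤ R.comap s := by
    rintro _ ⟨x, rfl⟩
    exact ⟨s x, hcomm x⟩
  set sY : Module.End F (V ⧸ R) := R.mapQ R s hRs with hsY
  have hsY1 : ∀ x, R.mkQ (s x) = sY (R.mkQ x) := fun x => rfl
  have hY : aeval sY (minpoly F b) = 0 := by
    apply LinearMap.ext
    intro y
    obtain ⟨x, rfl⟩ := R.mkQ_surjective y
    rw [← aeval_inter R.mkQ hsY1, LinearMap.zero_apply, mkz]
    exact ⟨x, rfl⟩
  letI := modk b sY hY
  haveI : IsScalarTower F F⟮b⟯ (V ⧸ R) := modk_tower b sY hY
  haveI : Module.Finite F⟮b⟯ (V ⧸ R) := Module.Finite.of_finite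
  have hβ := adjoin_gen (F := F) b
  have hgen : ∀ y : V ⧸ R, AdjoinSimple.gen F b • y = sY y := by
    intro y
    show hom b sY hY (AdjoinSimple.gen F b) y = sY y
    rw [hom_gen]
  have hgenK : ∀ z : K, AdjoinSimple.gen F b • z = b * z := by
    intro z
    rw [Algebra.smul_def, AdjoinSimple.algebraMap_gen]
  -- dimension of the quotient
  have hd1 : finrank F (V ⧸ R) = finrank F (LinearMap.ker A) := by
    have h1 := Submodule.finrank_quotient_add_finrank R
    have h2 : finrank F R + finrank F (LinearMap.ker A) = finrank F V := LinearMap.finrank_range_add_finrank_ker A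
    omega
  have hd2 : finrank F F⟮b⟯ * finrank F⟮b⟯ (V ⧸ R) = finrank F (V ⧸ R) := Module.finrank_mul_finrank F F⟮b⟯ (V ⧸ R)
  have hd3 : 0 < finrank F F⟮b⟯ := Module.finrank_pos
  rw [← hd1, ← hd2, Nat.mul_div_cancel_left _ hd3]
  have hvan : ∀ φ : V →ₗ[F] K, dualOp K s φ = b • φ → ∀ x, φ (s x) = b * φ x := by
    intro φ h x
    exact LinearMap.congr_fun h x
  let e : {φ : V →ₗ[F] K // dualOp K s φ = b • φ} ≃ ((V ⧸ R) →ₗ[F⟮b⟯] K) :=
    { toFun := fun φ => toK hβ (R.liftQ φ.1 (by
          rintro _ ⟨x, rfl⟩
          rw [LinearMap.mem_ker, hA, mem_aux b s φ.1 (hvan φ.1 φ.2), minpoly.aeval, zero_mul])) (by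
          intro y
          obtain ⟨x, rfl⟩ := R.mkQ_surjective y
          rw [hgen, hgenK, ← hsY1]
          exact hvan φ.1 φ.2 x)
      invFun := fun ψ => ⟨(ψ.restrictScalars F) ∘ₗ R.mkQ, by
          apply LinearMap.ext
          intro x
          show ψ (R.mkQ (s x)) = b • ψ (R.mkQ x)
          rw [hsY1, ← hgen, map_smul, hgenK]; rfl⟩
      left_inv := fun φ => by
        apply Subtype.ext
        apply LinearMap.ext
        intro x
        rfl
      right_inv := fun ψ => by
        apply LinearMap.ext
        intro y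
        obtain ⟨x, rfl⟩ := R.mkQ_surjective y
        rfl }
  have h1 := card_eig (dualOp K s) b
  rw [Nat.card_congr e, card_hom, mul_comm, pow_mul, ← Module.natCard_eq_pow_finrank (K := F⟮b⟯) (V := K)] at h1
  exact (Nat.pow_right_injective (Finite.one_lt_card (α := K)) h1).symm

end mult

end Cfsg.Agent.Lib.H16GG
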