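import Cfsg.Agent.Lib.H16GG

/-!
# Frobenius powers and the Jordan decomposition (helper16)
-/

set_option autoImplicit false
set_option linter.all false

namespace Cfsg.Agent.Lib.H16GG

open Module Polynomial IntermediateField Cfsg.Agent.Lib.H16GA Cfsg.Agent.Lib.H16GF

universe u v w x y

section frob

variable {F : Type u} [Field F] [Finite F] {K : Type v} [Field K] [Finite K] [Algebra F K]

theorem pow_cardK (b : K) (j : ℕ) : b ^ (Nat.card K ^ j) = b := by
  haveI := Fintype.ofFinite K
  rw [Nat.card_eq_fintype_card]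
  exact FiniteField.pow_card_pow j b

theorem frob_aeval {A : Type w} [Ring A] [Algebra F A] (f : F[X]) (T : A) (i : ℕ) :
    aeval (T ^ (Nat.card F ^ i)) f = (aeval T f) ^ (Nat.card F ^ i) := by
  haveI := Fintype.ofFinite F
  rw [Nat.card_eq_fintype_card]
  induction i with
  | zero => simp
  | succ i ih =>
    rw [pow_succ, pow_mul, ← expand_aeval, FiniteField.expand_card, map_pow, ih, ← pow_mul]

theorem frob_aevalK {A : Type w} [Ring A] [Algebra F A] (f : F[X]) (T : A) (j : ℕ) :
    aeval (T ^ (Nat.card K ^ j)) f = (aeval T f) ^ (Nat.card K ^ j) := by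
  haveI : Module.Finite F K := Module.Finite.of_finite
  have h : Nat.card K ^ j = Nat.card F ^ (finrank F K * j) := by
    rw [Module.natCard_eq_pow_finrank (K := F) (V := K), ← pow_mul]
  rw [h, frob_aeval]

variable (K) in
theorem pow_frob {A : Type w} [Ring A] [Algebra F A] {a b : A} (h : Commute a b) (j : ℕ) :
    (a - b) ^ (Nat.card K ^ j) = a ^ (Nat.card K ^ j) - b ^ (Nat.card K ^ j) ∧
    (a + b) ^ (Nat.card K ^ j) = a ^ (Nat.card K ^ j) + b ^ (Nat.card K ^ j) := by
  rcases subsingleton_or_nontrivial A with hA | hA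
  · exact ⟨Subsingleton.elim _ _, Subsingleton.elim _ _⟩
  haveI := Fintype.ofFinite K
  obtain ⟨p, hp⟩ := CharP.exists K
  obtain ⟨n, hpp, hn⟩ := FiniteField.card K p
  haveI : Fact p.Prime := ⟨hpp⟩
  haveI : CharP F p := (Algebra.charP_iff F K p).2 hp
  haveI : CharP A p := charP_of_injective_algebraMap (algebraMap F A).injective p
  haveI : ExpChar A p := ExpChar.prime hpp
  rw [Nat.card_eq_fintype_card, hn, ← pow_mul]
  exact ⟨sub_pow_char_pow_of_commute p _ h, add_pow_char_pow_of_commute p _ h⟩

theorem minpoly_dvd (b : K) (j : ℕ) : minpoly F b ∣ (X ^ (Nat.card K ^ j) - X : F[X]) := by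
  apply minpoly.dvd
  rw [map_sub, map_pow, aeval_X, pow_cardK, sub_self]

end frob

section jordan

variable {F : Type u} [Field F] [Finite F] {K : Type v} [Field K] [Finite K] [Algebra F K]
variable {V : Type w} [AddCommGroup V] [Module F V] [Finite V]

omit [Finite F] in
theorem nil_pow {A : Module.End F V} (h : IsNilpotent A) {m : ℕ} (hm : finrank F V ≤ m) : A ^ m = 0 := by
  haveI : Module.Finite F V := Module.Finite.of_finite
  obtain ⟨k, hk⟩ := h
  have h1 : LinearMap.ker (A ^ (max m k)) = ⊤ := by
    rw [LinearMap.ker_eq_top]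
    obtain ⟨t, ht⟩ := Nat.exists_eq_add_of_le (le_max_right m k)
    rw [ht, pow_add, hk, zero_mul]
  rw [Module.End.ker_pow_eq_ker_pow_finrank_of_le (hm.trans (le_max_left m k)),
    ← Module.End.ker_pow_eq_ker_pow_finrank_of_le hm] at h1
  exact LinearMap.ker_eq_top.1 h1

variable (b : K) (j : ℕ)

theorem js_root {T : Module.End F V} (h : (aeval T (minpoly F b)) ^ (Nat.card K ^ j) = 0) :
    aeval (T ^ (Nat.card K ^ j)) (minpoly F b) = 0 := by
  rw [frob_aevalK, h]

theorem js_pow {s : Module.End F V} (h : aeval s (minpoly F b) = 0) (i : ℕ) : s ^ (Nat.card K ^ i) = s := by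
  obtain ⟨g, hg⟩ := minpoly_dvd (F := F) b i
  have := congrArg (aeval s) hg
  rw [map_mul, h, zero_mul, map_sub, map_pow, aeval_X, sub_eq_zero] at this
  exact this

theorem jn_pow {T : Module.End F V} (h : (aeval T (minpoly F b)) ^ (Nat.card K ^ j) = 0) :
    (T - T ^ (Nat.card K ^ j)) ^ (Nat.card K ^ j) = 0 := by
  rw [(pow_frob (F := F) K ((Commute.refl T).pow_right _) j).1, js_pow b (js_root b j h), sub_self]

theorem jcomb {s N : Module.End F V} (h : aeval s (minpoly F b) = 0) (hc : Commute s N) (hN : N ^ (Nat.card K ^ j) = 0) :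
    (s + N) ^ (Nat.card K ^ j) = s ∧ (aeval (s + N) (minpoly F b)) ^ (Nat.card K ^ j) = 0 := by
  have h1 : (s + N) ^ (Nat.card K ^ j) = s := by
    rw [(pow_frob (F := F) K hc j).2, hN, add_zero, js_pow b h]
  refine ⟨h1, ?_⟩
  rw [← frob_aevalK, h1, h]

/-- the kernel of `f(T)` is the kernel of the nilpotent part -/
theorem ker_eq {T : Module.End F V} (h : (aeval T (minpoly F b)) ^ (Nat.card K ^ j) = 0) :
    LinearMap.ker (aeval T (minpoly F b)) = LinearMap.ker (T - T ^ (Nat.card K ^ j)) := by
  ext x
  rw [LinearMap.mem_ker, LinearMap.mem_ker]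
  constructor
  · intro hx
    obtain ⟨g, hg⟩ := minpoly_dvd (F := F) b j
    have h1 := congrArg (fun f => aeval T f x) hg
    simp only [map_sub, map_pow, aeval_X, mul_comm (minpoly F b), map_mul, Module.End.mul_apply, hx, map_zero] at h1
    rw [LinearMap.sub_apply, sub_eq_zero] at h1 ⊢
    exact h1.symm
  · intro hx
    rw [LinearMap.sub_apply, sub_eq_zero] at hx
    set s := T ^ (Nat.card K ^ j) with hs
    have hc : Commute T s := (Commute.refl T).pow_right _
    have h1 : ∀ n : ℕ, (T ^ n) x = (s ^ n) x := by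
      intro n
      induction n with
      | zero => rfl
      | succ n ih =>
        rw [pow_succ', Module.End.mul_apply, ih, ← Module.End.mul_apply, (hc.pow_right n).eq, Module.End.mul_apply, hx,
          ← Module.End.mul_apply, ← pow_succ]
    have h2 : ∀ f : F[X], aeval T f x = aeval s f x := by
      intro f
      induction f using Polynomial.induction_on' with
      | add f g hf hg => rw [map_add, map_add, LinearMap.add_apply, hf, hg, LinearMap.add_apply]
      | monomial n a =>
        rw [aeval_monomial, aeval_monomial, Module.End.mul_apply, Module.End.mul_apply, h1]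
    rw [h2, js_root b j h]
    rfl

end jordan

end Cfsg.Agent.Lib.H16GG
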