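import Cfsg.Agent.Lib.H16GH

/-!
# Multiplicities as sums over invariant subspaces (helper16)
-/

set_option autoImplicit false
set_option linter.all false

namespace Cfsg.Agent.Lib.H16GG

open Module Polynomial IntermediateField Cfsg.Agent.Lib.H16GA Cfsg.Agent.Lib.H16GF

universe u v w x y

section core

variable {F : Type u} [Field F] {κ : Type v} [Field κ] [Finite κ] [Algebra F κ] [FiniteDimensional F κ]
variable {X : Type w} [AddCommGroup X] [Module F X] [Module κ X] [IsScalarTower F κ X] [Finite X]

open Classical in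
theorem core {β : κ} (hβ : Algebra.adjoin F {β} = ⊤) (N : X →ₗ[κ] X) (hN : IsNilpotent N) (T : Module.End F X)
    (hT : ∀ x, T x = β • x + N x) (hinv : ∀ W : Submodule F X, (∀ x ∈ W, T x ∈ W) → ∀ x ∈ W, β • x ∈ W) :
    ∑ W : Submodule F X, (if ∀ x ∈ W, T x ∈ W then
      cc (Nat.card κ) (finrank F (W ⊓ LinearMap.ker (N.restrictScalars F) : Submodule F X) / finrank F κ) else 0) = finrank κ X := by
  haveI : Module.Finite κ X := Module.Finite.of_finite
  rw [← lattice (finrank κ X) X rfl N hN]
  rw [← Finset.sum_filter]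
  have hr : ∑ W : Submodule κ X, FW N W = ∑ W ∈ Finset.univ.filter (fun W : Submodule κ X => W ≤ W.comap N),
      cc (Nat.card κ) (finrank κ (W ⊓ LinearMap.ker N : Submodule κ X)) := by
    rw [Finset.sum_filter]
    rfl
  rw [hr]
  refine Finset.sum_bij' (fun W hW => subK hβ W (hinv W (Finset.mem_filter.1 hW).2)) (fun W _ => W.restrictScalars F) ?_ ?_ ?_ ?_ ?_
  · intro W hW
    rw [Finset.mem_filter]
    refine ⟨Finset.mem_univ _, ?_⟩
    intro x hx
    have h1 := (Finset.mem_filter.1 hW).2 x hx
    have h2 := hinv W (Finset.mem_filter.1 hW).2 x hx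
    rw [hT] at h1
    have h3 := W.sub_mem h1 h2
    rw [add_sub_cancel_left] at h3
    exact h3
  · intro W hW
    rw [Finset.mem_filter]
    refine ⟨Finset.mem_univ _, ?_⟩
    intro x hx
    rw [hT]
    exact W.add_mem (W.smul_mem _ hx) ((Finset.mem_filter.1 hW).2 hx)
  · intro W hW
    rfl
  · intro W hW
    rfl
  · intro W hW
    congr 1
    have hd3 : 0 < finrank F κ := Module.finrank_pos
    apply Nat.div_eq_of_eq_mul_right hd3
    exact (Module.finrank_mul_finrank F κ (subK hβ W (hinv W (Finset.mem_filter.1 hW).2) ⊓ LinearMap.ker N : Submodule κ X)).symm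

end core

section ident

variable {F : Type u} [Field F] [Finite F] {K : Type v} [Field K] [Finite K] [Algebra F K]
variable {V : Type w} [AddCommGroup V] [Module F V] [Finite V]

open Classical in
noncomputable def gam (b : K) (T : Module.End F V) : ℂ :=
  if IsNilpotent (aeval T (minpoly F b)) then
    cc (Nat.card F⟮b⟯) (finrank F (LinearMap.ker (aeval T (minpoly F b))) / finrank F F⟮b⟯) else 0

variable (b : K) (j : ℕ)

theorem restrict_inter (T : Module.End F V) (W : Submodule F V) (h : ∀ x ∈ W, T x ∈ W) (f : F[X]) (x : W) :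
    ((aeval (T.restrict h) f x : W) : V) = aeval T f (x : V) :=
  aeval_inter W.subtype (s := T.restrict h) (t := T) (fun x => rfl) f x

open Classical in
theorem gam_restrict (hj : finrank F V ≤ Nat.card K ^ j) (T : Module.End F V) (W : Submodule F V) (h : ∀ x ∈ W, T x ∈ W) :
    gam b (T.restrict h) = if W ≤ LinearMap.ker ((aeval T (minpoly F b)) ^ (Nat.card K ^ j)) then
      cc (Nat.card F⟮b⟯) (finrank F (W ⊓ LinearMap.ker (aeval T (minpoly F b)) : Submodule F V) / finrank F F⟮b⟯) else 0 := by
  haveI : Module.Finite F V := Module.Finite.of_finite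
  unfold gam
  have h1 : IsNilpotent (aeval (T.restrict h) (minpoly F b)) ↔ W ≤ LinearMap.ker ((aeval T (minpoly F b)) ^ (Nat.card K ^ j)) := by
    constructor
    · intro hn x hx
      have h2 := nil_pow hn (m := Nat.card K ^ j) ((Submodule.finrank_le W).trans hj)
      rw [← map_pow] at h2
      have h3 := restrict_inter T W h (minpoly F b ^ (Nat.card K ^ j)) ⟨x, hx⟩
      rw [h2] at h3
      rw [LinearMap.mem_ker, ← map_pow, ← h3]
      rfl
    · intro hW
      refine ⟨Nat.card K ^ j, ?_⟩
      apply LinearMap.ext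
      intro x
      apply Subtype.ext
      rw [← map_pow, restrict_inter, map_pow]
      exact LinearMap.mem_ker.1 (hW x.2)
  have h2 : finrank F (LinearMap.ker (aeval (T.restrict h) (minpoly F b))) =
      finrank F (W ⊓ LinearMap.ker (aeval T (minpoly F b)) : Submodule F V) := by
    have h3 : (LinearMap.ker (aeval (T.restrict h) (minpoly F b))).map W.subtype = W ⊓ LinearMap.ker (aeval T (minpoly F b)) := by
      ext x
      constructor
      · rintro ⟨y, hy, rfl⟩
        refine ⟨y.2, ?_⟩
        have h4 := restrict_inter T W h (minpoly F b) y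
        rw [LinearMap.mem_ker.1 hy] at h4
        exact LinearMap.mem_ker.2 h4.symm
      · rintro ⟨hx, hk⟩
        refine ⟨⟨x, hx⟩, ?_, rfl⟩
        show _ ∈ LinearMap.ker (aeval (T.restrict h) (minpoly F b))
        rw [LinearMap.mem_ker]
        apply Subtype.ext
        rw [restrict_inter]
        exact LinearMap.mem_ker.1 hk
    rw [← h3, Submodule.finrank_map_subtype_eq]
  rw [h2]
  by_cases hn : IsNilpotent (aeval (T.restrict h) (minpoly F b))
  · rw [if_pos hn, if_pos (h1.1 hn)]
  · rw [if_neg hn, if_neg (fun h' => hn (h1.2 h'))]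

open Classical in
/-- the identity when `f(T)` is nilpotent -/
theorem ident0 (T : Module.End F V) (h0 : (aeval T (minpoly F b)) ^ (Nat.card K ^ j) = 0) :
    ∑ W : Submodule F V, (if ∀ x ∈ W, T x ∈ W then
      cc (Nat.card F⟮b⟯) (finrank F (W ⊓ LinearMap.ker (aeval T (minpoly F b)) : Submodule F V) / finrank F F⟮b⟯) else 0) =
      ((finrank F V / finrank F F⟮b⟯ : ℕ) : ℂ) := by
  haveI : Module.Finite F V := Module.Finite.of_finite
  haveI : Module.Finite F K := Module.Finite.of_finite
  set s := T ^ (Nat.card K ^ j) with hs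
  have hroot : aeval s (minpoly F b) = 0 := js_root b j h0
  letI := modk b s hroot
  haveI : IsScalarTower F F⟮b⟯ V := modk_tower b s hroot
  haveI : Module.Finite F⟮b⟯ V := Module.Finite.of_finite
  have hβ := adjoin_gen (F := F) b
  have hgen : ∀ y : V, AdjoinSimple.gen F b • y = s y := by
    intro y
    show hom b s hroot (AdjoinSimple.gen F b) y = s y
    rw [hom_gen]
  have hc : Commute s (T - s) := by
    have h1 : Commute s T := (Commute.refl T).pow_left _
    exact h1.sub_right (Commute.refl s)
  set N : V →ₗ[F⟮b⟯] V := toK hβ (T - s) (by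
    intro x
    rw [hgen, hgen, ← Module.End.mul_apply, ← hc.eq]; rfl) with hN
  have hNr : N.restrictScalars F = T - s := by
    apply LinearMap.ext; intro x; rfl
  have hNpow : ∀ (k : ℕ) (x : V), (N ^ k) x = ((T - s) ^ k) x := by
    intro k
    induction k with
    | zero => intro x; rfl
    | succ k ih =>
      intro x
      rw [pow_succ, pow_succ, Module.End.mul_apply, Module.End.mul_apply, ih]
      rfl
  have hNn : IsNilpotent N := by
    refine ⟨Nat.card K ^ j, ?_⟩
    apply LinearMap.ext
    intro x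
    rw [hNpow, hs, jn_pow b j h0]
    rfl
  have h1 := core hβ N hNn T (by intro x; rw [hgen]; show T x = s x + (T x - s x); abel) (by
    intro W hW x hx
    rw [hgen, hs]
    have h2 : ∀ (n : ℕ), ∀ x ∈ W, (T ^ n) x ∈ W := by
      intro n
      induction n with
      | zero => intro x hx; exact hx
      | succ n ih => intro x hx; rw [pow_succ', Module.End.mul_apply]; exact hW _ (ih x hx)
    exact h2 _ x hx)
  have hd3 : 0 < finrank F F⟮b⟯ := Module.finrank_pos
  have hd2 : finrank F F⟮b⟯ * finrank F⟮b⟯ V = finrank F V := Module.finrank_mul_finrank F F⟮b⟯ V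
  rw [← hd2, Nat.mul_div_cancel_left _ hd3, ← h1, hNr, ker_eq b j h0]

open Classical in
theorem ident (hj : finrank F V ≤ Nat.card K ^ j) (T : Module.End F V) :
    ∑ W : Submodule F V, (if h : ∀ x ∈ W, T x ∈ W then gam b (T.restrict h) else 0) =
      ((finrank F (LinearMap.ker (aeval (T ^ (Nat.card K ^ j)) (minpoly F b))) / finrank F F⟮b⟯ : ℕ) : ℂ) := by
  haveI : Module.Finite F V := Module.Finite.of_finite
  rw [frob_aevalK]
  set X : Submodule F V := LinearMap.ker ((aeval T (minpoly F b)) ^ (Nat.card K ^ j)) with hX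
  have hXi : ∀ x ∈ X, T x ∈ X := by
    intro x hx
    rw [hX, LinearMap.mem_ker, ← map_pow] at hx ⊢
    rw [aeval_comm, hx, map_zero]
  have h0 : (aeval (T.restrict hXi) (minpoly F b)) ^ (Nat.card K ^ j) = 0 := by
    apply LinearMap.ext
    intro x
    apply Subtype.ext
    rw [← map_pow, restrict_inter, map_pow]
    exact LinearMap.mem_ker.1 x.2
  rw [← ident0 b j (T.restrict hXi) h0]
  have h1 : ∀ W : Submodule F V, (if h : ∀ x ∈ W, T x ∈ W then gam b (T.restrict h) else 0) =
      if W ≤ X then (if ∀ x ∈ W, T x ∈ W then cc (Nat.card F⟮b⟯) (finrank F (W ⊓ LinearMap.ker (aeval T (minpoly F b)) : Submodule F V) / finrank F F⟮b⟯) else 0) else 0 := by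
    intro W
    by_cases h : ∀ x ∈ W, T x ∈ W
    · rw [dif_pos h, if_pos h, gam_restrict b j hj]
    · rw [dif_neg h, if_neg h, ite_self]
  rw [Finset.sum_congr rfl (fun W _ => h1 W), ← Finset.sum_filter]
  symm
  refine Finset.sum_bij' (fun W _ => W.map X.subtype) (fun W _ => W.comap X.subtype) ?_ ?_ ?_ ?_ ?_
  · intro W _
    rw [Finset.mem_filter]
    refine ⟨Finset.mem_univ _, ?_⟩
    rintro _ ⟨w, _, rfl⟩
    exact w.2
  · intro W _
    exact Finset.mem_univ _
  · intro W _
    exact Submodule.comap_map_eq_of_injective X.injective_subtype W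
  · intro W hW
    rw [Finset.mem_filter] at hW
    rw [Submodule.map_comap_subtype, inf_eq_right.2 hW.2]
  · intro W _
    have h2 : (∀ x ∈ W, (T.restrict hXi) x ∈ W) ↔ (∀ x ∈ W.map X.subtype, T x ∈ W.map X.subtype) := by
      constructor
      · rintro h _ ⟨w, hw, rfl⟩
        exact ⟨T.restrict hXi w, h w hw, rfl⟩
      · intro h w hw
        obtain ⟨w', hw', he⟩ := h _ ⟨w, hw, rfl⟩
        have : w' = T.restrict hXi w := Subtype.ext he
        rw [← this]; exact hw'
    have h3 : (W ⊓ LinearMap.ker (aeval (T.restrict hXi) (minpoly F b))).map X.subtype =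
        W.map X.subtype ⊓ LinearMap.ker (aeval T (minpoly F b)) := by
      ext x
      constructor
      · rintro ⟨y, ⟨hyW, hy⟩, rfl⟩
        refine ⟨⟨y, hyW, rfl⟩, ?_⟩
        have h4 := restrict_inter T X hXi (minpoly F b) y
        rw [LinearMap.mem_ker.1 hy] at h4
        exact LinearMap.mem_ker.2 h4.symm
      · rintro ⟨⟨y, hy, rfl⟩, hk⟩
        refine ⟨y, ⟨hy, ?_⟩, rfl⟩
        show _ ∈ LinearMap.ker (aeval (T.restrict hXi) (minpoly F b))
        rw [LinearMap.mem_ker]
        apply Subtype.ext
        rw [restrict_inter]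
        exact LinearMap.mem_ker.1 hk
    rw [← h3, Submodule.finrank_map_subtype_eq]
    by_cases h : ∀ x ∈ W, (T.restrict hXi) x ∈ W
    · rw [if_pos h, if_pos (h2.1 h)]
    · rw [if_neg h, if_neg (fun h' => h (h2.2 h'))]

end ident

end Cfsg.Agent.Lib.H16GG
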