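import Cfsg.Agent.Lib.CharBasic2

/-!
# Generalized characters attached to a G-set with equivariant coefficients (helper16)
-/

set_option autoImplicit false
set_option linter.all false

namespace Cfsg.Agent.Lib.H16GJ

open Cfsg Cfsg.Agent.Lib Cfsg.Agent.Lib.CharBasic
open scoped ComplexConjugate

universe u v w

variable {G : Type u} [Group G] [Finite G] {Ω : Type v} [MulAction G Ω] [Fintype Ω]

open Classical in
noncomputable def II (ψ : Ω → G → ℂ) (g : G) : ℂ := ∑ ω : Ω, if g • ω = ω then ψ ω g else 0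

open Classical in
theorem gset_gen (ψ : Ω → G → ℂ) (h1 : ∀ (x : G) (ω : Ω) (g : G), g • ω = ω → ψ (x • ω) (x * g * x⁻¹) = ψ ω g)
    (h2 : ∀ ω, IsGeneralizedCharacter (MulAction.stabilizer G ω) (fun g => ψ ω (g : G))) :
    IsGeneralizedCharacter G (II ψ) := by
  haveI := Fintype.ofFinite G
  have hfix : ∀ (x g : G) (ω : Ω), (x * g * x⁻¹) • (x • ω) = x • ω ↔ g • ω = ω := by
    intro x g ω
    rw [mul_smul, inv_smul_smul, mul_smul]
    exact (MulAction.injective x).eq_iff
  have hcl : IsClassFunction G (II ψ) := by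
    intro g x
    unfold II
    refine (Equiv.sum_comp (MulAction.toPerm x) (fun ω => if (x * g * x⁻¹) • ω = ω then ψ ω (x * g * x⁻¹) else 0)).symm.trans ?_
    apply Finset.sum_congr rfl
    intro ω _
    show (if (x * g * x⁻¹) • (x • ω) = x • ω then ψ (x • ω) (x * g * x⁻¹) else 0) = _
    by_cases h : g • ω = ω
    · rw [if_pos h, if_pos ((hfix x g ω).2 h), h1 x ω g h]
    · rw [if_neg h, if_neg (fun h' => h ((hfix x g ω).1 h'))]
  apply isGeneralized_of_classInner hcl
  intro χ hχ
  let t : Ω → ℂ := fun ω => (Nat.card G : ℂ)⁻¹ * ∑ g : G, if g • ω = ω then ψ ω g * conj (χ g) else 0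
  have ht : classInner (II ψ) χ = ∑ ω : Ω, t ω := by
    unfold classInner II
    simp only [t]
    rw [← Finset.mul_sum]
    congr 1
    rw [Finset.sum_comm]
    apply Finset.sum_congr rfl
    intro g _
    rw [Finset.sum_mul]
    apply Finset.sum_congr rfl
    intro ω _
    split_ifs <;> simp
  have htx : ∀ (x : G) (ω : Ω), t (x • ω) = t ω := by
    intro x ω
    simp only [t]
    congr 1
    refine (Equiv.sum_comp (MulAut.conj x).toEquiv (fun g => if g • (x • ω) = x • ω then ψ (x • ω) g * conj (χ g) else 0)).symm.trans ?_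
    apply Finset.sum_congr rfl
    intro g _
    show (if (x * g * x⁻¹) • (x • ω) = x • ω then ψ (x • ω) (x * g * x⁻¹) * conj (χ (x * g * x⁻¹)) else 0) = _
    by_cases h : g • ω = ω
    · rw [if_pos h, if_pos ((hfix x g ω).2 h), h1 x ω g h, hχ.isClassFunction]
    · rw [if_neg h, if_neg (fun h' => h ((hfix x g ω).1 h'))]
  rw [ht]
  haveI : Fintype (MulAction.orbitRel.Quotient G Ω) := Fintype.ofFinite _
  have key : ∀ c : MulAction.orbitRel.Quotient G Ω, ∃ n : ℤ,
      ∑ ω ∈ Finset.univ.filter (fun ω : Ω => (Quotient.mk (MulAction.orbitRel G Ω) ω : MulAction.orbitRel.Quotient G Ω) = c), t ω = n := by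
    intro c
    obtain ⟨ω0, rfl⟩ := Quotient.exists_rep c
    haveI := Fintype.ofFinite (MulAction.stabilizer G ω0)
    obtain ⟨n, hn⟩ := (h2 ω0).classInner_int (hχ.isGeneralized.restrict (MulAction.stabilizer G ω0))
    refine ⟨n, ?_⟩
    have e1 : ∀ ω ∈ Finset.univ.filter (fun ω : Ω => (Quotient.mk (MulAction.orbitRel G Ω) ω : MulAction.orbitRel.Quotient G Ω) = Quotient.mk _ ω0), t ω = t ω0 := by
      intro ω hω
      rw [Finset.mem_filter] at hω
      have h3 : (MulAction.orbitRel G Ω).r ω ω0 := Quotient.exact hω.2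
      have h4 : ω ∈ MulAction.orbit G ω0 := MulAction.orbitRel_apply.1 h3
      obtain ⟨x, rfl⟩ := h4
      exact htx x ω0
    rw [Finset.sum_congr rfl e1, Finset.sum_const, nsmul_eq_mul]
    have e2 : (Finset.univ.filter (fun ω : Ω => (Quotient.mk (MulAction.orbitRel G Ω) ω : MulAction.orbitRel.Quotient G Ω) = Quotient.mk _ ω0)).card =
        Nat.card (MulAction.orbit G ω0) := by
      rw [Nat.card_eq_fintype_card, ← Set.toFinset_card]
      congr 1
      ext ω
      rw [Finset.mem_filter, Set.mem_toFinset]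
      constructor
      · rintro ⟨-, h⟩
        exact MulAction.orbitRel_apply.1 (Quotient.exact h)
      · intro h
        exact ⟨Finset.mem_univ _, Quotient.sound (MulAction.orbitRel_apply.2 h)⟩
    rw [e2, ← hn]
    have e3 : Nat.card (MulAction.orbit G ω0) * Nat.card (MulAction.stabilizer G ω0) = Nat.card G := by
      rw [← Nat.card_prod]
      exact Nat.card_congr (MulAction.orbitProdStabilizerEquivGroup G ω0)
    have hG : (Nat.card G : ℂ) ≠ 0 := by exact_mod_cast (Nat.card_pos (α := G)).ne'
    have hS : (Nat.card (MulAction.stabilizer G ω0) : ℂ) ≠ 0 := by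
      exact_mod_cast (Nat.card_pos (α := MulAction.stabilizer G ω0)).ne'
    have hO : (Nat.card (MulAction.orbit G ω0) : ℂ) ≠ 0 := by
      intro h
      have : Nat.card (MulAction.orbit G ω0) = 0 := by exact_mod_cast h
      rw [this, zero_mul] at e3
      exact (Nat.card_pos (α := G)).ne' e3.symm
    simp only [t]
    unfold classInner
    rw [← e3]
    push_cast
    have e4 : ∑ g : G, (if g • ω0 = ω0 then ψ ω0 g * conj (χ g) else 0) =
        ∑ g : MulAction.stabilizer G ω0, ψ ω0 (g : G) * conj (χ (g : G)) := by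
      rw [← Finset.sum_filter]
      exact Finset.sum_subtype (p := fun g => g ∈ MulAction.stabilizer G ω0) _
        (fun g => by rw [Finset.mem_filter, MulAction.mem_stabilizer_iff]; simp) (fun g => ψ ω0 g * conj (χ g))
    rw [e4]
    field_simp
  choose n hn using key
  refine ⟨∑ c, n c, ?_⟩
  rw [← Finset.sum_fiberwise Finset.univ (fun ω : Ω => (Quotient.mk (MulAction.orbitRel G Ω) ω : MulAction.orbitRel.Quotient G Ω)) t]
  push_cast
  apply Finset.sum_congr rfl
  intro c _
  exact hn c

end Cfsg.Agent.Lib.H16GJ
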