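import Cfsg.Agent.Lib.H16GI
import Cfsg.Agent.Lib.H16GJ
import Cfsg.Agent.Lib.BlockCentral

/-!
# The cuspidal generalized characters of the general linear groups (helper16)
-/

set_option autoImplicit false
set_option linter.all false

namespace Cfsg.Agent.Lib.H16GG

open Module Polynomial IntermediateField Cfsg.Agent.Lib.H16GA Cfsg.Agent.Lib.H16GF Cfsg.Agent.Lib.H16GJ
open Cfsg Cfsg.Agent.Lib Cfsg.Agent.Lib.CharBasic Cfsg.Agent.Lib.PPart
open scoped ComplexConjugate

universe u v w x y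

section sec1

variable {F : Type u} [Field F] [Finite F] {K : Type v} [Field K] [Finite K] [Algebra F K]
variable {V : Type w} [AddCommGroup V] [Module F V] [Finite V]
variable {V' : Type x} [AddCommGroup V'] [Module F V'] [Finite V']

theorem gam_equiv (b : K) (e : V ≃ₗ[F] V') {T : Module.End F V} {T' : Module.End F V'} (h : ∀ x, e (T x) = T' (e x)) :
    gam b T = gam b T' := by
  have h1 : ∀ (f : F[X]) (x : V), e (aeval T f x) = aeval T' f (e x) := fun f x =>
    aeval_inter (e : V →ₗ[F] V') (s := T) (t := T') h f x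
  have h2 : LinearMap.ker (aeval T' (minpoly F b)) = (LinearMap.ker (aeval T (minpoly F b))).map (e : V →ₗ[F] V') := by
    ext y
    rw [LinearMap.mem_ker]
    constructor
    · intro hy
      refine ⟨e.symm y, ?_, e.apply_symm_apply y⟩
      show _ ∈ LinearMap.ker (aeval T (minpoly F b))
      rw [LinearMap.mem_ker]
      apply e.injective
      rw [h1, e.apply_symm_apply, hy, map_zero]
    · rintro ⟨z, hz, rfl⟩
      have := h1 (minpoly F b) z
      rw [LinearMap.mem_ker.1 hz, map_zero] at this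
      exact this.symm
  have h3 : IsNilpotent (aeval T (minpoly F b)) ↔ IsNilpotent (aeval T' (minpoly F b)) := by
    constructor
    · rintro ⟨k, hk⟩
      refine ⟨k, ?_⟩
      rw [← map_pow] at hk ⊢
      apply LinearMap.ext
      intro y
      have := h1 (minpoly F b ^ k) (e.symm y)
      rw [hk, e.apply_symm_apply] at this
      rw [← this]; simp
    · rintro ⟨k, hk⟩
      refine ⟨k, ?_⟩
      rw [← map_pow] at hk ⊢
      apply LinearMap.ext
      intro y
      apply e.injective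
      rw [h1, hk]; simp
  unfold gam
  rw [h2, LinearEquiv.finrank_map_eq]
  by_cases hn : IsNilpotent (aeval T (minpoly F b))
  · rw [if_pos hn, if_pos (h3.1 hn)]
  · rw [if_neg hn, if_neg (fun h => hn (h3.2 h))]

end sec1

section gl

variable {F : Type u} [Field F] [Finite F] {K : Type v} [Field K] [Finite K] [Algebra F K]

instance finEquiv {V : Type w} [AddCommGroup V] [Module F V] [Finite V] : Finite (V ≃ₗ[F] V) :=
  Finite.of_injective (fun f : V ≃ₗ[F] V => (f : V → V)) DFunLike.coe_injective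

variable {V : Type w} [AddCommGroup V] [Module F V] [Finite V]

/-- the endomorphism of a linear equivalence -/
abbrev en (g : V ≃ₗ[F] V) : Module.End F V := (g : V →ₗ[F] V)

theorem en_pow (g : V ≃ₗ[F] V) (n : ℕ) : en (g ^ n) = (en g) ^ n := by
  induction n with
  | zero => rfl
  | succ n ih => rw [pow_succ, pow_succ, ← ih]; rfl

/-- the dual representation over `K` -/
def dualRep (K : Type v) [Field K] [Algebra F K] (V : Type w) [AddCommGroup V] [Module F V] :
    (V ≃ₗ[F] V) →* Module.End K (V →ₗ[F] K) where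
  toFun g := dualOp K (en g⁻¹)
  map_one' := by
    apply LinearMap.ext; intro φ
    apply LinearMap.ext; intro x
    rfl
  map_mul' g h := by
    apply LinearMap.ext; intro φ
    apply LinearMap.ext; intro x
    show φ ((g * h)⁻¹ x) = φ (h⁻¹ (g⁻¹ x))
    rw [mul_inv_rev]; rfl

noncomputable def CC (θ : Kˣ →* ℂˣ) (g : V ≃ₗ[F] V) : ℂ := ∑ b : Kˣ, (θ b : ℂ) * gam (b : K) (en g)

noncomputable def BB (j : ℕ) (θ : Kˣ →* ℂˣ) (g : V ≃ₗ[F] V) : ℂ :=
  ∑ b : Kˣ, (θ b : ℂ) * ((finrank F (LinearMap.ker (aeval ((en g) ^ (Nat.card K ^ j)) (minpoly F (b : K)))) / finrank F F⟮(b : K)⟯ : ℕ) : ℂ)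

instance finHomK : Finite (V →ₗ[F] K) := instFinHom

theorem BB_eq (j : ℕ) (θ : Kˣ →* ℂˣ) (g : V ≃ₗ[F] V) :
    BB j θ g = beta (dualRep K V) θ ((g ^ (Nat.card K ^ j))⁻¹) := by
  unfold BB beta
  apply Finset.sum_congr rfl
  intro b _
  rw [← mu_dual, ← en_pow]
  congr 3

/-- the numerical conditions on the auxiliary field and the exponent -/
structure Good (p N : ℕ) (K : Type v) [Field K] (j : ℕ) : Prop where
  prime : p.Prime
  reg : ∀ d : ℕ, d ∣ N → ¬ p ∣ d → d ∣ Nat.card Kˣ
  sing : ∀ k : ℕ, p ^ k ∣ N → p ^ k ∣ Nat.card K ^ j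

theorem pow_eq_reg {p N j : ℕ} (hg : Good p N K j) {G : Type w} [Group G] [Finite G] (hGN : Nat.card G ∣ N) {e f : ℕ}
    (he : IsRegExp p G e f) (g : G) : g ^ (Nat.card K ^ j) = g ^ e := by
  have h1 : ∀ x : G, ¬ p ∣ orderOf x → x ^ (Nat.card K ^ j) = x := by
    intro x hx
    obtain ⟨c, hc⟩ := hg.reg _ ((orderOf_dvd_natCard x).trans hGN) hx
    have h2 : x ^ (Nat.card Kˣ) = 1 := by rw [hc, pow_mul, pow_orderOf_eq_one, one_pow]
    have h3 : x ^ (Nat.card K) = x := by
      have h4 : Nat.card K = Nat.card Kˣ + 1 := by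
        rw [Nat.card_units]
        have := Nat.card_pos (α := K)
        omega
      rw [h4, pow_succ, h2, one_mul]
    have h5 : ∀ i : ℕ, x ^ (Nat.card K ^ i) = x := by
      intro i
      induction i with
      | zero => simp
      | succ i ih => rw [pow_succ, pow_mul, ih, h3]
    exact h5 j
  have h2 : ∀ x : G, (∃ k : ℕ, orderOf x = p ^ k) → x ^ (Nat.card K ^ j) = 1 := by
    rintro x ⟨k, hk⟩
    obtain ⟨c, hc⟩ := hg.sing k (by rw [← hk]; exact (orderOf_dvd_natCard x).trans hGN)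
    rw [hc, pow_mul, ← hk, pow_orderOf_eq_one, one_pow]
  have h3 := he.mul_eq g
  have h4 : Commute (g ^ e) (g ^ f) := Commute.pow_pow_self g e f
  conv_lhs => rw [← h3]
  rw [h4.mul_pow, h1 _ (he.reg g), h2 _ (he.sing g), mul_one]

theorem BB_gen {p N j : ℕ} (hg : Good p N K j) (hGN : Nat.card (V ≃ₗ[F] V) ∣ N) (θ : Kˣ →* ℂˣ) :
    IsGeneralizedCharacter (V ≃ₗ[F] V) (BB j θ) := by
  classical
  haveI := Fintype.ofFinite (V ≃ₗ[F] V)
  obtain ⟨e, f, he⟩ := exists_isRegExp p hg.prime (V ≃ₗ[F] V)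
  have hB : ∀ g : V ≃ₗ[F] V, BB j θ g = beta (dualRep K V) θ ((g ^ e)⁻¹) := by
    intro g
    rw [BB_eq, pow_eq_reg hg hGN he]
  have hcl : IsClassFunction (V ≃ₗ[F] V) (BB j θ) := by
    intro g x
    rw [hB, hB, conj_pow, mul_inv_rev, mul_inv_rev, inv_inv, ← mul_assoc]
    exact beta_class (dualRep K V) θ ((g ^ e)⁻¹) x
  refine BrauerInd.isGeneralizedCharacter_of_restrict_elementary _ hcl ?_
  intro E q hq hEq
  have hnil := MGroups.isNilpotent_of_isElementary hq hEq
  obtain ⟨πe, πf, hπe, hπf⟩ := BlockCentral.exists_homs hg.prime he E hnil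
  set E' : Subgroup E := πe.range with hE'
  have hord : ∀ y : E', ¬ p ∣ orderOf (y : E) := by
    rintro ⟨_, x, rfl⟩
    change ¬ p ∣ orderOf (πe x : E)
    rw [hπe, ← Subgroup.orderOf_coe]
    exact he.reg (x : V ≃ₗ[F] V)
  have hE'p : ¬ p ∣ Nat.card E' := by
    intro h
    haveI := Fact.mk hg.prime
    obtain ⟨y, hy⟩ := exists_prime_orderOf_dvd_card' p h
    apply hord y
    rw [Subgroup.orderOf_coe, hy]
  have hE'N : Nat.card E' ∣ Nat.card Kˣ := by
    apply hg.reg _ _ hE'p
    exact (Subgroup.card_subgroup_dvd_card E').trans ((Subgroup.card_subgroup_dvd_card E).trans hGN)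
  have h1 := beta_gen (E := E') hE'N ((dualRep K V).comp (E.subtype.comp E'.subtype)) θ
  have h2 : (fun x : E => BB j θ (x : V ≃ₗ[F] V)) =
      fun x : E => conj (beta ((dualRep K V).comp (E.subtype.comp E'.subtype)) θ (πe.rangeRestrict x)) := by
    funext x
    rw [← h1.inv, hB]
    show beta (dualRep K V) θ (((x : V ≃ₗ[F] V) ^ e)⁻¹) = beta (dualRep K V) θ (((πe x : E) : V ≃ₗ[F] V)⁻¹)
    rw [hπe]; rfl
  show IsGeneralizedCharacter E (fun x : E => BB j θ (x : V ≃ₗ[F] V))
  rw [h2]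
  exact (h1.comp πe.rangeRestrict).conj

end gl

end Cfsg.Agent.Lib.H16GG
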