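import Cfsg.Agent.Lib.H16GK

/-!
# The cuspidal generalized characters of the general linear groups, induction (helper16)
-/

set_option autoImplicit false
set_option linter.all false

namespace Cfsg.Agent.Lib.H16GG

open Module Polynomial IntermediateField Cfsg.Agent.Lib.H16GA Cfsg.Agent.Lib.H16GF Cfsg.Agent.Lib.H16GJ
open Cfsg Cfsg.Agent.Lib Cfsg.Agent.Lib.CharBasic Cfsg.Agent.Lib.PPart
open scoped ComplexConjugate

universe u v w x y

section gl

variable {F : Type u} [Field F] [Finite F] {K : Type v} [Field K] [Finite K] [Algebra F K]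
variable {V : Type w} [AddCommGroup V] [Module F V] [Finite V]

/-- action on subspaces -/
@[reducible] def act2 (F : Type u) [Field F] (V : Type w) [AddCommGroup V] [Module F V] : MulAction (V ≃ₗ[F] V) (Submodule F V) where
  smul g W := W.map (en g)
  one_smul W := by
    show W.map (LinearMap.id : V →ₗ[F] V) = W
    exact Submodule.map_id W
  mul_smul g h W := by
    show W.map (en (g * h)) = (W.map (en h)).map (en g)
    rw [← Submodule.map_comp]; rfl

theorem inv_of_map {g : V ≃ₗ[F] V} {W : Submodule F V} (h : W.map (en g) = W) : ∀ x ∈ W, en g x ∈ W := by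
  intro x hx
  rw [← h]
  exact ⟨x, hx, rfl⟩

theorem map_of_inv {g : V ≃ₗ[F] V} {W : Submodule F V} (h : ∀ x ∈ W, en g x ∈ W) : W.map (en g) = W := by
  haveI : Module.Finite F V := Module.Finite.of_finite
  apply Submodule.eq_of_le_of_finrank_eq
  · rintro _ ⟨x, hx, rfl⟩
    exact h x hx
  · exact LinearEquiv.finrank_map_eq g W

open Classical in
noncomputable def psi (θ : Kˣ →* ℂˣ) (W : Submodule F V) (g : V ≃ₗ[F] V) : ℂ :=
  if W = ⊤ then 0 else
    (if h : ∀ x ∈ W, en g x ∈ W then ∑ b : Kˣ, (θ b : ℂ) * gam (b : K) ((en g).restrict h) else 0)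

theorem CC_eq (j : ℕ) (hj : finrank F V ≤ Nat.card K ^ j) (θ : Kˣ →* ℂˣ) (g : V ≃ₗ[F] V) :
    letI := act2 F V
    CC θ g = BB j θ g - II (psi θ) g := by
  classical
  letI := act2 F V
  show CC θ g = BB j θ g - II (psi θ) g
  have h1 : II (psi θ) g = ∑ W : Submodule F V, psi θ W g := by
    unfold II
    apply Finset.sum_congr rfl
    intro W _
    by_cases h : g • W = W
    · rw [if_pos h]
    · rw [if_neg h]
      unfold psi
      have h' : ¬ ∀ x ∈ W, en g x ∈ W := fun h' => h (map_of_inv h')
      rw [dif_neg h', ite_self]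
  have h2 : BB j θ g = ∑ W : Submodule F V, (if h : ∀ x ∈ W, en g x ∈ W then ∑ b : Kˣ, (θ b : ℂ) * gam (b : K) ((en g).restrict h) else 0) := by
    unfold BB
    have h3 : ∀ b : Kˣ, (θ b : ℂ) * ((finrank F (LinearMap.ker (aeval ((en g) ^ (Nat.card K ^ j)) (minpoly F (b : K)))) / finrank F F⟮(b : K)⟯ : ℕ) : ℂ) =
        ∑ W : Submodule F V, (if h : ∀ x ∈ W, en g x ∈ W then (θ b : ℂ) * gam (b : K) ((en g).restrict h) else 0) := by
      intro b
      rw [← ident (b : K) j hj (en g), Finset.mul_sum]
      apply Finset.sum_congr rfl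
      intro W _
      by_cases h : ∀ x ∈ W, en g x ∈ W
      · rw [dif_pos h, dif_pos h]
      · rw [dif_neg h, dif_neg h, mul_zero]
    rw [Finset.sum_congr rfl (fun b _ => h3 b), Finset.sum_comm]
    apply Finset.sum_congr rfl
    intro W _
    by_cases h : ∀ x ∈ W, en g x ∈ W
    · simp only [dif_pos h]
    · simp only [dif_neg h, Finset.sum_const_zero]
  rw [h1, h2, ← Finset.sum_sub_distrib, Finset.sum_eq_single (⊤ : Submodule F V)]
  · have htop : ∀ x ∈ (⊤ : Submodule F V), en g x ∈ (⊤ : Submodule F V) := fun x _ => trivial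
    rw [dif_pos htop]
    unfold psi CC
    rw [if_pos rfl, sub_zero]
    apply Finset.sum_congr rfl
    intro b _
    congr 1
    symm
    exact gam_equiv (b : K) (Submodule.topEquiv : (⊤ : Submodule F V) ≃ₗ[F] V) (fun x => rfl)
  · intro W _ hW
    unfold psi
    rw [if_neg hW, sub_self]
  · intro h; exact absurd (Finset.mem_univ _) h

/-- restriction to an invariant subspace -/
noncomputable def resHom (W : Submodule F V) :
    letI := act2 F V
    MulAction.stabilizer (V ≃ₗ[F] V) W →* (W ≃ₗ[F] W) :=
  letI := act2 F V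
  { toFun := fun g => LinearEquiv.ofSubmodules (g : V ≃ₗ[F] V) W W (MulAction.mem_stabilizer_iff.1 g.2)
    map_one' := by
      apply LinearEquiv.ext
      intro x
      rfl
    map_mul' := fun g h => by
      apply LinearEquiv.ext
      intro x
      rfl }

theorem CC_gen {p N j n0 : ℕ} (hg : Good p N K j)
    (hN : ∀ (W : Type w) [AddCommGroup W] [Module F W] [Finite W], finrank F W ≤ n0 → Nat.card (W ≃ₗ[F] W) ∣ N)
    (hn0 : n0 ≤ Nat.card K ^ j) (θ : Kˣ →* ℂˣ) (n : ℕ) : n ≤ n0 → ∀ (V : Type w) [AddCommGroup V] [Module F V] [Finite V],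
    finrank F V = n → IsGeneralizedCharacter (V ≃ₗ[F] V) (CC (K := K) θ) := by
  induction n using Nat.strong_induction_on with
  | _ n ih =>
  intro hn V _ _ _ hV
  classical
  haveI : Module.Finite F V := Module.Finite.of_finite
  letI := act2 F V
  have h1 : (CC (K := K) θ : (V ≃ₗ[F] V) → ℂ) = BB j θ - II (psi θ) := by
    funext g
    exact CC_eq j (by omega) θ g
  rw [h1]
  refine (BB_gen hg (hN V (by omega)) θ).sub ?_
  refine gset_gen (psi θ) ?_ ?_
  · intro x W g hgW
    unfold psi
    have hT : x • W = ⊤ ↔ W = ⊤ := by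
      constructor
      · intro h
        have := congrArg (fun U => x⁻¹ • U) h
        simp only [inv_smul_smul] at this
        rw [this]
        show (⊤ : Submodule F V).map (en x⁻¹) = ⊤
        rw [Submodule.map_top, LinearMap.range_eq_top]
        exact (x⁻¹ : V ≃ₗ[F] V).surjective
      · intro h
        rw [h]
        show (⊤ : Submodule F V).map (en x) = ⊤
        rw [Submodule.map_top, LinearMap.range_eq_top]
        exact x.surjective
    by_cases hW : W = ⊤
    · rw [if_pos hW, if_pos (hT.2 hW)]
    rw [if_neg hW, if_neg (fun h => hW (hT.1 h))]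
    have hi : ∀ y ∈ W, en g y ∈ W := inv_of_map hgW
    have hi' : ∀ y ∈ x • W, en (x * g * x⁻¹) y ∈ x • W := by
      apply inv_of_map (g := x * g * x⁻¹) (W := x • W)
      show (x * g * x⁻¹) • (x • W) = x • W
      rw [mul_smul, inv_smul_smul, mul_smul, hgW]
    rw [dif_pos hi, dif_pos hi']
    apply Finset.sum_congr rfl
    intro b _
    congr 1
    symm
    apply gam_equiv (b : K) (x.submoduleMap W)
    intro y
    apply Subtype.ext
    show x (g (y : V)) = x (g (x⁻¹ (x (y : V))))
    congr 2
    exact (x.symm_apply_apply (y : V)).symm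
  · intro W
    by_cases hW : W = ⊤
    · have : (fun g : MulAction.stabilizer (V ≃ₗ[F] V) W => psi θ W (g : V ≃ₗ[F] V)) = 0 := by
        funext g
        unfold psi
        rw [if_pos hW]; rfl
      rw [this]
      exact isGeneralized_zero
    · have hlt : finrank F W < n := by rw [← hV]; exact Submodule.finrank_lt hW
      have h2 := ih (finrank F W) hlt (by omega) W rfl
      have h3 := h2.comp (resHom W)
      have h4 : (fun g : MulAction.stabilizer (V ≃ₗ[F] V) W => psi θ W (g : V ≃ₗ[F] V)) = fun g => CC (K := K) θ (resHom W g) := by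
        funext g
        unfold psi CC
        have hi : ∀ y ∈ W, en (g : V ≃ₗ[F] V) y ∈ W := inv_of_map (MulAction.mem_stabilizer_iff.1 g.2)
        rw [if_neg hW, dif_pos hi]
        apply Finset.sum_congr rfl
        intro b _
        congr 2
      rw [h4]
      exact h3

end gl

end Cfsg.Agent.Lib.H16GG
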