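import Cfsg.Agent.Lib.H16GL

/-!
# Norm computations for the cuspidal class functions (helper16)
-/

set_option autoImplicit false
set_option linter.all false

namespace Cfsg.Agent.Lib.H16GG

open Module Polynomial IntermediateField Cfsg.Agent.Lib.H16GA Cfsg.Agent.Lib.H16GF Cfsg.Agent.Lib.H16GJ
open Cfsg Cfsg.Agent.Lib Cfsg.Agent.Lib.CharBasic Cfsg.Agent.Lib.PPart
open scoped ComplexConjugate

universe u v w x y

section norm

variable {F : Type u} [Field F] [Finite F] {K : Type v} [Field K] [Finite K] [Algebra F K]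
variable {V : Type w} [AddCommGroup V] [Module F V] [Finite V]

instance finEnd : Finite (Module.End F V) := instFinHom

open Classical in
theorem fiber_sum (b : K) (j : ℕ) (hj : finrank F V ≤ Nat.card K ^ j) [Fintype (Module.End F V)] (s : Module.End F V)
    (h : aeval s (minpoly F b) = 0) :
    letI := modk b s h
    ((Nat.card V : ℂ) - 1) * ∑ T ∈ Finset.univ.filter (fun T : Module.End F V => T ^ (Nat.card K ^ j) = s), gam b T ^ 2 =
      ((finrank F V / finrank F F⟮b⟯ : ℕ) : ℂ) * Nat.card (V ≃ₗ[F⟮b⟯] V) := by
  haveI : Module.Finite F V := Module.Finite.of_finite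
  haveI : Module.Finite F K := Module.Finite.of_finite
  letI := modk b s h
  haveI : IsScalarTower F F⟮b⟯ V := modk_tower b s h
  haveI : Module.Finite F⟮b⟯ V := Module.Finite.of_finite
  haveI : Finite (V →ₗ[F⟮b⟯] V) := instFinHom
  haveI : Fintype (V →ₗ[F⟮b⟯] V) := Fintype.ofFinite _
  have hβ := adjoin_gen (F := F) b
  have hgen : ∀ y : V, AdjoinSimple.gen F b • y = s y := by
    intro y
    show hom b s h (AdjoinSimple.gen F b) y = s y
    rw [hom_gen]
  have hd3 : 0 < finrank F F⟮b⟯ := Module.finrank_pos
  have hd2 : finrank F F⟮b⟯ * finrank F⟮b⟯ V = finrank F V := Module.finrank_mul_finrank F F⟮b⟯ V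
  have hn := nil_norm' (κ := F⟮b⟯) V
  rw [← hd2, Nat.mul_div_cancel_left _ hd3, ← hn]
  have hVc : (Nat.card V : ℂ) = (Nat.card F⟮b⟯ : ℂ) ^ finrank F⟮b⟯ V := by
    rw [Module.natCard_eq_pow_finrank (K := F⟮b⟯) (V := V)]; push_cast; rfl
  rw [hVc]
  congr 1
  rw [← Finset.sum_filter]
  have hcomm : ∀ T : Module.End F V, T ^ (Nat.card K ^ j) = s → Commute s (T - s) := by
    intro T hT
    have h1 : Commute s T := by rw [← hT]; exact (Commute.refl T).pow_left _
    exact h1.sub_right (Commute.refl s)
  have hcm : ∀ T : Module.End F V, T ^ (Nat.card K ^ j) = s → ∀ x, (T - s) (AdjoinSimple.gen F b • x) = AdjoinSimple.gen F b • (T - s) x := by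
    intro T hT x
    rw [hgen, hgen, ← Module.End.mul_apply, ← (hcomm T hT).eq]; rfl
  have h0 : ∀ T : Module.End F V, T ^ (Nat.card K ^ j) = s → (aeval T (minpoly F b)) ^ (Nat.card K ^ j) = 0 := by
    intro T hT
    rw [← frob_aevalK, hT, h]
  refine Finset.sum_bij' (fun T hT => toK hβ (T - s) (hcm T (Finset.mem_filter.1 hT).2)) (fun N _ => s + N.restrictScalars F) ?_ ?_ ?_ ?_ ?_
  · intro T hT
    have hT' := (Finset.mem_filter.1 hT).2
    rw [Finset.mem_filter]
    refine ⟨Finset.mem_univ _, Nat.card K ^ j, ?_⟩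
    apply LinearMap.ext
    intro x
    have hNpow : ∀ (k : ℕ) (x : V), ((toK hβ (T - s) (hcm T hT')) ^ k) x = ((T - s) ^ k) x := by
      intro k
      induction k with
      | zero => intro x; rfl
      | succ k ih =>
        intro x
        rw [pow_succ, pow_succ, Module.End.mul_apply, Module.End.mul_apply, ih]
        rfl
    rw [hNpow]
    have h1 := jn_pow b j (h0 T hT')
    rw [hT'] at h1
    rw [h1]; rfl
  · intro N hN
    obtain ⟨k, hk⟩ := (Finset.mem_filter.1 hN).2
    rw [Finset.mem_filter]
    refine ⟨Finset.mem_univ _, ?_⟩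
    have hNr : (N.restrictScalars F : Module.End F V) ^ (Nat.card K ^ j) = 0 := by
      apply nil_pow (V := V) _ hj
      refine ⟨k, ?_⟩
      apply LinearMap.ext
      intro x
      have hNpow : ∀ (k : ℕ) (x : V), ((N.restrictScalars F : Module.End F V) ^ k) x = (N ^ k) x := by
        intro k
        induction k with
        | zero => intro x; rfl
        | succ k ih =>
          intro x
          rw [pow_succ, pow_succ, Module.End.mul_apply, Module.End.mul_apply, ih]
          rfl
      rw [hNpow, hk]; rfl
    have hc : Commute s (N.restrictScalars F : Module.End F V) := by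
      apply LinearMap.ext
      intro x
      show s (N x) = N (s x)
      rw [← hgen, ← hgen, map_smul]
    exact (jcomb b j h hc hNr).1
  · intro T hT
    apply LinearMap.ext
    intro x
    show s x + (T x - s x) = T x
    abel
  · intro N hN
    apply LinearMap.ext
    intro x
    show (s x + N x) - s x = N x
    abel
  · intro T hT
    have hT' := (Finset.mem_filter.1 hT).2
    congr 1
    unfold gam
    have hk := ker_eq b j (h0 T hT')
    rw [hT'] at hk
    rw [if_pos ⟨_, h0 T hT'⟩, hk]
    congr 1
    apply Nat.div_eq_of_eq_mul_right hd3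
    exact (Module.finrank_mul_finrank F F⟮b⟯ (LinearMap.ker (toK hβ (T - s) (hcm T hT')))).symm

open Classical in
/-- sum over all endomorphisms -/
theorem sum_end (b : K) (j : ℕ) (hj : finrank F V ≤ Nat.card K ^ j) [Fintype (Module.End F V)] :
    ∑ T : Module.End F V, gam b T ^ 2 =
      ∑ s : {s : Module.End F V // aeval s (minpoly F b) = 0},
        ∑ T ∈ Finset.univ.filter (fun T : Module.End F V => T ^ (Nat.card K ^ j) = s.1), gam b T ^ 2 := by
  rw [← Finset.sum_fiberwise Finset.univ (fun T : Module.End F V => T ^ (Nat.card K ^ j)) (fun T => gam b T ^ 2)]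
  rw [← Finset.sum_filter_add_sum_filter_not Finset.univ (fun s : Module.End F V => aeval s (minpoly F b) = 0)]
  have h2 : ∑ s ∈ Finset.univ.filter (fun s : Module.End F V => ¬ aeval s (minpoly F b) = 0),
      ∑ T ∈ Finset.univ.filter (fun T : Module.End F V => T ^ (Nat.card K ^ j) = s), gam b T ^ 2 = 0 := by
    apply Finset.sum_eq_zero
    intro s hs
    apply Finset.sum_eq_zero
    intro T hT
    have hs' := (Finset.mem_filter.1 hs).2
    have hT' := (Finset.mem_filter.1 hT).2
    unfold gam
    rw [if_neg, zero_pow (by norm_num)]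
    intro hn
    apply hs'
    rw [← hT', frob_aevalK]
    exact nil_pow hn hj
  rw [h2, add_zero]
  exact Finset.sum_subtype _ (fun s => by rw [Finset.mem_filter]; simp) _

/-- counting the structures over `F(b)` -/
theorem count_struct (b : K) (m : ℕ) (hm : finrank F V = finrank F F⟮b⟯ * m) [Fintype {s : Module.End F V // aeval s (minpoly F b) = 0}] :
    ∑ s : {s : Module.End F V // aeval s (minpoly F b) = 0},
      (letI := modk b s.1 s.2; Nat.card (V ≃ₗ[F⟮b⟯] V)) = Nat.card (V ≃ₗ[F] V) := by
  classical
  haveI : Module.Finite F V := Module.Finite.of_finite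
  haveI : Module.Finite F K := Module.Finite.of_finite
  have hβ := adjoin_gen (F := F) b
  have hd3 : 0 < finrank F F⟮b⟯ := Module.finrank_pos
  let Z := (Fin m → F⟮b⟯)
  have hZr : finrank F⟮b⟯ Z = m := Module.finrank_fin_fun _
  have hZF : finrank F Z = finrank F V := by
    rw [hm, ← Module.finrank_mul_finrank F F⟮b⟯ Z, hZr]
  let e0 : V ≃ₗ[F] Z := LinearEquiv.ofFinrankEq V Z hZF.symm
  haveI : Finite (V ≃ₗ[F] Z) := Finite.of_injective (fun f : V ≃ₗ[F] Z => (f : V → Z)) DFunLike.coe_injective
  haveI : Fintype (V ≃ₗ[F] Z) := Fintype.ofFinite _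
  have hP : Nat.card (V ≃ₗ[F] V) = Fintype.card (V ≃ₗ[F] Z) := by
    rw [← Nat.card_eq_fintype_card]
    exact Nat.card_congr
      { toFun := fun f => f.trans e0
        invFun := fun f => f.trans e0.symm
        left_inv := fun f => by
          apply LinearEquiv.ext; intro x
          exact e0.symm_apply_apply _
        right_inv := fun f => by
          apply LinearEquiv.ext; intro x
          exact e0.apply_symm_apply _ }
  rw [hP]
  -- multiplication by the generator on Z
  let B : Module.End F Z := Algebra.lsmul F F Z (AdjoinSimple.gen F b)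
  have hB : ∀ z, B z = AdjoinSimple.gen F b • z := fun z => rfl
  have hBf : aeval B (minpoly F b) = 0 := by
    have h1 : aeval B (minpoly F b) = Algebra.lsmul F F Z (aeval (AdjoinSimple.gen F b) (minpoly F b)) := by
      rw [← aeval_algHom_apply]
    rw [h1, ← minpoly_gen F b, minpoly.aeval, map_zero]
  let str : (V ≃ₗ[F] Z) → {s : Module.End F V // aeval s (minpoly F b) = 0} := fun e =>
    ⟨(e.symm : Z →ₗ[F] V) ∘ₗ B ∘ₗ (e : V →ₗ[F] Z), by
      apply LinearMap.ext
      intro x
      apply e.injective
      have h1 := aeval_inter (e : V →ₗ[F] Z) (s := (e.symm : Z →ₗ[F] V) ∘ₗ B ∘ₗ (e : V →ₗ[F] Z)) (t := B)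
        (fun x => e.apply_symm_apply _) (minpoly F b) x
      rw [hBf] at h1
      refine h1.trans ?_
      simp⟩
  rw [← Finset.card_univ, Finset.card_eq_sum_card_fiberwise (f := str) (t := Finset.univ) (fun _ _ => Finset.mem_univ _)]
  apply Finset.sum_congr rfl
  rintro ⟨s, hs⟩ _
  letI := modk b s hs
  haveI : IsScalarTower F F⟮b⟯ V := modk_tower b s hs
  haveI : Module.Finite F⟮b⟯ V := Module.Finite.of_finite
  have hgen : ∀ y : V, AdjoinSimple.gen F b • y = s y := by
    intro y
    show hom b s hs (AdjoinSimple.gen F b) y = s y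
    rw [hom_gen]
  have hmV : finrank F⟮b⟯ V = finrank F⟮b⟯ Z := by
    have hd2 : finrank F F⟮b⟯ * finrank F⟮b⟯ V = finrank F V := Module.finrank_mul_finrank F F⟮b⟯ V
    rw [hm] at hd2
    rw [Nat.eq_of_mul_eq_mul_left hd3 hd2, hZr]
  let e1 : V ≃ₗ[F⟮b⟯] Z := LinearEquiv.ofFinrankEq V Z hmV
  show Nat.card (V ≃ₗ[F⟮b⟯] V) = _
  have h1 : Nat.card (V ≃ₗ[F⟮b⟯] V) = Nat.card (V ≃ₗ[F⟮b⟯] Z) := Nat.card_congr
      { toFun := fun f => f.trans e1
        invFun := fun f => f.trans e1.symm
        left_inv := fun f => by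
          apply LinearEquiv.ext; intro x
          exact e1.symm_apply_apply _
        right_inv := fun f => by
          apply LinearEquiv.ext; intro x
          exact e1.apply_symm_apply _ }
  rw [h1]
  have hiff : ∀ e : V ≃ₗ[F] Z, str e = ⟨s, hs⟩ ↔ ∀ x, e (s x) = AdjoinSimple.gen F b • e x := by
    intro e
    constructor
    · intro h x
      have h2 := congrArg Subtype.val h
      have h3 := LinearMap.congr_fun h2 x
      have h4 : s x = e.symm (B (e x)) := h3.symm
      rw [h4, e.apply_symm_apply, hB]
    · intro h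
      apply Subtype.ext
      apply LinearMap.ext
      intro x
      show e.symm (B (e x)) = s x
      rw [hB, ← h, e.symm_apply_apply]
  have h2 : Nat.card (V ≃ₗ[F⟮b⟯] Z) = Nat.card {e : V ≃ₗ[F] Z // str e = ⟨s, hs⟩} := Nat.card_congr
      { toFun := fun f => ⟨f.restrictScalars F, (hiff _).2 (fun x => by
          show f (s x) = AdjoinSimple.gen F b • f x
          rw [← hgen, map_smul])⟩
        invFun := fun e =>
          { toFun := e.1
            map_add' := map_add e.1
            map_smul' := fun k x => lin_of_comm hβ (e.1 : V →ₗ[F] Z) (fun x => by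
              show e.1 (AdjoinSimple.gen F b • x) = _
              rw [hgen]
              exact (hiff e.1).1 e.2 x) k x
            invFun := e.1.symm
            left_inv := e.1.symm_apply_apply
            right_inv := e.1.apply_symm_apply }
        left_inv := fun f => by
          apply LinearEquiv.ext; intro x; rfl
        right_inv := fun e => by
          apply Subtype.ext
          apply LinearEquiv.ext; intro x; rfl }
  rw [h2, Nat.card_eq_fintype_card, Fintype.card_subtype]

end norm

end Cfsg.Agent.Lib.H16GG
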