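import Cfsg.Agent.Lib.H16GM

/-!
# Norm computations for the cuspidal class functions, II (helper16)
-/

set_option autoImplicit false
set_option linter.all false

namespace Cfsg.Agent.Lib.H16GG

open Module Polynomial IntermediateField Cfsg.Agent.Lib.H16GA Cfsg.Agent.Lib.H16GF Cfsg.Agent.Lib.H16GJ
open Cfsg Cfsg.Agent.Lib Cfsg.Agent.Lib.CharBasic Cfsg.Agent.Lib.PPart
open scoped ComplexConjugate

universe u v w x y

section field

variable {F : Type u} [Field F] [Finite F] {K : Type v} [Field K] [Finite K] [Algebra F K]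

/-- `b ^ (q ^ k) = b` implies that the degree of `b` divides `k` -/
theorem deg_dvd (b : K) (k : ℕ) (h : b ^ (Nat.card F ^ k) = b) : finrank F F⟮b⟯ ∣ k := by
  haveI := Fintype.ofFinite F
  haveI : Module.Finite F K := Module.Finite.of_finite
  rw [Nat.card_eq_fintype_card] at h
  rw [← FiniteField.orderOf_frobeniusAlgEquivOfAlgebraic F F⟮b⟯]
  apply orderOf_dvd_of_pow_eq_one
  have hiter : ∀ (i : ℕ) (x : F⟮b⟯), ((FiniteField.frobeniusAlgEquivOfAlgebraic F F⟮b⟯) ^ i) x = x ^ (Fintype.card F ^ i) := by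
    intro i
    induction i with
    | zero => intro x; simp
    | succ i ih =>
      intro x
      rw [pow_succ', AlgEquiv.mul_apply, ih, FiniteField.frobeniusAlgEquivOfAlgebraic_apply, ← pow_mul, ← pow_succ]
  have h1 : ((FiniteField.frobeniusAlgEquivOfAlgebraic F F⟮b⟯) ^ k : F⟮b⟯ ≃ₐ[F] F⟮b⟯).toAlgHom = AlgHom.id F F⟮b⟯ := by
    apply (adjoin.powerBasis (isint (F := F) b)).algHom_ext
    rw [adjoin.powerBasis_gen]
    show ((FiniteField.frobeniusAlgEquivOfAlgebraic F F⟮b⟯) ^ k) (AdjoinSimple.gen F b) = AdjoinSimple.gen F b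
    rw [hiter]
    apply Subtype.ext
    exact h
  apply AlgEquiv.ext
  intro x
  exact congrArg (fun f : F⟮b⟯ →ₐ[F] F⟮b⟯ => f x) h1

theorem pow_deg (b : K) : b ^ (Nat.card F ^ (finrank F F⟮b⟯)) = b := by
  haveI : Module.Finite F K := Module.Finite.of_finite
  rw [← Module.natCard_eq_pow_finrank (K := F) (V := F⟮b⟯)]
  haveI := Fintype.ofFinite F⟮b⟯
  have := FiniteField.pow_card (AdjoinSimple.gen F b)
  rw [← Nat.card_eq_fintype_card] at this
  exact congrArg Subtype.val this

theorem pow_of_dvd (b : K) (k : ℕ) (h : finrank F F⟮b⟯ ∣ k) : b ^ (Nat.card F ^ k) = b := by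
  obtain ⟨c, rfl⟩ := h
  induction c with
  | zero => simp
  | succ c ih => rw [Nat.mul_succ, pow_add, pow_mul, ih, pow_deg]

theorem conj_iff (b b' : K) : minpoly F b' = minpoly F b ↔ ∃ i : ℕ, b' = b ^ (Nat.card F ^ i) := by
  haveI := Fintype.ofFinite F
  haveI : Module.Finite F K := Module.Finite.of_finite
  have hiter : ∀ (i : ℕ) (x : K), ((FiniteField.frobeniusAlgEquivOfAlgebraic F K) ^ i) x = x ^ (Fintype.card F ^ i) := by
    intro i
    induction i with
    | zero => intro x; simp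
    | succ i ih =>
      intro x
      rw [pow_succ', AlgEquiv.mul_apply, ih, FiniteField.frobeniusAlgEquivOfAlgebraic_apply, ← pow_mul, ← pow_succ]
  constructor
  · intro h
    obtain ⟨σ, hσ⟩ := (Normal.minpoly_eq_iff_mem_orbit K).1 h
    obtain ⟨i, rfl⟩ := (FiniteField.bijective_frobeniusAlgEquivOfAlgebraic_pow F K).2 σ
    refine ⟨i, ?_⟩
    rw [Nat.card_eq_fintype_card, ← hiter]
    exact hσ.symm
  · rintro ⟨i, rfl⟩
    rw [Nat.card_eq_fintype_card, ← hiter]
    exact minpoly.algEquiv_eq _ b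

theorem frob_inj {x y : K} (i : ℕ) (h : x ^ (Nat.card F ^ i) = y ^ (Nat.card F ^ i)) : x = y := by
  haveI := Fintype.ofFinite F
  haveI : Module.Finite F K := Module.Finite.of_finite
  have hiter : ∀ (i : ℕ) (x : K), ((FiniteField.frobeniusAlgEquivOfAlgebraic F K) ^ i) x = x ^ (Fintype.card F ^ i) := by
    intro i
    induction i with
    | zero => intro x; simp
    | succ i ih =>
      intro x
      rw [pow_succ', AlgEquiv.mul_apply, ih, FiniteField.frobeniusAlgEquivOfAlgebraic_apply, ← pow_mul, ← pow_succ]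
  rw [Nat.card_eq_fintype_card, ← hiter, ← hiter] at h
  exact AlgEquiv.injective _ h

theorem frob_eq_iff (b : K) (i k : ℕ) : b ^ (Nat.card F ^ i) = b ^ (Nat.card F ^ k) ↔ i ≡ k [MOD finrank F F⟮b⟯] := by
  have key : ∀ i k : ℕ, i ≤ k → (b ^ (Nat.card F ^ i) = b ^ (Nat.card F ^ k) ↔ i ≡ k [MOD finrank F F⟮b⟯]) := by
    intro i k hik
    obtain ⟨t, rfl⟩ := Nat.exists_eq_add_of_le hik
    have e1 : b ^ (Nat.card F ^ (i + t)) = (b ^ (Nat.card F ^ t)) ^ (Nat.card F ^ i) := by
      rw [← pow_mul, ← pow_add, add_comm]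
    rw [e1]
    have e2 : i ≡ i + t [MOD finrank F F⟮b⟯] ↔ finrank F F⟮b⟯ ∣ t := by
      rw [Nat.modEq_iff_dvd' hik, Nat.add_sub_cancel_left]
    rw [e2]
    constructor
    · intro h
      exact deg_dvd b t (frob_inj (F := F) i h).symm
    · intro h
      rw [pow_of_dvd b t h]
  rcases le_total i k with h | h
  · exact key i k h
  · rw [eq_comm, key k i h]
    exact ⟨Nat.ModEq.symm, Nat.ModEq.symm⟩

open Classical in
/-- number of Frobenius powers giving a conjugate -/
theorem count_conj (b b' : K) (n : ℕ) (hd : finrank F F⟮b⟯ ∣ n) :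
    ((Finset.range n).filter (fun i => b' = b ^ (Nat.card F ^ i))).card =
      if minpoly F b' = minpoly F b then n / finrank F F⟮b⟯ else 0 := by
  haveI : Module.Finite F K := Module.Finite.of_finite
  have hd3 : 0 < finrank F F⟮b⟯ := Module.finrank_pos
  by_cases h : minpoly F b' = minpoly F b
  · rw [if_pos h]
    obtain ⟨i0, hi0⟩ := (conj_iff b b').1 h
    have h1 : (Finset.range n).filter (fun i => b' = b ^ (Nat.card F ^ i)) = (Finset.range n).filter (fun i => i ≡ i0 [MOD finrank F F⟮b⟯]) := by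
      apply Finset.filter_congr
      intro i _
      rw [hi0, frob_eq_iff]
      exact ⟨Nat.ModEq.symm, Nat.ModEq.symm⟩
    rw [h1, ← Nat.count_eq_card_filter_range, Nat.count_modEq_card _ hd3]
    rw [Nat.mod_eq_zero_of_dvd hd, if_neg (Nat.not_lt_zero _), add_zero]
  · rw [if_neg h, Finset.card_eq_zero, Finset.filter_eq_empty_iff]
    intro i _ hi
    exact h ((conj_iff b b').2 ⟨i, hi⟩)

end field

end Cfsg.Agent.Lib.H16GG
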