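import Cfsg.Agent.Lib.H16GN

/-!
# Norm computations for the cuspidal class functions, III (helper16)
-/

set_option autoImplicit false
set_option linter.all false

namespace Cfsg.Agent.Lib.H16GG

open Module Polynomial IntermediateField Cfsg.Agent.Lib.H16GA Cfsg.Agent.Lib.H16GF Cfsg.Agent.Lib.H16GJ
open Cfsg Cfsg.Agent.Lib Cfsg.Agent.Lib.CharBasic Cfsg.Agent.Lib.PPart
open scoped ComplexConjugate

universe u v w x y

section norm

variable {F : Type u} [Field F] [Finite F] {K : Type v} [Field K] [Finite K] [Algebra F K]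
variable {V : Type w} [AddCommGroup V] [Module F V] [Finite V]

theorem inj_of_nil {b : K} (hb : b ≠ 0) {T : Module.End F V} (hT : IsNilpotent (aeval T (minpoly F b))) :
    Function.Injective T := by
  haveI : Module.Finite F K := Module.Finite.of_finite
  have h0 : (minpoly F b).coeff 0 ≠ 0 := minpoly.coeff_zero_ne_zero (isint b) hb
  rw [← LinearMap.ker_eq_bot, eq_bot_iff]
  intro x hx
  rw [LinearMap.mem_ker] at hx
  have h1 : aeval T (minpoly F b) x = (minpoly F b).coeff 0 • x := by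
    conv_lhs => rw [← Polynomial.divX_mul_X_add (minpoly F b)]
    rw [map_add, map_mul, aeval_X, aeval_C, LinearMap.add_apply, Module.End.mul_apply, hx, map_zero, zero_add,
      Module.algebraMap_end_apply]
  obtain ⟨k, hk⟩ := hT
  have h2 : ∀ j : ℕ, ((aeval T (minpoly F b)) ^ j) x = ((minpoly F b).coeff 0) ^ j • x := by
    intro j
    induction j with
    | zero => simp
    | succ j ih => rw [pow_succ', Module.End.mul_apply, ih, map_smul, h1, smul_smul, pow_succ]
  have h3 := h2 k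
  rw [hk, LinearMap.zero_apply] at h3
  rw [Submodule.mem_bot]
  rcases smul_eq_zero.1 h3.symm with h | h
  · exact absurd h (pow_ne_zero _ h0)
  · exact h

theorem en_inj : Function.Injective (en : (V ≃ₗ[F] V) → Module.End F V) := by
  intro g h hgh
  apply LinearEquiv.ext
  intro x
  exact LinearMap.congr_fun hgh x

theorem sum_gl {b : K} (hb : b ≠ 0) [Fintype (V ≃ₗ[F] V)] [Fintype (Module.End F V)] :
    ∑ g : V ≃ₗ[F] V, gam b (en g) ^ 2 = ∑ T : Module.End F V, gam b T ^ 2 := by
  classical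
  haveI : Module.Finite F V := Module.Finite.of_finite
  apply Finset.sum_of_injOn (en : (V ≃ₗ[F] V) → Module.End F V) (en_inj.injOn) (fun _ _ => Finset.mem_univ _)
  · intro T _ hT
    unfold gam
    rw [if_neg, zero_pow (by norm_num)]
    intro hn
    apply hT
    refine ⟨LinearEquiv.ofInjectiveEndo T (inj_of_nil hb hn), Finset.mem_univ _, ?_⟩
    apply LinearMap.ext
    intro x
    rfl
  · intro g _
    rfl

theorem norm_b {b : K} (hb : b ≠ 0) (j : ℕ) (hj : finrank F V ≤ Nat.card K ^ j) (hd : finrank F F⟮b⟯ ∣ finrank F V)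
    [Fintype (V ≃ₗ[F] V)] :
    ((Nat.card V : ℂ) - 1) * ∑ g : V ≃ₗ[F] V, gam b (en g) ^ 2 =
      ((finrank F V / finrank F F⟮b⟯ : ℕ) : ℂ) * Nat.card (V ≃ₗ[F] V) := by
  classical
  haveI : Fintype (Module.End F V) := Fintype.ofFinite _
  haveI : Fintype {s : Module.End F V // aeval s (minpoly F b) = 0} := Fintype.ofFinite _
  obtain ⟨m, hm⟩ := hd
  rw [sum_gl hb, sum_end b j hj, Finset.mul_sum, ← count_struct b m hm]
  push_cast
  rw [Finset.mul_sum]
  apply Finset.sum_congr
  · ext s; simp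
  · intro s _
    exact fiber_sum b j hj s.1 s.2

theorem gam_eq_zero {b : K} (hd : ¬ finrank F F⟮b⟯ ∣ finrank F V) (T : Module.End F V) : gam b T = 0 := by
  haveI : Module.Finite F V := Module.Finite.of_finite
  haveI : Module.Finite F K := Module.Finite.of_finite
  unfold gam
  rw [if_neg]
  intro hn
  apply hd
  -- choose j with large power
  obtain ⟨j, hj⟩ : ∃ j : ℕ, finrank F V ≤ Nat.card K ^ j := by
    refine ⟨finrank F V, ?_⟩
    exact (Nat.lt_pow_self (Finite.one_lt_card (α := K))).le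
  have h0 := nil_pow hn hj
  have h1 := js_root b j h0
  letI := modk b _ h1
  haveI : IsScalarTower F F⟮b⟯ V := modk_tower b _ h1
  haveI : Module.Finite F⟮b⟯ V := Module.Finite.of_finite
  have hd2 : finrank F F⟮b⟯ * finrank F⟮b⟯ V = finrank F V := Module.finrank_mul_finrank F F⟮b⟯ V
  exact ⟨_, hd2.symm⟩

theorem finrank_adj (b : K) : finrank F F⟮b⟯ = (minpoly F b).natDegree := by
  haveI : Module.Finite F K := Module.Finite.of_finite
  exact IntermediateField.adjoin.finrank (isint b)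

theorem gam_congr {b b' : K} (h : minpoly F b' = minpoly F b) (T : Module.End F V) : gam b' T = gam b T := by
  haveI : Module.Finite F K := Module.Finite.of_finite
  have h1 : finrank F F⟮b'⟯ = finrank F F⟮b⟯ := by rw [finrank_adj, finrank_adj, h]
  have h2 : Nat.card F⟮b'⟯ = Nat.card F⟮b⟯ := by
    rw [Module.natCard_eq_pow_finrank (K := F) (V := F⟮b'⟯), Module.natCard_eq_pow_finrank (K := F) (V := F⟮b⟯), h1]
  unfold gam
  rw [h1, h2, h]

theorem gam_cross {b b' : K} (h : minpoly F b' ≠ minpoly F b) (hV : 0 < finrank F V) (T : Module.End F V) :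
    gam b T * gam b' T = 0 := by
  haveI : Module.Finite F K := Module.Finite.of_finite
  haveI : Module.Finite F V := Module.Finite.of_finite
  unfold gam
  by_cases h1 : IsNilpotent (aeval T (minpoly F b))
  · by_cases h2 : IsNilpotent (aeval T (minpoly F b'))
    · exfalso
      obtain ⟨k, hk⟩ := h1
      obtain ⟨k', hk'⟩ := h2
      have hirr := minpoly.irreducible (isint (F := F) b)
      have hirr' := minpoly.irreducible (isint (F := F) b')
      have hcop : IsCoprime (minpoly F b) (minpoly F b') := by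
        rw [hirr.coprime_iff_not_dvd]
        intro hdvd
        apply h
        have hass := hirr.associated_of_dvd hirr' hdvd
        exact (eq_of_monic_of_associated (minpoly.monic (isint b)) (minpoly.monic (isint b')) hass).symm
      obtain ⟨u, v, huv⟩ := (hcop.pow_left (m := k)).pow_right (n := k')
      have h3 := congrArg (aeval T) huv
      rw [map_add, map_mul, map_mul, map_pow, map_pow, hk, hk', mul_zero, mul_zero, add_zero, map_one] at h3
      have hn : Nontrivial V := Module.nontrivial_of_finrank_pos (R := F) hV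
      obtain ⟨v, hv⟩ := exists_ne (0 : V)
      have h4 := LinearMap.congr_fun h3 v
      exact hv h4.symm
    · rw [if_neg h2, mul_zero]
  · rw [if_neg h1, zero_mul]

theorem cc_real (Q k : ℕ) : conj (cc (Q : ℂ) k) = cc (Q : ℂ) k := by
  unfold cc
  split_ifs
  · simp
  · simp

theorem gam_real (b : K) (T : Module.End F V) : conj (gam b T) = gam b T := by
  unfold gam
  split_ifs
  · exact cc_real _ _
  · simp

open Classical in
/-- the inner product of two class functions -/
theorem inner1 (j : ℕ) (hj : finrank F V ≤ Nat.card K ^ j) (hV : 0 < finrank F V) [Fintype (V ≃ₗ[F] V)] (θ θ' : Kˣ →* ℂˣ) :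
    ((Nat.card V : ℂ) - 1) * classInner (CC θ : (V ≃ₗ[F] V) → ℂ) (CC θ') =
      ∑ i ∈ Finset.range (finrank F V), ∑ b : Kˣ,
        if (b : K) ^ (Nat.card F ^ finrank F V) = b then (θ b : ℂ) * conj (θ' b : ℂ) ^ (Nat.card F ^ i) else 0 := by
  classical
  have hG : (Nat.card (V ≃ₗ[F] V) : ℂ) ≠ 0 := by exact_mod_cast (Nat.card_pos (α := V ≃ₗ[F] V)).ne'
  have h1 : classInner (CC θ : (V ≃ₗ[F] V) → ℂ) (CC θ') = ∑ b : Kˣ, ∑ b' : Kˣ, (θ b : ℂ) * conj (θ' b' : ℂ) *
      ((Nat.card (V ≃ₗ[F] V) : ℂ)⁻¹ * ∑ g : V ≃ₗ[F] V, gam (b : K) (en g) * gam (b' : K) (en g)) := by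
    unfold classInner CC
    have h2 : ∀ g : V ≃ₗ[F] V, (∑ b : Kˣ, (θ b : ℂ) * gam (b : K) (en g)) * conj (∑ b' : Kˣ, (θ' b' : ℂ) * gam (b' : K) (en g)) =
        ∑ b : Kˣ, ∑ b' : Kˣ, (θ b : ℂ) * conj (θ' b' : ℂ) * (gam (b : K) (en g) * gam (b' : K) (en g)) := by
      intro g
      rw [map_sum, Finset.sum_mul_sum]
      apply Finset.sum_congr rfl; intro b _
      apply Finset.sum_congr rfl; intro b' _
      rw [map_mul, gam_real]
      ring
    rw [Finset.sum_congr rfl (fun g _ => h2 g), Finset.sum_comm, Finset.mul_sum]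
    apply Finset.sum_congr rfl; intro b _
    rw [Finset.sum_comm, Finset.mul_sum]
    apply Finset.sum_congr rfl; intro b' _
    rw [← Finset.mul_sum]
    ring
  rw [h1, Finset.mul_sum, Finset.sum_comm]
  apply Finset.sum_congr rfl
  intro b _
  rw [Finset.mul_sum]
  have h3 : ∀ b' : Kˣ, ((Nat.card V : ℂ) - 1) * ((θ b : ℂ) * conj (θ' b' : ℂ) *
      ((Nat.card (V ≃ₗ[F] V) : ℂ)⁻¹ * ∑ g : V ≃ₗ[F] V, gam (b : K) (en g) * gam (b' : K) (en g))) =
      ∑ i ∈ Finset.range (finrank F V), if (b : K) ^ (Nat.card F ^ finrank F V) = b then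
        (if (b' : K) = (b : K) ^ (Nat.card F ^ i) then (θ b : ℂ) * conj (θ' b' : ℂ) else 0) else 0 := by
    intro b'
    by_cases hd : finrank F F⟮(b : K)⟯ ∣ finrank F V
    · have e1 : (b : K) ^ (Nat.card F ^ finrank F V) = b := pow_of_dvd (b : K) _ hd
      simp only [if_pos e1]
      rw [← Finset.sum_filter, Finset.sum_const, nsmul_eq_mul, count_conj (b : K) (b' : K) _ hd]
      by_cases hm : minpoly F (b' : K) = minpoly F (b : K)
      · rw [if_pos hm]
        have h4 : ∑ g : V ≃ₗ[F] V, gam (b : K) (en g) * gam (b' : K) (en g) = ∑ g : V ≃ₗ[F] V, gam (b : K) (en g) ^ 2 := by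
          apply Finset.sum_congr rfl; intro g _
          rw [gam_congr hm, sq]
        have h5 := norm_b (V := V) (Units.ne_zero b) j hj hd
        rw [h4]
        have h6 : ((Nat.card V : ℂ) - 1) * ((θ b : ℂ) * conj (θ' b' : ℂ) *
            ((Nat.card (V ≃ₗ[F] V) : ℂ)⁻¹ * ∑ g : V ≃ₗ[F] V, gam (b : K) (en g) ^ 2)) =
            (θ b : ℂ) * conj (θ' b' : ℂ) * (Nat.card (V ≃ₗ[F] V) : ℂ)⁻¹ * (((Nat.card V : ℂ) - 1) * ∑ g : V ≃ₗ[F] V, gam (b : K) (en g) ^ 2) := by
          ring
        rw [h6, h5]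
        field_simp
      · rw [if_neg hm]
        have h4 : ∑ g : V ≃ₗ[F] V, gam (b : K) (en g) * gam (b' : K) (en g) = 0 := by
          apply Finset.sum_eq_zero; intro g _
          exact gam_cross hm hV _
        rw [h4]; simp
    · have e1 : ¬ (b : K) ^ (Nat.card F ^ finrank F V) = b := fun h => hd (deg_dvd (b : K) _ h)
      simp only [if_neg e1, Finset.sum_const_zero]
      have h4 : ∑ g : V ≃ₗ[F] V, gam (b : K) (en g) * gam (b' : K) (en g) = 0 := by
        apply Finset.sum_eq_zero; intro g _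
        rw [gam_eq_zero hd, zero_mul]
      rw [h4]; simp
  rw [Finset.sum_congr rfl (fun b' _ => h3 b'), Finset.sum_comm]
  apply Finset.sum_congr rfl
  intro i _
  split_ifs with h
  · have h4 : ∀ b' : Kˣ, (if (b' : K) = (b : K) ^ (Nat.card F ^ i) then (θ b : ℂ) * conj (θ' b' : ℂ) else 0) =
        if b' = b ^ (Nat.card F ^ i) then (θ b : ℂ) * conj (θ' b' : ℂ) else 0 := by
      intro b'
      have h5 : (b' : K) = (b : K) ^ (Nat.card F ^ i) ↔ b' = b ^ (Nat.card F ^ i) := by
        rw [← Units.val_pow_eq_pow_val, Units.val_inj]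
      by_cases h6 : b' = b ^ (Nat.card F ^ i)
      · rw [if_pos (h5.2 h6), if_pos h6]
      · rw [if_neg (fun h => h6 (h5.1 h)), if_neg h6]
    rw [Finset.sum_congr rfl (fun b' _ => h4 b'), Finset.sum_ite_eq' Finset.univ, if_pos (Finset.mem_univ _), map_pow,
      Units.val_pow_eq_pow_val, map_pow]
  · exact Finset.sum_const_zero

/-- the inner products of the class functions attached to the powers of an injective character -/
theorem inner_count (j : ℕ) (hj : finrank F V ≤ Nat.card K ^ j) (hV : 0 < finrank F V) [Fintype (V ≃ₗ[F] V)]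
    (θ : Kˣ →* ℂˣ) (hθ : Function.Injective θ) (hM : (Nat.card F ^ finrank F V - 1) ∣ Nat.card Kˣ) (k k' : ℕ) :
    classInner (CC (θ ^ k) : (V ≃ₗ[F] V) → ℂ) (CC (θ ^ k')) =
      (((Finset.range (finrank F V)).filter (fun i => k ≡ k' * Nat.card F ^ i [MOD (Nat.card F ^ finrank F V - 1)])).card : ℂ) := by
  classical
  haveI : Module.Finite F V := Module.Finite.of_finite
  set M := Nat.card F ^ finrank F V - 1 with hMdef
  have hq1 : 1 < Nat.card F ^ finrank F V := Nat.one_lt_pow hV.ne' (Finite.one_lt_card (α := F))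
  have hM0 : 0 < M := by omega
  have hVc : (Nat.card V : ℂ) - 1 = (M : ℂ) := by
    rw [Module.natCard_eq_pow_finrank (K := F) (V := V), hMdef, Nat.cast_sub hq1.le]
    push_cast; ring
  have hMC : (M : ℂ) ≠ 0 := by exact_mod_cast hM0.ne'
  have h1 := inner1 j hj hV (θ ^ k) (θ ^ k')
  rw [hVc] at h1
  apply mul_left_cancel₀ hMC
  rw [h1]
  -- the group of M-th roots of unity
  set μ : Subgroup Kˣ := (powMonoidHom M : Kˣ →* Kˣ).ker with hμ
  haveI hFμ : Fintype μ := Fintype.ofFinite μ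
  have hμc : Nat.card μ = M := by
    rw [hμ, IsCyclic.card_powMonoidHom_ker, Nat.gcd_eq_right hM]
  have hmem : ∀ b : Kˣ, (b : K) ^ (Nat.card F ^ finrank F V) = b ↔ b ∈ μ := by
    intro b
    rw [hμ, MonoidHom.mem_ker, powMonoidHom_apply, ← Units.val_inj, Units.val_pow_eq_pow_val, Units.val_one]
    have h2 : Nat.card F ^ finrank F V = M + 1 := by omega
    rw [h2, pow_succ]
    constructor
    · intro h
      have := mul_right_cancel₀ (Units.ne_zero b) (h.trans (one_mul (b : K)).symm)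
      exact this
    · intro h
      rw [h, one_mul]
  obtain ⟨g, hg⟩ := IsCyclic.exists_generator (α := μ)
  have hgo : orderOf g = M := by rw [orderOf_eq_card_of_forall_mem_zpowers hg, hμc]
  have hgo' : orderOf (g : Kˣ) = M := by rw [Subgroup.orderOf_coe, hgo]
  have h2 : ∀ i ∈ Finset.range (finrank F V), ∑ b : Kˣ,
        (if (b : K) ^ (Nat.card F ^ finrank F V) = b then (((θ ^ k) b : ℂˣ) : ℂ) * conj (((θ ^ k') b : ℂˣ) : ℂ) ^ (Nat.card F ^ i) else 0) =
      if k ≡ k' * Nat.card F ^ i [MOD M] then (M : ℂ) else 0 := by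
    intro i _
    let τ : μ →* ℂ := (Units.coeHom ℂ).comp (((θ ^ k) * ((θ ^ k') ^ (Nat.card F ^ i))⁻¹).comp μ.subtype)
    have h3 : ∀ b : Kˣ, (((θ ^ k) b : ℂˣ) : ℂ) * conj (((θ ^ k') b : ℂˣ) : ℂ) ^ (Nat.card F ^ i) =
        ((((θ ^ k) * ((θ ^ k') ^ (Nat.card F ^ i))⁻¹) b : ℂˣ) : ℂ) := by
      intro b
      have h4 : conj (((θ ^ k') b : ℂˣ) : ℂ) = ((((θ ^ k') b)⁻¹ : ℂˣ) : ℂ) := by
        have h5 : (((θ ^ k') b : ℂˣ) : ℂ) ^ Nat.card Kˣ = 1 := by
          rw [← Units.val_pow_eq_pow_val, ← map_pow, pow_card_eq_one', map_one, Units.val_one]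
        rw [Units.val_inv_eq_inv_val]
        exact (Complex.inv_eq_conj (Complex.norm_eq_one_of_pow_eq_one h5 (Nat.card_pos (α := Kˣ)).ne')).symm
      rw [h4, MonoidHom.mul_apply, MonoidHom.inv_apply, MonoidHom.pow_apply (θ ^ k'), ← inv_pow, Units.val_mul, Units.val_pow_eq_pow_val]
    have h5 : ∑ b : Kˣ, (if (b : K) ^ (Nat.card F ^ finrank F V) = b then (((θ ^ k) b : ℂˣ) : ℂ) * conj (((θ ^ k') b : ℂˣ) : ℂ) ^ (Nat.card F ^ i) else 0) =
        ∑ b : μ, τ b := by
      rw [← Finset.sum_filter]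
      refine (Finset.sum_subtype (F := hFμ) (p := fun b => b ∈ μ) _ (fun b => by rw [Finset.mem_filter, hmem]; simp) _).trans ?_
      apply Finset.sum_congr rfl
      intro b _
      exact h3 (b : Kˣ)
    rw [h5, sum_hom_units τ]
    have h6 : τ = 1 ↔ k ≡ k' * Nat.card F ^ i [MOD M] := by
      have h7 : ∀ b : Kˣ, ((((θ ^ k) * ((θ ^ k') ^ (Nat.card F ^ i))⁻¹) b : ℂˣ) : ℂ) = 1 ↔ b ^ k = b ^ (k' * Nat.card F ^ i) := by
        intro b
        rw [Units.val_eq_one, MonoidHom.mul_apply, MonoidHom.inv_apply, mul_inv_eq_one, MonoidHom.pow_apply, MonoidHom.pow_apply,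
          MonoidHom.pow_apply, ← pow_mul, ← map_pow, ← map_pow]
        exact hθ.eq_iff
      constructor
      · intro h
        have h8 := DFunLike.congr_fun h g
        have h9 := (h7 (g : Kˣ)).1 h8
        have h10 := (pow_eq_pow_iff_modEq (x := (g : Kˣ))).1 h9
        rwa [hgo'] at h10
      · intro h
        apply MonoidHom.ext
        intro b
        apply (h7 (b : Kˣ)).2
        have h11 : (b : Kˣ) ^ M = 1 := by
          exact (MonoidHom.mem_ker (f := (powMonoidHom M : Kˣ →* Kˣ))).1 b.2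
        exact pow_eq_pow_of_modEq h h11
    by_cases h12 : k ≡ k' * Nat.card F ^ i [MOD M]
    · rw [if_pos h12, if_pos (h6.2 h12), ← Nat.card_eq_fintype_card, hμc]
    · rw [if_neg h12, if_neg (fun h => h12 (h6.1 h))]
      simp
  have h13 : ∀ (x : Kˣ → ℂ) (i : ℕ), True := fun _ _ => trivial
  rw [Finset.sum_congr rfl (fun i hi => (Finset.sum_congr rfl (fun b _ => by congr)).trans (h2 i hi)), ← Finset.sum_filter, Finset.sum_const,
    nsmul_eq_mul, mul_comm]

end norm

end Cfsg.Agent.Lib.H16GG
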