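import Cfsg.Agent.Lib.H16GO

/-!
# Values on unipotent elements, and cuspidality (helper16)
-/

set_option autoImplicit false
set_option linter.all false

namespace Cfsg.Agent.Lib.H16GG

open Module Polynomial IntermediateField Cfsg.Agent.Lib.H16GA Cfsg.Agent.Lib.H16GF Cfsg.Agent.Lib.H16GJ
open Cfsg Cfsg.Agent.Lib Cfsg.Agent.Lib.CharBasic Cfsg.Agent.Lib.PPart
open scoped ComplexConjugate

universe u v w x y

section unip

variable {F : Type u} [Field F] [Finite F] {K : Type v} [Field K] [Finite K] [Algebra F K]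
variable {V : Type w} [AddCommGroup V] [Module F V] [Finite V]

theorem minpoly_one' : minpoly F (1 : K) = X - 1 := by
  have := minpoly.one F K
  simpa using this

theorem eq_one_of_minpoly {b : K} (h : minpoly F b = minpoly F (1 : K)) : b = 1 := by
  have h1 := minpoly.aeval F b
  rw [h, minpoly_one', map_sub, aeval_X, map_one, sub_eq_zero] at h1
  exact h1

theorem not_both {b b' : K} {T : Module.End F V} (hV : 0 < finrank F V) (h1 : IsNilpotent (aeval T (minpoly F b)))
    (h2 : IsNilpotent (aeval T (minpoly F b'))) : minpoly F b' = minpoly F b := by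
  by_contra h
  haveI : Module.Finite F K := Module.Finite.of_finite
  haveI : Module.Finite F V := Module.Finite.of_finite
  obtain ⟨k, hk⟩ := h1
  obtain ⟨k', hk'⟩ := h2
  have hirr := minpoly.irreducible (isint (F := F) b)
  have hirr' := minpoly.irreducible (isint (F := F) b')
  have hcop : IsCoprime (minpoly F b) (minpoly F b') := by
    rw [hirr.coprime_iff_not_dvd]
    intro hdvd
    apply h
    have hass := hirr.associated_of_dvd hirr' hdvd
    exact (eq_of_monic_of_associated (minpoly.monic (isint b)) (minpoly.monic (isint b')) hass).symm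
  obtain ⟨u, v, huv⟩ := (hcop.pow_left (m := k)).pow_right (n := k')
  have h3 := congrArg (aeval T) huv
  rw [map_add, map_mul, map_mul, map_pow, map_pow, hk, hk', mul_zero, mul_zero, add_zero, map_one] at h3
  have hn : Nontrivial V := Module.nontrivial_of_finrank_pos (R := F) hV
  obtain ⟨v, hv⟩ := exists_ne (0 : V)
  have h4 := LinearMap.congr_fun h3 v
  exact hv h4.symm

theorem CC_unip (hV : 0 < finrank F V) (θ : Kˣ →* ℂˣ) (g : V ≃ₗ[F] V) (hg : IsNilpotent (en g - 1)) :
    CC θ g = cc (Nat.card F) (finrank F (LinearMap.ker (en g - 1))) := by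
  classical
  haveI : Module.Finite F K := Module.Finite.of_finite
  have h0 : aeval (en g) (minpoly F (1 : K)) = en g - 1 := by
    rw [minpoly_one', map_sub, aeval_X, map_one]
  have h1 : IsNilpotent (aeval (en g) (minpoly F (1 : K))) := by rw [h0]; exact hg
  unfold CC
  rw [Finset.sum_eq_single (1 : Kˣ)]
  · have hd : finrank F F⟮(1 : K)⟯ = 1 := by
      rw [finrank_adj, minpoly_one']
      exact natDegree_X_sub_C (1 : F)
    have hc : Nat.card F⟮(1 : K)⟯ = Nat.card F := by
      rw [Module.natCard_eq_pow_finrank (K := F) (V := F⟮(1 : K)⟯), hd, pow_one]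
    unfold gam
    rw [Units.val_one, if_pos h1, hc, hd, Nat.div_one, h0, map_one, Units.val_one, one_mul]
  · intro b _ hb
    unfold gam
    rw [if_neg, mul_zero]
    intro h2
    apply hb
    apply Units.ext
    exact eq_one_of_minpoly (not_both hV h1 h2)
  · intro h; exact absurd (Finset.mem_univ _) h

end unip

section block

variable {F : Type u} [Field F] [Finite F]
variable {V : Type w} [AddCommGroup V] [Module F V] [Finite V]

/-- homomorphisms killing `R` with values in `W0` -/
noncomputable def homEquiv (R W0 : Submodule F V) :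
    {D : Module.End F V // R ≤ LinearMap.ker D ∧ LinearMap.range D ≤ W0} ≃ ((V ⧸ R) →ₗ[F] W0) where
  toFun D := R.liftQ (LinearMap.codRestrict W0 D.1 (fun x => D.2.2 ⟨x, rfl⟩)) (by
    intro x hx
    rw [LinearMap.mem_ker]
    apply Subtype.ext
    exact LinearMap.mem_ker.1 (D.2.1 hx))
  invFun f := ⟨W0.subtype ∘ₗ f ∘ₗ R.mkQ, by
    refine ⟨?_, ?_⟩
    · intro x hx
      rw [LinearMap.mem_ker]
      show ((f (R.mkQ x) : W0) : V) = 0
      rw [(mkz R x).2 hx, map_zero]; rfl
    · rintro _ ⟨x, rfl⟩
      exact (f (R.mkQ x)).2⟩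
  left_inv D := by
    apply Subtype.ext
    apply LinearMap.ext
    intro x
    rfl
  right_inv f := by
    apply LinearMap.ext
    intro y
    obtain ⟨x, rfl⟩ := R.mkQ_surjective y
    rfl

theorem hom_count (R W0 : Submodule F V) :
    Nat.card {D : Module.End F V // R ≤ LinearMap.ker D ∧ LinearMap.range D ≤ W0} =
      Nat.card F ^ ((finrank F V - finrank F R) * finrank F W0) := by
  haveI : Module.Finite F V := Module.Finite.of_finite
  rw [Nat.card_congr (homEquiv R W0), card_hom]
  have := Submodule.finrank_quotient_add_finrank R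
  congr 2
  omega

open Classical in
theorem block_sum (W0 : Submodule F V) (h0 : 0 < finrank F W0) (h1 : finrank F W0 < finrank F V) [Fintype (Module.End F V)] :
    ∑ D : Module.End F V, (if W0 ≤ LinearMap.ker D ∧ LinearMap.range D ≤ W0 then
      cc (Nat.card F) (finrank F (LinearMap.ker D)) else 0) = 0 := by
  haveI : Module.Finite F V := Module.Finite.of_finite
  set n := finrank F V with hn
  set m := finrank F W0 with hm
  have hQ0 : (Nat.card F : ℂ) ≠ 0 := by
    exact_mod_cast (Nat.card_pos (α := F)).ne'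
  set Q : ℂ := (Nat.card F : ℂ) with hQ
  let φ : Submodule F V → ℂ := fun W => (finrank F W : ℂ) * ps Q (finrank F W)
  have h2 : ∀ D : Module.End F V, (if W0 ≤ LinearMap.ker D ∧ LinearMap.range D ≤ W0 then
      cc Q (finrank F (LinearMap.ker D)) else 0) =
      - ∑ W : Submodule F V, φ W * (if (W ⊔ W0 ≤ LinearMap.ker D ∧ LinearMap.range D ≤ W0) then 1 else 0) := by
    intro D
    by_cases hD : W0 ≤ LinearMap.ker D ∧ LinearMap.range D ≤ W0
    · rw [if_pos hD, cc_ker]
      congr 1
      apply Finset.sum_congr rfl; intro W _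
      by_cases hW : W ≤ LinearMap.ker D
      · rw [if_pos hW, if_pos ⟨sup_le hW hD.1, hD.2⟩, mul_one]
      · rw [if_neg hW, if_neg (fun h : W ⊔ W0 ≤ LinearMap.ker D ∧ LinearMap.range D ≤ W0 => hW (le_sup_left.trans h.1)), mul_zero]
    · rw [if_neg hD]
      symm
      rw [neg_eq_zero]
      apply Finset.sum_eq_zero; intro W _
      rw [if_neg (fun h : W ⊔ W0 ≤ LinearMap.ker D ∧ LinearMap.range D ≤ W0 => hD ⟨le_sup_right.trans h.1, h.2⟩), mul_zero]
  rw [Finset.sum_congr rfl (fun D _ => h2 D), Finset.sum_neg_distrib, neg_eq_zero, Finset.sum_comm]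
  have h3 : ∀ W : Submodule F V, ∑ D : Module.End F V, φ W * (if (W ⊔ W0 ≤ LinearMap.ker D ∧ LinearMap.range D ≤ W0) then (1 : ℂ) else 0) =
      Q ^ (n * m) * (φ W * ((Q ^ m)⁻¹) ^ (finrank F (W ⊔ W0 : Submodule F V))) := by
    intro W
    rw [← Finset.mul_sum, Finset.sum_boole]
    have h4 : ((Finset.univ.filter (fun D : Module.End F V => W ⊔ W0 ≤ LinearMap.ker D ∧ LinearMap.range D ≤ W0)).card : ℂ) =
        Nat.card {D : Module.End F V // W ⊔ W0 ≤ LinearMap.ker D ∧ LinearMap.range D ≤ W0} := by
      rw [Nat.card_eq_fintype_card, Fintype.card_subtype]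
    rw [h4, hom_count, ← hn, ← hm]
    have h7 : finrank F (W ⊔ W0 : Submodule F V) ≤ n := Submodule.finrank_le _
    have h8 : n * m = (n - finrank F (W ⊔ W0 : Submodule F V)) * m + m * finrank F (W ⊔ W0 : Submodule F V) := by
      rw [mul_comm m, ← add_mul]
      congr 1
      omega
    rw [h8, pow_add, inv_pow, ← pow_mul]
    push_cast
    rw [← hQ]
    have h9 := pow_ne_zero (m * finrank F (W ⊔ W0 : Submodule F V)) hQ0
    field_simp
  rw [Finset.sum_congr rfl (fun W _ => h3 W), ← Finset.mul_sum]
  have h4 := H (m - 1) (n - m) V W0 (by omega) (by omega) ((Q ^ m)⁻¹)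
  rw [← hQ] at h4
  rw [h4]
  have h5 : ∏ i ∈ Finset.range (n - m), (1 - Q ^ (i + (m - 1) + 1) * (Q ^ m)⁻¹) = 0 := by
    apply Finset.prod_eq_zero (i := 0) (by rw [Finset.mem_range]; omega)
    have h6 : 0 + (m - 1) + 1 = m := by omega
    rw [h6, mul_inv_cancel₀ (pow_ne_zero _ hQ0), sub_self]
  rw [h5]; simp

end block

end Cfsg.Agent.Lib.H16GG
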