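import Cfsg.Agent.Lib.H16GP

/-!
# Cuspidal characters of the general linear groups: existence and count (helper16)
-/

set_option autoImplicit false
set_option linter.all false

namespace Cfsg.Agent.Lib.H16GG

open Module Polynomial IntermediateField Cfsg.Agent.Lib.H16GA Cfsg.Agent.Lib.H16GF Cfsg.Agent.Lib.H16GJ
open Cfsg Cfsg.Agent.Lib Cfsg.Agent.Lib.CharBasic Cfsg.Agent.Lib.PPart
open scoped ComplexConjugate

universe u v w x y

section exist

variable (F : Type u) [Field F] [Finite F]

/-- existence of the auxiliary field -/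
theorem exists_aux (n N : ℕ) (hN : N ≠ 0) : ∃ (K : Type) (_ : Field K) (_ : Finite K) (_ : Algebra F K) (p j : ℕ),
    Good p N K j ∧ n ≤ Nat.card K ^ j ∧ CharP F p := by
  haveI := Fintype.ofFinite F
  obtain ⟨p, hp⟩ := CharP.exists F
  obtain ⟨r, hpp, hr⟩ := FiniteField.card F p
  haveI : Fact p.Prime := ⟨hpp⟩
  set M := N / p ^ N.factorization p with hM
  have hM0 : M ≠ 0 := by
    have := Nat.ordCompl_pos p hN
    omega
  have hcop : Nat.Coprime p M := Nat.coprime_ordCompl hpp hN
  have hφ : 0 < Nat.totient M := Nat.totient_pos.2 (Nat.pos_of_ne_zero hM0)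
  haveI : NeZero (Nat.totient M) := ⟨hφ.ne'⟩
  refine ⟨FiniteField.Extension F p (Nat.totient M), inferInstance, inferInstance, inferInstance, p, N + n, ⟨hpp, ?_, ?_⟩, ?_, hp⟩
  · intro d hd hpd
    have hdM : d ∣ M := by
      have h1 : N = p ^ N.factorization p * M := (Nat.ordProj_mul_ordCompl_eq_self N p).symm
      rw [h1] at hd
      exact ((Nat.Prime.coprime_iff_not_dvd hpp).2 hpd).symm.pow_right _ |>.dvd_of_dvd_mul_left hd
    refine hdM.trans ?_
    rw [Nat.card_units, FiniteField.natCard_extension, Nat.card_eq_fintype_card, hr, ← pow_mul, mul_comm, pow_mul]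
    have h2 := (Nat.ModEq.pow_totient hcop).pow r
    rw [one_pow] at h2
    exact (Nat.modEq_iff_dvd' (Nat.one_le_pow _ _ (pow_pos hpp.pos _))).1 h2.symm
  · intro k hk
    rw [FiniteField.natCard_extension, Nat.card_eq_fintype_card, hr, ← pow_mul, ← pow_mul]
    apply pow_dvd_pow
    have h1 : k < N := lt_of_lt_of_le (Nat.lt_pow_self hpp.one_lt) (Nat.le_of_dvd (Nat.pos_of_ne_zero hN) hk)
    have h2 : 0 < (r : ℕ) := r.pos
    calc k ≤ N + n := by omega
      _ ≤ (r : ℕ) * Nat.totient M * (N + n) := Nat.le_mul_of_pos_left _ (Nat.mul_pos h2 hφ)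
      _ = _ := by rw [mul_assoc]
  · have h1 : 1 < Nat.card (FiniteField.Extension F p (Nat.totient M)) := Finite.one_lt_card
    exact (Nat.lt_pow_self h1).le.trans' (by omega)

/-- an injective character of the multiplicative group of a finite field -/
theorem exists_inj (K : Type v) [Field K] [Finite K] : ∃ θ : Kˣ →* ℂˣ, Function.Injective θ := by
  haveI : NeZero (Nat.card Kˣ) := ⟨(Nat.card_pos (α := Kˣ)).ne'⟩
  have h1 : Nat.card Kˣ = Nat.card (rootsOfUnity (Nat.card Kˣ) ℂ) := by
    rw [Complex.card_rootsOfUnity]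
  let e := mulEquivOfCyclicCardEq h1
  refine ⟨(rootsOfUnity (Nat.card Kˣ) ℂ).subtype.comp e.toMonoidHom, ?_⟩
  exact (Subgroup.subtype_injective _).comp e.injective

end exist

section card

variable {F : Type u} [Field F] [Finite F]

theorem card_gl_V (V : Type w) [AddCommGroup V] [Module F V] [Finite V] :
    Nat.card (V ≃ₗ[F] V) = Nat.card (GL (Fin (finrank F V)) F) := by
  haveI : Module.Finite F V := Module.Finite.of_finite
  haveI : Fintype F := Fintype.ofFinite F
  set n := finrank F V with hn
  have e1 : (V ≃ₗ[F] V) ≃ ((Fin n → F) ≃ₗ[F] (Fin n → F)) :=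
    { toFun := fun f => ((finBasis F V).equivFun.symm.trans f).trans (finBasis F V).equivFun
      invFun := fun f => ((finBasis F V).equivFun.trans f).trans (finBasis F V).equivFun.symm
      left_inv := fun f => by ext; simp
      right_inv := fun f => by
        apply LinearEquiv.ext
        intro x
        show (finBasis F V).equivFun ((finBasis F V).equivFun.symm (f ((finBasis F V).equivFun ((finBasis F V).equivFun.symm x)))) = f x
        rw [LinearEquiv.apply_symm_apply, LinearEquiv.apply_symm_apply] }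
  have e2 : GL (Fin n) F ≃ ((Fin n → F) ≃ₗ[F] (Fin n → F)) :=
    (Matrix.GeneralLinearGroup.toLin.trans (LinearMap.GeneralLinearGroup.generalLinearEquiv F (Fin n → F))).toEquiv
  rw [Nat.card_congr e1, ← Nat.card_congr e2]

variable (F) in
/-- common multiple of the orders of the small general linear groups -/
noncomputable def NN (n : ℕ) : ℕ := ∏ m ∈ Finset.range (n + 1), Nat.card (GL (Fin m) F)

theorem NN_ne (n : ℕ) : NN F n ≠ 0 := by
  unfold NN
  rw [Finset.prod_ne_zero_iff]
  intro m _
  haveI : Finite (GL (Fin m) F) := inferInstance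
  exact (Nat.card_pos (α := GL (Fin m) F)).ne'

theorem card_dvd_NN (n : ℕ) (W : Type w) [AddCommGroup W] [Module F W] [Finite W] (hW : finrank F W ≤ n) :
    Nat.card (W ≃ₗ[F] W) ∣ NN F n := by
  rw [card_gl_V]
  exact Finset.dvd_prod_of_mem _ (Finset.mem_range.2 (by omega))

theorem q_dvd_NN (n : ℕ) (hn : 0 < n) : (Nat.card F ^ n - 1) ∣ NN F n := by
  haveI : Fintype F := Fintype.ofFinite F
  refine dvd_trans ?_ (Finset.dvd_prod_of_mem (fun m => Nat.card (GL (Fin m) F)) (Finset.mem_range.2 (Nat.lt_succ_self n)))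
  show _ ∣ Nat.card (GL (Fin n) F)
  rw [Matrix.card_GL_field, Nat.card_eq_fintype_card]
  have := Finset.dvd_prod_of_mem (fun i : Fin n => (Fintype.card F ^ n - Fintype.card F ^ (i : ℕ))) (Finset.mem_univ (⟨0, hn⟩ : Fin n))
  simpa using this

end card

end Cfsg.Agent.Lib.H16GG
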