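import Cfsg.Agent.Lib.H16GQ

/-!
# Cuspidal characters of the general linear groups: main theorem (helper16)
-/

set_option autoImplicit false
set_option linter.all false

namespace Cfsg.Agent.Lib.H16GG

open Module Cfsg.Agent.Lib.H16GA Cfsg.Agent.Lib.H16GF Cfsg.Agent.Lib.H16GJ
open Cfsg Cfsg.Agent.Lib Cfsg.Agent.Lib.CharBasic Cfsg.Agent.Lib.PPart
open scoped ComplexConjugate

universe u v w x y

theorem degree_formula (Q : ℂ) (n : ℕ) (hn : 1 ≤ n) :
    (-1 : ℂ) ^ (n - 1) * cc Q n = ∏ i ∈ Finset.Ico 1 n, (Q ^ i - 1) := by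
  obtain ⟨m, rfl⟩ := Nat.exists_eq_succ_of_ne_zero (by omega : n ≠ 0)
  rw [Nat.succ_eq_add_one, cc_succ, Nat.add_sub_cancel, Finset.prod_Ico_eq_prod_range, Nat.add_sub_cancel]
  rw [← Finset.card_range m, ← Finset.prod_const, Finset.card_range, ← Finset.prod_mul_distrib]
  apply Finset.prod_congr rfl
  intro i _
  ring

section cusp

variable {F : Type u} [Field F] [Finite F] {K : Type v} [Field K] [Finite K] [Algebra F K]
variable {V : Type w} [AddCommGroup V] [Module F V] [Finite V]

open Classical in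
theorem cusp0 (W0 : Submodule F V) (h0 : 0 < finrank F W0) (h1 : finrank F W0 < finrank F V) [Fintype (V ≃ₗ[F] V)]
    (θ : Kˣ →* ℂˣ) :
    ∑ g : V ≃ₗ[F] V, (if W0 ≤ LinearMap.ker (en g - 1) ∧ LinearMap.range (en g - 1) ≤ W0 then CC θ g else 0) = 0 := by
  haveI : Module.Finite F V := Module.Finite.of_finite
  haveI : Fintype (Module.End F V) := Fintype.ofFinite _
  refine Eq.trans ?_ (block_sum W0 h0 h1)
  have hsq : ∀ D : Module.End F V, W0 ≤ LinearMap.ker D ∧ LinearMap.range D ≤ W0 → D * D = 0 := by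
    rintro D ⟨hk, hr⟩
    apply LinearMap.ext
    intro x
    exact LinearMap.mem_ker.1 (hk (hr ⟨x, rfl⟩))
  apply Finset.sum_of_injOn (fun g : V ≃ₗ[F] V => en g - 1)
  · intro g _ h _ hgh
    exact en_inj (sub_left_injective hgh)
  · exact fun _ _ => Finset.mem_univ _
  · intro D _ hD
    rw [if_neg]
    intro h
    apply hD
    have hDD := hsq D h
    have hDx : ∀ x, D (D x) = 0 := fun x => LinearMap.congr_fun hDD x
    refine ⟨LinearEquiv.ofLinear (1 + D) (1 - D) ?_ ?_, Finset.mem_univ _, ?_⟩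
    · apply LinearMap.ext
      intro x
      show (x - D x) + D (x - D x) = x
      rw [map_sub, hDx]; abel
    · apply LinearMap.ext
      intro x
      show (x + D x) - D (x + D x) = x
      rw [map_add, hDx]; abel
    · apply LinearMap.ext
      intro x
      show (x + D x) - x = D x
      abel
  · intro g _
    by_cases h : W0 ≤ LinearMap.ker (en g - 1) ∧ LinearMap.range (en g - 1) ≤ W0
    · rw [if_pos h, if_pos h, CC_unip (by omega) θ g ⟨2, by rw [sq]; exact hsq _ h⟩]
    · rw [if_neg h, if_neg h]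

end cusp

section main

variable {F : Type u} [Field F] [Finite F] {K : Type v} [Field K] [Finite K] [Algebra F K]

/-- matrices as linear equivalences -/
noncomputable def eGL (F : Type u) [Field F] (n : ℕ) : GL (Fin n) F ≃* ((Fin n → F) ≃ₗ[F] (Fin n → F)) :=
  Matrix.GeneralLinearGroup.toLin.trans (LinearMap.GeneralLinearGroup.generalLinearEquiv F (Fin n → F))

theorem eGL_apply (n : ℕ) (g : GL (Fin n) F) (x : Fin n → F) : eGL F n g x = (g : Matrix (Fin n) (Fin n) F).mulVec x := rfl

open Classical in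
theorem cusp1 (n m : ℕ) (hm : 0 < m) (hmn : m < n) [Fintype (GL (Fin n) F)] (θ : Kˣ →* ℂˣ) :
    ∑ g : GL (Fin n) F,
      (if (∀ i j : Fin n, ¬ (i.val < m ∧ m ≤ j.val) → (g : Matrix (Fin n) (Fin n) F) i j = (1 : Matrix (Fin n) (Fin n) F) i j)
        then CC (V := Fin n → F) θ (eGL F n g) else 0) = 0 := by
  haveI : Fintype ((Fin n → F) ≃ₗ[F] (Fin n → F)) := Fintype.ofFinite _
  let W0 : Submodule F (Fin n → F) :=
    { carrier := {x | ∀ i : Fin n, m ≤ i.val → x i = 0}
      add_mem' := fun {x y} hx hy i hi => by rw [Pi.add_apply, hx i hi, hy i hi, add_zero]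
      zero_mem' := fun i _ => rfl
      smul_mem' := fun c x hx i hi => by rw [Pi.smul_apply, hx i hi, smul_zero] }
  have hW0 : ∀ x, x ∈ W0 ↔ ∀ i : Fin n, m ≤ i.val → x i = 0 := fun x => Iff.rfl
  have h0 : 0 < finrank F W0 := by
    rw [Nat.pos_iff_ne_zero]
    intro h
    rw [Submodule.finrank_eq_zero] at h
    have h1 : (Pi.single (⟨0, by omega⟩ : Fin n) (1 : F) : Fin n → F) ∈ W0 := by
      rw [hW0]
      intro i hi
      rw [Pi.single_apply, if_neg]
      intro h2
      rw [h2] at hi
      simp at hi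
      omega
    rw [h, Submodule.mem_bot] at h1
    have := congrFun h1 ⟨0, by omega⟩
    simp at this
  have h1 : finrank F W0 < finrank F (Fin n → F) := by
    apply Submodule.finrank_lt
    intro h
    have h1 : (Pi.single (⟨n - 1, by omega⟩ : Fin n) (1 : F) : Fin n → F) ∈ W0 := by rw [h]; trivial
    have := h1 ⟨n - 1, by omega⟩ (by show m ≤ n - 1; omega)
    simp at this
  refine Eq.trans ?_ (cusp0 W0 h0 h1 θ)
  refine Eq.trans ?_ (Equiv.sum_comp (eGL F n).toEquiv (fun g : (Fin n → F) ≃ₗ[F] (Fin n → F) =>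
    (if W0 ≤ LinearMap.ker (en g - 1) ∧ LinearMap.range (en g - 1) ≤ W0 then CC θ g else 0)))
  apply Finset.sum_congr rfl
  intro g _
  have hD : ∀ x : Fin n → F, (en (eGL F n g) - 1) x = ((g : Matrix (Fin n) (Fin n) F) - 1).mulVec x := by
    intro x
    rw [Matrix.sub_mulVec, Matrix.one_mulVec]
    rfl
  have key : (∀ i j : Fin n, ¬ (i.val < m ∧ m ≤ j.val) → (g : Matrix (Fin n) (Fin n) F) i j = (1 : Matrix (Fin n) (Fin n) F) i j) ↔
      (W0 ≤ LinearMap.ker (en (eGL F n g) - 1) ∧ LinearMap.range (en (eGL F n g) - 1) ≤ W0) := by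
    constructor
    · intro h
      have h' : ∀ i j : Fin n, ¬ (i.val < m ∧ m ≤ j.val) → ((g : Matrix (Fin n) (Fin n) F) - 1) i j = 0 := by
        intro i j hij
        rw [Matrix.sub_apply, h i j hij, sub_self]
      constructor
      · intro x hx
        rw [LinearMap.mem_ker, hD]
        funext i
        rw [Pi.zero_apply, Matrix.mulVec, dotProduct]
        apply Finset.sum_eq_zero
        intro j _
        by_cases hj : m ≤ j.val
        · rw [hx j hj, mul_zero]
        · rw [h' i j (fun hh => hj hh.2), zero_mul]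
      · rintro _ ⟨x, rfl⟩
        rw [hW0]
        intro i hi
        rw [hD, Matrix.mulVec, dotProduct]
        apply Finset.sum_eq_zero
        intro j _
        rw [h' i j (fun hh => absurd hh.1 (by omega)), zero_mul]
    · rintro ⟨hk, hr⟩ i j hij
      have hcol : ((g : Matrix (Fin n) (Fin n) F) - 1) i j = (en (eGL F n g) - 1) (Pi.single j 1) i := by
        rw [hD, Matrix.mulVec_single_one]
        rfl
      rw [← sub_eq_zero, ← Matrix.sub_apply, hcol]
      by_cases hi : m ≤ i.val
      · exact hr ⟨_, rfl⟩ i hi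
      · have hj : ¬ m ≤ j.val := fun hj => hij ⟨by omega, hj⟩
        have h2 : (Pi.single j (1 : F) : Fin n → F) ∈ W0 := by
          rw [hW0]
          intro i' hi'
          rw [Pi.single_apply, if_neg]
          intro h2
          rw [h2] at hi'
          exact hj hi'
        have h3 := LinearMap.mem_ker.1 (hk h2)
        rw [h3]; rfl
  show _ = (if W0 ≤ LinearMap.ker (en (eGL F n g) - 1) ∧ LinearMap.range (en (eGL F n g) - 1) ≤ W0 then CC (V := Fin n → F) θ (eGL F n g) else 0)
  by_cases h : (∀ i j : Fin n, ¬ (i.val < m ∧ m ≤ j.val) → (g : Matrix (Fin n) (Fin n) F) i j = (1 : Matrix (Fin n) (Fin n) F) i j)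
  · rw [if_pos h, if_pos (key.1 h)]
  · rw [if_neg h, if_neg (fun h' => h (key.2 h'))]

end main

end Cfsg.Agent.Lib.H16GG
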