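import Cfsg.Agent.Lib.H16GR

/-!
# Cuspidal characters of the general linear groups: the count (helper16)
-/

set_option autoImplicit false
set_option linter.all false

open scoped MatrixGroups
open Cfsg

namespace Cfsg.Agent.Lib.H16GS

open Module Cfsg.Agent.Lib Cfsg.Agent.Lib.H16GA Cfsg.Agent.Lib.H16GF Cfsg.Agent.Lib.H16GG Cfsg.Agent.Lib.CharBasic
open scoped ComplexConjugate

universe u v

section

variable {F : Type u} [Field F] [Finite F] {K : Type v} [Field K] [Finite K] [Algebra F K]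

/-- the characters -/
noncomputable def chi (n : ℕ) (θ : Kˣ →* ℂˣ) (g : (Fin n → F) ≃ₗ[F] (Fin n → F)) : ℂ :=
  (-1 : ℂ) ^ (n - 1) * CC (V := Fin n → F) θ g

theorem sgn_mul (n : ℕ) : (-1 : ℂ) ^ (n - 1) * conj ((-1 : ℂ) ^ (n - 1)) = 1 := by
  rw [map_pow, map_neg, map_one, ← mul_pow]
  norm_num

theorem chi_inner (n : ℕ) [Fintype ((Fin n → F) ≃ₗ[F] (Fin n → F))] (θ θ' : Kˣ →* ℂˣ) :
    classInner (chi (F := F) n θ) (chi n θ') = classInner (CC (F := F) (V := Fin n → F) θ) (CC θ') := by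
  have h1 : chi (F := F) n θ = ((-1 : ℂ) ^ (n - 1)) • CC (V := Fin n → F) θ := rfl
  have h2 : chi (F := F) n θ' = ((-1 : ℂ) ^ (n - 1)) • CC (V := Fin n → F) θ' := rfl
  rw [h1, h2, classInner_smul_left, classInner_smul_right, ← mul_assoc, sgn_mul, one_mul]

theorem chi_one (n : ℕ) (hn : 1 ≤ n) (θ : Kˣ →* ℂˣ) :
    chi (F := F) n θ 1 = ∏ i ∈ Finset.Ico 1 n, ((Nat.card F : ℂ) ^ i - 1) := by
  unfold chi
  have h0 : en (1 : (Fin n → F) ≃ₗ[F] (Fin n → F)) - 1 = 0 := by
    apply LinearMap.ext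
    intro x
    show x - x = 0
    rw [sub_self]
  have h1 := CC_unip (V := Fin n → F) (by rw [finrank_fin_fun]; omega) θ 1 (by rw [h0]; exact IsNilpotent.zero)
  rw [h1, h0, LinearMap.ker_zero, finrank_top, finrank_fin_fun, degree_formula _ n hn]

end

theorem main {n : ℕ} {F : Type u} [Field F] [Fintype F] [Fintype (GL (Fin n) F)] (hn : 2 ≤ n)
    (dec : ∀ (m : ℕ) (g : GL (Fin n) F), Decidable (∀ i j : Fin n, ¬ (i.val < m ∧ m ≤ j.val) →
      (g : Matrix (Fin n) (Fin n) F) i j = (1 : Matrix (Fin n) (Fin n) F) i j)) :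
    Nat.totient (Fintype.card F ^ n - 1) / n ≤
      Nat.card {χ : Cfsg.IrrCharacter (GL (Fin n) F) //
        (χ : GL (Fin n) F → ℂ) 1 = ∏ i ∈ Finset.Ico 1 n, ((Fintype.card F : ℂ) ^ i - 1) ∧
        ∀ m : ℕ, 0 < m → m < n →
          (∑ g : GL (Fin n) F,
            if (∀ i j : Fin n, ¬ (i.val < m ∧ m ≤ j.val) → (g : Matrix (Fin n) (Fin n) F) i j = (1 : Matrix (Fin n) (Fin n) F) i j)
            then (χ : GL (Fin n) F → ℂ) g else 0) = 0} := by
  classical
  haveI : Fintype ((Fin n → F) ≃ₗ[F] (Fin n → F)) := Fintype.ofFinite _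
  obtain ⟨K, hK1, hK2, hK3, p, j, hg, hj, hp⟩ := exists_aux F n (NN F n) (NN_ne n)
  obtain ⟨θ, hθ⟩ := exists_inj K
  have hfr : finrank F (Fin n → F) = n := finrank_fin_fun F
  set M := Nat.card F ^ n - 1 with hM
  have hq1 : 1 < Nat.card F := Finite.one_lt_card
  have hqn : 1 < Nat.card F ^ n := Nat.one_lt_pow (by omega) hq1
  have hM0 : 0 < M := by omega
  have hpq : p ∣ Nat.card F := by
    obtain ⟨r, hpp, hr⟩ := FiniteField.card F p
    rw [Nat.card_eq_fintype_card, hr]
    exact dvd_pow_self p r.pos.ne'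
  have hMK : M ∣ Nat.card Kˣ := by
    apply hg.reg _ (q_dvd_NN n (by omega))
    intro h
    have h1 : p ∣ Nat.card F ^ n := dvd_pow hpq (by omega)
    have h2 : p ∣ 1 := by
      have h3 : Nat.card F ^ n = M + 1 := by omega
      rw [h3] at h1
      exact (Nat.dvd_add_right h).1 h1
    exact hg.prime.one_lt.ne' (Nat.dvd_one.1 h2)
  have hgen : ∀ k : ℕ, IsGeneralizedCharacter ((Fin n → F) ≃ₗ[F] (Fin n → F)) (CC (V := Fin n → F) (θ ^ k)) := fun k =>
    CC_gen hg (n0 := n) (fun W _ _ _ hW => card_dvd_NN n W hW) hj (θ ^ k) n le_rfl (Fin n → F) hfr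
  have hcount := fun k k' : ℕ => inner_count (F := F) (V := Fin n → F) j (by rw [hfr]; exact hj) (by rw [hfr]; omega) θ hθ
    (by rw [hfr]; exact hMK) k k'
  simp only [hfr] at hcount
  rw [← hM] at hcount
  -- norm one
  have hnorm : ∀ k : ℕ, k.Coprime M → classInner (chi (F := F) n (θ ^ k)) (chi n (θ ^ k)) = 1 := by
    intro k hk
    rw [chi_inner, hcount]
    have h1 : (Finset.range n).filter (fun i => k ≡ k * Nat.card F ^ i [MOD M]) = {0} := by
      ext i
      rw [Finset.mem_filter, Finset.mem_range, Finset.mem_singleton]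
      constructor
      · rintro ⟨hi, h⟩
        by_contra hi0
        have h2 : 1 ≡ Nat.card F ^ i [MOD M] := by
          have h3 : k * 1 ≡ k * Nat.card F ^ i [MOD M] := by rw [mul_one]; exact h
          exact Nat.ModEq.cancel_left_of_coprime hk.symm h3
        have h4 : 1 ≤ Nat.card F ^ i := Nat.one_le_pow _ _ (by omega)
        have h5 := (Nat.modEq_iff_dvd' h4).1 h2
        have h6 : 1 < Nat.card F ^ i := Nat.one_lt_pow hi0 hq1
        have h7 : Nat.card F ^ i < Nat.card F ^ n := Nat.pow_lt_pow_right hq1 hi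
        have h8 := Nat.le_of_dvd (by omega) h5
        omega
      · rintro rfl
        refine ⟨by omega, ?_⟩
        rw [pow_zero, mul_one]
    rw [h1]; simp
  have hirr : ∀ k : ℕ, k.Coprime M → IsIrrCharacter ((Fin n → F) ≃ₗ[F] (Fin n → F)) (chi (F := F) n (θ ^ k)) := by
    intro k hk
    have hgen' : IsGeneralizedCharacter ((Fin n → F) ≃ₗ[F] (Fin n → F)) (chi (F := F) n (θ ^ k)) := by
      have h1 := (hgen k).intCast_smul ((-1 : ℤ) ^ (n - 1))
      have h2 : chi (F := F) n (θ ^ k) = ((((-1 : ℤ) ^ (n - 1) : ℤ)) : ℂ) • CC (V := Fin n → F) (θ ^ k) := by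
        funext g
        show (-1 : ℂ) ^ (n - 1) * _ = _ * _
        push_cast
        rfl
      rw [h2]
      exact h1
    refine hgen'.irr_of_norm_one (hnorm k hk) ?_
    rw [chi_one n (by omega)]
    have h3 : ∏ i ∈ Finset.Ico 1 n, ((Nat.card F : ℂ) ^ i - 1) = ((∏ i ∈ Finset.Ico 1 n, ((Nat.card F : ℝ) ^ i - 1) : ℝ) : ℂ) := by
      push_cast; rfl
    rw [h3, Complex.ofReal_re]
    apply Finset.prod_nonneg
    intro i _
    have h4 : (1 : ℝ) ≤ (Nat.card F : ℝ) ^ i := one_le_pow₀ (by exact_mod_cast hq1.le)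
    linarith
  -- the map
  have hGirr : ∀ k : ℕ, k.Coprime M → IsIrrCharacter (GL (Fin n) F) (fun g => chi (F := F) n (θ ^ k) (eGL F n g)) := fun k hk =>
    (hirr k hk).comp_surjective (eGL F n).toMonoidHom (eGL F n).surjective
  let S := {χ : Cfsg.IrrCharacter (GL (Fin n) F) //
        (χ : GL (Fin n) F → ℂ) 1 = ∏ i ∈ Finset.Ico 1 n, ((Fintype.card F : ℂ) ^ i - 1) ∧
        ∀ m : ℕ, 0 < m → m < n →
          (∑ g : GL (Fin n) F,
            if (∀ i j : Fin n, ¬ (i.val < m ∧ m ≤ j.val) → (g : Matrix (Fin n) (Fin n) F) i j = (1 : Matrix (Fin n) (Fin n) F) i j)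
            then (χ : GL (Fin n) F → ℂ) g else 0) = 0}
  have hS : ∀ k : ℕ, ∀ hk : k.Coprime M, ((fun g => chi (F := F) n (θ ^ k) (eGL F n g)) : GL (Fin n) F → ℂ) 1 =
      ∏ i ∈ Finset.Ico 1 n, ((Fintype.card F : ℂ) ^ i - 1) ∧
        ∀ m : ℕ, 0 < m → m < n →
          (∑ g : GL (Fin n) F,
            if (∀ i j : Fin n, ¬ (i.val < m ∧ m ≤ j.val) → (g : Matrix (Fin n) (Fin n) F) i j = (1 : Matrix (Fin n) (Fin n) F) i j)
            then ((fun g => chi (F := F) n (θ ^ k) (eGL F n g)) : GL (Fin n) F → ℂ) g else 0) = 0 := by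
    intro k hk
    constructor
    · show chi (F := F) n (θ ^ k) (eGL F n 1) = _
      rw [map_one, chi_one n (by omega), Nat.card_eq_fintype_card]
    · intro m hm hmn
      have h1 := cusp1 (F := F) n m hm hmn (θ ^ k)
      have h2 := congrArg (fun z => (-1 : ℂ) ^ (n - 1) * z) h1
      simp only [Finset.mul_sum, mul_zero] at h2
      refine Eq.trans ?_ h2
      apply Finset.sum_congr rfl
      intro g _
      split_ifs
      · rfl
      · simp
  haveI : Finite S := Subtype.finite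
  haveI : Fintype S := Fintype.ofFinite S
  let Φ : ℕ → Option S := fun k => if hk : k.Coprime M then some ⟨⟨_, hGirr k hk⟩, hS k hk⟩ else none
  have hΦ : ∀ k k' : ℕ, k.Coprime M → k'.Coprime M → Φ k = Φ k' → ∃ i, i < n ∧ k ≡ k' * Nat.card F ^ i [MOD M] := by
    intro k k' hk hk' h
    have h1 : Φ k = some ⟨⟨_, hGirr k hk⟩, hS k hk⟩ := dif_pos hk
    have h2 : Φ k' = some ⟨⟨_, hGirr k' hk'⟩, hS k' hk'⟩ := dif_pos hk'
    rw [h1, h2] at h
    have h3 := Option.some.inj h
    have h4 : (fun g => chi (F := F) n (θ ^ k) (eGL F n g)) = (fun g => chi (F := F) n (θ ^ k') (eGL F n g)) :=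
      congrArg (fun s : S => ((s.1 : IrrCharacter (GL (Fin n) F)) : GL (Fin n) F → ℂ)) h3
    have h5 : chi (F := F) n (θ ^ k) = chi (F := F) n (θ ^ k') := by
      funext g
      have := congrFun h4 ((eGL F n).symm g)
      simpa using this
    have h6 := hnorm k hk
    rw [show classInner (chi (F := F) n (θ ^ k)) (chi n (θ ^ k)) = classInner (chi (F := F) n (θ ^ k)) (chi n (θ ^ k')) from by rw [← h5],
      chi_inner, hcount] at h6
    have h7 : ((Finset.range n).filter (fun i => k ≡ k' * Nat.card F ^ i [MOD M])).card = 1 := by exact_mod_cast h6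
    obtain ⟨i, hi⟩ := Finset.card_pos.1 (by omega : 0 < ((Finset.range n).filter (fun i => k ≡ k' * Nat.card F ^ i [MOD M])).card)
    rw [Finset.mem_filter, Finset.mem_range] at hi
    exact ⟨i, hi.1, hi.2⟩
  -- counting
  set T := (Finset.range M).filter (fun k => k.Coprime M) with hT
  have hTc : T.card = Nat.totient M := by
    rw [Nat.totient_eq_card_coprime, hT]
    congr 1
    apply Finset.filter_congr
    intro k _
    exact Nat.coprime_comm
  have hfib : ∀ a ∈ T.image Φ, (T.filter (fun k => Φ k = a)).card ≤ n := by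
    intro a ha
    obtain ⟨k', hk', rfl⟩ := Finset.mem_image.1 ha
    rw [hT, Finset.mem_filter] at hk'
    have h1 : T.filter (fun k => Φ k = Φ k') ⊆ (Finset.range n).image (fun i => (k' * Nat.card F ^ i) % M) := by
      intro k hk
      rw [Finset.mem_filter, hT, Finset.mem_filter, Finset.mem_range] at hk
      obtain ⟨i, hi, hki⟩ := hΦ k k' hk.1.2 hk'.2 hk.2
      rw [Finset.mem_image]
      refine ⟨i, Finset.mem_range.2 hi, ?_⟩
      have : k % M = (k' * Nat.card F ^ i) % M := hki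
      rw [← this, Nat.mod_eq_of_lt hk.1.1]
    exact (Finset.card_le_card h1).trans (Finset.card_image_le.trans (by rw [Finset.card_range]))
  have h1 := Finset.card_le_mul_card_image T n hfib
  have h2 : (T.image Φ).card ≤ Fintype.card S := by
    have h3 : T.image Φ ⊆ (Finset.univ : Finset S).image some := by
      intro a ha
      obtain ⟨k, hk, rfl⟩ := Finset.mem_image.1 ha
      rw [hT, Finset.mem_filter] at hk
      have : Φ k = some ⟨⟨_, hGirr k hk.2⟩, hS k hk.2⟩ := dif_pos hk.2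
      rw [this]
      exact Finset.mem_image_of_mem _ (Finset.mem_univ _)
    exact (Finset.card_le_card h3).trans (Finset.card_image_le.trans (by rw [Finset.card_univ]))
  have h4 : Nat.totient (Fintype.card F ^ n - 1) = T.card := by
    rw [hTc, hM, Nat.card_eq_fintype_card]
  show _ ≤ Nat.card S
  rw [h4, Nat.card_eq_fintype_card]
  apply Nat.div_le_of_le_mul
  exact h1.trans (Nat.mul_le_mul_left n h2)

end Cfsg.Agent.Lib.H16GS
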