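import Mathlib

/-! Sylow `p`-subgroups of a subgroup `K` of `G`, seen as subgroups of `G`. -/

set_option autoImplicit false
set_option linter.dupNamespace false

namespace Cfsg.Agent.Lib.SylIn

variable {G : Type*} [Group G] {p : ℕ}

/-- `P` is (the image in `G` of) a Sylow `p`-subgroup of the subgroup `K`. -/
def SylIn (p : ℕ) (P K : Subgroup G) : Prop :=
  ∃ S : Sylow p K, (S : Subgroup K).map K.subtype = P

theorem SylIn.le {P K : Subgroup G} (h : SylIn p P K) : P ≤ K := by
  obtain ⟨S, rfl⟩ := h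
  exact Subgroup.map_subtype_le _

theorem SylIn.isPGroup {P K : Subgroup G} (h : SylIn p P K) : IsPGroup p P := by
  obtain ⟨S, rfl⟩ := h
  exact S.isPGroup'.map _

theorem sylIn_iff {P K : Subgroup G} :
    SylIn p P K ↔ P ≤ K ∧ IsPGroup p P ∧ ∀ Q : Subgroup G, Q ≤ K → IsPGroup p Q → P ≤ Q → Q = P := by
  constructor
  · rintro ⟨S, rfl⟩
    refine ⟨Subgroup.map_subtype_le _, S.isPGroup'.map _, fun Q hQ hQp hPQ => ?_⟩
    have h1 : IsPGroup p (Q.subgroupOf K) := hQp.comap_of_injective K.subtype K.subtype_injective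
    have h2 : (S : Subgroup K) ≤ Q.subgroupOf K := by
      intro x hx
      rw [Subgroup.mem_subgroupOf]
      exact hPQ ⟨x, hx, rfl⟩
    have h3 := S.is_maximal' h1 h2
    apply le_antisymm _ hPQ
    intro x hx
    refine ⟨⟨x, hQ hx⟩, ?_, rfl⟩
    have : (⟨x, hQ hx⟩ : K) ∈ Q.subgroupOf K := by
      rw [Subgroup.mem_subgroupOf]; exact hx
    rw [h3] at this
    exact this
  · rintro ⟨hPK, hP, hmax⟩
    have h1 : IsPGroup p (P.subgroupOf K) := hP.comap_of_injective K.subtype K.subtype_injective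
    refine ⟨⟨P.subgroupOf K, h1, ?_⟩, ?_⟩
    · intro Q hQ hle
      have h2 := hmax (Q.map K.subtype) (Subgroup.map_subtype_le _) (hQ.map _) (by
        intro x hx
        exact ⟨⟨x, hPK hx⟩, hle (by rw [Subgroup.mem_subgroupOf]; exact hx), rfl⟩)
      ext x
      rw [Subgroup.mem_subgroupOf, ← h2]
      constructor
      · intro hx
        exact ⟨x, hx, rfl⟩
      · rintro ⟨y, hy, hyx⟩
        have : y = x := Subtype.ext hyx
        rwa [← this]
    · exact Subgroup.map_subgroupOf_eq_of_le hPK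

theorem SylIn.eq_of_le {P K Q : Subgroup G} (h : SylIn p P K) (hQK : Q ≤ K) (hQ : IsPGroup p Q)
    (hPQ : P ≤ Q) : Q = P :=
  (sylIn_iff.1 h).2.2 Q hQK hQ hPQ

/-- Every subgroup has a Sylow subgroup. -/
theorem exists_sylIn [Finite G] (p : ℕ) (K : Subgroup G) : ∃ P, SylIn p P K := by
  obtain ⟨S⟩ : Nonempty (Sylow p K) := inferInstance
  exact ⟨_, S, rfl⟩

/-- Every `p`-subgroup of `K` is contained in a Sylow `p`-subgroup of `K`. -/
theorem exists_sylIn_ge {K Q : Subgroup G} (hQK : Q ≤ K) (hQ : IsPGroup p Q) :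
    ∃ P, SylIn p P K ∧ Q ≤ P := by
  have h1 : IsPGroup p (Q.subgroupOf K) := hQ.comap_of_injective K.subtype K.subtype_injective
  obtain ⟨S, hS⟩ := h1.exists_le_sylow
  refine ⟨_, ⟨S, rfl⟩, ?_⟩
  intro x hx
  exact ⟨⟨x, hQK hx⟩, hS (by rw [Subgroup.mem_subgroupOf]; exact hx), rfl⟩

section conj

/-- The conjugate `x P x⁻¹`. -/
theorem mem_map_conj {P : Subgroup G} {x y : G} :
    y ∈ P.map (MulAut.conj x).toMonoidHom ↔ x⁻¹ * y * x ∈ P := by
  rw [Subgroup.mem_map]
  constructor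
  · rintro ⟨z, hz, rfl⟩
    simpa [mul_assoc] using hz
  · intro h
    exact ⟨_, h, by simp [mul_assoc]⟩

theorem conj_mem_map_conj {P : Subgroup G} {x y : G} (h : y ∈ P) :
    x * y * x⁻¹ ∈ P.map (MulAut.conj x).toMonoidHom :=
  ⟨y, h, by simp⟩

theorem map_conj_one (P : Subgroup G) : P.map (MulAut.conj (1 : G)).toMonoidHom = P := by
  ext y; rw [mem_map_conj]; simp

theorem map_conj_mul (P : Subgroup G) (x y : G) :
    P.map (MulAut.conj (x * y)).toMonoidHom
      = (P.map (MulAut.conj y).toMonoidHom).map (MulAut.conj x).toMonoidHom := by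
  ext z; simp only [mem_map_conj, mul_inv_rev, mul_assoc]

theorem map_conj_le_iff {P Q : Subgroup G} (x : G) :
    P.map (MulAut.conj x).toMonoidHom ≤ Q.map (MulAut.conj x).toMonoidHom ↔ P ≤ Q :=
  Subgroup.map_le_map_iff_of_injective (MulAut.conj x).injective

theorem map_conj_inj {P Q : Subgroup G} (x : G) :
    P.map (MulAut.conj x).toMonoidHom = Q.map (MulAut.conj x).toMonoidHom ↔ P = Q :=
  (Subgroup.map_injective (MulAut.conj x).injective).eq_iff

theorem map_conj_le_comm {P Q : Subgroup G} (x : G) :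
    P.map (MulAut.conj x).toMonoidHom ≤ Q ↔ P ≤ Q.map (MulAut.conj x⁻¹).toMonoidHom := by
  rw [← map_conj_le_iff x⁻¹, ← map_conj_mul, inv_mul_cancel, map_conj_one]

theorem map_conj_of_mem {K : Subgroup G} {x : G} (hx : x ∈ K) :
    K.map (MulAut.conj x).toMonoidHom = K := by
  ext y
  rw [mem_map_conj]
  constructor
  · intro h
    have := K.mul_mem (K.mul_mem hx h) (K.inv_mem hx)
    simpa [mul_assoc] using this
  · intro h
    exact K.mul_mem (K.mul_mem (K.inv_mem hx) h) hx

theorem map_conj_eq_iff_mem_normalizer {P : Subgroup G} {x : G} :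
    P.map (MulAut.conj x).toMonoidHom = P ↔ x ∈ Subgroup.normalizer (P : Set G) := by
  rw [← inv_mem_iff, Subgroup.mem_normalizer_iff]
  constructor
  · intro h y
    have h1 := SetLike.ext_iff.1 h y
    rw [mem_map_conj] at h1
    simp only [inv_inv]
    exact h1.symm
  · intro h
    ext y
    rw [mem_map_conj]
    have := h y
    rw [inv_inv] at this
    exact this.symm

theorem card_map_conj (P : Subgroup G) (x : G) :
    Nat.card (P.map (MulAut.conj x).toMonoidHom) = Nat.card P :=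
  Subgroup.card_map_of_injective (MulAut.conj x).injective

theorem map_conj_centralizer (x g : G) :
    (Subgroup.centralizer ({g} : Set G)).map (MulAut.conj x).toMonoidHom
      = Subgroup.centralizer ({x * g * x⁻¹} : Set G) := by
  ext y
  rw [mem_map_conj, Subgroup.mem_centralizer_singleton_iff, Subgroup.mem_centralizer_singleton_iff]
  constructor
  · intro h
    have := congrArg (fun t => x * t * x⁻¹) h
    simpa [mul_assoc] using this
  · intro h
    have := congrArg (fun t => x⁻¹ * t * x) h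
    simpa [mul_assoc] using this

theorem SylIn.conj {P K : Subgroup G} (h : SylIn p P K) (x : G) :
    SylIn p (P.map (MulAut.conj x).toMonoidHom) (K.map (MulAut.conj x).toMonoidHom) := by
  rw [sylIn_iff] at h ⊢
  obtain ⟨h1, h2, h3⟩ := h
  refine ⟨Subgroup.map_mono h1, h2.map _, fun Q hQ hQp hPQ => ?_⟩
  have h4 := h3 (Q.map (MulAut.conj x⁻¹).toMonoidHom) ?_ (hQp.map _) ?_
  · rw [← h4, ← map_conj_mul, mul_inv_cancel, map_conj_one]
  · rw [map_conj_le_comm]; simpa using hQ
  · rw [← map_conj_le_comm]; exact hPQ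

/-- Two Sylow `p`-subgroups of `K` are conjugate in `K`. -/
theorem SylIn.exists_conj [Finite G] [Fact p.Prime] {P Q K : Subgroup G} (hP : SylIn p P K)
    (hQ : SylIn p Q K) : ∃ k ∈ K, P.map (MulAut.conj k).toMonoidHom = Q := by
  obtain ⟨S, rfl⟩ := hP
  obtain ⟨T, rfl⟩ := hQ
  obtain ⟨k, hk⟩ := MulAction.exists_smul_eq K S T
  refine ⟨k, k.2, ?_⟩
  rw [← hk, Sylow.coe_subgroup_smul]
  ext y
  rw [mem_map_conj]
  constructor
  · rintro ⟨z, hz, hzy⟩
    refine ⟨k * z * k⁻¹, ?_, ?_⟩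
    · exact ⟨z, hz, rfl⟩
    · simp only [Subgroup.coe_subtype, Subgroup.coe_mul, Subgroup.coe_inv] at hzy ⊢
      rw [hzy]; group
  · rintro ⟨z, ⟨w, hw, rfl⟩, rfl⟩
    refine ⟨w, hw, ?_⟩
    simp only [Subgroup.coe_subtype]
    change (w : G) = (k : G)⁻¹ * ((k * w * k⁻¹ : K) : G) * k
    simp only [Subgroup.coe_mul, Subgroup.coe_inv]
    group

/-- A `p`-subgroup of `K` is `K`-conjugate into a given Sylow `p`-subgroup of `K`. -/
theorem SylIn.exists_conj_le [Finite G] [Fact p.Prime] {P Q K : Subgroup G} (hP : SylIn p P K)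
    (hQK : Q ≤ K) (hQ : IsPGroup p Q) : ∃ k ∈ K, Q.map (MulAut.conj k).toMonoidHom ≤ P := by
  obtain ⟨R, hR, hQR⟩ := exists_sylIn_ge hQK hQ
  obtain ⟨k, hk, hkR⟩ := hR.exists_conj hP
  exact ⟨k, hk, hkR ▸ Subgroup.map_mono hQR⟩

theorem SylIn.card_eq [Finite G] [Fact p.Prime] {P K : Subgroup G} (h : SylIn p P K) :
    Nat.card P = p ^ (Nat.card K).factorization p := by
  obtain ⟨S, rfl⟩ := h
  rw [Subgroup.card_map_of_injective K.subtype_injective]
  exact S.card_eq_multiplicity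

theorem sylIn_of_card [Finite G] [Fact p.Prime] {P K : Subgroup G} (h : P ≤ K)
    (hc : Nat.card P = p ^ (Nat.card K).factorization p) : SylIn p P K := by
  refine ⟨Sylow.ofCard (P.subgroupOf K) ?_, ?_⟩
  · rw [← hc]
    exact Nat.card_congr (Subgroup.subgroupOfEquivOfLe h).toEquiv
  · simp only [Sylow.coe_ofCard]
    exact Subgroup.map_subgroupOf_eq_of_le h

theorem sylIn_iff_card [Finite G] [Fact p.Prime] {P K : Subgroup G} :
    SylIn p P K ↔ P ≤ K ∧ Nat.card P = p ^ (Nat.card K).factorization p :=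
  ⟨fun h => ⟨h.le, h.card_eq⟩, fun h => sylIn_of_card h.1 h.2⟩

end conj

end Cfsg.Agent.Lib.SylIn
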