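import Cfsg.Agent.Lib.BlockFirst
import Cfsg.Agent.Lib.BlockCover
import Cfsg.Agent.Lib.Contrib2
import Cfsg.Agent.S0957

/-!
# Green's theorem on defect groups as Sylow intersections (helper16)
-/

set_option autoImplicit false
set_option linter.all false

namespace Cfsg.Agent.Lib.H16Green

open Cfsg Cfsg.Agent.Lib.BlockRing Cfsg.Agent.Lib.BlockGA Cfsg.Agent.Lib.BlockIdem Cfsg.Agent.Lib.BlockDefect
  Cfsg.Agent.Lib.BlockCover
open Cfsg.Agent.Lib.CharBasic
open scoped ComplexConjugate

universe u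

section orbits

/-- sum of a function invariant under a group action -/
theorem dvd_sum_of_orbits {P X : Type*} [Group P] [MulAction P X] [Fintype X] (f : X → ℕ)
    (hf : ∀ (g : P) (x : X), f (g • x) = f x) (n : ℕ)
    (h : ∀ x, n ∣ Nat.card (MulAction.orbit P x) * f x) : n ∣ ∑ x, f x := by
  classical
  haveI : Fintype (MulAction.orbitRel.Quotient P X) := Fintype.ofFinite _
  rw [← Finset.sum_fiberwise Finset.univ (fun x => (Quotient.mk _ x : MulAction.orbitRel.Quotient P X))]
  refine Finset.dvd_sum fun ω _ => ?_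
  induction ω using Quotient.inductionOn with
  | h x₀ =>
    have h1 : ∀ x ∈ Finset.univ.filter
        (fun x => (Quotient.mk _ x : MulAction.orbitRel.Quotient P X) = Quotient.mk _ x₀), f x = f x₀ := by
      intro x hx
      rw [Finset.mem_filter] at hx
      have h2 : x ∈ MulAction.orbit P x₀ := Quotient.exact hx.2
      obtain ⟨g, rfl⟩ := h2
      exact hf g x₀
    rw [Finset.sum_congr rfl h1, Finset.sum_const, smul_eq_mul]
    have h3 : (Finset.univ.filter
        (fun x => (Quotient.mk _ x : MulAction.orbitRel.Quotient P X) = Quotient.mk _ x₀)).card =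
        Nat.card (MulAction.orbit P x₀) := by
      rw [Nat.card_coe_set_eq, ← Set.ncard_coe_finset]
      congr 1
      ext x
      rw [Finset.mem_coe, Finset.mem_filter]
      exact ⟨fun hx => Quotient.exact hx.2, fun hx => ⟨Finset.mem_univ _, Quotient.sound hx⟩⟩
    rw [h3]
    exact h x₀

theorem card_orbit_mul {P X : Type*} [Group P] [MulAction P X] (x : X) :
    Nat.card (MulAction.orbit P x) * Nat.card (MulAction.stabilizer P x) = Nat.card P := by
  rw [← Nat.card_prod]
  exact Nat.card_congr (MulAction.orbitProdStabilizerEquivGroup P x)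

/-- If a group of order `p ^ e` acts with stabilizers of order at most `p ^ d`, then `p ^ (e - d)` divides the number of
points. -/
theorem pow_dvd_card {p : ℕ} (hp : p.Prime) {P X : Type*} [Group P] [Finite P] [MulAction P X] [Finite X] {e d : ℕ}
    (hP : Nat.card P = p ^ e) (h : ∀ x : X, Nat.card (MulAction.stabilizer P x) ≤ p ^ d) :
    p ^ (e - d) ∣ Nat.card X := by
  classical
  haveI := Fintype.ofFinite X
  have h1 := dvd_sum_of_orbits (P := P) (fun _ : X => 1) (fun _ _ => rfl) (p ^ (e - d)) (by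
    intro x
    rw [mul_one]
    have h2 := card_orbit_mul (P := P) x
    have h3 : Nat.card (MulAction.stabilizer P x) ∣ p ^ e := by
      rw [← hP]; exact Subgroup.card_subgroup_dvd_card _
    obtain ⟨s, -, hs⟩ := (Nat.dvd_prime_pow hp).1 h3
    have h4 : s ≤ d := by
      have := h x
      rw [hs] at this
      exact (Nat.pow_le_pow_iff_right hp.one_lt).1 this
    have h5 : Nat.card (MulAction.orbit P x) ∣ p ^ e := by
      rw [← hP, ← h2]; exact dvd_mul_right _ _
    obtain ⟨t, -, ht⟩ := (Nat.dvd_prime_pow hp).1 h5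
    rw [ht, hs, ← pow_add, hP] at h2
    have h6 : t + s = e := Nat.pow_right_injective hp.two_le h2
    rw [ht]
    exact pow_dvd_pow p (by omega))
  simpa using h1

end orbits

section count

variable {G : Type u} [Group G]

/-- conjugation action of a subgroup `P` on a set of elements stable under `P`. -/
@[reducible] def conjAct (P : Subgroup G) (S : Set G) (h : ∀ u ∈ P, ∀ y ∈ S, u * y * u⁻¹ ∈ S) : MulAction P S where
  smul u y := ⟨u * y * (u : G)⁻¹, h u u.2 y y.2⟩
  one_smul y := by
    apply Subtype.ext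
    change ((1 : P) : G) * y * ((1 : P) : G)⁻¹ = y
    simp
  mul_smul u v y := by
    apply Subtype.ext
    change ((u * v : P) : G) * y * ((u * v : P) : G)⁻¹ = (u : G) * ((v : G) * y * (v : G)⁻¹) * (u : G)⁻¹
    simp [mul_assoc]

theorem card_stabilizer {P : Subgroup G} {S : Set G} (h : ∀ u ∈ P, ∀ y ∈ S, u * y * u⁻¹ ∈ S) (y : S) :
    letI := conjAct P S h
    Nat.card (MulAction.stabilizer P y) =
      Nat.card ((P ⊓ Subgroup.centralizer ({(y : G)} : Set G) : Subgroup G)) := by
  letI := conjAct P S h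
  refine Nat.card_congr ⟨fun u => ⟨(u : P), (u : P).2, ?_⟩, fun u => ⟨⟨u, u.2.1⟩, ?_⟩, fun u => rfl, fun u => rfl⟩
  · refine Subgroup.mem_centralizer_singleton_iff.2 ?_
    have h1 := congrArg Subtype.val u.2
    change ((u : P) : G) * y * ((u : P) : G)⁻¹ = y at h1
    exact mul_inv_eq_iff_eq_mul.1 h1
  · have h1 := Subgroup.mem_centralizer_singleton_iff.1 u.2.2
    rw [MulAction.mem_stabilizer_iff]
    apply Subtype.ext
    change (u : G) * y * (u : G)⁻¹ = y
    rw [h1]; group

variable [Finite G] {p : ℕ}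

/-- the counting lemma: pairs `(y, z) ∈ K × L` with `z y⁻¹ ∈ P`. -/
theorem dvd_pairs (hp : p.Prime) {P : Subgroup G} {a d : ℕ} (hP : Nat.card P = p ^ a) {g h : G}
    (hg : ∀ R : Subgroup G, IsPGroup p R → R ≤ Subgroup.centralizer ({g} : Set G) → Nat.card R ≤ p ^ d)
    (hh : ∀ R : Subgroup G, IsPGroup p R → R ≤ Subgroup.centralizer ({h} : Set G) → Nat.card R ≤ p ^ d)
    (hda : d ≤ a)
    (hno : ∀ y : G, IsConj g y → P ⊓ P.map (MulAut.conj y⁻¹).toMonoidHom ≤ Subgroup.centralizer ({y} : Set G) →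
      Nat.card (P ⊓ P.map (MulAut.conj y⁻¹).toMonoidHom : Subgroup G) ≠ p ^ d) :
    p ^ (a - d + 1) ∣ Nat.card {yz : G × G // IsConj g yz.1 ∧ IsConj h yz.2 ∧ yz.2 * yz.1⁻¹ ∈ P} := by
  classical
  haveI : Fact p.Prime := ⟨hp⟩
  have hPp : IsPGroup p P := IsPGroup.of_card hP
  set K : Set G := {y | IsConj g y} with hK
  let Z : G → Set G := fun y => {z | IsConj h z ∧ z * y⁻¹ ∈ P}
  have hcong : Nat.card {yz : G × G // IsConj g yz.1 ∧ IsConj h yz.2 ∧ yz.2 * yz.1⁻¹ ∈ P} =
      Nat.card (Σ y : K, Z y) := by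
    refine Nat.card_congr ⟨fun x => ⟨⟨x.1.1, x.2.1⟩, ⟨x.1.2, x.2.2⟩⟩, fun x => ⟨(x.1.1, x.2.1), x.1.2, x.2.2⟩,
      fun x => rfl, fun x => rfl⟩
  haveI := Fintype.ofFinite K
  rw [hcong, Nat.card_sigma]
  have hstab : ∀ u ∈ P, ∀ y ∈ K, u * y * u⁻¹ ∈ K := fun u _ y hy => hy.trans (isConj_iff.2 ⟨u, rfl⟩)
  letI act := conjAct P K hstab
  -- transported bounds
  have bound : ∀ {g y : G}, IsConj g y →
      (∀ R : Subgroup G, IsPGroup p R → R ≤ Subgroup.centralizer ({g} : Set G) → Nat.card R ≤ p ^ d) →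
      ∀ R : Subgroup G, IsPGroup p R → R ≤ Subgroup.centralizer ({y} : Set G) → Nat.card R ≤ p ^ d := by
    intro g y hgy hb R hR hRy
    obtain ⟨c, rfl⟩ := isConj_iff.1 hgy
    have h1 := hb (R.map (MulAut.conj c⁻¹).toMonoidHom) (hR.map _) (by
      intro x hx
      rw [BlockDefect.mem_map_conj, inv_inv] at hx
      have h2 := Subgroup.mem_centralizer_singleton_iff.1 (hRy hx)
      rw [Subgroup.mem_centralizer_singleton_iff]
      have h3 : c * (x * g) * c⁻¹ = c * (g * x) * c⁻¹ := by
        calc c * (x * g) * c⁻¹ = (c * x * c⁻¹) * (c * g * c⁻¹) := by group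
          _ = (c * g * c⁻¹) * (c * x * c⁻¹) := h2
          _ = _ := by group
      exact mul_left_cancel (mul_right_cancel h3))
    rwa [BlockDefect.card_map_conj] at h1
  apply dvd_sum_of_orbits (P := P)
  · -- invariance
    intro u y
    refine Nat.card_congr ⟨fun z => ⟨(u : G)⁻¹ * z * u, ?_, ?_⟩, fun z => ⟨(u : G) * z * (u : G)⁻¹, ?_, ?_⟩, ?_, ?_⟩
    · refine z.2.1.trans (isConj_iff.2 ⟨(u : G)⁻¹, by rw [inv_inv]⟩)
    · have h1 := z.2.2
      change (z : G) * ((u : G) * y * (u : G)⁻¹)⁻¹ ∈ P at h1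
      have h2 := P.mul_mem (P.mul_mem (P.inv_mem u.2) h1) u.2
      have h3 : (u : G)⁻¹ * z * u * (y : G)⁻¹ = (u : G)⁻¹ * ((z : G) * ((u : G) * y * (u : G)⁻¹)⁻¹) * u := by group
      rw [h3]; exact h2
    · exact z.2.1.trans (isConj_iff.2 ⟨(u : G), rfl⟩)
    · change (u : G) * z * (u : G)⁻¹ * ((u : G) * y * (u : G)⁻¹)⁻¹ ∈ P
      have h2 := P.mul_mem (P.mul_mem u.2 z.2.2) (P.inv_mem u.2)
      have h3 : (u : G) * z * (u : G)⁻¹ * ((u : G) * y * (u : G)⁻¹)⁻¹ = (u : G) * ((z : G) * (y : G)⁻¹) * (u : G)⁻¹ := by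
        group
      rw [h3]; exact h2
    · intro z; apply Subtype.ext; simp [mul_assoc]
    · intro z; apply Subtype.ext; simp [mul_assoc]
  · intro y
    have h1 := card_orbit_mul (P := P) y
    rw [card_stabilizer hstab y, hP] at h1
    set C := P ⊓ Subgroup.centralizer ({(y : G)} : Set G) with hC
    set Q := P ⊓ P.map (MulAut.conj (y : G)⁻¹).toMonoidHom with hQ
    have hCQ : C ≤ Q := by
      intro u hu
      refine ⟨hu.1, ?_⟩
      refine BlockDefect.mem_map_conj.2 ?_
      have h2 := Subgroup.mem_centralizer_singleton_iff.1 hu.2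
      rw [inv_inv, ← h2, mul_assoc, mul_inv_cancel, mul_one]
      exact hu.1
    have hQp : IsPGroup p Q := hPp.to_le inf_le_left
    have hCp : IsPGroup p C := hPp.to_le inf_le_left
    obtain ⟨s, hs⟩ := IsPGroup.iff_card.1 hCp
    obtain ⟨e, he⟩ := IsPGroup.iff_card.1 hQp
    have hsd : s ≤ d := by
      have := bound y.2 hg C hCp inf_le_right
      rw [hs] at this
      exact (Nat.pow_le_pow_iff_right hp.one_lt).1 this
    have hse : s ≤ e := by
      have := Subgroup.card_le_of_le hCQ
      rw [hs, he] at this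
      exact (Nat.pow_le_pow_iff_right hp.one_lt).1 this
    have hea : e ≤ a := by
      have := Subgroup.card_le_of_le (inf_le_left : Q ≤ P)
      rw [he, hP] at this
      exact (Nat.pow_le_pow_iff_right hp.one_lt).1 this
    -- divisibility of the number of `z`
    have hZ : p ^ (e - d) ∣ Nat.card (Z y) := by
      have hst : ∀ u ∈ Q, ∀ z ∈ Z y, u * z * u⁻¹ ∈ Z y := by
        rintro u hu z ⟨hz1, hz2⟩
        refine ⟨hz1.trans (isConj_iff.2 ⟨u, rfl⟩), ?_⟩
        have h2 : u * z * u⁻¹ * (y : G)⁻¹ = u * (z * (y : G)⁻¹) * ((y : G) * u⁻¹ * (y : G)⁻¹) := by group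
        rw [h2]
        refine P.mul_mem (P.mul_mem hu.1 hz2) ?_
        have h3 := BlockDefect.mem_map_conj.1 hu.2
        rw [inv_inv] at h3
        have h4 := P.inv_mem h3
        simpa [mul_assoc] using h4
      letI act2 := conjAct Q (Z y) hst
      apply pow_dvd_card hp (P := Q) he
      intro z
      rw [card_stabilizer hst z]
      exact bound z.2.1 hh _ (hQp.to_le inf_le_left) inf_le_right
    -- the orbit
    rw [hs] at h1
    have h5 : Nat.card (MulAction.orbit P y) ∣ p ^ a := by
      rw [← h1]; exact dvd_mul_right _ _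
    obtain ⟨t, -, ht⟩ := (Nat.dvd_prime_pow hp).1 h5
    rw [ht, ← pow_add] at h1
    have h6 : t + s = a := Nat.pow_right_injective hp.two_le h1
    rw [ht]
    have h7 : p ^ (t + (e - d)) ∣ p ^ t * Nat.card (Z y) := by
      rw [pow_add]; exact mul_dvd_mul_left _ hZ
    refine dvd_trans (pow_dvd_pow p ?_) h7
    -- numerical: `a - d + 1 ≤ t + (e - d)`
    by_contra hlt
    push_neg at hlt
    have h8 : s = d ∧ e = d := by omega
    have h9 : C = Q := by
      apply Subgroup.eq_of_le_of_card_ge hCQ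
      rw [hs, he, h8.1, h8.2]
    apply hno y y.2
    · rw [← hQ, ← h9]; exact inf_le_right
    · rw [← hQ, he, h8.2]

end count

section block

variable {G : Type u} [Group G] [Fintype G] {p : ℕ} {M : Ideal AlgInt}

theorem lin_mul_eB [DecidableEq (IrrCharacter G)] {z : GA G} (hz : z ∈ Subalgebra.center ℂ (GA G)) (f : G → ℂ)
    (B : Set (IrrCharacter G)) [DecidablePred (· ∈ B)] :
    lin f (z * eB B) = ∑ θ : IrrCharacter G, if θ ∈ B then
      omega (θ : G → ℂ) z * ((θ : G → ℂ) 1 * classInner f (θ : G → ℂ)) else 0 := by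
  classical
  have h1 : (eB B : GA G) = ∑ θ : IrrCharacter G, if θ ∈ B then eB {θ} else 0 := by
    apply center_ext (eB_mem_center B) (Subalgebra.sum_mem _ fun θ _ => by
      split_ifs
      · exact eB_mem_center _
      · exact Subalgebra.zero_mem _)
    intro χ
    rw [omega_eB, omega_sum]
    have h2 : ∀ θ : IrrCharacter G, omega (χ : G → ℂ) (if θ ∈ B then eB {θ} else 0) =
        if θ = χ then (if χ ∈ B then 1 else 0) else 0 := by
      intro θ
      by_cases h : θ = χ
      · subst h
        by_cases h' : θ ∈ B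
        · rw [if_pos h', if_pos rfl, if_pos h', omega_eB, if_pos (Set.mem_singleton θ)]
        · rw [if_neg h', if_pos rfl, if_neg h', omega, lin_zero, zero_div]
      · rw [if_neg h]
        by_cases h' : θ ∈ B
        · rw [if_pos h', omega_eB, if_neg]
          intro h3
          exact h (Set.mem_singleton_iff.1 h3).symm
        · rw [if_neg h', omega, lin_zero, zero_div]
    rw [Finset.sum_congr rfl fun θ _ => h2 θ, Finset.sum_ite_eq' Finset.univ χ]
    simp
  rw [h1, Finset.mul_sum, lin_sum]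
  refine Finset.sum_congr rfl fun θ _ => ?_
  split_ifs with h
  · rw [mul_eB_singleton hz, lin_smul, lin_eB_singleton]
  · rw [mul_zero, lin_zero]

theorem classInner_indicator (P : Subgroup G) (θ : IrrCharacter G) [DecidablePred (· ∈ P)] :
    ∃ n : ℕ, classInner (fun g : G => if g ∈ P then (1 : ℂ) else 0) (θ : G → ℂ) =
      (Nat.card G : ℂ)⁻¹ * (Nat.card P * n) := by
  classical
  haveI := Fintype.ofFinite P
  obtain ⟨n, hn⟩ := (isIrrCharacter_one (G := P)).isCharacter.classInner_nat (θ.2.isCharacter.restrict P)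
  refine ⟨n, ?_⟩
  rw [← hn, classInner_def, classInner_def]
  congr 1
  rw [← mul_assoc, mul_inv_cancel₀ (by exact_mod_cast Nat.card_pos.ne'), one_mul]
  have h1 : ∀ g : G, (if g ∈ P then (1 : ℂ) else 0) * conj ((θ : G → ℂ) g) =
      if g ∈ P then conj ((θ : G → ℂ) g) else 0 := by
    intro g; split_ifs <;> simp
  rw [Finset.sum_congr rfl fun g _ => h1 g, ← Finset.sum_filter, Finset.sum_subtype (p := fun g => g ∈ P)]
  · refine Finset.sum_congr rfl fun u _ => ?_
    rw [Pi.one_apply, one_mul]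
  · intro g; simp

/-- the number of pairs as a value of a linear functional -/
theorem lin_classSum_mul (P : Subgroup G) [DecidablePred (· ∈ P)] (c y₀ : G) :
    lin (fun g : G => if g ∈ P then (1 : ℂ) else 0) (classSum c * classSum y₀) =
      (Nat.card {yz : G × G // IsConj y₀⁻¹ yz.1 ∧ IsConj c yz.2 ∧ yz.2 * yz.1⁻¹ ∈ P} : ℂ) := by
  classical
  rw [lin_apply, Nat.card_eq_fintype_card, Fintype.card_subtype, Finset.card_eq_sum_ones, Finset.sum_filter,
    Fintype.sum_prod_type]
  have h1 : ∀ g : G, (classSum c * classSum y₀ : GA G).coeff g * (if g ∈ P then (1 : ℂ) else 0) =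
      ∑ h : G, if (IsConj c (g * h⁻¹) ∧ IsConj y₀ h ∧ g ∈ P) then (1 : ℂ) else 0 := by
    intro g
    rw [coeff_mul_fintype', Finset.sum_mul]
    refine Finset.sum_congr rfl fun h _ => ?_
    rw [coeff_classSum, coeff_classSum]
    by_cases h1 : IsConj c (g * h⁻¹) <;> by_cases h2 : IsConj y₀ h <;> by_cases h3 : g ∈ P <;>
      simp only [h1, h2, h3, if_true, if_false, and_true, true_and, and_self, and_false, false_and, mul_one,
        mul_zero, zero_mul]
  rw [Finset.sum_congr rfl fun g _ => h1 g, Finset.sum_comm]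
  push_cast
  rw [← Equiv.sum_comp (Equiv.inv G)]
  refine Finset.sum_congr rfl fun y _ => ?_
  rw [← Equiv.sum_comp (Equiv.mulRight (Equiv.inv G y))]
  refine Finset.sum_congr rfl fun z _ => ?_
  have h2 : IsConj y₀ (y⁻¹) ↔ IsConj y₀⁻¹ y := by
    constructor
    · intro h
      obtain ⟨c, hc⟩ := isConj_iff.1 h
      refine isConj_iff.2 ⟨c, ?_⟩
      rw [← inv_inv y, ← hc]; group
    · intro h
      obtain ⟨c, hc⟩ := isConj_iff.1 h
      refine isConj_iff.2 ⟨c, ?_⟩
      rw [← hc]; group
  simp only [Equiv.inv_apply, Equiv.coe_mulRight, mul_inv_cancel_right, h2]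
  congr 1
  apply propext
  tauto

theorem blockCoeff_one (B : Set (IrrCharacter G)) :
    blockCoeff B (1 : G) = ((∑ᶠ χ ∈ B, charDegree (χ : G → ℂ) ^ 2 : ℕ) : ℂ) / (Nat.card G : ℂ) := by
  classical
  rw [blockCoeff_eq_sum', finsum_mem_eq_finite_toFinset_sum _ (Set.toFinite _), div_eq_inv_mul]
  congr 1
  push_cast
  rw [← Finset.sum_filter]
  refine Finset.sum_congr (by ext; simp) fun χ _ => ?_
  rw [(charDegree_spec χ.2).1, Complex.conj_natCast, sq]

theorem card_le_of_sylC {x₀ : G} {D : Subgroup G} [Fact p.Prime] (h : SylC p x₀ D) {R : Subgroup G}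
    (hR : IsPGroup p R) (hle : R ≤ Subgroup.centralizer ({x₀} : Set G)) : Nat.card R ≤ Nat.card D := by
  obtain ⟨x, hx⟩ := defLE_le (defLE_self h) hle hR
  rw [← BlockDefect.card_map_conj D x]
  exact Subgroup.card_le_of_le hx

/-- Green: for every Sylow subgroup `P` there is an element `x` of a defect class of `B` such that `P ∩ xPx⁻¹` is a
Sylow subgroup of the centralizer of `x`. -/
theorem exists_good (hM : IsPModular p M) {B : Set (IrrCharacter G)} (hB : IsPBlock M B) (P : Sylow p G) :
    ∃ x : G, IsDefectClass M B x ∧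
      SylC p x ((P : Subgroup G) ⊓ (P : Subgroup G).map (MulAut.conj x).toMonoidHom) := by
  classical
  haveI := isPrime hM
  haveI : Fact p.Prime := ⟨hM.1⟩
  haveI := Fintype.ofFinite (ConjClasses G)
  have hp := hM.1
  have hp0 : (p : ℂ) ≠ 0 := by exact_mod_cast hp.ne_zero
  obtain ⟨D, hD⟩ := exists_defectGroup hM hB
  obtain ⟨x₀, hx₀, hx₀D⟩ := isDefectGroup_iff.1 hD
  set a := (Nat.card G).factorization p with ha
  set d := blockDefect p B with hd
  have hcardD : Nat.card D = p ^ d := defectGroup_card hM hB hD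
  have hcardP : Nat.card P = p ^ a := Sylow.card_eq_multiplicity P
  have hda : d ≤ a := by
    have h1 : Nat.card D ∣ Nat.card G := Subgroup.card_subgroup_dvd_card D
    rw [hcardD] at h1
    exact (hp.pow_dvd_iff_le_factorization Nat.card_pos.ne').1 h1
  by_contra hno
  push_neg at hno
  -- bounds
  have hg : ∀ R : Subgroup G, IsPGroup p R → R ≤ Subgroup.centralizer ({x₀⁻¹} : Set G) → Nat.card R ≤ p ^ d := by
    intro R hR hle
    rw [← hcardD]
    apply card_le_of_sylC hx₀D hR
    intro x hx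
    have h1 := Subgroup.mem_centralizer_singleton_iff.1 (hle hx)
    rw [Subgroup.mem_centralizer_singleton_iff]
    exact ((Commute.inv_right_iff).1 (show Commute x x₀⁻¹ from h1))
  have hno' : ∀ y : G, IsConj x₀⁻¹ y →
      (P : Subgroup G) ⊓ (P : Subgroup G).map (MulAut.conj y⁻¹).toMonoidHom ≤ Subgroup.centralizer ({y} : Set G) →
      Nat.card ((P : Subgroup G) ⊓ (P : Subgroup G).map (MulAut.conj y⁻¹).toMonoidHom : Subgroup G) ≠ p ^ d := by
    intro y hy hle hcard
    have hconj : IsConj x₀ y⁻¹ := by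
      obtain ⟨c, hc⟩ := isConj_iff.1 hy
      refine isConj_iff.2 ⟨c, ?_⟩
      rw [← hc]; group
    obtain ⟨c, hc⟩ := isConj_iff.1 hconj
    have hcl : IsDefectClass M B y⁻¹ := by rw [← hc]; exact isConj_defectClass hx₀ c
    apply hno y⁻¹ hcl
    rw [SylC, sylIn_iff]
    refine ⟨?_, P.isPGroup'.to_le inf_le_left, ?_⟩
    · intro x hx
      have h1 := Subgroup.mem_centralizer_singleton_iff.1 (hle hx)
      rw [Subgroup.mem_centralizer_singleton_iff]
      exact ((Commute.inv_right_iff).2 (show Commute x y from h1))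
    · intro R hR hRp hle'
      have h2 : Nat.card R ≤ p ^ d := by
        rw [← hcardD]
        have h3 : SylC p y⁻¹ (D.map (MulAut.conj c).toMonoidHom) := by rw [← hc]; exact sylC_conj hx₀D c
        have h4 := card_le_of_sylC h3 hRp hR
        rwa [BlockDefect.card_map_conj] at h4
      exact (Subgroup.eq_of_le_of_card_ge hle' (h2.trans hcard.ge)).symm
  set f : G → ℂ := fun g : G => if g ∈ (P : Subgroup G) then (1 : ℂ) else 0 with hf
  have hpe : (p : ℂ) ^ (a - d) ≠ 0 := pow_ne_zero _ hp0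
  -- first evaluation
  have hW : MemLocalIdeal M (lin f (eB B * classSum x₀) / (p : ℂ) ^ (a - d)) := by
    have h1 : lin f (eB B * classSum x₀) = ∑ C : ConjClasses G, blockCoeff B (Quotient.out C) *
        lin f (classSum (Quotient.out C) * classSum x₀) := by
      conv_lhs => rw [center_eq_sum_classSum (eB_mem_center B)]
      rw [Finset.sum_mul, lin_sum]
      refine Finset.sum_congr rfl fun C _ => ?_
      rw [smul_mul_assoc, lin_smul, coeff_eB]
    rw [h1, Finset.sum_div]
    refine idl_sum fun C _ => ?_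
    set c := Quotient.out C with hc
    rw [hf, lin_classSum_mul]
    set n := Nat.card {yz : G × G // IsConj x₀⁻¹ yz.1 ∧ IsConj c yz.2 ∧ yz.2 * yz.1⁻¹ ∈ (P : Subgroup G)} with hn
    have hn1 : p ^ (a - d) ∣ n := by
      obtain ⟨S⟩ : Nonempty (Sylow p (Subgroup.centralizer ({x₀⁻¹} : Set G))) := inferInstance
      have h2 := Cfsg.Agent.S0957.result p P x₀⁻¹ c S
      rw [← hn] at h2
      obtain ⟨s, hs⟩ := IsPGroup.iff_card.1 S.isPGroup'
      have h3 := hg ((S : Subgroup (Subgroup.centralizer ({x₀⁻¹} : Set G))).map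
        (Subgroup.centralizer ({x₀⁻¹} : Set G)).subtype) (S.isPGroup'.map _) (Subgroup.map_subtype_le _)
      rw [Subgroup.card_map_of_injective (Subgroup.subtype_injective _), hs] at h3
      have h4 : s ≤ d := (Nat.pow_le_pow_iff_right hp.one_lt).1 h3
      rw [hs, hcardP, Nat.pow_div (h4.trans hda) hp.pos] at h2
      exact dvd_trans (pow_dvd_pow p (by omega)) h2
    by_cases hac : MemLocalIdeal M (blockCoeff B c)
    · obtain ⟨k, hk⟩ := hn1
      have h2 : blockCoeff B c * (n : ℂ) / (p : ℂ) ^ (a - d) = blockCoeff B c * (k : ℂ) := by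
        rw [hk]; push_cast; field_simp
      rw [h2]
      exact idl_mul_right hac (loc_natCast k)
    · have hh : ∀ R : Subgroup G, IsPGroup p R → R ≤ Subgroup.centralizer ({c} : Set G) → Nat.card R ≤ p ^ d := by
        intro R hR hle
        obtain ⟨x, hx⟩ := defLE_le (minmax_coeff hM hB hD hac) hle hR
        rw [← hcardD, ← BlockDefect.card_map_conj D x]
        exact Subgroup.card_le_of_le hx
      obtain ⟨k, hk⟩ := dvd_pairs hp hcardP hg hh hda hno'
      rw [← hn] at hk
      have h2 : blockCoeff B c * (n : ℂ) / (p : ℂ) ^ (a - d) = blockCoeff B c * ((p : ℂ) * (k : ℂ)) := by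
        rw [hk]; push_cast; rw [pow_succ]; field_simp
      rw [h2]
      exact idl_mul_left (loc_blockCoeff hB c) (idl_mul_right (idl_p hM) (loc_natCast k))
  -- second evaluation
  have hr : ∀ θ : IrrCharacter G, ∃ r : ℂ, MemLocalRing M r ∧
      (θ ∈ B → (θ : G → ℂ) 1 * classInner f (θ : G → ℂ) = (p : ℂ) ^ (a - d) * r) := by
    intro θ
    by_cases hθ : θ ∈ B
    · obtain ⟨n, hn⟩ := classInner_indicator (P : Subgroup G) θ
      obtain ⟨k, hk⟩ := pow_dvd_degree hM hB hθ
      have hG0 : (Nat.card G : ℂ) ≠ 0 := by exact_mod_cast Nat.card_pos.ne'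
      refine ⟨(k : ℂ) * n * ((Nat.card P : ℂ) / (Nat.card G : ℂ)), ?_, fun _ => ?_⟩
      · refine loc_mul (loc_mul (loc_natCast k) (loc_natCast n)) ?_
        rw [loc_div_natCast_iff hM Nat.card_pos.ne' Nat.card_pos.ne', hcardP, hp.factorization_pow,
          Finsupp.single_eq_same]
      · rw [hn, (charDegree_spec θ.2).1, hk]
        push_cast
        ring
    · exact ⟨0, loc_zero, fun h => absurd h hθ⟩
  choose r hr1 hr2 using hr
  have hV : ∀ z ∈ Subalgebra.center ℂ (GA G), lin f (z * eB B) / (p : ℂ) ^ (a - d) =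
      ∑ θ : IrrCharacter G, if θ ∈ B then omega (θ : G → ℂ) z * r θ else 0 := by
    intro z hz
    rw [lin_mul_eB hz, Finset.sum_div]
    refine Finset.sum_congr rfl fun θ _ => ?_
    split_ifs with h
    · rw [hr2 θ h]; field_simp
    · rw [zero_div]
  obtain ⟨χ₀, hχ₀⟩ := isPBlock_nonempty hB
  -- the total
  have hT : ¬ MemLocalIdeal M (∑ θ : IrrCharacter G, if θ ∈ B then r θ else 0) := by
    have h1 := hV 1 (Subalgebra.one_mem _)
    rw [one_mul] at h1
    have h2 : ∑ θ : IrrCharacter G, (if θ ∈ B then omega (θ : G → ℂ) 1 * r θ else 0) =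
        ∑ θ : IrrCharacter G, if θ ∈ B then r θ else 0 := by
      refine Finset.sum_congr rfl fun θ _ => ?_
      rw [omega_one θ.2.one_ne_zero, one_mul]
    rw [h2] at h1
    rw [← h1]
    have h3 : lin f (eB B) = blockCoeff B 1 := by
      rw [lin_apply, Finset.sum_eq_single 1]
      · rw [coeff_eB, hf]
        simp only
        rw [if_pos (Subgroup.one_mem _), mul_one]
      · intro g _ hg1
        by_cases hgP : g ∈ (P : Subgroup G)
        · have h4 : p ∣ orderOf g := by
            obtain ⟨k, hk⟩ := (IsPGroup.iff_orderOf.1 P.isPGroup') ⟨g, hgP⟩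
            rw [Subgroup.orderOf_mk] at hk
            rw [hk]
            apply dvd_pow_self
            rintro rfl
            rw [pow_zero, orderOf_eq_one_iff] at hk
            exact hg1 hk
          rw [coeff_eB, BlockOsima.blockCoeff_eq_zero hM hB h4, zero_mul]
        · rw [hf]; simp only
          rw [if_neg hgP, mul_zero]
      · intro h; exact absurd (Finset.mem_univ _) h
    rw [h3, blockCoeff_one, div_div]
    have h5 := Contrib2.dim_block hM hB
    set Nn := (∑ᶠ χ ∈ B, charDegree (χ : G → ℂ) ^ 2 : ℕ) with hNn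
    have h6 : Nn ≠ 0 := by
      intro h0
      have h7 : blockCoeff B (1 : G) = 0 := by rw [blockCoeff_one, ← hNn, h0]; simp
      have h8 : blockCoeff B (1 : G) = (Nat.card G : ℂ)⁻¹ * ∑ χ : IrrCharacter G,
          if χ ∈ B then (χ : G → ℂ) 1 * conj ((χ : G → ℂ) 1) else 0 := blockCoeff_eq_sum' B 1
      have h9 : ∑ χ : IrrCharacter G, (if χ ∈ B then charDegree (χ : G → ℂ) ^ 2 else 0) = Nn := by
        rw [hNn, finsum_mem_eq_finite_toFinset_sum _ (Set.toFinite _), ← Finset.sum_filter]
        exact Finset.sum_congr (by ext; simp) fun _ _ => rfl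
      rw [h0] at h9
      have h10 := (Finset.sum_eq_zero_iff.1 h9) χ₀ (Finset.mem_univ _)
      rw [if_pos hχ₀] at h10
      exact (charDegree_spec χ₀.2).2 (by simpa using h10)
    have h7 : ((Nat.card G : ℂ) * (p : ℂ) ^ (a - d)) = ((Nat.card G * p ^ (a - d) : ℕ) : ℂ) := by push_cast; rfl
    rw [h7, idl_div_natCast_iff hM h6 (mul_ne_zero Nat.card_pos.ne' (pow_ne_zero _ hp.ne_zero)), h5,
      Nat.factorization_mul Nat.card_pos.ne' (pow_ne_zero _ hp.ne_zero), Finsupp.add_apply, hp.factorization_pow,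
      Finsupp.single_eq_same]
    omega
  have hfin : MemLocalIdeal M (omega (χ₀ : G → ℂ) (classSum x₀) * ∑ θ : IrrCharacter G, if θ ∈ B then r θ else 0) := by
    have h1 := hV (classSum x₀) (classSum_mem_center x₀)
    rw [center_comm (classSum_mem_center x₀)] at h1
    rw [h1] at hW
    have h2 : MemLocalIdeal M ((∑ θ : IrrCharacter G, if θ ∈ B then omega (θ : G → ℂ) (classSum x₀) * r θ else 0) -
        omega (χ₀ : G → ℂ) (classSum x₀) * ∑ θ : IrrCharacter G, if θ ∈ B then r θ else 0) := by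
      rw [Finset.mul_sum, ← Finset.sum_sub_distrib]
      refine idl_sum fun θ _ => ?_
      split_ifs with h
      · rw [← sub_mul]
        exact idl_mul_right (sameBlock_omega θ.2.isClassFunction χ₀.2.isClassFunction (sameBlock_of_mem hB h hχ₀)
          (classSum_mem_center x₀) (locA_classSum x₀)) (hr1 θ)
      · rw [mul_zero, sub_zero]; exact idl_zero
    exact (idl_congr h2).1 hW
  have hloc : MemLocalRing M (omega (χ₀ : G → ℂ) (classSum x₀)) :=
    loc_omega χ₀.2 (classSum_mem_center x₀) (locA_classSum x₀)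
  have hne : ¬ MemLocalIdeal M (omega (χ₀ : G → ℂ) (classSum x₀)) := by
    rw [omega_classSum χ₀.2.isClassFunction]
    exact hx₀.2.2 χ₀ hχ₀
  exact hT (idl_of_mul_left hloc hne hfin)

end block

end Cfsg.Agent.Lib.H16Green
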