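import Cfsg.Agent.Lib.H16HK
import Cfsg.Agent.Lib.BlockTop
import Cfsg.Agent.Lib.BlockAlong

/-!
# Counting characters of subgroups in blocks inducing a given block (helper16)
-/

set_option autoImplicit false
set_option linter.all false

namespace Cfsg.Agent.Lib.H16KR

open Cfsg Cfsg.Agent.Lib.BlockRing Cfsg.Agent.Lib.BlockGA Cfsg.Agent.Lib.BlockIdem Cfsg.Agent.Lib.BlockDefect
  Cfsg.Agent.Lib.BlockTransfer Cfsg.Agent.Lib.BlockHom Cfsg.Agent.Lib.BlockInd Cfsg.Agent.Lib.BlockFirst
  Cfsg.Agent.Lib.BlockSecond Cfsg.Agent.Lib.BlockCount Cfsg.Agent.Lib.H16HK Cfsg.Agent.Lib.Contrib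
  Cfsg.Agent.Lib.BlockOsima Cfsg.Agent.Lib.CharBasic Cfsg.Agent.Lib.BlockPair
open scoped ComplexConjugate

universe u

section add

variable {G : Type u} [Group G] [Finite G] {p : ℕ} {M : Ideal AlgInt}

/-- the `p`-regular rank is additive over blocks -/
theorem blockRank_union (hM : IsPModular p M) (S : Set (Set (IrrCharacter G))) (hS : ∀ β ∈ S, IsPBlock M β) :
    blockRank p {ψ : IrrCharacter G | ∃ β ∈ S, ψ ∈ β} = ∑ᶠ β ∈ S, blockRank p β := by
  classical
  haveI := Fintype.ofFinite G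
  haveI : Finite (Set (IrrCharacter G)) := inferInstance
  haveI : Fintype S := Fintype.ofFinite _
  set T : Set (IrrCharacter G) := {ψ : IrrCharacter G | ∃ β ∈ S, ψ ∈ β} with hT
  have hle : ∀ β : S, rsp p β.1 ≤ rsp p T := by
    intro β
    apply Submodule.span_mono
    rintro _ ⟨χ, hχ, rfl⟩
    exact ⟨χ, ⟨β.1, β.2, hχ⟩, rfl⟩
  let L : (∀ β : S, rsp p β.1) →ₗ[ℂ] rsp p T :=
    { toFun := fun v => ∑ β, (⟨(v β : G → ℂ), hle β (v β).2⟩ : rsp p T)
      map_add' := by
        intro v w
        rw [← Finset.sum_add_distrib]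
        exact Finset.sum_congr rfl fun β _ => Subtype.ext rfl
      map_smul' := by
        intro a v
        rw [RingHom.id_apply, Finset.smul_sum]
        exact Finset.sum_congr rfl fun β _ => Subtype.ext rfl }
  have hLc : ∀ v, (L v : G → ℂ) = ∑ β, (v β : G → ℂ) := by
    intro v
    show ((∑ β, (⟨(v β : G → ℂ), hle β (v β).2⟩ : rsp p T) : rsp p T) : G → ℂ) = _
    rw [Submodule.coe_sum]
  have hinj : Function.Injective L := by
    rw [← LinearMap.ker_eq_bot, LinearMap.ker_eq_bot']
    intro v hv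
    have hsum : ∑ β, (v β : G → ℂ) = 0 := by rw [← hLc, hv]; rfl
    funext b
    apply Subtype.ext
    show (v b : G → ℂ) = 0
    rw [← classInner_self_eq_zero]
    have h4 : classInner (v b : G → ℂ) (∑ b', (v b' : G → ℂ)) = 0 := by
      rw [hsum, CharBasic.classInner_zero_right]
    rw [CharBasic.classInner_sum_right, Finset.sum_eq_single b] at h4
    · exact h4
    · intro b' _ hb'
      exact rsp_orth hM (hS b.1 b.2) (hS b'.1 b'.2) (fun h => hb' (Subtype.ext h.symm)) (v b).2 (v b').2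
    · intro h; exact absurd (Finset.mem_univ _) h
  have hsurj : Function.Surjective L := by
    rintro ⟨w, hw⟩
    have h1 : rsp p T ≤ (LinearMap.range L).map (rsp p T).subtype := by
      apply Submodule.span_le.2
      rintro _ ⟨ψ, ⟨β, hβ, hψ⟩, rfl⟩
      refine ⟨L (Pi.single ⟨β, hβ⟩ ⟨preg p (ψ : G → ℂ), Submodule.subset_span ⟨ψ, hψ, rfl⟩⟩), ⟨_, rfl⟩, ?_⟩
      show (L _ : G → ℂ) = _
      rw [hLc, Finset.sum_eq_single ⟨β, hβ⟩]
      · rw [Pi.single_eq_same]
      · intro b _ hb
        rw [Pi.single_eq_of_ne hb]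
        rfl
      · intro h; exact absurd (Finset.mem_univ _) h
    obtain ⟨x, ⟨v, rfl⟩, hx⟩ := h1 hw
    exact ⟨v, Subtype.ext hx⟩
  have h5 := (LinearEquiv.ofBijective L ⟨hinj, hsurj⟩).finrank_eq
  rw [Module.finrank_pi_fintype] at h5
  rw [blockRank_eq, ← h5, ← finsum_set_coe_eq_finsum_mem, finsum_eq_sum_of_fintype]
  exact Finset.sum_congr rfl fun β _ => (blockRank_eq _).symm

/-- the number of characters is additive over blocks -/
theorem card_union (hM : IsPModular p M) (S : Set (Set (IrrCharacter G))) (hS : ∀ β ∈ S, IsPBlock M β) :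
    Nat.card {ψ : IrrCharacter G | ∃ β ∈ S, ψ ∈ β} = ∑ᶠ β ∈ S, Nat.card β := by
  classical
  haveI := isPrime hM
  haveI := Fintype.ofFinite G
  haveI : Fintype S := Fintype.ofFinite _
  haveI : Fintype (IrrCharacter G) := Fintype.ofFinite _
  rw [← finsum_set_coe_eq_finsum_mem, finsum_eq_sum_of_fintype]
  have h1 : ∀ β : S, Nat.card β.1 = (Finset.univ.filter fun χ : IrrCharacter G => χ ∈ β.1).card := by
    intro β
    rw [Nat.card_coe_set_eq, Set.ncard_eq_toFinset_card']
    congr 1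
    ext; simp
  simp only [h1]
  rw [← Finset.card_biUnion]
  · rw [Nat.card_coe_set_eq, Set.ncard_eq_toFinset_card']
    congr 1
    ext χ
    simp only [Set.mem_toFinset, Set.mem_setOf_eq, Finset.mem_biUnion, Finset.mem_univ, true_and,
      Finset.mem_filter, Subtype.exists, exists_prop]
  · intro β _ γ _ hne
    rw [Function.onFun, Finset.disjoint_left]
    intro χ h2 h3
    exact hne (Subtype.ext (block_eq_of_mem (hS β.1 β.2) (hS γ.1 γ.2) (Finset.mem_filter.1 h2).2
      (Finset.mem_filter.1 h3).2))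

end add

section US

variable {G : Type u} [Group G] [Finite G] {p : ℕ} {M : Ideal AlgInt}

/-- the irreducible characters of `H` in blocks inducing `b` -/
def US (M : Ideal AlgInt) (b : Set (IrrCharacter G)) (H : Subgroup G) : Set (IrrCharacter H) :=
  {ψ | ∃ β : Set (IrrCharacter H), ψ ∈ β ∧ IsInducedBlock M H β b}

omit [Finite G] in
theorem US_eq (b : Set (IrrCharacter G)) (H : Subgroup G) :
    US M b H = {ψ | ∃ β ∈ {β : Set (IrrCharacter H) | IsInducedBlock M H β b}, ψ ∈ β} := by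
  ext ψ
  exact ⟨fun ⟨β, h1, h2⟩ => ⟨β, h2, h1⟩, fun ⟨β, h1, h2⟩ => ⟨β, h2, h1⟩⟩

theorem rank_US (hM : IsPModular p M) (b : Set (IrrCharacter G)) (H : Subgroup G) :
    blockRank p (US M b H) = ∑ᶠ β ∈ {β : Set (IrrCharacter H) | IsInducedBlock M H β b}, blockRank p β := by
  rw [US_eq, blockRank_union hM _ (fun β hβ => hβ.1)]

theorem card_US (hM : IsPModular p M) (b : Set (IrrCharacter G)) (H : Subgroup G) :
    Nat.card (US M b H) = ∑ᶠ β ∈ {β : Set (IrrCharacter H) | IsInducedBlock M H β b}, Nat.card β := by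
  rw [US_eq, card_union hM _ (fun β hβ => hβ.1)]

omit [Finite G] in
theorem blockRank_tr {H K : Type u} [Group H] [Group K] (e : H ≃* K) (B : Set (IrrCharacter K)) :
    blockRank p (trB e B) = blockRank p B :=
  BlockTop.blockRank_image e B

omit [Finite G] in
theorem card_tr {H K : Type u} [Group H] [Group K] (e : H ≃* K) (B : Set (IrrCharacter K)) :
    Nat.card (trB e B) = Nat.card B :=
  BlockTop.card_image e B

omit [Finite G] in
theorem US_tr {G₁ G₂ : Type u} [Group G₁] [Group G₂] (α : G₁ ≃* G₂) {H₁ : Subgroup G₁}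
    {H₂ : Subgroup G₂} (β : H₁ ≃* H₂) (hβ : ∀ h : H₁, ((β h : H₂) : G₂) = α (h : G₁))
    (b : Set (IrrCharacter G₂)) : US M (trB α b) H₁ = trB β (US M b H₂) := by
  ext ψ
  rw [mem_trB]
  constructor
  · rintro ⟨c, hψ, hc⟩
    refine ⟨trB β.symm c, by rwa [trI_mem_trB], ?_⟩
    have h1 := isInducedBlock_tr α.symm β.symm (fun h => by
      apply α.injective
      rw [← hβ]; simp) hc
    rwa [trB_trB_symm] at h1
  · rintro ⟨c, hψ, hc⟩
    exact ⟨trB β c, by rwa [mem_trB], isInducedBlock_tr α β hβ hc⟩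

/-- the converse of the transitivity of block induction -/
theorem isInducedBlock_up [M.IsPrime] {H K : Subgroup G} (hHK : H ≤ K) {b : Set (IrrCharacter H)}
    {β : Set (IrrCharacter K)} {B : Set (IrrCharacter G)}
    (h1 : IsInducedBlock M (H.subgroupOf K) (trB (subE hHK) b) β) (h2 : IsInducedBlock M H b B) :
    IsInducedBlock M K β B := by
  obtain ⟨ξ, hξ⟩ := isPBlock_nonempty h2.1
  obtain ⟨ζ, hζ⟩ := isPBlock_nonempty h1.2.1
  obtain ⟨χ, hχ⟩ := isPBlock_nonempty h2.2.1
  apply isInducedBlock_of_omega h1.2.1 h2.2.1 hζ hχ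
  intro g
  have h3 := induced_omega h1 (trI_mem_trB.2 hξ) hζ (BlockRes.resH_center (classSum_mem_center g))
    (BlockRes.locA_resH (locA_classSum g))
  have h4 := induced_omega h2 hξ hχ (classSum_mem_center g) (locA_classSum g)
  rw [coe_trI, omega_resH_resH] at h3
  exact idl_sub_trans (idl_sub_symm h3) h4

/-- summing over the blocks of `H` inducing `b` -/
theorem sum_sub (hM : IsPModular p M) {b : Set (IrrCharacter G)} {H K : Subgroup G} (hKH : K ≤ H)
    {L : Subgroup H} (hL : L = K.subgroupOf H)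
    (hdef : ∀ γ : Set (IrrCharacter L), IsPBlock M γ → InducedBlockDefined M L γ) :
    ∑ᶠ β ∈ {β : Set (IrrCharacter H) | IsInducedBlock M H β b},
      ∑ᶠ γ ∈ {γ : Set (IrrCharacter L) | IsInducedBlock M L γ β}, blockRank p γ = blockRank p (US M b K) := by
  classical
  haveI := isPrime hM
  subst hL
  rw [← finsum_mem_biUnion (f := fun γ : Set (IrrCharacter (K.subgroupOf H)) => blockRank p γ) ?_
    (Set.toFinite _) (fun _ _ => Set.toFinite _)]
  · rw [← blockRank_union hM]
    · have h1 : {ψ : IrrCharacter (K.subgroupOf H) | ∃ γ ∈ ⋃ β ∈ {β : Set (IrrCharacter H) | IsInducedBlock M H β b},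
          {γ : Set (IrrCharacter (K.subgroupOf H)) | IsInducedBlock M (K.subgroupOf H) γ β}, ψ ∈ γ} =
          trB (subE hKH) (US M b K) := by
        ext ψ
        rw [mem_trB]
        simp only [Set.mem_iUnion, Set.mem_setOf_eq, exists_prop]
        constructor
        · rintro ⟨γ, ⟨β, hβ, hγ⟩, hψ⟩
          refine ⟨trB (subE hKH).symm γ, by rwa [trI_mem_trB], ?_⟩
          exact isInducedBlock_trans hKH (by rw [trB_symm_trB]; exact hγ) hβ
        · rintro ⟨γ, hψ, hγ⟩
          obtain ⟨β, hβ⟩ := hdef (trB (subE hKH) γ) (isPBlock_tr hγ.1)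
          exact ⟨trB (subE hKH) γ, ⟨β, isInducedBlock_up hKH hβ hγ, hβ⟩, by rwa [mem_trB]⟩
      rw [h1, blockRank_tr]
    · intro γ hγ
      simp only [Set.mem_iUnion, Set.mem_setOf_eq, exists_prop] at hγ
      obtain ⟨β, -, hγ⟩ := hγ
      exact hγ.1
  · intro β _ β' _ hne
    rw [Function.onFun, Set.disjoint_left]
    intro γ h1 h2
    exact hne (induced_unique h1 h2)

end US

section reps

open scoped Classical

variable {G : Type u} [Group G] [Finite G] {p : ℕ}

theorem exists_reps (G : Type u) [Group G] [Finite G] (p : ℕ) : ∃ X : Finset G, (∀ x ∈ X, ∃ k : ℕ, orderOf x = p ^ k) ∧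
    (∀ g : G, (∃ k : ℕ, orderOf g = p ^ k) → ∃! x, x ∈ X ∧ IsConj g x) ∧
    ∀ g : G, g ∈ X ↔ ((∃ k : ℕ, orderOf g = p ^ k) ∧ (Quotient.out (ConjClasses.mk g) : G) = g) := by
  classical
  haveI := Fintype.ofFinite G
  refine ⟨Finset.univ.filter fun g => (∃ k : ℕ, orderOf g = p ^ k) ∧ (Quotient.out (ConjClasses.mk g) : G) = g,
    ?_, ?_, ?_⟩
  · intro x hx
    exact (Finset.mem_filter.1 hx).2.1
  · intro g hg
    have h1 := isConj_out g
    refine ⟨Quotient.out (ConjClasses.mk g), ⟨?_, h1.symm⟩, ?_⟩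
    · rw [Finset.mem_filter]
      refine ⟨Finset.mem_univ _, ?_, ?_⟩
      · rw [orderOf_isConj h1]; exact hg
      · rw [mk_out]
    · rintro y ⟨hy, hgy⟩
      rw [← (Finset.mem_filter.1 hy).2.2, ConjClasses.mk_eq_mk_iff_isConj.2 hgy]
  · intro g; simp

/-- summing a class function over class representatives -/
theorem sum_reps {X' : Finset G} (hX : ∀ g : G, g ∈ X' ↔ (g ≠ 1 ∧ (∃ k : ℕ, orderOf g = p ^ k) ∧
    (Quotient.out (ConjClasses.mk g) : G) = g)) (f : G → ℤ) (hf : ∀ g h : G, IsConj g h → f g = f h) :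
    (Nat.card G : ℤ) * ∑ x ∈ X', f x =
      ∑ᶠ z ∈ {z : G | (∃ k : ℕ, orderOf z = p ^ k) ∧ z ≠ 1},
        (Nat.card (Subgroup.centralizer ({z} : Set G)) : ℤ) * f z := by
  classical
  haveI := Fintype.ofFinite G
  rw [finsum_mem_eq_finite_toFinset_sum _ (Set.toFinite _)]
  have hmaps : ∀ z ∈ (Set.toFinite {z : G | (∃ k : ℕ, orderOf z = p ^ k) ∧ z ≠ 1}).toFinset,
      (Quotient.out (ConjClasses.mk z) : G) ∈ X' := by
    intro z hz
    rw [Set.Finite.mem_toFinset] at hz
    have h1 := isConj_out z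
    rw [hX]
    refine ⟨?_, ?_, by rw [mk_out]⟩
    · intro h
      rw [h] at h1
      exact hz.2 ((isConj_one_right.1 h1))
    · rw [orderOf_isConj h1]; exact hz.1
  rw [← Finset.sum_fiberwise_of_maps_to hmaps, Finset.mul_sum]
  refine Finset.sum_congr rfl fun x hx => ?_
  rw [hX] at hx
  have h2 : ∀ z ∈ (Set.toFinite {z : G | (∃ k : ℕ, orderOf z = p ^ k) ∧ z ≠ 1}).toFinset.filter
      (fun z => (Quotient.out (ConjClasses.mk z) : G) = x),
      (Nat.card (Subgroup.centralizer ({z} : Set G)) : ℤ) * f z =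
      (Nat.card (Subgroup.centralizer ({x} : Set G)) : ℤ) * f x := by
    intro z hz
    have h3 : IsConj z x := by
      have := isConj_out z
      rw [(Finset.mem_filter.1 hz).2] at this
      exact this.symm
    rw [hf z x h3]
    congr 2
    have h4 := CharBasic.card_isConj_mul_card_centralizer z
    have h5 := CharBasic.card_isConj_mul_card_centralizer x
    have h6 : Nat.card {y : G // IsConj z y} = Nat.card {y : G // IsConj x y} := by
      apply Nat.card_congr
      exact Equiv.subtypeEquivRight fun y => ⟨fun h => h3.symm.trans h, fun h => h3.trans h⟩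
    rw [h6, ← h5] at h4
    have h7 : 0 < Nat.card {y : G // IsConj x y} := by
      haveI : Nonempty {y : G // IsConj x y} := ⟨⟨x, IsConj.refl _⟩⟩
      exact Nat.card_pos
    exact Nat.eq_of_mul_eq_mul_left h7 h4
  rw [Finset.sum_congr rfl h2, Finset.sum_const, nsmul_eq_mul, ← mul_assoc]
  congr 1
  have h5 := CharBasic.card_isConj_mul_card_centralizer x
  have h8 : ((Set.toFinite {z : G | (∃ k : ℕ, orderOf z = p ^ k) ∧ z ≠ 1}).toFinset.filter
      (fun z => (Quotient.out (ConjClasses.mk z) : G) = x)).card = Nat.card {y : G // IsConj x y} := by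
    rw [Nat.card_eq_fintype_card, Fintype.card_subtype]
    congr 1
    ext z
    rw [Finset.mem_filter, Set.Finite.mem_toFinset, Finset.mem_filter]
    constructor
    · rintro ⟨-, h⟩
      refine ⟨Finset.mem_univ _, ?_⟩
      have := isConj_out z
      rwa [h] at this
    · rintro ⟨-, h⟩
      refine ⟨⟨?_, ?_⟩, ?_⟩
      · rw [← orderOf_isConj h]; exact hx.2.1
      · rintro rfl
        exact hx.1 (isConj_one_left.1 h)
      · rw [← ConjClasses.mk_eq_mk_iff_isConj.2 h]; exact hx.2.2
  rw [h8]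
  exact_mod_cast h5.symm

end reps

section count

open scoped Classical

variable {G : Type u} [Group G] [Finite G] {p : ℕ} {M : Ideal AlgInt}

/-- the restriction of an isomorphism to a subgroup and its image -/
noncomputable def resE {G : Type u} [Group G] (α : G ≃* G) {H K : Subgroup G} (h : H.map α.toMonoidHom = K) : H ≃* K :=
  (Subgroup.equivMapOfInjective H α.toMonoidHom α.injective).trans (MulEquiv.subgroupCongr h)

omit [Finite G] in
theorem coe_resE (α : G ≃* G) {H K : Subgroup G} (h : H.map α.toMonoidHom = K) (x : H) :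
    ((resE α h x : K) : G) = α (x : G) := rfl

theorem rank_conj {b : Set (IrrCharacter G)} (g : G) {H K : Subgroup G}
    (h : H.map (MulAut.conj g).toMonoidHom = K) :
    blockRank p (US M b H) = blockRank p (US M b K) := by
  have h1 := US_tr (M := M) (MulAut.conj g) (resE (MulAut.conj g) h) (fun x => coe_resE _ h x) b
  rw [BlockAlong.trB_conj] at h1
  rw [h1, blockRank_tr]

theorem map_centralizer_inf (H : Subgroup G) (x h : H) :
    (Subgroup.centralizer ({(x : G)} : Set G) ⊓ H).map (MulAut.conj (h : G)).toMonoidHom =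
      Subgroup.centralizer ({((h * x * h⁻¹ : H) : G)} : Set G) ⊓ H := by
  ext y
  rw [Subgroup.mem_map]
  constructor
  · rintro ⟨z, ⟨hz1, hz2⟩, rfl⟩
    refine ⟨?_, ?_⟩
    · have h1 : z * (x : G) = x * z := Subgroup.mem_centralizer_singleton_iff.1 hz1
      show _ ∈ Subgroup.centralizer ({((h * x * h⁻¹ : H) : G)} : Set G)
      rw [Subgroup.mem_centralizer_singleton_iff]
      show ((h : G) * z * (h : G)⁻¹) * ((h : G) * x * (h : G)⁻¹) = ((h : G) * x * (h : G)⁻¹) * ((h : G) * z * (h : G)⁻¹)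
      calc _ = (h : G) * (z * x) * (h : G)⁻¹ := by group
        _ = _ := by rw [h1]; group
    · exact H.mul_mem (H.mul_mem h.2 hz2) (H.inv_mem h.2)
  · rintro ⟨hy1, hy2⟩
    refine ⟨(h : G)⁻¹ * y * h, ⟨?_, H.mul_mem (H.mul_mem (H.inv_mem h.2) hy2) h.2⟩, ?_⟩
    · have h1 : y * ((h : G) * x * (h : G)⁻¹) = ((h : G) * x * (h : G)⁻¹) * y :=
        Subgroup.mem_centralizer_singleton_iff.1 hy1
      show _ ∈ Subgroup.centralizer ({(x : G)} : Set G)
      rw [Subgroup.mem_centralizer_singleton_iff]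
      calc (h : G)⁻¹ * y * h * x = (h : G)⁻¹ * (y * ((h : G) * x * (h : G)⁻¹)) * h := by group
        _ = _ := by rw [h1]; group
    · show (h : G) * ((h : G)⁻¹ * y * h) * (h : G)⁻¹ = y
      group

theorem count (hM : IsPModular p M) (b : Set (IrrCharacter G)) (H : Subgroup G) :
    (Nat.card H : ℤ) * ((Nat.card (US M b H) : ℤ) - (blockRank p (US M b H) : ℤ)) =
      ∑ᶠ z ∈ {z : G | z ∈ H ∧ (∃ k : ℕ, orderOf z = p ^ k) ∧ z ≠ 1},
        (Nat.card ↥(Subgroup.centralizer ({z} : Set G) ⊓ H) : ℤ) *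
          (blockRank p (US M b (Subgroup.centralizer ({z} : Set G) ⊓ H)) : ℤ) := by
  haveI := isPrime hM
  haveI : Fact p.Prime := ⟨hM.1⟩
  obtain ⟨X, hX1, hX2, hX3⟩ := exists_reps H p
  have hcent : ∀ x : H, Subgroup.centralizer ({x} : Set H) =
      (Subgroup.centralizer ({(x : G)} : Set G) ⊓ H).subgroupOf H := by
    intro x
    ext y
    rw [Subgroup.mem_subgroupOf, Subgroup.mem_inf, Subgroup.mem_centralizer_singleton_iff,
      Subgroup.mem_centralizer_singleton_iff]
    constructor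
    · intro h; exact ⟨congrArg Subtype.val h, y.2⟩
    · intro h; exact Subtype.ext h.1
  -- block induction from centralizers of p-elements is defined
  have hdef : ∀ x : H, (∃ k : ℕ, orderOf x = p ^ k) → ∀ γ : Set (IrrCharacter (Subgroup.centralizer ({x} : Set H))),
      IsPBlock M γ → InducedBlockDefined M (Subgroup.centralizer ({x} : Set H)) γ := by
    rintro u ⟨k, hk⟩ γ hγ
    have hup : IsPGroup p (Subgroup.zpowers u) := by
      apply IsPGroup.of_card (n := k)
      rw [Nat.card_zpowers, ← hk]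
    have hzC : Subgroup.zpowers u ≤ Subgroup.centralizer ({u} : Set H) := by
      rw [Subgroup.zpowers_le]
      exact Subgroup.mem_centralizer_singleton_iff.2 rfl
    have hCz : Subgroup.centralizer ((Subgroup.zpowers u : Subgroup H) : Set H) ≤
        Subgroup.centralizer ({u} : Set H) :=
      Subgroup.centralizer_le (Set.singleton_subset_iff.2 (Subgroup.mem_zpowers u))
    have hCN : Subgroup.centralizer ({u} : Set H) ≤
        Subgroup.normalizer ((Subgroup.zpowers u : Subgroup H) : Set H) := by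
      refine le_trans ?_ (Subgroup.centralizer_le_normalizer _)
      intro x hx
      rw [Subgroup.mem_centralizer_iff]
      intro y hy
      obtain ⟨n, rfl⟩ := Subgroup.mem_zpowers_iff.1 hy
      have h1 : Commute u x := (Subgroup.mem_centralizer_singleton_iff.1 hx).symm
      exact (h1.zpow_left n).eq
    exact inducedBlockDefined hM hup hzC hCz hCN hγ
  obtain ⟨X', hX'⟩ : ∃ X' : Finset H, X' = @Finset.erase H (fun a b => Classical.propDecidable (a = b)) X 1 :=
    ⟨_, rfl⟩
  have hmem : ∀ g : H, g ∈ X' ↔ g ≠ 1 ∧ g ∈ X := by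
    intro g
    rw [hX']
    exact @Finset.mem_erase H (fun a b => Classical.propDecidable (a = b)) g 1 X
  have hX4 : ∀ g : H, g ∈ X' ↔ (g ≠ 1 ∧ (∃ k : ℕ, orderOf g = p ^ k) ∧
      (Quotient.out (ConjClasses.mk g) : H) = g) := by
    intro g
    rw [hmem, hX3]
  have h1 : Nat.card (US M b H) = blockRank p (US M b H) +
      ∑ x ∈ X', blockRank p (US M b (Subgroup.centralizer ({(x : G)} : Set G) ⊓ H)) := by
    rw [card_US hM, rank_US hM]
    have h2 : ∀ β ∈ {β : Set (IrrCharacter H) | IsInducedBlock M H β b}, Nat.card β = blockRank p β +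
        ∑ x ∈ X', ∑ᶠ c ∈ {c : Set (IrrCharacter ↥(Subgroup.centralizer ({x} : Set H))) |
          IsInducedBlock M (Subgroup.centralizer ({x} : Set H)) c β}, blockRank p c := by
      intro β hβ
      rw [hX']
      exact BlockTop.card_eq_add hM hβ.1 X hX1 hX2
    rw [finsum_mem_congr rfl h2, finsum_mem_add_distrib (Set.toFinite _)]
    congr 1
    rw [finsum_mem_eq_finite_toFinset_sum _ (Set.toFinite _), Finset.sum_comm]
    refine Finset.sum_congr rfl fun x hx => ?_
    rw [← finsum_mem_eq_finite_toFinset_sum]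
    have hx' : x ∈ X := ((hmem x).1 hx).2
    exact sum_sub hM inf_le_right (hcent x) (hdef x (hX1 x hx'))
  rw [h1]
  push_cast
  rw [add_sub_cancel_left]
  rw [sum_reps hX4 (fun x => (blockRank p (US M b (Subgroup.centralizer ({(x : G)} : Set G) ⊓ H)) : ℤ))]
  · refine finsum_mem_eq_of_bijOn (fun z : H => (z : G)) ⟨?_, ?_, ?_⟩ ?_
    · rintro z ⟨⟨k, hk⟩, hz⟩
      exact ⟨z.2, ⟨k, by rw [Subgroup.orderOf_coe, hk]⟩, fun h => hz (Subtype.ext h)⟩
    · exact Subtype.val_injective.injOn
    · rintro z ⟨hz1, ⟨k, hk⟩, hz2⟩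
      exact ⟨⟨z, hz1⟩, ⟨⟨k, by rw [Subgroup.orderOf_mk, hk]⟩, fun h => hz2 (congrArg Subtype.val h)⟩, rfl⟩
    · intro z _
      congr 2
      rw [hcent z]
      exact Nat.card_congr (Subgroup.subgroupOfEquivOfLe inf_le_right).toEquiv
  · intro x y hxy
    obtain ⟨h, rfl⟩ := isConj_iff.1 hxy
    show (blockRank p (US M b (Subgroup.centralizer ({(x : G)} : Set G) ⊓ H)) : ℤ) =
      (blockRank p (US M b (Subgroup.centralizer ({((h * x * h⁻¹ : H) : G)} : Set G) ⊓ H)) : ℤ)
    rw [rank_conj (h : G) (map_centralizer_inf H x h)]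

theorem US_top (hM : IsPModular p M) {b : Set (IrrCharacter G)} (hb : IsPBlock M b) :
    US M b ⊤ = BlockTop.cmp (BlockTop.topEq rfl) '' b := by
  haveI := isPrime hM
  ext ψ
  constructor
  · rintro ⟨β, h1, h2⟩
    rw [BlockTop.induced_top_iff rfl] at h2
    rw [← h2.2]
    exact h1
  · intro h
    exact ⟨_, h, (BlockTop.induced_top_iff rfl).2 ⟨hb, rfl⟩⟩

end count

end Cfsg.Agent.Lib.H16KR
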