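import Mathlib

/-!
# Alternating sums over chains of `p`-subgroups stabilised by a `p`-element (helper16)
-/

set_option autoImplicit false
set_option linter.all false

namespace Cfsg.Agent.Lib.H16KR2

open scoped Classical

universe u

/-- sign reversing toggling -/
theorem toggle {α : Type u} (F : Finset (Finset α)) (r : Finset α → α) (w : Finset α → ℤ)
    (h1 : ∀ s ∈ F, r s ∉ s → insert (r s) s ∈ F ∧ r (insert (r s) s) = r s ∧ w (insert (r s) s) = w s)
    (h2 : ∀ s ∈ F, r s ∈ s → s.erase (r s) ∈ F ∧ r (s.erase (r s)) = r s) :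
    ∑ s ∈ F, (-1 : ℤ) ^ s.card * w s = 0 := by
  refine Finset.sum_involution (fun s _ => if r s ∈ s then s.erase (r s) else insert (r s) s) ?_ ?_ ?_ ?_
  · intro s hs
    by_cases h : r s ∈ s
    · rw [if_pos h]
      obtain ⟨h3, h4⟩ := h2 s hs h
      have h5 : r (s.erase (r s)) ∉ s.erase (r s) := by rw [h4]; exact Finset.notMem_erase _ _
      have h6 := (h1 _ h3 h5).2.2
      rw [h4, Finset.insert_erase h] at h6
      rw [← h6]
      have h7 : s.card = (s.erase (r s)).card + 1 := (Finset.card_erase_add_one h).symm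
      rw [h7]
      ring
    · rw [if_neg h]
      obtain ⟨h3, h4, h5⟩ := h1 s hs h
      rw [h5, Finset.card_insert_of_notMem h]
      ring
  · intro s hs _
    by_cases h : r s ∈ s
    · rw [if_pos h]
      intro h3
      have := Finset.notMem_erase (r s) s
      rw [h3] at this
      exact this h
    · rw [if_neg h]
      intro h3
      apply h
      rw [← h3]
      rw [h3]
      have := Finset.mem_insert_self (r s) s
      rwa [h3] at this
  · intro s hs
    by_cases h : r s ∈ s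
    · rw [if_pos h]; exact (h2 s hs h).1
    · rw [if_neg h]; exact (h1 s hs h).1
  · intro s hs
    by_cases h : r s ∈ s
    · simp only [if_pos h]
      rw [(h2 s hs h).2, if_neg (Finset.notMem_erase _ _), Finset.insert_erase h]
    · simp only [if_neg h]
      rw [(h1 s hs h).2.1, if_pos (Finset.mem_insert_self _ _), Finset.erase_insert h]

variable {G : Type u} [Group G]

/-- chains -/
def Ch (s : Finset (Subgroup G)) : Prop := ∀ Q ∈ s, ∀ R ∈ s, Q ≤ R ∨ R ≤ Q

/-- nontrivial `p`-subgroups -/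
def Pg (p : ℕ) (s : Finset (Subgroup G)) : Prop := ∀ Q ∈ s, Q ≠ ⊥ ∧ IsPGroup p Q

/-- the stabiliser of a chain -/
abbrev Ns (s : Finset (Subgroup G)) : Subgroup G := ⨅ Q ∈ s, Subgroup.normalizer ((Q : Subgroup G) : Set G)

theorem mem_Ns {s : Finset (Subgroup G)} {g : G} :
    g ∈ Ns s ↔ ∀ Q ∈ s, g ∈ Subgroup.normalizer ((Q : Subgroup G) : Set G) := by
  simp only [Ns, Subgroup.mem_iInf]

theorem Ns_insert (R : Subgroup G) (s : Finset (Subgroup G)) :
    Ns (insert R s) = Subgroup.normalizer ((R : Subgroup G) : Set G) ⊓ Ns s := by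
  ext g
  rw [mem_Ns, Subgroup.mem_inf, mem_Ns]
  simp

theorem Ns_empty : Ns (∅ : Finset (Subgroup G)) = ⊤ := by simp [Ns]

theorem le_normalizer_of {K R : Subgroup G} (h : ∀ g ∈ K, ∀ x ∈ R, g * x * g⁻¹ ∈ R) :
    K ≤ Subgroup.normalizer (R : Set G) := by
  intro g hg
  rw [Subgroup.mem_normalizer_iff]
  intro x
  refine ⟨h g hg x, fun hx => ?_⟩
  have := h g⁻¹ (K.inv_mem hg) _ hx
  have h2 : g⁻¹ * (g * x * g⁻¹) * g⁻¹⁻¹ = x := by group
  rwa [h2] at this

theorem Ch.mono {s t : Finset (Subgroup G)} (h : Ch t) (hst : s ⊆ t) : Ch s :=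
  fun Q hQ R hR => h Q (hst hQ) R (hst hR)

theorem Ch.insert {s : Finset (Subgroup G)} {R : Subgroup G} (h : Ch s) (hR : ∀ Q ∈ s, Q ≤ R ∨ R ≤ Q) :
    Ch (insert R s) := by
  intro Q hQ Q' hQ'
  rw [Finset.mem_insert] at hQ hQ'
  rcases hQ with rfl | hQ
  · rcases hQ' with rfl | hQ'
    · exact Or.inl le_rfl
    · exact (hR Q' hQ').symm
  · rcases hQ' with rfl | hQ'
    · exact hR Q hQ
    · exact h Q hQ Q' hQ'

theorem Pg.insert {p : ℕ} {s : Finset (Subgroup G)} {R : Subgroup G} (h : Pg p s) (hR : R ≠ ⊥ ∧ IsPGroup p R) :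
    Pg p (insert R s) := by
  intro Q hQ
  rw [Finset.mem_insert] at hQ
  rcases hQ with rfl | hQ
  · exact hR
  · exact h Q hQ

theorem Pg.mono {p : ℕ} {s t : Finset (Subgroup G)} (h : Pg p t) (hst : s ⊆ t) : Pg p s :=
  fun Q hQ => h Q (hst hQ)

theorem sup_mem_chain (t : Finset (Subgroup G)) (ht : Ch t) : t = ∅ ∨ t.sup id ∈ t := by
  induction t using Finset.induction_on with
  | empty => exact Or.inl rfl
  | insert a t ha ih =>
    right
    rcases ih (ht.mono (Finset.subset_insert _ _)) with rfl | h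
    · simp
    · rw [Finset.sup_insert, id]
      rcases ht a (Finset.mem_insert_self _ _) _ (Finset.mem_insert_of_mem h) with h1 | h1
      · rw [sup_eq_right.2 h1]; exact Finset.mem_insert_of_mem h
      · rw [sup_eq_left.2 h1]; exact Finset.mem_insert_self _ _

theorem inf_mem_chain (t : Finset (Subgroup G)) (ht : Ch t) : t = ∅ ∨ t.inf id ∈ t := by
  induction t using Finset.induction_on with
  | empty => exact Or.inl rfl
  | insert a t ha ih =>
    right
    rcases ih (ht.mono (Finset.subset_insert _ _)) with rfl | h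
    · simp
    · rw [Finset.inf_insert, id]
      rcases ht a (Finset.mem_insert_self _ _) _ (Finset.mem_insert_of_mem h) with h1 | h1
      · rw [inf_eq_left.2 h1]; exact Finset.mem_insert_self _ _
      · rw [inf_eq_right.2 h1]; exact Finset.mem_insert_of_mem h

section all

variable [Fintype (Subgroup G)] {p : ℕ} {z : G}

/-- the toggled subgroup for all chains -/
noncomputable def r1 (z : G) (s : Finset (Subgroup G)) : Subgroup G :=
  (s.filter (fun Q => z ∉ Q)).sup id ⊔ Subgroup.zpowers z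

/-- all chains stabilised by `z` -/
noncomputable def F1 (p : ℕ) (z : G) : Finset (Finset (Subgroup G)) :=
  Finset.univ.filter fun s => Ch s ∧ Pg p s ∧ z ∈ Ns s

omit [Fintype (Subgroup G)] in
theorem mem_r1 (s : Finset (Subgroup G)) : z ∈ r1 z s :=
  (le_sup_right : Subgroup.zpowers z ≤ r1 z s) (Subgroup.mem_zpowers z)

omit [Fintype (Subgroup G)] in
theorem r1_insert (s : Finset (Subgroup G)) : r1 z (insert (r1 z s) s) = r1 z s := by
  conv_lhs => rw [r1]
  rw [Finset.filter_insert, if_neg (not_not.2 (mem_r1 s))]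
  rfl

omit [Fintype (Subgroup G)] in
theorem r1_erase (s : Finset (Subgroup G)) : r1 z (s.erase (r1 z s)) = r1 z s := by
  conv_lhs => rw [r1]
  have h : (s.erase (r1 z s)).filter (fun Q => z ∉ Q) = s.filter (fun Q => z ∉ Q) := by
    ext Q
    rw [Finset.mem_filter, Finset.mem_erase, Finset.mem_filter]
    constructor
    · rintro ⟨⟨-, h1⟩, h2⟩; exact ⟨h1, h2⟩
    · rintro ⟨h1, h2⟩
      refine ⟨⟨?_, h1⟩, h2⟩
      rintro rfl
      exact h2 (mem_r1 s)
  rw [h]
  rfl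

omit [Fintype (Subgroup G)] in
theorem sup_cases {s : Finset (Subgroup G)} (hs : Ch s) :
    (s.filter (fun Q => z ∉ Q)).sup id = ⊥ ∨
      ((s.filter (fun Q => z ∉ Q)).sup id ∈ s ∧ z ∉ (s.filter (fun Q => z ∉ Q)).sup id) := by
  rcases sup_mem_chain _ (hs.mono (Finset.filter_subset (fun Q => z ∉ Q) s)) with h | h
  · left; rw [h]; simp
  · right; exact Finset.mem_filter.1 h

omit [Fintype (Subgroup G)] in
theorem Ns_le_sup {s : Finset (Subgroup G)} (hs : Ch s) :
    Ns s ≤ Subgroup.normalizer (((s.filter (fun Q => z ∉ Q)).sup id : Subgroup G) : Set G) := by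
  rcases sup_cases (z := z) hs with h | h
  · rw [h]
    apply le_normalizer_of
    intro g _ x hx
    rw [Subgroup.mem_bot] at hx
    rw [hx]; simp
  · intro g hg
    exact mem_Ns.1 hg _ h.1

omit [Fintype (Subgroup G)] in
theorem r1_compare {s : Finset (Subgroup G)} (hs : Ch s) {Q : Subgroup G} (hQ : Q ∈ s) :
    Q ≤ r1 z s ∨ r1 z s ≤ Q := by
  by_cases h : z ∈ Q
  · right
    apply sup_le _ (by rwa [Subgroup.zpowers_le])
    apply Finset.sup_le
    intro Q' hQ'
    rw [Finset.mem_filter] at hQ'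
    rcases hs Q' hQ'.1 Q hQ with h1 | h1
    · exact h1
    · exact absurd (h1 h) hQ'.2
  · left
    exact le_trans (Finset.le_sup (f := id) (Finset.mem_filter.2 ⟨hQ, h⟩)) le_sup_left

omit [Fintype (Subgroup G)] in
theorem Ns_le_r1 {s : Finset (Subgroup G)} (hs : Ch s) :
    Subgroup.centralizer ({z} : Set G) ⊓ Ns s ≤ Subgroup.normalizer ((r1 z s : Subgroup G) : Set G) := by
  apply le_normalizer_of
  intro g hg x hx
  have h1 := Ns_le_sup (z := z) hs hg.2
  have h2 : (r1 z s).map (MulAut.conj g).toMonoidHom ≤ r1 z s := by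
    rw [r1, Subgroup.map_sup]
    apply sup_le_sup
    · rintro _ ⟨y, hy, rfl⟩
      exact (Subgroup.mem_normalizer_iff.1 h1 y).1 hy
    · rw [MonoidHom.map_zpowers, Subgroup.zpowers_le]
      have h3 : g * z = z * g := Subgroup.mem_centralizer_singleton_iff.1 hg.1
      have h4 : (MulAut.conj g).toMonoidHom z = z := by
        show g * z * g⁻¹ = z
        rw [h3, mul_inv_cancel_right]
      rw [h4]
      exact Subgroup.mem_zpowers z
  exact h2 ⟨x, hx, rfl⟩

theorem sum_all (hz : z ≠ 1) (hzp : IsPGroup p (Subgroup.zpowers z)) (Φ : Subgroup G → ℤ) :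
    ∑ s ∈ F1 p z, (-1 : ℤ) ^ s.card * Φ (Subgroup.centralizer ({z} : Set G) ⊓ Ns s) = 0 := by
  apply toggle (F1 p z) (r1 z) (fun s => Φ (Subgroup.centralizer ({z} : Set G) ⊓ Ns s))
  · intro s hs hr
    rw [F1, Finset.mem_filter] at hs
    obtain ⟨-, hch, hpg, hzs⟩ := hs
    have hne : r1 z s ≠ ⊥ := by
      intro h
      have := mem_r1 (z := z) s
      rw [h, Subgroup.mem_bot] at this
      exact hz this
    have hp : IsPGroup p (r1 z s) := by
      apply IsPGroup.to_sup_of_normal_left' _ hzp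
      · rw [Subgroup.zpowers_le]
        exact Ns_le_sup hch hzs
      · rcases sup_cases (z := z) hch with h | h
        · rw [h]; exact IsPGroup.of_bot
        · exact (hpg _ h.1).2
    refine ⟨?_, r1_insert s, ?_⟩
    · rw [F1, Finset.mem_filter]
      refine ⟨Finset.mem_univ _, hch.insert (fun Q hQ => r1_compare hch hQ), hpg.insert ⟨hne, hp⟩, ?_⟩
      rw [Ns_insert]
      exact ⟨Subgroup.le_normalizer (mem_r1 s), hzs⟩
    · show Φ _ = Φ _
      congr 1
      rw [Ns_insert]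
      apply le_antisymm
      · exact inf_le_inf_left _ inf_le_right
      · exact le_inf inf_le_left (le_inf (Ns_le_r1 hch) inf_le_right)
  · intro s hs hr
    rw [F1, Finset.mem_filter] at hs
    obtain ⟨-, hch, hpg, hzs⟩ := hs
    refine ⟨?_, r1_erase s⟩
    rw [F1, Finset.mem_filter]
    refine ⟨Finset.mem_univ _, hch.mono (Finset.erase_subset _ _), hpg.mono (Finset.erase_subset _ _), ?_⟩
    rw [mem_Ns] at hzs ⊢
    exact fun Q hQ => hzs Q (Finset.mem_of_mem_erase hQ)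

end all

section nonnormal

/-- good members -/
noncomputable def Gd (s : Finset (Subgroup G)) : Finset (Subgroup G) :=
  s.filter fun Q => ∀ Q' ∈ s, Q' ≤ Q → Q ≤ Subgroup.normalizer (Q' : Set G)

/-- bad members -/
noncomputable def Bd (s : Finset (Subgroup G)) : Finset (Subgroup G) :=
  s.filter fun Q => ¬ ∀ Q' ∈ s, Q' ≤ Q → Q ≤ Subgroup.normalizer (Q' : Set G)

theorem mem_Gd {s : Finset (Subgroup G)} {Q : Subgroup G} :
    Q ∈ Gd s ↔ Q ∈ s ∧ ∀ Q' ∈ s, Q' ≤ Q → Q ≤ Subgroup.normalizer (Q' : Set G) := by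
  rw [Gd, Finset.mem_filter]

theorem mem_Bd {s : Finset (Subgroup G)} {Q : Subgroup G} : Q ∈ Bd s ↔ Q ∈ s ∧ Q ∉ Gd s := by
  rw [Bd, Finset.mem_filter, mem_Gd]
  tauto

/-- the toggled subgroup -/
noncomputable def r2 (s : Finset (Subgroup G)) : Subgroup G := (Bd s).inf id ⊓ Ns (Gd s)

theorem Gd_down {s : Finset (Subgroup G)} {Q Q' : Subgroup G} (hQ : Q ∈ Gd s) (hQ' : Q' ∈ s) (h : Q' ≤ Q) :
    Q' ∈ Gd s := by
  rw [mem_Gd] at hQ ⊢
  exact ⟨hQ', fun Q'' h1 h2 => h.trans (hQ.2 Q'' h1 (h2.trans h))⟩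

section fixed

variable {s : Finset (Subgroup G)} (hs : Ch s) (hB : (Bd s).Nonempty)

include hs hB

theorem inf_mem : (Bd s).inf id ∈ Bd s := by
  rcases inf_mem_chain (Bd s) (hs.mono (Finset.filter_subset _ _)) with h | h
  · rw [h] at hB; exact absurd hB (by simp)
  · exact h

theorem inf_le_Bd {Q : Subgroup G} (hQ : Q ∈ Bd s) : (Bd s).inf id ≤ Q := Finset.inf_le (f := id) hQ

theorem Gd_lt {Q : Subgroup G} (hQ : Q ∈ Gd s) : Q < (Bd s).inf id := by
  have hm := mem_Bd.1 (inf_mem hs hB)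
  rcases hs Q (mem_Gd.1 hQ).1 _ hm.1 with h | h
  · refine lt_of_le_of_ne h ?_
    intro h1
    rw [← h1] at hm
    exact hm.2 hQ
  · exact absurd (Gd_down hQ hm.1 h) hm.2

theorem r2_lt : r2 s < (Bd s).inf id := by
  have hm := mem_Bd.1 (inf_mem hs hB)
  refine lt_of_le_of_ne inf_le_left ?_
  intro h
  apply hm.2
  rw [mem_Gd]
  refine ⟨hm.1, fun Q' hQ' hle => ?_⟩
  by_cases hg : Q' ∈ Gd s
  · have h1 : (Bd s).inf id ≤ Ns (Gd s) := by rw [← h]; exact inf_le_right
    intro x hx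
    exact mem_Ns.1 (h1 hx) Q' hg
  · have h1 := inf_le_Bd hs hB (mem_Bd.2 ⟨hQ', hg⟩)
    have h2 := le_antisymm hle h1
    rw [h2]
    exact Subgroup.le_normalizer

theorem Gd_le_r2 {Q : Subgroup G} (hQ : Q ∈ Gd s) : Q ≤ r2 s := by
  apply le_inf (Gd_lt hs hB hQ).le
  intro x hx
  rw [mem_Ns]
  intro Q' hQ'
  rcases hs Q (mem_Gd.1 hQ).1 Q' (mem_Gd.1 hQ').1 with h | h
  · exact Subgroup.le_normalizer (h hx)
  · exact (mem_Gd.1 hQ).2 Q' (mem_Gd.1 hQ').1 h hx

theorem Gd_nonempty : (Gd s).Nonempty := by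
  by_contra h
  rw [Finset.not_nonempty_iff_eq_empty] at h
  have h1 := r2_lt hs hB
  rw [r2, h, Ns_empty, inf_top_eq] at h1
  exact lt_irrefl _ h1

theorem Ns_le_r2 : Ns s ≤ Subgroup.normalizer ((r2 s : Subgroup G) : Set G) := by
  have hm := mem_Bd.1 (inf_mem hs hB)
  apply le_normalizer_of
  intro g hg x hx
  refine ⟨(Subgroup.mem_normalizer_iff.1 (mem_Ns.1 hg _ hm.1) x).1 hx.1, ?_⟩
  show _ ∈ Ns (Gd s)
  rw [mem_Ns]
  intro Q hQ
  have h1 := mem_Ns.1 hg Q (mem_Gd.1 hQ).1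
  exact Subgroup.mul_mem _ (Subgroup.mul_mem _ h1 (mem_Ns.1 hx.2 Q hQ)) (Subgroup.inv_mem _ h1)

theorem Gd_insert (hr : r2 s ∉ s) : Gd (insert (r2 s) s) = insert (r2 s) (Gd s) := by
  have hm := mem_Bd.1 (inf_mem hs hB)
  ext Q
  rw [Finset.mem_insert, mem_Gd, mem_Gd, Finset.mem_insert]
  constructor
  · rintro ⟨rfl | h1, h2⟩
    · exact Or.inl rfl
    · exact Or.inr ⟨h1, fun Q' hQ' => h2 Q' (Finset.mem_insert_of_mem hQ')⟩
  · rintro (rfl | ⟨h1, h2⟩)
    · refine ⟨Or.inl rfl, fun Q' hQ' hle => ?_⟩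
      rw [Finset.mem_insert] at hQ'
      rcases hQ' with rfl | hQ'
      · exact Subgroup.le_normalizer
      · by_cases hg : Q' ∈ Gd s
        · intro x hx
          exact mem_Ns.1 hx.2 Q' hg
        · have h3 := inf_le_Bd hs hB (mem_Bd.2 ⟨hQ', hg⟩)
          exact absurd (lt_of_lt_of_le (r2_lt hs hB) (h3.trans hle)) (lt_irrefl _)
    · refine ⟨Or.inr h1, fun Q' hQ' hle => ?_⟩
      rw [Finset.mem_insert] at hQ'
      rcases hQ' with rfl | hQ'
      · have h3 := Gd_le_r2 hs hB (mem_Gd.2 ⟨h1, h2⟩)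
        rw [le_antisymm h3 hle]
        exact Subgroup.le_normalizer
      · exact h2 Q' hQ' hle

theorem Bd_insert (hr : r2 s ∉ s) : Bd (insert (r2 s) s) = Bd s := by
  ext Q
  rw [mem_Bd, mem_Bd, Gd_insert hs hB hr, Finset.mem_insert, Finset.mem_insert]
  constructor
  · rintro ⟨h1 | h1, h2⟩
    · exact absurd (Or.inl h1) h2
    · exact ⟨h1, fun h => h2 (Or.inr h)⟩
  · rintro ⟨h1, h2⟩
    refine ⟨Or.inr h1, ?_⟩
    rintro (rfl | h3)
    · exact hr h1
    · exact h2 h3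

theorem r2_insert (hr : r2 s ∉ s) : r2 (insert (r2 s) s) = r2 s := by
  conv_lhs => rw [r2]
  rw [Bd_insert hs hB hr, Gd_insert hs hB hr, Ns_insert, inf_left_comm]
  show Subgroup.normalizer ((r2 s : Subgroup G) : Set G) ⊓ r2 s = r2 s
  exact inf_eq_right.2 Subgroup.le_normalizer

end fixed

/-- normalisers grow in `p`-groups -/
theorem growth [Finite G] {p : ℕ} [Fact p.Prime] {R m : Subgroup G} (hm : IsPGroup p m) (hRm : R < m) :
    ¬ m ⊓ Subgroup.normalizer (R : Set G) ≤ R := by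
  intro h
  haveI : Group.IsNilpotent m := hm.isNilpotent
  have hlt : R.subgroupOf m < ⊤ := by
    rw [lt_top_iff_ne_top, Ne, Subgroup.subgroupOf_eq_top]
    exact fun h => absurd hRm (not_lt_of_ge h)
  have h1 := Group.normalizerCondition_of_isNilpotent (G := m) _ hlt
  obtain ⟨x, hx1, hx2⟩ := SetLike.exists_of_lt h1
  apply hx2
  rw [Subgroup.mem_subgroupOf]
  apply h
  refine ⟨x.2, ?_⟩
  show (x : G) ∈ Subgroup.normalizer (R : Set G)
  rw [Subgroup.mem_normalizer_iff] at hx1 ⊢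
  intro y
  constructor
  · intro hy
    exact Subgroup.mem_subgroupOf.1 ((hx1 ⟨y, hRm.le hy⟩).1 (Subgroup.mem_subgroupOf.2 hy))
  · intro hy
    have h3 : (x : G) * y * (x : G)⁻¹ ∈ m := hRm.le hy
    have h4 : y ∈ m := by
      have := m.mul_mem (m.mul_mem (m.inv_mem x.2) h3) x.2
      have h5 : (x : G)⁻¹ * (x * y * (x : G)⁻¹) * x = y := by group
      rwa [h5] at this
    exact Subgroup.mem_subgroupOf.1 ((hx1 ⟨y, h4⟩).2 (Subgroup.mem_subgroupOf.2 hy))

section fixed2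

variable [Finite G] {p : ℕ} [Fact p.Prime] {s : Finset (Subgroup G)} (hs : Ch s) (hp : Pg p s)
  (hB : (Bd s).Nonempty)

include hs hp hB

theorem r2_mem_Gd (hr : r2 s ∈ s) : r2 s ∈ Gd s := by
  by_contra h
  have := inf_le_Bd hs hB (mem_Bd.2 ⟨hr, h⟩)
  exact absurd (lt_of_lt_of_le (r2_lt hs hB) this) (lt_irrefl _)

theorem Bd_erase (hr : r2 s ∈ s) : Bd (s.erase (r2 s)) = Bd s ∧ Gd (s.erase (r2 s)) = (Gd s).erase (r2 s) := by
  have hm := mem_Bd.1 (inf_mem hs hB)
  have hrG := r2_mem_Gd hs hp hB hr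
  have hmp := (hp _ hm.1).2
  have hmr : (Bd s).inf id ≠ r2 s := (r2_lt hs hB).ne'
  -- the least bad member stays bad
  have key : (Bd s).inf id ∉ Gd (s.erase (r2 s)) := by
    intro h
    rw [mem_Gd] at h
    have h1 : (Bd s).inf id ⊓ Subgroup.normalizer ((r2 s : Subgroup G) : Set G) ≤ r2 s := by
      intro x hx
      refine ⟨hx.1, ?_⟩
      show x ∈ Ns (Gd s)
      rw [mem_Ns]
      intro Q hQ
      by_cases hQr : Q = r2 s
      · rw [hQr]; exact hx.2
      · exact h.2 Q (Finset.mem_erase.2 ⟨hQr, (mem_Gd.1 hQ).1⟩) (Gd_lt hs hB hQ).le hx.1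
    exact growth hmp (r2_lt hs hB) h1
  have hbad : ∀ Q ∈ Bd s, Q ∉ Gd (s.erase (r2 s)) := by
    intro Q hQ h
    apply key
    apply Gd_down h _ (inf_le_Bd hs hB hQ)
    exact Finset.mem_erase.2 ⟨hmr, hm.1⟩
  have hG : Gd (s.erase (r2 s)) = (Gd s).erase (r2 s) := by
    ext Q
    constructor
    · intro h
      have h1 := Finset.mem_erase.1 (mem_Gd.1 h).1
      rw [Finset.mem_erase]
      refine ⟨h1.1, ?_⟩
      by_contra h2
      exact hbad Q (mem_Bd.2 ⟨h1.2, h2⟩) h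
    · intro h
      rw [Finset.mem_erase, mem_Gd] at h
      rw [mem_Gd, Finset.mem_erase]
      exact ⟨⟨h.1, h.2.1⟩, fun Q' hQ' => h.2.2 Q' (Finset.mem_of_mem_erase hQ')⟩
  refine ⟨?_, hG⟩
  ext Q
  rw [mem_Bd, mem_Bd, hG, Finset.mem_erase, Finset.mem_erase]
  constructor
  · rintro ⟨⟨h1, h2⟩, h3⟩
    exact ⟨h2, fun h4 => h3 ⟨h1, h4⟩⟩
  · rintro ⟨h1, h2⟩
    refine ⟨⟨?_, h1⟩, fun h4 => h2 h4.2⟩
    rintro rfl
    exact h2 hrG

theorem r2_erase (hr : r2 s ∈ s) : r2 (s.erase (r2 s)) = r2 s := by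
  have hm := mem_Bd.1 (inf_mem hs hB)
  have hmp := (hp _ hm.1).2
  have hrG := r2_mem_Gd hs hp hB hr
  obtain ⟨h1, h2⟩ := Bd_erase hs hp hB hr
  have h3 : r2 (s.erase (r2 s)) = (Bd s).inf id ⊓ Ns ((Gd s).erase (r2 s)) := by
    conv_lhs => rw [r2]
    rw [h1, h2]
  have h4 : r2 s = r2 (s.erase (r2 s)) ⊓ Subgroup.normalizer ((r2 s : Subgroup G) : Set G) := by
    rw [h3, inf_assoc, inf_comm (Ns _), ← Ns_insert, Finset.insert_erase hrG]
    rfl
  have h5 : r2 s ≤ r2 (s.erase (r2 s)) := by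
    conv_lhs => rw [h4]
    exact inf_le_left
  have h6 : IsPGroup p (r2 (s.erase (r2 s))) := by
    rw [h3]
    exact hmp.to_le inf_le_left
  by_contra hne
  have h7 : r2 s < r2 (s.erase (r2 s)) := lt_of_le_of_ne h5 (Ne.symm hne)
  exact growth h6 h7 h4.ge

end fixed2

/-- the chains that are not normal -/
noncomputable def F2 [Fintype (Subgroup G)] (p : ℕ) (z : G) : Finset (Finset (Subgroup G)) :=
  Finset.univ.filter fun s => (Ch s ∧ Pg p s ∧ z ∈ Ns s) ∧ (Bd s).Nonempty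

theorem sum_nonnormal [Finite G] [Fintype (Subgroup G)] {p : ℕ} [Fact p.Prime] (z : G) (w : Subgroup G → ℤ) :
    ∑ s ∈ F2 p z, (-1 : ℤ) ^ s.card * w (Ns s) = 0 := by
  apply toggle (F2 p z) r2 (fun s => w (Ns s))
  · intro s hs hr
    rw [F2, Finset.mem_filter] at hs
    obtain ⟨-, ⟨hch, hpg, hzs⟩, hB⟩ := hs
    have hm := mem_Bd.1 (inf_mem hch hB)
    have hN : Ns (insert (r2 s) s) = Ns s := by
      rw [Ns_insert]
      exact inf_eq_right.2 (Ns_le_r2 hch hB)
    refine ⟨?_, r2_insert hch hB hr, by show w _ = w _; rw [hN]⟩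
    rw [F2, Finset.mem_filter]
    refine ⟨Finset.mem_univ _, ⟨hch.insert ?_, hpg.insert ⟨?_, ?_⟩, by rw [hN]; exact hzs⟩,
      by rw [Bd_insert hch hB hr]; exact hB⟩
    · intro Q hQ
      by_cases hg : Q ∈ Gd s
      · exact Or.inl (Gd_le_r2 hch hB hg)
      · exact Or.inr ((r2_lt hch hB).le.trans (inf_le_Bd hch hB (mem_Bd.2 ⟨hQ, hg⟩)))
    · obtain ⟨Q, hQ⟩ := Gd_nonempty hch hB
      intro h
      have h1 := Gd_le_r2 hch hB hQ
      rw [h, le_bot_iff] at h1
      exact (hpg Q (mem_Gd.1 hQ).1).1 h1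
    · exact (hpg _ hm.1).2.to_le inf_le_left
  · intro s hs hr
    rw [F2, Finset.mem_filter] at hs
    obtain ⟨-, ⟨hch, hpg, hzs⟩, hB⟩ := hs
    refine ⟨?_, r2_erase hch hpg hB hr⟩
    rw [F2, Finset.mem_filter]
    refine ⟨Finset.mem_univ _, ⟨hch.mono (Finset.erase_subset _ _), hpg.mono (Finset.erase_subset _ _), ?_⟩,
      by rw [(Bd_erase hch hpg hB hr).1]; exact hB⟩
    rw [mem_Ns] at hzs ⊢
    exact fun Q hQ => hzs Q (Finset.mem_of_mem_erase hQ)

end nonnormal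

section main

variable [Finite G] {p : ℕ}

/-- normal chains -/
def Nm (p : ℕ) (s : Finset (Subgroup G)) : Prop :=
  s.Nonempty ∧ (∀ Q ∈ s, ∀ R ∈ s, Q ≤ R ∨ R ≤ Q) ∧ (∀ Q ∈ s, Q ≠ ⊥ ∧ IsPGroup p Q) ∧
    ∃ T ∈ s, ∀ Q ∈ s, Q ≤ T ∧ T ≤ Subgroup.normalizer ((Q : Subgroup G) : Set G)

theorem nm_iff {s : Finset (Subgroup G)} (hs : Ch s) (hp : Pg p s) (hne : s.Nonempty) :
    Nm p s ↔ ¬ (Bd s).Nonempty := by
  constructor
  · rintro ⟨-, -, -, T, hT, h⟩ ⟨Q, hQ⟩
    rw [mem_Bd] at hQ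
    apply hQ.2
    rw [mem_Gd]
    exact ⟨hQ.1, fun Q' hQ' _ => (h Q hQ.1).1.trans (h Q' hQ').2⟩
  · intro h
    refine ⟨hne, hs, hp, ?_⟩
    rcases sup_mem_chain s hs with h1 | h1
    · rw [h1] at hne; exact absurd hne (by simp)
    · refine ⟨_, h1, fun Q hQ => ?_⟩
      have h2 : Q ≤ s.sup id := Finset.le_sup (f := id) hQ
      refine ⟨h2, ?_⟩
      have h3 : s.sup id ∈ Gd s := by
        by_contra h3
        exact h ⟨_, mem_Bd.2 ⟨h1, h3⟩⟩
      exact (mem_Gd.1 h3).2 Q hQ h2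

theorem main [Fintype (Subgroup G)] [Fact p.Prime] {z : G} (hz : z ≠ 1) (hzp : IsPGroup p (Subgroup.zpowers z))
    (Φ : Subgroup G → ℤ) :
    ∑ s ∈ Finset.univ.filter (fun s : Finset (Subgroup G) => Nm p s ∧ z ∈ Ns s),
      (-1 : ℤ) ^ (s.card - 1) * Φ (Subgroup.centralizer ({z} : Set G) ⊓ Ns s) =
      Φ (Subgroup.centralizer ({z} : Set G)) := by
  have h1 := sum_all hz hzp Φ
  have h2 := sum_nonnormal (p := p) z (fun K => Φ (Subgroup.centralizer ({z} : Set G) ⊓ K))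
  have h3 : F1 p z = F2 p z ∪ ({∅} ∪ Finset.univ.filter (fun s : Finset (Subgroup G) => Nm p s ∧ z ∈ Ns s)) := by
    ext s
    rw [F1, F2, Finset.mem_filter, Finset.mem_union, Finset.mem_filter, Finset.mem_union, Finset.mem_singleton,
      Finset.mem_filter]
    simp only [Finset.mem_univ, true_and]
    constructor
    · intro h
      by_cases hB : (Bd s).Nonempty
      · exact Or.inl ⟨h, hB⟩
      · right
        rcases s.eq_empty_or_nonempty with h4 | h4
        · exact Or.inl h4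
        · exact Or.inr ⟨(nm_iff h.1 h.2.1 h4).2 hB, h.2.2⟩
    · rintro (h | rfl | h)
      · exact h.1
      · refine ⟨fun Q hQ => absurd hQ (by simp), fun Q hQ => absurd hQ (by simp), ?_⟩
        rw [Ns_empty]; exact Subgroup.mem_top _
      · exact ⟨h.1.2.1, h.1.2.2.1, h.2⟩
  rw [h3, Finset.sum_union, h2, zero_add, Finset.sum_union, Finset.sum_singleton] at h1
  · rw [Ns_empty, inf_top_eq, Finset.card_empty, pow_zero, one_mul] at h1
    have h4 : ∑ s ∈ Finset.univ.filter (fun s : Finset (Subgroup G) => Nm p s ∧ z ∈ Ns s),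
        (-1 : ℤ) ^ (s.card - 1) * Φ (Subgroup.centralizer ({z} : Set G) ⊓ Ns s) =
        - ∑ s ∈ Finset.univ.filter (fun s : Finset (Subgroup G) => Nm p s ∧ z ∈ Ns s),
        (-1 : ℤ) ^ s.card * Φ (Subgroup.centralizer ({z} : Set G) ⊓ Ns s) := by
      rw [← Finset.sum_neg_distrib]
      refine Finset.sum_congr rfl fun s hs => ?_
      have h5 : 0 < s.card := Finset.card_pos.2 (Finset.mem_filter.1 hs).2.1.1
      obtain ⟨n, hn⟩ : ∃ n, s.card = n + 1 := ⟨s.card - 1, by omega⟩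
      rw [hn, Nat.add_sub_cancel]
      ring
    rw [h4]
    linarith
  · rw [Finset.disjoint_singleton_left, Finset.mem_filter]
    rintro ⟨-, h, -⟩
    exact absurd h.1 (by simp)
  · rw [Finset.disjoint_left]
    intro s hs hs'
    rw [F2, Finset.mem_filter] at hs
    rw [Finset.mem_union, Finset.mem_singleton, Finset.mem_filter] at hs'
    rcases hs' with rfl | hs'
    · obtain ⟨Q, hQ⟩ := hs.2.2
      exact absurd (mem_Bd.1 hQ).1 (by simp)
    · exact (nm_iff hs.2.1.1 hs.2.1.2.1 hs'.2.1.1).1 hs'.2.1 hs.2.2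

end main

end Cfsg.Agent.Lib.H16KR2
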