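import Cfsg.Agent.Lib.H64LN

/-! S3105, second half of piece BC (helper32): the case `C_P(z) = Z` -/

set_option autoImplicit false
set_option linter.all false

namespace Cfsg.Agent.Lib.H32BCZ

open Subgroup Cfsg Cfsg.Agent.Lib.H64L Cfsg.Agent.Lib.SectRank Cfsg.Agent.Lib.H50Five

universe u v
variable {Y : Type u} {L : Type v} [Group Y] [Group L]

theorem ind_swap : ∀ t : M3 × M3 × M3, Ind3 t → Ind3 (t.1, t.2.2, t.2.1 + t.2.2) := by decide +kernel
theorem ind_third : ∀ u v : M3, (¬ u = 0 ∧ ¬ v = 0 ∧ ¬ u + v = 0) → ∃ w : M3, Ind3 (u, v, w) := by decide +kernel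
theorem ind_fix : ∀ t : M3 × M3 × M3, Ind3 t → ∀ i j k : Fin 2,
    (i : ℕ) • t.1 + (j : ℕ) • t.2.2 + (k : ℕ) • (t.2.1 + t.2.2) = (i : ℕ) • t.1 + (j : ℕ) • t.2.1 + (k : ℕ) • t.2.2 →
    j = 0 ∧ k = 0 := by decide +kernel

/-- third vector of a basis -/
theorem third [Finite Y] {π : Y →* L} {K W : Subgroup Y} (N : Nat8 π K W) {a b : Y} (ha : a ∈ W) (hb : b ∈ W)
    (h1 : a ∉ K) (h2 : b ∉ K) (h3 : a * b ∉ K) : ∃ c ∈ W, Ind K a b c := by
  obtain ⟨κ, hκs, hκ⟩ := N.coord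
  have hn : ∀ x : W, (x : Y) ∉ K → ¬ Multiplicative.toAdd (κ x) = 0 := by
    intro x hx h0
    exact hx ((hκ x).1 h0)
  obtain ⟨w, hw⟩ := ind_third (Multiplicative.toAdd (κ ⟨a, ha⟩)) (Multiplicative.toAdd (κ ⟨b, hb⟩))
    ⟨hn ⟨a, ha⟩ h1, hn ⟨b, hb⟩ h2, by
      rw [← toAdd_mul, ← map_mul]
      exact hn (⟨a, ha⟩ * ⟨b, hb⟩) h3⟩
  obtain ⟨c, hc⟩ := hκs (Multiplicative.ofAdd w)
  refine ⟨c, c.2, ?_⟩
  have := (ind_iff hκ (⟨a, ha⟩ : W) ⟨b, hb⟩ c).2 (by rw [hc]; exact hw)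
  exact this

/-- an element fixing `u` and acting without further fixed points on `W / K` -/
theorem exists_g [Finite Y] (hL : IsL L) {π : Y →* L} (hs : Function.Surjective π) {K W : Subgroup Y}
    (N : Nat8 π K W) {u : Y} (hu : u ∈ W) (h : u ∉ K) : ∃ g : Y, g * u * g⁻¹ * u⁻¹ ∈ K ∧
      ∀ w ∈ W, g ^ 4 * w * (g ^ 4)⁻¹ * w⁻¹ ∈ K → w ∈ K ∨ w * u⁻¹ ∈ K := by
  haveI := N.nW
  haveI := N.nK
  obtain ⟨p, hp, r, hr, hind⟩ := N.exists_ind hu h
  obtain ⟨κ, hκs, hκ⟩ := N.coord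
  let U : W := ⟨u, hu⟩
  let P : W := ⟨p, hp⟩
  let R : W := ⟨r, hr⟩
  have hi3 := (ind_iff hκ U P R).1 hind
  have hind' : Ind K (U : Y) R (P * R : W) := by
    rw [ind_iff hκ, map_mul, toAdd_mul]
    exact ind_swap _ hi3
  obtain ⟨g, h1, h2, h3⟩ := N.trans hL hs hu hp hr hu hr (P * R).2 hind hind'
  refine ⟨g, h1, ?_⟩
  have hκeq : ∀ x y : W, κ x = κ y ↔ (x : Y) * (y : Y)⁻¹ ∈ K := by
    intro x y
    rw [← mul_inv_eq_one, ← map_inv, ← map_mul, hκ]; rfl
  let c : MulAut W := MulAut.conjNormal g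
  have hc : ∀ (m : ℕ) (x : W), (((c ^ m) x : W) : Y) = g ^ m * x * (g ^ m)⁻¹ := by
    intro m x
    show ((((MulAut.conjNormal g : MulAut W)) ^ m) x : Y) = _
    rw [← map_pow]
    exact MulAut.conjNormal_apply _ _
  have hcK : ∀ (m : ℕ) (x : W), (x : Y) ∈ K → κ ((c ^ m) x) = 1 := by
    intro m x hx
    rw [hκ, hc]
    exact N.nK.conj_mem _ hx _
  have e1 : κ (c U) = κ U := by
    rw [hκeq]
    have := hc 1 U
    rw [pow_one, pow_one] at this
    rw [this]; exact h1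
  have e2 : κ (c P) = κ R := by
    rw [hκeq]
    have := hc 1 P
    rw [pow_one, pow_one] at this
    rw [this]; exact h2
  have e3 : κ (c R) = κ P * κ R := by
    rw [← map_mul, hκeq]
    have := hc 1 R
    rw [pow_one, pow_one] at this
    rw [this]; exact h3
  have hsame : ∀ x y : W, κ x = κ y → κ (c x) = κ (c y) := by
    intro x y hxy
    have h5 : κ (c (x * y⁻¹)) = 1 := by
      have := hcK 1 (x * y⁻¹) (by rw [hκeq] at hxy; exact hxy)
      rwa [pow_one] at this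
    rw [map_mul, map_mul, map_inv, map_inv, mul_inv_eq_one] at h5
    exact h5
  have hM3 : ∀ m : Multiplicative M3, m * m = 1 := by
    intro m
    have : ∀ m : M3, m + m = 0 := by decide +kernel
    exact this m
  -- cube
  have hcube : ∀ x : W, κ ((c ^ 3) x) = κ x := by
    have e1' : κ ((c ^ 3) U) = κ U := by
      show κ (c (c (c U))) = κ U
      rw [hsame _ _ (hsame _ _ e1), hsame _ _ e1, e1]
    have e2' : κ ((c ^ 3) P) = κ P := by
      show κ (c (c (c P))) = κ P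
      rw [hsame _ _ (hsame _ _ e2), hsame _ (P * R) (by rw [e3, map_mul]), map_mul, map_mul, e2, e3]
      rw [mul_comm (κ P), ← mul_assoc, hM3, one_mul]
    have e3' : κ ((c ^ 3) R) = κ R := by
      show κ (c (c (c R))) = κ R
      rw [hsame (c (c R)) P (by
        rw [hsame (c R) (P * R) (by rw [e3, map_mul]), map_mul, map_mul, e2, e3, mul_comm (κ P), ← mul_assoc, hM3, one_mul]), e2]
    intro x
    exact hom_ext3 hκ (a := U) (b := P) (c := R) hind (κ.comp (c ^ 3 : MulAut W).toMonoidHom) κ (fun z hz => hcK 3 z hz)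
      (fun z hz => (hκ z).2 hz) e1' e2' e3' x
  intro w hw hfix
  let Wt : W := ⟨w, hw⟩
  have h5 : κ (c Wt) = κ Wt := by
    have h6 : κ ((c ^ 4) Wt) = κ Wt := by
      rw [hκeq, hc]; exact hfix
    have h7 : κ ((c ^ 4) Wt) = κ (c Wt) := by
      show κ ((c ^ 3) (c Wt)) = κ (c Wt)
      exact hcube _
    rw [← h7, h6]
  obtain ⟨i, j, k, hijk⟩ := span3 _ hi3 (Multiplicative.toAdd (κ Wt))
  have hw' : κ Wt = κ U ^ (i : ℕ) * κ P ^ (j : ℕ) * κ R ^ (k : ℕ) := by
    apply Multiplicative.toAdd.injective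
    rw [hijk]; simp only [toAdd_mul, toAdd_pow]
  have h8 : κ (c Wt) = κ U ^ (i : ℕ) * κ R ^ (j : ℕ) * (κ P * κ R) ^ (k : ℕ) := by
    rw [hsame Wt (U ^ (i : ℕ) * P ^ (j : ℕ) * R ^ (k : ℕ)) (by rw [hw']; simp only [map_mul, map_pow])]
    simp only [map_mul, map_pow, e1, e2, e3]
  rw [h8, hw'] at h5
  have h9 := congrArg Multiplicative.toAdd h5
  simp only [toAdd_mul, toAdd_pow] at h9
  obtain ⟨hj, hk⟩ := ind_fix _ hi3 i j k h9
  rw [hj, hk] at hw'
  simp only [Fin.val_zero, pow_zero, mul_one] at hw'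
  have hi : i = 0 ∨ i = 1 := by
    have hi' : ∀ i : Fin 2, i = 0 ∨ i = 1 := by decide
    exact hi' i
  rcases hi with hi | hi
  · left
    rw [hi] at hw'
    simp only [Fin.val_zero, pow_zero] at hw'
    exact (hκ Wt).1 hw'
  · right
    rw [hi] at hw'
    simp only [Fin.val_one, pow_one] at hw'
    exact (hκeq Wt U).1 hw'

/-- subgroup from a set of coset representatives -/
theorem mk_sub [Finite Y] {P M Z : Subgroup Y} (hMZ : M ≤ Z) (hZP : Z ≤ P) (hcM : ∀ m ∈ M, ∀ x ∈ P, m * x = x * m)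
    (hsq : ∀ x ∈ P, x * x ∈ M) {z : Y} (hz : z ∈ Z) (hzz : z * z = 1) (hzM : z ∉ M)
    (hZM : ∀ x ∈ Z, x ∈ M ∨ x * z ∈ M)
    (A : Y → Prop) (h1 : ∀ u, A u → u ∈ P ∧ u ∉ Z) (h2 : ∀ u, A u → ∀ m ∈ M, A (u * m))
    (h3 : ∀ u v, A u → A v → u * v ∉ Z → A (u * v)) (h4 : ∀ u v, A u → A v → u * v ∈ Z → u * v ∈ M)
    (h5 : ∀ u ∈ P, u ∉ Z → A u ∨ A (u * z)) :
    ∃ X : Subgroup Y, (∀ x, x ∈ X ↔ x ∈ M ∨ A x) ∧ X ≤ P ∧ z ∉ X ∧ Nat.card P ≤ 2 * Nat.card X := by
  let X : Subgroup Y :=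
    { carrier := {x | x ∈ M ∨ A x}
      one_mem' := Or.inl (one_mem M)
      mul_mem' := by
        rintro a b (ha | ha) (hb | hb)
        · exact Or.inl (mul_mem ha hb)
        · right
          rw [hcM a ha b (h1 b hb).1]; exact h2 b hb a ha
        · right; exact h2 a ha b hb
        · by_cases h : a * b ∈ Z
          · left; exact h4 a b ha hb h
          · right; exact h3 a b ha hb h
      inv_mem' := by
        rintro a (ha | ha)
        · exact Or.inl (inv_mem ha)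
        · right
          have e : a⁻¹ = a * (a * a)⁻¹ := by group
          rw [e]; exact h2 a ha _ (inv_mem (hsq a (h1 a ha).1)) }
  have hX : ∀ x, x ∈ X ↔ x ∈ M ∨ A x := fun x => Iff.rfl
  have hXP : X ≤ P := by
    intro x hx
    rcases (hX x).1 hx with h | h
    · exact hZP (hMZ h)
    · exact (h1 x h).1
  have hcov : ∀ x ∈ P, x ∈ X ∨ x * z ∈ X := by
    intro x hx
    by_cases hxZ : x ∈ Z
    · rcases hZM x hxZ with h | h
      · exact Or.inl (Or.inl h)
      · exact Or.inr (Or.inl h)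
    · rcases h5 x hx hxZ with h | h
      · exact Or.inl (Or.inr h)
      · exact Or.inr (Or.inr h)
  refine ⟨X, hX, hXP, ?_, ?_⟩
  · intro h
    rcases (hX z).1 h with h | h
    · exact hzM h
    · exact (h1 z h).2 hz
  · classical
    let φ : P → X × Bool := fun p => if h : (p : Y) ∈ X then (⟨p, h⟩, true) else
      (⟨(p : Y) * z, (hcov p p.2).resolve_left h⟩, false)
    have hφ : Function.Injective φ := by
      intro p q hpq
      by_cases hp : (p : Y) ∈ X <;> by_cases hq : (q : Y) ∈ X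
      · simp only [φ, hp, hq, dif_pos, Prod.mk.injEq, and_true, Subtype.mk.injEq] at hpq
        exact Subtype.ext hpq
      · simp only [φ, hp, hq, dif_pos, dif_neg, not_false_iff, Prod.mk.injEq, and_false, Bool.true_eq_false] at hpq
      · simp only [φ, hp, hq, dif_pos, dif_neg, not_false_iff, Prod.mk.injEq, and_false, Bool.false_eq_true] at hpq
      · simp only [φ, hp, hq, dif_neg, not_false_iff, Prod.mk.injEq, and_true, Subtype.mk.injEq] at hpq
        exact Subtype.ext (mul_right_cancel hpq)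
    have h6 := Nat.card_le_card_of_injective φ hφ
    rw [Nat.card_prod] at h6
    have h7 : Nat.card Bool = 2 := by rw [Nat.card_eq_fintype_card]; rfl
    rw [h7] at h6
    omega

end Cfsg.Agent.Lib.H32BCZ

namespace Cfsg.Agent.Lib.H64L

open Subgroup Cfsg Cfsg.Agent.Lib.SectRank Cfsg.Agent.Lib.H50Five Cfsg.Agent.Lib.H32BCZ

universe u v
variable {Y : Type u} {L : Type v} [Group Y] [Group L]

theorem beta_case_Z [Finite Y] (hL : IsL L) {π : Y →* L} {M Z : Subgroup Y} (B : Beta π M) (N3 : Nat8 π Z π.ker)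
    (N2 : Nat8 π ⊥ M) (hMZ : M ≤ Z) (cZ : Nat.card Z = 16) (sqZ : ∀ x ∈ Z, x ^ 2 = 1)
    (hC : ∀ x ∈ π.ker, (∀ k ∈ Z, k * x = x * k) → x ∈ Z) :
    ∃ E : Subgroup Y, Homo E M ∧ E ≤ π.ker ∧ ∃ z ∈ π.ker, z ∉ E ∧ ∀ x ∈ E, z * x * z⁻¹ = x⁻¹ := by
  classical
  have hZP : Z ≤ π.ker := N3.le
  have hsqM : ∀ x ∈ π.ker, x * x ∈ M := by
    intro x hx
    rw [← B.sqP]
    exact subset_closure ⟨x, hx, (pow_two x).symm⟩
  have hcM := B.cent
  have hm2 : ∀ m ∈ M, m * m = 1 := fun m hm => by rw [← pow_two]; exact B.sqM m hm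
  have hz2 : ∀ x ∈ Z, x * x = 1 := fun m hm => by rw [← pow_two]; exact sqZ m hm
  have hZc : ∀ x ∈ Z, ∀ y ∈ Z, x * y = y * x := comm_of_sq sqZ
  obtain ⟨z, hz, hzM⟩ : ∃ z ∈ Z, z ∉ M := by
    by_contra hcon
    push Not at hcon
    have h1 : Nat.card Z ≤ Nat.card M := Nat.card_le_card_of_injective _ (Subgroup.inclusion_injective (K := M) (H := Z) hcon)
    rw [cZ, B.cM] at h1
    omega
  have hzP := hZP hz
  have hzz : z * z = 1 := hz2 z hz
  have hzi : z⁻¹ = z := inv_eq_of_mul_eq_one_left hzz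
  have hidx : (M.subgroupOf Z).index = 2 := by
    have h1 := Subgroup.card_mul_index (M.subgroupOf Z)
    rw [Nat.card_congr (Subgroup.subgroupOfEquivOfLe hMZ).toEquiv, B.cM, cZ] at h1
    omega
  have hZM : ∀ x ∈ Z, x ∈ M ∨ x * z ∈ M := by
    intro x hx
    by_cases h : x ∈ M
    · exact Or.inl h
    · right
      have h1 := (Subgroup.mul_mem_iff_of_index_two hidx (a := ⟨x, hx⟩) (b := ⟨z, hz⟩)).2 (by
        rw [mem_subgroupOf, mem_subgroupOf]
        exact ⟨fun h' => absurd h' h, fun h' => absurd h' hzM⟩)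
      exact h1
  let b : Y → Y := fun u => z * u * z⁻¹ * u⁻¹
  have hb : ∀ u, b u = z * u * z⁻¹ * u⁻¹ := fun u => rfl
  have hbM : ∀ u ∈ π.ker, b u ∈ M := by
    intro u hu
    have e : b u = (z * z) * (z⁻¹ * u * (z⁻¹ * u)) * (u * u)⁻¹ := by rw [hb]; group
    rw [e]
    exact mul_mem (mul_mem (hsqM z hzP) (hsqM _ (mul_mem (inv_mem hzP) hu))) (inv_mem (hsqM u hu))
  have hbmul : ∀ u ∈ π.ker, ∀ v ∈ π.ker, b (u * v) = b u * b v := by
    intro u hu v hv
    calc b (u * v) = (z * u * z⁻¹ * u⁻¹) * (u * (z * v * z⁻¹ * v⁻¹)) * u⁻¹ := by rw [hb]; group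
      _ = (z * u * z⁻¹ * u⁻¹) * ((z * v * z⁻¹ * v⁻¹) * u) * u⁻¹ := by rw [hcM _ (hbM v hv) u hu]
      _ = b u * b v := by rw [hb, hb]; group
  have hb1 : ∀ u ∈ π.ker, (b u = 1 ↔ u ∈ Z) := by
    intro u hu
    constructor
    · intro h
      have hzu : z * u = u * z := by
        rw [hb, mul_inv_eq_one, mul_inv_eq_iff_eq_mul] at h; exact h
      apply hC u hu
      intro k hk
      rcases hZM k hk with h1 | h1
      · exact hcM k h1 u hu
      · have e : k = k * z * z := by rw [mul_assoc, hzz, mul_one]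
        calc k * u = k * z * (z * u) := by rw [← mul_assoc, ← e]
          _ = (k * z) * u * z := by rw [hzu]; group
          _ = u * (k * z * z) := by rw [hcM _ h1 u hu]; group
          _ = u * k := by rw [← e]
    · intro h
      rw [hb, hZc z hz u h]; group
  have hgz : ∀ g : Y, ∀ s ∈ Z, g * s * g⁻¹ * s⁻¹ ∈ M := by
    intro g s hs
    by_cases h : s ∈ M
    · exact mul_mem (B.nM.conj_mem s h g) (inv_mem h)
    · have h1 : g * s * g⁻¹ ∈ Z := N3.nK.conj_mem s hs g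
      have h2 : g * s * g⁻¹ ∉ M := by
        intro h'
        apply h
        have := B.nM.conj_mem _ h' g⁻¹
        have e : g⁻¹ * (g * s * g⁻¹) * g⁻¹⁻¹ = s := by group
        rwa [e] at this
      have h3 := (Subgroup.mul_mem_iff_of_index_two hidx (a := ⟨g * s * g⁻¹, h1⟩) (b := (⟨s, hs⟩ : Z)⁻¹)).2 (by
        rw [mem_subgroupOf, mem_subgroupOf]
        refine ⟨fun h' => absurd h' h2, fun h' => absurd ?_ h⟩
        have := inv_mem h'
        simpa using this)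
      exact h3
  have hbconj : ∀ g : Y, ∀ u ∈ π.ker, g * b u * g⁻¹ = b (g * u * g⁻¹) := by
    intro g u hu
    have h1 := hgz g z hz
    have hu' : g * u * g⁻¹ ∈ π.ker := (MonoidHom.normal_ker π).conj_mem u hu g
    have e1 : g * z * g⁻¹ = (g * z * g⁻¹ * z⁻¹) * z := by group
    set m := g * z * g⁻¹ * z⁻¹ with hm
    have hmz : m * z = z * m := hcM m h1 z hzP
    have hmu : m * (g * u * g⁻¹) = (g * u * g⁻¹) * m := hcM m h1 _ hu'
    calc g * b u * g⁻¹ = (g * z * g⁻¹) * (g * u * g⁻¹) * (g * z * g⁻¹)⁻¹ * (g * u * g⁻¹)⁻¹ := by rw [hb]; group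
      _ = (z * m) * (g * u * g⁻¹) * (z * m)⁻¹ * (g * u * g⁻¹)⁻¹ := by rw [e1, hmz]
      _ = z * (m * (g * u * g⁻¹)) * m⁻¹ * z⁻¹ * (g * u * g⁻¹)⁻¹ := by group
      _ = z * ((g * u * g⁻¹) * m) * m⁻¹ * z⁻¹ * (g * u * g⁻¹)⁻¹ := by rw [hmu]
      _ = b (g * u * g⁻¹) := by rw [hb]; group
  -- a vector outside Z
  obtain ⟨u0, hu0, hu0Z⟩ : ∃ u ∈ π.ker, u ∉ Z := by
    obtain ⟨g, x, hx, hgx⟩ := N3.nt
    refine ⟨x, hx, fun h => hgx ?_⟩
    exact mul_mem (N3.nK.conj_mem x h g) (inv_mem h)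
  have hbs : ∀ m ∈ M, ∃ w ∈ π.ker, b w = m := by
    intro m hm
    by_cases h : m = 1
    · exact ⟨1, one_mem _, by rw [hb, h]; group⟩
    · have h1 : b u0 ∉ (⊥ : Subgroup Y) := by
        rw [mem_bot]; exact fun h' => hu0Z ((hb1 u0 hu0).1 h')
      obtain ⟨g, hg⟩ := N2.trans1 hL B.surj (hbM u0 hu0) hm h1 (by rw [mem_bot]; exact h)
      rw [mem_bot, mul_inv_eq_one] at hg
      exact ⟨g * u0 * g⁻¹, (MonoidHom.normal_ker π).conj_mem u0 hu0 g, by rw [← hbconj g u0 hu0, hg]⟩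
  have hkey : ∀ u ∈ π.ker, u ∉ Z → u * u = 1 ∨ u * u = b u := by
    intro u hu huZ
    obtain ⟨g, hg, hfix⟩ := exists_g hL B.surj N3 hu huZ
    obtain ⟨w, hw, hbw⟩ := hbs (u * u) (hsqM u hu)
    -- `g ^ 2` and `g ^ 4` fix `u M`
    have h2 : g ^ 2 * u * (g ^ 2)⁻¹ * u⁻¹ ∈ M := by
      set s := g * u * g⁻¹ * u⁻¹ with hsdef
      have e1 : g * u * g⁻¹ = s * u := by rw [hsdef]; group
      have e2 : g ^ 2 * u * (g ^ 2)⁻¹ * u⁻¹ = (g * s * g⁻¹ * s⁻¹) * (s * s) := by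
        calc g ^ 2 * u * (g ^ 2)⁻¹ * u⁻¹ = g * (g * u * g⁻¹) * g⁻¹ * u⁻¹ := by rw [pow_two]; group
          _ = g * (s * u) * g⁻¹ * u⁻¹ := by rw [e1]
          _ = (g * s * g⁻¹) * (g * u * g⁻¹) * u⁻¹ := by group
          _ = (g * s * g⁻¹) * (s * u) * u⁻¹ := by rw [e1]
          _ = (g * s * g⁻¹ * s⁻¹) * (s * s) := by group
      rw [e2, hz2 s hg, mul_one]
      exact hgz g s hg
    have h4 : g ^ 4 * u * (g ^ 4)⁻¹ * u⁻¹ ∈ M := by
      set s := g ^ 2 * u * (g ^ 2)⁻¹ * u⁻¹ with hsdef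
      have e1 : g ^ 2 * u * (g ^ 2)⁻¹ = s * u := by rw [hsdef]; group
      have e2 : g ^ 4 * u * (g ^ 4)⁻¹ * u⁻¹ = (g ^ 2 * s * (g ^ 2)⁻¹) * s := by
        calc g ^ 4 * u * (g ^ 4)⁻¹ * u⁻¹ = g ^ 2 * (g ^ 2 * u * (g ^ 2)⁻¹) * (g ^ 2)⁻¹ * u⁻¹ := by group
          _ = g ^ 2 * (s * u) * (g ^ 2)⁻¹ * u⁻¹ := by rw [e1]
          _ = (g ^ 2 * s * (g ^ 2)⁻¹) * (g ^ 2 * u * (g ^ 2)⁻¹) * u⁻¹ := by group
          _ = (g ^ 2 * s * (g ^ 2)⁻¹) * (s * u) * u⁻¹ := by rw [e1]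
          _ = (g ^ 2 * s * (g ^ 2)⁻¹) * s := by group
      rw [e2]
      exact mul_mem (B.nM.conj_mem s h2 _) h2
    set h := g ^ 4 with hh
    have h5 : h * (u * u) * h⁻¹ = u * u := by
      set m := h * u * h⁻¹ * u⁻¹ with hm
      have e1 : h * u * h⁻¹ = m * u := by rw [hm]; group
      calc h * (u * u) * h⁻¹ = (h * u * h⁻¹) * (h * u * h⁻¹) := by group
        _ = m * u * (m * u) := by rw [e1]
        _ = m * (u * m) * u := by group
        _ = m * (m * u) * u := by rw [hcM m h4 u hu]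
        _ = (m * m) * (u * u) := by group
        _ = u * u := by rw [hm2 m h4, one_mul]
    rw [← hbw, hbconj h w hw] at h5
    have hw' : h * w * h⁻¹ ∈ π.ker := (MonoidHom.normal_ker π).conj_mem w hw h
    have hbinv : b (w⁻¹) = (b w)⁻¹ := by
      have h6 := hbmul w hw w⁻¹ (inv_mem hw)
      rw [mul_inv_cancel] at h6
      have h7 : b 1 = 1 := by rw [hb]; group
      rw [h7] at h6
      exact eq_inv_of_mul_eq_one_right h6.symm
    have h6 : b (h * w * h⁻¹ * w⁻¹) = 1 := by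
      rw [hbmul _ hw' _ (inv_mem hw), hbinv, h5, mul_inv_cancel]
    have h7 := (hb1 _ (mul_mem hw' (inv_mem hw))).1 h6
    rcases hfix w hw h7 with h8 | h8
    · left; rw [← hbw]; exact (hb1 w hw).2 h8
    · right
      rw [← hbw]
      have e : w = (w * u⁻¹) * u := by group
      rw [e, hbmul _ (hZP h8) u hu, (hb1 _ (hZP h8)).2 h8, one_mul]
  have hbb : ∀ u ∈ π.ker, b u * b u = 1 := fun u hu => hm2 _ (hbM u hu)
  have hzuz : ∀ u ∈ π.ker, z * u * z = b u * u := by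
    intro u hu
    have : b u * u = z * u * z⁻¹ := by rw [hb]; group
    rw [this, hzi]
  have hsz : ∀ u ∈ π.ker, (u * z) * (u * z) = b u * (u * u) := by
    intro u hu
    calc (u * z) * (u * z) = u * (z * u * z) := by group
      _ = u * (b u * u) := by rw [hzuz u hu]
      _ = (u * b u) * u := by group
      _ = (b u * u) * u := by rw [← hcM _ (hbM u hu) u hu]
      _ = b u * (u * u) := by group
  have hsm : ∀ u ∈ π.ker, ∀ m ∈ M, (u * m) * (u * m) = u * u := by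
    intro u hu m hm
    calc (u * m) * (u * m) = u * (m * u) * m := by group
      _ = u * (u * m) * m := by rw [hcM m hm u hu]
      _ = u * u * (m * m) := by group
      _ = u * u := by rw [hm2 m hm, mul_one]
  have hbm' : ∀ u ∈ π.ker, ∀ s ∈ Z, b (u * s) = b u := by
    intro u hu s hs
    rw [hbmul u hu s (hZP hs), (hb1 s (hZP hs)).2 hs, mul_one]
  have hnZ : ∀ u s : Y, u ∉ Z → s ∈ Z → u * s ∉ Z := by
    intro u s hu hs h
    apply hu
    have := mul_mem h (inv_mem hs)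
    rwa [mul_inv_cancel_right] at this
  let F : Y → Prop := fun u => u ∈ π.ker ∧ u ∉ Z ∧ u * u = 1
  let E : Y → Prop := fun u => u ∈ π.ker ∧ u ∉ Z ∧ u * u = b u
  have hbne : ∀ u ∈ π.ker, u ∉ Z → b u ≠ 1 := fun u hu h h' => h ((hb1 u hu).1 h')
  have hFM : ∀ u, F u → ∀ m ∈ M, F (u * m) := by
    rintro u ⟨h1, h2, h3⟩ m hm
    exact ⟨mul_mem h1 (hZP (hMZ hm)), hnZ u m h2 (hMZ hm), by rw [hsm u h1 m hm, h3]⟩
  have hEM : ∀ u, E u → ∀ m ∈ M, E (u * m) := by
    rintro u ⟨h1, h2, h3⟩ m hm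
    exact ⟨mul_mem h1 (hZP (hMZ hm)), hnZ u m h2 (hMZ hm), by rw [hsm u h1 m hm, h3, hbm' u h1 m (hMZ hm)]⟩
  -- decomposition of an element of Z
  have hZd : ∀ s ∈ Z, s ∉ M → ∃ m ∈ M, s = z * m := by
    intro s hs hsM
    have h1 := (hZM s hs).resolve_left hsM
    refine ⟨s * z, h1, ?_⟩
    rw [hZc s hs z hz, ← mul_assoc, hzz, one_mul]
  have hFu : ∀ u s, F u → s ∈ Z → F (u * s) → s ∈ M := by
    rintro u s ⟨h1, h2, h3⟩ hs ⟨h4, h5, h6⟩
    by_contra hsM
    obtain ⟨m, hm, rfl⟩ := hZd s hs hsM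
    have e : u * (z * m) * (u * (z * m)) = u * z * m * (u * z * m) := by group
    rw [e, hsm (u * z) (mul_mem h1 hzP) m hm, hsz u h1, h3, mul_one] at h6
    exact hbne u h1 h2 h6
  have hEu : ∀ u s, E u → s ∈ Z → E (u * s) → s ∈ M := by
    rintro u s ⟨h1, h2, h3⟩ hs ⟨h4, h5, h6⟩
    by_contra hsM
    obtain ⟨m, hm, rfl⟩ := hZd s hs hsM
    have e : u * (z * m) * (u * (z * m)) = u * z * m * (u * z * m) := by group
    rw [e, hsm (u * z) (mul_mem h1 hzP) m hm, hsz u h1, h3, hbb u h1, hbm' u h1 _ hs] at h6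
    exact hbne u h1 h2 h6.symm
  have hFz : ∀ u, E u → F (u * z) := by
    rintro u ⟨h1, h2, h3⟩
    exact ⟨mul_mem h1 hzP, hnZ u z h2 hz, by rw [hsz u h1, h3, hbb u h1]⟩
  have hEz : ∀ u, F u → E (u * z) := by
    rintro u ⟨h1, h2, h3⟩
    exact ⟨mul_mem h1 hzP, hnZ u z h2 hz, by rw [hsz u h1, h3, mul_one, hbm' u h1 z hz]⟩
  have hFE : ∀ u ∈ π.ker, u ∉ Z → F u ∨ E u := by
    intro u hu huZ
    rcases hkey u hu huZ with h | h
    · exact Or.inl ⟨hu, huZ, h⟩
    · exact Or.inr ⟨hu, huZ, h⟩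
  have hFconj : ∀ (g : Y) u, F u → F (g * u * g⁻¹) := by
    rintro g u ⟨h1, h2, h3⟩
    refine ⟨(MonoidHom.normal_ker π).conj_mem u h1 g, ?_, ?_⟩
    · intro h
      apply h2
      have := N3.nK.conj_mem _ h g⁻¹
      have e : g⁻¹ * (g * u * g⁻¹) * g⁻¹⁻¹ = u := by group
      rwa [e] at this
    · calc g * u * g⁻¹ * (g * u * g⁻¹) = g * (u * u) * g⁻¹ := by group
        _ = 1 := by rw [h3]; group
  have hEconj : ∀ (g : Y) u, E u → E (g * u * g⁻¹) := by
    rintro g u ⟨h1, h2, h3⟩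
    refine ⟨(MonoidHom.normal_ker π).conj_mem u h1 g, ?_, ?_⟩
    · intro h
      apply h2
      have := N3.nK.conj_mem _ h g⁻¹
      have e : g⁻¹ * (g * u * g⁻¹) * g⁻¹⁻¹ = u := by group
      rwa [e] at this
    · rw [← hbconj g u h1, ← h3]; group
  -- constancy
  have hconst : ∀ u v u' v', F u → F v → u * v ∉ Z → F u' → F v' → u' * v' ∉ Z → F (u * v) → F (u' * v') := by
    intro u v u' v' hu hv huv hu' hv' huv' h
    obtain ⟨c, hc, hi⟩ := third N3 hu.1 hv.1 hu.2.1 hv.2.1 huv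
    obtain ⟨c', hc', hi'⟩ := third N3 hu'.1 hv'.1 hu'.2.1 hv'.2.1 huv'
    obtain ⟨g, h1, h2, -⟩ := N3.trans hL B.surj hu.1 hv.1 hc hu'.1 hv'.1 hc' hi hi'
    have key : ∀ x x', F x → F x' → g * x * g⁻¹ * x'⁻¹ ∈ Z → ∃ m ∈ M, g * x * g⁻¹ = x' * m := by
      intro x x' hx hx' hxx
      have hs : x'⁻¹ * (g * x * g⁻¹) ∈ Z := by
        have := N3.nK.conj_mem _ hxx x'⁻¹
        have e : x'⁻¹ * (g * x * g⁻¹ * x'⁻¹) * x'⁻¹⁻¹ = x'⁻¹ * (g * x * g⁻¹) := by group
        rwa [e] at this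
      refine ⟨_, hFu x' _ hx' hs ?_, by group⟩
      rw [mul_inv_cancel_left]; exact hFconj g x hx
    obtain ⟨m1, hm1, e1⟩ := key u u' hu hu' h1
    obtain ⟨m2, hm2, e2⟩ := key v v' hv hv' h2
    have e3 : g * (u * v) * g⁻¹ = u' * v' * (m1 * m2) := by
      calc g * (u * v) * g⁻¹ = (g * u * g⁻¹) * (g * v * g⁻¹) := by group
        _ = u' * m1 * (v' * m2) := by rw [e1, e2]
        _ = u' * (m1 * v') * m2 := by group
        _ = u' * (v' * m1) * m2 := by rw [hcM m1 hm1 v' hv'.1]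
        _ = u' * v' * (m1 * m2) := by group
    have h5 := hFconj g _ h
    rw [e3] at h5
    have h6 := hFM _ h5 _ (inv_mem (mul_mem hm1 hm2))
    rwa [mul_inv_cancel_right] at h6
  have hcP : Nat.card π.ker = 128 := B.cP
  by_cases hI : ∃ u v, F u ∧ F v ∧ u * v ∉ Z ∧ F (u * v)
  · exfalso
    obtain ⟨u, v, hu, hv, huv, h⟩ := hI
    obtain ⟨X, hX, hXP, hzX, hXc⟩ := mk_sub hMZ hZP hcM hsqM hz hzz hzM hZM F (fun u hu => ⟨hu.1, hu.2.1⟩) hFM
      (fun u' v' hu' hv' huv' => hconst u v u' v' hu hv huv hu' hv' huv' h)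
      (fun u' v' hu' hv' huv' => by
        have hui : u'⁻¹ = u' := inv_eq_of_mul_eq_one_left hu'.2.2
        have e : u' * (u' * v') = v' := by rw [← mul_assoc, hu'.2.2, one_mul]
        exact hFu u' (u' * v') hu' huv' (by rw [e]; exact hv'))
      (fun u' hu' hu'Z => by
        rcases hFE u' hu' hu'Z with h | h
        · exact Or.inl h
        · exact Or.inr (hFz u' h))
    have h1 := card_le_of_exp B.rank (K := X) (by
      intro x hx
      rcases (hX x).1 hx with h | h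
      · exact B.sqM x h
      · rw [pow_two]; exact h.2.2)
    omega
  · push Not at hI
    obtain ⟨X, hX, hXP, hzX, hXc⟩ := mk_sub hMZ hZP hcM hsqM hz hzz hzM hZM E (fun u hu => ⟨hu.1, hu.2.1⟩) hEM
      (fun u v hu hv huv => by
        have h1 := hFz u hu
        have h2 := hFz v hv
        have e : u * z * (v * z) = u * v * b v := by
          calc u * z * (v * z) = u * (z * v * z) := by group
            _ = u * (b v * v) := by rw [hzuz v hv.1]
            _ = u * (v * b v) := by rw [hcM _ (hbM v hv.1) v hv.1]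
            _ = u * v * b v := by group
        have h3 : u * z * (v * z) ∉ Z := by
          rw [e]; exact hnZ _ _ huv (hMZ (hbM v hv.1))
        have h4 : E (u * z * (v * z)) := (hFE _ (mul_mem h1.1 h2.1) h3).resolve_left (hI _ _ h1 h2 h3)
        rw [e] at h4
        have h5 := hEM _ h4 _ (inv_mem (hbM v hv.1))
        rwa [mul_inv_cancel_right] at h5)
      (fun u v hu hv huv => by
        have hm : (u * u)⁻¹ ∈ M := inv_mem (hsqM u hu.1)
        have e : u * ((u * u)⁻¹ * (u * v)) = v := by group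
        have h1 := hEu u ((u * u)⁻¹ * (u * v)) hu (mul_mem (hMZ hm) huv) (by rw [e]; exact hv)
        have h2 := mul_mem (hsqM u hu.1) h1
        rwa [mul_inv_cancel_left] at h2)
      (fun u hu huZ => by
        rcases hFE u hu huZ with h | h
        · exact Or.inr (hEz u h)
        · exact Or.inl h)
    have hbX : ∀ x ∈ X, x * x = b x := by
      intro x hx
      rcases (hX x).1 hx with h | h
      · rw [hm2 x h, (hb1 x (hXP hx)).2 (hMZ h)]
      · exact h.2.2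
    have hcX : Nat.card X = 64 := by
      have h1 : Nat.card X ∣ 128 := by rw [← hcP]; exact Subgroup.card_dvd_of_le hXP
      have h2 : Nat.card X ≠ 128 := by
        intro h
        apply hzX
        have : X = π.ker := Subgroup.eq_of_le_of_card_ge hXP (by rw [hcP, h])
        rw [this]; exact hzP
      have h3 : 64 ≤ Nat.card X := by omega
      obtain ⟨k, hk⟩ := h1
      have hk2 : k < 3 := by
        by_contra hk3
        have : 64 * 3 ≤ Nat.card X * k := Nat.mul_le_mul h3 (by omega)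
        omega
      interval_cases k
      · omega
      · omega
      · omega
    refine ⟨X, ⟨⟨?_⟩, B.nM, fun m hm => (hX m).2 (Or.inl hm), ?_, hcX, B.cM, ?_, B.sqM, ?_⟩, hXP, z, hzP, hzX, ?_⟩
    · intro x hx g
      rcases (hX x).1 hx with h | h
      · exact (hX _).2 (Or.inl (B.nM.conj_mem x h g))
      · exact (hX _).2 (Or.inr (hEconj g x h))
    · intro x hx y hy
      have h1 := hbX (x * y) (mul_mem hx hy)
      rw [hbmul x (hXP hx) y (hXP hy), ← hbX x hx, ← hbX y hy] at h1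
      have h2 : x * (y * x) * y = x * (x * y) * y := by
        calc x * (y * x) * y = x * y * (x * y) := by group
          _ = x * x * (y * y) := h1
          _ = x * (x * y) * y := by group
      exact (mul_left_cancel (mul_right_cancel h2)).symm
    · intro x hx
      rw [pow_two]; exact hsqM x (hXP hx)
    · intro x hx hx2
      rcases (hX x).1 hx with h | h
      · exact h
      · exfalso
        rw [pow_two, h.2.2] at hx2
        exact hbne x h.1 h.2.1 hx2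
    · intro x hx
      have h1 : z * x * z⁻¹ = b x * x := by rw [hb]; group
      rw [h1, ← hbX x hx]
      have h2 := hm2 _ (hsqM x (hXP hx))
      rw [eq_inv_iff_mul_eq_one, mul_assoc]; exact h2

end Cfsg.Agent.Lib.H64L
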