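import Mathlib
import Cfsg.Agent.Lib.SectRank
import Cfsg.Agent.Lib.PConstraint
import Cfsg.Agent.Lib.CoprimeAction2
import Cfsg.Agent.Lib.H70Frattini

/-! Basic facts for S3106: 2-groups of sectional rank at most 4 with `A_5` on top (helper50). -/

set_option autoImplicit false

namespace Cfsg.Agent.Lib.H50Five

open Subgroup Cfsg Cfsg.Agent.Lib.SectRank

universe u

variable {G : Type u} [Group G]

/-- the subgroup generated by the squares -/
def sq (P : Subgroup G) : Subgroup G := closure {y | ∃ x ∈ P, y = x ^ 2}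

theorem sq_mem {P : Subgroup G} {x : G} (hx : x ∈ P) : x ^ 2 ∈ sq P := subset_closure ⟨x, hx, rfl⟩

theorem sq_le_iff {P N : Subgroup G} : sq P ≤ N ↔ ∀ x ∈ P, x ^ 2 ∈ N := by
  unfold sq
  rw [closure_le]
  constructor
  · intro h x hx
    exact h ⟨x, hx, rfl⟩
  · rintro h _ ⟨x, hx, rfl⟩
    exact h x hx

theorem sq_le (P : Subgroup G) : sq P ≤ P := sq_le_iff.mpr fun _ hx => pow_mem hx 2

theorem comm_mem {P : Subgroup G} {x y : G} (hx : x ∈ P) (hy : y ∈ P) : x * y * x⁻¹ * y⁻¹ ∈ sq P := by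
  have h : x * y * x⁻¹ * y⁻¹ = x ^ 2 * (x⁻¹ * y) ^ 2 * (y⁻¹) ^ 2 := by simp only [pow_two]; group
  rw [h]
  exact mul_mem (mul_mem (sq_mem hx) (sq_mem (mul_mem (inv_mem hx) hy))) (sq_mem (inv_mem hy))

theorem sq_normal {P : Subgroup G} (hP : P.Normal) : (sq P).Normal := by
  constructor
  intro n hn g
  have h : sq P ≤ (sq P).comap (MulAut.conj g).toMonoidHom := by
    rw [sq_le_iff]
    intro x hx
    rw [mem_comap]
    have : (MulAut.conj g).toMonoidHom (x ^ 2) = (g * x * g⁻¹) ^ 2 := by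
      change g * x ^ 2 * g⁻¹ = _
      simp only [pow_two]; group
    rw [this]
    exact sq_mem (hP.conj_mem x hx g)
  exact h hn

theorem sq_map {H : Type*} [Group H] (f : G →* H) (P : Subgroup G) : (sq P).map f = sq (P.map f) := by
  unfold sq
  rw [MonoidHom.map_closure]
  congr 1
  ext y
  constructor
  · rintro ⟨_, ⟨x, hx, rfl⟩, rfl⟩
    exact ⟨f x, mem_map_of_mem f hx, map_pow f x 2⟩
  · rintro ⟨_, ⟨x, hx, rfl⟩, rfl⟩
    exact ⟨x ^ 2, ⟨x, hx, rfl⟩, map_pow f x 2⟩

theorem sq_le_frattini [Finite G] {P : Subgroup G} (hP : IsPGroup 2 P) : sq P ≤ (frattini P).map P.subtype := by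
  rw [sq_le_iff]
  intro x hx
  exact ⟨⟨x, hx⟩ ^ 2, H70Frattini.pow_mem_frattini hP _, rfl⟩

/-- Burnside: an element of odd order acting trivially on `P / ℧(P)` centralizes `P`. -/
theorem centralizes_of_sq [Finite G] {P : Subgroup G} [hn : P.Normal] (hP : IsPGroup 2 P) {g : G}
    (hg : Nat.Coprime (orderOf g) 2) (h : ∀ x ∈ P, g * x * g⁻¹ * x⁻¹ ∈ sq P) : ∀ x ∈ P, g * x = x * g := by
  have hN := sq_normal hn
  have h1 : zpowers g ≤ centralizer (P : Set G) := by
    apply CoprimeAction2.le_centralizer_of_frattini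
    · rw [normalizer_eq_top]; exact le_top
    · rw [Nat.card_zpowers]
      obtain ⟨c, hc⟩ := IsPGroup.iff_card.mp (hP.to_subgroup (frattini P))
      rw [hc]
      exact hg.pow_right c
    · intro a ha k hk
      apply sq_le_frattini hP
      -- the set of `a` with this property is a subgroup
      have hcl : ∀ a ∈ zpowers g, ∀ k ∈ P, a * k * a⁻¹ * k⁻¹ ∈ sq P := by
        intro a ha
        rw [zpowers_eq_closure] at ha
        induction ha using closure_induction with
        | mem x hx =>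
          rw [Set.mem_singleton_iff] at hx
          rw [hx]; exact h
        | one => intro k hk; simp
        | mul x y _ _ hx hy =>
          intro k hk
          have e : x * y * k * (x * y)⁻¹ * k⁻¹ = x * (y * k * y⁻¹ * k⁻¹) * x⁻¹ * (x * k * x⁻¹ * k⁻¹) := by group
          rw [e]
          exact mul_mem (hN.conj_mem _ (hy k hk) x) (hx k hk)
        | inv x _ hx =>
          intro k hk
          have e : x⁻¹ * k * x⁻¹⁻¹ * k⁻¹ = x⁻¹ * (x * k * x⁻¹ * k⁻¹)⁻¹ * x⁻¹⁻¹ := by group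
          rw [e]
          exact hN.conj_mem _ (inv_mem (hx k hk)) x⁻¹
      exact hcl a ha k hk
  intro x hx
  exact (mem_centralizer_iff.mp (h1 (mem_zpowers g)) x hx).symm

/-- counting fixed points of an element of `p`-power action -/
theorem count_modEq {p : ℕ} [hp : Fact p.Prime] (A : G → Prop) [Finite {x // A x}] (f : G)
    (h1 : ∀ x, A x → A (f * x * f⁻¹)) (h2 : ∀ x, A x → f ^ p * x = x * f ^ p) :
    Nat.card {x // A x} ≡ Nat.card {x // A x ∧ f * x = x * f} [MOD p] := by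
  classical
  let _ := Fintype.ofFinite {x // A x}
  let σ : Function.End {x // A x} := fun x => ⟨f * x * f⁻¹, h1 x x.2⟩
  have hσ : ∀ (n : ℕ) (x : {x // A x}), ((σ ^ n) x : G) = f ^ n * x * (f ^ n)⁻¹ := by
    intro n
    induction n with
    | zero =>
      intro x
      change (x : G) = _
      simp
    | succ n ih =>
      intro x
      rw [pow_succ]
      change ((σ ^ n) (σ x) : G) = _
      rw [ih]
      change f ^ n * (f * x * f⁻¹) * (f ^ n)⁻¹ = _
      rw [pow_succ]
      group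
  have h3 : σ ^ p ^ 1 = 1 := by
    funext x
    apply Subtype.ext
    rw [pow_one, hσ, h2 x x.2]
    change (x : G) * f ^ p * (f ^ p)⁻¹ = x
    group
  have h4 := Equiv.Perm.card_fixedPoints_modEq h3
  rw [Nat.card_eq_fintype_card]
  refine h4.trans ?_
  rw [← Nat.card_eq_fintype_card]
  have e : Function.fixedPoints σ ≃ {x // A x ∧ f * x = x * f} :=
    { toFun := fun x => ⟨x.1, x.1.2, by
        have h5 : σ x.1 = x.1 := x.2
        have h6 : f * (x.1 : G) * f⁻¹ = x.1 := congrArg Subtype.val h5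
        exact mul_inv_eq_iff_eq_mul.mp h6⟩
      invFun := fun x => ⟨⟨x, x.2.1⟩, Subtype.ext (by
        change f * (x : G) * f⁻¹ = x
        rw [x.2.2]; group)⟩
      left_inv := fun x => rfl
      right_inv := fun x => rfl }
  rw [Nat.card_congr e]

/-- An element acting with order dividing 5 on a 2-group of order at most 16. -/
theorem five_action [Finite G] {U : Subgroup G} (hU : IsPGroup 2 U) (hc : Nat.card U ≤ 16) {f : G}
    (h1 : ∀ x ∈ U, f * x * f⁻¹ ∈ U) (h2 : ∀ x ∈ U, f ^ 5 * x = x * f ^ 5) :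
    (∀ x ∈ U, f * x = x * f) ∨ (Nat.card U = 16 ∧ ∀ x ∈ U, f * x = x * f → x = 1) := by
  have : Fact (Nat.Prime 5) := ⟨by norm_num⟩
  set C : Subgroup G := U ⊓ centralizer {f} with hC
  have h3 := count_modEq (p := 5) (fun x => x ∈ U) f h1 h2
  have h4 : Nat.card {x // x ∈ U ∧ f * x = x * f} = Nat.card C := by
    apply Nat.card_congr
    refine Equiv.subtypeEquivRight fun x => ?_
    rw [hC, mem_inf, mem_centralizer_singleton_iff]
    exact and_congr_right fun _ => ⟨fun h => h.symm, fun h => h.symm⟩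
  rw [h4] at h3
  have h5 : C ≤ U := inf_le_left
  obtain ⟨a, ha⟩ := IsPGroup.iff_card.mp hU
  obtain ⟨b, hb⟩ := IsPGroup.iff_card.mp (hU.to_le h5)
  have h6 : Nat.card C ≤ Nat.card U := card_le_of_le h5
  have h7 : Nat.card {x // x ∈ U} = 2 ^ a := ha
  rw [h7, hb] at h3
  rw [ha, hb] at h6
  rw [ha] at hc
  have ha4 : a ≤ 4 := by
    by_contra hcon
    have : 2 ^ 5 ≤ 2 ^ a := Nat.pow_le_pow_right (by norm_num) (by omega)
    omega
  have hb4 : b ≤ a := (Nat.pow_le_pow_iff_right (by norm_num)).mp h6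
  have h8 : a = b ∨ (a = 4 ∧ b = 0) := by
    interval_cases a <;> interval_cases b <;> simp_all [Nat.ModEq]
  rcases h8 with h8 | ⟨h8, h9⟩
  · left
    have h9 : C = U := eq_of_le_of_card_ge h5 (by rw [ha, hb, h8])
    intro x hx
    rw [← h9, hC, mem_inf, mem_centralizer_singleton_iff] at hx
    exact hx.2.symm
  · right
    refine ⟨by rw [ha, h8]; norm_num, fun x hx hfx => ?_⟩
    have h10 : C = ⊥ := eq_bot_of_card_eq _ (by rw [hb, h9]; norm_num)
    have h11 : x ∈ C := by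
      rw [hC, mem_inf, mem_centralizer_singleton_iff]
      exact ⟨hx, hfx.symm⟩
    rw [h10, mem_bot] at h11
    exact h11

/-- fixed-point-free ⇒ every element is a commutator with `f` -/
theorem surj_of_fpf {U : Subgroup G} [Finite U] {f : G}
    (h1 : ∀ x ∈ U, f * x * f⁻¹ ∈ U) (h2 : ∀ x ∈ U, f * x = x * f → x = 1) {x : G} (hx : x ∈ U) :
    ∃ y ∈ U, x = y⁻¹ * (f * y * f⁻¹) := by
  let σ : U → U := fun y => ⟨(y : G)⁻¹ * (f * y * f⁻¹), mul_mem (inv_mem y.2) (h1 y y.2)⟩
  have hinj : Function.Injective σ := by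
    intro y z hyz
    have h3 : (y : G)⁻¹ * (f * y * f⁻¹) = (z : G)⁻¹ * (f * z * f⁻¹) := congrArg Subtype.val hyz
    have h4 : f * ((z : G) * (y : G)⁻¹) = ((z : G) * (y : G)⁻¹) * f := by
      have h5 : f * (z : G) * f⁻¹ = (z : G) * ((y : G)⁻¹ * (f * y * f⁻¹)) := by rw [h3]; group
      have h6 : f * ((z : G) * (y : G)⁻¹) = (f * (z : G) * f⁻¹) * (f * (y : G) * f⁻¹)⁻¹ * f := by group
      rw [h6, h5]; group
    have h5 := h2 _ (mul_mem z.2 (inv_mem y.2)) h4
    exact Subtype.ext (mul_inv_eq_one.mp h5).symm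
  obtain ⟨y, hy⟩ := (Finite.injective_iff_surjective.mp hinj) ⟨x, hx⟩
  exact ⟨y, y.2, (congrArg Subtype.val hy).symm⟩

/-- two involutions with fixed-point-free product on an elementary abelian 2-group act freely -/
theorem free_of_two [Finite G] {U : Subgroup G} (hab : ∀ x ∈ U, ∀ y ∈ U, x * y = y * x) (he : ∀ x ∈ U, x ^ 2 = 1)
    {t s : G} (ht : ∀ x ∈ U, t * x * t⁻¹ ∈ U) (hs : ∀ x ∈ U, s * x * s⁻¹ ∈ U)
    (ht2 : ∀ x ∈ U, t ^ 2 * x = x * t ^ 2) (hs2 : ∀ x ∈ U, s ^ 2 * x = x * s ^ 2)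
    (hts : ∀ x ∈ U, t * s * x = x * (t * s) → x = 1) :
    Nat.card (U ⊓ centralizer {t} : Subgroup G) ^ 2 = Nat.card U ∧
      ∀ x ∈ U, t * x = x * t → ∃ y ∈ U, x = y⁻¹ * (t * y * t⁻¹) := by
  have key : ∀ (r : G) (hr : ∀ x ∈ U, r * x * r⁻¹ ∈ U) (hr2 : ∀ x ∈ U, r ^ 2 * x = x * r ^ 2),
      ∃ D : U →* U, (∀ y, (D y : G) = (y : G)⁻¹ * (r * y * r⁻¹)) ∧ D.range ≤ D.ker ∧
        Nat.card D.ker * Nat.card D.range = Nat.card U := by
    intro r hr hr2
    let D : U →* U :=
      { toFun := fun y => ⟨(y : G)⁻¹ * (r * y * r⁻¹), mul_mem (inv_mem y.2) (hr y y.2)⟩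
        map_one' := Subtype.ext (by simp)
        map_mul' := by
          intro a b
          apply Subtype.ext
          change ((a : G) * b)⁻¹ * (r * (a * b) * r⁻¹) = (a : G)⁻¹ * (r * a * r⁻¹) * ((b : G)⁻¹ * (r * b * r⁻¹))
          have h1 := hab _ (inv_mem b.2) _ (mul_mem (inv_mem a.2) (hr a a.2))
          calc ((a : G) * b)⁻¹ * (r * (a * b) * r⁻¹) = (b : G)⁻¹ * ((a : G)⁻¹ * (r * a * r⁻¹)) * (r * b * r⁻¹) := by
                group
            _ = ((a : G)⁻¹ * (r * a * r⁻¹)) * (b : G)⁻¹ * (r * b * r⁻¹) := by rw [h1]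
            _ = _ := by group }
    refine ⟨D, fun y => rfl, ?_, ?_⟩
    · rintro _ ⟨y, rfl⟩
      rw [MonoidHom.mem_ker]
      apply Subtype.ext
      change ((y : G)⁻¹ * (r * y * r⁻¹))⁻¹ * (r * ((y : G)⁻¹ * (r * y * r⁻¹)) * r⁻¹) = 1
      have h1 : r * (r * (y : G) * r⁻¹) * r⁻¹ = y := by
        have := hr2 y y.2
        calc r * (r * (y : G) * r⁻¹) * r⁻¹ = r ^ 2 * y * (r ^ 2)⁻¹ := by simp only [pow_two]; group
          _ = y := by rw [this]; group
      have h2 : (y : G)⁻¹ = y := by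
        rw [inv_eq_iff_mul_eq_one, ← pow_two]; exact he y y.2
      have h3 : (r * (y : G) * r⁻¹)⁻¹ = r * y * r⁻¹ := by
        rw [inv_eq_iff_mul_eq_one, ← pow_two]; exact he _ (hr y y.2)
      have h4 : r * ((y : G)⁻¹ * (r * y * r⁻¹)) * r⁻¹ = (r * (y : G) * r⁻¹)⁻¹ * (r * (r * (y : G) * r⁻¹) * r⁻¹) := by
        group
      rw [h4, h1, mul_inv_rev, h3, inv_inv]
      have h5 : r * (y : G) * r⁻¹ * (y : G) * (r * (y : G) * r⁻¹ * (y : G)) = 1 := by
        have := he _ (mul_mem (hr y y.2) y.2)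
        rwa [pow_two] at this
      exact h5
    · have h1 := card_mul_index D.ker
      rwa [index_ker] at h1
  obtain ⟨T, hT1, hT2, hT3⟩ := key t ht ht2
  obtain ⟨S, hS1, hS2, hS3⟩ := key s hs hs2
  -- kernels intersect trivially
  have hdis : ∀ x ∈ T.ker, x ∈ S.ker → x = 1 := by
    intro x hx1 hx2
    rw [MonoidHom.mem_ker] at hx1 hx2
    have h1 : (x : G)⁻¹ * (t * x * t⁻¹) = 1 := by rw [← hT1, hx1]; rfl
    have h2 : (x : G)⁻¹ * (s * x * s⁻¹) = 1 := by rw [← hS1, hx2]; rfl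
    rw [inv_mul_eq_one] at h1 h2
    have h3 : t * (x : G) = x * t := by
      calc t * (x : G) = (t * x * t⁻¹) * t := by group
        _ = x * t := by rw [← h1]
    have h4 : s * (x : G) = x * s := by
      calc s * (x : G) = (s * x * s⁻¹) * s := by group
        _ = x * s := by rw [← h2]
    exact Subtype.ext (hts x x.2 (by rw [mul_assoc, h4, ← mul_assoc, h3, mul_assoc]))
  have hle1 : Nat.card S.ker ≤ Nat.card T.range := by
    apply Nat.card_le_card_of_injective (fun x : S.ker => (⟨T x, x, rfl⟩ : T.range))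
    intro x y hxy
    have h1 : T x = T y := congrArg Subtype.val hxy
    have h2 : (x : U) * (y : U)⁻¹ = 1 := by
      apply hdis
      · rw [MonoidHom.mem_ker, map_mul, map_inv, h1]; group
      · exact mul_mem x.2 (inv_mem y.2)
    exact Subtype.ext (mul_inv_eq_one.mp h2)
  have hle2 : Nat.card T.ker ≤ Nat.card S.range := by
    apply Nat.card_le_card_of_injective (fun x : T.ker => (⟨S x, x, rfl⟩ : S.range))
    intro x y hxy
    have h1 : S x = S y := congrArg Subtype.val hxy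
    have h2 : (x : U) * (y : U)⁻¹ = 1 := by
      apply hdis
      · exact mul_mem x.2 (inv_mem y.2)
      · rw [MonoidHom.mem_ker, map_mul, map_inv, h1]; group
    exact Subtype.ext (mul_inv_eq_one.mp h2)
  have hle3 : Nat.card T.range ≤ Nat.card T.ker := card_le_of_le hT2
  have hle4 : Nat.card S.range ≤ Nat.card S.ker := card_le_of_le hS2
  have heq : Nat.card T.range = Nat.card T.ker := by omega
  have hTT : T.range = T.ker := eq_of_le_of_card_ge hT2 heq.ge
  have hker : Nat.card (U ⊓ centralizer {t} : Subgroup G) = Nat.card T.ker := by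
    apply Nat.card_congr
    refine
      { toFun := fun x => ⟨⟨x, (mem_inf.mp x.2).1⟩, ?_⟩
        invFun := fun x => ⟨x.1.1, ?_⟩
        left_inv := fun x => rfl
        right_inv := fun x => rfl }
    · rw [MonoidHom.mem_ker]
      apply Subtype.ext
      rw [hT1]
      have := mem_centralizer_singleton_iff.mp (mem_inf.mp x.2).2
      change (x : G)⁻¹ * (t * x * t⁻¹) = 1
      rw [← this]; group
    · rw [mem_inf, mem_centralizer_singleton_iff]
      refine ⟨x.1.2, ?_⟩
      have h1 := x.2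
      rw [MonoidHom.mem_ker] at h1
      have h2 : ((x : U) : G)⁻¹ * (t * (x : U) * t⁻¹) = 1 := by rw [← hT1, h1]; rfl
      rw [inv_mul_eq_one] at h2
      calc ((x : U) : G) * t = (t * (x : U) * t⁻¹) * t := by rw [← h2]
        _ = _ := by group
  refine ⟨?_, ?_⟩
  · rw [hker, pow_two]
    rw [heq] at hT3
    exact hT3
  · intro x hx hxt
    have h1 : (⟨x, hx⟩ : U) ∈ T.ker := by
      rw [MonoidHom.mem_ker]
      apply Subtype.ext
      rw [hT1]
      change x⁻¹ * (t * x * t⁻¹) = 1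
      rw [hxt]; group
    rw [← hTT] at h1
    obtain ⟨y, hy⟩ := h1
    refine ⟨y, y.2, ?_⟩
    rw [← hT1, hy]

end Cfsg.Agent.Lib.H50Five
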