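import Mathlib
import Cfsg.Agent.Lib.H50FiveA
import Cfsg.Agent.Lib.PAct

/-! S3106: the situation `Y / P ≅ A_5`, and the involution argument (helper50). -/

set_option autoImplicit false

namespace Cfsg.Agent.Lib.H50Five

open Subgroup Cfsg Cfsg.Agent.Lib.SectRank

universe u

abbrev A5 := alternatingGroup (Fin 5)

/-- `Y / P ≅ A_5` for the 2-group `P = ker π`, sectional 2-rank at most 4, elements of order 5 act freely on `P/℧(P)`. -/
structure Sit {Y : Type u} [Group Y] (π : Y →* A5) : Prop where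
  surj : Function.Surjective π
  pg : IsPGroup 2 π.ker
  rank : RankIn 2 4 (⊤ : Subgroup Y)
  idx : (sq π.ker).relIndex π.ker = 16
  five : ∀ f : Y, orderOf (π f) = 5 → ∀ x ∈ π.ker, f * x * f⁻¹ * x⁻¹ ∈ sq π.ker → x ∈ sq π.ker

variable {Y : Type u} [Group Y] {π : Y →* A5}

theorem exists_ab : ∃ a b : A5, a ^ 2 = 1 ∧ b ^ 2 = 1 ∧ a ≠ 1 ∧ orderOf (a * b) = 5 := by
  have h : ∃ a b : A5, a ^ 2 = 1 ∧ b ^ 2 = 1 ∧ a ≠ 1 ∧ (a * b) ^ 5 = 1 ∧ a * b ≠ 1 := by
    refine ⟨⟨Equiv.swap 1 4 * Equiv.swap 2 3, by rw [Equiv.Perm.mem_alternatingGroup]; decide⟩,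
      ⟨Equiv.swap 0 1 * Equiv.swap 2 4, by rw [Equiv.Perm.mem_alternatingGroup]; decide⟩, ?_, ?_, ?_, ?_, ?_⟩
    · apply Subtype.ext; change (Equiv.swap 1 4 * Equiv.swap 2 3 : Equiv.Perm (Fin 5)) ^ 2 = 1; decide
    · apply Subtype.ext; change (Equiv.swap 0 1 * Equiv.swap 2 4 : Equiv.Perm (Fin 5)) ^ 2 = 1; decide
    · intro h
      have h1 : (Equiv.swap 1 4 * Equiv.swap 2 3 : Equiv.Perm (Fin 5)) = 1 := congrArg Subtype.val h
      revert h1; decide
    · apply Subtype.ext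
      change (Equiv.swap 1 4 * Equiv.swap 2 3 * (Equiv.swap 0 1 * Equiv.swap 2 4) : Equiv.Perm (Fin 5)) ^ 5 = 1
      decide
    · intro h
      have h1 : (Equiv.swap 1 4 * Equiv.swap 2 3 * (Equiv.swap 0 1 * Equiv.swap 2 4) : Equiv.Perm (Fin 5)) = 1 :=
        congrArg Subtype.val h
      revert h1; decide
  obtain ⟨a, b, h1, h2, h3, h4, h5⟩ := h
  have : Fact (Nat.Prime 5) := ⟨by norm_num⟩
  exact ⟨a, b, h1, h2, h3, orderOf_eq_prime h4 h5⟩

namespace Sit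

theorem idx_ne (S : Sit π) : ¬ π.ker ≤ sq π.ker := by
  intro h
  have h1 := S.idx
  rw [relIndex_eq_one.mpr h] at h1
  norm_num at h1

theorem exists_f (S : Sit π) : ∃ f : Y, orderOf (π f) = 5 := by
  obtain ⟨a, b, _, _, _, h⟩ := exists_ab
  obtain ⟨f, hf⟩ := S.surj (a * b)
  exact ⟨f, by rw [hf]; exact h⟩

theorem pow_five {f : Y} (hf : orderOf (π f) = 5) : f ^ 5 ∈ π.ker := by
  rw [MonoidHom.mem_ker, map_pow]
  exact orderOf_dvd_iff_pow_eq_one.mp (by rw [hf])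

theorem exists_order [Finite Y] (S : Sit π) {p : ℕ} [hp : Fact p.Prime] (hp2 : p ≠ 2) (hd : p ∣ 60) :
    ∃ f : Y, orderOf f = p ∧ orderOf (π f) = p := by
  have h1 : p ∣ Nat.card Y := by
    have h2 : Nat.card A5 = 60 := by
      rw [Nat.card_eq_fintype_card]; decide
    have h3 : Nat.card A5 ∣ Nat.card Y := card_dvd_of_surjective π S.surj
    rw [h2] at h3
    exact hd.trans h3
  obtain ⟨f, hf⟩ := exists_prime_orderOf_dvd_card' p h1
  refine ⟨f, hf, ?_⟩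
  have h2 : orderOf (π f) ∣ p := hf ▸ orderOf_map_dvd π f
  rcases (Nat.dvd_prime hp.out).mp h2 with h3 | h3
  · exfalso
    rw [orderOf_eq_one_iff] at h3
    have h4 : f ∈ π.ker := h3
    obtain ⟨k, hk⟩ := S.pg ⟨f, h4⟩
    have h5 : f ^ 2 ^ k = 1 := congrArg Subtype.val hk
    have h6 := orderOf_dvd_of_pow_eq_one h5
    rw [hf] at h6
    exact hp2 ((Nat.prime_dvd_prime_iff_eq hp.out Nat.prime_two).mp (hp.out.dvd_of_dvd_pow h6))
  · exact h3

/-- simplicity of `A_5` -/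
theorem eq_top (S : Sit π) {R : Subgroup Y} (hR : R.Normal) (hPR : π.ker ≤ R) {g : Y} (hg : g ∈ R) (hg1 : π g ≠ 1) :
    R = ⊤ := by
  have h1 : (R.map π).Normal := Subgroup.Normal.map hR π S.surj
  rcases h1.eq_bot_or_eq_top with h2 | h2
  · exfalso
    have h3 : π g ∈ R.map π := mem_map_of_mem π hg
    rw [h2, mem_bot] at h3
    exact hg1 h3
  · have h3 : R = (R.map π).comap π := by
      rw [comap_map_eq, sup_eq_left.mpr hPR]
    rw [h3, h2, comap_top]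

theorem eq_top_of_five (S : Sit π) {R : Subgroup Y} (hR : R.Normal) (hPR : π.ker ≤ R) {g : Y} (hg : g ∈ R)
    (hg1 : orderOf (π g) = 5) : R = ⊤ := by
  apply S.eq_top hR hPR hg
  intro h
  rw [h, orderOf_one] at hg1
  norm_num at hg1

/-- `P = [P, f] ℧(P)` -/
theorem gen [Finite Y] (S : Sit π) {f : Y} (hf : orderOf (π f) = 5) {x : Y} (hx : x ∈ π.ker) :
    ∃ y ∈ π.ker, ∃ k ∈ sq π.ker, x = y⁻¹ * (f * y * f⁻¹) * k := by
  have hN := sq_normal (P := π.ker) inferInstance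
  set m := QuotientGroup.mk' (sq π.ker) with hm
  have h1 : ∀ x ∈ π.ker.map m, m f * x * (m f)⁻¹ ∈ π.ker.map m := by
    rintro _ ⟨y, hy, rfl⟩
    rw [← map_mul, ← map_inv, ← map_mul]
    exact mem_map_of_mem m ((inferInstance : π.ker.Normal).conj_mem y hy f)
  have h2 : ∀ x ∈ π.ker.map m, m f * x = x * m f → x = 1 := by
    rintro _ ⟨y, hy, rfl⟩ h
    rw [hm, QuotientGroup.mk'_apply, QuotientGroup.eq_one_iff]
    apply S.five f hf y hy
    rw [← QuotientGroup.eq_one_iff]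
    change m (f * y * f⁻¹ * y⁻¹) = 1
    rw [map_mul, map_mul, map_mul, h, map_inv, map_inv]
    group
  obtain ⟨_, ⟨y, hy, rfl⟩, h3⟩ := surj_of_fpf h1 h2 (mem_map_of_mem m hx)
  refine ⟨y, hy, (y⁻¹ * (f * y * f⁻¹))⁻¹ * x, ?_, by group⟩
  rw [← QuotientGroup.eq_one_iff]
  change m ((y⁻¹ * (f * y * f⁻¹))⁻¹ * x) = 1
  rw [map_mul, h3, ← map_inv m y, ← map_inv m f, ← map_mul, ← map_mul, ← map_mul, ← map_mul]
  rw [inv_mul_cancel, map_one]

end Sit

theorem four_of_sq {n : ℕ} (h : n ^ 2 = 16) : n = 4 := by nlinarith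

theorem fix_t {H : Type*} [Group H] {U : Subgroup H} (hab : ∀ x ∈ U, ∀ y ∈ U, x * y = y * x) (he : ∀ x ∈ U, x ^ 2 = 1)
    {t y : H} (ht : ∀ x ∈ U, t * x * t⁻¹ ∈ U) (hy : y ∈ U) (h : t ^ 2 = y⁻¹ * (t * y * t⁻¹)) : (y * t) ^ 2 = 1 := by
  have h1 : (y * t) ^ 2 = y * (t * y * t⁻¹) * t ^ 2 := by simp only [pow_two]; group
  rw [h1, h, hab y hy _ (ht y hy)]
  have h2 := he _ (ht y hy)
  calc t * y * t⁻¹ * y * (y⁻¹ * (t * y * t⁻¹)) = (t * y * t⁻¹) ^ 2 := by simp only [pow_two]; group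
    _ = 1 := h2

set_option maxHeartbeats 1000000 in
/-- The involution argument: `℧(P)` is not a free module of order 16 central in `P`. -/
theorem no16 [Finite Y] (S : Sit π) (hc : ∀ k ∈ sq π.ker, ∀ x ∈ π.ker, k * x = x * k)
    (he : ∀ k ∈ sq π.ker, k ^ 2 = 1) (h16 : Nat.card (sq π.ker) = 16)
    (hf : ∀ f : Y, orderOf (π f) = 5 → ∀ k ∈ sq π.ker, f * k = k * f → k = 1) : False := by
  have hPn : π.ker.Normal := inferInstance
  have hN := sq_normal hPn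
  set P := π.ker with hP
  set K := sq P with hK
  have hKP : K ≤ P := sq_le P
  obtain ⟨a, b, ha, hb, ha1, hab⟩ := exists_ab
  obtain ⟨t₀, ht₀⟩ := S.surj a
  obtain ⟨s, hs⟩ := S.surj b
  have hs2 : s ^ 2 ∈ P := by rw [hP, MonoidHom.mem_ker, map_pow, hs, hb]
  set m := QuotientGroup.mk' K with hm
  have mem_m : ∀ x, m x = 1 ↔ x ∈ K := fun x => QuotientGroup.eq_one_iff x
  have Uab : ∀ x ∈ P.map m, ∀ y ∈ P.map m, x * y = y * x := by
    rintro _ ⟨x, hx, rfl⟩ _ ⟨y, hy, rfl⟩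
    have h1 : m (x * y * x⁻¹ * y⁻¹) = 1 := (mem_m _).mpr (comm_mem hx hy)
    rw [map_mul, map_mul, map_mul, map_inv, map_inv, mul_inv_eq_one, mul_inv_eq_iff_eq_mul] at h1
    exact h1
  have Ue : ∀ x ∈ P.map m, x ^ 2 = 1 := by
    rintro _ ⟨x, hx, rfl⟩
    rw [← map_pow, mem_m]
    exact sq_mem hx
  have Un : ∀ g : Y, ∀ x ∈ P.map m, m g * x * (m g)⁻¹ ∈ P.map m := by
    rintro g _ ⟨x, hx, rfl⟩
    rw [← map_inv, ← map_mul, ← map_mul]
    exact mem_map_of_mem m (hPn.conj_mem x hx g)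
  have Kn : ∀ g : Y, ∀ x ∈ K, g * x * g⁻¹ ∈ K := fun g x hx => hN.conj_mem x hx g
  have Kab : ∀ x ∈ K, ∀ y ∈ K, x * y = y * x := fun x hx y hy => hc x hx y (hKP hy)
  -- the two free actions, for every `t` over `a`
  have hπ : ∀ t, π t = a → t ^ 2 ∈ P := by
    intro t ht
    rw [hP, MonoidHom.mem_ker, map_pow, ht, ha]
  have F1 : ∀ t, π t = a → Nat.card (P.map m ⊓ centralizer {m t} : Subgroup (Y ⧸ K)) ^ 2 = Nat.card (P.map m) ∧
      ∀ x ∈ P.map m, m t * x = x * m t → ∃ y ∈ P.map m, x = y⁻¹ * (m t * y * (m t)⁻¹) := by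
    intro t ht
    apply free_of_two (s := m s) Uab Ue (Un t) (Un s)
    · intro x hx
      rw [← map_pow]
      exact Uab _ (mem_map_of_mem m (hπ t ht)) x hx
    · intro x hx
      rw [← map_pow]
      exact Uab _ (mem_map_of_mem m hs2) x hx
    · rintro _ ⟨y, hy, rfl⟩ h
      rw [mem_m]
      apply S.five (t * s) (by rw [map_mul, ht, hs]; exact hab) y hy
      rw [← mem_m, map_mul, map_mul, map_mul, map_mul, h, ← map_mul, map_inv, map_inv]
      group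
  have F2 : ∀ t, π t = a → Nat.card (K ⊓ centralizer {t} : Subgroup Y) ^ 2 = Nat.card K ∧
      ∀ x ∈ K, t * x = x * t → ∃ y ∈ K, x = y⁻¹ * (t * y * t⁻¹) := by
    intro t ht
    apply free_of_two (s := s) Kab he (Kn t) (Kn s)
    · intro x hx; exact (hc x hx _ (hπ t ht)).symm
    · intro x hx; exact (hc x hx _ hs2).symm
    · intro x hx h
      exact hf (t * s) (by rw [map_mul, ht, hs]; exact hab) x hx h
  -- lift to an involution
  obtain ⟨t₁, ht₁, ht₁2⟩ : ∃ t, π t = a ∧ t ^ 2 ∈ K := by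
    obtain ⟨_, ⟨y, hy, rfl⟩, h⟩ := (F1 t₀ ht₀).2 (m (t₀ ^ 2)) (mem_map_of_mem m (hπ t₀ ht₀))
      (by rw [← map_mul, ← map_mul]; congr 1; simp only [pow_two]; group)
    refine ⟨y * t₀, by rw [map_mul, ht₀, (MonoidHom.mem_ker.mp hy : π y = 1), one_mul], ?_⟩
    rw [← mem_m, map_pow, map_mul]
    exact fix_t Uab Ue (Un t₀) (mem_map_of_mem m hy) (by rw [← map_pow]; exact h)
  obtain ⟨t, ht, ht2⟩ : ∃ t, π t = a ∧ t ^ 2 = 1 := by
    obtain ⟨y, hy, h⟩ := (F2 t₁ ht₁).2 (t₁ ^ 2) ht₁2 (by simp only [pow_two]; group)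
    refine ⟨y * t₁, by rw [map_mul, ht₁, (MonoidHom.mem_ker.mp (hKP hy) : π y = 1), one_mul], ?_⟩
    exact fix_t Kab he (Kn t₁) hy h
  have htt : t⁻¹ = t := by rw [inv_eq_iff_mul_eq_one, ← pow_two]; exact ht2
  obtain ⟨c1, F1⟩ := F1 t ht
  obtain ⟨c2, _⟩ := F2 t ht
  set W : Subgroup Y := K ⊓ centralizer {t} with hW
  have memW : ∀ x, x ∈ W ↔ x ∈ K ∧ t * x * t⁻¹ = x := by
    intro x
    rw [hW, mem_inf, mem_centralizer_singleton_iff]
    refine and_congr_right fun _ => ⟨fun h => ?_, fun h => ?_⟩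
    · rw [← h]; group
    · rw [mul_inv_eq_iff_eq_mul] at h; exact h.symm
  have Winv : ∀ x ∈ K, x⁻¹ = x := by
    intro x hx
    rw [inv_eq_iff_mul_eq_one, ← pow_two]; exact he x hx
  -- the group `L`
  set L : Subgroup Y := (P.map m ⊓ centralizer {m t}).comap m with hL
  have memL : ∀ x, x ∈ L ↔ x ∈ P ∧ m t * m x = m x * m t := by
    intro x
    rw [hL, mem_comap, mem_inf, mem_centralizer_singleton_iff]
    refine and_congr ⟨fun h => ?_, fun h => mem_map_of_mem m h⟩ ⟨fun h => h.symm, fun h => h.symm⟩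
    obtain ⟨y, hy, hyx⟩ := h
    have h1 : m (y⁻¹ * x) = 1 := by rw [map_mul, map_inv, hyx]; group
    have h2 := mul_mem hy (hKP ((mem_m _).mp h1))
    simpa using h2
  have hKL : K ≤ L := by
    intro x hx
    rw [memL]
    refine ⟨hKP hx, ?_⟩
    rw [(mem_m x).mpr hx]; simp
  -- structure of the elements of `L`
  have repL : ∀ l ∈ L, ∃ g ∈ P, ∃ k ∈ K, l = g * k ∧ t * g * t⁻¹ = g⁻¹ := by
    intro l hl
    obtain ⟨hlP, hlt⟩ := (memL l).mp hl
    obtain ⟨_, ⟨y, hy, rfl⟩, h⟩ := F1 (m l) (mem_map_of_mem m hlP) hlt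
    refine ⟨y⁻¹ * (t * y * t⁻¹), mul_mem (inv_mem hy) (hPn.conj_mem y hy t), (y⁻¹ * (t * y * t⁻¹))⁻¹ * l, ?_,
      by group, ?_⟩
    · rw [← mem_m, map_mul, h, ← map_inv m y, ← map_inv m t, ← map_mul, ← map_mul, ← map_mul, ← map_mul,
        inv_mul_cancel, map_one]
    · rw [htt]
      have h3 : t * (y⁻¹ * (t * y * t)) * t = t * y⁻¹ * t * y * t ^ 2 := by simp only [pow_two]; group
      rw [h3, ht2]
      rw [mul_inv_rev, mul_inv_rev, mul_inv_rev, htt, inv_inv]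
      group
  have sqL : ∀ l ∈ L, l ^ 2 ∈ W := by
    intro l hl
    obtain ⟨g, hg, k, hk, rfl, hgt⟩ := repL l hl
    have h1 : (g * k) ^ 2 = g ^ 2 := by
      calc (g * k) ^ 2 = g * (k * g) * k := by simp only [pow_two]; group
        _ = g * (g * k) * k := by rw [hc k hk g hg]
        _ = g ^ 2 * k ^ 2 := by simp only [pow_two]; group
        _ = g ^ 2 := by rw [he k hk, mul_one]
    rw [h1, memW]
    refine ⟨sq_mem hg, ?_⟩
    calc t * g ^ 2 * t⁻¹ = (t * g * t⁻¹) ^ 2 := by simp only [pow_two]; group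
      _ = (g ^ 2)⁻¹ := by rw [hgt]; simp only [pow_two]; group
      _ = g ^ 2 := Winv _ (sq_mem hg)
  have comL : ∀ l ∈ L, ∀ l' ∈ L, l * l' * l⁻¹ * l'⁻¹ ∈ W := by
    intro l hl l' hl'
    obtain ⟨g, hg, k, hk, rfl, hgt⟩ := repL l hl
    obtain ⟨h, hh, k', hk', rfl, hht⟩ := repL l' hl'
    have h1 : g * k * (h * k') * (g * k)⁻¹ * (h * k')⁻¹ = g * h * g⁻¹ * h⁻¹ := by
      have e1 : g * k * (h * k') = g * h * (k * k') := by
        calc g * k * (h * k') = g * (k * h) * k' := by group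
          _ = g * (h * k) * k' := by rw [hc k hk h hh]
          _ = _ := by group
      have e2 : h * k' * (g * k) = h * g * (k * k') := by
        calc h * k' * (g * k) = h * (k' * g) * k := by group
          _ = h * (g * k') * k := by rw [hc k' hk' g hg]
          _ = h * g * (k' * k) := by group
          _ = _ := by rw [hc k' hk' k (hKP hk)]
      calc g * k * (h * k') * (g * k)⁻¹ * (h * k')⁻¹ = g * k * (h * k') * (h * k' * (g * k))⁻¹ := by group
        _ = _ := by rw [e1, e2]; group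
    rw [h1, memW]
    refine ⟨comm_mem hg hh, ?_⟩
    have hcc := comm_mem hg hh
    have h2 : t * (g * h * g⁻¹ * h⁻¹) * t⁻¹ = (t * g * t⁻¹) * (t * h * t⁻¹) * (t * g * t⁻¹)⁻¹ * (t * h * t⁻¹)⁻¹ := by
      group
    rw [h2, hgt, hht]
    have h3 : g⁻¹ * h⁻¹ * g⁻¹⁻¹ * h⁻¹⁻¹ = (h * g)⁻¹ * ((g * h * g⁻¹ * h⁻¹) * (h * g)) := by group
    rw [h3, hc _ hcc (h * g) (mul_mem hh hg)]
    group
  have actL : ∀ l ∈ L, ∃ w ∈ W, t * l * t⁻¹ = l * w := by
    intro l hl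
    obtain ⟨g, hg, k, hk, rfl, hgt⟩ := repL l hl
    refine ⟨(g * k)⁻¹ * (t * (g * k) * t⁻¹), ?_, by group⟩
    have h1 : (g * k)⁻¹ * (t * (g * k) * t⁻¹) = (g ^ 2)⁻¹ * (k⁻¹ * (t * k * t⁻¹)) := by
      calc (g * k)⁻¹ * (t * (g * k) * t⁻¹) = k⁻¹ * g⁻¹ * (t * g * t⁻¹) * (t * k * t⁻¹) := by group
        _ = k⁻¹ * (g⁻¹ * g⁻¹) * (t * k * t⁻¹) := by rw [hgt]; group
        _ = (g⁻¹ * g⁻¹) * k⁻¹ * (t * k * t⁻¹) := by
          rw [hc k⁻¹ (inv_mem hk) _ (mul_mem (inv_mem hg) (inv_mem hg))]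
        _ = _ := by simp only [pow_two]; group
    rw [h1]
    have h2 : g ^ 2 ∈ W := by
      rw [memW]
      refine ⟨sq_mem hg, ?_⟩
      calc t * g ^ 2 * t⁻¹ = (t * g * t⁻¹) ^ 2 := by simp only [pow_two]; group
        _ = (g ^ 2)⁻¹ := by rw [hgt]; simp only [pow_two]; group
        _ = g ^ 2 := Winv _ (sq_mem hg)
    refine mul_mem (inv_mem h2) ?_
    rw [memW]
    refine ⟨mul_mem (inv_mem hk) (Kn t k hk), ?_⟩
    rw [Winv k hk]
    have h4 : t * (k * (t * k * t⁻¹)) * t⁻¹ = (t * k * t⁻¹) * (t ^ 2 * k * (t ^ 2)⁻¹) := by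
      simp only [pow_two]; group
    rw [h4, ht2]
    have h5 := Kab _ (Kn t k hk) k hk
    rw [← h5]; group
  -- the group `H`
  set H : Subgroup Y := (centralizer {m t}).comap m ⊓ (zpowers a).comap π with hH
  have hza : ∀ x ∈ zpowers a, x = 1 ∨ x = a := by
    intro x hx
    obtain ⟨n, rfl⟩ := mem_zpowers_iff.mp hx
    rcases Int.even_or_odd' n with ⟨c, hc | hc⟩
    · left; rw [hc, zpow_mul]; norm_cast; rw [ha]; simp
    · right; rw [hc, zpow_add, zpow_mul]; norm_cast; rw [ha]; simp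
  have mt2 : m t * m t = 1 := by rw [← map_mul, ← pow_two, ht2, map_one]
  have repH : ∀ h ∈ H, ∃ l ∈ L, h = l ∨ h = l * t := by
    intro h hh
    rw [hH, mem_inf, mem_comap, mem_comap, mem_centralizer_singleton_iff] at hh
    rcases hza _ hh.2 with h1 | h1
    · exact ⟨h, (memL h).mpr ⟨h1, hh.1.symm⟩, Or.inl rfl⟩
    · refine ⟨h * t⁻¹, (memL _).mpr ⟨?_, ?_⟩, Or.inr (by group)⟩
      · rw [hP, MonoidHom.mem_ker, map_mul, h1, map_inv, ht]; group
      · rw [map_mul, map_inv]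
        have := hh.1
        calc m t * (m h * (m t)⁻¹) = (m t * m h) * (m t)⁻¹ := by group
          _ = (m h * m t) * (m t)⁻¹ := by rw [← this]
          _ = m h * (m t)⁻¹ * m t := by group
  have cW : ∀ w ∈ W, ∀ l ∈ L, w * l = l * w := fun w hw l hl => hc w ((memW w).mp hw).1 l ((memL l).mp hl).1
  have cWt : ∀ w ∈ W, t * w = w * t := by
    intro w hw
    have := ((memW w).mp hw).2
    rw [mul_inv_eq_iff_eq_mul] at this; exact this
  have hLH : L ≤ H := by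
    intro x hx
    obtain ⟨h1, h2⟩ := (memL x).mp hx
    rw [hH, mem_inf, mem_comap, mem_comap, mem_centralizer_singleton_iff]
    refine ⟨h2.symm, ?_⟩
    rw [(MonoidHom.mem_ker.mp h1 : π x = 1)]; exact one_mem _
  have htH : t ∈ H := by
    rw [hH, mem_inf, mem_comap, mem_comap, mem_centralizer_singleton_iff]
    exact ⟨rfl, by rw [ht]; exact mem_zpowers a⟩
  have htL : t ∉ L := by
    intro h
    have h1 := ((memL t).mp h).1
    rw [hP, MonoidHom.mem_ker, ht] at h1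
    exact ha1 h1
  have hWK : W ≤ K := inf_le_left
  have hsqH : ∀ x ∈ H, x ^ 2 ∈ W := by
    intro x hx
    obtain ⟨l, hl, rfl | rfl⟩ := repH x hx
    · exact sqL _ hl
    · obtain ⟨w, hw, h1⟩ := actL l hl
      have h2 : (l * t) ^ 2 = l * (t * l * t⁻¹) * t ^ 2 := by simp only [pow_two]; group
      rw [h2, ht2, h1, mul_one]
      have h3 : l * (l * w) = l ^ 2 * w := by simp only [pow_two]; group
      rw [h3]
      exact mul_mem (sqL l hl) hw
  have c12 : ∀ l ∈ L, ∀ l' ∈ L, l * (l' * t) * l⁻¹ * (l' * t)⁻¹ ∈ W := by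
    intro l hl l' hl'
    obtain ⟨w, hw, h1⟩ := actL l hl
    have h2 : l * (l' * t) * l⁻¹ * (l' * t)⁻¹ = l * l' * (t * l * t⁻¹)⁻¹ * l'⁻¹ := by group
    have h3 : l * l' * (l * w)⁻¹ * l'⁻¹ = (l * l' * l⁻¹ * l'⁻¹) * w⁻¹ := by
      have h4 := cW w hw l hl
      have h5 := cW w⁻¹ (inv_mem hw) _ (mul_mem (inv_mem hl) (inv_mem hl'))
      calc l * l' * (l * w)⁻¹ * l'⁻¹ = l * l' * (w⁻¹ * (l⁻¹ * l'⁻¹)) := by group
        _ = l * l' * ((l⁻¹ * l'⁻¹) * w⁻¹) := by rw [h5]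
        _ = _ := by group
    rw [h2, h1, h3]
    exact mul_mem (comL l hl l' hl') (inv_mem hw)
  have hcomH : ∀ x ∈ H, ∀ y ∈ H, x * y * x⁻¹ * y⁻¹ ∈ W := by
    intro x hx y hy
    obtain ⟨l, hl, rfl | rfl⟩ := repH x hx
    · obtain ⟨l', hl', rfl | rfl⟩ := repH y hy
      · exact comL _ hl _ hl'
      · exact c12 _ hl _ hl'
    · obtain ⟨l', hl', rfl | rfl⟩ := repH y hy
      · have h1 := inv_mem (c12 y hl' l hl)
        have h2 : (y * (l * t) * y⁻¹ * (l * t)⁻¹)⁻¹ = l * t * y * (l * t)⁻¹ * y⁻¹ := by group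
        rwa [h2] at h1
      · obtain ⟨w, hw, h1⟩ := actL l hl
        obtain ⟨w', hw', h1'⟩ := actL l' hl'
        have h2 : l * t * (l' * t) * (l * t)⁻¹ * (l' * t)⁻¹ = l * (t * l' * t⁻¹) * (t * l * t⁻¹)⁻¹ * l'⁻¹ := by
          have h3 : l * t * (l' * t) * (l * t)⁻¹ * (l' * t)⁻¹ = l * t * l' * l⁻¹ * t⁻¹ * l'⁻¹ := by group
          rw [h3]; group
        have h3 : l * (l' * w') * (l * w)⁻¹ * l'⁻¹ = (l * l' * l⁻¹ * l'⁻¹) * (w' * w⁻¹) := by
          have h5 := cW (w' * w⁻¹) (mul_mem hw' (inv_mem hw)) _ (mul_mem (inv_mem hl) (inv_mem hl'))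
          calc l * (l' * w') * (l * w)⁻¹ * l'⁻¹ = l * l' * ((w' * w⁻¹) * (l⁻¹ * l'⁻¹)) := by group
            _ = l * l' * ((l⁻¹ * l'⁻¹) * (w' * w⁻¹)) := by rw [h5]
            _ = _ := by group
        rw [h2, h1, h1', h3]
        exact mul_mem (comL l hl l' hl') (mul_mem hw' (inv_mem hw))
  have hfin := S.rank W H ((hWK.trans hKL).trans hLH) le_top hsqH hcomH
  -- the index
  have i1 : W.relIndex K = 4 := by
    have h1 : Nat.card W = 4 := by
      rw [h16] at c2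
      exact four_of_sq c2
    have h2 := relIndex_mul_relIndex (⊥ : Subgroup Y) W K bot_le hWK
    rw [relIndex_bot_left, relIndex_bot_left, h1, h16] at h2
    omega
  have i2 : K.relIndex L = 4 := by
    have h1 : K = (⊥ : Subgroup (Y ⧸ K)).comap m := by
      ext x; rw [mem_comap, mem_bot, mem_m]
    have h2 : Nat.card (P.map m) = 16 := by
      have h3 : K.relIndex P = Nat.card (P.map m) := by
        conv_lhs => rw [h1]
        rw [relIndex_comap, relIndex_bot_left]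
      rw [← h3]; exact S.idx
    have h3 : K.relIndex L = Nat.card (P.map m ⊓ centralizer {m t} : Subgroup (Y ⧸ K)) := by
      conv_lhs => rw [h1]
      rw [relIndex_comap, relIndex_bot_left, hL, map_comap_eq_self_of_surjective (QuotientGroup.mk'_surjective K)]
    rw [h3]
    rw [h2] at c1
    exact four_of_sq c1
  have i3 : 2 ≤ L.relIndex H := by
    have h1 : L.relIndex H ≠ 1 := by
      intro h
      exact htL (relIndex_eq_one.mp h htH)
    have h2 : L.relIndex H ≠ 0 := index_ne_zero_of_finite (H := L.subgroupOf H)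
    omega
  have i4 := relIndex_mul_relIndex W K L hWK hKL
  have i5 := relIndex_mul_relIndex W L H (hWK.trans hKL) hLH
  rw [i1, i2] at i4
  rw [← i4] at i5
  omega

end Cfsg.Agent.Lib.H50Five
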