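import Mathlib
import Cfsg.Agent.Lib.H50FiveB

/-! S3106: quotients, and the case `|℧(P)| = 2` counted (helper50). -/

set_option autoImplicit false

namespace Cfsg.Agent.Lib.H50Five

open Subgroup Cfsg Cfsg.Agent.Lib.SectRank

universe u

variable {Y : Type u} [Group Y] {π : Y →* A5}

theorem rankIn_quot {p k : ℕ} (M : Subgroup Y) [M.Normal] (h : RankIn p k (⊤ : Subgroup Y)) :
    RankIn p k (⊤ : Subgroup (Y ⧸ M)) := by
  intro N H hNH _ hp hc
  have hs := QuotientGroup.mk'_surjective M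
  have h1 := h (N.comap (QuotientGroup.mk' M)) (H.comap (QuotientGroup.mk' M)) (comap_mono hNH) le_top ?_ ?_
  · rwa [relIndex_comap, map_comap_eq_self_of_surjective hs] at h1
  · intro x hx
    rw [mem_comap] at hx ⊢
    rw [map_pow]; exact hp _ hx
  · intro x hx y hy
    rw [mem_comap] at hx hy ⊢
    rw [map_mul, map_mul, map_mul, map_inv, map_inv]; exact hc _ hx _ hy

/-- `π` on `Y / M` -/
def qh (M : Subgroup Y) [M.Normal] (hM : M ≤ π.ker) : Y ⧸ M →* A5 := QuotientGroup.lift M π hM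

theorem qh_mk (M : Subgroup Y) [M.Normal] (hM : M ≤ π.ker) (y : Y) : qh M hM (QuotientGroup.mk' M y) = π y := rfl

theorem ker_qh (M : Subgroup Y) [M.Normal] (hM : M ≤ π.ker) : (qh M hM).ker = π.ker.map (QuotientGroup.mk' M) := by
  ext x
  obtain ⟨y, rfl⟩ := QuotientGroup.mk'_surjective M x
  rw [MonoidHom.mem_ker, qh_mk]
  constructor
  · intro h
    exact mem_map_of_mem _ h
  · rintro ⟨z, hz, hzy⟩
    have h1 : π z = π y := by rw [← qh_mk M hM, ← qh_mk M hM, hzy]
    rw [← h1]; exact hz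

theorem sq_ker_qh (M : Subgroup Y) [M.Normal] (hM : M ≤ π.ker) :
    sq (qh M hM).ker = (sq π.ker).map (QuotientGroup.mk' M) := by
  rw [ker_qh, sq_map]

theorem mem_map_mk {M K : Subgroup Y} [M.Normal] (hMK : M ≤ K) (x : Y) :
    QuotientGroup.mk' M x ∈ K.map (QuotientGroup.mk' M) ↔ x ∈ K := by
  constructor
  · rintro ⟨y, hy, hyx⟩
    have h1 : QuotientGroup.mk' M (y⁻¹ * x) = 1 := by rw [map_mul, map_inv, hyx]; group
    have h2 : y⁻¹ * x ∈ M := (QuotientGroup.eq_one_iff _).mp h1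
    have h3 := mul_mem hy (hMK h2)
    simpa using h3
  · intro h; exact mem_map_of_mem _ h

theorem Sit.quot (S : Sit π) (M : Subgroup Y) [M.Normal] (hM : M ≤ sq π.ker) :
    Sit (qh M (hM.trans (sq_le π.ker))) := by
  have hMP := hM.trans (sq_le π.ker)
  constructor
  · intro a
    obtain ⟨y, hy⟩ := S.surj a
    exact ⟨QuotientGroup.mk' M y, hy⟩
  · rw [ker_qh]
    exact S.pg.map _
  · exact rankIn_quot M S.rank
  · rw [sq_ker_qh, ker_qh, relIndex_map_map, QuotientGroup.ker_mk', sup_eq_left.mpr hM, sup_eq_left.mpr hMP]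
    exact S.idx
  · intro f hf x hx h
    obtain ⟨g, rfl⟩ := QuotientGroup.mk'_surjective M f
    obtain ⟨y, rfl⟩ := QuotientGroup.mk'_surjective M x
    rw [ker_qh, mem_map_mk hMP] at hx
    rw [sq_ker_qh, ← map_inv, ← map_inv, ← map_mul, ← map_mul, ← map_mul, mem_map_mk hM] at h
    rw [sq_ker_qh, mem_map_mk hM]
    exact S.five g hf y hx h

theorem card_map_mk [Finite Y] {M K : Subgroup Y} [M.Normal] (hMK : M ≤ K) :
    Nat.card M * Nat.card (K.map (QuotientGroup.mk' M)) = Nat.card K := by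
  have h1 : M = (⊥ : Subgroup (Y ⧸ M)).comap (QuotientGroup.mk' M) := by
    ext x; rw [mem_comap, mem_bot]; exact (QuotientGroup.eq_one_iff x).symm
  have h2 : M.relIndex K = Nat.card (K.map (QuotientGroup.mk' M)) := by
    conv_lhs => rw [h1]
    rw [relIndex_comap, relIndex_bot_left]
  rw [← h2]
  have h3 := relIndex_mul_relIndex (⊥ : Subgroup Y) M K bot_le hMK
  rwa [relIndex_bot_left, relIndex_bot_left] at h3

/-- no element outside `P` centralizes `P` modulo `℧(P)` -/
theorem Sit.no_central (S : Sit π) {g : Y} (hg : π g ≠ 1) (h : ∀ x ∈ π.ker, g * x * g⁻¹ * x⁻¹ ∈ sq π.ker) : False := by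
  have hN := sq_normal (P := π.ker) inferInstance
  have hPn : π.ker.Normal := inferInstance
  set m := QuotientGroup.mk' (sq π.ker) with hm
  have mem_m : ∀ x, m x = 1 ↔ x ∈ sq π.ker := fun x => QuotientGroup.eq_one_iff x
  have hR : ((centralizer (π.ker.map m : Set (Y ⧸ sq π.ker))).comap m).Normal := by
    have h1 : (π.ker.map m).Normal := hPn.map m (QuotientGroup.mk'_surjective _)
    infer_instance
  have memR : ∀ y : Y, y ∈ (centralizer (π.ker.map m : Set (Y ⧸ sq π.ker))).comap m ↔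
      ∀ x ∈ π.ker, y * x * y⁻¹ * x⁻¹ ∈ sq π.ker := by
    intro y
    rw [mem_comap, mem_centralizer_iff]
    constructor
    · intro h1 x hx
      rw [← mem_m, map_mul, map_mul, map_mul, map_inv, map_inv, ← h1 (m x) (mem_map_of_mem m hx)]
      group
    · rintro h1 _ ⟨x, hx, rfl⟩
      have h2 := (mem_m _).mpr (h1 x hx)
      rw [map_mul, map_mul, map_mul, map_inv, map_inv, mul_inv_eq_one, mul_inv_eq_iff_eq_mul] at h2
      exact h2.symm
  have h1 := S.eq_top hR (fun x hx => (memR x).mpr fun y hy => comm_mem hx hy) ((memR g).mpr h) hg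
  obtain ⟨f, hf⟩ := S.exists_f
  apply S.idx_ne
  intro x hx
  have h2 : f ∈ (centralizer (π.ker.map m : Set (Y ⧸ sq π.ker))).comap m := by rw [h1]; exact mem_top f
  exact S.five f hf x hx ((memR f).mp h2 x hx)

theorem two_elts {K : Subgroup Y} (h : Nat.card K = 2) : ∃ z ∈ K, z ≠ 1 ∧ ∀ k ∈ K, k = 1 ∨ k = z := by
  rw [Nat.card_eq_two_iff' (1 : K)] at h
  obtain ⟨z, hz, hz2⟩ := h
  refine ⟨z, z.2, fun h => hz (Subtype.ext h), fun k hk => ?_⟩
  by_cases h1 : k = 1
  · exact Or.inl h1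
  · right
    have h2 := hz2 ⟨k, hk⟩ (fun h => h1 (congrArg Subtype.val h))
    exact congrArg Subtype.val h2

/-- subgroups of order 2 normal in `Y` are central -/
theorem central_of_two {K : Subgroup Y} (hK : K.Normal) (h : Nat.card K = 2) (g k : Y) (hk : k ∈ K) : g * k = k * g := by
  obtain ⟨z, hz, hz1, h2⟩ := two_elts h
  have h3 : g * z * g⁻¹ = z := by
    rcases h2 _ (hK.conj_mem z hz g) with h4 | h4
    · exfalso
      apply hz1
      have h5 : z = g⁻¹ * (g * z * g⁻¹) * g := by group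
      rw [h5, h4]; group
    · exact h4
  rcases h2 k hk with rfl | rfl
  · simp
  · rw [mul_inv_eq_iff_eq_mul] at h3; exact h3

open Classical in
/-- sign -/
noncomputable def sgn (g : Y) : ℤ := if g = 1 then 1 else -1

theorem card_filter_eq [Fintype Y] (A : Y → Prop) [DecidablePred A] : (Finset.univ.filter A).card = Nat.card {x // A x} := by
  rw [Nat.card_eq_fintype_card, Fintype.card_subtype]

set_option maxHeartbeats 1000000 in
/-- If `|℧(P)| = 2` there are exactly 12 elements of `P` with square `1`. -/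
theorem count32 [Finite Y] (S : Sit π) (h2 : Nat.card (sq π.ker) = 2) :
    Nat.card {x // x ∈ π.ker ∧ x ^ 2 = 1} = 12 := by
  classical
  have hN := sq_normal (P := π.ker) inferInstance
  obtain ⟨z, hz, hz1, hzk⟩ := two_elts h2
  have hcen : ∀ k ∈ sq π.ker, ∀ g : Y, g * k = k * g := fun k hk g => central_of_two hN h2 g k hk
  have hzz : z * z = 1 := by
    rcases hzk _ (mul_mem hz hz) with h | h
    · exact h
    · exact absurd (mul_eq_left.mp h) hz1
  have sgn_mul : ∀ g ∈ sq π.ker, ∀ h ∈ sq π.ker, sgn (g * h) = sgn g * sgn h := by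
    intro g hg h hh
    unfold sgn
    rcases hzk g hg with rfl | rfl
    · simp
    · rcases hzk h hh with rfl | rfl
      · simp
      · simp [hzz, hz1]
  have sgn_sq : ∀ g : Y, sgn g * sgn g = 1 := by
    intro g; unfold sgn; split_ifs <;> simp
  have sgn_inv : ∀ g : Y, sgn g⁻¹ = sgn g := by
    intro g; unfold sgn; simp
  have hP32 : Nat.card π.ker = 32 := by
    have h3 := relIndex_mul_relIndex (⊥ : Subgroup Y) (sq π.ker) π.ker bot_le (sq_le _)
    rw [relIndex_bot_left, relIndex_bot_left, h2, S.idx] at h3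
    omega
  let _ := Fintype.ofFinite π.ker
  have hPf : Fintype.card π.ker = 32 := by rw [← Nat.card_eq_fintype_card]; exact hP32
  let ψ : π.ker → ℤ := fun x => sgn ((x : Y) ^ 2)
  let β : π.ker → (π.ker →* ℤ) := fun y =>
    { toFun := fun x => sgn ((x : Y) * y * (x : Y)⁻¹ * (y : Y)⁻¹)
      map_one' := by simp [sgn]
      map_mul' := by
        intro a b
        rw [← sgn_mul _ (comm_mem a.2 y.2) _ (comm_mem b.2 y.2)]
        congr 1
        have h3 := hcen _ (comm_mem b.2 y.2) a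
        change (a : Y) * b * y * ((a : Y) * b)⁻¹ * (y : Y)⁻¹ = _
        calc (a : Y) * b * y * ((a : Y) * b)⁻¹ * (y : Y)⁻¹
            = (a * (b * y * (b : Y)⁻¹ * (y : Y)⁻¹)) * (y * (a : Y)⁻¹ * (y : Y)⁻¹) := by group
          _ = ((b * y * (b : Y)⁻¹ * (y : Y)⁻¹) * a) * (y * (a : Y)⁻¹ * (y : Y)⁻¹) := by rw [h3]
          _ = (b * y * (b : Y)⁻¹ * (y : Y)⁻¹) * (a * y * (a : Y)⁻¹ * (y : Y)⁻¹) := by group
          _ = _ := hcen _ (comm_mem a.2 y.2) _ }
  have hβ : ∀ x y, β y x = sgn ((x : Y) * y * (x : Y)⁻¹ * (y : Y)⁻¹) := fun x y => rfl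
  have hψ : ∀ x y : π.ker, ψ (x * y) = ψ x * ψ y * β y x := by
    intro x y
    have h3 : ((x : Y) * y) ^ 2 = (x : Y) ^ 2 * ((x : Y)⁻¹ * (y * x * (y : Y)⁻¹)) * (y : Y) ^ 2 := by
      simp only [pow_two]; group
    have h4 : (x : Y)⁻¹ * (y * x * (y : Y)⁻¹) = (x * y * (x : Y)⁻¹ * (y : Y)⁻¹)⁻¹ := by
      have h5 := hcen _ (inv_mem (comm_mem x.2 y.2)) x
      have h6 : (x * y * (x : Y)⁻¹ * (y : Y)⁻¹)⁻¹ = (y * x * (y : Y)⁻¹) * (x : Y)⁻¹ := by group
      rw [h6] at h5 ⊢
      have h7 : (y : Y) * x * (y : Y)⁻¹ * (x : Y)⁻¹ * x = y * x * (y : Y)⁻¹ := by group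
      rw [h7] at h5
      rw [inv_mul_eq_iff_eq_mul]; exact h5.symm
    have h5 := comm_mem x.2 y.2
    change sgn (((x : Y) * y) ^ 2) = sgn ((x : Y) ^ 2) * sgn ((y : Y) ^ 2) * sgn _
    rw [h3, h4, sgn_mul _ (mul_mem (sq_mem x.2) (inv_mem h5)) _ (sq_mem y.2), sgn_mul _ (sq_mem x.2) _ (inv_mem h5),
      sgn_inv]
    ring
  -- the sum
  set T : ℤ := ∑ x : π.ker, ψ x with hT
  have hTT : (32 : ℤ) ∣ T * T := by
    have h3 : T * T = ∑ y : π.ker, ψ y * ∑ x : π.ker, β y x := by
      rw [hT, Finset.sum_mul_sum]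
      have h4 : ∀ x : π.ker, ∑ y : π.ker, ψ x * ψ y = ∑ y : π.ker, ψ y * β y x := by
        intro x
        rw [← Equiv.sum_comp (Equiv.mulLeft x) (fun y => ψ x * ψ y)]
        refine Finset.sum_congr rfl fun y _ => ?_
        change ψ x * ψ (x * y) = _
        rw [hψ]
        have h5 : ψ x * ψ x = 1 := sgn_sq _
        calc ψ x * (ψ x * ψ y * β y x) = (ψ x * ψ x) * (ψ y * β y x) := by ring
          _ = _ := by rw [h5, one_mul]
      rw [Finset.sum_congr rfl fun x _ => h4 x, Finset.sum_comm]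
      refine Finset.sum_congr rfl fun y _ => ?_
      rw [Finset.mul_sum]
    rw [h3]
    refine Finset.dvd_sum fun y _ => ?_
    apply Dvd.dvd.mul_left
    rw [sum_hom_units]
    split_ifs
    · rw [hPf]; norm_num
    · simp
  -- the number of elements with square one
  set M := Nat.card {x // x ∈ π.ker ∧ x ^ 2 = 1} with hM
  have hM1 : (Finset.univ.filter fun x : π.ker => (x : Y) ^ 2 = 1).card = M := by
    rw [card_filter_eq, hM]
    exact Nat.card_congr
      { toFun := fun x => ⟨x.1.1, x.1.2, x.2⟩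
        invFun := fun x => ⟨⟨x.1, x.2.1⟩, x.2.2⟩
        left_inv := fun x => rfl
        right_inv := fun x => rfl }
  have hM32 : M ≤ 32 := by
    rw [← hM1, ← hPf]; exact Finset.card_le_univ _
  have hT2 : T = 2 * (M : ℤ) - 32 := by
    have h3 : T = ∑ x : π.ker, if (x : Y) ^ 2 = 1 then (1 : ℤ) else -1 := rfl
    rw [h3, Finset.sum_ite, Finset.sum_const, Finset.sum_const, hM1]
    have h4 := Finset.card_filter_add_card_filter_not (s := (Finset.univ : Finset π.ker)) (fun x : π.ker => (x : Y) ^ 2 = 1)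
    rw [hM1, Finset.card_univ, hPf] at h4
    simp only [nsmul_eq_mul]
    have h5 : ((Finset.univ.filter fun x : π.ker => ¬ (x : Y) ^ 2 = 1).card : ℤ) = 32 - M := by
      have : (M : ℤ) + ((Finset.univ.filter fun x : π.ker => ¬ (x : Y) ^ 2 = 1).card : ℤ) = 32 := by exact_mod_cast h4
      linarith
    rw [h5]; ring
  -- modulo 5
  have hM5 : M ≡ 2 [MOD 5] := by
    have : Fact (Nat.Prime 5) := ⟨by norm_num⟩
    obtain ⟨f, hf0, hf⟩ := S.exists_order (p := 5) (by norm_num) (by norm_num)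
    have h3 := count_modEq (p := 5) (fun x => x ∈ π.ker ∧ x ^ 2 = 1) f (by
      rintro x ⟨hx, hx2⟩
      refine ⟨(inferInstance : π.ker.Normal).conj_mem x hx f, ?_⟩
      have : (f * x * f⁻¹) ^ 2 = f * x ^ 2 * f⁻¹ := by simp only [pow_two]; group
      rw [this, hx2]; group) (by
      intro x _
      have : f ^ 5 = 1 := by rw [← hf0]; exact pow_orderOf_eq_one f
      rw [this]; simp)
    rw [← hM] at h3
    refine h3.trans ?_
    have h4 : Nat.card {x // (x ∈ π.ker ∧ x ^ 2 = 1) ∧ f * x = x * f} = Nat.card (sq π.ker) := by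
      apply Nat.card_congr
      refine Equiv.subtypeEquivRight fun x => ?_
      constructor
      · rintro ⟨⟨hx, _⟩, hfx⟩
        apply S.five f hf x hx
        rw [hfx]
        have : x * f * f⁻¹ * x⁻¹ = 1 := by group
        rw [this]; exact one_mem _
      · intro hx
        refine ⟨⟨sq_le _ hx, ?_⟩, hcen x hx f⟩
        rw [pow_two]
        rcases hzk x hx with rfl | rfl
        · simp
        · exact hzz
    rw [h4, h2]
  have hMne : M ≠ 32 := by
    intro h
    have h3 : ∀ x ∈ π.ker, x ^ 2 = 1 := by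
      intro x hx
      have h4 : (Finset.univ.filter fun x : π.ker => (x : Y) ^ 2 = 1) = Finset.univ := by
        rw [← Finset.card_eq_iff_eq_univ, hM1, h, hPf]
      have h5 : (⟨x, hx⟩ : π.ker) ∈ (Finset.univ.filter fun x : π.ker => (x : Y) ^ 2 = 1) := by
        rw [h4]; exact Finset.mem_univ _
      exact (Finset.mem_filter.mp h5).2
    have h4 : sq π.ker ≤ ⊥ := sq_le_iff.mpr fun x hx => by rw [mem_bot]; exact h3 x hx
    rw [le_bot_iff] at h4
    rw [h4] at h2
    simp at h2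
  rw [hT2] at hTT
  clear_value M
  unfold Nat.ModEq at hM5
  interval_cases M <;> omega

end Cfsg.Agent.Lib.H50Five
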