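import Mathlib
import Cfsg.Agent.Lib.H50FiveC

/-! S3106: `|℧(P)| = 4` is impossible, and the induction (helper50). -/

set_option autoImplicit false

namespace Cfsg.Agent.Lib.H50Five

open Subgroup Cfsg Cfsg.Agent.Lib.SectRank

universe u

variable {Y : Type u} [Group Y] {π : Y →* A5}

theorem mem_zpowers_two {d : Y} (hd : d ^ 2 = 1) (x : Y) : x ∈ zpowers d ↔ x = 1 ∨ x = d := by
  constructor
  · intro hx
    obtain ⟨n, rfl⟩ := mem_zpowers_iff.mp hx
    rcases Int.even_or_odd' n with ⟨c, hc | hc⟩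
    · left; rw [hc, zpow_mul]; norm_cast; rw [hd]; simp
    · right; rw [hc, zpow_add, zpow_mul]; norm_cast; rw [hd]; simp
  · rintro (rfl | rfl)
    · exact one_mem _
    · exact mem_zpowers _

theorem central_normal {M : Subgroup Y} (h : ∀ k ∈ M, ∀ g : Y, g * k = k * g) : M.Normal := by
  constructor
  intro n hn g
  rw [h n hn g]
  simpa using hn

/-- the count for a central subgroup of order 2 inside a central `℧(P)` of order 4 -/
theorem count_quot [Finite Y] (S : Sit π) (h4 : Nat.card (sq π.ker) = 4) (hexp : ∀ k ∈ sq π.ker, k ^ 2 = 1)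
    (hcen : ∀ k ∈ sq π.ker, ∀ g : Y, g * k = k * g) (d : Y) (hd : d ∈ sq π.ker) (hd1 : d ≠ 1) :
    Nat.card {x // x ∈ π.ker ∧ (x ^ 2 = 1 ∨ x ^ 2 = d)} = 24 := by
  have hMK : zpowers d ≤ sq π.ker := by rw [zpowers_le]; exact hd
  have hMn : (zpowers d).Normal := central_normal fun k hk => hcen k (hMK hk)
  have hM2 : Nat.card (zpowers d) = 2 := by
    rw [Nat.card_zpowers]; exact orderOf_eq_prime (hexp d hd) hd1
  have S' := S.quot (zpowers d) hMK
  have hq : Nat.card (sq (qh (zpowers d) (hMK.trans (sq_le π.ker))).ker) = 2 := by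
    rw [sq_ker_qh]
    have := card_map_mk hMK
    rw [hM2, h4] at this; omega
  have h12 := count32 S' hq
  let T : Set (Y ⧸ zpowers d) := {x | x ∈ (qh (zpowers d) (hMK.trans (sq_le π.ker))).ker ∧ x ^ 2 = 1}
  have h5 := Nat.card_congr (QuotientGroup.preimageMkEquivSubgroupProdSet (zpowers d) T)
  rw [Nat.card_prod, hM2] at h5
  have h6 : Nat.card T = 12 := h12
  rw [h6] at h5
  have h7 : Nat.card {x // x ∈ π.ker ∧ (x ^ 2 = 1 ∨ x ^ 2 = d)} =
      Nat.card ↑((QuotientGroup.mk : Y → Y ⧸ zpowers d) ⁻¹' T) := by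
    apply Nat.card_congr
    refine Equiv.subtypeEquivRight fun x => ?_
    have h8 : x ∈ (QuotientGroup.mk : Y → Y ⧸ zpowers d) ⁻¹' T ↔
      QuotientGroup.mk' (zpowers d) x ∈ (qh (zpowers d) (hMK.trans (sq_le π.ker))).ker ∧
        (QuotientGroup.mk' (zpowers d) x) ^ 2 = 1 := Iff.rfl
    rw [h8, ker_qh, mem_map_mk (hMK.trans (sq_le π.ker)), ← map_pow]
    refine and_congr_right fun _ => ?_
    rw [← mem_zpowers_two (hexp d hd)]
    exact (QuotientGroup.eq_one_iff _).symm
  rw [h7, h5]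

set_option maxHeartbeats 1000000 in
theorem no4 [Finite Y] (S : Sit π) (h4 : Nat.card (sq π.ker) = 4) : False := by
  classical
  have hPn : π.ker.Normal := inferInstance
  have hN := sq_normal hPn
  have F5 : Fact (Nat.Prime 5) := ⟨by norm_num⟩
  have F3 : Fact (Nat.Prime 3) := ⟨by norm_num⟩
  obtain ⟨f, hf0, hf⟩ := S.exists_order (p := 5) (by norm_num) (by norm_num)
  have hf5 : f ^ 5 = 1 := by rw [← hf0]; exact pow_orderOf_eq_one f
  have hKp : IsPGroup 2 (sq π.ker) := S.pg.to_le (sq_le _)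
  have hfK : ∀ k ∈ sq π.ker, f * k = k * f := by
    rcases five_action hKp (by rw [h4]; norm_num) (fun x hx => hN.conj_mem x hx f)
      (fun x _ => by rw [hf5]; simp) with h | h
    · exact h
    · rw [h4] at h; exact absurd h.1 (by norm_num)
  have hKab : ∀ x ∈ sq π.ker, ∀ y ∈ sq π.ker, x * y = y * x := by
    have F2 : Fact (Nat.Prime 2) := ⟨Nat.prime_two⟩
    have h1 := IsPGroup.isMulCommutative_of_card_eq_prime_sq (p := 2) (G := sq π.ker) (by rw [h4]; norm_num)
    intro x hx y hy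
    have h2 := h1.is_comm.comm ⟨x, hx⟩ ⟨y, hy⟩
    exact congrArg Subtype.val h2
  have hPK : ∀ x ∈ π.ker, ∀ k ∈ sq π.ker, x * k = k * x := by
    intro x hx k hk
    obtain ⟨y, hy, κ, hκ, rfl⟩ := S.gen hf hx
    have h0 : f⁻¹ * k * f = k := by rw [mul_assoc, ← hfK k hk]; group
    have h1 : f * y * f⁻¹ * k * (f * y * f⁻¹)⁻¹ = y * k * y⁻¹ := by
      calc f * y * f⁻¹ * k * (f * y * f⁻¹)⁻¹ = f * (y * (f⁻¹ * k * f) * y⁻¹) * f⁻¹ := by group
        _ = f * (y * k * y⁻¹) * f⁻¹ := by rw [h0]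
        _ = y * k * y⁻¹ := by rw [hfK _ (hN.conj_mem k hk y)]; group
    have h2 : y⁻¹ * (f * y * f⁻¹) * k = k * (y⁻¹ * (f * y * f⁻¹)) := by
      calc y⁻¹ * (f * y * f⁻¹) * k = y⁻¹ * (f * y * f⁻¹ * k * (f * y * f⁻¹)⁻¹) * (f * y * f⁻¹) := by group
        _ = y⁻¹ * (y * k * y⁻¹) * (f * y * f⁻¹) := by rw [h1]
        _ = _ := by group
    calc y⁻¹ * (f * y * f⁻¹) * κ * k = y⁻¹ * (f * y * f⁻¹) * (κ * k) := by group
      _ = y⁻¹ * (f * y * f⁻¹) * k * κ := by rw [hKab κ hκ k hk]; group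
      _ = _ := by rw [h2]; group
  have hcen : ∀ k ∈ sq π.ker, ∀ g : Y, g * k = k * g := by
    have hR : (centralizer (sq π.ker : Set Y)).Normal := inferInstance
    have h1 := S.eq_top_of_five hR (fun x hx => mem_centralizer_iff.mpr fun k hk => (hPK x hx k hk).symm)
      (mem_centralizer_iff.mpr fun k hk => (hfK k hk).symm) hf
    intro k hk g
    have h2 : g ∈ centralizer (sq π.ker : Set Y) := by rw [h1]; exact mem_top g
    exact (mem_centralizer_iff.mp h2 k hk).symm
  have hexp : ∀ k ∈ sq π.ker, k ^ 2 = 1 := by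
    let D : Subgroup Y :=
      { carrier := {k | k ∈ sq π.ker ∧ k ^ 2 = 1}
        one_mem' := ⟨one_mem _, by simp⟩
        mul_mem' := by
          rintro a b ⟨ha, ha2⟩ ⟨hb, hb2⟩
          refine ⟨mul_mem ha hb, ?_⟩
          have h1 := hcen b hb a
          calc (a * b) ^ 2 = a * (b * a) * b := by simp only [pow_two]; group
            _ = a * (a * b) * b := by rw [h1]
            _ = a ^ 2 * b ^ 2 := by simp only [pow_two]; group
            _ = 1 := by rw [ha2, hb2, one_mul]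
        inv_mem' := by
          rintro a ⟨ha, ha2⟩
          refine ⟨inv_mem ha, ?_⟩
          rw [inv_pow, ha2, inv_one] }
    have hcc : ∀ p ∈ π.ker, ∀ q ∈ π.ker, (p * q * p⁻¹ * q⁻¹) ^ 2 = 1 := by
      intro p hp q hq
      have h1 := hcen _ (sq_mem hp) q
      have h2 := hcen _ (comm_mem hp hq) p
      have h3 : p ^ 2 * q * (p ^ 2)⁻¹ * q⁻¹ = 1 := by rw [← h1]; group
      have h4 : p ^ 2 * q * (p ^ 2)⁻¹ * q⁻¹ = (p * (p * q * p⁻¹ * q⁻¹)) * p⁻¹ * (p * q * p⁻¹ * q⁻¹) := by
        simp only [pow_two]; group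
      rw [h2] at h4
      rw [← h3, h4, pow_two]; group
    have h1 : sq π.ker ≤ D := by
      rw [sq_le_iff]
      intro x hx
      refine ⟨sq_mem hx, ?_⟩
      obtain ⟨y, hy, κ, hκ, rfl⟩ := S.gen hf hx
      have hfy : f * y * f⁻¹ ∈ π.ker := hPn.conj_mem y hy f
      set c := y * (f * y * f⁻¹) * y⁻¹ * (f * y * f⁻¹)⁻¹ with hcdef
      have hc : c ∈ sq π.ker := comm_mem hy hfy
      have hy2 : (f * y * f⁻¹) ^ 2 = y ^ 2 := by
        calc (f * y * f⁻¹) ^ 2 = f * y ^ 2 * f⁻¹ := by simp only [pow_two]; group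
          _ = y ^ 2 := by rw [hfK _ (sq_mem hy)]; group
      have hu : (y⁻¹ * (f * y * f⁻¹)) ^ 2 = c := by
        have h2 : (y⁻¹ * (f * y * f⁻¹)) ^ 2 = (y ^ 2)⁻¹ * c * (f * y * f⁻¹) ^ 2 := by
          rw [hcdef]; simp only [pow_two]; group
        rw [h2, hy2, mul_assoc, ← hcen c hc (y ^ 2)]; group
      have hx2 : (y⁻¹ * (f * y * f⁻¹) * κ) ^ 2 = c * κ ^ 2 := by
        calc (y⁻¹ * (f * y * f⁻¹) * κ) ^ 2 = y⁻¹ * (f * y * f⁻¹) * (κ * (y⁻¹ * (f * y * f⁻¹))) * κ := by
              simp only [pow_two]; group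
          _ = y⁻¹ * (f * y * f⁻¹) * (y⁻¹ * (f * y * f⁻¹) * κ) * κ := by rw [hcen κ hκ (y⁻¹ * (f * y * f⁻¹))]
          _ = (y⁻¹ * (f * y * f⁻¹)) ^ 2 * κ ^ 2 := by simp only [pow_two]; group
          _ = _ := by rw [hu]
      have hk4 : (κ ^ 2) ^ 2 = 1 := by
        have h5 : (⟨κ, hκ⟩ : sq π.ker) ^ 4 = 1 := by rw [← h4]; exact pow_card_eq_one'
        have h6 : κ ^ 4 = 1 := congrArg Subtype.val h5
        rw [← pow_mul]; exact h6
      rw [hx2]
      have h7 := hcen (κ ^ 2) (pow_mem hκ 2) c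
      calc (c * κ ^ 2) ^ 2 = c * (κ ^ 2 * c) * κ ^ 2 := by simp only [pow_two]; group
        _ = c * (c * κ ^ 2) * κ ^ 2 := by rw [h7]
        _ = c ^ 2 * (κ ^ 2) ^ 2 := by simp only [pow_two]; group
        _ = 1 := by rw [hk4, hcdef, hcc y hy _ hfy, one_mul]
    exact fun k hk => (h1 hk).2
  -- the elements of `K`
  let _ := Fintype.ofFinite Y
  have hKF : (Finset.univ.filter fun x : Y => x ∈ sq π.ker).card = 4 := by
    rw [card_filter_eq]; exact h4
  have hKF3 : ((Finset.univ.filter fun x : Y => x ∈ sq π.ker).erase 1).card = 3 := by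
    rw [Finset.card_erase_of_mem, hKF]
    rw [Finset.mem_filter]; exact ⟨Finset.mem_univ _, one_mem _⟩
  obtain ⟨a, b, c, hab, hac, hbc, habc⟩ := Finset.card_eq_three.mp hKF3
  have hmem : ∀ x : Y, (x ≠ 1 ∧ x ∈ sq π.ker) ↔ x = a ∨ x = b ∨ x = c := by
    intro x
    have h1 : x ∈ (Finset.univ.filter fun x : Y => x ∈ sq π.ker).erase 1 ↔ x ∈ ({a, b, c} : Finset Y) := by rw [habc]
    simpa using h1
  have ha := (hmem a).mpr (Or.inl rfl)
  have hb := (hmem b).mpr (Or.inr (Or.inl rfl))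
  have hc := (hmem c).mpr (Or.inr (Or.inr rfl))
  let N : Y → ℕ := fun k => (Finset.univ.filter fun x : Y => x ∈ π.ker ∧ x ^ 2 = k).card
  have hNd : ∀ d ∈ sq π.ker, d ≠ 1 → N 1 + N d = 24 := by
    intro d hd hd1
    have h1 := count_quot S h4 hexp hcen d hd hd1
    rw [← card_filter_eq] at h1
    rw [← h1]
    rw [← Finset.card_union_of_disjoint]
    · congr 1
      ext x
      simp only [Finset.mem_union, Finset.mem_filter, Finset.mem_univ, true_and]
      tauto
    · rw [Finset.disjoint_left]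
      intro x hx hx'
      rw [Finset.mem_filter] at hx hx'
      exact hd1 (hx'.2.2.symm.trans hx.2.2)
  have hP64 : Nat.card π.ker = 64 := by
    have h3 := relIndex_mul_relIndex (⊥ : Subgroup Y) (sq π.ker) π.ker bot_le (sq_le _)
    rw [relIndex_bot_left, relIndex_bot_left, h4, S.idx] at h3
    omega
  have hfib : ∀ (A : Y → Prop), ((Finset.univ.filter fun x : Y => x ∈ π.ker ∧ A x).card =
      (Finset.univ.filter fun x : Y => (x ∈ π.ker ∧ A x) ∧ x ^ 2 = 1).card +
      ((Finset.univ.filter fun x : Y => (x ∈ π.ker ∧ A x) ∧ x ^ 2 = a).card +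
      ((Finset.univ.filter fun x : Y => (x ∈ π.ker ∧ A x) ∧ x ^ 2 = b).card +
      (Finset.univ.filter fun x : Y => (x ∈ π.ker ∧ A x) ∧ x ^ 2 = c).card))) := by
    intro A
    have h1 := Finset.card_eq_sum_card_fiberwise (f := fun x : Y => x ^ 2)
      (s := Finset.univ.filter fun x : Y => x ∈ π.ker ∧ A x) (t := {1, a, b, c}) (by
        intro x hx
        rw [Finset.mem_coe, Finset.mem_filter] at hx
        have h2 := sq_mem hx.2.1
        by_cases h3 : x ^ 2 = 1
        · simp [h3]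
        · have := (hmem _).mp ⟨h3, h2⟩
          simp only [Finset.coe_insert, Finset.coe_singleton, Set.mem_insert_iff, Set.mem_singleton_iff]
          tauto)
    rw [h1, Finset.sum_insert, Finset.sum_insert, Finset.sum_insert, Finset.sum_singleton]
    · simp only [Finset.filter_filter]
    · simpa using hbc
    · simp [hab, hac]
    · simp [ha.1.symm, hb.1.symm, hc.1.symm]
  have hNs : N 1 + (N a + (N b + N c)) = 64 := by
    have h1 := hfib (fun _ => True)
    simp only [and_true] at h1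
    rw [card_filter_eq] at h1
    have h2 : Nat.card {x // x ∈ π.ker} = 64 := hP64
    rw [h2] at h1
    exact h1.symm
  have hN1 := hNd a ha.2 ha.1
  have hN2 := hNd b hb.2 hb.1
  have hN3 := hNd c hc.2 hc.1
  have hn1 : N 1 = 4 := by omega
  have hna : N a = 20 := by omega
  have hnb : N b = 20 := by omega
  have hnc : N c = 20 := by omega
  -- an element of order 3
  obtain ⟨e, he0, he⟩ := S.exists_order (p := 3) (by norm_num) (by norm_num)
  have he3 : e ^ 3 = 1 := by rw [← he0]; exact pow_orderOf_eq_one e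
  let F : Y → ℕ := fun k => (Finset.univ.filter fun x : Y => (x ∈ π.ker ∧ e * x = x * e) ∧ x ^ 2 = k).card
  have hFmod : ∀ k ∈ sq π.ker, N k ≡ F k [MOD 3] := by
    intro k hk
    have h1 := count_modEq (p := 3) (fun x => x ∈ π.ker ∧ x ^ 2 = k) e (by
      rintro x ⟨hx, hx2⟩
      refine ⟨hPn.conj_mem x hx e, ?_⟩
      have : (e * x * e⁻¹) ^ 2 = e * x ^ 2 * e⁻¹ := by simp only [pow_two]; group
      rw [this, hx2, hcen k hk]; group) (by
      intro x _
      rw [he3]; simp)
    rw [← card_filter_eq, ← card_filter_eq] at h1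
    have h2 : (Finset.univ.filter fun x : Y => (x ∈ π.ker ∧ x ^ 2 = k) ∧ e * x = x * e) =
        (Finset.univ.filter fun x : Y => (x ∈ π.ker ∧ e * x = x * e) ∧ x ^ 2 = k) := by
      ext x; simp only [Finset.mem_filter, Finset.mem_univ, true_and]; tauto
    rw [h2] at h1
    exact h1
  have hFle : ∀ k, F k ≤ N k := by
    intro k
    apply Finset.card_le_card
    intro x hx
    rw [Finset.mem_filter] at hx ⊢
    exact ⟨hx.1, hx.2.1.1, hx.2.2⟩
  have hF4 : ∀ k, 4 ∣ F k := by
    intro k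
    have h1 : F k = Nat.card {x // (x ∈ π.ker ∧ e * x = x * e) ∧ x ^ 2 = k} := card_filter_eq _
    rw [h1, ← h4]
    let act : MulAction (sq π.ker) {x // (x ∈ π.ker ∧ e * x = x * e) ∧ x ^ 2 = k} :=
      { smul := fun κ x => ⟨κ * x, ⟨mul_mem (sq_le _ κ.2) x.2.1.1, by
          rw [← mul_assoc, hcen κ κ.2 e, mul_assoc, x.2.1.2, mul_assoc]⟩, by
          calc ((κ : Y) * x) ^ 2 = κ * (x * κ) * x := by simp only [pow_two]; group
            _ = κ * (κ * x) * x := by rw [hcen κ κ.2 x]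
            _ = (κ : Y) ^ 2 * (x : Y) ^ 2 := by simp only [pow_two]; group
            _ = k := by rw [hexp κ κ.2, x.2.2, one_mul]⟩
        one_smul := fun x => Subtype.ext (one_mul _)
        mul_smul := fun κ κ' x => Subtype.ext (mul_assoc _ _ _) }
    apply H70Frattini.card_dvd_of_free
    intro κ x h
    have h2 : (κ : Y) * x = x := congrArg Subtype.val h
    exact Subtype.ext (mul_eq_right.mp h2)
  have hF1 : F 1 = 4 := by
    have h1 : (Finset.univ.filter fun x : Y => x ∈ sq π.ker) = (Finset.univ.filter fun x : Y => x ∈ π.ker ∧ x ^ 2 = 1) := by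
      apply Finset.eq_of_subset_of_card_le
      · intro x hx
        rw [Finset.mem_filter] at hx ⊢
        exact ⟨hx.1, sq_le _ hx.2, hexp x hx.2⟩
      · rw [hKF]; exact hn1.le
    rw [← hn1]
    apply le_antisymm (hFle 1)
    apply Finset.card_le_card
    intro x hx
    have h2 : x ∈ (Finset.univ.filter fun x : Y => x ∈ sq π.ker) := by rw [h1]; exact hx
    rw [Finset.mem_filter] at hx h2 ⊢
    exact ⟨hx.1, ⟨hx.2.1, hcen x h2.2 e⟩, hx.2.2⟩
  have hCc : Nat.card (π.ker ⊓ centralizer {e} : Subgroup Y) = F 1 + (F a + (F b + F c)) := by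
    have h1 := hfib (fun x => e * x = x * e)
    have h2 : Nat.card (π.ker ⊓ centralizer {e} : Subgroup Y) =
        (Finset.univ.filter fun x : Y => x ∈ π.ker ∧ e * x = x * e).card := by
      rw [card_filter_eq]
      apply Nat.card_congr
      refine Equiv.subtypeEquivRight fun x => ?_
      rw [mem_inf, mem_centralizer_singleton_iff]
      exact and_congr_right fun _ => ⟨fun h => h.symm, fun h => h.symm⟩
    rw [h2]
    exact h1
  have hdvd : Nat.card (π.ker ⊓ centralizer {e} : Subgroup Y) ∣ 64 := by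
    rw [← hP64]; exact card_dvd_of_le inf_le_left
  have m1 := hFmod a ha.2
  have m2 := hFmod b hb.2
  have m3 := hFmod c hc.2
  have l1 := hFle a
  have l2 := hFle b
  have l3 := hFle c
  have d1 := hF4 a
  have d2 := hF4 b
  have d3 := hF4 c
  rw [hna] at m1 l1
  rw [hnb] at m2 l2
  rw [hnc] at m3 l3
  unfold Nat.ModEq at m1 m2 m3
  rw [hF1] at hCc
  have hall : Nat.card (π.ker ⊓ centralizer {e} : Subgroup Y) = 28 ∨ Nat.card (π.ker ⊓ centralizer {e} : Subgroup Y) = 40 ∨
      Nat.card (π.ker ⊓ centralizer {e} : Subgroup Y) = 52 ∨ Nat.card (π.ker ⊓ centralizer {e} : Subgroup Y) = 64 := by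
    omega
  have h64 : Nat.card (π.ker ⊓ centralizer {e} : Subgroup Y) = 64 := by
    rcases hall with h | h | h | h
    · rw [h] at hdvd; norm_num at hdvd
    · rw [h] at hdvd; norm_num at hdvd
    · rw [h] at hdvd; norm_num at hdvd
    · exact h
  have hCP : (π.ker ⊓ centralizer {e} : Subgroup Y) = π.ker := eq_of_le_of_card_ge inf_le_left (by rw [h64, hP64])
  apply S.no_central (g := e)
  · intro h
    rw [h, orderOf_one] at he
    norm_num at he
  · intro x hx
    rw [← hCP, mem_inf, mem_centralizer_singleton_iff] at hx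
    rw [← hx.2]
    have : x * e * e⁻¹ * x⁻¹ = 1 := by group
    rw [this]; exact one_mem _

end Cfsg.Agent.Lib.H50Five
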