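import Mathlib
import Cfsg.Agent.Lib.H50FiveD

/-! S3106: the induction: `|℧(P)| ≤ 2` (helper50). -/

set_option autoImplicit false

namespace Cfsg.Agent.Lib.H50Five

open Subgroup Cfsg Cfsg.Agent.Lib.SectRank

universe u

theorem comm_of_sq {H : Type*} [Group H] {K : Subgroup H} (h : ∀ x ∈ K, x ^ 2 = 1) : ∀ x ∈ K, ∀ y ∈ K, x * y = y * x := by
  intro x hx y hy
  have hi : ∀ z ∈ K, z⁻¹ = z := by
    intro z hz
    rw [inv_eq_iff_mul_eq_one, ← pow_two]; exact h z hz
  have h1 := hi _ (mul_mem hx hy)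
  rw [mul_inv_rev, hi x hx, hi y hy] at h1
  exact h1.symm

/-- in a group of exponent 2, the rank bounds the order -/
theorem card_le_of_exp {Y : Type u} [Group Y] (h : RankIn 2 4 (⊤ : Subgroup Y)) {K : Subgroup Y}
    (hK : ∀ x ∈ K, x ^ 2 = 1) : Nat.card K ≤ 16 := by
  have h1 := h ⊥ K bot_le le_top (fun x hx => by rw [hK x hx]; exact one_mem _) (fun x hx y hy => by
    rw [comm_of_sq hK x hx y hy]
    have : y * x * x⁻¹ * y⁻¹ = 1 := by group
    rw [this]; exact one_mem _)
  rw [relIndex_bot_left] at h1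
  exact h1

theorem bound (n : ℕ) : ∀ {Y : Type u} [Group Y] [Finite Y] (π : Y →* A5), Nat.card Y = n → Sit π →
    Nat.card (sq π.ker) ≤ 2 := by
  induction n using Nat.strong_induction_on with
  | _ n ih =>
  intro Y _ _ π hn S
  have hPn : π.ker.Normal := inferInstance
  have hN := sq_normal hPn
  have F2 : Fact (Nat.Prime 2) := ⟨Nat.prime_two⟩
  by_cases hbot : sq π.ker = ⊥
  · rw [hbot, Nat.card_eq_fintype_card]
    simp
  -- quotient step
  have step : ∀ M : Subgroup Y, M.Normal → M ≤ sq π.ker → M ≠ ⊥ → ∃ j ≤ 2, Nat.card (sq π.ker) = Nat.card M * j := by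
    intro M hM hMK hM1
    have S' := S.quot M hMK
    have h1 : Nat.card (Y ⧸ M) < n := by
      have h2 := Subgroup.card_eq_card_quotient_mul_card_subgroup M
      have h3 : 1 < Nat.card M := (one_lt_card_iff_ne_bot M).mpr hM1
      have h4 : 0 < Nat.card (Y ⧸ M) := Nat.card_pos
      rw [← hn, h2]
      nlinarith
    have h2 := ih _ h1 (qh M (hMK.trans (sq_le π.ker))) rfl S'
    rw [sq_ker_qh] at h2
    exact ⟨_, h2, (card_map_mk hMK).symm⟩
  -- the subgroup `Z`
  let Z : Subgroup Y :=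
    { carrier := {x | x ∈ sq π.ker ∧ (∀ y ∈ π.ker, x * y = y * x) ∧ x ^ 2 = 1}
      one_mem' := ⟨one_mem _, fun y _ => by simp, by simp⟩
      mul_mem' := by
        rintro a b ⟨ha, ha1, ha2⟩ ⟨hb, hb1, hb2⟩
        refine ⟨mul_mem ha hb, fun y hy => by rw [mul_assoc, hb1 y hy, ← mul_assoc, ha1 y hy, mul_assoc], ?_⟩
        have h1 := hb1 a (sq_le _ ha)
        calc (a * b) ^ 2 = a * (b * a) * b := by simp only [pow_two]; group
          _ = a * (a * b) * b := by rw [h1]
          _ = a ^ 2 * b ^ 2 := by simp only [pow_two]; group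
          _ = 1 := by rw [ha2, hb2, one_mul]
      inv_mem' := by
        rintro a ⟨ha, ha1, ha2⟩
        refine ⟨inv_mem ha, fun y hy => ?_, by rw [inv_pow, ha2, inv_one]⟩
        rw [inv_mul_eq_iff_eq_mul, ← mul_assoc, ha1 y hy]; group }
  have memZ : ∀ x, x ∈ Z ↔ x ∈ sq π.ker ∧ (∀ y ∈ π.ker, x * y = y * x) ∧ x ^ 2 = 1 := fun x => Iff.rfl
  have hZn : Z.Normal := by
    constructor
    intro x hx g
    rw [memZ] at hx ⊢
    refine ⟨hN.conj_mem x hx.1 g, fun y hy => ?_, ?_⟩
    · have h1 := hx.2.1 _ (hPn.conj_mem y hy g⁻¹)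
      calc g * x * g⁻¹ * y = g * (x * (g⁻¹ * y * g⁻¹⁻¹)) * g⁻¹ := by group
        _ = g * ((g⁻¹ * y * g⁻¹⁻¹) * x) * g⁻¹ := by rw [h1]
        _ = _ := by group
    · calc (g * x * g⁻¹) ^ 2 = g * x ^ 2 * g⁻¹ := by simp only [pow_two]; group
        _ = 1 := by rw [hx.2.2]; group
  have hZK : Z ≤ sq π.ker := fun x hx => hx.1
  have hZe : ∀ x ∈ Z, x ^ 2 = 1 := fun x hx => hx.2.2
  have hKp : IsPGroup 2 (sq π.ker) := S.pg.to_le (sq_le _)
  have hZp : IsPGroup 2 Z := hKp.to_le hZK
  have hZ1 : Z ≠ ⊥ := by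
    obtain ⟨z, hz, hzc, hzo⟩ := PAct.exists_fixed_orderOf_eq S.pg hKp hbot (by
      rw [normalizer_eq_top]; exact le_top)
    intro h
    have h1 : z ∈ Z := ⟨hz, fun y hy => (hzc y hy).symm, by rw [← hzo]; exact pow_orderOf_eq_one z⟩
    rw [h, mem_bot] at h1
    rw [h1, orderOf_one] at hzo
    norm_num at hzo
  have hZ16 := card_le_of_exp S.rank hZe
  have hact : ∀ f : Y, orderOf (π f) = 5 →
      (∀ x ∈ Z, f * x = x * f) ∨ (Nat.card Z = 16 ∧ ∀ x ∈ Z, f * x = x * f → x = 1) := by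
    intro f hf
    exact five_action hZp hZ16 (fun x hx => hZn.conj_mem x hx f) (fun x hx => (hx.2.1 _ (Sit.pow_five hf)).symm)
  have hcenZ : ∀ f : Y, orderOf (π f) = 5 → (∀ x ∈ Z, f * x = x * f) → ∀ x ∈ Z, ∀ g : Y, g * x = x * g := by
    intro f hf hfZ x hx g
    have hR : (centralizer (Z : Set Y)).Normal := inferInstance
    have h1 := S.eq_top_of_five hR (fun x hx => mem_centralizer_iff.mpr fun k hk => hk.2.1 x hx)
      (mem_centralizer_iff.mpr fun k hk => (hfZ k hk).symm) hf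
    have h2 : g ∈ centralizer (Z : Set Y) := by rw [h1]; exact mem_top g
    exact (mem_centralizer_iff.mp h2 x hx).symm
  obtain ⟨f, hf⟩ := S.exists_f
  rcases hact f hf with hfZ | ⟨hZc, hfZ⟩
  · -- `Z` is central: a central subgroup of order 2
    have hc := hcenZ f hf hfZ
    obtain ⟨z, hz, hz1⟩ := (Z.ne_bot_iff_exists_ne_one.mp hZ1 : ∃ a : Z, a ≠ 1) |>.imp (fun a ha => ha) |> fun ⟨a, ha⟩ =>
      (⟨(a : Y), a.2, fun h => ha (Subtype.ext h)⟩ : ∃ z : Y, z ∈ Z ∧ z ≠ 1)
    have hMZ : zpowers z ≤ Z := by rw [zpowers_le]; exact hz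
    have hM2 : Nat.card (zpowers z) = 2 := by
      rw [Nat.card_zpowers]; exact orderOf_eq_prime (hZe z hz) hz1
    obtain ⟨j, hj, hcard⟩ := step (zpowers z) (central_normal fun k hk => hc k (hMZ hk)) (hMZ.trans hZK) (by
      intro h; rw [h] at hM2; simp at hM2)
    rw [hM2] at hcard
    by_contra hcon
    have h4 : Nat.card (sq π.ker) = 4 := by omega
    exact no4 S h4
  · exfalso
    have hfpf : ∀ f : Y, orderOf (π f) = 5 → ∀ x ∈ Z, f * x = x * f → x = 1 := by
      intro g hg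
      rcases hact g hg with h | h
      · exfalso
        apply hZ1
        rw [eq_bot_iff]
        intro x hx
        rw [mem_bot]
        exact hfZ x hx (hcenZ g hg h x hx f)
      · exact h.2
    obtain ⟨j, hj, hcard⟩ := step Z hZn hZK hZ1
    rw [hZc] at hcard
    have hj0 : j ≠ 0 := by
      rintro rfl
      have : 0 < Nat.card (sq π.ker) := Nat.card_pos
      omega
    have hj12 : j = 1 ∨ j = 2 := by omega
    rcases hj12 with rfl | rfl
    · -- `K = Z`
      have hKZ : Z = sq π.ker := eq_of_le_of_card_ge hZK (by rw [hcard, hZc])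
      apply no16 S
      · intro k hk x hx
        rw [← hKZ] at hk
        exact hk.2.1 x hx
      · intro k hk
        rw [← hKZ] at hk
        exact hk.2.2
      · rw [hcard]
      · intro g hg k hk
        rw [← hKZ] at hk
        exact hfpf g hg k hk
    · -- `|K| = 32`
      have hidx : (Z.subgroupOf (sq π.ker)).index = 2 := by
        have h3 := relIndex_mul_relIndex (⊥ : Subgroup Y) Z (sq π.ker) bot_le hZK
        rw [relIndex_bot_left, relIndex_bot_left, hZc, hcard] at h3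
        change Z.relIndex (sq π.ker) = 2
        omega
      have htwo : ∀ x ∈ sq π.ker, ∀ y ∈ sq π.ker, (x * y ∈ Z ↔ (x ∈ Z ↔ y ∈ Z)) := by
        intro x hx y hy
        have h1 := mul_mem_iff_of_index_two hidx (a := ⟨x, hx⟩) (b := ⟨y, hy⟩)
        simpa [mem_subgroupOf] using h1
      have hexp : ∀ x ∈ sq π.ker, x ^ 2 = 1 := by
        intro x hx
        by_cases hxZ : x ∈ Z
        · exact hZe x hxZ
        have hx2 : x ^ 2 ∈ Z := by
          rw [pow_two, htwo x hx x hx]
        have hfx : f * x * f⁻¹ ∈ sq π.ker := hN.conj_mem x hx f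
        have hfxZ : f * x * f⁻¹ ∉ Z := by
          intro h
          apply hxZ
          have h1 := hZn.conj_mem _ h f⁻¹
          have h2 : f⁻¹ * (f * x * f⁻¹) * f⁻¹⁻¹ = x := by group
          rwa [h2] at h1
        have hm : x⁻¹ * (f * x * f⁻¹) ∈ Z := by
          rw [htwo _ (inv_mem hx) _ hfx]
          constructor
          · intro h; exact absurd (by simpa using inv_mem h) hxZ
          · intro h; exact absurd h hfxZ
        apply hfpf f hf _ hx2
        have h3 : (f * x * f⁻¹) = x * (x⁻¹ * (f * x * f⁻¹)) := by group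
        have h4 : (f * x * f⁻¹) ^ 2 = x ^ 2 := by
          have h5 := hm.2.1 x (sq_le _ hx)
          calc (f * x * f⁻¹) ^ 2 = x * ((x⁻¹ * (f * x * f⁻¹)) * x) * (x⁻¹ * (f * x * f⁻¹)) := by
                simp only [pow_two]; group
            _ = x * (x * (x⁻¹ * (f * x * f⁻¹))) * (x⁻¹ * (f * x * f⁻¹)) := by rw [h5]
            _ = x ^ 2 * (x⁻¹ * (f * x * f⁻¹)) ^ 2 := by simp only [pow_two]; group
            _ = x ^ 2 := by rw [hZe _ hm, mul_one]
        calc f * x ^ 2 = (f * x * f⁻¹) ^ 2 * f := by simp only [pow_two]; group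
          _ = x ^ 2 * f := by rw [h4]
      have := card_le_of_exp S.rank hexp
      omega

end Cfsg.Agent.Lib.H50Five
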