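import Mathlib
import Cfsg.Agent.Lib.SectRank
import Cfsg.Agent.Lib.H50FiveE

/-! S3105 (helper64 and team): common definitions. `L` is a simple group of order 168. -/

set_option autoImplicit false

namespace Cfsg.Agent.Lib.H64L

open Subgroup Cfsg Cfsg.Agent.Lib.SectRank Cfsg.Agent.Lib.H50Five

universe u v

/-- `L` is a simple group of order 168 -/
structure IsL (L : Type v) [Group L] : Prop where
  simple : IsSimpleGroup L
  card : Nat.card L = 168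

variable {Y : Type u} {L : Type v} [Group Y] [Group L]

/-- the images of `a, b, c` in `W / K` are independent (`W / K` elementary abelian) -/
def Ind (K : Subgroup Y) (a b c : Y) : Prop :=
  a ∉ K ∧ b ∉ K ∧ c ∉ K ∧ a * b ∉ K ∧ a * c ∉ K ∧ b * c ∉ K ∧ a * b * c ∉ K

/-- `W / K` is elementary abelian of order 8, `ker π` acts trivially on it, `Y` does not. -/
structure Nat8 (π : Y →* L) (K W : Subgroup Y) : Prop where
  nK : K.Normal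
  nW : W.Normal
  le : K ≤ W
  card : Nat.card W = 8 * Nat.card K
  sq : ∀ x ∈ W, x ^ 2 ∈ K
  triv : ∀ p ∈ π.ker, ∀ x ∈ W, p * x * p⁻¹ * x⁻¹ ∈ K
  nt : ∃ g : Y, ∃ x ∈ W, g * x * g⁻¹ * x⁻¹ ∉ K

/-- `W / K` is elementary abelian of order 16, `ker π` acts trivially on it, `Y` does not. -/
structure Nat16 (π : Y →* L) (K W : Subgroup Y) : Prop where
  nK : K.Normal
  nW : W.Normal
  le : K ≤ W
  card : Nat.card W = 16 * Nat.card K
  sq : ∀ x ∈ W, x ^ 2 ∈ K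
  triv : ∀ p ∈ π.ker, ∀ x ∈ W, p * x * p⁻¹ * x⁻¹ ∈ K
  nt : ∃ g : Y, ∃ x ∈ W, g * x * g⁻¹ * x⁻¹ ∉ K

/-- the main situation -/
structure Sit (π : Y →* L) : Prop where
  surj : Function.Surjective π
  pg : IsPGroup 2 π.ker
  rank : RankIn 2 4 (⊤ : Subgroup Y)
  free : ∀ g : Y, (∀ x ∈ π.ker, g * x * g⁻¹ * x⁻¹ ∈ H50Five.sq π.ker) → g ∈ π.ker

/-- `E = ker π` is homocyclic of type (4,4,4) with `M = Ω₁(E) = ℧₁(E)`. -/
structure Homo (E M : Subgroup Y) : Prop where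
  nE : E.Normal
  nM : M.Normal
  le : M ≤ E
  ab : ∀ x ∈ E, ∀ y ∈ E, x * y = y * x
  cE : Nat.card E = 64
  cM : Nat.card M = 8
  sqE : ∀ x ∈ E, x ^ 2 ∈ M
  sqM : ∀ x ∈ M, x ^ 2 = 1
  inv : ∀ x ∈ E, x ^ 2 = 1 → x ∈ M

/-- the situation `|P : M| = 16`, `|M| = 8` (P = ker π) -/
structure Beta (π : Y →* L) (M : Subgroup Y) : Prop where
  surj : Function.Surjective π
  rank : RankIn 2 4 (⊤ : Subgroup Y)
  nM : M.Normal
  le : M ≤ π.ker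
  cP : Nat.card π.ker = 128
  cM : Nat.card M = 8
  sqP : H50Five.sq π.ker = M
  cent : ∀ m ∈ M, ∀ x ∈ π.ker, m * x = x * m
  sqM : ∀ m ∈ M, m ^ 2 = 1
  nt : ∃ g : Y, ∃ m ∈ M, g * m * g⁻¹ * m⁻¹ ≠ 1

/-- `P = ker π` is abelian of order 32, `Ω` of order 16 and exponent 2, squares of `P ∖ Ω` are `m ≠ 1`. -/
structure C48 (π : Y →* L) (Ω : Subgroup Y) (m : Y) : Prop where
  surj : Function.Surjective π
  rank : RankIn 2 4 (⊤ : Subgroup Y)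
  nΩ : Ω.Normal
  le : Ω ≤ π.ker
  ab : ∀ x ∈ π.ker, ∀ y ∈ π.ker, x * y = y * x
  cP : Nat.card π.ker = 32
  cΩ : Nat.card Ω = 16
  sqΩ : ∀ x ∈ Ω, x ^ 2 = 1
  m1 : m ≠ 1
  mΩ : m ∈ Ω
  mc : ∀ g : Y, g * m = m * g
  sqP : ∀ x ∈ π.ker, x ∉ Ω → x ^ 2 = m
  nt : ∃ g : Y, ∃ x ∈ π.ker, g * x * g⁻¹ * x⁻¹ ≠ 1 ∧ g * x * g⁻¹ * x⁻¹ ≠ m

end Cfsg.Agent.Lib.H64L
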