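import Mathlib
import Cfsg.Agent.Lib.H64LA
import Cfsg.Agent.S1004

/-! S3105, piece ORB (helper12): orbits of a simple group of order 168 on an elementary abelian group of order 16. -/

set_option autoImplicit false
set_option linter.all false

namespace Cfsg.Agent.Lib.H64L

open Subgroup Cfsg Cfsg.Agent.Lib.SectRank Cfsg.Agent.Lib.H50Five

universe u v

namespace Orb

section Abs

variable {L : Type*} [Group L] {V : Type*} [Group V] [MulDistribMulAction L V]

theorem comm_of_sq (hsq : ∀ x : V, x * x = 1) (x y : V) : x * y = y * x := by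
  have h1 : ∀ x : V, x⁻¹ = x := fun x => inv_eq_of_mul_eq_one_left (hsq x)
  calc x * y = (x * y)⁻¹ := (h1 _).symm
    _ = y⁻¹ * x⁻¹ := mul_inv_rev _ _
    _ = y * x := by rw [h1, h1]

theorem faithful (hL : IsSimpleGroup L) (hnt : ∃ (l : L) (x : V), l • x ≠ x) {l : L} (h : ∀ x : V, l • x = x) :
    l = 1 := by
  have hn : (MulDistribMulAction.toMulAut L V).ker.Normal := inferInstance
  rcases hL.eq_bot_or_eq_top_of_normal _ hn with h1 | h1
  · have : l ∈ (MulDistribMulAction.toMulAut L V).ker := by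
      rw [MonoidHom.mem_ker]
      ext x
      exact h x
    rw [h1] at this
    exact Subgroup.mem_bot.mp this
  · obtain ⟨m, x, hm⟩ := hnt
    exfalso
    apply hm
    have : m ∈ (MulDistribMulAction.toMulAut L V).ker := by
      rw [h1]
      trivial
    rw [MonoidHom.mem_ker] at this
    exact congrArg (fun e : MulAut V => e x) this

/-- `x ↦ (f x) x⁻¹` -/
def phi (hsq : ∀ x : V, x * x = 1) (f : L) : V →* V where
  toFun x := (f • x) * x⁻¹
  map_one' := by simp
  map_mul' x y := by
    rw [smul_mul', mul_inv_rev]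
    have h1 := comm_of_sq hsq
    calc f • x * f • y * (y⁻¹ * x⁻¹) = f • x * (f • y * y⁻¹ * x⁻¹) := by group
      _ = f • x * (x⁻¹ * (f • y * y⁻¹)) := by rw [h1 (f • y * y⁻¹) x⁻¹]
      _ = f • x * x⁻¹ * (f • y * y⁻¹) := by group

theorem phi_apply (hsq : ∀ x : V, x * x = 1) (f : L) (x : V) : phi hsq f x = (f • x) * x⁻¹ := rfl

theorem mem_ker_phi (hsq : ∀ x : V, x * x = 1) (f : L) (x : V) : x ∈ (phi hsq f).ker ↔ f • x = x := by
  rw [MonoidHom.mem_ker, phi_apply, mul_inv_eq_one]

theorem card_ker_modEq [Finite V] (hsq : ∀ x : V, x * x = 1) {f : L} (hf : orderOf f = 7) :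
    Nat.card V ≡ Nat.card (phi hsq f).ker [MOD 7] := by
  haveI : Fact (Nat.Prime 7) := ⟨by norm_num⟩
  have hp : IsPGroup 7 (Subgroup.zpowers f) :=
    IsPGroup.of_card (n := 1) (by rw [Nat.card_zpowers, hf]; norm_num)
  have h := hp.card_modEq_card_fixedPoints V
  have h2 : Nat.card (MulAction.fixedPoints (Subgroup.zpowers f) V) = Nat.card (phi hsq f).ker := by
    apply Nat.card_congr
    apply Equiv.subtypeEquivRight
    intro x
    rw [mem_ker_phi]
    constructor
    · intro h
      exact h ⟨f, Subgroup.mem_zpowers f⟩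
    · intro h g
      have : Subgroup.zpowers f ≤ MulAction.stabilizer L x := by
        rw [Subgroup.zpowers_le]
        exact h
      exact this g.2
  rw [h2] at h
  exact h

theorem card_ker_mul (hsq : ∀ x : V, x * x = 1) [Finite V] (f : L) :
    Nat.card (phi hsq f).ker * Nat.card (phi hsq f).range = Nat.card V := by
  rw [← (phi hsq f).ker.card_mul_index, Subgroup.index_ker]

/-- transitivity of an element of order 7 on the seven non-trivial elements of an invariant subgroup of order 8 -/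
theorem trans7 [Finite V] {f : L} (hf : orderOf f = 7) {U : Subgroup V} (hU : Nat.card U = 8)
    (hinv : ∀ x ∈ U, f • x ∈ U) (hfix : ∀ x ∈ U, f • x = x → x = 1) {x y : V} (hx : x ∈ U) (hy : y ∈ U) (hx1 : x ≠ 1)
    (hy1 : y ≠ 1) : ∃ l ∈ Subgroup.zpowers f, l • x = y := by
  haveI : Fact (Nat.Prime 7) := ⟨by norm_num⟩
  have hc : Nat.card (Subgroup.zpowers f) = 7 := by rw [Nat.card_zpowers, hf]
  have hinvp : ∀ n : ℕ, ∀ x ∈ U, (f ^ n) • x ∈ U := by
    intro n
    induction n with
    | zero => intro x hx; simpa using hx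
    | succ n ih => intro x hx; rw [pow_succ, mul_smul]; exact ih _ (hinv x hx)
  haveI : Finite (Subgroup.zpowers f) := Nat.finite_of_card_ne_zero (by rw [hc]; norm_num)
  have hsub : MulAction.orbit (Subgroup.zpowers f) x ⊆ (U : Set V) \ {1} := by
    rintro _ ⟨g, rfl⟩
    obtain ⟨n, hn⟩ := (isOfFinOrder_of_finite g).mem_powers_iff_mem_zpowers.mpr (Subgroup.mem_zpowers g)
    obtain ⟨k, hk⟩ := Subgroup.mem_zpowers_iff.mp g.2
    have hof : IsOfFinOrder f := by
      rw [← orderOf_pos_iff, hf]; norm_num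
    obtain ⟨m, hm⟩ := hof.mem_powers_iff_mem_zpowers.mpr g.2
    have hgx : g • x = (f ^ m) • x := by
      show (g : L) • x = _
      rw [← hm]
    constructor
    · show g • x ∈ U
      rw [hgx]
      exact hinvp m x hx
    · intro h1
      apply hx1
      have h1' : g • x = 1 := h1
      have : x = g⁻¹ • (1 : V) := by rw [← h1', inv_smul_smul]
      rw [this, smul_one]
  have hcard : Nat.card (MulAction.orbit (Subgroup.zpowers f) x) = 7 := by
    have h1 : Nat.card (MulAction.orbit (Subgroup.zpowers f) x) ∣ 7 := by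
      rw [Nat.card_coe_set_eq, ← MulAction.index_stabilizer, ← hc]
      exact Subgroup.index_dvd_card _
    rcases (Nat.dvd_prime (by norm_num : Nat.Prime 7)).mp h1 with h2 | h2
    · exfalso
      have h3 : (MulAction.orbit (Subgroup.zpowers f) x).Subsingleton := by
        rw [← Set.subsingleton_coe]
        exact (Nat.card_eq_one_iff_unique.mp h2).1
      have h4 : f • x = x :=
        h3 ⟨⟨f, Subgroup.mem_zpowers f⟩, rfl⟩ (MulAction.mem_orbit_self x)
      exact hx1 (hfix x hx h4)
    · exact h2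
  have hUc : ((U : Set V) \ {1}).ncard = 7 := by
    rw [Set.ncard_sdiff_singleton_of_mem U.one_mem]
    have : (U : Set V).ncard = 8 := by
      rw [← hU]
      rfl
    rw [this]
  have heq : MulAction.orbit (Subgroup.zpowers f) x = (U : Set V) \ {1} := by
    apply Set.eq_of_subset_of_ncard_le hsub
    rw [hUc]
    have : (MulAction.orbit (Subgroup.zpowers f) x).ncard = 7 := by
      rw [← Nat.card_coe_set_eq, hcard]
    rw [this]
  have hyo : y ∈ MulAction.orbit (Subgroup.zpowers f) x := by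
    rw [heq]
    exact ⟨hy, hy1⟩
  obtain ⟨g, hg⟩ := hyo
  exact ⟨g, g.2, hg⟩

theorem exists_third [Finite V] {U : Subgroup V} (hU : Nat.card U = 8) (u : V) : ∃ x ∈ U, x ≠ 1 ∧ x ≠ u := by
  by_contra h
  push Not at h
  have hsub : (U : Set V) ⊆ {1, u} := by
    intro x hx
    by_cases h1 : x = 1
    · simp [h1]
    · simp [h x hx h1]
  have h1 : (U : Set V).ncard ≤ ({1, u} : Set V).ncard := Set.ncard_le_ncard hsub (Set.toFinite _)
  have h2 : ({1, u} : Set V).ncard ≤ 2 := Set.ncard_insert_le _ _ |>.trans (by rw [Set.ncard_singleton])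
  have h3 : (U : Set V).ncard = 8 := by
    rw [← hU]
    rfl
  omega

theorem two_point [Finite V] [Finite L] (hL : IsL L) {z : V} (hz1 : z ≠ 1) (hzf : ∀ l : L, l • z = z)
    (hsq : ∀ x : V, x * x = 1) (hc : Nat.card V = 16) {x : V} (hx1 : x ≠ 1) (hxz : x ≠ z)
    (htr : ∀ y : V, y ≠ 1 → y ≠ z → ∃ l : L, l • x = y) : ∃ l : L, orderOf l = 2 ∧ l • x = x * z := by
  haveI : Fact (Nat.Prime 2) := ⟨by norm_num⟩
  haveI : IsSimpleGroup L := hL.simple
  have hcomm := comm_of_sq hsq
  by_contra H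
  push Not at H
  have horb : MulAction.orbit L x = ({1, z} : Set V)ᶜ := by
    ext y
    constructor
    · rintro ⟨l, rfl⟩ hy
      rcases hy with hy | hy
      · have hy' : l • x = 1 := hy
        apply hx1
        have : x = l⁻¹ • (1 : V) := by rw [← hy', inv_smul_smul]
        rw [this, smul_one]
      · have hy' : l • x = z := hy
        apply hxz
        have : x = l⁻¹ • z := by rw [← hy', inv_smul_smul]
        rw [this, hzf]
    · intro hy
      have h1 : y ≠ 1 := fun h => hy (by simp [h])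
      have h2 : y ≠ z := fun h => hy (by simp [h])
      exact htr y h1 h2
  have hst : Nat.card (MulAction.stabilizer L x) = 12 := by
    have h1 := (MulAction.stabilizer L x).card_mul_index
    rw [MulAction.index_stabilizer, horb, Set.ncard_compl, Set.ncard_pair hz1.symm, hc, hL.card] at h1
    omega
  let T : Subgroup L :=
    { carrier := {l | l • x = x ∨ l • x = x * z}
      one_mem' := Or.inl (one_smul _ _)
      mul_mem' := by
        rintro a b (ha | ha) (hb | hb)
        · left
          rw [mul_smul, hb, ha]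
        · right
          rw [mul_smul, hb, smul_mul', ha, hzf]
        · right
          rw [mul_smul, hb, ha]
        · left
          rw [mul_smul, hb, smul_mul', ha, hzf, mul_assoc, hsq, mul_one]
      inv_mem' := by
        rintro a (ha | ha)
        · left
          exact inv_smul_eq_iff.mpr ha.symm
        · right
          rw [inv_smul_eq_iff, smul_mul', ha, hzf, mul_assoc, hsq, mul_one] }
  have hT : ∀ l, l ∈ T ↔ (l • x = x ∨ l • x = x * z) := fun l => Iff.rfl
  have hxxz : x ≠ x * z := by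
    intro h
    exact hz1 (by simpa using h)
  obtain ⟨l0, hl0⟩ : ∃ l : L, l • x = x * z := by
    apply htr
    · intro h
      apply hxz
      rw [← mul_one z, ← h, hcomm x z, ← mul_assoc, hsq, one_mul]
    · intro h
      apply hx1
      exact mul_eq_right.mp h
  have horbT : MulAction.orbit T x = ({x, x * z} : Set V) := by
    ext y
    constructor
    · rintro ⟨l, rfl⟩
      rcases (hT l).mp l.2 with h | h
      · left
        exact h
      · right
        exact h
    · rintro (h | h)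
      · rw [h]
        exact MulAction.mem_orbit_self x
      · rw [Set.mem_singleton_iff.mp h]
        exact ⟨⟨l0, Or.inr hl0⟩, hl0⟩
  have hTc : Nat.card T = 24 := by
    have h1 := (MulAction.stabilizer T x).card_mul_index
    rw [MulAction.index_stabilizer, horbT, Set.ncard_pair hxxz] at h1
    have h2 : Nat.card (MulAction.stabilizer T x) = 12 := by
      rw [← hst]
      have hle : MulAction.stabilizer L x ≤ T := fun l hl => Or.inl hl
      have h3 : MulAction.stabilizer T x = (MulAction.stabilizer L x).subgroupOf T := by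
        ext l
        rfl
      rw [h3]
      exact Nat.card_congr (Subgroup.subgroupOfEquivOfLe hle).toEquiv
    omega
  obtain ⟨S⟩ : Nonempty (Sylow 2 T) := inferInstance
  have hS : Nat.card (S : Subgroup T) = 8 := by
    have h1 := Sylow.card_eq_multiplicity S
    rw [h1, hTc]
    have : (24 : ℕ).factorization 2 = 3 := by
      rw [show (24 : ℕ) = 2 ^ 3 * 3 by norm_num, Nat.factorization_mul (by norm_num) (by norm_num),
        Nat.Prime.factorization_pow (by norm_num), Nat.Prime.factorization (by norm_num : Nat.Prime 3)]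
      simp
    rw [this]
    norm_num
  let S' : Subgroup L := (S : Subgroup T).map T.subtype
  have hS' : Nat.card S' = 8 := by
    rw [← hS]
    exact Subgroup.card_map_of_injective T.subtype_injective
  have hS'T : ∀ s ∈ S', s ∈ T := by
    rintro _ ⟨s, _, rfl⟩
    exact s.2
  have hfac : Nat.card S' = 2 ^ (Nat.card L).factorization 2 := by
    rw [hS', hL.card]
    have : (168 : ℕ).factorization 2 = 3 := by
      rw [show (168 : ℕ) = 2 ^ 3 * 21 by norm_num, Nat.factorization_mul (by norm_num) (by norm_num),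
        Nat.Prime.factorization_pow (by norm_num)]
      simp [Nat.factorization_eq_zero_of_not_dvd (show ¬ 2 ∣ 21 by norm_num)]
    rw [this]
    norm_num
  obtain ⟨⟨e⟩, -, -⟩ := Cfsg.Agent.S1004.result hL.card (Sylow.ofCard S' hfac)
  have hsr : ∀ i : ZMod 4, ((e.symm (DihedralGroup.sr i) : ↥(Sylow.ofCard S' hfac : Subgroup L)) : L) • x = x := by
    intro i
    have ho : orderOf ((e.symm (DihedralGroup.sr i) : ↥(Sylow.ofCard S' hfac : Subgroup L)) : L) = 2 := by
      rw [Subgroup.orderOf_coe, MulEquiv.orderOf_eq, DihedralGroup.orderOf_sr]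
    rcases (hT _).mp (hS'T _ (e.symm (DihedralGroup.sr i)).2) with h | h
    · exact h
    · exact absurd h (H _ ho)
  have hall : S' ≤ MulAction.stabilizer L x := by
    intro s hs
    have key : ∀ d : DihedralGroup 4, ((e.symm d : ↥(Sylow.ofCard S' hfac : Subgroup L)) : L) • x = x := by
      intro d
      cases d with
      | sr i => exact hsr i
      | r i =>
        have h1 : (DihedralGroup.r i : DihedralGroup 4) = DihedralGroup.sr 0 * DihedralGroup.sr i := by
          rw [DihedralGroup.sr_mul_sr, sub_zero]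
        rw [h1, map_mul, Subgroup.coe_mul, mul_smul, hsr, hsr]
    have h2 := key (e ⟨s, hs⟩)
    rw [e.symm_apply_apply] at h2
    exact h2
  have hd := Subgroup.card_dvd_of_le hall
  rw [hS', hst] at hd
  norm_num at hd

/-- the fixed points of an element of order 7 on an elementary abelian group of order 16 -/
theorem fix_two [Finite V] [Finite L] (hL : IsL L) (hsq : ∀ x : V, x * x = 1) (hc : Nat.card V = 16)
    (hnt : ∃ (l : L) (x : V), l • x ≠ x) {f : L} (hf : orderOf f = 7) :
    Nat.card (phi hsq f).ker = 2 := by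
  have hf1 : f ≠ 1 := by
    rintro rfl
    simp at hf
  have hK16 : Nat.card (phi hsq f).ker ∣ 16 := by
    rw [← hc]
    exact Subgroup.card_subgroup_dvd_card _
  have hKm : 16 ≡ Nat.card (phi hsq f).ker [MOD 7] := by
    have := card_ker_modEq hsq hf
    rwa [hc] at this
  have hKne : Nat.card (phi hsq f).ker ≠ 16 := by
    intro h
    have htop : (phi hsq f).ker = ⊤ := Subgroup.eq_top_of_card_eq _ (by rw [h, hc])
    exact hf1 (faithful hL.simple hnt fun x => (mem_ker_phi hsq f x).mp (by rw [htop]; trivial))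
  have hle : Nat.card (phi hsq f).ker ≤ 16 := Nat.le_of_dvd (by norm_num) hK16
  generalize Nat.card (phi hsq f).ker = k at *
  interval_cases k <;> first | rfl | (exfalso; revert hK16 hKm hKne; decide)

theorem orb_abs [Finite V] [Finite L] (hL : IsL L) (hsq : ∀ x : V, x * x = 1) (hc : Nat.card V = 16)
    (hnt : ∃ (l : L) (x : V), l • x ≠ x) :
    (∃ N : Subgroup V, Nat.card N = 8 ∧ (∀ l : L, ∀ x ∈ N, l • x ∈ N) ∧ (∃ l : L, ∃ x ∈ N, l • x ≠ x) ∧
      (∀ x y : V, x ∉ N → y ∉ N → ∃ l : L, l • x = y) ∧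
      (∀ l : L, (orderOf l = 2 ∨ orderOf l = 4) → ∀ x : V, x ∉ N → l • x ≠ x)) ∨
    (∃ z : V, z ≠ 1 ∧ (∀ l : L, l • z = z) ∧ (∃ l : L, ∃ x : V, l • x ≠ x ∧ l • x ≠ x * z) ∧
      ((∃ N : Subgroup V, Nat.card N = 8 ∧ (∀ l : L, ∀ x ∈ N, l • x ∈ N) ∧ (∃ l : L, ∃ x ∈ N, l • x ≠ x) ∧ z ∉ N) ∨
       (∀ x : V, x ≠ 1 → x ≠ z → ∃ l : L, orderOf l = 2 ∧ l • x = x * z))) := by
  haveI : Fact (Nat.Prime 7) := ⟨by norm_num⟩
  have hcomm := comm_of_sq hsq
  obtain ⟨f, hf⟩ : ∃ f : L, orderOf f = 7 := exists_prime_orderOf_dvd_card' 7 (by rw [hL.card]; norm_num)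
  have hK2 := fix_two hL hsq hc hnt hf
  have hU8 : Nat.card (phi hsq f).range = 8 := by
    have := card_ker_mul hsq f
    rw [hK2, hc] at this
    omega
  obtain ⟨z0, hz0⟩ := (Subgroup.ne_bot_iff_exists_ne_one).mp
    ((Subgroup.one_lt_card_iff_ne_bot (phi hsq f).ker).mp (by rw [hK2]; norm_num))
  obtain ⟨z, hzk0⟩ := z0
  have hzk : f • z = z := (mem_ker_phi hsq f z).mp hzk0
  have hz1 : z ≠ 1 := fun h => hz0 (Subtype.ext h)
  have hkz : ∀ x : V, f • x = x → x = 1 ∨ x = z := by
    intro x hx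
    by_contra h
    push Not at h
    obtain ⟨y, -, hy⟩ := (Nat.card_eq_two_iff' (1 : (phi hsq f).ker)).mp hK2
    have h1 := hy ⟨z, hzk0⟩ hz0
    have h2 := hy ⟨x, (mem_ker_phi hsq f x).mpr hx⟩ (fun h' => h.1 (congrArg Subtype.val h'))
    exact h.2 (congrArg Subtype.val (h2.trans h1.symm))
  set U := (phi hsq f).range with hUdef
  have hzU : z ∉ U := by
    rintro ⟨x, hx⟩
    have h1 : f • x = x * z := by
      have : (f • x) * x⁻¹ = z := hx
      rw [hcomm x z, ← this]
      group
    have h2 : ∀ n : ℕ, (f ^ n) • x = x * z ^ n := by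
      intro n
      induction n with
      | zero => simp
      | succ n ih => rw [pow_succ', mul_smul, ih, smul_mul', smul_pow', hzk, h1, mul_assoc, pow_succ']
    have h3 := h2 7
    rw [← hf, pow_orderOf_eq_one, one_smul, hf] at h3
    have h4 : z ^ 7 = z := by
      rw [show 7 = 2 * 3 + 1 from rfl, pow_succ, pow_mul, pow_two, hsq, one_pow, one_mul]
    rw [h4] at h3
    exact hz1 (by simpa using h3)
  have hUi : U.index = 2 := by
    have := U.card_mul_index
    rw [hU8, hc] at this
    omega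
  have hmul : ∀ x y : V, x * y ∈ U ↔ (x ∈ U ↔ y ∈ U) := fun x y => Subgroup.mul_mem_iff_of_index_two hUi
  have hUinv : ∀ x ∈ U, f • x ∈ U := by
    rintro _ ⟨y, rfl⟩
    refine ⟨f • y, ?_⟩
    rw [phi_apply, phi_apply, smul_mul', smul_inv']
  have hUfix : ∀ x ∈ U, f • x = x → x = 1 := by
    intro x hx h
    rcases hkz x h with h1 | h1
    · exact h1
    · exact absurd (h1 ▸ hx) hzU
  have hfz : ∀ l ∈ Subgroup.zpowers f, l • z = z := by
    intro l hl
    have : Subgroup.zpowers f ≤ MulAction.stabilizer L z := by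
      rw [Subgroup.zpowers_le]
      exact hzk
    exact this hl
  have tr : ∀ x ∈ U, ∀ y ∈ U, x ≠ 1 → y ≠ 1 → ∃ l : L, l • z = z ∧ l • x = y := by
    intro x hx y hy hx1 hy1
    obtain ⟨l, hl, h⟩ := trans7 hf hU8 hUinv hUfix hx hy hx1 hy1
    exact ⟨l, hfz l hl, h⟩
  have hzz : ∀ x : V, z * (z * x) = x := fun x => by rw [← mul_assoc, hsq, one_mul]
  have hzmem : ∀ x : V, x ∉ U → z * x ∈ U := fun x hx => (hmul z x).mpr (by simp [hzU, hx])
  have smul_eq_one : ∀ (l : L) (x : V), l • x = 1 → x = 1 := by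
    intro l x h
    have : x = l⁻¹ • (1 : V) := by rw [← h, inv_smul_smul]
    rw [this, smul_one]
  obtain ⟨u0, hu0, hu01, -⟩ := exists_third hU8 (1 : V)
  have hntU : ∃ l : L, ∃ x ∈ U, l • x ≠ x := ⟨f, u0, hu0, fun h => hu01 (hUfix u0 hu0 h)⟩
  by_cases A : ∃ l : L, ∃ u ∈ U, u ≠ 1 ∧ l • z = u
  · exfalso
    obtain ⟨la, ua, hua, hua1, hla⟩ := A
    have A' : ∀ u ∈ U, u ≠ 1 → ∃ l : L, l • z = u := by
      intro u hu hu1
      obtain ⟨l, -, h⟩ := tr ua hua u hu hua1 hu1
      exact ⟨l * la, by rw [mul_smul, hla, h]⟩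
    by_cases B : ∃ l : L, ∃ u ∈ U, u ≠ 1 ∧ l • z = z * u
    · obtain ⟨lb, ub, hub, hub1, hlb⟩ := B
      have hall : ∀ x : V, x ≠ 1 → ∃ l : L, l • z = x := by
        intro x hx
        by_cases hxU : x ∈ U
        · exact A' x hxU hx
        · have h1 := hzmem x hxU
          by_cases h2 : z * x = 1
          · refine ⟨1, ?_⟩
            rw [one_smul, ← hzz x, h2, mul_one]
          · obtain ⟨l, hlz, h⟩ := tr ub hub _ h1 hub1 h2
            refine ⟨l * lb, ?_⟩
            rw [mul_smul, hlb, smul_mul', hlz, h, hzz]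
      have horb : MulAction.orbit L z = ({1} : Set V)ᶜ := by
        ext y
        constructor
        · rintro ⟨l, rfl⟩ hy
          exact hz1 (smul_eq_one l z hy)
        · intro hy
          exact hall y hy
      have h1 := (MulAction.stabilizer L z).card_mul_index
      rw [MulAction.index_stabilizer, horb, Set.ncard_compl, Set.ncard_singleton, hc, hL.card] at h1
      omega
    · have hB : ∀ l : L, ∀ w ∈ U, w ≠ 1 → l • (z * w) ∉ U := by
        intro l w hw hw1 h
        have h1 : l • (z * w) ≠ 1 := by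
          intro h1
          have h2 := smul_eq_one l _ h1
          apply hzU
          have : z = w⁻¹ := mul_eq_one_iff_eq_inv.mp h2
          rw [this]
          exact U.inv_mem hw
        obtain ⟨l', hl'⟩ := A' _ h h1
        apply B
        refine ⟨l⁻¹ * l', w, hw, hw1, ?_⟩
        rw [mul_smul, hl', inv_smul_smul]
      have hinv : ∀ l : L, ∀ u ∈ U, l • u ∈ U := by
        intro l u hu
        by_cases hu1 : u = 1
        · rw [hu1, smul_one]
          exact U.one_mem
        · obtain ⟨u1, hu1U, hu11, hu1u⟩ := exists_third hU8 u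
          have h2 : u1 * u ∈ U := U.mul_mem hu1U hu
          have h3 : u1 * u ≠ 1 := by
            intro h
            apply hu1u
            have : u1 = u⁻¹ := mul_eq_one_iff_eq_inv.mp h
            rw [this]
            exact inv_eq_of_mul_eq_one_left (hsq u)
          have h4 : u = (z * u1) * (z * (u1 * u)) := by
            calc u = (z * z) * ((u1 * u1) * u) := by rw [hsq, hsq, one_mul, one_mul]
              _ = z * (z * u1) * (u1 * u) := by group
              _ = z * (u1 * z) * (u1 * u) := by rw [hcomm z u1]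
              _ = (z * u1) * (z * (u1 * u)) := by group
          rw [h4, smul_mul']
          exact (hmul _ _).mpr (iff_of_false (hB l u1 hu1U hu11) (hB l _ h2 h3))
      have : z = la⁻¹ • ua := by rw [← hla, inv_smul_smul]
      exact hzU (this ▸ hinv _ _ hua)
  · by_cases B : ∃ l : L, ∃ u ∈ U, u ≠ 1 ∧ l • z = z * u
    · left
      obtain ⟨lb, ub, hub, hub1, hlb⟩ := B
      have hz' : ∀ x : V, x ∉ U → ∃ l : L, l • z = x := by
        intro x hxU
        have h1 := hzmem x hxU
        by_cases h2 : z * x = 1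
        · refine ⟨1, ?_⟩
          rw [one_smul, ← hzz x, h2, mul_one]
        · obtain ⟨l, hlz, h⟩ := tr ub hub _ h1 hub1 h2
          refine ⟨l * lb, ?_⟩
          rw [mul_smul, hlb, smul_mul', hlz, h, hzz]
      have hinv : ∀ l : L, ∀ u ∈ U, l • u ∈ U := by
        intro l u hu
        by_contra h
        obtain ⟨l', hl'⟩ := hz' _ h
        by_cases hu1 : u = 1
        · apply h
          rw [hu1, smul_one]
          exact U.one_mem
        · apply A
          refine ⟨l⁻¹ * l', u, hu, hu1, ?_⟩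
          rw [mul_smul, hl', inv_smul_smul]
      have htrans : ∀ x y : V, x ∉ U → y ∉ U → ∃ l : L, l • x = y := by
        intro x y hx hy
        obtain ⟨l1, h1⟩ := hz' x hx
        obtain ⟨l2, h2⟩ := hz' y hy
        refine ⟨l2 * l1⁻¹, ?_⟩
        rw [← h1, mul_smul, inv_smul_smul, h2]
      refine ⟨U, hU8, hinv, hntU, htrans, ?_⟩
      intro l hl x hx h
      have horb : MulAction.orbit L x = (U : Set V)ᶜ := by
        ext y
        constructor
        · rintro ⟨l, rfl⟩ hy
          apply hx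
          have h1 := hinv l⁻¹ _ hy
          rwa [inv_smul_smul] at h1
        · intro hy
          exact htrans x y hx hy
      have h1 := (MulAction.stabilizer L x).card_mul_index
      have hUn : (U : Set V).ncard = 8 := by
        rw [← hU8]
        rfl
      rw [MulAction.index_stabilizer, horb, Set.ncard_compl, hUn, hc, hL.card] at h1
      have h2 : Nat.card (MulAction.stabilizer L x) = 21 := by omega
      have h3 : orderOf l ∣ 21 := by
        rw [← h2]
        have : l ∈ MulAction.stabilizer L x := h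
        exact Subgroup.orderOf_dvd_natCard _ this
      rcases hl with hl | hl <;> rw [hl] at h3 <;> norm_num at h3
    · right
      have hzf : ∀ l : L, l • z = z := by
        intro l
        by_cases h1 : l • z ∈ U
        · exfalso
          exact A ⟨l, _, h1, fun h => hz1 (smul_eq_one l z h), rfl⟩
        · have h2 := hzmem _ h1
          by_cases h3 : z * l • z = 1
          · calc l • z = z * (z * l • z) := (hzz _).symm
              _ = z := by rw [h3, mul_one]
          · exfalso
            exact B ⟨l, _, h2, h3, (hzz _).symm⟩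
      refine ⟨z, hz1, hzf, ?_, ?_⟩
      · refine ⟨f, u0, fun h => hu01 (hUfix u0 hu0 h), fun h => ?_⟩
        have h1 : u0 * z ∈ U := h ▸ hUinv u0 hu0
        rw [hmul] at h1
        exact hzU (h1.mp hu0)
      · by_cases C : ∀ l : L, ∀ u ∈ U, l • u ∈ U
        · left
          exact ⟨U, hU8, C, hntU, hzU⟩
        · right
          push Not at C
          obtain ⟨lc, uc, huc, hlc⟩ := C
          have huc1 : uc ≠ 1 := by
            rintro rfl
            rw [smul_one] at hlc
            exact hlc U.one_mem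
          have hw := hzmem _ hlc
          have hw1 : z * lc • uc ≠ 1 := by
            intro h
            have h1 : lc • uc = z := by
              rw [← hzz (lc • uc), h, mul_one]
            have h2 : uc = z := by
              rw [← inv_smul_smul lc uc, h1, hzf]
            exact hzU (h2 ▸ huc)
          have htr : ∀ x : V, x ≠ 1 → x ≠ z → ∃ l : L, l • uc = x := by
            intro x hx1 hxz
            by_cases hxU : x ∈ U
            · obtain ⟨l, -, h⟩ := tr uc huc x hxU huc1 hx1
              exact ⟨l, h⟩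
            · have h1 := hzmem x hxU
              have h2 : z * x ≠ 1 := by
                intro h2
                apply hxz
                rw [← hzz x, h2, mul_one]
              obtain ⟨l, hlz, h⟩ := tr _ hw _ h1 hw1 h2
              refine ⟨l * lc, ?_⟩
              rw [smul_mul', hlz] at h
              rw [mul_smul]
              exact mul_left_cancel h
          intro x hx1 hxz
          apply two_point hL hz1 hzf hsq hc hx1 hxz
          intro y hy1 hyz
          obtain ⟨l1, h1⟩ := htr x hx1 hxz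
          obtain ⟨l2, h2⟩ := htr y hy1 hyz
          refine ⟨l2 * l1⁻¹, ?_⟩
          rw [← h1, mul_smul, inv_smul_smul, h2]

end Abs

variable {Y : Type u} {L : Type v} [Group Y] [Group L]

/-- the section `W / K` as a group with an action of `L` -/
theorem section_action [Finite Y] {π : Y →* L} (hs : Function.Surjective π) {K W : Subgroup Y} (nK : K.Normal)
    (nW : W.Normal) (le : K ≤ W) (sq : ∀ x ∈ W, x ^ 2 ∈ K) (triv : ∀ p ∈ π.ker, ∀ x ∈ W, p * x * p⁻¹ * x⁻¹ ∈ K) :
    ∃ (V : Type u) (_ : Group V) (_ : Finite V) (_ : MulDistribMulAction L V) (q : W →* V),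
      Function.Surjective q ∧ (∀ x : W, q x = 1 ↔ (x : Y) ∈ K) ∧ (∀ v : V, v * v = 1) ∧
      Nat.card W = Nat.card V * Nat.card K ∧
      ∀ (g : Y) (x : W), π g • q x = q ⟨g * x * g⁻¹, nW.conj_mem x x.2 g⟩ := by
  haveI := nK
  haveI := nW
  let mk := QuotientGroup.mk' K
  let W' : Subgroup (Y ⧸ K) := W.map mk
  haveI hW' : W'.Normal := nW.map mk (QuotientGroup.mk'_surjective K)
  let ρ : Y →* MulAut W' := (MulAut.conjNormal (H := W')).comp mk
  have hρ : ∀ (g : Y) (x : W'), ((ρ g x : W') : Y ⧸ K) = mk g * x * (mk g)⁻¹ := fun g x => MulAut.conjNormal_apply _ _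
  have hker : π.ker ≤ ρ.ker := by
    intro p hp
    rw [MonoidHom.mem_ker]
    ext ⟨x, hx⟩
    obtain ⟨w, hw, rfl⟩ := hx
    rw [hρ]
    show mk p * mk w * (mk p)⁻¹ = mk w
    rw [← map_inv, ← map_mul, ← map_mul]
    apply QuotientGroup.eq.mpr
    have h1 := triv p hp w hw
    have h2 : (p * w * p⁻¹)⁻¹ * w = w⁻¹ * (p * w * p⁻¹ * w⁻¹)⁻¹ * w := by group
    rw [h2]
    have h3 := nK.conj_mem _ (K.inv_mem h1) w⁻¹
    rwa [inv_inv] at h3
  let σ : L →* MulAut W' := π.liftOfSurjective hs ⟨ρ, hker⟩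
  have hσ : ∀ g : Y, σ (π g) = ρ g := fun g => MonoidHom.liftOfRightInverse_comp_apply _ _ _ ⟨ρ, hker⟩ g
  letI act : MulDistribMulAction L W' := MulDistribMulAction.compHom W' σ
  have hsm : ∀ (l : L) (x : W'), l • x = σ l x := fun l x => rfl
  have hmkK : ∀ y : Y, mk y = 1 ↔ y ∈ K := fun y => QuotientGroup.eq_one_iff y
  refine ⟨W', inferInstance, inferInstance, act, mk.subgroupMap W, MonoidHom.subgroupMap_surjective _ _, ?_, ?_, ?_, ?_⟩
  · intro x
    rw [← hmkK]
    constructor
    · intro h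
      exact congrArg Subtype.val h
    · intro h
      exact Subtype.ext h
  · rintro ⟨v, hv⟩
    obtain ⟨w, hw, rfl⟩ := hv
    apply Subtype.ext
    show mk w * mk w = 1
    rw [← map_mul, hmkK, ← pow_two]
    exact sq w hw
  · have h1 := (mk.subgroupMap W).ker.card_mul_index
    rw [Subgroup.index_ker, MonoidHom.range_eq_top.mpr (MonoidHom.subgroupMap_surjective _ _),
      Subgroup.card_top] at h1
    rw [← h1, mul_comm]
    congr 1
    have h2 : (mk.subgroupMap W).ker = K.subgroupOf W := by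
      ext x
      rw [MonoidHom.mem_ker, Subgroup.mem_subgroupOf, ← hmkK]
      constructor
      · intro h
        exact congrArg Subtype.val h
      · intro h
        exact Subtype.ext h
    rw [h2]
    exact Nat.card_congr (Subgroup.subgroupOfEquivOfLe le).toEquiv
  · intro g x
    rw [hsm, hσ]
    apply Subtype.ext
    rw [hρ]
    show mk g * mk x * (mk g)⁻¹ = mk (g * x * g⁻¹)
    rw [map_mul, map_mul, map_inv]

section Up

variable {π : Y →* L} {K W : Subgroup Y} {V : Type*} [Group V] [MulDistribMulAction L V]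

/-- the subgroup of `W` above a subgroup of the section -/
def up (q : W →* V) (N : Subgroup V) : Subgroup Y := (N.comap q).map W.subtype

theorem mem_up {q : W →* V} {N : Subgroup V} (x : W) : (x : Y) ∈ up q N ↔ q x ∈ N := by
  constructor
  · rintro ⟨y, hy, h⟩
    rwa [← Subtype.ext h]
  · intro h
    exact ⟨x, h, rfl⟩

theorem up_le {q : W →* V} {N : Subgroup V} : up q N ≤ W := by
  rintro _ ⟨y, _, rfl⟩
  exact y.2

theorem le_up {q : W →* V} {N : Subgroup V} (le : K ≤ W) (hq1 : ∀ x : W, q x = 1 ↔ (x : Y) ∈ K) : K ≤ up q N := by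
  intro k hk
  exact (mem_up (⟨k, le hk⟩ : W)).mpr (by rw [(hq1 _).mpr hk]; exact N.one_mem)

theorem card_up [Finite Y] [Finite V] {q : W →* V} (hq : Function.Surjective q)
    (hc : Nat.card W = Nat.card V * Nat.card K) (N : Subgroup V) : Nat.card (up q N) = Nat.card N * Nat.card K := by
  have h1 : Nat.card (up q N) = Nat.card (N.comap q) := Subgroup.card_map_of_injective W.subtype_injective
  have h2 := (N.comap q).card_mul_index
  rw [Subgroup.index_comap_of_surjective _ hq, hc, ← N.card_mul_index] at h2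
  have h3 : 0 < N.index := Nat.pos_of_ne_zero Subgroup.index_ne_zero_of_finite
  rw [h1]
  apply Nat.eq_of_mul_eq_mul_right h3
  rw [h2]
  ring

theorem normal_up {q : W →* V} (nW : W.Normal)
    (hact : ∀ (g : Y) (x : W), π g • q x = q ⟨g * x * g⁻¹, nW.conj_mem x x.2 g⟩) {N : Subgroup V}
    (hinv : ∀ l : L, ∀ x ∈ N, l • x ∈ N) : (up q N).Normal := by
  constructor
  intro x hx g
  have hxW : x ∈ W := up_le hx
  have h1 := hinv (π g) _ ((mem_up (⟨x, hxW⟩ : W)).mp hx)
  rw [hact] at h1
  exact (mem_up (⟨g * x * g⁻¹, nW.conj_mem x hxW g⟩ : W)).mpr h1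

theorem comm_apply {q : W →* V} (nW : W.Normal)
    (hact : ∀ (g : Y) (x : W), π g • q x = q ⟨g * x * g⁻¹, nW.conj_mem x x.2 g⟩) (g : Y) (x : W)
    (h : g * x * g⁻¹ * (x : Y)⁻¹ ∈ W) : q ⟨g * x * g⁻¹ * (x : Y)⁻¹, h⟩ = (π g • q x) * (q x)⁻¹ := by
  rw [hact, ← map_inv, ← map_mul]
  rfl

theorem comm_mem (nW : W.Normal) (g : Y) (x : W) : g * x * g⁻¹ * (x : Y)⁻¹ ∈ W :=
  W.mul_mem (nW.conj_mem x x.2 g) (W.inv_mem x.2)

theorem nat8_up [Finite Y] [Finite V] {q : W →* V} (hs : Function.Surjective π) (nK : K.Normal) (nW : W.Normal) (le : K ≤ W)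
    (sq : ∀ x ∈ W, x ^ 2 ∈ K) (triv : ∀ p ∈ π.ker, ∀ x ∈ W, p * x * p⁻¹ * x⁻¹ ∈ K)
    (hq : Function.Surjective q) (hq1 : ∀ x : W, q x = 1 ↔ (x : Y) ∈ K) (hc : Nat.card W = Nat.card V * Nat.card K)
    (hact : ∀ (g : Y) (x : W), π g • q x = q ⟨g * x * g⁻¹, nW.conj_mem x x.2 g⟩) {N : Subgroup V} (hN : Nat.card N = 8)
    (hinv : ∀ l : L, ∀ x ∈ N, l • x ∈ N) (hnt : ∃ l : L, ∃ x ∈ N, l • x ≠ x) : Nat8 π K (up q N) := by
  refine ⟨nK, normal_up nW hact hinv, le_up le hq1, ?_, ?_, ?_, ?_⟩
  · rw [card_up hq hc, hN]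
  · intro x hx
    exact sq x (up_le hx)
  · intro p hp x hx
    exact triv p hp x (up_le hx)
  · obtain ⟨l, v, hv, h⟩ := hnt
    obtain ⟨g, rfl⟩ := hs l
    obtain ⟨x, rfl⟩ := hq v
    refine ⟨g, x, (mem_up x).mpr hv, fun h1 => h ?_⟩
    have h2 := (hq1 ⟨_, comm_mem nW g x⟩).mpr h1
    rw [comm_apply nW hact, mul_inv_eq_one] at h2
    exact h2

end Up

end Orb

open Orb

variable {Y : Type u} {L : Type v} [Group Y] [Group L]

theorem orb [Finite Y] (hL : IsL L) {π : Y →* L} (hs : Function.Surjective π) {K W : Subgroup Y} (V : Nat16 π K W) :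
    (∃ N : Subgroup Y, Nat8 π K N ∧ N ≤ W ∧
      (∀ x ∈ W, ∀ y ∈ W, x ∉ N → y ∉ N → ∃ g : Y, g * x * g⁻¹ * y⁻¹ ∈ K) ∧
      (∀ g : Y, (orderOf (π g) = 2 ∨ orderOf (π g) = 4) → ∀ x ∈ W, x ∉ N → g * x * g⁻¹ * x⁻¹ ∉ K)) ∨
    (∃ Z : Subgroup Y, Nat8 π Z W ∧ K ≤ Z ∧ Nat.card Z = 2 * Nat.card K ∧
      ((∃ N : Subgroup Y, Nat8 π K N ∧ N ≤ W ∧ N ⊓ Z = K ∧ N ⊔ Z = W) ∨
       (∀ x ∈ W, x ∉ Z → ∃ g : Y, orderOf (π g) = 2 ∧ g * x * g⁻¹ * x⁻¹ ∈ Z ∧ g * x * g⁻¹ * x⁻¹ ∉ K))) := by
  haveI : Finite L := Nat.finite_of_card_ne_zero (by rw [hL.card]; norm_num)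
  obtain ⟨E, _, _, _, q, hq, hq1, hsq, hc, hact⟩ := section_action hs V.nK V.nW V.le V.sq V.triv
  have hK0 : 0 < Nat.card K := Nat.card_pos
  have hE : Nat.card E = 16 := by
    have h1 := V.card
    rw [hc] at h1
    exact Nat.eq_of_mul_eq_mul_right hK0 h1
  have hnt : ∃ (l : L) (x : E), l • x ≠ x := by
    obtain ⟨g, x, hx, h⟩ := V.nt
    refine ⟨π g, q ⟨x, hx⟩, fun h1 => h ?_⟩
    apply (hq1 ⟨_, comm_mem V.nW g ⟨x, hx⟩⟩).mp
    rw [comm_apply V.nW hact, h1, mul_inv_cancel]
  have hcomm := Orb.comm_of_sq hsq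
  rcases Orb.orb_abs hL hsq hE hnt with ⟨N, hN, hinv, hntN, htr, hfix⟩ | ⟨z, hz1, hzf, ⟨l1, x1, hx1, hx1z⟩, h⟩
  · left
    refine ⟨up q N, nat8_up hs V.nK V.nW V.le V.sq V.triv hq hq1 hc hact hN hinv hntN, up_le, ?_, ?_⟩
    · intro x hx y hy hxN hyN
      have h1 : q ⟨x, hx⟩ ∉ N := fun h => hxN ((mem_up (⟨x, hx⟩ : W)).mpr h)
      have h2 : q ⟨y, hy⟩ ∉ N := fun h => hyN ((mem_up (⟨y, hy⟩ : W)).mpr h)
      obtain ⟨l, hl⟩ := htr _ _ h1 h2
      obtain ⟨g, rfl⟩ := hs l
      refine ⟨g, ?_⟩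
      rw [hact] at hl
      have h3 : q (⟨g * x * g⁻¹, V.nW.conj_mem x hx g⟩ * (⟨y, hy⟩ : W)⁻¹) = 1 := by
        rw [map_mul, map_inv, hl, mul_inv_cancel]
      exact (hq1 _).mp h3
    · intro g hg x hx hxN h1
      have h2 : q ⟨x, hx⟩ ∉ N := fun h => hxN ((mem_up (⟨x, hx⟩ : W)).mpr h)
      apply hfix (π g) hg _ h2
      have h3 := (hq1 ⟨_, comm_mem V.nW g ⟨x, hx⟩⟩).mpr h1
      rw [comm_apply V.nW hact, mul_inv_eq_one] at h3
      exact h3
  · right
    have hz2 : orderOf z = 2 := by
      apply orderOf_eq_prime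
      · rw [pow_two, hsq]
      · exact hz1
    have hzc : Nat.card (Subgroup.zpowers z) = 2 := by rw [Nat.card_zpowers, hz2]
    have hzmem : ∀ v : E, v ∈ Subgroup.zpowers z ↔ v = 1 ∨ v = z := by
      intro v
      constructor
      · intro hv
        obtain ⟨k, rfl⟩ := Subgroup.mem_zpowers_iff.mp hv
        rcases Int.even_or_odd k with ⟨m, hm⟩ | ⟨m, hm⟩
        · left
          rw [hm, zpow_add, hsq]
        · right
          rw [hm, zpow_add, zpow_one, two_mul, zpow_add, hsq, one_mul]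
      · rintro (h | h)
        · rw [h]
          exact Subgroup.one_mem _
        · rw [h]
          exact Subgroup.mem_zpowers z
    have hZinv : ∀ l : L, ∀ x ∈ Subgroup.zpowers z, l • x ∈ Subgroup.zpowers z := by
      intro l x hx
      rcases (hzmem x).mp hx with h | h
      · rw [h, smul_one]
        exact Subgroup.one_mem _
      · rw [h, hzf]
        exact Subgroup.mem_zpowers z
    have hZc : Nat.card (up q (Subgroup.zpowers z)) = 2 * Nat.card K := by rw [card_up hq hc, hzc]
    have hKZ : K ≤ up q (Subgroup.zpowers z) := le_up V.le hq1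
    refine ⟨up q (Subgroup.zpowers z), ⟨normal_up V.nW hact hZinv, V.nW, up_le, ?_, ?_, ?_, ?_⟩, hKZ, hZc, ?_⟩
    · rw [hZc, V.card]
      ring
    · intro x hx
      exact hKZ (V.sq x hx)
    · intro p hp x hx
      exact hKZ (V.triv p hp x hx)
    · obtain ⟨g, rfl⟩ := hs l1
      obtain ⟨x, rfl⟩ := hq x1
      refine ⟨g, x, x.2, fun h1 => ?_⟩
      have h2 := (mem_up (⟨_, comm_mem V.nW g x⟩ : W)).mp h1
      rw [comm_apply V.nW hact, hzmem, mul_inv_eq_one, mul_inv_eq_iff_eq_mul] at h2
      rcases h2 with h2 | h2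
      · exact hx1 h2
      · exact hx1z (h2.trans (hcomm _ _))
    · rcases h with ⟨N, hN, hinv, hntN, hzN⟩ | h
      · left
        refine ⟨up q N, nat8_up hs V.nK V.nW V.le V.sq V.triv hq hq1 hc hact hN hinv hntN, up_le, ?_, ?_⟩
        · apply le_antisymm
          · rintro x ⟨h1, h2⟩
            have hxW : x ∈ W := up_le h1
            have h3 := (mem_up (⟨x, hxW⟩ : W)).mp h1
            have h4 := (mem_up (⟨x, hxW⟩ : W)).mp h2
            rcases (hzmem _).mp h4 with h5 | h5
            · exact (hq1 _).mp h5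
            · exact absurd (h5 ▸ h3) hzN
          · exact le_inf (le_up V.le hq1) hKZ
        · apply le_antisymm
          · exact sup_le up_le up_le
          · intro x hx
            have hi : N.index = 2 := by
              have := N.card_mul_index
              rw [hN, hE] at this
              omega
            obtain ⟨ζ, hζ⟩ := hq z
            by_cases h1 : q ⟨x, hx⟩ ∈ N
            · exact Subgroup.mem_sup_left ((mem_up (⟨x, hx⟩ : W)).mpr h1)
            · have h2 : q (⟨x, hx⟩ * ζ) ∈ N := by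
                rw [map_mul, hζ, Subgroup.mul_mem_iff_of_index_two hi]
                exact iff_of_false h1 hzN
              have h3 := (mem_up _).mpr h2
              have h4 : (ζ : Y) ∈ up q (Subgroup.zpowers z) := (mem_up ζ).mpr (by rw [hζ]; exact Subgroup.mem_zpowers z)
              have h5 : x = (((⟨x, hx⟩ : W) * ζ : W) : Y) * (ζ : Y)⁻¹ := by
                rw [Subgroup.coe_mul]
                group
              rw [h5]
              exact Subgroup.mul_mem _ (Subgroup.mem_sup_left h3) (Subgroup.inv_mem _ (Subgroup.mem_sup_right h4))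
      · right
        intro x hx hxZ
        have h1 : q ⟨x, hx⟩ ∉ Subgroup.zpowers z := fun h => hxZ ((mem_up (⟨x, hx⟩ : W)).mpr h)
        rw [hzmem] at h1
        push Not at h1
        obtain ⟨l, hl2, hl⟩ := h _ h1.1 h1.2
        obtain ⟨g, rfl⟩ := hs l
        have h2 : q ⟨_, comm_mem V.nW g ⟨x, hx⟩⟩ = z := by
          rw [comm_apply V.nW hact, hl, hcomm (q ⟨x, hx⟩) z, mul_inv_cancel_right]
        refine ⟨g, hl2, ?_, ?_⟩
        · apply (mem_up (⟨_, comm_mem V.nW g ⟨x, hx⟩⟩ : W)).mpr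
          rw [h2]
          exact Subgroup.mem_zpowers z
        · intro h3
          have h4 := (hq1 ⟨_, comm_mem V.nW g ⟨x, hx⟩⟩).mpr h3
          rw [h2] at h4
          exact hz1 h4

/-- `f` of order 7 fixes exactly one non-trivial coset -/
theorem Nat16.fix_unique [Finite Y] (hL : IsL L) {π : Y →* L} (hs : Function.Surjective π) {K W : Subgroup Y}
    (V : Nat16 π K W) {f x y : Y} (hf : orderOf (π f) = 7) (hx : x ∈ W) (hy : y ∈ W) (hxK : x ∉ K) (hyK : y ∉ K)
    (h1 : f * x * f⁻¹ * x⁻¹ ∈ K) (h2 : f * y * f⁻¹ * y⁻¹ ∈ K) : x * y⁻¹ ∈ K := by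
  haveI : Finite L := Nat.finite_of_card_ne_zero (by rw [hL.card]; norm_num)
  obtain ⟨E, _, _, _, q, hq, hq1, hsq, hc, hact⟩ := section_action hs V.nK V.nW V.le V.sq V.triv
  have hK0 : 0 < Nat.card K := Nat.card_pos
  have hE : Nat.card E = 16 := by
    have h1 := V.card
    rw [hc] at h1
    exact Nat.eq_of_mul_eq_mul_right hK0 h1
  have hnt : ∃ (l : L) (x : E), l • x ≠ x := by
    obtain ⟨g, x, hx, h⟩ := V.nt
    refine ⟨π g, q ⟨x, hx⟩, fun h1 => h ?_⟩
    apply (hq1 ⟨_, comm_mem V.nW g ⟨x, hx⟩⟩).mp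
    rw [comm_apply V.nW hact, h1, mul_inv_cancel]
  have hK2 := Orb.fix_two hL hsq hE hnt hf
  obtain ⟨y0, -, hy0⟩ := (Nat.card_eq_two_iff' (1 : (Orb.phi hsq (π f)).ker)).mp hK2
  have key : ∀ (x : Y) (hx : x ∈ W), x ∉ K → f * x * f⁻¹ * x⁻¹ ∈ K → q ⟨x, hx⟩ = (y0 : E) := by
    intro x hx hxK h1
    have h2 : q ⟨x, hx⟩ ∈ (Orb.phi hsq (π f)).ker := by
      have h3 := (hq1 ⟨_, comm_mem V.nW f ⟨x, hx⟩⟩).mpr h1
      rw [comm_apply V.nW hact] at h3
      exact h3
    have h4 := hy0 ⟨_, h2⟩ (fun h => hxK ((hq1 _).mp (congrArg Subtype.val h)))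
    exact congrArg Subtype.val h4
  have h3 : q (⟨x, hx⟩ * (⟨y, hy⟩ : W)⁻¹) = 1 := by
    rw [map_mul, map_inv, key x hx hxK h1, key y hy hyK h2, mul_inv_cancel]
  exact (hq1 _).mp h3

theorem Nat8.no_fix [Finite Y] (hL : IsL L) {π : Y →* L} (hs : Function.Surjective π) {K W : Subgroup Y}
    (N : Nat8 π K W) {f x : Y} (hf : orderOf (π f) = 7) (hx : x ∈ W) (h1 : f * x * f⁻¹ * x⁻¹ ∈ K) : x ∈ K := by
  haveI : Finite L := Nat.finite_of_card_ne_zero (by rw [hL.card]; norm_num)
  obtain ⟨E, _, _, _, q, hq, hq1, hsq, hc, hact⟩ := section_action hs N.nK N.nW N.le N.sq N.triv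
  have hK0 : 0 < Nat.card K := Nat.card_pos
  have hE : Nat.card E = 8 := by
    have h1 := N.card
    rw [hc] at h1
    exact Nat.eq_of_mul_eq_mul_right hK0 h1
  have hnt : ∃ (l : L) (x : E), l • x ≠ x := by
    obtain ⟨g, x, hx, h⟩ := N.nt
    refine ⟨π g, q ⟨x, hx⟩, fun h1 => h ?_⟩
    apply (hq1 ⟨_, comm_mem N.nW g ⟨x, hx⟩⟩).mp
    rw [comm_apply N.nW hact, h1, mul_inv_cancel]
  have hf1 : π f ≠ 1 := by
    intro h
    rw [h] at hf
    simp at hf
  have hK8 : Nat.card (Orb.phi hsq (π f)).ker ∣ 8 := by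
    rw [← hE]
    exact Subgroup.card_subgroup_dvd_card _
  have hKm : 8 ≡ Nat.card (Orb.phi hsq (π f)).ker [MOD 7] := by
    have := Orb.card_ker_modEq hsq hf
    rwa [hE] at this
  have hKne : Nat.card (Orb.phi hsq (π f)).ker ≠ 8 := by
    intro h
    have htop : (Orb.phi hsq (π f)).ker = ⊤ := Subgroup.eq_top_of_card_eq _ (by rw [h, hE])
    exact hf1 (Orb.faithful hL.simple hnt fun x => (Orb.mem_ker_phi hsq (π f) x).mp (by rw [htop]; trivial))
  have hK1 : Nat.card (Orb.phi hsq (π f)).ker = 1 := by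
    have hle : Nat.card (Orb.phi hsq (π f)).ker ≤ 8 := Nat.le_of_dvd (by norm_num) hK8
    generalize Nat.card (Orb.phi hsq (π f)).ker = k at *
    interval_cases k <;> first | rfl | (exfalso; revert hK8 hKm hKne; decide)
  have h2 : q ⟨x, hx⟩ ∈ (Orb.phi hsq (π f)).ker := by
    have h3 := (hq1 ⟨_, comm_mem N.nW f ⟨x, hx⟩⟩).mpr h1
    rw [comm_apply N.nW hact] at h3
    exact h3
  rw [Subgroup.card_eq_one.mp hK1, Subgroup.mem_bot] at h2
  exact (hq1 _).mp h2

end Cfsg.Agent.Lib.H64L
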