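import Cfsg.Agent.Lib.H22LIN
import Cfsg.Agent.Lib.H64LO
import Cfsg.Agent.Lib.H32BCZ

/-! S3105, piece BC (helper22; the sub-case `C_P(Z) = Z` is by helper32). -/

set_option autoImplicit false

namespace Cfsg.Agent.Lib.H64L

open Subgroup Cfsg Cfsg.Agent.Lib.SectRank Cfsg.Agent.Lib.H50Five Cfsg.Agent.Lib.H22NB

universe u v
variable {Y : Type u} {L : Type v} [Group Y] [Group L]

theorem Beta.sqc {π : Y →* L} {M : Subgroup Y} (B : Beta π M) {x m : Y} (hx : x ∈ π.ker) (hm : m ∈ M) :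
    (x * m) ^ 2 = x ^ 2 := by
  have h1 := B.cent m hm x hx
  have h2 := B.sqM m hm
  rw [pow_two] at h2
  calc (x * m) ^ 2 = x * (m * x) * m := by rw [pow_two]; group
    _ = x * (x * m) * m := by rw [h1]
    _ = x * x * (m * m) := by group
    _ = x ^ 2 := by rw [h2, mul_one, pow_two]

theorem Beta.sqc' {π : Y →* L} {M : Subgroup Y} (B : Beta π M) {x m : Y} (hx : x ∈ π.ker) (hm : m ∈ M) :
    (m * x) ^ 2 = x ^ 2 := by
  rw [B.cent m hm x hx]; exact B.sqc hx hm

theorem Beta.sqmem {π : Y →* L} {M : Subgroup Y} (B : Beta π M) {x : Y} (hx : x ∈ π.ker) : x ^ 2 ∈ M := by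
  rw [← B.sqP]; exact sq_mem hx

theorem Beta.nat16 [Finite Y] {π : Y →* L} {M : Subgroup Y} (B : Beta π M) : Nat16 π M π.ker where
  nK := B.nM
  nW := inferInstance
  le := B.le
  card := by rw [B.cP, B.cM]
  sq := fun x hx => B.sqmem hx
  triv := fun p hp x hx => by rw [← B.sqP]; exact H50Five.comm_mem hp hx
  nt := by
    by_contra hcon
    push Not at hcon
    obtain ⟨g, m, hm, h⟩ := B.nt
    apply h
    have h1 : H50Five.sq π.ker ≤ centralizer {g} := by
      rw [sq_le_iff]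
      intro x hx
      rw [mem_centralizer_iff]
      intro k hk
      rw [Set.mem_singleton_iff] at hk
      subst hk
      have h2 := hcon k x hx
      have h3 : (k * x * k⁻¹) ^ 2 = x ^ 2 := by
        have h4 : k * x * k⁻¹ = (k * x * k⁻¹ * x⁻¹) * x := by group
        rw [h4]; exact B.sqc' hx h2
      rw [lin_conj_sq] at h3
      exact mul_inv_eq_iff_eq_mul.mp h3
    rw [B.sqP] at h1
    have h2 := mem_centralizer_iff.mp (h1 hm) g rfl
    rw [h2]; group

theorem Beta.nat8 [Finite Y] {π : Y →* L} {M : Subgroup Y} (B : Beta π M) : Nat8 π ⊥ M where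
  nK := inferInstance
  nW := B.nM
  le := bot_le
  card := by rw [B.cM]; simp
  sq := fun x hx => by rw [mem_bot]; exact B.sqM x hx
  triv := fun p hp x hx => by rw [mem_bot, ← B.cent x hx p hp]; group
  nt := by
    obtain ⟨g, m, hm, h⟩ := B.nt
    exact ⟨g, m, hm, by rw [mem_bot]; exact h⟩

theorem Beta.sq_ne [Finite Y] {π : Y →* L} {M : Subgroup Y} (B : Beta π M) (h : ∀ x ∈ π.ker, x ^ 2 = 1) : False := by
  have h1 : H50Five.sq π.ker ≤ ⊥ := sq_le_iff.mpr fun x hx => by rw [mem_bot]; exact h x hx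
  rw [B.sqP] at h1
  have h2 := B.cM
  rw [le_bot_iff.mp h1] at h2
  simp at h2

theorem Beta.exists_f [Finite Y] (hL : IsL L) {π : Y →* L} {M : Subgroup Y} (B : Beta π M) :
    ∃ f : Y, orderOf f = 7 ∧ orderOf (π f) = 7 := by
  have h1 : Nat.card L ∣ Nat.card Y := Subgroup.card_dvd_of_surjective π B.surj
  rw [hL.card] at h1
  have F : Fact (Nat.Prime 7) := ⟨by norm_num⟩
  obtain ⟨f, hf⟩ := exists_prime_orderOf_dvd_card' (G := Y) 7 (dvd_trans (by norm_num) h1)
  refine ⟨f, hf, ?_⟩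
  have h2 : orderOf (π f) ∣ 7 := hf ▸ orderOf_map_dvd π f
  rcases (Nat.dvd_prime F.out).mp h2 with h3 | h3
  · exfalso
    rw [orderOf_eq_one_iff] at h3
    have h4 : f ∈ π.ker := h3
    have h5 := Subgroup.orderOf_dvd_natCard π.ker h4
    rw [hf, B.cP] at h5
    norm_num at h5
  · exact h3

/-- an element of order 7 commutes with some element of `P ∖ N`, `|N| = 64` -/
theorem Beta.exists_fixed [Finite Y] {π : Y →* L} {M N : Subgroup Y} (B : Beta π M) (nN : N.Normal) (hN : N ≤ π.ker)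
    (cN : Nat.card N = 64) {f : Y} (hf : orderOf f = 7) : ∃ z ∈ π.ker, z ∉ N ∧ f * z * f⁻¹ = z := by
  have nP : π.ker.Normal := inferInstance
  let act : MulAction (zpowers f) {x : Y // x ∈ π.ker ∧ x ∉ N} :=
    { smul := fun g x => ⟨g * x * (g : Y)⁻¹, nP.conj_mem x x.2.1 g, fun h => x.2.2 (by
        have h1 := nN.conj_mem _ h (g : Y)⁻¹
        have h2 : (g : Y)⁻¹ * (g * x * (g : Y)⁻¹) * (g : Y)⁻¹⁻¹ = x := by group
        rwa [h2] at h1)⟩
      one_smul := fun x => Subtype.ext (by change (1 : Y) * x * (1 : Y)⁻¹ = x; simp)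
      mul_smul := fun g h x => Subtype.ext (by
        change ((g : Y) * h) * x * ((g : Y) * h)⁻¹ = g * (h * x * (h : Y)⁻¹) * (g : Y)⁻¹
        group) }
  have F : Fact (Nat.Prime 7) := ⟨by norm_num⟩
  have hp : IsPGroup 7 (zpowers f) := IsPGroup.of_card (n := 1) (by rw [Nat.card_zpowers, hf]; norm_num)
  have h1 := hp.card_modEq_card_fixedPoints {x : Y // x ∈ π.ker ∧ x ∉ N}
  have h2 : Nat.card {x : Y // x ∈ π.ker ∧ x ∉ N} = 64 := by
    have h3 : Nat.card {x : Y // x ∈ π.ker ∧ x ∉ N} = ((π.ker : Set Y) \ (N : Set Y)).ncard := by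
      rw [← Nat.card_coe_set_eq]; rfl
    have h4 : (π.ker : Set Y).ncard = 128 := by rw [← B.cP, ← Nat.card_coe_set_eq]; rfl
    have h5 : (N : Set Y).ncard = 64 := by rw [← cN, ← Nat.card_coe_set_eq]; rfl
    rw [h3, Set.ncard_sdiff (by exact hN) (Set.toFinite _), h4, h5]
  rw [h2] at h1
  have h3 : 0 < Nat.card (MulAction.fixedPoints (zpowers f) {x : Y // x ∈ π.ker ∧ x ∉ N}) := by
    rcases Nat.eq_zero_or_pos (Nat.card (MulAction.fixedPoints (zpowers f) {x : Y // x ∈ π.ker ∧ x ∉ N})) with h | h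
    · rw [h] at h1; exact absurd h1 (by decide)
    · exact h
  obtain ⟨⟨z, hz⟩⟩ := (Nat.card_pos_iff.mp h3).1
  refine ⟨z, z.2.1, z.2.2, ?_⟩
  have h4 := hz ⟨f, mem_zpowers f⟩
  exact congrArg Subtype.val h4

theorem beta_cases [Finite Y] (hL : IsL L) {π : Y →* L} {M : Subgroup Y} (B : Beta π M) :
    (∃ E : Subgroup Y, Homo E M ∧ E ≤ π.ker ∧ ∃ z ∈ π.ker, z ∉ E ∧ ∀ x ∈ E, z * x * z⁻¹ = x⁻¹) ∨
    ((∀ x ∈ π.ker, ∀ y ∈ π.ker, x * y = y * x) ∧ ∃ Z : Subgroup Y, Z.Normal ∧ M ≤ Z ∧ Z ≤ π.ker ∧ Nat.card Z = 16 ∧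
      (∀ x ∈ Z, x ^ 2 = 1) ∧ (∀ x ∈ π.ker, x ^ 2 = 1 → x ∈ Z)) := by
  have hs := B.surj
  have nP : π.ker.Normal := inferInstance
  have N2 := B.nat8
  have V := B.nat16
  obtain ⟨f, hf7, hf⟩ := B.exists_f hL
  rcases orb hL hs V with ⟨N, N1, hN, htr, -⟩ | ⟨Z, N3, hMZ, cZ, -⟩
  · -- case (B)
    left
    have cN : Nat.card N = 64 := by rw [N1.card, B.cM]
    obtain ⟨z, hz, hzN, hfz⟩ := B.exists_fixed N1.nW hN cN hf7
    have hz2 : z ^ 2 = 1 := by
      have h1 : f * z ^ 2 * f⁻¹ * (z ^ 2)⁻¹ ∈ (⊥ : Subgroup Y) := by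
        rw [mem_bot, ← lin_conj_sq, hfz, mul_inv_cancel]
      exact mem_bot.mp (N2.no_fix hL hs hf (B.sqmem hz) h1)
    have hout : ∀ x ∈ π.ker, x ∉ N → x ^ 2 = 1 := by
      intro x hx hxN
      obtain ⟨g, hg⟩ := htr z hz x hx hzN hxN
      have h1 : (g * z * g⁻¹) ^ 2 = x ^ 2 := by
        have h2 : g * z * g⁻¹ = (g * z * g⁻¹ * x⁻¹) * x := by group
        rw [h2]; exact B.sqc' hx hg
      rw [← h1, lin_conj_sq, hz2]; group
    have hinv : ∀ n ∈ N, z * n * z⁻¹ = n⁻¹ := by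
      intro n hn
      have h1 : z * n ∉ N := by
        intro h
        apply hzN
        have := mul_mem h (inv_mem hn)
        rwa [mul_inv_cancel_right] at this
      have h2 := hout _ (mul_mem hz (hN hn)) h1
      have hz3 : z⁻¹ = z := by rw [inv_eq_iff_mul_eq_one, ← pow_two]; exact hz2
      rw [pow_two] at h2
      rw [hz3, eq_inv_iff_mul_eq_one]
      calc z * n * z * n = z * n * (z * n) := by group
        _ = 1 := h2
    have hNab : ∀ x ∈ N, ∀ y ∈ N, x * y = y * x := by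
      intro x hx y hy
      have h1 := hinv _ (mul_mem hx hy)
      have h2 : z * (x * y) * z⁻¹ = (z * x * z⁻¹) * (z * y * z⁻¹) := by group
      rw [h2, hinv x hx, hinv y hy, ← mul_inv_rev] at h1
      exact (inv_injective h1).symm
    refine ⟨N, ⟨N1.nW, B.nM, N1.le, hNab, cN, B.cM, fun x hx => B.sqmem (hN hx), B.sqM, ?_⟩, hN, z, hz, hzN, hinv⟩
    intro x hx hx2
    by_contra hxM
    apply B.sq_ne
    intro y hy
    by_cases hyN : y ∈ N
    · by_cases hyM : y ∈ M
      · exact B.sqM y hyM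
      · obtain ⟨g, hg⟩ := N1.trans1 hL hs hx hyN hxM hyM
        have h1 : (g * x * g⁻¹) ^ 2 = y ^ 2 := by
          have h2 : g * x * g⁻¹ = (g * x * g⁻¹ * y⁻¹) * y := by group
          rw [h2]; exact B.sqc' hy hg
        rw [← h1, lin_conj_sq, hx2]; group
    · exact hout y hy hyN
  · -- case (A)
    rw [B.cM] at cZ
    have cZ' : Nat.card Z = 16 := by rw [cZ]
    have nZ := N3.nK
    have hidx : (M.subgroupOf Z).index = 2 := by
      have h3 := relIndex_mul_relIndex (⊥ : Subgroup Y) M Z bot_le hMZ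
      rw [relIndex_bot_left, relIndex_bot_left, B.cM, cZ'] at h3
      change M.relIndex Z = 2
      omega
    have hprod : ∀ a ∈ Z, ∀ b ∈ Z, a ∉ M → b ∉ M → a * b ∈ M := by
      intro a ha b hb ha' hb'
      have h1 := Subgroup.mul_mem_iff_of_index_two hidx (a := ⟨a, ha⟩) (b := ⟨b, hb⟩)
      rw [mem_subgroupOf, mem_subgroupOf, mem_subgroupOf] at h1
      exact h1.mpr ⟨fun h => absurd h ha', fun h => absurd h hb'⟩
    have sqZ : ∀ x ∈ Z, x ^ 2 = 1 := by
      intro k hk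
      by_cases hkM : k ∈ M
      · exact B.sqM k hkM
      · have h1 : f * k * f⁻¹ ∉ M := by
          intro h
          apply hkM
          have := B.nM.conj_mem _ h f⁻¹
          have h2 : f⁻¹ * (f * k * f⁻¹) * f⁻¹⁻¹ = k := by group
          rwa [h2] at this
        have h2 : f * k * f⁻¹ * k⁻¹ ∈ M := hprod _ (nZ.conj_mem k hk f) _ (inv_mem hk) h1 (fun h => hkM (by
          have := inv_mem h; rwa [inv_inv] at this))
        have h3 : (f * k * f⁻¹) ^ 2 = k ^ 2 := by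
          have h4 : f * k * f⁻¹ = (f * k * f⁻¹ * k⁻¹) * k := by group
          rw [h4]; exact B.sqc' (N3.le hk) h2
        have h5 : f * k ^ 2 * f⁻¹ * (k ^ 2)⁻¹ ∈ (⊥ : Subgroup Y) := by
          rw [mem_bot, ← lin_conj_sq, h3, mul_inv_cancel]
        exact mem_bot.mp (N2.no_fix hL hs hf (B.sqmem (N3.le hk)) h5)
    have hZab := comm_of_sq sqZ
    have nC : (π.ker ⊓ centralizer (Z : Set Y)).Normal := inferInstance
    have hZC : Z ≤ π.ker ⊓ centralizer (Z : Set Y) := fun x hx =>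
      mem_inf.mpr ⟨N3.le hx, mem_centralizer_iff.mpr fun k hk => hZab k hk x hx⟩
    rcases N3.irr hL hs nC hZC inf_le_left with h | h
    · left
      apply beta_case_Z hL B N3 N2 hMZ cZ' sqZ
      intro x hx hxc
      rw [← h]
      exact mem_inf.mpr ⟨hx, mem_centralizer_iff.mpr fun k hk => hxc k hk⟩
    · right
      have hcen : ∀ x ∈ π.ker, ∀ k ∈ Z, k * x = x * k := by
        intro x hx k hk
        rw [← h] at hx
        exact mem_centralizer_iff.mp (mem_inf.mp hx).2 k hk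
      have hk : ∀ x ∈ π.ker, ∀ k ∈ Z, (x * k) ^ 2 = x ^ 2 := by
        intro x hx k hk
        have h1 := hcen x hx k hk
        have h2 := sqZ k hk
        rw [pow_two] at h2
        calc (x * k) ^ 2 = x * (k * x) * k := by rw [pow_two]; group
          _ = x * (x * k) * k := by rw [h1]
          _ = x * x * (k * k) := by group
          _ = x ^ 2 := by rw [h2, mul_one, pow_two]
      have h1 : ∀ x ∈ π.ker, x ^ 2 = 1 → x ∈ Z := by
        intro x hx hx2
        by_contra hxZ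
        apply B.sq_ne
        intro y hy
        by_cases hyZ : y ∈ Z
        · exact sqZ y hyZ
        · obtain ⟨g, hg⟩ := N3.trans1 hL hs hx hy hxZ hyZ
          have h1 : (g * x * g⁻¹) ^ 2 = y ^ 2 := by
            have h2 : g * x * g⁻¹ = y * (g * x * g⁻¹ * y⁻¹) := by
              rw [← hcen y hy _ hg]; group
            rw [h2]; exact hk y hy _ hg
          rw [← h1, lin_conj_sq, hx2]; group
      exact ⟨lin hL hs N3 N2 (fun x hx => B.sqmem hx) hk h1, Z, nZ, hMZ, N3.le, cZ', sqZ, h1⟩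

end Cfsg.Agent.Lib.H64L
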