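import Cfsg.Agent.Lib.CoprimeGen
import Cfsg.Agent.Lib.CoprimeAction2

/-!
Goldschmidt's generation lemma for `C_Y(B)`, `Y = [Y, A]`, `A` an abelian 2-group, `|Y|` odd.
-/

set_option autoImplicit false

namespace Cfsg.Agent.Lib.H22Gold

open scoped commutatorElement
open Subgroup Pointwise Cfsg.Agent.Lib.SubgroupTools Cfsg.Agent.Lib.CoprimeAction Cfsg.Agent.Lib

universe u

section Cyc
variable {G : Type u} [Group G]

theorem norm_comm (X Z : Subgroup G) : normalizer (X : Set G) ⊓ normalizer (Z : Set G) ≤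
    normalizer ((⁅X, Z⁆ : Subgroup G) : Set G) := by
  intro g hg
  obtain ⟨h1, h2⟩ := mem_inf.mp hg
  rw [mem_normalizer_iff_conj_smul] at h1 h2
  rw [mem_normalizer_iff_conj_smul, conj_smul_eq_map, map_commutator, ← conj_smul_eq_map,
    ← conj_smul_eq_map, h1, h2]

/-- `B / B₀` is cyclic -/
def Cyc (B B₀ : Subgroup G) : Prop := ∃ b ∈ B, B ≤ B₀ ⊔ zpowers b

theorem comm_norm {B X : Subgroup G} (hB : IsMulCommutative ↥B) (hX : X ≤ B) :
    B ≤ normalizer (X : Set G) := by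
  intro b hb
  rw [mem_normalizer_iff]
  intro x
  have hc : ∀ y ∈ B, b * y = y * b := by
    intro y hy
    have := (isMulCommutative_iff.mp hB) ⟨b, hb⟩ ⟨y, hy⟩
    simpa using congrArg Subtype.val this
  constructor
  · intro hx
    rw [hc x (hX hx), mul_inv_cancel_right]; exact hx
  · intro hx
    have h1 : x ∈ B := by
      have h2 := mul_mem (mul_mem (inv_mem hb) (hX hx)) hb
      have h3 : b⁻¹ * (b * x * b⁻¹) * b = x := by group
      rwa [h3] at h2
    rwa [hc x h1, mul_inv_cancel_right] at hx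

theorem Cyc.isCyclic {B B₀ : Subgroup G} (hB : IsMulCommutative ↥B) (hB₀ : B₀ ≤ B)
    (h : Cyc B B₀) [(B₀.subgroupOf B).Normal] : IsCyclic (↥B ⧸ B₀.subgroupOf B) := by
  obtain ⟨b, hb, hle⟩ := h
  refine ⟨⟨(QuotientGroup.mk' (B₀.subgroupOf B)) ⟨b, hb⟩, ?_⟩⟩
  intro x
  obtain ⟨y, rfl⟩ := QuotientGroup.mk'_surjective _ x
  have hy : (y : G) ∈ B₀ ⊔ zpowers b := hle y.2
  have hn : zpowers b ≤ normalizer (B₀ : Set G) := by
    rw [zpowers_le]; exact comm_norm hB hB₀ hb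
  obtain ⟨c, hc, d, hd, hcd⟩ := (mem_sup_of_le_normalizer hn).mp hy
  obtain ⟨k, rfl⟩ := mem_zpowers_iff.mp hd
  refine ⟨k, ?_⟩
  show (QuotientGroup.mk' (B₀.subgroupOf B)) ⟨b, hb⟩ ^ k = _
  rw [← map_zpow, QuotientGroup.mk'_eq_mk']
  refine ⟨⟨b, hb⟩ ^ (-k) * y, ?_, ?_⟩
  · rw [mem_subgroupOf]
    simp only [Subgroup.coe_mul, Subgroup.coe_zpow]
    rw [← hcd]
    have hcB := hB₀ hc
    have h1 : (⟨b, hb⟩ : B) * ⟨c, hcB⟩ = ⟨c, hcB⟩ * ⟨b, hb⟩ := (isMulCommutative_iff.mp hB) _ _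
    have h2 : Commute b c := congrArg Subtype.val h1
    have h3 : b ^ (-k) * (c * b ^ k) = c := by
      rw [← mul_assoc, (h2.zpow_left (-k)).eq, mul_assoc, ← zpow_add]; simp
    rw [h3]; exact hc
  · rw [← mul_assoc, ← zpow_add]; simp

theorem cyc_of_unique [Finite G] {B B₀ : Subgroup G} (hB : IsMulCommutative ↥B)
    (h2 : IsPGroup 2 ↥B)
    (h : ∀ x ∈ B, ∀ y ∈ B, x ∉ B₀ → y ∉ B₀ → x * x ∈ B₀ → y * y ∈ B₀ → x * y ∈ B₀) :
    Cyc B B₀ := by
  classical
  let _ : CommGroup ↥B := { (inferInstance : Group ↥B) with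
    mul_comm := fun a b => (isMulCommutative_iff.mp hB) a b }
  set N := B₀.subgroupOf B with hN
  have hcyc : IsCyclic (↥B ⧸ N) := by
    apply CoprimeGen.isCyclic_of_prime_card_le
    intro r hr
    by_cases hr2 : r = 2
    · subst hr2
      by_cases hbot : (powMonoidHom 2 : (↥B ⧸ N) →* _).ker = ⊥
      · rw [hbot, card_bot]; norm_num
      · obtain ⟨⟨u, hu⟩, hu1'⟩ := Subgroup.ne_bot_iff_exists_ne_one.mp hbot
        have hu1 : u ≠ 1 := fun h => hu1' (Subtype.ext h)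
        have hsub : (((powMonoidHom 2 : (↥B ⧸ N) →* _).ker : Subgroup _) : Set (↥B ⧸ N)) ⊆
            {1, u⁻¹} := by
          intro v hv
          rw [Set.mem_insert_iff, Set.mem_singleton_iff]
          by_contra hcon
          push Not at hcon
          obtain ⟨x, rfl⟩ := QuotientGroup.mk'_surjective N u
          obtain ⟨y, rfl⟩ := QuotientGroup.mk'_surjective N v
          have hq : ∀ z : ↥B, (QuotientGroup.mk' N z = 1 ↔ (z : G) ∈ B₀) := by
            intro z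
            rw [← MonoidHom.mem_ker, QuotientGroup.ker_mk', hN, mem_subgroupOf]
          have hx2 : (x : G) * x ∈ B₀ := by
            rw [MonoidHom.mem_ker, powMonoidHom_apply, ← map_pow, hq] at hu
            simpa [pow_two] using hu
          have hy2 : (y : G) * y ∈ B₀ := by
            rw [SetLike.mem_coe, MonoidHom.mem_ker, powMonoidHom_apply, ← map_pow, hq] at hv
            simpa [pow_two] using hv
          have h3 := h x x.2 y y.2 (fun h' => hu1 ((hq x).mpr h'))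
            (fun h' => hcon.1 ((hq y).mpr h')) hx2 hy2
          apply hcon.2
          have h4 : QuotientGroup.mk' N (x * y) = 1 := (hq (x * y)).mpr h3
          rw [map_mul] at h4
          exact eq_inv_of_mul_eq_one_right h4
        calc Nat.card ↥((powMonoidHom 2 : (↥B ⧸ N) →* _).ker)
            = (((powMonoidHom 2 : (↥B ⧸ N) →* _).ker : Subgroup _) : Set (↥B ⧸ N)).ncard := rfl
          _ ≤ ({1, u⁻¹} : Set (↥B ⧸ N)).ncard := Set.ncard_le_ncard hsub (Set.toFinite _)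
          _ ≤ ({u⁻¹} : Set (↥B ⧸ N)).ncard + 1 := Set.ncard_insert_le _ _
          _ = 2 := by rw [Set.ncard_singleton]
    · have hbot : (powMonoidHom r : (↥B ⧸ N) →* _).ker = ⊥ := by
        rw [eq_bot_iff]
        intro v hv
        rw [MonoidHom.mem_ker, powMonoidHom_apply] at hv
        rw [mem_bot]
        obtain ⟨k, hk⟩ := (h2.to_quotient N) v
        have h5 : orderOf v ∣ 2 ^ k := orderOf_dvd_of_pow_eq_one hk
        have h6 : orderOf v ∣ r := orderOf_dvd_of_pow_eq_one hv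
        have h7 : Nat.Coprime r (2 ^ k) :=
          Nat.Coprime.pow_right k ((Nat.coprime_primes hr Nat.prime_two).mpr hr2)
        exact orderOf_eq_one_iff.mp (Nat.eq_one_of_dvd_coprimes h7 h6 h5)
      rw [hbot, card_bot]; exact hr.one_lt.le
  obtain ⟨g, hg⟩ := hcyc.exists_generator
  obtain ⟨b, rfl⟩ := QuotientGroup.mk'_surjective N g
  refine ⟨b, b.2, ?_⟩
  intro x hx
  obtain ⟨k, hk⟩ := mem_zpowers_iff.mp (hg (QuotientGroup.mk' N ⟨x, hx⟩))
  rw [← map_zpow, QuotientGroup.mk'_eq_mk'] at hk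
  obtain ⟨z, hz, hz'⟩ := hk
  rw [hN, mem_subgroupOf] at hz
  have h3 : x = (z : G) * (b : G) ^ k := by
    have h4 := congrArg Subtype.val hz'
    simp only [Subgroup.coe_mul, Subgroup.coe_zpow] at h4
    rw [← h4]
    have h5 : (b ^ k) * z = z * (b ^ k) := (isMulCommutative_iff.mp hB) _ _
    have h6 := congrArg Subtype.val h5
    simpa using h6
  rw [h3]
  exact mul_mem (mem_sup_left hz) (mem_sup_right (zpow_mem (mem_zpowers _) k))

end Cyc

section Main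

/-- hypotheses of the quotient step -/
def Stm (n : ℕ) : Prop := ∀ (Q : Type u) [Group Q] [Finite Q] (A B Y D : Subgroup Q),
  IsPGroup 2 ↥A → IsMulCommutative ↥A → B ≤ A → Odd (Nat.card ↥Y) →
  A ≤ normalizer (Y : Set Q) → ⁅Y, A⁆ = Y → Nat.card ↥Y ≤ n →
  (∀ B₀ ≤ B, Cyc B B₀ →
    Y ⊓ centralizer (B : Set Q) ⊓ ⁅Y ⊓ centralizer (B₀ : Set Q), A⁆ ≤ D) →
  Y ⊓ centralizer (B : Set Q) ≤ D

variable {G : Type u} [Group G] [Finite G]

theorem quot_step {A B Y D N : Subgroup G} {n : ℕ} (ih : Stm.{u} n)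
    (hA2 : IsPGroup 2 ↥A) (hAc : IsMulCommutative ↥A) (hB : B ≤ A) (hYodd : Odd (Nat.card ↥Y))
    (hYA : ⁅Y, A⁆ = Y) (hNY : N ≤ Y)
    (hYN : Y ≤ normalizer (N : Set G)) (hAN : A ≤ normalizer (N : Set G)) (hN : N ≠ ⊥)
    (hcard : Nat.card ↥Y ≤ n + 1)
    (hgen : ∀ B₀ ≤ B, Cyc B B₀ →
      Y ⊓ centralizer (B : Set G) ⊓ ⁅Y ⊓ centralizer (B₀ : Set G), A⁆ ≤ D)
    (hND : N ⊓ centralizer (B : Set G) ≤ D) : Y ⊓ centralizer (B : Set G) ≤ D := by
  have hcopA : ∀ {X Z : Subgroup G}, X ≤ A → Z ≤ Y → (Nat.card ↥X).Coprime (Nat.card ↥Z) := by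
    intro X Z hX hZ
    obtain ⟨k, hk⟩ := IsPGroup.iff_card.mp (hA2.to_le hX)
    have h1 : Odd (Nat.card ↥Z) := hYodd.of_dvd_nat (card_dvd_of_le hZ)
    rw [hk]
    exact (Nat.coprime_two_left.mpr h1).pow_left k
  have hsA : ∀ {X : Subgroup G}, X ≤ A → Group.IsSolvable ↥X := by
    intro X hX
    have := (hA2.to_le hX).isNilpotent
    infer_instance
  set H := normalizer (N : Set G) with hH
  set f := QuotientGroup.mk' (N.subgroupOf H) with hf
  set q : Subgroup G → Subgroup (↥H ⧸ N.subgroupOf H) := fun X => (X.subgroupOf H).map f with hq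
  have hmem : ∀ {X : Subgroup G} {x : G} (_ : x ∈ X) (hxH : x ∈ H), f ⟨x, hxH⟩ ∈ q X := by
    intro X x hx hxH
    exact mem_map_of_mem f (mem_subgroupOf.mpr hx)
  have hex : ∀ {X : Subgroup G} {z : ↥H ⧸ N.subgroupOf H}, z ∈ q X →
      ∃ x ∈ X, ∃ hx : x ∈ H, f ⟨x, hx⟩ = z := by
    rintro X z ⟨x, hx, rfl⟩
    exact ⟨x, mem_subgroupOf.mp hx, x.2, rfl⟩
  have h1 : ∀ z : ↥H, f z = 1 ↔ (z : G) ∈ N := by
    intro z
    rw [← MonoidHom.mem_ker, hf, QuotientGroup.ker_mk', mem_subgroupOf]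
  have hcommq : ∀ {X Z : Subgroup G}, X ≤ H → Z ≤ H → q ⁅X, Z⁆ = ⁅q X, q Z⁆ := by
    intro X Z hX hZ
    have h2 : (⁅X, Z⁆).subgroupOf H = ⁅X.subgroupOf H, Z.subgroupOf H⁆ := by
      apply Subgroup.map_injective H.subtype_injective
      rw [map_commutator, subgroupOf_map_subtype, subgroupOf_map_subtype, subgroupOf_map_subtype,
        inf_eq_left.mpr hX, inf_eq_left.mpr hZ, inf_eq_left]
      exact (commutator_mono hX hZ).trans (by
        rw [commutator_le]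
        intro a ha b hb
        exact mul_mem (mul_mem (mul_mem ha hb) (inv_mem ha)) (inv_mem hb))
    show ((⁅X, Z⁆).subgroupOf H).map f = _
    rw [h2, map_commutator]
  have hBH : B ≤ H := hB.trans hAN
  have hqAc : IsMulCommutative ↥(q A) := by
    rw [isMulCommutative_iff]
    rintro ⟨a, ha⟩ ⟨b, hb⟩
    obtain ⟨x, hx, hxH, rfl⟩ := hex ha
    obtain ⟨y, hy, hyH, rfl⟩ := hex hb
    apply Subtype.ext
    show f _ * f _ = f _ * f _
    rw [← map_mul, ← map_mul]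
    congr 1
    apply Subtype.ext
    have := (isMulCommutative_iff.mp hAc) ⟨x, hx⟩ ⟨y, hy⟩
    simpa using congrArg Subtype.val this
  have hqBA : q B ≤ q A := map_mono (comap_mono hB)
  have hqA2 : IsPGroup 2 ↥(q A) := by
    rintro ⟨a, ha⟩
    obtain ⟨x, hx, hxH, rfl⟩ := hex ha
    obtain ⟨k, hk⟩ := hA2 ⟨x, hx⟩
    refine ⟨k, Subtype.ext ?_⟩
    show f _ ^ 2 ^ k = 1
    rw [← map_pow, h1]
    have := congrArg Subtype.val hk
    simp only [SubmonoidClass.coe_pow, OneMemClass.coe_one] at this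
    simp [this, one_mem]
  have hcardq := card_map_mul_card_inf_ker f (Y.subgroupOf H)
  have hcY : Nat.card ↥(Y.subgroupOf H) = Nat.card ↥Y := card_subgroupOf_of_le hYN
  rw [hcY] at hcardq
  have hqodd : Odd (Nat.card ↥(q Y)) := hYodd.of_dvd_nat ⟨_, hcardq.symm⟩
  have hqlt : Nat.card ↥(q Y) < Nat.card ↥Y := by
    have h3 : 1 < Nat.card ↥(Y.subgroupOf H ⊓ f.ker : Subgroup ↥H) := by
      rw [Finite.one_lt_card_iff_nontrivial, Subgroup.nontrivial_iff_exists_ne_one]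
      obtain ⟨⟨x, hx⟩, hx1⟩ := Subgroup.ne_bot_iff_exists_ne_one.mp hN
      refine ⟨⟨x, hYN (hNY hx)⟩, mem_inf.mpr ⟨mem_subgroupOf.mpr (hNY hx), ?_⟩, ?_⟩
      · rw [MonoidHom.mem_ker, h1]; exact hx
      · intro h
        have h' : x = 1 := congrArg (fun t : ↥H => (t : G)) h
        exact hx1 (Subtype.ext h')
    rw [← hcardq]
    exact (Nat.lt_mul_iff_one_lt_right Nat.card_pos).mpr h3
  have hYA' : ⁅q Y, q A⁆ = q Y := by rw [← hcommq hYN hAN, hYA]
  -- the subgroup `D'`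
  set D₁ := D ⊓ (Y ⊓ centralizer (B : Set G)) with hD₁
  have hmain := ih (↥H ⧸ N.subgroupOf H) (q A) (q B) (q Y) (q D₁) hqA2 hqAc hqBA hqodd
    (le_normalizer_iff_commutator_le_left.mpr hYA'.le) hYA' (by omega) (by
      intro B₀' hB₀' hcyc
      set B₀ : Subgroup G := B ⊓ ((B₀'.comap f).map H.subtype) with hB₀
      have hmB₀ : ∀ x : G, x ∈ B₀ ↔ x ∈ B ∧ ∃ hx : x ∈ H, f ⟨x, hx⟩ ∈ B₀' := by
        intro x
        rw [hB₀, mem_inf]
        refine and_congr_right fun _ => ?_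
        constructor
        · rintro ⟨y, hy, rfl⟩
          exact ⟨y.2, hy⟩
        · rintro ⟨hx, hx'⟩
          exact ⟨⟨x, hx⟩, hx', rfl⟩
      have hB₀B : B₀ ≤ B := inf_le_left
      have hc : Cyc B B₀ := by
        obtain ⟨b', hb', hle⟩ := hcyc
        obtain ⟨b, hb, hbH, rfl⟩ := hex hb'
        refine ⟨b, hb, ?_⟩
        intro x hx
        have h3 := hle (hmem hx (hBH hx))
        have h4 : IsMulCommutative ↥(q B) := by
          rw [isMulCommutative_iff]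
          intro u v
          have := (isMulCommutative_iff.mp hqAc) ⟨u, hqBA u.2⟩ ⟨v, hqBA v.2⟩
          apply Subtype.ext
          simpa using congrArg Subtype.val this
        have hn : zpowers (f ⟨b, hbH⟩) ≤ normalizer (B₀' : Set _) := by
          rw [zpowers_le]
          exact comm_norm h4 hB₀' (hmem hb hbH)
        obtain ⟨c, hc, d, hd, hcd⟩ := (mem_sup_of_le_normalizer hn).mp h3
        obtain ⟨k, rfl⟩ := mem_zpowers_iff.mp hd
        have h5 : x * b ^ (-k) ∈ B₀ := by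
          rw [hmB₀]
          refine ⟨mul_mem hx (zpow_mem hb _), mul_mem (hBH hx) (zpow_mem hbH _), ?_⟩
          have h6 : f ⟨x * b ^ (-k), mul_mem (hBH hx) (zpow_mem hbH _)⟩ =
              f ⟨x, hBH hx⟩ * f ⟨b, hbH⟩ ^ (-k) := by
            rw [← map_zpow, ← map_mul]; rfl
          rw [h6, ← hcd, mul_assoc, ← zpow_add]
          simpa using hc
        have h7 : x = (x * b ^ (-k)) * b ^ k := by simp
        rw [h7]
        exact mul_mem (mem_sup_left h5) (mem_sup_right (zpow_mem (mem_zpowers _) _))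
      have hgenB := hgen B₀ hB₀B hc
      intro z hz
      obtain ⟨⟨hzY, hzB⟩, hzW⟩ := mem_inf.mp hz |>.imp_left mem_inf.mp
      -- claim 1
      have hcl : q Y ⊓ centralizer (B₀' : Set _) ≤ q (Y ⊓ centralizer (B₀ : Set G)) := by
        intro v hv
        obtain ⟨hv1, hv2⟩ := mem_inf.mp hv
        obtain ⟨y, hy, hyH, rfl⟩ := hex hv1
        obtain ⟨c, hc1, hc2⟩ := exists_mem_centralizer_of_quotient (A := B₀) (N := N)
          (hB₀B.trans hBH) (hcopA (hB₀B.trans hB) hNY) (Or.inl (hsA (hB₀B.trans hB))) y hyH (by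
            intro b hb
            obtain ⟨hbB, hbH, hb'⟩ := (hmB₀ b).mp hb
            have h5 := mem_centralizer_iff.mp hv2 _ hb'
            have h6 : f (⟨b, hbH⟩ * ⟨y, hyH⟩ * ⟨b, hbH⟩⁻¹ * ⟨y, hyH⟩⁻¹) = 1 := by
              rw [map_mul, map_mul, map_mul, map_inv, map_inv, h5]; group
            exact (h1 _).mp h6)
        have hcY : c ∈ Y := by
          have := mul_mem hy (hNY hc2)
          simpa using this
        have h7 : f ⟨y, hyH⟩ = f ⟨c, hYN hcY⟩ := by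
          have h8 : f (⟨y, hyH⟩⁻¹ * ⟨c, hYN hcY⟩) = 1 := (h1 _).mpr hc2
          rw [map_mul, map_inv] at h8
          exact (inv_mul_eq_one.mp h8)
        rw [h7]
        exact hmem (mem_inf.mpr ⟨hcY, hc1⟩) _
      have hzW' : z ∈ q ⁅Y ⊓ centralizer (B₀ : Set G), A⁆ := by
        rw [hcommq (inf_le_left.trans hYN) hAN]
        exact commutator_mono hcl le_rfl hzW
      set W := ⁅Y ⊓ centralizer (B₀ : Set G), A⁆ with hW
      have hWY : W ≤ Y := by
        rw [hW, ← hYA]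
        exact commutator_mono (by rw [hYA]; exact inf_le_left) le_rfl
      obtain ⟨w, hw, hwH, rfl⟩ := hex hzW'
      have hBW : B ≤ normalizer (W : Set G) :=
        hB.trans (normalizer_commutator_ge_right _ A)
      obtain ⟨d, hd, hdB⟩ := exists_mul_mem_centralizer (A := B) (D := W ⊓ N)
        ((le_inf hBW hBH).trans inf_normalizer_le_normalizer_inf)
        (hcopA hB (inf_le_right.trans hNY)) (Or.inl (hsA hB)) w (by
          intro b hb
          refine mem_inf.mpr ⟨mul_mem (inv_mem hw)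
            ((mem_normalizer_iff.mp (hBW hb) w).mp hw), ?_⟩
          have h5 := mem_centralizer_iff.mp hzB _ (hmem hb (hBH hb))
          have h6 : f (⟨w, hwH⟩⁻¹ * (⟨b, hBH hb⟩ * ⟨w, hwH⟩ * ⟨b, hBH hb⟩⁻¹)) = 1 := by
            rw [map_mul, map_mul, map_mul, map_inv, map_inv, h5]; group
          exact (h1 _).mp h6)
      obtain ⟨hdW, hdN⟩ := mem_inf.mp hd
      have hwd : w * d ∈ W := mul_mem hw hdW
      have hwdD : w * d ∈ D₁ := by
        refine mem_inf.mpr ⟨hgenB (mem_inf.mpr ⟨mem_inf.mpr ⟨hWY hwd, hdB⟩, hwd⟩), ?_⟩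
        exact mem_inf.mpr ⟨hWY hwd, hdB⟩
      have h8 : f ⟨w, hwH⟩ = f ⟨w * d, hYN (hWY hwd)⟩ := by
        have h9 : f (⟨w, hwH⟩⁻¹ * ⟨w * d, hYN (hWY hwd)⟩) = 1 := by
          rw [h1]
          show w⁻¹ * (w * d) ∈ N
          simpa using hdN
        rw [map_mul, map_inv] at h9
        exact (inv_mul_eq_one.mp h9)
      rw [h8]
      exact hmem hwdD _)
  intro y hy
  obtain ⟨hyY, hyB⟩ := mem_inf.mp hy
  have hy' : f ⟨y, hYN hyY⟩ ∈ q Y ⊓ centralizer ((q B : Subgroup _) : Set _) := by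
    refine mem_inf.mpr ⟨hmem hyY _, ?_⟩
    rw [mem_centralizer_iff]
    intro v hv
    obtain ⟨b, hb, hbH, rfl⟩ := hex hv
    rw [← map_mul, ← map_mul]
    congr 1
    exact Subtype.ext (mem_centralizer_iff.mp hyB b hb)
  obtain ⟨d, hd, hdH, hdy⟩ := hex (hmain hy')
  obtain ⟨hdD, hdY, hdB⟩ := mem_inf.mp hd |>.imp_right mem_inf.mp
  have h5 : d⁻¹ * y ∈ N := by
    have h6 : f (⟨d, hdH⟩⁻¹ * ⟨y, hYN hyY⟩) = 1 := by
      rw [map_mul, map_inv, hdy, inv_mul_cancel]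
    exact (h1 _).mp h6
  have h7 : d⁻¹ * y ∈ D := hND (mem_inf.mpr ⟨h5, mul_mem (inv_mem hdB) hyB⟩)
  have h8 : y = d * (d⁻¹ * y) := by group
  rw [h8]
  exact mul_mem hdD h7

theorem stm (hFT : ∀ (X : Type u) [Group X] [Finite X], Odd (Nat.card X) → Group.IsSolvable X)
    (n : ℕ) : Stm.{u} n := by
  induction n with
  | zero =>
    intro Q _ _ A B Y D _ _ _ _ _ _ hc _
    exact absurd hc (by have := Nat.card_pos (α := ↥Y); omega)
  | succ n ih =>
  intro G _ _ A B Y D hA2 hAc hB hYodd hAY hYA hcard hgen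
  by_cases hY1 : Y = ⊥
  · rw [hY1]; exact inf_le_left.trans bot_le
  have hsA : ∀ {X : Subgroup G}, X ≤ A → Group.IsSolvable ↥X := by
    intro X hX
    have := (hA2.to_le hX).isNilpotent
    infer_instance
  have hcopA : ∀ {X Z : Subgroup G}, X ≤ A → Z ≤ Y → (Nat.card ↥X).Coprime (Nat.card ↥Z) := by
    intro X Z hX hZ
    obtain ⟨k, hk⟩ := IsPGroup.iff_card.mp (hA2.to_le hX)
    have h1 : Odd (Nat.card ↥Z) := hYodd.of_dvd_nat (card_dvd_of_le hZ)
    rw [hk]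
    exact (Nat.coprime_two_left.mpr h1).pow_left k
  have hcommA : ∀ a ∈ A, ∀ b ∈ A, a * b = b * a := by
    intro a ha b hb
    have := (isMulCommutative_iff.mp hAc) ⟨a, ha⟩ ⟨b, hb⟩
    simpa using congrArg Subtype.val this
  have hYsol : Group.IsSolvable ↥Y := hFT ↥Y hYodd
  have hYY : ⁅Y, Y⁆ < Y := by
    have : Nontrivial ↥Y := (Subgroup.nontrivial_iff_ne_bot Y).mpr hY1
    have h1 := Group.IsSolvable.commutator_lt_top_of_nontrivial ↥Y
    have h2 := (Subgroup.map_subtype_lt_map_subtype (G' := Y)).mpr h1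
    rw [Subgroup.map_subtype_commutator, ← MonoidHom.range_eq_map, Subgroup.range_subtype] at h2
    exact h2
  -- a maximal `M`
  obtain ⟨M, ⟨hM1, hM2, hM3⟩, hMmax⟩ : ∃ M : Subgroup G, (⁅Y, Y⁆ ≤ M ∧ M < Y ∧
      A ≤ normalizer (M : Set G)) ∧ ∀ U : Subgroup G, M ≤ U → U < Y →
      A ≤ normalizer (U : Set G) → U = M := by
    obtain ⟨M, hM⟩ := Set.Finite.exists_maximal (s := {M : Subgroup G | ⁅Y, Y⁆ ≤ M ∧ M < Y ∧
      A ≤ normalizer (M : Set G)}) (Set.toFinite _) ⟨⁅Y, Y⁆, le_rfl, hYY, by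
        refine (le_inf hAY hAY).trans ?_
        exact norm_comm _ _⟩
    refine ⟨M, hM.prop, ?_⟩
    intro U hMU hUY hAU
    exact le_antisymm (hM.le_of_ge ⟨hM.prop.1.trans hMU, hUY, hAU⟩ hMU) hMU
  have hMY : M ≤ Y := hM2.le
  have hYM : Y ≤ normalizer (M : Set G) := by
    rw [le_normalizer_iff_commutator_le_left]
    exact (commutator_mono hMY le_rfl).trans hM1
  -- `B₀ = C_B(Y/M)`
  let B₀ : Subgroup G :=
    { carrier := {b | b ∈ B ∧ ∀ y ∈ Y, b * y * b⁻¹ * y⁻¹ ∈ M}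
      mul_mem' := by
        rintro b c ⟨hb, hb'⟩ ⟨hc, hc'⟩
        refine ⟨mul_mem hb hc, ?_⟩
        intro y hy
        have h1 : c * y * c⁻¹ ∈ Y := (mem_normalizer_iff.mp (hAY (hB hc)) y).mp hy
        have h2 := mul_mem (hb' _ h1) (hc' y hy)
        have h3 : b * (c * y * c⁻¹) * b⁻¹ * (c * y * c⁻¹)⁻¹ * (c * y * c⁻¹ * y⁻¹) =
          b * c * y * (b * c)⁻¹ * y⁻¹ := by group
        rwa [h3] at h2
      one_mem' := ⟨one_mem B, fun y _ => by simpa using one_mem M⟩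
      inv_mem' := by
        rintro b ⟨hb, hb'⟩
        refine ⟨inv_mem hb, ?_⟩
        intro y hy
        have h1 : b⁻¹ * y * b⁻¹⁻¹ ∈ Y :=
          (mem_normalizer_iff.mp (inv_mem (hAY (hB hb))) y).mp hy
        have h2 := inv_mem (hb' _ h1)
        have h3 : (b * (b⁻¹ * y * b⁻¹⁻¹) * b⁻¹ * (b⁻¹ * y * b⁻¹⁻¹)⁻¹)⁻¹ =
          b⁻¹ * y * b⁻¹⁻¹ * y⁻¹ := by group
        rwa [h3] at h2 }
  have hB₀B : B₀ ≤ B := fun b hb => hb.1
  have hB₀Y : ∀ b ∈ B₀, ∀ y ∈ Y, b * y * b⁻¹ * y⁻¹ ∈ M := fun b hb => hb.2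
  -- elements outside `B₀` with square in `B₀` invert `Y/M`
  have hinv : ∀ b ∈ B, b ∉ B₀ → b * b ∈ B₀ → ∀ y ∈ Y, y * (b * y * b⁻¹) ∈ M := by
    intro b hb hb₀ hbb y hy
    let U : Subgroup G :=
      { carrier := {y | y ∈ Y ∧ b * y * b⁻¹ * y⁻¹ ∈ M}
        mul_mem' := by
          rintro y z ⟨hy, hy'⟩ ⟨hz, hz'⟩
          refine ⟨mul_mem hy hz, ?_⟩
          have h1 := (mem_normalizer_iff.mp (hYM hy) _).mp hz'
          have h2 := mul_mem hy' h1
          have h3 : b * y * b⁻¹ * y⁻¹ * (y * (b * z * b⁻¹ * z⁻¹) * y⁻¹) =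
            b * (y * z) * b⁻¹ * (y * z)⁻¹ := by group
          rwa [h3] at h2
        one_mem' := ⟨one_mem Y, by simpa using one_mem M⟩
        inv_mem' := by
          rintro y ⟨hy, hy'⟩
          refine ⟨inv_mem hy, ?_⟩
          have h1 := (mem_normalizer_iff.mp (inv_mem (hYM hy)) _).mp (inv_mem hy')
          have h3 : y⁻¹ * (b * y * b⁻¹ * y⁻¹)⁻¹ * y⁻¹⁻¹ = b * y⁻¹ * b⁻¹ * y⁻¹⁻¹ := by group
          rwa [h3] at h1 }
    have hUM : M ≤ U := by
      intro m hm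
      exact ⟨hMY hm, mul_mem ((mem_normalizer_iff.mp (hM3 (hB hb)) m).mp hm) (inv_mem hm)⟩
    have hUY : U ≤ Y := fun y hy => hy.1
    have hAU : A ≤ normalizer (U : Set G) := by
      have hA1 : ∀ a ∈ A, ∀ y ∈ U, a * y * a⁻¹ ∈ U := by
        rintro a ha y ⟨hy, hy'⟩
        refine ⟨(mem_normalizer_iff.mp (hAY ha) y).mp hy, ?_⟩
        have h1 := (mem_normalizer_iff.mp (hM3 ha) _).mp hy'
        have h2 := hcommA a ha b (hB hb)
        have h3 : b * (a * y * a⁻¹) * b⁻¹ * (a * y * a⁻¹)⁻¹ =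
            a * (b * y * b⁻¹ * y⁻¹) * a⁻¹ := by
          calc b * (a * y * a⁻¹) * b⁻¹ * (a * y * a⁻¹)⁻¹
              = (b * a) * y * (b * a)⁻¹ * (a * y⁻¹ * a⁻¹) := by group
            _ = (a * b) * y * (a * b)⁻¹ * (a * y⁻¹ * a⁻¹) := by rw [h2]
            _ = _ := by group
        rw [h3]; exact h1
      intro a ha
      rw [mem_normalizer_iff]
      intro y
      refine ⟨hA1 a ha y, fun h => ?_⟩
      have h1 := hA1 a⁻¹ (inv_mem ha) _ h
      have h2 : a⁻¹ * (a * y * a⁻¹) * a⁻¹⁻¹ = y := by group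
      rwa [h2] at h1
    have hUeq : U = M := by
      rcases eq_or_lt_of_le hUY with h | h
      · exfalso
        apply hb₀
        refine ⟨hb, fun y hy => ?_⟩
        rw [← h] at hy
        exact hy.2
      · exact hMmax U hUM h hAU
    rw [← hUeq]
    have hbY : b * y * b⁻¹ ∈ Y := (mem_normalizer_iff.mp (hAY (hB hb)) y).mp hy
    refine ⟨mul_mem hy hbY, ?_⟩
    -- `b (y y^b) b⁻¹ = y^b y^{bb} ≡ y^b y ≡ y y^b`
    have h1 := hB₀Y _ hbb y hy
    have h2 : b * y * b⁻¹ * (b * b * y * (b * b)⁻¹ * y⁻¹) * (b * y * b⁻¹)⁻¹ ∈ M :=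
      (mem_normalizer_iff.mp (hYM hbY) _).mp h1
    have h3 : ⁅b * y * b⁻¹, y⁆ ∈ M := hM1 (commutator_mem_commutator hbY hy)
    have h4 := mul_mem h2 h3
    have h5 : b * y * b⁻¹ * (b * b * y * (b * b)⁻¹ * y⁻¹) * (b * y * b⁻¹)⁻¹ *
        ⁅b * y * b⁻¹, y⁆ = b * (y * (b * y * b⁻¹)) * b⁻¹ * (y * (b * y * b⁻¹))⁻¹ := by
      rw [commutatorElement_def]; group
    rwa [h5] at h4
  have hcyc : Cyc B B₀ := by
    apply cyc_of_unique
    · rw [isMulCommutative_iff]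
      rintro ⟨a, ha⟩ ⟨b, hb⟩
      exact Subtype.ext (hcommA a (hB ha) b (hB hb))
    · exact hA2.to_le hB
    · intro x hx y hy hx0 hy0 hxx hyy
      refine ⟨mul_mem hx hy, ?_⟩
      intro u hu
      have h1 := hinv y hy hy0 hyy u hu
      have h2 := hinv x hx hx0 hxx u⁻¹ (inv_mem hu)
      -- `x (u (y u y⁻¹)) x⁻¹ ∈ M`
      have h3 := (mem_normalizer_iff.mp (hM3 (hB hx)) _).mp h1
      -- `x y u (xy)⁻¹ = (x u x⁻¹)⁻¹ x (u y u y⁻¹) x⁻¹`
      have h4 := mul_mem (mul_mem h2 h3)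
        (one_mem M)
      have h5 := (mem_normalizer_iff.mp (hYM hu) _).mp h4
      have h6 : u * (u⁻¹ * (x * u⁻¹ * x⁻¹) * (x * (u * (y * u * y⁻¹)) * x⁻¹) * 1) * u⁻¹ =
        x * y * u * (x * y)⁻¹ * u⁻¹ := by group
      rwa [h6] at h5
  -- `Y = M C_Y(B₀)`
  have hfac : ∀ y ∈ Y, ∃ c ∈ Y ⊓ centralizer (B₀ : Set G), ∃ m ∈ M, y = c * m := by
    intro y hy
    obtain ⟨c, hc1, hc2⟩ := exists_mem_centralizer_of_quotient (A := B₀) (N := M)
      (hB₀B.trans (hB.trans hM3)) (hcopA (hB₀B.trans hB) hMY)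
      (Or.inl (hsA (hB₀B.trans hB))) y (hYM hy) (fun b hb => hB₀Y b hb y hy)
    have hcY : c ∈ Y := by
      have := mul_mem hy (hMY hc2)
      simpa using this
    exact ⟨c, mem_inf.mpr ⟨hcY, hc1⟩, (y⁻¹ * c)⁻¹, inv_mem hc2, by group⟩
  by_cases hN : ⁅M, B₀⁆ = ⊥
  · have hMc : M ≤ centralizer (B₀ : Set G) := commutator_eq_bot_iff_le_centralizer.mp hN
    have hYc : Y ≤ centralizer (B₀ : Set G) := by
      intro y hy
      obtain ⟨c, hc, m, hm, rfl⟩ := hfac y hy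
      exact mul_mem (mem_inf.mp hc).2 (hMc hm)
    have h1 := hgen B₀ hB₀B hcyc
    rw [inf_eq_left.mpr hYc, hYA] at h1
    exact (le_inf le_rfl inf_le_left).trans h1
  · have hMA : ⁅M, A⁆ ≤ M := le_normalizer_iff_commutator_le_left.mp hM3
    have hNMA : ⁅M, B₀⁆ ≤ ⁅M, A⁆ := commutator_mono le_rfl (hB₀B.trans hB)
    have hAB₀ : A ≤ normalizer (B₀ : Set G) := comm_norm hAc (hB₀B.trans hB)
    have hAN : A ≤ normalizer ((⁅M, B₀⁆ : Subgroup G) : Set G) :=
      (le_inf hM3 hAB₀).trans (norm_comm _ _)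
    have hYN : Y ≤ normalizer ((⁅M, B₀⁆ : Subgroup G) : Set G) := by
      intro y hy
      obtain ⟨c, hc, m, hm, rfl⟩ := hfac y hy
      obtain ⟨hc1, hc2⟩ := mem_inf.mp hc
      refine mul_mem ?_ (normalizer_commutator_ge_left M B₀ hm)
      apply norm_comm
      exact mem_inf.mpr ⟨hYM hc1, centralizer_le_normalizer _ hc2⟩
    refine quot_step ih hA2 hAc hB hYodd hYA ((hNMA.trans hMA).trans hMY) hYN hAN hN hcard
      hgen ?_
    -- induction on `[M,A]`
    have hlt : Nat.card ↥(⁅M, A⁆ : Subgroup G) < Nat.card ↥Y := by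
      have h1 : ⁅M, A⁆ < Y := lt_of_le_of_lt hMA hM2
      rcases (card_le_of_le h1.le).lt_or_eq with h | h
      · exact h
      · exact absurd (eq_of_le_of_card_ge h1.le h.ge) h1.ne
    have hMAA : ⁅⁅M, A⁆, A⁆ = ⁅M, A⁆ :=
      CoprimeAction2.commutator_commutator hM3 (hcopA le_rfl hMY) (Or.inl (hsA le_rfl))
    have h2 := ih G A B ⁅M, A⁆ D hA2 hAc hB (hYodd.of_dvd_nat (card_dvd_of_le (hMA.trans hMY)))
      (normalizer_commutator_ge_right M A) hMAA (by omega) (by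
        intro B₁ hB₁ hc
        refine le_trans ?_ (hgen B₁ hB₁ hc)
        exact inf_le_inf (inf_le_inf_right _ (hMA.trans hMY))
          (commutator_mono (inf_le_inf_right _ (hMA.trans hMY)) le_rfl))
    exact (inf_le_inf_right _ hNMA).trans h2

end Main

end Cfsg.Agent.Lib.H22Gold
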