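import Cfsg.Agent.Lib.H22Unbal
import Cfsg.Agent.Lib.Balance
import Cfsg.Agent.Lib.H22Gold

/-!
Core-separated pairs of four-subgroups: Goldschmidt's signalizer functor (helper22)
-/

set_option autoImplicit false
set_option linter.unusedSectionVars false

namespace Cfsg.Agent.Lib.H22CoreSep

open Cfsg Subgroup Cfsg.Agent.Lib Cfsg.Agent.Lib.Components Cfsg.Agent.Lib.Layer
  Cfsg.Agent.Lib.CompRel Cfsg.Agent.Lib.PComponents Cfsg.Agent.Lib.PConstrained
  Cfsg.Agent.Lib.Balance Cfsg.Agent.Lib.CoprimeAction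
open scoped commutatorElement

universe u

section TT
variable {X : Type*} [Group X]

theorem norm_cent (K : Subgroup X) :
    normalizer (K : Set X) ≤ normalizer ((centralizer (K : Set X) : Subgroup X) : Set X) := by
  have key : ∀ g ∈ normalizer (K : Set X), ∀ x ∈ centralizer (K : Set X),
      g * x * g⁻¹ ∈ centralizer (K : Set X) := by
    intro g hg x hx
    rw [mem_centralizer_iff]
    intro k hk
    have h1 : g⁻¹ * k * g⁻¹⁻¹ ∈ K := (mem_normalizer_iff.mp (inv_mem hg) k).mp hk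
    have h2 := mem_centralizer_iff.mp hx _ h1
    have h3 : g⁻¹ * k * g * x = x * (g⁻¹ * k * g) := by simpa using h2
    calc k * (g * x * g⁻¹) = g * (g⁻¹ * k * g * x) * g⁻¹ := by group
      _ = g * (x * (g⁻¹ * k * g)) * g⁻¹ := by rw [h3]
      _ = g * x * g⁻¹ * k := by group
  intro g hg
  rw [mem_normalizer_iff]
  intro x
  refine ⟨key g hg x, fun h => ?_⟩
  have h1 := key g⁻¹ (inv_mem hg) _ h
  have h2 : g⁻¹ * (g * x * g⁻¹) * g⁻¹⁻¹ = x := by group
  rwa [h2] at h1

/-- elements of `N(K)` commuting with `D` modulo `C(K)` -/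
def TT (K D : Subgroup X) : Subgroup X where
  carrier := {x | x ∈ normalizer (K : Set X) ∧ ∀ d ∈ D, ⁅d, x⁆ ∈ centralizer (K : Set X)}
  one_mem' := ⟨one_mem _, fun d _ => by rw [commutatorElement_one_right]; exact one_mem _⟩
  mul_mem' := by
    rintro x y ⟨hx, hx'⟩ ⟨hy, hy'⟩
    refine ⟨mul_mem hx hy, fun d hd => ?_⟩
    have h1 : ⁅d, x * y⁆ = ⁅d, x⁆ * (x * ⁅d, y⁆ * x⁻¹) := by
      simp only [commutatorElement_def]; group
    rw [h1]
    refine mul_mem (hx' d hd) ?_
    exact (mem_normalizer_iff.mp (norm_cent _ hx) _).mp (hy' d hd)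
  inv_mem' := by
    rintro x ⟨hx, hx'⟩
    refine ⟨inv_mem hx, fun d hd => ?_⟩
    have h1 : ⁅d, x⁻¹⁆ = x⁻¹ * (⁅d, x⁆)⁻¹ * x⁻¹⁻¹ := by
      simp only [commutatorElement_def]; group
    rw [h1]
    exact (mem_normalizer_iff.mp (inv_mem (norm_cent _ hx)) _).mp
      (inv_mem (hx' d hd))

theorem cent_le_TT {K D : Subgroup X} (hD : D ≤ normalizer (K : Set X)) :
    centralizer (K : Set X) ≤ TT K D := by
  intro x hx
  refine ⟨centralizer_le_normalizer' _ hx, fun d hd => ?_⟩
  rw [commutatorElement_def]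
  exact mul_mem ((mem_normalizer_iff.mp (norm_cent _ (hD hd)) _).mp hx)
    (inv_mem hx)

theorem comm_le_of_le_TT {K D A : Subgroup X} (h : A ≤ TT K D) : ⁅D, A⁆ ≤ centralizer (K : Set X) := by
  rw [commutator_le]
  intro d hd x hx
  exact (h hx).2 d hd

end TT

section Abs
variable {C : Type u} [Group C] [Finite C]

/-- the projection modulo the core -/
abbrev pr (C : Type u) [Group C] : C →* C ⧸ pPrimeCore 2 C := QuotientGroup.mk' (pPrimeCore 2 C)

theorem pr_eq_one {x : C} : pr C x = 1 ↔ x ∈ pPrimeCore 2 C := by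
  rw [← MonoidHom.mem_ker, QuotientGroup.ker_mk']

instance : Fact (Nat.Prime 2) := ⟨Nat.prime_two⟩

theorem core_odd : ¬ 2 ∣ Nat.card ↥(pPrimeCore 2 C) := not_dvd_card_pPrimeCore

theorem cop_of_isPGroup {A D : Subgroup C} (hA : IsPGroup 2 ↥A) (hD : ¬ 2 ∣ Nat.card ↥D) :
    (Nat.card ↥A).Coprime (Nat.card ↥D) := by
  obtain ⟨k, hk⟩ := IsPGroup.iff_card.mp hA
  rw [hk]
  exact Nat.Coprime.pow_left k ((Nat.prime_two.coprime_iff_not_dvd).mpr hD)

theorem solv_of_isPGroup {A : Subgroup C} (hA : IsPGroup 2 ↥A) : Group.IsSolvable ↥A := by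
  have := hA.isNilpotent
  infer_instance

/-- `C_{C/O}(A) = C_C(A) O / O` -/
theorem lift_cent {A : Subgroup C} (hA : IsPGroup 2 ↥A) {x : C ⧸ pPrimeCore 2 C}
    (hx : x ∈ centralizer ((A.map (pr C) : Subgroup _) : Set (C ⧸ pPrimeCore 2 C))) :
    ∃ y ∈ centralizer (A : Set C), pr C y = x := by
  obtain ⟨k, rfl⟩ := QuotientGroup.mk'_surjective _ x
  obtain ⟨c, hc, hkc⟩ := exists_mem_centralizer_of_quotient (A := A) (N := pPrimeCore 2 C)
    (by rw [normalizer_eq_top]; exact le_top) (cop_of_isPGroup hA core_odd)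
    (Or.inl (solv_of_isPGroup hA)) k (by rw [normalizer_eq_top]; trivial) (by
      intro a ha
      rw [← pr_eq_one]
      have h1 := mem_centralizer_iff.mp hx _ (mem_map_of_mem (pr C) ha)
      have h2 : pr C (a * k * a⁻¹ * k⁻¹) = pr C a * pr C k * (pr C a)⁻¹ * (pr C k)⁻¹ := by
        simp only [map_mul, map_inv]
      rw [h2, h1]; group)
  refine ⟨c, hc, ?_⟩
  have h3 := pr_eq_one.mpr hkc
  rw [map_mul, map_inv] at h3
  exact (inv_mul_eq_one.mp h3).symm

theorem isPGroup_zp {a : C} (ha : orderOf a = 2) : IsPGroup 2 ↥(zpowers a) := by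
  rw [IsPGroup.iff_card]
  exact ⟨1, by rw [Nat.card_zpowers, ha, pow_one]⟩

theorem setting {a : C} (ha : orderOf a = 2) {D : Subgroup C} (hDa : D ≤ centralizer {a})
    (hn : centralizer {a} ≤ normalizer (D : Set C)) (hD : ¬ 2 ∣ Nat.card ↥D) :
    H22Unbal.Setting 2 (⊤ : Subgroup (C ⧸ pPrimeCore 2 C)) (pr C a) (D.map (pr C)) where
  core := by rw [Fitting.pPrimeCore_quotient_pPrimeCore]; exact bot_inf_eq _
  ord := by
    have h1 : orderOf (pr C a) ∣ 2 := (orderOf_map_dvd _ _).trans (dvd_of_eq ha)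
    rcases (Nat.dvd_prime Nat.prime_two).mp h1 with h | h
    · exfalso
      rw [orderOf_eq_one_iff, pr_eq_one] at h
      apply core_odd (C := C)
      have h2 := orderOf_dvd_natCard (⟨a, h⟩ : ↥(pPrimeCore 2 C))
      rw [Subgroup.orderOf_mk] at h2
      exact (dvd_of_eq ha.symm).trans h2
    · exact h
  norm := by rw [normalizer_eq_top]; trivial
  le := le_top
  cent := by
    rintro _ ⟨d, hd, rfl⟩
    rw [mem_centralizer_singleton_iff, ← map_mul, ← map_mul,
      mem_centralizer_singleton_iff.mp (hDa hd)]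
  nor := by
    intro x hx
    have h1 : x ∈ centralizer (((zpowers a).map (pr C) : Subgroup _) : Set (C ⧸ pPrimeCore 2 C)) := by
      rw [MonoidHom.map_zpowers, Subgroup.zpowers_eq_closure, centralizer_closure]
      exact (mem_inf.mp hx).2
    obtain ⟨y, hy, rfl⟩ := lift_cent (isPGroup_zp ha) h1
    rw [Subgroup.zpowers_eq_closure, centralizer_closure] at hy
    exact Subgroup.le_normalizer_map _ (mem_map_of_mem _ (hn hy))
  card := by
    intro h
    exact hD (h.trans (Subgroup.card_map_dvd D _))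

theorem crit {a : C} (ha : orderOf a = 2) {D Y : Subgroup C} (hDa : D ≤ centralizer {a})
    (hn : centralizer {a} ≤ normalizer (D : Set C)) (hD : ¬ 2 ∣ Nat.card ↥D) (hY : Y ≤ D)
    (h : ∀ K : Subgroup (C ⧸ pPrimeCore 2 C), IsComponent K →
      pr C a ∈ normalizer (K : Set (C ⧸ pPrimeCore 2 C)) →
      pr C a ∉ centralizer (K : Set (C ⧸ pPrimeCore 2 C)) →
      D.map (pr C) ≤ normalizer (K : Set (C ⧸ pPrimeCore 2 C)) →
      Y.map (pr C) ≤ centralizer (K : Set (C ⧸ pPrimeCore 2 C))) :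
    Y ≤ pPrimeCore 2 C := by
  have hs := setting ha hDa hn hD
  by_cases hbot : Y.map (pr C) = ⊥
  · intro y hy
    rw [← pr_eq_one, ← mem_bot, ← hbot]
    exact mem_map_of_mem _ hy
  · exfalso
    obtain ⟨K, hK, _, haN, haC, _, hYC⟩ := hs.exists_component Subgroup.IsSubnormal.top
      (Subgroup.map_mono hY) hbot
    exact hYC (h K hK haN haC (hs.le_normalizer_component hK le_top))

/-- a component centralizes the subgroups of odd order which it normalizes -/
theorem comp_odd {X : Type u} [Group X] [Finite X] (hO : pPrimeCore 2 X = ⊥) {K W : Subgroup X}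
    (hK : IsComponent K) (hKW : K ≤ normalizer (W : Set X)) (hW : ¬ 2 ∣ Nat.card ↥W) :
    K ≤ centralizer (W : Set X) := by
  have hWs : (W.subgroupOf (K ⊔ W)).Normal :=
    normal_subgroupOf_of_le_normalizer (sup_le hKW le_normalizer)
  rcases component_le_or_le_centralizer_rel (M := K ⊔ W) le_sup_left le_sup_right
    (isComponent_subgroupOf le_sup_left hK) hWs.isSubnormal with h | h
  · exfalso
    have h1 : ¬ 2 ∣ Nat.card ↥K := fun h2 => hW (h2.trans (card_dvd_of_le h))
    have h2 : pPrimeCore 2 ↥K = ⊤ := by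
      rw [eq_top_iff]
      apply H23Basic.le_pPrimeCore
      · infer_instance
      · rw [Subgroup.card_top]
        exact ((Nat.prime_two.coprime_iff_not_dvd).mpr h1).symm
    have h3 := map_pPrimeCore_le_of_subnormal 2 hK.1
    rw [h2, hO, ← MonoidHom.range_eq_map, Subgroup.range_subtype] at h3
    exact component_ne_bot hK (le_bot_iff.mp h3)
  · exact h

/-- claim (*): `[O_a ∩ C(c), A₁] ≤ O(C(c))` for `c ∈ A₁` -/
theorem star {c a a' a'' : C} (hc : ∀ x : C, c * x = x * c) (ha : orderOf a = 2)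
    {A₁ A₂ D : Subgroup C}
    (hA₁ : (a' = 1 ∨ a' = c) ∨ ∀ x ∈ A₁, x = 1 ∨ x = c ∨ x = a' ∨ x = c * a')
    (hA₁a : A₁ ≤ centralizer {a}) (ha'' : a'' ∈ A₂)
    (haa : a = a' * a'')
    (hDa : D ≤ centralizer {a})
    (hn : centralizer {a} ≤ normalizer (D : Set C)) (hD : ¬ 2 ∣ Nat.card ↥D)
    (hsep : ∀ K : Subgroup (C ⧸ pPrimeCore 2 C), IsComponent K →
      A₁.map (pr C) ≤ centralizer (K : Set _) ∨ A₂.map (pr C) ≤ centralizer (K : Set _)) :
    ⁅D, A₁⁆ ≤ pPrimeCore 2 C := by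
  apply crit ha hDa hn hD (le_normalizer_iff_commutator_le_left.mp (hA₁a.trans hn))
  intro K hK haN haK hDK
  rw [map_commutator]
  apply comm_le_of_le_TT
  rcases hsep K hK with h | h
  · exact h.trans (cent_le_TT hDK)
  · have hcT : pr C c ∈ centralizer (K : Set (C ⧸ pPrimeCore 2 C)) := by
      rw [mem_centralizer_iff]
      intro k _
      obtain ⟨y, rfl⟩ := QuotientGroup.mk'_surjective _ k
      show pr C y * pr C c = pr C c * pr C y
      rw [← map_mul, ← map_mul, hc y]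
    have ha''T : pr C a'' ∈ centralizer (K : Set (C ⧸ pPrimeCore 2 C)) :=
      h (mem_map_of_mem _ ha'')
    have haT : pr C a ∈ TT K (D.map (pr C)) := by
      refine ⟨haN, ?_⟩
      rintro _ ⟨d, hd, rfl⟩
      have h1 : ⁅pr C d, pr C a⁆ = 1 := by
        rw [commutatorElement_eq_one_iff_mul_comm, ← map_mul, ← map_mul,
          mem_centralizer_singleton_iff.mp (hDa hd)]
      rw [h1]; exact one_mem _
    rcases hA₁ with (h1 | h1) | h1
    · exfalso
      apply haK
      rw [haa, h1, one_mul]; exact ha''T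
    · exfalso
      apply haK
      rw [haa, h1, map_mul]; exact mul_mem hcT ha''T
    · have ha'T : pr C a' ∈ TT K (D.map (pr C)) := by
        have h2 : pr C a' = pr C a * (pr C a'')⁻¹ := by rw [haa, map_mul]; group
        rw [h2]
        exact mul_mem haT (inv_mem (cent_le_TT hDK ha''T))
      have hcT' := cent_le_TT hDK hcT
      rintro _ ⟨x, hx, rfl⟩
      rcases h1 x hx with h2 | h2 | h2 | h2
      · rw [h2, map_one]; exact one_mem _
      · rw [h2]; exact hcT'
      · rw [h2]; exact ha'T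
      · rw [h2, map_mul]; exact mul_mem hcT' ha'T

/-- Step 1 -/
theorem step1 {a : C} (ha : orderOf a = 2) {D Y W₁ W₂ A₁ A₂ : Subgroup C}
    (hA₁ : IsPGroup 2 ↥A₁) (hA₂ : IsPGroup 2 ↥A₂)
    (hDa : D ≤ centralizer {a})
    (hn : centralizer {a} ≤ normalizer (D : Set C)) (hD : ¬ 2 ∣ Nat.card ↥D) (hY : Y ≤ D)
    (h₁ : Y ≤ ⁅Y, A₁⁆ ⊔ W₁) (h₂ : Y ≤ ⁅Y, A₂⁆ ⊔ W₂)
    (hW₁ : ¬ 2 ∣ Nat.card ↥W₁) (hW₂ : ¬ 2 ∣ Nat.card ↥W₂)
    (hn₁ : centralizer (A₁ : Set C) ≤ normalizer (W₁ : Set C))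
    (hn₂ : centralizer (A₂ : Set C) ≤ normalizer (W₂ : Set C))
    (hsep : ∀ K : Subgroup (C ⧸ pPrimeCore 2 C), IsComponent K →
      A₁.map (pr C) ≤ centralizer (K : Set _) ∨ A₂.map (pr C) ≤ centralizer (K : Set _)) :
    Y ≤ pPrimeCore 2 C := by
  apply crit ha hDa hn hD hY
  intro K hK _ _ hDK
  have key : ∀ A W : Subgroup C, IsPGroup 2 ↥A → Y ≤ ⁅Y, A⁆ ⊔ W → ¬ 2 ∣ Nat.card ↥W →
      centralizer (A : Set C) ≤ normalizer (W : Set C) →
      A.map (pr C) ≤ centralizer (K : Set _) → Y.map (pr C) ≤ centralizer (K : Set _) := by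
    intro A W hA h hW hnW hAK
    refine (Subgroup.map_mono h).trans ?_
    rw [Subgroup.map_sup, map_commutator]
    apply sup_le
    · exact comm_le_of_le_TT (hAK.trans (cent_le_TT ((Subgroup.map_mono hY).trans hDK)))
    · apply le_centralizer_comm
      apply comp_odd (Fitting.pPrimeCore_quotient_pPrimeCore 2) hK
      · intro k hk
        obtain ⟨y, hy, rfl⟩ := lift_cent hA (le_centralizer_comm hAK hk)
        exact Subgroup.le_normalizer_map _ (mem_map_of_mem _ (hnW hy))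
      · intro h
        exact hW (h.trans (Subgroup.card_map_dvd W _))
  rcases hsep K hK with h | h
  · exact key A₁ W₁ hA₁ h₁ hW₁ hn₁ h
  · exact key A₂ W₂ hA₂ h₂ hW₂ hn₂ h

end Abs

section Glob
variable {G : Type u} [Group G] [Finite G]

/-- `O(C_G(A))` -/
abbrev OC (A : Subgroup G) : Subgroup G :=
  (oddCore ↥(centralizer (A : Set G))).map (centralizer (A : Set G)).subtype

theorem OC_le (A : Subgroup G) : OC A ≤ centralizer (A : Set G) := Subgroup.map_subtype_le _

theorem OC_norm (A : Subgroup G) : centralizer (A : Set G) ≤ normalizer (OC A : Set G) :=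
  le_normalizer_map_of_normal (pPrimeCore 2 ↥(centralizer (A : Set G)))

theorem OC_card (A : Subgroup G) : ¬ 2 ∣ Nat.card ↥(OC A) :=
  not_dvd_card_map_pPrimeCore (centralizer (A : Set G))

theorem symm_cs {A₁ A₂ : Subgroup G} (h : IsCoreSeparated A₁ A₂) : IsCoreSeparated A₂ A₁ := by
  obtain ⟨h1, h2, h3, h4, h5, h6, h7, h8⟩ := h
  refine ⟨h2, h1, h4, h3, h5.symm, by rw [inf_comm]; exact h6, fun x hx y hy => (h7 y hy x hx).symm,
    ?_⟩
  intro a ha ha1 E hE
  rw [sup_comm] at ha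
  exact (h8 a ha ha1 E hE).symm

variable {A₁ A₂ : Subgroup G}

theorem cs_comm (h : IsCoreSeparated A₁ A₂) {x y : G} (hx : x ∈ A₁ ⊔ A₂) (hy : y ∈ A₁ ⊔ A₂) :
    x * y = y * x := by
  have h1 : A₁ ⊔ A₂ ≤ centralizer ((A₁ ⊔ A₂ : Subgroup G) : Set G) := by
    have e1 := CoprimeHyper.elemAb_le_centralizer h.1
    have e2 := CoprimeHyper.elemAb_le_centralizer h.2.1
    have e12 : A₁ ≤ centralizer (A₂ : Set G) := by
      intro u hu
      rw [mem_centralizer_iff]
      intro v hv
      exact (h.2.2.2.2.2.2.1 u hu v hv).symm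
    have e21 := le_centralizer_comm e12
    apply sup_le
    · exact le_centralizer_comm (sup_le e1 e21)
    · exact le_centralizer_comm (sup_le e12 e2)
  exact (mem_centralizer_iff.mp (h1 hy) x hx)

theorem cs_decomp (h : IsCoreSeparated A₁ A₂) {x : G} (hx : x ∈ A₁ ⊔ A₂) :
    ∃ y ∈ A₁, ∃ z ∈ A₂, x = y * z := by
  have hn : A₁ ≤ normalizer (A₂ : Set G) := by
    refine le_trans ?_ (centralizer_le_normalizer' A₂)
    intro u hu
    rw [mem_centralizer_iff]
    intro v hv
    exact (h.2.2.2.2.2.2.1 u hu v hv).symm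
  obtain ⟨y, hy, z, hz, e⟩ := (mem_sup_of_le_normalizer hn).mp hx
  exact ⟨y, hy, z, hz, e.symm⟩

theorem cs_sq (h : IsCoreSeparated A₁ A₂) {x : G} (hx : x ∈ A₁ ⊔ A₂) : x * x = 1 := by
  obtain ⟨y, hy, z, hz, rfl⟩ := cs_decomp h hx
  have h1 : y ^ 2 = 1 := h.1.2 y hy
  have h2 : z ^ 2 = 1 := h.2.1.2 z hz
  have h3 : y * z = z * y := h.2.2.2.2.2.2.1 y hy z hz
  calc y * z * (y * z) = y * (z * y) * z := by group
    _ = y * (y * z) * z := by rw [h3]
    _ = y ^ 2 * z ^ 2 := by simp only [pow_two, mul_assoc]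
    _ = 1 := by rw [h1, h2, one_mul]

theorem cs_ord (h : IsCoreSeparated A₁ A₂) {x : G} (hx : x ∈ A₁ ⊔ A₂) (hx1 : x ≠ 1) :
    orderOf x = 2 :=
  orderOf_eq_prime (by rw [pow_two]; exact cs_sq h hx) hx1

theorem cs_le_cent (h : IsCoreSeparated A₁ A₂) {c : G} (hc : c ∈ A₁ ⊔ A₂) :
    A₁ ⊔ A₂ ≤ centralizer {c} := by
  intro x hx
  rw [mem_centralizer_singleton_iff]
  exact cs_comm h hx hc

/-- separation in the form needed -/
theorem sep (h : IsCoreSeparated A₁ A₂) {c : G} (hc : c ∈ A₁ ⊔ A₂) (hc1 : c ≠ 1)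
    (K : Subgroup (↥(centralizer ({c} : Set G)) ⧸ pPrimeCore 2 ↥(centralizer ({c} : Set G))))
    (hK : IsComponent K) :
    (A₁.subgroupOf (centralizer {c})).map (pr ↥(centralizer ({c} : Set G))) ≤
        centralizer (K : Set _) ∨
      (A₂.subgroupOf (centralizer {c})).map (pr ↥(centralizer ({c} : Set G))) ≤
        centralizer (K : Set _) := by
  obtain ⟨E, hE, rfl⟩ := exists_pComponent hK
  have key : ∀ A : Subgroup G,
      ⁅E.map (centralizer ({c} : Set G)).subtype, A⁆ ≤ centralizerPPrimeCore 2 c →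
      (A.subgroupOf (centralizer {c})).map (pr ↥(centralizer ({c} : Set G))) ≤
        centralizer ((E.map (QuotientGroup.mk' (pPrimeCore 2 ↥(centralizer ({c} : Set G)))) :
          Subgroup _) : Set _) := by
    rintro A hA _ ⟨x, hx, rfl⟩
    rw [mem_centralizer_iff]
    rintro _ ⟨e, he, rfl⟩
    have h1 : ⁅(e : G), (x : G)⁆ ∈ centralizerPPrimeCore 2 c :=
      hA (commutator_mem_commutator (mem_map_of_mem (centralizer ({c} : Set G)).subtype he) hx)
    obtain ⟨y, hy, hye⟩ := h1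
    have h2 : y = ⁅e, x⁆ := Subtype.ext hye
    rw [h2] at hy
    have h3 : pr _ ⁅e, x⁆ = 1 := pr_eq_one.mpr hy
    rw [map_commutatorElement, commutatorElement_eq_one_iff_mul_comm] at h3
    exact h3
  rcases h.2.2.2.2.2.2.2 c hc hc1 E hE with h1 | h1
  · exact Or.inl (key A₁ h1)
  · exact Or.inr (key A₂ h1)

/-- conditions on `D = (O_a).subgroupOf C(c)` -/
theorem D_cond (h : IsCoreSeparated A₁ A₂) {a c : G} (ha : a ∈ A₁ ⊔ A₂) (hc : c ∈ A₁ ⊔ A₂) :
    ((centralizerPPrimeCore 2 a).subgroupOf (centralizer {c}) ≤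
        centralizer {(⟨a, cs_le_cent h hc ha⟩ : ↥(centralizer ({c} : Set G)))}) ∧
      (centralizer {(⟨a, cs_le_cent h hc ha⟩ : ↥(centralizer ({c} : Set G)))} ≤
        normalizer (((centralizerPPrimeCore 2 a).subgroupOf (centralizer {c}) : Subgroup _) :
          Set ↥(centralizer ({c} : Set G)))) ∧
      ¬ 2 ∣ Nat.card ↥((centralizerPPrimeCore 2 a).subgroupOf (centralizer {c})) := by
  refine ⟨?_, ?_, ?_⟩
  · intro x hx
    have h1 := cpc_le a (mem_subgroupOf.mp hx)
    rw [mem_centralizer_singleton_iff] at h1 ⊢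
    exact Subtype.ext h1
  · intro x hx
    have h1 : (x : G) ∈ centralizer ({a} : Set G) := by
      rw [mem_centralizer_singleton_iff] at hx ⊢
      exact congrArg Subtype.val hx
    have h2 := mem_normalizer_iff.mp (cpc_normalizer (p := 2) a h1)
    rw [mem_normalizer_iff]
    intro y
    exact h2 y
  · rw [SubgroupTools.card_subgroupOf]
    intro h1
    exact cpc_not_dvd (p := 2) a (h1.trans (card_dvd_of_le inf_le_left))

theorem starG (h : IsCoreSeparated A₁ A₂) {a c : G} (ha : a ∈ A₁ ⊔ A₂) (ha1 : a ≠ 1) (hc : c ∈ A₁)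
    (hc1 : c ≠ 1) : ⁅centralizerPPrimeCore 2 a ⊓ centralizer {c}, A₁⁆ ≤ centralizerPPrimeCore 2 c := by
  have hcA : c ∈ A₁ ⊔ A₂ := mem_sup_left hc
  obtain ⟨a', ha', a'', ha'', haa⟩ := cs_decomp h ha
  have hAC := cs_le_cent h hcA
  have ha'A : a' ∈ A₁ ⊔ A₂ := mem_sup_left ha'
  have ha''A : a'' ∈ A₁ ⊔ A₂ := mem_sup_right ha''
  obtain ⟨d1, d2, d3⟩ := D_cond h ha hcA
  have h1 := star (C := ↥(centralizer ({c} : Set G))) (c := ⟨c, hAC hcA⟩)
    (a := ⟨a, hAC ha⟩) (a' := ⟨a', hAC ha'A⟩) (a'' := ⟨a'', hAC ha''A⟩)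
    (A₁ := A₁.subgroupOf (centralizer {c})) (A₂ := A₂.subgroupOf (centralizer {c}))
    (D := (centralizerPPrimeCore 2 a).subgroupOf (centralizer {c}))
    (fun x => Subtype.ext (mem_centralizer_singleton_iff.mp x.2).symm)
    (by rw [Subgroup.orderOf_mk]; exact cs_ord h ha ha1) (by
      by_cases e1 : a' = 1
      · exact Or.inl (Or.inl (Subtype.ext e1))
      by_cases e2 : a' = c
      · exact Or.inl (Or.inr (Subtype.ext e2))
      right
      intro x hx
      by_contra hcon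
      push Not at hcon
      obtain ⟨n1, n2, n3, n4⟩ := hcon
      have hx' : (x : G) ∈ A₁ := hx
      have n1' : (x : G) ≠ 1 := fun e => n1 (Subtype.ext e)
      have n2' : (x : G) ≠ c := fun e => n2 (Subtype.ext e)
      have n3' : (x : G) ≠ a' := fun e => n3 (Subtype.ext e)
      have n4' : (x : G) ≠ c * a' := fun e => n4 (Subtype.ext e)
      have hca : c * a' ≠ 1 := by
        intro e
        apply e2
        have := cs_sq h hcA
        exact (mul_left_cancel (this.trans e.symm)).symm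
      have hca1 : c * a' ≠ c := by
        intro e
        exact e1 (mul_eq_left.mp e)
      have hca2 : c * a' ≠ a' := by
        intro e
        exact hc1 (mul_eq_right.mp e)
      -- five distinct elements in a group of order 4
      classical
      have h5 : ({1, c, a', c * a', (x : G)} : Finset G).card = 5 := by
        rw [Finset.card_insert_of_notMem, Finset.card_insert_of_notMem,
          Finset.card_insert_of_notMem, Finset.card_insert_of_notMem, Finset.card_singleton]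
        · simp [n4'.symm]
        · simp [hca2.symm, n3'.symm]
        · simp [Ne.symm e2, hca1.symm, n2'.symm]
        · simp [hc1.symm, Ne.symm e1, hca.symm, n1'.symm]
      have h6 : (({1, c, a', c * a', (x : G)} : Finset G) : Set G) ⊆ (A₁ : Set G) := by
        intro y hy
        simp only [Finset.coe_insert, Finset.coe_singleton, Set.mem_insert_iff,
          Set.mem_singleton_iff] at hy
        rcases hy with rfl | rfl | rfl | rfl | rfl
        · exact one_mem A₁
        · exact hc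
        · exact ha'
        · exact mul_mem hc ha'
        · exact hx'
      have h7 := Set.ncard_le_ncard h6 (Set.toFinite _)
      rw [Set.ncard_coe_finset, h5] at h7
      have h8 : (A₁ : Set G).ncard = 4 := h.2.2.1
      omega)
    (by
      intro x hx
      rw [mem_centralizer_singleton_iff]
      exact Subtype.ext (cs_comm h (mem_sup_left hx) ha))
    (show a'' ∈ A₂ from ha'') (Subtype.ext haa) d1 d2 d3 (sep h hcA hc1)
  have h2 := Subgroup.map_mono (f := (centralizer ({c} : Set G)).subtype) h1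
  rw [map_commutator, subgroupOf_map_subtype, subgroupOf_map_subtype,
    inf_eq_left.mpr ((le_sup_left : A₁ ≤ A₁ ⊔ A₂).trans hAC)] at h2
  exact h2

theorem A_le_norm_cpc (h : IsCoreSeparated A₁ A₂) {a : G} (ha : a ∈ A₁ ⊔ A₂) :
    A₁ ⊔ A₂ ≤ normalizer (centralizerPPrimeCore 2 a : Set G) :=
  (cs_le_cent h ha).trans (cpc_normalizer a)

theorem pgroup_A₁ (h : IsCoreSeparated A₁ A₂) : IsPGroup 2 ↥A₁ := CoprimeHyper.elemAb_isPGroup h.1

theorem dstar (hFT : ∀ (X : Type u) [Group X] [Finite X], Odd (Nat.card X) → Group.IsSolvable X)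
    (h : IsCoreSeparated A₁ A₂) {a : G} (ha : a ∈ A₁ ⊔ A₂) (ha1 : a ≠ 1) :
    ⁅centralizerPPrimeCore 2 a, A₁⁆ ⊓ centralizer (A₁ : Set G) ≤ OC A₁ := by
  have hA₁p := pgroup_A₁ h
  have hodd : ¬ 2 ∣ Nat.card ↥(centralizerPPrimeCore 2 a) := cpc_not_dvd a
  have hAn : A₁ ≤ normalizer (centralizerPPrimeCore 2 a : Set G) :=
    le_sup_left.trans (A_le_norm_cpc h ha)
  have hle : ⁅centralizerPPrimeCore 2 a, A₁⁆ ≤ centralizerPPrimeCore 2 a :=
    le_normalizer_iff_commutator_le_left.mp hAn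
  refine H22Gold.stm hFT _ G A₁ A₁ ⁅centralizerPPrimeCore 2 a, A₁⁆ (OC A₁) hA₁p h.1.1 le_rfl ?_
    (normalizer_commutator_ge_right _ A₁)
    (CoprimeAction2.commutator_commutator hAn (cop_of_isPGroup hA₁p hodd)
      (Or.inl (solv_of_isPGroup hA₁p))) le_rfl ?_
  · rw [← Nat.not_even_iff_odd, even_iff_two_dvd]
    intro h1
    exact hodd (h1.trans (card_dvd_of_le hle))
  · intro B₀ hB₀ hcyc
    obtain ⟨c, hc, hc1⟩ : ∃ c ∈ B₀, c ≠ 1 := by
      by_contra hcon
      push Not at hcon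
      obtain ⟨b, hb, hle⟩ := hcyc
      have h1 : B₀ = ⊥ := (eq_bot_iff_forall _).mpr hcon
      rw [h1, bot_sup_eq] at hle
      have h2 := card_le_of_le hle
      have h3 := CoprimeHyper.card_zpowers_le h.1 hb
      have h4 := h.2.2.1
      omega
    have hcA₁ := hB₀ hc
    have hcc : A₁ ≤ centralizer {c} := le_sup_left.trans (cs_le_cent h (mem_sup_left hcA₁))
    intro x hx
    obtain ⟨⟨hx1, hx2⟩, hx3⟩ := mem_inf.mp hx |>.imp_left mem_inf.mp
    have h1 : x ∈ centralizerPPrimeCore 2 c := by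
      apply starG h ha ha1 hcA₁ hc1
      refine commutator_mono ?_ le_rfl hx3
      refine inf_le_inf hle ?_
      apply centralizer_le
      rw [Set.singleton_subset_iff]; exact hc
    have h2 : centralizer (A₁ : Set G) ≤ centralizer ({c} : Set G) := by
      apply centralizer_le
      rw [Set.singleton_subset_iff]; exact hcA₁
    have h3 : centralizerPPrimeCore 2 c ⊓ centralizer (A₁ : Set G) ≤ OC A₁ := by
      apply le_map_pPrimeCore inf_le_right
      · intro h4
        exact cpc_not_dvd (p := 2) c (h4.trans (card_dvd_of_le inf_le_left))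
      · exact le_trans (le_inf (h2.trans (cpc_normalizer c)) le_normalizer)
          inf_normalizer_le_normalizer_inf
    exact h3 (mem_inf.mpr ⟨h1, hx2⟩)

/-- `θ_i(a)` -/
abbrev Th (a : G) (A : Subgroup G) : Subgroup G :=
  ⁅centralizerPPrimeCore 2 a, A⁆ ⊔ (centralizerPPrimeCore 2 a ⊓ OC A)

theorem Th_le (h : IsCoreSeparated A₁ A₂) {a : G} (ha : a ∈ A₁ ⊔ A₂) :
    Th a A₁ ≤ centralizerPPrimeCore 2 a :=
  sup_le (le_normalizer_iff_commutator_le_left.mp (le_sup_left.trans (A_le_norm_cpc h ha)))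
    inf_le_left

theorem Th_norm (h : IsCoreSeparated A₁ A₂) {a : G} (ha : a ∈ A₁ ⊔ A₂) :
    A₁ ⊔ A₂ ≤ normalizer (Th a A₁ : Set G) := by
  have h1 := A_le_norm_cpc h ha
  have hc : A₁ ⊔ A₂ ≤ centralizer (A₁ : Set G) := by
    intro x hx
    rw [mem_centralizer_iff]
    intro y hy
    exact cs_comm h (mem_sup_left hy) hx
  have h2 : A₁ ⊔ A₂ ≤ normalizer (A₁ : Set G) := hc.trans (centralizer_le_normalizer' _)
  have h3 := (le_inf h1 h2).trans (H22Gold.norm_comm _ _)
  have h4 := (le_inf h1 (hc.trans (OC_norm A₁))).trans inf_normalizer_le_normalizer_inf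
  intro x hx
  have e1 := SubgroupTools.mem_normalizer_iff_conj_smul.mp (h3 hx)
  have e2 := SubgroupTools.mem_normalizer_iff_conj_smul.mp (h4 hx)
  rw [SubgroupTools.mem_normalizer_iff_conj_smul, SubgroupTools.conj_smul_sup, e1, e2]

theorem tstar (hFT : ∀ (X : Type u) [Group X] [Finite X], Odd (Nat.card X) → Group.IsSolvable X)
    (h : IsCoreSeparated A₁ A₂) {a : G} (ha : a ∈ A₁ ⊔ A₂) (ha1 : a ≠ 1) :
    Th a A₁ ⊓ centralizer (A₁ : Set G) ≤ OC A₁ := by
  intro x hx
  obtain ⟨hx1, hx2⟩ := mem_inf.mp hx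
  have hn : centralizerPPrimeCore 2 a ⊓ OC A₁ ≤
      normalizer ((⁅centralizerPPrimeCore 2 a, A₁⁆ : Subgroup G) : Set G) :=
    inf_le_left.trans (normalizer_commutator_ge_left _ A₁)
  obtain ⟨y, hy, z, hz, rfl⟩ := (SubgroupTools.mem_sup_of_le_normalizer hn).mp hx1
  have hz2 := (mem_inf.mp hz).2
  have hy2 : y ∈ centralizer (A₁ : Set G) := by
    have h1 := mul_mem hx2 (inv_mem (OC_le A₁ hz2))
    rwa [mul_inv_cancel_right] at h1
  exact mul_mem (dstar hFT h ha ha1 (mem_inf.mpr ⟨hy, hy2⟩)) hz2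

/-- the subgroup `C_{θ(a)}(b)` -/
theorem D_le (hFT : ∀ (X : Type u) [Group X] [Finite X], Odd (Nat.card X) → Group.IsSolvable X)
    (h : IsCoreSeparated A₁ A₂) {a b : G} (ha : a ∈ A₁ ⊔ A₂) (ha1 : a ≠ 1) (hb : b ∈ A₁ ⊔ A₂)
    (hb1 : b ≠ 1) : Th a A₁ ⊓ Th a A₂ ⊓ centralizer {b} ≤ Th b A₁ := by
  have h' := symm_cs h
  have ha' : a ∈ A₂ ⊔ A₁ := by rw [sup_comm]; exact ha
  set D := Th a A₁ ⊓ Th a A₂ ⊓ centralizer {b} with hD
  have hA₁p := pgroup_A₁ h
  have hA₂p := pgroup_A₁ h'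
  have hDa : D ≤ centralizerPPrimeCore 2 a := (inf_le_left.trans inf_le_left).trans (Th_le h ha)
  have hDb : D ≤ centralizer {b} := inf_le_right
  have hDodd : ¬ 2 ∣ Nat.card ↥D := fun h1 => cpc_not_dvd (p := 2) a (h1.trans (card_dvd_of_le hDa))
  have hAD : A₁ ⊔ A₂ ≤ normalizer (D : Set G) := by
    have h1 := Th_norm h ha
    have h2 : A₁ ⊔ A₂ ≤ normalizer (Th a A₂ : Set G) := by
      rw [sup_comm]; exact Th_norm h' ha'
    have h3 : A₁ ⊔ A₂ ≤ normalizer ((centralizer ({b} : Set G) : Subgroup G) : Set G) :=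
      (cs_le_cent h hb).trans le_normalizer
    exact (le_inf ((le_inf h1 h2).trans inf_normalizer_le_normalizer_inf) h3).trans
      inf_normalizer_le_normalizer_inf
  -- decompositions
  have hdec₁ : ⁅D, A₁⁆ ⊔ (D ⊓ centralizer (A₁ : Set G)) = D :=
    CoprimeAction2.commutator_sup_centralizer (le_sup_left.trans hAD) (cop_of_isPGroup hA₁p hDodd)
      (Or.inl (solv_of_isPGroup hA₁p))
  have hdec₂ : ⁅D, A₂⁆ ⊔ (D ⊓ centralizer (A₂ : Set G)) = D :=
    CoprimeAction2.commutator_sup_centralizer (le_sup_right.trans hAD) (cop_of_isPGroup hA₂p hDodd)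
      (Or.inl (solv_of_isPGroup hA₂p))
  have hW₁ : D ⊓ centralizer (A₁ : Set G) ≤ OC A₁ :=
    (inf_le_inf_right _ (inf_le_left.trans inf_le_left)).trans (tstar hFT h ha ha1)
  have hW₂ : D ⊓ centralizer (A₂ : Set G) ≤ OC A₂ :=
    (inf_le_inf_right _ (inf_le_left.trans inf_le_right)).trans (tstar hFT h' ha' ha1)
  -- step 1
  have hDO : D ≤ centralizerPPrimeCore 2 b := by
    have hAC := cs_le_cent h hb
    obtain ⟨d1, d2, d3⟩ := D_cond h ha hb
    have hcom : ∀ A : Subgroup G, A ≤ A₁ ⊔ A₂ → (⁅D, A⁆ : Subgroup G).subgroupOf (centralizer {b}) =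
        ⁅D.subgroupOf (centralizer {b}), A.subgroupOf (centralizer {b})⁆ := by
      intro A hA
      apply Subgroup.map_injective (centralizer ({b} : Set G)).subtype_injective
      rw [map_commutator, subgroupOf_map_subtype, subgroupOf_map_subtype, subgroupOf_map_subtype,
        inf_eq_left.mpr hDb, inf_eq_left.mpr (hA.trans hAC), inf_eq_left]
      exact (le_normalizer_iff_commutator_le_left.mp (hA.trans hAD)).trans hDb
    have key : ∀ A : Subgroup G, A ≤ A₁ ⊔ A₂ → IsPGroup 2 ↥A →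
        ⁅D, A⁆ ⊔ (D ⊓ centralizer (A : Set G)) = D → D ⊓ centralizer (A : Set G) ≤ OC A →
        IsPGroup 2 ↥(A.subgroupOf (centralizer {b})) ∧
        D.subgroupOf (centralizer {b}) ≤
          ⁅D.subgroupOf (centralizer {b}), A.subgroupOf (centralizer {b})⁆ ⊔
            (OC A).subgroupOf (centralizer {b}) ∧
        ¬ 2 ∣ Nat.card ↥((OC A).subgroupOf (centralizer ({b} : Set G))) ∧
        centralizer ((A.subgroupOf (centralizer {b}) : Subgroup _) : Set ↥(centralizer ({b} : Set G))) ≤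
          normalizer (((OC A).subgroupOf (centralizer {b}) : Subgroup _) :
            Set ↥(centralizer ({b} : Set G))) := by
      intro A hA hAp hdec hW
      refine ⟨hAp.comap_subtype, ?_, ?_, ?_⟩
      · rw [← hcom A hA]
        intro x hx
        have h1 : (x : G) ∈ D := hx
        rw [← hdec] at h1
        have hn : D ⊓ centralizer (A : Set G) ≤ normalizer ((⁅D, A⁆ : Subgroup G) : Set G) :=
          inf_le_left.trans (normalizer_commutator_ge_left _ A)
        obtain ⟨y, hy, z, hz, e⟩ := (SubgroupTools.mem_sup_of_le_normalizer hn).mp h1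
        have hyb : y ∈ centralizer ({b} : Set G) :=
          hDb (le_normalizer_iff_commutator_le_left.mp (hA.trans hAD) hy)
        have hzb : z ∈ centralizer ({b} : Set G) := hDb (mem_inf.mp hz).1
        have h2 : x = ⟨y, hyb⟩ * ⟨z, hzb⟩ := Subtype.ext e.symm
        rw [h2]
        exact mul_mem (mem_sup_left hy) (mem_sup_right (hW hz))
      · rw [SubgroupTools.card_subgroupOf]
        intro h1
        exact OC_card A (h1.trans (card_dvd_of_le inf_le_left))
      · intro x hx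
        have h1 : (x : G) ∈ centralizer (A : Set G) := by
          rw [mem_centralizer_iff] at hx ⊢
          intro y hy
          exact congrArg Subtype.val (hx ⟨y, hAC (hA hy)⟩ hy)
        have h2 := mem_normalizer_iff.mp (OC_norm A h1)
        rw [mem_normalizer_iff]
        intro y
        exact h2 y
    obtain ⟨p1, q1, r1, s1⟩ := key A₁ le_sup_left hA₁p hdec₁ hW₁
    obtain ⟨p2, q2, r2, s2⟩ := key A₂ le_sup_right hA₂p hdec₂ hW₂
    have h1 := step1 (C := ↥(centralizer ({b} : Set G))) (a := ⟨a, hAC ha⟩)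
      (by rw [Subgroup.orderOf_mk]; exact cs_ord h ha ha1)
      (D := (centralizerPPrimeCore 2 a).subgroupOf (centralizer {b}))
      (Y := D.subgroupOf (centralizer {b})) p1 p2 d1 d2 d3
      (Subgroup.subgroupOf_mono _ hDa) q1 q2 r1 r2 s1 s2 (sep h hb hb1)
    have h2 := Subgroup.map_mono (f := (centralizer ({b} : Set G)).subtype) h1
    rw [subgroupOf_map_subtype, inf_eq_left.mpr hDb] at h2
    exact h2
  -- conclusion
  rw [← hdec₁]
  apply sup_le
  · exact (commutator_mono hDO le_rfl).trans le_sup_left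
  · exact (le_inf (inf_le_left.trans hDO) hW₁).trans le_sup_right

end Glob

end Cfsg.Agent.Lib.H22CoreSep
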