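import Cfsg.Agent.Lib.H31KBal

/-!
Local `k`-balance of the simple quotients of the components implies `k`-balance (seat helper22); the
proof of `exists_local_quot` follows `H31KBal.exists_local`.
-/

set_option autoImplicit false

open scoped Pointwise commutatorElement
open Subgroup Cfsg

namespace Cfsg.Agent.Lib.H22KBal

open Cfsg.Agent.Lib.Components Cfsg.Agent.Lib.Layer Cfsg.Agent.Lib.PComponents
open Cfsg.Agent.Lib.LocalLayer Cfsg.Agent.Lib.H31Delta Cfsg.Agent.Lib.H31KBal

set_option linter.unusedSectionVars false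

/-- action on the central quotient -/
def autQ (K : Type*) [Group K] : MulAut K →* MulAut (K ⧸ center K) where
  toFun φ := QuotientGroup.congr (center K) (center K) φ
    (Subgroup.characteristic_iff_map_eq.mp inferInstance φ)
  map_one' := by
    ext x
    induction x using QuotientGroup.induction_on with
    | H x => rfl
  map_mul' φ ψ := by
    ext x
    induction x using QuotientGroup.induction_on with
    | H x => rfl

theorem autQ_mk {K : Type*} [Group K] (φ : MulAut K) (x : K) :
    autQ K φ (QuotientGroup.mk x) = QuotientGroup.mk (φ x) := rfl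

theorem autQ_conj {K : Type*} [Group K] (x : K) :
    autQ K (MulAut.conj x) = MulAut.conj (QuotientGroup.mk x : K ⧸ center K) := by
  ext y
  induction y using QuotientGroup.induction_on with
  | H y => rfl

variable {X : Type*} [Group X]

theorem mem_centralizer_of_autQ {K : Subgroup X} (hK : ⁅K, K⁆ = K)
    (n : normalizer (K : Set X))
    (hn : ((autQ K).comp K.normalizerMonoidHom) n = 1) : (n : X) ∈ centralizer (K : Set X) := by
  have h1 : ∀ k (hk : k ∈ K), ∀ y ∈ K, y * (k⁻¹ * ((n : X) * k * (n : X)⁻¹)) =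
      k⁻¹ * ((n : X) * k * (n : X)⁻¹) * y := by
    intro k hk y hy
    have h2 : autQ K (K.normalizerMonoidHom n) (QuotientGroup.mk ⟨k, hk⟩) =
        QuotientGroup.mk ⟨k, hk⟩ := by
      have := congrArg (fun φ => φ (QuotientGroup.mk (⟨k, hk⟩ : K))) hn
      exact this
    rw [autQ_mk, eq_comm, QuotientGroup.eq, mem_center_iff] at h2
    have h3 := congrArg Subtype.val (h2 ⟨y, hy⟩)
    exact h3
  set Z := K ⊓ centralizer (K : Set X) with hZ
  -- `N₀ = {m ∈ N(K) : [K, m] ≤ Z}` contains `n`
  let S : Subgroup X := ((autQ K).comp K.normalizerMonoidHom).ker.map (normalizer (K : Set X)).subtype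
  have hcomm : ⁅K, S⁆ ≤ Z := by
    rw [commutator_le]
    rintro k hk _ ⟨m, hm, rfl⟩
    have hm' : ((autQ K).comp K.normalizerMonoidHom) m = 1 := hm
    have h2 : autQ K (K.normalizerMonoidHom m) (QuotientGroup.mk ⟨k⁻¹, inv_mem hk⟩) =
        QuotientGroup.mk ⟨k⁻¹, inv_mem hk⟩ := by
      have := congrArg (fun φ => φ (QuotientGroup.mk (⟨k⁻¹, inv_mem hk⟩ : K))) hm'
      exact this
    rw [autQ_mk, eq_comm, QuotientGroup.eq, mem_center_iff] at h2
    have e : ((⟨k⁻¹, inv_mem hk⟩ : K)⁻¹ * (K.normalizerMonoidHom m) ⟨k⁻¹, inv_mem hk⟩ : X) =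
        ⁅k, (m : X)⁆ := by
      change (k⁻¹)⁻¹ * ((m : X) * k⁻¹ * (m : X)⁻¹) = _
      rw [commutatorElement_def]; group
    change ⁅k, (m : X)⁆ ∈ Z
    refine mem_inf.mpr ⟨?_, ?_⟩
    · rw [← e]
      exact mul_mem (inv_mem (inv_mem hk)) (SetLike.coe_mem _)
    · rw [mem_centralizer_iff]
      intro y hy
      have h3 := congrArg Subtype.val (h2 ⟨y, hy⟩)
      rw [← e]
      exact h3
  have h4 := le_centralizer_of_perfect hK hcomm inf_le_right
  have h5 : S ≤ centralizer (K : Set X) := le_centralizer_comm h4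
  exact h5 ⟨n, hn, rfl⟩

variable [Finite X] {p : ℕ} [hp : Fact p.Prime]

theorem exists_local_quot (hO : pPrimeCore p X = ⊥) {A B K : Subgroup X} (hK : IsComponent K)
    (hBA : B ≤ A) (hA : IsElementaryAbelian p A) (hAK : A ≤ normalizer (K : Set X))
    (hB1 : B ≠ ⊥) (hBK : ∀ b ∈ B, b ≠ 1 → ⁅K, zpowers b⁆ = K) :
    ∃ H : Subgroup (MulAut (K ⧸ center K)),
      (MulAut.conj : K ⧸ center K →* MulAut (K ⧸ center K)).range ≤ H ∧ ∃ B' : Subgroup H,
      IsElementaryAbelian p B' ∧ Nat.card B' = Nat.card B ∧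
      (∀ d ∈ signalizerDelta p B, ∃ h ∈ signalizerDelta p B',
        h = 1 → d ∈ centralizer (K : Set X)) ∧
      (∀ x ∈ A, ∃ h ∈ centralizer (B' : Set H), h ^ p = 1 ∧
        ∀ q : K, ∃ q' : K, (q' : X) = x * q * x⁻¹ ∧
          (h : MulAut (K ⧸ center K)) (QuotientGroup.mk q) = QuotientGroup.mk q') := by
  classical
  set N := normalizer (K : Set X) with hN
  set α := (autQ K).comp K.normalizerMonoidHom with hα
  have hαext : ∀ n : N, α n = 1 → (n : X) ∈ centralizer (K : Set X) :=
    fun n hn => mem_centralizer_of_autQ (component_perfect hK) n hn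
  have hBN : B ≤ N := hBA.trans hAK
  have hordB : ∀ b ∈ B, b ≠ 1 → orderOf b = p := fun b hb hb1 =>
    orderOf_eq_prime (hA.2 b (hBA hb)) hb1
  set D := signalizerDelta p B with hD
  obtain ⟨b₀, hb₀, hb₀1⟩ : ∃ b ∈ B, b ≠ 1 := by
    by_contra hno
    push Not at hno
    exact hB1 ((eq_bot_iff_forall B).2 hno)
  have hDN : D ≤ N := (delta_le hb₀ hb₀1).trans (core_le_normalizer_component hO (hordB b₀ hb₀ hb₀1) hK)
  have hcomm := H31Gen.elemAb_comm hA
  set L := A ⊔ D with hL
  have hLN : L ≤ N := sup_le hAK hDN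
  set M := L ⊔ K with hM
  have hMN : M ≤ N := sup_le hLN le_normalizer
  set H : Subgroup (MulAut (K ⧸ center K)) := (M.subgroupOf N).map α with hH
  have hmemH : ∀ m (hm : m ∈ M), α ⟨m, hMN hm⟩ ∈ H := fun m hm => ⟨⟨m, hMN hm⟩, hm, rfl⟩
  let f : B →* MulAut (K ⧸ center K) := α.comp (inclusion hBN)
  have hfinj : Function.Injective f := by
    rw [injective_iff_map_eq_one]
    intro b hb
    by_contra hb1
    have hb1' : (b : X) ≠ 1 := fun h => hb1 (Subtype.ext h)
    have h1 : (b : X) ∈ centralizer (K : Set X) := hαext _ hb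
    have h2 := hBK b b.2 hb1'
    have h3 : ⁅K, zpowers (b : X)⁆ = ⊥ := by
      rw [← le_centralizer_iff_commutator]
      apply le_centralizer_comm
      rwa [zpowers_le]
    rw [h3] at h2
    exact component_ne_bot hK h2.symm
  have hfH : f.range ≤ H := by
    rintro _ ⟨b, rfl⟩
    exact hmemH b (mem_sup_left (mem_sup_left (hBA b.2)))
  set B' : Subgroup H := f.range.subgroupOf H with hB'
  refine ⟨H, ?_, B', ⟨?_, ?_⟩, ?_, ?_, ?_⟩
  · rintro _ ⟨q, rfl⟩
    induction q using QuotientGroup.induction_on with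
    | H q =>
      refine ⟨⟨q, le_normalizer q.2⟩, mem_sup_right q.2, ?_⟩
      have e : K.normalizerMonoidHom ⟨q, le_normalizer q.2⟩ = MulAut.conj q := by
        ext x
        rfl
      change autQ K (K.normalizerMonoidHom ⟨q, le_normalizer q.2⟩) = _
      rw [e]
      exact autQ_conj q
  · rw [isMulCommutative_iff_of_setLike]
    rintro ⟨_, ha⟩ ⟨a, rfl⟩ ⟨_, hb⟩ ⟨b, rfl⟩
    apply Subtype.ext
    change f a * f b = f b * f a
    rw [← map_mul, ← map_mul]
    congr 1
    exact Subtype.ext (hcomm a (hBA a.2) b (hBA b.2))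
  · rintro ⟨_, ha⟩ ⟨a, rfl⟩
    apply Subtype.ext
    change f a ^ p = 1
    rw [← map_pow]
    have : a ^ p = 1 := Subtype.ext (hA.2 a (hBA a.2))
    rw [this, map_one]
  · rw [hB', SubgroupTools.card_subgroupOf_of_le hfH]
    exact (Nat.card_congr (MonoidHom.ofInjective hfinj).toEquiv).symm
  · intro d hd
    refine ⟨⟨α ⟨d, hDN hd⟩, hmemH d (mem_sup_left (mem_sup_right hd))⟩, ?_,
      fun hh => hαext ⟨d, hDN hd⟩ (congrArg Subtype.val hh)⟩
    rw [mem_delta_iff]
    rintro ⟨_, hbH⟩ ⟨b, rfl⟩ hb1
    have hb1' : (b : X) ≠ 1 := by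
      intro h
      apply hb1
      have : b = 1 := Subtype.ext h
      apply Subtype.ext
      change f b = 1
      rw [this, map_one]
    obtain ⟨W, hDW, hWb, hWp, hWK, hWn⟩ := exists_W hO (hordB b b.2 hb1')
    have hWN : W ≤ N := hWK K hK
    set W' : Subgroup H := ((W.subgroupOf N).map α).subgroupOf H with hW'
    have hW'le : W' ≤ centralizerPPrimeCore p (⟨f b, hbH⟩ : H) := by
      apply le_cppc
      · rintro ⟨_, hwH⟩ ⟨w, hw, rfl⟩
        rw [mem_centralizer_singleton_iff]
        apply Subtype.ext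
        change α w * f b = f b * α w
        change α w * α ⟨b, hBN b.2⟩ = α ⟨b, hBN b.2⟩ * α w
        rw [← map_mul, ← map_mul]
        congr 1
        exact Subtype.ext (mem_centralizer_singleton_iff.1 (hWb hw))
      · rintro ⟨_, hmH⟩ hm
        obtain ⟨m, hmM, rfl⟩ := id hmH
        rw [mem_centralizer_singleton_iff] at hm
        have hm' : α m * α ⟨b, hBN b.2⟩ = α ⟨b, hBN b.2⟩ * α m := congrArg Subtype.val hm
        -- decompose `m`
        have hmM' : (m : X) ∈ L ⊔ K := hmM
        rw [Components.mem_sup_of_le_normalizer hLN] at hmM'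
        obtain ⟨y, hy, x, hx, hyx⟩ := hmM'
        have hLb : L ≤ centralizer {(b : X)} := by
          apply sup_le
          · intro a ha
            rw [mem_centralizer_singleton_iff]
            exact hcomm a ha b (hBA b.2)
          · exact (delta_le b.2 hb1').trans (cppc_le p _)
        have hyb : y * b = b * y := mem_centralizer_singleton_iff.1 (hLb hy)
        have hyN : y ∈ N := hLN hy
        have hxN : x ∈ N := le_normalizer hx
        have hmyx : m = ⟨y, hyN⟩ * ⟨x, hxN⟩ := Subtype.ext hyx.symm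
        have hyα : α ⟨y, hyN⟩ * α ⟨b, hBN b.2⟩ = α ⟨b, hBN b.2⟩ * α ⟨y, hyN⟩ := by
          rw [← map_mul, ← map_mul]
          congr 1
          exact Subtype.ext hyb
        have hxα : α ⟨x, hxN⟩ * α ⟨b, hBN b.2⟩ = α ⟨b, hBN b.2⟩ * α ⟨x, hxN⟩ := by
          rw [hmyx, map_mul] at hm'
          have h1 : α ⟨y, hyN⟩ * (α ⟨x, hxN⟩ * α ⟨b, hBN b.2⟩) =
              α ⟨y, hyN⟩ * (α ⟨b, hBN b.2⟩ * α ⟨x, hxN⟩) := by
            rw [← mul_assoc, hm', ← mul_assoc, ← mul_assoc, hyα]
          exact mul_left_cancel h1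
        set z : X := x * b * x⁻¹ * (b : X)⁻¹ with hz
        have hzC : z ∈ centralizer (K : Set X) := by
          have h1 : α (⟨x, hxN⟩ * ⟨b, hBN b.2⟩ * ⟨x, hxN⟩⁻¹ * ⟨b, hBN b.2⟩⁻¹) = 1 := by
            rw [map_mul, map_mul, map_mul, map_inv, map_inv, hxα]
            group
          exact hαext _ h1
        have hzK : z ∈ K := by
          have h1 : z = x * (b * x⁻¹ * (b : X)⁻¹) := by rw [hz]; group
          rw [h1]
          exact mul_mem hx ((mem_normalizer_iff.1 (hBN b.2) x⁻¹).1 (inv_mem hx))
        have hzQ : z ∈ pCore p X := center_component_le hO hK ⟨hzK, hzC⟩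
        have hxP : x ∈ normalizer ((zpowers (b : X) ⊔ pCore p X : Subgroup X) : Set X) := by
          apply mem_normalizer_fintype
          have h1 : zpowers (b : X) ⊔ pCore p X ≤
              (zpowers (b : X) ⊔ pCore p X).comap (MulAut.conj x).toMonoidHom := by
            apply sup_le
            · rw [zpowers_le, mem_comap]
              change x * b * x⁻¹ ∈ _
              have h2 : x * b * x⁻¹ = z * b := by rw [hz]; group
              rw [h2]
              exact mul_mem (mem_sup_right hzQ) (mem_sup_left (mem_zpowers _))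
            · intro w hw
              rw [mem_comap]
              exact mem_sup_right ((pCore_normal p X).conj_mem w hw x)
          intro w hw
          exact h1 hw
        have hyP : y ∈ normalizer ((zpowers (b : X) ⊔ pCore p X : Subgroup X) : Set X) := by
          apply mem_normalizer_fintype
          have h1 : zpowers (b : X) ⊔ pCore p X ≤
              (zpowers (b : X) ⊔ pCore p X).comap (MulAut.conj y).toMonoidHom := by
            apply sup_le
            · rw [zpowers_le, mem_comap]
              change y * b * y⁻¹ ∈ _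
              have h2 : y * b * y⁻¹ = b := by rw [hyb]; group
              rw [h2]
              exact mem_sup_left (mem_zpowers _)
            · intro w hw
              rw [mem_comap]
              exact mem_sup_right ((pCore_normal p X).conj_mem w hw y)
          intro w hw
          exact h1 hw
        have hmW : (m : X) ∈ normalizer (W : Set X) := by
          rw [← hyx]; exact mul_mem (hWn hyP) (hWn hxP)
        apply mem_normalizer_fintype
        rintro ⟨_, hwH⟩ ⟨w, hw, rfl⟩
        refine ⟨m * w * m⁻¹, (mem_normalizer_iff.1 hmW w).1 hw, ?_⟩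
        rw [map_mul, map_mul, map_inv]
        rfl
      · have h1 : Nat.card W' ∣ Nat.card ((W.subgroupOf N).map α) :=
          Subgroup.card_comap_dvd_of_injective _ _ H.subtype_injective
        have h2 : Nat.card ((W.subgroupOf N).map α) ∣ Nat.card (W.subgroupOf N) :=
          Cores.card_map_dvd' _ α
        rw [SubgroupTools.card_subgroupOf_of_le hWN] at h2
        exact hWp.coprime_dvd_left (h1.trans h2)
    exact hW'le ⟨⟨d, hDN hd⟩, hDW (delta_le b.2 hb1' hd), rfl⟩
  · intro x hx
    refine ⟨⟨α ⟨x, hAK hx⟩, hmemH x (mem_sup_left (mem_sup_left hx))⟩, ?_, ?_,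
      fun q => ⟨K.normalizerMonoidHom ⟨x, hAK hx⟩ q, rfl, rfl⟩⟩
    · rw [mem_centralizer_iff]
      rintro ⟨_, hbH⟩ ⟨b, rfl⟩
      apply Subtype.ext
      change α ⟨b, hBN b.2⟩ * α ⟨x, hAK hx⟩ = α ⟨x, hAK hx⟩ * α ⟨b, hBN b.2⟩
      rw [← map_mul, ← map_mul]
      congr 1
      exact Subtype.ext (hcomm b (hBA b.2) x hx)
    · apply Subtype.ext
      change α ⟨x, hAK hx⟩ ^ p = 1
      rw [← map_pow]
      have : (⟨x, hAK hx⟩ : N) ^ p = 1 := Subtype.ext (hA.2 x hx)
      rw [this, map_one]



theorem delta_eq_bot (hO : pPrimeCore p X = ⊥) {k : ℕ} (hk : 1 ≤ k) {B : Subgroup X}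
    (hB : IsElementaryAbelian p B) (hBc : Nat.card B = p ^ k)
    (hloc : ∀ K : Subgroup X, IsComponent K → IsLocallyKBalanced p k (K ⧸ center K)) :
    signalizerDelta p B = ⊥ := by
  have hB1 := card_ne_one_of_pow hk hBc
  rw [eq_bot_iff]
  intro d hd
  rw [mem_bot]
  apply eq_one_of_centralizes hO (coprime_orderOf_delta hB1 hd) _
    (delta_le_centralizer_pCore hB hB1 hd)
  intro K hK
  by_cases h : ∃ b ∈ B, b ≠ 1 ∧ ⁅K, zpowers b⁆ ≠ K
  · obtain ⟨b, hb, hb1, hne⟩ := h
    exact delta_le_centralizer_of_ne hO hB hK hb hb1 hne hd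
  · push Not at h
    have hBN : B ≤ normalizer (K : Set X) := by
      intro b hb
      by_cases hb1 : b = 1
      · rw [hb1]; exact one_mem _
      have h1 : zpowers b ≤ normalizer (K : Set X) := by
        rw [le_normalizer_iff_commutator_le_left]
        exact (h b hb hb1).le
      exact h1 (mem_zpowers b)
    obtain ⟨H, hH, B', hB', hBc', hd', -⟩ := exists_local_quot hO hK le_rfl hB hBN hB1 h
    have h1 := hloc K hK H hH B' hB' (hBc'.trans hBc)
    obtain ⟨x, hx, hxd⟩ := hd' d hd
    rw [h1, mem_bot] at hx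
    exact hxd hx

/-- `k`-balance from local `k`-balance of the simple quotients of the components -/
theorem isKBalanced {k : ℕ} (hk : 1 ≤ k)
    (h : ∀ x : X, orderOf x = p →
      ∀ K : Subgroup (↥(Subgroup.centralizer ({x} : Set X)) ⧸
          Cfsg.pPrimeCore p ↥(Subgroup.centralizer ({x} : Set X))),
        Cfsg.IsComponent K → Cfsg.IsLocallyKBalanced p k (↥K ⧸ Subgroup.center ↥K)) :
    Cfsg.IsKBalanced p k X := by
  intro B hB hBc b hb hcomm
  rintro x ⟨hx, hxC⟩
  set C := centralizer ({b} : Set X) with hC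
  have hBC : B ≤ C := fun y hy => mem_centralizer_singleton_iff.2 (hcomm y hy)
  have h1 := mem_delta_image hB hBC (x := ⟨x, hxC⟩) hx
  rw [delta_eq_bot (Cores.pPrimeCore_quotient_pPrimeCore p C) hk (elemAb_image hB)
    ((card_image hB hBC).trans hBc) (h b hb), mem_bot, QuotientGroup.mk'_apply,
    QuotientGroup.eq_one_iff] at h1
  exact ⟨_, h1, rfl⟩

/-- for `p = 2`: local balance is local `1`-balance -/
theorem isLocallyKBalanced_of_isLocallyBalanced {K : Type*} [Group K] (h : IsLocallyBalanced K) :
    IsLocallyKBalanced 2 1 K := by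
  intro H hH A hA hAc
  rw [pow_one] at hAc
  have h1 : Nat.card A = 2 := hAc
  have : Fact (Nat.Prime 2) := ⟨Nat.prime_two⟩
  have hfin : Finite A := Nat.finite_of_card_ne_zero (by rw [h1]; norm_num)
  obtain ⟨a, ha⟩ := exists_prime_orderOf_dvd_card' (G := A) 2 (by rw [h1])
  have hao : orderOf (a : H) = 2 := by rw [Subgroup.orderOf_coe]; exact ha
  have h2 := h H hH (a : H) hao
  rw [eq_bot_iff, ← h2]
  intro x hx
  rw [mem_delta_iff] at hx
  exact hx a a.2 (by
    intro h3
    rw [h3, orderOf_one] at hao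
    exact absurd hao (by norm_num))

theorem isBalanced_of_isKBalanced (h : IsKBalanced 2 1 X) : IsBalanced X := by
  have key : ∀ x y : X, orderOf x = 2 → orderOf y = 2 → x * y = y * x →
      centralizerPPrimeCore 2 x ⊓ Subgroup.centralizer {y} ≤ centralizerPPrimeCore 2 y ⊓
        Subgroup.centralizer {x} := by
    intro x y hx hy hxy
    apply le_inf
    · have h1 : signalizerDelta 2 (zpowers x) = centralizerPPrimeCore 2 x := by
        apply le_antisymm
        · exact delta_le (mem_zpowers x) (by
            intro h3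
            rw [h3, orderOf_one] at hx
            exact absurd hx (by norm_num))
        · intro z hz
          rw [mem_delta_iff]
          intro a ha ha1
          have h2 : a = 1 ∨ a = x := by
            obtain ⟨n, rfl⟩ := mem_zpowers_iff.mp ha
            have h3 : x ^ (2 : ℤ) = 1 := by
              have := pow_orderOf_eq_one x
              rw [hx] at this
              exact_mod_cast this
            rcases Int.even_or_odd' n with ⟨m, rfl | rfl⟩
            · left; rw [zpow_mul, h3, one_zpow]
            · right; rw [zpow_add, zpow_mul, h3, one_zpow, one_mul, zpow_one]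
          rcases h2 with rfl | rfl
          · exact absurd rfl ha1
          · exact hz
      rw [← h1]
      refine h (zpowers x) ?_ ?_ y hy ?_
      · refine ⟨inferInstance, ?_⟩
        intro a ha
        obtain ⟨n, rfl⟩ := mem_zpowers_iff.mp ha
        have h3 : x ^ 2 = 1 := by
          have := pow_orderOf_eq_one x
          rwa [hx] at this
        rw [← zpow_natCast, ← zpow_mul, mul_comm, zpow_mul, zpow_natCast, h3, one_zpow]
      · rw [Nat.card_zpowers, hx, pow_one]
      · intro a ha
        obtain ⟨n, rfl⟩ := mem_zpowers_iff.mp ha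
        exact ((show Commute x y from hxy).zpow_left n)
    · exact inf_le_left.trans (cppc_le 2 x)
  intro x y hx hy hxy
  exact le_antisymm (key x y hx hy hxy) (key y x hy hx hxy.symm)

end Cfsg.Agent.Lib.H22KBal
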