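import Cfsg.Agent.Lib.H64LA

/-! S3105, piece N (helper32): basics on the natural module of order 8 -/

set_option autoImplicit false

namespace Cfsg.Agent.Lib.H64L

open Subgroup Cfsg

universe u v
variable {Y : Type u} {L : Type v} [Group Y] [Group L]

/-- the standard elementary abelian group of order 8 -/
abbrev M3 : Type := ZMod 2 × ZMod 2 × ZMod 2

/-- independent triples -/
def Ind3 (t : M3 × M3 × M3) : Prop :=
  t.1 ≠ 0 ∧ t.2.1 ≠ 0 ∧ t.2.2 ≠ 0 ∧ t.1 + t.2.1 ≠ 0 ∧ t.1 + t.2.2 ≠ 0 ∧ t.2.1 + t.2.2 ≠ 0 ∧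
    t.1 + t.2.1 + t.2.2 ≠ 0

instance : DecidablePred Ind3 := fun t => by unfold Ind3; infer_instance

theorem card_T : Fintype.card {t : M3 × M3 × M3 // Ind3 t} = 168 := by decide +kernel

theorem span3 : ∀ t : M3 × M3 × M3, Ind3 t → ∀ x : M3, ∃ i j k : Fin 2,
    x = (i : ℕ) • t.1 + (j : ℕ) • t.2.1 + (k : ℕ) • t.2.2 := by decide +kernel

theorem ext3 : ∀ u : M3, u ≠ 0 → ∃ v w : M3, Ind3 (u, v, w) := by decide +kernel

theorem Nat8.coord [Finite Y] {π : Y →* L} {K W : Subgroup Y} (N : Nat8 π K W) :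
    ∃ κ : W →* Multiplicative M3, Function.Surjective κ ∧ ∀ x : W, κ x = 1 ↔ (x : Y) ∈ K := by
  haveI := N.nK
  haveI : (K.subgroupOf W).Normal := N.nK.subgroupOf W
  have hexp : ∀ n : W ⧸ K.subgroupOf W, n ^ 2 = 1 := by
    intro n
    obtain ⟨x, rfl⟩ := QuotientGroup.mk_surjective n
    rw [← QuotientGroup.mk_pow, QuotientGroup.eq_one_iff]
    exact N.sq x x.2
  have hcomm : ∀ a b : W ⧸ K.subgroupOf W, a * b = b * a := by
    intro a b
    have h1 := hexp (a * b)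
    have h2 := hexp a
    have h3 := hexp b
    rw [pow_two] at h1 h2 h3
    calc a * b = a * (a * b * (a * b)) * b := by rw [h1, mul_one]
      _ = (a * a) * (b * a) * (b * b) := by group
      _ = b * a := by rw [h2, h3, one_mul, mul_one]
  have hcard : Nat.card (W ⧸ K.subgroupOf W) = 8 := by
    have h1 := Subgroup.card_eq_card_quotient_mul_card_subgroup (K.subgroupOf W)
    have h2 : Nat.card (K.subgroupOf W) = Nat.card K := Nat.card_congr (Subgroup.subgroupOfEquivOfLe N.le).toEquiv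
    rw [h2, N.card] at h1
    exact (Nat.eq_of_mul_eq_mul_right Nat.card_pos h1).symm
  letI : CommGroup (W ⧸ K.subgroupOf W) := { (inferInstance : Group (W ⧸ K.subgroupOf W)) with mul_comm := hcomm }
  haveI : Fact (Nat.Prime 2) := ⟨Nat.prime_two⟩
  letI : Module (ZMod 2) (Additive (W ⧸ K.subgroupOf W)) := AddCommGroup.zmodModule (n := 2) (fun x => by
    have := hexp (Additive.toMul x)
    rw [← ofMul_toMul x, ← ofMul_pow, this]; rfl)
  haveI : Module.Finite (ZMod 2) (Additive (W ⧸ K.subgroupOf W)) := Module.Finite.of_finite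
  have hr : Module.finrank (ZMod 2) (Additive (W ⧸ K.subgroupOf W)) = 3 := by
    have h := Module.natCard_eq_pow_finrank (K := ZMod 2) (V := Additive (W ⧸ K.subgroupOf W))
    have h8 : Nat.card (Additive (W ⧸ K.subgroupOf W)) = 8 := hcard
    rw [h8, Nat.card_zmod] at h
    have : (2:ℕ) ^ 3 = 2 ^ Module.finrank (ZMod 2) (Additive (W ⧸ K.subgroupOf W)) := by rw [← h]; norm_num
    exact (Nat.pow_right_injective le_rfl this).symm
  have hr' : Module.finrank (ZMod 2) M3 = 3 := by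
    simp [Module.finrank_prod]
  let e : Additive (W ⧸ K.subgroupOf W) ≃ₗ[ZMod 2] M3 := LinearEquiv.ofFinrankEq _ _ (by rw [hr, hr'])
  let κ : W →* Multiplicative M3 := (AddMonoidHom.toMultiplicativeRight e.toAddEquiv.toAddMonoidHom).comp (QuotientGroup.mk' (K.subgroupOf W))
  refine ⟨κ, ?_, ?_⟩
  · intro m
    obtain ⟨x, hx⟩ := QuotientGroup.mk_surjective (Additive.toMul (e.symm (Multiplicative.toAdd m)))
    refine ⟨x, ?_⟩
    show Multiplicative.ofAdd (e (Additive.ofMul (QuotientGroup.mk x))) = m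
    rw [hx]
    show Multiplicative.ofAdd (e (e.symm (Multiplicative.toAdd m))) = m
    rw [e.apply_symm_apply]
    rfl
  · intro x
    have h1 : κ x = Multiplicative.ofAdd (e (Additive.ofMul (QuotientGroup.mk x))) := rfl
    rw [h1, ofAdd_eq_one, LinearEquiv.map_eq_zero_iff, ofMul_eq_zero, QuotientGroup.eq_one_iff, mem_subgroupOf]

theorem ind_iff {K W : Subgroup Y} {κ : W →* Multiplicative M3} (hk : ∀ x : W, κ x = 1 ↔ (x : Y) ∈ K) (a b c : W) :
    Ind K (a : Y) b c ↔ Ind3 (Multiplicative.toAdd (κ a), Multiplicative.toAdd (κ b), Multiplicative.toAdd (κ c)) := by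
  have h1 : ∀ x : W, (x : Y) ∉ K ↔ Multiplicative.toAdd (κ x) ≠ 0 := by
    intro x
    rw [← hk x]; rfl
  unfold Ind Ind3
  rw [h1 a, h1 b, h1 c]
  have e1 : (a : Y) * b = ((a * b : W) : Y) := rfl
  have e2 : (a : Y) * c = ((a * c : W) : Y) := rfl
  have e3 : (b : Y) * c = ((b * c : W) : Y) := rfl
  have e4 : ((a * b : W) : Y) * c = ((a * b * c : W) : Y) := rfl
  rw [e1, e2, e3, e4, h1, h1, h1, h1]
  simp only [map_mul, toAdd_mul]

theorem gen3 {K W : Subgroup Y} {κ : W →* Multiplicative M3} (hk : ∀ x : W, κ x = 1 ↔ (x : Y) ∈ K) {a b c : W}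
    (h : Ind K (a : Y) b c) (x : W) : ∃ i j k : ℕ, ∃ z : W, (z : Y) ∈ K ∧ x = a ^ i * b ^ j * c ^ k * z := by
  obtain ⟨i, j, k, hx⟩ := span3 _ ((ind_iff hk a b c).1 h) (Multiplicative.toAdd (κ x))
  refine ⟨i, j, k, (a ^ (i : ℕ) * b ^ (j : ℕ) * c ^ (k : ℕ))⁻¹ * x, ?_, by group⟩
  rw [← hk, map_mul, map_inv, inv_mul_eq_one]
  apply Multiplicative.toAdd.injective
  rw [hx]
  simp only [map_mul, map_pow, toAdd_mul, toAdd_pow]

theorem hom_ext3 {K W : Subgroup Y} {κ : W →* Multiplicative M3} (hk : ∀ x : W, κ x = 1 ↔ (x : Y) ∈ K) {a b c : W}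
    (h : Ind K (a : Y) b c) (ψ1 ψ2 : W →* Multiplicative M3) (h1 : ∀ z : W, (z : Y) ∈ K → ψ1 z = 1)
    (h2 : ∀ z : W, (z : Y) ∈ K → ψ2 z = 1) (ha : ψ1 a = ψ2 a) (hb : ψ1 b = ψ2 b) (hc : ψ1 c = ψ2 c) (x : W) :
    ψ1 x = ψ2 x := by
  obtain ⟨i, j, k, z, hz, rfl⟩ := gen3 hk h x
  simp only [map_mul, map_pow, ha, hb, hc, h1 z hz, h2 z hz]

theorem Nat8.faithful [Finite Y] (hL : IsL L) {π : Y →* L} (hs : Function.Surjective π) {K W : Subgroup Y}
    (N : Nat8 π K W) {g : Y} (h : ∀ x ∈ W, g * x * g⁻¹ * x⁻¹ ∈ K) : g ∈ π.ker := by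
  haveI := N.nK
  haveI := N.nW
  haveI := hL.simple
  let q : Y →* Y ⧸ K := QuotientGroup.mk' K
  let V : Subgroup (Y ⧸ K) := W.map q
  haveI : V.Normal := N.nW.map q (QuotientGroup.mk'_surjective K)
  let C : Subgroup Y := (Subgroup.centralizer (V : Set (Y ⧸ K))).comap q
  have hC : ∀ y : Y, y ∈ C ↔ ∀ x ∈ W, y * x * y⁻¹ * x⁻¹ ∈ K := by
    intro y
    show q y ∈ Subgroup.centralizer (V : Set (Y ⧸ K)) ↔ _
    rw [mem_centralizer_iff]
    constructor
    · intro hy x hx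
      have h1 := hy (q x) ⟨x, hx, rfl⟩
      rw [← QuotientGroup.eq_one_iff]
      show q (y * x * y⁻¹ * x⁻¹) = 1
      rw [map_mul, map_mul, map_mul, map_inv, map_inv, ← h1]; group
    · rintro hy _ ⟨x, hx, rfl⟩
      have h1 : q (y * x * y⁻¹ * x⁻¹) = 1 := (QuotientGroup.eq_one_iff _).2 (hy x hx)
      rw [map_mul, map_mul, map_mul, map_inv, map_inv, mul_inv_eq_one, mul_inv_eq_iff_eq_mul] at h1
      exact h1.symm
  haveI : C.Normal := Subgroup.Normal.comap inferInstance q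
  have hCn : (C.map π).Normal := Subgroup.Normal.map inferInstance π hs
  rcases hCn.eq_bot_or_eq_top with h1 | h1
  · have h2 : π g ∈ C.map π := ⟨g, (hC g).2 h, rfl⟩
    rw [h1, mem_bot] at h2
    exact h2
  · exfalso
    obtain ⟨y, x, hx, hyx⟩ := N.nt
    have h2 : π y ∈ C.map π := by rw [h1]; exact mem_top _
    obtain ⟨c, hc, hcy⟩ := h2
    have h3 : c⁻¹ * y ∈ C := (hC _).2 (N.triv _ (by rw [MonoidHom.mem_ker, map_mul, map_inv, hcy, inv_mul_cancel]))
    have h4 : y ∈ C := by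
      have := mul_mem hc h3
      rwa [mul_inv_cancel_left] at this
    exact hyx ((hC y).1 h4 x hx)

theorem Nat8.trans [Finite Y] (hL : IsL L) {π : Y →* L} (hs : Function.Surjective π) {K W : Subgroup Y}
    (N : Nat8 π K W) {a b c a' b' c' : Y} (ha : a ∈ W) (hb : b ∈ W) (hc : c ∈ W) (ha' : a' ∈ W) (hb' : b' ∈ W)
    (hc' : c' ∈ W) (h : Ind K a b c) (h' : Ind K a' b' c') :
    ∃ g : Y, g * a * g⁻¹ * a'⁻¹ ∈ K ∧ g * b * g⁻¹ * b'⁻¹ ∈ K ∧ g * c * g⁻¹ * c'⁻¹ ∈ K := by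
  classical
  haveI := N.nW
  haveI := N.nK
  obtain ⟨κ, hκs, hκ⟩ := N.coord
  let ψ : Y → (W →* Multiplicative M3) := fun g => κ.comp (MulAut.conjNormal g : MulAut W).toMonoidHom
  have hψ : ∀ (g : Y) (x : W), ψ g x = κ (MulAut.conjNormal g x) := fun g x => rfl
  have hcoe : ∀ (g : Y) (x : W), ((MulAut.conjNormal g x : W) : Y) = g * x * g⁻¹ := fun g x => MulAut.conjNormal_apply g x
  have hψK : ∀ (g : Y) (z : W), (z : Y) ∈ K → ψ g z = 1 := by
    intro g z hz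
    rw [hψ, hκ, hcoe]
    exact N.nK.conj_mem _ hz g
  have hκeq : ∀ x y : W, κ x = κ y ↔ (x : Y) * (y : Y)⁻¹ ∈ K := by
    intro x y
    rw [← mul_inv_eq_one, ← map_inv, ← map_mul, hκ]; rfl
  let A : W := ⟨a, ha⟩
  let B : W := ⟨b, hb⟩
  let C : W := ⟨c, hc⟩
  have hind : ∀ g : Y, Ind3 (Multiplicative.toAdd (ψ g A), Multiplicative.toAdd (ψ g B), Multiplicative.toAdd (ψ g C)) := by
    intro g
    have h1 := (ind_iff hκ (MulAut.conjNormal g A) (MulAut.conjNormal g B) (MulAut.conjNormal g C)).1 (by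
      have hc1 : ∀ x : Y, x ∉ K → g * x * g⁻¹ ∉ K := by
        intro x hx hgx
        apply hx
        have := N.nK.conj_mem _ hgx g⁻¹
        have e : g⁻¹ * (g * x * g⁻¹) * g⁻¹⁻¹ = x := by group
        rwa [e] at this
      rw [hcoe, hcoe, hcoe]
      obtain ⟨h1, h2, h3, h4, h5, h6, h7⟩ := h
      refine ⟨hc1 _ h1, hc1 _ h2, hc1 _ h3, ?_, ?_, ?_, ?_⟩
      · have e : g * (A : Y) * g⁻¹ * (g * (B : Y) * g⁻¹) = g * (a * b) * g⁻¹ := by
          show g * a * g⁻¹ * (g * b * g⁻¹) = g * (a * b) * g⁻¹; group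
        rw [e]; exact hc1 _ h4
      · have e : g * (A : Y) * g⁻¹ * (g * (C : Y) * g⁻¹) = g * (a * c) * g⁻¹ := by
          show g * a * g⁻¹ * (g * c * g⁻¹) = g * (a * c) * g⁻¹; group
        rw [e]; exact hc1 _ h5
      · have e : g * (B : Y) * g⁻¹ * (g * (C : Y) * g⁻¹) = g * (b * c) * g⁻¹ := by
          show g * b * g⁻¹ * (g * c * g⁻¹) = g * (b * c) * g⁻¹; group
        rw [e]; exact hc1 _ h6
      · have e : g * (A : Y) * g⁻¹ * (g * (B : Y) * g⁻¹) * (g * (C : Y) * g⁻¹) = g * (a * b * c) * g⁻¹ := by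
          show g * a * g⁻¹ * (g * b * g⁻¹) * (g * c * g⁻¹) = g * (a * b * c) * g⁻¹; group
        rw [e]; exact hc1 _ h7)
    exact h1
  let Ψ : L → {t : M3 × M3 × M3 // Ind3 t} := fun l =>
    ⟨(Multiplicative.toAdd (ψ (Function.surjInv hs l) A), Multiplicative.toAdd (ψ (Function.surjInv hs l) B),
      Multiplicative.toAdd (ψ (Function.surjInv hs l) C)), hind _⟩
  have hinj : Function.Injective Ψ := by
    intro l l' hl
    have h1 := congrArg Subtype.val hl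
    simp only [Ψ, Prod.mk.injEq] at h1
    obtain ⟨e1, e2, e3⟩ := h1
    have e1' := Multiplicative.toAdd.injective e1
    have e2' := Multiplicative.toAdd.injective e2
    have e3' := Multiplicative.toAdd.injective e3
    set g := Function.surjInv hs l with hg
    set g' := Function.surjInv hs l' with hg'
    have hall := hom_ext3 hκ (a := A) (b := B) (c := C) h (ψ g) (ψ g') (hψK g) (hψK g') e1' e2' e3'
    have h2 : g'⁻¹ * g ∈ π.ker := by
      apply N.faithful hL hs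
      intro x hx
      have h3 := hall ⟨x, hx⟩
      rw [hψ, hψ, hκeq, hcoe, hcoe] at h3
      have h4 := N.nK.conj_mem _ h3 g'⁻¹
      have e : g'⁻¹ * (g * x * g⁻¹ * (g' * x * g'⁻¹)⁻¹) * g'⁻¹⁻¹ = g'⁻¹ * g * x * (g'⁻¹ * g)⁻¹ * x⁻¹ := by group
      exact e ▸ h4
    rw [MonoidHom.mem_ker, map_mul, map_inv, inv_mul_eq_one, hg, hg', Function.surjInv_eq hs l', Function.surjInv_eq hs l] at h2
    exact h2.symm
  haveI : Finite L := Finite.of_surjective π hs
  haveI : Fintype L := Fintype.ofFinite L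
  have hbij : Function.Bijective Ψ := by
    rw [Fintype.bijective_iff_injective_and_card]
    refine ⟨hinj, ?_⟩
    rw [card_T, ← Nat.card_eq_fintype_card, hL.card]
  obtain ⟨l, hl⟩ := hbij.2 ⟨_, (ind_iff hκ (⟨a', ha'⟩ : W) ⟨b', hb'⟩ ⟨c', hc'⟩).1 h'⟩
  have h1 := congrArg Subtype.val hl
  simp only [Ψ, Prod.mk.injEq] at h1
  obtain ⟨e1, e2, e3⟩ := h1
  have e1' := Multiplicative.toAdd.injective e1
  have e2' := Multiplicative.toAdd.injective e2
  have e3' := Multiplicative.toAdd.injective e3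
  refine ⟨Function.surjInv hs l, ?_, ?_, ?_⟩
  · rw [hψ, hκeq, hcoe] at e1'; exact e1'
  · rw [hψ, hκeq, hcoe] at e2'; exact e2'
  · rw [hψ, hκeq, hcoe] at e3'; exact e3'

/-- extension of a non-trivial vector to a basis -/
theorem Nat8.exists_ind [Finite Y] {π : Y →* L} {K W : Subgroup Y} (N : Nat8 π K W) {a : Y} (ha : a ∈ W) (h : a ∉ K) :
    ∃ b ∈ W, ∃ c ∈ W, Ind K a b c := by
  obtain ⟨κ, hκs, hκ⟩ := N.coord
  obtain ⟨v, w, hvw⟩ := ext3 (Multiplicative.toAdd (κ ⟨a, ha⟩)) (by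
    intro h0
    exact h ((hκ ⟨a, ha⟩).1 h0))
  obtain ⟨b, hb⟩ := hκs (Multiplicative.ofAdd v)
  obtain ⟨c, hc⟩ := hκs (Multiplicative.ofAdd w)
  refine ⟨b, b.2, c, c.2, ?_⟩
  have := (ind_iff hκ (⟨a, ha⟩ : W) b c).2 (by rw [hb, hc]; exact hvw)
  exact this

theorem Nat8.trans1 [Finite Y] (hL : IsL L) {π : Y →* L} (hs : Function.Surjective π) {K W : Subgroup Y}
    (N : Nat8 π K W) {x y : Y} (hx : x ∈ W) (hy : y ∈ W) (hxK : x ∉ K) (hyK : y ∉ K) :
    ∃ g : Y, g * x * g⁻¹ * y⁻¹ ∈ K := by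
  obtain ⟨b, hb, c, hc, h⟩ := N.exists_ind hx hxK
  obtain ⟨b', hb', c', hc', h'⟩ := N.exists_ind hy hyK
  obtain ⟨g, hg, -, -⟩ := N.trans hL hs hx hb hc hy hb' hc' h h'
  exact ⟨g, hg⟩

theorem Nat8.irr [Finite Y] (hL : IsL L) {π : Y →* L} (hs : Function.Surjective π) {K W : Subgroup Y}
    (N : Nat8 π K W) {R : Subgroup Y} (hR : R.Normal) (h1 : K ≤ R) (h2 : R ≤ W) : R = K ∨ R = W := by
  by_cases h : R ≤ K
  · exact Or.inl (le_antisymm h h1)
  · right
    obtain ⟨x, hx, hxK⟩ := SetLike.not_le_iff_exists.1 h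
    refine le_antisymm h2 ?_
    intro y hy
    by_cases hyK : y ∈ K
    · exact h1 hyK
    · obtain ⟨g, hg⟩ := N.trans1 hL hs (h2 hx) hy hxK hyK
      have h3 : g * x * g⁻¹ ∈ R := hR.conj_mem x hx g
      have h4 := mul_mem (inv_mem (h1 hg)) h3
      have e : (g * x * g⁻¹ * y⁻¹)⁻¹ * (g * x * g⁻¹) = y := by group
      rwa [e] at h4

end Cfsg.Agent.Lib.H64L
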