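import Cfsg.Agent.Lib.H22NB
import Cfsg.Agent.Lib.H64LN

/-! S3105, piece LIN (helper22). -/

set_option autoImplicit false

namespace Cfsg.Agent.Lib.H64L

open Subgroup Cfsg Cfsg.Agent.Lib.SectRank Cfsg.Agent.Lib.H50Five Cfsg.Agent.Lib.H22NB

universe u v
variable {Y : Type u} {L : Type v} [Group Y] [Group L]

/-- an independent pair extends to a basis -/
theorem Nat8.pair_third [Finite Y] {π : Y →* L} {K W : Subgroup Y} (N : Nat8 π K W) {x y : Y} (hx : x ∈ W) (hy : y ∈ W)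
    (h1 : x ∉ K) (h2 : y ∉ K) (h3 : x * y ∉ K) : ∃ z ∈ W, Ind K x y z := by
  obtain ⟨b, hb, c, hc, hi⟩ := N.exists_ind hx h1
  obtain ⟨Φ, C⟩ := exists_coord N hx hb hc hi
  rcases C.third hy h2 h3 with h | h
  · exact ⟨b, hb, h⟩
  · exact ⟨c, hc, h⟩

theorem lin_conj_sq (g x : Y) : (g * x * g⁻¹) ^ 2 = g * x ^ 2 * g⁻¹ := by simp only [pow_two]; group

theorem lin [Finite Y] (hL : IsL L) {π : Y →* L} (hs : Function.Surjective π) {K W M : Subgroup Y} (N1 : Nat8 π K W)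
    (N2 : Nat8 π ⊥ M) (hM : ∀ x ∈ W, x ^ 2 ∈ M) (hk : ∀ x ∈ W, ∀ k ∈ K, (x * k) ^ 2 = x ^ 2)
    (h1 : ∀ x ∈ W, x ^ 2 = 1 → x ∈ K) : ∀ x ∈ W, ∀ y ∈ W, x * y = y * x := by
  have nW := N1.nW
  have nK := N1.nK
  have hk1 : ∀ k ∈ K, k ^ 2 = 1 := by
    intro k hkK
    have := hk 1 (one_mem _) k hkK
    rwa [one_mul, one_pow] at this
  have hkc : ∀ k ∈ K, ∀ x ∈ W, k * x = x * k := by
    intro k hkK x hx
    have h2 := hk x hx k hkK
    have h3 := hk1 k hkK
    rw [pow_two, pow_two, mul_assoc] at h2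
    have h4 : k * (x * k) = x := by
      have := mul_left_cancel h2
      exact this
    rw [pow_two] at h3
    calc k * x = k * x * (k * k) := by rw [h3, mul_one]
      _ = (k * (x * k)) * k := by group
      _ = x * k := by rw [h4]
  -- same square for congruent elements
  have hsame : ∀ x ∈ W, ∀ y ∈ W, x * y⁻¹ ∈ K → x ^ 2 = y ^ 2 := by
    intro x hx y hy h
    have h2 : x = y * (x * y⁻¹) := by
      rw [← hkc _ h y hy]; group
    rw [h2]
    exact hk y hy _ h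
  have hMsq : ∀ m ∈ M, m * m = 1 := by
    intro m hm
    have := N2.sq m hm
    rwa [mem_bot, pow_two] at this
  have hMc : ∀ a ∈ M, ∀ b ∈ M, a * b = b * a :=
    H50Five.comm_of_sq (fun x hx => by rw [pow_two]; exact hMsq x hx)
  -- a nontrivial square
  obtain ⟨x0, hx0, hx0K⟩ : ∃ x ∈ W, x ∉ K := by
    by_contra hcon
    push Not at hcon
    have h2 : Nat.card W = Nat.card K := by rw [le_antisymm hcon N1.le]
    have h3 := N1.card
    have : 0 < Nat.card K := Nat.card_pos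
    omega
  have hsur : ∀ m ∈ M, ∃ w ∈ W, w ^ 2 = m := by
    intro m hm
    by_cases hm1 : m = 1
    · exact ⟨1, one_mem _, by rw [hm1, one_pow]⟩
    · have h2 : x0 ^ 2 ∉ (⊥ : Subgroup Y) := by
        rw [mem_bot]; exact fun h => hx0K (h1 x0 hx0 h)
      obtain ⟨g, hg⟩ := N2.trans1 hL hs (hM x0 hx0) hm h2 (by rw [mem_bot]; exact hm1)
      rw [mem_bot, mul_inv_eq_one] at hg
      exact ⟨g * x0 * g⁻¹, nW.conj_mem x0 hx0 g, by rw [lin_conj_sq, hg]⟩
  -- injectivity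
  have hinj : ∀ x ∈ W, ∀ y ∈ W, x ^ 2 = y ^ 2 → x * y⁻¹ ∈ K := by
    -- the square map on `W.map mk`
    obtain ⟨b, hb, c, hc, hi⟩ := N1.exists_ind hx0 hx0K
    obtain ⟨Φ, C⟩ := exists_coord N1 hx0 hb hc hi
    have hE : ∀ t, E x0 b c t ∈ W := fun t => mul_mem (mul_mem (pow_mem hx0 _) (pow_mem hb _)) (pow_mem hc _)
    let q : ZMod 2 × ZMod 2 × ZMod 2 → M := fun t => ⟨(E x0 b c t) ^ 2, hM _ (hE t)⟩
    have hq : ∀ x ∈ W, (q (Φ x) : Y) = x ^ 2 := by
      intro x hx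
      obtain ⟨k, hkK, hxk⟩ := C.dec x hx
      have h2 := hk _ (hE (Φ x)) k hkK
      change (E x0 b c (Φ x)) ^ 2 = x ^ 2
      rw [← h2, ← hxk]
    have hqs : Function.Surjective q := by
      intro m
      obtain ⟨w, hw, hwm⟩ := hsur m m.2
      exact ⟨Φ w, Subtype.ext (by rw [hq w hw, hwm])⟩
    have hqi : Function.Injective q := by
      have : Finite M := inferInstance
      have hcard : Nat.card (ZMod 2 × ZMod 2 × ZMod 2) = Nat.card M := by
        rw [N2.card, Nat.card_eq_fintype_card]; simp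
      exact ((Nat.bijective_iff_surjective_and_card q).mpr ⟨hqs, hcard⟩).1
    intro x hx y hy h
    rw [C.rel hx hy]
    apply hqi
    apply Subtype.ext
    rw [hq x hx, hq y hy, h]
  have hinj' : ∀ x ∈ W, ∀ y ∈ W, x ^ 2 = y ^ 2 → x * y ∈ K := by
    intro x hx y hy h
    have h2 : x ^ 2 = (y⁻¹) ^ 2 := by
      rw [h, inv_pow]
      rw [eq_comm, inv_eq_iff_mul_eq_one]
      exact hMsq _ (hM y hy)
    have h3 := hinj x hx y⁻¹ (inv_mem hy) h2
    rwa [inv_inv] at h3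
  -- additivity
  have key : ∀ x ∈ W, ∀ y ∈ W, (x * y) ^ 2 = x ^ 2 * y ^ 2 := by
    intro x hx y hy
    by_cases hxK : x ∈ K
    · rw [hkc x hxK y hy, hk y hy x hxK, hk1 x hxK, one_mul]
    by_cases hyK : y ∈ K
    · rw [hk x hx y hyK, hk1 y hyK, mul_one]
    by_cases hxyK : x * y ∈ K
    · rw [hk1 _ hxyK]
      have h2 : x ^ 2 = y ^ 2 := by
        have h3 : x * (y⁻¹)⁻¹ ∈ K := by rwa [inv_inv]
        rw [hsame x hx y⁻¹ (inv_mem hy) h3, inv_pow, inv_eq_iff_mul_eq_one]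
        exact hMsq _ (hM y hy)
      rw [h2]; exact (hMsq _ (hM y hy)).symm
    obtain ⟨z, hz, hi⟩ := N1.pair_third hx hy hxK hyK hxyK
    obtain ⟨Φ, C⟩ := exists_coord N1 hx hy hz hi
    have hzx : z * x ∈ W := mul_mem hz hx
    have ezx : Φ (z * x) = (1, 0, 1) := by rw [C.add z hz x hx, C.ea, C.ec]; decide
    have hi' : Ind K x y (z * x) := by
      rw [C.ind_iff hx hy hzx, C.ea, C.eb, ezx]; decide
    obtain ⟨g, hg1, hg2, hg3⟩ := N1.trans hL hs hx hy hz hx hy hzx hi hi'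
    have gx := nW.conj_mem x hx g
    have gy := nW.conj_mem y hy g
    have gz := nW.conj_mem z hz g
    have e1 : Φ (g * x * g⁻¹) = (1, 0, 0) := by rw [(C.rel gx hx).mp hg1, C.ea]
    have e2 : Φ (g * y * g⁻¹) = (0, 1, 0) := by rw [(C.rel gy hy).mp hg2, C.eb]
    have e3 : Φ (g * z * g⁻¹) = (1, 0, 1) := by rw [(C.rel gz hzx).mp hg3, ezx]
    have s1 : g * x ^ 2 * g⁻¹ = x ^ 2 := by rw [← lin_conj_sq]; exact hsame _ gx _ hx hg1
    have s2 : g * y ^ 2 * g⁻¹ = y ^ 2 := by rw [← lin_conj_sq]; exact hsame _ gy _ hy hg2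
    obtain ⟨w, hw, hwm⟩ := hsur (x ^ 2 * y ^ 2) (mul_mem (hM x hx) (hM y hy))
    have gw := nW.conj_mem w hw g
    have h4 : (g * w * g⁻¹) ^ 2 = w ^ 2 := by
      rw [lin_conj_sq, hwm]
      calc g * (x ^ 2 * y ^ 2) * g⁻¹ = (g * x ^ 2 * g⁻¹) * (g * y ^ 2 * g⁻¹) := by group
        _ = _ := by rw [s1, s2]
    have h5 := (C.rel gw hw).mp (hinj _ gw _ hw h4)
    rw [C.conj g hw, e1, e2, e3] at h5
    have h6 : ∀ v : ZMod 2 × ZMod 2 × ZMod 2, v.1 • ((1, 0, 0) : ZMod 2 × ZMod 2 × ZMod 2) + v.2.1 • (0, 1, 0) +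
        v.2.2 • (1, 0, 1) = v → v = 0 ∨ v = (1, 0, 0) ∨ v = (0, 1, 0) ∨ v = (1, 1, 0) := by decide
    rcases h6 _ h5 with h7 | h7 | h7 | h7
    · exfalso
      have h8 := (C.ker w hw).mp h7
      rw [hk1 w h8] at hwm
      have h9 : x ^ 2 = y ^ 2 := by
        have h10 := hMsq _ (hM y hy)
        calc x ^ 2 = x ^ 2 * (y ^ 2 * y ^ 2) := by rw [h10, mul_one]
          _ = (x ^ 2 * y ^ 2) * y ^ 2 := by rw [mul_assoc]
          _ = y ^ 2 := by rw [← hwm, one_mul]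
      exact hxyK (hinj' x hx y hy h9)
    · exfalso
      have h8 : w ^ 2 = x ^ 2 := hsame w hw x hx ((C.rel hw hx).mpr (by rw [h7, C.ea]))
      rw [h8] at hwm
      have h9 : y ^ 2 = 1 := by
        have := hwm.symm
        rwa [mul_eq_left] at this
      exact hyK (h1 y hy h9)
    · exfalso
      have h8 : w ^ 2 = y ^ 2 := hsame w hw y hy ((C.rel hw hy).mpr (by rw [h7, C.eb]))
      rw [h8] at hwm
      have h9 : x ^ 2 = 1 := by
        have := hwm.symm
        rwa [mul_eq_right] at this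
      exact hxK (h1 x hx h9)
    · have hxy := mul_mem hx hy
      have h8 : w ^ 2 = (x * y) ^ 2 := hsame w hw _ hxy ((C.rel hw hxy).mpr (by
        rw [h7, C.add x hx y hy, C.ea, C.eb]; decide))
      rw [← h8, hwm]
  intro x hx y hy
  have h2 := key x hx y hy
  simp only [pow_two] at h2
  have h3 : x * (y * x) * y = x * (x * y) * y := by
    calc x * (y * x) * y = x * y * (x * y) := by group
      _ = x * x * (y * y) := h2
      _ = _ := by group
  exact (mul_left_cancel (mul_right_cancel h3)).symm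

end Cfsg.Agent.Lib.H64L
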