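import Cfsg.Agent.Lib.H64LA

/-! S3105: coordinates in the sections `W / K` of order 8 (helper22). -/

set_option autoImplicit false

namespace Cfsg.Agent.Lib.H22NB

open Subgroup Cfsg Cfsg.Agent.Lib.SectRank Cfsg.Agent.Lib.H50Five Cfsg.Agent.Lib.H64L

universe u v

/-- words in three elements -/
def E {Q : Type*} [Group Q] (A B C : Q) (t : ZMod 2 × ZMod 2 × ZMod 2) : Q :=
  A ^ t.1.val * B ^ t.2.1.val * C ^ t.2.2.val

theorem pow_val_add {Q : Type*} [Group Q] {A : Q} (hA : A * A = 1) (i j : ZMod 2) :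
    A ^ (i + j).val = A ^ i.val * A ^ j.val := by
  have h : ∀ i j : ZMod 2, (i + j).val = (i.val + j.val) % 2 := by decide
  rw [h, ← pow_eq_pow_mod _ (by rw [pow_two]; exact hA), pow_add]

theorem E_add {Q : Type*} [Group Q] {A B C : Q} (hA : A * A = 1) (hB : B * B = 1) (hC : C * C = 1)
    (hAB : Commute A B) (hAC : Commute A C) (hBC : Commute B C) (s t : ZMod 2 × ZMod 2 × ZMod 2) :
    E A B C (s + t) = E A B C s * E A B C t := by
  unfold E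
  simp only [Prod.fst_add, Prod.snd_add]
  rw [pow_val_add hA, pow_val_add hB, pow_val_add hC]
  have h1 := ((hAB.pow_pow t.1.val s.2.1.val).eq)
  have h2 := ((hAC.pow_pow t.1.val s.2.2.val).eq)
  have h3 := ((hBC.pow_pow t.2.1.val s.2.2.val).eq)
  calc A ^ s.1.val * A ^ t.1.val * (B ^ s.2.1.val * B ^ t.2.1.val) * (C ^ s.2.2.val * C ^ t.2.2.val)
      = A ^ s.1.val * (A ^ t.1.val * B ^ s.2.1.val) * (B ^ t.2.1.val * C ^ s.2.2.val) * C ^ t.2.2.val := by group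
    _ = A ^ s.1.val * (B ^ s.2.1.val * A ^ t.1.val) * (C ^ s.2.2.val * B ^ t.2.1.val) * C ^ t.2.2.val := by rw [h1, h3]
    _ = A ^ s.1.val * B ^ s.2.1.val * (A ^ t.1.val * C ^ s.2.2.val) * B ^ t.2.1.val * C ^ t.2.2.val := by group
    _ = A ^ s.1.val * B ^ s.2.1.val * (C ^ s.2.2.val * A ^ t.1.val) * B ^ t.2.1.val * C ^ t.2.2.val := by rw [h2]
    _ = _ := by group

theorem E_inj {Q : Type*} [Group Q] {A B C : Q} (hA : A * A = 1) (hB : B * B = 1) (hC : C * C = 1)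
    (hAB : Commute A B) (hAC : Commute A C) (hBC : Commute B C)
    (h1 : A ≠ 1) (h2 : B ≠ 1) (h3 : C ≠ 1) (h4 : A * B ≠ 1) (h5 : A * C ≠ 1) (h6 : B * C ≠ 1) (h7 : A * B * C ≠ 1) :
    Function.Injective (E A B C) := by
  have h01 : ∀ i : ZMod 2, i = 0 ∨ i = 1 := by decide
  have h0 : ∀ t, E A B C t = 1 → t = 0 := by
    rintro ⟨i, j, k⟩ h
    have hi := h01 i
    have hj := h01 j
    have hk := h01 k
    have e0 : (0 : ZMod 2).val = 0 := rfl
    have e1 : (1 : ZMod 2).val = 1 := rfl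
    unfold E at h
    rcases hi with rfl | rfl <;> rcases hj with rfl | rfl <;> rcases hk with rfl | rfl <;>
      simp only [e0, e1, pow_zero, pow_one, one_mul, mul_one] at h
    · rfl
    all_goals exact absurd h (by assumption)
  intro s t h
  have h8 : E A B C (s + t) = 1 := by
    rw [E_add hA hB hC hAB hAC hBC, h, ← E_add hA hB hC hAB hAC hBC]
    have : ∀ t : ZMod 2 × ZMod 2 × ZMod 2, t + t = 0 := by decide
    rw [this]; simp [E]
  have h9 := h0 _ h8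
  have : ∀ s t : ZMod 2 × ZMod 2 × ZMod 2, s + t = 0 → s = t := by decide
  exact this _ _ h9

/-- independent vectors of `F_2^3` -/
def Lin (u v w : ZMod 2 × ZMod 2 × ZMod 2) : Prop :=
  u ≠ 0 ∧ v ≠ 0 ∧ w ≠ 0 ∧ u + v ≠ 0 ∧ u + w ≠ 0 ∧ v + w ≠ 0 ∧ u + v + w ≠ 0

instance (u v w : ZMod 2 × ZMod 2 × ZMod 2) : Decidable (Lin u v w) := by unfold Lin; infer_instance

variable {Y : Type u} [Group Y]

/-- coordinates -/
theorem coords [Finite Y] {K W : Subgroup Y} (nK : K.Normal) (le : K ≤ W) (card : Nat.card W = 8 * Nat.card K)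
    (sq : ∀ x ∈ W, x ^ 2 ∈ K) {a b c : Y} (ha : a ∈ W) (hb : b ∈ W) (hc : c ∈ W) (h : Ind K a b c) :
    ∃ Φ : Y → ZMod 2 × ZMod 2 × ZMod 2, (∀ x ∈ W, ∀ y ∈ W, Φ (x * y) = Φ x + Φ y) ∧ (∀ x ∈ W, Φ x = 0 ↔ x ∈ K) ∧
      Φ a = (1, 0, 0) ∧ Φ b = (0, 1, 0) ∧ Φ c = (0, 0, 1) ∧
      (∀ x ∈ W, (QuotientGroup.mk x : Y ⧸ K) = E (QuotientGroup.mk a) (QuotientGroup.mk b) (QuotientGroup.mk c) (Φ x)) := by
  have m1 : ∀ x : Y, (QuotientGroup.mk x : Y ⧸ K) = 1 ↔ x ∈ K := fun x => QuotientGroup.eq_one_iff x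
  have msq : ∀ x ∈ W, (QuotientGroup.mk x : Y ⧸ K) * QuotientGroup.mk x = 1 := by
    intro x hx
    rw [← QuotientGroup.mk_mul, m1, ← pow_two]; exact sq x hx
  have mc : ∀ x ∈ W, ∀ y ∈ W, Commute (QuotientGroup.mk x : Y ⧸ K) (QuotientGroup.mk y) := by
    intro x hx y hy
    have h1 := msq _ (mul_mem hx hy)
    rw [QuotientGroup.mk_mul] at h1
    have hx1 := msq x hx
    have hy1 := msq y hy
    set X : Y ⧸ K := QuotientGroup.mk x
    set Z : Y ⧸ K := QuotientGroup.mk y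
    have hx2 : X⁻¹ = X := inv_eq_of_mul_eq_one_left hx1
    have hy2 : Z⁻¹ = Z := inv_eq_of_mul_eq_one_left hy1
    have h3 : (X * Z)⁻¹ = X * Z := inv_eq_of_mul_eq_one_left h1
    rw [mul_inv_rev, hx2, hy2] at h3
    exact h3.symm
  obtain ⟨i1, i2, i3, i4, i5, i6, i7⟩ := h
  set A : Y ⧸ K := QuotientGroup.mk a with hA
  set B : Y ⧸ K := QuotientGroup.mk b with hB
  set C : Y ⧸ K := QuotientGroup.mk c with hC
  have hinj : Function.Injective (E A B C) := E_inj (msq a ha) (msq b hb) (msq c hc) (mc a ha b hb) (mc a ha c hc)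
    (mc b hb c hc) (by rw [hA, Ne, m1]; exact i1) (by rw [hB, Ne, m1]; exact i2) (by rw [hC, Ne, m1]; exact i3)
    (by rw [hA, hB, ← QuotientGroup.mk_mul, Ne, m1]; exact i4) (by rw [hA, hC, ← QuotientGroup.mk_mul, Ne, m1]; exact i5)
    (by rw [hB, hC, ← QuotientGroup.mk_mul, Ne, m1]; exact i6)
    (by rw [hA, hB, hC, ← QuotientGroup.mk_mul, ← QuotientGroup.mk_mul, Ne, m1]; exact i7)
  have hadd := E_add (msq a ha) (msq b hb) (msq c hc) (mc a ha b hb) (mc a ha c hc) (mc b hb c hc)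
  -- the image of `W`
  have hcW : Nat.card (W.map (QuotientGroup.mk' K)) = 8 := by
    have h1 := card_map_mk le
    rw [card] at h1
    have : 0 < Nat.card K := Nat.card_pos
    have h2 : Nat.card K * Nat.card (W.map (QuotientGroup.mk' K)) = Nat.card K * 8 := by rw [h1]; ring
    exact Nat.eq_of_mul_eq_mul_left this h2
  have hsub : Set.range (E A B C) ⊆ (W.map (QuotientGroup.mk' K) : Set (Y ⧸ K)) := by
    rintro _ ⟨t, rfl⟩
    unfold E
    have e : ∀ x ∈ W, (QuotientGroup.mk x : Y ⧸ K) ∈ W.map (QuotientGroup.mk' K) := fun x hx => mem_map_of_mem _ hx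
    exact mul_mem (mul_mem (pow_mem (e a ha) _) (pow_mem (e b hb) _)) (pow_mem (e c hc) _)
  have hcr : (Set.range (E A B C)).ncard = 8 := by
    rw [← Set.image_univ, Set.ncard_image_of_injective _ hinj, Set.ncard_univ, Nat.card_eq_fintype_card]
    decide
  have heq : Set.range (E A B C) = (W.map (QuotientGroup.mk' K) : Set (Y ⧸ K)) := by
    apply Set.eq_of_subset_of_ncard_le hsub
    · rw [hcr]
      have : (W.map (QuotientGroup.mk' K) : Set (Y ⧸ K)).ncard = Nat.card (W.map (QuotientGroup.mk' K)) := by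
        rw [← Nat.card_coe_set_eq]; rfl
      rw [this, hcW]
  have hex : ∀ x ∈ W, ∃ t, E A B C t = QuotientGroup.mk x := by
    intro x hx
    have h1 : (QuotientGroup.mk x : Y ⧸ K) ∈ (W.map (QuotientGroup.mk' K) : Set (Y ⧸ K)) := mem_map_of_mem _ hx
    rw [← heq] at h1
    exact h1
  classical
  let Φ : Y → ZMod 2 × ZMod 2 × ZMod 2 := fun x => if hx : x ∈ W then (hex x hx).choose else 0
  have hΦ : ∀ x ∈ W, E A B C (Φ x) = QuotientGroup.mk x := by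
    intro x hx
    have : Φ x = (hex x hx).choose := dif_pos hx
    rw [this]; exact (hex x hx).choose_spec
  have E0 : E A B C 0 = 1 := by simp [E]
  refine ⟨Φ, ?_, ?_, ?_, ?_, ?_, fun x hx => (hΦ x hx).symm⟩
  · intro x hx y hy
    apply hinj
    rw [hadd, hΦ _ (mul_mem hx hy), hΦ x hx, hΦ y hy, QuotientGroup.mk_mul]
  · intro x hx
    rw [← m1, ← hΦ x hx, ← E0]
    exact ⟨fun h => by rw [h], fun h => hinj h⟩
  · apply hinj; rw [hΦ a ha]
    have e1 : (1 : ZMod 2).val = 1 := rfl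
    unfold E; simp [e1, hA]
  · apply hinj; rw [hΦ b hb]
    have e1 : (1 : ZMod 2).val = 1 := rfl
    unfold E; simp [e1, hB]
  · apply hinj; rw [hΦ c hc]
    have e1 : (1 : ZMod 2).val = 1 := rfl
    unfold E; simp [e1, hC]

/-- `Φ` is a coordinate map on `W / K` with respect to the basis `a, b, c` -/
structure Coord (K W : Subgroup Y) (a b c : Y) (Φ : Y → ZMod 2 × ZMod 2 × ZMod 2) : Prop where
  nK : K.Normal
  nW : W.Normal
  le : K ≤ W
  ha : a ∈ W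
  hb : b ∈ W
  hc : c ∈ W
  add : ∀ x ∈ W, ∀ y ∈ W, Φ (x * y) = Φ x + Φ y
  ker : ∀ x ∈ W, Φ x = 0 ↔ x ∈ K
  ea : Φ a = (1, 0, 0)
  eb : Φ b = (0, 1, 0)
  ec : Φ c = (0, 0, 1)
  dec : ∀ x ∈ W, ∃ k ∈ K, x = E a b c (Φ x) * k

theorem exists_coord [Finite Y] {L : Type v} [Group L] {π : Y →* L} {K W : Subgroup Y} (N : Nat8 π K W) {a b c : Y}
    (ha : a ∈ W) (hb : b ∈ W) (hc : c ∈ W) (h : Ind K a b c) : ∃ Φ, Coord K W a b c Φ := by
  have nK := N.nK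
  obtain ⟨Φ, h1, h2, h3, h4, h5, h6⟩ := coords N.nK N.le N.card N.sq ha hb hc h
  refine ⟨Φ, ⟨N.nK, N.nW, N.le, ha, hb, hc, h1, h2, h3, h4, h5, fun x hx => ?_⟩⟩
  refine ⟨(E a b c (Φ x))⁻¹ * x, ?_, by group⟩
  have h7 := h6 x hx
  have h8 : (QuotientGroup.mk (E a b c (Φ x)) : Y ⧸ K) = QuotientGroup.mk x := by
    rw [h7]; rfl
  exact QuotientGroup.eq.mp h8

namespace Coord

variable {K W : Subgroup Y} {a b c : Y} {Φ : Y → ZMod 2 × ZMod 2 × ZMod 2}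

theorem one (C : Coord K W a b c Φ) : Φ 1 = 0 := (C.ker 1 (one_mem _)).mpr (one_mem _)

theorem inv (C : Coord K W a b c Φ) {x : Y} (hx : x ∈ W) : Φ x⁻¹ = Φ x := by
  have h1 := C.add x hx x⁻¹ (inv_mem hx)
  rw [mul_inv_cancel, C.one] at h1
  have : ∀ s t : ZMod 2 × ZMod 2 × ZMod 2, 0 = s + t → t = s := by decide
  exact this _ _ h1

theorem rel (C : Coord K W a b c Φ) {x y : Y} (hx : x ∈ W) (hy : y ∈ W) : x * y⁻¹ ∈ K ↔ Φ x = Φ y := by
  rw [← C.ker _ (mul_mem hx (inv_mem hy)), C.add x hx _ (inv_mem hy), C.inv hy]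
  have : ∀ s t : ZMod 2 × ZMod 2 × ZMod 2, s + t = 0 ↔ s = t := by decide
  exact this _ _

theorem mulmem (C : Coord K W a b c Φ) {x y : Y} (hx : x ∈ W) (hy : y ∈ W) : x * y ∈ K ↔ Φ x = Φ y := by
  rw [← C.ker _ (mul_mem hx hy), C.add x hx _ hy]
  have : ∀ s t : ZMod 2 × ZMod 2 × ZMod 2, s + t = 0 ↔ s = t := by decide
  exact this _ _

theorem ind_iff (C : Coord K W a b c Φ) {x y z : Y} (hx : x ∈ W) (hy : y ∈ W) (hz : z ∈ W) :
    Ind K x y z ↔ Lin (Φ x) (Φ y) (Φ z) := by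
  unfold Ind Lin
  rw [← C.ker x hx, ← C.ker y hy, ← C.ker z hz, ← C.ker _ (mul_mem hx hy), ← C.ker _ (mul_mem hx hz),
    ← C.ker _ (mul_mem hy hz), ← C.ker _ (mul_mem (mul_mem hx hy) hz), C.add x hx y hy, C.add x hx z hz,
    C.add y hy z hz, C.add _ (mul_mem hx hy) z hz, C.add x hx y hy]

theorem conj (C : Coord K W a b c Φ) (g : Y) {x : Y} (hx : x ∈ W) :
    Φ (g * x * g⁻¹) = (Φ x).1 • Φ (g * a * g⁻¹) + (Φ x).2.1 • Φ (g * b * g⁻¹) + (Φ x).2.2 • Φ (g * c * g⁻¹) := by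
  have hadd : ∀ x ∈ W, ∀ y ∈ W, Φ (g * (x * y) * g⁻¹) = Φ (g * x * g⁻¹) + Φ (g * y * g⁻¹) := by
    intro x hx y hy
    rw [← C.add _ (C.nW.conj_mem x hx g) _ (C.nW.conj_mem y hy g)]
    congr 1; group
  have hk : ∀ x ∈ K, Φ (g * x * g⁻¹) = 0 := fun x hx =>
    (C.ker _ (C.le (C.nK.conj_mem x hx g))).mpr (C.nK.conj_mem x hx g)
  have hp : ∀ x ∈ W, ∀ i : ZMod 2, Φ (g * x ^ i.val * g⁻¹) = i • Φ (g * x * g⁻¹) := by
    intro x hx i
    have h01 : ∀ i : ZMod 2, i = 0 ∨ i = 1 := by decide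
    rcases h01 i with rfl | rfl
    · have e0 : (0 : ZMod 2).val = 0 := rfl
      rw [e0, pow_zero, zero_smul]
      exact hk 1 (one_mem _)
    · have e1 : (1 : ZMod 2).val = 1 := rfl
      rw [e1, pow_one, one_smul]
  obtain ⟨k, hkK, hxk⟩ := C.dec x hx
  have h1 := pow_mem C.ha (Φ x).1.val
  have h2 := pow_mem C.hb (Φ x).2.1.val
  have h3 := pow_mem C.hc (Φ x).2.2.val
  have h4 : Φ (g * x * g⁻¹) = Φ (g * (E a b c (Φ x) * k) * g⁻¹) := by rw [← hxk]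
  have h5 : E a b c (Φ x) ∈ W := mul_mem (mul_mem h1 h2) h3
  rw [h4, hadd _ h5 _ (C.le hkK), hk k hkK, add_zero]
  unfold E
  rw [hadd _ (mul_mem h1 h2) _ h3, hadd _ h1 _ h2, hp a C.ha, hp b C.hb, hp c C.hc]

/-- an independent pair extends to a basis -/
theorem third (C : Coord K W a b c Φ) {y : Y} (hy : y ∈ W) (h1 : y ∉ K) (h2 : a * y ∉ K) :
    Ind K a y b ∨ Ind K a y c := by
  rw [C.ind_iff C.ha hy C.hb, C.ind_iff C.ha hy C.hc, C.ea, C.eb, C.ec]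
  rw [← C.ker y hy] at h1
  rw [← C.ker _ (mul_mem C.ha hy), C.add a C.ha y hy, C.ea] at h2
  have : ∀ v : ZMod 2 × ZMod 2 × ZMod 2, v ≠ 0 → (1, 0, 0) + v ≠ 0 →
      Lin (1, 0, 0) v (0, 1, 0) ∨ Lin (1, 0, 0) v (0, 0, 1) := by
    decide
  exact this _ h1 h2

end Coord

end Cfsg.Agent.Lib.H22NB
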