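import Cfsg.Agent.Lib.PConstrained
import Cfsg.Agent.Lib.Critical2
import Cfsg.Agent.Lib.BaerTrick
import Cfsg.Agent.Lib.Cores

/-!
`A`-invariant `p'`-subgroups of a `p`-constrained group, `p` odd, `A` containing all elements of order `p`
of its centralizer (seat helper22).
-/

set_option autoImplicit false
set_option linter.unusedSectionVars false

open Subgroup Cfsg

namespace Cfsg.Agent.Lib.H22OddSig

open Cfsg.Agent.Lib.Components Cfsg.Agent.Lib.Layer Cfsg.Agent.Lib.PConstrained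

variable {X : Type*} [Group X] [Finite X] {p : ℕ} [hp : Fact p.Prime]

theorem eq_bot (hp2 : p ≠ 2) {P : Subgroup X} (hPn : P.Normal) (hPp : IsPGroup p ↥P)
    (hC : centralizer (P : Set X) ≤ P) {A Q : Subgroup X} (hA : IsPGroup p ↥A)
    (hΩ : ∀ x ∈ centralizer (A : Set X), x ^ p = 1 → x ∈ A) (hQ : ¬ p ∣ Nat.card ↥Q)
    (hAQ : A ≤ normalizer (Q : Set X)) : Q = ⊥ := by
  classical
  have hcop : (Nat.card ↥Q).Coprime p := (hp.out.coprime_iff_not_dvd.mpr hQ).symm
  have hPQ : ∀ x ∈ P, x ∈ Q → x = 1 := by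
    intro x hxP hxQ
    obtain ⟨n, hn⟩ := hPp ⟨x, hxP⟩
    have hn' : x ^ p ^ n = 1 := congrArg Subtype.val hn
    have h1 : x ^ Nat.card ↥Q = 1 :=
      congrArg Subtype.val (pow_card_eq_one' (x := (⟨x, hxQ⟩ : ↥Q)))
    have h3 : orderOf x ∣ Nat.gcd (p ^ n) (Nat.card ↥Q) :=
      Nat.dvd_gcd (orderOf_dvd_of_pow_eq_one hn') (orderOf_dvd_of_pow_eq_one h1)
    rw [(Nat.Coprime.pow_left n hcop.symm).gcd_eq_one, Nat.dvd_one, orderOf_eq_one_iff] at h3
    exact h3
  obtain ⟨D, hDc, hDe, hDcl, hDaut⟩ := Critical2.exists_critical_omega hp2 hPp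
  set D₀ : Subgroup X := D.map P.subtype with hD₀
  have hD₀n : D₀.Normal := map_subtype_normal hDc
  have hD₀P : D₀ ≤ P := map_subtype_le _
  set φ : X →* MulAut ↥D₀ := MulAut.conjNormal with hφ
  have hφv : ∀ (g : X) (x : ↥D₀), ((φ g x : ↥D₀) : X) = g * x * g⁻¹ := fun g x =>
    MulAut.conjNormal_apply g x
  by_cases hne : ∃ a ∈ Q.map φ, ∃ x : ↥D₀, a x ≠ x
  · exfalso
    obtain ⟨x, hx, b, hb, hbx⟩ := BaerTrick.main (K := ↥D₀) hp2
      (hPp.of_injective (Subgroup.inclusion hD₀P) (Subgroup.inclusion_injective hD₀P))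
      (by
        rintro ⟨_, x, hx, rfl⟩ ⟨_, y, hy, rfl⟩
        rw [mem_center_iff]
        rintro ⟨_, z, hz, rfl⟩
        apply Subtype.ext
        have h1 := mem_centralizer_iff.mp (hDcl x hx y) z hz
        have h2 := congrArg (fun t : ↥P => (t : X)) h1
        exact h2)
      (by
        rintro ⟨_, x, hx, rfl⟩
        apply Subtype.ext
        have h2 := congrArg (fun t : ↥P => (t : X)) (hDe x hx)
        exact h2)
      (A.map φ) (Q.map φ) (hA.map φ)
      (hcop.coprime_dvd_left (Cores.card_map_dvd' Q φ))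
      ((Subgroup.map_mono hAQ).trans (Subgroup.le_normalizer_map φ)) hne
    obtain ⟨g, hg, rfl⟩ := hb
    have h1 : (x : X) ∈ centralizer (A : Set X) := by
      rw [mem_centralizer_iff]
      intro a ha
      have h2 := congrArg Subtype.val (hx (φ a) ⟨a, ha, rfl⟩)
      rw [hφv] at h2
      calc a * (x : X) = (a * x * a⁻¹) * a := by group
        _ = x * a := by rw [h2]
    have h2 : (x : X) ^ p = 1 := by
      obtain ⟨y, hy, hyx⟩ := x.2
      rw [← hyx]
      exact congrArg Subtype.val (hDe y hy)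
    have h3 : (x : X) ∈ A := hΩ x h1 h2
    have h4 : g * x * g⁻¹ * (x : X)⁻¹ ∈ Q := by
      have h5 := (mem_normalizer_iff.mp (hAQ h3) g⁻¹).mp (inv_mem hg)
      have e : g * x * g⁻¹ * (x : X)⁻¹ = g * (x * g⁻¹ * (x : X)⁻¹) := by group
      rw [e]
      exact mul_mem hg h5
    have h5 : g * x * g⁻¹ * (x : X)⁻¹ ∈ P :=
      mul_mem (hPn.conj_mem _ (hD₀P x.2) g) (inv_mem (hD₀P x.2))
    apply hbx
    apply Subtype.ext
    rw [hφv]
    exact mul_inv_eq_one.mp (hPQ _ h5 h4)
  · push Not at hne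
    rw [Subgroup.eq_bot_iff_forall]
    intro g hg
    have h1 : (MulAut.conjNormal g : MulAut ↥P) = 1 := by
      apply hDaut
      · have h2 : orderOf (MulAut.conjNormal g : MulAut ↥P) ∣ orderOf g :=
          orderOf_map_dvd (MulAut.conjNormal : X →* MulAut ↥P) g
        have h3 : orderOf g ∣ Nat.card ↥Q := Subgroup.orderOf_dvd_natCard Q hg
        exact hcop.coprime_dvd_left (h2.trans h3)
      · intro x hx
        have h2 := hne (φ g) ⟨g, hg, rfl⟩ ⟨(x : X), ⟨x, hx, rfl⟩⟩
        apply Subtype.ext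
        rw [MulAut.conjNormal_apply]
        have h3 := congrArg Subtype.val h2
        rw [hφv] at h3
        exact h3
    apply hPQ g _ hg
    apply hC
    rw [mem_centralizer_iff]
    intro x hx
    have h2 := congrArg (fun φ : MulAut ↥P => ((φ ⟨x, hx⟩ : ↥P) : X)) h1
    simp only [MulAut.conjNormal_apply, MulAut.one_apply] at h2
    calc x * g = (g * x * g⁻¹) * g := by rw [h2]
      _ = g * x := by group

theorem le_pPrimeCore (hp2 : p ≠ 2) (hX : IsPConstrained p X)
    {A Q : Subgroup X} (hA : IsPGroup p ↥A)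
    (hΩ : ∀ x ∈ centralizer (A : Set X), orderOf x = p → x ∈ A) (hQ : ¬ p ∣ Nat.card ↥Q)
    (hAQ : A ≤ normalizer (Q : Set X)) : Q ≤ pPrimeCore p X := by
  set π := QuotientGroup.mk' (pPrimeCore p X) with hπ
  have h1 : Q.map π = ⊥ := by
    refine eq_bot hp2 (P := pCore p (X ⧸ pPrimeCore p X)) inferInstance
      (Cores.isPGroup_pCore p _) (isPConstrained_iff.mp hX) (hA.map π) ?_ ?_ 
      ((Subgroup.map_mono hAQ).trans (Subgroup.le_normalizer_map π))
    · intro y hy hyp
      rw [← map_centralizer_of_pgroup not_dvd_card_pPrimeCore hA] at hy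
      obtain ⟨x, hx, rfl⟩ := hy
      set m := Nat.card ↥(pPrimeCore p X) with hm
      have hmp : Nat.Coprime m p := Cores.coprime_card_pPrimeCore p X
      obtain ⟨v, -, hv⟩ := Nat.exists_mul_mod_eq_one_of_coprime hmp hp.out.one_lt
      have hxp : x ^ p ∈ pPrimeCore p X := by
        rw [← map_pow] at hyp
        exact (QuotientGroup.eq_one_iff _).mp hyp
      have h2 : (x ^ p) ^ m = 1 :=
        congrArg Subtype.val (pow_card_eq_one' (x := (⟨_, hxp⟩ : ↥(pPrimeCore p X))))
      have h3 : (x ^ (m * v)) ^ p = 1 := by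
        rw [← pow_mul, show m * v * p = p * m * v by ring, pow_mul, pow_mul, h2, one_pow]
      have h4 : π (x ^ (m * v)) = π x := by
        have hyp' : π x ^ p = 1 := hyp
        rw [map_pow, ← Nat.div_add_mod (m * v) p, hv, pow_add, pow_mul, hyp', one_pow, one_mul, pow_one]
      refine ⟨x ^ (m * v), ?_, h4⟩
      by_cases h5 : x ^ (m * v) = 1
      · rw [h5]; exact one_mem _
      · exact hΩ _ (pow_mem hx _) (orderOf_eq_prime h3 h5)
    · intro h
      exact hQ (h.trans (Cores.card_map_dvd' Q π))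
  rw [Subgroup.map_eq_bot_iff, hπ, QuotientGroup.ker_mk'] at h1
  exact h1

end Cfsg.Agent.Lib.H22OddSig
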