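import Cfsg.Agent.Lib.H55Sft3
import Cfsg.Agent.Lib.H22Sft0c
import Cfsg.Agent.Lib.SSF2Grow

/-!
# Uniqueness of the pure members of type `w` (helper22)
-/

set_option autoImplicit false
set_option linter.unusedSectionVars false

namespace Cfsg.Agent.Lib.H22SftU

open Subgroup commutatorElement Cfsg Cfsg.Agent.Lib Cfsg.Agent.Lib.SubgroupTools
open Cfsg.Agent.Lib.LocBase (pCoreOf_le isPGroup_pCoreOf le_normalizer_pCoreOf normalizer_le_normalizer_pCoreOf
  le_normalizer_inf IsSyl)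
open Cfsg.Agent.Lib.CoprimeHyper (elemAb_coprime elemAb_solvable)
open Cfsg.Agent.Lib.Signalizer (fam_normalizer theta_normalizer theta_mem mem_of_le bot_mem
  exists_isMaxMember_ge IsMaxMember transitivity)
open Cfsg.Agent.Lib.H55Sft
open scoped Pointwise

universe u

variable {G : Type u} [Group G] [Finite G] {r : ℕ} [hr : Fact r.Prime] {A : Subgroup G}
  {θ : G → Subgroup G}

/-- members of an odd functor have odd order -/
theorem member_odd (hA : IsElementaryAbelian r A) (hA3 : r ^ 3 ≤ Nat.card A)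
    (hodd : ∀ a ∈ A, a ≠ 1 → Odd (Nat.card (θ a)))
    {X : Subgroup G} (hX : X ∈ signalizerFamily r A θ) : Odd (Nat.card X) := by
  by_contra hcon
  rw [Nat.not_odd_iff_even, even_iff_two_dvd] at hcon
  obtain ⟨a, ha, ha1, hd⟩ := Sft0.exists_dvd_card hA (Sft0.sq_le hA3) hX.2.1 (fam_normalizer hX)
    Nat.prime_two hcon
  have h1 := hd.trans (Subgroup.card_dvd_of_le (hX.2.2.2 a ha ha1))
  have h2 := hodd a ha ha1
  rw [Nat.odd_iff] at h2
  omega

theorem mx_ne_bot (c : Ctx r A θ) {M : Subgroup G} (hM : IsMx r A θ M) : M ≠ ⊥ := by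
  rintro rfl
  apply c.inc
  refine ⟨⊥, hM.1, ?_⟩
  intro a ha ha1
  exact (hM.2 (θ a) (theta_mem c.hθ ha ha1) bot_le).le

theorem pure_pCoreOf_ne_bot (c : Ctx r A θ) {M : Subgroup G} (hM : IsMx r A θ M) {w : ℕ}
    (hp : Pure w M) : pCoreOf w M ≠ ⊥ := by
  intro h0
  apply mx_ne_bot c hM
  apply SSF2.eq_bot_of_pCoreOf hM.1.1
  intro t ht
  by_cases htw : t = w
  · rw [htw]; exact h0
  · exact hp t ht htw

/-- **Uniqueness**: a characteristic subgroup functor `K` normal in the pure members of type `w` -/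
theorem unique_pure_of (c : Ctx r A θ) {w : ℕ} [hw : Fact w.Prime] (K : Subgroup G → Subgroup G)
    (hK1 : ∀ S : Subgroup G, IsPGroup w S → S ≠ ⊥ → K S ≠ ⊥) (hKle : ∀ S, K S ≤ S)
    (hKc : ∀ (S : Subgroup G) (g : G), K (S.map (MulAut.conj g).toMonoidHom) =
      (K S).map (MulAut.conj g).toMonoidHom)
    {M M' : Subgroup G} (hM : IsMM r A θ M) (hM' : IsMM r A θ M') (hp : Pure w M) (hp' : Pure w M')
    (hMK : ∀ S : Subgroup G, S ≤ M → IsPGroup w S → ¬ w ∣ S.relIndex M →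
      A ≤ normalizer (S : Set G) → M ≤ normalizer (K S : Set G))
    (hMK' : ∀ S : Subgroup G, S ≤ M' → IsPGroup w S → ¬ w ∣ S.relIndex M' →
      A ≤ normalizer (S : Set G) → M' ≤ normalizer (K S : Set G)) : M = M' := by
  have hKn : ∀ S : Subgroup G, normalizer (S : Set G) ≤ normalizer (K S : Set G) := by
    intro S g hg
    rw [mem_normalizer_iff_map_conj_eq] at hg ⊢
    have h1 := hKc S g
    have h2 : S.map (MulAut.conj g).toMonoidHom = S := hg
    rw [h2] at h1
    exact h1.symm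
  -- a Sylow `w`-subgroup of `M` which is a maximal `w`-member
  have key : ∀ M : Subgroup G, IsMM r A θ M → Pure w M →
      (∀ S : Subgroup G, S ≤ M → IsPGroup w S → ¬ w ∣ S.relIndex M →
      A ≤ normalizer (S : Set G) → M ≤ normalizer (K S : Set G)) →
      ∃ S, IsMaxMember r A θ w S ∧ S ≠ ⊥ ∧ M ≤ normalizer (K S : Set G) ∧ S ≤ M := by
    intro M hM hp hMK
    have hwM : pCoreOf w M ≠ ⊥ := pure_pCoreOf_ne_bot c hM.1 hp
    obtain ⟨S, hSM, hSw, hSi, hSA⟩ := CoprimeAction.exists_invariant_sylow (fam_normalizer hM.1.1)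
      (elemAb_coprime c.hA hM.1.1.2.1) (Or.inl (elemAb_solvable c.hA)) w
    have hSm : S ∈ signalizerFamily r A θ := mem_of_le hM.1.1 hSM hSA
    have hZ := hMK S hSM hSw hSi hSA
    have hS1 : S ≠ ⊥ := by
      rintro rfl
      rw [relIndex_bot_left] at hSi
      apply hSi
      rcases (isPGroup_pCoreOf w M).card_eq_or_dvd with h1 | h1
      · exact absurd (Subgroup.card_eq_one.1 h1) hwM
      · exact h1.trans (Subgroup.card_dvd_of_le (pCoreOf_le M))
    have hZ1 := hK1 S hSw hS1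
    obtain ⟨R, hR, hSR⟩ := exists_isMaxMember_ge hSm hSw
    have hSeq : S = R := by
      by_contra hne
      -- normalizers grow
      have hnil : Group.IsNilpotent ↥R := hR.2.1.isNilpotent
      have hlt : S.subgroupOf R < ⊤ := by
        rw [lt_top_iff_ne_top]
        intro h2
        rw [subgroupOf_eq_top] at h2
        exact hne (le_antisymm hSR h2)
      have h2 := Group.normalizerCondition_of_isNilpotent (G := ↥R) (S.subgroupOf R) hlt
      obtain ⟨x, hx, hxS⟩ := SetLike.exists_of_lt h2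
      rw [← subgroupOf_normalizer_eq hSR] at hx
      -- `N_R(S) ≤ M`
      have hNm : R ⊓ normalizer (S : Set G) ∈ signalizerFamily r A θ :=
        mem_of_le hR.1 inf_le_left (le_normalizer_inf (fam_normalizer hR.1) (hSA.trans le_normalizer))
      have hNM : R ⊓ normalizer (S : Set G) ≤ M :=
        hM.1.le_of_norm c ((hKle S).trans hSM) hZ1 (hSA.trans (hKn S)) hZ hNm
          (inf_le_right.trans (hKn S))
      have hNp : IsPGroup w ↥(R ⊓ normalizer (S : Set G) : Subgroup G) := hR.2.1.to_le inf_le_left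
      have hSN : S ≤ R ⊓ normalizer (S : Set G) := le_inf hSR le_normalizer
      have hsyl : LocBase.IsSyl w S M := ⟨hSM, hSw, hSi⟩
      have h3 := hsyl.eq_of_le hNp hNM hSN
      apply hxS
      rw [mem_subgroupOf, h3]
      exact ⟨x.2, hx⟩
    rw [← hSeq] at hR
    exact ⟨S, hR, hS1, hZ, hSM⟩
  obtain ⟨S, hS, hS1, hMZ, hSM⟩ := key M hM hp hMK
  obtain ⟨S', hS', hS1', hMZ', hSM'⟩ := key M' hM' hp' hMK'
  obtain ⟨d, hd, hdS⟩ := transitivity c.hA c.hA3 c.hθ hS hS'
  have hdM : d ∈ M := hM.2 hd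
  have hdS' : S.map (MulAut.conj d).toMonoidHom = S' := hdS
  have hMd : M.map (MulAut.conj d).toMonoidHom = M :=
    LocBase.map_conj_eq_of_mem (le_normalizer hdM)
  have h1 : M ≤ normalizer (K S' : Set G) := by
    rw [← hdS', hKc, ← LocBase.map_conj_normalizer]
    calc M = M.map (MulAut.conj d).toMonoidHom := hMd.symm
      _ ≤ _ := Subgroup.map_mono hMZ
  have hS'M : S' ≤ M := by
    rw [← hdS', ← hMd]
    exact Subgroup.map_mono hSM
  have h3 : M' ≤ M := hM.1.le_of_norm c ((hKle S').trans hS'M) (hK1 S' hS'.2.1 hS1')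
    ((fam_normalizer hS'.1).trans (hKn S')) h1 hM'.1.1 hMZ'
  exact hM'.1.2 M hM.1.1 h3

/-- **(U) for odd functors** -/
theorem unique_pure_odd (c : Ctx r A θ) (hodd : ∀ a ∈ A, a ≠ 1 → Odd (Nat.card (θ a)))
    {w : ℕ} (hw : w.Prime) {M M' : Subgroup G} (hM : IsMM r A θ M) (hM' : IsMM r A θ M')
    (hp : Pure w M) (hp' : Pure w M') : M = M' := by
  have hwf : Fact w.Prime := ⟨hw⟩
  have hMo := member_odd c.hA c.hA3 hodd hM.1.1
  have hMo' := member_odd c.hA c.hA3 hodd hM'.1.1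
  have hw2 : w ≠ 2 := by
    rintro rfl
    rcases (isPGroup_pCoreOf 2 M).card_eq_or_dvd with h1 | h1
    · exact pure_pCoreOf_ne_bot c hM.1 hp (Subgroup.card_eq_one.1 h1)
    · have h2 := h1.trans (Subgroup.card_dvd_of_le (pCoreOf_le M))
      rw [Nat.odd_iff] at hMo
      omega
  exact unique_pure_of c (ZJElem.ZC w) (fun S => SSF2.ZC_ne_bot) (ZJElem.ZC_le) (fun S g => SSF2.ZC_conj S g)
    hM hM' hp hp'
    (fun S h1 h2 h3 _ => SSF2.le_normalizer_ZC hw2 hM.1.1.1 hMo (SSF2.oOf_eq_bot_of_pure hM.1.1.1 hp) h1 h2 h3)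
    (fun S h1 h2 h3 _ => SSF2.le_normalizer_ZC hw2 hM'.1.1.1 hMo' (SSF2.oOf_eq_bot_of_pure hM'.1.1.1 hp') h1 h2 h3)

end Cfsg.Agent.Lib.H22SftU
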