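import Mathlib
import Cfsg.Agent.Lib.Components
import Cfsg.Agent.Lib.Layer
import Cfsg.Agent.Lib.CompRel
import Cfsg.Agent.Lib.PComponents
import Cfsg.Agent.Lib.CoprimeAction2
import Cfsg.Agent.Lib.Cores
import Cfsg.Agent.Lib.H32PGroup
import Cfsg.Agent.Lib.H32Cores

/-!
Unbalanced components (seat helper22): in a finite group `X` with a normal subgroup `H` such that
`O_{p'}(X) ∩ H = 1`, a normal `p'`-subgroup `D` of `C_H(a)`, `a` of order `p`, normalizes every component
of `H`, and it centralizes the components not normalized by `a` and those centralized by `a`.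
-/

set_option autoImplicit false
set_option linter.unusedSectionVars false

namespace Cfsg.Agent.Lib.H22Unbal

open Subgroup Cfsg Cfsg.Agent.Lib.Components Cfsg.Agent.Lib.Layer Cfsg.Agent.Lib.CompRel
  Cfsg.Agent.Lib.PComponents

variable {X : Type*} [Group X]

/-- conjugate subgroup -/
abbrev cj (g : X) (K : Subgroup X) : Subgroup X := K.map (MulAut.conj g).toMonoidHom

theorem mem_cj {g x : X} {K : Subgroup X} : x ∈ cj g K ↔ g⁻¹ * x * g ∈ K := by
  constructor
  · rintro ⟨y, hy, rfl⟩
    have : g⁻¹ * ((MulAut.conj g).toMonoidHom y) * g = y := by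
      simp only [MulEquiv.coe_toMonoidHom, MulAut.conj_apply]; group
    rw [this]; exact hy
  · intro h
    refine ⟨_, h, ?_⟩
    simp only [MulEquiv.coe_toMonoidHom, MulAut.conj_apply]; group

theorem conj_mem_cj {g x : X} {K : Subgroup X} (hx : x ∈ K) : g * x * g⁻¹ ∈ cj g K :=
  ⟨x, hx, by simp⟩

theorem cj_mul (g h : X) (K : Subgroup X) : cj g (cj h K) = cj (g * h) K := by
  ext x
  rw [mem_cj, mem_cj, mem_cj]
  have : h⁻¹ * (g⁻¹ * x * g) * h = (g * h)⁻¹ * x * (g * h) := by group
  rw [this]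

theorem cj_one (K : Subgroup X) : cj 1 K = K := by
  ext x
  rw [mem_cj]; simp

theorem cj_eq_iff {g : X} {K : Subgroup X} : cj g K = K ↔ g ∈ normalizer (K : Set X) :=
  map_conj_eq_iff

theorem cj_inj {g : X} {K L : Subgroup X} (h : cj g K = cj g L) : K = L := by
  have := congrArg (cj g⁻¹) h
  rw [cj_mul, cj_mul, inv_mul_cancel, cj_one, cj_one] at this
  exact this

variable [Finite X] {p : ℕ} [hp : Fact p.Prime]

/-- a normal subgroup of a component of order prime to `p` is trivial -/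
theorem eq_bot_of_le_component {H K N : Subgroup X} (hO : pPrimeCore p X ⊓ H = ⊥) (hK : IsComponent K)
    (hKH : K ≤ H) (hNK : N ≤ K) (hn : K ≤ normalizer (N : Set X)) (hN : ¬ p ∣ Nat.card ↥N) : N = ⊥ := by
  have h1 : N.IsSubnormal := by
    have h2 : (N.subgroupOf K).Normal := Subgroup.normal_subgroupOf_of_le_normalizer hn
    have h3 := h2.isSubnormal.trans' hK.1
    rwa [Subgroup.map_subgroupOf_eq_of_le hNK] at h3
  have h4 := subnormal_coprime_le_pPrimeCore (p := p) h1 (hp.out.coprime_iff_not_dvd.mpr hN).symm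
  rw [eq_bot_iff, ← hO]
  exact le_inf h4 (hNK.trans hKH)

/-- the centre of a component is a `p`-group -/
theorem center_isPGroup {H K : Subgroup X} (hO : pPrimeCore p X ⊓ H = ⊥) (hK : IsComponent K)
    (hKH : K ≤ H) : IsPGroup p ↥(K ⊓ centralizer (K : Set X)) := by
  set Z := K ⊓ centralizer (K : Set X) with hZ
  rw [IsPGroup.iff_card]
  refine ⟨_, Nat.eq_prime_pow_of_unique_prime_dvd (Nat.card_pos.ne') ?_⟩
  intro q hq hqd
  by_contra hne
  have := Fact.mk hq
  obtain ⟨z, hz⟩ := exists_prime_orderOf_dvd_card' (G := ↥Z) q hqd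
  have hzo : orderOf (z : X) = q := by rw [Subgroup.orderOf_coe]; exact hz
  have h1 : zpowers (z : X) = ⊥ := by
    refine eq_bot_of_le_component hO hK hKH ?_ ?_ ?_
    · rw [zpowers_le]; exact z.2.1
    · have h2 : (z : X) ∈ centralizer (K : Set X) := z.2.2
      refine le_trans ?_ (centralizer_le_normalizer' _)
      intro k hk
      rw [mem_centralizer_iff]
      intro y hy
      have h3 : zpowers (z : X) ≤ centralizer (K : Set X) := by rw [zpowers_le]; exact h2
      exact (mem_centralizer_iff.mp (h3 hy) k hk).symm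
    · rw [Nat.card_zpowers, hzo]
      intro h
      exact hne ((Nat.prime_dvd_prime_iff_eq hp.out hq).mp h).symm
  rw [zpowers_eq_bot] at h1
  rw [h1, orderOf_one] at hzo
  exact hq.one_lt.ne hzo

omit [Finite X] in
theorem center_isSubnormal {K : Subgroup X} (hK : IsComponent K) :
    (K ⊓ centralizer (K : Set X)).IsSubnormal := by
  have h2 : ((K ⊓ centralizer (K : Set X)).subgroupOf K).Normal := by
    apply Subgroup.normal_subgroupOf_of_le_normalizer
    intro k hk
    rw [mem_normalizer_iff]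
    intro x
    constructor
    · intro hx
      have : k * x * k⁻¹ = x := by
        have := mem_centralizer_iff.mp hx.2 k hk
        rw [this]; group
      rw [this]; exact hx
    · intro hx
      have h3 := mem_centralizer_iff.mp hx.2 k hk
      have : k * x * k⁻¹ = x := by
        have h4 : k * (k * x * k⁻¹) = k * (x) := by rw [h3]; group
        exact mul_left_cancel h4
      rw [this] at hx; exact hx
  have h3 := h2.isSubnormal.trans' hK.1
  rwa [Subgroup.map_subgroupOf_eq_of_le inf_le_left] at h3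

theorem center_le_pCore {H K : Subgroup X} (hO : pPrimeCore p X ⊓ H = ⊥) (hK : IsComponent K)
    (hKH : K ≤ H) : K ⊓ centralizer (K : Set X) ≤ pCore p X :=
  subnormal_pgroup_le_pCore (center_isSubnormal hK) (center_isPGroup hO hK hKH)

/-- if `Z < R` are normal subgroups of a `p`-group `P`, some element of `R` outside `Z` is central
modulo `Z` -/
theorem exists_central_mod {P : Type*} [Group P] [Finite P] (hP : IsPGroup p P) (R Z : Subgroup P)
    [hR : R.Normal] [hZ : Z.Normal] (hRZ : ¬ R ≤ Z) :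
    ∃ s ∈ R, s ∉ Z ∧ ∀ x : P, s⁻¹ * (x * s * x⁻¹) ∈ Z := by
  have h1 : IsPGroup p (P ⧸ Z) := hP.to_quotient Z
  have h2 : (R.map (QuotientGroup.mk' Z)).Normal := hR.map _ (QuotientGroup.mk'_surjective Z)
  have h3 : R.map (QuotientGroup.mk' Z) ≠ ⊥ := by
    intro h
    apply hRZ
    have := (Subgroup.map_eq_bot_iff _).mp h
    rwa [QuotientGroup.ker_mk'] at this
  obtain ⟨x, hx, hx1, hx2⟩ := H32PGroup.exists_mem_center_of_normal h1 _ h3
  obtain ⟨s, hs, rfl⟩ := hx
  refine ⟨s, hs, ?_, ?_⟩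
  · intro h
    apply hx1
    exact (QuotientGroup.eq_one_iff s).mpr h
  · intro y
    rw [← QuotientGroup.eq_one_iff (N := Z)]
    have h4 := (mem_center_iff.mp hx2) (QuotientGroup.mk' Z y)
    simp only [QuotientGroup.mk'_apply] at h4
    rw [QuotientGroup.mk_mul, QuotientGroup.mk_mul, QuotientGroup.mk_mul, QuotientGroup.mk_inv,
      QuotientGroup.mk_inv, h4]
    group

/-- an element of `p`-power order of a component `K`, noncentral, centralized modulo `Z(K)` by `a` -/
theorem exists_pElement {H K : Subgroup X} (hO : pPrimeCore p X ⊓ H = ⊥) (hK : IsComponent K)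
    (hKH : K ≤ H) {a : X} (ha : IsPGroup p ↥(zpowers a)) (haK : a ∈ normalizer (K : Set X)) :
    ∃ s ∈ K, s ∉ centralizer (K : Set X) ∧ (∃ n, s ^ p ^ n = 1) ∧
      s⁻¹ * (a * s * a⁻¹) ∈ K ⊓ centralizer (K : Set X) := by
  set N := normalizer (K : Set X) with hN
  set Z := K ⊓ centralizer (K : Set X) with hZ
  have hKN : K ≤ N := le_normalizer
  have hZN : Z ≤ N := inf_le_left.trans hKN
  have hNZ : N ≤ normalizer (Z : Set X) := by
    intro g hg
    rw [← cj_eq_iff, cj, hZ, Subgroup.map_inf _ _ _ (MulAut.conj g).injective]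
    rw [map_conj_centralizer]
    change cj g K ⊓ centralizer ((cj g K : Subgroup X) : Set X) = _
    rw [cj_eq_iff.mpr hg]
  have hZnor : (Z.subgroupOf N).Normal := Subgroup.normal_subgroupOf_of_le_normalizer hNZ
  have hKnor : (K.subgroupOf N).Normal := Subgroup.normal_subgroupOf_of_le_normalizer le_rfl
  have haz : zpowers a ≤ N := by rw [zpowers_le]; exact haK
  obtain ⟨P, hP⟩ := (ha.of_equiv (Subgroup.subgroupOfEquivOfLe haz).symm).exists_le_sylow
  have hPG : IsPGroup p ↥(P : Subgroup ↥N) := P.isPGroup'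
  set R : Subgroup ↥(P : Subgroup ↥N) := (K.subgroupOf N).subgroupOf (P : Subgroup ↥N) with hR
  set Z' : Subgroup ↥(P : Subgroup ↥N) := (Z.subgroupOf N).subgroupOf (P : Subgroup ↥N) with hZ'
  have hRn : R.Normal := inferInstance
  have hZn : Z'.Normal := inferInstance
  have hRZ : ¬ R ≤ Z' := by
    intro hle
    -- then `P ∩ K ≤ Z(K)`
    have h1 := H32Cores.not_dvd_relIndex_sylow_inf P (K.subgroupOf N)
    have h2 : (P : Subgroup ↥N) ⊓ K.subgroupOf N ≤ Z.subgroupOf N := by
      intro x hx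
      exact @hle ⟨x, hx.1⟩ hx.2
    have h3 : ¬ p ∣ (Z.subgroupOf N).relIndex (K.subgroupOf N) := fun h =>
      h1 (h.trans (Subgroup.relIndex_dvd_of_le_left _ h2))
    have h4 : (Z.subgroupOf N).relIndex (K.subgroupOf N) = Z.relIndex K := by
      rw [Subgroup.relIndex_subgroupOf hKN]
    rw [h4] at h3
    have h5 : (Z.subgroupOf K).Normal := Subgroup.normal_subgroupOf_of_le_normalizer (hKN.trans hNZ)
    have hcore : pPrimeCore p ↥K = ⊥ := by
      have h6 := map_pPrimeCore_le_of_subnormal p hK.1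
      have h7 : (pPrimeCore p ↥K).map K.subtype ≤ H := (Subgroup.map_subtype_le _).trans hKH
      have h8 : (pPrimeCore p ↥K).map K.subtype = ⊥ := by
        rw [eq_bot_iff, ← hO]; exact le_inf h6 h7
      rwa [Subgroup.map_eq_bot_iff_of_injective _ K.subtype_injective] at h8
    have h9 := eq_top_of_normal_of_index hK.2 hcore (N := Z.subgroupOf K) h3
    rw [Subgroup.subgroupOf_eq_top] at h9
    exact component_not_le_centralizer_self hK (h9.trans inf_le_right)
  obtain ⟨s, hs, hsZ, hc⟩ := exists_central_mod hPG R Z' hRZ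
  refine ⟨((s : ↥N) : X), hs, ?_, ?_, ?_⟩
  · intro h
    exact hsZ (show ((s : ↥N) : X) ∈ Z from ⟨hs, h⟩)
  · obtain ⟨n, hn⟩ := hPG s
    refine ⟨n, ?_⟩
    have := congrArg (fun t : ↥(P : Subgroup ↥N) => ((t : ↥N) : X)) hn
    simpa using this
  · have h1 := hc ⟨⟨a, haK⟩, hP (show (⟨a, haK⟩ : ↥N) ∈ (zpowers a).subgroupOf N from mem_zpowers a)⟩
    exact h1

/-! ### The setting -/

/-- `D` is a normal `p'`-subgroup of `C_H(a)`, where `a` of order `p` normalizes `H` and
`O_{p'}(X) ∩ H = 1` -/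
structure Setting (p : ℕ) (H : Subgroup X) (a : X) (D : Subgroup X) : Prop where
  core : pPrimeCore p X ⊓ H = ⊥
  ord : orderOf a = p
  norm : a ∈ normalizer (H : Set X)
  le : D ≤ H
  cent : D ≤ centralizer {a}
  nor : H ⊓ centralizer {a} ≤ normalizer (D : Set X)
  card : ¬ p ∣ Nat.card ↥D

namespace Setting

variable {H D K : Subgroup X} {a : X}

theorem comm (h : Setting p H a D) {d : X} (hd : d ∈ D) : a * d = d * a :=
  (mem_centralizer_singleton_iff.mp (h.cent hd)).symm

include hp

theorem isPGroup (h : Setting p H a D) : IsPGroup p ↥(zpowers a) := by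
  rw [IsPGroup.iff_card]
  exact ⟨1, by rw [Nat.card_zpowers, h.ord, pow_one]⟩

theorem D_inf (h : Setting p H a D) {x : X} (hx : x ∈ D) (hx' : ∃ n, x ^ p ^ n = 1) : x = 1 := by
  obtain ⟨n, hn⟩ := hx'
  have h1 : x ^ Nat.card ↥D = 1 := by
    have := pow_card_eq_one' (x := (⟨x, hx⟩ : ↥D))
    exact congrArg Subtype.val this
  have h2 : Nat.Coprime (p ^ n) (Nat.card ↥D) :=
    Nat.Coprime.pow_left n (hp.out.coprime_iff_not_dvd.mpr h.card)
  have h3 : orderOf x ∣ Nat.gcd (p ^ n) (Nat.card ↥D) :=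
    Nat.dvd_gcd (orderOf_dvd_of_pow_eq_one hn) (orderOf_dvd_of_pow_eq_one h1)
  rw [h2.gcd_eq_one, Nat.dvd_one, orderOf_eq_one_iff] at h3
  exact h3

/-- `D` centralizes `O_p(H)` -/
theorem le_centralizer_pCore (h : Setting p H a D) :
    D ≤ centralizer ((pCore p X ⊓ H : Subgroup X) : Set X) := by
  have hpc : IsPGroup p ↥(pCore p X ⊓ H : Subgroup X) := (Cores.isPGroup_pCore p X).to_le inf_le_left
  have hDz : D ≤ centralizer (zpowers a : Set X) := by
    rw [Subgroup.zpowers_eq_closure, centralizer_closure]; exact h.cent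
  refine CoprimeAction2.thompson_PxQ (P := zpowers a) (Q := D) h.isPGroup
    (hp.out.coprime_iff_not_dvd.mpr h.card).symm (le_centralizer_comm hDz) _ _ rfl hpc ?_ ?_ ?_
  · rw [zpowers_le]
    refine inf_normalizer_le_normalizer_inf (mem_inf.mpr ⟨?_, h.norm⟩)
    rw [Subgroup.normalizer_eq_top]; exact mem_top _
  · intro x hx
    refine inf_normalizer_le_normalizer_inf (mem_inf.mpr ⟨?_, le_normalizer (h.le hx)⟩)
    rw [Subgroup.normalizer_eq_top]; exact mem_top _
  · intro x hx
    obtain ⟨hxF, hxa⟩ := mem_inf.mp hx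
    have hxa' : x ∈ H ⊓ centralizer {a} := by
      refine mem_inf.mpr ⟨(mem_inf.mp hxF).2, ?_⟩
      rw [mem_centralizer_singleton_iff]
      exact (mem_centralizer_iff.mp hxa a (mem_zpowers a)).symm
    rw [mem_centralizer_iff]
    intro d hd
    have h1 : x * d * x⁻¹ * d⁻¹ ∈ D :=
      mul_mem ((mem_normalizer_iff.mp (h.nor hxa') d).mp hd) (inv_mem hd)
    have h2 : x * d * x⁻¹ * d⁻¹ ∈ (pCore p X ⊓ H : Subgroup X) := by
      have e : x * d * x⁻¹ * d⁻¹ = x * (d * x⁻¹ * d⁻¹) := by group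
      rw [e]
      refine mul_mem hxF (mem_inf.mpr ⟨?_, ?_⟩)
      · exact (inferInstance : (pCore p X).Normal).conj_mem _ (inv_mem (mem_inf.mp hxF).1) d
      · exact mul_mem (mul_mem (h.le hd) (inv_mem (mem_inf.mp hxF).2)) (inv_mem (h.le hd))
    obtain ⟨n, hn⟩ := hpc ⟨_, h2⟩
    have h3 := h.D_inf h1 ⟨n, by simpa using congrArg Subtype.val hn⟩
    calc d * x = (x * d * x⁻¹ * d⁻¹)⁻¹ * (x * d) := by group
      _ = x * d := by rw [h3]; group

theorem cj_le (h : Setting p H a D) (hKH : K ≤ H) {d : X} (hd : d ∈ D) : cj d K ≤ H := by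
  rintro _ ⟨k, hk, rfl⟩
  simp only [MulEquiv.coe_toMonoidHom, MulAut.conj_apply]
  exact mul_mem (mul_mem (h.le hd) (hKH hk)) (inv_mem (h.le hd))

/-- an element `s` of `p`-power order of the component `K` with `s ^ m` central in `K`, `p ∤ m`, is central -/
theorem central_of_pow {s : X} (hs : ∃ n, s ^ p ^ n = 1) {m : ℕ} (hm : ¬ p ∣ m)
    {C : Subgroup X} (h : s ^ m ∈ C) : s ∈ C := by
  obtain ⟨n, hn⟩ := hs
  have h1 : Nat.Coprime (p ^ n) m := Nat.Coprime.pow_left n (hp.out.coprime_iff_not_dvd.mpr hm)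
  have : s ∈ zpowers (s ^ m) := by
    rw [mem_zpowers_pow_iff]
    exact Nat.Coprime.symm (h1.coprime_dvd_left (orderOf_dvd_of_pow_eq_one hn))
  exact (zpowers_le.mpr h) this

/-- **(1)** `D` normalizes every component normalized by `a`. -/
theorem le_normalizer_of_norm (h : Setting p H a D) (hK : IsComponent K) (hKH : K ≤ H)
    (haK : a ∈ normalizer (K : Set X)) : D ≤ normalizer (K : Set X) := by
  obtain ⟨s, hsK, hsZ, hsp, hc⟩ := exists_pElement h.core hK hKH h.isPGroup haK
  intro d hd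
  by_contra hne
  set K1 := cj d K with hK1
  set K2 := cj d K1 with hK2
  have hcK1 : IsComponent K1 := isComponent_conj d hK
  have hcK2 : IsComponent K2 := isComponent_conj d hcK1
  have hne1 : K ≠ K1 := fun h' => hne (cj_eq_iff.mp h'.symm)
  have hne2 : K1 ≠ K2 := fun h' => hne1 (cj_inj h')
  have hc1 : K ≤ centralizer (K1 : Set X) :=
    (component_eq_or_le_centralizer hK hcK1).resolve_left hne1
  have hc2 : K1 ≤ centralizer (K2 : Set X) :=
    (component_eq_or_le_centralizer hcK1 hcK2).resolve_left hne2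
  set s1 := d * s * d⁻¹ with hs1
  set s2 := d * s1 * d⁻¹ with hs2
  have hs1K : s1 ∈ K1 := conj_mem_cj hsK
  have hs2K : s2 ∈ K2 := conj_mem_cj hs1K
  set z := s⁻¹ * (a * s * a⁻¹) with hz
  have hzF : z ∈ (pCore p X ⊓ H : Subgroup X) :=
    mem_inf.mpr ⟨center_le_pCore h.core hK hKH hc, hKH (mem_inf.mp hc).1⟩
  have hdz : d * z * d⁻¹ = z := by
    have := mem_centralizer_iff.mp (h.le_centralizer_pCore hd) z hzF
    rw [← this]; group
  have hda : a * d = d * a := h.comm hd
  have has : a * s * a⁻¹ = s * z := by rw [hz]; group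
  have has1 : a * s1 * a⁻¹ = s1 * z := by
    calc a * s1 * a⁻¹ = (a * d) * s * (a * d)⁻¹ := by rw [hs1]; group
      _ = (d * a) * s * (d * a)⁻¹ := by rw [hda]
      _ = d * (a * s * a⁻¹) * d⁻¹ := by group
      _ = d * s * d⁻¹ * (d * z * d⁻¹) := by rw [has]; group
      _ = s1 * z := by rw [hdz]
  have hss1 : s1 * s = s * s1 := mem_centralizer_iff.mp (hc1 hsK) s1 hs1K
  have hs12 : s2 * s1 = s1 * s2 := mem_centralizer_iff.mp (hc2 hs1K) s2 hs2K
  have hzK : z ∈ K := (mem_inf.mp hc).1
  have hzs1 : s1 * z = z * s1 := mem_centralizer_iff.mp (hc1 hzK) s1 hs1K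
  have hzs : s * z = z * s := mem_centralizer_iff.mp (mem_inf.mp hc).2 s hsK
  set w := s⁻¹ * s1 with hw
  have hwa : a * w * a⁻¹ = w := by
    calc a * w * a⁻¹ = (a * s * a⁻¹)⁻¹ * (a * s1 * a⁻¹) := by rw [hw]; group
      _ = (s * z)⁻¹ * (s1 * z) := by rw [has, has1]
      _ = (z * s)⁻¹ * (z * s1) := by rw [hzs, hzs1]
      _ = w := by rw [hw]; group
  have hwH : w ∈ H := mul_mem (inv_mem (hKH hsK)) (h.cj_le hKH hd hs1K)
  have hwN : w ∈ normalizer (D : Set X) := by
    apply h.nor
    refine mem_inf.mpr ⟨hwH, ?_⟩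
    rw [mem_centralizer_singleton_iff]
    calc w * a = (a * w * a⁻¹) * a := by rw [hwa]
      _ = a * w := by group
  set u := w⁻¹ * (d * w * d⁻¹) with hu
  have huD : u ∈ D := by
    have h1 : w⁻¹ * d * (w⁻¹)⁻¹ ∈ D := (mem_normalizer_iff.mp (inv_mem hwN) d).mp hd
    have h2 : u = (w⁻¹ * d * (w⁻¹)⁻¹) * d⁻¹ := by rw [hu]; group
    rw [h2]; exact mul_mem h1 (inv_mem hd)
  have hdw : d * w * d⁻¹ = s1⁻¹ * s2 := by rw [hw, hs2, hs1]; group
  have hu' : u = s * (s1⁻¹ * s1⁻¹ * s2) := by
    have h1 : s1⁻¹ * s = s * s1⁻¹ := by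
      rw [inv_mul_eq_iff_eq_mul, ← mul_assoc, hss1]; group
    calc u = s1⁻¹ * s * (s1⁻¹ * s2) := by rw [hu, hdw, hw]; group
      _ = s * (s1⁻¹ * s1⁻¹ * s2) := by rw [h1]; group
  set m := Nat.card ↥D with hm
  have hum : u ^ m = 1 := by
    have := pow_card_eq_one' (x := (⟨u, huD⟩ : ↥D))
    exact congrArg Subtype.val this
  by_cases hK2K : K2 = K
  · -- `K'' = K`
    have hs2K' : s2 ∈ K := hK2K ▸ hs2K
    set v := s1⁻¹ * s1⁻¹ with hv
    have hvK1 : v ∈ K1 := mul_mem (inv_mem hs1K) (inv_mem hs1K)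
    have hss2 : s * s2 ∈ K := mul_mem hsK hs2K'
    have hcomm : Commute v (s * s2) := mem_centralizer_iff.mp (hc1 hss2) v hvK1
    have hu2 : u = v * (s * s2) := by
      have h1 : v * s = s * v := mem_centralizer_iff.mp (hc1 hsK) v hvK1
      rw [hu', ← mul_assoc, ← h1, mul_assoc]
    have h3 : v ^ m ∈ K := by
      rw [hu2, hcomm.mul_pow] at hum
      rw [eq_inv_of_mul_eq_one_left hum]
      exact inv_mem (pow_mem hss2 m)
    have h4 : s1 ^ (2 * m) ∈ K := by
      have : s1 ^ (2 * m) = (v ^ m)⁻¹ := by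
        rw [hv, ← mul_inv_rev, ← pow_two, inv_pow, inv_inv, ← pow_mul]
      rw [this]; exact inv_mem h3
    have h5 : s ^ (2 * m) ∈ centralizer (K : Set X) := by
      rw [mem_centralizer_iff]
      intro k hk
      have h6 := mem_centralizer_iff.mp (hc1 h4) (d * k * d⁻¹) (conj_mem_cj hk)
      have h7 : s1 ^ (2 * m) = d * s ^ (2 * m) * d⁻¹ := by
        rw [hs1, conj_pow]
      rw [h7] at h6
      have h8 : d * (k * s ^ (2 * m)) * d⁻¹ = d * (s ^ (2 * m) * k) * d⁻¹ := by
        calc d * (k * s ^ (2 * m)) * d⁻¹ = (d * k * d⁻¹) * (d * s ^ (2 * m) * d⁻¹) := by group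
          _ = (d * s ^ (2 * m) * d⁻¹) * (d * k * d⁻¹) := h6
          _ = _ := by group
      exact mul_left_cancel (mul_right_cancel h8)
    by_cases hp2 : p = 2
    · have h6 : d ^ 2 ∈ normalizer (K : Set X) := by
        rw [← cj_eq_iff, pow_two, ← cj_mul]; exact hK2K
      have h7 : d ∈ zpowers (d ^ 2) := by
        rw [mem_zpowers_pow_iff]
        have h8 : orderOf d ∣ m := by
          have h9 : orderOf (⟨d, hd⟩ : ↥D) ∣ Nat.card ↥D := orderOf_dvd_natCard _
          rwa [Subgroup.orderOf_mk] at h9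
        have h9 : Nat.Coprime p m := hp.out.coprime_iff_not_dvd.mpr h.card
        rw [hp2] at h9
        exact Nat.Coprime.coprime_dvd_right h8 h9
      exact hne (zpowers_le.mpr h6 h7)
    · refine hsZ (central_of_pow (p := p) hsp ?_ h5)
      intro hdvd
      rcases hp.out.dvd_mul.mp hdvd with h6 | h6
      · exact hp2 ((Nat.prime_dvd_prime_iff_eq hp.out Nat.prime_two).mp h6)
      · exact h.card h6
  · have hc3 : K2 ≤ centralizer (K : Set X) :=
      (component_eq_or_le_centralizer hcK2 hK).resolve_left hK2K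
    have hc1' : K1 ≤ centralizer (K : Set X) := le_centralizer_comm hc1
    set t := s1⁻¹ * s1⁻¹ * s2 with ht
    have htC : t ∈ centralizer (K : Set X) :=
      mul_mem (mul_mem (inv_mem (hc1' hs1K)) (inv_mem (hc1' hs1K))) (hc3 hs2K)
    have hcomm : Commute s t := mem_centralizer_iff.mp htC s hsK
    rw [hu', hcomm.mul_pow] at hum
    have h3 : s ^ m ∈ centralizer (K : Set X) := by
      rw [eq_inv_of_mul_eq_one_left hum]
      exact inv_mem (pow_mem htC m)
    exact hsZ (central_of_pow (p := p) hsp h.card h3)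

/-- `D` centralizes every component centralized by `a`. -/
theorem le_centralizer_of_cent (h : Setting p H a D) (hK : IsComponent K) (hKH : K ≤ H)
    (haK : a ∈ centralizer (K : Set X)) : D ≤ centralizer (K : Set X) := by
  have h1 : K ≤ normalizer (D : Set X) := by
    refine le_trans ?_ h.nor
    refine le_inf hKH ?_
    intro k hk
    rw [mem_centralizer_singleton_iff]
    exact mem_centralizer_iff.mp haK k hk
  have h2 : D ≤ normalizer (K : Set X) :=
    h.le_normalizer_of_norm hK hKH (centralizer_le_normalizer' _ haK)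
  have h3 : K ⊓ D = ⊥ := by
    refine eq_bot_of_le_component h.core hK hKH inf_le_left ?_ ?_
    · exact le_trans (le_inf le_normalizer h1) inf_normalizer_le_normalizer_inf
    · intro h4
      exact h.card (h4.trans (Subgroup.card_dvd_of_le inf_le_right))
  intro d hd
  rw [mem_centralizer_iff]
  intro k hk
  have h4 : k * d * k⁻¹ * d⁻¹ ∈ K ⊓ D := by
    refine mem_inf.mpr ⟨?_, ?_⟩
    · have : k * d * k⁻¹ * d⁻¹ = k * (d * k⁻¹ * d⁻¹) := by group
      rw [this]
      exact mul_mem hk ((mem_normalizer_iff.mp (h2 hd) _).mp (inv_mem hk))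
    · exact mul_mem ((mem_normalizer_iff.mp (h1 hk) _).mp hd) (inv_mem hd)
  rw [h3, mem_bot] at h4
  calc k * d = (k * d * k⁻¹ * d⁻¹) * (d * k) := by group
    _ = d * k := by rw [h4, one_mul]

/-! #### components not normalized by `a` -/

theorem mem_norm_of_pow (h : Setting p H a D) {g : X} (hg : g ∈ zpowers a) {n : ℕ} (hn : ¬ p ∣ n)
    {N : Subgroup X} (hgn : g ^ n ∈ N) : g ∈ N := by
  have h1 : g ^ p = 1 := by
    obtain ⟨k, rfl⟩ := mem_zpowers_iff.mp hg
    rw [← zpow_natCast, ← zpow_mul, mul_comm, zpow_mul, zpow_natCast, ← h.ord, pow_orderOf_eq_one,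
      one_zpow]
  exact central_of_pow ⟨1, by rw [pow_one]; exact h1⟩ hn hgn

theorem not_mem_of_pow (h : Setting p H a D) (haK : a ∉ normalizer (K : Set X)) {n : ℕ}
    (hn0 : 0 < n) (hnp : n < p) : a ^ n ∉ normalizer (K : Set X) := fun h' =>
  haK (h.mem_norm_of_pow (mem_zpowers a) (fun hd => absurd (Nat.le_of_dvd hn0 hd) (not_le.mpr hnp)) h')

theorem cj_le_of_zpowers (h : Setting p H a D) (hKH : K ≤ H) {g : X} (hg : g ∈ zpowers a) :
    cj g K ≤ H := by
  have h1 : g ∈ normalizer (H : Set X) := (zpowers_le.mpr h.norm) hg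
  calc cj g K ≤ cj g H := Subgroup.map_mono hKH
    _ = H := cj_eq_iff.mpr h1

/-- the product of the other conjugates under `a` -/
def M (K : Subgroup X) (a : X) : Subgroup X :=
  ⨆ g : {g : X // g ∈ zpowers a ∧ g ∉ normalizer (K : Set X)}, cj g.1 K

/-- the product of all conjugates under `a` -/
def A (K : Subgroup X) (a : X) : Subgroup X :=
  ⨆ g : {g : X // g ∈ zpowers a}, cj g.1 K

omit hp in
theorem M_le_centralizer (hK : IsComponent K) : M K a ≤ centralizer (K : Set X) := by
  refine iSup_le fun g => ?_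
  exact (component_eq_or_le_centralizer (isComponent_conj g.1 hK) hK).resolve_left
    fun h => g.2.2 (cj_eq_iff.mp h)

theorem M_le (h : Setting p H a D) (hKH : K ≤ H) : M K a ≤ H :=
  iSup_le fun g => h.cj_le_of_zpowers hKH g.2.1

omit hp in
theorem M_le_A : M K a ≤ A K a := iSup_le fun g =>
  le_iSup (fun g : {g : X // g ∈ zpowers a} => cj g.1 K) ⟨g.1, g.2.1⟩

omit hp in
theorem K_le_A : K ≤ A K a := by
  have h1 := le_iSup (fun g : {g : X // g ∈ zpowers a} => cj g.1 K) ⟨1, one_mem _⟩
  have h2 : cj 1 K ≤ A K a := h1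
  rwa [cj_one] at h2

theorem exists_decomp (h : Setting p H a D) (haK : a ∉ normalizer (K : Set X)) {k : X} (hk : k ∈ K)
    (n : ℕ) (hn : n < p) : ∃ m ∈ M K a, (k * a) ^ (n + 1) * (a ^ (n + 1))⁻¹ = k * m := by
  induction n with
  | zero => exact ⟨1, one_mem _, by simp⟩
  | succ n ih =>
    obtain ⟨m, hm, e⟩ := ih (by omega)
    refine ⟨m * (a ^ (n + 1) * k * (a ^ (n + 1))⁻¹), mul_mem hm ?_, ?_⟩
    · have h1 : cj (a ^ (n + 1)) K ≤ M K a :=
        le_iSup (fun g : {g : X // g ∈ zpowers a ∧ g ∉ normalizer (K : Set X)} => cj g.1 K)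
          ⟨a ^ (n + 1), pow_mem (mem_zpowers a) _, h.not_mem_of_pow haK (by omega) hn⟩
      exact h1 (conj_mem_cj hk)
    · have e1 : (k * a) ^ (n + 1) = k * m * a ^ (n + 1) := by rw [← e]; group
      calc (k * a) ^ (n + 1 + 1) * (a ^ (n + 1 + 1))⁻¹
          = (k * a) ^ (n + 1) * (k * a) * (a ^ (n + 1 + 1))⁻¹ := by rw [pow_succ (k * a) (n + 1)]
        _ = k * m * a ^ (n + 1) * (k * a) * (a ^ (n + 1) * a)⁻¹ := by rw [e1, pow_succ a (n + 1)]
        _ = _ := by group

theorem exists_delta (h : Setting p H a D) (hK : IsComponent K) (hKH : K ≤ H)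
    (haK : a ∉ normalizer (K : Set X)) {k : X} (hk : k ∈ K) :
    ∃ m ∈ M K a, k * m ∈ H ⊓ centralizer {a} := by
  have hp1 := hp.out.pos
  obtain ⟨m, hm, e⟩ := h.exists_decomp haK hk (p - 1) (by omega)
  have hap : a ^ p = 1 := by rw [← h.ord]; exact pow_orderOf_eq_one a
  rw [Nat.sub_add_cancel hp1, hap, inv_one, mul_one] at e
  refine ⟨m, hm, mem_inf.mpr ⟨mul_mem (hKH hk) (h.M_le hKH hm), ?_⟩⟩
  rw [mem_centralizer_singleton_iff]
  have hkm : k * m = m * k := mem_centralizer_iff.mp (M_le_centralizer hK hm) k hk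
  have h1 : a * (k * m) * a⁻¹ = k * m := by
    calc a * (k * m) * a⁻¹ = (a * (k * a) * a⁻¹) ^ p := by rw [conj_pow, e]
      _ = (k⁻¹ * (k * a) * (k⁻¹)⁻¹) ^ p := by congr 1; group
      _ = k⁻¹ * (k * m) * (k⁻¹)⁻¹ := by rw [conj_pow, e]
      _ = k⁻¹ * (k * m) * k := by rw [inv_inv]
      _ = m * k := by group
      _ = k * m := hkm.symm
  calc k * m * a = (a * (k * m) * a⁻¹) * a := by rw [h1]
    _ = a * (k * m) := by group

theorem comm_zpowers (h : Setting p H a D) {d g : X} (hd : d ∈ D) (hg : g ∈ zpowers a) :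
    d * g = g * d := by
  have h1 : zpowers a ≤ centralizer ({d} : Set X) := by
    rw [zpowers_le, mem_centralizer_singleton_iff]; exact h.comm hd
  exact (mem_centralizer_singleton_iff.mp (h1 hg)).symm

theorem le_normalizer_of_not (h : Setting p H a D) (hK : IsComponent K) (hKH : K ≤ H)
    (haK : a ∉ normalizer (K : Set X)) : D ≤ normalizer (K : Set X) := by
  intro d hd
  -- step A
  have hA : ∃ g ∈ zpowers a, cj d K = cj g K := by
    by_contra hcon
    push Not at hcon
    obtain ⟨s, hsK, hsZ, hsp, -⟩ := exists_pElement (p := p) h.core hK hKH (a := 1)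
      (by rw [zpowers_one_eq_bot]; exact IsPGroup.of_bot) (one_mem _)
    obtain ⟨m, hm, hw⟩ := h.exists_delta hK hKH haK hsK
    set w := s * m with hwdef
    have hwN : w ∈ normalizer (D : Set X) := h.nor hw
    have hdist : ∀ g ∈ zpowers a, ∀ g' ∈ zpowers a, cj g K ≤ centralizer ((cj d (cj g' K) : Subgroup X) : Set X) := by
      intro g hg g' hg'
      refine (component_eq_or_le_centralizer (isComponent_conj g hK)
        (isComponent_conj d (isComponent_conj g' hK))).resolve_left ?_
      intro he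
      apply hcon (g'⁻¹ * g) (mul_mem (inv_mem hg') hg)
      have e1 : cj d (cj g' K) = cj g' (cj d K) := by rw [cj_mul, cj_mul, h.comm_zpowers hd hg']
      change cj g K = cj d (cj g' K) at he
      rw [e1] at he
      rw [← cj_mul, he, cj_mul, inv_mul_cancel, cj_one]
    have hAc : A K a ≤ centralizer ((cj d (A K a) : Subgroup X) : Set X) := by
      have e1 : cj d (A K a) = ⨆ g' : {g : X // g ∈ zpowers a}, cj d (cj g'.1 K) := by
        rw [A]; exact Subgroup.map_iSup _ _
      rw [e1]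
      refine iSup_le fun g => ?_
      exact le_centralizer_iSup fun g' => hdist g.1 g.2 g'.1 g'.2
    have hwA : w ∈ A K a := mul_mem (K_le_A hsK) (M_le_A hm)
    set w' := d * w * d⁻¹ with hw'
    have hwA' : w' ∈ cj d (A K a) := conj_mem_cj hwA
    have hcomm : Commute w w' := (mem_centralizer_iff.mp (hAc hwA) w' hwA').symm
    have hu : w⁻¹ * w' ∈ D := by
      have h1 : w⁻¹ * d * (w⁻¹)⁻¹ ∈ D := (mem_normalizer_iff.mp (inv_mem hwN) d).mp hd
      have h2 : w⁻¹ * w' = (w⁻¹ * d * (w⁻¹)⁻¹) * d⁻¹ := by rw [hw']; group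
      rw [h2]; exact mul_mem h1 (inv_mem hd)
    set n := Nat.card ↥D with hn
    have hum : (w⁻¹ * w') ^ n = 1 := by
      have := pow_card_eq_one' (x := (⟨_, hu⟩ : ↥D))
      exact congrArg Subtype.val this
    rw [(hcomm.inv_left).mul_pow, inv_pow, inv_mul_eq_one] at hum
    have h1 : w ^ n ∈ centralizer (K : Set X) := by
      rw [hum]
      exact (le_centralizer_comm (K_le_A.trans hAc)) (pow_mem hwA' n)
    have hmC := M_le_centralizer hK hm
    have hsm : Commute s m := mem_centralizer_iff.mp hmC s hsK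
    rw [hwdef, hsm.mul_pow] at h1
    have h2 : s ^ n ∈ centralizer (K : Set X) := by
      have : s ^ n = (s ^ n * m ^ n) * (m ^ n)⁻¹ := by group
      rw [this]
      exact mul_mem h1 (inv_mem (pow_mem hmC n))
    exact hsZ (central_of_pow (p := p) hsp h.card h2)
  obtain ⟨g, hg, hgK⟩ := hA
  have hpow : ∀ n : ℕ, cj (d ^ n) K = cj (g ^ n) K := by
    intro n
    induction n with
    | zero => simp
    | succ n ih =>
      rw [pow_succ, ← cj_mul, hgK, cj_mul, h.comm_zpowers (pow_mem hd n) hg, ← cj_mul, ih, cj_mul,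
        pow_succ']
  have h1 := hpow (Nat.card ↥D)
  have h2 : d ^ Nat.card ↥D = 1 := congrArg Subtype.val (pow_card_eq_one' (x := (⟨d, hd⟩ : ↥D)))
  rw [h2, cj_one] at h1
  have h3 := h.mem_norm_of_pow hg h.card (cj_eq_iff.mp h1.symm)
  rw [← cj_eq_iff, hgK]
  exact cj_eq_iff.mpr h3

/-- `D` normalizes every component of `H` -/
theorem le_normalizer_component (h : Setting p H a D) (hK : IsComponent K) (hKH : K ≤ H) :
    D ≤ normalizer (K : Set X) := by
  by_cases haK : a ∈ normalizer (K : Set X)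
  · exact h.le_normalizer_of_norm hK hKH haK
  · exact h.le_normalizer_of_not hK hKH haK

/-- `D` centralizes every component not normalized by `a` -/
theorem le_centralizer_of_not (h : Setting p H a D) (hK : IsComponent K) (hKH : K ≤ H)
    (haK : a ∉ normalizer (K : Set X)) : D ≤ centralizer (K : Set X) := by
  have hDK := h.le_normalizer_component hK hKH
  have hDM : D ≤ normalizer (M K a : Set X) := by
    intro d hd
    rw [← cj_eq_iff, cj, M, Subgroup.map_iSup]
    congr 1
    funext g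
    change cj d (cj g.1 K) = cj g.1 K
    rw [cj_mul, h.comm_zpowers hd g.2.1, ← cj_mul, cj_eq_iff.mpr (hDK hd)]
  have hMC := M_le_centralizer (a := a) hK
  have hKM : K ≤ centralizer (M K a : Set X) := le_centralizer_comm hMC
  have hKMn : K ≤ normalizer (M K a : Set X) := hKM.trans (centralizer_le_normalizer' _)
  have hMK : M K a ≤ normalizer (K : Set X) := hMC.trans (centralizer_le_normalizer' _)
  set S := D ⊔ M K a with hS
  -- `K` normalizes `S`
  have hKS : K ≤ normalizer (S : Set X) := by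
    intro k hk
    obtain ⟨m, hm, hw⟩ := h.exists_delta hK hKH haK hk
    have h1 : k * m ∈ normalizer (S : Set X) := by
      have h2 : k * m ∈ normalizer (M K a : Set X) := mul_mem (hKMn hk) (le_normalizer hm)
      rw [← cj_eq_iff] at h2 ⊢
      have h3 := cj_eq_iff.mpr (h.nor hw)
      rw [cj, hS, Subgroup.map_sup]
      change cj (k * m) D ⊔ cj (k * m) (M K a) = _
      rw [h2, h3]
    have h2 : m ∈ normalizer (S : Set X) := le_normalizer ((le_sup_right : M K a ≤ S) hm)
    have h3 : k = (k * m) * m⁻¹ := by group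
    rw [h3]; exact mul_mem h1 (inv_mem h2)
  set E := K ⊓ S with hE
  have hKE : K ≤ normalizer (E : Set X) :=
    le_trans (le_inf le_normalizer hKS) inf_normalizer_le_normalizer_inf
  have hEn : (E.subgroupOf K).Normal := Subgroup.normal_subgroupOf_of_le_normalizer hKE
  have hEC : E ≤ centralizer (K : Set X) := by
    rcases normal_le_center_or_eq_top hK.2 (E.subgroupOf K) with h1 | h1
    · intro x hx
      rw [mem_centralizer_iff]
      intro k hk
      have h2 := h1 (show (⟨x, (mem_inf.mp hx).1⟩ : ↥K) ∈ E.subgroupOf K from hx)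
      have h3 := mem_center_iff.mp h2 ⟨k, hk⟩
      exact congrArg Subtype.val h3
    · exfalso
      rw [Subgroup.subgroupOf_eq_top] at h1
      obtain ⟨s, hsK, hsZ, hsp, -⟩ := exists_pElement (p := p) h.core hK hKH (a := 1)
        (by rw [zpowers_one_eq_bot]; exact IsPGroup.of_bot) (one_mem _)
      have h2 : s ∈ D ⊔ M K a := (mem_inf.mp (h1 hsK)).2
      rw [mem_sup_of_le_normalizer hDM] at h2
      obtain ⟨d, hd, m, hm, e⟩ := h2
      have hmC := hMC hm
      have hsm : Commute s m := mem_centralizer_iff.mp hmC s hsK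
      have h3 : d = s * m⁻¹ := by rw [← e]; group
      have h4 : d ^ Nat.card ↥D = 1 := congrArg Subtype.val (pow_card_eq_one' (x := (⟨d, hd⟩ : ↥D)))
      rw [h3, hsm.inv_right.mul_pow] at h4
      have h5 : s ^ Nat.card ↥D ∈ centralizer (K : Set X) := by
        rw [eq_inv_of_mul_eq_one_left h4]
        exact inv_mem (pow_mem (inv_mem hmC) _)
      exact hsZ (central_of_pow (p := p) hsp h.card h5)
  have hcomm : ⁅K, D⁆ ≤ E := by
    rw [commutator_le]
    intro k hk d hd
    rw [commutatorElement_def]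
    refine mem_inf.mpr ⟨?_, ?_⟩
    · have : k * d * k⁻¹ * d⁻¹ = k * (d * k⁻¹ * d⁻¹) := by group
      rw [this]
      exact mul_mem hk ((mem_normalizer_iff.mp (hDK hd) _).mp (inv_mem hk))
    · have hdS : d ∈ S := (le_sup_left : D ≤ S) hd
      exact mul_mem ((mem_normalizer_iff.mp (hKS hk) _).mp hdS) (inv_mem hdS)
  exact le_centralizer_comm (le_centralizer_of_perfect (component_perfect hK) hcomm hEC)

/-- if `H` is normal (or subnormal), a nontrivial subgroup of `D` acts nontrivially on some component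
of `H`; it normalizes this component, `a` normalizes it but does not centralize it. -/
theorem exists_component (h : Setting p H a D) (hHs : H.IsSubnormal) {Y : Subgroup X} (hY : Y ≤ D)
    (hY1 : Y ≠ ⊥) : ∃ K : Subgroup X, IsComponent K ∧ K ≤ H ∧ a ∈ normalizer (K : Set X) ∧
      a ∉ centralizer (K : Set X) ∧ Y ≤ normalizer (K : Set X) ∧ ¬ Y ≤ centralizer (K : Set X) := by
  have h1 : ∃ K : Subgroup X, IsComponent K ∧ K ≤ H ∧ ¬ Y ≤ centralizer (K : Set X) := by
    by_contra hcon
    push Not at hcon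
    have hcoreH : pPrimeCore p ↥H = ⊥ := by
      have h6 := map_pPrimeCore_le_of_subnormal p hHs
      have h8 : (pPrimeCore p ↥H).map H.subtype = ⊥ := by
        rw [eq_bot_iff, ← h.core]; exact le_inf h6 (Subgroup.map_subtype_le _)
      rwa [Subgroup.map_eq_bot_iff_of_injective _ H.subtype_injective] at h8
    have hF : fittingSubgroup ↥H = pCore p ↥H := Fitting.fittingSubgroup_eq_pCore p hcoreH
    have hYH : Y ≤ H := hY.trans h.le
    set Y' := Y.subgroupOf H with hY'
    have hc : Y' ≤ centralizer (generalizedFittingSubgroup ↥H : Set ↥H) := by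
      apply le_centralizer_sup
      · apply le_centralizer_sSup
        intro K hK
        have hK' : IsComponent (K.map H.subtype) := isComponent_map_subtype hHs hK
        have h2 := hcon _ hK' (Subgroup.map_subtype_le _)
        intro y hy
        rw [mem_centralizer_iff]
        intro k hk
        have h3 := mem_centralizer_iff.mp (h2 hy) k ⟨k, hk, rfl⟩
        exact Subtype.ext h3
      · rw [hF]
        intro y hy
        rw [mem_centralizer_iff]
        intro k hk
        have h3 : (k : X) ∈ (pCore p X ⊓ H : Subgroup X) :=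
          mem_inf.mpr ⟨map_pCore_le_of_subnormal p hHs ⟨k, hk, rfl⟩, k.2⟩
        exact Subtype.ext (mem_centralizer_iff.mp (h.le_centralizer_pCore (hY hy)) k h3)
    apply hY1
    rw [eq_bot_iff]
    intro y hy
    rw [mem_bot]
    have hy' : (⟨y, hYH hy⟩ : ↥H) ∈ Y' := hy
    have h4 : (⟨y, hYH hy⟩ : ↥H) ∈ fittingSubgroup ↥H :=
      center_genFitting_le_fitting ⟨centralizer_genFitting_le (hc hy'), hc hy'⟩
    rw [hF] at h4
    obtain ⟨n, hn⟩ := Cores.isPGroup_pCore p ↥H ⟨_, h4⟩
    refine h.D_inf (hY hy) ⟨n, ?_⟩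
    have := congrArg (fun t : ↥(pCore p ↥H) => ((t : ↥H) : X)) hn
    simpa using this
  obtain ⟨K, hK, hKH, hYK⟩ := h1
  refine ⟨K, hK, hKH, ?_, ?_, hY.trans (h.le_normalizer_component hK hKH), hYK⟩
  · by_contra hne
    exact hYK (hY.trans (h.le_centralizer_of_not hK hKH hne))
  · intro hc
    exact hYK (hY.trans (h.le_centralizer_of_cent hK hKH hc))

end Setting

end Cfsg.Agent.Lib.H22Unbal
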