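import Cfsg.Agent.Lib.H64LV
import Cfsg.Agent.Lib.H64LN
import Cfsg.Agent.Lib.H64LO

/-! S3105, piece T2 (helper24): the case `|℧(P)| = 2`. -/

set_option autoImplicit false

namespace Cfsg.Agent.Lib.H64L

open Subgroup Cfsg Cfsg.Agent.Lib.SectRank Cfsg.Agent.Lib.H50Five

universe u v
variable {Y : Type u} {L : Type v} [Group Y] [Group L]

/-- `m` central of order 2, squares and commutators of `ker π` are in `⟨m⟩`. -/
structure T2S (π : Y →* L) (m : Y) : Prop where
  cen : ∀ g : Y, g * m = m * g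
  mm : m * m = 1
  m1 : m ≠ 1
  sqs : ∀ x ∈ π.ker, x * x = 1 ∨ x * x = m
  comm : ∀ x ∈ π.ker, ∀ y ∈ π.ker, x * y = y * x ∨ x * y = m * (y * x)

namespace T2S
variable {π : Y →* L} {m : Y}

theorem cen' (T : T2S π m) (a b : Y) : a * (m * b) = m * (a * b) := by
  rw [← mul_assoc, T.cen, mul_assoc]

theorem mm' (T : T2S π m) (a : Y) : m * (m * a) = a := by
  rw [← mul_assoc, T.mm, one_mul]

theorem sq_of_comm {x y : Y} (h : x * y = y * x) : (x * y) * (x * y) = (x * x) * (y * y) := by
  calc (x * y) * (x * y) = x * (y * x) * y := by group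
    _ = x * (x * y) * y := by rw [h]
    _ = _ := by group

theorem sq_of_ncomm (T : T2S π m) {x y : Y} (h : x * y = m * (y * x)) : (x * y) * (x * y) = m * ((x * x) * (y * y)) := by
  have h1 : y * x = m * (x * y) := by rw [h, T.mm']
  calc (x * y) * (x * y) = x * (y * x) * y := by group
    _ = x * (m * (x * y)) * y := by rw [h1]
    _ = m * (x * (x * y)) * y := by rw [T.cen']
    _ = _ := by group

/-- if all squares of `W ∖ K` are equal to `m`, and `W / K` is elementary abelian of rank at least 3 ... -/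
theorem no_const (T : T2S π m) {K W : Subgroup Y} (hW : W ≤ π.ker) (h : ∀ x ∈ W, x ∉ K → x * x = m)
    {a b c : Y} (ha : a ∈ W) (hb : b ∈ W) (hc : c ∈ W) (hi : Ind K a b c) : False := by
  have key : ∀ x ∈ W, ∀ y ∈ W, x ∉ K → y ∉ K → x * y ∉ K → x * y = m * (y * x) := by
    intro x hx y hy hxK hyK hxy
    rcases T.comm x (hW hx) y (hW hy) with h1 | h1
    · exfalso
      have h2 := sq_of_comm h1
      rw [h _ (mul_mem hx hy) hxy, h x hx hxK, h y hy hyK, T.mm] at h2
      exact T.m1 h2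
    · exact h1
  obtain ⟨h1, h2, h3, h4, h5, h6, h7⟩ := hi
  have e1 := key a ha b hb h1 h2 h4
  have e2 := key a ha c hc h1 h3 h5
  have e3 := key a ha (b * c) (mul_mem hb hc) h1 h6 (by rw [← mul_assoc]; exact h7)
  have e4 : a * (b * c) = b * c * a := by
    calc a * (b * c) = (a * b) * c := by group
      _ = m * (b * a) * c := by rw [e1]
      _ = m * (b * (a * c)) := by group
      _ = m * (b * (m * (c * a))) := by rw [e2]
      _ = b * c * a := by rw [T.cen', T.mm', mul_assoc]
  rw [e4] at e3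
  apply T.m1
  have := mul_eq_right.mp e3.symm
  exact this

theorem sq_conj (T : T2S π m) {x : Y} (hx : x ∈ π.ker) (g : Y) : (g * x * g⁻¹) * (g * x * g⁻¹) = x * x := by
  have h1 : (g * x * g⁻¹) * (g * x * g⁻¹) = g * (x * x) * g⁻¹ := by group
  rw [h1]
  rcases T.sqs x hx with h | h
  · rw [h]; group
  · rw [h, T.cen]; group

theorem sq_mul_m (T : T2S π m) (x : Y) : (m * x) * (m * x) = x * x := by
  rw [mul_assoc, T.cen', T.mm']

/-- squares are constant on orbits modulo `m` -/
theorem sq_eq (T : T2S π m) {K : Subgroup Y} (hK : ∀ k ∈ K, k = 1 ∨ k = m) {x y g : Y} (hx : x ∈ π.ker)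
    (h : g * x * g⁻¹ * y⁻¹ ∈ K) : x * x = y * y := by
  rw [← T.sq_conj hx g]
  rcases hK _ h with h1 | h1
  · rw [mul_inv_eq_one.mp h1]
  · rw [mul_inv_eq_iff_eq_mul.mp h1, T.sq_mul_m]

theorem nat8_exp [Finite Y] (hL : IsL L) (hs : Function.Surjective π) (T : T2S π m) {K N : Subgroup Y}
    (hK : ∀ k ∈ K, k = 1 ∨ k = m) (hN : N ≤ π.ker) (A : Nat8 π K N) : ∀ x ∈ N, x * x = 1 := by
  by_contra hcon
  push Not at hcon
  obtain ⟨x, hx, hx1⟩ := hcon
  have hxm : x * x = m := (T.sqs x (hN hx)).resolve_left hx1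
  have hxK : x ∉ K := by
    intro h
    rcases hK x h with h1 | h1
    · apply hx1; rw [h1]; simp
    · apply hx1; rw [h1]; exact T.mm
  obtain ⟨b, hb, c, hc, hi⟩ := A.exists_ind hx hxK
  refine T.no_const hN (K := K) ?_ hx hb hc hi
  intro y hy hyK
  obtain ⟨g, hg⟩ := A.trans1 hL hs hx hy hxK hyK
  rw [← T.sq_eq hK (hN hx) hg]
  exact hxm

theorem rep2 {N P : Subgroup Y} (hN : N ≤ P) (h : Nat.card P = 2 * Nat.card N) (h0 : 0 < Nat.card N) {z : Y} (hz : z ∈ P) (hzN : z ∉ N) :
    ∀ x ∈ P, x ∉ N → ∃ n ∈ N, x = z * n := by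
  have hidx : N.relIndex P = 2 := by
    have h5 := relIndex_mul_relIndex (⊥ : Subgroup Y) N P bot_le hN
    rw [relIndex_bot_left, relIndex_bot_left, h] at h5
    apply Nat.eq_of_mul_eq_mul_left h0
    rw [h5, mul_comm]
  intro x hx hxN
  refine ⟨z⁻¹ * x, ?_, by group⟩
  have h6 : (N.subgroupOf P).index = 2 := hidx
  have h7 := (Subgroup.mul_mem_iff_of_index_two h6 (a := ⟨z⁻¹, inv_mem hz⟩) (b := ⟨x, hx⟩))
  have h8 : (⟨z⁻¹, inv_mem hz⟩ * ⟨x, hx⟩ : P) ∈ N.subgroupOf P := by
    rw [h7]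
    rw [mem_subgroupOf, mem_subgroupOf]
    constructor
    · intro h; exact absurd ((inv_mem_iff).mp h) hzN
    · intro h; exact absurd h hxN
  exact h8

theorem comm_conj (T : T2S π m) {K : Subgroup Y} (hK : ∀ k ∈ K, k = 1 ∨ k = m) {g z x y : Y}
    (h : z * x = m * (x * z)) (hz : g * z * g⁻¹ * z⁻¹ ∈ K) (hy : g * x * g⁻¹ * y⁻¹ ∈ K) : z * y = m * (y * z) := by
  have h1 : (g * z * g⁻¹) * (g * x * g⁻¹) = m * ((g * x * g⁻¹) * (g * z * g⁻¹)) := by
    calc (g * z * g⁻¹) * (g * x * g⁻¹) = g * (z * x) * g⁻¹ := by group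
      _ = g * (m * (x * z)) * g⁻¹ := by rw [h]
      _ = m * (g * (x * z)) * g⁻¹ := by rw [T.cen']
      _ = _ := by group
  have h2 : g * z * g⁻¹ = z ∨ g * z * g⁻¹ = m * z := by
    rcases hK _ hz with h2 | h2
    · left; exact mul_inv_eq_one.mp h2
    · right; exact mul_inv_eq_iff_eq_mul.mp h2
  have h3 : g * x * g⁻¹ = y ∨ g * x * g⁻¹ = m * y := by
    rcases hK _ hy with h2 | h2
    · left; exact mul_inv_eq_one.mp h2
    · right; exact mul_inv_eq_iff_eq_mul.mp h2
  rcases h2 with h2 | h2 <;> rcases h3 with h3 | h3 <;> rw [h2, h3] at h1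
  · exact h1
  · rw [T.cen'] at h1
    simp only [mul_assoc] at h1
    exact mul_left_cancel h1
  · rw [T.cen' y] at h1
    simp only [mul_assoc] at h1
    exact mul_left_cancel h1
  · simp only [mul_assoc, T.cen' y, T.cen' z, T.mm'] at h1
    exact h1

/-- `N` of exponent 2 and index 2 in `ker π`, `z` commutes with `N`, `z * z = m`. -/
theorem final (hs : Function.Surjective π) (hr : RankIn 2 4 (⊤ : Subgroup Y)) (T : T2S π m) {K N : Subgroup Y} (hK : ∀ k ∈ K, k = 1 ∨ k = m) (hmK : m ∈ K)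
    (hN : N ≤ π.ker) (A : Nat8 π K N) (hP : Nat.card π.ker = 32) (hc : Nat.card N = 16)
    (he : ∀ x ∈ N, x * x = 1) {z : Y} (hz : z ∈ π.ker) (hzN : z ∉ N) (hzc : ∀ x ∈ N, z * x = x * z)
    (hzz : z * z = m) : C48 π N m := by
  have hNc : ∀ x ∈ N, ∀ y ∈ N, x * y = y * x := comm_of_sq (fun x hx => by rw [pow_two]; exact he x hx)
  have hrep := rep2 hN (by rw [hP, hc]) (by rw [hc]; norm_num) hz hzN
  refine ⟨hs, hr, A.nW, hN, ?_, hP, hc, fun x hx => by rw [pow_two]; exact he x hx, T.m1, A.le hmK, T.cen, ?_, ?_⟩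
  · intro x hx y hy
    by_cases hxN : x ∈ N
    · by_cases hyN : y ∈ N
      · exact hNc x hxN y hyN
      · obtain ⟨n, hn, rfl⟩ := hrep y hy hyN
        calc x * (z * n) = (x * z) * n := by group
          _ = (z * x) * n := by rw [hzc x hxN]
          _ = z * (x * n) := by group
          _ = z * (n * x) := by rw [hNc x hxN n hn]
          _ = z * n * x := by group
    · obtain ⟨k, hk, rfl⟩ := hrep x hx hxN
      by_cases hyN : y ∈ N
      · calc z * k * y = z * (k * y) := by group
          _ = z * (y * k) := by rw [hNc k hk y hyN]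
          _ = (z * y) * k := by group
          _ = (y * z) * k := by rw [hzc y hyN]
          _ = y * (z * k) := by group
      · obtain ⟨n, hn, rfl⟩ := hrep y hy hyN
        calc z * k * (z * n) = z * (k * z) * n := by group
          _ = z * (z * k) * n := by rw [hzc k hk]
          _ = z * z * (k * n) := by group
          _ = z * z * (n * k) := by rw [hNc k hk n hn]
          _ = z * (z * n) * k := by group
          _ = z * (n * z) * k := by rw [hzc n hn]
          _ = _ := by group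
  · intro x hx hxN
    obtain ⟨n, hn, rfl⟩ := hrep x hx hxN
    rw [pow_two, sq_of_comm (hzc n hn), hzz, he n hn, mul_one]
  · obtain ⟨g, x, hx, h⟩ := A.nt
    refine ⟨g, x, hN hx, ?_, ?_⟩
    · intro h1; apply h; rw [h1]; exact one_mem _
    · intro h1; apply h; rw [h1]; exact hmK

end T2S

theorem sit_T2S [Finite Y] {π : Y →* L} (h2 : Nat.card (H50Five.sq π.ker) = 2) : ∃ m : Y, m ∈ H50Five.sq π.ker ∧
    (∀ k ∈ H50Five.sq π.ker, k = 1 ∨ k = m) ∧ T2S π m := by
  have hN := sq_normal (P := π.ker) inferInstance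
  obtain ⟨m, hm, hm1, hmem⟩ := H50Five.two_elts h2
  refine ⟨m, hm, hmem, ⟨fun g => H50Five.central_of_two hN h2 g m hm, ?_, hm1, ?_, ?_⟩⟩
  · rcases hmem _ (mul_mem hm hm) with h | h
    · exact h
    · exact absurd (mul_eq_left.mp h) hm1
  · intro x hx
    have := hmem _ (sq_mem hx)
    rwa [pow_two] at this
  · intro x hx y hy
    rcases hmem _ (comm_mem hx hy) with h | h
    · left; rw [mul_inv_eq_one, mul_inv_eq_iff_eq_mul] at h; exact h
    · right; rw [mul_inv_eq_iff_eq_mul, mul_inv_eq_iff_eq_mul] at h; rw [h, mul_assoc]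

/-- case (A2) is impossible -/
theorem T2S.no_A2 [Finite Y] (hL : IsL L) {π : Y →* L} (hs : Function.Surjective π) {m : Y} (T : T2S π m) {K Z : Subgroup Y}
    (hK : ∀ k ∈ K, k = 1 ∨ k = m) (hmK : m ∈ K) (A : Nat8 π Z π.ker) (hKZ : K ≤ Z) (hKn : K.Normal) (hc : Nat.card Z = 2 * Nat.card K)
    (hex : ∃ x ∈ π.ker, x * x ≠ 1)
    (h : ∀ x ∈ π.ker, x ∉ Z → ∃ g : Y, orderOf (π g) = 2 ∧ g * x * g⁻¹ * x⁻¹ ∈ Z ∧ g * x * g⁻¹ * x⁻¹ ∉ K) : False := by
  -- `K` has index 2 in `Z`
  have hidx : (K.subgroupOf Z).index = 2 := by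
    have h5 := relIndex_mul_relIndex (⊥ : Subgroup Y) K Z bot_le hKZ
    rw [relIndex_bot_left, relIndex_bot_left, hc] at h5
    have h6 : 0 < Nat.card K := Nat.card_pos
    have h7 : K.relIndex Z = 2 := by
      apply Nat.eq_of_mul_eq_mul_left h6
      rw [h5, mul_comm]
    exact h7
  have hmul : ∀ a ∈ Z, ∀ b ∈ Z, a ∉ K → b ∉ K → a * b ∈ K := by
    intro a ha b hb haK hbK
    have h7 := (Subgroup.mul_mem_iff_of_index_two hidx (a := ⟨a, ha⟩) (b := ⟨b, hb⟩))
    have h8 : (⟨a, ha⟩ * ⟨b, hb⟩ : Z) ∈ K.subgroupOf Z := by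
      rw [h7, mem_subgroupOf, mem_subgroupOf]
      constructor
      · intro h; exact absurd h haK
      · intro h; exact absurd h hbK
    exact h8
  -- squares are constant on `P ∖ Z`
  have hconst : ∀ x ∈ π.ker, ∀ y ∈ π.ker, x ∉ Z → y ∉ Z → x * x = y * y := by
    intro x hx y hy hxZ hyZ
    obtain ⟨g, hg⟩ := A.trans1 hL hs hx hy hxZ hyZ
    by_cases hgK : g * x * g⁻¹ * y⁻¹ ∈ K
    · exact T.sq_eq hK hx hgK
    · obtain ⟨k, -, hk, hkK⟩ := h y hy hyZ
      have h1 : (g * x * g⁻¹ * y⁻¹) * (k * y * k⁻¹ * y⁻¹)⁻¹ ∈ K := hmul _ hg _ (inv_mem hk) hgK (by rwa [inv_mem_iff])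
      have h2 : (g * x * g⁻¹) * (k * y * k⁻¹)⁻¹ ∈ K := by
        have : (g * x * g⁻¹ * y⁻¹) * (k * y * k⁻¹ * y⁻¹)⁻¹ = (g * x * g⁻¹) * (k * y * k⁻¹)⁻¹ := by group
        rwa [this] at h1
      rw [T.sq_eq hK hx h2]
      exact T.sq_conj hy k
  obtain ⟨g0, x0, hx0, hx0Z⟩ := A.nt
  have hy0 : x0 ∉ Z := by
    intro h1
    apply hx0Z
    exact mul_mem (A.nK.conj_mem _ h1 _) (inv_mem h1)
  obtain ⟨b, hb, c, hc', hi⟩ := A.exists_ind hx0 hy0
  -- an element of `Z ∖ K`
  obtain ⟨k, -, hzZ, hzK⟩ := h x0 hx0 hy0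
  set z := k * x0 * k⁻¹ * x0⁻¹ with hz
  have hzP : z ∈ π.ker := A.le hzZ
  -- the commutator `[z, x]` is `z ^ 2`
  have hcz : ∀ x ∈ π.ker, x ∉ Z → (z * x = x * z ↔ z * z = 1) := by
    intro x hx hxZ
    have hxz : x * z ∉ Z := fun h1 => hxZ ((mul_mem_cancel_right hzZ).mp h1)
    have h1 := hconst x hx (x * z) (mul_mem hx hzP) hxZ hxz
    constructor
    · intro h2
      rw [T2S.sq_of_comm h2.symm] at h1
      exact mul_eq_left.mp h1.symm
    · intro h2
      rcases T.comm x hx z hzP with h3 | h3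
      · exact h3.symm
      · exfalso
        rw [T.sq_of_ncomm h3, h2, mul_one] at h1
        exact T.m1 (mul_eq_right.mp h1.symm)
  have hzz : z * z = 1 := by
    by_contra hne
    have e : ∀ x ∈ π.ker, x ∉ Z → z * x = m * (x * z) := by
      intro x hx hxZ
      rcases T.comm z hzP x hx with h3 | h3
      · exact absurd ((hcz x hx hxZ).mp h3) hne
      · exact h3
    obtain ⟨h1, h2, h3, h4, h5, h6, h7⟩ := hi
    have e1 := e b hb h2
    have e2 := e c hc' h3
    have e3 := e (b * c) (mul_mem hb hc') h6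
    have e4 : z * (b * c) = b * c * z := by
      calc z * (b * c) = (z * b) * c := by group
        _ = m * (b * z) * c := by rw [e1]
        _ = m * (b * (z * c)) := by group
        _ = m * (b * (m * (c * z))) := by rw [e2]
        _ = b * c * z := by rw [T.cen', T.mm', mul_assoc]
    rw [e4] at e3
    exact T.m1 (mul_eq_right.mp e3.symm)
  -- squares on `Z` are trivial
  have hZ1 : ∀ x ∈ Z, x * x = 1 := by
    intro x hx
    by_cases hxK : x ∈ K
    · rcases hK x hxK with rfl | rfl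
      · simp
      · exact T.mm
    · have h1 := hmul x hx z⁻¹ (inv_mem hzZ) hxK (by rwa [inv_mem_iff])
      rcases hK _ h1 with h2 | h2
      · rw [mul_inv_eq_one.mp h2]; exact hzz
      · rw [mul_inv_eq_iff_eq_mul.mp h2, T.sq_mul_m]; exact hzz
  obtain ⟨w, hw, hw1⟩ := hex
  have hwZ : w ∉ Z := fun h1 => hw1 (hZ1 w h1)
  have hwm : w * w = m := (T.sqs w hw).resolve_left hw1
  refine T.no_const (K := Z) le_rfl ?_ hx0 hb hc' hi
  intro x hx hxZ
  rw [hconst x hx w hw hxZ hwZ]
  exact hwm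

theorem two_case [Finite Y] (hL : IsL L) {π : Y →* L} (S : Sit π) (h2 : Nat.card (H50Five.sq π.ker) = 2) :
    ∃ (Ω : Subgroup Y) (m : Y), C48 π Ω m := by
  obtain ⟨m, hm, hK, T⟩ := sit_T2S h2
  have hex : ∃ x ∈ π.ker, x * x ≠ 1 := by
    by_contra hcon
    push Not at hcon
    have h1 : H50Five.sq π.ker ≤ ⊥ := by
      rw [sq_le_iff]
      intro x hx
      rw [mem_bot, pow_two]
      exact hcon x hx
    exact T.m1 (mem_bot.mp (h1 hm))
  rcases S.card_cases hL with h8 | h16
  · exfalso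
    have A := S.nat8 hL h8
    obtain ⟨x, hx, hx1⟩ := hex
    exact hx1 (T.nat8_exp hL S.surj hK le_rfl A x hx)
  · have V := S.nat16 hL h16
    have hP : Nat.card π.ker = 32 := by rw [h16, h2]
    rcases orb hL S.surj V with ⟨N, A, hN, htr, -⟩ | ⟨Z, A, hKZ, hcZ, hor⟩
    · have he := T.nat8_exp hL S.surj hK hN A
      have hcN : Nat.card N = 16 := by rw [A.card, h2]
      -- an element with square `m`
      obtain ⟨z, hz, hz1⟩ := hex
      have hzN : z ∉ N := fun h => hz1 (he z h)
      have hzm : z * z = m := (T.sqs z hz).resolve_left hz1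
      refine ⟨N, m, T.final S.surj S.rank hK hm hN A hP hcN he hz hzN ?_ hzm⟩
      intro x hx
      rcases T.comm z hz x (hN hx) with h | h
      · exact h
      · exfalso
        have hzx : z * x ∉ N := fun h1 => hzN ((mul_mem_cancel_right hx).mp h1)
        obtain ⟨g, hg⟩ := htr z hz (z * x) (mul_mem hz (hN hx)) hzN hzx
        have h1 := T.sq_eq hK hz hg
        rw [T.sq_of_ncomm h, he x hx, mul_one] at h1
        exact T.m1 (mul_eq_right.mp h1.symm)
    · rcases hor with ⟨N, B, hN, hNZ, hsup⟩ | h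
      · have he := T.nat8_exp hL S.surj hK hN B
        have hcN : Nat.card N = 16 := by rw [B.card, h2]
        have hcZ4 : Nat.card Z = 4 := by rw [hcZ, h2]
        -- an element of `Z ∖ M`
        obtain ⟨z, hzZ, hzM⟩ : ∃ z ∈ Z, z ∉ H50Five.sq π.ker := by
          by_contra hcon
          push Not at hcon
          have h1 : Nat.card Z ≤ Nat.card (H50Five.sq π.ker) := Subgroup.card_le_of_le hcon
          omega
        have hzP : z ∈ π.ker := A.le hzZ
        have hzN : z ∉ N := fun h => hzM (by rw [← hNZ]; exact Subgroup.mem_inf.2 ⟨h, hzZ⟩)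
        have hZn : Z.Normal := A.nK
        -- the action of `N` on `z`
        have hzc : ∀ x ∈ N, z * x = x * z := by
          intro x hx
          rcases T.comm z hzP x (hN hx) with h | h
          · exact h
          exfalso
          have hxM : x ∉ H50Five.sq π.ker := by
            intro h1
            rcases hK x h1 with rfl | rfl
            · apply T.m1; simpa using h.symm
            · rw [← T.cen z] at h; exact T.m1 (mul_eq_right.mp h.symm)
          have key : ∀ y ∈ N, y ∉ H50Five.sq π.ker → z * y = m * (y * z) := by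
            intro y hy hyM
            obtain ⟨g, hg⟩ := B.trans1 hL S.surj hx hy hxM hyM
            refine T.comm_conj hK h ?_ hg
            have h1 : g * z * g⁻¹ ∈ Z := hZn.conj_mem z hzZ g
            have h2 : g * z * g⁻¹ ∉ H50Five.sq π.ker := by
              intro h3
              apply hzM
              have h4 := (sq_normal (P := π.ker) inferInstance).conj_mem _ h3 g⁻¹
              have h5 : g⁻¹ * (g * z * g⁻¹) * g⁻¹⁻¹ = z := by group
              rwa [h5] at h4
            obtain ⟨n, hn, hn'⟩ := T2S.rep2 hKZ hcZ Nat.card_pos hzZ hzM _ h1 h2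
            rw [hn']
            rcases hK n hn with rfl | rfl
            · simp
            · rw [T.cen]; simpa using hm
          obtain ⟨b, hb, c, hc, h1, h2, h3, h4, h5, h6, h7⟩ := B.exists_ind hx hxM
          have e1 := key b hb h2
          have e2 := key c hc h3
          have e3 := key (b * c) (mul_mem hb hc) h6
          have e4 : z * (b * c) = b * c * z := by
            calc z * (b * c) = (z * b) * c := by group
              _ = m * (b * z) * c := by rw [e1]
              _ = m * (b * (z * c)) := by group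
              _ = m * (b * (m * (c * z))) := by rw [e2]
              _ = b * c * z := by rw [T.cen', T.mm', mul_assoc]
          rw [e4] at e3
          exact T.m1 (mul_eq_right.mp e3.symm)
        have hzz : z * z = m := by
          rcases T.sqs z hzP with h | h
          · exfalso
            obtain ⟨w, hw, hw1⟩ := hex
            have hwN : w ∉ N := fun h1 => hw1 (he w h1)
            obtain ⟨n, hn, rfl⟩ := T2S.rep2 hN (by rw [hP, hcN]) (by rw [hcN]; norm_num) hzP hzN w hw hwN
            apply hw1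
            rw [T2S.sq_of_comm (hzc n hn), h, he n hn, mul_one]
          · exact h
        exact ⟨N, m, T.final S.surj S.rank hK hm hN B hP hcN he hzP hzN hzc hzz⟩
      · exfalso
        exact T.no_A2 hL S.surj hK hm A hKZ (sq_normal inferInstance) hcZ hex h

end Cfsg.Agent.Lib.H64L
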