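import Cfsg.Agent.Lib.H25BpZ
import Cfsg.Agent.Lib.ConjSylow

/-!
# Central subsections of a maximal pair
-/

set_option autoImplicit false

namespace Cfsg.Agent.Lib.H25BpS

open Cfsg Cfsg.Agent.Lib.BlockRing Cfsg.Agent.Lib.BlockGA Cfsg.Agent.Lib.BlockAlg
open Cfsg.Agent.Lib.BlkIdem Cfsg.Agent.Lib.PairAlg Cfsg.Agent.Lib.PairMax
open Cfsg.Agent.Lib.BlockIdem Cfsg.Agent.Lib.BlockSecond Cfsg.Agent.Lib.BrauerPairs
open Cfsg.Agent.Lib.BlkFus Cfsg.Agent.Lib.InducedPair Cfsg.Agent.Lib.DefPairs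
open Cfsg.Agent.Lib.BlkFusDef
open Cfsg.Agent.Lib.NormalPBlk (cid cj_cid br_eq_self_of_idem isBlk_of_centralizer)
open Cfsg.Agent.Lib.H25BpLift Cfsg.Agent.Lib.H25BpTw Cfsg.Agent.Lib.H25BpF Cfsg.Agent.Lib.H25BpI
open Cfsg.Agent.Lib.H25BpE Cfsg.Agent.Lib.H25BpG Cfsg.Agent.Lib.H25BpW Cfsg.Agent.Lib.H25BpM
open Cfsg.Agent.Lib.BlockCount (Bl D rsp rsp_orth sum_blockPart)
open Cfsg.Agent.Lib.Subsec (Cz mem_Cz D_reg D_not_reg D_mem al al_eq al_mem fs mem_fs al_ne_zero al_ne_zero')
open Cfsg.Agent.Lib (BrauerMap.br BrauerMap.cj BrauerMap.fixAlg BrauerMap.suppAlg)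
open MonoidAlgebra (single)
open scoped ComplexConjugate Classical Pointwise

universe u

variable {p : ℕ} [hp : Fact p.Prime] {M : Ideal AlgInt} [hMm : M.IsMaximal] [hchar : CharP (Kf M) p]
  {G : Type u} [Group G] [Finite G] {B : Set (IrrCharacter G)} {P : Subgroup G} {e : MonoidAlgebra (Kf M) G}

/-- blocks of `D C(D)` are blocks of `C(D)` -/
theorem isBlk_centralizer_of_sup (hM : IsPModular p M) {D H : Subgroup G} (hD : IsPGroup p D)
    (hH : H = D ⊔ Subgroup.centralizer (D : Set G)) {f : MonoidAlgebra (Kf M) G} (hf : IsBlk H f) :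
    IsBlk (Subgroup.centralizer (D : Set G)) f := by
  have hDH : D ≤ H := by rw [hH]; exact le_sup_left
  have hCH : Subgroup.centralizer (D : Set G) ≤ H := by rw [hH]; exact le_sup_right
  have hHN : H ≤ Subgroup.normalizer (D : Set G) := by
    rw [hH]; exact sup_le (self_le_normalizer D) (centralizer_le_normalizer D)
  have hbr : BrauerMap.br D f = f := br_eq_self_of_idem hM hDH hHN hD hf.mem hf.idem
  have hsupp : f ∈ BrauerMap.suppAlg (Kf M) (Subgroup.centralizer (D : Set G)) := by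
    rw [← hbr]; exact BrauerMap.br_mem_suppAlg D f
  have hZ : f ∈ BrauerMap.ZAlg (Kf M) (Subgroup.centralizer (D : Set G)) :=
    ⟨hsupp, fun x hx => hf.mem.2 x (hCH hx)⟩
  obtain ⟨f', hf', hff'⟩ := exists_blk_of_idem hasBlocks hZ hf.idem hf.ne_zero
  have hst : ∀ x ∈ H, BrauerMap.cj x f' = f' := by
    intro x hx
    rw [hH] at hx
    have hle : D ⊔ Subgroup.centralizer (D : Set G) ≤ stab ⊤ f' := by
      refine sup_le ?_ ?_
      · intro y hy
        exact ⟨Subgroup.mem_top y, mem_fixAlg_of_supp_centralizer hf'.mem.1 y hy⟩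
      · intro y hy
        exact ⟨Subgroup.mem_top y, hf'.mem.2 y hy⟩
    exact (hle hx).2
  have hf'H : IsBlk H f' := isBlk_of_centralizer hM hDH hHN hCH hD hf' hst
  rcases hf.eq_or_orth hf'H with h1 | h1
  · rw [h1]; exact hf'
  · rw [hff'] at h1
    exact absurd h1 hf'.ne_zero

/-- induced blocks from `D C(D)` give Brauer pairs -/
theorem br_of_induced (hM : IsPModular p M) {D H : Subgroup G} (hD : IsPGroup p D)
    (hH : H = D ⊔ Subgroup.centralizer (D : Set G)) {b : Set (IrrCharacter H)}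
    (hind : IsInducedBlock M H b B) : BrauerMap.br D (bidG M B) * bid M H b = bid M H b := by
  have hMP : M.IsPrime := hMm.isPrime
  have hb := hind.1
  have hB := hind.2.1
  have hDH : D ≤ H := by rw [hH]; exact le_sup_left
  have hHN : H ≤ Subgroup.normalizer (D : Set G) := by
    rw [hH]; exact sup_le (self_le_normalizer D) (centralizer_le_normalizer D)
  have hCH : Subgroup.centralizer (D : Set G) ≤ H := by rw [hH]; exact le_sup_right
  have hBl := locA_eB (M := M) hB
  obtain ⟨ξ, hξ⟩ := isPBlock_nonempty hb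
  obtain ⟨χ, hχ⟩ := isPBlock_nonempty hB
  have h1 := inducedBlock_omega hind hξ hχ (eB_mem_center B) hBl
  rw [omega_eB_mem hχ] at h1
  have h2 := bid_nilp hb hξ (z := resH H (eB B)) (resH_mem_center (eB_mem_center B)) (locA_resH hBl)
  have h3 : red M (omega (ξ : H → ℂ) (resH H (eB B))) = 1 := by
    have h4 : red M (omega (ξ : H → ℂ) (resH H (eB B))) = red M 1 := by
      refine (red_eq_iff ?_ ?_).2 h1
      · exact loc_omega ξ.2 (resH_mem_center (eB_mem_center B)) (locA_resH hBl)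
      · exact loc_one
    rw [h4, red_one]
  rw [h3, one_smul] at h2
  set w := inc H (redA M (resH H (eB B))) with hw
  set e := bid M H b with he
  have hfixB : bidG M B ∈ BrauerMap.fixAlg (Kf M) D := by
    intro x _
    exact (bidG_mem B).2 x (Subgroup.mem_top x)
  have hbrw : BrauerMap.br D w = BrauerMap.br D (bidG M B) := by
    apply BrauerMap.ext_coeff; intro g
    by_cases hg : g ∈ Subgroup.centralizer (D : Set G)
    · rw [BrauerMap.br_coeff_mem hg, BrauerMap.br_coeff_mem hg]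
      exact inc_coeff_coe (M := M) H (redA M (resH H (eB B))) ⟨g, hCH hg⟩
    · rw [BrauerMap.br_coeff_not_mem hg, BrauerMap.br_coeff_not_mem hg]
  have heb : IsBlk H e := isBlk_bid hb
  have hefix : e ∈ BrauerMap.fixAlg (Kf M) D := fun x hx => heb.mem.2 x (hDH hx)
  have hbre : BrauerMap.br D e = e := br_eq_self_of_idem hM hDH hHN hD heb.mem heb.idem
  have hwfix : w ∈ BrauerMap.fixAlg (Kf M) D := by
    have hwZ : w ∈ BrauerMap.ZAlg (Kf M) H := by
      rw [hw]
      refine ⟨fun g hg => inc_coeff_not_mem H _ hg, ?_⟩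
      apply BrauerMap.mem_fixAlg_iff_coeff.mpr
      have hcl := mem_center_iff.mp (resH_mem_center (H := H) (eB_mem_center B))
      intro h hh g
      by_cases hg : g ∈ H
      · have e1 : h * g * h⁻¹ = (((⟨h, hh⟩ : H) * ⟨g, hg⟩ * (⟨h, hh⟩ : H)⁻¹ : H) : G) := rfl
        have e2 : g = ((⟨g, hg⟩ : H) : G) := rfl
        rw [e1, inc_coeff_coe]
        conv_rhs => rw [e2, inc_coeff_coe]
        exact congrArg (red M) (hcl ⟨g, hg⟩ ⟨h, hh⟩)
      · rw [inc_coeff_not_mem H _ hg, inc_coeff_not_mem H _ (fun hc => hg (by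
          have := H.mul_mem (H.mul_mem (H.inv_mem hh) hc) hh
          simpa [mul_assoc] using this))]
    exact fun x hx => hwZ.2 x (hDH hx)
  have hBβ : BrauerMap.br D (w * e - e) = BrauerMap.br D (bidG M B) * e - e := by
    rw [BrauerMap.br_sub, BrauerMap.br_mul hD hwfix hefix, hbrw, hbre]
  obtain ⟨n, hn⟩ := h2
  have hdf : w * e - e ∈ BrauerMap.fixAlg (Kf M) D :=
    Subalgebra.sub_mem _ (Subalgebra.mul_mem _ hwfix hefix) hefix
  have h4 : (BrauerMap.br D (bidG M B) * e - e) ^ n = 0 := by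
    rw [← hBβ, ← br_pow hD hdf, hn, BrauerMap.br_zero]
  set β := BrauerMap.br D (bidG M B) with hβ
  have hββ : β * β = β := by rw [hβ, ← BrauerMap.br_mul hD hfixB hfixB, bidG_mul_self hB]
  have hβZ : β ∈ BrauerMap.ZAlg (Kf M) H := by
    refine ⟨fun g hg => ?_, ?_⟩
    · exact BrauerMap.br_coeff_not_mem (fun hc => hg (hCH hc)) _
    · exact BrauerMap.br_mem_fixAlg hHN (fun x _ => (bidG_mem B).2 x (Subgroup.mem_top x))
  have hcomm : β * e = e * β := heb.comm hβZ
  have h5 : (e - β * e) * (e - β * e) = e - β * e := by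
    have a1 : e * (β * e) = β * e := by rw [← mul_assoc, ← hcomm, mul_assoc, heb.idem]
    have a2 : β * e * e = β * e := by rw [mul_assoc, heb.idem]
    have a3 : β * e * (β * e) = β * e := by rw [mul_assoc, a1, ← mul_assoc, hββ]
    rw [sub_mul, mul_sub, mul_sub, heb.idem, a1, a2, a3]; abel
  have h6 : e - β * e = 0 := by
    apply idem_nilpotent_eq_zero h5
    refine ⟨n, ?_⟩
    have h7 : e - β * e = -(β * e - e) := by abel
    rw [h7, neg_pow, h4, mul_zero]
  exact (sub_eq_zero.1 h6).symm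

/-- the context of an induced block -/
theorem ctx_of_induced (hM : IsPModular p M) {D H : Subgroup G} (hBD : IsDefectGroup p M B D)
    (hB : IsPBlock M B)
    (hH : H = D ⊔ Subgroup.centralizer (D : Set G)) {b : Set (IrrCharacter H)}
    (hind : IsInducedBlock M H b B) : Ctx p B D (bid M H b) := by
  have hdg := (isDefectGroup_iff hB).1 hBD
  have hbr := br_of_induced hM hdg.pg hH hind
  exact ⟨hM, hB, ⟨hdg.pg, isBlk_centralizer_of_sup hM hdg.pg hH (isBlk_bid hind.1)⟩, hbr,
    BlkSat.maxPair_of_dg (bidG_mem B) hdg hbr⟩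

namespace Ctx

variable (h : Ctx p B P e)
include h

/-- the defect group of a central subsection -/
theorem dg_center {u : G} (hu : u ∈ P) (huc : u ∈ Subgroup.centralizer (P : Set G))
    {f : MonoidAlgebra (Kf M) G} (hle : PLE p (Subgroup.zpowers u, f) (P, e)) : DG p (Cc u) P f := by
  have hPu : P ≤ Cc u := by
    intro x hx
    rw [mem_cz]
    exact (Subgroup.mem_centralizer_iff.1 huc x hx).symm
  obtain ⟨b, hb⟩ := h.ple_bl hu
  have hfb : bid M (Cz u) b.1 = f := unique_sub hasBlocks h.pair hb hle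
  subst hfb
  have hbp : BPair p (Subgroup.zpowers u) (bid M (Cz u) b.1) := hle.pair h.pair
  obtain ⟨D₀, hD₀⟩ := exists_defectGroup_sub (p := p) (M := M) (H := Cz u) b.2
  have hD₀' : DG p (Cc u) D₀ (bid M (Cz u) b.1) := by
    have key : ∀ H : Subgroup G, Cz u = H → DG p H D₀ (bid M (Cz u) b.1) := by
      rintro H rfl; exact hD₀
    exact key _ (Cz_eq_Cc u)
  have h1 := (fully_iff hasBlocks (isBlk_bidG h.blk) h.pair h.br h.max hle
    (fun Q _ => Subgroup.centralizer (Q : Set G)) (fun Q _ => centralizer_le_normalizer Q)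
    (fun x hx => ⟨Subgroup.mem_top x, hbp.2.mem.2 x hx⟩) (fun x Q f => centralizer_cg x Q) hD₀').1
    (fun g hg => by
      refine le_trans (Nat.card_mono (Set.toFinite _) inf_le_left) ?_
      exact (congrArg (fun K : Subgroup G => Nat.card K) (inf_eq_left.2 hPu)).ge)
  rwa [inf_eq_left.2 hPu] at h1

/-- the stabilizer of the pair controls the fusion of central subsections -/
theorem control_center {u g : G} (hg : g * u * g⁻¹ ∈ P)
    (hgc : g * u * g⁻¹ ∈ Subgroup.centralizer (P : Set G)) (hu : u ∈ P)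
    (huc : u ∈ Subgroup.centralizer (P : Set G))
    {f : MonoidAlgebra (Kf M) G} (hle : PLE p (Subgroup.zpowers u, f) (P, e))
    (hle' : PLE p (cg g (Subgroup.zpowers u), BrauerMap.cj g f) (P, e)) :
    ∃ c ∈ Cc (g * u * g⁻¹), c * g ∈ stab (Subgroup.normalizer (P : Set G)) e := by
  rw [cg_zpowers] at hle'
  set z := g * u * g⁻¹ with hz
  have hPz : P ≤ Cc z := by
    intro x hx
    rw [mem_cz]
    exact (Subgroup.mem_centralizer_iff.1 hgc x hx).symm
  have hPgz : cg g P ≤ Cc z := by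
    intro x hx
    rw [mem_cg] at hx
    rw [mem_cz]
    have h1 := Subgroup.mem_centralizer_iff.1 huc _ hx
    rw [hz]
    calc g * u * g⁻¹ * x = g * (u * (g⁻¹ * x * g)) * g⁻¹ := by group
      _ = g * (g⁻¹ * x * g * u) * g⁻¹ := by rw [h1]
      _ = x * (g * u * g⁻¹) := by group
  have hfb : IsBlk (Cc z) (BrauerMap.cj g f) := (hle'.pair h.pair).2
  have hdg := h.dg_center hg hgc hle'
  have hCz : Subgroup.centralizer (P : Set G) ≤ Cc z := by
    intro x hx
    rw [mem_cz]
    exact (Subgroup.mem_centralizer_iff.1 hx z hg)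
  have hNz : ∀ Q : Subgroup G, Q ≤ Cc z → Q ≤ Subgroup.normalizer ((Subgroup.zpowers z : Subgroup G) : Set G) :=
    fun Q hQ => hQ.trans (centralizer_le_normalizer _)
  have h1 : BrauerMap.br P (BrauerMap.cj g f) * e = e := (hle'.nle hasBlocks h.pair (hNz P hPz)).br_mul
  have hcgle : PLE p (Subgroup.zpowers z, BrauerMap.cj g f) (cg g P, BrauerMap.cj g e) := by
    have := ple_cg hle g
    rwa [cg_zpowers] at this
  have hpair' : BPair p (cg g P) (BrauerMap.cj g e) := h.pair.cj g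
  have h2 : BrauerMap.br (cg g P) (BrauerMap.cj g f) * BrauerMap.cj g e = BrauerMap.cj g e :=
    (hcgle.nle hasBlocks hpair' (hNz _ hPgz)).br_mul
  have hCU : Subgroup.centralizer ((cg g P : Subgroup G) : Set G) ≤ Cc z := by
    intro x hx
    rw [mem_cz]
    refine Subgroup.mem_centralizer_iff.1 hx z ?_
    show z ∈ cg g P
    rw [mem_cg, hz]
    have : g⁻¹ * (g * u * g⁻¹) * g = u := by group
    rw [this]; exact hu
  obtain ⟨y, hy, hyle⟩ := BlkSat.conj_in_sub hfb hdg h.pair hCz h1 hpair' hPgz hCU h2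
  rw [← cg_mul] at hyle
  have hcard : cg (y * g) P = P := by
    apply Subgroup.eq_of_le_of_card_ge hyle.le
    rw [card_cg]
  rw [hcard] at hyle
  have h3 := hyle.eq_of_eq
  refine ⟨y, hy, mem_normalizer_of_cg hcard, ?_⟩
  rw [BrauerMap.cj_mul]; exact h3

/-- number of elements conjugating a central subsection into the centre -/
theorem card_TZ {u : G} (hu : u ∈ P) (huc : u ∈ Subgroup.centralizer (P : Set G))
    {f : MonoidAlgebra (Kf M) G} (hle : PLE p (Subgroup.zpowers u, f) (P, e)) :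
    Nat.card {g : G // PLE p (cg g (Subgroup.zpowers u), BrauerMap.cj g f) (P, e) ∧
      g * u * g⁻¹ ∈ Subgroup.centralizer (P : Set G)} *
      Nat.card (P ⊔ Subgroup.centralizer (P : Set G) : Subgroup G) ≤
        Nat.card (stab (Subgroup.normalizer (P : Set G)) e) * Nat.card (Cc u) := by
  have hsub : P ⊔ Subgroup.centralizer (P : Set G) ≤ stab (Subgroup.normalizer (P : Set G)) e ⊓ Cc u := by
    refine le_inf (sup_le ?_ ?_) (sup_le ?_ ?_)
    · intro y hy
      exact ⟨self_le_normalizer P hy, mem_fixAlg_of_supp_centralizer h.pair.2.mem.1 y hy⟩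
    · intro y hy
      exact ⟨centralizer_le_normalizer P hy, h.pair.2.mem.2 y hy⟩
    · intro x hx
      rw [mem_cz]
      exact (Subgroup.mem_centralizer_iff.1 huc x hx).symm
    · intro x hx
      rw [mem_cz]
      exact (Subgroup.mem_centralizer_iff.1 hx u hu)
  rw [← ConjSylow.card_mul_mul_card_inf (stab (Subgroup.normalizer (P : Set G)) e) (Cc u)]
  refine Nat.mul_le_mul ?_ (Nat.card_mono (Set.toFinite _) hsub)
  have key : ∀ g : G, (PLE p (cg g (Subgroup.zpowers u), BrauerMap.cj g f) (P, e) ∧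
      g * u * g⁻¹ ∈ Subgroup.centralizer (P : Set G)) →
      g ∈ ((stab (Subgroup.normalizer (P : Set G)) e : Set G) * (Cc u : Set G)) := by
    rintro g ⟨h1, h2⟩
    have h3 : g * u * g⁻¹ ∈ P := by
      apply h1.le
      show g * u * g⁻¹ ∈ cg g (Subgroup.zpowers u)
      rw [cg_zpowers]
      exact Subgroup.mem_zpowers _
    obtain ⟨c, hc, hcg⟩ := h.control_center h3 h2 hu huc hle h1
    refine ⟨c * g, hcg, (c * g)⁻¹ * g, ?_, by group⟩
    show (c * g)⁻¹ * g ∈ Cc u
    rw [mem_cz]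
    rw [mem_cz] at hc
    have h4 : g * u * g⁻¹ * c⁻¹ = c⁻¹ * (g * u * g⁻¹) := by
      have h5 : g * u * g⁻¹ * c = c * (g * u * g⁻¹) := hc
      calc g * u * g⁻¹ * c⁻¹ = c⁻¹ * (c * (g * u * g⁻¹)) * c⁻¹ := by group
        _ = c⁻¹ * (g * u * g⁻¹ * c) * c⁻¹ := by rw [h5]
        _ = _ := by group
    calc u * ((c * g)⁻¹ * g) = g⁻¹ * (g * u * g⁻¹ * c⁻¹) * g := by group
      _ = g⁻¹ * (c⁻¹ * (g * u * g⁻¹)) * g := by rw [h4]
      _ = (c * g)⁻¹ * g * u := by group
  exact Nat.card_le_card_of_injective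
    (fun g : {g : G // PLE p (cg g (Subgroup.zpowers u), BrauerMap.cj g f) (P, e) ∧
      g * u * g⁻¹ ∈ Subgroup.centralizer (P : Set G)} =>
      (⟨g.1, key g.1 g.2⟩ : ((stab (Subgroup.normalizer (P : Set G)) e : Set G) * (Cc u : Set G) : Set G)))
    (fun a b hab => Subtype.ext (by simpa using hab))

/-- double counting of conjugating elements, central version -/
theorem sum_pairs_c [Fintype P] (Θ : G → MonoidAlgebra (Kf M) G → ℝ)
    (hΘ : ∀ g u b, Θ (g * u * g⁻¹) (BrauerMap.cj g b) = Θ u b) :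
    ∑ u ∈ PE p G, ∑ b ∈ blks M (Cc u),
      (Nat.card {g : G // PLE p (cg g (Subgroup.zpowers u), BrauerMap.cj g b) (P, e) ∧
        g * u * g⁻¹ ∈ Subgroup.centralizer (P : Set G)} : ℝ) * Θ u b =
      (Nat.card G : ℝ) * ∑ x : P, if (x : G) ∈ Subgroup.centralizer (P : Set G) then Θ x (h.fx x) else 0 := by
  have := Fintype.ofFinite G
  have h1 : ∀ u b, (Nat.card {g : G // PLE p (cg g (Subgroup.zpowers u), BrauerMap.cj g b) (P, e) ∧
        g * u * g⁻¹ ∈ Subgroup.centralizer (P : Set G)} : ℝ) * Θ u b =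
      ∑ g : G, if PLE p (cg g (Subgroup.zpowers u), BrauerMap.cj g b) (P, e) ∧
        g * u * g⁻¹ ∈ Subgroup.centralizer (P : Set G) then Θ u b else 0 := by
    intro u b
    rw [Nat.card_eq_fintype_card, Fintype.card_subtype, ← Finset.sum_filter, Finset.sum_const, nsmul_eq_mul]
  simp only [h1]
  rw [Finset.sum_sigma', Finset.sum_comm]
  have h2 : ∀ g : G, ∑ z ∈ (PE p G).sigma (fun u => blks M (Cc u)),
      (if PLE p (cg g (Subgroup.zpowers z.1), BrauerMap.cj g z.2) (P, e) ∧
        g * z.1 * g⁻¹ ∈ Subgroup.centralizer (P : Set G) then Θ z.1 z.2 else 0) =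
      ∑ x : P, if (x : G) ∈ Subgroup.centralizer (P : Set G) then Θ x (h.fx x) else 0 := by
    intro g
    rw [← Finset.sum_filter, ← Finset.sum_filter]
    have hmem : ∀ z : (_ : G) × MonoidAlgebra (Kf M) G,
        PLE p (cg g (Subgroup.zpowers z.1), BrauerMap.cj g z.2) (P, e) → g * z.1 * g⁻¹ ∈ P := by
      intro z hz
      apply hz.le
      show g * z.1 * g⁻¹ ∈ cg g (Subgroup.zpowers z.1)
      rw [cg_zpowers]
      exact Subgroup.mem_zpowers _
    have hfx : ∀ z : (_ : G) × MonoidAlgebra (Kf M) G,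
        ∀ hz : PLE p (cg g (Subgroup.zpowers z.1), BrauerMap.cj g z.2) (P, e),
        h.fx ⟨g * z.1 * g⁻¹, hmem z hz⟩ = BrauerMap.cj g z.2 := by
      intro z hz
      apply h.fx_eq
      rw [cg_zpowers] at hz
      exact hz
    refine Finset.sum_bij (fun z hz => (⟨g * z.1 * g⁻¹, hmem z (Finset.mem_filter.1 hz).2.1⟩ : P)) ?_ ?_ ?_ ?_
    · intro z hz
      rw [Finset.mem_filter]
      exact ⟨Finset.mem_univ _, (Finset.mem_filter.1 hz).2.2⟩
    · intro z hz w hw hzw
      have e1 : z.1 = w.1 := by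
        have := congrArg Subtype.val hzw
        have h3 : g * z.1 * g⁻¹ = g * w.1 * g⁻¹ := this
        exact mul_left_cancel (mul_right_cancel h3)
      have e2 : z.2 = w.2 := by
        have a1 := hfx z (Finset.mem_filter.1 hz).2.1
        have a2 := hfx w (Finset.mem_filter.1 hw).2.1
        apply (BrauerMap.cj g).injective
        rw [← a1, ← a2]
        congr 1
      cases z; cases w
      simp only at e1 e2
      subst e1; subst e2
      rfl
    · intro x hxc
      have hx : PLE p (cg g (Subgroup.zpowers (g⁻¹ * (x : G) * g)), BrauerMap.cj g (BrauerMap.cj g⁻¹ (h.fx x)))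
          (P, e) := by
        rw [BrauerMap.cj_cj_inv, cg_zpowers]
        have : g * (g⁻¹ * (x : G) * g) * g⁻¹ = x := by group
        rw [this]
        exact h.fx_spec x
      refine ⟨⟨g⁻¹ * (x : G) * g, BrauerMap.cj g⁻¹ (h.fx x)⟩, ?_, ?_⟩
      · rw [Finset.mem_filter, Finset.mem_sigma]
        refine ⟨⟨?_, ?_⟩, hx, ?_⟩
        · rw [mem_PE]
          have : g⁻¹ * (x : G) * g = g⁻¹ * x * (g⁻¹)⁻¹ := by rw [inv_inv]
          rw [this, orderOf_conj]
          exact PE_of_mem h.pair.1 x.2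
        · rw [mem_blks]
          have h3 : IsBlk (Cc (x : G)) (h.fx x) := ((h.fx_spec x).pair h.pair).2
          apply h3.cj
          intro y
          have : g⁻¹ * (x : G) * g = g⁻¹ * x * (g⁻¹)⁻¹ := by rw [inv_inv]
          show y ∈ Cc (g⁻¹ * (x : G) * g) ↔ _
          rw [this, mem_Cc_conj]
        · have : g * (g⁻¹ * (x : G) * g) * g⁻¹ = x := by group
          show g * (g⁻¹ * (x : G) * g) * g⁻¹ ∈ _
          rw [this]
          exact (Finset.mem_filter.1 hxc).2
      · apply Subtype.ext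
        show g * (g⁻¹ * (x : G) * g) * g⁻¹ = x
        group
    · intro z hz
      rw [hfx z (Finset.mem_filter.1 hz).2.1]
      exact (hΘ g z.1 z.2).symm
  rw [Finset.sum_congr rfl (fun g _ => h2 g), Finset.sum_const, nsmul_eq_mul, Finset.card_univ,
    Nat.card_eq_fintype_card]

end Ctx

end Cfsg.Agent.Lib.H25BpS
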