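import Cfsg.Agent.Lib.H25BpH
import Cfsg.Agent.Lib.SubsecCount

/-!
# Heights and the centre of the defect group
-/

set_option autoImplicit false

namespace Cfsg.Agent.Lib.H25BpS

open Cfsg Cfsg.Agent.Lib.BlockRing Cfsg.Agent.Lib.BlockGA Cfsg.Agent.Lib.BlockAlg
open Cfsg.Agent.Lib.BlkIdem Cfsg.Agent.Lib.PairAlg Cfsg.Agent.Lib.PairMax
open Cfsg.Agent.Lib.BlockIdem Cfsg.Agent.Lib.BlockSecond Cfsg.Agent.Lib.BrauerPairs
open Cfsg.Agent.Lib.BlkFus Cfsg.Agent.Lib.InducedPair Cfsg.Agent.Lib.DefPairs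
open Cfsg.Agent.Lib.BlkFusDef Cfsg.Agent.Lib.CycAvg
open Cfsg.Agent.Lib.H25BpLift Cfsg.Agent.Lib.H25BpTw Cfsg.Agent.Lib.H25BpF Cfsg.Agent.Lib.H25BpI
open Cfsg.Agent.Lib.H25BpE Cfsg.Agent.Lib.H25BpG Cfsg.Agent.Lib.H25BpW Cfsg.Agent.Lib.H25BpM
open Cfsg.Agent.Lib.BlockCount (Bl D rsp rsp_orth sum_blockPart)
open Cfsg.Agent.Lib.Subsec (Cz mem_Cz D_reg D_not_reg D_mem al al_eq al_mem fs mem_fs al_ne_zero al_ne_zero'
  al_idem al_conj al_loc)
open Cfsg.Agent.Lib (BrauerMap.br BrauerMap.cj BrauerMap.fixAlg BrauerMap.suppAlg)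
open MonoidAlgebra (single)
open scoped ComplexConjugate Classical Pointwise

universe u

variable {p : ℕ} [hp : Fact p.Prime] {M : Ideal AlgInt} [hMm : M.IsMaximal] [hchar : CharP (Kf M) p]
  {G : Type u} [Group G] [Finite G] {B : Set (IrrCharacter G)} {P : Subgroup G} {e : MonoidAlgebra (Kf M) G}

omit hp hchar in
/-- real average of the local norms -/
noncomputable def ra (p N : ℕ) [NeZero N] (χ : G → ℂ) (u : G) (f : MonoidAlgebra (Kf M) G) : ℝ :=
  (av N (CI p χ χ u f)).re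

omit hp hchar in
theorem ra_conj {N : ℕ} [NeZero N] {χ : G → ℂ} (hχ : IsClassFunction G χ) (g u : G)
    (f : MonoidAlgebra (Kf M) G) : ra p N χ (g * u * g⁻¹) (BrauerMap.cj g f) = ra p N χ u f := by
  unfold ra
  rw [CI_conj hχ hχ]

omit hp hMm hchar in
theorem al_av {N : ℕ} [NeZero N] (hM : IsPModular p M) {u : G} {k : ℕ} (hk : orderOf u = p ^ k)
    (huN : u ^ N = 1) {b : Set (IrrCharacter (Cz u))} (hind : IsInducedBlock M (Cz u) b B) (χ : IrrCharacter G) :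
    (p : ℂ) ^ blockDefect p b * av N (al p u b (χ : G → ℂ) (χ : G → ℂ)) =
      ((∑ ψ ∈ fs B, avn N (al p u b (χ : G → ℂ) (ψ : G → ℂ)) : ℝ) : ℂ) := by
  have hmem : ∀ ψ : IrrCharacter G, al p u b (χ : G → ℂ) (ψ : G → ℂ) ∈ Z N := fun ψ =>
    al_mem hM huN hind.1 χ ψ
  have h1 := congrArg (av N) (al_idem hM hk hind (χ : G → ℂ) (χ : G → ℂ))
  have h2 : av N ((p : ℂ) ^ blockDefect p b * al p u b (χ : G → ℂ) (χ : G → ℂ)) =
      (p : ℂ) ^ blockDefect p b * av N (al p u b (χ : G → ℂ) (χ : G → ℂ)) := by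
    have h3 := av_nat_mul (N := N) (p ^ blockDefect p b) (al p u b (χ : G → ℂ) (χ : G → ℂ))
    push_cast at h3
    exact h3
  rw [h2, av_sum] at h1
  rw [← h1]
  push_cast
  refine Finset.sum_congr rfl fun ψ _ => ?_
  rw [← al_conj u b (χ : G → ℂ) (ψ : G → ℂ), av_mul_conj (hmem ψ)]

namespace Ctx

variable (h : Ctx p B P e)
include h

theorem ra_bl {N : ℕ} [NeZero N] {u : G} (huN : u ^ N = 1) (hu : ∃ k, orderOf u = p ^ k) (b : Bl M (Cz u))
    {χ : IrrCharacter G} (hχ : χ ∈ B) :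
    av N (CI p (χ : G → ℂ) (χ : G → ℂ) u (bid M (Cz u) b.1)) = (ra p N (χ : G → ℂ) u (bid M (Cz u) b.1) : ℂ) ∧
      0 ≤ ra p N (χ : G → ℂ) u (bid M (Cz u) b.1) := by
  have hM := h.mod
  have := Fintype.ofFinite (Cz u)
  have := Fintype.ofFinite G
  have hp0 : (p : ℂ) ≠ 0 := by exact_mod_cast hp.out.ne_zero
  by_cases hind : IsInducedBlock M (Cz u) b.1 B
  · obtain ⟨k, hk⟩ := hu
    have h1 := al_av hM hk huN hind χ
    set S : ℝ := ∑ ψ ∈ fs B, avn N (al p u b.1 (χ : G → ℂ) (ψ : G → ℂ)) with hS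
    have hS0 : 0 ≤ S := Finset.sum_nonneg fun ψ _ => avn_nonneg _
    have h2 : CI p (χ : G → ℂ) (χ : G → ℂ) u (bid M (Cz u) b.1) =
        (((p : ℚ) ^ blockDefect p b.1)⁻¹ : ℚ) * al p u b.1 (χ : G → ℂ) (χ : G → ℂ) := by
      rw [CI_eq, al_eq]
      push_cast
      rw [inv_mul_cancel_left₀ (pow_ne_zero _ hp0)]
    have h3 : av N (CI p (χ : G → ℂ) (χ : G → ℂ) u (bid M (Cz u) b.1)) =
        ((S / (p : ℝ) ^ blockDefect p b.1 / (p : ℝ) ^ blockDefect p b.1 : ℝ) : ℂ) := by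
      rw [h2, av_rat_mul]
      push_cast
      rw [eq_div_iff (pow_ne_zero _ hp0), eq_div_iff (pow_ne_zero _ hp0), ← h1]
      field_simp
    have h4 : ra p N (χ : G → ℂ) u (bid M (Cz u) b.1) =
        S / (p : ℝ) ^ blockDefect p b.1 / (p : ℝ) ^ blockDefect p b.1 := by
      unfold ra
      rw [h3, Complex.ofReal_re]
    rw [h4]
    exact ⟨h3, by positivity⟩
  · have h1 := D_eq_zero_of_not hM h.blk hχ hu b.2 hind
    have h2 : CI p (χ : G → ℂ) (χ : G → ℂ) u (bid M (Cz u) b.1) = 0 := by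
      rw [CI_eq, h1, IndFun.classInner_zero_left]
    unfold ra
    rw [h2, av_zero]
    simp

/-- the norm of a character as a sum over sections -/
theorem card_eq_sum {χ : IrrCharacter G} :
    (Nat.card G : ℂ) = ∑ u ∈ PE p G, (Nat.card (Cc u) : ℂ) *
      ∑ f ∈ blks M (Cc u), CI p (χ : G → ℂ) (χ : G → ℂ) u f := by
  have := Fintype.ofFinite G
  have h0 := inner_F (p := p) (M := M) (W := fun (_ : G) (_ : MonoidAlgebra (Kf M) G) => (1 : ℂ))
    (W' := fun (_ : G) (_ : MonoidAlgebra (Kf M) G) => (1 : ℂ)) χ.2.isClassFunction χ.2.isClassFunction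
  rw [F_one h.mod χ.2.isClassFunction, χ.2.classInner_self] at h0
  have hG : (Nat.card G : ℂ) ≠ 0 := by exact_mod_cast Nat.card_pos.ne'
  rw [eq_inv_mul_iff_mul_eq₀ hG, mul_one] at h0
  rw [h0]
  refine Finset.sum_congr rfl fun u _ => ?_
  have := Fintype.ofFinite (Bl M (Cz u))
  have h3 : (Nat.card (Cz u) : ℂ) = (Nat.card (Cc u) : ℂ) := by rw [Cz_eq_Cc]
  have h4 : ∑ b ∈ blks M (Cc u), CI p (χ : G → ℂ) (χ : G → ℂ) u b =
      ∑ b : Bl M (Cz u), CI p (χ : G → ℂ) (χ : G → ℂ) u (bid M (Cz u) b.1) := by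
    rw [← finsum_eq_sum_of_fintype]
    exact (sum_Bl_eq u (fun b => CI p (χ : G → ℂ) (χ : G → ℂ) u b)).symm
  rw [inner_sec h.mod, h3, h4]
  congr 1
  refine Finset.sum_congr rfl fun b _ => ?_
  rw [CI_eq]
  simp

omit hp hchar h in
theorem exists_bl {u : G} {f : MonoidAlgebra (Kf M) G} (hf : f ∈ blks M (Cc u)) :
    ∃ b : Bl M (Cz u), bid M (Cz u) b.1 = f := by
  rw [mem_blks, ← Cz_eq_Cc] at hf
  obtain ⟨b, hb, hbf⟩ := exists_bid hf
  exact ⟨⟨b, hb⟩, hbf⟩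

/-- averaged norm formula -/
theorem card_eq_sum_ra {N : ℕ} [NeZero N] (hN : ∀ u : G, (∃ k, orderOf u = p ^ k) → u ^ N = 1)
    {χ : IrrCharacter G} (hχ : χ ∈ B) :
    (Nat.card G : ℝ) = ∑ u ∈ PE p G, ∑ f ∈ blks M (Cc u), (Nat.card (Cc u) : ℝ) * ra p N (χ : G → ℂ) u f := by
  have h1 := congrArg (av N) (h.card_eq_sum (χ := χ))
  rw [av_natCast, av_sum] at h1
  have h2 : (((Nat.card G : ℝ)) : ℂ) = ((∑ u ∈ PE p G, ∑ f ∈ blks M (Cc u),
      (Nat.card (Cc u) : ℝ) * ra p N (χ : G → ℂ) u f : ℝ) : ℂ) := by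
    push_cast
    rw [h1]
    refine Finset.sum_congr rfl fun u hu => ?_
    rw [av_nat_mul, av_sum, Finset.mul_sum]
    refine Finset.sum_congr rfl fun f hf => ?_
    obtain ⟨b, rfl⟩ := exists_bl hf
    rw [mem_PE] at hu
    rw [(h.ra_bl (hN u hu) hu b hχ).1]
  exact Complex.ofReal_injective h2

/-- lower bound for central subsections -/
theorem le_ra_center {n : ℕ} [NeZero (p ^ (n + 1))] (hN : ∀ u : G, (∃ k, orderOf u = p ^ k) → u ^ p ^ (n + 1) = 1)
    {χ : IrrCharacter G} (hχ : χ ∈ B) (x : P) (hxc : (x : G) ∈ Subgroup.centralizer (P : Set G)) :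
    (p : ℝ) ^ blockHeight p B (χ : G → ℂ) / (p : ℝ) ^ blockDefect p B ≤
      ra p (p ^ (n + 1)) (χ : G → ℂ) x (h.fx x) := by
  have hM := h.mod
  have := Fintype.ofFinite (Cz (x : G))
  have := Fintype.ofFinite G
  have hp0 : (p : ℂ) ≠ 0 := by exact_mod_cast hp.out.ne_zero
  have hp0' : (0 : ℝ) < p := by exact_mod_cast hp.out.pos
  obtain ⟨b, hb⟩ := h.ple_bl x.2
  have hfx := h.fx_eq hb
  have hind := h.ind_self x.2 b hb
  have hdef := h.defect_center x.2 hxc b hb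
  have hu := PE_of_mem (p := p) h.pair.1 x.2
  obtain ⟨k, hk⟩ := hu
  have : NeZero (p ^ (k + 1)) := ⟨pow_ne_zero _ hp.out.ne_zero⟩
  have hxN := hN x ⟨k, hk⟩
  set N := p ^ (n + 1) with hNd
  have hmem : ∀ ψ : IrrCharacter G, al p (x : G) b.1 (χ : G → ℂ) (ψ : G → ℂ) ∈ Z N := fun ψ =>
    al_mem hM hxN b.2 χ ψ
  set t := blockHeight p B (χ : G → ℂ) with ht
  have hloc := al_loc hM (z := (x : G)) (k := n + 1) hxN b.2 hdef hχ χ
  have hy := mem_of_loc_div hM t (hmem χ) hloc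
  obtain ⟨ψ₀, hψ₀, h0⟩ := BlockDeg.exists_height_zero (p := p) (isPBlock_nonempty h.blk)
  have hne := al_ne_zero hM hk hind hdef hχ hψ₀ h0
  obtain ⟨a, ha, ha1⟩ := one_le_av_of_pos hy (by
    intro u
    refine ⟨(∑ ψ ∈ fs B, ‖sig N u (al p (x : G) b.1 (χ : G → ℂ) (ψ : G → ℂ))‖ ^ 2) /
      (p : ℝ) ^ blockDefect p b.1 / (p : ℝ) ^ t, ?_, ?_⟩
    · apply div_pos _ (by positivity)
      apply div_pos _ (by positivity)
      refine lt_of_lt_of_le ?_ (Finset.single_le_sum (f := fun ψ : IrrCharacter G =>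
          ‖sig N u (al p (x : G) b.1 (χ : G → ℂ) (ψ : G → ℂ))‖ ^ 2) (fun ψ _ => by positivity) (mem_fs.2 hψ₀))
      have := norm_pos_iff.2 (sig_ne_zero u hne)
      positivity
    · have h1 := congrArg (sig N u) (al_idem hM hk hind (χ : G → ℂ) (χ : G → ℂ))
      rw [map_sum, map_mul, map_pow, map_natCast] at h1
      rw [map_div₀, map_pow, map_natCast]
      push_cast
      congr 1
      rw [eq_div_iff (pow_ne_zero _ hp0), mul_comm, ← h1]
      refine Finset.sum_congr rfl fun ψ _ => ?_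
      rw [← al_conj (x : G) b.1 (χ : G → ℂ) (ψ : G → ℂ), map_mul, sig_conj u (hmem ψ), Complex.mul_conj,
        Complex.normSq_eq_norm_sq]
      push_cast
      rfl)
  have h2 : CI p (χ : G → ℂ) (χ : G → ℂ) x (bid M (Cz (x : G)) b.1) =
      (((p : ℚ) ^ t / (p : ℚ) ^ blockDefect p B : ℚ) : ℂ) *
        (al p (x : G) b.1 (χ : G → ℂ) (χ : G → ℂ) / (p : ℂ) ^ t) := by
    rw [CI_eq, al_eq, hdef]
    push_cast
    field_simp
  unfold ra
  rw [hfx, h2, av_rat_mul, ha]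
  have h3 : ((((p : ℚ) ^ t / (p : ℚ) ^ blockDefect p B : ℚ) : ℂ) * (a : ℂ)).re =
      (p : ℝ) ^ t / (p : ℝ) ^ blockDefect p B * a := by
    have : ((((p : ℚ) ^ t / (p : ℚ) ^ blockDefect p B : ℚ) : ℂ) * (a : ℂ)) =
        (((p : ℝ) ^ t / (p : ℝ) ^ blockDefect p B * a : ℝ) : ℂ) := by push_cast; rfl
    rw [this, Complex.ofReal_re]
  rw [h3]
  exact le_mul_of_one_le_right (by positivity) ha1

/-- heights, centre, inertial index -/
theorem height_center {χ : IrrCharacter G} (hχ : χ ∈ B) {E : ℕ}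
    (hE : (P ⊔ Subgroup.centralizer (P : Set G)).relIndex (stab (Subgroup.normalizer (P : Set G)) e) ≤ E)
    {c : ℕ} (hc : Nat.card (Subgroup.center P) = c) :
    c * p ^ blockHeight p B (χ : G → ℂ) ≤ E * p ^ blockDefect p B := by
  have := Fintype.ofFinite P
  set S := stab (Subgroup.normalizer (P : Set G)) e with hS
  set H := P ⊔ Subgroup.centralizer (P : Set G) with hH
  set n := (Nat.card G).factorization p with hn
  have : NeZero (p ^ (n + 1)) := ⟨pow_ne_zero _ hp.out.ne_zero⟩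
  have hN : ∀ u : G, (∃ k, orderOf u = p ^ k) → u ^ p ^ (n + 1) = 1 := by
    rintro u ⟨k, hk⟩
    apply orderOf_dvd_iff_pow_eq_one.1
    rw [hk]
    apply pow_dvd_pow
    have h1 : p ^ k ∣ Nat.card G := by rw [← hk]; exact orderOf_dvd_natCard u
    have h2 := (hp.out.pow_dvd_iff_le_factorization Nat.card_pos.ne').1 h1
    omega
  have hHS : H ≤ S := by
    refine sup_le ?_ ?_
    · intro y hy
      exact ⟨self_le_normalizer P hy, mem_fixAlg_of_supp_centralizer h.pair.2.mem.1 y hy⟩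
    · intro y hy
      exact ⟨centralizer_le_normalizer P hy, h.pair.2.mem.2 y hy⟩
  let TZ : G → MonoidAlgebra (Kf M) G → ℕ := fun u f =>
    Nat.card {g : G // PLE p (cg g (Subgroup.zpowers u), BrauerMap.cj g f) (P, e) ∧
      g * u * g⁻¹ ∈ Subgroup.centralizer (P : Set G)}
  have hTconj : ∀ g u f, TZ (g * u * g⁻¹) (BrauerMap.cj g f) = TZ u f := by
    intro g u f
    apply Nat.card_congr
    have key : ∀ g' : G, (PLE p (cg g' (Subgroup.zpowers (g * u * g⁻¹)), BrauerMap.cj g' (BrauerMap.cj g f)) (P, e) ∧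
        g' * (g * u * g⁻¹) * g'⁻¹ ∈ Subgroup.centralizer (P : Set G)) ↔
        (PLE p (cg (g' * g) (Subgroup.zpowers u), BrauerMap.cj (g' * g) f) (P, e) ∧
        (g' * g) * u * (g' * g)⁻¹ ∈ Subgroup.centralizer (P : Set G)) := by
      intro g'
      rw [← cg_zpowers, ← cg_mul, ← BrauerMap.cj_mul]
      have : g' * (g * u * g⁻¹) * g'⁻¹ = (g' * g) * u * (g' * g)⁻¹ := by group
      rw [this]
    exact {
      toFun := fun g' => ⟨g'.1 * g, (key g'.1).1 g'.2⟩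
      invFun := fun g' => ⟨g'.1 * g⁻¹, (key _).2 (by rw [inv_mul_cancel_right]; exact g'.2)⟩
      left_inv := fun g' => Subtype.ext (by simp)
      right_inv := fun g' => Subtype.ext (by simp) }
  let Θ : G → MonoidAlgebra (Kf M) G → ℝ := fun u f =>
    (Nat.card (Cc u) : ℝ) / (TZ u f : ℝ) * ra p (p ^ (n + 1)) (χ : G → ℂ) u f
  have hΘ : ∀ g u f, Θ (g * u * g⁻¹) (BrauerMap.cj g f) = Θ u f := by
    intro g u f
    show (Nat.card (Cc (g * u * g⁻¹)) : ℝ) / (TZ (g * u * g⁻¹) (BrauerMap.cj g f) : ℝ) * _ = _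
    rw [hTconj, card_Cc, ra_conj χ.2.isClassFunction]
  have h1 := h.sum_pairs_c Θ hΘ
  have h2 := h.card_eq_sum_ra hN hχ
  have h3 : ∑ u ∈ PE p G, ∑ f ∈ blks M (Cc u), (TZ u f : ℝ) * Θ u f ≤ (Nat.card G : ℝ) := by
    rw [h2]
    refine Finset.sum_le_sum fun u hu => Finset.sum_le_sum fun f hf => ?_
    rw [mem_PE] at hu
    obtain ⟨b, rfl⟩ := exists_bl hf
    have h0 := (h.ra_bl (hN u hu) hu b hχ).2
    show (TZ u _ : ℝ) * ((Nat.card (Cc u) : ℝ) / (TZ u _ : ℝ) * ra p (p ^ (n + 1)) (χ : G → ℂ) u _) ≤ _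
    by_cases ht : TZ u (bid M (Cz u) b.1) = 0
    · rw [ht, Nat.cast_zero, zero_mul]
      positivity
    · have ht' : (TZ u (bid M (Cz u) b.1) : ℝ) ≠ 0 := by exact_mod_cast ht
      rw [← mul_assoc, mul_div_cancel₀ _ ht']
  rw [h1] at h3
  have hG : (0 : ℝ) < (Nat.card G : ℝ) := by exact_mod_cast Nat.card_pos
  have h4 : ∑ x : P, (if (x : G) ∈ Subgroup.centralizer (P : Set G) then Θ x (h.fx x) else 0) ≤ 1 := by
    by_contra hcon
    push Not at hcon
    have := mul_lt_mul_of_pos_left hcon hG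
    rw [mul_one] at this
    linarith
  have hSpos : 0 < H.relIndex S := by
    rw [Subgroup.relIndex]
    exact Nat.pos_of_ne_zero Subgroup.index_ne_zero_of_finite
  have hEpos : 0 < E := lt_of_lt_of_le hSpos hE
  have hE0 : (0 : ℝ) < E := by exact_mod_cast hEpos
  have hp0' : (0 : ℝ) < p := by exact_mod_cast hp.out.pos
  have h5 : ∀ x : P, (x : G) ∈ Subgroup.centralizer (P : Set G) →
      (p : ℝ) ^ blockHeight p B (χ : G → ℂ) / (p : ℝ) ^ blockDefect p B / E ≤ Θ x (h.fx x) := by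
    intro x hx
    have a1 := h.le_ra_center hN hχ x hx
    have a2 : TZ (x : G) (h.fx x) * Nat.card H ≤ Nat.card S * Nat.card (Cc (x : G)) := h.card_TZ x.2 hx (h.fx_spec x)
    have a3 : Nat.card H * H.relIndex S = Nat.card S := by
      have b1 := Subgroup.relIndex_mul_relIndex ⊥ H S bot_le hHS
      rwa [Subgroup.relIndex_bot_left, Subgroup.relIndex_bot_left] at b1
    have a4 : TZ (x : G) (h.fx x) ≤ E * Nat.card (Cc (x : G)) := by
      have a5 : TZ (x : G) (h.fx x) * Nat.card H ≤ (E * Nat.card (Cc (x : G))) * Nat.card H := by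
        refine a2.trans ?_
        rw [← a3]
        calc Nat.card H * H.relIndex S * Nat.card (Cc (x : G)) ≤ Nat.card H * E * Nat.card (Cc (x : G)) :=
              Nat.mul_le_mul_right _ (Nat.mul_le_mul_left _ hE)
          _ = _ := by ring
      exact Nat.le_of_mul_le_mul_right a5 Nat.card_pos
    have a6 : 0 < TZ (x : G) (h.fx x) := by
      apply Nat.card_pos_iff.2
      refine ⟨⟨⟨1, ?_, ?_⟩⟩, inferInstance⟩
      · rw [cg_one, BrauerMap.cj_one]; exact h.fx_spec x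
      · simpa using hx
    have a7 : (1 : ℝ) / E ≤ (Nat.card (Cc (x : G)) : ℝ) / (TZ (x : G) (h.fx x) : ℝ) := by
      rw [div_le_div_iff₀ hE0 (by exact_mod_cast a6), one_mul, mul_comm]
      exact_mod_cast a4
    show _ ≤ (Nat.card (Cc (x : G)) : ℝ) / (TZ (x : G) (h.fx x) : ℝ) * ra p (p ^ (n + 1)) (χ : G → ℂ) x (h.fx x)
    calc (p : ℝ) ^ blockHeight p B (χ : G → ℂ) / (p : ℝ) ^ blockDefect p B / E =
          1 / E * ((p : ℝ) ^ blockHeight p B (χ : G → ℂ) / (p : ℝ) ^ blockDefect p B) := by ring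
      _ ≤ _ := mul_le_mul a7 a1 (by positivity) (by positivity)
  have hcen : (Finset.univ.filter (fun x : P => (x : G) ∈ Subgroup.centralizer (P : Set G))).card = c := by
    rw [← hc, ← Fintype.card_subtype, ← Nat.card_eq_fintype_card]
    apply Nat.card_congr
    refine Equiv.subtypeEquivRight fun x => ?_
    rw [Subgroup.mem_center_iff, Subgroup.mem_centralizer_iff]
    constructor
    · intro hx y
      exact Subtype.ext (hx y y.2)
    · intro hx y hy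
      exact congrArg Subtype.val (hx ⟨y, hy⟩)
  have h6 : (c : ℝ) * ((p : ℝ) ^ blockHeight p B (χ : G → ℂ) / (p : ℝ) ^ blockDefect p B / E) ≤ 1 := by
    refine le_trans ?_ h4
    rw [← Finset.sum_filter, ← hcen, ← nsmul_eq_mul, ← Finset.sum_const]
    refine Finset.sum_le_sum fun x hx => ?_
    exact h5 x (Finset.mem_filter.1 hx).2
  have h7 : (c : ℝ) * (p : ℝ) ^ blockHeight p B (χ : G → ℂ) ≤ E * (p : ℝ) ^ blockDefect p B := by
    have hd0 : (0 : ℝ) < (p : ℝ) ^ blockDefect p B := by positivity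
    have h8 : (c : ℝ) * ((p : ℝ) ^ blockHeight p B (χ : G → ℂ) / (p : ℝ) ^ blockDefect p B / E) =
        ((c : ℝ) * (p : ℝ) ^ blockHeight p B (χ : G → ℂ)) / (E * (p : ℝ) ^ blockDefect p B) := by
      field_simp
    rw [h8, div_le_one (by positivity)] at h6
    exact h6
  exact_mod_cast h7

end Ctx

end Cfsg.Agent.Lib.H25BpS
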