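import Mathlib
import Cfsg.Agent.Lib.H25Klein

/-!
# Order formula for a Klein four Sylow 2-subgroup, II (helper25)
-/

set_option autoImplicit false
set_option linter.all false

namespace Cfsg.Agent.Lib.H25Klein

open Cfsg Cfsg.Agent.Lib.BlockRing Cfsg.Agent.Lib.BlockGA Cfsg.Agent.Lib.BlockCore
open Cfsg.Agent.Lib.BlockIdem Cfsg.Agent.Lib.BlockThird Cfsg.Agent.Lib.BlockSection
open Cfsg.Agent.Lib.BlockSecond Cfsg.Agent.Lib.CharBasic Cfsg.Agent.Lib.StructConst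
open scoped ComplexConjugate

universe u

variable {G : Type u} [Group G] [Finite G]

/-- the hypotheses of the two statements -/
structure Hyp (M : Ideal AlgInt) (g₀ : ℕ) (P : Sylow 2 G) (J : G) (χ₁ χ₂ χ₃ : IrrCharacter G)
    (ε₁ ε₂ ε₃ : ℤ) : Prop where
  hM : IsPModular 2 M
  hg₀ : Odd g₀
  hG : Nat.card G = 4 * g₀
  hnc : ¬ ∃ N : Subgroup G, N.Normal ∧ Nat.card N = g₀
  hJ : J ∈ (P : Subgroup G)
  hJ2 : orderOf J = 2
  hB : principalBlock M G = {χ : IrrCharacter G | (χ : G → ℂ) = (fun _ => 1) ∨ χ = χ₁ ∨ χ = χ₂ ∨ χ = χ₃}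
  hdist : (χ₁ : G → ℂ) ≠ (fun _ => 1) ∧ (χ₂ : G → ℂ) ≠ (fun _ => 1) ∧ (χ₃ : G → ℂ) ≠ (fun _ => 1) ∧
    χ₁ ≠ χ₂ ∧ χ₁ ≠ χ₃ ∧ χ₂ ≠ χ₃
  hε : (ε₁ = 1 ∨ ε₁ = -1) ∧ (ε₂ = 1 ∨ ε₂ = -1) ∧ (ε₃ = 1 ∨ ε₃ = -1)
  hval : (χ₁ : G → ℂ) J = ε₁ ∧ (χ₂ : G → ℂ) J = ε₂ ∧ (χ₃ : G → ℂ) J = ε₃

variable {M : Ideal AlgInt} {g₀ : ℕ} {P : Sylow 2 G} {J : G} {χ₁ χ₂ χ₃ : IrrCharacter G}
    {ε₁ ε₂ ε₃ : ℤ}

namespace Hyp

theorem card_P (h : Hyp M g₀ P J χ₁ χ₂ χ₃ ε₁ ε₂ ε₃) : Nat.card (P : Subgroup G) = 4 := by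
  have hf2 : Fact (Nat.Prime 2) := ⟨Nat.prime_two⟩
  obtain ⟨n, hn⟩ := IsPGroup.iff_card.mp P.isPGroup'
  have h1 := (P : Subgroup G).index_mul_card
  have h2 : ¬ 2 ∣ (P : Subgroup G).index := P.not_dvd_index
  rw [hn, h.hG] at h1
  have hidx : Nat.Coprime ((P : Subgroup G).index) 4 := by
    have : Nat.Coprime 2 ((P : Subgroup G).index) := (Nat.prime_two.coprime_iff_not_dvd).mpr h2
    exact (Nat.Coprime.pow_left 2 this).symm
  have hg : Nat.Coprime g₀ (2 ^ n) := (Nat.Coprime.pow_left n (Nat.coprime_two_left.mpr h.hg₀)).symm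
  rw [hn]
  apply Nat.dvd_antisymm
  · exact (hg.symm).dvd_of_dvd_mul_right (Dvd.intro_left _ h1)
  · exact (hidx.symm).dvd_of_dvd_mul_left (Dvd.intro _ h1.symm)

theorem fusion (h : Hyp M g₀ P J χ₁ χ₂ χ₃ ε₁ ε₂ ε₃) : IsKleinFour (P : Subgroup G) ∧
      ∀ s t : G, orderOf s = 2 → orderOf t = 2 → IsConj s t := by
  apply exists_noncentral P h.card_P
  rintro ⟨N, hN, hc⟩
  apply h.hnc
  refine ⟨N, hN, ?_⟩
  rw [h.hG] at hc
  omega

open scoped Classical in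
theorem sum_block (h : Hyp M g₀ P J χ₁ χ₂ χ₃ ε₁ ε₂ ε₃) [Fintype G] (f : IrrCharacter G → ℂ) :
    ∑ χ : IrrCharacter G, (if χ ∈ principalBlock M G then f χ else 0) =
      f (triv G) + f χ₁ + f χ₂ + f χ₃ := by
  obtain ⟨h1, h2, h3, h12, h13, h23⟩ := h.hdist
  have h1' : triv G ≠ χ₁ := fun e => h1 (by rw [← e]; rfl)
  have h2' : triv G ≠ χ₂ := fun e => h2 (by rw [← e]; rfl)
  have h3' : triv G ≠ χ₃ := fun e => h3 (by rw [← e]; rfl)
  rw [← Finset.sum_filter]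
  have hf : Finset.univ.filter (fun χ : IrrCharacter G => χ ∈ principalBlock M G) =
      {triv G, χ₁, χ₂, χ₃} := by
    ext χ
    rw [h.hB]
    simp only [Finset.mem_filter, Finset.mem_univ, true_and, Set.mem_setOf_eq, Finset.mem_insert,
      Finset.mem_singleton]
    constructor
    · rintro (h4 | h4)
      · left; exact Subtype.ext h4
      · right; exact h4
    · rintro (h4 | h4)
      · left; rw [h4]; rfl
      · right; exact h4
  rw [hf, Finset.sum_insert (by simp [h1', h2', h3']), Finset.sum_insert (by simp [h12, h13]),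
    Finset.sum_insert (by simp [h23]), Finset.sum_singleton]
  ring

theorem degree_sum (h : Hyp M g₀ P J χ₁ χ₂ χ₃ ε₁ ε₂ ε₃) :
    1 + ε₁ * (charDegree (χ₁ : G → ℂ) : ℤ) + ε₂ * (charDegree (χ₂ : G → ℂ) : ℤ) +
      ε₃ * (charDegree (χ₃ : G → ℂ) : ℤ) = 0 := by
  classical
  have := Fintype.ofFinite G
  have hy : ¬ 2 ∣ orderOf (1 : G) := by rw [orderOf_one]; norm_num
  have h1 := BlockOsima.weak_orthogonality h.hM isPBlock_principal (B := principalBlock M G) hy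
      (y := J) (by rw [h.hJ2])
  rw [finsum_mem_eq_finite_toFinset_sum _ (Set.toFinite _)] at h1
  have h2 : ∑ χ : IrrCharacter G, (if χ ∈ principalBlock M G then
      (χ : G → ℂ) 1 * conj ((χ : G → ℂ) J) else 0) = 0 := by
    refine Eq.trans ?_ h1
    rw [← Finset.sum_filter]
    apply Finset.sum_congr _ (fun _ _ => rfl)
    ext χ
    simp
  rw [h.sum_block (fun χ => (χ : G → ℂ) 1 * conj ((χ : G → ℂ) J))] at h2
  obtain ⟨v1, v2, v3⟩ := h.hval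
  rw [v1, v2, v3, ← BlockDeg.charDegree_cast_irr χ₁, ← BlockDeg.charDegree_cast_irr χ₂,
    ← BlockDeg.charDegree_cast_irr χ₃] at h2
  simp only [coe_triv, map_one, mul_one, map_intCast] at h2
  have h3 : ((1 + ε₁ * (charDegree (χ₁ : G → ℂ) : ℤ) + ε₂ * (charDegree (χ₂ : G → ℂ) : ℤ) +
      ε₃ * (charDegree (χ₃ : G → ℂ) : ℤ) : ℤ) : ℂ) = ((0 : ℤ) : ℂ) := by
    push_cast
    linear_combination h2
  exact_mod_cast h3

theorem order (h : Hyp M g₀ P J χ₁ χ₂ χ₃ ε₁ ε₂ ε₃) :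
    (Nat.card G : ℚ) * (Nat.card (Subgroup.centralizer ((P : Subgroup G) : Set G)) : ℚ) ^ 2 *
      (1 + ε₁ / (charDegree (χ₁ : G → ℂ) : ℚ) + ε₂ / (charDegree (χ₂ : G → ℂ) : ℚ) +
        ε₃ / (charDegree (χ₃ : G → ℂ) : ℚ)) =
      8 * (Nat.card (Subgroup.centralizer ({J} : Set G)) : ℚ) ^ 3 := by
  classical
  have := Fintype.ofFinite G
  obtain ⟨hK4, hconj⟩ := h.fusion
  have h1 := formula h.hM P hK4 hconj h.hJ h.hJ2
  rw [h.sum_block (fun χ => conj ((χ : G → ℂ) J) * (χ : G → ℂ) J * conj ((χ : G → ℂ) J) /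
    (χ : G → ℂ) 1)] at h1
  obtain ⟨v1, v2, v3⟩ := h.hval
  rw [v1, v2, v3, ← BlockDeg.charDegree_cast_irr χ₁, ← BlockDeg.charDegree_cast_irr χ₂,
    ← BlockDeg.charDegree_cast_irr χ₃] at h1
  simp only [coe_triv, map_one, mul_one, map_intCast, div_one] at h1
  have hcube : ∀ ε : ℤ, (ε = 1 ∨ ε = -1) → (ε : ℂ) * ε * ε = ε := by
    rintro ε (rfl | rfl) <;> norm_num
  rw [hcube _ h.hε.1, hcube _ h.hε.2.1, hcube _ h.hε.2.2] at h1
  have h2 : (((Nat.card G : ℚ) * (Nat.card (Subgroup.centralizer ((P : Subgroup G) : Set G)) : ℚ) ^ 2 *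
      (1 + ε₁ / (charDegree (χ₁ : G → ℂ) : ℚ) + ε₂ / (charDegree (χ₂ : G → ℂ) : ℚ) +
        ε₃ / (charDegree (χ₃ : G → ℂ) : ℚ)) : ℚ) : ℂ) =
      ((8 * (Nat.card (Subgroup.centralizer ({J} : Set G)) : ℚ) ^ 3 : ℚ) : ℂ) := by
    push_cast
    exact h1
  exact_mod_cast h2

theorem main (h : Hyp M g₀ P J χ₁ χ₂ χ₃ ε₁ ε₂ ε₃) :
    (Nat.card G : ℚ) = 8 * (((charDegree (χ₁ : G → ℂ) : ℚ) * charDegree (χ₂ : G → ℂ) *
      charDegree (χ₃ : G → ℂ)) / ((charDegree (χ₁ : G → ℂ) + ε₁) *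
        (charDegree (χ₂ : G → ℂ) + ε₂) * (charDegree (χ₃ : G → ℂ) + ε₃))) *
      (Nat.card (Subgroup.centralizer ({J} : Set G)) : ℚ) ^ 3 /
        (Nat.card (Subgroup.centralizer ((P : Subgroup G) : Set G)) : ℚ) ^ 2 := by
  have h1 := h.order
  have h2 := h.degree_sum
  have x1 := BlockDeg.charDegree_pos χ₁.2
  have x2 := BlockDeg.charDegree_pos χ₂.2
  have x3 := BlockDeg.charDegree_pos χ₃.2
  obtain ⟨e1, e2, e3⟩ := h.hε
  have hc : 0 < Nat.card (Subgroup.centralizer ({J} : Set G)) := Nat.card_pos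
  have hd : 0 < Nat.card (Subgroup.centralizer ((P : Subgroup G) : Set G)) := Nat.card_pos
  have hg : 0 < Nat.card G := Nat.card_pos
  generalize charDegree (χ₁ : G → ℂ) = a at *
  generalize charDegree (χ₂ : G → ℂ) = b at *
  generalize charDegree (χ₃ : G → ℂ) = d at *
  generalize Nat.card (Subgroup.centralizer ({J} : Set G)) = c at *
  generalize Nat.card (Subgroup.centralizer ((P : Subgroup G) : Set G)) = e at *
  generalize Nat.card G = g at *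
  have a0 : (a : ℚ) ≠ 0 := by exact_mod_cast x1.ne'
  have b0 : (b : ℚ) ≠ 0 := by exact_mod_cast x2.ne'
  have d0 : (d : ℚ) ≠ 0 := by exact_mod_cast x3.ne'
  have c0 : (c : ℚ) ≠ 0 := by exact_mod_cast hc.ne'
  have e0 : (e : ℚ) ≠ 0 := by exact_mod_cast hd.ne'
  have h2' : (1 : ℚ) + ε₁ * a + ε₂ * b + ε₃ * d = 0 := by exact_mod_cast h2
  have q1 : (ε₁ : ℚ) * ε₁ = 1 := by rcases e1 with rfl | rfl <;> norm_num
  have q2 : (ε₂ : ℚ) * ε₂ = 1 := by rcases e2 with rfl | rfl <;> norm_num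
  have q3 : (ε₃ : ℚ) * ε₃ = 1 := by rcases e3 with rfl | rfl <;> norm_num
  have hprod : ((a : ℚ) + ε₁) * (b + ε₂) * (d + ε₃) =
      (1 + ε₁ / (a : ℚ) + ε₂ / b + ε₃ / d) * (a * b * d) := by
    have h3 : (1 + ε₁ / (a : ℚ) + ε₂ / b + ε₃ / d) * (a * b * d) =
        a * b * d + ε₁ * b * d + ε₂ * a * d + ε₃ * a * b := by
      field_simp
    rw [h3]
    have h4 : (ε₁ : ℚ) * ε₂ * ε₃ * (1 + ε₁ * a + ε₂ * b + ε₃ * d) = 0 := by rw [h2', mul_zero]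
    have h5 : (ε₁ : ℚ) * ε₂ * ε₃ + (ε₁ * ε₁) * ε₂ * ε₃ * a + ε₁ * (ε₂ * ε₂) * ε₃ * b +
        ε₁ * ε₂ * (ε₃ * ε₃) * d = 0 := by linear_combination h4
    rw [q1, q2, q3] at h5
    linear_combination h5
  set S : ℚ := 1 + ε₁ / (a : ℚ) + ε₂ / b + ε₃ / d with hS
  have hS0 : S ≠ 0 := by
    intro h0
    rw [h0, mul_zero] at h1
    have : (8 : ℚ) * (c : ℚ) ^ 3 ≠ 0 := mul_ne_zero (by norm_num) (pow_ne_zero 3 c0)
    exact this h1.symm
  rw [hprod]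
  field_simp
  linear_combination h1

theorem four_dvd (h : Hyp M g₀ P J χ₁ χ₂ χ₃ ε₁ ε₂ ε₃) (χ : IrrCharacter G) {ε : ℤ}
    (hε : (χ : G → ℂ) J = ε) : (4 : ℤ) ∣ (charDegree (χ : G → ℂ) : ℤ) - ε := by
  obtain ⟨hK4, hconj⟩ := h.fusion
  apply BlockKlein.degree_congr P hK4 χ.2.isCharacter
  intro x hx hx1
  haveI := hK4
  have h1 : x * x = 1 := congrArg Subtype.val (IsKleinFour.mul_self (⟨x, hx⟩ : (P : Subgroup G)))
  have hxo : orderOf x = 2 := orderOf_eq_prime (by rw [pow_two]; exact h1) hx1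
  rw [← χ.2.isClassFunction.conj_eq (hconj J x h.hJ2 hxo), hε]

theorem fs_cases (h : Hyp M g₀ P J χ₁ χ₂ χ₃ ε₁ ε₂ ε₃) [Fintype G] (χ : IrrCharacter G) {ε : ℤ}
    (hε : (χ : G → ℂ) J = ε) (he : ε = 1 ∨ ε = -1) :
    (FrobSchur.fsInd (χ : G → ℂ) = 1) ∨
      (FrobSchur.fsInd (χ : G → ℂ) = 0 ∧ ∃ s : G, ((χ : G → ℂ) s).im ≠ 0) := by
  obtain ⟨h1, h2⟩ := FrobSchur.fsInd_trichotomy χ.2
  by_cases h0 : FrobSchur.fsInd (χ : G → ℂ) = 0
  · exact Or.inr ⟨h0, h2.mp h0⟩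
  · left
    have hreal : ∀ g : G, ((χ : G → ℂ) g).im = 0 := by
      intro g
      by_contra hg
      exact h0 (h2.mpr ⟨g, hg⟩)
    have h4 := h.four_dvd χ hε
    have hodd : Odd (charDegree (χ : G → ℂ)) := by
      rw [← Nat.not_even_iff_odd]
      intro hev
      have h5 : (2 : ℤ) ∣ (charDegree (χ : G → ℂ) : ℤ) := by
        exact_mod_cast hev.two_dvd
      have h6 : (2 : ℤ) ∣ ε := by
        have := (Dvd.dvd.trans (by norm_num : (2 : ℤ) ∣ 4) h4)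
        omega
      rcases he with rfl | rfl <;> norm_num at h6
    exact FrobSchur2.fsInd_eq_one_of_odd χ.2 hreal (BlockDeg.charDegree_cast_irr χ).symm hodd

theorem fs_sum (h : Hyp M g₀ P J χ₁ χ₂ χ₃ ε₁ ε₂ ε₃) [Fintype G] :
    1 + FrobSchur.fsInd (χ₁ : G → ℂ) * ε₁ + FrobSchur.fsInd (χ₂ : G → ℂ) * ε₂ +
      FrobSchur.fsInd (χ₃ : G → ℂ) * ε₃ = 0 := by
  classical
  obtain ⟨hK4, hconj⟩ := h.fusion
  have h1 := fs_formula h.hM P hK4 hconj h.hJ h.hJ2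
  rw [h.sum_block (fun χ => FrobSchur.fsInd (χ : G → ℂ) * (χ : G → ℂ) J)] at h1
  obtain ⟨v1, v2, v3⟩ := h.hval
  simp only [v1, v2, v3] at h1
  have h2 : FrobSchur.fsInd (triv G : G → ℂ) * (triv G : G → ℂ) J = 1 := by
    simp only [coe_triv, mul_one, FrobSchur.fsInd, Finset.sum_const, Finset.card_univ,
      nsmul_eq_mul, Nat.card_eq_fintype_card]
    exact inv_mul_cancel₀ (by exact_mod_cast Fintype.card_ne_zero)
  rw [h2] at h1
  exact h1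

/-- In the case `ε₁ε₂ε₃ = -1`, `ε₃ = -1` the two other characters are complex conjugate. -/
theorem degrees_eq (h : Hyp M g₀ P J χ₁ χ₂ χ₃ ε₁ ε₂ ε₃) (hprod : ε₁ * ε₂ * ε₃ = -1)
    (hε₃ : ε₃ = -1) : ε₁ = 1 ∧ ε₂ = 1 ∧ charDegree (χ₁ : G → ℂ) = charDegree (χ₂ : G → ℂ) := by
  classical
  have := Fintype.ofFinite G
  have hdeg := h.degree_sum
  have x1 := BlockDeg.charDegree_pos χ₁.2
  have x2 := BlockDeg.charDegree_pos χ₂.2
  have x3 := BlockDeg.charDegree_pos χ₃.2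
  obtain ⟨e1, e2, e3⟩ := h.hε
  have hcase : ε₁ = 1 ∧ ε₂ = 1 := by
    rw [hε₃] at hprod hdeg
    rcases e1 with h1 | h1 <;> rcases e2 with h2 | h2 <;> rw [h1, h2] at hprod hdeg
    · exact ⟨h1, h2⟩
    · norm_num at hprod
    · norm_num at hprod
    · exfalso; omega
  obtain ⟨h1, h2⟩ := hcase
  refine ⟨h1, h2, ?_⟩
  obtain ⟨v1, v2, v3⟩ := h.hval
  have hfs := h.fs_sum
  rw [h1, h2, hε₃] at hfs
  rcases h.fs_cases χ₁ v1 e1 with f1 | ⟨f1, s, hs⟩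
  · exfalso
    rcases h.fs_cases χ₂ v2 e2 with f2 | ⟨f2, _⟩ <;> rcases h.fs_cases χ₃ v3 e3 with f3 | ⟨f3, _⟩ <;>
      rw [f1, f2, f3] at hfs <;> norm_num at hfs
  · -- `conj χ₁` is in the principal block
    have hirr : IsIrrCharacter G (fun g => conj ((χ₁ : G → ℂ) g)) := PermLemma.isIrrCharacter_conj χ₁.2
    set ψ : IrrCharacter G := ⟨fun g => conj ((χ₁ : G → ℂ) g), hirr⟩ with hψ
    have hψB : ψ ∈ principalBlock M G := by
      by_contra hcon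
      obtain ⟨hK4, hconj⟩ := h.fusion
      have hfin : Fintype (Subgroup.centralizer ({J} : Set G)) := Fintype.ofFinite _
      obtain ⟨N, hN1, hN2, hN3, hD⟩ := exists_data P hK4 hconj h.hJ h.hJ2
      have hmem : ∀ g, g ∈ Subgroup.centralizer ({J} : Set G) ↔ Commute J g := by
        intro g
        rw [Subgroup.mem_centralizer_singleton_iff]
        exact ⟨fun h => h.symm, fun h => h.symm⟩
      have h3 := section_sum_eq h.hM (u := J) (k := 1) (by rw [h.hJ2]; rfl) hmem hN2 hN3 ψ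
      have h4 := section_sum_eq h.hM (u := J) (k := 1) (by rw [h.hJ2]; rfl) hmem hN2 hN3 χ₁
      have hχB : χ₁ ∈ principalBlock M G := by rw [h.hB]; exact Or.inr (Or.inl rfl)
      rw [if_neg hcon] at h3
      rw [if_pos hχB, v1, h1] at h4
      have h5 := congrArg (starRingEnd ℂ) h4
      rw [map_sum] at h5
      have h6 : ∑ n ∈ Finset.univ.filter (fun x : Subgroup.centralizer ({J} : Set G) => x ∈ N),
          conj ((χ₁ : G → ℂ) (J * (n : G))) = 0 := h3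
      rw [h6] at h5
      have hN0 : (Nat.card N : ℂ) ≠ 0 := by exact_mod_cast Nat.card_pos.ne'
      rw [map_mul, map_natCast, Int.cast_one, map_one, mul_one] at h5
      exact hN0 h5.symm
    have hψ1 : ψ ≠ χ₁ := by
      intro he
      apply hs
      have h3 : conj ((χ₁ : G → ℂ) s) = (χ₁ : G → ℂ) s := congrFun (congrArg Subtype.val he) s
      exact Complex.conj_eq_iff_im.mp h3
    rw [h.hB] at hψB
    rcases hψB with h3 | h3 | h3 | h3
    · exfalso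
      apply h.hdist.1
      funext g
      have h4 : conj ((χ₁ : G → ℂ) g) = 1 := congrFun h3 g
      have h5 := congrArg (starRingEnd ℂ) h4
      simpa using h5
    · exact absurd h3 hψ1
    · have h4 : conj ((χ₁ : G → ℂ) 1) = (χ₂ : G → ℂ) 1 := congrFun (congrArg Subtype.val h3) 1
      rw [← BlockDeg.charDegree_cast_irr χ₁, ← BlockDeg.charDegree_cast_irr χ₂, map_natCast] at h4
      exact_mod_cast h4
    · exfalso
      have h4 : conj ((χ₁ : G → ℂ) J) = (χ₃ : G → ℂ) J := congrFun (congrArg Subtype.val h3) J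
      rw [v1, v3, h1, hε₃] at h4
      simp at h4
      norm_num at h4

/-- `c(J) χ(1) ∣ |G|` for the characters of the block. -/
theorem dvd_card (h : Hyp M g₀ P J χ₁ χ₂ χ₃ ε₁ ε₂ ε₃) (χ : IrrCharacter G) {ε : ℤ}
    (hε : (χ : G → ℂ) J = ε) (he : ε = 1 ∨ ε = -1) :
    Nat.card (Subgroup.centralizer ({J} : Set G)) * charDegree (χ : G → ℂ) ∣ Nat.card G := by
  have h1 := isIntegral_centralChar χ.2 J
  rw [centralChar, hε, ← BlockDeg.charDegree_cast_irr χ] at h1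
  have x1 := BlockDeg.charDegree_pos χ.2
  set a := charDegree (χ : G → ℂ) with ha
  set i := (Subgroup.centralizer ({J} : Set G)).index with hi
  have h2 : IsIntegral ℤ (((i : ℚ) / a : ℚ) : ℂ) := by
    have h3 : IsIntegral ℤ ((ε : ℂ) * ((i : ℂ) * ε / a)) := (isIntegral_algebraMap (R := ℤ) (x := ε)).mul h1
    have h4 : (ε : ℂ) * ((i : ℂ) * ε / a) = (((i : ℚ) / a : ℚ) : ℂ) := by
      push_cast
      rcases he with rfl | rfl <;> push_cast <;> ring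
    rwa [h4] at h3
  have h3 : IsIntegral ℤ ((i : ℚ) / a : ℚ) := by
    have : (((i : ℚ) / a : ℚ) : ℂ) = algebraMap ℚ ℂ ((i : ℚ) / a : ℚ) := rfl
    rw [this] at h2
    exact (isIntegral_algebraMap_iff (algebraMap ℚ ℂ).injective).mp h2
  obtain ⟨n, hn⟩ := IsIntegrallyClosed.isIntegral_iff.mp h3
  have a0 : (a : ℚ) ≠ 0 := by exact_mod_cast x1.ne'
  have h5 : (i : ℚ) = n * a := by
    have h6 : (n : ℚ) = (i : ℚ) / a := hn
    rw [h6]; field_simp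
  have h6 : (a : ℤ) ∣ (i : ℤ) := ⟨n, by
    have : (i : ℤ) = n * a := by exact_mod_cast h5
    rw [this]; ring⟩
  have h7 : a ∣ i := by exact_mod_cast h6
  have h8 := (Subgroup.centralizer ({J} : Set G)).index_mul_card
  rw [← h8, mul_comm]
  exact Nat.mul_dvd_mul_right h7 _

theorem psl_shape (h : Hyp M g₀ P J χ₁ χ₂ χ₃ ε₁ ε₂ ε₃) (hprod : ε₁ * ε₂ * ε₃ = -1)
    (hε₃ : ε₃ = -1) : ∃ m : ℕ, 4 * Nat.card (Subgroup.centralizer ({J} : Set G)) =
      m * Nat.card (Subgroup.centralizer ((P : Subgroup G) : Set G)) *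
        (charDegree (χ₃ : G → ℂ) + 1) ∧
      8 * Nat.card G = m ^ 3 * Nat.card (Subgroup.centralizer ((P : Subgroup G) : Set G)) *
        (charDegree (χ₃ : G → ℂ) ^ 3 - charDegree (χ₃ : G → ℂ)) := by
  obtain ⟨h1, h2, hdeq⟩ := h.degrees_eq hprod hε₃
  have hsum := h.degree_sum
  have hord := h.order
  obtain ⟨v1, v2, v3⟩ := h.hval
  have hd1 := h.dvd_card χ₁ v1 h.hε.1
  have hd3 := h.dvd_card χ₃ v3 h.hε.2.2
  have x1 := BlockDeg.charDegree_pos χ₁.2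
  have x3 := BlockDeg.charDegree_pos χ₃.2
  have hc : 0 < Nat.card (Subgroup.centralizer ({J} : Set G)) := Nat.card_pos
  have hd : 0 < Nat.card (Subgroup.centralizer ((P : Subgroup G) : Set G)) := Nat.card_pos
  rw [← hdeq] at hsum hord
  rw [h1, h2, hε₃] at hsum hord
  generalize charDegree (χ₁ : G → ℂ) = a at *
  generalize charDegree (χ₃ : G → ℂ) = q at *
  generalize Nat.card (Subgroup.centralizer ({J} : Set G)) = c at *
  generalize Nat.card (Subgroup.centralizer ((P : Subgroup G) : Set G)) = e at *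
  generalize Nat.card G = g at *
  have hq : q = 2 * a + 1 := by
    have : (1 : ℤ) + 1 * a + 1 * a + -1 * q = 0 := hsum
    omega
  subst hq
  have a0 : (a : ℚ) ≠ 0 := by exact_mod_cast x1.ne'
  have c0 : (c : ℚ) ≠ 0 := by exact_mod_cast hc.ne'
  have e0 : (e : ℚ) ≠ 0 := by exact_mod_cast hd.ne'
  -- `|G| e² (2a+2)² = 8 c³ (2a+1) (2a)`
  have hQ : (g : ℚ) * (e : ℚ) ^ 2 * (2 * (a : ℚ) + 2) ^ 2 = 8 * (c : ℚ) ^ 3 * ((2 * a + 1) * (2 * a)) := by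
    have q0 : (2 * (a : ℚ) + 1) ≠ 0 := by positivity
    push_cast at hord
    have h5 : (1 : ℚ) + 1 / a + 1 / a + -1 / (2 * a + 1) = (2 * a + 2) ^ 2 / ((2 * a + 1) * (2 * a)) := by
      field_simp
      ring
    rw [h5] at hord
    field_simp at hord
    linear_combination 2 * hord
  have hN : g * e ^ 2 * (2 * a + 2) ^ 2 = 8 * c ^ 3 * ((2 * a + 1) * (2 * a)) := by exact_mod_cast hQ
  obtain ⟨B, hB⟩ := hd1
  obtain ⟨A, hA⟩ := hd3
  -- B = q m², A = (q-1)/2 m²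
  have hB1 : B * (e * (2 * a + 2)) ^ 2 = (2 * a + 1) * (4 * c) ^ 2 := by
    have h6 : (c * a) * (B * (e * (2 * a + 2)) ^ 2) = (c * a) * ((2 * a + 1) * (4 * c) ^ 2) := by
      calc (c * a) * (B * (e * (2 * a + 2)) ^ 2) = (c * a * B) * e ^ 2 * (2 * a + 2) ^ 2 := by ring
        _ = g * e ^ 2 * (2 * a + 2) ^ 2 := by rw [← hB]
        _ = _ := by rw [hN]; ring
    exact Nat.eq_of_mul_eq_mul_left (Nat.mul_pos hc x1) h6
  have hA1 : A * (e * (2 * a + 2)) ^ 2 = a * (4 * c) ^ 2 := by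
    have h6 : (c * (2 * a + 1)) * (A * (e * (2 * a + 2)) ^ 2) = (c * (2 * a + 1)) * (a * (4 * c) ^ 2) := by
      calc (c * (2 * a + 1)) * (A * (e * (2 * a + 2)) ^ 2) =
          (c * (2 * a + 1) * A) * e ^ 2 * (2 * a + 2) ^ 2 := by ring
        _ = g * e ^ 2 * (2 * a + 2) ^ 2 := by rw [← hA]
        _ = _ := by rw [hN]; ring
    exact Nat.eq_of_mul_eq_mul_left (Nat.mul_pos hc x3) h6
  have hdiff : (e * (2 * a + 2)) ^ 2 ∣ (4 * c) ^ 2 := by
    have h7 : (B : ℤ) * (e * (2 * a + 2)) ^ 2 - 2 * (A * (e * (2 * a + 2)) ^ 2) = (4 * c) ^ 2 := by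
      have e1 : (B : ℤ) * (e * (2 * a + 2)) ^ 2 = (2 * a + 1) * (4 * c) ^ 2 := by exact_mod_cast hB1
      have e2 : (A : ℤ) * (e * (2 * a + 2)) ^ 2 = a * (4 * c) ^ 2 := by exact_mod_cast hA1
      rw [e1, e2]; ring
    have h8 : ((e * (2 * a + 2)) ^ 2 : ℤ) ∣ ((4 * c) ^ 2 : ℤ) := ⟨B - 2 * A, by rw [← h7]; ring⟩
    exact_mod_cast h8
  have hdvd : e * (2 * a + 2) ∣ 4 * c := (Nat.pow_dvd_pow_iff (by norm_num)).mp hdiff
  obtain ⟨m, hm⟩ := hdvd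
  refine ⟨m, by rw [hm]; ring, ?_⟩
  have h9 : (2 * a + 1) ^ 3 - (2 * a + 1) = 4 * a * (a + 1) * (2 * a + 1) := by
    have : (2 * a + 1) ^ 3 = 4 * a * (a + 1) * (2 * a + 1) + (2 * a + 1) := by ring
    rw [this, Nat.add_sub_cancel]
  rw [h9]
  have h10 : (e ^ 2 * (2 * a + 2) ^ 2) * (8 * g) =
      (e ^ 2 * (2 * a + 2) ^ 2) * (m ^ 3 * e * (4 * a * (a + 1) * (2 * a + 1))) := by
    calc (e ^ 2 * (2 * a + 2) ^ 2) * (8 * g) = 8 * (g * e ^ 2 * (2 * a + 2) ^ 2) := by ring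
      _ = 8 * (8 * c ^ 3 * ((2 * a + 1) * (2 * a))) := by rw [hN]
      _ = (4 * c) ^ 3 * ((2 * a + 1) * (2 * a)) := by ring
      _ = _ := by rw [hm]; ring
  exact Nat.eq_of_mul_eq_mul_left (by positivity) h10

end Hyp

end Cfsg.Agent.Lib.H25Klein
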