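import Cfsg.Agent.Lib.SchurSylow

/-!
# Stem extensions of groups with elementary abelian Sylow 2-subgroups of order 8 and a fusing element of order 7
-/

set_option autoImplicit false

namespace Cfsg.Agent.Lib.H26Eight

open Subgroup Cfsg.Agent.Lib.SchurSylow Cfsg
open scoped commutatorElement

universe u

/-- an element of order 7 acting non-trivially on a group of order 8 is transitive on the non-identity elements -/
theorem trans7 {G : Type u} [Group G] [Finite G] {S : Subgroup G} (hc : Nat.card S = 8) {g : G} (hg7 : g ^ 7 = 1)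
    (hgn : ∀ x ∈ S, g * x * g⁻¹ ∈ S) {x : G} (hx : x ∈ S) (hxg : g * x * g⁻¹ ≠ x) :
    ∀ y ∈ S, y ≠ 1 → ∃ i : ℕ, g ^ i * x * (g ^ i)⁻¹ = y := by
  classical
  have hx1 : x ≠ 1 := by rintro rfl; apply hxg; group
  have hpow : ∀ i : ℕ, ∀ y ∈ S, g ^ i * y * (g ^ i)⁻¹ ∈ S := by
    intro i
    induction i with
    | zero => intro y hy; simpa using hy
    | succ i ih =>
      intro y hy
      have e : g ^ (i + 1) * y * (g ^ (i + 1))⁻¹ = g ^ i * (g * y * g⁻¹) * (g ^ i)⁻¹ := by rw [pow_succ]; group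
      rw [e]; exact ih _ (hgn y hy)
  let F : Fin 7 → {y : S // y ≠ 1} := fun i => ⟨⟨g ^ (i : ℕ) * x * (g ^ (i : ℕ))⁻¹, hpow i x hx⟩, fun h => hx1 (by
    have h1 : g ^ (i : ℕ) * x * (g ^ (i : ℕ))⁻¹ = 1 := congrArg Subtype.val h
    rwa [conj_eq_one_iff] at h1)⟩
  have key : ∀ d : ℕ, 0 < d → d < 7 → g ^ d * x ≠ x * g ^ d := by
    intro d hd0 hd7 h
    apply hxg
    have hcop : Nat.Coprime 7 d := by
      rw [Nat.Prime.coprime_iff_not_dvd (by norm_num)]
      intro h7
      have := Nat.le_of_dvd hd0 h7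
      omega
    obtain ⟨e, he⟩ : ∃ e : ℕ, (g ^ d) ^ e = g := by
      have h1 : ∃ e : ℕ, d * e ≡ 1 [MOD 7] := by
        interval_cases d
        · exact ⟨1, by decide⟩
        · exact ⟨4, by decide⟩
        · exact ⟨5, by decide⟩
        · exact ⟨2, by decide⟩
        · exact ⟨3, by decide⟩
        · exact ⟨6, by decide⟩
      obtain ⟨e, he⟩ := h1
      refine ⟨e, ?_⟩
      rw [← pow_mul, ← Nat.div_add_mod (d * e) 7, pow_add, pow_mul, hg7, one_pow, one_mul, he]
      norm_num
    have h1 : Commute g x := by rw [← he]; exact (show Commute (g ^ d) x from h).pow_left e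
    rw [h1.eq, mul_inv_cancel_right]
  have hinj : Function.Injective F := by
    intro i j h
    have h1 : g ^ (i : ℕ) * x * (g ^ (i : ℕ))⁻¹ = g ^ (j : ℕ) * x * (g ^ (j : ℕ))⁻¹ :=
      congrArg (fun z : {y : S // y ≠ 1} => ((z : S) : G)) h
    have gen : ∀ i j : Fin 7, (i : ℕ) < j → g ^ (i : ℕ) * x * (g ^ (i : ℕ))⁻¹ = g ^ (j : ℕ) * x * (g ^ (j : ℕ))⁻¹ → False := by
      intro i j hij h1
      have hj := j.2
      apply key ((j : ℕ) - i) (by omega) (by omega)
      have e : (j : ℕ) = i + (j - i) := by omega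
      rw [e, pow_add] at h1
      have h2 : x = g ^ ((j : ℕ) - i) * x * (g ^ ((j : ℕ) - i))⁻¹ := by
        have h3 := congrArg (fun z => (g ^ (i : ℕ))⁻¹ * z * g ^ (i : ℕ)) h1
        calc x = (g ^ (i : ℕ))⁻¹ * (g ^ (i : ℕ) * x * (g ^ (i : ℕ))⁻¹) * g ^ (i : ℕ) := by group
          _ = _ := h3
          _ = _ := by group
      nth_rw 2 [h2]; group
    rcases lt_trichotomy (i : ℕ) j with h2 | h2 | h2
    · exact (gen i j h2 h1).elim
    · exact Fin.ext h2
    · exact (gen j i h2 h1.symm).elim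
  have hcard : Nat.card (Fin 7) = Nat.card {y : S // y ≠ 1} := by
    have : Fintype S := Fintype.ofFinite S
    rw [Nat.card_eq_fintype_card, Nat.card_eq_fintype_card, Fintype.card_subtype_compl, Fintype.card_subtype_eq,
      ← Nat.card_eq_fintype_card (α := S), hc]
    simp
  intro y hy hy1
  obtain ⟨i, hi⟩ := ((Nat.bijective_iff_injective_and_card F).2 ⟨hinj, hcard⟩).2 ⟨⟨y, hy⟩, fun h => hy1 (congrArg Subtype.val h)⟩
  exact ⟨i, congrArg (fun z : {y : S // y ≠ 1} => ((z : S) : G)) hi⟩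

section core

variable {Γ G : Type u} [Group Γ] [Finite Γ] [Group G] [Finite G] (σ : Γ →* G) (hσ : IsStemExtension σ) (hk2 : Nat.card σ.ker = 2)
  {S : Subgroup G} (hSi : ¬ 2 ∣ S.index) (hc : Nat.card S = 8) (hsq : ∀ x ∈ S, x * x = 1)

include hσ hk2 hSi hc hsq in
theorem core {g : G} (hg7 : g ^ 7 = 1) (hgn : ∀ x ∈ S, g * x * g⁻¹ ∈ S) (hgc : ∃ x ∈ S, g * x * g⁻¹ ≠ x) : False := by
  classical
  obtain ⟨hsurj, hZ, hZc⟩ := hσ
  have hZ' : ∀ z ∈ σ.ker, ∀ x : Γ, z * x = x * z := fun z hz x => (mem_center_iff.1 (hZ hz) x).symm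
  have hScomm : ∀ x ∈ S, ∀ y ∈ S, x * y = y * x := by
    intro x hx y hy
    have h1 := hsq _ (S.mul_mem hx hy)
    have hx' : x⁻¹ = x := by rw [inv_eq_iff_mul_eq_one]; exact hsq x hx
    have hy' : y⁻¹ = y := by rw [inv_eq_iff_mul_eq_one]; exact hsq y hy
    calc x * y = (x * y)⁻¹ := by rw [eq_inv_iff_mul_eq_one]; exact h1
      _ = _ := by rw [mul_inv_rev, hx', hy']
  set T := S.comap σ with hT
  have hTc : Nat.card T = 16 := by
    have h1 := card_mul_index (σ.ker.subgroupOf T)
    have hle : σ.ker ≤ T := fun x hx => by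
      show σ x ∈ S; rw [MonoidHom.mem_ker.1 hx]; exact S.one_mem
    rw [Nat.card_congr (subgroupOfEquivOfLe hle).toEquiv, hk2] at h1
    have h2 : (σ.ker.subgroupOf T).index = 8 := by
      have h3 : (σ.subgroupComap S).ker = σ.ker.subgroupOf T := by
        ext x
        rw [MonoidHom.mem_ker, mem_subgroupOf, MonoidHom.mem_ker]
        constructor
        · intro h; exact congrArg Subtype.val h
        · intro h; exact Subtype.ext h
      rw [← h3, index_ker]
      have h4 : (σ.subgroupComap S).range = ⊤ := by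
        rw [MonoidHom.range_eq_top]
        rintro ⟨y, hy⟩
        obtain ⟨x, rfl⟩ := hsurj y
        exact ⟨⟨x, hy⟩, rfl⟩
      rw [h4, card_top, hc]
    omega
  obtain ⟨z, hz, hz1⟩ : ∃ z ∈ σ.ker, z ≠ 1 := by
    have : Nontrivial σ.ker := by rw [← Finite.one_lt_card_iff_nontrivial, hk2]; norm_num
    obtain ⟨⟨z, hz⟩, hz1⟩ := exists_ne (1 : σ.ker)
    exact ⟨z, hz, fun h => hz1 (Subtype.ext h)⟩
  have hker : ∀ y ∈ σ.ker, y = 1 ∨ y = z := by
    intro y hy
    by_contra hcon
    push Not at hcon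
    have : Fintype σ.ker := Fintype.ofFinite _
    have h1 : 2 < Nat.card σ.ker := by
      rw [Nat.card_eq_fintype_card, Fintype.two_lt_card_iff]
      exact ⟨1, ⟨y, hy⟩, ⟨z, hz⟩, fun h => hcon.1 (congrArg Subtype.val h).symm, fun h => hz1 (congrArg Subtype.val h).symm,
        fun h => hcon.2 (congrArg Subtype.val h)⟩
    omega
  have hzz : z * z = 1 := by
    rcases hker (z * z) (mul_mem hz hz) with h | h
    · exact h
    · exact absurd (mul_eq_right.1 h) hz1
  -- commutators
  have hcomm : ∀ x ∈ T, ∀ y ∈ T, x * y = y * x ∨ x * y = z * (y * x) := by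
    intro x hx y hy
    have h1 : x * y * (y * x)⁻¹ ∈ σ.ker := by
      rw [MonoidHom.mem_ker, map_mul, map_inv, map_mul, map_mul, hScomm _ hx _ hy, mul_inv_cancel]
    rcases hker _ h1 with h | h
    · left; exact mul_inv_eq_one.1 h
    · right; exact mul_inv_eq_iff_eq_mul.1 h
  -- `R`, the centre of `T`
  set R := T ⊓ centralizer (T : Set Γ) with hR
  have hRmem : ∀ x, x ∈ R ↔ x ∈ T ∧ ∀ y ∈ T, y * x = x * y := by
    intro x; rw [hR, mem_inf, mem_centralizer_iff]; rfl
  have hkR : σ.ker ≤ R := fun x hx => (hRmem x).2 ⟨by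
    show σ x ∈ S; rw [MonoidHom.mem_ker.1 hx]; exact S.one_mem, fun y _ => (hZ' x hx y).symm⟩
  have hkT : σ.ker ≤ T := hkR.trans inf_le_left
  -- a radical element outside the kernel
  obtain ⟨x0, hx0R, hx0k⟩ : ∃ x ∈ R, x ∉ σ.ker := by
    obtain ⟨x1, hx1T, hx1k⟩ : ∃ x ∈ T, x ∉ σ.ker := by
      by_contra hcon
      push Not at hcon
      have := card_le_of_le hcon
      rw [hTc, hk2] at this; omega
    -- `C_T(x1)` has order at least 8
    set C := T ⊓ centralizer {x1} with hC
    have hCc : 8 ≤ Nat.card C := by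
      by_cases hall : T ≤ C
      · have := card_le_of_le hall
        rw [hTc] at this; omega
      · obtain ⟨w, hw, hwC⟩ := SetLike.not_le_iff_exists.1 hall
        have hwx : x1 * w ≠ w * x1 := fun h => hwC ⟨hw, mem_centralizer_singleton_iff.2 h.symm⟩
        have hwx' : x1 * w = z * (w * x1) := (hcomm x1 hx1T w hw).resolve_left hwx
        have hwinv : w⁻¹ * x1 = x1 * w⁻¹ * z := by
          have h1 : w⁻¹ * (x1 * w) * w⁻¹ = w⁻¹ * (z * (w * x1)) * w⁻¹ := by rw [hwx']
          have h3 : w⁻¹ * (z * (w * x1)) * w⁻¹ = z * (x1 * w⁻¹) := by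
            have : w⁻¹ * z = z * w⁻¹ := (hZ' z hz w⁻¹).symm
            calc w⁻¹ * (z * (w * x1)) * w⁻¹ = (w⁻¹ * z) * w * x1 * w⁻¹ := by group
              _ = _ := by rw [this]; group
          calc w⁻¹ * x1 = w⁻¹ * (x1 * w) * w⁻¹ := by group
            _ = z * (x1 * w⁻¹) := by rw [h1, h3]
            _ = _ := hZ' z hz _
        have h1 : Nat.card T ≤ Nat.card C + Nat.card C := by
          rw [← Nat.card_sum]
          refine Nat.card_le_card_of_surjective (fun s : C ⊕ C => (match s with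
            | Sum.inl c => ⟨c, c.2.1⟩
            | Sum.inr c => ⟨c * w, T.mul_mem c.2.1 hw⟩ : T)) ?_
          rintro ⟨y, hy⟩
          rcases hcomm x1 hx1T y hy with h | h
          · exact ⟨Sum.inl ⟨y, hy, mem_centralizer_singleton_iff.2 h.symm⟩, rfl⟩
          · refine ⟨Sum.inr ⟨y * w⁻¹, T.mul_mem hy (T.inv_mem hw), mem_centralizer_singleton_iff.2 ?_⟩, Subtype.ext ?_⟩
            · calc y * w⁻¹ * x1 = y * (w⁻¹ * x1) := by group
                _ = (y * x1) * w⁻¹ * z := by rw [hwinv]; group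
                _ = z * (y * x1) * w⁻¹ := by rw [mul_assoc z, hZ' z hz]
                _ = x1 * y * w⁻¹ := by rw [← h]
                _ = _ := by group
            · show y * w⁻¹ * w = y
              group
        rw [hTc] at h1; omega
    -- `y` in `C` outside `{1, z, x1, z x1}`
    have hx1C : x1 ∈ C := ⟨hx1T, mem_centralizer_singleton_iff.2 rfl⟩
    obtain ⟨y, hyC, hy1, hy2, hy3, hy4⟩ : ∃ y ∈ C, y ≠ 1 ∧ y ≠ z ∧ y ≠ x1 ∧ y ≠ z * x1 := by
      by_contra hcon
      push Not at hcon
      have h1 : (C : Set Γ) ⊆ ({1, z, x1, z * x1} : Set Γ) := by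
        intro y hy
        by_cases h1 : y = 1
        · simp [h1]
        by_cases h2 : y = z
        · simp [h2]
        by_cases h3 : y = x1
        · simp [h3]
        · simp [hcon y hy h1 h2 h3]
      have h2 : Nat.card C ≤ 4 := by
        have h3 : (C : Set Γ).ncard ≤ ({1, z, x1, z * x1} : Set Γ).ncard := Set.ncard_le_ncard h1 (Set.toFinite _)
        have h4 : ({1, z, x1, z * x1} : Set Γ).ncard ≤ 4 := by
          refine (Set.ncard_insert_le _ _).trans ?_
          have := Set.ncard_insert_le z ({x1, z * x1} : Set Γ)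
          have h5 := Set.ncard_insert_le x1 ({z * x1} : Set Γ)
          rw [Set.ncard_singleton] at h5
          omega
        exact h3.trans h4
      omega
    have hyT : y ∈ T := hyC.1
    have hyx : x1 * y = y * x1 := (mem_centralizer_singleton_iff.1 hyC.2).symm
    by_cases hxr : x1 ∈ R
    · exact ⟨x1, hxr, hx1k⟩
    by_cases hyr : y ∈ R
    · refine ⟨y, hyr, fun h => ?_⟩
      rcases hker y h with h | h
      · exact hy1 h
      · exact hy2 h
    -- both are non-radical
    have hCle : ∀ x ∈ T, x ∉ R → Nat.card ↥(T ⊓ centralizer {x}) ≤ 8 := by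
      intro x hx hxR
      have h1 : Nat.card ↥(T ⊓ centralizer {x}) ∣ 16 := by rw [← hTc]; exact card_dvd_of_le inf_le_left
      have h2 : Nat.card ↥(T ⊓ centralizer {x}) ≠ 16 := by
        intro h
        have h3 : T ⊓ centralizer {x} = T := eq_of_le_of_card_ge inf_le_left (by rw [h, hTc])
        apply hxR
        rw [hRmem]
        refine ⟨hx, fun y hy => ?_⟩
        rw [← h3] at hy
        exact mem_centralizer_singleton_iff.1 hy.2
      have h3 : Nat.card ↥(T ⊓ centralizer {x}) ≤ 16 := Nat.le_of_dvd (by norm_num) h1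
      interval_cases h4 : Nat.card ↥(T ⊓ centralizer {x}) <;> first | omega | (exfalso; revert h1; decide)
    set B := C ⊓ (T ⊓ centralizer {y}) with hB
    have hBc : 8 ≤ Nat.card B := by
      have h1 : Nat.card B ∣ 16 := by rw [← hTc]; exact card_dvd_of_le (inf_le_left.trans inf_le_left)
      have h2 : 4 < Nat.card B := by
        have h3 : (({1, z, x1, z * x1, y} : Finset Γ) : Set Γ) ⊆ (B : Set Γ) := by
          intro b hb
          have hx1B : x1 ∈ B := ⟨hx1C, hx1T, mem_centralizer_singleton_iff.2 hyx⟩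
          have hzB : z ∈ B := ⟨⟨hkT hz, mem_centralizer_singleton_iff.2 (hZ' z hz x1)⟩, hkT hz,
            mem_centralizer_singleton_iff.2 (hZ' z hz y)⟩
          have hyB : y ∈ B := ⟨hyC, hyT, mem_centralizer_singleton_iff.2 rfl⟩
          simp only [Finset.coe_insert, Finset.coe_singleton, Set.mem_insert_iff, Set.mem_singleton_iff] at hb
          rcases hb with rfl | rfl | rfl | rfl | rfl
          · exact B.one_mem
          · exact hzB
          · exact hx1B
          · exact B.mul_mem hzB hx1B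
          · exact hyB
        have h4 : ({1, z, x1, z * x1, y} : Finset Γ).card = 5 := by
          have hx11 : x1 ≠ 1 := fun h => hx1k (by rw [h]; exact one_mem _)
          have hx1z : x1 ≠ z := fun h => hx1k (by rw [h]; exact hz)
          have hzx1 : z * x1 ≠ 1 := fun h => hx1k (by
            have : x1 = z⁻¹ := (eq_inv_of_mul_eq_one_right h)
            rw [this]; exact inv_mem hz)
          rw [Finset.card_insert_of_notMem, Finset.card_insert_of_notMem, Finset.card_insert_of_notMem,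
            Finset.card_insert_of_notMem, Finset.card_singleton]
          · rw [Finset.mem_singleton]; exact fun h => hy4 h.symm
          · simp only [Finset.mem_insert, Finset.mem_singleton, not_or]
            exact ⟨fun h => hz1 (mul_eq_right.1 h.symm), fun h => hy3 h.symm⟩
          · simp only [Finset.mem_insert, Finset.mem_singleton, not_or]
            exact ⟨fun h => hx1z h.symm, fun h => hx11 (mul_eq_left.1 h.symm), fun h => hy2 h.symm⟩
          · simp only [Finset.mem_insert, Finset.mem_singleton, not_or]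
            exact ⟨fun h => hz1 h.symm, fun h => hx11 h.symm, fun h => hzx1 h.symm, fun h => hy1 h.symm⟩
        have h5 := Set.ncard_le_ncard h3 (Set.toFinite _)
        rw [Set.ncard_coe_finset, h4] at h5
        exact h5
      have h3 : Nat.card B ≤ 16 := Nat.le_of_dvd (by norm_num) h1
      interval_cases h4 : Nat.card B <;> first | omega | (exfalso; revert h1; decide)
    have hB1 : B = C := eq_of_le_of_card_ge inf_le_left ((hCle x1 hx1T hxr).trans hBc)
    have hB2 : B = T ⊓ centralizer {y} := eq_of_le_of_card_ge inf_le_right ((hCle y hyT hyr).trans hBc)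
    refine ⟨x1 * y, ?_, ?_⟩
    · rw [hRmem]
      refine ⟨T.mul_mem hx1T hyT, ?_⟩
      intro w hw
      by_cases hwC : w ∈ C
      · have hwy : w ∈ T ⊓ centralizer {y} := by rw [← hB2, hB1]; exact hwC
        have h1 := mem_centralizer_singleton_iff.1 hwC.2
        have h2 := mem_centralizer_singleton_iff.1 hwy.2
        calc w * (x1 * y) = (w * x1) * y := by group
          _ = x1 * (w * y) := by rw [h1]; group
          _ = _ := by rw [h2]; group
      · have hwy : w ∉ T ⊓ centralizer {y} := by rw [← hB2, hB1]; exact hwC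
        have h1 : x1 * w = z * (w * x1) := (hcomm x1 hx1T w hw).resolve_left
          (fun h => hwC ⟨hw, mem_centralizer_singleton_iff.2 h.symm⟩)
        have h2 : y * w = z * (w * y) := (hcomm y hyT w hw).resolve_left
          (fun h => hwy ⟨hw, mem_centralizer_singleton_iff.2 h.symm⟩)
        symm
        calc (x1 * y) * w = x1 * (y * w) := by group
          _ = (x1 * z) * w * y := by rw [h2]; group
          _ = z * (x1 * w) * y := by rw [← hZ' z hz]; group
          _ = (z * z) * (w * (x1 * y)) := by rw [h1]; group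
          _ = _ := by rw [hzz, one_mul]
    · intro h
      have hx1sq : x1 * x1 ∈ σ.ker := by rw [MonoidHom.mem_ker, map_mul]; exact hsq _ hx1T
      rcases hker _ h with h1 | h1
      · rcases hker _ hx1sq with h2 | h2
        · have : y = x1 := by
            have : x1 * y = x1 * x1 := by rw [h1, h2]
            exact mul_left_cancel this
          exact hy3 this
        · have : y = z * x1 := by
            have h3 : x1 * y = x1 * (z * x1) := by
              rw [h1, ← mul_assoc, ← hZ' z hz, mul_assoc, h2, hzz]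
            exact mul_left_cancel h3
          exact hy4 this
      · rcases hker _ hx1sq with h2 | h2
        · have : y = z * x1 := by
            have h3 : x1 * y = x1 * (z * x1) := by
              rw [h1, ← mul_assoc, ← hZ' z hz, mul_assoc, h2, mul_one]
            exact mul_left_cancel h3
          exact hy4 this
        · have : y = x1 := by
            have : x1 * y = x1 * x1 := by rw [h1, h2]
            exact mul_left_cancel this
          exact hy3 this
  -- transitivity
  obtain ⟨x', hx'S, hx'g⟩ := hgc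
  have hx0T : x0 ∈ T := hx0R.1
  have hσx0 : σ x0 ∈ S := hx0T
  have hσx01 : σ x0 ≠ 1 := fun h => hx0k (MonoidHom.mem_ker.2 h)
  have hx0g : g * σ x0 * g⁻¹ ≠ σ x0 := by
    intro h
    obtain ⟨i, hi⟩ := trans7 hc hg7 hgn hx'S hx'g (σ x0) hσx0 hσx01
    apply hx'g
    rw [← hi] at h
    have h1 : g ^ i * (g * x' * g⁻¹) * (g ^ i)⁻¹ = g ^ i * x' * (g ^ i)⁻¹ := by
      rw [← h]; group
    exact mul_left_cancel (mul_right_cancel h1)
  obtain ⟨g', rfl⟩ := hsurj g
  have hgT : ∀ x ∈ T, g' * x * g'⁻¹ ∈ T := by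
    intro x hx
    show σ (g' * x * g'⁻¹) ∈ S
    rw [map_mul, map_mul, map_inv]; exact hgn _ hx
  have hgT' : ∀ x ∈ T, g'⁻¹ * x * g' ∈ T := by
    intro x hx
    have h1 : ∀ i : ℕ, ∀ y ∈ S, σ g' ^ i * y * (σ g' ^ i)⁻¹ ∈ S := by
      intro i
      induction i with
      | zero => intro y hy; simpa using hy
      | succ i ih =>
        intro y hy
        have e : σ g' ^ (i + 1) * y * (σ g' ^ (i + 1))⁻¹ = σ g' ^ i * (σ g' * y * (σ g')⁻¹) * (σ g' ^ i)⁻¹ := by
          rw [pow_succ]; group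
        rw [e]; exact ih _ (hgn y hy)
    show σ (g'⁻¹ * x * g') ∈ S
    have h3 : (σ g')⁻¹ = σ g' ^ 6 := by
      rw [inv_eq_iff_mul_eq_one, ← pow_succ']; exact hg7
    have h4 := h1 6 (σ x) hx
    rw [← h3, inv_inv] at h4
    rw [map_mul, map_mul, map_inv]; exact h4
  have hgR : ∀ x ∈ R, g' * x * g'⁻¹ ∈ R := by
    intro x hx
    rw [hRmem] at hx ⊢
    refine ⟨hgT x hx.1, fun y hy => ?_⟩
    have h1 := hx.2 _ (hgT' y hy)
    calc y * (g' * x * g'⁻¹) = g' * (g'⁻¹ * y * g' * x) * g'⁻¹ := by group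
      _ = g' * (x * (g'⁻¹ * y * g')) * g'⁻¹ := by rw [h1]
      _ = _ := by group
  have hgRi : ∀ i : ℕ, ∀ x ∈ R, g' ^ i * x * (g' ^ i)⁻¹ ∈ R := by
    intro i
    induction i with
    | zero => intro x hx; simpa using hx
    | succ i ih =>
      intro x hx
      have e : g' ^ (i + 1) * x * (g' ^ (i + 1))⁻¹ = g' ^ i * (g' * x * g'⁻¹) * (g' ^ i)⁻¹ := by rw [pow_succ]; group
      rw [e]; exact ih _ (hgR x hx)
  have hTR : T ≤ R := by
    intro x hx
    by_cases hxk : x ∈ σ.ker
    · exact hkR hxk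
    obtain ⟨i, hi⟩ := trans7 hc hg7 hgn hσx0 hx0g (σ x) hx (fun h => hxk (MonoidHom.mem_ker.2 h))
    have h1 : x * (g' ^ i * x0 * (g' ^ i)⁻¹)⁻¹ ∈ σ.ker := by
      rw [MonoidHom.mem_ker, map_mul, map_inv, map_mul, map_mul, map_inv, map_pow, hi, mul_inv_cancel]
    have h3 : x = (x * (g' ^ i * x0 * (g' ^ i)⁻¹)⁻¹) * (g' ^ i * x0 * (g' ^ i)⁻¹) := by group
    rw [h3]
    exact R.mul_mem (hkR h1) (hgRi i x0 hx0R)
  have hp2 : IsPGroup 2 σ.ker := IsPGroup.of_card (n := 1) (by rw [hk2, pow_one])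
  have : Fact (Nat.Prime 2) := ⟨Nat.prime_two⟩
  have hle := ker_le_commutator_comap σ ⟨hsurj, hZ, hZc⟩ hp2 S hSi
  have hbot : ⁅S.comap σ, S.comap σ⁆ = ⊥ := by
    rw [commutator_eq_bot_iff_le_centralizer]
    intro x hx
    rw [mem_centralizer_iff]
    intro y hy
    exact ((hRmem x).1 (hTR hx)).2 y hy
  rw [hbot] at hle
  exact hz1 (mem_bot.1 (hle hz))

end core

/-- elementary abelian Sylow 2-subgroup of order 8, and an element of order 7 normalising it but not centralising it:
the 2-part of the multiplier is trivial. -/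
theorem pStemDvd_two {G : Type u} [Group G] [Finite G] {S : Subgroup G} (hSi : ¬ 2 ∣ S.index) (hc : Nat.card S = 8)
    (hsq : ∀ x ∈ S, x * x = 1) {g : G} (hg7 : g ^ 7 = 1) (hgn : ∀ x ∈ S, g * x * g⁻¹ ∈ S) (hgc : ∃ x ∈ S, g * x * g⁻¹ ≠ x) :
    PStemDvd 2 G 1 := by
  intro Γ _ _ σ hσ hp
  have : Fact (Nat.Prime 2) := ⟨Nat.prime_two⟩
  obtain ⟨k, hk⟩ := IsPGroup.iff_card.1 hp
  rcases Nat.eq_zero_or_pos k with h0 | h0
  · rw [hk, h0, pow_zero]
  exfalso
  -- a subgroup of index 2 of the kernel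
  obtain ⟨B₀, hB₀⟩ := Sylow.exists_subgroup_card_pow_prime (G := σ.ker) 2 (n := k - 1) (by
    rw [hk]; exact pow_dvd_pow 2 (by omega))
  have hcen : ∀ b ∈ B₀.map σ.ker.subtype, b ∈ center Γ := by
    rintro _ ⟨b, -, rfl⟩
    exact hσ.2.1 b.2
  have hBn : (B₀.map σ.ker.subtype).Normal := ⟨fun b hb x => by
    have h1 := mem_center_iff.1 (hcen b hb) x
    rw [h1, mul_inv_cancel_right]; exact hb⟩
  have hBle : B₀.map σ.ker.subtype ≤ σ.ker := by
    rintro _ ⟨b, -, rfl⟩; exact b.2
  obtain ⟨h1, h2⟩ := quotient_isStem σ hσ (B₀.map σ.ker.subtype) hBle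
  refine core (QuotientGroup.lift (B₀.map σ.ker.subtype) σ hBle) h1 ?_ hSi hc hsq hg7 hgn hgc
  rw [h2]
  have h3 := Nat.card_congr (QuotientGroup.quotientKerEquivRange
    ((QuotientGroup.mk' (B₀.map σ.ker.subtype)).comp σ.ker.subtype)).toEquiv
  have h4 : ((QuotientGroup.mk' (B₀.map σ.ker.subtype)).comp σ.ker.subtype).range =
      σ.ker.map (QuotientGroup.mk' (B₀.map σ.ker.subtype)) := by
    rw [MonoidHom.range_comp, range_subtype]
  have h5 : ((QuotientGroup.mk' (B₀.map σ.ker.subtype)).comp σ.ker.subtype).ker = B₀ := by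
    ext b
    rw [MonoidHom.mem_ker, MonoidHom.comp_apply, QuotientGroup.mk'_apply, QuotientGroup.eq_one_iff]
    constructor
    · rintro ⟨b', hb', e⟩
      rwa [← Subtype.ext (a1 := b') (a2 := b) e]
    · intro hb; exact ⟨b, hb, rfl⟩
  rw [h4, ← index_eq_card, h5] at h3
  rw [← h3]
  have h6 := B₀.card_mul_index
  rw [hB₀, hk] at h6
  obtain ⟨j, rfl⟩ : ∃ j, k = j + 1 := ⟨k - 1, by omega⟩
  rw [Nat.add_sub_cancel, pow_succ] at h6
  exact Nat.eq_of_mul_eq_mul_left (by positivity) h6

end Cfsg.Agent.Lib.H26Eight
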