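import Cfsg.Agent.Lib.H26StB2
import Cfsg.Agent.Lib.SzLie
import Cfsg.Agent.Lib.SuzukiTor
import Cfsg.Agent.Lib.SuzukiLie
import Cfsg.Agent.Lib.SchurSylow
import Cfsg.Agent.Lib.TwF4b

/-! The rank one subgroups of `²F₄(q)` of Suzuki type (helper26). -/

set_option autoImplicit false
set_option linter.unusedSectionVars false
set_option linter.unusedVariables false
set_option maxHeartbeats 1000000

namespace Cfsg.Agent.Lib.H26F4

universe u v

section gen
open Subgroup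
open Cfsg.Agent.Lib.SchurSylow

theorem cyc_of_inj {L : Type u} {S : Type v} [Group L] [Group S] {r : ℕ} (f : L →* S) (hf : Function.Injective f)
    (h : ∀ P : Subgroup S, IsPGroup r P → IsCyclic P) (P : Subgroup L) (hP : IsPGroup r P) : IsCyclic P := by
  have := h (P.map f) (hP.map f)
  exact ((P.equivMapOfInjective f hf).isCyclic).2 this

theorem pStem_of_cyc {L : Type u} [Group L] [Finite L] {r : ℕ} [Fact r.Prime]
    (h : ∀ P : Subgroup L, IsPGroup r P → IsCyclic P) : PStemDvd r L 1 := by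
  obtain ⟨P⟩ : Nonempty (Sylow r L) := inferInstance
  refine PStemDvd.of_index P.not_dvd_index ?_
  have hc : IsCyclic (P : Subgroup L) := h P P.2
  exact stemDvd_of_isCyclic.pStemDvd r

theorem card_dvd_of_cyc {A : Type u} [Group A] [Finite A] {N : ℕ} (hN : ∀ a : A, a ^ N = 1)
    (h : ∀ r : ℕ, r.Prime → r ∣ Nat.card A → ∀ P : Subgroup A, IsPGroup r P → IsCyclic P) : Nat.card A ∣ N := by
  rw [Nat.dvd_iff_prime_pow_dvd_dvd]
  intro r k hr hk
  haveI : Fact r.Prime := ⟨hr⟩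
  rcases Nat.eq_zero_or_pos k with rfl | hk0
  · simp
  have hrd : r ∣ Nat.card A := (dvd_pow_self r hk0.ne').trans hk
  obtain ⟨P⟩ : Nonempty (Sylow r A) := inferInstance
  have hc : IsCyclic (P : Subgroup A) := h r hr hrd P P.2
  obtain ⟨g, hg⟩ := hc.exists_generator
  have h1 : orderOf g = Nat.card (P : Subgroup A) := orderOf_eq_card_of_forall_mem_zpowers hg
  have h2 : g ^ N = 1 := Subtype.ext (by simpa using hN (g : A))
  have h3 : r ^ k ∣ Nat.card (P : Subgroup A) := by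
    rw [P.card_eq_multiplicity]
    apply pow_dvd_pow
    exact (hr.pow_dvd_iff_le_factorization Nat.card_pos.ne').1 hk
  exact h3.trans (h1 ▸ orderOf_dvd_of_pow_eq_one h2)

end gen

section b2
open Cfsg.Lie Cfsg.Agent.Lib.ChevX Cfsg.Agent.Lib.ChevGood Cfsg.Agent.Lib.ChevRel
open Cfsg.Agent.Lib.SparseRep Cfsg.Agent.Lib.H26StB2 Cfsg.Agent.Lib.SzLie

variable {K : Type u} [Field K]

/-- the root elements of the Suzuki group -/
noncomputable def sBP (e : ℕ) (t u : K) : chevB2.SteinbergGroup K :=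
  chevB2.stGen K 5 (t ^ e) * chevB2.stGen K 4 t * (chevB2.stGen K 6 (t ^ (e + 1) + u) * chevB2.stGen K 7 (u ^ (2 * e)))
noncomputable def sBM (e : ℕ) (t u : K) : chevB2.SteinbergGroup K :=
  chevB2.stGen K 2 (t ^ e) * chevB2.stGen K 3 t * (chevB2.stGen K 1 (t ^ (e + 1) + u) * chevB2.stGen K 0 (u ^ (2 * e)))

noncomputable abbrev ψF : chevB2.SteinbergGroup K →* GL chevF4.Idx K := ψ embF4 ChevOkB2.good TwF4.G

theorem ψF_BP (e : ℕ) (t u : K) : ψF (sBP e t u) = TwF4.BP e t u := by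
  unfold sBP
  rw [map_mul, map_mul, map_mul, ψ_gen _ _ _ (by decide), ψ_gen _ _ _ (by decide), ψ_gen _ _ _ (by decide),
    ψ_gen _ _ _ (by decide), TwF4.BP_eq]
  rfl

theorem ψF_BM (e : ℕ) (t u : K) : ψF (sBM e t u) = TwF4.BM e t u := by
  unfold sBM
  rw [map_mul, map_mul, map_mul, ψ_gen _ _ _ (by decide), ψ_gen _ _ _ (by decide), ψ_gen _ _ _ (by decide),
    ψ_gen _ _ _ (by decide), TwF4.BM_eq]
  rfl

noncomputable abbrev φ4 : chevB2.SteinbergGroup K →* GL (Fin 4) K := rep4.hom enc4 K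

section mats
variable [CharP K 2]

theorem nz1 : (-1 : K) = 1 := by
  have := CharTwo.neg_eq (1 : K)
  exact this

theorem m5 (t : K) : (φ4 (chevB2.stGen K 5 t) : Matrix (Fin 4) (Fin 4) K) = !![1, t, 0, 0; 0, 1, 0, 0; 0, 0, 1, t; 0, 0, 0, 1] := by
  rw [rep4.hom_stGen, rep4.coe_X _ (by decide)]
  ext i j
  fin_cases i <;> fin_cases j <;> simp [xm, enc4, rep4, col4, colL]

theorem m4 (t : K) : (φ4 (chevB2.stGen K 4 t) : Matrix (Fin 4) (Fin 4) K) = !![1, 0, 0, 0; 0, 1, t, 0; 0, 0, 1, 0; 0, 0, 0, 1] := by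
  rw [rep4.hom_stGen, rep4.coe_X _ (by decide)]
  ext i j
  fin_cases i <;> fin_cases j <;> simp [xm, enc4, rep4, col4, colL]

theorem m6 (t : K) : (φ4 (chevB2.stGen K 6 t) : Matrix (Fin 4) (Fin 4) K) = !![1, 0, t, 0; 0, 1, 0, t; 0, 0, 1, 0; 0, 0, 0, 1] := by
  rw [rep4.hom_stGen, rep4.coe_X _ (by decide)]
  ext i j
  fin_cases i <;> fin_cases j <;> simp [xm, enc4, rep4, col4, colL, CharTwo.neg_eq]

theorem m7 (t : K) : (φ4 (chevB2.stGen K 7 t) : Matrix (Fin 4) (Fin 4) K) = !![1, 0, 0, t; 0, 1, 0, 0; 0, 0, 1, 0; 0, 0, 0, 1] := by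
  rw [rep4.hom_stGen, rep4.coe_X _ (by decide)]
  ext i j
  fin_cases i <;> fin_cases j <;> simp [xm, enc4, rep4, col4, colL]

theorem m2 (t : K) : (φ4 (chevB2.stGen K 2 t) : Matrix (Fin 4) (Fin 4) K) = !![1, 0, 0, 0; t, 1, 0, 0; 0, 0, 1, 0; 0, 0, t, 1] := by
  rw [rep4.hom_stGen, rep4.coe_X _ (by decide)]
  ext i j
  fin_cases i <;> fin_cases j <;> simp [xm, enc4, rep4, col4, colL]

theorem m3 (t : K) : (φ4 (chevB2.stGen K 3 t) : Matrix (Fin 4) (Fin 4) K) = !![1, 0, 0, 0; 0, 1, 0, 0; 0, t, 1, 0; 0, 0, 0, 1] := by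
  rw [rep4.hom_stGen, rep4.coe_X _ (by decide)]
  ext i j
  fin_cases i <;> fin_cases j <;> simp [xm, enc4, rep4, col4, colL]

theorem m1 (t : K) : (φ4 (chevB2.stGen K 1 t) : Matrix (Fin 4) (Fin 4) K) = !![1, 0, 0, 0; 0, 1, 0, 0; t, 0, 1, 0; 0, t, 0, 1] := by
  rw [rep4.hom_stGen, rep4.coe_X _ (by decide)]
  ext i j
  fin_cases i <;> fin_cases j <;> simp [xm, enc4, rep4, col4, colL, CharTwo.neg_eq]

theorem m0 (t : K) : (φ4 (chevB2.stGen K 0 t) : Matrix (Fin 4) (Fin 4) K) = !![1, 0, 0, 0; 0, 1, 0, 0; 0, 0, 1, 0; t, 0, 0, 1] := by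
  rw [rep4.hom_stGen, rep4.coe_X _ (by decide)]
  ext i j
  fin_cases i <;> fin_cases j <;> simp [xm, enc4, rep4, col4, colL]

theorem matP (s t w v : K) : !![1, s, 0, 0; 0, 1, 0, 0; 0, 0, 1, s; 0, 0, 0, 1] * !![1, 0, 0, 0; 0, 1, t, 0; 0, 0, 1, 0; 0, 0, 0, 1] *
    (!![1, 0, w, 0; 0, 1, 0, w; 0, 0, 1, 0; 0, 0, 0, 1] * !![1, 0, 0, v; 0, 1, 0, 0; 0, 0, 1, 0; 0, 0, 0, 1]) =
    !![1, s, s * t + w, s * w + v; 0, 1, t, w; 0, 0, 1, s; (0 : K), 0, 0, 1] := by
  ext i j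
  fin_cases i <;> fin_cases j <;> simp [Matrix.mul_apply, Fin.sum_univ_four] <;> ring

theorem matM (s t w v : K) : !![1, 0, 0, 0; s, 1, 0, 0; 0, 0, 1, 0; 0, 0, s, 1] * !![1, 0, 0, 0; 0, 1, 0, 0; 0, t, 1, 0; 0, 0, 0, 1] *
    (!![1, 0, 0, 0; 0, 1, 0, 0; w, 0, 1, 0; 0, w, 0, 1] * !![1, 0, 0, 0; 0, 1, 0, 0; 0, 0, 1, 0; v, 0, 0, 1]) =
    !![1, 0, 0, 0; s, 1, 0, 0; w, t, 1, 0; s * w + v, s * t + w, s, (1 : K)] := by
  ext i j
  fin_cases i <;> fin_cases j <;> simp [Matrix.mul_apply, Fin.sum_univ_four] <;> ring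

end mats

section suz
variable [Fintype K] [CharP K 2] {m : ℕ} (hK : Fintype.card K = 2 ^ (2 * m + 1))

/-- the automorphism `x ↦ x^(2^(m+1))` -/
noncomputable abbrev tht (K : Type u) [Field K] [Fintype K] [CharP K 2] (m : ℕ) : K →+* K := (SuzukiFin.th K m : K →+* K)

theorem tht_ap (x : K) : tht K m x = x ^ (2 ^ (m + 1)) := SuzukiFin.th_apply m x

include hK in
theorem tht_sq (x : K) : tht K m (tht K m x) = x ^ 2 := SuzukiFin.th_sq hK x

include hK in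
theorem tht_e (t : K) : tht K m (t ^ 2 ^ m) = t := by
  rw [tht_ap, pow_succ]; exact TwF4.hT2 hK t

theorem φ4_BP (t u : K) : φ4 (sBP (2 ^ m) t u) = UG (tht K m) (tht_sq hK) (t ^ 2 ^ m) u := by
  apply Units.ext
  have h2 : (2 : K) = 0 := CharTwo.two_eq_zero
  rw [UG_val]
  unfold sBP
  rw [map_mul, map_mul, map_mul, Units.val_mul, Units.val_mul, Units.val_mul, m5, m4, m6, m7, matP]
  unfold Um
  rw [tht_e hK]
  have e1 : tht K m u = u ^ (2 * 2 ^ m) := by rw [tht_ap, pow_succ, mul_comm 2]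
  rw [e1, pow_succ t (2 ^ m)]
  set s := t ^ 2 ^ m
  set v := u ^ (2 * 2 ^ m)
  have e2 : s * t + (s * t + u) = u := by linear_combination (s * t) * h2
  rw [e2]
  have e3 : s * (s * t + u) + v = s ^ 2 * t + s * u + v := by ring
  have e4 : s * t + u = u + s * t := by ring
  rw [e3, e4]

theorem φ4_BM (t u : K) : φ4 (sBM (2 ^ m) t u) = TG K * UG (tht K m) (tht_sq hK) (t ^ 2 ^ m) u * TG K := by
  apply Units.ext
  have h2 : (2 : K) = 0 := CharTwo.two_eq_zero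
  rw [Units.val_mul, Units.val_mul, UG_val, TG_val]
  unfold sBM
  rw [map_mul, map_mul, map_mul, Units.val_mul, Units.val_mul, Units.val_mul, m2, m3, m1, m0, matM]
  unfold Um
  rw [tht_e hK]
  have e1 : tht K m u = u ^ (2 * 2 ^ m) := by rw [tht_ap, pow_succ, mul_comm 2]
  rw [e1, pow_succ t (2 ^ m)]
  set s := t ^ 2 ^ m
  set v := u ^ (2 * 2 ^ m)
  have e2 : s * t + (s * t + u) = u := by linear_combination (s * t) * h2
  rw [e2]
  have e3 : s * (s * t + u) + v = s ^ 2 * t + s * u + v := by ring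
  have e4 : s * t + u = u + s * t := by ring
  rw [e3, e4]
  ext i j
  fin_cases i <;> fin_cases j <;> simp [SzLie.Tm, Matrix.mul_apply, Fin.sum_univ_four]

/-- the Suzuki subgroup of the Steinberg group -/
noncomputable def Lst (K : Type u) [Field K] (m : ℕ) : Subgroup (chevB2.SteinbergGroup K) :=
  Subgroup.closure {g | ∃ t u : K, g = sBP (2 ^ m) t u ∨ g = sBM (2 ^ m) t u}

include hK in
theorem Lst_le : (Lst K m).map φ4 ≤ Cfsg.Lie.Sz K (2 ^ (m + 1)) := by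
  unfold Lst
  rw [MonoidHom.map_closure, Subgroup.closure_le]
  have hX : ∀ g : GL (Fin 4) K, IsX (tht K m) g → g ∈ Cfsg.Lie.Sz K (2 ^ (m + 1)) := by
    rintro g ⟨h1, h2⟩
    refine Subgroup.subset_closure ⟨h1, ?_⟩
    rw [h2]
    congr 1
  rintro _ ⟨_, ⟨t, u, rfl | rfl⟩, rfl⟩
  · rw [φ4_BP hK]; exact hX _ (isX_UG _ _ _)
  · rw [φ4_BM hK]; exact hX _ ((isX_TG.mul (isX_UG _ _ _)).mul isX_TG)

include hK in
theorem exists_ne (hm : 1 ≤ m) : ∃ a : K, a ≠ 0 ∧ a ≠ 1 := by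
  have h4 : 2 < Fintype.card K := by
    rw [hK]
    calc 2 < 2 ^ 3 := by norm_num
      _ ≤ 2 ^ (2 * m + 1) := Nat.pow_le_pow_right (by norm_num) (by omega)
  by_contra hcon
  push Not at hcon
  classical
  have : (Finset.univ : Finset K) ⊆ {0, 1} := by
    intro a _
    simp only [Finset.mem_insert, Finset.mem_singleton]
    by_cases h : a = 0
    · exact Or.inl h
    · exact Or.inr (hcon a h)
  have h5 := Finset.card_le_card this
  rw [Finset.card_univ] at h5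
  have h6 : ({0, 1} : Finset K).card ≤ 2 := Finset.card_le_two
  omega

include hK in
theorem ψF_inj (hm : 1 ≤ m) : Function.Injective (ψF (K := K)) := by
  refine inj_of_ne (exists_ne hK hm) _ (g := chevB2.stGen K 5 1) ?_
  rw [ψ_gen _ _ _ (by decide)]
  intro h
  exact one_ne_zero ((xg_eq_one_iff TwF4.G (show 27 < chevF4.nroots by decide) (1 : K)).mp h)

include hK in
theorem φ4_inj (hm : 1 ≤ m) : Function.Injective (φ4 (K := K)) := by
  refine inj_of_ne (exists_ne hK hm) _ (g := chevB2.stGen K 5 1) ?_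
  intro h
  have h1 : (φ4 (chevB2.stGen K 5 1) : Matrix (Fin 4) (Fin 4) K) 0 1 = (1 : Matrix (Fin 4) (Fin 4) K) 0 1 := by rw [h]; rfl
  rw [m5] at h1
  simp at h1

include hK in
/-- odd subgroups of prime power order in the image are cyclic -/
theorem cyc_Lst (hm : 1 ≤ m) {r : ℕ} [Fact r.Prime] (h2 : r ≠ 2) (P : Subgroup ↥((Lst K m).map ψF)) (hP : IsPGroup r P) :
    IsCyclic P := by
  let e1 := (Lst K m).equivMapOfInjective ψF (ψF_inj hK hm)
  let f2 : ↥(Lst K m) →* ↥(Cfsg.Lie.Sz K (2 ^ (m + 1))) :=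
    (φ4.comp (Lst K m).subtype).codRestrict _ (fun x => Lst_le hK ⟨x, x.2, rfl⟩)
  have hf2 : Function.Injective f2 := by
    intro x y h
    exact Subtype.ext (φ4_inj hK hm (congrArg Subtype.val h))
  let e3 := (Lib.SuzukiLie.szEquiv m hm hK).symm.trans (MulEquiv.subgroupCongr (Lib.SuzukiFin.Sz_eq m))
  refine cyc_of_inj ((e3.toMonoidHom.comp f2).comp e1.symm.toMonoidHom)
    ((e3.injective.comp hf2).comp e1.symm.injective) ?_ P hP
  intro P hP
  exact Lib.SuzukiTor.odd_pgroup_cyclic (Lib.SuzukiFin.th K m) (Lib.SuzukiFin.th_sq hK) (Lib.SuzukiFin.th_ne hm hK) h2 P hP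

end suz

end b2

end Cfsg.Agent.Lib.H26F4
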