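import Cfsg.Agent.Lib.H26LiftA
import Cfsg.Agent.Lib.TwSBN

/-! Twisted groups as `LDat` (helper26). -/

set_option autoImplicit false
set_option linter.unusedSectionVars false

namespace Cfsg.Agent.Lib.H26TwL
open Cfsg.Lie Cfsg.Agent.Lib.ChevX Cfsg.Agent.Lib.ChevGood Cfsg.Agent.Lib.ChevRel Cfsg.Agent.Lib.ChevNPerm
  Cfsg.Agent.Lib.ChevClosed Cfsg.Agent.Lib.ChevBruhat Cfsg.Agent.Lib.TwFix Cfsg.Agent.Lib.TwFix.TwRk
  Cfsg.Agent.Lib.TwFix.TwAll
open Cfsg.Agent.Lib.H26LiftA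
open scoped MatrixGroups Matrix

variable {D : ChevalleyDatum} {F : Type*} [Field F]
variable {T : TwSys D F} {R : TwRk T} {k : ℕ} {W : TwGen T k} {B : TwBlk R W} {Γ : Subgroup (GL D.Idx F)}
  (K : TwAll B Γ)

section comb
include K

theorem exists_node (j : Fin k) : ∃ i : Fin D.rank, W.blk i = j := by
  rcases h : W.jw j with _ | ⟨i, l⟩
  · exact absurd h (W.ne_nil j)
  · exact ⟨i, W.mem j i (by rw [h]; simp)⟩

omit K in
theorem wcomm (j : Fin k) : W.wj j * T.ρ = T.ρ * W.wj j :=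
  T.comm_of_fix (W.nj_mem_N j) (W.mono_nj j) (W.nj_mem_fix j)

omit K in
theorem wsq (j : Fin k) (r : Fin D.nroots) : W.wj j (W.wj j r) = r := by
  have := congrArg (fun e : Equiv.Perm (Fin D.nroots) => e r) (W.sq j)
  simpa [TwGen.wj] using this

theorem mem_Inv_iff (j : Fin k) (r : Fin D.nroots) :
    r ∈ Inv (W.wj j) ↔ Pos D r ∧ ∀ i : Fin D.rank, W.blk i ≠ j → T.G.rv r i = 0 := by
  obtain ⟨i0, hi0⟩ := exists_node K j
  constructor
  · rintro ⟨h1, h2⟩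
    refine ⟨h1, fun i hi => ?_⟩
    by_contra hne
    have h3 : r ∈ Psi W ({j} : Set (Fin k)) := ⟨h1, i, hi, hne⟩
    exact h2 (Psi_wj (W := W) (J := {j}) rfl h3).1
  · rintro ⟨h1, h2⟩
    refine ⟨h1, ?_⟩
    have h3 : ¬ Pos D (W.wj (W.blk i0) (simpF T.G i0)) := K.wj_simple_neg
    rw [hi0] at h3
    exact TwGen.block_neg W (W.mono_nj j).1 (wcomm j) h3 h1
      (fun i' hi' => (T.G.co_zero_iff r r.2 i').mpr (h2 i' (by rw [← hi0]; exact hi')))

theorem Inv_eq (j : Fin k) : Inv (W.wj j) = posS D \ Psi W ({j} : Set (Fin k)) := by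
  ext r
  rw [mem_Inv_iff K]
  constructor
  · rintro ⟨h1, h2⟩
    exact ⟨h1, fun h3 => by obtain ⟨-, i, hi, hne⟩ := h3; exact hne (h2 i hi)⟩
  · rintro ⟨h1, h2⟩
    refine ⟨h1, fun i hi => ?_⟩
    by_contra hne
    exact h2 ⟨h1, i, hi, hne⟩

theorem simp_mem_Inv {j : Fin k} {i : Fin D.rank} (hi : W.blk i = j) : simpF T.G i ∈ Inv (W.wj j) := by
  refine ⟨pos_simpF T.G i, ?_⟩
  rw [← hi]; exact K.wj_simple_neg

/-- dichotomy -/
theorem dich {w : Equiv.Perm (Fin D.nroots)} (hl : Lin T.G w) (hc : w * T.ρ = T.ρ * w) (j : Fin k) :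
    (∀ r ∈ Inv (W.wj j), Pos D (w r)) ∨ (∀ r ∈ Inv (W.wj j), ¬ Pos D (w r)) := by
  obtain ⟨i0, hi0⟩ := exists_node K j
  by_cases h : Pos D (w (simpF T.G i0))
  · left
    intro r hr
    rw [mem_Inv_iff K] at hr
    exact block_pos (W := W) hl hc h hr.1 (fun i' hi' => hr.2 i' (by rw [← hi0]; exact hi'))
  · right
    intro r hr
    rw [mem_Inv_iff K] at hr
    exact TwGen.block_neg W hl hc h hr.1
      (fun i' hi' => (T.G.co_zero_iff r r.2 i').mpr (hr.2 i' (by rw [← hi0]; exact hi')))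

theorem neg_Inv (j : Fin k) (r : Fin D.nroots) : W.wj j r ∈ Inv (W.wj j) ↔ negF T.G r ∈ Inv (W.wj j) := by
  have hl := (W.mono_nj j).1
  have key : ∀ s ∈ Inv (W.wj j), negF T.G (W.wj j s) ∈ Inv (W.wj j) := by
    intro s hs
    refine ⟨(pos_negF T.G).mpr hs.2, ?_⟩
    rw [lin_neg T.G hl, wsq, pos_negF, not_not]
    exact hs.1
  constructor
  · intro h
    have := key _ h
    rwa [wsq] at this
  · intro h
    have h1 := key _ h
    have e : negF T.G (W.wj j (negF T.G r)) = W.wj j r := by rw [lin_neg T.G hl, negF_negF]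
    rwa [e] at h1

theorem image_Inv (j : Fin k) : W.wj j '' Inv (W.wj j) = {r | negF T.G r ∈ Inv (W.wj j)} := by
  ext r
  constructor
  · rintro ⟨s, hs, rfl⟩
    rw [Set.mem_ofPred_eq, ← neg_Inv K, wsq]; exact hs
  · intro h
    rw [Set.mem_ofPred_eq, ← neg_Inv K] at h
    exact ⟨_, h, wsq _ _⟩

theorem image_sgn {w : Equiv.Perm (Fin D.nroots)} (hl : Lin T.G w) (hc : w * T.ρ = T.ρ * w) {i j : Fin k}
    (h1 : ∀ r ∈ Inv (W.wj i), Pos D (w r)) (h2 : ∀ r ∈ Inv (W.wj i), ¬ Pos D (W.wj j (w r))) :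
    w '' Inv (W.wj i) = Inv (W.wj j) := by
  have hc' : w⁻¹ * T.ρ = T.ρ * w⁻¹ := by
    have : T.ρ * w⁻¹ = w⁻¹ * (w * T.ρ) * w⁻¹ := by group
    rw [this, hc]; group
  obtain ⟨i0, hi0⟩ := exists_node K i
  have hr0 := simp_mem_Inv K hi0
  have hs0 : w (simpF T.G i0) ∈ Inv (W.wj j) := ⟨h1 _ hr0, h2 _ hr0⟩
  apply Set.Subset.antisymm
  · rintro _ ⟨r, hr, rfl⟩
    exact ⟨h1 r hr, h2 r hr⟩
  · intro s hs
    have hwi : ∀ r, w (w⁻¹ r) = r := fun r => w.apply_symm_apply r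
    have hiw : ∀ r, w⁻¹ (w r) = r := fun r => w.symm_apply_apply r
    refine ⟨w⁻¹ s, ?_, hwi s⟩
    refine ⟨?_, ?_⟩
    · rcases dich K (lin_inv T.G hl) hc' j with h | h
      · exact h s hs
      · exfalso
        have := h _ hs0
        rw [hiw] at this
        exact this hr0.1
    · rcases dich K (w := W.wj i * w⁻¹) (lin_mul T.G (W.mono_nj i).1 (lin_inv T.G hl))
        (by rw [mul_assoc, hc', ← mul_assoc, wcomm, mul_assoc]) j with h | h
      · exfalso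
        have := h _ hs0
        rw [Equiv.Perm.mul_apply, hiw] at this
        exact hr0.2 this
      · have := h s hs
        rwa [Equiv.Perm.mul_apply] at this

end comb

/-! ### the data -/

theorem XS_sing_ne {A : Set (Fin D.nroots)} {r : Fin D.nroots} (hr : r ∈ A) : A.Nonempty := ⟨r, hr⟩

theorem inf_UV {g : GL D.Idx F} (T : TwSys D F) (h1 : g ∈ XS D F {r | Pos D r}) (h2 : g ∈ XS D F {r | ¬ Pos D r}) : g = 1 := by
  have h3 : g ∈ D.posUnipotent F := by rw [← XS_posS T.G]; exact h1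
  rw [XS_negS T.G] at h2
  exact inf_BV T.G T.hD (borel_U T.G h3) h2

section dat
include K

theorem mem_N_perm {m : ↥Γ} (hm : m ∈ (D.monomialSubgroup F).subgroupOf Γ) :
    ∃ w, Mono T.G (m : GL D.Idx F) w ∧ w * T.ρ = T.ρ * w := by
  obtain ⟨w, hw⟩ := exists_mono T.G (Subgroup.mem_subgroupOf.mp hm)
  exact ⟨w, hw, T.comm_of_fix (Subgroup.mem_subgroupOf.mp hm) hw (K.le m.2)⟩

theorem X_ne (j : Fin k) : ∃ y : ↥Γ, y ∈ (XS D F (Inv (W.wj j))).subgroupOf Γ ∧ y ≠ 1 := by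
  obtain ⟨y, h1, h2, h3⟩ := K.grp.ne j
  exact ⟨⟨y, h3⟩, Subgroup.mem_subgroupOf.mpr h1, fun h => h2 (congrArg Subtype.val h)⟩

/-- conjugation by `m` of the root groups -/
theorem conjXS {m : ↥Γ} {w : Equiv.Perm (Fin D.nroots)} (hw : Mono T.G (m : GL D.Idx F) w) {A A' : Set (Fin D.nroots)}
    (h : w '' A ⊆ A') {x : ↥Γ} (hx : x ∈ (XS D F A).subgroupOf Γ) : m * x * m⁻¹ ∈ (XS D F A').subgroupOf Γ := by
  rw [Subgroup.mem_subgroupOf] at hx ⊢
  exact XS_mono h (mono_conj_XS T.G hw hx)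

theorem pos_of_conjX {m : ↥Γ} {w : Equiv.Perm (Fin D.nroots)} (hw : Mono T.G (m : GL D.Idx F) w)
    (hc : w * T.ρ = T.ρ * w) {j : Fin k}
    (h : ∀ x ∈ (XS D F (Inv (W.wj j))).subgroupOf Γ, m * x * m⁻¹ ∈ (D.posUnipotent F).subgroupOf Γ) :
    ∀ r ∈ Inv (W.wj j), Pos D (w r) := by
  rcases dich K hw.1 hc j with h1 | h1
  · exact h1
  · exfalso
    obtain ⟨y, hy, hy1⟩ := X_ne K j
    apply hy1
    have h2 := h y hy
    have h3 := conjXS K hw (A' := {r | ¬ Pos D r}) (by rintro _ ⟨r, hr, rfl⟩; exact h1 r hr) hy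
    rw [Subgroup.mem_subgroupOf] at h2 h3
    rw [← XS_posS T.G] at h2
    have h4 := inf_UV T h2 h3
    have h5 : m * y * m⁻¹ = 1 := Subtype.ext h4
    exact conj_eq_one_iff.mp h5

theorem pos_of_conjY {m : ↥Γ} {w : Equiv.Perm (Fin D.nroots)} (hw : Mono T.G (m : GL D.Idx F) w)
    (hc : w * T.ρ = T.ρ * w) {j : Fin k}
    (h : ∀ x ∈ (XS D F (W.wj j '' Inv (W.wj j))).subgroupOf Γ, m * x * m⁻¹ ∈ (D.posUnipotent F).subgroupOf Γ) :
    ∀ r ∈ Inv (W.wj j), ¬ Pos D (w r) := by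
  have h1 : ∀ r ∈ Inv (W.wj j), Pos D ((w * W.wj j) r) := by
    refine pos_of_conjX K (m := m * ⟨W.nj j, K.n_mem j⟩) (mono_mul T.G hw (W.mono_nj j)) ?_ ?_
    · rw [mul_assoc, wcomm, ← mul_assoc, hc, mul_assoc]
    · intro x hx
      have h2 := conjXS K (m := ⟨W.nj j, K.n_mem j⟩) (W.mono_nj j) (A' := W.wj j '' Inv (W.wj j)) subset_rfl hx
      have h3 := h _ h2
      have e : m * (⟨W.nj j, K.n_mem j⟩ * x * (⟨W.nj j, K.n_mem j⟩ : ↥Γ)⁻¹) * m⁻¹ =
          m * ⟨W.nj j, K.n_mem j⟩ * x * (m * ⟨W.nj j, K.n_mem j⟩)⁻¹ := by group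
      rwa [e] at h3
  intro r hr hp
  have h2 : negF T.G (W.wj j r) ∈ Inv (W.wj j) := by
    rw [← neg_Inv K, wsq]; exact hr
  have h3 := h1 _ h2
  rw [Equiv.Perm.mul_apply, lin_neg T.G (W.mono_nj j).1, wsq, lin_neg T.G hw.1, pos_negF] at h3
  exact h3 hp

theorem UV_split (j : Fin k) {u : GL D.Idx F} (hu : u ∈ D.posUnipotent F) (hΓ : u ∈ Γ) :
    ∃ v ∈ XS D F (Psi W ({j} : Set (Fin k))) ⊓ Γ, ∃ x ∈ XS D F (Inv (W.wj j)) ⊓ Γ, u = v * x := by
  rw [← XS_posS T.G] at hu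
  obtain ⟨a, ha, c, hc, e⟩ := exists_factor' T.G (closed_posS T.G) (Psi W ({j} : Set (Fin k))) hu
  have ha' : a ∈ XS D F (Psi W ({j} : Set (Fin k))) := XS_mono Set.inter_subset_right ha
  have hc' : c ∈ XS D F (Inv (W.wj j)) := by rw [Inv_eq K]; exact hc
  have hfix := K.le hΓ
  have hag := T.XS_le_group _ ha'
  have hcg := T.XS_le_group _ hc'
  have h1 : T.s a ∈ XS D F (Psi W ({j} : Set (Fin k))) := by
    refine XS_mono ?_ (T.s_XS ha')
    rintro _ ⟨r, ⟨hr, i, hi, hne⟩, rfl⟩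
    refine ⟨(T.ρ_pos r).mpr hr, ?_⟩
    by_contra hcon
    push Not at hcon
    have h2 : T.ρ r ∈ Inv (W.wj j) := (mem_Inv_iff K j _).mpr ⟨(T.ρ_pos r).mpr hr, fun i hi => hcon i hi⟩
    rw [stab_Inv T (wcomm j)] at h2
    exact hne (((mem_Inv_iff K j r).mp h2).2 i hi)
  have h2 : T.s c ∈ XS D F (Inv (W.wj j)) := by
    refine XS_mono ?_ (T.s_XS hc')
    rintro _ ⟨r, hr, rfl⟩
    exact (stab_Inv T (wcomm j) r).mpr hr
  have h3 : a * c = T.s a * T.s c := by rw [← T.s_mul hag hcg, ← e, hfix.2]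
  have h4 : (T.s a)⁻¹ * a = T.s c * c⁻¹ := by
    rw [inv_mul_eq_iff_eq_mul, ← mul_assoc, ← h3]; group
  have h5 : (T.s a)⁻¹ * a ∈ XS D F (Psi W ({j} : Set (Fin k))) := mul_mem (inv_mem h1) ha'
  have h6 : (T.s a)⁻¹ * a ∈ XS D F (Inv (W.wj j)) := by rw [h4]; exact mul_mem h2 (inv_mem hc')
  have hPsi : Closed F (Psi W ({j} : Set (Fin k))) := by
    have h7 : Psi W ({j} : Set (Fin k)) = {r | Pos D r ∧ ∃ i : Fin D.rank, W.blk i ∉ ({j} : Set (Fin k)) ∧ T.G.rv r i ≠ 0} := rfl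
    refine ⟨fun r hr => hr.1, fun r hr s hs hrs c hc hne q hq => ?_⟩
    obtain ⟨-, hi, hj, hrv⟩ := commTerms_root T.G r.2 s.2 (fun hh => hrs (Fin.ext hh))
      (fun hh => ne_negF T.G hr.1 hs.1 (Fin.ext hh)) hc
    refine ⟨(closed_posS T.G).comm r hr.1 s hs.1 hrs c hc hne q hq, ?_⟩
    obtain ⟨i, hiJ, hi2⟩ := hs.2
    refine ⟨i, hiJ, ?_⟩
    rw [hq, hrv]
    have h3 := rv_nonneg_of_pos T.G hr.1 i
    have h4 := rv_nonneg_of_pos T.G hs.1 i
    have h5 : 0 < T.G.rv s i := lt_of_le_of_ne h4 (Ne.symm hi2)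
    have h6 : (0 : ℤ) < c.2.2.2 := by exact_mod_cast hj
    have h7 : (0 : ℤ) ≤ c.2.2.1 := by positivity
    have h8 := mul_pos h6 h5
    have h9 := mul_nonneg h7 h3
    omega
  have h7 := XS_inf T.G T.hD hPsi (closed_Inv T (W.mono_nj j).1) h5 h6
  have h8 : Psi W ({j} : Set (Fin k)) ∩ Inv (W.wj j) = ∅ := by
    rw [Inv_eq K]; ext r; simp
  rw [h8] at h7
  have h9 : XS D F (∅ : Set (Fin D.nroots)) = ⊥ := by unfold XS; simp
  rw [h9, Subgroup.mem_bot] at h7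
  have h10 : T.s a = a := (inv_mul_eq_one.mp h7)
  have h11 : T.s c = c := by
    rw [h7] at h4
    exact (mul_inv_eq_one.mp h4.symm)
  have hall := K.eq_fix
  refine ⟨a, ⟨ha', ?_⟩, c, ⟨hc', ?_⟩, e⟩
  · rw [hall]; exact ⟨hag, h10⟩
  · rw [hall]; exact ⟨hcg, h11⟩

variable {p : ℕ} (hp : IsPGroup p (D.posUnipotent F))
  (nL : ∀ j : Fin k, (⟨W.nj j, K.n_mem j⟩ : ↥Γ) ∈ (XS D F (Inv (W.wj j))).subgroupOf Γ ⊔ (XS D F (W.wj j '' Inv (W.wj j))).subgroupOf Γ)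
  (br : ∀ (j : Fin k), ∀ g ∈ (XS D F (Inv (W.wj j))).subgroupOf Γ ⊔ (XS D F (W.wj j '' Inv (W.wj j))).subgroupOf Γ,
    (∃ x ∈ (XS D F (Inv (W.wj j))).subgroupOf Γ, ∃ h ∈ (D.diagonalSubgroup F).subgroupOf Γ, g = x * h) ∨
    ∃ x ∈ (XS D F (Inv (W.wj j))).subgroupOf Γ, ∃ h ∈ (D.diagonalSubgroup F).subgroupOf Γ,
      ∃ x' ∈ (XS D F (Inv (W.wj j))).subgroupOf Γ, g = x * h * ⟨W.nj j, K.n_mem j⟩ * x')
  (gen : ⨆ j : Fin k, ((XS D F (Inv (W.wj j))).subgroupOf Γ ⊔ (XS D F (W.wj j '' Inv (W.wj j))).subgroupOf Γ) = ⊤)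

/-- the `LDat` of a twisted group -/
noncomputable def ldat : LDat p ↥Γ (Fin k) where
  X j := (XS D F (Inv (W.wj j))).subgroupOf Γ
  Y j := (XS D F (W.wj j '' Inv (W.wj j))).subgroupOf Γ
  V j := (XS D F (Psi W ({j} : Set (Fin k)))).subgroupOf Γ
  U := (D.posUnipotent F).subgroupOf Γ
  H := (D.diagonalSubgroup F).subgroupOf Γ
  N := (D.monomialSubgroup F).subgroupOf Γ
  n j := ⟨W.nj j, K.n_mem j⟩
  pU := hp.comap_of_injective _ Γ.subtype_injective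
  pY := by
    intro j y
    have hy := Subgroup.mem_subgroupOf.mp y.2
    have h1 := mono_conj_XS T.G (W.mono_nj j) hy
    have h2 : W.nj j * ((y : ↥Γ) : GL D.Idx F) * (W.nj j)⁻¹ ∈ D.posUnipotent F := by
      rw [← XS_posS T.G]
      refine XS_mono ?_ h1
      rintro _ ⟨_, ⟨r, hr, rfl⟩, rfl⟩
      rw [wsq]; exact hr.1
    obtain ⟨n, hn⟩ := hp ⟨_, h2⟩
    refine ⟨n, ?_⟩
    apply Subtype.ext
    apply Subtype.ext
    have h3 := congrArg Subtype.val hn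
    have h4 : (W.nj j * ((y : ↥Γ) : GL D.Idx F) * (W.nj j)⁻¹) ^ p ^ n = 1 := by simpa using h3
    rw [conj_pow] at h4
    have h5 := conj_eq_one_iff.mp h4
    simpa using h5
  XU := by
    intro j x hx
    rw [Subgroup.mem_subgroupOf] at hx ⊢
    rw [← XS_posS T.G]; exact XS_mono (fun r hr => hr.1) hx
  VU := by
    intro j x hx
    rw [Subgroup.mem_subgroupOf] at hx ⊢
    rw [← XS_posS T.G]; exact XS_mono (fun r hr => hr.1) hx
  UV := by
    intro j u hu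
    obtain ⟨v, hv, x, hx, e⟩ := UV_split K j (Subgroup.mem_subgroupOf.mp hu) u.2
    exact ⟨⟨v, hv.2⟩, Subgroup.mem_subgroupOf.mpr hv.1, ⟨x, hx.2⟩, Subgroup.mem_subgroupOf.mpr hx.1, Subtype.ext e⟩
  nV := by
    intro j v hv
    refine conjXS K (m := ⟨W.nj j, K.n_mem j⟩) (W.mono_nj j) ?_ hv
    rintro _ ⟨r, hr, rfl⟩
    exact Psi_wj (W := W) (J := {j}) rfl hr
  nX := by
    intro j x hx
    exact conjXS K (m := ⟨W.nj j, K.n_mem j⟩) (W.mono_nj j) subset_rfl hx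
  nY := by
    intro j x hx
    refine conjXS K (m := ⟨W.nj j, K.n_mem j⟩) (W.mono_nj j) ?_ hx
    rintro _ ⟨_, ⟨r, hr, rfl⟩, rfl⟩
    rw [wsq]; exact hr
  HX := by
    intro h hh j x hx
    rw [Subgroup.mem_subgroupOf] at hx hh ⊢
    exact diag_norm T hh hx
  HY := by
    intro h hh j x hx
    rw [Subgroup.mem_subgroupOf] at hx hh ⊢
    exact diag_norm T hh hx
  HU := by
    intro h hh u hu
    rw [Subgroup.mem_subgroupOf] at hu hh ⊢
    rw [← XS_posS T.G] at hu ⊢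
    exact diag_norm T hh hu
  Hc := by
    intro h hh g hg
    rw [Subgroup.mem_subgroupOf] at hh hg
    obtain ⟨χ, -, h1, -⟩ := diag_char T hh
    obtain ⟨ψ, -, h2, -⟩ := diag_char T hg
    apply Subtype.ext
    apply Units.ext
    show ((h : GL D.Idx F) : Matrix D.Idx D.Idx F) * ((g : GL D.Idx F) : Matrix D.Idx D.Idx F) =
      ((g : GL D.Idx F) : Matrix D.Idx D.Idx F) * ((h : GL D.Idx F) : Matrix D.Idx D.Idx F)
    rw [h1, h2, Matrix.diagonal_mul_diagonal, Matrix.diagonal_mul_diagonal]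
    congr 1
    funext i
    rw [mul_comm]
  HN := by
    intro h hh
    rw [Subgroup.mem_subgroupOf] at hh ⊢
    exact H_le_N hh
  nN := by
    intro j
    rw [Subgroup.mem_subgroupOf]
    exact W.nj_mem_N j
  nH := by
    intro j h hh
    rw [Subgroup.mem_subgroupOf] at hh ⊢
    exact mono_conj_diag T.G (W.mono_nj j) hh
  nsq := by
    intro j
    rw [Subgroup.mem_subgroupOf]
    exact W.nj_sq j
  nL := nL
  br := br
  flag := by
    intro m hm j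
    obtain ⟨w, hw, hc⟩ := mem_N_perm K hm
    rcases dich K hw.1 hc j with h | h
    · left
      intro x hx
      have := conjXS K hw (A' := posS D) (by rintro _ ⟨r, hr, rfl⟩; exact h r hr) hx
      rwa [XS_posS T.G] at this
    · right
      intro x hx
      have := conjXS K hw (A' := posS D) (by
        rw [image_Inv K]
        rintro _ ⟨r, hr, rfl⟩
        have h2 := h _ hr
        rw [lin_neg T.G hw.1, pos_negF, not_not] at h2
        exact h2) hx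
      rwa [XS_posS T.G] at this
  nboth := by
    intro m hm j h1 h2
    obtain ⟨w, hw, hc⟩ := mem_N_perm K hm
    obtain ⟨i0, hi0⟩ := exists_node K j
    have h3 := simp_mem_Inv K hi0
    exact pos_of_conjY K hw hc h2 _ h3 (pos_of_conjX K hw hc h1 _ h3)
  sgn := by
    intro m hm i j h1 h2
    obtain ⟨w, hw, hc⟩ := mem_N_perm K hm
    have h3 := pos_of_conjX K hw hc h1
    have h4 : ∀ r ∈ Inv (W.wj i), ¬ Pos D (W.wj j (w r)) := by
      rcases dich K (w := W.wj j * w) (lin_mul T.G (W.mono_nj j).1 hw.1)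
        (by rw [mul_assoc, hc, ← mul_assoc, wcomm, mul_assoc]) i with h | h
      · exfalso
        apply h2
        intro x hx
        have := conjXS K (m := ⟨W.nj j, K.n_mem j⟩ * m) (mono_mul T.G (W.mono_nj j) hw) (A' := posS D)
          (by rintro _ ⟨r, hr, rfl⟩; exact h r hr) hx
        rw [XS_posS T.G] at this
        have e : (⟨W.nj j, K.n_mem j⟩ : ↥Γ) * m * x * ((⟨W.nj j, K.n_mem j⟩ : ↥Γ) * m)⁻¹ =
            ⟨W.nj j, K.n_mem j⟩ * (m * x * m⁻¹) * (⟨W.nj j, K.n_mem j⟩ : ↥Γ)⁻¹ := by group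
        rwa [e] at this
      · intro r hr; exact h r hr
    have h5 := image_sgn K hw.1 hc h3 h4
    have h5' : ⇑(w⁻¹) '' Inv (W.wj j) = Inv (W.wj i) := by
      rw [← h5, ← Set.image_comp]
      have : (⇑(w⁻¹) ∘ ⇑w) = id := by funext r; exact w.symm_apply_apply r
      rw [this, Set.image_id]
    have h6 : w '' (W.wj i '' Inv (W.wj i)) = W.wj j '' Inv (W.wj j) := by
      rw [image_Inv K, image_Inv K]
      ext r
      constructor
      · rintro ⟨s, hs, rfl⟩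
        rw [Set.mem_ofPred_eq, ← lin_neg T.G hw.1, ← h5]
        exact ⟨_, hs, rfl⟩
      · intro hr
        rw [Set.mem_ofPred_eq, ← h5] at hr
        obtain ⟨s, hs, e⟩ := hr
        refine ⟨negF T.G s, ?_, ?_⟩
        · rw [Set.mem_ofPred_eq, negF_negF]; exact hs
        · rw [lin_neg T.G hw.1, e, negF_negF]
    have h6' : ⇑(w⁻¹) '' (W.wj j '' Inv (W.wj j)) = W.wj i '' Inv (W.wj i) := by
      rw [← h6, ← Set.image_comp]
      have : (⇑(w⁻¹) ∘ ⇑w) = id := by funext r; exact w.symm_apply_apply r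
      rw [this, Set.image_id]
    constructor
    · intro x
      refine ⟨fun hx => conjXS K hw (le_of_eq h5) hx, fun hx => ?_⟩
      have := conjXS K (m := m⁻¹) (mono_inv T.G hw) (le_of_eq h5') hx
      have e : m⁻¹ * (m * x * m⁻¹) * m⁻¹⁻¹ = x := by group
      rwa [e] at this
    · intro x
      refine ⟨fun hx => conjXS K hw (le_of_eq h6) hx, fun hx => ?_⟩
      have := conjXS K (m := m⁻¹) (mono_inv T.G hw) (le_of_eq h6') hx
      have e : m⁻¹ * (m * x * m⁻¹) * m⁻¹⁻¹ = x := by group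
      rwa [e] at this
  UN := by
    intro u hu hN
    rw [Subgroup.mem_subgroupOf] at hu hN
    exact Subtype.ext (inf_UH T.G T.hD hu (TwGrp.borel_inf_monomial T (borel_U T.G hu) hN))
  gen := gen

end dat

end Cfsg.Agent.Lib.H26TwL
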