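import Cfsg.Agent.Lib.H26LiftB
import Cfsg.Agent.Lib.H26TwL
import Cfsg.Agent.Lib.TwPar

/-! The filtration of `U` in a twisted group by ranks, and pairings in coordinates (helper26). -/

set_option autoImplicit false
set_option linter.unusedSectionVars false

namespace Cfsg.Agent.Lib.H26TwB
open Cfsg.Lie Cfsg.Agent.Lib.ChevX Cfsg.Agent.Lib.ChevGood Cfsg.Agent.Lib.ChevRel Cfsg.Agent.Lib.ChevNPerm
  Cfsg.Agent.Lib.ChevClosed Cfsg.Agent.Lib.ChevBruhat Cfsg.Agent.Lib.TwFix Cfsg.Agent.Lib.TwFix.TwRk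
  Cfsg.Agent.Lib.TwFix.TwAll
open Cfsg.Agent.Lib.H26LiftB
open scoped MatrixGroups Matrix

universe u

section comm
variable {D : ChevalleyDatum} {F : Type*} [Field F] {T : TwSys D F} (R : TwRk T)

theorem comm_up (k : ℕ) {x y : GL D.Idx F} (hx : x ∈ XS D F (R.up (posS D) k)) (hy : y ∈ D.posUnipotent F) :
    x * y * x⁻¹ * y⁻¹ ∈ XS D F (R.up (posS D) (k + 1)) := by
  have hle : D.posUnipotent F = XS D F (posS D) := (XS_posS T.G).symm
  have hup : ∀ z ∈ XS D F (R.up (posS D) k), z ∈ D.posUnipotent F := by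
    intro z hz; rw [hle]; exact XS_mono (fun r hr => hr.1) hz
  -- generators
  have key : ∀ r ∈ R.up (posS D) k, ∀ (t : F) (y : GL D.Idx F), y ∈ D.posUnipotent F →
      xg D F r t * y * (xg D F r t)⁻¹ * y⁻¹ ∈ XS D F (R.up (posS D) (k + 1)) := by
    intro r hr t y hy
    rw [hle] at hy
    unfold XS at hy
    have hmemU : ∀ z ∈ Subgroup.closure {x : GL D.Idx F | ∃ r ∈ posS D, ∃ t : F, x = xg D F (r : ℕ) t}, z ∈ D.posUnipotent F := by
      intro z hz; rw [hle]; exact hz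
    induction hy using Subgroup.closure_induction with
    | mem y hy =>
      obtain ⟨s, hs, u, rfl⟩ := hy
      by_cases hsr : s = r
      · subst hsr
        have : xg D F s t * xg D F s u * (xg D F s t)⁻¹ * (xg D F s u)⁻¹ = 1 := by
          rw [← xg_neg T.G, ← xg_neg T.G, xg_add T.G, xg_add T.G, xg_add T.G,
            show t + u + -t + -u = 0 by ring, xg_zero T.G]
        rw [this]; exact one_mem _
      · have hneg := ne_negF T.G hr.1 hs
        have h4 := xg_comm T.G r.2 s.2 (fun hh => hsr (Fin.ext hh)) (fun hh => hneg (Fin.ext hh)) (-t) u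
        have h5 : xg D F r t * xg D F s u * (xg D F r t)⁻¹ = xg D F s u * wg D F (D.commWord F r s (-t) u) := by
          rw [xg_neg T.G] at h4
          have : xg D F s u * (xg D F r t)⁻¹ = (xg D F r t)⁻¹ * (xg D F s u * wg D F (D.commWord F r s (-t) u)) := by
            rw [h4, mul_assoc]
          rw [mul_assoc, this]; group
        rw [h5]
        have h6 : wg D F (D.commWord F r s (-t) u) ∈ XS D F (R.up (posS D) (k + 1)) := by
          apply wg_commWord_mem T.G hsr hneg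
          intro c hc hne q hq
          refine ⟨(closed_posS T.G).comm r hr.1 s hs hsr c hc hne q hq, ?_⟩
          have := (R.comm r s hr.1 hs hsr c hc hne q hq).1
          have := hr.2
          omega
        exact up_normal (k + 1) (by rw [hle]; exact xg_mem_XS (A := posS D) hs u) h6
    | one => simp
    | mul a b ha' hb' ha hb =>
      have e : xg D F r t * (a * b) * (xg D F r t)⁻¹ * (a * b)⁻¹ =
          xg D F r t * a * (xg D F r t)⁻¹ * a⁻¹ * (a * (xg D F r t * b * (xg D F r t)⁻¹ * b⁻¹) * a⁻¹) := by group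
      rw [e]
      exact mul_mem ha (up_normal (k + 1) (hmemU _ ha') hb)
    | inv a ha' ha =>
      have e : xg D F r t * a⁻¹ * (xg D F r t)⁻¹ * a⁻¹⁻¹ =
          a⁻¹ * (xg D F r t * a * (xg D F r t)⁻¹ * a⁻¹)⁻¹ * a⁻¹⁻¹ := by group
      rw [e]
      exact up_normal (k + 1) (inv_mem (hmemU _ ha')) (inv_mem ha)
  unfold XS at hx
  have hmemC : ∀ z ∈ Subgroup.closure {x : GL D.Idx F | ∃ r ∈ R.up (posS D) k, ∃ t : F, x = xg D F (r : ℕ) t}, z ∈ D.posUnipotent F := by
    intro z hz; exact hup z hz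
  induction hx using Subgroup.closure_induction with
  | mem x hx =>
    obtain ⟨r, hr, t, rfl⟩ := hx
    exact key r hr t y hy
  | one => simp
  | mul a b ha' hb' ha hb =>
    have e : a * b * y * (a * b)⁻¹ * y⁻¹ = a * (b * y * b⁻¹ * y⁻¹) * a⁻¹ * (a * y * a⁻¹ * y⁻¹) := by group
    rw [e]
    exact mul_mem (up_normal (k + 1) (hmemC _ ha') hb) ha
  | inv a ha' ha =>
    have e : a⁻¹ * y * a⁻¹⁻¹ * y⁻¹ = a⁻¹ * (a * y * a⁻¹ * y⁻¹)⁻¹ * a⁻¹⁻¹ := by group
    rw [e]
    exact up_normal (k + 1) (inv_mem (hmemC _ ha')) (inv_mem ha)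

end comm

section dat
variable {D : ChevalleyDatum} {F : Type u} [Field F] [Finite F] {T : TwSys D F} {R : TwRk T} {k : ℕ} {W : TwGen T k}
  {B : TwBlk R W} {Γ : Subgroup (GL D.Idx F)} (K : TwAll B Γ)

/-- coordinates -/
def Cr (R : TwRk T) (r : Fin D.nroots) (t : F) (g : GL D.Idx F) : Prop :=
  Co (R.up (posS D) (R.rk r) \ {r}) r t g

theorem cr_exists {r : Fin D.nroots} (hr : Pos D r) {g : GL D.Idx F} (hg : g ∈ XS D F (R.up (posS D) (R.rk r)))
    (hf : g ∈ T.fix) : ∃ t ∈ Tset T r, Cr R r t g := by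
  obtain ⟨t, ht⟩ := exists_co (R := R) (closed_posS T.G) hr hg
  exact ⟨t, co_mem_Tset (closed_posS T.G) (stab_pos T) hr hf ht, ht⟩

theorem cr_conj {r : Fin D.nroots} {g h : GL D.Idx F} {t χ : F} (hh : h ∈ D.diagonalSubgroup F)
    (hχ : ∀ t, h * xg D F r t * h⁻¹ = xg D F r (χ * t)) (hg : Cr R r t g) : Cr R r (χ * t) (h * g * h⁻¹) := by
  have h1 := diag_norm T hh hg
  unfold Cr Co
  rw [← hχ]
  have e : (h * xg D F r t * h⁻¹)⁻¹ * (h * g * h⁻¹) = h * ((xg D F r t)⁻¹ * g) * h⁻¹ := by group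
  rw [e]; exact h1

theorem cr_zero {r : Fin D.nroots} (hr : Pos D r) {g : GL D.Idx F} (hf : g ∈ T.fix) (h : Cr R r 0 g) :
    g ∈ XS D F (R.up (posS D) (R.rk r + 1)) := mem_up_succ (closed_posS T.G) (stab_pos T) hr hf h

theorem cr_of_mem {r : Fin D.nroots} {g : GL D.Idx F} (h : g ∈ XS D F (R.up (posS D) (R.rk r + 1))) : Cr R r 0 g := by
  unfold Cr Co
  rw [xg_zero T.G, inv_one, one_mul]
  refine XS_mono ?_ h
  rintro s ⟨h1, h2⟩
  refine ⟨⟨h1, by omega⟩, ?_⟩
  rintro rfl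
  omega

theorem cr_unique {r : Fin D.nroots} (hr : Pos D r) {t t' : F} {g : GL D.Idx F} (h : Cr R r t g) (h' : Cr R r t' g) : t = t' :=
  co_unique (closed_posS T.G) hr h h'

include K in
theorem cr_lift {r : Fin D.nroots} (hr : Pos D r) {t : F} (ht : t ∈ Tset T r) :
    ∃ y ∈ Γ, Cr R r t y ∧ y ∈ XS D F (R.up (posS D) (R.rk r)) := by
  obtain ⟨y, hy, hco⟩ := B.exists_lift (closed_posS T.G) (stab_pos T) (union_pos B) K.le (fun r hr => K.lift r hr) hr ht
  exact ⟨y, hy, hco, co_mem hr hco⟩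

/-- `h` acts on `X_r` by `χ` -/
def Acts (D : ChevalleyDatum) {F : Type*} [Field F] (h : GL D.Idx F) (r : Fin D.nroots) (χ : F) : Prop :=
  ∀ t, h * xg D F r t * h⁻¹ = xg D F r (χ * t)

section b
variable {p : ℕ} [hp : Fact p.Prime] (hpU : IsPGroup p (D.posUnipotent F))
  (hcop : (Nat.card ↥(D.diagonalSubgroup F ⊓ Γ)).Coprime p)
  (hne : ∀ r, Pos D r → ∃ h ∈ D.diagonalSubgroup F ⊓ Γ, ∃ χ, Acts D h r χ ∧ χ ≠ 1)
  {M : ℕ} (hM : ∀ r, R.rk r < M)

theorem up_eq_succ {k : ℕ} (h : ∀ r, Pos D r → R.rk r ≠ k) : R.up (posS D) k = R.up (posS D) (k + 1) := by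
  ext r
  constructor
  · rintro ⟨h1, h2⟩
    have := h r h1
    exact ⟨h1, by omega⟩
  · rintro ⟨h1, h2⟩
    exact ⟨h1, by omega⟩

/-- the filtration of `U` -/
noncomputable def bdat : BDat p ↥Γ where
  U := (D.posUnipotent F).subgroupOf Γ
  H := (D.diagonalSubgroup F).subgroupOf Γ
  C k := (XS D F (R.up (posS D) k)).subgroupOf Γ
  m := M
  C0 := by
    have : R.up (posS D) 0 = posS D := by ext r; exact ⟨fun h => h.1, fun h => ⟨h, Nat.zero_le _⟩⟩
    rw [this, XS_posS T.G]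
  Cm := by
    have : R.up (posS D) M = ∅ := by
      ext r
      simp only [Set.mem_empty_iff_false, iff_false]
      rintro ⟨-, h⟩
      have := hM r
      omega
    rw [this]
    have h9 : XS D F (∅ : Set (Fin D.nroots)) = ⊥ := by unfold XS; simp
    rw [h9]; simp
  anti := by
    intro k x hx
    rw [Subgroup.mem_subgroupOf] at hx ⊢
    refine XS_mono ?_ hx
    rintro r ⟨h1, h2⟩
    exact ⟨h1, by omega⟩
  comm := by
    intro k x hx y hy
    rw [Subgroup.mem_subgroupOf] at hx hy ⊢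
    exact comm_up R k hx hy
  normH := by
    intro k h hh x hx
    rw [Subgroup.mem_subgroupOf] at hh hx ⊢
    exact diag_norm T hh hx
  cop := by
    rw [← Subgroup.inf_subgroupOf_right, Nat.card_congr (Subgroup.subgroupOfEquivOfLe inf_le_right).toEquiv]
    exact hcop
  idx := (K.sbn p hpU hcop).index_U_coprime hp.out
  fpf := by
    intro k x hx hf
    rw [Subgroup.mem_subgroupOf] at hx ⊢
    by_cases hr : ∃ r, Pos D r ∧ R.rk r = k
    · obtain ⟨r, hr, rfl⟩ := hr
      obtain ⟨t, ht, hco⟩ := cr_exists hr hx (K.le x.2)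
      obtain ⟨h, hh, χ, hχ, hχ1⟩ := hne r hr
      have h1 := hf ⟨h, hh.2⟩ (by rw [Subgroup.mem_subgroupOf]; exact hh.1)
      rw [Subgroup.mem_subgroupOf] at h1
      have h2 : Cr R r (χ * t) (h * (x : GL D.Idx F) * h⁻¹) := cr_conj hh.1 hχ hco
      have h3 : Cr R r (χ * t + -t) (h * (x : GL D.Idx F) * h⁻¹ * (x : GL D.Idx F)⁻¹) :=
        co_mul (closed_posS T.G) hr h2 (co_inv (closed_posS T.G) hr hco)
      have h4 := cr_unique hr h3 (cr_of_mem h1)
      have h5 : (χ - 1) * t = 0 := by linear_combination h4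
      rcases mul_eq_zero.mp h5 with h6 | h6
      · exact absurd (sub_eq_zero.mp h6) hχ1
      · rw [h6] at hco
        exact cr_zero hr (K.le x.2) hco
    · push Not at hr
      rwa [← up_eq_succ hr]

/-- pairings in coordinates vanish -/
def Kill (p : ℕ) (T : TwSys D F) (Γ : Subgroup (GL D.Idx F)) (SpR : Fin D.nroots → Fin D.nroots → Prop) (r s : Fin D.nroots) : Prop :=
  ∀ (A : Type u) [CommGroup A] (g : F → F → A), IsPGroup p A →
    (∀ t ∈ Tset T r, ∀ t' ∈ Tset T r, ∀ u ∈ Tset T s, g (t + t') u = g t u * g t' u) →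
    (∀ t ∈ Tset T r, ∀ u ∈ Tset T s, ∀ u' ∈ Tset T s, g t (u + u') = g t u * g t u') →
    (∀ h ∈ D.diagonalSubgroup F ⊓ Γ, ∀ χ ψ : F, Acts D h r χ → Acts D h s ψ → ∀ t ∈ Tset T r, ∀ u ∈ Tset T s,
      g (χ * t) (ψ * u) = g t u) →
    (r = s → ∀ t ∈ Tset T r, g t t = 1) →
    (SpR r s → ∀ t ∈ Tset T r, ∀ u ∈ Tset T s, g t u = 1) →
    ∀ t ∈ Tset T r, ∀ u ∈ Tset T s, g t u = 1

theorem pair_main (SpR : Fin D.nroots → Fin D.nroots → Prop) (rp : ℕ → Fin D.nroots)
    (hrp : ∀ r, Pos D r → Pos D (rp (R.rk r)) ∧ R.rk (rp (R.rk r)) = R.rk r) {k : ℕ}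
    (hkill : ∀ r s, Pos D r → Pos D s → R.rk r = k → rp (R.rk r) = r → rp (R.rk s) = s → Kill p T Γ SpR r s)
    {A : Type u} [CommGroup A] (f : ↥Γ → ↥Γ → A) (hA : IsPGroup p A)
    (hf : (bdat K hpU hcop hne hM).IsPairing k f)
    (hsp : ∀ r s, Pos D r → Pos D s → R.rk r = k → SpR r s → ∀ t ∈ Tset T r, ∀ u ∈ Tset T s, ∃ x y : ↥Γ,
      (x : GL D.Idx F) ∈ XS D F (R.up (posS D) (R.rk r)) ∧ (y : GL D.Idx F) ∈ XS D F (R.up (posS D) (R.rk s)) ∧
      Cr R r t (x : GL D.Idx F) ∧ Cr R s u (y : GL D.Idx F) ∧ f x y = 1) :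
    ∀ x ∈ (bdat K hpU hcop hne hM).C k, ∀ y ∈ (bdat K hpU hcop hne hM).U, f x y = 1 := by
  classical
  set BD := bdat K hpU hcop hne hM with hBD
  have hC : ∀ l (x : ↥Γ), x ∈ BD.C l ↔ (x : GL D.Idx F) ∈ XS D F (R.up (posS D) l) := fun l x =>
    Subgroup.mem_subgroupOf
  by_cases hr : ∃ r, Pos D r ∧ R.rk r = k
  swap
  · push Not at hr
    intro x hx y hy
    apply hf.left_one x _ y hy
    rw [hC] at hx ⊢
    rwa [← up_eq_succ hr]
  obtain ⟨r', hr', hrk'⟩ := hr
  obtain ⟨hr, hrk⟩ := hrp r' hr'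
  set r := rp (R.rk r') with hrdef
  rw [hrk'] at hrk
  have hrr : rp (R.rk r) = r := by rw [hrk, ← hrk']
  have key : ∀ j, ∀ l, l + j = M → ∀ x ∈ BD.C k, ∀ y ∈ BD.C l, f x y = 1 := by
    intro j
    induction j with
    | zero =>
      intro l hl x hx y hy
      rw [add_zero] at hl
      have h0 : BD.C l = ⊥ := by rw [hl]; exact BD.Cm
      rw [h0, Subgroup.mem_bot] at hy
      subst hy
      have h1 := hf.mul_right x hx 1 (one_mem _) 1 (one_mem _)
      rw [mul_one] at h1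
      exact (left_eq_mul.mp h1)
    | succ j ih =>
      intro l hl
      have ih' := ih (l + 1) (by omega)
      by_cases hs : ∃ s, Pos D s ∧ R.rk s = l
      swap
      · push Not at hs
        intro x hx y hy
        apply ih' x hx y
        rw [hC] at hy ⊢
        rwa [← up_eq_succ hs]
      obtain ⟨s', hs', hsk'⟩ := hs
      obtain ⟨hs, hsk⟩ := hrp s' hs'
      set s := rp (R.rk s') with hsdef
      rw [hsk'] at hsk
      have hss : rp (R.rk s) = s := by rw [hsk, ← hsk']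
      -- lifts
      have hLr : ∀ t : F, ∃ x : ↥Γ, t ∈ Tset T r → Cr R r t (x : GL D.Idx F) ∧ x ∈ BD.C k := by
        intro t
        by_cases ht : t ∈ Tset T r
        · obtain ⟨y, hy, h1, h2⟩ := cr_lift K hr ht
          exact ⟨⟨y, hy⟩, fun _ => ⟨h1, by rw [hC, ← hrk]; exact h2⟩⟩
        · exact ⟨1, fun h => absurd h ht⟩
      have hLs : ∀ t : F, ∃ x : ↥Γ, t ∈ Tset T s → Cr R s t (x : GL D.Idx F) ∧ x ∈ BD.C l := by
        intro t
        by_cases ht : t ∈ Tset T s
        · obtain ⟨y, hy, h1, h2⟩ := cr_lift K hs ht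
          exact ⟨⟨y, hy⟩, fun _ => ⟨h1, by rw [hC, ← hsk]; exact h2⟩⟩
        · exact ⟨1, fun h => absurd h ht⟩
      choose X hX using hLr
      choose Y hY using hLs
      have hUl : ∀ y ∈ BD.C l, y ∈ BD.U := fun y hy => BD.CU l hy
      have hUl1 : ∀ y ∈ BD.C (l + 1), y ∈ BD.U := fun y hy => BD.CU (l + 1) hy
      -- dependence on coordinates
      have hdx : ∀ x ∈ BD.C k, ∀ x' ∈ BD.C k, ∀ t, Cr R r t (x : GL D.Idx F) → Cr R r t (x' : GL D.Idx F) →
          ∀ y ∈ BD.U, f x y = f x' y := by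
        intro x hx x' hx' t h1 h2 y hy
        have h3 : Cr R r (-t + t) ((x : GL D.Idx F)⁻¹ * (x' : GL D.Idx F)) :=
          co_mul (closed_posS T.G) hr (co_inv (closed_posS T.G) hr h1) h2
        rw [neg_add_cancel] at h3
        have h4 : x⁻¹ * x' ∈ BD.C (k + 1) := by
          rw [hC, ← hrk]
          exact cr_zero hr (K.le (x⁻¹ * x').2) h3
        have h5 := hf.mul_left x hx (x⁻¹ * x') (BD.anti k h4) y hy
        rw [mul_inv_cancel_left, hf.left_one _ h4 y hy, mul_one] at h5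
        exact h5.symm
      have hdy : ∀ x ∈ BD.C k, ∀ y ∈ BD.C l, ∀ y' ∈ BD.C l, ∀ t, Cr R s t (y : GL D.Idx F) → Cr R s t (y' : GL D.Idx F) →
          f x y = f x y' := by
        intro x hx y hy y' hy' t h1 h2
        have h3 : Cr R s (-t + t) ((y : GL D.Idx F)⁻¹ * (y' : GL D.Idx F)) :=
          co_mul (closed_posS T.G) hs (co_inv (closed_posS T.G) hs h1) h2
        rw [neg_add_cancel] at h3
        have h4 : y⁻¹ * y' ∈ BD.C (l + 1) := by
          rw [hC, ← hsk]
          exact cr_zero hs (K.le (y⁻¹ * y').2) h3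
        have h5 := hf.mul_right x hx y (hUl y hy) (y⁻¹ * y') (hUl1 _ h4)
        rw [mul_inv_cancel_left, ih' x hx _ h4, mul_one] at h5
        exact h5.symm
      have haddr : ∀ {t t' : F}, t ∈ Tset T r → t' ∈ Tset T r → t + t' ∈ Tset T r := by
        intro t t' ht ht' hρ
        rw [← xg_add T.G]
        exact mul_mem (ht hρ) (ht' hρ)
      have hadds : ∀ {t t' : F}, t ∈ Tset T s → t' ∈ Tset T s → t + t' ∈ Tset T s := by
        intro t t' ht ht' hρ
        rw [← xg_add T.G]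
        exact mul_mem (ht hρ) (ht' hρ)
      have hchi : ∀ (r : Fin D.nroots) (h : GL D.Idx F) (χ : F), h ∈ D.diagonalSubgroup F ⊓ Γ → Acts D h r χ →
          ∀ t ∈ Tset T r, χ * t ∈ Tset T r := by
        intro r h χ hh hχ t ht hρ
        rw [← hχ]
        exact mul_mem (mul_mem (K.le hh.2) (ht hρ)) (inv_mem (K.le hh.2))
      have hkl := hkill r s hr hs hrk hrr hss A (fun t u => f (X t) (Y u)) hA
        (by
          intro t ht t' ht' u hu
          have h1 := hX t ht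
          have h2 := hX t' ht'
          have h3 := hX (t + t') (haddr ht ht')
          have h4 := hY u hu
          have h5 : Cr R r (t + t') ((X t * X t' : ↥Γ) : GL D.Idx F) := co_mul (closed_posS T.G) hr h1.1 h2.1
          show f (X (t + t')) (Y u) = f (X t) (Y u) * f (X t') (Y u)
          rw [← hf.mul_left _ h1.2 _ h2.2 _ (hUl _ h4.2)]
          exact hdx _ h3.2 _ (mul_mem h1.2 h2.2) _ h3.1 h5 _ (hUl _ h4.2))
        (by
          intro t ht u hu u' hu'
          have h1 := hX t ht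
          have h2 := hY u hu
          have h3 := hY u' hu'
          have h4 := hY (u + u') (hadds hu hu')
          have h5 : Cr R s (u + u') ((Y u * Y u' : ↥Γ) : GL D.Idx F) := co_mul (closed_posS T.G) hs h2.1 h3.1
          show f (X t) (Y (u + u')) = f (X t) (Y u) * f (X t) (Y u')
          rw [← hf.mul_right _ h1.2 _ (hUl _ h2.2) _ (hUl _ h3.2)]
          exact hdy _ h1.2 _ h4.2 _ (mul_mem h2.2 h3.2) _ h4.1 h5)
        (by
          intro h hh χ ψ hχ hψ t ht u hu
          have h1 := hX t ht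
          have h2 := hY u hu
          have h3 := hX (χ * t) (hchi r h χ hh hχ t ht)
          have h4 := hY (ψ * u) (hchi s h ψ hh hψ u hu)
          set h' : ↥Γ := ⟨h, hh.2⟩ with hh'
          have hH' : h' ∈ BD.H := Subgroup.mem_subgroupOf.mpr hh.1
          have c1 : Cr R r (χ * t) ((h' * X t * h'⁻¹ : ↥Γ) : GL D.Idx F) := cr_conj hh.1 hχ h1.1
          have c2 : Cr R s (ψ * u) ((h' * Y u * h'⁻¹ : ↥Γ) : GL D.Idx F) := cr_conj hh.1 hψ h2.1
          have m1 := BD.normH k _ hH' _ h1.2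
          have m2 := BD.normH l _ hH' _ h2.2
          show f (X (χ * t)) (Y (ψ * u)) = f (X t) (Y u)
          rw [← hf.inv h' hH' _ h1.2 _ (hUl _ h2.2), hdx _ h3.2 _ m1 _ h3.1 c1 _ (hUl _ h4.2)]
          exact hdy _ m1 _ h4.2 _ m2 _ h4.1 c2)
        (by
          intro hrs t ht
          have hkl : k = l := by rw [← hrk, ← hsk, hrs]
          have h1 := hX t ht
          have h2 := hY t (hrs ▸ ht)
          show f (X t) (Y t) = 1
          have h3 : Cr R s t ((X t : ↥Γ) : GL D.Idx F) := hrs ▸ h1.1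
          rw [hdy _ h1.2 _ h2.2 (X t) (hkl ▸ h1.2) _ h2.1 h3]
          exact hf.alt _ h1.2)
        (by
          intro hS t ht u hu
          obtain ⟨x, y, a1, a2, a3, a4, a5⟩ := hsp r s hr hs hrk hS t ht u hu
          have h1 := hX t ht
          have h2 := hY u hu
          have b1 : x ∈ BD.C k := by rw [hC, ← hrk]; exact a1
          have b2 : y ∈ BD.C l := by rw [hC, ← hsk]; exact a2
          show f (X t) (Y u) = 1
          rw [hdx _ h1.2 _ b1 _ h1.1 a3 _ (hUl _ h2.2), hdy _ b1 _ h2.2 _ b2 _ h2.1 a4]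
          exact a5)
      intro x hx y hy
      obtain ⟨t, ht, ct⟩ := cr_exists (R := R) hr (g := (x : GL D.Idx F)) (by rw [hC] at hx; rw [hrk]; exact hx) (K.le x.2)
      obtain ⟨u, hu, cu⟩ := cr_exists (R := R) hs (g := (y : GL D.Idx F)) (by rw [hC] at hy; rw [hsk]; exact hy) (K.le y.2)
      have h1 := hX t ht
      have h2 := hY u hu
      rw [hdx _ hx _ h1.2 _ ct h1.1 _ (hUl _ hy), hdy _ h1.2 _ hy _ h2.2 _ cu h2.1]
      exact hkl t ht u hu
  intro x hx y hy
  exact key M 0 (by omega) x hx y (by rw [BD.C0]; exact hy)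

end b

end dat

end Cfsg.Agent.Lib.H26TwB
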