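import Cfsg.Agent.Lib.H26TwL
import Cfsg.Agent.Lib.ChevPar

/-! The Bruhat decomposition in the rank one subgroups of a twisted group (helper26). -/

set_option autoImplicit false
set_option linter.unusedSectionVars false
set_option maxHeartbeats 1000000

namespace Cfsg.Agent.Lib.H26TwL
open Cfsg.Lie Cfsg.Agent.Lib.ChevX Cfsg.Agent.Lib.ChevGood Cfsg.Agent.Lib.ChevRel Cfsg.Agent.Lib.ChevNPerm
  Cfsg.Agent.Lib.ChevClosed Cfsg.Agent.Lib.ChevBruhat Cfsg.Agent.Lib.TwFix Cfsg.Agent.Lib.TwFix.TwRk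
  Cfsg.Agent.Lib.TwFix.TwAll
open Cfsg.Agent.Lib.H26LiftA
open scoped MatrixGroups Matrix

variable {D : ChevalleyDatum} {F : Type*} [Field F]
variable {T : TwSys D F} {R : TwRk T} {k : ℕ} {W : TwGen T k} {B : TwBlk R W} {Γ : Subgroup (GL D.Idx F)}
  (K : TwAll B Γ)

/-- the nodes of a block -/
def nodeSet (W : TwGen T k) (j : Fin k) : Set ℕ := {i | ∃ h : i < D.rank, W.blk ⟨i, h⟩ = j}

theorem XS_le_rad (j : Fin k) : XS D F (Psi W ({j} : Set (Fin k))) ≤ D.unipotentRadical F (nodeSet W j) := by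
  unfold XS ChevalleyDatum.unipotentRadical
  rw [Subgroup.closure_le]
  rintro g ⟨r, ⟨h1, i, hi, hne⟩, t, rfl⟩
  refine Subgroup.subset_closure ⟨r, t, (T.G.isPos_iff r).mpr ⟨h1, r.2⟩, ?_, ?_⟩
  · rw [ChevPar.inRootSub_iff T.G r.2]
    intro h
    refine hne (h i i.2 ?_)
    rintro ⟨h3, h4⟩
    exact hi h4
  · exact coe_xg T.G _ _

theorem XS_le_levi {A : Set (Fin D.nroots)} (j : Fin k)
    (hA : ∀ r ∈ A, ∀ i : Fin D.rank, W.blk i ≠ j → T.G.rv r i = 0) : XS D F A ≤ D.leviSubgroup F (nodeSet W j) := by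
  unfold XS ChevalleyDatum.leviSubgroup
  rw [Subgroup.closure_le]
  rintro g ⟨r, h1, t, rfl⟩
  refine Subgroup.mem_sup_right (Subgroup.subset_closure ⟨r, t, ?_, coe_xg T.G _ _⟩)
  rw [ChevPar.inRootSub_iff T.G r.2]
  intro i hi hiJ
  exact hA r h1 ⟨i, hi⟩ (fun h => hiJ ⟨hi, h⟩)

theorem rad_inf_levi {j : Fin k} {g : GL D.Idx F} (h1 : g ∈ XS D F (Psi W ({j} : Set (Fin k))))
    (h2 : g ∈ D.leviSubgroup F (nodeSet W j)) : g = 1 := by
  have h3 := (ChevPar.levi (F := F) T.G (nodeSet W j)).2.2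
  have h4 : g ∈ D.unipotentRadical F (nodeSet W j) ⊓ D.leviSubgroup F (nodeSet W j) := ⟨XS_le_rad j h1, h2⟩
  rw [h3, Subgroup.mem_bot] at h4
  exact h4

include K in
theorem X_le_levi (j : Fin k) : XS D F (Inv (W.wj j)) ≤ D.leviSubgroup F (nodeSet W j) :=
  XS_le_levi j fun r hr i hi => ((mem_Inv_iff K j r).mp hr).2 i hi

include K in
theorem Y_le_levi (j : Fin k) : XS D F (W.wj j '' Inv (W.wj j)) ≤ D.leviSubgroup F (nodeSet W j) := by
  apply XS_le_levi j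
  intro r hr i hi
  rw [image_Inv K] at hr
  have := ((mem_Inv_iff K j _).mp hr).2 i hi
  rw [rv_negF] at this
  omega

include K in
/-- the minimal parabolic subgroup -/
theorem BsB (j : Fin k) {g : ↥Γ} (hg : g ∈ K.grp.bn.B ⊔ Subgroup.closure {(⟨W.nj j, K.n_mem j⟩ : ↥Γ)}) :
    g ∈ K.grp.bn.B ∨ ∃ b ∈ K.grp.bn.B, ∃ b' ∈ K.grp.bn.B, g = b * ⟨W.nj j, K.n_mem j⟩ * b' := by
  set P := K.grp.bn with hP
  set s : ↥Γ := ⟨W.nj j, K.n_mem j⟩ with hs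
  have hsS : s ∈ P.S := ⟨j, rfl⟩
  have hss : s * s ∈ P.B := P.sq_mem s hsS
  let M : Set ↥Γ := {g | g ∈ P.B ∨ ∃ b ∈ P.B, ∃ b' ∈ P.B, g = b * s * b'}
  have hB : ∀ b ∈ P.B, ∀ m ∈ M, b * m ∈ M := by
    rintro b hb m (hm | ⟨c, hc, c', hc', rfl⟩)
    · exact Or.inl (mul_mem hb hm)
    · exact Or.inr ⟨b * c, mul_mem hb hc, c', hc', by group⟩
  have hsM : ∀ m ∈ M, s * m ∈ M := by
    rintro m (hm | ⟨c, hc, c', hc', rfl⟩)
    · exact Or.inr ⟨1, one_mem _, m, hm, by group⟩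
    · have h1 := P.mul_mem_union s hsS s (P.subset hsS) c hc
      have e : s * (c * s * c') = s * c * s * c' := by group
      rw [e]
      rcases h1 with h1 | h1
      · rw [DoubleCoset.mem_doubleCoset] at h1
        obtain ⟨x, hx, y, hy, h2⟩ := h1
        left
        rw [h2]
        exact mul_mem (mul_mem (mul_mem hx hss) hy) hc'
      · rw [DoubleCoset.mem_doubleCoset] at h1
        obtain ⟨x, hx, y, hy, h2⟩ := h1
        right
        exact ⟨x, hx, y * c', mul_mem hy hc', by rw [h2]; group⟩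
  have hsi : ∀ m ∈ M, s⁻¹ * m ∈ M := by
    intro m hm
    have e : s⁻¹ * m = (s * s)⁻¹ * (s * m) := by group
    rw [e]
    exact hB _ (inv_mem hss) _ (hsM m hm)
  have key : ∀ g ∈ P.B ⊔ Subgroup.closure {s}, (∀ m ∈ M, g * m ∈ M) ∧ (∀ m ∈ M, g⁻¹ * m ∈ M) := by
    intro g hg
    rw [← Subgroup.closure_eq P.B, ← Subgroup.closure_union] at hg
    induction hg using Subgroup.closure_induction with
    | mem x hx =>
      rcases hx with hx | hx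
      · exact ⟨hB x hx, hB x⁻¹ (inv_mem hx)⟩
      · rw [Set.mem_singleton_iff] at hx
        subst hx
        exact ⟨hsM, hsi⟩
    | one => exact ⟨fun m hm => by rwa [one_mul], fun m hm => by rwa [inv_one, one_mul]⟩
    | mul a b _ _ ha hb =>
      refine ⟨fun m hm => ?_, fun m hm => ?_⟩
      · rw [mul_assoc]; exact ha.1 _ (hb.1 m hm)
      · rw [mul_inv_rev, mul_assoc]; exact hb.2 _ (ha.2 m hm)
    | inv a _ ha => exact ⟨ha.2, by rw [inv_inv]; exact ha.1⟩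
  have h1 := (key g hg).1 1 (Or.inl (one_mem _))
  rw [mul_one] at h1
  exact h1

include K in
/-- the Bruhat decomposition of the rank one subgroups -/
theorem br_of (j : Fin k)
    (nL : (⟨W.nj j, K.n_mem j⟩ : ↥Γ) ∈ (XS D F (Inv (W.wj j))).subgroupOf Γ ⊔ (XS D F (W.wj j '' Inv (W.wj j))).subgroupOf Γ)
    (g : ↥Γ) (hg : g ∈ (XS D F (Inv (W.wj j))).subgroupOf Γ ⊔ (XS D F (W.wj j '' Inv (W.wj j))).subgroupOf Γ) :
    (∃ x ∈ (XS D F (Inv (W.wj j))).subgroupOf Γ, ∃ h ∈ (D.diagonalSubgroup F).subgroupOf Γ, g = x * h) ∨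
    ∃ x ∈ (XS D F (Inv (W.wj j))).subgroupOf Γ, ∃ h ∈ (D.diagonalSubgroup F).subgroupOf Γ,
      ∃ x' ∈ (XS D F (Inv (W.wj j))).subgroupOf Γ, g = x * h * ⟨W.nj j, K.n_mem j⟩ * x' := by
  set s : ↥Γ := ⟨W.nj j, K.n_mem j⟩ with hs
  have hLl : ∀ g : ↥Γ, g ∈ (XS D F (Inv (W.wj j))).subgroupOf Γ ⊔ (XS D F (W.wj j '' Inv (W.wj j))).subgroupOf Γ →
      (g : GL D.Idx F) ∈ D.leviSubgroup F (nodeSet W j) := by
    intro g hg
    have : (XS D F (Inv (W.wj j))).subgroupOf Γ ⊔ (XS D F (W.wj j '' Inv (W.wj j))).subgroupOf Γ ≤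
        (D.leviSubgroup F (nodeSet W j)).subgroupOf Γ :=
      sup_le (fun x hx => Subgroup.mem_subgroupOf.mpr (X_le_levi K j (Subgroup.mem_subgroupOf.mp hx)))
        (fun x hx => Subgroup.mem_subgroupOf.mpr (Y_le_levi K j (Subgroup.mem_subgroupOf.mp hx)))
    exact this hg
  have hHl : ∀ h ∈ D.diagonalSubgroup F, h ∈ D.leviSubgroup F (nodeSet W j) := fun h hh => Subgroup.mem_sup_left hh
  have hXU : ∀ x : GL D.Idx F, x ∈ XS D F (Inv (W.wj j)) → x ∈ D.posUnipotent F := by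
    intro x hx
    rw [← XS_posS T.G]; exact XS_mono (fun r hr => hr.1) hx
  -- `X, Y` in the parabolic
  have hXP : (XS D F (Inv (W.wj j))).subgroupOf Γ ≤ K.grp.bn.B := by
    intro x hx
    show x ∈ (D.borelSubgroup F ⊓ Γ).subgroupOf Γ
    rw [Subgroup.mem_subgroupOf] at hx ⊢
    exact ⟨borel_U T.G (hXU _ hx), x.2⟩
  have hsP : s ∈ K.grp.bn.B ⊔ Subgroup.closure {s} := Subgroup.mem_sup_right (Subgroup.subset_closure rfl)
  have hYP : (XS D F (W.wj j '' Inv (W.wj j))).subgroupOf Γ ≤ K.grp.bn.B ⊔ Subgroup.closure {s} := by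
    intro y hy
    have h6 := conjXS K (m := s⁻¹) (mono_inv _ (W.mono_nj j)) (A' := Inv (W.wj j)) (by
      rintro _ ⟨_, ⟨r, hr, rfl⟩, rfl⟩
      rw [show (W.wj j)⁻¹ (W.wj j r) = r from (W.wj j).symm_apply_apply r]; exact hr) hy
    have e : y = s * (s⁻¹ * y * s⁻¹⁻¹) * s⁻¹ := by group
    rw [e]
    exact mul_mem (mul_mem hsP (Subgroup.mem_sup_left (hXP h6))) (inv_mem hsP)
  have hgP : g ∈ K.grp.bn.B ⊔ Subgroup.closure {s} := (sup_le (hXP.trans le_sup_left) hYP) hg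
  -- decomposition of `B`
  have hBd : ∀ b ∈ K.grp.bn.B, ∃ v : ↥Γ, (v : GL D.Idx F) ∈ XS D F (Psi W ({j} : Set (Fin k))) ∧
      ∃ x ∈ (XS D F (Inv (W.wj j))).subgroupOf Γ, ∃ h ∈ (D.diagonalSubgroup F).subgroupOf Γ, b = v * x * h := by
    intro b hb
    obtain ⟨u, hu, h, hh, he⟩ := K.mem_B (Subgroup.mem_subgroupOf.mp hb)
    obtain ⟨v, hv, x, hx, e⟩ := UV_split K j hu.1 hu.2
    exact ⟨⟨v, hv.2⟩, hv.1, ⟨x, hx.2⟩, hx.1, ⟨h, hh.2⟩, hh.1, Subtype.ext (by rw [he, e]; rfl)⟩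
  rcases BsB K j hgP with hb | ⟨b, hb, b', hb', e⟩
  · left
    obtain ⟨v, hv, x, hx, h, hh, e⟩ := hBd g hb
    have h1 : (v : GL D.Idx F) = 1 := by
      apply rad_inf_levi hv
      have e2 : (v : GL D.Idx F) = (g : GL D.Idx F) * (h : GL D.Idx F)⁻¹ * (x : GL D.Idx F)⁻¹ := by
        have := congrArg Subtype.val e
        rw [this]; simp
      rw [e2]
      exact mul_mem (mul_mem (hLl g hg) (inv_mem (hHl _ hh))) (inv_mem (X_le_levi K j hx))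
    have h2 : v = 1 := Subtype.ext h1
    rw [h2, one_mul] at e
    exact ⟨x, hx, h, hh, e⟩
  · right
    rw [← hs] at e
    obtain ⟨v, hv, x, hx, h, hh, e1⟩ := hBd b hb
    -- `b' = h1 u1`
    obtain ⟨v2, hv2, x2, hx2, h2, hh2, e2⟩ := hBd b'⁻¹ (inv_mem hb')
    -- b' = h2⁻¹ x2⁻¹ v2⁻¹
    have e3 : b' = h2⁻¹ * x2⁻¹ * v2⁻¹ := by rw [← inv_inv b', e2]; group
    set c : ↥Γ := x * h * (s * h2⁻¹ * s⁻¹) with hc
    -- conjugates
    have hX' : h2⁻¹ * x2⁻¹ * h2 ∈ (XS D F (Inv (W.wj j))).subgroupOf Γ := by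
      have := diag_norm T (inv_mem (Subgroup.mem_subgroupOf.mp hh2)) (Subgroup.mem_subgroupOf.mp (inv_mem hx2))
      rw [Subgroup.mem_subgroupOf]
      simpa using this
    have hsh : s * h2⁻¹ * s⁻¹ ∈ (D.diagonalSubgroup F).subgroupOf Γ := by
      rw [Subgroup.mem_subgroupOf] at hh2 ⊢
      exact mono_conj_diag T.G (W.mono_nj j) (inv_mem hh2)
    -- g = v * (x h s h2⁻¹ s⁻¹) s x2⁻¹ v2⁻¹
    set g1 : ↥Γ := x * (h * (s * h2⁻¹ * s⁻¹)) * s * x2⁻¹ with hg1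
    have eg : g = v * (g1 * v2⁻¹ * g1⁻¹) * g1 := by
      rw [e, e1, e3, hg1]; group
    have hg1l : (g1 : GL D.Idx F) ∈ D.leviSubgroup F (nodeSet W j) := by
      have h3 := hLl s nL
      exact mul_mem (mul_mem (mul_mem (X_le_levi K j hx) (mul_mem (hHl _ hh) (hHl _ hsh))) h3)
        (inv_mem (X_le_levi K j hx2))
    have hVc : ∀ w : ↥Γ, (w : GL D.Idx F) ∈ XS D F (Psi W ({j} : Set (Fin k))) →
        ((g1 * w * g1⁻¹ : ↥Γ) : GL D.Idx F) ∈ XS D F (Psi W ({j} : Set (Fin k))) := by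
      intro w hw
      have k1 : ∀ y : GL D.Idx F, y ∈ XS D F (Inv (W.wj j)) → ∀ w ∈ XS D F (Psi W ({j} : Set (Fin k))),
          y * w * y⁻¹ ∈ XS D F (Psi W ({j} : Set (Fin k))) := fun y hy w hw => Psi_norm (hXU _ hy) hw
      have k2 : ∀ y ∈ D.diagonalSubgroup F, ∀ w ∈ XS D F (Psi W ({j} : Set (Fin k))),
          y * w * y⁻¹ ∈ XS D F (Psi W ({j} : Set (Fin k))) := fun y hy w hw => diag_norm T hy hw
      have k3 : ∀ w ∈ XS D F (Psi W ({j} : Set (Fin k))),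
          W.nj j * w * (W.nj j)⁻¹ ∈ XS D F (Psi W ({j} : Set (Fin k))) := by
        intro w hw
        refine XS_mono ?_ (mono_conj_XS T.G (W.mono_nj j) hw)
        rintro _ ⟨r, hr, rfl⟩
        exact Psi_wj (W := W) (J := {j}) rfl hr
      have h4 := k1 _ (inv_mem hx2) _ hw
      have h5 := k3 _ h4
      have h6 := k2 _ (mul_mem hh hsh) _ h5
      have h7 := k1 _ hx _ h6
      have e8 : ((g1 * w * g1⁻¹ : ↥Γ) : GL D.Idx F) = (x : GL D.Idx F) * (((h * (s * h2⁻¹ * s⁻¹) : ↥Γ) : GL D.Idx F) *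
          (W.nj j * (((x2⁻¹ : ↥Γ) : GL D.Idx F) * w * ((x2⁻¹ : ↥Γ) : GL D.Idx F)⁻¹) * (W.nj j)⁻¹) *
          ((h * (s * h2⁻¹ * s⁻¹) : ↥Γ) : GL D.Idx F)⁻¹) * (x : GL D.Idx F)⁻¹ := by
        rw [hg1]
        simp only [Subgroup.coe_mul, Subgroup.coe_inv, hs]
        group
      rw [e8]; exact h7
    set v' : ↥Γ := v * (g1 * v2⁻¹ * g1⁻¹) with hv'
    have hv'm : (v' : GL D.Idx F) ∈ XS D F (Psi W ({j} : Set (Fin k))) := mul_mem hv (hVc _ (inv_mem hv2))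
    have h1 : (v' : GL D.Idx F) = 1 := by
      apply rad_inf_levi hv'm
      have e2 : v' = g * g1⁻¹ := by rw [eg]; group
      rw [e2]
      exact mul_mem (hLl g hg) (inv_mem hg1l)
    have h2' : v' = 1 := Subtype.ext h1
    rw [h2', one_mul] at eg
    exact ⟨x, hx, h * (s * h2⁻¹ * s⁻¹), mul_mem hh hsh, x2⁻¹, inv_mem hx2, eg⟩

end Cfsg.Agent.Lib.H26TwL
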