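import Cfsg.Agent.Lib.SL2Pres
import Cfsg.Agent.Lib.SchurSL2

/-! Rank one subgroups given by a homomorphism from `SL₂` (helper26). -/

set_option autoImplicit false

namespace Cfsg.Agent.Lib.H26RkOne

open Subgroup Cfsg.Agent.Lib.SchurSylow
open Cfsg.Agent.Lib.SL2Pres (E E' nn hh coe_E coe_E' coe_nn coe_hh closure_SL2)
open scoped MatrixGroups Matrix

universe u v

/-- `M_r(SL₂(q)) = 1` for `r` different from the characteristic -/
theorem pStemDvd_SL2 {k : Type u} [Field k] [Fintype k] (r : ℕ) [hr : Fact r.Prime] (hrq : ¬ r ∣ Fintype.card k) :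
    PStemDvd r SL(2, k) 1 := by
  have hq1 : 1 < Fintype.card k := Fintype.one_lt_card
  by_cases h1 : r ∣ Fintype.card k + 1
  · by_cases h2 : r ∣ Fintype.card k - 1
    · have h3 : r ∣ 2 := by
        have := (Nat.dvd_sub h1 h2)
        have e : Fintype.card k + 1 - (Fintype.card k - 1) = 2 := by omega
        rwa [e] at this
      have hr2 : r = 2 := (Nat.prime_dvd_prime_iff_eq hr.out Nat.prime_two).1 h3
      subst hr2
      have h4' : Fintype.card k % 4 = 1 ∨ Fintype.card k % 4 = 3 := by omega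
      rcases h4' with h | h
      · exact SchurSL2.pStemDvd_two_one_mod_four h
      · exact SchurSL2.pStemDvd_two_three_mod_four h
    · exact SchurSL2.pStemDvd_nonsplit r hrq h2
  · exact SchurSL2.pStemDvd_split r hrq h1

section decomp
variable {k : Type u} [Field k]

theorem upper (a : SL(2, k)) (h : a.1 1 0 = 0) : ∃ x p : k, p ≠ 0 ∧ a = E x * hh E E' p := by
  have hdet := a.2
  rw [Matrix.det_fin_two, h, mul_zero, sub_zero] at hdet
  have hp : a.1 0 0 ≠ 0 := left_ne_zero_of_mul_eq_one hdet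
  have hpi : a.1 1 1 = (a.1 0 0)⁻¹ := eq_inv_of_mul_eq_one_right hdet
  refine ⟨a.1 0 1 * a.1 0 0, a.1 0 0, hp, ?_⟩
  apply Subtype.ext
  rw [Matrix.SpecialLinearGroup.coe_mul, coe_hh hp, coe_E]
  ext i j
  fin_cases i <;> fin_cases j <;> simp [Matrix.mul_apply, Fin.sum_univ_two, h, hpi, hp]

theorem lower (a : SL(2, k)) (h : a.1 1 0 ≠ 0) : ∃ x p y : k, p ≠ 0 ∧ a = E x * hh E E' p * nn E E' 1 * E y := by
  have hdet := a.2
  rw [Matrix.det_fin_two] at hdet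
  have hp : -(a.1 1 0)⁻¹ ≠ 0 := by simpa using h
  refine ⟨a.1 0 0 / a.1 1 0, -(a.1 1 0)⁻¹, a.1 1 1 / a.1 1 0, hp, ?_⟩
  apply Subtype.ext
  rw [Matrix.SpecialLinearGroup.coe_mul, Matrix.SpecialLinearGroup.coe_mul, Matrix.SpecialLinearGroup.coe_mul,
    coe_hh hp, coe_E, coe_nn one_ne_zero, coe_E]
  ext i j
  fin_cases i <;> fin_cases j <;> simp [Matrix.mul_apply, Fin.sum_univ_two]
  · field_simp
  · field_simp
    linear_combination -hdet
  · field_simp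

end decomp

variable {Q : Type v} [Group Q] {k : Type u} [Field k]

/-- rank one subgroup data -/
structure RK (X Y H : Subgroup Q) (n : Q) (Ψ : SL(2, k) →* Q) : Prop where
  hX : ∀ x, x ∈ X ↔ ∃ t, x = Ψ (E t)
  hY : ∀ y, y ∈ Y ↔ ∃ t, y = Ψ (E' t)
  hn : Ψ (nn E E' 1) = n
  hH : ∀ p : k, p ≠ 0 → Ψ (hh E E' p) ∈ H
  hB : ∀ x ∈ X, ∀ h ∈ H, ∀ x' ∈ X, x * h * n * x' ∉ H
  hXH : ∀ t, Ψ (E t) ∈ H → Ψ (E t) = 1
  hE : ∀ t, Ψ (E t) = 1 → t = 0
  h1 : ∀ p : k, p ≠ 0 → Ψ (hh E E' p) = 1 → p = 1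

namespace RK
variable {X Y H : Subgroup Q} {n : Q} {Ψ : SL(2, k) →* Q} (R : RK X Y H n Ψ)
include R

theorem range_eq : Ψ.range = X ⊔ Y := by
  rw [MonoidHom.range_eq_map, ← closure_SL2, MonoidHom.map_closure]
  apply le_antisymm
  · rw [Subgroup.closure_le]
    rintro _ ⟨a, ⟨t, rfl⟩ | ⟨t, rfl⟩, rfl⟩
    · exact Subgroup.mem_sup_left ((R.hX _).2 ⟨t, rfl⟩)
    · exact Subgroup.mem_sup_right ((R.hY _).2 ⟨t, rfl⟩)
  · rw [sup_le_iff]
    constructor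
    · intro x hx
      obtain ⟨t, rfl⟩ := (R.hX x).1 hx
      exact Subgroup.subset_closure ⟨_, Or.inl ⟨t, rfl⟩, rfl⟩
    · intro x hx
      obtain ⟨t, rfl⟩ := (R.hY x).1 hx
      exact Subgroup.subset_closure ⟨_, Or.inr ⟨t, rfl⟩, rfl⟩

theorem nL : n ∈ X ⊔ Y := by rw [← R.range_eq, ← R.hn]; exact ⟨_, rfl⟩

theorem br : ∀ g ∈ X ⊔ Y, (∃ x ∈ X, ∃ h ∈ H, g = x * h) ∨ ∃ x ∈ X, ∃ h ∈ H, ∃ x' ∈ X, g = x * h * n * x' := by
  intro g hg
  rw [← R.range_eq] at hg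
  obtain ⟨a, rfl⟩ := hg
  by_cases h : a.1 1 0 = 0
  · obtain ⟨x, p, hp, e⟩ := upper a h
    left
    refine ⟨Ψ (E x), (R.hX _).2 ⟨x, rfl⟩, Ψ (hh E E' p), R.hH p hp, ?_⟩
    rw [← map_mul, ← e]
  · obtain ⟨x, p, y, hp, e⟩ := lower a h
    right
    refine ⟨Ψ (E x), (R.hX _).2 ⟨x, rfl⟩, Ψ (hh E E' p), R.hH p hp, Ψ (E y), (R.hX _).2 ⟨y, rfl⟩, ?_⟩
    rw [← R.hn, ← map_mul, ← map_mul, ← map_mul, ← e]

theorem mem_H {a : SL(2, k)} (h : Ψ a ∈ H) : ∃ p : k, p ≠ 0 ∧ a = hh E E' p := by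
  by_cases h0 : a.1 1 0 = 0
  · obtain ⟨x, p, hp, e⟩ := upper a h0
    refine ⟨p, hp, ?_⟩
    have h2 : Ψ (E x) ∈ H := by
      have : Ψ (E x) = Ψ a * (Ψ (hh E E' p))⁻¹ := by rw [e, map_mul]; group
      rw [this]; exact mul_mem h (inv_mem (R.hH p hp))
    have h3 := R.hE x (R.hXH x h2)
    rw [e, h3]
    have : (E 0 : SL(2, k)) = 1 := by
      apply Subtype.ext
      rw [coe_E]
      ext i j; fin_cases i <;> fin_cases j <;> simp
    rw [this, one_mul]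
  · exfalso
    obtain ⟨x, p, y, hp, e⟩ := lower a h0
    apply R.hB (Ψ (E x)) ((R.hX _).2 ⟨x, rfl⟩) (Ψ (hh E E' p)) (R.hH p hp) (Ψ (E y)) ((R.hX _).2 ⟨y, rfl⟩)
    rw [← R.hn, ← map_mul, ← map_mul, ← map_mul, ← e]
    exact h

theorem inj : Function.Injective Ψ := by
  rw [injective_iff_map_eq_one]
  intro a ha
  obtain ⟨p, hp, e⟩ := R.mem_H (a := a) (by rw [ha]; exact one_mem _)
  rw [e] at ha
  have h1 := R.h1 p hp ha
  rw [e, h1]
  apply Subtype.ext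
  rw [coe_hh one_ne_zero]
  ext i j; fin_cases i <;> fin_cases j <;> simp

theorem pStem [Fintype k] (r : ℕ) [hr : Fact r.Prime] (hrq : ¬ r ∣ Fintype.card k) :
    PStemDvd r (X ⊔ Y : Subgroup Q) 1 := by
  have e : SL(2, k) ≃* (X ⊔ Y : Subgroup Q) :=
    (MonoidHom.ofInjective R.inj).trans (MulEquiv.subgroupCongr R.range_eq)
  exact PStemDvd.congr e (pStemDvd_SL2 r hrq)

theorem card_H [Fintype k] : Nat.card ((X ⊔ Y) ⊓ H : Subgroup Q) = Fintype.card k - 1 := by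
  classical
  have h1 : Nat.card kˣ = Fintype.card k - 1 := by rw [Nat.card_eq_fintype_card, Fintype.card_units]
  rw [← h1]
  symm
  refine Nat.card_congr (Equiv.ofBijective (fun p : kˣ => (⟨Ψ (hh E E' (p : k)), ?_, R.hH _ p.ne_zero⟩ :
    ((X ⊔ Y) ⊓ H : Subgroup Q))) ⟨?_, ?_⟩)
  · show Ψ (hh E E' (p : k)) ∈ X ⊔ Y
    rw [← R.range_eq]; exact ⟨_, rfl⟩
  · intro p p' hpp
    have h2 : Ψ (hh E E' (p : k)) = Ψ (hh E E' (p' : k)) := congrArg Subtype.val hpp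
    have h3 := R.inj h2
    have h4 := congrArg (fun x : SL(2, k) => (x : Matrix (Fin 2) (Fin 2) k) 0 0) h3
    simp only [coe_hh p.ne_zero, coe_hh p'.ne_zero] at h4
    exact Units.ext (by simpa using h4)
  · rintro ⟨g, hg1, hg2⟩
    rw [← R.range_eq] at hg1
    obtain ⟨a, rfl⟩ := hg1
    obtain ⟨p, hp, e⟩ := R.mem_H hg2
    exact ⟨Units.mk0 p hp, Subtype.ext (by show Ψ (hh E E' p) = Ψ a; rw [← e])⟩

end RK

end Cfsg.Agent.Lib.H26RkOne
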