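import Cfsg.Agent.Lib.H26TwL
import Cfsg.Agent.Lib.H26RkOne
import Cfsg.Agent.Lib.TwGFEnd
import Cfsg.Agent.Lib.ChevSL2

/-! Rank one subgroups of `²E₆`, `³D₄` (helper26). -/

set_option autoImplicit false
set_option linter.unusedSectionVars false
set_option linter.unusedVariables false

universe u

namespace Cfsg.Agent.Lib.TwTab
open Cfsg.Lie Cfsg.Agent.Lib.ChevX Cfsg.Agent.Lib.ChevGood Cfsg.Agent.Lib.ChevRel Cfsg.Agent.Lib.ChevNPerm
  Cfsg.Agent.Lib.ChevClosed Cfsg.Agent.Lib.ChevBruhat Cfsg.Agent.Lib.TwFix Cfsg.Agent.Lib.TwFix.TwRk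
  Cfsg.Agent.Lib.TwFix.TwAll
open Cfsg.Agent.Lib.SchurSylow
open Cfsg.Agent.Lib.H26LiftA Cfsg.Agent.Lib.H26RkOne Cfsg.Agent.Lib.H26TwL
open Cfsg.Agent.Lib.SL2Pres (E E' nn hh coe_E coe_E' coe_nn coe_hh closure_SL2 isR1_SL2)
open scoped MatrixGroups Matrix

variable {D : ChevalleyDatum} {F : Type*} [Field F]

section hom

theorem map_E {k : Type*} [Field k] (ι : k →+* F) (t : k) : Matrix.SpecialLinearGroup.map ι (E t : SL(2, k)) = E (ι t) := by
  apply Subtype.ext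
  ext i j
  fin_cases i <;> fin_cases j <;> simp

theorem map_E' {k : Type*} [Field k] (ι : k →+* F) (t : k) : Matrix.SpecialLinearGroup.map ι (E' t : SL(2, k)) = E' (ι t) := by
  apply Subtype.ext
  ext i j
  fin_cases i <;> fin_cases j <;> simp

theorem commute_of_gen {M : Type*} [Group M] (f g : SL(2, F) →* M)
    (h : ∀ t u, Commute (f (E t)) (g (E u)) ∧ Commute (f (E' t)) (g (E u)) ∧ Commute (f (E t)) (g (E' u)) ∧
      Commute (f (E' t)) (g (E' u))) (a b : SL(2, F)) : Commute (f a) (g b) := by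
  have ha : a ∈ Subgroup.closure (Set.range (E : F → SL(2, F)) ∪ Set.range E') := by rw [closure_SL2]; trivial
  have hb : b ∈ Subgroup.closure (Set.range (E : F → SL(2, F)) ∪ Set.range E') := by rw [closure_SL2]; trivial
  induction ha using Subgroup.closure_induction with
  | mem a ha =>
    induction hb using Subgroup.closure_induction with
    | mem b hb =>
      rcases ha with ⟨t, rfl⟩ | ⟨t, rfl⟩ <;> rcases hb with ⟨u, rfl⟩ | ⟨u, rfl⟩
      · exact (h t u).1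
      · exact (h t u).2.2.1
      · exact (h t u).2.1
      · exact (h t u).2.2.2
    | one => rw [map_one]; exact Commute.one_right _
    | mul x y _ _ hx hy => rw [map_mul]; exact hx.mul_right hy
    | inv x _ hx => rw [map_inv]; exact hx.inv_right
  | one => rw [map_one]; exact Commute.one_left _
  | mul x y _ _ hx hy => rw [map_mul]; exact hx.mul_left hy
  | inv x _ hx => rw [map_inv]; exact hx.inv_left

theorem exists_PhiL (G : Good D) {q : ℕ} (τ : F →+* F) (hτ : ∀ t, τ t = t ^ q) {n : ℕ} (hn : n = D.nroots) :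
    ∀ L : List ℕ, CList D n L = true → ∃ Φ : SL(2, F) →* GL D.Idx F, (∀ t, Φ (E t) = BX D F q L t) ∧
      (∀ t, Φ (E' t) = BX D F q (L.map D.neg) t) := by
  intro L
  induction L with
  | nil => intro _; exact ⟨1, fun t => rfl, fun t => rfl⟩
  | cons r L ih =>
    intro hL
    have hL' := hL
    simp only [CList, Bool.and_eq_true, Nat.blt_eq] at hL'
    obtain ⟨⟨hr, hall⟩, hL2⟩ := hL'
    have hrn : r < D.nroots := by rw [← hn]; exact hr
    obtain ⟨Φ, e1, e2⟩ := ih hL2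
    obtain ⟨φ, f1, f2, -⟩ := SL2Pres.exists_hom (ChevSL2.isR1 G (F := F) hrn)
    set Φ' : SL(2, F) →* GL D.Idx F := Φ.comp (Matrix.SpecialLinearGroup.map τ) with hΦ'
    have e1' : ∀ t, Φ' (E t) = BX D F q L (t ^ q) := by
      intro t; rw [hΦ', MonoidHom.comp_apply, map_E, e1, hτ]
    have e2' : ∀ t, Φ' (E' t) = BX D F q (L.map D.neg) (t ^ q) := by
      intro t; rw [hΦ', MonoidHom.comp_apply, map_E', e2, hτ]
    have hc : ∀ a b, Commute (φ a) (Φ' b) := by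
      apply commute_of_gen
      intro t u
      rw [f1, f2, e1', e2']
      obtain ⟨c1, c2, c3, c4⟩ := BX_commute G hn hrn hL2 hall t (u ^ q)
      exact ⟨c1, c2, c3, c4⟩
    refine ⟨{ toFun := fun a => φ a * Φ' a, map_one' := by rw [map_one, map_one, mul_one], map_mul' := ?_ }, ?_, ?_⟩
    · intro a b
      rw [map_mul, map_mul]
      have := (hc b a).eq
      calc φ a * φ b * (Φ' a * Φ' b) = φ a * (φ b * Φ' a) * Φ' b := by group
        _ = φ a * Φ' a * (φ b * Φ' b) := by rw [this]; group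
    · intro t
      show φ (E t) * Φ' (E t) = _
      rw [f1, e1']; rfl
    · intro t
      show φ (E' t) * Φ' (E' t) = _
      rw [f2, e2']; rfl

end hom

/-- the fixed field of `t ↦ t^(q^m)` -/
def FF (τ : F →+* F) (m : ℕ) : Subfield F := RingHom.eqLocusField (τ ^ m) (RingHom.id F)

theorem mem_FF {q : ℕ} (τ : F →+* F) (hτ : ∀ t, τ t = t ^ q) (m : ℕ) (t : F) : t ∈ FF τ m ↔ t ^ q ^ m = t := by
  have key : ∀ m (t : F), (τ ^ m) t = t ^ q ^ m := by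
    intro m
    induction m with
    | zero => intro t; simp
    | succ m ih => intro t; rw [pow_succ', RingHom.mul_def, RingHom.comp_apply, ih, hτ, ← pow_mul, pow_succ]
  show (τ ^ m) t = RingHom.id F t ↔ _
  rw [key, RingHom.id_apply]

section fam
variable {G : Good D} {C : Tab} (S : SigData G C F) (h1 : C.chk1 D = true) (h2 : C.chk2 = true)
  (h3 : C.chk3 D = true) (hD : Listed D) {q : ℕ} (he : ∀ r, S.e r = q) (hJ : C.chkJ D = true)
  (h4 : C.chk4 D 0 = true) (h5 : C.chk5 = true)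
  (K : TwAll (blkG S h1 h2 h3 hD he hJ h4 h5) (Γ0 D F C q))
  (τ : F →+* F) (hτ : ∀ t, τ t = t ^ q)

include h1 h3 in
theorem sim_lt {j : ℕ} (hj : j < C.nz) {i : ℕ} (hi : i ∈ C.jwN j) : i < D.rank ∧ C.sim i < D.nroots ∧ D.simple i = C.sim i := by
  have h7 := (((Tab.c3 h3).2 j hj).1 i hi).1
  rw [(Tab.c1 h1).2.1] at h7
  have h8 := (Tab.c1 h1).2.2.1 i h7
  exact ⟨h7, by rw [← (Tab.c1 h1).1]; exact h8.2.2, h8.1⟩

include K in
theorem sim_Inv {j : Fin C.nz} {i : ℕ} (hi : i ∈ C.jwN j) :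
    (⟨C.sim i, (sim_lt h1 h3 j.2 hi).2.1⟩ : Fin D.nroots) ∈
      Inv ((gen S h1 h2 h3 hD fun j hj => (Γ0_le S h1 h2 h3 hD he hJ) (nl_mem_Γ0 S h1 h2 he hJ h3 hj)).wj j) := by
  have h7 := sim_lt h1 h3 j.2 hi
  have h8 := simp_mem_Inv K (j := j) (i := ⟨i, h7.1⟩) (by
    apply Fin.ext
    exact ((((Tab.c3 h3).2 j j.2).1 i hi).2))
  have e : simpF G (⟨i, h7.1⟩ : Fin D.rank) = (⟨C.sim i, h7.2.1⟩ : Fin D.nroots) := Fin.ext h7.2.2
  rw [← e]; exact h8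


/-- every positive root made negative by `w_j` is simple -/
def Tab.chkInv (C : Tab) : Bool := Tab.ball C.nz fun j => Tab.ball C.n fun r =>
  !(Nat.ble (C.n / 2) r) || Nat.ble (C.n / 2) (C.wlN (C.jwN j) r) || ((C.jwN j).map C.sim).contains r

local notation "GG" => gen S h1 h2 h3 hD fun j hj => (Γ0_le S h1 h2 h3 hD he hJ) (nl_mem_Γ0 S h1 h2 he hJ h3 hj)

theorem Inv_sim (hI : C.chkInv = true) {j : Fin C.nz} {r : Fin D.nroots}
    (hr : r ∈ Inv ((GG).wj j)) : ∃ i ∈ C.jwN j, C.sim i = r := by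
  unfold Tab.chkInv at hI
  rw [Tab.ball_iff] at hI
  have hI1 := hI j j.2
  rw [Tab.ball_iff] at hI1
  have hn := (Tab.c1 h1).1
  have hn2 : C.n / 2 = D.nroots / 2 := by rw [hn]
  have hI2 := hI1 r (by rw [hn]; exact r.2)
  simp only [Bool.or_eq_true, Bool.not_eq_true'] at hI2
  have h6 : ((wl G (jwF h1 j) r : Fin D.nroots) : ℕ) = C.wlN (C.jwN j) r := wlj_eq h1 h3 j.2 r
  rcases hI2 with (h | h) | h
  · exfalso
    have hp : C.n / 2 ≤ (r : ℕ) := hn2.le.trans hr.1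
    rw [Nat.ble_eq_true_of_le hp] at h
    exact absurd h (by simp)
  · exfalso
    have h7 : C.n / 2 ≤ C.wlN (C.jwN j) r := Nat.le_of_ble_eq_true h
    apply hr.2
    show D.nroots / 2 ≤ ((wl G (jwF h1 j) r : Fin D.nroots) : ℕ)
    rw [h6]; exact hn2.ge.trans h7
  · have h8 := List.contains_iff_mem.mp h
    obtain ⟨i, hi, e⟩ := List.mem_map.mp h8
    exact ⟨i, hi, e⟩

theorem rk_Inv (hI : C.chkInv = true) {j : Fin C.nz} {r s : Fin D.nroots}
    (hr : r ∈ Inv ((GG).wj j)) (hs : s ∈ Inv ((GG).wj j)) :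
    (rkS S h1 h2 hD h4 hp0).rk r = (rkS S h1 h2 hD h4 hp0).rk s := by
  obtain ⟨i, hi, ei⟩ := Inv_sim S h1 h2 h3 hD he hJ hI hr
  obtain ⟨i', hi', ei'⟩ := Inv_sim S h1 h2 h3 hD he hJ hI hs
  have a1 := sim_lt h1 h3 j.2 hi
  have a2 := sim_lt h1 h3 j.2 hi'
  obtain ⟨m, hm⟩ := (GG).orb ⟨i, a1.1⟩ ⟨i', a2.1⟩ (by
    apply Fin.ext
    exact ((((Tab.c3 h3).2 j j.2).1 i hi).2).trans ((((Tab.c3 h3).2 j j.2).1 i' hi').2).symm)
  have b1 : simpF (S.sys h1 h2 hD).G ⟨i, a1.1⟩ = r := Fin.ext (a1.2.2.trans ei)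
  have b2 : simpF (S.sys h1 h2 hD).G ⟨i', a2.1⟩ = s := Fin.ext (a2.2.2.trans ei')
  rw [b1, b2] at hm
  rw [← hm]
  clear hm b2
  induction m with
  | zero => rfl
  | succ m ih =>
    rw [pow_succ', Equiv.Perm.mul_apply, (rkS S h1 h2 hD h4 hp0).rk_ρ _ ((TwGen.ρ_pow_pos m r).mpr hr.1)]
    exact ih

include K in
theorem BX_Inv {j : Fin C.nz} (t : F) : BX D F q ((C.jwN j).map C.sim) t ∈ XS D F (Inv ((GG).wj j)) := by
  apply BX_mem_XS
  intro r hr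
  obtain ⟨i, hi, rfl⟩ := List.mem_map.mp hr
  exact ⟨(sim_lt h1 h3 j.2 hi).2.1, sim_Inv S h1 h2 h3 hD he hJ h4 h5 K hi⟩

/-- the coordinate of `BX t` -/
theorem BX_co {j : Fin C.nz} (hI : C.chkInv = true) (t : F) (K : TwAll (blkG S h1 h2 h3 hD he hJ h4 h5) (Γ0 D F C q)) :
    Co ((rkS S h1 h2 hD h4 hp0).up (Inv ((GG).wj j)) ((rkS S h1 h2 hD h4 hp0).rk ⟨C.hd j, hd_lt h1 h3 j.2⟩) \ {⟨C.hd j, hd_lt h1 h3 j.2⟩})
      ⟨C.hd j, hd_lt h1 h3 j.2⟩ t (BX D F q ((C.jwN j).map C.sim) t) := by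
  have h6 := jw_ne h3 j.2
  have hhd : (⟨C.hd j, hd_lt h1 h3 j.2⟩ : Fin D.nroots) ∈ Inv ((GG).wj j) :=
    sim_Inv S h1 h2 h3 hD he hJ h4 h5 K (i := (C.jwN j).headD 0) (by rw [h6]; simp)
  rw [h6, List.map_cons]
  show (xg D F (C.hd j) t)⁻¹ * (xg D F (C.hd j) t * BX D F q ((C.jwN j).tail.map C.sim) (t ^ q)) ∈ _
  rw [inv_mul_cancel_left]
  apply BX_mem_XS
  intro r hr
  obtain ⟨i, hi, rfl⟩ := List.mem_map.mp hr
  have h7 := sim_Inv S h1 h2 h3 hD he hJ h4 h5 K (List.mem_of_mem_tail hi)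
  obtain ⟨-, -, h11⟩ := (cJ hJ j.2).2.2 i hi
  exact ⟨(sim_lt h1 h3 j.2 (List.mem_of_mem_tail hi)).2.1,
    ⟨h7, le_of_eq (rk_Inv S h1 h2 h3 hD he hJ h4 hI hhd h7)⟩, fun h => h11 (congrArg Fin.val h)⟩

theorem XS_Inv_eq (hI : C.chkInv = true) (hone : ∀ j < C.nz, (C.jwN j).length = 1 ∨ ∀ t : F, t ^ q ^ (C.jwN j).length = t)
    (K : TwAll (blkG S h1 h2 h3 hD he hJ h4 h5) (Γ0 D F C q)) {j : Fin C.nz} {u : GL D.Idx F}
    (hu : u ∈ XS D F (Inv ((GG).wj j))) (hΓ : u ∈ Γ0 D F C q) :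
    ∃ t, t ^ q ^ (C.jwN j).length = t ∧ u = BX D F q ((C.jwN j).map C.sim) t := by
  set r0 : Fin D.nroots := ⟨C.hd j, hd_lt h1 h3 j.2⟩ with hr0
  have h6 := jw_ne h3 j.2
  have hhd : r0 ∈ Inv ((GG).wj j) :=
    sim_Inv S h1 h2 h3 hD he hJ h4 h5 K (i := (C.jwN j).headD 0) (by rw [h6]; simp)
  have hcl : Closed F (Inv ((GG).wj j)) := closed_Inv _ ((GG).mono_nj j).1
  have hst : Stab (S.sys h1 h2 hD) (Inv ((GG).wj j)) := stab_Inv _ (wcomm j)
  have hup : (rkS S h1 h2 hD h4 hp0).up (Inv ((GG).wj j)) ((rkS S h1 h2 hD h4 hp0).rk r0) = Inv ((GG).wj j) := by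
    ext r
    exact ⟨fun h => h.1, fun h => ⟨h, le_of_eq (rk_Inv S h1 h2 h3 hD he hJ h4 hI hhd h)⟩⟩
  obtain ⟨t, ht⟩ := exists_co (R := rkS S h1 h2 hD h4 hp0) hcl hhd (g := u) (by rw [hup]; exact hu)
  have hfix := K.le hΓ
  have hT := co_mem_Tset hcl hst hhd hfix ht
  have ht' := Tset_hd S h1 h2 h3 hD hJ j.2 he (hone j j.2) hT
  refine ⟨t, ht', ?_⟩
  have hv := (BX_mem_Γ0 (D := D) (F := F) j.2 ht').1
  have hco := BX_co S h1 h2 h3 hD he hJ h4 h5 (j := j) hI t K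
  have h7 := co_mul hcl hhd (co_inv hcl hhd hco) ht
  rw [neg_add_cancel] at h7
  have h8 := mem_up_succ hcl hst hhd (mul_mem (inv_mem (K.le hv)) hfix) h7
  have h9 : (rkS S h1 h2 hD h4 hp0).up (Inv ((GG).wj j)) ((rkS S h1 h2 hD h4 hp0).rk r0 + 1) = ∅ := by
    ext r
    simp only [Set.mem_empty_iff_false, iff_false]
    rintro ⟨h, h'⟩
    have := rk_Inv S h1 h2 h3 hD he hJ h4 hI hhd h
    omega
  rw [h9] at h8
  have h10 : XS D F (∅ : Set (Fin D.nroots)) = ⊥ := by unfold XS; simp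
  rw [h10, Subgroup.mem_bot] at h8
  exact (inv_mul_eq_one.mp h8).symm

theorem inv_sl2 (t : F) : (E t : SL(2, F))⁻¹ = E (-t) := by
  rw [inv_eq_iff_mul_eq_one, ← isR1_SL2.X_add, add_neg_cancel, isR1_SL2.X_zero]

/-- **the rank one subgroups** -/
theorem exists_RK (hI : C.chkInv = true) (hone : ∀ j < C.nz, (C.jwN j).length = 1 ∨ ∀ t : F, t ^ q ^ (C.jwN j).length = t)
    (K : TwAll (blkG S h1 h2 h3 hD he hJ h4 h5) (Γ0 D F C q)) (τ : F →+* F) (hτ : ∀ t, τ t = t ^ q)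
    (hBH : ∀ j < C.nz, ∀ p : F, p ≠ 0 → p ^ q ^ (C.jwN j).length = p → BH D F q ((C.jwN j).map C.sim) p = 1 → p = 1)
    (j : Fin C.nz) :
    ∃ Ψ : SL(2, ↥(FF τ (C.jwN j).length)) →* ↥(Γ0 D F C q),
      RK ((XS D F (Inv ((GG).wj j))).subgroupOf (Γ0 D F C q))
        ((XS D F ((GG).wj j '' Inv ((GG).wj j))).subgroupOf (Γ0 D F C q))
        ((D.diagonalSubgroup F).subgroupOf (Γ0 D F C q)) ⟨(GG).nj j, K.n_mem j⟩ Ψ ∧
      (∀ t, (Ψ (E t) : GL D.Idx F) = BX D F q ((C.jwN j).map C.sim) t) ∧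
      (∀ t, (Ψ (E' t) : GL D.Idx F) = BX D F q (((C.jwN j).map C.sim).map D.neg) t) := by
  have hn := (Tab.c1 h1).1
  have hcl := (cJ hJ j.2).1
  obtain ⟨Φ, e1, e2⟩ := exists_PhiL G τ hτ hn _ hcl
  set k := FF τ (C.jwN j).length with hk
  have hkm : ∀ t : k, (t : F) ^ q ^ (C.jwN j).length = t := fun t => (mem_FF τ hτ _ _).1 t.2
  set Ψ0 : SL(2, k) →* GL D.Idx F := Φ.comp (Matrix.SpecialLinearGroup.map k.subtype) with hΨ0
  have f1 : ∀ t : k, Ψ0 (E t) = BX D F q ((C.jwN j).map C.sim) t := fun t => by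
    rw [hΨ0, MonoidHom.comp_apply, map_E, e1]; rfl
  have f2 : ∀ t : k, Ψ0 (E' t) = BX D F q (((C.jwN j).map C.sim).map D.neg) t := fun t => by
    rw [hΨ0, MonoidHom.comp_apply, map_E', e2]; rfl
  have hmem : ∀ a, Ψ0 a ∈ Γ0 D F C q := by
    intro a
    have ha : a ∈ Subgroup.closure (Set.range (E : k → SL(2, k)) ∪ Set.range E') := by rw [closure_SL2]; trivial
    induction ha using Subgroup.closure_induction with
    | mem x hx =>
      rcases hx with ⟨t, rfl⟩ | ⟨t, rfl⟩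
      · rw [f1]; exact (BX_mem_Γ0 j.2 (hkm t)).1
      · rw [f2]; exact (BX_mem_Γ0 j.2 (hkm t)).2
    | one => rw [map_one]; exact one_mem _
    | mul a b _ _ ha hb => rw [map_mul]; exact mul_mem ha hb
    | inv a _ ha => rw [map_inv]; exact inv_mem ha
  set Ψ : SL(2, k) →* ↥(Γ0 D F C q) := Ψ0.codRestrict _ hmem with hΨ
  have hc : ∀ a, ((Ψ a : ↥(Γ0 D F C q)) : GL D.Idx F) = Ψ0 a := fun a => rfl
  have hneg := q_neg S h1 h2 he G
  have fn : ∀ t : k, Ψ0 (nn E E' t) = BN D F q ((C.jwN j).map C.sim) t := by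
    intro t
    rw [BN_eq G hneg hn hcl]
    show Ψ0 (E t * E' (-t⁻¹) * E t) = _
    rw [map_mul, map_mul, f1, f2]
    rfl
  have fh : ∀ t : k, Ψ0 (hh E E' t) = BH D F q ((C.jwN j).map C.sim) t := by
    intro t
    rw [BH_eq G hneg (one_pow _) hn hcl]
    show Ψ0 (nn E E' t * nn E E' (-1)) = _
    rw [map_mul, fn, fn]
    rfl
  have hnj : (GG).nj j = BN D F q ((C.jwN j).map C.sim) 1 := nl_eq_BN h1 h3 j.2 q
  have fn1 : Ψ (nn E E' 1) = ⟨(GG).nj j, K.n_mem j⟩ := by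
    apply Subtype.ext
    rw [hc, fn]; exact hnj.symm
  have hXiff : ∀ x, x ∈ (XS D F (Inv ((GG).wj j))).subgroupOf (Γ0 D F C q) ↔ ∃ t, x = Ψ (E t) := by
    intro x
    rw [Subgroup.mem_subgroupOf]
    constructor
    · intro hx
      obtain ⟨t, ht, e⟩ := XS_Inv_eq S h1 h2 h3 hD he hJ h4 h5 hI hone K hx x.2
      refine ⟨⟨t, (mem_FF τ hτ _ _).2 ht⟩, Subtype.ext ?_⟩
      rw [hc, f1]; exact e
    · rintro ⟨t, rfl⟩
      rw [hc, f1]
      exact BX_Inv S h1 h2 h3 hD he hJ h4 h5 K t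
  have hHmem : ∀ p : k, p ≠ 0 → Ψ (hh E E' p) ∈ (D.diagonalSubgroup F).subgroupOf (Γ0 D F C q) := by
    intro p hp
    rw [Subgroup.mem_subgroupOf, hc, fh]
    have hp' : (p : F) ≠ 0 := by simpa using hp
    have key : ∀ (L : List ℕ) (t : F), t ≠ 0 → (∀ r ∈ L, r < D.nroots) → BH D F q L t ∈ D.diagonalSubgroup F := by
      intro L
      induction L with
      | nil => intro t _ _; exact one_mem _
      | cons r L ih =>
        intro t ht hL
        exact mul_mem (ChevH.hg_mem G (hL r (by simp)) ht) (ih _ (pow_ne_zero _ ht) (fun r hr => hL r (by simp [hr])))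
    apply key _ _ hp'
    intro r hr
    obtain ⟨i, hi, rfl⟩ := List.mem_map.mp hr
    exact (sim_lt h1 h3 j.2 hi).2.1
  have hXU : ∀ x ∈ (XS D F (Inv ((GG).wj j))).subgroupOf (Γ0 D F C q), (x : GL D.Idx F) ∈ D.posUnipotent F := by
    intro x hx
    rw [← XS_posS G]
    exact XS_mono (fun r hr => hr.1) (Subgroup.mem_subgroupOf.mp hx)
  refine ⟨Ψ, ⟨hXiff, ?_, fn1, hHmem, ?_, ?_, ?_, ?_⟩, f1, f2⟩
  · -- Y
    intro y
    have hnn : ∀ u, Ψ (E' u) = ⟨(GG).nj j, K.n_mem j⟩ * Ψ (E (-u)) * (⟨(GG).nj j, K.n_mem j⟩ : ↥(Γ0 D F C q))⁻¹ := by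
      intro u
      rw [← fn1, ← map_inv, ← map_mul, ← map_mul, isR1_SL2.n_X, _root_.neg_neg]
    constructor
    · intro hy
      have h6 := conjXS K (m := (⟨(GG).nj j, K.n_mem j⟩ : ↥(Γ0 D F C q))⁻¹) (mono_inv _ ((GG).mono_nj j))
        (A' := Inv ((GG).wj j)) (by
          rintro _ ⟨_, ⟨r, hr, rfl⟩, rfl⟩
          rw [show ((GG).wj j)⁻¹ ((GG).wj j r) = r from ((GG).wj j).symm_apply_apply r]; exact hr) hy
      obtain ⟨t, ht⟩ := (hXiff _).1 h6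
      refine ⟨-t, ?_⟩
      rw [hnn, _root_.neg_neg, ← ht]; group
    · rintro ⟨t, rfl⟩
      rw [hnn]
      exact conjXS K (m := ⟨(GG).nj j, K.n_mem j⟩) ((GG).mono_nj j) subset_rfl ((hXiff _).2 ⟨-t, rfl⟩)
  · -- hB
    intro x hx h hh x' hx' hcon
    rw [Subgroup.mem_subgroupOf] at hh hcon
    have h6 : (GG).nj j ∈ D.borelSubgroup F := by
      have e : (GG).nj j = (h : GL D.Idx F)⁻¹ * (x : GL D.Idx F)⁻¹ *
          ((x * h * ⟨(GG).nj j, K.n_mem j⟩ * x' : ↥(Γ0 D F C q)) : GL D.Idx F) * (x' : GL D.Idx F)⁻¹ := by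
        show _ = (h : GL D.Idx F)⁻¹ * (x : GL D.Idx F)⁻¹ * ((x : GL D.Idx F) * h * (GG).nj j * x') * (x' : GL D.Idx F)⁻¹
        group
      rw [e]
      exact mul_mem (mul_mem (mul_mem (inv_mem (borel_H G hh)) (inv_mem (borel_U G (hXU x hx)))) (borel_H G hcon))
        (inv_mem (borel_U G (hXU x' hx')))
    have h7 := TwGrp.borel_inf_monomial (S.sys h1 h2 hD) h6 ((GG).nj_mem_N j)
    have h8 := mono_unique (S.sys h1 h2 hD).G ((GG).mono_nj j) (mono_diag (S.sys h1 h2 hD).G h7)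
    obtain ⟨i0, hi0⟩ := exists_node K j
    have h9 := (simp_mem_Inv K hi0).2
    rw [h8] at h9
    exact h9 (pos_simpF (S.sys h1 h2 hD).G i0)
  · intro t ht
    have h6 := hXU _ ((hXiff _).2 ⟨t, rfl⟩)
    exact Subtype.ext (inf_UH G hD h6 (Subgroup.mem_subgroupOf.mp ht))
  · intro t ht
    have h6 : BX D F q ((C.jwN j).map C.sim) (t : F) = 1 := by rw [← f1, ← hc, ht]; rfl
    have hco := BX_co S h1 h2 h3 hD he hJ h4 h5 (j := j) hI (t : F) K
    rw [h6] at hco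
    have h7 := jw_ne h3 j.2
    have hhd : (⟨C.hd j, hd_lt h1 h3 j.2⟩ : Fin D.nroots) ∈ Inv ((GG).wj j) :=
      sim_Inv S h1 h2 h3 hD he hJ h4 h5 K (i := (C.jwN j).headD 0) (by rw [h7]; simp)
    have hco0 := BX_co S h1 h2 h3 hD he hJ h4 h5 (j := j) hI (0 : F) K
    have h8 : BX D F q ((C.jwN j).map C.sim) (0 : F) = 1 := by
      have : ((0 : k) : F) = 0 := rfl
      rw [← this, ← f1]
      have e0 : (E (0 : k) : SL(2, k)) = 1 := isR1_SL2.X_zero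
      rw [e0, map_one]
    rw [h8] at hco0
    have h9 := co_unique (closed_Inv _ ((GG).mono_nj j).1) hhd hco hco0
    exact Subtype.ext h9
  · intro p hp h6
    have hp' : (p : F) ≠ 0 := by simpa using hp
    have h7 : BH D F q ((C.jwN j).map C.sim) (p : F) = 1 := by rw [← fh, ← hc, h6]; rfl
    exact Subtype.ext (hBH j j.2 p hp' (hkm p) h7)

theorem gen_top (K : TwAll (blkG S h1 h2 h3 hD he hJ h4 h5) (Γ0 D F C q)) :
    ⨆ j : Fin C.nz, ((XS D F (Inv ((GG).wj j))).subgroupOf (Γ0 D F C q) ⊔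
      (XS D F ((GG).wj j '' Inv ((GG).wj j))).subgroupOf (Γ0 D F C q)) = ⊤ := by
  rw [eq_top_iff]
  have key : Γ0 D F C q ≤ (⨆ j : Fin C.nz, ((XS D F (Inv ((GG).wj j))).subgroupOf (Γ0 D F C q) ⊔
      (XS D F ((GG).wj j '' Inv ((GG).wj j))).subgroupOf (Γ0 D F C q))).map (Γ0 D F C q).subtype := by
    conv_lhs => unfold Γ0
    rw [Subgroup.closure_le]
    rintro g ⟨j, hj, t, ht, h⟩
    have hle := le_iSup (fun j : Fin C.nz => ((XS D F (Inv ((GG).wj j))).subgroupOf (Γ0 D F C q) ⊔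
      (XS D F ((GG).wj j '' Inv ((GG).wj j))).subgroupOf (Γ0 D F C q))) ⟨j, hj⟩
    rcases h with rfl | rfl
    · refine ⟨⟨_, (BX_mem_Γ0 hj ht).1⟩, hle (Subgroup.mem_sup_left ?_), rfl⟩
      rw [Subgroup.mem_subgroupOf]
      exact BX_Inv S h1 h2 h3 hD he hJ h4 h5 K (j := ⟨j, hj⟩) t
    · refine ⟨⟨_, (BX_mem_Γ0 hj ht).2⟩, hle (Subgroup.mem_sup_right ?_), rfl⟩
      rw [Subgroup.mem_subgroupOf]
      refine BX_mem_XS (A := (GG).wj ⟨j, hj⟩ '' Inv ((GG).wj ⟨j, hj⟩)) q ?_ t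
      intro r hr
      rw [List.map_map] at hr
      obtain ⟨i, hi, rfl⟩ := List.mem_map.mp hr
      have h8 := sim_lt h1 h3 hj hi
      refine ⟨neg_lt G h8.2.1, ?_⟩
      rw [image_Inv K]
      have e8 : negF G (negF G ⟨C.sim i, h8.2.1⟩) = ⟨C.sim i, h8.2.1⟩ := negF_negF G _
      show negF G (negF G ⟨C.sim i, h8.2.1⟩) ∈ Inv ((GG).wj ⟨j, hj⟩)
      rw [e8]
      exact sim_Inv S h1 h2 h3 hD he hJ h4 h5 K (j := ⟨j, hj⟩) hi
  rintro ⟨g, hg⟩ -
  obtain ⟨y, hy, e⟩ := key hg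
  have : y = ⟨g, hg⟩ := Subtype.ext e
  rw [← this]; exact hy

end fam

section fin
variable {F : Type u} [Field F] [Finite F] {G : Good D} {C : Tab} (S : SigData G C F) (h1 : C.chk1 D = true) (h2 : C.chk2 = true)
    (h3 : C.chk3 D = true) (hD : Listed D) {q : ℕ} (he : ∀ r, S.e r = q) (hJ : C.chkJ D = true)
    (h4 : C.chk4 D 0 = true) (h5 : C.chk5 = true)

local notation "GG" => gen S h1 h2 h3 hD fun j hj => (Γ0_le S h1 h2 h3 hD he hJ) (nl_mem_Γ0 S h1 h2 he hJ h3 hj)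

/-- **bound for the part of the multiplier prime to the characteristic** -/
theorem card_ker_dvd_GF
    (hI : C.chkInv = true) (hone : ∀ j < C.nz, (C.jwN j).length = 1 ∨ ∀ t : F, t ^ q ^ (C.jwN j).length = t)
    (K : TwAll (blkG S h1 h2 h3 hD he hJ h4 h5) (Γ0 D F C q)) (τ : F →+* F) (hτ : ∀ t, τ t = t ^ q)
    (hBH : ∀ j < C.nz, ∀ p : F, p ≠ 0 → p ^ q ^ (C.jwN j).length = p → BH D F q ((C.jwN j).map C.sim) p = 1 → p = 1)
    {p : ℕ} [Fact p.Prime] [CharP F p] (hp : IsPGroup p (D.posUnipotent F))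
    {Δ : Type u} [Group Δ] [Finite Δ] (σ : Δ →* ↥(Γ0 D F C q)) {r : ℕ} (hr : r.Prime) (hrp : r ≠ p)
    (hσ : IsStemExtension σ) (hk : IsPGroup r σ.ker) :
    Nat.card σ.ker * Nat.card ((D.diagonalSubgroup F).subgroupOf (Γ0 D F C q)) ∣
      ∏ j : Fin C.nz, (Nat.card ↥(FF τ (C.jwN j).length) - 1) := by
  classical
  haveI : Fact r.Prime := ⟨hr⟩
  have hRK := fun j => exists_RK S h1 h2 h3 hD he hJ h4 h5 hI hone K τ hτ hBH j
  have nL := fun j => (Classical.choose_spec (hRK j)).1.nL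
  have br := fun j => (Classical.choose_spec (hRK j)).1.br
  have hst : ∀ j, PStemDvd r ((XS D F (Inv ((GG).wj j))).subgroupOf (Γ0 D F C q) ⊔
      (XS D F ((GG).wj j '' Inv ((GG).wj j))).subgroupOf (Γ0 D F C q) : Subgroup ↥(Γ0 D F C q)) 1 := by
    intro j
    haveI := Fintype.ofFinite ↥(FF τ (C.jwN j).length)
    refine (Classical.choose_spec (hRK j)).1.pStem r ?_
    intro hdvd
    haveI : CharP ↥(FF τ (C.jwN j).length) p := inferInstance
    obtain ⟨n, -, hn⟩ := FiniteField.card ↥(FF τ (C.jwN j).length) p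
    rw [hn] at hdvd
    exact hrp ((Nat.prime_dvd_prime_iff_eq hr Fact.out).1 (hr.dvd_of_dvd_pow hdvd))
  have h6 := (ldat K hp nL br (gen_top S h1 h2 h3 hD he hJ h4 h5 K)).card_ker_dvd hr hrp hσ hk hst
  have h7 : ∀ j, Nat.card (((XS D F (Inv ((GG).wj j))).subgroupOf (Γ0 D F C q) ⊔
      (XS D F ((GG).wj j '' Inv ((GG).wj j))).subgroupOf (Γ0 D F C q)) ⊓
      (D.diagonalSubgroup F).subgroupOf (Γ0 D F C q) : Subgroup ↥(Γ0 D F C q)) = Nat.card ↥(FF τ (C.jwN j).length) - 1 := by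
    intro j
    haveI := Fintype.ofFinite ↥(FF τ (C.jwN j).length)
    rw [(Classical.choose_spec (hRK j)).1.card_H, Nat.card_eq_fintype_card]
  rw [← Finset.prod_congr rfl (fun j _ => h7 j)]
  exact h6

end fin

end Cfsg.Agent.Lib.TwTab
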