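import Cfsg.Agent.Lib.H26F4A
import Cfsg.Agent.Lib.H26TwBr
import Cfsg.Agent.Lib.H26TwGF
import Cfsg.Agent.Lib.TwF4End
import Cfsg.Agent.Lib.H26TwB

/-! The part of the multiplier of `²F₄(q)` prime to the characteristic (helper26). -/

set_option autoImplicit false
set_option linter.unusedSectionVars false
set_option linter.unusedVariables false
set_option maxHeartbeats 1000000

universe u

namespace Cfsg.Agent.Lib.TwF4
open Cfsg.Lie Cfsg.Agent.Lib.ChevX Cfsg.Agent.Lib.ChevGood Cfsg.Agent.Lib.ChevRel Cfsg.Agent.Lib.ChevNPerm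
  Cfsg.Agent.Lib.ChevClosed Cfsg.Agent.Lib.ChevBruhat Cfsg.Agent.Lib.TwFix Cfsg.Agent.Lib.TwFix.TwRk
  Cfsg.Agent.Lib.TwTab Cfsg.Agent.Lib.TwField Cfsg.Agent.Lib.TwSpec Cfsg.Agent.Lib.TwModp
  Cfsg.Agent.Lib.H26TwL Cfsg.Agent.Lib.H26LiftA Cfsg.Agent.Lib.SchurSylow Cfsg.Agent.Lib.H26F4
  Cfsg.Agent.Lib.H26RkOne Cfsg.Agent.Lib.H26TwB
open Cfsg.Agent.Lib.SL2Pres
open scoped MatrixGroups Matrix commutatorElement

variable {K : Type u} [Field K] [Fintype K] {m : ℕ} (hK : Fintype.card K = 2 ^ (2 * m + 1))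

/-- the blocks of the Weyl group -/
noncomputable abbrev WF : TwGen (T hK) tabF4.nz :=
  gen (sig hK) chk1F4 chk2F4 chk3F4 listed fun j hj => (le_fix hK) (n_mem' hK j hj)

noncomputable abbrev XX (j : Fin tabF4.nz) : Subgroup ↥(twistedF4 K (2 ^ m)) :=
  (XS chevF4 K (Inv ((WF hK).wj j))).subgroupOf (twistedF4 K (2 ^ m))
noncomputable abbrev YY (j : Fin tabF4.nz) : Subgroup ↥(twistedF4 K (2 ^ m)) :=
  (XS chevF4 K ((WF hK).wj j '' Inv ((WF hK).wj j))).subgroupOf (twistedF4 K (2 ^ m))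

def j0 : Fin tabF4.nz := ⟨0, by decide⟩
def j1 : Fin tabF4.nz := ⟨1, by decide⟩

theorem wj_val (j : Fin tabF4.nz) (s : Fin chevF4.nroots) :
    (((WF hK).wj j s : Fin chevF4.nroots) : ℕ) = tabF4.wlN (tabF4.jwN j) s :=
  wlj_eq (G := G) chk1F4 chk3F4 j.2 s

theorem mem_Inv' {j : Fin tabF4.nz} {r : Fin chevF4.nroots} :
    r ∈ Inv ((WF hK).wj j) ↔ 24 ≤ (r : ℕ) ∧ tabF4.wlN (tabF4.jwN j) r < 24 := by
  have h1 : r ∈ Inv ((WF hK).wj j) ↔ Pos chevF4 r ∧ ¬ Pos chevF4 ((WF hK).wj j r) := Iff.rfl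
  rw [h1]
  unfold Pos
  rw [wj_val hK]
  show 24 ≤ (r : ℕ) ∧ ¬ (24 ≤ _) ↔ _
  rw [not_le]

theorem mem_imInv {j : Fin tabF4.nz} {r : Fin chevF4.nroots} :
    r ∈ (WF hK).wj j '' Inv ((WF hK).wj j) ↔ 24 ≤ chevF4.neg r ∧ tabF4.wlN (tabF4.jwN j) (chevF4.neg r) < 24 := by
  rw [image_Inv (all hK)]
  exact mem_Inv' hK

theorem xX {j : Fin tabF4.nz} {r : ℕ} (hr : r < 48) (h : 24 ≤ r ∧ tabF4.wlN (tabF4.jwN j) r < 24) (t : K) :
    xg chevF4 K r t ∈ XS chevF4 K (Inv ((WF hK).wj j)) :=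
  xg_mem_XS (r := ⟨r, hr⟩) ((mem_Inv' hK).2 h) t

theorem xY {j : Fin tabF4.nz} {r : ℕ} (hr : r < 48)
    (h : 24 ≤ chevF4.neg r ∧ tabF4.wlN (tabF4.jwN j) (chevF4.neg r) < 24) (t : K) :
    xg chevF4 K r t ∈ XS chevF4 K ((WF hK).wj j '' Inv ((WF hK).wj j)) :=
  xg_mem_XS (r := ⟨r, hr⟩) ((mem_imInv hK).2 h) t

theorem PP_X (t : K) : PP (2 ^ m) t ∈ XS chevF4 K (Inv ((WF hK).wj j0)) := by
  rw [PP_eq]
  exact mul_mem (xX hK (by norm_num) (by decide +kernel) _) (xX hK (by norm_num) (by decide +kernel) _)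

theorem PM_Y (t : K) : PM (2 ^ m) t ∈ XS chevF4 K ((WF hK).wj j0 '' Inv ((WF hK).wj j0)) := by
  rw [PM_eq]
  exact mul_mem (xY hK (by norm_num) (by decide +kernel) _) (xY hK (by norm_num) (by decide +kernel) _)

theorem BP_X (t u : K) : BP (2 ^ m) t u ∈ XS chevF4 K (Inv ((WF hK).wj j1)) := by
  rw [BP_eq]
  exact mul_mem (mul_mem (xX hK (by norm_num) (by decide +kernel) _) (xX hK (by norm_num) (by decide +kernel) _))
    (mul_mem (xX hK (by norm_num) (by decide +kernel) _) (xX hK (by norm_num) (by decide +kernel) _))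

theorem BM_Y (t u : K) : BM (2 ^ m) t u ∈ XS chevF4 K ((WF hK).wj j1 '' Inv ((WF hK).wj j1)) := by
  rw [BM_eq]
  exact mul_mem (mul_mem (xY hK (by norm_num) (by decide +kernel) _) (xY hK (by norm_num) (by decide +kernel) _))
    (mul_mem (xY hK (by norm_num) (by decide +kernel) _) (xY hK (by norm_num) (by decide +kernel) _))

theorem card_XX (j : Fin tabF4.nz) {e : ℕ} (he : (wtabF4.bs.map fun b => if h : b < chevF4.nroots then
      (if tabF4.pos (tabF4.wlN (tabF4.jwN j) b) then 0 else wtabF4.erN b) else 0).sum = e) :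
    Nat.card ↥(XS chevF4 K (Inv ((WF hK).wj j)) ⊓ twistedF4 K (2 ^ m)) = (2 ^ (2 * m + 1)) ^ e := by
  rw [card_Inv_tab (sig hK) chk1F4 chk2F4 chk3F4 listed chk4F4 chk5F4 (hp2 hK) (le_fix hK) (n_mem' hK) (all hK) chk7F4
    bsF4 (card_T hK) (n := (WF hK).nj j) ⟨(WF hK).nj_mem_N j, (all hK).n_mem j⟩ ((WF hK).mono_nj j)]
  congr 1
  rw [← he]
  unfold exw
  congr 1
  apply List.map_congr_left
  intro b hb
  by_cases h : b < chevF4.nroots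
  · rw [dif_pos h, dif_pos h, wj_val hK]
  · rw [dif_neg h, dif_neg h]

include hK in
theorem PP_inj {t t' : K} (h : PP (2 ^ m) t = PP (2 ^ m) t') : t = t' := by
  have hr : Pos chevF4 (⟨24, by decide⟩ : Fin chevF4.nroots) := by show 24 ≤ 24; norm_num
  have key : ∀ t : K, Cr (rkS (sig hK) chk1F4 chk2F4 listed chk4F4 (hp2 hK)) ⟨24, by decide⟩ t (PP (2 ^ m) t) := by
    intro t
    unfold Cr Co
    rw [PP_eq, (cm_33_24 (t ^ 2 ^ m) t).eq]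
    show (xg chevF4 K 24 t)⁻¹ * (xg chevF4 K 24 t * xg chevF4 K 33 (t ^ 2 ^ m)) ∈ _
    rw [inv_mul_cancel_left]
    refine xg_mem_XS (r := ⟨33, by decide⟩) ?_ _
    refine ⟨⟨?_, ?_⟩, ?_⟩
    · show 24 ≤ 33; norm_num
    · show tabF4.rkN 24 ≤ tabF4.rkN 33
      decide +kernel
    · simp
  exact cr_unique hr (key t) (h ▸ key t')

include hK in
theorem BP_inj (hm : 1 ≤ m) {t u t' u' : K} (h : BP (2 ^ m) t u = BP (2 ^ m) t' u') : t = t' ∧ u = u' := by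
  haveI := char2 hK
  rw [← ψF_BP, ← ψF_BP] at h
  have h1 := ψF_inj hK hm h
  have h2 := congrArg φ4 h1
  rw [φ4_BP hK, φ4_BP hK] at h2
  have h3 := congrArg Units.val h2
  rw [SzLie.UG_val, SzLie.UG_val] at h3
  have e1 := congrFun (congrFun h3 0) 1
  have e2 := congrFun (congrFun h3 0) 2
  simp only [SzLie.Um] at e1 e2
  have e1' : t ^ 2 ^ m = t' ^ 2 ^ m := by simpa using e1
  have e2' : u = u' := by simpa using e2
  refine ⟨?_, e2'⟩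
  rw [← tht_e hK t, ← tht_e hK t', e1']

theorem memX0 {x : GL chevF4.Idx K} (hx : x ∈ XS chevF4 K (Inv ((WF hK).wj j0))) (hΓ : x ∈ twistedF4 K (2 ^ m)) :
    ∃ t, x = PP (2 ^ m) t := by
  have hc := card_XX hK j0 (e := 1) (by decide +kernel)
  let f : K → ↥(XS chevF4 K (Inv ((WF hK).wj j0)) ⊓ twistedF4 K (2 ^ m)) := fun t => ⟨PP (2 ^ m) t, PP_X hK t, mem_PP _ t⟩
  have hf : Function.Injective f := fun t t' h => PP_inj hK (congrArg Subtype.val h)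
  haveI : Finite ↥(XS chevF4 K (Inv ((WF hK).wj j0)) ⊓ twistedF4 K (2 ^ m)) := inferInstance
  have hb : Function.Bijective f := by
    rw [Nat.bijective_iff_injective_and_card]
    exact ⟨hf, by rw [Nat.card_eq_fintype_card, hK, hc, pow_one]⟩
  obtain ⟨t, ht⟩ := hb.2 ⟨x, hx, hΓ⟩
  exact ⟨t, (congrArg Subtype.val ht).symm⟩

theorem memX1 (hm : 1 ≤ m) {x : GL chevF4.Idx K} (hx : x ∈ XS chevF4 K (Inv ((WF hK).wj j1)))
    (hΓ : x ∈ twistedF4 K (2 ^ m)) : ∃ t u, x = BP (2 ^ m) t u := by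
  have hc := card_XX hK j1 (e := 2) (by decide +kernel)
  let f : K × K → ↥(XS chevF4 K (Inv ((WF hK).wj j1)) ⊓ twistedF4 K (2 ^ m)) :=
    fun p => ⟨BP (2 ^ m) p.1 p.2, BP_X hK p.1 p.2, mem_BP _ p.1 p.2⟩
  have hf : Function.Injective f := fun p p' h => Prod.ext_iff.2 (BP_inj hK hm (congrArg Subtype.val h))
  haveI : Finite ↥(XS chevF4 K (Inv ((WF hK).wj j1)) ⊓ twistedF4 K (2 ^ m)) := inferInstance
  have hb : Function.Bijective f := by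
    rw [Nat.bijective_iff_injective_and_card]
    exact ⟨hf, by rw [Nat.card_prod, Nat.card_eq_fintype_card, hK, hc, sq]⟩
  obtain ⟨p, hp⟩ := hb.2 ⟨x, hx, hΓ⟩
  exact ⟨p.1, p.2, (congrArg Subtype.val hp).symm⟩

include hK in
theorem n0_eq : nl chevF4 K (jwF chk1F4 0) = PP (2 ^ m) (1 : K) * (PM (2 ^ m) 1 * PP (2 ^ m) 1) := by
  have := char2 hK
  rw [TwG2.nl_nlW, nlW0, wg_eq_of_chk G chkN0, List.map_append, List.map_append, wg_append, wg_append,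
    ← PP_one (2 ^ m), ← PM_one (2 ^ m)]

theorem njv0 : (WF hK).nj j0 = PP (2 ^ m) (1 : K) * (PM (2 ^ m) 1 * PP (2 ^ m) 1) := n0_eq hK
theorem njv1 : (WF hK).nj j1 = BP (2 ^ m) (0 : K) 1 * (BM (2 ^ m) (0 : K) 1 * (BP (2 ^ m) (0 : K) 1 *
    (BM (2 ^ m) (0 : K) 1 * BP (2 ^ m) (0 : K) 1))) := n1_eq hK

/-- generation -/
theorem gen_top' : ⨆ j : Fin tabF4.nz, (XX hK j ⊔ YY hK j) = ⊤ := by
  rw [eq_top_iff]
  have key : twistedF4 K (2 ^ m) ≤ (⨆ j : Fin tabF4.nz, (XX hK j ⊔ YY hK j)).map (twistedF4 K (2 ^ m)).subtype := by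
    conv_lhs => unfold twistedF4 ChevalleyDatum.genSubgroup
    rw [Subgroup.closure_le]
    have hle := fun j => le_iSup (fun j : Fin tabF4.nz => (XX hK j ⊔ YY hK j)) j
    rintro g ⟨w, hw, hg⟩
    rw [eq_wg G hg]
    rcases hw with ⟨t, rfl | rfl⟩ | ⟨t, u, rfl | rfl⟩
    · exact ⟨⟨PP (2 ^ m) t, mem_PP _ t⟩, hle j0 (Subgroup.mem_sup_left (Subgroup.mem_subgroupOf.mpr (PP_X hK t))), rfl⟩
    · exact ⟨⟨PM (2 ^ m) t, mem_PM _ t⟩, hle j0 (Subgroup.mem_sup_right (Subgroup.mem_subgroupOf.mpr (PM_Y hK t))), rfl⟩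
    · exact ⟨⟨BP (2 ^ m) t u, mem_BP _ t u⟩, hle j1 (Subgroup.mem_sup_left (Subgroup.mem_subgroupOf.mpr (BP_X hK t u))), rfl⟩
    · exact ⟨⟨BM (2 ^ m) t u, mem_BM _ t u⟩, hle j1 (Subgroup.mem_sup_right (Subgroup.mem_subgroupOf.mpr (BM_Y hK t u))), rfl⟩
  rintro ⟨g, hg⟩ -
  obtain ⟨y, hy, e⟩ := key hg
  have : y = ⟨g, hg⟩ := Subtype.ext e
  rw [← this]; exact hy

theorem nL (j : Fin tabF4.nz) : (⟨(WF hK).nj j, (all hK).n_mem j⟩ : ↥(twistedF4 K (2 ^ m))) ∈ XX hK j ⊔ YY hK j := by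
  have hj : j = j0 ∨ j = j1 := by
    have : ∀ j : Fin tabF4.nz, j = j0 ∨ j = j1 := by decide
    exact this j
  rcases hj with rfl | rfl
  · have e : (⟨(WF hK).nj j0, (all hK).n_mem j0⟩ : ↥(twistedF4 K (2 ^ m))) = ⟨PP (2 ^ m) 1, mem_PP _ 1⟩ *
        (⟨PM (2 ^ m) 1, mem_PM _ 1⟩ * ⟨PP (2 ^ m) 1, mem_PP _ 1⟩) := Subtype.ext (njv0 hK)
    rw [e]
    exact mul_mem (Subgroup.mem_sup_left (Subgroup.mem_subgroupOf.mpr (PP_X hK 1)))
      (mul_mem (Subgroup.mem_sup_right (Subgroup.mem_subgroupOf.mpr (PM_Y hK 1)))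
        (Subgroup.mem_sup_left (Subgroup.mem_subgroupOf.mpr (PP_X hK 1))))
  · have e : (⟨(WF hK).nj j1, (all hK).n_mem j1⟩ : ↥(twistedF4 K (2 ^ m))) = ⟨BP (2 ^ m) 0 1, mem_BP _ 0 1⟩ *
        (⟨BM (2 ^ m) 0 1, mem_BM _ 0 1⟩ * (⟨BP (2 ^ m) 0 1, mem_BP _ 0 1⟩ * (⟨BM (2 ^ m) 0 1, mem_BM _ 0 1⟩ *
          ⟨BP (2 ^ m) 0 1, mem_BP _ 0 1⟩))) := Subtype.ext (njv1 hK)
    rw [e]
    have hP : (⟨BP (2 ^ m) 0 1, mem_BP _ 0 1⟩ : ↥(twistedF4 K (2 ^ m))) ∈ XX hK j1 ⊔ YY hK j1 :=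
      Subgroup.mem_sup_left (Subgroup.mem_subgroupOf.mpr (BP_X hK 0 1))
    have hM : (⟨BM (2 ^ m) 0 1, mem_BM _ 0 1⟩ : ↥(twistedF4 K (2 ^ m))) ∈ XX hK j1 ⊔ YY hK j1 :=
      Subgroup.mem_sup_right (Subgroup.mem_subgroupOf.mpr (BM_Y hK 0 1))
    exact mul_mem hP (mul_mem hM (mul_mem hP (mul_mem hM hP)))

/-- the Suzuki block -/
theorem XY1_le (hm : 1 ≤ m) : (XX hK j1 ⊔ YY hK j1).map (twistedF4 K (2 ^ m)).subtype ≤ (Lst K m).map ψF := by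
  have hBP : ∀ t u : K, BP (2 ^ m) t u ∈ (Lst K m).map ψF := fun t u =>
    ⟨sBP (2 ^ m) t u, Subgroup.subset_closure ⟨t, u, Or.inl rfl⟩, ψF_BP _ _ _⟩
  have hBM : ∀ t u : K, BM (2 ^ m) t u ∈ (Lst K m).map ψF := fun t u =>
    ⟨sBM (2 ^ m) t u, Subgroup.subset_closure ⟨t, u, Or.inr rfl⟩, ψF_BM _ _ _⟩
  have hn : (WF hK).nj j1 ∈ (Lst K m).map ψF := by
    rw [njv1]
    exact mul_mem (hBP _ _) (mul_mem (hBM _ _) (mul_mem (hBP _ _) (mul_mem (hBM _ _) (hBP _ _))))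
  have hX : ∀ x : ↥(twistedF4 K (2 ^ m)), x ∈ XX hK j1 → (x : GL chevF4.Idx K) ∈ (Lst K m).map ψF := by
    intro x hx
    obtain ⟨t, u, e⟩ := memX1 hK hm (Subgroup.mem_subgroupOf.mp hx) x.2
    rw [e]; exact hBP t u
  rw [Subgroup.map_le_iff_le_comap]
  refine sup_le ?_ ?_
  · intro x hx
    exact hX x hx
  · intro y hy
    have h6 := conjXS (all hK) (m := (⟨(WF hK).nj j1, (all hK).n_mem j1⟩ : ↥(twistedF4 K (2 ^ m)))⁻¹)
      (mono_inv _ ((WF hK).mono_nj j1)) (A' := Inv ((WF hK).wj j1)) (by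
        rintro _ ⟨_, ⟨r, hr, rfl⟩, rfl⟩
        rw [show ((WF hK).wj j1)⁻¹ ((WF hK).wj j1 r) = r from ((WF hK).wj j1).symm_apply_apply r]; exact hr) hy
    have h7 := hX _ h6
    show (y : GL chevF4.Idx K) ∈ (Lst K m).map ψF
    have e : (y : GL chevF4.Idx K) = (WF hK).nj j1 * (((⟨(WF hK).nj j1, (all hK).n_mem j1⟩ : ↥(twistedF4 K (2 ^ m)))⁻¹ * y *
        (⟨(WF hK).nj j1, (all hK).n_mem j1⟩ : ↥(twistedF4 K (2 ^ m)))⁻¹⁻¹ : ↥(twistedF4 K (2 ^ m))) : GL chevF4.Idx K) *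
        ((WF hK).nj j1)⁻¹ := by
      simp only [Subgroup.coe_mul, Subgroup.coe_inv]
      group
    rw [e]
    exact mul_mem (mul_mem hn h7) (inv_mem hn)

include hK in
theorem cyc1 (hm : 1 ≤ m) {r : ℕ} [Fact r.Prime] (h2 : r ≠ 2) (P : Subgroup ↥(XX hK j1 ⊔ YY hK j1)) (hP : IsPGroup r P) :
    IsCyclic P := by
  haveI := char2 hK
  let f : ↥(XX hK j1 ⊔ YY hK j1) →* ↥((Lst K m).map ψF) :=
    (((twistedF4 K (2 ^ m)).subtype).comp (XX hK j1 ⊔ YY hK j1).subtype).codRestrict _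
      (fun x => XY1_le hK hm ⟨x, x.2, rfl⟩)
  have hf : Function.Injective f := by
    intro x y h
    have h' := congrArg (fun z : ↥((Lst K m).map ψF) => (z : GL chevF4.Idx K)) h
    exact Subtype.ext (Subtype.ext h')
  exact cyc_of_inj f hf (fun P hP => cyc_Lst hK hm h2 P hP) P hP

include hK in
/-- torus elements have order dividing `q - 1` -/
theorem diag_pow {h : GL chevF4.Idx K} (hh : h ∈ chevF4.diagonalSubgroup K) : h ^ (2 ^ (2 * m + 1) - 1) = 1 := by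
  obtain ⟨χ, h0, h1, -⟩ := TwAll.diag_char (T hK) hh
  apply Units.ext
  rw [Units.val_pow_eq_pow_val, h1, Matrix.diagonal_pow, Units.val_one, ← Matrix.diagonal_one]
  congr 1
  funext i
  have hc : ∀ x : K, x ≠ 0 → x ^ (2 ^ (2 * m + 1) - 1) = 1 := by
    intro x hx
    rw [← hK]; exact FiniteField.pow_card_sub_one_eq_one x hx
  cases i with
  | inl i => show (1 : K) ^ _ = 1; exact one_pow _
  | inr i => exact hc _ (h0 i)

theorem card1 (hm : 1 ≤ m) : Nat.card ((XX hK j1 ⊔ YY hK j1) ⊓ (chevF4.diagonalSubgroup K).subgroupOf (twistedF4 K (2 ^ m)) :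
    Subgroup ↥(twistedF4 K (2 ^ m))) ∣ 2 ^ (2 * m + 1) - 1 := by
  have hp : ∀ a : ((XX hK j1 ⊔ YY hK j1) ⊓ (chevF4.diagonalSubgroup K).subgroupOf (twistedF4 K (2 ^ m)) :
      Subgroup ↥(twistedF4 K (2 ^ m))), a ^ (2 ^ (2 * m + 1) - 1) = 1 := by
    intro a
    apply Subtype.ext
    apply Subtype.ext
    have := diag_pow hK (Subgroup.mem_subgroupOf.mp a.2.2)
    simpa using this
  refine card_dvd_of_cyc hp ?_
  intro r hr hrd P hP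
  haveI : Fact r.Prime := ⟨hr⟩
  have h2 : r ≠ 2 := by
    rintro rfl
    obtain ⟨g, hg⟩ := exists_prime_orderOf_dvd_card' (G := ((XX hK j1 ⊔ YY hK j1) ⊓
      (chevF4.diagonalSubgroup K).subgroupOf (twistedF4 K (2 ^ m)) : Subgroup ↥(twistedF4 K (2 ^ m)))) 2 hrd
    have h3 := orderOf_dvd_of_pow_eq_one (hp g)
    rw [hg] at h3
    have h4 : 2 ∣ 2 ^ (2 * m + 1) := dvd_pow_self 2 (by omega)
    have h5 : 1 ≤ 2 ^ (2 * m + 1) := Nat.one_le_two_pow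
    omega
  refine cyc_of_inj (Subgroup.inclusion (inf_le_left : ((XX hK j1 ⊔ YY hK j1) ⊓
    (chevF4.diagonalSubgroup K).subgroupOf (twistedF4 K (2 ^ m)) : Subgroup ↥(twistedF4 K (2 ^ m))) ≤ _))
    (Subgroup.inclusion_injective _) (fun P hP => cyc1 hK hm h2 P hP) P hP

end Cfsg.Agent.Lib.TwF4
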