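import Cfsg.Agent.Lib.H26F4B
import Cfsg.Agent.Lib.ChevBlocks

/-! The part of the multiplier of `²F₄(q)` prime to the characteristic, end (helper26). -/

set_option autoImplicit false
set_option linter.unusedSectionVars false
set_option linter.unusedVariables false
set_option maxHeartbeats 1000000

universe u

namespace Cfsg.Agent.Lib.TwF4
open Cfsg.Lie Cfsg.Agent.Lib.ChevX Cfsg.Agent.Lib.ChevGood Cfsg.Agent.Lib.ChevRel Cfsg.Agent.Lib.ChevNPerm
  Cfsg.Agent.Lib.ChevClosed Cfsg.Agent.Lib.ChevBruhat Cfsg.Agent.Lib.TwFix Cfsg.Agent.Lib.TwFix.TwRk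
  Cfsg.Agent.Lib.TwTab Cfsg.Agent.Lib.TwField Cfsg.Agent.Lib.TwSpec Cfsg.Agent.Lib.TwModp
  Cfsg.Agent.Lib.H26TwL Cfsg.Agent.Lib.H26LiftA Cfsg.Agent.Lib.SchurSylow Cfsg.Agent.Lib.H26F4
  Cfsg.Agent.Lib.H26RkOne Cfsg.Agent.Lib.H26TwB
open Cfsg.Agent.Lib.SL2Pres
open scoped MatrixGroups Matrix commutatorElement

variable {K : Type u} [Field K] [Fintype K] {m : ℕ} (hK : Fintype.card K = 2 ^ (2 * m + 1))

theorem exists_RK0 : ∃ Ψ : SL(2, K) →* ↥(twistedF4 K (2 ^ m)),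
    RK (XX hK j0) (YY hK j0) ((chevF4.diagonalSubgroup K).subgroupOf (twistedF4 K (2 ^ m)))
      ⟨(WF hK).nj j0, (all hK).n_mem j0⟩ Ψ := by
  have hneg := neg_eq hK
  obtain ⟨Φ, e1, e2⟩ := exists_PhiL G ((fr hK : K ≃+* K) : K →+* K) (q := 2 ^ m) (fun t => fr_eq hK t) (n := 48) rfl
    [24, 33] (by decide +kernel)
  have n24 : chevF4.neg 24 = 23 := by decide +kernel
  have n33 : chevF4.neg 33 = 14 := by decide +kernel
  have f1 : ∀ t : K, Φ (E t) = PP (2 ^ m) t := by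
    intro t
    rw [e1, PP_eq, (cm_33_24 (t ^ 2 ^ m) t).eq]
    show xg chevF4 K 24 t * (xg chevF4 K 33 (t ^ 2 ^ m) * 1) = _
    rw [mul_one]
  have f2 : ∀ t : K, Φ (E' t) = PM (2 ^ m) t := by
    intro t
    rw [e2, PM_eq, (cm_14_23 (t ^ 2 ^ m) t).eq]
    show xg chevF4 K (chevF4.neg 24) t * (xg chevF4 K (chevF4.neg 33) (t ^ 2 ^ m) * 1) = _
    rw [mul_one, n24, n33]
  have hmem : ∀ a, Φ a ∈ twistedF4 K (2 ^ m) := by
    intro a
    have ha : a ∈ Subgroup.closure (Set.range (E : K → SL(2, K)) ∪ Set.range E') := by rw [closure_SL2]; trivial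
    induction ha using Subgroup.closure_induction with
    | mem x hx =>
      rcases hx with ⟨t, rfl⟩ | ⟨t, rfl⟩
      · rw [f1]; exact mem_PP _ _
      · rw [f2]; exact mem_PM _ _
    | one => rw [map_one]; exact one_mem _
    | mul a b _ _ ha hb => rw [map_mul]; exact mul_mem ha hb
    | inv a _ ha => rw [map_inv]; exact inv_mem ha
  set Ψ : SL(2, K) →* ↥(twistedF4 K (2 ^ m)) := Φ.codRestrict _ hmem with hΨ
  have hc : ∀ a, ((Ψ a : ↥(twistedF4 K (2 ^ m))) : GL chevF4.Idx K) = Φ a := fun a => rfl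
  have fn : ∀ t : K, Φ (nn E E' t) = PP (2 ^ m) t * PM (2 ^ m) t⁻¹ * PP (2 ^ m) t := by
    intro t
    show Φ (E t * E' (-t⁻¹) * E t) = _
    rw [map_mul, map_mul, f1, f2, hneg]
  have fh : ∀ t : K, t ≠ 0 → Φ (hh E E' t) = tP (2 ^ m) t := by
    intro t ht
    show Φ (nn E E' t * nn E E' (-1)) = _
    rw [map_mul, fn, fn, hneg 1, tP_eq hK ht]
  have fn1 : Ψ (nn E E' 1) = ⟨(WF hK).nj j0, (all hK).n_mem j0⟩ := by
    apply Subtype.ext
    rw [hc, fn, inv_one, mul_assoc]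
    exact (njv0 hK).symm
  have hXiff : ∀ x, x ∈ XX hK j0 ↔ ∃ t, x = Ψ (E t) := by
    intro x
    rw [Subgroup.mem_subgroupOf]
    constructor
    · intro hx
      obtain ⟨t, e⟩ := memX0 hK hx x.2
      refine ⟨t, Subtype.ext ?_⟩
      rw [hc, f1]; exact e
    · rintro ⟨t, rfl⟩
      rw [hc, f1]
      exact PP_X hK t
  have hXU : ∀ x ∈ XX hK j0, (x : GL chevF4.Idx K) ∈ chevF4.posUnipotent K := by
    intro x hx
    rw [← XS_posS G]
    exact XS_mono (fun r hr => hr.1) (Subgroup.mem_subgroupOf.mp hx)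
  refine ⟨Ψ, ⟨hXiff, ?_, fn1, ?_, ?_, ?_, ?_, ?_⟩⟩
  · -- Y
    intro y
    have hnn : ∀ u, Ψ (E' u) = ⟨(WF hK).nj j0, (all hK).n_mem j0⟩ * Ψ (E (-u)) *
        (⟨(WF hK).nj j0, (all hK).n_mem j0⟩ : ↥(twistedF4 K (2 ^ m)))⁻¹ := by
      intro u
      rw [← fn1, ← map_inv, ← map_mul, ← map_mul, isR1_SL2.n_X, _root_.neg_neg]
    constructor
    · intro hy
      have h6 := conjXS (all hK) (m := (⟨(WF hK).nj j0, (all hK).n_mem j0⟩ : ↥(twistedF4 K (2 ^ m)))⁻¹)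
        (mono_inv _ ((WF hK).mono_nj j0)) (A' := Inv ((WF hK).wj j0)) (by
          rintro _ ⟨_, ⟨r, hr, rfl⟩, rfl⟩
          rw [show ((WF hK).wj j0)⁻¹ ((WF hK).wj j0 r) = r from ((WF hK).wj j0).symm_apply_apply r]; exact hr) hy
      obtain ⟨t, ht⟩ := (hXiff _).1 h6
      refine ⟨-t, ?_⟩
      rw [hnn, _root_.neg_neg, ← ht]; group
    · rintro ⟨t, rfl⟩
      rw [hnn]
      exact conjXS (all hK) (m := ⟨(WF hK).nj j0, (all hK).n_mem j0⟩) ((WF hK).mono_nj j0) subset_rfl ((hXiff _).2 ⟨-t, rfl⟩)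
  · intro p hp
    rw [Subgroup.mem_subgroupOf, hc, fh p hp]
    exact (tP_memH hK hp).1
  · -- hB
    intro x hx h hh x' hx' hcon
    rw [Subgroup.mem_subgroupOf] at hh hcon
    have h6 : (WF hK).nj j0 ∈ chevF4.borelSubgroup K := by
      have e : (WF hK).nj j0 = (h : GL chevF4.Idx K)⁻¹ * (x : GL chevF4.Idx K)⁻¹ *
          ((x * h * ⟨(WF hK).nj j0, (all hK).n_mem j0⟩ * x' : ↥(twistedF4 K (2 ^ m))) : GL chevF4.Idx K) *
          (x' : GL chevF4.Idx K)⁻¹ := by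
        show _ = (h : GL chevF4.Idx K)⁻¹ * (x : GL chevF4.Idx K)⁻¹ *
          ((x : GL chevF4.Idx K) * h * (WF hK).nj j0 * x') * (x' : GL chevF4.Idx K)⁻¹
        group
      rw [e]
      exact mul_mem (mul_mem (mul_mem (inv_mem (borel_H G hh)) (inv_mem (borel_U G (hXU x hx)))) (borel_H G hcon))
        (inv_mem (borel_U G (hXU x' hx')))
    have h7 := TwGrp.borel_inf_monomial (T hK) h6 ((WF hK).nj_mem_N j0)
    have h8 := mono_unique (T hK).G ((WF hK).mono_nj j0) (mono_diag (T hK).G h7)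
    obtain ⟨i0, hi0⟩ := exists_node (all hK) j0
    have h9 := (simp_mem_Inv (all hK) hi0).2
    rw [h8] at h9
    exact h9 (pos_simpF (T hK).G i0)
  · intro t ht
    have h6 := hXU _ ((hXiff _).2 ⟨t, rfl⟩)
    exact Subtype.ext (inf_UH G listed h6 (Subgroup.mem_subgroupOf.mp ht))
  · intro t ht
    have h6 : PP (2 ^ m) t = 1 := by rw [← f1, ← hc, ht]; rfl
    have h7 : PP (2 ^ m) (0 : K) = 1 := by
      rw [PP_eq, zero_pow (by positivity), xg_zero G, xg_zero G, mul_one]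
    exact PP_inj hK (h6.trans h7.symm)
  · intro p hp h6
    have h7 : tP (2 ^ m) p = 1 := by rw [← fh p hp, ← hc, h6]; rfl
    have h8 : tP (2 ^ m) (1 : K) = 1 := by
      rw [← fh 1 one_ne_zero]
      have : hh E E' (1 : K) = (1 : SL(2, K)) := by
        apply Subtype.ext
        rw [coe_hh one_ne_zero]
        ext i j; fin_cases i <;> fin_cases j <;> simp
      rw [this, map_one]
    have h9 := (tF_bij hK).1 (a₁ := (Units.mk0 p hp, 1)) (a₂ := (1, 1)) (Subtype.ext (by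
      show tP (2 ^ m) p * tB (2 ^ m) ((1 : Kˣ) : K) = tP (2 ^ m) ((1 : Kˣ) : K) * tB (2 ^ m) ((1 : Kˣ) : K)
      rw [h7, Units.val_one, h8]))
    have h10 := congrArg (fun x : Kˣ × Kˣ => (x.1 : K)) h9
    exact h10

include hK in
theorem pU : IsPGroup 2 (chevF4.posUnipotent K) := by
  haveI := char2 hK
  haveI : Fact (Nat.Prime 2) := ⟨Nat.prime_two⟩
  exact ChevBlocks.isPGroup_posUnipotent 2 G

include hK in
/-- **the part of the multiplier prime to the characteristic** -/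
theorem pStemDvd_prime_to (hm : 1 ≤ m) {r : ℕ} (hr : r.Prime) (hr2 : r ≠ 2) :
    PStemDvd r ↥(twistedF4 K (2 ^ m)) 1 := by
  classical
  haveI : Fact r.Prime := ⟨hr⟩
  intro Δ _ _ σ hσ hk
  obtain ⟨Ψ, hΨ⟩ := exists_RK0 hK
  have hj : ∀ j : Fin tabF4.nz, j = j0 ∨ j = j1 := by decide
  have hst : ∀ j, PStemDvd r (XX hK j ⊔ YY hK j : Subgroup ↥(twistedF4 K (2 ^ m))) 1 := by
    intro j
    rcases hj j with rfl | rfl
    · refine hΨ.pStem r ?_
      rw [hK]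
      intro hd
      exact hr2 ((Nat.prime_dvd_prime_iff_eq hr Nat.prime_two).1 (hr.dvd_of_dvd_pow hd))
    · haveI : Finite ↥(XX hK j1 ⊔ YY hK j1) := inferInstance
      exact pStem_of_cyc fun P hP => cyc1 hK hm hr2 P hP
  have hcd : ∀ j : Fin tabF4.nz, Nat.card ((XX hK j ⊔ YY hK j) ⊓
      (chevF4.diagonalSubgroup K).subgroupOf (twistedF4 K (2 ^ m)) : Subgroup ↥(twistedF4 K (2 ^ m))) ∣ 2 ^ (2 * m + 1) - 1 := by
    intro j
    rcases hj j with rfl | rfl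
    · rw [hΨ.card_H, hK]
    · exact card1 hK hm
  have h6 := (ldat (all hK) (pU hK) (nL hK) (fun j g hg => br_of (all hK) j (nL hK j) g hg) (gen_top' hK)).card_ker_dvd
    hr hr2 hσ hk hst
  have h7 := h6.trans (Finset.prod_dvd_prod_of_dvd _ _ (fun j _ => hcd j))
  rw [Finset.prod_const, Finset.card_univ, Fintype.card_fin] at h7
  have h8 : Nat.card ↥((chevF4.diagonalSubgroup K).subgroupOf (twistedF4 K (2 ^ m))) = (2 ^ (2 * m + 1) - 1) ^ 2 := by
    rw [← card_H hK, ← Subgroup.inf_subgroupOf_right]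
    exact Nat.card_congr (Subgroup.subgroupOfEquivOfLe inf_le_right).toEquiv
  have h9 : Nat.card σ.ker * (2 ^ (2 * m + 1) - 1) ^ 2 ∣ (2 ^ (2 * m + 1) - 1) ^ 2 := by
    have h10 : Nat.card σ.ker * Nat.card ↥((chevF4.diagonalSubgroup K).subgroupOf (twistedF4 K (2 ^ m))) ∣
        (2 ^ (2 * m + 1) - 1) ^ 2 := h7
    rw [h8] at h10
    exact h10
  have hpos : 0 < (2 ^ (2 * m + 1) - 1) ^ 2 := by
    apply pow_pos
    have : 2 ^ 1 ≤ 2 ^ (2 * m + 1) := Nat.pow_le_pow_right (by norm_num) (by omega)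
    omega
  have h11 : Nat.card σ.ker * (2 ^ (2 * m + 1) - 1) ^ 2 ∣ 1 * (2 ^ (2 * m + 1) - 1) ^ 2 := by rwa [one_mul]
  exact Nat.dvd_of_mul_dvd_mul_right hpos h11

end Cfsg.Agent.Lib.TwF4
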