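import Cfsg.Agent.Lib.H26RootMult
import Cfsg.Agent.Lib.SchurSylow
import Cfsg.Agent.Lib.SzLie2

/-!
# The 2-part of the Schur multiplier of the Borel subgroup of `Sz(q)`, `q ≥ 32` (helper26)
-/

set_option autoImplicit false

namespace Cfsg.Agent.Lib.H26SzMult

open Subgroup Cfsg Cfsg.Agent.Lib.H26RootMult Cfsg.Agent.Lib.SzLie
open scoped commutatorElement

universe u v

section field

variable {F : Type*} [Field F] [Fintype F] [CharP F 2] {m : ℕ}

omit [CharP F 2] in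
theorem exists_ne_of_card {P : Polynomial F} (hP : P ≠ 0) {n : ℕ} (hd : P.natDegree ≤ n) (hn : n < Fintype.card F) :
    ∃ x : F, P.eval x ≠ 0 := by
  classical
  by_contra hcon
  push Not at hcon
  have h1 : (Finset.univ : Finset F).card ≤ P.roots.toFinset.card :=
    Finset.card_le_card fun x _ => by
      rw [Multiset.mem_toFinset, Polynomial.mem_roots hP]; exact hcon x
  have h2 := P.roots.toFinset_card_le
  have h3 := P.card_roots'
  rw [Finset.card_univ] at h1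
  omega

theorem exists_inv (hm : 1 ≤ m) (hF : Fintype.card F = 2 ^ (2 * m + 1)) :
    ∃ x : F, x ≠ 0 ∧ x + 1 ≠ 0 ∧ (x + 1)⁻¹ ≠ x⁻¹ + 1⁻¹ := by
  open Polynomial in
  have hP : ((X * (X + 1) * (X ^ 2 + X + 1) : F[X])) ≠ 0 := by
    refine mul_ne_zero (mul_ne_zero X_ne_zero ?_) ?_
    · exact (monic_X_add_C (1 : F)).ne_zero
    · intro h
      have := congrArg (fun p => coeff p 0) h
      simp at this
  have hd : ((Polynomial.X * (Polynomial.X + 1) * (Polynomial.X ^ 2 + Polynomial.X + 1) : Polynomial F)).natDegree ≤ 4 := by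
    compute_degree
  have hc : 4 < Fintype.card F := by
    rw [hF]
    calc 4 < 2 ^ 3 := by norm_num
      _ ≤ 2 ^ (2 * m + 1) := Nat.pow_le_pow_right (by norm_num) (by omega)
  obtain ⟨x, hx⟩ := exists_ne_of_card hP hd hc
  simp only [Polynomial.eval_mul, Polynomial.eval_X, Polynomial.eval_add, Polynomial.eval_one,
    Polynomial.eval_pow] at hx
  have hx0 : x ≠ 0 := by rintro rfl; simp at hx
  have hx1 : x + 1 ≠ 0 := by intro h; rw [h] at hx; simp at hx
  have hx2 : x ^ 2 + x + 1 ≠ 0 := by intro h; rw [h] at hx; simp at hx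
  refine ⟨x, hx0, hx1, ?_⟩
  intro h
  apply hx2
  field_simp at h
  linear_combination (-1 : F) * h

theorem exists_top (hm : 2 ≤ m) (hF : Fintype.card F = 2 ^ (2 * m + 1)) :
    ∃ x : F, x ≠ 0 ∧ x + 1 ≠ 0 ∧
      ((x + 1) * tht F m (x + 1))⁻¹ ≠ (x * tht F m x)⁻¹ + ((1 : F) * tht F m 1)⁻¹ := by
  set N := 2 ^ (m + 1) with hN
  have hN8 : 8 ≤ N := by
    calc 8 = 2 ^ 3 := by norm_num
      _ ≤ 2 ^ (m + 1) := Nat.pow_le_pow_right (by norm_num) (by omega)
  have hq : 2 * Fintype.card F = N * N := by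
    rw [hF, hN, ← pow_add, ← pow_succ']
    congr 1; omega
  open Polynomial in
  have hP : ((X * (X + 1) * (1 + X + X ^ N + X ^ (N + 1) + X ^ (N + 2) + X ^ (2 * N + 1) + X ^ (2 * N + 2)) : F[X])) ≠ 0 := by
    refine mul_ne_zero (mul_ne_zero X_ne_zero ?_) ?_
    · exact (monic_X_add_C (1 : F)).ne_zero
    · intro h
      have := congrArg (fun p => eval 0 p) h
      simp only [eval_add, eval_one, eval_X, eval_pow, eval_zero] at this
      rw [zero_pow (by omega), zero_pow (by omega), zero_pow (by omega), zero_pow (by omega), zero_pow (by omega)] at this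
      simp at this
  have hd : ((Polynomial.X * (Polynomial.X + 1) * (1 + Polynomial.X + Polynomial.X ^ N + Polynomial.X ^ (N + 1) +
      Polynomial.X ^ (N + 2) + Polynomial.X ^ (2 * N + 1) + Polynomial.X ^ (2 * N + 2)) : Polynomial F)).natDegree ≤ 2 * N + 4 := by
    compute_degree
    omega
  have hc : 2 * N + 4 < Fintype.card F := by nlinarith
  obtain ⟨x, hx⟩ := exists_ne_of_card hP hd hc
  simp only [Polynomial.eval_mul, Polynomial.eval_X, Polynomial.eval_add, Polynomial.eval_one,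
    Polynomial.eval_pow] at hx
  have hx0 : x ≠ 0 := by rintro rfl; simp at hx
  have hx1 : x + 1 ≠ 0 := by intro h; rw [h] at hx; simp at hx
  have hx2 := right_ne_zero_of_mul hx
  refine ⟨x, hx0, hx1, ?_⟩
  intro h
  apply hx2
  have hθ : tht F m x = x ^ N := tht_apply m x
  rw [map_add, map_one, hθ] at h
  have hxN : x ^ N ≠ 0 := pow_ne_zero _ hx0
  have hxN1 : x ^ N + 1 ≠ 0 := by
    have : tht F m (x + 1) ≠ 0 := (_root_.map_ne_zero _).2 hx1
    rwa [map_add, map_one, hθ] at this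
  have e1 : x ^ (N + 1) = x ^ N * x := pow_succ _ _
  have e2 : x ^ (N + 2) = x ^ N * x ^ 2 := pow_add _ _ _
  have e3 : x ^ (2 * N + 1) = (x ^ N) ^ 2 * x := by rw [pow_succ, mul_comm 2 N, pow_mul]
  have e4 : x ^ (2 * N + 2) = (x ^ N) ^ 2 * x ^ 2 := by rw [pow_add, mul_comm 2 N, pow_mul]
  rw [e1, e2, e3, e4]
  generalize x ^ N = y at h hxN hxN1 ⊢
  field_simp at h
  linear_combination (-1 : F) * h

end field

section core

variable {F : Type*} [Field F] [Fintype F] [CharP F 2] {m : ℕ}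

theorem exists_tht (hF : Fintype.card F = 2 ^ (2 * m + 1)) (x : Fˣ) : ∃ t : Fˣ, tht F m t = x := by
  have hinj : Function.Injective (tht F m) := (tht F m).injective
  obtain ⟨y, hy⟩ := Finite.surjective_of_injective hinj (x : F)
  have hy0 : y ≠ 0 := by rintro rfl; rw [map_zero] at hy; exact x.ne_zero hy.symm
  exact ⟨Units.mk0 y hy0, hy⟩

/-- `κ(t) = t²/θ(t)` takes every value, and then `θ(t) = κ(t) θ(κ(t))` -/
theorem exists_kappa (hF : Fintype.card F = 2 ^ (2 * m + 1)) (x : Fˣ) :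
    ∃ t : Fˣ, (t : F) ^ 2 * (tht F m t)⁻¹ = x ∧ tht F m t = x * tht F m x := by
  obtain ⟨w, hw⟩ := exists_tht hF x
  refine ⟨x * w, ?_, ?_⟩
  · have h1 : (w : F) ^ 2 = tht F m x := by rw [← tht_tht hF, hw]
    rw [Units.val_mul, map_mul, hw, mul_pow, h1]
    have h2 : tht F m (x : F) ≠ 0 := (_root_.map_ne_zero _).2 x.ne_zero
    have h3 := x.ne_zero
    field_simp
  · rw [Units.val_mul, map_mul, hw, mul_comm]

variable (hm : 2 ≤ m) (hF : Fintype.card F = 2 ^ (2 * m + 1))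
variable {B : Type v} [Group B] (us : F → F → B) (h : Fˣ → B)
variable (hmul : ∀ a b a' b', us a b * us a' b' = us (a + a') (b + b' + a * tht F m a'))
variable (hh : ∀ s t, h s * h t = h (s * t))
variable (hconj : ∀ t a b, h t * us a b * (h t)⁻¹ = us ((t : F) ^ 2 * (tht F m t)⁻¹ * a) (tht F m t * b))
variable (hall : ∀ g, ∃ t a b, g = h t * us a b)

include hmul in
omit [Fintype F] in
theorem us_zero : us 0 0 = 1 := by
  have := hmul 0 0 0 0
  simp only [add_zero, zero_mul] at this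
  exact mul_eq_left.1 this

include hh in
omit [Fintype F] [CharP F 2] in
theorem h_one : h 1 = 1 := by
  have := hh 1 1
  rw [mul_one] at this
  exact mul_eq_left.1 this

include hh in
omit [Fintype F] [CharP F 2] in
theorem h_inv (t : Fˣ) : (h t)⁻¹ = h t⁻¹ := by
  rw [inv_eq_iff_mul_eq_one, hh, mul_inv_cancel, h_one h hh]

include hh in
omit [Fintype F] [CharP F 2] in
theorem h_pow (t : Fˣ) (n : ℕ) : h t ^ n = h (t ^ n) := by
  induction n with
  | zero => rw [pow_zero, pow_zero, h_one h hh]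
  | succ n ih => rw [pow_succ, pow_succ, ih, hh]

include hmul in
omit [Fintype F] in
theorem us_inv (a b : F) : (us a b)⁻¹ = us a (b + a * tht F m a) := by
  rw [inv_eq_iff_mul_eq_one, hmul]
  have h1 : a + a = 0 := CharTwo.add_self_eq_zero a
  have h2 : b + (b + a * tht F m a) + a * tht F m a = 0 := by
    have h3 : b + b = 0 := CharTwo.add_self_eq_zero b
    have h4 : a * tht F m a + a * tht F m a = 0 := CharTwo.add_self_eq_zero _
    calc _ = (b + b) + (a * tht F m a + a * tht F m a) := by ring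
      _ = 0 := by rw [h3, h4, add_zero]
  rw [h1, h2, us_zero us hmul]

/-- the preimage of the centre of the unipotent group -/
def A1 {Γ : Type u} [Group Γ] (τ : Γ →* B) : Subgroup Γ where
  carrier := {x | ∃ b, τ x = us 0 b}
  one_mem' := ⟨0, by rw [map_one, us_zero us hmul]⟩
  mul_mem' := by
    rintro x y ⟨b, hb⟩ ⟨c, hc⟩
    exact ⟨b + c, by rw [map_mul, hb, hc, hmul]; simp⟩
  inv_mem' := by
    rintro x ⟨b, hb⟩
    exact ⟨b, by rw [map_inv, hb, us_inv us hmul]; simp⟩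

/-- the preimage of the unipotent group -/
def A2 {Γ : Type u} [Group Γ] (τ : Γ →* B) : Subgroup Γ where
  carrier := {x | ∃ a b, τ x = us a b}
  one_mem' := ⟨0, 0, by rw [map_one, us_zero us hmul]⟩
  mul_mem' := by
    rintro x y ⟨a, b, hb⟩ ⟨a', c, hc⟩
    exact ⟨_, _, by rw [map_mul, hb, hc, hmul]⟩
  inv_mem' := by
    rintro x ⟨a, b, hb⟩
    exact ⟨_, _, by rw [map_inv, hb, us_inv us hmul]⟩

include hm hF hmul hh hconj hall in
theorem core {Γ : Type u} [Group Γ] [Finite Γ] (τ : Γ →* B) (hst : IsStemExtension τ) (hp : IsPGroup 2 τ.ker) :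
    τ.ker = ⊥ := by
  classical
  obtain ⟨hsurj, hZ, hZc⟩ := hst
  choose l hl using hsurj
  have hone := h_one h hh
  -- conjugation of lifts
  have hAc : ∀ (s x : Γ) (t : Fˣ) (a b : F), τ s = h t → τ x = us a b →
      τ (s * x * s⁻¹) = us ((t : F) ^ 2 * (tht F m t)⁻¹ * a) (tht F m t * b) := by
    intro s x t a b hs hx
    rw [map_mul, map_mul, map_inv, hs, hx, hconj]
  -- Step 1
  have hker1 : ∀ {x y : Γ}, (⁅τ x, τ y⁆ = 1) → ⁅x, y⁆ ∈ center Γ := fun {x y} hxy =>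
    hZ (by rw [MonoidHom.mem_ker, map_commutatorElement, hxy])
  have step1 : ∀ b c : F, l (us 0 b) * l (us 0 c) = l (us 0 c) * l (us 0 b) := by
    obtain ⟨x, hx0, hx1, hx2⟩ := exists_inv (F := F) (m := m) (by omega) hF
    have hz : ∀ a b : F, ⁅l (us 0 a), l (us 0 b)⁆ ∈ center Γ := by
      intro a b
      apply hker1
      rw [hl, hl, commutatorElement_eq_one_iff_mul_comm, hmul, hmul]
      simp [add_comm]
    refine comm_trivial (fun b => l (us 0 b)) (fun b => l (us 0 b)) hz ?_ ?_ (fun x => x⁻¹) ?_ hx0 one_ne_zero hx1 hx2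
    · intro a a' b
      exact comm_eq_of_map_eq hZ (by rw [hl, map_mul, hl, hl, hmul]; simp) rfl
    · intro a a' b
      exact comm_eq_of_map_eq hZ rfl (by rw [hl, map_mul, hl, hl, hmul]; simp)
    · intro x hx y
      obtain ⟨t, ht⟩ := exists_tht hF (Units.mk0 x hx)
      rw [Units.val_mk0] at ht
      have h1 : ⁅l (us 0 x), l (us 0 y)⁆ = l (h t) * ⁅l (us 0 1), l (us 0 (x⁻¹ * y))⁆ * (l (h t))⁻¹ := by
        rw [conj_comm]
        refine comm_eq_of_map_eq hZ ?_ ?_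
        · rw [hAc _ _ t 0 1 (hl _) (hl _), hl, ht]; simp
        · rw [hAc _ _ t 0 (x⁻¹ * y) (hl _) (hl _), hl, ht, mul_inv_cancel_left₀ hx]; simp
      rw [h1, (mem_center_iff.1 (hz 1 (x⁻¹ * y))) (l (h t))]
      group
  have hA1 : ∀ x ∈ A1 us hmul τ, ∀ y ∈ A1 us hmul τ, x * y = y * x := by
    rintro x ⟨b, hb⟩ y ⟨c, hc⟩
    rw [← commutatorElement_eq_one_iff_mul_comm,
      comm_eq_of_map_eq hZ (hb.trans (hl _).symm) (hc.trans (hl _).symm), commutatorElement_eq_one_iff_mul_comm]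
    exact step1 b c
  have h0c : ∀ a b : F, us a 0 * us 0 b = us a b := by intro a b; rw [hmul]; simp
  -- Step 2
  have step2 : ∀ a c : F, l (us a 0) * l (us 0 c) = l (us 0 c) * l (us a 0) := by
    obtain ⟨x, hx0, hx1, hx2⟩ := exists_top hm hF
    have hz : ∀ a b : F, ⁅l (us a 0), l (us 0 b)⁆ ∈ center Γ := by
      intro a b
      apply hker1
      rw [hl, hl, commutatorElement_eq_one_iff_mul_comm, hmul, hmul]
      simp
    refine comm_trivial (fun b => l (us b 0)) (fun b => l (us 0 b)) hz ?_ ?_ (fun x => (x * tht F m x)⁻¹) ?_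
      hx0 one_ne_zero hx1 hx2
    · intro a a' b
      have hc : τ ((l (us (a + a') 0))⁻¹ * (l (us a 0) * l (us a' 0))) = us 0 (a * tht F m a') := by
        rw [map_mul, map_mul, map_inv, hl, hl, hl, hmul, inv_mul_eq_iff_eq_mul, h0c]; simp
      have e1 : l (us a 0) * l (us a' 0) = l (us (a + a') 0) * ((l (us (a + a') 0))⁻¹ * (l (us a 0) * l (us a' 0))) := by
        group
      rw [e1, comm_mul_comm (hA1 _ ⟨_, hc⟩ _ ⟨_, hl _⟩)]
    · intro a a' b
      exact comm_eq_of_map_eq hZ rfl (by rw [hl, map_mul, hl, hl, hmul]; simp)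
    · intro x hx y
      obtain ⟨t, ht1, ht2⟩ := exists_kappa hF (Units.mk0 x hx)
      rw [Units.val_mk0] at ht1 ht2
      have hxx : x * tht F m x ≠ 0 := mul_ne_zero hx ((_root_.map_ne_zero _).2 hx)
      have h1 : ⁅l (us x 0), l (us 0 y)⁆ =
          l (h t) * ⁅l (us 1 0), l (us 0 ((x * tht F m x)⁻¹ * y))⁆ * (l (h t))⁻¹ := by
        rw [conj_comm]
        refine comm_eq_of_map_eq hZ ?_ ?_
        · rw [hAc _ _ t 1 0 (hl _) (hl _), hl, ht1]; simp
        · rw [hAc _ _ t 0 ((x * tht F m x)⁻¹ * y) (hl _) (hl _), hl, ht2, mul_inv_cancel_left₀ hxx]; simp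
      rw [h1, (mem_center_iff.1 (hz 1 ((x * tht F m x)⁻¹ * y))) (l (h t))]
      group
  have hA2d : ∀ x ∈ A2 us hmul τ, ∃ a, ∃ c ∈ A1 us hmul τ, x = l (us a 0) * c := by
    rintro x ⟨a, b, hx⟩
    refine ⟨a, (l (us a 0))⁻¹ * x, ⟨b, ?_⟩, by group⟩
    rw [map_mul, map_inv, hl, hx, inv_mul_eq_iff_eq_mul, h0c]
  have hA21 : ∀ x ∈ A2 us hmul τ, ∀ y ∈ A1 us hmul τ, x * y = y * x := by
    intro x hx y hy
    obtain ⟨a, c, hc, rfl⟩ := hA2d x hx
    have h1 : l (us a 0) * y = y * l (us a 0) := by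
      obtain ⟨b, hb⟩ := hy
      rw [← commutatorElement_eq_one_iff_mul_comm,
        comm_eq_of_map_eq hZ rfl (hb.trans (hl _).symm), commutatorElement_eq_one_iff_mul_comm]
      exact step2 a b
    rw [mul_assoc, hA1 c hc y hy, ← mul_assoc, h1, mul_assoc]
  have hA12 : ∀ x ∈ A1 us hmul τ, x ∈ A2 us hmul τ := by
    rintro x ⟨b, hb⟩; exact ⟨0, b, hb⟩
  -- Step 3
  obtain ⟨t0, ht0⟩ := exists_unit_ne (F := F) (m := m) hF (by omega)
  have ht0' : tht F m t0 ≠ 1 := by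
    intro h1
    apply ht0
    have : (t0 : F) = 1 := (tht F m).injective (by rw [h1, map_one])
    rw [this, map_one]; simp
  set s0 := l (h t0) with hs0
  have hs0τ : τ s0 = h t0 := hl _
  set N := Fintype.card Fˣ with hN
  have hNodd : Odd N := by
    rw [hN, Fintype.card_units, hF]
    exact Nat.Even.sub_odd (Nat.one_le_two_pow) (even_two.pow_of_ne_zero (by omega)) odd_one
  have hs0N : s0 ^ N ∈ center Γ := by
    apply hZ
    rw [MonoidHom.mem_ker, map_pow, hs0τ, h_pow h hh, hN, pow_card_eq_one, hone]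
  have hZker : ∀ z ∈ τ.ker, z ^ N = 1 → z = 1 := by
    intro z hz hzN
    obtain ⟨k, hk⟩ := hp ⟨z, hz⟩
    have hk' : z ^ 2 ^ k = 1 := by simpa using congrArg Subtype.val hk
    have h1 : orderOf z ∣ 2 ^ k := orderOf_dvd_of_pow_eq_one hk'
    have h2 : orderOf z ∣ N := orderOf_dvd_of_pow_eq_one hzN
    have h3 : Nat.Coprime (2 ^ k) N := Nat.Coprime.pow_left _ (Nat.coprime_two_left.2 hNodd)
    exact orderOf_eq_one_iff.1 (Nat.eq_one_of_dvd_coprimes h3 h1 h2)
  have hn1 : ∀ (g : Γ), ∀ x ∈ A1 us hmul τ, g * x * g⁻¹ ∈ A1 us hmul τ := by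
    rintro g x ⟨c, hc⟩
    obtain ⟨t, a, b, hg⟩ := hall (τ g)
    have e1 : us a b * us 0 c = us 0 c * us a b := by rw [hmul, hmul]; simp [add_comm]
    refine ⟨tht F m t * c, ?_⟩
    rw [map_mul, map_mul, map_inv, hg, hc]
    calc h t * us a b * us 0 c * (h t * us a b)⁻¹ = h t * (us a b * us 0 c) * (us a b)⁻¹ * (h t)⁻¹ := by group
      _ = h t * us 0 c * (h t)⁻¹ := by rw [e1]; group
      _ = _ := by rw [hconj]; simp
  have hn2 : ∀ (g : Γ), ∀ x ∈ A2 us hmul τ, g * x * g⁻¹ ∈ A2 us hmul τ := by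
    rintro g x ⟨a', c, hc⟩
    obtain ⟨t, a, b, hg⟩ := hall (τ g)
    obtain ⟨a1, b1, e1⟩ : ∃ a1 b1, us a b * us a' c * (us a b)⁻¹ = us a1 b1 :=
      ⟨_, _, by rw [us_inv us hmul, hmul, hmul]⟩
    refine ⟨(t : F) ^ 2 * (tht F m t)⁻¹ * a1, tht F m t * b1, ?_⟩
    rw [map_mul, map_mul, map_inv, hg, hc]
    calc h t * us a b * us a' c * (h t * us a b)⁻¹ = h t * (us a b * us a' c * (us a b)⁻¹) * (h t)⁻¹ := by group
      _ = h t * us a1 b1 * (h t)⁻¹ := by rw [e1]
      _ = _ := by rw [hconj]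
  have hc2 : ∀ g : Γ, s0⁻¹ * g * s0 * g⁻¹ ∈ A2 us hmul τ := by
    intro g
    obtain ⟨t, a, b, hg⟩ := hall (τ g)
    have h1 : s0⁻¹ * g * s0 * g⁻¹ = (s0⁻¹ * l (h t) * s0 * (l (h t))⁻¹) *
        (l (h t) * (s0⁻¹ * ((l (h t))⁻¹ * g) * s0⁻¹⁻¹ * ((l (h t))⁻¹ * g)⁻¹) * (l (h t))⁻¹) := by group
    have h2 : (l (h t))⁻¹ * g ∈ A2 us hmul τ := ⟨a, b, by rw [map_mul, map_inv, hl, hg]; group⟩
    rw [h1]
    refine mul_mem ?_ (hn2 _ _ (mul_mem (hn2 _ _ h2) (inv_mem h2)))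
    refine ⟨0, 0, ?_⟩
    rw [us_zero us hmul, map_mul, map_mul, map_mul, map_inv, map_inv, hs0τ, hl, mul_assoc, mul_assoc,
      ← mul_assoc (h t), hh, mul_comm t, ← hh]
    group
  have hdec1 : ∀ c ∈ A1 us hmul τ, ∃ y ∈ A1 us hmul τ, ∃ z ∈ τ.ker, c = ⁅s0, y⁆ * z := by
    rintro c ⟨b, hb⟩
    have hne : tht F m t0 - 1 ≠ 0 := sub_ne_zero.2 ht0'
    have hy : l (us 0 ((tht F m t0 - 1)⁻¹ * b)) ∈ A1 us hmul τ := ⟨_, hl _⟩
    refine ⟨_, hy, ⁅s0, l (us 0 ((tht F m t0 - 1)⁻¹ * b))⁆⁻¹ * c, ?_, by group⟩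
    rw [MonoidHom.mem_ker, map_mul, map_inv, map_commutatorElement, hs0τ, hl, hb, inv_mul_eq_one,
      commutatorElement_def, hconj, us_inv us hmul, hmul]
    congr 1
    · simp
    · simp only [zero_mul, mul_zero, map_zero, add_zero]
      have h3 : (tht F m t0 - 1)⁻¹ * b = - ((tht F m t0 - 1)⁻¹ * b) := (CharTwo.neg_eq _).symm
      calc tht F m t0 * ((tht F m t0 - 1)⁻¹ * b) + (tht F m t0 - 1)⁻¹ * b
          = tht F m t0 * ((tht F m t0 - 1)⁻¹ * b) + - ((tht F m t0 - 1)⁻¹ * b) := by rw [← h3]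
        _ = (tht F m t0 - 1) * ((tht F m t0 - 1)⁻¹ * b) := by ring
        _ = b := mul_inv_cancel_left₀ hne b
  set C0 := br (A1 us hmul τ) hA1 s0 (hn1 s0) with hC0
  have hC0n : C0.Normal := by
    refine ⟨fun x hx g => ?_⟩
    refine br_conj (hn1 g) (c := s0⁻¹ * (g * s0 * g⁻¹)) (by group) ?_ hx
    intro x hx
    have := hc2 g
    rw [mul_assoc, mul_assoc, ← mul_assoc g] at this
    exact hA21 _ this x hx
  have hC0Z : ∀ z ∈ τ.ker, z ∈ C0 → z = 1 := fun z hz hz0 =>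
    br_inf hZ N (fun x _ => ((mem_center_iff.1 hs0N) x).symm) hZker hz hz0
  -- Step 4
  let π := QuotientGroup.mk' C0
  have hπs : Function.Surjective π := QuotientGroup.mk'_surjective C0
  have hπc : ∀ z ∈ center Γ, π z ∈ center (Γ ⧸ C0) := by
    intro z hz
    rw [mem_center_iff]
    intro g
    obtain ⟨g, rfl⟩ := hπs g
    rw [← map_mul, ← map_mul, (mem_center_iff.1 hz) g]
  have hπ1 : ∀ c ∈ A1 us hmul τ, ∃ z ∈ τ.ker, π c = π z := by
    intro c hc
    obtain ⟨y, hy, z, hz, e⟩ := hdec1 c hc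
    refine ⟨z, hz, ?_⟩
    rw [e, map_mul]
    have : π ⁅s0, y⁆ = 1 := (QuotientGroup.eq_one_iff _).2 (show ⁅s0, y⁆ ∈ C0 from ⟨y, hy, rfl⟩)
    rw [this, one_mul]
  have hπ1c : ∀ c ∈ A1 us hmul τ, π c ∈ center (Γ ⧸ C0) := by
    intro c hc
    obtain ⟨z, hz, e⟩ := hπ1 c hc
    rw [e]; exact hπc z (hZ hz)
  have hadd : ∀ a a' : F, ∃ c ∈ A1 us hmul τ, l (us a 0) * l (us a' 0) = l (us (a + a') 0) * c := by
    intro a a'
    refine ⟨(l (us (a + a') 0))⁻¹ * (l (us a 0) * l (us a' 0)), ⟨a * tht F m a', ?_⟩, by group⟩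
    rw [map_mul, map_mul, map_inv, hl, hl, hl, hmul, inv_mul_eq_iff_eq_mul, h0c]; simp
  have hcomm2 : ∀ a b : F, π (l (us a 0)) * π (l (us b 0)) = π (l (us b 0)) * π (l (us a 0)) := by
    obtain ⟨x, hx0, hx1, hx2⟩ := exists_inv (F := F) (m := m) (by omega) hF
    have hz : ∀ a b : F, ⁅π (l (us a 0)), π (l (us b 0))⁆ ∈ center (Γ ⧸ C0) := by
      intro a b
      rw [← map_commutatorElement]
      apply hπ1c
      have e : a + b + a + b = 0 := by
        have h1 : a + a = 0 := CharTwo.add_self_eq_zero a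
        have h2 : b + b = 0 := CharTwo.add_self_eq_zero b
        calc a + b + a + b = (a + a) + (b + b) := by ring
          _ = 0 := by rw [h1, h2, add_zero]
      have e' : ⁅us a 0, us b 0⁆ = us 0 (0 + 0 + a * tht F m b + (0 + a * tht F m a) + (a + b) * tht F m a +
          (0 + b * tht F m b) + (a + b + a) * tht F m b) := by
        rw [commutatorElement_def, us_inv us hmul, us_inv us hmul, hmul, hmul, hmul, e]
      exact ⟨_, by rw [map_commutatorElement, hl, hl, e']⟩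
    refine comm_trivial (fun b => π (l (us b 0))) (fun b => π (l (us b 0))) hz ?_ ?_ (fun x => x⁻¹) ?_
      hx0 one_ne_zero hx1 hx2
    · intro a a' b
      obtain ⟨c, hc, e⟩ := hadd a a'
      rw [← map_mul π, e, map_mul, comm_central_left (hπ1c c hc)]
    · intro a b b'
      obtain ⟨c, hc, e⟩ := hadd b b'
      rw [← map_mul π, e, map_mul, comm_central_right (hπ1c c hc)]
    · intro x hx y
      obtain ⟨t, ht1, -⟩ := exists_kappa hF (Units.mk0 x hx)
      rw [Units.val_mk0] at ht1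
      have h1 : ⁅π (l (us x 0)), π (l (us y 0))⁆ =
          π (l (h t)) * ⁅π (l (us 1 0)), π (l (us (x⁻¹ * y) 0))⁆ * (π (l (h t)))⁻¹ := by
        simp only [← map_commutatorElement, ← map_inv, ← map_mul]
        congr 1
        rw [conj_comm]
        refine comm_eq_of_map_eq hZ ?_ ?_
        · rw [hAc _ _ t 1 0 (hl _) (hl _), hl, ht1]; simp
        · rw [hAc _ _ t (x⁻¹ * y) 0 (hl _) (hl _), hl, ht1, mul_inv_cancel_left₀ hx]; simp
      rw [h1, (mem_center_iff.1 (hz 1 (x⁻¹ * y))) (π (l (h t)))]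
      group
  have hA2c : ∀ x ∈ (A2 us hmul τ).map π, ∀ y ∈ (A2 us hmul τ).map π, x * y = y * x := by
    rintro _ ⟨x, hx, rfl⟩ _ ⟨y, hy, rfl⟩
    obtain ⟨a, c, hc, rfl⟩ := hA2d x hx
    obtain ⟨b, d, hd, rfl⟩ := hA2d y hy
    rw [← commutatorElement_eq_one_iff_mul_comm, map_mul, map_mul, comm_central_left (hπ1c c hc),
      comm_central_right (hπ1c d hd), commutatorElement_eq_one_iff_mul_comm]
    exact hcomm2 a b
  have hsA2 : ∀ g : Γ, ∀ x ∈ (A2 us hmul τ).map π, π g * x * (π g)⁻¹ ∈ (A2 us hmul τ).map π := by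
    rintro g _ ⟨x, hx, rfl⟩
    exact ⟨g * x * g⁻¹, hn2 g x hx, by rw [map_mul, map_mul, map_inv]⟩
  set A0 := br ((A2 us hmul τ).map π) hA2c (π s0) (hsA2 s0) with hA0
  have hA0n : A0.Normal := by
    refine ⟨fun x hx g => ?_⟩
    obtain ⟨g, rfl⟩ := hπs g
    refine br_conj (hsA2 g) (c := π (s0⁻¹ * g * s0 * g⁻¹)) ?_ ?_ hx
    · rw [← map_mul, ← map_inv, ← map_mul, ← map_mul]; congr 1; group
    · intro x hx
      exact hA2c _ ⟨_, hc2 g, rfl⟩ x hx
  have hdec2 : ∀ q ∈ A2 us hmul τ, ∃ y ∈ A0, ∃ z ∈ τ.ker, π q = y * π z := by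
    rintro q ⟨a, b, hq⟩
    set κ := (t0 : F) ^ 2 * (tht F m t0)⁻¹ with hκ
    have hne : κ - 1 ≠ 0 := sub_ne_zero.2 ht0
    set a' := (κ - 1)⁻¹ * a with ha'
    have hy : l (us a' 0) ∈ A2 us hmul τ := ⟨_, _, hl _⟩
    have e1 : κ * a' + a' = a := by
      have h3 : a' = - a' := (CharTwo.neg_eq _).symm
      calc κ * a' + a' = κ * a' + - a' := by rw [← h3]
        _ = (κ - 1) * a' := by ring
        _ = a := mul_inv_cancel_left₀ hne a
    have e2 : a + a = 0 := CharTwo.add_self_eq_zero a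
    have hc : ⁅s0, l (us a' 0)⁆⁻¹ * q ∈ A1 us hmul τ := by
      have e' : ∃ c, ⁅h t0, us a' 0⁆⁻¹ * us a b = us 0 c := by
        rw [commutatorElement_def, hconj, us_inv us hmul, hmul, us_inv us hmul, hmul, e1, e2]
        exact ⟨_, rfl⟩
      obtain ⟨c, e'⟩ := e'
      exact ⟨c, by rw [map_mul, map_inv, map_commutatorElement, hs0τ, hl, hq, e']⟩
    obtain ⟨z, hz, e⟩ := hπ1 _ hc
    refine ⟨⁅π s0, π (l (us a' 0))⁆, ⟨_, ⟨_, hy, rfl⟩, rfl⟩, z, hz, ?_⟩
    rw [← e, ← map_commutatorElement, ← map_mul]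
    congr 1; group
  -- the quotient by `A0` is commutative
  obtain ⟨ζ, hζ⟩ := IsCyclic.exists_generator (α := Fˣ)
  have hgen : ∀ g : Γ, ∃ k : ℕ, ∃ q ∈ A2 us hmul τ, g = l (h ζ) ^ k * q := by
    intro g
    obtain ⟨t, a, b, hg⟩ := hall (τ g)
    obtain ⟨k, hk⟩ := (mem_powers_iff_mem_zpowers.2 (hζ t))
    refine ⟨k, (l (h ζ) ^ k)⁻¹ * g, ⟨a, b, ?_⟩, by group⟩
    change ζ ^ k = t at hk
    rw [map_mul, map_inv, map_pow, hl, h_pow h hh, hk, hg]; group
  have hcommle : _root_.commutator (Γ ⧸ C0) ≤ A0 := by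
    rw [← Normal.quotient_commutative_iff_commutator_le]
    refine ⟨⟨fun x y => ?_⟩⟩
    obtain ⟨x, rfl⟩ := QuotientGroup.mk'_surjective A0 x
    obtain ⟨y, rfl⟩ := QuotientGroup.mk'_surjective A0 y
    obtain ⟨x, rfl⟩ := hπs x
    obtain ⟨y, rfl⟩ := hπs y
    have key : ∀ g : Γ, ∃ k : ℕ, ∃ z ∈ τ.ker, QuotientGroup.mk' A0 (π g) =
        QuotientGroup.mk' A0 (π (l (h ζ))) ^ k * QuotientGroup.mk' A0 (π z) := by
      intro g
      obtain ⟨k, q, hq, e⟩ := hgen g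
      obtain ⟨y, hy, z, hz, e'⟩ := hdec2 q hq
      refine ⟨k, z, hz, ?_⟩
      have h1 : QuotientGroup.mk' A0 y = 1 := (QuotientGroup.eq_one_iff _).2 hy
      rw [e, map_mul, map_mul, e', map_mul, h1, one_mul, map_pow, map_pow]
    obtain ⟨k, z, hz, ex⟩ := key x
    obtain ⟨k', z', hz', ey⟩ := key y
    have hcz : ∀ z ∈ τ.ker, ∀ w : Γ, QuotientGroup.mk' A0 (π z) * QuotientGroup.mk' A0 (π w) =
        QuotientGroup.mk' A0 (π w) * QuotientGroup.mk' A0 (π z) := by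
      intro z hz w
      rw [← map_mul, ← map_mul, ← map_mul, ← map_mul, (mem_center_iff.1 (hZ hz) w)]
    have hcz' : ∀ z ∈ τ.ker, ∀ (w : Γ) (k : ℕ), QuotientGroup.mk' A0 (π z) * QuotientGroup.mk' A0 (π w) ^ k =
        QuotientGroup.mk' A0 (π w) ^ k * QuotientGroup.mk' A0 (π z) := by
      intro z hz w k
      rw [← map_pow, ← map_pow, hcz z hz]
    rw [ex, ey]
    generalize hS : QuotientGroup.mk' A0 (π (l (h ζ))) = S
    have hz1 : Commute (QuotientGroup.mk' A0 (π z)) (S ^ k') := by rw [← hS]; exact hcz' z hz _ k'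
    have hz2 : Commute (S ^ k) (QuotientGroup.mk' A0 (π z')) := by rw [← hS]; exact (hcz' z' hz' _ k).symm
    have hz3 : Commute (QuotientGroup.mk' A0 (π z)) (QuotientGroup.mk' A0 (π z')) := hcz z hz z'
    have hz4 : Commute (S ^ k) (S ^ k') := Commute.pow_pow_self S k k'
    exact ((hz4.mul_left hz1).mul_right (hz2.mul_left hz3)).eq
  rw [eq_bot_iff]
  intro z hz
  have h1 : π z ∈ _root_.commutator (Γ ⧸ C0) := by
    have h0 : π z ∈ (_root_.commutator Γ).map π := mem_map_of_mem π (hZc hz)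
    rw [_root_.commutator_def, map_commutator] at h0
    rw [_root_.commutator_def]
    exact commutator_mono le_top le_top h0
  have h2 : π z = 1 := by
    refine br_inf (Z := τ.ker.map π) ?_ N ?_ ?_ ⟨z, hz, rfl⟩ (hcommle h1)
    · rintro _ ⟨w, hw, rfl⟩; exact hπc w (hZ hw)
    · intro x _
      rw [← map_pow]
      exact ((mem_center_iff.1 (hπc _ hs0N)) x).symm
    · rintro _ ⟨w, hw, rfl⟩ hwN
      rw [← map_pow] at hwN
      have h3 : w ^ N ∈ C0 := (QuotientGroup.eq_one_iff _).1 hwN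
      have h4 := hC0Z _ (pow_mem hw N) h3
      rw [hZker w hw h4, map_one]
  rw [mem_bot]
  exact hC0Z z hz ((QuotientGroup.eq_one_iff _).1 h2)

end core

end Cfsg.Agent.Lib.H26SzMult
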