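import Cfsg.Agent.Lib.H26TwS
import Cfsg.Agent.Lib.H26TwGF

/-! Digit tables for the characters of the torus, and the `p`-part of the multiplier of the groups of graph-field
type (helper26). -/

set_option autoImplicit false
set_option linter.unusedSectionVars false
set_option linter.unusedVariables false

universe u

namespace Cfsg.Agent.Lib.H26TwDig

/-- value of a digit list -/
def val (q : ℤ) : List ℤ → ℤ
  | [] => 0
  | e :: l => e + q * val q l

/-- all digits vanish -/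
def isZ (l : List ℤ) : Bool := l.all fun e => e == 0

/-- small nonzero digit lists of length `d` -/
def small (d : ℕ) (l : List ℤ) : Bool :=
  (l.length == d) && !(isZ l) && ((l.all fun e => Nat.ble e.natAbs 1) ||
    ((l.map Int.natAbs).sum == 2 && l.any fun e => e.natAbs == 2))

theorem val_isZ (q : ℤ) : ∀ {l : List ℤ}, isZ l = true → val q l = 0
  | [], _ => rfl
  | e :: l, h => by
    unfold isZ at h
    rw [List.all_cons, Bool.and_eq_true, beq_iff_eq] at h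
    show e + q * val q l = 0
    rw [h.1, val_isZ q (l := l) h.2]; simp

theorem small2 {q : ℕ} (hq : 3 ≤ q) {l : List ℤ} (h : small 2 l = true) :
    val q l ≠ 0 ∧ |val q l| < (q : ℤ) ^ 2 - 1 := by
  have hq' : (3 : ℤ) ≤ q := by exact_mod_cast hq
  match l, h with
  | [], h => simp [small] at h
  | [a], h => simp [small] at h
  | [a, b], h =>
    simp only [small, isZ, List.length_cons, List.length_nil, List.all_cons, List.all_nil, List.map_cons, List.map_nil,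
      List.sum_cons, List.sum_nil, List.any_cons, List.any_nil, Bool.and_eq_true, Bool.or_eq_true, Bool.not_eq_true',
      Bool.and_true, Bool.or_false, beq_iff_eq, Nat.ble_eq, add_zero] at h
    obtain ⟨⟨-, h0⟩, h1⟩ := h
    have h0' : ¬ (a = 0 ∧ b = 0) := by
      rintro ⟨rfl, rfl⟩; simp at h0
    have hv : val q [a, b] = a + q * b := by simp [val]
    rw [hv, sq]
    have hqq : (3 : ℤ) * q ≤ q * q := by nlinarith
    set Q : ℤ := (q : ℤ) with hQ
    set P : ℤ := Q * Q with hP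
    have hb : b = -2 ∨ b = -1 ∨ b = 0 ∨ b = 1 ∨ b = 2 := by omega
    have hrest : (a.natAbs ≤ 1 ∧ b.natAbs ≤ 1) ∨ (a.natAbs + b.natAbs = 2 ∧ (a.natAbs = 2 ∨ b.natAbs = 2)) := by
      rcases h1 with h1 | h1
      · left; exact h1
      · right; exact h1
    rw [abs_lt]
    rcases hb with rfl | rfl | rfl | rfl | rfl
    · rw [show Q * (-2) = -2 * Q by ring]; refine ⟨?_, ?_, ?_⟩ <;> omega
    · rw [show Q * (-1) = -Q by ring]; refine ⟨?_, ?_, ?_⟩ <;> omega
    · rw [mul_zero]; refine ⟨?_, ?_, ?_⟩ <;> omega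
    · rw [mul_one]; refine ⟨?_, ?_, ?_⟩ <;> omega
    · rw [show Q * 2 = 2 * Q by ring]; refine ⟨?_, ?_, ?_⟩ <;> omega
  | a :: b :: c :: l, h => simp [small] at h

theorem small3 {q : ℕ} (hq : 3 ≤ q) {l : List ℤ} (h : small 3 l = true) :
    val q l ≠ 0 ∧ |val q l| < (q : ℤ) ^ 3 - 1 := by
  have hq' : (3 : ℤ) ≤ q := by exact_mod_cast hq
  match l, h with
  | [], h => simp [small] at h
  | [a], h => simp [small] at h
  | [a, b], h => simp [small] at h
  | [a, b, c], h =>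
    simp only [small, isZ, List.length_cons, List.length_nil, List.all_cons, List.all_nil, List.map_cons, List.map_nil,
      List.sum_cons, List.sum_nil, List.any_cons, List.any_nil, Bool.and_eq_true, Bool.or_eq_true, Bool.not_eq_true',
      Bool.and_true, Bool.or_false, beq_iff_eq, Nat.ble_eq, add_zero] at h
    obtain ⟨⟨-, h0⟩, h1⟩ := h
    have h0' : ¬ (a = 0 ∧ b = 0 ∧ c = 0) := by
      rintro ⟨rfl, rfl, rfl⟩; simp at h0
    have hv : val q [a, b, c] = a + (q * b + q * q * c) := by simp [val]; ring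
    rw [hv, show (q : ℤ) ^ 3 = q * q * q by ring]
    have hqq : (3 : ℤ) * q ≤ q * q := by nlinarith
    have hqqq : (3 : ℤ) * (q * q) ≤ q * q * q := by nlinarith
    set Q : ℤ := (q : ℤ) with hQ
    set P : ℤ := Q * Q with hP
    set R : ℤ := P * Q with hR
    have hb : b = -2 ∨ b = -1 ∨ b = 0 ∨ b = 1 ∨ b = 2 := by omega
    have hc : c = -2 ∨ c = -1 ∨ c = 0 ∨ c = 1 ∨ c = 2 := by omega
    have hrest : (a.natAbs ≤ 1 ∧ b.natAbs ≤ 1 ∧ c.natAbs ≤ 1) ∨
        (a.natAbs + (b.natAbs + c.natAbs) = 2 ∧ (a.natAbs = 2 ∨ b.natAbs = 2 ∨ c.natAbs = 2)) := by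
      rcases h1 with h1 | h1
      · left; exact ⟨h1.1, h1.2.1, h1.2.2⟩
      · right; refine ⟨h1.1, ?_⟩
        rcases h1.2 with h | h | h <;> tauto
    rw [abs_lt]
    rcases hb with rfl | rfl | rfl | rfl | rfl <;> rcases hc with rfl | rfl | rfl | rfl | rfl <;>
      (try simp only [mul_zero, mul_one, mul_neg, add_zero, zero_add]) <;> refine ⟨?_, ?_, ?_⟩ <;> omega
  | a :: b :: c :: e :: l, h => simp [small] at h

theorem val_not_dvd {q d : ℕ} {v : ℤ} (h0 : v ≠ 0) (h1 : |v| < (q : ℤ) ^ d - 1) : ¬ ((q : ℤ) ^ d - 1) ∣ v :=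
  fun h => h0 (Int.eq_zero_of_abs_lt_dvd h h1)

section field
variable {F : Type*} [Field F] [Finite F]

/-- a primitive element -/
theorem exists_gen {q d : ℕ} (hF : Nat.card F = q ^ d) : ∃ z : F, z ≠ 0 ∧ ∀ v : ℤ, z ^ v = 1 → ((q : ℤ) ^ d - 1) ∣ v := by
  classical
  haveI := Fintype.ofFinite F
  obtain ⟨g, hg⟩ := IsCyclic.exists_generator (α := Fˣ)
  have h1 : orderOf g = q ^ d - 1 := by
    rw [orderOf_eq_card_of_forall_mem_zpowers hg, Nat.card_units, hF]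
  refine ⟨g, g.ne_zero, fun v hv => ?_⟩
  have h2 : g ^ v = 1 := by
    apply Units.ext
    rw [Units.val_zpow_eq_zpow_val, hv]; rfl
  have h3 := orderOf_dvd_iff_zpow_eq_one.mpr h2
  rw [h1] at h3
  have h4 : 1 ≤ q ^ d := by rw [← hF]; exact Nat.card_pos
  have h5 : ((q ^ d - 1 : ℕ) : ℤ) = (q : ℤ) ^ d - 1 := by push_cast [Nat.cast_sub h4]; ring
  rwa [h5] at h3

theorem exists_root {q d : ℕ} (hF : Nat.card F = q ^ d) {v : ℤ} (hv : IsCoprime v ((q : ℤ) ^ d - 1)) {c : F} (hc : c ≠ 0) :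
    ∃ z : F, z ≠ 0 ∧ z ^ v = c := by
  obtain ⟨a, b, hab⟩ := hv
  refine ⟨c ^ a, zpow_ne_zero _ hc, ?_⟩
  have h1 : c ^ ((q : ℤ) ^ d - 1) = 1 := by
    classical
    haveI := Fintype.ofFinite F
    have h2 := FiniteField.pow_card_sub_one_eq_one c hc
    rw [← Nat.card_eq_fintype_card, hF] at h2
    have h4 : 1 ≤ q ^ d := by rw [← hF]; exact Nat.card_pos
    have h5 : ((q ^ d - 1 : ℕ) : ℤ) = (q : ℤ) ^ d - 1 := by push_cast [Nat.cast_sub h4]; ring
    rw [← h5, zpow_natCast, h2]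
  calc (c ^ a) ^ v = c ^ (a * v) := (zpow_mul c a v).symm
    _ = c ^ (1 + (-b) * ((q : ℤ) ^ d - 1)) := by
      rw [show a * v = 1 + (-b) * ((q : ℤ) ^ d - 1) by linear_combination hab]
    _ = c * (c ^ ((q : ℤ) ^ d - 1)) ^ (-b) := by rw [zpow_add₀ hc, zpow_one, mul_comm (-b), zpow_mul]
    _ = c := by rw [h1, one_zpow, mul_one]

theorem exists_lam (hF : 5 ≤ Nat.card F) : ∃ a : F, a ≠ 0 ∧ 1 + a ≠ 0 ∧ a ^ 2 + a + 1 ≠ 0 := by
  classical
  haveI := Fintype.ofFinite F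
  set P : Polynomial F := Polynomial.X * (Polynomial.X + 1) * (Polynomial.X ^ 2 + Polynomial.X + 1) with hP
  have hd : P.natDegree = 4 := by rw [hP]; compute_degree!
  have h0 : P ≠ 0 := by
    intro h; rw [h] at hd; simp at hd
  obtain ⟨a, ha⟩ := Polynomial.exists_eval_ne_zero_of_natDegree_lt_card P h0 (by
    rw [hd, ← Nat.cast_card, Nat.cast_lt]; omega)
  have e : P.eval a = a * (a + 1) * (a ^ 2 + a + 1) := by rw [hP]; simp
  rw [e] at ha
  refine ⟨a, ?_, ?_, ?_⟩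
  · rintro rfl; simp at ha
  · intro h; apply ha; rw [add_comm] at h; rw [h]; ring
  · intro h; apply ha; rw [h]; ring

end field

end Cfsg.Agent.Lib.H26TwDig

namespace Cfsg.Agent.Lib.TwTab
open Cfsg.Lie Cfsg.Agent.Lib.ChevX Cfsg.Agent.Lib.ChevGood Cfsg.Agent.Lib.ChevRel Cfsg.Agent.Lib.ChevNPerm
  Cfsg.Agent.Lib.ChevClosed Cfsg.Agent.Lib.ChevBruhat Cfsg.Agent.Lib.TwFix Cfsg.Agent.Lib.TwFix.TwRk
  Cfsg.Agent.Lib.TwFix.TwAll Cfsg.Agent.Lib.H26TwB Cfsg.Agent.Lib.H26TwDig Cfsg.Agent.Lib.SchurSylow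
open scoped MatrixGroups Matrix

/-- the checks for the table of characters -/
def Tab.chkE (C : Tab) (D : ChevalleyDatum) (d nP : ℕ) (E : ℕ → ℕ → List ℤ) (good : List ℤ → Bool) (rp : List ℕ)
    (th b1 b2 : ℕ) : Bool :=
  Tab.ball C.n (fun r => !C.pos r || ((Tab.bex nP fun i => small d (E i r)) && C.pos (rp.getD (C.rkN r) 0) &&
    (C.rkN (rp.getD (C.rkN r) 0) == C.rkN r) && Nat.blt (rp.getD (C.rkN r) 0) C.n &&
    (C.rkN r != C.rkN th || r == th))) &&
  Tab.ball C.n (fun r => !(C.pos r && rp.getD (C.rkN r) 0 == r) || Tab.ball C.n fun s =>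
    !(C.pos s && rp.getD (C.rkN s) 0 == s) ||
      (if r == s then (C.rh r == r) || Tab.bex nP fun i => good (E i r) else
        Tab.bex nP fun i => (isZ (E i r) && small d (E i s)) || (isZ (E i s) && small d (E i r)))) &&
  Tab.ball C.n (fun r => !(C.pos r && C.rh r == r) || r == th || Tab.bex C.nz fun j =>
    (C.rh (C.wlN (C.jwN j) r) == C.wlN (C.jwN j) r) && C.pos (C.wlN (C.jwN j) r) && Nat.blt r (C.wlN (C.jwN j) r)) &&
  Tab.ball C.n (fun r => Nat.ble (C.rkN r) (C.rkN th)) &&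
  (C.pos th && Nat.blt th C.n && C.rh th == th && C.pos b1 && Nat.blt b1 C.n && C.rh b1 == b1 &&
    C.pos b2 && Nat.blt b2 C.n && C.rh b2 == b2 && (b1 != b2) &&
    (D.commTerms b1 b2 == [(th, (1, (1, 1)))] || D.commTerms b1 b2 == [(th, (-1, (1, 1)))]))

section fin
variable {D : ChevalleyDatum} {F : Type u} [Field F] [Finite F] {G : Good D} {C : Tab} (S : SigData G C F) (h1 : C.chk1 D = true) (h2 : C.chk2 = true)
    (h3 : C.chk3 D = true) (hD : Listed D) {q : ℕ} (he : ∀ r, S.e r = q) (hJ : C.chkJ D = true)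
    (h4 : C.chk4 D 0 = true) (h5 : C.chk5 = true)

/-- **the `p`-part of the multiplier, groups of graph-field type** -/
theorem pStemDvd_p_GF (K : TwAll (blkG S h1 h2 h3 hD he hJ h4 h5) (Γ0 D F C q))
    {d : ℕ} (hd : d = 2 ∨ d = 3) (hq3 : 3 ≤ q) (hF : Nat.card F = q ^ d)
    {nP : ℕ} {E : ℕ → ℕ → List ℤ} {good : List ℤ → Bool} {rp : List ℕ} {th b1 b2 : ℕ}
    (hE : C.chkE D d nP E good rp th b1 b2 = true)
    (tor : ∀ i < nP, ∀ z : F, z ≠ 0 → ∃ h ∈ D.diagonalSubgroup F ⊓ Γ0 D F C q, ∀ r : Fin D.nroots,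
      Acts D h r (z ^ val q (E i r)))
    (cop : ∀ l, good l = true → IsCoprime (val q l) ((q : ℤ) ^ d - 1))
    {p : ℕ} [Fact p.Prime] (hp : IsPGroup p (D.posUnipotent F))
    (hcop : (Nat.card ↥(D.diagonalSubgroup F ⊓ Γ0 D F C q)).Coprime p) :
    PStemDvd p ↥(Γ0 D F C q) 1 := by
  classical
  unfold Tab.chkE at hE
  simp only [Bool.and_eq_true] at hE
  obtain ⟨⟨⟨⟨g1, g2⟩, g3⟩, g4⟩, g5⟩ := hE
  rw [Tab.ball_iff] at g1 g2 g3 g4
  have hn := (Tab.c1 h1).1
  have hpos : ∀ r : ℕ, C.pos r = true ↔ D.nroots / 2 ≤ r := by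
    intro r
    unfold Tab.pos
    rw [hn, Nat.ble_eq]
  obtain ⟨⟨⟨⟨⟨⟨⟨⟨⟨⟨p0, l0⟩, ρ0⟩, p1⟩, l1⟩, ρ1⟩, p2⟩, l2⟩, ρ2⟩, hne12⟩, hct⟩ := g5
  rw [hpos] at p0 p1 p2
  rw [Nat.blt_eq, hn] at l0 l1 l2
  rw [beq_iff_eq] at ρ0 ρ1 ρ2
  set θ : Fin D.nroots := ⟨th, l0⟩ with hθ
  set β1 : Fin D.nroots := ⟨b1, l1⟩ with hβ1
  set β2 : Fin D.nroots := ⟨b2, l2⟩ with hβ2
  have hθp : Pos D θ := p0
  have hβ1p : Pos D β1 := p1
  have hβ2p : Pos D β2 := p2
  have hρ : ∀ r : Fin D.nroots, (((S.sys h1 h2 hD).ρ r : Fin D.nroots) : ℕ) = C.rh r := fun r => rfl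
  have hρθ : (S.sys h1 h2 hD).ρ θ = θ := Fin.ext ρ0
  have hρ1 : (S.sys h1 h2 hD).ρ β1 = β1 := Fin.ext ρ1
  have hρ2 : (S.sys h1 h2 hD).ρ β2 = β2 := Fin.ext ρ2
  have hsmall : ∀ l, small d l = true → val q l ≠ 0 ∧ |val q l| < (q : ℤ) ^ d - 1 := by
    intro l hl
    rcases hd with rfl | rfl
    · exact small2 hq3 hl
    · exact small3 hq3 hl
  obtain ⟨z, hz0, hz⟩ := exists_gen hF
  have hzs : ∀ l, small d l = true → z ^ val q l ≠ 1 := by
    intro l hl h
    obtain ⟨a1, a2⟩ := hsmall l hl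
    exact val_not_dvd a1 a2 (hz _ h)
  have hF5 : 5 ≤ Nat.card F := by
    rw [hF]
    have h9 : 3 ^ 2 ≤ q ^ 2 := Nat.pow_le_pow_left hq3 2
    rcases hd with rfl | rfl
    · omega
    · have : q ^ 2 * 3 ≤ q ^ 3 := by rw [pow_succ q 2]; exact Nat.mul_le_mul_left _ hq3
      omega
  have hle := K.le
  -- ranks
  set R := rkS S h1 h2 hD h4 hp0 with hR
  have hrk : ∀ r : Fin D.nroots, R.rk r = C.rkN r := fun r => rfl
  set rpF : ℕ → Fin D.nroots := fun k => if h : rp.getD k 0 < D.nroots then ⟨rp.getD k 0, h⟩ else θ with hrpF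
  have G1 : ∀ r : Fin D.nroots, Pos D r → (∃ i < nP, small d (E i r) = true) ∧ Pos D (rpF (C.rkN r)) ∧
      C.rkN (rpF (C.rkN r)) = C.rkN r ∧ ((rpF (C.rkN r) : Fin D.nroots) : ℕ) = rp.getD (C.rkN r) 0 ∧
      (C.rkN r = C.rkN th → r = θ) := by
    intro r hr
    have h6 := g1 r (by rw [hn]; exact r.2)
    have h7 : C.pos r = true := (hpos r).mpr hr
    rw [h7] at h6
    simp only [Bool.not_true, Bool.false_or, Bool.and_eq_true, Bool.or_eq_true, bne_iff_ne, beq_iff_eq, Nat.blt_eq] at h6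
    obtain ⟨⟨⟨⟨a1, a2⟩, a3⟩, a4⟩, a5⟩ := h6
    rw [Tab.bex_iff] at a1
    have a4' : rp.getD (C.rkN r) 0 < D.nroots := a4.trans_eq hn
    have e : rpF (C.rkN r) = ⟨rp.getD (C.rkN r) 0, a4'⟩ := by rw [hrpF]; exact dif_pos a4'
    rw [hpos] at a2
    rw [e]
    refine ⟨a1, a2, a3, rfl, fun h => ?_⟩
    rcases a5 with a5 | a5
    · exact absurd h a5
    · exact Fin.ext a5
  have hne : ∀ r, Pos D r → ∃ h ∈ D.diagonalSubgroup F ⊓ Γ0 D F C q, ∃ χ, Acts D h r χ ∧ χ ≠ 1 := by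
    intro r hr
    obtain ⟨⟨i, hi, hs⟩, -⟩ := G1 r hr
    obtain ⟨h, hh, ha⟩ := tor i hi z hz0
    exact ⟨h, hh, _, ha r, hzs _ hs⟩
  have hM : ∀ r : Fin D.nroots, R.rk r < C.rkN th + 1 := by
    intro r
    have := g4 r (by rw [hn]; exact r.2)
    rw [Nat.ble_eq] at this
    rw [hrk]; omega
  have hrp : ∀ r, Pos D r → Pos D (rpF (R.rk r)) ∧ R.rk (rpF (R.rk r)) = R.rk r := by
    intro r hr
    obtain ⟨-, a2, a3, -⟩ := G1 r hr
    exact ⟨a2, a3⟩
  have hkill : ∀ r s, Pos D r → Pos D s → rpF (R.rk r) = r → rpF (R.rk s) = s →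
      Kill p (S.sys h1 h2 hD) (Γ0 D F C q) (SpL (S.sys h1 h2 hD)) r s := by
    intro r s hr hs hr1 hs1
    have a1 : rp.getD (C.rkN r) 0 = r := by
      rw [← (G1 r hr).2.2.2.1]; exact congrArg Fin.val hr1
    have a2 : rp.getD (C.rkN s) 0 = s := by
      rw [← (G1 s hs).2.2.2.1]; exact congrArg Fin.val hs1
    have h6 := g2 r (by rw [hn]; exact r.2)
    rw [(hpos r).mpr hr, a1] at h6
    simp only [beq_self_eq_true, Bool.and_true, Bool.not_true, Bool.false_or] at h6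
    rw [Tab.ball_iff] at h6
    have h7 := h6 s (by rw [hn]; exact s.2)
    rw [(hpos s).mpr hs, a2] at h7
    simp only [beq_self_eq_true, Bool.and_true, Bool.not_true, Bool.false_or] at h7
    by_cases hrs : r = s
    · subst hrs
      simp only [beq_self_eq_true, if_true, Bool.or_eq_true, beq_iff_eq] at h7
      by_cases hρr : (S.sys h1 h2 hD).ρ r = r
      · exact kill_spec ⟨rfl, hρr⟩
      · rcases h7 with h7 | h7
        · exact absurd (Fin.ext h7) hρr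
        · rw [Tab.bex_iff] at h7
          obtain ⟨i, hi, hg⟩ := h7
          obtain ⟨a, ha0, ha1, ha2⟩ := exists_lam hF5
          refine kill_diag (a := a) (fun h => absurd h hρr) ha0 ha1 ha2 ?_
          intro c _ hc
          obtain ⟨y, hy0, hy⟩ := exists_root hF (cop _ hg) hc
          obtain ⟨h, hh, ha⟩ := tor i hi y hy0
          exact ⟨h, hh, by rw [← hy]; exact ha r⟩
    · have hrs' : ((r : ℕ) == (s : ℕ)) = false := by
        rw [beq_eq_false_iff_ne]; exact fun h => hrs (Fin.ext h)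
      rw [hrs'] at h7
      simp only [Bool.false_eq_true, if_false] at h7
      rw [Tab.bex_iff] at h7
      obtain ⟨i, hi, h8⟩ := h7
      obtain ⟨h, hh, ha⟩ := tor i hi z hz0
      simp only [Bool.or_eq_true, Bool.and_eq_true] at h8
      rcases h8 with ⟨h8, h9⟩ | ⟨h8, h9⟩
      · refine kill_right hle hh ?_ (ha s) (hzs _ h9)
        have := ha r
        rwa [val_isZ _ h8, zpow_zero] at this
      · refine kill_left hle hh ?_ (ha r) (hzs _ h9)
        have := ha s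
        rwa [val_isZ _ h8, zpow_zero] at this
  have hneg12 := ne_negF G hβ1p hβ2p
  have hder : ∀ v ∈ Tset (S.sys h1 h2 hD) θ, ∃ a ∈ D.posUnipotent F ⊓ Γ0 D F C q,
      ∃ b ∈ D.posUnipotent F ⊓ Γ0 D F C q, xg D F θ v = a * b * a⁻¹ * b⁻¹ := by
    have hc : ∃ c : ℤ, (c : F) ≠ 0 ∧ D.commTerms b1 b2 = [(th, (c, (1, 1)))] := by
      simp only [Bool.or_eq_true, beq_iff_eq] at hct
      rcases hct with hct | hct
      · exact ⟨1, by simp, hct⟩
      · exact ⟨-1, by simp, hct⟩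
    obtain ⟨c, hc0, hct⟩ := hc
    refine der_of K (θ := θ) hβ1p hβ2p hρ1 hρ2 hρθ hc0 ?_
    intro t u
    rw [bne_iff_ne] at hne12
    have h6 := xg_comm (F := F) G β1.2 β2.2 (fun h => hne12 h.symm) (fun h => hneg12 (Fin.ext h)) t u
    rw [h6]
    unfold ChevalleyDatum.commWord wg
    have hct' : D.commTerms (β1 : ℕ) (β2 : ℕ) = [(th, (c, (1, 1)))] := hct
    rw [hct']
    simp [hθ]
  intro Δ _ _ σ hσ hk
  have h9 := card_ker_eq_one K hp hcop hne hM rpF hrp hθp hρθ rfl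
    (fun r hr h => (G1 r hr).2.2.2.2 h) hder hkill (by
      intro r hr hρr
      have h6 := g3 r (by rw [hn]; exact r.2)
      have h7 : C.rh r = r := congrArg Fin.val hρr
      rw [(hpos r).mpr hr, h7] at h6
      simp only [beq_self_eq_true, Bool.and_true, Bool.not_true, Bool.false_or, Bool.or_eq_true, beq_iff_eq] at h6
      rcases h6 with h6 | h6
      · left; exact Fin.ext h6
      · right
        rw [Tab.bex_iff] at h6
        obtain ⟨j, hj, h8⟩ := h6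
        simp only [Bool.and_eq_true, beq_iff_eq, Nat.blt_eq] at h8
        obtain ⟨⟨b1, b2⟩, b3⟩ := h8
        have h10 : ((wl G (jwF h1 j) r : Fin D.nroots) : ℕ) = C.wlN (C.jwN j) r := wlj_eq h1 h3 hj r
        refine ⟨⟨j, hj⟩, ?_, ?_, ?_⟩
        · apply Fin.ext
          show C.rh ((wl G (jwF h1 j) r : Fin D.nroots) : ℕ) = ((wl G (jwF h1 j) r : Fin D.nroots) : ℕ)
          rw [h10]; exact b1
        · show D.nroots / 2 ≤ ((wl G (jwF h1 j) r : Fin D.nroots) : ℕ)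
          rw [h10, ← hpos]; exact b2
        · show (r : ℕ) < ((wl G (jwF h1 j) r : Fin D.nroots) : ℕ)
          rw [h10]; exact b3) σ hσ hk
  rw [h9]

end fin

end Cfsg.Agent.Lib.TwTab
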