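import Cfsg.Agent.Lib.H26TwB

/-! Pairings of root coordinates that vanish because of the torus (helper26). -/

set_option autoImplicit false
set_option linter.unusedSectionVars false

namespace Cfsg.Agent.Lib.H26TwB
open Cfsg.Lie Cfsg.Agent.Lib.ChevX Cfsg.Agent.Lib.ChevGood Cfsg.Agent.Lib.ChevRel Cfsg.Agent.Lib.ChevNPerm
  Cfsg.Agent.Lib.ChevClosed Cfsg.Agent.Lib.ChevBruhat Cfsg.Agent.Lib.TwFix Cfsg.Agent.Lib.TwFix.TwRk
  Cfsg.Agent.Lib.TwFix.TwAll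
open Cfsg.Agent.Lib.H26LiftB
open scoped MatrixGroups Matrix

universe u

section kills
variable {D : ChevalleyDatum} {F : Type u} [Field F] (T : TwSys D F)

theorem mem_Tset {r : Fin D.nroots} {t : F} : t ∈ Tset T r ↔ (T.ρ r = r → T.ε r * t ^ T.f r = t) := by
  have key : T.ρ r = r → T.s (xg D F r t) = xg D F r (T.ε r * t ^ T.f r) := by
    intro hρ
    rw [T.s_eq (xg_mem_group T.G _ _), T.σx, hρ]
  constructor
  · intro h hρ
    have h1 := (h hρ).2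
    rw [key hρ] at h1
    exact xg_inj T.G r.2 h1
  · intro h hρ
    exact ⟨xg_mem_group T.G _ _, by rw [key hρ, h hρ]⟩

/-- the multipliers of the coordinate set -/
def Kl (r : Fin D.nroots) : Set F := {c | T.ρ r = r → c ^ T.f r = c}

theorem f_sub (r : Fin D.nroots) (t u : F) : (t - u) ^ T.f r = t ^ T.f r - u ^ T.f r := by
  have h := T.f_add r (t - u) u
  rw [sub_add_cancel] at h
  rw [h]; ring

theorem one_mem_Kl (r : Fin D.nroots) : (1 : F) ∈ Kl T r := fun _ => one_pow _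

theorem sub_mem_Kl {r : Fin D.nroots} {c c' : F} (h : c ∈ Kl T r) (h' : c' ∈ Kl T r) : c - c' ∈ Kl T r := by
  intro hρ; rw [f_sub, h hρ, h' hρ]

theorem add_mem_Kl {r : Fin D.nroots} {c c' : F} (h : c ∈ Kl T r) (h' : c' ∈ Kl T r) : c + c' ∈ Kl T r := by
  intro hρ; rw [T.f_add, h hρ, h' hρ]

theorem mul_mem_Kl {r : Fin D.nroots} {c c' : F} (h : c ∈ Kl T r) (h' : c' ∈ Kl T r) : c * c' ∈ Kl T r := by
  intro hρ; rw [mul_pow, h hρ, h' hρ]

theorem inv_mem_Kl {r : Fin D.nroots} {c : F} (h : c ∈ Kl T r) : c⁻¹ ∈ Kl T r := by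
  intro hρ; rw [inv_pow, h hρ]

theorem Kl_Tset {r : Fin D.nroots} {c t : F} (h : c ∈ Kl T r) (ht : t ∈ Tset T r) : c * t ∈ Tset T r := by
  rw [mem_Tset] at ht ⊢
  intro hρ
  rw [mul_pow, h hρ]
  rw [show T.ε r * (c * t ^ T.f r) = c * (T.ε r * t ^ T.f r) by ring, ht hρ]

theorem zero_mem_Tset (r : Fin D.nroots) : (0 : F) ∈ Tset T r := by
  intro hρ
  rw [xg_zero T.G]; exact one_mem _

theorem neg_mem_Tset {r : Fin D.nroots} {t : F} (ht : t ∈ Tset T r) : -t ∈ Tset T r := by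
  intro hρ
  rw [xg_neg T.G]; exact inv_mem (ht hρ)

theorem add_mem_Tset {r : Fin D.nroots} {t t' : F} (ht : t ∈ Tset T r) (ht' : t' ∈ Tset T r) : t + t' ∈ Tset T r := by
  intro hρ
  rw [← xg_add T.G]; exact mul_mem (ht hρ) (ht' hρ)

theorem acts_mem_Kl {r : Fin D.nroots} {h : GL D.Idx F} {χ : F} (hf : h ∈ T.fix) (ha : Acts D h r χ) :
    χ ∈ Kl T r := by
  intro hρ
  have h1 : T.s (h * xg D F r 1 * h⁻¹) = h * T.s (xg D F r 1) * h⁻¹ := by
    rw [T.s_mul (mul_mem hf.1 (xg_mem_group T.G _ _)) (inv_mem hf.1), T.s_mul hf.1 (xg_mem_group T.G _ _),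
      T.s_inv hf.1, hf.2]
  rw [ha, T.s_eq (xg_mem_group T.G _ _), T.s_eq (xg_mem_group T.G _ _), T.σx, T.σx, hρ] at h1
  have h2 := h1.trans (ha _)
  have h3 := xg_inj T.G r.2 h2
  rw [mul_one, one_pow, mul_one] at h3
  have h4 : T.ε r * (χ ^ T.f r - χ) = 0 := by linear_combination h3
  rcases mul_eq_zero.mp h4 with h5 | h5
  · exact absurd h5 (T.ε_ne r)
  · exact sub_eq_zero.mp h5

variable {T}
variable {p : ℕ} {Γ : Subgroup (GL D.Idx F)} {SpR : Fin D.nroots → Fin D.nroots → Prop}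

theorem kill_right (hΓ : Γ ≤ T.fix) {r s : Fin D.nroots} {h : GL D.Idx F} {χ : F} (hh : h ∈ D.diagonalSubgroup F ⊓ Γ)
    (hr : Acts D h r 1) (hs : Acts D h s χ) (hχ : χ ≠ 1) : Kill p T Γ SpR r s := by
  intro A _ g hA g1 g2 g3 g4 g5 t ht u hu
  have k1 := acts_mem_Kl T (hΓ hh.2) hs
  have hne : χ - 1 ≠ 0 := sub_ne_zero.mpr hχ
  set u' := (χ - 1)⁻¹ * u with hu'
  have k2 : u' ∈ Tset T s := Kl_Tset T (inv_mem_Kl T (sub_mem_Kl T k1 (one_mem_Kl T s))) hu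
  have k3 : χ * u' = u' + u := by rw [hu']; field_simp; ring
  have k4 := g3 h hh 1 χ hr hs t ht u' k2
  rw [one_mul, k3, g2 t ht u' k2 u hu] at k4
  exact mul_eq_left.mp k4

theorem kill_left (hΓ : Γ ≤ T.fix) {r s : Fin D.nroots} {h : GL D.Idx F} {χ : F} (hh : h ∈ D.diagonalSubgroup F ⊓ Γ)
    (hr : Acts D h s 1) (hs : Acts D h r χ) (hχ : χ ≠ 1) : Kill p T Γ SpR r s := by
  intro A _ g hA g1 g2 g3 g4 g5 t ht u hu
  have k1 := acts_mem_Kl T (hΓ hh.2) hs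
  have hne : χ - 1 ≠ 0 := sub_ne_zero.mpr hχ
  set t' := (χ - 1)⁻¹ * t with ht'
  have k2 : t' ∈ Tset T r := Kl_Tset T (inv_mem_Kl T (sub_mem_Kl T k1 (one_mem_Kl T r))) ht
  have k3 : χ * t' = t' + t := by rw [ht']; field_simp; ring
  have k4 := g3 h hh χ 1 hs hr t' k2 u hu
  rw [one_mul, k3, g1 t' k2 t ht u hu] at k4
  exact mul_eq_left.mp k4

theorem kill_spec {r s : Fin D.nroots} (h : SpR r s) : Kill p T Γ SpR r s := by
  intro A _ g hA g1 g2 g3 g4 g5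
  exact g5 h

theorem kill_diag {r : Fin D.nroots} {a : F} (ha : a ∈ Kl T r) (ha0 : a ≠ 0) (ha1 : 1 + a ≠ 0)
    (ha2 : a ^ 2 + a + 1 ≠ 0)
    (hs : ∀ c ∈ Kl T r, c ≠ 0 → ∃ h ∈ D.diagonalSubgroup F ⊓ Γ, Acts D h r c) : Kill p T Γ SpR r r := by
  intro A _ g hA g1 g2 g3 g4 g5 t ht u hu
  have inv : ∀ c ∈ Kl T r, c ≠ 0 → ∀ x ∈ Tset T r, ∀ y ∈ Tset T r, g (c * x) (c * y) = g x y := by
    intro c hc hc0 x hx y hy
    obtain ⟨h, hh, hA⟩ := hs c hc hc0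
    exact g3 h hh c c hA hA x hx y hy
  set b : F := a⁻¹ + 1 + a with hb
  have hb0 : b ≠ 0 := by
    intro h0
    apply ha2
    have : a * b = 0 := by rw [h0, mul_zero]
    rw [hb] at this
    field_simp at this
    linear_combination this
  have hbK : b ∈ Kl T r := add_mem_Kl T (add_mem_Kl T (inv_mem_Kl T ha) (one_mem_Kl T r)) ha
  set y := b⁻¹ * u with hy
  have hyT : y ∈ Tset T r := Kl_Tset T (inv_mem_Kl T hbK) hu
  have haT : ∀ x ∈ Tset T r, a * x ∈ Tset T r := fun x hx => Kl_Tset T ha hx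
  have haiT : ∀ x ∈ Tset T r, a⁻¹ * x ∈ Tset T r := fun x hx => Kl_Tset T (inv_mem_Kl T ha) hx
  have hu2 : u = a⁻¹ * y + (y + a * y) := by
    have : u = b * y := by rw [hy, mul_inv_cancel_left₀ hb0]
    rw [this, hb]; ring
  have e1 := inv (1 + a) (add_mem_Kl T (one_mem_Kl T r) ha) ha1 t ht y hyT
  rw [show (1 + a) * t = t + a * t by ring, show (1 + a) * y = y + a * y by ring,
    g1 t ht _ (haT t ht) _ (add_mem_Tset T hyT (haT y hyT)), g2 _ (haT t ht) y hyT _ (haT y hyT),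
    inv a ha ha0 t ht y hyT] at e1
  have e2 : g (a * t) y = g t (a⁻¹ * y) := by
    have := inv a ha ha0 t ht (a⁻¹ * y) (haiT y hyT)
    rw [mul_inv_cancel_left₀ ha0] at this
    exact this
  rw [e2] at e1
  -- `g t (y + a y) * (g t (a⁻¹ y) * g t y) = g t y`
  have e3 : g t (y + a * y) * g t (a⁻¹ * y) = 1 := by
    have : g t (y + a * y) * g t (a⁻¹ * y) * g t y = g t y := by rw [mul_assoc]; exact e1
    exact mul_eq_right.mp this
  rw [hu2, g2 t ht _ (haiT y hyT) _ (add_mem_Tset T hyT (haT y hyT)), mul_comm]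
  exact e3

end kills

end Cfsg.Agent.Lib.H26TwB
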