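import Cfsg.Agent.Lib.H26F4C
import Cfsg.Agent.Lib.H26TwK
import Cfsg.Agent.Lib.H26TwDig
import Cfsg.Agent.Lib.H26SzMult

/-! Torus weights of `²F₄(q)` (helper26). -/

set_option autoImplicit false
set_option linter.unusedSectionVars false
set_option linter.unusedVariables false
set_option maxHeartbeats 1000000

universe u

namespace Cfsg.Agent.Lib.H26TwB
open Cfsg.Lie Cfsg.Agent.Lib.ChevX Cfsg.Agent.Lib.ChevGood Cfsg.Agent.Lib.ChevRel Cfsg.Agent.Lib.ChevNPerm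
  Cfsg.Agent.Lib.ChevClosed Cfsg.Agent.Lib.ChevBruhat Cfsg.Agent.Lib.TwFix Cfsg.Agent.Lib.TwFix.TwRk
  Cfsg.Agent.Lib.TwFix.TwAll
open scoped MatrixGroups Matrix

theorem kill_prop_aux {F : Type*} [Field F] {A : Type*} [CommGroup A] (g : F → F → A)
    (g1 : ∀ t t' u, g (t + t') u = g t u * g t' u) (g2 : ∀ t u u', g t (u + u') = g t u * g t u') {k : ℕ}
    (g3 : ∀ c, c ≠ 0 → ∀ t u, g (c * t) (c ^ k * u) = g t u) {x : F} (hx : x ≠ 0) (hx1 : x + 1 ≠ 0)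
    (hne : ((x + 1) ^ k)⁻¹ ≠ (x ^ k)⁻¹ + 1) (t u : F) : g t u = 1 := by
  have z1 : ∀ u, g 0 u = 1 := by
    intro u
    have := g1 0 0 u
    rw [add_zero] at this
    exact left_eq_mul.mp this
  have z2 : ∀ t, g t 0 = 1 := by
    intro t
    have := g2 t 0 0
    rw [add_zero] at this
    exact left_eq_mul.mp this
  have neg : ∀ t u, g t (-u) = (g t u)⁻¹ := by
    intro t u
    rw [eq_inv_iff_mul_eq_one, ← g2, neg_add_cancel, z2]
  have φ : ∀ t u, t ≠ 0 → g t u = g 1 ((t ^ k)⁻¹ * u) := by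
    intro t u ht
    have := g3 t ht 1 ((t ^ k)⁻¹ * u)
    rw [mul_one, mul_inv_cancel_left₀ (pow_ne_zero k ht)] at this
    exact this
  have h0 : ∀ v, g 1 v = 1 := by
    intro v
    set d := ((x + 1) ^ k)⁻¹ - ((x ^ k)⁻¹ + 1) with hd
    have hd0 : d ≠ 0 := sub_ne_zero.mpr hne
    have key : ∀ u, g 1 (d * u) = 1 := by
      intro u
      have h1 := g1 x 1 u
      rw [φ _ _ hx1, φ _ _ hx] at h1
      have h2 : d * u = ((x + 1) ^ k)⁻¹ * u + -((x ^ k)⁻¹ * u + u) := by rw [hd]; ring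
      rw [h2, g2, neg, g2, h1, mul_inv_cancel]
    have := key (d⁻¹ * v)
    rwa [mul_inv_cancel_left₀ hd0] at this
  by_cases ht : t = 0
  · rw [ht]; exact z1 u
  · rw [φ t u ht]; exact h0 _

section
variable {D : ChevalleyDatum} {F : Type u} [Field F] {T : TwSys D F}
variable {p : ℕ} {Γ : Subgroup (GL D.Idx F)} {SpR : Fin D.nroots → Fin D.nroots → Prop}

theorem Tset_all {r : Fin D.nroots} (h : T.ρ r ≠ r) (t : F) : t ∈ Tset T r := (mem_Tset T).2 fun h' => absurd h' h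

theorem kill_prop {r s : Fin D.nroots} (hr : T.ρ r ≠ r) (hs : T.ρ s ≠ s) {k : ℕ}
    (h : ∀ c : F, c ≠ 0 → ∃ h ∈ D.diagonalSubgroup F ⊓ Γ, Acts D h r c ∧ Acts D h s (c ^ k))
    {x : F} (hx : x ≠ 0) (hx1 : x + 1 ≠ 0) (hne : ((x + 1) ^ k)⁻¹ ≠ (x ^ k)⁻¹ + 1) : Kill p T Γ SpR r s := by
  intro A _ g hA g1 g2 g3 g4 g5 t _ u _
  refine kill_prop_aux g (fun t t' u => g1 t (Tset_all hr t) t' (Tset_all hr t') u (Tset_all hs u))
    (fun t u u' => g2 t (Tset_all hr t) u (Tset_all hs u) u' (Tset_all hs u')) (k := k) ?_ hx hx1 hne t u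
  intro c hc t u
  obtain ⟨a, ha, h1, h2⟩ := h c hc
  exact g3 a ha c (c ^ k) h1 h2 t (Tset_all hr t) u (Tset_all hs u)

theorem kill_prop' {r s : Fin D.nroots} (hr : T.ρ r ≠ r) (hs : T.ρ s ≠ s) {k : ℕ}
    (h : ∀ c : F, c ≠ 0 → ∃ h ∈ D.diagonalSubgroup F ⊓ Γ, Acts D h r (c ^ k) ∧ Acts D h s c)
    {x : F} (hx : x ≠ 0) (hx1 : x + 1 ≠ 0) (hne : ((x + 1) ^ k)⁻¹ ≠ (x ^ k)⁻¹ + 1) : Kill p T Γ SpR r s := by
  intro A _ g hA g1 g2 g3 g4 g5 t _ u _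
  refine kill_prop_aux (fun t u => g u t)
    (fun t t' u => g2 u (Tset_all hr u) t (Tset_all hs t) t' (Tset_all hs t'))
    (fun t u u' => g1 u (Tset_all hr u) u' (Tset_all hr u') t (Tset_all hs t)) (k := k) ?_ hx hx1 hne u t
  intro c hc t u
  obtain ⟨a, ha, h1, h2⟩ := h c hc
  exact g3 a ha (c ^ k) c h1 h2 u (Tset_all hr u) t (Tset_all hs t)

end

end Cfsg.Agent.Lib.H26TwB

namespace Cfsg.Agent.Lib.TwF4
open Cfsg.Lie Cfsg.Agent.Lib.ChevX Cfsg.Agent.Lib.ChevGood Cfsg.Agent.Lib.ChevRel Cfsg.Agent.Lib.ChevNPerm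
  Cfsg.Agent.Lib.ChevClosed Cfsg.Agent.Lib.ChevBruhat Cfsg.Agent.Lib.TwFix Cfsg.Agent.Lib.TwFix.TwRk
  Cfsg.Agent.Lib.TwTab Cfsg.Agent.Lib.TwField Cfsg.Agent.Lib.TwSpec Cfsg.Agent.Lib.TwModp
  Cfsg.Agent.Lib.SchurSylow Cfsg.Agent.Lib.H26TwB Cfsg.Agent.Lib.H26TwDig
open scoped MatrixGroups Matrix commutatorElement

/-! ### arithmetic -/

def ok3 (a b c : ℤ) : Bool :=
  let c' := c / 2
  let c2 := c % 2
  let a' := a + c'
  !(a' == 0 && b == 0 && c2 == 0) && decide (-7 ≤ a' ∧ a' ≤ 7 ∧ -6 ≤ b ∧ b ≤ 6) &&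
    decide ((a' + 2 * b + 4 * c2) % 7 ≠ 0) && decide ((a' + 4 * b + 16 * c2) % 31 ≠ 0)

theorem ok3_sound {a b c : ℤ} (h : ok3 a b c = true) {m : ℕ} (hm : 1 ≤ m) :
    ¬ (2 * ((2 : ℤ) ^ m) ^ 2 - 1) ∣ a + b * 2 ^ m + c * (2 ^ m) ^ 2 := by
  unfold ok3 at h
  simp only [Bool.and_eq_true, Bool.not_eq_true', Bool.and_eq_false_iff, beq_eq_false_iff_ne, decide_eq_true_eq, ne_eq] at h
  obtain ⟨⟨⟨h1, h2, h3, h4, h5⟩, h7⟩, h31⟩ := h
  set c' := c / 2 with hc'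
  set c2 := c % 2 with hc2
  have hc : c = 2 * c' + c2 := by omega
  have hc2b : c2 = 0 ∨ c2 = 1 := by omega
  set a' := a + c' with ha'
  have key : a + b * 2 ^ m + c * (2 ^ m) ^ 2 = (a' + b * 2 ^ m + c2 * (2 ^ m) ^ 2) + c' * (2 * ((2 : ℤ) ^ m) ^ 2 - 1) := by
    rw [hc, ha']; ring
  rw [key]
  intro hd
  have hd2 := (Int.dvd_iff_dvd_of_dvd_add hd).2 (dvd_mul_left _ _)
  clear hd key
  rcases Nat.lt_or_ge m 3 with hm3 | hm3
  · interval_cases m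
    · norm_num at hd2
      omega
    · norm_num at hd2
      omega
  · obtain ⟨n, rfl⟩ : ∃ n, m = n + 3 := ⟨m - 3, by omega⟩
    have hn : (1 : ℤ) ≤ 2 ^ n := one_le_pow₀ (by norm_num)
    have e8 : (2 : ℤ) ^ (n + 3) = 8 * 2 ^ n := by rw [pow_add]; ring
    rw [e8] at hd2
    set y := (2 : ℤ) ^ n with hy
    have hne : a' + b * (8 * y) + c2 * (8 * y) ^ 2 ≠ 0 := by
      intro h0
      rcases hc2b with h6 | h6
      · rw [h6] at h0
        have h8 : b = 0 := by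
          by_contra hb
          rcases lt_or_gt_of_ne hb with hb | hb
          · nlinarith
          · nlinarith
        rw [h8] at h0
        have : a' = 0 := by linarith
        rcases h1 with (h1 | h1) | h1 <;> contradiction
      · rw [h6] at h0
        nlinarith
    refine hne (Int.eq_zero_of_abs_lt_dvd hd2 ?_)
    rw [abs_lt]
    rcases hc2b with h6 | h6 <;> rw [h6] <;> constructor <;> nlinarith

/-- weights -/
def AA (n : ℕ) (θ : ℤ) : ℤ := chevF4.cartan 0 n * θ + chevF4.cartan 3 n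
def BB (n : ℕ) (θ : ℤ) : ℤ := chevF4.cartan 1 n * θ + chevF4.cartan 2 n

def detok (r s : ℕ) : Bool :=
  ok3 (chevF4.cartan 2 s * chevF4.cartan 3 r - chevF4.cartan 3 s * chevF4.cartan 2 r)
    (chevF4.cartan 1 s * chevF4.cartan 3 r + chevF4.cartan 2 s * chevF4.cartan 0 r - chevF4.cartan 0 s * chevF4.cartan 2 r -
      chevF4.cartan 3 s * chevF4.cartan 1 r)
    (chevF4.cartan 1 s * chevF4.cartan 0 r - chevF4.cartan 0 s * chevF4.cartan 1 r)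

theorem detok_sound {r s : ℕ} (h : detok r s = true) {m : ℕ} (hm : 1 ≤ m) :
    ¬ (2 * ((2 : ℤ) ^ m) ^ 2 - 1) ∣ BB s (2 ^ m) * AA r (2 ^ m) - AA s (2 ^ m) * BB r (2 ^ m) := by
  have h1 := ok3_sound h hm
  convert h1 using 1
  unfold AA BB
  ring

/-! ### representatives -/

def rps : List ℕ := [24, 25, 26, 28, 31, 41, 32, 36, 38, 39, 40, 44]

def szp (r s : ℕ) : Bool := ((r, s) ∈ [(25, 28), (26, 36), (31, 40), (41, 44)])

theorem det_all : (rps.all fun r => rps.all fun s => (r == s) || (szp r s || (szp s r || detok r s))) = true := by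
  decide +kernel

theorem rps_pos : ∀ r < 24, rps.getD (tabF4.rkN (r + 24)) 0 ∈ rps ∧ 24 ≤ rps.getD (tabF4.rkN (r + 24)) 0 ∧
    rps.getD (tabF4.rkN (r + 24)) 0 < 48 ∧ tabF4.rkN (rps.getD (tabF4.rkN (r + 24)) 0) = tabF4.rkN (r + 24) := by
  decide +kernel

theorem ne_zero_wt : ∀ r < 24, (chevF4.cartan 0 (r + 24), chevF4.cartan 3 (r + 24)) ≠ (0, 0) ∨
    (chevF4.cartan 1 (r + 24), chevF4.cartan 2 (r + 24)) ≠ (0, 0) := by decide +kernel

theorem bd_wt : ∀ r < 24, (-2 ≤ chevF4.cartan 0 (r + 24) ∧ chevF4.cartan 0 (r + 24) ≤ 2 ∧ -1 ≤ chevF4.cartan 3 (r + 24) ∧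
    chevF4.cartan 3 (r + 24) ≤ 2) ∧ (-2 ≤ chevF4.cartan 1 (r + 24) ∧ chevF4.cartan 1 (r + 24) ≤ 2 ∧
    -1 ≤ chevF4.cartan 2 (r + 24) ∧ chevF4.cartan 2 (r + 24) ≤ 2) := by decide +kernel

theorem rh_ne : ∀ r < 48, tabF4.rh r ≠ r := by decide +kernel

/-- the weights of the representatives -/
theorem wts : (rps.map fun n => (chevF4.cartan 0 n, chevF4.cartan 3 n, chevF4.cartan 1 n, chevF4.cartan 2 n)) =
    [((0 : ℤ), (2 : ℤ), (0 : ℤ), (-1 : ℤ)), (0, -1, -2, 2), (0, 1, -2, 1), (-1, -1, 0, 1), (-2, 1, 2, -1), (2, -1, 0, 0),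
     (-2, 0, 0, 1), (1, 1, -1, 0), (0, 1, 1, -1), (0, 0, -1, 1), (-1, 0, 1, 0), (1, 0, 0, 0)] := by decide +kernel

end Cfsg.Agent.Lib.TwF4
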