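import Cfsg.Agent.Lib.H26F4D

/-! The characters of the torus of `²F₄(q)` on the layers of `U` (helper26). -/

set_option autoImplicit false
set_option linter.unusedSectionVars false
set_option linter.unusedVariables false
set_option maxHeartbeats 1000000

universe u

namespace Cfsg.Agent.Lib.TwF4
open Cfsg.Lie Cfsg.Agent.Lib.ChevX Cfsg.Agent.Lib.ChevGood Cfsg.Agent.Lib.ChevRel Cfsg.Agent.Lib.ChevNPerm
  Cfsg.Agent.Lib.ChevClosed Cfsg.Agent.Lib.ChevBruhat Cfsg.Agent.Lib.TwFix Cfsg.Agent.Lib.TwFix.TwRk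
  Cfsg.Agent.Lib.TwTab Cfsg.Agent.Lib.TwField Cfsg.Agent.Lib.TwSpec Cfsg.Agent.Lib.TwModp
  Cfsg.Agent.Lib.SchurSylow Cfsg.Agent.Lib.H26TwB Cfsg.Agent.Lib.H26TwDig
open scoped MatrixGroups Matrix commutatorElement

variable {K : Type u} [Field K] [Fintype K] {m : ℕ} (hK : Fintype.card K = 2 ^ (2 * m + 1))

include hK in
theorem torg {g : K} (hg : g ≠ 0) (i j : ℤ) : ∃ h ∈ chevF4.diagonalSubgroup K ⊓ twistedF4 K (2 ^ m),
    ∀ n : Fin chevF4.nroots, Acts chevF4 h n (g ^ (i * AA n (2 ^ m) + j * BB n (2 ^ m))) := by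
  have h1 : g ^ i ≠ 0 := zpow_ne_zero _ hg
  have h2 : g ^ j ≠ 0 := zpow_ne_zero _ hg
  refine ⟨tP (2 ^ m) (g ^ i) * tB (2 ^ m) (g ^ j), mul_mem (tP_memH hK h1) (tB_memH hK h2), fun n t => ?_⟩
  have e : tP (2 ^ m) (g ^ i) * tB (2 ^ m) (g ^ j) * xg chevF4 K n t * (tP (2 ^ m) (g ^ i) * tB (2 ^ m) (g ^ j))⁻¹ =
      tP (2 ^ m) (g ^ i) * (tB (2 ^ m) (g ^ j) * xg chevF4 K n t * (tB (2 ^ m) (g ^ j))⁻¹) * (tP (2 ^ m) (g ^ i))⁻¹ := by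
    group
  rw [e, tB_conj hK h2 n.2, tP_conj hK h1 n.2]
  congr 1
  rw [← mul_assoc]
  congr 1
  have e1 : ∀ (x : K) (a : ℤ), (x ^ 2 ^ m) ^ a = x ^ (a * 2 ^ m) := by
    intro x a
    rw [← zpow_natCast, ← zpow_mul]; push_cast; rw [mul_comm]
  rw [e1, e1, ← zpow_mul, ← zpow_mul, ← zpow_mul, ← zpow_mul, ← zpow_add₀ hg, ← zpow_add₀ hg, ← zpow_add₀ hg]
  congr 1
  unfold AA BB
  ring

theorem q1 (m : ℕ) : (((2 : ℕ) : ℤ)) ^ (2 * m + 1) - 1 = 2 * ((2 : ℤ) ^ m) ^ 2 - 1 := by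
  push_cast
  rw [pow_succ, mul_comm 2 m, pow_mul]; ring

include hK in
theorem exg : ∃ g : K, g ≠ 0 ∧ ∀ v : ℤ, g ^ v = 1 → (2 * ((2 : ℤ) ^ m) ^ 2 - 1) ∣ v := by
  obtain ⟨g, h1, h2⟩ := H26TwDig.exists_gen (F := K) (q := 2) (d := 2 * m + 1) (by rw [Nat.card_eq_fintype_card, hK])
  refine ⟨g, h1, fun v hv => ?_⟩
  have := h2 v hv
  rwa [q1] at this

include hK in
theorem exr {v : ℤ} (hv : IsCoprime v (2 * ((2 : ℤ) ^ m) ^ 2 - 1)) {c : K} (hc : c ≠ 0) : ∃ z : K, z ≠ 0 ∧ z ^ v = c := by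
  refine exists_root (F := K) (q := 2) (d := 2 * m + 1) (by rw [Nat.card_eq_fintype_card, hK]) ?_ hc
  rwa [q1]

theorem wt1 {n : ℕ} (hn : n ∈ rps) : (n, chevF4.cartan 0 n, chevF4.cartan 3 n, chevF4.cartan 1 n, chevF4.cartan 2 n) ∈
    [(24, (0 : ℤ), (2 : ℤ), (0 : ℤ), (-1 : ℤ)), (25, 0, -1, -2, 2), (26, 0, 1, -2, 1), (28, -1, -1, 0, 1), (31, -2, 1, 2, -1),
     (41, 2, -1, 0, 0), (32, -2, 0, 0, 1), (36, 1, 1, -1, 0), (38, 0, 1, 1, -1), (39, 0, 0, -1, 1), (40, -1, 0, 1, 0),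
     (44, 1, 0, 0, 0)] := by
  revert n
  have : (rps.all fun n => decide ((n, chevF4.cartan 0 n, chevF4.cartan 3 n, chevF4.cartan 1 n, chevF4.cartan 2 n) ∈
    [(24, (0 : ℤ), (2 : ℤ), (0 : ℤ), (-1 : ℤ)), (25, 0, -1, -2, 2), (26, 0, 1, -2, 1), (28, -1, -1, 0, 1), (31, -2, 1, 2, -1),
     (41, 2, -1, 0, 0), (32, -2, 0, 0, 1), (36, 1, 1, -1, 0), (38, 0, 1, 1, -1), (39, 0, 0, -1, 1), (40, -1, 0, 1, 0),
     (44, 1, 0, 0, 0)])) = true := by decide +kernel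
  intro n hn
  rw [List.all_eq_true] at this
  exact of_decide_eq_true (this n hn)

theorem cops {n : ℕ} (hn : n ∈ rps) (θ : ℤ) : ∃ i j : ℤ, IsCoprime (i * AA n θ + j * BB n θ) (2 * θ ^ 2 - 1) := by
  have h := wt1 hn
  unfold AA BB
  simp only [List.mem_cons, List.not_mem_nil, or_false, Prod.mk.injEq] at h
  rcases h with ⟨rfl, h0, h3, h1, h2⟩ | ⟨rfl, h0, h3, h1, h2⟩ | ⟨rfl, h0, h3, h1, h2⟩ | ⟨rfl, h0, h3, h1, h2⟩ | ⟨rfl, h0, h3, h1, h2⟩ |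
    ⟨rfl, h0, h3, h1, h2⟩ | ⟨rfl, h0, h3, h1, h2⟩ | ⟨rfl, h0, h3, h1, h2⟩ | ⟨rfl, h0, h3, h1, h2⟩ | ⟨rfl, h0, h3, h1, h2⟩ |
    ⟨rfl, h0, h3, h1, h2⟩ | ⟨rfl, h0, h3, h1, h2⟩ <;> rw [h0, h3, h1, h2]
  · exact ⟨0, -1, 1, 0, by ring⟩
  · exact ⟨-1, 0, 1, 0, by ring⟩
  · exact ⟨1, 0, 1, 0, by ring⟩
  · exact ⟨0, 1, 1, 0, by ring⟩
  · exact ⟨-1, 0, 2 * θ + 1, -2, by ring⟩
  · exact ⟨1, 0, 2 * θ + 1, -2, by ring⟩
  · exact ⟨0, 1, 1, 0, by ring⟩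
  · exact ⟨0, -1, 2 * θ, -1, by ring⟩
  · exact ⟨1, 0, 1, 0, by ring⟩
  · exact ⟨0, 1, 2 + 2 * θ, 1, by ring⟩
  · exact ⟨-1, 0, 2 * θ, -1, by ring⟩
  · exact ⟨1, 0, 2 * θ, -1, by ring⟩

include hK in
theorem surj {n : Fin chevF4.nroots} (hn : (n : ℕ) ∈ rps) {c : K} (hc : c ≠ 0) :
    ∃ h ∈ chevF4.diagonalSubgroup K ⊓ twistedF4 K (2 ^ m), Acts chevF4 h n c := by
  obtain ⟨i, j, hij⟩ := cops hn (2 ^ m)
  obtain ⟨z, hz0, hz⟩ := exr hK hij hc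
  obtain ⟨h, hh, ha⟩ := torg hK hz0 i j
  exact ⟨h, hh, by rw [← hz]; exact ha n⟩

theorem hne_chk : ∀ r < 24, (ok3 (chevF4.cartan 3 (r + 24)) (chevF4.cartan 0 (r + 24)) 0 ||
    ok3 (chevF4.cartan 2 (r + 24)) (chevF4.cartan 1 (r + 24)) 0) = true := by decide +kernel

include hK in
theorem hneF (hm : 1 ≤ m) (r : Fin chevF4.nroots) (hr : Pos chevF4 r) :
    ∃ h ∈ chevF4.diagonalSubgroup K ⊓ twistedF4 K (2 ^ m), ∃ χ, Acts chevF4 h r χ ∧ χ ≠ 1 := by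
  obtain ⟨g, hg0, hg⟩ := exg hK
  have hr1 : 24 ≤ (r : ℕ) := hr
  have hr2 : (r : ℕ) < 48 := r.2
  have h1 := hne_chk (r - 24) (by omega)
  rw [show (r : ℕ) - 24 + 24 = r by omega, Bool.or_eq_true] at h1
  rcases h1 with h1 | h1
  · obtain ⟨h, hh, ha⟩ := torg hK hg0 1 0
    refine ⟨h, hh, _, ha r, fun h2 => ok3_sound h1 hm ?_⟩
    have := hg _ h2
    convert this using 1
    unfold AA BB; ring
  · obtain ⟨h, hh, ha⟩ := torg hK hg0 0 1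
    refine ⟨h, hh, _, ha r, fun h2 => ok3_sound h1 hm ?_⟩
    have := hg _ h2
    convert this using 1
    unfold AA BB; ring

variable {SpR : Fin chevF4.nroots → Fin chevF4.nroots → Prop}

theorem rh_ne' (r : Fin chevF4.nroots) : (T hK).ρ r ≠ r := fun h => rh_ne r r.2 (congrArg Fin.val h)

theorem kill_ns (hm : 1 ≤ m) {r s : Fin chevF4.nroots} (hr : (r : ℕ) ∈ rps) (hs : (s : ℕ) ∈ rps)
    (h1 : szp r s = false) (h2 : szp s r = false) : Kill 2 (T hK) (twistedF4 K (2 ^ m)) SpR r s := by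
  by_cases hrs : r = s
  · subst hrs
    have hc5 : 5 ≤ Nat.card K := by
      rw [Nat.card_eq_fintype_card, hK]
      have : 2 ^ 3 ≤ 2 ^ (2 * m + 1) := Nat.pow_le_pow_right (by norm_num) (by omega)
      omega
    obtain ⟨a, ha0, ha1, ha2⟩ := exists_lam hc5
    refine kill_diag (a := a) (fun h => absurd h (rh_ne' hK r)) ha0 ha1 ha2 ?_
    intro c _ hc
    exact surj hK hr hc
  · have h3 := det_all
    rw [List.all_eq_true] at h3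
    have h4 := h3 _ hr
    rw [List.all_eq_true] at h4
    have h5 := h4 _ hs
    rw [h1, h2, beq_eq_false_iff_ne.2 (fun h => hrs (Fin.ext h))] at h5
    simp only [Bool.false_or] at h5
    obtain ⟨g, hg0, hg⟩ := exg hK
    obtain ⟨h, hh, ha⟩ := torg hK hg0 (-BB r (2 ^ m)) (AA r (2 ^ m))
    refine kill_right (all hK).le hh ?_ (ha s) ?_
    · have := ha r
      rwa [show -BB r (2 ^ m) * AA r (2 ^ m) + AA r (2 ^ m) * BB r (2 ^ m) = (0 : ℤ) by ring, zpow_zero] at this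
    · intro h6
      refine detok_sound h5 hm ?_
      have := hg _ h6
      convert this using 1
      ring

/-- the hypotheses on ranks -/
theorem rk_val (r : Fin chevF4.nroots) :
    (rkS (sig hK) chk1F4 chk2F4 listed chk4F4 (hp2 hK)).rk r = tabF4.rkN r := rfl

theorem rk_lt : ∀ r < 48, tabF4.rkN r < 12 := by decide +kernel

/-- representatives -/
def rpF (k : ℕ) : Fin chevF4.nroots := if h : rps.getD k 0 < chevF4.nroots then ⟨rps.getD k 0, h⟩ else ⟨24, by decide⟩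

theorem rpF_val {r : Fin chevF4.nroots} (hr : Pos chevF4 r) :
    ((rpF (tabF4.rkN r) : Fin chevF4.nroots) : ℕ) ∈ rps ∧ Pos chevF4 (rpF (tabF4.rkN r)) ∧
      tabF4.rkN (rpF (tabF4.rkN r)) = tabF4.rkN r := by
  have hr1 : 24 ≤ (r : ℕ) := hr
  have hr2 : (r : ℕ) < 48 := r.2
  obtain ⟨h1, h2, h3, h4⟩ := rps_pos (r - 24) (by omega)
  rw [show (r : ℕ) - 24 + 24 = r by omega] at h1 h2 h3 h4
  have e : rpF (tabF4.rkN r) = ⟨rps.getD (tabF4.rkN r) 0, h3⟩ := by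
    unfold rpF; exact dif_pos h3
  rw [e]
  exact ⟨h1, h2, h4⟩

end Cfsg.Agent.Lib.TwF4
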