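import Cfsg.Agent.Lib.H26F4E

/-! The `2`-part of the multiplier of `²F₄(q)` (helper26). -/

set_option autoImplicit false
set_option linter.unusedSectionVars false
set_option linter.unusedVariables false
set_option maxHeartbeats 1000000

universe u

namespace Cfsg.Agent.Lib.TwF4
open Cfsg.Lie Cfsg.Agent.Lib.ChevX Cfsg.Agent.Lib.ChevGood Cfsg.Agent.Lib.ChevRel Cfsg.Agent.Lib.ChevNPerm
  Cfsg.Agent.Lib.ChevClosed Cfsg.Agent.Lib.ChevBruhat Cfsg.Agent.Lib.TwFix Cfsg.Agent.Lib.TwFix.TwRk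
  Cfsg.Agent.Lib.TwFix.TwAll
  Cfsg.Agent.Lib.TwTab Cfsg.Agent.Lib.TwField Cfsg.Agent.Lib.TwSpec Cfsg.Agent.Lib.TwModp
  Cfsg.Agent.Lib.SchurSylow Cfsg.Agent.Lib.H26TwB Cfsg.Agent.Lib.H26TwDig Cfsg.Agent.Lib.H26LiftB
open scoped MatrixGroups Matrix commutatorElement

variable {K : Type u} [Field K] [Fintype K] {m : ℕ} (hK : Fintype.card K = 2 ^ (2 * m + 1))

include hK in
theorem zpow_per {z : K} (hz : z ≠ 0) {v w : ℤ} (h : (2 * ((2 : ℤ) ^ m) ^ 2 - 1) ∣ v - w) : z ^ v = z ^ w := by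
  have h2 : z ^ (2 * ((2 : ℤ) ^ m) ^ 2 - 1) = 1 := by
    have h3 := FiniteField.pow_card_sub_one_eq_one z hz
    rw [hK] at h3
    have h4 : 1 ≤ 2 ^ (2 * m + 1) := Nat.one_le_two_pow
    have h5 : ((2 ^ (2 * m + 1) - 1 : ℕ) : ℤ) = 2 * ((2 : ℤ) ^ m) ^ 2 - 1 := by
      rw [Nat.cast_sub h4, Nat.cast_pow, Nat.cast_one, q1]
    rw [← h5, zpow_natCast, h3]
  obtain ⟨k, hk⟩ := h
  rw [show v = w + (2 * ((2 : ℤ) ^ m) ^ 2 - 1) * k by linear_combination hk, zpow_add₀ hz, zpow_mul, h2, one_zpow, mul_one]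

theorem szp_wt {r s : ℕ} (h : szp r s = true) (θ : ℤ) :
    (2 * θ ^ 2 - 1) ∣ AA s θ - AA r θ * (θ + 1) ∧ IsCoprime (AA r θ) (2 * θ ^ 2 - 1) := by
  unfold szp at h
  rw [decide_eq_true_eq] at h
  have a25 := wt1 (n := 25) (by decide)
  have a28 := wt1 (n := 28) (by decide)
  have a26 := wt1 (n := 26) (by decide)
  have a36 := wt1 (n := 36) (by decide)
  have a31 := wt1 (n := 31) (by decide)
  have a40 := wt1 (n := 40) (by decide)
  have a41 := wt1 (n := 41) (by decide)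
  have a44 := wt1 (n := 44) (by decide)
  simp only [List.mem_cons, List.not_mem_nil, or_false, Prod.mk.injEq, Nat.reduceEqDiff, false_and, false_or, true_and,
    Nat.reduceEqDiff] at h a25 a28 a26 a36 a31 a40 a41 a44
  unfold AA
  rcases h with ⟨rfl, rfl⟩ | ⟨rfl, rfl⟩ | ⟨rfl, rfl⟩ | ⟨rfl, rfl⟩
  · rw [a25.1, a25.2.1, a28.1, a28.2.1]
    exact ⟨⟨0, by ring⟩, -1, 0, by ring⟩
  · rw [a26.1, a26.2.1, a36.1, a36.2.1]
    exact ⟨⟨0, by ring⟩, 1, 0, by ring⟩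
  · rw [a31.1, a31.2.1, a40.1, a40.2.1]
    exact ⟨⟨1, by ring⟩, -(2 * θ + 1), -2, by ring⟩
  · rw [a41.1, a41.2.1, a44.1, a44.2.1]
    exact ⟨⟨-1, by ring⟩, 2 * θ + 1, -2, by ring⟩

include hK in
theorem szp_tor {r s : Fin chevF4.nroots} (h : szp r s = true) {c : K} (hc : c ≠ 0) :
    ∃ h ∈ chevF4.diagonalSubgroup K ⊓ twistedF4 K (2 ^ m), Acts chevF4 h r c ∧ Acts chevF4 h s (c ^ (2 ^ m + 1)) := by
  obtain ⟨h1, h2⟩ := szp_wt h (2 ^ m)
  obtain ⟨z, hz0, hz⟩ := exr hK h2 hc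
  obtain ⟨a, ha, hA⟩ := torg hK hz0 1 0
  refine ⟨a, ha, ?_, ?_⟩
  · have := hA r
    rwa [show (1 : ℤ) * AA r (2 ^ m) + 0 * BB r (2 ^ m) = AA r (2 ^ m) by ring, hz] at this
  · have := hA s
    rw [show (1 : ℤ) * AA s (2 ^ m) + 0 * BB s (2 ^ m) = AA s (2 ^ m) by ring] at this
    rw [← hz, ← zpow_natCast, ← zpow_mul]
    push_cast
    rwa [← zpow_per hK hz0 h1]

include hK in
theorem nonadd (hm : 2 ≤ m) : ∃ x : K, x ≠ 0 ∧ x + 1 ≠ 0 ∧ ((x + 1) ^ (2 ^ m + 1))⁻¹ ≠ (x ^ (2 ^ m + 1))⁻¹ + 1 := by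
  haveI := char2 hK
  haveI : Fact (Nat.Prime 2) := ⟨Nat.prime_two⟩
  haveI : ExpChar K 2 := ExpChar.prime Nat.prime_two
  obtain ⟨x, hx0, hx1, hne⟩ := H26SzMult.exists_top (F := K) hm hK
  refine ⟨x, hx0, hx1, fun h => hne ?_⟩
  rw [SzLie.tht_apply, SzLie.tht_apply, SzLie.tht_apply, one_pow, mul_one, inv_one]
  have key : ∀ y : K, y ^ (2 ^ m + 1) = (y * y ^ 2 ^ (m + 1)) ^ 2 ^ m := by
    intro y
    have e : 2 ^ (m + 1) * 2 ^ m = 2 ^ (2 * m + 1) := by rw [← pow_add]; congr 1; omega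
    rw [mul_pow, ← pow_mul y, e, ← hK, FiniteField.pow_card, pow_succ]
  have h2 : ∀ a b : K, a ^ 2 ^ m = b ^ 2 ^ m → a = b := by
    intro a b hab
    have : iterateFrobenius K 2 m a = iterateFrobenius K 2 m b := by
      rw [iterateFrobenius_def, iterateFrobenius_def]; exact hab
    exact (iterateFrobenius K 2 m).injective this
  apply h2
  rw [inv_pow, ← key, h, key, ← inv_pow, add_pow_char_pow, one_pow]

theorem kill_sz (hm : 2 ≤ m) {SpR : Fin chevF4.nroots → Fin chevF4.nroots → Prop} {r s : Fin chevF4.nroots}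
    (h : szp r s = true ∨ szp s r = true) : Kill 2 (T hK) (twistedF4 K (2 ^ m)) SpR r s := by
  obtain ⟨x, hx0, hx1, hx⟩ := nonadd hK hm
  rcases h with h | h
  · exact kill_prop (rh_ne' hK r) (rh_ne' hK s) (fun c hc => szp_tor hK h hc) hx0 hx1 hx
  · refine kill_prop' (rh_ne' hK r) (rh_ne' hK s) (fun c hc => ?_) hx0 hx1 hx
    obtain ⟨a, ha, h1, h2⟩ := szp_tor hK h hc
    exact ⟨a, ha, h2, h1⟩

include hK in
theorem copF : (Nat.card ↥(chevF4.diagonalSubgroup K ⊓ twistedF4 K (2 ^ m))).Coprime 2 := by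
  rw [card_H hK]
  apply Nat.Coprime.pow_left
  rw [Nat.coprime_comm, Nat.coprime_two_left]
  rw [Nat.odd_sub Nat.one_le_two_pow]
  simp [Nat.even_pow, Nat.odd_iff]

theorem hMF (r : Fin chevF4.nroots) : (rkS (sig hK) chk1F4 chk2F4 listed chk4F4 (hp2 hK)).rk r < 12 := rk_lt r r.2

theorem hrpF (r : Fin chevF4.nroots) (hr : Pos chevF4 r) :
    Pos chevF4 (rpF ((rkS (sig hK) chk1F4 chk2F4 listed chk4F4 (hp2 hK)).rk r)) ∧
      (rkS (sig hK) chk1F4 chk2F4 listed chk4F4 (hp2 hK)).rk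
        (rpF ((rkS (sig hK) chk1F4 chk2F4 listed chk4F4 (hp2 hK)).rk r)) =
        (rkS (sig hK) chk1F4 chk2F4 listed chk4F4 (hp2 hK)).rk r := (rpF_val hr).2

theorem mem_rps {r : Fin chevF4.nroots} (hr : Pos chevF4 r)
    (h : rpF ((rkS (sig hK) chk1F4 chk2F4 listed chk4F4 (hp2 hK)).rk r) = r) : (r : ℕ) ∈ rps := by
  have := (rpF_val hr).1
  have h' : rpF (tabF4.rkN r) = r := h
  rwa [h'] at this

include hK in
/-- **the `2`-part, `q ≥ 32`** -/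
theorem pStemDvd_two (hm : 2 ≤ m) : PStemDvd 2 ↥(twistedF4 K (2 ^ m)) 1 := by
  intro Δ _ _ σ hσ hk
  haveI : Fact (Nat.Prime 2) := ⟨Nat.prime_two⟩
  have h9 : Nat.card σ.ker = 1 := by
    refine BDat.main hσ (bdat (all hK) (pU hK) (copF hK) (fun r hr => hneF hK (by omega) r hr) (hMF hK)) hk
      (fun _ _ _ => False) (fun _ _ _ _ _ h => h.elim) ?_
    intro k hk A _ f hA hf _
    refine pair_main (all hK) (pU hK) (copF hK) (fun r hr => hneF hK (by omega) r hr) (hMF hK) (fun _ _ => False) rpF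
      (hrpF hK) ?_ f hA hf (fun _ _ _ _ _ h => h.elim)
    intro r s hr hs _ h1 h2
    by_cases h : szp r s = true ∨ szp s r = true
    · exact kill_sz hK hm h
    · push Not at h
      exact kill_ns hK (by omega) (mem_rps hK hr h1) (mem_rps hK hs h2) (by simpa using h.1) (by simpa using h.2)
  rw [h9]

end Cfsg.Agent.Lib.TwF4
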