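import Cfsg.Agent.Lib.H26F4F

/-! The `2`-part of the multiplier of `²F₄(q)`, all `q ≥ 8`: lifts of the centre of a Suzuki block commute with lifts
of the block (helper26). -/

set_option autoImplicit false
set_option linter.unusedSectionVars false
set_option linter.unusedVariables false
set_option maxHeartbeats 1000000

universe u

namespace Cfsg.Agent.Lib.TwF4
open Cfsg.Lie Cfsg.Agent.Lib.ChevX Cfsg.Agent.Lib.ChevGood Cfsg.Agent.Lib.ChevRel Cfsg.Agent.Lib.ChevNPerm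
  Cfsg.Agent.Lib.ChevClosed Cfsg.Agent.Lib.ChevBruhat Cfsg.Agent.Lib.TwFix Cfsg.Agent.Lib.TwFix.TwRk
  Cfsg.Agent.Lib.TwFix.TwAll
  Cfsg.Agent.Lib.TwTab Cfsg.Agent.Lib.TwField Cfsg.Agent.Lib.TwSpec Cfsg.Agent.Lib.TwModp
  Cfsg.Agent.Lib.SchurSylow Cfsg.Agent.Lib.H26TwB Cfsg.Agent.Lib.H26TwDig Cfsg.Agent.Lib.H26LiftB
open scoped MatrixGroups Matrix commutatorElement

variable {K : Type u} [Field K] [Fintype K] {m : ℕ} (hK : Fintype.card K = 2 ^ (2 * m + 1))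

/-- the commutator of `PP 1` and `BP 0 1` -/
def wC : List (ℕ × ℤ) := [(32, 1), (37, 1), (36, 1), (42, 1), (38, 1), (43, 1), (39, 1), (45, 1), (46, 1), (44, 1)]
def wC' : List (ℕ × ℤ) := [(31, 1), (35, 1), (29, 1), (41, 1)] ++ wC

theorem chkC : chkEqp chevF4 2 G.ce (cst (wZ ++ wP)) (cst (wP ++ (wZ ++ wC'))) = true := by decide +kernel

noncomputable abbrev RF : TwRk (T hK) := rkS (sig hK) chk1F4 chk2F4 listed chk4F4 (hp2 hK)

noncomputable abbrev BF (hm : 1 ≤ m) : BDat 2 ↥(twistedF4 K (2 ^ m)) :=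
  haveI : Fact (Nat.Prime 2) := ⟨Nat.prime_two⟩
  bdat (all hK) (pU hK) (copF hK) (fun r hr => hneF hK hm r hr) (hMF hK)

theorem mem_up {k : ℕ} {r : ℕ} (hr : r < 48) (h : 24 ≤ r ∧ k ≤ tabF4.rkN r) (t : K) :
    xg chevF4 K r t ∈ XS chevF4 K ((RF hK).up (posS chevF4) k) :=
  xg_mem_XS (r := ⟨r, hr⟩) (A := (RF hK).up (posS chevF4) k) ⟨h.1, h.2⟩ t

theorem wg_up (k : ℕ) (w : List (ℕ × ℤ)) (h : ∀ x ∈ w, x.1 < 48 ∧ 24 ≤ x.1 ∧ k ≤ tabF4.rkN x.1) :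
    wg chevF4 K (w.map fun x => (x.1, (x.2 : K))) ∈ XS chevF4 K ((RF hK).up (posS chevF4) k) := by
  induction w with
  | nil => exact one_mem _
  | cons a w ih =>
    have e : wg chevF4 K ((a :: w).map fun x => (x.1, (x.2 : K))) = xg chevF4 K a.1 (a.2 : K) *
        wg chevF4 K (w.map fun x => (x.1, (x.2 : K))) := by
      unfold wg; simp
    rw [e]
    have h1 := h a (by simp)
    exact mul_mem (mem_up hK h1.1 h1.2 _) (ih fun x hx => h x (by simp [hx]))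

theorem mem_U_of {x : GL chevF4.Idx K} {k : ℕ} (hx : x ∈ XS chevF4 K ((RF hK).up (posS chevF4) k)) :
    x ∈ chevF4.posUnipotent K := by
  rw [← XS_posS G]
  exact XS_mono (fun r hr => hr.1) hx

def r41 : Fin chevF4.nroots := ⟨41, by decide⟩
def r31 : Fin chevF4.nroots := ⟨31, by decide⟩
def r35 : Fin chevF4.nroots := ⟨35, by decide⟩

theorem w35 : (chevF4.cartan 0 35, chevF4.cartan 3 35, chevF4.cartan 1 35, chevF4.cartan 2 35) =
    ((1 : ℤ), (-1 : ℤ), (-1 : ℤ), (1 : ℤ)) := by decide +kernel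

theorem w31 : (chevF4.cartan 0 31, chevF4.cartan 3 31, chevF4.cartan 1 31, chevF4.cartan 2 31) =
    ((-2 : ℤ), (1 : ℤ), (2 : ℤ), (-1 : ℤ)) := by decide +kernel

theorem d31_41 : detok 31 41 = true := by decide +kernel

/-- coordinates at `41` of elements of `U'` -/
theorem exists_der (hm : 1 ≤ m) (u : K) : ∃ y : ↥(twistedF4 K (2 ^ m)), y ∈ ⁅(BF hK hm).U, (BF hK hm).U⁆ ∧
    (y : GL chevF4.Idx K) ∈ XS chevF4 K ((RF hK).up (posS chevF4) 5) ∧ Cr (RF hK) r41 u (y : GL chevF4.Idx K) := by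
  have he : 2 ^ m ≠ 0 := by positivity
  have := char2 hK
  have p41 : Pos chevF4 r41 := by show 24 ≤ 41; norm_num
  have k41 : (RF hK).rk r41 = 5 := by show tabF4.rkN 41 = 5; decide +kernel
  have hU : ∀ (x : ↥(twistedF4 K (2 ^ m))), x ∈ (BF hK hm).U ↔ (x : GL chevF4.Idx K) ∈ chevF4.posUnipotent K :=
    fun x => Subgroup.mem_subgroupOf
  by_cases hu : u = 0
  · refine ⟨1, one_mem _, one_mem _, ?_⟩
    rw [hu]; exact cr_of_mem (one_mem _)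
  set p : GL chevF4.Idx K := PP (2 ^ m) 1 with hp
  set z : GL chevF4.Idx K := BP (2 ^ m) 0 1 with hz
  set Cc : GL chevF4.Idx K := wg chevF4 K (wC'.map fun x => (x.1, (x.2 : K))) with hC
  have e1 : z * p = p * (z * Cc) := by
    rw [hz, hp, hC, PP_one, BP_zero_one he, ← wg_append, ← wg_append, ← wg_append, ← List.map_append, ← List.map_append,
      ← List.map_append, wg_eq_of_chk G chkC]
  have pΓ : p ∈ twistedF4 K (2 ^ m) := mem_PP _ _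
  have zΓ : z ∈ twistedF4 K (2 ^ m) := mem_BP _ _ _
  have e2 : Cc = z⁻¹ * p⁻¹ * z * p := by
    have : Cc = z⁻¹ * (p⁻¹ * (p * (z * Cc))) := by group
    rw [this, ← e1]; group
  have pU' : p ∈ chevF4.posUnipotent K := by
    rw [hp, PP_one]
    exact mem_U_of hK (wg_up hK 0 wP (by decide +kernel))
  have zU' : z ∈ chevF4.posUnipotent K := by
    rw [hz, BP_zero_one he]
    exact mem_U_of hK (wg_up hK 0 wZ (by decide +kernel))
  have CΓ : Cc ∈ twistedF4 K (2 ^ m) := by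
    rw [e2]; exact mul_mem (mul_mem (mul_mem (inv_mem zΓ) (inv_mem pΓ)) zΓ) pΓ
  -- the commutator
  have hC' : (⟨Cc, CΓ⟩ : ↥(twistedF4 K (2 ^ m))) ∈ ⁅(BF hK hm).U, (BF hK hm).U⁆ := by
    have h1 : (⟨z, zΓ⟩ : ↥(twistedF4 K (2 ^ m)))⁻¹ ∈ (BF hK hm).U := inv_mem ((hU _).2 zU')
    have h2 : (⟨p, pΓ⟩ : ↥(twistedF4 K (2 ^ m)))⁻¹ ∈ (BF hK hm).U := inv_mem ((hU _).2 pU')
    have h3 := Subgroup.commutator_mem_commutator h1 h2
    have h4 : (⟨Cc, CΓ⟩ : ↥(twistedF4 K (2 ^ m))) = ⁅(⟨z, zΓ⟩ : ↥(twistedF4 K (2 ^ m)))⁻¹,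
        (⟨p, pΓ⟩ : ↥(twistedF4 K (2 ^ m)))⁻¹⁆ := by
      rw [commutatorElement_def, inv_inv, inv_inv]
      exact Subtype.ext e2
    rw [h4]; exact h3
  have hconj : ∀ h ∈ (BF hK hm).H, ∀ y ∈ ⁅(BF hK hm).U, (BF hK hm).U⁆, h * y * h⁻¹ ∈ ⁅(BF hK hm).U, (BF hK hm).U⁆ := by
    intro h hh y hy
    have h0 : ∀ x ∈ (BF hK hm).U, h * x * h⁻¹ ∈ (BF hK hm).U := by
      intro x hx
      rw [← (BF hK hm).C0] at hx ⊢
      exact (BF hK hm).normH 0 h hh x hx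
    rw [Subgroup.commutator_def] at hy
    induction hy using Subgroup.closure_induction with
    | mem y hy =>
      obtain ⟨a, ha, b, hb, rfl⟩ := hy
      have : h * ⁅a, b⁆ * h⁻¹ = ⁅h * a * h⁻¹, h * b * h⁻¹⁆ := by
        simp only [commutatorElement_def]; group
      rw [this]
      exact Subgroup.commutator_mem_commutator (h0 a ha) (h0 b hb)
    | one => rw [mul_one, mul_inv_cancel]; exact one_mem _
    | mul a b _ _ ha hb =>
      have : h * (a * b) * h⁻¹ = h * a * h⁻¹ * (h * b * h⁻¹) := by group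
      rw [this]; exact mul_mem ha hb
    | inv a _ ha =>
      have : h * a⁻¹ * h⁻¹ = (h * a * h⁻¹)⁻¹ := by group
      rw [this]; exact inv_mem ha
  -- the torus element
  obtain ⟨g, hg0, hg⟩ := exg hK
  obtain ⟨h, hh, ha⟩ := torg hK hg0 (-BB 31 (2 ^ m)) (AA 31 (2 ^ m))
  have a31 := ha r31
  have a35 := ha r35
  have a41 := ha r41
  have v31 := w31
  have v35 := w35
  rw [Prod.mk.injEq, Prod.mk.injEq, Prod.mk.injEq] at v31 v35
  obtain ⟨v0, v3, v1, v2⟩ := v31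
  obtain ⟨u0, u3, u1, u2⟩ := v35
  have a31' : Acts chevF4 h r31 1 := by
    have h1 : (-BB 31 (2 ^ m) * AA ((r31 : Fin chevF4.nroots) : ℕ) (2 ^ m) + AA 31 (2 ^ m) * BB ((r31 : Fin chevF4.nroots) : ℕ) (2 ^ m) : ℤ) = 0 := by
      show (-BB 31 (2 ^ m) * AA 31 (2 ^ m) + AA 31 (2 ^ m) * BB 31 (2 ^ m) : ℤ) = 0
      ring
    rwa [h1, zpow_zero] at a31
  have a35' : Acts chevF4 h r35 1 := by
    have h1 : g ^ (-BB 31 (2 ^ m) * AA ((r35 : Fin chevF4.nroots) : ℕ) (2 ^ m) + AA 31 (2 ^ m) * BB ((r35 : Fin chevF4.nroots) : ℕ) (2 ^ m)) = g ^ (0 : ℤ) := by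
      apply zpow_per hK hg0
      show (2 * ((2 : ℤ) ^ m) ^ 2 - 1) ∣ (-BB 31 (2 ^ m) * AA 35 (2 ^ m) + AA 31 (2 ^ m) * BB 35 (2 ^ m) : ℤ) - 0
      unfold AA BB
      rw [v0, v3, v1, v2, u0, u3, u1, u2]
      exact ⟨0, by ring⟩
    rwa [h1, zpow_zero] at a35
  set χ : K := g ^ (-BB 31 (2 ^ m) * AA ((r41 : Fin chevF4.nroots) : ℕ) (2 ^ m) + AA 31 (2 ^ m) * BB ((r41 : Fin chevF4.nroots) : ℕ) (2 ^ m)) with hχ
  have hχ1 : χ ≠ 1 := by
    intro h6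
    refine detok_sound d31_41 hm ?_
    have := hg _ h6
    convert this using 1
    show _ = (-BB 31 (2 ^ m) * AA 41 (2 ^ m) + AA 31 (2 ^ m) * BB 41 (2 ^ m) : ℤ)
    ring
  -- decomposition
  set a : GL chevF4.Idx K := xg chevF4 K 31 1 * xg chevF4 K 35 1 with haa
  set R : GL chevF4.Idx K := wg chevF4 K (wC.map fun x => (x.1, (x.2 : K))) with hR
  set b : GL chevF4.Idx K := xg chevF4 K 29 1 * (xg chevF4 K 41 1 * R) with hb
  have e3 : Cc = a * b := by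
    rw [hC, haa, hb, hR]
    unfold wC' wg
    simp only [List.map_append, List.map_cons, List.map_nil, List.prod_append, List.prod_cons, List.prod_nil, mul_one,
      Int.cast_one, mul_assoc]
  have hR6 : R ∈ XS chevF4 K ((RF hK).up (posS chevF4) 6) := wg_up hK 6 wC (by decide +kernel)
  have hb1 : Cr (RF hK) r41 (0 + (1 + 0)) b := by
    refine co_mul (closed_posS G) p41 ?_ (co_mul (closed_posS G) p41 (Cr_xg (R := RF hK) (r := r41) (1 : K)) ?_)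
    · unfold Co
      rw [xg_zero G, inv_one, one_mul]
      refine xg_mem_XS (r := ⟨29, by decide⟩) (A := (RF hK).up (posS chevF4) ((RF hK).rk r41) \ {r41}) ⟨⟨?_, ?_⟩, ?_⟩ 1
      · show 24 ≤ 29; norm_num
      · rw [k41]; show 5 ≤ tabF4.rkN 29; decide +kernel
      · intro h7
        have := congrArg Fin.val (Set.mem_singleton_iff.1 h7)
        revert this; decide
    · exact cr_of_mem (by rw [k41]; exact hR6)
  rw [add_zero, zero_add] at hb1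
  have hb2 : Cr (RF hK) r41 (χ * 1 + -1) (h * b * h⁻¹ * b⁻¹) :=
    co_mul (closed_posS G) p41 (cr_conj hh.1 a41 hb1) (co_inv (closed_posS G) p41 hb1)
  have haU : a ∈ chevF4.posUnipotent K := mem_U_of hK (k := 0) (mul_mem (mem_up hK (by norm_num) (by decide +kernel) _)
    (mem_up hK (by norm_num) (by decide +kernel) _))
  have hha : h * a * h⁻¹ = a := by
    have h1 := a31' 1
    have h2 := a35' 1
    rw [mul_one] at h1 h2
    have h1' : h * xg chevF4 K 31 1 * h⁻¹ = xg chevF4 K 31 1 := h1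
    have h2' : h * xg chevF4 K 35 1 * h⁻¹ = xg chevF4 K 35 1 := h2
    have : h * a * h⁻¹ = h * xg chevF4 K 31 1 * h⁻¹ * (h * xg chevF4 K 35 1 * h⁻¹) := by rw [haa]; group
    rw [this, h1', h2']
  set y0 : GL chevF4.Idx K := h * b * h⁻¹ * b⁻¹ with hy0
  have e4 : h * Cc * h⁻¹ * Cc⁻¹ = a * y0 * a⁻¹ := by
    have : h * Cc * h⁻¹ * Cc⁻¹ = (h * a * h⁻¹) * (h * b * h⁻¹ * b⁻¹) * a⁻¹ := by rw [e3]; group
    rw [this, hha]
  have hy5 : y0 ∈ XS chevF4 K ((RF hK).up (posS chevF4) 5) := by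
    have := co_mem (R := RF hK) (A := posS chevF4) p41 hb2
    rwa [k41] at this
  have hy6 : Cr (RF hK) r41 (χ * 1 + -1) (a * y0 * a⁻¹) := by
    have h1 := comm_up (RF hK) 5 hy5 haU
    have h2 : a * y0 * a⁻¹ = (y0 * a * y0⁻¹ * a⁻¹)⁻¹ * y0 := by group
    rw [h2]
    have h3 : Cr (RF hK) r41 (0 + (χ * 1 + -1)) ((y0 * a * y0⁻¹ * a⁻¹)⁻¹ * y0) :=
      co_mul (closed_posS G) p41 (cr_of_mem (by rw [k41]; exact inv_mem h1)) hb2
    rwa [zero_add] at h3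
  rw [← e4] at hy6
  set hΓ : ↥(twistedF4 K (2 ^ m)) := ⟨h, hh.2⟩ with hhΓ
  have hΓH : hΓ ∈ (BF hK hm).H := Subgroup.mem_subgroupOf.2 hh.1
  set y1 : ↥(twistedF4 K (2 ^ m)) := hΓ * ⟨Cc, CΓ⟩ * hΓ⁻¹ * (⟨Cc, CΓ⟩)⁻¹ with hy1
  have y1U : y1 ∈ ⁅(BF hK hm).U, (BF hK hm).U⁆ := mul_mem (hconj _ hΓH _ hC') (inv_mem hC')
  have y1v : (y1 : GL chevF4.Idx K) = h * Cc * h⁻¹ * Cc⁻¹ := rfl
  rw [← y1v] at hy6
  have hd : χ * 1 + -1 ≠ 0 := by
    rw [mul_one, ← sub_eq_add_neg]; exact sub_ne_zero.2 hχ1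
  obtain ⟨h', hh', hA'⟩ := surj hK (n := r41) (by decide) (c := u / (χ * 1 + -1)) (div_ne_zero hu hd)
  set hΓ' : ↥(twistedF4 K (2 ^ m)) := ⟨h', hh'.2⟩ with hhΓ'
  have hΓH' : hΓ' ∈ (BF hK hm).H := Subgroup.mem_subgroupOf.2 hh'.1
  have h8 := cr_conj (R := RF hK) hh'.1 hA' hy6
  rw [div_mul_cancel₀ _ hd] at h8
  refine ⟨hΓ' * y1 * hΓ'⁻¹, hconj _ hΓH' _ y1U, ?_, h8⟩
  have := co_mem (R := RF hK) (A := posS chevF4) p41 h8
  rwa [k41] at this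

end Cfsg.Agent.Lib.TwF4
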