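import Cfsg.Agent.Lib.H26F4G

/-! The multiplier of `²F₄(q)`, end (helper26). -/

set_option autoImplicit false
set_option linter.unusedSectionVars false
set_option linter.unusedVariables false
set_option maxHeartbeats 1000000

universe u

namespace Cfsg.Agent.Lib.TwF4
open Cfsg.Lie Cfsg.Agent.Lib.ChevX Cfsg.Agent.Lib.ChevGood Cfsg.Agent.Lib.ChevRel Cfsg.Agent.Lib.ChevNPerm
  Cfsg.Agent.Lib.ChevClosed Cfsg.Agent.Lib.ChevBruhat Cfsg.Agent.Lib.TwFix Cfsg.Agent.Lib.TwFix.TwRk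
  Cfsg.Agent.Lib.TwFix.TwAll
  Cfsg.Agent.Lib.TwTab Cfsg.Agent.Lib.TwField Cfsg.Agent.Lib.TwSpec Cfsg.Agent.Lib.TwModp
  Cfsg.Agent.Lib.SchurSylow Cfsg.Agent.Lib.H26TwB Cfsg.Agent.Lib.H26TwDig Cfsg.Agent.Lib.H26LiftB
  Cfsg.Agent.Lib.H26TwL
open scoped MatrixGroups Matrix commutatorElement

variable {K : Type u} [Field K] [Fintype K] {m : ℕ} (hK : Fintype.card K = 2 ^ (2 * m + 1))

/-- the special pairs -/
def SpF (r s : Fin chevF4.nroots) : Prop := szp r s = true ∨ szp s r = true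

/-- the roots of a list -/
def lset (L : List ℕ) : Set (Fin chevF4.nroots) := {r | (r : ℕ) ∈ L}

theorem szp_mem {r s : ℕ} (h : szp r s = true) : (r, s) ∈ [(25, 28), (26, 36), (31, 40), (41, 44)] := by
  unfold szp at h
  exact of_decide_eq_true h

theorem szp_chk : ∀ r < 48, ∀ s < 48, (szp r s || szp s r) = true → tabF4.rkN r = 11 → r = 44 ∧ s = 41 := by
  decide +kernel

include hK in
/-- lifts of the centre of `U` are central in the preimage of `U` -/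
theorem bottomF (hm : 1 ≤ m) {Δ : Type u} [Group Δ] (σ : Δ →* ↥(twistedF4 K (2 ^ m))) (hσ : IsStemExtension σ)
    (hk : IsPGroup 2 σ.ker) {a b : Δ}
    (ha : ((σ a : ↥(twistedF4 K (2 ^ m))) : GL chevF4.Idx K) ∈ XS chevF4 K (lset [44, 47]))
    (hb : ((σ b : ↥(twistedF4 K (2 ^ m))) : GL chevF4.Idx K) ∈ chevF4.posUnipotent K) : a * b = b * a := by
  haveI : Fact (Nat.Prime 2) := ⟨Nat.prime_two⟩
  set BD := BF hK hm with hBD
  have hC : ∀ l (x : ↥(twistedF4 K (2 ^ m))), x ∈ BD.C l ↔ (x : GL chevF4.Idx K) ∈ XS chevF4 K ((RF hK).up (posS chevF4) l) :=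
    fun l x => Subgroup.mem_subgroupOf
  have hU : ∀ (x : ↥(twistedF4 K (2 ^ m))), x ∈ BD.U ↔ (x : GL chevF4.Idx K) ∈ chevF4.posUnipotent K :=
    fun x => Subgroup.mem_subgroupOf
  have hN : BD.Good σ ⊤ (11 + 1) ⊥ := by
    refine ⟨?_, ?_, ?_, ?_, ?_⟩
    · intro z hz _; exact hz
    · intro n hn; rw [Subgroup.mem_bot.1 hn, map_one]; exact one_mem _
    · intro x hx
      have h1 : BD.C 12 = ⊥ := BD.Cm
      rw [show 11 + 1 = 12 from rfl, h1, Subgroup.mem_bot] at hx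
      exact ⟨1, one_mem _, by rw [hx, map_one]⟩
    · intro a _ n hn; rw [Subgroup.mem_bot.1 hn]; simp
    · intro a _ n hn; rw [Subgroup.mem_bot.1 hn]; simp
  have hup : lset [44, 47] ⊆ (RF hK).up (posS chevF4) 11 := by
    intro r hr
    have hr' : (r : ℕ) ∈ [44, 47] := hr
    have h1 : ∀ r ∈ [44, 47], 24 ≤ r ∧ 11 ≤ tabF4.rkN r := by decide +kernel
    exact ⟨(h1 _ hr').1, (h1 _ hr').2⟩
  have h1 := BDat.comm_le hσ BD hN hk (fun h _ => by
    obtain ⟨a, ha⟩ := hσ.1 h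
    exact ⟨a, Subgroup.mem_top _, ha⟩) (fun _ _ => False) (fun _ _ _ _ h => h.elim) (by
    intro A _ f hA hf _
    refine pair_main (all hK) (pU hK) (copF hK) (fun r hr => hneF hK hm r hr) (hMF hK) SpF rpF (hrpF hK) ?_ f hA hf ?_
    · intro r s hr hs _ h1 h2
      by_cases h : szp r s = true ∨ szp s r = true
      · exact kill_spec h
      · push Not at h
        exact kill_ns hK hm (mem_rps hK hr h1) (mem_rps hK hs h2) (by simpa using h.1) (by simpa using h.2)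
    · intro r s hr hs hrk hsp t ht u hu
      obtain ⟨e1, e2⟩ := szp_chk r r.2 s s.2 (by rw [Bool.or_eq_true]; exact hsp) hrk
      obtain rfl : s = r41 := Fin.ext e2
      obtain ⟨x, hx, cx, mx⟩ := cr_lift (all hK) hr ht
      obtain ⟨y, hy, my, cy⟩ := exists_der hK hm u
      have k41 : (RF hK).rk r41 = 5 := by show tabF4.rkN 41 = 5; decide +kernel
      refine ⟨⟨x, hx⟩, y, mx, by rw [k41]; exact my, cx, cy, ?_⟩
      have hxC : (⟨x, hx⟩ : ↥(twistedF4 K (2 ^ m))) ∈ BD.C 11 := by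
        rw [hC]
        have : (RF hK).rk r = 11 := hrk
        rw [← this]; exact mx
      -- the kernel of `f x`
      have mr := fun y hy y' hy' => hf.mul_right _ hxC y hy y' hy'
      have h11 : f ⟨x, hx⟩ 1 = 1 := by
        have h1 := mr 1 (one_mem _) 1 (one_mem _)
        rw [mul_one] at h1
        exact left_eq_mul.mp h1
      set Nx : Subgroup ↥(twistedF4 K (2 ^ m)) :=
        { carrier := {y | y ∈ BD.U ∧ f ⟨x, hx⟩ y = 1}
          one_mem' := ⟨one_mem _, h11⟩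
          mul_mem' := fun {a b} ha hb => ⟨mul_mem ha.1 hb.1, by rw [mr _ ha.1 _ hb.1, ha.2, hb.2, mul_one]⟩
          inv_mem' := fun {a} ha => ⟨inv_mem ha.1, by
            have h1 := mr _ ha.1 _ (inv_mem ha.1)
            rw [mul_inv_cancel, h11, ha.2, one_mul] at h1
            exact h1.symm⟩ } with hNx
      have h5 : ⁅BD.U, BD.U⁆ ≤ Nx := by
        rw [Subgroup.commutator_le]
        intro a ha b hb
        refine ⟨?_, ?_⟩
        · rw [commutatorElement_def]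
          exact mul_mem (mul_mem (mul_mem ha hb) (inv_mem ha)) (inv_mem hb)
        · have hi : ∀ c ∈ BD.U, f ⟨x, hx⟩ c * f ⟨x, hx⟩ c⁻¹ = 1 := by
            intro c hc
            rw [← mr c hc c⁻¹ (inv_mem hc), mul_inv_cancel, h11]
          rw [commutatorElement_def, mr _ (mul_mem (mul_mem ha hb) (inv_mem ha)) _ (inv_mem hb),
            mr _ (mul_mem ha hb) _ (inv_mem ha), mr _ ha _ hb]
          calc f ⟨x, hx⟩ a * f ⟨x, hx⟩ b * f ⟨x, hx⟩ a⁻¹ * f ⟨x, hx⟩ b⁻¹ =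
              (f ⟨x, hx⟩ a * f ⟨x, hx⟩ a⁻¹) * (f ⟨x, hx⟩ b * f ⟨x, hx⟩ b⁻¹) := by
                rw [mul_assoc (f ⟨x, hx⟩ a), mul_comm (f ⟨x, hx⟩ b), ← mul_assoc, mul_assoc]
            _ = 1 := by rw [hi _ ha, hi _ hb, one_mul]
      exact (h5 hy).2)
    (a := a) (b := b) (by rw [hC]; exact XS_mono hup ha) ((hU _).mpr hb)
  rw [Subgroup.mem_bot] at h1
  unfold BDat.cm at h1
  have h2 : a * b * (b * a)⁻¹ = 1 := by
    rw [← h1]; group
  exact mul_inv_eq_one.mp h2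

/-- lifts commute -/
def LCL {Δ : Type u} [Group Δ] (σ : Δ →* ↥(twistedF4 K (2 ^ m))) (L L' : List ℕ) : Prop :=
  ∀ a b : Δ, ((σ a : ↥(twistedF4 K (2 ^ m))) : GL chevF4.Idx K) ∈ XS chevF4 K (lset L) →
    ((σ b : ↥(twistedF4 K (2 ^ m))) : GL chevF4.Idx K) ∈ XS chevF4 K (lset L') → a * b = b * a

include hK in
theorem LCL_step {Δ : Type u} [Group Δ] {σ : Δ →* ↥(twistedF4 K (2 ^ m))} (hσ : IsStemExtension σ)
    {L L' M M' : List ℕ} (j : Fin tabF4.nz) (h1 : ∀ r ∈ L, tabF4.wlN (tabF4.jwN j) r ∈ M)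
    (h2 : ∀ r ∈ L', tabF4.wlN (tabF4.jwN j) r ∈ M') (h : LCL σ M M') : LCL σ L L' := by
  intro a b ha hb
  obtain ⟨n, hn⟩ := hσ.1 ⟨(WF hK).nj j, (all hK).n_mem j⟩
  have key : ∀ (L M : List ℕ) (a : Δ), (∀ r ∈ L, tabF4.wlN (tabF4.jwN j) r ∈ M) →
      ((σ a : ↥(twistedF4 K (2 ^ m))) : GL chevF4.Idx K) ∈ XS chevF4 K (lset L) →
      ((σ (n * a * n⁻¹) : ↥(twistedF4 K (2 ^ m))) : GL chevF4.Idx K) ∈ XS chevF4 K (lset M) := by
    intro L M a hLM ha
    have h1 := conjXS (all hK) (m := ⟨(WF hK).nj j, (all hK).n_mem j⟩) ((WF hK).mono_nj j) (A := lset L)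
      (A' := lset M) (by
        rintro _ ⟨r, hr, rfl⟩
        show (((WF hK).wj j r : Fin chevF4.nroots) : ℕ) ∈ M
        rw [wj_val hK]
        exact hLM r hr) (x := σ a) (Subgroup.mem_subgroupOf.mpr ha)
    rw [map_mul, map_mul, map_inv, hn]
    exact Subgroup.mem_subgroupOf.mp h1
  have h3 := h _ _ (key L M a h1 ha) (key L' M' b h2 hb)
  have h4 : n * (a * b) * n⁻¹ = n * (b * a) * n⁻¹ := by
    calc n * (a * b) * n⁻¹ = n * a * n⁻¹ * (n * b * n⁻¹) := by group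
      _ = n * b * n⁻¹ * (n * a * n⁻¹) := h3
      _ = _ := by group
  exact mul_left_cancel (mul_right_cancel h4)

theorem st1 : (∀ r ∈ [40, 46], tabF4.wlN (tabF4.jwN j0) r ∈ [44, 47]) ∧
    (∀ r ∈ [31, 35, 40, 46], tabF4.wlN (tabF4.jwN j0) r ∈ [29, 41, 44, 47]) := by decide +kernel
theorem st2 : (∀ r ∈ [36, 42], tabF4.wlN (tabF4.jwN j1) r ∈ [40, 46]) ∧
    (∀ r ∈ [26, 34, 36, 42], tabF4.wlN (tabF4.jwN j1) r ∈ [31, 35, 40, 46]) := by decide +kernel
theorem st3 : (∀ r ∈ [28, 30], tabF4.wlN (tabF4.jwN j0) r ∈ [36, 42]) ∧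
    (∀ r ∈ [25, 27, 28, 30], tabF4.wlN (tabF4.jwN j0) r ∈ [26, 34, 36, 42]) := by decide +kernel

theorem sb_chk : ([(25, [27, 28, 30]), (26, [34, 36, 42]), (31, [35, 40, 46]), (41, [29, 44, 47]), (28, [30]), (36, [42]),
    (40, [46]), (44, [47])].all fun x => (List.range 48).all fun s =>
      !(tabF4.blN s == tabF4.blN x.1 && Nat.ble (tabF4.levN x.1) (tabF4.levN s) && s != x.1) || decide (s ∈ x.2)) = true := by
  decide +kernel

theorem SB_lset {r : Fin chevF4.nroots} {L : List ℕ} (h : ((r : ℕ), L) ∈ [(25, [27, 28, 30]), (26, [34, 36, 42]),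
    (31, [35, 40, 46]), (41, [29, 44, 47]), (28, [30]), (36, [42]), (40, [46]), (44, [47])]) :
    (blk hK).SB r ⊆ lset L := by
  rintro s ⟨h1, h2, h3⟩
  have h4 := sb_chk
  rw [List.all_eq_true] at h4
  have h5 := h4 _ h
  rw [List.all_eq_true] at h5
  have h6 := h5 s (List.mem_range.2 s.2)
  have e1 : tabF4.blN s = tabF4.blN r := h1
  have e2 : tabF4.levN r ≤ tabF4.levN s := h2
  have e3 : (s : ℕ) ≠ (r : ℕ) := fun h => h3 (Fin.ext h)
  simp only [e1, beq_self_eq_true, Nat.ble_eq_true_of_le e2, Bool.true_and, bne_iff_ne.2 e3, Bool.not_true, Bool.false_or,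
    decide_eq_true_eq] at h6
  exact h6

/-- lifts inside the block -/
theorem lift_in {r : Fin chevF4.nroots} (hr : Pos chevF4 r) {L : List ℕ} (h : ((r : ℕ), L) ∈ [(25, [27, 28, 30]), (26, [34, 36, 42]),
    (31, [35, 40, 46]), (41, [29, 44, 47]), (28, [30]), (36, [42]), (40, [46]), (44, [47])])
    {t : K} (ht : t ∈ Tset (T hK) r) : ∃ y ∈ twistedF4 K (2 ^ m), Cr (RF hK) r t y ∧
      y ∈ XS chevF4 K ((RF hK).up (posS chevF4) ((RF hK).rk r)) ∧ y ∈ XS chevF4 K (lset ((r : ℕ) :: L)) := by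
  obtain ⟨y, hy, h1⟩ := (all hK).lift r hr t ht
  have h2 : Cr (RF hK) r t y := by
    unfold Cr
    exact XS_mono ((blk hK).SB_subset (closed_posS (T hK).G) (union_pos (blk hK)) hr) h1
  refine ⟨y, hy, h2, co_mem (A := posS chevF4) hr h2, ?_⟩
  have e : y = xg chevF4 K r t * ((xg chevF4 K r t)⁻¹ * y) := by group
  rw [e]
  refine mul_mem (xg_mem_XS (A := lset ((r : ℕ) :: L)) ?_ t) (XS_mono ?_ h1)
  · show (r : ℕ) ∈ (r : ℕ) :: L
    exact List.mem_cons_self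
  · exact (SB_lset hK h).trans fun s hs => List.mem_cons_of_mem _ hs

include hK in
/-- **the `2`-part** -/
theorem pStemDvd_two' (hm : 1 ≤ m) : PStemDvd 2 ↥(twistedF4 K (2 ^ m)) 1 := by
  intro Δ _ _ σ hσ hk
  haveI : Fact (Nat.Prime 2) := ⟨Nat.prime_two⟩
  have hpos : ∀ L : List ℕ, (∀ r ∈ L, 24 ≤ r) → ∀ x ∈ XS chevF4 K (lset L), x ∈ chevF4.posUnipotent K := by
    intro L hL x hx
    rw [← XS_posS G]
    exact XS_mono (fun r hr => hL r hr) hx
  have b0 : LCL σ [44, 47] [29, 41, 44, 47] := by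
    intro a b ha hb
    exact bottomF hK hm σ hσ hk ha (hpos _ (by decide) _ hb)
  have b1 : LCL σ [40, 46] [31, 35, 40, 46] := LCL_step hK hσ j0 st1.1 st1.2 b0
  have b2 : LCL σ [36, 42] [26, 34, 36, 42] := LCL_step hK hσ j1 st2.1 st2.2 b1
  have b3 : LCL σ [28, 30] [25, 27, 28, 30] := LCL_step hK hσ j0 st3.1 st3.2 b2
  -- special pairs
  have hsz : ∀ r s : Fin chevF4.nroots, Pos chevF4 r → Pos chevF4 s → szp r s = true → ∀ t ∈ Tset (T hK) r,
      ∀ u ∈ Tset (T hK) s, ∃ x y : ↥(twistedF4 K (2 ^ m)),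
        (x : GL chevF4.Idx K) ∈ XS chevF4 K ((RF hK).up (posS chevF4) ((RF hK).rk r)) ∧
        (y : GL chevF4.Idx K) ∈ XS chevF4 K ((RF hK).up (posS chevF4) ((RF hK).rk s)) ∧
        Cr (RF hK) r t (x : GL chevF4.Idx K) ∧ Cr (RF hK) s u (y : GL chevF4.Idx K) ∧
        ∀ a b : Δ, σ a = x → σ b = y → a * b = b * a := by
    intro r s hr hs hrs t ht u hu
    have h1 := szp_mem hrs
    have key : ∀ (L M L' : List ℕ), ((r : ℕ), L) ∈ [(25, [27, 28, 30]), (26, [34, 36, 42]), (31, [35, 40, 46]),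
        (41, [29, 44, 47]), (28, [30]), (36, [42]), (40, [46]), (44, [47])] →
        ((s : ℕ), M) ∈ [(25, [27, 28, 30]), (26, [34, 36, 42]), (31, [35, 40, 46]),
        (41, [29, 44, 47]), (28, [30]), (36, [42]), (40, [46]), (44, [47])] →
        (∀ q ∈ ((r : ℕ) :: L), q ∈ L') →
        LCL σ ((s : ℕ) :: M) L' →
        ∃ x y : ↥(twistedF4 K (2 ^ m)),
        (x : GL chevF4.Idx K) ∈ XS chevF4 K ((RF hK).up (posS chevF4) ((RF hK).rk r)) ∧
        (y : GL chevF4.Idx K) ∈ XS chevF4 K ((RF hK).up (posS chevF4) ((RF hK).rk s)) ∧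
        Cr (RF hK) r t (x : GL chevF4.Idx K) ∧ Cr (RF hK) s u (y : GL chevF4.Idx K) ∧
        ∀ a b : Δ, σ a = x → σ b = y → a * b = b * a := by
      intro L M L' hL hM hLL hc
      obtain ⟨x, hx, c1, m1, n1⟩ := lift_in hK hr hL ht
      obtain ⟨y, hy, c2, m2, n2⟩ := lift_in hK hs hM hu
      refine ⟨⟨x, hx⟩, ⟨y, hy⟩, m1, m2, c1, c2, fun a b ha hb => ?_⟩
      refine (hc b a ?_ ?_).symm
      · rw [hb]; exact n2
      · rw [ha]
        exact XS_mono (fun q hq => hLL _ hq) n1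
    simp only [List.mem_cons, List.not_mem_nil, or_false, Prod.mk.injEq] at h1
    rcases h1 with ⟨e1, e2⟩ | ⟨e1, e2⟩ | ⟨e1, e2⟩ | ⟨e1, e2⟩
    · exact key [27, 28, 30] [30] [25, 27, 28, 30] (by rw [e1]; decide) (by rw [e2]; decide) (by rw [e1]; decide) (by rw [e2]; exact b3)
    · exact key [34, 36, 42] [42] [26, 34, 36, 42] (by rw [e1]; decide) (by rw [e2]; decide) (by rw [e1]; decide) (by rw [e2]; exact b2)
    · exact key [35, 40, 46] [46] [31, 35, 40, 46] (by rw [e1]; decide) (by rw [e2]; decide) (by rw [e1]; decide) (by rw [e2]; exact b1)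
    · exact key [29, 44, 47] [47] [29, 41, 44, 47] (by rw [e1]; decide) (by rw [e2]; decide) (by rw [e1]; decide) (by rw [e2]; exact b0)
  set BD := BF hK hm with hBD
  have hC : ∀ l (x : ↥(twistedF4 K (2 ^ m))), x ∈ BD.C l ↔ (x : GL chevF4.Idx K) ∈ XS chevF4 K ((RF hK).up (posS chevF4) l) :=
    fun l x => Subgroup.mem_subgroupOf
  have hU : ∀ (x : ↥(twistedF4 K (2 ^ m))), x ∈ BD.U ↔ (x : GL chevF4.Idx K) ∈ chevF4.posUnipotent K :=
    fun x => Subgroup.mem_subgroupOf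
  have h9 : Nat.card σ.ker = 1 := by
    refine BDat.main hσ BD hk (fun _ x y => ∀ a b : Δ, σ a = x → σ b = y → a * b = b * a)
      (fun _ _ _ _ _ h => h) ?_
    intro k hk' A _ f hA hf hsp
    refine pair_main (all hK) (pU hK) (copF hK) (fun r hr => hneF hK hm r hr) (hMF hK) SpF rpF
      (hrpF hK) ?_ f hA hf ?_
    · intro r s hr hs _ h1 h2
      by_cases h : szp r s = true ∨ szp s r = true
      · exact kill_spec h
      · push Not at h
        exact kill_ns hK hm (mem_rps hK hr h1) (mem_rps hK hs h2) (by simpa using h.1) (by simpa using h.2)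
    · intro r s hr hs hrk hS t ht u hu
      have hx : ∃ x y : ↥(twistedF4 K (2 ^ m)),
        (x : GL chevF4.Idx K) ∈ XS chevF4 K ((RF hK).up (posS chevF4) ((RF hK).rk r)) ∧
        (y : GL chevF4.Idx K) ∈ XS chevF4 K ((RF hK).up (posS chevF4) ((RF hK).rk s)) ∧
        Cr (RF hK) r t (x : GL chevF4.Idx K) ∧ Cr (RF hK) s u (y : GL chevF4.Idx K) ∧
        ∀ a b : Δ, σ a = x → σ b = y → a * b = b * a := by
        rcases hS with hS | hS
        · exact hsz r s hr hs hS t ht u hu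
        · obtain ⟨y, x, a1, a2, a3, a4, a5⟩ := hsz s r hs hr hS u hu t ht
          exact ⟨x, y, a2, a1, a4, a3, fun a b ha hb => (a5 b a hb ha).symm⟩
      obtain ⟨x, y, a1, a2, a3, a4, a5⟩ := hx
      refine ⟨x, y, a1, a2, a3, a4, hsp x ?_ y ?_ a5⟩
      · rw [hC, ← hrk]; exact a1
      · rw [hU]; exact mem_U_of hK a2
  rw [h9]

include hK in
/-- **the Schur multiplier of `²F₄(q)` is trivial** -/
theorem stem_all (hm : 1 ≤ m) {r : ℕ} (hr : r.Prime) : PStemDvd r ↥(twistedF4 K (2 ^ m)) 1 := by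
  by_cases h : r = 2
  · rw [h]; exact pStemDvd_two' hK hm
  · exact pStemDvd_prime_to hK hm hr h

end Cfsg.Agent.Lib.TwF4
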