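import Cfsg.Agent.Lib.RootLift

/-! Lifting split (B,N)-pairs through stem extensions by `r`-groups, `r` different from the characteristic (helper26). -/

set_option autoImplicit false

namespace Cfsg.Agent.Lib.H26LiftA

open Subgroup Cfsg.Agent.Lib.SchurSylow Cfsg.Agent.Lib.RootLift
open scoped commutatorElement

universe u

/-- a split (B,N)-pair given by its rank one subgroups -/
structure LDat (p : ℕ) (Q : Type*) [Group Q] (ι : Type*) where
  X : ι → Subgroup Q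
  Y : ι → Subgroup Q
  V : ι → Subgroup Q
  U : Subgroup Q
  H : Subgroup Q
  N : Subgroup Q
  n : ι → Q
  pU : IsPGroup p U
  pY : ∀ i, IsPGroup p (Y i)
  XU : ∀ i, X i ≤ U
  VU : ∀ i, V i ≤ U
  UV : ∀ i, ∀ u ∈ U, ∃ v ∈ V i, ∃ x ∈ X i, u = v * x
  nV : ∀ i, ∀ v ∈ V i, n i * v * (n i)⁻¹ ∈ V i
  nX : ∀ i, ∀ x ∈ X i, n i * x * (n i)⁻¹ ∈ Y i
  nY : ∀ i, ∀ y ∈ Y i, n i * y * (n i)⁻¹ ∈ X i
  HX : ∀ h ∈ H, ∀ i, ∀ x ∈ X i, h * x * h⁻¹ ∈ X i
  HY : ∀ h ∈ H, ∀ i, ∀ y ∈ Y i, h * y * h⁻¹ ∈ Y i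
  HU : ∀ h ∈ H, ∀ u ∈ U, h * u * h⁻¹ ∈ U
  Hc : ∀ h ∈ H, ∀ k ∈ H, h * k = k * h
  HN : H ≤ N
  nN : ∀ i, n i ∈ N
  nH : ∀ i, ∀ h ∈ H, n i * h * (n i)⁻¹ ∈ H
  nsq : ∀ i, n i * n i ∈ H
  nL : ∀ i, n i ∈ X i ⊔ Y i
  br : ∀ i, ∀ g ∈ X i ⊔ Y i, (∃ x ∈ X i, ∃ h ∈ H, g = x * h) ∨ ∃ x ∈ X i, ∃ h ∈ H, ∃ x' ∈ X i, g = x * h * n i * x'
  flag : ∀ m ∈ N, ∀ i, (∀ x ∈ X i, m * x * m⁻¹ ∈ U) ∨ (∀ y ∈ Y i, m * y * m⁻¹ ∈ U)
  nboth : ∀ m ∈ N, ∀ i, (∀ x ∈ X i, m * x * m⁻¹ ∈ U) → (∀ y ∈ Y i, m * y * m⁻¹ ∈ U) → False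
  sgn : ∀ m ∈ N, ∀ i j, (∀ x ∈ X i, m * x * m⁻¹ ∈ U) → ¬ (∀ x ∈ X i, n j * (m * x * m⁻¹) * (n j)⁻¹ ∈ U) →
    (∀ x, x ∈ X i ↔ m * x * m⁻¹ ∈ X j) ∧ (∀ y, y ∈ Y i ↔ m * y * m⁻¹ ∈ Y j)
  UN : ∀ u ∈ U, u ∈ N → u = 1
  gen : ⨆ i, (X i ⊔ Y i) = ⊤

namespace LDat

variable {Q : Type u} [Group Q] {p : ℕ} {ι : Type*} (D : LDat p Q ι)

theorem pX (i : ι) : IsPGroup p (D.X i) := D.pU.to_le (D.XU i)
theorem pV (i : ι) : IsPGroup p (D.V i) := D.pU.to_le (D.VU i)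

theorem nY' (i : ι) {y : Q} (hy : y ∈ D.Y i) : (D.n i)⁻¹ * y * D.n i ∈ D.X i := by
  have h1 := D.HX _ (inv_mem (D.nsq i)) i _ (D.nY i y hy)
  have e : (D.n i)⁻¹ * y * D.n i = (D.n i * D.n i)⁻¹ * (D.n i * y * (D.n i)⁻¹) * (D.n i * D.n i)⁻¹⁻¹ := by group
  rw [e]; exact h1

theorem nX' (i : ι) {x : Q} (hx : x ∈ D.X i) : (D.n i)⁻¹ * x * D.n i ∈ D.Y i := by
  have h1 := D.HY _ (inv_mem (D.nsq i)) i _ (D.nX i x hx)
  have e : (D.n i)⁻¹ * x * D.n i = (D.n i * D.n i)⁻¹ * (D.n i * x * (D.n i)⁻¹) * (D.n i * D.n i)⁻¹⁻¹ := by group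
  rw [e]; exact h1

/-- elements of `N ∩ L_j` swapping the two root groups -/
theorem swap {j : ι} {m : Q} (hm : m ∈ D.N) (hL : m ∈ D.X j ⊔ D.Y j) (hX : ∀ x ∈ D.X j, m * x * m⁻¹ ∈ D.Y j) :
    (D.n j)⁻¹ * m ∈ D.H := by
  set g := (D.n j)⁻¹ * m with hg
  have hgN : g ∈ D.N := mul_mem (inv_mem (D.nN j)) hm
  have hgL : g ∈ D.X j ⊔ D.Y j := mul_mem (inv_mem (D.nL j)) hL
  have hgX : ∀ x ∈ D.X j, g * x * g⁻¹ ∈ D.X j := by
    intro x hx
    have h1 := D.nY' j (hX x hx)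
    have e : g * x * g⁻¹ = (D.n j)⁻¹ * (m * x * m⁻¹) * D.n j := by rw [hg]; group
    rw [e]; exact h1
  rcases D.br j g hgL with ⟨x, hx, h, hh, e⟩ | ⟨x, hx, h, hh, x', hx', e⟩
  · have h1 : x ∈ D.N := by
      have : x = g * h⁻¹ := by rw [e]; group
      rw [this]; exact mul_mem hgN (inv_mem (D.HN hh))
    rw [D.UN x (D.XU j hx) h1, one_mul] at e
    rw [e]; exact hh
  · exfalso
    apply D.nboth (D.n j) (D.nN j) j
    · intro y hy
      have h1 := hgX (x'⁻¹ * y * x') (mul_mem (mul_mem (inv_mem hx') hy) hx')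
      have h2 : g * (x'⁻¹ * y * x') * g⁻¹ = x * (h * (D.n j * y * (D.n j)⁻¹) * h⁻¹) * x⁻¹ := by rw [e]; group
      rw [h2] at h1
      have h3 : h * (D.n j * y * (D.n j)⁻¹) * h⁻¹ ∈ D.X j := by
        have := mul_mem (mul_mem (inv_mem hx) h1) hx
        have e3 : x⁻¹ * (x * (h * (D.n j * y * (D.n j)⁻¹) * h⁻¹) * x⁻¹) * x = h * (D.n j * y * (D.n j)⁻¹) * h⁻¹ := by group
        rwa [e3] at this
      have h4 := D.HX _ (inv_mem hh) j _ h3
      have e4 : h⁻¹ * (h * (D.n j * y * (D.n j)⁻¹) * h⁻¹) * h⁻¹⁻¹ = D.n j * y * (D.n j)⁻¹ := by group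
      rw [e4] at h4
      exact D.XU j h4
    · intro y hy
      exact D.XU j (D.nY j y hy)

section lift

variable {Γ : Type u} [Group Γ] (σ : Γ →* Q)

def Lh (i : ι) : Subgroup Γ := hX p σ (D.X i) ⊔ hX p σ (D.Y i)
def Th (i : ι) : Subgroup Γ := D.Lh σ i ⊓ D.H.comap σ
def Tt : Subgroup Γ := ⨆ i, D.Th σ i

theorem Th_le (i : ι) : D.Th σ i ≤ D.Tt σ := le_iSup (D.Th σ) i
theorem Tt_le : D.Tt σ ≤ D.H.comap σ := iSup_le (fun _ => inf_le_right)

variable {σ} [Finite Γ] [Fact p.Prime] (hc : Cov p σ)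
include hc

theorem map_Lh (i : ι) : (D.Lh σ i).map σ = D.X i ⊔ D.Y i := by
  rw [Lh, Subgroup.map_sup, hc.map_hX (D.pX i), hc.map_hX (D.pY i)]

/-- conjugation of lifts, general form -/
theorem conj_Lh {i j : ι} {g : Γ} (h1 : ∀ x ∈ D.X i, (σ g * x * (σ g)⁻¹ ∈ D.X j ∨ σ g * x * (σ g)⁻¹ ∈ D.Y j))
    (h2 : ∀ x ∈ D.Y i, (σ g * x * (σ g)⁻¹ ∈ D.X j ∨ σ g * x * (σ g)⁻¹ ∈ D.Y j)) {x : Γ} (hx : x ∈ D.Lh σ i) :
    g * x * g⁻¹ ∈ D.Lh σ j := by
  have key : D.Lh σ i ≤ (D.Lh σ j).comap (MulAut.conj g).toMonoidHom := by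
    unfold Lh
    rw [sup_le_iff]
    constructor
    · intro y hy
      have hy' := (hc.mem_hX (D.pX i)).1 hy
      rw [mem_comap, show (MulAut.conj g).toMonoidHom y = g * y * g⁻¹ from rfl]
      rcases h1 _ hy'.2 with h | h
      · exact Subgroup.mem_sup_left ((hc.mem_hX (D.pX j)).2 ⟨hy'.1.conj g, by simpa using h⟩)
      · exact Subgroup.mem_sup_right ((hc.mem_hX (D.pY j)).2 ⟨hy'.1.conj g, by simpa using h⟩)
    · intro y hy
      have hy' := (hc.mem_hX (D.pY i)).1 hy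
      rw [mem_comap, show (MulAut.conj g).toMonoidHom y = g * y * g⁻¹ from rfl]
      rcases h2 _ hy'.2 with h | h
      · exact Subgroup.mem_sup_left ((hc.mem_hX (D.pX j)).2 ⟨hy'.1.conj g, by simpa using h⟩)
      · exact Subgroup.mem_sup_right ((hc.mem_hX (D.pY j)).2 ⟨hy'.1.conj g, by simpa using h⟩)
  exact key hx

theorem conj_H {i : ι} {g : Γ} (hg : σ g ∈ D.H) {x : Γ} (hx : x ∈ D.Lh σ i) : g * x * g⁻¹ ∈ D.Lh σ i :=
  D.conj_Lh hc (fun x hx => Or.inl (D.HX _ hg i x hx)) (fun y hy => Or.inr (D.HY _ hg i y hy)) hx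

theorem Th_conj {i : ι} {g : Γ} (hg : σ g ∈ D.H) {x : Γ} (hx : x ∈ D.Th σ i) : g * x * g⁻¹ ∈ D.Th σ i := by
  refine ⟨D.conj_H hc hg hx.1, ?_⟩
  show σ (g * x * g⁻¹) ∈ D.H
  rw [map_mul, map_mul, map_inv]
  exact mul_mem (mul_mem hg hx.2) (inv_mem hg)

theorem Tt_conj {g : Γ} (hg : σ g ∈ D.H) {x : Γ} (hx : x ∈ D.Tt σ) : g * x * g⁻¹ ∈ D.Tt σ := by
  have key : D.Tt σ ≤ (D.Tt σ).comap (MulAut.conj g).toMonoidHom :=
    iSup_le (fun i y hy => D.Th_le σ i (D.Th_conj hc hg hy))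
  exact key hx

theorem exists_n (i : ι) : ∃ m ∈ D.Lh σ i, σ m = D.n i := by
  have := D.nL i
  rw [← D.map_Lh hc] at this
  exact this

/-- lifts of the `n i` -/
structure Mh (m : ι → Γ) : Prop where
  mem : ∀ i, m i ∈ D.Lh σ i
  map : ∀ i, σ (m i) = D.n i

omit hc in
theorem Mh.prod_N {D : LDat p Q ι} {m : ι → Γ} (hm : D.Mh (σ := σ) m) (l : List ι) : σ (l.map m).prod ∈ D.N := by
  induction l with
  | nil => rw [List.map_nil, List.prod_nil, map_one]; exact one_mem _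
  | cons i l ih => rw [List.map_cons, List.prod_cons, map_mul, hm.map]; exact mul_mem (D.nN i) ih


namespace Mh
variable {D} {m : ι → Γ} (hm : D.Mh (σ := σ) m)
include hm

omit hc in
theorem sq (i : ι) : m i * m i ∈ D.Th σ i := by
  refine ⟨mul_mem (hm.mem i) (hm.mem i), ?_⟩
  show σ (m i * m i) ∈ D.H
  rw [map_mul, hm.map]; exact D.nsq i

theorem normT (i : ι) {t : Γ} (ht : t ∈ D.Tt σ) : m i * t * (m i)⁻¹ ∈ D.Tt σ := by
  have key : D.Tt σ ≤ (D.Tt σ).comap (MulAut.conj (m i)).toMonoidHom := by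
    refine iSup_le (fun j y hy => ?_)
    rw [mem_comap, show (MulAut.conj (m i)).toMonoidHom y = m i * y * (m i)⁻¹ from rfl]
    have hyH : σ y ∈ D.H := hy.2
    have h1 : y⁻¹ * m i * y ∈ D.Lh σ i := by
      have := D.conj_H hc (g := y⁻¹) (by rw [map_inv]; exact inv_mem hyH) (hm.mem i)
      rwa [inv_inv] at this
    have h2 : y⁻¹ * m i * y * (m i)⁻¹ ∈ D.Th σ i := by
      refine ⟨(D.Lh σ i).mul_mem h1 ((D.Lh σ i).inv_mem (hm.mem i)), ?_⟩
      show σ (y⁻¹ * m i * y * (m i)⁻¹) ∈ D.H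
      have e : σ (y⁻¹ * m i * y * (m i)⁻¹) = (σ y)⁻¹ * (D.n i * σ y * (D.n i)⁻¹) := by
        simp only [map_mul, map_inv, hm.map]; group
      rw [e]; exact mul_mem (inv_mem hyH) (D.nH i _ hyH)
    have e : m i * y * (m i)⁻¹ = y * (y⁻¹ * m i * y * (m i)⁻¹) := by group
    rw [e]
    exact mul_mem (D.Th_le σ j hy) (D.Th_le σ i h2)
  exact key ht

theorem normT' (i : ι) {t : Γ} (ht : t ∈ D.Tt σ) : (m i)⁻¹ * t * m i ∈ D.Tt σ := by
  have h1 := hm.normT hc i ht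
  have h2 := D.Th_le σ i (hm.sq i)
  have e : (m i)⁻¹ * t * m i = (m i * m i)⁻¹ * (m i * t * (m i)⁻¹) * (m i * m i) := by group
  rw [e]; exact mul_mem (mul_mem (inv_mem h2) h1) h2

theorem normW (l : List ι) : ∀ {t : Γ}, t ∈ D.Tt σ → (l.map m).prod⁻¹ * t * (l.map m).prod ∈ D.Tt σ := by
  induction l with
  | nil => intro t ht; simpa using ht
  | cons i l ih =>
    intro t ht
    have h1 := ih (hm.normT' hc i ht)
    have e : ((i :: l).map m).prod⁻¹ * t * ((i :: l).map m).prod =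
        (l.map m).prod⁻¹ * ((m i)⁻¹ * t * m i) * (l.map m).prod := by
      rw [List.map_cons, List.prod_cons]; group
    rw [e]; exact h1

theorem r1 {i j : ι} {g : Γ} (hg : σ g ∈ D.N) (hX : ∀ x, x ∈ D.X i ↔ σ g * x * (σ g)⁻¹ ∈ D.X j)
    (hY : ∀ y, y ∈ D.Y i ↔ σ g * y * (σ g)⁻¹ ∈ D.Y j) : (m j)⁻¹ * (g * m i * g⁻¹) ∈ D.Th σ j := by
  have h1 : g * m i * g⁻¹ ∈ D.Lh σ j :=
    D.conj_Lh hc (fun x hx => Or.inl ((hX x).1 hx)) (fun y hy => Or.inr ((hY y).1 hy)) (hm.mem i)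
  refine ⟨(D.Lh σ j).mul_mem ((D.Lh σ j).inv_mem (hm.mem j)) h1, ?_⟩
  show σ ((m j)⁻¹ * (g * m i * g⁻¹)) ∈ D.H
  have h2 : σ ((m j)⁻¹ * (g * m i * g⁻¹)) = (D.n j)⁻¹ * (σ g * D.n i * (σ g)⁻¹) := by
    simp only [map_mul, map_inv, hm.map]
  rw [h2]
  apply D.swap
  · exact mul_mem (mul_mem hg (D.nN i)) (inv_mem hg)
  · rw [← D.map_Lh hc, ← hm.map i]
    exact ⟨g * m i * g⁻¹, h1, by simp only [map_mul, map_inv]⟩
  · intro x hx
    have h3 : (σ g)⁻¹ * x * σ g ∈ D.X i := by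
      rw [hX]
      have e : σ g * ((σ g)⁻¹ * x * σ g) * (σ g)⁻¹ = x := by group
      rw [e]; exact hx
    have h4 := (hY _).1 (D.nX i _ h3)
    have e : σ g * D.n i * (σ g)⁻¹ * x * (σ g * D.n i * (σ g)⁻¹)⁻¹ =
        σ g * (D.n i * ((σ g)⁻¹ * x * σ g) * (D.n i)⁻¹) * (σ g)⁻¹ := by group
    rw [e]; exact h4

omit hc in
theorem split (i : ι) (l : List ι) (hP : ∀ x ∈ D.X i, σ ((l ++ [i]).map m).prod * x * (σ ((l ++ [i]).map m).prod)⁻¹ ∈ D.U) :
    ∃ l1 j l2, l = l1 ++ j :: l2 ∧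
      ¬ (∀ x ∈ D.X i, σ ((l2 ++ [i]).map m).prod * x * (σ ((l2 ++ [i]).map m).prod)⁻¹ ∈ D.U) ∧
      (∀ x ∈ D.X i, σ ((j :: l2 ++ [i]).map m).prod * x * (σ ((j :: l2 ++ [i]).map m).prod)⁻¹ ∈ D.U) := by
  induction l with
  | nil =>
    exfalso
    simp only [List.nil_append, List.map_cons, List.map_nil, List.prod_cons, List.prod_nil, mul_one, hm.map] at hP
    exact D.nboth (D.n i) (D.nN i) i hP (fun y hy => D.XU i (D.nY i y hy))
  | cons a l ih =>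
    by_cases h : ∀ x ∈ D.X i, σ ((l ++ [i]).map m).prod * x * (σ ((l ++ [i]).map m).prod)⁻¹ ∈ D.U
    · obtain ⟨l1, j, l2, h1, h2, h3⟩ := ih h
      exact ⟨a :: l1, j, l2, by rw [h1]; rfl, h2, h3⟩
    · exact ⟨[], a, l, rfl, h, hP⟩

theorem word : ∀ (k : ℕ) (l : List ι), l.length = k → σ (l.map m).prod ∈ D.H → (l.map m).prod ∈ D.Tt σ := by
  intro k
  induction k using Nat.strong_induction_on with
  | _ k ih =>
    intro l hl hH
    rcases List.eq_nil_or_concat l with rfl | ⟨l0, i, rfl⟩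
    · rw [List.map_nil, List.prod_nil]; exact one_mem _
    rw [List.concat_eq_append] at hl hH ⊢
    obtain ⟨l1, j, l2, rfl, h2, h3⟩ := hm.split i l0 (fun x hx => D.HU _ hH _ (D.XU i hx))
    set g := (l2.map m).prod with hg
    have hgN : σ g ∈ D.N := hm.prod_N l2
    have e1 : ((l2 ++ [i]).map m).prod = g * m i := by simp [hg]
    have e2 : ((j :: l2 ++ [i]).map m).prod = m j * (g * m i) := by simp [hg, mul_assoc]
    rw [e1] at h2
    rw [e2] at h3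
    have hk1 : ∀ y ∈ D.Y i, σ (g * m i) * y * (σ (g * m i))⁻¹ ∈ D.U := by
      rcases D.flag (σ (g * m i)) (by rw [map_mul, hm.map]; exact mul_mem hgN (D.nN i)) i with h | h
      · exact absurd h h2
      · exact h
    have hk2 : ∀ x ∈ D.X i, σ g * x * (σ g)⁻¹ ∈ D.U := by
      intro x hx
      have := hk1 _ (D.nX' i hx)
      have e : σ (g * m i) * ((D.n i)⁻¹ * x * D.n i) * (σ (g * m i))⁻¹ = σ g * x * (σ g)⁻¹ := by
        rw [map_mul, hm.map]; group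
      rwa [e] at this
    have hk3 : ¬ ∀ x ∈ D.X i, D.n j * (σ g * x * (σ g)⁻¹) * (D.n j)⁻¹ ∈ D.U := by
      intro hh
      apply D.nboth (D.n j * σ g) (mul_mem (D.nN j) hgN) i
      · intro x hx
        have := hh x hx
        have e : D.n j * σ g * x * (D.n j * σ g)⁻¹ = D.n j * (σ g * x * (σ g)⁻¹) * (D.n j)⁻¹ := by group
        rw [e]; exact this
      · intro y hy
        have := h3 _ (D.nY' i hy)
        have e : σ (m j * (g * m i)) * ((D.n i)⁻¹ * y * D.n i) * (σ (m j * (g * m i)))⁻¹ =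
            D.n j * σ g * y * (D.n j * σ g)⁻¹ := by
          simp only [map_mul, hm.map]; group
        rwa [e] at this
    obtain ⟨hX, hY⟩ := D.sgn (σ g) hgN i j hk2 hk3
    have h4 := hm.r1 hc hgN hX hY
    have h5 := D.Th_le σ j h4
    set t := (m j)⁻¹ * (g * m i * g⁻¹) with ht
    have h6 := hm.normW hc l2 h5
    rw [← hg] at h6
    -- `m j * g = g * m i * (g⁻¹ t g)⁻¹`
    have e3 : m j * g = g * m i * (g⁻¹ * t * g)⁻¹ := by rw [ht]; group
    have e4 : m j * (g * m i) = g * (m i * m i) * ((m i)⁻¹ * (g⁻¹ * t * g)⁻¹ * m i) := by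
      rw [← mul_assoc, e3]; group
    have h7 : m i * m i * ((m i)⁻¹ * (g⁻¹ * t * g)⁻¹ * m i) ∈ D.Tt σ :=
      mul_mem (D.Th_le σ i (hm.sq i)) (hm.normT' hc i (inv_mem h6))
    set s := m i * m i * ((m i)⁻¹ * (g⁻¹ * t * g)⁻¹ * m i) with hs
    have e5 : ((l1 ++ j :: l2 ++ [i]).map m).prod = ((l1 ++ l2).map m).prod * s := by
      have e6 : ((l1 ++ j :: l2 ++ [i]).map m).prod = (l1.map m).prod * (m j * (g * m i)) := by
        simp [hg, mul_assoc]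
      have e7 : ((l1 ++ l2).map m).prod = (l1.map m).prod * g := by simp [hg]
      rw [e6, e4, e7, hs]; group
    rw [e5]
    refine mul_mem (ih (l1 ++ l2).length ?_ (l1 ++ l2) rfl ?_) h7
    · rw [← hl]; simp
    · have h8 : σ s ∈ D.H := D.Tt_le σ h7
      have e8 : σ ((l1 ++ l2).map m).prod = σ ((l1 ++ j :: l2 ++ [i]).map m).prod * (σ s)⁻¹ := by
        rw [e5, map_mul]; group
      rw [e8]; exact mul_mem hH (inv_mem h8)

/-- the set `U N U` -/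
def Dd (hm : D.Mh (σ := σ) m) (g : Γ) : Prop := ∃ u ∈ hX p σ D.U, ∃ l : List ι, ∃ t ∈ D.Tt σ, ∃ u' ∈ hX p σ D.U,
  g = u * ((l.map m).prod * t) * u'

theorem dU {g x : Γ} (hg : hm.Dd g) (hx : x ∈ hX p σ D.U) : hm.Dd (x * g) := by
  obtain ⟨u, hu, l, t, ht, u', hu', rfl⟩ := hg
  exact ⟨x * u, mul_mem hx hu, l, t, ht, u', hu', by group⟩

theorem dT {g x : Γ} (hg : hm.Dd g) (hx : x ∈ D.Tt σ) : hm.Dd (x * g) := by
  obtain ⟨u, hu, l, t, ht, u', hu', rfl⟩ := hg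
  have hxH : σ x ∈ D.H := D.Tt_le σ hx
  have h1 : x * u * x⁻¹ ∈ hX p σ D.U := hc.hX_conj D.pU D.pU hu
    (D.HU _ hxH _ ((hc.mem_hX D.pU).1 hu).2)
  refine ⟨x * u * x⁻¹, h1, l, (l.map m).prod⁻¹ * x * (l.map m).prod * t, mul_mem (hm.normW hc l hx) ht, u', hu', by group⟩

theorem nsN (l : List ι) {t : Γ} (ht : t ∈ D.Tt σ) : σ ((l.map m).prod * t) ∈ D.N := by
  rw [map_mul]; exact mul_mem (hm.prod_N l) (D.HN (D.Tt_le σ ht))

theorem dm {g : Γ} (i : ι) (hg : hm.Dd g) : hm.Dd (m i * g) := by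
  obtain ⟨u, hu, l, t, ht, u', hu', rfl⟩ := hg
  set n := (l.map m).prod * t with hn
  have hnN : σ n ∈ D.N := hm.nsN hc l ht
  have hu0 := (hc.mem_hX D.pU).1 hu
  obtain ⟨v0, hv0, x0, hx0, e0⟩ := D.UV i _ hu0.2
  obtain ⟨v, hv, rfl⟩ := hc.exists_hX (D.pV i) hv0
  obtain ⟨x, hx, rfl⟩ := hc.exists_hX (D.pX i) hx0
  have hvU : v ∈ hX p σ D.U := hX_mono (D.VU i) hv
  have hxU : x ∈ hX p σ D.U := hX_mono (D.XU i) hx
  have e1 : u = v * x := by
    apply hc.uniq hu0.1 (PE.of (hc.pg_hX D.pU) (mul_mem hvU hxU))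
    rw [map_mul]; exact e0
  have h1 : m i * v * (m i)⁻¹ ∈ hX p σ D.U := by
    apply hc.hX_conj (D.pV i) D.pU hv
    rw [hm.map]
    exact D.VU i (D.nV i _ hv0)
  suffices h : hm.Dd (m i * x * n * u') by
    have := hm.dU hc h h1
    have e : m i * v * (m i)⁻¹ * (m i * x * n * u') = m i * (u * n * u') := by rw [e1]; group
    rwa [e] at this
  have hns : ∀ i, ∃ l' : List ι, ∃ t' ∈ D.Tt σ, m i * n = (l'.map m).prod * t' :=
    fun i => ⟨i :: l, t, ht, by rw [hn, List.map_cons, List.prod_cons, mul_assoc]⟩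
  rcases D.flag ((σ n)⁻¹) (inv_mem hnN) i with hf | hf
  · have h2 : n⁻¹ * x * n ∈ hX p σ D.U := by
      have := hc.hX_conj (D.pX i) D.pU (g := n⁻¹) hx (by rw [map_inv]; exact hf _ hx0)
      rwa [inv_inv] at this
    obtain ⟨l', t', ht', e2⟩ := hns i
    exact ⟨1, one_mem _, l', t', ht', n⁻¹ * x * n * u', mul_mem h2 hu', by rw [← e2]; group⟩
  · -- rank one computation
    have h3 : m i * x * m i ∈ D.Lh σ i :=
      mul_mem (mul_mem (hm.mem i) (Subgroup.mem_sup_left hx)) (hm.mem i)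
    have h4 : σ (m i * x * m i) ∈ D.X i ⊔ D.Y i := by
      rw [← D.map_Lh hc]; exact ⟨_, h3, rfl⟩
    rcases D.br i _ h4 with ⟨a0, ha0, h, hh, e2⟩ | ⟨a0, ha0, h, hh, b0, hb0, e2⟩
    · obtain ⟨a, ha, rfl⟩ := hc.exists_hX (D.pX i) ha0
      have h5 : a⁻¹ * (m i * x * m i) ∈ D.Th σ i := by
        refine ⟨(D.Lh σ i).mul_mem ((D.Lh σ i).inv_mem (Subgroup.mem_sup_left ha)) h3, ?_⟩
        show σ (a⁻¹ * (m i * x * m i)) ∈ D.H
        rw [map_mul, map_inv, e2, inv_mul_cancel_left]; exact hh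
      set s := a⁻¹ * (m i * x * m i) with hs
      -- `m x n = a s m⁻¹ n`
      have e3 : m i * x * n * u' = a * (s * ((m i * m i)⁻¹ * (m i * n * u'))) := by rw [hs]; group
      rw [e3]
      apply hm.dU hc _ (hX_mono (D.XU i) ha)
      apply hm.dT hc _ (D.Th_le σ i h5)
      apply hm.dT hc _ (inv_mem (D.Th_le σ i (hm.sq i)))
      obtain ⟨l', t', ht', e4⟩ := hns i
      exact ⟨1, one_mem _, l', t', ht', u', hu', by rw [← e4]; group⟩
    · obtain ⟨a, ha, rfl⟩ := hc.exists_hX (D.pX i) ha0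
      obtain ⟨b, hb, rfl⟩ := hc.exists_hX (D.pX i) hb0
      have h5 : a⁻¹ * (m i * x * m i) * (b⁻¹ * (m i)⁻¹) ∈ D.Th σ i := by
        refine ⟨(D.Lh σ i).mul_mem ((D.Lh σ i).mul_mem ((D.Lh σ i).inv_mem (Subgroup.mem_sup_left ha)) h3)
          ((D.Lh σ i).mul_mem ((D.Lh σ i).inv_mem (Subgroup.mem_sup_left hb)) ((D.Lh σ i).inv_mem (hm.mem i))), ?_⟩
        show σ (a⁻¹ * (m i * x * m i) * (b⁻¹ * (m i)⁻¹)) ∈ D.H
        have : σ (a⁻¹ * (m i * x * m i) * (b⁻¹ * (m i)⁻¹)) = h := by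
          rw [map_mul, map_mul, map_inv, e2, map_mul, map_inv, map_inv, hm.map]; group
        rw [this]; exact hh
      set s := a⁻¹ * (m i * x * m i) * (b⁻¹ * (m i)⁻¹) with hs
      -- `m x = a s m b m⁻¹`
      have h6 : m i * b * (m i)⁻¹ ∈ hX p σ (D.Y i) := by
        apply hc.hX_conj (D.pX i) (D.pY i) hb
        rw [hm.map]; exact D.nX i _ hb0
      have h7 : n⁻¹ * (m i * b * (m i)⁻¹) * n ∈ hX p σ D.U := by
        have := hc.hX_conj (D.pY i) D.pU (g := n⁻¹) h6 (by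
          rw [map_inv]; exact hf _ ((hc.mem_hX (D.pY i)).1 h6).2)
        rwa [inv_inv] at this
      have e3 : m i * x * n * u' = a * (s * (n * (n⁻¹ * (m i * b * (m i)⁻¹) * n * u'))) := by rw [hs]; group
      rw [e3]
      apply hm.dU hc _ (hX_mono (D.XU i) ha)
      apply hm.dT hc _ (D.Th_le σ i h5)
      exact ⟨1, one_mem _, l, t, ht, _, mul_mem h7 hu', by rw [← hn]; group⟩

theorem all (hcomm : σ.ker ≤ commutator Γ) (g : Γ) : hm.Dd g := by
  -- the subgroup generated by the lifts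
  have h1 : ∀ i, ∀ y ∈ D.Lh σ i, ∀ g, hm.Dd g → hm.Dd (y * g) := by
    intro i y hy
    have hset : D.Lh σ i = closure ((hX p σ (D.X i) : Set Γ) ∪ (hX p σ (D.Y i) : Set Γ)) := by
      rw [Subgroup.closure_union, closure_eq, closure_eq]; rfl
    have hminv : ∀ g, hm.Dd g → hm.Dd ((m i)⁻¹ * g) := by
      intro g hg
      have := hm.dT hc (hm.dm hc i hg) (inv_mem (D.Th_le σ i (hm.sq i)))
      have e : (m i * m i)⁻¹ * (m i * g) = (m i)⁻¹ * g := by group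
      rwa [e] at this
    have hXg : ∀ x ∈ hX p σ (D.X i), ∀ g, hm.Dd g → hm.Dd (x * g) := fun x hx g hg =>
      hm.dU hc hg (hX_mono (D.XU i) hx)
    have hYg : ∀ x ∈ hX p σ (D.Y i), ∀ g, hm.Dd g → hm.Dd (x * g) := by
      intro y hy g hg
      have h2 : (m i)⁻¹ * y * m i ∈ hX p σ (D.X i) := by
        have := hc.hX_conj (D.pY i) (D.pX i) (g := (m i)⁻¹) hy (by
          rw [map_inv, hm.map, inv_inv]; exact D.nY' i ((hc.mem_hX (D.pY i)).1 hy).2)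
        rwa [inv_inv] at this
      have := hm.dm hc i (hXg _ h2 _ (hminv g hg))
      have e : m i * ((m i)⁻¹ * y * m i * ((m i)⁻¹ * g)) = y * g := by group
      rwa [e] at this
    rw [hset] at hy
    induction hy using Subgroup.closure_induction with
    | mem y hy =>
      rcases hy with hy | hy
      · exact hXg y hy
      · exact hYg y hy
    | one => intro g hg; rwa [one_mul]
    | mul a b _ _ iha ihb => intro g hg; rw [mul_assoc]; exact iha _ (ihb _ hg)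
    | inv a ha iha =>
      intro g hg
      -- `a⁻¹` is a power of `a`
      have h5 : ∀ k : ℕ, ∀ g, hm.Dd g → hm.Dd (a ^ k * g) := by
        intro k
        induction k with
        | zero => intro g hg; simpa using hg
        | succ k ih => intro g hg; rw [pow_succ', mul_assoc]; exact iha _ (ih _ hg)
      have h6 : a⁻¹ = a ^ (orderOf a - 1) := by
        rw [inv_eq_iff_mul_eq_one, ← pow_succ', Nat.sub_add_cancel (orderOf_pos a), pow_orderOf_eq_one]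
      rw [h6]; exact h5 _ g hg
  set E : Subgroup Γ := ⨆ i, D.Lh σ i with hE
  have h2 : ∀ y ∈ E, ∀ g, hm.Dd g → hm.Dd (y * g) := by
    intro y hy
    refine Subgroup.iSup_induction (fun i => D.Lh σ i) (C := fun y => ∀ g, hm.Dd g → hm.Dd (y * g)) hy h1
      (fun g hg => by rwa [one_mul]) (fun a b iha ihb g hg => by rw [mul_assoc]; exact iha _ (ihb _ hg))
  have h3 : E.map σ = ⊤ := by
    rw [hE, Subgroup.map_iSup, ← D.gen]
    exact iSup_congr (fun i => D.map_Lh hc i)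
  have h4 : E ⊔ σ.ker = ⊤ := by
    rw [eq_top_iff]
    intro g _
    obtain ⟨y, hy, e⟩ : σ g ∈ E.map σ := by rw [h3]; exact mem_top _
    have : g = y * (y⁻¹ * g) := by group
    rw [this]
    refine mul_mem (Subgroup.mem_sup_left hy) (Subgroup.mem_sup_right ?_)
    rw [MonoidHom.mem_ker, map_mul, map_inv, e, inv_mul_cancel]
  have h5 : commutator Γ ≤ E := by
    rw [_root_.commutator_def, Subgroup.commutator_le]
    intro a _ b _
    have ha : a ∈ E ⊔ σ.ker := by rw [h4]; exact mem_top _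
    have hb : b ∈ E ⊔ σ.ker := by rw [h4]; exact mem_top _
    haveI : σ.ker.Normal := inferInstance
    rw [Subgroup.mem_sup_of_normal_right] at ha hb
    obtain ⟨a1, ha1, a2, ha2, rfl⟩ := ha
    obtain ⟨b1, hb1, b2, hb2, rfl⟩ := hb
    have e : ⁅a1 * a2, b1 * b2⁆ = ⁅a1, b1⁆ := by
      have c1 := hc.cen ha2
      have c2 := hc.cen hb2
      rw [commutatorElement_def, commutatorElement_def, mul_inv_rev, mul_inv_rev]
      have s1 : a1 * a2 * (b1 * b2) * (a2⁻¹ * a1⁻¹) * (b2⁻¹ * b1⁻¹) =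
          a1 * (a2 * (b1 * b2)) * a2⁻¹ * a1⁻¹ * (b2⁻¹ * b1⁻¹) := by group
      rw [s1, ← c1 (b1 * b2)]
      have s2 : a1 * (b1 * b2 * a2) * a2⁻¹ * a1⁻¹ * (b2⁻¹ * b1⁻¹) = a1 * b1 * (b2 * (a1⁻¹ * b2⁻¹)) * b1⁻¹ := by group
      rw [s2, ← c2 (a1⁻¹ * b2⁻¹)]
      group
    rw [e, commutatorElement_def]
    exact mul_mem (mul_mem (mul_mem ha1 hb1) (inv_mem ha1)) (inv_mem hb1)
  have h6 : E = ⊤ := by
    rw [eq_top_iff, ← h4]
    exact sup_le le_rfl (hcomm.trans h5)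
  have h7 := h2 g (by rw [h6]; exact mem_top _) 1 ⟨1, one_mem _, [], 1, one_mem _, 1, one_mem _, by simp⟩
  rwa [mul_one] at h7

theorem comap_le (hcomm : σ.ker ≤ commutator Γ) : D.H.comap σ ≤ D.Tt σ := by
  intro g hg
  rw [mem_comap] at hg
  obtain ⟨u, hu, l, t, ht, u', hu', e⟩ := hm.all hc hcomm g
  set n := (l.map m).prod * t with hn
  have hnN : σ n ∈ D.N := hm.nsN hc l ht
  have hu0 := (hc.mem_hX D.pU).1 hu
  have hu0' := (hc.mem_hX D.pU).1 hu'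
  have e1 : σ u * (σ g * σ u' * (σ g)⁻¹)⁻¹⁻¹ = σ u * (σ g * σ u' * (σ g)⁻¹) := by rw [inv_inv]
  set a := (σ u)⁻¹ * (σ g * (σ u')⁻¹ * (σ g)⁻¹) with ha
  have haU : a ∈ D.U := mul_mem (inv_mem hu0.2) (D.HU _ hg _ (inv_mem hu0'.2))
  have e2 : σ n = a * σ g := by
    have : σ g = σ u * σ n * σ u' := by rw [e, map_mul, map_mul]
    rw [ha]
    have e3 : (σ u)⁻¹ * (σ g * (σ u')⁻¹ * (σ g)⁻¹) * σ g = (σ u)⁻¹ * σ g * (σ u')⁻¹ := by group
    rw [e3, this]; group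
  have haN : a ∈ D.N := by
    have : a = σ n * (σ g)⁻¹ := by rw [e2]; group
    rw [this]; exact mul_mem hnN (inv_mem (D.HN hg))
  have ha1 := D.UN a haU haN
  rw [ha1, one_mul] at e2
  have hword : (l.map m).prod ∈ D.Tt σ := by
    apply hm.word hc l.length l rfl
    have : σ (l.map m).prod = σ n * (σ t)⁻¹ := by rw [hn, map_mul]; group
    rw [this, e2]; exact mul_mem hg (inv_mem (D.Tt_le σ ht))
  have hnT : n ∈ D.Tt σ := mul_mem hword ht
  have h1 : n * u' * n⁻¹ ∈ hX p σ D.U := hc.hX_conj D.pU D.pU hu'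
    (D.HU _ (D.Tt_le σ hnT) _ hu0'.2)
  have h2 : u * (n * u' * n⁻¹) = 1 := by
    apply hc.uniq (PE.of (hc.pg_hX D.pU) (mul_mem hu h1)) PE.one
    have : σ g = σ u * σ n * σ u' := by rw [e, map_mul, map_mul]
    rw [map_one, map_mul, map_mul, map_mul, map_inv]
    rw [← e2] at this
    have e4 : σ u * (σ n * σ u' * (σ n)⁻¹) = σ u * σ n * σ u' * (σ n)⁻¹ := by group
    rw [e4, ← this, mul_inv_cancel]
  have e5 : g = u * (n * u' * n⁻¹) * n := by rw [e]; group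
  rw [e5, h2, one_mul]
  exact hnT

end Mh

omit hc in
theorem Lh_inf_ker {r : ℕ} (hr : r.Prime) (hrp : r ≠ p) (hσ : IsStemExtension σ) (hk : IsPGroup r σ.ker)
    (i : ι) (hL : PStemDvd r (D.X i ⊔ D.Y i : Subgroup Q) 1) {x : Γ} (hx : x ∈ D.Lh σ i) (hx1 : σ x = 1) : x = 1 := by
  have hc := cov_of_stem (p := p) hr hrp hσ hk
  haveI : Fact r.Prime := ⟨hr⟩
  set L := D.Lh σ i with hLdef
  have hmap : L.map σ = D.X i ⊔ D.Y i := D.map_Lh hc i
  let τ : L →* (D.X i ⊔ D.Y i : Subgroup Q) := (σ.comp L.subtype).codRestrict _ (fun y => by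
    rw [← hmap]; exact ⟨y, y.2, rfl⟩)
  have hτ : ∀ y : L, ((τ y : (D.X i ⊔ D.Y i : Subgroup Q)) : Q) = σ y := fun y => rfl
  have hker : ∀ y : L, τ y = 1 ↔ σ (y : Γ) = 1 := by
    intro y
    rw [← hτ, ← OneMemClass.coe_eq_one]
  -- the abelianization is a `p`-group
  have hab : ∀ y : L, PE p (Abelianization.of y) := by
    have : ∀ y ∈ L, ∀ hy : y ∈ L, PE p (Abelianization.of (⟨y, hy⟩ : L)) := by
      have hgen : L = closure ({x | x ∈ hX p σ (D.X i)} ∪ {x | x ∈ hX p σ (D.Y i)}) := by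
        rw [Subgroup.closure_union]
        show L = closure (hX p σ (D.X i) : Set Γ) ⊔ closure (hX p σ (D.Y i) : Set Γ)
        rw [closure_eq, closure_eq]; rfl
      intro y hy0
      rw [hgen] at hy0
      induction hy0 using Subgroup.closure_induction with
      | mem y hy =>
        intro hyL
        have hpe : PE p y := by
          rcases hy with hy | hy
          · exact ((hc.mem_hX (D.pX i)).1 hy).1
          · exact ((hc.mem_hX (D.pY i)).1 hy).1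
        have : PE p (⟨y, hyL⟩ : L) := by
          obtain ⟨k, hk⟩ := hpe
          exact ⟨k, Subtype.ext hk⟩
        exact this.map _
      | one => intro hyL; exact PE.one.map (Abelianization.of (G := L))
      | mul y z hy hz ihy ihz =>
        intro hyL
        rw [← hgen] at hy hz
        have : (⟨y * z, hyL⟩ : L) = ⟨y, hy⟩ * ⟨z, hz⟩ := rfl
        rw [this, map_mul]
        exact PE.mul (Commute.all _ _) (ihy hy) (ihz hz)
      | inv y hy ihy =>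
        intro hyL
        rw [← hgen] at hy
        have : (⟨y⁻¹, hyL⟩ : L) = (⟨y, hy⟩)⁻¹ := rfl
        rw [this, map_inv]
        exact (ihy hy).inv
    exact fun y => this y.1 y.2 y.2
  have hst : IsStemExtension τ := by
    refine ⟨?_, ?_, ?_⟩
    · rintro ⟨y, hy⟩
      rw [← hmap] at hy
      obtain ⟨z, hz, rfl⟩ := hy
      exact ⟨⟨z, hz⟩, Subtype.ext rfl⟩
    · intro y hy
      rw [mem_center_iff]
      intro z
      exact Subtype.ext (hc.cen ((hker y).1 hy) z)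
    · intro y hy
      have h1 := (hker y).1 hy
      obtain ⟨k, hk'⟩ := hab y
      obtain ⟨l, hl⟩ := hk ⟨y, h1⟩
      have hl' : y ^ r ^ l = 1 := by
        apply Subtype.ext
        simpa using congrArg Subtype.val hl
      have h2 : orderOf (Abelianization.of y) ∣ p ^ k := orderOf_dvd_of_pow_eq_one hk'
      have h3 : orderOf (Abelianization.of y) ∣ r ^ l := orderOf_dvd_of_pow_eq_one (by rw [← map_pow, hl', map_one])
      have h4 : orderOf (Abelianization.of y) ∣ 1 := by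
        have hcop : Nat.Coprime (r ^ l) (p ^ k) := (((Nat.coprime_primes hr (Fact.out : p.Prime)).2 hrp).pow_left l).pow_right k
        rw [← hcop.gcd_eq_one]
        exact Nat.dvd_gcd h3 h2
      have h5 := orderOf_eq_one_iff.1 (Nat.dvd_one.1 h4)
      rw [← Abelianization.ker_of L]
      exact h5
  have hpk : IsPGroup r τ.ker := by
    intro y
    obtain ⟨l, hl⟩ := hk ⟨((y : L) : Γ), (hker y).1 y.2⟩
    refine ⟨l, ?_⟩
    apply Subtype.ext
    apply Subtype.ext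
    simpa using congrArg Subtype.val hl
  have h6 := hL L τ hst hpk
  rw [Nat.dvd_one, Subgroup.card_eq_one] at h6
  have h7 : (⟨x, hx⟩ : L) ∈ τ.ker := (hker _).2 hx1
  rw [h6, mem_bot] at h7
  exact congrArg Subtype.val h7

omit hc in
/-- **Main theorem**: the order of an `r`-kernel times `|H|` divides the product of the orders of the rank one tori. -/
theorem card_ker_dvd [Fintype ι] {r : ℕ} (hr : r.Prime) (hrp : r ≠ p) (hσ : IsStemExtension σ) (hk : IsPGroup r σ.ker)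
    (hL : ∀ i, PStemDvd r (D.X i ⊔ D.Y i : Subgroup Q) 1) :
    Nat.card σ.ker * Nat.card D.H ∣ ∏ i, Nat.card ((D.X i ⊔ D.Y i) ⊓ D.H : Subgroup Q) := by
  classical
  have hc := cov_of_stem (p := p) hr hrp hσ hk
  haveI : Finite Q := Finite.of_surjective σ hσ.1
  choose m hm1 hm2 using D.exists_n hc
  have hm : D.Mh (σ := σ) m := ⟨hm1, hm2⟩
  have hle := hm.comap_le hc hσ.2.2
  have heq : D.Tt σ = D.H.comap σ := le_antisymm (D.Tt_le σ) hle
  have hinj : ∀ i, ∀ x ∈ D.Lh σ i, σ x = 1 → x = 1 := fun i x hx hx1 => D.Lh_inf_ker hr hrp hσ hk i (hL i) hx hx1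
  have hcomm : Pairwise fun i j => ∀ x y : Γ, x ∈ D.Th σ i → y ∈ D.Th σ j → Commute x y := by
    intro i j _ x y hx hy
    have hxH : σ x ∈ D.H := hx.2
    have hyH : σ y ∈ D.H := hy.2
    have h1 : y * x⁻¹ * y⁻¹ ∈ D.Lh σ i := D.conj_H hc hyH (inv_mem hx.1)
    have h2 := hinj i (x * (y * x⁻¹ * y⁻¹)) (mul_mem hx.1 h1) (by
      simp only [map_mul, map_inv]
      have := D.Hc _ hxH _ hyH
      have e : σ x * (σ y * (σ x)⁻¹ * (σ y)⁻¹) = (σ x * σ y) * (σ x)⁻¹ * (σ y)⁻¹ := by group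
      rw [e, this]; group)
    have h3 : x * y * x⁻¹ * y⁻¹ = 1 := by rw [← h2]; group
    exact mul_inv_eq_one.1 (by rw [mul_inv_rev, ← mul_assoc]; exact h3)
  have h1 : Nat.card (D.Tt σ) ∣ ∏ i, Nat.card (D.Th σ i) := by
    have hr1 := Subgroup.noncommPiCoprod_range (H := D.Th σ) (hcomm := hcomm)
    have h2 := Subgroup.card_range_dvd (Subgroup.noncommPiCoprod hcomm)
    rw [Nat.card_pi, hr1] at h2
    exact h2
  have h2 : ∀ i, Nat.card (D.Th σ i) ∣ Nat.card ((D.X i ⊔ D.Y i) ⊓ D.H : Subgroup Q) := by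
    intro i
    have hmem : ∀ x : D.Th σ i, σ x ∈ ((D.X i ⊔ D.Y i) ⊓ D.H : Subgroup Q) := by
      intro x
      refine ⟨?_, (x.2).2⟩
      rw [← D.map_Lh hc]
      exact ⟨x, x.2.1, rfl⟩
    let f : D.Th σ i →* ((D.X i ⊔ D.Y i) ⊓ D.H : Subgroup Q) := (σ.comp (D.Th σ i).subtype).codRestrict _ hmem
    apply Subgroup.card_dvd_of_injective f
    intro x y hxy
    have hxy' : σ x = σ y := congrArg Subtype.val hxy
    have := hinj i ((x : Γ)⁻¹ * y) (mul_mem (inv_mem x.2.1) y.2.1) (by rw [map_mul, map_inv, hxy', inv_mul_cancel])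
    exact Subtype.ext (inv_mul_eq_one.1 this)
  have h3 : Nat.card σ.ker * Nat.card D.H = Nat.card (D.Tt σ) := by
    have h4 := card_mul_index (σ.comp (D.Tt σ).subtype).ker
    rw [index_ker] at h4
    rw [← h4]
    congr 1
    · have : (σ.comp (D.Tt σ).subtype).ker.map (D.Tt σ).subtype = σ.ker := by
        rw [← MonoidHom.comap_ker, map_comap_eq, range_subtype]
        refine inf_eq_right.2 (fun z hz => hle ?_)
        rw [mem_comap, MonoidHom.mem_ker.1 hz]; exact one_mem _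
      have h5 := Nat.card_congr (equivMapOfInjective ((σ.comp (D.Tt σ).subtype).ker) _ (subtype_injective (D.Tt σ))).toEquiv
      rw [this] at h5
      exact h5.symm
    · rw [MonoidHom.range_comp, range_subtype, heq, map_comap_eq_self_of_surjective hσ.1]
  rw [h3]
  exact h1.trans (Finset.prod_dvd_prod_of_dvd _ _ (fun i _ => h2 i))

end lift
end LDat
end Cfsg.Agent.Lib.H26LiftA
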