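import Cfsg.Agent.Lib.SchurSylow

/-! The `p`-part of the multiplier of a group with a Sylow `p`-subgroup `U` on which a `p'`-group `H` acts with
no trivial weights in the layers and in the pairings (helper26). -/

set_option autoImplicit false

namespace Cfsg.Agent.Lib.H26LiftB

open Subgroup Cfsg.Agent.Lib.SchurSylow
open scoped commutatorElement

universe u

/-- filtration data -/
structure BDat (p : ℕ) (Q : Type*) [Group Q] where
  U : Subgroup Q
  H : Subgroup Q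
  C : ℕ → Subgroup Q
  m : ℕ
  C0 : C 0 = U
  Cm : C m = ⊥
  anti : ∀ k, C (k + 1) ≤ C k
  comm : ∀ k, ∀ x ∈ C k, ∀ y ∈ U, x * y * x⁻¹ * y⁻¹ ∈ C (k + 1)
  normH : ∀ k, ∀ h ∈ H, ∀ x ∈ C k, h * x * h⁻¹ ∈ C k
  cop : (Nat.card H).Coprime p
  idx : ¬ p ∣ U.index
  fpf : ∀ k, ∀ x ∈ C k, (∀ h ∈ H, h * x * h⁻¹ * x⁻¹ ∈ C (k + 1)) → x ∈ C (k + 1)

namespace BDat
variable {p : ℕ} {Q : Type u} [Group Q] (D : BDat p Q)

/-- `H`-invariant pairings of `C k` with `U` -/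
structure IsPairing (k : ℕ) {A : Type*} [CommGroup A] (f : Q → Q → A) : Prop where
  mul_left : ∀ x ∈ D.C k, ∀ x' ∈ D.C k, ∀ y ∈ D.U, f (x * x') y = f x y * f x' y
  mul_right : ∀ x ∈ D.C k, ∀ y ∈ D.U, ∀ y' ∈ D.U, f x (y * y') = f x y * f x y'
  left_one : ∀ x ∈ D.C (k + 1), ∀ y ∈ D.U, f x y = 1
  inv : ∀ h ∈ D.H, ∀ x ∈ D.C k, ∀ y ∈ D.U, f (h * x * h⁻¹) (h * y * h⁻¹) = f x y
  alt : ∀ x ∈ D.C k, f x x = 1

theorem CU (k : ℕ) : D.C k ≤ D.U := by
  induction k with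
  | zero => rw [D.C0]
  | succ k ih => exact (D.anti k).trans ih

theorem Hop (k : ℕ) {h x : Q} (hh : h ∈ D.H) : h * x * h⁻¹ ∈ D.C k ↔ x ∈ D.C k := by
  constructor
  · intro hx
    have := D.normH k _ (inv_mem hh) _ hx
    have e : h⁻¹ * (h * x * h⁻¹) * h⁻¹⁻¹ = x := by group
    rwa [e] at this
  · exact D.normH k h hh x

section lift
variable {Γ : Type u} [Group Γ] (σ : Γ →* Q)

/-- complements of the kernel over `C k` -/
structure Good (Hs : Subgroup Γ) (k : ℕ) (N : Subgroup Γ) : Prop where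
  disj : ∀ z ∈ N, σ z = 1 → z = 1
  le : ∀ n ∈ N, σ n ∈ D.C k
  onto : ∀ x ∈ D.C k, ∃ n ∈ N, σ n = x
  normU : ∀ a, σ a ∈ D.U → ∀ n ∈ N, a * n * a⁻¹ ∈ N
  normH : ∀ a ∈ Hs, ∀ n ∈ N, a * n * a⁻¹ ∈ N

variable {σ}

open Classical in
/-- the central component -/
noncomputable def zeta (σ : Γ →* Q) (N : Subgroup Γ) (g : Γ) : Γ :=
  if h : ∃ z, σ z = 1 ∧ g * z⁻¹ ∈ N then Classical.choose h else 1

theorem zeta_eq {D : BDat p Q} {Hs : Subgroup Γ} {k : ℕ} {N : Subgroup Γ} (hN : D.Good σ Hs k N) (hz : σ.ker ≤ center Γ)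
    {g z : Γ} (h1 : σ z = 1) (h2 : g * z⁻¹ ∈ N) : zeta σ N g = z := by
  have h : ∃ z, σ z = 1 ∧ g * z⁻¹ ∈ N := ⟨z, h1, h2⟩
  unfold zeta
  rw [dif_pos h]
  obtain ⟨h3, h4⟩ := Classical.choose_spec h
  set w := Classical.choose h
  have h5 : z * w⁻¹ ∈ N := by
    have := mul_mem (inv_mem h2) h4
    have e : (g * z⁻¹)⁻¹ * (g * w⁻¹) = z * w⁻¹ := by group
    rwa [e] at this
  have h6 := hN.disj _ h5 (by rw [map_mul, map_inv, h1, h3]; group)
  exact (mul_inv_eq_one.1 h6).symm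

variable (hσ : IsStemExtension σ)
include hσ

theorem exists_zeta {D : BDat p Q} {Hs : Subgroup Γ} {k : ℕ} {N : Subgroup Γ} (hN : D.Good σ Hs k N)
    {g : Γ} (hg : σ g ∈ D.C k) : σ (zeta σ N g) = 1 ∧ g * (zeta σ N g)⁻¹ ∈ N := by
  obtain ⟨n, hn, e⟩ := hN.onto _ hg
  have h1 : σ (n⁻¹ * g) = 1 := by rw [map_mul, map_inv, e, inv_mul_cancel]
  have h2 : g * (n⁻¹ * g)⁻¹ ∈ N := by
    have e2 : g * (n⁻¹ * g)⁻¹ = n := by group
    rw [e2]; exact hn
  rw [zeta_eq hN hσ.2.1 h1 h2]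
  exact ⟨h1, h2⟩

theorem zeta_mul {D : BDat p Q} {Hs : Subgroup Γ} {k : ℕ} {N : Subgroup Γ} (hN : D.Good σ Hs k N)
    {g g' : Γ} (hg : σ g ∈ D.C k) (hg' : σ g' ∈ D.C k) : zeta σ N (g * g') = zeta σ N g * zeta σ N g' := by
  obtain ⟨a1, a2⟩ := exists_zeta hσ hN hg
  obtain ⟨b1, b2⟩ := exists_zeta hσ hN hg'
  apply zeta_eq hN hσ.2.1
  · rw [map_mul, a1, b1, one_mul]
  · set z := zeta σ N g
    set w := zeta σ N g'
    have hzc := mem_center_iff.1 (hσ.2.1 (show z ∈ σ.ker from a1))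
    have e : g * g' * (z * w)⁻¹ = g * z⁻¹ * (g' * w⁻¹) := by
      have h1 : z⁻¹ * (g' * w⁻¹) = (g' * w⁻¹) * z⁻¹ := by
        rw [inv_mul_eq_iff_eq_mul, ← mul_assoc, ← hzc (g' * w⁻¹)]; group
      calc g * g' * (z * w)⁻¹ = g * (g' * w⁻¹ * z⁻¹) := by group
        _ = _ := by rw [← h1]; group
    rw [e]; exact mul_mem a2 b2

theorem zeta_conj {D : BDat p Q} {Hs : Subgroup Γ} {k : ℕ} {N : Subgroup Γ} (hN : D.Good σ Hs k N)
    {g a : Γ} (hg : σ g ∈ D.C k) (ha : ∀ n ∈ N, a * n * a⁻¹ ∈ N) : zeta σ N (a * g * a⁻¹) = zeta σ N g := by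
  obtain ⟨a1, a2⟩ := exists_zeta hσ hN hg
  apply zeta_eq hN hσ.2.1 a1
  set z := zeta σ N g
  have hzc := mem_center_iff.1 (hσ.2.1 (show z ∈ σ.ker from a1))
  have e : a * g * a⁻¹ * z⁻¹ = a * (g * z⁻¹) * a⁻¹ := by
    have h1 : a⁻¹ * z⁻¹ = z⁻¹ * a⁻¹ := by
      have := hzc a
      rw [← mul_inv_rev, ← mul_inv_rev, this]
    calc a * g * a⁻¹ * z⁻¹ = a * g * (a⁻¹ * z⁻¹) := by group
      _ = _ := by rw [h1]; group
  rw [e]; exact ha _ a2

theorem zeta_one {D : BDat p Q} {Hs : Subgroup Γ} {k : ℕ} {N : Subgroup Γ} (hN : D.Good σ Hs k N)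
    {g : Γ} (hg : g ∈ N) : zeta σ N g = 1 :=
  zeta_eq hN hσ.2.1 (map_one σ) (by rw [inv_one, mul_one]; exact hg)

theorem mem_of_zeta {D : BDat p Q} {Hs : Subgroup Γ} {k : ℕ} {N : Subgroup Γ} (hN : D.Good σ Hs k N)
    {g : Γ} (hg : σ g ∈ D.C k) (h : zeta σ N g = 1) : g ∈ N := by
  have := (exists_zeta hσ hN hg).2
  rwa [h, inv_one, mul_one] at this

/-- the commutator -/
def cm (a b : Γ) : Γ := a * b * a⁻¹ * b⁻¹

theorem cm_congr {a a' b b' : Γ} (ha : σ a = σ a') (hb : σ b = σ b') : cm a b = cm a' b' := by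
  have h1 : a⁻¹ * a' ∈ σ.ker := by rw [MonoidHom.mem_ker, map_mul, map_inv, ha, inv_mul_cancel]
  have h2 : b⁻¹ * b' ∈ σ.ker := by rw [MonoidHom.mem_ker, map_mul, map_inv, hb, inv_mul_cancel]
  have c1 := mem_center_iff.1 (hσ.2.1 h1)
  have c2 := mem_center_iff.1 (hσ.2.1 h2)
  set z := a⁻¹ * a' with hz
  set w := b⁻¹ * b' with hw
  have e1 : a' = a * z := by rw [hz]; group
  have e2 : b' = b * w := by rw [hw]; group
  unfold cm
  rw [e1, e2]
  have s1 : a * z * (b * w) * (a * z)⁻¹ * (b * w)⁻¹ = a * (z * (b * w)) * z⁻¹ * a⁻¹ * w⁻¹ * b⁻¹ := by group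
  rw [s1, ← c1 (b * w)]
  have s2 : a * (b * w * z) * z⁻¹ * a⁻¹ * w⁻¹ * b⁻¹ = a * b * (w * a⁻¹) * w⁻¹ * b⁻¹ := by group
  rw [s2, ← c2 a⁻¹]
  group

theorem comm_le (D : BDat p Q) {Hs : Subgroup Γ} {k : ℕ} {N : Subgroup Γ} (hN : D.Good σ Hs (k + 1) N)
    (hk : IsPGroup p σ.ker) (hHs : ∀ h ∈ D.H, ∃ a ∈ Hs, σ a = h) (Sp : Q → Q → Prop)
    (hSp : ∀ x ∈ D.C k, ∀ y ∈ D.U, Sp x y → ∀ a b, σ a = x → σ b = y → a * b = b * a)
    (hpair : ∀ (A : Type u) [CommGroup A] (f : Q → Q → A), IsPGroup p A → D.IsPairing k f →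
      (∀ x ∈ D.C k, ∀ y ∈ D.U, Sp x y → f x y = 1) → ∀ x ∈ D.C k, ∀ y ∈ D.U, f x y = 1)
    {a b : Γ} (ha : σ a ∈ D.C k) (hb : σ b ∈ D.U) : cm a b ∈ N := by
  classical
  letI : CommGroup ↥σ.ker :=
    { (inferInstance : Group ↥σ.ker) with
      mul_comm := fun x y => Subtype.ext (mem_center_iff.1 (hσ.2.1 y.2) x) }
  set s : Q → Γ := Function.surjInv hσ.1 with hs
  have hss : ∀ x, σ (s x) = x := Function.surjInv_eq hσ.1
  have hcC : ∀ {a b : Γ}, σ a ∈ D.C k → σ b ∈ D.U → σ (cm a b) ∈ D.C (k + 1) := by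
    intro a b ha hb
    have := D.comm k _ ha _ hb
    simpa [cm] using this
  have hζ : ∀ x ∈ D.C k, ∀ y ∈ D.U, σ (zeta σ N (cm (s x) (s y))) = 1 := fun x hx y hy =>
    (exists_zeta hσ hN (hcC (by rw [hss]; exact hx) (by rw [hss]; exact hy))).1
  set f : Q → Q → ↥σ.ker := fun x y => if h : σ (zeta σ N (cm (s x) (s y))) = 1 then ⟨_, h⟩ else 1 with hf
  have hfv : ∀ x ∈ D.C k, ∀ y ∈ D.U, ((f x y : ↥σ.ker) : Γ) = zeta σ N (cm (s x) (s y)) := by
    intro x hx y hy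
    simp only [hf]
    rw [dif_pos (hζ x hx y hy)]
  have hcm1 : ∀ a a' b : Γ, cm (a * a') b = a * cm a' b * a⁻¹ * cm a b := by intro a a' b; unfold cm; group
  have hcm2 : ∀ a b b' : Γ, cm a (b * b') = cm a b * (b * cm a b' * b⁻¹) := by intro a b b'; unfold cm; group
  have hfP : D.IsPairing k f := by
    refine ⟨?_, ?_, ?_, ?_, ?_⟩
    · intro x hx x' hx' y hy
      apply Subtype.ext
      show ((f (x * x') y : ↥σ.ker) : Γ) = (f x y : Γ) * (f x' y : Γ)
      rw [hfv _ (mul_mem hx hx') _ hy, hfv _ hx _ hy, hfv _ hx' _ hy]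
      have h1 : cm (s (x * x')) (s y) = cm (s x * s x') (s y) :=
        cm_congr hσ (by rw [hss, map_mul, hss, hss]) rfl
      rw [h1, hcm1]
      have hx1 := hcC (a := s x) (b := s y) (by rw [hss]; exact hx) (by rw [hss]; exact hy)
      have hx2 := hcC (a := s x') (b := s y) (by rw [hss]; exact hx') (by rw [hss]; exact hy)
      have hn : ∀ n ∈ N, s x * n * (s x)⁻¹ ∈ N := hN.normU _ (by rw [hss]; exact D.CU k hx)
      have hx3 : σ (s x * cm (s x') (s y) * (s x)⁻¹) ∈ D.C (k + 1) := by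
        obtain ⟨h5, h6⟩ := exists_zeta hσ hN hx2
        have h7 := hN.le _ (hn _ h6)
        have e : σ (s x * (cm (s x') (s y) * (zeta σ N (cm (s x') (s y)))⁻¹) * (s x)⁻¹) =
            σ (s x * cm (s x') (s y) * (s x)⁻¹) := by
          simp only [map_mul, map_inv, h5, inv_one, mul_one]
        rwa [e] at h7
      rw [zeta_mul hσ hN hx3 hx1, zeta_conj hσ hN hx2 hn]
      have h8 := (exists_zeta hσ hN hx1).1
      exact mem_center_iff.1 (hσ.2.1 h8) _
    · intro x hx y hy y' hy'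
      apply Subtype.ext
      show ((f x (y * y') : ↥σ.ker) : Γ) = (f x y : Γ) * (f x y' : Γ)
      rw [hfv _ hx _ (mul_mem hy hy'), hfv _ hx _ hy, hfv _ hx _ hy']
      have h1 : cm (s x) (s (y * y')) = cm (s x) (s y * s y') :=
        cm_congr hσ rfl (by rw [hss, map_mul, hss, hss])
      rw [h1, hcm2]
      have hx1 := hcC (a := s x) (b := s y) (by rw [hss]; exact hx) (by rw [hss]; exact hy)
      have hx2 := hcC (a := s x) (b := s y') (by rw [hss]; exact hx) (by rw [hss]; exact hy')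
      have hn : ∀ n ∈ N, s y * n * (s y)⁻¹ ∈ N := hN.normU _ (by rw [hss]; exact hy)
      have hx3 : σ (s y * cm (s x) (s y') * (s y)⁻¹) ∈ D.C (k + 1) := by
        obtain ⟨h5, h6⟩ := exists_zeta hσ hN hx2
        have h7 := hN.le _ (hn _ h6)
        have e : σ (s y * (cm (s x) (s y') * (zeta σ N (cm (s x) (s y')))⁻¹) * (s y)⁻¹) =
            σ (s y * cm (s x) (s y') * (s y)⁻¹) := by
          simp only [map_mul, map_inv, h5, inv_one, mul_one]
        rwa [e] at h7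
      rw [zeta_mul hσ hN hx1 hx3, zeta_conj hσ hN hx2 hn]
    · intro x hx y hy
      apply Subtype.ext
      rw [hfv _ (D.anti k hx) _ hy]
      apply zeta_one hσ hN
      obtain ⟨n, hn, e⟩ := hN.onto x hx
      have h1 : cm (s x) (s y) = cm n (s y) := cm_congr hσ (by rw [hss, e]) rfl
      rw [h1]
      unfold cm
      have h2 := hN.normU (s y) (by rw [hss]; exact hy) n⁻¹ (inv_mem hn)
      have e2 : n * s y * n⁻¹ * (s y)⁻¹ = n * (s y * n⁻¹ * (s y)⁻¹) := by group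
      rw [e2]; exact mul_mem hn h2
    · intro h hh x hx y hy
      apply Subtype.ext
      have hyU : h * y * h⁻¹ ∈ D.U := by
        have := D.normH 0 h hh y (by rw [D.C0]; exact hy)
        rwa [D.C0] at this
      rw [hfv _ (D.normH k h hh x hx) _ hyU, hfv _ hx _ hy]
      obtain ⟨c, hc, ec⟩ := hHs h hh
      have h1 : cm (s (h * x * h⁻¹)) (s (h * y * h⁻¹)) = c * cm (s x) (s y) * c⁻¹ := by
        have e1 : cm (s (h * x * h⁻¹)) (s (h * y * h⁻¹)) = cm (c * s x * c⁻¹) (c * s y * c⁻¹) :=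
          cm_congr hσ (by rw [hss, map_mul, map_mul, map_inv, hss, ec]) (by rw [hss, map_mul, map_mul, map_inv, hss, ec])
        rw [e1]; unfold cm; group
      rw [h1]
      exact zeta_conj hσ hN (hcC (by rw [hss]; exact hx) (by rw [hss]; exact hy)) (hN.normH c hc)
    · intro x hx
      apply Subtype.ext
      rw [hfv _ hx _ (D.CU k hx)]
      apply zeta_one hσ hN
      have : cm (s x) (s x) = 1 := by unfold cm; group
      rw [this]; exact one_mem _
  have hfS : ∀ x ∈ D.C k, ∀ y ∈ D.U, Sp x y → f x y = 1 := by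
    intro x hx y hy hsp
    apply Subtype.ext
    rw [hfv _ hx _ hy]
    apply zeta_one hσ hN
    have h1 := hSp x hx y hy hsp _ _ (hss x) (hss y)
    have : cm (s x) (s y) = 1 := by unfold cm; rw [h1]; group
    rw [this]; exact one_mem _
  have hfin := hpair ↥σ.ker f hk hfP hfS _ ha _ hb
  have h1 : cm a b = cm (s (σ a)) (s (σ b)) := cm_congr hσ (by rw [hss]) (by rw [hss])
  rw [h1]
  apply mem_of_zeta hσ hN (hcC (by rw [hss]; exact ha) (by rw [hss]; exact hb))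
  rw [← hfv _ ha _ hb, hfin]; rfl

theorem step (D : BDat p Q) [hp : Fact p.Prime] [Finite Γ] {Hs : Subgroup Γ} {k : ℕ} {N : Subgroup Γ} (hN : D.Good σ Hs (k + 1) N)
    (hk : IsPGroup p σ.ker) (hHs : ∀ h ∈ D.H, ∃ a ∈ Hs, σ a = h) (hHs' : ∀ a ∈ Hs, σ a ∈ D.H)
    (hcop : (Nat.card Hs).Coprime p)
    (hcm : ∀ a b, σ a ∈ D.C k → σ b ∈ D.U → cm a b ∈ N) : ∃ N' : Subgroup Γ, D.Good σ Hs k N' := by
  classical
  set A : Subgroup Γ := (D.C k).comap σ with hA
  have hAU : ∀ a ∈ A, σ a ∈ D.U := fun a ha => D.CU k ha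
  have hNA : N ≤ A := fun n hn => D.anti k (hN.le n hn)
  set N2 : Subgroup ↥A := N.subgroupOf A with hN2
  haveI hnorm : N2.Normal := by
    refine ⟨fun n hn g => ?_⟩
    rw [hN2, mem_subgroupOf] at hn ⊢
    exact hN.normU g (hAU g g.2) _ hn
  letI : CommGroup (↥A ⧸ N2) :=
    { (inferInstance : Group (↥A ⧸ N2)) with
      mul_comm := by
        intro x y
        obtain ⟨a, rfl⟩ := QuotientGroup.mk_surjective x
        obtain ⟨b, rfl⟩ := QuotientGroup.mk_surjective y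
        rw [← QuotientGroup.mk_mul, ← QuotientGroup.mk_mul, QuotientGroup.eq, hN2, mem_subgroupOf]
        have h1 := hcm (b : Γ)⁻¹ (a : Γ)⁻¹ (by rw [map_inv]; exact inv_mem b.2) (by rw [map_inv]; exact inv_mem (hAU a a.2))
        have e : (((a * b)⁻¹ * (b * a) : ↥A) : Γ) = cm (b : Γ)⁻¹ (a : Γ)⁻¹ := by
          simp only [cm, Subgroup.coe_mul, Subgroup.coe_inv]; group
        rw [e]; exact h1 }
  have hconj : ∀ h : Hs, ∀ a ∈ A, (h : Γ) * a * (h : Γ)⁻¹ ∈ A := by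
    intro h a ha
    rw [hA, mem_comap, map_mul, map_mul, map_inv]
    exact D.normH k _ (hHs' h h.2) _ ha
  let c : Hs → (↥A →* ↥A) := fun h =>
    { toFun := fun a => ⟨(h : Γ) * a * (h : Γ)⁻¹, hconj h a a.2⟩
      map_one' := by apply Subtype.ext; simp
      map_mul' := fun a b => by apply Subtype.ext; simp only [Subgroup.coe_mul]; group }
  have hc : ∀ h a, ((c h a : ↥A) : Γ) = (h : Γ) * a * (h : Γ)⁻¹ := fun h a => rfl
  let mk : ↥A →* (↥A ⧸ N2) := QuotientGroup.mk' N2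
  have hmk : ∀ a : ↥A, mk a = 1 ↔ (a : Γ) ∈ N := by
    intro a
    show (QuotientGroup.mk' N2) a = 1 ↔ _
    rw [← MonoidHom.mem_ker, QuotientGroup.ker_mk', hN2, mem_subgroupOf]
  haveI : Fintype Hs := Fintype.ofFinite _
  let E : ↥A →* (↥A ⧸ N2) :=
    { toFun := fun a => ∏ h : Hs, mk (c h a)
      map_one' := by simp
      map_mul' := fun a b => by simp only [map_mul, Finset.prod_mul_distrib] }
  have hE : ∀ a, E a = ∏ h : Hs, mk (c h a) := fun a => rfl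
  have hcN : ∀ (h : Hs) (a : ↥A), (a : Γ) ∈ N → mk (c h a) = 1 := by
    intro h a ha
    rw [hmk, hc]; exact hN.normH h h.2 _ ha
  have hEN : ∀ a : ↥A, (a : Γ) ∈ N → E a = 1 := by
    intro a ha
    rw [hE]
    exact Finset.prod_eq_one (fun h _ => hcN h a ha)
  have hEH : ∀ (h : Hs) (a : ↥A), E (c h a) = E a := by
    intro h a
    rw [hE, hE]
    refine Fintype.prod_equiv (Equiv.mulRight h) _ _ (fun h' => ?_)
    congr 1
    apply Subtype.ext
    rw [hc, hc, hc]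
    simp only [Equiv.coe_mulRight, Subgroup.coe_mul]
    group
  have hEz : ∀ a : ↥A, σ (a : Γ) = 1 → E a = mk a ^ Nat.card Hs := by
    intro a ha
    rw [hE, Nat.card_eq_fintype_card, Fintype.card, ← Finset.prod_const]
    refine Finset.prod_congr rfl (fun h _ => ?_)
    congr 1
    apply Subtype.ext
    rw [hc]
    have := mem_center_iff.1 (hσ.2.1 (show (a : Γ) ∈ σ.ker from ha)) (h : Γ)
    rw [this]; group
  have hzpow : ∀ z ∈ σ.ker, z ^ Nat.card Hs = 1 → z = 1 := by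
    intro z hz h1
    obtain ⟨n, hn⟩ := hk ⟨z, hz⟩
    have h2 : z ^ p ^ n = 1 := by simpa using congrArg Subtype.val hn
    have h3 : orderOf z ∣ 1 := by
      rw [← (hcop.pow_right n).gcd_eq_one]
      exact Nat.dvd_gcd (orderOf_dvd_of_pow_eq_one h1) (orderOf_dvd_of_pow_eq_one h2)
    exact orderOf_eq_one_iff.1 (Nat.dvd_one.1 h3)
  have hzroot : ∀ z ∈ σ.ker, ∃ w ∈ σ.ker, w ^ Nat.card Hs = z := by
    intro z hz
    obtain ⟨n, hn⟩ := IsPGroup.iff_card.1 hk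
    have hc2 : (Nat.card ↥σ.ker).Coprime (Nat.card Hs) := by rw [hn]; exact (hcop.pow_right n).symm
    obtain ⟨w, hw⟩ := (powCoprime hc2).surjective ⟨z, hz⟩
    refine ⟨w, w.2, ?_⟩
    simpa using congrArg Subtype.val hw
  refine ⟨E.ker.map A.subtype, ?_, ?_, ?_, ?_, ?_⟩
  · rintro _ ⟨a, ha, rfl⟩ h1
    have h1' : σ (a : Γ) = 1 := h1
    have h2 : E a = 1 := ha
    rw [hEz a h1', ← map_pow, hmk] at h2
    have h3 := hN.disj _ h2 (by simp [h1'])
    exact hzpow _ h1' (by simpa using h3)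
  · rintro _ ⟨a, ha, rfl⟩
    exact a.2
  · intro x hx
    obtain ⟨a0, ha0⟩ := hσ.1 x
    set a : ↥A := ⟨a0, by rw [hA, mem_comap, ha0]; exact hx⟩ with ha
    obtain ⟨e, he⟩ := QuotientGroup.mk_surjective (E a)
    have he' : mk e = E a := he
    -- `e` is fixed modulo `N`
    have hfix : ∀ h : Hs, mk (c h e) = mk e := by
      intro h
      have hker : N2 ≤ (mk.comp (c h)).ker := by
        intro n hn
        rw [MonoidHom.mem_ker, MonoidHom.comp_apply]
        exact hcN h n (by rwa [hN2, mem_subgroupOf] at hn)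
      let ch : (↥A ⧸ N2) →* (↥A ⧸ N2) := QuotientGroup.lift N2 (mk.comp (c h)) hker
      have hch : ∀ b : ↥A, ch (mk b) = mk (c h b) := fun b => rfl
      have h1 : ch (E a) = E a := by
        conv_rhs => rw [hE]
        rw [hE, map_prod]
        refine Fintype.prod_equiv (Equiv.mulLeft h) _ _ (fun h' => ?_)
        rw [hch]
        congr 1
        apply Subtype.ext
        rw [hc, hc, hc]
        simp only [Equiv.coe_mulLeft, Subgroup.coe_mul]
        group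
      rw [← hch, he', h1]
    have h2 : σ (e : Γ) ∈ D.C (k + 1) := by
      apply D.fpf k _ e.2
      intro h hh
      obtain ⟨b, hb, rfl⟩ := hHs h hh
      have h3 := hfix ⟨b, hb⟩
      have h4 : mk (c ⟨b, hb⟩ e * e⁻¹) = 1 := by rw [map_mul, h3, map_inv, mul_inv_cancel]
      rw [hmk] at h4
      have h5 := hN.le _ h4
      simpa [hc] using h5
    obtain ⟨n, hn, en⟩ := hN.onto _ h2
    have h3 : σ (n⁻¹ * (e : Γ)) = 1 := by rw [map_mul, map_inv, en, inv_mul_cancel]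
    obtain ⟨w, hw, ew⟩ := hzroot _ (show (n⁻¹ * (e : Γ))⁻¹ ∈ σ.ker from inv_mem h3)
    have hwA : w ∈ A := by rw [hA, mem_comap, MonoidHom.mem_ker.1 hw]; exact one_mem _
    refine ⟨a0 * w, ⟨a * ⟨w, hwA⟩, ?_, rfl⟩, ?_⟩
    · show E (a * ⟨w, hwA⟩) = 1
      rw [map_mul, hEz ⟨w, hwA⟩ hw, ← he', ← map_pow, ← map_mul, hmk]
      have e3 : ((e * (⟨w, hwA⟩ : ↥A) ^ Nat.card Hs : ↥A) : Γ) = n := by
        rw [Subgroup.coe_mul, Subgroup.coe_pow, ew]
        have hzc := mem_center_iff.1 (hσ.2.1 (show n⁻¹ * (e : Γ) ∈ σ.ker from h3))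
        have e4 : (e : Γ) = n * (n⁻¹ * (e : Γ)) := by group
        rw [e4]; group
      rw [e3]; exact hn
    · rw [map_mul, ha0, MonoidHom.mem_ker.1 hw, mul_one]
  · rintro b hb _ ⟨a, ha, rfl⟩
    have ha' : E a = 1 := ha
    have h1 := hcm (a : Γ) b a.2 hb
    have hbaA : b * (a : Γ) * b⁻¹ ∈ A := by
      have h2 : b * (a : Γ) * b⁻¹ = (cm (a : Γ) b)⁻¹ * a := by unfold cm; group
      rw [h2]; exact mul_mem (inv_mem (hNA h1)) a.2
    refine ⟨⟨_, hbaA⟩, ?_, rfl⟩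
    show E _ = 1
    have h2 : (⟨b * (a : Γ) * b⁻¹, hbaA⟩ : ↥A) = ⟨(cm (a : Γ) b)⁻¹, inv_mem (hNA h1)⟩ * a := by
      apply Subtype.ext; simp only [cm, Subgroup.coe_mul]; group
    rw [h2, map_mul, ha', mul_one]
    exact hEN _ (inv_mem h1)
  · rintro b hb _ ⟨a, ha, rfl⟩
    refine ⟨c ⟨b, hb⟩ a, ?_, rfl⟩
    show E _ = 1
    rw [hEH]; exact ha

/-- **Main theorem of this file** -/
theorem main (D : BDat p Q) [hp : Fact p.Prime] [Finite Γ] (hk : IsPGroup p σ.ker)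
    (Sp : ℕ → Q → Q → Prop)
    (hSp : ∀ k, ∀ x ∈ D.C k, ∀ y ∈ D.U, Sp k x y → ∀ a b, σ a = x → σ b = y → a * b = b * a)
    (hpair : ∀ k < D.m, ∀ (A : Type u) [CommGroup A] (f : Q → Q → A), IsPGroup p A → D.IsPairing k f →
      (∀ x ∈ D.C k, ∀ y ∈ D.U, Sp k x y → f x y = 1) → ∀ x ∈ D.C k, ∀ y ∈ D.U, f x y = 1) :
    Nat.card σ.ker = 1 := by
  classical
  -- the lift of `H`
  obtain ⟨Hs, h1, h2, h3⟩ : ∃ Hs : Subgroup Γ, (∀ h ∈ D.H, ∃ a ∈ Hs, σ a = h) ∧ (∀ a ∈ Hs, σ a ∈ D.H) ∧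
      (Nat.card Hs).Coprime p := by
    set M := D.H.comap σ with hM
    set Z : Subgroup M := σ.ker.subgroupOf M with hZ
    haveI : Z.Normal := by rw [hZ]; infer_instance
    have hle : σ.ker ≤ M := fun z hz => by rw [hM, mem_comap, MonoidHom.mem_ker.1 hz]; exact one_mem _
    have hZc : Nat.card Z = Nat.card σ.ker := Nat.card_congr (subgroupOfEquivOfLe hle).toEquiv
    have hidx : Z.index = Nat.card D.H := by
      let τ : M →* D.H := σ.subgroupComap D.H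
      have hτs : Function.Surjective τ := by
        intro y
        obtain ⟨g, hg⟩ := hσ.1 y.1
        exact ⟨⟨g, by rw [hM, mem_comap, hg]; exact y.2⟩, Subtype.ext hg⟩
      have hτk : τ.ker = Z := by
        ext y
        rw [MonoidHom.mem_ker, hZ, mem_subgroupOf, MonoidHom.mem_ker]
        constructor
        · intro h; exact congrArg Subtype.val h
        · intro h; exact Subtype.ext h
      rw [← hτk, index_ker, MonoidHom.range_eq_top.2 hτs, card_top]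
    obtain ⟨n, hn⟩ := IsPGroup.iff_card.1 hk
    obtain ⟨L, hL⟩ := Subgroup.exists_right_complement'_of_coprime (N := Z) (by
      rw [hZc, hidx, hn]; exact (D.cop.pow_right n).symm)
    refine ⟨L.map M.subtype, ?_, ?_, ?_⟩
    · intro h hh
      obtain ⟨g, hg⟩ := hσ.1 h
      obtain ⟨⟨z, l⟩, hzl⟩ := hL.surjective ⟨g, by rw [hM, mem_comap, hg]; exact hh⟩
      refine ⟨l, ⟨l, l.2, rfl⟩, ?_⟩
      have h5 : ((z : M) : Γ) * ((l : M) : Γ) = g := congrArg Subtype.val hzl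
      have h6 : σ ((z : M) : Γ) = 1 := by
        have h7 : (z : M) ∈ σ.ker.subgroupOf M := z.2
        exact mem_subgroupOf.1 h7
      rw [← hg, ← h5, map_mul, h6, one_mul]
    · rintro _ ⟨l, -, rfl⟩
      exact l.2
    · rw [Nat.card_congr ((L.equivMapOfInjective _ (subtype_injective M)).toEquiv).symm]
      have h5 := hL.card_mul
      have h6 := card_mul_index Z
      rw [← h6] at h5
      have h7 : Nat.card L = Z.index := Nat.eq_of_mul_eq_mul_left Nat.card_pos h5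
      rw [h7, hidx]; exact D.cop
  have key : ∀ j ≤ D.m, ∃ N, D.Good σ Hs (D.m - j) N := by
    intro j
    induction j with
    | zero =>
      intro _
      refine ⟨⊥, ?_, ?_, ?_, ?_, ?_⟩
      · intro z hz _; exact hz
      · intro n hn; rw [mem_bot.1 hn, map_one]; exact one_mem _
      · intro x hx
        rw [Nat.sub_zero, D.Cm, mem_bot] at hx
        exact ⟨1, one_mem _, by rw [hx, map_one]⟩
      · intro a _ n hn; rw [mem_bot.1 hn]; simp
      · intro a _ n hn; rw [mem_bot.1 hn]; simp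
    | succ j ih =>
      intro hj
      obtain ⟨N, hN⟩ := ih (by omega)
      have e : D.m - j = (D.m - (j + 1)) + 1 := by omega
      rw [e] at hN
      exact step hσ D hN hk h1 h2 h3 (fun a b ha hb => comm_le hσ D hN hk h1 (Sp _) (hSp _)
        (hpair _ (by omega)) ha hb)
  obtain ⟨N, hN⟩ := key D.m le_rfl
  rw [Nat.sub_self] at hN
  have hker := ker_le_commutator_comap σ hσ hk D.U D.idx
  have hMN : ⁅D.U.comap σ, D.U.comap σ⁆ ≤ N := by
    rw [Subgroup.commutator_le]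
    intro a ha b hb
    rw [mem_comap] at ha hb
    obtain ⟨n, hn, en⟩ := hN.onto _ (show σ a ∈ D.C 0 by rw [D.C0]; exact ha)
    obtain ⟨n', hn', en'⟩ := hN.onto _ (show σ b ∈ D.C 0 by rw [D.C0]; exact hb)
    have h4 : cm a b = cm n n' := cm_congr hσ en.symm en'.symm
    have h5 : ⁅a, b⁆ = cm a b := by rw [commutatorElement_def]; rfl
    rw [h5, h4]
    exact mul_mem (mul_mem (mul_mem hn hn') (inv_mem hn)) (inv_mem hn')
  rw [Subgroup.card_eq_one, eq_bot_iff]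
  intro z hz
  rw [mem_bot]
  exact hN.disj z (hMN (hker hz)) hz

end lift

end BDat
end Cfsg.Agent.Lib.H26LiftB
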