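import Cfsg.Agent.Lib.H26RootMult

/-!
# Peeling off layers in central extensions (helper26)

`Γ` a group with a central subgroup `Z` (think: a stem extension with kernel `Z`). We build normal subgroups `C` with
`C ∩ Z = 1` and, at the end, `Γ / C` commutative, so that `Z ∩ [Γ, Γ] = 1`.
-/

set_option autoImplicit false

namespace Cfsg.Agent.Lib.H26Peel

open Subgroup Cfsg.Agent.Lib.H26RootMult
open scoped commutatorElement

universe u

variable {Γ : Type u} [Group Γ]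

/-- membership in the quotient: `x ∈ C` iff `π x = 1` -/
theorem mk_eq_one {C : Subgroup Γ} [C.Normal] {x : Γ} : QuotientGroup.mk' C x = 1 ↔ x ∈ C :=
  QuotientGroup.eq_one_iff x

theorem central_mk {C : Subgroup Γ} [C.Normal] {z : Γ} (hz : z ∈ center Γ) : QuotientGroup.mk' C z ∈ center (Γ ⧸ C) := by
  rw [mem_center_iff]
  intro g
  obtain ⟨g, rfl⟩ := QuotientGroup.mk'_surjective C g
  rw [← map_mul, ← map_mul, (mem_center_iff.1 hz) g]

/-- one step of the peeling -/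
theorem peel {Z : Subgroup Γ} (hZ : Z ≤ center Γ) {N : ℕ} (hcop : ∀ z ∈ Z, z ^ N = 1 → z = 1)
    {C : Subgroup Γ} [hCn : C.Normal] (hC : ∀ z ∈ Z, z ∈ C → z = 1)
    {A : Subgroup Γ} (hAn : ∀ (g : Γ), ∀ x ∈ A, g * x * g⁻¹ ∈ A) (hA : ∀ x ∈ A, ∀ y ∈ A, ⁅x, y⁆ ∈ C)
    (s : Γ) (hsN : s ^ N ∈ center Γ) (hs : ∀ g : Γ, ∀ x ∈ A, ⁅s⁻¹ * g * s * g⁻¹, x⁆ ∈ C)
    (hdec : ∀ c ∈ A, ∃ y ∈ A, ∃ z ∈ Z, (⁅s, y⁆ * z)⁻¹ * c ∈ C) :
    ∃ C' : Subgroup Γ, C'.Normal ∧ C ≤ C' ∧ (∀ z ∈ Z, z ∈ C' → z = 1) ∧ ∀ c ∈ A, ∃ z ∈ Z, z⁻¹ * c ∈ C' := by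
  set π := QuotientGroup.mk' C with hπ
  have hπs : Function.Surjective π := QuotientGroup.mk'_surjective C
  have hcomm : ∀ x y : Γ, ⁅x, y⁆ ∈ C → π x * π y = π y * π x := by
    intro x y h
    rw [← commutatorElement_eq_one_iff_mul_comm, ← map_commutatorElement]
    exact mk_eq_one.2 h
  have hA' : ∀ x ∈ A.map π, ∀ y ∈ A.map π, x * y = y * x := by
    rintro _ ⟨x, hx, rfl⟩ _ ⟨y, hy, rfl⟩
    exact hcomm x y (hA x hx y hy)
  have hn : ∀ g : Γ, ∀ x ∈ A.map π, π g * x * (π g)⁻¹ ∈ A.map π := by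
    rintro g _ ⟨x, hx, rfl⟩
    exact ⟨g * x * g⁻¹, hAn g x hx, by rw [map_mul, map_mul, map_inv]⟩
  set B := br (A.map π) hA' (π s) (hn s) with hB
  have hBn : B.Normal := by
    refine ⟨fun x hx g => ?_⟩
    obtain ⟨g, rfl⟩ := hπs g
    refine br_conj (hn g) (c := π (s⁻¹ * g * s * g⁻¹)) ?_ ?_ hx
    · rw [← map_mul, ← map_inv, ← map_mul, ← map_mul]; congr 1; group
    · rintro _ ⟨x, hx, rfl⟩
      exact hcomm _ _ (hs g x hx)
  refine ⟨B.comap π, hBn.comap π, ?_, ?_, ?_⟩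
  · intro x hx
    rw [mem_comap, mk_eq_one.2 hx]; exact B.one_mem
  · intro z hz hzB
    rw [mem_comap] at hzB
    have h1 : π z = 1 := by
      refine br_inf (Z := Z.map π) ?_ N ?_ ?_ ⟨z, hz, rfl⟩ hzB
      · rintro _ ⟨w, hw, rfl⟩; exact central_mk (hZ hw)
      · intro x _
        rw [← map_pow]
        exact ((mem_center_iff.1 (central_mk hsN)) x).symm
      · rintro _ ⟨w, hw, rfl⟩ hwN
        rw [← map_pow] at hwN
        rw [hcop w hw (hC _ (pow_mem hw N) (mk_eq_one.1 hwN)), map_one]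
    exact hC z hz (mk_eq_one.1 h1)
  · intro c hc
    obtain ⟨y, hy, z, hz, e⟩ := hdec c hc
    refine ⟨z, hz, ?_⟩
    rw [mem_comap]
    have h1 : π c = ⁅π s, π y⁆ * π z := by
      have h2 := mk_eq_one.2 e
      rw [map_mul, map_inv, map_mul, map_commutatorElement, inv_mul_eq_one] at h2
      exact h2.symm
    have h3 : π (z⁻¹ * c) = ⁅π s, π y⁆ := by
      rw [map_mul, map_inv, h1, ((mem_center_iff.1 (central_mk (hZ hz))) _), inv_mul_cancel_left]
    rw [h3]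
    exact ⟨_, ⟨_, hy, rfl⟩, rfl⟩

/-- the end of the peeling -/
theorem final {Z : Subgroup Γ} (hZ : Z ≤ center Γ) (hZc : Z ≤ _root_.commutator Γ)
    {C : Subgroup Γ} [hCn : C.Normal] (hC : ∀ z ∈ Z, z ∈ C → z = 1) (l : Γ)
    (hgen : ∀ g : Γ, ∃ k : ℕ, ∃ z ∈ Z, (l ^ k * z)⁻¹ * g ∈ C) : Z = ⊥ := by
  set π := QuotientGroup.mk' C with hπ
  have hπs : Function.Surjective π := QuotientGroup.mk'_surjective C
  have hle : _root_.commutator Γ ≤ C := by
    rw [← Normal.quotient_commutative_iff_commutator_le]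
    refine ⟨⟨fun x y => ?_⟩⟩
    obtain ⟨x, rfl⟩ := hπs x
    obtain ⟨y, rfl⟩ := hπs y
    obtain ⟨k, z, hz, ex⟩ := hgen x
    obtain ⟨k', z', hz', ey⟩ := hgen y
    have ex' : π x = π l ^ k * π z := by
      have h2 := mk_eq_one.2 ex
      rw [map_mul, map_inv, map_mul, map_pow, inv_mul_eq_one] at h2
      exact h2.symm
    have ey' : π y = π l ^ k' * π z' := by
      have h2 := mk_eq_one.2 ey
      rw [map_mul, map_inv, map_mul, map_pow, inv_mul_eq_one] at h2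
      exact h2.symm
    have hcz : ∀ z ∈ Z, ∀ w : Γ ⧸ C, Commute (π z) w := fun z hz w =>
      ((mem_center_iff.1 (central_mk (hZ hz))) w).symm
    rw [ex', ey']
    have hz4 : Commute (π l ^ k) (π l ^ k') := Commute.pow_pow_self _ k k'
    exact ((hz4.mul_left (hcz z hz _)).mul_right ((hcz z' hz' _).symm.mul_left (hcz z hz _))).eq
  rw [eq_bot_iff]
  intro z hz
  exact hC z hz (hle (hZc hz))

/-- a commutator pairing modulo `C` is trivial: `γ` only controlled on the set `P` -/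
theorem pairing_trivial' {F Z : Type*} [Field F] [Group Z] (f : F → F → Z)
    (h1 : ∀ x x' y, f (x + x') y = f x y * f x' y) (h2 : ∀ x y y', f x (y + y') = f x y * f x y')
    (γ : F → F) (P : F → Prop) (hγ : ∀ x, P x → ∀ y, f x y = f 1 (γ x * y))
    {x x' : F} (hx : P x) (hx' : P x') (hxx : P (x + x')) (hne : γ (x + x') ≠ γ x + γ x')
    (hgen : ∀ a, a = 0 ∨ P a ∨ P (-a)) (a b : F) :
    f a b = 1 := by
  have key : ∀ y, f 1 y = 1 := by
    intro y
    set c := γ (x + x') - (γ x + γ x') with hc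
    have hc0 : c ≠ 0 := sub_ne_zero.2 hne
    have h3 : ∀ y, f 1 (c * y) = 1 := by
      intro y
      have h4 : f 1 (γ (x + x') * y) = f 1 ((γ x + γ x') * y) := by
        rw [← hγ _ hxx, h1, hγ x hx, hγ x' hx', ← h2, add_mul]
      have h5 : f 1 (c * y + (γ x + γ x') * y) = f 1 ((γ x + γ x') * y) := by
        rw [← h4]; congr 1; rw [hc]; ring
      rw [h2] at h5
      exact mul_eq_right.1 h5
    have := h3 (c⁻¹ * y)
    rwa [mul_inv_cancel_left₀ hc0] at this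
  have h0 : ∀ b, f 0 b = 1 := by
    intro b
    have := h1 0 0 b
    rw [add_zero] at this
    exact mul_eq_left.1 this.symm
  rcases hgen a with ha | ha | ha
  · rw [ha, h0]
  · rw [hγ a ha, key]
  · have h3 := h1 a (-a) b
    rw [add_neg_cancel, h0, hγ (-a) ha, key, mul_one] at h3
    exact h3.symm

theorem comm_trivial' {G : Type*} [Group G] {F : Type*} [Field F] (e e' : F → G) (hz : ∀ a b, ⁅e a, e' b⁆ ∈ center G)
    (h1 : ∀ a a' b, ⁅e (a + a'), e' b⁆ = ⁅e a * e a', e' b⁆)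
    (h2 : ∀ a b b', ⁅e a, e' (b + b')⁆ = ⁅e a, e' b * e' b'⁆)
    (γ : F → F) (P : F → Prop) (hγ : ∀ x, P x → ∀ y, ⁅e x, e' y⁆ = ⁅e 1, e' (γ x * y)⁆)
    {x x' : F} (hx : P x) (hx' : P x') (hxx : P (x + x')) (hne : γ (x + x') ≠ γ x + γ x')
    (hgen : ∀ a, a = 0 ∨ P a ∨ P (-a)) (a b : F) :
    ⁅e a, e' b⁆ = 1 :=
  pairing_trivial' (fun a b => ⁅e a, e' b⁆) (fun a a' b => by rw [h1, comm_mul_left (hz a' b)])
    (fun a b b' => by rw [h2, comm_mul_right (hz a b')]) γ P hγ hx hx' hxx hne hgen a b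

/-- a biadditive pairing with `f (-x) y = f x y` (e.g. because an involution inverts one variable and centralises the
other) has values of order dividing `2` -/
theorem pairing_sq {F Z : Type*} [Field F] [Group Z] (f : F → F → Z)
    (h1 : ∀ x x' y, f (x + x') y = f x y * f x' y) (hneg : ∀ x y, f (-x) y = f x y) (a b : F) :
    f a b ^ 2 = 1 := by
  have h0 : f 0 b = 1 := by
    have := h1 0 0 b
    rw [add_zero] at this
    exact mul_eq_left.1 this.symm
  have := h1 a (-a) b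
  rw [add_neg_cancel, h0, hneg] at this
  rw [pow_two]; exact this.symm

end Cfsg.Agent.Lib.H26Peel
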