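import Cfsg.Agent.Lib.H26LiftB

/-! The `2`-part of the multiplier of a group with a Sylow `2`-subgroup of the shape found in `³D₄(2)` (helper26). -/

set_option autoImplicit false

namespace Cfsg.Agent.Lib.H26Q8
open Subgroup Cfsg.Agent.Lib.SchurSylow Cfsg.Agent.Lib.H26LiftB Cfsg.Agent.Lib.H26LiftB.BDat
open scoped commutatorElement

universe u

/-! ### counting -/

section count
variable {A : Type*} [Group A] {ι : Type*} [DecidableEq ι]

/-- ordered products -/
def W (a : ι → A) (b : ι → Bool) (L : List ι) : A := (L.map fun i => if b i then a i else 1).prod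

theorem W_cons (a : ι → A) (b : ι → Bool) (i : ι) (L : List ι) : W a b (i :: L) = (if b i then a i else 1) * W a b L := by
  unfold W; rw [List.map_cons, List.prod_cons]

theorem W_update {a : ι → A} {b : ι → Bool} {j : ι} {c : Bool} {L : List ι} (h : j ∉ L) :
    W a (Function.update b j c) L = W a b L := by
  unfold W
  congr 1
  apply List.map_congr_left
  intro i hi
  have hne : i ≠ j := by rintro rfl; exact h hi
  rw [Function.update_of_ne hne]

theorem mul_W {a : ι → A} {e : A} (ha : ∀ i, a i * a i = 1) (he : ∀ i, e * a i = a i * e)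
    (hc : ∀ i j, ∃ k : ℕ, a i * a j = e ^ k * (a j * a i)) (b : ι → Bool) (j : ι) :
    ∀ L : List ι, L.Nodup → j ∈ L → ∃ k : ℕ, a j * W a b L = e ^ k * W a (Function.update b j (!b j)) L := by
  intro L
  induction L with
  | nil => intro _ h; simp at h
  | cons i L ih =>
    intro hN hj
    rw [List.nodup_cons] at hN
    by_cases hij : j = i
    · subst hij
      refine ⟨0, ?_⟩
      rw [W_cons, W_cons, W_update hN.1, pow_zero, one_mul, Function.update_self]
      cases h : b j with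
      | true => simp [← mul_assoc, ha]
      | false => simp
    · have hjL : j ∈ L := by
        rcases List.mem_cons.mp hj with h | h
        · exact absurd h hij
        · exact h
      obtain ⟨k2, h2⟩ := ih hN.2 hjL
      rw [W_cons, W_cons, Function.update_of_ne (Ne.symm hij)]
      have hce : ∀ k : ℕ, (if b i then a i else 1) * e ^ k = e ^ k * (if b i then a i else 1) := by
        intro k
        split_ifs
        · have : Commute e (a i) := he i
          exact ((this.pow_left k).eq).symm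
        · simp
      obtain ⟨k1, h1⟩ : ∃ k1 : ℕ, a j * (if b i then a i else 1) = e ^ k1 * ((if b i then a i else 1) * a j) := by
        split_ifs
        · exact hc j i
        · exact ⟨0, by simp⟩
      refine ⟨k1 + k2, ?_⟩
      rw [← mul_assoc, h1, mul_assoc, mul_assoc, h2, ← mul_assoc (if b i then a i else 1), hce, pow_add]
      simp only [mul_assoc]

theorem exists_W [Fintype ι] {a : ι → A} {e : A} (hee : e * e = 1) (ha : ∀ i, a i * a i = 1) (he : ∀ i, e * a i = a i * e)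
    (hc : ∀ i j, ∃ k : ℕ, a i * a j = e ^ k * (a j * a i)) {x : A} (hx : x ∈ closure (insert e (Set.range a))) :
    ∃ (k : ℕ) (b : ι → Bool), x = e ^ k * W a b (Finset.univ : Finset ι).toList := by
  set L := (Finset.univ : Finset ι).toList with hL
  have hLn : L.Nodup := Finset.nodup_toList _
  have hLm : ∀ i, i ∈ L := fun i => by rw [hL, Finset.mem_toList]; exact Finset.mem_univ i
  have hei : e⁻¹ = e := inv_eq_of_mul_eq_one_left hee
  have hai : ∀ i, (a i)⁻¹ = a i := fun i => inv_eq_of_mul_eq_one_left (ha i)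
  have key : ∀ g ∈ insert e (Set.range a), ∀ y, (∃ (k : ℕ) (b : ι → Bool), y = e ^ k * W a b L) →
      ∃ (k : ℕ) (b : ι → Bool), g * y = e ^ k * W a b L := by
    rintro g (rfl | ⟨i, rfl⟩) y ⟨k, b, rfl⟩
    · exact ⟨k + 1, b, by rw [pow_succ', mul_assoc]⟩
    · obtain ⟨k', h'⟩ := mul_W ha he hc b i L hLn (hLm i)
      have h1 : Commute e (a i) := he i
      refine ⟨k + k', Function.update b i (!b i), ?_⟩
      rw [← mul_assoc, ← (h1.pow_left k).eq, mul_assoc, h', pow_add, mul_assoc]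
  induction hx using Subgroup.closure_induction_left with
  | one =>
    refine ⟨0, fun _ => false, ?_⟩
    have : ∀ L : List ι, W a (fun _ => false) L = 1 := by
      intro L
      induction L with
      | nil => rfl
      | cons i L ih => rw [W_cons, ih]; simp
    rw [this]; simp
  | mul_left g hg y _ ih => exact key g hg y ih
  | inv_mul_cancel g hg y _ ih =>
    have : g⁻¹ = g := by
      rcases hg with rfl | ⟨i, rfl⟩
      · exact hei
      · exact hai i
    rw [this]; exact key g hg y ih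

theorem card_closure_le [Fintype ι] {a : ι → A} {e : A} (hee : e * e = 1) (ha : ∀ i, a i * a i = 1) (he : ∀ i, e * a i = a i * e)
    (hc : ∀ i j, ∃ k : ℕ, a i * a j = e ^ k * (a j * a i)) :
    Nat.card ↥(closure (insert e (Set.range a))) ≤ 2 ^ (Fintype.card ι + 1) := by
  have h1 : ∀ x : ↥(closure (insert e (Set.range a))), ∃ p : Bool × (ι → Bool),
      (x : A) = (if p.1 then e else 1) * W a p.2 (Finset.univ : Finset ι).toList := by
    intro x
    obtain ⟨k, b, h⟩ := exists_W hee ha he hc x.2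
    rcases Nat.even_or_odd' k with ⟨m, rfl | rfl⟩
    · refine ⟨(false, b), ?_⟩
      rw [h, pow_mul, sq, hee, one_pow]; simp
    · refine ⟨(true, b), ?_⟩
      rw [h, pow_succ, pow_mul, sq, hee, one_pow]; simp
  choose f hf using h1
  have hinj : Function.Injective f := by
    intro x y hxy
    apply Subtype.ext
    rw [hf x, hf y, hxy]
  refine (Nat.card_le_card_of_injective f hinj).trans ?_
  rw [Nat.card_prod, Nat.card_eq_fintype_card, Nat.card_eq_fintype_card, Fintype.card_bool, Fintype.card_fun,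
    Fintype.card_bool, pow_succ, mul_comm]

theorem card_closure_le' [Fintype ι] {a : ι → A} (ha : ∀ i, a i * a i = 1) (hc : ∀ i j, a i * a j = a j * a i) :
    Nat.card ↥(closure (Set.range a)) ≤ 2 ^ Fintype.card ι := by
  have h1 : ∀ x : ↥(closure (Set.range a)), ∃ p : ι → Bool,
      (x : A) = W a p (Finset.univ : Finset ι).toList := by
    intro x
    obtain ⟨k, b, h⟩ := exists_W (e := (1 : A)) (a := a) (by simp) ha (by simp) (fun i j => ⟨0, by simp [hc i j]⟩)
      (closure_mono (Set.subset_insert _ _) x.2)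
    exact ⟨b, by rw [h]; simp⟩
  choose f hf using h1
  have hinj : Function.Injective f := by
    intro x y hxy
    apply Subtype.ext
    rw [hf x, hf y, hxy]
  refine (Nat.card_le_card_of_injective f hinj).trans ?_
  rw [Nat.card_eq_fintype_card, Fintype.card_fun, Fintype.card_bool]

end count

/-- the data -/
structure QDat (G : Type*) [Group G] (F : Type*) [Field F] where
  U : Subgroup G
  H : Subgroup G
  ξ : F → G
  v : G
  θ : G
  w : G
  na : G
  nb : G
  ξU : ∀ t, ξ t ∈ U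
  vU : v ∈ U
  θU : θ ∈ U
  gen : U ≤ closure (insert v (Set.range ξ))
  ξadd : ∀ t u, ξ (t + u) = ξ t * ξ u
  cardF : Nat.card F = 8
  char2 : ∀ t : F, t + t = 0
  cardU : Nat.card U = 2 ^ 12
  θne : θ ≠ 1
  θsq : θ * θ = 1
  vsq : v * v = 1
  θc : ∀ u ∈ U, θ * u = u * θ
  br : ∀ t, v * (ξ t * v * (ξ t)⁻¹) * v⁻¹ * (ξ t * v * (ξ t)⁻¹)⁻¹ = 1 ∨
    v * (ξ t * v * (ξ t)⁻¹) * v⁻¹ * (ξ t * v * (ξ t)⁻¹)⁻¹ = θ
  Hv : ∀ h ∈ H, h * v * h⁻¹ = v
  Hθ : ∀ h ∈ H, h * θ * h⁻¹ = θ
  tr : ∀ c : F, c ≠ 0 → ∃ h ∈ H, ∀ t, h * ξ t * h⁻¹ = ξ (c * t)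
  cop : (Nat.card H).Coprime 2
  naw : na * w * na⁻¹ = v
  naθ : na * θ * na⁻¹ = θ
  nbθ : nb * θ * nb⁻¹ = w
  wd : ∃ c ∈ ⁅U, U⁆, ∃ i : ℤ, w = c * θ ^ i
  idx : ¬ 2 ∣ U.index

namespace QDat
variable {G : Type u} [Group G] {F : Type*} [Field F] (D : QDat G F)

theorem ξ0 : D.ξ 0 = 1 := by
  have h := D.ξadd 0 0
  rw [add_zero] at h
  exact left_eq_mul.mp h

theorem ξsq (t : F) : D.ξ t * D.ξ t = 1 := by rw [← D.ξadd, D.char2, D.ξ0]

theorem ξcomm (t u : F) : D.ξ t * D.ξ u = D.ξ u * D.ξ t := by rw [← D.ξadd, add_comm, D.ξadd]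

theorem ξinv (t : F) : (D.ξ t)⁻¹ = D.ξ t := inv_eq_of_mul_eq_one_left (D.ξsq t)

/-- the conjugates of `v` -/
def vt (t : F) : G := D.ξ t * D.v * (D.ξ t)⁻¹

/-- every element of `U` is a product -/
theorem exists_mul {u : G} (hu : u ∈ D.U) : ∃ m ∈ closure (Set.range D.vt), ∃ t, u = m * D.ξ t := by
  have h1 := D.gen hu
  have hv : D.v ∈ closure (Set.range D.vt) := subset_closure ⟨0, by unfold vt; rw [D.ξ0]; group⟩
  have hconj : ∀ t, ∀ m ∈ closure (Set.range D.vt), D.ξ t * m * (D.ξ t)⁻¹ ∈ closure (Set.range D.vt) := by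
    intro t m hm
    induction hm using Subgroup.closure_induction with
    | mem x hx =>
      obtain ⟨s, rfl⟩ := hx
      refine subset_closure ⟨t + s, ?_⟩
      unfold vt
      rw [D.ξadd]; group
    | one => simp
    | mul a b _ _ ha hb =>
      have e : D.ξ t * (a * b) * (D.ξ t)⁻¹ = D.ξ t * a * (D.ξ t)⁻¹ * (D.ξ t * b * (D.ξ t)⁻¹) := by group
      rw [e]; exact mul_mem ha hb
    | inv a _ ha =>
      have e : D.ξ t * a⁻¹ * (D.ξ t)⁻¹ = (D.ξ t * a * (D.ξ t)⁻¹)⁻¹ := by group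
      rw [e]; exact inv_mem ha
  have key : ∀ g ∈ insert D.v (Set.range D.ξ), ∀ y, (∃ m ∈ closure (Set.range D.vt), ∃ t, y = m * D.ξ t) →
      ∃ m ∈ closure (Set.range D.vt), ∃ t, g * y = m * D.ξ t := by
    rintro g (rfl | ⟨s, rfl⟩) y ⟨m, hm, t, rfl⟩
    · exact ⟨D.v * m, mul_mem hv hm, t, by rw [mul_assoc]⟩
    · refine ⟨D.ξ s * m * (D.ξ s)⁻¹, hconj s m hm, s + t, ?_⟩
      rw [D.ξadd]; group
  clear hu
  induction h1 using Subgroup.closure_induction_left with
  | one => exact ⟨1, one_mem _, 0, by rw [D.ξ0, one_mul]⟩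
  | mul_left g hg y _ ih => exact key g hg y ih
  | inv_mul_cancel g hg y _ ih =>
    have : g⁻¹ = g := by
      rcases hg with rfl | ⟨i, rfl⟩
      · exact inv_eq_of_mul_eq_one_left D.vsq
      · exact D.ξinv i
    rw [this]; exact key g hg y ih

theorem card_Y [Finite G] [Finite F] : 2 ^ 9 ≤ Nat.card ↥(closure (Set.range D.vt)) := by
  have h1 : ∀ u : D.U, ∃ p : ↥(closure (Set.range D.vt)) × F, (u : G) = p.1 * D.ξ p.2 := by
    intro u
    obtain ⟨m, hm, t, h⟩ := D.exists_mul u.2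
    exact ⟨(⟨m, hm⟩, t), h⟩
  choose f hf using h1
  have hinj : Function.Injective f := by
    intro x y hxy
    apply Subtype.ext
    rw [hf x, hf y, hxy]
  have h2 := Nat.card_le_card_of_injective f hinj
  rw [Nat.card_prod, D.cardU, D.cardF] at h2
  omega

variable {Γ : Type u} [Group Γ] (σ : Γ →* G) (hσ : IsStemExtension σ)

include hσ in
/-- `H` fixes the lifts of its fixed points -/
theorem fixH [Finite Γ] {p : ℕ} {H : Subgroup G} (cop : (Nat.card H).Coprime p) (hk : IsPGroup p σ.ker)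
    {g b : Γ} (hg : σ g ∈ H) (hb : σ g * σ b * (σ g)⁻¹ = σ b) : g * b * g⁻¹ = b := by
  set z := b⁻¹ * (g * b * g⁻¹) with hz
  have hzk : z ∈ σ.ker := by
    rw [MonoidHom.mem_ker, hz, map_mul, map_inv, map_mul, map_mul, map_inv, hb, inv_mul_cancel]
  have hzc := mem_center_iff.1 (hσ.2.1 hzk)
  have h1 : g * b * g⁻¹ = b * z := by rw [hz]; group
  have h2 : ∀ k : ℕ, g ^ k * b * (g ^ k)⁻¹ = b * z ^ k := by
    intro k
    induction k with
    | zero => simp
    | succ k ih =>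
      calc g ^ (k + 1) * b * (g ^ (k + 1))⁻¹ = g * (g ^ k * b * (g ^ k)⁻¹) * g⁻¹ := by rw [pow_succ']; group
        _ = g * (b * z ^ k) * g⁻¹ := by rw [ih]
        _ = g * b * (z ^ k * g⁻¹) := by group
        _ = g * b * (g⁻¹ * z ^ k) := by
            have : Commute g⁻¹ z := hzc g⁻¹
            rw [(this.pow_right k).eq]
        _ = (g * b * g⁻¹) * z ^ k := by group
        _ = b * z ^ (k + 1) := by rw [h1, pow_succ', mul_assoc]
  set n := Nat.card H
  have h3 : σ (g ^ n) = 1 := by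
    have h4 : (⟨σ g, hg⟩ : H) ^ n = 1 := pow_card_eq_one'
    rw [map_pow]
    exact congrArg Subtype.val h4
  have h5 : g ^ n * b * (g ^ n)⁻¹ = b := by
    have := mem_center_iff.1 (hσ.2.1 (show g ^ n ∈ σ.ker from h3)) b
    rw [← this]; group
  have h6 : z ^ n = 1 := by
    have := h2 n
    rw [h5] at this
    exact (left_eq_mul.mp this)
  obtain ⟨m, hm⟩ := hk ⟨z, hzk⟩
  have h7 : z ^ p ^ m = 1 := by simpa using congrArg Subtype.val hm
  have h8 : orderOf z ∣ 1 := by
    rw [← (cop.pow_right m).gcd_eq_one]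
    exact Nat.dvd_gcd (orderOf_dvd_of_pow_eq_one h6) (orderOf_dvd_of_pow_eq_one h7)
  have h9 := orderOf_eq_one_iff.1 (Nat.dvd_one.1 h8)
  rw [h1, h9, mul_one]

theorem cm_conj (g a b : Γ) : g * cm a b * g⁻¹ = cm (g * a * g⁻¹) (g * b * g⁻¹) := by unfold cm; group

theorem cm_eq_one {a b : Γ} : cm a b = 1 ↔ a * b = b * a := by
  unfold cm
  constructor
  · intro h
    have h2 : a * b * (b * a)⁻¹ = 1 := by rw [← h]; group
    exact mul_inv_eq_one.mp h2
  · intro h; rw [h]; group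

include hσ in
/-- lifts of `θ` centralize the preimage of `U` -/
theorem theta_central [Finite Γ] [Finite F] (hk : IsPGroup 2 σ.ker) {a b : Γ} (ha : σ a = D.θ) (hb : σ b ∈ D.U) : cm a b = 1 := by
  classical
  -- multiplicativity
  have hz : ∀ b, σ b ∈ D.U → cm a b ∈ σ.ker := by
    intro b hb
    rw [MonoidHom.mem_ker]
    have : σ (cm a b) = cm (σ a) (σ b) := by unfold cm; simp
    rw [this, cm_eq_one, ha]
    exact D.θc _ hb
  have hmul : ∀ b b', σ b ∈ D.U → σ b' ∈ D.U → cm a (b * b') = cm a b * cm a b' := by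
    intro b b' hb hb'
    have h1 : cm a (b * b') = cm a b * (b * cm a b' * b⁻¹) := by unfold cm; group
    rw [h1, mem_center_iff.1 (hσ.2.1 (hz b' hb')) b]
    group
  have hinv : ∀ b, σ b ∈ D.U → cm a b * cm a b⁻¹ = 1 := by
    intro b hb
    rw [← hmul b b⁻¹ hb (by rw [map_inv]; exact inv_mem hb), mul_inv_cancel]
    unfold cm; group
  -- the root group of `ξ`
  have hH : ∀ (g b : Γ), σ g ∈ D.H → σ b ∈ D.U → cm a (g * b * g⁻¹) = cm a b := by
    intro g b hg hb
    have h1 : g * a * g⁻¹ = a := fixH σ hσ D.cop hk hg (by rw [ha]; exact D.Hθ _ hg)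
    have h2 := cm_conj g a b
    rw [h1] at h2
    rw [← h2]
    have h3 := mem_center_iff.1 (hσ.2.1 (hz b hb)) g
    rw [h3]; group
  obtain ⟨t1, t2, n1, n2, n3⟩ : ∃ t1 t2 : F, t1 ≠ 0 ∧ t2 ≠ 0 ∧ t1 + t2 ≠ 0 := by
    haveI := Fintype.ofFinite F
    have h8 : Fintype.card F = 8 := by rw [← Nat.card_eq_fintype_card, D.cardF]
    obtain ⟨t, ht⟩ : ∃ t : F, t ∉ ({0, 1} : Finset F) := by
      by_contra hcon
      push Not at hcon
      have h1 : (Finset.univ : Finset F) ⊆ {0, 1} := fun x _ => hcon x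
      have h2 := Finset.card_le_card h1
      have h3 : ({0, 1} : Finset F).card ≤ 2 := Finset.card_le_two
      rw [Finset.card_univ, h8] at h2
      omega
    simp only [Finset.mem_insert, Finset.mem_singleton, not_or] at ht
    refine ⟨t, 1, ht.1, one_ne_zero, ?_⟩
    intro h
    apply ht.2
    have := D.char2 1
    exact add_right_cancel (h.trans this.symm)
  have hξ : ∀ (t : F) (b : Γ), σ b = D.ξ t → cm a b = 1 := by
    obtain ⟨c, hc⟩ := hσ.1 (D.ξ 1)
    have hall : ∀ t, t ≠ 0 → ∀ b, σ b = D.ξ t → cm a b = cm a c := by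
      intro t ht b hb
      obtain ⟨h, hh, h1⟩ := D.tr t ht
      obtain ⟨g, rfl⟩ := hσ.1 h
      rw [← hH g c hh (by rw [hc]; exact D.ξU 1)]
      apply cm_congr hσ rfl
      rw [hb, map_mul, map_mul, map_inv, hc, h1, mul_one]
    intro t b hb
    by_cases ht : t = 0
    · subst ht
      rw [D.ξ0] at hb
      rw [cm_eq_one]
      exact (mem_center_iff.1 (hσ.2.1 (show b ∈ σ.ker from hb)) a)
    · rw [hall t ht b hb]
      obtain ⟨b1, hb1⟩ := hσ.1 (D.ξ t1)
      obtain ⟨b2, hb2⟩ := hσ.1 (D.ξ t2)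
      have e1 := hall t1 n1 b1 hb1
      have e2 := hall t2 n2 b2 hb2
      have e3 := hall (t1 + t2) n3 (b1 * b2) (by rw [map_mul, hb1, hb2, D.ξadd])
      rw [hmul b1 b2 (by rw [hb1]; exact D.ξU _) (by rw [hb2]; exact D.ξU _), e1, e2] at e3
      exact mul_eq_left.mp e3
  -- commutators
  have hcomm : ∀ x ∈ ⁅D.U, D.U⁆, x ∈ D.U ∧ ∀ b, σ b = x → cm a b = 1 := by
    intro x hx
    rw [Subgroup.commutator_def] at hx
    induction hx using Subgroup.closure_induction with
    | mem x hx =>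
      obtain ⟨g1, h1, g2, h2, rfl⟩ := hx
      refine ⟨?_, ?_⟩
      · rw [commutatorElement_def]
        exact mul_mem (mul_mem (mul_mem h1 h2) (inv_mem h1)) (inv_mem h2)
      · intro b hb
        obtain ⟨b1, rfl⟩ := hσ.1 g1
        obtain ⟨b2, rfl⟩ := hσ.1 g2
        have e : cm a b = cm a (b1 * b2 * b1⁻¹ * b2⁻¹) := by
          apply cm_congr hσ rfl
          rw [hb, commutatorElement_def]; simp
        have i1 : σ b1⁻¹ ∈ D.U := by rw [map_inv]; exact inv_mem h1
        have i2 : σ b2⁻¹ ∈ D.U := by rw [map_inv]; exact inv_mem h2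
        have m1 : σ (b1 * b2) ∈ D.U := by rw [map_mul]; exact mul_mem h1 h2
        have m2 : σ (b1 * b2 * b1⁻¹) ∈ D.U := by rw [map_mul]; exact mul_mem m1 i1
        rw [e, hmul _ _ m2 i2, hmul _ _ m1 i1, hmul _ _ h1 h2]
        have c1 := mem_center_iff.1 (hσ.2.1 (hz _ h2)) (cm a b1)
        rw [c1, mul_assoc (cm a b2), hinv _ h1, mul_one, hinv _ h2]
    | one =>
      refine ⟨one_mem _, fun b hb => ?_⟩
      rw [cm_eq_one]
      exact (mem_center_iff.1 (hσ.2.1 (show b ∈ σ.ker from hb)) a)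
    | mul x y _ _ hx hy =>
      refine ⟨mul_mem hx.1 hy.1, fun b hb => ?_⟩
      obtain ⟨b1, rfl⟩ := hσ.1 x
      obtain ⟨b2, rfl⟩ := hσ.1 y
      have e : cm a b = cm a (b1 * b2) := cm_congr hσ rfl (by rw [hb, map_mul])
      rw [e, hmul _ _ hx.1 hy.1, hx.2 b1 rfl, hy.2 b2 rfl, one_mul]
    | inv x _ hx =>
      refine ⟨inv_mem hx.1, fun b hb => ?_⟩
      obtain ⟨b1, rfl⟩ := hσ.1 x
      have e : cm a b = cm a b1⁻¹ := cm_congr hσ rfl (by rw [hb, map_inv])
      have := hinv b1 hx.1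
      rw [hx.2 b1 rfl, one_mul] at this
      rw [e, this]
  -- `w`
  have hw : ∀ b, σ b = D.w → cm a b = 1 := by
    intro b hb
    obtain ⟨c, hc, i, hwi⟩ := D.wd
    obtain ⟨c', hc'⟩ := hσ.1 c
    have e : cm a b = cm a (c' * a ^ i) := cm_congr hσ rfl (by rw [hb, map_mul, map_zpow, hc', ha, hwi])
    rw [e, hmul _ _ (by rw [hc']; exact (hcomm c hc).1) (by rw [map_zpow, ha]; exact zpow_mem D.θU i),
      (hcomm c hc).2 c' hc', one_mul, cm_eq_one]
    exact (Commute.refl a).zpow_right i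
  -- `v`
  have hv : ∀ b, σ b = D.v → cm a b = 1 := by
    intro b hb
    obtain ⟨n, hn⟩ := hσ.1 D.na
    obtain ⟨w', hw'⟩ := hσ.1 D.w
    have e : cm a b = cm (n * a * n⁻¹) (n * w' * n⁻¹) := by
      apply cm_congr hσ
      · rw [map_mul, map_mul, map_inv, hn, ha, D.naθ]
      · rw [hb, map_mul, map_mul, map_inv, hn, hw', D.naw]
    rw [e, ← cm_conj, hw w' hw']; group
  -- all of `U`
  have hgen : ∀ x ∈ closure (insert D.v (Set.range D.ξ)), x ∈ D.U ∧ ∀ b, σ b = x → cm a b = 1 := by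
    intro x hx
    induction hx using Subgroup.closure_induction with
    | mem x hx =>
      rcases hx with rfl | ⟨t, rfl⟩
      · exact ⟨D.vU, hv⟩
      · exact ⟨D.ξU t, hξ t⟩
    | one =>
      refine ⟨one_mem _, fun b hb => ?_⟩
      rw [cm_eq_one]
      exact (mem_center_iff.1 (hσ.2.1 (show b ∈ σ.ker from hb)) a)
    | mul x y _ _ hx hy =>
      refine ⟨mul_mem hx.1 hy.1, fun b hb => ?_⟩
      obtain ⟨b1, rfl⟩ := hσ.1 x
      obtain ⟨b2, rfl⟩ := hσ.1 y
      have e : cm a b = cm a (b1 * b2) := cm_congr hσ rfl (by rw [hb, map_mul])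
      rw [e, hmul _ _ hx.1 hy.1, hx.2 b1 rfl, hy.2 b2 rfl, one_mul]
    | inv x _ hx =>
      refine ⟨inv_mem hx.1, fun b hb => ?_⟩
      obtain ⟨b1, rfl⟩ := hσ.1 x
      have e : cm a b = cm a b1⁻¹ := cm_congr hσ rfl (by rw [hb, map_inv])
      have := hinv b1 hx.1
      rw [hx.2 b1 rfl, one_mul] at this
      rw [e, this]
  exact (hgen _ (D.gen hb)).2 b rfl

include D hσ in
/-- **main theorem** -/
theorem main [Finite G] [Finite F] [Finite Γ] (hk : IsPGroup 2 σ.ker) : Nat.card σ.ker = 1 := by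
  classical
  haveI := Fintype.ofFinite F
  have h8 : Fintype.card F = 8 := by rw [← Nat.card_eq_fintype_card, D.cardF]
  have hzc : ∀ z, σ z = 1 → ∀ g, g * z = z * g := fun z hz g => mem_center_iff.1 (hσ.2.1 (show z ∈ σ.ker from hz)) g
  choose s hs using hσ.1
  -- the element `e`
  obtain ⟨v', hv'⟩ := hσ.1 D.v
  have hphi : ∀ g g', σ g = σ g' → cm v' (g * v' * g⁻¹) = cm v' (g' * v' * g'⁻¹) := by
    intro g g' h
    exact cm_congr hσ rfl (by simp only [map_mul, map_inv, h])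
  have hσphi : ∀ g t, σ g = D.ξ t → σ (cm v' (g * v' * g⁻¹)) = 1 ∨ σ (cm v' (g * v' * g⁻¹)) = D.θ := by
    intro g t hg
    have : σ (cm v' (g * v' * g⁻¹)) = D.v * (D.ξ t * D.v * (D.ξ t)⁻¹) * D.v⁻¹ * (D.ξ t * D.v * (D.ξ t)⁻¹)⁻¹ := by
      unfold cm; simp only [map_mul, map_inv, hg, hv']
    rw [this]; exact D.br t
  obtain ⟨x1, hx1⟩ := hσ.1 (D.ξ 1)
  set e := cm v' (x1 * v' * x1⁻¹) with he
  have heU : ∀ b, σ b ∈ D.U → e * b = b * e := by
    intro b hb
    rcases hσphi x1 1 hx1 with h | h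
    · exact (hzc e h b).symm
    · rw [← cm_eq_one]; exact D.theta_central σ hσ hk h hb
  have hall : ∀ (g : Γ) (t : F), t ≠ 0 → σ g = D.ξ t → cm v' (g * v' * g⁻¹) = e := by
    intro g t ht hg
    obtain ⟨h, hh, h1⟩ := D.tr t ht
    obtain ⟨k, rfl⟩ := hσ.1 h
    have e1 : k * e * k⁻¹ = e := by
      apply fixH σ hσ D.cop hk hh
      rcases hσphi x1 1 hx1 with h | h
      · rw [he, h]; group
      · rw [he, h]; exact D.Hθ _ hh
    rw [← e1, he, cm_conj]
    apply cm_congr hσ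
    · rw [map_mul, map_mul, map_inv, hv', D.Hv _ hh]
    · simp only [map_mul, map_inv, hg, hv', hx1]
      have h2 : D.ξ t = σ k * D.ξ 1 * (σ k)⁻¹ := by rw [h1, mul_one]
      have h3 : σ k * D.v * (σ k)⁻¹ = D.v := D.Hv _ hh
      rw [h2]
      calc σ k * D.ξ 1 * (σ k)⁻¹ * D.v * (σ k * D.ξ 1 * (σ k)⁻¹)⁻¹ =
          σ k * D.ξ 1 * (σ k)⁻¹ * (σ k * D.v * (σ k)⁻¹) * (σ k * D.ξ 1 * (σ k)⁻¹)⁻¹ := by rw [h3]
        _ = σ k * (D.ξ 1 * D.v * (D.ξ 1)⁻¹) * (σ k)⁻¹ := by group
  have hξU : ∀ (g : Γ) (t : F), σ g = D.ξ t → σ g ∈ D.U := fun g t h => by rw [h]; exact D.ξU t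
  -- `e ^ 2 = 1`
  have hee : e * e = 1 := by
    have h1 : x1 * e * x1⁻¹ = e := by rw [← heU x1 (hξU _ _ hx1)]; group
    have h2 : x1 * e * x1⁻¹ = cm (x1 * v' * x1⁻¹) v' := by
      rw [he, cm_conj]
      refine cm_congr hσ rfl ?_
      simp only [map_mul, map_inv, hx1, D.ξinv]
      calc D.ξ 1 * (D.ξ 1 * σ v' * D.ξ 1) * D.ξ 1 = (D.ξ 1 * D.ξ 1) * σ v' * (D.ξ 1 * D.ξ 1) := by group
        _ = σ v' := by rw [D.ξsq]; group
    have h3 : cm (x1 * v' * x1⁻¹) v' = e⁻¹ := by rw [he]; unfold cm; group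
    have h4 : e = e⁻¹ := by rw [← h3, ← h2, h1]
    calc e * e = e * e⁻¹ := by rw [← h4]
      _ = 1 := mul_inv_cancel e
  -- `σ e = θ`
  have hvt : ∀ t, D.vt t * D.vt t = 1 := by
    intro t
    unfold vt
    calc D.ξ t * D.v * (D.ξ t)⁻¹ * (D.ξ t * D.v * (D.ξ t)⁻¹) = D.ξ t * (D.v * D.v) * (D.ξ t)⁻¹ := by group
      _ = 1 := by rw [D.vsq]; group
  have hY := D.card_Y
  have heθ : σ e = D.θ := by
    rcases hσphi x1 1 hx1 with h | h
    · exfalso
      have hc0 : ∀ t, D.v * D.vt t = D.vt t * D.v := by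
        intro t
        by_cases ht : t = 0
        · subst ht; unfold vt; rw [D.ξ0]; group
        · have h1 := hall (s (D.ξ t)) t ht (hs _)
          have h2 : σ (cm v' (s (D.ξ t) * v' * (s (D.ξ t))⁻¹)) = 1 := by rw [h1]; exact h
          have h3 : cm (σ v') (σ (s (D.ξ t) * v' * (s (D.ξ t))⁻¹)) = 1 := by
            rw [← h2]; unfold cm; simp
          rw [cm_eq_one, map_mul, map_mul, map_inv, hs, hv'] at h3
          exact h3
      have hc : ∀ t u, D.vt t * D.vt u = D.vt u * D.vt t := by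
        intro t u
        have h1 := hc0 (u - t)
        have e1 : D.vt t = D.ξ t * D.v * (D.ξ t)⁻¹ := rfl
        have e2 : D.vt u = D.ξ t * D.vt (u - t) * (D.ξ t)⁻¹ := by
          unfold vt
          rw [show D.ξ u = D.ξ t * D.ξ (u - t) by rw [← D.ξadd]; congr 1; ring]; group
        rw [e1, e2]
        calc D.ξ t * D.v * (D.ξ t)⁻¹ * (D.ξ t * D.vt (u - t) * (D.ξ t)⁻¹) =
            D.ξ t * (D.v * D.vt (u - t)) * (D.ξ t)⁻¹ := by group
          _ = D.ξ t * (D.vt (u - t) * D.v) * (D.ξ t)⁻¹ := by rw [h1]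
          _ = _ := by group
      have h2 := card_closure_le' hvt hc
      rw [h8] at h2
      have : (2 : ℕ) ^ 9 ≤ 2 ^ 8 := hY.trans h2
      norm_num at this
    · exact h
  -- the involution over `v`
  obtain ⟨n1, hn1⟩ := hσ.1 D.na
  obtain ⟨n2, hn2⟩ := hσ.1 D.nb
  set a := n1 * (n2 * e * n2⁻¹) * n1⁻¹ with ha
  have haσ : σ a = D.v := by
    rw [ha]; simp only [map_mul, map_inv, hn1, hn2, heθ]
    rw [D.nbθ, D.naw]
  have haa : a * a = 1 := by
    rw [ha]
    calc n1 * (n2 * e * n2⁻¹) * n1⁻¹ * (n1 * (n2 * e * n2⁻¹) * n1⁻¹) = n1 * (n2 * (e * e) * n2⁻¹) * n1⁻¹ := by group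
      _ = 1 := by rw [hee]; group
  set at' : F → Γ := fun t => s (D.ξ t) * a * (s (D.ξ t))⁻¹ with hat
  have hatσ : ∀ t, σ (at' t) = D.vt t := by
    intro t; simp only [hat, map_mul, map_inv, hs, haσ]; rfl
  have hat2 : ∀ t, at' t * at' t = 1 := by
    intro t
    calc s (D.ξ t) * a * (s (D.ξ t))⁻¹ * (s (D.ξ t) * a * (s (D.ξ t))⁻¹) = s (D.ξ t) * (a * a) * (s (D.ξ t))⁻¹ := by group
      _ = 1 := by rw [haa]; group
  have hconjσ : ∀ g g' b : Γ, σ g = σ g' → g * b * g⁻¹ = g' * b * g'⁻¹ := by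
    intro g g' b h
    have h1 : σ (g⁻¹ * g') = 1 := by rw [map_mul, map_inv, h, inv_mul_cancel]
    have h2 := hzc _ h1 b
    calc g * b * g⁻¹ = g * (b * (g⁻¹ * g')) * g'⁻¹ := by group
      _ = g * ((g⁻¹ * g') * b) * g'⁻¹ := by rw [h2]
      _ = g' * b * g'⁻¹ := by group
  have hatconj : ∀ (g : Γ) (t u : F), σ g = D.ξ t → g * at' u * g⁻¹ = at' (t + u) := by
    intro g t u hg
    calc g * (s (D.ξ u) * a * (s (D.ξ u))⁻¹) * g⁻¹ = (g * s (D.ξ u)) * a * (g * s (D.ξ u))⁻¹ := by group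
      _ = s (D.ξ (t + u)) * a * (s (D.ξ (t + u)))⁻¹ := by
        apply hconjσ
        rw [map_mul, hs, hs, hg, D.ξadd]
  have hcomm0 : ∀ t, t ≠ 0 → cm a (at' t) = e := by
    intro t ht
    rw [← hall (s (D.ξ t)) t ht (hs _)]
    apply cm_congr hσ (haσ.trans hv'.symm)
    simp only [hat, map_mul, map_inv, haσ, hv']
  have heat : ∀ t, e * at' t = at' t * e := by
    intro t
    apply heU
    rw [hatσ]
    exact mul_mem (mul_mem (D.ξU t) D.vU) (inv_mem (D.ξU t))
  have hcommk : ∀ i j, ∃ k : ℕ, at' i * at' j = e ^ k * (at' j * at' i) := by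
    intro i j
    by_cases hij : i = j
    · subst hij; exact ⟨0, by simp⟩
    · refine ⟨1, ?_⟩
      have h1 := hcomm0 (j - i) (sub_ne_zero.mpr (Ne.symm hij))
      have h2 := cm_conj (s (D.ξ i)) a (at' (j - i))
      rw [h1, hatconj _ i (j - i) (hs _), add_sub_cancel] at h2
      have h3 : s (D.ξ i) * e * (s (D.ξ i))⁻¹ = e := by
        rw [← heU (s (D.ξ i)) (hξU _ _ (hs _))]; group
      rw [h3] at h2
      rw [pow_one, h2]
      show at' i * at' j = cm (at' i) (at' j) * _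
      unfold cm; group
  set N := closure (insert e (Set.range at')) with hN
  have hNcard : Nat.card N ≤ 2 ^ 9 := by
    have := card_closure_le hee hat2 heat hcommk
    rw [h8] at this
    exact this
  have hYN : closure (Set.range D.vt) ≤ N.map σ := by
    rw [closure_le]
    rintro _ ⟨t, rfl⟩
    exact ⟨at' t, subset_closure (Or.inr ⟨t, rfl⟩), hatσ t⟩
  have hNmap : 2 ^ 9 ≤ Nat.card ↥(N.map σ) := hY.trans (Nat.card_le_card_of_injective _ (Subgroup.inclusion_injective hYN))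
  have hNinj : ∀ z ∈ N, σ z = 1 → z = 1 := by
    let f : N → ↥(N.map σ) := fun n => ⟨σ n, n, n.2, rfl⟩
    have hf : Function.Surjective f := by
      rintro ⟨_, n, hn, rfl⟩
      exact ⟨⟨n, hn⟩, rfl⟩
    have hb := hf.bijective_of_nat_card_le (hNcard.trans hNmap)
    intro z hz h1
    have h2 : f ⟨z, hz⟩ = f ⟨1, one_mem _⟩ := Subtype.ext (by show σ z = σ 1; rw [h1, map_one])
    exact congrArg Subtype.val (hb.1 h2)
  -- `N` is normalized by the preimage of `X`
  have hNconj : ∀ (g : Γ) (t : F), σ g = D.ξ t → ∀ n ∈ N, g * n * g⁻¹ ∈ N := by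
    intro g t hg n hn
    induction hn using Subgroup.closure_induction with
    | mem x hx =>
      rcases hx with rfl | ⟨u, rfl⟩
      · rw [← heU g (hξU _ _ hg)]
        have : e * g * g⁻¹ = e := by group
        rw [this]; exact subset_closure (Or.inl rfl)
      · rw [hatconj g t u hg]; exact subset_closure (Or.inr ⟨_, rfl⟩)
    | one => simp
    | mul a b _ _ ha hb =>
      have e : g * (a * b) * g⁻¹ = g * a * g⁻¹ * (g * b * g⁻¹) := by group
      rw [e]; exact mul_mem ha hb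
    | inv a _ ha =>
      have e : g * a⁻¹ * g⁻¹ = (g * a * g⁻¹)⁻¹ := by group
      rw [e]; exact inv_mem ha
  -- the preimage of `X` is abelian
  have hXX : ∀ t u, cm (s (D.ξ t)) (s (D.ξ u)) = 1 := by
    have hz : ∀ t u, σ (cm (s (D.ξ t)) (s (D.ξ u))) = 1 := by
      intro t u
      have : σ (cm (s (D.ξ t)) (s (D.ξ u))) = cm (D.ξ t) (D.ξ u) := by unfold cm; simp only [map_mul, map_inv, hs]
      rw [this, cm_eq_one]; exact D.ξcomm t u
    set f : F → F → Γ := fun t u => cm (s (D.ξ t)) (s (D.ξ u)) with hf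
    have f1 : ∀ t t' u, f (t + t') u = f t u * f t' u := by
      intro t t' u
      show cm (s (D.ξ (t + t'))) (s (D.ξ u)) = _
      have e1 : cm (s (D.ξ (t + t'))) (s (D.ξ u)) = cm (s (D.ξ t) * s (D.ξ t')) (s (D.ξ u)) :=
        cm_congr hσ (by rw [map_mul, hs, hs, hs, D.ξadd]) rfl
      have e2 : cm (s (D.ξ t) * s (D.ξ t')) (s (D.ξ u)) = s (D.ξ t) * f t' u * (s (D.ξ t))⁻¹ * f t u := by
        simp only [hf]; unfold cm; group
      rw [e1, e2, hzc _ (hz t' u) (s (D.ξ t))]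
      have e3 : f t' u * s (D.ξ t) * (s (D.ξ t))⁻¹ * f t u = f t' u * f t u := by group
      rw [e3]; exact hzc _ (hz t u) _
    have f2 : ∀ t u u', f t (u + u') = f t u * f t u' := by
      intro t u u'
      show cm (s (D.ξ t)) (s (D.ξ (u + u'))) = _
      have e1 : cm (s (D.ξ t)) (s (D.ξ (u + u'))) = cm (s (D.ξ t)) (s (D.ξ u) * s (D.ξ u')) :=
        cm_congr hσ rfl (by rw [map_mul, hs, hs, hs, D.ξadd])
      have e2 : cm (s (D.ξ t)) (s (D.ξ u) * s (D.ξ u')) = f t u * (s (D.ξ u) * f t u' * (s (D.ξ u))⁻¹) := by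
        simp only [hf]; unfold cm; group
      rw [e1, e2, hzc _ (hz t u') (s (D.ξ u))]
      group
      rfl
    have f3 : ∀ c, c ≠ 0 → ∀ t u, f (c * t) (c * u) = f t u := by
      intro c hc t u
      obtain ⟨h, hh, h1⟩ := D.tr c hc
      obtain ⟨k, rfl⟩ := hσ.1 h
      have e1 : f (c * t) (c * u) = cm (k * s (D.ξ t) * k⁻¹) (k * s (D.ξ u) * k⁻¹) := by
        apply cm_congr hσ
        · rw [hs, map_mul, map_mul, map_inv, hs, h1]
        · rw [hs, map_mul, map_mul, map_inv, hs, h1]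
      rw [e1, ← cm_conj]
      have := hzc _ (hz t u) k
      rw [this]
      group
      rfl
    obtain ⟨b, hb0, hb1, hb2⟩ : ∃ a : F, a ≠ 0 ∧ 1 + a ≠ 0 ∧ a ^ 2 + a + 1 ≠ 0 := by
      set P : Polynomial F := Polynomial.X * (Polynomial.X + 1) * (Polynomial.X ^ 2 + Polynomial.X + 1) with hP
      have hd : P.natDegree = 4 := by rw [hP]; compute_degree!
      have h0 : P ≠ 0 := by
        intro h; rw [h] at hd; simp at hd
      obtain ⟨a, ha⟩ := Polynomial.exists_eval_ne_zero_of_natDegree_lt_card P h0 (by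
        rw [hd, ← Nat.cast_card, D.cardF]; norm_num)
      have e : P.eval a = a * (a + 1) * (a ^ 2 + a + 1) := by rw [hP]; simp
      rw [e] at ha
      refine ⟨a, ?_, ?_, ?_⟩
      · rintro rfl; simp at ha
      · intro h; apply ha; rw [add_comm] at h; rw [h]; ring
      · intro h; apply ha; rw [h]; ring
    intro t u
    have hd0 : b⁻¹ + 1 + b ≠ 0 := by
      intro h0
      apply hb2
      have : b * (b⁻¹ + 1 + b) = 0 := by rw [h0, mul_zero]
      field_simp at this
      linear_combination this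
    set y := (b⁻¹ + 1 + b)⁻¹ * u with hy
    have hu2 : u = b⁻¹ * y + (y + b * y) := by
      have : u = (b⁻¹ + 1 + b) * y := by rw [hy, mul_inv_cancel_left₀ hd0]
      rw [this]; ring
    have e1 := f3 (1 + b) hb1 t y
    rw [show (1 + b) * t = t + b * t by ring, show (1 + b) * y = y + b * y by ring, f1 t (b * t) _,
      f2 (b * t) y (b * y), f3 b hb0 t y] at e1
    have e2 : f (b * t) y = f t (b⁻¹ * y) := by
      have := f3 b hb0 t (b⁻¹ * y)
      rw [mul_inv_cancel_left₀ hb0] at this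
      exact this
    rw [e2] at e1
    have e3 : f t (y + b * y) * f t (b⁻¹ * y) = 1 := by
      have : f t (y + b * y) * f t (b⁻¹ * y) * f t y = f t y := by rw [mul_assoc]; exact e1
      exact mul_eq_right.mp this
    show f t u = 1
    rw [hu2, f2 t (b⁻¹ * y) (y + b * y), ← hzc _ (hz t (b⁻¹ * y)) (f t (y + b * y))]
    exact e3
  -- the commutator subgroup of the preimage of `U`
  have hMN : ⁅D.U.comap σ, D.U.comap σ⁆ ≤ N := by
    rw [Subgroup.commutator_le]
    intro g hg g' hg'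
    rw [mem_comap] at hg hg'
    obtain ⟨m, hm, t, ht⟩ := D.exists_mul hg
    obtain ⟨m', hm', t', ht'⟩ := D.exists_mul hg'
    obtain ⟨n, hn, rfl⟩ := hYN hm
    obtain ⟨n', hn', rfl⟩ := hYN hm'
    set x := s (D.ξ t) with hx
    set x' := s (D.ξ t') with hx'
    have h4 : cm g g' = cm (n * x) (n' * x') :=
      cm_congr hσ (by rw [ht, map_mul, hx, hs]) (by rw [ht', map_mul, hx', hs])
    have h5 : ⁅g, g'⁆ = cm g g' := by rw [commutatorElement_def]; rfl
    have h6 : x * x' = x' * x := cm_eq_one.mp (hXX t t')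
    have h7 : cm (n * x) (n' * x') = n * (x * n' * x⁻¹) * (x' * n⁻¹ * x'⁻¹) * n'⁻¹ := by
      unfold cm
      calc n * x * (n' * x') * (n * x)⁻¹ * (n' * x')⁻¹ = n * (x * n' * x⁻¹) * (x * x') * x⁻¹ * n⁻¹ * x'⁻¹ * n'⁻¹ := by group
        _ = n * (x * n' * x⁻¹) * (x' * x) * x⁻¹ * n⁻¹ * x'⁻¹ * n'⁻¹ := by rw [h6]
        _ = _ := by group
    rw [h5, h4, h7]
    exact mul_mem (mul_mem (mul_mem hn (hNconj x t (hs _) _ hn')) (hNconj x' t' (hs _) _ (inv_mem hn))) (inv_mem hn')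
  haveI : Fact (Nat.Prime 2) := ⟨Nat.prime_two⟩
  have hker := ker_le_commutator_comap σ hσ hk D.U D.idx
  rw [Subgroup.card_eq_one, eq_bot_iff]
  intro z hz
  rw [mem_bot]
  exact hNinj z (hMN (hker hz)) hz

end QDat

end Cfsg.Agent.Lib.H26Q8
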