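import Cfsg.Agent.Lib.H26Peel
import Cfsg.Agent.Lib.SchurSylow
import Cfsg.Agent.Lib.H26SzMult

/-!
# The 3-part of the Schur multiplier of the Borel subgroup of the Ree groups (helper26)
-/

set_option autoImplicit false

namespace Cfsg.Agent.Lib.H26ReeMult

open Subgroup Cfsg Cfsg.Agent.Lib.H26RootMult Cfsg.Agent.Lib.H26Peel
open scoped commutatorElement

universe u v

section field

variable {F : Type*} [Field F] [Fintype F] {m : ℕ} (φ : F →+* F)

theorem exists_inv (h3 : (3 : F) = 0) (hc : 27 ≤ Fintype.card F) :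
    ∃ x : F, x ≠ 0 ∧ x + 1 ≠ 0 ∧ (x + 1)⁻¹ ≠ x⁻¹ + 1⁻¹ := by
  open Polynomial in
  have hP : ((X * (X + 1) * (X ^ 2 + X + 1) : F[X])) ≠ 0 := by
    refine mul_ne_zero (mul_ne_zero X_ne_zero ?_) ?_
    · exact (monic_X_add_C (1 : F)).ne_zero
    · intro h
      have := congrArg (fun p => coeff p 0) h
      simp at this
  have hd : ((Polynomial.X * (Polynomial.X + 1) * (Polynomial.X ^ 2 + Polynomial.X + 1) : Polynomial F)).natDegree ≤ 4 := by
    compute_degree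
  obtain ⟨x, hx⟩ := H26SzMult.exists_ne_of_card hP hd (by omega)
  simp only [Polynomial.eval_mul, Polynomial.eval_X, Polynomial.eval_add, Polynomial.eval_one,
    Polynomial.eval_pow] at hx
  have hx0 : x ≠ 0 := by rintro rfl; simp at hx
  have hx1 : x + 1 ≠ 0 := by intro h; rw [h] at hx; simp at hx
  have hx2 : x ^ 2 + x + 1 ≠ 0 := by intro h; rw [h] at hx; simp at hx
  refine ⟨x, hx0, hx1, ?_⟩
  intro h
  apply hx2
  field_simp at h
  linear_combination (-1 : F) * h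

theorem exists_top {N : ℕ} (hN : 9 ≤ N) (hNc : N * N = 3 * Fintype.card F) (hφ : ∀ x, φ x = x ^ N) :
    ∃ x : F, x ≠ 0 ∧ x + 1 ≠ 0 ∧
      ((x + 1) ^ 2 * φ (x + 1))⁻¹ ≠ (x ^ 2 * φ x)⁻¹ + ((1 : F) ^ 2 * φ 1)⁻¹ := by
  open Polynomial in
  have hP : ((X * (X + 1) * ((X + 1) ^ 2 * (X ^ N + 1) * (1 + X ^ 2 * X ^ N) - X ^ 2 * X ^ N) : F[X])) ≠ 0 := by
    refine mul_ne_zero (mul_ne_zero X_ne_zero ?_) ?_
    · exact (monic_X_add_C (1 : F)).ne_zero
    · intro h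
      have := congrArg (fun p => eval 0 p) h
      simp only [eval_add, eval_one, eval_X, eval_pow, eval_zero, eval_mul, eval_sub] at this
      rw [zero_pow (by omega)] at this
      simp at this
  have hd : ((Polynomial.X * (Polynomial.X + 1) * ((Polynomial.X + 1) ^ 2 * (Polynomial.X ^ N + 1) *
      (1 + Polynomial.X ^ 2 * Polynomial.X ^ N) - Polynomial.X ^ 2 * Polynomial.X ^ N) : Polynomial F)).natDegree ≤
      2 * N + 6 := by
    compute_degree
    omega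
  have hc : 2 * N + 6 < Fintype.card F := by nlinarith
  obtain ⟨x, hx⟩ := H26SzMult.exists_ne_of_card hP hd hc
  simp only [Polynomial.eval_mul, Polynomial.eval_X, Polynomial.eval_add, Polynomial.eval_one,
    Polynomial.eval_pow, Polynomial.eval_sub] at hx
  have hx0 : x ≠ 0 := by rintro rfl; simp at hx
  have hx1 : x + 1 ≠ 0 := by intro h; rw [h] at hx; simp at hx
  have hx2 := right_ne_zero_of_mul hx
  refine ⟨x, hx0, hx1, ?_⟩
  intro h
  apply hx2
  have hxN : x ^ N ≠ 0 := pow_ne_zero _ hx0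
  have hxN1 : x ^ N + 1 ≠ 0 := by
    have : φ (x + 1) ≠ 0 := (_root_.map_ne_zero _).2 hx1
    rwa [map_add, map_one, hφ] at this
  rw [map_add, map_one, hφ] at h
  generalize x ^ N = y at h hxN hxN1 ⊢
  field_simp at h
  linear_combination (-1 : F) * h

theorem exists_sq (h3 : (3 : F) = 0) (hc : 27 ≤ Fintype.card F) :
    ∃ w y : F, w ≠ 0 ∧ y ≠ 0 ∧ w ^ 2 + 1 = y ^ 2 ∧ (w ^ 2 + 1)⁻¹ ≠ (w ^ 2)⁻¹ + 1⁻¹ := by
  open Polynomial in
  have hP : ((X * (X ^ 2 - 1) * (X ^ 2 + 1) * (X ^ 2 + X - 1) * (X ^ 2 - X - 1) : F[X])) ≠ 0 := by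
    refine mul_ne_zero (mul_ne_zero (mul_ne_zero (mul_ne_zero X_ne_zero ?_) ?_) ?_) ?_
    all_goals
      intro h
      have := congrArg (fun p => eval 0 p) h
      simp at this
  have hd : ((Polynomial.X * (Polynomial.X ^ 2 - 1) * (Polynomial.X ^ 2 + 1) * (Polynomial.X ^ 2 + Polynomial.X - 1) *
      (Polynomial.X ^ 2 - Polynomial.X - 1) : Polynomial F)).natDegree ≤ 9 := by
    compute_degree
  obtain ⟨s, hs⟩ := H26SzMult.exists_ne_of_card hP hd (by omega)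
  simp only [Polynomial.eval_mul, Polynomial.eval_X, Polynomial.eval_add, Polynomial.eval_one,
    Polynomial.eval_pow, Polynomial.eval_sub] at hs
  have e1 := left_ne_zero_of_mul hs
  have k5 : s ^ 2 - s - 1 ≠ 0 := right_ne_zero_of_mul hs
  have k4 : s ^ 2 + s - 1 ≠ 0 := right_ne_zero_of_mul e1
  have e2 := left_ne_zero_of_mul e1
  have k3 : s ^ 2 + 1 ≠ 0 := right_ne_zero_of_mul e2
  have e3 := left_ne_zero_of_mul e2
  have k2 : s ^ 2 - 1 ≠ 0 := right_ne_zero_of_mul e3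
  have k1 : s ≠ 0 := left_ne_zero_of_mul e3
  have hw : s⁻¹ - s ≠ 0 := by
    intro h
    apply k2
    field_simp at h
    linear_combination (-1 : F) * h
  have hy : s⁻¹ + s ≠ 0 := by
    intro h
    apply k3
    field_simp at h
    linear_combination h
  have hwy : (s⁻¹ - s) ^ 2 + 1 = (s⁻¹ + s) ^ 2 := by
    have : s⁻¹ * s = 1 := inv_mul_cancel₀ k1
    linear_combination (-4 : F) * this - h3
  refine ⟨s⁻¹ - s, s⁻¹ + s, hw, hy, hwy, ?_⟩
  have hw1 : (s⁻¹ - s) ^ 2 - 1 ≠ 0 := by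
    intro h
    have h1 : (s⁻¹ - s - 1) * (s⁻¹ - s + 1) = 0 := by linear_combination h
    rcases mul_eq_zero.1 h1 with h2 | h2
    · apply k4
      field_simp at h2
      linear_combination (-1 : F) * h2
    · apply k5
      field_simp at h2
      linear_combination (-1 : F) * h2
  have hy2 : (s⁻¹ - s) ^ 2 + 1 ≠ 0 := by rw [hwy]; exact pow_ne_zero 2 hy
  generalize s⁻¹ - s = w at *
  intro h
  have hw0 : w ^ 2 ≠ 0 := pow_ne_zero 2 hw
  have h4 : (w ^ 2 - 1) ^ 2 = 0 := by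
    field_simp at h
    linear_combination (-1 : F) * h - w ^ 2 * h3
  exact hw1 (pow_eq_zero_iff two_ne_zero |>.1 h4)

end field

section core

variable {F : Type*} [Field F] [Fintype F] (φ : F →+* F) (h3 : (3 : F) = 0) (hφφ : ∀ x, φ (φ x) = x ^ 3)
variable {B : Type v} [Group B] (us : F → F → F → B) (h : Fˣ → B)
variable (hmul : ∀ t u v t' u' v', us t u v * us t' u' v' =
    us (t + t') (u + u' - φ t' * t) (v + v' - t' * u + φ t' * t * t' - φ t' * t ^ 2))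
variable (hh : ∀ s t, h s * h t = h (s * t))
variable (hconj : ∀ (s : Fˣ) (t u v : F), h s * us t u v * (h s)⁻¹ =
    us ((φ s)⁻¹ * (s : F) ^ 2 * t) (φ s * (s : F)⁻¹ * u) (s * v))
variable (hall : ∀ g, ∃ s t u v, g = h s * us t u v)

include hmul in
omit [Fintype F] in
theorem us_zero : us 0 0 0 = 1 := by
  have := hmul 0 0 0 0 0 0
  simp only [map_zero, mul_zero, zero_mul, add_zero, sub_zero] at this
  exact mul_eq_left.1 this

include hmul in
omit [Fintype F] in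
theorem us_inv (t u v : F) : (us t u v)⁻¹ = us (-t) (-u - φ t * t) (-v - t * u - φ t * t * t - φ t * t ^ 2) := by
  rw [inv_eq_iff_mul_eq_one, hmul, ← us_zero φ us hmul]
  congr 1
  · ring
  · rw [map_neg]; ring
  · rw [map_neg]; ring

include hh in
omit [Fintype F] in
theorem h_one : h 1 = 1 := by
  have := hh 1 1
  rw [mul_one] at this
  exact mul_eq_left.1 this

include hh in
omit [Fintype F] in
theorem h_pow (t : Fˣ) (n : ℕ) : h t ^ n = h (t ^ n) := by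
  induction n with
  | zero => rw [pow_zero, pow_zero, h_one h hh]
  | succ n ih => rw [pow_succ, pow_succ, ih, hh]

/-- preimages of the levels of the unipotent group -/
def A1 {Γ : Type u} [Group Γ] (τ : Γ →* B) : Subgroup Γ where
  carrier := {x | ∃ v, τ x = us 0 0 v}
  one_mem' := ⟨0, by rw [map_one, us_zero φ us hmul]⟩
  mul_mem' := by
    rintro x y ⟨b, hb⟩ ⟨c, hc⟩
    exact ⟨b + c, by rw [map_mul, hb, hc, hmul]; simp⟩
  inv_mem' := by
    rintro x ⟨b, hb⟩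
    exact ⟨-b, by rw [map_inv, hb, us_inv φ us hmul]; simp⟩

def A2 {Γ : Type u} [Group Γ] (τ : Γ →* B) : Subgroup Γ where
  carrier := {x | ∃ u v, τ x = us 0 u v}
  one_mem' := ⟨0, 0, by rw [map_one, us_zero φ us hmul]⟩
  mul_mem' := by
    rintro x y ⟨a, b, hb⟩ ⟨a', c, hc⟩
    exact ⟨a + a', b + c, by rw [map_mul, hb, hc, hmul]; simp⟩
  inv_mem' := by
    rintro x ⟨a, b, hb⟩
    exact ⟨-a, -b, by rw [map_inv, hb, us_inv φ us hmul]; simp⟩

def A3 {Γ : Type u} [Group Γ] (τ : Γ →* B) : Subgroup Γ where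
  carrier := {x | ∃ t u v, τ x = us t u v}
  one_mem' := ⟨0, 0, 0, by rw [map_one, us_zero φ us hmul]⟩
  mul_mem' := by
    rintro x y ⟨t, a, b, hb⟩ ⟨t', a', c, hc⟩
    exact ⟨_, _, _, by rw [map_mul, hb, hc, hmul]⟩
  inv_mem' := by
    rintro x ⟨t, a, b, hb⟩
    exact ⟨_, _, _, by rw [map_inv, hb, us_inv φ us hmul]⟩

include h3 hφφ hmul hh hconj hall in
theorem core {N : ℕ} (hN : 9 ≤ N) (hNc : N * N = 3 * Fintype.card F) (hφ : ∀ x, φ x = x ^ N)
    (hsq : ∀ a : F, a ≠ 0 → ∃ z, z ≠ 0 ∧ (a = z * z ∨ a = (-1) * (z * z)))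
    {Γ : Type u} [Group Γ] [Finite Γ] (τ : Γ →* B) (hst : IsStemExtension τ) (hp : IsPGroup 3 τ.ker) :
    τ.ker = ⊥ := by
  classical
  have hc27 : 27 ≤ Fintype.card F := by nlinarith
  obtain ⟨hsurj, hZ, hZc⟩ := hst
  choose l hl using hsurj
  have hone := h_one h hh
  have hAc : ∀ (s x : Γ) (r : Fˣ) (t u v : F), τ s = h r → τ x = us t u v →
      τ (s * x * s⁻¹) = us ((φ r)⁻¹ * (r : F) ^ 2 * t) (φ r * (r : F)⁻¹ * u) (r * v) := by
    intro s x r t u v hs hx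
    rw [map_mul, map_mul, map_inv, hs, hx, hconj]
  have hker1 : ∀ {x y : Γ}, (⁅τ x, τ y⁆ = 1) → ⁅x, y⁆ ∈ τ.ker := fun {x y} hxy => by
    rw [MonoidHom.mem_ker, map_commutatorElement, hxy]
  have hcop : ∀ n : ℕ, ¬ 3 ∣ n → ∀ z ∈ τ.ker, z ^ n = 1 → z = 1 := by
    intro n hn z hz hzn
    obtain ⟨k, hk⟩ := hp ⟨z, hz⟩
    have hk' : z ^ 3 ^ k = 1 := by simpa using congrArg Subtype.val hk
    have h1 : orderOf z ∣ 3 ^ k := orderOf_dvd_of_pow_eq_one hk'
    have h2 : orderOf z ∣ n := orderOf_dvd_of_pow_eq_one hzn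
    have h4 : Nat.Coprime (3 ^ k) n := Nat.Coprime.pow_left _ ((Nat.Prime.coprime_iff_not_dvd Nat.prime_three).2 hn)
    exact orderOf_eq_one_iff.1 (Nat.eq_one_of_dvd_coprimes h4 h1 h2)
  have hm1 : φ ((-1 : Fˣ) : F) = -1 := by rw [Units.val_neg, Units.val_one, map_neg, map_one]
  -- conjugation by the involution
  have hinvol : ∀ (x : Γ) (t u v : F), τ x = us t u v →
      τ (l (h (-1)) * x * (l (h (-1)))⁻¹) = us (-t) u (-v) := by
    intro x t u v hx
    rw [hAc _ _ _ t u v (hl _) hx, hm1]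
    congr 1
    · simp
    · simp
    · simp
  -- (3,3)
  have c33 : ∀ v v' : F, ⁅l (us 0 0 v), l (us 0 0 v')⁆ = 1 := by
    obtain ⟨x, hx0, hx1, hx2⟩ := exists_inv (F := F) h3 hc27
    have hz : ∀ a b : F, ⁅l (us 0 0 a), l (us 0 0 b)⁆ ∈ center Γ := by
      intro a b
      apply hZ; apply hker1
      rw [hl, hl, commutatorElement_eq_one_iff_mul_comm, hmul, hmul]
      simp [add_comm]
    refine comm_trivial' (fun b => l (us 0 0 b)) (fun b => l (us 0 0 b)) hz ?_ ?_ (fun x => x⁻¹) (fun x => x ≠ 0) ?_ hx0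
      one_ne_zero hx1 hx2 ?_
    · intro a a' b
      exact comm_eq_of_map_eq hZ (by rw [hl, map_mul, hl, hl, hmul]; simp) rfl
    · intro a a' b
      exact comm_eq_of_map_eq hZ rfl (by rw [hl, map_mul, hl, hl, hmul]; simp)
    · intro x hx y
      have h1 : ⁅l (us 0 0 x), l (us 0 0 y)⁆ =
          l (h (Units.mk0 x hx)) * ⁅l (us 0 0 1), l (us 0 0 (x⁻¹ * y))⁆ * (l (h (Units.mk0 x hx)))⁻¹ := by
        rw [conj_comm]
        refine comm_eq_of_map_eq hZ ?_ ?_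
        · rw [hAc _ _ (Units.mk0 x hx) 0 0 1 (hl _) (hl _), hl]; simp
        · rw [hAc _ _ (Units.mk0 x hx) 0 0 (x⁻¹ * y) (hl _) (hl _), hl]; simp [hx]
      rw [h1, (mem_center_iff.1 (hz 1 (x⁻¹ * y))) (l (h (Units.mk0 x hx)))]
      group
    · intro a
      by_cases ha : a = 0
      · exact Or.inl ha
      · exact Or.inr (Or.inl ha)
  -- (2,3)
  have c23 : ∀ u v : F, ⁅l (us 0 u 0), l (us 0 0 v)⁆ = 1 := by
    have hk : ∀ a b : F, ⁅l (us 0 a 0), l (us 0 0 b)⁆ ∈ τ.ker := by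
      intro a b
      apply hker1
      rw [hl, hl, commutatorElement_eq_one_iff_mul_comm, hmul, hmul]
      simp
    have hz : ∀ a b : F, ⁅l (us 0 a 0), l (us 0 0 b)⁆ ∈ center Γ := fun a b => hZ (hk a b)
    intro u v
    refine hcop 2 (by norm_num) _ (hk u v) ?_
    refine pairing_sq (fun v u => ⁅l (us 0 u 0), l (us 0 0 v)⁆) ?_ ?_ v u
    · intro a a' b
      rw [← comm_mul_right (hz b a')]
      exact comm_eq_of_map_eq hZ rfl (by rw [hl, map_mul, hl, hl, hmul]; simp)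
    · intro a b
      have h1 : ⁅l (us 0 b 0), l (us 0 0 (-a))⁆ =
          l (h (-1)) * ⁅l (us 0 b 0), l (us 0 0 a)⁆ * (l (h (-1)))⁻¹ := by
        rw [conj_comm]
        refine comm_eq_of_map_eq hZ ?_ ?_
        · rw [hinvol _ 0 b 0 (hl _), hl]; simp
        · rw [hinvol _ 0 0 a (hl _), hl]; simp
      show ⁅l (us 0 b 0), l (us 0 0 (-a))⁆ = ⁅l (us 0 b 0), l (us 0 0 a)⁆
      rw [h1, (mem_center_iff.1 (hz b a)) (l (h (-1)))]
      group
  -- (2,2)
  have c22 : ∀ u u' : F, ⁅l (us 0 u 0), l (us 0 u' 0)⁆ = 1 := by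
    obtain ⟨w, y0, hw0, hy0, hwy, hx2⟩ := exists_sq (F := F) h3 hc27
    have hz : ∀ a b : F, ⁅l (us 0 a 0), l (us 0 b 0)⁆ ∈ center Γ := by
      intro a b
      apply hZ; apply hker1
      rw [hl, hl, commutatorElement_eq_one_iff_mul_comm, hmul, hmul]
      simp [add_comm]
    refine comm_trivial' (fun b => l (us 0 b 0)) (fun b => l (us 0 b 0)) hz ?_ ?_ (fun x => x⁻¹)
      (fun x => ∃ z, z ≠ 0 ∧ x = z * z) ?_ (x := w ^ 2) (x' := 1) ⟨w, hw0, pow_two w⟩ ⟨1, one_ne_zero, (mul_one 1).symm⟩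
      ⟨y0, hy0, by rw [hwy, pow_two]⟩ hx2 ?_
    · intro a a' b
      exact comm_eq_of_map_eq hZ (by rw [hl, map_mul, hl, hl, hmul]; simp) rfl
    · intro a a' b
      exact comm_eq_of_map_eq hZ rfl (by rw [hl, map_mul, hl, hl, hmul]; simp)
    · rintro x ⟨z, hz0, rfl⟩ y
      have hφz : φ z ≠ 0 := (_root_.map_ne_zero _).2 hz0
      set r : Fˣ := Units.mk0 (z * φ z) (mul_ne_zero hz0 hφz) with hr
      have hr' : (r : F) = z * φ z := rfl
      have hchi : φ r * (r : F)⁻¹ = z * z := by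
        rw [hr', map_mul, hφφ]
        field_simp
      have h1 : ⁅l (us 0 (z * z) 0), l (us 0 y 0)⁆ =
          l (h r) * ⁅l (us 0 1 0), l (us 0 ((z * z)⁻¹ * y) 0)⁆ * (l (h r))⁻¹ := by
        rw [conj_comm]
        refine comm_eq_of_map_eq hZ ?_ ?_
        · rw [hAc _ _ r 0 1 0 (hl _) (hl _), hl, hchi]; simp
        · rw [hAc _ _ r 0 ((z * z)⁻¹ * y) 0 (hl _) (hl _), hl, hchi, mul_inv_cancel_left₀ (mul_ne_zero hz0 hz0)]; simp
      rw [h1, (mem_center_iff.1 (hz 1 ((z * z)⁻¹ * y))) (l (h r))]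
      group
    · intro a
      by_cases ha : a = 0
      · exact Or.inl ha
      · obtain ⟨z, hz0, e | e⟩ := hsq a ha
        · exact Or.inr (Or.inl ⟨z, hz0, e⟩)
        · exact Or.inr (Or.inr ⟨z, hz0, by rw [e]; ring⟩)
  have hd2 : ∀ x ∈ A2 φ us hmul τ, ∃ u, ∃ c ∈ A1 φ us hmul τ, x = l (us 0 u 0) * c := by
    rintro x ⟨u, v, hx⟩
    refine ⟨u, (l (us 0 u 0))⁻¹ * x, ⟨v, ?_⟩, by group⟩
    rw [map_mul, map_inv, hl, hx, inv_mul_eq_iff_eq_mul, hmul]; simp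
  have hd3 : ∀ x ∈ A3 φ us hmul τ, ∃ t, ∃ c ∈ A2 φ us hmul τ, x = l (us t 0 0) * c := by
    rintro x ⟨t, u, v, hx⟩
    refine ⟨t, (l (us t 0 0))⁻¹ * x, ⟨u, v, ?_⟩, by group⟩
    rw [map_mul, map_inv, hl, hx, inv_mul_eq_iff_eq_mul, hmul]; simp
  have h12 : A1 φ us hmul τ ≤ A2 φ us hmul τ := by rintro x ⟨v, hv⟩; exact ⟨0, v, hv⟩
  have h23 : A2 φ us hmul τ ≤ A3 φ us hmul τ := by rintro x ⟨u, v, hv⟩; exact ⟨0, u, v, hv⟩
  -- `A1` is central in `A2`, `A2` is abelian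
  have k11 : ∀ x ∈ A1 φ us hmul τ, ∀ y ∈ A1 φ us hmul τ, x * y = y * x := by
    rintro x ⟨b, hb⟩ y ⟨c, hc⟩
    rw [← commutatorElement_eq_one_iff_mul_comm, comm_eq_of_map_eq hZ (hb.trans (hl _).symm) (hc.trans (hl _).symm)]
    exact c33 b c
  have k21 : ∀ x ∈ A2 φ us hmul τ, ∀ y ∈ A1 φ us hmul τ, x * y = y * x := by
    intro x hx y hy
    obtain ⟨u, c, hc, rfl⟩ := hd2 x hx
    have h1 : l (us 0 u 0) * y = y * l (us 0 u 0) := by
      obtain ⟨b, hb⟩ := hy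
      rw [← commutatorElement_eq_one_iff_mul_comm, comm_eq_of_map_eq hZ rfl (hb.trans (hl _).symm)]
      exact c23 u b
    rw [mul_assoc, k11 c hc y hy, ← mul_assoc, h1, mul_assoc]
  have k22 : ∀ x ∈ A2 φ us hmul τ, ∀ y ∈ A2 φ us hmul τ, x * y = y * x := by
    intro x hx y hy
    obtain ⟨u, c, hc, rfl⟩ := hd2 x hx
    obtain ⟨u', c', hc', rfl⟩ := hd2 y hy
    have h1 := commutatorElement_eq_one_iff_mul_comm.1 (c22 u u')
    have h2 := k21 _ (show l (us 0 u 0) ∈ A2 φ us hmul τ from ⟨u, 0, hl _⟩) c' hc'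
    have h4 := k21 _ (show l (us 0 u' 0) ∈ A2 φ us hmul τ from ⟨u', 0, hl _⟩) c hc
    have h5 := k11 c hc c' hc'
    calc l (us 0 u 0) * c * (l (us 0 u' 0) * c') = l (us 0 u 0) * (c * l (us 0 u' 0)) * c' := by group
      _ = (l (us 0 u 0) * l (us 0 u' 0)) * (c * c') := by rw [← h4]; group
      _ = l (us 0 u' 0) * (l (us 0 u 0) * c') * c := by rw [h1, h5]; group
      _ = _ := by rw [h2]; group
  -- (1,3)
  have c13 : ∀ t v : F, ⁅l (us t 0 0), l (us 0 0 v)⁆ = 1 := by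
    obtain ⟨x, hx0, hx1, hx2⟩ := exists_top φ hN hNc hφ
    have hz : ∀ a b : F, ⁅l (us a 0 0), l (us 0 0 b)⁆ ∈ center Γ := by
      intro a b
      apply hZ; apply hker1
      rw [hl, hl, commutatorElement_eq_one_iff_mul_comm, hmul, hmul]
      simp
    refine comm_trivial' (fun b => l (us b 0 0)) (fun b => l (us 0 0 b)) hz ?_ ?_ (fun x => (x ^ 2 * φ x)⁻¹)
      (fun x => x ≠ 0) ?_ hx0 one_ne_zero hx1 hx2 ?_
    · intro a a' b
      have hc : (l (us (a + a') 0 0))⁻¹ * (l (us a 0 0) * l (us a' 0 0)) ∈ A2 φ us hmul τ := by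
        refine ⟨- φ a' * a, φ a' * a * a' - φ a' * a ^ 2, ?_⟩
        rw [map_mul, map_mul, map_inv, hl, hl, hl, hmul, inv_mul_eq_iff_eq_mul, hmul]
        congr 1 <;> simp
      have e1 : l (us a 0 0) * l (us a' 0 0) =
          l (us (a + a') 0 0) * ((l (us (a + a') 0 0))⁻¹ * (l (us a 0 0) * l (us a' 0 0))) := by
        group
      rw [e1, comm_mul_comm (k21 _ hc _ ⟨_, hl _⟩)]
    · intro a a' b
      exact comm_eq_of_map_eq hZ rfl (by rw [hl, map_mul, hl, hl, hmul]; simp)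
    · intro x hx y
      have hφx : φ x ≠ 0 := (_root_.map_ne_zero _).2 hx
      have hxx : x ^ 2 * φ x ≠ 0 := mul_ne_zero (pow_ne_zero 2 hx) hφx
      set r : Fˣ := Units.mk0 (x ^ 2 * φ x) hxx with hr
      have hr' : (r : F) = x ^ 2 * φ x := rfl
      have hchi : (φ r)⁻¹ * (r : F) ^ 2 = x := by
        rw [hr', map_mul, hφφ, map_pow]
        field_simp
      have h1 : ⁅l (us x 0 0), l (us 0 0 y)⁆ =
          l (h r) * ⁅l (us 1 0 0), l (us 0 0 ((x ^ 2 * φ x)⁻¹ * y))⁆ * (l (h r))⁻¹ := by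
        rw [conj_comm]
        refine comm_eq_of_map_eq hZ ?_ ?_
        · rw [hAc _ _ r 1 0 0 (hl _) (hl _), hl, hchi]; simp
        · rw [hAc _ _ r 0 0 ((x ^ 2 * φ x)⁻¹ * y) (hl _) (hl _), hl, hr', mul_inv_cancel_left₀ hxx]; simp
      rw [h1, (mem_center_iff.1 (hz 1 ((x ^ 2 * φ x)⁻¹ * y))) (l (h r))]
      group
    · intro a
      by_cases ha : a = 0
      · exact Or.inl ha
      · exact Or.inr (Or.inl ha)
  have k31 : ∀ x ∈ A3 φ us hmul τ, ∀ y ∈ A1 φ us hmul τ, x * y = y * x := by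
    intro x hx y hy
    obtain ⟨t, c, hc, rfl⟩ := hd3 x hx
    have h1 : l (us t 0 0) * y = y * l (us t 0 0) := by
      obtain ⟨b, hb⟩ := hy
      rw [← commutatorElement_eq_one_iff_mul_comm, comm_eq_of_map_eq hZ rfl (hb.trans (hl _).symm)]
      exact c13 t b
    rw [mul_assoc, k21 c hc y hy, ← mul_assoc, h1, mul_assoc]
  -- normality of the levels
  have hn1 : ∀ (g : Γ), ∀ x ∈ A1 φ us hmul τ, g * x * g⁻¹ ∈ A1 φ us hmul τ := by
    rintro g x ⟨c, hc⟩
    obtain ⟨s, t, u, v, hg⟩ := hall (τ g)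
    have e1 : us t u v * us 0 0 c = us 0 0 c * us t u v := by rw [hmul, hmul]; simp [add_comm]
    refine ⟨s * c, ?_⟩
    rw [map_mul, map_mul, map_inv, hg, hc]
    calc h s * us t u v * us 0 0 c * (h s * us t u v)⁻¹ = h s * (us t u v * us 0 0 c) * (us t u v)⁻¹ * (h s)⁻¹ := by
          group
      _ = h s * us 0 0 c * (h s)⁻¹ := by rw [e1]; group
      _ = _ := by rw [hconj]; simp
  have hn2 : ∀ (g : Γ), ∀ x ∈ A2 φ us hmul τ, g * x * g⁻¹ ∈ A2 φ us hmul τ := by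
    rintro g x ⟨b, c, hc⟩
    obtain ⟨s, t, u, v, hg⟩ := hall (τ g)
    have e1 : us t u v * us 0 b c = us 0 b (c + t * b) * us t u v := by
      rw [hmul, hmul]
      congr 1
      · simp
      · simp [add_comm]
      · simp; ring
    refine ⟨φ s * (s : F)⁻¹ * b, s * (c + t * b), ?_⟩
    rw [map_mul, map_mul, map_inv, hg, hc]
    calc h s * us t u v * us 0 b c * (h s * us t u v)⁻¹ = h s * (us t u v * us 0 b c) * (us t u v)⁻¹ * (h s)⁻¹ := by
          group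
      _ = h s * us 0 b (c + t * b) * (h s)⁻¹ := by rw [e1]; group
      _ = _ := by rw [hconj]; simp
  have hn3 : ∀ (g : Γ), ∀ x ∈ A3 φ us hmul τ, g * x * g⁻¹ ∈ A3 φ us hmul τ := by
    rintro g x ⟨a, b, c, hc⟩
    obtain ⟨s, t, u, v, hg⟩ := hall (τ g)
    obtain ⟨a1, b1, c1, e1⟩ : ∃ a1 b1 c1, us t u v * us a b c * (us t u v)⁻¹ = us a1 b1 c1 :=
      ⟨_, _, _, by rw [us_inv φ us hmul, hmul, hmul]⟩
    refine ⟨(φ s)⁻¹ * (s : F) ^ 2 * a1, φ s * (s : F)⁻¹ * b1, s * c1, ?_⟩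
    rw [map_mul, map_mul, map_inv, hg, hc]
    calc h s * us t u v * us a b c * (h s * us t u v)⁻¹ = h s * (us t u v * us a b c * (us t u v)⁻¹) * (h s)⁻¹ := by
          group
      _ = h s * us a1 b1 c1 * (h s)⁻¹ := by rw [e1]
      _ = _ := by rw [hconj]
  -- commutators with torus elements
  have hcs : ∀ (r : Fˣ) (g : Γ), (l (h r))⁻¹ * g * l (h r) * g⁻¹ ∈ A3 φ us hmul τ := by
    intro r g
    obtain ⟨s, t, u, v, hg⟩ := hall (τ g)
    have h1 : (l (h r))⁻¹ * g * l (h r) * g⁻¹ = ((l (h r))⁻¹ * l (h s) * l (h r) * (l (h s))⁻¹) *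
        (l (h s) * ((l (h r))⁻¹ * ((l (h s))⁻¹ * g) * (l (h r))⁻¹⁻¹ * ((l (h s))⁻¹ * g)⁻¹) * (l (h s))⁻¹) := by group
    have h2 : (l (h s))⁻¹ * g ∈ A3 φ us hmul τ := ⟨t, u, v, by rw [map_mul, map_inv, hl, hg]; group⟩
    rw [h1]
    refine mul_mem ?_ (hn3 _ _ (mul_mem (hn3 _ _ h2) (inv_mem h2)))
    refine ⟨0, 0, 0, ?_⟩
    rw [us_zero φ us hmul, map_mul, map_mul, map_mul, map_inv, map_inv, hl, hl, mul_assoc, mul_assoc,
      ← mul_assoc (h s), hh, mul_comm s, ← hh]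
    group
  set s0 := l (h (-1)) with hs0
  have hs02 : s0 ^ 2 ∈ center Γ := by
    apply hZ
    rw [MonoidHom.mem_ker, map_pow, hs0, hl, h_pow h hh]
    simp [hone]
  -- first layer
  obtain ⟨C1, hC1n, -, hC1Z, hC1⟩ := peel (Z := τ.ker) hZ (hcop 2 (by norm_num)) (C := ⊥)
    (fun z _ hz0 => mem_bot.1 hz0) hn1 (fun x hx y hy => by
      rw [mem_bot, commutatorElement_eq_one_iff_mul_comm]; exact k11 x hx y hy) s0 hs02 (fun g x hx => by
      rw [mem_bot, commutatorElement_eq_one_iff_mul_comm]; exact k31 _ (hcs _ g) x hx) (by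
      rintro c ⟨v, hc⟩
      refine ⟨l (us 0 0 v), ⟨v, hl _⟩, ⁅s0, l (us 0 0 v)⁆⁻¹ * c, ?_, by rw [mem_bot]; group⟩
      rw [MonoidHom.mem_ker, map_mul, map_inv, map_commutatorElement, hl, hl, hc, inv_mul_eq_one,
        commutatorElement_def, hconj, us_inv φ us hmul, hmul]
      congr 1
      · simp
      · simp
      · simp
        linear_combination (-v) * h3)
  -- second layer
  let π := QuotientGroup.mk' C1
  have hc12 : ∀ t u : F, ⁅l (us t 0 0), l (us 0 u 0)⁆ ∈ C1 := by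
    have hA : ∀ a b : F, ⁅l (us a 0 0), l (us 0 b 0)⁆ ∈ A1 φ us hmul τ := by
      intro a b
      refine ⟨a * b, ?_⟩
      rw [map_commutatorElement, hl, hl, commutatorElement_def, us_inv φ us hmul, us_inv φ us hmul, hmul, hmul, hmul]
      congr 1
      · simp
      · simp
      · simp; ring
    have hcen : ∀ c ∈ A1 φ us hmul τ, π c ∈ center (Γ ⧸ C1) := by
      intro c hc
      obtain ⟨z, hz, e⟩ := hC1 c hc
      have : π c = π z := by
        have := mk_eq_one.2 e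
        rw [map_mul, map_inv, inv_mul_eq_one] at this
        exact this.symm
      rw [this]; exact central_mk (hZ hz)
    intro t u
    rw [← mk_eq_one (C := C1)]
    have hsq1 : (π ⁅l (us t 0 0), l (us 0 u 0)⁆) ^ 2 = 1 := by
      refine pairing_sq (fun t u => π ⁅l (us t 0 0), l (us 0 u 0)⁆) ?_ ?_ t u
      · intro a a' b
        have hc : (l (us (a + a') 0 0))⁻¹ * (l (us a 0 0) * l (us a' 0 0)) ∈ A2 φ us hmul τ := by
          refine ⟨- φ a' * a, φ a' * a * a' - φ a' * a ^ 2, ?_⟩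
          rw [map_mul, map_mul, map_inv, hl, hl, hl, hmul, inv_mul_eq_iff_eq_mul, hmul]
          congr 1 <;> simp
        have e1 : l (us a 0 0) * l (us a' 0 0) =
            l (us (a + a') 0 0) * ((l (us (a + a') 0 0))⁻¹ * (l (us a 0 0) * l (us a' 0 0))) := by
          group
        have e2 : ⁅l (us (a + a') 0 0), l (us 0 b 0)⁆ = ⁅l (us a 0 0) * l (us a' 0 0), l (us 0 b 0)⁆ := by
          rw [e1, comm_mul_comm (k22 _ hc _ ⟨_, _, hl _⟩)]
        show π ⁅l (us (a + a') 0 0), l (us 0 b 0)⁆ = π ⁅l (us a 0 0), l (us 0 b 0)⁆ * π ⁅l (us a' 0 0), l (us 0 b 0)⁆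
        rw [e2, map_commutatorElement, map_mul, comm_mul_left, map_commutatorElement, map_commutatorElement]
        rw [← map_commutatorElement]
        exact hcen _ (hA _ _)
      · intro a b
        have h1 : ⁅l (us (-a) 0 0), l (us 0 b 0)⁆ = s0 * ⁅l (us a 0 0), l (us 0 b 0)⁆ * s0⁻¹ := by
          rw [conj_comm]
          refine comm_eq_of_map_eq hZ ?_ ?_
          · rw [hinvol _ a 0 0 (hl _), hl]; simp
          · rw [hinvol _ 0 b 0 (hl _), hl]; simp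
        show π ⁅l (us (-a) 0 0), l (us 0 b 0)⁆ = π ⁅l (us a 0 0), l (us 0 b 0)⁆
        rw [h1, map_mul, map_mul, map_inv, (mem_center_iff.1 (hcen _ (hA a b))) (π s0)]
        group
    obtain ⟨z, hz, e⟩ := hC1 _ (hA t u)
    have e1 : π ⁅l (us t 0 0), l (us 0 u 0)⁆ = π z := by
      have := mk_eq_one.2 e
      rw [map_mul, map_inv, inv_mul_eq_one] at this
      exact this.symm
    show π _ = 1
    rw [e1, ← map_pow] at hsq1
    rw [e1, hcop 2 (by norm_num) z hz (hC1Z _ (pow_mem hz 2) (mk_eq_one.1 hsq1)), map_one]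
  have hc32 : ∀ x ∈ A3 φ us hmul τ, ∀ y ∈ A2 φ us hmul τ, ⁅x, y⁆ ∈ C1 := by
    intro x hx y hy
    obtain ⟨t, c, hc, rfl⟩ := hd3 x hx
    obtain ⟨u, d, hd, rfl⟩ := hd2 y hy
    have e1 : ⁅l (us t 0 0) * c, l (us 0 u 0) * d⁆ = ⁅l (us t 0 0), l (us 0 u 0) * d⁆ :=
      comm_mul_comm (k22 c hc _ (mul_mem (show l (us 0 u 0) ∈ A2 φ us hmul τ from ⟨u, 0, hl _⟩) (h12 hd)))
    have e2 : ⁅l (us t 0 0), l (us 0 u 0) * d⁆ = ⁅l (us t 0 0), l (us 0 u 0)⁆ := by
      have h1 := k31 _ (show l (us t 0 0) ∈ A3 φ us hmul τ from ⟨t, 0, 0, hl _⟩) d hd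
      simp only [commutatorElement_def, mul_inv_rev]
      rw [show l (us t 0 0) * (l (us 0 u 0) * d) * (l (us t 0 0))⁻¹ * (d⁻¹ * (l (us 0 u 0))⁻¹) =
        l (us t 0 0) * l (us 0 u 0) * (l (us t 0 0))⁻¹ * (l (us t 0 0) * d) * (l (us t 0 0))⁻¹ * d⁻¹ * (l (us 0 u 0))⁻¹ by
          group, h1]
      group
    rw [e1, e2]; exact hc12 t u
  -- a torus element acting without fixed points on the second level
  obtain ⟨s1, hs1⟩ : ∃ r : Fˣ, φ r * (r : F)⁻¹ ≠ 1 := by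
    obtain ⟨w, y0, hw0, hy0, hwy, hx2⟩ := exists_sq (F := F) h3 hc27
    have hφw : φ w ≠ 0 := (_root_.map_ne_zero _).2 hw0
    refine ⟨Units.mk0 (w * φ w) (mul_ne_zero hw0 hφw), ?_⟩
    rw [Units.val_mk0, map_mul, hφφ]
    intro h1
    have h2 : w ^ 2 = 1 := by
      field_simp at h1
      linear_combination h1
    apply hx2
    rw [h2]
    have h4 : (1 : F) + 1 = -1 := by linear_combination h3
    rw [h4, inv_one, inv_neg, inv_one]
    exact h4.symm
  set M := Fintype.card Fˣ with hM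
  have hM3 : ¬ 3 ∣ M := by
    rw [hM, Fintype.card_units]
    intro h1
    have h2 : 3 ∣ N := by
      have : 3 ∣ N * N := ⟨_, hNc⟩
      rcases (Nat.Prime.dvd_mul Nat.prime_three).1 this with h | h <;> exact h
    obtain ⟨k, rfl⟩ := h2
    have h4 : Fintype.card F = 3 * (k * k) := by
      have : 3 * (3 * (k * k)) = 3 * Fintype.card F := by rw [← hNc]; ring
      omega
    omega
  have hs1M : (l (h s1)) ^ M ∈ center Γ := by
    apply hZ
    rw [MonoidHom.mem_ker, map_pow, hl, h_pow h hh, hM, pow_card_eq_one, hone]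
  obtain ⟨C2, hC2n, hC12, hC2Z, hC2⟩ := peel (Z := τ.ker) hZ (hcop M hM3) (C := C1) hC1Z hn2
    (fun x hx y hy => by
      have : ⁅x, y⁆ = 1 := commutatorElement_eq_one_iff_mul_comm.2 (k22 x hx y hy)
      rw [this]; exact C1.one_mem) (l (h s1)) hs1M (fun g x hx => hc32 _ (hcs _ g) x hx) (by
      rintro c ⟨u, v, hc⟩
      have hne : φ s1 * (s1 : F)⁻¹ - 1 ≠ 0 := sub_ne_zero.2 hs1
      set χ := φ s1 * (s1 : F)⁻¹ with hχ
      set w := (χ - 1)⁻¹ * u with hw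
      have hy : ⁅l (h s1), l (us 0 w 0)⁆⁻¹ * c ∈ A1 φ us hmul τ := by
        refine ⟨v, ?_⟩
        rw [map_mul, map_inv, map_commutatorElement, hl, hl, hc, inv_mul_eq_iff_eq_mul, commutatorElement_def, hconj,
          us_inv φ us hmul, hmul, hmul]
        congr 1
        · simp
        · have : (χ - 1) * w = u := mul_inv_cancel_left₀ hne u
          simp only [map_zero, mul_zero, zero_mul, sub_zero, add_zero]
          rw [← this]; ring
        · simp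
      obtain ⟨z, hz, e⟩ := hC1 _ hy
      refine ⟨l (us 0 w 0), ⟨w, 0, hl _⟩, z, hz, ?_⟩
      have e1 : (⁅l (h s1), l (us 0 w 0)⁆ * z)⁻¹ * c = z⁻¹ * (⁅l (h s1), l (us 0 w 0)⁆⁻¹ * c) := by group
      rw [e1]; exact e)
  -- third layer
  let π2 := QuotientGroup.mk' C2
  have hcen2 : ∀ c ∈ A2 φ us hmul τ, π2 c ∈ center (Γ ⧸ C2) := by
    intro c hc
    obtain ⟨z, hz, e⟩ := hC2 c hc
    have : π2 c = π2 z := by
      have := mk_eq_one.2 e
      rw [map_mul, map_inv, inv_mul_eq_one] at this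
      exact this.symm
    rw [this]; exact central_mk (hZ hz)
  have hc11 : ∀ t t' : F, ⁅π2 (l (us t 0 0)), π2 (l (us t' 0 0))⁆ = 1 := by
    obtain ⟨x, hx0, hx1, hx2⟩ := exists_inv (F := F) h3 hc27
    have hz : ∀ a b : F, ⁅π2 (l (us a 0 0)), π2 (l (us b 0 0))⁆ ∈ center (Γ ⧸ C2) := by
      intro a b
      rw [← map_commutatorElement]
      apply hcen2
      have e' : ∃ u v, ⁅us a 0 0, us b 0 0⁆ = us 0 u v := by
        rw [commutatorElement_def, us_inv φ us hmul, us_inv φ us hmul, hmul, hmul, hmul]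
        exact ⟨_, _, by congr 1; ring⟩
      obtain ⟨u, v, e'⟩ := e'
      exact ⟨u, v, by rw [map_commutatorElement, hl, hl, e']⟩
    have hadd : ∀ a a' : F, ∃ c ∈ A2 φ us hmul τ, l (us a 0 0) * l (us a' 0 0) = l (us (a + a') 0 0) * c := by
      intro a a'
      refine ⟨(l (us (a + a') 0 0))⁻¹ * (l (us a 0 0) * l (us a' 0 0)), ⟨- φ a' * a, φ a' * a * a' - φ a' * a ^ 2, ?_⟩,
        by group⟩
      rw [map_mul, map_mul, map_inv, hl, hl, hl, hmul, inv_mul_eq_iff_eq_mul, hmul]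
      congr 1 <;> simp
    refine comm_trivial' (fun b => π2 (l (us b 0 0))) (fun b => π2 (l (us b 0 0))) hz ?_ ?_ (fun x => x⁻¹)
      (fun x => x ≠ 0) ?_ hx0 one_ne_zero hx1 hx2 ?_
    · intro a a' b
      obtain ⟨c, hc, e⟩ := hadd a a'
      show ⁅π2 (l (us (a + a') 0 0)), π2 (l (us b 0 0))⁆ = ⁅π2 (l (us a 0 0)) * π2 (l (us a' 0 0)), π2 (l (us b 0 0))⁆
      rw [← map_mul π2 (l (us a 0 0)), e, map_mul, comm_central_left (hcen2 c hc)]
    · intro a b b'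
      obtain ⟨c, hc, e⟩ := hadd b b'
      show ⁅π2 (l (us a 0 0)), π2 (l (us (b + b') 0 0))⁆ = ⁅π2 (l (us a 0 0)), π2 (l (us b 0 0)) * π2 (l (us b' 0 0))⁆
      rw [← map_mul π2 (l (us b 0 0)), e, map_mul, comm_central_right (hcen2 c hc)]
    · intro x hx y
      have hφx : φ x ≠ 0 := (_root_.map_ne_zero _).2 hx
      have hxx : x ^ 2 * φ x ≠ 0 := mul_ne_zero (pow_ne_zero 2 hx) hφx
      set r : Fˣ := Units.mk0 (x ^ 2 * φ x) hxx with hr
      have hr' : (r : F) = x ^ 2 * φ x := rfl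
      have hchi : (φ r)⁻¹ * (r : F) ^ 2 = x := by
        rw [hr', map_mul, hφφ, map_pow]
        field_simp
      have h1 : ⁅π2 (l (us x 0 0)), π2 (l (us y 0 0))⁆ =
          π2 (l (h r)) * ⁅π2 (l (us 1 0 0)), π2 (l (us (x⁻¹ * y) 0 0))⁆ * (π2 (l (h r)))⁻¹ := by
        simp only [← map_commutatorElement, ← map_inv, ← map_mul]
        congr 1
        rw [conj_comm]
        refine comm_eq_of_map_eq hZ ?_ ?_
        · rw [hAc _ _ r 1 0 0 (hl _) (hl _), hl, hchi]; simp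
        · rw [hAc _ _ r (x⁻¹ * y) 0 0 (hl _) (hl _), hl, hchi, mul_inv_cancel_left₀ hx]; simp
      rw [h1, (mem_center_iff.1 (hz 1 (x⁻¹ * y))) (π2 (l (h r)))]
      group
    · intro a
      by_cases ha : a = 0
      · exact Or.inl ha
      · exact Or.inr (Or.inl ha)
  have hc33 : ∀ x ∈ A3 φ us hmul τ, ∀ y ∈ A3 φ us hmul τ, ⁅x, y⁆ ∈ C2 := by
    intro x hx y hy
    obtain ⟨t, c, hc, rfl⟩ := hd3 x hx
    obtain ⟨u, d, hd, rfl⟩ := hd3 y hy
    rw [← mk_eq_one (C := C2)]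
    show π2 _ = 1
    rw [map_commutatorElement, map_mul, map_mul, comm_central_left (hcen2 c hc), comm_central_right (hcen2 d hd)]
    exact hc11 t u
  obtain ⟨C3, hC3n, hC23, hC3Z, hC3⟩ := peel (Z := τ.ker) hZ (hcop 2 (by norm_num)) (C := C2) hC2Z hn3 hc33 s0 hs02
    (fun g x hx => hc33 _ (hcs _ g) x hx) (by
      rintro c ⟨t, u, v, hc⟩
      have hy : ⁅s0, l (us t 0 0)⁆⁻¹ * c ∈ A2 φ us hmul τ := by
        have e' : ∃ u' v', ⁅h (-1), us t 0 0⁆⁻¹ * us t u v = us 0 u' v' := by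
          rw [commutatorElement_def, hconj, us_inv φ us hmul, hmul, us_inv φ us hmul, hmul]
          exact ⟨_, _, by congr 1; simp; linear_combination t * h3⟩
        obtain ⟨u', v', e'⟩ := e'
        exact ⟨u', v', by rw [map_mul, map_inv, map_commutatorElement, hs0, hl, hl, hc, e']⟩
      obtain ⟨z, hz, e⟩ := hC2 _ hy
      refine ⟨l (us t 0 0), ⟨t, 0, 0, hl _⟩, z, hz, ?_⟩
      have e1 : (⁅s0, l (us t 0 0)⁆ * z)⁻¹ * c = z⁻¹ * (⁅s0, l (us t 0 0)⁆⁻¹ * c) := by group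
      rw [e1]; exact e)
  -- the end
  obtain ⟨ζ, hζ⟩ := IsCyclic.exists_generator (α := Fˣ)
  refine final (Z := τ.ker) hZ hZc (C := C3) hC3Z (l (h ζ)) ?_
  intro g
  obtain ⟨s, t, u, v, hg⟩ := hall (τ g)
  obtain ⟨k, hk⟩ := (mem_powers_iff_mem_zpowers.2 (hζ s))
  change ζ ^ k = s at hk
  have h1 : (l (h ζ) ^ k)⁻¹ * g ∈ A3 φ us hmul τ :=
    ⟨t, u, v, by rw [map_mul, map_inv, map_pow, hl, h_pow h hh, hk, hg]; group⟩
  obtain ⟨z, hz, e⟩ := hC3 _ h1
  refine ⟨k, z, hz, ?_⟩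
  have e1 : (l (h ζ) ^ k * z)⁻¹ * g = z⁻¹ * ((l (h ζ) ^ k)⁻¹ * g) := by group
  rw [e1]; exact e

end core

end Cfsg.Agent.Lib.H26ReeMult
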