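import Cfsg.Agent.Lib.TwG2Inv3

/-!
# The multiplication in the unipotent subgroup of the Ree groups `²G₂(q)` (helper26)
-/

set_option autoImplicit false

namespace Cfsg.Agent.Lib.H26Ree

open Cfsg.Lie Cfsg.Agent.Lib.ChevX Cfsg.Agent.Lib.ChevGood Cfsg.Agent.Lib.ChevRel Cfsg.Agent.Lib.TwG2

universe u

section gen

variable {K : Type u} [Field K] {G : Type*} [Group G] (x6 x7 x8 x9 x10 x11 : K → G)

/-- the words in the last four root subgroups -/
def W (b c d e : K) : G := x8 b * x9 c * x10 d * x11 e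

variable {x6 x7 x8 x9 x10 x11}
variable (a6 : ∀ a b, x6 a * x6 b = x6 (a + b)) (a7 : ∀ a b, x7 a * x7 b = x7 (a + b))
  (a8 : ∀ a b, x8 a * x8 b = x8 (a + b)) (a9 : ∀ a b, x9 a * x9 b = x9 (a + b))
  (a10 : ∀ a b, x10 a * x10 b = x10 (a + b)) (a11 : ∀ a b, x11 a * x11 b = x11 (a + b))
  (c89 : ∀ a b, x9 a * x8 b = x8 b * x9 a) (c810 : ∀ a b, x10 a * x8 b = x8 b * x10 a)
  (c811 : ∀ a b, x11 a * x8 b = x8 b * x11 a) (c910 : ∀ a b, x10 a * x9 b = x9 b * x10 a)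
  (c911 : ∀ a b, x11 a * x9 b = x9 b * x11 a) (c1011 : ∀ a b, x11 a * x10 b = x10 b * x11 a)
  (c78 : ∀ a b, x8 b * x7 a = x7 a * x8 b * x9 (-(a * b)))
  (c79 : ∀ a b, x9 b * x7 a = x7 a * x9 b) (c710 : ∀ a b, x10 b * x7 a = x7 a * x10 b)
  (c711 : ∀ a b, x11 b * x7 a = x7 a * x11 b)
  (c68 : ∀ a b, x8 b * x6 a = x6 a * x8 b) (c69 : ∀ a b, x9 b * x6 a = x6 a * x9 b)
  (c610 : ∀ a b, x10 b * x6 a = x6 a * x10 b * x11 (-(a * b))) (c611 : ∀ a b, x11 b * x6 a = x6 a * x11 b)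
  (c76 : ∀ a b, x6 b * x7 a = x7 a * x6 b *
    (x8 (a * b) * x9 (a ^ 2 * b) * x10 (- (a ^ 3 * b)) * x11 (- (a ^ 3 * b ^ 2))))

include a8 a9 a10 a11 c89 c810 c811 c910 c911 c1011 in
theorem W_mul (b c d e b' c' d' e' : K) : W x8 x9 x10 x11 b c d e * W x8 x9 x10 x11 b' c' d' e' =
    W x8 x9 x10 x11 (b + b') (c + c') (d + d') (e + e') := by
  unfold W
  rw [← a8, ← a9, ← a10, ← a11]
  calc x8 b * x9 c * x10 d * x11 e * (x8 b' * x9 c' * x10 d' * x11 e')
      = x8 b * x9 c * x10 d * (x11 e * x8 b') * x9 c' * x10 d' * x11 e' := by simp only [mul_assoc]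
    _ = x8 b * x9 c * (x10 d * x8 b') * (x11 e * x9 c') * x10 d' * x11 e' := by rw [c811]; simp only [mul_assoc]
    _ = x8 b * (x9 c * x8 b') * (x10 d * x9 c') * (x11 e * x10 d') * x11 e' := by
        rw [c810, c911]; simp only [mul_assoc]
    _ = _ := by rw [c89, c910, c1011]; simp only [mul_assoc]

include c89 c810 c910 c911 c1011 c78 c79 c710 c711 a9 in
theorem W_x7 (b c d e a : K) : W x8 x9 x10 x11 b c d e * x7 a = x7 a * W x8 x9 x10 x11 b (c - a * b) d e := by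
  unfold W
  calc x8 b * x9 c * x10 d * x11 e * x7 a
      = x8 b * x9 c * x10 d * (x11 e * x7 a) := by simp only [mul_assoc]
    _ = x8 b * x9 c * (x10 d * x7 a) * x11 e := by rw [c711]; simp only [mul_assoc]
    _ = x8 b * (x9 c * x7 a) * x10 d * x11 e := by rw [c710]; simp only [mul_assoc]
    _ = (x8 b * x7 a) * x9 c * x10 d * x11 e := by rw [c79]; simp only [mul_assoc]
    _ = x7 a * (x8 b * (x9 (-(a * b)) * x9 c) * x10 d * x11 e) := by rw [c78]; simp only [mul_assoc]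
    _ = _ := by rw [a9, show -(a * b) + c = c - a * b by ring]

include c1011 c68 c69 c610 c611 a11 in
theorem W_x6 (b c d e a : K) : W x8 x9 x10 x11 b c d e * x6 a = x6 a * W x8 x9 x10 x11 b c d (e - a * d) := by
  unfold W
  calc x8 b * x9 c * x10 d * x11 e * x6 a
      = x8 b * x9 c * x10 d * (x11 e * x6 a) := by simp only [mul_assoc]
    _ = x8 b * x9 c * (x10 d * x6 a) * x11 e := by rw [c611]; simp only [mul_assoc]
    _ = x8 b * (x9 c * x6 a) * x10 d * (x11 (-(a * d)) * x11 e) := by rw [c610]; simp only [mul_assoc]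
    _ = (x8 b * x6 a) * x9 c * x10 d * (x11 (-(a * d)) * x11 e) := by rw [c69]; simp only [mul_assoc]
    _ = x6 a * (x8 b * x9 c * x10 d * (x11 (-(a * d)) * x11 e)) := by rw [c68]; simp only [mul_assoc]
    _ = _ := by rw [a11, show -(a * d) + e = e - a * d by ring]

include a6 a7 a8 a9 a10 a11 c89 c810 c811 c910 c911 c1011 c78 c79 c710 c711 c68 c69 c610 c611 c76 in
theorem word_mul (T t b c d e T' t' b' c' d' e' : K) :
    x7 T * x6 t * W x8 x9 x10 x11 b c d e * (x7 T' * x6 t' * W x8 x9 x10 x11 b' c' d' e') =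
    x7 (T + T') * x6 (t + t') * W x8 x9 x10 x11 (T' * t + b + b') (T' ^ 2 * t + (c - T' * b) + c')
      (-(T' ^ 3 * t) + d + d') (-(T' ^ 3 * t ^ 2) + e - t' * (-(T' ^ 3 * t) + d) + e') := by
  have h7 := W_x7 a9 c89 c810 c910 c911 c1011 c78 c79 c710 c711
  have h6 := W_x6 a11 c1011 c68 c69 c610 c611
  have hW := W_mul a8 a9 a10 a11 c89 c810 c811 c910 c911 c1011
  have h76 : ∀ a b, x6 b * x7 a = x7 a * x6 b * W x8 x9 x10 x11 (a * b) (a ^ 2 * b) (- (a ^ 3 * b)) (- (a ^ 3 * b ^ 2)) :=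
    c76
  calc x7 T * x6 t * W x8 x9 x10 x11 b c d e * (x7 T' * x6 t' * W x8 x9 x10 x11 b' c' d' e')
      = x7 T * x6 t * (W x8 x9 x10 x11 b c d e * x7 T') * x6 t' * W x8 x9 x10 x11 b' c' d' e' := by
        simp only [mul_assoc]
    _ = x7 T * (x6 t * x7 T') * W x8 x9 x10 x11 b (c - T' * b) d e * x6 t' * W x8 x9 x10 x11 b' c' d' e' := by
        rw [h7]; simp only [mul_assoc]
    _ = (x7 T * x7 T') * x6 t * ((W x8 x9 x10 x11 (T' * t) (T' ^ 2 * t) (- (T' ^ 3 * t)) (- (T' ^ 3 * t ^ 2)) *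
          W x8 x9 x10 x11 b (c - T' * b) d e) * x6 t') * W x8 x9 x10 x11 b' c' d' e' := by
        rw [h76]; simp only [mul_assoc]
    _ = x7 (T + T') * (x6 t * x6 t') * (W x8 x9 x10 x11 (T' * t + b) (T' ^ 2 * t + (c - T' * b)) (- (T' ^ 3 * t) + d)
          (- (T' ^ 3 * t ^ 2) + e - t' * (- (T' ^ 3 * t) + d)) * W x8 x9 x10 x11 b' c' d' e') := by
        rw [hW, h6, a7]; simp only [mul_assoc]
    _ = _ := by rw [hW, a6]

end gen

section

variable {K : Type u} [Field K] [CharP K 3]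

theorem xg_comm78 (a b : K) : xg chevG2 K 8 b * xg chevG2 K 7 a = xg chevG2 K 7 a * xg chevG2 K 8 b *
    xg chevG2 K 9 (-(a * b)) := by
  rw [xg_comm G (by decide) (by decide) (by decide) (by decide) a b]
  congr 1
  have hc : chevG2.commTerms 7 8 = [(9, -2, 1, 1), (10, -3, 2, 1), (11, 3, 1, 2)] := by decide +kernel
  unfold ChevalleyDatum.commWord
  rw [hc]
  have h3 : (3 : K) = 0 := by exact_mod_cast CharP.cast_eq_zero K 3
  simp only [List.map_cons, List.map_nil, wg, List.prod_cons, List.prod_nil, mul_one, pow_one]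
  have e1 : xg chevG2 K 10 (((-3 : ℤ) : K) * (-a) ^ 2 * b) = 1 := by
    rw [show ((-3 : ℤ) : K) * (-a) ^ 2 * b = 0 by push_cast; linear_combination (-(a ^ 2 * b)) * h3]
    exact xg_zero G _
  have e2 : xg chevG2 K 11 (((3 : ℤ) : K) * -a * b ^ 2) = 1 := by
    rw [show ((3 : ℤ) : K) * -a * b ^ 2 = 0 by push_cast; linear_combination (-(a * b ^ 2)) * h3]
    exact xg_zero G _
  rw [e1, e2, mul_one, mul_one]
  congr 1
  push_cast
  linear_combination (a * b) * h3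

theorem xg_comm610 (a b : K) : xg chevG2 K 10 b * xg chevG2 K 6 a = xg chevG2 K 6 a * xg chevG2 K 10 b *
    xg chevG2 K 11 (-(a * b)) := by
  rw [xg_comm G (by decide) (by decide) (by decide) (by decide) a b]
  congr 1
  have hc : chevG2.commTerms 6 10 = [(11, 1, 1, 1)] := by decide +kernel
  unfold ChevalleyDatum.commWord
  rw [hc]
  simp only [List.map_cons, List.map_nil, wg, List.prod_cons, List.prod_nil, mul_one, pow_one]
  congr 1
  push_cast
  ring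

theorem xg_commute' {r s : ℕ} (h : (r, s) ∈ [(7, 9), (7, 10), (7, 11), (6, 8), (6, 9), (6, 11)]) (a b : K) :
    xg chevG2 K s b * xg chevG2 K r a = xg chevG2 K r a * xg chevG2 K s b := by
  have key : ∀ p ∈ [(7, 9), (7, 10), (7, 11), (6, 8), (6, 9), (6, 11)], (p.1 < chevG2.nroots ∧ p.2 < chevG2.nroots ∧
      p.2 ≠ p.1 ∧ p.2 ≠ chevG2.neg p.1 ∧ ((chevG2.commTerms p.1 p.2).all fun c => c.2.1 % 3 == 0) = true) := by
    decide +kernel
  obtain ⟨h1, h2, h3, h4, h5⟩ := key (r, s) h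
  refine (TwSpec.xg_commute_p G h1 h2 h3 h4 (fun c hc => ?_) a b).eq.symm
  rw [List.all_eq_true] at h5
  exact c3 (by simpa using h5 c hc)

theorem xword_mul (T t b c d e T' t' b' c' d' e' : K) :
    xg chevG2 K 7 T * xg chevG2 K 6 t * (xg chevG2 K 8 b * xg chevG2 K 9 c * xg chevG2 K 10 d * xg chevG2 K 11 e) *
      (xg chevG2 K 7 T' * xg chevG2 K 6 t' *
        (xg chevG2 K 8 b' * xg chevG2 K 9 c' * xg chevG2 K 10 d' * xg chevG2 K 11 e')) =
    xg chevG2 K 7 (T + T') * xg chevG2 K 6 (t + t') *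
      (xg chevG2 K 8 (T' * t + b + b') * xg chevG2 K 9 (T' ^ 2 * t + (c - T' * b) + c') *
      xg chevG2 K 10 (-(T' ^ 3 * t) + d + d') *
      xg chevG2 K 11 (-(T' ^ 3 * t ^ 2) + e - t' * (-(T' ^ 3 * t) + d) + e')) := by
  have ad : ∀ r, ∀ a b : K, xg chevG2 K r a * xg chevG2 K r b = xg chevG2 K r (a + b) := fun r a b => xg_add G r a b
  have cm : ∀ r ∈ [8, 9, 10, 11], ∀ s ∈ [8, 9, 10, 11], ∀ a b : K, xg chevG2 K r a * xg chevG2 K s b =
    xg chevG2 K s b * xg chevG2 K r a := fun r hr s hs a b => (cmU hr hs a b).eq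
  exact word_mul (x6 := xg chevG2 K 6) (x7 := xg chevG2 K 7) (x8 := xg chevG2 K 8) (x9 := xg chevG2 K 9)
    (x10 := xg chevG2 K 10) (x11 := xg chevG2 K 11) (ad 6) (ad 7) (ad 8) (ad 9) (ad 10) (ad 11)
    (cm 9 (by simp) 8 (by simp)) (cm 10 (by simp) 8 (by simp)) (cm 11 (by simp) 8 (by simp)) (cm 10 (by simp) 9 (by simp))
    (cm 11 (by simp) 9 (by simp)) (cm 11 (by simp) 10 (by simp)) xg_comm78 (xg_commute' (by simp)) (xg_commute' (by simp))
    (xg_commute' (by simp)) (xg_commute' (by simp)) (xg_commute' (by simp)) xg_comm610 (xg_commute' (by simp)) comm76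
    T t b c d e T' t' b' c' d' e'

end

section

variable {K : Type u} [Field K] [Fintype K] {m : ℕ} (hK : Fintype.card K = 3 ^ (2 * m + 1))

include hK in
/-- **the multiplication in `U`** -/
theorem UU_mul (t u v t' u' v' : K) : UU (3 ^ m) t u v * UU (3 ^ m) t' u' v' =
    UU (3 ^ m) (t + t') (u + u' - (t' ^ 3 ^ m) ^ 3 * t)
      (v + v' - t' * u + (t' ^ 3 ^ m) ^ 3 * t * t' - (t' ^ 3 ^ m) ^ 3 * t ^ 2) := by
  have hc3 := char3 hK
  have h3 : (3 : K) = 0 := by exact_mod_cast CharP.cast_eq_zero K 3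
  rw [UU_eq, UU_eq, UU_eq, xword_mul]
  have p0 : ∀ t : K, t ^ (3 ^ m + 1) = t ^ 3 ^ m * t := fun t => pow_succ _ _
  have p1 : ∀ t : K, t ^ (2 * 3 ^ m + 1) = (t ^ 3 ^ m) ^ 2 * t := fun t => by rw [pow_succ, mul_comm 2, pow_mul]
  have ps : ∀ a b : K, (a - b) ^ 3 ^ m = a ^ 3 ^ m - b ^ 3 ^ m := fun a b => sub_pow_char_pow a b m
  simp only [p0, p1, add_e hK, ps, mul_pow, hT hK]
  have e2 : (t ^ 2) ^ 3 ^ m = (t ^ 3 ^ m) ^ 2 := by rw [← pow_mul, mul_comm, pow_mul]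
  rw [e2]
  set T := t ^ 3 ^ m
  set T' := t' ^ 3 ^ m
  set U := u ^ 3 ^ m
  set U' := u' ^ 3 ^ m
  set V := v ^ 3 ^ m
  set V' := v' ^ 3 ^ m
  refine congrArg₂ _ rfl (congrArg₂ _ (congrArg₂ _ (congrArg₂ _ (congrArg _ ?_) (congrArg _ ?_)) (congrArg _ ?_))
    (congrArg _ ?_))
  · ring
  · linear_combination (-(t * T * T')) * h3 - (t' * T * T') * h3
  · ring
  · ring

end

end Cfsg.Agent.Lib.H26Ree
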