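import Mathlib

/-!
# Pairings of root groups and splitting (helper26)

Tools for computing the `p`-part of Schur multipliers of rank one groups in characteristic `p`: a biadditive pairing
`f : F → F → Z` with `f x y = f 1 (γ x * y)` is trivial unless `γ` is additive; and an abelian group `A` containing the
central subgroup `Z` splits as `[t, A] × Z` for a suitable operator `t`.
-/

set_option autoImplicit false

namespace Cfsg.Agent.Lib.H26RootMult

open Subgroup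
open scoped commutatorElement

theorem pairing_trivial {F Z : Type*} [Field F] [Group Z] (f : F → F → Z)
    (h1 : ∀ x x' y, f (x + x') y = f x y * f x' y) (h2 : ∀ x y y', f x (y + y') = f x y * f x y')
    (γ : F → F) (hγ : ∀ x, x ≠ 0 → ∀ y, f x y = f 1 (γ x * y))
    {x x' : F} (hx : x ≠ 0) (hx' : x' ≠ 0) (hxx : x + x' ≠ 0) (hne : γ (x + x') ≠ γ x + γ x') (a b : F) :
    f a b = 1 := by
  have key : ∀ y, f 1 y = 1 := by
    intro y
    set c := γ (x + x') - (γ x + γ x') with hc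
    have hc0 : c ≠ 0 := sub_ne_zero.2 hne
    have h3 : ∀ y, f 1 (c * y) = 1 := by
      intro y
      have h4 : f 1 (γ (x + x') * y) = f 1 ((γ x + γ x') * y) := by
        rw [← hγ _ hxx, h1, hγ x hx, hγ x' hx', ← h2, add_mul]
      have h5 : f 1 (c * y + (γ x + γ x') * y) = f 1 ((γ x + γ x') * y) := by
        rw [← h4]; congr 1; rw [hc]; ring
      rw [h2] at h5
      exact mul_eq_right.1 h5
    have := h3 (c⁻¹ * y)
    rwa [mul_inv_cancel_left₀ hc0] at this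
  by_cases ha : a = 0
  · subst ha
    have := h1 0 0 b
    rw [add_zero] at this
    exact (mul_eq_left.1 this.symm)
  · rw [hγ a ha, key]

section comm

variable {Γ G : Type*} [Group Γ] [Group G]

theorem comm_mul_left {x x' y : Γ} (h : ⁅x', y⁆ ∈ center Γ) : ⁅x * x', y⁆ = ⁅x, y⁆ * ⁅x', y⁆ := by
  have h' := (mem_center_iff.1 h) x
  rw [show ⁅x * x', y⁆ = x * ⁅x', y⁆ * x⁻¹ * ⁅x, y⁆ by simp only [commutatorElement_def]; group, h']
  rw [show ⁅x', y⁆ * x * x⁻¹ = ⁅x', y⁆ by group]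
  exact ((mem_center_iff.1 h) _).symm

theorem comm_mul_right {x y y' : Γ} (h : ⁅x, y'⁆ ∈ center Γ) : ⁅x, y * y'⁆ = ⁅x, y⁆ * ⁅x, y'⁆ := by
  have h' := (mem_center_iff.1 h) y
  rw [show ⁅x, y * y'⁆ = ⁅x, y⁆ * (y * ⁅x, y'⁆ * y⁻¹) by simp only [commutatorElement_def]; group, h']
  rw [show ⁅x, y'⁆ * y * y⁻¹ = ⁅x, y'⁆ by group]

theorem comm_central_left {x y z : Γ} (h : z ∈ center Γ) : ⁅x * z, y⁆ = ⁅x, y⁆ := by
  have h' := (mem_center_iff.1 h)
  simp only [commutatorElement_def, mul_inv_rev]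
  rw [show x * z * y * (z⁻¹ * x⁻¹) * y⁻¹ = x * (z * y) * z⁻¹ * x⁻¹ * y⁻¹ by group, ← h' y]
  group

theorem comm_central_right {x y z : Γ} (h : z ∈ center Γ) : ⁅x, y * z⁆ = ⁅x, y⁆ := by
  have h' := (mem_center_iff.1 h)
  simp only [commutatorElement_def, mul_inv_rev]
  rw [show x * (y * z) * x⁻¹ * (z⁻¹ * y⁻¹) = x * y * (z * x⁻¹) * z⁻¹ * y⁻¹ by group, ← h' x⁻¹]
  group

/-- commutators only depend on the images under a homomorphism with central kernel -/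
theorem comm_eq_of_map_eq {ρ : Γ →* G} (hc : ρ.ker ≤ center Γ) {x x' y y' : Γ} (hx : ρ x = ρ x') (hy : ρ y = ρ y') :
    ⁅x, y⁆ = ⁅x', y'⁆ := by
  have h1 : x'⁻¹ * x ∈ ρ.ker := by rw [MonoidHom.mem_ker, map_mul, map_inv, hx, inv_mul_cancel]
  have h2 : y'⁻¹ * y ∈ ρ.ker := by rw [MonoidHom.mem_ker, map_mul, map_inv, hy, inv_mul_cancel]
  have e1 : x = x' * (x'⁻¹ * x) := by group
  have e2 : y = y' * (y'⁻¹ * y) := by group
  rw [e1, e2, comm_central_left (hc h1), comm_central_right (hc h2)]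

theorem comm_mul_comm {x y c : Γ} (h : c * y = y * c) : ⁅x * c, y⁆ = ⁅x, y⁆ := by
  simp only [commutatorElement_def, mul_inv_rev]
  rw [show x * c * y * (c⁻¹ * x⁻¹) * y⁻¹ = x * (c * y) * c⁻¹ * x⁻¹ * y⁻¹ by group, h]
  group

/-- commutativity from the non-additivity of `γ` -/
theorem comm_trivial {F : Type*} [Field F] (e e' : F → Γ) (hz : ∀ a b, ⁅e a, e' b⁆ ∈ center Γ)
    (h1 : ∀ a a' b, ⁅e (a + a'), e' b⁆ = ⁅e a * e a', e' b⁆)
    (h2 : ∀ a b b', ⁅e a, e' (b + b')⁆ = ⁅e a, e' b * e' b'⁆)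
    (γ : F → F) (hγ : ∀ x, x ≠ 0 → ∀ y, ⁅e x, e' y⁆ = ⁅e 1, e' (γ x * y)⁆)
    {x x' : F} (hx : x ≠ 0) (hx' : x' ≠ 0) (hxx : x + x' ≠ 0) (hne : γ (x + x') ≠ γ x + γ x') (a b : F) :
    e a * e' b = e' b * e a := by
  have := pairing_trivial (fun a b => ⁅e a, e' b⁆) (fun a a' b => by rw [h1, comm_mul_left (hz a' b)])
    (fun a b b' => by rw [h2, comm_mul_right (hz a b')]) γ hγ hx hx' hxx hne a b
  exact commutatorElement_eq_one_iff_mul_comm.1 this

theorem conj_comm (s x y : Γ) : s * ⁅x, y⁆ * s⁻¹ = ⁅s * x * s⁻¹, s * y * s⁻¹⁆ := by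
  simp only [commutatorElement_def]; group

end comm

section split

variable {Γ : Type*} [Group Γ]

/-- the subgroup of commutators `[t, x]`, `x ∈ A`, for an abelian `t`-invariant subgroup `A` -/
def br (A : Subgroup Γ) (hA : ∀ x ∈ A, ∀ y ∈ A, x * y = y * x) (t : Γ) (ht : ∀ x ∈ A, t * x * t⁻¹ ∈ A) : Subgroup Γ where
  carrier := {x | ∃ y ∈ A, x = ⁅t, y⁆}
  one_mem' := ⟨1, A.one_mem, by simp⟩
  mul_mem' := by
    rintro _ _ ⟨x, hx, rfl⟩ ⟨y, hy, rfl⟩
    refine ⟨x * y, A.mul_mem hx hy, ?_⟩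
    have e1 : ⁅t, x * y⁆ = (t * x * t⁻¹) * ((t * y * t⁻¹ * y⁻¹) * x⁻¹) := by
      simp only [commutatorElement_def]; group
    rw [e1, hA _ (A.mul_mem (ht y hy) (A.inv_mem hy)) _ (A.inv_mem hx)]
    simp only [commutatorElement_def]; group
  inv_mem' := by
    rintro _ ⟨x, hx, rfl⟩
    refine ⟨x⁻¹, A.inv_mem hx, ?_⟩
    have : ⁅t, x⁻¹⁆ = (t * x * t⁻¹)⁻¹ * x := by simp only [commutatorElement_def]; group
    rw [this, hA _ (A.inv_mem (ht x hx)) _ hx]
    simp only [commutatorElement_def]; group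

variable {A : Subgroup Γ} {hA : ∀ x ∈ A, ∀ y ∈ A, x * y = y * x} {t : Γ} {ht : ∀ x ∈ A, t * x * t⁻¹ ∈ A}

theorem mem_br {x : Γ} : x ∈ br A hA t ht ↔ ∃ y ∈ A, x = ⁅t, y⁆ := Iff.rfl

theorem br_le : br A hA t ht ≤ A := by
  rintro _ ⟨y, hy, rfl⟩
  rw [commutatorElement_def]
  exact A.mul_mem (ht y hy) (A.inv_mem hy)

theorem br_inf {Z : Subgroup Γ} (hZ : Z ≤ center Γ) (N : ℕ) (htN : ∀ x ∈ A, t ^ N * x = x * t ^ N)
    (hcop : ∀ z ∈ Z, z ^ N = 1 → z = 1) {z : Γ} (hz : z ∈ Z) (hzb : z ∈ br A hA t ht) : z = 1 := by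
  obtain ⟨x, hx, e⟩ := hzb
  have hzc := mem_center_iff.1 (hZ hz)
  have h1 : t * x = z * x * t := by
    rw [e, commutatorElement_def]; group
  have h2 : ∀ n : ℕ, t ^ n * x = z ^ n * x * t ^ n := by
    intro n
    induction n with
    | zero => simp
    | succ n ih =>
      have hzn := mem_center_iff.1 (pow_mem (hZ hz) n)
      rw [pow_succ', mul_assoc, ih, ← mul_assoc, ← mul_assoc, hzn t, mul_assoc (z ^ n), h1]
      simp only [pow_succ, mul_assoc]
  have h3 := h2 N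
  rw [htN x hx, mul_assoc] at h3
  exact hcop z hz (mul_eq_right.1 (by rw [← h3]))

/-- normalisation of `[t, A]` -/
theorem br_conj {g : Γ} (hg : ∀ x ∈ A, g * x * g⁻¹ ∈ A) {c : Γ} (hgt : g * t * g⁻¹ = t * c)
    (hc : ∀ x ∈ A, c * x = x * c) {x : Γ} (hx : x ∈ br A hA t ht) : g * x * g⁻¹ ∈ br A hA t ht := by
  obtain ⟨y, hy, rfl⟩ := hx
  refine ⟨g * y * g⁻¹, hg y hy, ?_⟩
  rw [conj_comm, hgt, commutatorElement_def, commutatorElement_def]
  have := hc _ (hg y hy)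
  rw [mul_inv_rev, mul_assoc t c, this]
  group

end split

end Cfsg.Agent.Lib.H26RootMult
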