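import Cfsg.Agent.Lib.TwSpec
import Cfsg.Agent.Lib.SparseRep
import Cfsg.Agent.Lib.ChevOkF4
import Cfsg.Agent.Lib.ChevSimple

/-! The Steinberg group of type `B₂`: its natural representation as a symplectic group of degree 4 and its
representation in the Chevalley group of type `F₄` (helper26). -/

set_option autoImplicit false
set_option linter.unusedSectionVars false
set_option linter.unusedVariables false
set_option maxHeartbeats 1000000

namespace Cfsg.Agent.Lib.H26StB2
open Cfsg.Lie Cfsg.Agent.Lib.ChevX Cfsg.Agent.Lib.ChevGood Cfsg.Agent.Lib.ChevRel Cfsg.Agent.Lib.StPres Cfsg.Agent.Lib.ChevU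
  Cfsg.Agent.Lib.SparseRep
open scoped MatrixGroups Matrix

universe u v

/-! ### the natural representation -/

def colL : List (List (List (ℕ × ℕ × ℤ))) :=
  [[[(0, 0, 1), (1, 3, 1)], [(0, 1, 1)], [(0, 2, 1)], [(0, 3, 1)]],
   [[(0, 0, 1), (1, 2, -1)], [(0, 1, 1), (1, 3, 1)], [(0, 2, 1)], [(0, 3, 1)]],
   [[(0, 0, 1), (1, 1, 1)], [(0, 1, 1)], [(0, 2, 1), (1, 3, 1)], [(0, 3, 1)]],
   [[(0, 0, 1)], [(0, 1, 1), (1, 2, 1)], [(0, 2, 1)], [(0, 3, 1)]],
   [[(0, 0, 1)], [(0, 1, 1)], [(0, 2, 1), (1, 1, 1)], [(0, 3, 1)]],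
   [[(0, 0, 1)], [(0, 1, 1), (1, 0, 1)], [(0, 2, 1)], [(0, 3, 1), (1, 2, 1)]],
   [[(0, 0, 1)], [(0, 1, 1)], [(0, 2, 1), (1, 0, -1)], [(0, 3, 1), (1, 1, 1)]],
   [[(0, 0, 1)], [(0, 1, 1)], [(0, 2, 1)], [(0, 3, 1), (1, 0, 1)]]]

def dL : List (List (ℕ × ℕ)) :=
  [[(0, 1), (0, 0), (0, 0), (1, 0)], [(0, 1), (0, 1), (1, 0), (1, 0)], [(0, 1), (1, 0), (0, 1), (1, 0)],
   [(0, 0), (0, 1), (1, 0), (0, 0)], [(0, 0), (1, 0), (0, 1), (0, 0)], [(1, 0), (0, 1), (1, 0), (0, 1)],
   [(1, 0), (1, 0), (0, 1), (0, 1)], [(1, 0), (0, 0), (0, 0), (0, 1)]]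

def col4 : Col := fun r v => (colL.getD r []).getD v []

def rep4 : SRep chevB2 4 where
  col := col4
  valid := by
    have h : ∀ r < 8, ∀ v < 4, ∀ x ∈ col4 r v, x.2.1 < 4 := by decide +kernel
    exact h
  negOK := by decide +kernel
  inv := by decide +kernel
  add := by decide +kernel
  comm := by decide +kernel
  d := fun r v => (dL.getD r []).getD v (0, 0)
  diag := by decide +kernel

def enc4 : Enc (Fin 4) 4 where
  enc a := a
  inj a b h := Fin.ext h
  lt a := a.2
  surj v hv := ⟨⟨v, hv⟩, rfl⟩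

/-! ### embeddings of tabulated data -/

/-- an embedding of tabulated data (not necessarily respecting the numbering of the simple roots) -/
structure Emb (D D' : ChevalleyDatum) where
  ι : ℕ → ℕ
  lt : ∀ r < D.nroots, ι r < D'.nroots
  inj : ∀ r < D.nroots, ∀ s < D.nroots, ι r = ι s → r = s
  neg : ∀ r < D.nroots, ι (D.neg r) = D'.neg (ι r)
  comm : ∀ r < D.nroots, ∀ s < D.nroots, s ≠ r → s ≠ D.neg r → D'.commTerms (ι r) (ι s) = (D.commTerms r s).map fun c => (ι c.1, c.2)

section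
variable {D D' : ChevalleyDatum} (E : Emb D D') {K : Type u} [Field K]

/-- the images of the generators -/
noncomputable def ef (K : Type u) [Field K] {D D' : ChevalleyDatum} (E : Emb D D') : Fin D.nroots × K → GL D'.Idx K :=
  fun p => xg D' K (E.ι p.1) p.2

theorem lift_ef_stX {r : ℕ} (hr : r < D.nroots) (t : K) : FreeGroup.lift (ef K E) (D.stX r t) = xg D' K (E.ι r) t := by
  unfold ChevalleyDatum.stX
  rw [dif_pos hr, FreeGroup.lift_apply_of]; rfl

theorem lift_ef_stWord {w : List (ℕ × K)} (hw : ∀ p ∈ w, p.1 < D.nroots) :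
    FreeGroup.lift (ef K E) (D.stWord w) = wg D' K (w.map fun p => (E.ι p.1, p.2)) := by
  unfold ChevalleyDatum.stWord wg
  rw [map_list_prod, List.map_map, List.map_map]
  congr 1
  apply List.map_congr_left
  intro p hp
  exact lift_ef_stX E (hw p hp) p.2

theorem commWord_map {r s : ℕ} (hr : r < D.nroots) (hs : s < D.nroots) (h1 : s ≠ r) (h2 : s ≠ D.neg r) (t u : K) :
    (D.commWord K r s t u).map (fun p => (E.ι p.1, p.2)) = D'.commWord K (E.ι r) (E.ι s) t u := by
  unfold ChevalleyDatum.commWord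
  rw [E.comm r hr s hs h1 h2, List.map_map, List.map_map]
  rfl

theorem hWord_map {r : ℕ} (hr : r < D.nroots) (t : K) :
    (D.hWord r t).map (fun p => (E.ι p.1, p.2)) = D'.hWord (E.ι r) t := by
  unfold ChevalleyDatum.hWord ChevalleyDatum.nWord
  simp [E.neg r hr]

theorem hWord_lt (G : Good D) {r : ℕ} (hr : r < D.nroots) (t : K) : ∀ p ∈ D.hWord r t, p.1 < D.nroots := by
  unfold ChevalleyDatum.hWord ChevalleyDatum.nWord
  simp [hr, neg_lt G hr]

theorem lift_ef_rels (G : Good D) (G' : Good D') :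
    ∀ g ∈ D.steinbergRels K, FreeGroup.lift (ef K E) g = 1 := by
  rintro g ((⟨r, t, u, hr, rfl⟩ | ⟨r, s, t, u, hr, hs, h1, h2, rfl⟩) | ⟨r, t, u, hr, ht, hu, rfl⟩)
  · rw [map_mul, map_mul, map_inv, lift_ef_stX E hr, lift_ef_stX E hr, lift_ef_stX E hr, xg_add G', mul_inv_cancel]
  · have hw : ∀ p ∈ D.commWord K r s t u, p.1 < D.nroots := by
      intro p hp
      unfold ChevalleyDatum.commWord at hp
      rw [List.mem_map] at hp
      obtain ⟨c, hc, rfl⟩ := hp
      exact (commTerms_root G hr hs h1 h2 hc).1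
    rw [map_mul, map_mul, map_mul, map_mul, map_inv, map_inv, map_inv, lift_ef_stX E hr, lift_ef_stX E hs,
      lift_ef_stWord E hw, commWord_map E hr hs h1 h2,
      mul_assoc _ (xg D' K (E.ι s) u), xg_comm G' (E.lt r hr) (E.lt s hs) (fun h => h1 (E.inj s hs r hr h))
        (fun h => h2 (E.inj s hs _ (neg_lt G hr) (by rw [h, E.neg r hr])))]
    group
  · unfold ChevalleyDatum.stH
    rw [map_mul, map_mul, map_inv, lift_ef_stWord E (hWord_lt G hr _), lift_ef_stWord E (hWord_lt G hr _),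
      lift_ef_stWord E (hWord_lt G hr _), hWord_map E hr, hWord_map E hr, hWord_map E hr, wg_hWord, wg_hWord, wg_hWord,
      hg_mul G' (E.lt r hr) t u ht hu, mul_inv_cancel]

/-- the homomorphism into the larger Chevalley group -/
noncomputable def ψ (G : Good D) (G' : Good D') : D.SteinbergGroup K →* GL D'.Idx K :=
  PresentedGroup.toGroup (f := ef K E) (lift_ef_rels E G G')

theorem ψ_gen (G : Good D) (G' : Good D') {r : ℕ} (hr : r < D.nroots) (t : K) :
    ψ E G G' (D.stGen K r t) = xg D' K (E.ι r) t := by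
  unfold ChevalleyDatum.stGen
  change FreeGroup.lift (ef K E) (D.stX r t) = _
  exact lift_ef_stX E hr t

end

def ιF : List ℕ := [17, 19, 20, 22, 25, 27, 28, 30]

/-- the embedding of `B₂` as the middle nodes of `F₄` -/
def embF4 : Emb chevB2 chevF4 where
  ι r := ιF.getD r 0
  lt := by
    have h : ∀ r < 8, ιF.getD r 0 < 48 := by decide
    exact h
  inj := by
    have h : ∀ r < 8, ∀ s < 8, ιF.getD r 0 = ιF.getD s 0 → r = s := by decide
    exact h
  neg := by
    have h : ∀ r < 8, ιF.getD (chevB2.neg r) 0 = chevF4.neg (ιF.getD r 0) := by decide +kernel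
    exact h
  comm := by
    have h : ((List.range 8).all fun r => (List.range 8).all fun s => decide (s = r) || (decide (s = chevB2.neg r) ||
        decide (chevF4.commTerms (ιF.getD r 0) (ιF.getD s 0) = (chevB2.commTerms r s).map fun c => (ιF.getD c.1 0, c.2)))) = true := by
      decide +kernel
    intro r hr s hs h1 h2
    have h3 := List.all_eq_true.1 (List.all_eq_true.1 h r (List.mem_range.2 hr)) s (List.mem_range.2 hs)
    simp only [Bool.or_eq_true, decide_eq_true_eq] at h3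
    rcases h3 with h' | h' | h'
    · exact absurd h' h1
    · exact absurd h' h2
    · exact h'

/-- simplicity -/
theorem inj_of_ne {K : Type u} [Field K] [CharP K 2] (hK : ∃ a : K, a ≠ 0 ∧ a ≠ 1) {Γ : Type v} [Group Γ]
    (φ : chevB2.SteinbergGroup K →* Γ) {g : chevB2.SteinbergGroup K} (hg : φ g ≠ 1) : Function.Injective φ := by
  have hs : Function.Surjective (pr3 (K := K) ChevOkB2.good) :=
    surj_of_gen ChevOkB2.good _ fun r _ t => ⟨chevB2.stGen K r t, pr3_gen ChevOkB2.good r t⟩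
  have hi : Function.Injective (pr3 (K := K) ChevOkB2.good) := (MonoidHom.ker_eq_bot_iff _).1 TwSpec.ker_B2
  let e := MulEquiv.ofBijective _ ⟨hi, hs⟩
  haveI : IsSimpleGroup ↥(chevB2.group K) := (ChevSimple.simple (D := chevB2) (by simp) (fun _ => hK)).1
  haveI : Nontrivial (chevB2.SteinbergGroup K) := ⟨⟨g, 1, fun h => hg (by rw [h, map_one])⟩⟩
  haveI : IsSimpleGroup (chevB2.SteinbergGroup K) := IsSimpleGroup.isSimpleGroup_of_surjective e.symm.toMonoidHom e.symm.surjective
  rw [← MonoidHom.ker_eq_bot_iff]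
  rcases (inferInstance : φ.ker.Normal).eq_bot_or_eq_top with h | h
  · exact h
  · exact absurd (MonoidHom.mem_ker.1 (h ▸ Subgroup.mem_top g)) hg

end Cfsg.Agent.Lib.H26StB2
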