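import Cfsg.Agent.Lib.H26TwGF
import Cfsg.Agent.Lib.TwD4End
import Cfsg.Agent.Lib.ChevBlocks

/-! Multiplier of `³D₄(q)`: the part prime to the characteristic (helper26). -/

set_option autoImplicit false
set_option linter.unusedSectionVars false
set_option linter.unusedVariables false

universe u

namespace Cfsg.Agent.Lib.TwD4
open Cfsg.Lie Cfsg.Agent.Lib.ChevX Cfsg.Agent.Lib.ChevGood Cfsg.Agent.Lib.ChevRel Cfsg.Agent.Lib.ChevNPerm
  Cfsg.Agent.Lib.ChevClosed Cfsg.Agent.Lib.ChevBruhat Cfsg.Agent.Lib.TwFix Cfsg.Agent.Lib.TwFix.TwRk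
  Cfsg.Agent.Lib.TwTab Cfsg.Agent.Lib.TwField
open Cfsg.Agent.Lib.SchurSylow
open scoped MatrixGroups Matrix

theorem chkInv4 : tabD4.chkInv = true := by decide +kernel

section
variable {K : Type u} [Field K] [Fintype K] {q : ℕ} (hq : IsPrimePow q) (hK : Fintype.card K = q ^ 3)

include hq hK in
theorem hBH4 : ∀ j < tabD4.nz, ∀ p : K, p ≠ 0 → p ^ q ^ (tabD4.jwN j).length = p →
    BH chevD4 K q ((tabD4.jwN j).map tabD4.sim) p = 1 → p = 1 := by
  intro j hj p hp hpq h
  have hj' : j = 0 ∨ j = 1 := by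
    have : tabD4.nz = 2 := rfl
    omega
  have h0 : HOk chevD4 ([] : List (ℕ × K)) := by intro x hx; simp at hx
  have hone : HP chevD4 K ([] : List (ℕ × K)) = 1 := rfl
  rcases hj' with rfl | rfl
  · have e := BH_eq_HP (D := chevD4) (F := K) (C := tabD4) chk1D4 q (J := [0, 2, 3]) (by decide) p
    have e' : tabD4.jwN 0 = [0, 2, 3] := rfl
    rw [e'] at h hpq
    rw [e, ← hone] at h
    have hOk : HOk chevD4 (([0, 2, 3] : List ℕ).zipIdx.map fun x => (x.1, p ^ q ^ x.2)) := by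
      intro x hx
      simp only [List.zipIdx, List.map_cons, List.map_nil, List.mem_cons, List.not_mem_nil, or_false] at hx
      rcases hx with rfl | rfl | rfl
      · exact ⟨by show (_ : ℕ) < 4; norm_num, pow_ne_zero _ hp⟩
      · exact ⟨by show (_ : ℕ) < 4; norm_num, pow_ne_zero _ hp⟩
      · exact ⟨by show (_ : ℕ) < 4; norm_num, pow_ne_zero _ hp⟩
    rw [HP_eq_iff G (T hq hK) hOk h0] at h
    have g0 := h 0 (by decide)
    have g1 := h 1 (by decide)
    have hl : ∀ x ∈ (([0, 2, 3] : List ℕ).zipIdx.map fun x => (x.1, p ^ q ^ x.2)), x.1 < 4 := by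
      intro x hx; exact (hOk x hx).1
    rw [chr4 _ 0 hl (by norm_num), chr4 _ 0 (by simp) (by norm_num)] at g0
    rw [chr4 _ 1 hl (by norm_num), chr4 _ 1 (by simp) (by norm_num)] at g1
    simp [List.zipIdx] at g0 g1
    -- g0 : p^2 = 1, g1 : product of inverses
    have hneg := q_neg (sig hq hK) chk1D4 chk2D4 (sig_e hq hK) G
    have g0' : p ^ 2 = 1 := by rcases g0 with h | h <;> rw [h] <;> ring
    have hpm : p ^ q = p := by
      rcases mul_eq_zero.mp (show (p - 1) * (p + 1) = 0 by linear_combination g0') with h | h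
      · rw [sub_eq_zero.mp h, one_pow]
      · rw [eq_neg_of_add_eq_zero_left h, hneg, one_pow]
    have hpm2 : p ^ q ^ 2 = p := by rw [sq, pow_mul, hpm, hpm]
    rw [hpm, hpm2] at g1
    have g2 : p * (p * p) = 1 := by
      have := inv_eq_one.mp (show (p * (p * p))⁻¹ = 1 by rw [mul_inv, mul_inv]; simpa [mul_comm, mul_assoc] using g1)
      exact this
    calc p = p * (p ^ 2) := by rw [g0', mul_one]
      _ = p * (p * p) := by ring
      _ = 1 := g2
  · have e := BH_eq_HP (D := chevD4) (F := K) (C := tabD4) chk1D4 q (J := [1]) (by decide) p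
    have e' : tabD4.jwN 1 = [1] := rfl
    rw [e'] at h hpq
    rw [e, ← hone] at h
    have hOk : HOk chevD4 (([1] : List ℕ).zipIdx.map fun x => (x.1, p ^ q ^ x.2)) := by
      intro x hx
      simp only [List.zipIdx, List.map_cons, List.map_nil, List.mem_cons, List.not_mem_nil, or_false] at hx
      subst hx
      exact ⟨by show (_ : ℕ) < 4; norm_num, pow_ne_zero _ hp⟩
    rw [HP_eq_iff G (T hq hK) hOk h0] at h
    have g0 := h 0 (by decide)
    have hl : ∀ x ∈ (([1] : List ℕ).zipIdx.map fun x => (x.1, p ^ q ^ x.2)), x.1 < 4 := by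
      intro x hx; exact (hOk x hx).1
    rw [chr4 _ 0 hl (by norm_num), chr4 _ 0 (by simp) (by norm_num)] at g0
    simp [List.zipIdx] at g0
    exact g0

include hq hK in
theorem card_FF3 : Nat.card ↥(FF ((frob hq hK : K ≃+* K) : K →+* K) 3) = q ^ 3 := by
  have h : FF ((frob hq hK : K ≃+* K) : K →+* K) 3 = ⊤ := by
    ext t
    rw [mem_FF (q := q) _ (fun t => frob_eq hq hK t)]
    simpa using hT hK t
  rw [h, Nat.card_congr Subfield.topEquiv.toEquiv, Nat.card_eq_fintype_card, hK]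

include hq hK in
theorem card_FF1 : Nat.card ↥(FF ((frob hq hK : K ≃+* K) : K →+* K) 1) = q := by
  refine Eq.trans ?_ (card_fix (K := K) hq.pos (n := 3) (by norm_num) hK)
  apply Nat.card_congr
  refine Equiv.subtypeEquivRight (fun t => ?_)
  rw [mem_FF (q := q) _ (fun t => frob_eq hq hK t), pow_one]
  rfl

include hq hK in
theorem pStemDvd_prime_to {p : ℕ} [Fact p.Prime] [CharP K p] {r : ℕ} (hr : r.Prime) (hrp : r ≠ p) :
    PStemDvd r ↥(twistedD4 K q) 1 := by
  rw [twisted_eq (hT hK)]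
  intro Δ _ _ σ hσ hk
  have h1 := card_ker_dvd_GF (F := K) (sig hq hK) chk1D4 chk2D4 chk3D4 listed (sig_e hq hK) chkJ chk4D4 chk5D4 chkInv4
    (hone hK) (all hq hK) ((frob hq hK : K ≃+* K) : K →+* K) (fun t => frob_eq hq hK t) (hBH4 hq hK)
    (ChevBlocks.isPGroup_posUnipotent p G) σ hr hrp hσ hk
  have h2 : ∏ j : Fin tabD4.nz, (Nat.card ↥(FF ((frob hq hK : K ≃+* K) : K →+* K) (tabD4.jwN j).length) - 1) =
      (q ^ 3 - 1) * (q - 1) := by
    have : ∏ j : Fin 2, (Nat.card ↥(FF ((frob hq hK : K ≃+* K) : K →+* K) (tabD4.jwN j).length) - 1) =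
      (q ^ 3 - 1) * (q - 1) := by
      rw [Fin.prod_univ_two]
      have a1 : (tabD4.jwN ((0 : Fin 2) : ℕ)).length = 3 := rfl
      have a2 : (tabD4.jwN ((1 : Fin 2) : ℕ)).length = 1 := rfl
      rw [a1, a2, card_FF3 hq hK, card_FF1 hq hK]
    exact this
  have h3 : Nat.card ↥((chevD4.diagonalSubgroup K).subgroupOf (Γ0 chevD4 K tabD4 q)) = (q ^ 3 - 1) * (q - 1) := by
    rw [← card_H hq hK, ← Subgroup.inf_subgroupOf_right]
    exact Nat.card_congr (Subgroup.subgroupOfEquivOfLe inf_le_right).toEquiv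
  rw [h2, h3] at h1
  have h4 : 0 < (q ^ 3 - 1) * (q - 1) := by
    have h5 := hq.two_le
    have h6 : 1 < q ^ 3 := Nat.one_lt_pow (by norm_num) (by omega)
    exact Nat.mul_pos (by omega) (by omega)
  exact Nat.dvd_of_mul_dvd_mul_right h4 (by rw [one_mul]; exact h1)

end
end Cfsg.Agent.Lib.TwD4
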