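import Cfsg.Agent.Lib.H26TwDig
import Cfsg.Agent.Lib.H26TwD4A

/-! Multiplier of `³D₄(q)`, `q ≥ 3`: the `p`-part (helper26). -/

set_option autoImplicit false
set_option linter.unusedSectionVars false
set_option linter.unusedVariables false

universe u

namespace Cfsg.Agent.Lib.H26TwDig

theorem zpow_red {F : Type*} [Field F] [Finite F] {q d : ℕ} (hF : Nat.card F = q ^ d) {z : F} (hz : z ≠ 0) {X Y K : ℤ}
    (h : X = Y + ((q : ℤ) ^ d - 1) * K) : z ^ X = z ^ Y := by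
  classical
  haveI := Fintype.ofFinite F
  have h2 := FiniteField.pow_card_sub_one_eq_one z hz
  rw [← Nat.card_eq_fintype_card, hF] at h2
  have h4 : 1 ≤ q ^ d := by rw [← hF]; exact Nat.card_pos
  have h5 : ((q ^ d - 1 : ℕ) : ℤ) = (q : ℤ) ^ d - 1 := by push_cast [Nat.cast_sub h4]; ring
  have h1 : z ^ ((q : ℤ) ^ d - 1) = 1 := by rw [← h5, zpow_natCast, h2]
  rw [h, zpow_add₀ hz, zpow_mul, h1, one_zpow, mul_one]

end Cfsg.Agent.Lib.H26TwDig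

namespace Cfsg.Agent.Lib.TwD4
open Cfsg.Lie Cfsg.Agent.Lib.ChevX Cfsg.Agent.Lib.ChevGood Cfsg.Agent.Lib.ChevRel Cfsg.Agent.Lib.ChevNPerm
  Cfsg.Agent.Lib.ChevClosed Cfsg.Agent.Lib.ChevBruhat Cfsg.Agent.Lib.TwFix Cfsg.Agent.Lib.TwFix.TwRk
  Cfsg.Agent.Lib.TwTab Cfsg.Agent.Lib.TwField Cfsg.Agent.Lib.H26TwDig Cfsg.Agent.Lib.H26TwB
open Cfsg.Agent.Lib.SchurSylow
open scoped MatrixGroups Matrix

/-- parameters -/
def parD4 : List (ℤ × ℤ × ℤ × ℤ) := [(-1, 0, 0, 0), (-1, 0, 0, -1), (-1, -1, 0, -1), (0, 0, 0, -1), (-1, -1, -1, -1)]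

/-- digits of the characters -/
def EP (p : ℤ × ℤ × ℤ × ℤ) (s : ℕ) : List ℤ :=
  [p.1 * chevD4.cartan 0 s + p.2.2.1 * chevD4.cartan 2 s + p.2.1 * chevD4.cartan 3 s + p.2.2.2 * chevD4.cartan 1 s,
   p.2.1 * chevD4.cartan 0 s + p.1 * chevD4.cartan 2 s + p.2.2.1 * chevD4.cartan 3 s + p.2.2.2 * chevD4.cartan 1 s,
   p.2.2.1 * chevD4.cartan 0 s + p.2.1 * chevD4.cartan 2 s + p.1 * chevD4.cartan 3 s + p.2.2.2 * chevD4.cartan 1 s]

def ED4 (i s : ℕ) : List ℤ := EP (parD4.getD i (0, 0, 0, 0)) s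

def goodD4 (l : List ℤ) : Bool :=
  [[1, -1, -1], [-1, 1, -1], [-1, -1, 1], [-1, 1, 1], [1, -1, 1], [1, 1, -1]].contains l

def rpD4 : List ℕ := [0, 0, 0, 0, 0, 0, 14, 12, 15, 17, 22, 23]

theorem chkE : tabD4.chkE chevD4 3 5 ED4 goodD4 rpD4 23 14 22 = true := by decide +kernel

section
variable {K : Type u} [Field K] [Fintype K] {q : ℕ} (hq : IsPrimePow q) (hK : Fintype.card K = q ^ 3)

include hq hK in
theorem torD4 (p : ℤ × ℤ × ℤ × ℤ) (z : K) (hz : z ≠ 0) : ∃ h ∈ chevD4.diagonalSubgroup K ⊓ Γ0 chevD4 K tabD4 q,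
    ∀ r : Fin chevD4.nroots, Acts chevD4 h r (z ^ val q (EP p r)) := by
  obtain ⟨a0, a1, a2, b0⟩ := p
  have hF : Nat.card K = q ^ 3 := by rw [Nat.card_eq_fintype_card, hK]
  set A : ℤ := a0 + q * a1 + q ^ 2 * a2 with hA
  set B : ℤ := b0 * (1 + q + q ^ 2) with hB
  have ha : z ^ A ≠ 0 := zpow_ne_zero _ hz
  have hb : z ^ B ≠ 0 := zpow_ne_zero _ hz
  have hbq : (z ^ B) ^ q = z ^ B := by
    rw [← zpow_natCast, ← zpow_mul]
    refine zpow_red hF hz (K := b0) ?_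
    rw [hB]; ring
  refine ⟨th q (z ^ A) (z ^ B), th_mem hq hK ha hb hbq, fun r t => ?_⟩
  have hok : HOk chevD4 [(0, z ^ A), (1, z ^ B), (2, (z ^ A) ^ q), (3, (z ^ A) ^ q ^ 2)] := by
    intro x hx
    simp only [List.mem_cons, List.not_mem_nil, or_false] at hx
    rcases hx with rfl | rfl | rfl | rfl
    · exact ⟨by show (_ : ℕ) < 4; norm_num, ha⟩
    · exact ⟨by show (_ : ℕ) < 4; norm_num, hb⟩
    · exact ⟨by show (_ : ℕ) < 4; norm_num, pow_ne_zero _ ha⟩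
    · exact ⟨by show (_ : ℕ) < 4; norm_num, pow_ne_zero _ ha⟩
  have h1 := HP_conj G hok r.2 t
  unfold th
  rw [h1]
  congr 2
  unfold chr
  simp only [List.map_cons, List.map_nil, List.prod_cons, List.prod_nil, mul_one]
  rw [← zpow_natCast (z ^ A) q, ← zpow_natCast (z ^ A) (q ^ 2), ← zpow_mul, ← zpow_mul, ← zpow_mul, ← zpow_mul,
    ← zpow_mul, ← zpow_mul, ← zpow_add₀ hz, ← zpow_add₀ hz, ← zpow_add₀ hz]
  refine zpow_red hF hz (K := a2 * chevD4.cartan 2 r + (a1 + q * a2) * chevD4.cartan 3 r) ?_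
  simp only [EP, val]
  rw [hA, hB]
  push_cast
  ring

theorem copD4 (q : ℕ) (l : List ℤ) (hl : goodD4 l = true) : IsCoprime (val q l) ((q : ℤ) ^ 3 - 1) := by
  obtain ⟨m, hm⟩ : ∃ m : ℤ, (q : ℤ) * (q + 1) = 2 * m := by
    have := Int.even_mul_succ_self (q : ℤ)
    obtain ⟨m, hm⟩ := this
    exact ⟨m, by rw [hm]; ring⟩
  have hN : (q : ℤ) ^ 3 - 1 = (q - 1) * (q ^ 2 + q + 1) := by ring
  rw [hN]
  have h2 : IsCoprime (2 : ℤ) (q ^ 2 + q + 1) := ⟨-m, 1, by linear_combination hm⟩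
  have hq1 : IsCoprime (q : ℤ) (q ^ 2 + q + 1) := ⟨-(q + 1), 1, by ring⟩
  have key : ∀ v : ℤ, (∃ x : ℤ, v = -1 + (q - 1) * x ∨ v = 1 + (q - 1) * x) →
      (∃ (i : ℕ) (x : ℤ), v = 2 * q ^ i + (q ^ 2 + q + 1) * x ∨ v = -(2 * q ^ i) + (q ^ 2 + q + 1) * x) →
      IsCoprime v ((q - 1) * (q ^ 2 + q + 1) : ℤ) := by
    intro v hv1 hv2
    refine IsCoprime.mul_right ?_ ?_
    · obtain ⟨x, h | h⟩ := hv1
      · rw [h]; exact ⟨-1, x, by ring⟩
      · rw [h]; exact ⟨1, -x, by ring⟩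
    · obtain ⟨i, x, h | h⟩ := hv2
      · rw [h]
        exact (h2.mul_left (hq1.pow_left)).add_mul_left_left x
      · rw [h]
        exact ((h2.mul_left (hq1.pow_left)).neg_left).add_mul_left_left x
  have hl' : l ∈ ([[1, -1, -1], [-1, 1, -1], [-1, -1, 1], [-1, 1, 1], [1, -1, 1], [1, 1, -1]] : List (List ℤ)) :=
    List.contains_iff_mem.mp hl
  simp only [List.mem_cons, List.not_mem_nil, or_false] at hl'
  rcases hl' with rfl | rfl | rfl | rfl | rfl | rfl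
  · exact key _ ⟨-q - 2, Or.inl (by simp only [val]; ring)⟩ ⟨0, -1, Or.inl (by simp only [val]; ring)⟩
  · exact key _ ⟨-q, Or.inl (by simp only [val]; ring)⟩ ⟨1, -1, Or.inl (by simp only [val]; ring)⟩
  · exact key _ ⟨q, Or.inl (by simp only [val]; ring)⟩ ⟨2, -1, Or.inl (by simp only [val]; ring)⟩
  · exact key _ ⟨q + 2, Or.inr (by simp only [val]; ring)⟩ ⟨0, 1, Or.inr (by simp only [val]; ring)⟩
  · exact key _ ⟨q, Or.inr (by simp only [val]; ring)⟩ ⟨1, 1, Or.inr (by simp only [val]; ring)⟩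
  · exact key _ ⟨-q, Or.inr (by simp only [val]; ring)⟩ ⟨2, 1, Or.inr (by simp only [val]; ring)⟩

include hq hK in
theorem cop_H {p : ℕ} [hp : Fact p.Prime] [CharP K p] :
    (Nat.card ↥(chevD4.diagonalSubgroup K ⊓ Γ0 chevD4 K tabD4 q)).Coprime p := by
  rw [card_H hq hK]
  have hpq : p ∣ q := by
    obtain ⟨n, -, hn⟩ := FiniteField.card K p
    rw [hK] at hn
    have h1 : p ∣ q ^ 3 := by rw [hn]; exact dvd_pow_self p n.ne_zero
    exact hp.out.dvd_of_dvd_pow h1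
  have hq0 := hq.pos
  have hc : ∀ n : ℕ, n ≠ 0 → (q ^ n - 1).Coprime p := by
    intro n hn
    refine Nat.Coprime.coprime_dvd_right (hpq.trans (dvd_pow_self q hn)) ?_
    have h1 : 1 ≤ q ^ n := Nat.one_le_pow _ _ hq0
    have h2 : (q ^ n - 1 + 1).Coprime (q ^ n - 1) := by
      rw [Nat.coprime_self_add_left]; exact Nat.coprime_one_left _
    rw [Nat.sub_add_cancel h1] at h2
    exact h2.symm
  have h1 := hc 1 one_ne_zero
  rw [pow_one] at h1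
  exact Nat.Coprime.mul_left (hc 3 (by norm_num)) h1

include hq hK in
/-- **the multiplier of `³D₄(q)`, `q ≥ 3`: the `p`-part** -/
theorem pStemDvd_char (hq3 : 3 ≤ q) {p : ℕ} [Fact p.Prime] [CharP K p] : PStemDvd p ↥(twistedD4 K q) 1 := by
  rw [twisted_eq (hT hK)]
  have hF : Nat.card K = q ^ 3 := by rw [Nat.card_eq_fintype_card, hK]
  exact pStemDvd_p_GF (sig hq hK) chk1D4 chk2D4 chk3D4 listed (sig_e hq hK) chkJ chk4D4 chk5D4
    (all hq hK) (Or.inr rfl) hq3 hF chkE (fun i _ z hz => torD4 hq hK _ z hz) (copD4 q)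
    (ChevBlocks.isPGroup_posUnipotent p G) (cop_H hq hK)

end
end Cfsg.Agent.Lib.TwD4
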