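import Cfsg.Agent.Lib.H26TwD4B
import Cfsg.Agent.Lib.H26Q8

/-! Multiplier of `³D₄(2)` (helper26). -/

set_option autoImplicit false
set_option linter.unusedSectionVars false
set_option linter.unusedVariables false

universe u

namespace Cfsg.Agent.Lib.H26TwB
open Cfsg.Lie Cfsg.Agent.Lib.ChevX Cfsg.Agent.Lib.ChevGood Cfsg.Agent.Lib.ChevRel Cfsg.Agent.Lib.ChevNPerm
  Cfsg.Agent.Lib.ChevClosed Cfsg.Agent.Lib.ChevBruhat Cfsg.Agent.Lib.TwFix Cfsg.Agent.Lib.TwFix.TwRk
  Cfsg.Agent.Lib.TwFix.TwAll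
open scoped MatrixGroups Matrix

section
variable {D : ChevalleyDatum} {F : Type u} [Field F] [Finite F] {T : TwSys D F} {R : TwRk T}

theorem Cr_mul {r : Fin D.nroots} (hr : Pos D r) {t t' : F} {g g' : GL D.Idx F} (h : Cr R r t g) (h' : Cr R r t' g') :
    Cr R r (t + t') (g * g') := co_mul (closed_posS T.G) hr h h'

theorem Cr_inv {r : Fin D.nroots} (hr : Pos D r) {t : F} {g : GL D.Idx F} (h : Cr R r t g) : Cr R r (-t) g⁻¹ :=
  co_inv (closed_posS T.G) hr h

theorem Cr_up {r : Fin D.nroots} (hr : Pos D r) {t : F} {g : GL D.Idx F} (h : Cr R r t g) :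
    g ∈ XS D F (R.up (posS D) (R.rk r)) := co_mem hr h

theorem Cr_ne {r s : Fin D.nroots} (hs : Pos D s) (h1 : R.rk r ≤ R.rk s) (h2 : s ≠ r) (a : F) : Cr R r 0 (xg D F s a) := by
  unfold Cr Co
  rw [xg_zero T.G, inv_one, one_mul]
  exact xg_mem_XS (A := R.up (posS D) (R.rk r) \ {r}) ⟨⟨hs, h1⟩, h2⟩ a

theorem Cr_conj {r : Fin D.nroots} (hr : Pos D r) {t : F} {g u : GL D.Idx F} (hu : u ∈ D.posUnipotent F)
    (h : Cr R r t g) : Cr R r t (u * g * u⁻¹) := by
  have h1 := comm_up R (R.rk r) (Cr_up hr h) hu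
  have h2 : Cr R r 0 (g * u * g⁻¹ * u⁻¹) := cr_of_mem h1
  have h3 := Cr_mul hr (Cr_inv hr h2) h
  rw [neg_zero, zero_add] at h3
  have e : (g * u * g⁻¹ * u⁻¹)⁻¹ * g = u * g * u⁻¹ := by group
  rwa [e] at h3

/-- `U` is contained in every subgroup with the right coordinates -/
theorem up_le_rep {M : Subgroup (GL D.Idx F)} (hM : M ≤ T.fix)
    (hL : ∀ q, (∃ r, Pos D r ∧ R.rk r = q) → ∃ r, Pos D r ∧ R.rk r = q ∧ ∀ t ∈ Tset T r, ∃ y ∈ M, Cr R r t y) :
    D.posUnipotent F ⊓ T.fix ≤ M := by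
  have key : ∀ m q : ℕ, (∀ r, R.rk r < m + q) → XS D F (R.up (posS D) q) ⊓ T.fix ≤ M := by
    intro m
    induction m with
    | zero =>
      intro q hq g hg
      have h1 : R.up (posS D) q = ∅ := by
        ext r
        simp only [TwRk.up, Set.mem_ofPred_eq, Set.mem_empty_iff_false, iff_false, not_and, not_le]
        intro _
        have := hq r
        omega
      rw [h1] at hg
      have h2 : XS D F (∅ : Set (Fin D.nroots)) = ⊥ := by unfold XS; simp
      rw [h2] at hg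
      rw [Subgroup.mem_bot.mp hg.1]
      exact one_mem _
    | succ m ih =>
      intro q hq g hg
      by_cases hex : ∃ r, Pos D r ∧ R.rk r = q
      · obtain ⟨r, hr, rfl, hy⟩ := hL q hex
        obtain ⟨t, htT, ht⟩ := cr_exists hr hg.1 hg.2
        obtain ⟨y, hy, hyt⟩ := hy t htT
        have h1 := Cr_mul hr (Cr_inv hr hyt) ht
        rw [neg_add_cancel] at h1
        have h2 := cr_zero hr (mul_mem (inv_mem (hM hy)) hg.2) h1
        have h3 := ih (R.rk r + 1) (fun r' => by have := hq r'; omega)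
          ⟨h2, T.fix.mul_mem (T.fix.inv_mem (hM hy)) hg.2⟩
        have h4 : g = y * (y⁻¹ * g) := by group
        rw [h4]
        exact mul_mem hy h3
      · have h1 : R.up (posS D) q = R.up (posS D) (q + 1) := by
          push Not at hex
          exact up_eq_succ hex
        rw [h1] at hg
        exact ih (q + 1) (fun r' => by have := hq r'; omega) hg
  have h1 : ∃ m, ∀ r, R.rk r < m := by
    refine ⟨Finset.univ.sup R.rk + 1, fun r => ?_⟩
    have : R.rk r ≤ Finset.univ.sup R.rk := Finset.le_sup (Finset.mem_univ r)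
    omega
  obtain ⟨m, hm⟩ := h1
  have h2 := key m 0 hm
  have h3 : R.up (posS D) 0 = posS D := by ext r; exact ⟨fun h => h.1, fun h => ⟨h, Nat.zero_le _⟩⟩
  rwa [h3, XS_posS T.G] at h2

end
end Cfsg.Agent.Lib.H26TwB

namespace Cfsg.Agent.Lib.TwD4
open Cfsg.Lie Cfsg.Agent.Lib.ChevX Cfsg.Agent.Lib.ChevGood Cfsg.Agent.Lib.ChevRel Cfsg.Agent.Lib.ChevNPerm
  Cfsg.Agent.Lib.ChevClosed Cfsg.Agent.Lib.ChevBruhat Cfsg.Agent.Lib.TwFix Cfsg.Agent.Lib.TwFix.TwRk
  Cfsg.Agent.Lib.TwTab Cfsg.Agent.Lib.TwField Cfsg.Agent.Lib.H26TwDig Cfsg.Agent.Lib.H26TwB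
open Cfsg.Agent.Lib.SchurSylow
open scoped MatrixGroups Matrix

/-! ### commutators of root elements in characteristic two -/

/-- the two root groups commute -/
def c0 (r s : ℕ) : Bool := Nat.blt r 24 && Nat.blt s 24 && (s != r) && (s != 23 - r) && (chevD4.commTerms r s).isEmpty

/-- the commutator of the two root groups is the root group of `k` -/
def c1 (r s k : ℕ) : Bool := Nat.blt r 24 && Nat.blt s 24 && (s != r) && (s != 23 - r) &&
  (chevD4.commTerms r s == [(k, (1, (1, 1)))] || chevD4.commTerms r s == [(k, (-1, (1, 1)))])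

section
variable {K : Type u} [Field K]

theorem cx0 {r s : ℕ} (h : c0 r s = true) (a b : K) : xg chevD4 K s b * xg chevD4 K r a * (xg chevD4 K s b)⁻¹ = xg chevD4 K r a := by
  have hn : chevD4.nroots = 24 := rfl
  simp only [c0, Bool.and_eq_true, Nat.blt_eq, bne_iff_ne, List.isEmpty_iff] at h
  obtain ⟨⟨⟨⟨h1, h2⟩, h3⟩, h4⟩, h5⟩ := h
  have h6 := xg_comm (F := K) G (show r < chevD4.nroots by rw [hn]; exact h1) (show s < chevD4.nroots by rw [hn]; exact h2) h3
    (by rw [G.neg_eq r (by rw [hn]; exact h1), hn]; exact h4) a b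
  unfold ChevalleyDatum.commWord wg at h6
  rw [h5] at h6
  simp only [List.map_nil, List.prod_nil, mul_one] at h6
  rw [h6]; group

theorem cx1 (h2 : (2 : K) = 0) {r s k : ℕ} (h : c1 r s k = true) (hk : c0 k s = true) (a b : K) :
    xg chevD4 K s b * xg chevD4 K r a * (xg chevD4 K s b)⁻¹ = xg chevD4 K r a * xg chevD4 K k (a * b) := by
  have hn : chevD4.nroots = 24 := rfl
  have hk' := cx0 hk (a * b) b
  simp only [c1, Bool.and_eq_true, Nat.blt_eq, bne_iff_ne, Bool.or_eq_true, beq_iff_eq] at h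
  obtain ⟨⟨⟨⟨g1, g2⟩, g3⟩, g4⟩, g5⟩ := h
  have h6 := xg_comm (F := K) G (show r < chevD4.nroots by rw [hn]; exact g1) (show s < chevD4.nroots by rw [hn]; exact g2) g3
    (by rw [G.neg_eq r (by rw [hn]; exact g1), hn]; exact g4) a b
  have hneg : ∀ t : K, -t = t := fun t => by linear_combination -t * h2
  have h7 : xg chevD4 K s b * xg chevD4 K r a = xg chevD4 K r a * xg chevD4 K s b * xg chevD4 K k (a * b) := by
    unfold ChevalleyDatum.commWord wg at h6
    rcases g5 with g5 | g5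
    · rw [g5] at h6
      simpa [hneg] using h6
    · rw [g5] at h6
      simpa [hneg] using h6
  rw [h7]
  have h8 : xg chevD4 K s b * xg chevD4 K k (a * b) = xg chevD4 K k (a * b) * xg chevD4 K s b := by
    rw [← mul_inv_eq_iff_eq_mul]; exact hk'
  rw [mul_assoc (xg chevD4 K r a), h8]; group

end

/-! ### formulas -/

section grp
variable {A : Type*} [Group A]

theorem conj3 {g1 g2 g3 a b c d : A} (h3 : g3 * a * g3⁻¹ = b) (h2 : g2 * b * g2⁻¹ = c)
    (h1 : g1 * c * g1⁻¹ = d) : g1 * g2 * g3 * a * (g1 * g2 * g3)⁻¹ = d := by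
  rw [← h1, ← h2, ← h3]; group

theorem conjm {g a b c d : A} (h1 : g * a * g⁻¹ = c) (h2 : g * b * g⁻¹ = d) :
    g * (a * b) * g⁻¹ = c * d := by
  rw [← h1, ← h2]; group

end grp

/-- the relations -/
structure Rels (K : Type*) [Field K] {A : Type*} [Group A] (X : ℕ → K → A) : Prop where
  r0 : ∀ r s, c0 r s = true → ∀ a b, X s b * X r a * (X s b)⁻¹ = X r a
  r1 : ∀ r s k, c1 r s k = true → c0 k s = true → ∀ a b, X s b * X r a * (X s b)⁻¹ = X r a * X k (a * b)

theorem t1_14_12 : c1 14 12 15 = true ∧ c0 15 12 = true := by decide +kernel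
theorem t1_14_13 : c1 14 13 16 = true ∧ c0 16 13 = true := by decide +kernel
theorem t1_15_13 : c1 15 13 17 = true ∧ c0 17 13 = true := by decide +kernel
theorem t1_14_18 : c1 14 18 19 = true ∧ c0 19 18 = true := by decide +kernel
theorem t1_16_18 : c1 16 18 21 = true ∧ c0 21 18 = true := by decide +kernel
theorem t1_15_18 : c1 15 18 20 = true ∧ c0 20 18 = true := by decide +kernel
theorem t1_17_18 : c1 17 18 22 = true ∧ c0 22 18 = true := by decide +kernel
theorem t1_19_12 : c1 19 12 20 = true ∧ c0 20 12 = true := by decide +kernel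
theorem t1_19_13 : c1 19 13 21 = true ∧ c0 21 13 = true := by decide +kernel
theorem t1_20_13 : c1 20 13 22 = true ∧ c0 22 13 = true := by decide +kernel
theorem t1_16_12 : c1 16 12 17 = true ∧ c0 17 12 = true := by decide +kernel
theorem t1_21_12 : c1 21 12 22 = true ∧ c0 22 12 = true := by decide +kernel
theorem t1_22_14 : c1 22 14 23 = true ∧ c0 23 14 = true := by decide +kernel
theorem t0_15_12 : c0 15 12 = true := by decide +kernel

section form
variable {K : Type*} [Field K] {A : Type*} [Group A] {X : ℕ → K → A} (H : Rels K X)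
include H

theorem R1 {r s k : ℕ} (h : c1 r s k = true ∧ c0 k s = true) (a b : K) :
    X s b * X r a * (X s b)⁻¹ = X r a * X k (a * b) := H.r1 r s k h.1 h.2 a b

theorem conj14 (a b c d : K) : X 18 a * X 13 b * X 12 c * X 14 d * (X 18 a * X 13 b * X 12 c)⁻¹ =
    X 14 d * X 19 (d * a) * (X 16 (d * b) * X 21 (d * b * a)) *
      (X 15 (d * c) * X 20 (d * c * a) * (X 17 (d * c * b) * X 22 (d * c * b * a))) :=
  conj3 (R1 H t1_14_12 d c) (conjm (R1 H t1_14_13 d b) (R1 H t1_15_13 (d * c) b))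
    (conjm (conjm (R1 H t1_14_18 d a) (R1 H t1_16_18 (d * b) a))
      (conjm (R1 H t1_15_18 (d * c) a) (R1 H t1_17_18 (d * c * b) a)))

theorem conj19 (a b c u : K) : X 18 a * X 13 b * X 12 c * X 19 u * (X 18 a * X 13 b * X 12 c)⁻¹ =
    X 19 u * X 21 (u * b) * (X 20 (u * c) * X 22 (u * c * b)) :=
  conj3 (R1 H t1_19_12 u c) (conjm (R1 H t1_19_13 u b) (R1 H t1_20_13 (u * c) b))
    (conjm (conjm (H.r0 19 18 t1_14_18.2 _ _) (H.r0 21 18 t1_16_18.2 _ _))
      (conjm (H.r0 20 18 t1_15_18.2 _ _) (H.r0 22 18 t1_17_18.2 _ _)))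

theorem conj16 (a b c v : K) : X 18 a * X 13 b * X 12 c * X 16 v * (X 18 a * X 13 b * X 12 c)⁻¹ =
    X 16 v * X 21 (v * a) * (X 17 (v * c) * X 22 (v * c * a)) :=
  conj3 (R1 H t1_16_12 v c) (conjm (H.r0 16 13 t1_14_13.2 _ _) (H.r0 17 13 t1_15_13.2 _ _))
    (conjm (R1 H t1_16_18 v a) (R1 H t1_17_18 (v * c) a))

theorem conj15 (a b c w : K) : X 18 a * X 13 b * X 12 c * X 15 w * (X 18 a * X 13 b * X 12 c)⁻¹ =
    X 15 w * X 20 (w * a) * (X 17 (w * b) * X 22 (w * b * a)) :=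
  conj3 (H.r0 15 12 t0_15_12 w c) (R1 H t1_15_13 w b)
    (conjm (R1 H t1_15_18 w a) (R1 H t1_17_18 (w * b) a))

theorem conj17 (a b c u : K) : X 18 a * X 13 b * X 12 c * X 17 u * (X 18 a * X 13 b * X 12 c)⁻¹ =
    X 17 u * X 22 (u * a) :=
  conj3 (H.r0 17 12 t1_16_12.2 u c) (H.r0 17 13 t1_15_13.2 u b) (R1 H t1_17_18 u a)

theorem conj20 (a b c u : K) : X 18 a * X 13 b * X 12 c * X 20 u * (X 18 a * X 13 b * X 12 c)⁻¹ =
    X 20 u * X 22 (u * b) :=
  conj3 (H.r0 20 12 t1_19_12.2 u c) (R1 H t1_20_13 u b)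
    (conjm (H.r0 20 18 t1_15_18.2 _ _) (H.r0 22 18 t1_17_18.2 _ _))

theorem conj21 (a b c u : K) : X 18 a * X 13 b * X 12 c * X 21 u * (X 18 a * X 13 b * X 12 c)⁻¹ =
    X 21 u * X 22 (u * c) :=
  conj3 (R1 H t1_21_12 u c) (conjm (H.r0 21 13 t1_19_13.2 _ _) (H.r0 22 13 t1_20_13.2 _ _))
    (conjm (H.r0 21 18 t1_16_18.2 _ _) (H.r0 22 18 t1_17_18.2 _ _))

theorem conj22 (a b : K) : X 14 a * X 22 b * (X 14 a)⁻¹ = X 22 b * X 23 (b * a) := R1 H t1_22_14 b a

end form

theorem rels {K : Type u} [Field K] (h2 : (2 : K) = 0) : Rels K (xg chevD4 K) :=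
  ⟨fun r s h a b => cx0 h a b, fun r s k h h' a b => cx1 h2 h h' a b⟩

end Cfsg.Agent.Lib.TwD4
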