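import Cfsg.Agent.Lib.H26TwD4Q

/-! Multiplier of `³D₄(2)`: the structure of `U` (helper26). -/

set_option autoImplicit false
set_option linter.unusedSectionVars false
set_option linter.unusedVariables false
set_option maxHeartbeats 1000000

universe u

namespace Cfsg.Agent.Lib.H26TwB
open Cfsg.Lie Cfsg.Agent.Lib.ChevX Cfsg.Agent.Lib.ChevGood Cfsg.Agent.Lib.ChevRel Cfsg.Agent.Lib.ChevNPerm
  Cfsg.Agent.Lib.ChevClosed Cfsg.Agent.Lib.ChevBruhat Cfsg.Agent.Lib.TwFix Cfsg.Agent.Lib.TwFix.TwRk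
  Cfsg.Agent.Lib.TwFix.TwAll
open scoped MatrixGroups Matrix

theorem acts_ρ {D : ChevalleyDatum} {F : Type u} [Field F] (T : TwSys D F) {r : Fin D.nroots} {h : GL D.Idx F} {χ : F}
    (hf : h ∈ T.fix) (ha : Acts D h r χ) : Acts D h (T.ρ r) (χ ^ T.f r) := by
  intro u
  obtain ⟨t, ht⟩ := T.f_surj r ((T.ε r)⁻¹ * u)
  have h1 : T.s (h * xg D F r t * h⁻¹) = h * T.s (xg D F r t) * h⁻¹ := by
    rw [T.s_mul (mul_mem hf.1 (xg_mem_group T.G _ _)) (inv_mem hf.1), T.s_mul hf.1 (xg_mem_group T.G _ _),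
      T.s_inv hf.1, hf.2]
  rw [ha, T.s_x, T.s_x, mul_pow, ht] at h1
  rw [mul_inv_cancel_left₀ (T.ε_ne r)] at h1
  rw [← h1]
  congr 1
  have := T.ε_ne r
  field_simp

end Cfsg.Agent.Lib.H26TwB

namespace Cfsg.Agent.Lib.TwD4
open Cfsg.Lie Cfsg.Agent.Lib.ChevX Cfsg.Agent.Lib.ChevGood Cfsg.Agent.Lib.ChevRel Cfsg.Agent.Lib.ChevNPerm
  Cfsg.Agent.Lib.ChevClosed Cfsg.Agent.Lib.ChevBruhat Cfsg.Agent.Lib.TwFix Cfsg.Agent.Lib.TwFix.TwRk
  Cfsg.Agent.Lib.TwTab Cfsg.Agent.Lib.TwField Cfsg.Agent.Lib.H26TwDig Cfsg.Agent.Lib.H26TwB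
open Cfsg.Agent.Lib.SchurSylow
open scoped MatrixGroups Matrix

section
variable {K : Type u} [Field K]

theorem comm0 {r s : ℕ} (h : c0 r s = true) (a b : K) : Commute (xg chevD4 K r a) (xg chevD4 K s b) := by
  have h1 := cx0 h a b
  exact (mul_inv_eq_iff_eq_mul.mp h1).symm

/-- products over an orbit of length three -/
noncomputable def y3 (K : Type u) [Field K] (a b c : ℕ) (t : K) : GL chevD4.Idx K :=
  xg chevD4 K a t * xg chevD4 K b (t ^ 2) * xg chevD4 K c (t ^ 4)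

variable [Fintype K] (hq : IsPrimePow 2) (hK : Fintype.card K = 2 ^ 3)

/-- the ranks -/
noncomputable abbrev RR : TwRk (T hq hK) := rkS (sig hq hK) chk1D4 chk2D4 listed chk4D4 hp0

include hK in
theorem two0 : (2 : K) = 0 := by
  haveI : CharP K 2 := char_of_card Nat.prime_two hK
  exact_mod_cast CharP.cast_eq_zero K 2

include hK in
theorem pow8 (t : K) : t ^ 8 = t := by
  have := FiniteField.pow_card t
  rw [hK] at this
  exact this

theorem s_xg {r : ℕ} (hr : r < 24) (t : K) :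
    (T hq hK).s (xg chevD4 K r t) = xg chevD4 K (tabD4.rh r) (t ^ 2) := by
  have h := (T hq hK).s_x (⟨r, hr⟩ : Fin chevD4.nroots) t
  have h1 : (T hq hK).ε (⟨r, hr⟩ : Fin chevD4.nroots) = 1 := by
    have h3 : (T hq hK).ε (⟨r, hr⟩ : Fin chevD4.nroots) = 1 ∨ (T hq hK).ε (⟨r, hr⟩ : Fin chevD4.nroots) = -1 :=
      (sig hq hK).eps_one chk1D4 chk2D4 r hr
    rcases h3 with h3 | h3
    · exact h3
    · rw [h3]; linear_combination -(two0 hK)
  rw [h1, one_mul] at h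
  exact h

theorem y3_fix {a b c : ℕ} (ha : a < 24) (hb : b < 24) (hc : c < 24) (hab : tabD4.rh a = b) (hbc : tabD4.rh b = c)
    (hca : tabD4.rh c = a) (c1 : c0 a b = true) (c2 : c0 a c = true) (t : K) : y3 K a b c t ∈ (T hq hK).fix := by
  unfold y3
  have m1 := xg_mem_group (F := K) G a t
  have m2 := xg_mem_group (F := K) G b (t ^ 2)
  have m3 := xg_mem_group (F := K) G c (t ^ 4)
  refine ⟨mul_mem (mul_mem m1 m2) m3, ?_⟩
  rw [(T hq hK).s_mul (mul_mem m1 m2) m3, (T hq hK).s_mul m1 m2, s_xg hq hK ha, s_xg hq hK hb, s_xg hq hK hc, hab, hbc, hca]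
  have e1 : (t ^ 2) ^ 2 = t ^ 4 := by ring
  have e2 : (t ^ 4) ^ 2 = t := by rw [← pow_mul]; exact pow8 hK t
  rw [e1, e2]
  have h1 := (comm0 c1 t (t ^ 2)).mul_right (comm0 c2 t (t ^ 4))
  rw [← h1.eq, mul_assoc]

include hK in
theorem y3_add {a b c : ℕ} (ha : a < 24) (hb : b < 24) (hc : c < 24) (c1 : c0 a b = true) (c2 : c0 a c = true)
    (c3 : c0 b c = true) (t u : K) : y3 K a b c (t + u) = y3 K a b c t * y3 K a b c u := by
  unfold y3
  have h2 := two0 hK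
  have e1 : (t + u) ^ 2 = t ^ 2 + u ^ 2 := by linear_combination t * u * h2
  have e2 : (t + u) ^ 4 = t ^ 4 + u ^ 4 := by linear_combination (2 * t ^ 3 * u + 3 * t ^ 2 * u ^ 2 + 2 * t * u ^ 3) * h2
  rw [e1, e2, ← xg_add G, ← xg_add G, ← xg_add G]
  have d1 := comm0 c1 u (t ^ 2)
  have d2 := comm0 c2 u (t ^ 4)
  have d3 := comm0 c3 (u ^ 2) (t ^ 4)
  calc xg chevD4 K a t * xg chevD4 K a u * (xg chevD4 K b (t ^ 2) * xg chevD4 K b (u ^ 2)) *
        (xg chevD4 K c (t ^ 4) * xg chevD4 K c (u ^ 4)) =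
      xg chevD4 K a t * (xg chevD4 K a u * xg chevD4 K b (t ^ 2)) * (xg chevD4 K b (u ^ 2) *
        xg chevD4 K c (t ^ 4)) * xg chevD4 K c (u ^ 4) := by group
    _ = xg chevD4 K a t * (xg chevD4 K b (t ^ 2) * xg chevD4 K a u) * (xg chevD4 K c (t ^ 4) *
        xg chevD4 K b (u ^ 2)) * xg chevD4 K c (u ^ 4) := by rw [d1.eq, d3.eq]
    _ = xg chevD4 K a t * xg chevD4 K b (t ^ 2) * (xg chevD4 K a u * xg chevD4 K c (t ^ 4)) *
        xg chevD4 K b (u ^ 2) * xg chevD4 K c (u ^ 4) := by group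
    _ = xg chevD4 K a t * xg chevD4 K b (t ^ 2) * (xg chevD4 K c (t ^ 4) * xg chevD4 K a u) *
        xg chevD4 K b (u ^ 2) * xg chevD4 K c (u ^ 4) := by rw [d2.eq]
    _ = _ := by group

theorem T01 {r : ℕ} (hr : r < 24) (hρ : tabD4.rh r = r) {t : K}
    (ht : t ∈ Tset (T hq hK) (⟨r, hr⟩ : Fin chevD4.nroots)) : t = 0 ∨ t = 1 := by
  have h1 := (ht (Fin.ext hρ)).2
  rw [s_xg hq hK hr, hρ] at h1
  have h2 := xg_inj G (show r < chevD4.nroots from hr) h1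
  have h3 : t * (t - 1) = 0 := by linear_combination h2
  rcases mul_eq_zero.mp h3 with h | h
  · exact Or.inl h
  · exact Or.inr (sub_eq_zero.mp h)

/-- the generated subgroup -/
noncomputable def MM (K : Type u) [Field K] : Subgroup (GL chevD4.Idx K) :=
  Subgroup.closure (insert (xg chevD4 K 14 1) (Set.range (y3 K 18 13 12)))

theorem v_fix : xg chevD4 K 14 1 ∈ (T hq hK).fix := by
  refine ⟨xg_mem_group G _ _, ?_⟩
  rw [s_xg hq hK (by norm_num), one_pow]; rfl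

theorem x22_fix : xg chevD4 K 22 1 ∈ (T hq hK).fix := by
  refine ⟨xg_mem_group G _ _, ?_⟩
  rw [s_xg hq hK (by norm_num), one_pow]; rfl

theorem x23_fix : xg chevD4 K 23 1 ∈ (T hq hK).fix := by
  refine ⟨xg_mem_group G _ _, ?_⟩
  rw [s_xg hq hK (by norm_num), one_pow]; rfl

theorem tc0 : c0 18 13 = true ∧ c0 18 12 = true ∧ c0 13 12 = true ∧ c0 19 16 = true ∧ c0 19 15 = true ∧ c0 16 15 = true ∧
    c0 17 20 = true ∧ c0 17 21 = true ∧ c0 20 21 = true ∧ c0 22 17 = true ∧ c0 22 20 = true ∧ c0 22 21 = true ∧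
    c0 19 14 = true ∧ c0 16 14 = true ∧ c0 21 14 = true ∧ c0 15 14 = true ∧ c0 20 14 = true ∧ c0 17 14 = true := by
  decide +kernel

theorem xi_fix (t : K) : y3 K 18 13 12 t ∈ (T hq hK).fix :=
  y3_fix hq hK (by decide) (by decide) (by decide) rfl rfl rfl tc0.1 tc0.2.1 t

theorem y1_fix (t : K) : y3 K 19 16 15 t ∈ (T hq hK).fix :=
  y3_fix hq hK (by decide) (by decide) (by decide) rfl rfl rfl tc0.2.2.2.1 tc0.2.2.2.2.1 t

theorem y2_fix (t : K) : y3 K 17 20 21 t ∈ (T hq hK).fix :=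
  y3_fix hq hK (by decide) (by decide) (by decide) rfl rfl rfl tc0.2.2.2.2.2.2.1 tc0.2.2.2.2.2.2.2.1 t

theorem MM_le : MM K ≤ (T hq hK).fix := by
  unfold MM
  rw [Subgroup.closure_le]
  rintro _ (rfl | ⟨t, rfl⟩)
  · exact v_fix hq hK
  · exact xi_fix hq hK t

theorem v_mem : xg chevD4 K 14 1 ∈ MM K := Subgroup.subset_closure (Or.inl rfl)

theorem xi_mem (t : K) : y3 K 18 13 12 t ∈ MM K := Subgroup.subset_closure (Or.inr ⟨t, rfl⟩)

/-! ### coordinates -/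

/-- roots as elements of `Fin` -/
abbrev fr (n : ℕ) (h : n < 24) : Fin chevD4.nroots := ⟨n, h⟩

theorem pos_fr {n : ℕ} (h : n < 24) (h' : 12 ≤ n) : Pos chevD4 (fr n h) := h'

theorem Crx {n : ℕ} (h : n < 24) (t : K) : Cr (RR hq hK) (fr n h) t (xg chevD4 K n t) := Cr_xg (r := fr n h) t

theorem Crn {n m : ℕ} (h : n < 24) (hm : m < 24) (hp : 12 ≤ m) (h1 : tabD4.rkN n ≤ tabD4.rkN m) (h2 : m ≠ n) (t : K) :
    Cr (RR hq hK) (fr n h) 0 (xg chevD4 K m t) :=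
  Cr_ne (r := fr n h) (s := fr m hm) hp h1 (fun h => h2 (congrArg Fin.val h)) t

theorem Crm {n : ℕ} {h : n < 24} (hp : 12 ≤ n) {t t' : K} {g g' : GL chevD4.Idx K} (h1 : Cr (RR hq hK) (fr n h) t g)
    (h2 : Cr (RR hq hK) (fr n h) t' g') : Cr (RR hq hK) (fr n h) (t + t') (g * g') :=
  Cr_mul (R := RR hq hK) (r := fr n h) hp h1 h2

theorem U_of_MM {g : GL chevD4.Idx K} (hg : g ∈ MM K) : g ∈ chevD4.posUnipotent K := by
  rw [← XS_posS G]
  have key : ∀ n (h : n < 24), 12 ≤ n → ∀ t : K, xg chevD4 K n t ∈ XS chevD4 K (posS chevD4) := fun n h hp t =>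
    xg_mem_XS (A := posS chevD4) (r := fr n h) hp t
  have hle : MM K ≤ XS chevD4 K (posS chevD4) := by
    unfold MM
    rw [Subgroup.closure_le]
    rintro _ (rfl | ⟨t, rfl⟩)
    · exact key 14 (by norm_num) (by norm_num) 1
    · exact mul_mem (mul_mem (key 18 (by norm_num) (by norm_num) _) (key 13 (by norm_num) (by norm_num) _))
        (key 12 (by norm_num) (by norm_num) _)
  exact hle hg

theorem xg_U {n : ℕ} (h : n < 24) (hp : 12 ≤ n) (t : K) : xg chevD4 K n t ∈ chevD4.posUnipotent K := by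
  rw [← XS_posS G]
  exact xg_mem_XS (A := posS chevD4) (r := fr n h) hp t

include hq hK in
/-- rank 6 -/
theorem L6 : ∀ t ∈ Tset (T hq hK) (fr 14 (by norm_num)), ∃ y ∈ MM K, Cr (RR hq hK) (fr 14 (by norm_num)) t y := by
  intro t ht
  rcases T01 hq hK (by norm_num) rfl ht with rfl | rfl
  · refine ⟨1, one_mem _, ?_⟩
    rw [← xg_zero G (D := chevD4) (F := K) 14]
    exact Crx hq hK _ 0
  · exact ⟨_, v_mem, Crx hq hK _ 1⟩

/-- rank 7 -/
theorem L7 (t : K) : ∃ y ∈ MM K, Cr (RR hq hK) (fr 12 (by norm_num)) t y := by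
  refine ⟨y3 K 18 13 12 (t ^ 2), xi_mem _, ?_⟩
  have e : (t ^ 2) ^ 4 = t := by rw [← pow_mul]; exact pow8 hK t
  unfold y3
  rw [e]
  have h1 := Crm hq hK (by norm_num) (Crm hq hK (by norm_num)
    (Crn hq hK (n := 12) (m := 18) (by norm_num) (by norm_num) (by norm_num) (by decide) (by norm_num) (t ^ 2))
    (Crn hq hK (n := 12) (m := 13) (by norm_num) (by norm_num) (by norm_num) (by decide) (by norm_num) ((t ^ 2) ^ 2)))
    (Crx hq hK (n := 12) (by norm_num) t)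
  simpa using h1

/-- the element of rank 8 -/
noncomputable def m8 (K : Type u) [Field K] (t : K) : GL chevD4.Idx K :=
  y3 K 18 13 12 t * xg chevD4 K 14 1 * (y3 K 18 13 12 t)⁻¹ * (xg chevD4 K 14 1)⁻¹

theorem m8_mem (t : K) : m8 K t ∈ MM K := mul_mem (mul_mem (mul_mem (xi_mem t) v_mem) (inv_mem (xi_mem t))) (inv_mem v_mem)

theorem Cr8 (t : K) : Cr (RR hq hK) (fr 15 (by norm_num)) (t ^ 4) (m8 K t) := by
  have h1 := conj14 (rels (two0 hK)) t (t ^ 2) (t ^ 4) 1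
  unfold m8 y3
  rw [h1]
  set g := xg chevD4 K 19 (1 * t) * (xg chevD4 K 16 (1 * t ^ 2) * xg chevD4 K 21 (1 * t ^ 2 * t)) *
      (xg chevD4 K 15 (1 * t ^ 4) * xg chevD4 K 20 (1 * t ^ 4 * t) * (xg chevD4 K 17 (1 * t ^ 4 * t ^ 2) *
        xg chevD4 K 22 (1 * t ^ 4 * t ^ 2 * t))) with hg
  have e : xg chevD4 K 14 1 * xg chevD4 K 19 (1 * t) * (xg chevD4 K 16 (1 * t ^ 2) * xg chevD4 K 21 (1 * t ^ 2 * t)) *
      (xg chevD4 K 15 (1 * t ^ 4) * xg chevD4 K 20 (1 * t ^ 4 * t) * (xg chevD4 K 17 (1 * t ^ 4 * t ^ 2) *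
        xg chevD4 K 22 (1 * t ^ 4 * t ^ 2 * t))) * (xg chevD4 K 14 1)⁻¹ =
      xg chevD4 K 14 1 * g * (xg chevD4 K 14 1)⁻¹ := by rw [hg]; simp only [mul_assoc]
  rw [e]
  refine Cr_conj (r := fr 15 (by norm_num)) (by show 12 ≤ 15; norm_num) (xg_U (n := 14) (by norm_num) (by norm_num) 1) ?_
  rw [hg]
  have n := fun m (hm : m < 24) (hp : 12 ≤ m) (h1 : tabD4.rkN 15 ≤ tabD4.rkN m) (h2 : m ≠ 15) (t : K) =>
    Crn hq hK (n := 15) (by norm_num) hm hp h1 h2 t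
  have h2 := Crm hq hK (by norm_num) (Crm hq hK (by norm_num) (n 19 (by norm_num) (by norm_num) (by decide) (by norm_num) (1 * t))
    (Crm hq hK (by norm_num) (n 16 (by norm_num) (by norm_num) (by decide) (by norm_num) (1 * t ^ 2))
      (n 21 (by norm_num) (by norm_num) (by decide) (by norm_num) (1 * t ^ 2 * t))))
    (Crm hq hK (by norm_num) (Crm hq hK (by norm_num) (Crx hq hK (n := 15) (by norm_num) (1 * t ^ 4))
      (n 20 (by norm_num) (by norm_num) (by decide) (by norm_num) (1 * t ^ 4 * t)))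
      (Crm hq hK (by norm_num) (n 17 (by norm_num) (by norm_num) (by decide) (by norm_num) (1 * t ^ 4 * t ^ 2))
        (n 22 (by norm_num) (by norm_num) (by decide) (by norm_num) (1 * t ^ 4 * t ^ 2 * t))))
  simpa using h2

theorem Cr_comm0 {n : ℕ} {h : n < 24} (hp : 12 ≤ n) {c ξ : GL chevD4.Idx K}
    (hc : c ∈ XS chevD4 K ((RR hq hK).up (posS chevD4) ((RR hq hK).rk (fr n h)))) (hξ : ξ ∈ chevD4.posUnipotent K) :
    Cr (RR hq hK) (fr n h) 0 (ξ * c * ξ⁻¹ * c⁻¹) := by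
  have h1 := inv_mem (comm_up (RR hq hK) _ hc hξ)
  have e : (c * ξ * c⁻¹ * ξ⁻¹)⁻¹ = ξ * c * ξ⁻¹ * c⁻¹ := by group
  rw [e] at h1
  exact cr_of_mem h1

/-- passing from a leading term to an arbitrary element -/
theorem lead {n n' : ℕ} {h : n < 24} {h' : n' < 24} (hp : 12 ≤ n) (hp' : 12 ≤ n')
    (hrk : tabD4.rkN n + 1 = tabD4.rkN n') {y m ξ : GL chevD4.Idx K} {t s : K}
    (hy : y ∈ (T hq hK).fix) (hm : m ∈ (T hq hK).fix) (hξ : ξ ∈ chevD4.posUnipotent K) (hyU : y ∈ chevD4.posUnipotent K)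
    (c1 : Cr (RR hq hK) (fr n h) t y) (c2 : Cr (RR hq hK) (fr n h) t m)
    (c3 : Cr (RR hq hK) (fr n' h') s (ξ * y * ξ⁻¹ * y⁻¹)) : Cr (RR hq hK) (fr n' h') s (ξ * m * ξ⁻¹ * m⁻¹) := by
  have h1 := Crm hq hK hp (Cr_inv (R := RR hq hK) (r := fr n h) hp c1) c2
  rw [neg_add_cancel] at h1
  have h2 := cr_zero (R := RR hq hK) (r := fr n h) hp (mul_mem (inv_mem hy) hm) h1
  have hrk' : (RR hq hK).rk (fr n h) + 1 = (RR hq hK).rk (fr n' h') := hrk
  rw [hrk'] at h2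
  have h3 := Cr_comm0 hq hK hp' h2 hξ
  have h4 := Cr_conj (R := RR hq hK) (r := fr n' h') hp' hyU h3
  have h5 := Crm hq hK hp' c3 h4
  rw [add_zero] at h5
  have e : ξ * y * ξ⁻¹ * y⁻¹ * (y * (ξ * (y⁻¹ * m) * ξ⁻¹ * (y⁻¹ * m)⁻¹) * y⁻¹) = ξ * m * ξ⁻¹ * m⁻¹ := by group
  rwa [e] at h5

theorem E2 (t u : K) : Cr (RR hq hK) (fr 17 (by norm_num)) (u ^ 2 * t ^ 4 + u ^ 4 * t ^ 2)
    (y3 K 18 13 12 t * y3 K 19 16 15 u * (y3 K 18 13 12 t)⁻¹ * (y3 K 19 16 15 u)⁻¹) := by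
  have H := rels (two0 hK)
  have h1 := conjm (conjm (conj19 H t (t ^ 2) (t ^ 4) u) (conj16 H t (t ^ 2) (t ^ 4) (u ^ 2)))
    (conj15 H t (t ^ 2) (t ^ 4) (u ^ 4))
  unfold y3
  rw [h1]
  set m1 := xg chevD4 K 21 (u * t ^ 2) * (xg chevD4 K 20 (u * t ^ 4) * xg chevD4 K 22 (u * t ^ 4 * t ^ 2)) with hm1
  set m2 := xg chevD4 K 21 (u ^ 2 * t) * (xg chevD4 K 17 (u ^ 2 * t ^ 4) * xg chevD4 K 22 (u ^ 2 * t ^ 4 * t)) with hm2
  set m3 := xg chevD4 K 20 (u ^ 4 * t) * (xg chevD4 K 17 (u ^ 4 * t ^ 2) * xg chevD4 K 22 (u ^ 4 * t ^ 2 * t)) with hm3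
  set A := xg chevD4 K 19 u with hA
  set B := xg chevD4 K 16 (u ^ 2) with hB
  set C := xg chevD4 K 15 (u ^ 4) with hC
  have e : A * xg chevD4 K 21 (u * t ^ 2) * (xg chevD4 K 20 (u * t ^ 4) * xg chevD4 K 22 (u * t ^ 4 * t ^ 2)) *
      (B * xg chevD4 K 21 (u ^ 2 * t) * (xg chevD4 K 17 (u ^ 2 * t ^ 4) * xg chevD4 K 22 (u ^ 2 * t ^ 4 * t))) *
      (C * xg chevD4 K 20 (u ^ 4 * t) * (xg chevD4 K 17 (u ^ 4 * t ^ 2) * xg chevD4 K 22 (u ^ 4 * t ^ 2 * t))) *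
      (A * B * C)⁻¹ = (A * m1 * A⁻¹) * ((A * B) * m2 * (A * B)⁻¹) * ((A * B * C) * m3 * (A * B * C)⁻¹) := by
    rw [hm1, hm2, hm3]; group
  rw [e]
  have hAU : A ∈ chevD4.posUnipotent K := xg_U (by norm_num) (by norm_num) u
  have hBU : B ∈ chevD4.posUnipotent K := xg_U (by norm_num) (by norm_num) _
  have hCU : C ∈ chevD4.posUnipotent K := xg_U (by norm_num) (by norm_num) _
  have n := fun m (hm : m < 24) (hp : 12 ≤ m) (h1 : tabD4.rkN 17 ≤ tabD4.rkN m) (h2 : m ≠ 17) (t : K) =>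
    Crn hq hK (n := 17) (by norm_num) hm hp h1 h2 t
  have hp17 : (12 : ℕ) ≤ 17 := by norm_num
  have c1 : Cr (RR hq hK) (fr 17 (by norm_num)) (0 + (0 + 0)) m1 :=
    Crm hq hK hp17 (n 21 (by norm_num) (by norm_num) (by decide) (by norm_num) _)
      (Crm hq hK hp17 (n 20 (by norm_num) (by norm_num) (by decide) (by norm_num) _)
        (n 22 (by norm_num) (by norm_num) (by decide) (by norm_num) _))
  have c2 : Cr (RR hq hK) (fr 17 (by norm_num)) (0 + (u ^ 2 * t ^ 4 + 0)) m2 :=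
    Crm hq hK hp17 (n 21 (by norm_num) (by norm_num) (by decide) (by norm_num) _)
      (Crm hq hK hp17 (Crx hq hK (n := 17) (by norm_num) _)
        (n 22 (by norm_num) (by norm_num) (by decide) (by norm_num) _))
  have c3 : Cr (RR hq hK) (fr 17 (by norm_num)) (0 + (u ^ 4 * t ^ 2 + 0)) m3 :=
    Crm hq hK hp17 (n 20 (by norm_num) (by norm_num) (by decide) (by norm_num) _)
      (Crm hq hK hp17 (Crx hq hK (n := 17) (by norm_num) _)
        (n 22 (by norm_num) (by norm_num) (by decide) (by norm_num) _))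
  have h2 := Crm hq hK hp17 (Crm hq hK hp17 (Cr_conj (R := RR hq hK) (r := fr 17 (by norm_num)) hp17 hAU c1)
    (Cr_conj (R := RR hq hK) (r := fr 17 (by norm_num)) hp17 (mul_mem hAU hBU) c2))
    (Cr_conj (R := RR hq hK) (r := fr 17 (by norm_num)) hp17 (mul_mem (mul_mem hAU hBU) hCU) c3)
  have e2 : (0 + (0 + 0) + (0 + (u ^ 2 * t ^ 4 + 0)) + (0 + (u ^ 4 * t ^ 2 + 0)) : K) = u ^ 2 * t ^ 4 + u ^ 4 * t ^ 2 := by ring
  rwa [e2] at h2

theorem Cr8' (t : K) : Cr (RR hq hK) (fr 15 (by norm_num)) (t ^ 4) (y3 K 19 16 15 t) := by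
  have hp : (12 : ℕ) ≤ 15 := by norm_num
  have h2 := Crm hq hK hp (Crm hq hK hp
    (Crn hq hK (n := 15) (m := 19) (by norm_num) (by norm_num) (by norm_num) (by decide) (by norm_num) t)
    (Crn hq hK (n := 15) (m := 16) (by norm_num) (by norm_num) (by norm_num) (by decide) (by norm_num) (t ^ 2)))
    (Crx hq hK (n := 15) (by norm_num) (t ^ 4))
  simpa [y3] using h2

theorem Cr9' (t : K) : Cr (RR hq hK) (fr 17 (by norm_num)) t (y3 K 17 20 21 t) := by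
  have hp : (12 : ℕ) ≤ 17 := by norm_num
  have h2 := Crm hq hK hp (Crm hq hK hp (Crx hq hK (n := 17) (by norm_num) t)
    (Crn hq hK (n := 17) (m := 20) (by norm_num) (by norm_num) (by norm_num) (by decide) (by norm_num) (t ^ 2)))
    (Crn hq hK (n := 17) (m := 21) (by norm_num) (by norm_num) (by norm_num) (by decide) (by norm_num) (t ^ 4))
  simpa [y3] using h2

theorem y3_U {a b c : ℕ} (ha : a < 24) (hb : b < 24) (hc : c < 24) (pa : 12 ≤ a) (pb : 12 ≤ b) (pc : 12 ≤ c) (t : K) :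
    y3 K a b c t ∈ chevD4.posUnipotent K :=
  mul_mem (mul_mem (xg_U ha pa _) (xg_U hb pb _)) (xg_U hc pc _)

/-- some coordinates of rank 9 -/
theorem P17 (t u : K) : ∃ y ∈ MM K, Cr (RR hq hK) (fr 17 (by norm_num)) (u ^ 2 * t ^ 4 + u ^ 4 * t ^ 2) y := by
  refine ⟨y3 K 18 13 12 t * m8 K u * (y3 K 18 13 12 t)⁻¹ * (m8 K u)⁻¹,
    mul_mem (mul_mem (mul_mem (xi_mem t) (m8_mem u)) (inv_mem (xi_mem t))) (inv_mem (m8_mem u)), ?_⟩
  exact lead hq hK (n := 15) (n' := 17) (h := by norm_num) (by norm_num) (by norm_num) (by decide) (y1_fix hq hK u)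
    (MM_le hq hK (m8_mem u)) (U_of_MM (xi_mem t))
    (y3_U (by norm_num) (by norm_num) (by norm_num) (by norm_num) (by norm_num) (by norm_num) u)
    (Cr8' hq hK u) (Cr8 hq hK u) (E2 hq hK t u)

/-- the torus normalizes the generated subgroup -/
theorem diag_y3 {a b c : ℕ} (ha : a < 24) (hb : b < 24) (hc : c < 24) (hab : tabD4.rh a = b) (hbc : tabD4.rh b = c)
    {h : GL chevD4.Idx K} (hh : h ∈ (T hq hK).fix) {χ : K} (hχ : Acts chevD4 h (fr a ha) χ) (t : K) :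
    h * y3 K a b c t * h⁻¹ = y3 K a b c (χ * t) := by
  have h1 := acts_ρ (T hq hK) hh hχ
  have e1 : (T hq hK).ρ (fr a ha) = fr b hb := Fin.ext hab
  rw [e1] at h1
  have h2 := acts_ρ (T hq hK) hh h1
  have e2 : (T hq hK).ρ (fr b hb) = fr c hc := Fin.ext hbc
  rw [e2] at h2
  have f1 : (T hq hK).f (fr a ha) = 2 := rfl
  have f2 : (T hq hK).f (fr b hb) = 2 := rfl
  rw [f1] at h1 h2
  rw [f2] at h2
  have a0 : h * xg chevD4 K a t * h⁻¹ = xg chevD4 K a (χ * t) := hχ t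
  have a1 : h * xg chevD4 K b (t ^ 2) * h⁻¹ = xg chevD4 K b (χ ^ 2 * t ^ 2) := h1 _
  have a2 : h * xg chevD4 K c (t ^ 4) * h⁻¹ = xg chevD4 K c ((χ ^ 2) ^ 2 * t ^ 4) := h2 _
  have := conjm (conjm a0 a1) a2
  unfold y3
  rw [this, mul_pow, mul_pow, ← pow_mul]

include hq hK in
theorem diag_one {n : ℕ} (hn : n < 24) (hρ : tabD4.rh n = n) {h : GL chevD4.Idx K} (hd : h ∈ chevD4.diagonalSubgroup K)
    (hh : h ∈ (T hq hK).fix) (t : K) : h * xg chevD4 K n t * h⁻¹ = xg chevD4 K n t := by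
  obtain ⟨χ, h0, -, h1⟩ := TwAll.diag_char (T hq hK) hd
  have h2 : Acts chevD4 h (fr n hn) (χ (fr n hn)) := fun t => h1 _ t
  have h3 := acts_mem_Kl (T hq hK) hh h2 (Fin.ext hρ)
  have f1 : (T hq hK).f (fr n hn) = 2 := rfl
  rw [f1] at h3
  have h4 : χ (fr n hn) * (χ (fr n hn) - 1) = 0 := by linear_combination h3
  rcases mul_eq_zero.mp h4 with h5 | h5
  · exact absurd h5 (h0 _)
  · have := h2 t
    rw [sub_eq_zero.mp h5, one_mul] at this
    exact this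

theorem MM_conj {h m : GL chevD4.Idx K} (hd : h ∈ chevD4.diagonalSubgroup K) (hh : h ∈ (T hq hK).fix) (hm : m ∈ MM K) :
    h * m * h⁻¹ ∈ MM K := by
  unfold MM at hm
  induction hm using Subgroup.closure_induction with
  | mem x hx =>
    rcases hx with rfl | ⟨t, rfl⟩
    · rw [diag_one hq hK (by norm_num) rfl hd hh]; exact v_mem
    · obtain ⟨χ, h0, -, h1⟩ := TwAll.diag_char (T hq hK) hd
      rw [diag_y3 hq hK (a := 18) (b := 13) (c := 12) (by decide) (by decide) (by decide) rfl rfl hh (χ := χ (fr 18 (by norm_num))) (fun t => h1 _ t)]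
      exact xi_mem _
  | one => simp
  | mul a b _ _ ha hb =>
    have e : h * (a * b) * h⁻¹ = h * a * h⁻¹ * (h * b * h⁻¹) := by group
    rw [e]; exact mul_mem ha hb
  | inv a _ ha =>
    have e : h * a⁻¹ * h⁻¹ = (h * a * h⁻¹)⁻¹ := by group
    rw [e]; exact inv_mem ha

/-- rank 9 -/
theorem L9 (s : K) : ∃ y ∈ MM K, Cr (RR hq hK) (fr 17 (by norm_num)) s y := by
  classical
  have hF : Nat.card K = 2 ^ 3 := by rw [Nat.card_eq_fintype_card, hK]
  obtain ⟨u, hu⟩ : ∃ u : K, u ∉ ({0, 1} : Finset K) := by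
    classical
    by_contra hcon
    push Not at hcon
    have h1 : (Finset.univ : Finset K) ⊆ {0, 1} := fun x _ => hcon x
    have h2 := Finset.card_le_card h1
    have h3 : ({0, 1} : Finset K).card ≤ 2 := Finset.card_le_two
    rw [Finset.card_univ, hK] at h2
    omega
  simp only [Finset.mem_insert, Finset.mem_singleton, not_or] at hu
  set s0 : K := u ^ 2 * 1 ^ 4 + u ^ 4 * 1 ^ 2 with hs0
  have hne : s0 ≠ 0 := by
    intro h
    have h2 := two0 hK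
    have h3 : (u * (1 + u)) ^ 2 = 0 := by rw [← h, hs0]; linear_combination (u ^ 3) * h2
    rcases mul_eq_zero.mp (pow_eq_zero_iff (two_ne_zero)|>.mp h3) with h4 | h4
    · exact hu.1 h4
    · apply hu.2
      linear_combination h4 - h2
  obtain ⟨y, hy, hc⟩ := P17 hq hK 1 u
  by_cases hs : s = 0
  · refine ⟨1, one_mem _, ?_⟩
    rw [hs, ← xg_zero G (D := chevD4) (F := K) 17]
    exact Crx hq hK _ 0
  · obtain ⟨z, hz0, hz⟩ := exists_root hF (copD4 2 [1, -1, -1] (by decide)) (c := s / s0) (div_ne_zero hs hne)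
    obtain ⟨h, hh, ha⟩ := torD4 hq hK (-1, 0, 0, 0) z hz0
    have hval : EP (-1, 0, 0, 0) 17 = [1, -1, -1] := by decide +kernel
    have h17 : Acts chevD4 h (fr 17 (by norm_num)) (s / s0) := by
      have := ha (fr 17 (by norm_num))
      rw [hval, hz] at this
      exact this
    have hf := (all hq hK).le hh.2
    refine ⟨h * y * h⁻¹, MM_conj hq hK hh.1 hf hy, ?_⟩
    have := cr_conj (R := RR hq hK) hh.1 h17 hc
    rwa [div_mul_cancel₀ _ hne] at this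

include hK in
theorem exists_tr : ∃ u : K, u * 1 + u ^ 2 * 1 ^ 2 + u ^ 4 * 1 ^ 4 = 1 := by
  classical
  have h2 := two0 hK
  set P : Polynomial K := Polynomial.X + Polynomial.X ^ 2 + Polynomial.X ^ 4 with hP
  have hd : P.natDegree = 4 := by rw [hP]; compute_degree!
  have h0 : P ≠ 0 := by
    intro h; rw [h] at hd; simp at hd
  obtain ⟨a, ha⟩ := Polynomial.exists_eval_ne_zero_of_natDegree_lt_card P h0 (by
    rw [hd, ← Nat.cast_card, Nat.card_eq_fintype_card, hK]; norm_num)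
  have e : P.eval a = a + a ^ 2 + a ^ 4 := by rw [hP]; simp
  rw [e] at ha
  have h8 := pow8 hK a
  refine ⟨a, ?_⟩
  have h3 : (a + a ^ 2 + a ^ 4) * (a + a ^ 2 + a ^ 4 - 1) = 0 := by
    linear_combination h8 + (a ^ 3 + a ^ 5 + a ^ 6) * h2
  rcases mul_eq_zero.mp h3 with h4 | h4
  · exact absurd h4 ha
  · linear_combination h4

include hK in
theorem E3 (t u : K) : y3 K 18 13 12 t * y3 K 17 20 21 u * (y3 K 18 13 12 t)⁻¹ * (y3 K 17 20 21 u)⁻¹ =
    xg chevD4 K 22 (u * t + u ^ 2 * t ^ 2 + u ^ 4 * t ^ 4) := by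
  have H := rels (two0 hK)
  have h1 := conjm (conjm (conj17 H t (t ^ 2) (t ^ 4) u) (conj20 H t (t ^ 2) (t ^ 4) (u ^ 2)))
    (conj21 H t (t ^ 2) (t ^ 4) (u ^ 4))
  unfold y3
  rw [h1, ← xg_add G, ← xg_add G]
  have d1 := fun a b : K => (comm0 tc0.2.2.2.2.2.2.2.2.2.1 a b)
  have d2 := fun a b : K => (comm0 tc0.2.2.2.2.2.2.2.2.2.2.1 a b)
  have d3 := fun a b : K => (comm0 tc0.2.2.2.2.2.2.2.2.2.2.2.1 a b)
  set A := xg chevD4 K 17 u
  set B := xg chevD4 K 20 (u ^ 2)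
  set C := xg chevD4 K 21 (u ^ 4)
  set z1 := xg chevD4 K 22 (u * t)
  set z2 := xg chevD4 K 22 (u ^ 2 * t ^ 2)
  set z3 := xg chevD4 K 22 (u ^ 4 * t ^ 4)
  have e1 : z1 * B = B * z1 := (d2 _ _).eq
  have e2 : z1 * C = C * z1 := (d3 _ _).eq
  have e3 : z2 * C = C * z2 := (d3 _ _).eq
  have e4 : z1 * A = A * z1 := (d1 _ _).eq
  have e5 : z2 * A = A * z2 := (d1 _ _).eq
  have e6 : z3 * A = A * z3 := (d1 _ _).eq
  have e7 : z2 * B = B * z2 := (d2 _ _).eq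
  have e8 : z3 * B = B * z3 := (d2 _ _).eq
  have e9 : z3 * C = C * z3 := (d3 _ _).eq
  have c1 : Commute (z1 * z2 * z3) (A * B * C) := by
    have k1 : Commute z1 (A * B * C) := ((show Commute z1 A from e4).mul_right e1).mul_right e2
    have k2 : Commute z2 (A * B * C) := ((show Commute z2 A from e5).mul_right e7).mul_right e3
    have k3 : Commute z3 (A * B * C) := ((show Commute z3 A from e6).mul_right e8).mul_right e9
    exact (k1.mul_left k2).mul_left k3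
  have h2 : A * z1 * (B * z2) * (C * z3) = z1 * z2 * z3 * (A * B * C) := by
    rw [c1.eq]
    calc A * z1 * (B * z2) * (C * z3) = A * (z1 * B) * (z2 * C) * z3 := by group
      _ = A * (B * z1) * (C * z2) * z3 := by rw [e1, e3]
      _ = A * B * (z1 * C) * z2 * z3 := by group
      _ = A * B * (C * z1) * z2 * z3 := by rw [e2]
      _ = _ := by group
  rw [h2]; group

/-- rank 10 -/
theorem L10 : ∀ t ∈ Tset (T hq hK) (fr 22 (by norm_num)), ∃ y ∈ MM K, Cr (RR hq hK) (fr 22 (by norm_num)) t y := by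
  intro t ht
  rcases T01 hq hK (by norm_num) rfl ht with rfl | rfl
  · refine ⟨1, one_mem _, ?_⟩
    rw [← xg_zero G (D := chevD4) (F := K) 22]
    exact Crx hq hK _ 0
  · obtain ⟨u, hu⟩ := exists_tr hK
    obtain ⟨m, hm, hc⟩ := L9 hq hK u
    refine ⟨y3 K 18 13 12 1 * m * (y3 K 18 13 12 1)⁻¹ * m⁻¹,
      mul_mem (mul_mem (mul_mem (xi_mem 1) hm) (inv_mem (xi_mem 1))) (inv_mem hm), ?_⟩
    refine lead hq hK (n := 17) (n' := 22) (h := by norm_num) (by norm_num) (by norm_num) (by decide) (y2_fix hq hK u)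
      (MM_le hq hK hm) (U_of_MM (xi_mem 1))
      (y3_U (by norm_num) (by norm_num) (by norm_num) (by norm_num) (by norm_num) (by norm_num) u)
      (Cr9' hq hK u) hc ?_
    rw [E3 hK, hu]
    exact Crx hq hK _ 1

/-- rank 11 -/
theorem L11 : ∀ t ∈ Tset (T hq hK) (fr 23 (by norm_num)), ∃ y ∈ MM K, Cr (RR hq hK) (fr 23 (by norm_num)) t y := by
  intro t ht
  rcases T01 hq hK (by norm_num) rfl ht with rfl | rfl
  · refine ⟨1, one_mem _, ?_⟩
    rw [← xg_zero G (D := chevD4) (F := K) 23]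
    exact Crx hq hK _ 0
  · obtain ⟨m, hm, hc⟩ := L10 hq hK 1 (fun _ => x22_fix hq hK)
    refine ⟨xg chevD4 K 14 1 * m * (xg chevD4 K 14 1)⁻¹ * m⁻¹,
      mul_mem (mul_mem (mul_mem v_mem hm) (inv_mem v_mem)) (inv_mem hm), ?_⟩
    refine lead hq hK (n := 22) (n' := 23) (h := by norm_num) (by norm_num) (by norm_num) (by decide) (x22_fix hq hK)
      (MM_le hq hK hm) (U_of_MM v_mem) (xg_U (by norm_num) (by norm_num) 1) (Crx hq hK _ 1) hc ?_
    rw [conj22 (rels (two0 hK)) 1 1, one_mul]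
    exact Cr_conj (R := RR hq hK) (r := fr 23 (by norm_num)) (by show 12 ≤ 23; norm_num)
      (xg_U (n := 22) (by norm_num) (by norm_num) 1) (Crx hq hK _ 1)

theorem U_le : chevD4.posUnipotent K ⊓ (T hq hK).fix ≤ MM K := by
  refine up_le_rep (R := RR hq hK) (MM_le hq hK) ?_
  rintro q ⟨r, hr, rfl⟩
  have h1 : ∀ n < 24, 12 ≤ n → tabD4.rkN n = 6 ∨ tabD4.rkN n = 7 ∨ tabD4.rkN n = 8 ∨ tabD4.rkN n = 9 ∨
      tabD4.rkN n = 10 ∨ tabD4.rkN n = 11 := by decide +kernel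
  have h2 : ((RR hq hK).rk r) = tabD4.rkN r := rfl
  have h3 := h1 r r.2 hr
  rw [h2]
  rcases h3 with h | h | h | h | h | h
  · exact ⟨fr 14 (by norm_num), by show 12 ≤ 14; norm_num, by rw [h]; rfl, L6 hq hK⟩
  · exact ⟨fr 12 (by norm_num), by show 12 ≤ 12; norm_num, by rw [h]; rfl, fun t _ => L7 hq hK t⟩
  · refine ⟨fr 15 (by norm_num), by show 12 ≤ 15; norm_num, by rw [h]; rfl, fun t _ => ⟨m8 K (t ^ 2), m8_mem _, ?_⟩⟩
    have := Cr8 hq hK (t ^ 2)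
    rwa [← pow_mul, pow8 hK t] at this
  · exact ⟨fr 17 (by norm_num), by show 12 ≤ 17; norm_num, by rw [h]; rfl, fun t _ => L9 hq hK t⟩
  · exact ⟨fr 22 (by norm_num), by show 12 ≤ 22; norm_num, by rw [h]; rfl, L10 hq hK⟩
  · exact ⟨fr 23 (by norm_num), by show 12 ≤ 23; norm_num, by rw [h]; rfl, L11 hq hK⟩

end

end Cfsg.Agent.Lib.TwD4
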