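import Cfsg.Agent.Lib.H26TwD4R

/-! Multiplier of `³D₄(2)` and of `³D₄(q)` (helper26). -/

set_option autoImplicit false
set_option linter.unusedSectionVars false
set_option linter.unusedVariables false
set_option maxHeartbeats 1000000

universe u

namespace Cfsg.Agent.Lib.TwD4
open Cfsg.Lie Cfsg.Agent.Lib.ChevX Cfsg.Agent.Lib.ChevGood Cfsg.Agent.Lib.ChevRel Cfsg.Agent.Lib.ChevNPerm
  Cfsg.Agent.Lib.ChevClosed Cfsg.Agent.Lib.ChevBruhat Cfsg.Agent.Lib.TwFix Cfsg.Agent.Lib.TwFix.TwRk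
  Cfsg.Agent.Lib.TwTab Cfsg.Agent.Lib.TwField Cfsg.Agent.Lib.H26TwDig Cfsg.Agent.Lib.H26TwB
open Cfsg.Agent.Lib.SchurSylow
open scoped MatrixGroups Matrix commutatorElement

section
variable {K : Type u} [Field K] [Fintype K] (hq : IsPrimePow 2) (hK : Fintype.card K = 2 ^ 3)

local notation "GG4" => gen (sig hq hK) chk1D4 chk2D4 chk3D4 listed fun j hj =>
  (Γ0_le (sig hq hK) chk1D4 chk2D4 chk3D4 listed (sig_e hq hK) chkJ)
    (nl_mem_Γ0 (sig hq hK) chk1D4 chk2D4 (sig_e hq hK) chkJ chk3D4 hj)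

theorem conj_n {j : Fin tabD4.nz} {n n' : ℕ} (hn : n < 24) (hn' : n' < 24) (hρ : tabD4.rh n = n) (hρ' : tabD4.rh n' = n')
    (hw : tabD4.wlN (tabD4.jwN j) n = n') (hf : xg chevD4 K n 1 ∈ (T hq hK).fix) :
    (GG4).nj j * xg chevD4 K n 1 * ((GG4).nj j)⁻¹ = xg chevD4 K n' 1 := by
  have h1 := (GG4).mono_nj j
  obtain ⟨-, c, hc, -, hc2⟩ := h1
  have h2 := hc2 (fr n hn) 1
  have h3 : ((wl G (jwF chk1D4 j) (fr n hn) : Fin chevD4.nroots) : ℕ) = tabD4.wlN (tabD4.jwN j) n :=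
    wlj_eq chk1D4 chk3D4 j.2 (fr n hn)
  have h4 : (GG4).wj j (fr n hn) = fr n' hn' := Fin.ext (h3.trans hw)
  rw [h4, mul_one] at h2
  have h5 : c (fr n hn) ∈ Tset (T hq hK) (fr n' hn') := by
    intro _
    rw [← h2]
    exact mul_mem (mul_mem ((GG4).nj_mem_fix j) hf) (inv_mem ((GG4).nj_mem_fix j))
  rcases T01 hq hK hn' hρ' h5 with h6 | h6
  · exact absurd h6 (hc _)
  · rw [h6] at h2; exact h2

theorem mem4 {g : GL chevD4.Idx K} (h : g ∈ (T hq hK).fix) : g ∈ Γ0 chevD4 K tabD4 2 := (all hq hK).mem_iff_fix.mpr h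

include hq hK in
theorem x23_central {u : GL chevD4.Idx K} (hu : u ∈ chevD4.posUnipotent K) (t : K) :
    xg chevD4 K 23 t * u = u * xg chevD4 K 23 t := by
  have hrk : 11 ≤ tabD4.rkN 23 := by decide +kernel
  have hrk23 : 11 ≤ (RR hq hK).rk (fr 23 (by norm_num)) := hrk
  have h1 := comm_up (RR hq hK) 11 (x := xg chevD4 K 23 t) (y := u)
    (xg_mem_XS (A := (RR hq hK).up (posS chevD4) 11) (r := fr 23 (by norm_num)) ⟨by show 12 ≤ 23; norm_num, hrk23⟩ t) hu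
  have h2 : (RR hq hK).up (posS chevD4) (11 + 1) = ∅ := by
    ext r
    simp only [Set.mem_empty_iff_false, iff_false]
    rintro ⟨-, h⟩
    have h3 : ∀ n < 24, tabD4.rkN n ≤ 11 := by decide +kernel
    have h4 : (RR hq hK).rk r ≤ 11 := h3 r r.2
    omega
  rw [h2] at h1
  have h9 : XS chevD4 K (∅ : Set (Fin chevD4.nroots)) = ⊥ := by unfold XS; simp
  rw [h9, Subgroup.mem_bot] at h1
  have h3 : xg chevD4 K 23 t * u * (u * xg chevD4 K 23 t)⁻¹ = 1 := by rw [← h1]; group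
  exact mul_inv_eq_one.mp h3

include hq hK in
theorem br4 (t : K) : xg chevD4 K 14 1 * (y3 K 18 13 12 t * xg chevD4 K 14 1 * (y3 K 18 13 12 t)⁻¹) *
    (xg chevD4 K 14 1)⁻¹ * (y3 K 18 13 12 t * xg chevD4 K 14 1 * (y3 K 18 13 12 t)⁻¹)⁻¹ = 1 ∨
    xg chevD4 K 14 1 * (y3 K 18 13 12 t * xg chevD4 K 14 1 * (y3 K 18 13 12 t)⁻¹) *
    (xg chevD4 K 14 1)⁻¹ * (y3 K 18 13 12 t * xg chevD4 K 14 1 * (y3 K 18 13 12 t)⁻¹)⁻¹ = xg chevD4 K 23 1 := by
  have H := rels (two0 hK)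
  have h1 := conj14 H t (t ^ 2) (t ^ 4) 1
  have hPU : y3 K 18 13 12 t * xg chevD4 K 14 1 * (y3 K 18 13 12 t)⁻¹ ∈ chevD4.posUnipotent K :=
    mul_mem (mul_mem (U_of_MM (xi_mem t)) (U_of_MM v_mem)) (inv_mem (U_of_MM (xi_mem t)))
  have h1' : y3 K 18 13 12 t * xg chevD4 K 14 1 * (y3 K 18 13 12 t)⁻¹ =
      xg chevD4 K 14 1 * xg chevD4 K 19 (1 * t) * (xg chevD4 K 16 (1 * t ^ 2) * xg chevD4 K 21 (1 * t ^ 2 * t)) *
      (xg chevD4 K 15 (1 * t ^ 4) * xg chevD4 K 20 (1 * t ^ 4 * t) * (xg chevD4 K 17 (1 * t ^ 4 * t ^ 2) *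
        xg chevD4 K 22 (1 * t ^ 4 * t ^ 2 * t))) := h1
  set P := y3 K 18 13 12 t * xg chevD4 K 14 1 * (y3 K 18 13 12 t)⁻¹ with hP
  have hself : xg chevD4 K 14 1 * xg chevD4 K 14 1 * (xg chevD4 K 14 1)⁻¹ = xg chevD4 K 14 1 := by group
  obtain ⟨-, -, -, -, -, -, -, -, -, -, -, -, k19, k16, k21, k15, k20, k17⟩ := tc0
  have h2 := conjm (conjm (conjm hself (H.r0 19 14 k19 (1 * t) 1))
      (conjm (H.r0 16 14 k16 (1 * t ^ 2) 1) (H.r0 21 14 k21 (1 * t ^ 2 * t) 1)))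
    (conjm (conjm (H.r0 15 14 k15 (1 * t ^ 4) 1) (H.r0 20 14 k20 (1 * t ^ 4 * t) 1))
      (conjm (H.r0 17 14 k17 (1 * t ^ 4 * t ^ 2) 1) (conj22 H 1 (1 * t ^ 4 * t ^ 2 * t))))
  rw [← h1'] at h2
  have h3 : xg chevD4 K 14 1 * P * (xg chevD4 K 14 1)⁻¹ = P * xg chevD4 K 23 (1 * t ^ 4 * t ^ 2 * t * 1) := by
    rw [h2]
    conv_rhs => rw [h1']
    simp only [mul_assoc]
  have h4 : xg chevD4 K 14 1 * P * (xg chevD4 K 14 1)⁻¹ * P⁻¹ = xg chevD4 K 23 (1 * t ^ 4 * t ^ 2 * t * 1) := by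
    rw [h3, ← x23_central hq hK hPU]; group
  rw [h4]
  by_cases ht : t = 0
  · left; subst ht
    have : (1 * (0 : K) ^ 4 * 0 ^ 2 * 0 * 1) = 0 := by ring
    rw [this, xg_zero G]
  · right
    have h8 := pow8 hK t
    have : 1 * t ^ 4 * t ^ 2 * t * 1 = 1 := by
      apply mul_left_cancel₀ ht
      linear_combination h8
    rw [this]

/-- the data for `³D₄(2)` -/
noncomputable def qdat : H26Q8.QDat ↥(Γ0 chevD4 K tabD4 2) K where
  U := (chevD4.posUnipotent K).subgroupOf (Γ0 chevD4 K tabD4 2)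
  H := (chevD4.diagonalSubgroup K).subgroupOf (Γ0 chevD4 K tabD4 2)
  ξ t := ⟨y3 K 18 13 12 t, mem4 hq hK (xi_fix hq hK t)⟩
  v := ⟨xg chevD4 K 14 1, mem4 hq hK (v_fix hq hK)⟩
  θ := ⟨xg chevD4 K 23 1, mem4 hq hK (x23_fix hq hK)⟩
  w := ⟨xg chevD4 K 22 1, mem4 hq hK (x22_fix hq hK)⟩
  na := ⟨(GG4).nj ⟨0, by decide⟩, (all hq hK).n_mem ⟨0, by decide⟩⟩
  nb := ⟨(GG4).nj ⟨1, by decide⟩, (all hq hK).n_mem ⟨1, by decide⟩⟩
  ξU t := Subgroup.mem_subgroupOf.mpr (U_of_MM (xi_mem t))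
  vU := Subgroup.mem_subgroupOf.mpr (U_of_MM v_mem)
  θU := Subgroup.mem_subgroupOf.mpr (xg_U (by norm_num) (by norm_num) 1)
  gen := by
    intro u hu
    have h1 := U_le hq hK ⟨Subgroup.mem_subgroupOf.mp hu, (all hq hK).le u.2⟩
    have h2 : MM K ≤ (Subgroup.closure (insert (⟨xg chevD4 K 14 1, mem4 hq hK (v_fix hq hK)⟩ : ↥(Γ0 chevD4 K tabD4 2))
        (Set.range fun t => (⟨y3 K 18 13 12 t, mem4 hq hK (xi_fix hq hK t)⟩ : ↥(Γ0 chevD4 K tabD4 2))))).map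
          (Γ0 chevD4 K tabD4 2).subtype := by
      unfold MM
      rw [Subgroup.closure_le]
      rintro _ (rfl | ⟨t, rfl⟩)
      · exact ⟨_, Subgroup.subset_closure (Or.inl rfl), rfl⟩
      · exact ⟨_, Subgroup.subset_closure (Or.inr ⟨t, rfl⟩), rfl⟩
    obtain ⟨u', hu', e⟩ := h2 h1
    have : u' = u := Subtype.ext e
    rw [← this]; exact hu'
  ξadd t u := Subtype.ext (y3_add hK (by norm_num) (by norm_num) (by norm_num) tc0.1 tc0.2.1 tc0.2.2.1 t u)
  cardF := by rw [Nat.card_eq_fintype_card, hK]; norm_num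
  char2 t := by linear_combination t * two0 hK
  cardU := by
    rw [← card_U hq hK, ← Subgroup.inf_subgroupOf_right]
    exact Nat.card_congr (Subgroup.subgroupOfEquivOfLe inf_le_right).toEquiv
  θne h := by
    have h1 := congrArg Subtype.val h
    have h2 := (xg_eq_one_iff G (show 23 < chevD4.nroots by decide) (1 : K)).mp h1
    exact one_ne_zero h2
  θsq := Subtype.ext (by
    show xg chevD4 K 23 1 * xg chevD4 K 23 1 = 1
    rw [xg_add G, show (1 : K) + 1 = 0 by linear_combination two0 hK, xg_zero G])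
  vsq := Subtype.ext (by
    show xg chevD4 K 14 1 * xg chevD4 K 14 1 = 1
    rw [xg_add G, show (1 : K) + 1 = 0 by linear_combination two0 hK, xg_zero G])
  θc u hu := Subtype.ext (x23_central hq hK (Subgroup.mem_subgroupOf.mp hu) 1)
  br t := by
    rcases br4 hq hK t with h | h
    · exact Or.inl (Subtype.ext h)
    · exact Or.inr (Subtype.ext h)
  Hv h hh := Subtype.ext (diag_one hq hK (by norm_num) rfl (Subgroup.mem_subgroupOf.mp hh) ((all hq hK).le h.2) 1)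
  Hθ h hh := Subtype.ext (diag_one hq hK (by norm_num) rfl (Subgroup.mem_subgroupOf.mp hh) ((all hq hK).le h.2) 1)
  tr c hc := by
    have hF : Nat.card K = 2 ^ 3 := by rw [Nat.card_eq_fintype_card, hK]
    have hcop : IsCoprime (-2 : ℤ) ((2 : ℤ) ^ 3 - 1) := ⟨3, 1, by norm_num⟩
    obtain ⟨z, hz0, hz'⟩ := exists_root hF (q := 2) (d := 3) (by exact_mod_cast hcop) hc
    have hz : z ^ (-2 : ℤ) = c := hz'
    obtain ⟨h, hh, ha⟩ := torD4 hq hK (-1, 0, 0, 0) z hz0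
    have hval : val ((2 : ℕ) : ℤ) (EP (-1, 0, 0, 0) 18) = -2 := by decide +kernel
    have h18 : Acts chevD4 h (fr 18 (by norm_num)) c := by
      have := ha (fr 18 (by norm_num))
      rw [hval, hz] at this
      exact this
    refine ⟨⟨h, hh.2⟩, Subgroup.mem_subgroupOf.mpr hh.1, fun t => Subtype.ext ?_⟩
    exact diag_y3 hq hK (a := 18) (b := 13) (c := 12) (by decide) (by decide) (by decide) rfl rfl ((all hq hK).le hh.2) h18 t
  cop := by
    have h3 : Nat.card ↥((chevD4.diagonalSubgroup K).subgroupOf (Γ0 chevD4 K tabD4 2)) = (2 ^ 3 - 1) * (2 - 1) := by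
      rw [← card_H hq hK, ← Subgroup.inf_subgroupOf_right]
      exact Nat.card_congr (Subgroup.subgroupOfEquivOfLe inf_le_right).toEquiv
    rw [h3]; decide
  naw := Subtype.ext (conj_n hq hK (n := 22) (n' := 14) (by norm_num) (by norm_num) rfl rfl (by decide +kernel) (x22_fix hq hK))
  naθ := Subtype.ext (conj_n hq hK (n := 23) (n' := 23) (by norm_num) (by norm_num) rfl rfl (by decide +kernel) (x23_fix hq hK))
  nbθ := Subtype.ext (conj_n hq hK (n := 23) (n' := 22) (by norm_num) (by norm_num) rfl rfl (by decide +kernel) (x23_fix hq hK))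
  wd := by
    obtain ⟨u, hu⟩ := exists_tr hK
    set a : ↥(Γ0 chevD4 K tabD4 2) := ⟨y3 K 18 13 12 1, mem4 hq hK (xi_fix hq hK 1)⟩ with ha
    set b : ↥(Γ0 chevD4 K tabD4 2) := ⟨y3 K 17 20 21 u, mem4 hq hK (y2_fix hq hK u)⟩ with hb
    refine ⟨⁅a, b⁆, Subgroup.commutator_mem_commutator (Subgroup.mem_subgroupOf.mpr (U_of_MM (xi_mem 1)))
      (Subgroup.mem_subgroupOf.mpr (y3_U (by norm_num) (by norm_num) (by norm_num) (by norm_num) (by norm_num)
        (by norm_num) u)), 0, ?_⟩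
    rw [zpow_zero, mul_one, commutatorElement_def]
    apply Subtype.ext
    have := E3 hK 1 u
    rw [hu] at this
    exact this.symm
  idx := by
    haveI : Fact (Nat.Prime 2) := ⟨Nat.prime_two⟩
    haveI : CharP K 2 := char_of_card Nat.prime_two hK
    exact ((all hq hK).sbn 2 (ChevBlocks.isPGroup_posUnipotent 2 G) (cop_H hq hK)).index_U_coprime Nat.prime_two

end

section
variable {K : Type u} [Field K] [Fintype K] {q : ℕ} (hq : IsPrimePow q) (hK : Fintype.card K = q ^ 3)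

include hq hK in
/-- **upper bound** -/
theorem stemDvd : StemDvd ↥(twistedD4 K q) 1 := by
  obtain ⟨p, hp⟩ := CharP.exists K
  haveI := hp
  haveI : Fact p.Prime := ⟨(CharP.char_is_prime_or_zero K p).resolve_right (CharP.char_ne_zero_of_finite K p)⟩
  apply StemDvd.of_forall
  intro r hr
  by_cases hrp : r = p
  · subst hrp
    by_cases hq3 : 3 ≤ q
    · exact pStemDvd_char hq hK hq3
    · have h2 := hq.two_le
      have hq2 : q = 2 := by omega
      subst hq2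
      have hp2 : r = 2 := CharP.eq K hp (char_of_card Nat.prime_two hK)
      subst hp2
      rw [twisted_eq (hT hK)]
      intro Δ _ _ σ hσ hk
      rw [H26Q8.QDat.main (qdat hq hK) σ hσ hk]
  · exact pStemDvd_prime_to hq hK hr hrp

end

end Cfsg.Agent.Lib.TwD4
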