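import Cfsg.Agent.Lib.TwE6End
import Cfsg.Agent.Lib.StCenter
import Cfsg.Agent.Lib.SchurSylow

/-! The triple cover of `²E₆(q)` for `3 ∣ q + 1` (helper26). -/

set_option autoImplicit false
set_option linter.unusedSectionVars false
set_option linter.unusedVariables false

universe u

namespace Cfsg.Agent.Lib.TwE6
open Cfsg.Lie Cfsg.Agent.Lib.ChevX Cfsg.Agent.Lib.ChevGood Cfsg.Agent.Lib.ChevRel Cfsg.Agent.Lib.ChevNPerm
  Cfsg.Agent.Lib.ChevClosed Cfsg.Agent.Lib.ChevBruhat Cfsg.Agent.Lib.TwFix Cfsg.Agent.Lib.TwFix.TwRk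
  Cfsg.Agent.Lib.TwTab Cfsg.Agent.Lib.TwField
open Cfsg.Agent.Lib.SchurSylow Cfsg.Agent.Lib.StBase Cfsg.Agent.Lib.StKer
open scoped MatrixGroups Matrix

theorem memE6 : chevE6 ∈ [chevG2, chevB2, chevD4, chevF4, chevE6, chevE7, chevE8] := by simp

section grp
variable {A : Type*} [Group A]

theorem aba_bcb {x y z x' y' z' : A} (h1 : Commute x' y) (h2 : Commute y' z) (h3 : Commute x' z) :
    x * y * z * (x' * y' * z') = (x * x') * (y * y') * (z * z') := by
  calc x * y * z * (x' * y' * z') = x * y * (z * x') * y' * z' := by group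
    _ = x * y * (x' * z) * y' * z' := by rw [h3.eq]
    _ = x * (y * x') * (z * y') * z' := by group
    _ = x * (x' * y) * (y' * z) * z' := by rw [h1.eq, h2.eq]
    _ = _ := by group

end grp

section
variable {K : Type u} [Field K]

/-- the standard structure on the simply connected group -/
noncomputable abbrev SS (K : Type u) [Field K] : StG chevE6 K (chevE6.SteinbergGroup K) := StCenter.st (K := K) G

theorem X_commute {r s : ℕ} (hr : r < 72) (hs : s < 72) (h1 : s ≠ r) (h2 : s ≠ 71 - r)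
    (hc : chevE6.commTerms r s = []) (a b : K) : Commute ((SS K).X r a) ((SS K).X s b) := by
  have hn : chevE6.nroots = 72 := rfl
  have h3 := (SS K).comm r (by rw [hn]; exact hr) s (by rw [hn]; exact hs) h1
    (by rw [G.neg_eq r (by rw [hn]; exact hr), hn]; omega) a b
  unfold ChevalleyDatum.commWord at h3
  rw [hc, List.map_nil, WX_nil, mul_one] at h3
  exact h3.symm

/-- a pair of orthogonal simple roots -/
structure OP (i j : ℕ) : Prop where
  hi : i < 6
  hj : j < 6
  c1 : chevE6.commTerms (chevE6.simple i) (chevE6.simple j) = []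
  c2 : chevE6.commTerms (chevE6.simple i) (71 - chevE6.simple j) = []
  c3 : chevE6.commTerms (71 - chevE6.simple i) (chevE6.simple j) = []
  c4 : chevE6.commTerms (71 - chevE6.simple i) (71 - chevE6.simple j) = []
  l1 : chevE6.simple i < 72
  l2 : chevE6.simple j < 72
  n1 : chevE6.simple j ≠ chevE6.simple i
  n2 : chevE6.simple j + chevE6.simple i ≠ 71

theorem op05 : OP 0 5 := by
  constructor <;> decide +kernel

theorem op24 : OP 2 4 := by
  constructor <;> decide +kernel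

/-- `X_i(t) X_j(t^q)` -/
noncomputable def xt (K : Type u) [Field K] (q i j : ℕ) (t : K) : chevE6.SteinbergGroup K :=
  (SS K).X (chevE6.simple i) t * (SS K).X (chevE6.simple j) (t ^ q)

noncomputable def yt (K : Type u) [Field K] (q i j : ℕ) (t : K) : chevE6.SteinbergGroup K :=
  (SS K).X (chevE6.neg (chevE6.simple i)) t * (SS K).X (chevE6.neg (chevE6.simple j)) (t ^ q)

section op
variable {q i j : ℕ} (h : OP i j)
include h

theorem cm1 (a b : K) : Commute ((SS K).X (chevE6.simple i) a) ((SS K).X (chevE6.simple j) b) :=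
  X_commute h.l1 h.l2 h.n1 (fun h' => h.n2 (by have := h.l1; omega)) h.c1 a b

theorem negs : chevE6.neg (chevE6.simple i) = 71 - chevE6.simple i ∧ chevE6.neg (chevE6.simple j) = 71 - chevE6.simple j := by
  have hn : chevE6.nroots = 72 := rfl
  exact ⟨by rw [G.neg_eq _ (by rw [hn]; exact h.l1), hn], by rw [G.neg_eq _ (by rw [hn]; exact h.l2), hn]⟩

theorem cm2 (a b : K) : Commute ((SS K).X (chevE6.simple i) a) ((SS K).X (chevE6.neg (chevE6.simple j)) b) := by
  rw [(negs h).2]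
  have := h.l1; have := h.l2; have := h.n1; have := h.n2
  exact X_commute h.l1 (by omega) (by omega) (by omega) h.c2 a b

theorem cm3 (a b : K) : Commute ((SS K).X (chevE6.neg (chevE6.simple i)) a) ((SS K).X (chevE6.simple j) b) := by
  rw [(negs h).1]
  have := h.l1; have := h.l2; have := h.n1; have := h.n2
  exact X_commute (by omega) h.l2 (by omega) (by omega) h.c3 a b

theorem cm4 (a b : K) : Commute ((SS K).X (chevE6.neg (chevE6.simple i)) a) ((SS K).X (chevE6.neg (chevE6.simple j)) b) := by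
  rw [(negs h).1, (negs h).2]
  have := h.l1; have := h.l2; have := h.n1; have := h.n2
  exact X_commute (by omega) (by omega) (by omega) (by omega) h.c4 a b

theorem nb_nb (hneg : ∀ t : K, (-t) ^ q = - t ^ q) (t : K) :
    nb (SS K) i t * nb (SS K) j (t ^ q) = xt K q i j t * yt K q i j (-t⁻¹) * xt K q i j t := by
  unfold nb xt yt
  rw [aba_bcb (cm3 h _ _).symm (cm2 h _ _).symm (cm1 h _ _).symm, hneg, inv_pow]

theorem nb_comm (a b : K) : Commute (nb (SS K) i a) (nb (SS K) j b) := by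
  unfold nb
  have e1 := fun x y => cm1 (K := K) h x y
  have e2 := fun x y => cm2 (K := K) h x y
  have e3 := fun x y => cm3 (K := K) h x y
  have e4 := fun x y => cm4 (K := K) h x y
  exact (((e1 _ _).mul_left (e3 _ _)).mul_left (e1 _ _)).mul_right
    (((e2 _ _).mul_left (e4 _ _)).mul_left (e2 _ _)) |>.mul_right
    (((e1 _ _).mul_left (e3 _ _)).mul_left (e1 _ _))

theorem hb_hb (hneg : ∀ t : K, (-t) ^ q = - t ^ q) (t : K) :
    hb (SS K) i t * hb (SS K) j (t ^ q) =
      xt K q i j t * yt K q i j (-t⁻¹) * xt K q i j t * (xt K q i j (-1) * yt K q i j (-(-1)⁻¹) * xt K q i j (-1)) := by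
  rw [← nb_nb h hneg, ← nb_nb h hneg]
  have h1 : ((-1 : K)) ^ q = -1 := by rw [hneg, one_pow]
  rw [h1]
  unfold hb
  calc nb (SS K) i t * nb (SS K) i (-1) * (nb (SS K) j (t ^ q) * nb (SS K) j (-1)) =
      nb (SS K) i t * (nb (SS K) i (-1) * nb (SS K) j (t ^ q)) * nb (SS K) j (-1) := by group
    _ = nb (SS K) i t * (nb (SS K) j (t ^ q) * nb (SS K) i (-1)) * nb (SS K) j (-1) := by rw [(nb_comm h _ _).eq]
    _ = _ := by group

end op

theorem X_pow {r : ℕ} (hr : r < 72) (t : K) (n : ℕ) : (SS K).X r t ^ n = (SS K).X r (n * t) := by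
  have hn : chevE6.nroots = 72 := rfl
  induction n with
  | zero => rw [pow_zero, Nat.cast_zero, zero_mul, X_zero (SS K) (by rw [hn]; exact hr)]
  | succ n ih =>
    rw [pow_succ, ih, (SS K).add r (by rw [hn]; exact hr)]
    congr 1; push_cast; ring

theorem xt_pow {p q i j : ℕ} [CharP K p] (h : OP i j) (t : K) : xt K q i j t ^ p = 1 ∧ yt K q i j t ^ p = 1 := by
  have hn : chevE6.nroots = 72 := rfl
  constructor
  · unfold xt
    rw [(cm1 h _ _).mul_pow, X_pow h.l1, X_pow h.l2, CharP.cast_eq_zero, zero_mul, zero_mul,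
      X_zero (SS K) (by rw [hn]; exact h.l1), X_zero (SS K) (by rw [hn]; exact h.l2), one_mul]
  · unfold yt
    have e1 : chevE6.neg (chevE6.simple i) < 72 := by rw [(negs h).1]; omega
    have e2 : chevE6.neg (chevE6.simple j) < 72 := by rw [(negs h).2]; omega
    rw [(cm4 h _ _).mul_pow, X_pow e1, X_pow e2, CharP.cast_eq_zero, zero_mul, zero_mul,
      X_zero (SS K) (by rw [hn]; exact e1), X_zero (SS K) (by rw [hn]; exact e2), one_mul]

end

section
variable {K : Type u} [Field K] [Fintype K] {q : ℕ} (hq : IsPrimePow q) (hK : Fintype.card K = q ^ 2)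

/-- the preimage -/
noncomputable def PP (K : Type u) [Field K] (q : ℕ) : Subgroup (chevE6.SteinbergGroup K) :=
  (Γ0 chevE6 K tabE6 q).comap (SS K).θ

/-- the extension -/
noncomputable def sgm (K : Type u) [Field K] (q : ℕ) : ↥(PP K q) →* ↥(Γ0 chevE6 K tabE6 q) :=
  (SS K).θ.subgroupComap (Γ0 chevE6 K tabE6 q)

theorem sgm_coe (x : ↥(PP K q)) : ((sgm K q x : ↥(Γ0 chevE6 K tabE6 q)) : GL chevE6.Idx K) = (SS K).θ x := rfl

include hq hK in
theorem xt_mem {i j : ℕ} {m : ℕ} (hm : m < tabE6.nz) (hJ : tabE6.jwN m = [i, j]) (hs1 : chevE6.simple i = tabE6.sim i)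
    (hs2 : chevE6.simple j = tabE6.sim j) (h : OP i j) (t : K) : xt K q i j t ∈ PP K q ∧ yt K q i j t ∈ PP K q := by
  have hn : chevE6.nroots = 72 := rfl
  have h1 := BX_mem_Γ0 (D := chevE6) (C := tabE6) (F := K) (q := q) (j := m) hm (t := t)
    (by rw [hJ]; exact hT hK t)
  rw [hJ] at h1
  have l1 : chevE6.simple i < chevE6.nroots := by rw [hn]; exact h.l1
  have l2 : chevE6.simple j < chevE6.nroots := by rw [hn]; exact h.l2
  constructor
  · show (SS K).θ (xt K q i j t) ∈ Γ0 chevE6 K tabE6 q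
    unfold xt
    rw [map_mul, (SS K).θX _ l1, (SS K).θX _ l2, hs1, hs2]
    have := h1.1
    simpa [BX] using this
  · show (SS K).θ (yt K q i j t) ∈ Γ0 chevE6 K tabE6 q
    unfold yt
    rw [map_mul, (SS K).θX _ (neg_lt G l1), (SS K).θX _ (neg_lt G l2), hs1, hs2]
    have := h1.2
    simpa [BX] using this

theorem ker_sgm_le {x : ↥(PP K q)} : x ∈ (sgm K q).ker ↔ (x : chevE6.SteinbergGroup K) ∈ (SS K).θ.ker := by
  rw [MonoidHom.mem_ker, MonoidHom.mem_ker]
  constructor
  · intro h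
    have := congrArg Subtype.val h
    exact this
  · intro h; exact Subtype.ext h

include hK in
theorem card_kerθ (h3 : 3 ∣ q + 1) : Nat.card (SS K).θ.ker = 3 := by
  have h1 := StCenter.card_center_e6_e7 hK (chevE6, 3) (by simp)
  rw [← StCenter.center_eq memE6 G]
  refine h1.trans ?_
  show Nat.gcd 3 (q ^ 2 - 1) = 3
  apply Nat.gcd_eq_left
  have h4 : q ^ 2 - 1 = (q + 1) * (q - 1) := by
    have := Nat.sq_sub_sq q 1
    simpa using this
  rw [h4]; exact h3.mul_right _

include hK in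
theorem card_ker_sgm (h3 : 3 ∣ q + 1) : Nat.card (sgm K q).ker = 3 := by
  rw [← card_kerθ hK h3]
  refine Nat.card_congr
    { toFun := fun x => ⟨x.1.1, ker_sgm_le.mp x.2⟩
      invFun := fun z => ⟨⟨z.1, ?_⟩, ker_sgm_le.mpr z.2⟩
      left_inv := fun _ => rfl
      right_inv := fun _ => rfl }
  show (SS K).θ z.1 ∈ Γ0 chevE6 K tabE6 q
  rw [MonoidHom.mem_ker.mp z.2]; exact one_mem _

theorem sgm_surj : Function.Surjective (sgm K q) := by
  intro g
  have hs : Function.Surjective (StPres.pr3 (K := K) G) :=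
    StPres.surj_of_gen G _ fun r _ t => ⟨chevE6.stGen K r t, StPres.pr3_gen G r t⟩
  have hg : (g : GL chevE6.Idx K) ∈ chevE6.group K := by
    have h1 : Γ0 chevE6 K tabE6 q ≤ chevE6.group K := by
      apply (Subgroup.closure_le _).mpr
      rintro x ⟨j, hj, t, ht, h⟩
      rcases h with rfl | rfl <;> exact BX_mem_group _ _ _ G
    exact h1 g.2
  obtain ⟨x, hx⟩ := hs ⟨g, hg⟩
  have hx' : (SS K).θ x = g := congrArg Subtype.val hx
  exact ⟨⟨x, by show (SS K).θ x ∈ Γ0 chevE6 K tabE6 q; rw [hx']; exact g.2⟩, Subtype.ext hx'⟩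

include hq hK in
/-- **the triple cover** -/
theorem isStem (h3 : 3 ∣ q + 1) : IsStemExtension (sgm K q) := by
  classical
  have hn : chevE6.nroots = 72 := rfl
  have hr : chevE6.rank = 6 := rfl
  obtain ⟨p, hp⟩ := CharP.exists K
  haveI := hp
  have hpp : p.Prime := (CharP.char_is_prime_or_zero K p).resolve_right (CharP.char_ne_zero_of_finite K p)
  haveI : Fact p.Prime := ⟨hpp⟩
  have hcen : (SS K).θ.ker = Subgroup.center (chevE6.SteinbergGroup K) := (StCenter.center_eq memE6 G).symm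
  refine ⟨sgm_surj, ?_, ?_⟩
  · intro x hx
    have h1 := ker_sgm_le.mp hx
    rw [hcen, Subgroup.mem_center_iff] at h1
    rw [Subgroup.mem_center_iff]
    intro y
    exact Subtype.ext (h1 y)
  have hneg : ∀ t : K, (-t) ^ q = - t ^ q := q_neg (sig hq hK) chk1E6 chk2E6 (sig_e hq hK) G
  have hpq : p ∣ q := by
    obtain ⟨n, -, hn⟩ := FiniteField.card K p
    rw [hK] at hn
    have h1 : p ∣ q ^ 2 := by rw [hn]; exact dvd_pow_self p n.ne_zero
    exact hpp.dvd_of_dvd_pow h1
  have hp3 : Nat.Coprime p 3 := by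
    rw [Nat.coprime_primes hpp Nat.prime_three]
    rintro rfl
    have := (Nat.dvd_add_right hpq).mp h3
    omega
  set N := commutator ↥(PP K q) with hN
  -- elements are in `N` times the kernel
  have hcube : ∀ x : ↥(PP K q), x ^ 3 ∈ N := by
    intro x
    have h1 : sgm K q x ∈ (commutator ↥(PP K q)).map (sgm K q) := by
      have h2 : (commutator ↥(PP K q)).map (sgm K q) = ⊤ := by
        rw [commutator_def, Subgroup.map_commutator, ← MonoidHom.range_eq_map, MonoidHom.range_eq_top.mpr sgm_surj,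
          ← commutator_def, perf hq hK]
      rw [h2]; exact Subgroup.mem_top _
    obtain ⟨y, hy, hyx⟩ := h1
    have h4 : y⁻¹ * x ∈ (sgm K q).ker := by
      rw [MonoidHom.mem_ker, map_mul, map_inv, hyx, inv_mul_cancel]
    have h5 : (y⁻¹ * x) ^ 3 = 1 := by
      have h6 := pow_card_eq_one' (G := ↥(sgm K q).ker) (x := ⟨_, h4⟩)
      rw [card_ker_sgm hK h3] at h6
      exact congrArg Subtype.val h6
    have h6 : (QuotientGroup.mk x : ↥(PP K q) ⧸ N) = QuotientGroup.mk (y⁻¹ * x) := by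
      rw [QuotientGroup.mk_mul]
      have : (QuotientGroup.mk y⁻¹ : ↥(PP K q) ⧸ N) = 1 := (QuotientGroup.eq_one_iff _).mpr (inv_mem hy)
      rw [this, one_mul]
    rw [← QuotientGroup.eq_one_iff, QuotientGroup.mk_pow, h6, ← QuotientGroup.mk_pow, h5]; rfl
  have hpel : ∀ x : ↥(PP K q), x ^ p = 1 → x ∈ N := by
    intro x hx
    have h1 : (QuotientGroup.mk x : ↥(PP K q) ⧸ N) ^ 3 = 1 := by
      rw [← QuotientGroup.mk_pow]; exact (QuotientGroup.eq_one_iff _).mpr (hcube x)
    have h2 : (QuotientGroup.mk x : ↥(PP K q) ⧸ N) ^ p = 1 := by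
      rw [← QuotientGroup.mk_pow, hx]; rfl
    have h3 : orderOf (QuotientGroup.mk x : ↥(PP K q) ⧸ N) ∣ 1 := by
      rw [← hp3.gcd_eq_one]
      exact Nat.dvd_gcd (orderOf_dvd_of_pow_eq_one h2) (orderOf_dvd_of_pow_eq_one h1)
    exact (QuotientGroup.eq_one_iff _).mp (orderOf_eq_one_iff.mp (Nat.dvd_one.mp h3))
  -- as a subgroup of the Steinberg group
  set N' : Subgroup (chevE6.SteinbergGroup K) := N.map (PP K q).subtype with hN'
  have hN'mem : ∀ x ∈ PP K q, x ^ p = 1 → x ∈ N' := by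
    intro x hx hxp
    exact ⟨⟨x, hx⟩, hpel _ (Subtype.ext (by simpa using hxp)), rfl⟩
  have hhb : ∀ {i j m : ℕ}, m < tabE6.nz → tabE6.jwN m = [i, j] → chevE6.simple i = tabE6.sim i →
      chevE6.simple j = tabE6.sim j → OP i j → ∀ t : K, hb (SS K) i t * hb (SS K) j (t ^ q) ∈ N' := by
    intro i j m hm hJ hs1 hs2 hop t
    rw [hb_hb hop hneg]
    have a1 := fun t => hN'mem _ (xt_mem hq hK hm hJ hs1 hs2 hop t).1 (xt_pow hop t).1
    have a2 := fun t => hN'mem _ (xt_mem hq hK hm hJ hs1 hs2 hop t).2 (xt_pow hop t).2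
    exact mul_mem (mul_mem (mul_mem (a1 _) (a2 _)) (a1 _)) (mul_mem (mul_mem (a1 _) (a2 _)) (a1 _))
  intro z hz
  have hz1 := ker_sgm_le.mp hz
  have hP := Cfsg.Agent.Lib.StPair.pairOK memE6
  have hR3 := StCenter.R3_st3 _ (fun r _ t => StPres.pr3_gen (K := K) G r t) G
  rw [StCenter.ker_eq G (SS K) hP hR3] at hz1
  obtain ⟨c, hc, hcz⟩ := hz1
  -- the parameters
  obtain ⟨c, rfl⟩ : ∃ d : Fin 6 → Kˣ, d = c := ⟨c, rfl⟩
  have hck : ∀ j : Fin 6, ∏ i : Fin 6, c i ^ chevE6.cartan i (chevE6.simple j) = 1 := hc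
  have hck' : ∀ j : Fin 6, ∏ i : Fin 6, ((c i : Kˣ) : K) ^ cm i j = 1 := by
    intro j
    have h1 := congrArg Units.val (hck j)
    rw [Units.coe_prod, Units.val_one] at h1
    rw [← h1]
    refine Finset.prod_congr rfl fun i _ => ?_
    rw [Units.val_zpow_eq_zpow_val, cart i i.2 j j.2]
  have e0 := hck' 0
  have e1 := hck' 1
  have e2 := hck' 2
  have e3 := hck' 3
  have e4 := hck' 4
  have e5 := hck' 5
  rw [Fin.prod_univ_six] at e0 e1 e2 e3 e4 e5
  simp [cm] at e0 e1 e2 e3 e4 e5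
  have n0 := (c 0).ne_zero
  have n1 := (c 1).ne_zero
  have n2 := (c 2).ne_zero
  have n3 := (c 3).ne_zero
  have n4 := (c 4).ne_zero
  have n5 := (c 5).ne_zero
  obtain ⟨m0, m1, m2, m3, m4, m5⟩ := ker6 (z0 := (c 0 : K)) (z1 := (c 1 : K)) (z2 := (c 2 : K)) (z3 := (c 3 : K))
    (z4 := (c 4 : K)) (z5 := (c 5 : K)) n0 n5 (by field_simp at e0; exact e0) (by field_simp at e1; exact e1)
    (by field_simp at e2; exact e2) (by field_simp at e3; rw [e3]) (by field_simp at e4; exact e4)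
    (by field_simp at e5; exact e5)
  -- `ω ^ q = ω²`
  set ω : K := (c 0 : K) with hω
  obtain ⟨k, hk⟩ := h3
  have hωq : ω ^ q = ω ^ 2 := by
    have h6 : ω ^ (q + 1) = 1 := by rw [hk, pow_mul, m0, one_pow]
    apply mul_right_cancel₀ n0
    rw [← pow_succ, h6]
    calc (1 : K) = ω ^ 3 := m0.symm
      _ = ω ^ 2 * ω := by ring
  have hω2q : (ω ^ 2) ^ q = ω := by
    rw [← pow_mul, mul_comm, pow_mul, hωq]
    calc (ω ^ 2) ^ 2 = ω ^ 3 * ω := by ring
      _ = ω := by rw [m0, one_mul]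
  have hΦ : StCenter.Φ G (SS K) hP hR3 (c : Fin chevE6.rank → Kˣ) = hb (SS K) 0 ω * hb (SS K) 5 (ω ^ q) * (hb (SS K) 2 (ω ^ 2) *
      hb (SS K) 4 ((ω ^ 2) ^ q)) := by
    have hc' : c = Pi.mulSingle 0 (c 0) * Pi.mulSingle 5 (c 5) * (Pi.mulSingle 2 (c 2) * Pi.mulSingle 4 (c 4)) := by
      funext i
      simp only [Pi.mul_apply]
      have h6 : ∀ i : Fin 6, c i = (Pi.mulSingle 0 (c 0) : Fin 6 → Kˣ) i * (Pi.mulSingle 5 (c 5) : Fin 6 → Kˣ) i *
          ((Pi.mulSingle 2 (c 2) : Fin 6 → Kˣ) i * (Pi.mulSingle 4 (c 4) : Fin 6 → Kˣ) i) := by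
        intro i
        fin_cases i
        · simp [Pi.mulSingle_apply]
        · simp [Pi.mulSingle_apply]; exact Units.ext m1
        · simp [Pi.mulSingle_apply]
        · simp [Pi.mulSingle_apply]; exact Units.ext m3
        · simp [Pi.mulSingle_apply]
        · simp [Pi.mulSingle_apply]
      exact h6 i
    obtain ⟨Fi, f1, f2, f3⟩ : ∃ Fi : (Fin 6 → Kˣ) → chevE6.SteinbergGroup K,
        (∀ a, StCenter.Φ G (SS K) hP hR3 (a : Fin chevE6.rank → Kˣ) = Fi a) ∧
        (∀ a b, Fi (a * b) = Fi a * Fi b) ∧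
        (∀ (i : Fin 6) (x : Kˣ), Fi (Pi.mulSingle i x) = hb (SS K) i x) :=
      ⟨fun a => StCenter.Φ G (SS K) hP hR3 (a : Fin chevE6.rank → Kˣ), fun _ => rfl,
        fun a b => map_mul (StCenter.Φ G (SS K) hP hR3) (a : Fin chevE6.rank → Kˣ) b,
        fun i x => StCenter.Φ_single G (SS K) hP hR3 (i : Fin chevE6.rank) x⟩
    refine (f1 c).trans ?_
    rw [hc', f2, f2, f2, f3, f3, f3, f3]
    have q5 : hb (SS K) (5 : Fin 6) (c 5 : K) = hb (SS K) 5 (ω ^ q) := by rw [hωq, ← m5]; rfl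
    have q2 : hb (SS K) (2 : Fin 6) (c 2 : K) = hb (SS K) 2 (ω ^ 2) := by rw [← m2]; rfl
    have q4 : hb (SS K) (4 : Fin 6) (c 4 : K) = hb (SS K) 4 ((ω ^ 2) ^ q) := by rw [hω2q, ← m4]; rfl
    rw [q5, q2, q4]; rfl
  have hfin : (z : chevE6.SteinbergGroup K) ∈ N' := by
    rw [← hcz, hΦ]
    exact mul_mem (hhb (m := 0) (by decide) rfl (by decide) (by decide) op05 ω)
      (hhb (m := 1) (by decide) rfl (by decide) (by decide) op24 (ω ^ 2))
  obtain ⟨y, hy, hyz⟩ := hfin
  have : y = z := Subtype.ext hyz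
  rw [← this]; exact hy

end
end Cfsg.Agent.Lib.TwE6
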