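import Cfsg.Agent.Lib.H26TwK

/-! Special commuting pairs in the root groups of the long roots, and the `p`-part of the multiplier (helper26). -/

set_option autoImplicit false
set_option linter.unusedSectionVars false

namespace Cfsg.Agent.Lib.H26TwB
open Cfsg.Lie Cfsg.Agent.Lib.ChevX Cfsg.Agent.Lib.ChevGood Cfsg.Agent.Lib.ChevRel Cfsg.Agent.Lib.ChevNPerm
  Cfsg.Agent.Lib.ChevClosed Cfsg.Agent.Lib.ChevBruhat Cfsg.Agent.Lib.TwFix Cfsg.Agent.Lib.TwFix.TwRk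
  Cfsg.Agent.Lib.TwFix.TwAll
open Cfsg.Agent.Lib.H26LiftB Cfsg.Agent.Lib.SchurSylow Cfsg.Agent.Lib.H26TwL
open scoped MatrixGroups Matrix

universe u

section dat
variable {D : ChevalleyDatum} {F : Type u} [Field F] [Finite F] {T : TwSys D F} {R : TwRk T} {k : ℕ} {W : TwGen T k}
  {B : TwBlk R W} {Γ : Subgroup (GL D.Idx F)} (K : TwAll B Γ)
variable {p : ℕ} [hp : Fact p.Prime] (hpU : IsPGroup p (D.posUnipotent F))
  (hcop : (Nat.card ↥(D.diagonalSubgroup F ⊓ Γ)).Coprime p)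
  (hne : ∀ r, Pos D r → ∃ h ∈ D.diagonalSubgroup F ⊓ Γ, ∃ χ, Acts D h r χ ∧ χ ≠ 1)
  {M : ℕ} (hM : ∀ r, R.rk r < M)

/-- the pairs for which the special argument is used -/
def SpL (T : TwSys D F) (r s : Fin D.nroots) : Prop := r = s ∧ T.ρ r = r

include K in
theorem xg_memΓ {r : Fin D.nroots} (hρ : T.ρ r = r) {t : F} (ht : t ∈ Tset T r) : xg D F r t ∈ Γ := by
  rw [K.mem_iff_fix]; exact ht hρ

theorem Cr_xg {r : Fin D.nroots} (t : F) : Cr R r t (xg D F r t) := by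
  unfold Cr Co
  rw [inv_mul_cancel]; exact one_mem _

theorem xg_up {r : Fin D.nroots} (hr : Pos D r) (t : F) : xg D F r t ∈ XS D F (R.up (posS D) (R.rk r)) :=
  xg_mem_XS (A := R.up (posS D) (R.rk r)) ⟨hr, le_rfl⟩ t

variable (rp : ℕ → Fin D.nroots) (hrp : ∀ r, Pos D r → Pos D (rp (R.rk r)) ∧ R.rk (rp (R.rk r)) = R.rk r)
  {θ : Fin D.nroots} (hθ : Pos D θ) (hθρ : T.ρ θ = θ) (hθM : R.rk θ + 1 = M)
  (hθu : ∀ r, Pos D r → R.rk r = R.rk θ → r = θ)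
  (hder : ∀ v ∈ Tset T θ, ∃ a ∈ D.posUnipotent F ⊓ Γ, ∃ b ∈ D.posUnipotent F ⊓ Γ, xg D F θ v = a * b * a⁻¹ * b⁻¹)
  (hkill : ∀ r s, Pos D r → Pos D s → rp (R.rk r) = r → rp (R.rk s) = s → Kill p T Γ (SpL T) r s)

include hpU hcop hne hM hrp hθ hθρ hθM hθu hder hkill K in
/-- lifts of the lowest root group are central in the preimage of `U` -/
theorem bottom {Δ : Type u} [Group Δ] (σ : Δ →* ↥Γ) (hσ : IsStemExtension σ) (hk : IsPGroup p σ.ker) {a b : Δ}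
    (ha : ((σ a : ↥Γ) : GL D.Idx F) ∈ XS D F {θ}) (hb : ((σ b : ↥Γ) : GL D.Idx F) ∈ D.posUnipotent F) :
    a * b = b * a := by
  set BD := bdat K hpU hcop hne hM with hBD
  have hC : ∀ l (x : ↥Γ), x ∈ BD.C l ↔ (x : GL D.Idx F) ∈ XS D F (R.up (posS D) l) := fun l x =>
    Subgroup.mem_subgroupOf
  have hU : ∀ (x : ↥Γ), x ∈ BD.U ↔ (x : GL D.Idx F) ∈ D.posUnipotent F := fun x => Subgroup.mem_subgroupOf
  have hk1 : R.rk θ + 1 = BD.m := hθM
  have hN : BD.Good σ ⊤ (R.rk θ + 1) ⊥ := by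
    refine ⟨?_, ?_, ?_, ?_, ?_⟩
    · intro z hz _; exact hz
    · intro n hn; rw [Subgroup.mem_bot.1 hn, map_one]; exact one_mem _
    · intro x hx
      rw [hk1, BD.Cm, Subgroup.mem_bot] at hx
      exact ⟨1, one_mem _, by rw [hx, map_one]⟩
    · intro a _ n hn; rw [Subgroup.mem_bot.1 hn]; simp
    · intro a _ n hn; rw [Subgroup.mem_bot.1 hn]; simp
  have hup : R.up (posS D) (R.rk θ) = {θ} := by
    ext r
    constructor
    · rintro ⟨h1, h2⟩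
      have := hM r
      exact hθu r h1 (by omega)
    · rintro rfl
      exact ⟨hθ, le_rfl⟩
  have h1 := BDat.comm_le hσ BD hN hk (fun h _ => by
    obtain ⟨a, ha⟩ := hσ.1 h
    exact ⟨a, Subgroup.mem_top _, ha⟩) (fun _ _ => False) (fun _ _ _ _ h => h.elim) (by
    intro A _ f hA hf _
    refine pair_main K hpU hcop hne hM (SpL T) rp hrp (fun r s hr hs _ h1 h2 => hkill r s hr hs h1 h2) f hA hf ?_
    intro r s hr hs hrk hsp t ht u hu
    have hrθ : r = θ := hθu r hr hrk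
    subst hrθ
    obtain ⟨rfl, -⟩ := hsp
    refine ⟨⟨_, xg_memΓ K hθρ ht⟩, ⟨_, xg_memΓ K hθρ hu⟩, xg_up hr t, xg_up hr u, Cr_xg t, Cr_xg u, ?_⟩
    obtain ⟨a, ha, b, hb, e⟩ := hder u hu
    set a' : ↥Γ := ⟨a, ha.2⟩
    set b' : ↥Γ := ⟨b, hb.2⟩
    have ha' : a' ∈ BD.U := (hU _).mpr ha.1
    have hb' : b' ∈ BD.U := (hU _).mpr hb.1
    have e' : (⟨xg D F r u, xg_memΓ K hθρ hu⟩ : ↥Γ) = a' * b' * a'⁻¹ * b'⁻¹ := Subtype.ext e
    set x : ↥Γ := ⟨xg D F r t, xg_memΓ K hθρ ht⟩ with hx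
    have hxC : x ∈ BD.C (R.rk r) := (hC _ _).mpr (xg_up hr t)
    have m := fun y hy y' hy' => hf.mul_right x hxC y hy y' hy'
    have hinv : ∀ y ∈ BD.U, f x y * f x y⁻¹ = 1 := by
      intro y hy
      rw [← m y hy y⁻¹ (inv_mem hy), mul_inv_cancel]
      have h1 := m 1 (one_mem _) 1 (one_mem _)
      rw [mul_one] at h1
      exact left_eq_mul.mp h1
    rw [e', m _ (mul_mem (mul_mem ha' hb') (inv_mem ha')) _ (inv_mem hb'), m _ (mul_mem ha' hb') _ (inv_mem ha'),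
      m _ ha' _ hb']
    calc f x a' * f x b' * f x a'⁻¹ * f x b'⁻¹ = (f x a' * f x a'⁻¹) * (f x b' * f x b'⁻¹) := by
          rw [mul_assoc (f x a'), mul_comm (f x b'), ← mul_assoc, mul_assoc]
      _ = 1 := by rw [hinv _ ha', hinv _ hb', one_mul])
    (a := a) (b := b) (by rw [hC, hup]; exact ha) ((hU _).mpr hb)
  rw [Subgroup.mem_bot] at h1
  unfold BDat.cm at h1
  have h2 : a * b * (b * a)⁻¹ = 1 := by
    rw [← h1]; group
  exact mul_inv_eq_one.mp h2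

/-- lifts of `X_r` commute -/
def LC (Γ : Subgroup (GL D.Idx F)) {Δ : Type u} [Group Δ] (σ : Δ →* ↥Γ) (r : Fin D.nroots) : Prop :=
  ∀ a b : Δ, ((σ a : ↥Γ) : GL D.Idx F) ∈ XS D F {r} → ((σ b : ↥Γ) : GL D.Idx F) ∈ XS D F {r} → a * b = b * a

include K in
theorem LC_wj {Δ : Type u} [Group Δ] {σ : Δ →* ↥Γ} (hσ : IsStemExtension σ) {r : Fin D.nroots} (j : Fin k)
    (h : LC Γ σ (W.wj j r)) : LC Γ σ r := by
  intro a b ha hb
  obtain ⟨n, hn⟩ := hσ.1 ⟨W.nj j, K.n_mem j⟩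
  have key : ∀ a : Δ, ((σ a : ↥Γ) : GL D.Idx F) ∈ XS D F {r} →
      ((σ (n * a * n⁻¹) : ↥Γ) : GL D.Idx F) ∈ XS D F {W.wj j r} := by
    intro a ha
    have h1 := conjXS K (m := ⟨W.nj j, K.n_mem j⟩) (W.mono_nj j) (A := {r}) (A' := {W.wj j r})
      (by rw [Set.image_singleton]) (x := σ a) (Subgroup.mem_subgroupOf.mpr ha)
    rw [map_mul, map_mul, map_inv, hn]
    exact Subgroup.mem_subgroupOf.mp h1
  have h1 := h _ _ (key a ha) (key b hb)
  have h2 : n * (a * b) * n⁻¹ = n * (b * a) * n⁻¹ := by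
    calc n * (a * b) * n⁻¹ = n * a * n⁻¹ * (n * b * n⁻¹) := by group
      _ = n * b * n⁻¹ * (n * a * n⁻¹) := h1
      _ = _ := by group
  exact mul_left_cancel (mul_right_cancel h2)

include K hpU hcop hne hM hrp hθ hθρ hθM hθu hder hkill in
/-- **the `p`-part is trivial** -/
theorem card_ker_eq_one
    (hpath : ∀ r, Pos D r → T.ρ r = r → r = θ ∨ ∃ j, T.ρ (W.wj j r) = W.wj j r ∧ Pos D (W.wj j r) ∧
      (r : ℕ) < W.wj j r)
    {Δ : Type u} [Group Δ] [Finite Δ] (σ : Δ →* ↥Γ) (hσ : IsStemExtension σ) (hk : IsPGroup p σ.ker) :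
    Nat.card σ.ker = 1 := by
  have hLC : ∀ n : ℕ, ∀ r, Pos D r → T.ρ r = r → D.nroots - r = n → LC Γ σ r := by
    intro n
    induction n using Nat.strong_induction_on with
    | _ n ih =>
      intro r hr hρ hn
      rcases hpath r hr hρ with rfl | ⟨j, h1, h2, h3⟩
      · intro a b ha hb
        refine bottom K hpU hcop hne hM rp hrp hθ hθρ hθM hθu hder hkill σ hσ hk ha ?_
        rw [← XS_posS T.G]
        exact XS_mono (by rintro s rfl; exact hr) hb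
      · apply LC_wj K hσ j
        have h4 := (W.wj j r).2
        exact ih _ (by omega) _ h2 h1 rfl
  set BD := bdat K hpU hcop hne hM with hBD
  have hC : ∀ l (x : ↥Γ), x ∈ BD.C l ↔ (x : GL D.Idx F) ∈ XS D F (R.up (posS D) l) := fun l x =>
    Subgroup.mem_subgroupOf
  refine BDat.main hσ BD hk (fun _ x y => ∃ r, Pos D r ∧ T.ρ r = r ∧ (x : GL D.Idx F) ∈ XS D F {r} ∧
    (y : GL D.Idx F) ∈ XS D F {r}) ?_ ?_
  · rintro k x hx y hy ⟨r, hr, hρ, h1, h2⟩ a b rfl rfl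
    exact hLC _ r hr hρ rfl a b h1 h2
  · intro k hk A _ f hA hf hsp
    refine pair_main K hpU hcop hne hM (SpL T) rp hrp (fun r s hr hs _ h1 h2 => hkill r s hr hs h1 h2) f hA hf ?_
    intro r s hr hs hrk hS t ht u hu
    obtain ⟨rfl, hρ⟩ := hS
    refine ⟨⟨_, xg_memΓ K hρ ht⟩, ⟨_, xg_memΓ K hρ hu⟩, xg_up hr t, xg_up hr u, Cr_xg t, Cr_xg u, ?_⟩
    refine hsp _ ?_ _ ?_ ⟨r, hr, hρ, xg_mem_XS (A := {r}) rfl t, xg_mem_XS (A := {r}) rfl u⟩
    · rw [hC, ← hrk]; exact xg_up hr t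
    · show _ ∈ (D.posUnipotent F).subgroupOf Γ
      rw [Subgroup.mem_subgroupOf, ← XS_posS T.G]
      exact xg_mem_XS (A := posS D) hr u

include K in
/-- the lowest root group consists of commutators -/
theorem der_of {b1 b2 : Fin D.nroots} (p1 : Pos D b1) (p2 : Pos D b2) (r1 : T.ρ b1 = b1) (r2 : T.ρ b2 = b2)
    (hθρ : T.ρ θ = θ) {c : F} (hc : c ≠ 0)
    (hcomm : ∀ t u, xg D F b2 u * xg D F b1 t = xg D F b1 t * xg D F b2 u * xg D F θ (c * (-t) * u)) :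
    ∀ v ∈ Tset T θ, ∃ a ∈ D.posUnipotent F ⊓ Γ, ∃ b ∈ D.posUnipotent F ⊓ Γ, xg D F θ v = a * b * a⁻¹ * b⁻¹ := by
  intro v hv
  obtain ⟨t, ht, ht0⟩ := K.Tne b1 p1
  set u : F := v / (c * (-t)) with hu
  have hne : c * (-t) ≠ 0 := mul_ne_zero hc (neg_ne_zero.mpr ht0)
  have hvu : c * (-t) * u = v := by rw [hu]; field_simp
  have hf1 := ht r1
  have hfv := hv hθρ
  have hfu : u ∈ Tset T b2 := by
    rw [mem_Tset]
    intro _
    have e0 := hcomm t u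
    rw [hvu] at e0
    have e1 := congrArg T.s e0
    rw [T.s_mul (xg_mem_group T.G _ _) (xg_mem_group T.G _ _),
      T.s_mul (mul_mem (xg_mem_group T.G _ _) (xg_mem_group T.G _ _)) (xg_mem_group T.G _ _),
      T.s_mul (xg_mem_group T.G _ _) (xg_mem_group T.G _ _), hf1.2, hfv.2,
      T.s_eq (xg_mem_group T.G b2 u), T.σx, r2] at e1
    set u' := T.ε b2 * u ^ T.f b2 with hu'
    have e2 := hcomm t u'
    have e3 : xg D F θ v = xg D F θ (c * (-t) * u') := by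
      have e4 := e1.symm.trans e2
      exact mul_left_cancel e4
    have e5 := xg_inj T.G θ.2 e3
    rw [← hvu] at e5
    exact (mul_left_cancel₀ hne e5).symm
  refine ⟨xg D F b2 (-u), ⟨?_, xg_memΓ K r2 (neg_mem_Tset T hfu)⟩, xg D F b1 (-t),
    ⟨?_, xg_memΓ K r1 (neg_mem_Tset T ht)⟩, ?_⟩
  · rw [← XS_posS T.G]; exact xg_mem_XS (A := posS D) p2 _
  · rw [← XS_posS T.G]; exact xg_mem_XS (A := posS D) p1 _
  · rw [xg_neg T.G, xg_neg T.G]
    have e0 := hcomm t u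
    rw [hvu] at e0
    have e1 : xg D F θ v = (xg D F b1 t * xg D F b2 u)⁻¹ * (xg D F b2 u * xg D F b1 t) := by
      rw [e0]; group
    rw [e1]; group

end dat

end Cfsg.Agent.Lib.H26TwB
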