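import Mathlib
import Cfsg.Prelude.Def_Classical

set_option autoImplicit false

namespace Cfsg.Agent.Lib.H2OrthH1

open Matrix
open scoped commutatorElement

variable {ι : Type} [Fintype ι] [DecidableEq ι]

/-- polar form -/
def pol (Q : (ι → ZMod 2) → ZMod 2) (u v : ι → ZMod 2) : ZMod 2 := Q (u + v) + Q u + Q v

/-- `Q` is a quadratic form over the field with two elements -/
structure IsQ (Q : (ι → ZMod 2) → ZMod 2) : Prop where
  zero : Q 0 = 0
  add_left : ∀ u v w, pol Q (u + v) w = pol Q u w + pol Q v w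

theorem z2 (x : ZMod 2) : x = 0 ∨ x = 1 := by revert x; decide

theorem pol_comm (Q : (ι → ZMod 2) → ZMod 2) (u v : ι → ZMod 2) : pol Q u v = pol Q v u := by
  unfold pol; rw [add_comm u v]; ring

section
variable {Q : (ι → ZMod 2) → ZMod 2} (hQ : IsQ Q)
include hQ

theorem pol_add_right (u v w : ι → ZMod 2) : pol Q u (v + w) = pol Q u v + pol Q u w := by
  rw [pol_comm, hQ.add_left, pol_comm Q v u, pol_comm Q w u]

theorem pol_self (u : ι → ZMod 2) : pol Q u u = 0 := by
  have h : u + u = 0 := by funext i; exact CharTwo.add_self_eq_zero _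
  unfold pol; rw [h, hQ.zero]
  generalize Q u = x
  revert x; decide

theorem pol_zero_left (u : ι → ZMod 2) : pol Q 0 u = 0 := by
  have h := hQ.add_left 0 0 u
  rw [add_zero] at h
  generalize pol Q 0 u = x at h
  revert x; decide

theorem pol_smul_left (x : ZMod 2) (u v : ι → ZMod 2) : pol Q (x • u) v = x * pol Q u v := by
  rcases z2 x with rfl | rfl
  · rw [zero_smul, pol_zero_left hQ, zero_mul]
  · rw [one_smul, one_mul]

theorem Q_add (u v : ι → ZMod 2) : Q (u + v) = Q u + Q v + pol Q u v := by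
  unfold pol
  generalize Q (u + v) = x
  generalize Q u = y
  generalize Q v = z
  revert x y z; decide

end

section main
variable {G : Type*} [Group G] (act : G →* Matrix ι ι (ZMod 2)) (Q : (ι → ZMod 2) → ZMod 2)

/-- `t` acts as the product of the reflections in `a` and `b` -/
def IsT (a b : ι → ZMod 2) (t : G) : Prop :=
  ∀ v, act t *ᵥ v = v + pol Q v b • b + (pol Q v a + pol Q v b) • a

/-- non-orthogonal pair of non-singular vectors -/
def Pr (a b : ι → ZMod 2) : Prop := Q a = 1 ∧ Q b = 1 ∧ pol Q a b = 1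

variable {act Q}

theorem eq_of_act (hinj : Function.Injective act) {s t : G}
    (h : ∀ v, act s *ᵥ v = act t *ᵥ v) : s = t := by
  apply hinj
  apply Matrix.mulVec_injective
  funext v
  exact h v

theorem Pr.symm {a b : ι → ZMod 2} (h : Pr Q a b) : Pr Q b a :=
  ⟨h.2.1, h.1, by rw [pol_comm]; exact h.2.2⟩

theorem Pr.add (hQ : IsQ Q) {a b : ι → ZMod 2} (h : Pr Q a b) : Pr Q a (a + b) := by
  refine ⟨h.1, ?_, ?_⟩
  · rw [Q_add hQ, h.1, h.2.1, h.2.2]; decide
  · rw [pol_add_right hQ, pol_self hQ, h.2.2]; decide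

/-- key computation of `pol` on the image -/
theorem pol_t_a (hQ : IsQ Q) {a b : ι → ZMod 2} (h : Pr Q a b) {t : G} (ht : IsT act Q a b t)
    (v : ι → ZMod 2) : pol Q (act t *ᵥ v) a = pol Q v a + pol Q v b := by
  rw [ht v, hQ.add_left, hQ.add_left, pol_smul_left hQ, pol_smul_left hQ, pol_self hQ,
    pol_comm Q b a, h.2.2]
  ring

theorem pol_t_b (hQ : IsQ Q) {a b : ι → ZMod 2} (h : Pr Q a b) {t : G} (ht : IsT act Q a b t)
    (v : ι → ZMod 2) : pol Q (act t *ᵥ v) b = pol Q v a := by
  rw [ht v, hQ.add_left, hQ.add_left, pol_smul_left hQ, pol_smul_left hQ, pol_self hQ, h.2.2]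
  generalize pol Q v a = x
  generalize pol Q v b = y
  revert x y; decide

/-- `t` for `(b,a)` is the inverse. -/
theorem isT_inv (hQ : IsQ Q) (hinj : Function.Injective act) {a b : ι → ZMod 2} (h : Pr Q a b)
    {t t' : G} (ht : IsT act Q a b t) (ht' : IsT act Q b a t') : t' * t = 1 := by
  apply eq_of_act hinj
  intro v
  rw [map_mul, ← Matrix.mulVec_mulVec, map_one, Matrix.one_mulVec, ht' (act t *ᵥ v),
    pol_t_a hQ h ht, pol_t_b hQ h ht, ht v]
  funext i
  simp only [Pi.add_apply, Pi.smul_apply, smul_eq_mul]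
  generalize pol Q v a = x
  generalize pol Q v b = y
  generalize v i = p
  generalize a i = q
  generalize b i = r
  revert x y p q r; decide

variable (act) in
/-- crossed homomorphism -/
def IsC (f : G → (ι → ZMod 2)) : Prop := ∀ g h, f (g * h) = f g + act g *ᵥ f h

theorem IsC.one {f : G → (ι → ZMod 2)} (hf : IsC act f) : f 1 = 0 := by
  have h := hf 1 1
  rw [mul_one, map_one, Matrix.one_mulVec] at h
  funext i
  have h1 := congrFun h i
  simp only [Pi.add_apply] at h1
  simp only [Pi.zero_apply]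
  generalize f 1 i = x at h1 ⊢
  revert x; decide

theorem f_t (hQ : IsQ Q) (hinj : Function.Injective act) {f : G → (ι → ZMod 2)} (hf : IsC act f)
    {a b : ι → ZMod 2} (h : Pr Q a b) {t : G} (ht : IsT act Q a b t) :
    f t = pol Q (f t) b • a + pol Q (f t) a • b := by
  have h3 : t * (t * t) = 1 := by
    apply eq_of_act hinj
    intro v
    rw [map_mul, map_mul, ← Matrix.mulVec_mulVec, ← Matrix.mulVec_mulVec, map_one,
      Matrix.one_mulVec]
    rw [ht (act t *ᵥ (act t *ᵥ v)), pol_t_a hQ h ht, pol_t_b hQ h ht, pol_t_b hQ h ht,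
      pol_t_a hQ h ht, ht (act t *ᵥ v), pol_t_a hQ h ht, pol_t_b hQ h ht, ht v]
    funext i
    simp only [Pi.add_apply, Pi.smul_apply, smul_eq_mul]
    generalize pol Q v a = x
    generalize pol Q v b = y
    generalize v i = p
    generalize a i = q
    generalize b i = r
    revert x y p q r; decide
  have h4 : f (t * (t * t)) = 0 := by rw [h3, hf.one]
  rw [hf, hf, Matrix.mulVec_add] at h4
  rw [ht (act t *ᵥ f t), pol_t_a hQ h ht, pol_t_b hQ h ht, ht (f t)] at h4
  funext i
  have h5 := congrFun h4 i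
  simp only [Pi.add_apply, Pi.smul_apply, smul_eq_mul, Pi.zero_apply] at h5 ⊢
  generalize pol Q (f t) a = x at h5 ⊢
  generalize pol Q (f t) b = y at h5 ⊢
  generalize f t i = p at h5 ⊢
  generalize a i = q at h5 ⊢
  generalize b i = r at h5 ⊢
  revert x y p q r; decide

/-- the value `x' = y` for the inverse. -/
theorem f_inv (hQ : IsQ Q) (hinj : Function.Injective act) {f : G → (ι → ZMod 2)} (hf : IsC act f)
    {a b : ι → ZMod 2} (h : Pr Q a b) {t t' : G} (ht : IsT act Q a b t) (ht' : IsT act Q b a t') :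
    pol Q (f t') a = pol Q (f t) b ∧ pol Q (f t') b = pol Q (f t) a + pol Q (f t) b := by
  have h1 : f (t' * t) = 0 := by rw [isT_inv hQ hinj h ht ht', hf.one]
  rw [hf] at h1
  have h2 : f t' = act t' *ᵥ f t := by
    funext i
    have h5 := congrFun h1 i
    simp only [Pi.add_apply, Pi.zero_apply] at h5 ⊢
    generalize f t' i = x at h5 ⊢
    generalize (act t' *ᵥ f t) i = y at h5 ⊢
    revert x y; decide
  rw [h2, pol_t_b hQ h.symm ht', pol_t_a hQ h.symm ht']
  exact ⟨rfl, add_comm _ _⟩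

/-- `(a, a+b)` -/
theorem isT_add (hQ : IsQ Q) (hinj : Function.Injective act) {a b : ι → ZMod 2}
    {t t' : G} (ht : IsT act Q b a t) (ht' : IsT act Q a (a + b) t') : t' = t := by
  apply eq_of_act hinj
  intro v
  rw [ht v, ht' v, pol_add_right hQ]
  funext i
  simp only [Pi.add_apply, Pi.smul_apply, smul_eq_mul]
  generalize pol Q v a = x
  generalize pol Q v b = y
  generalize v i = p
  generalize a i = q
  generalize b i = r
  revert x y p q r; decide

/-- `(a+b, a)` -/
theorem isT_add' (hQ : IsQ Q) (hinj : Function.Injective act) {a b : ι → ZMod 2}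
    {t t' : G} (ht : IsT act Q a b t) (ht' : IsT act Q (a + b) a t') : t' = t := by
  apply eq_of_act hinj
  intro v
  rw [ht v, ht' v, pol_add_right hQ]
  funext i
  simp only [Pi.add_apply, Pi.smul_apply, smul_eq_mul]
  generalize pol Q v a = x
  generalize pol Q v b = y
  generalize v i = p
  generalize a i = q
  generalize b i = r
  revert x y p q r; decide

/-- independence, orthogonal case -/
theorem al_orth (hQ : IsQ Q) (hinj : Function.Injective act) {f : G → (ι → ZMod 2)}
    (hf : IsC act f) {a b c : ι → ZMod 2} (h : Pr Q a b) (h' : Pr Q a c) (hbc : pol Q b c = 0)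
    (hne : b ≠ c) {t t' : G} (ht : IsT act Q b a t) (ht' : IsT act Q a c t') :
    pol Q (f t) b = pol Q (f t') a + pol Q (f t') c := by
  have hs : ∀ v, act (t * t') *ᵥ v = v + pol Q v b • b + pol Q v c • c := by
    intro v
    rw [map_mul, ← Matrix.mulVec_mulVec, ht (act t' *ᵥ v), pol_t_a hQ h' ht']
    have e1 : pol Q (act t' *ᵥ v) b = pol Q v a + pol Q v b + pol Q v c := by
      rw [ht' v, hQ.add_left, hQ.add_left, pol_smul_left hQ, pol_smul_left hQ, h.2.2,
        pol_comm Q c b, hbc]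
      ring
    rw [e1, ht' v]
    funext i
    simp only [Pi.add_apply, Pi.smul_apply, smul_eq_mul]
    generalize pol Q v a = x
    generalize pol Q v b = y
    generalize pol Q v c = z
    generalize v i = p
    generalize a i = q
    generalize b i = r
    generalize c i = s
    revert x y z p q r s; decide
  have h2 : (t * t') * (t * t') = 1 := by
    apply eq_of_act hinj
    intro v
    rw [map_mul act (t * t'), ← Matrix.mulVec_mulVec, map_one, Matrix.one_mulVec,
      hs (act (t * t') *ᵥ v), hs v]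
    rw [hQ.add_left, hQ.add_left, pol_smul_left hQ, pol_smul_left hQ, hQ.add_left, hQ.add_left,
      pol_smul_left hQ, pol_smul_left hQ, pol_self hQ, pol_self hQ, pol_comm Q c b, hbc]
    funext i
    simp only [Pi.add_apply, Pi.smul_apply, smul_eq_mul]
    generalize pol Q v b = y
    generalize pol Q v c = z
    generalize v i = p
    generalize b i = r
    generalize c i = s
    revert y z p r s; decide
  have h3 : f ((t * t') * (t * t')) = 0 := by rw [h2, hf.one]
  rw [hf, hs] at h3
  have h4 : f (t * t') = f t + act t *ᵥ f t' := hf _ _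
  have h5 : pol Q (f (t * t')) b = pol Q (f t) b + (pol Q (f t') a + pol Q (f t') c) := by
    rw [h4, hQ.add_left, pol_t_a hQ h.symm ht]
    congr 1
    have h6 := f_t hQ hinj hf h' ht'
    have h7 : pol Q (f t') b = pol Q (f t') c := by
      conv_lhs => rw [h6]
      rw [hQ.add_left, pol_smul_left hQ, pol_smul_left hQ, h.2.2, pol_comm Q c b, hbc]
      ring
    rw [h7]; ring
  have h8 : pol Q (f (t * t')) c = pol Q (f t) b + (pol Q (f t') a + pol Q (f t') c) := by
    rw [h4, hQ.add_left, ht (f t'), hQ.add_left, hQ.add_left, pol_smul_left hQ, pol_smul_left hQ,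
      h'.2.2, hbc]
    have h6 := f_t hQ hinj hf h.symm ht
    have h7 : pol Q (f t) c = pol Q (f t) b := by
      conv_lhs => rw [h6]
      rw [hQ.add_left, pol_smul_left hQ, pol_smul_left hQ, h'.2.2, hbc]
      ring
    rw [h7]
    generalize pol Q (f t) b = x
    generalize pol Q (f t') a = y
    generalize pol Q (f t') c = z
    generalize pol Q (f t') b = w
    revert x y z w; decide
  rw [h5, h8] at h3
  by_contra hcon
  apply hne
  have h9 : pol Q (f t) b + (pol Q (f t') a + pol Q (f t') c) = 1 := by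
    revert hcon
    generalize pol Q (f t) b = x
    generalize pol Q (f t') a + pol Q (f t') c = y
    revert x y; decide
  rw [h9] at h3
  funext i
  have h10 := congrFun h3 i
  simp only [Pi.add_apply, Pi.smul_apply, smul_eq_mul, Pi.zero_apply, one_mul] at h10
  generalize f (t * t') i = x at h10
  generalize b i = y at h10 ⊢
  generalize c i = z at h10 ⊢
  revert x y z; decide

/-- the additive invariant: all values attached to `a` vanish -/
def X (act : G →* Matrix ι ι (ZMod 2)) (Q : (ι → ZMod 2) → ZMod 2) (f : G → (ι → ZMod 2))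
    (a : ι → ZMod 2) : Prop :=
  ∀ b t, Pr Q a b → IsT act Q a b t → pol Q (f t) a + pol Q (f t) b = 0

theorem al_indep (hQ : IsQ Q) (hinj : Function.Injective act)
    (hT : ∀ a b, Pr Q a b → ∃ t, IsT act Q a b t) {f : G → (ι → ZMod 2)}
    (hf : IsC act f) {a b c : ι → ZMod 2} (h : Pr Q a b) (h' : Pr Q a c)
    {t t' : G} (ht : IsT act Q a b t) (ht' : IsT act Q a c t') :
    pol Q (f t) a + pol Q (f t) b = pol Q (f t') a + pol Q (f t') c := by
  -- value through the inverse
  have key : ∀ b t u, Pr Q a b → IsT act Q a b t → IsT act Q b a u →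
      pol Q (f t) a + pol Q (f t) b = pol Q (f u) b := by
    intro b t u hb ht hu
    exact ((f_inv hQ hinj hf hb ht hu).2).symm
  by_cases hbc : b = c
  · subst hbc
    have : t = t' := eq_of_act hinj (fun v => by rw [ht v, ht' v])
    rw [this]
  obtain ⟨u, hu⟩ := hT b a h.symm
  rcases z2 (pol Q b c) with h0 | h1
  · rw [key b t u h ht hu]
    exact al_orth hQ hinj hf h h' h0 hbc hu ht'
  · -- replace `b` by `a + b`
    have hab : Pr Q a (a + b) := h.add hQ
    obtain ⟨u1, hu1⟩ := hT (a + b) a hab.symm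
    obtain ⟨t1, ht1⟩ := hT a (a + b) hab
    have e1 : t1 = u := isT_add hQ hinj hu ht1
    have e2 : pol Q (f t) a + pol Q (f t) b = pol Q (f t1) a + pol Q (f t1) (a + b) := by
      rw [e1, pol_add_right hQ, (f_inv hQ hinj hf h ht hu).1, (f_inv hQ hinj hf h ht hu).2]
      generalize pol Q (f t) a = x
      generalize pol Q (f t) b = y
      revert x y; decide
    rw [e2]
    by_cases hc : a + b = c
    · subst hc
      have : t1 = t' := eq_of_act hinj (fun v => by rw [ht1 v, ht' v])
      rw [this]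
    · rw [key (a + b) t1 u1 hab ht1 hu1]
      refine al_orth hQ hinj hf hab h' ?_ hc hu1 ht'
      rw [hQ.add_left, h'.2.2, h1]; decide

theorem X_add (hQ : IsQ Q) (hinj : Function.Injective act)
    (hT : ∀ a b, Pr Q a b → ∃ t, IsT act Q a b t) {f : G → (ι → ZMod 2)}
    (hf : IsC act f) {a b : ι → ZMod 2} (h : Pr Q a b) (ha : X act Q f a) (hb : X act Q f b) :
    X act Q f (a + b) := by
  intro c t hc ht
  obtain ⟨t1, ht1⟩ := hT a b h
  obtain ⟨t2, ht2⟩ := hT b a h.symm
  obtain ⟨t3, ht3⟩ := hT (a + b) a (h.add hQ).symm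
  have e3 : t3 = t1 := isT_add' hQ hinj ht1 ht3
  rw [al_indep hQ hinj hT hf hc (h.add hQ).symm ht ht3, e3]
  have h1 := ha b t1 h ht1
  have h2 := hb a t2 h.symm ht2
  have h3 := f_inv hQ hinj hf h ht1 ht2
  rw [h3.1, h3.2] at h2
  rw [pol_add_right hQ]
  revert h1 h2
  generalize pol Q (f t1) a = x
  generalize pol Q (f t1) b = y
  revert x y; decide

theorem f_t_zero (hQ : IsQ Q) (hinj : Function.Injective act)
    {f : G → (ι → ZMod 2)}
    (hf : IsC act f) {a b : ι → ZMod 2} (h : Pr Q a b) (hT : ∀ a b, Pr Q a b → ∃ t, IsT act Q a b t)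
    (ha : X act Q f a) (hb : X act Q f b)
    {t : G} (ht : IsT act Q a b t) : f t = 0 := by
  obtain ⟨t2, ht2⟩ := hT b a h.symm
  have h1 := ha b t h ht
  have h2 := hb a t2 h.symm ht2
  have h3 := f_inv hQ hinj hf h ht ht2
  rw [h3.1, h3.2] at h2
  have h4 : pol Q (f t) a = 0 ∧ pol Q (f t) b = 0 := by
    revert h1 h2
    generalize pol Q (f t) a = x
    generalize pol Q (f t) b = y
    revert x y; decide
  rw [f_t hQ hinj hf h ht, h4.1, h4.2, zero_smul, zero_smul, add_zero]

theorem f_zero (hQ : IsQ Q) (hinj : Function.Injective act) (hG : ∀ g v, Q (act g *ᵥ v) = Q v)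
    {f : G → (ι → ZMod 2)}
    (hf : IsC act f) (hT : ∀ a b, Pr Q a b → ∃ t, IsT act Q a b t)
    (hX : ∀ a, Q a = 1 → X act Q f a)
    (hrad : ∀ w, (∀ a b, Pr Q a b → pol Q w a = 0) → w = 0) (g : G) : f g = 0 := by
  have hpol : ∀ (g : G) u v, pol Q (act g *ᵥ u) (act g *ᵥ v) = pol Q u v := by
    intro g u v
    unfold pol
    rw [← Matrix.mulVec_add, hG, hG, hG]
  have hginv : ∀ (g : G) v, act g *ᵥ (act g⁻¹ *ᵥ v) = v := by
    intro g v
    rw [Matrix.mulVec_mulVec, ← map_mul, mul_inv_cancel, map_one, Matrix.one_mulVec]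
  apply hrad
  intro a b hab
  -- transport the pair
  set a0 := act g⁻¹ *ᵥ a with ha0
  set b0 := act g⁻¹ *ᵥ b with hb0
  have hp0 : Pr Q a0 b0 := ⟨by rw [ha0, hG]; exact hab.1, by rw [hb0, hG]; exact hab.2.1, by
    rw [ha0, hb0, hpol]; exact hab.2.2⟩
  obtain ⟨t0, ht0⟩ := hT a0 b0 hp0
  obtain ⟨t, ht⟩ := hT a b hab
  have hconj : g * t0 * g⁻¹ = t := by
    apply eq_of_act hinj
    intro v
    rw [map_mul, map_mul, ← Matrix.mulVec_mulVec, ← Matrix.mulVec_mulVec, ht0 (act g⁻¹ *ᵥ v),
      ht v, Matrix.mulVec_add, Matrix.mulVec_add, Matrix.mulVec_smul, Matrix.mulVec_smul,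
      hginv, ha0, hb0, hginv, hginv, hpol, hpol]
  have h0 : f t0 = 0 := f_t_zero hQ hinj hf hp0 hT (hX _ hp0.1) (hX _ hp0.2.1) ht0
  have h1 : f t = 0 := f_t_zero hQ hinj hf hab hT (hX _ hab.1) (hX _ hab.2.1) ht
  have h2 : g * t0 = t * g := by rw [← hconj]; group
  have h3 : f (g * t0) = f (t * g) := by rw [h2]
  rw [hf, hf, h0, h1, Matrix.mulVec_zero, add_zero, zero_add, ht (f g)] at h3
  -- `pol (f g) b • b + (..) • a = 0`
  have h4 : pol Q (f g) b • b + (pol Q (f g) a + pol Q (f g) b) • a = 0 := by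
    funext i
    have h5 := congrFun h3 i
    simp only [Pi.add_apply, Pi.smul_apply, smul_eq_mul, Pi.zero_apply] at h5 ⊢
    generalize f g i = x at h5
    generalize pol Q (f g) b * b i = y at h5 ⊢
    generalize (pol Q (f g) a + pol Q (f g) b) * a i = z at h5 ⊢
    revert x y z; decide
  have h5 : pol Q (pol Q (f g) b • b + (pol Q (f g) a + pol Q (f g) b) • a) b = 0 := by
    rw [h4]; exact pol_zero_left hQ _
  have h6 : pol Q (pol Q (f g) b • b + (pol Q (f g) a + pol Q (f g) b) • a) a = 0 := by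
    rw [h4]; exact pol_zero_left hQ _
  rw [hQ.add_left, pol_smul_left hQ, pol_smul_left hQ, pol_self hQ, hab.2.2] at h5
  rw [hQ.add_left, pol_smul_left hQ, pol_smul_left hQ, pol_self hQ, pol_comm Q b a,
    hab.2.2] at h6
  revert h5 h6
  generalize pol Q (f g) a = x
  generalize pol Q (f g) b = y
  revert x y; decide


theorem principal (hQ : IsQ Q) (hinj : Function.Injective act) (hG : ∀ g v, Q (act g *ᵥ v) = Q v)
    {f : G → (ι → ZMod 2)}
    (hf : IsC act f) (hT : ∀ a b, Pr Q a b → ∃ t, IsT act Q a b t)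
    (e : ι → (ι → ZMod 2)) (he : ∀ i, Q (e i) = 1) (hpair : ∀ i, ∃ j, pol Q (e i) (e j) = 1)
    (hrad : ∀ w, (∀ i, pol Q w (e i) = 0) → w = 0)
    (hgen : ∀ P : (ι → ZMod 2) → Prop, (∀ i, P (e i)) →
      (∀ a i, Pr Q a (e i) → P a → P (a + e i)) → ∀ a, Q a = 1 → P a) :
    ∃ v, ∀ g, f g = act g *ᵥ v - v := by
  choose j hj using hpair
  have hp : ∀ i, Pr Q (e i) (e (j i)) := fun i => ⟨he i, he _, hj i⟩
  have ht' : ∀ i, ∃ t, IsT act Q (e i) (e (j i)) t := fun i => hT _ _ (hp i)
  choose t ht using ht'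
  -- surjectivity
  have hsurj : Function.Surjective
      (fun (v : ι → ZMod 2) (i : ι) => pol Q v (e i)) := by
    apply Finite.injective_iff_surjective.mp
    intro u v huv
    have h0 : u + v = 0 := by
      apply hrad
      intro i
      rw [hQ.add_left]
      have := congrFun huv i
      simp only at this
      rw [this]
      exact CharTwo.add_self_eq_zero _
    funext i
    have h1 := congrFun h0 i
    simp only [Pi.add_apply, Pi.zero_apply] at h1
    revert h1
    generalize u i = x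
    generalize v i = y
    revert x y; decide
  obtain ⟨v, hv⟩ := hsurj (fun i => pol Q (f (t i)) (e i) + pol Q (f (t i)) (e (j i)))
  have hv' : ∀ i, pol Q v (e i) = pol Q (f (t i)) (e i) + pol Q (f (t i)) (e (j i)) :=
    fun i => congrFun hv i
  set f' : G → (ι → ZMod 2) := fun g => f g + (act g *ᵥ v + v) with hf'def
  have hf' : IsC act f' := by
    intro g h
    simp only [hf'def]
    rw [hf g h, map_mul, ← Matrix.mulVec_mulVec, Matrix.mulVec_add, Matrix.mulVec_add]
    funext i
    simp only [Pi.add_apply]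
    generalize f g i = x1
    generalize (act g *ᵥ f h) i = x2
    generalize (act g *ᵥ act h *ᵥ v) i = x3
    generalize (act g *ᵥ v) i = x4
    generalize v i = x5
    revert x1 x2 x3 x4 x5; decide
  have hbase : ∀ i, X act Q f' (e i) := by
    intro i b s hb hs
    rw [al_indep hQ hinj hT hf' hb (hp i) hs (ht i)]
    simp only [hf'def]
    rw [hQ.add_left, hQ.add_left, hQ.add_left, hQ.add_left, pol_t_a hQ (hp i) (ht i),
      pol_t_b hQ (hp i) (ht i)]
    have := hv' i
    revert this
    generalize pol Q (f (t i)) (e i) = x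
    generalize pol Q (f (t i)) (e (j i)) = y
    generalize pol Q v (e i) = z
    generalize pol Q v (e (j i)) = w
    revert x y z w; decide
  have hX : ∀ a, Q a = 1 → X act Q f' a :=
    hgen (X act Q f') hbase (fun a i hai ha => X_add hQ hinj hT hf' hai ha (hbase i))
  have hz := f_zero hQ hinj hG hf' hT hX (by
    intro w hw
    apply hrad
    intro i
    exact hw _ _ (hp i))
  refine ⟨v, fun g => ?_⟩
  have h1 := hz g
  funext i
  have h2 := congrFun h1 i
  simp only [hf'def, Pi.add_apply, Pi.zero_apply, Pi.sub_apply] at h2 ⊢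
  revert h2
  generalize f g i = x
  generalize (act g *ᵥ v) i = y
  generalize v i = z
  revert x y z; decide

end main

section refl
variable {Q : (ι → ZMod 2) → ZMod 2} (hQ : IsQ Q)

/-- reflection as a linear map -/
def reflLin (a : ι → ZMod 2) : (ι → ZMod 2) →ₗ[ZMod 2] (ι → ZMod 2) where
  toFun v := v + pol Q v a • a
  map_add' u v := by
    rw [hQ.add_left]
    funext i
    simp only [Pi.add_apply, Pi.smul_apply, smul_eq_mul]
    ring
  map_smul' c u := by
    rw [pol_smul_left hQ]
    funext i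
    simp only [Pi.add_apply, Pi.smul_apply, smul_eq_mul, RingHom.id_apply]
    ring

/-- its matrix -/
noncomputable def reflMat (a : ι → ZMod 2) : Matrix ι ι (ZMod 2) :=
  LinearMap.toMatrix' (reflLin hQ a)

theorem reflMat_mulVec (a v : ι → ZMod 2) : reflMat hQ a *ᵥ v = v + pol Q v a • a := by
  unfold reflMat
  rw [LinearMap.toMatrix'_mulVec]
  rfl

theorem reflMat_sq (a : ι → ZMod 2) : reflMat hQ a * reflMat hQ a = 1 := by
  apply Matrix.mulVec_injective
  funext v
  rw [← Matrix.mulVec_mulVec, reflMat_mulVec, reflMat_mulVec, Matrix.one_mulVec, hQ.add_left,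
    pol_smul_left hQ, pol_self hQ]
  funext i
  simp only [Pi.add_apply, Pi.smul_apply, smul_eq_mul]
  generalize pol Q v a = x
  generalize v i = p
  generalize a i = q
  revert x p q; decide

/-- its unit -/
noncomputable def reflU (a : ι → ZMod 2) : Matrix.GeneralLinearGroup ι (ZMod 2) :=
  ⟨reflMat hQ a, reflMat hQ a, reflMat_sq hQ a, reflMat_sq hQ a⟩

theorem reflU_mem {a : ι → ZMod 2} (ha : Q a = 1) :
    reflU hQ a ∈ Cfsg.isometryGroup (ZMod 2) Q := by
  intro u _
  show Q (reflMat hQ a *ᵥ u) = Q u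
  rw [reflMat_mulVec, Q_add hQ]
  rcases z2 (pol Q u a) with h | h
  · rw [h, zero_smul, hQ.zero, pol_comm, pol_zero_left hQ, add_zero, add_zero]
  · rw [h, one_smul, ha, h]
    generalize Q u = x
    revert x; decide

variable (Q) in
/-- the action of the commutator subgroup of the isometry group -/
def actO : ↥(Cfsg.Omega (ZMod 2) Q) →* Matrix ι ι (ZMod 2) :=
  (Units.coeHom (Matrix ι ι (ZMod 2))).comp
    ((Cfsg.isometryGroup (ZMod 2) Q).subtype.comp (Cfsg.Omega (ZMod 2) Q).subtype)

theorem actO_inj : Function.Injective (actO Q) := by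
  intro g h hgh
  have h1 : ((g : ↥(Cfsg.isometryGroup (ZMod 2) Q)) : GL ι (ZMod 2)) =
      ((h : ↥(Cfsg.isometryGroup (ZMod 2) Q)) : GL ι (ZMod 2)) := Units.ext hgh
  exact Subtype.ext (Subtype.ext h1)

theorem actO_Q (g : ↥(Cfsg.Omega (ZMod 2) Q)) (v : ι → ZMod 2) : Q (actO Q g *ᵥ v) = Q v :=
  (g : ↥(Cfsg.isometryGroup (ZMod 2) Q)).2 v v

include hQ in
theorem exists_t (a b : ι → ZMod 2) (h : Pr Q a b) : ∃ t, IsT (actO Q) Q a b t := by
  set ra : ↥(Cfsg.isometryGroup (ZMod 2) Q) := ⟨reflU hQ a, reflU_mem hQ h.1⟩ with hra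
  set rb : ↥(Cfsg.isometryGroup (ZMod 2) Q) := ⟨reflU hQ b, reflU_mem hQ h.2.1⟩ with hrb
  have hma : ∀ v, ((ra : GL ι (ZMod 2)) : Matrix ι ι (ZMod 2)) *ᵥ v = v + pol Q v a • a :=
    fun v => reflMat_mulVec hQ a v
  have hmb : ∀ v, ((rb : GL ι (ZMod 2)) : Matrix ι ι (ZMod 2)) *ᵥ v = v + pol Q v b • b :=
    fun v => reflMat_mulVec hQ b v
  have hasq : ra * ra = 1 := by
    apply Subtype.ext; apply Units.ext
    exact reflMat_sq hQ a
  have hbsq : rb * rb = 1 := by
    apply Subtype.ext; apply Units.ext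
    exact reflMat_sq hQ b
  have hac : ra⁻¹ = ra := inv_eq_of_mul_eq_one_left hasq
  have hbc : rb⁻¹ = rb := inv_eq_of_mul_eq_one_left hbsq
  have hcube : (ra * rb) * ((ra * rb) * (ra * rb)) = 1 := by
    apply Subtype.ext; apply Units.ext
    apply Matrix.mulVec_injective
    funext v
    have e : ∀ v, ((((ra * rb : ↥(Cfsg.isometryGroup (ZMod 2) Q)) : GL ι (ZMod 2)) :
        Matrix ι ι (ZMod 2))) *ᵥ v = v + pol Q v b • b + (pol Q v a + pol Q v b) • a := by
      intro v
      have : ((((ra * rb : ↥(Cfsg.isometryGroup (ZMod 2) Q)) : GL ι (ZMod 2)) :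
        Matrix ι ι (ZMod 2))) = ((ra : GL ι (ZMod 2)) : Matrix ι ι (ZMod 2)) *
          ((rb : GL ι (ZMod 2)) : Matrix ι ι (ZMod 2)) := rfl
      rw [this, ← Matrix.mulVec_mulVec, hmb v, hma, hQ.add_left, pol_smul_left hQ,
        pol_comm Q b a, h.2.2, mul_one]
    have e2 : ((((ra * rb) * ((ra * rb) * (ra * rb)) : ↥(Cfsg.isometryGroup (ZMod 2) Q)) :
        GL ι (ZMod 2)) : Matrix ι ι (ZMod 2)) =
        ((((ra * rb : ↥(Cfsg.isometryGroup (ZMod 2) Q)) : GL ι (ZMod 2)) :
          Matrix ι ι (ZMod 2))) *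
        (((((ra * rb : ↥(Cfsg.isometryGroup (ZMod 2) Q)) : GL ι (ZMod 2)) :
          Matrix ι ι (ZMod 2))) *
        ((((ra * rb : ↥(Cfsg.isometryGroup (ZMod 2) Q)) : GL ι (ZMod 2)) :
          Matrix ι ι (ZMod 2)))) := rfl
    rw [e2, ← Matrix.mulVec_mulVec, ← Matrix.mulVec_mulVec, e, e, e]
    simp only [hQ.add_left, pol_smul_left hQ, pol_self hQ, h.2.2, pol_comm Q b a]
    have e3 : ((((1 : ↥(Cfsg.isometryGroup (ZMod 2) Q)) : GL ι (ZMod 2)) :
        Matrix ι ι (ZMod 2))) *ᵥ v = v := Matrix.one_mulVec v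
    rw [e3]
    funext i
    simp only [Pi.add_apply, Pi.smul_apply, smul_eq_mul]
    generalize pol Q v a = x
    generalize pol Q v b = y
    generalize v i = p
    generalize a i = q
    generalize b i = r
    revert x y p q r; decide
  have hmem : ra * rb ∈ Cfsg.Omega (ZMod 2) Q := by
    have : ra * rb = ⁅ra, ra * rb⁆ := by
      rw [commutatorElement_def, _root_.mul_inv_rev, hac, hbc]
      have h1 : ra * rb * ra * rb * ra * rb = 1 := by
        rw [← hcube]; group
      have h2 : rb * ra * rb * ra * rb = ra := by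
        have : ra * (ra * rb * ra * rb * ra * rb) = ra := by rw [h1, mul_one]
        calc rb * ra * rb * ra * rb = (ra * ra) * rb * ra * rb * ra * rb := by
              rw [hasq, one_mul]
          _ = ra * (ra * rb * ra * rb * ra * rb) := by simp only [mul_assoc]
          _ = ra := this
      calc ra * rb = ra * rb * 1 := by rw [mul_one]
        _ = ra * (ra * rb) * ra * (rb * ra) := by
            have h3 : ra * (ra * rb) * ra * (rb * ra) = (ra * ra) * (rb * ra * rb * ra) := by
              simp only [mul_assoc]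
            rw [h3, hasq, one_mul]
            have h4 : rb * ra * rb * ra = ra * rb := by
              calc rb * ra * rb * ra = (rb * ra * rb * ra * rb) * rb := by
                    rw [mul_assoc (rb * ra * rb * ra), hbsq, mul_one]
                _ = ra * rb := by rw [h2]
            rw [h4, mul_one]
    rw [this]
    exact Subgroup.commutator_mem_commutator (Subgroup.mem_top _) (Subgroup.mem_top _)
  refine ⟨⟨ra * rb, hmem⟩, fun v => ?_⟩
  have : actO Q ⟨ra * rb, hmem⟩ = ((ra : GL ι (ZMod 2)) : Matrix ι ι (ZMod 2)) *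
          ((rb : GL ι (ZMod 2)) : Matrix ι ι (ZMod 2)) := rfl
  rw [this, ← Matrix.mulVec_mulVec, hmb v, hma, hQ.add_left, pol_smul_left hQ,
        pol_comm Q b a, h.2.2, mul_one]

include hQ in
/-- The vanishing theorem for an explicit basis of non-singular vectors. -/
theorem vanish (f : ↥(Cfsg.Omega (ZMod 2) Q) → (ι → ZMod 2))
    (hf : ∀ g h, f (g * h) = f g + actO Q g *ᵥ f h)
    (e : ι → (ι → ZMod 2)) (he : ∀ i, Q (e i) = 1) (hpair : ∀ i, ∃ j, pol Q (e i) (e j) = 1)
    (hrad : ∀ w, (∀ i, pol Q w (e i) = 0) → w = 0)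
    (rk : (ι → ZMod 2) → ℕ)
    (hrk : ∀ a, Q a = 1 → (∃ i, a = e i) ∨ ∃ i, pol Q a (e i) = 1 ∧ rk (a + e i) < rk a) :
    ∃ v, ∀ g, f g = actO Q g *ᵥ v - v := by
  refine principal hQ actO_inj actO_Q hf (exists_t hQ) e he hpair hrad ?_
  intro P hP hstep
  have main : ∀ n a, rk a ≤ n → Q a = 1 → P a := by
    intro n
    induction n with
    | zero =>
      intro a ha hqa
      rcases hrk a hqa with ⟨i, rfl⟩ | ⟨i, _, h2⟩
      · exact hP i
      · omega
    | succ n ih =>
      intro a ha hqa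
      rcases hrk a hqa with ⟨i, rfl⟩ | ⟨i, h1, h2⟩
      · exact hP i
      · have h3 : Q (a + e i) = 1 := by
          rw [Q_add hQ, hqa, he, h1]; decide
        have h4 : P (a + e i) := ih _ (by omega) h3
        have h5 : a = (a + e i) + e i := by
          funext k
          simp only [Pi.add_apply]
          generalize a k = x
          generalize e i k = y
          revert x y; decide
        rw [h5]
        refine hstep _ i ⟨h3, he i, ?_⟩ h4
        rw [hQ.add_left, h1, pol_self hQ, add_zero]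
  intro a ha
  exact main (rk a) a le_rfl ha

end refl

theorem isQ_plus (m : ℕ) : IsQ (Cfsg.quadFormPlus m (ZMod 2)) where
  zero := by simp [Cfsg.quadFormPlus]
  add_left u v w := by
    simp only [pol, Cfsg.quadFormPlus, Pi.add_apply, ← Finset.sum_add_distrib]
    apply Finset.sum_congr rfl
    intro i _
    generalize u (Sum.inl i) = x1
    generalize u (Sum.inr i) = x2
    generalize v (Sum.inl i) = y1
    generalize v (Sum.inr i) = y2
    generalize w (Sum.inl i) = z1
    generalize w (Sum.inr i) = z2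
    revert x1 x2 y1 y2 z1 z2; decide

theorem isQ_minus (m : ℕ) : IsQ (Cfsg.quadFormMinus m (ZMod 2) 1 1) where
  zero := by simp [Cfsg.quadFormMinus]
  add_left u v w := by
    have h1 := (isQ_plus m).add_left (fun i => u (Sum.inl i)) (fun i => v (Sum.inl i))
      (fun i => w (Sum.inl i))
    simp only [pol, Cfsg.quadFormPlus, Pi.add_apply] at h1
    simp only [pol, Cfsg.quadFormMinus, Pi.add_apply]
    have h2 : ∀ x1 x2 y1 y2 z1 z2 : ZMod 2,
        ((x1 + y1 + z1) ^ 2 + 1 * (x1 + y1 + z1) * (x2 + y2 + z2) + 1 * (x2 + y2 + z2) ^ 2) +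
        ((x1 + y1) ^ 2 + 1 * (x1 + y1) * (x2 + y2) + 1 * (x2 + y2) ^ 2) +
        (z1 ^ 2 + 1 * z1 * z2 + 1 * z2 ^ 2) =
        (((x1 + z1) ^ 2 + 1 * (x1 + z1) * (x2 + z2) + 1 * (x2 + z2) ^ 2) +
        (x1 ^ 2 + 1 * x1 * x2 + 1 * x2 ^ 2) +
        (z1 ^ 2 + 1 * z1 * z2 + 1 * z2 ^ 2)) +
        (((y1 + z1) ^ 2 + 1 * (y1 + z1) * (y2 + z2) + 1 * (y2 + z2) ^ 2) +
        (y1 ^ 2 + 1 * y1 * y2 + 1 * y2 ^ 2) +
        (z1 ^ 2 + 1 * z1 * z2 + 1 * z2 ^ 2)) := by
      intro x1 x2 y1 y2 z1 z2
      revert x1 x2 y1 y2 z1 z2; decide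
    have h3 := h2 (u (Sum.inr 0)) (u (Sum.inr 1)) (v (Sum.inr 0)) (v (Sum.inr 1))
      (w (Sum.inr 0)) (w (Sum.inr 1))
    linear_combination h1 + h3

end Cfsg.Agent.Lib.H2OrthH1
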