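import Mathlib

/-! Involution centralizers with generalized Fitting subgroup of symplectic type and exponent four:
`z^g ∈ Q` implies `z ∈ Q^g` (helper30). -/

set_option autoImplicit false

open Subgroup

universe u

namespace Cfsg.Agent.Lib.H30SympA

variable {G : Type u} [Group G]

structure Lg (z : G) (Q : Subgroup G) : Prop where
  z2 : z * z = 1
  z1 : z ≠ 1
  zQ : z ∈ Q
  cen : ∀ q ∈ Q, q * z = z * q
  norm : ∀ c : G, c * z = z * c → ∀ q ∈ Q, c * q * c⁻¹ ∈ Q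
  self : ∀ x : G, (∀ q ∈ Q, x * q = q * x) → x ∈ Q
  sq : ∀ q ∈ Q, q * q = 1 ∨ q * q = z
  com : ∀ x ∈ Q, ∀ y ∈ Q, x * y * x⁻¹ * y⁻¹ = 1 ∨ x * y * x⁻¹ * y⁻¹ = z
  cz : ∀ u ∈ Q, (∀ q ∈ Q, u * q = q * u) → u * u = 1 → u = 1 ∨ u = z
  two : IsPGroup 2 Q
  small : IsPGroup 2 ↥(Subgroup.centralizer ({z} : Set G)) → ∀ x : G, x * z = z * x → x ∈ Q

theorem Lg.conj {z : G} {Q : Subgroup G} (h : Lg z Q) (g : G) :
    Lg (g * z * g⁻¹) (Q.map (MulAut.conj g).toMonoidHom) := by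
  have hmem : ∀ x, x ∈ Q.map (MulAut.conj g).toMonoidHom ↔ g⁻¹ * x * g ∈ Q := by
    intro x
    constructor
    · rintro ⟨y, hy, rfl⟩
      have e : g⁻¹ * ((MulAut.conj g).toMonoidHom y) * g = y := by
        change g⁻¹ * (g * y * g⁻¹) * g = y
        group
      rw [e]; exact hy
    · intro hx
      exact ⟨_, hx, by change g * (g⁻¹ * x * g) * g⁻¹ = x; group⟩
  have hcomm : ∀ x y : G, x * y = y * x → (g * x * g⁻¹) * (g * y * g⁻¹) = (g * y * g⁻¹) * (g * x * g⁻¹) := by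
    intro x y hxy
    calc (g * x * g⁻¹) * (g * y * g⁻¹) = g * (x * y) * g⁻¹ := by group
      _ = _ := by rw [hxy]; group
  have hcomm' : ∀ x y : G, x * y = y * x → (g⁻¹ * x * g) * (g⁻¹ * y * g) = (g⁻¹ * y * g) * (g⁻¹ * x * g) := by
    intro x y hxy
    calc (g⁻¹ * x * g) * (g⁻¹ * y * g) = g⁻¹ * (x * y) * g := by group
      _ = _ := by rw [hxy]; group
  have hz' : g⁻¹ * (g * z * g⁻¹) * g = z := by group
  refine ⟨?_, ?_, ?_, ?_, ?_, ?_, ?_, ?_, ?_, ?_, ?_⟩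
  · calc g * z * g⁻¹ * (g * z * g⁻¹) = g * (z * z) * g⁻¹ := by group
      _ = 1 := by rw [h.z2]; group
  · intro h1
    rw [conj_eq_one_iff] at h1
    exact h.z1 h1
  · exact ⟨z, h.zQ, rfl⟩
  · rintro _ ⟨q, hq, rfl⟩
    exact hcomm q z (h.cen q hq)
  · intro c hc x hx
    rw [hmem] at hx ⊢
    have h1 := hcomm' _ _ hc
    rw [hz'] at h1
    have h2 := h.norm _ h1 _ hx
    have e : g⁻¹ * c * g * (g⁻¹ * x * g) * (g⁻¹ * c * g)⁻¹ = g⁻¹ * (c * x * c⁻¹) * g := by group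
    rwa [e] at h2
  · intro x hx
    rw [hmem]
    apply h.self
    intro q hq
    have h1 := hcomm' _ _ (hx (g * q * g⁻¹) ⟨q, hq, rfl⟩)
    have e : g⁻¹ * (g * q * g⁻¹) * g = q := by group
    rwa [e] at h1
  · rintro _ ⟨q, hq, rfl⟩
    change g * q * g⁻¹ * (g * q * g⁻¹) = 1 ∨ g * q * g⁻¹ * (g * q * g⁻¹) = g * z * g⁻¹
    have e : g * q * g⁻¹ * (g * q * g⁻¹) = g * (q * q) * g⁻¹ := by group
    rw [e]
    rcases h.sq q hq with h1 | h1
    · left; rw [h1]; group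
    · right; rw [h1]
  · rintro _ ⟨x, hx, rfl⟩ _ ⟨y, hy, rfl⟩
    change g * x * g⁻¹ * (g * y * g⁻¹) * (g * x * g⁻¹)⁻¹ * (g * y * g⁻¹)⁻¹ = 1 ∨
      g * x * g⁻¹ * (g * y * g⁻¹) * (g * x * g⁻¹)⁻¹ * (g * y * g⁻¹)⁻¹ = g * z * g⁻¹
    have e : g * x * g⁻¹ * (g * y * g⁻¹) * (g * x * g⁻¹)⁻¹ * (g * y * g⁻¹)⁻¹ = g * (x * y * x⁻¹ * y⁻¹) * g⁻¹ := by group
    rw [e]
    rcases h.com x hx y hy with h1 | h1
    · left; rw [h1]; group
    · right; rw [h1]
  · rintro _ ⟨u, hu, rfl⟩ h1 h2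
    change g * u * g⁻¹ = 1 ∨ g * u * g⁻¹ = g * z * g⁻¹
    change g * u * g⁻¹ * (g * u * g⁻¹) = 1 at h2
    have e : g⁻¹ * (g * u * g⁻¹) * g = u := by group
    rcases h.cz u hu (by
      intro q hq
      have h3 := hcomm' _ _ (h1 (g * q * g⁻¹) ⟨q, hq, rfl⟩)
      have e2 : g⁻¹ * (g * q * g⁻¹) * g = q := by group
      have e3 : g⁻¹ * ((MulAut.conj g).toMonoidHom u) * g = u := e
      rw [e2, e3] at h3
      exact h3) (by
      have e4 : g * u * g⁻¹ * (g * u * g⁻¹) = g * (u * u) * g⁻¹ := by group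
      rw [e4, conj_eq_one_iff] at h2
      exact h2) with h3 | h3
    · left; rw [h3]; group
    · right; rw [h3]
  · exact h.two.map _
  · intro h1 x hx
    rw [hmem]
    apply h.small
    · intro c
      have h2 : g * (c : G) * g⁻¹ ∈ Subgroup.centralizer ({g * z * g⁻¹} : Set G) := by
        rw [Subgroup.mem_centralizer_singleton_iff]
        exact hcomm _ _ (Subgroup.mem_centralizer_singleton_iff.1 c.2)
      obtain ⟨k, hk⟩ := h1 ⟨_, h2⟩
      refine ⟨k, Subtype.ext ?_⟩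
      have h3 : (g * (c : G) * g⁻¹) ^ 2 ^ k = 1 := congrArg Subtype.val hk
      rw [conj_pow, conj_eq_one_iff] at h3
      exact h3
    · have := hcomm' _ _ hx
      rwa [hz'] at this

variable {z : G} {Q : Subgroup G}

theorem Lg.conj_eq (h : Lg z Q) {x s : G} (hx : x ∈ Q) (hs : s ∈ Q) (hne : x * s ≠ s * x) :
    x * s * x⁻¹ = z * s := by
  rcases h.com x hx s hs with h1 | h1
  · exfalso
    rw [mul_inv_eq_one, mul_inv_eq_iff_eq_mul] at h1
    exact hne h1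
  · rw [← h1]; group

/-- moving the involution -/
theorem Lg.key (h : Lg z Q) {g : G} (hne : g * z * g⁻¹ ≠ z) (hs : g * z * g⁻¹ ∈ Q) {r : G}
    (hrs : r * (g * z * g⁻¹) = (g * z * g⁻¹) * r) (hrz : r * z * r⁻¹ = z * (g * z * g⁻¹)) :
    z ∈ Q.map (MulAut.conj g).toMonoidHom := by
  obtain ⟨s, hs'⟩ : ∃ s, s = g * z * g⁻¹ := ⟨_, rfl⟩
  rw [← hs'] at hne hs hrs hrz
  have hs2 : s * s = 1 := by
    rw [hs']
    calc g * z * g⁻¹ * (g * z * g⁻¹) = g * (z * z) * g⁻¹ := by group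
      _ = 1 := by rw [h.z2]; group
  have hs1 : s ≠ 1 := by
    rw [hs']; intro h1
    rw [conj_eq_one_iff] at h1
    exact h.z1 h1
  -- q
  obtain ⟨q, hq, hqs⟩ : ∃ q ∈ Q, s * q ≠ q * s := by
    by_contra hcon
    push Not at hcon
    rcases h.cz s hs hcon hs2 with h1 | h1
    · exact hs1 h1
    · exact hne h1
  have hqs' := h.conj_eq hq hs (fun h1 => hqs h1.symm)
  have hqz : q * z * q⁻¹ = z := by rw [h.cen q hq, mul_inv_cancel_right]
  have hzs : z * s = s * z := (h.cen s hs).symm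
  -- n = q r
  have hn1 : (q * r) * z * (q * r)⁻¹ = s := by
    calc (q * r) * z * (q * r)⁻¹ = q * (r * z * r⁻¹) * q⁻¹ := by group
      _ = (q * z * q⁻¹) * (q * s * q⁻¹) := by rw [hrz]; group
      _ = (z * z) * s := by rw [hqz, hqs', mul_assoc]
      _ = s := by rw [h.z2, one_mul]
  have hn2 : (q * r) * s * (q * r)⁻¹ = z * s := by
    calc (q * r) * s * (q * r)⁻¹ = q * (r * s) * r⁻¹ * q⁻¹ := by group
      _ = q * s * q⁻¹ := by rw [hrs]; group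
      _ = z * s := hqs'
  have hn3 : (q * r) * (z * s) * (q * r)⁻¹ = z := by
    calc (q * r) * (z * s) * (q * r)⁻¹ = ((q * r) * z * (q * r)⁻¹) * ((q * r) * s * (q * r)⁻¹) := by group
      _ = s * (z * s) := by rw [hn1, hn2]
      _ = z * (s * s) := by rw [← mul_assoc s z s, ← hzs, mul_assoc]
      _ = z := by rw [hs2, mul_one]
  -- g⁻¹ n centralizes z
  have hc : (g⁻¹ * (q * r)) * z = z * (g⁻¹ * (q * r)) := by
    have h1 : (q * r) * z = s * (q * r) := by rw [← hn1]; group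
    calc (g⁻¹ * (q * r)) * z = g⁻¹ * ((q * r) * z) := by group
      _ = g⁻¹ * (s * (q * r)) := by rw [h1]
      _ = z * (g⁻¹ * (q * r)) := by rw [hs']; group
  have h2 := h.norm _ hc _ (Q.mul_mem h.zQ hs)
  refine ⟨_, h2, ?_⟩
  change g * (g⁻¹ * (q * r) * (z * s) * (g⁻¹ * (q * r))⁻¹) * g⁻¹ = z
  have e : g * (g⁻¹ * (q * r) * (z * s) * (g⁻¹ * (q * r))⁻¹) * g⁻¹ = (q * r) * (z * s) * (q * r)⁻¹ := by group
  exact e.trans hn3

end Cfsg.Agent.Lib.H30SympA
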