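import Mathlib
import Cfsg.Agent.Lib.H30SympA

/-! Involution centralizers with generalized Fitting subgroup of symplectic type and exponent four:
`z^g ∈ Q` implies `z ∈ Q^g` (helper30). -/

set_option autoImplicit false

open Subgroup

universe u

namespace Cfsg.Agent.Lib.H30SympB

open H30SympA

variable {G : Type u} [Group G] {z s : G} {Q R : Subgroup G}

/-- elements of `Q` commuting with `C_Q(s)` -/
theorem cent_cases (h : Lg z Q) (hs : s ∈ Q) (hs2 : s * s = 1) {q : G} (hq : q ∈ Q) (hqs : q * s ≠ s * q)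
    {d : G} (hd : d ∈ Q) (hd2 : d * d = 1) (hdc : ∀ x ∈ Q, x * s = s * x → d * x = x * d) :
    d = 1 ∨ d = z ∨ d = s ∨ d = z * s := by
  have hds : d * s = s * d := hdc s hs rfl
  have hcov : ∀ y ∈ Q, y * s = s * y ∨ (q⁻¹ * y) * s = s * (q⁻¹ * y) := by
    intro y hy
    by_cases hys : y * s = s * y
    · left; exact hys
    · right
      have h1 := h.conj_eq hy hs hys
      have h2 := h.conj_eq hq hs hqs
      have h3 : y * s * y⁻¹ = q * s * q⁻¹ := by rw [h1, h2]
      calc (q⁻¹ * y) * s = q⁻¹ * (y * s * y⁻¹) * y := by group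
        _ = s * (q⁻¹ * y) := by rw [h3]; group
  have hall : ∀ e ∈ Q, e * e = 1 → (∀ x ∈ Q, x * s = s * x → e * x = x * e) → e * q = q * e → e = 1 ∨ e = z := by
    intro e he he2 hec heq
    apply h.cz e he _ he2
    intro y hy
    rcases hcov y hy with h1 | h1
    · exact hec y hy h1
    · have h2 := hec _ (Q.mul_mem (Q.inv_mem hq) hy) h1
      calc e * y = (e * q) * (q⁻¹ * y) := by group
        _ = q * (e * (q⁻¹ * y)) := by rw [heq]; group
        _ = y * e := by rw [h2]; group
  by_cases hdq : d * q = q * d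
  · rcases hall d hd hd2 hdc hdq with h1 | h1
    · left; exact h1
    · right; left; exact h1
  · have h1 := h.conj_eq hq hd (fun h1 => hdq h1.symm)
    have h2 := h.conj_eq hq hs hqs
    have h3 : (d * s) * q = q * (d * s) := by
      have h4 : q * (d * s) * q⁻¹ = d * s := by
        calc q * (d * s) * q⁻¹ = (q * d * q⁻¹) * (q * s * q⁻¹) := by group
          _ = (z * d) * (z * s) := by rw [h1, h2]
          _ = z * (d * z) * s := by group
          _ = (z * z) * (d * s) := by rw [h.cen d hd]; group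
          _ = d * s := by rw [h.z2, one_mul]
      rw [mul_inv_eq_iff_eq_mul] at h4
      exact h4.symm
    have h5 : (d * s) * (d * s) = 1 := by
      calc (d * s) * (d * s) = d * (s * d) * s := by group
        _ = (d * d) * (s * s) := by rw [← hds]; group
        _ = 1 := by rw [hd2, hs2, one_mul]
    rcases hall (d * s) (Q.mul_mem hd hs) h5 (by
      intro x hx hxs
      calc d * s * x = d * (s * x) := by group
        _ = (d * x) * s := by rw [← hxs]; group
        _ = x * (d * s) := by rw [hdc x hx hxs]; group) h3 with h6 | h6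
    · right; right; left
      have : d = s⁻¹ := eq_inv_of_mul_eq_one_left h6
      rw [this, inv_eq_of_mul_eq_one_right hs2]
    · right; right; right
      have : d = (d * s) * s := by rw [mul_assoc, hs2, mul_one]
      rw [this, h6]

/-- Case 1: an element of order four in `C_Q(s)`. -/
theorem case1 [Finite G] (h : Lg z Q) (hR : Lg s R) (hs : s ∈ Q) {q : G} (hq : q ∈ Q)
    (hqs : q * s ≠ s * q) (hzR : z ∉ R) (hno : ∀ r ∈ R, r * z * r⁻¹ ≠ z * s)
    {x : G} (hx : x ∈ Q) (hxs : x * s = s * x) (hxz : x * x = z) : False := by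
  -- Q ∩ R = {1, s}
  have hD2 : ∀ d ∈ Q, d ∈ R → d * d = 1 := by
    intro d hd hdR
    rcases h.sq d hd with h1 | h1
    · exact h1
    · exfalso; apply hzR; rw [← h1]; exact R.mul_mem hdR hdR
  have hDc : ∀ d ∈ Q, d ∈ R → ∀ y ∈ Q, y * s = s * y → d * y = y * d := by
    intro d hd hdR y hy hys
    have h1 : y * d * y⁻¹ * d⁻¹ ∈ R := R.mul_mem (hR.norm y hys d hdR) (R.inv_mem hdR)
    rcases h.com y hy d hd with h2 | h2
    · rw [mul_inv_eq_one, mul_inv_eq_iff_eq_mul] at h2
      exact h2.symm
    · exfalso; apply hzR; rw [← h2]; exact h1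
  have hD : ∀ d ∈ Q, d ∈ R → d = 1 ∨ d = s := by
    intro d hd hdR
    rcases cent_cases h hs hR.z2 hq hqs hd (hD2 d hd hdR) (hDc d hd hdR) with h1 | h1 | h1 | h1
    · left; exact h1
    · exfalso; apply hzR; rw [← h1]; exact hdR
    · right; exact h1
    · exfalso; apply hzR
      have : z = d * s := by rw [h1, mul_assoc, hR.z2, mul_one]
      rw [this]; exact R.mul_mem hdR hR.zQ
  -- commutators with C_R(z)
  have hcomm : ∀ r ∈ R, r * z = z * r → ∀ y ∈ Q, y * s = s * y →
      y * r * y⁻¹ * r⁻¹ = 1 ∨ y * r * y⁻¹ * r⁻¹ = s := by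
    intro r hr hrz y hy hys
    apply hD
    · have h1 := h.norm r hrz y⁻¹ (Q.inv_mem hy)
      have h2 := Q.mul_mem hy h1
      have e : y * (r * y⁻¹ * r⁻¹) = y * r * y⁻¹ * r⁻¹ := by group
      rwa [e] at h2
    · exact R.mul_mem (hR.norm y hys r hr) (R.inv_mem hr)
  have hsR : ∀ r ∈ R, r * s = s * r := hR.cen
  -- the subgroup T
  let T : Subgroup G :=
    { carrier := {r | r ∈ R ∧ (x * r * x⁻¹ * r⁻¹ = 1 ∨ x * r * x⁻¹ * r⁻¹ = s)}
      mul_mem' := by
        rintro a b ⟨ha, ha'⟩ ⟨hb, hb'⟩
        refine ⟨R.mul_mem ha hb, ?_⟩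
        have e : x * (a * b) * x⁻¹ * (a * b)⁻¹ = (x * a * x⁻¹ * a⁻¹) * (a * (x * b * x⁻¹ * b⁻¹) * a⁻¹) := by group
        rw [e]
        rcases ha' with h1 | h1 <;> rcases hb' with h2 | h2
        · left; rw [h1, h2]; group
        · right; rw [h1, h2, hsR a ha]; group
        · right; rw [h1, h2]; group
        · left; rw [h1, h2, hsR a ha, mul_inv_cancel_right, hR.z2]
      one_mem' := ⟨R.one_mem, Or.inl (by group)⟩
      inv_mem' := by
        rintro a ⟨ha, ha'⟩
        refine ⟨R.inv_mem ha, ?_⟩
        have e : x * a⁻¹ * x⁻¹ * a⁻¹⁻¹ = a⁻¹ * (x * a * x⁻¹ * a⁻¹)⁻¹ * a := by group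
        rw [e]
        rcases ha' with h1 | h1
        · left; rw [h1]; group
        · right
          rw [h1, inv_eq_of_mul_eq_one_right hR.z2]
          have := hsR a⁻¹ (R.inv_mem ha)
          rw [this, inv_mul_cancel_right] }
  have hTx : ∀ t ∈ T, x * t * x⁻¹ ∈ T := by
    rintro t ⟨ht, ht'⟩
    refine ⟨hR.norm x hxs t ht, ?_⟩
    have e : x * (x * t * x⁻¹) * x⁻¹ * (x * t * x⁻¹)⁻¹ = x * (x * t * x⁻¹ * t⁻¹) * x⁻¹ := by group
    rw [e]
    rcases ht' with h1 | h1
    · left; rw [h1]; group
    · right; rw [h1, hxs, mul_inv_cancel_right]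
  -- T = R
  have hTR : ∀ r ∈ R, r ∈ T := by
    by_contra hcon
    push Not at hcon
    -- find r ∈ R \ T with [x,r] ∈ T
    obtain ⟨r, hr, hrT, hxr⟩ : ∃ r ∈ R, r ∉ T ∧ x * r * x⁻¹ * r⁻¹ ∈ T := by
      -- the chain: use the action of ⟨x⟩ on the right cosets
      haveI : Fact (Nat.Prime 2) := ⟨Nat.prime_two⟩
      let Rx : Subgroup G := R
      -- consider iterated commutators
      by_contra hno'
      push Not at hno'
      -- define X = R / T with action of zpowers x
      let T' : Subgroup R := T.subgroupOf R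
      have hxR : ∀ k : zpowers x, ∀ r ∈ R, (k : G) * r * (k : G)⁻¹ ∈ R := by
        intro k r hr
        obtain ⟨j, hj⟩ := mem_zpowers_iff.1 k.2
        apply hR.norm _ _ r hr
        rw [← hj]
        exact (show Commute x s from hxs).zpow_left j
      have hxT : ∀ k : zpowers x, ∀ t ∈ T, (k : G) * t * (k : G)⁻¹ ∈ T := by
        have hle : zpowers x ≤ Subgroup.normalizer (T : Set G) := by
          rw [zpowers_le]
          apply Subgroup.mem_normalizer_fintype
          intro n hn
          exact hTx n hn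
        intro k t ht
        exact (Subgroup.mem_normalizer_iff.1 (hle k.2) t).1 ht
      let act : MulAction (zpowers x) (R ⧸ T') :=
        { smul := fun k => Quotient.map' (fun r => (⟨(k : G) * r * (k : G)⁻¹, hxR k r r.2⟩ : R)) (by
            intro a b hab
            rw [QuotientGroup.leftRel_apply] at hab ⊢
            have h1 : ((a⁻¹ * b : R) : G) ∈ T := hab
            have h2 := hxT k _ h1
            change ((k : G) * a * (k : G)⁻¹)⁻¹ * ((k : G) * b * (k : G)⁻¹) ∈ T
            have e : ((k : G) * a * (k : G)⁻¹)⁻¹ * ((k : G) * b * (k : G)⁻¹) =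
              (k : G) * ((a⁻¹ * b : R) : G) * (k : G)⁻¹ := by
              rw [Subgroup.coe_mul, Subgroup.coe_inv]; group
            rw [e]; exact h2)
          one_smul := by
            rintro ⟨r⟩
            change Quotient.mk'' _ = Quotient.mk'' _
            congr 1
            apply Subtype.ext
            change (1 : G) * r * (1 : G)⁻¹ = r
            group
          mul_smul := by
            rintro k l ⟨r⟩
            change Quotient.mk'' _ = Quotient.mk'' _
            congr 1
            apply Subtype.ext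
            change ((k : G) * l) * r * ((k : G) * l)⁻¹ = k * (l * r * (l : G)⁻¹) * (k : G)⁻¹
            group }
      have hmk : ∀ (k : zpowers x) (r : R), k • (QuotientGroup.mk r : R ⧸ T') =
          QuotientGroup.mk (⟨(k : G) * r * (k : G)⁻¹, hxR k r r.2⟩ : R) := fun k r => rfl
      have hx2 : IsPGroup 2 (zpowers x) := h.two.to_le (zpowers_le.2 hx)
      obtain ⟨r₀, hr₀, hr₀T⟩ := hcon
      have hcard : 2 ∣ Nat.card (R ⧸ T') := by
        rw [← Subgroup.index_eq_card]
        obtain ⟨n, hn⟩ := (IsPGroup.iff_card (p := 2)).mp hR.two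
        have h1 : T'.index ∣ 2 ^ n := by rw [← hn]; exact T'.index_dvd_card
        obtain ⟨m, hm, hm'⟩ := (Nat.dvd_prime_pow Nat.prime_two).1 h1
        rw [hm']
        apply dvd_pow_self
        rintro rfl
        rw [pow_zero, Subgroup.index_eq_one] at hm'
        have : (⟨r₀, hr₀⟩ : R) ∈ T' := hm' ▸ Subgroup.mem_top _
        exact hr₀T this
      have hfix : (QuotientGroup.mk (1 : R) : R ⧸ T') ∈ MulAction.fixedPoints (zpowers x) (R ⧸ T') := by
        intro k
        rw [hmk]
        congr 1
        apply Subtype.ext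
        change (k : G) * 1 * (k : G)⁻¹ = 1
        group
      obtain ⟨c, hc, hc1⟩ := hx2.exists_fixed_point_of_prime_dvd_card_of_fixed_point (R ⧸ T') hcard hfix
      obtain ⟨r, rfl⟩ := QuotientGroup.mk_surjective c
      have h1 := hc ⟨x, mem_zpowers x⟩
      rw [hmk, QuotientGroup.eq] at h1
      have hrT : (r : G)⁻¹ ∉ T := by
        intro h2
        apply hc1
        rw [QuotientGroup.eq]
        change (1 : G)⁻¹ * (r : G) ∈ T
        rw [inv_one, one_mul]
        have := T.inv_mem h2
        rwa [inv_inv] at this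
      apply hno' (r : G)⁻¹ (R.inv_mem r.2) hrT
      have h2 : (x * (r : G) * x⁻¹)⁻¹ * (r : G) ∈ T := h1
      have e : x * (r : G)⁻¹ * x⁻¹ * (r : G)⁻¹⁻¹ = (x * (r : G) * x⁻¹)⁻¹ * (r : G) := by group
      rw [e]; exact h2
    obtain ⟨w, hw⟩ : ∃ w, w = x * r * x⁻¹ * r⁻¹ := ⟨_, rfl⟩
    rw [← hw] at hxr
    have hwr : x * r * x⁻¹ = w * r := by rw [hw]; group
    obtain ⟨ε, hε, hεs⟩ : ∃ ε, (ε = 1 ∨ ε = s) ∧ x * w * x⁻¹ = ε * w := by
      obtain ⟨-, h1⟩ := hxr
      exact ⟨_, h1, by group⟩
    have hw2 : w * w = 1 ∨ w * w = s := hR.sq w hxr.1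
    have hzr : z * r * z⁻¹ = ε * (w * w) * r := by
      calc z * r * z⁻¹ = x * (x * r * x⁻¹) * x⁻¹ := by rw [← hxz]; group
        _ = x * (w * r) * x⁻¹ := by rw [hwr]
        _ = (x * w * x⁻¹) * (x * r * x⁻¹) := by group
        _ = ε * (w * w) * r := by rw [hεs, hwr]; group
    have hzr' : z * r * z⁻¹ = r ∨ z * r * z⁻¹ = s * r := by
      rw [hzr]
      rcases hε with h1 | h1 <;> rcases hw2 with h2 | h2
      · left; rw [h1, h2]; group
      · right; rw [h1, h2]; group
      · right; rw [h1, h2]; group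
      · left; rw [h1, h2, hR.z2, one_mul]
    rcases hzr' with h1 | h1
    · rw [mul_inv_eq_iff_eq_mul] at h1
      exact hrT ⟨hr, hcomm r hr h1.symm x hx hxs⟩
    · apply hno r⁻¹ (R.inv_mem hr)
      -- r⁻¹ z r = s z
      have h2 : z * r = s * r * z := by rw [← h1]; group
      have h3 := hsR r hr
      calc r⁻¹ * z * r⁻¹⁻¹ = r⁻¹ * (z * r) := by group
        _ = r⁻¹ * (r * s) * z := by rw [h2, h3]; group
        _ = s * z := by group
        _ = z * s := h.cen s hs
  apply hzR
  apply hR.self
  intro r hr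
  obtain ⟨-, h1⟩ := hTR r hr
  obtain ⟨w, hw⟩ : ∃ w, w = x * r * x⁻¹ * r⁻¹ := ⟨_, rfl⟩
  rw [← hw] at h1
  have hwr : x * r * x⁻¹ = w * r := by rw [hw]; group
  have hxw : x * w * x⁻¹ = w := by
    rcases h1 with h1 | h1
    · rw [h1]; group
    · rw [h1, hxs, mul_inv_cancel_right]
  have hww : w * w = 1 := by
    rcases h1 with h1 | h1
    · rw [h1, one_mul]
    · rw [h1, hR.z2]
  have h2 : z * r * z⁻¹ = r := by
    calc z * r * z⁻¹ = x * (x * r * x⁻¹) * x⁻¹ := by rw [← hxz]; group
      _ = x * (w * r) * x⁻¹ := by rw [hwr]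
      _ = (x * w * x⁻¹) * (x * r * x⁻¹) := by group
      _ = (w * w) * r := by rw [hxw, hwr]; group
      _ = r := by rw [hww, one_mul]
  rw [mul_inv_eq_iff_eq_mul] at h2
  exact h2

/-- an element of odd order some square (power of two) power of which commutes -/
theorem comm_of_four {c s : G} {m : ℕ} (hm : Odd m) (hc : c ^ m = 1) {k : ℕ}
    (h4 : c ^ 2 ^ k * s = s * c ^ 2 ^ k) : c * s = s * c := by
  have h1 : c ∈ Subgroup.centralizer ({s} : Set G) := by
    have h2 : c ^ 2 ^ k ∈ Subgroup.centralizer ({s} : Set G) := Subgroup.mem_centralizer_singleton_iff.2 h4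
    have h3 : Nat.Coprime (2 ^ k) m := Nat.Coprime.pow_left _ (Nat.coprime_two_left.2 hm)
    have h5 : zpowers (c ^ 2 ^ k) = zpowers c := by
      apply le_antisymm
      · rw [zpowers_le]; exact pow_mem (mem_zpowers c) _
      · rw [zpowers_le]
        obtain ⟨a, b, hab⟩ := (Int.isCoprime_iff_gcd_eq_one (m := ((2 ^ k : ℕ) : ℤ)) (n := (m : ℤ))).2 (by
          rw [Int.gcd_natCast_natCast]; exact h3)
        rw [mem_zpowers_iff]
        refine ⟨a, ?_⟩
        have e : c = c ^ (a * ((2 ^ k : ℕ) : ℤ) + b * (m : ℤ)) := by rw [hab, zpow_one]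
        conv_rhs => rw [e]
        rw [zpow_add, mul_comm a, zpow_mul, zpow_natCast, mul_comm b, zpow_mul, zpow_natCast, hc, one_zpow, mul_one]
    have h6 : c ∈ zpowers (c ^ 2 ^ k) := h5 ▸ mem_zpowers c
    exact (zpowers_le.2 h2) h6
  exact Subgroup.mem_centralizer_singleton_iff.1 h1

/-- Case 2: `C_Q(s)` has exponent two. -/
theorem case2 [Finite G] (h : Lg z Q) (hs : s ∈ Q) (hs2 : s * s = 1) {q : G} (hq : q ∈ Q)
    (hqs : q * s ≠ s * q) (hno : ∀ x ∈ Q, x * s = s * x → x * x ≠ z) :
    ∀ x : G, x * z = z * x → x ∈ Q := by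
  have hsq1 : ∀ x ∈ Q, x * s = s * x → x * x = 1 := by
    intro x hx hxs
    rcases h.sq x hx with h1 | h1
    · exact h1
    · exact absurd h1 (hno x hx hxs)
  have hzs : s * z = z * s := h.cen s hs
  -- C_Q(s) is abelian
  have hab : ∀ x ∈ Q, x * s = s * x → ∀ y ∈ Q, y * s = s * y → x * y = y * x := by
    intro x hx hxs y hy hys
    have h1 := hsq1 x hx hxs
    have h2 := hsq1 y hy hys
    have h3 := hsq1 (x * y) (Q.mul_mem hx hy) (by rw [mul_assoc, hys, ← mul_assoc, hxs, mul_assoc])
    have e1 : x⁻¹ = x := inv_eq_of_mul_eq_one_right h1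
    have e2 : y⁻¹ = y := inv_eq_of_mul_eq_one_right h2
    have e3 : (x * y)⁻¹ = x * y := inv_eq_of_mul_eq_one_right h3
    rw [mul_inv_rev, e1, e2] at e3
    exact e3.symm
  have hQ1 : ∀ x ∈ Q, x * s = s * x → x = 1 ∨ x = z ∨ x = s ∨ x = z * s := by
    intro x hx hxs
    exact cent_cases h hs hs2 hq hqs hx (hsq1 x hx hxs) (fun y hy hys => hab x hx hxs y hy hys)
  have hconjs : ∀ y ∈ Q, y * s ≠ s * y → y * s * y⁻¹ = z * s := fun y hy hys => h.conj_eq hy hs hys
  -- an element f of order four
  obtain ⟨f, hf, hfs, hff⟩ : ∃ f ∈ Q, f * s ≠ s * f ∧ f * f = z := by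
    rcases h.sq q hq with h1 | h1
    · refine ⟨q * s, Q.mul_mem hq hs, ?_, ?_⟩
      · intro h2
        apply hqs
        rw [mul_assoc, hs2, mul_one] at h2
        rw [← mul_assoc] at h2
        have h3 : q * s = s * q := by
          calc q * s = (s * q * s) * s := by rw [← h2]
            _ = s * q := by rw [mul_assoc (s * q), hs2, mul_one]
        exact h3
      · have h2 := hconjs q hq hqs
        calc q * s * (q * s) = (q * s * q⁻¹) * (q * q) * s := by group
          _ = z * s * s := by rw [h2, h1, mul_one]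
          _ = z := by rw [mul_assoc, hs2, mul_one]
    · exact ⟨q, hq, hqs, h1⟩
  have hfz : f * z = z * f := h.cen f hf
  have hfsc : f * s * f⁻¹ = z * s := hconjs f hf hfs
  -- Q = Q₁ ∪ f Q₁
  have hQ : ∀ y ∈ Q, (y = 1 ∨ y = z ∨ y = s ∨ y = z * s) ∨
      (y = f ∨ y = f * z ∨ y = f * s ∨ y = f * (z * s)) := by
    intro y hy
    by_cases hys : y * s = s * y
    · left; exact hQ1 y hy hys
    · right
      have h1 := hconjs y hy hys
      have h2 : (f⁻¹ * y) * s = s * (f⁻¹ * y) := by
        have h3 : y * s * y⁻¹ = f * s * f⁻¹ := by rw [h1, hfsc]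
        calc (f⁻¹ * y) * s = f⁻¹ * (y * s * y⁻¹) * y := by group
          _ = s * (f⁻¹ * y) := by rw [h3]; group
      rcases hQ1 _ (Q.mul_mem (Q.inv_mem hf) hy) h2 with h3 | h3 | h3 | h3
      · left; rw [inv_mul_eq_one] at h3; exact h3.symm
      · right; left; rw [← h3]; group
      · right; right; left; rw [← h3]; group
      · right; right; right; rw [← h3]; group
  have hz1 := h.z1
  have hz2 := h.z2
  -- elements with square z
  have hsqz : ∀ y ∈ Q, y * y = z → y = f ∨ y = f * z := by
    intro y hy hyy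
    rcases hQ y hy with (h1 | h1 | h1 | h1) | (h1 | h1 | h1 | h1)
    · exfalso; rw [h1, one_mul] at hyy; exact hz1 hyy.symm
    · exfalso; rw [h1, hz2] at hyy; exact hz1 hyy.symm
    · exfalso; rw [h1, hs2] at hyy; exact hz1 hyy.symm
    · exfalso
      have : z * s * (z * s) = 1 := by
        calc z * s * (z * s) = z * (s * z) * s := by group
          _ = (z * z) * (s * s) := by rw [hzs]; group
          _ = 1 := by rw [hz2, hs2, one_mul]
      rw [h1, this] at hyy; exact hz1 hyy.symm
    · left; exact h1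
    · right; exact h1
    · exfalso
      have : f * s * (f * s) = 1 := by
        calc f * s * (f * s) = (f * s * f⁻¹) * (f * f) * s := by group
          _ = z * (s * z) * s := by rw [hfsc, hff]; group
          _ = (z * z) * (s * s) := by rw [hzs]; group
          _ = 1 := by rw [hz2, hs2, one_mul]
      rw [h1, this] at hyy; exact hz1 hyy.symm
    · exfalso
      have : f * (z * s) * (f * (z * s)) = 1 := by
        calc f * (z * s) * (f * (z * s)) = (f * z) * (s * f) * (z * s) := by group
          _ = z * (f * s * f⁻¹) * (f * f) * (z * s) := by rw [hfz]; group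
          _ = z * (z * s) * z * (z * s) := by rw [hfsc, hff]
          _ = (z * z) * s * (z * z) * s := by group
          _ = 1 := by rw [hz2, one_mul, mul_one, hs2]
      rw [h1, this] at hyy; exact hz1 hyy.symm
  -- odd order elements of C are trivial
  have hodd : ∀ c : G, c * z = z * c → ∀ m : ℕ, Odd m → c ^ m = 1 → c = 1 := by
    intro c hcz m hm hcm
    have hcf : c * f = f * c := by
      apply comm_of_four hm hcm (k := 1)
      have h1 : c * f * c⁻¹ = f ∨ c * f * c⁻¹ = f * z := by
        apply hsqz _ (h.norm c hcz f hf)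
        calc c * f * c⁻¹ * (c * f * c⁻¹) = c * (f * f) * c⁻¹ := by group
          _ = z := by rw [hff, hcz, mul_inv_cancel_right]
      rw [pow_one, pow_two]
      rcases h1 with h1 | h1
      · rw [mul_inv_eq_iff_eq_mul] at h1
        rw [mul_assoc, h1, ← mul_assoc, h1, mul_assoc]
      · rw [mul_inv_eq_iff_eq_mul] at h1
        calc c * c * f = c * (c * f) := by group
          _ = c * (f * z * c) := by rw [h1]
          _ = (c * f) * z * c := by group
          _ = (f * z * c) * z * c := by rw [h1]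
          _ = f * z * (c * z) * c := by group
          _ = f * ((z * z) * (c * c)) := by rw [hcz]; group
          _ = f * (c * c) := by rw [hz2, one_mul]
    have hcs : c * s = s * c := by
      apply comm_of_four hm hcm (k := 2)
      -- c s c⁻¹ is one of s, zs, fs, fzs
      have h1 := hQ _ (h.norm c hcz s hs)
      have hcc : ∀ (a b : G), c * a = a * c → c * s * c⁻¹ = a * s → (c * c) * s * (c * c)⁻¹ = a * a * s := by
        intro a b ha h2
        calc (c * c) * s * (c * c)⁻¹ = c * (c * s * c⁻¹) * c⁻¹ := by group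
          _ = (c * a) * s * c⁻¹ := by rw [h2]; group
          _ = a * (c * s * c⁻¹) := by rw [ha]; group
          _ = a * a * s := by rw [h2, mul_assoc]
      have key : ∀ a : G, c * a = a * c → a * a * (a * a) = 1 → c * s * c⁻¹ = a * s →
          c ^ 2 ^ 2 * s = s * c ^ 2 ^ 2 := by
        intro a ha ha4 h2
        have h3 := hcc a 1 ha h2
        have h4 : c * c * (a * a) = (a * a) * (c * c) := by
          have : Commute (c * c) (a * a) := by
            have h5 : Commute c a := ha
            exact (h5.mul_left h5).mul_right (h5.mul_left h5)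
          exact this
        have e : c ^ 2 ^ 2 = (c * c) * (c * c) := by norm_num [pow_succ]; group
        rw [e, ← mul_inv_eq_iff_eq_mul]
        calc (c * c) * (c * c) * s * ((c * c) * (c * c))⁻¹ = (c * c) * ((c * c) * s * (c * c)⁻¹) * (c * c)⁻¹ := by group
          _ = ((c * c) * (a * a)) * s * (c * c)⁻¹ := by rw [h3]; group
          _ = (a * a) * ((c * c) * s * (c * c)⁻¹) := by rw [h4]; group
          _ = (a * a) * (a * a) * s := by rw [h3]; group
          _ = s := by rw [ha4, one_mul]
      have hf4 : f * f * (f * f) = 1 := by rw [hff, hz2]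
      have hss : (c * s * c⁻¹) * (c * s * c⁻¹) = 1 := by
        calc (c * s * c⁻¹) * (c * s * c⁻¹) = c * (s * s) * c⁻¹ := by group
          _ = 1 := by rw [hs2]; group
      have hs1 : s ≠ 1 := by
        rintro rfl; exact hqs (by rw [mul_one, one_mul])
      have hsz : s ≠ z := by
        rintro rfl; exact hqs (h.cen q hq)
      rcases h1 with (h1 | h1 | h1 | h1) | (h1 | h1 | h1 | h1)
      · exfalso; rw [conj_eq_one_iff] at h1; exact hs1 h1
      · exfalso
        rw [mul_inv_eq_iff_eq_mul, ← hcz] at h1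
        exact hsz (mul_left_cancel h1)
      · exact key 1 (by rw [mul_one, one_mul]) (by simp) (by rw [h1, one_mul])
      · exact key z hcz (by rw [hz2, one_mul]) h1
      · exfalso
        rw [h1, hff] at hss; exact hz1 hss
      · exfalso
        rw [h1] at hss
        have : f * z * (f * z) = z := by
          calc f * z * (f * z) = f * (z * f) * z := by group
            _ = (f * f) * (z * z) := by rw [← hfz]; group
            _ = z := by rw [hff, hz2, mul_one]
        rw [this] at hss; exact hz1 hss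
      · exact key f hcf hf4 h1
      · refine key (f * z) ?_ ?_ ?_
        · rw [← mul_assoc, hcf, mul_assoc, hcz, ← mul_assoc]
        · have : f * z * (f * z) = z := by
            calc f * z * (f * z) = f * (z * f) * z := by group
              _ = (f * f) * (z * z) := by rw [← hfz]; group
              _ = z := by rw [hff, hz2, mul_one]
          rw [this, hz2]
        · rw [h1, mul_assoc]
    -- c centralizes Q
    have hcQ : c ∈ Q := by
      apply h.self
      intro y hy
      have c1 : Commute c f := hcf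
      have c2 : Commute c z := hcz
      have c3 : Commute c s := hcs
      rcases hQ y hy with (h1 | h1 | h1 | h1) | (h1 | h1 | h1 | h1)
      · rw [h1]; exact Commute.one_right c
      · rw [h1]; exact c2
      · rw [h1]; exact c3
      · rw [h1]; exact c2.mul_right c3
      · rw [h1]; exact c1
      · rw [h1]; exact c1.mul_right c2
      · rw [h1]; exact c1.mul_right c3
      · rw [h1]; exact c1.mul_right (c2.mul_right c3)
    obtain ⟨k, hk⟩ := h.two ⟨c, hcQ⟩
    have hk' : c ^ 2 ^ k = 1 := congrArg Subtype.val hk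
    rw [← orderOf_eq_one_iff, ← Nat.dvd_one]
    have h6 : Nat.Coprime (2 ^ k) m := Nat.Coprime.pow_left _ (Nat.coprime_two_left.2 hm)
    rw [← h6.gcd_eq_one]
    exact Nat.dvd_gcd (orderOf_dvd_of_pow_eq_one hk') (orderOf_dvd_of_pow_eq_one hcm)
  apply h.small
  have h1 : Nat.card (Subgroup.centralizer ({z} : Set G)) =
      2 ^ (Nat.card (Subgroup.centralizer ({z} : Set G))).primeFactorsList.length := by
    apply Nat.eq_prime_pow_of_unique_prime_dvd Nat.card_pos.ne'
    intro d hd hdvd
    by_contra hd2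
    haveI : Fact d.Prime := ⟨hd⟩
    obtain ⟨c, hc⟩ := exists_prime_orderOf_dvd_card' d hdvd
    have h2 : (c : G) = 1 := by
      apply hodd c (Subgroup.mem_centralizer_singleton_iff.1 c.2) d (hd.odd_of_ne_two hd2)
      rw [← hc, ← Subgroup.orderOf_coe, pow_orderOf_eq_one]
    have h3 : c = 1 := Subtype.ext h2
    rw [h3, orderOf_one] at hc
    exact hd.one_lt.ne hc
  exact IsPGroup.of_card h1

/-- main lemma -/
theorem mem_conj [Finite G] (h : Lg z Q) {g : G} (hne : g * z * g⁻¹ ≠ z) (hs : g * z * g⁻¹ ∈ Q) :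
    z ∈ Q.map (MulAut.conj g).toMonoidHom := by
  by_contra hzR
  have hR := h.conj g
  have hs2 := hR.z2
  obtain ⟨q, hq, hqs⟩ : ∃ q ∈ Q, (g * z * g⁻¹) * q ≠ q * (g * z * g⁻¹) := by
    by_contra hcon
    push Not at hcon
    rcases h.cz _ hs hcon hs2 with h1 | h1
    · exact hR.z1 h1
    · exact hne h1
  have hno : ∀ r ∈ Q.map (MulAut.conj g).toMonoidHom, r * z * r⁻¹ ≠ z * (g * z * g⁻¹) := by
    intro r hr h1
    exact hzR (h.key hne hs (hR.cen r hr) h1)
  by_cases hx : ∃ x ∈ Q, x * (g * z * g⁻¹) = (g * z * g⁻¹) * x ∧ x * x = z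
  · obtain ⟨x, hx, hxs, hxz⟩ := hx
    exact case1 h hR hs hq (fun h1 => hqs h1.symm) hzR hno hx hxs hxz
  · push Not at hx
    have h1 := case2 h hs hs2 hq (fun h1 => hqs h1.symm) hx
    apply hzR
    -- z commutes with s
    have h2 : (g⁻¹ * z * g) * z = z * (g⁻¹ * z * g) := by
      have h3 := h.cen _ hs
      calc (g⁻¹ * z * g) * z = g⁻¹ * (z * (g * z * g⁻¹)) * g := by group
        _ = z * (g⁻¹ * z * g) := by rw [← h3]; group
    refine ⟨_, h1 _ h2, ?_⟩
    change g * (g⁻¹ * z * g) * g⁻¹ = z
    group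

/-- the induced automorphisms -/
theorem induced [Finite G] (h : Lg z Q) {g : G} (hne : g * z * g⁻¹ ≠ z) (hs : g * z * g⁻¹ ∈ Q) :
    ∀ u ∈ Subgroup.closure ({z, g * z * g⁻¹} : Set G), ∀ v ∈ Subgroup.closure ({z, g * z * g⁻¹} : Set G),
        u ≠ 1 → v ≠ 1 → u ≠ v →
          ∃ x ∈ Q ⊔ Q.map (MulAut.conj g).toMonoidHom, x * z * x⁻¹ = u ∧ x * (g * z * g⁻¹) * x⁻¹ = v := by
  have hzR := mem_conj h hne hs
  have hR := h.conj g
  obtain ⟨s, hs'⟩ : ∃ s, s = g * z * g⁻¹ := ⟨_, rfl⟩
  obtain ⟨R, hR'⟩ : ∃ R, R = Q.map (MulAut.conj g).toMonoidHom := ⟨_, rfl⟩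
  rw [← hs'] at hne hs hR ⊢
  rw [← hR'] at hR hzR ⊢
  have hz2 := h.z2
  have hs2 := hR.z2
  have hz1 := h.z1
  have hs1 := hR.z1
  have hsz : s * z = z * s := h.cen s hs
  obtain ⟨q, hq, hqs⟩ : ∃ q ∈ Q, s * q ≠ q * s := by
    by_contra hcon
    push Not at hcon
    rcases h.cz _ hs hcon hs2 with h1 | h1
    · exact hs1 h1
    · exact hne h1
  obtain ⟨r, hr, hrz⟩ : ∃ r ∈ R, z * r ≠ r * z := by
    by_contra hcon
    push Not at hcon
    rcases hR.cz _ hzR hcon hz2 with h1 | h1
    · exact hz1 h1
    · exact hne h1.symm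
  have q1 : q * z * q⁻¹ = z := by rw [h.cen q hq, mul_inv_cancel_right]
  have q2 : q * s * q⁻¹ = z * s := h.conj_eq hq hs (fun h1 => hqs h1.symm)
  have r1 : r * s * r⁻¹ = s := by rw [hR.cen r hr, mul_inv_cancel_right]
  have r2 : r * z * r⁻¹ = s * z := hR.conj_eq hr hzR (fun h1 => hrz h1.symm)
  rw [hsz] at r2
  have hmem : ∀ u ∈ Subgroup.closure ({z, s} : Set G), u ≠ 1 → u = z ∨ u = s ∨ u = z * s := by
    intro u hu hu1
    let V : Subgroup G :=
      { carrier := {u | u = 1 ∨ u = z ∨ u = s ∨ u = z * s}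
        mul_mem' := by
          have c : z * s * (z * s) = 1 := by
            calc z * s * (z * s) = z * (s * z) * s := by group
              _ = (z * z) * (s * s) := by rw [hsz]; group
              _ = 1 := by rw [hz2, hs2, one_mul]
          rintro a b (rfl | rfl | rfl | rfl) (rfl | rfl | rfl | rfl)
          · left; simp
          · right; left; simp
          · right; right; left; simp
          · right; right; right; simp
          · right; left; simp
          · left; exact hz2
          · right; right; right; rfl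
          · right; right; left; rw [← mul_assoc, hz2, one_mul]
          · right; right; left; simp
          · right; right; right; exact hsz
          · left; exact hs2
          · right; left
            rw [← mul_assoc, hsz, mul_assoc, hs2, mul_one]
          · right; right; right; simp
          · right; right; left
            rw [mul_assoc, hsz, ← mul_assoc, hz2, one_mul]
          · right; left; rw [mul_assoc, hs2, mul_one]
          · left; exact c
        one_mem' := Or.inl rfl
        inv_mem' := by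
          rintro a (rfl | rfl | rfl | rfl)
          · left; exact inv_one
          · right; left; exact inv_eq_of_mul_eq_one_right hz2
          · right; right; left; exact inv_eq_of_mul_eq_one_right hs2
          · right; right; right
            rw [mul_inv_rev, inv_eq_of_mul_eq_one_right hz2, inv_eq_of_mul_eq_one_right hs2]
            exact hsz }
    have h1 : Subgroup.closure ({z, s} : Set G) ≤ V := by
      rw [Subgroup.closure_le]
      rintro x (rfl | rfl)
      · right; left; rfl
      · right; right; left; rfl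
    rcases h1 hu with h2 | h2
    · exact absurd h2 hu1
    · exact h2
  have hqm : q ∈ Q ⊔ R := Subgroup.mem_sup_left hq
  have hrm : r ∈ Q ⊔ R := Subgroup.mem_sup_right hr
  -- conjugation of products
  have q3 : q * (z * s) * q⁻¹ = s := by
    calc q * (z * s) * q⁻¹ = (q * z * q⁻¹) * (q * s * q⁻¹) := by group
      _ = (z * z) * s := by rw [q1, q2, mul_assoc]
      _ = s := by rw [hz2, one_mul]
  have r3 : r * (z * s) * r⁻¹ = z := by
    calc r * (z * s) * r⁻¹ = (r * z * r⁻¹) * (r * s * r⁻¹) := by group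
      _ = z * (s * s) := by rw [r1, r2, mul_assoc]
      _ = z := by rw [hs2, mul_one]
  intro u hu v hv hu1 hv1 huv
  have comp : ∀ a b x : G, a * b * x * (a * b)⁻¹ = a * (b * x * b⁻¹) * a⁻¹ := fun a b x => by group
  rcases hmem u hu hu1 with rfl | rfl | rfl <;> rcases hmem v hv hv1 with rfl | rfl | rfl
  · exact absurd rfl huv
  · exact ⟨1, one_mem _, by group, by group⟩
  · exact ⟨q, hqm, q1, q2⟩
  · -- z ↦ s, s ↦ z : r q r?
    refine ⟨r * q * r, mul_mem (mul_mem hrm hqm) hrm, ?_, ?_⟩
    · rw [comp, comp, r2, q3, r1]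
    · rw [comp, comp, r1, q2, r3]
  · exact absurd rfl huv
  · refine ⟨q * r, mul_mem hqm hrm, ?_, ?_⟩
    · rw [comp, r2, q3]
    · rw [comp, r1, q2]
  · refine ⟨r * q, mul_mem hrm hqm, ?_, ?_⟩
    · rw [comp, q1, r2]
    · rw [comp, q2, r3]
  · exact ⟨r, hrm, r2, r1⟩
  · exact absurd rfl huv

end Cfsg.Agent.Lib.H30SympB
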