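import Mathlib
import Cfsg.Prelude.Def_ClassificationK
import Cfsg.Agent.Lib.H30SympB
import Cfsg.Agent.Lib.Layer
import Cfsg.Agent.Lib.H70Frattini
import Cfsg.Agent.S3762

/-! Groups with `F*(C(z))` of symplectic type and exponent four (helper30). -/

set_option autoImplicit false

open Subgroup Cfsg
open scoped commutatorElement

universe u

namespace Cfsg.Agent.Lib.H30SympC

open H30SympA H30SympB

section facts

variable {T : Type u} [Group T] [Finite T]

theorem facts (hT : IsOfSymplecticType T) (h4 : ∀ x : T, x ^ 4 = 1) {z : T} (hz : z ∈ Subgroup.center T)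
    (hz2 : z * z = 1) (hz1 : z ≠ 1) :
    (∀ u : T, u ∈ Subgroup.center T → u * u = 1 → u = 1 ∨ u = z) ∧
    (∀ x : T, x * x = 1 ∨ x * x = z) ∧ (∀ x y : T, x * y * x⁻¹ * y⁻¹ = 1 ∨ x * y * x⁻¹ * y⁻¹ = z) := by
  haveI : Fact (Nat.Prime 2) := ⟨Nat.prime_two⟩
  have hcyc : IsCyclic (Subgroup.center T) := hT.2 _ inferInstance inferInstance
  have huniq : ∀ u : T, u ∈ Subgroup.center T → u * u = 1 → u = 1 ∨ u = z := by
    intro u hu hu2
    by_contra hcon
    push Not at hcon
    classical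
    haveI := Fintype.ofFinite (Subgroup.center T)
    have h1 := IsCyclic.card_pow_eq_one_le (α := Subgroup.center T) (n := 2) (by norm_num)
    have h2 : ({1, ⟨u, hu⟩, ⟨z, hz⟩} : Finset (Subgroup.center T)) ⊆
        Finset.univ.filter (fun x : Subgroup.center T => x ^ 2 = 1) := by
      intro x hx
      simp only [Finset.mem_insert, Finset.mem_singleton] at hx
      simp only [Finset.mem_filter, Finset.mem_univ, true_and]
      rcases hx with rfl | rfl | rfl
      · simp
      · rw [pow_two]; exact Subtype.ext hu2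
      · rw [pow_two]; exact Subtype.ext hz2
    have h3 : ({1, ⟨u, hu⟩, ⟨z, hz⟩} : Finset (Subgroup.center T)).card = 3 := by
      rw [Finset.card_eq_three]
      refine ⟨1, ⟨u, hu⟩, ⟨z, hz⟩, ?_, ?_, ?_, rfl⟩
      · intro h; exact hcon.1 (congrArg Subtype.val h).symm
      · intro h; exact hz1 (congrArg Subtype.val h).symm
      · intro h; exact hcon.2 (congrArg Subtype.val h)
    have := Finset.card_le_card h2
    omega
  refine ⟨huniq, ?_⟩
  obtain ⟨E, R, hER, hsup, hE, hR⟩ := Cfsg.Agent.S3762.result (p := 2) hT.1 hT.2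
  have hdec : ∀ x : T, ∃ e ∈ E, ∃ r ∈ R, x = e * r := by
    let S0 : Subgroup T :=
      { carrier := {x | ∃ e ∈ E, ∃ r ∈ R, x = e * r}
        mul_mem' := by
          rintro _ _ ⟨e, he, r, hr, rfl⟩ ⟨e', he', r', hr', rfl⟩
          refine ⟨e * e', E.mul_mem he he', r * r', R.mul_mem hr hr', ?_⟩
          have := hER e' he' r hr
          calc e * r * (e' * r') = e * (r * e') * r' := by group
            _ = e * e' * (r * r') := by rw [← this]; group
        one_mem' := ⟨1, E.one_mem, 1, R.one_mem, by rw [one_mul]⟩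
        inv_mem' := by
          rintro _ ⟨e, he, r, hr, rfl⟩
          refine ⟨e⁻¹, E.inv_mem he, r⁻¹, R.inv_mem hr, ?_⟩
          rw [hER e he r hr, mul_inv_rev] }
    have h1 : (⊤ : Subgroup T) ≤ S0 := by
      rw [← hsup, sup_le_iff]
      exact ⟨fun e he => ⟨e, he, 1, R.one_mem, by rw [mul_one]⟩,
        fun r hr => ⟨1, E.one_mem, r, hr, by rw [one_mul]⟩⟩
    intro x
    exact h1 (Subgroup.mem_top x)
  -- R is central
  have hRc : ∀ r ∈ R, ∀ s ∈ R, r * s = s * r := by
    have hord : ∀ x : T, orderOf x ≤ 4 := fun x =>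
      Nat.le_of_dvd (by norm_num) (orderOf_dvd_of_pow_eq_one (h4 x))
    rcases hR with hR | ⟨-, h16, hR⟩
    · intro r hr s hs
      letI : CommGroup R := IsCyclic.commGroup
      exact congrArg Subtype.val (mul_comm (⟨r, hr⟩ : R) ⟨s, hs⟩)
    · exfalso
      rcases hR with ⟨m, ⟨e⟩⟩ | ⟨m, ⟨e⟩⟩ | ⟨n, hn, -, x, y, hx, -, -⟩
      · have h1 : Nat.card R = 2 * m := by rw [Nat.card_congr e.toEquiv, DihedralGroup.nat_card]
        have h2 : orderOf (DihedralGroup.r (1 : ZMod m)) = m := DihedralGroup.orderOf_r_one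
        have h3 := hord (e.symm (DihedralGroup.r 1) : R)
        rw [Subgroup.orderOf_coe, MulEquiv.orderOf_eq, h2] at h3
        omega
      · have hm : m ≠ 0 := by
          rintro rfl
          have h5 := h4 ((e.symm (QuaternionGroup.a 1) : R) : T)
          have h6 : (e.symm (QuaternionGroup.a 1) : R) ^ 4 = 1 := Subtype.ext h5
          have h7 := congrArg e h6
          rw [map_pow, map_one, MulEquiv.apply_symm_apply, QuaternionGroup.a_one_pow, QuaternionGroup.one_def] at h7
          have h8 : ((4 : ℕ) : ZMod (2 * 0)) = 0 := QuaternionGroup.a.inj h7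
          revert h8
          decide
        haveI : NeZero m := ⟨hm⟩
        have h1 : Nat.card R = 4 * m := by
          rw [Nat.card_congr e.toEquiv, Nat.card_eq_fintype_card, QuaternionGroup.card]
        have h2 : orderOf (QuaternionGroup.a (1 : ZMod (2 * m))) = 2 * m := QuaternionGroup.orderOf_a_one
        have h3 := hord (e.symm (QuaternionGroup.a 1) : R)
        rw [Subgroup.orderOf_coe, MulEquiv.orderOf_eq, h2] at h3
        omega
      · have h3 := hord (x : R)
        rw [Subgroup.orderOf_coe, hx] at h3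
        have : 2 ^ 3 ≤ 2 ^ n := Nat.pow_le_pow_right (by norm_num) hn
        omega
  have hRcen : ∀ r ∈ R, r ∈ Subgroup.center T := by
    intro r hr
    rw [Subgroup.mem_center_iff]
    intro x
    obtain ⟨e, he, s, hs, rfl⟩ := hdec x
    calc e * s * r = e * (s * r) := by group
      _ = (e * r) * s := by rw [hRc s hs r hr]; group
      _ = r * (e * s) := by rw [hER e he r hr]; group
  have hEcen : ∀ c : E, c ∈ Subgroup.center E → (c : T) ∈ Subgroup.center T := by
    intro c hc
    rw [Subgroup.mem_center_iff] at hc ⊢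
    intro x
    obtain ⟨e, he, s, hs, rfl⟩ := hdec x
    have h1 : e * (c : T) = c * e := congrArg Subtype.val (hc ⟨e, he⟩)
    calc e * s * c = e * (s * c) := by group
      _ = (e * c) * s := by rw [← hER c c.2 s hs]; group
      _ = c * (e * s) := by rw [h1]; group
  have hEsq : ∀ e ∈ E, e * e = 1 ∨ e * e = z := by
    intro e he
    rcases hE with hE | hE
    · left
      rw [hE, Subgroup.mem_bot] at he
      rw [he, one_mul]
    · have h1 : (⟨e, he⟩ : E) ^ 2 ∈ frattini E := H70Frattini.pow_mem_frattini hE.1.1 _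
      rw [hE.1.2.1] at h1
      have h2 := hEcen _ h1
      rw [pow_two] at h2
      apply huniq _ h2
      have := h4 e
      have e4 : e ^ 4 = (e * e) * (e * e) := by rw [show (4 : ℕ) = 2 + 2 from rfl, pow_add, pow_two]
      rw [e4] at this
      exact this
  have hEcom : ∀ e ∈ E, ∀ f ∈ E, e * f * e⁻¹ * f⁻¹ = 1 ∨ e * f * e⁻¹ * f⁻¹ = z := by
    intro e he f hf
    rcases hE with hE | hE
    · left
      rw [hE, Subgroup.mem_bot] at he
      rw [he]; group
    · have h1 : ⁅(⟨e, he⟩ : E), ⟨f, hf⟩⁆ ∈ commutator E :=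
        Subgroup.commutator_mem_commutator (Subgroup.mem_top _) (Subgroup.mem_top _)
      rw [hE.1.2.2] at h1
      have h2 := hEcen _ h1
      have h3 : ((⁅(⟨e, he⟩ : E), ⟨f, hf⟩⁆ : E) : T) = e * f * e⁻¹ * f⁻¹ := by
        rw [commutatorElement_def]; rfl
      rw [h3] at h2
      apply huniq _ h2
      have h4 : (⁅(⟨e, he⟩ : E), ⟨f, hf⟩⁆ : E) ^ 2 = 1 := by
        have h5 := Subgroup.orderOf_dvd_natCard (Subgroup.center E) h1
        rw [hE.2] at h5
        exact orderOf_dvd_iff_pow_eq_one.1 h5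
      have h6 := congrArg Subtype.val h4
      rw [pow_two] at h6
      rw [← h3]; exact h6
  have hRsq : ∀ r ∈ R, r * r = 1 ∨ r * r = z := by
    intro r hr
    apply huniq _ (Subgroup.mul_mem _ (hRcen r hr) (hRcen r hr))
    have := h4 r
    have e4 : r ^ 4 = (r * r) * (r * r) := by rw [show (4 : ℕ) = 2 + 2 from rfl, pow_add, pow_two]
    rw [e4] at this
    exact this
  refine ⟨?_, ?_⟩
  · intro x
    obtain ⟨e, he, r, hr, rfl⟩ := hdec x
    have h1 : e * r * (e * r) = (e * e) * (r * r) := by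
      calc e * r * (e * r) = e * (r * e) * r := by group
        _ = _ := by rw [← hER e he r hr]; group
    rw [h1]
    rcases hEsq e he with h2 | h2 <;> rcases hRsq r hr with h3 | h3
    · left; rw [h2, h3, one_mul]
    · right; rw [h2, h3, one_mul]
    · right; rw [h2, h3, mul_one]
    · left; rw [h2, h3, hz2]
  · intro x y
    obtain ⟨e, he, r, hr, rfl⟩ := hdec x
    obtain ⟨f, hf, s, hs, rfl⟩ := hdec y
    have c1 := (Subgroup.mem_center_iff.1 (hRcen r hr))
    have c2 := (Subgroup.mem_center_iff.1 (hRcen s hs))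
    have h1 : e * r * (f * s) * (e * r)⁻¹ * (f * s)⁻¹ = e * f * e⁻¹ * f⁻¹ := by
      calc e * r * (f * s) * (e * r)⁻¹ * (f * s)⁻¹ = e * (r * f) * s * (r⁻¹ * e⁻¹) * s⁻¹ * f⁻¹ := by group
        _ = e * f * (r * s) * (r⁻¹ * e⁻¹) * s⁻¹ * f⁻¹ := by rw [← c1 f]; group
        _ = e * f * (s * e⁻¹) * s⁻¹ * f⁻¹ := by rw [c2 r]; group
        _ = e * f * e⁻¹ * f⁻¹ := by rw [← c2 e⁻¹]; group
    rw [h1]
    exact hEcom e he f hf

end facts

variable {G : Type u} [Group G] [Finite G]

theorem setting (z : G) (hz : orderOf z = 2)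
    (hQ : IsOfSymplecticType ↥(generalizedFittingSubgroup ↥(Subgroup.centralizer ({z} : Set G))))
    (h4 : ∀ q ∈ (generalizedFittingSubgroup ↥(Subgroup.centralizer ({z} : Set G))).map
      (Subgroup.centralizer ({z} : Set G)).subtype, q ^ 4 = 1) :
    Lg z ((generalizedFittingSubgroup ↥(Subgroup.centralizer ({z} : Set G))).map
      (Subgroup.centralizer ({z} : Set G)).subtype) := by
  haveI : Fact (Nat.Prime 2) := ⟨Nat.prime_two⟩
  set C := Subgroup.centralizer ({z} : Set G) with hC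
  set F := generalizedFittingSubgroup ↥C with hF
  have hCm : ∀ x, x ∈ C ↔ x * z = z * x := fun x => Subgroup.mem_centralizer_singleton_iff
  have hzC : z ∈ C := (hCm z).2 rfl
  have hz2 : z * z = 1 := by rw [← pow_two, ← hz, pow_orderOf_eq_one]
  have hz1 : z ≠ 1 := by rintro rfl; simp at hz
  have hzcen : (⟨z, hzC⟩ : C) ∈ Subgroup.center C := by
    rw [Subgroup.mem_center_iff]
    intro c
    exact Subtype.ext ((hCm c).1 c.2)
  have hcF : Subgroup.center C ≤ F := by
    refine le_trans ?_ Layer.centralizer_genFitting_le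
    exact Subgroup.center_le_centralizer _
  have hzF : (⟨z, hzC⟩ : C) ∈ F := hcF hzcen
  have hmem : ∀ x, x ∈ F.map C.subtype ↔ ∃ h : x ∈ C, (⟨x, h⟩ : C) ∈ F := by
    intro x
    constructor
    · rintro ⟨y, hy, rfl⟩
      exact ⟨y.2, hy⟩
    · rintro ⟨h, hx⟩
      exact ⟨_, hx, rfl⟩
  have h4' : ∀ x : F, x ^ 4 = 1 := by
    intro x
    apply Subtype.ext
    apply Subtype.ext
    exact h4 ((x : C) : G) ⟨x, x.2, rfl⟩
  have hzFc : (⟨⟨z, hzC⟩, hzF⟩ : F) ∈ Subgroup.center F := by
    rw [Subgroup.mem_center_iff]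
    intro f
    exact Subtype.ext (Subgroup.mem_center_iff.1 hzcen f)
  obtain ⟨f1, f2, f3⟩ := facts hQ h4' hzFc (Subtype.ext (Subtype.ext hz2))
    (fun h => hz1 (congrArg (fun t : F => ((t : C) : G)) h))
  haveI hFn : F.Normal := inferInstance
  refine ⟨hz2, hz1, (hmem z).2 ⟨hzC, hzF⟩, ?_, ?_, ?_, ?_, ?_, ?_, ?_, ?_⟩
  · intro q hq
    obtain ⟨h, -⟩ := (hmem q).1 hq
    exact (hCm q).1 h
  · intro c hc q hq
    obtain ⟨h, hq'⟩ := (hmem q).1 hq
    have hcC : c ∈ C := (hCm c).2 hc
    exact ⟨_, hFn.conj_mem _ hq' ⟨c, hcC⟩, rfl⟩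
  · intro x hx
    have hxC : x ∈ C := (hCm x).2 (hx z ((hmem z).2 ⟨hzC, hzF⟩))
    rw [hmem]
    refine ⟨hxC, ?_⟩
    apply Layer.centralizer_genFitting_le
    rw [Subgroup.mem_centralizer_iff]
    intro y hy
    exact Subtype.ext (hx y ⟨y, hy, rfl⟩).symm
  · intro q hq
    obtain ⟨h, hq'⟩ := (hmem q).1 hq
    rcases f2 ⟨⟨q, h⟩, hq'⟩ with h1 | h1
    · left; exact congrArg (fun t : F => ((t : C) : G)) h1
    · right; exact congrArg (fun t : F => ((t : C) : G)) h1
  · intro x hx y hy
    obtain ⟨hx1, hx2⟩ := (hmem x).1 hx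
    obtain ⟨hy1, hy2⟩ := (hmem y).1 hy
    rcases f3 ⟨⟨x, hx1⟩, hx2⟩ ⟨⟨y, hy1⟩, hy2⟩ with h1 | h1
    · left; exact congrArg (fun t : F => ((t : C) : G)) h1
    · right; exact congrArg (fun t : F => ((t : C) : G)) h1
  · intro u hu hc hu2
    obtain ⟨hu1, hu'⟩ := (hmem u).1 hu
    rcases f1 ⟨⟨u, hu1⟩, hu'⟩ (by
      rw [Subgroup.mem_center_iff]
      intro g
      apply Subtype.ext
      apply Subtype.ext
      exact (hc ((g : C) : G) ⟨g, g.2, rfl⟩).symm) (Subtype.ext (Subtype.ext hu2)) with h1 | h1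
    · left; exact congrArg (fun t : F => ((t : C) : G)) h1
    · right; exact congrArg (fun t : F => ((t : C) : G)) h1
  · exact hQ.1.map _
  · intro h2 x hx
    rw [hmem]
    refine ⟨(hCm x).2 hx, ?_⟩
    haveI := h2.isNilpotent
    have h3 : (⊤ : Subgroup C) ≤ fittingSubgroup C := by
      apply le_sSup
      exact ⟨inferInstance, inferInstance⟩
    have h4 : fittingSubgroup C ≤ F := by
      rw [hF]; unfold generalizedFittingSubgroup; exact le_sup_right
    exact h4 (h3 (Subgroup.mem_top _))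

end Cfsg.Agent.Lib.H30SympC
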