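import Mathlib
import Cfsg.Agent.Lib.PGroupOdd

/-! Abelian TI-subgroups of 2-groups (helper30). -/

set_option autoImplicit false

open Subgroup
open scoped commutatorElement

universe u

namespace Cfsg.Agent.Lib.H30TIa

variable {X : Type u} [Group X]

/-- the TI condition with elements -/
def TI (A : Subgroup X) : Prop := ∀ h a : X, a ∈ A → a ≠ 1 → h * a * h⁻¹ ∈ A → ∀ x ∈ A, h * x * h⁻¹ ∈ A

theorem TI.inv [Finite X] {A : Subgroup X} (hA : TI A) {h a : X} (ha : a ∈ A) (h1 : a ≠ 1) (h2 : h * a * h⁻¹ ∈ A) :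
    ∀ x ∈ A, h⁻¹ * x * h ∈ A := by
  have h3 : h * a * h⁻¹ ≠ 1 := by
    intro h4
    apply h1
    calc a = h⁻¹ * (h * a * h⁻¹) * h := by group
      _ = 1 := by rw [h4]; group
  intro x hx
  have := hA h⁻¹ _ h2 h3 (by
    have e : h⁻¹ * (h * a * h⁻¹) * h⁻¹⁻¹ = a := by group
    rw [e]; exact ha) x hx
  rwa [inv_inv] at this

/-- a commuting element normalizes `A` -/
theorem TI.of_comm {A : Subgroup X} (hA : TI A) {h a : X} (ha : a ∈ A) (h1 : a ≠ 1) (h2 : h * a = a * h) :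
    ∀ x ∈ A, h * x * h⁻¹ ∈ A := by
  apply hA h a ha h1
  rw [h2, mul_inv_cancel_right]; exact ha

/-- `A` centralizes every abelian 2-subgroup `V` which it normalizes and which meets it trivially. -/
theorem centralizes [Finite X] {A : Subgroup X} (hA : TI A) (hA2 : IsPGroup 2 A)
    {a : X} (ha : a ∈ A) (hb : a * a ≠ 1) {V : Subgroup X}
    (hVc : ∀ v ∈ V, ∀ w ∈ V, v * w = w * v) (hV2 : IsPGroup 2 V)
    (hn : ∀ a ∈ A, ∀ v ∈ V, a * v * a⁻¹ ∈ V) (hd : ∀ v ∈ V, v ∈ A → v = 1) :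
    ∀ x ∈ A, ∀ v ∈ V, x * v = v * x := by
  haveI : Fact (Nat.Prime 2) := ⟨Nat.prime_two⟩
  have key0 : ∀ v ∈ V, (∀ x ∈ A, v * x * v⁻¹ ∈ A) → ∀ x ∈ A, x * v = v * x := by
    intro v hv h x hx
    have h1 : x * v * x⁻¹ * v⁻¹ ∈ V := V.mul_mem (hn x hx v hv) (V.inv_mem hv)
    have h2 : x * v * x⁻¹ * v⁻¹ ∈ A := by
      have := A.mul_mem hx (h x⁻¹ (A.inv_mem hx))
      have e : x * (v * x⁻¹ * v⁻¹) = x * v * x⁻¹ * v⁻¹ := by group
      rwa [e] at this
    have h3 := hd _ h1 h2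
    rw [mul_inv_eq_one, mul_inv_eq_iff_eq_mul] at h3
    exact h3
  -- `a` centralizes `V`
  have key1 : ∀ v ∈ V, a * v = v * a := by
    by_contra hcon
    push Not at hcon
    obtain ⟨v₀, hv₀, hne⟩ := hcon
    -- the set of commutators
    let W : Subgroup X :=
      { carrier := {w | ∃ v ∈ V, w = a * v * a⁻¹ * v⁻¹}
        mul_mem' := by
          rintro _ _ ⟨v, hv, rfl⟩ ⟨v', hv', rfl⟩
          refine ⟨v * v', V.mul_mem hv hv', ?_⟩
          have c1 := hVc v⁻¹ (V.inv_mem hv) (a * v' * a⁻¹ * v'⁻¹)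
            (V.mul_mem (hn a ha v' hv') (V.inv_mem hv'))
          calc a * v * a⁻¹ * v⁻¹ * (a * v' * a⁻¹ * v'⁻¹) = a * v * a⁻¹ * (v⁻¹ * (a * v' * a⁻¹ * v'⁻¹)) := by group
            _ = a * v * v' * a⁻¹ * (v'⁻¹ * v⁻¹) := by rw [c1]; group
            _ = _ := by group
        one_mem' := ⟨1, V.one_mem, by group⟩
        inv_mem' := by
          rintro _ ⟨v, hv, rfl⟩
          refine ⟨v⁻¹, V.inv_mem hv, ?_⟩
          have c1 := hVc v hv (a * v⁻¹ * a⁻¹) (hn a ha _ (V.inv_mem hv))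
          calc (a * v * a⁻¹ * v⁻¹)⁻¹ = v * (a * v⁻¹ * a⁻¹) := by group
            _ = a * v⁻¹ * a⁻¹ * v⁻¹⁻¹ := by rw [c1]; group }
    have hWV : ∀ w ∈ W, w ∈ V := by
      rintro _ ⟨v, hv, rfl⟩
      exact V.mul_mem (hn a ha v hv) (V.inv_mem hv)
    have hWn : ∀ x ∈ zpowers a, ∀ w ∈ W, x * w * x⁻¹ ∈ W := by
      rintro x hx _ ⟨v, hv, rfl⟩
      obtain ⟨k, rfl⟩ := mem_zpowers_iff.1 hx
      refine ⟨a ^ k * v * (a ^ k)⁻¹, hn _ (A.zpow_mem ha k) v hv, ?_⟩
      have c : a * a ^ k = a ^ k * a := by rw [← zpow_one_add, add_comm, zpow_add_one]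
      have c' : (a ^ k)⁻¹ * a⁻¹ = a⁻¹ * (a ^ k)⁻¹ := by rw [← mul_inv_rev, ← mul_inv_rev, c]
      calc a ^ k * (a * v * a⁻¹ * v⁻¹) * (a ^ k)⁻¹ = (a ^ k * a) * v * (a⁻¹ * (a ^ k)⁻¹) * (a ^ k * v⁻¹ * (a ^ k)⁻¹) := by group
        _ = a * (a ^ k * v * (a ^ k)⁻¹) * a⁻¹ * (a ^ k * v * (a ^ k)⁻¹)⁻¹ := by rw [← c, ← c']; group
    -- involutions in W
    let Ω := {w : X // w ∈ W ∧ w * w = 1}
    let act : MulAction (zpowers a) Ω :=
      { smul := fun x w => ⟨x * w * (x : X)⁻¹, hWn x x.2 w w.2.1, by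
          calc (x : X) * w * (x : X)⁻¹ * (x * w * (x : X)⁻¹) = x * ((w : X) * w) * (x : X)⁻¹ := by group
            _ = 1 := by rw [w.2.2]; group⟩
        one_smul := fun w => Subtype.ext (by change (1 : X) * w * (1 : X)⁻¹ = w; group)
        mul_smul := fun x y w => Subtype.ext (by
          change ((x : X) * y) * w * ((x : X) * y)⁻¹ = x * (y * w * (y : X)⁻¹) * (x : X)⁻¹; group) }
    have hW2 : IsPGroup 2 W := hV2.to_le (show W ≤ V from fun w hw => hWV w hw)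
    have hWne : W ≠ ⊥ := by
      intro h
      have : a * v₀ * a⁻¹ * v₀⁻¹ ∈ W := ⟨v₀, hv₀, rfl⟩
      rw [h, mem_bot, mul_inv_eq_one, mul_inv_eq_iff_eq_mul] at this
      exact hne this
    have hcard : 2 ∣ Nat.card Ω := by
      let ΩS : Subgroup X :=
        { carrier := {w | w ∈ W ∧ w * w = 1}
          mul_mem' := fun {x y} hx hy => ⟨W.mul_mem hx.1 hy.1, by
            have c1 := hVc x (hWV x hx.1) y (hWV y hy.1)
            calc x * y * (x * y) = x * (y * x) * y := by group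
              _ = (x * x) * (y * y) := by rw [← c1]; group
              _ = 1 := by rw [hx.2, hy.2, one_mul]⟩
          one_mem' := ⟨W.one_mem, one_mul 1⟩
          inv_mem' := fun {x} hx => ⟨W.inv_mem hx.1, by rw [← mul_inv_rev, hx.2, inv_one]⟩ }
      have h1 : Nat.card Ω = Nat.card ΩS := rfl
      rw [h1]
      haveI : Nontrivial W := (Subgroup.nontrivial_iff_ne_bot W).2 hWne
      obtain ⟨n, hn⟩ := (IsPGroup.iff_card (p := 2)).mp hW2
      have h2 : 1 < Nat.card W := Finite.one_lt_card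
      have h3 : 2 ∣ Nat.card W := by
        rw [hn] at h2 ⊢
        exact dvd_pow_self 2 (by rintro rfl; simp at h2)
      obtain ⟨w, hw⟩ := exists_prime_orderOf_dvd_card' 2 h3
      have h4 : (w : X) ∈ ΩS := by
        refine ⟨w.2, ?_⟩
        have : w ^ 2 = 1 := by rw [← hw, pow_orderOf_eq_one]
        rw [pow_two] at this
        exact congrArg Subtype.val this
      have h5 := Subgroup.orderOf_dvd_natCard ΩS h4
      rwa [Subgroup.orderOf_coe, hw] at h5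
    have ha2 : IsPGroup 2 (zpowers a) := hA2.to_le (zpowers_le.2 ha)
    have h1Ω : (⟨1, W.one_mem, one_mul 1⟩ : Ω) ∈ MulAction.fixedPoints (zpowers a) Ω := by
      intro x
      apply Subtype.ext
      change (x : X) * 1 * (x : X)⁻¹ = 1
      group
    obtain ⟨w, hw, hw1⟩ := ha2.exists_fixed_point_of_prime_dvd_card_of_fixed_point Ω hcard h1Ω
    have hwa : a * w * a⁻¹ = w := congrArg Subtype.val (hw ⟨a, mem_zpowers a⟩)
    obtain ⟨v, hv, hwv⟩ := w.2.1
    have hww := w.2.2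
    have hwne : (w : X) ≠ 1 := fun h => hw1 (Subtype.ext h.symm)
    have hbv : v * (a * a) = (a * a) * v := by
      have h1 : a * v * a⁻¹ = w * v := by rw [hwv]; group
      have h2 : (a * a) * v * (a * a)⁻¹ = v := by
        calc (a * a) * v * (a * a)⁻¹ = a * (a * v * a⁻¹) * a⁻¹ := by group
          _ = a * (w * v) * a⁻¹ := by rw [h1]
          _ = (a * w * a⁻¹) * (a * v * a⁻¹) := by group
          _ = w * (w * v) := by rw [hwa, h1]
          _ = ((w : X) * w) * v := by rw [mul_assoc]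
          _ = v := by rw [hww, one_mul]
      calc v * (a * a) = ((a * a) * v * (a * a)⁻¹) * (a * a) := by rw [h2]
        _ = (a * a) * v := by group
    have h3 := key0 v hv (hA.of_comm (A.mul_mem ha ha) hb hbv) a ha
    apply hwne
    rw [hwv, h3]; group
  intro x hx v hv
  have ha1 : a ≠ 1 := by rintro rfl; exact hb (one_mul 1)
  exact key0 v hv (hA.of_comm ha ha1 (key1 v hv).symm) x hx

/-- In a 2-group a nonelementary abelian TI-subgroup commutes with its conjugates. -/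
theorem comm_conj [Finite X] (hX : IsPGroup 2 X) {A : Subgroup X} (hA : TI A)
    (hAc : ∀ x ∈ A, ∀ y ∈ A, x * y = y * x) {a : X} (ha : a ∈ A) (hb : a * a ≠ 1) :
    ∀ q x y : X, x ∈ A → y ∈ A → (q * x * q⁻¹) * y = y * (q * x * q⁻¹) := by
  classical
  haveI : Fact (Nat.Prime 2) := ⟨Nat.prime_two⟩
  have ha1 : a ≠ 1 := by rintro rfl; exact hb (one_mul 1)
  have hA2 : IsPGroup 2 A := hX.to_subgroup A
  let F : Set (Subgroup X) := {V | V.Normal ∧ (∀ v ∈ V, ∀ w ∈ V, v * w = w * v) ∧ ∃ v ∈ V, v ∈ A ∧ v ≠ 1}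
  have hFne : F.Nonempty := by
    obtain ⟨V, -, hVn, hVc, hCV⟩ := PGroupOdd.exists_scn hX (A₀ := (⊥ : Subgroup X)) inferInstance inferInstance
    have hVc' : ∀ v ∈ V, ∀ w ∈ V, v * w = w * v := fun v hv w hw =>
      isMulCommutative_iff_of_setLike.mp hVc v hv w hw
    refine ⟨V, hVn, hVc', ?_⟩
    by_contra hcon
    push Not at hcon
    have h1 := centralizes hA hA2 ha hb hVc' (hX.to_subgroup V) (fun x _ v hv => hVn.conj_mem v hv x) hcon
    have h2 : a ∈ Subgroup.centralizer (V : Set X) := by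
      rw [Subgroup.mem_centralizer_iff]
      intro v hv
      exact (h1 a ha v hv).symm
    rw [hCV] at h2
    exact ha1 (hcon a h2 ha)
  obtain ⟨V, hV⟩ := Set.Finite.exists_minimal (s := F) (Set.toFinite _) hFne
  obtain ⟨hVn, hVc, v, hvV, hvA, hv1⟩ := hV.prop
  haveI := hVn
  haveI := hX.isNilpotent
  let Vs : Subgroup X := ⁅V, (⊤ : Subgroup X)⁆
  have hVsn : Vs.Normal := inferInstance
  have hVsV : Vs ≤ V := Subgroup.commutator_le_left V ⊤
  have hVsne : Vs ≠ V := by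
    intro h
    have hle : ∀ n, V ≤ Subgroup.lowerCentralSeries (⊤ : Subgroup X) n := by
      intro n
      induction n with
      | zero => rw [Subgroup.lowerCentralSeries_zero]; exact le_top
      | succ n ih =>
        rw [← h]
        exact Subgroup.commutator_mono ih le_rfl
    obtain ⟨n, hn⟩ := Subgroup.nilpotent_iff_lowerCentralSeries.1 (inferInstance : Group.IsNilpotent X)
    have := hle n hvV
    rw [hn, mem_bot] at this
    exact hv1 this
  have hVs1 : ∀ v ∈ Vs, v ∈ A → v = 1 := by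
    by_contra hcon
    push Not at hcon
    obtain ⟨v, h1, h2, h3⟩ := hcon
    have h4 : Vs ∈ F := ⟨hVsn, fun v hv w hw => hVc v (hVsV hv) w (hVsV hw), v, h1, h2, h3⟩
    exact hVsne (le_antisymm hVsV (hV.le_of_le h4 hVsV))
  have hcen := centralizes hA hA2 ha hb (V := Vs) (fun v hv w hw => hVc v (hVsV hv) w (hVsV hw))
    (hX.to_subgroup Vs) (fun x _ v hv => hVsn.conj_mem v hv x) hVs1
  -- conjugates of `A` normalize `A`
  have hnorm : ∀ q x : X, x ∈ A → ∀ y ∈ A, (q * x * q⁻¹) * y * (q * x * q⁻¹)⁻¹ ∈ A := by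
    intro q x hx
    apply hA.of_comm hvA hv1
    -- `q⁻¹ v q` is centralized by `x`
    have h1 : q⁻¹ * v * q * v⁻¹ ∈ Vs := by
      have h2 : ⁅q⁻¹, v⁆ ∈ ⁅(⊤ : Subgroup X), V⁆ := Subgroup.commutator_mem_commutator (Subgroup.mem_top _) hvV
      rw [Subgroup.commutator_comm] at h2
      rw [commutatorElement_def, inv_inv] at h2
      exact h2
    have h2 := hcen x hx _ h1
    have h3 := hAc x hx v hvA
    have h4 : x * (q⁻¹ * v * q) = (q⁻¹ * v * q) * x := by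
      calc x * (q⁻¹ * v * q) = (x * (q⁻¹ * v * q * v⁻¹)) * v := by group
        _ = (q⁻¹ * v * q * v⁻¹) * (x * v) := by rw [h2]; group
        _ = (q⁻¹ * v * q) * x := by rw [h3]; group
    calc q * x * q⁻¹ * v = q * (x * (q⁻¹ * v * q)) * q⁻¹ := by group
      _ = v * (q * x * q⁻¹) := by rw [h4]; group
  intro q x y hx hy
  have h1 := hnorm q x hx y hy
  -- [qxq⁻¹, y] ∈ A and in the conjugate
  have h2 : (q * x * q⁻¹) * y * (q * x * q⁻¹)⁻¹ * y⁻¹ ∈ A := A.mul_mem h1 (A.inv_mem hy)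
  have h3 : q⁻¹ * ((q * x * q⁻¹) * y * (q * x * q⁻¹)⁻¹ * y⁻¹) * q ∈ A := by
    have h4 := hnorm q⁻¹ y hy x⁻¹ (A.inv_mem hx)
    have h5 := A.mul_mem hx h4
    have e : x * (q⁻¹ * y * q⁻¹⁻¹ * x⁻¹ * (q⁻¹ * y * q⁻¹⁻¹)⁻¹) =
      q⁻¹ * ((q * x * q⁻¹) * y * (q * x * q⁻¹)⁻¹ * y⁻¹) * q := by group
    rwa [e] at h5
  by_contra hne
  have hc1 : (q * x * q⁻¹) * y * (q * x * q⁻¹)⁻¹ * y⁻¹ ≠ 1 := by
    intro h
    rw [mul_inv_eq_one, mul_inv_eq_iff_eq_mul] at h
    exact hne h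
  -- q⁻¹ normalizes A
  have h5 : ∀ z ∈ A, q * z * q⁻¹ ∈ A := by
    have := hA.inv h2 hc1 (h := q⁻¹) (by rw [inv_inv]; exact h3)
    intro z hz
    have := this z hz
    rwa [inv_inv] at this
  exact hne (hAc _ (h5 x hx) y hy)

end Cfsg.Agent.Lib.H30TIa
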