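import Cfsg.Agent.Lib.H31LBal
import Cfsg.Agent.Lib.RelSylow
import Cfsg.Prelude.Def_Balance

/-!
# `p`-components are normal in the extended 2-layer (helper31)
-/

set_option autoImplicit false
open scoped Pointwise commutatorElement
open Subgroup Cfsg

namespace Cfsg.Agent.Lib.H31TwoLayer

open Cfsg.Agent.Lib.Components Cfsg.Agent.Lib.Layer Cfsg.Agent.Lib.CompRel
  Cfsg.Agent.Lib.PComponents Cfsg.Agent.Lib.H31LBal Cfsg.Agent.Lib.RelSylow

universe u
variable {X : Type u} [Group X] [Finite X] {p : ℕ} [hp : Fact p.Prime]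

theorem pPrimePCore_le_normalizer {K : Subgroup X} (hK : IsPComponent p K) :
    pPrimePCore p X ≤ normalizer (K : Set X) := by
  intro x hx
  apply mem_normalizer_of_map hK
  have h1 : QuotientGroup.mk' (pPrimeCore p X) x ∈ fittingSubgroup (X ⧸ pPrimeCore p X) :=
    Cores.pCore_le_fittingSubgroup p hx
  have h2 : K.map (QuotientGroup.mk' (pPrimeCore p X)) ≤ layer (X ⧸ pPrimeCore p X) := le_sSup hK.2.1
  apply centralizer_le_normalizer'
  rw [mem_centralizer_iff]
  intro y hy
  exact (mem_centralizer_iff.1 (layer_le_centralizer_fitting (h2 hy)) _ h1).symm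

/-- elements centralizing a Sylow `p`-subgroup of a subgroup containing and normalizing the `p`-component `K`
normalize `K`. -/
theorem mem_normalizer_of_centralizes {K M T : Subgroup X} (hK : IsPComponent p K) (hKM : K ≤ M)
    (hMK : M ≤ normalizer (K : Set X)) (hT : IsSyl p T M) {x : X} (hx : x ∈ centralizer (T : Set X)) :
    x ∈ normalizer (K : Set X) := by
  have hTK : IsSyl p (T ⊓ K) K := hT.inf hKM hMK
  apply mem_normalizer_of_map hK
  set π := QuotientGroup.mk' (pPrimeCore p X) with hπ
  have hq : IsComponent (K.map π) := hK.2.1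
  -- the conjugate of the component
  have hLc : IsComponent (MulAut.conj (π x) • K.map π) := isComponent_conj _ hq
  by_cases hne : K.map π = MulAut.conj (π x) • K.map π
  · rw [RelSylow.mem_normalizer_iff_map]
    exact hne.symm
  exfalso
  have h1 := components_commutator hq hLc hne
  have h2 : (T ⊓ K).map π ≤ MulAut.conj (π x) • K.map π := by
    rintro _ ⟨t, ht, rfl⟩
    refine ⟨π t, ⟨t, ht.2, rfl⟩, ?_⟩
    change π x * π t * (π x)⁻¹ = π t
    rw [← map_mul, ← map_inv, ← map_mul, ← mem_centralizer_iff.1 hx t ht.1, mul_inv_cancel_right]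
  have h4 : IsSyl p ((T ⊓ K).map π) (K.map π) := hTK.map π
  have h5 : ⁅K.map π, (T ⊓ K).map π⁆ = ⊥ := by
    rw [eq_bot_iff, ← h1]
    exact commutator_mono le_rfl h2
  obtain ⟨P, hP, -⟩ := h4.exists_sylow
  have h6 : (P : Subgroup (K.map π)) ≤ center (K.map π) := by
    intro y hy
    rw [mem_center_iff]
    intro z
    rw [commutator_eq_bot_iff_le_centralizer] at h5
    have hy' : (y : X ⧸ pPrimeCore p X) ∈ (T ⊓ K).map π := by
      rw [← hP]; exact ⟨y, hy, rfl⟩
    exact Subtype.ext (mem_centralizer_iff.1 (h5 z.2) _ hy').symm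
  have h7 := not_dvd_card_of_perfect_central (p := p) hq.2.1 P h6
  have h8 : K.map π ≤ pPrimeCore p (X ⧸ pPrimeCore p X) :=
    subnormal_coprime_le_pPrimeCore hq.1 ((hp.out.coprime_iff_not_dvd.mpr h7).symm)
  rw [Cores.pPrimeCore_quotient_pPrimeCore] at h8
  exact component_ne_bot hq (le_bot_iff.1 h8)

theorem normal_extendedTwoLayer {K : Subgroup X} (hK : IsPComponent 2 K) :
    K ≤ extendedTwoLayer X ∧ (K.subgroupOf (extendedTwoLayer X)).Normal := by
  have : Fact (Nat.Prime 2) := ⟨Nat.prime_two⟩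
  refine ⟨(pComponent_le_pLayer hK).trans (le_sup_left.trans le_sup_left), ?_⟩
  apply normal_subgroupOf_of_le_normalizer
  have hM : pLayer 2 X ⊔ pPrimePCore 2 X ≤ normalizer (K : Set X) :=
    sup_le (pLayer_le_normalizer_pComponent hK) (pPrimePCore_le_normalizer hK)
  refine sup_le (sup_le (pLayer_le_normalizer_pComponent hK) ?_) (iSup_le fun T => ?_)
  · exact pPrimeCore_le_normalizer_pComponent hK
  · rintro _ ⟨x, -, rfl⟩
    exact mem_normalizer_of_centralizes hK ((pComponent_le_pLayer hK).trans le_sup_left) hM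
      (isSyl_of_sylow T) x.2

end Cfsg.Agent.Lib.H31TwoLayer
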