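import Cfsg.Agent.S2581
import Cfsg.Agent.Lib.UnClass

set_option autoImplicit false

/-!
Counting invariant hermitian forms of a unipotent matrix of given Jordan type (helper31).
-/

namespace Cfsg.Agent.Lib.H31UC

open Matrix Cfsg.Agent.S2581 Cfsg.Agent.Lib.ClUnitary

section Cst

variable {K : Type*} [Field K] (σ : K →+* K) {ι κ μ : Type*}

/-- conjugate transpose -/
def cst (A : Matrix ι κ K) : Matrix κ ι K := (A.map σ)ᵀ

theorem cst_apply (A : Matrix ι κ K) (i : κ) (j : ι) : cst σ A i j = σ (A j i) := rfl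

theorem cst_mul [Fintype κ] (A : Matrix ι κ K) (B : Matrix κ μ K) : cst σ (A * B) = cst σ B * cst σ A := by
  ext i j
  rw [cst_apply, Matrix.mul_apply, Matrix.mul_apply, map_sum]
  apply Finset.sum_congr rfl
  intro x _
  rw [map_mul, cst_apply, cst_apply, mul_comm]

theorem cst_add (A B : Matrix ι κ K) : cst σ (A + B) = cst σ A + cst σ B := by
  ext i j
  rw [cst_apply, Matrix.add_apply, Matrix.add_apply, cst_apply, cst_apply, map_add σ]

theorem cst_smul (c : K) (A : Matrix ι κ K) : cst σ (c • A) = σ c • cst σ A := by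
  ext i j
  rw [cst_apply, Matrix.smul_apply, Matrix.smul_apply, cst_apply, smul_eq_mul, smul_eq_mul, map_mul]

theorem cst_cst (hσ : ∀ x, σ (σ x) = x) (A : Matrix ι κ K) : cst σ (cst σ A) = A := by
  ext i j
  rw [cst_apply, cst_apply, hσ]

theorem cst_one [DecidableEq ι] : cst σ (1 : Matrix ι ι K) = 1 := by
  ext i j
  rw [cst_apply, Matrix.one_apply, Matrix.one_apply]
  by_cases h : i = j
  · subst h
    rw [if_pos rfl, map_one]
  · rw [if_neg h, if_neg (Ne.symm h), map_zero]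

theorem cst_submatrix {ι' κ' : Type*} (A : Matrix ι κ K) (e : ι' → ι) (f : κ' → κ) :
    cst σ (A.submatrix e f) = (cst σ A).submatrix f e := rfl

theorem cst_neg (A : Matrix ι κ K) : cst σ (-A) = - cst σ A := by
  ext i j
  rw [cst_apply, Matrix.neg_apply, Matrix.neg_apply, cst_apply, map_neg σ]

theorem cst_zero : cst σ (0 : Matrix ι κ K) = 0 := by
  ext i j
  rw [cst_apply, Matrix.zero_apply, Matrix.zero_apply, map_zero]

/-- the fixed points of a semilinear involution: half of the space -/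
theorem card_half [Finite K] [Finite ι] (hσ : ∀ x, σ (σ x) = x) {α : K} (hα : σ α ≠ α) (P : Matrix ι ι K → Prop)
    (hadd : ∀ A B, P A → P B → P (A + B)) (hsm : ∀ (c : K) A, P A → P (c • A)) (hst : ∀ A, P A → P (cst σ A)) :
    Nat.card {A // P A} = (Nat.card {A // P A ∧ cst σ A = A}) ^ 2 := by
  have hne : α - σ α ≠ 0 := sub_ne_zero.mpr (Ne.symm hα)
  rw [pow_two, ← Nat.card_prod]
  apply Nat.card_congr
  have hneg : ∀ A, P A → P (-A) := fun A h => by
    rw [← neg_one_smul K A]; exact hsm _ _ h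
  exact
    { toFun := fun A => (⟨A.1 - α • ((α - σ α)⁻¹ • (A.1 - cst σ A.1)), by
          rw [sub_eq_add_neg]
          apply hadd _ _ A.2
          apply hneg
          apply hsm
          apply hsm
          rw [sub_eq_add_neg]
          exact hadd _ _ A.2 (hneg _ (hst _ A.2)), by
          rw [sub_eq_add_neg, cst_add, cst_neg, cst_smul, cst_smul, sub_eq_add_neg A.1, cst_add, cst_neg, cst_cst σ hσ]
          have h1 : σ (α - σ α)⁻¹ = - (α - σ α)⁻¹ := by
            rw [map_inv₀, map_sub, hσ, ← neg_sub α (σ α), ← inv_neg]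
          rw [h1]
          ext i j
          simp only [Matrix.add_apply, Matrix.neg_apply, Matrix.smul_apply, smul_eq_mul]
          have h2 : cst σ A.1 i j - A.1 i j = - ((α - σ α)⁻¹ * (A.1 i j - cst σ A.1 i j)) * (α - σ α) := by
            field_simp
            ring
          linear_combination h2⟩,
        ⟨(α - σ α)⁻¹ • (A.1 - cst σ A.1), by
          apply hsm
          rw [sub_eq_add_neg]
          exact hadd _ _ A.2 (hneg _ (hst _ A.2)), by
          rw [cst_smul, sub_eq_add_neg A.1, cst_add, cst_neg, cst_cst σ hσ]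
          have h1 : σ (α - σ α)⁻¹ = - (α - σ α)⁻¹ := by
            rw [map_inv₀, map_sub, hσ, ← neg_sub α (σ α), ← inv_neg]
          rw [h1]
          ext i j
          simp only [Matrix.add_apply, Matrix.neg_apply, Matrix.smul_apply, smul_eq_mul]
          ring⟩)
      invFun := fun x => ⟨x.1.1 + α • x.2.1, hadd _ _ x.1.2.1 (hsm _ _ x.2.2.1)⟩
      left_inv := fun A => by
        apply Subtype.ext
        show A.1 - α • ((α - σ α)⁻¹ • (A.1 - cst σ A.1)) + α • ((α - σ α)⁻¹ • (A.1 - cst σ A.1)) = A.1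
        rw [sub_add_cancel]
      right_inv := fun x => by
        have h1 : (α - σ α)⁻¹ • ((x.1.1 + α • x.2.1) - cst σ (x.1.1 + α • x.2.1)) = x.2.1 := by
          rw [cst_add, cst_smul, x.1.2.2, x.2.2.2]
          ext i j
          simp only [Matrix.add_apply, Matrix.sub_apply, Matrix.smul_apply, smul_eq_mul]
          field_simp
          ring
        apply Prod.ext
        · apply Subtype.ext
          show x.1.1 + α • x.2.1 - α • ((α - σ α)⁻¹ • ((x.1.1 + α • x.2.1) - cst σ (x.1.1 + α • x.2.1))) = x.1.1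
          rw [h1, add_sub_cancel_right]
        · apply Subtype.ext
          exact h1 }

end Cst

section Inv

variable {K : Type*} [Field K] (σ : K →+* K) {t : ℕ} (d : Fin t → ℕ)

/-- invariant sesquilinear forms -/
def Inv (H : Matrix (Ix d) (Ix d) K) : Prop :=
  (Cfsg.jordanTypeMatrix d K)ᵀ * H * Cfsg.jordanTypeMatrix d K = H

/-- padded entries -/
def ff (H : Matrix (Ix d) (Ix d) K) (k l : Fin t) (i j : ℕ) : K :=
  if h : i < d k ∧ j < d l then H ⟨k, ⟨i, h.1⟩⟩ ⟨l, ⟨j, h.2⟩⟩ else 0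

theorem ff_of_lt (H : Matrix (Ix d) (Ix d) K) (k l : Fin t) {i j : ℕ} (hi : i < d k) (hj : j < d l) :
    ff d H k l i j = H ⟨k, ⟨i, hi⟩⟩ ⟨l, ⟨j, hj⟩⟩ := dif_pos ⟨hi, hj⟩

theorem ff_of_le_left (H : Matrix (Ix d) (Ix d) K) (k l : Fin t) {i j : ℕ} (hi : d k ≤ i) :
    ff d H k l i j = 0 := dif_neg (fun h => by omega)

theorem ff_of_le_right (H : Matrix (Ix d) (Ix d) K) (k l : Fin t) {i j : ℕ} (hj : d l ≤ j) :
    ff d H k l i j = 0 := dif_neg (fun h => by omega)

theorem mulJ (A : Matrix (Ix d) (Ix d) K) (k l : Fin t) (i j : ℕ) (hj : j < d l) :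
    ff d (A * Cfsg.jordanTypeMatrix d K) k l i j = ff d A k l i j + ff d A k l i (j + 1) := by
  by_cases hi : i < d k
  · rw [ff_of_lt d _ _ _ hi hj, ff_of_lt d _ _ _ hi hj, vecMul_apply']
    congr 1
    by_cases h : j + 1 < d l
    · rw [dif_pos h, ff_of_lt d _ _ _ hi h]
    · rw [dif_neg h, ff_of_le_right d _ _ _ (by omega)]
  · rw [ff_of_le_left d _ _ _ (by omega), ff_of_le_left d _ _ _ (by omega), ff_of_le_left d _ _ _ (by omega), add_zero]

theorem ff_transpose (A : Matrix (Ix d) (Ix d) K) (k l : Fin t) (i j : ℕ) : ff d Aᵀ k l i j = ff d A l k j i := by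
  unfold ff
  by_cases h : i < d k ∧ j < d l
  · rw [dif_pos h, dif_pos ⟨h.2, h.1⟩]; rfl
  · rw [dif_neg h, dif_neg (fun h' => h ⟨h'.2, h'.1⟩)]

theorem Jmul (A : Matrix (Ix d) (Ix d) K) (k l : Fin t) (i j : ℕ) (hi : i < d k) :
    ff d ((Cfsg.jordanTypeMatrix d K)ᵀ * A) k l i j = ff d A k l i j + ff d A k l (i + 1) j := by
  have h1 : (Cfsg.jordanTypeMatrix d K)ᵀ * A = (Aᵀ * Cfsg.jordanTypeMatrix d K)ᵀ := by
    rw [Matrix.transpose_mul, Matrix.transpose_transpose]
  rw [h1, ff_transpose, mulJ d _ _ _ _ _ hi, ff_transpose, ff_transpose]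

theorem rec' {H : Matrix (Ix d) (Ix d) K} (hH : Inv d H) (k l : Fin t) (i j : ℕ) :
    ff d H k l i (j + 1) + ff d H k l (i + 1) j + ff d H k l (i + 1) (j + 1) = 0 := by
  by_cases hi : i < d k
  · by_cases hj : j < d l
    · have h1 : ff d ((Cfsg.jordanTypeMatrix d K)ᵀ * H * Cfsg.jordanTypeMatrix d K) k l i j = ff d H k l i j := by
        rw [show (Cfsg.jordanTypeMatrix d K)ᵀ * H * Cfsg.jordanTypeMatrix d K = H from hH]
      rw [mulJ d _ _ _ _ _ hj, Jmul d _ _ _ _ _ hi, Jmul d _ _ _ _ _ hi] at h1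
      linear_combination h1
    · rw [ff_of_le_right d _ _ _ (by omega), ff_of_le_right d _ _ _ (by omega), ff_of_le_right d _ _ _ (by omega)]
      simp
  · rw [ff_of_le_left d _ _ _ (by omega), ff_of_le_left d _ _ _ (by omega), ff_of_le_left d _ _ _ (by omega)]
    simp

theorem van1 {H : Matrix (Ix d) (Ix d) K} (hH : Inv d H) (k l : Fin t) (m : ℕ) :
    ∀ i j, d k ≤ i + m → m ≤ j → ff d H k l i j = 0 := by
  induction m with
  | zero => intro i j h1 _; exact ff_of_le_left d _ _ _ (by omega)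
  | succ m ih =>
    intro i j h1 h2
    obtain ⟨j', rfl⟩ : ∃ j', j = j' + 1 := ⟨j - 1, by omega⟩
    have h3 := rec' d hH k l i j'
    rw [ih (i + 1) j' (by omega) (by omega), ih (i + 1) (j' + 1) (by omega) (by omega)] at h3
    simpa using h3

theorem van2 {H : Matrix (Ix d) (Ix d) K} (hH : Inv d H) (k l : Fin t) (m : ℕ) :
    ∀ i j, d l ≤ j + m → m ≤ i → ff d H k l i j = 0 := by
  induction m with
  | zero => intro i j h1 _; exact ff_of_le_right d _ _ _ (by omega)
  | succ m ih =>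
    intro i j h1 h2
    obtain ⟨i', rfl⟩ : ∃ i', i = i' + 1 := ⟨i - 1, by omega⟩
    have h3 := rec' d hH k l i' j
    rw [ih i' (j + 1) (by omega) (by omega), ih (i' + 1) (j + 1) (by omega) (by omega)] at h3
    simpa using h3

theorem sgn {H : Matrix (Ix d) (Ix d) K} (hH : Inv d H) (k l : Fin t) {c : ℕ} (hk : d k = c) :
    ∀ r, r + 1 ≤ c → ff d H k l r (c - 1 - r) = (-1) ^ r * ff d H k l 0 (c - 1) := by
  intro r
  induction r with
  | zero => intro _; rw [pow_zero, one_mul, Nat.sub_zero]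
  | succ r ih =>
    intro hr
    have h1 := rec' d hH k l r (c - 1 - (r + 1))
    rw [show c - 1 - (r + 1) + 1 = c - 1 - r by omega, ih (by omega),
      van1 d hH k l (c - 1 - r) (r + 1) (c - 1 - r) (by omega) le_rfl] at h1
    rw [pow_succ]
    linear_combination h1

/-- leading coefficients -/
def lam (H : Matrix (Ix d) (Ix d) K) (c : ℕ) : Matrix {k // d k = c} {k // d k = c} K :=
  Matrix.of fun k l => ff d H k.1 l.1 0 (c - 1)

theorem ff_add (A B : Matrix (Ix d) (Ix d) K) (k l : Fin t) (i j : ℕ) : ff d (A + B) k l i j = ff d A k l i j + ff d B k l i j := by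
  unfold ff
  by_cases h : i < d k ∧ j < d l
  · rw [dif_pos h, dif_pos h, dif_pos h]; rfl
  · rw [dif_neg h, dif_neg h, dif_neg h, add_zero]

theorem ff_cst (A : Matrix (Ix d) (Ix d) K) (k l : Fin t) (i j : ℕ) : ff d (cst σ A) k l i j = σ (ff d A l k j i) := by
  unfold ff
  by_cases h : i < d k ∧ j < d l
  · rw [dif_pos h, dif_pos ⟨h.2, h.1⟩]; rfl
  · rw [dif_neg h, dif_neg (fun h' => h ⟨h'.2, h'.1⟩), map_zero]

theorem lam_add (A B : Matrix (Ix d) (Ix d) K) (c : ℕ) : lam d (A + B) c = lam d A c + lam d B c := by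
  ext k l
  exact ff_add d A B k.1 l.1 0 (c - 1)

variable (hd : ∀ k, 1 ≤ d k)

include hd in
theorem lam_cst {H : Matrix (Ix d) (Ix d) K} (hH : Inv d H) (c : ℕ) :
    lam d (cst σ H) c = (-1 : K) ^ (c - 1) • cst σ (lam d H c) := by
  ext ⟨k, hk⟩ ⟨l, hl⟩
  have hc : 1 ≤ c := hk ▸ hd k
  show ff d (cst σ H) k l 0 (c - 1) = (-1 : K) ^ (c - 1) * σ (ff d H l k 0 (c - 1))
  rw [ff_cst]
  have h1 := sgn d hH l k hl (c - 1) (by omega)
  rw [Nat.sub_self] at h1
  rw [h1, map_mul, map_pow, map_neg σ, map_one]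

include hd in
theorem lam_mul {H : Matrix (Ix d) (Ix d) K} (hH : Inv d H) {s : Matrix (Ix d) (Ix d) K}
    (hs : s * Cfsg.jordanTypeMatrix d K = Cfsg.jordanTypeMatrix d K * s) (c : ℕ) :
    lam d (H * s) c = lam d H c * (Matrix.of fun k l => s ⟨k.1, ⟨0, hd k.1⟩⟩ ⟨l.1, ⟨0, hd l.1⟩⟩ : Matrix {k // d k = c} {k // d k = c} K) := by
  classical
  ext ⟨k, hk⟩ ⟨l, hl⟩
  have hc : 1 ≤ c := hk ▸ hd k
  show ff d (H * s) k l 0 (c - 1) = _
  rw [ff_of_lt d _ _ _ (hd k) (by omega), Matrix.mul_apply, Fintype.sum_sigma, Matrix.mul_apply]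
  have key : ∀ m : Fin t, (∑ r : Fin (d m), H ⟨k, ⟨0, hd k⟩⟩ ⟨m, r⟩ * s ⟨m, r⟩ ⟨l, ⟨c - 1, by omega⟩⟩) =
      if d m = c then ff d H k m 0 (c - 1) * s ⟨m, ⟨0, hd m⟩⟩ ⟨l, ⟨0, hd l⟩⟩ else 0 := by
    intro m
    have hz : ∀ r : Fin (d m), (r : ℕ) ≠ c - 1 → H ⟨k, ⟨0, hd k⟩⟩ ⟨m, r⟩ * s ⟨m, r⟩ ⟨l, ⟨c - 1, by omega⟩⟩ = 0 := by
      intro r hr
      by_cases h1 : (r : ℕ) < c - 1
      · have := toeplitz d hd hs m l r (c - 1) r.2 (by omega)
        rw [if_neg (by omega)] at this
        rw [show s ⟨m, r⟩ ⟨l, ⟨c - 1, by omega⟩⟩ = s ⟨m, ⟨(r : ℕ), r.2⟩⟩ ⟨l, ⟨c - 1, by omega⟩⟩ from rfl, this, mul_zero]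
      · have h2 := van1 d hH k m c 0 r (by omega) (by omega)
        rw [ff_of_lt d _ _ _ (hd k) r.2] at h2
        rw [show H ⟨k, ⟨0, hd k⟩⟩ ⟨m, r⟩ = H ⟨k, ⟨0, hd k⟩⟩ ⟨m, ⟨(r : ℕ), r.2⟩⟩ from rfl, h2, zero_mul]
    by_cases hm : c - 1 < d m
    · rw [Finset.sum_eq_single ⟨c - 1, hm⟩]
      · have h3 := toeplitz d hd hs m l (c - 1) (c - 1) hm (by omega)
        rw [if_pos le_rfl] at h3
        rw [h3, ff_of_lt d _ _ _ (hd k) hm]
        by_cases h4 : d m = c
        · rw [if_pos h4]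
          congr 2
          congr 1
          exact Fin.ext (Nat.sub_self _)
        · rw [if_neg h4]
          have h5 := constraint d hd hs l ⟨m, ⟨0, hd m⟩⟩ (by show 0 + d l < d m; omega)
          have h6 : s ⟨m, ⟨c - 1 - (c - 1), by omega⟩⟩ ⟨l, ⟨0, hd l⟩⟩ = 0 := by
            rw [← h5]
            congr 2
            exact Fin.ext (Nat.sub_self _)
          rw [h6, mul_zero]
      · intro r _ hr
        exact hz r (fun h => hr (Fin.ext h))
      · intro h; exact absurd (Finset.mem_univ _) h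
    · rw [if_neg (by omega)]
      apply Finset.sum_eq_zero
      intro r _
      exact hz r (by have := r.2; omega)
  rw [Finset.sum_congr rfl (fun m _ => key m), ← Finset.sum_filter]
  symm
  apply Finset.sum_bij (fun (x : {k // d k = c}) _ => x.1)
  · intro x _
    rw [Finset.mem_filter]
    exact ⟨Finset.mem_univ _, x.2⟩
  · intro x _ y _ h
    exact Subtype.ext h
  · intro m hm
    exact ⟨⟨m, (Finset.mem_filter.mp hm).2⟩, Finset.mem_univ _, rfl⟩
  · intro x _
    rfl

include hd in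
/-- the leading coefficients of a nondegenerate form are nondegenerate -/
theorem lam_unit {H : Matrix (Ix d) (Ix d) K} (hH : Inv d H) (hu : IsUnit H) (c : ℕ) : IsUnit (lam d H c).det := by
  classical
  let P : Matrix (Fin t) (Fin t) K := Matrix.of fun k l => ff d H k l 0 (d l - 1)
  have htri : P.BlockTriangular (fun k => OrderDual.toDual (d k)) := by
    intro k l h
    have h' : d k < d l := h
    exact van1 d hH k l (d k) 0 (d l - 1) (by omega) (by omega)
  have hP : P.det ≠ 0 := by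
    intro h0
    obtain ⟨v, hv, hPv⟩ := Matrix.exists_mulVec_eq_zero_iff.mpr h0
    let w : Ix d → K := fun x => if (x.2 : ℕ) + 1 = d x.1 then v x.1 else 0
    have hsum : ∀ (k : Fin t) (i : Fin (d k)), (H *ᵥ w) ⟨k, i⟩ = ∑ l, ff d H k l i (d l - 1) * v l := by
      intro k i
      rw [Matrix.mulVec, dotProduct, Fintype.sum_sigma]
      apply Finset.sum_congr rfl
      intro l _
      have hl := hd l
      rw [Finset.sum_eq_single ⟨d l - 1, by omega⟩]
      · rw [ff_of_lt d _ _ _ i.2 (by omega)]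
        have : w ⟨l, ⟨d l - 1, by omega⟩⟩ = v l := if_pos (by show d l - 1 + 1 = d l; omega)
        rw [this]
      · intro r _ hr
        have : w ⟨l, r⟩ = 0 := if_neg (fun h => hr (Fin.ext (by have h' : (r : ℕ) + 1 = d l := h; show (r : ℕ) = d l - 1; omega)))
        rw [this, mul_zero]
      · intro h; exact absurd (Finset.mem_univ _) h
    have hw : H *ᵥ w = 0 := by
      funext ⟨k, i⟩
      rw [hsum]
      by_cases hi : (i : ℕ) = 0
      · have h1 := congrFun hPv k
        rw [Matrix.mulVec, dotProduct] at h1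
        rw [hi]
        exact h1
      · apply Finset.sum_eq_zero
        intro l _
        have hl := hd l
        rw [van2 d hH k l 1 i (d l - 1) (by omega) (by omega), zero_mul]
    have hw0 : w = 0 := by
      by_contra hne
      have := Matrix.exists_mulVec_eq_zero_iff.mp ⟨w, hne, hw⟩
      rw [Matrix.isUnit_iff_isUnit_det, this] at hu
      exact not_isUnit_zero hu
    apply hv
    funext l
    have hl := hd l
    have h1 := congrFun hw0 ⟨l, ⟨d l - 1, by omega⟩⟩
    have h2 : w ⟨l, ⟨d l - 1, by omega⟩⟩ = v l := if_pos (by show d l - 1 + 1 = d l; omega)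
    rw [← h2, h1]
    rfl
  rw [isUnit_iff_ne_zero]
  by_cases hc : ∃ k, d k = c
  · obtain ⟨k₀, hk₀⟩ := hc
    rw [htri.det, Finset.prod_ne_zero_iff] at hP
    have h1 := hP (OrderDual.toDual (d k₀)) (Finset.mem_image_of_mem (fun k => OrderDual.toDual (d k)) (Finset.mem_univ k₀))
    intro h2
    apply h1
    rw [← h2]
    let e : {k // d k = c} ≃ {k // OrderDual.toDual (d k) = OrderDual.toDual (d k₀)} :=
      { toFun := fun k => ⟨k.1, by rw [k.2, hk₀]⟩
        invFun := fun k => ⟨k.1, by rw [← hk₀]; exact OrderDual.toDual.injective k.2⟩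
        left_inv := fun k => rfl
        right_inv := fun k => rfl }
    rw [← Matrix.det_submatrix_equiv_self e]
    congr 1
    ext ⟨k, hk⟩ ⟨l, hl⟩
    show ff d H k l 0 (d l - 1) = ff d H k l 0 (c - 1)
    rw [hl]
  · have : IsEmpty {k // d k = c} := ⟨fun k => hc ⟨k.1, k.2⟩⟩
    rw [Matrix.det_isEmpty]
    exact one_ne_zero

end Inv

end Cfsg.Agent.Lib.H31UC
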