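import Cfsg.Agent.Lib.H31UC

set_option autoImplicit false

/-!
Counting invariant hermitian forms of a unipotent matrix of given Jordan type, part 2 (helper31).
-/

namespace Cfsg.Agent.Lib.H31UC

open Matrix Cfsg.Agent.S2581 Cfsg.Agent.Lib.ClUnitary

section Count

variable {K : Type*} [Field K] (σ : K →+* K)

/-- hermitian matrices -/
def Hm (ι : Type*) : AddSubgroup (Matrix ι ι K) where
  carrier := {C | cst σ C = C}
  zero_mem' := cst_zero σ
  add_mem' := fun {a b} ha hb => by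
    show cst σ (a + b) = a + b
    rw [cst_add]
    exact congrArg₂ (· + ·) ha hb
  neg_mem' := fun {a} ha => by
    show cst σ (-a) = -a
    rw [cst_neg]
    exact congrArg (- ·) ha

theorem exists_eta (hσ : ∀ x, σ (σ x) = x) {α : K} (hα : σ α ≠ α) : ∃ η : ℕ → K, ∀ m, η m ≠ 0 ∧ σ (η m) = (-1) ^ m * η m := by
  refine ⟨fun m => if Even m then 1 else α - σ α, fun m => ?_⟩
  by_cases h : Even m
  · simp only [h, if_true]
    exact ⟨one_ne_zero, by rw [map_one, h.neg_one_pow, one_mul]⟩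
  · simp only [h, if_false]
    refine ⟨sub_ne_zero.mpr (Ne.symm hα), ?_⟩
    rw [map_sub, hσ, (Nat.not_even_iff_odd.mp h).neg_one_pow]
    ring

variable {t : ℕ} (d : Fin t → ℕ)

theorem cst_J : cst σ (Cfsg.jordanTypeMatrix d K) = (Cfsg.jordanTypeMatrix d K)ᵀ := by
  unfold cst
  congr 1
  ext ⟨k, i⟩ ⟨l, j⟩
  rw [Matrix.map_apply]
  by_cases h : k = l
  · subst h
    rw [Cfsg.jordanTypeMatrix, Matrix.blockDiagonal'_apply_eq, Cfsg.jordanBlock, Matrix.of_apply]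
    split_ifs
    · exact map_one σ
    · exact map_one σ
    · exact map_zero σ
  · rw [Cfsg.jordanTypeMatrix, Matrix.blockDiagonal'_apply_ne _ _ _ h, map_zero]

theorem cst_JT (hσ : ∀ x, σ (σ x) = x) : cst σ (Cfsg.jordanTypeMatrix d K)ᵀ = Cfsg.jordanTypeMatrix d K := by
  rw [← cst_J σ d, cst_cst σ hσ]

theorem inv_cst (hσ : ∀ x, σ (σ x) = x) {H : Matrix (Ix d) (Ix d) K} (hH : Inv d H) : Inv d (cst σ H) := by
  have h1 := congrArg (cst σ) (show (Cfsg.jordanTypeMatrix d K)ᵀ * H * Cfsg.jordanTypeMatrix d K = H from hH)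
  rw [cst_mul, cst_mul, cst_J, cst_JT σ d hσ, ← mul_assoc] at h1
  exact h1

theorem inv_add {H G : Matrix (Ix d) (Ix d) K} (hH : Inv d H) (hG : Inv d G) : Inv d (H + G) := by
  show (Cfsg.jordanTypeMatrix d K)ᵀ * (H + G) * Cfsg.jordanTypeMatrix d K = H + G
  rw [mul_add, add_mul]
  exact congrArg₂ (· + ·) hH hG

theorem inv_smul (c : K) {H : Matrix (Ix d) (Ix d) K} (hH : Inv d H) : Inv d (c • H) := by
  show (Cfsg.jordanTypeMatrix d K)ᵀ * (c • H) * Cfsg.jordanTypeMatrix d K = c • H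
  rw [Matrix.mul_smul, Matrix.smul_mul]
  exact congrArg (c • ·) hH

theorem inv_mul {H s : Matrix (Ix d) (Ix d) K} (hH : Inv d H) (hs : s * Cfsg.jordanTypeMatrix d K = Cfsg.jordanTypeMatrix d K * s) :
    Inv d (H * s) := by
  show (Cfsg.jordanTypeMatrix d K)ᵀ * (H * s) * Cfsg.jordanTypeMatrix d K = H * s
  calc (Cfsg.jordanTypeMatrix d K)ᵀ * (H * s) * Cfsg.jordanTypeMatrix d K
      = (Cfsg.jordanTypeMatrix d K)ᵀ * H * (s * Cfsg.jordanTypeMatrix d K) := by simp only [mul_assoc]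
    _ = ((Cfsg.jordanTypeMatrix d K)ᵀ * H * Cfsg.jordanTypeMatrix d K) * s := by rw [hs]; simp only [mul_assoc]
    _ = H * s := by rw [show (Cfsg.jordanTypeMatrix d K)ᵀ * H * Cfsg.jordanTypeMatrix d K = H from hH]

theorem comm_of_inv {H s : Matrix (Ix d) (Ix d) K} (hH : Inv d H) (hu : IsUnit H) (hs : Inv d (H * s)) :
    s * Cfsg.jordanTypeMatrix d K = Cfsg.jordanTypeMatrix d K * s := by
  have h1 : (Cfsg.jordanTypeMatrix d K)ᵀ * H * Cfsg.jordanTypeMatrix d K = H := hH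
  have h2 : (Cfsg.jordanTypeMatrix d K)ᵀ * (H * s) * Cfsg.jordanTypeMatrix d K = H * s := hs
  have hU : IsUnit ((Cfsg.jordanTypeMatrix d K)ᵀ * H) := by
    rw [Matrix.isUnit_iff_isUnit_det] at hu ⊢
    rw [← h1, Matrix.det_mul] at hu
    exact isUnit_of_mul_isUnit_left hu
  apply hU.mul_left_cancel
  calc (Cfsg.jordanTypeMatrix d K)ᵀ * H * (s * Cfsg.jordanTypeMatrix d K)
      = (Cfsg.jordanTypeMatrix d K)ᵀ * (H * s) * Cfsg.jordanTypeMatrix d K := by simp only [mul_assoc]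
    _ = ((Cfsg.jordanTypeMatrix d K)ᵀ * H * Cfsg.jordanTypeMatrix d K) * s := by rw [h2, h1]
    _ = (Cfsg.jordanTypeMatrix d K)ᵀ * H * (Cfsg.jordanTypeMatrix d K * s) := by simp only [mul_assoc]

/-- symmetric elements of the commutant -/
def YS (H₀ : Matrix (Ix d) (Ix d) K) : AddSubgroup (Matrix (Ix d) (Ix d) K) where
  carrier := {s | s * Cfsg.jordanTypeMatrix d K = Cfsg.jordanTypeMatrix d K * s ∧ cst σ (H₀ * s) = H₀ * s}
  zero_mem' := ⟨by rw [zero_mul, mul_zero], by rw [mul_zero, cst_zero]⟩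
  add_mem' := fun {a b} ha hb => ⟨by rw [add_mul, mul_add, ha.1, hb.1], by rw [mul_add, cst_add, ha.2, hb.2]⟩
  neg_mem' := fun {a} ha => ⟨by rw [neg_mul, mul_neg, ha.1], by rw [mul_neg, cst_neg, ha.2]⟩

variable (hσ : ∀ x, σ (σ x) = x) (hd : ∀ k, 1 ≤ d k) (H₀ : Matrix (Ix d) (Ix d) K) (hH : Inv d H₀) (hu : IsUnit H₀)
  (hh : cst σ H₀ = H₀) (η : ℕ → K) (hη : ∀ m, η m ≠ 0 ∧ σ (η m) = (-1) ^ m * η m)

theorem lam_herm (hd : ∀ k, 1 ≤ d k) (η : ℕ → K) (hη : ∀ m, η m ≠ 0 ∧ σ (η m) = (-1) ^ m * η m) {H : Matrix (Ix d) (Ix d) K}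
    (hI : Inv d H) (h : cst σ H = H) (c : ℕ) : cst σ (η (c - 1) • lam d H c) = η (c - 1) • lam d H c := by
  have h1 := lam_cst σ d hd hI c
  rw [h] at h1
  have h2 : cst σ (lam d H c) = (-1 : K) ^ (c - 1) • lam d H c := by
    have h3 : (-1 : K) ^ (c - 1) * (-1) ^ (c - 1) = 1 := by
      rw [← mul_pow, show (-1 : K) * -1 = 1 by ring, one_pow]
    calc cst σ (lam d H c) = ((-1 : K) ^ (c - 1) * (-1) ^ (c - 1)) • cst σ (lam d H c) := by rw [h3, one_smul]
      _ = (-1 : K) ^ (c - 1) • lam d H c := by rw [← smul_smul, ← h1]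
  rw [cst_smul, h2, (hη (c - 1)).2, smul_smul]
  congr 1
  rw [mul_comm ((-1 : K) ^ (c - 1)) (η (c - 1)), mul_assoc, ← mul_pow]
  rw [show (-1 : K) * -1 = 1 by ring, one_pow, mul_one]

/-- the leading coefficient map -/
def R (hd : ∀ k, 1 ≤ d k) (hH : Inv d H₀) (η : ℕ → K) (hη : ∀ m, η m ≠ 0 ∧ σ (η m) = (-1) ^ m * η m) (s : ℕ) :
    YS σ d H₀ →+ ((c : Fin s) → Hm σ {k // d k = (c : ℕ)}) where
  toFun a c := ⟨η ((c : ℕ) - 1) • lam d (H₀ * a.1) c, lam_herm σ d hd η hη (inv_mul d hH a.2.1) a.2.2 c⟩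
  map_zero' := by
    funext c
    apply Subtype.ext
    show η ((c : ℕ) - 1) • lam d (H₀ * 0) c = 0
    rw [mul_zero]
    have : lam d (0 : Matrix (Ix d) (Ix d) K) (c : ℕ) = 0 := by
      have h := lam_add d (0 : Matrix (Ix d) (Ix d) K) 0 (c : ℕ)
      rw [add_zero] at h
      exact left_eq_add.mp h
    rw [this, smul_zero]
  map_add' a b := by
    funext c
    apply Subtype.ext
    show η ((c : ℕ) - 1) • lam d (H₀ * (a.1 + b.1)) c = η ((c : ℕ) - 1) • lam d (H₀ * a.1) c + η ((c : ℕ) - 1) • lam d (H₀ * b.1) c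
    rw [mul_add, lam_add, smul_add]

include hσ hu in
theorem R_surjective {α : K} (hα : σ α ≠ α) (s : ℕ) : Function.Surjective (R σ d H₀ hd hH η hη s) := by
  classical
  intro C
  have hne : α - σ α ≠ 0 := sub_ne_zero.mpr (Ne.symm hα)
  set β : K := α * (α - σ α)⁻¹ with hβ
  have hβ1 : β + σ β = 1 := by
    rw [hβ, map_mul, map_inv₀, map_sub, hσ]
    have h3 : σ α - α ≠ 0 := sub_ne_zero.mpr hα
    field_simp
    ring
  obtain ⟨Y, hY⟩ := Q_surjective (F := K) d hd s (fun c => (η ((c : ℕ) - 1))⁻¹ • ((lam d H₀ (c : ℕ))⁻¹ * (β • (C c).1)))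
  set A := (commEquiv (F := K) d hd).symm Y with hA
  have hAY : ∀ c : Fin s, (Matrix.of fun k l => A.1 ⟨k.1, ⟨0, hd k.1⟩⟩ ⟨l.1, ⟨0, hd l.1⟩⟩ : Matrix {k // d k = (c : ℕ)} {k // d k = (c : ℕ)} K) =
      (η ((c : ℕ) - 1))⁻¹ • ((lam d H₀ (c : ℕ))⁻¹ * (β • (C c).1)) := by
    intro c
    rw [← congrFun hY c]
    have : Y = commEquiv (F := K) d hd A := ((commEquiv (F := K) d hd).apply_symm_apply Y).symm
    rw [this]
    rfl
  have hlamG : ∀ c : Fin s, lam d (H₀ * A.1) c = (η ((c : ℕ) - 1))⁻¹ • (β • (C c).1) := by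
    intro c
    rw [lam_mul d hd hH A.2 c, hAY, Matrix.mul_smul, ← mul_assoc, Matrix.mul_nonsing_inv _ (lam_unit d hd hH hu c), one_mul]
  have hIG : Inv d (H₀ * A.1) := inv_mul d hH A.2
  set H := H₀ * A.1 + cst σ (H₀ * A.1) with hHd
  have hIH : Inv d H := inv_add d hIG (inv_cst σ d hσ hIG)
  have hHh : cst σ H = H := by
    rw [hHd, cst_add, cst_cst σ hσ, add_comm]
  have hudet := (Matrix.isUnit_iff_isUnit_det _).mp hu
  have hs : H₀ * (H₀⁻¹ * H) = H := by rw [← mul_assoc, Matrix.mul_nonsing_inv _ hudet, one_mul]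
  refine ⟨⟨H₀⁻¹ * H, comm_of_inv d hH hu (by rw [hs]; exact hIH), by rw [hs]; exact hHh⟩, ?_⟩
  funext c
  apply Subtype.ext
  show η ((c : ℕ) - 1) • lam d (H₀ * (H₀⁻¹ * H)) c = (C c).1
  rw [hs, hHd, lam_add, lam_cst σ d hd hIG, hlamG, cst_smul, cst_smul, (show cst σ (C c).1 = (C c).1 from (C c).2), map_inv₀, (hη _).2]
  have h0 := (hη ((c : ℕ) - 1)).1
  have h1 : ((-1 : K) ^ ((c : ℕ) - 1)) ≠ 0 := pow_ne_zero _ (neg_ne_zero.mpr one_ne_zero)
  ext i j
  simp only [Matrix.add_apply, Matrix.smul_apply, smul_eq_mul]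
  have h2 : (-1 : K) ^ ((c : ℕ) - 1) * (((-1 : K) ^ ((c : ℕ) - 1) * η ((c : ℕ) - 1))⁻¹ * (σ β * (C c).1 i j)) = (η ((c : ℕ) - 1))⁻¹ * (σ β * (C c).1 i j) := by
    rw [mul_inv]
    field_simp
  rw [h2]
  have h3 : η ((c : ℕ) - 1) * ((η ((c : ℕ) - 1))⁻¹ * (β * (C c).1 i j) + (η ((c : ℕ) - 1))⁻¹ * (σ β * (C c).1 i j)) = (β + σ β) * (C c).1 i j := by
    field_simp
  rw [h3, hβ1, one_mul]

include hu in
theorem R_unit (s : ℕ) (hs : ∀ k, d k < s) (a : YS σ d H₀) :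
    IsUnit a.1 ↔ ∀ c, IsUnit (R σ d H₀ hd hH η hη s a c).1.det := by
  rw [isUnit_iff (F := K) d hd s hs ⟨a.1, a.2.1⟩]
  apply forall_congr'
  intro c
  have h1 : (R σ d H₀ hd hH η hη s a c).1 = η ((c : ℕ) - 1) • (lam d H₀ (c : ℕ) * Q (F := K) d hd s (commEquiv d hd ⟨a.1, a.2.1⟩) c) := by
    show η ((c : ℕ) - 1) • lam d (H₀ * a.1) c = _
    rw [lam_mul d hd hH a.2.1 c]
    rfl
  rw [h1, Matrix.det_smul, Matrix.det_mul]
  have h2 : IsUnit (η ((c : ℕ) - 1) ^ Fintype.card {k // d k = (c : ℕ)}) := (isUnit_iff_ne_zero.mpr (hη _).1).pow _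
  rw [IsUnit.mul_iff, IsUnit.mul_iff]
  constructor
  · intro h
    exact ⟨h2, lam_unit d hd hH hu c, h⟩
  · intro h
    exact h.2.2

include hσ hd hH hu in
theorem card_YS [Finite K] {α : K} (hα : σ α ≠ α) : Nat.card (YT K d) = (Nat.card (YS σ d H₀)) ^ 2 := by
  have hudet := (Matrix.isUnit_iff_isUnit_det _).mp hu
  have h1 := card_half σ hσ hα (Inv d) (fun A B hA hB => inv_add d hA hB) (fun c A hA => inv_smul d c hA) (fun A hA => inv_cst σ d hσ hA)
  have e1 : Nat.card {A : Matrix (Ix d) (Ix d) K // Inv d A} = Nat.card (YT K d) := by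
    rw [← Nat.card_congr (commEquiv (F := K) d hd)]
    symm
    apply Nat.card_congr
    exact
      { toFun := fun s => ⟨H₀ * s.1, inv_mul d hH s.2⟩
        invFun := fun A => ⟨H₀⁻¹ * A.1, comm_of_inv d hH hu (by rw [← mul_assoc, Matrix.mul_nonsing_inv _ hudet, one_mul]; exact A.2)⟩
        left_inv := fun s => by
          apply Subtype.ext
          show H₀⁻¹ * (H₀ * s.1) = s.1
          rw [← mul_assoc, Matrix.nonsing_inv_mul _ hudet, one_mul]
        right_inv := fun A => by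
          apply Subtype.ext
          show H₀ * (H₀⁻¹ * A.1) = A.1
          rw [← mul_assoc, Matrix.mul_nonsing_inv _ hudet, one_mul] }
  have e2 : Nat.card {A : Matrix (Ix d) (Ix d) K // Inv d A ∧ cst σ A = A} = Nat.card (YS σ d H₀) := by
    symm
    apply Nat.card_congr
    exact
      { toFun := fun s => ⟨H₀ * s.1, inv_mul d hH s.2.1, s.2.2⟩
        invFun := fun A => ⟨H₀⁻¹ * A.1, comm_of_inv d hH hu (by rw [← mul_assoc, Matrix.mul_nonsing_inv _ hudet, one_mul]; exact A.2.1),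
          by rw [← mul_assoc, Matrix.mul_nonsing_inv _ hudet, one_mul]; exact A.2.2⟩
        left_inv := fun s => by
          apply Subtype.ext
          show H₀⁻¹ * (H₀ * s.1) = s.1
          rw [← mul_assoc, Matrix.nonsing_inv_mul _ hudet, one_mul]
        right_inv := fun A => by
          apply Subtype.ext
          show H₀ * (H₀⁻¹ * A.1) = A.1
          rw [← mul_assoc, Matrix.mul_nonsing_inv _ hudet, one_mul] }
  rw [← e1, ← e2]
  exact h1

theorem card_Hm [Finite K] (hσ : ∀ x, σ (σ x) = x) {α : K} (hα : σ α ≠ α) (ι : Type*) [Finite ι] :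
    Nat.card (Matrix ι ι K) = (Nat.card (Hm σ ι)) ^ 2 := by
  have h1 := card_half σ (ι := ι) hσ hα (fun _ => True) (fun _ _ _ _ => trivial) (fun _ _ _ => trivial) (fun _ _ => trivial)
  rw [Nat.card_congr (Equiv.subtypeUnivEquiv fun _ => trivial)] at h1
  rw [h1]
  congr 1
  apply Nat.card_congr
  exact Equiv.subtypeEquivRight (fun A => ⟨fun h => h.2, fun h => ⟨trivial, h⟩⟩)

end Count

end Cfsg.Agent.Lib.H31UC
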