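import Cfsg.Agent.Lib.H31UD

set_option autoImplicit false
set_option linter.unusedSectionVars false

/-!
The norm map on the commutant of a unitary matrix; transport to the Jordan type matrix (helper31).
-/

namespace Cfsg.Agent.Lib.H31UC

open Matrix Cfsg.Agent.S2581 Cfsg.Agent.Lib.ClUnitary

section Norm

variable {F : Type*} [Field F] [Fintype F] {q n : ℕ} (hF : Fintype.card F = q ^ 2)

theorem st_comm {A M : Matrix (Fin n) (Fin n) F} (hA : IsUn q A) (h : Commute M A) : Commute A (UnClass.st hF M) := by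
  have hA1 := (UnClass.isUn_iff_st hF).mp hA
  have hA2 : A * UnClass.st hF A = 1 := mul_eq_one_comm.mp hA1
  have h1 := congrArg (UnClass.st hF) h.eq
  rw [UnClass.st_mul, UnClass.st_mul] at h1
  show A * UnClass.st hF M = UnClass.st hF M * A
  calc A * UnClass.st hF M = A * (UnClass.st hF M * (UnClass.st hF A * A)) := by rw [hA1, mul_one]
    _ = A * (UnClass.st hF M * UnClass.st hF A) * A := by simp only [mul_assoc]
    _ = A * (UnClass.st hF A * UnClass.st hF M) * A := by rw [h1]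
    _ = (A * UnClass.st hF A) * UnClass.st hF M * A := by simp only [mul_assoc]
    _ = UnClass.st hF M * A := by rw [hA2, one_mul]

theorem st_unit {M : Matrix (Fin n) (Fin n) F} (h : IsUnit M) : IsUnit (UnClass.st hF M) := by
  obtain ⟨X', hX1⟩ := h.exists_right_inv
  have h1 : UnClass.st hF X' * UnClass.st hF M = 1 := by rw [← UnClass.st_mul, hX1, UnClass.st_one]
  exact isUnit_iff_exists.mpr ⟨UnClass.st hF X', mul_eq_one_comm.mp h1, h1⟩

/-- the norm map is surjective with fibres of the size of the unitary centralizer -/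
theorem card_norm {A : Matrix (Fin n) (Fin n) F} (hA : IsUn q A) :
    Nat.card {g : GL (Fin n) F // Commute (g : Matrix (Fin n) (Fin n) F) A} =
      Nat.card {J : Matrix (Fin n) (Fin n) F // UnClass.st hF J = J ∧ IsUnit J ∧ Commute A J} *
        Nat.card {g : GL (Fin n) F // IsUn q (g : Matrix (Fin n) (Fin n) F) ∧ Commute (g : Matrix (Fin n) (Fin n) F) A} := by
  classical
  have hc : ∀ J : {J : Matrix (Fin n) (Fin n) F // UnClass.st hF J = J ∧ IsUnit J ∧ Commute A J},
      ∃ c : GL (Fin n) F, UnClass.st hF (c : Matrix (Fin n) (Fin n) F) * (c : Matrix (Fin n) (Fin n) F) = J.1 ∧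
        Commute (c : Matrix (Fin n) (Fin n) F) A := by
    intro J
    obtain ⟨c, hcu, -, h2, h3⟩ := UnClass.exists_norm hF hA J.2.1 J.2.2.1 J.2.2.2
    exact ⟨hcu.unit, h2, h3⟩
  choose c hc1 hc2 using hc
  let Jm : {g : GL (Fin n) F // Commute (g : Matrix (Fin n) (Fin n) F) A} →
      {J : Matrix (Fin n) (Fin n) F // UnClass.st hF J = J ∧ IsUnit J ∧ Commute A J} := fun g =>
    ⟨UnClass.st hF (g.1 : Matrix (Fin n) (Fin n) F) * (g.1 : Matrix (Fin n) (Fin n) F),
      by rw [UnClass.st_mul, UnClass.st_st], (st_unit hF g.1.isUnit).mul g.1.isUnit, (st_comm hF hA g.2).mul_right g.2.symm⟩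
  have hinv : ∀ c : GL (Fin n) F, UnClass.st hF ((c⁻¹ : GL (Fin n) F) : Matrix (Fin n) (Fin n) F) * UnClass.st hF (c : Matrix (Fin n) (Fin n) F) = 1 := by
    intro c
    rw [← UnClass.st_mul, Units.mul_inv, UnClass.st_one]
  have hcomm : ∀ J, Commute (((c J)⁻¹ : GL (Fin n) F) : Matrix (Fin n) (Fin n) F) A := fun J => (hc2 J).units_inv_left
  have hJw : ∀ (J : {J : Matrix (Fin n) (Fin n) F // UnClass.st hF J = J ∧ IsUnit J ∧ Commute A J}) (w : GL (Fin n) F)
      (hw : IsUn q (w : Matrix (Fin n) (Fin n) F)) (hwc : Commute (w : Matrix (Fin n) (Fin n) F) A),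
      UnClass.st hF (((w * c J : GL (Fin n) F)) : Matrix (Fin n) (Fin n) F) * ((w * c J : GL (Fin n) F) : Matrix (Fin n) (Fin n) F) = J.1 := by
    intro J w hw hwc
    have hw1 := (UnClass.isUn_iff_st hF).mp hw
    rw [Units.val_mul, UnClass.st_mul]
    calc UnClass.st hF (c J : Matrix (Fin n) (Fin n) F) * UnClass.st hF (w : Matrix (Fin n) (Fin n) F) * ((w : Matrix (Fin n) (Fin n) F) * (c J : Matrix (Fin n) (Fin n) F))
        = UnClass.st hF (c J : Matrix (Fin n) (Fin n) F) * (UnClass.st hF (w : Matrix (Fin n) (Fin n) F) * (w : Matrix (Fin n) (Fin n) F)) * (c J : Matrix (Fin n) (Fin n) F) := by simp only [mul_assoc]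
      _ = J.1 := by rw [hw1, mul_one, hc1]
  rw [← Nat.card_prod]
  apply Nat.card_congr
  exact
    { toFun := fun g => (Jm g, ⟨g.1 * (c (Jm g))⁻¹, by
          rw [UnClass.isUn_iff_st hF, Units.val_mul, UnClass.st_mul]
          calc UnClass.st hF (((c (Jm g))⁻¹ : GL (Fin n) F) : Matrix (Fin n) (Fin n) F) * UnClass.st hF (g.1 : Matrix (Fin n) (Fin n) F) *
                ((g.1 : Matrix (Fin n) (Fin n) F) * (((c (Jm g))⁻¹ : GL (Fin n) F) : Matrix (Fin n) (Fin n) F))
              = UnClass.st hF (((c (Jm g))⁻¹ : GL (Fin n) F) : Matrix (Fin n) (Fin n) F) * (Jm g).1 * (((c (Jm g))⁻¹ : GL (Fin n) F) : Matrix (Fin n) (Fin n) F) := by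
                show _ = _ * (UnClass.st hF (g.1 : Matrix (Fin n) (Fin n) F) * (g.1 : Matrix (Fin n) (Fin n) F)) * _
                simp only [mul_assoc]
            _ = (UnClass.st hF (((c (Jm g))⁻¹ : GL (Fin n) F) : Matrix (Fin n) (Fin n) F) * UnClass.st hF (c (Jm g) : Matrix (Fin n) (Fin n) F)) *
                ((c (Jm g) : Matrix (Fin n) (Fin n) F) * (((c (Jm g))⁻¹ : GL (Fin n) F) : Matrix (Fin n) (Fin n) F)) := by
                rw [← hc1]; simp only [mul_assoc]
            _ = 1 := by rw [hinv, Units.mul_inv, one_mul], by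
          rw [Units.val_mul]
          exact g.2.mul_left (hcomm _)⟩)
      invFun := fun x => ⟨x.2.1 * c x.1, by
          rw [Units.val_mul]
          exact x.2.2.2.mul_left (hc2 _)⟩
      left_inv := fun g => by
        apply Subtype.ext
        show g.1 * (c (Jm g))⁻¹ * c (Jm g) = g.1
        rw [inv_mul_cancel_right]
      right_inv := fun x => by
        have h1 : Jm ⟨x.2.1 * c x.1, by rw [Units.val_mul]; exact x.2.2.2.mul_left (hc2 _)⟩ = x.1 :=
          Subtype.ext (hJw x.1 x.2.1 x.2.2.1 x.2.2.2)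
        apply Prod.ext
        · exact h1
        · apply Subtype.ext
          show x.2.1 * c x.1 * (c (Jm ⟨x.2.1 * c x.1, _⟩))⁻¹ = x.2.1
          rw [h1, mul_inv_cancel_right] }

/-- invertible hermitian matrices -/
theorem card_GL_herm (m : ℕ) : Nat.card (GL (Fin m) F) =
    Nat.card {J : Matrix (Fin m) (Fin m) F // UnClass.st hF J = J ∧ IsUnit J} * Nat.card (Cfsg.GU m F q) := by
  have hA : IsUn q (1 : Matrix (Fin m) (Fin m) F) := by
    rw [UnClass.isUn_iff_st hF, mul_one, UnClass.st_one]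
  have h1 := card_norm hF hA
  have e1 : Nat.card {g : GL (Fin m) F // Commute (g : Matrix (Fin m) (Fin m) F) 1} = Nat.card (GL (Fin m) F) :=
    Nat.card_congr (Equiv.subtypeUnivEquiv fun g => Commute.one_right _)
  have e2 : Nat.card {J : Matrix (Fin m) (Fin m) F // UnClass.st hF J = J ∧ IsUnit J ∧ Commute 1 J} =
      Nat.card {J : Matrix (Fin m) (Fin m) F // UnClass.st hF J = J ∧ IsUnit J} :=
    Nat.card_congr (Equiv.subtypeEquivRight fun J => ⟨fun h => ⟨h.1, h.2.1⟩, fun h => ⟨h.1, h.2, Commute.one_left _⟩⟩)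
  have e3 : Nat.card {g : GL (Fin m) F // IsUn q (g : Matrix (Fin m) (Fin m) F) ∧ Commute (g : Matrix (Fin m) (Fin m) F) 1} =
      Nat.card (Cfsg.GU m F q) :=
    Nat.card_congr (Equiv.subtypeEquivRight fun g => ⟨fun h => mem_GU.mpr h.1, fun h => ⟨mem_GU.mp h, Commute.one_right _⟩⟩)
  rw [e1, e2, e3] at h1
  exact h1

theorem card_centralizer (u : Cfsg.GU n F q) : Nat.card (Subgroup.centralizer ({u} : Set (Cfsg.GU n F q))) =
    Nat.card {g : GL (Fin n) F // IsUn q (g : Matrix (Fin n) (Fin n) F) ∧ Commute (g : Matrix (Fin n) (Fin n) F) ((u : GL (Fin n) F) : Matrix (Fin n) (Fin n) F)} := by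
  apply Nat.card_congr
  exact
    { toFun := fun g => ⟨g.1.1, mem_GU.mp g.1.2, by
          have h := Subgroup.mem_centralizer_singleton_iff.mp g.2
          have h' := congrArg (fun z : Cfsg.GU n F q => ((z : GL (Fin n) F) : Matrix (Fin n) (Fin n) F)) h
          exact h'⟩
      invFun := fun g => ⟨⟨g.1, mem_GU.mpr g.2.1⟩, by
          rw [Subgroup.mem_centralizer_singleton_iff]
          apply Subtype.ext
          apply Units.ext
          exact g.2.2⟩
      left_inv := fun g => rfl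
      right_inv := fun g => rfl }

end Norm

section Transport

variable {F : Type*} [Field F] [Fintype F] {q n t : ℕ} (hF : Fintype.card F = q ^ 2) (d : Fin t → ℕ) (e : Ix d ≃ Fin n)

/-- conjugation and reindexing -/
def Psi (X : GL (Fin n) F) : Matrix (Fin n) (Fin n) F ≃* Matrix (Ix d) (Ix d) F where
  toFun M := (((X⁻¹ : GL (Fin n) F) : Matrix (Fin n) (Fin n) F) * M * (X : Matrix (Fin n) (Fin n) F)).submatrix e e
  invFun s := (X : Matrix (Fin n) (Fin n) F) * s.submatrix e.symm e.symm * ((X⁻¹ : GL (Fin n) F) : Matrix (Fin n) (Fin n) F)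
  left_inv M := by
    show (X : Matrix (Fin n) (Fin n) F) * (((((X⁻¹ : GL (Fin n) F) : Matrix (Fin n) (Fin n) F) * M * (X : Matrix (Fin n) (Fin n) F)).submatrix e e).submatrix e.symm e.symm) *
      ((X⁻¹ : GL (Fin n) F) : Matrix (Fin n) (Fin n) F) = M
    rw [Matrix.submatrix_submatrix]
    have : (e : Ix d → Fin n) ∘ (e.symm : Fin n → Ix d) = id := by funext x; simp
    rw [this, Matrix.submatrix_id_id]
    simp only [← mul_assoc, Units.mul_inv, one_mul]
    rw [mul_assoc, Units.mul_inv, mul_one]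
  right_inv s := by
    simp only [← mul_assoc, Units.inv_mul, one_mul]
    rw [mul_assoc, Units.inv_mul, mul_one, Matrix.submatrix_submatrix]
    have : (e.symm : Fin n → Ix d) ∘ (e : Ix d → Fin n) = id := by funext x; simp
    rw [this, Matrix.submatrix_id_id]
  map_mul' M N := by
    rw [Matrix.submatrix_mul_equiv]
    congr 1
    calc ((X⁻¹ : GL (Fin n) F) : Matrix (Fin n) (Fin n) F) * (M * N) * (X : Matrix (Fin n) (Fin n) F)
        = ((X⁻¹ : GL (Fin n) F) : Matrix (Fin n) (Fin n) F) * M * 1 * N * (X : Matrix (Fin n) (Fin n) F) := by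
          rw [mul_one]; simp only [mul_assoc]
      _ = _ := by rw [← Units.mul_inv X]; simp only [mul_assoc]

theorem Psi_apply (X : GL (Fin n) F) (M : Matrix (Fin n) (Fin n) F) :
    Psi d e X M = (((X⁻¹ : GL (Fin n) F) : Matrix (Fin n) (Fin n) F) * M * (X : Matrix (Fin n) (Fin n) F)).submatrix e e := rfl

/-- the transported form -/
def HH (X : GL (Fin n) F) : Matrix (Ix d) (Ix d) F :=
  (UnClass.st hF (X : Matrix (Fin n) (Fin n) F) * (X : Matrix (Fin n) (Fin n) F)).submatrix e e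

theorem HH_unit (X : GL (Fin n) F) : IsUnit (HH hF d e X) := by
  have h1 : IsUnit (UnClass.st hF (X : Matrix (Fin n) (Fin n) F) * (X : Matrix (Fin n) (Fin n) F)) := (st_unit hF X.isUnit).mul X.isUnit
  rw [Matrix.isUnit_iff_isUnit_det] at h1 ⊢
  unfold HH
  rw [Matrix.det_submatrix_equiv_self]
  exact h1

theorem HH_herm (X : GL (Fin n) F) : cst (frob hF) (HH hF d e X) = HH hF d e X := by
  unfold HH
  rw [cst_submatrix]
  congr 1
  show UnClass.st hF (UnClass.st hF (X : Matrix (Fin n) (Fin n) F) * (X : Matrix (Fin n) (Fin n) F)) = _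
  rw [UnClass.st_mul, UnClass.st_st]

theorem HH_mul (X : GL (Fin n) F) (M : Matrix (Fin n) (Fin n) F) : HH hF d e X * Psi d e X M =
    (UnClass.st hF (X : Matrix (Fin n) (Fin n) F) * M * (X : Matrix (Fin n) (Fin n) F)).submatrix e e := by
  rw [Psi_apply, HH, Matrix.submatrix_mul_equiv]
  congr 1
  calc UnClass.st hF (X : Matrix (Fin n) (Fin n) F) * (X : Matrix (Fin n) (Fin n) F) *
        (((X⁻¹ : GL (Fin n) F) : Matrix (Fin n) (Fin n) F) * M * (X : Matrix (Fin n) (Fin n) F))
      = UnClass.st hF (X : Matrix (Fin n) (Fin n) F) * ((X : Matrix (Fin n) (Fin n) F) * ((X⁻¹ : GL (Fin n) F) : Matrix (Fin n) (Fin n) F)) * M * (X : Matrix (Fin n) (Fin n) F) := by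
        simp only [mul_assoc]
    _ = _ := by rw [Units.mul_inv, mul_one]

theorem HH_inv {A : Matrix (Fin n) (Fin n) F} (hA : IsUn q A) (X : GL (Fin n) F)
    (hX : Psi d e X A = Cfsg.jordanTypeMatrix d F) : Inv d (HH hF d e X) := by
  have hA1 := (UnClass.isUn_iff_st hF).mp hA
  show (Cfsg.jordanTypeMatrix d F)ᵀ * HH hF d e X * Cfsg.jordanTypeMatrix d F = HH hF d e X
  rw [← cst_J (frob hF) d, ← hX, mul_assoc, HH_mul, Psi_apply, cst_submatrix, Matrix.submatrix_mul_equiv, HH]
  congr 1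
  show UnClass.st hF (((X⁻¹ : GL (Fin n) F) : Matrix (Fin n) (Fin n) F) * A * (X : Matrix (Fin n) (Fin n) F)) *
    (UnClass.st hF (X : Matrix (Fin n) (Fin n) F) * A * (X : Matrix (Fin n) (Fin n) F)) = _
  rw [UnClass.st_mul, UnClass.st_mul]
  have h2 : UnClass.st hF ((X⁻¹ : GL (Fin n) F) : Matrix (Fin n) (Fin n) F) * UnClass.st hF (X : Matrix (Fin n) (Fin n) F) = 1 := by
    rw [← UnClass.st_mul, Units.mul_inv, UnClass.st_one]
  calc UnClass.st hF (X : Matrix (Fin n) (Fin n) F) * (UnClass.st hF A * UnClass.st hF ((X⁻¹ : GL (Fin n) F) : Matrix (Fin n) (Fin n) F)) *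
        (UnClass.st hF (X : Matrix (Fin n) (Fin n) F) * A * (X : Matrix (Fin n) (Fin n) F))
      = UnClass.st hF (X : Matrix (Fin n) (Fin n) F) * (UnClass.st hF A * (UnClass.st hF ((X⁻¹ : GL (Fin n) F) : Matrix (Fin n) (Fin n) F) *
        UnClass.st hF (X : Matrix (Fin n) (Fin n) F)) * A) * (X : Matrix (Fin n) (Fin n) F) := by simp only [mul_assoc]
    _ = _ := by rw [h2, mul_one, hA1, mul_one]

theorem sym_iff (X : GL (Fin n) F) (M : Matrix (Fin n) (Fin n) F) :
    cst (frob hF) (HH hF d e X * Psi d e X M) = HH hF d e X * Psi d e X M ↔ UnClass.st hF M = M := by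
  rw [HH_mul, cst_submatrix]
  have h1 : cst (frob hF) (UnClass.st hF (X : Matrix (Fin n) (Fin n) F) * M * (X : Matrix (Fin n) (Fin n) F)) =
      UnClass.st hF (X : Matrix (Fin n) (Fin n) F) * UnClass.st hF M * (X : Matrix (Fin n) (Fin n) F) := by
    show UnClass.st hF (UnClass.st hF (X : Matrix (Fin n) (Fin n) F) * M * (X : Matrix (Fin n) (Fin n) F)) = _
    rw [UnClass.st_mul, UnClass.st_mul, UnClass.st_st, mul_assoc]
  rw [h1]
  constructor
  · intro h
    have h2 := congrArg (fun Z : Matrix (Ix d) (Ix d) F => Z.submatrix e.symm e.symm) h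
    simp only [Matrix.submatrix_submatrix] at h2
    have h3 : (e : Ix d → Fin n) ∘ (e.symm : Fin n → Ix d) = id := by funext x; simp
    rw [h3, Matrix.submatrix_id_id, Matrix.submatrix_id_id] at h2
    have h4 := X.isUnit.mul_right_cancel h2
    exact (st_unit hF X.isUnit).mul_left_cancel h4
  · intro h
    rw [h]

theorem card_sym {A : Matrix (Fin n) (Fin n) F} (X : GL (Fin n) F)
    (hX : Psi d e X A = Cfsg.jordanTypeMatrix d F) :
    Nat.card {J : Matrix (Fin n) (Fin n) F // UnClass.st hF J = J ∧ IsUnit J ∧ Commute A J} =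
      Nat.card {s : YS (frob hF) d (HH hF d e X) // IsUnit s.1} := by
  have e1 : {s : YS (frob hF) d (HH hF d e X) // IsUnit s.1} ≃ {s : Matrix (Ix d) (Ix d) F // s ∈ YS (frob hF) d (HH hF d e X) ∧ IsUnit s} :=
    Equiv.subtypeSubtypeEquivSubtypeInter _ _
  rw [Nat.card_congr e1]
  apply Nat.card_congr
  apply (Psi d e X).toEquiv.subtypeEquiv
  intro M
  show _ ↔ Psi d e X M ∈ YS (frob hF) d (HH hF d e X) ∧ IsUnit (Psi d e X M)
  have h1 : Psi d e X M ∈ YS (frob hF) d (HH hF d e X) ↔ (Psi d e X M * Cfsg.jordanTypeMatrix d F = Cfsg.jordanTypeMatrix d F * Psi d e X M ∧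
      cst (frob hF) (HH hF d e X * Psi d e X M) = HH hF d e X * Psi d e X M) := Iff.rfl
  rw [h1, sym_iff, MulEquiv.isUnit_map, ← hX, ← map_mul, ← map_mul, (Psi d e X).injective.eq_iff]
  constructor
  · intro h
    exact ⟨⟨h.2.2.eq.symm, h.1⟩, h.2.1⟩
  · intro h
    exact ⟨h.1.2, h.2, h.1.1.symm⟩

theorem card_comm {A : Matrix (Fin n) (Fin n) F} (X : GL (Fin n) F)
    (hX : Psi d e X A = Cfsg.jordanTypeMatrix d F) :
    Nat.card {g : GL (Fin n) F // Commute (g : Matrix (Fin n) (Fin n) F) A} =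
      Nat.card {g : GL (Ix d) F // (g : Matrix (Ix d) (Ix d) F) * Cfsg.jordanTypeMatrix d F = Cfsg.jordanTypeMatrix d F * (g : Matrix (Ix d) (Ix d) F)} := by
  apply Nat.card_congr
  apply (Units.mapEquiv (Psi d e X)).toEquiv.subtypeEquiv
  intro g
  show _ ↔ (Psi d e X g) * Cfsg.jordanTypeMatrix d F = Cfsg.jordanTypeMatrix d F * (Psi d e X g)
  rw [← hX, ← map_mul, ← map_mul, (Psi d e X).injective.eq_iff]
  rfl

end Transport

end Cfsg.Agent.Lib.H31UC
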