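import Mathlib
import Cfsg.Prelude.Def_Transfer
import Cfsg.Agent.Lib.LargeExtra7

set_option autoImplicit false

/-!
Extensions of extraspecial 2-groups realizing orthogonal modules: the group of orthogonal real matrices in a twisted
group algebra normalizing the extraspecial group (helper31).
-/

namespace Cfsg.Agent.Lib.H31XO

open Matrix

noncomputable def sg (a : ZMod 2) : ℝ := if a = 0 then 1 else -1

lemma sg_zero : sg 0 = 1 := if_pos rfl

lemma sg_one : sg 1 = -1 := if_neg one_ne_zero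

lemma zc (a : ZMod 2) : a = 0 ∨ a = 1 := by revert a; decide

lemma sg_add (a b : ZMod 2) : sg (a + b) = sg a * sg b := by
  have h2 : (1 : ZMod 2) + 1 = 0 := by decide
  rcases zc a with rfl | rfl <;> rcases zc b with rfl | rfl
  · rw [add_zero, sg_zero, mul_one]
  · rw [zero_add, sg_zero, one_mul]
  · rw [add_zero, sg_zero, mul_one]
  · rw [h2, sg_zero, sg_one]; norm_num

lemma sg_sq (a : ZMod 2) : sg a * sg a = 1 := by
  rcases zc a with rfl | rfl
  · rw [sg_zero, mul_one]
  · rw [sg_one]; norm_num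

lemma sg_ne (a : ZMod 2) : sg a ≠ 0 := by
  intro h
  have := sg_sq a
  rw [h, mul_zero] at this
  exact zero_ne_one this

lemma sg_inj {a b : ZMod 2} (h : sg a = sg b) : a = b := by
  rcases zc a with rfl | rfl <;> rcases zc b with rfl | rfl
  · rfl
  · rw [sg_zero, sg_one] at h; norm_num at h
  · rw [sg_zero, sg_one] at h; norm_num at h
  · rfl

lemma add_self2 (a : ZMod 2) : a + a = 0 := by revert a; decide

section alg

variable {V : Type} [AddCommGroup V] [Module (ZMod 2) V] [Fintype V] [DecidableEq V]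
  (f : V →ₗ[ZMod 2] V →ₗ[ZMod 2] ZMod 2)

lemma vself (v : V) : v + v = 0 := ZModModule.add_self v

/-- the basis of the twisted group algebra -/
noncomputable def L (v : V) : Matrix V V ℝ := Matrix.of fun a b => if a = b + v then sg (f v b) else 0

lemma L_apply (v a b : V) : L f v a b = if a = b + v then sg (f v b) else 0 := rfl

lemma L_col (v a : V) : L f v a 0 = if a = v then 1 else 0 := by
  rw [L_apply, zero_add, map_zero, sg_zero]

lemma L_mul (u v : V) : L f u * L f v = sg (f u v) • L f (u + v) := by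
  ext a b
  rw [Matrix.mul_apply, Finset.sum_eq_single (b + v), Matrix.smul_apply, L_apply, L_apply, L_apply, if_pos rfl, smul_eq_mul]
  · by_cases h : a = b + v + u
    · rw [if_pos h, if_pos (by rw [h]; abel)]
      rw [map_add, map_add, LinearMap.add_apply, sg_add, sg_add]
      ring
    · rw [if_neg h, if_neg (by intro h'; apply h; rw [h']; abel)]
      ring
  · intro c _ hc
    rw [L_apply f v c b, if_neg hc, mul_zero]
  · intro h; exact absurd (Finset.mem_univ _) h

lemma L_zero : L f 0 = 1 := by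
  ext a b
  rw [L_apply, Matrix.one_apply, add_zero]
  congr 1
  rw [map_zero, LinearMap.zero_apply, sg_zero]

lemma L_tr (v : V) : (L f v)ᵀ = sg (f v v) • L f v := by
  ext a b
  rw [Matrix.transpose_apply, Matrix.smul_apply, L_apply, L_apply, smul_eq_mul]
  by_cases h : a = b + v
  · have h' : b = a + v := by rw [h, add_assoc, vself, add_zero]
    rw [if_pos h, if_pos h', h, map_add, sg_add]
    ring
  · have h' : ¬ b = a + v := by
      intro h'; apply h; rw [h', add_assoc, vself, add_zero]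
    rw [if_neg h, if_neg h', mul_zero]

lemma L_self (v : V) : L f v * L f v = sg (f v v) • (1 : Matrix V V ℝ) := by
  rw [L_mul, vself, L_zero]

lemma L_tr_mul (v : V) : (L f v)ᵀ * L f v = 1 := by
  rw [L_tr, Matrix.smul_mul, L_self, smul_smul, sg_sq, one_smul]

lemma L_comm (u v : V) : L f u * L f v = sg (f u v + f v u) • (L f v * L f u) := by
  rw [L_mul, L_mul, smul_smul, sg_add, mul_assoc, sg_sq, mul_one, add_comm v u]

/-- elements of the algebra -/
def InA (M : Matrix V V ℝ) : Prop := ∃ c : V → ℝ, M = ∑ w, c w • L f w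

lemma coeff (c : V → ℝ) (w : V) : (∑ v, c v • L f v) w 0 = c w := by
  rw [Matrix.sum_apply, Finset.sum_eq_single w]
  · rw [Matrix.smul_apply, L_col, if_pos rfl, smul_eq_mul, mul_one]
  · intro b _ hb
    rw [Matrix.smul_apply, L_col, if_neg (Ne.symm hb), smul_zero]
  · intro h; exact absurd (Finset.mem_univ _) h

variable {f}

lemma InA.eq {M : Matrix V V ℝ} (h : InA f M) : M = ∑ w, M w 0 • L f w := by
  obtain ⟨c, hc⟩ := h
  have : ∀ w, M w 0 = c w := fun w => by rw [hc, coeff]
  conv_lhs => rw [hc]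
  exact Finset.sum_congr rfl fun w _ => by rw [this]

lemma InA.ext {M N : Matrix V V ℝ} (h : InA f M) (h' : InA f N) (he : ∀ w, M w 0 = N w 0) : M = N := by
  rw [h.eq, h'.eq]
  exact Finset.sum_congr rfl fun w _ => by rw [he]

lemma inA_L (v : V) : InA f (L f v) := by
  refine ⟨fun w => if w = v then 1 else 0, ?_⟩
  rw [Finset.sum_eq_single v]
  · show _ = (if v = v then (1 : ℝ) else 0) • L f v
    rw [if_pos rfl, one_smul]
  · intro b _ hb
    show (if b = v then (1 : ℝ) else 0) • L f b = 0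
    rw [if_neg hb, zero_smul]
  · intro h; exact absurd (Finset.mem_univ _) h

lemma InA.smul {M : Matrix V V ℝ} (h : InA f M) (a : ℝ) : InA f (a • M) := by
  obtain ⟨c, rfl⟩ := h
  refine ⟨fun w => a * c w, ?_⟩
  rw [Finset.smul_sum]
  exact Finset.sum_congr rfl fun w _ => by rw [smul_smul]

lemma InA.add {M N : Matrix V V ℝ} (h : InA f M) (h' : InA f N) : InA f (M + N) := by
  obtain ⟨c, rfl⟩ := h
  obtain ⟨d, rfl⟩ := h'
  refine ⟨fun w => c w + d w, ?_⟩
  rw [← Finset.sum_add_distrib]
  exact Finset.sum_congr rfl fun w _ => by rw [add_smul]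

lemma inA_zero : InA f (0 : Matrix V V ℝ) := ⟨0, by simp⟩

lemma inA_sum {ι : Type*} (s : Finset ι) (F : ι → Matrix V V ℝ) (h : ∀ i ∈ s, InA f (F i)) : InA f (∑ i ∈ s, F i) := by
  classical
  induction s using Finset.induction_on with
  | empty => rw [Finset.sum_empty]; exact inA_zero
  | insert a s ha ih =>
    rw [Finset.sum_insert ha]
    exact (h a (Finset.mem_insert_self _ _)).add (ih fun i hi => h i (Finset.mem_insert_of_mem hi))

lemma InA.mul {M N : Matrix V V ℝ} (h : InA f M) (h' : InA f N) : InA f (M * N) := by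
  obtain ⟨c, rfl⟩ := h
  obtain ⟨d, rfl⟩ := h'
  rw [Finset.sum_mul]
  apply inA_sum
  intro i _
  rw [Finset.mul_sum]
  apply inA_sum
  intro j _
  rw [Matrix.smul_mul, Matrix.mul_smul, L_mul]
  exact (((inA_L _).smul _).smul _).smul _

lemma inA_one : InA f (1 : Matrix V V ℝ) := by
  rw [← L_zero f]; exact inA_L _

lemma InA.tr {M : Matrix V V ℝ} (h : InA f M) : InA f Mᵀ := by
  obtain ⟨c, rfl⟩ := h
  rw [Matrix.transpose_sum]
  apply inA_sum
  intro i _
  rw [Matrix.transpose_smul, L_tr]
  exact ((inA_L _).smul _).smul _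

/-- elements commuting with all `L v` up to sign -/
lemma monomial (hB : ∀ w, (∀ v, f w v + f v w = 0) → w = 0) {M : Matrix V V ℝ} (h : InA f M) (h0 : M ≠ 0)
    (hc : ∀ v, ∃ ε : ZMod 2, M * L f v = sg ε • (L f v * M)) : ∃ w, M = M w 0 • L f w ∧
      ∀ v (ε : ZMod 2), M * L f v = sg ε • (L f v * M) → f w v + f v w = ε := by
  obtain ⟨w, hw⟩ : ∃ w, M w 0 ≠ 0 := by
    by_contra hcon
    push Not at hcon
    apply h0
    exact h.ext inA_zero (fun w => by rw [hcon]; rfl)
  have key : ∀ w' v, ∀ ε : ZMod 2, M * L f v = sg ε • (L f v * M) → M w' 0 ≠ 0 → f w' v + f v w' = ε := by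
    intro w' v ε hε hw'
    have e1 : (M * L f v) (w' + v) 0 = M w' 0 * sg (f w' v) := by
      conv_lhs => rw [h.eq]
      rw [Finset.sum_mul, Matrix.sum_apply, Finset.sum_eq_single w']
      · rw [Matrix.smul_mul, L_mul, Matrix.smul_apply, Matrix.smul_apply, L_col, if_pos rfl, smul_eq_mul, smul_eq_mul, mul_one]
      · intro b _ hb
        rw [Matrix.smul_mul, L_mul, Matrix.smul_apply, Matrix.smul_apply, L_col, if_neg (fun hh => hb (add_right_cancel hh).symm),
          smul_zero, smul_zero]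
      · intro h; exact absurd (Finset.mem_univ _) h
    have e2 : (L f v * M) (w' + v) 0 = M w' 0 * sg (f v w') := by
      conv_lhs => rw [h.eq]
      rw [Finset.mul_sum, Matrix.sum_apply, Finset.sum_eq_single w']
      · rw [Matrix.mul_smul, L_mul, Matrix.smul_apply, Matrix.smul_apply, L_col, if_pos (add_comm _ _), smul_eq_mul, smul_eq_mul, mul_one]
      · intro b _ hb
        rw [Matrix.mul_smul, L_mul, Matrix.smul_apply, Matrix.smul_apply, L_col,
          if_neg (fun hh => hb (by rw [add_comm w' v] at hh; exact (add_left_cancel hh).symm)), smul_zero, smul_zero]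
      · intro h; exact absurd (Finset.mem_univ _) h
    have e3 : M w' 0 * sg (f w' v) = sg ε * (M w' 0 * sg (f v w')) := by
      rw [← e1, ← e2, hε, Matrix.smul_apply, smul_eq_mul]
    have e4 : sg (f w' v + f v w') = sg ε := by
      rw [sg_add]
      have e5 : sg (f w' v) = sg ε * sg (f v w') := by
        apply mul_left_cancel₀ hw'
        rw [e3]; ring
      rw [e5, mul_assoc, sg_sq, mul_one]
    exact sg_inj e4
  have huniq : ∀ w', M w' 0 ≠ 0 → w' = w := by
    intro w' hw'
    have h1 : w' + w = 0 := by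
      apply hB
      intro v
      obtain ⟨ε, hε⟩ := hc v
      have a1 := key w' v ε hε hw'
      have a2 := key w v ε hε hw
      rw [map_add, map_add, LinearMap.add_apply]
      have : f w' v + f w v + (f v w' + f v w) = (f w' v + f v w') + (f w v + f v w) := by abel
      rw [this, a1, a2, add_self2]
    have h2 : w' = w' + w + w := by rw [add_assoc, vself, add_zero]
    rw [h2, h1, zero_add]
  refine ⟨w, ?_, fun v ε hε => key w v ε hε hw⟩
  conv_lhs => rw [h.eq]
  rw [Finset.sum_eq_single w]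
  · intro b _ hb
    by_cases hz : M b 0 = 0
    · rw [hz, zero_smul]
    · exact absurd (huniq b hz) hb
  · intro h; exact absurd (Finset.mem_univ _) h

lemma sign_monomial (hB : ∀ w, (∀ v, f w v + f v w = 0) → w = 0) {M : Matrix V V ℝ} (h : InA f M) (h1 : Mᵀ * M = 1)
    (hc : ∀ v, ∃ ε : ZMod 2, M * L f v = sg ε • (L f v * M)) : ∃ w, ∃ δ, M = sg δ • L f w := by
  have h0 : M ≠ 0 := by
    rintro rfl
    rw [mul_zero] at h1
    have h2 := congrFun (congrFun h1 0) 0
    rw [Matrix.one_apply_eq, Matrix.zero_apply] at h2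
    exact zero_ne_one h2
  obtain ⟨w, hw, -⟩ := monomial hB h h0 hc
  refine ⟨w, ?_⟩
  set c := M w 0 with hcdef
  rw [hw, Matrix.transpose_smul, Matrix.smul_mul, Matrix.mul_smul, L_tr_mul, smul_smul] at h1
  have h2 := congrFun (congrFun h1 0) 0
  rw [Matrix.smul_apply, Matrix.one_apply_eq, smul_eq_mul, mul_one] at h2
  rcases mul_self_eq_one_iff.1 h2 with h3 | h3
  · exact ⟨0, by rw [sg_zero, ← h3]; exact hw⟩
  · exact ⟨1, by rw [sg_one, ← h3]; exact hw⟩

/-- sums of a nontrivial character vanish -/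
lemma sum_sg (l : V →ₗ[ZMod 2] ZMod 2) (hl : l ≠ 0) : ∑ w, sg (l w) = 0 := by
  obtain ⟨w0, hw0⟩ : ∃ w0, l w0 ≠ 0 := by
    by_contra hcon
    push Not at hcon
    exact hl (LinearMap.ext fun w => by rw [hcon w]; rfl)
  have h1 : l w0 = 1 := (zc _).resolve_left hw0
  have h2 : ∑ w, sg (l w) = ∑ w, sg (l (w + w0)) := (Equiv.sum_comp (Equiv.addRight w0) fun w => sg (l w)).symm
  have h3 : ∑ w, sg (l (w + w0)) = - ∑ w, sg (l w) := by
    rw [← Finset.sum_neg_distrib]
    exact Finset.sum_congr rfl fun w _ => by rw [map_add, sg_add, h1, sg_one, mul_neg_one]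
  rw [h3] at h2
  linarith

/-- lifting isometries -/
theorem exists_lift (hB : ∀ w, (∀ v, f w v + f v w = 0) → w = 0) (T : V →ₗ[ZMod 2] V)
    (s : V → ZMod 2) (hs : ∀ u v, s (u + v) = s u + s v + (f (T u) (T v) + f u v)) (hq : ∀ v, f (T v) (T v) = f v v) :
    ∃ M : Matrix V V ℝ, InA f M ∧ Mᵀ * M = 1 ∧ ∀ v, M * L f v = sg (s v) • (L f (T v) * M) := by
  have hs0 : s 0 = 0 := by
    have h1 := hs 0 0
    rw [add_zero] at h1
    have h3 : f (T 0) (T 0) + f 0 0 = 0 := by
      rw [hq]; exact add_self2 _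
    rw [h3, add_zero, add_self2] at h1
    exact h1
  set P : Matrix V V ℝ → Matrix V V ℝ := fun y => ∑ v, sg (s v) • (L f (T v) * y * (L f v)ᵀ) with hP
  have hPin : ∀ w, InA f (P (L f w)) := by
    intro w
    apply inA_sum
    intro v _
    exact (((inA_L _).mul (inA_L _)).mul (inA_L _).tr).smul _
  -- intertwining
  have hPc : ∀ y u, P y * L f u = sg (s u) • (L f (T u) * P y) := by
    intro y u
    rw [hP]
    simp only
    rw [Finset.sum_mul, Finset.mul_sum, Finset.smul_sum]
    rw [← Equiv.sum_comp (Equiv.addLeft u) (fun v => sg (s v) • (L f (T v) * y * (L f v)ᵀ) * L f u)]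
    apply Finset.sum_congr rfl
    intro v _
    rw [Equiv.coe_addLeft]
    have a1 : (L f (u + v))ᵀ * L f u = sg (f u v) • (L f v)ᵀ := by
      have b1 : L f (u + v) = sg (f u v) • (L f u * L f v) := by
        rw [L_mul, smul_smul, sg_sq, one_smul]
      rw [b1, Matrix.transpose_smul, Matrix.transpose_mul, Matrix.smul_mul, Matrix.mul_assoc, L_tr_mul, Matrix.mul_one]
    have a2 : L f (T (u + v)) = sg (f (T u) (T v)) • (L f (T u) * L f (T v)) := by
      rw [map_add, L_mul, smul_smul, sg_sq, one_smul]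
    rw [a2, Matrix.smul_mul, Matrix.mul_assoc (_ * y), a1]
    rw [hs, Matrix.smul_mul, Matrix.smul_mul, Matrix.mul_smul, Matrix.mul_smul]
    simp only [smul_smul, Matrix.mul_assoc]
    congr 1
    rw [sg_add, sg_add, sg_add]
    have e1 := sg_sq (f (T u) (T v))
    have e2 := sg_sq (f u v)
    linear_combination (sg (s u) * sg (s v) * sg (f u v) * sg (f u v)) * e1 + (sg (s u) * sg (s v)) * e2
  -- nonvanishing
  have hne : ∃ w, P (L f w) ≠ 0 := by
    by_contra hcon
    push Not at hcon
    have h1 : ∑ w, P (L f w) w 0 = 0 := Finset.sum_eq_zero fun w _ => by rw [hcon]; rfl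
    have h2 : ∀ w, P (L f w) w 0 = ∑ v, if T v = v then sg (s v) * sg (f v w + f w v) else 0 := by
      intro w
      rw [hP]
      simp only
      rw [Matrix.sum_apply]
      apply Finset.sum_congr rfl
      intro v _
      rw [L_tr, L_mul, Matrix.smul_mul, Matrix.mul_smul, L_mul]
      rw [Matrix.smul_apply, Matrix.smul_apply, Matrix.smul_apply, Matrix.smul_apply, L_col]
      simp only [smul_eq_mul]
      by_cases hv : T v = v
      · have : w = T v + w + v := by
          rw [hv, add_comm v w, add_assoc, vself, add_zero]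
        rw [if_pos hv, if_pos this, hv, map_add, LinearMap.add_apply, sg_add, sg_add]
        have e1 := sg_sq (f v v)
        linear_combination (sg (s v) * sg (f v w) * sg (f w v)) * e1
      · have : ¬ w = T v + w + v := by
          intro h
          apply hv
          have h' : T v + w + v = w + (T v + v) := by abel
          rw [h'] at h
          have h'' : T v + v = 0 := by
            have := h.symm
            rwa [add_eq_left] at this
          have : T v = T v + v + v := by rw [add_assoc, vself, add_zero]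
          rw [this, h'', zero_add]
        rw [if_neg hv, if_neg this]; ring
    simp only [h2] at h1
    rw [Finset.sum_comm, Finset.sum_eq_single 0] at h1
    · rw [Finset.sum_congr rfl (fun w _ => by
        rw [if_pos (map_zero T), hs0, map_zero, LinearMap.zero_apply, map_zero, add_zero, sg_zero, mul_one])] at h1
      rw [Finset.sum_const, Finset.card_univ, nsmul_eq_mul, mul_one] at h1
      have : Fintype.card V ≠ 0 := Fintype.card_ne_zero
      exact this (by exact_mod_cast h1)
    · intro v _ hv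
      by_cases hTv : T v = v
      · simp only [if_pos hTv]
        rw [← Finset.mul_sum]
        have h3 := sum_sg (f v + f.flip v) (by
          intro h
          apply hv
          apply hB
          intro u
          have := LinearMap.congr_fun h u
          simpa using this)
        have h4 : ∑ w, sg (f v w + f w v) = 0 := by
          rw [← h3]
          exact Finset.sum_congr rfl fun w _ => by simp
        rw [h4, mul_zero]
      · simp only [if_neg hTv]
        exact Finset.sum_const_zero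
    · intro h; exact absurd (Finset.mem_univ _) h
  obtain ⟨w, hw⟩ := hne
  set g := P (L f w) with hg
  have hgA : InA f g := hPin w
  have hgc : ∀ u, g * L f u = sg (s u) • (L f (T u) * g) := fun u => hPc _ u
  have hgt : ∀ u, gᵀ * L f (T u) = sg (s u) • (L f u * gᵀ) := by
    intro u
    have h1 := congrArg Matrix.transpose (hgc u)
    rw [Matrix.transpose_mul, Matrix.transpose_smul, Matrix.transpose_mul, L_tr, L_tr, hq, Matrix.smul_mul,
      Matrix.mul_smul, smul_comm (sg (s u))] at h1
    have h2 : L f u * gᵀ = sg (s u) • (gᵀ * L f (T u)) := smul_right_injective _ (sg_ne (f u u)) h1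
    rw [h2, smul_smul, sg_sq, one_smul]
  have hG : ∀ u, (gᵀ * g) * L f u = sg 0 • (L f u * (gᵀ * g)) := by
    intro u
    rw [Matrix.mul_assoc, hgc, Matrix.mul_smul, ← Matrix.mul_assoc, hgt, Matrix.smul_mul, smul_smul, sg_sq, one_smul,
      sg_zero, one_smul, Matrix.mul_assoc]
  have hpos : 0 < (gᵀ * g) 0 0 := by
    rw [Matrix.mul_apply]
    obtain ⟨a, ha⟩ : ∃ a, g a 0 ≠ 0 := by
      by_contra hcon
      push Not at hcon
      exact hw (hgA.ext inA_zero fun a => by rw [hcon]; rfl)
    apply Finset.sum_pos'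
    · intro i _
      rw [Matrix.transpose_apply]
      exact mul_self_nonneg _
    · refine ⟨a, Finset.mem_univ _, ?_⟩
      rw [Matrix.transpose_apply]
      exact mul_self_pos.2 ha
  have hG0 : gᵀ * g ≠ 0 := by
    intro h
    rw [h] at hpos
    exact lt_irrefl _ hpos
  obtain ⟨w', hw', hw''⟩ := monomial hB (hgA.tr.mul hgA) hG0 (fun v => ⟨0, hG v⟩)
  have hw0 : w' = 0 := hB w' fun v => hw'' v 0 (hG v)
  rw [hw0, L_zero] at hw'
  set c := (gᵀ * g) 0 0 with hc
  refine ⟨(Real.sqrt c)⁻¹ • g, hgA.smul _, ?_, ?_⟩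
  · rw [Matrix.transpose_smul, Matrix.smul_mul, Matrix.mul_smul, hw', smul_smul, smul_smul]
    have h1 : (Real.sqrt c)⁻¹ * ((Real.sqrt c)⁻¹ * c) = 1 := by
      have h2 : Real.sqrt c ≠ 0 := (Real.sqrt_pos.2 hpos).ne'
      have h3 : Real.sqrt c * Real.sqrt c = c := Real.mul_self_sqrt hpos.le
      field_simp
      rw [pow_two, h3]
    rw [mul_assoc, h1, one_smul]
  · intro v
    rw [Matrix.smul_mul, Matrix.mul_smul, hgc, smul_comm]

/-- alternating forms over the field of two elements are polar -/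
lemma alt_split {V : Type*} [AddCommGroup V] [Module (ZMod 2) V] [Module.Finite (ZMod 2) V]
    (b : V →ₗ[ZMod 2] V →ₗ[ZMod 2] ZMod 2) (hb : ∀ v, b v v = 0) :
    ∃ s : V → ZMod 2, ∀ u v, s (u + v) = s u + s v + b u v := by
  classical
  set bas := Module.finBasis (ZMod 2) V
  have hsym : ∀ u v, b u v = b v u := by
    intro u v
    have h1 := hb (u + v)
    rw [map_add b, LinearMap.add_apply, map_add, map_add, hb, hb, zero_add, add_zero] at h1
    have h2 : b u v = b u v + b v u + b v u := by rw [add_assoc, add_self2, add_zero]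
    rw [h2, h1, zero_add]
  set g : V →ₗ[ZMod 2] V →ₗ[ZMod 2] ZMod 2 :=
    bas.constr (ZMod 2) (fun i => bas.constr (ZMod 2) (fun j => if i < j then b (bas i) (bas j) else 0)) with hg
  have hgij : ∀ i j, g (bas i) (bas j) = if i < j then b (bas i) (bas j) else 0 := by
    intro i j
    rw [hg, Module.Basis.constr_basis, Module.Basis.constr_basis]
  have key : b = g + g.flip := by
    apply bas.ext
    intro i
    apply bas.ext
    intro j
    rw [LinearMap.add_apply, LinearMap.add_apply, LinearMap.flip_apply, hgij, hgij]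
    rcases lt_trichotomy i j with h | h | h
    · rw [if_pos h, if_neg h.not_gt, add_zero]
    · subst h
      rw [if_neg (lt_irrefl _), add_zero, hb]
    · rw [if_neg h.not_gt, if_pos h, zero_add, hsym]
  refine ⟨fun v => g v v, fun u v => ?_⟩
  have h1 : b u v = g u v + g v u := by
    conv_lhs => rw [key]
    rw [LinearMap.add_apply, LinearMap.add_apply, LinearMap.flip_apply]
  show g (u + v) (u + v) = g u u + g v v + b u v
  rw [h1, map_add g, LinearMap.add_apply, map_add, map_add]
  abel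

variable {K : Type} [Group K] (ρ : Representation (ZMod 2) K V) (f)

/-- the extension -/
def RR : Subgroup ((Matrix V V ℝ)ˣ × K) where
  carrier := {x | InA f (x.1 : Matrix V V ℝ) ∧ (x.1 : Matrix V V ℝ)ᵀ * x.1 = 1 ∧
    ∀ v, ∃ ε : ZMod 2, (x.1 : Matrix V V ℝ) * L f v = sg ε • (L f (ρ x.2 v) * x.1)}
  mul_mem' := by
    rintro x y ⟨h1, h2, h3⟩ ⟨k1, k2, k3⟩
    refine ⟨h1.mul k1, ?_, ?_⟩
    · show ((x.1 : Matrix V V ℝ) * (y.1 : Matrix V V ℝ))ᵀ * ((x.1 : Matrix V V ℝ) * (y.1 : Matrix V V ℝ)) = 1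
      rw [Matrix.transpose_mul, Matrix.mul_assoc, ← Matrix.mul_assoc _ (x.1 : Matrix V V ℝ), h2, Matrix.one_mul, k2]
    · intro v
      obtain ⟨ε, hε⟩ := k3 v
      obtain ⟨ε', hε'⟩ := h3 (ρ y.2 v)
      refine ⟨ε + ε', ?_⟩
      show (x.1 : Matrix V V ℝ) * (y.1 : Matrix V V ℝ) * L f v = sg (ε + ε') • (L f (ρ (x.2 * y.2) v) * ((x.1 : Matrix V V ℝ) * (y.1 : Matrix V V ℝ)))
      rw [Matrix.mul_assoc, hε, Matrix.mul_smul, ← Matrix.mul_assoc, hε', Matrix.smul_mul, smul_smul, sg_add, map_mul,
        Matrix.mul_assoc]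
      rfl
  one_mem' := by
    refine ⟨inA_one, ?_, fun v => ⟨0, ?_⟩⟩
    · show (1 : Matrix V V ℝ)ᵀ * (1 : Matrix V V ℝ) = 1
      rw [Matrix.transpose_one, Matrix.one_mul]
    · show (1 : Matrix V V ℝ) * L f v = sg 0 • (L f (ρ (1 : K) v) * (1 : Matrix V V ℝ))
      rw [map_one, sg_zero, one_smul, Matrix.one_mul, Matrix.mul_one]
      rfl
  inv_mem' := by
    rintro x ⟨h1, h2, h3⟩
    have hinv : ((x⁻¹).1 : Matrix V V ℝ) = (x.1 : Matrix V V ℝ)ᵀ := by
      show ((x.1⁻¹ : (Matrix V V ℝ)ˣ) : Matrix V V ℝ) = _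
      exact Units.inv_eq_of_mul_eq_one_left h2
    have h2' : (x.1 : Matrix V V ℝ) * (x.1 : Matrix V V ℝ)ᵀ = 1 := by
      rw [← hinv]; exact Units.mul_inv _
    refine ⟨?_, ?_, fun v => ?_⟩
    · rw [hinv]; exact h1.tr
    · rw [hinv, Matrix.transpose_transpose]; exact h2'
    · obtain ⟨ε, hε⟩ := h3 (ρ (x.2)⁻¹ v)
      refine ⟨ε, ?_⟩
      rw [hinv]
      show (x.1 : Matrix V V ℝ)ᵀ * L f v = sg ε • (L f (ρ (x.2)⁻¹ v) * (x.1 : Matrix V V ℝ)ᵀ)
      have e1 : ρ x.2 (ρ (x.2)⁻¹ v) = v := by
        rw [← Module.End.mul_apply, ← map_mul, mul_inv_cancel, map_one]; rfl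
      rw [e1] at hε
      have e2 : L f (ρ (x.2)⁻¹ v) * (x.1 : Matrix V V ℝ)ᵀ = sg ε • ((x.1 : Matrix V V ℝ)ᵀ * L f v) := by
        have e3 : (x.1 : Matrix V V ℝ)ᵀ * ((x.1 : Matrix V V ℝ) * L f (ρ (x.2)⁻¹ v)) * (x.1 : Matrix V V ℝ)ᵀ =
            (x.1 : Matrix V V ℝ)ᵀ * (sg ε • (L f v * (x.1 : Matrix V V ℝ))) * (x.1 : Matrix V V ℝ)ᵀ := by rw [hε]
        rw [← Matrix.mul_assoc _ (x.1 : Matrix V V ℝ), h2, Matrix.one_mul, Matrix.mul_smul, Matrix.smul_mul, Matrix.mul_assoc,
          Matrix.mul_assoc (L f v), h2', Matrix.mul_one] at e3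
        exact e3
      rw [e2, smul_smul, sg_sq, one_smul]

variable {f}

/-- the signed basis elements -/
noncomputable def el (f : V →ₗ[ZMod 2] V →ₗ[ZMod 2] ZMod 2) (δ : ZMod 2) (w : V) : (Matrix V V ℝ)ˣ where
  val := sg δ • L f w
  inv := (sg δ • L f w)ᵀ
  val_inv := by
    rw [Matrix.transpose_smul, Matrix.smul_mul, Matrix.mul_smul, L_tr, Matrix.mul_smul, L_self, smul_smul, smul_smul,
      smul_smul]
    have e1 := sg_sq δ
    have e2 := sg_sq (f w w)
    have : sg δ * (sg δ * sg (f w w)) * sg (f w w) = 1 := by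
      linear_combination (sg (f w w) * sg (f w w)) * e1 + e2
    have h3 : sg δ * sg δ * sg (f w w) * sg (f w w) = 1 := by rw [← this]; ring
    rw [h3, one_smul]
  inv_val := by
    rw [Matrix.transpose_smul, Matrix.smul_mul, Matrix.mul_smul, L_tr_mul, smul_smul, sg_sq, one_smul]

lemma el_val (δ : ZMod 2) (w : V) : ((el f δ w : (Matrix V V ℝ)ˣ) : Matrix V V ℝ) = sg δ • L f w := rfl

lemma el_mul (δ δ' : ZMod 2) (w w' : V) : el f δ w * el f δ' w' = el f (δ + δ' + f w w') (w + w') := by
  apply Units.ext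
  rw [Units.val_mul, el_val, el_val, el_val, Matrix.smul_mul, Matrix.mul_smul, L_mul, smul_smul, smul_smul, sg_add, sg_add]

lemma el_inj {δ δ' : ZMod 2} {w w' : V} (h : el f δ w = el f δ' w') : δ = δ' ∧ w = w' := by
  have h0 : ((el f δ w : (Matrix V V ℝ)ˣ) : Matrix V V ℝ) = ((el f δ' w' : (Matrix V V ℝ)ˣ) : Matrix V V ℝ) := by rw [h]
  have h1 := congrFun (congrFun h0 w) 0
  rw [el_val, el_val, Matrix.smul_apply, Matrix.smul_apply, L_col, L_col, if_pos rfl, smul_eq_mul, smul_eq_mul, mul_one] at h1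
  by_cases hw : w = w'
  · rw [if_pos hw, mul_one] at h1
    exact ⟨sg_inj h1, hw⟩
  · rw [if_neg hw, mul_zero] at h1
    exact absurd h1 (sg_ne _)

lemma el_one : el f 0 (0 : V) = 1 := by
  apply Units.ext
  rw [el_val, sg_zero, one_smul, L_zero]; rfl

lemma el_mem (δ : ZMod 2) (w : V) : ((el f δ w, 1) : (Matrix V V ℝ)ˣ × K) ∈ RR f ρ := by
  refine ⟨(inA_L _).smul _, ?_, fun v => ⟨f w v + f v w, ?_⟩⟩
  · exact (el f δ w).inv_val
  · show (sg δ • L f w) * L f v = _ • (L f (ρ (1 : K) v) * (sg δ • L f w))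
    rw [map_one, Matrix.smul_mul, Matrix.mul_smul, L_comm, smul_comm]
    rfl

lemma mem_iff (hB : ∀ w, (∀ v, f w v + f v w = 0) → w = 0) {x : (Matrix V V ℝ)ˣ × K} (hx : x ∈ RR f ρ) (hx2 : x.2 = 1) :
    ∃ δ w, x = (el f δ w, 1) := by
  obtain ⟨h1, h2, h3⟩ := hx
  rw [hx2] at h3
  obtain ⟨w, δ, h⟩ := sign_monomial hB h1 h2 (fun v => by
    obtain ⟨ε, hε⟩ := h3 v
    exact ⟨ε, by rw [hε, map_one]; rfl⟩)
  exact ⟨δ, w, Prod.ext (Units.ext h) hx2⟩

open Cfsg.Agent.Lib.LargeExtra in
theorem main_V [Finite K] (hB : ∀ w, (∀ v, f w v + f v w = 0) → w = 0)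
    (hq : ∀ k v, f (ρ k v) (ρ k v) = f v v) (n : ℕ) (hn1 : 1 ≤ n) (hn : Nat.card V = 2 ^ (2 * n)) :
    ∃ (R : Type) (_ : Group R) (_ : Finite R) (Q : Subgroup R) (hN : Q.Normal) (e : R ⧸ Q ≃* K) (χ : ↥Q →* Multiplicative V),
      Cfsg.IsExtraspecial 2 ↥Q ∧ Nat.card ↥Q = 2 ^ (2 * n + 1) ∧ Function.Surjective χ ∧ χ.ker = Subgroup.center ↥Q ∧
      (∀ (r : R) (a : ↥Q), χ ⟨r * a * r⁻¹, hN.conj_mem (a : R) a.2 r⟩ =
        Multiplicative.ofAdd (ρ (e (r : R ⧸ Q)) (Multiplicative.toAdd (χ a)))) ∧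
      ∀ a : ↥Q, a * a = 1 ↔ f (Multiplicative.toAdd (χ a)) (Multiplicative.toAdd (χ a)) = 0 := by
  classical
  set κ : RR f ρ →* K := (MonoidHom.snd _ _).comp (RR f ρ).subtype with hκ
  have hsurj : Function.Surjective κ := by
    intro k
    obtain ⟨s, hs⟩ := alt_split (f.compl₁₂ (ρ k) (ρ k) + f) (fun v => by
      rw [LinearMap.add_apply, LinearMap.add_apply, LinearMap.compl₁₂_apply, hq]; exact add_self2 _)
    obtain ⟨M, hM1, hM2, hM3⟩ := exists_lift hB (ρ k) s (fun u v => by
      rw [hs, LinearMap.add_apply, LinearMap.add_apply, LinearMap.compl₁₂_apply]) (hq k)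
    have hM4 : M * Mᵀ = 1 := mul_eq_one_comm.1 hM2
    refine ⟨⟨(⟨M, Mᵀ, hM4, hM2⟩, k), hM1, hM2, fun v => ⟨s v, hM3 v⟩⟩, rfl⟩
  set Q := κ.ker with hQ
  have hN : Q.Normal := inferInstance
  let em : ZMod 2 → V → Q := fun δ w => ⟨⟨(el f δ w, 1), el_mem ρ δ w⟩, rfl⟩
  have em_mul : ∀ δ w δ' w', em δ w * em δ' w' = em (δ + δ' + f w w') (w + w') := by
    intro δ w δ' w'
    apply Subtype.ext
    apply Subtype.ext
    exact Prod.ext (el_mul δ δ' w w') (mul_one _)
  have em_inj : ∀ {δ w δ' w'}, em δ w = em δ' w' → δ = δ' ∧ w = w' := by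
    intro δ w δ' w' h
    have h1 : el f δ w = el f δ' w' := congrArg (fun x : Q => x.1.1.1) h
    exact el_inj h1
  have em_one : em 0 0 = 1 := by
    apply Subtype.ext
    apply Subtype.ext
    exact Prod.ext el_one rfl
  have em_surj : ∀ x : Q, ∃ δ w, x = em δ w := by
    intro x
    obtain ⟨δ, w, h⟩ := mem_iff ρ hB x.1.2 x.2
    exact ⟨δ, w, Subtype.ext (Subtype.ext h)⟩
  let eQ : ZMod 2 × V ≃ Q := Equiv.ofBijective (fun p => em p.1 p.2)
    ⟨fun p q h => Prod.ext (em_inj h).1 (em_inj h).2, fun x => by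
      obtain ⟨δ, w, rfl⟩ := em_surj x
      exact ⟨(δ, w), rfl⟩⟩
  have heQ : ∀ δ w, eQ.symm (em δ w) = (δ, w) := fun δ w => eQ.symm_apply_eq.2 rfl
  have hcardQ : Nat.card Q = 2 ^ (2 * n + 1) := by
    rw [← Nat.card_congr eQ, Nat.card_prod, hn, Nat.card_zmod, pow_succ, mul_comm]
  have hfinQ : Finite Q := Finite.of_equiv _ eQ
  let χ : Q →* Multiplicative V :=
    { toFun := fun x => Multiplicative.ofAdd (eQ.symm x).2
      map_one' := by
        rw [← em_one, heQ]; rfl
      map_mul' := by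
        intro x y
        obtain ⟨δ, w, rfl⟩ := em_surj x
        obtain ⟨δ', w', rfl⟩ := em_surj y
        rw [em_mul, heQ, heQ, heQ]; rfl }
  have hχ : ∀ δ w, χ (em δ w) = Multiplicative.ofAdd w := by
    intro δ w
    show Multiplicative.ofAdd (eQ.symm (em δ w)).2 = _
    rw [heQ]
  have hfin : Finite (RR f ρ) := by
    choose σ hσ using hsurj
    apply Finite.of_injective (fun r : RR f ρ => ((⟨r * (σ (κ r))⁻¹, by
      rw [hQ, MonoidHom.mem_ker, map_mul, map_inv, hσ, mul_inv_cancel]⟩ : Q), κ r))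
    intro r r' h
    have h1 := congrArg Prod.snd h
    have h2 := congrArg (fun x : Q × K => (x.1 : RR f ρ)) h
    simp only at h1 h2
    rw [h1] at h2
    exact mul_right_cancel h2
  have hcomm : ∀ δ w δ' w', em δ w * em δ' w' = em δ' w' * em δ w ↔ f w w' = f w' w := by
    intro δ w δ' w'
    rw [em_mul, em_mul, add_comm w' w, add_comm δ' δ]
    constructor
    · intro h; exact add_left_cancel (em_inj h).1
    · intro h; rw [h]
  have hcen : ∀ δ w, (∀ y : Q, em δ w * y = y * em δ w) → w = 0 := by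
    intro δ w h
    apply hB
    intro v
    rw [(hcomm δ w 0 v).1 (h _), add_self2]
  have hz0 : ∀ δ w, em δ w * em 1 0 = em (δ + 1) w := by
    intro δ w
    rw [em_mul, map_zero, add_zero, add_zero]
  have h11 : (1 : ZMod 2) + 1 = 0 := by decide
  have hne0 : em 1 0 ≠ em 0 0 := fun h => one_ne_zero (em_inj h).1
  have hExD : ExData Q ((em 1 0 : Q) : RR f ρ) := by
    constructor
    · have : em 1 0 * em 1 0 = 1 := by rw [hz0, h11, em_one]
      exact congrArg Subtype.val this
    · intro h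
      apply hne0
      rw [em_one]
      exact Subtype.ext h
    · exact (em 1 0).2
    · intro q hq'
      obtain ⟨δ, w, h⟩ := em_surj ⟨q, hq'⟩
      have h1 : em δ w * em 1 0 = em 1 0 * em δ w := by
        rw [hcomm, map_zero, map_zero, LinearMap.zero_apply]
      rw [← h] at h1
      exact congrArg Subtype.val h1
    · intro a ha b hb
      obtain ⟨δ, w, h⟩ := em_surj ⟨a, ha⟩
      obtain ⟨δ', w', h'⟩ := em_surj ⟨b, hb⟩
      by_cases hc : f w w' = f w' w
      · left
        have h1 := (hcomm δ w δ' w').2 hc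
        rw [← h, ← h'] at h1
        exact congrArg Subtype.val h1
      · right
        have h1 : em δ w * em δ' w' = em 1 0 * (em δ' w' * em δ w) := by
          rw [em_mul, em_mul, em_mul, map_zero, LinearMap.zero_apply, add_zero, zero_add, add_comm w' w]
          have h2 : f w w' = f w' w + 1 := by
            revert hc
            generalize f w w' = x
            generalize f w' w = y
            revert x y; decide
          rw [h2]
          congr 1
          ring
        rw [← h, ← h'] at h1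
        exact congrArg Subtype.val h1
    · intro q hq' hc
      obtain ⟨δ, w, h⟩ := em_surj ⟨q, hq'⟩
      have h1 : w = 0 := by
        apply hcen δ w
        intro y
        rw [← h]
        exact Subtype.ext (hc y.1 y.2)
      rw [h1] at h
      rcases zc δ with h2 | h2
      · left
        rw [h2, em_one] at h
        exact congrArg Subtype.val h
      · right
        rw [h2] at h
        exact congrArg Subtype.val h
    · intro q hq'
      obtain ⟨δ, w, h⟩ := em_surj ⟨q, hq'⟩
      have h1 : em δ w * em δ w = em (f w w) 0 := by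
        rw [em_mul, add_self2, zero_add, vself]
      rcases zc (f w w) with h2 | h2
      · left
        rw [h2, em_one, ← h] at h1
        exact congrArg Subtype.val h1
      · right
        rw [h2, ← h] at h1
        exact congrArg Subtype.val h1
    · have hV : 1 < Nat.card V := by
        rw [hn]
        calc 1 < 2 ^ 1 := by norm_num
          _ ≤ 2 ^ (2 * n) := Nat.pow_le_pow_right (by norm_num) (by omega)
      have : Nontrivial V := Finite.one_lt_card_iff_nontrivial.1 hV
      obtain ⟨w, hw⟩ := exists_ne (0 : V)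
      have h1 : ∃ v, f w v + f v w ≠ 0 := by
        by_contra hcon
        push Not at hcon
        exact hw (hB w hcon)
      obtain ⟨v, hv⟩ := h1
      refine ⟨(em 0 w).1, (em 0 w).2, (em 0 v).1, (em 0 v).2, fun h => hv ?_⟩
      have h2 : em 0 w * em 0 v = em 0 v * em 0 w := Subtype.ext h
      rw [(hcomm 0 w 0 v).1 h2, add_self2]
    · ext x
      rw [mem_zpowers_of_sq (by
        have : em 1 0 * em 1 0 = 1 := by rw [hz0, h11, em_one]
        exact congrArg Subtype.val this)]
      constructor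
      · rintro ⟨y, hy, rfl⟩
        rw [SetLike.mem_coe, Subgroup.mem_center_iff] at hy
        obtain ⟨δ, w, h⟩ := em_surj y
        have h1 : w = 0 := by
          apply hcen δ w
          intro y'
          rw [← h]
          exact (hy y').symm
        rw [h1] at h
        rcases zc δ with h2 | h2
        · left; rw [h, h2, em_one]; rfl
        · right; rw [h, h2]; rfl
      · rintro (rfl | rfl)
        · exact one_mem _
        · refine ⟨em 1 0, ?_, rfl⟩
          rw [SetLike.mem_coe, Subgroup.mem_center_iff]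
          intro y
          obtain ⟨δ, w, rfl⟩ := em_surj y
          rw [hcomm, map_zero, map_zero, LinearMap.zero_apply]
    · exact IsPGroup.of_card hcardQ
  refine ⟨RR f ρ, inferInstance, hfin, Q, hN, QuotientGroup.quotientKerEquivOfSurjective κ hsurj, χ,
    isExtraspecial_of_exData hExD, hcardQ, ?_, ?_, ?_, ?_⟩
  · intro w
    exact ⟨em 0 (Multiplicative.toAdd w), hχ _ _⟩
  · ext x
    obtain ⟨δ, w, rfl⟩ := em_surj x
    rw [MonoidHom.mem_ker, hχ, Subgroup.mem_center_iff]
    constructor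
    · intro h
      have h1 : w = 0 := h
      intro y
      obtain ⟨δ', w', rfl⟩ := em_surj y
      rw [hcomm, h1, map_zero, map_zero, LinearMap.zero_apply]
    · intro h
      have h1 := hcen δ w (fun y => (h y).symm)
      rw [h1]; rfl
  · intro r a
    obtain ⟨δ, w, rfl⟩ := em_surj a
    obtain ⟨ε, hε⟩ := r.2.2.2 w
    have h1 : (⟨r * (em δ w : Q) * r⁻¹, hN.conj_mem _ (em δ w).2 r⟩ : Q) = em (δ + ε) (ρ (κ r) w) := by
      apply Subtype.ext
      show r * (em δ w : Q) * r⁻¹ = (em (δ + ε) (ρ (κ r) w) : Q)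
      rw [mul_inv_eq_iff_eq_mul]
      apply Subtype.ext
      refine Prod.ext ?_ ?_
      · apply Units.ext
        show ((r : (Matrix V V ℝ)ˣ × K).1 : Matrix V V ℝ) * (sg δ • L f w) =
          (sg (δ + ε) • L f (ρ (κ r) w)) * ((r : (Matrix V V ℝ)ˣ × K).1 : Matrix V V ℝ)
        rw [Matrix.mul_smul, hε, Matrix.smul_mul, smul_smul, sg_add]
        rfl
      · show (r : (Matrix V V ℝ)ˣ × K).2 * 1 = 1 * (r : (Matrix V V ℝ)ˣ × K).2
        rw [mul_one, one_mul]
    rw [h1, hχ, hχ]
    rfl
  · intro a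
    obtain ⟨δ, w, rfl⟩ := em_surj a
    rw [hχ, em_mul, add_self2, zero_add, vself]
    constructor
    · intro h
      rw [← em_one] at h
      exact (em_inj h).1
    · intro h
      have h1 : f w w = 0 := h
      rw [h1, em_one]

end alg

end Cfsg.Agent.Lib.H31XO
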