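import Cfsg.Agent.Lib.H32Transf0
import Cfsg.Agent.Lib.FiIso22
import Cfsg.Agent.Lib.FiThB
import Cfsg.Agent.Lib.FiOnly
import Cfsg.Agent.Lib.FiFpf4
import Cfsg.Agent.Lib.H92Ty22
import Cfsg.Agent.Lib.FischerRank3

/-!
# Transport to groups of type M(22) (helper32)
-/

set_option autoImplicit false
set_option linter.all false
set_option maxRecDepth 100000

universe u

namespace Cfsg.Agent.Lib.H32Transf

open Cfsg Cfsg.Agent.Lib Cfsg.Agent.Lib.H89GA
open Cfsg.Agent.Lib.ThreeTypes Cfsg.Agent.Lib.FiMu Cfsg.Agent.Lib.FiHex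

theorem transfer {P : Type} [Group P] {G : Type u} [Group G] (e : P ≃* G) {D0 : Set P} {D : Set G}
    (hD : ∀ x, x ∈ D0 ↔ e x ∈ D) (h : Stmt P D0) : Stmt G D := H32Transf0.transfer e hD h

theorem prim_simple {G : Type*} [Group G] [Finite G] {D : Set G} (hD : IsThreeTranspositionClass D) (hs : IsSimpleGroup G)
    {a b : G} (hab : a * b ≠ b * a) : IsPrimitiveUnderConj D := by
  have h1 : commutator G = ⊤ := by
    rcases hs.eq_bot_or_eq_top_of_normal (commutator G) inferInstance with h | h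
    · exfalso
      apply hab
      have h2 : a * b * a⁻¹ * b⁻¹ ∈ commutator G := Subgroup.commutator_mem_commutator (Subgroup.mem_top a) (Subgroup.mem_top b)
      rw [h, Subgroup.mem_bot, mul_inv_eq_one, mul_inv_eq_iff_eq_mul] at h2
      exact h2
    · exact h
  let e : G ≃* commutator G := (Subgroup.topEquiv.symm).trans (MulEquiv.subgroupCongr h1.symm)
  have hs' : IsSimpleGroup (commutator G) := by
    haveI : Nontrivial (commutator G) := e.symm.toEquiv.nontrivial
    exact IsSimpleGroup.isSimpleGroup_of_surjective e.toMonoidHom e.surjective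
  refine FischerRank3.prim_of_simple hD hs' ⟨e a, e b, ?_⟩
  rw [← map_mul, ← map_mul]
  exact fun h => hab (e.injective h)

theorem group_of_class {G : Type*} [Group G] {D : Set G} (hD : IsThreeTranspositionClass D) : IsThreeTranspositionGroup D := by
  obtain ⟨h1, ⟨d, hd, hDd⟩, h3⟩ := hD
  refine ⟨h1, ?_, h3⟩
  intro g y hy
  rw [hDd] at hy ⊢
  exact (isConj_iff.mpr ⟨g, rfl⟩ : IsConj y _).symm.trans (show IsConj d y from hy).symm |>.symm

theorem fin22 : Finite FiThB.P := by
  apply Nat.finite_of_card_ne_zero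
  rw [Fi22Ord.main.2.1]; norm_num

theorem to_G {G : Type u} [Group G] [Finite G] {D : Set G} (hD : Cfsg.IsThreeTranspositionGroup D)
    (hprim : Cfsg.IsPrimitiveUnderConj D) (h22 : Cfsg.IsOfTypeM22 G D)
    (h : Stmt FiThB.P (conjugatesOf (Fi22Rel.C.x Fi22A.L0 0))) : Stmt G D := by
  obtain ⟨w, e, hw, he⟩ := FiIso22.exists_iso hD hprim h22
  have ha0 : e (Fi22Rel.C.x Fi22A.L0 0) ∈ D := by
    have h1 : ((Fi22Rel.C.x Fi22A.L0 0) : FiThB.P) = PresentedGroup.of (Fi22Rel.C.gen 0) :=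
      Fi22Rel.C.x_of_lt Fi22A.L0 (c := 0) (by decide)
    rw [h1, he]
    exact hw.mem _
  refine transfer (P := FiThB.P) e ?_ h
  intro x
  constructor
  · intro hx
    have hx' : IsConj (Fi22Rel.C.x Fi22A.L0 0) x := hx
    obtain ⟨c, hc⟩ := isConj_iff.1 hx'
    rw [← hc, map_mul, map_mul, map_inv]
    exact hD.2.1 _ _ ha0
  · intro hx
    obtain ⟨g, hg⟩ := hprim.1 _ ha0 _ hx
    obtain ⟨c, rfl⟩ := e.surjective g
    show IsConj (Fi22Rel.C.x Fi22A.L0 0) x
    rw [isConj_iff]
    refine ⟨c, e.injective ?_⟩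
    rw [map_mul, map_mul, map_inv]
    exact hg

/-- the image of a class of 3-transpositions under an automorphism -/
theorem image_class {G : Type*} [Group G] {D : Set G} (hD : Cfsg.IsThreeTranspositionGroup D)
    (hprim : Cfsg.IsPrimitiveUnderConj D) (φ : MulAut G) : IsThreeTranspositionClass (φ '' D) := by
  refine ⟨⟨?_, ?_⟩, ?_, ?_⟩
  · rintro _ ⟨d, hd, rfl⟩
    rw [MulEquiv.orderOf_eq]; exact hD.1.1 d hd
  · rintro _ ⟨d, hd, rfl⟩ _ ⟨e, he, rfl⟩
    rcases hD.1.2 d hd e he with h | h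
    · left; rw [← map_mul, ← map_pow, h, map_one]
    · right; rw [← map_mul, ← map_pow, h, map_one]
  · obtain ⟨d, hd, _⟩ := hprim.2.1
    refine ⟨φ d, ⟨d, hd, rfl⟩, ?_⟩
    ext y
    constructor
    · rintro ⟨e, he, rfl⟩
      obtain ⟨g, hg⟩ := hprim.1 d hd e he
      show IsConj (φ d) (φ e)
      rw [isConj_iff]
      exact ⟨φ g, by rw [← hg, map_mul, map_mul, map_inv]⟩
    · intro hy
      have hy' : IsConj (φ d) y := hy
      rw [isConj_iff] at hy'
      obtain ⟨g, hg⟩ := hy'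
      refine ⟨φ.symm g * d * (φ.symm g)⁻¹, hD.2.1 _ d hd, ?_⟩
      rw [map_mul, map_mul, map_inv, MulEquiv.apply_symm_apply]; exact hg
  · have h1 := MonoidHom.map_closure (φ : G →* G) D
    have h2 : ((φ : G →* G) : G → G) '' D = φ '' D := rfl
    rw [h2] at h1
    rw [← h1, hD.2.2]
    exact Subgroup.map_top_of_surjective _ φ.surjective

/-- every automorphism of order two of a group of type M(22) fixes a transposition -/
theorem fix_gen {G : Type*} [Group G] [Finite G] {D : Set G} (hD : Cfsg.IsThreeTranspositionGroup D)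
    (hprim : Cfsg.IsPrimitiveUnderConj D) (h22 : Cfsg.IsOfTypeM22 G D) (φ : MulAut G) (hφ : orderOf φ = 2) :
    ∃ d ∈ D, φ d = d := by
  by_contra hcon
  push Not at hcon
  have h1 : φ '' D = D := only_class FiIso22.psu62 hD hprim h22 (image_class hD hprim φ)
  have h2 : φ * φ = 1 := by
    have := pow_orderOf_eq_one φ
    rw [hφ, pow_two] at this
    exact this
  refine no_fpf (φ := φ) (hd22 FiIso22.psu62 hD hprim h22) ⟨fun x => ?_, fun x hx => ?_, fun x hx => hcon x hx⟩
  · have := congrArg (fun g : MulAut G => g x) h2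
    exact this
  · rw [← h1]; exact ⟨x, hx, rfl⟩

theorem fix_lane (t : MulAut FiThB.P) (ht : orderOf t = 2) :
    ∃ d ∈ conjugatesOf (Fi22Rel.C.x Fi22A.L0 0), t d = d := by
  haveI := fin22
  have h1 := (Fi22Real.main _ rfl).1
  exact fix_gen (group_of_class h1) (prim_simple h1 Fi22Ord.main.1 H92Ty22.nc22) H92Ty22.type22 t ht

end Cfsg.Agent.Lib.H32Transf
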