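import Cfsg.Agent.Lib.H89MO
import Cfsg.Agent.Lib.CFCore
import Cfsg.Agent.S0283
import Cfsg.Prelude.Def_Transfer

/-!
Two abstract lemmas for S5472 (helper5, pieces G3 and G4 of helper89).
-/
set_option autoImplicit false
set_option linter.all false

namespace Cfsg.Agent.Lib.H5Asm

open Cfsg

/-- an involution centralizing a member of a base normalizes a base, up to conjugation in the centralizer -/
theorem inv_base {A : Type*} [Group A] [Finite A] (D : Set A) (hc : ∀ g : A, ∀ d ∈ D, g * d * g⁻¹ ∈ D)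
    (h2 : ∀ d ∈ D, d * d = 1) (hp : ∀ d ∈ D, ∀ e ∈ D, (∃ n : ℕ, (d * e) ^ (2 ^ n) = 1) → Commute d e)
    (B : Set A) (hBD : B ⊆ D) (hB : ∀ x ∈ B, ∀ y ∈ B, Commute x y)
    (hmax : ∀ d ∈ D, (∀ x ∈ B, Commute d x) → d ∈ B) (a : A) (ha : a ∈ B) (t : A) (ht : t * t = 1)
    (hta : Commute t a) :
    ∃ h : A, Commute h a ∧ ∀ x ∈ B, (h * t * h⁻¹) * x * (h * t * h⁻¹)⁻¹ ∈ B := by
  haveI : Fact (Nat.Prime 2) := ⟨Nat.prime_two⟩
  set H : Subgroup A := Subgroup.centralizer {a} with hH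
  have memH : ∀ x, x ∈ H ↔ Commute x a := fun x => by
    rw [hH, Subgroup.mem_centralizer_singleton_iff]; rfl
  have hcommcl : ∀ x ∈ Subgroup.closure B, ∀ y ∈ Subgroup.closure B, x * y = y * x := by
    intro x hx y hy
    have h1 : ∀ y ∈ B, ∀ x ∈ Subgroup.closure B, x * y = y * x := by
      intro y hy x hx
      induction hx using Subgroup.closure_induction with
      | mem z hz => exact (hB z hz y hy)
      | one => simp
      | mul u v _ _ hu hv => rw [mul_assoc, hv, ← mul_assoc, hu, mul_assoc]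
      | inv u _ hu =>
        have : Commute u⁻¹ y := Commute.inv_left hu
        exact this
    induction hy using Subgroup.closure_induction with
    | mem z hz => exact h1 z hz x hx
    | one => simp
    | mul u v _ _ hu hv => rw [← mul_assoc, hu, mul_assoc, hv, mul_assoc]
    | inv u _ hu =>
      have : Commute x u⁻¹ := Commute.inv_right hu
      exact this
  have hsq : ∀ x ∈ Subgroup.closure B, x * x = 1 := by
    intro x hx
    induction hx using Subgroup.closure_induction with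
    | mem z hz => exact h2 z (hBD hz)
    | one => simp
    | mul u v hu' hv' hu hv =>
      have := hcommcl u hu' v hv'
      calc u * v * (u * v) = u * (v * u) * v := by group
        _ = (u * u) * (v * v) := by rw [← this]; group
        _ = 1 := by rw [hu, hv, one_mul]
    | inv u _ hu => rw [← mul_inv_rev, hu, inv_one]
  have hVH : Subgroup.closure B ≤ H := by
    rw [Subgroup.closure_le]
    intro x hx
    exact (memH x).2 (hB x hx a ha)
  have hVp : IsPGroup 2 ((Subgroup.closure B).subgroupOf H) := by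
    rintro ⟨⟨x, hx⟩, hx'⟩
    refine ⟨1, ?_⟩
    ext
    show x ^ (2 ^ 1) = 1
    rw [pow_one, sq]
    exact hsq x hx'
  obtain ⟨S0, hS0⟩ := hVp.exists_le_sylow
  have htH : t ∈ H := (memH t).2 hta
  have hTp : IsPGroup 2 (Subgroup.zpowers (⟨t, htH⟩ : H)) := by
    rintro ⟨x, hx⟩
    obtain ⟨n, rfl⟩ := Subgroup.mem_zpowers_iff.1 hx
    refine ⟨1, ?_⟩
    have h1 : ((⟨t, htH⟩ : H)) ^ 2 = 1 := by ext; show t ^ 2 = 1; rw [sq, ht]
    apply Subtype.ext
    show ((⟨t, htH⟩ : H) ^ n) ^ (2 ^ 1) = 1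
    rw [pow_one, ← zpow_natCast, ← zpow_mul, mul_comm, zpow_mul]
    rw [zpow_natCast, h1, one_zpow]
  obtain ⟨S, hS⟩ := hTp.exists_le_sylow
  obtain ⟨h, hh⟩ := MulAction.exists_smul_eq H S S0
  have htS : (⟨t, htH⟩ : H) ∈ S := hS (Subgroup.mem_zpowers _)
  have hmem : h * ⟨t, htH⟩ * h⁻¹ ∈ (S0 : Subgroup H) := by
    rw [← hh, Sylow.coe_subgroup_smul]
    exact Subgroup.smul_mem_pointwise_smul _ (MulAut.conj h) _ htS
  have key : ∀ (d : A) (hd : d ∈ D) (hdH : d ∈ H), (⟨d, hdH⟩ : H) ∈ (S0 : Subgroup H) → d ∈ B := by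
    intro d hd hdH hdS
    apply hmax d hd
    intro x hx
    apply hp d hd x (hBD hx)
    have hxH : x ∈ H := hVH (Subgroup.subset_closure hx)
    have hxS : (⟨x, hxH⟩ : H) ∈ (S0 : Subgroup H) := hS0 (by
      rw [Subgroup.mem_subgroupOf]; exact Subgroup.subset_closure hx)
    obtain ⟨n, hn⟩ := S0.isPGroup' ⟨_, (S0 : Subgroup H).mul_mem hdS hxS⟩
    exact ⟨n, congrArg (fun z => ((z : (S0 : Subgroup H)) : H).1) hn⟩
  refine ⟨h.1, (memH _).1 h.2, ?_⟩
  intro x hx
  have hxH : x ∈ H := hVH (Subgroup.subset_closure hx)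
  have hxS : (⟨x, hxH⟩ : H) ∈ (S0 : Subgroup H) := hS0 (by
    rw [Subgroup.mem_subgroupOf]; exact Subgroup.subset_closure hx)
  have h3 := (S0 : Subgroup H).mul_mem ((S0 : Subgroup H).mul_mem hmem hxS) ((S0 : Subgroup H).inv_mem hmem)
  exact key _ (hc _ x (hBD hx)) (h * ⟨t, htH⟩ * h⁻¹ * ⟨x, hxH⟩ * (h * ⟨t, htH⟩ * h⁻¹)⁻¹).2 h3

/-- the full isometry group of the elliptic form in dimension six over `F₂` has no normal 2-subgroup -/
theorem normal_two_bot (N : Subgroup H89MO.OO) [N.Normal] (hN : IsPGroup 2 N) : N = ⊥ := by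
  haveI : Fact (Nat.Prime 2) := ⟨Nat.prime_two⟩
  haveI : Fintype (GaloisField 2 2) := Fintype.ofFinite _
  have hF : Fintype.card (GaloisField 2 2) = 2 ^ 2 := by
    rw [← Nat.card_eq_fintype_card, GaloisField.card 2 2 (by norm_num)]
  obtain ⟨e⟩ := H89MO.iso_Omm (F := GaloisField 2 2) hF
  haveI hs0 : IsSimpleGroup (PSU 4 (GaloisField 2 2) 2) := Cfsg.Agent.S0283.result hF 4 (by norm_num) (by norm_num)
  haveI hs : IsSimpleGroup H89MO.Omm := e.isSimpleGroup
  haveI hOn : H89MO.Omm.Normal := Subgroup.normal_of_index_eq_two H89MO.index_Omm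
  have hn1 : (N.subgroupOf H89MO.Omm).Normal := inferInstance
  rcases hn1.eq_bot_or_eq_top with h1 | h1
  · -- disjoint
    have h2 : N ⊓ H89MO.Omm = ⊥ := by
      rw [Subgroup.subgroupOf_eq_bot] at h1
      exact h1.eq_bot
    rw [eq_bot_iff]
    intro n hn
    rw [Subgroup.mem_bot]
    apply H89MO.conj_inj (F := GaloisField 2 2) hF
    rw [map_one]
    ext x
    have h3 : Commute n x.1 := Subgroup.commute_of_normal_of_disjoint N H89MO.Omm inferInstance hOn
      (disjoint_iff.2 h2) n x.1 hn x.2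
    rw [MulAut.conjNormal_apply, h3.eq]
    simp
  · exfalso
    rw [Subgroup.subgroupOf_eq_top] at h1
    have h2 := Subgroup.card_dvd_of_le h1
    rw [H89MO.card_Omm] at h2
    obtain ⟨n, hn⟩ := IsPGroup.iff_card.1 hN
    rw [hn] at h2
    have h3 : 3 ∣ 2 ^ n := Dvd.dvd.trans (by norm_num) h2
    have h4 := Nat.Prime.dvd_of_dvd_pow Nat.prime_three h3
    omega

/-- recognition of `2⁶ : O⁻₆(2)` -/
theorem asm {P : Type} [Group P] [Finite P] (M : Subgroup P) (π : ↥M →* Cfsg.Agent.Lib.H89MO.OO)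
    (hs : Function.Surjective π) (hk : ∀ x : ↥M, π x = 1 → x * x = 1) (hc : Nat.card M = 64 * 51840) :
    ∃ O : Subgroup P, O = (Cfsg.pCore 2 ↥M).map M.subtype ∧ Cfsg.IsElementaryAbelian 2 O ∧ Nat.card O = 64 ∧
      ∃ _ : (O.subgroupOf M).Normal, Nonempty (↥M ⧸ O.subgroupOf M ≃*
        Cfsg.isometryGroup (ZMod 2) (Cfsg.quadFormMinus 2 (ZMod 2) 1 1)) := by
  haveI : Fact (Nat.Prime 2) := ⟨Nat.prime_two⟩
  have hker : Cfsg.pCore 2 ↥M = π.ker := by
    apply le_antisymm
    · haveI : ((Cfsg.pCore 2 ↥M).map π).Normal := Subgroup.Normal.map (CFCore.pCore_normal 2 M) π hs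
      have h1 : IsPGroup 2 ((Cfsg.pCore 2 ↥M).map π) := CFCore.pCore_isPGroup.map π
      have h2 := normal_two_bot _ h1
      rw [Subgroup.map_eq_bot_iff] at h2
      exact h2
    · apply CFCore.le_pCore inferInstance
      rintro ⟨x, hx⟩
      refine ⟨1, Subtype.ext ?_⟩
      show x ^ (2 ^ 1) = 1
      rw [pow_one, sq]
      exact hk x hx
  have hsub : ((Cfsg.pCore 2 ↥M).map M.subtype).subgroupOf M = π.ker := by
    rw [← hker, Subgroup.subgroupOf, Subgroup.comap_map_eq_self_of_injective M.subtype_injective]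
  have hsq : ∀ a ∈ (Cfsg.pCore 2 ↥M).map M.subtype, a * a = 1 := by
    rintro _ ⟨x, hx, rfl⟩
    have hx' : x ∈ π.ker := by rw [← hker]; exact hx
    have := hk x hx'
    exact congrArg Subtype.val this
  have hn : (((Cfsg.pCore 2 ↥M).map M.subtype).subgroupOf M).Normal := by rw [hsub]; infer_instance
  refine ⟨(Cfsg.pCore 2 ↥M).map M.subtype, rfl, ⟨⟨⟨?_⟩⟩, ?_⟩, ?_, hn, ?_⟩
  · rintro ⟨a, ha⟩ ⟨b, hb⟩
    apply Subtype.ext
    show a * b = b * a
    have h1 := hsq a ha
    have h2 := hsq b hb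
    have h3 := hsq _ (Subgroup.mul_mem _ ha hb)
    have ha' : a⁻¹ = a := inv_eq_of_mul_eq_one_left h1
    have hb' : b⁻¹ = b := inv_eq_of_mul_eq_one_left h2
    have h4 : a * b = (a * b)⁻¹ := eq_inv_of_mul_eq_one_left h3
    rw [h4, mul_inv_rev, ha', hb']
  · intro a ha
    rw [sq]; exact hsq a ha
  · rw [hker, Subgroup.card_map_of_injective M.subtype_injective]
    have h1 := Subgroup.card_mul_index π.ker
    have h2 : π.ker.index = 51840 := by
      rw [Subgroup.index_ker, MonoidHom.range_eq_top.2 hs, Subgroup.card_top, H89MO.card_OO]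
    rw [h2, hc] at h1
    omega
  · haveI := hn
    exact ⟨(QuotientGroup.quotientMulEquivOfEq hsub).trans (QuotientGroup.quotientKerEquivOfSurjective π hs)⟩

end Cfsg.Agent.Lib.H5Asm
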