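import Cfsg.Agent.Lib.H89GA1
import Cfsg.Agent.Lib.H32Transf
import Cfsg.Agent.Lib.H5Asm

/-!
# Outer involutions normalize a base
-/

set_option autoImplicit false
set_option linter.all false
set_option maxRecDepth 100000

namespace Cfsg.Agent.Lib.H32Base

open Cfsg.Spor Cfsg.Agent.Lib Cfsg.Agent.Lib.BenesPerm Cfsg.Agent.Lib.BenesAct Cfsg.Agent.Lib.BenesWord Cfsg.Agent.Lib.BenesPlane
open Cfsg.Agent.Lib.Fi22NetsA Cfsg.Agent.Lib.LaneTools Cfsg.Agent.Lib.TransLanes Cfsg.Agent.Lib.Fi22Out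
open Cfsg.Agent.Lib.H89GA

theorem fbK_spec : ∀ {l : List (LE × ℕ)}, fbK l = true → ∀ e ∈ l, fixOK nets (tw e.1) 12 3510 e.2 = true
  | [], _, e, he => absurd he (by simp)
  | e' :: l, h, e, he => by
    change bandK (fixOK nets (tw e'.1) 12 3510 e'.2) (fbK l) = true at h
    rw [bandK_eq_true] at h
    rcases List.mem_cons.1 he with rfl | he
    · exact h.1
    · exact fbK_spec h.2 e he

theorem BL_eq : BL = BT.map Prod.fst := rfl
theorem BT_len : BT.length = 22 := rfl
theorem FBm_len : FBm.length = 22 := rfl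
theorem BL_len : BL.length = 22 := rfl

theorem BL_get {i : ℕ} (hi : i < 22) : BL.getD i 0 = (BT[i]'(by rw [BT_len]; exact hi)).1 := by
  rw [List.getD_eq_getElem _ _ (by rw [BL_len]; exact hi)]
  simp only [BL_eq, List.getElem_map]

theorem BL_lt {i : ℕ} (hi : i < 22) : BL.getD i 0 < 3510 := by
  rw [BL_get hi]
  exact (T_entry (lesK_spec le_BT _ (List.getElem_mem _))).1

theorem mask {i l : ℕ} (hi : i < 22) (hl : l < 3510) :
    (FBm.getD i 0).testBit l = true ↔ Commute (T (BL.getD i 0)) (T l) := by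
  have h0 : i < (BT.zip FBm).length := by rw [List.length_zip, BT_len, FBm_len]; exact hi
  have h1 := fbK_spec fb _ (List.getElem_mem h0)
  rw [List.getElem_zip] at h1
  have h2 := fixOK_spec c_nets n_le h1 hl
  have h3 := T_entry (lesK_spec le_BT (BT[i]'(by rw [BT_len]; exact hi)) (List.getElem_mem _))
  rw [commute_iff (BL_lt hi) hl, BL_get hi, h3.2.1, φ_word, List.getD_eq_getElem _ _ (by rw [FBm_len]; exact hi)]
  exact h2

theorem chkB : ((List.range 22).all fun i => (List.range 22).all fun j => (FBm.getD i 0).testBit (BL.getD j 0)) = true := by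
  decide +kernel

theorem comm_base {i j : ℕ} (hi : i < 22) (hj : j < 22) : Commute (T (BL.getD i 0)) (T (BL.getD j 0)) := by
  rw [← mask hi (BL_lt hj)]
  have h := chkB
  rw [List.all_eq_true] at h
  have h1 := h i (List.mem_range.2 hi)
  rw [List.all_eq_true] at h1
  exact h1 j (List.mem_range.2 hj)

theorem chkAnd : FBm.foldr (fun a b => a &&& b) (2 ^ 3510 - 1) = BM := by decide +kernel
theorem chkOr : BL.foldr (fun a b => 2 ^ a ||| b) 0 = BM := by decide +kernel

theorem and_spec (l : ℕ) (s : ℕ) : ∀ (L : List ℕ), (∀ m ∈ L, m.testBit l = true) → s.testBit l = true →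
    (L.foldr (fun a b => a &&& b) s).testBit l = true
  | [], _, h => h
  | m :: L, h, h' => by
    rw [List.foldr_cons, Nat.testBit_and, h m List.mem_cons_self, and_spec l s L (fun x hx => h x (List.mem_cons_of_mem _ hx)) h']
    rfl

theorem or_spec (l : ℕ) : ∀ (L : List ℕ), (L.foldr (fun a b => 2 ^ a ||| b) 0).testBit l = true → l ∈ L
  | [], h => by simp at h
  | m :: L, h => by
    rw [List.foldr_cons, Nat.testBit_or, Bool.or_eq_true] at h
    rcases h with h | h
    · rw [Nat.testBit_two_pow, decide_eq_true_eq] at h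
      rw [h]; exact List.mem_cons_self
    · exact List.mem_cons_of_mem _ (or_spec l L h)

theorem maxl {l : ℕ} (hl : l < 3510) (h : ∀ i < 22, Commute (T (BL.getD i 0)) (T l)) : ∃ i < 22, l = BL.getD i 0 := by
  have h1 : BM.testBit l = true := by
    rw [← chkAnd]
    apply and_spec
    · intro m hm
      obtain ⟨i, hi, rfl⟩ := List.getElem_of_mem hm
      have hi' : i < 22 := by rw [FBm_len] at hi; exact hi
      have h2 := (mask hi' hl).2 (h i hi')
      rwa [List.getD_eq_getElem _ _ hi] at h2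
    · rw [Nat.testBit_two_pow_sub_one, decide_eq_true_eq]; exact hl
  rw [← chkOr] at h1
  obtain ⟨i, hi, h2⟩ := List.getElem_of_mem (or_spec l BL h1)
  have hi' : i < 22 := by rw [BL_len] at hi; exact hi
  exact ⟨i, hi', by rw [List.getD_eq_getElem _ _ hi, h2]⟩

theorem conj_eq (g : MulAut P) (x : P) : g * MulAut.conj x * g⁻¹ = MulAut.conj (g x) := by
  ext y
  show g (x * (g⁻¹ y) * x⁻¹) = g x * y * (g x)⁻¹
  rw [map_mul, map_mul, map_inv]
  congr 2
  exact MulEquiv.apply_symm_apply g y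

theorem conj_inj {x y : P} (h : MulAut.conj x = MulAut.conj y) : x = y := by
  have h1 : x⁻¹ * y = 1 := by
    apply hcen CC
    intro g
    have h2 := congrArg (fun f : MulAut P => f g) h
    have h3 : x * g * x⁻¹ = y * g * y⁻¹ := h2
    calc x⁻¹ * y * g = x⁻¹ * (y * g * y⁻¹) * y := by group
      _ = x⁻¹ * (x * g * x⁻¹) * y := by rw [h3]
      _ = g * (x⁻¹ * y) := by group
  exact (inv_mul_eq_one.1 h1)

theorem conj_comm {x y : P} (h : Commute (MulAut.conj x) (MulAut.conj y)) : Commute x y := by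
  apply conj_inj
  rw [map_mul, map_mul]; exact h

theorem tt {l m : ℕ} (hl : l < 3510) (hm : m < 3510) : (T l * T m) ^ 2 = 1 ∨ (T l * T m) ^ 3 = 1 := by
  have h1 := (Fi22Real.main _ rfl).1.1.2
  have hmem : ∀ l, l < 3510 → T l ∈ conjugatesOf (xx 0) := by
    intro l hl
    obtain ⟨g, rfl⟩ := exists_lane hl
    rw [T_map (by norm_num), Tz]
    exact isConj_iff.2 ⟨g, rfl⟩
  exact h1 _ (hmem l hl) _ (hmem m hm)

theorem comm_of_sq {x y : P} (hx : x * x = 1) (hy : y * y = 1) (h : (x * y) ^ 2 = 1) : Commute x y := by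
  have hx' : x⁻¹ = x := inv_eq_of_mul_eq_one_left hx
  have hy' : y⁻¹ = y := inv_eq_of_mul_eq_one_left hy
  rw [pow_two] at h
  have h1 := eq_inv_of_mul_eq_one_left h
  rw [mul_inv_rev, hx', hy'] at h1
  exact h1

theorem exists_base (t : MulAut P) (ht : orderOf t = 2) : ∃ h : MulAut P, (h * t * h⁻¹) (T 0) = T 0 ∧
    ∀ i < 22, ∃ j < 22, (h * t * h⁻¹) (T (BL.getD i 0)) = T (BL.getD j 0) := by
  have htt : t * t = 1 := by
    have := pow_orderOf_eq_one t
    rwa [ht, pow_two] at this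
  obtain ⟨d, hd, hdt⟩ := H32Transf.fix_lane t ht
  obtain ⟨c, hc⟩ := isConj_iff.1 (show IsConj (xx 0) d from hd)
  set g0 : MulAut P := MulAut.conj c⁻¹ with hg0
  set t' : MulAut P := g0 * t * g0⁻¹ with ht'
  have hd' : d = c * T 0 * c⁻¹ := by rw [Tz]; exact hc.symm
  have ht0 : t' (T 0) = T 0 := by
    have e1 : g0⁻¹ (T 0) = d := by
      rw [hg0, ← map_inv, inv_inv, MulAut.conj_apply]; exact hd'.symm
    rw [ht', MulAut.mul_apply, MulAut.mul_apply, e1, hdt, hg0, MulAut.conj_apply, hd', inv_inv]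
    group
  have ht2 : t' * t' = 1 := by
    calc t' * t' = g0 * (t * t) * g0⁻¹ := by rw [ht']; group
      _ = 1 := by rw [htt, mul_one, mul_inv_cancel]
  obtain ⟨h, hh, hB⟩ := H5Asm.inv_base (A := MulAut P) {x | ∃ l < 3510, x = MulAut.conj (T l)} (by
      rintro g _ ⟨l, hl, rfl⟩
      obtain ⟨f, hf⟩ := exists_act g
      exact ⟨f l, (hf l hl).1, by rw [conj_eq, (hf l hl).2]⟩) (by
      rintro _ ⟨l, hl, rfl⟩
      rw [← map_mul, T_sq hl, map_one]) (by
      rintro _ ⟨l, hl, rfl⟩ _ ⟨m, hm, rfl⟩ ⟨n, hn⟩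
      rcases tt hl hm with h | h
      · have := comm_of_sq (T_sq hl) (T_sq hm) h
        show _ * _ = _ * _
        rw [← map_mul, ← map_mul, this.eq]
      · have h3 : (MulAut.conj (T l) * MulAut.conj (T m)) ^ 3 = 1 := by
          rw [← map_mul, ← map_pow, h, map_one]
        have h4 : MulAut.conj (T l) * MulAut.conj (T m) = 1 := by
          have h5 : orderOf (MulAut.conj (T l) * MulAut.conj (T m)) ∣ 3 := orderOf_dvd_of_pow_eq_one h3
          have h6 : orderOf (MulAut.conj (T l) * MulAut.conj (T m)) ∣ 2 ^ n := orderOf_dvd_of_pow_eq_one hn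
          have h7 : Nat.Coprime 3 (2 ^ n) := Nat.Coprime.pow_right _ (by norm_num)
          exact orderOf_eq_one_iff.1 (Nat.eq_one_of_dvd_coprimes h7 h5 h6)
        have h5 : MulAut.conj (T m) = (MulAut.conj (T l))⁻¹ := (inv_eq_of_mul_eq_one_right h4).symm
        rw [h5]
        exact (Commute.refl _).inv_right)
      {x | ∃ i < 22, x = MulAut.conj (T (BL.getD i 0))} (by
      rintro _ ⟨i, hi, rfl⟩
      exact ⟨_, BL_lt hi, rfl⟩) (by
      rintro _ ⟨i, hi, rfl⟩ _ ⟨j, hj, rfl⟩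
      show _ * _ = _ * _
      rw [← map_mul, ← map_mul, (comm_base hi hj).eq]) (by
      rintro _ ⟨l, hl, rfl⟩ hx
      obtain ⟨i, hi, hli⟩ := maxl hl (fun i hi => (conj_comm (hx _ ⟨i, hi, rfl⟩)).symm)
      exact ⟨i, hi, by rw [hli]⟩)
      (MulAut.conj (T 0)) ⟨0, by norm_num, rfl⟩ t' ht2 (by
      show t' * _ = _ * t'
      rw [← mul_inv_eq_iff_eq_mul, conj_eq, ht0])
  have e0 : h * g0 * t * (h * g0)⁻¹ = h * t' * h⁻¹ := by rw [ht']; group
  refine ⟨h * g0, ?_, ?_⟩
  · rw [e0]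
    have h1 : h (T 0) = T 0 := by
      apply conj_inj
      rw [← conj_eq, hh.eq, mul_assoc, mul_inv_cancel, mul_one]
    have h2 : h⁻¹ (T 0) = T 0 := by
      have h3 : h⁻¹ (h (T 0)) = T 0 := MulEquiv.symm_apply_apply h (T 0)
      rwa [h1] at h3
    rw [MulAut.mul_apply, MulAut.mul_apply, h2, ht0, h1]
  · intro i hi
    rw [e0]
    obtain ⟨j, hj, h1⟩ := hB _ ⟨i, hi, rfl⟩
    rw [conj_eq] at h1
    exact ⟨j, hj, conj_inj h1⟩

end Cfsg.Agent.Lib.H32Base
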