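import Mathlib

set_option autoImplicit false

namespace Cfsg.Agent.Lib.H32JDNorm

/-- Norm surjectivity for an automorphism of a finite field. -/
theorem exists_norm {F : Type*} [Field F] [Finite F] (σ : F ≃+* F) (m : ℕ) (hm : orderOf σ = m)
    (u : F) (hu : σ u = u) :
    ∃ v : F, ∏ i ∈ Finset.range m, (σ ^ i : F ≃+* F) v = u := by
  classical
  have : Finite (F ≃+* F) := Finite.of_injective (fun τ : F ≃+* F => (τ : F → F)) DFunLike.coe_injective
  have := Fintype.ofFinite F
  let G : Subgroup (F ≃+* F) := Subgroup.zpowers σ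
  let K := FixedPoints.subfield G F
  have : Finite G := inferInstance
  have : FaithfulSMul G F := ⟨by
    intro a b h
    apply Subtype.ext
    apply RingEquiv.ext
    intro x
    exact h x⟩
  have : Fintype G := Fintype.ofFinite G
  have huK : u ∈ K := by
    intro g
    obtain ⟨i, hi⟩ := Subgroup.mem_zpowers_iff.mp g.2
    have : ∀ x ∈ Subgroup.zpowers σ, (x : F ≃+* F) u = u := by
      intro x hx
      have : σ ∈ MulAction.stabilizer (F ≃+* F) u := hu
      have h2 := (Subgroup.zpowers_le.mpr this) hx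
      exact h2
    exact this g g.2
  obtain ⟨v, hv⟩ := FiniteField.norm_surjective K F ⟨u, huK⟩
  refine ⟨v, ?_⟩
  have h1 := Algebra.norm_eq_prod_automorphisms K (L := F) v
  rw [hv] at h1
  have h2 : (algebraMap K F) ⟨u, huK⟩ = u := rfl
  rw [h2] at h1
  rw [h1]
  have h3 : ∏ τ : (F ≃ₐ[K] F), τ v = ∏ g : G, (g : F ≃+* F) v := by
    symm
    refine Fintype.prod_equiv (FixedPoints.toAlgAutMulEquiv G F).toEquiv _ _ ?_
    intro g
    rfl
  rw [h3]
  subst hm
  rw [← Fin.prod_univ_eq_prod_range (fun i => (σ ^ i : F ≃+* F) v) (orderOf σ)]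
  refine Fintype.prod_equiv (finEquivZPowers (isOfFinOrder_of_finite σ)) _ _ ?_
  intro i
  simp [finEquivZPowers_apply]

end Cfsg.Agent.Lib.H32JDNorm
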