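import Mathlib
import Cfsg.Agent.Lib.H32JDNorm

set_option autoImplicit false

namespace Cfsg.Agent.Lib.H32JD

/-- additive subgroup of a ring containing `1`, all of whose nonzero elements are units with
inverse in the subgroup -/
structure IsJD {E : Type*} [Ring E] (J : AddSubgroup E) : Prop where
  one_mem : (1 : E) ∈ J
  inv : ∀ x ∈ J, x ≠ 0 → ∃ y ∈ J, x * y = 1 ∧ y * x = 1

section basic

variable {E : Type*} [Ring E] {J : AddSubgroup E}

theorem neg_eq (h2 : ∀ x : E, x + x = 0) (x : E) : -x = x :=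
  neg_eq_of_add_eq_zero_left (h2 x)

theorem U_mem [Nontrivial E] (hJ : IsJD J) (h2 : ∀ x : E, x + x = 0) {a b : E} (ha : a ∈ J)
    (hb : b ∈ J) : a * b * a ∈ J := by
  by_cases ha0 : a = 0
  · subst ha0; simp [J.zero_mem]
  by_cases hb0 : b = 0
  · subst hb0; simp [J.zero_mem]
  obtain ⟨a', ha', haa', ha'a⟩ := hJ.inv a ha ha0
  obtain ⟨b', hb', hbb', hb'b⟩ := hJ.inv b hb hb0
  by_cases hs0 : b' + a = 0
  · have : a = b' := by
      have := eq_neg_of_add_eq_zero_right hs0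
      rw [neg_eq h2] at this; exact this
    subst this
    rw [hb'b, one_mul]; exact ha
  obtain ⟨s', hs', hss', hs's⟩ := hJ.inv (b' + a) (J.add_mem hb' ha) hs0
  have key : (a' + s') * (a + a * b * a) = 1 := by
    have e1 : a' * (a + a * b * a) = 1 + b * a := by
      rw [mul_add, ha'a, ← mul_assoc, ← mul_assoc, ha'a, one_mul]
    have e2 : s' * (a + a * b * a) = b * a := by
      have : a + a * b * a = (b' + a) * (b * a) := by
        rw [add_mul, ← mul_assoc, hb'b, one_mul, mul_assoc]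
      rw [this, ← mul_assoc, hs's, one_mul]
    rw [add_mul, e1, e2, add_assoc, h2, add_zero]
  have ht0 : a' + s' ≠ 0 := by
    intro h
    rw [h, zero_mul] at key
    exact zero_ne_one key
  obtain ⟨t', ht', htt', ht't⟩ := hJ.inv (a' + s') (J.add_mem ha' hs') ht0
  have : t' = a + a * b * a := by
    calc t' = t' * ((a' + s') * (a + a * b * a)) := by rw [key, mul_one]
      _ = a + a * b * a := by rw [← mul_assoc, ht't, one_mul]
  have h3 : a + (a + a * b * a) ∈ J := J.add_mem ha (this ▸ ht')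
  rwa [← add_assoc, h2, zero_add] at h3

theorem U_lin [Nontrivial E] (hJ : IsJD J) (h2 : ∀ x : E, x + x = 0) {a b c : E} (ha : a ∈ J)
    (hb : b ∈ J) (hc : c ∈ J) : a * b * c + c * b * a ∈ J := by
  have h := U_mem hJ h2 (J.add_mem ha hc) hb
  have h1 := U_mem hJ h2 ha hb
  have h3 := U_mem hJ h2 hc hb
  have h4 := J.sub_mem (J.sub_mem h h1) h3
  have : (a + c) * b * (a + c) - a * b * a - c * b * c = a * b * c + c * b * a := by
    noncomm_ring
  rwa [this] at h4

theorem sq_mem [Nontrivial E] (hJ : IsJD J) (h2 : ∀ x : E, x + x = 0) {a : E} (ha : a ∈ J) :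
    a * a ∈ J := by
  have := U_mem hJ h2 ha hJ.one_mem
  rwa [mul_one] at this

theorem pow_mem [Nontrivial E] (hJ : IsJD J) (h2 : ∀ x : E, x + x = 0) {a : E} (ha : a ∈ J)
    (n : ℕ) : a ^ n ∈ J := by
  induction n using Nat.strong_induction_on with
  | _ n ih =>
    match n with
    | 0 => simpa using hJ.one_mem
    | 1 => simpa using ha
    | (k + 2) =>
      have := U_mem hJ h2 ha (ih k (by omega))
      have e : a ^ (k + 2) = a * a ^ k * a := by
        rw [pow_succ, pow_succ']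
      rw [e]; exact this

theorem mul_eq_zero_left (hJ : IsJD J) {a b : E} (ha : a ∈ J) (hb : a * b = 0) :
    a = 0 ∨ b = 0 := by
  by_cases h : a = 0
  · exact Or.inl h
  right
  obtain ⟨a', -, -, h'⟩ := hJ.inv a ha h
  calc b = a' * (a * b) := by rw [← mul_assoc, h', one_mul]
    _ = 0 := by rw [hb, mul_zero]

theorem mul_eq_zero_right (hJ : IsJD J) {a b : E} (ha : a ∈ J) (hb : b * a = 0) :
    a = 0 ∨ b = 0 := by
  by_cases h : a = 0
  · exact Or.inl h
  right
  obtain ⟨a', -, h', -⟩ := hJ.inv a ha h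
  calc b = (b * a) * a' := by rw [mul_assoc, h', mul_one]
    _ = 0 := by rw [hb, zero_mul]

end basic

section field

variable {E : Type*} [Ring E] {F : Type*} [Field F] [Fintype F] (f : F →+* E)

/-- homogeneous elements of degree `σ` -/
def Deg (σ : F ≃+* F) (y : E) : Prop := ∀ l : F, y * f l = f (σ l) * y

/-- projection to the component of degree `σ` -/
def pr (σ : F ≃+* F) (y : E) : E := ∑ k : F, f ((σ k)⁻¹) * y * f k

variable {f}

theorem Deg.mul {σ τ : F ≃+* F} {x y : E} (hx : Deg f σ x) (hy : Deg f τ y) :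
    Deg f (σ * τ) (x * y) := by
  intro l
  rw [mul_assoc, hy l, ← mul_assoc, hx, mul_assoc]; rfl

theorem Deg.add {σ : F ≃+* F} {x y : E} (hx : Deg f σ x) (hy : Deg f σ y) :
    Deg f σ (x + y) := by
  intro l
  rw [add_mul, hx l, hy l, mul_add]

theorem Deg.zero (σ : F ≃+* F) : Deg f σ (0 : E) := by
  intro l; simp

theorem Deg.one : Deg f (1 : F ≃+* F) (1 : E) := by
  intro l; simp

theorem Deg.coe (a : F) : Deg f (1 : F ≃+* F) (f a) := by
  intro l
  rw [← map_mul, mul_comm, map_mul]; rfl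

theorem Deg.pow {σ : F ≃+* F} {x : E} (hx : Deg f σ x) (n : ℕ) : Deg f (σ ^ n) (x ^ n) := by
  induction n with
  | zero => simpa using Deg.one
  | succ n ih => rw [pow_succ, pow_succ]; exact ih.mul hx

theorem Deg.coe_mul {σ : F ≃+* F} {x : E} (hx : Deg f σ x) (a : F) : Deg f σ (f a * x) := by
  have := (Deg.coe (f := f) a).mul hx
  rwa [one_mul] at this

theorem Deg.mul_coe {σ : F ≃+* F} {x : E} (hx : Deg f σ x) (a : F) : Deg f σ (x * f a) := by
  have := hx.mul (Deg.coe (f := f) a)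
  rwa [mul_one] at this

theorem deg_pr (σ : F ≃+* F) (y : E) : Deg f σ (pr f σ y) := by
  intro l
  by_cases hl : l = 0
  · subst hl; simp
  unfold pr
  rw [Finset.sum_mul, Finset.mul_sum]
  symm
  rw [← Equiv.sum_comp (Equiv.mulRight₀ l hl)]
  refine Finset.sum_congr rfl fun k _ => ?_
  simp only [Equiv.mulRight₀_apply, map_mul, mul_inv]
  have h1 : f (σ l) * (f (σ k)⁻¹ * f (σ l)⁻¹ * y * (f k * f l))
      = (f (σ l) * f (σ k)⁻¹ * f (σ l)⁻¹) * y * f k * f l := by noncomm_ring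
  have hl' : σ l ≠ 0 := by simpa using hl
  rw [h1, ← map_mul, ← map_mul]
  have : σ l * (σ k)⁻¹ * (σ l)⁻¹ = (σ k)⁻¹ := by field_simp
  rw [this]

theorem sum_ratio_ne {σ τ : F ≃+* F} (h : σ ≠ τ) : ∑ k : F, (σ k)⁻¹ * τ k = 0 := by
  obtain ⟨l, hl⟩ : ∃ l, σ l ≠ τ l := by
    by_contra hcon
    push Not at hcon
    exact h (RingEquiv.ext hcon)
  have hl0 : l ≠ 0 := by rintro rfl; simp at hl
  have hσ : σ l ≠ 0 := by simpa using hl0
  have e : ∑ k : F, (σ k)⁻¹ * τ k = ((σ l)⁻¹ * τ l) * ∑ k : F, (σ k)⁻¹ * τ k := by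
    conv_lhs => rw [← Equiv.sum_comp (Equiv.mulRight₀ l hl0)]
    rw [Finset.mul_sum]
    refine Finset.sum_congr rfl fun k _ => ?_
    simp only [Equiv.mulRight₀_apply, map_mul, mul_inv]
    ring
  by_contra hne
  have h1 : (σ l)⁻¹ * τ l = 1 := by
    have h3 : ((σ l)⁻¹ * τ l - 1) * ∑ k : F, (σ k)⁻¹ * τ k = 0 := by
      rw [sub_mul, one_mul, ← e, sub_self]
    rcases mul_eq_zero.mp h3 with h4 | h4
    · exact sub_eq_zero.mp h4
    · exact absurd h4 hne
  apply hl
  field_simp at h1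
  exact h1.symm

theorem sum_ratio_self [CharP F 2] (σ : F ≃+* F) : ∑ k : F, (σ k)⁻¹ * σ k = 1 := by
  classical
  have e : ∀ k : F, (σ k)⁻¹ * σ k = 1 - (if k = 0 then 1 else 0) := by
    intro k
    by_cases hk : k = 0
    · subst hk; simp
    · have : σ k ≠ 0 := by simpa using hk
      rw [inv_mul_cancel₀ this, if_neg hk, sub_zero]
  rw [Finset.sum_congr rfl fun k _ => e k, Finset.sum_sub_distrib]
  have h1 : (∑ _k : F, (1 : F)) = 0 := by
    simp
  rw [h1]
  simp [CharTwo.neg_eq]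

theorem pr_of_deg_ne {σ τ : F ≃+* F} (h : σ ≠ τ) {y : E} (hy : Deg f τ y) : pr f σ y = 0 := by
  unfold pr
  have e : ∀ k : F, f ((σ k)⁻¹) * y * f k = f ((σ k)⁻¹ * τ k) * y := by
    intro k
    rw [mul_assoc, hy k, ← mul_assoc, map_mul]
  rw [Finset.sum_congr rfl fun k _ => e k, ← Finset.sum_mul, ← map_sum, sum_ratio_ne h, map_zero,
    zero_mul]

theorem pr_of_deg [CharP F 2] {σ : F ≃+* F} {y : E} (hy : Deg f σ y) : pr f σ y = y := by
  unfold pr
  have e : ∀ k : F, f ((σ k)⁻¹) * y * f k = f ((σ k)⁻¹ * σ k) * y := by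
    intro k
    rw [mul_assoc, hy k, ← mul_assoc, map_mul]
  rw [Finset.sum_congr rfl fun k _ => e k, ← Finset.sum_mul, ← map_sum, sum_ratio_self, map_one,
    one_mul]

theorem pr_add (σ : F ≃+* F) (x y : E) : pr f σ (x + y) = pr f σ x + pr f σ y := by
  unfold pr
  rw [← Finset.sum_add_distrib]
  refine Finset.sum_congr rfl fun k _ => ?_
  rw [mul_add, add_mul]

theorem pr_zero (σ : F ≃+* F) : pr f σ 0 = 0 := by
  unfold pr; simp

theorem pr_sum {ι : Type*} (s : Finset ι) (g : ι → E) (σ : F ≃+* F) :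
    pr f σ (∑ i ∈ s, g i) = ∑ i ∈ s, pr f σ (g i) := by
  classical
  induction s using Finset.induction_on with
  | empty => simp [pr_zero]
  | insert a s ha ih => rw [Finset.sum_insert ha, Finset.sum_insert ha, pr_add, ih]

instance finite_aut {F : Type*} [Field F] [Finite F] : Finite (F ≃+* F) :=
  Finite.of_injective (fun τ : F ≃+* F => (τ : F → F)) DFunLike.coe_injective

theorem sum_pr [CharP F 2] [Fintype (F ≃+* F)] (y : E) : ∑ σ : F ≃+* F, pr f σ y = y := by
  classical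
  unfold pr
  rw [Finset.sum_comm]
  have hc : ∀ k : F, (∑ σ : F ≃+* F, (σ k)⁻¹) = 0 ∨ (∑ σ : F ≃+* F, (σ k)⁻¹) = 1 := by
    intro k
    have h1 : (∑ σ : F ≃+* F, (σ k)⁻¹) ^ 2 = ∑ σ : F ≃+* F, (σ k)⁻¹ := by
      have e1 : (∑ σ : F ≃+* F, (σ k)⁻¹) ^ 2 = frobeniusEquiv F 2 (∑ σ : F ≃+* F, (σ k)⁻¹) := by
        rw [frobeniusEquiv_apply, frobenius_def]
      rw [e1, map_sum]
      refine Fintype.sum_equiv (Equiv.mulLeft (frobeniusEquiv F 2 : F ≃+* F)) _ _ ?_
      intro σ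
      simp only [Equiv.coe_mulLeft, map_inv₀]
      rfl
    have h2 : (∑ σ : F ≃+* F, (σ k)⁻¹) * ((∑ σ : F ≃+* F, (σ k)⁻¹) - 1) = 0 := by
      rw [mul_sub, mul_one, ← sq, h1, sub_self]
    rcases mul_eq_zero.mp h2 with h | h
    · exact Or.inl h
    · exact Or.inr (sub_eq_zero.mp h)
  have e : ∀ k : F, ∑ σ : F ≃+* F, f ((σ k)⁻¹) * y * f k
      = y * f (∑ σ : F ≃+* F, (σ k)⁻¹ * k) := by
    intro k
    rw [← Finset.sum_mul, ← Finset.sum_mul, ← map_sum, ← Finset.sum_mul]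
    rcases hc k with h | h
    · rw [h]; simp
    · rw [h]; simp
  rw [Finset.sum_congr rfl fun k _ => e k, ← Finset.mul_sum, ← map_sum, Finset.sum_comm]
  have e2 : ∀ σ : F ≃+* F, (∑ k : F, (σ k)⁻¹ * k) = if σ = 1 then 1 else 0 := by
    intro σ
    by_cases h : σ = 1
    · subst h
      rw [if_pos rfl]
      exact sum_ratio_self (1 : F ≃+* F)
    · rw [if_neg h]
      exact sum_ratio_ne (σ := σ) (τ := 1) h
  rw [Finset.sum_congr rfl fun σ _ => e2 σ]
  simp

end field

section pairs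

variable {E : Type*} [Ring E] [Nontrivial E] {J : AddSubgroup E} (hJ : IsJD J)
  (h2 : ∀ x : E, x + x = 0) {F : Type*} [Field F] [Fintype F] {f : F →+* E} (hf : ∀ a, f a ∈ J)
include hJ h2 hf

theorem pr_pair_mem (σ : F ≃+* F) {y : E} (hy : y ∈ J) (c : F) :
    f c * pr f σ y + pr f σ⁻¹ y * f c ∈ J := by
  classical
  have e1 : f c * pr f σ y = ∑ k : F, f (c * (σ k)⁻¹) * y * f k := by
    unfold pr
    rw [Finset.mul_sum]
    refine Finset.sum_congr rfl fun k _ => ?_
    rw [map_mul]; noncomm_ring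
  have e2 : pr f σ⁻¹ y * f c = ∑ k : F, f k * y * f (c * (σ k)⁻¹) := by
    unfold pr
    rw [Finset.sum_mul]
    let e : F ≃ F := σ.toEquiv.trans (Equiv.inv F)
    symm
    refine Fintype.sum_equiv e _ _ ?_
    intro k
    have h1 : e k = (σ k)⁻¹ := rfl
    rw [h1]
    have h3 : ((σ⁻¹ : F ≃+* F) ((σ k)⁻¹))⁻¹ = k := by
      rw [map_inv₀, inv_inv]
      exact σ.symm_apply_apply k
    rw [h3, mul_assoc (f k * y), ← map_mul, mul_comm c]
  rw [e1, e2, ← Finset.sum_add_distrib]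
  exact J.sum_mem fun k _ => U_lin hJ h2 (hf _) hy (hf _)

theorem pr_one_mem {y : E} (hy : y ∈ J) : pr f 1 y ∈ J := by
  classical
  rw [← QuotientAddGroup.eq_zero_iff]
  unfold pr
  have hs : ((∑ k : F, f (((1 : F ≃+* F) k)⁻¹) * y * f k : E) : E ⧸ J)
      = ∑ k : F, ((f (((1 : F ≃+* F) k)⁻¹) * y * f k : E) : E ⧸ J) := by
    exact map_sum (QuotientAddGroup.mk' J) _ _
  rw [hs]
  refine Finset.sum_involution (fun k _ => k⁻¹) ?_ ?_ ?_ ?_
  · intro k _
    rw [← QuotientAddGroup.mk_add, QuotientAddGroup.eq_zero_iff]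
    have := U_lin hJ h2 (hf k⁻¹) hy (hf k)
    simpa using this
  · intro k _ hk hk'
    apply hk
    rw [QuotientAddGroup.eq_zero_iff]
    by_cases hk0 : k = 0
    · subst hk0; simp [J.zero_mem]
    have : k * k = 1 := by
      nth_rewrite 1 [← hk']
      exact inv_mul_cancel₀ hk0
    have h3 : (1 : F ≃+* F) k = k := rfl
    rw [h3, hk']
    have hU := U_mem hJ h2 (hf k) hy
    exact hU
  · intro k _; simp
  · intro k _; simp

end pairs

end Cfsg.Agent.Lib.H32JD
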