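import Mathlib
import Cfsg.Agent.Lib.H32JD1

set_option autoImplicit false

namespace Cfsg.Agent.Lib.H32JD

section pairs

variable {E : Type*} [Ring E] [Nontrivial E]
  {F : Type*} [Field F] [Fintype F] {f : F →+* E}

theorem coe_cancel {a b : F} {x : E} (hx : x ≠ 0) (h : f a * x = f b * x) : a = b := by
  by_contra hne
  apply hx
  have h1 : f (a - b) * x = 0 := by rw [map_sub, sub_mul, h, sub_self]
  calc x = f ((a - b)⁻¹ * (a - b)) * x := by
        rw [inv_mul_cancel₀ (sub_ne_zero.mpr hne), map_one, one_mul]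
    _ = f (a - b)⁻¹ * (f (a - b) * x) := by rw [map_mul, mul_assoc]
    _ = 0 := by rw [h1, mul_zero]

theorem coe_mul_ne {a : F} {x : E} (ha : a ≠ 0) (hx : x ≠ 0) : f a * x ≠ 0 := by
  intro h
  exact ha (coe_cancel (f := f) (a := a) (b := 0) hx (by rw [h, map_zero, zero_mul]))

theorem charP_two (h2 : ∀ x : E, x + x = 0) (f : F →+* E) : CharP F 2 := by
  have : (2 : F) = 0 := by
    apply f.injective
    have : f 2 = 1 + 1 := by rw [map_ofNat]; norm_num
    rw [this, h2, map_zero]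
  exact CharTwo.of_one_ne_zero_of_two_eq_zero one_ne_zero this

theorem pow_coe_mul {τ : F ≃+* F} {γ : E} (hγ : Deg f τ γ) (c : F) (n : ℕ) :
    (f c * γ) ^ n = f (∏ i ∈ Finset.range n, (τ ^ i : F ≃+* F) c) * γ ^ n := by
  induction n with
  | zero => simp
  | succ n ih =>
    rw [pow_succ, ih, Finset.prod_range_succ, map_mul, pow_succ]
    have := (hγ.pow n) c
    calc f (∏ i ∈ Finset.range n, (τ ^ i : F ≃+* F) c) * γ ^ n * (f c * γ)
        = f (∏ i ∈ Finset.range n, (τ ^ i : F ≃+* F) c) * (γ ^ n * f c) * γ := by noncomm_ring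
      _ = _ := by rw [this]; noncomm_ring

variable {J : AddSubgroup E} (hJ : IsJD J)
  (h2 : ∀ x : E, x + x = 0)  (hf : ∀ a, f a ∈ J)
  (hmax : ∀ x ∈ J, (∀ a, x * f a = f a * x) → ∃ a, f a = x)
include hJ h2 hf hmax

omit hJ h2 hf [Nontrivial E] [Fintype F] in
theorem deg_one_mem {x : E} (hx : x ∈ J) (hd : Deg f 1 x) : ∃ a, f a = x := hmax x hx hd

theorem pr_invol {σ : F ≃+* F} (hσ : σ ≠ 1) (hσ2 : σ * σ = 1) {y : E} (hy : y ∈ J) :
    pr f σ y = 0 := by
  haveI := charP_two h2 f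
  by_contra hα
  have hinv : σ⁻¹ = σ := inv_eq_of_mul_eq_one_left hσ2
  have hdeg : Deg f σ (pr f σ y) := deg_pr σ y
  obtain ⟨c, hc⟩ : ∃ c, σ c ≠ c := by
    by_contra hcon; push Not at hcon
    exact hσ (RingEquiv.ext hcon)
  have h1 := pr_pair_mem hJ h2 hf σ hy c
  rw [hinv, hdeg c, ← add_mul, ← map_add] at h1
  have hs : c + σ c ≠ 0 := by
    intro h
    apply hc
    have := eq_neg_of_add_eq_zero_right h
    rwa [CharTwo.neg_eq] at this
  set x := f (c + σ c) * pr f σ y with hx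
  have hx0 : x ≠ 0 := coe_mul_ne hs hα
  have hxd : Deg f σ x := hdeg.coe_mul _
  have hxx : Deg f 1 (x * x) := by rw [← hσ2]; exact hxd.mul hxd
  obtain ⟨w, hw⟩ := deg_one_mem hmax (sq_mem hJ h2 h1) hxx
  have hσw : σ w = w := by
    apply coe_cancel (f := f) hx0
    have e5 : x * f w = f w * x := by rw [hw]; exact (mul_assoc x x x).symm
    exact (hxd w).symm.trans e5
  obtain ⟨z, hz⟩ : ∃ z : F, z ^ 2 = w := by
    refine ⟨(frobeniusEquiv F 2).symm w, ?_⟩
    have := (frobeniusEquiv F 2).apply_symm_apply w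
    rwa [frobeniusEquiv_apply, frobenius_def] at this
  have hσz : σ z = z := by
    have : (σ z - z) ^ 2 = 0 := by
      rw [sub_pow_two, ← map_pow, hz, hσw]
      have : (2 : F) = 0 := CharTwo.two_eq_zero
      rw [this]; ring_nf
      linear_combination w * this
    exact sub_eq_zero.mp (pow_eq_zero_iff (two_ne_zero) |>.mp this)
  have hcomm : x * f z = f z * x := by rw [hxd z, hσz]
  have hsq : (x + f z) * (x + f z) = 0 := by
    have e1 : (x + f z) * (x + f z) = x * x + f z * f z + (x * f z + f z * x) := by noncomm_ring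
    rw [e1, hcomm, h2, add_zero, ← map_mul, ← hw, ← sq z, hz, h2]
  have h3 : x + f z = 0 := by
    rcases mul_eq_zero_left hJ (J.add_mem h1 (hf z)) hsq with h | h <;> exact h
  have h4 : x = f z := by
    have := eq_neg_of_add_eq_zero_left h3
    rwa [neg_eq h2] at this
  apply hσ
  apply RingEquiv.ext
  intro l
  apply coe_cancel (f := f) hx0
  rw [← hxd l, h4]
  show f z * f l = f l * f z
  rw [← map_mul, ← map_mul, mul_comm]

/-- products of the two components lie in the field -/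
theorem kappa {σ : F ≃+* F} (hσ2 : σ * σ ≠ 1) {α β : E} (hα : Deg f σ α) (hβ : Deg f σ⁻¹ β)
    (hα0 : α ≠ 0) (hx : α + β ∈ J) : ∃ κ : F, β * α = f κ ∧ α * β = f (σ κ) := by
  haveI := charP_two h2 f
  have hA : ∀ l : F, ∃ r : F, f (σ l) * (α * β) + f (σ⁻¹ l) * (β * α) = f r := by
    intro l
    have h1 := U_mem hJ h2 hx (hf l)
    have h3 := pr_one_mem hJ h2 hf h1
    have e : (α + β) * f l * (α + β)
        = (α * f l * α + β * f l * β) + (α * f l * β + β * f l * α) := by noncomm_ring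
    have d1 : Deg f (σ * σ) (α * f l * α) := (hα.mul_coe l).mul hα
    have d2 : Deg f (σ⁻¹ * σ⁻¹) (β * f l * β) := (hβ.mul_coe l).mul hβ
    have d3 : Deg f 1 (α * f l * β) := by
      have := (hα.mul_coe l).mul hβ; rwa [mul_inv_cancel] at this
    have d4 : Deg f 1 (β * f l * α) := by
      have := (hβ.mul_coe l).mul hα; rwa [inv_mul_cancel] at this
    have hne : (1 : F ≃+* F) ≠ σ⁻¹ * σ⁻¹ := by
      intro h
      apply hσ2
      have : (σ * σ)⁻¹ = 1 := by rw [mul_inv_rev]; exact h.symm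
      exact inv_eq_one.mp this
    rw [e, pr_add, pr_add, pr_of_deg_ne (Ne.symm hσ2) d1, pr_of_deg_ne hne d2, add_zero, zero_add,
      pr_of_deg (d3.add d4)] at h3
    obtain ⟨r, hr⟩ := deg_one_mem hmax h3 (d3.add d4)
    refine ⟨r, ?_⟩
    rw [hr, hα l, hβ l, mul_assoc, mul_assoc]
  obtain ⟨r1, hr1⟩ := hA 1
  rw [map_one σ, map_one σ⁻¹, map_one f, one_mul, one_mul] at hr1 
  obtain ⟨l, hl⟩ : ∃ l, σ⁻¹ l ≠ σ l := by
    by_contra hcon; push Not at hcon
    apply hσ2
    have : σ⁻¹ = σ := RingEquiv.ext hcon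
    nth_rewrite 1 [← this]
    exact inv_mul_cancel σ
  obtain ⟨r, hr⟩ := hA l
  have hu : σ⁻¹ l + σ l ≠ 0 := by
    intro h
    apply hl
    have := eq_neg_of_add_eq_zero_left h
    rwa [CharTwo.neg_eq] at this
  have e : f (σ⁻¹ l + σ l) * (β * α) = f (r + σ l * r1) := by
    rw [map_add, map_add, map_mul, ← hr, ← hr1, add_mul, mul_add]
    have := h2 (f (σ l) * (α * β))
    calc f (σ⁻¹ l) * (β * α) + f (σ l) * (β * α)
        = (f (σ l) * (α * β) + f (σ l) * (α * β)) + (f (σ⁻¹ l) * (β * α) + f (σ l) * (β * α)) := by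
          rw [this, zero_add]
      _ = _ := by abel
  have hκ : β * α = f ((σ⁻¹ l + σ l)⁻¹ * (r + σ l * r1)) := by
    rw [map_mul, ← e, ← mul_assoc, ← map_mul, inv_mul_cancel₀ hu, map_one, one_mul]
  refine ⟨_, hκ, ?_⟩
  set κ := (σ⁻¹ l + σ l)⁻¹ * (r + σ l * r1) with hκdef
  have h4 : α * β = f (r1 - κ) := by
    rw [map_sub, ← hκ, ← hr1]; abel
  rw [h4]
  congr 1
  apply coe_cancel (f := f) hα0
  rw [← h4, mul_assoc, hκ, hα κ]

theorem kappa_ne {σ : F ≃+* F} (hσ2 : σ * σ ≠ 1) {α β : E} (hα : Deg f σ α) (hβ : Deg f σ⁻¹ β)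
    (hα0 : α ≠ 0) (hx : ∀ c, f c * α + β * f c ∈ J) (hαβ : α * β = 0) (hβα : β * α = 0) :
    False := by
  haveI := charP_two h2 f
  have hσ1 : σ ≠ 1 := by rintro rfl; exact hσ2 (mul_one 1)
  have hσi : σ ≠ σ⁻¹ := by
    intro h; apply hσ2; nth_rewrite 1 [h]; exact inv_mul_cancel σ
  obtain ⟨m, hm⟩ : ∃ m, orderOf σ = m := ⟨_, rfl⟩
  have hmpos : 0 < m := by rw [← hm]; exact orderOf_pos σ
  have hσm : σ ^ m = 1 := by rw [← hm]; exact pow_orderOf_eq_one σ
  -- powers of sums
  have hpow : ∀ (P Q : E), P * Q = 0 → Q * P = 0 → ∀ n : ℕ, 0 < n → (P + Q) ^ n = P ^ n + Q ^ n := by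
    intro P Q hPQ hQP n hn
    induction n with
    | zero => omega
    | succ n ih =>
      rcases Nat.eq_zero_or_pos n with h | h
      · subst h; simp
      · rw [pow_succ, ih h, pow_succ P, pow_succ Q, add_mul, mul_add, mul_add]
        have e1 : P ^ n * Q = 0 := by
          obtain ⟨k, rfl⟩ := Nat.exists_eq_succ_of_ne_zero (Nat.pos_iff_ne_zero.mp h)
          rw [pow_succ, mul_assoc, hPQ, mul_zero]
        have e2 : Q ^ n * P = 0 := by
          obtain ⟨k, rfl⟩ := Nat.exists_eq_succ_of_ne_zero (Nat.pos_iff_ne_zero.mp h)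
          rw [pow_succ, mul_assoc, hQP, mul_zero]
        rw [e1, e2, add_zero, zero_add]
  have hx1 : α + β ∈ J := by
    have := hx 1
    rwa [map_one, one_mul, mul_one] at this
  have hx10 : α + β ≠ 0 := by
    intro h
    have h3 : pr f σ (α + β) = 0 := by rw [h, pr_zero]
    rw [pr_add, pr_of_deg hα, pr_of_deg_ne hσi hβ, add_zero] at h3
    exact hα0 h3
  have hdm : Deg f 1 ((α + β) ^ m) := by
    rw [hpow α β hαβ hβα m hmpos]
    have d1 := hα.pow m
    have d2 := hβ.pow m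
    rw [inv_pow, hσm, inv_one] at d2
    rw [hσm] at d1
    exact d1.add d2
  obtain ⟨e0, he0⟩ := deg_one_mem hmax (pow_mem hJ h2 hx1 m) hdm
  have he0' : e0 ≠ 0 := by
    rintro rfl
    rw [map_zero] at he0
    have : ∀ n, (α + β) ^ n ≠ 0 := by
      intro n
      induction n with
      | zero => simp
      | succ n ih =>
        intro h
        rw [pow_succ'] at h
        rcases mul_eq_zero_left hJ hx1 h with h | h
        · exact hx10 h
        · exact ih h
    exact this m he0.symm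
  have hσe : σ e0 = e0 := by
    apply coe_cancel (f := f) hα0
    have hc : (α + β) * f e0 = f e0 * (α + β) := by
      rw [he0, ← pow_succ, ← pow_succ']
    rw [add_mul, mul_add, hα, hβ] at hc
    have h3 := congrArg (pr f σ) hc
    rw [pr_add, pr_add, pr_of_deg (hα.coe_mul _), pr_of_deg_ne hσi (hβ.coe_mul _),
      pr_of_deg (hα.coe_mul _), pr_of_deg_ne hσi (hβ.coe_mul _), add_zero, add_zero] at h3
    exact h3
  obtain ⟨c, hc⟩ := H32JDNorm.exists_norm σ m hm e0⁻¹ (by rw [map_inv₀, hσe])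
  have hc0 : c ≠ 0 := by
    rintro rfl
    have : ∏ i ∈ Finset.range m, (σ ^ i : F ≃+* F) (0 : F) = 0 := by
      apply Finset.prod_eq_zero (Finset.mem_range.mpr hmpos)
      rw [map_zero]
    rw [this] at hc
    exact (inv_ne_zero he0') hc.symm
  set X := f c * α + β * f c with hX
  have hXJ : X ∈ J := hx c
  have hPQ : (f c * α) * (β * f c) = 0 := by
    calc (f c * α) * (β * f c) = f c * (α * β) * f c := by noncomm_ring
      _ = 0 := by rw [hαβ]; simp
  have hQP : (β * f c) * (f c * α) = 0 := by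
    calc (β * f c) * (f c * α) = (β * (f (c * c))) * α := by rw [map_mul]; noncomm_ring
      _ = f (σ⁻¹ (c * c)) * (β * α) := by rw [hβ]; noncomm_ring
      _ = 0 := by rw [hβα, mul_zero]
  have hXpow : ∀ n, 0 < n → X ^ n = (f c * α) ^ n + (β * f c) ^ n := hpow _ _ hPQ hQP
  have hXm : X ^ m = 1 := by
    rw [hXpow m hmpos, pow_coe_mul hα, hc, hβ c, pow_coe_mul hβ]
    have e1 : ∏ i ∈ Finset.range m, ((σ⁻¹) ^ i : F ≃+* F) (σ⁻¹ c) = e0⁻¹ := by
      rw [← hc, ← Finset.prod_range_reflect]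
      refine Finset.prod_congr rfl fun i hi => ?_
      have hi' := Finset.mem_range.mp hi
      have : (σ⁻¹) ^ (m - 1 - i) * σ⁻¹ = σ ^ i := by
        rw [← pow_succ, inv_pow, inv_eq_iff_mul_eq_one, ← pow_add]
        have : m - 1 - i + 1 + i = m := by omega
        rw [this, hσm]
      rw [← this]; rfl
    rw [e1, ← mul_add, ← hpow α β hαβ hβα m hmpos, ← he0, ← map_mul, inv_mul_cancel₀ he0', map_one]
  have hgeom : (∑ i ∈ Finset.range m, X ^ i) * (X - 1) = 0 := by
    rw [geom_sum_mul, hXm, sub_self]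
  have hne : X - 1 ≠ 0 := by
    intro h
    have h3 : X = 1 := sub_eq_zero.mp h
    have h4 := congrArg (pr f σ) h3
    rw [hX, pr_add, pr_of_deg (hα.coe_mul c), pr_of_deg_ne hσi (hβ.mul_coe c),
      pr_of_deg_ne hσ1 Deg.one, add_zero] at h4
    exact coe_mul_ne hc0 hα0 h4
  have hsum : (∑ i ∈ Finset.range m, X ^ i) = 0 := by
    rcases mul_eq_zero_right hJ (J.sub_mem hXJ hJ.one_mem) hgeom with h | h
    · exact absurd h hne
    · exact h
  have h5 := congrArg (pr f 1) hsum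
  rw [pr_sum, pr_zero, Finset.sum_eq_single 0] at h5
  · rw [pow_zero, pr_of_deg Deg.one] at h5
    exact one_ne_zero h5
  · intro j hj hj0
    have hj' := Finset.mem_range.mp hj
    have hσj : (1 : F ≃+* F) ≠ σ ^ j := by
      intro h
      have := orderOf_dvd_of_pow_eq_one h.symm
      rw [hm] at this
      exact absurd (Nat.le_of_dvd (Nat.pos_of_ne_zero hj0) this) (by omega)
    have hσj' : (1 : F ≃+* F) ≠ σ⁻¹ ^ j := by
      intro h
      rw [inv_pow] at h
      exact hσj (inv_eq_one.mp h.symm).symm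
    rw [hXpow j (Nat.pos_of_ne_zero hj0), pr_add, pr_of_deg_ne hσj ((hα.coe_mul c).pow j),
      pr_of_deg_ne hσj' ((hβ.mul_coe c).pow j), add_zero]
  · intro h
    exact absurd (Finset.mem_range.mpr hmpos) h

end pairs

end Cfsg.Agent.Lib.H32JD
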