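import Mathlib
import Cfsg.Agent.Lib.H32JD2

set_option autoImplicit false

namespace Cfsg.Agent.Lib.H32JD

section binom

variable {E : Type*} [Ring E] [Nontrivial E]
  {F : Type*} [Field F] [Fintype F] {f : F →+* E}

theorem zpow_deg {σ : F ≃+* F} (j n : ℕ) (h : j ≤ n) :
    σ ^ j * σ⁻¹ ^ (n - j) = σ ^ (2 * (j : ℤ) - n) := by
  rw [inv_pow, ← zpow_natCast, ← zpow_natCast, ← zpow_neg, ← zpow_add]
  congr 1
  push_cast [Nat.cast_sub h]
  ring

theorem pr_binom [CharP F 2] {σ : F ≃+* F} {α β : E} (hα : Deg f σ α) (hβ : Deg f σ⁻¹ β)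
    (hc : Commute α β) (ρ : F ≃+* F) (n : ℕ) [DecidableEq (F ≃+* F)] :
    pr f ρ ((α + β) ^ n) = ∑ j ∈ Finset.range (n + 1),
      if σ ^ (2 * (j : ℤ) - n) = ρ then α ^ j * β ^ (n - j) * (n.choose j : E) else 0 := by
  rw [hc.add_pow, pr_sum]
  refine Finset.sum_congr rfl fun j hj => ?_
  have hj' : j ≤ n := by have := Finset.mem_range.mp hj; omega
  have hd : Deg f (σ ^ (2 * (j : ℤ) - n)) (α ^ j * β ^ (n - j) * (n.choose j : E)) := by
    rw [← zpow_deg j n hj']
    have := ((hα.pow j).mul (hβ.pow (n - j))).mul_coe (n.choose j : F)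
    rwa [map_natCast] at this
  by_cases h : σ ^ (2 * (j : ℤ) - n) = ρ
  · rw [if_pos h]
    subst h
    exact pr_of_deg hd
  · rw [if_neg h]
    exact pr_of_deg_ne (Ne.symm h) hd

theorem fin_contra [CharP F 2] (h2 : ∀ x : E, x + x = 0) {σ : F ≃+* F} {α : E} (hα : Deg f σ α)
    {v z r : E} (hv : Deg f 1 v) (hz : Deg f 1 z) (hz0 : z ≠ 0)
    (hr : (1 + v * α) * r = 1) (hsum : z * (1 + (v * α) ^ orderOf σ) = 0) : False := by
  obtain ⟨m, hm⟩ : ∃ m, orderOf σ = m := ⟨_, rfl⟩
  have hmpos : 0 < m := by rw [← hm]; exact orderOf_pos σ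
  rw [hm] at hsum
  have hvα : Deg f σ (v * α) := by
    have := hv.mul hα; rwa [one_mul] at this
  set X := v * α with hX
  have e1 : (∑ i ∈ Finset.range m, X ^ i) * (1 + X) = 1 + X ^ m := by
    have h3 := geom_sum_mul X m
    have h4 : X - 1 = 1 + X := by rw [sub_eq_add_neg, neg_eq h2, add_comm]
    have h5 : X ^ m - 1 = 1 + X ^ m := by rw [sub_eq_add_neg, neg_eq h2, add_comm]
    rw [h4, h5] at h3
    exact h3
  have e2 : z * (∑ i ∈ Finset.range m, X ^ i) = 0 := by
    calc z * (∑ i ∈ Finset.range m, X ^ i)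
        = z * (∑ i ∈ Finset.range m, X ^ i) * ((1 + X) * r) := by rw [hr, mul_one]
      _ = z * ((∑ i ∈ Finset.range m, X ^ i) * (1 + X)) * r := by noncomm_ring
      _ = 0 := by rw [e1, hsum, zero_mul]
  have h5 := congrArg (pr f 1) e2
  rw [Finset.mul_sum, pr_sum, pr_zero, Finset.sum_eq_single 0] at h5
  · rw [pow_zero, mul_one, pr_of_deg hz] at h5
    exact hz0 h5
  · intro j hj hj0
    have hj' := Finset.mem_range.mp hj
    have hσj : (1 : F ≃+* F) ≠ 1 * σ ^ j := by
      intro h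
      rw [one_mul] at h
      have := orderOf_dvd_of_pow_eq_one h.symm
      rw [hm] at this
      exact absurd (Nat.le_of_dvd (Nat.pos_of_ne_zero hj0) this) (by omega)
    exact pr_of_deg_ne hσj (hz.mul (hvα.pow j))
  · intro h
    exact absurd (Finset.mem_range.mpr hmpos) h

end binom

section norm

variable {E : Type*} [Ring E] [Nontrivial E]
  {F : Type*} [Field F] [Fintype F] {f : F →+* E}

variable {J : AddSubgroup E} (hJ : IsJD J)
  (h2 : ∀ x : E, x + x = 0)  (hf : ∀ a, f a ∈ J)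
  (hmax : ∀ x ∈ J, (∀ a, x * f a = f a * x) → ∃ a, f a = x)
include hJ h2 hf hmax

theorem odd_order {σ : F ≃+* F} (hσ2 : σ * σ ≠ 1) {α β : E} (hα : Deg f σ α) (hβ : Deg f σ⁻¹ β)
    (hx : ∀ c, f c * α + β * f c ∈ J) (hαβ : α * β = 1) (hβα : β * α = 1) : Odd (orderOf σ) := by
  classical
  haveI := charP_two h2 f
  by_contra hodd
  rw [Nat.not_odd_iff_even] at hodd
  obtain ⟨h, hh⟩ := hodd
  have hcomm : Commute α β := by show α * β = β * α; rw [hαβ, hβα]
  have hσ1 : σ ≠ 1 := by rintro rfl; exact hσ2 (mul_one 1)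
  have hσi : σ ≠ σ⁻¹ := by
    intro h; apply hσ2; nth_rewrite 1 [h]; exact inv_mul_cancel σ
  have hmpos : 0 < orderOf σ := orderOf_pos σ
  have hα0 : α ≠ 0 := by rintro rfl; rw [zero_mul] at hαβ; exact zero_ne_one hαβ
  have hx1 : α + β ∈ J := by
    have := hx 1
    rwa [map_one, one_mul, mul_one] at this
  have hx10 : α + β ≠ 0 := by
    intro h
    have h3 : pr f σ (α + β) = 0 := by rw [h, pr_zero]
    rw [pr_add, pr_of_deg hα, pr_of_deg_ne hσi hβ, add_zero] at h3
    exact hα0 h3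
  have hτ1 : σ ^ h ≠ 1 := by
    intro h'
    have := orderOf_dvd_of_pow_eq_one h'
    exact absurd (Nat.le_of_dvd (by omega) this) (by omega)
  have hτ2 : σ ^ h * σ ^ h = 1 := by rw [← pow_add, ← hh, pow_orderOf_eq_one]
  have h3 := pr_invol hJ h2 hf hmax hτ1 hτ2 (pow_mem hJ h2 hx1 h)
  rw [pr_binom hα hβ hcomm, Finset.sum_eq_add 0 h (by omega)] at h3
  · simp only [Nat.cast_zero, mul_zero, zero_sub, Nat.choose_self, Nat.choose_zero_right,
      Nat.cast_one, mul_one, pow_zero, one_mul, Nat.sub_zero, Nat.sub_self] at h3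
    have c1 : σ ^ (-(h : ℤ)) = σ ^ h := by
      rw [zpow_neg, zpow_natCast, inv_eq_iff_mul_eq_one, hτ2]
    have c2 : σ ^ (2 * (h : ℤ) - h) = σ ^ h := by
      rw [← zpow_natCast]; congr 1; ring
    rw [if_pos c1, if_pos c2] at h3
    -- so `α ^ h = β ^ h` and `α ^ m = 1`
    have h4 : α ^ h = β ^ h := by
      have := eq_neg_of_add_eq_zero_right h3
      rwa [neg_eq h2] at this
    have h5 : α ^ orderOf σ = 1 := by
      rw [hh, pow_add]
      nth_rewrite 2 [h4]
      rw [← hcomm.mul_pow, hαβ, one_pow]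
    obtain ⟨x', -, hxx', -⟩ := hJ.inv _ hx1 hx10
    have e1 : (1 + α) * (1 + β) = α + β := by
      rw [add_mul, mul_add, mul_add, mul_one, one_mul, mul_one, hαβ]
      calc (1 + β) + (α + 1) = (1 + 1) + (α + β) := by abel
        _ = α + β := by rw [h2, zero_add]
    refine fin_contra (f := f) h2 hα (v := 1) (z := 1) (r := (1 + β) * x') Deg.one Deg.one
      one_ne_zero ?_ ?_
    · rw [one_mul, ← mul_assoc, e1, hxx']
    · rw [one_mul, one_mul, h5, h2]
  · intro j hj hne
    have hj' := Finset.mem_range.mp hj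
    rw [if_neg]
    intro h'
    have h6 : σ ^ (2 * (j : ℤ) - 2 * h) = 1 := by
      have e : (2 * (j : ℤ) - 2 * h) = (2 * (j : ℤ) - h) + (-(h : ℤ)) := by ring
      rw [e, zpow_add, h', zpow_neg, zpow_natCast, mul_inv_cancel]
    have h7 := orderOf_dvd_iff_zpow_eq_one.mpr h6
    rw [hh] at h7
    have h8 : ((h : ℤ) + h) ∣ 2 * (j : ℤ) - 2 * h := by exact_mod_cast h7
    obtain ⟨q, hq⟩ := h8
    have hq' : (j : ℤ) - h = h * q := by linarith
    have hj2 : (j : ℤ) ≤ h := by omega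
    have hhpos : (0 : ℤ) < h := by omega
    have hjn : (0 : ℤ) ≤ j := by positivity
    rcases hne with ⟨h9, h10⟩
    have h9' : (j : ℤ) ≠ 0 := by exact_mod_cast h9
    have h10' : (j : ℤ) ≠ h := by exact_mod_cast h10
    rcases lt_trichotomy q (-1) with hq1 | hq1 | hq1
    · nlinarith
    · rw [hq1] at hq'; apply h9'; linarith
    · rcases lt_trichotomy q 0 with hq2 | hq2 | hq2
      · omega
      · rw [hq2] at hq'; apply h10'; linarith
      · nlinarith
  · intro h'; exact absurd (Finset.mem_range.mpr (by omega)) h'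
  · intro h'; exact absurd (Finset.mem_range.mpr (by omega)) h'

/-- the data in the odd case -/
theorem odd_data {σ : F ≃+* F} (hσ2 : σ * σ ≠ 1) {α β : E} (hα : Deg f σ α) (hβ : Deg f σ⁻¹ β)
    (hx : ∀ c, f c * α + β * f c ∈ J) (hαβ : α * β = 1) (hβα : β * α = 1)
    (hodd : Odd (orderOf σ)) :
    (∃ b : F, f b = α ^ orderOf σ + β ^ orderOf σ) ∧
      ∀ c, f c * β ^ (orderOf σ - 1) + α ^ (orderOf σ - 1) * f c ∈ J := by
  classical
  haveI := charP_two h2 f
  have hcomm : Commute α β := by show α * β = β * α; rw [hαβ, hβα]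
  have hσ1 : σ ≠ 1 := by rintro rfl; exact hσ2 (mul_one 1)
  obtain ⟨m, hm⟩ : ∃ m, orderOf σ = m := ⟨_, rfl⟩
  have hmpos : 0 < m := by rw [← hm]; exact orderOf_pos σ
  have hσm : σ ^ m = 1 := by rw [← hm]; exact pow_orderOf_eq_one σ
  have hm1 : m ≠ 1 := by
    intro h; rw [h] at hm; exact hσ1 (orderOf_eq_one_iff.mp hm)
  rw [hm] at hodd ⊢
  obtain ⟨t, ht⟩ := hodd
  have hx1 : α + β ∈ J := by
    have := hx 1
    rwa [map_one, one_mul, mul_one] at this
  have hdiv : ∀ i : ℤ, σ ^ (2 * i) = 1 → (m : ℤ) ∣ i := by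
    intro i hi
    have h1 := orderOf_dvd_iff_zpow_eq_one.mpr hi
    rw [hm] at h1
    have hcop : IsCoprime (m : ℤ) 2 := by
      refine ⟨1, -t, ?_⟩
      rw [ht]; push_cast; ring
    exact hcop.dvd_of_dvd_mul_left h1
  have hz : ∀ n : ℤ, σ ^ (m * n) = 1 := by
    intro n; rw [zpow_mul, zpow_natCast, hσm, one_zpow]
  constructor
  · have h3 := pr_one_mem hJ h2 hf (pow_mem hJ h2 hx1 m)
    have h4 : Deg f 1 (pr f 1 ((α + β) ^ m)) := deg_pr _ _
    obtain ⟨b, hb⟩ := deg_one_mem hmax h3 h4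
    refine ⟨b, ?_⟩
    rw [hb, pr_binom hα hβ hcomm, Finset.sum_eq_add 0 m (by omega)]
    · simp only [Nat.cast_zero, mul_zero, zero_sub, Nat.choose_self, Nat.choose_zero_right,
        Nat.cast_one, mul_one, pow_zero, one_mul, Nat.sub_zero, Nat.sub_self]
      have c1 : σ ^ (-(m : ℤ)) = 1 := by
        have := hz (-1); rwa [mul_neg, mul_one] at this
      have c2 : σ ^ (2 * (m : ℤ) - m) = 1 := by
        have := hz 1
        rw [mul_one] at this
        rw [← this]; congr 1; ring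
      rw [if_pos c1, if_pos c2, add_comm]
    · intro j hj hne
      have hj' := Finset.mem_range.mp hj
      rw [if_neg]
      intro h'
      have h6 : σ ^ (2 * (j : ℤ)) = 1 := by
        have e : (2 * (j : ℤ)) = (2 * (j : ℤ) - m) + (m : ℤ) := by ring
        rw [e, zpow_add, h', zpow_natCast, hσm, one_mul]
      have h7 := hdiv _ h6
      have h8 : m ∣ j := by exact_mod_cast h7
      obtain ⟨q, hq⟩ := h8
      rcases q with _ | _ | q
      · exact hne.1 (by simpa using hq)
      · exact hne.2 (by simpa using hq)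
      · have : m * (q + 1 + 1) ≥ m * 2 := Nat.mul_le_mul_left _ (by omega)
        omega
    · intro h'; exact absurd (Finset.mem_range.mpr (by omega)) h'
    · intro h'; exact absurd (Finset.mem_range.mpr (by omega)) h'
  · intro c
    have h3 := pr_pair_mem hJ h2 hf σ (pow_mem hJ h2 hx1 (m - 1)) c
    have e1 : pr f σ ((α + β) ^ (m - 1)) = β ^ (m - 1) := by
      rw [pr_binom hα hβ hcomm, Finset.sum_eq_single 0]
      · have c1 : σ ^ (2 * ((0 : ℕ) : ℤ) - ((m - 1 : ℕ) : ℤ)) = σ := by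
          have e : (2 * ((0 : ℕ) : ℤ) - ((m - 1 : ℕ) : ℤ)) = m * (-1) + 1 := by
            push_cast [Nat.cast_sub (show 1 ≤ m by omega)]; ring
          rw [e, zpow_add, hz, one_mul, zpow_one]
        rw [if_pos c1]; simp
      · intro j hj hj0
        have hj' := Finset.mem_range.mp hj
        rw [if_neg]
        intro h'
        have h6 : σ ^ (2 * (j : ℤ)) = 1 := by
          have e : (2 * (j : ℤ)) = (2 * (j : ℤ) - ((m - 1 : ℕ) : ℤ)) + (-1) + (m : ℤ) * 1 := by
            push_cast [Nat.cast_sub (show 1 ≤ m by omega)]; ring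
          rw [e, zpow_add, hz, mul_one, zpow_add, h', zpow_neg, zpow_one, mul_inv_cancel]
        have h7 := hdiv _ h6
        have h8 : m ∣ j := by exact_mod_cast h7
        have := Nat.le_of_dvd (Nat.pos_of_ne_zero hj0) h8
        omega
      · intro h'; exact absurd (Finset.mem_range.mpr (by omega)) h'
    have e2 : pr f σ⁻¹ ((α + β) ^ (m - 1)) = α ^ (m - 1) := by
      rw [pr_binom hα hβ hcomm, Finset.sum_eq_single (m - 1)]
      · have c1 : σ ^ (2 * ((m - 1 : ℕ) : ℤ) - ((m - 1 : ℕ) : ℤ)) = σ⁻¹ := by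
          have e : (2 * ((m - 1 : ℕ) : ℤ) - ((m - 1 : ℕ) : ℤ)) = m * 1 + (-1) := by
            push_cast [Nat.cast_sub (show 1 ≤ m by omega)]; ring
          rw [e, zpow_add, hz, one_mul, zpow_neg, zpow_one]
        rw [if_pos c1]; simp
      · intro j hj hj0
        have hj' := Finset.mem_range.mp hj
        rw [if_neg]
        intro h'
        have h6 : σ ^ (2 * ((j : ℤ) + 1)) = 1 := by
          have e : (2 * ((j : ℤ) + 1)) = (2 * (j : ℤ) - ((m - 1 : ℕ) : ℤ)) + 1 + (m : ℤ) * 1 := by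
            push_cast [Nat.cast_sub (show 1 ≤ m by omega)]; ring
          rw [e, zpow_add, hz, mul_one, zpow_add, h', zpow_one, inv_mul_cancel]
        have h7 := hdiv _ h6
        have h8 : m ∣ j + 1 := by exact_mod_cast h7
        have := Nat.le_of_dvd (Nat.succ_pos j) h8
        omega
      · intro h'; exact absurd (Finset.mem_range.mpr (by omega)) h'
    rwa [e1, e2] at h3

end norm

end Cfsg.Agent.Lib.H32JD
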