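import Mathlib
import Cfsg.Agent.Lib.H32JD3

set_option autoImplicit false

namespace Cfsg.Agent.Lib.H32JD

section norm

variable {E : Type*} [Ring E] [Nontrivial E]
  {F : Type*} [Field F] [Fintype F] {f : F →+* E}

variable {J : AddSubgroup E} (hJ : IsJD J)
  (h2 : ∀ x : E, x + x = 0)  (hf : ∀ a, f a ∈ J)
include hJ h2 hf

theorem y_mem {σ : F ≃+* F} {α β : E} (hα : Deg f σ α) (hβ : Deg f σ⁻¹ β)
    (hx : ∀ c, f c * α + β * f c ∈ J) (hαβ : α * β = 1) (hβα : β * α = 1)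
    {m : ℕ} (hm : σ ^ m = 1) (hmpos : 0 < m) {b : F} (hb : f b = α ^ m + β ^ m)
    (hB : ∀ c, f c * β ^ (m - 1) + α ^ (m - 1) * f c ∈ J) (c c' : F) :
    (1 + (f c + f c' * β ^ m) * α) * (1 + β * (f c + f c' * α ^ m)) ∈ J := by
  haveI := charP_two h2 f
  have hcomm : Commute α β := by show α * β = β * α; rw [hαβ, hβα]
  have hδδ : β ^ m * α ^ m = 1 := by rw [← hcomm.symm.mul_pow, hβα, one_pow]
  have dα : ∀ l, α ^ m * f l = f l * α ^ m := by
    intro l; have := hα.pow m l; rwa [hm] at this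
  have dβ : ∀ l, β ^ m * f l = f l * β ^ m := by
    intro l; have := hβ.pow m l; rwa [inv_pow, hm, inv_one] at this
  have e1 : β ^ m * α = β ^ (m - 1) := by
    obtain ⟨k, rfl⟩ := Nat.exists_eq_succ_of_ne_zero (Nat.pos_iff_ne_zero.mp hmpos)
    rw [pow_succ, mul_assoc, hβα, mul_one]; rfl
  have e2 : β * α ^ m = α ^ (m - 1) := by
    obtain ⟨k, rfl⟩ := Nat.exists_eq_succ_of_ne_zero (Nat.pos_iff_ne_zero.mp hmpos)
    rw [pow_succ', ← mul_assoc, hβα, one_mul]; rfl
  have e3 : (f c + f c' * β ^ m) * α = f c * α + f c' * β ^ (m - 1) := by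
    rw [add_mul, mul_assoc, e1]
  have e4 : β * (f c + f c' * α ^ m) = β * f c + α ^ (m - 1) * f c' := by
    rw [mul_add, ← dα, ← mul_assoc, e2]
  have e5 : ((f c + f c' * β ^ m) * α) * (β * (f c + f c' * α ^ m))
      = f (c * c + c' * c' + c * c' * b) := by
    calc ((f c + f c' * β ^ m) * α) * (β * (f c + f c' * α ^ m))
        = (f c + f c' * β ^ m) * (α * β) * (f c + f c' * α ^ m) := by noncomm_ring
      _ = f c * f c + f c * f c' * α ^ m + f c' * (β ^ m * f c)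
            + f c' * (β ^ m * f c') * α ^ m := by rw [hαβ]; noncomm_ring
      _ = f c * f c + f c * f c' * α ^ m + f c' * (f c * β ^ m)
            + f c' * (f c' * β ^ m) * α ^ m := by rw [dβ, dβ]
      _ = f c * f c + f c * f c' * α ^ m + f c' * f c * β ^ m
            + f c' * f c' * (β ^ m * α ^ m) := by noncomm_ring
      _ = f (c * c) + f (c * c') * α ^ m + f (c * c') * β ^ m
            + f (c' * c') := by
          rw [hδδ, mul_one, ← map_mul, ← map_mul, ← map_mul, ← map_mul, mul_comm c' c]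
      _ = f (c * c) + f (c' * c') + f (c * c') * (α ^ m + β ^ m) := by noncomm_ring
      _ = _ := by rw [← hb, ← map_mul, ← map_add, ← map_add]
  have e6 : (1 + (f c + f c' * β ^ m) * α) * (1 + β * (f c + f c' * α ^ m))
      = 1 + (f c * α + β * f c) + (f c' * β ^ (m - 1) + α ^ (m - 1) * f c')
        + f (c * c + c' * c' + c * c' * b) := by
    rw [← e5]
    calc (1 + (f c + f c' * β ^ m) * α) * (1 + β * (f c + f c' * α ^ m))
        = 1 + (f c + f c' * β ^ m) * α + β * (f c + f c' * α ^ m)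
          + ((f c + f c' * β ^ m) * α) * (β * (f c + f c' * α ^ m)) := by noncomm_ring
      _ = _ := by rw [e3, e4]; abel
  rw [e6]
  exact J.add_mem (J.add_mem (J.add_mem hJ.one_mem (hx c)) (hB c')) (hf _)

theorem right_inv {σ : F ≃+* F} (hσ2 : σ * σ ≠ 1) {α β : E} (hα : Deg f σ α) (hβ : Deg f σ⁻¹ β)
    (hx : ∀ c, f c * α + β * f c ∈ J) (hαβ : α * β = 1) (hβα : β * α = 1)
    {m : ℕ} (hm : σ ^ m = 1) (hmpos : 0 < m) {b : F} (hb : f b = α ^ m + β ^ m)
    (hB : ∀ c, f c * β ^ (m - 1) + α ^ (m - 1) * f c ∈ J) (c c' : F)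
    (hv : f c + f c' * β ^ m ≠ 0) :
    ∃ r, (1 + (f c + f c' * β ^ m) * α) * r = 1 := by
  haveI := charP_two h2 f
  have hσ1 : σ ≠ 1 := by rintro rfl; exact hσ2 (mul_one 1)
  have hσi : σ ≠ σ⁻¹ := by
    intro h; apply hσ2; nth_rewrite 1 [h]; exact inv_mul_cancel σ
  have hy := y_mem hJ h2 hf hα hβ hx hαβ hβα hm hmpos hb hB c c'
  have dα : Deg f 1 (α ^ m) := by have := hα.pow m; rwa [hm] at this
  have dβ : Deg f 1 (β ^ m) := by have := hβ.pow m; rwa [inv_pow, hm, inv_one] at this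
  have d1 : Deg f 1 (f c + f c' * β ^ m) := (Deg.coe c).add (dβ.coe_mul c')
  have d2 : Deg f 1 (f c + f c' * α ^ m) := (Deg.coe c).add (dα.coe_mul c')
  have d3 : Deg f σ ((f c + f c' * β ^ m) * α) := by
    have := d1.mul hα; rwa [one_mul] at this
  have d4 : Deg f σ⁻¹ (β * (f c + f c' * α ^ m)) := by
    have := hβ.mul d2; rwa [mul_one] at this
  have d5 : Deg f 1 (((f c + f c' * β ^ m) * α) * (β * (f c + f c' * α ^ m))) := by
    have := d3.mul d4; rwa [mul_inv_cancel] at this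
  have hne : (1 + (f c + f c' * β ^ m) * α) * (1 + β * (f c + f c' * α ^ m)) ≠ 0 := by
    intro h0
    have e : (1 + (f c + f c' * β ^ m) * α) * (1 + β * (f c + f c' * α ^ m))
      = 1 + (f c + f c' * β ^ m) * α + β * (f c + f c' * α ^ m)
          + ((f c + f c' * β ^ m) * α) * (β * (f c + f c' * α ^ m)) := by noncomm_ring
    rw [e] at h0
    have h3 := congrArg (pr f σ) h0
    rw [pr_add, pr_add, pr_add, pr_zero, pr_of_deg d3, pr_of_deg_ne hσi d4,
      pr_of_deg_ne hσ1 d5, pr_of_deg_ne hσ1 Deg.one, zero_add, add_zero, add_zero] at h3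
    apply hv
    calc f c + f c' * β ^ m = ((f c + f c' * β ^ m) * α) * β := by
          rw [mul_assoc, hαβ, mul_one]
      _ = 0 := by rw [h3, zero_mul]
  obtain ⟨y', -, hyy', -⟩ := hJ.inv _ hy hne
  exact ⟨_, by rw [← mul_assoc]; exact hyy'⟩

theorem caseI {σ : F ≃+* F} (hσ2 : σ * σ ≠ 1) {α β : E} (hα : Deg f σ α) (hβ : Deg f σ⁻¹ β)
    (hx : ∀ c, f c * α + β * f c ∈ J) (hαβ : α * β = 1) (hβα : β * α = 1)
    {m : ℕ} (hmo : orderOf σ = m) {b : F} (hb : f b = α ^ m + β ^ m)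
    (hB : ∀ c, f c * β ^ (m - 1) + α ^ (m - 1) * f c ∈ J)
    {z : E} (hz : Deg f 1 z) (hz0 : z ≠ 0) {μ : F} (hμ : σ μ = μ) (hzμ : z * (β ^ m + f μ) = 0) :
    False := by
  haveI := charP_two h2 f
  have hm : σ ^ m = 1 := by rw [← hmo]; exact pow_orderOf_eq_one σ
  have hmpos : 0 < m := by rw [← hmo]; exact orderOf_pos σ
  have hcomm : Commute α β := by show α * β = β * α; rw [hαβ, hβα]
  have hδδ : β ^ m * α ^ m = 1 := by rw [← hcomm.symm.mul_pow, hβα, one_pow]
  have h3 : z * (1 + f μ * α ^ m) = 0 := by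
    calc z * (1 + f μ * α ^ m) = z * (β ^ m + f μ) * α ^ m := by
          rw [mul_assoc, add_mul, hδδ]
      _ = 0 := by rw [hzμ, zero_mul]
  have hμ0 : μ ≠ 0 := by
    rintro rfl
    rw [map_zero, zero_mul, add_zero, mul_one] at h3
    exact hz0 h3
  obtain ⟨c, hc⟩ := H32JDNorm.exists_norm σ m hmo μ hμ
  have hc0 : c ≠ 0 := by
    rintro rfl
    have : ∏ i ∈ Finset.range m, (σ ^ i : F ≃+* F) (0 : F) = 0 := by
      apply Finset.prod_eq_zero (Finset.mem_range.mpr hmpos)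
      rw [map_zero]
    rw [this] at hc
    exact hμ0 hc.symm
  have hv0 : f c + f 0 * β ^ m ≠ 0 := by
    rw [map_zero, zero_mul, add_zero]
    intro h
    exact hc0 (f.injective (by rw [h, map_zero]))
  obtain ⟨r, hr⟩ := right_inv hJ h2 hf hσ2 hα hβ hx hαβ hβα hm hmpos hb hB c 0 hv0
  rw [map_zero, zero_mul, add_zero] at hr
  refine fin_contra h2 hα (Deg.coe c) hz hz0 hr ?_
  rw [hmo, pow_coe_mul hα, hc, h3]

end norm

end Cfsg.Agent.Lib.H32JD
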