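import Mathlib
import Cfsg.Agent.Lib.H32JD4

set_option autoImplicit false

namespace Cfsg.Agent.Lib.H32JD

section norm

variable {E : Type*} [Ring E] [Nontrivial E]
  {F : Type*} [Field F] [Fintype F] {f : F →+* E}

variable {J : AddSubgroup E} (hJ : IsJD J)
  (h2 : ∀ x : E, x + x = 0)  (hf : ∀ a, f a ∈ J)
include hJ h2 hf

theorem caseII {σ : F ≃+* F} (hσ2 : σ * σ ≠ 1) {α β : E} (hα : Deg f σ α) (hβ : Deg f σ⁻¹ β)
    (hx : ∀ c, f c * α + β * f c ∈ J) (hαβ : α * β = 1) (hβα : β * α = 1)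
    {m : ℕ} (hmo : orderOf σ = m) {b : F} (hb : f b = α ^ m + β ^ m)
    (hB : ∀ c, f c * β ^ (m - 1) + α ^ (m - 1) * f c ∈ J)
    (hunit : ∀ c c' : F, f c + f c' * β ^ m ≠ 0 →
      ∃ d d' : F, (f c + f c' * β ^ m) * (f d + f d' * β ^ m) = 1) :
    False := by
  classical
  haveI := charP_two h2 f
  have hm : σ ^ m = 1 := by rw [← hmo]; exact pow_orderOf_eq_one σ
  have hmpos : 0 < m := by rw [← hmo]; exact orderOf_pos σ
  have hcomm : Commute α β := by show α * β = β * α; rw [hαβ, hβα]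
  have hδδ : β ^ m * α ^ m = 1 := by rw [← hcomm.symm.mul_pow, hβα, one_pow]
  have dβ : ∀ l, β ^ m * f l = f l * β ^ m := by
    intro l; have := hβ.pow m l; rwa [inv_pow, hm, inv_one] at this
  have hβ2 : β ^ m * β ^ m = f b * β ^ m + 1 := by
    have e : α ^ m * β ^ m = 1 := by rw [← hcomm.mul_pow, hαβ, one_pow]
    have e2 : β ^ m = f b + α ^ m := by
      rw [hb]
      calc β ^ m = (α ^ m + α ^ m) + β ^ m := by rw [h2, zero_add]
        _ = _ := by abel
    nth_rewrite 1 [e2]
    rw [add_mul, e]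
  have hmul : ∀ c c' d d' : F, (f c + f c' * β ^ m) * (f d + f d' * β ^ m)
      = f (c * d + c' * d') + f (c * d' + c' * d + c' * d' * b) * β ^ m := by
    intro c c' d d'
    calc (f c + f c' * β ^ m) * (f d + f d' * β ^ m)
        = f c * f d + f c * f d' * β ^ m + f c' * (β ^ m * f d) + f c' * (β ^ m * f d') * β ^ m := by
          noncomm_ring
      _ = f c * f d + f c * f d' * β ^ m + f c' * (f d * β ^ m) + f c' * f d' * (β ^ m * β ^ m) := by
          rw [dβ, dβ]; noncomm_ring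
      _ = _ := by
          rw [hβ2]; simp only [map_add, map_mul]; noncomm_ring
  -- the subring
  let L : Subring E :=
    { carrier := {y | ∃ c c' : F, y = f c + f c' * β ^ m}
      mul_mem' := by
        rintro _ _ ⟨c, c', rfl⟩ ⟨d, d', rfl⟩
        exact ⟨_, _, hmul c c' d d'⟩
      one_mem' := ⟨1, 0, by simp⟩
      add_mem' := by
        rintro _ _ ⟨c, c', rfl⟩ ⟨d, d', rfl⟩
        exact ⟨c + d, c' + d', by rw [map_add, map_add]; noncomm_ring⟩
      zero_mem' := ⟨0, 0, by simp⟩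
      neg_mem' := by
        rintro _ ⟨c, c', rfl⟩
        exact ⟨-c, -c', by rw [map_neg, map_neg]; noncomm_ring⟩ }
  have hLmem : ∀ y, y ∈ L ↔ ∃ c c' : F, y = f c + f c' * β ^ m := fun y => Iff.rfl
  have hLcomm : ∀ x y : L, x * y = y * x := by
    rintro ⟨_, ⟨c, c', rfl⟩⟩ ⟨_, ⟨d, d', rfl⟩⟩
    apply Subtype.ext
    show (f c + f c' * β ^ m) * (f d + f d' * β ^ m) = (f d + f d' * β ^ m) * (f c + f c' * β ^ m)
    rw [hmul, hmul]
    congr 2
    · ring
    · congr 1; ring
  haveI hLfin : Finite L := by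
    have hs : Function.Surjective (fun p : F × F => (⟨f p.1 + f p.2 * β ^ m, ⟨p.1, p.2, rfl⟩⟩ : L)) := by
      rintro ⟨_, ⟨c, c', rfl⟩⟩
      exact ⟨(c, c'), rfl⟩
    exact Finite.of_surjective _ hs
  letI cr : CommRing L := { (inferInstance : Ring L) with mul_comm := hLcomm }
  haveI hnt : Nontrivial L := ⟨⟨0, 1, fun h => zero_ne_one (congrArg Subtype.val h)⟩⟩
  have hisf : IsField L :=
    { exists_pair_ne := ⟨0, 1, zero_ne_one⟩
      mul_comm := mul_comm
      mul_inv_cancel := by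
        rintro ⟨_, ⟨c, c', rfl⟩⟩ hne
        have hne' : f c + f c' * β ^ m ≠ 0 := fun h => hne (Subtype.ext h)
        obtain ⟨d, d', hd⟩ := hunit c c' hne'
        exact ⟨⟨_, ⟨d, d', rfl⟩⟩, Subtype.ext hd⟩ }
  letI fl : Field L := hisf.toField
  have key1 : ∀ c c' : F, α * (f c + f c' * β ^ m) * β = f (σ c) + f (σ c') * β ^ m := by
    intro c c'
    have e : α * β ^ m * β = β ^ m := by
      rw [mul_assoc, ← pow_succ, pow_succ', ← mul_assoc, hαβ, one_mul]
    calc α * (f c + f c' * β ^ m) * β = (α * f c) * β + (α * f c') * β ^ m * β := by noncomm_ring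
      _ = f (σ c) * (α * β) + f (σ c') * (α * β ^ m * β) := by rw [hα, hα]; noncomm_ring
      _ = _ := by rw [e, hαβ, mul_one]
  have key2 : ∀ c c' : F, β * (f c + f c' * β ^ m) * α = f (σ⁻¹ c) + f (σ⁻¹ c') * β ^ m := by
    intro c c'
    have e : β * β ^ m * α = β ^ m := by
      rw [← pow_succ', pow_succ, mul_assoc, hβα, mul_one]
    calc β * (f c + f c' * β ^ m) * α = (β * f c) * α + (β * f c') * β ^ m * α := by noncomm_ring
      _ = f (σ⁻¹ c) * (β * α) + f (σ⁻¹ c') * (β * β ^ m * α) := by rw [hβ, hβ]; noncomm_ring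
      _ = _ := by rw [e, hβα, mul_one]
  let s : L ≃+* L :=
    { toFun := fun y => ⟨α * y * β, by
        obtain ⟨c, c', h⟩ := y.2
        rw [h, key1]; exact ⟨_, _, rfl⟩⟩
      invFun := fun y => ⟨β * y * α, by
        obtain ⟨c, c', h⟩ := y.2
        rw [h, key2]; exact ⟨_, _, rfl⟩⟩
      left_inv := by
        intro y; apply Subtype.ext
        show β * (α * y * β) * α = y
        calc β * (α * (y : E) * β) * α = (β * α) * y * (β * α) := by noncomm_ring
          _ = y := by rw [hβα, one_mul, mul_one]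
      right_inv := by
        intro y; apply Subtype.ext
        show α * (β * y * α) * β = y
        calc α * (β * (y : E) * α) * β = (α * β) * y * (α * β) := by noncomm_ring
          _ = y := by rw [hαβ, one_mul, mul_one]
      map_mul' := by
        intro x y; apply Subtype.ext
        show α * ((x : E) * y) * β = (α * x * β) * (α * y * β)
        calc α * ((x : E) * y) * β = α * x * 1 * y * β := by noncomm_ring
          _ = _ := by rw [← hβα]; noncomm_ring
      map_add' := by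
        intro x y; apply Subtype.ext
        show α * ((x : E) + y) * β = (α * x * β) + (α * y * β)
        noncomm_ring }
  have hs1 : ∀ y : L, ((s y : L) : E) = α * y * β := fun y => rfl
  have hsn : ∀ (i : ℕ) (y : L), (((s ^ i : L ≃+* L) y : L) : E) = α ^ i * y * β ^ i := by
    intro i
    induction i with
    | zero => intro y; simp
    | succ i ih =>
      intro y
      have : (s ^ (i + 1) : L ≃+* L) y = (s ^ i : L ≃+* L) (s y) := by rw [pow_succ]; rfl
      rw [this, ih, hs1, pow_succ α, pow_succ' β]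
      noncomm_ring
  have hso : orderOf s = m := by
    apply Nat.dvd_antisymm
    · apply orderOf_dvd_of_pow_eq_one
      apply RingEquiv.ext
      rintro ⟨_, ⟨c, c', rfl⟩⟩
      apply Subtype.ext
      rw [hsn]
      show α ^ m * (f c + f c' * β ^ m) * β ^ m = f c + f c' * β ^ m
      have e1 : (f c + f c' * β ^ m) * β ^ m = β ^ m * (f c + f c' * β ^ m) := by
        rw [add_mul, mul_add, dβ, mul_assoc, ← mul_assoc (β ^ m) (f c'), dβ, mul_assoc]
      have e : α ^ m * β ^ m = 1 := by rw [← hcomm.mul_pow, hαβ, one_pow]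
      rw [mul_assoc, e1, ← mul_assoc, e, one_mul]
    · rw [← hmo]
      apply orderOf_dvd_of_pow_eq_one
      apply RingEquiv.ext
      intro c
      have h3 : (s ^ orderOf s : L ≃+* L) ⟨f c + f 0 * β ^ m, ⟨c, 0, rfl⟩⟩
          = ⟨f c + f 0 * β ^ m, ⟨c, 0, rfl⟩⟩ := by rw [pow_orderOf_eq_one]; rfl
      have h4 := congrArg Subtype.val h3
      rw [hsn] at h4
      simp only [map_zero, zero_mul, add_zero] at h4
      rw [hα.pow (orderOf s) c, mul_assoc, ← hcomm.mul_pow, hαβ, one_pow, mul_one] at h4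
      exact f.injective h4
  -- norm
  let u : L := ⟨β ^ m, ⟨0, 1, by simp⟩⟩
  have hsu : s u = u := by
    apply Subtype.ext
    rw [hs1]
    show α * β ^ m * β = β ^ m
    rw [mul_assoc, ← pow_succ, pow_succ', ← mul_assoc, hαβ, one_mul]
  obtain ⟨v, hv⟩ := H32JDNorm.exists_norm s m hso u hsu
  have hu0 : u ≠ 0 := by
    intro h
    have : β ^ m = 0 := congrArg Subtype.val h
    rw [this, zero_mul] at hδδ
    exact zero_ne_one hδδ
  have hv0 : v ≠ 0 := by
    rintro rfl
    have : ∏ i ∈ Finset.range m, (s ^ i : L ≃+* L) (0 : L) = 0 := by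
      apply Finset.prod_eq_zero (Finset.mem_range.mpr hmpos)
      rw [map_zero]
    rw [this] at hv
    exact hu0 hv.symm
  have hvE : (v : E) ≠ 0 := fun h => hv0 (Subtype.ext h)
  obtain ⟨c, c', hvc⟩ := v.2
  have hpow : ∀ n : ℕ, ((v : E) * α) ^ n
      = ((∏ i ∈ Finset.range n, (s ^ i : L ≃+* L) v : L) : E) * α ^ n := by
    intro n
    induction n with
    | zero => simp
    | succ n ih =>
      rw [pow_succ, ih, Finset.prod_range_succ]
      have e1 : (((∏ i ∈ Finset.range n, (s ^ i : L ≃+* L) v) * (s ^ n : L ≃+* L) v : L) : E)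
          = ((∏ i ∈ Finset.range n, (s ^ i : L ≃+* L) v : L) : E) * (((s ^ n : L ≃+* L) v : L) : E) := rfl
      rw [e1, hsn]
      have e2 : β ^ n * α ^ n = 1 := by rw [← hcomm.symm.mul_pow, hβα, one_pow]
      calc ((∏ i ∈ Finset.range n, (s ^ i : L ≃+* L) v : L) : E) * α ^ n * ((v : E) * α)
          = ((∏ i ∈ Finset.range n, (s ^ i : L ≃+* L) v : L) : E) * (α ^ n * v) * 1 * α := by
            noncomm_ring
        _ = ((∏ i ∈ Finset.range n, (s ^ i : L ≃+* L) v : L) : E) * (α ^ n * v * β ^ n)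
              * (α ^ n * α) := by rw [← e2]; noncomm_ring
        _ = _ := by rw [← pow_succ]
  have hvm : ((v : E) * α) ^ m = 1 := by
    rw [hpow m, hv]
    exact hδδ
  have hv1 : f c + f c' * β ^ m ≠ 0 := by rw [← hvc]; exact hvE
  obtain ⟨r, hr⟩ := right_inv hJ h2 hf hσ2 hα hβ hx hαβ hβα hm hmpos hb hB c c' hv1
  have dvv : Deg f 1 (v : E) := by
    rw [hvc]
    have dβ' : Deg f 1 (β ^ m) := by have := hβ.pow m; rwa [inv_pow, hm, inv_one] at this
    exact (Deg.coe c).add (dβ'.coe_mul c')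
  rw [← hvc] at hr
  refine fin_contra h2 hα (z := 1) dvv Deg.one one_ne_zero hr ?_
  rw [hmo, hvm, h2, mul_zero]

omit hJ h2 hf in
theorem pow_two_step {σ : F ≃+* F} {μ : F} (h : σ (σ μ) = μ) {m : ℕ} (hodd : Odd m)
    (hm : σ ^ m = 1) : σ μ = μ := by
  obtain ⟨t, rfl⟩ := hodd
  have h1 : ∀ t : ℕ, (σ ^ (2 * t) : F ≃+* F) μ = μ := by
    intro t
    induction t with
    | zero => simp
    | succ t ih =>
      have : (σ ^ (2 * (t + 1)) : F ≃+* F) = σ ^ (2 * t) * (σ * σ) := by
        rw [← sq, ← pow_add]; rfl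
      rw [this]
      show (σ ^ (2 * t) : F ≃+* F) (σ (σ μ)) = μ
      rw [h, ih]
  have h3 : (σ ^ (2 * t + 1) : F ≃+* F) μ = σ μ := by
    have : (σ ^ (2 * t + 1) : F ≃+* F) = σ * σ ^ (2 * t) := pow_succ' σ (2 * t)
    rw [this]
    show σ ((σ ^ (2 * t) : F ≃+* F) μ) = σ μ
    rw [h1]
  rw [← h3, hm]; rfl

theorem normalized (hmax : ∀ x ∈ J, (∀ a, x * f a = f a * x) → ∃ a, f a = x)
    {σ : F ≃+* F} (hσ2 : σ * σ ≠ 1) {α β : E} (hα : Deg f σ α) (hβ : Deg f σ⁻¹ β)
    (hx : ∀ c, f c * α + β * f c ∈ J) (hαβ : α * β = 1) (hβα : β * α = 1) : False := by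
  classical
  haveI := charP_two h2 f
  have hodd := odd_order hJ h2 hf hmax hσ2 hα hβ hx hαβ hβα
  obtain ⟨⟨b, hb⟩, hB⟩ := odd_data hJ h2 hf hmax hσ2 hα hβ hx hαβ hβα hodd
  obtain ⟨m, hmo⟩ : ∃ m, orderOf σ = m := ⟨_, rfl⟩
  rw [hmo] at hodd hb hB
  have hm : σ ^ m = 1 := by rw [← hmo]; exact pow_orderOf_eq_one σ
  have hmpos : 0 < m := by rw [← hmo]; exact orderOf_pos σ
  have hcomm : Commute α β := by show α * β = β * α; rw [hαβ, hβα]
  have hδδ : β ^ m * α ^ m = 1 := by rw [← hcomm.symm.mul_pow, hβα, one_pow]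
  have dβ1 : Deg f 1 (β ^ m) := by have := hβ.pow m; rwa [inv_pow, hm, inv_one] at this
  have dβ : ∀ l, β ^ m * f l = f l * β ^ m := fun l => dβ1 l
  have hβ2 : β ^ m * β ^ m = f b * β ^ m + 1 := by
    have e : α ^ m * β ^ m = 1 := by rw [← hcomm.mul_pow, hαβ, one_pow]
    have e2 : β ^ m = f b + α ^ m := by
      rw [hb]
      calc β ^ m = (α ^ m + α ^ m) + β ^ m := by rw [h2, zero_add]
        _ = _ := by abel
    nth_rewrite 1 [e2]
    rw [add_mul, e]
  have hα0 : α ≠ 0 := by rintro rfl; rw [zero_mul] at hαβ; exact zero_ne_one hαβ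
  -- `σ b = b`
  have hσb : σ b = b := by
    apply coe_cancel (f := f) hα0
    rw [← hα b, hb, mul_add, add_mul, ← pow_succ, ← pow_succ', hcomm.pow_right m]
  by_contra
  refine caseII hJ h2 hf hσ2 hα hβ hx hαβ hβα hmo hb hB ?_
  intro c c' hne
  by_cases hc' : c' = 0
  · subst hc'
    rw [map_zero, zero_mul, add_zero] at hne ⊢
    have hc : c ≠ 0 := by rintro rfl; exact hne (map_zero f)
    exact ⟨c⁻¹, 0, by rw [map_zero, zero_mul, add_zero, ← map_mul, mul_inv_cancel₀ hc, map_one]⟩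
  obtain ⟨μ, hμdef⟩ : ∃ μ, μ = c * c'⁻¹ := ⟨_, rfl⟩
  have hfac : f c + f c' * β ^ m = f c' * (β ^ m + f μ) := by
    rw [mul_add, ← map_mul, hμdef, add_comm]
    congr 2
    field_simp
  have hprod : (β ^ m + f μ) * (β ^ m + f (b + μ)) = f (1 + μ * b + μ * μ) := by
    calc (β ^ m + f μ) * (β ^ m + f (b + μ))
        = β ^ m * β ^ m + (β ^ m * f (b + μ)) + f μ * β ^ m + f μ * f (b + μ) := by noncomm_ring
      _ = 1 + (f b * β ^ m + f b * β ^ m) + (f μ * β ^ m + f μ * β ^ m) + f μ * f b + f μ * f μ := by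
          rw [hβ2, dβ, map_add]; noncomm_ring
      _ = _ := by
          rw [h2, h2, add_zero, add_zero, map_add, map_add, map_one, map_mul, map_mul]
  by_cases hν : 1 + μ * b + μ * μ = 0
  · exfalso
    rw [hν, map_zero] at hprod
    have hσμ : σ μ = μ := by
      have h3 := congrArg σ hν
      rw [map_add, map_add, map_one, map_mul, map_mul, hσb, map_zero] at h3
      have h4 : (σ μ - μ) * (σ μ - (b + μ)) = 0 := by
        have h5 : (2 : F) = 0 := CharTwo.two_eq_zero
        linear_combination h3 - hν + (μ * b + μ * μ - σ μ * b - μ * σ μ) * h5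
      rcases mul_eq_zero.mp h4 with h4 | h4
      · exact sub_eq_zero.mp h4
      · have h5 : σ μ = b + μ := sub_eq_zero.mp h4
        apply pow_two_step _ hodd hm
        rw [h5, map_add, hσb, h5, ← add_assoc]
        rw [CharTwo.add_self_eq_zero, zero_add]
    by_cases hz : β ^ m + f (b + μ) = 0
    · refine caseI hJ h2 hf hσ2 hα hβ hx hαβ hβα hmo hb hB (z := 1) Deg.one one_ne_zero
        (μ := b + μ) (by rw [map_add, hσb, hσμ]) ?_
      rw [one_mul, hz]
    · refine caseI hJ h2 hf hσ2 hα hβ hx hαβ hβα hmo hb hB (z := β ^ m + f (b + μ))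
        (dβ1.add (Deg.coe _)) hz hσμ ?_
      rw [← hprod]
      calc (β ^ m + f (b + μ)) * (β ^ m + f μ)
          = β ^ m * β ^ m + β ^ m * f μ + f (b + μ) * β ^ m + f (b + μ) * f μ := by noncomm_ring
        _ = β ^ m * β ^ m + f μ * β ^ m + β ^ m * f (b + μ) + f μ * f (b + μ) := by
            rw [dβ, dβ, ← map_mul, ← map_mul, mul_comm μ]
        _ = _ := by noncomm_ring
  · obtain ⟨ν, hνdef⟩ : ∃ ν, ν = 1 + μ * b + μ * μ := ⟨_, rfl⟩
    rw [← hνdef] at hprod hν
    refine ⟨(b + μ) * ν⁻¹ * c'⁻¹, ν⁻¹ * c'⁻¹, ?_⟩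
    have h6 : f ((b + μ) * ν⁻¹ * c'⁻¹) + f (ν⁻¹ * c'⁻¹) * β ^ m
        = (β ^ m + f (b + μ)) * f (ν⁻¹ * c'⁻¹) := by
      rw [add_mul (β ^ m), dβ, ← map_mul, ← mul_assoc (b + μ), add_comm]
    rw [hfac, h6]
    calc f c' * (β ^ m + f μ) * ((β ^ m + f (b + μ)) * f (ν⁻¹ * c'⁻¹))
        = f c' * ((β ^ m + f μ) * (β ^ m + f (b + μ))) * f (ν⁻¹ * c'⁻¹) := by noncomm_ring
      _ = 1 := by
          rw [hprod, ← map_mul, ← map_mul]
          have : c' * ν * (ν⁻¹ * c'⁻¹) = 1 := by field_simp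
          rw [this, map_one]

/-- all components of degree different from `1` vanish -/
theorem pr_zero_of_ne (hmax : ∀ x ∈ J, (∀ a, x * f a = f a * x) → ∃ a, f a = x)
    {σ : F ≃+* F} (hσ : σ ≠ 1) {y : E} (hy : y ∈ J) : pr f σ y = 0 := by
  haveI := charP_two h2 f
  by_cases hσ2 : σ * σ = 1
  · exact pr_invol hJ h2 hf hmax hσ hσ2 hy
  by_contra hα0
  have hx := fun c => pr_pair_mem hJ h2 hf σ hy c
  have hα : Deg f σ (pr f σ y) := deg_pr σ y
  have hβ : Deg f σ⁻¹ (pr f σ⁻¹ y) := deg_pr σ⁻¹ y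
  set α := pr f σ y
  set β := pr f σ⁻¹ y
  have hx1 : α + β ∈ J := by
    have := hx 1
    rwa [map_one, one_mul, mul_one] at this
  obtain ⟨κ, hκ1, hκ2⟩ := kappa hJ h2 hf hmax hσ2 hα hβ hα0 hx1
  by_cases hκ : κ = 0
  · subst hκ
    rw [map_zero] at hκ1
    rw [map_zero, map_zero] at hκ2
    exact kappa_ne hJ h2 hf hmax hσ2 hα hβ hα0 hx hκ2 hκ1
  · obtain ⟨c0, hc0⟩ : ∃ c0 : F, c0 ^ 2 = σ κ⁻¹ := by
      refine ⟨(frobeniusEquiv F 2).symm (σ κ⁻¹), ?_⟩
      have := (frobeniusEquiv F 2).apply_symm_apply (σ κ⁻¹)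
      rwa [frobeniusEquiv_apply, frobenius_def] at this
    have e1 : (β * f c0) * (f c0 * α) = 1 := by
      calc (β * f c0) * (f c0 * α) = (β * f (c0 ^ 2)) * α := by
            rw [sq, map_mul]; noncomm_ring
        _ = f (σ⁻¹ (c0 ^ 2)) * (β * α) := by rw [hβ]; noncomm_ring
        _ = 1 := by
          rw [hc0, hκ1, ← map_mul]
          have : σ⁻¹ (σ κ⁻¹) = κ⁻¹ := σ.symm_apply_apply _
          rw [this, inv_mul_cancel₀ hκ, map_one]
    have e2 : (f c0 * α) * (β * f c0) = 1 := by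
      calc (f c0 * α) * (β * f c0) = f c0 * (α * β) * f c0 := by noncomm_ring
        _ = f (c0 ^ 2 * σ κ) := by rw [hκ2, ← map_mul, ← map_mul]; congr 1; ring
        _ = 1 := by
          rw [hc0, ← map_mul, inv_mul_cancel₀ hκ, map_one, map_one]
    refine normalized hJ h2 hf hmax hσ2 (α := f c0 * α) (β := β * f c0) (hα.coe_mul c0)
      (hβ.mul_coe c0) ?_ e2 e1
    intro c
    have := hx (c * c0)
    rw [map_mul] at this
    have e : f c * (f c0 * α) + β * f c0 * f c = f c * f c0 * α + β * (f c * f c0) := by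
      have : f c * f c0 = f c0 * f c := by rw [← map_mul, ← map_mul, mul_comm]
      rw [this]; rw [← this]; noncomm_ring
      rw [← map_mul, ← map_mul, mul_comm]
    rw [e]; exact this

end norm

section main

variable {E : Type*} [Ring E] [Nontrivial E] {J : AddSubgroup E} (hJ : IsJD J)
  (h2 : ∀ x : E, x + x = 0)
include hJ h2

/-- MAIN THEOREM: a finite additive subgroup `J ∋ 1` of a ring of characteristic `2` whose nonzero
elements are units with inverses in `J` is a commutative subring. -/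
theorem main [Finite J] : (∀ x ∈ J, ∀ y ∈ J, x * y = y * x) ∧ (∀ x ∈ J, ∀ y ∈ J, x * y ∈ J) := by
  classical
  -- maximal commutative subring in `J`
  let S : Set (Subring E) := {K | (∀ x ∈ K, x ∈ J) ∧ ∀ x ∈ K, ∀ y ∈ K, x * y = y * x}
  have hSfin : S.Finite := by
    have hJf : (J : Set E).Finite := Set.toFinite _
    refine Set.Finite.of_finite_image (f := fun K : Subring E => (K : Set E)) ?_ ?_
    · refine (hJf.finite_subsets).subset ?_
      rintro _ ⟨K, hK, rfl⟩
      exact hK.1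
    · intro K _ K' _ h
      exact SetLike.coe_injective h
  have hSne : S.Nonempty := by
    refine ⟨⊥, ?_, ?_⟩
    · intro x hx
      rw [Subring.mem_bot] at hx
      obtain ⟨n, rfl⟩ := hx
      have := J.zsmul_mem hJ.one_mem n
      simpa using this
    · intro x hx y hy
      rw [Subring.mem_bot] at hx hy
      obtain ⟨n, rfl⟩ := hx
      obtain ⟨k, rfl⟩ := hy
      exact (Int.cast_commute n (k : E))
  obtain ⟨K, hK⟩ := hSfin.exists_maximal hSne
  obtain ⟨⟨hKJ, hKc⟩, hKmax⟩ := hK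
  haveI hKfin : Finite K := Finite.of_injective (fun x : K => (⟨x, hKJ x x.2⟩ : J)) (by
    intro x y h
    exact Subtype.ext (congrArg (fun z : J => (z : E)) h))
  have hpowinv : ∀ x ∈ K, x ≠ 0 → ∃ y ∈ K, x * y = 1 := by
    intro x hx hx0
    obtain ⟨y, -, hxy, hyx⟩ := hJ.inv x (hKJ x hx) hx0
    have hinj : Function.Injective (fun z : K => (⟨x * z, K.mul_mem hx z.2⟩ : K)) := by
      intro z w h
      have h' : x * (z : E) = x * w := congrArg Subtype.val h
      apply Subtype.ext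
      calc (z : E) = y * (x * z) := by rw [← mul_assoc, hyx, one_mul]
        _ = w := by rw [h', ← mul_assoc, hyx, one_mul]
    obtain ⟨z, hz⟩ := Finite.surjective_of_injective hinj 1
    exact ⟨z, z.2, congrArg Subtype.val hz⟩
  letI cr : CommRing K := { (inferInstance : Ring K) with
    mul_comm := fun x y => Subtype.ext (hKc x x.2 y y.2) }
  haveI hnt : Nontrivial K := ⟨⟨0, 1, fun h => zero_ne_one (congrArg Subtype.val h)⟩⟩
  have hisf : IsField K :=
    { exists_pair_ne := ⟨0, 1, zero_ne_one⟩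
      mul_comm := mul_comm
      mul_inv_cancel := by
        intro x hne
        obtain ⟨y, hy, hxy⟩ := hpowinv x x.2 (fun h => hne (Subtype.ext h))
        exact ⟨⟨y, hy⟩, Subtype.ext hxy⟩ }
  letI fl : Field K := hisf.toField
  haveI : Fintype K := Fintype.ofFinite K
  let f : K →+* E := K.subtype
  have hfJ : ∀ a, f a ∈ J := fun a => hKJ a a.2
  have hmax : ∀ x ∈ J, (∀ a, x * f a = f a * x) → ∃ a, f a = x := by
    intro x hx hcomm
    -- monomials
    let M : Set E := {y | ∃ (k : K) (n : ℕ), y = (k : E) * x ^ n}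
    have hcp : ∀ (k : K) (n : ℕ), x ^ n * (k : E) = k * x ^ n := by
      intro k n
      have : Commute x (k : E) := hcomm k
      exact this.pow_left n
    have hMJ : ∀ y ∈ M, y ∈ J := by
      rintro y ⟨k, n, rfl⟩
      haveI := charP_two h2 f
      obtain ⟨l, hl⟩ : ∃ l : K, l * l = k := by
        refine ⟨(frobeniusEquiv K 2).symm k, ?_⟩
        have := (frobeniusEquiv K 2).apply_symm_apply k
        rwa [frobeniusEquiv_apply, frobenius_def, sq] at this
      have h3 := U_mem hJ h2 (hKJ l l.2) (pow_mem hJ h2 hx n)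
      have h4 : (l : E) * x ^ n * l = (k : E) * x ^ n := by
        rw [mul_assoc, hcp, ← mul_assoc, ← hl]; rfl
      rwa [h4] at h3
    have hMmul : ∀ y ∈ Submonoid.closure ((K : Set E) ∪ {x}), y ∈ M := by
      intro y hy
      induction hy using Submonoid.closure_induction with
      | mem z hz =>
        rcases hz with hz | hz
        · exact ⟨⟨z, hz⟩, 0, by simp⟩
        · rw [Set.mem_singleton_iff] at hz
          subst hz
          exact ⟨1, 1, by simp⟩
      | one => exact ⟨1, 0, by simp⟩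
      | mul z w _ _ hz hw =>
        obtain ⟨k, n, rfl⟩ := hz
        obtain ⟨k', n', rfl⟩ := hw
        refine ⟨k * k', n + n', ?_⟩
        have : ((k * k' : K) : E) = k * k' := rfl
        rw [this, pow_add]
        calc (k : E) * x ^ n * (k' * x ^ n') = k * (x ^ n * k') * x ^ n' := by noncomm_ring
          _ = _ := by rw [hcp]; noncomm_ring
    let K' : Subring E := Subring.closure ((K : Set E) ∪ {x})
    have hK'J : ∀ y ∈ K', y ∈ J := by
      intro y hy
      have hy2 := Subring.mem_closure_iff.mp hy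
      have : AddSubgroup.closure (↑(Submonoid.closure ((K : Set E) ∪ {x})) : Set E) ≤ J := by
        rw [AddSubgroup.closure_le]
        intro z hz
        exact hMJ z (hMmul z hz)
      exact this hy2
    have hgen : ∀ y ∈ (K : Set E) ∪ {x}, ∀ z ∈ (K : Set E) ∪ {x}, y * z = z * y := by
      rintro y (hy | hy) z (hz | hz)
      · exact hKc y hy z hz
      · rw [Set.mem_singleton_iff.mp hz]; exact (hcomm ⟨y, hy⟩).symm
      · rw [Set.mem_singleton_iff.mp hy]; exact hcomm ⟨z, hz⟩
      · rw [Set.mem_singleton_iff.mp hy, Set.mem_singleton_iff.mp hz]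
    have hK'c : ∀ y ∈ K', ∀ z ∈ K', y * z = z * y := by
      intro y hy z hz
      have h1 : K' ≤ Subring.centralizer (K' : Set E) := by
        have h3 : K' ≤ Subring.centralizer ((K : Set E) ∪ {x}) := by
          refine Subring.closure_le.mpr ?_
          intro w hw
          rw [SetLike.mem_coe, Subring.mem_centralizer_iff]
          intro u hu
          exact hgen u hu w hw
        refine Subring.closure_le.mpr ?_
        intro w hw
        rw [SetLike.mem_coe, Subring.mem_centralizer_iff]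
        intro u hu
        have := h3 hu
        rw [Subring.mem_centralizer_iff] at this
        exact (this w hw).symm
      have := h1 hy
      rw [Subring.mem_centralizer_iff] at this
      exact (this z hz).symm
    have hle : K ≤ K' := fun y hy => Subring.subset_closure (Or.inl hy)
    have := hKmax (show K' ∈ S from ⟨hK'J, hK'c⟩) hle
    exact ⟨⟨x, this (Subring.subset_closure (Or.inr rfl))⟩, rfl⟩
  have hJK : ∀ y ∈ J, y ∈ K := by
    intro y hy
    haveI := charP_two h2 f
    haveI : Fintype (K ≃+* K) := Fintype.ofFinite _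
    have h3 := sum_pr (f := f) y
    rw [Finset.sum_eq_single (1 : K ≃+* K)] at h3
    · have h4 : Deg f 1 y := by rw [← h3]; exact deg_pr _ _
      obtain ⟨a, ha⟩ := hmax y hy h4
      rw [← ha]; exact a.2
    · intro σ _ hσ
      exact pr_zero_of_ne hJ h2 hfJ hmax hσ hy
    · intro h; exact absurd (Finset.mem_univ _) h
  exact ⟨fun x hx y hy => hKc x (hJK x hx) y (hJK y hy),
    fun x hx y hy => hKJ _ (K.mul_mem (hJK x hx) (hJK y hy))⟩

end main

end Cfsg.Agent.Lib.H32JD
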