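import Mathlib
import Cfsg.Agent.Lib.H32JD5
import Cfsg.Agent.Lib.SL2RankOne

set_option autoImplicit false

namespace Cfsg.Agent.Lib.H32JDSL

open Cfsg.Agent.Lib.H32JD Cfsg.Agent.Lib.SL2RankOne Matrix

/-- the field -/
theorem exists_field {A : Type*} [AddCommGroup A] [Finite A] [Nontrivial A] (hA2 : ∀ a : A, a + a = 0)
    (J : AddSubgroup (AddMonoid.End A)) (hJ : IsJD J) (hcard : Nat.card J = Nat.card A) :
    ∃ (F : Type) (_ : Field F) (_ : Fintype F) (ι : F →+* AddMonoid.End A) (η : F ≃+ A),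
      Fintype.card F = Nat.card A ∧ (∀ φ, φ ∈ J ↔ ∃ t, ι t = φ) ∧
      (∀ s t, (ι s) (η t) = η (s * t)) := by
  classical
  have h2 : ∀ x : AddMonoid.End A, x + x = 0 := by
    intro x; ext a; exact hA2 (x a)
  haveI : Nontrivial (AddMonoid.End A) := by
    obtain ⟨a, ha⟩ := exists_ne (0 : A)
    refine ⟨⟨0, 1, fun h => ha ?_⟩⟩
    have := DFunLike.congr_fun h a
    exact this.symm
  haveI : Finite (AddMonoid.End A) := Finite.of_injective (fun f : AddMonoid.End A => (f : A → A))
    DFunLike.coe_injective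
  obtain ⟨hcomm, hmul⟩ := main hJ h2
  let K : Subring (AddMonoid.End A) :=
    { carrier := J
      mul_mem' := fun {x y} hx hy => hmul x hx y hy
      one_mem' := hJ.one_mem
      add_mem' := fun hx hy => J.add_mem hx hy
      zero_mem' := J.zero_mem
      neg_mem' := fun hx => J.neg_mem hx }
  letI cr : CommRing K := { (inferInstance : Ring K) with
    mul_comm := fun x y => Subtype.ext (hcomm x x.2 y y.2) }
  haveI hnt : Nontrivial K := ⟨⟨0, 1, fun h => zero_ne_one (congrArg Subtype.val h)⟩⟩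
  have hisf : IsField K :=
    { exists_pair_ne := ⟨0, 1, zero_ne_one⟩
      mul_comm := mul_comm
      mul_inv_cancel := by
        intro x hne
        obtain ⟨y, hy, hxy, -⟩ := hJ.inv x x.2 (fun h => hne (Subtype.ext h))
        exact ⟨⟨y, hy⟩, Subtype.ext hxy⟩ }
  letI fl : Field K := hisf.toField
  haveI : Fintype K := Fintype.ofFinite K
  haveI : CharP K 2 := charP_two h2 K.subtype
  obtain ⟨n, -, hn⟩ := FiniteField.card K 2
  haveI : Fintype (GaloisField 2 n) := Fintype.ofFinite _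
  have hcardF : Fintype.card (GaloisField 2 n) = Fintype.card K := by
    rw [← Nat.card_eq_fintype_card, GaloisField.card 2 n n.ne_zero, hn]
  let e : GaloisField 2 n ≃+* K := FiniteField.ringEquivOfCardEq hcardF
  have hKA : Nat.card K = Nat.card A := hcard
  obtain ⟨a0, ha0⟩ := exists_ne (0 : A)
  let g : GaloisField 2 n →+ A :=
    { toFun := fun t => ((e t : K) : AddMonoid.End A) a0
      map_zero' := by rw [map_zero]; rfl
      map_add' := by intro s t; rw [map_add]; rfl }
  have hg : ∀ t, g t = ((e t : K) : AddMonoid.End A) a0 := fun t => rfl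
  have hginj : Function.Injective g := by
    rw [injective_iff_map_eq_zero]
    intro t ht
    by_contra ht0
    have h3 : ((e t : K) : AddMonoid.End A) ≠ 0 := by
      intro h
      exact ht0 (by simpa using (Subtype.ext h : e t = 0))
    obtain ⟨y, -, -, hy⟩ := hJ.inv _ (e t).2 h3
    have h4 : (y * ((e t : K) : AddMonoid.End A)) a0 = a0 := by rw [hy]; rfl
    have h5 : (y * ((e t : K) : AddMonoid.End A)) a0 = y (((e t : K) : AddMonoid.End A) a0) := rfl
    rw [h5, ← hg, ht, map_zero] at h4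
    exact ha0 h4.symm
  have hgbij : Function.Bijective g := by
    refine (Nat.bijective_iff_injective_and_card g).mpr ⟨hginj, ?_⟩
    rw [Nat.card_eq_fintype_card, hcardF, ← Nat.card_eq_fintype_card, hKA]
  refine ⟨GaloisField 2 n, inferInstance, inferInstance, K.subtype.comp e.toRingHom,
    AddEquiv.ofBijective g hgbij, ?_, ?_, ?_⟩
  · rw [hcardF, ← Nat.card_eq_fintype_card, hKA]
  · intro φ
    constructor
    · intro hφ
      refine ⟨e.symm ⟨φ, hφ⟩, ?_⟩
      show ((e (e.symm ⟨φ, hφ⟩) : K) : AddMonoid.End A) = φ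
      rw [e.apply_symm_apply]
    · rintro ⟨t, rfl⟩
      exact (e t).2
  · intro s t
    show ((e s : K) : AddMonoid.End A) (g t) = g (s * t)
    rw [hg, hg, map_mul]; rfl

/-- matrices acting on `A × A` -/
def matAct {A : Type*} [AddCommGroup A] {F : Type*} [Field F] (η : F ≃+ A) :
    SpecialLinearGroup (Fin 2) F →* AddMonoid.End (A × A) where
  toFun m :=
    { toFun := fun p => (η (m.1 0 0 * η.symm p.1 + m.1 0 1 * η.symm p.2),
        η (m.1 1 0 * η.symm p.1 + m.1 1 1 * η.symm p.2))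
      map_zero' := by simp
      map_add' := by
        intro p q
        simp only [Prod.fst_add, Prod.snd_add, map_add, mul_add]
        ext
        · simp only [Prod.fst_add]
          abel
        · simp only [Prod.snd_add]
          abel }
  map_one' := by
    apply DFunLike.ext
    intro p
    show (η ((1 : SpecialLinearGroup (Fin 2) F).1 0 0 * η.symm p.1
          + (1 : SpecialLinearGroup (Fin 2) F).1 0 1 * η.symm p.2),
        η ((1 : SpecialLinearGroup (Fin 2) F).1 1 0 * η.symm p.1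
          + (1 : SpecialLinearGroup (Fin 2) F).1 1 1 * η.symm p.2)) = p
    simp
  map_mul' := by
    intro m n
    apply DFunLike.ext
    intro p
    show (η ((m * n).1 0 0 * η.symm p.1 + (m * n).1 0 1 * η.symm p.2),
        η ((m * n).1 1 0 * η.symm p.1 + (m * n).1 1 1 * η.symm p.2)) =
      (η (m.1 0 0 * η.symm (η (n.1 0 0 * η.symm p.1 + n.1 0 1 * η.symm p.2))
          + m.1 0 1 * η.symm (η (n.1 1 0 * η.symm p.1 + n.1 1 1 * η.symm p.2))),
        η (m.1 1 0 * η.symm (η (n.1 0 0 * η.symm p.1 + n.1 0 1 * η.symm p.2))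
          + m.1 1 1 * η.symm (η (n.1 1 0 * η.symm p.1 + n.1 1 1 * η.symm p.2))))
    simp only [AddEquiv.symm_apply_apply, mul_00, mul_01, mul_10, mul_11]
    congr 2 <;> ring

theorem matAct_apply {A : Type*} [AddCommGroup A] {F : Type*} [Field F] (η : F ≃+ A)
    (m : SpecialLinearGroup (Fin 2) F) (x y : A) :
    matAct η m (x, y) = (η (m.1 0 0 * η.symm x + m.1 0 1 * η.symm y),
        η (m.1 1 0 * η.symm x + m.1 1 1 * η.symm y)) := rfl

theorem matAct_inj {A : Type*} [AddCommGroup A] {F : Type*} [Field F] (η : F ≃+ A) :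
    Function.Injective (matAct η) := by
  intro m n h
  have h1 := DFunLike.congr_fun h (η 1, 0)
  have h2 := DFunLike.congr_fun h (0, η 1)
  rw [matAct_apply, matAct_apply] at h1 h2
  simp only [map_zero, mul_zero, add_zero, zero_add, AddEquiv.symm_apply_apply, mul_one,
    Prod.mk.injEq, EmbeddingLike.apply_eq_iff_eq] at h1 h2
  exact sl_ext h1.1 h2.1 h1.2 h2.2

/-- identification of a group acting on `A × A` and generated by shears -/
theorem sl2 {A : Type*} [AddCommGroup A] [Finite A] [Nontrivial A] (hA2 : ∀ a : A, a + a = 0)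
    (J : AddSubgroup (AddMonoid.End A)) (hJ : IsJD J) (hcard : Nat.card J = Nat.card A)
    {H : Type*} [Group H] (ρ : H →* AddMonoid.End (A × A)) (S₁ S₂ : Set H)
    (hgen : Subgroup.closure (S₁ ∪ S₂) = ⊤)
    (h1 : ∀ h ∈ S₁, ∃ φ ∈ J, ∀ x y, ρ h (x, y) = (x + φ y, y))
    (h1' : ∀ φ ∈ J, ∃ h ∈ S₁, ∀ x y, ρ h (x, y) = (x + φ y, y))
    (h2 : ∀ h ∈ S₂, ∃ φ ∈ J, ∀ x y, ρ h (x, y) = (x, y + φ x))
    (h2' : ∀ φ ∈ J, ∃ h ∈ S₂, ∀ x y, ρ h (x, y) = (x, y + φ x)) :
    ∃ (F : Type) (_ : Field F) (_ : Fintype F), Fintype.card F = Nat.card A ∧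
      (∃ Θ : H →* SpecialLinearGroup (Fin 2) F, Function.Surjective Θ ∧ ∀ h, Θ h = 1 ↔ ρ h = 1) ∧
      ∀ x y : A, x ≠ 0 → y ≠ 0 → ∃ h : H, (∀ a, (ρ h (a, 0)).2 = 0) ∧ ρ h (x, 0) = (y, 0) := by
  classical
  obtain ⟨F, fF, ftF, ι, η, hcF, hι, hη⟩ := exists_field hA2 J hJ hcard
  have hup : ∀ t : F, ∀ x y, matAct η (up t) (x, y) = (x + ι t y, y) := by
    intro t x y
    rw [matAct_apply]
    have e : ι t y = η (t * η.symm y) := by rw [← hη, AddEquiv.apply_symm_apply]
    simp only [up_00, up_01, up_10, up_11, one_mul, zero_mul, zero_add, map_add,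
      AddEquiv.apply_symm_apply]
    rw [e]
  have hlo : ∀ t : F, ∀ x y, matAct η (lo t) (x, y) = (x, y + ι t x) := by
    intro t x y
    rw [matAct_apply]
    have e : ι t x = η (t * η.symm x) := by rw [← hη, AddEquiv.apply_symm_apply]
    simp only [lo_00, lo_01, lo_10, lo_11, one_mul, zero_mul, add_zero, map_add,
      AddEquiv.apply_symm_apply]
    rw [e, add_comm]
  -- each `ρ h` is in the range of `matAct`
  have hex : ∀ h : H, ∃ m, matAct η m = ρ h := by
    intro h
    have hh : h ∈ Subgroup.closure (S₁ ∪ S₂) := by rw [hgen]; trivial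
    induction hh using Subgroup.closure_induction with
    | mem x hx =>
      rcases hx with hx | hx
      · obtain ⟨φ, hφ, hφ2⟩ := h1 x hx
        obtain ⟨t, rfl⟩ := (hι φ).mp hφ
        refine ⟨up t, ?_⟩
        apply DFunLike.ext
        rintro ⟨a, b⟩
        rw [hup, hφ2]
      · obtain ⟨φ, hφ, hφ2⟩ := h2 x hx
        obtain ⟨t, rfl⟩ := (hι φ).mp hφ
        refine ⟨lo t, ?_⟩
        apply DFunLike.ext
        rintro ⟨a, b⟩
        rw [hlo, hφ2]
    | one => exact ⟨1, by rw [map_one, map_one]⟩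
    | mul x y _ _ hx hy =>
      obtain ⟨m, hm⟩ := hx
      obtain ⟨n, hn⟩ := hy
      exact ⟨m * n, by rw [map_mul, map_mul, hm, hn]⟩
    | inv x _ hx =>
      obtain ⟨m, hm⟩ := hx
      refine ⟨m⁻¹, ?_⟩
      have e1 : matAct η m⁻¹ * matAct η m = 1 := by rw [← map_mul, inv_mul_cancel, map_one]
      have e2 : ρ x * ρ x⁻¹ = 1 := by rw [← map_mul, mul_inv_cancel, map_one]
      calc matAct η m⁻¹ = matAct η m⁻¹ * (ρ x * ρ x⁻¹) := by rw [e2, mul_one]
        _ = (matAct η m⁻¹ * matAct η m) * ρ x⁻¹ := by rw [hm, mul_assoc]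
        _ = ρ x⁻¹ := by rw [e1, one_mul]
  choose Θ0 hΘ0 using hex
  let Θ : H →* SpecialLinearGroup (Fin 2) F :=
    { toFun := Θ0
      map_one' := by
        apply matAct_inj η
        rw [hΘ0, map_one, map_one]
      map_mul' := by
        intro x y
        apply matAct_inj η
        rw [hΘ0, map_mul, map_mul, hΘ0, hΘ0] }
  have hΘ : ∀ h, matAct η (Θ h) = ρ h := hΘ0
  have hsurj : Function.Surjective Θ := by
    rw [← MonoidHom.range_eq_top, eq_top_iff, ← sup_eq_top, sup_le_iff]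
    constructor
    · intro m hm
      obtain ⟨t, rfl⟩ := mem_lower.1 hm
      obtain ⟨h, -, hh⟩ := h2' (ι t) ((hι _).mpr ⟨t, rfl⟩)
      refine ⟨h, ?_⟩
      apply matAct_inj η
      rw [hΘ]
      apply DFunLike.ext
      rintro ⟨a, b⟩
      rw [hlo, hh]
    · intro m hm
      obtain ⟨t, rfl⟩ := mem_upper.1 hm
      obtain ⟨h, -, hh⟩ := h1' (ι t) ((hι _).mpr ⟨t, rfl⟩)
      refine ⟨h, ?_⟩
      apply matAct_inj η
      rw [hΘ]
      apply DFunLike.ext
      rintro ⟨a, b⟩
      rw [hup, hh]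
  refine ⟨F, fF, ftF, hcF, ⟨Θ, hsurj, ?_⟩, ?_⟩
  · intro h
    constructor
    · intro h3
      rw [← hΘ, h3, map_one]
    · intro h3
      apply matAct_inj η
      rw [hΘ, h3, map_one]
  · intro x y hx hy
    have hx' : η.symm x ≠ 0 := by simpa using hx
    have hy' : η.symm y ≠ 0 := by simpa using hy
    let t : F := η.symm y / η.symm x
    have ht : t ≠ 0 := div_ne_zero hy' hx'
    let m : SpecialLinearGroup (Fin 2) F := ⟨!![t, 0; 0, t⁻¹], by
      simp [Matrix.det_fin_two, ht]⟩
    obtain ⟨h, hh⟩ := hsurj m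
    refine ⟨h, ?_, ?_⟩
    · intro a
      rw [← hΘ, hh, matAct_apply]
      simp [m]
    · rw [← hΘ, hh, matAct_apply]
      simp only [m, map_zero, mul_zero, add_zero]
      simp [t, hx']

end Cfsg.Agent.Lib.H32JDSL
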