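import Mathlib
import Cfsg.Agent.Lib.H32PGroup

set_option autoImplicit false

namespace Cfsg.Agent.Lib.H32TI

open Subgroup

variable {G : Type*} [Group G]

/-- conjugate subgroup -/
def cj (x : G) (V : Subgroup G) : Subgroup G := V.map (MulAut.conj x).toMonoidHom

theorem mem_cj {x y : G} {V : Subgroup G} : y ∈ cj x V ↔ x⁻¹ * y * x ∈ V := by
  constructor
  · rintro ⟨v, hv, rfl⟩
    have : x⁻¹ * (MulAut.conj x).toMonoidHom v * x = v := by
      show x⁻¹ * (x * v * x⁻¹) * x = v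
      group
    rw [this]; exact hv
  · intro h
    exact ⟨_, h, by show x * (x⁻¹ * y * x) * x⁻¹ = y; group⟩

theorem conj_mem_cj {x v : G} {V : Subgroup G} (hv : v ∈ V) : x * v * x⁻¹ ∈ cj x V := ⟨v, hv, rfl⟩

theorem exists_of_mem_cj {x y : G} {V : Subgroup G} (h : y ∈ cj x V) : ∃ v ∈ V, y = x * v * x⁻¹ := by
  obtain ⟨v, hv, rfl⟩ := h
  exact ⟨v, hv, rfl⟩

theorem cj_one (V : Subgroup G) : cj 1 V = V := by
  ext y; rw [mem_cj]; simp

theorem cj_mul (x y : G) (V : Subgroup G) : cj (x * y) V = cj x (cj y V) := by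
  ext z; rw [mem_cj, mem_cj, mem_cj]
  have : (x * y)⁻¹ * z * (x * y) = y⁻¹ * (x⁻¹ * z * x) * y := by group
  rw [this]

theorem cj_inv_cj (x : G) (V : Subgroup G) : cj x⁻¹ (cj x V) = V := by
  rw [← cj_mul, inv_mul_cancel, cj_one]

theorem cj_cj_inv (x : G) (V : Subgroup G) : cj x (cj x⁻¹ V) = V := by
  rw [← cj_mul, mul_inv_cancel, cj_one]

theorem cj_mono {x : G} {V W : Subgroup G} (h : V ≤ W) : cj x V ≤ cj x W := Subgroup.map_mono h

theorem cj_le_iff {x : G} {V W : Subgroup G} : cj x V ≤ cj x W ↔ V ≤ W := by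
  constructor
  · intro h
    have := cj_mono (x := x⁻¹) h
    rwa [cj_inv_cj, cj_inv_cj] at this
  · exact cj_mono

theorem cj_inj {x : G} {V W : Subgroup G} : cj x V = cj x W ↔ V = W := by
  constructor
  · intro h
    have := congrArg (cj x⁻¹) h
    rwa [cj_inv_cj, cj_inv_cj] at this
  · rintro rfl; rfl

theorem cj_sup (x : G) (V W : Subgroup G) : cj x (V ⊔ W) = cj x V ⊔ cj x W := Subgroup.map_sup _ _ _

theorem cj_inf (x : G) (V W : Subgroup G) : cj x (V ⊓ W) = cj x V ⊓ cj x W :=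
  Subgroup.map_inf _ _ _ (MulAut.conj x).injective

theorem cj_bot (x : G) : cj x (⊥ : Subgroup G) = ⊥ := Subgroup.map_bot _

theorem card_cj (x : G) (V : Subgroup G) : Nat.card (cj x V) = Nat.card V :=
  Subgroup.card_map_of_injective (MulAut.conj x).injective

theorem mem_normalizer_iff_cj {x : G} {V : Subgroup G} : x ∈ normalizer (V : Set G) ↔ cj x V = V := by
  rw [Subgroup.mem_normalizer_iff]
  constructor
  · intro h
    ext y
    rw [mem_cj]
    have := h (x⁻¹ * y * x)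
    rw [this]
    have e : x * (x⁻¹ * y * x) * x⁻¹ = y := by group
    rw [e]
  · intro h y
    constructor
    · intro hy
      rw [← h]; exact conj_mem_cj hy
    · intro hy
      rw [← h, mem_cj] at hy
      have e : x⁻¹ * (x * y * x⁻¹) * x = y := by group
      rwa [e] at hy

theorem cj_eq_inv {x : G} {V : Subgroup G} (h : cj x V = V) : cj x⁻¹ V = V := by
  nth_rewrite 1 [← h]
  exact cj_inv_cj x V

theorem cj_eq_of_mem {x : G} {V : Subgroup G} (h : x ∈ V) : cj x V = V :=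
  mem_normalizer_iff_cj.mp (Subgroup.le_normalizer h)

theorem eq_of_le_card [Finite G] {X Y : Subgroup G} (h : X ≤ Y) (hc : Nat.card Y ≤ Nat.card X) :
    X = Y := Subgroup.eq_of_le_of_card_ge h hc

theorem cj_eq_of_le [Finite G] {x : G} {V : Subgroup G} (h : cj x V ≤ V) : cj x V = V :=
  eq_of_le_card h (by rw [card_cj])

theorem conj_mem_of_cj {x v : G} {V : Subgroup G} (h : cj x V = V) (hv : v ∈ V) :
    x * v * x⁻¹ ∈ V := by
  have := conj_mem_cj (x := x) hv
  rwa [h] at this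

/-- the hypotheses on `V`, `Q = O_2(N(V))` -/
structure Setup (V Q : Subgroup G) : Prop where
  sq : ∀ v ∈ V, v * v = 1
  ab : ∀ v ∈ V, ∀ w ∈ V, v * w = w * v
  ti : ∀ x : G, cj x V = V ∨ cj x V ⊓ V = ⊥
  Qle : ∀ q ∈ Q, cj q V = V
  Qn : ∀ m : G, cj m V = V → cj m Q = Q
  Qp : IsPGroup 2 Q
  Qmax : ∀ D : Subgroup G, (∀ d ∈ D, cj d V = V) → (∀ m : G, cj m V = V → cj m D = D) →
    IsPGroup 2 D → D ≤ Q
  Qc : ∀ x : G, cj x V = V → (∀ q ∈ Q, x * q = q * x) → x ∈ Q
  mx : ∀ A : Subgroup G, V ≤ A → (∀ a ∈ A, cj a V = V) → (∀ a ∈ A, ∀ b ∈ A, a * b = b * a) →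
    (∀ m : G, cj m V = V → cj m A = A) → A = V

theorem Setup.conj {V Q : Subgroup G} (S : Setup V Q) (g : G) : Setup (cj g V) (cj g Q) where
  sq := by
    intro v hv
    obtain ⟨w, hw, rfl⟩ := exists_of_mem_cj hv
    have : g * w * g⁻¹ * (g * w * g⁻¹) = g * (w * w) * g⁻¹ := by group
    rw [this, S.sq w hw]; group
  ab := by
    intro v hv w hw
    obtain ⟨v, hv', rfl⟩ := exists_of_mem_cj hv
    obtain ⟨w, hw', rfl⟩ := exists_of_mem_cj hw
    have h1 : g * v * g⁻¹ * (g * w * g⁻¹) = g * (v * w) * g⁻¹ := by group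
    have h2 : g * w * g⁻¹ * (g * v * g⁻¹) = g * (w * v) * g⁻¹ := by group
    rw [h1, h2, S.ab v hv' w hw']
  ti := by
    intro x
    have e : cj x (cj g V) = cj g (cj (g⁻¹ * x * g) V) := by
      rw [← cj_mul, ← cj_mul]; congr 1; group
    rcases S.ti (g⁻¹ * x * g) with h | h
    · left; rw [e, h]
    · right; rw [e, ← cj_inf, h, cj_bot]
  Qle := by
    intro q hq
    obtain ⟨q, hq', rfl⟩ := exists_of_mem_cj hq
    rw [← cj_mul]
    have : g * q * g⁻¹ * g = g * q := by group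
    rw [this, cj_mul, S.Qle q hq']
  Qn := by
    intro m hm
    have h1 : cj (g⁻¹ * m * g) V = V := by
      rw [cj_mul, cj_mul, hm, cj_inv_cj]
    have h2 := S.Qn _ h1
    rw [cj_mul, cj_mul] at h2
    rw [← cj_inj (x := g⁻¹), h2, cj_inv_cj]
  Qp := S.Qp.map _
  Qmax := by
    intro D hD1 hD2 hD3
    have h1 : cj g⁻¹ D ≤ Q := by
      apply S.Qmax
      · intro d hd
        rw [mem_cj, inv_inv] at hd
        have := hD1 _ hd
        rw [← cj_mul] at this
        have e : g * d * g⁻¹ * g = g * d := by group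
        rw [e, cj_mul, cj_inj] at this
        exact this
      · intro m hm
        have h3 : cj (g * m * g⁻¹) (cj g V) = cj g V := by
          rw [← cj_mul]
          have e : g * m * g⁻¹ * g = g * m := by group
          rw [e, cj_mul, hm]
        have h4 := hD2 _ h3
        rw [cj_mul, cj_mul] at h4
        rw [← cj_inj (x := g), h4, cj_cj_inv]
      · exact hD3.map _
    have := cj_mono (x := g) h1
    rwa [cj_cj_inv] at this
  Qc := by
    intro x hx hq
    rw [mem_cj]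
    apply S.Qc
    · rw [cj_mul, cj_mul, hx, cj_inv_cj]
    · intro q hq'
      have := hq _ (conj_mem_cj (x := g) hq')
      have e1 : g⁻¹ * x * g * q = g⁻¹ * (x * (g * q * g⁻¹)) * g := by group
      have e2 : q * (g⁻¹ * x * g) = g⁻¹ * ((g * q * g⁻¹) * x) * g := by group
      rw [e1, this, ← e2]
  mx := by
    intro A hVA hA1 hA2 hA3
    have h1 : cj g⁻¹ A = V := by
      apply S.mx
      · have := cj_mono (x := g⁻¹) hVA
        rwa [cj_inv_cj] at this
      · intro d hd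
        rw [mem_cj, inv_inv] at hd
        have := hA1 _ hd
        rw [← cj_mul] at this
        have e : g * d * g⁻¹ * g = g * d := by group
        rw [e, cj_mul, cj_inj] at this
        exact this
      · intro a ha b hb
        rw [mem_cj, inv_inv] at ha hb
        have := hA2 _ ha _ hb
        have e1 : a * b = g⁻¹ * ((g * a * g⁻¹) * (g * b * g⁻¹)) * g := by group
        have e2 : b * a = g⁻¹ * ((g * b * g⁻¹) * (g * a * g⁻¹)) * g := by group
        rw [e1, this, ← e2]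
      · intro m hm
        have h3 : cj (g * m * g⁻¹) (cj g V) = cj g V := by
          rw [← cj_mul]
          have e : g * m * g⁻¹ * g = g * m := by group
          rw [e, cj_mul, hm]
        have h4 := hA3 _ h3
        rw [cj_mul, cj_mul] at h4
        rw [← cj_inj (x := g), h4, cj_cj_inv]
    rw [← h1, cj_cj_inv]

namespace Setup

variable {V Q : Subgroup G} (S : Setup V Q)
include S

theorem inv_eq {v : G} (hv : v ∈ V) : v⁻¹ = v := by
  rw [inv_eq_iff_mul_eq_one]; exact S.sq v hv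

/-- conjugates of `V` sharing a nontrivial element coincide -/
theorem cj_eq_of_mem {x y a : G} (hx : a ∈ cj x V) (hy : a ∈ cj y V) (ha : a ≠ 1) :
    cj x V = cj y V := by
  rcases S.ti (y⁻¹ * x) with h | h
  · rw [← cj_inj (x := y⁻¹), ← cj_mul, h, cj_inv_cj]
  · exfalso
    apply ha
    have h1 : y⁻¹ * a * y ∈ cj (y⁻¹ * x) V ⊓ V := by
      refine Subgroup.mem_inf.mpr ⟨?_, mem_cj.mp hy⟩
      rw [mem_cj]
      have e : (y⁻¹ * x)⁻¹ * (y⁻¹ * a * y) * (y⁻¹ * x) = x⁻¹ * a * x := by group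
      rw [e]; exact mem_cj.mp hx
    rw [h, mem_bot] at h1
    calc a = y * (y⁻¹ * a * y) * y⁻¹ := by group
      _ = 1 := by rw [h1]; group

theorem cj_eq_self {x a : G} (hx : a ∈ cj x V) (hy : a ∈ V) (ha : a ≠ 1) : cj x V = V := by
  have := S.cj_eq_of_mem hx (y := 1) (by rwa [cj_one]) ha
  rwa [cj_one] at this

/-- an element commuting with a nontrivial element of `V` normalizes `V` -/
theorem cj_eq_of_comm {y a : G} (ha : a ∈ V) (ha1 : a ≠ 1) (h : y * a = a * y) : cj y V = V := by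
  refine S.cj_eq_self (a := a) ?_ ha ha1
  rw [mem_cj, mul_assoc, ← h]
  have : y⁻¹ * (y * a) = a := by group
  rw [this]; exact ha

/-- L1: if a conjugate of `V` is normalized by the conjugate `Y` of `V`, they commute -/
theorem commute_of_normalizes [Finite G] {x y : G} (hY : ∀ b ∈ cj y V, cj b (cj x V) = cj x V) :
    ∀ a ∈ cj x V, ∀ b ∈ cj y V, a * b = b * a := by
  classical
  by_cases hne : cj x V = cj y V
  · rw [hne]; exact (S.conj y).ab
  have hXY : ∀ c, c ∈ cj x V → c ∈ cj y V → c = 1 := by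
    intro c h1 h2
    by_contra hc
    exact hne (S.cj_eq_of_mem h1 h2 hc)
  have SX := S.conj x
  have SY := S.conj y
  by_contra hcon
  push Not at hcon
  obtain ⟨a, ha, b, hb, hab⟩ := hcon
  have hYX : ∀ c ∈ cj y V, ∀ d ∈ cj x V, c * d * c⁻¹ ∈ cj x V := fun c hc d hd =>
    conj_mem_of_cj (hY c hc) hd
  -- `[a, c]` centralizes `Y`
  have key : ∀ c ∈ cj y V, a * c * a⁻¹ * c⁻¹ ∈ cj x V ∧
      ∀ d ∈ cj y V, (a * c * a⁻¹ * c⁻¹) * d = d * (a * c * a⁻¹ * c⁻¹) := by
    intro c hc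
    have h1 : c * a⁻¹ * c⁻¹ ∈ cj x V := hYX c hc _ ((cj x V).inv_mem ha)
    have hmem : a * c * a⁻¹ * c⁻¹ ∈ cj x V := by
      have e : a * c * a⁻¹ * c⁻¹ = a * (c * a⁻¹ * c⁻¹) := by group
      rw [e]; exact (cj x V).mul_mem ha h1
    refine ⟨hmem, ?_⟩
    by_cases hc1 : c = 1
    · subst hc1; intro d _; simp
    have hcc : c⁻¹ = c := SY.inv_eq hc
    have haa : a⁻¹ = a := SX.inv_eq ha
    have hcomm : c * (a * c * a⁻¹ * c⁻¹) = (a * c * a⁻¹ * c⁻¹) * c := by
      have h2 := SX.ab _ ha _ h1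
      have hc2 : c * c = 1 := SY.sq c hc
      rw [haa] at h2 ⊢
      rw [hcc] at h2 ⊢
      calc c * (a * c * a * c) = (c * a * c) * a * c := by group
        _ = a * (c * a * c) * c := by rw [h2]
        _ = (a * c * a * c) * c := by group
    have hnorm : cj (a * c * a⁻¹ * c⁻¹) (cj y V) = cj y V := by
      refine SY.cj_eq_of_comm hc hc1 hcomm.symm
    intro d hd
    have h3 : (a * c * a⁻¹ * c⁻¹) * d * (a * c * a⁻¹ * c⁻¹)⁻¹ * d⁻¹ = 1 := by
      apply hXY
      · have e : (a * c * a⁻¹ * c⁻¹) * d * (a * c * a⁻¹ * c⁻¹)⁻¹ * d⁻¹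
            = (a * c * a⁻¹ * c⁻¹) * (d * (a * c * a⁻¹ * c⁻¹)⁻¹ * d⁻¹) := by group
        rw [e]
        exact (cj x V).mul_mem hmem (hYX d hd _ ((cj x V).inv_mem hmem))
      · exact (cj y V).mul_mem (conj_mem_of_cj hnorm hd) ((cj y V).inv_mem hd)
    calc (a * c * a⁻¹ * c⁻¹) * d
        = ((a * c * a⁻¹ * c⁻¹) * d * (a * c * a⁻¹ * c⁻¹)⁻¹ * d⁻¹) * d * (a * c * a⁻¹ * c⁻¹) := by
          group
      _ = _ := by rw [h3, one_mul]
  let S0 : Set G := {c | c ∈ cj x V ∧ ∀ d ∈ cj y V, c * d = d * c}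
  let φ : cj y V → S0 := fun c => ⟨a * c * a⁻¹ * (c : G)⁻¹, key c c.2⟩
  have hφ : Function.Injective φ := by
    intro c d h
    have h1 : a * c * a⁻¹ * (c : G)⁻¹ = a * d * a⁻¹ * (d : G)⁻¹ := congrArg Subtype.val h
    by_contra hcd
    have hcd' : (d : G)⁻¹ * c ≠ 1 := by
      intro h2
      apply hcd
      apply Subtype.ext
      calc (c : G) = d * ((d : G)⁻¹ * c) := by group
        _ = d := by rw [h2, mul_one]
    have hmem : (d : G)⁻¹ * c ∈ cj y V := (cj y V).mul_mem ((cj y V).inv_mem d.2) c.2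
    have hcomm : a * ((d : G)⁻¹ * c) = ((d : G)⁻¹ * c) * a := by
      have h2 : c * a⁻¹ * (c : G)⁻¹ = d * a⁻¹ * (d : G)⁻¹ := by
        calc c * a⁻¹ * (c : G)⁻¹ = a⁻¹ * (a * c * a⁻¹ * (c : G)⁻¹) := by group
          _ = d * a⁻¹ * (d : G)⁻¹ := by rw [h1]; group
      have h3 : ((d : G)⁻¹ * c) * a⁻¹ = a⁻¹ * ((d : G)⁻¹ * c) := by
        calc ((d : G)⁻¹ * c) * a⁻¹ = (d : G)⁻¹ * (c * a⁻¹ * (c : G)⁻¹) * c := by group
          _ = a⁻¹ * ((d : G)⁻¹ * c) := by rw [h2]; group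
      calc a * ((d : G)⁻¹ * c) = a * (((d : G)⁻¹ * c) * a⁻¹) * a := by group
        _ = _ := by rw [h3]; group
    have hnorm : cj a (cj y V) = cj y V := SY.cj_eq_of_comm hmem hcd' hcomm
    apply hab
    have h3 : a * b * a⁻¹ * b⁻¹ = 1 := by
      apply hXY
      · exact (key b hb).1
      · exact (cj y V).mul_mem (conj_mem_of_cj hnorm hb) ((cj y V).inv_mem hb)
    calc a * b = (a * b * a⁻¹ * b⁻¹) * (b * a) := by group
      _ = b * a := by rw [h3, one_mul]
  have hS0 : S0 ⊆ (cj x V : Set G) := fun c hc => hc.1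
  have hcard : Nat.card (cj x V) ≤ Nat.card S0 := by
    calc Nat.card (cj x V) = Nat.card (cj y V) := by rw [card_cj, card_cj]
      _ ≤ Nat.card S0 := Nat.card_le_card_of_injective φ hφ
  have heq : S0 = (cj x V : Set G) := by
    apply Set.eq_of_subset_of_ncard_le hS0
    · exact hcard
  have : a ∈ S0 := by rw [heq]; exact ha
  exact hab (this.2 b hb)

end Setup

end Cfsg.Agent.Lib.H32TI
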