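import Mathlib
import Cfsg.Agent.Lib.H32TI1

set_option autoImplicit false

namespace Cfsg.Agent.Lib.H32TI

open Subgroup

variable {G : Type*} [Group G]

/-- product of commuting subgroups -/
theorem mem_sup_comm {A B : Subgroup G} (h : ∀ a ∈ A, ∀ b ∈ B, a * b = b * a) {x : G} :
    x ∈ A ⊔ B ↔ ∃ a ∈ A, ∃ b ∈ B, x = a * b := by
  constructor
  · intro hx
    let C : Subgroup G :=
      { carrier := {x | ∃ a ∈ A, ∃ b ∈ B, x = a * b}
        mul_mem' := by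
          rintro _ _ ⟨a, ha, b, hb, rfl⟩ ⟨a', ha', b', hb', rfl⟩
          refine ⟨a * a', A.mul_mem ha ha', b * b', B.mul_mem hb hb', ?_⟩
          calc a * b * (a' * b') = a * (b * a') * b' := by group
            _ = a * a' * (b * b') := by rw [← h a' ha' b hb]; group
        one_mem' := ⟨1, A.one_mem, 1, B.one_mem, by group⟩
        inv_mem' := by
          rintro _ ⟨a, ha, b, hb, rfl⟩
          refine ⟨a⁻¹, A.inv_mem ha, b⁻¹, B.inv_mem hb, ?_⟩
          rw [mul_inv_rev, h _ (A.inv_mem ha) _ (B.inv_mem hb)] }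
    have hA : A ≤ C := fun a ha => ⟨a, ha, 1, B.one_mem, by group⟩
    have hB : B ≤ C := fun b hb => ⟨1, A.one_mem, b, hb, by group⟩
    exact (sup_le hA hB) hx
  · rintro ⟨a, ha, b, hb, rfl⟩
    exact (A ⊔ B).mul_mem (Subgroup.mem_sup_left ha) (Subgroup.mem_sup_right hb)

theorem closure_comm {s : Set G} (h : ∀ a ∈ s, ∀ b ∈ s, a * b = b * a) :
    ∀ a ∈ closure s, ∀ b ∈ closure s, a * b = b * a := by
  have h1 : closure s ≤ centralizer s := by
    rw [closure_le]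
    intro a ha
    rw [SetLike.mem_coe, mem_centralizer_iff]
    intro b hb
    exact h b hb a ha
  have h2 : closure s ≤ centralizer (closure s : Set G) := by
    rw [closure_le]
    intro a ha
    rw [SetLike.mem_coe, mem_centralizer_iff]
    intro b hb
    have := h1 hb
    rw [mem_centralizer_iff] at this
    exact (this a ha).symm
  intro a ha b hb
  have := h2 hb
  rw [mem_centralizer_iff] at this
  exact this a ha

/-- the group `P = C_Q(V)` -/
def PP (V Q : Subgroup G) : Subgroup G := Q ⊓ centralizer (V : Set G)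

theorem mem_PP {V Q : Subgroup G} {p : G} : p ∈ PP V Q ↔ p ∈ Q ∧ ∀ v ∈ V, v * p = p * v := by
  unfold PP
  rw [Subgroup.mem_inf, mem_centralizer_iff]; rfl

theorem PP_cj (V Q : Subgroup G) (g : G) : PP (cj g V) (cj g Q) = cj g (PP V Q) := by
  ext x
  rw [mem_PP, mem_cj, mem_cj, mem_PP]
  constructor
  · rintro ⟨h1, h2⟩
    refine ⟨h1, fun v hv => ?_⟩
    have := h2 _ (conj_mem_cj (x := g) hv)
    have e1 : v * (g⁻¹ * x * g) = g⁻¹ * ((g * v * g⁻¹) * x) * g := by group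
    rw [e1, this]; group
  · rintro ⟨h1, h2⟩
    refine ⟨h1, fun v hv => ?_⟩
    obtain ⟨v, hv', rfl⟩ := exists_of_mem_cj hv
    have := h2 v hv'
    have e1 : g * v * g⁻¹ * x = g * (v * (g⁻¹ * x * g)) * g⁻¹ := by group
    rw [e1, this]; group

namespace Setup

variable {V Q : Subgroup G} (S : Setup V Q)
include S

theorem V_self (v : G) (hv : v ∈ V) : cj v V = V := Cfsg.Agent.Lib.H32TI.cj_eq_of_mem hv

theorem isPGroup_V : IsPGroup 2 V := by
  intro v
  refine ⟨1, ?_⟩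
  apply Subtype.ext
  show (v : G) ^ (2 ^ 1) = 1
  rw [pow_one, pow_two]; exact S.sq v v.2

theorem V_le_Q : V ≤ Q := S.Qmax V (fun d hd => S.V_self d hd) (fun _ h => h) S.isPGroup_V

theorem V_le_P : V ≤ PP V Q := by
  intro v hv
  rw [mem_PP]
  exact ⟨S.V_le_Q hv, fun w hw => S.ab w hw v hv⟩

theorem P_comm {p v : G} (hp : p ∈ PP V Q) (hv : v ∈ V) : v * p = p * v := (mem_PP.mp hp).2 v hv

theorem P_norm {p : G} (hp : p ∈ PP V Q) : cj p V = V := S.Qle p (mem_PP.mp hp).1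

theorem P_conj {m p : G} (hm : cj m V = V) (hp : p ∈ PP V Q) : m * p * m⁻¹ ∈ PP V Q := by
  rw [mem_PP] at hp ⊢
  refine ⟨conj_mem_of_cj (S.Qn m hm) hp.1, fun v hv => ?_⟩
  have h1 : m⁻¹ * v * m ∈ V := by rw [← mem_cj, hm]; exact hv
  have h2 := hp.2 _ h1
  calc v * (m * p * m⁻¹) = m * ((m⁻¹ * v * m) * p) * m⁻¹ := by group
    _ = m * p * m⁻¹ * v := by rw [h2]; group

theorem P_conj' {m p : G} (hm : cj m V = V) (hp : p ∈ PP V Q) : m⁻¹ * p * m ∈ PP V Q := by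
  have := S.P_conj (cj_eq_inv hm) hp
  rwa [inv_inv] at this

theorem cj_P {m : G} (hm : cj m V = V) : cj m (PP V Q) = PP V Q := by
  ext p
  rw [mem_cj]
  constructor
  · intro h
    have := S.P_conj hm h
    have e : m * (m⁻¹ * p * m) * m⁻¹ = p := by group
    rwa [e] at this
  · intro h
    exact S.P_conj' hm h

theorem P_isPGroup : IsPGroup 2 (PP V Q) := S.Qp.to_le inf_le_left

/-- abelian `M`-invariant subgroups of `C(V)` lie in `V` -/
theorem le_of_abelian (A : Subgroup G) (hAV : ∀ a ∈ A, ∀ v ∈ V, a * v = v * a)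
    (hA : ∀ a ∈ A, ∀ b ∈ A, a * b = b * a) (hinv : ∀ m : G, cj m V = V → cj m A = A) : A ≤ V := by
  have hmem : ∀ x, x ∈ A ⊔ V ↔ ∃ a ∈ A, ∃ v ∈ V, x = a * v := fun x => mem_sup_comm hAV
  have h1 : A ⊔ V = V := by
    apply S.mx
    · exact le_sup_right
    · intro x hx
      obtain ⟨a, ha, v, hv, rfl⟩ := (hmem x).mp hx
      rw [cj_mul, S.V_self v hv]
      ext y
      rw [mem_cj]
      constructor
      · intro hy
        have := hAV a ha _ hy
        have e : y = a * (a⁻¹ * y * a) * a⁻¹ := by group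
        rw [e, this]
        have e2 : a⁻¹ * y * a * a * a⁻¹ = a⁻¹ * y * a := by group
        rw [e2]; exact hy
      · intro hy
        have := hAV a ha _ hy
        have e : a⁻¹ * y * a = y := by
          rw [mul_assoc, ← this]; group
        rw [e]; exact hy
    · intro x hx y hy
      obtain ⟨a, ha, v, hv, rfl⟩ := (hmem x).mp hx
      obtain ⟨b, hb, w, hw, rfl⟩ := (hmem y).mp hy
      calc a * v * (b * w) = a * (v * b) * w := by group
        _ = (a * b) * (v * w) := by rw [← hAV b hb v hv]; group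
        _ = (b * a) * (w * v) := by rw [hA a ha b hb, S.ab v hv w hw]
        _ = b * (a * w) * v := by group
        _ = b * w * (a * v) := by rw [hAV a ha w hw]; group
    · intro m hm
      rw [cj_sup, hinv m hm, hm]
  rw [← h1]; exact le_sup_left

/-- elements of `P` central modulo `V` -/
def CC (_S : Setup V Q) : Subgroup G where
  carrier := {c | c ∈ PP V Q ∧ ∀ p ∈ PP V Q, p * c * p⁻¹ * c⁻¹ ∈ V}
  mul_mem' := by
    rintro c d ⟨hc, hc'⟩ ⟨hd, hd'⟩
    refine ⟨(PP V Q).mul_mem hc hd, fun p hp => ?_⟩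
    have h1 := _S.P_comm hc (hd' p hp)
    have e : p * (c * d) * p⁻¹ * (c * d)⁻¹
        = (p * c * p⁻¹ * c⁻¹) * (c * (p * d * p⁻¹ * d⁻¹) * c⁻¹) := by group
    rw [e, ← h1]
    have e2 : p * d * p⁻¹ * d⁻¹ * c * c⁻¹ = p * d * p⁻¹ * d⁻¹ := by group
    rw [e2]
    exact V.mul_mem (hc' p hp) (hd' p hp)
  one_mem' := by
    refine ⟨(PP V Q).one_mem, fun p _ => ?_⟩
    have : p * 1 * p⁻¹ * 1⁻¹ = 1 := by group
    rw [this]; exact V.one_mem
  inv_mem' := by
    rintro c ⟨hc, hc'⟩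
    refine ⟨(PP V Q).inv_mem hc, fun p hp => ?_⟩
    have h1 := _S.P_comm hc (V.inv_mem (hc' p hp))
    have e : p * c⁻¹ * p⁻¹ * c⁻¹⁻¹ = c⁻¹ * ((p * c * p⁻¹ * c⁻¹)⁻¹ * c) := by group
    rw [e, h1]
    have e2 : c⁻¹ * (c * (p * c * p⁻¹ * c⁻¹)⁻¹) = (p * c * p⁻¹ * c⁻¹)⁻¹ := by group
    rw [e2]
    exact V.inv_mem (hc' p hp)

theorem mem_CC {c : G} : c ∈ S.CC ↔ c ∈ PP V Q ∧ ∀ p ∈ PP V Q, p * c * p⁻¹ * c⁻¹ ∈ V := Iff.rfl

theorem CC_conj {m c : G} (hm : cj m V = V) (hc : c ∈ S.CC) : m * c * m⁻¹ ∈ S.CC := by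
  rw [mem_CC] at hc ⊢
  refine ⟨S.P_conj hm hc.1, fun p hp => ?_⟩
  have h1 := hc.2 _ (S.P_conj' hm hp)
  have h2 := conj_mem_of_cj hm h1
  have e : m * (m⁻¹ * p * m * c * (m⁻¹ * p * m)⁻¹ * c⁻¹) * m⁻¹
      = p * (m * c * m⁻¹) * p⁻¹ * (m * c * m⁻¹)⁻¹ := by group
  rwa [e] at h2

/-- the centralizer of `CC` in `P` is `V` -/
theorem centralizer_CC [Finite G] {d : G} (hd : d ∈ PP V Q) (hd' : ∀ c ∈ S.CC, d * c = c * d) :
    d ∈ V := by
  classical
  let D : Subgroup G := PP V Q ⊓ centralizer (S.CC : Set G)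
  have hD : ∀ x, x ∈ D ↔ x ∈ PP V Q ∧ ∀ c ∈ S.CC, c * x = x * c := by
    intro x; rw [Subgroup.mem_inf, mem_centralizer_iff]; rfl
  have hVD : V ≤ D := by
    intro v hv
    rw [hD]
    exact ⟨S.V_le_P hv, fun c hc => (S.P_comm (S.mem_CC.mp hc).1 hv).symm⟩
  have hDconj : ∀ m x, cj m V = V → x ∈ D → m * x * m⁻¹ ∈ D := by
    intro m x hm hx
    rw [hD] at hx ⊢
    refine ⟨S.P_conj hm hx.1, fun c hc => ?_⟩
    have h1 : m⁻¹ * c * m ∈ S.CC := by
      have := S.CC_conj (cj_eq_inv hm) hc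
      rwa [inv_inv] at this
    have h2 := hx.2 _ h1
    calc c * (m * x * m⁻¹) = m * ((m⁻¹ * c * m) * x) * m⁻¹ := by group
      _ = m * x * m⁻¹ * c := by rw [h2]; group
  -- `D ⊓ CC ≤ V`
  have hDC : ∀ x, x ∈ D → x ∈ S.CC → x ∈ V := by
    have hle : D ⊓ S.CC ≤ V := by
      apply S.le_of_abelian
      · intro a ha v hv
        exact (S.P_comm ((hD a).mp (Subgroup.mem_inf.mp ha).1).1 hv).symm
      · intro a ha b hb
        exact ((hD b).mp (Subgroup.mem_inf.mp hb).1).2 a (Subgroup.mem_inf.mp ha).2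
      · intro m hm
        apply cj_eq_of_le
        intro x hx
        obtain ⟨y, hy, rfl⟩ := exists_of_mem_cj hx
        have hy' := Subgroup.mem_inf.mp hy
        exact Subgroup.mem_inf.mpr ⟨hDconj m y hm hy'.1, S.CC_conj hm hy'.2⟩
    intro x h1 h2
    exact hle (Subgroup.mem_inf.mpr ⟨h1, h2⟩)
  by_contra hdV
  have hdD : d ∈ D := (hD d).mpr ⟨hd, fun c hc => (hd' c hc).symm⟩
  have hDP : D ≤ PP V Q := inf_le_left
  have hn1 : (V.subgroupOf (PP V Q)).Normal := by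
    constructor
    intro v hv p
    rw [mem_subgroupOf] at hv ⊢
    show (p : G) * v * (p : G)⁻¹ ∈ V
    exact conj_mem_of_cj (S.P_norm p.2) hv
  have hn2 : (D.subgroupOf (PP V Q)).Normal := by
    constructor
    intro v hv p
    rw [mem_subgroupOf] at hv ⊢
    show (p : G) * v * (p : G)⁻¹ ∈ D
    exact hDconj p v (S.P_norm p.2) hv
  have hlt : V.subgroupOf (PP V Q) < D.subgroupOf (PP V Q) := by
    refine lt_of_le_of_ne ?_ ?_
    · intro x hx
      rw [mem_subgroupOf] at hx ⊢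
      exact hVD hx
    · intro h
      apply hdV
      have : (⟨d, hd⟩ : PP V Q) ∈ V.subgroupOf (PP V Q) := by
        rw [h, mem_subgroupOf]; exact hdD
      rw [mem_subgroupOf] at this
      exact this
  haveI : Fact (Nat.Prime 2) := ⟨Nat.prime_two⟩
  obtain ⟨e, he, heV, he'⟩ := Cfsg.Agent.Lib.H32PGroup.exists_central_mod S.P_isPGroup _ _ hlt
  rw [mem_subgroupOf] at he heV
  apply heV
  apply hDC _ he
  rw [mem_CC]
  refine ⟨e.2, fun p hp => ?_⟩
  have := he' ⟨p, hp⟩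
  rw [mem_subgroupOf] at this
  exact this

/-- `Z(P) = V` -/
theorem center_P [Finite G] {z : G} (hz : z ∈ PP V Q) (hz' : ∀ p ∈ PP V Q, z * p = p * z) : z ∈ V :=
  S.centralizer_CC hz fun c hc => hz' c (S.mem_CC.mp hc).1

/-- `[P, P] ≤ V` -/
theorem comm_mem [Finite G] {p q : G} (hp : p ∈ PP V Q) (hq : q ∈ PP V Q) :
    p * q * p⁻¹ * q⁻¹ ∈ V := by
  have key : ∀ p q, p ∈ PP V Q → q ∈ PP V Q → p⁻¹ * q⁻¹ * p * q ∈ V := by
    intro p q hp hq
    apply S.centralizer_CC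
    · exact (PP V Q).mul_mem ((PP V Q).mul_mem ((PP V Q).mul_mem ((PP V Q).inv_mem hp)
        ((PP V Q).inv_mem hq)) hp) hq
    · intro c hc
      have hc' := S.mem_CC.mp hc
      have h1 := S.P_comm hp (hc'.2 q hq)
      have h2 := S.P_comm hq (hc'.2 p hp)
      have h3 := S.ab _ (hc'.2 q hq) _ (hc'.2 p hp)
      have e1 : p * q * c * q⁻¹ * p⁻¹ = (q * c * q⁻¹ * c⁻¹) * ((p * c * p⁻¹ * c⁻¹) * c) := by
        calc p * q * c * q⁻¹ * p⁻¹ = (p * (q * c * q⁻¹ * c⁻¹)) * c * p⁻¹ := by group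
          _ = (q * c * q⁻¹ * c⁻¹) * ((p * c * p⁻¹ * c⁻¹) * c) := by rw [← h1]; group
      have e2 : q * p * c * p⁻¹ * q⁻¹ = (p * c * p⁻¹ * c⁻¹) * ((q * c * q⁻¹ * c⁻¹) * c) := by
        calc q * p * c * p⁻¹ * q⁻¹ = (q * (p * c * p⁻¹ * c⁻¹)) * c * q⁻¹ := by group
          _ = (p * c * p⁻¹ * c⁻¹) * ((q * c * q⁻¹ * c⁻¹) * c) := by rw [← h2]; group
      have e3 : p * q * c * q⁻¹ * p⁻¹ = q * p * c * p⁻¹ * q⁻¹ := by
        rw [e1, e2, ← mul_assoc, h3, mul_assoc]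
      calc p⁻¹ * q⁻¹ * p * q * c = p⁻¹ * q⁻¹ * (p * q * c * q⁻¹ * p⁻¹) * p * q := by group
        _ = c * (p⁻¹ * q⁻¹ * p * q) := by rw [e3]; group
  have := key p⁻¹ q⁻¹ ((PP V Q).inv_mem hp) ((PP V Q).inv_mem hq)
  rwa [inv_inv, inv_inv] at this

theorem sq_mem [Finite G] {p : G} (hp : p ∈ PP V Q) : p * p ∈ V := by
  apply S.centralizer_CC ((PP V Q).mul_mem hp hp)
  intro c hc
  have hc' := S.mem_CC.mp hc
  have h1 := S.P_comm hp (hc'.2 p hp)
  have h2 := S.sq _ (hc'.2 p hp)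
  have e1 : p * p * c * p⁻¹ * p⁻¹ = c := by
    calc p * p * c * p⁻¹ * p⁻¹ = (p * (p * c * p⁻¹ * c⁻¹)) * c * p⁻¹ := by group
      _ = ((p * c * p⁻¹ * c⁻¹) * (p * c * p⁻¹ * c⁻¹)) * c := by rw [← h1]; group
      _ = c := by rw [h2, one_mul]
  calc p * p * c = (p * p * c * p⁻¹ * p⁻¹) * p * p := by group
    _ = c * (p * p) := by rw [e1]; group

end Setup

end Cfsg.Agent.Lib.H32TI
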