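import Mathlib
import Cfsg.Agent.Lib.H32TI2

set_option autoImplicit false

namespace Cfsg.Agent.Lib.H32TI

open Subgroup

variable {G : Type*} [Group G]

namespace Setup

variable {V Q : Subgroup G} (S : Setup V Q)
include S

/-- L6 -/
theorem cj_comm [Finite G] {x : G} (hx : cj x V ≤ Q) : ∀ a ∈ cj x V, ∀ v ∈ V, a * v = v * a := by
  intro a ha v hv
  have := S.commute_of_normalizes (x := 1) (y := x) (by
    intro b hb
    rw [cj_one]
    exact S.Qle b (hx hb)) v (by rwa [cj_one]) a ha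
  exact this.symm

theorem cj_le_P [Finite G] {x : G} (hx : cj x V ≤ Q) : cj x V ≤ PP V Q := by
  intro a ha
  rw [mem_PP]
  exact ⟨hx ha, fun v hv => (S.cj_comm hx a ha v hv).symm⟩

theorem disj {x : G} (hne : cj x V ≠ V) {a : G} (h1 : a ∈ cj x V) (h2 : a ∈ V) : a = 1 := by
  by_contra h
  exact hne (S.cj_eq_self h1 h2 h)

theorem cent_of_comm [Finite G] {x : G} (hx : cj x V ≤ Q) (hne : cj x V ≠ V) {p a : G}
    (hp : p ∈ PP V Q) (ha : a ∈ cj x V) (ha1 : a ≠ 1) (h : p * a = a * p) :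
    ∀ b ∈ cj x V, p * b = b * p := by
  intro b hb
  have h1 : cj p (cj x V) = cj x V := (S.conj x).cj_eq_of_comm ha ha1 h
  have h2 : p * b * p⁻¹ * b⁻¹ = 1 := by
    apply S.disj hne
    · exact (cj x V).mul_mem (conj_mem_of_cj h1 hb) ((cj x V).inv_mem hb)
    · exact S.comm_mem hp (S.cj_le_P hx hb)
  calc p * b = (p * b * p⁻¹ * b⁻¹) * (b * p) := by group
    _ = b * p := by rw [h2, one_mul]

theorem cj_mul_le {m g : G} (hm : cj m V = V) (hg : cj g V ≤ Q) : cj (m * g) V ≤ Q := by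
  rw [cj_mul, ← S.Qn m hm]
  exact cj_mono hg

theorem cj_mul_ne {m g : G} (hm : cj m V = V) (hg : cj g V ≠ V) : cj (m * g) V ≠ V := by
  rw [cj_mul]
  intro h
  apply hg
  nth_rewrite 2 [← hm] at h
  exact cj_inj.mp h

/-- L7 -/
theorem exists_U [Finite G] {g : G} (hg : cj g V ≤ Q) (hne : cj g V ≠ V) :
    ∃ m : G, cj m V = V ∧ ∀ u ∈ cj (m * g) V, u ≠ 1 → ∀ a ∈ cj g V, a ≠ 1 → u * a ≠ a * u := by
  classical
  by_cases hcon : ∃ m : G, cj m V = V ∧ ∃ u ∈ cj (m * g) V, ∃ a ∈ cj g V, u * a ≠ a * u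
  · obtain ⟨m, hm, u0, hu0, a0, ha0, hne0⟩ := hcon
    refine ⟨m, hm, ?_⟩
    intro u hu hu1 a ha ha1 hcomm
    apply hne0
    have hmg := S.cj_mul_le hm hg
    have hmne := S.cj_mul_ne hm hne
    -- `u` centralizes `cj g V`
    have h1 := S.cent_of_comm hg hne (S.cj_le_P hmg hu) ha ha1 hcomm
    -- `a0` centralizes `cj (m * g) V`
    have h2 := S.cent_of_comm hmg hmne (S.cj_le_P hg ha0) hu hu1 (h1 a0 ha0).symm
    exact (h2 u0 hu0).symm
  · push Not at hcon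
    exfalso
    let s : Set G := {y | ∃ m : G, cj m V = V ∧ y ∈ cj (m * g) V}
    have hs : ∀ a ∈ s, ∀ b ∈ s, a * b = b * a := by
      rintro a ⟨m, hm, ha⟩ b ⟨n, hn, hb⟩
      have h1 : n⁻¹ * a * n ∈ cj ((n⁻¹ * m) * g) V := by
        rw [mem_cj]
        have e : (n⁻¹ * m * g)⁻¹ * (n⁻¹ * a * n) * (n⁻¹ * m * g) = (m * g)⁻¹ * a * (m * g) := by
          group
        rw [e]; exact mem_cj.mp ha
      have h2 : n⁻¹ * b * n ∈ cj g V := by
        rw [mem_cj]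
        have e : g⁻¹ * (n⁻¹ * b * n) * g = (n * g)⁻¹ * b * (n * g) := by group
        rw [e]; exact mem_cj.mp hb
      have h3 := hcon (n⁻¹ * m) (by rw [cj_mul, hm]; exact cj_eq_inv hn) _ h1 _ h2
      calc a * b = n * ((n⁻¹ * a * n) * (n⁻¹ * b * n)) * n⁻¹ := by group
        _ = b * a := by rw [h3]; group
    have hsV : ∀ a ∈ s, ∀ v ∈ V, a * v = v * a := by
      rintro a ⟨m, hm, ha⟩ v hv
      exact S.cj_comm (S.cj_mul_le hm hg) a ha v hv
    have hle : closure s ≤ V := by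
      apply S.le_of_abelian
      · intro a ha v hv
        have h1 : closure s ≤ centralizer (V : Set G) := by
          rw [closure_le]
          intro b hb
          rw [SetLike.mem_coe, mem_centralizer_iff]
          intro w hw
          exact (hsV b hb w hw).symm
        have := h1 ha
        rw [mem_centralizer_iff] at this
        exact (this v hv).symm
      · exact closure_comm hs
      · intro m hm
        apply cj_eq_of_le
        rw [cj, Subgroup.map_le_iff_le_comap, closure_le]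
        rintro a ⟨n, hn, ha⟩
        apply Subgroup.subset_closure
        refine ⟨m * n, by rw [cj_mul, hn, hm], ?_⟩
        show m * a * m⁻¹ ∈ _
        rw [mem_cj]
        have e : (m * n * g)⁻¹ * (m * a * m⁻¹) * (m * n * g) = (n * g)⁻¹ * a * (n * g) := by group
        rw [e]; exact mem_cj.mp ha
    apply hne
    apply eq_of_le_card
    · refine le_trans ?_ hle
      intro a ha
      apply Subgroup.subset_closure
      exact ⟨1, cj_one V, by rwa [one_mul]⟩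
    · rw [card_cj]

/-- L8, general form: `cj x V`, `cj y V` in `Q`, no nontrivial commuting pairs. -/
theorem exists_conj [Finite G] {x y : G} (hx : cj x V ≤ Q) (hy : cj y V ≤ Q)
    (hxy : ∀ u ∈ cj y V, u ≠ 1 → ∀ a ∈ cj x V, a ≠ 1 → u * a ≠ a * u)
    {a v : G} (ha : a ∈ cj x V) (ha1 : a ≠ 1) (hv : v ∈ V) :
    ∃ u ∈ cj y V, u * a * u⁻¹ = v * a := by
  classical
  let φ : cj y V → V := fun u => ⟨u * a * (u : G)⁻¹ * a⁻¹,
    S.comm_mem (S.cj_le_P hy u.2) (S.cj_le_P hx ha)⟩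
  have hφ : Function.Injective φ := by
    intro u w h
    have h1 : (u : G) * a * (u : G)⁻¹ * a⁻¹ = w * a * (w : G)⁻¹ * a⁻¹ := congrArg Subtype.val h
    by_contra hne
    have h2 : (w : G)⁻¹ * u ≠ 1 := by
      intro h3
      apply hne
      apply Subtype.ext
      calc (u : G) = w * ((w : G)⁻¹ * u) := by group
        _ = w := by rw [h3, mul_one]
    apply hxy _ ((cj y V).mul_mem ((cj y V).inv_mem w.2) u.2) h2 a ha ha1
    calc (w : G)⁻¹ * u * a = (w : G)⁻¹ * (u * a * (u : G)⁻¹ * a⁻¹) * a * u := by group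
      _ = a * ((w : G)⁻¹ * u) := by rw [h1]; group
  have hsurj : Function.Surjective φ := by
    have : Function.Bijective φ :=
      (Nat.bijective_iff_injective_and_card φ).mpr ⟨hφ, by rw [card_cj]⟩
    exact this.2
  obtain ⟨u, hu⟩ := hsurj ⟨v, hv⟩
  have h1 : (u : G) * a * (u : G)⁻¹ * a⁻¹ = v := congrArg Subtype.val hu
  refine ⟨u, u.2, ?_⟩
  rw [← h1]; group

theorem V_ne_bot {g : G} (hne : cj g V ≠ V) : ∃ v ∈ V, v ≠ 1 := by
  by_contra hcon
  push Not at hcon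
  apply hne
  have : V = ⊥ := by
    rw [eq_bot_iff]
    intro v hv
    rw [mem_bot]; exact hcon v hv
  rw [this, cj_bot]

theorem cj_ne_bot {g : G} (hne : cj g V ≠ V) : ∃ v ∈ cj g V, v ≠ 1 := by
  obtain ⟨v, hv, hv1⟩ := S.V_ne_bot hne
  refine ⟨g * v * g⁻¹, conj_mem_cj hv, ?_⟩
  intro h
  apply hv1
  calc v = g⁻¹ * (g * v * g⁻¹) * g := by group
    _ = 1 := by rw [h]; group

theorem mem_W [Finite G] {g : G} (hg : cj g V ≤ Q) {w : G} :
    w ∈ V ⊔ cj g V ↔ ∃ v ∈ V, ∃ a ∈ cj g V, w = v * a :=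
  mem_sup_comm fun v hv a ha => (S.cj_comm hg a ha v hv).symm

theorem W_le_P [Finite G] {g : G} (hg : cj g V ≤ Q) : V ⊔ cj g V ≤ PP V Q :=
  sup_le S.V_le_P (S.cj_le_P hg)

theorem W_comm [Finite G] {g : G} (hg : cj g V ≤ Q) :
    ∀ a ∈ V ⊔ cj g V, ∀ b ∈ V ⊔ cj g V, a * b = b * a := by
  intro a ha b hb
  obtain ⟨v, hv, x, hx, rfl⟩ := (S.mem_W hg).mp ha
  obtain ⟨w, hw, y, hy, rfl⟩ := (S.mem_W hg).mp hb
  have c := S.cj_comm hg
  have c2 := (S.conj g).ab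
  calc v * x * (w * y) = v * (x * w) * y := by group
    _ = (v * w) * (x * y) := by rw [c x hx w hw]; group
    _ = (w * v) * (y * x) := by rw [S.ab v hv w hw, c2 x hx y hy]
    _ = w * (v * y) * x := by group
    _ = w * y * (v * x) := by rw [← c y hy v hv]; group

theorem W_sq [Finite G] {g : G} (hg : cj g V ≤ Q) {a : G} (ha : a ∈ V ⊔ cj g V) : a * a = 1 := by
  obtain ⟨v, hv, x, hx, rfl⟩ := (S.mem_W hg).mp ha
  calc v * x * (v * x) = v * (x * v) * x := by group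
    _ = (v * v) * (x * x) := by rw [S.cj_comm hg x hx v hv]; group
    _ = 1 := by rw [S.sq v hv, (S.conj g).sq x hx, one_mul]

/-- any `p ∈ P` normalizes any subgroup of `P` containing `V` -/
theorem P_norm_of_le [Finite G] {p : G} (hp : p ∈ PP V Q) {X : Subgroup G} (hVX : V ≤ X)
    (hXP : X ≤ PP V Q) : cj p X = X := by
  apply cj_eq_of_le
  intro x hx
  obtain ⟨y, hy, rfl⟩ := exists_of_mem_cj hx
  have h := hVX (S.comm_mem hp (hXP hy))
  have e : p * y * p⁻¹ = (p * y * p⁻¹ * y⁻¹) * y := by group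
  rw [e]; exact X.mul_mem h hy

theorem P_norm_W [Finite G] {g : G} (hg : cj g V ≤ Q) {p : G} (hp : p ∈ PP V Q) :
    cj p (V ⊔ cj g V) = V ⊔ cj g V := S.P_norm_of_le hp le_sup_left (S.W_le_P hg)

/-- L10 -/
theorem trans_W [Finite G] {g : G} (hg : cj g V ≤ Q) (hne : cj g V ≠ V) {w : G}
    (hw : w ∈ V ⊔ cj g V) (hwV : w ∉ V) : ∃ p ∈ PP V Q, w ∈ cj (p * g) V := by
  obtain ⟨m, hm, hU⟩ := S.exists_U hg hne
  obtain ⟨v, hv, a, ha, rfl⟩ := (S.mem_W hg).mp hw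
  have ha1 : a ≠ 1 := by
    rintro rfl
    rw [mul_one] at hwV
    exact hwV hv
  obtain ⟨u, hu, hua⟩ := S.exists_conj hg (S.cj_mul_le hm hg) hU ha ha1 hv
  refine ⟨u, S.cj_le_P (S.cj_mul_le hm hg) hu, ?_⟩
  rw [← hua, cj_mul]
  exact conj_mem_cj ha

theorem trans_X [Finite G] {g x : G} (hg : cj g V ≤ Q) (hne : cj g V ≠ V)
    (hxW : cj x V ≤ V ⊔ cj g V) (hxV : cj x V ≠ V) : ∃ p ∈ PP V Q, cj x V = cj p (cj g V) := by
  obtain ⟨a, ha, ha1⟩ := S.cj_ne_bot hxV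
  have haV : a ∉ V := fun h => ha1 (S.disj hxV ha h)
  obtain ⟨p, hp, hap⟩ := S.trans_W hg hne (hxW ha) haV
  refine ⟨p, hp, ?_⟩
  rw [← cj_mul]
  exact S.cj_eq_of_mem ha hap ha1

/-- L9 -/
theorem exists_X [Finite G] {g : G} (hg : cj g V ≤ Q) (hne : cj g V ≠ V) {w : G}
    (hw : w ∈ V ⊔ cj g V) : ∃ x, w ∈ cj x V ∧ cj x V ≤ V ⊔ cj g V := by
  by_cases hwV : w ∈ V
  · exact ⟨1, by rwa [cj_one], by rw [cj_one]; exact le_sup_left⟩
  · obtain ⟨p, hp, h⟩ := S.trans_W hg hne hw hwV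
    refine ⟨p * g, h, ?_⟩
    rw [cj_mul]
    calc cj p (cj g V) ≤ cj p (V ⊔ cj g V) := cj_mono le_sup_right
      _ = V ⊔ cj g V := S.P_norm_W hg hp

/-- L11: `C_P(E) ≤ W` -/
theorem cent_E [Finite G] {g : G} (hg : cj g V ≤ Q) (hne : cj g V ≠ V) {y : G}
    (hy : y ∈ PP V Q)
    (hyE : ∀ e ∈ PP V Q, (∀ a ∈ cj g V, e * a = a * e) → y * e = e * y) : y ∈ V ⊔ cj g V := by
  obtain ⟨m, hm, hU⟩ := S.exists_U hg hne
  have hmg := S.cj_mul_le hm hg
  have hmne := S.cj_mul_ne hm hne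
  obtain ⟨u0, hu0, hu01⟩ := S.cj_ne_bot hmne
  obtain ⟨a0, ha0, ha01⟩ := S.cj_ne_bot hne
  -- there is `a` with `[y, u0] = [a, u0]`
  have hv := S.comm_mem hy (S.cj_le_P hmg hu0)
  obtain ⟨a, ha, hau⟩ := S.exists_conj (x := m * g) (y := g) hmg hg
    (fun a ha ha1 u hu hu1 h => hU u hu hu1 a ha ha1 h.symm) hu0 hu01 hv
  have haP := S.cj_le_P hg ha
  have hzP : a⁻¹ * y ∈ PP V Q := (PP V Q).mul_mem ((PP V Q).inv_mem haP) hy
  have h1 : a⁻¹ * y * u0 = u0 * (a⁻¹ * y) := by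
    have e1 : a * u0 * a⁻¹ = y * u0 * y⁻¹ := by rw [hau]; group
    calc a⁻¹ * y * u0 = a⁻¹ * (y * u0 * y⁻¹) * y := by group
      _ = u0 * (a⁻¹ * y) := by rw [← e1]; group
  have h2 := S.cent_of_comm hmg hmne hzP hu0 hu01 h1
  have h3 : ∀ e ∈ PP V Q, (∀ a ∈ cj g V, e * a = a * e) → a⁻¹ * y * e = e * (a⁻¹ * y) := by
    intro e he hea
    have h4 := hyE e he hea
    have h5 := hea _ ((cj g V).inv_mem ha)
    calc a⁻¹ * y * e = a⁻¹ * (y * e) := by group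
      _ = (a⁻¹ * e) * y := by rw [h4]; group
      _ = e * (a⁻¹ * y) := by rw [← h5]; group
  have hzV : a⁻¹ * y ∈ V := by
    apply S.center_P hzP
    intro p hp
    -- `p = u e`
    have hv2 := S.comm_mem hp (S.cj_le_P hg ha0)
    obtain ⟨u, hu, hua⟩ := S.exists_conj (x := g) (y := m * g) hg hmg hU ha0 ha01 hv2
    have hpa : p * a0 * p⁻¹ = u * a0 * u⁻¹ := by rw [hua]; group
    have heP : u⁻¹ * p ∈ PP V Q :=
      (PP V Q).mul_mem ((PP V Q).inv_mem (S.cj_le_P hmg hu)) hp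
    have hec : u⁻¹ * p * a0 = a0 * (u⁻¹ * p) := by
      calc u⁻¹ * p * a0 = u⁻¹ * (p * a0 * p⁻¹) * p := by group
        _ = a0 * (u⁻¹ * p) := by rw [hpa]; group
    have h6 := h3 _ heP (S.cent_of_comm hg hne heP ha0 ha01 hec)
    have h7 := h2 u hu
    calc a⁻¹ * y * p = (a⁻¹ * y * u) * (u⁻¹ * p) := by group
      _ = u * (a⁻¹ * y * (u⁻¹ * p)) := by rw [h7]; group
      _ = p * (a⁻¹ * y) := by rw [h6]; group
  rw [S.mem_W hg]
  refine ⟨a⁻¹ * y, hzV, a, ha, ?_⟩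
  rw [← S.cj_comm hg a ha _ hzV]; group

end Setup

end Cfsg.Agent.Lib.H32TI
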