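import Mathlib
import Cfsg.Agent.Lib.H32TI3

set_option autoImplicit false

namespace Cfsg.Agent.Lib.H32TI

open Subgroup

variable {G : Type*} [Group G]

theorem mem_sup_norm {A B : Subgroup G} (h : ∀ a ∈ A, cj a B = B) {x : G} :
    x ∈ A ⊔ B ↔ ∃ a ∈ A, ∃ b ∈ B, x = a * b := by
  constructor
  · intro hx
    let C : Subgroup G :=
      { carrier := {x | ∃ a ∈ A, ∃ b ∈ B, x = a * b}
        mul_mem' := by
          rintro _ _ ⟨a, ha, b, hb, rfl⟩ ⟨a', ha', b', hb', rfl⟩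
          refine ⟨a * a', A.mul_mem ha ha', (a'⁻¹ * b * a') * b', B.mul_mem ?_ hb', ?_⟩
          · rw [← mem_cj, h a' ha']; exact hb
          · group
        one_mem' := ⟨1, A.one_mem, 1, B.one_mem, by group⟩
        inv_mem' := by
          rintro _ ⟨a, ha, b, hb, rfl⟩
          refine ⟨a⁻¹, A.inv_mem ha, a * b⁻¹ * a⁻¹, conj_mem_of_cj (h a ha) (B.inv_mem hb), ?_⟩
          group }
    have hA : A ≤ C := fun a ha => ⟨a, ha, 1, B.one_mem, by group⟩
    have hB : B ≤ C := fun b hb => ⟨1, A.one_mem, b, hb, by group⟩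
    exact (sup_le hA hB) hx
  · rintro ⟨a, ha, b, hb, rfl⟩
    exact (A ⊔ B).mul_mem (Subgroup.mem_sup_left ha) (Subgroup.mem_sup_right hb)

theorem cj_eq_of_cent {X : Subgroup G} {v : G} (h : ∀ a ∈ X, v * a = a * v) : cj v X = X := by
  ext y
  rw [mem_cj]
  constructor
  · intro hy
    have := h _ hy
    have e : y = v * (v⁻¹ * y * v) * v⁻¹ := by group
    rw [e, this]
    have e2 : v⁻¹ * y * v * v * v⁻¹ = v⁻¹ * y * v := by group
    rw [e2]; exact hy
  · intro hy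
    have := h _ hy
    have e : v⁻¹ * y * v = y := by
      rw [mul_assoc, ← this]; group
    rw [e]; exact hy

namespace Setup

variable {V Q : Subgroup G} (S : Setup V Q)
include S

/-- the good case -/
theorem star [Finite G] {g : G} (hg : cj g V ≤ Q) (hne : cj g V ≠ V)
    (hst : ∃ e, cj e (V ⊔ cj g V) = V ⊔ cj g V ∧ cj e V ≠ V) : V ≤ cj g Q := by
  obtain ⟨e, heW, heV⟩ := hst
  have h1 : cj e V ≤ V ⊔ cj g V := by
    rw [← heW]; exact cj_mono le_sup_left
  obtain ⟨p, hp, hpe⟩ := S.trans_X hg hne h1 heV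
  -- `f = p⁻¹ e` maps `V` to `V'`
  have hf1 : cj (p⁻¹ * e) V = cj g V := by rw [cj_mul, hpe, cj_inv_cj]
  have hfW : cj (p⁻¹ * e) (V ⊔ cj g V) = V ⊔ cj g V := by
    rw [cj_mul, heW]; exact cj_eq_inv (S.P_norm_W hg hp)
  set f := p⁻¹ * e with hf
  have h2 : cj f⁻¹ V ≤ V ⊔ cj g V := by
    rw [← cj_eq_inv hfW]; exact cj_mono le_sup_left
  have h3 : cj f⁻¹ V ≠ V := by
    intro h
    have : cj f V = V := by
      nth_rewrite 1 [← h]
      exact cj_cj_inv f V
    rw [hf1] at this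
    exact hne this
  obtain ⟨p', hp', hpf⟩ := S.trans_X hg hne h2 h3
  have h4 : cj (f * p') V = cj g V := by rw [cj_mul, S.P_norm hp', hf1]
  have h5 : cj (f * p') (cj g V) = V := by rw [cj_mul, ← hpf, cj_cj_inv]
  have h6 : cj (f * p') Q = cj g Q := by
    have h7 : cj (g⁻¹ * (f * p')) V = V := by rw [cj_mul, h4, cj_inv_cj]
    have h8 := S.Qn _ h7
    rw [cj_mul] at h8
    rw [← cj_inj (x := g⁻¹), h8, cj_inv_cj]
  rw [← h6]
  nth_rewrite 1 [← h5]
  exact cj_mono hg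

section bad

variable [Finite G] {g : G} (hg : cj g V ≤ Q) (hne : cj g V ≠ V)
  (hN : ∀ e, cj e (V ⊔ cj g V) = V ⊔ cj g V → cj e V = V)
include hg hne hN

omit hne hN in
theorem bad_norm {v : G} (hv : v ∈ V) : cj v (cj g V) = cj g V :=
  cj_eq_of_cent fun a ha => (S.cj_comm hg a ha v hv).symm

/-- N2 -/
theorem bad2 {v y : G} (hv : v ∈ V) (hv1 : v ≠ 1) (hy : y ∈ PP (cj g V) (cj g Q))
    (h : y * v * y⁻¹ * v⁻¹ ∈ cj g V) : cj y V = V := by
  have hS' := S.conj g
  have h1 : y * v * y⁻¹ ∈ V ⊔ cj g V := by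
    have e : y * v * y⁻¹ = (y * v * y⁻¹ * v⁻¹) * v := by group
    rw [e]
    exact mul_mem (Subgroup.mem_sup_right h) (Subgroup.mem_sup_left hv)
  have h2 : y * v * y⁻¹ ≠ 1 := by
    intro h3; apply hv1
    calc v = y⁻¹ * (y * v * y⁻¹) * y := by group
      _ = 1 := by rw [h3]; group
  obtain ⟨x, hx, hxW⟩ := S.exists_X hg hne h1
  have h3 : cj y V = cj x V := S.cj_eq_of_mem (conj_mem_cj hv) hx h2
  apply hN
  apply cj_eq_of_le
  rw [cj_sup, hS'.P_norm hy, h3]
  exact sup_le hxW le_sup_right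

/-- N3 -/
theorem bad3 {v : G} (hv : v ∈ V) (hvP : v ∈ PP (cj g V) (cj g Q)) : v = 1 := by
  by_contra hv1
  have hS' := S.conj g
  have h1 : ∀ y ∈ PP (cj g V) (cj g Q), v * y = y * v := by
    intro y hy
    have h2 := hS'.comm_mem hy hvP
    have h3 := S.bad2 hg hne hN hv hv1 hy h2
    have h4 : y * v * y⁻¹ * v⁻¹ = 1 := by
      apply S.disj hne h2
      exact V.mul_mem (conj_mem_of_cj h3 hv) (V.inv_mem hv)
    calc v * y = (y * v * y⁻¹ * v⁻¹)⁻¹ * (y * v) := by group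
      _ = y * v := by rw [h4]; group
  exact hv1 (S.disj hne (hS'.center_P hvP h1) hv)

/-- N4 -/
theorem bad4 {t v : G} (ht : t ∈ PP (cj g V) (cj g Q)) (htV : cj t V = V) (hv : v ∈ V) :
    t * v = v * t := by
  have hS' := S.conj g
  have h1 : t * v * t⁻¹ * v⁻¹ = 1 := by
    apply S.bad3 hg hne hN
    · exact V.mul_mem (conj_mem_of_cj htV hv) (V.inv_mem hv)
    · have e : t * v * t⁻¹ * v⁻¹ = t * (v * t⁻¹ * v⁻¹) := by group
      rw [e]
      exact (PP _ _).mul_mem ht (hS'.P_conj (S.bad_norm hg hv) ((PP _ _).inv_mem ht))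
  calc t * v = (t * v * t⁻¹ * v⁻¹) * (v * t) := by group
    _ = v * t := by rw [h1, one_mul]

/-- N5 -/
theorem bad5 : ∃ y ∈ PP (cj g V) (cj g Q), cj y V ≠ V := by
  classical
  by_contra hcon
  push Not at hcon
  have hS' := S.conj g
  let D : Subgroup G := normalizer (cj g V : Set G) ⊓ centralizer (PP (cj g V) (cj g Q) : Set G)
  have hD : ∀ x, x ∈ D ↔ cj x (cj g V) = cj g V ∧ ∀ p ∈ PP (cj g V) (cj g Q), p * x = x * p := by
    intro x
    rw [Subgroup.mem_inf, mem_normalizer_iff_cj, mem_centralizer_iff]; rfl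
  have hDconj : ∀ m x, cj m (cj g V) = cj g V → x ∈ D → m * x * m⁻¹ ∈ D := by
    intro m x hm hx
    rw [hD] at hx ⊢
    refine ⟨by rw [cj_mul, cj_mul, cj_eq_inv hm, hx.1, hm], fun p hp => ?_⟩
    have h2 := hx.2 _ (hS'.P_conj' hm hp)
    calc p * (m * x * m⁻¹) = m * ((m⁻¹ * p * m) * x) * m⁻¹ := by group
      _ = m * x * m⁻¹ * p := by rw [h2]; group
  have hVD : V ≤ D := by
    intro v hv
    rw [hD]
    exact ⟨S.bad_norm hg hv, fun p hp => S.bad4 hg hne hN hp (hcon p hp) hv⟩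
  have hDQ : D ≤ cj g Q := by
    apply hS'.Qmax
    · intro d hd; exact ((hD d).mp hd).1
    · intro m hm
      apply cj_eq_of_le
      intro x hx
      obtain ⟨y, hy, rfl⟩ := exists_of_mem_cj hx
      exact hDconj m y hm hy
    · -- elements of `D` have 2-power order
      have hsq : ∀ d ∈ D, d * d ∈ cj g Q := by
        intro d hd
        have hd' := (hD d).mp hd
        apply hS'.Qc
        · rw [cj_mul, hd'.1, hd'.1]
        · intro q hq
          set z := d * q * d⁻¹ * q⁻¹ with hz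
          have hzQ : z ∈ cj g Q :=
            (cj g Q).mul_mem (conj_mem_of_cj (hS'.Qn d hd'.1) hq) ((cj g Q).inv_mem hq)
          have hzD : z ∈ D := by
            have e : z = d * (q * d⁻¹ * q⁻¹) := by rw [hz]; group
            rw [e]
            exact D.mul_mem hd (hDconj q _ (hS'.Qle q hq) (D.inv_mem hd))
          have hzD' := (hD z).mp hzD
          have hzP : z ∈ PP (cj g V) (cj g Q) :=
            mem_PP.mpr ⟨hzQ, fun v hv => hzD'.2 v (hS'.V_le_P hv)⟩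
          have hzV : z ∈ cj g V := hS'.center_P hzP fun p hp => (hzD'.2 p hp).symm
          have h1 : z * z = 1 := hS'.sq z hzV
          have h2 : z * d = d * z := hd'.2 z hzP
          have h3 : d * q = z * q * d := by rw [hz]; group
          calc d * d * q = d * (d * q) := by group
            _ = (d * z) * q * d := by rw [h3]; group
            _ = z * (d * q) * d := by rw [← h2]; group
            _ = (z * z) * q * d * d := by rw [h3]; group
            _ = q * (d * d) := by rw [h1]; group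
      intro d
      obtain ⟨k, hk⟩ := hS'.Qp ⟨_, hsq d d.2⟩
      refine ⟨k + 1, ?_⟩
      apply Subtype.ext
      have h1 : ((d : G) * d) ^ (2 ^ k) = 1 := congrArg Subtype.val hk
      show (d : G) ^ (2 ^ (k + 1)) = 1
      rw [pow_succ', pow_mul, pow_two]; exact h1
  obtain ⟨v, hv, hv1⟩ := S.V_ne_bot hne
  apply hv1
  apply S.bad3 hg hne hN hv
  rw [mem_PP]
  exact ⟨hDQ (hVD hv), fun a ha => S.cj_comm hg a ha v hv⟩

/-- the subgroup `T` -/
def TT (V Q : Subgroup G) (g : G) : Subgroup G := PP (cj g V) (cj g Q) ⊓ normalizer (V : Set G)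

omit S hg hne hN [Finite G] in
theorem mem_TT {t : G} : t ∈ TT V Q g ↔ t ∈ PP (cj g V) (cj g Q) ∧ cj t V = V := by
  unfold TT
  rw [Subgroup.mem_inf, mem_normalizer_iff_cj]

theorem mem_VT {x : G} : x ∈ V ⊔ TT V Q g ↔ ∃ v ∈ V, ∃ t ∈ TT V Q g, x = v * t :=
  mem_sup_comm fun v hv t ht =>
    (S.bad4 hg hne hN (mem_TT.mp ht).1 (mem_TT.mp ht).2 hv).symm

/-- N6 -/
theorem bad6 : ∃ y ∈ PP (cj g V) (cj g Q), cj y V ≠ V ∧ cj y (V ⊔ TT V Q g) = V ⊔ TT V Q g := by
  classical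
  haveI : Fact (Nat.Prime 2) := ⟨Nat.prime_two⟩
  have hS' := S.conj g
  obtain ⟨y0, hy0, hy0V⟩ := S.bad5 hg hne hN
  have hnorm : ∀ v ∈ V, cj v (PP (cj g V) (cj g Q)) = PP (cj g V) (cj g Q) :=
    fun v hv => hS'.cj_P (S.bad_norm hg hv)
  have hR : IsPGroup 2 (V ⊔ PP (cj g V) (cj g Q) : Subgroup G) := by
    apply S.isPGroup_V.to_sup_of_normal_right' hS'.P_isPGroup
    intro v hv
    rw [mem_normalizer_iff_cj]; exact hnorm v hv
  have hnil := hR.isNilpotent
  have hBR : V ⊔ TT V Q g ≤ V ⊔ PP (cj g V) (cj g Q) := sup_le_sup_left inf_le_left _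
  have hlt : (V ⊔ TT V Q g).subgroupOf (V ⊔ PP (cj g V) (cj g Q)) < ⊤ := by
    rw [lt_top_iff_ne_top]
    intro h
    rw [subgroupOf_eq_top] at h
    have h1 : y0 ∈ V ⊔ TT V Q g := h (Subgroup.mem_sup_right hy0)
    obtain ⟨v, hv, t, ht, hvt⟩ := (S.mem_VT hg hne hN).mp h1
    have hv1 : v = 1 := by
      apply S.bad3 hg hne hN hv
      have : v = y0 * t⁻¹ := by rw [hvt]; group
      rw [this]
      exact (PP _ _).mul_mem hy0 ((PP _ _).inv_mem (mem_TT.mp ht).1)
    rw [hv1, one_mul] at hvt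
    rw [hvt] at hy0V
    exact hy0V (mem_TT.mp ht).2
  have h1 := Group.normalizerCondition_of_isNilpotent (G := (V ⊔ PP (cj g V) (cj g Q) : Subgroup G)) _ hlt
  obtain ⟨z, hz, hz'⟩ := SetLike.exists_of_lt h1
  rw [mem_subgroupOf] at hz'
  have hzB : cj (z : G) (V ⊔ TT V Q g) = V ⊔ TT V Q g := by
    apply cj_eq_of_le
    intro x hx
    obtain ⟨b, hb, rfl⟩ := exists_of_mem_cj hx
    have hb' : (⟨b, hBR hb⟩ : (V ⊔ PP (cj g V) (cj g Q) : Subgroup G)) ∈
        (V ⊔ TT V Q g).subgroupOf (V ⊔ PP (cj g V) (cj g Q)) := by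
      rw [mem_subgroupOf]; exact hb
    have := (Subgroup.mem_normalizer_iff.mp hz _).mp hb'
    rw [mem_subgroupOf] at this
    exact this
  obtain ⟨v, hv, y, hy, hvy⟩ := (mem_sup_norm hnorm).mp z.2
  have hyz : y = v⁻¹ * z := by rw [hvy]; group
  have hyB : cj y (V ⊔ TT V Q g) = V ⊔ TT V Q g := by
    rw [hyz, cj_mul, hzB]
    exact H32TI.cj_eq_of_mem (Subgroup.inv_mem _ (Subgroup.mem_sup_left hv))
  refine ⟨y, hy, ?_, hyB⟩
  intro h
  apply hz'
  rw [hvy]
  exact mul_mem (Subgroup.mem_sup_left hv) (Subgroup.mem_sup_right (mem_TT.mpr ⟨hy, h⟩))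

end bad

end Setup

end Cfsg.Agent.Lib.H32TI
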