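import Mathlib
import Cfsg.Agent.Lib.H32TI4

set_option autoImplicit false

namespace Cfsg.Agent.Lib.H32TI

open Subgroup

variable {G : Type*} [Group G]

namespace Setup

variable {V Q : Subgroup G} (S : Setup V Q)
include S

section bad

variable [Finite G] {g : G} (hg : cj g V ≤ Q) (hne : cj g V ≠ V)
  (hN : ∀ e, cj e (V ⊔ cj g V) = V ⊔ cj g V → cj e V = V)
include hg hne hN

omit hne hN in
/-- elements of `E` -/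
theorem E_norm {e : G} (heV : ∀ a ∈ cj g V, e * a = a * e) : cj e (cj g V) = cj g V :=
  cj_eq_of_cent heV

theorem PP_inf {y : G} (hy : y ∈ PP V Q) (hy' : y ∈ PP (cj g V) (cj g Q)) : y ∈ cj g V := by
  have hS' := S.conj g
  have h1 : y ∈ V ⊔ cj g V := by
    apply S.cent_E hg hne hy
    intro e he hea
    have h2 : y * e * y⁻¹ * e⁻¹ = 1 := by
      apply S.bad3 hg hne hN (S.comm_mem hy he)
      have e1 : y * e * y⁻¹ * e⁻¹ = y * (e * y⁻¹ * e⁻¹) := by group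
      rw [e1]
      exact (PP _ _).mul_mem hy' (hS'.P_conj (cj_eq_of_cent hea) ((PP _ _).inv_mem hy'))
    calc y * e = (y * e * y⁻¹ * e⁻¹) * (e * y) := by group
      _ = e * y := by rw [h2, one_mul]
  obtain ⟨v, hv, a, ha, rfl⟩ := (S.mem_W hg).mp h1
  have hv1 : v = 1 := by
    apply S.bad3 hg hne hN hv
    have : v = v * a * a⁻¹ := by group
    rw [this]
    exact (PP _ _).mul_mem hy' ((PP _ _).inv_mem (hS'.V_le_P ha))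
  rw [hv1, one_mul]; exact ha

/-- `E` normalizes `T` and `[E, T] ≤ V'` -/
theorem E_T {e t : G} (he : e ∈ PP V Q) (hea : ∀ a ∈ cj g V, e * a = a * e)
    (ht : t ∈ TT V Q g) : e * t * e⁻¹ ∈ TT V Q g ∧ e * t * e⁻¹ * t⁻¹ ∈ cj g V := by
  have hS' := S.conj g
  have ht' := mem_TT.mp ht
  have h1 : e * t * e⁻¹ ∈ PP (cj g V) (cj g Q) := hS'.P_conj (cj_eq_of_cent hea) ht'.1
  refine ⟨mem_TT.mpr ⟨h1, ?_⟩, ?_⟩
  · rw [cj_mul, cj_mul, cj_eq_inv (S.P_norm he), ht'.2, S.P_norm he]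
  · apply S.PP_inf hg hne hN
    · have e1 : e * t * e⁻¹ * t⁻¹ = e * (t * e⁻¹ * t⁻¹) := by group
      rw [e1]
      exact (PP _ _).mul_mem he (S.P_conj ht'.2 ((PP _ _).inv_mem he))
    · exact (PP _ _).mul_mem h1 ((PP _ _).inv_mem ht'.1)

/-- N7 -/
theorem bad7 {y e v : G} (hy : y ∈ PP (cj g V) (cj g Q))
    (hyB : cj y (V ⊔ TT V Q g) = V ⊔ TT V Q g) (he : e ∈ PP V Q)
    (hea : ∀ a ∈ cj g V, e * a = a * e) (hv : v ∈ V) :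
    e * (y * v * y⁻¹) = (y * v * y⁻¹) * e := by
  have hS' := S.conj g
  have hyV' : cj y (cj g V) = cj g V := hS'.P_norm hy
  have heV' : cj e (cj g V) = cj g V := cj_eq_of_cent hea
  -- commutators lie in `V'`
  have key : ∀ w ∈ V, e * (y * w * y⁻¹) * e⁻¹ * (y * w * y⁻¹)⁻¹ ∈ cj g V := by
    intro w hw
    have h1 : y * w * y⁻¹ ∈ V ⊔ TT V Q g :=
      conj_mem_of_cj hyB (Subgroup.mem_sup_left hw)
    obtain ⟨v1, hv1, t1, ht1, h2⟩ := (S.mem_VT hg hne hN).mp h1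
    have h3 := S.E_T hg hne hN he hea ht1
    rw [h2]
    have h4 := S.P_comm he hv1
    have h5 := S.cj_comm hg _ h3.2 v1 hv1
    have e1 : e * (v1 * t1) * e⁻¹ * (v1 * t1)⁻¹ = e * t1 * e⁻¹ * t1⁻¹ := by
      calc e * (v1 * t1) * e⁻¹ * (v1 * t1)⁻¹ = (e * v1) * t1 * e⁻¹ * t1⁻¹ * v1⁻¹ := by group
        _ = v1 * (e * t1 * e⁻¹ * t1⁻¹) * v1⁻¹ := by rw [← h4]; group
        _ = e * t1 * e⁻¹ * t1⁻¹ := by rw [← h5]; group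
    rw [e1]; exact h3.2
  have hW : cj e (cj y V ⊔ cj g V) = cj y V ⊔ cj g V := by
    apply cj_eq_of_le
    rw [cj_sup, heV']
    apply sup_le _ le_sup_right
    intro x hx
    obtain ⟨z, hz, rfl⟩ := exists_of_mem_cj hx
    obtain ⟨w, hw, rfl⟩ := exists_of_mem_cj hz
    have h1 := key w hw
    have e1 : e * (y * w * y⁻¹) * e⁻¹
        = (e * (y * w * y⁻¹) * e⁻¹ * (y * w * y⁻¹)⁻¹) * (y * w * y⁻¹) := by group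
    rw [e1]
    exact mul_mem (Subgroup.mem_sup_right h1) (Subgroup.mem_sup_left (conj_mem_cj hw))
  have hWy : cj y V ⊔ cj g V = cj y (V ⊔ cj g V) := by rw [cj_sup, hyV']
  have h6 : cj (y⁻¹ * e * y) (V ⊔ cj g V) = V ⊔ cj g V := by
    rw [cj_mul, cj_mul, ← hWy, hW, hWy, cj_inv_cj]
  have h7 := hN _ h6
  have h8 : cj e (cj y V) = cj y V := by
    rw [cj_mul, cj_mul] at h7
    rw [← cj_inj (x := y⁻¹), h7, cj_inv_cj]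
  have h9 : e * (y * v * y⁻¹) * e⁻¹ * (y * v * y⁻¹)⁻¹ = 1 := by
    set z := e * (y * v * y⁻¹) * e⁻¹ * (y * v * y⁻¹)⁻¹ with hz
    have hz1 : z ∈ cj g V := key v hv
    have hz2 : z ∈ cj y V :=
      mul_mem (conj_mem_of_cj h8 (conj_mem_cj hv)) (inv_mem (conj_mem_cj hv))
    have hz3 : y⁻¹ * z * y ∈ V := mem_cj.mp hz2
    have hz4 : y⁻¹ * z * y ∈ cj g V := by rw [← mem_cj, hyV']; exact hz1
    have := S.disj hne hz4 hz3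
    calc z = y * (y⁻¹ * z * y) * y⁻¹ := by group
      _ = 1 := by rw [this]; group
  calc e * (y * v * y⁻¹)
      = (e * (y * v * y⁻¹) * e⁻¹ * (y * v * y⁻¹)⁻¹) * (y * v * y⁻¹) * e := by group
    _ = (y * v * y⁻¹) * e := by rw [h9, one_mul]

/-- N8 -/
theorem bad8 {y e : G} (hy : y ∈ PP (cj g V) (cj g Q))
    (hyB : cj y (V ⊔ TT V Q g) = V ⊔ TT V Q g) (he : e ∈ PP V Q)
    (hea : ∀ a ∈ cj g V, e * a = a * e) : e * y * e⁻¹ * y⁻¹ ∈ TT V Q g := by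
  have hS' := S.conj g
  have h1 : e * y * e⁻¹ * y⁻¹ ∈ PP (cj g V) (cj g Q) :=
    (PP _ _).mul_mem (hS'.P_conj (cj_eq_of_cent hea) hy) ((PP _ _).inv_mem hy)
  rw [mem_TT]
  refine ⟨h1, ?_⟩
  obtain ⟨v, hv, hv1⟩ := S.V_ne_bot hne
  refine S.cj_eq_of_comm hv hv1 ?_
  have h2 := S.bad7 hg hne hN ((PP _ _).inv_mem hy) (cj_eq_inv hyB) he hea hv
  rw [inv_inv] at h2
  have h3 := S.P_comm he hv
  have h4 : y * e⁻¹ * y⁻¹ * v = v * (y * e⁻¹ * y⁻¹) := by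
    calc y * e⁻¹ * y⁻¹ * v = y * e⁻¹ * ((y⁻¹ * v * y) * e) * e⁻¹ * y⁻¹ := by group
      _ = v * (y * e⁻¹ * y⁻¹) := by rw [← h2]; group
  calc e * y * e⁻¹ * y⁻¹ * v = e * (y * e⁻¹ * y⁻¹ * v) := by group
    _ = (e * v) * (y * e⁻¹ * y⁻¹) := by rw [h4]; group
    _ = v * (e * y * e⁻¹ * y⁻¹) := by rw [← h3]; group

/-- N9: `E` is abelian -/
theorem bad9 {e₁ e₂ : G} (he₁ : e₁ ∈ PP V Q) (hea₁ : ∀ a ∈ cj g V, e₁ * a = a * e₁)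
    (he₂ : e₂ ∈ PP V Q) (hea₂ : ∀ a ∈ cj g V, e₂ * a = a * e₂) : e₁ * e₂ = e₂ * e₁ := by
  have hS' := S.conj g
  obtain ⟨y, hy, hyV, hyB⟩ := S.bad6 hg hne hN
  have ht₁ := S.bad8 hg hne hN hy hyB he₁ hea₁
  have ht₂ := S.bad8 hg hne hN hy hyB he₂ hea₂
  obtain ⟨t₁, h1⟩ : ∃ t₁, t₁ = e₁ * y * e₁⁻¹ * y⁻¹ := ⟨_, rfl⟩
  obtain ⟨t₂, h2⟩ : ∃ t₂, t₂ = e₂ * y * e₂⁻¹ * y⁻¹ := ⟨_, rfl⟩
  rw [← h1] at ht₁
  rw [← h2] at ht₂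
  have hz₁ := (S.E_T hg hne hN he₁ hea₁ ht₂).2
  have hz₂ := (S.E_T hg hne hN he₂ hea₂ ht₁).2
  obtain ⟨z₁, h3⟩ : ∃ z₁, z₁ = e₁ * t₂ * e₁⁻¹ * t₂⁻¹ := ⟨_, rfl⟩
  obtain ⟨z₂, h4⟩ : ∃ z₂, z₂ = e₂ * t₁ * e₂⁻¹ * t₁⁻¹ := ⟨_, rfl⟩
  rw [← h3] at hz₁
  rw [← h4] at hz₂
  have hz₃ := hS'.comm_mem (mem_TT.mp ht₂).1 (mem_TT.mp ht₁).1
  obtain ⟨z₃, h5⟩ : ∃ z₃, z₃ = t₂ * t₁ * t₂⁻¹ * t₁⁻¹ := ⟨_, rfl⟩
  rw [← h5] at hz₃
  have ha : (e₁ * e₂) * y * (e₁ * e₂)⁻¹ = z₁ * (t₂ * t₁) * y := by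
    calc (e₁ * e₂) * y * (e₁ * e₂)⁻¹ = e₁ * (e₂ * y * e₂⁻¹ * y⁻¹) * y * e₁⁻¹ := by group
      _ = (e₁ * t₂ * e₁⁻¹ * t₂⁻¹) * t₂ * (e₁ * y * e₁⁻¹ * y⁻¹) * y := by rw [← h2]; group
      _ = z₁ * (t₂ * t₁) * y := by rw [← h3, ← h1]; group
  have hb : (e₂ * e₁) * y * (e₂ * e₁)⁻¹ = z₂ * (t₁ * t₂) * y := by
    calc (e₂ * e₁) * y * (e₂ * e₁)⁻¹ = e₂ * (e₁ * y * e₁⁻¹ * y⁻¹) * y * e₂⁻¹ := by group
      _ = (e₂ * t₁ * e₂⁻¹ * t₁⁻¹) * t₁ * (e₂ * y * e₂⁻¹ * y⁻¹) * y := by rw [← h1]; group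
      _ = z₂ * (t₁ * t₂) * y := by rw [← h4, ← h2]; group
  have hc : t₂ * t₁ = z₃ * (t₁ * t₂) := by rw [h5]; group
  have hd : (e₁ * e₂) * y * (e₁ * e₂)⁻¹ = (z₁ * z₃ * z₂⁻¹) * ((e₂ * e₁) * y * (e₂ * e₁)⁻¹) := by
    rw [ha, hb, hc]; group
  have hzV : z₁ * z₃ * z₂⁻¹ ∈ cj g V := mul_mem (mul_mem hz₁ hz₃) (inv_mem hz₂)
  obtain ⟨z, hz⟩ : ∃ z, z = z₁ * z₃ * z₂⁻¹ := ⟨_, rfl⟩
  rw [← hz] at hd hzV
  have hc1 := hea₁ z hzV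
  have hc2 := hea₂ z hzV
  set s := e₁⁻¹ * e₂⁻¹ * e₁ * e₂ with hs
  have hsV : s ∈ V := by
    have := S.comm_mem ((PP V Q).inv_mem he₁) ((PP V Q).inv_mem he₂)
    rwa [inv_inv, inv_inv] at this
  have hsy : s * y * s⁻¹ = z * y := by
    have e1 : s * y * s⁻¹ = (e₂ * e₁)⁻¹ * ((e₁ * e₂) * y * (e₁ * e₂)⁻¹) * (e₂ * e₁) := by
      rw [hs]; group
    rw [e1, hd]
    calc (e₂ * e₁)⁻¹ * (z * ((e₂ * e₁) * y * (e₂ * e₁)⁻¹)) * (e₂ * e₁)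
        = e₁⁻¹ * e₂⁻¹ * (z * e₂) * e₁ * y := by group
      _ = e₁⁻¹ * (z * e₁) * y := by rw [← hc2]; group
      _ = z * y := by rw [← hc1]; group
  have hs1 : s = 1 := by
    by_contra hs1
    apply hyV
    apply S.bad2 hg hne hN hsV hs1 hy
    have : y * s * y⁻¹ * s⁻¹ = z⁻¹ := by
      have : (y * s * y⁻¹ * s⁻¹)⁻¹ = z := by
        calc (y * s * y⁻¹ * s⁻¹)⁻¹ = (s * y * s⁻¹) * y⁻¹ := by group
          _ = z := by rw [hsy]; group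
      rw [← this, inv_inv]
    rw [this]; exact inv_mem hzV
  calc e₁ * e₂ = e₂ * e₁ * s := by rw [hs]; group
    _ = e₂ * e₁ := by rw [hs1, mul_one]

/-- N10 -/
theorem bad10 {e : G} (he : e ∈ PP V Q) (hea : ∀ a ∈ cj g V, e * a = a * e) :
    e ∈ V ⊔ cj g V :=
  S.cent_E hg hne he fun _ he' hea' => S.bad9 hg hne hN he hea he' hea'

end bad

end Setup

end Cfsg.Agent.Lib.H32TI
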