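import Mathlib
import Cfsg.Agent.Lib.H32TI5

set_option autoImplicit false

namespace Cfsg.Agent.Lib.H32TI

open Subgroup

variable {G : Type*} [Group G]

namespace Setup

variable {V Q : Subgroup G} (S : Setup V Q)
include S

/-- two different conjugates of `V` in `W` generate `W` -/
theorem sup_eq_W [Finite G] {g x : G} (hg : cj g V ≤ Q) (hne : cj g V ≠ V)
    (hxW : cj x V ≤ V ⊔ cj g V) (hxV : cj x V ≠ V) : V ⊔ cj x V = V ⊔ cj g V := by
  obtain ⟨p, hp, h⟩ := S.trans_X hg hne hxW hxV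
  have h1 := S.P_norm_W hg hp
  rw [cj_sup, S.P_norm hp] at h1
  rw [h, h1]

theorem not_mem_inter [Finite G] {g m : G} (hg : cj g V ≤ Q) (hm : cj m V = V)
    (hU : ∀ u ∈ cj (m * g) V, u ≠ 1 → ∀ a ∈ cj g V, a ≠ 1 → u * a ≠ a * u) {x : G}
    (h1 : x ∈ V ⊔ cj g V) (h2 : x ∈ V ⊔ cj (m * g) V) : x ∈ V := by
  have hmg := S.cj_mul_le hm hg
  obtain ⟨v, hv, a, ha, rfl⟩ := (S.mem_W hg).mp h1
  obtain ⟨w, hw, u, hu, h3⟩ := (S.mem_W hmg).mp h2
  by_cases ha1 : a = 1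
  · rw [ha1, mul_one]; exact hv
  by_cases hu1 : u = 1
  · rw [h3, hu1, mul_one]; exact hw
  exfalso
  apply hU u hu hu1 a ha ha1
  have h4 : a = v⁻¹ * w * u := by
    calc a = v⁻¹ * (v * a) := by group
      _ = v⁻¹ * w * u := by rw [h3]; group
  have h5 : u * (v⁻¹ * w) = (v⁻¹ * w) * u := S.cj_comm hmg u hu _ (mul_mem (inv_mem hv) hw)
  calc u * a = (u * (v⁻¹ * w)) * u := by rw [h4]; group
    _ = a * u := by rw [h5, h4]

section bad

variable [Finite G] {g : G} (hg : cj g V ≤ Q) (hne : cj g V ≠ V)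
  (hN : ∀ e, cj e (V ⊔ cj g V) = V ⊔ cj g V → cj e V = V)
include hg hne hN

/-- every `p ∈ P` is `u v a` -/
theorem bad_factor {m : G} (hm : cj m V = V)
    (hU : ∀ u ∈ cj (m * g) V, u ≠ 1 → ∀ a ∈ cj g V, a ≠ 1 → u * a ≠ a * u) {p : G}
    (hp : p ∈ PP V Q) : ∃ u ∈ cj (m * g) V, ∃ v ∈ V, ∃ a ∈ cj g V, p = u * (v * a) := by
  have hmg := S.cj_mul_le hm hg
  obtain ⟨a0, ha0, ha01⟩ := S.cj_ne_bot hne
  have hv2 := S.comm_mem hp (S.cj_le_P hg ha0)
  obtain ⟨u, hu, hua⟩ := S.exists_conj (x := g) (y := m * g) hg hmg hU ha0 ha01 hv2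
  have hpa : p * a0 * p⁻¹ = u * a0 * u⁻¹ := by rw [hua]; group
  have heP : u⁻¹ * p ∈ PP V Q := (PP V Q).mul_mem ((PP V Q).inv_mem (S.cj_le_P hmg hu)) hp
  have hec : u⁻¹ * p * a0 = a0 * (u⁻¹ * p) := by
    calc u⁻¹ * p * a0 = u⁻¹ * (p * a0 * p⁻¹) * p := by group
      _ = a0 * (u⁻¹ * p) := by rw [hpa]; group
  have h1 := S.bad10 hg hne hN heP (S.cent_of_comm hg hne heP ha0 ha01 hec)
  obtain ⟨v, hv, a, ha, h2⟩ := (S.mem_W hg).mp h1
  refine ⟨u, hu, v, hv, a, ha, ?_⟩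
  rw [← h2]; group

/-- involutions of `P` lie in `W ∪ W₂` -/
theorem bad11 {m : G} (hm : cj m V = V)
    (hU : ∀ u ∈ cj (m * g) V, u ≠ 1 → ∀ a ∈ cj g V, a ≠ 1 → u * a ≠ a * u) {p : G}
    (hp : p ∈ PP V Q) (hp2 : p * p = 1) : p ∈ V ⊔ cj g V ∨ p ∈ V ⊔ cj (m * g) V := by
  have hmg := S.cj_mul_le hm hg
  obtain ⟨u, hu, v, hv, a, ha, rfl⟩ := S.bad_factor hg hne hN hm hU hp
  have huu : u * u = 1 := (S.conj (m * g)).sq u hu
  have huv : u * v = v * u := S.cj_comm hmg u hu v hv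
  have hva : a * v = v * a := S.cj_comm hg a ha v hv
  have haa : a * a = 1 := (S.conj g).sq a ha
  have hvv : v * v = 1 := S.sq v hv
  by_cases hu1 : u = 1
  · left; rw [hu1, one_mul]
    exact mul_mem (Subgroup.mem_sup_left hv) (Subgroup.mem_sup_right ha)
  by_cases ha1 : a = 1
  · right; rw [ha1, mul_one]
    exact mul_mem (Subgroup.mem_sup_right hu) (Subgroup.mem_sup_left hv)
  exfalso
  apply hU u hu hu1 a ha ha1
  have h1 : (u * a) * (u * a) = 1 := by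
    calc (u * a) * (u * a) = u * (v * v) * a * u * a := by rw [hvv]; group
      _ = u * v * (v * a) * u * a := by group
      _ = u * v * a * (v * u) * a := by rw [← hva]; group
      _ = (u * (v * a)) * (u * (v * a)) := by rw [← huv]; group
      _ = 1 := hp2
  have ha' : a⁻¹ = a := inv_eq_of_mul_eq_one_left haa
  have hu' : u⁻¹ = u := inv_eq_of_mul_eq_one_left huu
  calc u * a = (a⁻¹ * u⁻¹) * ((u * a) * (u * a)) := by group
    _ = a * u := by rw [h1, mul_one, ha', hu']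

/-- a nontrivial element of `V` cannot normalize `W'` -/
theorem bad13 {h : G} (hh : cj h V = cj g V) (hhQ : cj h (cj g V) ≤ cj g Q) {v₁ : G} (hv₁ : v₁ ∈ V)
    (hv₁1 : v₁ ≠ 1) (hnorm : cj v₁ (cj h (V ⊔ cj g V)) = cj h (V ⊔ cj g V)) :
    cj h (V ⊔ cj g V) ≤ TT V Q g := by
  have hS' := S.conj g
  have hW' : cj h (V ⊔ cj g V) = cj g V ⊔ cj h (cj g V) := by rw [cj_sup, hh]
  have hP' : PP (cj g V) (cj g Q) = cj h (PP V Q) := by
    have h1 : cj (h⁻¹ * g) V = V := by rw [cj_mul, ← hh, cj_inv_cj]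
    rw [PP_cj]
    have h2 := S.cj_P h1
    rw [cj_mul] at h2
    rw [← cj_inj (x := h⁻¹), h2, cj_inv_cj]
  have hle : cj h (V ⊔ cj g V) ≤ PP (cj g V) (cj g Q) := by
    rw [hP']; exact cj_mono (S.W_le_P hg)
  have hcomm : ∀ a ∈ cj h (V ⊔ cj g V), ∀ b ∈ cj h (V ⊔ cj g V), a * b = b * a := by
    intro a ha b hb
    obtain ⟨a, ha', rfl⟩ := exists_of_mem_cj ha
    obtain ⟨b, hb', rfl⟩ := exists_of_mem_cj hb
    have := S.W_comm hg a ha' b hb'
    calc h * a * h⁻¹ * (h * b * h⁻¹) = h * (a * b) * h⁻¹ := by group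
      _ = h * b * h⁻¹ * (h * a * h⁻¹) := by rw [this]; group
  have hsq : ∀ a ∈ cj h (V ⊔ cj g V), a * a = 1 := by
    intro a ha
    obtain ⟨a, ha', rfl⟩ := exists_of_mem_cj ha
    calc h * a * h⁻¹ * (h * a * h⁻¹) = h * (a * a) * h⁻¹ := by group
      _ = 1 := by rw [S.W_sq hg ha']; group
  -- an element outside `V'`
  obtain ⟨a, haW, haV⟩ : ∃ a ∈ cj h (V ⊔ cj g V), a ∉ cj g V := by
    obtain ⟨b, hb, hb1⟩ := S.cj_ne_bot hne
    refine ⟨h * b * h⁻¹, conj_mem_cj (Subgroup.mem_sup_right hb), ?_⟩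
    intro hc
    rw [← hh, mem_cj] at hc
    have e : h⁻¹ * (h * b * h⁻¹) * h = b := by group
    rw [e] at hc
    exact hb1 (S.disj hne hb hc)
  -- `w` with `[v₁, w] ∈ V'`
  obtain ⟨w, hwW, hwV, hw⟩ : ∃ w ∈ cj h (V ⊔ cj g V), w ∉ cj g V ∧
      v₁ * w * v₁⁻¹ * w⁻¹ ∈ cj g V := by
    have ha2 : v₁ * a * v₁⁻¹ ∈ cj h (V ⊔ cj g V) := conj_mem_of_cj hnorm haW
    have hvv : v₁ * v₁ = 1 := S.sq v₁ hv₁
    have hvi : v₁⁻¹ = v₁ := S.inv_eq hv₁
    by_cases hc : a * (v₁ * a * v₁⁻¹) ∈ cj g V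
    · refine ⟨a, haW, haV, ?_⟩
      have h3 : v₁ * a * v₁⁻¹ * a⁻¹ = a * (v₁ * a * v₁⁻¹) := by
        have : a⁻¹ = a := inv_eq_of_mul_eq_one_left (hsq a haW)
        rw [hcomm a haW _ ha2, this]
      rw [h3]; exact hc
    · refine ⟨a * (v₁ * a * v₁⁻¹), mul_mem haW ha2, hc, ?_⟩
      have h3 : v₁ * (a * (v₁ * a * v₁⁻¹)) * v₁⁻¹ * (a * (v₁ * a * v₁⁻¹))⁻¹ = 1 := by
        have e1 : v₁ * (a * (v₁ * a * v₁⁻¹)) * v₁⁻¹ = (v₁ * a * v₁⁻¹) * a := by
          calc v₁ * (a * (v₁ * a * v₁⁻¹)) * v₁⁻¹ = (v₁ * a * v₁⁻¹) * (v₁ * v₁) * a * (v₁ * v₁)⁻¹ := by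
                group
            _ = (v₁ * a * v₁⁻¹) * a := by rw [hvv]; group
        rw [e1, ← hcomm a haW _ ha2]; group
      rw [h3]; exact one_mem _
  -- hence `w ∈ T`
  have hwP := hle hwW
  have hwT : w ∈ TT V Q g := by
    rw [mem_TT]
    refine ⟨hwP, ?_⟩
    apply S.bad2 hg hne hN hv₁ hv₁1 hwP
    have : w * v₁ * w⁻¹ * v₁⁻¹ = (v₁ * w * v₁⁻¹ * w⁻¹)⁻¹ := by group
    rw [this]; exact inv_mem hw
  -- `w ∈ X`
  obtain ⟨x, hx, hxW⟩ : ∃ x, w ∈ cj x V ∧ cj x V ≤ cj h (V ⊔ cj g V) := by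
    obtain ⟨w', hw', hww⟩ := exists_of_mem_cj hwW
    obtain ⟨x, hx, hxW⟩ := S.exists_X hg hne hw'
    refine ⟨h * x, ?_, ?_⟩
    · rw [hww, cj_mul]; exact conj_mem_cj hx
    · rw [cj_mul]; exact cj_mono hxW
  have hw1 : w ≠ 1 := by rintro rfl; exact hwV (one_mem _)
  have hXcomm : ∀ a ∈ cj x V, ∀ v ∈ V, a * v = v * a := by
    have h3 := S.commute_of_normalizes (x := x) (y := 1) (by
      intro v hv
      rw [cj_one] at hv
      refine (S.conj x).cj_eq_of_comm hx hw1 ?_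
      exact (S.bad4 hg hne hN (mem_TT.mp hwT).1 (mem_TT.mp hwT).2 hv).symm)
    intro a ha v hv
    exact h3 a ha v (by rwa [cj_one])
  have hXT : cj x V ≤ TT V Q g := by
    intro a ha
    rw [mem_TT]
    refine ⟨hle (hxW ha), ?_⟩
    obtain ⟨v, hv, hv1⟩ := S.V_ne_bot hne
    exact S.cj_eq_of_comm hv hv1 (hXcomm a ha v hv)
  have hV'T : cj g V ≤ TT V Q g := by
    intro a ha
    rw [mem_TT]
    refine ⟨hS'.V_le_P ha, ?_⟩
    exact cj_eq_of_cent fun v hv => S.cj_comm hg a ha v hv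
  -- `W' = V' X`
  have h4 : V ⊔ cj (h⁻¹ * x) V = V ⊔ cj g V := by
    apply S.sup_eq_W hg hne
    · rw [cj_mul]
      have := cj_mono (x := h⁻¹) hxW
      rwa [cj_inv_cj] at this
    · intro hc
      rw [cj_mul] at hc
      have : cj x V = cj h V := by rw [← cj_inj (x := h⁻¹), hc, cj_inv_cj]
      rw [this, hh] at hx
      exact hwV hx
  rw [← h4, cj_sup, hh, cj_mul, cj_cj_inv]
  exact sup_le hV'T hXT

/-- contradiction -/
theorem bad : False := by
  classical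
  have hS' := S.conj g
  obtain ⟨m, hm, hU⟩ := S.exists_U hg hne
  have hmg := S.cj_mul_le hm hg
  have hmne := S.cj_mul_ne hm hne
  have hgm : cj (g * m) V = cj g V := by rw [cj_mul, hm]
  have hP' : PP (cj g V) (cj g Q) = cj g (PP V Q) := PP_cj V Q g
  have hW2 : V ⊔ cj (m * g) V = cj m (V ⊔ cj g V) := by rw [cj_sup, hm, cj_mul]
  -- `P' = W₁' W₂'` is not inside `T`
  have hnot : ¬ (cj g (V ⊔ cj g V) ≤ TT V Q g ∧ cj (g * m) (V ⊔ cj g V) ≤ TT V Q g) := by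
    rintro ⟨h1, h2⟩
    obtain ⟨y, hy, hyV⟩ := S.bad5 hg hne hN
    rw [hP'] at hy
    obtain ⟨p, hp, rfl⟩ := exists_of_mem_cj hy
    obtain ⟨u, hu, v, hv, a, ha, rfl⟩ := S.bad_factor hg hne hN hm hU hp
    apply hyV
    have e : g * (u * (v * a)) * g⁻¹ = (g * u * g⁻¹) * (g * (v * a) * g⁻¹) := by group
    have h3 : g * u * g⁻¹ ∈ TT V Q g := by
      apply h2
      rw [cj_mul, ← hW2]
      exact conj_mem_cj (Subgroup.mem_sup_right hu)
    have h4 : g * (v * a) * g⁻¹ ∈ TT V Q g :=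
      h1 (conj_mem_cj (mul_mem (Subgroup.mem_sup_left hv) (Subgroup.mem_sup_right ha)))
    rw [e]
    exact (mem_TT.mp (mul_mem h3 h4)).2
  have hhQ1 : cj g (cj g V) ≤ cj g Q := cj_mono hg
  have hhQ2 : cj (g * m) (cj g V) ≤ cj g Q := by
    rw [cj_mul]
    have := cj_mono (x := g) hmg
    rwa [cj_mul m g] at this
  -- the two subgroups
  set W₁ := cj g (V ⊔ cj g V) with hW₁
  set W₂ := cj (g * m) (V ⊔ cj g V) with hW₂
  have hcard : Nat.card W₁ = Nat.card W₂ := by rw [card_cj, card_cj]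
  have hinv : ∀ x ∈ PP (cj g V) (cj g Q), x * x = 1 → x ∈ W₁ ∨ x ∈ W₂ := by
    intro x hx hxx
    rw [hP'] at hx
    obtain ⟨p, hp, rfl⟩ := exists_of_mem_cj hx
    have hpp : p * p = 1 := by
      calc p * p = g⁻¹ * (g * p * g⁻¹ * (g * p * g⁻¹)) * g := by group
        _ = 1 := by rw [hxx]; group
    rcases S.bad11 hg hne hN hm hU hp hpp with h | h
    · left; exact conj_mem_cj h
    · right
      rw [hW₂, cj_mul, ← hW2]
      exact conj_mem_cj h
  have hW1P : W₁ ≤ PP (cj g V) (cj g Q) := by rw [hP']; exact cj_mono (S.W_le_P hg)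
  have hW2P : W₂ ≤ PP (cj g V) (cj g Q) := by
    rw [hP', hW₂, cj_mul, ← hW2]
    exact cj_mono (S.W_le_P hmg)
  have hW1sq : ∀ x ∈ W₁, x * x = 1 := by
    intro x hx
    obtain ⟨p, hp, rfl⟩ := exists_of_mem_cj hx
    calc g * p * g⁻¹ * (g * p * g⁻¹) = g * (p * p) * g⁻¹ := by group
      _ = 1 := by rw [S.W_sq hg hp]; group
  have hW2sq : ∀ x ∈ W₂, x * x = 1 := by
    intro x hx
    obtain ⟨p, hp, rfl⟩ := exists_of_mem_cj hx
    calc g * m * p * (g * m)⁻¹ * (g * m * p * (g * m)⁻¹) = (g * m) * (p * p) * (g * m)⁻¹ := by group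
      _ = 1 := by rw [S.W_sq hg hp]; group
  have hinter : ∀ x, x ∈ W₁ → x ∈ W₂ → x ∈ cj g V := by
    intro x h1 h2
    rw [hW₂, cj_mul, ← hW2] at h2
    rw [mem_cj]
    exact S.not_mem_inter hg hm hU (mem_cj.mp h1) (mem_cj.mp h2)
  have hne12 : W₁ ≠ W₂ := by
    intro h
    obtain ⟨b, hb, hb1⟩ := S.cj_ne_bot hne
    have h1 : g * b * g⁻¹ ∈ W₁ := conj_mem_cj (Subgroup.mem_sup_right hb)
    have h2 := hinter _ h1 (h ▸ h1)
    rw [mem_cj] at h2
    have e : g⁻¹ * (g * b * g⁻¹) * g = b := by group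
    rw [e] at h2
    exact hb1 (S.disj hne hb h2)
  have hperm : ∀ v ∈ V, ∀ X : Subgroup G, X ≤ PP (cj g V) (cj g Q) → (∀ x ∈ X, x * x = 1) →
      Nat.card X = Nat.card W₁ → cj v X = W₁ ∨ cj v X = W₂ := by
    intro v hv X hXP hXsq hXc
    have h1 : (cj v X : Set G) ⊆ (W₁ : Set G) ∪ W₂ := by
      intro x hx
      obtain ⟨y, hy, rfl⟩ := exists_of_mem_cj hx
      have h2 : v * y * v⁻¹ ∈ PP (cj g V) (cj g Q) := hS'.P_conj (S.bad_norm hg hv) (hXP hy)
      have h3 : v * y * v⁻¹ * (v * y * v⁻¹) = 1 := by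
        calc v * y * v⁻¹ * (v * y * v⁻¹) = v * (y * y) * v⁻¹ := by group
          _ = 1 := by rw [hXsq y hy]; group
      rcases hinv _ h2 h3 with h4 | h4
      · exact Or.inl h4
      · exact Or.inr h4
    rcases SubgroupClass.subset_union.mp h1 with h2 | h2
    · left
      exact eq_of_le_card h2 ((card_cj v X).trans hXc).ge
    · right
      exact eq_of_le_card h2 ((card_cj v X).trans (hXc.trans hcard)).ge
  by_cases hcase : ∃ v₁ ∈ V, v₁ ≠ 1 ∧ cj v₁ W₁ = W₁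
  · obtain ⟨v₁, hv₁, hv₁1, hn⟩ := hcase
    have hn2 : cj v₁ W₂ = W₂ := by
      rcases hperm v₁ hv₁ W₂ hW2P hW2sq hcard.symm with h | h
      · exfalso
        apply hne12
        rw [← cj_inj (x := v₁), h, hn]
      · exact h
    exact hnot ⟨S.bad13 hg hne hN rfl hhQ1 hv₁ hv₁1 hn, S.bad13 hg hne hN hgm hhQ2 hv₁ hv₁1 hn2⟩
  · push Not at hcase
    have hswap : ∀ v ∈ V, v ≠ 1 → cj v W₁ = W₂ := by
      intro v hv hv1
      rcases hperm v hv W₁ hW1P hW1sq rfl with h | h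
      · exact absurd h (hcase v hv hv1)
      · exact h
    have hswap2 : ∀ v ∈ V, v ≠ 1 → cj v W₂ = W₁ := by
      intro v hv hv1
      rw [← hswap v hv hv1, ← cj_mul, S.sq v hv, cj_one]
    have huniq : ∀ v ∈ V, v ≠ 1 → ∀ w ∈ V, w ≠ 1 → v = w := by
      intro v hv hv1 w hw hw1
      by_contra hvw
      have h1 : v * w ≠ 1 := by
        intro h
        apply hvw
        calc v = (v * w) * w⁻¹ := by group
          _ = w := by rw [h, one_mul, S.inv_eq hw]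
      apply hcase (v * w) (mul_mem hv hw) h1
      rw [cj_mul, hswap w hw hw1, hswap2 v hv hv1]
    -- transfer uniqueness to conjugates
    have huniq' : ∀ x, ∀ a ∈ cj x V, a ≠ 1 → ∀ b ∈ cj x V, b ≠ 1 → a = b := by
      intro x a ha ha1 b hb hb1
      have h1 := mem_cj.mp ha
      have h2 := mem_cj.mp hb
      have h3 : x⁻¹ * a * x ≠ 1 := by
        intro h; apply ha1
        calc a = x * (x⁻¹ * a * x) * x⁻¹ := by group
          _ = 1 := by rw [h]; group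
      have h4 : x⁻¹ * b * x ≠ 1 := by
        intro h; apply hb1
        calc b = x * (x⁻¹ * b * x) * x⁻¹ := by group
          _ = 1 := by rw [h]; group
      have h5 := huniq _ h1 h3 _ h2 h4
      calc a = x * (x⁻¹ * a * x) * x⁻¹ := by group
        _ = b := by rw [h5]; group
    obtain ⟨a0, ha0, ha01⟩ := S.cj_ne_bot hne
    obtain ⟨u0, hu0, hu01⟩ := S.cj_ne_bot hmne
    obtain ⟨z, hz, hz1⟩ := S.V_ne_bot hne
    have ha0' : a0⁻¹ = a0 := (S.conj g).inv_eq ha0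
    have hu0' : u0⁻¹ = u0 := (S.conj (m * g)).inv_eq hu0
    obtain ⟨c, hc⟩ : ∃ c, c = a0 * u0 := ⟨_, rfl⟩
    have hcP : c ∈ PP V Q := by rw [hc]; exact mul_mem (S.cj_le_P hg ha0) (S.cj_le_P hmg hu0)
    have hcc1 : c * c ≠ 1 := by
      intro h
      apply hU u0 hu0 hu01 a0 ha0 ha01
      calc u0 * a0 = (u0⁻¹ * a0⁻¹) * 1 := by rw [hu0', ha0', mul_one]
        _ = (u0⁻¹ * a0⁻¹) * (c * c) := by rw [h]
        _ = a0 * u0 := by rw [hc]; group
    have hcz : c * c = z := huniq _ (S.sq_mem hcP) hcc1 z hz hz1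
    have key : ∀ p ∈ PP V Q, p * p ≠ 1 → p ∈ zpowers c := by
      intro p hp hpp
      obtain ⟨u, hu, v, hv, a, ha, rfl⟩ := S.bad_factor hg hne hN hm hU hp
      have huu : u * u = 1 := (S.conj (m * g)).sq u hu
      have huv : u * v = v * u := S.cj_comm hmg u hu v hv
      have hva : a * v = v * a := S.cj_comm hg a ha v hv
      have haa : a * a = 1 := (S.conj g).sq a ha
      have hvv : v * v = 1 := S.sq v hv
      have hu1 : u ≠ 1 := by
        rintro rfl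
        apply hpp
        calc 1 * (v * a) * (1 * (v * a)) = v * (a * v) * a := by group
          _ = (v * v) * (a * a) := by rw [hva]; group
          _ = 1 := by rw [hvv, haa, one_mul]
      have ha1 : a ≠ 1 := by
        rintro rfl
        apply hpp
        calc u * (v * 1) * (u * (v * 1)) = u * (v * u) * v := by group
          _ = (u * u) * (v * v) := by rw [← huv]; group
          _ = 1 := by rw [hvv, huu, one_mul]
      have hu2 : u = u0 := huniq' (m * g) u hu hu1 u0 hu0 hu01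
      have ha2 : a = a0 := huniq' g a ha ha1 a0 ha0 ha01
      have e1 : u * (v * a) = v * c⁻¹ := by
        rw [← mul_assoc, huv, hu2, ha2, hc, mul_inv_rev, hu0', ha0', mul_assoc]
      rw [e1]
      by_cases hv1 : v = 1
      · rw [hv1, one_mul]; exact inv_mem (mem_zpowers c)
      · have : v = c * c := by rw [hcz]; exact huniq v hv hv1 z hz hz1
        rw [this]
        have e2 : c * c * c⁻¹ = c := by group
        rw [e2]; exact mem_zpowers c
    have hA : zpowers c = V := by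
      apply S.mx
      · intro v hv
        by_cases hv1 : v = 1
        · rw [hv1]; exact one_mem _
        · have : v = c * c := by rw [hcz]; exact huniq v hv hv1 z hz hz1
          rw [this]; exact mul_mem (mem_zpowers c) (mem_zpowers c)
      · intro a ha
        have : zpowers c ≤ PP V Q := by rw [zpowers_le]; exact hcP
        exact S.P_norm (this ha)
      · intro a ha b hb
        obtain ⟨i, rfl⟩ := mem_zpowers_iff.mp ha
        obtain ⟨j, rfl⟩ := mem_zpowers_iff.mp hb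
        rw [← zpow_add, ← zpow_add, add_comm]
      · intro m' hm'
        apply cj_eq_of_le
        rw [cj, Subgroup.map_le_iff_le_comap, zpowers_le]
        show m' * c * m'⁻¹ ∈ zpowers c
        apply key _ (S.P_conj hm' hcP)
        intro h
        apply hcc1
        calc c * c = m'⁻¹ * (m' * c * m'⁻¹ * (m' * c * m'⁻¹)) * m' := by group
          _ = 1 := by rw [h]; group
    apply hcc1
    apply S.sq
    rw [← hA]; exact mem_zpowers c

end bad

/-- conclusion (a) -/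
theorem V_le_Q' [Finite G] {g : G} (hg : cj g V ≤ Q) (hne : cj g V ≠ V) : V ≤ cj g Q := by
  by_cases h : ∃ e, cj e (V ⊔ cj g V) = V ⊔ cj g V ∧ cj e V ≠ V
  · exact S.star hg hne h
  · push Not at h
    exact (S.bad hg hne h).elim

end Setup

end Cfsg.Agent.Lib.H32TI
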