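import Mathlib
import Cfsg.Agent.Lib.H32TI6
import Cfsg.Agent.Lib.H32JDSL

set_option autoImplicit false

namespace Cfsg.Agent.Lib.H32TI

open Subgroup

/-- two additive subgroups which are inverse to each other -/
theorem jd_of_dual {E : Type*} [Ring E] (h2 : ∀ x : E, x + x = 0) (J J' : AddSubgroup E)
    (h1 : (1 : E) ∈ J) (hJ : ∀ x ∈ J, x ≠ 0 → ∃ y ∈ J', x * y = 1 ∧ y * x = 1)
    (hJ' : ∀ y ∈ J', y ≠ 0 → ∃ x ∈ J, x * y = 1 ∧ y * x = 1) :
    H32JD.IsJD J ∧ J' = J := by
  have key : H32JD.IsJD J := by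
    refine ⟨h1, ?_⟩
    intro c hc hc0
    obtain ⟨c', hc', hcc', hc'c⟩ := hJ c hc hc0
    by_cases hb0 : c + 1 = 0
    · have : c = 1 := by
        have := eq_neg_of_add_eq_zero_left hb0
        rwa [H32JD.neg_eq h2] at this
      refine ⟨1, h1, ?_, ?_⟩ <;> rw [this, mul_one]
    · obtain ⟨b', hb', hbb', hb'b⟩ := hJ (c + 1) (J.add_mem hc h1) hb0
      have h1' : (1 : E) ∈ J' := by
        by_cases h10 : (1 : E) = 0
        · rw [h10]; exact J'.zero_mem
        obtain ⟨y, hy, hy1, -⟩ := hJ 1 h1 h10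
        rw [one_mul] at hy1
        rwa [hy1] at hy
      have e1 : 1 + b' = b' * c := by
        have : b' * (c + 1) = 1 := hb'b
        rw [mul_add, mul_one] at this
        calc 1 + b' = (b' * c + b') + b' := by rw [this]
          _ = b' * c := by rw [add_assoc, h2, add_zero]
      have hne : 1 + b' ≠ 0 := by
        intro h
        rw [e1] at h
        apply hc0
        calc c = (c + 1) * (b' * c) := by rw [← mul_assoc, hbb', one_mul]
          _ = 0 := by rw [h, mul_zero]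
      obtain ⟨x, hx, hx1, hx2⟩ := hJ' (1 + b') (J'.add_mem h1' hb') hne
      have e2 : x = 1 + c' := by
        have e3 : (b' * c) * (c' * (c + 1)) = 1 := by
          calc (b' * c) * (c' * (c + 1)) = b' * (c * c') * (c + 1) := by noncomm_ring
            _ = 1 := by rw [hcc', mul_one, hb'b]
        calc x = x * ((b' * c) * (c' * (c + 1))) := by rw [e3, mul_one]
          _ = (x * (1 + b')) * (c' * (c + 1)) := by rw [e1, mul_assoc x]
          _ = 1 + c' := by rw [hx1, one_mul, mul_add, hc'c, mul_one]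
      refine ⟨c', ?_, hcc', hc'c⟩
      have := J.sub_mem hx h1
      rw [e2] at this
      have e4 : 1 + c' - 1 = c' := by abel
      rwa [e4] at this
  refine ⟨key, le_antisymm ?_ ?_⟩
  · intro y hy
    by_cases hy0 : y = 0
    · rw [hy0]; exact J.zero_mem
    obtain ⟨x, hx, hx1, hx2⟩ := hJ' y hy hy0
    have hx0 : x ≠ 0 := by
      rintro rfl
      rw [zero_mul] at hx1
      apply hy0
      calc y = y * 1 := (mul_one y).symm
        _ = 0 := by rw [← hx1, mul_zero]
    obtain ⟨z, hz, hz1, hz2⟩ := key.inv x hx hx0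
    have : y = z := by
      calc y = y * (x * z) := by rw [hz1, mul_one]
        _ = z := by rw [← mul_assoc, hx2, one_mul]
    rw [this]; exact hz
  · intro x hx
    by_cases hx0 : x = 0
    · rw [hx0]; exact J'.zero_mem
    obtain ⟨y, hy, hy1, hy2⟩ := key.inv x hx hx0
    have hy0 : y ≠ 0 := by
      rintro rfl
      rw [mul_zero] at hy1
      apply hx0
      calc x = 1 * x := (one_mul x).symm
        _ = 0 := by rw [← hy1, zero_mul]
    obtain ⟨z, hz, hz1, hz2⟩ := hJ y hy hy0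
    have : x = z := by
      calc x = x * (y * z) := by rw [hz1, mul_one]
        _ = z := by rw [← mul_assoc, hy1, one_mul]
    rw [this]; exact hz

variable {G : Type*} [Group G]

/-- commutator `p a p⁻¹ a⁻¹` -/
def kk (p a : G) : G := p * a * p⁻¹ * a⁻¹

theorem kk_mul_self (p a : G) : p * a * p⁻¹ = kk p a * a := by unfold kk; group

namespace Setup

variable {V Q : Subgroup G} (S : Setup V Q)
include S

theorem kk_mem [Finite G] {g p a : G} (hg : cj g V ≤ Q) (hp : p ∈ PP V Q) (ha : a ∈ cj g V) :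
    kk p a ∈ V := S.comm_mem hp (S.cj_le_P hg ha)

theorem kk_mul_right [Finite G] {g p a b : G} (hg : cj g V ≤ Q) (hp : p ∈ PP V Q)
    (ha : a ∈ cj g V) (hb : b ∈ cj g V) : kk p (a * b) = kk p a * kk p b := by
  have h := S.cj_comm hg a ha _ (S.kk_mem hg hp hb)
  calc kk p (a * b) = (kk p a) * (a * kk p b) * a⁻¹ := by unfold kk; group
    _ = kk p a * kk p b := by rw [h]; group

theorem kk_mul_left [Finite G] {g p q a : G} (hg : cj g V ≤ Q) (hp : p ∈ PP V Q)
    (hq : q ∈ PP V Q) (ha : a ∈ cj g V) : kk (p * q) a = kk p a * kk q a := by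
  have h := S.P_comm hp (S.kk_mem hg hq ha)
  have h2 := S.ab _ (S.kk_mem hg hp ha) _ (S.kk_mem hg hq ha)
  calc kk (p * q) a = (p * kk q a) * a * p⁻¹ * a⁻¹ := by unfold kk; group
    _ = kk q a * kk p a := by rw [← h]; unfold kk; group
    _ = _ := h2.symm

theorem kk_eq_one [Finite G] {g p a b : G} (hg : cj g V ≤ Q) (hne : cj g V ≠ V)
    (hp : p ∈ PP V Q) (ha : a ∈ cj g V) (ha1 : a ≠ 1) (h : kk p a = 1) (hb : b ∈ cj g V) :
    kk p b = 1 := by
  have h1 : p * a = a * p := by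
    calc p * a = kk p a * (a * p) := by unfold kk; group
      _ = a * p := by rw [h, one_mul]
  have h2 := S.cent_of_comm hg hne hp ha ha1 h1 b hb
  calc kk p b = (p * b) * p⁻¹ * b⁻¹ := rfl
    _ = 1 := by rw [h2]; group

/-- the duality between the two families of shears -/
theorem dual_aux [Finite G] {g p p' : G} (hg : cj g V ≤ Q) (hne : cj g V ≠ V)
    (hp : p ∈ PP V Q) (hp' : ∀ v ∈ V, kk p' v ∈ cj g V)
    (h : cj p (cj g V) = cj p' V) :
    (∀ a ∈ cj g V, kk p' (kk p a) = a) ∧ (∀ v ∈ V, kk p (kk p' v) = v) := by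
  have huniq : ∀ v ∈ V, ∀ w ∈ V, ∀ a ∈ cj g V, ∀ b ∈ cj g V, v * a = w * b → v = w ∧ a = b := by
    intro v hv w hw a ha b hb hvw
    have h1 : w⁻¹ * v = b * a⁻¹ := by
      calc w⁻¹ * v = w⁻¹ * (v * a) * a⁻¹ := by group
        _ = b * a⁻¹ := by rw [hvw]; group
    have h2 : w⁻¹ * v = 1 := by
      apply S.disj hne _ (mul_mem (inv_mem hw) hv)
      rw [h1]; exact mul_mem hb (inv_mem ha)
    constructor
    · calc v = w * (w⁻¹ * v) := by group
        _ = w := by rw [h2, mul_one]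
    · rw [h1] at h2
      calc a = (b * a⁻¹)⁻¹ * b := by group
        _ = b := by rw [h2]; group
  constructor
  · intro a ha
    have h1 : p * a * p⁻¹ ∈ cj p' V := by rw [← h]; exact conj_mem_cj ha
    obtain ⟨v, hv, h2⟩ := exists_of_mem_cj h1
    rw [kk_mul_self, kk_mul_self, S.cj_comm hg _ (hp' v hv) v hv] at h2
    obtain ⟨h3, h4⟩ := huniq _ (S.kk_mem hg hp ha) _ hv _ ha _ (hp' v hv) h2
    rw [h3, ← h4]
  · intro v hv
    have h1 : p' * v * p'⁻¹ ∈ cj p (cj g V) := by rw [h]; exact conj_mem_cj hv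
    obtain ⟨a, ha, h2⟩ := exists_of_mem_cj h1
    rw [kk_mul_self, kk_mul_self, S.cj_comm hg _ (hp' v hv) v hv] at h2
    obtain ⟨h3, h4⟩ := huniq _ hv _ (S.kk_mem hg hp ha) _ (hp' v hv) _ ha h2
    rw [h4, ← h3]

end Setup

end Cfsg.Agent.Lib.H32TI
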