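import Mathlib
import Cfsg.Agent.Lib.H32TI7

set_option autoImplicit false

namespace Cfsg.Agent.Lib.H32TI

open Subgroup

variable {G : Type*} [Group G]

namespace Setup

variable {V Q : Subgroup G} (S : Setup V Q)
include S

theorem H_le [Finite G] {g : G} (hg : cj g V ≤ Q) (hne : cj g V ≠ V) (hV : V ≤ cj g Q) :
    PP V Q ⊔ cj g (PP V Q) ≤ normalizer ((V ⊔ cj g V : Subgroup G) : Set G) := by
  have S' := S.conj g
  have hg' : cj g⁻¹ (cj g V) ≤ cj g Q := by rw [cj_inv_cj]; exact hV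
  apply sup_le
  · intro p hp
    rw [mem_normalizer_iff_cj]; exact S.P_norm_W hg hp
  · intro p hp
    rw [← PP_cj] at hp
    rw [mem_normalizer_iff_cj]
    have := S'.P_norm_W hg' hp
    rwa [cj_inv_cj, sup_comm] at this

set_option maxHeartbeats 1000000 in
theorem ident [Finite G] {g : G} (hg : cj g V ≤ Q) (hne : cj g V ≠ V) (hV : V ≤ cj g Q) :
    ∃ (F : Type) (_ : Field F) (_ : Fintype F), Fintype.card F = Nat.card V ∧
      (∃ Θ : ↥(PP V Q ⊔ cj g (PP V Q)) →* Matrix.SpecialLinearGroup (Fin 2) F,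
        Function.Surjective Θ ∧ ∀ h, Θ h = 1 ↔ (h : G) ∈ centralizer ((V ⊔ cj g V : Subgroup G) : Set G)) ∧
      ∀ x ∈ V, ∀ y ∈ V, x ≠ 1 → y ≠ 1 → ∃ h : G, cj h V = V ∧ h * x * h⁻¹ = y := by
  classical
  have S' := S.conj g
  have hg' : cj g⁻¹ (cj g V) ≤ cj g Q := by rw [cj_inv_cj]; exact hV
  have hne' : cj g⁻¹ (cj g V) ≠ cj g V := by rw [cj_inv_cj]; exact hne.symm
  have hHN := S.H_le hg hne hV
  -- commutators of `P'`
  have kk' : ∀ p ∈ PP (cj g V) (cj g Q), ∀ v ∈ V, kk p v ∈ cj g V := by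
    intro p hp v hv
    exact S'.kk_mem hg' hp (by rwa [cj_inv_cj])
  have kkr' : ∀ p ∈ PP (cj g V) (cj g Q), ∀ v ∈ V, ∀ w ∈ V, kk p (v * w) = kk p v * kk p w := by
    intro p hp v hv w hw
    exact S'.kk_mul_right hg' hp (by rwa [cj_inv_cj]) (by rwa [cj_inv_cj])
  have kkl' : ∀ p ∈ PP (cj g V) (cj g Q), ∀ q ∈ PP (cj g V) (cj g Q), ∀ v ∈ V,
      kk (p * q) v = kk p v * kk q v := by
    intro p hp q hq v hv
    exact S'.kk_mul_left hg' hp hq (by rwa [cj_inv_cj])
  -- the base shear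
  obtain ⟨m, hm, hU⟩ := S.exists_U hg hne
  have hmg := S.cj_mul_le hm hg
  obtain ⟨a0, ha0, ha01⟩ := S.cj_ne_bot hne
  obtain ⟨v0, hv0, hv01⟩ := S.V_ne_bot hne
  have hsurjk : ∀ v ∈ V, ∃ p ∈ PP V Q, kk p a0 = v := by
    intro v hv
    obtain ⟨u, hu, hua⟩ := S.exists_conj (x := g) (y := m * g) hg hmg hU ha0 ha01 hv
    refine ⟨u, S.cj_le_P hmg hu, ?_⟩
    unfold kk; rw [hua]; group
  obtain ⟨p0, hp0, hp0a⟩ := hsurjk v0 hv0
  let φf : ↥(cj g V) →* ↥V :=
    { toFun := fun a => ⟨kk p0 a, S.kk_mem hg hp0 a.2⟩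
      map_one' := Subtype.ext (by show kk p0 1 = 1; unfold kk; group)
      map_mul' := fun a b => Subtype.ext (S.kk_mul_right hg hp0 a.2 b.2) }
  have hφf : Function.Injective φf := by
    rw [injective_iff_map_eq_one]
    intro a ha
    by_contra hne1
    have h1 : kk p0 a = 1 := congrArg Subtype.val ha
    have h2 := S.kk_eq_one hg hne hp0 a.2 (fun h => hne1 (Subtype.ext h)) h1 ha0
    exact hv01 (hp0a.symm.trans h2)
  let φ0 : ↥(cj g V) ≃* ↥V := MulEquiv.ofBijective φf
    ((Nat.bijective_iff_injective_and_card φf).mpr ⟨hφf, by rw [card_cj]⟩)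
  have hφ0 : ∀ a : ↥(cj g V), ((φ0 a : ↥V) : G) = kk p0 a := fun a => rfl
  -- the two additive families
  let A := Additive ↥V
  haveI : Nontrivial ↥V := ⟨⟨⟨v0, hv0⟩, 1, fun h => hv01 (congrArg Subtype.val h)⟩⟩
  haveI : Nontrivial A := inferInstanceAs (Nontrivial ↥V)
  haveI : Finite A := inferInstanceAs (Finite ↥V)
  letI cg : CommGroup ↥V := { (inferInstance : Group ↥V) with
    mul_comm := fun x y => Subtype.ext (S.ab x x.2 y y.2) }
  letI acg : AddCommGroup A := Additive.addCommGroup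
  have hA2 : ∀ a : A, a + a = 0 := by
    intro a
    apply Additive.toMul.injective
    exact Subtype.ext (S.sq _ (Additive.toMul a).2)
  let Φf : ↥(PP V Q) → AddMonoid.End A := fun p =>
    AddMonoidHom.mk' (fun x => Additive.ofMul (⟨kk (G := G) p (φ0.symm (Additive.toMul x) : ↥(cj g V)),
      S.kk_mem hg p.2 (φ0.symm (Additive.toMul x)).2⟩ : ↥V)) (by
        intro x y
        apply Additive.toMul.injective
        apply Subtype.ext
        show kk (G := G) p ((φ0.symm (Additive.toMul x * Additive.toMul y) : ↥(cj g V)) : G) = _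
        rw [map_mul]
        exact S.kk_mul_right hg p.2 (φ0.symm _).2 (φ0.symm _).2)
  have hΦf : ∀ (p : ↥(PP V Q)) (x : A), ((Additive.toMul (Φf p x) : ↥V) : G)
      = kk (G := G) p (φ0.symm (Additive.toMul x) : ↥(cj g V)) := fun p x => rfl
  let ΦA : Additive ↥(PP V Q) →+ AddMonoid.End A :=
    AddMonoidHom.mk' (fun p => Φf (Additive.toMul p)) (by
      intro p q
      apply DFunLike.ext
      intro x
      apply Additive.toMul.injective
      apply Subtype.ext
      exact S.kk_mul_left hg (Additive.toMul p).2 (Additive.toMul q).2 (φ0.symm _).2)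
  let Ψf : ↥(PP (cj g V) (cj g Q)) → AddMonoid.End A := fun p =>
    AddMonoidHom.mk' (fun x => Additive.ofMul (φ0 ⟨kk (G := G) p (Additive.toMul x : ↥V),
      kk' p p.2 _ (Additive.toMul x).2⟩)) (by
        intro x y
        apply Additive.toMul.injective
        show φ0 _ = φ0 _ * φ0 _
        rw [← map_mul]
        congr 1
        apply Subtype.ext
        exact kkr' p p.2 _ (Additive.toMul x).2 _ (Additive.toMul y).2)
  have hΨf : ∀ (p : ↥(PP (cj g V) (cj g Q))) (x : A), Additive.toMul (Ψf p x)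
      = φ0 ⟨kk (G := G) p (Additive.toMul x : ↥V), kk' p p.2 _ (Additive.toMul x).2⟩ := fun p x => rfl
  let ΨA : Additive ↥(PP (cj g V) (cj g Q)) →+ AddMonoid.End A :=
    AddMonoidHom.mk' (fun p => Ψf (Additive.toMul p)) (by
      intro p q
      apply DFunLike.ext
      intro x
      apply Additive.toMul.injective
      show φ0 _ = φ0 _ * φ0 _
      rw [← map_mul]
      congr 1
      apply Subtype.ext
      exact kkl' _ (Additive.toMul p).2 _ (Additive.toMul q).2 _ (Additive.toMul x).2)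
  have h2E : ∀ x : AddMonoid.End A, x + x = 0 := by
    intro x; apply DFunLike.ext; intro a; exact hA2 (x a)
  -- duality
  have hd : ∀ (p : ↥(PP V Q)) (p' : ↥(PP (cj g V) (cj g Q))), cj (p : G) (cj g V) = cj (p' : G) V →
      Φf p * Ψf p' = 1 ∧ Ψf p' * Φf p = 1 := by
    intro p p' h
    obtain ⟨h1, h2⟩ := S.dual_aux hg hne p.2 (fun v hv => kk' p' p'.2 v hv) h
    constructor
    · apply DFunLike.ext
      intro x
      apply Additive.toMul.injective
      apply Subtype.ext
      show ((Additive.toMul (Φf p (Ψf p' x)) : ↥V) : G) = (Additive.toMul x : ↥V)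
      rw [hΦf, hΨf, MulEquiv.symm_apply_apply]
      exact h2 _ (Additive.toMul x).2
    · apply DFunLike.ext
      intro x
      apply Additive.toMul.injective
      show Additive.toMul (Ψf p' (Φf p x)) = Additive.toMul x
      rw [hΨf]
      have e : (⟨kk (G := G) p' ((Additive.toMul (Φf p x) : ↥V) : G),
          kk' p' p'.2 _ (Additive.toMul (Φf p x)).2⟩ : ↥(cj g V)) = φ0.symm (Additive.toMul x) := by
        apply Subtype.ext
        show kk (G := G) p' ((Additive.toMul (Φf p x) : ↥V) : G) = _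
        rw [hΦf]
        exact h1 _ (φ0.symm _).2
      rw [e, MulEquiv.apply_symm_apply]
  have hone : (1 : AddMonoid.End A) ∈ ΦA.range := by
    refine ⟨Additive.ofMul ⟨p0, hp0⟩, ?_⟩
    apply DFunLike.ext
    intro x
    apply Additive.toMul.injective
    apply Subtype.ext
    show kk p0 (φ0.symm (Additive.toMul x) : ↥(cj g V)) = ((Additive.toMul x : ↥V) : G)
    rw [← hφ0, MulEquiv.apply_symm_apply]
  have hW' : cj g V ⊔ cj g⁻¹ (cj g V) = V ⊔ cj g V := by rw [cj_inv_cj, sup_comm]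
  have hdual := jd_of_dual h2E ΦA.range ΨA.range hone
    (by
      rintro _ ⟨p, rfl⟩ hp
      -- `cj p V' ≠ V'`
      have h1 : cj ((Additive.toMul p : ↥(PP V Q)) : G) (cj g V) ≠ cj g V := by
        intro h
        apply hp
        apply DFunLike.ext
        intro x
        apply Additive.toMul.injective
        apply Subtype.ext
        show kk (G := G) (Additive.toMul p : ↥(PP V Q)) (φ0.symm (Additive.toMul x) : ↥(cj g V)) = 1
        apply S.disj hne
        · exact mul_mem (conj_mem_of_cj h (φ0.symm _).2) (inv_mem (φ0.symm _).2)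
        · exact S.kk_mem hg (Additive.toMul p).2 (φ0.symm _).2
      have h2 : cj ((Additive.toMul p : ↥(PP V Q)) * g : G) V ≤ cj g V ⊔ cj g⁻¹ (cj g V) := by
        rw [hW', cj_mul, ← S.P_norm_W hg (Additive.toMul p).2]
        exact cj_mono le_sup_right
      have h3 := S'.trans_X (g := g⁻¹) (x := (Additive.toMul p : ↥(PP V Q)) * g * g⁻¹) hg' hne'
        (by rw [mul_assoc, mul_inv_cancel, mul_one, ← cj_mul]; exact h2)
        (by rw [mul_assoc, mul_inv_cancel, mul_one]; exact h1)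
      obtain ⟨p', hp', h4⟩ := h3
      rw [mul_assoc, mul_inv_cancel, mul_one, cj_inv_cj] at h4
      obtain ⟨h5, h6⟩ := hd (Additive.toMul p) ⟨p', hp'⟩ h4
      exact ⟨Ψf ⟨p', hp'⟩, ⟨Additive.ofMul ⟨p', hp'⟩, rfl⟩, h5, h6⟩)
    (by
      rintro _ ⟨p', rfl⟩ hp'
      have h1 : cj ((Additive.toMul p' : ↥(PP (cj g V) (cj g Q))) : G) V ≠ V := by
        intro h
        apply hp'
        apply DFunLike.ext
        intro x
        apply Additive.toMul.injective
        show φ0 _ = 1
        rw [← map_one φ0]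
        congr 1
        apply Subtype.ext
        show kk (G := G) (Additive.toMul p' : ↥(PP (cj g V) (cj g Q))) ((Additive.toMul x : ↥V) : G) = 1
        apply S.disj hne
        · exact kk' _ (Additive.toMul p').2 _ (Additive.toMul x).2
        · exact mul_mem (conj_mem_of_cj h (Additive.toMul x).2) (inv_mem (Additive.toMul x).2)
      have h2 : cj ((Additive.toMul p' : ↥(PP (cj g V) (cj g Q))) : G) V ≤ V ⊔ cj g V := by
        have h3 := S'.P_norm_W hg' (Additive.toMul p').2
        rw [hW'] at h3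
        rw [← h3]
        exact cj_mono le_sup_left
      obtain ⟨p, hp, h4⟩ := S.trans_X hg hne h2 h1
      obtain ⟨h5, h6⟩ := hd ⟨p, hp⟩ (Additive.toMul p') h4.symm
      exact ⟨Φf ⟨p, hp⟩, ⟨Additive.ofMul ⟨p, hp⟩, rfl⟩, h5, h6⟩)
  obtain ⟨hJD, hJJ⟩ := hdual
  have hcardJ : Nat.card ΦA.range = Nat.card A := by
    let x0 : A := Additive.ofMul (φ0 ⟨a0, ha0⟩)
    have hx0 : ∀ p : ↥(PP V Q), ((Additive.toMul (Φf p x0) : ↥V) : G) = kk (G := G) p a0 := by
      intro p
      rw [hΦf]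
      show kk (G := G) p ((φ0.symm (φ0 ⟨a0, ha0⟩) : ↥(cj g V)) : G) = _
      rw [MulEquiv.symm_apply_apply]
    let ev : ΦA.range → A := fun f => (f : AddMonoid.End A) x0
    have hev : Function.Bijective ev := by
      constructor
      · rintro ⟨_, ⟨p, rfl⟩⟩ ⟨_, ⟨q, rfl⟩⟩ h
        have h1 : Φf (Additive.toMul p) x0 = Φf (Additive.toMul q) x0 := h
        have h2 := congrArg (fun z : A => ((Additive.toMul z : ↥V) : G)) h1
        simp only [hx0] at h2
        have h3 : kk (G := G) (((Additive.toMul p)⁻¹ * Additive.toMul q : ↥(PP V Q)) : G) a0 = 1 := by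
          have h4 : kk (G := G) (((Additive.toMul p)⁻¹ : ↥(PP V Q)) : G) a0
              = (kk (G := G) (Additive.toMul p : ↥(PP V Q)) a0)⁻¹ := by
            have h5 := S.kk_mul_left hg (Additive.toMul p)⁻¹.2 (Additive.toMul p).2 ha0
            rw [← Subgroup.coe_mul, inv_mul_cancel] at h5
            have h6 : kk (G := G) ((1 : ↥(PP V Q)) : G) a0 = 1 := by
              show kk (1 : G) a0 = 1
              unfold kk; group
            rw [h6] at h5
            exact eq_inv_of_mul_eq_one_left h5.symm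
          rw [Subgroup.coe_mul, S.kk_mul_left hg (Additive.toMul p)⁻¹.2 (Additive.toMul q).2 ha0,
            h4, h2, inv_mul_cancel]
        apply Subtype.ext
        apply DFunLike.ext
        intro x
        apply Additive.toMul.injective
        apply Subtype.ext
        show kk (G := G) (Additive.toMul p : ↥(PP V Q)) (φ0.symm (Additive.toMul x) : ↥(cj g V))
          = kk (G := G) (Additive.toMul q : ↥(PP V Q)) (φ0.symm (Additive.toMul x) : ↥(cj g V))
        have h7 := S.kk_eq_one hg hne ((Additive.toMul p)⁻¹ * Additive.toMul q).2 ha0 ha01 h3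
          (φ0.symm (Additive.toMul x)).2
        have h8 : (Additive.toMul q : ↥(PP V Q))
            = Additive.toMul p * ((Additive.toMul p)⁻¹ * Additive.toMul q) := by group
        rw [h8, Subgroup.coe_mul, S.kk_mul_left hg (Additive.toMul p).2
          ((Additive.toMul p)⁻¹ * Additive.toMul q).2 (φ0.symm _).2, h7, mul_one]
      · intro y
        obtain ⟨p, hp, h1⟩ := hsurjk _ (Additive.toMul y).2
        refine ⟨⟨_, ⟨Additive.ofMul ⟨p, hp⟩, rfl⟩⟩, ?_⟩
        apply Additive.toMul.injective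
        apply Subtype.ext
        show ((Additive.toMul (Φf ⟨p, hp⟩ x0) : ↥V) : G) = _
        rw [hx0]; exact h1
    exact Nat.card_congr (Equiv.ofBijective ev hev)
  -- the identification `W ≃ A × A`
  have hWc := S.W_comm hg
  letI cgW : CommGroup ↥(V ⊔ cj g V) := { (inferInstance : Group ↥(V ⊔ cj g V)) with
    mul_comm := fun x y => Subtype.ext (hWc x x.2 y y.2) }
  let τf : A × A →+ Additive ↥(V ⊔ cj g V) :=
    AddMonoidHom.mk' (fun z => Additive.ofMul (⟨(Additive.toMul z.1 : ↥V) *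
        (φ0.symm (Additive.toMul z.2) : ↥(cj g V)),
        mul_mem (Subgroup.mem_sup_left (Additive.toMul z.1).2)
          (Subgroup.mem_sup_right (φ0.symm (Additive.toMul z.2)).2)⟩ : ↥(V ⊔ cj g V))) (by
      rintro ⟨x, y⟩ ⟨x', y'⟩
      apply Additive.toMul.injective
      apply Subtype.ext
      show ((Additive.toMul x * Additive.toMul x' : ↥V) : G) *
          ((φ0.symm (Additive.toMul y * Additive.toMul y') : ↥(cj g V)) : G) =
        ((Additive.toMul x : ↥V) : G) * ((φ0.symm (Additive.toMul y) : ↥(cj g V)) : G) *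
        (((Additive.toMul x' : ↥V) : G) * ((φ0.symm (Additive.toMul y') : ↥(cj g V)) : G))
      rw [map_mul, Subgroup.coe_mul, Subgroup.coe_mul]
      have := S.cj_comm hg _ (φ0.symm (Additive.toMul y)).2 _ (Additive.toMul x').2
      calc ((Additive.toMul x : ↥V) : G) * ((Additive.toMul x' : ↥V) : G) *
            (((φ0.symm (Additive.toMul y) : ↥(cj g V)) : G) *
              ((φ0.symm (Additive.toMul y') : ↥(cj g V)) : G))
          = ((Additive.toMul x : ↥V) : G) * (((Additive.toMul x' : ↥V) : G) *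
            ((φ0.symm (Additive.toMul y) : ↥(cj g V)) : G)) *
              ((φ0.symm (Additive.toMul y') : ↥(cj g V)) : G) := by group
        _ = _ := by rw [← this]; group)
  have hτf : ∀ x y : A, ((Additive.toMul (τf (x, y)) : ↥(V ⊔ cj g V)) : G)
      = ((Additive.toMul x : ↥V) : G) * ((φ0.symm (Additive.toMul y) : ↥(cj g V)) : G) :=
    fun x y => rfl
  have hτbij : Function.Bijective τf := by
    constructor
    · rw [injective_iff_map_eq_zero]
      rintro ⟨x, y⟩ h
      have h1 := congrArg (fun z : Additive ↥(V ⊔ cj g V) =>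
        ((Additive.toMul z : ↥(V ⊔ cj g V)) : G)) h
      simp only [hτf] at h1
      have h2 : ((Additive.toMul x : ↥V) : G) * ((φ0.symm (Additive.toMul y) : ↥(cj g V)) : G) = 1 := h1
      have h3 : ((φ0.symm (Additive.toMul y) : ↥(cj g V)) : G) = 1 := by
        apply S.disj hne (φ0.symm (Additive.toMul y)).2
        rw [eq_inv_of_mul_eq_one_right h2]
        exact inv_mem (Additive.toMul x).2
      have h4 : Additive.toMul x = (1 : ↥V) := by
        apply Subtype.ext
        rw [h3, mul_one] at h2; exact h2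
      have h5 : Additive.toMul y = (1 : ↥V) := by
        have h6 : φ0.symm (Additive.toMul y) = 1 := Subtype.ext h3
        rw [← map_one φ0.symm] at h6
        exact φ0.symm.injective h6
      exact Prod.ext h4 h5
    · intro w
      obtain ⟨v, hv, a, ha, h⟩ := (S.mem_W hg).mp (Additive.toMul w).2
      refine ⟨(Additive.ofMul ⟨v, hv⟩, Additive.ofMul (φ0 ⟨a, ha⟩)), ?_⟩
      apply Additive.toMul.injective
      apply Subtype.ext
      rw [hτf]
      show v * ((φ0.symm (φ0 ⟨a, ha⟩) : ↥(cj g V)) : G) = _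
      rw [MulEquiv.symm_apply_apply]; exact h.symm
  let τ : A × A ≃+ Additive ↥(V ⊔ cj g V) := AddEquiv.ofBijective τf hτbij
  have hτ : ∀ x y : A, ((Additive.toMul (τ (x, y)) : ↥(V ⊔ cj g V)) : G)
      = ((Additive.toMul x : ↥V) : G) * ((φ0.symm (Additive.toMul y) : ↥(cj g V)) : G) :=
    fun x y => rfl
  -- the action
  let c : ↥(PP V Q ⊔ cj g (PP V Q)) →* MulAut ↥(V ⊔ cj g V) :=
    (Subgroup.normalizerMonoidHom (V ⊔ cj g V)).comp (Subgroup.inclusion hHN)
  have hc : ∀ (h : ↥(PP V Q ⊔ cj g (PP V Q))) (w : ↥(V ⊔ cj g V)), ((c h w : ↥(V ⊔ cj g V)) : G)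
      = h * w * (h : G)⁻¹ := fun h w => rfl
  let ρ : ↥(PP V Q ⊔ cj g (PP V Q)) →* AddMonoid.End (A × A) :=
    { toFun := fun h => τ.symm.toAddMonoidHom.comp
        ((MulEquiv.toAdditive (c h)).toAddMonoidHom.comp τ.toAddMonoidHom)
      map_one' := by
        apply DFunLike.ext
        intro z
        show τ.symm (Additive.ofMul (c 1 (Additive.toMul (τ z)))) = z
        rw [map_one]
        show τ.symm (τ z) = z
        exact τ.symm_apply_apply z
      map_mul' := by
        intro x y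
        apply DFunLike.ext
        intro z
        show τ.symm (Additive.ofMul (c (x * y) (Additive.toMul (τ z)))) =
          τ.symm (Additive.ofMul (c x (Additive.toMul
            (τ (τ.symm (Additive.ofMul (c y (Additive.toMul (τ z)))))))))
        rw [AddEquiv.apply_symm_apply, map_mul]; rfl }
  have hρ : ∀ h z, ((Additive.toMul (τ (ρ h z)) : ↥(V ⊔ cj g V)) : G)
      = h * ((Additive.toMul (τ z) : ↥(V ⊔ cj g V)) : G) * (h : G)⁻¹ := by
    intro h z
    show ((Additive.toMul (τ (τ.symm (Additive.ofMul (c h (Additive.toMul (τ z))))))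
      : ↥(V ⊔ cj g V)) : G) = _
    rw [AddEquiv.apply_symm_apply]
    exact hc h _
  have hρeq : ∀ h z z', h * ((Additive.toMul (τ z) : ↥(V ⊔ cj g V)) : G) * (h : G)⁻¹
      = ((Additive.toMul (τ z') : ↥(V ⊔ cj g V)) : G) → ∀ hh : h ∈ PP V Q ⊔ cj g (PP V Q),
      ρ ⟨h, hh⟩ z = z' := by
    intro h z z' heq hh
    apply τ.injective
    apply Additive.toMul.injective
    apply Subtype.ext
    rw [hρ]; exact heq
  -- the two families of shears
  have hs1 : ∀ (p : G) (hp : p ∈ PP V Q) (hh : p ∈ PP V Q ⊔ cj g (PP V Q)) (x y : A),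
      ρ ⟨p, hh⟩ (x, y) = (x + Φf ⟨p, hp⟩ y, y) := by
    intro p hp hh x y
    apply hρeq
    rw [hτ, hτ]
    have e1 : ((Additive.toMul (x + Φf ⟨p, hp⟩ y) : ↥V) : G)
        = ((Additive.toMul x : ↥V) : G) * kk (G := G) p (φ0.symm (Additive.toMul y) : ↥(cj g V)) := rfl
    rw [e1]
    have h1 := S.P_comm hp (Additive.toMul x).2
    have h2 := kk_mul_self (G := G) p (φ0.symm (Additive.toMul y) : ↥(cj g V))
    calc p * (((Additive.toMul x : ↥V) : G) * ((φ0.symm (Additive.toMul y) : ↥(cj g V)) : G)) * p⁻¹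
        = (p * ((Additive.toMul x : ↥V) : G)) * ((φ0.symm (Additive.toMul y) : ↥(cj g V)) : G) * p⁻¹ := by
          group
      _ = ((Additive.toMul x : ↥V) : G) * (p * ((φ0.symm (Additive.toMul y) : ↥(cj g V)) : G) * p⁻¹) := by
          rw [← h1]; group
      _ = _ := by rw [h2]; group
  have hPPc : ∀ p, p ∈ cj g (PP V Q) ↔ p ∈ PP (cj g V) (cj g Q) := by
    intro p; rw [PP_cj]
  have hs2 : ∀ (p : G) (hp : p ∈ PP (cj g V) (cj g Q)) (hh : p ∈ PP V Q ⊔ cj g (PP V Q)) (x y : A),
      ρ ⟨p, hh⟩ (x, y) = (x, y + Ψf ⟨p, hp⟩ x) := by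
    intro p hp hh x y
    apply hρeq
    rw [hτ, hτ]
    have e1 : ((φ0.symm (Additive.toMul (y + Ψf ⟨p, hp⟩ x)) : ↥(cj g V)) : G)
        = ((φ0.symm (Additive.toMul y) : ↥(cj g V)) : G) * kk (G := G) p ((Additive.toMul x : ↥V) : G) := by
      have : Additive.toMul (y + Ψf ⟨p, hp⟩ x)
          = Additive.toMul y * φ0 ⟨kk (G := G) p ((Additive.toMul x : ↥V) : G),
            kk' p hp _ (Additive.toMul x).2⟩ := rfl
      rw [this, map_mul, MulEquiv.symm_apply_apply]; rfl
    rw [e1]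
    have h1 := S'.P_comm hp (φ0.symm (Additive.toMul y)).2
    have h2 := kk_mul_self (G := G) p ((Additive.toMul x : ↥V) : G)
    have h3 := kk' p hp _ (Additive.toMul x).2
    have h4 := S.cj_comm hg _ h3 _ (Additive.toMul x).2
    have h5 := S'.ab _ (φ0.symm (Additive.toMul y)).2 _ h3
    calc p * (((Additive.toMul x : ↥V) : G) * ((φ0.symm (Additive.toMul y) : ↥(cj g V)) : G)) * p⁻¹
        = p * ((Additive.toMul x : ↥V) : G) * (((φ0.symm (Additive.toMul y) : ↥(cj g V)) : G) * p⁻¹) := by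
          group
      _ = (p * ((Additive.toMul x : ↥V) : G) * p⁻¹) * ((φ0.symm (Additive.toMul y) : ↥(cj g V)) : G) := by
          have h6 : ((φ0.symm (Additive.toMul y) : ↥(cj g V)) : G) * p⁻¹
              = p⁻¹ * ((φ0.symm (Additive.toMul y) : ↥(cj g V)) : G) := by
            calc ((φ0.symm (Additive.toMul y) : ↥(cj g V)) : G) * p⁻¹
                = p⁻¹ * (p * ((φ0.symm (Additive.toMul y) : ↥(cj g V)) : G)) * p⁻¹ := by group
              _ = _ := by rw [← h1]; group
          rw [h6]; group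
      _ = (kk (G := G) p ((Additive.toMul x : ↥V) : G) * ((Additive.toMul x : ↥V) : G))
            * ((φ0.symm (Additive.toMul y) : ↥(cj g V)) : G) := by rw [h2]
      _ = ((Additive.toMul x : ↥V) : G) * (kk (G := G) p ((Additive.toMul x : ↥V) : G)
            * ((φ0.symm (Additive.toMul y) : ↥(cj g V)) : G)) := by rw [h4]; group
      _ = _ := by rw [← h5]
  let S₁ : Set ↥(PP V Q ⊔ cj g (PP V Q)) := {h | (h : G) ∈ PP V Q}
  let S₂ : Set ↥(PP V Q ⊔ cj g (PP V Q)) := {h | (h : G) ∈ cj g (PP V Q)}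
  have hgen : Subgroup.closure (S₁ ∪ S₂) = ⊤ := by
    have e1 : (S₁ : Set _) = ((PP V Q).subgroupOf (PP V Q ⊔ cj g (PP V Q)) : Set _) := by
      ext x; rfl
    have e2 : (S₂ : Set _) = ((cj g (PP V Q)).subgroupOf (PP V Q ⊔ cj g (PP V Q)) : Set _) := by
      ext x; rfl
    rw [e1, e2, Subgroup.closure_union, Subgroup.closure_eq, Subgroup.closure_eq,
      ← Subgroup.subgroupOf_sup le_sup_left le_sup_right, Subgroup.subgroupOf_self]
  obtain ⟨F, fF, ftF, hcF, ⟨Θ, hΘs, hΘ⟩, htr⟩ := H32JDSL.sl2 hA2 ΦA.range hJD hcardJ ρ S₁ S₂ hgen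
    (by
      rintro ⟨p, hh⟩ hp
      exact ⟨Φf ⟨p, hp⟩, ⟨Additive.ofMul ⟨p, hp⟩, rfl⟩, hs1 p hp hh⟩)
    (by
      rintro _ ⟨p, rfl⟩
      exact ⟨⟨(Additive.toMul p : ↥(PP V Q)), Subgroup.mem_sup_left (Additive.toMul p).2⟩,
        (Additive.toMul p).2, hs1 _ (Additive.toMul p).2 _⟩)
    (by
      rintro ⟨p, hh⟩ hp
      refine ⟨Ψf ⟨p, (hPPc p).mp hp⟩, ?_, hs2 p ((hPPc p).mp hp) hh⟩
      rw [← hJJ]
      exact ⟨Additive.ofMul ⟨p, (hPPc p).mp hp⟩, rfl⟩)
    (by
      intro φ hφ
      rw [← hJJ] at hφ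
      obtain ⟨p, rfl⟩ := hφ
      have hp2 : ((Additive.toMul p : ↥(PP (cj g V) (cj g Q))) : G) ∈ cj g (PP V Q) :=
        (hPPc _).mpr (Additive.toMul p).2
      exact ⟨⟨(Additive.toMul p : ↥(PP (cj g V) (cj g Q))), Subgroup.mem_sup_right hp2⟩,
        hp2, hs2 _ (Additive.toMul p).2 _⟩)
  refine ⟨F, fF, ftF, hcF, ⟨Θ, hΘs, ?_⟩, ?_⟩
  · intro h
    rw [hΘ, mem_centralizer_iff]
    constructor
    · intro h1 w hw
      have h2 := hρ h (τ.symm (Additive.ofMul ⟨w, hw⟩))
      rw [h1] at h2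
      have h3 : (1 : AddMonoid.End (A × A)) (τ.symm (Additive.ofMul ⟨w, hw⟩))
          = τ.symm (Additive.ofMul ⟨w, hw⟩) := rfl
      rw [h3, AddEquiv.apply_symm_apply] at h2
      have h4 : w = h * w * (h : G)⁻¹ := h2
      calc w * h = (h * w * (h : G)⁻¹) * h := by rw [← h4]
        _ = h * w := by group
    · intro h1
      apply DFunLike.ext
      intro z
      obtain ⟨h, hh⟩ := h
      show ρ ⟨h, hh⟩ z = z
      apply hρeq
      have := h1 _ (Additive.toMul (τ z)).2
      show h * ((Additive.toMul (τ z) : ↥(V ⊔ cj g V)) : G) * h⁻¹ = _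
      rw [← this]; group
  · intro x hx y hy hx1 hy1
    obtain ⟨h, hh1, hh2⟩ := htr (Additive.ofMul ⟨x, hx⟩) (Additive.ofMul ⟨y, hy⟩)
      (fun h => hx1 (congrArg (fun z : A => ((Additive.toMul z : ↥V) : G)) h))
      (fun h => hy1 (congrArg (fun z : A => ((Additive.toMul z : ↥V) : G)) h))
    have e0 : ∀ (v : G) (hv : v ∈ V), ((Additive.toMul (τ (Additive.ofMul ⟨v, hv⟩, 0)) :
        ↥(V ⊔ cj g V)) : G) = v := by
      intro v hv
      rw [hτ]
      show v * ((φ0.symm 1 : ↥(cj g V)) : G) = v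
      rw [map_one]; simp
    refine ⟨h, ?_, ?_⟩
    · apply cj_eq_of_le
      intro w hw
      obtain ⟨v, hv, rfl⟩ := exists_of_mem_cj hw
      have h3 := hρ h (Additive.ofMul ⟨v, hv⟩, 0)
      rw [e0] at h3
      rw [← h3]
      have h4 : ρ h (Additive.ofMul ⟨v, hv⟩, 0)
          = (Additive.ofMul (Additive.toMul (ρ h (Additive.ofMul ⟨v, hv⟩, 0)).1), 0) :=
        Prod.ext rfl (hh1 _)
      rw [h4]
      have h5 := e0 _ (Additive.toMul (ρ h (Additive.ofMul ⟨v, hv⟩, 0)).1).2
      rw [show (⟨_, (Additive.toMul (ρ h (Additive.ofMul ⟨v, hv⟩, 0)).1).2⟩ : ↥V)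
        = Additive.toMul (ρ h (Additive.ofMul ⟨v, hv⟩, 0)).1 from rfl] at h5
      rw [h5]
      exact (Additive.toMul (ρ h (Additive.ofMul ⟨v, hv⟩, 0)).1).2
    · have h3 := hρ h (Additive.ofMul ⟨x, hx⟩, 0)
      rw [hh2, e0, e0] at h3
      exact h3.symm

end Setup

end Cfsg.Agent.Lib.H32TI
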