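import Cfsg.Agent.Lib.H89GA0
import Cfsg.Agent.Lib.Cores

/-!
# Transport of `H89GA.Stmt` along an isomorphism (helper32)
-/

set_option autoImplicit false

namespace Cfsg.Agent.Lib.H32Transf0

open Cfsg Cfsg.Agent.Lib.H89GA

section aux

variable {P G : Type*} [Group P] [Group G] (e : P ≃* G)

/-- transport of automorphisms -/
def F : MulAut P ≃* MulAut G := MulAut.congr e

theorem F_apply (t : MulAut P) (x : P) : F e t (e x) = e (t x) := by
  show e (t (e.symm (e x))) = e (t x)
  rw [e.symm_apply_apply]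

theorem F_conj (a : P) : F e (MulAut.conj a) = MulAut.conj (e a) := by
  ext y
  obtain ⟨x, rfl⟩ := e.surjective y
  rw [F_apply, MulAut.conj_apply, MulAut.conj_apply, map_mul, map_mul, map_inv]

theorem F_range (t : MulAut P) : F e t ∈ (MulAut.conj : G →* MulAut G).range ↔ t ∈ (MulAut.conj : P →* MulAut P).range := by
  constructor
  · rintro ⟨g, hg⟩
    obtain ⟨x, rfl⟩ := e.surjective g
    refine ⟨x, ?_⟩
    apply (F e).injective
    rw [F_conj, hg]
  · rintro ⟨x, rfl⟩
    exact ⟨e x, (F_conj e x).symm⟩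

theorem isConj_F (s t : MulAut P) : IsConj (F e s) (F e t) ↔ IsConj s t := by
  rw [isConj_iff, isConj_iff]
  constructor
  · rintro ⟨c, hc⟩
    obtain ⟨d, rfl⟩ := (F e).surjective c
    refine ⟨d, (F e).injective ?_⟩
    rw [map_mul, map_mul, map_inv, hc]
  · rintro ⟨c, hc⟩
    exact ⟨F e c, by rw [← hc, map_mul, map_mul, map_inv]⟩

theorem mem_map {H : Subgroup P} {x : P} : e x ∈ H.map e.toMonoidHom ↔ x ∈ H := by
  constructor
  · rintro ⟨y, hy, hxy⟩
    rwa [← e.injective hxy]
  · intro h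
    exact ⟨x, h, rfl⟩

end aux

theorem transfer {P : Type} [Group P] {G : Type*} [Group G] (e : P ≃* G) {D0 : Set P} {D : Set G}
    (hD : ∀ x, x ∈ D0 ↔ e x ∈ D) (h : Stmt P D0) : Stmt G D := by
  obtain ⟨s, a, b, Cs, h1, h2, h3, h4, h5, h6, h7, h8, h9, h10, h11, h12, h13, h14, h15, h16, Csab, O, h17, h18,
    h19, h20, h21, h22⟩ := h
  have hcen : ∀ x : P, (Subgroup.centralizer ({x} : Set P)).map e.toMonoidHom = Subgroup.centralizer ({e x} : Set G) := by
    intro x
    ext y
    obtain ⟨z, rfl⟩ := e.surjective y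
    rw [mem_map, Subgroup.mem_centralizer_singleton_iff, Subgroup.mem_centralizer_singleton_iff, ← map_mul, ← map_mul,
      e.injective.eq_iff]
  have hinf : (Cs ⊓ Subgroup.centralizer ({a} : Set P)).map e.toMonoidHom =
      Cs.map e.toMonoidHom ⊓ Subgroup.centralizer ({e a} : Set G) := by
    rw [Subgroup.map_inf _ _ _ e.injective, hcen]
  have hmul : ∀ x : P, F e s * MulAut.conj (e x) = F e (s * MulAut.conj x) := fun x => by rw [map_mul, F_conj]
  refine ⟨F e s, e a, e b, Cs.map e.toMonoidHom, ?_, ?_, ?_, ?_, (hD a).1 h5, (hD b).1 h6, ?_, ?_, ?_, ?_, ?_, ?_, ?_,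
    ?_, ?_, ?_, Csab.map e.toMonoidHom, O.map e.toMonoidHom, ?_, ?_, ?_, ?_, ?_⟩
  · rw [MulEquiv.orderOf_eq]; exact h1
  · rw [F_range]; exact h2
  · intro g
    obtain ⟨x, rfl⟩ := e.surjective g
    rw [mem_map, F_apply, e.injective.eq_iff]
    exact h3 x
  · obtain ⟨f⟩ := h4
    exact ⟨(Cs.equivMapOfInjective e.toMonoidHom e.injective).symm.trans f⟩
  · exact fun h => h7 (e.injective h)
  · exact h8.map e
  · rw [F_apply, h9]
  · rw [F_apply, h10]
  · intro t ht htr
    obtain ⟨t, rfl⟩ := (F e).surjective t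
    rw [MulEquiv.orderOf_eq] at ht
    rw [F_range] at htr
    rw [← map_mul, hmul, hmul, isConj_F, isConj_F, isConj_F]
    exact h11 t ht htr
  · rw [hmul, isConj_F]; exact h12
  · rw [← map_mul, hmul, isConj_F]; exact h13
  · rw [← map_mul, hmul, hmul, isConj_F]; exact h14
  · intro g
    obtain ⟨x, rfl⟩ := e.surjective g
    rw [hmul, F_apply, e.injective.eq_iff, ← hinf, mem_map]
    exact h15 x
  · obtain ⟨f⟩ := h16
    rw [← hinf]
    exact ⟨((Cs ⊓ Subgroup.centralizer ({a} : Set P)).equivMapOfInjective e.toMonoidHom e.injective).symm.trans f⟩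
  · intro g
    obtain ⟨x, rfl⟩ := e.surjective g
    rw [← map_mul, hmul, F_apply, e.injective.eq_iff, mem_map]
    exact h17 x
  · -- the core
    rw [h18, Subgroup.map_map]
    have e1 := Cores.map_pCore_equiv 2 (Csab.equivMapOfInjective e.toMonoidHom e.injective)
    rw [← e1, Subgroup.map_map]
    rfl
  · refine ⟨?_, ?_⟩
    · haveI := h19.1
      constructor
      constructor
      rintro ⟨_, x, hx, rfl⟩ ⟨_, y, hy, rfl⟩
      apply Subtype.ext
      show e x * e y = e y * e x
      rw [← map_mul, ← map_mul]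
      have := congrArg Subtype.val (mul_comm' (⟨x, hx⟩ : O) ⟨y, hy⟩)
      exact congrArg e this
    · rintro _ ⟨x, hx, rfl⟩
      show e x ^ 2 = 1
      rw [← map_pow, h19.2 x hx, map_one]
  · rw [← h20]
    exact (Nat.card_congr (O.equivMapOfInjective e.toMonoidHom e.injective).toEquiv).symm
  · obtain ⟨f⟩ := h22
    have hmap : (O.subgroupOf Csab).map (Csab.equivMapOfInjective e.toMonoidHom e.injective).toMonoidHom =
        (O.map e.toMonoidHom).subgroupOf (Csab.map e.toMonoidHom) := by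
      ext ⟨_, x, hx, rfl⟩
      constructor
      · rintro ⟨y, hy, hxy⟩
        refine ⟨(y : P), hy, ?_⟩
        exact congrArg Subtype.val hxy
      · rintro ⟨y, hy, hxy⟩
        have hxy' : y = x := e.injective hxy
        subst hxy'
        exact ⟨⟨y, hx⟩, hy, rfl⟩
    have hn : ((O.map e.toMonoidHom).subgroupOf (Csab.map e.toMonoidHom)).Normal := by
      rw [← hmap]
      exact h21.map _ (Csab.equivMapOfInjective e.toMonoidHom e.injective).surjective
    exact ⟨hn, ⟨(QuotientGroup.congr _ _ (Csab.equivMapOfInjective e.toMonoidHom e.injective) hmap).symm.trans f⟩⟩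

end Cfsg.Agent.Lib.H32Transf0
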