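import Cfsg.Prelude.Def_LocalEven
import Cfsg.Prelude.Def_PLocal
import Cfsg.Agent.Lib.PAct
import Cfsg.Agent.Lib.LocBase
import Cfsg.Agent.Lib.SubgroupTools

/-!
# Chief factors, iterated commutators with an element, critical subgroups (helper34)
-/

set_option autoImplicit false
set_option linter.unusedSectionVars false

namespace Cfsg.Agent.Lib.H34Chief

open Cfsg Subgroup
open Cfsg.Agent.Lib.LocBase (le_normalizer_sup le_normalizer_inf le_normalizer_commutator
  le_normalizer_centralizer)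
open scoped commutatorElement

variable {G : Type*} [Group G]

/-! ### iterated commutators -/

theorem iter_mono {X Y Z : Subgroup G} (h : X ≤ Y) (m : ℕ) :
    iterCommutator X Z m ≤ iterCommutator Y Z m := by
  induction m with
  | zero => exact h
  | succ m ih => exact commutator_mono ih le_rfl

theorem iter_succ' (X Z : Subgroup G) (m : ℕ) :
    iterCommutator X Z (m + 1) = iterCommutator ⁅X, Z⁆ Z m := by
  induction m with
  | zero => rfl
  | succ m ih =>
    change ⁅iterCommutator X Z (m + 1), Z⁆ = ⁅iterCommutator ⁅X, Z⁆ Z m, Z⁆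
    rw [ih]

theorem commutator_le_of_normalizes {X Z : Subgroup G} (h : Z ≤ normalizer (X : Set G)) :
    ⁅X, Z⁆ ≤ X := le_normalizer_iff_commutator_le_left.mp h

theorem iter_normalizes {X Z : Subgroup G} (h : Z ≤ normalizer (X : Set G)) (m : ℕ) :
    Z ≤ normalizer (iterCommutator X Z m : Set G) := by
  induction m with
  | zero => exact h
  | succ m ih => exact le_normalizer_commutator ih le_normalizer

theorem iter_succ_le {X Z : Subgroup G} (h : Z ≤ normalizer (X : Set G)) (m : ℕ) :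
    iterCommutator X Z (m + 1) ≤ iterCommutator X Z m :=
  commutator_le_of_normalizes (iter_normalizes h m)

theorem iter_antitone {X Z : Subgroup G} (h : Z ≤ normalizer (X : Set G)) {m n : ℕ} (hmn : m ≤ n) :
    iterCommutator X Z n ≤ iterCommutator X Z m := by
  induction hmn with
  | refl => exact le_rfl
  | step _ ih => exact (iter_succ_le h _).trans ih

theorem iter_le {X Z : Subgroup G} (h : Z ≤ normalizer (X : Set G)) (m : ℕ) :
    iterCommutator X Z m ≤ X := iter_antitone h (Nat.zero_le m)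

/-- `[Y ⊔ B, Z] ≤ Y ⊔ [B, Z]` for `Y` normal -/
theorem commutator_sup_le {Y B Z : Subgroup G} [hY : Y.Normal] : ⁅Y ⊔ B, Z⁆ ≤ Y ⊔ ⁅B, Z⁆ := by
  rw [commutator_le]
  intro x hx z hz
  rw [mem_sup_of_normal_left] at hx
  obtain ⟨y, hy, b, hb, rfl⟩ := hx
  have h1 : ⁅y * b, z⁆ = y * (⁅b, z⁆ * (z * y⁻¹ * z⁻¹) * ⁅b, z⁆⁻¹) * ⁅b, z⁆ := by
    simp only [commutatorElement_def]; group
  rw [h1]
  refine mul_mem (mem_sup_left (mul_mem hy ?_)) (mem_sup_right (commutator_mem_commutator hb hz))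
  exact hY.conj_mem _ (hY.conj_mem _ (inv_mem hy) z) _

theorem iter_sup_le {Y B Z : Subgroup G} [hY : Y.Normal] (m : ℕ) :
    iterCommutator (Y ⊔ B) Z m ≤ Y ⊔ iterCommutator B Z m := by
  induction m with
  | zero => exact le_rfl
  | succ m ih => exact (commutator_mono ih le_rfl).trans commutator_sup_le

/-! ### good sections -/

/-- All the chief factors of `G` between `V` and `U` satisfy `[X, Z; m] ≤ Y`. -/
def Good (Z : Subgroup G) (m : ℕ) (U V : Subgroup G) : Prop :=
  ∀ X Y : Subgroup G, IsChiefFactor X Y → V ≤ Y → X ≤ U → iterCommutator X Z m ≤ Y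

theorem Good.refl (Z : Subgroup G) (m : ℕ) (U : Subgroup G) : Good Z m U U := by
  intro X Y h h1 h2
  exact absurd h.1 (not_lt_of_ge (h2.trans h1))

theorem Good.of_le {Z : Subgroup G} {m : ℕ} {U V : Subgroup G} (h : iterCommutator U Z m ≤ V) :
    Good Z m U V := by
  intro X Y _ h1 h2
  exact (iter_mono h2 m).trans (h.trans h1)

theorem Good.mono {Z : Subgroup G} {m : ℕ} {U V U' V' : Subgroup G} (h : Good Z m U V)
    (hU : U' ≤ U) (hV : V ≤ V') : Good Z m U' V' := by
  intro X Y hc h1 h2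
  exact h X Y hc (hV.trans h1) (h2.trans hU)

theorem Good.trans {Z : Subgroup G} {m : ℕ} {U V W : Subgroup G} [hV : V.Normal]
    (hWV : W ≤ V) (hVU : V ≤ U) (h1 : Good Z m U V) (h2 : Good Z m V W) : Good Z m U W := by
  intro X Y hc hWY hXU
  obtain ⟨hlt, hX, hY, hmin⟩ := hc
  have hXV : (X ⊓ V).Normal := inferInstance
  have hYV : (Y ⊓ V).Normal := inferInstance
  have hle : Y ⊔ (X ⊓ V) ≤ X := sup_le hlt.le inf_le_left
  rcases hmin (Y ⊔ (X ⊓ V)) inferInstance le_sup_left hle with h | h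
  · -- `X ∩ V ≤ Y`
    have hXVY : X ⊓ V ≤ Y := by rw [← h]; exact le_sup_right
    have hded : X ⊓ (Y ⊔ V) = Y := by
      rw [inf_comm, SubgroupTools.sup_inf_of_le_normalizer hlt.le le_normalizer_of_normal,
        inf_comm V X]
      exact sup_eq_left.mpr hXVY
    have hchief : IsChiefFactor (X ⊔ V) (Y ⊔ V) := by
      refine ⟨?_, inferInstance, inferInstance, ?_⟩
      · refine lt_of_le_of_ne (sup_le_sup_right hlt.le V) ?_
        intro heq
        have : X ≤ Y ⊔ V := by rw [heq]; exact le_sup_left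
        have h3 : X = Y := by rw [← hded, inf_eq_left.mpr this]
        exact hlt.ne h3.symm
      · intro N hN hN1 hN2
        have hXN : (X ⊓ N).Normal := inferInstance
        have hYXN : Y ≤ X ⊓ N := le_inf hlt.le (le_sup_left.trans hN1)
        have hN3 : N = V ⊔ (X ⊓ N) := by
          have := SubgroupTools.sup_inf_of_le_normalizer (A := V) (B := X) (C := N)
            (le_sup_right.trans hN1) le_normalizer_of_normal
          rw [← this, sup_comm V X, inf_eq_right.mpr hN2]
        rcases hmin (X ⊓ N) hXN hYXN inf_le_left with h3 | h3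
        · left; rw [hN3, h3, sup_comm]
        · right; rw [hN3, h3, sup_comm]
    have h3 := h1 (X ⊔ V) (Y ⊔ V) hchief le_sup_right (sup_le hXU hVU)
    rw [← hded]
    exact le_inf (iter_le le_normalizer_of_normal m) ((iter_mono le_sup_left m).trans h3)
  · -- `X = Y (X ∩ V)`
    have hchief : IsChiefFactor (X ⊓ V) (Y ⊓ V) := by
      refine ⟨?_, inferInstance, inferInstance, ?_⟩
      · refine lt_of_le_of_ne (inf_le_inf_right V hlt.le) ?_
        intro heq
        have : X ⊓ V ≤ Y := by rw [← heq]; exact inf_le_left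
        rw [sup_eq_left.mpr this] at h
        exact hlt.ne h
      · intro N hN hN1 hN2
        have hNX : N ≤ X := hN2.trans inf_le_left
        have hNV : N ≤ V := hN2.trans inf_le_right
        rcases hmin (Y ⊔ N) inferInstance le_sup_left (sup_le hlt.le hNX) with h3 | h3
        · left
          apply le_antisymm _ hN1
          exact le_inf (by rw [← h3]; exact le_sup_right) hNV
        · right
          apply le_antisymm hN2
          rw [← h3, sup_comm, SubgroupTools.sup_inf_of_le_normalizer hNV le_normalizer_of_normal]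
          exact sup_le le_rfl hN1
    have h3 := h2 (X ⊓ V) (Y ⊓ V) hchief (le_inf hWY hWV) inf_le_right
    rw [← h]
    refine (iter_sup_le m).trans ?_
    exact sup_le le_rfl (h3.trans inf_le_left)

/-! ### the iterated three subgroups lemma -/

/-- `[A ⊔ C, Z] ≤ [A, Z] ⊔ [C, Z] ⊔ N` inside a section `B / N` centralized by `B`. -/
theorem commutator_sup_le' {N B A C Z : Subgroup G} [hN : N.Normal]
    (hBB : ⁅B, B⁆ ≤ N) (hZB : Z ≤ normalizer (B : Set G)) (hA : A ≤ B) (hC : C ≤ B)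
    (hNC : N ≤ C) : ⁅A ⊔ C, Z⁆ ≤ ⁅A, Z⁆ ⊔ ⁅C, Z⁆ ⊔ N := by
  have hAC : A ≤ normalizer (C : Set G) := by
    rw [le_normalizer_iff]
    intro a ha c hc
    have h1 : ⁅a, c⁆ ∈ N := hBB (commutator_mem_commutator (hA ha) (hC hc))
    have h2 : a * c * a⁻¹ = ⁅a, c⁆ * c := by simp only [commutatorElement_def]; group
    rw [h2]
    exact mul_mem (hNC h1) hc
  rw [commutator_le]
  intro x hx z hz
  rw [sup_comm, SubgroupTools.mem_sup_of_le_normalizer hAC] at hx
  obtain ⟨c, hc, a, ha, rfl⟩ := hx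
  have h0 : ⁅a, z⁆ ∈ B := commutator_le_of_normalizes hZB (commutator_mem_commutator (hA ha) hz)
  have h1 : ⁅c, ⁅a, z⁆⁆ ∈ N := hBB (commutator_mem_commutator (hC hc) h0)
  have h2 : ⁅c * a, z⁆ = ⁅c, ⁅a, z⁆⁆ * ⁅a, z⁆ * ⁅c, z⁆ := by
    simp only [commutatorElement_def]; group
  rw [h2]
  refine mul_mem (mul_mem (mem_sup_right h1) (mem_sup_left (mem_sup_left ?_)))
    (mem_sup_left (mem_sup_right ?_))
  · exact commutator_mem_commutator ha hz
  · exact commutator_mem_commutator hc hz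

theorem iter_sup_le' {N B Z : Subgroup G} [hN : N.Normal] (hNB : N ≤ B)
    (hBB : ⁅B, B⁆ ≤ N) (hZB : Z ≤ normalizer (B : Set G)) (m : ℕ) : ∀ A C : Subgroup G, A ≤ B →
    C ≤ B → iterCommutator A Z m ≤ N → iterCommutator C Z m ≤ N →
    iterCommutator (A ⊔ C ⊔ N) Z m ≤ N := by
  induction m with
  | zero =>
    intro A C _ _ h1 h2
    exact sup_le (sup_le h1 h2) le_rfl
  | succ m ih =>
    intro A C hA hC h1 h2
    rw [iter_succ'] at h1 h2 ⊢
    have hAZ : ⁅A, Z⁆ ≤ B := (commutator_mono hA le_rfl).trans (commutator_le_of_normalizes hZB)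
    have hCZ : ⁅C, Z⁆ ≤ B := (commutator_mono hC le_rfl).trans (commutator_le_of_normalizes hZB)
    refine (iter_mono ?_ m).trans (ih ⁅A, Z⁆ ⁅C, Z⁆ hAZ hCZ h1 h2)
    rw [sup_assoc]
    refine (commutator_sup_le' hBB hZB hA (sup_le hC hNB) le_sup_right).trans ?_
    refine sup_le (sup_le ?_ ?_) le_sup_right
    · exact le_sup_left.trans le_sup_left
    · rw [sup_comm C N]
      refine commutator_sup_le.trans ?_
      exact sup_le le_sup_right (le_sup_right.trans le_sup_left)

/-- The iterated three subgroups lemma, in a section `B / N` centralized by `P ≥ B`. -/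
theorem iter_three {N B P Z : Subgroup G} [hN : N.Normal] [hB : B.Normal] (hNB : N ≤ B)
    (hBP : B ≤ P) (hPB : ⁅P, B⁆ ≤ N) (m : ℕ) : ∀ X Y : Subgroup G, X ≤ P → Y ≤ P →
    Z ≤ normalizer (X : Set G) → Z ≤ normalizer (Y : Set G) → ⁅X, Y⁆ ≤ B →
    (∀ a b : ℕ, a + b = m → iterCommutator ⁅X, iterCommutator Y Z b⁆ Z a ≤ N) →
    ⁅iterCommutator X Z m, Y⁆ ≤ N := by
  induction m with
  | zero =>
    intro X Y _ _ _ _ _ h
    exact h 0 0 rfl
  | succ m ih =>
    intro X Y hX hY hZX hZY hXY h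
    rw [iter_succ']
    have hX'X : ⁅X, Z⁆ ≤ X := commutator_le_of_normalizes hZX
    have hBB : ⁅B, B⁆ ≤ N := (commutator_mono hBP le_rfl).trans hPB
    have hZB : Z ≤ normalizer (B : Set G) := le_normalizer_of_normal
    refine ih ⁅X, Z⁆ Y (hX'X.trans hX) hY (le_normalizer_commutator hZX le_normalizer) hZY
      ((commutator_mono hX'X le_rfl).trans hXY) ?_
    intro a b hab
    set Yb := iterCommutator Y Z b with hYb
    have hZYb : Z ≤ normalizer (Yb : Set G) := iter_normalizes hZY b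
    have hYbY : Yb ≤ Y := iter_le hZY b
    have hYb1 : iterCommutator Y Z (b + 1) = ⁅Yb, Z⁆ := rfl
    set M := ⁅X, ⁅Yb, Z⁆⁆ ⊔ ⁅⁅X, Yb⁆, Z⁆ ⊔ N with hM
    have hA1 : ⁅X, ⁅Yb, Z⁆⁆ ≤ B := (commutator_mono le_rfl
      ((commutator_le_of_normalizes hZYb).trans hYbY)).trans hXY
    have hA2 : ⁅X, Yb⁆ ≤ B := (commutator_mono le_rfl hYbY).trans hXY
    have hA3 : ⁅⁅X, Yb⁆, Z⁆ ≤ B := (commutator_mono hA2 le_rfl).trans
      (commutator_le_of_normalizes hZB)
    have hMB : M ≤ B := sup_le (sup_le hA1 hA3) hNB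
    have hPM : P ≤ normalizer (M : Set G) := by
      rw [le_normalizer_iff]
      intro x hx y hy
      have h1 : ⁅x, y⁆ ∈ N := hPB (commutator_mem_commutator hx (hMB hy))
      have h2 : x * y * x⁻¹ = ⁅x, y⁆ * y := by simp only [commutatorElement_def]; group
      rw [h2]
      exact mul_mem (mem_sup_right h1) hy
    have hZM : Z ≤ normalizer (M : Set G) := by
      apply le_normalizer_sup
      · apply le_normalizer_sup
        · exact le_normalizer_commutator hZX (le_normalizer_commutator hZYb le_normalizer)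
        · exact le_normalizer_commutator (le_normalizer_commutator hZX hZYb) le_normalizer
      · exact le_normalizer_of_normal
    have hthree : ⁅⁅X, Z⁆, Yb⁆ ≤ M := by
      apply PAct.three_subgroups (hX.trans hPM) hZM ((hYbY.trans hY).trans hPM)
      · rw [commutator_comm Z Yb, commutator_comm]
        exact le_sup_left.trans le_sup_left
      · rw [commutator_comm Yb X]
        exact le_sup_right.trans le_sup_left
    refine (iter_mono hthree a).trans ?_
    apply iter_sup_le' hNB hBB hZB a _ _ hA1 hA3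
    · rw [← hYb1]
      exact h a (b + 1) (by omega)
    · rw [← iter_succ']
      exact h (a + 1) b (by omega)

/-! ### chief factors inside a normal `p`-subgroup -/

/-- `P / Y` nilpotent: `X ≤ [X, P] Y` forces `X ≤ Y`, for `P` a finite `p`-group. -/
theorem le_of_le_commutator_sup [Finite G] {p : ℕ} [Fact p.Prime] {P X Y : Subgroup G}
    [hY : Y.Normal] (hP : IsPGroup p ↥P) (hXP : X ≤ P) (h : X ≤ ⁅X, P⁆ ⊔ Y) : X ≤ Y := by
  have hnil : Group.IsNilpotent ↥P := hP.isNilpotent
  obtain ⟨n, hn⟩ := Subgroup.nilpotent_iff_lowerCentralSeries.1 hnil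
  have h1 : ∀ k, X ≤ ((⊤ : Subgroup ↥P).lowerCentralSeries k).map P.subtype ⊔ Y := by
    intro k
    induction k with
    | zero =>
      refine hXP.trans ?_
      have : P ≤ ((⊤ : Subgroup ↥P).lowerCentralSeries 0).map P.subtype := by
        intro x hx
        exact ⟨⟨x, hx⟩, mem_top _, rfl⟩
      exact this.trans le_sup_left
    | succ k ih =>
      refine h.trans (sup_le ?_ le_sup_right)
      have h2 : ⁅X, P⁆ ≤ ⁅Y ⊔ ((⊤ : Subgroup ↥P).lowerCentralSeries k).map P.subtype, P⁆ :=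
        commutator_mono (ih.trans (by rw [sup_comm])) le_rfl
      refine h2.trans (commutator_sup_le.trans ?_)
      refine sup_le le_sup_right (le_trans ?_ le_sup_left)
      have h3 : ((⊤ : Subgroup ↥P).lowerCentralSeries (k + 1)) =
          ⁅(⊤ : Subgroup ↥P).lowerCentralSeries k, (⊤ : Subgroup ↥P)⁆ := rfl
      rw [h3, map_commutator, ← MonoidHom.range_eq_map, range_subtype]
  have h2 := h1 n
  rw [hn, Subgroup.map_bot, bot_sup_eq] at h2
  exact h2

theorem commutator_chief_le [Finite G] {p : ℕ} [Fact p.Prime] {P X Y : Subgroup G} [P.Normal]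
    (hP : IsPGroup p ↥P) (hc : IsChiefFactor X Y) (hXP : X ≤ P) : ⁅P, X⁆ ≤ Y := by
  obtain ⟨hlt, hX, hY, hmin⟩ := hc
  rw [commutator_comm]
  rcases hmin (⁅X, P⁆ ⊔ Y) inferInstance le_sup_right
    (sup_le (commutator_le_left X P) hlt.le) with h | h
  · exact le_trans le_sup_left h.le
  · exact absurd (le_of_le_commutator_sup hP hXP h.ge) (not_le_of_gt hlt)

/-! ### a chief series through `Z0` -/

theorem exists_next [Finite G] {Z0 : Subgroup G} [hZ0 : Z0.Normal] (U : Subgroup G)
    (hU : U.Normal) (hne : U ≠ ⊥) (hcmp : Z0 ≤ U ∨ U ≤ Z0) :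
    ∃ V : Subgroup G, IsChiefFactor U V ∧ (Z0 ≤ V ∨ V ≤ Z0) ∧ (U ≤ Z0 ∨ Z0 ≤ V) := by
  by_cases hlt : Z0 < U
  · obtain ⟨V, hV, hmax⟩ := Set.Finite.exists_maximal (s := {V : Subgroup G | V.Normal ∧ Z0 ≤ V ∧ V < U})
      (Set.toFinite _) ⟨Z0, hZ0, le_rfl, hlt⟩
    refine ⟨V, ⟨hV.2.2, hU, hV.1, ?_⟩, Or.inl hV.2.1, Or.inr hV.2.1⟩
    intro N hN hVN hNU
    rcases hNU.eq_or_lt with h | h
    · exact Or.inr h
    · left
      exact le_antisymm (hmax ⟨hN, hV.2.1.trans hVN, h⟩ hVN) hVN
  · have hUZ : U ≤ Z0 := by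
      rcases hcmp with h | h
      · rcases h.eq_or_lt with h1 | h1
        · exact h1.ge
        · exact absurd h1 hlt
      · exact h
    obtain ⟨V, hV, hmax⟩ := Set.Finite.exists_maximal (s := {V : Subgroup G | V.Normal ∧ V < U})
      (Set.toFinite _) ⟨⊥, inferInstance, bot_lt_iff_ne_bot.mpr hne⟩
    refine ⟨V, ⟨hV.2, hU, hV.1, ?_⟩, Or.inr (hV.2.le.trans hUZ), Or.inl hUZ⟩
    intro N hN hVN hNU
    rcases hNU.eq_or_lt with h | h
    · exact Or.inr h
    · left
      exact le_antisymm (hmax ⟨hN, h⟩ hVN) hVN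

/-- A chief series from `Q` to `1` through `Z0`, indexed by `ℕ`. -/
theorem exists_series [Finite G] (Q Z0 : Subgroup G) [hQ : Q.Normal] [hZ0 : Z0.Normal]
    (hZQ : Z0 ≤ Q) : ∃ S : ℕ → Subgroup G, S 0 = Q ∧ (∀ l, (S l).Normal) ∧
      (∀ l, (S (l + 1) = S l ∧ S l = ⊥) ∨ IsChiefFactor (S l) (S (l + 1))) ∧
      (∀ l, S l ≤ Z0 ∨ Z0 ≤ S (l + 1)) ∧ ∃ n, S n = ⊥ := by
  classical
  let T := {U : Subgroup G // U.Normal ∧ (Z0 ≤ U ∨ U ≤ Z0)}
  have hnext : ∀ U : T, ∃ V : T, ((V = U ∧ (U : Subgroup G) = ⊥) ∨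
      IsChiefFactor (U : Subgroup G) (V : Subgroup G)) ∧
      ((U : Subgroup G) ≤ Z0 ∨ Z0 ≤ (V : Subgroup G)) := by
    rintro ⟨U, hU, hcmp⟩
    by_cases hne : U = ⊥
    · exact ⟨⟨U, hU, hcmp⟩, Or.inl ⟨rfl, hne⟩, Or.inl (by change U ≤ Z0; rw [hne]; exact bot_le)⟩
    · obtain ⟨V, hV, h1, h2⟩ := exists_next U hU hne hcmp
      exact ⟨⟨V, hV.2.2.1, h1⟩, Or.inr hV, h2⟩
  choose nx hnx using hnext
  obtain ⟨S, hS00, hS⟩ : ∃ S : ℕ → T, (S 0).1 = Q ∧ ∀ l, S (l + 1) = nx (S l) :=
    ⟨fun l => Nat.rec ⟨Q, hQ, Or.inl hZQ⟩ (fun _ U => nx U) l, rfl, fun l => rfl⟩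
  refine ⟨fun l => (S l).1, hS00, ?_, ?_, ?_, ?_⟩
  · intro l
    exact (S l).2.1
  · intro l
    have := (hnx (S l)).1
    rw [← hS] at this
    rcases this with ⟨h1, h2⟩ | h
    · exact Or.inl ⟨congrArg Subtype.val h1, h2⟩
    · exact Or.inr h
  · intro l
    have := (hnx (S l)).2
    rw [← hS] at this
    exact this
  · by_contra hno
    push Not at hno
    have hdec : ∀ l, Nat.card ↥(S l : Subgroup G) + l ≤ Nat.card ↥Q := by
      intro l
      induction l with
      | zero => rw [hS00]; exact le_rfl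
      | succ l ih =>
        have h1 := (hnx (S l)).1
        rw [← hS] at h1
        rcases h1 with ⟨-, h2⟩ | h
        · exact absurd h2 (hno l)
        · have h3 : Nat.card ↥(S (l + 1) : Subgroup G) < Nat.card ↥(S l : Subgroup G) := by
            refine lt_of_le_of_ne (Subgroup.card_le_of_le h.1.le) ?_
            intro h4
            exact h.1.ne (Subgroup.eq_of_le_of_card_ge h.1.le h4.ge)
          omega
    have := hdec (Nat.card ↥Q + 1)
    omega

/-! ### The filtration on `P` -/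

/-- the elements `x` with `[x, A] ≤ B` -/
def actTriv (A B : Subgroup G) [B.Normal] : Subgroup G :=
  (centralizer ((A.map (QuotientGroup.mk' B) : Subgroup (G ⧸ B)) : Set (G ⧸ B))).comap
    (QuotientGroup.mk' B)

theorem mem_actTriv {A B : Subgroup G} [B.Normal] {x : G} :
    x ∈ actTriv A B ↔ ∀ a ∈ A, ⁅x, a⁆ ∈ B := by
  unfold actTriv
  rw [mem_comap, mem_centralizer_iff]
  constructor
  · intro h a ha
    have h1 := h _ (mem_map_of_mem _ ha)
    rw [← QuotientGroup.eq_one_iff]
    change QuotientGroup.mk' B ⁅x, a⁆ = 1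
    rw [map_commutatorElement, commutatorElement_eq_one_iff_mul_comm]
    exact h1.symm
  · rintro h _ ⟨a, ha, rfl⟩
    have h1 := h a ha
    rw [← QuotientGroup.eq_one_iff] at h1
    change QuotientGroup.mk' B ⁅x, a⁆ = 1 at h1
    rw [map_commutatorElement, commutatorElement_eq_one_iff_mul_comm] at h1
    exact h1.symm

instance actTriv_normal {A B : Subgroup G} [A.Normal] [B.Normal] : (actTriv A B).Normal := by
  constructor
  intro x hx g
  rw [mem_actTriv] at hx ⊢
  intro a ha
  have h1 := hx (g⁻¹ * a * g⁻¹⁻¹) ((inferInstance : A.Normal).conj_mem a ha g⁻¹)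
  have h2 := (inferInstance : B.Normal).conj_mem _ h1 g
  have h3 : g * ⁅x, g⁻¹ * a * g⁻¹⁻¹⁆ * g⁻¹ = ⁅g * x * g⁻¹, a⁆ := by
    simp only [commutatorElement_def]; group
  rwa [h3] at h2

/-- The main theorem on critical subgroups and chief factors. -/
theorem critical_chief [Finite G] {p : ℕ} [Fact p.Prime] (P : Subgroup G) [hPn : P.Normal]
    (hP : IsPGroup p ↥P) (Q : Subgroup G) [hQn : Q.Normal] (hQP : Q ≤ P)
    (hQ3 : ⁅P, Q⁆ ≤ Q ⊓ centralizer (Q : Set G))
    (hQ4 : P ⊓ centralizer (Q : Set G) ≤ Q ⊓ centralizer (Q : Set G))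
    (Z : Subgroup G) (i j : ℕ) (hi : 1 ≤ i)
    (hQi : ∀ U V : Subgroup G, IsChiefFactor U V → U ≤ Q → iterCommutator U Z i ≤ V)
    (hZj : ∀ U V : Subgroup G, IsChiefFactor U V → U ≤ Q ⊓ centralizer (Q : Set G) →
      iterCommutator U Z j ≤ V) :
    Good Z (i + j - 1) P ⊥ := by
  set Z0 := Q ⊓ centralizer (Q : Set G) with hZ0
  have hZ0n : Z0.Normal := by rw [hZ0]; infer_instance
  have hZ0Q : Z0 ≤ Q := inf_le_left
  obtain ⟨S, hS0, hSn, hSc, hSZ, n, hn⟩ := exists_series Q Z0 hZ0Q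
  have hSanti : Antitone S := antitone_nat_of_succ_le fun l => by
    rcases hSc l with ⟨h, -⟩ | h
    · exact h.le
    · exact h.1.le
  have hSQ : ∀ l, S l ≤ Q := fun l => hS0 ▸ hSanti (Nat.zero_le l)
  have hSP : ∀ l, S l ≤ P := fun l => (hSQ l).trans hQP
  have hZnorm : ∀ (A : Subgroup G), A.Normal → Z ≤ normalizer (A : Set G) := by
    intro A hA
    exact le_normalizer_of_normal
  -- basic facts
  have hPS : ∀ l, ⁅P, S l⁆ ≤ S (l + 1) := by
    intro l
    rcases hSc l with ⟨h1, h2⟩ | h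
    · rw [h2, commutator_bot_right]; exact bot_le
    · exact commutator_chief_le hP h (hSP l)
  have hSi : ∀ l, iterCommutator (S l) Z i ≤ S (l + 1) := by
    intro l
    rcases hSc l with ⟨h1, -⟩ | h
    · rw [h1]; exact iter_le (hZnorm _ (hSn l)) i
    · exact hQi _ _ h (hSQ l)
  have hSj : ∀ l, S l ≤ Z0 → iterCommutator (S l) Z j ≤ S (l + 1) := by
    intro l hl
    rcases hSc l with ⟨h1, -⟩ | h
    · rw [h1]; exact iter_le (hZnorm _ (hSn l)) j
    · exact hZj _ _ h hl
  -- the filtration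
  let F : ℕ → Subgroup G := fun k => P ⊓ ⨅ l, @actTriv G _ (S l) (S (l + k)) (hSn (l + k))
  have hFmem : ∀ k x, x ∈ F k ↔ x ∈ P ∧ ∀ l, ∀ a ∈ S l, ⁅x, a⁆ ∈ S (l + k) := by
    intro k x
    simp only [F, mem_inf, mem_iInf]
    refine and_congr_right fun _ => forall_congr' fun l => ?_
    exact @mem_actTriv G _ (S l) (S (l + k)) (hSn (l + k)) x
  have hFn : ∀ k, (F k).Normal := by
    intro k
    have h1 : (⨅ l, @actTriv G _ (S l) (S (l + k)) (hSn (l + k))).Normal := by
      apply Subgroup.normal_iInf_normal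
      intro l
      exact @actTriv_normal G _ (S l) (S (l + k)) (hSn l) (hSn (l + k))
    exact Subgroup.normal_inf_normal P _
  have hFP : ∀ k, F k ≤ P := fun k => inf_le_left
  have hFsucc : ∀ k, F (k + 1) ≤ F k := by
    intro k x hx
    rw [hFmem] at hx ⊢
    refine ⟨hx.1, fun l a ha => ?_⟩
    exact hSanti (Nat.le_succ (l + k)) (hx.2 l a ha)
  have hF1 : F 1 = P := by
    apply le_antisymm (hFP 1)
    intro x hx
    rw [hFmem]
    exact ⟨hx, fun l a ha => hPS l (commutator_mem_commutator hx ha)⟩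
  have hstep : ∀ k, Good Z (i + j - 1) (F k) (F (k + 1)) := by
    intro k
    apply Good.of_le
    intro x hx
    rw [hFmem]
    have hxF : x ∈ F k := iter_le (hZnorm _ (hFn k)) _ hx
    refine ⟨hFP k hxF, fun l a ha => ?_⟩
    have hnN : (S (l + (k + 1))).Normal := hSn _
    have hnB : (S (l + k)).Normal := hSn _
    have hXY : ∀ l', ⁅F k, S l'⁆ ≤ S (l' + k) := by
      intro l'
      rw [commutator_le]
      intro y hy b hb
      exact ((hFmem k y).mp hy).2 l' b hb
    have key : ⁅iterCommutator (F k) Z (i + j - 1), S l⁆ ≤ S (l + (k + 1)) := by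
      refine iter_three (N := S (l + (k + 1))) (B := S (l + k)) (P := P)
        (hSanti (by omega)) (hSP _) (hPS (l + k)) (i + j - 1) (F k) (S l) (hFP k) (hSP l)
        (hZnorm _ (hFn k)) (hZnorm _ (hSn l)) (hXY l) ?_
      intro a b hab
      have hYb : iterCommutator (S l) Z b ≤ S l := iter_le (hZnorm _ (hSn l)) b
      by_cases hb : i ≤ b
      · have h1 : iterCommutator (S l) Z b ≤ S (l + 1) :=
          (iter_antitone (hZnorm _ (hSn l)) hb).trans (hSi l)
        have h2 : ⁅F k, iterCommutator (S l) Z b⁆ ≤ S (l + (k + 1)) := by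
          refine (commutator_mono le_rfl h1).trans ((hXY (l + 1)).trans (le_of_eq ?_))
          congr 1; omega
        exact (iter_mono h2 a).trans (iter_le (hZnorm _ hnN) a)
      · have ha' : j ≤ a := by omega
        have h1 : ⁅F k, iterCommutator (S l) Z b⁆ ≤ S (l + k) :=
          (commutator_mono le_rfl hYb).trans (hXY l)
        rcases hSZ (l + k) with h2 | h2
        · refine (iter_mono h1 a).trans ?_
          exact (iter_antitone (hZnorm _ hnB) ha').trans (hSj (l + k) h2)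
        · have h3 : ⁅F k, iterCommutator (S l) Z b⁆ ≤ S (l + (k + 1)) := by
            refine le_trans ?_ h2
            exact (commutator_mono (hFP k) (hYb.trans (hSQ l))).trans hQ3
          exact (iter_mono h3 a).trans (iter_le (hZnorm _ hnN) a)
    exact key (commutator_mem_commutator hx ha)
  have hall : ∀ k, Good Z (i + j - 1) P (F (k + 1)) := by
    intro k
    induction k with
    | zero => rw [zero_add, hF1]; exact Good.refl _ _ _
    | succ k ih =>
      have := hFn (k + 1)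
      exact Good.trans (V := F (k + 1)) (hFsucc (k + 1)) (hFP (k + 1)) ih (hstep (k + 1))
  have hFZ : F (n + 1) ≤ Z0 := by
    refine le_trans ?_ hQ4
    intro x hx
    rw [hFmem] at hx
    refine mem_inf.mpr ⟨hx.1, ?_⟩
    rw [mem_centralizer_iff]
    intro q hq
    have h1 := hx.2 0 q (by rw [hS0]; exact hq)
    have h2 : S (0 + (n + 1)) ≤ ⊥ := hn ▸ hSanti (by omega)
    have h3 := h2 h1
    rw [mem_bot, commutatorElement_eq_one_iff_mul_comm] at h3
    exact h3.symm
  refine @Good.trans G _ Z (i + j - 1) P (F (n + 1)) ⊥ (hFn (n + 1)) bot_le (hFP _) (hall n) ?_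
  intro X Y hc _ hX
  have hXn : X.Normal := hc.2.1
  exact (iter_antitone (hZnorm X hXn) (by omega)).trans (hZj X Y hc (hX.trans hFZ))

end Cfsg.Agent.Lib.H34Chief
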