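import Mathlib

/-!
# A `p`-element with minimal polynomial of degree `< p` centralizes abelian `p'`-groups (helper34)
-/

set_option autoImplicit false

namespace Cfsg.Agent.Lib.H34MinPoly

open Subgroup Polynomial

theorem poly_identity (p : ℕ) [hp : Fact p.Prime] :
    (X - 1 : (ZMod p)[X]) ^ (p - 1) = ∑ i ∈ Finset.range p, X ^ i := by
  have h1 : (X - 1 : (ZMod p)[X]) ≠ 0 := by
    have := Polynomial.X_sub_C_ne_zero (1 : ZMod p)
    simpa using this
  apply mul_right_cancel₀ h1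
  rw [geom_sum_mul, ← pow_succ]
  have h2 : p - 1 + 1 = p := Nat.sub_add_cancel hp.out.one_le
  rw [h2, sub_pow_char, one_pow]

theorem sub_one_pow_eq {R : Type*} [Ring R] {p : ℕ} [hp : Fact p.Prime] (hR : (p : R) = 0) (x : R) :
    (x - 1) ^ (p - 1) = ∑ i ∈ Finset.range p, x ^ i := by
  obtain ⟨q, hq⟩ := CharP.exists R
  have h1 : q ∣ p := (CharP.cast_eq_zero_iff R q p).1 hR
  rcases (Nat.dvd_prime hp.out).mp h1 with h | h
  · subst h
    have := CharP.CharOne.subsingleton (R := R)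
    exact Subsingleton.elim _ _
  · subst h
    let _ := ZMod.algebra R q
    have := congrArg (Polynomial.aeval x) (poly_identity q)
    simpa using this

section Abstract

variable {Γ R : Type*} [Group Γ] [Ring R] {p : ℕ} [hp : Fact p.Prime]

theorem eq_one_of_min (ρ : Γ →* R) (hR : (p : R) = 0) (A : Subgroup Γ) [Finite ↥A]
    (hA : IsMulCommutative ↥A) (hcop : (Nat.card ↥A).Coprime p) (g : Γ) (hgp : g ^ p = 1)
    (hgA : g ∈ normalizer (A : Set Γ)) (hfix : ∀ a ∈ A, g * a = a * g → a = 1)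
    (hmin : (ρ g - 1) ^ (p - 1) = 0) : ∀ a ∈ A, ρ a = 1 := by
  classical
  have : Fintype ↥A := Fintype.ofFinite _
  have hcomm : ∀ a ∈ A, ∀ b ∈ A, a * b = b * a := fun a ha b hb =>
    congrArg Subtype.val (hA.is_comm.comm (⟨a, ha⟩ : ↥A) ⟨b, hb⟩)
  have hconj : ∀ b ∈ A, g⁻¹ * b * g ∈ A := by
    intro b hb
    have := (mem_normalizer_iff.mp (inv_mem hgA) b).mp hb
    simpa using this
  -- every element of `g A` is conjugate to `g`
  have hsurj : ∀ a : ↥A, ∃ b : ↥A, g * (a : Γ) = b * g * (b : Γ)⁻¹ := by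
    let φ : ↥A → ↥A := fun b => ⟨g⁻¹ * b * g * (b : Γ)⁻¹, mul_mem (hconj b b.2) (inv_mem b.2)⟩
    have hinj : Function.Injective φ := by
      intro b c hbc
      have h1 : g⁻¹ * (b : Γ) * g * (b : Γ)⁻¹ = g⁻¹ * c * g * (c : Γ)⁻¹ := congrArg Subtype.val hbc
      have h2 : (c : Γ)⁻¹ * b = 1 := by
        apply hfix _ (mul_mem (inv_mem c.2) b.2)
        have h3 : (g⁻¹ * c * g)⁻¹ * (g⁻¹ * b * g) = (c : Γ)⁻¹ * b := by
          have h4 : g⁻¹ * (b : Γ) * g = g⁻¹ * c * g * (c : Γ)⁻¹ * b := by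
            rw [← h1]; group
          rw [h4]; group
        have h5 : g⁻¹ * ((c : Γ)⁻¹ * b) * g = (c : Γ)⁻¹ * b := by
          refine Eq.trans ?_ h3
          group
        calc g * ((c : Γ)⁻¹ * b) = g * (g⁻¹ * ((c : Γ)⁻¹ * b) * g) := by rw [h5]
          _ = (c : Γ)⁻¹ * b * g := by group
      ext
      rw [inv_mul_eq_one] at h2
      exact h2.symm
    have hs : Function.Surjective φ := Finite.surjective_of_injective hinj
    intro a
    obtain ⟨b, hb⟩ := hs a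
    refine ⟨b, ?_⟩
    have h1 : g⁻¹ * (b : Γ) * g * (b : Γ)⁻¹ = a := congrArg Subtype.val hb
    rw [← h1]; group
  -- powers
  have hpow : ∀ a : ↥A, ∀ i : ℕ, ∃ c : ↥A, (g * (a : Γ)) ^ i = g ^ i * c := by
    intro a i
    induction i with
    | zero => exact ⟨1, by simp⟩
    | succ i ih =>
      obtain ⟨c, hc⟩ := ih
      refine ⟨⟨g⁻¹ * c * g * a, mul_mem (hconj c c.2) a.2⟩, ?_⟩
      rw [pow_succ, hc, pow_succ]
      simp only [mul_assoc, mul_inv_cancel_left]
  choose ψ hψ using hpow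
  have hpp : ∀ a : ↥A, (g * (a : Γ)) ^ p = 1 := by
    intro a
    obtain ⟨b, hb⟩ := hsurj a
    rw [hb, conj_pow, hgp]; group
  have hψinj : ∀ i, 0 < i → i < p → Function.Injective (fun a : ↥A => ψ a i) := by
    intro i hi hip a b hab
    have h1 : (g * (a : Γ)) ^ i = (g * (b : Γ)) ^ i := by
      rw [hψ a i, hψ b i]
      exact congrArg (fun t : ↥A => g ^ i * (t : Γ)) hab
    have hco : Nat.Coprime i p := (Nat.coprime_of_lt_prime hi.ne' hip hp.out).symm
    obtain ⟨m, hm⟩ := Nat.exists_mul_mod_eq_one_of_coprime hco hp.out.one_lt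
    have h2 : ∀ a : ↥A, (g * (a : Γ)) ^ (i * m) = g * a := by
      intro a
      rw [pow_eq_pow_mod (i * m) (hpp a), hm.2, pow_one]
    have h3 : g * (a : Γ) = g * b := by
      rw [← h2 a, ← h2 b, pow_mul, pow_mul, h1]
    exact Subtype.ext (mul_left_cancel h3)
  -- each `Σ ρ (g a)^i` vanishes
  have hzero : ∀ a : ↥A, ∑ i ∈ Finset.range p, ρ ((g * (a : Γ)) ^ i) = 0 := by
    intro a
    obtain ⟨b, hb⟩ := hsurj a
    let u : Rˣ := MonoidHom.toHomUnits ρ b
    have hu : (u : R) = ρ b := rfl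
    have hu' : ((u⁻¹ : Rˣ) : R) = ρ (b : Γ)⁻¹ := by
      change ((MonoidHom.toHomUnits ρ b)⁻¹ : Rˣ).val = _
      rw [← map_inv]; rfl
    have h1 : ρ (g * (a : Γ)) - 1 = u * (ρ g - 1) * (u⁻¹ : Rˣ) := by
      rw [hb, map_mul, map_mul, mul_sub, sub_mul, mul_one, ← hu', ← hu, Units.mul_inv]
    have h2 : (ρ (g * (a : Γ)) - 1) ^ (p - 1) = 0 := by
      rw [h1, Units.conj_pow, hmin, mul_zero, zero_mul]
    rw [sub_one_pow_eq hR] at h2
    simpa using h2
  have htotal : ∑ i ∈ Finset.range p, ∑ a : ↥A, ρ ((g * (a : Γ)) ^ i) = 0 := by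
    rw [Finset.sum_comm]
    exact Finset.sum_eq_zero fun a _ => hzero a
  set s : R := ∑ a : ↥A, ρ (a : Γ) with hs
  have hi0 : ∀ i, 0 < i → i < p → ∑ a : ↥A, ρ ((g * (a : Γ)) ^ i) = ρ (g ^ i) * s := by
    intro i hi hip
    have hb : Function.Bijective (fun a : ↥A => ψ a i) := Finite.injective_iff_bijective.mp (hψinj i hi hip)
    have h1 : ∀ a : ↥A, ρ ((g * (a : Γ)) ^ i) = ρ (g ^ i) * ρ (ψ a i : Γ) := by
      intro a
      rw [hψ a i, map_mul]
    rw [Finset.sum_congr rfl (fun a _ => h1 a), ← Finset.mul_sum, hs]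
    congr 1
    exact Function.Bijective.sum_comp hb (fun a : ↥A => ρ (a : Γ))
  intro c hc
  have hsc : s * (ρ c - 1) = 0 := by
    rw [mul_sub, mul_one, sub_eq_zero, hs, Finset.sum_mul]
    have h1 : ∀ a : ↥A, ρ (a : Γ) * ρ c = ρ ((a * ⟨c, hc⟩ : ↥A) : Γ) := by
      intro a; rw [← map_mul]; rfl
    rw [Finset.sum_congr rfl (fun a _ => h1 a)]
    exact Equiv.sum_comp (Equiv.mulRight (⟨c, hc⟩ : ↥A)) (fun a : ↥A => ρ (a : Γ))
  have hcard : (Nat.card ↥A : R) * (ρ c - 1) = 0 := by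
    have hpos : 0 < p := hp.out.pos
    have h1 : ∑ i ∈ Finset.range p, ∑ a : ↥A, ρ ((g * (a : Γ)) ^ i) =
        (Nat.card ↥A : R) + ∑ i ∈ (Finset.range p).erase 0, ρ (g ^ i) * s := by
      rw [← Finset.add_sum_erase _ _ (Finset.mem_range.mpr hpos)]
      congr 1
      · simp [Nat.card_eq_fintype_card]
      · apply Finset.sum_congr rfl
        intro i hi
        rw [Finset.mem_erase, Finset.mem_range] at hi
        exact hi0 i (Nat.pos_of_ne_zero hi.1) hi.2
    have h2 := congrArg (· * (ρ c - 1)) htotal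
    simp only [zero_mul] at h2
    rw [h1, add_mul, Finset.sum_mul] at h2
    have h3 : ∑ i ∈ (Finset.range p).erase 0, ρ (g ^ i) * s * (ρ c - 1) = 0 := by
      apply Finset.sum_eq_zero
      intro i _
      rw [mul_assoc, hsc, mul_zero]
    rw [h3, add_zero] at h2
    exact h2
  have hpz : (p : R) * (ρ c - 1) = 0 := by rw [hR, zero_mul]
  have hbez := Nat.gcd_eq_gcd_ab (Nat.card ↥A) p
  rw [hcop.gcd_eq_one] at hbez
  have h4 : ((1 : ℤ) : R) * (ρ c - 1) = 0 := by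
    have h5 : (1 : ℤ) = (Nat.card ↥A : ℤ) * Nat.gcdA (Nat.card ↥A) p + (p : ℤ) * Nat.gcdB (Nat.card ↥A) p := by
      exact_mod_cast hbez
    rw [h5]
    push_cast
    rw [add_mul]
    have h6 : (Nat.card ↥A : R) * (Nat.gcdA (Nat.card ↥A) p : R) * (ρ c - 1) = 0 := by
      rw [← Int.cast_natCast, ← Int.cast_mul, mul_comm (Nat.card ↥A : ℤ), Int.cast_mul, mul_assoc,
        Int.cast_natCast, hcard, mul_zero]
    have h7 : (p : R) * (Nat.gcdB (Nat.card ↥A) p : R) * (ρ c - 1) = 0 := by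
      rw [hR, zero_mul, zero_mul]
    rw [h6, h7, add_zero]
  rw [Int.cast_one, one_mul, sub_eq_zero] at h4
  exact h4

end Abstract

end Cfsg.Agent.Lib.H34MinPoly
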