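import Cfsg.Agent.Lib.H34Chief
import Cfsg.Agent.Lib.H34MinPoly
import Cfsg.Agent.Lib.H34Sections
import Cfsg.Agent.Lib.AbelianCoprime
import Cfsg.Agent.Lib.CoprimeAction

/-!
# Chief factors of groups with a maximal Sylow subgroup (helper34)
-/

set_option autoImplicit false
set_option linter.unusedSectionVars false

namespace Cfsg.Agent.Lib.H34ChiefQuad

open Cfsg Subgroup Cfsg.Agent.Lib.H34Chief Cfsg.Agent.Lib.H34MinPoly Cfsg.Agent.Lib.PNilp
open scoped commutatorElement

universe u

theorem abelian_of_coatom {Y : Type u} [Group Y] [Finite Y] {p : ℕ} [hp : Fact p.Prime]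
    (T : Sylow p Y) (hT : IsCoatom (T : Subgroup Y)) (M : Subgroup Y) [hMn : M.Normal]
    (hM : ¬ p ∣ Nat.card ↥M) {k : ℕ} (hk : M.index = p ^ k) : IsMulCommutative ↥M := by
  have hcopM : (Nat.card ↥M).Coprime p := ((hp.out.coprime_iff_not_dvd).mpr hM).symm
  obtain ⟨m, hm⟩ := IsPGroup.iff_card.mp T.2
  have hcop : (Nat.card ↥(T : Subgroup Y)).Coprime (Nat.card ↥M) := by
    rw [hm]; exact (Nat.Coprime.pow_right m hcopM).symm
  have hdisj : (T : Subgroup Y) ⊓ M = ⊥ := SubgroupTools.inf_eq_bot_of_coprime' hcop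
  have hMne : M ≠ ⊥ := by
    intro h
    rw [h, index_bot] at hk
    have hY : IsPGroup p Y := IsPGroup.of_card hk
    apply hT.1
    exact T.3 (hY.to_subgroup ⊤) le_top |>.symm
  obtain ⟨q, hq, hqM⟩ := Nat.exists_prime_and_dvd
    (fun h => hMne (Subgroup.card_eq_one.mp h) : Nat.card ↥M ≠ 1)
  have hqF : Fact q.Prime := ⟨hq⟩
  have hTM : (T : Subgroup Y) ≤ normalizer (M : Set Y) := le_normalizer_of_normal
  have hTsol : Group.IsSolvable ↥(T : Subgroup Y) := by
    have : Group.IsNilpotent ↥(T : Subgroup Y) := T.2.isNilpotent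
    infer_instance
  obtain ⟨Q, hQM, hQq, hQi, hTQ⟩ := CoprimeAction.exists_invariant_sylow hTM hcop (Or.inl hTsol) q
  have hQne : Q ≠ ⊥ := by
    intro h
    rw [h, relIndex_bot_left] at hQi
    exact hQi hqM
  have hsup : Q ⊔ (T : Subgroup Y) = ⊤ := by
    apply hT.2
    refine lt_of_le_of_ne le_sup_right ?_
    intro h
    have h1 : Q ≤ (T : Subgroup Y) ⊓ M := le_inf (by rw [h]; exact le_sup_left) hQM
    rw [hdisj, le_bot_iff] at h1
    exact hQne h1
  have hMQ : M = Q := by
    have := SubgroupTools.sup_inf_of_le_normalizer (A := Q) (B := (T : Subgroup Y)) (C := M) hQM hTQ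
    rw [hsup, top_inf_eq, hdisj, sup_bot_eq] at this
    exact this
  have hMq : IsPGroup q ↥M := hMQ ▸ hQq
  have hcn : (⁅M, M⁆ : Subgroup Y).Normal := inferInstance
  have hcM : ⁅M, M⁆ ≤ M := commutator_le_left M M
  have hbot : ⁅M, M⁆ = ⊥ := by
    by_contra hne
    have hsup2 : ⁅M, M⁆ ⊔ (T : Subgroup Y) = ⊤ := by
      apply hT.2
      refine lt_of_le_of_ne le_sup_right ?_
      intro h
      have h1 : ⁅M, M⁆ ≤ (T : Subgroup Y) ⊓ M := le_inf (by rw [h]; exact le_sup_left) hcM
      rw [hdisj, le_bot_iff] at h1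
      exact hne h1
    have h2 : M = ⁅M, M⁆ := by
      have := SubgroupTools.sup_inf_of_le_normalizer (A := ⁅M, M⁆) (B := (T : Subgroup Y)) (C := M)
        hcM le_normalizer_of_normal
      rw [hsup2, top_inf_eq, hdisj, sup_bot_eq] at this
      exact this
    have h3 := le_of_le_commutator_sup (P := M) (X := M) (Y := ⊥) hMq le_rfl
      (by rw [sup_bot_eq]; exact h2.le)
    exact hMne (le_bot_iff.mp h3)
  refine ⟨⟨fun a b => ?_⟩⟩
  have h1 : ⁅(a : Y), (b : Y)⁆ ∈ ⁅M, M⁆ := commutator_mem_commutator a.2 b.2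
  rw [hbot, mem_bot, commutatorElement_eq_one_iff_mul_comm] at h1
  exact Subtype.ext h1

section Rep

variable {E : Type*} [CommGroup E]

/-- automorphisms of a commutative group as additive endomorphisms -/
def toEnd : MulAut E →* AddMonoid.End (Additive E) where
  toFun a := MonoidHom.toAdditive (a : E →* E)
  map_one' := rfl
  map_mul' _ _ := rfl

theorem toEnd_injective : Function.Injective (toEnd (E := E)) := by
  intro a b h
  ext x
  exact congrArg (fun f : AddMonoid.End (Additive E) => (f (Additive.ofMul x)).toMul) h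

theorem toEnd_sub_one (a : MulAut E) (x : E) :
    (toEnd a - 1) (Additive.ofMul x) = Additive.ofMul (a x * x⁻¹) := by
  change Additive.ofMul (a x) - Additive.ofMul x = _
  rw [← ofMul_div, div_eq_mul_inv]

end Rep

/-- If a Sylow `p`-subgroup `T` of `X` is maximal and `X / O_p(X)` has a normal `p`-complement, then an element `g` of
`T` with `[U, g; p - 1] ≤ V` on a chief factor `U / V` below `O_p(X)` centralizes it. -/
theorem chief_quad {X : Type u} [Group X] [Finite X] {p : ℕ} [hp : Fact p.Prime] (T : Sylow p X)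
    (hT : IsCoatom (T : Subgroup X)) (hnpc : HasNormalPComplement p (X ⧸ pCore p X))
    {U V : Subgroup X} (hc : IsChiefFactor U V) (hU : U ≤ pCore p X) {g : X}
    (hg : g ∈ (T : Subgroup X)) (hit : iterCommutator U (zpowers g) (p - 1) ≤ V) :
    ⁅U, zpowers g⁆ ≤ V := by
  classical
  set H := pCore p X with hH
  have hHp : IsPGroup p ↥H := H34Basic.isPGroup_pCore p
  obtain ⟨hlt, hUn, hVn, hmin⟩ := hc
  have hHU : ⁅H, U⁆ ≤ V := commutator_chief_le hHp ⟨hlt, hUn, hVn, hmin⟩ hU
  have hHT : H ≤ T := by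
    obtain ⟨R, hR⟩ : ∃ R : Sylow p X, H ≤ R := hHp.exists_le_sylow
    obtain ⟨c, hc⟩ := MulAction.exists_smul_eq X R T
    intro x hx
    rw [← hc]
    have h1 : c⁻¹ * x * c ∈ H := by
      have := (inferInstance : H.Normal).conj_mem x hx c⁻¹
      simpa using this
    exact ⟨c⁻¹ * x * c, hR h1, by simp [mul_assoc]⟩
  -- the section `U / V`
  let πV := QuotientGroup.mk' V
  have hπVs : Function.Surjective πV := QuotientGroup.mk'_surjective V
  set Ub : Subgroup (X ⧸ V) := U.map πV with hUb
  have hUbn : Ub.Normal := hUn.map πV hπVs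
  have hUbc : ∀ a b : ↥Ub, a * b = b * a := by
    rintro ⟨_, a, ha, rfl⟩ ⟨_, b, hb, rfl⟩
    ext
    change πV a * πV b = πV b * πV a
    rw [← commutatorElement_eq_one_iff_mul_comm, ← map_commutatorElement]
    exact (QuotientGroup.eq_one_iff _).mpr (hHU (commutator_mem_commutator (hU ha) hb))
  let instC : CommGroup ↥Ub := { (inferInstance : Group ↥Ub) with mul_comm := hUbc }
  -- exponent `p`
  have hexp : ∀ u ∈ U, u ^ p ∈ V := by
    let N : Subgroup X :=
      { carrier := {u | u ∈ U ∧ u ^ p ∈ V}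
        mul_mem' := by
          rintro a b ⟨ha, ha'⟩ ⟨hb, hb'⟩
          refine ⟨mul_mem ha hb, ?_⟩
          rw [← QuotientGroup.eq_one_iff] at ha' hb' ⊢
          have hcomm : Commute (πV a) (πV b) :=
            congrArg Subtype.val (hUbc ⟨πV a, mem_map_of_mem _ ha⟩ ⟨πV b, mem_map_of_mem _ hb⟩)
          change πV ((a * b) ^ p) = 1
          rw [map_pow, map_mul, hcomm.mul_pow, ← map_pow, ← map_pow]
          change πV (a ^ p) = 1 at ha'
          change πV (b ^ p) = 1 at hb'
          rw [ha', hb', one_mul]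
        one_mem' := ⟨one_mem _, by rw [one_pow]; exact one_mem _⟩
        inv_mem' := by
          rintro a ⟨ha, ha'⟩
          exact ⟨inv_mem ha, by rw [inv_pow]; exact inv_mem ha'⟩ }
    have hNn : N.Normal := by
      constructor
      rintro u ⟨hu, hu'⟩ x
      refine ⟨hUn.conj_mem u hu x, ?_⟩
      rw [conj_pow]
      exact hVn.conj_mem _ hu' x
    have hVN : V ≤ N := fun v hv => ⟨hlt.le hv, pow_mem hv p⟩
    have hNU : N ≤ U := fun u hu => hu.1
    have hUbne : Nontrivial ↥Ub := by
      rw [Subgroup.nontrivial_iff_ne_bot]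
      intro h
      rw [hUb, Subgroup.map_eq_bot_iff, QuotientGroup.ker_mk'] at h
      exact absurd hlt (not_lt_of_ge h)
    have hUbp : IsPGroup p ↥Ub := (hHp.to_le hU).map πV
    obtain ⟨n, hn0, hn⟩ := hUbp.nontrivial_iff_card.mp hUbne
    obtain ⟨w, hw⟩ := exists_prime_orderOf_dvd_card' (G := ↥Ub) p (by rw [hn]; exact dvd_pow_self p hn0.ne')
    obtain ⟨⟨_, u, hu, rfl⟩, hwo⟩ : ∃ w : ↥Ub, orderOf w = p := ⟨w, hw⟩
    have hNne : N ≠ V := by
      intro h
      have h1 : u ∈ N := by
        refine ⟨hu, ?_⟩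
        rw [← QuotientGroup.eq_one_iff]
        change πV (u ^ p) = 1
        have h2 := pow_orderOf_eq_one (⟨πV u, mem_map_of_mem _ hu⟩ : ↥Ub)
        rw [hwo] at h2
        have h3 := congrArg Subtype.val h2
        rw [map_pow]
        exact h3
      rw [h] at h1
      have h2 : (⟨πV u, mem_map_of_mem _ hu⟩ : ↥Ub) = 1 := by
        ext
        exact (QuotientGroup.eq_one_iff _).mpr h1
      rw [h2, orderOf_one] at hwo
      exact hp.out.one_lt.ne hwo
    have hNU' : N = U := (hmin N hNn hVN hNU).resolve_left hNne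
    intro u hu
    rw [← hNU'] at hu
    exact hu.2
  -- the representation
  let α : X →* MulAut ↥Ub := (MulAut.conjNormal (H := Ub)).comp πV
  have hα : ∀ (x u : X) (hu : u ∈ U), ((α x ⟨πV u, mem_map_of_mem _ hu⟩ : ↥Ub) : X ⧸ V) =
      πV (x * u * x⁻¹) := by
    intro x u hu
    rfl
  set C := α.ker with hC
  have hCmem : ∀ x : X, x ∈ C ↔ ∀ u ∈ U, ⁅x, u⁆ ∈ V := by
    intro x
    rw [hC, MonoidHom.mem_ker]
    constructor
    · intro h u hu
      have h1 := hα x u hu
      rw [h] at h1
      rw [← QuotientGroup.eq_one_iff]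
      change πV ⁅x, u⁆ = 1
      have h2 : πV u = πV (x * u * x⁻¹) := h1
      rw [commutatorElement_def, map_mul, ← h2, ← map_mul, mul_inv_cancel, map_one]
    · intro h
      ext ⟨_, u, hu, rfl⟩
      have h1 := h u hu
      rw [← QuotientGroup.eq_one_iff] at h1
      change πV ⁅x, u⁆ = 1 at h1
      rw [commutatorElement_def, map_mul, map_inv, mul_inv_eq_one] at h1
      exact h1
  have hHC : H ≤ C := by
    intro x hx
    rw [hCmem]
    intro u hu
    exact hHU (commutator_mem_commutator hx hu)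
  let ρ : X ⧸ C →* AddMonoid.End (Additive ↥Ub) := toEnd.comp (QuotientGroup.kerLift α)
  have hρinj : Function.Injective ρ := toEnd_injective.comp (QuotientGroup.kerLift_injective α)
  let πC := QuotientGroup.mk' C
  have hπCs : Function.Surjective πC := QuotientGroup.mk'_surjective C
  have hρ : ∀ x : X, ρ (πC x) = toEnd (α x) := fun x => rfl
  have hR : ((p : ℕ) : AddMonoid.End (Additive ↥Ub)) = 0 := by
    refine AddMonoidHom.ext fun w => ?_
    obtain ⟨⟨_, u, hu, rfl⟩, rfl⟩ := Additive.ofMul.surjective w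
    have h1 : (⟨πV u, mem_map_of_mem _ hu⟩ : ↥Ub) ^ p = 1 := by
      ext
      change πV u ^ p = 1
      rw [← map_pow]
      exact (QuotientGroup.eq_one_iff _).mpr (hexp u hu)
    have h2 : ((p : ℕ) : AddMonoid.End (Additive ↥Ub)) (Additive.ofMul ⟨πV u, mem_map_of_mem _ hu⟩) =
        p • Additive.ofMul (⟨πV u, mem_map_of_mem _ hu⟩ : ↥Ub) := by
      rw [AddMonoid.End.natCast_apply]
    change ((p : ℕ) : AddMonoid.End (Additive ↥Ub)) (Additive.ofMul ⟨πV u, mem_map_of_mem _ hu⟩) = 0
    rw [h2, ← ofMul_pow, h1]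
    rfl
  set γ := πC g with hγ
  -- `(ρ γ - 1)^(p-1) = 0`
  have hpow : ∀ m : ℕ, ∀ u (hu : u ∈ U), ∃ w, ∃ hw : w ∈ U, w ∈ iterCommutator U (zpowers g) m ∧
      ((ρ γ - 1) ^ m) (Additive.ofMul ⟨πV u, mem_map_of_mem _ hu⟩) =
        Additive.ofMul (⟨πV w, mem_map_of_mem _ hw⟩ : ↥Ub) := by
    intro m
    induction m with
    | zero => intro u hu; exact ⟨u, hu, hu, rfl⟩
    | succ m ih =>
      intro u hu
      obtain ⟨w, hwU, hw, hwe⟩ := ih u hu
      have hgw : g * w * g⁻¹ * w⁻¹ ∈ U := mul_mem (hUn.conj_mem w hwU g) (inv_mem hwU)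
      refine ⟨g * w * g⁻¹ * w⁻¹, hgw, ?_, ?_⟩
      · have h1 : ⁅w, g⁆ ∈ ⁅iterCommutator U (zpowers g) m, zpowers g⁆ :=
          commutator_mem_commutator hw (mem_zpowers g)
        have h2 := inv_mem h1
        rw [commutatorElement_inv] at h2
        exact h2
      · rw [pow_succ']
        change (ρ γ - 1) (((ρ γ - 1) ^ m) _) = _
        rw [hwe, hρ, toEnd_sub_one]
        rfl
  have hmin' : (ρ γ - 1) ^ (p - 1) = 0 := by
    refine AddMonoidHom.ext fun w => ?_
    obtain ⟨⟨_, u, hu, rfl⟩, rfl⟩ := Additive.ofMul.surjective w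
    obtain ⟨w, hwU, hw, hwe⟩ := hpow (p - 1) u hu
    change ((ρ γ - 1) ^ (p - 1)) (Additive.ofMul ⟨πV u, mem_map_of_mem _ hu⟩) = 0
    rw [hwe]
    have h1 : (⟨πV w, mem_map_of_mem _ hwU⟩ : ↥Ub) = 1 := by
      ext
      exact (QuotientGroup.eq_one_iff _).mpr (hit hw)
    rw [h1]; rfl
  have hγp : γ ^ p = 1 := by
    apply hρinj
    rw [map_pow, map_one]
    have h1 := sub_one_pow_eq hR (ρ γ)
    rw [hmin'] at h1
    have h2 := geom_sum_mul (ρ γ) p
    rw [← h1, zero_mul] at h2
    exact (sub_eq_zero.mp h2.symm)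
  -- the `p'`-part
  obtain ⟨M, hMn, hMp, k, hk⟩ := hasNormalPComplement_iff.mp hnpc
  let πH := QuotientGroup.mk' H
  have hπHs : Function.Surjective πH := QuotientGroup.mk'_surjective H
  let Tb : Sylow p (X ⧸ H) := T.mapSurjective hπHs
  have hTbc : (Tb : Subgroup (X ⧸ H)) = (T : Subgroup X).map πH := rfl
  have hTcomap : ((T : Subgroup X).map πH).comap πH = T := by
    rw [Subgroup.comap_map_eq]
    change (T : Subgroup X) ⊔ (QuotientGroup.mk' H).ker = T
    rw [QuotientGroup.ker_mk']
    exact sup_eq_left.mpr hHT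
  have hTbco : IsCoatom (Tb : Subgroup (X ⧸ H)) := by
    rw [hTbc]
    constructor
    · intro h
      apply hT.1
      rw [← hTcomap, h, Subgroup.comap_top]
    · intro L hL
      have h1 : (T : Subgroup X) < L.comap πH := by
        refine lt_of_le_of_ne (Subgroup.map_le_iff_le_comap.mp hL.le) ?_
        intro h
        apply hL.ne
        rw [h, Subgroup.map_comap_eq_self_of_surjective hπHs]
      have h2 := hT.2 _ h1
      rw [← Subgroup.map_comap_eq_self_of_surjective hπHs L, h2]
      exact Subgroup.map_top_of_surjective _ hπHs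
  have hMc := abelian_of_coatom Tb hTbco M hMp hk
  let q : X ⧸ H →* X ⧸ C := QuotientGroup.map H C (MonoidHom.id X) hHC
  have hq : ∀ x, q (πH x) = πC x := fun x => rfl
  have hqs : Function.Surjective q := by
    intro y
    obtain ⟨x, rfl⟩ := hπCs y
    exact ⟨πH x, rfl⟩
  set A := M.map q with hA
  have hAn : A.Normal := hMn.map q hqs
  have hAc : IsMulCommutative ↥A := by
    refine ⟨⟨?_⟩⟩
    rintro ⟨_, a, ha, rfl⟩ ⟨_, b, hb, rfl⟩
    ext
    change q a * q b = q b * q a
    rw [← map_mul, ← map_mul]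
    exact congrArg q (congrArg Subtype.val (hMc.is_comm.comm (⟨a, ha⟩ : ↥M) ⟨b, hb⟩))
  have hAcop : (Nat.card ↥A).Coprime p := by
    refine Nat.Coprime.coprime_dvd_left (Subgroup.card_map_dvd M q) ?_
    exact ((hp.out.coprime_iff_not_dvd).mpr hMp).symm
  set Tc := (T : Subgroup X).map πC with hTc
  have hTcp : IsPGroup p ↥Tc := T.2.map _
  have hγT : γ ∈ Tc := mem_map_of_mem _ hg
  -- `[A, γ] = 1`
  have hcomm : ⁅A, zpowers γ⁆ = ⊥ := by
    have hZA : zpowers γ ≤ normalizer (A : Set (X ⧸ C)) := le_normalizer_of_normal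
    have hA1A : ⁅A, zpowers γ⁆ ≤ A := commutator_le_left A _
    have hZp : IsPGroup p ↥(zpowers γ) := hTcp.to_le (by rw [zpowers_le]; exact hγT)
    have hcop2 : (Nat.card ↥A).Coprime (Nat.card ↥(zpowers γ)) := by
      obtain ⟨m, hm⟩ := IsPGroup.iff_card.mp hZp
      rw [hm]; exact Nat.Coprime.pow_right m hAcop
    have hinf := AbelianCoprime.abelian_inf hAc hZA hcop2
    have key := eq_one_of_min ρ hR ⁅A, zpowers γ⁆
      (by
        refine ⟨⟨fun a b => Subtype.ext ?_⟩⟩
        change (a : X ⧸ C) * b = b * a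
        exact congrArg (fun t : ↥A => (t : X ⧸ C))
          (hAc.is_comm.comm (⟨a, hA1A a.2⟩ : ↥A) ⟨b, hA1A b.2⟩))
      (Nat.Coprime.coprime_dvd_left (card_dvd_of_le hA1A) hAcop) γ hγp
      (LocBase.le_normalizer_commutator hZA le_normalizer (mem_zpowers γ))
      (by
        intro a ha hga
        have h1 : a ∈ (A ⊓ centralizer (zpowers γ : Set (X ⧸ C))) ⊓ ⁅A, zpowers γ⁆ := by
          refine mem_inf.mpr ⟨mem_inf.mpr ⟨hA1A ha, ?_⟩, ha⟩
          rw [zpowers_eq_closure, centralizer_closure, mem_centralizer_singleton_iff]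
          exact hga.symm
        rw [hinf, mem_bot] at h1
        exact h1)
      hmin'
    rw [eq_bot_iff]
    intro a ha
    rw [mem_bot]
    apply hρinj
    rw [key a ha, map_one]
  -- `D = T̂ ∩ C(A)` is a normal `p`-subgroup
  set D := Tc ⊓ centralizer (A : Set (X ⧸ C)) with hD
  have hsup : Tc ⊔ A = ⊤ := by
    have h1 := sylow_sup_of_index_pow Tb M hk
    have h2 := congrArg (Subgroup.map q) h1
    rw [Subgroup.map_sup, Subgroup.map_top_of_surjective _ hqs, hTbc, Subgroup.map_map] at h2
    exact h2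
  have hDn : D.Normal := by
    rw [← normalizer_eq_top_iff, eq_top_iff, ← hsup]
    apply sup_le
    · exact LocBase.le_normalizer_inf le_normalizer
        (LocBase.le_normalizer_centralizer le_normalizer_of_normal)
    · refine le_trans ?_ (Components.centralizer_le_normalizer' D)
      exact Components.le_centralizer_comm inf_le_right
  have hDbot : D = ⊥ := by
    set Dt := D.comap πC with hDt
    have hDtn : Dt.Normal := hDn.comap πC
    have hDtTC : Dt ≤ (T : Subgroup X) ⊔ C := by
      have h1 : Dt ≤ Tc.comap πC := Subgroup.comap_mono inf_le_left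
      rw [hTc, Subgroup.comap_map_eq] at h1
      have h2 : πC.ker = C := QuotientGroup.ker_mk' C
      rwa [h2] at h1
    -- a fixed point
    obtain ⟨z, hz, hzf, hzo⟩ := PAct.exists_fixed_orderOf_eq (p := p)
      (S := (T : Subgroup X).map πV) (A := Ub) (T.2.map _) ((hHp.to_le hU).map πV)
      (by
        intro h
        rw [hUb, Subgroup.map_eq_bot_iff] at h
        have h2 : πV.ker = V := QuotientGroup.ker_mk' V
        rw [h2] at h
        exact absurd hlt (not_lt_of_ge h))
      le_normalizer_of_normal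
    obtain ⟨u, hu, rfl⟩ := hz
    have huV : u ∉ V := by
      intro h
      have : πV u = 1 := (QuotientGroup.eq_one_iff _).mpr h
      rw [this, orderOf_one] at hzo
      exact hp.out.one_lt.ne hzo
    have hfix : ∀ d ∈ (T : Subgroup X) ⊔ C, ⁅u, d⁆ ∈ V := by
      have h1 : (T : Subgroup X) ⊔ C ≤ (centralizer ({πV u} : Set (X ⧸ V))).comap πV := by
        apply sup_le
        · intro t ht
          rw [mem_comap, mem_centralizer_singleton_iff]
          exact hzf _ (mem_map_of_mem _ ht)
        · intro c hc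
          rw [mem_comap, mem_centralizer_singleton_iff]
          have h2 := (hCmem c).mp hc u hu
          rw [← QuotientGroup.eq_one_iff] at h2
          change πV ⁅c, u⁆ = 1 at h2
          rwa [map_commutatorElement, commutatorElement_eq_one_iff_mul_comm] at h2
      intro d hd
      have h2 := h1 hd
      rw [mem_comap, mem_centralizer_singleton_iff] at h2
      rw [← QuotientGroup.eq_one_iff]
      change πV ⁅u, d⁆ = 1
      rw [map_commutatorElement, commutatorElement_eq_one_iff_mul_comm]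
      exact h2.symm
    have hFn : (U ⊓ actTriv Dt V).Normal := inferInstance
    have hF := hmin (U ⊓ actTriv Dt V) hFn
      (le_inf hlt.le (fun v hv => mem_actTriv.mpr fun a _ => by
        rw [commutatorElement_def, mul_assoc, mul_assoc]
        refine mul_mem hv ?_
        have := hVn.conj_mem _ (inv_mem hv) a
        simpa [mul_assoc] using this)) inf_le_left
    have hFU : U ⊓ actTriv Dt V = U := by
      rcases hF with h | h
      · exfalso
        apply huV
        rw [← h]
        exact ⟨hu, mem_actTriv.mpr fun d hd => hfix d (hDtTC hd)⟩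
      · exact h
    rw [eq_bot_iff]
    intro d hd
    obtain ⟨x, rfl⟩ := hπCs d
    have hxC : x ∈ C := by
      rw [hCmem]
      intro w hw
      rw [← hFU] at hw
      have h1 := mem_actTriv.mp hw.2 x hd
      have h2 := inv_mem h1
      rwa [commutatorElement_inv] at h2
    rw [mem_bot]
    exact (QuotientGroup.eq_one_iff _).mpr hxC
  have hγD : γ ∈ D := by
    refine ⟨hγT, ?_⟩
    have h1 : zpowers γ ≤ centralizer (A : Set (X ⧸ C)) := by
      rw [Components.le_centralizer_iff_commutator, commutator_comm]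
      exact hcomm
    exact h1 (mem_zpowers γ)
  rw [hDbot, mem_bot] at hγD
  have hgC : g ∈ C := (QuotientGroup.eq_one_iff _).mp hγD
  have hzC : zpowers g ≤ C := by rw [zpowers_le]; exact hgC
  rw [commutator_comm, commutator_le]
  intro x hx u hu
  exact (hCmem x).mp (hzC hx) u hu

end Cfsg.Agent.Lib.H34ChiefQuad
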