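import Cfsg.Agent.Lib.H34SolvOff

/-!
# Piece H34-C: the core lemma for offenders (pure linear action on an elementary abelian 2-group)
-/

set_option autoImplicit false
set_option linter.unusedSectionVars false

namespace Cfsg.Agent.Lib.H34FC

open Subgroup Cfsg.Agent.Lib.H34SolvOff

section Gen

variable {M : Type*} [Group M]

/-- the trick with elements of odd order -/
theorem conj_odd {z y e : M} {N : ℕ} (hN : Odd N) (hz : z ^ N = 1) (h1 : z * y * z⁻¹ = e * y)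
    (h2 : z * e * z⁻¹ = e) (h3 : e * e = 1) : e = 1 := by
  have h4 : ∀ n : ℕ, z ^ n * y * (z ^ n)⁻¹ = e ^ n * y := by
    intro n
    induction n with
    | zero => simp
    | succ n ih =>
      have h5 : z * e ^ n * z⁻¹ = e ^ n := by rw [← conj_pow, h2]
      calc z ^ (n + 1) * y * (z ^ (n + 1))⁻¹ = z * (z ^ n * y * (z ^ n)⁻¹) * z⁻¹ := by
            rw [pow_succ']; group
        _ = z * (e ^ n * y) * z⁻¹ := by rw [ih]
        _ = (z * e ^ n * z⁻¹) * (z * y * z⁻¹) := by group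
        _ = e ^ (n + 1) * y := by rw [h5, h1, pow_succ, mul_assoc]
  have h6 := h4 N
  rw [hz, one_mul, inv_one, mul_one] at h6
  have h7 : e ^ N = 1 := by
    have := mul_right_cancel (b := y) (a := 1) (c := e ^ N) (by rw [one_mul]; exact h6)
    exact this.symm
  obtain ⟨k, hk⟩ := hN
  rw [hk, pow_succ, pow_mul, pow_two, h3, one_pow, one_mul] at h7
  exact h7

/-- counting fixed points of a `p`-element acting by conjugation -/
theorem card_modEq_conj (E : Subgroup M) [Finite E] {z : M} {p k : ℕ} (hp : p.Prime) (hz : z ^ p ^ k = 1)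
    (hzE : z ∈ normalizer (E : Set M)) :
    Nat.card E ≡ Nat.card ↥(E ⊓ centralizer ({z} : Set M)) [MOD p] := by
  haveI := Fact.mk hp
  have hZ : IsPGroup p (zpowers z) := by
    intro g
    obtain ⟨n, hn⟩ := g.2
    refine ⟨k, ?_⟩
    apply Subtype.ext
    have hn' : z ^ n = (g : M) := hn
    rw [Subgroup.coe_pow, Subgroup.coe_one, ← hn', ← zpow_natCast, ← zpow_mul, mul_comm, zpow_mul,
      zpow_natCast, hz, one_zpow]
  have hle : zpowers z ≤ normalizer (E : Set M) := by rwa [zpowers_le]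
  let act : MulAction (zpowers z) E :=
    { smul := fun g e => ⟨(g : M) * e * (g : M)⁻¹, (mem_normalizer_iff.1 (hle g.2) _).1 e.2⟩
      one_smul := fun e => by
        apply Subtype.ext
        show (1 : M) * e * (1 : M)⁻¹ = e
        simp
      mul_smul := fun g h e => by
        apply Subtype.ext
        show ((g : M) * h) * e * ((g : M) * h)⁻¹ = (g : M) * ((h : M) * e * (h : M)⁻¹) * (g : M)⁻¹
        group }
  have h1 := hZ.card_modEq_card_fixedPoints E
  have h2 : Nat.card (MulAction.fixedPoints (zpowers z) E) = Nat.card ↥(E ⊓ centralizer ({z} : Set M)) := by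
    apply Nat.card_congr
    refine ⟨fun e => ⟨((e : E) : M), (e : E).2, ?_⟩, fun e => ⟨⟨e, e.2.1⟩, ?_⟩, ?_, ?_⟩
    · have := e.2 ⟨z, mem_zpowers z⟩
      have h3 : z * ((e : E) : M) * z⁻¹ = ((e : E) : M) := congrArg Subtype.val this
      show ((e : E) : M) ∈ centralizer ({z} : Set M)
      rw [mem_centralizer_singleton_iff]
      rw [mul_inv_eq_iff_eq_mul] at h3
      exact h3.symm
    · intro g
      apply Subtype.ext
      show (g : M) * (e : M) * (g : M)⁻¹ = (e : M)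
      have h3 : (e : M) ∈ centralizer ({z} : Set M) := e.2.2
      rw [mem_centralizer_singleton_iff] at h3
      have h4 : Commute (e : M) z := h3
      obtain ⟨n, hn⟩ := g.2
      have hn' : z ^ n = (g : M) := hn
      rw [mul_inv_eq_iff_eq_mul, ← hn']
      exact (h4.zpow_right n).symm
    · intro e; rfl
    · intro e; rfl
  rwa [h2] at h1

/-- in an abelian group of exponent two: the group `A` fixed by `a`, acted on freely by `z` -/
theorem card_sq_le (E A : Subgroup M) [Finite E] (hEc : ∀ x ∈ E, ∀ y ∈ E, x * y = y * x) (hE2 : ∀ x ∈ E, x * x = 1)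
    {z a : M} {N : ℕ} (hN : Odd N) (hz : z ^ N = 1) (hinv : a * z * a⁻¹ = z⁻¹)
    (hzE : z ∈ normalizer (E : Set M)) (haE : a ∈ normalizer (E : Set M)) (hAE : A ≤ E)
    (hAa : ∀ x ∈ A, x * a = a * x) (hAz : ∀ x ∈ A, x * z = z * x → x = 1)
    (δ : E →* M) (hδ : ∀ e : E, δ e = z * e * z⁻¹ * (e : M)⁻¹) :
    Nat.card A * Nat.card A ≤ Nat.card δ.range := by
  rw [← Nat.card_prod]
  have hzm : ∀ y ∈ E, z * y * z⁻¹ ∈ E := fun y hy => (mem_normalizer_iff.1 hzE y).1 hy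
  have ham : ∀ y ∈ E, a * y * a⁻¹ ∈ E := fun y hy => (mem_normalizer_iff.1 haE y).1 hy
  have hz2 : ∀ y ∈ E, z⁻¹ * y * z ∈ E := fun y hy => by
    have h1 := (mem_normalizer_iff.1 (inv_mem hzE) y).1 hy
    rwa [inv_inv] at h1
  -- key: `x z y z⁻¹` commuting with `z` forces `x = y = 1`
  have key : ∀ x ∈ A, ∀ y ∈ A, (x * (z * y * z⁻¹)) * z = z * (x * (z * y * z⁻¹)) → x = 1 ∧ y = 1 := by
    intro x hx y hy h
    set d := x * (z * y * z⁻¹) with hd
    have hdE : d ∈ E := E.mul_mem (hAE hx) (hzm y (hAE hy))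
    have hax : a * x * a⁻¹ = x := by rw [mul_inv_eq_iff_eq_mul]; exact (hAa x hx).symm
    have hay : a * y * a⁻¹ = y := by rw [mul_inv_eq_iff_eq_mul]; exact (hAa y hy).symm
    have hd' : a * d * a⁻¹ = x * (z⁻¹ * y * z) := by
      calc a * d * a⁻¹ = (a * x * a⁻¹) * ((a * z * a⁻¹) * (a * y * a⁻¹) * (a * z * a⁻¹)⁻¹) := by
            rw [hd]; group
        _ = x * (z⁻¹ * y * z) := by rw [hax, hay, hinv, inv_inv]
    have hd'c : (a * d * a⁻¹) * z = z * (a * d * a⁻¹) := by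
      have h1 : a⁻¹ * z * a = z⁻¹ := by
        have h2 : a⁻¹ * (a * z * a⁻¹) * a = a⁻¹ * z⁻¹ * a := by rw [hinv]
        have h3 : z = a⁻¹ * z⁻¹ * a := by rw [← h2]; group
        have h4 := congrArg (fun t => t⁻¹) h3
        simp only [mul_inv_rev, inv_inv] at h4
        rw [h4]; group
      have h5 : d * z⁻¹ = z⁻¹ * d := by
        have : Commute d z := h
        exact this.inv_right
      calc (a * d * a⁻¹) * z = a * (d * (a⁻¹ * z * a)) * a⁻¹ := by group
        _ = a * (z⁻¹ * d) * a⁻¹ := by rw [h1, h5]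
        _ = (a * z⁻¹ * a⁻¹) * (a * d * a⁻¹) := by group
        _ = (a * z * a⁻¹)⁻¹ * (a * d * a⁻¹) := by group
        _ = z * (a * d * a⁻¹) := by rw [hinv, inv_inv]
    set d' := a * d * a⁻¹ with hd'def
    have hd'E : d' ∈ E := ham d hdE
    have hy' : z⁻¹ * y * z ∈ E := hz2 y (hAE hy)
    -- `f = d d'⁻¹`
    have hf : z * y * z⁻¹ = (d * d'⁻¹) * (z⁻¹ * y * z) := by
      have h1 : z * y * z⁻¹ = x⁻¹ * d := by rw [hd]; group
      have h2 : z⁻¹ * y * z = x⁻¹ * d' := by rw [hd']; group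
      have h3 : x⁻¹ * d = d * x⁻¹ := (hEc _ (E.inv_mem (hAE hx)) _ hdE)
      have h4 : x⁻¹ * d' = d' * x⁻¹ := (hEc _ (E.inv_mem (hAE hx)) _ hd'E)
      rw [h1, h2, h3, h4]; group
    have hfE : d * d'⁻¹ ∈ E := E.mul_mem hdE (E.inv_mem hd'E)
    have hfc : (d * d'⁻¹) * z = z * (d * d'⁻¹) := by
      have h1 : Commute d z := h
      have h2 : Commute d' z := hd'c
      exact (h1.mul_left h2.inv_left)
    have hff : z * (d * d'⁻¹) * z⁻¹ = d * d'⁻¹ := by rw [mul_inv_eq_iff_eq_mul]; exact hfc.symm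
    have hf1 : d * d'⁻¹ = 1 := by
      refine conj_odd (z := z ^ 2) (y := y) (N := N) hN ?_ ?_ ?_ (hE2 _ hfE)
      · rw [← pow_mul, mul_comm, pow_mul, hz, one_pow]
      · calc z ^ 2 * y * (z ^ 2)⁻¹ = z * (z * y * z⁻¹) * z⁻¹ := by rw [pow_two]; group
          _ = z * ((d * d'⁻¹) * (z⁻¹ * y * z)) * z⁻¹ := by rw [hf]
          _ = (z * (d * d'⁻¹) * z⁻¹) * y := by group
          _ = _ := by rw [hff]
      · calc z ^ 2 * (d * d'⁻¹) * (z ^ 2)⁻¹ = z * (z * (d * d'⁻¹) * z⁻¹) * z⁻¹ := by rw [pow_two]; group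
          _ = _ := by rw [hff, hff]
    have hy1 : y = 1 := by
      rw [hf1, one_mul] at hf
      have h1 : z ^ 2 * y * (z ^ 2)⁻¹ = y := by
        calc z ^ 2 * y * (z ^ 2)⁻¹ = z * (z * y * z⁻¹) * z⁻¹ := by rw [pow_two]; group
          _ = z * (z⁻¹ * y * z) * z⁻¹ := by rw [hf]
          _ = y := by group
      have h2 : Commute y (z ^ 2) := by
        rw [mul_inv_eq_iff_eq_mul] at h1
        exact h1.symm
      obtain ⟨m, hm⟩ := hN
      have h3 : z = (z ^ 2) ^ (m + 1) := by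
        rw [← pow_mul, show 2 * (m + 1) = N + 1 by omega, pow_succ, hz, one_mul]
      have h4 : Commute y z := by rw [h3]; exact h2.pow_right _
      exact hAz y hy h4
    refine ⟨?_, hy1⟩
    apply hAz x hx
    rw [hd, hy1] at h
    simpa using h
  haveI : Finite δ.range := Finite.of_surjective δ.rangeRestrict δ.rangeRestrict_surjective
  refine Nat.card_le_card_of_injective
    (fun q : A × A => (⟨δ ⟨(q.1 : M) * (z * (q.2 : M) * z⁻¹), E.mul_mem (hAE q.1.2) (hzm _ (hAE q.2.2))⟩, ⟨_, rfl⟩⟩ :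
      δ.range)) ?_
  rintro ⟨⟨x, hx⟩, ⟨y, hy⟩⟩ ⟨⟨x', hx'⟩, ⟨y', hy'⟩⟩ h
  have h1 := congrArg Subtype.val h
  simp only at h1
  have h2 : δ (⟨x * (z * y * z⁻¹), E.mul_mem (hAE hx) (hzm _ (hAE hy))⟩ *
      (⟨x' * (z * y' * z⁻¹), E.mul_mem (hAE hx') (hzm _ (hAE hy'))⟩)⁻¹) = 1 := by
    rw [map_mul, map_inv, h1, mul_inv_cancel]
  rw [hδ] at h2
  have h3 : (((⟨x * (z * y * z⁻¹), E.mul_mem (hAE hx) (hzm _ (hAE hy))⟩ *
      (⟨x' * (z * y' * z⁻¹), E.mul_mem (hAE hx') (hzm _ (hAE hy'))⟩)⁻¹ : E)) : M) =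
      (x * x'⁻¹) * (z * (y * y'⁻¹) * z⁻¹) := by
    show x * (z * y * z⁻¹) * (x' * (z * y' * z⁻¹))⁻¹ = _
    have h4 := hEc _ (hzm _ (hAE hy)) _ (E.inv_mem (hzm _ (hAE hy')))
    have h5 := hEc _ (E.inv_mem (hAE hx')) _ (E.mul_mem (hzm _ (hAE hy)) (E.inv_mem (hzm _ (hAE hy'))))
    calc x * (z * y * z⁻¹) * (x' * (z * y' * z⁻¹))⁻¹
        = x * (((z * y * z⁻¹) * (z * y' * z⁻¹)⁻¹) * x'⁻¹) := by rw [mul_inv_rev]; simp only [mul_assoc]
      _ = x * (x'⁻¹ * ((z * y * z⁻¹) * (z * y' * z⁻¹)⁻¹)) := by rw [h5]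
      _ = _ := by group
  rw [h3] at h2
  have h6 := key (x * x'⁻¹) (A.mul_mem hx (A.inv_mem hx')) (y * y'⁻¹) (A.mul_mem hy (A.inv_mem hy')) (by
    rw [mul_inv_eq_one, mul_inv_eq_iff_eq_mul] at h2
    exact h2.symm)
  have h7 : x = x' := mul_inv_eq_one.1 h6.1
  have h8 : y = y' := mul_inv_eq_one.1 h6.2
  subst h7; subst h8; rfl

/-- the order of `[E, z]` is `1` mod `p` -/
theorem card_range_modEq (E : Subgroup M) [Finite E] (hE2 : IsPGroup 2 E)
    {z : M} {p k : ℕ} (hp : p.Prime) (hp2 : p ≠ 2) (hz : z ^ p ^ k = 1) (hzE : z ∈ normalizer (E : Set M))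
    (δ : E →* M) (hδ : ∀ e : E, δ e = z * e * z⁻¹ * (e : M)⁻¹) :
    Nat.card δ.range ≡ 1 [MOD p] := by
  have h1 := card_modEq_conj E hp hz hzE
  have h2 : Nat.card δ.ker = Nat.card ↥(E ⊓ centralizer ({z} : Set M)) := by
    apply Nat.card_congr
    refine ⟨fun e => ⟨((e : E) : M), (e : E).2, ?_⟩, fun e => ⟨⟨e, e.2.1⟩, ?_⟩, ?_, ?_⟩
    · show ((e : E) : M) ∈ centralizer ({z} : Set M)
      rw [mem_centralizer_singleton_iff]
      have h3 : δ (e : E) = 1 := e.2
      rw [hδ, mul_inv_eq_one, mul_inv_eq_iff_eq_mul] at h3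
      exact h3.symm
    · show δ ⟨e, e.2.1⟩ = 1
      have h3 : (e : M) ∈ centralizer ({z} : Set M) := e.2.2
      rw [mem_centralizer_singleton_iff] at h3
      rw [hδ, mul_inv_eq_one, mul_inv_eq_iff_eq_mul]
      exact h3.symm
    · intro e; rfl
    · intro e; rfl
  have h3 : Nat.card δ.ker * Nat.card δ.range = Nat.card E := by
    rw [← Subgroup.index_ker, Subgroup.card_mul_index]
  rw [← h2, ← h3] at h1
  have h4 : Nat.Coprime p (Nat.card δ.ker) := by
    obtain ⟨n, hn⟩ := IsPGroup.iff_card.1 (hE2.to_subgroup δ.ker)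
    rw [hn]
    exact Nat.Coprime.pow_right n ((Nat.coprime_primes hp Nat.prime_two).2 hp2)
  have h5 : Nat.card δ.ker * Nat.card δ.range ≡ Nat.card δ.ker * 1 [MOD p] := by rwa [mul_one]
  exact Nat.ModEq.cancel_left_of_coprime h4 h5

end Gen

section Aut

variable {W : Type*} [CommGroup W] [Finite W]

/-- counting the fixed points of an automorphism of `p`-power order -/
theorem card_modEq_fix {z : MulAut W} {p k : ℕ} (hp : p.Prime) (hz : z ^ p ^ k = 1) :
    Nat.card W ≡ Nat.card (fixSub (zpowers z)) [MOD p] := by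
  haveI := Fact.mk hp
  have hZ : IsPGroup p (zpowers z) := by
    intro g
    obtain ⟨n, hn⟩ := g.2
    refine ⟨k, ?_⟩
    apply Subtype.ext
    have hn' : z ^ n = (g : MulAut W) := hn
    rw [Subgroup.coe_pow, Subgroup.coe_one, ← hn', ← zpow_natCast, ← zpow_mul, mul_comm, zpow_mul,
      zpow_natCast, hz, one_zpow]
  let act : MulAction (zpowers z) W :=
    { smul := fun g w => (g : MulAut W) w
      one_smul := fun w => rfl
      mul_smul := fun g h w => rfl }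
  have h1 := hZ.card_modEq_card_fixedPoints W
  have h2 : Nat.card (MulAction.fixedPoints (zpowers z) W) = Nat.card (fixSub (zpowers z)) := by
    apply Nat.card_congr
    refine ⟨fun w => ⟨w, fun g hg => w.2 ⟨g, hg⟩⟩, fun w => ⟨w, fun g => w.2 g g.2⟩, ?_, ?_⟩
    · intro e; rfl
    · intro e; rfl
  rwa [h2] at h1

theorem mem_fix_zpowers {z : MulAut W} {w : W} : w ∈ fixSub (zpowers z) ↔ z w = w := by
  constructor
  · intro h; exact h z (mem_zpowers z)
  · intro h g hg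
    obtain ⟨n, rfl⟩ := hg
    have h1 : ∀ m : ℕ, (z ^ m) w = w := by
      intro m
      induction m with
      | zero => rfl
      | succ m ih => rw [pow_succ, MulAut.mul_apply, h, ih]
    cases n with
    | ofNat m => exact h1 m
    | negSucc m =>
      show (z ^ (Int.negSucc m)) w = w
      rw [zpow_negSucc]
      have := h1 (m + 1)
      calc (z ^ (m + 1))⁻¹ w = (z ^ (m + 1))⁻¹ ((z ^ (m + 1)) w) := by rw [this]
        _ = w := MulAut.inv_apply_self W _ w

theorem card_mul_rel {H K : Subgroup W} (h : H ≤ K) : Nat.card H * H.relIndex K = Nat.card K := by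
  rw [← Subgroup.relIndex_bot_left, ← Subgroup.relIndex_bot_left]
  exact Subgroup.relIndex_mul_relIndex _ _ _ bot_le h

/-- product formula in an abelian group -/
theorem card_sup_inf (H K : Subgroup W) : Nat.card ↥(H ⊔ K) * Nat.card ↥(H ⊓ K) = Nat.card H * Nat.card K := by
  have h1 : K.relIndex (H ⊔ K) = K.relIndex H := Subgroup.relIndex_sup_right _ _
  have h2 : Nat.card K * K.relIndex (H ⊔ K) = Nat.card ↥(H ⊔ K) := card_mul_rel le_sup_right
  have h3 : Nat.card ↥(H ⊓ K) * (H ⊓ K).relIndex H = Nat.card H := card_mul_rel inf_le_left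
  have h4 : (H ⊓ K).relIndex H = K.relIndex H := Subgroup.inf_relIndex_left _ _
  rw [← h2, ← h3, h1, h4]; ring

/-- elements of `R` acting trivially on `U` -/
def kr (R : Subgroup (MulAut W)) (U : Subgroup W) : Subgroup (MulAut W) where
  carrier := {r | r ∈ R ∧ ∀ v ∈ U, r v = v}
  mul_mem' := fun {r s} hr hs => ⟨R.mul_mem hr.1 hs.1, fun v hv => by
    rw [MulAut.mul_apply, hs.2 v hv, hr.2 v hv]⟩
  one_mem' := ⟨R.one_mem, fun v _ => rfl⟩
  inv_mem' := fun {r} hr => ⟨R.inv_mem hr.1, fun v hv => by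
    conv_lhs => rw [← hr.2 v hv]
    exact MulAut.inv_apply_self W _ v⟩

theorem mem_kr {R : Subgroup (MulAut W)} {U : Subgroup W} {r : MulAut W} :
    r ∈ kr R U ↔ r ∈ R ∧ ∀ v ∈ U, r v = v := Iff.rfl

/-- `R` acts as an elementary abelian 2-group on `U` -/
structure EA (R : Subgroup (MulAut W)) (U : Subgroup W) : Prop where
  comm : ∀ r ∈ R, ∀ s ∈ R, ∀ v ∈ U, r (s v) = s (r v)
  sq : ∀ r ∈ R, ∀ v ∈ U, r (r v) = v

structure QQ (P : Subgroup (MulAut W)) (U : Subgroup W) : Prop where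
  inv : ∀ g ∈ P, ∀ v ∈ U, g v ∈ U
  lt : ∀ R : Subgroup (MulAut W), R ≤ P → EA R U → (∃ r ∈ R, ∃ v ∈ U, r v ≠ v) →
      Nat.card R * Nat.card ↥(U ⊓ fixSub R) < Nat.card U * Nat.card (kr R U)

theorem QQ.le {P : Subgroup (MulAut W)} {U : Subgroup W} (h : QQ P U) {R : Subgroup (MulAut W)} (hR : R ≤ P)
    (he : EA R U) : Nat.card R * Nat.card ↥(U ⊓ fixSub R) ≤ Nat.card U * Nat.card (kr R U) := by
  by_cases hr : ∃ r ∈ R, ∃ v ∈ U, r v ≠ v
  · exact (h.lt R hR he hr).le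
  · push Not at hr
    have h1 : kr R U = R := le_antisymm (fun r hr => hr.1) (fun r hr' => ⟨hr', hr r hr'⟩)
    have h2 : U ⊓ fixSub R = U := le_antisymm inf_le_left (fun v hv => ⟨hv, fun r hr' => hr r hr' v hv⟩)
    rw [h1, h2, mul_comm]

theorem QQ.sup {P : Subgroup (MulAut W)} {U₁ U₂ : Subgroup W} (h1 : QQ P U₁) (h2 : QQ P U₂) : QQ P (U₁ ⊔ U₂) := by
  have hle : ∀ g : MulAut W, (∀ v ∈ U₁, g v ∈ U₁) → (∀ v ∈ U₂, g v ∈ U₂) → ∀ v ∈ U₁ ⊔ U₂, g v ∈ U₁ ⊔ U₂ := by
    intro g hg1 hg2 v hv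
    obtain ⟨x, hx, y, hy, rfl⟩ := Subgroup.mem_sup.1 hv
    rw [map_mul]
    exact Subgroup.mul_mem_sup (hg1 x hx) (hg2 y hy)
  refine ⟨fun g hg => hle g (h1.inv g hg) (h2.inv g hg), ?_⟩
  intro R hR he hne
  set R₁ := kr R U₁ with hR₁
  have hR₁R : R₁ ≤ R := fun r hr => hr.1
  have he1 : EA R U₁ := ⟨fun r hr s hs v hv => he.comm r hr s hs v (Subgroup.mem_sup_left hv),
    fun r hr v hv => he.sq r hr v (Subgroup.mem_sup_left hv)⟩
  have he2 : EA R₁ U₂ := ⟨fun r hr s hs v hv => he.comm r (hR₁R hr) s (hR₁R hs) v (Subgroup.mem_sup_right hv),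
    fun r hr v hv => he.sq r (hR₁R hr) v (Subgroup.mem_sup_right hv)⟩
  have hk : kr R₁ U₂ = kr R (U₁ ⊔ U₂) := by
    apply le_antisymm
    · intro r hr
      refine ⟨hR₁R hr.1, ?_⟩
      intro v hv
      obtain ⟨x, hx, y, hy, rfl⟩ := Subgroup.mem_sup.1 hv
      rw [map_mul, hr.1.2 x hx, hr.2 y hy]
    · intro r hr
      exact ⟨⟨hr.1, fun v hv => hr.2 v (Subgroup.mem_sup_left hv)⟩, fun v hv => hr.2 v (Subgroup.mem_sup_right hv)⟩
  have i1 := h1.le hR he1
  have i2 := h2.le (hR₁R.trans hR) he2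
  rw [hk] at i2
  -- strictness
  have hs : Nat.card R * Nat.card ↥(U₁ ⊓ fixSub R) < Nat.card U₁ * Nat.card R₁ ∨
      Nat.card R₁ * Nat.card ↥(U₂ ⊓ fixSub R₁) < Nat.card U₂ * Nat.card (kr R (U₁ ⊔ U₂)) := by
    by_cases hr : ∃ r ∈ R, ∃ v ∈ U₁, r v ≠ v
    · exact Or.inl (h1.lt R hR he1 hr)
    · right
      rw [← hk]
      apply h2.lt R₁ (hR₁R.trans hR) he2
      obtain ⟨r, hr', v, hv, hrv⟩ := hne
      push Not at hr
      refine ⟨r, ⟨hr', hr r hr'⟩, ?_⟩
      obtain ⟨x, hx, y, hy, rfl⟩ := Subgroup.mem_sup.1 hv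
      refine ⟨y, hy, fun hy' => hrv ?_⟩
      rw [map_mul, hr r hr' x hx, hy']
  -- the index inequality
  set C := (U₁ ⊔ U₂) ⊓ fixSub R with hC
  set Y := (U₁ ⊔ U₂) ⊓ fixSub R₁ with hY
  have hUf : U₁ ≤ Y := le_inf le_sup_left (fun v hv r hr => hr.2 v hv)
  have hCY : C ≤ Y := inf_le_inf_left _ (fixSub_anti hR₁R)
  have p1 := card_sup_inf U₁ C
  have p2 := card_sup_inf U₂ Y
  have e1 : U₁ ⊓ C = U₁ ⊓ fixSub R := by
    rw [hC, ← inf_assoc, inf_of_le_left (le_sup_left : U₁ ≤ U₁ ⊔ U₂)]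
  have e2 : U₂ ⊓ Y = U₂ ⊓ fixSub R₁ := by
    rw [hY, ← inf_assoc, inf_of_le_left (le_sup_right : U₂ ≤ U₁ ⊔ U₂)]
  have e3 : U₂ ⊔ Y = U₁ ⊔ U₂ := by
    apply le_antisymm (sup_le le_sup_right inf_le_left)
    exact sup_le (hUf.trans le_sup_right) le_sup_left
  rw [e1] at p1
  rw [e2, e3] at p2
  have p3 : Nat.card ↥(U₁ ⊔ C) ≤ Nat.card Y := Nat.le_of_dvd Nat.card_pos (Subgroup.card_dvd_of_le (sup_le hUf hCY))
  have q1 : 0 < Nat.card ↥(U₁ ⊓ fixSub R) := Nat.card_pos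
  have q2 : 0 < Nat.card ↥(U₂ ⊓ fixSub R₁) := Nat.card_pos
  have q3 : 0 < Nat.card U₁ := Nat.card_pos
  have q4 : 0 < Nat.card U₂ := Nat.card_pos
  have q5 : 0 < Nat.card R := Nat.card_pos
  have q6 : 0 < Nat.card R₁ := Nat.card_pos
  have q7 : 0 < Nat.card (kr R (U₁ ⊔ U₂)) := Nat.card_pos
  have q8 : 0 < Nat.card ↥(U₁ ⊔ U₂) := Nat.card_pos
  generalize Nat.card ↥(U₁ ⊓ fixSub R) = a1 at *
  generalize Nat.card ↥(U₂ ⊓ fixSub R₁) = a2 at *
  generalize Nat.card ↥U₁ = u1 at *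
  generalize Nat.card ↥U₂ = u2 at *
  generalize Nat.card ↥R = r at *
  generalize Nat.card ↥R₁ = r1 at *
  generalize Nat.card ↥(kr R (U₁ ⊔ U₂)) = k at *
  generalize Nat.card ↥(U₁ ⊔ U₂) = u at *
  generalize Nat.card ↥C = cc at *
  generalize Nat.card ↥Y = y at *
  generalize Nat.card ↥(U₁ ⊔ C) = s at *
  -- p1 : s * a1 = u1 * cc, p2 : u * a2 = u2 * y, p3 : s ≤ y
  have m1 : cc * (u1 * u2) ≤ u * (a1 * a2) := by
    calc cc * (u1 * u2) = u2 * (u1 * cc) := by ring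
      _ = u2 * (s * a1) := by rw [p1]
      _ ≤ u2 * (y * a1) := by gcongr
      _ = (u2 * y) * a1 := by ring
      _ = (u * a2) * a1 := by rw [p2]
      _ = _ := by ring
  have m2 : (r * a1) * (r1 * a2) < (u1 * r1) * (u2 * k) := by
    rcases hs with hs | hs
    · exact Nat.mul_lt_mul_of_lt_of_le hs i2 (by positivity)
    · exact Nat.mul_lt_mul_of_le_of_lt i1 hs (by positivity)
  have m3 : (r * cc) * (r1 * (u1 * u2)) < (u * k) * (r1 * (u1 * u2)) := by
    calc (r * cc) * (r1 * (u1 * u2)) = (r * r1) * (cc * (u1 * u2)) := by ring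
      _ ≤ (r * r1) * (u * (a1 * a2)) := by gcongr
      _ = u * ((r * a1) * (r1 * a2)) := by ring
      _ < u * ((u1 * r1) * (u2 * k)) := by
        apply Nat.mul_lt_mul_of_pos_left m2 q8
      _ = _ := by ring
  exact lt_of_mul_lt_mul_right m3 (Nat.zero_le _)

theorem mem_tr {z : MulAut W} {U : Subgroup W} {w : W} : w ∈ U.map z.toMonoidHom ↔ z⁻¹ w ∈ U := by
  constructor
  · rintro ⟨v, hv, rfl⟩
    have : z⁻¹ (z.toMonoidHom v) = v := MulAut.inv_apply_self W z v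
    rw [this]; exact hv
  · intro h
    exact ⟨z⁻¹ w, h, MulAut.apply_inv_self W z w⟩

theorem QQ.tr {P : Subgroup (MulAut W)} {U : Subgroup W} (h : QQ P U) {z : MulAut W}
    (hz : z ∈ normalizer (P : Set (MulAut W))) : QQ P (U.map z.toMonoidHom) := by
  have hz1 : ∀ g ∈ P, z⁻¹ * g * z ∈ P := fun g hg => by
    have h1 := (mem_normalizer_iff.1 (inv_mem hz) g).1 hg
    rwa [inv_inv] at h1
  have hzz : ∀ w, z (z⁻¹ w) = w := fun w => MulAut.apply_inv_self W z w
  have hzz' : ∀ w, z⁻¹ (z w) = w := fun w => MulAut.inv_apply_self W z w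
  refine ⟨?_, ?_⟩
  · intro g hg v hv
    rw [mem_tr] at hv ⊢
    have h1 := h.inv _ (hz1 g hg) _ hv
    have h2 : (z⁻¹ * g * z) (z⁻¹ v) = z⁻¹ (g v) := by
      rw [MulAut.mul_apply, MulAut.mul_apply, hzz]
    rwa [h2] at h1
  · intro R hR he hne
    set c : MulAut W →* MulAut W := (MulAut.conj z⁻¹).toMonoidHom with hc
    have hcv : ∀ g, c g = z⁻¹ * g * z := fun g => by
      show z⁻¹ * g * (z⁻¹)⁻¹ = _
      rw [inv_inv]
    have hci : Function.Injective c := (MulAut.conj z⁻¹).injective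
    have hzi : Function.Injective z.toMonoidHom := z.injective
    have hca : ∀ g w, (c g) w = z⁻¹ (g (z w)) := fun g w => by rw [hcv, MulAut.mul_apply, MulAut.mul_apply]
    have hRP : R.map c ≤ P := by
      rintro _ ⟨r, hr, rfl⟩
      rw [hcv]; exact hz1 r (hR hr)
    have hEA : EA (R.map c) U := by
      constructor
      · rintro _ ⟨r, hr, rfl⟩ _ ⟨s, hs, rfl⟩ v hv
        rw [hca, hca, hca, hca, hzz, hzz, he.comm r hr s hs (z v) (mem_tr.2 (by rw [hzz']; exact hv))]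
      · rintro _ ⟨r, hr, rfl⟩ v hv
        rw [hca, hca, hzz, he.sq r hr (z v) (mem_tr.2 (by rw [hzz']; exact hv)), hzz']
    have hne' : ∃ r ∈ R.map c, ∃ v ∈ U, r v ≠ v := by
      obtain ⟨r, hr, v, hv, hrv⟩ := hne
      refine ⟨c r, ⟨r, hr, rfl⟩, z⁻¹ v, mem_tr.1 hv, ?_⟩
      rw [hca, hzz]
      intro h1
      exact hrv (z⁻¹.injective h1)
    have h1 := h.lt _ hRP hEA hne'
    have c1 : Nat.card (R.map c) = Nat.card R := (Nat.card_congr (R.equivMapOfInjective c hci).toEquiv).symm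
    have c2 : Nat.card (U.map z.toMonoidHom) = Nat.card U :=
      (Nat.card_congr (U.equivMapOfInjective _ hzi).toEquiv).symm
    have c3 : Nat.card ↥(U.map z.toMonoidHom ⊓ fixSub R) = Nat.card ↥(U ⊓ fixSub (R.map c)) := by
      have e : U.map z.toMonoidHom ⊓ fixSub R = (U ⊓ fixSub (R.map c)).map z.toMonoidHom := by
        ext w
        rw [mem_tr, mem_inf, mem_inf, mem_tr]
        refine and_congr Iff.rfl ?_
        constructor
        · rintro hw _ ⟨r, hr, rfl⟩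
          rw [hca, hzz, hw r hr]
        · intro hw r hr
          have h2 := hw (c r) ⟨r, hr, rfl⟩
          rw [hca, hzz] at h2
          exact z⁻¹.injective h2
      rw [e]
      exact (Nat.card_congr ((U ⊓ fixSub (R.map c)).equivMapOfInjective _ hzi).toEquiv).symm
    have c4 : Nat.card (kr R (U.map z.toMonoidHom)) = Nat.card (kr (R.map c) U) := by
      have e : kr (R.map c) U = (kr R (U.map z.toMonoidHom)).map c := by
        ext g
        constructor
        · rintro ⟨⟨r, hr, rfl⟩, hg⟩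
          refine ⟨r, ⟨hr, ?_⟩, rfl⟩
          intro v hv
          have h2 := hg _ (mem_tr.1 hv)
          rw [hca, hzz] at h2
          exact z⁻¹.injective h2
        · rintro ⟨r, hr, rfl⟩
          refine ⟨⟨r, hr.1, rfl⟩, ?_⟩
          intro v hv
          rw [hca, hr.2 (z v) (mem_tr.2 (by rw [hzz']; exact hv)), hzz']
      rw [e]
      exact Nat.card_congr ((kr R (U.map z.toMonoidHom)).equivMapOfInjective c hci).toEquiv
    rw [c2, c3, c4, ← c1]
    exact h1

/-- a `QQ`-subgroup generating everything together with its translates -/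
theorem QQ.top {P : Subgroup (MulAut W)} {V : Subgroup W} (h : QQ P V) {z : MulAut W}
    (hz : z ∈ normalizer (P : Set (MulAut W))) (hgen : ⨆ i : ℕ, V.map (z ^ i).toMonoidHom = ⊤) : QQ P ⊤ := by
  have hi : ∀ i : ℕ, QQ P (V.map (z ^ i).toMonoidHom) := fun i => h.tr (pow_mem hz i)
  obtain ⟨U, hU, hmax⟩ := (Set.toFinite {U : Subgroup W | QQ P U}).exists_maximal ⟨V, h⟩
  have h1 : ∀ i : ℕ, V.map (z ^ i).toMonoidHom ≤ U := by
    intro i
    exact le_sup_right.trans (hmax (hU.sup (hi i)) le_sup_left)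
  have h2 : U = ⊤ := by
    rw [eq_top_iff, ← hgen]
    exact iSup_le h1
  rw [← h2]; exact hU

/-- elements of `P` acting trivially on `X` and on `W / X` -/
def EE (P : Subgroup (MulAut W)) (X : Subgroup W) : Subgroup (MulAut W) where
  carrier := {g | g ∈ P ∧ (∀ w, g w * w⁻¹ ∈ X) ∧ ∀ v ∈ X, g v = v}
  mul_mem' := fun {g h} hg hh => ⟨P.mul_mem hg.1 hh.1, fun w => by
    have h1 : (g * h) w * w⁻¹ = (g (h w) * (h w)⁻¹) * (h w * w⁻¹) := by
      rw [MulAut.mul_apply]; group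
    rw [h1]
    exact X.mul_mem (hg.2.1 _) (hh.2.1 _), fun v hv => by
    rw [MulAut.mul_apply, hh.2.2 v hv, hg.2.2 v hv]⟩
  one_mem' := ⟨P.one_mem, fun w => by
    show w * w⁻¹ ∈ X
    rw [mul_inv_cancel]; exact X.one_mem, fun v _ => rfl⟩
  inv_mem' := fun {g} hg => ⟨P.inv_mem hg.1, fun w => by
    have h1 := hg.2.1 (g⁻¹ w)
    have h2 : g (g⁻¹ w) = w := MulAut.apply_inv_self W g w
    rw [h2] at h1
    have h3 := X.inv_mem h1
    rwa [mul_inv_rev, inv_inv] at h3, fun v hv => by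
    conv_lhs => rw [← hg.2.2 v hv]
    exact MulAut.inv_apply_self W _ v⟩

theorem mem_EE {P : Subgroup (MulAut W)} {X : Subgroup W} {g : MulAut W} :
    g ∈ EE P X ↔ g ∈ P ∧ (∀ w, g w * w⁻¹ ∈ X) ∧ ∀ v ∈ X, g v = v := Iff.rfl

theorem EE_comm {P : Subgroup (MulAut W)} {X : Subgroup W} {g h : MulAut W} (hg : g ∈ EE P X) (hh : h ∈ EE P X) :
    g * h = h * g := by
  ext w
  have h1 : ∀ {x y : MulAut W}, x ∈ EE P X → y ∈ EE P X → (x * y) w = (x w * w⁻¹) * (y w * w⁻¹) * w := by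
    intro x y hx hy
    calc (x * y) w = x (w * (y w * w⁻¹)) := by
          rw [MulAut.mul_apply]; congr 1; rw [mul_comm (y w), mul_inv_cancel_left]
      _ = x w * (y w * w⁻¹) := by rw [map_mul, hx.2.2 _ (hy.2.1 w)]
      _ = _ := by
        rw [mul_comm (x w) (y w * w⁻¹), mul_comm (x w * w⁻¹) (y w * w⁻¹), mul_assoc (y w * w⁻¹), inv_mul_cancel_right]
  rw [h1 hg hh, h1 hh hg, mul_comm (g w * w⁻¹)]

theorem EE_sq (hW2 : ∀ w : W, w * w = 1) {P : Subgroup (MulAut W)} {X : Subgroup W} {g : MulAut W} (hg : g ∈ EE P X) :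
    g * g = 1 := by
  ext w
  have h1 : g (g w) = (g w) * (g w * w⁻¹) := by
    conv_lhs => rw [show g w = w * (g w * w⁻¹) by rw [mul_comm (g w), mul_inv_cancel_left]]
    rw [map_mul, hg.2.2 _ (hg.2.1 w)]
  rw [MulAut.mul_apply, h1, ← mul_assoc, hW2, one_mul, MulAut.one_apply]
  exact inv_eq_of_mul_eq_one_left (hW2 w)

theorem EE_conj {P : Subgroup (MulAut W)} {X : Subgroup W} {t g : MulAut W}
    (ht : t ∈ normalizer (P : Set (MulAut W))) (htX : ∀ v ∈ X, t v = v) (hg : g ∈ EE P X) :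
    t * g * t⁻¹ ∈ EE P X := by
  have ht' : ∀ v ∈ X, t⁻¹ v = v := fun v hv => by
    conv_lhs => rw [← htX v hv]
    exact MulAut.inv_apply_self W _ v
  refine ⟨(mem_normalizer_iff.1 ht g).1 hg.1, ?_, ?_⟩
  · intro w
    have h1 : (t * g * t⁻¹) w * w⁻¹ = t (g (t⁻¹ w) * (t⁻¹ w)⁻¹) := by
      rw [map_mul, map_inv, show t (t⁻¹ w) = w from MulAut.apply_inv_self W t w]; rfl
    rw [h1, htX _ (hg.2.1 _)]
    exact hg.2.1 _
  · intro v hv
    rw [MulAut.mul_apply, MulAut.mul_apply, ht' v hv, hg.2.2 v hv, htX v hv]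

theorem EE_norm {P : Subgroup (MulAut W)} {X : Subgroup W} {t : MulAut W}
    (ht : t ∈ normalizer (P : Set (MulAut W))) (htX : ∀ v ∈ X, t v = v) : t ∈ normalizer (EE P X : Set (MulAut W)) := by
  have ht' : ∀ v ∈ X, t⁻¹ v = v := fun v hv => by
    conv_lhs => rw [← htX v hv]
    exact MulAut.inv_apply_self W _ v
  rw [mem_normalizer_iff]
  intro g
  refine ⟨EE_conj ht htX, ?_⟩
  intro h
  have h1 := EE_conj (inv_mem ht) ht' h
  have h2 : t⁻¹ * (t * g * t⁻¹) * t⁻¹⁻¹ = g := by group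
  rwa [h2] at h1

theorem core (hW2 : ∀ w : W, w * w = 1) {P A : Subgroup (MulAut W)}
    (hP : IsPGroup 2 P) {z a : MulAut W} {p c : ℕ} (hp : p.Prime) (hp2 : p ≠ 2) (hz : ∃ k, z ^ p ^ k = 1)
    (ha : a * a = 1) (hinv : a * z * a⁻¹ = z⁻¹) (haP : a ∈ normalizer (P : Set (MulAut W)))
    (hzP : z ∈ normalizer (P : Set (MulAut W))) {V : Subgroup W} (hPV : ∀ g ∈ P, ∀ v ∈ V, g v ∈ V)
    (haV : ∀ v ∈ V, a v = v) (hgen : ⨆ i : ℕ, V.map (z ^ i).toMonoidHom = ⊤)
    (hzp : V.map (z ^ p).toMonoidHom = V) (hzV : V.map z.toMonoidHom ≠ V) (hAP : A ≤ P)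
    (hAV : ∀ x ∈ A, ∀ v ∈ V, x v = v) (hA2 : ∀ x ∈ A, x * x = 1) (hAa : ∀ x ∈ A, x * a = a * x)
    (hquad : ∀ x ∈ A, ∀ w : W, x (a w * w⁻¹) = a w * w⁻¹)
    (hcard : Nat.card W ≤ c * Nat.card A * Nat.card (fixSub (zpowers a)))
    (hQ : ∀ R : Subgroup (MulAut W), R ≤ P → (∀ r ∈ R, ∀ s ∈ R, ∀ v ∈ V, r (s v) = s (r v)) →
      (∀ r ∈ R, ∀ v ∈ V, r (r v) = v) → (∃ r ∈ R, ∃ v ∈ V, r v ≠ v) →
      Nat.card R * Nat.card ↥(V ⊓ fixSub R) < Nat.card V * Nat.card {r : R // ∀ v ∈ V, (r : MulAut W) v = v})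
    (hno : ∀ j, 1 ≤ j → 2 ^ j ≤ c ^ 2 → ¬ p ∣ 2 ^ j - 1) : False := by
  classical
  obtain ⟨k, hzk⟩ := hz
  have hpodd : Odd p := hp.odd_of_ne_two hp2
  have hN : Odd (p ^ k) := hpodd.pow
  have hzord : Odd (orderOf z) := Odd.of_dvd_nat hN (orderOf_dvd_of_pow_eq_one hzk)
  have haz : a * z = z⁻¹ * a := by rw [← mul_inv_eq_iff_eq_mul]; exact hinv
  -- `a zⁱ = z⁻ⁱ a`
  have hazn : ∀ i : ℕ, ∀ w, a ((z ^ i) w) = (z ^ i)⁻¹ (a w) := by
    intro i w
    have h1 : a * z ^ i * a⁻¹ = (z ^ i)⁻¹ := by rw [← conj_pow, hinv, inv_pow]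
    have h2 : a * z ^ i = (z ^ i)⁻¹ * a := by rw [← mul_inv_eq_iff_eq_mul]; exact h1
    show (a * z ^ i) w = ((z ^ i)⁻¹ * a) w
    rw [h2]
  have hzz : ∀ (g : MulAut W) w, g (g⁻¹ w) = w := fun g w => MulAut.apply_inv_self W g w
  have hzz' : ∀ (g : MulAut W) w, g⁻¹ (g w) = w := fun g w => MulAut.inv_apply_self W g w
  have hz1 : z ≠ 1 := by
    rintro rfl
    apply hzV
    ext w
    rw [mem_tr, inv_one, MulAut.one_apply]
  -- Step 1
  have star : ∀ i : ℕ, ¬ p ∣ i → ∀ v ∈ V, (z ^ i) v ∈ V → z v = v := by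
    intro i hi v hv hiv
    have h1 : (z ^ i) v = (z ^ i)⁻¹ v := by
      rw [← haV _ hiv, hazn, haV v hv]
    have h2 : (z ^ i) ((z ^ i) v) = v := by rw [h1, hzz]
    have h3 : Odd (orderOf (z ^ i)) := Odd.of_dvd_nat hzord (orderOf_pow_dvd i)
    have h4 : (z ^ i) v = v := sq_fix _ h3 v h2
    -- `z` is a power of `z ^ i`
    have h5 : Nat.Coprime i (p ^ k) := (Nat.Coprime.pow_right k ((Nat.Prime.coprime_iff_not_dvd hp).2 hi).symm)
    have h6 : z ∈ zpowers (z ^ i) := by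
      have h7 : Nat.Coprime (orderOf z) i := (Nat.Coprime.coprime_dvd_right (orderOf_dvd_of_pow_eq_one hzk) h5).symm
      obtain ⟨m, hm⟩ := exists_pow_eq_self_of_coprime h7.symm
      exact ⟨m, by show (z ^ i) ^ (m : ℤ) = z; rw [zpow_natCast, hm]⟩
    exact (mem_fix_zpowers (z := z ^ i)).2 h4 z h6
  set X : Subgroup W := V ⊓ fixSub (zpowers z) with hX
  have hXm : ∀ w, w ∈ X ↔ w ∈ V ∧ z w = w := fun w => by rw [hX, mem_inf, mem_fix_zpowers]
  -- periodicity
  have hper : ∀ m : ℕ, V.map (z ^ (p * m)).toMonoidHom = V := by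
    intro m
    induction m with
    | zero =>
      ext w
      rw [mem_tr, mul_zero, pow_zero, inv_one, MulAut.one_apply]
    | succ m ih =>
      ext w
      rw [mem_tr]
      have h1 : (z ^ (p * (m + 1)))⁻¹ w = (z ^ p)⁻¹ ((z ^ (p * m))⁻¹ w) := by
        rw [← MulAut.mul_apply, ← mul_inv_rev, ← pow_add, Nat.mul_succ]
      rw [h1, ← mem_tr, hzp, ← mem_tr, ih]
  have hPi : ∀ i : ℕ, ∀ g ∈ P, ∀ w ∈ V.map (z ^ i).toMonoidHom, g w ∈ V.map (z ^ i).toMonoidHom := by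
    intro i g hg w hw
    rw [mem_tr] at hw ⊢
    have h1 : (z ^ i)⁻¹ * g * (z ^ i) ∈ P := by
      have h2 := (mem_normalizer_iff.1 (inv_mem (pow_mem hzP i)) g).1 hg
      rwa [inv_inv] at h2
    have h2 := hPV _ h1 _ hw
    rwa [MulAut.mul_apply, MulAut.mul_apply, hzz] at h2
  -- Step 3
  have hAX : ∀ x ∈ A, ∀ w, x w * w⁻¹ ∈ X := by
    intro x hx
    let K : Subgroup W :=
      { carrier := {w | x w * w⁻¹ ∈ X}
        mul_mem' := fun {u v} hu hv => by
          show x (u * v) * (u * v)⁻¹ ∈ X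
          have h1 : x (u * v) * (u * v)⁻¹ = (x u * u⁻¹) * (x v * v⁻¹) := by
            rw [map_mul, mul_inv]; exact mul_mul_mul_comm _ _ _ _
          rw [h1]; exact X.mul_mem hu hv
        one_mem' := by
          show x 1 * 1⁻¹ ∈ X
          rw [map_one, inv_one, mul_one]; exact X.one_mem
        inv_mem' := fun {u} hu => by
          show x u⁻¹ * (u⁻¹)⁻¹ ∈ X
          rw [map_inv, ← mul_inv]; exact X.inv_mem hu }
    have hK : K = ⊤ := by
      rw [eq_top_iff, ← hgen]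
      apply iSup_le
      intro i w hw
      show x w * w⁻¹ ∈ X
      by_cases hi : p ∣ i
      · obtain ⟨m, rfl⟩ := hi
        rw [hper m] at hw
        rw [hAV x hx w hw, mul_inv_cancel]; exact X.one_mem
      · have hw' := hw
        rw [mem_tr] at hw'
        -- `d = x w w⁻¹`
        have h1 : x w * w⁻¹ = x (a w) * (a w)⁻¹ := by
          have h2 := hquad x hx w
          rw [map_mul, map_inv] at h2
          -- x (a w) * (x w)⁻¹ = a w * w⁻¹
          have h3 : x (a w) = a w * w⁻¹ * x w := by rw [← h2, inv_mul_cancel_right]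
          calc x w * w⁻¹ = (x w * w⁻¹) * (a w * (a w)⁻¹) := by rw [mul_inv_cancel, mul_one]
            _ = a w * w⁻¹ * x w * (a w)⁻¹ := by ac_rfl
            _ = _ := by rw [h3]
        set d := x w * w⁻¹ with hd
        have hd1 : d ∈ V.map (z ^ i).toMonoidHom :=
          mul_mem (hPi i x (hAP hx) w hw) (inv_mem hw)
        rw [mem_tr] at hd1
        -- `zⁱ (a w) ∈ V`
        have haw : (z ^ i) (a w) ∈ V := by
          have h2 : (z ^ i) (a w) = a ((z ^ i)⁻¹ w) := by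
            have h3 := hazn i ((z ^ i)⁻¹ w)
            rw [hzz] at h3
            rw [h3, hzz]
          rw [h2, haV _ hw']; exact hw'
        have hd2 : (z ^ i) d ∈ V := by
          rw [h1, map_mul, map_inv]
          have h2 : (z ^ i) * x * (z ^ i)⁻¹ ∈ P := (mem_normalizer_iff.1 (pow_mem hzP i) x).1 (hAP hx)
          have h3 := hPV _ h2 _ haw
          rw [MulAut.mul_apply, MulAut.mul_apply, hzz'] at h3
          exact V.mul_mem h3 (V.inv_mem haw)
        -- apply `star` to `v = z⁻ⁱ d`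
        have h4 : z ((z ^ i)⁻¹ d) = (z ^ i)⁻¹ d := by
          apply star (2 * i) _ _ hd1
          · have h5 : (z ^ (2 * i)) ((z ^ i)⁻¹ d) = (z ^ i) d := by
              rw [two_mul, pow_add, MulAut.mul_apply, hzz]
            rw [h5]; exact hd2
          · intro h5
            rcases hp.dvd_mul.1 h5 with h6 | h6
            · exact hp2 ((Nat.prime_dvd_prime_iff_eq hp Nat.prime_two).1 h6)
            · exact hi h6
        have h5 : (z ^ i) ((z ^ i)⁻¹ d) = (z ^ i)⁻¹ d := (mem_fix_zpowers (z := z)).2 h4 _ (Subgroup.npow_mem_zpowers z i)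
        rw [hzz] at h5
        rw [← h5] at h4 hd1
        exact (hXm d).2 ⟨hd1, h4⟩
    intro w
    have : w ∈ K := by rw [hK]; exact mem_top w
    exact this
  -- Step 4
  set E := EE P X with hE
  have hEc : ∀ x ∈ E, ∀ y ∈ E, x * y = y * x := fun x hx y hy => EE_comm hx hy
  have hE2 : ∀ x ∈ E, x * x = 1 := fun x hx => EE_sq hW2 hx
  have hzX : ∀ v ∈ X, z v = v := fun v hv => ((hXm v).1 hv).2
  have hzE : z ∈ normalizer (E : Set (MulAut W)) := EE_norm hzP hzX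
  have haE : a ∈ normalizer (E : Set (MulAut W)) := EE_norm haP (fun v hv => haV v ((hXm v).1 hv).1)
  have hAE : A ≤ E := fun x hx => ⟨hAP hx, hAX x hx, fun v hv => hAV x hx v ((hXm v).1 hv).1⟩
  have hzm : ∀ y ∈ E, z * y * z⁻¹ ∈ E := fun y hy => (mem_normalizer_iff.1 hzE y).1 hy
  let δ : E →* MulAut W := MonoidHom.mk' (fun e => z * (e : MulAut W) * z⁻¹ * (e : MulAut W)⁻¹) (by
    intro x y
    show z * ((x : MulAut W) * (y : MulAut W)) * z⁻¹ * ((x : MulAut W) * (y : MulAut W))⁻¹ = _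
    have h1 := hEc _ (E.mul_mem (hzm _ y.2) (E.inv_mem y.2)) _ (E.inv_mem x.2)
    calc z * ((x : MulAut W) * (y : MulAut W)) * z⁻¹ * ((x : MulAut W) * (y : MulAut W))⁻¹
        = (z * (x : MulAut W) * z⁻¹) * ((z * (y : MulAut W) * z⁻¹ * (y : MulAut W)⁻¹) * (x : MulAut W)⁻¹) := by group
      _ = (z * (x : MulAut W) * z⁻¹) * ((x : MulAut W)⁻¹ * (z * (y : MulAut W) * z⁻¹ * (y : MulAut W)⁻¹)) := by rw [h1]
      _ = _ := by group)
  have hδ : ∀ e : E, δ e = z * e * z⁻¹ * (e : MulAut W)⁻¹ := fun e => rfl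
  have hAz : ∀ x ∈ A, x * z = z * x → x = 1 := by
    intro x hx hxz
    have h0 : Commute x z := hxz
    ext w
    have hw : w ∈ (⨆ i : ℕ, V.map (z ^ i).toMonoidHom) := by rw [hgen]; exact mem_top w
    have h1 : (⨆ i : ℕ, V.map (z ^ i).toMonoidHom) ≤ fixSub (zpowers x) := by
      apply iSup_le
      intro i w hw
      rw [mem_tr] at hw
      rw [mem_fix_zpowers]
      have h2 := hAV x hx _ hw
      have h3 : Commute x ((z ^ i)⁻¹) := (h0.pow_right i).inv_right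
      have h4 : x ((z ^ i)⁻¹ w) = (z ^ i)⁻¹ (x w) := by
        show (x * (z ^ i)⁻¹) w = ((z ^ i)⁻¹ * x) w
        rw [h3.eq]
      rw [h4] at h2
      exact (z ^ i)⁻¹.injective h2
    exact mem_fix_zpowers.1 (h1 hw)
  have hA4 := card_sq_le E A hEc hE2 hN hzk hinv hzE haE hAE hAa hAz δ hδ
  have hEP : E ≤ P := fun x hx => hx.1
  have hE2g : IsPGroup 2 E := hP.to_le hEP
  have hmod := card_range_modEq E hE2g hp hp2 hzk hzE δ hδ
  set D := δ.range with hD
  have hDE : D ≤ E := by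
    rintro _ ⟨e, rfl⟩
    rw [hδ]
    exact E.mul_mem (hzm _ e.2) (E.inv_mem e.2)
  -- Step 5
  set F := fixSub (zpowers a) with hF
  set C := fixSub (zpowers z) with hC
  have hFC : F ⊓ F.map z.toMonoidHom ≤ C := by
    intro w hw
    rw [mem_inf, mem_tr, hF, mem_fix_zpowers, mem_fix_zpowers] at hw
    rw [hC, mem_fix_zpowers]
    obtain ⟨h1, h2⟩ := hw
    have h3 : z⁻¹ w = z w := by
      have h4 : a (z⁻¹ w) = z (a w) := by
        have h5 := hazn 1 (z⁻¹ w)
        rw [pow_one, hzz] at h5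
        rw [h5, hzz]
      rw [← h2, h4, h1]
    exact sq_fix z hzord w (by rw [← h3, hzz])
  have hFF := card_sup_inf F (F.map z.toMonoidHom)
  have hFz : Nat.card (F.map z.toMonoidHom) = Nat.card F :=
    (Nat.card_congr (F.equivMapOfInjective _ z.injective).toEquiv).symm
  have g1 : Nat.card F * Nat.card F ≤ Nat.card W * Nat.card C := by
    rw [hFz] at hFF
    rw [← hFF]
    apply Nat.mul_le_mul
    · exact Nat.le_of_dvd Nat.card_pos (Subgroup.card_subgroup_dvd_card _)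
    · exact Nat.le_of_dvd Nat.card_pos (Subgroup.card_dvd_of_le hFC)
  have g2 : Nat.card W ≤ c ^ 2 * Nat.card D * Nat.card C := by
    have hWpos : 0 < Nat.card W := Nat.card_pos
    have h1 : Nat.card W * Nat.card W ≤ (c ^ 2 * Nat.card D * Nat.card C) * Nat.card W := by
      calc Nat.card W * Nat.card W ≤ (c * Nat.card A * Nat.card F) * (c * Nat.card A * Nat.card F) :=
            Nat.mul_le_mul hcard hcard
        _ = c ^ 2 * (Nat.card A * Nat.card A) * (Nat.card F * Nat.card F) := by ring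
        _ ≤ c ^ 2 * Nat.card D * (Nat.card W * Nat.card C) := by gcongr
        _ = _ := by ring
    exact le_of_mul_le_mul_right h1 hWpos
  -- Step 6
  have hCD : C ≤ fixSub D := by
    rintro w hw _ ⟨e, rfl⟩
    rw [hC, mem_fix_zpowers] at hw
    rw [hδ]
    have hw' : z⁻¹ w = w := by conv_lhs => rw [← hw, hzz']
    have he := (E.inv_mem e.2)
    have h1 : (e : MulAut W)⁻¹ w = w * ((e : MulAut W)⁻¹ w * w⁻¹) := by
      rw [mul_comm ((e : MulAut W)⁻¹ w), mul_inv_cancel_left]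
    have h2 := hzX _ (he.2.1 w)
    have h2' : z⁻¹ ((e : MulAut W)⁻¹ w * w⁻¹) = (e : MulAut W)⁻¹ w * w⁻¹ := by conv_lhs => rw [← h2, hzz']
    have h3 : z⁻¹ ((e : MulAut W)⁻¹ w) = (e : MulAut W)⁻¹ w := by
      rw [h1, map_mul, hw', h2']
    rw [MulAut.mul_apply, MulAut.mul_apply, MulAut.mul_apply, h3, hzz, hw]
  -- Step 7
  have hQV : QQ P V := by
    refine ⟨hPV, ?_⟩
    intro R hR he hne
    have h1 := hQ R hR he.comm he.sq hne
    have h2 : Nat.card {r : R // ∀ v ∈ V, (r : MulAut W) v = v} = Nat.card (kr R V) := by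
      apply Nat.card_congr
      refine ⟨fun r => ⟨(r : R), (r : R).2, r.2⟩, fun r => ⟨⟨r, r.2.1⟩, r.2.2⟩, ?_, ?_⟩
      · intro r; rfl
      · intro r; rfl
    rwa [h2] at h1
  have hQT := hQV.top hzP hgen
  have g3 : Nat.card D * Nat.card C < Nat.card W := by
    by_cases hD1 : D = ⊥
    · rw [hD1, Subgroup.card_bot, one_mul]
      have h1 : C ≠ ⊤ := by
        intro h
        apply hz1
        ext w
        have : w ∈ C := by rw [h]; exact mem_top w
        rw [hC, mem_fix_zpowers] at this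
        exact this
      have h2 := Subgroup.card_le_card_group C
      rcases h2.lt_or_eq with h3 | h3
      · exact h3
      · exact absurd (Subgroup.eq_top_of_card_eq C h3) h1
    · have h1 := hQT.lt D (hDE.trans hEP) ⟨?_, ?_⟩ ?_
      · have h2 : kr D ⊤ = ⊥ := by
          rw [eq_bot_iff]
          intro r hr
          rw [mem_bot]
          ext w
          exact hr.2 w (mem_top w)
        rw [h2, Subgroup.card_bot, mul_one, top_inf_eq, Subgroup.card_top] at h1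
        calc Nat.card D * Nat.card C ≤ Nat.card D * Nat.card (fixSub D) :=
              Nat.mul_le_mul_left _ (Nat.le_of_dvd Nat.card_pos (Subgroup.card_dvd_of_le hCD))
          _ < _ := h1
      · intro r hr s hs v _
        show (r * s) v = (s * r) v
        rw [hEc r (hDE hr) s (hDE hs)]
      · intro r hr v _
        show (r * r) v = v
        rw [hE2 r (hDE hr)]; rfl
      · obtain ⟨r, hr⟩ := (Subgroup.ne_bot_iff_exists_ne_one).1 hD1
        refine ⟨r, r.2, ?_⟩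
        by_contra hcon
        push Not at hcon
        apply hr
        apply Subtype.ext
        ext w
        exact hcon w (mem_top w)
  -- numerics
  have hWp : IsPGroup 2 W := fun w => ⟨1, by rw [pow_one, pow_two]; exact hW2 w⟩
  haveI : Fact (Nat.Prime 2) := ⟨Nat.prime_two⟩
  obtain ⟨e, he⟩ := IsPGroup.iff_card.1 (hE2g.to_le hDE)
  have hidx : ∃ f, C.index = 2 ^ f := by
    obtain ⟨n, hn⟩ := IsPGroup.iff_card.1 hWp
    have h1 : C.index ∣ 2 ^ n := by rw [← hn]; exact Subgroup.index_dvd_card C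
    obtain ⟨f, _, hf⟩ := (Nat.dvd_prime_pow Nat.prime_two).1 h1
    exact ⟨f, hf⟩
  obtain ⟨f, hf⟩ := hidx
  have hWC : Nat.card C * 2 ^ f = Nat.card W := by rw [← hf]; exact Subgroup.card_mul_index C
  have hCpos : 0 < Nat.card C := Nat.card_pos
  rw [he, ← hWC] at g3 g2
  have g4 : 2 ^ e < 2 ^ f := by
    rw [mul_comm] at g3
    exact lt_of_mul_lt_mul_left g3 (Nat.zero_le _)
  have g5 : 2 ^ f ≤ c ^ 2 * 2 ^ e := by
    rw [mul_comm] at g2
    exact le_of_mul_le_mul_right g2 hCpos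
  have g6 : e < f := (Nat.pow_lt_pow_iff_right (by norm_num)).1 g4
  obtain ⟨j, rfl⟩ := Nat.exists_eq_add_of_lt g6
  have h2p : Nat.Coprime p 2 := (Nat.coprime_primes hp Nat.prime_two).2 hp2
  refine hno (j + 1) (by omega) ?_ ?_
  · rw [add_assoc, pow_add, mul_comm (2 ^ e)] at g5
    exact le_of_mul_le_mul_right g5 (by positivity)
  · have m1 := card_modEq_fix (z := z) hp hzk
    rw [← hC, ← hWC] at m1
    have hCp : Nat.Coprime p (Nat.card C) := by
      obtain ⟨n, hn⟩ := IsPGroup.iff_card.1 (hWp.to_subgroup C)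
      rw [hn]; exact Nat.Coprime.pow_right n h2p
    have m2 : 2 ^ (e + j + 1) ≡ 1 [MOD p] := by
      apply Nat.ModEq.cancel_left_of_coprime (c := Nat.card C) hCp
      rwa [mul_one]
    rw [he] at hmod
    have m3 : 2 ^ (j + 1) ≡ 1 [MOD p] := by
      apply Nat.ModEq.cancel_left_of_coprime (c := 2 ^ e) (Nat.Coprime.pow_right e h2p)
      rw [mul_one, ← pow_add, ← add_assoc]
      exact m2.trans hmod.symm
    exact (Nat.modEq_iff_dvd' (Nat.one_le_two_pow)).1 m3.symm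

end Aut

end Cfsg.Agent.Lib.H34FC
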