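import Cfsg.Agent.Lib.H34Term

/-! Terminating residual series for the fusion systems of `p`-solvable groups (helper34). -/

set_option autoImplicit false

universe u v

namespace Cfsg.Agent.Lib.H34Term

open Cfsg Cfsg.FusionSystem Cfsg.Agent.Lib.FusionBasic Cfsg.Agent.Lib.FusionSat Cfsg.Agent.Lib.FusionNormal
  Cfsg.Agent.Lib.FusionInvar Cfsg.Agent.Lib.FusionTools Cfsg.Agent.Lib.FusionPP Cfsg.Agent.Lib.FusionStrong
  Cfsg.Agent.Lib.FusionSys Cfsg.Agent.Lib.FusionPrime Cfsg.Agent.Lib.FusionRes Cfsg.Agent.Lib.FusionPIdx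
  Cfsg.Agent.Lib.FusionPPower Cfsg.Agent.Lib.FusionConsComp Cfsg.Agent.Lib.FusionCenNormal Cfsg.Agent.Lib.H34Limit
  Cfsg.Agent.Lib.FusionPull Cfsg.Agent.Lib.FusionFrat

variable {Ω : Type u} [Group Ω] {S T U : Subgroup Ω} {F E : FusionSystem S} {P Q R R₂ : Subgroup Ω}
  {f g : Ω → Ω} {p : ℕ}

/-- a trivial residual limit gives a terminating series -/
theorem series_of_limit [Fact p.Prime] (n : ℕ) : ∀ {S : Subgroup Ω} [Finite S] (_ : IsPGroup p S) (F : FusionSystem S)
    (_ : F.IsSaturated p), Nat.card S = n → (∀ (U : Subgroup Ω) (L : FusionSystem U), L.IsResidualLimitOf F p → U = ⊥) →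
    F.HasTerminatingResidualSeries p := by
  induction n using Nat.strong_induction_on with
  | _ n ih =>
    intro S _ hS F hF hn hlim
    obtain ⟨E, hEdef⟩ : ∃ E, E = res F p := ⟨_, rfl⟩
    have hEs : E.IsSaturated p := by rw [hEdef]; exact res_saturated hS hF
    have hEr : F.IsPPrimeResidual p E := by rw [hEdef]; exact res_isResidual hS hF
    have hTS : E.hyperfocalSubgroup p ≤ S := hyperfocal_le
    obtain ⟨D, hDs, hDi⟩ := exists_index (Nat.card S) hS E hEs hTS le_rfl rfl
    obtain ⟨V, L, hL⟩ := exists_limit _ _ hS F hF rfl rfl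
    have hV := hlim V L hL
    have hTf : Finite (E.hyperfocalSubgroup p) := finite_of_le hTS
    have hTp := isPGroup_of_le hS hTS
    rcases eq_or_lt_of_le hTS with h | h
    · have hst : E.IsPPrimeResidual p E := by
        have h1 := res_isResidual hS hEs
        have h2 : res E p = E := by
          rw [res_eq_of_primeIndex hS hF hEs hEr.2.1, hEdef]
        rwa [h2] at h1
      have h3 := limit_primeIndex hS hF hEs hEr.2.1 hL (.stable E p h hst)
      refine .trivial F p ?_
      rw [← h3.1, hV]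
    · refine .step F E p D hEr ⟨hDs, hDi⟩ (ih _ (hn ▸ card_lt h) hTp D hDs rfl ?_)
      intro W M hM
      obtain ⟨V', L', hL'⟩ := exists_limit _ _ hS E hEs rfl rfl
      have h1 := limit_primeIndex hS hF hEs hEr.2.1 hL hL'
      have h2 := limit_of_index hS hEs hDs hDi hL' hM
      rw [← h2.1, ← h1.1, hV]

section Groups

variable {G : Type v} [Group G]

theorem exists_normal_of_psolv [Nontrivial G] (h : IsPSolvable p G) : ∃ N : Subgroup G, N.Normal ∧ N ≠ ⊤ ∧
    ((∃ m : ℕ, N.index = p ^ m) ∨ N.index.Coprime p) := by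
  obtain ⟨n, H, h0, hlast, -, hnorm, hstep⟩ := h
  by_contra hcon
  push Not at hcon
  have key : ∀ i : Fin (n + 1), H i = ⊤ := by
    intro i
    induction i using Fin.reverseInduction with
    | last => exact hlast
    | cast i ih =>
      by_contra hne
      have h1 := hcon (H i.castSucc) (hnorm _) hne
      have h2 := hstep i
      rw [ih, Subgroup.relIndex_top_right] at h2
      rcases h2 with ⟨m, hm⟩ | h2
      · exact h1.1 m hm
      · exact h1.2 h2
  have h1 := key 0
  rw [h0] at h1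
  exact bot_ne_top h1

variable {ι : S →* G} {N : Subgroup G}

/-- an automorphism of order prime to the index of `N` is induced by an element of `N` -/
theorem exists_mem_N (h : F.IsRealizedBy ι) (hP : P ≤ S) [N.Normal] {α : MulAut P} (hα : α ∈ F.autGroup P)
    (hco : (orderOf α).Coprime N.index) : ∃ g ∈ N, ∀ x : P, j ι ((α x : P) : Ω) = g * j ι (x : Ω) * g⁻¹ := by
  obtain ⟨-, -, g, hg⟩ := (FusionPull.fmap_iff h).1 (fmap_of_autGroup hP hα)
  have h1 : ∀ (k : ℕ) (x : P), j ι (((α ^ k) x : P) : Ω) = g ^ k * j ι (x : Ω) * (g ^ k)⁻¹ := by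
    intro k
    induction k with
    | zero => intro x; simp
    | succ k ih =>
      intro x
      have h2 := hg ((α ^ k) x : P) ((α ^ k) x).2
      rw [autFun_coe, ih] at h2
      rw [pow_succ', MulAut.mul_apply, h2, pow_succ']
      group
  obtain ⟨k, hk1, hk2⟩ := Nat.chineseRemainder hco 1 0
  have h2 : α ^ k = α := by
    have := pow_eq_pow_iff_modEq.2 hk1
    rwa [pow_one] at this
  obtain ⟨t, ht⟩ := (Nat.modEq_zero_iff_dvd.1 hk2)
  refine ⟨g ^ k, ?_, fun x => ?_⟩
  · rw [ht, pow_mul]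
    exact N.pow_mem (Subgroup.pow_index_mem N g) t
  · rw [← h1 k x, h2]

theorem mem_pull_aut (h : F.IsRealizedBy ι) (hP : P ≤ T1 ι N) {α : MulAut P}
    (hg : ∃ g ∈ N, ∀ x : P, j ι ((α x : P) : Ω) = g * j ι (x : Ω) * g⁻¹) : α ∈ (pull h.1 N).autGroup P := by
  obtain ⟨g, hgN, hg⟩ := hg
  refine mem_autGroup_of_fmap (f := autFun α) ((fmap_pull_iff h.1).2 ⟨hP, fun x hx => ?_, g, hgN, fun x hx => ?_⟩) fun x => ?_
  · exact hP (autFun_mem α hx)
  · rw [autFun_of_mem α hx]; exact hg ⟨x, hx⟩
  · rw [autFun_coe]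

theorem pull_pindex [Finite G] [Fact p.Prime] (h : F.IsRealizedBy ι) (hT : ∃ T : Sylow p G, (T : Subgroup G) = ι.range)
    [N.Normal] {m : ℕ} (hN : N.index = p ^ m) : (pull h.1 N).HasPPowerIndexIn F p := by
  obtain ⟨T, hT⟩ := hT
  refine ⟨(pull_inv h T hT N).sub, ?_, fun P hP => ?_⟩
  · rw [hyperfocal_le_iff]
    intro P hP α hα ho x
    obtain ⟨g, hgN, hg⟩ := exists_mem_N h hP (N := N) hα (by rw [hN]; exact ho.pow_right m)
    have hxS := hP x.2
    have hαS := hP (α x).2
    refine mem_T1.2 ⟨S.mul_mem (S.inv_mem hxS) hαS, ?_⟩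
    rw [j_mul ι (S.inv_mem hxS) hαS, j_inv ι hxS, hg x]
    have h1 : (j ι (x : Ω))⁻¹ * (g * j ι (x : Ω) * g⁻¹) = ((j ι (x : Ω))⁻¹ * g * (j ι (x : Ω))⁻¹⁻¹) * g⁻¹ := by group
    rw [h1]
    exact N.mul_mem (Subgroup.Normal.conj_mem inferInstance _ hgN _) (N.inv_mem hgN)
  · rw [Subgroup.map_le_iff_le_comap]
    unfold pResidual
    rw [Subgroup.closure_le]
    intro α hα
    have ho : (orderOf (α : MulAut P)).Coprime p := by rw [Subgroup.orderOf_coe]; exact hα
    exact mem_pull_aut h hP (exists_mem_N h (hP.trans (T1_le N)) α.2 (by rw [hN]; exact ho.pow_right m))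

theorem pull_prime [Finite G] [Fact p.Prime] (h : F.IsRealizedBy ι)
    [N.Normal] (hN : N.index.Coprime p) (P : Subgroup Ω) (hP : P ≤ T1 ι N) :
    (Subgroup.closure {α : F.autGroup P | ∃ k : ℕ, orderOf α = p ^ k}).map (F.autGroup P).subtype ≤ (pull h.1 N).autGroup P := by
  rw [Subgroup.map_le_iff_le_comap, Subgroup.closure_le]
  rintro α ⟨k, hk⟩
  refine mem_pull_aut h hP (exists_mem_N h (hP.trans (T1_le N)) α.2 ?_)
  have h1 : orderOf ((F.autGroup P).subtype α) = p ^ k := by
    rw [← hk]; exact Subgroup.orderOf_coe α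
  rw [h1]
  exact (Nat.Coprime.pow_right k hN).symm

theorem T1_eq [Finite G] [hp : Fact p.Prime] (h : F.IsRealizedBy ι) (hT : ∃ T : Sylow p G, (T : Subgroup G) = ι.range)
    [N.Normal] (hN : N.index.Coprime p) : T1 ι N = S := by
  obtain ⟨T, hT⟩ := hT
  refine le_antisymm (T1_le N) fun x hx => mem_T1.2 ⟨hx, ?_⟩
  have h1 : j ι x ∈ (T : Subgroup G) := by rw [hT]; exact j_mem_range ι hx
  obtain ⟨k, hk⟩ := T.isPGroup' ⟨_, h1⟩
  have hk' : (j ι x) ^ p ^ k = 1 := congrArg Subtype.val hk
  rw [← QuotientGroup.eq_one_iff]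
  have h2 : ((j ι x : G) : G ⧸ N) ^ p ^ k = 1 := by
    rw [← QuotientGroup.mk_pow, hk', QuotientGroup.mk_one]
  have h3 := orderOf_dvd_of_pow_eq_one h2
  have h4 := orderOf_dvd_natCard ((j ι x : G) : G ⧸ N)
  rw [← Subgroup.index_eq_card] at h4
  have h5 := Nat.dvd_gcd h4 h3
  rw [(hN.pow_right k : Nat.gcd N.index (p ^ k) = 1)] at h5
  exact orderOf_eq_one_iff.1 (Nat.dvd_one.1 h5)

end Groups

/-- the residual limit of the fusion system of a `p`-solvable group is trivial -/
theorem limit_trivial [hp : Fact p.Prime] (n : ℕ) : ∀ {G : Type v} [Group G] [Finite G] {S : Subgroup Ω} [Finite S]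
    (F : FusionSystem S) (ι : S →* G), Nat.card G = n → F.IsRealizedBy ι →
    (∃ T : Sylow p G, (T : Subgroup G) = ι.range) → IsPSolvable p G →
    ∀ (U : Subgroup Ω) (L : FusionSystem U), L.IsResidualLimitOf F p → U = ⊥ := by
  induction n using Nat.strong_induction_on with
  | _ n ih =>
    intro G _ _ S _ F ι hn h hT hG U L hL
    obtain ⟨T, hT'⟩ := id hT
    have hS : IsPGroup p S := by
      have h1 : IsPGroup p ι.range := by rw [← hT']; exact T.isPGroup'
      exact h1.of_injective ι.rangeRestrict (fun x y hxy => h.1 (congrArg Subtype.val hxy))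
    have hF : F.IsSaturated p := FusionGroup.isSaturated_of_isRealizedBy ι h T hT'
    rcases subsingleton_or_nontrivial G with hs | hs
    · have hSb : S = ⊥ := by
        rw [Subgroup.eq_bot_iff_forall]
        intro x hx
        have h1 : (⟨x, hx⟩ : S) = 1 := h.1 (Subsingleton.elim _ _)
        exact congrArg Subtype.val h1
      have hU := subsystem_le (limit_sub hL)
      rw [hSb] at hU
      exact le_bot_iff.1 hU
    · obtain ⟨N, hNn, hNt, hN⟩ := exists_normal_of_psolv hG
      have hlt : Nat.card N < Nat.card G := by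
        refine lt_of_le_of_ne (Subgroup.card_le_card_group N) fun h1 => hNt (Subgroup.eq_top_of_card_eq N h1)
      have hNs : IsPSolvable p N := Cfsg.Agent.Lib.H32PSolv.isPSolvable_subgroup hG N
      have hTf : Finite (T1 ι N) := finite_of_le (T1_le N)
      obtain ⟨R, hR⟩ := FusionGrp.exists_sylow_inf T N
      have hSyl : ∃ T' : Sylow p N, (T' : Subgroup N) = (pullHom (ι := ι) N).range :=
        ⟨R, by rw [hR, pullHom_range T hT' N]⟩
      have hsat : (pull h.1 N).IsSaturated p :=
        FusionGroup.isSaturated_of_isRealizedBy _ (pull_isRealizedBy h.1 N) R (by rw [hR, pullHom_range T hT' N])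
      have hIH := ih _ (hn ▸ hlt) (pull h.1 N) (pullHom (ι := ι) N) rfl (pull_isRealizedBy h.1 N) hSyl hNs
      rcases hN with ⟨m, hm⟩ | hN
      · have hidx := pull_pindex h hT (N := N) hm
        obtain ⟨V, M, hM⟩ := exists_limit _ _ (isPGroup_of_le hS (T1_le N)) (pull h.1 N) hsat rfl rfl
        have h1 := limit_of_index hS hF hsat hidx hL hM
        rw [h1.1]
        exact hIH V M hM
      · have hpr := pull_prime h (N := N) hN
        have hsub := (pull_inv h T hT' N).sub
        have key : ∀ (W : Subgroup Ω) (_ : W = S) (E : FusionSystem W), E.IsSaturated p → E.IsSubsystemOf F →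
            (∀ P ≤ W, (Subgroup.closure {α : F.autGroup P | ∃ k : ℕ, orderOf α = p ^ k}).map (F.autGroup P).subtype ≤
              E.autGroup P) → (∀ (U : Subgroup Ω) (L : FusionSystem U), L.IsResidualLimitOf E p → U = ⊥) → U = ⊥ := by
          intro W hW
          subst hW
          intro E h1 h2 h3 h4
          obtain ⟨V, M, hM⟩ := exists_limit _ _ hS E h1 rfl rfl
          have h5 := limit_primeIndex hS hF h1 ⟨h2, h3⟩ hL hM
          rw [h5.1]
          exact h4 V M hM
        exact key _ (T1_eq h hT hN) _ hsat hsub hpr hIH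

end Cfsg.Agent.Lib.H34Term
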