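import Cfsg.Agent.Lib.Layer
import Cfsg.Agent.Lib.CompRel
import Cfsg.Agent.Lib.H34SolvOff

/-!
# Quasisimple subgroups moved by elementary abelian 2-groups (helper34)
-/

set_option autoImplicit false
set_option linter.unusedSectionVars false

namespace Cfsg.Agent.Lib.H34ZQ

open Subgroup Cfsg Cfsg.Agent.Lib.Components
open scoped commutatorElement

variable {G : Type*} [Group G]

/-- `X` is a perfect central extension (odd kernel) of `S` -/
structure QS (X : Subgroup G) (S : Type) [Group S] : Prop where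
  perf : ⁅X, X⁆ = X
  ex : ∃ φ : X →* S, Function.Surjective φ ∧ (∀ x, φ x = 1 → ∀ y : X, x * y = y * x) ∧
    ∀ x, φ x = 1 → Odd (orderOf x)

/-- no element of odd order is inverted by `A` (in the strong sense) -/
def NI (A : Subgroup G) : Prop :=
  ∀ x : G, x ≠ 1 → Odd (orderOf x) → (∃ b ∈ A, b * x * b⁻¹ = x⁻¹) →
    (∀ c ∈ A, c * x * c⁻¹ = x ∨ c * x * c⁻¹ = x⁻¹) → False

theorem comm_of_central {X : Subgroup G} (hX : ⁅X, X⁆ = X) (c : G) (hc : ∀ x ∈ X, c * x * c⁻¹ * x⁻¹ ∈ X ∧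
    ∀ y ∈ X, (c * x * c⁻¹ * x⁻¹) * y = y * (c * x * c⁻¹ * x⁻¹)) : ∀ x ∈ X, c * x = x * c := by
  let Z : Subgroup G := X ⊓ centralizer (X : Set G)
  have hZ : ∀ x ∈ X, c * x * c⁻¹ * x⁻¹ ∈ Z := fun x hx =>
    ⟨(hc x hx).1, mem_centralizer_iff.mpr fun y hy => ((hc x hx).2 y hy).symm⟩
  have hcomm : ∀ a ∈ Z, ∀ b ∈ X, a * b = b * a := fun a ha b hb => (mem_centralizer_iff.mp ha.2 b hb).symm
  let W : Subgroup G :=
    { carrier := {x | x ∈ X ∧ c * x * c⁻¹ * x⁻¹ = 1}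
      mul_mem' := fun {a b} ha hb => by
        refine ⟨mul_mem ha.1 hb.1, ?_⟩
        have h1 : c * a * c⁻¹ = a := mul_inv_eq_one.mp ha.2
        have h2 : c * b * c⁻¹ = b := mul_inv_eq_one.mp hb.2
        have h3 : c * (a * b) * c⁻¹ * (a * b)⁻¹ = (c * a * c⁻¹) * (c * b * c⁻¹) * (a * b)⁻¹ := by group
        rw [h3, h1, h2]; group
      one_mem' := ⟨one_mem _, by group⟩
      inv_mem' := fun {a} ha => by
        refine ⟨inv_mem ha.1, ?_⟩
        have h1 : c * a * c⁻¹ = a := mul_inv_eq_one.mp ha.2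
        have h3 : c * a⁻¹ * c⁻¹ * (a⁻¹)⁻¹ = (c * a * c⁻¹)⁻¹ * a := by group
        rw [h3, h1]; group }
  have hW : X ≤ W := by
    have : ⁅X, X⁆ ≤ W := by
      rw [commutator_le]
      intro x hx y hy
      refine ⟨?_, ?_⟩
      · have := hX ▸ commutator_mem_commutator hx hy
        exact this
      obtain ⟨a, ha⟩ : ∃ a, a = c * x * c⁻¹ * x⁻¹ := ⟨_, rfl⟩
      obtain ⟨b, hb⟩ : ∃ b, b = c * y * c⁻¹ * y⁻¹ := ⟨_, rfl⟩
      have haZ : a ∈ Z := ha ▸ hZ x hx
      have hbZ : b ∈ Z := hb ▸ hZ y hy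
      have hx' : c * x * c⁻¹ = a * x := by rw [ha]; group
      have hy' : c * y * c⁻¹ = b * y := by rw [hb]; group
      have h1 : c * ⁅x, y⁆ * c⁻¹ = (c * x * c⁻¹) * (c * y * c⁻¹) * (c * x * c⁻¹)⁻¹ * (c * y * c⁻¹)⁻¹ := by
        rw [commutatorElement_def]; group
      rw [h1, hx', hy', mul_inv_eq_one, commutatorElement_def]
      have e1 := hcomm b hbZ x hx
      have e2 := hcomm a haZ y hy
      have e3 := hcomm a haZ b hbZ.1
      have e4 := hcomm b hbZ y hy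
      have e5 := hcomm a haZ x hx
      have hbc : ∀ w ∈ X, b⁻¹ * w = w * b⁻¹ := fun w hw => hcomm b⁻¹ (inv_mem hbZ) w hw
      have hac : ∀ w ∈ X, a⁻¹ * w = w * a⁻¹ := fun w hw => hcomm a⁻¹ (inv_mem haZ) w hw
      calc a * x * (b * y) * (a * x)⁻¹ * (b * y)⁻¹
          = a * (x * b) * y * x⁻¹ * a⁻¹ * y⁻¹ * b⁻¹ := by group
        _ = a * (b * x) * y * x⁻¹ * a⁻¹ * y⁻¹ * b⁻¹ := by rw [e1]
        _ = a * b * (x * y * x⁻¹) * (a⁻¹ * y⁻¹) * b⁻¹ := by group
        _ = a * b * (x * y * x⁻¹) * (y⁻¹ * a⁻¹) * b⁻¹ := by rw [hac _ (inv_mem hy)]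
        _ = (a * b) * ((x * y * x⁻¹ * y⁻¹) * (a⁻¹ * b⁻¹)) := by group
        _ = (a * b) * ((a⁻¹ * b⁻¹) * (x * y * x⁻¹ * y⁻¹)) := by
            congr 1
            have hm : x * y * x⁻¹ * y⁻¹ ∈ X := mul_mem (mul_mem (mul_mem hx hy) (inv_mem hx)) (inv_mem hy)
            have hm2 : a⁻¹ * b⁻¹ ∈ Z := mul_mem (inv_mem haZ) (inv_mem hbZ)
            exact (hcomm _ hm2 _ hm).symm
        _ = (b * a) * ((a⁻¹ * b⁻¹) * (x * y * x⁻¹ * y⁻¹)) := by rw [e3]
        _ = x * y * x⁻¹ * y⁻¹ := by group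
    rwa [hX] at this
  intro x hx
  have h1 : c * x * c⁻¹ = x := mul_inv_eq_one.mp (hW hx).2
  calc c * x = (c * x * c⁻¹) * c := by group
    _ = x * c := by rw [h1]

section
variable {S : Type} [Group S]

theorem QS.mk' {X : Subgroup G} {S : Type} [Group S] [IsSimpleGroup S] (hS : ¬ IsMulCommutative S) (h : QS X S) :
    ∃ φ : X →* S, Function.Surjective φ ∧ (∀ x, φ x = 1 ↔ ∀ y : X, x * y = y * x) ∧
      ∀ x, φ x = 1 → Odd (orderOf x) := by
  obtain ⟨φ, h1, h2, h3⟩ := h.ex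
  refine ⟨φ, h1, fun x => ⟨h2 x, fun hx => ?_⟩, h3⟩
  have hc : Subgroup.center S = ⊥ := by
    rcases (inferInstance : (Subgroup.center S).Normal).eq_bot_or_eq_top with h4 | h4
    · exact h4
    · exfalso
      apply hS
      exact ⟨⟨fun a b => ((Subgroup.mem_center_iff.mp (h4 ▸ Subgroup.mem_top b : b ∈ Subgroup.center S)) a)⟩⟩
  have h4 : φ x ∈ Subgroup.center S := by
    rw [Subgroup.mem_center_iff]
    intro s
    obtain ⟨y, rfl⟩ := h1 s
    rw [← map_mul, ← map_mul, hx y]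
  rw [hc, Subgroup.mem_bot] at h4
  exact h4

/-- an odd order element outside the centre -/
theorem QS.exists_odd [Finite G] {X : Subgroup G} (φ : X →* S) (hφ : Function.Surjective φ) {s : S} (hs : Odd (orderOf s))
    (hs1 : s ≠ 1) : ∃ x : X, Odd (orderOf x) ∧ φ x ≠ 1 ∧ φ x ∈ Subgroup.zpowers s ∧ s ∈ Subgroup.zpowers (φ x) := by
  obtain ⟨x0, hx0⟩ := hφ s
  have hfin : 0 < orderOf x0 := orderOf_pos x0
  obtain ⟨k, r, hr, hkr⟩ := Nat.exists_eq_two_pow_mul_odd hfin.ne'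
  have hr' : Odd r := hr
  have hcop : Nat.Coprime (2 ^ k) (orderOf s) := (Nat.coprime_two_left.mpr hs).pow_left k
  refine ⟨x0 ^ (2 ^ k), ?_, ?_, ?_, ?_⟩
  · rw [orderOf_pow' x0 (pow_ne_zero _ two_ne_zero), hkr, Nat.gcd_mul_right_left,
      Nat.mul_div_cancel_left _ (by positivity)]
    exact hr'
  · rw [map_pow, hx0]
    intro h
    have h1 := orderOf_dvd_of_pow_eq_one h
    have h2 := Nat.Coprime.eq_one_of_dvd hcop.symm h1
    exact hs1 (orderOf_eq_one_iff.mp h2)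
  · rw [map_pow, hx0]
    exact Subgroup.npow_mem_zpowers s _
  · rw [map_pow, hx0]
    have h1 : orderOf (s ^ (2 ^ k)) = orderOf s := Nat.Coprime.orderOf_pow hcop.symm
    have h2 : Subgroup.zpowers (s ^ (2 ^ k)) = Subgroup.zpowers s := by
      have hle : Subgroup.zpowers (s ^ (2 ^ k)) ≤ Subgroup.zpowers s :=
        Subgroup.zpowers_le.mpr (Subgroup.npow_mem_zpowers s _)
      have hfs : Finite (Subgroup.zpowers s) := by
        rw [← Nat.card_pos_iff.trans (and_iff_right ⟨1, one_mem _⟩)] 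
        rw [Nat.card_zpowers]
        exact hs.pos
      exact Subgroup.eq_of_le_of_card_ge hle (by rw [Nat.card_zpowers, Nat.card_zpowers, h1])
    rw [h2]
    exact Subgroup.mem_zpowers s

end

/-- the diagonal homomorphism -/
def dg (X : Subgroup G) (a : G) (h : ∀ x ∈ X, ∀ y ∈ X, x * (a * y * a⁻¹) = (a * y * a⁻¹) * x) : X →* G :=
  MonoidHom.mk' (fun x => (x : G) * (a * x * a⁻¹)) (by
    intro x y
    have h1 := h y y.2 x x.2
    show ((x : G) * y) * (a * (x * y) * a⁻¹) = (x * (a * x * a⁻¹)) * (y * (a * y * a⁻¹))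
    calc ((x : G) * y) * (a * (x * y) * a⁻¹) = x * (y * (a * x * a⁻¹)) * (a * y * a⁻¹) := by group
      _ = x * ((a * x * a⁻¹) * y) * (a * y * a⁻¹) := by rw [h1]
      _ = _ := by group)

theorem dg_apply (X : Subgroup G) (a : G) (h : ∀ x ∈ X, ∀ y ∈ X, x * (a * y * a⁻¹) = (a * y * a⁻¹) * x) (x : X) :
    dg X a h x = (x : G) * (a * x * a⁻¹) := rfl

theorem QS.dg {S : Type} [Group S] [IsSimpleGroup S] (hS : ¬ IsMulCommutative S) {X : Subgroup G} (hX : QS X S) {a : G}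
    (h : ∀ x ∈ X, ∀ y ∈ X, x * (a * y * a⁻¹) = (a * y * a⁻¹) * x) : QS (dg X a h).range S := by
  obtain ⟨φ, h1, h2, h3⟩ := hX.mk' hS
  obtain ⟨π, hπ⟩ : ∃ π, π = H34ZQ.dg X a h := ⟨_, rfl⟩
  rw [← hπ]
  have hπa : ∀ x : X, π x = (x : G) * (a * x * a⁻¹) := fun x => by rw [hπ, dg_apply]
  have hker : π.rangeRestrict.ker ≤ φ.ker := by
    intro w hw
    rw [MonoidHom.ker_rangeRestrict, MonoidHom.mem_ker, hπa] at hw
    rw [MonoidHom.mem_ker, h2]
    intro y
    apply Subtype.ext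
    have h4 : (w : G) = (a * w * a⁻¹)⁻¹ := eq_inv_of_mul_eq_one_left hw
    have h5 := h y y.2 w w.2
    have h6 : (y : G) * (a * w * a⁻¹)⁻¹ = (a * w * a⁻¹)⁻¹ * y := (Commute.inv_right h5)
    show (w : G) * y = y * w
    rw [h4, h6]
  let φ' : π.range →* S := (π.rangeRestrict.liftOfSurjective π.rangeRestrict_surjective) ⟨φ, hker⟩
  have hφ' : ∀ x, φ' (π.rangeRestrict x) = φ x := fun x =>
    MonoidHom.liftOfRightInverse_comp_apply _ _ _ ⟨φ, hker⟩ x
  refine ⟨?_, φ', ?_, ?_, ?_⟩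
  · have h4 : π.range = (⊤ : Subgroup X).map π := MonoidHom.range_eq_map π
    have h5 : ⁅(⊤ : Subgroup X), (⊤ : Subgroup X)⁆ = ⊤ := by
      apply Subgroup.map_injective X.subtype_injective
      rw [Subgroup.map_commutator, ← MonoidHom.range_eq_map, Subgroup.range_subtype, hX.perf]
    rw [h4, ← Subgroup.map_commutator, h5]
  · intro s
    obtain ⟨x, rfl⟩ := h1 s
    exact ⟨_, hφ' x⟩
  · intro y hy z
    obtain ⟨x, rfl⟩ := π.rangeRestrict_surjective y
    obtain ⟨w, rfl⟩ := π.rangeRestrict_surjective z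
    rw [hφ', h2] at hy
    rw [← map_mul, ← map_mul, hy w]
  · intro y hy
    obtain ⟨x, rfl⟩ := π.rangeRestrict_surjective y
    rw [hφ'] at hy
    exact (h3 x hy).of_dvd_nat (orderOf_map_dvd _ x)

/-- a quasisimple subgroup whose `A`-conjugates commute, not centralised by `A` -/
structure Good (A X : Subgroup G) (S : Type) [Group S] : Prop where
  qs : QS X S
  alt : ∀ a ∈ A, (∀ x ∈ X, a * x * a⁻¹ ∈ X) ∨ (∀ x ∈ X, ∀ y ∈ X, x * (a * y * a⁻¹) = (a * y * a⁻¹) * x)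
  nc : ∃ a ∈ A, ∃ x ∈ X, a * x ≠ x * a

theorem Good.exists_inv [Finite G] {S : Type} [Group S] [IsSimpleGroup S] (hS : ¬ IsMulCommutative S)
    (hS2 : ∃ s : S, s ≠ 1 ∧ Odd (orderOf s)) {A : Subgroup G} (hA2 : ∀ a ∈ A, a * a = 1) (hNI : NI A) :
    ∀ (n : ℕ) (X : Subgroup G), Nat.card A - Nat.card ↥(A ⊓ normalizer (X : Set G)) = n → Good A X S →
      ∃ Y : Subgroup G, Good A Y S ∧ A ≤ normalizer (Y : Set G) := by
  classical
  have hinv : ∀ a ∈ A, a⁻¹ = a := fun a ha => inv_eq_of_mul_eq_one_left (hA2 a ha)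
  have hcomm : ∀ a ∈ A, ∀ b ∈ A, a * b = b * a := by
    intro a ha b hb
    have h1 := hinv (a * b) (mul_mem ha hb)
    rw [mul_inv_rev, hinv a ha, hinv b hb] at h1
    exact h1.symm
  have hnorm : ∀ (X : Subgroup G) (a : G), a ∈ A → (∀ x ∈ X, a * x * a⁻¹ ∈ X) → a ∈ normalizer (X : Set G) := by
    intro X a ha h
    rw [mem_normalizer_iff]
    intro x
    refine ⟨fun hx => h x hx, fun hx => ?_⟩
    have h1 := h _ hx
    have h2 : a * (a * x * a⁻¹) * a⁻¹ = x := by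
      rw [hinv a ha]
      calc a * (a * x * a) * a = (a * a) * x * (a * a) := by group
        _ = x := by rw [hA2 a ha]; group
    rwa [h2] at h1
  intro n
  induction n using Nat.strong_induction_on with
  | _ n ih =>
  intro X hn hX
  by_cases hAN : A ≤ normalizer (X : Set G)
  · exact ⟨X, hX, hAN⟩
  obtain ⟨a, haA, haN⟩ : ∃ a ∈ A, a ∉ normalizer (X : Set G) := by
    by_contra hcon; push Not at hcon; exact hAN hcon
  have hca : ∀ x ∈ X, ∀ y ∈ X, x * (a * y * a⁻¹) = (a * y * a⁻¹) * x := by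
    rcases hX.alt a haA with h | h
    · exact absurd (hnorm X a haA h) haN
    · exact h
  have hQ := hX.qs.dg hS hca
  obtain ⟨Y, hY⟩ : ∃ Y, Y = (dg X a hca).range := ⟨_, rfl⟩
  have hYmem : ∀ y, y ∈ Y ↔ ∃ x ∈ X, y = x * (a * x * a⁻¹) := by
    intro y
    rw [hY]
    constructor
    · rintro ⟨x, rfl⟩; exact ⟨x, x.2, rfl⟩
    · rintro ⟨x, hx, rfl⟩; exact ⟨⟨x, hx⟩, rfl⟩
  rw [← hY] at hQ
  have hai := hinv a haA
  -- normalising elements
  have hn1 : ∀ b ∈ A, (∀ x ∈ X, b * x * b⁻¹ ∈ X) → ∀ y ∈ Y, b * y * b⁻¹ ∈ Y := by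
    intro b hb h y hy
    rw [hYmem] at hy ⊢
    obtain ⟨x, hx, rfl⟩ := hy
    refine ⟨_, h x hx, ?_⟩
    have h1 := hcomm a haA b hb
    have h2 : b * (x * (a * x * a⁻¹)) * b⁻¹ = (b * x * b⁻¹) * ((b * a) * x * (b * a)⁻¹) := by group
    rw [h2, ← h1]; group
  have hn2 : ∀ b ∈ A, (∀ x ∈ X, (a * b) * x * (a * b)⁻¹ ∈ X) → ∀ y ∈ Y, b * y * b⁻¹ ∈ Y := by
    intro b hb h y hy
    rw [hYmem] at hy ⊢
    obtain ⟨x, hx, rfl⟩ := hy
    refine ⟨_, h x hx, ?_⟩
    have h1 := hcomm a haA b hb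
    have h2 : b * (x * (a * x * a⁻¹)) * b⁻¹ = (b * x * b⁻¹) * ((b * a) * x * (b * a)⁻¹) := by group
    have h3 : b * x * b⁻¹ = a * ((a * b) * x * (a * b)⁻¹) * a⁻¹ := by
      have : a * ((a * b) * x * (a * b)⁻¹) * a⁻¹ = (a * a) * (b * x * b⁻¹) * (a * a)⁻¹ := by group
      rw [this, hA2 a haA]; group
    have h4 := hca _ (h x hx) _ (h x hx)
    rw [h2, ← h1, h3, ← h4]
  have hsub : A ⊓ normalizer (X : Set G) < A ⊓ normalizer (Y : Set G) := by
    rw [lt_iff_le_not_ge]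
    constructor
    · rintro b ⟨hb, hbN⟩
      exact ⟨hb, hnorm Y b hb (hn1 b hb fun x hx => (mem_normalizer_iff.mp hbN x).mp hx)⟩
    · intro hle
      have h1 : a ∈ A ⊓ normalizer (Y : Set G) := by
        refine ⟨haA, hnorm Y a haA (hn2 a haA ?_)⟩
        intro x hx
        rw [hA2 a haA]
        simpa using hx
      exact haN (hle h1).2
  have hlt := card_lt_of_lt hsub
  have hle1 : Nat.card ↥(A ⊓ normalizer (Y : Set G)) ≤ Nat.card A := Subgroup.card_le_of_le inf_le_left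
  by_cases hnc : ∃ b ∈ A, ∃ y ∈ Y, b * y ≠ y * b
  · refine ih _ ?_ Y rfl ⟨hQ, ?_, hnc⟩
    · omega
    · intro b hb
      rcases hX.alt b hb with h | h
      · exact Or.inl (hn1 b hb h)
      · rcases hX.alt (a * b) (mul_mem haA hb) with h' | h'
        · exact Or.inl (hn2 b hb h')
        · right
          intro y hy z hz
          rw [hYmem] at hy hz
          obtain ⟨x, hx, rfl⟩ := hy
          obtain ⟨w, hw, rfl⟩ := hz
          have hab := hcomm a haA b hb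
          -- four commutations
          have c1 : Commute x (b * w * b⁻¹) := h x hx w hw
          have c2 : Commute x (b * (a * w * a⁻¹) * b⁻¹) := by
            have h1 := h' x hx w hw
            have h2 : b * (a * w * a⁻¹) * b⁻¹ = (a * b) * w * (a * b)⁻¹ := by rw [hab]; group
            rw [h2]; exact h1
          have c3 : Commute (a * x * a⁻¹) (b * w * b⁻¹) := by
            have h1 : Commute x ((a * b) * w * (a * b)⁻¹) := h' x hx w hw
            have h2 : b * w * b⁻¹ = a * ((a * b) * w * (a * b)⁻¹) * a⁻¹ := by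
              have : a * ((a * b) * w * (a * b)⁻¹) * a⁻¹ = (a * a) * (b * w * b⁻¹) * (a * a)⁻¹ := by group
              rw [this, hA2 a haA]; group
            rw [h2]
            exact (Commute.conj_iff a).mpr h1
          have c4 : Commute (a * x * a⁻¹) (b * (a * w * a⁻¹) * b⁻¹) := by
            have h1 : Commute x (b * w * b⁻¹) := h x hx w hw
            have h2 : b * (a * w * a⁻¹) * b⁻¹ = a * (b * w * b⁻¹) * a⁻¹ := by
              have e1 : b * (a * w * a⁻¹) * b⁻¹ = (b * a) * w * (b * a)⁻¹ := by group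
              have e2 : a * (b * w * b⁻¹) * a⁻¹ = (a * b) * w * (a * b)⁻¹ := by group
              rw [e1, e2, hab]
            rw [h2]
            exact (Commute.conj_iff a).mpr h1
          have hz : b * (w * (a * w * a⁻¹)) * b⁻¹ = (b * w * b⁻¹) * (b * (a * w * a⁻¹) * b⁻¹) := by group
          rw [hz]
          exact (Commute.mul_left (c1.mul_right c2) (c3.mul_right c4))
  · exfalso
    push Not at hnc
    obtain ⟨φ, h1, h2, h3⟩ := hX.qs.mk' hS
    have hcent : ∀ b ∈ A, ∀ x ∈ X, b * (x * (a * x * a⁻¹)) * b⁻¹ = x * (a * x * a⁻¹) := by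
      intro b hb x hx
      rw [hnc b hb _ ((hYmem _).mpr ⟨x, hx, rfl⟩), mul_inv_cancel_right]
    -- (i)
    have hi : ∀ b ∈ A, (∀ x ∈ X, b * x * b⁻¹ ∈ X) ∨ (∀ x ∈ X, (a * b) * x * (a * b)⁻¹ ∈ X) := by
      intro b hb
      rcases hX.alt b hb with h | h
      · exact Or.inl h
      · rcases hX.alt (a * b) (mul_mem haA hb) with h' | h'
        · exact Or.inr h'
        · exfalso
          apply hS
          refine ⟨⟨fun s t => ?_⟩⟩
          obtain ⟨x, rfl⟩ := h1 s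
          obtain ⟨y, rfl⟩ := h1 t
          have hab := hcomm a haA b hb
          have c1 : Commute (y : G) (b * x * b⁻¹) := h y y.2 x x.2
          have c2 : Commute (y : G) (b * (a * x * a⁻¹) * b⁻¹) := by
            have h1 := h' y y.2 x x.2
            have h2 : b * (a * x * a⁻¹) * b⁻¹ = (a * b) * x * (a * b)⁻¹ := by rw [hab]; group
            rw [h2]; exact h1
          have c3 : Commute (y : G) (x * (a * x * a⁻¹)) := by
            rw [← hcent b hb x x.2]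
            have : b * (x * (a * x * a⁻¹)) * b⁻¹ = (b * x * b⁻¹) * (b * (a * x * a⁻¹) * b⁻¹) := by group
            rw [this]
            exact c1.mul_right c2
          have c4 : Commute (y : G) (a * x * a⁻¹) := hca y y.2 x x.2
          have c5 : Commute (y : G) x := by
            have := c3.mul_right c4.inv_right
            rwa [mul_inv_cancel_right] at this
          rw [← map_mul, ← map_mul]
          congr 1
          exact Subtype.ext c5.symm
    -- (ii)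
    have hii : ∀ b ∈ A, (∀ x ∈ X, b * x * b⁻¹ ∈ X) → ∀ x ∈ X, b * x = x * b := by
      intro b hb hbN
      have hab := hcomm a haA b hb
      apply comm_of_central hX.qs.perf b
      intro x hx
      have hmem : b * x * b⁻¹ * x⁻¹ ∈ X := mul_mem (hbN x hx) (inv_mem hx)
      refine ⟨hmem, ?_⟩
      intro y hy
      have e1 := hcent b hb x hx
      have e2 : b * (x * (a * x * a⁻¹)) * b⁻¹ = (b * x * b⁻¹) * (a * (b * x * b⁻¹) * a⁻¹) := by
        have : b * (x * (a * x * a⁻¹)) * b⁻¹ = (b * x * b⁻¹) * ((b * a) * x * (b * a)⁻¹) := by group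
        rw [this, ← hab]; group
      rw [e2] at e1
      -- x⁻¹ * (b x b⁻¹) = a (x (b x b⁻¹)⁻¹) a⁻¹
      have e3 : x⁻¹ * (b * x * b⁻¹) = a * (x * (b * x * b⁻¹)⁻¹) * a⁻¹ := by
        calc x⁻¹ * (b * x * b⁻¹) = x⁻¹ * ((b * x * b⁻¹) * (a * (b * x * b⁻¹) * a⁻¹)) * (a * (b * x * b⁻¹) * a⁻¹)⁻¹ := by group
          _ = x⁻¹ * (x * (a * x * a⁻¹)) * (a * (b * x * b⁻¹) * a⁻¹)⁻¹ := by rw [e1]
          _ = _ := by group
      have e4 : ∀ w ∈ X, Commute w (x⁻¹ * (b * x * b⁻¹)) := by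
        intro w hw
        rw [e3]
        exact hca w hw _ (mul_mem hx (inv_mem (hbN x hx)))
      have e5 : b * x * b⁻¹ * x⁻¹ = x * (x⁻¹ * (b * x * b⁻¹)) * x⁻¹ := by group
      have e6 : b * x * b⁻¹ * x⁻¹ = x⁻¹ * (b * x * b⁻¹) := by
        rw [e5, (e4 x hx).eq]; group
      rw [e6]
      exact (e4 y hy).symm
    -- (iii)
    obtain ⟨s, hs1, hso⟩ := hS2
    obtain ⟨x, hxo, hx1, -, -⟩ := QS.exists_odd φ h1 hso hs1
    have hxx : Commute (x : G) (a * x * a⁻¹) := hca x x.2 x x.2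
    obtain ⟨y, hy⟩ : ∃ y, y = (x : G)⁻¹ * (a * x * a⁻¹) := ⟨_, rfl⟩
    refine hNI y ?_ ?_ ⟨a, haA, ?_⟩ ?_
    · intro hy1
      apply hx1
      rw [h2]
      intro w
      apply Subtype.ext
      have h4 : (x : G) = a * x * a⁻¹ := by
        rw [hy] at hy1
        exact inv_mul_eq_one.mp hy1
      have h5 := hca w w.2 x x.2
      show (x : G) * w = w * x
      rw [← h4] at h5
      exact h5.symm
    · have hxo' : Odd (orderOf (x : G)) := by rw [Subgroup.orderOf_coe]; exact hxo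
      have h4 : orderOf (a * x * a⁻¹) = orderOf (x : G) := (MulAut.conj a).orderOf_eq (x : G)
      have h5 := (hxx.inv_left).orderOf_mul_dvd_lcm
      rw [← hy, orderOf_inv, h4, Nat.lcm_self] at h5
      exact hxo'.of_dvd_nat h5
    · rw [hy]
      have : a * ((x : G)⁻¹ * (a * x * a⁻¹)) * a⁻¹ = (a * x * a⁻¹)⁻¹ * ((a * a) * x * (a * a)⁻¹) := by group
      rw [this, hA2 a haA]; group
    · have hcen : ∀ b ∈ A, (∀ x ∈ X, b * x * b⁻¹ ∈ X) → b * y * b⁻¹ = y := by
        intro b hb hbN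
        have h4 := hii b hb hbN x x.2
        have h4' : b * (x : G) * b⁻¹ = x := by rw [h4, mul_inv_cancel_right]
        have hab := hcomm a haA b hb
        have : b * ((x : G)⁻¹ * (a * x * a⁻¹)) * b⁻¹ = (b * x * b⁻¹)⁻¹ * (a * (b * x * b⁻¹) * a⁻¹) := by
          have e1 : b * ((x : G)⁻¹ * (a * x * a⁻¹)) * b⁻¹ = (b * x * b⁻¹)⁻¹ * ((b * a) * x * (b * a)⁻¹) := by group
          rw [e1, ← hab]; group
        rw [hy, this, h4']
      have hinva : a * y * a⁻¹ = y⁻¹ := by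
        rw [hy]
        have : a * ((x : G)⁻¹ * (a * x * a⁻¹)) * a⁻¹ = (a * x * a⁻¹)⁻¹ * ((a * a) * x * (a * a)⁻¹) := by group
        rw [this, hA2 a haA]; group
      intro c hc
      rcases hi c hc with h | h
      · exact Or.inl (hcen c hc h)
      · right
        have h4 := hcen (a * c) (mul_mem haA hc) h
        have h5 : c * y * c⁻¹ = a * ((a * c) * y * (a * c)⁻¹) * a⁻¹ := by
          have : a * ((a * c) * y * (a * c)⁻¹) * a⁻¹ = (a * a) * (c * y * c⁻¹) * (a * a)⁻¹ := by group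
          rw [this, hA2 a haA]; group
        rw [h5, h4, hinva]

end Cfsg.Agent.Lib.H34ZQ
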