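import Cfsg.Agent.Lib.SuzukiMax
import Cfsg.Agent.Lib.LMinSz

/-!
# Involutory automorphisms of `Sz(q)` are inner (helper34)
-/

set_option autoImplicit false
set_option linter.unusedSectionVars false

open scoped LinearAlgebra.Projectivization Matrix Pointwise

namespace Cfsg.Agent.Lib.H34ZSz

open Cfsg.Agent.Lib.SuzukiOvoid Cfsg.Agent.Lib.SuzukiGroup Cfsg.Agent.Lib.SuzukiFin
  Cfsg.Agent.Lib.SuzukiStab Cfsg.Agent.Lib.SuzukiSyl Cfsg.Agent.Lib.SuzukiPts
  Cfsg.Agent.Lib.SuzukiTor Cfsg.Agent.Lib.SuzukiMax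

/-- an involutory automorphism of an elementary abelian `2`-group has many fixed points -/
theorem card_le_fix_sq {Z : Type*} [Group Z] [Finite Z] (hZ2 : ∀ z : Z, z * z = 1) (τ : Z →* Z)
    (hτ : ∀ z, τ (τ z) = z) (D : Subgroup Z) (hD : ∀ z, z ∈ D ↔ τ z = z) :
    Nat.card Z ≤ Nat.card D * Nat.card D := by
  have hinv : ∀ z : Z, z⁻¹ = z := fun z => inv_eq_of_mul_eq_one_left (hZ2 z)
  have hcomm : ∀ a b : Z, a * b = b * a := by
    intro a b
    have h1 := hinv (a * b)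
    rw [mul_inv_rev, hinv, hinv] at h1
    exact h1.symm
  let f : Z →* Z := MonoidHom.mk' (fun z => z * τ z) (by
    intro a b
    rw [map_mul]
    calc a * b * (τ a * τ b) = a * (b * τ a) * τ b := by group
      _ = a * (τ a * b) * τ b := by rw [hcomm b]
      _ = _ := by group)
  have hker : f.ker = D := by
    ext z
    rw [MonoidHom.mem_ker, hD]
    constructor
    · intro h
      have h1 : z * τ z = 1 := h
      have h2 := eq_inv_of_mul_eq_one_right h1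
      rw [h2, hinv]
    · intro h
      show z * τ z = 1
      rw [h, hZ2]
  have hran : f.range ≤ D := by
    rintro _ ⟨z, rfl⟩
    rw [hD]
    show τ (z * τ z) = z * τ z
    rw [map_mul, hτ, hcomm]
  have h1 : Nat.card f.range * Nat.card f.ker = Nat.card Z := by
    rw [← Subgroup.index_ker, mul_comm]
    exact Subgroup.card_mul_index _
  rw [← h1, hker]
  exact Nat.mul_le_mul_right _ (Subgroup.card_le_of_le hran)

theorem card_ne (D : Type*) [One D] [Finite D] : Nat.card {d : D // d ≠ 1} + 1 = Nat.card D := by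
  classical
  rw [← Nat.card_congr (Equiv.optionSubtypeNe (1 : D)), Finite.card_option]

theorem arith {j m : ℕ} (h1 : 2 ^ j - 1 ∣ 2 ^ (2 * m + 1) - 1) (h2 : 2 ^ (2 * m + 1) ≤ 2 ^ j * 2 ^ j) :
    j = 2 * m + 1 := by
  have h3 : Nat.gcd (2 ^ j - 1) (2 ^ (2 * m + 1) - 1) = 2 ^ (Nat.gcd j (2 * m + 1)) - 1 :=
    Nat.pow_sub_one_gcd_pow_sub_one 2 j (2 * m + 1)
  rw [Nat.gcd_eq_left h1] at h3
  have h4 : 2 ^ j = 2 ^ (Nat.gcd j (2 * m + 1)) := by
    have := Nat.one_le_two_pow (n := j)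
    have := Nat.one_le_two_pow (n := Nat.gcd j (2 * m + 1))
    omega
  have h5 : j = Nat.gcd j (2 * m + 1) := Nat.pow_right_injective (le_refl 2) h4
  have h6 : j ∣ 2 * m + 1 := by rw [h5]; exact Nat.gcd_dvd_right _ _
  have h7 : 2 * m + 1 ≤ j + j := by
    rw [← pow_add] at h2
    exact (Nat.pow_le_pow_iff_right (by norm_num)).mp h2
  obtain ⟨k, hk⟩ := h6
  have hk2 : k ≤ 2 := by
    by_contra hcon
    have : j * 3 ≤ j * k := Nat.mul_le_mul_left j (by omega)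
    omega
  interval_cases k <;> omega

variable {F : Type*} [Field F] [CharP F 2] (θ : F ≃+* F) (hθ : ∀ x, θ (θ x) = x ^ 2)
  (hne : ∃ x, θ x ≠ x ^ 2)

include hθ hne in
theorem stab_of_Up (τ : MulAut (Gz θ)) (hτ : ∀ g, τ (τ g) = g) {p : ov θ}
    (hp : ∀ g ∈ Up θ hθ hne p, τ g ∈ Up θ hθ hne p) {g : Gz θ} (hg : g • p = p) : τ g • p = p := by
  obtain ⟨k, hk⟩ := exists_to θ hθ p
  obtain ⟨u, hu, hu1⟩ := U_ne_bot θ hθ hne
  have hu' : k * u * k⁻¹ ∈ Up θ hθ hne p := by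
    have := Up_conj θ hθ hne (p := inf θ) (g := u) (by rw [Up_inf]; exact hu) k
    rwa [hk] at this
  obtain ⟨v, hv⟩ : ∃ v, v = k * u * k⁻¹ := ⟨_, rfl⟩
  have hv1 : v ≠ 1 := by
    rw [hv]; intro h
    apply hu1
    have : u = k⁻¹ * (k * u * k⁻¹) * k := by group
    rw [this, h]; group
  rw [← hv] at hu'
  by_contra hcon
  have h1 : τ g * v * (τ g)⁻¹ ∈ Up θ hθ hne (τ g • p) := Up_conj θ hθ hne hu' _
  have h2 : τ g * v * (τ g)⁻¹ ∈ Up θ hθ hne p := by
    have h3 : τ g * v * (τ g)⁻¹ = τ (g * τ v * g⁻¹) := by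
      rw [map_mul, map_mul, hτ, map_inv]
    rw [h3]
    apply hp
    have := Up_conj θ hθ hne (hp v hu') g
    rwa [hg] at this
  have h4 := Up_disjoint θ hθ hne h1 h2 hcon
  apply hv1
  have : v = (τ g)⁻¹ * (τ g * v * (τ g)⁻¹) * τ g := by group
  rw [this, h4]; group

section finite
variable [Finite F]
include hθ hne

/-- an involutory automorphism normalising two Sylow `2`-subgroups is trivial -/
theorem fix_all {m : ℕ} (hF : Nat.card F = 2 ^ (2 * m + 1)) (τ : MulAut (Gz θ)) (hτ : ∀ g, τ (τ g) = g)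
    (hU : ∀ g ∈ Up θ hθ hne (inf θ), τ g ∈ Up θ hθ hne (inf θ))
    (hU0 : ∀ g ∈ Up θ hθ hne (pt θ 0 0), τ g ∈ Up θ hθ hne (pt θ 0 0)) : ∀ g, τ g = g := by
  classical
  have hUu : ∀ g ∈ USub θ hθ, τ g ∈ USub θ hθ := by
    intro g hg
    rw [← Up_inf θ hθ hne] at hg ⊢
    exact hU g hg
  have hH : ∀ h ∈ HSub θ hθ, τ h ∈ HSub θ hθ := by
    intro h hh
    rw [mem_H_iff θ hθ hne] at hh ⊢
    exact ⟨stab_of_Up θ hθ hne τ hτ hU hh.1, stab_of_Up θ hθ hne τ hτ hU0 hh.2⟩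
  have hZ : ∀ z ∈ ZSub θ hθ, τ z ∈ ZSub θ hθ := by
    intro z hz
    rw [mem_Z_iff_sq θ hθ (hUu z (ZSub_le θ hθ hz)), ← map_pow, (mem_Z_iff_sq θ hθ (ZSub_le θ hθ hz)).mp hz,
      map_one]
  -- the fixed points on `Z`
  let τZ : ZSub θ hθ →* ZSub θ hθ := MonoidHom.mk' (fun z => ⟨τ z, hZ z z.2⟩) (fun a b => Subtype.ext (map_mul τ _ _))
  have hτZ : ∀ z : ZSub θ hθ, ((τZ z : ZSub θ hθ) : Gz θ) = τ z := fun z => rfl
  have hZ2 : ∀ z : ZSub θ hθ, z * z = 1 := by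
    intro z
    apply Subtype.ext
    have := (mem_Z_iff_sq θ hθ (ZSub_le θ hθ z.2)).mp z.2
    rw [pow_two] at this
    exact this
  let D : Subgroup (ZSub θ hθ) :=
    { carrier := {z | τZ z = z}
      mul_mem' := fun {a b} ha hb => by
        show τZ (a * b) = a * b
        rw [map_mul, show τZ a = a from ha, show τZ b = b from hb]
      one_mem' := map_one _
      inv_mem' := fun {a} ha => by
        show τZ a⁻¹ = a⁻¹
        rw [map_inv, show τZ a = a from ha] }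
  have hDmem : ∀ z, z ∈ D ↔ τZ z = z := fun z => Iff.rfl
  have hcard := card_le_fix_sq hZ2 τZ (fun z => Subtype.ext (by rw [hτZ, hτZ, hτ])) D hDmem
  have hZc : Nat.card (ZSub θ hθ) = 2 ^ (2 * m + 1) := by rw [card_Z, hF]
  obtain ⟨j, hj⟩ : ∃ j, Nat.card D = 2 ^ j := by
    have h1 : Nat.card D ∣ 2 ^ (2 * m + 1) := by rw [← hZc]; exact Subgroup.card_subgroup_dvd_card D
    obtain ⟨j, -, hj⟩ := (Nat.dvd_prime_pow Nat.prime_two).mp h1
    exact ⟨j, hj⟩
  have hD1 : 1 < Nat.card D := by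
    by_contra hcon
    have h1 : Nat.card D = 1 := by
      have := Nat.card_pos (α := D)
      omega
    rw [h1, hZc] at hcard
    have : 2 ^ 1 ≤ 2 ^ (2 * m + 1) := Nat.pow_le_pow_right (by norm_num) (by omega)
    omega
  obtain ⟨z0, hz0D, hz01⟩ : ∃ z0 ∈ D, z0 ≠ 1 := by
    rw [Subgroup.one_lt_card_iff_ne_bot] at hD1
    obtain ⟨z, hz⟩ := Subgroup.ne_bot_iff_exists_ne_one.mp hD1
    exact ⟨z, z.2, fun h => hz (Subtype.ext h)⟩
  have hz0 : τ (z0 : Gz θ) = z0 := congrArg Subtype.val ((hDmem z0).mp hz0D)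
  have hz01' : (z0 : Gz θ) ≠ 1 := fun h => hz01 (Subtype.ext h)
  obtain ⟨b0, hb0⟩ := z0.2
  have hb00 : b0 ≠ 0 := by
    rintro rfl
    rw [Ug_zero] at hb0
    exact hz01' hb0
  -- the fixed points on `H`
  let CH : Subgroup (HSub θ hθ) :=
    { carrier := {h | τ (h : Gz θ) = h}
      mul_mem' := fun {a b} ha hb => by
        show τ ((a : Gz θ) * b) = a * b
        rw [map_mul, show τ (a : Gz θ) = a from ha, show τ (b : Gz θ) = b from hb]
      one_mem' := map_one _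
      inv_mem' := fun {a} ha => by
        show τ (a : Gz θ)⁻¹ = (a : Gz θ)⁻¹
        rw [map_inv, show τ (a : Gz θ) = a from ha] }
  have hconj : ∀ κ : Fˣ, Hg θ hθ κ * (z0 : Gz θ) * (Hg θ hθ κ)⁻¹ = Ug θ hθ 0 (κ * θ κ * b0) := by
    intro κ
    rw [hb0, Hg_conj, mul_zero]
  have hinj : ∀ κ κ' : Fˣ, Ug θ hθ 0 (κ * θ κ * b0) = Ug θ hθ 0 (κ' * θ κ' * b0) → κ = κ' := by
    intro κ κ' h
    have h1 := (Ug_inj θ hθ h).2
    have h2 := mul_right_cancel₀ hb00 h1
    exact Units.ext (mulθ_inj θ hθ h2)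
  have hcardCH : Nat.card CH + 1 = Nat.card D := by
    have hC1 : Nat.card CH = ({h : Gz θ | h ∈ HSub θ hθ ∧ τ h = h}).ncard := by
      have h1 : Nat.card CH = (CH : Set (HSub θ hθ)).ncard := (Nat.card_coe_set_eq _)
      rw [h1, ← Set.ncard_image_of_injective _ (Subtype.val_injective (p := fun x => x ∈ HSub θ hθ))]
      congr 1
      ext x
      constructor
      · rintro ⟨y, hy, rfl⟩
        exact ⟨y.2, hy⟩
      · rintro ⟨h2, h3⟩
        exact ⟨⟨x, h2⟩, h3, rfl⟩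
    have hD2 : Nat.card D = ({z : Gz θ | z ∈ ZSub θ hθ ∧ τ z = z}).ncard := by
      have h1 : Nat.card D = (D : Set (ZSub θ hθ)).ncard := (Nat.card_coe_set_eq _)
      rw [h1, ← Set.ncard_image_of_injective _ (Subtype.val_injective (p := fun x => x ∈ ZSub θ hθ))]
      congr 1
      ext x
      constructor
      · rintro ⟨y, hy, rfl⟩
        exact ⟨y.2, congrArg Subtype.val ((hDmem y).mp hy)⟩
      · rintro ⟨h2, h3⟩
        exact ⟨⟨x, h2⟩, (hDmem _).mpr (Subtype.ext h3), rfl⟩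
    have himg : (fun h : Gz θ => h * (z0 : Gz θ) * h⁻¹) '' {h : Gz θ | h ∈ HSub θ hθ ∧ τ h = h} =
        {z : Gz θ | z ∈ ZSub θ hθ ∧ τ z = z} \ {1} := by
      ext z
      constructor
      · rintro ⟨h, ⟨hh, hτh⟩, rfl⟩
        refine ⟨⟨?_, ?_⟩, ?_⟩
        · obtain ⟨κ, hκ⟩ := (mem_HSub θ hθ).mp hh
          show h * (z0 : Gz θ) * h⁻¹ ∈ _
          rw [hκ, hconj]
          exact Uz_mem θ hθ _
        · show τ (h * (z0 : Gz θ) * h⁻¹) = h * (z0 : Gz θ) * h⁻¹
          rw [map_mul, map_mul, map_inv, hτh, hz0]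
        · intro h1
          have h1' : h * (z0 : Gz θ) * h⁻¹ = 1 := h1
          apply hz01'
          have : (z0 : Gz θ) = h⁻¹ * (h * z0 * h⁻¹) * h := by group
          rw [this, h1']; group
      · rintro ⟨⟨hz, hzτ⟩, hz1⟩
        obtain ⟨b, hb⟩ := hz
        have hb1 : b ≠ 0 := by
          rintro rfl
          apply hz1
          show z = 1
          rw [hb, Ug_zero]
        obtain ⟨x, hx⟩ := mulθ_surj θ hθ (b / b0)
        have hx0 : x ≠ 0 := by
          rintro rfl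
          rw [zero_mul] at hx
          exact div_ne_zero hb1 hb00 hx.symm
        have hzz : Hg θ hθ (Units.mk0 x hx0) * (z0 : Gz θ) * (Hg θ hθ (Units.mk0 x hx0))⁻¹ = z := by
          rw [hconj, hb]
          congr 1
          show x * θ x * b0 = b
          rw [hx]; field_simp
        have hfix : τ (Hg θ hθ (Units.mk0 x hx0)) = Hg θ hθ (Units.mk0 x hx0) := by
          obtain ⟨h, hh⟩ : ∃ h, h = Hg θ hθ (Units.mk0 x hx0) := ⟨_, rfl⟩
          rw [← hh] at hzz ⊢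
          have hhH : h ∈ HSub θ hθ := by rw [hh]; exact Hg_mem θ hθ _
          have h1 : τ h * z0 * (τ h)⁻¹ = h * z0 * h⁻¹ := by
            have : τ h * z0 * (τ h)⁻¹ = τ (h * z0 * h⁻¹) := by
              rw [map_mul, map_mul, map_inv, hz0]
            rw [this, hzz, hzτ]
          have h2 : ((τ h)⁻¹ * h) * z0 = z0 * ((τ h)⁻¹ * h) := by
            calc ((τ h)⁻¹ * h) * z0 = (τ h)⁻¹ * (h * z0 * h⁻¹) * h := by group
              _ = (τ h)⁻¹ * (τ h * z0 * (τ h)⁻¹) * h := by rw [h1]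
              _ = _ := by group
          have h3 : (τ h)⁻¹ * h ∈ USub θ hθ := (commute_Z_iff θ hθ hne z0.2 hz01' _).mp h2
          have h4 : (τ h)⁻¹ * h ∈ HSub θ hθ := mul_mem (inv_mem (hH h hhH)) hhH
          have h5 : (τ h)⁻¹ * h = 1 := by
            by_contra hcon
            have h6 := U_fix θ hθ h3 hcon (H_smul_zero' θ hθ h4)
            exact pt_ne_inf θ 0 0 h6
          exact inv_mul_eq_one.mp h5
        exact ⟨_, ⟨Hg_mem θ hθ _, hfix⟩, hzz⟩
    have hion : Set.InjOn (fun h : Gz θ => h * (z0 : Gz θ) * h⁻¹) {h : Gz θ | h ∈ HSub θ hθ ∧ τ h = h} := by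
      rintro h ⟨hh, -⟩ h' ⟨hh', -⟩ h1
      obtain ⟨κ, hκ⟩ := (mem_HSub θ hθ).mp hh
      obtain ⟨κ', hκ'⟩ := (mem_HSub θ hθ).mp hh'
      have h1' : h * (z0 : Gz θ) * h⁻¹ = h' * (z0 : Gz θ) * h'⁻¹ := h1
      rw [hκ, hκ', hconj, hconj] at h1'
      rw [hκ, hκ', hinj _ _ h1']
    have hfin : ({z : Gz θ | z ∈ ZSub θ hθ ∧ τ z = z}).Finite := Set.toFinite _
    rw [hC1, hD2, ← Set.ncard_image_of_injOn hion, himg]
    exact Set.ncard_diff_singleton_add_one ⟨one_mem _, map_one _⟩ hfin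
  have hdvd : 2 ^ j - 1 ∣ 2 ^ (2 * m + 1) - 1 := by
    have h1 : Nat.card CH ∣ Nat.card (HSub θ hθ) := Subgroup.card_subgroup_dvd_card CH
    rw [card_H, hF] at h1
    have h2 : Nat.card CH = 2 ^ j - 1 := by omega
    rwa [h2] at h1
  have hjm : j = 2 * m + 1 := by
    refine arith hdvd ?_
    rw [hZc, hj] at hcard
    exact hcard
  have hDtop : ∀ z ∈ ZSub θ hθ, τ z = z := by
    intro z hz
    have h1 : D = ⊤ := by
      apply Subgroup.eq_top_of_card_eq
      rw [hj, hZc, hjm]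
    have h2 : (⟨z, hz⟩ : ZSub θ hθ) ∈ D := by rw [h1]; trivial
    exact congrArg Subtype.val ((hDmem _).mp h2)
  have hCH : ∀ h ∈ HSub θ hθ, τ h = h := by
    intro h hh
    have h1 : CH = ⊤ := by
      apply Subgroup.eq_top_of_card_eq
      rw [card_H, hF, ← hjm]
      omega
    have h2 : (⟨h, hh⟩ : HSub θ hθ) ∈ CH := by rw [h1]; trivial
    exact h2
  -- the Weyl element
  have hmove : ∀ (g : Gz θ) (p p' : ov θ), (∀ x ∈ Up θ hθ hne p, τ x ∈ Up θ hθ hne p) →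
      (∀ x ∈ Up θ hθ hne p', τ x ∈ Up θ hθ hne p') → g • p = p' → τ g • p = p' := by
    intro g p p' hp hp' hg
    obtain ⟨k, hk⟩ := exists_to θ hθ p
    obtain ⟨u, hu, hu1⟩ := U_ne_bot θ hθ hne
    have hu' : k * u * k⁻¹ ∈ Up θ hθ hne p := by
      have := Up_conj θ hθ hne (p := inf θ) (g := u) (by rw [Up_inf]; exact hu) k
      rwa [hk] at this
    obtain ⟨v, hv⟩ : ∃ v, v = k * u * k⁻¹ := ⟨_, rfl⟩
    have hv1 : v ≠ 1 := by
      rw [hv]; intro h
      apply hu1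
      have : u = k⁻¹ * (k * u * k⁻¹) * k := by group
      rw [this, h]; group
    rw [← hv] at hu'
    by_contra hcon
    have h1 : τ g * v * (τ g)⁻¹ ∈ Up θ hθ hne (τ g • p) := Up_conj θ hθ hne hu' _
    have h2 : τ g * v * (τ g)⁻¹ ∈ Up θ hθ hne p' := by
      have h3 : τ g * v * (τ g)⁻¹ = τ (g * τ v * g⁻¹) := by
        rw [map_mul, map_mul, hτ, map_inv]
      rw [h3]
      apply hp'
      have := Up_conj θ hθ hne (hp v hu') g
      rwa [hg] at this
    have h4 := Up_disjoint θ hθ hne h1 h2 hcon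
    apply hv1
    have : v = (τ g)⁻¹ * (τ g * v * (τ g)⁻¹) * τ g := by group
    rw [this, h4]; group
  have hW : τ (Wg θ hθ) = Wg θ hθ := by
    have h1 := hmove (Wg θ hθ) _ _ hU hU0 (Wg_inf θ hθ)
    have h2 := hmove (Wg θ hθ) _ _ hU0 hU (Wg_zero θ hθ)
    obtain ⟨h0, hh0⟩ : ∃ h0, h0 = (Wg θ hθ)⁻¹ * τ (Wg θ hθ) := ⟨_, rfl⟩
    have h3 : h0 ∈ HSub θ hθ := by
      rw [mem_H_iff θ hθ hne, hh0]
      constructor
      · rw [mul_smul, h1, ← Wg_inf θ hθ, inv_smul_smul]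
      · rw [mul_smul, h2, ← Wg_zero θ hθ, inv_smul_smul]
    have h4 : τ (Wg θ hθ) = Wg θ hθ * h0 := by rw [hh0]; group
    have h5 : h0 * h0 = 1 := by
      have h6 := hτ (Wg θ hθ)
      rw [h4, map_mul, hCH h0 h3, h4, mul_assoc] at h6
      exact mul_eq_left.mp h6
    obtain ⟨κ, hκ⟩ := (mem_HSub θ hθ).mp h3
    have h7 : κ * κ = 1 := by
      rw [hκ, Hg_mul, Hg_eq_one] at h5
      exact h5
    have h8 : κ = 1 := by
      apply Units.ext
      have h9 : (κ : F) * κ = 1 := by rw [← Units.val_mul, h7, Units.val_one]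
      have h10 : ((κ : F) + 1) ^ 2 = 0 := by
        have h2 : (2 : F) = 0 := CharTwo.two_eq_zero
        linear_combination h9 + (κ + 1) * h2
      have h11 : (κ : F) + 1 = 0 := by simpa using h10
      rw [Units.val_one]
      exact CharTwo.add_eq_zero.mp h11
    rw [h4, hκ, h8, Hg_one, mul_one]
  -- a third point
  have hff : ff θ 0 1 ≠ 0 := by unfold ff; simp
  have hpt : Wg θ hθ • pt θ 0 1 = pt θ 1 0 := by
    rw [Wg_pt θ hθ hff]
    unfold ff; simp
  obtain ⟨g, hg⟩ : ∃ g, g = Wg θ hθ * Ug θ hθ 0 1 := ⟨_, rfl⟩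
  have hgτ : τ g = g := by rw [hg, map_mul, hW, hDtop _ (Uz_mem θ hθ 1)]
  have hg0 : g • pt θ 0 0 = pt θ 1 0 := by
    rw [hg, mul_smul, Ug_zero_pt, hpt]
  have hU1 : ∀ x ∈ Up θ hθ hne (pt θ 1 0), τ x ∈ Up θ hθ hne (pt θ 1 0) := by
    intro x hx
    have h1 : g⁻¹ * x * g ∈ Up θ hθ hne (pt θ 0 0) := by
      have := Up_conj θ hθ hne hx g⁻¹
      rwa [← hg0, inv_smul_smul, inv_inv] at this
    have h2 := Up_conj θ hθ hne (hU0 _ h1) g
    rw [hg0] at h2
    have h3 : g * τ (g⁻¹ * x * g) * g⁻¹ = τ x := by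
      rw [map_mul, map_mul, map_inv, hgτ]; group
    rwa [h3] at h2
  have hu1 : τ (Ug θ hθ 1 0) = Ug θ hθ 1 0 := by
    have h1 := hmove (Ug θ hθ 1 0) _ _ hU0 hU1 (Ug_zero_pt θ hθ 1 0)
    obtain ⟨a, b, hab⟩ := hUu _ (Ug_mem θ hθ 1 0)
    rw [hab, Ug_zero_pt] at h1
    obtain ⟨rfl, rfl⟩ := pt_inj θ h1
    exact hab
  have hUall : ∀ u ∈ USub θ hθ, τ u = u := by
    rintro _ ⟨a, b, rfl⟩
    have h1 : τ (Ug θ hθ a 0) = Ug θ hθ a 0 := by
      by_cases ha : a = 0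
      · rw [ha, Ug_zero, map_one]
      · have h2 : Ug θ hθ a 0 = Hg θ hθ (Units.mk0 a ha) * Ug θ hθ 1 0 * (Hg θ hθ (Units.mk0 a ha))⁻¹ := by
          rw [Hg_conj]; simp
        rw [h2, map_mul, map_mul, map_inv, hu1, hCH _ (Hg_mem θ hθ _)]
    have h2 : Ug θ hθ a b = Ug θ hθ a 0 * Ug θ hθ 0 b := by
      rw [Ug_mul]; simp
    rw [h2, map_mul, h1, hDtop _ (Uz_mem θ hθ b)]
  let M : Subgroup (Gz θ) :=
    { carrier := {g | τ g = g}
      mul_mem' := fun {a b} ha hb => by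
        show τ (a * b) = a * b
        rw [map_mul, show τ a = a from ha, show τ b = b from hb]
      one_mem' := map_one _
      inv_mem' := fun {a} ha => by
        show τ a⁻¹ = a⁻¹
        rw [map_inv, show τ a = a from ha] }
  have hM : M = ⊤ := by
    refine top_of_two θ hθ hne (p := inf θ) (p' := pt θ 0 0) (pt_ne_inf θ 0 0).symm ?_ ?_
    · intro x hx
      rw [Up_inf] at hx
      exact hUall x hx
    · intro x hx
      have h1 : (Wg θ hθ)⁻¹ * x * Wg θ hθ ∈ USub θ hθ := by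
        have := Up_conj θ hθ hne hx (Wg θ hθ)⁻¹
        rw [← Wg_inf θ hθ, inv_smul_smul, inv_inv, Up_inf] at this
        exact this
      have h2 := hUall _ h1
      show τ x = x
      have h3 : x = Wg θ hθ * ((Wg θ hθ)⁻¹ * x * Wg θ hθ) * (Wg θ hθ)⁻¹ := by group
      rw [h3, map_mul, map_mul, map_inv, hW, h2]
  intro g
  have : g ∈ M := by rw [hM]; trivial
  exact this

/-- involutory automorphisms of `Sz(q)` are inner -/
theorem aut_inner {m : ℕ} (hF : Nat.card F = 2 ^ (2 * m + 1)) (σ : MulAut (Gz θ)) (hσ : ∀ g, σ (σ g) = g) :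
    ∃ z : Gz θ, z * z = 1 ∧ ∀ g, σ g = z * g * z⁻¹ := by
  classical
  -- a fixed point
  have hmap : ∀ p : ov θ, ∃ p' : ov θ, (Up θ hθ hne p).map σ.toMonoidHom = Up θ hθ hne p' := by
    intro p
    have h2 : IsPGroup 2 ((Up θ hθ hne p).map σ.toMonoidHom) := (isPGroup_Up θ hθ hne p).map _
    obtain ⟨p', hp'⟩ := two_group_le θ hθ hne h2
    refine ⟨p', Subgroup.eq_of_le_of_card_ge hp' ?_⟩
    have h3 := Nat.card_congr ((Up θ hθ hne p).equivMapOfInjective σ.toMonoidHom σ.injective).toEquiv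
    rw [card_Up] at h3 ⊢
    exact h3.le
  choose π hπ using hmap
  have hππ : ∀ p, π (π p) = p := by
    intro p
    apply Up_inj θ hθ hne
    rw [← hπ, ← hπ, Subgroup.map_map]
    have : (σ.toMonoidHom.comp σ.toMonoidHom) = MonoidHom.id _ := by
      ext1 g
      exact hσ g
    rw [this, Subgroup.map_id]
  have hodd : ∃ p, π p = p := by
    by_contra hcon
    push Not at hcon
    have hfin : Finite (ov θ) := inferInstance
    have := Fintype.ofFinite (ov θ)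
    have h1 : Even (Fintype.card (ov θ)) := by
      have h3 : Function.Involutive π := hππ
      have h4 : (Finset.univ : Finset (ov θ)).card % 2 = 0 % 2 := by
        have h5 : (Finset.univ : Finset (ov θ)).card = ∑ _x ∈ (Finset.univ : Finset (ov θ)), 1 := by simp
        have h6 : ((Finset.univ : Finset (ov θ)).card : ZMod 2) = 0 := by
          rw [h5]
          push_cast
          refine Finset.sum_involution (fun a _ => π a) ?_ ?_ ?_ ?_
          · intro a _; decide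
          · intro a _ _; exact hcon a
          · intro a _; exact Finset.mem_univ _
          · intro a _; exact hππ a
        rw [ZMod.natCast_eq_zero_iff] at h6
        omega
      rw [Finset.card_univ] at h4
      exact Nat.even_iff.mpr h4
    rw [← Nat.card_eq_fintype_card, card_ov, hF] at h1
    have h4 : Odd ((2 ^ (2 * m + 1)) ^ 2 + 1) := by
      apply Even.add_one
      exact (even_two.pow_of_ne_zero (by omega)).pow_of_ne_zero (by omega)
    exact (Nat.not_even_iff_odd.mpr h4) h1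
  obtain ⟨p, hp⟩ := hodd
  -- a second point
  obtain ⟨p1, hp1⟩ : ∃ p1, p1 ≠ p := by
    by_cases h : inf θ = p
    · exact ⟨pt θ 0 0, by rw [← h]; exact pt_ne_inf θ 0 0⟩
    · exact ⟨inf θ, h⟩
  have hπ1 : π p1 ≠ p := by
    intro h
    apply hp1
    rw [← hππ p1, h, hp]
  obtain ⟨u, hu, hup⟩ := Up_trans θ hθ hne hp1 hπ1
  have hσUp : ∀ q : ov θ, ∀ x ∈ Up θ hθ hne q, σ x ∈ Up θ hθ hne (π q) := by
    intro q x hx
    rw [← hπ]
    exact Subgroup.mem_map_of_mem _ hx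
  -- `τ = conj u⁻¹ ∘ σ` fixes `p` and `p1`
  have e1 : ∀ x ∈ Up θ hθ hne p, u⁻¹ * σ x * u ∈ Up θ hθ hne p := by
    intro x hx
    have h1 := hσUp p x hx
    rw [hp] at h1
    exact mul_mem (mul_mem (inv_mem hu) h1) hu
  have e2 : ∀ x ∈ Up θ hθ hne p1, u⁻¹ * σ x * u ∈ Up θ hθ hne p1 := by
    intro x hx
    have h1 := Up_conj θ hθ hne (hσUp p1 x hx) u⁻¹
    rwa [← hup, inv_smul_smul, inv_inv] at h1
  obtain ⟨c, hc⟩ : ∃ c, c = (σ u * u)⁻¹ := ⟨_, rfl⟩
  have e3 : ∀ x, u⁻¹ * σ (u⁻¹ * σ x * u) * u = c * x * c⁻¹ := by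
    intro x
    rw [map_mul, map_mul, hσ, map_inv, hc]; group
  have hcp : c ∈ Up θ hθ hne p := by
    rw [hc]
    have h1 := hσUp p u hu
    rw [hp] at h1
    exact inv_mem (mul_mem h1 hu)
  have hc1 : c = 1 := by
    by_contra hcon
    obtain ⟨k, hk⟩ := exists_to θ hθ p1
    obtain ⟨w, hw, hw1⟩ := U_ne_bot θ hθ hne
    have hw' : k * w * k⁻¹ ∈ Up θ hθ hne p1 := by
      have := Up_conj θ hθ hne (p := inf θ) (g := w) (by rw [Up_inf]; exact hw) k
      rwa [hk] at this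
    obtain ⟨v, hv⟩ : ∃ v, v = k * w * k⁻¹ := ⟨_, rfl⟩
    have hv1 : v ≠ 1 := by
      rw [hv]; intro h
      apply hw1
      have : w = k⁻¹ * (k * w * k⁻¹) * k := by group
      rw [this, h]; group
    rw [← hv] at hw'
    have h3 : c • p1 = p1 := by
      by_contra hcon2
      have h4 : c * v * c⁻¹ ∈ Up θ hθ hne p1 := by
        rw [← e3]; exact e2 _ (e2 _ hw')
      have h5 := Up_disjoint θ hθ hne (Up_conj θ hθ hne hw' c) h4 hcon2
      apply hv1
      have : v = c⁻¹ * (c * v * c⁻¹) * c := by group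
      rw [this, h5]; group
    exact hp1 (Up_unique θ hθ hne hcp hcon h3)
  obtain ⟨k, hk1, hk2⟩ := exists_pair θ hθ hp1.symm
  let τ : MulAut (Gz θ) := MulAut.conj (k⁻¹ * u⁻¹) * σ * MulAut.conj k
  have hτ : ∀ g, τ g = k⁻¹ * (u⁻¹ * σ (k * g * k⁻¹) * u) * k := by
    intro g
    show (k⁻¹ * u⁻¹) * σ (k * g * k⁻¹) * (k⁻¹ * u⁻¹)⁻¹ = _
    group
  have hid := fix_all θ hθ hne hF τ (by
      intro g
      rw [hτ, hτ]
      have : k * (k⁻¹ * (u⁻¹ * σ (k * g * k⁻¹) * u) * k) * k⁻¹ = u⁻¹ * σ (k * g * k⁻¹) * u := by group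
      rw [this, e3, hc1]; group) (by
      intro g hg
      rw [hτ]
      have h1 := Up_conj θ hθ hne hg k
      rw [hk1] at h1
      have h2 := Up_conj θ hθ hne (e1 _ h1) k⁻¹
      rwa [← hk1, inv_smul_smul, inv_inv] at h2) (by
      intro g hg
      rw [hτ]
      have h1 := Up_conj θ hθ hne hg k
      rw [hk2] at h1
      have h2 := Up_conj θ hθ hne (e2 _ h1) k⁻¹
      rwa [← hk2, inv_smul_smul, inv_inv] at h2)
  have hfin : ∀ g, σ g = u * g * u⁻¹ := by
    intro g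
    have h1 := hid (k⁻¹ * g * k)
    rw [hτ] at h1
    have h2 : k * (k⁻¹ * g * k) * k⁻¹ = g := by group
    rw [h2] at h1
    have h3 : u⁻¹ * σ g * u = g := by
      have h4 : u⁻¹ * σ g * u = k * (k⁻¹ * (u⁻¹ * σ g * u) * k) * k⁻¹ := by group
      rw [h4, h1]; group
    calc σ g = u * (u⁻¹ * σ g * u) * u⁻¹ := by group
      _ = _ := by rw [h3]
  refine ⟨u, ?_, hfin⟩
  have h1 := hfin u
  rw [mul_inv_cancel_right] at h1
  rw [hc1, h1] at hc
  rw [← inv_inv (u * u), ← hc, inv_one]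

end finite

end Cfsg.Agent.Lib.H34ZSz
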