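import Mathlib

/-!
# S3105, piece C4O: the linear algebra
-/

set_option autoImplicit false

namespace Cfsg.Agent.Lib.H37C4O

theorem alg_fix {V : Type*} [AddCommGroup V] [Finite V] (hV : Nat.card V = 16) (h2 : ∀ v : V, v + v = 0) (μ : V) (hμ : μ ≠ 0)
    (c : V →+ V) (hc4 : ∀ v, c (c (c (c v))) = v) (hcμ : c μ = μ) (K2 : AddSubgroup V) (hK2 : ∀ v, v ∈ K2 ↔ c (c v) = v)
    (k2 : Nat.card K2 = 4) : AddSubgroup.zmultiples μ = (c - AddMonoidHom.id V).ker ∧ Nat.card (c - AddMonoidHom.id V).ker = 2 := by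
  have hneg : ∀ v : V, -v = v := fun v => neg_eq_of_add_eq_zero_left (h2 v)
  set f : V →+ V := c - AddMonoidHom.id V with hf
  have hfv : ∀ v, f v = c v - v := fun v => rfl
  have hker : ∀ v, v ∈ f.ker ↔ c v = v := by
    intro v
    rw [AddMonoidHom.mem_ker, hfv, sub_eq_zero]
  have hle : f.ker ≤ K2 := by
    intro v hv
    rw [hker] at hv
    rw [hK2, hv, hv]
  have hcard := f.ker.card_mul_index
  rw [AddSubgroup.index_ker, hV] at hcard
  have hμo : addOrderOf μ = 2 := addOrderOf_eq_prime (by rw [two_nsmul]; exact h2 μ) hμ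
  have hzm : AddSubgroup.zmultiples μ ≤ f.ker := AddSubgroup.zmultiples_le_of_mem ((hker μ).2 hcμ)
  have hzc : Nat.card (AddSubgroup.zmultiples μ) = 2 := by rw [Nat.card_zmultiples, hμo]
  have hne4 : Nat.card f.ker ≠ 4 := by
    intro h
    have hE : f.ker = K2 := AddSubgroup.eq_of_le_of_card_ge hle (by rw [h, k2])
    have hall : ∀ v, v ∈ K2 := by
      intro v
      have e1 : c (c v) - v ∈ K2 := by
        rw [hK2, map_sub, map_sub, hc4, ← neg_sub, hneg]
      rw [← hE, hker, map_sub] at e1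
      have e2 : c v - v ∈ K2 := by
        rw [hK2, map_sub, map_sub]
        have e3 : c (c (c v)) - c (c v) = c v - v := by
          have e4 : c (c (c v)) = c (c v) - v + c v := by rw [← e1]; abel
          rw [e4]; abel
        exact e3
      rw [← hE, hker, map_sub] at e2
      rw [hK2]
      have e5 : c (c v) = c v - v + c v := by rw [← e2]; abel
      rw [e5, sub_add_eq_add_sub, h2, zero_sub, hneg]
    have h5 : Nat.card K2 = Nat.card V := by
      rw [(AddSubgroup.eq_top_iff' K2).2 hall, AddSubgroup.card_top]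
    omega
  have hk : Nat.card f.ker = 2 := by
    have h5 : Nat.card f.ker ∣ 16 := Dvd.intro _ hcard
    have h6 : Nat.card f.ker ≤ 4 := by
      rw [← k2]; exact Nat.card_le_card_of_injective _ (AddSubgroup.inclusion_injective hle)
    have h7 : 2 ≤ Nat.card f.ker := by
      rw [← hzc]; exact Nat.card_le_card_of_injective _ (AddSubgroup.inclusion_injective hzm)
    interval_cases h8 : Nat.card f.ker
    · rfl
    · omega
    · exact absurd rfl hne4
  have hkz : AddSubgroup.zmultiples μ = f.ker := AddSubgroup.eq_of_le_of_card_ge hzm (by rw [hk, hzc])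
  exact ⟨hkz, hk⟩

theorem algebra {V : Type*} [AddCommGroup V] [Finite V] (hV : Nat.card V = 16) (h2 : ∀ v : V, v + v = 0) (μ : V) (hμ : μ ≠ 0)
    (c c' s : V →+ V) (hcc : ∀ v, c (c' v) = v) (hcc' : ∀ v, c' (c v) = v) (hc4 : ∀ v, c (c (c (c v))) = v) (hs2 : ∀ v, s (s v) = v)
    (hsc : ∀ v, s (c v) = c' (s v)) (hcμ : c μ = μ) (K2 : AddSubgroup V) (hK2 : ∀ v, v ∈ K2 ↔ c (c v) = v) (k2 : Nat.card K2 = 4)
    (hs : ∀ v, s v = v → ∃ x, s x - x = v) (hcs : ∀ v, c (s v) = v → ∃ x, c (s x) - x = v)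
    (w t t' : V) (hw : w + c w + c (c w) + c (c (c w)) = μ) (ht : s t = t) (ht' : c (s t') = t')
    (h3 : s w = c' w + c' t + t) (h4 : s w = w + c' t' + t') : False := by
  have hneg : ∀ v : V, -v = v := fun v => neg_eq_of_add_eq_zero_left (h2 v)
  set f : V →+ V := c - AddMonoidHom.id V with hf
  have hfv : ∀ v, f v = c v - v := fun v => rfl
  have hker : ∀ v, v ∈ f.ker ↔ c v = v := by
    intro v
    rw [AddMonoidHom.mem_ker, hfv, sub_eq_zero]
  have hcard := f.ker.card_mul_index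
  rw [AddSubgroup.index_ker, hV] at hcard
  obtain ⟨hkz, hk⟩ := alg_fix hV h2 μ hμ c hc4 hcμ K2 hK2 k2
  rw [← hf] at hkz hk
  rw [hk] at hcard
  have hr : Nat.card f.range = 8 := by omega
  have hidx : f.range.index = 2 := by
    have h5 := f.range.card_mul_index
    rw [hr, hV] at h5
    omega
  have hmemU : ∀ v, c v - v ∈ f.range := fun v => ⟨v, rfl⟩
  have hsU : ∀ x ∈ f.range, s x ∈ f.range := by
    rintro _ ⟨y, rfl⟩
    rw [hfv, map_sub, hsc, ← hneg (c' (s y) - s y), neg_sub]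
    have h5 : s y - c' (s y) = c (c' (s y)) - c' (s y) := by rw [hcc]
    rw [h5]; exact hmemU _
  have hsx : ∀ x, s x - x ∈ f.range := by
    intro x
    rw [sub_eq_add_neg, hneg, AddSubgroup.add_mem_iff_of_index_two hidx]
    refine ⟨fun h => ?_, hsU x⟩
    rw [← hs2 x]; exact hsU _ h
  have hcsx : ∀ x, c (s x) - x ∈ f.range := by
    intro x
    have h5 : c (s x) - x = (c (s x - x) - (s x - x)) + (s x - x) + (c x - x) := by
      rw [map_sub]; abel
    rw [h5]
    exact f.range.add_mem (f.range.add_mem (hmemU _) (hsx x)) (hmemU x)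
  have htU : t ∈ f.range := by
    obtain ⟨x, hx⟩ := hs t ht
    rw [← hx]; exact hsx x
  have htU' : t' ∈ f.range := by
    obtain ⟨x, hx⟩ := hcs t' ht'
    rw [← hx]; exact hcsx x
  have hμU : μ ∈ f.range := by
    refine ⟨w + c (c w), ?_⟩
    rw [hfv, map_add, ← hw, sub_eq_add_neg, hneg]
    abel
  set q := w + t + t' with hq
  have hqc : c' q = q := by
    have h5 : c' w + c' t + t = w + c' t' + t' := by rw [← h3, h4]
    have h6 : c' q = c' w + c' t + t - t + c' t' := by rw [hq, map_add, map_add]; abel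
    rw [h6, h5]
    have h7 : w + c' t' + t' - t + c' t' = w + t' - t + (c' t' + c' t') := by abel
    rw [h7, h2, add_zero, sub_eq_add_neg, hneg, hq]; abel
  have hqU : q ∈ f.range := by
    have h5 : q ∈ f.ker := by
      rw [hker]
      conv_lhs => rw [← hqc]
      exact hcc q
    rw [← hkz] at h5
    exact (AddSubgroup.zmultiples_le_of_mem hμU) h5
  have hwU : w ∈ f.range := by
    have h5 : w = q - t - t' := by rw [hq]; abel
    rw [h5]
    exact f.range.sub_mem (f.range.sub_mem hqU htU) htU'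
  obtain ⟨y, hy⟩ := hwU
  apply hμ
  rw [← hw, ← hy, hfv, map_sub, map_sub, map_sub, hc4]
  abel

/-- multiplicative forms -/
theorem algM_fix {A : Type*} [CommGroup A] [Finite A] (hV : Nat.card A = 16) (h2 : ∀ v : A, v * v = 1) (μ : A) (hμ : μ ≠ 1)
    (c : A →* A) (hc4 : ∀ v, c (c (c (c v))) = v) (hcμ : c μ = μ) (K2 : Subgroup A) (hK2 : ∀ v, v ∈ K2 ↔ c (c v) = v)
    (k2 : Nat.card K2 = 4) : ∀ v : A, c v = v → ∃ k : ℤ, μ ^ k = v := by
  intro v hv
  have h := (alg_fix (V := Additive A) hV h2 (Additive.ofMul μ) hμ (MonoidHom.toAdditive c) hc4 hcμ (Subgroup.toAddSubgroup K2) hK2 k2).1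
  have h1 : Additive.ofMul v ∈ (MonoidHom.toAdditive c - AddMonoidHom.id (Additive A)).ker := by
    rw [AddMonoidHom.mem_ker, AddMonoidHom.sub_apply, sub_eq_zero]
    exact hv
  rw [← h, AddSubgroup.mem_zmultiples_iff] at h1
  exact h1

theorem algM {A : Type*} [CommGroup A] [Finite A] (hV : Nat.card A = 16) (h2 : ∀ v : A, v * v = 1) (μ : A) (hμ : μ ≠ 1)
    (c c' s : A →* A) (hcc : ∀ v, c (c' v) = v) (hcc' : ∀ v, c' (c v) = v) (hc4 : ∀ v, c (c (c (c v))) = v) (hs2 : ∀ v, s (s v) = v)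
    (hsc : ∀ v, s (c v) = c' (s v)) (hcμ : c μ = μ) (K2 : Subgroup A) (hK2 : ∀ v, v ∈ K2 ↔ c (c v) = v) (k2 : Nat.card K2 = 4)
    (hs : ∀ v, s v = v → ∃ x, s x / x = v) (hcs : ∀ v, c (s v) = v → ∃ x, c (s x) / x = v)
    (w t t' : A) (hw : w * c w * c (c w) * c (c (c w)) = μ) (ht : s t = t) (ht' : c (s t') = t')
    (h3 : s w = c' w * c' t * t) (h4 : s w = w * c' t' * t') : False :=
  algebra (V := Additive A) hV h2 (Additive.ofMul μ) hμ (MonoidHom.toAdditive c) (MonoidHom.toAdditive c') (MonoidHom.toAdditive s)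
    hcc hcc' hc4 hs2 hsc hcμ (Subgroup.toAddSubgroup K2) hK2 k2 hs hcs (Additive.ofMul w) (Additive.ofMul t) (Additive.ofMul t')
    hw ht ht' h3 h4

end Cfsg.Agent.Lib.H37C4O
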