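import Cfsg.Agent.Lib.H37C4Alg

/-!
# S3105, piece C4O: the linear algebra for a normal subgroup
-/

set_option autoImplicit false

namespace Cfsg.Agent.Lib.H37C4O

open scoped IsMulCommutative

variable {Y : Type*} [Group Y] [Finite Y] (Ω : Subgroup Y) [Ω.Normal] [IsMulCommutative ↥Ω]

/-- conjugation -/
noncomputable def cj (y : Y) : ↥Ω →* ↥Ω := (MulAut.conjNormal y : ↥Ω ≃* ↥Ω).toMonoidHom

theorem cj_val (y : Y) (v : ↥Ω) : ((cj Ω y v : ↥Ω) : Y) = y * v * y⁻¹ := MulAut.conjNormal_apply y v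

variable (cΩ : Nat.card Ω = 16) (sqΩ : ∀ x ∈ Ω, x ^ 2 = 1) {m : Y} (hm : m ∈ Ω) (hm1 : m ≠ 1) {c s : Y}
  (hc4 : ∀ x ∈ Ω, c ^ 4 * x * (c ^ 4)⁻¹ = x) (hcm : c * m * c⁻¹ = m) (K2 : Subgroup ↥Ω)
  (hK2 : ∀ v : ↥Ω, v ∈ K2 ↔ c ^ 2 * (v : Y) * (c ^ 2)⁻¹ = v) (k2 : Nat.card K2 = 4)

include cΩ sqΩ hm hm1 hc4 hcm K2 hK2 k2

theorem fixM : ∀ v ∈ Ω, c * v * c⁻¹ = v → v ∈ Subgroup.zpowers m := by
  intro v hv h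
  obtain ⟨k, hk⟩ := algM_fix (A := ↥Ω) cΩ (fun v => Subtype.ext (by
      have := sqΩ v v.2
      rw [pow_two] at this; exact this)) ⟨m, hm⟩ (fun h => hm1 (congrArg Subtype.val h)) (cj Ω c)
    (fun v => Subtype.ext (by
      rw [cj_val, cj_val, cj_val, cj_val]
      have h7 : (c : Y) ^ 4 = c * c * c * c := by rw [pow_succ, pow_succ, pow_two]
      conv_rhs => rw [← hc4 v v.2, h7]
      group))
    (Subtype.ext (by rw [cj_val]; exact hcm)) K2 (fun v => by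
      rw [hK2, Subtype.ext_iff, cj_val, cj_val]
      have h1 : c * (c * (v : Y) * c⁻¹) * c⁻¹ = c ^ 2 * v * (c ^ 2)⁻¹ := by rw [pow_two]; group
      rw [h1]) k2 ⟨v, hv⟩ (Subtype.ext (by rw [cj_val]; exact h))
  exact ⟨k, congrArg Subtype.val hk⟩

theorem coreM (hs2 : ∀ x ∈ Ω, s ^ 2 * x * (s ^ 2)⁻¹ = x) (hsc : ∀ x ∈ Ω, s * (c * x * c⁻¹) * s⁻¹ = c⁻¹ * (s * x * s⁻¹) * c⁻¹⁻¹)
    (hs : ∀ v ∈ Ω, s * v * s⁻¹ * v⁻¹ = 1 → ∃ x ∈ Ω, s * x * s⁻¹ * x⁻¹ = v)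
    (hcs : ∀ v ∈ Ω, (c * s) * v * (c * s)⁻¹ * v⁻¹ = 1 → ∃ x ∈ Ω, (c * s) * x * (c * s)⁻¹ * x⁻¹ = v)
    {w t t' : Y} (hwΩ : w ∈ Ω) (htΩ : t ∈ Ω) (htΩ' : t' ∈ Ω)
    (hw : (c * (c * (c * w * c⁻¹) * c⁻¹) * c⁻¹) * (c * (c * w * c⁻¹) * c⁻¹) * (c * w * c⁻¹) * w = m)
    (ht : s * t * s⁻¹ = t) (ht' : (c * s) * t' * (c * s)⁻¹ = t')
    (h3 : s * w * s⁻¹ = (c⁻¹ * w * c) * (c⁻¹ * t * c) * t⁻¹) (h5 : s * w * s⁻¹ = (c⁻¹ * t' * c) * t'⁻¹ * w) : False := by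
  have invΩ : ∀ x ∈ Ω, x⁻¹ = x := fun x hx => inv_eq_of_mul_eq_one_left (by rw [← pow_two]; exact sqΩ x hx)
  refine algM (A := ↥Ω) cΩ (fun v => Subtype.ext (by
      have := sqΩ v v.2
      rw [pow_two] at this; exact this)) ⟨m, hm⟩ (fun h => hm1 (congrArg Subtype.val h)) (cj Ω c) (cj Ω c⁻¹) (cj Ω s) ?_ ?_ ?_ ?_ ?_
      (Subtype.ext (by rw [cj_val]; exact hcm)) K2 ?_ k2 ?_ ?_ ⟨w, hwΩ⟩ ⟨t, htΩ⟩ ⟨t', htΩ'⟩ ?_ ?_ ?_ ?_ ?_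
  · intro v; apply Subtype.ext; rw [cj_val, cj_val]; group
  · intro v; apply Subtype.ext; rw [cj_val, cj_val]; group
  · intro v
    apply Subtype.ext
    rw [cj_val, cj_val, cj_val, cj_val]
    have h7 : (c : Y) ^ 4 = c * c * c * c := by rw [pow_succ, pow_succ, pow_two]
    conv_rhs => rw [← hc4 v v.2, h7]
    group
  · intro v
    apply Subtype.ext
    rw [cj_val, cj_val]
    conv_rhs => rw [← hs2 v v.2, pow_two]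
    group
  · intro v
    apply Subtype.ext
    rw [cj_val, cj_val, cj_val, cj_val]
    exact hsc v v.2
  · intro v
    rw [hK2, Subtype.ext_iff, cj_val, cj_val]
    have h1 : c * (c * (v : Y) * c⁻¹) * c⁻¹ = c ^ 2 * v * (c ^ 2)⁻¹ := by rw [pow_two]; group
    rw [h1]
  · intro v hv
    have h6 := congrArg Subtype.val hv
    rw [cj_val] at h6
    obtain ⟨x, hx, hx1⟩ := hs _ v.2 (by rw [h6, mul_inv_cancel])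
    refine ⟨⟨x, hx⟩, Subtype.ext ?_⟩
    rw [← hx1, div_eq_mul_inv]
    show ((cj Ω s ⟨x, hx⟩ : ↥Ω) : Y) * x⁻¹ = _
    rw [cj_val]
  · intro v hv
    have h6 := congrArg Subtype.val hv
    rw [cj_val, cj_val] at h6
    obtain ⟨x, hx, hx1⟩ := hcs _ v.2 (by
      calc c * s * (v : Y) * (c * s)⁻¹ * (v : Y)⁻¹ = (c * (s * (v : Y) * s⁻¹) * c⁻¹) * (v : Y)⁻¹ := by group
        _ = 1 := by rw [h6, mul_inv_cancel])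
    refine ⟨⟨x, hx⟩, Subtype.ext ?_⟩
    rw [← hx1, div_eq_mul_inv]
    show ((cj Ω c (cj Ω s ⟨x, hx⟩) : ↥Ω) : Y) * x⁻¹ = _
    rw [cj_val, cj_val]; group
  · rw [mul_comm, mul_comm (_ * _) (cj Ω c (cj Ω c _)), mul_comm (⟨w, hwΩ⟩ : ↥Ω), ← mul_assoc, ← mul_assoc]
    apply Subtype.ext
    show ((cj Ω c (cj Ω c (cj Ω c ⟨w, hwΩ⟩)) : ↥Ω) : Y) * (cj Ω c (cj Ω c ⟨w, hwΩ⟩) : ↥Ω) * (cj Ω c ⟨w, hwΩ⟩ : ↥Ω) * w = m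
    rw [cj_val, cj_val, cj_val]
    exact hw
  · apply Subtype.ext; rw [cj_val]; exact ht
  · apply Subtype.ext; rw [cj_val, cj_val]
    show c * (s * t' * s⁻¹) * c⁻¹ = t'
    calc c * (s * t' * s⁻¹) * c⁻¹ = (c * s) * t' * (c * s)⁻¹ := by group
      _ = t' := ht'
  · apply Subtype.ext
    rw [cj_val]
    show s * w * s⁻¹ = (cj Ω c⁻¹ ⟨w, hwΩ⟩ : ↥Ω) * (cj Ω c⁻¹ ⟨t, htΩ⟩ : ↥Ω) * t
    rw [cj_val, cj_val, h3]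
    show c⁻¹ * w * c * (c⁻¹ * t * c) * t⁻¹ = c⁻¹ * w * c⁻¹⁻¹ * (c⁻¹ * t * c⁻¹⁻¹) * t
    rw [invΩ t htΩ, inv_inv]
  · rw [mul_comm (⟨w, hwΩ⟩ : ↥Ω), mul_assoc, mul_comm (⟨w, hwΩ⟩ : ↥Ω), ← mul_assoc]
    apply Subtype.ext
    rw [cj_val]
    show s * w * s⁻¹ = (cj Ω c⁻¹ ⟨t', htΩ'⟩ : ↥Ω) * t' * w
    rw [cj_val, h5]
    show c⁻¹ * t' * c * t'⁻¹ * w = c⁻¹ * t' * c⁻¹⁻¹ * t' * w
    rw [invΩ t' htΩ', inv_inv]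

end Cfsg.Agent.Lib.H37C4O
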