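import Cfsg.Agent.Lib.H64LA
import Cfsg.Agent.Lib.H37C4Mul

/-!
# S3105, piece C4O (odd case)
-/

set_option autoImplicit false

namespace Cfsg.Agent.Lib.H37C4O

open Subgroup Cfsg Cfsg.Agent.Lib.H64L

universe u v
variable {Y : Type u} {L : Type v} [Group Y] [Group L]

/-- commutator homomorphism -/
def Dh (Ω : Subgroup Y) (hn : Ω.Normal) (hab : ∀ x ∈ Ω, ∀ y ∈ Ω, x * y = y * x) (y : Y) : ↥Ω →* ↥Ω where
  toFun x := ⟨y * (x : Y) * y⁻¹ * (x : Y)⁻¹, Ω.mul_mem (hn.conj_mem _ x.2 y) (Ω.inv_mem x.2)⟩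
  map_one' := by ext; simp
  map_mul' a b := by
    ext
    show y * ((a : Y) * b) * y⁻¹ * ((a : Y) * b)⁻¹ = (y * a * y⁻¹ * (a : Y)⁻¹) * (y * b * y⁻¹ * (b : Y)⁻¹)
    have h1 : (a : Y)⁻¹ * (y * b * y⁻¹ * (b : Y)⁻¹) = (y * b * y⁻¹ * (b : Y)⁻¹) * (a : Y)⁻¹ :=
      hab _ (Ω.inv_mem a.2) _ (Ω.mul_mem (hn.conj_mem _ b.2 y) (Ω.inv_mem b.2))
    rw [mul_assoc (y * (a : Y) * y⁻¹), h1]
    group

theorem card_ker_range {A : Type*} [Group A] [Finite A] (f : A →* A) : Nat.card f.ker * Nat.card f.range = Nat.card A := by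
  rw [← Subgroup.index_ker, Subgroup.card_mul_index]

section

variable [Finite Y] {π : Y →* L} {Ω : Subgroup Y} {m z : Y}

theorem two (C : C48 π Ω m) {x y : Y} (hx : x ∈ π.ker) (hx' : x ∉ Ω) (hy : y ∈ π.ker) (hy' : y ∉ Ω) : x * y ∈ Ω := by
  have h1 := (Ω.subgroupOf π.ker).card_mul_index
  rw [Nat.card_congr (Subgroup.subgroupOfEquivOfLe C.le).toEquiv, C.cP, C.cΩ] at h1
  have h2 : (Ω.subgroupOf π.ker).index = 2 := by omega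
  have h3 := Subgroup.mul_mem_iff_of_index_two h2 (a := (⟨x, hx⟩ : π.ker)) (b := ⟨y, hy⟩)
  rw [Subgroup.mem_subgroupOf, Subgroup.mem_subgroupOf, Subgroup.mem_subgroupOf] at h3
  exact h3.2 ⟨fun h => absurd h hx', fun h => absurd h hy'⟩

theorem cnt (C : C48 π Ω m) {p x : Y} (hp : p ∈ π.ker) (hx : x ∈ Ω) : p * x * p⁻¹ * x⁻¹ = 1 := by
  rw [C.ab p hp x (C.le hx)]; group

theorem abΩ (C : C48 π Ω m) : ∀ x ∈ Ω, ∀ y ∈ Ω, x * y = y * x := fun x hx y hy => C.ab x (C.le hx) y (C.le hy)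

/-- squares of lifts of involutions -/
theorem claim1 (C : C48 π Ω m) {c : Y} (h4 : c ^ 4 ∉ Ω) (hc : orderOf (π c) = 4)
    (hsqrt : ∀ t : L, orderOf t = 2 → ∃ c : L, orderOf c = 4 ∧ c ^ 2 = t)
    (hconj4 : ∀ c d : L, orderOf c = 4 → orderOf d = 4 → ∃ g : L, g * c * g⁻¹ = d) {g : Y} (hg : orderOf (π g) = 2) :
    g ^ 2 ∈ π.ker ∧ g ^ 2 ∉ Ω := by
  constructor
  · rw [MonoidHom.mem_ker, map_pow, ← hg, pow_orderOf_eq_one]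
  · intro h
    obtain ⟨l, hl, hl2⟩ := hsqrt _ hg
    obtain ⟨k, hk⟩ := hconj4 _ _ hc hl
    obtain ⟨h', rfl⟩ := C.surj k
    set d := h' * c * h'⁻¹ with hd
    have hd4 : d ^ 4 ∉ Ω := by
      intro h1
      apply h4
      have h2 : c ^ 4 = h'⁻¹ * d ^ 4 * h'⁻¹⁻¹ := by rw [hd, conj_pow]; group
      rw [h2]
      exact C.nΩ.conj_mem _ h1 _
    have hπd : π d = l := by rw [hd, map_mul, map_mul, map_inv, hk]
    set q := (d ^ 2)⁻¹ * g with hq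
    have hqk : q ∈ π.ker := by
      rw [MonoidHom.mem_ker, hq, map_mul, map_inv, map_pow, hπd, hl2, inv_mul_cancel]
    have hq' : (d ^ 2)⁻¹ * q * (d ^ 2)⁻¹⁻¹ ∈ π.ker := (MonoidHom.normal_ker π).conj_mem _ hqk _
    have h5 : ((d ^ 2)⁻¹ * q * (d ^ 2)⁻¹⁻¹) * q ∈ Ω := by
      by_cases h6 : q ∈ Ω
      · exact Ω.mul_mem (C.nΩ.conj_mem _ h6 _) h6
      · apply two C hq' _ hqk h6
        intro h7
        apply h6
        have h8 : q = d ^ 2 * ((d ^ 2)⁻¹ * q * (d ^ 2)⁻¹⁻¹) * (d ^ 2)⁻¹ := by group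
        rw [h8]
        exact C.nΩ.conj_mem _ h7 _
    have h6 : g ^ 2 = d ^ 4 * (((d ^ 2)⁻¹ * q * (d ^ 2)⁻¹⁻¹) * q) := by
      have h7 : g = d ^ 2 * q := by rw [hq]; group
      have h8 : (d ^ 2 * q) ^ 2 = d ^ 4 * (((d ^ 2)⁻¹ * q * (d ^ 2)⁻¹⁻¹) * q) := by
        have h9 : (d : Y) ^ 4 = d ^ 2 * d ^ 2 := by rw [← pow_add]
        rw [h9, pow_two (d ^ 2 * q)]; group
      rw [← h8, ← h7]
    rw [h6] at h
    exact hd4 ((Ω.mul_mem_cancel_right h5).1 h)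

theorem nat16 (C : C48 π Ω m) (hz : z ∈ π.ker) (hzΩ : z ∉ Ω) (hzc : ∀ g : Y, g * z = z * g) : Nat16 π ⊥ Ω where
  nK := inferInstance
  nW := C.nΩ
  le := bot_le
  card := by rw [C.cΩ]; simp
  sq := fun x hx => by rw [Subgroup.mem_bot]; exact C.sqΩ x hx
  triv := fun p hp x hx => by rw [Subgroup.mem_bot]; exact cnt C hp hx
  nt := by
    obtain ⟨g, x, hx, h1, h2⟩ := C.nt
    by_cases hxΩ : x ∈ Ω
    · exact ⟨g, x, hxΩ, by rw [Subgroup.mem_bot]; exact h1⟩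
    · refine ⟨g, z * x, two C hz hzΩ hx hxΩ, ?_⟩
      rw [Subgroup.mem_bot]
      intro h
      apply h1
      rw [← h]
      have h3 : g * (z * x) * g⁻¹ * (z * x)⁻¹ = (g * z) * x * g⁻¹ * x⁻¹ * z⁻¹ := by group
      rw [h3, hzc g]
      have h4 : z * g * x * g⁻¹ * x⁻¹ * z⁻¹ = z * (g * x * g⁻¹ * x⁻¹) * z⁻¹ := by group
      rw [h4, ← hzc]; group

theorem mem_zp (hm2 : m ^ 2 = 1) {x : Y} (hx : x ∈ Subgroup.zpowers m) : x = 1 ∨ x = m := by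
  have ho : orderOf m ∣ 2 := orderOf_dvd_of_pow_eq_one hm2
  obtain ⟨k, rfl⟩ := hx
  rcases Int.even_or_odd' k with ⟨j, rfl | rfl⟩
  · left
    show m ^ (2 * j) = 1
    rw [zpow_mul, zpow_ofNat, hm2, one_zpow]
  · right
    show m ^ (2 * j + 1) = m
    rw [zpow_add, zpow_mul, zpow_ofNat, hm2, one_zpow, one_mul, zpow_one]

theorem card_zp (hm2 : m ^ 2 = 1) (hm1 : m ≠ 1) : Nat.card (Subgroup.zpowers m) = 2 := by
  rw [Nat.card_zpowers, orderOf_eq_prime hm2 hm1]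

theorem normal_zp (C : C48 π Ω m) : (Subgroup.zpowers m).Normal := by
  constructor
  intro x hx g
  rcases mem_zp (C.sqΩ m C.mΩ) hx with rfl | rfl
  · rw [mul_one, mul_inv_cancel]; exact Subgroup.one_mem _
  · rw [C.mc g, mul_inv_cancel_right]; exact Subgroup.mem_zpowers _

section

variable (C : C48 π Ω m) (hz : z ∈ π.ker) (hzΩ : z ∉ Ω) (hzc : ∀ g : Y, g * z = z * g)
  (hfaith : ∀ K W : Subgroup Y, Nat8 π K W → ∀ g : Y, (∀ x ∈ W, g * x * g⁻¹ * x⁻¹ ∈ K) → g ∈ π.ker)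
  (hirr : ∀ K W : Subgroup Y, Nat8 π K W → ∀ R : Subgroup Y, R.Normal → K ≤ R → R ≤ W → R = K ∨ R = W)

include C hirr in
theorem m_not {N : Subgroup Y} (hN : Nat8 π ⊥ N) (hm : m ∈ N) : False := by
  have h1 := card_zp (C.sqΩ m C.mΩ) C.m1
  rcases hirr _ _ hN (Subgroup.zpowers m) (normal_zp C) bot_le (Subgroup.zpowers_le.2 hm) with h | h
  · exact C.m1 (Subgroup.zpowers_eq_bot.1 h)
  · have h2 := hN.card
    rw [← h, h1] at h2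
    simp at h2

include C hirr in
theorem m_mem {Z : Subgroup Y} (hZ : Nat8 π Z Ω) : m ∈ Z := by
  by_contra hm
  haveI := hZ.nK
  haveI := normal_zp C
  rcases hirr _ _ hZ (Z ⊔ Subgroup.zpowers m) inferInstance le_sup_left (sup_le hZ.le (Subgroup.zpowers_le.2 C.mΩ)) with h | h
  · apply hm
    rw [← h]; exact (le_sup_right : Subgroup.zpowers m ≤ _) (Subgroup.mem_zpowers m)
  · obtain ⟨g, x, hx, h1⟩ := hZ.nt
    apply h1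
    rw [← h, Subgroup.mem_sup_of_normal_right] at hx
    obtain ⟨y, hy, k, hk, rfl⟩ := hx
    have h2 : g * k = k * g := by
      rcases mem_zp (C.sqΩ m C.mΩ) hk with rfl | rfl
      · rw [mul_one, one_mul]
      · exact C.mc g
    have h3 : g * (y * k) * g⁻¹ * (y * k)⁻¹ = (g * y * g⁻¹) * (g * k * g⁻¹ * k⁻¹) * y⁻¹ := by group
    rw [h3, h2]
    have h4 : g * y * g⁻¹ * (k * g * g⁻¹ * k⁻¹) * y⁻¹ = g * y * g⁻¹ * y⁻¹ := by group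
    rw [h4]
    exact Z.mul_mem (hZ.nK.conj_mem _ hy g) (Z.inv_mem hy)

include C hirr in
theorem Z_eq {Z : Subgroup Y} (hZ : Nat8 π Z Ω) (hc : Nat.card Z = 2) : Z = Subgroup.zpowers m := by
  symm
  apply Subgroup.eq_of_le_of_card_ge (Subgroup.zpowers_le.2 (m_mem C hirr hZ))
  rw [hc, card_zp (C.sqΩ m C.mΩ) C.m1]

include C hz hzΩ hzc hirr in
/-- case (A1) -/
theorem caseA1 {N : Subgroup Y} (hN : Nat8 π ⊥ N) (hle : N ≤ Ω) (hsup : N ⊔ Subgroup.zpowers m = Ω)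
    {c s : Y} (hc : orderOf (π c) = 4) (hs : orderOf (π s) = 2) (hsc : π s * π c * (π s)⁻¹ = (π c)⁻¹)
    (hsq : ∀ g : Y, orderOf (π g) = 2 → g ^ 2 ∈ π.ker ∧ g ^ 2 ∉ Ω) : False := by
  haveI := hN.nW
  haveI := normal_zp C
  have hPN : ∀ y : Y, ∀ p ∈ π.ker, y * p * y⁻¹ * p⁻¹ ∈ N := by
    intro y p hp
    have h1 : ∀ x ∈ Ω, y * x * y⁻¹ * x⁻¹ ∈ N := by
      intro x hx
      rw [← hsup, Subgroup.mem_sup_of_normal_right] at hx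
      obtain ⟨n, hn, k, hk, rfl⟩ := hx
      have h2 : y * k = k * y := by
        rcases mem_zp (C.sqΩ m C.mΩ) hk with rfl | rfl
        · rw [mul_one, one_mul]
        · exact C.mc y
      have h3 : y * (n * k) * y⁻¹ * (n * k)⁻¹ = (y * n * y⁻¹) * (y * k * y⁻¹ * k⁻¹) * n⁻¹ := by group
      rw [h3, h2]
      have h4 : y * n * y⁻¹ * (k * y * y⁻¹ * k⁻¹) * n⁻¹ = y * n * y⁻¹ * n⁻¹ := by group
      rw [h4]
      exact N.mul_mem (hN.nW.conj_mem _ hn y) (N.inv_mem hn)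
    by_cases hpΩ : p ∈ Ω
    · exact h1 p hpΩ
    · have h2 := h1 _ (two C hz hzΩ hp hpΩ)
      have h3 : y * (z * p) * y⁻¹ * (z * p)⁻¹ = (y * z) * p * y⁻¹ * p⁻¹ * z⁻¹ := by group
      rw [h3, hzc] at h2
      have h4 : z * y * p * y⁻¹ * p⁻¹ * z⁻¹ = z * (y * p * y⁻¹ * p⁻¹) * z⁻¹ := by group
      rw [h4, ← hzc, mul_inv_cancel_right] at h2
      exact h2
  set a := c ^ 2 with ha
  have hσ2 : π s * π s = 1 := by rw [← pow_two, ← hs, pow_orderOf_eq_one]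
  have hγ4 : π c ^ 4 = 1 := by rw [← hc, pow_orderOf_eq_one]
  have hγ2 : π c ^ 2 ≠ 1 := by
    intro h
    have := orderOf_dvd_of_pow_eq_one h
    rw [hc] at this; omega
  have hπa : orderOf (π a) = 2 := by
    rw [ha, map_pow]
    exact orderOf_eq_prime (by rw [← pow_mul]; exact hγ4) hγ2
  have hconj2 : π s * π c ^ 2 * (π s)⁻¹ = (π c ^ 2)⁻¹ := by rw [← conj_pow, hsc, inv_pow]
  have hinv2 : (π c ^ 2)⁻¹ = π c ^ 2 := inv_eq_of_mul_eq_one_left (by rw [← pow_add]; exact hγ4)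
  have hcomm : π s * π a = π a * π s := by
    rw [ha, map_pow]
    rw [hinv2] at hconj2
    exact mul_inv_eq_iff_eq_mul.1 hconj2
  have hba : orderOf (π (s * a)) = 2 := by
    apply orderOf_eq_prime
    · rw [map_mul, pow_two]
      calc π s * π a * (π s * π a) = (π s * π a) * (π a * π s) := by rw [← hcomm]
        _ = π s * (π a * π a) * π s := by group
        _ = 1 := by
          rw [← pow_two (π a), ← hπa, pow_orderOf_eq_one, mul_one, hσ2]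
    · intro h
      rw [map_mul] at h
      have h1 : π s = (π c ^ 2)⁻¹ := by
        rw [ha, map_pow] at h
        exact eq_inv_of_mul_eq_one_left h
      rw [h1] at hsc
      apply hγ2
      have h2 : π c = (π c)⁻¹ := by
        conv_lhs => rw [show π c = (π c ^ 2)⁻¹ * π c * (π c ^ 2)⁻¹⁻¹ by group]
        exact hsc
      rw [pow_two]
      nth_rewrite 2 [h2]
      exact mul_inv_cancel _
  set u := s * a * s⁻¹ * a⁻¹ with hu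
  have huk : u ∈ π.ker := by
    rw [MonoidHom.mem_ker, hu, map_mul, map_mul, map_mul, map_inv, map_inv, hcomm]; group
  obtain ⟨ha1, ha2⟩ := hsq a hπa
  obtain ⟨hs1, hs2⟩ := hsq s hs
  obtain ⟨hb1, hb2⟩ := hsq _ hba
  have huΩ : u ∉ Ω := by
    intro h
    apply hb2
    have h1 : (s * a) ^ 2 = u * ((a * s ^ 2 * a⁻¹) * a ^ 2) := by rw [pow_two, hu]; group
    rw [h1]
    apply Ω.mul_mem h
    apply two C ((MonoidHom.normal_ker π).conj_mem _ hs1 a) _ ha1 ha2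
    intro h2
    apply hs2
    have h3 : s ^ 2 = a⁻¹ * (a * s ^ 2 * a⁻¹) * a⁻¹⁻¹ := by group
    rw [h3]
    exact C.nΩ.conj_mem _ h2 _
  have hu2 : u ^ 2 ∈ N := by
    have h1 := hPN s _ ha1
    have h2 : s * a ^ 2 * s⁻¹ * (a ^ 2)⁻¹ = u * (a * u * a⁻¹) := by rw [hu, pow_two]; group
    rw [h2] at h1
    have h3 := hPN a _ huk
    have h4 : u ^ 2 = (u * (a * u * a⁻¹ * u⁻¹)⁻¹ * u⁻¹) * (u * (a * u * a⁻¹)) := by rw [pow_two]; group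
    rw [h4]
    exact N.mul_mem (hN.nW.conj_mem _ (N.inv_mem h3) u) h1
  rw [C.sqP u huk huΩ] at hu2
  exact m_not C hirr hN hu2

include C in
/-- an element whose image is an involution -/
theorem F1 (hA2 : ∀ x ∈ Ω, x ∉ Subgroup.zpowers m → ∃ g : Y, orderOf (π g) = 2 ∧ g * x * g⁻¹ * x⁻¹ ∈ Subgroup.zpowers m ∧ g * x * g⁻¹ * x⁻¹ ≠ 1)
    (hconj2 : ∀ s t : L, orderOf s = 2 → orderOf t = 2 → ∃ g : L, g * s * g⁻¹ = t) {y : Y} (hy : orderOf (π y) = 2) :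
    ∃ x ∈ Ω, y * x * y⁻¹ * x⁻¹ = m := by
  have h0 : ∃ x ∈ Ω, x ∉ Subgroup.zpowers m := by
    by_contra hcon
    push Not at hcon
    have h1 : Nat.card Ω ≤ Nat.card (Subgroup.zpowers m) := Subgroup.card_le_of_le (fun x hx => hcon x hx)
    rw [C.cΩ, card_zp (C.sqΩ m C.mΩ) C.m1] at h1
    omega
  obtain ⟨x0, hx0, hx0'⟩ := h0
  obtain ⟨g0, hg0, hg1, hg2⟩ := hA2 x0 hx0 hx0'
  have hg3 : g0 * x0 * g0⁻¹ * x0⁻¹ = m := by
    rcases mem_zp (C.sqΩ m C.mΩ) hg1 with h | h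
    · exact absurd h hg2
    · exact h
  obtain ⟨k, hk⟩ := hconj2 _ _ hg0 hy
  obtain ⟨h, rfl⟩ := C.surj k
  have hp : y⁻¹ * (h * g0 * h⁻¹) ∈ π.ker := by
    rw [MonoidHom.mem_ker, map_mul, map_mul, map_mul, map_inv, map_inv, hk, inv_mul_cancel]
  have hx : h * x0 * h⁻¹ ∈ Ω := C.nΩ.conj_mem _ hx0 h
  refine ⟨h * x0 * h⁻¹, hx, ?_⟩
  have h1 := C.ab _ hp _ (C.le hx)
  have h2 : y⁻¹ * (h * g0 * x0 * g0⁻¹ * h⁻¹) * y = h * x0 * h⁻¹ := by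
    have h3 : y⁻¹ * (h * g0 * x0 * g0⁻¹ * h⁻¹) * y = (y⁻¹ * (h * g0 * h⁻¹) * (h * x0 * h⁻¹)) * (y⁻¹ * (h * g0 * h⁻¹))⁻¹ := by group
    rw [h3, h1, mul_inv_cancel_right]
  calc y * (h * x0 * h⁻¹) * y⁻¹ * (h * x0 * h⁻¹)⁻¹ = y * (y⁻¹ * (h * g0 * x0 * g0⁻¹ * h⁻¹) * y) * y⁻¹ * (h * x0 * h⁻¹)⁻¹ := by rw [h2]
    _ = h * (g0 * x0 * g0⁻¹ * x0⁻¹) * h⁻¹ := by group
    _ = m := by rw [hg3, C.mc h, mul_inv_cancel_right]

include C hfaith in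
theorem F2 (hZ : Nat8 π (Subgroup.zpowers m) Ω) {y : Y} (hy : orderOf (π y) = 2) (hm : ∃ x ∈ Ω, y * x * y⁻¹ * x⁻¹ = m) :
    Nat.card (Dh Ω C.nΩ (abΩ C) y).ker = 4 ∧ ∀ x ∈ Ω, y * x * y⁻¹ * x⁻¹ = 1 → ∃ x' ∈ Ω, y * x' * y⁻¹ * x'⁻¹ = x := by
  set f := Dh Ω C.nΩ (abΩ C) y with hf
  have hfv : ∀ x : ↥Ω, ((f x : ↥Ω) : Y) = y * x * y⁻¹ * (x : Y)⁻¹ := fun x => rfl
  have hy2 : y ^ 2 ∈ π.ker := by rw [MonoidHom.mem_ker, map_pow, ← hy, pow_orderOf_eq_one]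
  have hle : f.range ≤ f.ker := by
    rintro _ ⟨x, rfl⟩
    rw [MonoidHom.mem_ker]
    apply Subtype.ext
    rw [hfv, hfv]
    show _ = (1 : Y)
    have h1 : y ^ 2 * x * (y ^ 2)⁻¹ * (x : Y)⁻¹ = 1 := cnt C hy2 x.2
    have h2 : (y * (x : Y) * y⁻¹) * (x : Y)⁻¹ = (x : Y)⁻¹ * (y * (x : Y) * y⁻¹) :=
      abΩ C _ (C.nΩ.conj_mem _ x.2 y) _ (Ω.inv_mem x.2)
    have h3 : y * (y * x * y⁻¹ * (x : Y)⁻¹) * y⁻¹ * (y * x * y⁻¹ * (x : Y)⁻¹)⁻¹ =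
        (y ^ 2 * x * (y ^ 2)⁻¹ * (x : Y)⁻¹) * (((x : Y) * (y * (x : Y)⁻¹ * y⁻¹)) ^ 2) := by
      rw [pow_two, pow_two]; group
    rw [h3, h1, one_mul]
    exact C.sqΩ _ (Ω.mul_mem x.2 (C.nΩ.conj_mem _ (Ω.inv_mem x.2) y))
  have hcard := card_ker_range f
  rw [C.cΩ] at hcard
  have h1 : Nat.card f.range ≤ Nat.card f.ker := Subgroup.card_le_of_le hle
  have h2 : 2 < Nat.card f.range := by
    by_contra hcon
    push Not at hcon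
    have hmr : (⟨m, C.mΩ⟩ : ↥Ω) ∈ f.range := by
      obtain ⟨x, hx, hx1⟩ := hm
      exact ⟨⟨x, hx⟩, Subtype.ext hx1⟩
    have h3 : Subgroup.zpowers (⟨m, C.mΩ⟩ : ↥Ω) ≤ f.range := Subgroup.zpowers_le.2 hmr
    have h4 : Nat.card (Subgroup.zpowers (⟨m, C.mΩ⟩ : ↥Ω)) = 2 :=
      card_zp (Subtype.ext (C.sqΩ m C.mΩ)) (fun h => C.m1 (congrArg Subtype.val h))
    have h5 := Subgroup.eq_of_le_of_card_ge h3 (by rw [h4]; exact hcon)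
    have h6 : y ∈ π.ker := by
      apply hfaith _ _ hZ y
      intro x hx
      have h7 : f ⟨x, hx⟩ ∈ f.range := ⟨_, rfl⟩
      rw [← h5] at h7
      obtain ⟨k, hk⟩ := h7
      exact ⟨k, congrArg Subtype.val hk⟩
    rw [MonoidHom.mem_ker] at h6
    rw [h6, orderOf_one] at hy
    omega
  have h3 : Nat.card f.range ∣ 16 := Dvd.intro_left _ hcard
  have h4 : Nat.card f.range = 4 := by
    have h5 : Nat.card f.range ≤ 16 := Nat.le_of_dvd (by norm_num) h3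
    interval_cases h6 : Nat.card f.range <;> omega
  have h5 : Nat.card f.ker = 4 := by rw [h4] at hcard; omega
  refine ⟨h5, ?_⟩
  intro x hx hx1
  have h6 : f.range = f.ker := Subgroup.eq_of_le_of_card_ge hle (by rw [h4, h5])
  have h7 : (⟨x, hx⟩ : ↥Ω) ∈ f.ker := by rw [MonoidHom.mem_ker]; exact Subtype.ext hx1
  rw [← h6] at h7
  obtain ⟨x', hx'⟩ := h7
  exact ⟨x', x'.2, congrArg Subtype.val hx'⟩

include C hz hzΩ hzc hfaith in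
theorem caseA2 (hZ : Nat8 π (Subgroup.zpowers m) Ω)
    (hA2 : ∀ x ∈ Ω, x ∉ Subgroup.zpowers m → ∃ g : Y, orderOf (π g) = 2 ∧ g * x * g⁻¹ * x⁻¹ ∈ Subgroup.zpowers m ∧ g * x * g⁻¹ * x⁻¹ ≠ 1)
    (hconj2 : ∀ s t : L, orderOf s = 2 → orderOf t = 2 → ∃ g : L, g * s * g⁻¹ = t)
    {c s : Y} (hc : orderOf (π c) = 4) (h4 : c ^ 4 ∉ Ω) (hs : orderOf (π s) = 2) (hsc : π s * π c * (π s)⁻¹ = (π c)⁻¹)
    (hsq : ∀ g : Y, orderOf (π g) = 2 → g ^ 2 ∈ π.ker ∧ g ^ 2 ∉ Ω) : False := by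
  haveI : IsMulCommutative ↥Ω := ⟨⟨fun a b => Subtype.ext (abΩ C a a.2 b b.2)⟩⟩
  haveI := C.nΩ
  have kerN := MonoidHom.normal_ker π
  have sqΩ := C.sqΩ
  have invΩ : ∀ x ∈ Ω, x⁻¹ = x := fun x hx => inv_eq_of_mul_eq_one_left (by rw [← pow_two]; exact sqΩ x hx)
  -- the orders in `L`
  have hσ2 : π s * π s = 1 := by rw [← pow_two, ← hs, pow_orderOf_eq_one]
  have hγ4 : π c ^ 4 = 1 := by rw [← hc, pow_orderOf_eq_one]
  have hγ2 : π c ^ 2 ≠ 1 := by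
    intro h
    have := orderOf_dvd_of_pow_eq_one h
    rw [hc] at this; omega
  have hπc2 : orderOf (π (c ^ 2)) = 2 := by
    rw [map_pow]
    exact orderOf_eq_prime (by rw [← pow_mul]; exact hγ4) hγ2
  have hscγ : π s * π c = (π c)⁻¹ * π s := mul_inv_eq_iff_eq_mul.1 hsc
  have hsne : ∀ x : L, x * x = 1 → x ≠ π c := by
    intro x hx h
    rw [h, ← pow_two] at hx
    exact hγ2 hx
  have hπcs : orderOf (π (c * s)) = 2 := by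
    apply orderOf_eq_prime
    · rw [map_mul, pow_two]
      calc π c * π s * (π c * π s) = π c * (π s * π c) * π s := by group
        _ = π s * π s := by rw [hscγ]; group
        _ = 1 := hσ2
    · intro h
      rw [map_mul] at h
      have h1 : (π s)⁻¹ = π c := (eq_inv_of_mul_eq_one_left h).symm
      exact hsne _ (by rw [← mul_inv_rev, hσ2, inv_one]) h1
  have hπsc : orderOf (π (s * c)) = 2 := by
    apply orderOf_eq_prime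
    · rw [map_mul, pow_two]
      calc π s * π c * (π s * π c) = (π c)⁻¹ * π s * (π s * π c) := by rw [hscγ]
        _ = (π c)⁻¹ * (π s * π s) * π c := by group
        _ = 1 := by rw [hσ2]; group
    · intro h
      rw [map_mul] at h
      have h1 : (π s)⁻¹ = π c := (eq_inv_of_mul_eq_one_right h).symm
      exact hsne _ (by rw [← mul_inv_rev, hσ2, inv_one]) h1
  obtain ⟨hs1, hs2⟩ := hsq s hs
  obtain ⟨hcs1, hcs2⟩ := hsq _ hπcs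
  obtain ⟨hsc1, hsc2⟩ := hsq _ hπsc
  obtain ⟨hcc1, hcc2⟩ := hsq _ hπc2
  have hc4 : c ^ 4 ∈ π.ker := by rw [MonoidHom.mem_ker, map_pow]; exact hγ4
  have hz' : z⁻¹ ∈ π.ker := π.ker.inv_mem hz
  have hzΩ' : z⁻¹ ∉ Ω := fun h => hzΩ (by rw [← inv_inv z]; exact Ω.inv_mem h)
  have hzc' : ∀ g : Y, g * z⁻¹ = z⁻¹ * g := by
    intro g
    have h1 := hzc g
    calc g * z⁻¹ = z⁻¹ * (z * g) * z⁻¹ := by group
      _ = z⁻¹ * (g * z) * z⁻¹ := by rw [h1]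
      _ = z⁻¹ * g := by group
  -- the element `p`
  set p := c * (s * c * s⁻¹) with hp
  have hpk : p ∈ π.ker := by
    rw [MonoidHom.mem_ker, hp, map_mul, map_mul, map_mul, map_inv, hsc, mul_inv_cancel]
  have hcp : s * c * s⁻¹ = c⁻¹ * p := by rw [hp]; group
  have hpΩ : p ∈ Ω := by
    by_contra h
    apply hsc2
    have h1 : (s * c) ^ 2 = (c⁻¹ * p * c⁻¹⁻¹) * (c⁻¹ * s ^ 2 * c⁻¹⁻¹) := by rw [pow_two, hp]; group
    rw [h1]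
    apply two C (kerN.conj_mem _ hpk _) _ (kerN.conj_mem _ hs1 _)
    · intro h2
      apply hs2
      have h3 : s ^ 2 = c * (c⁻¹ * s ^ 2 * c⁻¹⁻¹) * c⁻¹ := by group
      rw [h3]; exact C.nΩ.conj_mem _ h2 _
    · intro h2
      apply h
      have h3 : p = c * (c⁻¹ * p * c⁻¹⁻¹) * c⁻¹ := by group
      rw [h3]; exact C.nΩ.conj_mem _ h2 _
  -- the elements `t`, `t'`
  set t := z⁻¹ * s ^ 2 with ht
  have htΩ : t ∈ Ω := two C hz' hzΩ' hs1 hs2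
  set t' := z⁻¹ * (c * s) ^ 2 with ht'
  have htΩ' : t' ∈ Ω := two C hz' hzΩ' hcs1 hcs2
  have hts : s * t * s⁻¹ = t := by
    rw [ht]
    calc s * (z⁻¹ * s ^ 2) * s⁻¹ = (s * z⁻¹) * s ^ 2 * s⁻¹ := by group
      _ = z⁻¹ * s ^ 2 := by rw [hzc']; group
  have hts' : (c * s) * t' * (c * s)⁻¹ = t' := by
    rw [ht']
    calc (c * s) * (z⁻¹ * (c * s) ^ 2) * (c * s)⁻¹ = ((c * s) * z⁻¹) * (c * s) ^ 2 * (c * s)⁻¹ := by group
      _ = z⁻¹ * (c * s) ^ 2 := by rw [hzc', pow_two]; group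
  have h3 : s * p * s⁻¹ = (c⁻¹ * p * c) * (c⁻¹ * t * c) * t⁻¹ := by
    have e1 : s ^ 2 * c * (s ^ 2)⁻¹ = t * c * t⁻¹ := by
      have e2 : s ^ 2 = z * t := by rw [ht]; group
      rw [e2]
      calc z * t * c * (z * t)⁻¹ = z * (t * c * t⁻¹) * z⁻¹ := by group
        _ = t * c * t⁻¹ := by rw [← hzc, mul_inv_cancel_right]
    have e2 : s ^ 2 * c * (s ^ 2)⁻¹ = p⁻¹ * c * (s * p * s⁻¹) := by
      calc s ^ 2 * c * (s ^ 2)⁻¹ = s * (s * c * s⁻¹) * s⁻¹ := by rw [pow_two]; group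
        _ = s * (c⁻¹ * p) * s⁻¹ := by rw [hcp]
        _ = (s * c * s⁻¹)⁻¹ * (s * p * s⁻¹) := by group
        _ = (c⁻¹ * p)⁻¹ * (s * p * s⁻¹) := by rw [hcp]
        _ = p⁻¹ * c * (s * p * s⁻¹) := by group
    calc s * p * s⁻¹ = c⁻¹ * p * (p⁻¹ * c * (s * p * s⁻¹)) := by group
      _ = c⁻¹ * p * (t * c * t⁻¹) := by rw [← e2, e1]
      _ = (c⁻¹ * p * c) * (c⁻¹ * t * c) * t⁻¹ := by group
  have h5 : s * p * s⁻¹ = (c⁻¹ * t' * c) * t'⁻¹ * p := by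
    have e1 : (c * s) ^ 2 * c * ((c * s) ^ 2)⁻¹ = t' * c * t'⁻¹ := by
      have e2 : (c * s) ^ 2 = z * t' := by rw [ht']; group
      rw [e2]
      calc z * t' * c * (z * t')⁻¹ = z * (t' * c * t'⁻¹) * z⁻¹ := by group
        _ = t' * c * t'⁻¹ := by rw [← hzc, mul_inv_cancel_right]
    have e3 : (c * s) * c * (c * s)⁻¹ = p * c⁻¹ := by
      calc (c * s) * c * (c * s)⁻¹ = c * (s * c * s⁻¹) * c⁻¹ := by group
        _ = c * (c⁻¹ * p) * c⁻¹ := by rw [hcp]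
        _ = p * c⁻¹ := by group
    have e2 : (c * s) ^ 2 * c * ((c * s) ^ 2)⁻¹ = ((c * s) * p * (c * s)⁻¹) * (p * c⁻¹)⁻¹ := by
      calc (c * s) ^ 2 * c * ((c * s) ^ 2)⁻¹ = (c * s) * ((c * s) * c * (c * s)⁻¹) * (c * s)⁻¹ := by rw [pow_two]; group
        _ = (c * s) * (p * c⁻¹) * (c * s)⁻¹ := by rw [e3]
        _ = ((c * s) * p * (c * s)⁻¹) * ((c * s) * c * (c * s)⁻¹)⁻¹ := by group
        _ = ((c * s) * p * (c * s)⁻¹) * (p * c⁻¹)⁻¹ := by rw [e3]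
    calc s * p * s⁻¹ = c⁻¹ * (((c * s) * p * (c * s)⁻¹) * (p * c⁻¹)⁻¹) * p := by group
      _ = c⁻¹ * (t' * c * t'⁻¹) * p := by rw [← e2, e1]
      _ = (c⁻¹ * t' * c) * t'⁻¹ * p := by group
  obtain ⟨hcard2, -⟩ := F2 C hfaith hZ hπc2 (F1 C hA2 hconj2 hπc2)
  obtain ⟨-, hfixs⟩ := F2 C hfaith hZ hs (F1 C hA2 hconj2 hs)
  obtain ⟨-, hfixcs⟩ := F2 C hfaith hZ hπcs (F1 C hA2 hconj2 hπcs)
  have hK2 : ∀ v : ↥Ω, v ∈ (Dh Ω C.nΩ (abΩ C) (c ^ 2)).ker ↔ c ^ 2 * (v : Y) * (c ^ 2)⁻¹ = v := by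
    intro v
    rw [MonoidHom.mem_ker, Subtype.ext_iff]
    exact mul_inv_eq_one
  have hker : ∀ y ∈ π.ker, ∀ x ∈ Ω, y * x * y⁻¹ = x := fun y hy x hx => mul_inv_eq_one.1 (cnt C hy hx)
  have hcm : c * m * c⁻¹ = m := by rw [C.mc, mul_inv_cancel_right]
  -- `c ^ 4` is central
  have hω : z⁻¹ * c ^ 4 ∈ Ω := two C hz' hzΩ' hc4 h4
  have hω2 : z⁻¹ * c ^ 4 = 1 ∨ z⁻¹ * c ^ 4 = m := by
    apply mem_zp (sqΩ m C.mΩ)
    apply fixM Ω C.cΩ sqΩ C.mΩ C.m1 (hker _ hc4) hcm _ hK2 hcard2 _ hω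
    calc c * (z⁻¹ * c ^ 4) * c⁻¹ = (c * z⁻¹) * c ^ 4 * c⁻¹ := by group
      _ = z⁻¹ * c ^ 4 := by rw [hzc']; group
  have hc4c : ∀ g : Y, g * c ^ 4 = c ^ 4 * g := by
    intro g
    have h6 : g * (z⁻¹ * c ^ 4) = (z⁻¹ * c ^ 4) * g := by
      rcases hω2 with h | h
      · rw [h, mul_one, one_mul]
      · rw [h]; exact C.mc g
    calc g * c ^ 4 = g * z * (z⁻¹ * c ^ 4) := by group
      _ = z * (g * (z⁻¹ * c ^ 4)) := by rw [hzc]; group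
      _ = c ^ 4 * g := by rw [h6]; group
  have hN : (c * (c * (c * p * c⁻¹) * c⁻¹) * c⁻¹) * (c * (c * p * c⁻¹) * c⁻¹) * (c * p * c⁻¹) * p = m := by
    have h6 : (c ^ 4) ^ 2 = m := C.sqP _ hc4 h4
    have h7 : s * c ^ 4 * s⁻¹ = (c⁻¹ * p) ^ 4 := by rw [← conj_pow, hcp]
    have h8 : s * c ^ 4 * s⁻¹ = c ^ 4 := by rw [hc4c, mul_inv_cancel_right]
    have h9 : (c : Y) ^ 4 = c * c * c * c := by rw [pow_succ, pow_succ, pow_two]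
    calc _ = c ^ 4 * (c⁻¹ * p) ^ 4 := by
          rw [show (c⁻¹ * p) ^ 4 = (c⁻¹ * p) * (c⁻¹ * p) * (c⁻¹ * p) * (c⁻¹ * p) by
            rw [pow_succ, pow_succ, pow_two], h9]
          group
      _ = m := by rw [← h7, h8, ← pow_two, h6]
  refine coreM Ω C.cΩ sqΩ C.mΩ C.m1 (hker _ hc4) hcm _ hK2 hcard2 (hker _ hs1) ?_ hfixs hfixcs hpΩ htΩ htΩ' hN hts hts' h3 h5
  intro x hxΩ
  have h6 := C.ab p hpk (s * x * s⁻¹) (C.le (C.nΩ.conj_mem _ hxΩ s))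
  calc s * (c * x * c⁻¹) * s⁻¹ = (s * c * s⁻¹) * (s * x * s⁻¹) * (s * c * s⁻¹)⁻¹ := by group
    _ = c⁻¹ * (p * (s * x * s⁻¹)) * p⁻¹ * c := by rw [hcp]; group
    _ = c⁻¹ * (s * x * s⁻¹) * c⁻¹⁻¹ := by rw [h6]; group

end

/-- the odd case, with the tools as hypotheses -/
theorem core (C : C48 π Ω m) (hz : z ∈ π.ker) (hzΩ : z ∉ Ω) (hzc : ∀ g : Y, g * z = z * g)
    (hfaith : ∀ K W : Subgroup Y, Nat8 π K W → ∀ g : Y, (∀ x ∈ W, g * x * g⁻¹ * x⁻¹ ∈ K) → g ∈ π.ker)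
    (hirr : ∀ K W : Subgroup Y, Nat8 π K W → ∀ R : Subgroup Y, R.Normal → K ≤ R → R ≤ W → R = K ∨ R = W)
    (hsqrt : ∀ t : L, orderOf t = 2 → ∃ c : L, orderOf c = 4 ∧ c ^ 2 = t)
    (hconj4 : ∀ c d : L, orderOf c = 4 → orderOf d = 4 → ∃ g : L, g * c * g⁻¹ = d)
    (hconj2 : ∀ s t : L, orderOf s = 2 → orderOf t = 2 → ∃ g : L, g * s * g⁻¹ = t)
    (hinv : ∀ c : L, orderOf c = 4 → ∃ s : L, orderOf s = 2 ∧ s * c * s⁻¹ = c⁻¹)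
    (horb : (∃ N : Subgroup Y, Nat8 π ⊥ N ∧ N ≤ Ω ∧
      (∀ x ∈ Ω, ∀ y ∈ Ω, x ∉ N → y ∉ N → ∃ g : Y, g * x * g⁻¹ * y⁻¹ ∈ (⊥ : Subgroup Y)) ∧
      (∀ g : Y, (orderOf (π g) = 2 ∨ orderOf (π g) = 4) → ∀ x ∈ Ω, x ∉ N → g * x * g⁻¹ * x⁻¹ ∉ (⊥ : Subgroup Y))) ∨
    (∃ Z : Subgroup Y, Nat8 π Z Ω ∧ ⊥ ≤ Z ∧ Nat.card Z = 2 * Nat.card (⊥ : Subgroup Y) ∧
      ((∃ N : Subgroup Y, Nat8 π ⊥ N ∧ N ≤ Ω ∧ N ⊓ Z = ⊥ ∧ N ⊔ Z = Ω) ∨
       (∀ x ∈ Ω, x ∉ Z → ∃ g : Y, orderOf (π g) = 2 ∧ g * x * g⁻¹ * x⁻¹ ∈ Z ∧ g * x * g⁻¹ * x⁻¹ ∉ (⊥ : Subgroup Y)))))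
    {c : Y} (hc : orderOf (π c) = 4) (h4 : c ^ 4 ∉ Ω) : False := by
  have hsq : ∀ g : Y, orderOf (π g) = 2 → g ^ 2 ∈ π.ker ∧ g ^ 2 ∉ Ω := fun g hg => claim1 C h4 hc hsqrt hconj4 hg
  obtain ⟨σ, hσ, hσc⟩ := hinv _ hc
  obtain ⟨s, rfl⟩ := C.surj σ
  rcases horb with ⟨N, hN, hle, -, hfpf⟩ | ⟨Z, hZ, -, hcZ, hA⟩
  · by_cases hm : m ∈ N
    · exact m_not C hirr hN hm
    · apply hfpf c (Or.inr hc) m C.mΩ hm
      rw [Subgroup.mem_bot, C.mc, mul_inv_cancel_right, mul_inv_cancel]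
  · have hcZ2 : Nat.card Z = 2 := by rw [hcZ]; simp
    have hZe := Z_eq C hirr hZ hcZ2
    subst hZe
    rcases hA with ⟨N, hN, hle, -, hsup⟩ | hA2
    · exact caseA1 C hz hzΩ hzc hirr hN hle hsup hc hσ hσc hsq
    · exact caseA2 C hz hzΩ hzc hfaith hZ (fun x hx hx' => by
        obtain ⟨g, h1, h2, h3⟩ := hA2 x hx hx'
        exact ⟨g, h1, h2, fun h => h3 (Subgroup.mem_bot.2 h)⟩) hconj2 hc h4 hσ hσc hsq

end

end Cfsg.Agent.Lib.H37C4O
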