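import Cfsg.Agent.Lib.H89GA2
import Cfsg.Agent.Lib.FiO8H

/-!
# The centralizer of a transposition in `Ω₈⁺(2):S₃` inside the presented `Fi₂₂` (piece F7 of S5472)
-/

set_option autoImplicit false
set_option linter.all false
set_option maxRecDepth 100000

namespace Cfsg.Agent.Lib.H37F7

section one

open Cfsg.Spor Cfsg.Agent.Lib.BenesPerm Cfsg.Agent.Lib.BenesAct Cfsg.Agent.Lib.BenesWord
open Cfsg.Agent.Lib.CosetClosure Cfsg.Agent.Lib.CosetFacts
open Cfsg.Agent.Lib.CosetMain Cfsg.Agent.Lib.CoxBridge Cfsg.Agent.Lib.CosetGroup Cfsg.Agent.Lib.CosetInst Cfsg.Agent.Lib.CosetInj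
open Cfsg.Agent.Lib.BenesPack Cfsg.Agent.Lib.CosetPack Cfsg.Agent.Lib.CosetOrder
open Cfsg.Agent.Lib.Fi22Rel Cfsg.Agent.Lib.Fi22NetsA
open Cfsg.Agent.Lib.Fi22A (x_iv0 c_nets)
open Cfsg.Agent.Lib.Quad QuadraticMap Module Cfsg.Agent.Lib.ClOrthSiegel Cfsg.Agent.Lib.ClOmega Cfsg.Agent.Lib.GoursatHom
open Cfsg.Agent.Lib.FiThB (P word_eq)
open Cfsg.Agent.Lib.FiO8

/-- the homomorphism -/
theorem exists_pi2 {φ : P →* Equiv.Perm ℕ} (hφ : ∀ c, φ (C.x Fi22A.L0 c) = sperm nets c) :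
    ∃ π : J →* ↥(O Q), Function.Surjective π ∧ (∀ h : J, π h = 1 → ∀ i, M1.testBit i = true → φ h i = i) ∧
      ∀ hm : (NW 2).eval (C.x Fi22A.L0) ∈ J, π ⟨_, hm⟩ = ⟨refl Q (vl b2), refl_mem _⟩ := by
  have hX := J_X hφ
  obtain ⟨π, hπ, hall⟩ := match_hom (X := X) (pt := vec) (ρ := ρ) φ J hX _ rfl (gens_ok hφ) (⊥ : Subgroup ↥(O Q))
    (by
      intro s hs
      rw [Subgroup.mem_bot]
      apply Subtype.ext
      apply LinearEquiv.toLinearMap_injective
      apply ext_of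
      intro v hv
      obtain ⟨i, hi, rfl⟩ := nonsing_pt v hv
      obtain ⟨c, hc, h1⟩ := hs i hi
      have hc1 : c = 1 := by
        revert hc
        generalize c = c'
        revert c'
        decide
      rw [hc1, one_smul] at h1
      exact h1)
  let e : (↥(O Q) ⧸ (⊥ : Subgroup ↥(O Q))) ≃* ↥(O Q) := QuotientGroup.quotientBot
  have he : ∀ s : ↥(O Q), e (QuotientGroup.mk s) = s := fun s => rfl
  have hval : ∀ (h : J) (s : ↥(O Q)), Mt X vec ρ (φ h) s → e (π h) = s := by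
    intro h s hs
    rw [hπ h s hs, he]
  refine ⟨e.toMonoidHom.comp π, ?_, ?_, ?_⟩
  · rw [← MonoidHom.range_eq_top]
    have h1 : ∀ v, Q v = 1 → (⟨refl Q v, refl_mem v⟩ : ↥(O Q)) ∈ (e.toMonoidHom.comp π).range := by
      intro v hv
      obtain ⟨i, hi, rfl⟩ := nonsing_pt v hv
      have m1 := mt_of (W := NW 2) hφ (b := b2) rfl (by decide) s2
      have hm : (NW 2).eval (C.x Fi22A.L0) ∈ J := mem_wset (by simp [nW])
      -- the vector at lane 0
      have hv0 : vec 0 = vl b2 := by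
        have hb : ∀ j, j < 8 → (LL.getD j 0).testBit 0 = b2.getD j false := by decide +kernel
        funext x
        have hx : pos x < 8 := by
          rcases x with j | j
          · have := j.2
            change j.val < 8
            omega
          · have := j.2
            change 4 + j.val < 8
            omega
        change bz _ = bz _
        rw [hb _ hx]
      obtain ⟨g, hg, hgi⟩ := (orb hφ i).mpr hi
      obtain ⟨s, hs⟩ := hall ⟨g, hg⟩
      obtain ⟨c, hc, h2⟩ := hs 0 ((orb hφ 0).mp ⟨1, J.one_mem, by rw [map_one]; rfl⟩)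
      have hc1 : c = 1 := by
        revert hc
        generalize c = c'
        revert c'
        decide
      rw [hc1, one_smul] at h2
      change (s : V ≃ₗ[ZMod 2] V) (vec 0) = vec (φ g 0) at h2
      rw [hgi, hv0] at h2
      refine ⟨⟨g, hg⟩ * ⟨_, hm⟩ * ⟨g, hg⟩⁻¹, ?_⟩
      change e (π _) = _
      rw [map_mul, map_mul, map_inv, map_mul, map_mul, map_inv, hval _ s hs, hval ⟨_, hm⟩ _ m1]
      apply Subtype.ext
      change (s : V ≃ₗ[ZMod 2] V) * refl Q (vl b2) * (s : V ≃ₗ[ZMod 2] V)⁻¹ = refl Q (vec i)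
      rw [refl_conj s.2, h2]
    have h2 : (O Q) ≤ ((e.toMonoidHom.comp π).range).map (O Q).subtype := by
      conv_lhs => rw [← hR]
      unfold R
      rw [Subgroup.closure_le]
      rintro _ ⟨v, hv, rfl⟩
      have hv1 : Q v = 1 := by
        revert hv
        generalize Q v = z
        revert z
        decide
      exact ⟨_, h1 v hv1, rfl⟩
    rw [eq_top_iff]
    intro s _
    obtain ⟨s', hs', h3⟩ := h2 s.2
    have h4 : s' = s := Subtype.ext h3
    rw [← h4]; exact hs'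
  · intro h hh i hi
    obtain ⟨s, hs⟩ := hall h
    have h1 : s = 1 := by rw [← hval h s hs]; exact hh
    rw [h1] at hs
    obtain ⟨c, hc, h2⟩ := hs i hi
    have hc1 : c = 1 := by
      revert hc
      generalize c = c'
      revert c'
      decide
    rw [hc1, one_smul] at h2
    exact (vec_inj hi (hX h h.2 i hi) h2).symm
  · intro hm
    exact hval ⟨_, hm⟩ _ (mt_of (W := NW 2) hφ (b := b2) rfl (by decide) s2)


theorem pi_exists2 (hca : Nat.card (Subgroup.centralizer {a0}) = 18393661440) :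
    ∃ π : J →* ↥(O Q8), Function.Surjective π ∧ (∀ h : J, π h = 1 → ∀ g ∈ (J : Subgroup P), (h : P) * g = g * h) ∧
      ∀ hm : nd 2 ∈ (J : Subgroup P), π ⟨nd 2, hm⟩ = ⟨refl Q (vl b2), refl_mem _⟩ := by
  obtain ⟨φ, hφ, hlt, h0, hfix⟩ := lane_iff hca
  obtain ⟨π, hs, hk, hpi⟩ := exists_pi2 hφ
  refine ⟨π, hs, ?_, fun hm => hpi hm⟩
  intro h hh
  have h1 := hk h hh
  have h2 : ∀ t ∈ T, (h : P) * t = t * h := by
    rintro t ⟨k, hkJ, rfl⟩
    rw [← hfix]
    apply h1
    exact (orb hφ _).mp ⟨k, hkJ, rfl⟩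
  obtain ⟨h, hhJ⟩ := h
  change ∀ t ∈ T, h * t = t * h at h2
  change ∀ g ∈ (J : Subgroup P), h * g = g * h
  have h3 : (J : Subgroup P) ≤ Subgroup.centralizer {h} := by
    conv_lhs => rw [J_eq]
    rw [Subgroup.closure_le]
    rintro _ ⟨i, hi1, hi8, rfl⟩
    rw [SetLike.mem_coe, Subgroup.mem_centralizer_singleton_iff]
    exact (h2 _ (nd_T hi1 hi8)).symm
  intro g hg
  exact (Subgroup.mem_centralizer_singleton_iff.mp (h3 hg)).symm

theorem cent_equiv {G A : Type*} [Group G] [Group A] (H : Subgroup G) (e : H ≃* A) (t : G) (ht : t ∈ H) :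
    Nonempty (↥(H ⊓ Subgroup.centralizer ({t} : Set G)) ≃* ↥(Subgroup.centralizer ({e ⟨t, ht⟩} : Set A))) := by
  have h1 : ((H ⊓ Subgroup.centralizer ({t} : Set G)).subgroupOf H).map e.toMonoidHom = Subgroup.centralizer ({e ⟨t, ht⟩} : Set A) := by
    ext x
    rw [Subgroup.mem_map_equiv, Subgroup.mem_subgroupOf, Subgroup.mem_inf, Subgroup.mem_centralizer_singleton_iff,
      Subgroup.mem_centralizer_singleton_iff]
    constructor
    · rintro ⟨_, h2⟩
      have h3 : e.symm x * ⟨t, ht⟩ = ⟨t, ht⟩ * e.symm x := Subtype.ext h2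
      have h4 := congrArg e h3
      rwa [map_mul, map_mul, e.apply_symm_apply] at h4
    · intro h2
      refine ⟨(e.symm x).2, ?_⟩
      have h3 : e.symm x * ⟨t, ht⟩ = ⟨t, ht⟩ * e.symm x := by
        apply e.injective
        rw [map_mul, map_mul, e.apply_symm_apply]
        exact h2
      exact congrArg Subtype.val h3
  exact ⟨((Subgroup.subgroupOfEquivOfLe inf_le_left).symm.trans (e.subgroupMap _)).trans (MulEquiv.subgroupCongr h1)⟩

theorem Q_b2 : Q (vl b2) = 1 := by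
  have h : Q (vl b2) = bz (qb b2) := Q_vl _ _ _ _ _ _ _ _
  rw [h]; decide

theorem J_part (hca : Nat.card (Subgroup.centralizer {a0}) = 18393661440)
    (CE : ∀ y : P, y * ev x1 = ev x1 * y → y * ev x2 = ev x2 * y → ∃ i j : ℕ, y = ev x1 ^ i * ev x2 ^ j) :
    Nat.card (J : Subgroup P) = 348364800 ∧
    Nonempty (↥((J : Subgroup P) ⊓ Subgroup.centralizer ({nd 2} : Set P)) ≃* Multiplicative (ZMod 2) × Cfsg.PSp 3 (ZMod 2)) := by
  have c := conf hca CE
  obtain ⟨π, hs, hk, h2⟩ := pi_exists2 hca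
  have hinj := c.pi_inj π hk
  let e : ↥(J : Subgroup P) ≃* ↥(O Q8) := MulEquiv.ofBijective π ⟨hinj, hs⟩
  have hm : nd 2 ∈ (J : Subgroup P) := nd_J (by norm_num) (by norm_num)
  constructor
  · rw [Nat.card_congr e.toEquiv, card_O8]
    have h3 := card_Om8
    rw [← outCongr_card omEquiv8.some.symm, card_aut8] at h3
    omega
  · obtain ⟨e1⟩ := cent_equiv J e (nd 2) hm
    obtain ⟨e2⟩ := H67O8Stab.stab8 (vl b2) Q_b2 (e ⟨nd 2, hm⟩) (by
      have h4 : e ⟨nd 2, hm⟩ = (⟨refl Q (vl b2), refl_mem _⟩ : ↥(O Q8)) := h2 hm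
      rw [h4])
    exact ⟨e1.trans e2⟩

end one

open Cfsg.Spor Cfsg.Agent.Lib.BenesPerm Cfsg.Agent.Lib.BenesAct Cfsg.Agent.Lib.BenesWord Cfsg.Agent.Lib.BenesPlane
open Cfsg.Agent.Lib.Fi22NetsA Cfsg.Agent.Lib.LaneTools Cfsg.Agent.Lib.TransLanes Cfsg.Agent.Lib.Fi22Out
open Cfsg.Agent.Lib.Fi22Rel
open Cfsg.Agent.Lib.H89GA

theorem p360 : popK 12 R360 = 360 := by decide +kernel
theorem p120 : popK 12 FiO8.M1 = 120 := by decide +kernel
theorem l360 : Nat.blt R360 (Nat.pow 2 4096) = true := by decide +kernel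

/-- orbit counting -/
theorem card_orb (H : Subgroup P) (M n : ℕ) (hM : M < 2 ^ 2 ^ 12) (hpop : popK 12 M = n)
    (horb : ∀ j, (∃ h ∈ H, φ h 0 = j) ↔ M.testBit j = true) :
    Nat.card H = n * Nat.card ↥(H ⊓ Subgroup.centralizer ({T 0} : Set P)) := by
  letI : MulAction H ℕ := MulAction.compHom ℕ (φ.comp H.subtype)
  have hsm : ∀ (h : H) (i : ℕ), h • i = φ (h : P) i := fun h i => rfl
  have h1 := MulAction.index_stabilizer H (0 : ℕ)
  have h2 : MulAction.orbit H (0 : ℕ) = {i | M.testBit i = true} := by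
    ext j
    rw [Set.mem_setOf_eq, ← horb, MulAction.mem_orbit_iff]
    constructor
    · rintro ⟨h, hh⟩; exact ⟨h, h.2, hh⟩
    · rintro ⟨h, hh, hj⟩; exact ⟨⟨h, hh⟩, hj⟩
  have h3 : MulAction.stabilizer H (0 : ℕ) = (H ⊓ Subgroup.centralizer ({T 0} : Set P)).subgroupOf H := by
    ext h
    rw [MulAction.mem_stabilizer_iff, hsm, fix_iff (by norm_num), Subgroup.mem_subgroupOf, Subgroup.mem_inf,
      Subgroup.mem_centralizer_singleton_iff]
    exact ⟨fun h4 => ⟨h.2, h4⟩, fun h4 => h4.2⟩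
  rw [h2, ncard_bits hM, hpop, h3] at h1
  have h4 := ((H ⊓ Subgroup.centralizer ({T 0} : Set P)).subgroupOf H).card_mul_index
  rw [h1, Nat.card_congr (Subgroup.subgroupOfEquivOfLe inf_le_left).toEquiv] at h4
  rw [← h4, mul_comm]

theorem f7 : Nonempty (↥(II ⊓ Subgroup.centralizer ({T 0} : Set P)) ≃* Multiplicative (ZMod 2) × Cfsg.PSp 3 (ZMod 2)) := by
  obtain ⟨hca, CE, _⟩ := facts
  obtain ⟨hJ, ⟨e⟩⟩ := J_part hca CE
  have hT : FiO8.nd 2 = T 0 := by
    have h := nd_word 1 (by norm_num)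
    rw [Tz]
    exact h
  have e1 : FiO8.J ⊓ Subgroup.centralizer ({T 0} : Set P) ≤ II ⊓ Subgroup.centralizer ({T 0} : Set P) :=
    inf_le_inf_right _ FiO8.J_II
  have c1 := card_orb II R360 360 (by
      have := Nat.le_of_ble_eq_true l360
      exact this) p360 (by
      intro j
      constructor
      · rintro ⟨h, hh, rfl⟩
        rw [s_fix (φ_lt h (by norm_num)), T_map (by norm_num), map_mul, map_mul, map_inv, s_T0]
        have h1 : s h = h := mem_Fx.1 (II_le_Fx hh)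
        rw [h1]
      · intro hj; exact trII hj)
  have c2 := card_orb FiO8.J FiO8.M1 120 FiO8.c_lt p120 (fun j => FiO8.orb (φ := φ) CC.hφ j)
  rw [card_II] at c1
  rw [hJ] at c2
  have d1 : Nat.card ↥(II ⊓ Subgroup.centralizer ({T 0} : Set P)) = 2903040 := by
    generalize Nat.card ↥(II ⊓ Subgroup.centralizer ({T 0} : Set P)) = a at c1 ⊢
    omega
  have d2 : Nat.card ↥(FiO8.J ⊓ Subgroup.centralizer ({T 0} : Set P)) = 2903040 := by
    generalize Nat.card ↥(FiO8.J ⊓ Subgroup.centralizer ({T 0} : Set P)) = a at c2 ⊢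
    omega
  have e2 := Subgroup.eq_of_le_of_card_ge e1 (le_of_eq (d1.trans d2.symm))
  rw [← e2, ← hT]
  exact ⟨e⟩

end Cfsg.Agent.Lib.H37F7
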