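import Cfsg.Agent.Lib.H39Bli1
import Mathlib.RepresentationTheory.Character
import Mathlib.RepresentationTheory.Irreducible
import Mathlib.Analysis.InnerProductSpace.Basic
import Mathlib.Analysis.InnerProductSpace.PiL2
import Mathlib.GroupTheory.Subgroup.Simple
import Mathlib.Analysis.Normed.Module.FiniteDimension

/-! Blichfeldt's sixty degree theorem, general form (helper39). -/

set_option autoImplicit false
set_option linter.all false

namespace Cfsg.Agent.Lib.H39Bld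

open scoped ComplexConjugate InnerProductSpace
open Cfsg.Agent.Lib.H39Bli

variable {E : Type*} [NormedAddCommGroup E] [InnerProductSpace ℂ E] [FiniteDimensional ℂ E]
variable {G : Type*} [Group G] [Finite G]

theorem blichfeldt (U : Representation ℂ G E)
    (hU : ∀ g v w, ⟪U g v, U g w⟫_ℂ = ⟪v, w⟫_ℂ)
    (hirr : ∀ W : Submodule ℂ E, (∀ g, ∀ w ∈ W, U g w ∈ W) → W = ⊥ ∨ W = ⊤)
    (x : G) (lam : ℂ) (hx : ∀ w, w ≠ 0 → ‖U x w - lam • w‖ < ‖w‖)
    (hlam : ∃ v, v ≠ 0 ∧ U x v = lam • v) : (∀ w, U x w = lam • w) ∨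
      ∃ (S : Subgroup G) (F : Submodule ℂ E), S ≠ ⊤ ∧ F ≠ ⊥ ∧ (∀ g ∈ S, ∀ v ∈ F, U g v ∈ F) ∧
        ∀ g, g ∉ S → ∀ v ∈ F, ∀ u ∈ F, ⟪v, U g u⟫_ℂ = 0 := by
  classical
  have hmul : ∀ a b w, U (a * b) w = U a (U b w) := fun a b w => by rw [map_mul]; rfl
  have hone : ∀ w, U 1 w = w := fun w => by rw [map_one]; rfl
  have hinvl : ∀ a w, U a⁻¹ (U a w) = w := fun a w => by rw [← hmul, inv_mul_cancel, hone]
  have hnorm : ∀ g v, ‖U g v‖ = ‖v‖ := by
    intro g v
    have h1 := hU g v v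
    rw [inner_self_eq_norm_sq_to_K, inner_self_eq_norm_sq_to_K] at h1
    have h2 : ‖U g v‖ ^ 2 = ‖v‖ ^ 2 := by exact_mod_cast h1
    exact (sq_eq_sq₀ (norm_nonneg _) (norm_nonneg _)).1 h2
  have hlam1 : ‖lam‖ = 1 := by
    obtain ⟨v, hv, h⟩ := hlam
    have h1 := hnorm x v
    rw [h, norm_smul] at h1
    have h2 : ‖v‖ ≠ 0 := norm_ne_zero_iff.2 hv
    exact mul_right_cancel₀ h2 (by rw [h1, one_mul])
  have hlam0 : lam ≠ 0 := by
    intro h; rw [h, norm_zero] at hlam1; exact zero_ne_one hlam1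
  have hlamc : conj lam * lam = 1 := by
    rw [← Complex.normSq_eq_conj_mul_self, Complex.normSq_eq_norm_sq, hlam1]; simp
  -- conjugates of x
  have hconj : ∀ y, IsConj x y → ∀ w, w ≠ 0 → ‖U y w - lam • w‖ < ‖w‖ := by
    intro y hy w hw
    obtain ⟨g, rfl⟩ := isConj_iff.1 hy
    have hw' : U g⁻¹ w ≠ 0 := by
      intro h
      apply hw
      rw [← norm_eq_zero, ← hnorm g⁻¹, h, norm_zero]
    have h1 := hx (U g⁻¹ w) hw'
    rw [hnorm, ← hnorm g, map_sub, map_smul, ← hmul, ← hmul, ← hmul, mul_inv_cancel, hone] at h1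
    exact h1
  -- the maximal set
  let Pr : Finset G → Prop := fun A => (∀ y ∈ A, IsConj x y) ∧ ∃ v : E, v ≠ 0 ∧ ∀ y ∈ A, U y v = lam • v
  have hx0 : Pr {x} := by
    obtain ⟨v, hv, h⟩ := hlam
    refine ⟨?_, v, hv, ?_⟩
    · intro y hy; rw [Finset.mem_singleton] at hy; rw [hy]
    · intro y hy; rw [Finset.mem_singleton] at hy; rw [hy]; exact h
  haveI := Fintype.ofFinite G
  obtain ⟨A, hA, hAmax⟩ : ∃ A, Pr A ∧ ∀ B, Pr B → B.card ≤ A.card := by
    have h1 : (Finset.univ.filter Pr).Nonempty := ⟨{x}, by simp [hx0]⟩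
    obtain ⟨A, hA, hm⟩ := Finset.exists_max_image (Finset.univ.filter Pr) Finset.card h1
    rw [Finset.mem_filter] at hA
    exact ⟨A, hA.2, fun B hB => hm B (by simp [hB])⟩
  have hAne : A.Nonempty := by
    rw [← Finset.card_pos]
    have := hAmax _ hx0
    rw [Finset.card_singleton] at this
    omega
  have hMx : ∀ v : E, v ≠ 0 → (∀ y ∈ A, U y v = lam • v) → ∀ y, IsConj x y → U y v = lam • v → y ∈ A := by
    intro v hv hvA y hy hyv
    by_contra hyA
    have h1 : Pr (insert y A) := by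
      refine ⟨?_, v, hv, ?_⟩
      · intro z hz
        rcases Finset.mem_insert.1 hz with rfl | hz
        · exact hy
        · exact hA.1 z hz
      · intro z hz
        rcases Finset.mem_insert.1 hz with rfl | hz
        · exact hyv
        · exact hvA z hz
    have h2 := hAmax _ h1
    rw [Finset.card_insert_of_notMem hyA] at h2
    omega
  let F : Submodule ℂ E :=
    { carrier := {v | ∀ y ∈ A, U y v = lam • v}
      add_mem' := fun {a b} ha hb y hy => by rw [map_add, ha y hy, hb y hy, smul_add]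
      zero_mem' := fun y _ => by rw [map_zero, smul_zero]
      smul_mem' := fun c a ha y hy => by rw [map_smul, ha y hy, smul_comm] }
  have hF : ∀ v, v ∈ F ↔ ∀ y ∈ A, U y v = lam • v := fun v => Iff.rfl
  have hFne : ∃ v ∈ F, ‖v‖ = 1 := by
    obtain ⟨v, hv, h⟩ := hA.2
    refine ⟨(‖v‖⁻¹ : ℂ) • v, F.smul_mem _ h, ?_⟩
    rw [norm_smul, norm_inv, Complex.norm_real, norm_norm, inv_mul_cancel₀ (norm_ne_zero_iff.2 hv)]
  -- stabilizer acts on F
  have hSF : ∀ g ∈ stab A, ∀ v ∈ F, U g v ∈ F := by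
    intro g hg v hv y hy
    have h1 : g⁻¹ * y * g ∈ A := by
      rw [hg]
      have : g * (g⁻¹ * y * g) * g⁻¹ = y := by group
      rwa [this]
    have h2 : y * g = g * (g⁻¹ * y * g) := by group
    rw [← hmul, h2, hmul, hv _ h1, map_smul]
  -- elements moving F
  have hInt : ∀ g, g ∉ stab A → ∀ v ∈ F, ∀ u ∈ F, v ≠ 0 → U g u ≠ v := by
    intro g hg v hv u hu hv0 huv
    obtain ⟨y, hy, hyg⟩ := exists_not_mem hg
    apply hyg
    refine hMx v hv0 hv _ ((hA.1 y hy).trans (isConj_iff.2 ⟨g, rfl⟩)) ?_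
    rw [← huv, hmul, hmul, hinvl, hu y hy, map_smul]
  -- the key claim: orthogonality
  have hkey : ∀ g, g ∉ stab A → ∀ v ∈ F, ∀ u ∈ F, ⟪v, U g u⟫_ℂ = 0 := by
    let sph : Set E := {v | v ∈ F ∧ ‖v‖ = 1}
    have hsph : IsCompact sph := by
      haveI : ProperSpace E := FiniteDimensional.proper ℂ E
      have h1 : sph = (F : Set E) ∩ Metric.sphere 0 1 := by
        ext v; simp [sph]
      rw [h1]
      exact (isCompact_sphere (0 : E) 1).inter_left F.closed_of_finiteDimensional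
    obtain ⟨v1, hv1, hv1'⟩ := hFne
    have hne : (sph ×ˢ sph).Nonempty := ⟨(v1, v1), ⟨hv1, hv1'⟩, ⟨hv1, hv1'⟩⟩
    have hmax : ∀ g : G, ∃ q ∈ sph ×ˢ sph, ∀ q' ∈ sph ×ˢ sph,
        (⟪q'.1, U g q'.2⟫_ℂ).re ≤ (⟪q.1, U g q.2⟫_ℂ).re := by
      intro g
      have hc : Continuous fun q : E × E => (⟪q.1, U g q.2⟫_ℂ).re := by
        have h1 : Continuous (U g) := LinearMap.continuous_of_finiteDimensional _
        exact Complex.continuous_re.comp (continuous_fst.inner (h1.comp continuous_snd))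
      obtain ⟨q, hq, hq'⟩ := (hsph.prod hsph).exists_isMaxOn hne hc.continuousOn
      exact ⟨q, hq, fun q' h' => hq' h'⟩
    choose q hq hqm using hmax
    by_contra hcon
    push Not at hcon
    obtain ⟨g1, hg1, v2, hv2, u2, hu2, hvu⟩ := hcon
    have hne2 : (Finset.univ.filter fun g : G => g ∉ stab A).Nonempty := ⟨g1, by simp [hg1]⟩
    obtain ⟨g, hg, hgm⟩ := Finset.exists_max_image (Finset.univ.filter fun g : G => g ∉ stab A)
      (fun g => (⟪(q g).1, U g (q g).2⟫_ℂ).re) hne2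
    rw [Finset.mem_filter] at hg
    set v := (q g).1 with hvdef
    set u0 := (q g).2 with hu0def
    have hv : v ∈ F := (hq g).1.1
    have hvn : ‖v‖ = 1 := (hq g).1.2
    have hu0 : u0 ∈ F := (hq g).2.1
    have hu0n : ‖u0‖ = 1 := (hq g).2.2
    set K := (⟪v, U g u0⟫_ℂ).re with hK
    have hbound : ∀ h, h ∉ stab A → ∀ a ∈ F, ∀ b ∈ F, ‖a‖ = 1 → ‖b‖ = 1 → (⟪a, U h b⟫_ℂ).re ≤ K := by
      intro h hh a ha b hb han hbn
      exact (hqm h (a, b) ⟨⟨ha, han⟩, ⟨hb, hbn⟩⟩).trans (hgm h (by simp [hh]))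
    have hK0 : 0 < K := by
      have hv20 : v2 ≠ 0 := by rintro rfl; exact hvu (by rw [inner_zero_left])
      have hu20 : u2 ≠ 0 := by rintro rfl; exact hvu (by rw [map_zero, inner_zero_right])
      set z := ⟪v2, U g1 u2⟫_ℂ with hz
      have hz0 : ‖z‖ ≠ 0 := norm_ne_zero_iff.2 hvu
      have h1 := hbound g1 hg1 ((‖v2‖⁻¹ : ℂ) • v2) (F.smul_mem _ hv2)
        ((conj z * (‖z‖ : ℂ)⁻¹ * (‖u2‖ : ℂ)⁻¹) • u2) (F.smul_mem _ hu2) ?_ ?_
      · rw [map_smul, inner_smul_left, inner_smul_right, ← hz] at h1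
        have h2 : (starRingEnd ℂ) ((‖v2‖ : ℂ)⁻¹) * (conj z * (‖z‖ : ℂ)⁻¹ * (‖u2‖ : ℂ)⁻¹ * z) =
            ((‖v2‖⁻¹ * ‖u2‖⁻¹ * ‖z‖ : ℝ) : ℂ) := by
          have h3 : conj z * z = (‖z‖ : ℂ) * (‖z‖ : ℂ) := by
            rw [← Complex.normSq_eq_conj_mul_self, Complex.normSq_eq_norm_sq]; push_cast; ring
          have hz0' : (‖z‖ : ℂ) ≠ 0 := by exact_mod_cast hz0
          rw [map_inv₀, Complex.conj_ofReal]
          push_cast
          calc (‖v2‖ : ℂ)⁻¹ * (conj z * (‖z‖ : ℂ)⁻¹ * (‖u2‖ : ℂ)⁻¹ * z)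
              = (‖v2‖ : ℂ)⁻¹ * (‖u2‖ : ℂ)⁻¹ * (‖z‖ : ℂ)⁻¹ * (conj z * z) := by ring
            _ = _ := by rw [h3]; field_simp
        rw [h2, Complex.ofReal_re] at h1
        refine lt_of_lt_of_le ?_ h1
        have := norm_pos_iff.2 hv20
        have := norm_pos_iff.2 hu20
        have := norm_pos_iff.2 hvu
        positivity
      · rw [norm_smul, norm_inv, Complex.norm_real, norm_norm, inv_mul_cancel₀ (norm_ne_zero_iff.2 hv20)]
      · rw [norm_smul, norm_mul, norm_mul, norm_inv, norm_inv, Complex.norm_real, Complex.norm_real,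
          norm_norm, norm_norm, RCLike.norm_conj, mul_inv_cancel₀ hz0, one_mul,
          inv_mul_cancel₀ (norm_ne_zero_iff.2 hu20)]
    obtain ⟨y', hy', hyA⟩ := exists_not_mem hg.2
    set y := g * y' * g⁻¹ with hy
    set u := U g u0 with hu
    have hyconj : IsConj x y := (hA.1 y' hy').trans (isConj_iff.2 ⟨g, rfl⟩)
    have hyu : U y u = lam • u := by
      rw [hy, hu, hmul, hmul, hinvl, hu0 y' hy', map_smul]
    have hun : ‖u‖ = 1 := by rw [hu, hnorm, hu0n]
    have hvu0 : v - u ≠ 0 := by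
      intro h
      have h1 : U g u0 = v := (sub_eq_zero.1 h).symm
      exact hInt g hg.2 v hv u0 hu0 (by intro h2; rw [h2, norm_zero] at hvn; exact zero_ne_one hvn) h1
    have h1 := hconj y hyconj (v - u) hvu0
    have h2 : U y (v - u) - lam • (v - u) = U y v - lam • v := by
      rw [map_sub, hyu, smul_sub]; abel
    rw [h2] at h1
    have h3 : ‖U y v - lam • v‖ ^ 2 = 2 - 2 * (⟪v, U y (lam⁻¹ • v)⟫_ℂ).re := by
      have e1 := norm_sub_sq (𝕜 := ℂ) (lam • v) (U y v)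
      rw [norm_sub_rev, e1, norm_smul, hlam1, hvn, hnorm, hvn, inner_smul_left, map_smul, inner_smul_right]
      have : conj lam = lam⁻¹ := eq_inv_of_mul_eq_one_left hlamc
      rw [this]
      simp only [RCLike.re_to_complex]
      ring
    have h4 : ‖v - u‖ ^ 2 = 2 - 2 * K := by
      have e1 := norm_sub_sq (𝕜 := ℂ) v u
      rw [e1, hvn, hun, hK]
      simp only [RCLike.re_to_complex]
      ring
    have h5 : ‖U y v - lam • v‖ ^ 2 < ‖v - u‖ ^ 2 := by
      exact pow_lt_pow_left₀ h1 (norm_nonneg _) (by norm_num)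
    have h6 : K < (⟪v, U y (lam⁻¹ • v)⟫_ℂ).re := by rw [h3, h4] at h5; linarith
    have hyS : y ∈ stab A := by
      by_contra hyS
      have := hbound y hyS v hv (lam⁻¹ • v) (F.smul_mem _ hv) hvn
        (by rw [norm_smul, norm_inv, hlam1, hvn]; norm_num)
      linarith
    -- U y - lam is injective on F
    let T : F →ₗ[ℂ] F := ((U y).restrict (hSF y hyS)) - lam • LinearMap.id
    have hT : ∀ w : F, ((T w : F) : E) = U y w - lam • (w : E) := fun w => rfl
    have hTinj : Function.Injective T := by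
      rw [← LinearMap.ker_eq_bot, LinearMap.ker_eq_bot']
      intro w hw
      by_contra hw0
      apply hyA
      refine hMx (w : E) (fun h => hw0 (Subtype.ext h)) w.2 y hyconj ?_
      have h7 := congrArg (Subtype.val) hw
      rw [hT] at h7
      exact sub_eq_zero.1 h7
    obtain ⟨w, hw⟩ := (LinearMap.injective_iff_surjective.1 hTinj) ⟨v, hv⟩
    have h7 : U y w - lam • (w : E) = v := by rw [← hT, hw]
    have h8 : ⟪u, v⟫_ℂ = 0 := by
      rw [← h7, inner_sub_right, inner_smul_right]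
      have h9 : u = lam⁻¹ • U y u := by rw [hyu, smul_smul, inv_mul_cancel₀ hlam0, one_smul]
      have h10 : ⟪u, U y w⟫_ℂ = lam * ⟪u, (w : E)⟫_ℂ := by
        conv_lhs => rw [h9]
        rw [inner_smul_left, hU, map_inv₀]
        congr 1
        exact (eq_comm.1 (eq_inv_of_mul_eq_one_right hlamc))
      rw [h10, sub_self]
    have h9 : ⟪v, u⟫_ℂ = 0 := inner_eq_zero_symm.1 h8
    rw [hK, h9] at hK0
    simp at hK0
  have hFbot : F ≠ ⊥ := by
    intro h
    obtain ⟨v, hv, hvn⟩ := hFne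
    rw [h, Submodule.mem_bot] at hv
    rw [hv, norm_zero] at hvn
    exact zero_ne_one hvn
  by_cases hStop : stab A = ⊤
  swap
  · exact Or.inr ⟨stab A, F, hStop, hFbot, hSF, hkey⟩
  left
  have hFtop : F = ⊤ := (hirr F (fun g w hw => hSF g (by rw [hStop]; trivial) w hw)).resolve_left hFbot
  obtain ⟨y, hy⟩ := hAne
  intro w
  obtain ⟨g, hg⟩ := isConj_iff.1 (hA.1 y hy)
  have h1 : U y (U g w) = lam • U g w := by
    have : U g w ∈ F := by rw [hFtop]; trivial
    exact this y hy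
  rw [← hg, hmul, hmul, hinvl] at h1
  have h2 := congrArg (U g⁻¹) h1
  rw [hinvl, map_smul, hinvl] at h2
  exact h2

end Cfsg.Agent.Lib.H39Bld
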