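import Cfsg.Agent.Lib.H39Bli1
import Cfsg.Agent.Lib.CharBasic
import Mathlib.LinearAlgebra.Trace
import Mathlib.RingTheory.RootsOfUnity.Complex
import Mathlib.Analysis.Complex.Trigonometric

/-! Eigenprojections of an element of prime order, and Blichfeldt's theorem for
complex representations of simple groups. -/

set_option autoImplicit false
set_option linter.all false

namespace Cfsg.Agent.Lib.H39Bli

open scoped ComplexConjugate InnerProductSpace
open Cfsg.Agent.Lib.CharBasic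

section proj

variable {V : Type*} [AddCommGroup V] [Module ℂ V]
variable {G : Type*} [Group G]

/-- the projection on the `ζ ^ i` eigenspace of `y`. -/
noncomputable def pr (ρ : Representation ℂ G V) (y : G) (p : ℕ) (ζ : ℂ) (i : ℕ) : V →ₗ[ℂ] V :=
  (p : ℂ)⁻¹ • ∑ k ∈ Finset.range p, (ζ⁻¹ ^ (i * k)) • ρ (y ^ k)

theorem pr_apply (ρ : Representation ℂ G V) (y : G) (p : ℕ) (ζ : ℂ) (i : ℕ) (v : V) :
    pr ρ y p ζ i v = (p : ℂ)⁻¹ • ∑ k ∈ Finset.range p, (ζ⁻¹ ^ (i * k)) • ρ (y ^ k) v := by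
  simp [pr]

theorem rho_pr (ρ : Representation ℂ G V) {y : G} {p : ℕ} {ζ : ℂ} (hζ : ζ ^ p = 1) (hp : p ≠ 0)
    (hy : y ^ p = 1) (i : ℕ) (v : V) : ρ y (pr ρ y p ζ i v) = ζ ^ i • pr ρ y p ζ i v := by
  have hζ0 : ζ ≠ 0 := by
    rintro rfl
    rw [zero_pow hp] at hζ
    exact zero_ne_one hζ
  rw [pr_apply, map_smul, map_sum, smul_comm]
  congr 1
  have h1 : ∀ k, ρ y ((ζ⁻¹ ^ (i * k)) • ρ (y ^ k) v) =
      ζ ^ i • ((ζ⁻¹ ^ (i * (k + 1))) • ρ (y ^ (k + 1)) v) := by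
    intro k
    rw [map_smul, smul_smul, pow_succ' y k, map_mul]
    congr 1
    rw [mul_add, mul_one, pow_add, mul_left_comm, ← mul_pow, mul_inv_cancel₀ hζ0, one_pow, mul_one]
  rw [Finset.sum_congr rfl fun k _ => h1 k, ← Finset.smul_sum]
  congr 1
  have h2 := Finset.sum_range_succ (fun k => (ζ⁻¹ ^ (i * k)) • ρ (y ^ k) v) p
  have h3 := Finset.sum_range_succ' (fun k => (ζ⁻¹ ^ (i * k)) • ρ (y ^ k) v) p
  rw [h2] at h3
  have h4 : (ζ⁻¹ ^ (i * p)) • ρ (y ^ p) v = (ζ⁻¹ ^ (i * 0)) • ρ (y ^ 0) v := by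
    rw [hy, mul_comm i p, pow_mul, inv_pow, hζ, inv_one, one_pow, mul_zero, pow_zero, pow_zero]
  rw [h4] at h3
  exact (add_right_cancel h3).symm

theorem rho_pow_pr (ρ : Representation ℂ G V) {y : G} {p : ℕ} {ζ : ℂ} (hζ : ζ ^ p = 1) (hp : p ≠ 0)
    (hy : y ^ p = 1) (i k : ℕ) (v : V) :
    ρ (y ^ k) (pr ρ y p ζ i v) = (ζ ^ i) ^ k • pr ρ y p ζ i v := by
  induction k with
  | zero => simp
  | succ k ih =>
    rw [pow_succ' y, map_mul, Module.End.mul_apply, ih, map_smul, rho_pr ρ hζ hp hy, smul_smul, ← pow_succ]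

theorem pr_idem (ρ : Representation ℂ G V) {y : G} {p : ℕ} {ζ : ℂ} (hζ : ζ ^ p = 1) (hp : p ≠ 0)
    (hy : y ^ p = 1) (i : ℕ) : IsIdempotentElem (pr ρ y p ζ i) := by
  have hζ0 : ζ ≠ 0 := by
    rintro rfl
    rw [zero_pow hp] at hζ
    exact zero_ne_one hζ
  refine LinearMap.ext fun v => ?_
  rw [Module.End.mul_apply, pr_apply ρ y p ζ i (pr ρ y p ζ i v)]
  have h1 : ∀ k ∈ Finset.range p, (ζ⁻¹ ^ (i * k)) • ρ (y ^ k) (pr ρ y p ζ i v) = pr ρ y p ζ i v := by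
    intro k _
    rw [rho_pow_pr ρ hζ hp hy, smul_smul, pow_mul, ← mul_pow, ← mul_pow, inv_mul_cancel₀ hζ0, one_pow,
      one_pow, one_smul]
  rw [Finset.sum_congr rfl h1, Finset.sum_const, Finset.card_range, ← Nat.cast_smul_eq_nsmul ℂ, smul_smul,
    inv_mul_cancel₀ (by exact_mod_cast hp), one_smul]

theorem sum_pr (ρ : Representation ℂ G V) {y : G} {p : ℕ} (hp : p.Prime) {ζ : ℂ}
    (hζ : IsPrimitiveRoot ζ p) (v : V) : ∑ i ∈ Finset.range p, pr ρ y p ζ i v = v := by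
  simp only [pr_apply]
  rw [← Finset.smul_sum, Finset.sum_comm]
  have h1 : ∀ k ∈ Finset.range p, (∑ i ∈ Finset.range p, (ζ⁻¹ ^ (i * k)) • ρ (y ^ k) v) =
      if k = 0 then (p : ℂ) • v else 0 := by
    intro k hk
    rw [Finset.mem_range] at hk
    rw [← Finset.sum_smul]
    split_ifs with h
    · subst h
      simp
    · have h2 : IsPrimitiveRoot (ζ⁻¹ ^ k) p := by
        refine hζ.inv.pow_of_coprime k ?_
        exact (Nat.coprime_of_lt_prime h hk hp).symm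
      have h3 := h2.geom_sum_eq_zero hp.one_lt
      have h4 : (∑ i ∈ Finset.range p, ζ⁻¹ ^ (i * k)) = 0 := by
        rw [← h3]
        refine Finset.sum_congr rfl fun i _ => ?_
        rw [← pow_mul, mul_comm]
      rw [h4, zero_smul]
  rw [Finset.sum_congr rfl h1, Finset.sum_ite_eq' , if_pos (Finset.mem_range.2 hp.pos), smul_smul,
    inv_mul_cancel₀ (by exact_mod_cast hp.ne_zero), one_smul]

theorem trace_pr (ρ : Representation ℂ G V) (y : G) (p : ℕ) (ζ : ℂ) (i : ℕ) :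
    LinearMap.trace ℂ V (pr ρ y p ζ i) =
      (p : ℂ)⁻¹ * ∑ k ∈ Finset.range p, ζ⁻¹ ^ (i * k) * ρ.character (y ^ k) := by
  rw [pr, map_smul, map_sum, smul_eq_mul]
  congr 1
  refine Finset.sum_congr rfl fun k _ => ?_
  rw [map_smul, smul_eq_mul]
  rfl

theorem trace_pr_nat [FiniteDimensional ℂ V] (ρ : Representation ℂ G V) {y : G} {p : ℕ} {ζ : ℂ}
    (hζ : ζ ^ p = 1) (hp : p ≠ 0) (hy : y ^ p = 1) (i : ℕ) :
    ∃ n : ℕ, LinearMap.trace ℂ V (pr ρ y p ζ i) = n ∧ (n = 0 → pr ρ y p ζ i = 0) := by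
  have he := pr_idem ρ hζ hp hy i
  have h1 := (LinearMap.IsIdempotentElem.isProj_range _ he).trace
  refine ⟨_, h1, ?_⟩
  intro h
  rw [← LinearMap.IsIdempotentElem.trace_eq_zero_iff he, h1, h, Nat.cast_zero]

end proj

theorem norm_sq_sum {E : Type*} [NormedAddCommGroup E] [InnerProductSpace ℂ E] {ι : Type*}
    (s : Finset ι) (f : ι → E) (h : ∀ i ∈ s, ∀ j ∈ s, i ≠ j → ⟪f i, f j⟫_ℂ = 0) :
    ‖∑ i ∈ s, f i‖ ^ 2 = ∑ i ∈ s, ‖f i‖ ^ 2 := by
  classical
  induction s using Finset.induction_on with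
  | empty => simp
  | insert a s ha ih =>
    rw [Finset.sum_insert ha, Finset.sum_insert ha, ← ih fun i hi j hj => h i (Finset.mem_insert_of_mem hi) j
      (Finset.mem_insert_of_mem hj)]
    have h1 : ⟪f a, ∑ i ∈ s, f i⟫_ℂ = 0 := by
      rw [inner_sum]
      exact Finset.sum_eq_zero fun i hi => h a (Finset.mem_insert_self _ _) i
        (Finset.mem_insert_of_mem hi) (by rintro rfl; exact ha hi)
    have h2 := norm_add_sq_eq_norm_sq_add_norm_sq_of_inner_eq_zero (𝕜 := ℂ) (f a) (∑ i ∈ s, f i) h1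
    nlinarith [h2]

section main

variable {G : Type*} [Group G] [Finite G]

/-- the unitary structure. -/
noncomputable def emb [Fintype G] {n : ℕ} (ρ : Representation ℂ G (Fin n → ℂ)) :
    (Fin n → ℂ) →ₗ[ℂ] EuclideanSpace ℂ (G × Fin n) where
  toFun v := WithLp.toLp 2 fun q => ρ q.1 v q.2
  map_add' a b := by ext q; simp
  map_smul' c a := by ext q; simp

theorem emb_inj [Fintype G] {n : ℕ} (ρ : Representation ℂ G (Fin n → ℂ)) :
    Function.Injective (emb ρ) := by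
  intro v w h
  funext i
  have h1 := congrArg (fun z : EuclideanSpace ℂ (G × Fin n) => z (1, i)) h
  simpa [emb] using h1

theorem emb_inner [Fintype G] {n : ℕ} (ρ : Representation ℂ G (Fin n → ℂ)) (g : G) (v w : Fin n → ℂ) :
    ⟪emb ρ (ρ g v), emb ρ (ρ g w)⟫_ℂ = ⟪emb ρ v, emb ρ w⟫_ℂ := by
  rw [PiLp.inner_apply, PiLp.inner_apply]
  refine Fintype.sum_equiv ((Equiv.mulRight g).prodCongr (Equiv.refl _)) _ _ ?_
  rintro ⟨h, i⟩
  simp [emb, map_mul]

theorem bli_rep [IsSimpleGroup G] {n : ℕ} (ρ : Representation ℂ G (Fin n → ℂ)) (hρ : ρ.IsIrreducible)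
    {y : G} {p : ℕ} (hp : p.Prime) (hy : y ^ p = 1) {ζ : ℂ} (hζ : IsPrimitiveRoot ζ p)
    (I : Finset ℕ) (hI : I ⊆ Finset.range p) (hI0 : ∀ i ∈ Finset.range p, i ∉ I → pr ρ y p ζ i = 0)
    (i1 : ℕ) (hi1 : pr ρ y p ζ i1 ≠ 0) (d : ℕ) (hd : y ^ d ≠ 1)
    (hdI : ∀ i ∈ I, ‖(ζ ^ i) ^ d - (ζ ^ i1) ^ d‖ < 1) :
    ∀ w, ρ (y ^ d) w = (ζ ^ i1) ^ d • w := by
  classical
  haveI := Fintype.ofFinite G
  have hζp := hζ.pow_eq_one
  let e := LinearEquiv.ofInjective (emb ρ) (emb_inj ρ)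
  have he : ∀ v, ((e v : LinearMap.range (emb ρ)) : EuclideanSpace ℂ (G × Fin n)) = emb ρ v := fun v => rfl
  set U := conjRep ρ e with hU
  have hUe : ∀ g v, U g (e v) = e (ρ g v) := fun g v => by
    rw [hU, conjRep_apply, LinearEquiv.symm_apply_apply]
  set lam := (ζ ^ i1) ^ d with hlam
  have hinner : ∀ g v w, ⟪U g v, U g w⟫_ℂ = ⟪v, w⟫_ℂ := by
    intro g v w
    obtain ⟨v, rfl⟩ := e.surjective v
    obtain ⟨w, rfl⟩ := e.surjective w
    rw [hUe, hUe, Submodule.coe_inner, Submodule.coe_inner, he, he, he, he, emb_inner]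
  have key := blichfeldt (E := LinearMap.range (emb ρ)) U hinner ?_ (y ^ d) hd lam ?_ ?_
  · intro w
    have h1 := key (e w)
    rw [hUe, ← map_smul] at h1
    exact e.injective h1
  · intro W hW
    haveI : U.IsIrreducible := isIrreducible_of_equiv (conjRepEquiv ρ e) hρ
    let S : Subrepresentation U := ⟨W, fun g w hw => hW g w hw⟩
    rcases eq_bot_or_eq_top S with h | h
    · left
      exact congrArg Subrepresentation.toSubmodule h
    · right
      exact congrArg Subrepresentation.toSubmodule h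
  · -- the norm estimate
    intro w hw
    obtain ⟨v, rfl⟩ := e.surjective w
    have hv0 : v ≠ 0 := by rintro rfl; exact hw (map_zero _)
    have hdec : v = ∑ i ∈ I, pr ρ y p ζ i v := by
      conv_lhs => rw [← sum_pr ρ (y := y) hp hζ v]
      refine (Finset.sum_subset hI fun i hi hiI => ?_).symm
      rw [hI0 i hi hiI]; rfl
    have horth : ∀ i ∈ I, ∀ j ∈ I, i ≠ j → ⟪emb ρ (pr ρ y p ζ i v), emb ρ (pr ρ y p ζ j v)⟫_ℂ = 0 := by
      intro i hi j hj hij
      have h1 := emb_inner ρ y (pr ρ y p ζ i v) (pr ρ y p ζ j v)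
      rw [rho_pr ρ hζp hp.ne_zero hy, rho_pr ρ hζp hp.ne_zero hy, map_smul, map_smul, inner_smul_left,
        inner_smul_right, ← mul_assoc] at h1
      by_contra hne
      have h2 : conj (ζ ^ i) * ζ ^ j = 1 := mul_right_cancel₀ hne (by rw [h1, one_mul])
      have h3 : conj (ζ ^ i) * ζ ^ i = 1 := by
        have h4 : ‖ζ ^ i‖ = 1 := by rw [norm_pow, hζ.norm'_eq_one hp.ne_zero, one_pow]
        rw [← Complex.normSq_eq_conj_mul_self, Complex.normSq_eq_norm_sq, h4]; simp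
      have h5 : ζ ^ j = ζ ^ i := mul_left_cancel₀ (left_ne_zero_of_mul_eq_one h3) (h2.trans h3.symm)
      exact hij (hζ.pow_inj (Finset.mem_range.1 (hI hi)) (Finset.mem_range.1 (hI hj)) h5.symm)
    have h1 : U (y ^ d) (e v) - lam • e v = e (∑ i ∈ I, (((ζ ^ i) ^ d - lam) • pr ρ y p ζ i v)) := by
      rw [hUe, ← map_smul, ← map_sub]
      congr 1
      conv_lhs => rw [hdec]
      rw [map_sum, Finset.smul_sum, ← Finset.sum_sub_distrib]
      refine Finset.sum_congr rfl fun i _ => ?_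
      rw [rho_pow_pr ρ hζp hp.ne_zero hy, sub_smul]
    have h2 : ‖U (y ^ d) (e v) - lam • e v‖ ^ 2 = ∑ i ∈ I, ‖(ζ ^ i) ^ d - lam‖ ^ 2 *
        ‖emb ρ (pr ρ y p ζ i v)‖ ^ 2 := by
      rw [h1, Submodule.coe_norm, he, map_sum, norm_sq_sum]
      · refine Finset.sum_congr rfl fun i _ => ?_
        rw [map_smul, norm_smul, mul_pow]
      · intro i hi j hj hij
        rw [map_smul, map_smul, inner_smul_left, inner_smul_right, horth i hi j hj hij, mul_zero, mul_zero]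
    have h3 : ‖e v‖ ^ 2 = ∑ i ∈ I, ‖emb ρ (pr ρ y p ζ i v)‖ ^ 2 := by
      rw [Submodule.coe_norm, he, ← norm_sq_sum I _ horth, ← map_sum, ← hdec]
    have h4 : ‖U (y ^ d) (e v) - lam • e v‖ ^ 2 < ‖e v‖ ^ 2 := by
      rw [h2, h3]
      refine Finset.sum_lt_sum ?_ ?_
      · intro i hi
        have h5 : ‖(ζ ^ i) ^ d - lam‖ ^ 2 ≤ 1 := by
          exact pow_le_one₀ (norm_nonneg _) (hdI i hi).le
        exact mul_le_of_le_one_left (by positivity) h5
      · have h5 : ∃ i ∈ I, pr ρ y p ζ i v ≠ 0 := by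
          by_contra hcon
          push Not at hcon
          exact hv0 (hdec.trans (Finset.sum_eq_zero hcon))
        obtain ⟨i, hi, hiv⟩ := h5
        refine ⟨i, hi, ?_⟩
        have h6 : 0 < ‖emb ρ (pr ρ y p ζ i v)‖ := by
          rw [norm_pos_iff]
          intro h7
          exact hiv (emb_inj ρ (by rw [h7, map_zero]))
        have h7 : ‖(ζ ^ i) ^ d - lam‖ ^ 2 < 1 := pow_lt_one₀ (norm_nonneg _) (hdI i hi) two_ne_zero
        have h8 : 0 < ‖emb ρ (pr ρ y p ζ i v)‖ ^ 2 := by positivity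
        nlinarith
    exact lt_of_pow_lt_pow_left₀ 2 (norm_nonneg _) h4
  · -- eigenvector
    have h1 : ∃ v, pr ρ y p ζ i1 v ≠ 0 := by
      by_contra hcon
      push Not at hcon
      exact hi1 (LinearMap.ext hcon)
    obtain ⟨v, hv⟩ := h1
    refine ⟨e (pr ρ y p ζ i1 v), fun h => hv (e.injective (by rw [h, map_zero])), ?_⟩
    rw [hUe, rho_pow_pr ρ hζp hp.ne_zero hy, map_smul]

end main

end Cfsg.Agent.Lib.H39Bli
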