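import Mathlib
import Cfsg.Agent.Lib.H39Lin1
import Cfsg.Agent.Lib.H39Lin2
import Cfsg.Agent.Lib.Cores3
import Cfsg.Agent.Lib.MinNormSolv
import Cfsg.Agent.Lib.CoreFree
import Cfsg.Agent.Lib.Codegree
import Cfsg.Agent.Lib.CliffordCorr
import Cfsg.Agent.Lib.CrossDeg
import Cfsg.Agent.Lib.Fitting
import Cfsg.Agent.Lib.CharApps

/-!
Degrees of faithful irreducible characters of solvable groups without normal Sylow subgroup
(helper39).
-/

set_option autoImplicit false

namespace Cfsg.Agent.Lib.H39Lin3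

open Subgroup Cfsg Cfsg.Agent.Lib Cfsg.Agent.Lib.H39Lin1 Cfsg.Agent.Lib.H39Lin2
  Cfsg.Agent.Lib.CharBasic Cfsg.Agent.Lib.Clifford

universe u

variable {G : Type u} [Group G] [Finite G] {p : ℕ} [hp : Fact p.Prime]

/-! ### Group theoretic parts -/

theorem conj_pow_of_fix {a d y : G} (hy : a * d = y * d * a) (hfix : a * y = y * a) (n : ℕ) :
    a ^ n * d = y ^ n * d * a ^ n := by
  have hc : ∀ n : ℕ, a ^ n * y = y * a ^ n := by
    intro n
    induction n with
    | zero => simp
    | succ n ih => rw [pow_succ, mul_assoc, hfix, ← mul_assoc, ih, mul_assoc]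
  induction n with
  | zero => simp
  | succ n ih =>
    calc a ^ (n + 1) * d = a ^ n * (a * d) := by rw [pow_succ, mul_assoc]
      _ = a ^ n * y * d * a := by rw [hy]; group
      _ = y * (a ^ n * d) * a := by rw [hc]; group
      _ = y * (y ^ n * d * a ^ n) * a := by rw [ih]
      _ = y ^ (n + 1) * d * a ^ (n + 1) := by rw [pow_succ', pow_succ]; group

theorem comm_of_fix {r : ℕ} [hr : Fact r.Prime] (hrp : r ≠ p) (D : Subgroup G) (hD : IsPGroup r D)
    {a d : G} (ha : ∃ k : ℕ, a ^ p ^ k = 1) (hyD : a * d * a⁻¹ * d⁻¹ ∈ D)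
    (hfix : a * (a * d * a⁻¹ * d⁻¹) = (a * d * a⁻¹ * d⁻¹) * a) : a * d * a⁻¹ * d⁻¹ = 1 := by
  obtain ⟨k, hk⟩ := ha
  have h1 := conj_pow_of_fix (a := a) (d := d) (y := a * d * a⁻¹ * d⁻¹) (by group) hfix (p ^ k)
  rw [hk, one_mul, mul_one] at h1
  have h2 : (a * d * a⁻¹ * d⁻¹) ^ p ^ k = 1 := by
    have := h1.symm
    rwa [mul_eq_right] at this
  obtain ⟨j, hj⟩ := hD ⟨_, hyD⟩
  have h3 : (a * d * a⁻¹ * d⁻¹) ^ r ^ j = 1 := congrArg Subtype.val hj
  have h4 : orderOf (a * d * a⁻¹ * d⁻¹) ∣ p ^ k := orderOf_dvd_of_pow_eq_one h2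
  have h5 : orderOf (a * d * a⁻¹ * d⁻¹) ∣ r ^ j := orderOf_dvd_of_pow_eq_one h3
  have h6 : (r ^ j).Coprime (p ^ k) :=
    Nat.Coprime.pow _ _ ((Nat.coprime_primes hr.out hp.out).mpr hrp)
  exact orderOf_eq_one_iff.mp (Nat.eq_one_of_dvd_coprimes h6 h5 h4)

theorem coatom_step [hs : Group.IsSolvable G] (M : Subgroup G) (hM : IsCoatom M) :
    (∃ q : ℕ, IsPrimePow q ∧ q ∣ M.index ∧ (p ∣ q - 1 ∨ p ∣ q)) ∨
      ∀ a : G, (∃ k : ℕ, a ^ p ^ k = 1) → a ∈ M.normalCore := by
  obtain ⟨C, hC⟩ : ∃ C : Subgroup G, C = M.normalCore := ⟨_, rfl⟩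
  rw [← hC]
  have hCn : C.Normal := by rw [hC]; infer_instance
  have hCM : C ≤ M := by rw [hC]; exact normalCore_le M
  set f := QuotientGroup.mk' C with hf
  have hfs : Function.Surjective f := QuotientGroup.mk'_surjective C
  set M' := M.map f with hM'
  have hcomap : M'.comap f = M := by
    rw [hM', comap_map_eq, QuotientGroup.ker_mk', sup_eq_left.2 hCM]
  have hidx : M'.index = M.index := by
    rw [← index_comap_of_surjective M' hfs, hcomap]
  have hcore : M'.normalCore = ⊥ := by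
    have h1 : (M'.normalCore).comap f ≤ M := le_trans (comap_mono (normalCore_le M')) hcomap.le
    have h2 : (M'.normalCore).comap f ≤ C := by
      have : ((M'.normalCore).comap f).Normal := (inferInstance : (M'.normalCore).Normal).comap f
      exact le_trans ((normal_le_normalCore).2 h1) hC.ge
    rw [eq_bot_iff]
    intro x hx
    obtain ⟨y, rfl⟩ := hfs x
    exact (QuotientGroup.eq_one_iff y).2 (h2 hx)
  have hMtop : M' ≠ ⊤ := by
    intro h
    rw [h, comap_top] at hcomap
    exact hM.1 hcomap.symm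
  have hmax : ∀ K : Subgroup (G ⧸ C), M' < K → K = ⊤ := by
    intro K hK
    have h1 : M < K.comap f :=
      lt_of_eq_of_lt hcomap.symm ((comap_lt_comap_of_surjective hfs).2 hK)
    have h2 := hM.2 _ h1
    have h3 := congrArg (Subgroup.map f) h2
    rwa [map_comap_eq_self_of_surjective hfs, ← MonoidHom.range_eq_map, MonoidHom.range_eq_top.2 hfs] at h3
  have hco : IsCoatom M' := ⟨hMtop, hmax⟩
  have hnt : (⊤ : Subgroup (G ⧸ C)) ≠ ⊥ := by
    intro h
    apply hMtop
    rw [eq_top_iff, h]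
    exact bot_le
  obtain ⟨V, hV, hV1, -, hVmin⟩ := Cores.exists_minNormal_le (G := G ⧸ C) (K := ⊤) inferInstance hnt
  obtain ⟨r, hr, hVc, hVr⟩ := MinNormSolv.elementary_of_minimal hV1 hVmin
  obtain ⟨d, hd0, hd⟩ := MinNormSolv.card_eq_prime_pow hV1 hr hVr
  have hVcomm : ∀ a b : V, a * b = b * a := fun a b => hVc.is_comm.comm a b
  have hVle : V ≤ Subgroup.centralizer (V : Set (G ⧸ C)) := by
    intro x hx
    rw [mem_centralizer_iff]
    intro y hy
    exact congrArg Subtype.val (hVcomm ⟨y, hy⟩ ⟨x, hx⟩)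
  have hcent : V = Subgroup.centralizer (V : Set (G ⧸ C)) :=
    (CoreFree.centralizer_minimal hco hcore hV1 V hVle).resolve_left hV1
  have hinf : V ⊓ M' = ⊥ := by
    have := CoreFree.centralizer_inf_eq_bot (N := V) hco hcore hV1
    rwa [← hcent] at this
  have hcompl := CoreFree.isComplement'_of hco hcore hV1 hinf
  have hcard : M.index = Nat.card V := by
    rw [← hidx, hcompl.index_eq_card]
  haveI : Fact r.Prime := ⟨hr⟩
  by_cases hrp : r = p
  · left
    refine ⟨r, hr.isPrimePow, ?_, Or.inr (by rw [hrp])⟩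
    rw [hcard, hd]
    exact dvd_pow_self r (by omega)
  · by_cases hall : ∀ a : G, (∃ k : ℕ, a ^ p ^ k = 1) → a ∈ C
    · exact Or.inr hall
    · left
      push Not at hall
      obtain ⟨a, ⟨k, hk⟩, haC⟩ := hall
      have ha1 : f a ≠ 1 := fun h => haC ((QuotientGroup.eq_one_iff a).1 h)
      have hfa : (f a) ^ p ^ k = 1 := by rw [← map_pow, hk, map_one]
      have haV : f a ∉ V := by
        intro h
        apply ha1
        have h4 : orderOf (f a) ∣ p ^ k := orderOf_dvd_of_pow_eq_one hfa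
        have h5 : orderOf (f a) ∣ r := orderOf_dvd_of_pow_eq_one (hVr _ h)
        have h6 : r.Coprime (p ^ k) :=
          Nat.Coprime.pow_right _ ((Nat.coprime_primes hr hp.out).mpr hrp)
        exact orderOf_eq_one_iff.mp (Nat.eq_one_of_dvd_coprimes h6 h5 h4)
      have hne : (MulAut.conjNormal (f a) : MulAut V) ≠ 1 := by
        intro h
        apply haV
        rw [hcent, mem_centralizer_iff]
        intro v hv
        have h1 : (MulAut.conjNormal (f a) : MulAut V) ⟨v, hv⟩ = ⟨v, hv⟩ := by rw [h]; rfl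
        have h2 := congrArg Subtype.val h1
        rw [MulAut.conjNormal_apply] at h2
        simp only at h2
        calc v * f a = f a * v * (f a)⁻¹ * f a := by rw [h2]
          _ = f a * v := by group
      have hfp : (MulAut.conjNormal (f a) : MulAut V) ^ p ^ k = 1 := by
        rw [← map_pow, hfa, map_one]
      have hcop : (Nat.card V).Coprime p := by
        rw [hd]
        exact Nat.Coprime.pow_left _ ((Nat.coprime_primes hr hp.out).mpr hrp)
      obtain ⟨W, hW1, -, -, hWc⟩ := exists_W hVcomm _ hfp hne hcop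
      have hWd : Nat.card W ∣ r ^ d := by rw [← hd]; exact W.card_subgroup_dvd_card
      obtain ⟨j, -, hj⟩ := (Nat.dvd_prime_pow hr).mp hWd
      have hj0 : j ≠ 0 := by
        rintro rfl
        rw [pow_zero] at hj
        exact hW1 (Subgroup.card_eq_one.1 hj)
      refine ⟨Nat.card W, ?_, ?_, Or.inl ?_⟩
      · rw [hj]; exact hr.isPrimePow.pow hj0
      · rw [hcard]; exact W.card_subgroup_dvd_card
      · exact (Nat.modEq_iff_dvd' Nat.card_pos).mp hWc.symm

/-! ### Constituents -/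

theorem PC_of_constituents {χ : G → ℂ} (hχ : IsCharacter G χ) (hf : ∀ g, χ g = χ 1 → g = 1)
    (h : ∀ ψ : G → ℂ, IsIrrCharacter G ψ → (∀ [Fintype G], classInner χ ψ ≠ 0) →
      ∃ (N : Subgroup G) (_ : N.Normal), (∀ x ∈ N, ψ x = ψ 1) ∧ PC p (G ⧸ N)) : PC p G := by
  classical
  have := Fintype.ofFinite G
  have hex := hχ.isClassFunction.expansion
  let ι := {ψ : IrrCharacter G // classInner χ (ψ : G → ℂ) ≠ 0}
  have h' : ∀ i : ι, ∃ (N : Subgroup G) (_ : N.Normal), (∀ x ∈ N, (i.1 : G → ℂ) x = (i.1 : G → ℂ) 1) ∧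
      PC p (G ⧸ N) := by
    intro i
    apply h _ i.1.2
    intro _
    convert i.2
  choose N hN hNk hNP using h'
  haveI : ∀ i, (N i).Normal := hN
  apply PC_of_family N _ hNP
  intro x hx
  apply hf
  rw [hex]
  simp only [Finset.sum_apply, Pi.smul_apply, smul_eq_mul]
  apply Finset.sum_congr rfl
  intro ψ _
  by_cases h0 : classInner χ (ψ : G → ℂ) = 0
  · rw [h0, zero_mul, zero_mul]
  · rw [hNk ⟨ψ, h0⟩ x (hx _)]

/-! ### The quasi-primitive case -/

theorem exists_under {χ : G → ℂ} (hχ : IsIrrCharacter G χ) (N : Subgroup G) [Fintype N] :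
    ∃ θ : N → ℂ, IsIrrCharacter N θ ∧ classInner (fun n : N => χ n) θ ≠ 0 := by
  obtain ⟨θ, hθ⟩ := exists_constituent (hχ.isCharacter.restrict N) (by
    intro h
    exact hχ.one_ne_zero (congrFun h 1))
  exact ⟨θ, θ.2, hθ⟩

theorem faithful_of_inv {χ : G → ℂ} (hχ : IsIrrCharacter G χ) (hf : ∀ g, χ g = χ 1 → g = 1)
    (N : Subgroup G) [N.Normal] [Fintype N] {θ : N → ℂ} (hθ : IsIrrCharacter N θ)
    (h1 : classInner (fun n : N => χ n) θ ≠ 0) (hinv : ∀ g, cj N g θ = θ) (n : N)
    (hn : θ n = θ 1) : n = 1 := by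
  have := Fintype.ofFinite G
  have h := res_eq_smul_of_invariant hχ hθ hinv h1
  have h2 := congrFun h n
  have h3 := congrFun h 1
  rw [Pi.smul_apply, hn, ← Pi.smul_apply, ← h3] at h2
  exact Subtype.ext (hf _ h2)

theorem degree_dvd {χ : G → ℂ} (hχ : IsIrrCharacter G χ) (N : Subgroup G) [N.Normal] [Fintype N]
    {θ : N → ℂ} (hθ : IsIrrCharacter N θ) (h1 : classInner (fun n : N => χ n) θ ≠ 0) :
    charDegree θ ∣ charDegree χ := by
  have := Fintype.ofFinite G
  have h3 := CliffordCorr.degree_clifford hχ hθ h1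
  obtain ⟨e, he⟩ := (hχ.isCharacter.restrict N).classInner_nat hθ.isCharacter
  rw [he, ← DefectZero.charDegree_eq hχ.isCharacter, ← DefectZero.charDegree_eq hθ.isCharacter] at h3
  have h4 : charDegree χ = e * ((inertia N θ).index * charDegree θ) := by exact_mod_cast h3
  rw [h4]
  exact ⟨e * (inertia N θ).index, by ring⟩

/-- Abelian normal subgroups are central if all constituents are invariant. -/
theorem central_of_abelian {χ : G → ℂ} (hχ : IsIrrCharacter G χ) (hf : ∀ g, χ g = χ 1 → g = 1)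
    (hinv : ∀ (N : Subgroup G) [N.Normal] [Fintype N] (θ : N → ℂ), IsIrrCharacter N θ →
      classInner (fun n : N => χ n) θ ≠ 0 → ∀ g, cj N g θ = θ)
    (A : Subgroup G) [hA : A.Normal] (hAc : ∀ a b : A, a * b = b * a) : A ≤ center G := by
  classical
  have := Fintype.ofFinite G
  have := Fintype.ofFinite A
  obtain ⟨θ, hθ, hne⟩ := exists_under hχ A
  have hi := hinv A θ hθ hne
  have h1 := hθ.one_eq_one_of_comm hAc
  intro a ha
  rw [mem_center_iff]
  intro g
  have h2 : θ (⟨g * a * g⁻¹, hA.conj_mem a ha g⟩ * ⟨a, ha⟩⁻¹) = θ 1 := by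
    have h3 : θ ⟨g * a * g⁻¹, hA.conj_mem a ha g⟩ = θ ⟨a, ha⟩ := congrFun (hi g) ⟨a, ha⟩
    rw [hθ.isCharacter.map_mul_of_linear h1, h3, ← hθ.isCharacter.map_mul_of_linear h1,
      mul_inv_cancel]
  have h4 := faithful_of_inv hχ hf A hθ hne hi _ h2
  have h5 : g * a * g⁻¹ * a⁻¹ = 1 := congrArg Subtype.val h4
  calc g * a = (g * a * g⁻¹ * a⁻¹) * a * g := by group
    _ = a * g := by rw [h5, one_mul]

/-- The subgroup generated by all `p`-elements. -/
def pgen (p : ℕ) (G : Type*) [Group G] : Subgroup G := closure {a : G | ∃ k : ℕ, a ^ p ^ k = 1}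

instance pgen_normal : (pgen p G).Normal := by
  refine ⟨?_⟩
  intro n hn g
  induction hn using closure_induction with
  | mem x hx =>
    obtain ⟨k, hk⟩ := hx
    exact subset_closure ⟨k, by rw [conj_pow, hk, mul_one, mul_inv_cancel]⟩
  | one => simp
  | mul x y _ _ h1 h2 =>
    have : g * (x * y) * g⁻¹ = (g * x * g⁻¹) * (g * y * g⁻¹) := by group
    rw [this]
    exact mul_mem h1 h2
  | inv x _ h1 =>
    have : g * x⁻¹ * g⁻¹ = (g * x * g⁻¹)⁻¹ := by group
    rw [this]
    exact inv_mem h1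

theorem caseB [hs : Group.IsSolvable G] {χ : G → ℂ} (hχ : IsIrrCharacter G χ)
    (hf : ∀ g, χ g = χ 1 → g = 1)
    (hinv : ∀ (N : Subgroup G) [N.Normal] [Fintype N] (θ : N → ℂ), IsIrrCharacter N θ →
      classInner (fun n : N => χ n) θ ≠ 0 → ∀ g, cj N g θ = θ) (hPC : ¬ PC p G) :
    ∃ q : ℕ, IsPrimePow q ∧ q ∣ charDegree χ ∧ (p ∣ q - 1 ∨ p ∣ q ∨ p ∣ q + 1) := by
  classical
  have := Fintype.ofFinite G
  -- some `p`-element does not centralize some `O_r(G)`
  have h1 : ∃ r : ℕ, r.Prime ∧ ¬ pgen p G ≤ Subgroup.centralizer (pCore r G : Set G) := by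
    by_contra hno
    push Not at hno
    apply hPC
    have h2 : pgen p G ≤ fittingSubgroup G := by
      refine le_trans ?_ (Fitting.centralizer_fittingSubgroup_le (G := G))
      rw [Subgroup.le_centralizer_iff, Fitting.fittingSubgroup_eq_iSup_pCore]
      apply iSup_le
      intro r
      rw [Subgroup.le_centralizer_iff]
      exact hno r r.2
    apply PC_of_sub (fittingSubgroup G) (fun a ha => h2 (subset_closure ha))
    exact PC_of_nilpotent Fitting.isNilpotent_fittingSubgroup
  obtain ⟨r, hr, hrn⟩ := h1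
  haveI : Fact r.Prime := ⟨hr⟩
  -- minimal such subgroup
  set S : Set (Subgroup G) := {D | D.Normal ∧ D ≤ pCore r G ∧
    ¬ pgen p G ≤ Subgroup.centralizer (D : Set G)} with hS
  have hSne : S.Nonempty := ⟨pCore r G, Fitting.normal_pCore r, le_rfl, hrn⟩
  obtain ⟨D, hD, hmin⟩ := S.toFinite.exists_minimal hSne
  have hmin' : ∀ W : Subgroup G, W ≤ D → W ∈ S → W = D := fun W h1 h2 => le_antisymm h1 (hmin h2 h1)
  obtain ⟨hDn, hDle, hDc⟩ := hD
  have hDp : IsPGroup r D := (Fitting.isPGroup_pCore r).to_le hDle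
  have hsmall : ∀ W : Subgroup G, W.Normal → W ≤ D → W ≠ D →
      pgen p G ≤ Subgroup.centralizer (W : Set G) := by
    intro W hWn hWD hne
    by_contra hno
    exact hne (hmin' W hWD ⟨hWn, hWD.trans hDle, hno⟩)
  have hDnc : ¬ D ≤ center G := by
    intro h
    apply hDc
    intro x _
    rw [mem_centralizer_iff]
    intro y hy
    exact (mem_center_iff.mp (h hy) x).symm
  have := Fintype.ofFinite D
  obtain ⟨θ, hθ, hne⟩ := exists_under hχ D
  have hi := hinv D θ hθ hne
  have hθf := faithful_of_inv hχ hf D hθ hne hi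
  have hdeg := degree_dvd hχ D hθ hne
  have hdc := DefectZero.charDegree_eq hθ.isCharacter
  by_cases hrp : r = p
  · subst hrp
    refine ⟨r, hr.isPrimePow, ?_, Or.inr (Or.inl dvd_rfl)⟩
    refine dvd_trans ?_ hdeg
    have h2 : charDegree θ ∣ Nat.card D := CharApps.irr_degree_dvd_card hθ hdc.symm
    obtain ⟨n, hn⟩ := hDp.exists_card_eq
    rw [hn] at h2
    obtain ⟨j, -, hj⟩ := (Nat.dvd_prime_pow hr).mp h2
    rw [hj]
    apply dvd_pow_self
    rintro rfl
    apply hDnc
    apply central_of_abelian hχ hf hinv D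
    have h3 : θ 1 = 1 := by rw [← hdc, hj]; simp
    intro a b
    have h4 : θ (a * b * (b * a)⁻¹) = θ 1 := by
      rw [hθ.isCharacter.map_mul_of_linear h3, hθ.isCharacter.map_mul_of_linear h3, mul_comm (θ a),
        ← hθ.isCharacter.map_mul_of_linear h3, ← hθ.isCharacter.map_mul_of_linear h3, mul_inv_cancel]
    exact mul_inv_eq_one.mp (hθf _ h4)
  · -- `r ≠ p`
    set K := pgen p G with hK
    have hKD : ⁅K, D⁆ = D := by
      by_contra hne'
      have hle : ⁅K, D⁆ ≤ D := commutator_le_right K D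
      have h2 := hsmall ⁅K, D⁆ inferInstance hle hne'
      apply hDc
      rw [hK, pgen, closure_le]
      intro a ha
      rw [SetLike.mem_coe, mem_centralizer_iff]
      intro d hd
      have haK : a ∈ K := subset_closure ha
      have h3 : a * d * a⁻¹ * d⁻¹ ∈ ⁅K, D⁆ := commutator_mem_commutator haK hd
      have h4 := mem_centralizer_iff.mp (h2 haK) _ h3
      have h5 := comm_of_fix (p := p) hrp D hDp ha (hle h3) h4.symm
      calc d * a = (a * d * a⁻¹ * d⁻¹) * (d * a) := by rw [h5, one_mul]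
        _ = a * d := by group
    have hcen : ∀ W : Subgroup G, W.Normal → W ≤ D → W ≠ D → ⁅W, D⁆ = ⊥ := by
      intro W hWn hWD hWne
      have h2 := hsmall W hWn hWD hWne
      have h3 : ⁅W, D⁆ ≤ W := commutator_le_left W D
      have h4 : ⁅W, K⁆ = ⊥ := by
        rw [commutator_eq_bot_iff_le_centralizer, Subgroup.le_centralizer_iff]
        exact h2
      have h5 : ⁅⁅D, W⁆, K⁆ = ⊥ := by
        rw [commutator_eq_bot_iff_le_centralizer, Subgroup.le_centralizer_iff]
        refine h2.trans (Subgroup.centralizer_le ?_)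
        exact commutator_le_right D W
      have h6 : ⁅⁅W, K⁆, D⁆ = ⊥ := by rw [h4]; simp
      have h7 : ⁅⁅K, D⁆, W⁆ = ⊥ := by
        exact commutator_commutator_eq_bot_of_rotate h5 h6
      rw [hKD, commutator_comm] at h7
      exact h7
    have hDbot : D ≠ ⊥ := by
      rintro rfl
      exact hDnc bot_le
    have hDD : ⁅D, D⁆ < D := Group.IsSolvable.commutator_lt_of_ne_bot hDbot
    have hDD2 := hcen ⁅D, D⁆ inferInstance hDD.le hDD.ne
    rw [commutator_eq_bot_iff_le_centralizer] at hDD2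
    have hcl : ∀ x y : D, x * y * x⁻¹ * y⁻¹ ∈ center D := by
      intro x y
      rw [mem_center_iff]
      intro g
      have h2 : (x * y * x⁻¹ * y⁻¹ : G) ∈ ⁅D, D⁆ := commutator_mem_commutator x.2 y.2
      have h3 := mem_centralizer_iff.mp (hDD2 h2) g g.2
      exact Subtype.ext h3
    have hZ : (center D).map D.subtype ≤ center G := by
      haveI : ((center D).map D.subtype).Normal := ConjAct.normal_of_characteristic_of_normal
      apply central_of_abelian hχ hf hinv
      rintro ⟨_, a, ha, rfl⟩ ⟨_, b, hb, rfl⟩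
      apply Subtype.ext
      have h2 := mem_center_iff.mp hb a
      have h3 := congrArg (D.subtype) h2
      rw [map_mul, map_mul] at h3
      exact h3
    have h8 : ∃ a : G, (∃ k : ℕ, a ^ p ^ k = 1) ∧ a ∉ Subgroup.centralizer (D : Set G) := by
      by_contra hno
      push Not at hno
      apply hDc
      rw [hK, pgen, closure_le]
      intro a ha
      exact hno a ha
    obtain ⟨a, ⟨k, hk⟩, haD⟩ := h8
    have hfk : (MulAut.conjNormal a : MulAut D) ^ p ^ k = 1 := by
      rw [← map_pow, hk, map_one]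
    have hne2 : ∃ d : D, (MulAut.conjNormal a : MulAut D) d * d⁻¹ ∉ center D := by
      by_contra hno
      push Not at hno
      apply haD
      rw [mem_centralizer_iff]
      intro d hd
      have h2 := hno ⟨d, hd⟩
      have h3 : a * d * a⁻¹ * d⁻¹ ∈ (center D).map D.subtype := ⟨_, h2, rfl⟩
      have h4 : a * d * a⁻¹ * d⁻¹ ∈ D := by
        obtain ⟨z, -, hz⟩ := h3
        rw [← hz]; exact z.2
      have h5 := mem_center_iff.mp (hZ h3) a
      have h6 := comm_of_fix (p := p) hrp D hDp ⟨k, hk⟩ h4 h5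
      calc d * a = (a * d * a⁻¹ * d⁻¹) * (d * a) := by rw [h6, one_mul]
        _ = a * d := by group
    obtain ⟨q, hq1, hq2, hq3⟩ := exists_q hrp hDp hcl hθ (fun z _ h => hθf z h) hdc.symm _ hfk hne2
    exact ⟨q, hq1, hq2.trans hdeg, by tauto⟩

/-! ### The main induction -/

theorem main_aux (p : ℕ) [hp : Fact p.Prime] (n : ℕ) : ∀ (G : Type u) [Group G] [Finite G],
    Nat.card G = n → Group.IsSolvable G → ∀ χ : G → ℂ, IsIrrCharacter G χ →
    (∀ g, χ g = χ 1 → g = 1) → ¬ PC p G →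
    ∃ q : ℕ, IsPrimePow q ∧ q ∣ charDegree χ ∧ (p ∣ q - 1 ∨ p ∣ q ∨ p ∣ q + 1) := by
  classical
  induction n using Nat.strong_induction_on with
  | _ n ih =>
  intro G _ _ hn hs χ hχ hf hPC
  haveI := hs
  have := Fintype.ofFinite G
  by_cases hinv : ∀ (N : Subgroup G) [N.Normal] [Fintype N] (θ : N → ℂ), IsIrrCharacter N θ →
      classInner (fun n : N => χ n) θ ≠ 0 → ∀ g, cj N g θ = θ
  · exact caseB hχ hf hinv hPC
  · push Not at hinv
    obtain ⟨N, hN, hNf, θ, hθ, hne, g, hg⟩ := hinv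
    have hT : inertia N θ ≠ ⊤ := by
      intro h
      apply hg
      have : g ∈ inertia N θ := by rw [h]; trivial
      exact mem_inertia.mp this
    obtain ⟨M, hM, hTM⟩ := (eq_top_or_exists_le_coatom (inertia N θ)).resolve_left hT
    have hidx : M.index ∣ charDegree χ :=
      (index_dvd_of_le hTM).trans (CrossDeg.inertia_index_dvd N hχ hθ hne)
    rcases coatom_step (p := p) M hM with ⟨q, h1, h2, h3⟩ | hall
    · exact ⟨q, h1, h2.trans hidx, by tauto⟩
    · by_contra hcon
      apply hPC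
      set K := M.normalCore with hK
      apply PC_of_sub K hall
      have hcard : Nat.card K < Nat.card G := by
        apply lt_of_le_of_ne (Subgroup.card_le_card_group K)
        intro h
        have h2 : K = ⊤ := Subgroup.eq_top_of_card_eq K h
        exact hM.1 (top_le_iff.mp (by rw [← h2]; exact normalCore_le M))
      apply PC_of_constituents (hχ.isCharacter.restrict K)
      · intro k hk
        exact Subtype.ext (hf _ hk)
      · intro ψ hψ hne'
        have := Fintype.ofFinite K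
        have hne2 := @hne' _
        obtain ⟨L, hLn, ψ', hmem, hψ', hψv, hfaith, hdeg', -⟩ := Codegree.cod_data hψ
        refine ⟨L, hLn, fun x hx => (hmem x).mp hx, ?_⟩
        by_contra hPCL
        have hlt : Nat.card (K ⧸ L) < n := by
          rw [← hn]
          exact lt_of_le_of_lt (Nat.le_of_dvd Nat.card_pos (Subgroup.card_quotient_dvd_card L)) hcard
        obtain ⟨q, h1, h2, h3⟩ := ih _ hlt (K ⧸ L) rfl inferInstance ψ' hψ' hfaith hPCL
        rw [hdeg'] at h2
        exact hcon ⟨q, h1, h2.trans (degree_dvd hχ K hψ hne2), h3⟩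

theorem main {p : ℕ} (hp : p.Prime) (hs : Group.IsSolvable G) {χ : G → ℂ} (hχ : IsIrrCharacter G χ)
    (hf : ∀ g, χ g = χ 1 → g = 1) (hPC : ¬ PC p G) :
    ∃ q : ℕ, IsPrimePow q ∧ q ∣ charDegree χ ∧ (p ∣ q - 1 ∨ p ∣ q ∨ p ∣ q + 1) := by
  haveI : Fact p.Prime := ⟨hp⟩
  exact main_aux p _ G rfl hs χ hχ hf hPC

end Cfsg.Agent.Lib.H39Lin3
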