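import Mathlib
import Cfsg.Agent.Lib.H39Lin3
import Cfsg.Agent.Lib.PConstraint
import Cfsg.Agent.Lib.WSup
import Cfsg.Agent.Lib.CoprimeAction
import Cfsg.Agent.Lib.SubgroupTools

/-!
Faithful characters of small degree of `p`-solvable groups (helper39).
-/

set_option autoImplicit false

namespace Cfsg.Agent.Lib.H39Lin4

open Subgroup Cfsg Cfsg.Agent.Lib Cfsg.Agent.Lib.H39Lin1 Cfsg.Agent.Lib.H39Lin3
  Cfsg.Agent.Lib.CharBasic Cfsg.Agent.Lib.Clifford

universe u

variable {G : Type u} [Group G] [Finite G] {p : ℕ} [hp : Fact p.Prime]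

theorem zpowers_isPGroup {g : G} (hg : ∃ k : ℕ, g ^ p ^ k = 1) : IsPGroup p (zpowers g) := by
  rintro ⟨x, hx⟩
  obtain ⟨k, hk⟩ := hg
  obtain ⟨n, rfl⟩ := mem_zpowers_iff.mp hx
  refine ⟨k, Subtype.ext ?_⟩
  change (g ^ n) ^ p ^ k = 1
  rw [← zpow_natCast, ← zpow_mul, mul_comm, zpow_mul, zpow_natCast, hk, one_zpow]

theorem mem_pCore_quot (hs : IsPSolvable p G)
    (hab : ∀ Q : Sylow p G, ∀ a ∈ (Q : Subgroup G), ∀ b ∈ (Q : Subgroup G), a * b = b * a)
    {g : G} (hg : ∃ k : ℕ, g ^ p ^ k = 1) :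
    QuotientGroup.mk' (pPrimeCore p G) g ∈ pCore p (G ⧸ pPrimeCore p G) := by
  obtain ⟨Q, hQ⟩ := (zpowers_isPGroup hg).exists_le_sylow
  have hgQ : g ∈ (Q : Subgroup G) := hQ (mem_zpowers g)
  have h1 := (PConstraint.isPConstrained_iff p G).1 (WSup.isPConstrained_of_isPSolvable hs)
  apply h1
  rw [mem_centralizer_iff]
  intro x hx
  have h2 := Fitting.pCore_le_sylow p
    (Q.mapSurjective (QuotientGroup.mk'_surjective (pPrimeCore p G))) hx
  obtain ⟨b, hb, rfl⟩ := h2
  rw [← map_mul, hab Q b hb g hgQ, map_mul]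

theorem isSolvable_sup {X Y : Subgroup G} (hX : Group.IsSolvable X) (hY : Group.IsSolvable Y)
    (hn : Y ≤ normalizer (X : Set G)) : Group.IsSolvable ↥(X ⊔ Y) := by
  have hXn : (X.subgroupOf (X ⊔ Y)).Normal := by
    apply normal_subgroupOf_of_le_normalizer
    exact sup_le le_normalizer hn
  have h3 : Group.IsSolvable ↥(X.subgroupOf (X ⊔ Y)) :=
    Group.isSolvable_of_isSolvable_injective
      (f := (Subgroup.subgroupOfEquivOfLe (le_sup_left : X ≤ X ⊔ Y)).toMonoidHom)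
      (Subgroup.subgroupOfEquivOfLe (le_sup_left : X ≤ X ⊔ Y)).injective
  have h4 : Group.IsSolvable (↥(X ⊔ Y) ⧸ X.subgroupOf (X ⊔ Y)) := by
    have hsurj : Function.Surjective
        ((QuotientGroup.mk' (X.subgroupOf (X ⊔ Y))).comp
          (Subgroup.inclusion (le_sup_right : Y ≤ X ⊔ Y))) := by
      intro q
      obtain ⟨z, rfl⟩ := QuotientGroup.mk'_surjective _ q
      have hz := z.2
      rw [SubgroupTools.mem_sup_of_le_normalizer hn] at hz
      obtain ⟨x, hx, y, hy, hxy⟩ := hz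
      refine ⟨⟨y, hy⟩, ?_⟩
      simp only [MonoidHom.comp_apply, QuotientGroup.mk'_apply]
      rw [QuotientGroup.eq, mem_subgroupOf]
      have h5 : ((((Subgroup.inclusion (le_sup_right : Y ≤ X ⊔ Y)) ⟨y, hy⟩)⁻¹ * z :
          ↥(X ⊔ Y)) : G) = y⁻¹ * x * y := by
        rw [Subgroup.coe_mul, ← hxy]
        simp [mul_assoc]
      rw [h5]
      have h6 := (Subgroup.mem_normalizer_iff.1 (inv_mem (hn hy)) x).1 hx
      rwa [inv_inv] at h6
    exact Group.isSolvable_of_surjective hsurj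
  exact Group.isSolvable_of_ker_le_range (X.subgroupOf (X ⊔ Y)).subtype
    (QuotientGroup.mk' (X.subgroupOf (X ⊔ Y))) (by
      rw [QuotientGroup.ker_mk', Subgroup.range_subtype])

/-- If all `p`-elements centralize `O_{p'}(G)` then products of `p`-elements are `p`-elements. -/
theorem PC_of_centralize (hs : IsPSolvable p G)
    (hab : ∀ Q : Sylow p G, ∀ a ∈ (Q : Subgroup G), ∀ b ∈ (Q : Subgroup G), a * b = b * a)
    (h : ∀ g : G, (∃ k : ℕ, g ^ p ^ k = 1) → g ∈ Subgroup.centralizer (pPrimeCore p G : Set G)) :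
    PC p G := by
  have hKn := Fitting.normal_pPrimeCore p (G := G)
  set K := pPrimeCore p G with hK
  set L : Subgroup G := (pCore p (G ⧸ K)).comap (QuotientGroup.mk' K) ⊓
    Subgroup.centralizer (K : Set G) with hL
  apply PC_of_sub L
  · intro a ha
    exact mem_inf.mpr ⟨mem_pCore_quot hs hab ha, h a ha⟩
  · apply PC_of_nilpotent
    let f : L →* pCore p (G ⧸ K) :=
      ((QuotientGroup.mk' K).comp L.subtype).codRestrict _ (fun x => (mem_inf.mp x.2).1)
    have hf : f.ker ≤ center L := by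
      intro x hx
      have h1 : QuotientGroup.mk' K (x : G) = 1 := congrArg Subtype.val hx
      have h2 : (x : G) ∈ K := (QuotientGroup.eq_one_iff _).mp h1
      rw [mem_center_iff]
      intro g
      have h3 := mem_centralizer_iff.mp (mem_inf.mp g.2).2 _ h2
      exact Subtype.ext h3.symm
    have h4 : Group.IsNilpotent (pCore p (G ⧸ K)) := (Fitting.isPGroup_pCore p).isNilpotent
    exact Subgroup.isNilpotent_of_ker_le_center f hf

/-- a `p`-element acting nontrivially on a normalized `r`-subgroup -/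
theorem exists_pair (hs : IsPSolvable p G)
    (hab : ∀ Q : Sylow p G, ∀ a ∈ (Q : Subgroup G), ∀ b ∈ (Q : Subgroup G), a * b = b * a)
    (hPC : ¬ PC p G) : ∃ (r : ℕ) (R : Subgroup G) (a : G), r.Prime ∧ r ≠ p ∧ IsPGroup r R ∧
      (∃ k : ℕ, a ^ p ^ k = 1) ∧ a ∈ normalizer (R : Set G) ∧
      a ∉ Subgroup.centralizer (R : Set G) := by
  have hKn := Fitting.normal_pPrimeCore p (G := G)
  have h1 : ∃ a : G, (∃ k : ℕ, a ^ p ^ k = 1) ∧ a ∉ Subgroup.centralizer (pPrimeCore p G : Set G) := by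
    by_contra hno
    push Not at hno
    exact hPC (PC_of_centralize hs hab hno)
  obtain ⟨a, ha, haK⟩ := h1
  set K := pPrimeCore p G with hK
  set C := Subgroup.centralizer ({a} : Set G) with hC
  have hKC : ¬ K ≤ C := by
    intro h
    apply haK
    rw [mem_centralizer_iff]
    intro y hy
    exact (mem_centralizer_iff.mp (h hy) a rfl).symm
  have h2 : C.relIndex K ≠ 1 := fun h => hKC (relIndex_eq_one.mp h)
  obtain ⟨r, hr, hrd⟩ := Nat.exists_prime_and_dvd h2
  haveI : Fact r.Prime := ⟨hr⟩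
  have hKp : (Nat.card K).Coprime p := Fitting.coprime_card_pPrimeCore p
  have hrK : r ∣ Nat.card K := hrd.trans (relIndex_dvd_card C K)
  have hrp : r ≠ p := by
    rintro rfl
    have := Nat.Coprime.eq_one_of_dvd hKp.symm hrK
    exact hr.one_lt.ne' this
  have hA : IsPGroup p (zpowers a) := zpowers_isPGroup ha
  have hcop : (Nat.card (zpowers a)).Coprime (Nat.card K) := by
    obtain ⟨n, hn⟩ := hA.exists_card_eq
    rw [hn]
    exact Nat.Coprime.pow_left _ hKp.symm
  obtain ⟨R, hRK, hRr, hRi, hRA⟩ := CoprimeAction.exists_invariant_sylow (A := zpowers a) (K := K)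
    (le_normalizer_of_normal) hcop (Or.inl inferInstance) r
  refine ⟨r, R, a, hr, hrp, hRr, ha, hRA (mem_zpowers a), ?_⟩
  intro h
  apply hRi
  have h3 : R ≤ C := by
    intro x hx
    rw [hC, mem_centralizer_iff]
    intro y hy
    rw [Set.mem_singleton_iff.mp hy]
    exact (mem_centralizer_iff.mp h x hx).symm
  exact hrd.trans (relIndex_dvd_of_le_left K h3)

/-- Sylow subgroups are abelian if there is a faithful character of degree `< p`. -/
theorem abelian_of_degree {χ : G → ℂ} (hχ : IsCharacter G χ) (hf : ∀ g, χ g = χ 1 → g = 1)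
    (hn : charDegree χ < p) (Q : Sylow p G) :
    ∀ a ∈ (Q : Subgroup G), ∀ b ∈ (Q : Subgroup G), a * b = b * a := by
  classical
  have := Fintype.ofFinite G
  obtain ⟨S, hS⟩ : ∃ S : Subgroup G, S = (Q : Subgroup G) := ⟨_, rfl⟩
  have hSp : IsPGroup p S := by rw [hS]; exact Q.isPGroup'
  rw [← hS]
  have := Fintype.ofFinite S
  have hχQ := hχ.restrict S
  have hlin : ∀ ψ : IrrCharacter S,
      classInner (fun x : S => χ x) (ψ : S → ℂ) ≠ 0 →
      (ψ : S → ℂ) 1 = 1 := by
    intro ψ hψ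
    have hd := DefectZero.charDegree_eq ψ.2.isCharacter
    have h1 := (degree_le_of_constituent' hχQ ψ.2 hψ (m := charDegree χ)
      (n := charDegree (ψ : S → ℂ))
      (by rw [DefectZero.charDegree_eq hχ]; rfl) hd.symm).1
    have h2 : charDegree (ψ : S → ℂ) ∣ Nat.card S :=
      CharApps.irr_degree_dvd_card ψ.2 hd.symm
    obtain ⟨n, hn'⟩ := hSp.exists_card_eq
    rw [hn'] at h2
    obtain ⟨j, -, hj⟩ := (Nat.dvd_prime_pow hp.out).mp h2
    have h3 : j = 0 := by
      by_contra h0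
      have h4 : p ^ 1 ≤ p ^ j := Nat.pow_le_pow_right hp.out.pos (by omega)
      rw [pow_one] at h4
      omega
    rw [← hd, hj, h3, pow_zero, Nat.cast_one]
  intro a ha b hb
  have h5 : χ (a * b * (b * a)⁻¹) = χ 1 := by
    have hex := hχQ.isClassFunction.expansion
    have h6 := congrFun hex (⟨a, ha⟩ * ⟨b, hb⟩ * (⟨b, hb⟩ * ⟨a, ha⟩)⁻¹)
    have h7 := congrFun hex 1
    have h8 : (fun x : S => χ x) (⟨a, ha⟩ * ⟨b, hb⟩ * (⟨b, hb⟩ * ⟨a, ha⟩)⁻¹) =
        (fun x : S => χ x) 1 := by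
      refine h6.trans (Eq.trans ?_ h7.symm)
      simp only [Finset.sum_apply, Pi.smul_apply, smul_eq_mul]
      apply Finset.sum_congr rfl
      intro ψ _
      by_cases h0 : classInner (fun x : S => χ x) (ψ : S → ℂ) = 0
      · rw [h0, zero_mul, zero_mul]
      · have h9 := hlin ψ h0
        rw [ψ.2.isCharacter.map_mul_of_linear h9, ψ.2.isCharacter.map_mul_of_linear h9,
          mul_comm ((ψ : S → ℂ) ⟨a, ha⟩), ← ψ.2.isCharacter.map_mul_of_linear h9,
          ← ψ.2.isCharacter.map_mul_of_linear h9, mul_inv_cancel]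
    exact h8
  exact mul_inv_eq_one.mp (hf _ h5)

theorem main (hs : IsPSolvable p G) {χ : G → ℂ} (hχ : IsCharacter G χ)
    (hf : ∀ g, χ g = χ 1 → g = 1) (hn : charDegree χ < p) (hPC : ¬ PC p G) :
    charDegree χ + 1 = p ∧ (∃ k : ℕ, charDegree χ = 2 ^ k) ∧ IsIrrCharacter G χ := by
  classical
  have := Fintype.ofFinite G
  obtain ⟨r, R, a, hr, hrp, hR, ha, haN, haC⟩ := exists_pair hs (abelian_of_degree hχ hf hn) hPC
  haveI : Fact r.Prime := ⟨hr⟩
  set H := R ⊔ zpowers a with hH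
  have haH : a ∈ H := (le_sup_right : zpowers a ≤ H) (mem_zpowers a)
  have hsolv : Group.IsSolvable H := by
    apply isSolvable_sup
    · haveI := hR.isNilpotent
      infer_instance
    · infer_instance
    · rwa [zpowers_le]
  have hHPC : ¬ PC p H := by
    intro h
    apply haC
    rw [mem_centralizer_iff]
    intro x hx
    have hxH : x ∈ H := (le_sup_left : R ≤ H) hx
    obtain ⟨k, hk⟩ := ha
    obtain ⟨j, hj⟩ := h ⟨a, haH⟩ (⟨x, hxH⟩ * ⟨a, haH⟩⁻¹ * ⟨x, hxH⟩⁻¹) ⟨k, Subtype.ext hk⟩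
      ⟨k, by
        rw [conj_pow, inv_pow]
        have : (⟨a, haH⟩ : H) ^ p ^ k = 1 := Subtype.ext hk
        rw [this, inv_one, mul_one, mul_inv_cancel]⟩
    have h1 : (a * (x * a⁻¹ * x⁻¹)) ^ p ^ j = 1 := congrArg Subtype.val hj
    have h2 : a * (x * a⁻¹ * x⁻¹) ∈ R := by
      have : a * (x * a⁻¹ * x⁻¹) = (a * x * a⁻¹) * x⁻¹ := by group
      rw [this]
      exact mul_mem ((mem_normalizer_iff.mp haN x).mp hx) (inv_mem hx)
    obtain ⟨i, hi⟩ := hR ⟨_, h2⟩
    have h3 : (a * (x * a⁻¹ * x⁻¹)) ^ r ^ i = 1 := congrArg Subtype.val hi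
    have h6 : (r ^ i).Coprime (p ^ j) :=
      Nat.Coprime.pow _ _ ((Nat.coprime_primes hr hp.out).mpr hrp)
    have h7 := orderOf_eq_one_iff.mp (Nat.eq_one_of_dvd_coprimes h6 (orderOf_dvd_of_pow_eq_one h3)
      (orderOf_dvd_of_pow_eq_one h1))
    calc x * a = (a * (x * a⁻¹ * x⁻¹)) * (x * a) := by rw [h7, one_mul]
      _ = a * x := by group
  -- a constituent
  have := Fintype.ofFinite H
  have hχH := hχ.restrict H
  have h8 : ∃ ψ : H → ℂ, IsIrrCharacter H ψ ∧ classInner (fun h : H => χ h) ψ ≠ 0 ∧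
      ∀ (N : Subgroup H) (_ : N.Normal), (∀ x ∈ N, ψ x = ψ 1) → ¬ PC p (H ⧸ N) := by
    by_contra hno
    push Not at hno
    apply hHPC
    apply PC_of_constituents hχH
    · intro h hh
      exact Subtype.ext (hf _ hh)
    · intro ψ hψ hne
      obtain ⟨N, hN, h1, h2⟩ := hno ψ hψ hne
      exact ⟨N, hN, h1, h2⟩
  obtain ⟨ψ, hψ, hne, hno⟩ := h8
  obtain ⟨L, hLn, ψ', hmem, hψ', hψv, hfaith, hdeg', -⟩ := Codegree.cod_data hψ
  have h9 := hno L hLn (fun x hx => (hmem x).mp hx)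
  obtain ⟨q, hq1, hq2, hq3⟩ := H39Lin3.main hp.out (inferInstance : Group.IsSolvable (H ⧸ L)) hψ' hfaith h9
  rw [hdeg'] at hq2
  have hd := DefectZero.charDegree_eq hψ.isCharacter
  have h10 := degree_le_of_constituent' hχH hψ hne (m := charDegree χ)
      (n := charDegree ψ) (by rw [DefectZero.charDegree_eq hχ]; rfl) hd.symm
  have hpos : 0 < charDegree ψ := DefectZero.charDegree_pos hψ
  have hqle : q ≤ charDegree ψ := Nat.le_of_dvd hpos hq2
  have hq2' : 2 ≤ q := hq1.two_le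
  have hqp : q + 1 = p := by
    rcases hq3 with h | h | h
    · have := Nat.le_of_dvd (by omega) h
      omega
    · have := Nat.le_of_dvd (by omega) h
      omega
    · have := Nat.le_of_dvd (by omega) h
      omega
  have heq : charDegree χ ≤ charDegree ψ := by omega
  have h11 : (fun h : H => χ h) = ψ := h10.2 heq
  refine ⟨by omega, ?_, ?_⟩
  · have hχq : charDegree χ = q := by omega
    rw [hχq]
    have hp2 : p ≠ 2 := by omega
    have hodd : Odd p := hp.out.odd_of_ne_two hp2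
    have heven : 2 ∣ q := by
      obtain ⟨t, ht⟩ := hodd
      exact ⟨t, by omega⟩
    obtain ⟨s, k, hs', hk, rfl⟩ := (isPrimePow_nat_iff _).mp hq1
    have := (Nat.prime_dvd_prime_iff_eq Nat.prime_two hs').mp (Nat.prime_two.dvd_of_dvd_pow heven)
    exact ⟨k, by rw [this]⟩
  · apply hχ.isIrr_of_restrict H
    rw [h11]
    exact hψ

end Cfsg.Agent.Lib.H39Lin4
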