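import Mathlib
import Cfsg.Agent.Lib.H39Bld1
import Cfsg.Agent.Lib.H39Bli2
import Cfsg.Agent.Lib.H39Lin4
import Cfsg.Agent.Lib.Fitting

/-!
Orthogonal blocks of imprimitivity of a unitary representation (helper39).
-/

set_option autoImplicit false
set_option linter.all false

namespace Cfsg.Agent.Lib.H39Bld

open scoped ComplexConjugate InnerProductSpace DirectSum
open Cfsg Cfsg.Agent.Lib Cfsg.Agent.Lib.CharBasic Module

universe u v

variable {E : Type v} [NormedAddCommGroup E] [InnerProductSpace ℂ E] [FiniteDimensional ℂ E]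
variable {G : Type u} [Group G] [Finite G]

structure Block (U : Representation ℂ G E) (S : Subgroup G) (F : Submodule ℂ E) : Prop where
  inner : ∀ g v w, ⟪U g v, U g w⟫_ℂ = ⟪v, w⟫_ℂ
  irr : ∀ W : Submodule ℂ E, (∀ g, ∀ w ∈ W, U g w ∈ W) → W = ⊥ ∨ W = ⊤
  bot : F ≠ ⊥
  inv : ∀ g ∈ S, ∀ v ∈ F, U g v ∈ F
  orth : ∀ g, g ∉ S → ∀ v ∈ F, ∀ u ∈ F, ⟪v, U g u⟫_ℂ = 0

namespace Block

variable {U : Representation ℂ G E} {S : Subgroup G} {F : Submodule ℂ E}

theorem mul_ap (U : Representation ℂ G E) (a b : G) (w : E) : U (a * b) w = U a (U b w) := by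
  rw [map_mul]; rfl

theorem inv_ap (U : Representation ℂ G E) (a : G) (w : E) : U a⁻¹ (U a w) = w := by
  rw [← mul_ap, inv_mul_cancel, map_one]; rfl

theorem inj (U : Representation ℂ G E) (a : G) : Function.Injective (U a) := by
  intro v w h
  have := congrArg (U a⁻¹) h
  rwa [inv_ap, inv_ap] at this

theorem map_mem (h : Block U S F) {g s : G} (hs : s ∈ S) : F.map (U (g * s)) = F.map (U g) := by
  ext w
  simp only [Submodule.mem_map]
  constructor
  · rintro ⟨v, hv, rfl⟩
    exact ⟨U s v, h.inv s hs v hv, (mul_ap U g s v).symm⟩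
  · rintro ⟨v, hv, rfl⟩
    refine ⟨U s⁻¹ v, h.inv _ (inv_mem hs) v hv, ?_⟩
    rw [mul_ap, ← mul_ap U s s⁻¹, mul_inv_cancel, map_one]
    rfl

theorem span (h : Block U S F) : ⨆ g : G, F.map (U g) = ⊤ := by
  refine (h.irr _ ?_).resolve_left ?_
  · intro g w hw
    have h1 : (⨆ g : G, F.map (U g)).map (U g) ≤ ⨆ g : G, F.map (U g) := by
      rw [Submodule.map_iSup]
      apply iSup_le
      intro k
      refine le_trans (le_of_eq ?_) (le_iSup (fun g => F.map (U g)) (g * k))
      rw [← Submodule.map_comp]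
      congr 1
      rw [map_mul]
      rfl
    exact h1 ⟨w, hw, rfl⟩
  · intro h1
    apply h.bot
    rw [eq_bot_iff, ← h1]
    refine le_trans (le_of_eq ?_) (le_iSup (fun g => F.map (U g)) 1)
    rw [map_one]
    exact (Submodule.map_id F).symm

theorem ext_maps (h : Block U S F) {f f' : E →ₗ[ℂ] E} (hff : ∀ g : G, ∀ v ∈ F, f (U g v) = f' (U g v)) :
    f = f' := by
  have h1 : (⨆ g : G, F.map (U g)) ≤ LinearMap.eqLocus f f' := by
    apply iSup_le
    rintro g _ ⟨v, hv, rfl⟩
    exact hff g v hv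
  rw [h.span] at h1
  ext w
  exact h1 (Submodule.mem_top)

theorem orth' (h : Block U S F) {g k : G} (hgk : g⁻¹ * k ∉ S) {v w : E} (hv : v ∈ F.map (U g))
    (hw : w ∈ F.map (U k)) : ⟪v, w⟫_ℂ = 0 := by
  obtain ⟨v, hv, rfl⟩ := hv
  obtain ⟨w, hw, rfl⟩ := hw
  rw [← h.inner g⁻¹, inv_ap, ← mul_ap]
  exact h.orth _ hgk v hv w hw

theorem finrank_eq (h : Block U S F) : S.index * finrank ℂ F = finrank ℂ E := by
  classical
  haveI : Fintype (G ⧸ S) := Fintype.ofFinite _
  let W : G ⧸ S → Submodule ℂ E := fun q => F.map (U q.out)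
  have hout : ∀ g : G, W (g : G ⧸ S) = F.map (U g) := by
    intro g
    obtain ⟨s, hs⟩ := QuotientGroup.mk_out_eq_mul S g
    show F.map (U ((g : G ⧸ S)).out) = _
    rw [hs, h.map_mem s.2]
  have hOF : OrthogonalFamily ℂ (fun q => W q) (fun q => (W q).subtypeₗᵢ) := by
    intro q q' hqq' v w
    apply h.orth' (g := q.out) (k := q'.out) _ v.2 w.2
    intro hmem
    apply hqq'
    rw [← QuotientGroup.eq, QuotientGroup.out_eq', QuotientGroup.out_eq'] at hmem
    exact hmem
  have hsup : iSup W = ⊤ := by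
    rw [eq_top_iff, ← h.span]
    apply iSup_le
    intro g
    rw [← hout g]
    exact le_iSup W _
  have hint : DirectSum.IsInternal W := by
    rw [DirectSum.isInternal_submodule_iff_iSupIndep_and_iSup_eq_top]
    exact ⟨hOF.independent, hsup⟩
  have h1 := (LinearEquiv.ofBijective (DirectSum.coeLinearMap W) hint).finrank_eq
  rw [Module.finrank_directSum] at h1
  have h2 : ∀ q : G ⧸ S, finrank ℂ (W q) = finrank ℂ F := fun q =>
    (Submodule.equivMapOfInjective (U q.out) (inj U _) F).finrank_eq.symm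
  rw [← h1, Finset.sum_congr rfl (fun q _ => h2 q), Finset.sum_const, Finset.card_univ, smul_eq_mul,
    Subgroup.index, Nat.card_eq_fintype_card]

end Block

end Cfsg.Agent.Lib.H39Bld
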