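import Mathlib
import Cfsg.Agent.Lib.H39Bld2

/-!
Group theoretic consequences of imprimitivity for degrees less than `2p` (helper39).
-/

set_option autoImplicit false
set_option linter.all false

namespace Cfsg.Agent.Lib.H39Bld

open scoped ComplexConjugate InnerProductSpace DirectSum
open Cfsg Cfsg.Agent.Lib Cfsg.Agent.Lib.CharBasic Cfsg.Agent.Lib.Clifford Module

universe u v

section pgroup

variable {P : Type u} [Group P] [Finite P] {p : ℕ} [hp : Fact p.Prime]

theorem comm_ker (hP : IsPGroup p P) {χ : P → ℂ} (hχ : IsCharacter P χ) (hn : charDegree χ < p)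
    (a b : P) : χ (a * b * (b * a)⁻¹) = χ 1 := by
  classical
  have := Fintype.ofFinite P
  have hlin : ∀ ψ : IrrCharacter P, classInner χ (ψ : P → ℂ) ≠ 0 → (ψ : P → ℂ) 1 = 1 := by
    intro ψ hψ
    have hd := DefectZero.charDegree_eq ψ.2.isCharacter
    have h1 := (degree_le_of_constituent' hχ ψ.2 hψ (m := charDegree χ)
      (n := charDegree (ψ : P → ℂ)) (DefectZero.charDegree_eq hχ).symm hd.symm).1
    have h2 : charDegree (ψ : P → ℂ) ∣ Nat.card P := CharApps.irr_degree_dvd_card ψ.2 hd.symm
    obtain ⟨n, hn'⟩ := hP.exists_card_eq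
    rw [hn'] at h2
    obtain ⟨j, -, hj⟩ := (Nat.dvd_prime_pow hp.out).mp h2
    have h3 : j = 0 := by
      by_contra h0
      have h4 : p ^ 1 ≤ p ^ j := Nat.pow_le_pow_right hp.out.pos (by omega)
      rw [pow_one] at h4
      omega
    rw [← hd, hj, h3, pow_zero, Nat.cast_one]
  have hex := hχ.isClassFunction.expansion
  have h6 := congrFun hex (a * b * (b * a)⁻¹)
  have h7 := congrFun hex 1
  rw [h6, h7]
  simp only [Finset.sum_apply, Pi.smul_apply, smul_eq_mul]
  apply Finset.sum_congr rfl
  intro ψ _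
  by_cases h0 : classInner χ (ψ : P → ℂ) = 0
  · rw [h0, zero_mul, zero_mul]
  · have h9 := hlin ψ h0
    rw [ψ.2.isCharacter.map_mul_of_linear h9, ψ.2.isCharacter.map_mul_of_linear h9,
      mul_comm ((ψ : P → ℂ) a), ← ψ.2.isCharacter.map_mul_of_linear h9,
      ← ψ.2.isCharacter.map_mul_of_linear h9, mul_inv_cancel]

theorem comm_ker_rep {V : Type v} [AddCommGroup V] [Module ℂ V] [FiniteDimensional ℂ V]
    (hP : IsPGroup p P) (σ : Representation ℂ P V) (hn : finrank ℂ V < p) (a b : P) :
    σ (a * b * (b * a)⁻¹) = 1 := by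
  have h1 : IsCharacter P σ.character := isCharacter_of_rep σ
  have h2 : charDegree σ.character = finrank ℂ V := by
    have h3 := DefectZero.charDegree_eq h1
    rw [Representation.char_one] at h3
    exact_mod_cast h3
  have h4 := comm_ker hP h1 (by rw [h2]; exact hn) a b
  rw [Representation.char_one] at h4
  exact (CharValues.character_eq_finrank_iff σ _).1 h4

end pgroup

variable {E : Type v} [NormedAddCommGroup E] [InnerProductSpace ℂ E] [FiniteDimensional ℂ E]
variable {G : Type u} [Group G] [Finite G] {p : ℕ} [hp : Fact p.Prime]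
variable {U : Representation ℂ G E} {S : Subgroup G} {F : Submodule ℂ E}

namespace Block

theorem abelian_of_lt (h : Block U S F) (hf : ∀ g, U g = 1 → g = 1) (hS : S.index < p)
    (hd : finrank ℂ F < p) (P : Subgroup G) (hP : IsPGroup p P) :
    ∀ a ∈ P, ∀ b ∈ P, a * b = b * a := by
  -- `P` fixes all cosets
  have hfix : ∀ a ∈ P, ∀ g : G, g⁻¹ * a * g ∈ S := by
    intro a ha g
    have h1 : IsPGroup p (MulAction.toPermHom P (G ⧸ S)).range := by
      exact hP.of_surjective _ (MonoidHom.rangeRestrict_surjective _)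
    have h2 : (MulAction.toPermHom P (G ⧸ S)).range = ⊥ := by
      obtain ⟨n, hn⟩ := h1.exists_card_eq
      have h3 : Nat.card (MulAction.toPermHom P (G ⧸ S)).range ∣ Nat.card (Equiv.Perm (G ⧸ S)) :=
        Subgroup.card_subgroup_dvd_card _
      rw [Nat.card_perm, hn] at h3
      have h4 : n = 0 := by
        by_contra h0
        have h5 : p ∣ (Nat.card (G ⧸ S)).factorial := (dvd_pow_self p h0).trans h3
        have h6 := (hp.out.dvd_factorial).mp h5
        have h7 : Nat.card (G ⧸ S) = S.index := rfl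
        omega
      rw [h4, pow_zero] at hn
      exact Subgroup.card_eq_one.mp hn
    have h3 : MulAction.toPermHom P (G ⧸ S) ⟨a, ha⟩ = 1 := by
      have : MulAction.toPermHom P (G ⧸ S) ⟨a, ha⟩ ∈ (MulAction.toPermHom P (G ⧸ S)).range := ⟨_, rfl⟩
      rw [h2] at this
      exact Subgroup.mem_bot.mp this
    have h4 : (⟨a, ha⟩ : P) • (g : G ⧸ S) = (g : G ⧸ S) := congrArg (fun e => e (g : G ⧸ S)) h3
    have h5 : ((a * g : G) : G ⧸ S) = (g : G ⧸ S) := h4
    have h6 := QuotientGroup.eq.mp h5.symm
    rwa [← mul_assoc] at h6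
  intro a ha b hb
  have hkey : U (a * b * (b * a)⁻¹) = 1 := by
    apply h.ext_maps
    intro g v hv
    -- restrict the conjugate action to `F`
    let σ : Representation ℂ P F :=
      { toFun := fun x => (U (g⁻¹ * x * g)).restrict (fun w hw => h.inv _ (hfix x x.2 g) w hw)
        map_one' := by
          ext w
          simp
        map_mul' := by
          intro x y
          ext w
          have : g⁻¹ * ((x * y : P) : G) * g = (g⁻¹ * x * g) * (g⁻¹ * y * g) := by
            rw [Subgroup.coe_mul]; group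
          show U (g⁻¹ * ((x * y : P) : G) * g) w = U (g⁻¹ * x * g) (U (g⁻¹ * y * g) w)
          rw [this, mul_ap] }
    have h1 := comm_ker_rep hP σ hd ⟨a, ha⟩ ⟨b, hb⟩
    have h2 := congrArg (fun f : F →ₗ[ℂ] F => ((f ⟨v, hv⟩ : F) : E)) h1
    have h3 : U (g⁻¹ * (a * b * (b * a)⁻¹) * g) v = v := h2
    have h4 : (a * b * (b * a)⁻¹) * g = g * (g⁻¹ * (a * b * (b * a)⁻¹) * g) := by group
    rw [← mul_ap, h4, mul_ap, h3]
    rfl
  exact mul_inv_eq_one.mp (hf _ hkey)

theorem core_abelian (h : Block U S F) (hf : ∀ g, U g = 1 → g = 1) (hd : finrank ℂ F = 1) :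
    ∀ a ∈ S.normalCore, ∀ b ∈ S.normalCore, a * b = b * a := by
  intro a ha b hb
  have hkey : U (a * b * (b * a)⁻¹) = 1 := by
    have h0 : U (a * b) = U (b * a) := by
      apply h.ext_maps
      intro g v hv
      have hsc : ∀ s ∈ S, ∃ c : ℂ, ∀ w ∈ F, U s w = c • w := by
        intro s hs
        obtain ⟨w0, hw0, hspan⟩ := finrank_eq_one_iff'.mp hd
        obtain ⟨c, hc⟩ := hspan ⟨U s w0, h.inv s hs w0 w0.2⟩
        refine ⟨c, ?_⟩
        intro w hw
        obtain ⟨e, he⟩ := hspan ⟨w, hw⟩
        have he' : e • (w0 : E) = w := congrArg Subtype.val he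
        have hc' : c • (w0 : E) = U s w0 := congrArg Subtype.val hc
        rw [← he', map_smul, ← hc', smul_comm]
      have hin : ∀ x ∈ S.normalCore, g⁻¹ * x * g ∈ S := by
        intro x hx
        have := hx g⁻¹
        rwa [inv_inv] at this
      obtain ⟨c, hc⟩ := hsc _ (hin a ha)
      obtain ⟨e, he⟩ := hsc _ (hin b hb)
      have h1 : a * b * g = g * ((g⁻¹ * a * g) * (g⁻¹ * b * g)) := by group
      have h2 : b * a * g = g * ((g⁻¹ * b * g) * (g⁻¹ * a * g)) := by group
      have h3 : U ((g⁻¹ * a * g) * (g⁻¹ * b * g)) v = U ((g⁻¹ * b * g) * (g⁻¹ * a * g)) v := by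
        rw [mul_ap U (g⁻¹ * a * g) (g⁻¹ * b * g), mul_ap U (g⁻¹ * b * g) (g⁻¹ * a * g), he v hv,
          hc v hv, map_smul, map_smul, hc v hv, he v hv, smul_comm]
      rw [← mul_ap, ← mul_ap, h1, h2, mul_ap U g, mul_ap U g, h3]
    rw [map_mul, h0, ← map_mul, mul_inv_cancel, map_one]
  exact mul_inv_eq_one.mp (hf _ hkey)

end Block

theorem sq_not_dvd (S : Subgroup G) (hS : S.index < 2 * p) (hp3 : 3 ≤ p)
    (hab : ∀ a ∈ S.normalCore, ∀ b ∈ S.normalCore, a * b = b * a) : ¬ p ^ 2 ∣ (pCore p G).index := by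
  intro hdvd
  set A := S.normalCore with hA
  have hAi : A.index ∣ S.index.factorial := by
    rw [hA, Subgroup.normalCore_eq_ker, Subgroup.index_ker]
    have h3 : Nat.card (MulAction.toPermHom G (G ⧸ S)).range ∣ Nat.card (Equiv.Perm (G ⧸ S)) :=
        Subgroup.card_subgroup_dvd_card _
    rw [Nat.card_perm] at h3
    exact h3
  obtain ⟨Q⟩ : Nonempty (Sylow p A) := inferInstance
  have hQn : (Q : Subgroup A).Normal := by
    refine ⟨fun n hn g => ?_⟩
    have : g * n * g⁻¹ = n := by
      have h1 : g * n = n * g := Subtype.ext (hab g g.2 n n.2)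
      rw [h1, mul_inv_cancel_right]
    rw [this]; exact hn
  haveI := Q.characteristic_of_normal hQn
  have hQG : ((Q : Subgroup A).map A.subtype).Normal := ConjAct.normal_of_characteristic_of_normal
  have hQp : IsPGroup p ((Q : Subgroup A).map A.subtype) := Q.isPGroup'.map _
  have hle : (Q : Subgroup A).map A.subtype ≤ pCore p G := Fitting.le_pCore p hQG hQp
  have h1 : (pCore p G).index ∣ ((Q : Subgroup A).map A.subtype).index := Subgroup.index_dvd_of_le hle
  have h2 : ((Q : Subgroup A).map A.subtype).index = (Q : Subgroup A).index * A.index := by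
    have h3 := Subgroup.relIndex_mul_index (Subgroup.map_subtype_le (Q : Subgroup A))
    rw [← h3]
    congr 1
    unfold Subgroup.relIndex
    congr 1
    rw [Subgroup.subgroupOf, Subgroup.comap_map_eq_self_of_injective A.subtype_injective]
  have h3 : p ^ 2 ∣ (Q : Subgroup A).index * A.index := by
    rw [← h2]; exact hdvd.trans h1
  have h4 : (p ^ 2).Coprime (Q : Subgroup A).index :=
    Nat.Coprime.pow_left _ ((Nat.Prime.coprime_iff_not_dvd hp.out).mpr Q.not_dvd_index)
  have h5 : p ^ 2 ∣ A.index := h4.dvd_of_dvd_mul_left h3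
  have h6 : p ^ 2 ∣ S.index.factorial := h5.trans hAi
  have h7 : padicValNat p S.index.factorial < 2 := by
    have h8 := padicValNat_factorial (p := p) (n := S.index) (b := 2) (by
      apply Nat.log_lt_of_lt_pow
      · exact Subgroup.index_ne_zero_of_finite
      · nlinarith)
    rw [h8]
    rw [show Finset.Ico 1 2 = {1} from rfl, Finset.sum_singleton, pow_one]
    exact Nat.div_lt_of_lt_mul (by linarith)
  have h9 := (padicValNat_dvd_iff_le (p := p) (Nat.factorial_ne_zero S.index)).mp h6
  omega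

/-- conclusion: an imprimitive group of degree less than `2p` with nonabelian Sylow `p`-subgroup. -/
theorem Block.conclusion (h : Block U S F) (hf : ∀ g, U g = 1 → g = 1) (hS : S ≠ ⊤) (hp3 : 3 ≤ p)
    (hn : finrank ℂ E < 2 * p) (P : Subgroup G) (hP : IsPGroup p P) {a b : G} (ha : a ∈ P)
    (hb : b ∈ P) (hab : a * b ≠ b * a) : ¬ p ^ 2 ∣ (pCore p G).index := by
  have h1 := h.finrank_eq
  have hF0 : 0 < finrank ℂ F := by
    rw [Module.finrank_pos_iff, Submodule.nontrivial_iff_ne_bot]
    exact h.bot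
  have hi : 1 < S.index := by
    have h2 : S.index ≠ 1 := fun h2 => hS (Subgroup.index_eq_one.mp h2)
    have h3 : S.index ≠ 0 := Subgroup.index_ne_zero_of_finite
    omega
  by_cases hlt : S.index < p
  · exfalso
    apply hab
    refine h.abelian_of_lt hf hlt ?_ P hP a ha b hb
    nlinarith
  · have hd : finrank ℂ F = 1 := by
      push Not at hlt
      by_contra hne
      have : 2 ≤ finrank ℂ F := by omega
      nlinarith
    apply sq_not_dvd S _ hp3 (h.core_abelian hf hd)
    rw [hd, mul_one] at h1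
    rw [h1]; exact hn

end Cfsg.Agent.Lib.H39Bld
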