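import Mathlib.RingTheory.RootsOfUnity.Complex
import Mathlib.Analysis.Complex.Trigonometric
import Mathlib.Combinatorics.Pigeonhole
import Mathlib.Analysis.SpecialFunctions.Trigonometric.Bounds

/-! Simultaneous approximation. -/

set_option autoImplicit false
set_option linter.all false

namespace Cfsg.Agent.Lib.H39Bli

theorem dirichlet_box {p : ℕ} (hp : 0 < p) (I : Finset ℕ) (i1 : ℕ) (hi1 : i1 ∈ I)
    (h : 6 ^ (I.card - 1) < p) : ∃ d : ℕ, 0 < d ∧ d < p ∧ ∀ i ∈ I, ∃ r s : ℤ,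
      (d : ℤ) * ((i : ℤ) - i1) = r + s * p ∧ 6 * |r| < p := by
  classical
  have hpz : (0 : ℤ) < p := by exact_mod_cast hp
  let rem : ℕ → ℕ → ℤ := fun k i => ((k : ℤ) * ((i : ℤ) - i1)) % p
  have hrem0 : ∀ k i, 0 ≤ rem k i := fun k i => Int.emod_nonneg _ hpz.ne'
  have hrem1 : ∀ k i, rem k i < p := fun k i => Int.emod_lt_of_pos _ hpz
  have hbox : ∀ k i, 0 ≤ 6 * rem k i / p ∧ 6 * rem k i / p < 6 := by
    intro k i
    refine ⟨Int.ediv_nonneg (by have := hrem0 k i; omega) hpz.le, ?_⟩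
    apply Int.ediv_lt_of_lt_mul hpz
    have := hrem1 k i
    omega
  let f : ℕ → (I.erase i1 → Fin 6) := fun k i => ⟨(6 * rem k i / p).toNat, by
    have := hbox k i
    omega⟩
  have hcard : (Finset.univ : Finset (I.erase i1 → Fin 6)).card < (Finset.range p).card := by
    rw [Finset.card_univ, Fintype.card_fun, Fintype.card_fin, Fintype.card_coe,
      Finset.card_erase_of_mem hi1, Finset.card_range]
    exact h
  obtain ⟨k, hk, k', hk', hkk, hf⟩ := Finset.exists_ne_map_eq_of_card_lt_of_maps_to hcard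
    (f := f) (fun k _ => Finset.mem_univ _)
  have main : ∀ a b : ℕ, a < p → b < p → a < b → f a = f b → ∃ d : ℕ, 0 < d ∧ d < p ∧ ∀ i ∈ I, ∃ r s : ℤ,
      (d : ℤ) * ((i : ℤ) - i1) = r + s * p ∧ 6 * |r| < p := by
    intro a b ha hb hab hfab
    refine ⟨b - a, by omega, by omega, fun i hi => ?_⟩
    rw [Nat.cast_sub hab.le]
    by_cases hii : i = i1
    · subst hii
      exact ⟨0, 0, by ring, by simpa using hpz⟩
    · have h1 := congrFun hfab ⟨i, Finset.mem_erase.2 ⟨hii, hi⟩⟩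
      have h2 : (6 * rem a i / p).toNat = (6 * rem b i / p).toNat := congrArg Fin.val h1
      have ba := hbox a i
      have bb := hbox b i
      have h3 : 6 * rem a i / p = 6 * rem b i / p := by omega
      have ea := Int.emod_add_mul_ediv (6 * rem a i) p
      have eb := Int.emod_add_mul_ediv (6 * rem b i) p
      have ma := Int.emod_nonneg (6 * rem a i) hpz.ne'
      have mb := Int.emod_nonneg (6 * rem b i) hpz.ne'
      have na := Int.emod_lt_of_pos (6 * rem a i) hpz
      have nb := Int.emod_lt_of_pos (6 * rem b i) hpz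
      rw [h3] at ea
      refine ⟨rem b i - rem a i, ((b : ℤ) * ((i : ℤ) - i1)) / p - ((a : ℤ) * ((i : ℤ) - i1)) / p, ?_, ?_⟩
      · have e1 := Int.emod_add_mul_ediv ((a : ℤ) * ((i : ℤ) - i1)) p
        have e2 := Int.emod_add_mul_ediv ((b : ℤ) * ((i : ℤ) - i1)) p
        change (((b : ℤ) - a) * ((i : ℤ) - i1)) = ((b : ℤ) * ((i : ℤ) - i1)) % p - ((a : ℤ) * ((i : ℤ) - i1)) % p + _
        linear_combination e1 - e2
      · have h4 : 6 * (rem b i - rem a i) = (6 * rem b i) % p - (6 * rem a i) % p := by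
          linear_combination eb.symm - ea.symm
        rcases abs_cases (rem b i - rem a i) with ⟨h5, -⟩ | ⟨h5, -⟩
        · rw [h5]; omega
        · rw [h5]; omega
  rw [Finset.mem_range] at hk hk'
  rcases lt_or_gt_of_ne hkk with h1 | h1
  · exact main k k' hk hk' h1 hf
  · exact main k' k hk' hk h1 hf.symm

theorem norm_exp_lt {r : ℤ} {p : ℕ} (hp : 0 < p) (h : 6 * |r| < p) :
    ‖Complex.exp (2 * Real.pi * Complex.I / p) ^ r - 1‖ < 1 := by
  have hpr : (0 : ℝ) < p := by exact_mod_cast hp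
  have h1 : Complex.exp (2 * Real.pi * Complex.I / p) ^ r =
      Complex.exp (Complex.I * ((2 * Real.pi * r / p : ℝ) : ℂ)) := by
    rw [← Complex.exp_int_mul]
    congr 1
    push_cast
    ring
  rw [h1, Complex.norm_exp_I_mul_ofReal_sub_one]
  have h2 : 2 * Real.pi * r / p / 2 = Real.pi * (r / p) := by ring
  rw [h2]
  have h3 : |(r : ℝ) / p| < 1 / 6 := by
    rw [abs_div, abs_of_pos hpr, div_lt_div_iff₀ hpr (by norm_num)]
    have : (6 : ℝ) * |(r : ℝ)| < p := by exact_mod_cast h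
    linarith
  have h4 := abs_lt.1 h3
  have hpi := Real.pi_pos
  rw [Real.norm_eq_abs, abs_mul, abs_of_pos (by norm_num : (0 : ℝ) < 2)]
  have h5 : |Real.sin (Real.pi * (r / p))| < 1 / 2 := by
    rw [abs_lt]
    constructor
    · have : Real.sin (-(Real.pi / 6)) < Real.sin (Real.pi * (r / p)) := by
        apply Real.sin_lt_sin_of_lt_of_le_pi_div_two
        · linarith
        · nlinarith
        · nlinarith
      rw [Real.sin_neg, Real.sin_pi_div_six] at this
      exact this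
    · have : Real.sin (Real.pi * (r / p)) < Real.sin (Real.pi / 6) := by
        apply Real.sin_lt_sin_of_lt_of_le_pi_div_two
        · nlinarith
        · linarith
        · nlinarith
      rw [Real.sin_pi_div_six] at this
      exact this
  linarith

theorem dirichlet {p : ℕ} (hp : 0 < p) (I : Finset ℕ) (i1 : ℕ) (hi1 : i1 ∈ I)
    (h : 6 ^ (I.card - 1) < p) : ∃ d : ℕ, 0 < d ∧ d < p ∧ ∀ i ∈ I,
      ‖(Complex.exp (2 * Real.pi * Complex.I / p) ^ i) ^ d -
        (Complex.exp (2 * Real.pi * Complex.I / p) ^ i1) ^ d‖ < 1 := by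
  obtain ⟨d, hd, hdp, hd2⟩ := dirichlet_box hp I i1 hi1 h
  refine ⟨d, hd, hdp, fun i hi => ?_⟩
  obtain ⟨r, s, hrs, hr⟩ := hd2 i hi
  set ζ := Complex.exp (2 * Real.pi * Complex.I / p) with hζdef
  have hζ : IsPrimitiveRoot ζ p := Complex.isPrimitiveRoot_exp p hp.ne'
  have hζ0 : ζ ≠ 0 := Complex.exp_ne_zero _
  have hn : ‖ζ‖ = 1 := hζ.norm'_eq_one hp.ne'
  have h1 : (ζ ^ i) ^ d = ζ ^ r * (ζ ^ i1) ^ d := by
    rw [← pow_mul, ← pow_mul, ← zpow_natCast, ← zpow_natCast, ← zpow_add₀ hζ0]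
    have h2 : ((i * d : ℕ) : ℤ) = r + ((i1 * d : ℕ) : ℤ) + p * s := by
      push_cast
      linear_combination hrs
    rw [h2, zpow_add₀ hζ0, zpow_mul, zpow_natCast, hζ.pow_eq_one, one_zpow, mul_one]
  have h2 : (ζ ^ i) ^ d - (ζ ^ i1) ^ d = (ζ ^ r - 1) * (ζ ^ i1) ^ d := by rw [h1]; ring
  rw [h2, norm_mul, norm_pow, norm_pow, hn, one_pow, one_pow, mul_one]
  exact norm_exp_lt hp hr

end Cfsg.Agent.Lib.H39Bli
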