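import Mathlib
import Cfsg.Agent.Lib.CharBasic2
import Cfsg.Agent.Lib.CharGalois
import Cfsg.Agent.Lib.CharCentral
import Cfsg.Agent.Lib.GlaubCyc3
import Cfsg.Agent.Lib.H76Char
import Cfsg.Agent.Lib.Codegree

/-!
Schur's bound for `p`-groups with a rational valued character (helper39).
-/

set_option autoImplicit false

namespace Cfsg.Agent.Lib.H39Sch1

open Cfsg Cfsg.Agent.Lib Cfsg.Agent.Lib.CharBasic
open scoped ComplexConjugate Nat

universe u

variable {S : Type u} [Group S] [Finite S] {p : ℕ} [hp : Fact p.Prime]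

theorem exists_int (hS : IsPGroup p S) {Φ : S → ℂ} (hΦ : IsCharacter S Φ)
    (hinv : ∀ (x : S) (j : ℕ), j.Coprime p → Φ (x ^ j) = Φ x) (x : S) : ∃ m : ℤ, Φ x = m := by
  obtain ⟨q, hq⟩ := CharGalois.exists_rat_of_pow hΦ x (fun k hk => by
    obtain ⟨n, hn⟩ := hS.exists_card_eq
    rcases Nat.eq_zero_or_pos n with rfl | hn0
    · rw [pow_zero] at hn
      have : Subsingleton S := (Nat.card_eq_one_iff_unique.mp hn).1
      rw [Subsingleton.elim (x ^ k) x]
    · apply hinv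
      rw [hn] at hk
      exact Nat.Coprime.coprime_dvd_right (dvd_pow_self p hn0.ne') hk)
  exact CharCentral.exists_int_of_isIntegral_rat (H76Char.isIntegral_of_isCharacter hΦ x) q hq

theorem sum_pow_eq {q : ℕ} (hq : 0 < q) {μ : ℂ} (h : μ ^ q = 1) :
    ∑ j ∈ Finset.range q, μ ^ j = ((if μ = 1 then q else 0 : ℕ) : ℂ) := by
  by_cases h1 : μ = 1
  · simp [h1]
  · rw [if_neg h1, geom_sum_eq h1, h, sub_self, zero_div, Nat.cast_zero]

theorem sum_nonneg {Φ : S → ℂ} (hΦ : IsCharacter S Φ) (x : S) :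
    ∃ c : ℕ, ∑ j ∈ Finset.range (orderOf x), Φ (x ^ j) = (c : ℂ) := by
  obtain ⟨n, μ, h1, h2, h3⟩ := H76Char.exists_eigenvalues hΦ x
  refine ⟨∑ i : Fin n, (if μ i = 1 then orderOf x else 0), ?_⟩
  rw [Finset.sum_congr rfl (fun j _ => h2 j), Finset.sum_comm, Nat.cast_sum]
  exact Finset.sum_congr rfl fun i _ => sum_pow_eq (orderOf_pos x) (h1 i)

theorem le_deg {Φ : S → ℂ} (hΦ : IsCharacter S Φ) {n : ℕ} (hn : Φ 1 = n) {x : S} {m : ℤ}
    (hm : Φ x = m) : m ≤ n := by
  obtain ⟨k, ρ, rfl⟩ := hΦ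
  have h1 := CharValues.norm_character_le ρ x
  rw [Representation.char_one] at hn
  have h2 : Module.finrank ℂ (Fin k → ℂ) = n := by exact_mod_cast hn
  rw [h2, hm, Complex.norm_intCast] at h1
  have h3 : (m : ℝ) ≤ n := (le_abs_self _).trans h1
  exact_mod_cast h3

theorem dvd_sub (hS : IsPGroup p S) {Φ : S → ℂ} (hΦ : IsCharacter S Φ)
    (hinv : ∀ (x : S) (j : ℕ), j.Coprime p → Φ (x ^ j) = Φ x) {n : ℕ} (hn : Φ 1 = n) (k : ℕ) :
    ∀ (x : S) (m : ℤ), x ^ p ^ k = 1 → Φ x = m → (p : ℤ) ∣ n - m := by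
  induction k with
  | zero =>
    intro x m hx hm
    rw [pow_zero, pow_one] at hx
    rw [hx, hn] at hm
    have : (n : ℤ) = m := by exact_mod_cast hm
    rw [this, sub_self]
    exact dvd_zero _
  | succ k ih =>
    intro x m hx hm
    obtain ⟨m', hm'⟩ := exists_int hS hΦ hinv (x ^ p)
    have h1 := ih (x ^ p) m' (by rw [← pow_mul, ← pow_succ', hx]) hm'
    have h2 := GlaubCyc.dvd_sub_of_char hΦ x hp.out hm hm'
    have h3 := dvd_add h1 h2
    rwa [sub_add_sub_cancel] at h3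

theorem lower (hS : IsPGroup p S) {Φ : S → ℂ} (hΦ : IsCharacter S Φ)
    (hinv : ∀ (x : S) (j : ℕ), j.Coprime p → Φ (x ^ j) = Φ x) {n : ℕ} (hn : Φ 1 = n) (x : S)
    {m : ℤ} (hm : Φ x = m) : 0 ≤ ((p : ℤ) - 1) * m + n := by
  classical
  have hp1 : (1 : ℤ) < p := by exact_mod_cast hp.out.one_lt
  obtain ⟨k, hk⟩ := (IsPGroup.iff_orderOf.mp hS) x
  rcases Nat.eq_zero_or_pos k with rfl | hk0
  · rw [pow_zero, orderOf_eq_one_iff] at hk
    rw [hk, hn] at hm
    have : (n : ℤ) = m := by exact_mod_cast hm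
    rw [← this]
    nlinarith [Int.natCast_nonneg n]
  · choose f hf using exists_int hS hΦ hinv
    obtain ⟨c, hc⟩ := sum_nonneg hΦ x
    have h1 : (0 : ℤ) ≤ ∑ j ∈ Finset.range (p ^ k), f (x ^ j) := by
      have h2 : ((∑ j ∈ Finset.range (p ^ k), f (x ^ j) : ℤ) : ℂ) = ((c : ℤ) : ℂ) := by
        rw [Int.cast_sum, ← Finset.sum_congr rfl (fun j _ => hf (x ^ j)), ← hk, hc]
        simp
      have h3 : ∑ j ∈ Finset.range (p ^ k), f (x ^ j) = (c : ℤ) := by exact_mod_cast h2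
      rw [h3]
      exact Int.natCast_nonneg c
    have hfx : f x = m := by
      have := (hf x).symm.trans hm
      exact_mod_cast this
    have h4 : ∑ j ∈ Finset.range (p ^ k), f (x ^ j) ≤
        ∑ j ∈ Finset.range (p ^ k), (if (p ^ k).Coprime j then m else (n : ℤ)) := by
      apply Finset.sum_le_sum
      intro j _
      split_ifs with hj
      · have h5 : Φ (x ^ j) = Φ x := hinv x j (Nat.Coprime.coprime_dvd_left (dvd_pow_self p hk0.ne') hj).symm
        have h6 : (f (x ^ j) : ℂ) = m := by rw [← hf, h5, hm]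
        have h7 : f (x ^ j) = m := by exact_mod_cast h6
        exact h7.le
      · exact le_deg hΦ hn (hf _)
    rw [Finset.sum_ite, Finset.sum_const, Finset.sum_const, ← Nat.totient_eq_card_coprime,
      Nat.totient_prime_pow hp.out hk0, nsmul_eq_mul, nsmul_eq_mul] at h4
    have h8 : ((Finset.range (p ^ k)).filter (fun j => ¬ (p ^ k).Coprime j)).card = p ^ (k - 1) := by
      have h9 := Finset.card_filter_add_card_filter_not (s := Finset.range (p ^ k))
        (fun j => (p ^ k).Coprime j)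
      rw [← Nat.totient_eq_card_coprime, Nat.totient_prime_pow hp.out hk0, Finset.card_range] at h9
      obtain ⟨i, rfl⟩ : ∃ i, k = i + 1 := ⟨k - 1, by omega⟩
      rw [Nat.add_sub_cancel] at h9 ⊢
      have h10 : p ^ (i + 1) = p ^ i * (p - 1) + p ^ i := by
        rw [pow_succ]
        obtain ⟨s, hs⟩ : ∃ s, p = s + 1 := ⟨p - 1, by have := hp.out.pos; omega⟩
        rw [show p - 1 = s by omega]
        nth_rewrite 2 [hs]
        ring
      omega
    rw [h8] at h4
    have h11 : (0 : ℤ) < (p : ℤ) ^ (k - 1) := by positivity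
    have h12 : (0 : ℤ) ≤ (p : ℤ) ^ (k - 1) * (((p : ℤ) - 1) * m + n) := by
      have h13 : ((p ^ (k - 1) * (p - 1) : ℕ) : ℤ) = (p : ℤ) ^ (k - 1) * ((p : ℤ) - 1) := by
        rw [Nat.cast_mul, Nat.cast_pow, Nat.cast_sub hp.out.one_le, Nat.cast_one]
      rw [h13] at h4
      push_cast at h4
      calc (0 : ℤ) ≤ _ := h1
        _ ≤ _ := h4
        _ = _ := by ring
    exact nonneg_of_mul_nonneg_right h12 h11

theorem value (hS : IsPGroup p S) {Φ : S → ℂ} (hΦ : IsCharacter S Φ)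
    (hinv : ∀ (x : S) (j : ℕ), j.Coprime p → Φ (x ^ j) = Φ x) {n : ℕ} (hn : Φ 1 = n) (x : S) :
    ∃ t : ℕ, (p - 1) * t ≤ n ∧ Φ x = ((n : ℤ) - (p : ℤ) * t : ℤ) := by
  obtain ⟨m, hm⟩ := exists_int hS hΦ hinv x
  obtain ⟨k, hk⟩ := hS x
  have h1 := dvd_sub hS hΦ hinv hn k x m hk hm
  have h2 := le_deg hΦ hn hm
  have h3 := lower hS hΦ hinv hn x hm
  obtain ⟨t, ht⟩ := h1
  have hp0 : (0 : ℤ) < p := by exact_mod_cast hp.out.pos
  have ht0 : 0 ≤ t := by
    by_contra hneg
    push Not at hneg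
    nlinarith
  obtain ⟨s, rfl⟩ := Int.eq_ofNat_of_zero_le ht0
  refine ⟨s, ?_, ?_⟩
  · have h4 : (p : ℤ) * (((p : ℤ) - 1) * s) ≤ (p : ℤ) * n := by
      have h5 : m = n - (p : ℤ) * s := by linarith
      rw [h5] at h3
      nlinarith
    have h6 : ((p : ℤ) - 1) * s ≤ n := le_of_mul_le_mul_left h4 hp0
    have h7 : (((p - 1) * s : ℕ) : ℤ) ≤ (n : ℤ) := by
      rw [Nat.cast_mul, Nat.cast_sub hp.out.one_le, Nat.cast_one]
      exact h6
    exact_mod_cast h7
  · rw [hm, ← ht]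
    congr 1
    ring

theorem card_dvd (hS : IsPGroup p S) {Φ : S → ℂ} (hΦ : IsCharacter S Φ)
    (hinv : ∀ (x : S) (j : ℕ), j.Coprime p → Φ (x ^ j) = Φ x) {n : ℕ} (hn : Φ 1 = n) :
    (Codegree.kerS hΦ).index ∣ p ^ (n / (p - 1)) * (n / (p - 1))! := by
  classical
  have := Fintype.ofFinite S
  set M := n / (p - 1) with hM
  have hp1 : 0 < p - 1 := by have := hp.out.one_lt; omega
  have hgen : ∀ s : Finset ℕ, IsGeneralizedCharacter S
      (fun x => ∏ t ∈ s, (Φ x - (((n : ℤ) - (p : ℤ) * t : ℤ) : ℂ))) := by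
    intro s
    induction s using Finset.induction_on with
    | empty =>
      simp only [Finset.prod_empty]
      exact isGeneralized_one
    | insert a s ha ih =>
      have h1 : (fun x => ∏ t ∈ insert a s, (Φ x - (((n : ℤ) - (p : ℤ) * t : ℤ) : ℂ))) =
          (Φ - (((n : ℤ) - (p : ℤ) * a : ℤ) : ℂ) • (1 : S → ℂ)) *
            fun x => ∏ t ∈ s, (Φ x - (((n : ℤ) - (p : ℤ) * t : ℤ) : ℂ)) := by
        funext x
        rw [Finset.prod_insert ha]
        simp
      rw [h1]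
      apply IsGeneralizedCharacter.mul _ ih
      apply IsGeneralizedCharacter.sub hΦ.isGeneralized
      exact isGeneralized_one.intCast_smul _
  set F : S → ℂ := fun x => ∏ t ∈ Finset.Icc 1 M, (Φ x - (((n : ℤ) - (p : ℤ) * t : ℤ) : ℂ)) with hF
  have hF1 : ∀ x, F x = if x ∈ Codegree.kerS hΦ then ((p ^ M * M ! : ℕ) : ℂ) else 0 := by
    intro x
    split_ifs with hx
    · rw [hF]
      simp only
      rw [Codegree.mem_kerS] at hx
      rw [hx, hn]
      have h1 : ∀ t ∈ Finset.Icc 1 M, ((n : ℂ) - (((n : ℤ) - (p : ℤ) * t : ℤ) : ℂ)) = (p : ℂ) * t := by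
        intro t _
        push_cast
        ring
      have hIcc : Finset.Icc 1 M = Finset.Ico 1 (M + 1) := by ext i; simp only [Finset.mem_Icc, Finset.mem_Ico]; omega
      rw [Finset.prod_congr rfl h1, Finset.prod_mul_distrib, Finset.prod_const, Nat.card_Icc,
        Nat.add_sub_cancel, ← Nat.cast_prod, hIcc, Finset.prod_Ico_id_eq_factorial]
      push_cast
      ring
    · obtain ⟨t, ht1, ht2⟩ := value hS hΦ hinv hn x
      have ht0 : t ≠ 0 := by
        rintro rfl
        apply hx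
        rw [Codegree.mem_kerS, ht2, hn]
        simp
      rw [hF]
      simp only
      apply Finset.prod_eq_zero (i := t)
      · rw [Finset.mem_Icc]
        refine ⟨by omega, ?_⟩
        rw [hM, Nat.le_div_iff_mul_le hp1, mul_comm]
        exact ht1
      · rw [ht2, sub_self]
  obtain ⟨z, hz⟩ := (hgen (Finset.Icc 1 M)).classInner_int (isGeneralized_one (G := S))
  rw [classInner_def] at hz
  have h2 : ∑ g : S, F g * conj ((1 : S → ℂ) g) =
      ((Nat.card (Codegree.kerS hΦ) * (p ^ M * M !) : ℕ) : ℂ) := by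
    have h3 : ∀ g : S, F g * conj ((1 : S → ℂ) g) =
        if g ∈ Codegree.kerS hΦ then ((p ^ M * M ! : ℕ) : ℂ) else 0 := by
      intro g
      rw [hF1]
      simp
    rw [Finset.sum_congr rfl (fun g _ => h3 g), Finset.sum_ite, Finset.sum_const_zero, add_zero,
      Finset.sum_const, nsmul_eq_mul]
    have h4 : (Finset.univ.filter (fun g : S => g ∈ Codegree.kerS hΦ)).card =
        Nat.card (Codegree.kerS hΦ) := by
      rw [Nat.card_eq_fintype_card, Fintype.card_subtype]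
    rw [h4]
    push_cast
    ring
  rw [h2] at hz
  have hcard : (Nat.card S : ℂ) ≠ 0 := Nat.cast_ne_zero.mpr Nat.card_pos.ne'
  rw [inv_mul_eq_iff_eq_mul₀ hcard] at hz
  have h5 : ((Nat.card (Codegree.kerS hΦ) * (p ^ M * M !) : ℕ) : ℤ) = (Nat.card S : ℤ) * z := by
    exact_mod_cast hz
  have h6 : Nat.card S ∣ Nat.card (Codegree.kerS hΦ) * (p ^ M * M !) := by
    have : (Nat.card S : ℤ) ∣ ((Nat.card (Codegree.kerS hΦ) * (p ^ M * M !) : ℕ) : ℤ) := ⟨z, h5⟩
    exact_mod_cast this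
  rw [← Subgroup.card_mul_index (Codegree.kerS hΦ)] at h6
  exact Nat.dvd_of_mul_dvd_mul_left Nat.card_pos h6

theorem sum_eq (n N : ℕ) (hN : n ≤ N) :
    ∑ i ∈ Finset.range (N + 1), n / ((p - 1) * p ^ i) =
      (p ^ (n / (p - 1)) * (n / (p - 1))!).factorization p := by
  have hpos : p ^ (n / (p - 1)) ≠ 0 := pow_ne_zero _ hp.out.ne_zero
  rw [Nat.factorization_mul hpos (Nat.factorial_ne_zero _), Finsupp.add_apply,
    hp.out.factorization_pow, Finsupp.single_eq_same, Nat.factorization_def _ hp.out,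
    padicValNat_factorial (b := N + 1)]
  · rw [Finset.range_eq_Ico, Finset.sum_eq_sum_Ico_succ_bot (by omega)]
    rw [pow_zero, mul_one, zero_add]
    congr 1
    apply Finset.sum_congr rfl
    intro i _
    rw [Nat.div_div_eq_div_mul]
  · have h1 : Nat.log p (n / (p - 1)) ≤ n / (p - 1) := Nat.log_le_self _ _
    have h2 : n / (p - 1) ≤ n := Nat.div_le_self _ _
    omega

theorem bound (hS : IsPGroup p S) {Φ : S → ℂ} (hΦ : IsCharacter S Φ)
    (hinv : ∀ (x : S) (j : ℕ), j.Coprime p → Φ (x ^ j) = Φ x) {n N : ℕ} (hn : Φ 1 = n)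
    (hN : n ≤ N) : (Codegree.kerS hΦ).index.factorization p ≤
      ∑ i ∈ Finset.range (N + 1), N / ((p - 1) * p ^ i) := by
  have h1 := card_dvd hS hΦ hinv hn
  have hne : p ^ (n / (p - 1)) * (n / (p - 1))! ≠ 0 :=
    mul_ne_zero (pow_ne_zero _ hp.out.ne_zero) (Nat.factorial_ne_zero _)
  have h2 := (Nat.factorization_le_iff_dvd (Subgroup.index_ne_zero_of_finite) hne).mpr h1 p
  refine h2.trans ?_
  rw [← sum_eq n N hN]
  apply Finset.sum_le_sum
  intro i _
  exact Nat.div_le_div_right hN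

end Cfsg.Agent.Lib.H39Sch1
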