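import Mathlib
import Cfsg.Agent.Lib.H39Bld3
import Cfsg.Agent.Lib.H39Bli3
import Cfsg.Agent.Lib.ExtraChar
import Cfsg.Agent.Lib.Cores3
import Cfsg.Agent.Lib.H39Sch1

/-!
Blichfeldt's theorem for complex representations, and degrees less than `2p` (helper39).
-/

set_option autoImplicit false
set_option linter.all false

namespace Cfsg.Agent.Lib.H39Bld

open scoped ComplexConjugate InnerProductSpace DirectSum commutatorElement
open Cfsg Cfsg.Agent.Lib Cfsg.Agent.Lib.CharBasic Cfsg.Agent.Lib.Clifford Cfsg.Agent.Lib.H39Bli Module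

universe u

section main

variable {G : Type*} [Group G] [Finite G]

theorem bli_rep2 [Fintype G] {n : ℕ} (ρ : Representation ℂ G (Fin n → ℂ)) (hρ : ρ.IsIrreducible)
    {y : G} {p : ℕ} (hp : p.Prime) (hy : y ^ p = 1) {ζ : ℂ} (hζ : IsPrimitiveRoot ζ p)
    (I : Finset ℕ) (hI : I ⊆ Finset.range p) (hI0 : ∀ i ∈ Finset.range p, i ∉ I → pr ρ y p ζ i = 0)
    (i1 : ℕ) (hi1 : pr ρ y p ζ i1 ≠ 0) (d : ℕ)
    (hdI : ∀ i ∈ I, ‖(ζ ^ i) ^ d - (ζ ^ i1) ^ d‖ < 1) :
    (∀ w, ρ (y ^ d) w = (ζ ^ i1) ^ d • w) ∨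
      ∃ (S : Subgroup G) (F : Submodule ℂ (LinearMap.range (emb ρ))), S ≠ ⊤ ∧
        Block (E := LinearMap.range (emb ρ)) (conjRep ρ (LinearEquiv.ofInjective (emb ρ) (emb_inj ρ))) S F := by
  classical
  have hζp := hζ.pow_eq_one
  let e := LinearEquiv.ofInjective (emb ρ) (emb_inj ρ)
  have he : ∀ v, ((e v : LinearMap.range (emb ρ)) : EuclideanSpace ℂ (G × Fin n)) = emb ρ v := fun v => rfl
  set U := conjRep ρ e with hU
  have hUe : ∀ g v, U g (e v) = e (ρ g v) := fun g v => by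
    rw [hU, conjRep_apply, LinearEquiv.symm_apply_apply]
  set lam := (ζ ^ i1) ^ d with hlam
  have hinner : ∀ g v w, ⟪U g v, U g w⟫_ℂ = ⟪v, w⟫_ℂ := by
    intro g v w
    obtain ⟨v, rfl⟩ := e.surjective v
    obtain ⟨w, rfl⟩ := e.surjective w
    rw [hUe, hUe, Submodule.coe_inner, Submodule.coe_inner, he, he, he, he, emb_inner]
  have hirr : ∀ W : Submodule ℂ (LinearMap.range (emb ρ)), (∀ g, ∀ w ∈ W, U g w ∈ W) → W = ⊥ ∨ W = ⊤ := by
    intro W hW
    haveI : U.IsIrreducible := isIrreducible_of_equiv (conjRepEquiv ρ e) hρ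
    let S : Subrepresentation U := ⟨W, fun g w hw => hW g w hw⟩
    rcases eq_bot_or_eq_top S with h | h
    · left
      exact congrArg Subrepresentation.toSubmodule h
    · right
      exact congrArg Subrepresentation.toSubmodule h
  have key := Cfsg.Agent.Lib.H39Bld.blichfeldt (E := LinearMap.range (emb ρ)) U hinner hirr (y ^ d) lam ?_ ?_
  · rcases key with key | ⟨S, F, h1, h2, h3, h4⟩
    · left
      intro w
      have h1 := key (e w)
      rw [hUe, ← map_smul] at h1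
      exact e.injective h1
    · right
      exact ⟨S, F, h1, hinner, hirr, h2, h3, h4⟩
  · -- the norm estimate
    intro w hw
    obtain ⟨v, rfl⟩ := e.surjective w
    have hv0 : v ≠ 0 := by rintro rfl; exact hw (map_zero _)
    have hdec : v = ∑ i ∈ I, pr ρ y p ζ i v := by
      conv_lhs => rw [← sum_pr ρ (y := y) hp hζ v]
      refine (Finset.sum_subset hI fun i hi hiI => ?_).symm
      rw [hI0 i hi hiI]; rfl
    have horth : ∀ i ∈ I, ∀ j ∈ I, i ≠ j → ⟪emb ρ (pr ρ y p ζ i v), emb ρ (pr ρ y p ζ j v)⟫_ℂ = 0 := by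
      intro i hi j hj hij
      have h1 := emb_inner ρ y (pr ρ y p ζ i v) (pr ρ y p ζ j v)
      rw [rho_pr ρ hζp hp.ne_zero hy, rho_pr ρ hζp hp.ne_zero hy, map_smul, map_smul, inner_smul_left,
        inner_smul_right, ← mul_assoc] at h1
      by_contra hne
      have h2 : conj (ζ ^ i) * ζ ^ j = 1 := mul_right_cancel₀ hne (by rw [h1, one_mul])
      have h3 : conj (ζ ^ i) * ζ ^ i = 1 := by
        have h4 : ‖ζ ^ i‖ = 1 := by rw [norm_pow, hζ.norm'_eq_one hp.ne_zero, one_pow]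
        rw [← Complex.normSq_eq_conj_mul_self, Complex.normSq_eq_norm_sq, h4]; simp
      have h5 : ζ ^ j = ζ ^ i := mul_left_cancel₀ (left_ne_zero_of_mul_eq_one h3) (h2.trans h3.symm)
      exact hij (hζ.pow_inj (Finset.mem_range.1 (hI hi)) (Finset.mem_range.1 (hI hj)) h5.symm)
    have h1 : U (y ^ d) (e v) - lam • e v = e (∑ i ∈ I, (((ζ ^ i) ^ d - lam) • pr ρ y p ζ i v)) := by
      rw [hUe, ← map_smul, ← map_sub]
      congr 1
      conv_lhs => rw [hdec]
      rw [map_sum, Finset.smul_sum, ← Finset.sum_sub_distrib]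
      refine Finset.sum_congr rfl fun i _ => ?_
      rw [rho_pow_pr ρ hζp hp.ne_zero hy, sub_smul]
    have h2 : ‖U (y ^ d) (e v) - lam • e v‖ ^ 2 = ∑ i ∈ I, ‖(ζ ^ i) ^ d - lam‖ ^ 2 *
        ‖emb ρ (pr ρ y p ζ i v)‖ ^ 2 := by
      rw [h1, Submodule.coe_norm, he, map_sum, norm_sq_sum]
      · refine Finset.sum_congr rfl fun i _ => ?_
        rw [map_smul, norm_smul, mul_pow]
      · intro i hi j hj hij
        rw [map_smul, map_smul, inner_smul_left, inner_smul_right, horth i hi j hj hij, mul_zero, mul_zero]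
    have h3 : ‖e v‖ ^ 2 = ∑ i ∈ I, ‖emb ρ (pr ρ y p ζ i v)‖ ^ 2 := by
      rw [Submodule.coe_norm, he, ← norm_sq_sum I _ horth, ← map_sum, ← hdec]
    have h4 : ‖U (y ^ d) (e v) - lam • e v‖ ^ 2 < ‖e v‖ ^ 2 := by
      rw [h2, h3]
      refine Finset.sum_lt_sum ?_ ?_
      · intro i hi
        have h5 : ‖(ζ ^ i) ^ d - lam‖ ^ 2 ≤ 1 := by
          exact pow_le_one₀ (norm_nonneg _) (hdI i hi).le
        exact mul_le_of_le_one_left (by positivity) h5
      · have h5 : ∃ i ∈ I, pr ρ y p ζ i v ≠ 0 := by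
          by_contra hcon
          push Not at hcon
          exact hv0 (hdec.trans (Finset.sum_eq_zero hcon))
        obtain ⟨i, hi, hiv⟩ := h5
        refine ⟨i, hi, ?_⟩
        have h6 : 0 < ‖emb ρ (pr ρ y p ζ i v)‖ := by
          rw [norm_pos_iff]
          intro h7
          exact hiv (emb_inj ρ (by rw [h7, map_zero]))
        have h7 : ‖(ζ ^ i) ^ d - lam‖ ^ 2 < 1 := pow_lt_one₀ (norm_nonneg _) (hdI i hi) two_ne_zero
        have h8 : 0 < ‖emb ρ (pr ρ y p ζ i v)‖ ^ 2 := by positivity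
        nlinarith
    exact lt_of_pow_lt_pow_left₀ 2 (norm_nonneg _) h4
  · -- eigenvector
    have h1 : ∃ v, pr ρ y p ζ i1 v ≠ 0 := by
      by_contra hcon
      push Not at hcon
      exact hi1 (LinearMap.ext hcon)
    obtain ⟨v, hv⟩ := h1
    refine ⟨e (pr ρ y p ζ i1 v), fun h => hv (e.injective (by rw [h, map_zero])), ?_⟩
    rw [hUe, rho_pow_pr ρ hζp hp.ne_zero hy, map_smul]

end main

section fin

variable {G : Type u} [Group G] [Finite G] {p : ℕ} [hp : Fact p.Prime]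

theorem comm_ker' {χ : G → ℂ} (hχ : IsCharacter G χ)
    (hlin : ∀ [Fintype G] (ψ : IrrCharacter G), classInner χ (ψ : G → ℂ) ≠ 0 → (ψ : G → ℂ) 1 = 1)
    (a b : G) : χ (a * b * (b * a)⁻¹) = χ 1 := by
  classical
  have := Fintype.ofFinite G
  have hex := hχ.isClassFunction.expansion
  have h6 := congrFun hex (a * b * (b * a)⁻¹)
  have h7 := congrFun hex 1
  rw [h6, h7]
  simp only [Finset.sum_apply, Pi.smul_apply, smul_eq_mul]
  apply Finset.sum_congr rfl
  intro ψ _
  by_cases h0 : classInner χ (ψ : G → ℂ) = 0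
  · rw [h0, zero_mul, zero_mul]
  · have h9 := hlin ψ h0
    rw [ψ.2.isCharacter.map_mul_of_linear h9, ψ.2.isCharacter.map_mul_of_linear h9,
      mul_comm ((ψ : G → ℂ) a), ← ψ.2.isCharacter.map_mul_of_linear h9,
      ← ψ.2.isCharacter.map_mul_of_linear h9, mul_inv_cancel]

/-- a two-eigenvalue element in a nonabelian `p`-group of degree `< 2p`. -/
theorem exists_z {P : Type u} [Group P] [Finite P] (hP : IsPGroup p P) {χ : P → ℂ}
    (hχ : IsCharacter P χ) (hf : ∀ g, χ g = χ 1 → g = 1) (hn : charDegree χ < 2 * p) {a b : P}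
    (hab : a * b ≠ b * a) : p ≤ charDegree χ ∧ ∃ y : P, y ^ p = 1 ∧
      ∀ k : ℕ, χ (y ^ k) = p * (Complex.exp (2 * Real.pi * Complex.I / p)) ^ k +
        ((charDegree χ - p : ℕ) : ℂ) := by
  classical
  have := Fintype.ofFinite P
  have hex : ∃ ψ : IrrCharacter P, classInner χ (ψ : P → ℂ) ≠ 0 ∧ (ψ : P → ℂ) 1 ≠ 1 := by
    by_contra hno
    push Not at hno
    apply hab
    refine mul_inv_eq_one.mp (hf _ (comm_ker' hχ ?_ a b))
    intro inst ψ h
    apply hno
    convert h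
  obtain ⟨ψ, hψ, hψ1⟩ := hex
  have hd := DefectZero.charDegree_eq ψ.2.isCharacter
  obtain ⟨β, hβ, hχe⟩ := Clifford.degree_le_of_constituent hχ ψ.2 hψ
  have hdχ := DefectZero.charDegree_eq hχ
  have hdβ := DefectZero.charDegree_eq hβ
  have hsum : charDegree χ = charDegree (ψ : P → ℂ) + charDegree β := by
    have h1 := congrFun hχe 1
    rw [Pi.add_apply, ← hd, ← hdχ, ← hdβ] at h1
    exact_mod_cast h1
  have hdp : charDegree (ψ : P → ℂ) = p := by
    have h2 : charDegree (ψ : P → ℂ) ∣ Nat.card P := CharApps.irr_degree_dvd_card ψ.2 hd.symm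
    obtain ⟨n, hn'⟩ := hP.exists_card_eq
    rw [hn'] at h2
    obtain ⟨j, -, hj⟩ := (Nat.dvd_prime_pow hp.out).mp h2
    rcases j with _ | _ | j
    · exfalso
      apply hψ1
      rw [← hd, hj, pow_zero, Nat.cast_one]
    · rw [hj, zero_add, pow_one]
    · exfalso
      have h3 : p ^ 2 ≤ p ^ (j + 1 + 1) := Nat.pow_le_pow_right hp.out.pos (by omega)
      have h4 := hp.out.two_le
      nlinarith
  refine ⟨by omega, ?_⟩
  have hβp : charDegree β < p := by omega
  -- the central element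
  have hnil : Group.IsNilpotent P := hP.isNilpotent
  have hcomm : commutator P ≠ ⊥ := by
    intro h
    have h1 : ⁅a, b⁆ ∈ commutator P := Subgroup.commutator_mem_commutator trivial trivial
    rw [h, Subgroup.mem_bot] at h1
    exact hab (commutatorElement_eq_one_iff_mul_comm.mp h1)
  obtain ⟨x, hx1, hx2, hx3⟩ := Cores.exists_mem_center_of_normal (K := commutator P) inferInstance hcomm
  have hker : commutator P ≤ Codegree.kerS hβ := by
    rw [commutator_def, Subgroup.commutator_le]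
    intro g _ h _
    have h1 := comm_ker hP hβ hβp g h
    rw [Codegree.mem_kerS]
    rw [← h1]
    congr 1
    rw [commutatorElement_def]
    group
  have hordx : ∃ z : P, orderOf z = p ∧ z ∈ commutator P ∧ z ∈ Subgroup.center P := by
    obtain ⟨k, hk⟩ := (IsPGroup.iff_orderOf.mp hP) x
    have hk0 : k ≠ 0 := by
      rintro rfl
      rw [pow_zero, orderOf_eq_one_iff] at hk
      exact hx3 hk
    refine ⟨x ^ p ^ (k - 1), ?_, pow_mem hx1 _, pow_mem hx2 _⟩
    rw [orderOf_pow_of_dvd (pow_ne_zero _ hp.out.ne_zero) (by rw [hk]; exact pow_dvd_pow p (by omega)), hk]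
    obtain ⟨i, rfl⟩ : ∃ i, k = i + 1 := ⟨k - 1, by omega⟩
    rw [Nat.add_sub_cancel, pow_succ]
    exact Nat.mul_div_cancel_left p (pow_pos hp.out.pos i)
  obtain ⟨z, hz, hzc, hzz⟩ := hordx
  obtain ⟨μ, hμ⟩ := ExtraChar.exists_central_hom ψ.2
  set ω : ℂ := (μ ⟨z, hzz⟩ : ℂ) with hω
  have hψz : ∀ k : ℕ, (ψ : P → ℂ) (z ^ k) = p * ω ^ k := by
    intro k
    have h1 := hμ (⟨z, hzz⟩ ^ k) 1
    rw [one_mul, map_pow, Units.val_pow_eq_pow_val, ← hd, hdp] at h1
    rw [mul_comm, hω, ← h1]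
    rfl
  have hβz : ∀ k : ℕ, β (z ^ k) = ((charDegree χ - p : ℕ) : ℂ) := by
    intro k
    have h1 : z ^ k ∈ Codegree.kerS hβ := hker (pow_mem hzc k)
    rw [Codegree.mem_kerS] at h1
    rw [h1, ← hdβ]
    congr 1
    omega
  have hχz : ∀ k : ℕ, χ (z ^ k) = p * ω ^ k + ((charDegree χ - p : ℕ) : ℂ) := by
    intro k
    rw [hχe, Pi.add_apply, hψz, ← hχe, hβz]
  have hp0 : (p : ℂ) ≠ 0 := Nat.cast_ne_zero.mpr hp.out.ne_zero
  have hz1 : z ^ p = 1 := by rw [← hz]; exact pow_orderOf_eq_one z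
  have hωp : ω ^ p = 1 := by
    have h1 := hψz p
    have h2 := hψz 0
    rw [hz1] at h1
    rw [pow_zero, h1, pow_zero] at h2
    exact mul_left_cancel₀ hp0 (by rw [h2])
  have hω1 : ω ≠ 1 := by
    intro h
    have h1 : z = 1 := by
      apply hf
      have h2 := hχz 1
      have h3 := hχz 0
      rw [pow_one, h, one_pow] at h2
      rw [pow_zero, pow_zero] at h3
      rw [h2, h3]
    rw [h1, orderOf_one] at hz
    exact hp.out.one_lt.ne hz
  have hprim : IsPrimitiveRoot ω p := by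
    have h1 : orderOf ω = p := orderOf_eq_prime hωp hω1
    have h2 := IsPrimitiveRoot.orderOf ω
    rwa [h1] at h2
  have hζ : IsPrimitiveRoot (Complex.exp (2 * Real.pi * Complex.I / p)) p :=
    Complex.isPrimitiveRoot_exp p hp.out.ne_zero
  obtain ⟨j, -, hj⟩ := hprim.eq_pow_of_pow_eq_one hζ.pow_eq_one
  refine ⟨z ^ j, by rw [← pow_mul, mul_comm, pow_mul, hz1, one_pow], ?_⟩
  intro k
  rw [← pow_mul, hχz, pow_mul, hj]

theorem main (hp7 : 7 ≤ p) {χ : G → ℂ} (hχ : IsIrrCharacter G χ) (hf : ∀ g, χ g = χ 1 → g = 1)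
    (hn : charDegree χ < 2 * p) (hne : charDegree χ ≠ p) (P : Sylow p G) {a b : G}
    (ha : a ∈ (P : Subgroup G)) (hb : b ∈ (P : Subgroup G)) (hab : a * b ≠ b * a) :
    ¬ p ^ 2 ∣ (pCore p G).index := by
  classical
  have := Fintype.ofFinite G
  have hχc := hχ.isCharacter
  obtain ⟨Q, hQ⟩ : ∃ Q : Subgroup G, Q = (P : Subgroup G) := ⟨_, rfl⟩
  have hQp : IsPGroup p Q := by rw [hQ]; exact P.isPGroup'
  rw [← hQ] at ha hb
  have hχQ := hχc.restrict Q
  have hdQ : charDegree (fun h : Q => χ h) = charDegree χ := by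
    have h1 := DefectZero.charDegree_eq hχQ
    have h2 := DefectZero.charDegree_eq hχc
    have h3 : (charDegree (fun h : Q => χ h) : ℂ) = charDegree χ := by
      rw [h1, h2]
      rfl
    exact_mod_cast h3
  obtain ⟨hle, y', hy', hval'⟩ := exists_z hQp hχQ (fun g hg => Subtype.ext (hf _ hg))
    (by rw [hdQ]; exact hn) (a := ⟨a, ha⟩) (b := ⟨b, hb⟩) (fun h => hab (congrArg Subtype.val h))
  rw [hdQ] at hle hval'
  set y : G := (y' : G) with hydef
  have hy : y ^ p = 1 := congrArg Subtype.val hy'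
  set ζ : ℂ := Complex.exp (2 * Real.pi * Complex.I / p) with hζdef
  have hval : ∀ k : ℕ, χ (y ^ k) = p * ζ ^ k + ((charDegree χ - p : ℕ) : ℂ) := hval'
  have hζ : IsPrimitiveRoot ζ p := Complex.isPrimitiveRoot_exp p hp.out.ne_zero
  have hp0 : (p : ℂ) ≠ 0 := Nat.cast_ne_zero.mpr hp.out.ne_zero
  have hζ0 : ζ ≠ 0 := hζ.ne_zero hp.out.ne_zero
  have hζ1 : ζ ≠ 1 := hζ.ne_one hp.out.one_lt
  obtain ⟨n, ρ, hρ, hρχ⟩ := hχ
  have htr : ∀ i ∈ Finset.range p, LinearMap.trace ℂ (Fin n → ℂ) (pr ρ y p ζ i) =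
      (if i = 1 then (p : ℂ) else 0) + (if i = 0 then ((charDegree χ - p : ℕ) : ℂ) else 0) := by
    intro i hi
    rw [Finset.mem_range] at hi
    rw [trace_pr]
    have h1 : ∀ k ∈ Finset.range p, ζ⁻¹ ^ (i * k) * ρ.character (y ^ k) =
        p * (ζ⁻¹ ^ i * ζ) ^ k + ((charDegree χ - p : ℕ) : ℂ) * (ζ⁻¹ ^ i) ^ k := by
      intro k _
      rw [hρχ, hval k, pow_mul, mul_pow]
      ring
    rw [Finset.sum_congr rfl h1, Finset.sum_add_distrib, ← Finset.mul_sum, ← Finset.mul_sum]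
    have hip : (ζ⁻¹ ^ i) ^ p = 1 := by
      rw [← pow_mul, mul_comm, pow_mul, inv_pow, hζ.pow_eq_one, inv_one, one_pow]
    rw [H39Sch1.sum_pow_eq hp.out.pos (by rw [mul_pow, hip, hζ.pow_eq_one, one_mul]),
      H39Sch1.sum_pow_eq hp.out.pos hip]
    have h2 : ζ⁻¹ ^ i * ζ = 1 ↔ i = 1 := by
      constructor
      · intro h
        have h3 : ζ ^ i = ζ ^ 1 := by
          rw [pow_one, ← one_mul (ζ ^ i), ← h, inv_pow]
          field_simp
        exact hζ.pow_inj hi hp.out.one_lt h3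
      · rintro rfl
        rw [pow_one, inv_mul_cancel₀ hζ0]
    have h3 : ζ⁻¹ ^ i = 1 ↔ i = 0 := by
      constructor
      · intro h
        have h4 : ζ ^ i = ζ ^ 0 := by
          rw [inv_pow] at h
          rw [pow_zero]
          exact inv_eq_one.mp h
        exact hζ.pow_inj hi hp.out.pos h4
      · rintro rfl
        rw [pow_zero]
    by_cases hi1 : i = 1
    · subst hi1
      rw [if_pos (h2.mpr rfl), if_neg (fun h => absurd (h3.mp h) one_ne_zero), if_pos rfl,
        if_neg one_ne_zero, Nat.cast_zero, mul_zero, add_zero, add_zero, inv_mul_cancel_left₀ hp0]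
    · rw [if_neg (fun h => hi1 (h2.mp h)), if_neg hi1]
      by_cases hi0 : i = 0
      · rw [if_pos (h3.mpr hi0), if_pos hi0]
        field_simp
        simp
      · rw [if_neg (fun h => hi0 (h3.mp h)), if_neg hi0]
        simp
  have hI0 : ∀ i ∈ Finset.range p, i ∉ ({0, 1} : Finset ℕ) → pr ρ y p ζ i = 0 := by
    intro i hi hni
    simp only [Finset.mem_insert, Finset.mem_singleton, not_or] at hni
    obtain ⟨m, hm, hm0⟩ := trace_pr_nat ρ hζ.pow_eq_one hp.out.ne_zero hy i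
    apply hm0
    rw [htr i hi, if_neg hni.2, if_neg hni.1, add_zero] at hm
    exact_mod_cast hm.symm
  have hi1 : pr ρ y p ζ 0 ≠ 0 := by
    intro h
    have h1 := htr 0 (Finset.mem_range.mpr hp.out.pos)
    rw [h, map_zero, if_neg zero_ne_one, if_pos rfl, zero_add] at h1
    have h2 : charDegree χ - p = 0 := by exact_mod_cast h1.symm
    omega
  have hdI : ∀ i ∈ ({0, 1} : Finset ℕ), ‖(ζ ^ i) ^ 1 - (ζ ^ 0) ^ 1‖ < 1 := by
    intro i hi
    simp only [Finset.mem_insert, Finset.mem_singleton] at hi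
    rcases hi with rfl | rfl
    · simp
    · have h1 := norm_exp_lt (r := 1) (p := p) hp.out.pos (by simp; omega)
      rw [zpow_one] at h1
      simpa using h1
  have hsub : ({0, 1} : Finset ℕ) ⊆ Finset.range p := by
    intro i hi
    simp only [Finset.mem_insert, Finset.mem_singleton] at hi
    rw [Finset.mem_range]
    omega
  rcases bli_rep2 ρ hρ hp.out hy hζ {0, 1} hsub hI0 0 hi1 1 hdI with hsc | ⟨S, F, hS, hB⟩
  · exfalso
    have h1 : ρ (y ^ 1) = LinearMap.id := by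
      refine LinearMap.ext fun w => ?_
      rw [hsc w]
      simp
    have h2 : χ (y ^ 1) = χ (y ^ 0) := by
      rw [← hρχ, Representation.character, Representation.character, h1, pow_zero, map_one]
      rfl
    rw [hval, hval, pow_one, pow_zero] at h2
    apply hζ1
    exact mul_left_cancel₀ hp0 (add_right_cancel h2)
  · have hfr : finrank ℂ (LinearMap.range (emb ρ)) = charDegree χ := by
      rw [← (LinearEquiv.ofInjective (emb ρ) (emb_inj ρ)).finrank_eq]
      have h1 := DefectZero.charDegree_eq hχc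
      rw [← hρχ, Representation.char_one] at h1
      rw [← hρχ]
      exact_mod_cast h1.symm
    refine Block.conclusion hB ?_ hS (by omega) (by rw [hfr]; exact hn) Q hQp ha hb hab
    intro g hg
    apply hf
    rw [← hρχ]
    have h1 : ρ g = 1 := by
      refine LinearMap.ext fun w => ?_
      have h2 := congrArg (fun f => f ((LinearEquiv.ofInjective (emb ρ) (emb_inj ρ)) w)) hg
      rw [conjRep_apply, LinearEquiv.symm_apply_apply] at h2
      exact (LinearEquiv.ofInjective (emb ρ) (emb_inj ρ)).injective h2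
    show LinearMap.trace ℂ _ (ρ g) = LinearMap.trace ℂ _ (ρ 1)
    rw [h1, map_one ρ]

end fin

end Cfsg.Agent.Lib.H39Bld
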