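import Cfsg.Agent.Lib.H39Bli2
import Cfsg.Agent.Lib.H39Bli3
import Cfsg.Agent.Lib.H76Char
import Cfsg.Agent.Lib.BlockOsima
import Cfsg.Agent.Lib.CharCentral
import Cfsg.Agent.Lib.CharValues
import Cfsg.Agent.Lib.H76Blk3
import Mathlib.GroupTheory.PGroup
import Mathlib.GroupTheory.SpecificGroups.Cyclic

/-! Simple groups of order `p ^ a * q ^ b * g₀`. -/

set_option autoImplicit false
set_option linter.all false

namespace Cfsg.Agent.Lib.H39Bli

open scoped ComplexConjugate
open Cfsg Cfsg.Agent.Lib.CharBasic Cfsg.Agent.Lib.BlockRing Cfsg.Agent.Lib.BlockGA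
open Cfsg.Agent.Lib.H76Blk3

variable {G : Type*} [Group G] [Finite G]

/-- choice of the character. -/
theorem exists_char {p q : ℕ} (hq : q.Prime) {M : Ideal AlgInt} (hM : IsPModular p M) {y : G}
    (hy : p ∣ orderOf y) : ∃ χ : IrrCharacter G, χ ∈ principalBlock M G ∧ χ ≠ tr G ∧
      ∀ n : ℕ, (χ : G → ℂ) 1 = n → ¬ q ∣ n := by
  classical
  haveI := Fintype.ofFinite G
  haveI := isPrime hM
  by_contra hcon
  push Not at hcon
  set t : IrrCharacter G := tr G with ht
  have ht1 : ∀ x : G, (t : G → ℂ) x = 1 := fun x => rfl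
  have htB : t ∈ principalBlock M G := Cfsg.Agent.Lib.BlockIdem.sameBlock_refl _
  have hB : IsPBlock M (principalBlock M G) := ⟨t, rfl⟩
  have h0 := Cfsg.Agent.Lib.BlockOsima.weak_orthogonality hM hB (x := (1 : G)) (y := y)
    (by rw [orderOf_one]; exact hM.1.one_lt.ne' ∘ Nat.dvd_one.1) hy
  rw [finsum_mem_eq_finite_toFinset_sum _ (Set.toFinite _),
    ← Finset.add_sum_erase _ _ (show t ∈ (Set.toFinite (principalBlock M G)).toFinset by simpa using htB),
    ht1, ht1, map_one, mul_one] at h0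
  have h1 : ∀ χ ∈ (Set.toFinite (principalBlock M G)).toFinset.erase t, ∃ z : ℂ, IsIntegral ℤ z ∧
      (χ : G → ℂ) 1 * conj ((χ : G → ℂ) y) = q * z := by
    intro χ hχ
    rw [Finset.mem_erase, Set.Finite.mem_toFinset] at hχ
    obtain ⟨n, hn, k, hk⟩ := hcon χ hχ.2 hχ.1
    refine ⟨k * conj ((χ : G → ℂ) y), ?_, ?_⟩
    · have h2 : IsIntegral ℤ ((χ : G → ℂ) y⁻¹) := by
        obtain ⟨n, ρ, _, h⟩ := χ.2
        rw [← h]
        exact CharValues.isIntegral_character ρ _
      rw [χ.2.inv] at h2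
      exact (isIntegral_algebraMap (R := ℤ) (x := (k : ℤ))).mul h2 |> (by simpa using ·)
    · rw [hn, hk]; push_cast; ring
  choose! z hz1 hz2 using h1
  rw [Finset.sum_congr rfl hz2, ← Finset.mul_sum] at h0
  set S := ∑ χ ∈ (Set.toFinite (principalBlock M G)).toFinset.erase t, z χ with hS
  have hSi : IsIntegral ℤ (-S) := (IsIntegral.sum _ fun χ hχ => hz1 χ hχ).neg
  have hq0 : (q : ℂ) ≠ 0 := by exact_mod_cast hq.ne_zero
  have h3 : ((1 : ℕ) : ℂ) / (q : ℂ) = -S := by
    rw [div_eq_iff hq0, Nat.cast_one]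
    linear_combination h0
  rw [← h3] at hSi
  have h4 := CharCentral.nat_dvd_of_isIntegral_div hq.ne_zero hSi
  exact hq.one_lt.ne' (Nat.dvd_one.1 h4)

/-- integrality of `g₀ χ(x) / χ(1)`. -/
theorem int_quot {q : ℕ} (hq : q.Prime) (b g₀ : ℕ) (χ : IrrCharacter G) {n : ℕ} (hn : (χ : G → ℂ) 1 = n)
    (hn0 : n ≠ 0) (hqn : ¬ q ∣ n) (x : G) (hx : (Subgroup.centralizer ({x} : Set G)).index ∣ q ^ b * g₀) :
    IsIntegral ℤ ((g₀ : ℂ) * (χ : G → ℂ) x / n) := by
  obtain ⟨t, ht⟩ := hx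
  have h1 := isIntegral_centralChar χ.2 x
  rw [centralChar, hn] at h1
  have h2 : IsIntegral ℤ ((χ : G → ℂ) x) := by
    obtain ⟨n, ρ, _, h⟩ := χ.2
    rw [← h]
    exact CharValues.isIntegral_character ρ _
  have hnat : ∀ m : ℤ, IsIntegral ℤ (m : ℂ) := fun m => by
    simpa using isIntegral_algebraMap (R := ℤ) (A := ℂ) (x := m)
  have h3 : IsIntegral ℤ (((q : ℂ) ^ b * g₀) * (χ : G → ℂ) x / n) := by
    have := (hnat t).mul h1
    have e : ((t : ℤ) : ℂ) * ((Subgroup.centralizer ({x} : Set G)).index * (χ : G → ℂ) x / n) =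
        ((q : ℂ) ^ b * g₀) * (χ : G → ℂ) x / n := by
      have h4 : ((q : ℂ) ^ b * g₀) = (Subgroup.centralizer ({x} : Set G)).index * t := by exact_mod_cast ht
      rw [h4]
      push_cast
      ring
    rwa [e] at this
  have hco : IsCoprime ((q : ℤ) ^ b) (n : ℤ) := by
    apply IsCoprime.pow_left
    rw [Nat.isCoprime_iff_coprime]
    exact (Nat.Prime.coprime_iff_not_dvd hq).2 hqn
  obtain ⟨u, v, huv⟩ := hco
  have huv' : (u : ℂ) * (q : ℂ) ^ b + v * n = 1 := by exact_mod_cast huv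
  have hnc : (n : ℂ) ≠ 0 := by exact_mod_cast hn0
  have e : (g₀ : ℂ) * (χ : G → ℂ) x / n = (u : ℂ) * (((q : ℂ) ^ b * g₀) * (χ : G → ℂ) x / n) +
      (v : ℂ) * (((g₀ : ℤ) : ℂ) * (χ : G → ℂ) x) := by
    have : (g₀ : ℂ) * (χ : G → ℂ) x / n = (g₀ : ℂ) * (χ : G → ℂ) x / n * ((u : ℂ) * (q : ℂ) ^ b + v * n) := by
      rw [huv', mul_one]
    rw [this]
    field_simp
    push_cast
    ring
  rw [e]
  exact ((hnat u).mul h3).add ((hnat v).mul ((hnat g₀).mul h2))

/-- congruence of `g₀ χ(x) / χ(1)`. -/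
theorem cong_quot {p q : ℕ} (hq : q.Prime) (hpq : p ≠ q) {M : Ideal AlgInt} (hM : IsPModular p M)
    (b g₀ : ℕ) (χ : IrrCharacter G) (hχ : χ ∈ principalBlock M G) {n : ℕ} (hn : (χ : G → ℂ) 1 = n)
    (x : G) (hx : (Subgroup.centralizer ({x} : Set G)).index ∣ q ^ b * g₀) :
    MemLocalIdeal M ((g₀ : ℂ) * (χ : G → ℂ) x / n - g₀) := by
  haveI := isPrime hM
  obtain ⟨t, ht⟩ := hx
  have h1 := hχ x
  rw [centralChar, centralChar, hn] at h1
  simp only [mul_one, div_one] at h1
  have h2 := idl_mul_left (loc_natCast (M := M) t) h1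
  have hqp : ¬ p ∣ q ^ b := fun h => hpq ((Nat.prime_dvd_prime_iff_eq hM.1 hq).1 (hM.1.dvd_of_dvd_pow h))
  have h3 := idl_neg (idl_mul_left (loc_inv_natCast hM hqp) h2)
  have hqc : (q : ℂ) ^ b ≠ 0 := pow_ne_zero _ (by exact_mod_cast hq.ne_zero)
  have h4 : ((q : ℂ) ^ b * g₀) = (Subgroup.centralizer ({x} : Set G)).index * t := by exact_mod_cast ht
  have e : (g₀ : ℂ) * (χ : G → ℂ) x / n - g₀ = -((((q ^ b : ℕ) : ℂ))⁻¹ * ((t : ℂ) *
      ((Subgroup.centralizer ({x} : Set G)).index - (Subgroup.centralizer ({x} : Set G)).index *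
        (χ : G → ℂ) x / n))) := by
    have h5 : (t : ℂ) * ((Subgroup.centralizer ({x} : Set G)).index - (Subgroup.centralizer ({x} : Set G)).index *
        (χ : G → ℂ) x / n) = ((q : ℂ) ^ b * g₀) * (1 - (χ : G → ℂ) x / n) := by
      rw [h4]; ring
    rw [h5]
    push_cast
    field_simp
    ring
  rw [e]
  exact h3

theorem main [IsSimpleGroup G] (p q a b g₀ : ℕ) (hp : p.Prime) (hq : q.Prime) (hpq : p ≠ q) (ha : 0 < a)
    (hg : Nat.card G = p ^ a * q ^ b * g₀) (hcop : ¬ p ∣ g₀) (hcoq : ¬ q ∣ g₀) (hne : Nat.card G ≠ p) :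
    p < 6 ^ (g₀ - 1) := by
  classical
  haveI : Fact p.Prime := ⟨hp⟩
  haveI := Fintype.ofFinite G
  obtain ⟨M, hM⟩ := H76Char.exists_isPModular p
  haveI := isPrime hM
  have hg0 : g₀ ≠ 0 := by rintro rfl; exact hcop (dvd_zero _)
  have hqp : ¬ p ∣ q ^ b := fun h => hpq ((Nat.prime_dvd_prime_iff_eq hp hq).1 (hp.dvd_of_dvd_pow h))
  -- the Sylow subgroup
  let P : Sylow p G := default
  have hPcard : Nat.card P = p ^ a := by
    rw [P.card_eq_multiplicity, hg]
    congr 1
    rw [Nat.factorization_mul (mul_ne_zero (pow_ne_zero _ hp.ne_zero) (pow_ne_zero _ hq.ne_zero)) hg0,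
      Nat.factorization_mul (pow_ne_zero _ hp.ne_zero) (pow_ne_zero _ hq.ne_zero)]
    simp only [Finsupp.add_apply]
    rw [Nat.factorization_eq_zero_of_not_dvd hcop, Nat.factorization_eq_zero_of_not_dvd hqp,
      hp.factorization_pow]
    simp
  have hPidx : (P : Subgroup G).index = q ^ b * g₀ := by
    have h1 := (P : Subgroup G).card_mul_index
    have h2 : Nat.card (P : Subgroup G) = p ^ a := hPcard
    rw [h2, hg, mul_assoc] at h1
    exact Nat.eq_of_mul_eq_mul_left (pow_pos hp.pos _) h1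
  obtain ⟨y, hyP, hyo⟩ : ∃ y : G, (∀ z ∈ (P : Subgroup G), z * y = y * z) ∧ orderOf y = p := by
    haveI : Nontrivial P := by
      rw [← Finite.one_lt_card_iff_nontrivial, hPcard]
      exact Nat.one_lt_pow ha.ne' hp.one_lt
    have hc : Nontrivial (Subgroup.center P) := P.2.center_nontrivial
    have h1 : p ∣ Nat.card (Subgroup.center P) := by
      obtain ⟨k, hk⟩ := (IsPGroup.iff_card).1 (P.2.to_subgroup (Subgroup.center P))
      rw [hk]
      refine dvd_pow_self p ?_
      rintro rfl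
      rw [pow_zero] at hk
      rw [← Finite.one_lt_card_iff_nontrivial, hk] at hc
      exact lt_irrefl _ hc
    obtain ⟨z, hz⟩ := exists_prime_orderOf_dvd_card' p h1
    refine ⟨((z : P) : G), ?_, ?_⟩
    · intro w hw
      have h2 := (Subgroup.mem_center_iff.1 z.2) ⟨w, hw⟩
      exact congrArg Subtype.val h2
    · rw [Subgroup.orderOf_coe, Subgroup.orderOf_coe, hz]
  have hyp : y ^ p = 1 := by rw [← hyo]; exact pow_orderOf_eq_one y
  have hyk : ∀ k : ℕ, (Subgroup.centralizer ({y ^ k} : Set G)).index ∣ q ^ b * g₀ := by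
    intro k
    rw [← hPidx]
    refine Subgroup.index_dvd_of_le ?_
    intro z hz
    rw [Subgroup.mem_centralizer_singleton_iff]
    have h1 : Commute z y := hyP z hz
    exact (h1.pow_right k).eq
  -- the character
  obtain ⟨χ, hχB, hχt, hχq⟩ := exists_char (q := q) hq hM (y := y) (by rw [hyo])
  obtain ⟨N0, ρ, hρ, hρχ⟩ := χ.2
  have hdeg : (χ : G → ℂ) 1 = N0 := by rw [← hρχ]; simp
  have hN0 : N0 ≠ 0 := by
    rintro rfl
    exact χ.2.one_ne_zero (by rw [hdeg, Nat.cast_zero])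
  have hN0c : (N0 : ℂ) ≠ 0 := by exact_mod_cast hN0
  have hqn := hχq N0 hdeg
  set ζ : ℂ := Complex.exp (2 * Real.pi * Complex.I / p) with hζdef
  have hζ : IsPrimitiveRoot ζ p := Complex.isPrimitiveRoot_exp p hp.ne_zero
  have hζi : ∀ k, IsIntegral ℤ (ζ⁻¹ ^ k) := fun k => ((hζ.inv).isIntegral hp.pos).pow k
  -- multiplicities
  have hmult := fun i => trace_pr_nat ρ hζ.pow_eq_one hp.ne_zero hyp i
  choose m hm hm0 using hmult
  have hpc : (p : ℂ) ≠ 0 := by exact_mod_cast hp.ne_zero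
  have hkey : ∀ i, ∃ c : ℕ, g₀ * m i = N0 * c := by
    intro i
    have h1 : (p : ℂ) * (g₀ * m i / N0) =
        ∑ k ∈ Finset.range p, ζ⁻¹ ^ (i * k) * ((g₀ : ℂ) * (χ : G → ℂ) (y ^ k) / N0) := by
      rw [← hm i, trace_pr, hρχ]
      have h2 : ∀ S : ℂ, (p : ℂ) * (g₀ * ((p : ℂ)⁻¹ * S) / N0) = g₀ / N0 * S := by
        intro S
        field_simp
      rw [h2, Finset.mul_sum]
      refine Finset.sum_congr rfl fun k _ => ?_
      ring
    have h2 : IsIntegral ℤ ((p : ℂ) * (g₀ * m i / N0)) := by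
      rw [h1]
      exact IsIntegral.sum _ fun k _ => (hζi _).mul (int_quot hq b g₀ χ hdeg hN0 hqn _ (hyk k))
    obtain ⟨Z, hZ⟩ := CharCentral.exists_int_of_isIntegral_rat h2 ((p : ℚ) * (g₀ * m i / N0)) (by push_cast; rfl)
    have h3 : MemLocalIdeal M (Z : ℂ) := by
      rw [← hZ, h1]
      have h4 : ∑ k ∈ Finset.range p, ζ⁻¹ ^ (i * k) * ((g₀ : ℂ) * (χ : G → ℂ) (y ^ k) / N0) =
          ∑ k ∈ Finset.range p, ((ζ⁻¹ ^ (i * k) - 1) * ((g₀ : ℂ) * (χ : G → ℂ) (y ^ k) / N0) +
            ((g₀ : ℂ) * (χ : G → ℂ) (y ^ k) / N0 - g₀)) + (p : ℂ) * g₀ := by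
        have : (p : ℂ) * g₀ = ∑ k ∈ Finset.range p, (g₀ : ℂ) := by
          rw [Finset.sum_const, Finset.card_range, nsmul_eq_mul]
        rw [this, ← Finset.sum_add_distrib]
        refine Finset.sum_congr rfl fun k _ => ?_
        ring
      rw [h4]
      refine idl_add (idl_sum fun k _ => idl_add (idl_mul_right ?_ ?_) ?_) (idl_mul_right ?_ (loc_natCast _))
      · refine idl_sub_one_of_pow hM (k := 1) ?_
        rw [pow_one, ← pow_mul, mul_comm, pow_mul, inv_pow, hζ.pow_eq_one, inv_one, one_pow]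
      · exact loc_of_isIntegral (int_quot hq b g₀ χ hdeg hN0 hqn _ (hyk k))
      · exact cong_quot hq hpq hM b g₀ χ hχB hdeg _ (hyk k)
      · rw [idl_natCast_iff hM]
    rw [idl_intCast_iff hM] at h3
    obtain ⟨c, hc⟩ := h3
    have h5 : (g₀ : ℂ) * m i = N0 * c := by
      have h6 : (p : ℂ) * (g₀ * m i / N0) = p * c := by rw [hZ, hc]; push_cast; ring
      have h7 := mul_left_cancel₀ hpc h6
      rw [div_eq_iff hN0c] at h7
      rw [h7, mul_comm]
    have h6 : (g₀ : ℤ) * m i = N0 * c := by exact_mod_cast h5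
    have h7 : 0 ≤ c := by
      have : (0 : ℤ) < N0 := by exact_mod_cast Nat.pos_of_ne_zero hN0
      by_contra hcn
      push Not at hcn
      nlinarith [mul_neg_of_pos_of_neg this hcn, mul_nonneg (Int.natCast_nonneg g₀) (Int.natCast_nonneg (m i))]
    lift c to ℕ using h7
    exact ⟨c, by exact_mod_cast h6⟩
  choose c hc using hkey
  have hsum : ∑ i ∈ Finset.range p, m i = N0 := by
    have h1 : ∑ i ∈ Finset.range p, pr ρ y p ζ i = LinearMap.id := by
      refine LinearMap.ext fun v => ?_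
      rw [LinearMap.sum_apply, sum_pr ρ hp hζ]
      rfl
    have h2 := congrArg (LinearMap.trace ℂ (Fin N0 → ℂ)) h1
    rw [map_sum, Finset.sum_congr rfl fun i _ => hm i, LinearMap.trace_id] at h2
    have h3 : ((∑ i ∈ Finset.range p, m i : ℕ) : ℂ) = N0 := by
      rw [Nat.cast_sum, h2]; simp
    exact_mod_cast h3
  have hcsum : ∑ i ∈ Finset.range p, c i = g₀ := by
    have h1 : N0 * ∑ i ∈ Finset.range p, c i = N0 * g₀ := by
      rw [Finset.mul_sum, ← Finset.sum_congr rfl fun i _ => hc i, ← Finset.mul_sum, hsum, mul_comm]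
    exact Nat.eq_of_mul_eq_mul_left (Nat.pos_of_ne_zero hN0) h1
  set I := (Finset.range p).filter fun i => m i ≠ 0 with hI
  have hIcard : I.card ≤ g₀ := by
    rw [← hcsum]
    refine le_trans ?_ (Finset.sum_le_sum_of_subset (Finset.filter_subset _ _) (s := I))
    rw [Finset.card_eq_sum_ones]
    refine Finset.sum_le_sum fun i hi => ?_
    rw [hI, Finset.mem_filter] at hi
    rcases Nat.eq_zero_or_pos (c i) with h | h
    · exfalso
      have := hc i
      rw [h, mul_zero] at this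
      rcases Nat.mul_eq_zero.1 this with h1 | h1
      · exact hg0 h1
      · exact hi.2 h1
    · exact h
  obtain ⟨i1, hi1⟩ : I.Nonempty := by
    rw [Finset.nonempty_iff_ne_empty]
    intro h
    apply hN0
    rw [← hsum]
    refine Finset.sum_eq_zero fun i hi => ?_
    by_contra h1
    have : i ∈ I := by rw [hI, Finset.mem_filter]; exact ⟨hi, h1⟩
    rw [h] at this
    simp at this
  by_contra hcon
  push Not at hcon
  have h6 : 6 ^ (I.card - 1) < p := by
    have h1 : 6 ^ (I.card - 1) ≤ p := (Nat.pow_le_pow_right (by norm_num) (by omega)).trans hcon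
    refine lt_of_le_of_ne h1 ?_
    intro h2
    rcases Nat.eq_zero_or_pos (I.card - 1) with h3 | h3
    · rw [h3, pow_zero] at h2
      exact hp.one_lt.ne h2
    · have h4 : 2 ∣ p := by
        rw [← h2]; exact dvd_trans (by norm_num) (dvd_pow_self 6 h3.ne')
      have h5 : 3 ∣ p := by
        rw [← h2]; exact dvd_trans (by norm_num) (dvd_pow_self 6 h3.ne')
      have h7 := (Nat.prime_dvd_prime_iff_eq Nat.prime_two hp).1 h4
      have h8 := (Nat.prime_dvd_prime_iff_eq Nat.prime_three hp).1 h5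
      omega
  obtain ⟨d, hd, hdp, hdI⟩ := dirichlet hp.pos I i1 hi1 h6
  have hyd : y ^ d ≠ 1 := by
    intro h
    have := orderOf_dvd_of_pow_eq_one h
    rw [hyo] at this
    exact absurd (Nat.le_of_dvd hd this) (by omega)
  have hscal := bli_rep ρ hρ hp hyp hζ I (Finset.filter_subset _ _) (fun i hi hiI => by
      refine hm0 i ?_
      by_contra h
      exact hiI (by rw [hI, Finset.mem_filter]; exact ⟨hi, h⟩)) i1 (by
      intro h
      rw [hI, Finset.mem_filter] at hi1
      apply hi1.2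
      have h1 := hm i1
      rw [h, map_zero] at h1
      exact_mod_cast h1.symm) d hyd hdI
  -- the kernel
  rcases IsSimpleGroup.eq_bot_or_eq_top_of_normal (MonoidHom.ker (ρ : G →* _)) inferInstance with hk | hk
  · have hcen : y ^ d ∈ Subgroup.center G := by
      rw [Subgroup.mem_center_iff]
      intro g
      have h1 : g * y ^ d * (y ^ d * g)⁻¹ ∈ MonoidHom.ker (ρ : G →* _) := by
        have h2 : ρ (g * y ^ d) = ρ (y ^ d * g) := by
          refine LinearMap.ext fun v => ?_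
          rw [map_mul, map_mul, Module.End.mul_apply, Module.End.mul_apply, hscal, hscal, map_smul]
        rw [MonoidHom.mem_ker, map_mul, h2, ← map_mul, mul_inv_cancel, map_one]
      rw [hk, Subgroup.mem_bot] at h1
      exact mul_inv_eq_one.1 h1
    rcases IsSimpleGroup.eq_bot_or_eq_top_of_normal (Subgroup.center G) inferInstance with h | h
    · rw [h, Subgroup.mem_bot] at hcen
      exact hyd hcen
    · letI : CommGroup G := Group.commGroupOfCenterEqTop h
      have h1 : (Nat.card G).Prime := IsSimpleGroup.prime_card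
      apply hne
      have h2 : p ∣ Nat.card G := by
        rw [← hyo]; exact orderOf_dvd_natCard y
      exact ((Nat.prime_dvd_prime_iff_eq hp h1).1 h2).symm
  · apply hχt
    have h1 : ∀ g : G, (χ : G → ℂ) g = (χ : G → ℂ) 1 := by
      intro g
      have h2 : g ∈ MonoidHom.ker (ρ : G →* _) := by rw [hk]; trivial
      rw [MonoidHom.mem_ker] at h2
      rw [← hρχ]
      have h3 : ρ g = ρ 1 := by rw [map_one ρ]; exact h2
      simp only [Representation.character]
      rw [h3]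
    by_contra hne
    have h2 : classInner (χ : G → ℂ) (tr G : G → ℂ) = 0 :=
      χ.2.classInner_eq_zero (tr G).2 (fun h => hne (Subtype.ext h))
    rw [classInner] at h2
    have h3 : ∀ g : G, (χ : G → ℂ) g * conj ((tr G : G → ℂ) g) = (χ : G → ℂ) 1 := by
      intro g
      rw [h1 g]
      change _ * conj (1 : ℂ) = _
      rw [map_one, mul_one]
    rw [Finset.sum_congr rfl fun g _ => h3 g, Finset.sum_const, Finset.card_univ, nsmul_eq_mul,
      Nat.card_eq_fintype_card, ← mul_assoc, inv_mul_cancel₀, one_mul] at h2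
    · exact χ.2.one_ne_zero h2
    · exact_mod_cast Fintype.card_ne_zero

end Cfsg.Agent.Lib.H39Bli
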