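import Mathlib
import Cfsg.Agent.Lib.H39Sch1
import Cfsg.Agent.Lib.CliffordCorr
import Cfsg.Agent.Lib.GlaubCyc2
import Cfsg.Agent.Lib.DefectZero
import Cfsg.Agent.Lib.CharApps

/-!
Replacing a character of a group with a normal Hall `p'`-subgroup by one with rational values on
`p`-elements (helper39).
-/

set_option autoImplicit false

namespace Cfsg.Agent.Lib.H39Sch2

open Cfsg Cfsg.Agent.Lib Cfsg.Agent.Lib.CharBasic Cfsg.Agent.Lib.Clifford
open scoped ComplexConjugate Nat

universe u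

variable {G : Type u} [Group G] [Finite G] {p : ℕ} [hp : Fact p.Prime]

theorem mem_of_pow_mem (T : Subgroup G) {m : ℕ} (hm : m.Coprime (Nat.card G)) {y : G}
    (h : y ^ m ∈ T) : y ∈ T := by
  have h1 : (orderOf y).Coprime m := by
    exact (Nat.Coprime.coprime_dvd_right (orderOf_dvd_natCard y) hm).symm
  obtain ⟨n, hn⟩ := exists_pow_eq_self_of_coprime h1.symm
  rw [← hn]
  exact pow_mem h n

theorem extend_pow (T : Subgroup G) {m : ℕ} (hm : m.Coprime (Nat.card G)) {η : T → ℂ}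
    (hη : ∀ t : T, η (t ^ m) = η t) (y : G) : extendByZero T η (y ^ m) = extendByZero T η y := by
  by_cases hy : y ∈ T
  · rw [IndFun.extendByZero_mem T η hy, IndFun.extendByZero_mem T η (pow_mem hy m)]
    exact hη ⟨y, hy⟩
  · rw [IndFun.extendByZero_not_mem T η hy,
      IndFun.extendByZero_not_mem T η (fun h => hy (mem_of_pow_mem T hm h))]

theorem indFun_pow [Fintype G] (T : Subgroup G) {m : ℕ} (hm : m.Coprime (Nat.card G)) {η : T → ℂ}
    (hη : ∀ t : T, η (t ^ m) = η t) (g : G) : indFun T η (g ^ m) = indFun T η g := by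
  rw [IndFun.indFun_apply, IndFun.indFun_apply]
  congr 1
  apply Finset.sum_congr rfl
  intro x _
  have h1 : x⁻¹ * g ^ m * x = (x⁻¹ * g * x) ^ m := by
    have := conj_pow (i := m) (a := x⁻¹) (b := g)
    rw [inv_inv] at this
    exact this.symm
  rw [h1, extend_pow T hm hη]

theorem exists_Phi_irr (K : Subgroup G) [hKn : K.Normal] (hcop : (Nat.card K).Coprime K.index)
    {χ : G → ℂ} (hχ : IsIrrCharacter G χ) :
    ∃ Φ : G → ℂ, IsCharacter G Φ ∧ charDegree Φ ≤ charDegree χ ∧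
      (∀ m : ℕ, m.Coprime (Nat.card G) → m ≡ 1 [MOD Nat.card K] → ∀ g, Φ (g ^ m) = Φ g) ∧
      ∀ x ∈ K, Φ x = Φ 1 → χ x = χ 1 := by
  classical
  have := Fintype.ofFinite G
  have := Fintype.ofFinite K
  obtain ⟨θ₀, hne⟩ := exists_constituent (hχ.isCharacter.restrict K) (by
    intro h
    exact hχ.one_ne_zero (congrFun h 1))
  obtain ⟨θ, hθe⟩ : ∃ θ : K → ℂ, θ = (θ₀ : K → ℂ) := ⟨_, rfl⟩
  have hθ : IsIrrCharacter K θ := by rw [hθe]; exact θ₀.2
  rw [← hθe] at hne
  set T := inertia K θ with hTdef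
  have hKT : K ≤ T := le_inertia hθ.isClassFunction
  have hT : ∀ g : G, g ∈ T ↔ cj K g θ = θ := fun g => mem_inertia
  have := Fintype.ofFinite T
  set K' := K.subgroupOf T with hK'
  set θ' : K' → ℂ := fun x => θ (CliffordCorr.subEquiv K T hKT x) with hθ'
  have hθ'i : IsIrrCharacter K' θ' := (isIrrCharacter_comp_mulEquiv_iff _).mpr hθ
  have hinv' : ∀ t : T, cj K' t θ' = θ' := by
    intro t
    funext x
    have h1 := congrFun ((hT t).mp t.2) (CliffordCorr.subEquiv K T hKT x)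
    rw [cj_apply] at h1 ⊢
    exact h1
  have hcardK' : Nat.card K' = Nat.card K := Nat.card_congr (CliffordCorr.subEquiv K T hKT).toEquiv
  have hidx' : K'.index ∣ K.index := by
    have h1 : K.relIndex T ∣ K.index := Subgroup.relIndex_dvd_index_of_normal K T
    exact h1
  have hcop' : (Nat.card K').Coprime K'.index := by
    rw [hcardK']
    exact Nat.Coprime.coprime_dvd_right hidx' hcop
  obtain ⟨η, hη, hηext, hηd⟩ := GlaubCyc.canon_exists hθ'i hinv' hcop'
  have hres : CliffordCorr.resTo K T hKT η = θ := by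
    funext n
    have h1 := hηext ⟨⟨(n : G), hKT n.2⟩, n.2⟩
    exact h1
  have h1 : classInner (CliffordCorr.resTo K T hKT η) θ ≠ 0 := by
    rw [hres, hθ.classInner_self]
    exact one_ne_zero
  obtain ⟨hΦi, hΦc⟩ := CliffordCorr.corr_irr hKT hθ hT hη h1
  have hΦne : classInner (fun n : K => indFun T η n) θ ≠ 0 := by rw [hΦc]; exact h1
  refine ⟨indFun T η, hΦi.isCharacter, ?_, ?_, ?_⟩
  · obtain ⟨e, he⟩ := (hχ.isCharacter.restrict K).classInner_nat hθ.isCharacter
    have h2 := CliffordCorr.degree_clifford hχ hθ hne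
    have hη1 : η 1 = θ 1 := by
      have := congrFun hres 1
      exact this
    have h3 : indFun T η 1 = (T.index : ℂ) * θ 1 := by rw [IndFun.indFun_one, hη1]
    rw [he, ← DefectZero.charDegree_eq hχ.isCharacter, ← DefectZero.charDegree_eq hθ.isCharacter] at h2
    rw [← DefectZero.charDegree_eq hΦi.isCharacter, ← DefectZero.charDegree_eq hθ.isCharacter] at h3
    have h4 : charDegree χ = e * (T.index * charDegree θ) := by exact_mod_cast h2
    have h5 : charDegree (indFun T η) = T.index * charDegree θ := by exact_mod_cast h3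
    rw [h4, h5]
    apply Nat.le_mul_of_pos_left
    rcases Nat.eq_zero_or_pos e with rfl | h
    · exact absurd he (by rw [Nat.cast_zero]; exact hne)
    · exact h
  · intro m hm hm1 g
    apply indFun_pow T hm
    intro t
    apply GlaubCyc.canon_pow hθ'i hcop' hη hηext hηd
    · rw [hcardK']; exact hm1
    · have h2 : K'.index ∣ Nat.card G := hidx'.trans (Subgroup.index_dvd_card K)
      exact Nat.Coprime.coprime_dvd_right h2 hm
  · intro x hx hΦx
    have h2 := clifford hχ hθ hne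
    have h3 := clifford hΦi hθ hΦne
    set X := ∑ᶠ ψ ∈ {ψ : K → ℂ | ∃ g : G, ψ = cj K g θ}, ψ with hX
    have h4 := congrFun h3 ⟨x, hx⟩
    have h5 := congrFun h3 1
    rw [Pi.smul_apply, smul_eq_mul] at h4 h5
    have h6 : X ⟨x, hx⟩ = X 1 := by
      apply mul_left_cancel₀ hΦne
      rw [← h4, ← h5]
      exact hΦx
    have h7 := congrFun h2 ⟨x, hx⟩
    have h8 := congrFun h2 1
    rw [Pi.smul_apply, smul_eq_mul] at h7 h8
    rw [h6, ← h8] at h7
    exact h7

theorem re_le {f : G → ℂ} (hf : IsCharacter G f) (x : G) : ‖f x‖ ≤ (f 1).re ∧ f 1 = ((f 1).re : ℂ) := by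
  obtain ⟨k, ρ, rfl⟩ := hf
  rw [Representation.char_one]
  simp only [Complex.natCast_re, Complex.ofReal_natCast, and_true]
  exact CharValues.norm_character_le ρ x

theorem ker_sum {ι : Type*} (s : Finset ι) (f : ι → G → ℂ) (hf : ∀ i ∈ s, IsCharacter G (f i))
    {x : G} (h : ∑ i ∈ s, f i x = ∑ i ∈ s, f i 1) : ∀ i ∈ s, f i x = f i 1 := by
  have h1 : ∀ i ∈ s, (f i x).re ≤ (f i 1).re := fun i hi =>
    (Complex.re_le_norm _).trans (re_le (hf i hi) x).1
  have h2 : ∑ i ∈ s, (f i x).re = ∑ i ∈ s, (f i 1).re := by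
    have := congrArg Complex.re h
    rwa [Complex.re_sum, Complex.re_sum] at this
  have h3 := (Finset.sum_eq_sum_iff_of_le h1).mp h2
  intro i hi
  have h4 := (re_le (hf i hi) x)
  have h5 := h3 i hi
  rw [h4.2]
  apply Complex.ext
  · rw [Complex.ofReal_re]; exact h5
  · rw [Complex.ofReal_im]
    have h6 : (f i x).re ^ 2 + (f i x).im ^ 2 ≤ (f i 1).re ^ 2 := by
      have h7 := Complex.sq_norm (f i x)
      rw [Complex.normSq_apply] at h7
      have h8 : ‖f i x‖ ^ 2 ≤ (f i 1).re ^ 2 := pow_le_pow_left₀ (norm_nonneg _) h4.1 2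
      nlinarith
    rw [h5] at h6
    have h9 : (f i x).im ^ 2 ≤ 0 := by linarith
    exact pow_eq_zero_iff (two_ne_zero) |>.mp (le_antisymm h9 (sq_nonneg _))

theorem exists_Phi (K : Subgroup G) [hKn : K.Normal] (hcop : (Nat.card K).Coprime K.index)
    {χ : G → ℂ} (hχ : IsCharacter G χ) (hf : ∀ g, χ g = χ 1 → g = 1) :
    ∃ Φ : G → ℂ, IsCharacter G Φ ∧ charDegree Φ ≤ charDegree χ ∧
      (∀ m : ℕ, m.Coprime (Nat.card G) → m ≡ 1 [MOD Nat.card K] → ∀ g, Φ (g ^ m) = Φ g) ∧
      ∀ x : G, Φ x = Φ 1 → x ∈ Subgroup.centralizer (K : Set G) := by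
  classical
  have := Fintype.ofFinite G
  choose Ψ h1 h2 h3 h4 using fun ψ : IrrCharacter G => exists_Phi_irr K hcop ψ.2
  choose n hn using fun ψ : IrrCharacter G => hχ.classInner_nat ψ.2.isCharacter
  have hex := hχ.isClassFunction.expansion
  have hcar : ∀ ψ ∈ (Finset.univ : Finset (IrrCharacter G)), IsCharacter G ((n ψ : ℂ) • Ψ ψ) :=
    fun ψ _ => (h1 ψ).natCast_smul (n ψ)
  refine ⟨∑ ψ : IrrCharacter G, (n ψ : ℂ) • Ψ ψ, isCharacter_sum _ _ hcar, ?_, ?_, ?_⟩
  · have h5 : (charDegree (∑ ψ : IrrCharacter G, (n ψ : ℂ) • Ψ ψ) : ℂ) =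
        ((∑ ψ : IrrCharacter G, n ψ * charDegree (Ψ ψ) : ℕ) : ℂ) := by
      rw [DefectZero.charDegree_eq (isCharacter_sum _ _ hcar), Finset.sum_apply, Nat.cast_sum]
      apply Finset.sum_congr rfl
      intro ψ _
      rw [Pi.smul_apply, smul_eq_mul, Nat.cast_mul, DefectZero.charDegree_eq (h1 ψ)]
    have h6 : (charDegree χ : ℂ) =
        ((∑ ψ : IrrCharacter G, n ψ * charDegree (ψ : G → ℂ) : ℕ) : ℂ) := by
      rw [DefectZero.charDegree_eq hχ]
      have h7 := congrFun hex 1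
      rw [h7, Finset.sum_apply, Nat.cast_sum]
      apply Finset.sum_congr rfl
      intro ψ _
      rw [Pi.smul_apply, smul_eq_mul, Nat.cast_mul, DefectZero.charDegree_eq ψ.2.isCharacter, hn]
    have h8 : charDegree (∑ ψ : IrrCharacter G, (n ψ : ℂ) • Ψ ψ) =
        ∑ ψ : IrrCharacter G, n ψ * charDegree (Ψ ψ) := by exact_mod_cast h5
    have h9 : charDegree χ = ∑ ψ : IrrCharacter G, n ψ * charDegree (ψ : G → ℂ) := by
      exact_mod_cast h6
    rw [h8, h9]
    exact Finset.sum_le_sum fun ψ _ => Nat.mul_le_mul_left _ (h2 ψ)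
  · intro m hm hm1 g
    rw [Finset.sum_apply, Finset.sum_apply]
    apply Finset.sum_congr rfl
    intro ψ _
    rw [Pi.smul_apply, Pi.smul_apply, h3 ψ m hm hm1 g]
  · have hker : ∀ x ∈ K, (∑ ψ : IrrCharacter G, (n ψ : ℂ) • Ψ ψ) x =
        (∑ ψ : IrrCharacter G, (n ψ : ℂ) • Ψ ψ) 1 → x = 1 := by
      intro x hx hx1
      rw [Finset.sum_apply, Finset.sum_apply] at hx1
      have h5 := ker_sum Finset.univ (fun ψ : IrrCharacter G => (n ψ : ℂ) • Ψ ψ) hcar hx1
      apply hf
      have h6 := congrFun hex x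
      have h7 := congrFun hex 1
      rw [h6, h7, Finset.sum_apply, Finset.sum_apply]
      apply Finset.sum_congr rfl
      intro ψ _
      rw [Pi.smul_apply, Pi.smul_apply, smul_eq_mul, smul_eq_mul]
      by_cases h0 : n ψ = 0
      · rw [hn, h0, Nat.cast_zero, zero_mul, zero_mul]
      · have h8 := h5 ψ (Finset.mem_univ _)
        simp only [Pi.smul_apply, smul_eq_mul] at h8
        have h9 : Ψ ψ x = Ψ ψ 1 := mul_left_cancel₀ (Nat.cast_ne_zero.mpr h0) h8
        rw [h4 ψ x hx h9]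
    intro x hx
    rw [Subgroup.mem_centralizer_iff]
    intro y hy
    have hΦ := isCharacter_sum _ _ hcar
    have hN := Codegree.kerS_normal hΦ
    have hxN : x ∈ Codegree.kerS hΦ := hx
    have h5 : y * x * y⁻¹ * x⁻¹ ∈ Codegree.kerS hΦ := mul_mem (hN.conj_mem x hxN y) (inv_mem hxN)
    have h6 : y * x * y⁻¹ * x⁻¹ ∈ K := by
      have : y * x * y⁻¹ * x⁻¹ = y * (x * y⁻¹ * x⁻¹) := by group
      rw [this]
      exact mul_mem hy (hKn.conj_mem _ (inv_mem hy) x)
    have h7 := hker _ h6 h5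
    calc y * x = (y * x * y⁻¹ * x⁻¹) * (x * y) := by group
      _ = x * y := by rw [h7, one_mul]

end Cfsg.Agent.Lib.H39Sch2
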