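import Mathlib
import Cfsg.Agent.Lib.H39Sch2
import Cfsg.Agent.Lib.SchurZassenhaus
import Cfsg.Agent.Lib.SubgroupTools
import Cfsg.Agent.Lib.H32PSolv
import Cfsg.Agent.Lib.PSolvDual
import Cfsg.Agent.Lib.Fitting

/-!
The index of `O_p(G)` in a `p`-solvable linear group (helper39).
-/

set_option autoImplicit false

namespace Cfsg.Agent.Lib.H39Sch3

open Subgroup Cfsg Cfsg.Agent.Lib Cfsg.Agent.Lib.CharBasic
open scoped Pointwise

universe u

variable {G : Type u} [Group G] [Finite G] {p : ℕ} [hp : Fact p.Prime]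

theorem rel_ne (A B : Subgroup G) : A.relIndex B ≠ 0 :=
  Subgroup.index_ne_zero_of_finite (H := A.subgroupOf B)

theorem exists_compl (U M : Subgroup G) [hU : U.Normal] (hUM : U ≤ M)
    (hcop : (Nat.card U).Coprime (U.relIndex M)) :
    ∃ K : Subgroup G, U ⊔ K = M ∧ Nat.card K = U.relIndex M := by
  have h1 : (Nat.card (U.subgroupOf M)).Coprime (U.subgroupOf M).index := by
    rw [Nat.card_congr (subgroupOfEquivOfLe hUM).toEquiv]
    exact hcop
  obtain ⟨H, hH⟩ := exists_right_complement'_of_coprime h1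
  refine ⟨H.map M.subtype, ?_, ?_⟩
  · have h2 := congrArg (Subgroup.map M.subtype) hH.sup_eq_top
    rw [Subgroup.map_sup, subgroupOf_map_subtype, inf_eq_left.mpr hUM, ← MonoidHom.range_eq_map,
      Subgroup.range_subtype] at h2
    exact h2
  · rw [Nat.card_congr (H.equivMapOfInjective M.subtype M.subtype_injective).toEquiv.symm]
    exact hH.symm.index_eq_card.symm

theorem exists_KS (hs : IsPSolvable p G) : ∃ K S : Subgroup G, (Nat.card K).Coprime p ∧
    IsPGroup p S ∧ S ≤ normalizer (K : Set G) ∧ ((pCore p G).index).factorization p ≤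
      ((Subgroup.centralizer (K : Set G)).relIndex S).factorization p := by
  have hUn := Fitting.normal_pCore p (G := G)
  obtain ⟨U, hU⟩ : ∃ U : Subgroup G, U = pCore p G := ⟨_, rfl⟩
  rw [← hU] at hUn ⊢
  have hUp : IsPGroup p U := by rw [hU]; exact Fitting.isPGroup_pCore p
  set f := QuotientGroup.mk' U with hf
  have hfs : Function.Surjective f := QuotientGroup.mk'_surjective U
  have hker : f.ker = U := QuotientGroup.ker_mk' U
  have hbot : pCore p (G ⧸ U) = ⊥ := by
    subst hU
    exact Fitting.pCore_quotient_pCore p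
  have hKn := Fitting.normal_pPrimeCore p (G := G ⧸ U)
  have hKcop : (Nat.card (pPrimeCore p (G ⧸ U))).Coprime p := Fitting.coprime_card_pPrimeCore p
  have hcent := PSolvDual.centralizer_pPrimeCore_le (H32PSolv.isPSolvable_quotient hs U) hbot
  set Kb := pPrimeCore p (G ⧸ U) with hKb
  set M := Kb.comap f with hM
  have hMn : M.Normal := hKn.comap f
  have hUM : U ≤ M := by
    rw [← hker]
    exact fun x hx => by rw [hM, mem_comap, hx]; exact one_mem _
  have hMmap : M.map f = Kb := map_comap_eq_self_of_surjective hfs Kb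
  have hrel : U.relIndex M = Nat.card Kb := by
    have h1 := relIndex_ker (K := M) f
    rw [hker] at h1
    rw [h1, hMmap]
  obtain ⟨n, hn⟩ := hUp.exists_card_eq
  have hcop : (Nat.card U).Coprime (U.relIndex M) := by
    rw [hn, hrel]
    exact Nat.Coprime.pow_left _ hKcop.symm
  obtain ⟨K, hUK, hKc⟩ := exists_compl U M hUM hcop
  have hKp : (Nat.card K).Coprime p := by rw [hKc, hrel]; exact hKcop
  have hKM : K ≤ M := by rw [← hUK]; exact le_sup_right
  -- Frattini
  have hfrat : ∀ g : G, ∃ a ∈ U, a * g ∈ normalizer (K : Set G) := by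
    intro g
    have h1 : U ⊔ MulAut.conj g • K = U ⊔ K := by
      have h2 : MulAut.conj g • (U ⊔ K) = U ⊔ MulAut.conj g • K := by
        rw [Subgroup.smul_sup, Subgroup.Normal.conj_smul_eq_self]
      rw [← h2, hUK]
      exact Subgroup.Normal.conj_smul_eq_self _ _
    have hcardg : Nat.card (MulAut.conj g • K : Subgroup G) = Nat.card K := by
      exact (Nat.card_congr (Subgroup.equivSMul (MulAut.conj g) K).toEquiv).symm
    have hcUK : (Nat.card U).Coprime (Nat.card K) := by rw [hKc]; exact hcop
    haveI : Group.IsSolvable U := by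
      haveI := hUp.isNilpotent
      infer_instance
    obtain ⟨a, ha, h3⟩ := SchurZassenhaus.conj_of_solvable_left (N := U) (H := MulAut.conj g • K)
      (K := K) le_normalizer_of_normal le_normalizer_of_normal h1 (by rw [hcardg]; exact hcUK)
      hcUK inferInstance
    refine ⟨a, ha, ?_⟩
    rw [← mul_smul, ← map_mul] at h3
    rw [mem_normalizer_iff]
    intro x
    constructor
    · intro hx
      have : MulAut.conj (a * g) x ∈ MulAut.conj (a * g) • K := smul_mem_pointwise_smul x _ K hx
      rw [h3] at this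
      exact this
    · intro hx
      have : MulAut.conj (a * g) x ∈ MulAut.conj (a * g) • K := by rw [h3]; exact hx
      have h4 := (smul_mem_pointwise_smul_iff (a := MulAut.conj (a * g)) (S := K) (x := x)).mp this
      exact h4
  obtain ⟨P⟩ : Nonempty (Sylow p G) := inferInstance
  have hUP : U ≤ (P : Subgroup G) := by rw [hU]; exact Fitting.pCore_le_sylow p P
  set S : Subgroup G := (P : Subgroup G) ⊓ normalizer (K : Set G) with hS
  have hSp : IsPGroup p S := P.isPGroup'.to_le inf_le_left
  have hPS : S ⊔ U = (P : Subgroup G) := by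
    apply le_antisymm (sup_le inf_le_left hUP)
    intro x hx
    obtain ⟨a, ha, hax⟩ := hfrat x
    have h1 : a * x ∈ S := mem_inf.mpr ⟨mul_mem (hUP ha) hx, hax⟩
    have h2 : x = a⁻¹ * (a * x) := by group
    rw [h2]
    exact mul_mem ((le_sup_right : U ≤ S ⊔ U) (inv_mem ha)) ((le_sup_left : S ≤ S ⊔ U) h1)
  have hCS : Subgroup.centralizer (K : Set G) ⊓ S ≤ U := by
    intro x hx
    obtain ⟨hxC, hxS⟩ := mem_inf.mp hx
    have h1 : f x ∈ Kb := by
      apply hcent
      rw [mem_centralizer_iff]
      intro y hy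
      have hy' : y ∈ M.map f := by rw [hMmap]; exact hy
      rw [← hUK, Subgroup.map_sup] at hy'
      have h2 : U.map f = ⊥ := by
        rw [Subgroup.map_eq_bot_iff, hker]
      rw [h2, bot_sup_eq] at hy'
      obtain ⟨k, hk, rfl⟩ := hy'
      rw [← map_mul, mem_centralizer_iff.mp hxC k hk, map_mul]
    obtain ⟨j, hj⟩ := hSp ⟨x, hxS⟩
    have h3 : x ^ p ^ j = 1 := congrArg Subtype.val hj
    have h4 : orderOf (f x) ∣ p ^ j := orderOf_dvd_of_pow_eq_one (by rw [← map_pow, h3, map_one])
    have h5 : orderOf (f x) ∣ Nat.card Kb := by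
      have := orderOf_dvd_natCard (⟨f x, h1⟩ : Kb)
      rwa [← Subgroup.orderOf_coe] at this
    have h6 := orderOf_eq_one_iff.mp (Nat.eq_one_of_dvd_coprimes (hKcop.pow_right j) h5 h4)
    rw [← hker]
    exact h6
  refine ⟨K, S, hKp, hSp, inf_le_right, ?_⟩
  have h1 : U.index = U.relIndex S * (P : Subgroup G).index := by
    rw [← relIndex_mul_index hUP, ← hPS, relIndex_sup_right, hPS]
  have h2 : U.index.factorization p = (U.relIndex S).factorization p := by
    rw [h1, Nat.factorization_mul]
    · rw [Finsupp.add_apply, Nat.factorization_eq_zero_of_not_dvd P.not_dvd_index, add_zero]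
    · exact rel_ne U S
    · exact Subgroup.index_ne_zero_of_finite
  rw [h2]
  have h3 : U.relIndex S ∣ (Subgroup.centralizer (K : Set G)).relIndex S := by
    rw [← inf_relIndex_right (Subgroup.centralizer (K : Set G)) S]
    exact relIndex_dvd_of_le_left S hCS
  exact (Nat.factorization_le_iff_dvd (rel_ne _ _) (rel_ne _ _)).mpr h3 p

theorem main (hs : IsPSolvable p G) {χ : G → ℂ} (hχ : IsCharacter G χ)
    (hf : ∀ g, χ g = χ 1 → g = 1) : ((pCore p G).index).factorization p ≤
      ∑ i ∈ Finset.range (charDegree χ + 1), charDegree χ / ((p - 1) * p ^ i) := by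
  obtain ⟨K, S, hKp, hSp, hSK, hle⟩ := exists_KS hs
  refine hle.trans ?_
  obtain ⟨H, hH⟩ : ∃ H : Subgroup G, H = K ⊔ S := ⟨_, rfl⟩
  have hKH : K ≤ H := by rw [hH]; exact le_sup_left
  have hSH : S ≤ H := by rw [hH]; exact le_sup_right
  obtain ⟨a, ha⟩ := hSp.exists_card_eq
  have hcopKS : (Nat.card K).Coprime (Nat.card S) := by
    rw [ha]
    exact Nat.Coprime.pow_right _ hKp
  have hcardH : Nat.card H = Nat.card K * Nat.card S := by
    rw [hH]
    exact SubgroupTools.card_sup_of_coprime hSK hcopKS
  set K' := K.subgroupOf H with hK'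
  have hK'n : K'.Normal := by
    apply normal_subgroupOf_of_le_normalizer
    rw [hH]
    exact sup_le le_normalizer hSK
  have hK'c : Nat.card K' = Nat.card K := Nat.card_congr (subgroupOfEquivOfLe hKH).toEquiv
  have hK'i : K'.index = Nat.card S := by
    have h1 := K'.card_mul_index
    rw [hK'c, hcardH] at h1
    exact Nat.eq_of_mul_eq_mul_left Nat.card_pos h1
  have hcop : (Nat.card K').Coprime K'.index := by rw [hK'c, hK'i]; exact hcopKS
  have hχH := hχ.restrict H
  obtain ⟨Φ, hΦ, hdeg, hpow, hcen⟩ := H39Sch2.exists_Phi K' hcop hχH (fun h hh => Subtype.ext (hf _ hh))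
  have hdegH : charDegree (fun h : H => χ h) = charDegree χ := by
    have h1 := DefectZero.charDegree_eq hχH
    have h2 := DefectZero.charDegree_eq hχ
    have h3 : (charDegree (fun h : H => χ h) : ℂ) = charDegree χ := by
      rw [h1, h2]
      rfl
    exact_mod_cast h3
  rw [hdegH] at hdeg
  let ι : S →* H := Subgroup.inclusion hSH
  have hΦS : IsCharacter S (fun s => Φ (ι s)) := hΦ.comp ι
  have hinv : ∀ (x : S) (j : ℕ), j.Coprime p → (fun s => Φ (ι s)) (x ^ j) = (fun s => Φ (ι s)) x := by
    intro x j hj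
    have hco : (p * Nat.card S).Coprime (Nat.card K) := by
      apply Nat.Coprime.mul_left
      · exact hKp.symm
      · exact hcopKS.symm
    obtain ⟨m, hm1, hm2⟩ := Nat.chineseRemainder hco j 1
    have hmp : m.Coprime p := by
      have h1 : m ≡ j [MOD p] := hm1.of_dvd (dvd_mul_right _ _)
      have h2 := h1.gcd_eq
      unfold Nat.Coprime at hj ⊢
      rw [h2]
      exact hj
    have hmK : m.Coprime (Nat.card K) := by
      have h2 := hm2.gcd_eq
      unfold Nat.Coprime
      rw [h2, Nat.gcd_one_left]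
    have hmH : m.Coprime (Nat.card H) := by
      rw [hcardH, ha]
      exact Nat.Coprime.mul_right hmK (Nat.Coprime.pow_right _ hmp)
    have h1 : x ^ j = x ^ m := by
      rw [pow_eq_pow_iff_modEq]
      have h2 : m ≡ j [MOD Nat.card S] := hm1.of_dvd (dvd_mul_left _ _)
      exact (h2.of_dvd (orderOf_dvd_natCard x)).symm
    simp only
    rw [h1, map_pow]
    exact hpow m hmH (by rw [hK'c]; exact hm2) (ι x)
  have hn : (fun s => Φ (ι s)) 1 = (charDegree Φ : ℂ) := by
    simp only [map_one]
    exact (DefectZero.charDegree_eq hΦ).symm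
  have hb := H39Sch1.bound hSp hΦS hinv hn hdeg
  refine le_trans ?_ hb
  have hdvd : (Subgroup.centralizer (K : Set G)).relIndex S ∣ (Codegree.kerS hΦS).index := by
    apply index_dvd_of_le
    intro x hx
    rw [mem_subgroupOf, mem_centralizer_iff]
    intro y hy
    have h1 : Φ (ι x) = Φ 1 := by
      have h2 : (fun s => Φ (ι s)) x = (fun s => Φ (ι s)) 1 := hx
      simp only [map_one] at h2
      exact h2
    have h3 := mem_centralizer_iff.mp (hcen _ h1) ⟨y, hKH hy⟩ hy
    exact congrArg Subtype.val h3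
  exact (Nat.factorization_le_iff_dvd (rel_ne _ _) Subgroup.index_ne_zero_of_finite).mpr hdvd p

end Cfsg.Agent.Lib.H39Sch3
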