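import Cfsg.Agent.Lib.H3Code
import Cfsg.Agent.Lib.K4

/-!
# Codes for the field of four elements (helper3)
-/

set_option autoImplicit false

namespace Cfsg.Agent.Lib.H3F4

open Cfsg.Agent.Lib.H58SM Cfsg.Agent.Lib.H3Code Cfsg.Agent.Lib.K4

def MUB : ℕ := 0x9c78e400

def dec (n : ℕ) : K4 := (⟨n % 4, Nat.mod_lt _ (by decide)⟩ : Fin 4)

/-- the coding -/
def C : FC K4 where
  sz := 4
  m1 := 1
  ad x y := Nat.xor x y
  mu x y := gt MUB 2 3 (Nat.add (Nat.mul x 4) y)
  dec := dec

theorem ok : C.Ok where
  one_lt := by decide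
  m1_lt := by decide
  ad_lt := by decide +kernel
  mu_lt := by decide +kernel
  dec_ad := by decide +kernel
  dec_mu := by decide +kernel
  dec_zero := by decide +kernel
  dec_one := by decide +kernel
  dec_m1 := by decide +kernel
  inj := by decide +kernel
  surj := by decide +kernel

theorem hF4 : Fintype.card K4 = 2 ^ 2 := by decide

end Cfsg.Agent.Lib.H3F4
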