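import Cfsg.Agent.Lib.CosetAvg
import Cfsg.Agent.Lib.CliffordExt

/-!
# Fully ramified characters and Frobenius actions (helper3)

* `arith`: a character `b` of a cyclic (indeed abelian) group `C` of order `m > 1` with `|b c| = 1` for
  `c ≠ 1` has `b 1 ≡ ±1 mod m`.
* `exists_mul_ext`: a character whose restriction to `N` is a multiple of `θ`, `θ̂` an extension of `θ`, is
  `b θ̂` with `b` a character of `G/N`.
-/

set_option autoImplicit false
set_option linter.unusedSectionVars false

namespace Cfsg.Agent.Lib.H3FullRam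

open scoped ComplexConjugate
open Cfsg Cfsg.Agent.Lib.CharBasic Cfsg.Agent.Lib.Clifford

universe u

section Arith

variable {C : Type u} [CommGroup C] [Fintype C]

theorem irr_one_eq_one {χ : C → ℂ} (hχ : IsIrrCharacter C χ) : χ 1 = 1 :=
  hχ.one_eq_one_of_comm (fun a b => mul_comm a b)

open scoped Classical in
/-- Multiplication of irreducible characters of an abelian group by one of them. -/
noncomputable def mulIrr (l χ : IrrCharacter C) : IrrCharacter C :=
  ⟨fun g => (l : C → ℂ) g * (χ : C → ℂ) g, by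
    have h1 : IsCharacter C (fun g => (l : C → ℂ) g * (χ : C → ℂ) g) := l.2.isCharacter.mul χ.2.isCharacter
    exact h1.isIrr_of_one_eq_one (by rw [irr_one_eq_one l.2, irr_one_eq_one χ.2, mul_one])⟩

theorem mulIrr_apply (l χ : IrrCharacter C) (g : C) :
    (mulIrr l χ : C → ℂ) g = (l : C → ℂ) g * (χ : C → ℂ) g := rfl

theorem normSq_lin (l : IrrCharacter C) (g : C) : (l : C → ℂ) g * conj ((l : C → ℂ) g) = 1 :=
  l.2.isCharacter.mul_conj_of_linear (irr_one_eq_one l.2) g

theorem mulIrr_injective (χ : IrrCharacter C) : Function.Injective (fun l => mulIrr l χ) := by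
  intro l l' h
  apply Subtype.ext
  funext g
  have h1 := congrFun (congrArg Subtype.val h) g
  change (l : C → ℂ) g * (χ : C → ℂ) g = (l' : C → ℂ) g * (χ : C → ℂ) g at h1
  exact mul_right_cancel₀ (χ.2.isCharacter.ne_zero_of_linear (irr_one_eq_one χ.2) g) h1

theorem mulIrr_injective' (l : IrrCharacter C) : Function.Injective (fun χ => mulIrr l χ) := by
  intro χ χ' h
  apply Subtype.ext
  funext g
  have h1 := congrFun (congrArg Subtype.val h) g
  change (l : C → ℂ) g * (χ : C → ℂ) g = (l : C → ℂ) g * (χ' : C → ℂ) g at h1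
  exact mul_left_cancel₀ (l.2.isCharacter.ne_zero_of_linear (irr_one_eq_one l.2) g) h1

/-- The trivial character. -/
noncomputable def oneIrr : IrrCharacter C := ⟨1, isIrrCharacter_one⟩

theorem mulIrr_ne {l χ : IrrCharacter C} (hl : l ≠ oneIrr) : mulIrr l χ ≠ χ := by
  intro h
  apply hl
  apply mulIrr_injective χ
  change mulIrr l χ = mulIrr oneIrr χ
  rw [h]
  apply Subtype.ext
  funext g
  change _ = (1 : ℂ) * _
  rw [one_mul]

open scoped Classical in
theorem arith {b : C → ℂ} (hb : IsCharacter C b) {e : ℕ} (he : b 1 = e)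
    (habs : ∀ c : C, c ≠ 1 → b c * conj (b c) = 1) (hC : 1 < Fintype.card C) :
    ((Fintype.card C : ℕ) : ℤ) ∣ (e : ℤ) - 1 ∨ ((Fintype.card C : ℕ) : ℤ) ∣ (e : ℤ) + 1 := by
  obtain ⟨a, ha, hexp⟩ := hb.exists_coeff
  set m := Fintype.card C with hm
  have hcardIrr : Fintype.card (IrrCharacter C) = m := by
    have h1 : Nat.card (IrrCharacter C) = Nat.card (ConjClasses C) := card_irr
    have h2 : Nat.card (ConjClasses C) = Nat.card C := by
      refine Nat.card_congr (Equiv.ofBijective ConjClasses.mk ⟨?_, ConjClasses.mk_surjective⟩).symm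
      intro x y h
      exact isConj_iff_eq.1 (ConjClasses.mk_eq_mk_iff_isConj.1 h)
    rw [← Nat.card_eq_fintype_card, h1, h2, Nat.card_eq_fintype_card]
  -- shift sums
  have hshift : ∀ l : IrrCharacter C, l ≠ oneIrr →
      ∑ χ : IrrCharacter C, ((a χ : ℤ) - a (mulIrr l χ)) ^ 2 = 2 := by
    intro l hl
    -- `g = b (1 - conj l)`
    have h1 : ∀ χ : IrrCharacter C,
        classInner (fun c => b c * (1 - conj ((l : C → ℂ) c))) (χ : C → ℂ) =
          (((a χ : ℤ) - a (mulIrr l χ) : ℤ) : ℂ) := by
      intro χ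
      have h2 : (fun c => b c * (1 - conj ((l : C → ℂ) c))) = b - (fun c => b c * conj ((l : C → ℂ) c)) := by
        funext c
        rw [Pi.sub_apply]
        ring
      rw [h2, classInner_sub_left, ha]
      have h3 : classInner (fun c => b c * conj ((l : C → ℂ) c)) (χ : C → ℂ) =
          classInner b (mulIrr l χ : C → ℂ) := by
        rw [classInner_def, classInner_def]
        congr 1
        apply Finset.sum_congr rfl
        intro c _
        rw [mulIrr_apply, map_mul]
        ring
      rw [h3, ha]
      push_cast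
      ring
    have hcf : IsClassFunction C (fun c => b c * (1 - conj ((l : C → ℂ) c))) := by
      intro g h
      have h' : h * g * h⁻¹ = g := by rw [mul_comm h g, mul_assoc, mul_inv_cancel, mul_one]
      simp only [h']
    have h4 := classInner_eq_sum_coeff (c := fun χ => (a χ : ℤ) - a (mulIrr l χ))
      (d := fun χ => (a χ : ℤ) - a (mulIrr l χ)) hcf h1 h1
    have h5 : classInner (fun c => b c * (1 - conj ((l : C → ℂ) c)))
        (fun c => b c * (1 - conj ((l : C → ℂ) c))) = 2 := by
      rw [classInner_def]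
      have h6 : ∀ c : C, b c * (1 - conj ((l : C → ℂ) c)) * conj (b c * (1 - conj ((l : C → ℂ) c))) =
          2 - (l : C → ℂ) c - conj ((l : C → ℂ) c) := by
        intro c
        rw [map_mul, map_sub, map_one, Complex.conj_conj]
        by_cases hc : c = 1
        · rw [hc, irr_one_eq_one l.2, map_one]
          ring
        · have h7 := habs c hc
          have h8 := normSq_lin l c
          linear_combination (1 - conj ((l : C → ℂ) c)) * (1 - (l : C → ℂ) c) * h7 + h8
      rw [Finset.sum_congr rfl (fun c _ => h6 c)]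
      rw [Finset.sum_sub_distrib, Finset.sum_sub_distrib, Finset.sum_const, Finset.card_univ]
      have h9 : ∑ c : C, (l : C → ℂ) c = 0 := by
        have h := l.2.classInner_eq_zero (isIrrCharacter_one (G := C)) (fun h => hl (Subtype.ext h))
        rw [classInner_def] at h
        have h0 : ((Fintype.card C : ℕ) : ℂ) ≠ 0 := Nat.cast_ne_zero.2 Fintype.card_ne_zero
        simpa using h
      have h10 : ∑ c : C, conj ((l : C → ℂ) c) = 0 := by
        rw [← map_sum, h9, map_zero]
      rw [h9, h10]
      have h0 : ((Fintype.card C : ℕ) : ℂ) ≠ 0 := Nat.cast_ne_zero.2 Fintype.card_ne_zero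
      rw [Nat.card_eq_fintype_card]
      simp only [nsmul_eq_mul, sub_zero]
      field_simp
    rw [h5] at h4
    have h11 : (2 : ℤ) = ∑ χ : IrrCharacter C, ((a χ : ℤ) - a (mulIrr l χ)) * ((a χ : ℤ) - a (mulIrr l χ)) := by
      exact_mod_cast h4
    rw [h11]
    apply Finset.sum_congr rfl
    intro χ _
    ring
  -- differences are at most one in absolute value
  have hle : ∀ χ ψ : IrrCharacter C, ((a χ : ℤ) - a ψ) ^ 2 ≤ 1 := by
    intro χ ψ
    by_cases hne : ψ = χ
    · rw [hne, sub_self]; norm_num
    -- `ψ = l χ`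
    have hsurj : Function.Surjective (fun l => mulIrr l χ) :=
      Finite.injective_iff_surjective.1 (mulIrr_injective χ)
    obtain ⟨l, hl⟩ := hsurj ψ
    change mulIrr l χ = ψ at hl
    have hl1 : l ≠ oneIrr := by
      rintro rfl
      apply hne
      rw [← hl]
      apply Subtype.ext
      funext g
      change (1 : ℂ) * _ = _
      rw [one_mul]
    have h1 := hshift l hl1
    -- the sum of the differences is zero, so the square at χ is at most 1
    have h2 : ∑ χ : IrrCharacter C, ((a χ : ℤ) - a (mulIrr l χ)) = 0 := by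
      rw [Finset.sum_sub_distrib, sub_eq_zero]
      have hbij : Function.Bijective (fun χ => mulIrr l χ) :=
        Finite.injective_iff_bijective.1 (mulIrr_injective' l)
      exact (Fintype.sum_bijective _ hbij (fun χ => (a (mulIrr l χ) : ℤ)) (fun χ => (a χ : ℤ)) (fun _ => rfl)).symm
    have h3 : ((a χ : ℤ) - a ψ) ^ 2 ≤ 2 := by
      rw [← h1, ← hl]
      exact Finset.single_le_sum (f := fun χ => ((a χ : ℤ) - a (mulIrr l χ)) ^ 2)
        (fun i _ => sq_nonneg _) (Finset.mem_univ χ)
    have h4 : -1 ≤ (a χ : ℤ) - a ψ := by nlinarith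
    have h5 : (a χ : ℤ) - a ψ ≤ 1 := by nlinarith
    nlinarith
  -- two values
  obtain ⟨χ₀, -, hmin⟩ := Finset.exists_min_image (Finset.univ : Finset (IrrCharacter C)) a
    ⟨oneIrr, Finset.mem_univ _⟩
  set k := a χ₀ with hk
  set s := (Finset.univ.filter (fun χ : IrrCharacter C => a χ = k + 1)).card with hs
  have hval : ∀ χ : IrrCharacter C, (a χ : ℤ) = k + (if a χ = k + 1 then 1 else 0) := by
    intro χ
    have h1 := hmin χ (Finset.mem_univ _)
    have h2 := hle χ χ₀
    rw [← hk] at h2
    have h3 : (a χ : ℤ) - k ≤ 1 := by nlinarith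
    split_ifs with h
    · rw [h]; push_cast; ring
    · omega
  have hsum1 : ∑ χ : IrrCharacter C, (if a χ = k + 1 then (1 : ℤ) else 0) = s := by
    rw [Finset.sum_boole]
  have hsm : (s : ℤ) ≤ m := by
    have : s ≤ Fintype.card (IrrCharacter C) := by
      rw [hs]; exact Finset.card_filter_le _ _
    rw [hcardIrr] at this
    exact_mod_cast this
  have htotal : (e : ℤ) = m * k + s := by
    have h1 : (b 1 : ℂ) = ((∑ χ : IrrCharacter C, (a χ : ℤ) : ℤ) : ℂ) := by
      conv_lhs => rw [hexp]
      rw [Finset.sum_apply]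
      push_cast
      apply Finset.sum_congr rfl
      intro χ _
      rw [Pi.smul_apply, irr_one_eq_one χ.2, smul_eq_mul, mul_one]
    rw [he] at h1
    have h2 : (e : ℤ) = ∑ χ : IrrCharacter C, (a χ : ℤ) := by exact_mod_cast h1
    rw [h2, Finset.sum_congr rfl (fun χ _ => hval χ), Finset.sum_add_distrib, hsum1, Finset.sum_const,
      Finset.card_univ, hcardIrr, nsmul_eq_mul]
  -- double counting
  have hpairs : ∑ l : IrrCharacter C, ∑ χ : IrrCharacter C, ((a χ : ℤ) - a (mulIrr l χ)) ^ 2 = 2 * (m - 1) := by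
    have h1 : ∀ l : IrrCharacter C, ∑ χ : IrrCharacter C, ((a χ : ℤ) - a (mulIrr l χ)) ^ 2 =
        if l = oneIrr then 0 else 2 := by
      intro l
      split_ifs with h
      · rw [h]
        apply Finset.sum_eq_zero
        intro χ _
        have : mulIrr oneIrr χ = χ := by
          apply Subtype.ext
          funext g
          change (1 : ℂ) * _ = _
          rw [one_mul]
        rw [this, sub_self]; norm_num
      · exact hshift l h
    rw [Finset.sum_congr rfl (fun l _ => h1 l), Finset.sum_ite, Finset.sum_const_zero, zero_add,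
      Finset.sum_const, nsmul_eq_mul]
    have h2 : (Finset.univ.filter (fun l : IrrCharacter C => ¬ l = oneIrr)).card = m - 1 := by
      rw [Finset.filter_ne', Finset.card_erase_of_mem (Finset.mem_univ _), Finset.card_univ, hcardIrr]
    rw [h2, Nat.cast_sub (by omega)]
    push_cast
    ring
  have hpairs2 : ∑ l : IrrCharacter C, ∑ χ : IrrCharacter C, ((a χ : ℤ) - a (mulIrr l χ)) ^ 2 =
      2 * s * (m - s) := by
    rw [Finset.sum_comm]
    have h1 : ∀ χ : IrrCharacter C, ∑ l : IrrCharacter C, ((a χ : ℤ) - a (mulIrr l χ)) ^ 2 =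
        ∑ ψ : IrrCharacter C, ((a χ : ℤ) - a ψ) ^ 2 := by
      intro χ
      exact Fintype.sum_bijective _ (Finite.injective_iff_bijective.1 (mulIrr_injective χ))
        (fun l => ((a χ : ℤ) - a (mulIrr l χ)) ^ 2) (fun ψ => ((a χ : ℤ) - a ψ) ^ 2) (fun _ => rfl)
    rw [Finset.sum_congr rfl (fun χ _ => h1 χ)]
    set t : IrrCharacter C → ℤ := fun χ => if a χ = k + 1 then (1 : ℤ) else 0 with ht
    have h2 : ∀ χ ψ : IrrCharacter C, ((a χ : ℤ) - a ψ) ^ 2 = t χ + t ψ - 2 * t χ * t ψ := by
      intro χ ψ
      rw [hval χ, hval ψ]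
      simp only [ht]
      split_ifs <;> ring
    have hst : ∑ χ : IrrCharacter C, t χ = s := hsum1
    simp only [h2]
    simp only [Finset.sum_sub_distrib, Finset.sum_add_distrib, Finset.sum_const, Finset.card_univ, hcardIrr,
      ← Finset.mul_sum, ← Finset.sum_mul, hst, nsmul_eq_mul]
    ring
  rw [hpairs] at hpairs2
  have hfac : ((s : ℤ) - 1) * (m - s - 1) = 0 := by nlinarith
  rcases mul_eq_zero.1 hfac with h | h
  · left
    exact ⟨k, by rw [htotal]; linarith⟩
  · right
    exact ⟨k + 1, by rw [htotal]; linarith⟩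

end Arith

section Ext

variable {G : Type u} [Group G] {N : Subgroup G} [hN : N.Normal]

theorem exists_mul_ext [Fintype G] [Fintype N] {θ : N → ℂ} (hθ : IsIrrCharacter N θ) {τ : G → ℂ}
    (hτ : IsIrrCharacter G τ) (hext : ∀ n : N, τ n = θ n) (e : ℕ) :
    ∀ {ψ : G → ℂ}, IsCharacter G ψ → (∀ n : N, ψ n = e * θ n) →
      ∃ b : G → ℂ, IsCharacter G b ∧ (∀ n : N, b n = b 1) ∧ ψ = b * τ := by
  induction e using Nat.strong_induction_on with
  | _ e ih =>
    intro ψ hψ hres
    by_cases h0 : ψ = 0
    · refine ⟨0, isCharacter_zero, fun n => rfl, ?_⟩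
      rw [h0, zero_mul]
    obtain ⟨φ, hφ, hφ'⟩ := hψ.exists_constituent h0
    have hsub := hψ.sub_constituent hφ hφ'
    -- a constituent of the restriction of φ
    have hφN : IsCharacter N (fun n : N => φ n) := hφ.isCharacter.restrict N
    have hφN0 : (fun n : N => φ n) ≠ 0 := by
      intro h
      have := congrFun h 1
      exact hφ.one_ne_zero this
    obtain ⟨η, hη, hη'⟩ := hφN.exists_constituent hφN0
    have hsubN : IsCharacter N (fun n : N => (ψ - φ) n) := hsub.restrict N
    have hψN : (fun n : N => ψ n) = (fun n : N => φ n) + (fun n : N => (ψ - φ) n) := by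
      funext n
      simp
    have hψη : classInner (fun n : N => ψ n) η ≠ 0 := by
      rw [hψN, classInner_add_left]
      obtain ⟨i, hi⟩ := hφN.classInner_nat hη.isCharacter
      obtain ⟨j, hj⟩ := hsubN.classInner_nat hη.isCharacter
      rw [hi, hj]
      rw [hi] at hη'
      have hi0 : i ≠ 0 := fun h => hη' (by rw [h]; simp)
      intro h
      have : i + j = 0 := by exact_mod_cast h
      omega
    have hψθ : (fun n : N => ψ n) = (e : ℂ) • θ := by
      funext n
      rw [hres n, Pi.smul_apply, smul_eq_mul]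
    have hηθ : η = θ := by
      by_contra hne
      apply hψη
      rw [hψθ, classInner_smul_left, hθ.classInner_eq_zero hη (Ne.symm hne), mul_zero]
    rw [hηθ] at hη'
    obtain ⟨β, hβ, hβc, hβτ⟩ := CanonExt.exists_gallagher hθ hτ hext hφ hη'
    -- φ restricted to N is a multiple of θ
    obtain ⟨d, hd0, hd⟩ := hβ.exists_degree
    have hφres : ∀ n : N, φ n = d * θ n := by
      intro n
      rw [hβτ, Pi.mul_apply, hβc n, hd, hext]
    have hde : d ≤ e := by
      obtain ⟨i, hi⟩ := hsubN.classInner_nat hθ.isCharacter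
      have h1 : (fun n : N => (ψ - φ) n) = ((e : ℂ) - d) • θ := by
        funext n
        rw [Pi.sub_apply, hres n, hφres n, Pi.smul_apply, smul_eq_mul]
        ring
      rw [h1, classInner_smul_left, hθ.classInner_self, mul_one] at hi
      have h2 : (e : ℂ) = ((i + d : ℕ) : ℂ) := by
        push_cast
        linear_combination hi
      have h3 : e = i + d := by exact_mod_cast h2
      omega
    obtain ⟨b, hb, hbc, hbτ⟩ := ih (e - d) (by omega) hsub (by
      intro n
      rw [Pi.sub_apply, hres n, hφres n, Nat.cast_sub hde]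
      ring)
    refine ⟨b + β, hb.add hβ.isCharacter, ?_, ?_⟩
    · intro n
      rw [Pi.add_apply, Pi.add_apply, hbc n, hβc n]
    · rw [add_mul, ← hbτ, ← hβτ]
      funext g
      simp

end Ext

end Cfsg.Agent.Lib.H3FullRam
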