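import Cfsg.Agent.Lib.H3FullRam

/-!
# Sums over cosets in Frobenius situations (helper3)
-/

set_option autoImplicit false
set_option linter.unusedSectionVars false

namespace Cfsg.Agent.Lib.H3FullRam

open scoped ComplexConjugate
open Cfsg Cfsg.Agent.Lib.CharBasic Cfsg.Agent.Lib.Clifford

universe u

theorem sum_quot {G : Type u} [Group G] [Fintype G] (N : Subgroup G) [N.Normal] [Fintype (G ⧸ N)]
    (f : G ⧸ N → ℂ) : ∑ x : G, f (x : G ⧸ N) = (Nat.card N : ℂ) * ∑ y : G ⧸ N, f y := by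
  classical
  have := Fintype.ofFinite N
  rw [← Equiv.sum_comp (Subgroup.groupEquivQuotientProdSubgroup (s := N)).symm, Fintype.sum_prod_type,
    Finset.mul_sum]
  refine Finset.sum_congr rfl fun y _ => ?_
  have h : ∀ n : N, f (((Subgroup.groupEquivQuotientProdSubgroup (s := N)).symm (y, n) : G) : G ⧸ N) = f y := by
    intro n
    have h1 : (Subgroup.groupEquivQuotientProdSubgroup (s := N)
        ((Subgroup.groupEquivQuotientProdSubgroup (s := N)).symm (y, n))).1 = y := by simp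
    have h2 : ∀ x : G, (Subgroup.groupEquivQuotientProdSubgroup (s := N) x).1 = (x : G ⧸ N) := by
      intro x
      rfl
    rw [h2] at h1
    rw [h1]
  simp only [h, Finset.sum_const, Finset.card_univ, nsmul_eq_mul, Nat.card_eq_fintype_card]

section

variable {Γ : Type u} [Group Γ]

/-- The map `g ↦ g x g⁻¹ x⁻¹` of `G`. -/
def frobMap (G : Subgroup Γ) [hG : G.Normal] (x : Γ) (g : G) : G :=
  ⟨g * (x * (g : Γ)⁻¹ * x⁻¹), G.mul_mem g.2 (hG.conj_mem _ (G.inv_mem g.2) x)⟩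

/-- Sum of a class function over a coset `N x`, in a Frobenius situation. -/
theorem coset_sum [Fintype Γ] (G N : Subgroup Γ) [hG : G.Normal] [hN : N.Normal] [Fintype G] [Fintype N]
    (hNG : N ≤ G) (x : Γ)
    (hfrob : ∀ g : Γ, g ∈ G → x * g * x⁻¹ * g⁻¹ ∈ N → g ∈ N) {F : Γ → ℂ}
    (hF : ∀ g h : Γ, F (g * h * g⁻¹) = F h) :
    (Nat.card G : ℂ) * ∑ n : N, F (n * x) = (Nat.card N : ℂ) * ∑ g : G, F (g * x) := by
  classical
  set T : G → ℂ := fun g => ∑ n : N, F (n * g * x) with hT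
  have hTN : ∀ (g m : G), (m : Γ) ∈ N → T (g * m) = T g := by
    intro g m hm
    have hm' : (g : Γ) * m * (g : Γ)⁻¹ ∈ N := hN.conj_mem _ hm _
    simp only [hT]
    refine Fintype.sum_equiv (Equiv.mulRight (⟨_, hm'⟩ : N)) _ _ ?_
    intro n
    congr 1
    simp [mul_assoc]
  have hA : ∑ g : G, T g = (Nat.card N : ℂ) * ∑ g : G, F (g * x) := by
    simp only [hT]
    rw [Finset.sum_comm]
    have : ∀ n : N, ∑ g : G, F (n * g * x) = ∑ g : G, F (g * x) := by
      intro n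
      refine Fintype.sum_equiv (Equiv.mulLeft (⟨n, hNG n.2⟩ : G)) _ _ ?_
      intro g
      simp
    rw [Finset.sum_congr rfl (fun n _ => this n), Finset.sum_const, Finset.card_univ, nsmul_eq_mul,
      Nat.card_eq_fintype_card]
  have hB : ∑ g : G, T (frobMap G x g) = (Nat.card G : ℂ) * ∑ n : N, F (n * x) := by
    have : ∀ g : G, T (frobMap G x g) = ∑ n : N, F (n * x) := by
      intro g
      simp only [hT, frobMap]
      have hc : ∀ n : N, (g : Γ)⁻¹ * n * g ∈ N := fun n => by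
        have := hN.conj_mem (n : Γ) n.2 (g : Γ)⁻¹
        rwa [inv_inv] at this
      have hc' : ∀ n : N, (g : Γ) * n * (g : Γ)⁻¹ ∈ N := fun n => hN.conj_mem (n : Γ) n.2 (g : Γ)
      refine Fintype.sum_equiv (⟨fun n => (⟨_, hc n⟩ : N), fun n => (⟨_, hc' n⟩ : N), fun n => by
        ext; simp [mul_assoc], fun n => by ext; simp [mul_assoc]⟩ : N ≃ N) _ _ ?_
      intro n
      refine (congrArg F ?_).trans (hF (g : Γ) ((g : Γ)⁻¹ * n * g * x))
      simp [mul_assoc]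
    rw [Finset.sum_congr rfl (fun g _ => this g), Finset.sum_const, Finset.card_univ, nsmul_eq_mul,
      Nat.card_eq_fintype_card]
  rw [← hA, ← hB]
  -- descend to the quotient
  have := Fintype.ofFinite (G ⧸ N.subgroupOf G)
  have hTq : ∀ a b : G, (QuotientGroup.leftRel (N.subgroupOf G)) a b → T a = T b := by
    intro a b hab
    rw [QuotientGroup.leftRel_apply] at hab
    have h := hTN a (a⁻¹ * b) (Subgroup.mem_subgroupOf.1 hab)
    rw [mul_inv_cancel_left] at h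
    exact h.symm
  let Tq : G ⧸ N.subgroupOf G → ℂ := fun q => Quotient.liftOn' q T hTq
  have hTqmk : ∀ g : G, Tq (g : G ⧸ N.subgroupOf G) = T g := fun g => rfl
  have hPq : ∀ a b : G, (QuotientGroup.leftRel (N.subgroupOf G)) a b →
      (frobMap G x a : G ⧸ N.subgroupOf G) = (frobMap G x b : G ⧸ N.subgroupOf G) := by
    intro a b hab
    rw [QuotientGroup.leftRel_apply] at hab
    have hab' : (a : Γ)⁻¹ * b ∈ N := Subgroup.mem_subgroupOf.1 hab
    rw [QuotientGroup.eq, Subgroup.mem_subgroupOf]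
    simp only [frobMap, Subgroup.coe_mul, InvMemClass.coe_inv, mul_inv_rev, inv_inv]
    -- (x a x⁻¹) a⁻¹ b (x b⁻¹ x⁻¹)
    have e : x * ((a : Γ) * x⁻¹) * (a : Γ)⁻¹ * ((b : Γ) * (x * (b : Γ)⁻¹ * x⁻¹)) =
        (x * (a : Γ) * x⁻¹) * ((a : Γ)⁻¹ * b) * (x * (a : Γ) * x⁻¹)⁻¹ *
          (x * ((a : Γ) * ((a : Γ)⁻¹ * b)⁻¹ * (a : Γ)⁻¹) * x⁻¹) := by group
    rw [e]
    exact N.mul_mem (hN.conj_mem _ hab' _)
      (hN.conj_mem _ (hN.conj_mem _ (N.inv_mem hab') _) _)
  let Pq : G ⧸ N.subgroupOf G → G ⧸ N.subgroupOf G := fun q => Quotient.liftOn' q _ hPq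
  have hPqmk : ∀ g : G, Pq (g : G ⧸ N.subgroupOf G) = (frobMap G x g : G ⧸ N.subgroupOf G) := fun g => rfl
  have hinj : Function.Injective Pq := by
    intro p q
    induction p using QuotientGroup.induction_on with | _ a => ?_
    induction q using QuotientGroup.induction_on with | _ b => ?_
    intro h
    rw [hPqmk, hPqmk, QuotientGroup.eq, Subgroup.mem_subgroupOf] at h
    simp only [frobMap, Subgroup.coe_mul, InvMemClass.coe_inv, mul_inv_rev, inv_inv] at h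
    rw [QuotientGroup.eq, Subgroup.mem_subgroupOf]
    -- h : x a x⁻¹ a⁻¹ b x b⁻¹ x⁻¹ ∈ N;  conjugate to x (a⁻¹b)... 
    have h2 : (a : Γ)⁻¹ * b ∈ G := G.mul_mem (G.inv_mem a.2) b.2
    have h3 := hfrob ((a : Γ)⁻¹ * b) h2 ?_
    · exact h3
    · have e : x * ((a : Γ)⁻¹ * b) * x⁻¹ * ((a : Γ)⁻¹ * b)⁻¹ =
          ((a : Γ)⁻¹ * b) * ((x * (b : Γ)⁻¹ * x⁻¹) * (x * ((a : Γ) * x⁻¹) * (a : Γ)⁻¹ * ((b : Γ) * (x * (b : Γ)⁻¹ * x⁻¹)))⁻¹ *
            (x * (b : Γ)⁻¹ * x⁻¹)⁻¹)  * ((a : Γ)⁻¹ * b)⁻¹ := by group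
      rw [e]
      exact hN.conj_mem _ (hN.conj_mem _ (N.inv_mem h) _) _
  have hbij : Function.Bijective Pq := Finite.injective_iff_bijective.1 hinj
  have e1 : ∑ g : G, T g = (Nat.card (N.subgroupOf G) : ℂ) * ∑ q : G ⧸ N.subgroupOf G, Tq q := by
    rw [← sum_quot]
    rfl
  have e2 : ∑ g : G, T (frobMap G x g) =
      (Nat.card (N.subgroupOf G) : ℂ) * ∑ q : G ⧸ N.subgroupOf G, Tq (Pq q) := by
    rw [← sum_quot (N.subgroupOf G) (fun q => Tq (Pq q))]
    rfl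
  rw [e1, e2]
  congr 1
  exact Fintype.sum_bijective Pq hbij _ _ (fun _ => rfl)

end

end Cfsg.Agent.Lib.H3FullRam
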