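import Cfsg.Agent.Lib.G2Three3
import Cfsg.Agent.Lib.H3G23D
import Cfsg.Agent.Lib.ClSLn
import Cfsg.Agent.S1059

/-!
# G2(3) acting on 756 vectors of its 7-dimensional module (helper3)
-/

set_option autoImplicit false

namespace Cfsg.Agent.Lib.H3G23

open Cfsg.Lie Cfsg.Agent.Lib.ChevX Cfsg.Agent.Lib.ChevGood Cfsg.Agent.Lib.ChevRel Cfsg.Agent.Lib.ChevAuto
open Cfsg.Agent.Lib.G2ThreeLin Cfsg.Agent.Lib.G2Three Cfsg.Agent.Lib.H58SM
open scoped MatrixGroups Matrix

abbrev F3 := ZMod 3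

theorem hF3 : Fintype.card F3 = 3 := ZMod.card 3

/-- the group -/
abbrev G := chevG2.group F3

/-- the 7-dimensional representation -/
def R (g : G) : Matrix (Fin 7) (Fin 7) F3 := ρ0 (g : GL chevG2.Idx F3).1

theorem mMM (g : G) : (g : GL chevG2.Idx F3) ∈ MM (RingHom.id F3) := mem_MM (RingHom.id F3) hF3 g.2

theorem R_mul (g h : G) : R (g * h) = R g * R h := by
  unfold R
  rw [Subgroup.coe_mul, Units.val_mul, ρ0_mul (mMM h).1]

theorem R_one : R 1 = 1 := by
  unfold R
  rw [Subgroup.coe_one, Units.val_one, ρ0_one]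

theorem R_inj {g : G} (h : R g = 1) : g = 1 := by
  apply rho_inj (RingHom.id F3) hF3
  apply LinearMap.ext
  intro v
  rw [rho_apply, map_one]
  show R g *ᵥ v = v
  rw [h, Matrix.one_mulVec]

/-- the module -/
abbrev V7 : Type := Fin 7 → F3

noncomputable instance : MulAction G V7 where
  smul g v := (R g *ᵥ (v : Fin 7 → F3) : Fin 7 → F3)
  one_smul v := by
    show (R 1 *ᵥ (v : Fin 7 → F3) : Fin 7 → F3) = v
    rw [R_one, Matrix.one_mulVec]
  mul_smul g h v := by
    show (R (g * h) *ᵥ (v : Fin 7 → F3) : Fin 7 → F3) = R g *ᵥ (R h *ᵥ (v : Fin 7 → F3))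
    rw [R_mul, Matrix.mulVec_mulVec]

theorem smul_def (g : G) (v : V7) : g • v = (R g *ᵥ (v : Fin 7 → F3) : Fin 7 → F3) := rfl

def rt (i : ℕ) : ℕ := ([7, 6, 4, 5] : List ℕ).getD i 7

theorem rt_mem (i : ℕ) : rt i ∈ R4 := by
  unfold rt
  rcases i with _ | _ | _ | _ | i
  · decide
  · decide
  · decide
  · decide
  · show 7 ∈ R4
    decide

/-- the root elements -/
noncomputable def x (i : ℕ) : G := ⟨xg chevG2 F3 (rt i) 1, xg_mem Cfsg.Agent.Lib.ChevOkG2.good _ _⟩

theorem rt_lt (i : ℕ) : rt i < chevG2.nroots := by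
  unfold rt
  rcases i with _ | _ | _ | _ | i
  · decide
  · decide
  · decide
  · decide
  · show 7 < 12
    decide

theorem R_x (i : ℕ) : R (x i) = AA (rt i) := by
  unfold R
  show ρ0 (xg chevG2 F3 (rt i) 1 : Matrix chevG2.Idx chevG2.Idx F3) = _
  rw [(ρ0_xg (RingHom.id F3) (rt_mem i) (rt_lt i)).2]
  rfl

/-- the points -/
def v (a : ℕ) : V7 := fun r => ((VC a r : ℕ) : F3)

def rowS (a : ℕ) : List (ℕ × ℕ) → ℕ
  | [] => 0
  | p :: l => Nat.add (Nat.mul p.2 (VC a p.1)) (rowS a l)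

def coef (s : ℕ) : List (ℕ × ℕ) → ℕ
  | [] => 0
  | p :: l => (if p.1 = s then p.2 else 0) + coef s l

theorem rowS_eq (a : ℕ) (l : List (ℕ × ℕ)) (h : ∀ p ∈ l, p.1 < 7) :
    ((rowS a l : ℕ) : F3) = ∑ s : Fin 7, ((coef s l : ℕ) : F3) * ((VC a s : ℕ) : F3) := by
  induction l with
  | nil => simp [rowS, coef]
  | cons p l ih =>
    have e : rowS a (p :: l) = p.2 * VC a p.1 + rowS a l := rfl
    rw [e, Nat.cast_add, ih (fun q hq => h q (List.mem_cons_of_mem _ hq))]
    have e2 : ∀ s : Fin 7, ((coef s (p :: l) : ℕ) : F3) * ((VC a s : ℕ) : F3) =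
        (if (⟨p.1, h p List.mem_cons_self⟩ : Fin 7) = s then ((p.2 * VC a p.1 : ℕ) : F3) else 0) +
          ((coef s l : ℕ) : F3) * ((VC a s : ℕ) : F3) := by
      intro s
      have e3 : coef s (p :: l) = (if p.1 = s then p.2 else 0) + coef s l := rfl
      rw [e3, Nat.cast_add, add_mul]
      congr 1
      by_cases hs : p.1 = s
      · rw [if_pos hs, if_pos (Fin.ext hs)]
        push_cast
        rw [hs]
      · rw [if_neg hs, if_neg (fun h' => hs (congrArg Fin.val h'))]; simp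
    rw [Finset.sum_congr rfl (fun s _ => e2 s), Finset.sum_add_distrib, Finset.sum_ite_eq]
    simp

def actB : Bool := alln (fun i => alln (fun a => frc (RT i a) fun b => alln (fun r =>
  Nat.beq (Nat.mod (rowS a (AR i r)) 3) (VC b r)) 7) 756) 4
def digB : Bool := alln (fun a => alln (fun r => Nat.blt (VC a r) 3) 7) 756
def baseB : Bool := alln (fun a => Nat.beq a 0 || !(alln (fun r => Nat.beq (VC a r) (VC 0 r)) 7)) 756
def ltB : Bool := alln (fun i => alln (fun a => Nat.blt (RT i a) 756) 756) 4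

theorem act_ok : actB = true := by decide +kernel
theorem dig_ok : digB = true := by decide +kernel
theorem base_ok : baseB = true := by decide +kernel
theorem lt_ok : ltB = true := by decide +kernel

theorem coefM_ok : ∀ i : Fin 4, AA (rt i.val) = Matrix.of (fun r s : Fin 7 => ((coef s.val (AR i.val r.val) : ℕ) : ZMod 3)) := by
  decide +kernel

theorem coef_ok (i : Fin 4) (r s : Fin 7) : AA (rt i) r s = ((coef s (AR i r) : ℕ) : F3) := by
  rw [coefM_ok i]; rfl

theorem AR_lt : ∀ i : Fin 4, ∀ r : Fin 7, ∀ p ∈ AR i r, p.1 < 7 := by decide +kernel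

theorem RT_lt {i a : ℕ} (hi : i < 4) (ha : a < 756) : RT i a < 756 :=
  Sol.blt_iff.1 (alln_iff.1 (alln_iff.1 lt_ok i hi) a ha)

theorem x_smul {i a : ℕ} (hi : i < 4) (ha : a < 756) : x i • v a = v (RT i a) := by
  have h := alln_iff.1 (alln_iff.1 act_ok i hi) a ha
  rw [frc_eq] at h
  funext r
  show (R (x i) *ᵥ fun s => ((VC a s : ℕ) : F3)) r = ((VC (RT i a) r : ℕ) : F3)
  have h1 := Sol.beq_iff.1 (alln_iff.1 h r r.2)
  rw [← h1]
  show _ = ((rowS a (AR i r) % 3 : ℕ) : F3)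
  rw [ZMod.natCast_mod, rowS_eq a (AR i r) (AR_lt ⟨i, hi⟩ r), R_x]
  rw [Matrix.mulVec, dotProduct]
  apply Finset.sum_congr rfl
  intro s _
  rw [coef_ok ⟨i, hi⟩ r s]

/-- word in the root elements, head applied first -/
noncomputable def evr : List ℕ → G
  | [] => 1
  | l :: w => evr w * x l

def rp : List ℕ → ℕ → ℕ
  | [], a => a
  | l :: w, a => frc (RT l a) fun b => rp w b

theorem evr_smul (w : List ℕ) : (∀ l ∈ w, l < 4) → ∀ {a : ℕ}, a < 756 → evr w • v a = v (rp w a) := by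
  induction w with
  | nil => intro _ a _; exact one_smul _ _
  | cons l w ih =>
    intro hw a ha
    have e : evr (l :: w) = evr w * x l := rfl
    have e2 : rp (l :: w) a = rp w (RT l a) := by
      show frc (RT l a) _ = _
      rw [frc_eq]
    have hl := hw l List.mem_cons_self
    rw [e, mul_smul, x_smul hl ha, ih (fun k hk => hw k (List.mem_cons_of_mem _ hk)) (RT_lt hl ha), e2]

/-- the two generators -/
noncomputable def g (i : ℕ) : G := evr (gw i)

theorem gw_lt : ∀ i < 2, ∀ l ∈ gw i, l < 4 := by decide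

def gB (T : ℕ → ℕ → ℕ) : Bool := alln (fun i => alln (fun a => Nat.beq (rp (gw i) a) (T (Nat.mul 2 i) a)) 756) 2
def twB (T : ℕ → ℕ → ℕ) : Bool := alln (fun i => alln (fun a => Nat.beq (Dat.ptf T (tw i) a) (RT i a)) 756) 4

theorem VC_eq {a b r : ℕ} (ha : a < 756) (hb : b < 756) (hr : r < 7) (h : ((VC a r : ℕ) : F3) = ((VC b r : ℕ) : F3)) :
    VC a r = VC b r := by
  have h1 := Sol.blt_iff.1 (alln_iff.1 (alln_iff.1 dig_ok a ha) r hr)
  have h2 := Sol.blt_iff.1 (alln_iff.1 (alln_iff.1 dig_ok b hb) r hr)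
  rw [ZMod.natCast_eq_natCast_iff] at h
  exact h.eq_of_lt_of_lt h1 h2

theorem v_base {a : ℕ} (ha : a < 756) (h : v a = v 0) : a = 0 := by
  by_contra h0
  have h1 := alln_iff.1 base_ok a ha
  rw [Bool.or_eq_true] at h1
  rcases h1 with h1 | h1
  · exact h0 (Sol.beq_iff.1 h1)
  · rw [Bool.not_eq_true'] at h1
    have h2 : alln (fun r => Nat.beq (VC a r) (VC 0 r)) 7 = true := by
      rw [alln_iff]
      intro r hr
      exact Sol.beq_iff.2 (VC_eq ha (by decide) hr (congrFun h ⟨r, hr⟩))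
    rw [h2] at h1
    exact absurd h1 (by decide)

theorem single_ok : ∀ j r : Fin 7, ((Pi.single j 1 : Fin 7 → F3)) r =
    ((VC (fo j) r : ℕ) : F3) - (if j = 0 then 0 else ((VC 0 r : ℕ) : F3)) := by decide +kernel

theorem fo_lt : ∀ j : Fin 7, fo j < 756 := by decide

theorem faith (y : G) (hy : ∀ a < 756, y • v a = v a) : y = 1 := by
  apply R_inj
  have h1 : ∀ j : Fin 7, R y *ᵥ (Pi.single j 1 : Fin 7 → F3) = Pi.single j 1 := by
    intro j
    by_cases hj : j = 0
    · have e : (Pi.single j 1 : Fin 7 → F3) = v (fo j) := by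
        funext r; rw [single_ok j r, if_pos hj, sub_zero]; rfl
      rw [e]; exact hy _ (fo_lt j)
    · have e : (Pi.single j 1 : Fin 7 → F3) = (v (fo j) : Fin 7 → F3) - (v 0 : Fin 7 → F3) := by
        funext r; rw [single_ok j r, if_neg hj]; rfl
      rw [e, Matrix.mulVec_sub]
      have a1 : (R y *ᵥ (v (fo j) : Fin 7 → F3)) = v (fo j) := hy _ (fo_lt j)
      have a2 : (R y *ᵥ (v 0 : Fin 7 → F3)) = v 0 := hy _ (by decide)
      rw [a1, a2]
  ext i j
  have := congrFun (h1 j) i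
  rw [Matrix.mulVec_single_one] at this
  rw [show R y i j = (R y).col j i from rfl, this, Matrix.one_apply, Pi.single_apply]

theorem act (D : Dat) (hn : D.n = 756) (hk : D.k = 2) (h1 : D.tab1 = true) (h2 : D.tab2 = true) (h3 : D.tab3 = true)
    (h4 : gB D.T = true) : Act D.n D.k g v D.T D.pi D.pq := by
  refine Dat.act_of (by rw [hn]; decide) h1 h2 h3 ?_ ?_
  · rw [hn, hk]
    intro i hi a ha
    rw [g, evr_smul (gw i) (gw_lt i hi) ha]
    rw [Sol.beq_iff.1 (alln_iff.1 (alln_iff.1 h4 i hi) a ha)]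
    rfl
  · rw [hn]
    intro a ha h
    exact v_base ha h

theorem tw_lt : ∀ i < 4, ∀ l ∈ tw i, l < 2 * 2 := by decide

theorem ev_mem {Γ : Type*} [Group Γ] (H : Subgroup Γ) {k : ℕ} {y : ℕ → Γ} (hy : ∀ i < k, y i ∈ H) (w : List ℕ) (hw : ∀ l ∈ w, l < 2 * k) :
    ev y w ∈ H := by
  induction w with
  | nil => exact one_mem _
  | cons l w ih =>
    rw [ev_cons]
    refine mul_mem (ih (fun m hm => hw m (List.mem_cons_of_mem _ hm))) ?_
    have hl := hw l List.mem_cons_self
    unfold lt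
    split_ifs
    · exact hy _ (by omega)
    · exact inv_mem (hy _ (by omega))

theorem gen (D : Dat) (hn : D.n = 756) (hk : D.k = 2) (A : Act D.n D.k g v D.T D.pi D.pq) (h5 : twB D.T = true) :
    Subgroup.closure {z | ∃ i < D.k, z = g i} = ⊤ := by
  set H := Subgroup.closure {z | ∃ i < D.k, z = g i} with hH
  have hx : ∀ i < 4, x i ∈ H := by
    intro i hi
    have e : x i = ev g (tw i) := by
      have : (ev g (tw i))⁻¹ * x i = 1 := by
        apply faith
        intro a ha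
        rw [mul_smul, x_smul hi ha, inv_smul_eq_iff]
        have h6 := A.smul_ev (w := tw i) (by rw [hk]; exact tw_lt i hi) (by rw [hn]; exact ha)
        rw [h6, ← Dat.ptf_eq, Sol.beq_iff.1 (alln_iff.1 (alln_iff.1 h5 i hi) a ha)]
      exact (inv_mul_eq_one.1 this).symm
    rw [e]
    apply ev_mem H (k := D.k)
    · intro j hj; exact Subgroup.subset_closure ⟨j, hj, rfl⟩
    · rw [hk]; exact tw_lt i hi
  have hG := Cfsg.Agent.Lib.ChevOkG2.good
  have hr : ∀ r ∈ R4, ∀ t : F3, xg chevG2 F3 r t ∈ H.map (chevG2.group F3).subtype := by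
    intro r hr
    have h1 : xg chevG2 F3 r 1 ∈ H.map (chevG2.group F3).subtype := by
      have h2 : ∃ i < 4, rt i = r := by
        revert hr; revert r; decide
      obtain ⟨i, hi, rfl⟩ := h2
      exact ⟨x i, hx i hi, rfl⟩
    intro t
    rcases elems hF3 t with rfl | rfl | rfl
    · rw [xg_zero hG]; exact one_mem _
    · exact h1
    · rw [← xg_add hG]; exact mul_mem h1 h1
  have h7 : chevG2.group F3 ≤ H.map (chevG2.group F3).subtype := by
    have h8 : Subgroup.closure {g | ∃ i < chevG2.rank, ∃ t : F3, g = xg chevG2 F3 (chevG2.simple i) t ∨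
        g = xg chevG2 F3 (chevG2.neg (chevG2.simple i)) t} ≤ H.map (chevG2.group F3).subtype := by
      rw [Subgroup.closure_le]
      have hR : ∀ i < chevG2.rank, chevG2.simple i ∈ R4 ∧ chevG2.neg (chevG2.simple i) ∈ R4 := by decide
      rintro z ⟨i, hi, t, rfl | rfl⟩
      · exact hr _ (hR i hi).1 t
      · exact hr _ (hR i hi).2 t
    exact (group_eq_simple hG).le.trans h8
  rw [eq_top_iff]
  intro y _
  obtain ⟨z, hz, hzy⟩ := h7 y.2
  rwa [show y = z from Subtype.ext hzy.symm]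

end Cfsg.Agent.Lib.H3G23
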