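import Cfsg.Agent.Lib.H3G23S
import Cfsg.Agent.Lib.H3G23P
import Cfsg.Agent.Lib.H3G23Q
import Cfsg.Agent.Lib.H3G23V
import Cfsg.Agent.Lib.H26Mult7
import Cfsg.Agent.Lib.H58SMf
import Cfsg.Agent.Lib.H92StemB
import Cfsg.Agent.S2086

/-!
# The Schur multiplier of G2(3) (helper3)
-/

set_option autoImplicit false

namespace Cfsg.Agent.Lib.H3G23

open Cfsg Cfsg.Lie Cfsg.Agent.Lib Cfsg.Agent.Lib.H58SM Cfsg.Agent.Lib.SchurSylow Cfsg.Agent.Lib.Cov
open scoped MatrixGroups commutatorElement

set_option maxRecDepth 1000000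

theorem g2_ok : gB G232.Q.toDat.T = true := by decide +kernel
theorem g3_ok : gB G233.Q.toDat.T = true := by decide +kernel
theorem t2_ok : twB G232.Q.toDat.T = true := by decide +kernel
theorem t3_ok : twB G233.Q.toDat.T = true := by decide +kernel

theorem act2 : Act G232.Q.toDat.n G232.Q.toDat.k g v G232.Q.toDat.T G232.Q.toDat.pi G232.Q.toDat.pq :=
  act G232.Q.toDat rfl rfl G232.tab1_ok G232.tab2_ok G232.tab3_ok g2_ok

theorem act3 : Act G233.Q.toDat.n G233.Q.toDat.k g v G233.Q.toDat.T G233.Q.toDat.pi G233.Q.toDat.pq :=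
  act G233.Q.toDat rfl rfl G233.tab1_ok G233.tab2_ok G233.tab3_ok g3_ok

theorem gen2 : Subgroup.closure {z | ∃ i < G232.Q.toDat.k, z = g i} = ⊤ := gen G232.Q.toDat rfl rfl act2 t2_ok
theorem gen3 : Subgroup.closure {z | ∃ i < G233.Q.toDat.k, z = g i} = ⊤ := gen G233.Q.toDat rfl rfl act3 t3_ok

theorem cardG : Nat.card G = 4245696 := by
  rw [S1059.result hF3]; norm_num

theorem card_S : Nat.card S = 5616 := by
  have h := act2.card_stabilizer gen2
  rw [cardG] at h
  have h2 : 756 * Nat.card S = 756 * 5616 := h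
  exact Nat.eq_of_mul_eq_mul_left (by norm_num) h2

theorem stab_perfect : commutator S = ⊤ := by
  have h : (commutator SL(3, F3)).map (stabE card_S).toMonoidHom = commutator S := by
    rw [_root_.commutator_def, Subgroup.map_commutator, _root_.commutator_def]
    congr 1 <;> exact Subgroup.map_top_of_surjective _ (stabE card_S).surjective
  rw [← h, sl_perfect]
  exact Subgroup.map_top_of_surjective _ (stabE card_S).surjective

theorem stem_SL : StemDvd SL(3, F3) 1 :=
  Cfsg.Agent.Lib.H26Mult6.stemDvd_of_hasCyclic (Cfsg.Agent.Lib.UCESLn.multiplier_SL (Cfsg.Agent.S2086.adm_of (F := F3) hF3 3 le_rfl (by decide)))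

theorem stem_S (p : ℕ) [Fact p.Prime] : PStemDvd p S 1 := (stem_SL.pStemDvd p).congr (stabE card_S)

theorem rel2 : ∀ j < G232.Q.toDat.J, ev g (G232.Q.toDat.W j) = 1 :=
  Dat.rel_of (D := G232.Q.toDat) act2 faith G232.w_ok G232.rel_ok

theorem rel3 : ∀ j < G233.Q.toDat.J, ev g (G233.Q.toDat.W j) = 1 :=
  Dat.rel_of (D := G233.Q.toDat) act3 faith G233.w_ok G233.rel_ok

theorem two : PStemDvd 2 G 1 := by
  haveI : Fact (Nat.Prime 2) := ⟨by norm_num⟩
  exact pStemDvd_of_checks (s := 1) (q := 1) (N := 1) G232.Q.toDat act2 gen2 (stem_S 2)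
    (not_dvd_index_of_perfect stab_perfect) G232.w_ok rel2 G232.nr G232.nr_ok G232.zl_ok rfl rfl (by decide)
    G232.chk_ok G232.gen_ok G232.par_ok (by intro r hr; cases hr) rfl

theorem three : PStemDvd 3 G 3 := by
  haveI : Fact (Nat.Prime 3) := ⟨by norm_num⟩
  exact pStemDvd_of_checks (s := 2) (q := 3) (N := 3) G233.Q.toDat act3 gen3 (stem_S 3)
    (not_dvd_index_of_perfect stab_perfect) G233.w_ok rel3 G233.nr G233.nr_ok G233.zl_ok rfl rfl (by decide)
    G233.chk_ok G233.gen_ok G233.par_ok (by decide) rfl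

theorem stem : StemDvd G 3 := by
  apply StemDvd.of_forall
  intro p hp
  have : Fact p.Prime := ⟨hp⟩
  by_cases h2 : p = 2
  · subst h2; exact two.mono (by norm_num)
  by_cases h3 : p = 3
  · subst h3; exact three
  refine PStemDvd.mono ?_ (one_dvd 3)
  apply Cfsg.Agent.Lib.H92Stem.pStemDvd_of_sq
  rw [cardG]
  intro hd
  have h1 : p ∣ 4245696 := (dvd_pow_self p two_ne_zero).trans hd
  have h4 : p ∈ Nat.primeFactors 4245696 := Nat.mem_primeFactors.2 ⟨hp, h1, by norm_num⟩
  have h6 : Nat.primeFactors 4245696 = {2, 3, 7, 13} := by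
    rw [show (4245696 : ℕ) = 2 ^ 6 * (3 ^ 6 * (7 * 13)) by norm_num]
    rw [Nat.primeFactors_mul (by norm_num) (by norm_num), Nat.primeFactors_mul (by norm_num) (by norm_num),
      Nat.primeFactors_mul (by norm_num) (by norm_num), Nat.primeFactors_prime_pow (by norm_num) (by norm_num),
      Nat.primeFactors_prime_pow (by norm_num) (by norm_num),
      Nat.Prime.primeFactors (by norm_num), Nat.Prime.primeFactors (by norm_num)]
    decide
  rw [h6] at h4
  simp only [Finset.mem_insert, Finset.mem_singleton] at h4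
  have h7 : p = 7 ∨ p = 13 := by tauto
  rcases h7 with rfl | rfl <;> revert hd <;> norm_num

theorem simpleG : IsSimpleGroup G ∧ ¬ IsMulCommutative G :=
  Cfsg.Agent.Lib.ChevSimple.simple (by simp) (fun _ => ⟨2, by decide, by decide⟩)

theorem perfectG : commutator G = ⊤ := by
  haveI := simpleG.1
  rcases Subgroup.Normal.eq_bot_or_eq_top (inferInstance : (commutator G).Normal) with h | h
  · exfalso
    apply simpleG.2
    refine ⟨⟨fun a b => ?_⟩⟩
    have h1 : ⁅a, b⁆ ∈ commutator G := Subgroup.commutator_mem_commutator (Subgroup.mem_top a) (Subgroup.mem_top b)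
    rw [h, Subgroup.mem_bot, commutatorElement_eq_one_iff_mul_comm] at h1
    exact h1
  · exact h

theorem low : IsQuot G (Multiplicative (ZMod 3)) :=
  isQuot_one G233.Q.toDat H3G23V.D H3G23V.W0 act3 rfl rfl (fun _ => rfl) gen3
    perfectG G233.w_ok rel3 H3G23V.rows_ok H3G23V.im_ok H3G23V.par_ok
    H3G23V.wt0_ok H3G23V.o H3G23V.ord0_ok (by decide) 9 (by decide) H3G23V.val0_0

theorem main : HasCyclicSchurMultiplier G 3 := by
  refine hasSchur_of ?_ low
  have e : Nat.card (Multiplicative (ZMod 3)) = 3 := by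
    show Nat.card (ZMod 3) = 3
    rw [Nat.card_zmod]
  rw [e]
  exact stem

end Cfsg.Agent.Lib.H3G23
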