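import Cfsg.Agent.Lib.H3G23A

/-!
# The stabilizer SL3(3) in G2(3) (helper3)
-/

set_option autoImplicit false

namespace Cfsg.Agent.Lib.H3G23

open Cfsg.Lie Cfsg.Agent.Lib.ChevX Cfsg.Agent.Lib.ChevGood Cfsg.Agent.Lib.ChevRel Cfsg.Agent.Lib.ChevAuto
open Cfsg.Agent.Lib.G2ThreeLin Cfsg.Agent.Lib.G2Three Cfsg.Agent.Lib.H58SM
open scoped MatrixGroups Matrix

def dd : Fin 7 → ZMod 3 := ![0, 2, 1, 1, 2, 2, 1]

theorem ad_dd : ad 0 = Matrix.diagonal dd := by decide +kernel

theorem v_zero : v 0 = Pi.single 0 1 := by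
  funext r
  rw [single_ok 0 r, if_pos rfl, sub_zero]
  rfl

theorem cFR (g : G) (u w : Fin 7 → F3) :
    cF (RingHom.id F3) (R g *ᵥ u) (R g *ᵥ w) = R g *ᵥ cF (RingHom.id F3) u w := (mMM g).2.1 u w

theorem cF_sl (a : Fin 7) (w : Fin 7 → F3) : cF (RingHom.id F3) (Pi.single a 1) w = ad a *ᵥ w := by
  rw [cF_apply, Finset.sum_eq_single a]
  · rw [Pi.single_eq_same, one_smul]; rfl
  · intro b _ hb
    rw [Pi.single_eq_of_ne hb, zero_smul]
  · intro h; exact absurd (Finset.mem_univ _) h

theorem cF_ss (a c : Fin 7) : cF (RingHom.id F3) (Pi.single a 1) (Pi.single c 1) = fun m => ad a m c := by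
  rw [cF_sl, Matrix.mulVec_single_one]; rfl

/-- the stabilizer -/
noncomputable abbrev S : Subgroup G := MulAction.stabilizer G (v 0)

theorem col0 {g : G} (hg : g ∈ S) : R g *ᵥ (Pi.single 0 1 : Fin 7 → F3) = Pi.single 0 1 := by
  have h : g • v 0 = v 0 := hg
  rw [v_zero] at h
  exact h

theorem comm {g : G} (hg : g ∈ S) : ad 0 * R g = R g * ad 0 := by
  apply Matrix.toLin'.injective
  apply LinearMap.ext
  intro w
  rw [Matrix.toLin'_apply, Matrix.toLin'_apply, ← Matrix.mulVec_mulVec, ← Matrix.mulVec_mulVec, ← cF_sl, ← cF_sl, ← cFR,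
    col0 hg]

theorem zero {g : G} (hg : g ∈ S) {i j : Fin 7} (h : dd i ≠ dd j) : R g i j = 0 := by
  have h1 := congrFun (congrFun (comm hg) i) j
  rw [ad_dd, Matrix.diagonal_mul, Matrix.mul_diagonal] at h1
  have h2 : (dd i - dd j) * R g i j = 0 := by rw [sub_mul, h1]; ring
  exact (mul_eq_zero.1 h2).resolve_left (sub_ne_zero.2 h)

def wi : Fin 3 → Fin 7 := ![2, 3, 6]

theorem wi_inj : Function.Injective wi := by decide

theorem dd_wi : ∀ j, dd (wi j) = 1 := by decide

/-- the block -/
def φm (g : G) : Matrix (Fin 3) (Fin 3) F3 := Matrix.of fun i j => R g (wi i) (wi j)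

theorem φm_mul (g : G) {h : G} (hh : h ∈ S) : φm (g * h) = φm g * φm h := by
  ext i j
  rw [Matrix.mul_apply]
  show R (g * h) (wi i) (wi j) = ∑ k : Fin 3, R g (wi i) (wi k) * R h (wi k) (wi j)
  have z : ∀ k, dd k ≠ 1 → R h k (wi j) = 0 := fun k hk => zero hh (by rw [dd_wi]; exact hk)
  rw [R_mul, Matrix.mul_apply, Fin.sum_univ_seven, Fin.sum_univ_three, z 0 (by decide), z 1 (by decide),
    z 4 (by decide), z 5 (by decide)]
  show _ = R g (wi i) 2 * R h 2 (wi j) + R g (wi i) 3 * R h 3 (wi j) + R g (wi i) 6 * R h 6 (wi j)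
  ring

theorem φm_one : φm 1 = 1 := by
  ext i j
  show R 1 (wi i) (wi j) = _
  rw [R_one, Matrix.one_apply, Matrix.one_apply]
  simp only [wi_inj.eq_iff]

noncomputable def φ : S →* Matrix (Fin 3) (Fin 3) F3 where
  toFun s := φm s
  map_one' := φm_one
  map_mul' s t := φm_mul s t.2

theorem e1 : (fun m => ad 2 m 3) = (Pi.single 1 1 : Fin 7 → ZMod 3) := by decide +kernel
theorem e4 : (fun m => ad 2 m 6) = (Pi.single 4 2 : Fin 7 → ZMod 3) := by decide +kernel
theorem e5 : (fun m => ad 3 m 6) = (Pi.single 5 1 : Fin 7 → ZMod 3) := by decide +kernel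
theorem e4' : (Pi.single 4 1 : Fin 7 → ZMod 3) = (2 : ZMod 3) • Pi.single 4 2 := by decide +kernel

theorem wi_cases : ∀ k : Fin 7, dd k = 1 → ∃ i, wi i = k := by decide

theorem φ_inj {s : S} (h : φm s = 1) : s = 1 := by
  have hs := s.2
  set M := R (s : G) with hM
  have hW : ∀ j : Fin 3, M *ᵥ (Pi.single (wi j) 1 : Fin 7 → F3) = Pi.single (wi j) 1 := by
    intro j
    rw [Matrix.mulVec_single_one]
    funext k
    show M k (wi j) = _
    by_cases hk : dd k = 1
    · obtain ⟨i, rfl⟩ := wi_cases k hk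
      have h1 := congrFun (congrFun h i) j
      rw [Matrix.one_apply] at h1
      rw [Pi.single_apply]
      simp only [wi_inj.eq_iff]
      exact h1
    · have hz : M k (wi j) = 0 := zero hs (by rw [dd_wi]; exact hk)
      have hne : k ≠ wi j := by
        rintro rfl
        exact hk (dd_wi j)
      exact hz.trans (by rw [Pi.single_eq_of_ne hne])
  have h2 : M *ᵥ (Pi.single 2 1 : Fin 7 → F3) = Pi.single 2 1 := hW 0
  have h3 : M *ᵥ (Pi.single 3 1 : Fin 7 → F3) = Pi.single 3 1 := hW 1
  have h6 : M *ᵥ (Pi.single 6 1 : Fin 7 → F3) = Pi.single 6 1 := hW 2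
  have h1 : M *ᵥ (Pi.single 1 1 : Fin 7 → F3) = Pi.single 1 1 := by
    have := cFR (s : G) (Pi.single 2 1) (Pi.single 3 1)
    rw [← hM, h2, h3, cF_ss, e1] at this
    exact this.symm
  have h5 : M *ᵥ (Pi.single 5 1 : Fin 7 → F3) = Pi.single 5 1 := by
    have := cFR (s : G) (Pi.single 3 1) (Pi.single 6 1)
    rw [← hM, h3, h6, cF_ss, e5] at this
    exact this.symm
  have h4 : M *ᵥ (Pi.single 4 1 : Fin 7 → F3) = Pi.single 4 1 := by
    have := cFR (s : G) (Pi.single 2 1) (Pi.single 6 1)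
    rw [← hM, h2, h6, cF_ss, e4] at this
    rw [e4', Matrix.mulVec_smul, ← this]
  have hall : ∀ j : Fin 7, M *ᵥ (Pi.single j 1 : Fin 7 → F3) = Pi.single j 1 := by
    intro j
    fin_cases j
    · exact col0 hs
    · exact h1
    · exact h2
    · exact h3
    · exact h4
    · exact h5
    · exact h6
  apply Subtype.ext
  apply R_inj
  rw [← hM]
  ext i j
  have := congrFun (hall j) i
  rw [Matrix.mulVec_single_one] at this
  rw [show M i j = M.col j i from rfl, this, Matrix.one_apply, Pi.single_apply]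

/-- the embedding in GL3(3) -/
noncomputable def φu : S →* GL (Fin 3) F3 := φ.toHomUnits

theorem φu_inj : Function.Injective φu := by
  rw [injective_iff_map_eq_one]
  intro s hs
  apply φ_inj
  have := congrArg Units.val hs
  exact this

theorem card_GL : Nat.card (GL (Fin 3) F3) = 11232 := by
  rw [Matrix.card_GL_field]
  rw [Fin.prod_univ_three, show Fintype.card F3 = 3 from hF3]
  norm_num

theorem card_SL : Nat.card (SL(3, F3)) = 5616 := by
  have h := Cfsg.Agent.Lib.ClSLn.card_SL_formula (F := F3) hF3 3 (by norm_num)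
  have h2 : Nat.card (GL (Fin 3) F3) = (3 - 1) * Nat.card (SL(3, F3)) := by
    rw [h, card_GL]
    decide
  rw [card_GL] at h2
  omega

theorem sl_perfect : commutator (SL(3, F3)) = ⊤ :=
  Cfsg.Agent.Lib.ClSLn.commutator_SL_eq_top' (fun h => by rw [Fintype.card_fin] at h; omega)

theorem range_eq (hc : Nat.card S = 5616) : φu.range = (Matrix.SpecialLinearGroup.toGL (n := Fin 3) (R := F3)).range := by
  have h1 : Nat.card φu.range = 5616 := by
    rw [← hc]
    exact (Nat.card_congr (MonoidHom.ofInjective φu_inj).toEquiv).symm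
  have h2 : Nat.card (Matrix.SpecialLinearGroup.toGL (n := Fin 3) (R := F3)).range = 5616 := by
    rw [← card_SL]
    refine (Nat.card_congr (MonoidHom.ofInjective ?_).toEquiv).symm
    exact Matrix.SpecialLinearGroup.toGL_injective
  have h3 : φu.range.index = 2 := by
    have := Subgroup.card_mul_index φu.range
    rw [h1, card_GL] at this
    omega
  have h4 : φu.range.Normal := Subgroup.normal_of_index_eq_two h3
  have h5 : commutator (GL (Fin 3) F3) ≤ φu.range := by
    have hcq : Nat.card (GL (Fin 3) F3 ⧸ φu.range) = 2 := h3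
    haveI : Fact (Nat.Prime 2) := ⟨Nat.prime_two⟩
    haveI : IsCyclic (GL (Fin 3) F3 ⧸ φu.range) := isCyclic_of_prime_card hcq
    rw [_root_.commutator_def, Subgroup.commutator_le]
    intro a _ b _
    have hcm : ∀ p q : GL (Fin 3) F3 ⧸ φu.range, p * q = q * p :=
      fun p q => (IsCyclic.commGroup (α := GL (Fin 3) F3 ⧸ φu.range)).mul_comm p q
    have hab := hcm (QuotientGroup.mk' φu.range a) (QuotientGroup.mk' φu.range b)
    rw [← QuotientGroup.ker_mk' φu.range, MonoidHom.mem_ker, map_commutatorElement, commutatorElement_def, hab]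
    group
  have h6 : (Matrix.SpecialLinearGroup.toGL (n := Fin 3) (R := F3)).range ≤ φu.range := by
    refine le_trans ?_ h5
    rw [MonoidHom.range_eq_map, ← sl_perfect, _root_.commutator_def, _root_.commutator_def, Subgroup.map_commutator]
    exact Subgroup.commutator_mono le_top le_top
  exact (Subgroup.eq_of_le_of_card_ge h6 (by rw [h1, h2])).symm

/-- **the stabilizer is SL3(3)** -/
noncomputable def stabE (hc : Nat.card S = 5616) : SL(3, F3) ≃* S :=
  ((MonoidHom.ofInjective (f := Matrix.SpecialLinearGroup.toGL (n := Fin 3) (R := F3)) Matrix.SpecialLinearGroup.toGL_injective).trans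
    (MulEquiv.subgroupCongr (range_eq hc).symm)).trans (MonoidHom.ofInjective φu_inj).symm

end Cfsg.Agent.Lib.H3G23
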