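import Cfsg.Agent.Lib.SchurSylow
import Cfsg.Agent.Lib.SchurPerfect

/-!
# Lifting homomorphisms of perfect groups with trivial `r`-multiplier; sections (helper3)
-/

set_option autoImplicit false

namespace Cfsg.Agent.Lib.H3MU

open Subgroup Cfsg Cfsg.Agent.Lib.SchurSylow Cfsg.Agent.Lib.SchurPerfect Cfsg.Agent.Lib.SchurFiber

open scoped commutatorElement

universe u v w

/-- a homomorphism of a perfect group with trivial `r`-multiplier lifts through central extensions by `r`-groups -/
theorem exists_lift {H Γ : Type u} {G : Type v} [Group H] [Group Γ] [Group G] [Finite H] [Finite Γ] {r : ℕ}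
    (hp : commutator H = ⊤) (hM : PStemDvd r H 1) (σ : Γ →* G) (hs : Function.Surjective σ) (hc : σ.ker ≤ center Γ)
    (hr : IsPGroup r σ.ker) (j : H →* G) : ∃ l : H →* Γ, ∀ h, σ (l h) = j h := by
  have hp' : Group.IsPerfect H := ⟨hp⟩
  let E := fib j σ
  let π : E →* H := p1 j σ
  have hπs : Function.Surjective π := p1_surjective hs
  have hπc : π.ker ≤ center E := ker_p1_le_center hc
  let f : commutator E →* H := π.comp (commutator E).subtype
  have hperf : Group.IsPerfect (commutator E) := isPerfect_commutator hp' π hπs hπc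
  have hfs : Function.Surjective f := by
    intro h
    obtain ⟨e, rfl⟩ := hπs h
    obtain ⟨c, hc1, z, hz, rfl⟩ := exists_commutator_mul hp' π hπs e
    refine ⟨⟨c, hc1⟩, ?_⟩
    have : π z = 1 := hz
    rw [map_mul, this, mul_one]
    rfl
  have hst : IsStemExtension f := by
    refine ⟨hfs, ?_, ?_⟩
    · rintro ⟨x, hx⟩ hk
      have h1 : x ∈ center E := hπc hk
      rw [mem_center_iff]
      rintro ⟨y, hy⟩
      exact Subtype.ext (mem_center_iff.1 h1 y)
    · rw [hperf.commutator_eq_top]; exact le_top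
  have hpg : IsPGroup r f.ker := by
    rintro ⟨⟨⟨⟨h, g⟩, hhg⟩, hx⟩, hk⟩
    have h1 : h = 1 := hk
    have h2 : g ∈ σ.ker := by
      rw [MonoidHom.mem_ker, ← (mem_fib.1 hhg), h1, map_one]
    obtain ⟨k, hk2⟩ := hr ⟨g, h2⟩
    refine ⟨k, ?_⟩
    apply Subtype.ext; apply Subtype.ext; apply Subtype.ext
    apply Prod.ext
    · show h ^ r ^ k = 1
      rw [h1, one_pow]
    · show g ^ r ^ k = 1
      simpa using congrArg Subtype.val hk2
  have hcard := hM _ f hst hpg
  rw [Nat.dvd_one, Subgroup.card_eq_one] at hcard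
  let e : commutator E ≃* H := MulEquiv.ofBijective f ⟨(MonoidHom.ker_eq_bot_iff f).1 hcard, hfs⟩
  refine ⟨((p2 j σ).comp (commutator E).subtype).comp e.symm.toMonoidHom, ?_⟩
  intro h
  obtain ⟨x, rfl⟩ := e.surjective h
  have h1 : e.symm.toMonoidHom (e x) = x := e.symm_apply_apply x
  rw [MonoidHom.comp_apply, h1]
  exact (mem_fib.1 x.1.2).symm

/-- a stem extension with a section has trivial kernel -/
theorem ker_eq_bot_of_section {Γ : Type u} {G : Type v} [Group Γ] [Group G] (σ : Γ →* G) (hσ : IsStemExtension σ)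
    (s : G →* Γ) (hs : ∀ g, σ (s g) = g) : σ.ker = ⊥ := by
  have h1 : commutator Γ ≤ s.range := by
    rw [commutator_def, commutator_le]
    intro a _ b _
    have key : ∀ x : Γ, ∃ z ∈ center Γ, x = s (σ x) * z := by
      intro x
      refine ⟨(s (σ x))⁻¹ * x, hσ.2.1 ?_, by group⟩
      rw [MonoidHom.mem_ker, map_mul, map_inv, hs, inv_mul_cancel]
    obtain ⟨z, hz, ea⟩ := key a
    obtain ⟨w, hw, eb⟩ := key b
    rw [ea, eb]
    have e1 : ⁅s (σ a) * z, s (σ b) * w⁆ = ⁅s (σ a), s (σ b)⁆ := by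
      simp only [commutatorElement_def]
      have c1 := mem_center_iff.1 hz
      have c2 := mem_center_iff.1 hw
      calc s (σ a) * z * (s (σ b) * w) * (s (σ a) * z)⁻¹ * (s (σ b) * w)⁻¹
          = s (σ a) * (z * (s (σ b) * w)) * (z⁻¹ * (s (σ a))⁻¹) * (w⁻¹ * (s (σ b))⁻¹) := by group
        _ = s (σ a) * ((s (σ b) * w) * z) * (z⁻¹ * (s (σ a))⁻¹) * (w⁻¹ * (s (σ b))⁻¹) := by rw [c1 (s (σ b) * w)]
        _ = s (σ a) * s (σ b) * (w * (s (σ a))⁻¹) * (w⁻¹ * (s (σ b))⁻¹) := by group
        _ = s (σ a) * s (σ b) * ((s (σ a))⁻¹ * w) * (w⁻¹ * (s (σ b))⁻¹) := by rw [c2 (s (σ a))⁻¹]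
        _ = s (σ a) * s (σ b) * (s (σ a))⁻¹ * (s (σ b))⁻¹ := by group
    rw [e1, ← map_commutatorElement]
    exact ⟨_, rfl⟩
  rw [eq_bot_iff]
  intro z hz
  obtain ⟨g, rfl⟩ := h1 (hσ.2.2 hz)
  rw [MonoidHom.mem_ker, hs] at hz
  rw [mem_bot, hz, map_one]

/-- if an element of a perfect group... commutators of lifts of commuting subgroups, one of them perfect, vanish -/
theorem comm_of_perfect {H K Γ : Type*} {G : Type*} [Group H] [Group K] [Group Γ] [Group G] (σ : Γ →* G)
    (hc : σ.ker ≤ center Γ) (hp : commutator H = ⊤) (f : H →* Γ) (y : Γ)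
    (h : ∀ x, σ (f x) * σ y = σ y * σ (f x)) (x : H) : f x * y = y * f x := by
  have hz : ∀ g : H, f g * y * (f g)⁻¹ * y⁻¹ ∈ center Γ := by
    intro g
    apply hc
    rw [MonoidHom.mem_ker]
    simp only [map_mul, map_inv]
    rw [h g]
    group
  let φ : H →* center Γ :=
    { toFun := fun g => ⟨f g * y * (f g)⁻¹ * y⁻¹, hz g⟩
      map_one' := by ext; simp
      map_mul' := by
        intro g k
        ext
        have h1 := mem_center_iff.1 (hz k) (f g)
        show f (g * k) * y * (f (g * k))⁻¹ * y⁻¹ = f g * y * (f g)⁻¹ * y⁻¹ * (f k * y * (f k)⁻¹ * y⁻¹)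
        rw [map_mul]
        have h2 : f g * f k * y * (f g * f k)⁻¹ * y⁻¹ = (f g * (f k * y * (f k)⁻¹ * y⁻¹)) * y * (f g)⁻¹ * y⁻¹ := by group
        rw [h2, h1]
        have h4 := mem_center_iff.1 (hz k) (f g * y * (f g)⁻¹ * y⁻¹)
        rw [h4]
        group }
  have h1 : commutator H ≤ φ.ker := by
    apply SchurBasic.commutator_le_ker
    intro a b
    ext
    exact (mem_center_iff.1 (φ a).2 (φ b)).symm
  rw [hp] at h1
  have h2 := h1 (mem_top x)
  rw [MonoidHom.mem_ker] at h2
  have h3 : f x * y * (f x)⁻¹ * y⁻¹ = 1 := congrArg Subtype.val h2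
  calc f x * y = (f x * y * (f x)⁻¹ * y⁻¹) * (y * f x) := by group
    _ = y * f x := by rw [h3, one_mul]

/-- if the `r`-multiplier of `G / Z(G)` (given as a quotient `π : G → Q` with central kernel of order `n`, an `r`-group)
divides `n` then that of the perfect group `G` is trivial -/
theorem pStem_cover {G Q : Type u} [Group G] [Group Q] [Finite G] {r n : ℕ} (hp : commutator G = ⊤) (π : G →* Q)
    (hs : Function.Surjective π) (hc : π.ker ≤ center G) (hk : Nat.card π.ker = n) (hr : IsPGroup r π.ker)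
    (hQ : PStemDvd r Q n) : PStemDvd r G 1 := by
  intro Γ _ _ τ hτ hτr
  have hG : Group.IsPerfect G := ⟨hp⟩
  have hΓ : Group.IsPerfect Γ := isPerfect_of_stem hG τ hτ
  have hst : IsStemExtension (π.comp τ) := by
    refine ⟨hs.comp hτ.1, ?_, ?_⟩
    · intro x hx
      apply mem_center_of_perfect hΓ τ hτ.2.1
      intro g
      exact mem_center_iff.1 (hc hx) (τ g)
    · rw [hΓ.commutator_eq_top]; exact le_top
  have hpg : IsPGroup r (π.comp τ).ker := by
    rintro ⟨x, hx⟩
    obtain ⟨k, hk1⟩ := hr ⟨τ x, hx⟩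
    have h1 : x ^ r ^ k ∈ τ.ker := by
      rw [MonoidHom.mem_ker, map_pow]
      simpa using congrArg Subtype.val hk1
    obtain ⟨l, hl⟩ := hτr ⟨_, h1⟩
    refine ⟨k + l, ?_⟩
    apply Subtype.ext
    show x ^ r ^ (k + l) = 1
    rw [pow_add, pow_mul]
    simpa using congrArg Subtype.val hl
  have h1 := hQ _ (π.comp τ) hst hpg
  have h2 : Nat.card (π.comp τ).ker = Nat.card τ.ker * n := by
    rw [← hk]
    have h3 := card_mul_index (τ.comp (π.comp τ).ker.subtype).ker
    rw [index_ker] at h3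
    rw [← h3]
    congr 1
    · have : (τ.comp (π.comp τ).ker.subtype).ker.map (π.comp τ).ker.subtype = τ.ker := by
        rw [← MonoidHom.comap_ker τ ((π.comp τ).ker.subtype), map_comap_eq, range_subtype]
        refine inf_eq_right.2 (fun z hz => ?_)
        rw [MonoidHom.mem_ker, MonoidHom.comp_apply, MonoidHom.mem_ker.1 hz, map_one]
      have h5 := Nat.card_congr (equivMapOfInjective ((τ.comp (π.comp τ).ker.subtype).ker) _ (subtype_injective _)).toEquiv
      rw [this] at h5
      exact h5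
    · have : (τ.comp (π.comp τ).ker.subtype).range = π.ker := by
        rw [MonoidHom.range_comp, range_subtype, ← MonoidHom.comap_ker π τ, map_comap_eq_self_of_surjective hτ.1]
      rw [this]
  rw [h2] at h1
  haveI : Finite π.ker := inferInstance
  have hn : 0 < n := by rw [← hk]; exact Nat.card_pos
  exact Nat.dvd_of_mul_dvd_mul_right hn (by rw [one_mul]; exact h1)

end Cfsg.Agent.Lib.H3MU
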