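import Cfsg.Agent.Lib.H58SMf

/-!
# Small local facts for the multiplier engine: groups generated modulo commutators by elements prime to `p`,
quaternion subgroups (helper3)
-/

set_option autoImplicit false

namespace Cfsg.Agent.Lib.H3Odd

open Subgroup Cfsg.Agent.Lib.H58SM Cfsg.Agent.Lib.SchurSylow

universe u

theorem odds_top {p : ℕ} [hp : Fact p.Prime] {H : Type*} [Group H] [Finite H] (L : Subgroup H) (h1 : L ≤ odds p H)
    (h2 : ¬ p ∣ L.index) : odds p H = ⊤ := by
  set K := odds p H with hK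
  haveI hKn : K.Normal := Subgroup.Normal.of_commutator_le _ commutator_le_odds
  have h3 : ¬ p ∣ K.index := fun h => h2 (h.trans (index_dvd_of_le h1))
  rw [eq_top_iff]
  intro x _
  have h4 : x ^ K.index ∈ K := pow_index_mem K x
  obtain ⟨M, hM, h5⟩ := h4
  refine ⟨K.index * M, ?_, ?_⟩
  · intro h
    rcases (hp.out.dvd_mul).1 h with h | h
    · exact h3 h
    · exact hM h
  · rw [pow_mul]; exact h5

/-- two `p'`-elements whose product has order `p`, when `p` divides the order of `H` only once -/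
theorem odds_top_of_mul {p : ℕ} [hp : Fact p.Prime] {H : Type*} [Group H] [Finite H] (hsq : ¬ p ^ 2 ∣ Nat.card H)
    {x y : H} (hx : x ∈ odds p H) (hy : y ∈ odds p H) (h1 : (x * y) ^ p = 1) (h2 : x * y ≠ 1) : odds p H = ⊤ := by
  apply odds_top (zpowers (x * y))
  · rw [zpowers_le]; exact mul_mem hx hy
  · intro h
    apply hsq
    have h3 := card_mul_index (zpowers (x * y))
    rw [Nat.card_zpowers, orderOf_eq_prime h1 h2] at h3
    rw [← h3, pow_two]
    exact mul_dvd_mul_left p h

section quat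

variable {H : Type u} [Group H] [Finite H] {i j : H}

theorem quat_mem (hi : i ^ 4 = 1) (hj : j ^ 2 = i ^ 2) (hji : j * i = i ^ 3 * j) :
    closure {i, j} ≤ normalizer (zpowers i : Set H) := by
  rw [closure_le]
  rintro z hz
  have hi3 : i ^ 3 = i⁻¹ := by
    rw [eq_inv_iff_mul_eq_one, ← pow_succ]; exact hi
  rcases hz with rfl | rfl
  · exact le_normalizer (mem_zpowers z)
  · have hc : z * i * z⁻¹ = i⁻¹ := by rw [hji, hi3, mul_inv_cancel_right]
    have hc' : ∀ k : ℤ, z * i ^ k * z⁻¹ = i ^ (-k) := by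
      intro k
      rw [← conj_zpow, hc, zpow_neg, inv_zpow]
    rw [SetLike.mem_coe, mem_normalizer_iff]
    intro h
    constructor
    · rintro ⟨k, rfl⟩
      exact ⟨-k, (hc' k).symm⟩
    · rintro ⟨k, hk⟩
      refine ⟨-k, ?_⟩
      have h1 := hc' (-k)
      rw [neg_neg] at h1
      have hk' : i ^ k = z * h * z⁻¹ := hk
      rw [hk'] at h1
      exact mul_left_cancel (mul_right_cancel h1)

/-- a quaternion group generated by `i`, `j` has order divisible by 8 -/
theorem eight_dvd (hi : i ^ 4 = 1) (hi2 : i ^ 2 ≠ 1) (hj : j ^ 2 = i ^ 2) (hji : j * i = i ^ 3 * j)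
    (hn : j ∉ zpowers i) : 8 ∣ Nat.card (closure {i, j}) := by
  set L := closure {i, j} with hL
  have hiL : i ∈ L := subset_closure (by simp)
  have hjL : j ∈ L := subset_closure (by simp)
  have hle : zpowers i ≤ L := by rwa [zpowers_le]
  have ho : orderOf i = 4 := orderOf_eq_prime_pow (p := 2) (n := 1) (by simpa using hi2) (by simpa using hi)
  haveI hnor : ((zpowers i).subgroupOf L).Normal := by
    rw [normal_subgroupOf_iff_le_normalizer hle]
    exact quat_mem hi hj hji
  have h1 := card_mul_index ((zpowers i).subgroupOf L)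
  have h2 : Nat.card ((zpowers i).subgroupOf L) = 4 := by
    rw [Nat.card_congr (subgroupOfEquivOfLe hle).toEquiv, Nat.card_zpowers, ho]
  have h3 : 2 ∣ ((zpowers i).subgroupOf L).index := by
    have h4 : orderOf (QuotientGroup.mk' ((zpowers i).subgroupOf L) ⟨j, hjL⟩) = 2 := by
      apply orderOf_eq_prime
      · rw [← map_pow]
        rw [QuotientGroup.mk'_apply, QuotientGroup.eq_one_iff, mem_subgroupOf]
        show j ^ 2 ∈ zpowers i
        rw [hj]
        exact pow_mem (mem_zpowers i) 2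
      · intro h
        rw [QuotientGroup.mk'_apply, QuotientGroup.eq_one_iff, mem_subgroupOf] at h
        exact hn h
    rw [← h4]
    exact orderOf_dvd_natCard _
  rw [← h1, h2]
  exact Nat.mul_dvd_mul_left 4 h3

/-- its multiplier is trivial -/
theorem quat_stem (hi : i ^ 4 = 1) (hi2 : i ^ 2 ≠ 1) (hj : j ^ 2 = i ^ 2) (hji : j * i = i ^ 3 * j) :
    StemDvd (closure {i, j} : Subgroup H) 1 := by
  set L := closure {i, j} with hL
  have hiL : i ∈ L := subset_closure (by simp)
  have hjL : j ∈ L := subset_closure (by simp)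
  have ho : orderOf i = 4 := orderOf_eq_prime_pow (p := 2) (n := 1) (by simpa using hi2) (by simpa using hi)
  have hgen : closure {(⟨i, hiL⟩ : L), ⟨j, hjL⟩} = ⊤ := by
    have h1 : (closure {(⟨i, hiL⟩ : L), ⟨j, hjL⟩}).map L.subtype = L := by
      rw [MonoidHom.map_closure]
      rw [Set.image_pair]
      rfl
    have h2 : (⊤ : Subgroup L).map L.subtype = L := by
      rw [← MonoidHom.range_eq_map, range_subtype]
    exact map_injective L.subtype_injective (h1.trans h2.symm)
  have hi3 : i ^ 3 = i⁻¹ := by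
    rw [eq_inv_iff_mul_eq_one, ← pow_succ]; exact hi
  have h := stemDvd_metacyclic (Q := L) ⟨i, hiL⟩ ⟨j, hjL⟩ hgen (-1) (by
    apply Subtype.ext
    show j * i * j⁻¹ = i ^ (-1 : ℤ)
    rw [hji, hi3, mul_inv_cancel_right, zpow_neg_one]) 2 ⟨2, by
    apply Subtype.ext
    show j ^ (2 : ℤ) = i ^ 2
    rw [← hj]; norm_cast⟩
  have h3 : orderOf ((⟨i, hiL⟩ : L) ^ ((-1 : ℤ) - 1)) = 2 := by
    rw [← orderOf_submonoid]
    show orderOf (i ^ ((-1 : ℤ) - 1)) = 2
    have : i ^ ((-1 : ℤ) - 1) = (i ^ 2)⁻¹ := by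
      rw [show ((-1 : ℤ) - 1) = -((2 : ℕ) : ℤ) by norm_num, zpow_neg, zpow_natCast]
    rw [this, orderOf_inv]
    apply orderOf_eq_prime
    · rw [← pow_mul]; exact hi
    · exact hi2
  rw [h3] at h
  exact h

end quat

end Cfsg.Agent.Lib.H3Odd
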