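import Cfsg.Agent.Lib.H3U52C
import Cfsg.Agent.Lib.H3Odd
import Cfsg.Agent.Lib.H92StemB

/-!
# `SU(5,2)` has no multiplier at 2 and 3 (helper3)
-/

set_option autoImplicit false

namespace Cfsg.Agent.Lib.H3U52

open Matrix Subgroup Cfsg Cfsg.Agent.Lib Cfsg.Agent.Lib.H58SM Cfsg.Agent.Lib.H3Code Cfsg.Agent.Lib.H3PU Cfsg.Agent.Lib.H3Prj
open Cfsg.Agent.Lib.H3F4 Cfsg.Agent.Lib.K4 Cfsg.Agent.Lib.SchurSylow Cfsg.Agent.Lib.ClUnitary Cfsg.Agent.Lib.H3Odd
open scoped LinearAlgebra.Projectivization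

theorem good : PD.Good D C := ⟨hF4, ok, by decide, by decide, m_ok, v_ok, f_ok, b_ok, fr_ok, w_ok, iso_ok, t_ok⟩

/-- the group -/
abbrev G := PU (D.n + 1) K4 D.q

theorem act176 : Act D176.n D176.k (PD.g D C) (PD.e D C) D176.T D176.pi D176.pq :=
  PD.act good D176 rfl rfl tab1_ok tab2_ok tab3_ok eq_ok

theorem gen : closure {z | ∃ i < 2, z = PD.g D C i} = ⊤ := PD.gen' good D176 rfl rfl act176 tw_ok

theorem rel_of {J : ℕ} {W : ℕ → List ℕ} (hW : ∀ j < J, ∀ l ∈ W j, l < 2 * 2) (h : relB J W = true) :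
    ∀ j < J, ev (PD.g D C) (W j) = 1 := by
  intro j hj
  apply act176.ev_eq_one (PD.faith' good) (hW j hj)
  intro a ha
  have h1 := alln_iff.1 h j hj
  rw [frc_eq] at h1
  rw [← Dat.ptf_eq]
  exact Sol.beq_iff.1 (alln_iff.1 h1 a ha)

theorem cardG : Nat.card G = 13685760 := by
  show Nat.card (PU 5 K4 2) = 13685760
  rw [Nat.card_congr (H3Prj.equivPSU (n := 5) (F := K4) (q := 2) hF4 (by norm_num)).toEquiv]
  have h := card_PSU (n := 5) hF4 (by norm_num)
  have h2 : 2 ^ (5 * (5 - 1) / 2) * ∏ i ∈ Finset.range 5, (if Even i then 2 ^ (i + 1) + 1 else 2 ^ (i + 1) - 1) =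
      Nat.gcd 5 (2 + 1) * ((2 + 1) * 13685760) := by
    rw [Finset.prod_range_succ, Finset.prod_range_succ, Finset.prod_range_succ, Finset.prod_range_succ, Finset.prod_range_one]
    decide
  rw [h2] at h
  exact Nat.eq_of_mul_eq_mul_left (by norm_num) (Nat.eq_of_mul_eq_mul_left (by norm_num) h)

/-- `SU(5,2)` is `PSU(5,2)` -/
noncomputable def suE : SU (D.n + 1) K4 D.q ≃* G :=
  MulEquiv.ofBijective (tp (D.n + 1) K4 D.q).rangeRestrict (by
    refine ⟨?_, (tp (D.n + 1) K4 D.q).rangeRestrict_surjective⟩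
    rw [← MonoidHom.ker_eq_bot_iff, MonoidHom.ker_rangeRestrict, ker_tp good.hF (by decide)]
    have h := card_center_SU (n := 5) hF4 (by norm_num)
    exact card_eq_one.1 h)

theorem suE_A (i : ℕ) : suE (PD.A D C i) = PD.g D C i := rfl

/-! ### pairs of points, `p = 2` -/

/-- the pairs -/
noncomputable def e2 (a : ℕ) : ℙ K4 (Fin (D.n + 1) → K4) × ℙ K4 (Fin (D.n + 1) → K4) := (PD.e D C (pa a), PD.e D C (pb a))

theorem pa_lt {a : ℕ} (ha : a < 7040) : pa a < 176 ∧ pb a < 176 := by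
  have h := pair_ok
  unfold pairB at h
  rw [Bool.and_eq_true] at h
  have h1 := alln_iff.1 h.1 a ha
  rw [Bool.and_eq_true, Sol.blt_iff, Sol.blt_iff] at h1
  exact h1

theorem act2 : Act U522.Q.toDat.n U522.Q.toDat.k (PD.g D C) e2 U522.Q.toDat.T U522.Q.toDat.pi U522.Q.toDat.pq := by
  have h := pair_ok
  unfold pairB at h
  rw [Bool.and_eq_true, Bool.and_eq_true, Bool.and_eq_true, Bool.and_eq_true] at h
  obtain ⟨-, h2, h3, h4, h5⟩ := h
  refine Dat.act_of (by decide) U522.tab1_ok U522.tab2_ok U522.tab3_ok ?_ ?_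
  · intro i hi a ha
    obtain ⟨p1, p2⟩ := pa_lt ha
    have h6 := alln_iff.1 (alln_iff.1 h2 i hi) a ha
    rw [frc_eq, Bool.and_eq_true, Sol.beq_iff, Sol.beq_iff] at h6
    show (PD.g D C i • PD.e D C (pa a), PD.g D C i • PD.e D C (pb a)) = _
    rw [act176.fwd i hi _ p1, act176.fwd i hi _ p2]
    exact Prod.ext (congrArg (PD.e D C) h6.1) (congrArg (PD.e D C) h6.2)
  · intro a ha hea
    obtain ⟨p1, p2⟩ := pa_lt ha
    have h6 := congrArg Prod.fst hea
    have h7 := congrArg Prod.snd hea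
    have h8 := act176.inj p1 (pa_lt (by decide : 0 < 7040)).1 h6
    have h9 := act176.inj p2 (pa_lt (by decide : 0 < 7040)).2 h7
    rw [Sol.beq_iff.1 h3] at h8
    rw [Sol.beq_iff.1 h4] at h9
    have h10 := alln_iff.1 h5 a ha
    rw [h8, h9, Nat.beq_refl, Nat.beq_refl] at h10
    exact Sol.beq_iff.1 (by simpa using h10)

/-! ### explicit elements -/

theorem el_ok' {e : ℕ} (he : e < 18) : C.mlt (D.n + 1) (EM e) = true ∧ C.unOk (D.n + 1) D.q (EM e) = true ∧
    Nat.beq (C.cdet (D.n + 1) (EM e)) 1 = true := by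
  have h := alln_iff.1 el_ok e he
  rw [Bool.and_eq_true, Bool.and_eq_true] at h
  exact h

/-- the explicit elements -/
noncomputable def El (e : ℕ) : SU (D.n + 1) K4 D.q :=
  open Classical in if h : e < 18 then FC.su (n := D.n + 1) (q := D.q) good.hF ok (el_ok' h).1 (el_ok' h).2.1 (el_ok' h).2.2 else 1

theorem El_mat {e : ℕ} (he : e < 18) : (El e).1.1 = C.mat (D.n + 1) (EM e) := by
  unfold El
  rw [dif_pos he]
  rfl

theorem El_mul {a b c : ℕ} (h : (a, b, c) ∈ trip) (ha : a < 18) (hb : b < 18) (hc : c < 18) : El a * El b = El c := by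
  apply Subtype.ext
  apply Subtype.ext
  show (El a).1.1 * (El b).1.1 = (El c).1.1
  rw [El_mat ha, El_mat hb, El_mat hc]
  have h1 := trip_ok
  unfold tripB at h1
  rw [List.all_eq_true] at h1
  have h2 := h1 _ h
  have la := FC.mlt_iff.1 (el_ok' ha).1
  have lb := FC.mlt_iff.1 (el_ok' hb).1
  ext r s
  rw [Matrix.mul_apply]
  have h3 := Sol.beq_iff.1 (alln_iff.1 (alln_iff.1 h2 r r.2) s s.2)
  have h4 := (FC.dot_spec (C := C) ok (u := EM a r) (v := fun k => EM b k s) (n := D.n + 1) (la r r.2) fun k hk => lb k hk s s.2).2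
  show ∑ k : Fin (D.n + 1), C.dec (EM a r k) * C.dec (EM b k s) = C.dec (EM c r s)
  rw [← h4]
  exact congrArg _ h3

theorem id_ok : alln (fun r => alln (fun s => Nat.beq (EM 16 r s) (cond (Nat.beq r s) 1 0)) 5) 5 = true := by decide +kernel

theorem El_one : El 16 = 1 := by
  apply Subtype.ext
  apply Subtype.ext
  rw [El_mat (by decide)]
  show C.mat (D.n + 1) (EM 16) = (1 : Matrix (Fin (D.n + 1)) (Fin (D.n + 1)) K4)
  ext r s
  have h := Sol.beq_iff.1 (alln_iff.1 (alln_iff.1 id_ok r r.2) s s.2)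
  show C.dec (EM 16 r s) = _
  rw [h, Matrix.one_apply]
  by_cases hrs : r = s
  · subst hrs
    rw [Nat.beq_refl, if_pos rfl]
    exact ok.dec_one
  · have : Nat.beq (r : ℕ) (s : ℕ) = false := beq_ne (fun hh => hrs (Fin.ext hh))
    rw [this, if_neg hrs]
    exact ok.dec_zero

theorem El_ne {a b : ℕ} (ha : a < 18) (hb : b < 18) (r s : Fin (D.n + 1)) (h : C.dec (EM a r s) ≠ C.dec (EM b r s)) :
    El a ≠ El b := by
  intro hh
  apply h
  have h1 : (El a).1.1 r s = (El b).1.1 r s := by rw [hh]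
  rw [El_mat ha, El_mat hb] at h1
  exact h1

/-! ### the stabilizer of the base pair -/

theorem e2_zero : e2 0 = (PD.e D C 0, PD.e D C i1) := by
  have h := pair_ok
  unfold pairB at h
  rw [Bool.and_eq_true, Bool.and_eq_true, Bool.and_eq_true, Bool.and_eq_true] at h
  obtain ⟨-, h2, h3, h4, h5⟩ := h
  unfold e2
  rw [Sol.beq_iff.1 h3, Sol.beq_iff.1 h4]

theorem El_fix {e : ℕ} (he : e < 8) (he2 : 2 ≤ e) : cl (El e) ∈ MulAction.stabilizer G (e2 0) := by
  have h := alln_iff.1 fix_ok e he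
  rw [Bool.or_eq_true] at h
  rcases h with h | h
  · exact absurd (Sol.blt_iff.1 h) (by omega)
  rw [frc_eq, frc_eq, Bool.and_eq_true, Bool.and_eq_true, Bool.and_eq_true, Sol.blt_iff, Sol.blt_iff] at h
  obtain ⟨h1, h2, h3, h4⟩ := h
  rw [MulAction.mem_stabilizer_iff, e2_zero]
  have v0 := PD.v_spec good.ok good.v (D := D) (a := 0) (by decide)
  have v1 := PD.v_spec good.ok good.v (D := D) (a := i1) (by decide)
  show (cl (El e) • PD.e D C 0, cl (El e) • PD.e D C i1) = _
  refine Prod.ext ?_ ?_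
  · show cl (El e) • PD.e D C 0 = PD.e D C 0
    rw [PD.e_eq good.ok good.v (D := D) (a := 0) (by decide)]
    refine tp_mk _ _ _ _ _ (C.dec (ES.getD (Nat.mul 2 e) 0)) ?_
    rw [El_mat (by omega)]
    exact FC.mv_spec ok (el_ok' (by omega)).1 v0.1 v0.1 h1 h3
  · show cl (El e) • PD.e D C i1 = PD.e D C i1
    rw [PD.e_eq good.ok good.v (D := D) (a := i1) (by decide)]
    refine tp_mk _ _ _ _ _ (C.dec (ES.getD (Nat.succ (Nat.mul 2 e)) 0)) ?_
    rw [El_mat (by omega)]
    exact FC.mv_spec ok (el_ok' (by omega)).1 v1.1 v1.1 h2 h4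

/-- elements of the stabilizer -/
noncomputable def Fx (e : ℕ) (he : e < 8) (he2 : 2 ≤ e) : MulAction.stabilizer G (e2 0) := ⟨cl (El e), El_fix he he2⟩

theorem cl_inj {A B : SU (D.n + 1) K4 D.q} (h : cl A = cl B) : A = B := suE.injective h

theorem card_stab2 : Nat.card (MulAction.stabilizer G (e2 0)) = 1944 := by
  have h := act2.card_stabilizer gen
  rw [cardG] at h
  have h2 : 7040 * Nat.card (MulAction.stabilizer G (e2 0)) = 7040 * 1944 := h
  exact Nat.eq_of_mul_eq_mul_left (by norm_num) h2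

theorem third {a b : ℕ} (h1 : (a, a, b) ∈ trip) (h2 : (b, a, 16) ∈ trip) (ha : a < 18) (hb : b < 18) : El a ^ 3 = 1 := by
  rw [pow_succ, pow_two, El_mul h1 ha ha hb, El_mul h2 hb ha (by decide), El_one]

theorem stab2_facts : PStemDvd 2 (MulAction.stabilizer G (e2 0)) 1 ∧ ¬ 2 ∣ (commutator (MulAction.stabilizer G (e2 0))).index := by
  haveI : Fact (Nat.Prime 2) := ⟨Nat.prime_two⟩
  set i := Fx 6 (by decide) (by decide) with hi
  set j := Fx 7 (by decide) (by decide) with hj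
  have e14 : El 6 ^ 2 = El 14 := by rw [pow_two]; exact El_mul (by decide) (by decide) (by decide) (by decide)
  have hi4 : i ^ 4 = 1 := by
    apply Subtype.ext
    show (cl (El 6)) ^ 4 = 1
    have : El 6 ^ 4 = 1 := by
      rw [show (4 : ℕ) = 2 * 2 from rfl, pow_mul, e14, pow_two, El_mul (c := 16) (by decide) (by decide) (by decide) (by decide), El_one]
    show (suE (El 6)) ^ 4 = 1
    rw [← map_pow, this, map_one]
  have hi2 : i ^ 2 ≠ 1 := by
    intro h
    have h1 : (suE (El 6)) ^ 2 = 1 := congrArg Subtype.val h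
    rw [← map_pow, e14] at h1
    have h2 : El 14 = 1 := suE.injective (h1.trans (map_one suE).symm)
    rw [← El_one] at h2
    exact El_ne (by decide) (by decide) 3 3 (by decide +kernel) h2
  have hj2 : j ^ 2 = i ^ 2 := by
    apply Subtype.ext
    show (suE (El 7)) ^ 2 = (suE (El 6)) ^ 2
    rw [← map_pow, ← map_pow, e14, pow_two, El_mul (c := 14) (by decide) (by decide) (by decide) (by decide)]
  have hji : j * i = i ^ 3 * j := by
    apply Subtype.ext
    show (suE (El 7)) * (suE (El 6)) = (suE (El 6)) ^ 3 * suE (El 7)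
    rw [← map_mul, ← map_pow, ← map_mul, El_mul (c := 17) (by decide) (by decide) (by decide) (by decide)]
    have h1 : El 6 ^ 3 = El 15 := by
      rw [pow_succ, e14, El_mul (c := 15) (by decide) (by decide) (by decide) (by decide)]
    rw [h1, El_mul (c := 17) (by decide) (by decide) (by decide) (by decide)]
  have hn : j ∉ zpowers i := by
    classical
    intro hmem
    have ho : orderOf i = 4 := orderOf_eq_prime_pow (p := 2) (n := 1) (by simpa using hi2) (by simpa using hi4)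
    rw [mem_zpowers_iff_mem_range_orderOf, ho, Finset.mem_image] at hmem
    obtain ⟨k, hk, hkj⟩ := hmem
    rw [Finset.mem_range] at hk
    have h1 : (suE (El 6)) ^ k = suE (El 7) := congrArg Subtype.val hkj
    rw [← map_pow] at h1
    have h2 : El 6 ^ k = El 7 := suE.injective h1
    interval_cases k
    · rw [pow_zero, ← El_one] at h2
      exact El_ne (by decide) (by decide) 2 3 (by decide +kernel) h2
    · rw [pow_one] at h2
      exact El_ne (by decide) (by decide) 2 3 (by decide +kernel) h2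
    · rw [e14] at h2
      exact El_ne (by decide) (by decide) 2 3 (by decide +kernel) h2
    · rw [pow_succ, e14, El_mul (c := 15) (by decide) (by decide) (by decide) (by decide)] at h2
      exact El_ne (by decide) (by decide) 2 3 (by decide +kernel) h2
  have h8 := eight_dvd hi4 hi2 hj2 hji hn
  set L := closure {i, j} with hL
  have hidx : ¬ 2 ∣ L.index := by
    intro h
    have h1 := card_mul_index L
    rw [card_stab2] at h1
    have h2 : 8 * 2 ∣ 1944 := by rw [← h1]; exact mul_dvd_mul h8 h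
    revert h2; decide
  constructor
  · exact PStemDvd.of_index (H := L) hidx ((quat_stem hi4 hi2 hj2 hji).pStemDvd 2)
  · apply not_dvd_of_odds
    apply odds_top L ?_ hidx
    have hodd : ∀ (e : ℕ) (he : e < 8) (he2 : 2 ≤ e), El e ^ 3 = 1 → Fx e he he2 ∈ odds 2 (MulAction.stabilizer G (e2 0)) := by
      intro e he he2 h3
      refine mem_odds_of_pow (N := 3) (by norm_num) ?_
      apply Subtype.ext
      show (suE (El e)) ^ 3 = 1
      rw [← map_pow, h3, map_one]
    rw [hL, closure_le]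
    rintro z hz
    rcases hz with rfl | rfl
    · have h1 : i = Fx 2 (by decide) (by decide) * Fx 3 (by decide) (by decide) := by
        apply Subtype.ext
        show suE (El 6) = suE (El 2) * suE (El 3)
        rw [← map_mul, El_mul (c := 6) (by decide) (by decide) (by decide) (by decide)]
      rw [h1]
      exact mul_mem (hodd 2 _ _ (third (b := 10) (by decide) (by decide) (by decide) (by decide)))
        (hodd 3 _ _ (third (b := 11) (by decide) (by decide) (by decide) (by decide)))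
    · have h1 : j = Fx 4 (by decide) (by decide) * Fx 5 (by decide) (by decide) := by
        apply Subtype.ext
        show suE (El 7) = suE (El 4) * suE (El 5)
        rw [← map_mul, El_mul (c := 7) (by decide) (by decide) (by decide) (by decide)]
      rw [h1]
      exact mul_mem (hodd 4 _ _ (third (b := 12) (by decide) (by decide) (by decide) (by decide)))
        (hodd 5 _ _ (third (b := 13) (by decide) (by decide) (by decide) (by decide)))

theorem rel2 : ∀ j < U522.Q.toDat.J, ev (PD.g D C) (U522.Q.toDat.W j) = 1 := rel_of (Dat.wOk_iff U522.w_ok) rel2_ok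
theorem rel3 : ∀ j < U523.Q.toDat.J, ev (PD.g D C) (U523.Q.toDat.W j) = 1 := rel_of (Dat.wOk_iff U523.w_ok) rel3_ok

theorem two : PStemDvd 2 G 1 :=
  pStemDvd_of_checks (s := 1) (q := 1) (N := 1) U522.Q.toDat act2 gen stab2_facts.1 stab2_facts.2
    U522.w_ok rel2 U522.nr U522.nr_ok U522.zl_ok rfl rfl (by decide) U522.chk_ok U522.gen_ok U522.par_ok
    (by intro r hr; cases hr) rfl

theorem two' : PStemDvd 2 (SU 5 K4 2) 1 := two.congr suE.symm

/-! ### bivectors, `p = 3` -/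

/-- matrices with the action `B ↦ A B Aᵀ` -/
@[ext] structure Biv where
  m : Matrix (Fin (D.n + 1)) (Fin (D.n + 1)) K4

instance : MulAction (SU (D.n + 1) K4 D.q) Biv where
  smul A B := ⟨A.1.1 * B.m * A.1.1ᵀ⟩
  one_smul B := by
    apply Biv.ext
    show (1 : Matrix (Fin (D.n + 1)) (Fin (D.n + 1)) K4) * B.m * (1 : Matrix (Fin (D.n + 1)) (Fin (D.n + 1)) K4)ᵀ = B.m
    rw [one_mul, transpose_one, mul_one]
  mul_smul A A' B := by
    apply Biv.ext
    show (A.1.1 * A'.1.1) * B.m * (A.1.1 * A'.1.1)ᵀ = A.1.1 * (A'.1.1 * B.m * A'.1.1ᵀ) * A.1.1ᵀ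
    rw [transpose_mul]
    simp only [Matrix.mul_assoc]

/-- decomposable bivectors -/
def wd (u v : Fin (D.n + 1) → K4) : Biv := ⟨vecMulVec u v + vecMulVec v u⟩

theorem smul_wd (A : SU (D.n + 1) K4 D.q) (u v : Fin (D.n + 1) → K4) : A • wd u v = wd (A.1.1 *ᵥ u) (A.1.1 *ᵥ v) := by
  apply Biv.ext
  show A.1.1 * (vecMulVec u v + vecMulVec v u) * A.1.1ᵀ = vecMulVec (A.1.1 *ᵥ u) (A.1.1 *ᵥ v) + vecMulVec (A.1.1 *ᵥ v) (A.1.1 *ᵥ u)
  rw [Matrix.mul_add, Matrix.add_mul, mul_vecMulVec, mul_vecMulVec, vecMulVec_mul, vecMulVec_mul, vecMul_transpose,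
    vecMul_transpose]

theorem wd_lc {s t s' t' : K4} (h : s * t' + t * s' = 1) (u v : Fin (D.n + 1) → K4) :
    wd (s • u + t • v) (s' • u + t' • v) = wd u v := by
  have h2 : (2 : K4) = 0 := by decide
  apply Biv.ext
  show (vecMulVec (s • u + t • v) (s' • u + t' • v) + vecMulVec (s' • u + t' • v) (s • u + t • v) : Matrix _ _ K4) =
    vecMulVec u v + vecMulVec v u
  ext i j
  simp only [Matrix.add_apply, vecMulVec_apply, Pi.add_apply, Pi.smul_apply, smul_eq_mul]
  linear_combination (u i * v j + v i * u j) * h + (s * s' * u i * u j + t * t' * v i * v j) * h2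

/-- the points -/
noncomputable def e3 (a : ℕ) : Biv := wd (C.vec (D.n + 1) (bu a)) (C.vec (D.n + 1) (bv a))

theorem dec_inj : ∀ x < 4, ∀ y < 4, H3F4.dec x = H3F4.dec y → x = y := by decide +kernel

theorem b_lt {a : ℕ} (ha : a < 891) : C.vlt (D.n + 1) (bu a) = true ∧ C.vlt (D.n + 1) (bv a) = true := by
  have h := biv_ok
  unfold bivB at h
  rw [Bool.and_eq_true] at h
  have h1 := alln_iff.1 h.1 a ha
  rw [Bool.and_eq_true] at h1
  exact h1

theorem mv_lc {M : ℕ → ℕ → ℕ} (hM : C.mlt (D.n + 1) M = true) {u x y : ℕ → ℕ} (hu : C.vlt (D.n + 1) u = true)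
    (hx : C.vlt (D.n + 1) x = true) (hy : C.vlt (D.n + 1) y = true) {s t : ℕ} (hs : s < 4) (ht : t < 4)
    (h : ∀ r < D.n + 1, C.dot (M r) u (D.n + 1) = lc s t (x r) (y r)) :
    C.mat (D.n + 1) M *ᵥ C.vec (D.n + 1) u = C.dec s • C.vec (D.n + 1) x + C.dec t • C.vec (D.n + 1) y := by
  rw [FC.mlt_iff] at hM
  rw [FC.vlt_iff] at hu hx hy
  funext r
  have h2 := (FC.dot_spec ok (hM r r.2) hu).2
  rw [Matrix.mulVec, dotProduct]
  show ∑ i : Fin (D.n + 1), C.dec (M r i) * C.dec (u i) = _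
  rw [← h2, h r r.2]
  have hx' := hx r r.2
  have hy' := hy r r.2
  unfold lc
  rw [ok.dec_ad _ (ok.mu_lt _ hs _ hx') _ (ok.mu_lt _ ht _ hy'), ok.dec_mu _ hs _ hx', ok.dec_mu _ ht _ hy']
  rfl

theorem wd_dec {a : ℕ} (ha : a < 891) (r s : Fin (D.n + 1)) : (e3 a).m r s =
    C.dec (C.ad (C.mu (bu a r) (bv a s)) (C.mu (bv a r) (bu a s))) := by
  have h1 := FC.vlt_iff.1 (b_lt ha).1
  have h2 := FC.vlt_iff.1 (b_lt ha).2
  rw [ok.dec_ad _ (ok.mu_lt _ (h1 r r.2) _ (h2 s s.2)) _ (ok.mu_lt _ (h2 r r.2) _ (h1 s s.2)),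
    ok.dec_mu _ (h1 r r.2) _ (h2 s s.2), ok.dec_mu _ (h2 r r.2) _ (h1 s s.2)]
  rfl

theorem act3 : Act U523.Q.toDat.n U523.Q.toDat.k (PD.A D C) e3 U523.Q.toDat.T U523.Q.toDat.pi U523.Q.toDat.pq := by
  have h := biv_ok
  unfold bivB at h
  rw [Bool.and_eq_true, Bool.and_eq_true] at h
  obtain ⟨-, h2, h3⟩ := h
  have htab : ∀ l < 2 * U523.Q.toDat.k, ∀ a < U523.Q.toDat.n, U523.Q.toDat.T l a < U523.Q.toDat.n := fun l hl a ha =>
    Sol.blt_iff.1 (alln_iff.1 (alln_iff.1 U523.tab1_ok l hl) a ha)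
  refine Dat.act_of (by decide) U523.tab1_ok U523.tab2_ok U523.tab3_ok ?_ ?_
  · intro i hi a ha
    have ha' : a < 891 := ha
    have hi' : i < 2 := hi
    have hb : U523.Q.toDat.T (Nat.mul 2 i) a < 891 := htab (2 * i) (by show 2 * i < 2 * 2; omega) a ha
    have h4 := alln_iff.1 (alln_iff.1 h2 i hi) a ha
    simp only [frc_eq, Bool.and_eq_true] at h4
    obtain ⟨c1, c2, c3, c4, c5, c6⟩ := h4
    rw [Sol.blt_iff] at c1 c2 c3 c4
    have hm := PD.m_lt good.m (D := D) (i := i) (by show i < 3; omega)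
    show PD.A D C i • wd _ _ = _
    rw [smul_wd, PD.A_eq good.hF good.ok good.m (D := D) (i := i) (by show i < 3; omega)]
    rw [mv_lc hm (b_lt ha').1 (b_lt hb).1 (b_lt hb).2 c1 c2 (fun r hr => by
        have := alln_iff.1 c6 r hr
        rw [Bool.and_eq_true] at this
        exact Sol.beq_iff.1 this.1),
      mv_lc hm (b_lt ha').2 (b_lt hb).1 (b_lt hb).2 c3 c4 (fun r hr => by
        have := alln_iff.1 c6 r hr
        rw [Bool.and_eq_true] at this
        exact Sol.beq_iff.1 this.2)]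
    apply wd_lc
    rw [← ok.dec_mu _ c1 _ c4, ← ok.dec_mu _ c2 _ c3, ← ok.dec_ad _ (ok.mu_lt _ c1 _ c4) _ (ok.mu_lt _ c2 _ c3),
      Sol.beq_iff.1 c5]
    exact ok.dec_one
  · intro a ha hea
    have ha' : a < 891 := ha
    have h4 := alln_iff.1 h3 a ha
    rw [Bool.or_eq_true] at h4
    rcases h4 with h4 | h4
    · exact Sol.beq_iff.1 h4
    · exfalso
      rw [Bool.not_eq_true', ← Bool.not_eq_true] at h4
      apply h4
      rw [alln_iff]
      intro r hr
      rw [alln_iff]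
      intro s hs
      rw [Sol.beq_iff]
      have h5 := wd_dec ha' ⟨r, hr⟩ ⟨s, hs⟩
      rw [hea, wd_dec (by decide) ⟨r, hr⟩ ⟨s, hs⟩] at h5
      have l1 := FC.vlt_iff.1 (b_lt ha').1
      have l2 := FC.vlt_iff.1 (b_lt ha').2
      have m1 := FC.vlt_iff.1 (b_lt (by decide : 0 < 891)).1
      have m2 := FC.vlt_iff.1 (b_lt (by decide : 0 < 891)).2
      exact (dec_inj _ (ok.ad_lt _ (ok.mu_lt _ (m1 r hr) _ (m2 s hs)) _ (ok.mu_lt _ (m2 r hr) _ (m1 s hs)))
        _ (ok.ad_lt _ (ok.mu_lt _ (l1 r hr) _ (l2 s hs)) _ (ok.mu_lt _ (l2 r hr) _ (l1 s hs))) h5).symm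

theorem gen_su : closure {z | ∃ i < 2, z = PD.A D C i} = ⊤ := by
  have h1 : (closure {z | ∃ i < 2, z = PD.A D C i}).map suE.toMonoidHom = ⊤ := by
    rw [eq_top_iff, ← gen, closure_le]
    rintro _ ⟨i, hi, rfl⟩
    exact ⟨PD.A D C i, subset_closure ⟨i, hi, rfl⟩, rfl⟩
  rw [eq_top_iff]
  intro x _
  have h2 : suE x ∈ (closure {z | ∃ i < 2, z = PD.A D C i}).map suE.toMonoidHom := by rw [h1]; trivial
  obtain ⟨y, hy, hyx⟩ := h2
  rwa [← suE.injective hyx]

theorem cardSU : Nat.card (SU (D.n + 1) K4 D.q) = 13685760 := by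
  rw [Nat.card_congr suE.toEquiv, cardG]

theorem rel3' : ∀ j < U523.Q.toDat.J, ev (PD.A D C) (U523.Q.toDat.W j) = 1 := by
  intro j hj
  apply suE.injective
  rw [map_one]
  have h := map_ev suE.toMonoidHom (PD.A D C) (U523.Q.toDat.W j)
  exact h.trans (rel3 j hj)

theorem El_fix3 {e : ℕ} (he : e < 2) : El e ∈ MulAction.stabilizer (SU (D.n + 1) K4 D.q) (e3 0) := by
  have h4 := alln_iff.1 fixC_ok e he
  simp only [frc_eq, Bool.and_eq_true] at h4
  obtain ⟨c1, c2, c3, c4, c5, c6⟩ := h4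
  rw [Sol.blt_iff] at c1 c2 c3 c4
  have hm := (el_ok' (e := e) (by omega)).1
  have m := b_lt (by decide : 0 < 891)
  rw [MulAction.mem_stabilizer_iff]
  show El e • wd _ _ = wd _ _
  rw [smul_wd, El_mat (by omega)]
  rw [mv_lc hm m.1 m.1 m.2 c1 c2 (fun r hr => by
        have := alln_iff.1 c6 r hr
        rw [Bool.and_eq_true] at this
        exact Sol.beq_iff.1 this.1),
      mv_lc hm m.2 m.1 m.2 c3 c4 (fun r hr => by
        have := alln_iff.1 c6 r hr
        rw [Bool.and_eq_true] at this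
        exact Sol.beq_iff.1 this.2)]
  apply wd_lc
  rw [← ok.dec_mu _ c1 _ c4, ← ok.dec_mu _ c2 _ c3, ← ok.dec_ad _ (ok.mu_lt _ c1 _ c4) _ (ok.mu_lt _ c2 _ c3),
    Sol.beq_iff.1 c5]
  exact ok.dec_one

theorem card_stab3 : Nat.card (MulAction.stabilizer (SU (D.n + 1) K4 D.q) (e3 0)) = 15360 := by
  have h := act3.card_stabilizer gen_su
  rw [cardSU] at h
  have h2 : 891 * Nat.card (MulAction.stabilizer (SU (D.n + 1) K4 D.q) (e3 0)) = 891 * 15360 := h
  exact Nat.eq_of_mul_eq_mul_left (by norm_num) h2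

theorem stab3_odds : ¬ 3 ∣ (commutator (MulAction.stabilizer (SU (D.n + 1) K4 D.q) (e3 0))).index := by
  haveI : Fact (Nat.Prime 3) := ⟨Nat.prime_three⟩
  apply not_dvd_of_odds
  set S := MulAction.stabilizer (SU (D.n + 1) K4 D.q) (e3 0) with hS
  have hm : ∀ (e : ℕ) (he : e < 2), El e * El e = El 16 → (⟨El e, El_fix3 he⟩ : S) ∈ odds 3 S := by
    intro e he h3
    refine mem_odds_of_pow (N := 2) (by norm_num) ?_
    apply Subtype.ext
    show (El e) ^ 2 = 1
    rw [pow_two, h3, El_one]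
  refine odds_top_of_mul (x := (⟨El 0, El_fix3 (by decide)⟩ : S)) (y := (⟨El 1, El_fix3 (by decide)⟩ : S)) ?_
    (hm 0 (by decide) (El_mul (by decide) (by decide) (by decide) (by decide)))
    (hm 1 (by decide) (El_mul (by decide) (by decide) (by decide) (by decide))) ?_ ?_
  · rw [hS, card_stab3]; decide
  · apply Subtype.ext
    show (El 0 * El 1) ^ 3 = 1
    rw [El_mul (c := 8) (by decide) (by decide) (by decide) (by decide), pow_succ, pow_two,
      El_mul (c := 9) (by decide) (by decide) (by decide) (by decide), El_mul (c := 16) (by decide) (by decide) (by decide) (by decide), El_one]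
  · intro h
    have h1 : El 0 * El 1 = 1 := congrArg Subtype.val h
    rw [El_mul (c := 8) (by decide) (by decide) (by decide) (by decide), ← El_one] at h1
    exact El_ne (by decide) (by decide) 0 0 (by decide +kernel) h1

theorem three0 : PStemDvd 3 (SU (D.n + 1) K4 D.q) 1 := by
  haveI : Fact (Nat.Prime 3) := ⟨Nat.prime_three⟩
  refine pStemDvd_of_checks (s := 1) (q := 1) (N := 1) U523.Q.toDat act3 gen_su ?_ stab3_odds
    U523.w_ok rel3' U523.nr U523.nr_ok U523.zl_ok rfl rfl (by decide) U523.chk_ok U523.gen_ok U523.par_ok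
    (by intro r hr; cases hr) rfl
  apply Cfsg.Agent.Lib.H92Stem.pStemDvd_of_sq
  rw [card_stab3]
  decide

theorem three' : PStemDvd 3 (SU 5 K4 2) 1 := three0

end Cfsg.Agent.Lib.H3U52
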