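import Cfsg.Agent.Lib.H3F4
import Cfsg.Agent.Lib.H3U62D
import Cfsg.Agent.Lib.H3U62P
import Cfsg.Agent.Lib.H3U62Q

/-!
# Checks for PSU(6,2) (helper3)
-/

set_option autoImplicit false

namespace Cfsg.Agent.Lib.H3U62

open Cfsg.Agent.Lib.H58SM Cfsg.Agent.Lib.H3Code Cfsg.Agent.Lib.H3PU Cfsg.Agent.Lib.H3F4 Cfsg.Agent.Lib.K4

set_option maxRecDepth 1000000

theorem m_ok : D.mOk C = true := by decide +kernel
theorem v_ok : D.vOk C = true := by decide +kernel
theorem f_ok : D.fOk C = true := by decide +kernel
theorem b_ok : D.bOk = true := by decide +kernel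
theorem fr_ok : D.frOk = true := by decide +kernel
theorem w_ok : D.wOk C = true := by decide +kernel
theorem iso_ok : D.isoOk C = true := by decide +kernel
theorem t_ok : D.tOk C = true := by decide +kernel
theorem tw2_ok : D.twOk U622.Q.toDat.T tword = true := by decide +kernel
theorem tw3_ok : D.twOk U623.Q.toDat.T tword = true := by decide +kernel
theorem eq2_ok : D.eqOk U622.Q.toDat.T = true := by decide +kernel
theorem eq3_ok : D.eqOk U623.Q.toDat.T = true := by decide +kernel

end Cfsg.Agent.Lib.H3U62
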