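import Cfsg.Agent.Lib.H3PUM
import Cfsg.Agent.Lib.H3U62C
import Cfsg.Agent.Lib.H3U62V
import Cfsg.Agent.Lib.H3U52M

/-!
# The Schur multiplier of PSU(6,2) (helper3)
-/

set_option autoImplicit false

namespace Cfsg.Agent.Lib.H3U62

open Matrix Subgroup Cfsg Cfsg.Agent.Lib Cfsg.Agent.Lib.H58SM Cfsg.Agent.Lib.H3Code Cfsg.Agent.Lib.H3PU Cfsg.Agent.Lib.H3Prj
open Cfsg.Agent.Lib.H3F4 Cfsg.Agent.Lib.K4 Cfsg.Agent.Lib.SchurSylow Cfsg.Agent.Lib.Cov
open Cfsg.Agent.Lib.ClUnitary

theorem good : PD.Good D C := ⟨hF4, ok, by decide, by decide, m_ok, v_ok, f_ok, b_ok, fr_ok, w_ok, iso_ok, t_ok⟩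

/-- the group -/
abbrev G := PU (D.n + 1) K4 D.q

theorem act2 : Act U622.Q.toDat.n U622.Q.toDat.k (PD.g D C) (PD.e D C) U622.Q.toDat.T U622.Q.toDat.pi U622.Q.toDat.pq :=
  PD.act good U622.Q.toDat rfl rfl U622.tab1_ok U622.tab2_ok U622.tab3_ok eq2_ok

theorem act3 : Act U623.Q.toDat.n U623.Q.toDat.k (PD.g D C) (PD.e D C) U623.Q.toDat.T U623.Q.toDat.pi U623.Q.toDat.pq :=
  PD.act good U623.Q.toDat rfl rfl U623.tab1_ok U623.tab2_ok U623.tab3_ok eq3_ok

theorem gen2 : closure {z | ∃ i < U622.Q.toDat.k, z = PD.g D C i} = ⊤ := PD.gen' good U622.Q.toDat rfl rfl act2 tw2_ok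

theorem gen3 : closure {z | ∃ i < U623.Q.toDat.k, z = PD.g D C i} = ⊤ := PD.gen' good U623.Q.toDat rfl rfl act3 tw3_ok

noncomputable def stab0 : SU D.n K4 D.q ≃* MulAction.stabilizer G (PD.e D C 0) :=
  (stabEquiv (n := D.n) (F := K4) (q := D.q) good.hF (by decide) (by decide)).trans
    (MulEquiv.subgroupCongr (by rw [PD.e_zero' good]))

theorem stab_perfect : commutator (MulAction.stabilizer G (PD.e D C 0)) = ⊤ := by
  refine H3USim.perfect_of_surj stab0.toMonoidHom (MulEquiv.surjective _) ?_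
  exact H3USim.su_perfect hF4 5 (by decide) (by decide)

theorem rel2 : ∀ j < U622.Q.toDat.J, ev (PD.g D C) (U622.Q.toDat.W j) = 1 :=
  Dat.rel_of (D := U622.Q.toDat) act2 (PD.faith' good) U622.w_ok U622.rel_ok

theorem rel3 : ∀ j < U623.Q.toDat.J, ev (PD.g D C) (U623.Q.toDat.W j) = 1 :=
  Dat.rel_of (D := U623.Q.toDat) act3 (PD.faith' good) U623.w_ok U623.rel_ok

theorem two : PStemDvd 2 G 4 :=
  pStemDvd_of_checks (s := 2) (q := 2) (N := 4) U622.Q.toDat act2 gen2 (H3U52.two'.congr stab0)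
    (not_dvd_index_of_perfect stab_perfect) U622.w_ok rel2 U622.nr U622.nr_ok U622.zl_ok rfl rfl (by decide)
    U622.chk_ok U622.gen_ok U622.par_ok (by decide) rfl

theorem three : PStemDvd 3 G 3 := by
  haveI : Fact (Nat.Prime 3) := ⟨by norm_num⟩
  exact pStemDvd_of_checks (s := 2) (q := 3) (N := 3) U623.Q.toDat act3 gen3 (H3U52.three'.congr stab0)
    (not_dvd_index_of_perfect stab_perfect) U623.w_ok rel3 U623.nr U623.nr_ok U623.zl_ok rfl rfl (by decide)
    U623.chk_ok U623.gen_ok U623.par_ok (by decide) rfl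

theorem cardG : Nat.card G = 9196830720 := by
  show Nat.card (PU 6 K4 2) = 9196830720
  rw [Nat.card_congr (H3Prj.equivPSU (n := 6) (F := K4) (q := 2) hF4 (by norm_num)).toEquiv]
  have h := card_PSU (n := 6) hF4 (by norm_num)
  have h2 : 2 ^ (6 * (6 - 1) / 2) * ∏ i ∈ Finset.range 6, (if Even i then 2 ^ (i + 1) + 1 else 2 ^ (i + 1) - 1) =
      Nat.gcd 6 (2 + 1) * ((2 + 1) * 9196830720) := by
    rw [Finset.prod_range_succ, Finset.prod_range_succ, Finset.prod_range_succ, Finset.prod_range_succ,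
      Finset.prod_range_succ, Finset.prod_range_one]
    decide
  rw [h2] at h
  exact Nat.eq_of_mul_eq_mul_left (by norm_num) (Nat.eq_of_mul_eq_mul_left (by norm_num) h)

theorem stem : StemDvd G 12 := by
  apply StemDvd.of_forall
  intro p hp
  have : Fact p.Prime := ⟨hp⟩
  by_cases h2 : p = 2
  · subst h2; exact two.mono (by norm_num)
  by_cases h3 : p = 3
  · subst h3; exact three.mono (by norm_num)
  refine PStemDvd.mono ?_ (one_dvd 12)
  apply Cfsg.Agent.Lib.H92Stem.pStemDvd_of_sq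
  rw [cardG]
  intro hd
  have h1 : p ∣ 9196830720 := (dvd_pow_self p two_ne_zero).trans hd
  have h4 : p ∈ Nat.primeFactors 9196830720 := Nat.mem_primeFactors.2 ⟨hp, h1, by norm_num⟩
  have h6 : Nat.primeFactors 9196830720 = {2, 3, 5, 7, 11} := by
    rw [show (9196830720 : ℕ) = 2 ^ 15 * (3 ^ 6 * (5 * (7 * 11))) by norm_num]
    rw [Nat.primeFactors_mul (by norm_num) (by norm_num), Nat.primeFactors_mul (by norm_num) (by norm_num),
      Nat.primeFactors_mul (by norm_num) (by norm_num), Nat.primeFactors_mul (by norm_num) (by norm_num),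
      Nat.primeFactors_prime_pow (by norm_num) (by norm_num),
      Nat.primeFactors_prime_pow (by norm_num) (by norm_num),
      Nat.Prime.primeFactors (by norm_num), Nat.Prime.primeFactors (by norm_num), Nat.Prime.primeFactors (by norm_num)]
    decide
  rw [h6] at h4
  simp only [Finset.mem_insert, Finset.mem_singleton] at h4
  have h7 : p = 5 ∨ p = 7 ∨ p = 11 := by tauto
  rcases h7 with rfl | rfl | rfl <;> revert hd <;> norm_num

theorem low2 : IsQuot G (Multiplicative (ZMod 2 × ZMod 2)) :=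
  isQuot_two U622.Q.toDat H3U62V.D H3U62V.W0 H3U62V.W1 act2 rfl rfl (fun _ => rfl) gen2
    (H3USim.pu_perfect good.hF (by decide) (by decide)) U622.w_ok rel2 H3U62V.rows_ok H3U62V.im_ok H3U62V.par_ok
    H3U62V.wt0_ok H3U62V.wt1_ok H3U62V.o H3U62V.ord0_ok H3U62V.ord1_ok (by decide) (by decide)
    2 (by decide) H3U62V.val0_0 H3U62V.val1_0 3 (by decide) H3U62V.val0_1 H3U62V.val1_1

theorem low : IsQuot G (Multiplicative (ZMod 3 × ZMod 2 × ZMod 2)) := by
  have h4 : IsQuot G (Multiplicative (ZMod 3)) :=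
    H3USim.isQuot_center good.hF (by decide) (by decide) (by decide) (by decide)
  refine (h4.prod low2 ?_).congr (prodMul (ZMod 3) (ZMod 2 × ZMod 2))
  have e1 : Nat.card (Multiplicative (ZMod 3)) = 3 := Nat.card_zmod 3
  have e2 : Nat.card (Multiplicative (ZMod 2 × ZMod 2)) = 4 := by
    show Nat.card (ZMod 2 × ZMod 2) = 4
    rw [Nat.card_prod, Nat.card_zmod]
  rw [e1, e2]
  decide

theorem main : HasSchurMultiplier G (Multiplicative (ZMod 3 × ZMod 2 × ZMod 2)) := by
  refine hasSchur_of ?_ low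
  have e : Nat.card (Multiplicative (ZMod 3 × ZMod 2 × ZMod 2)) = 12 := by
    show Nat.card (ZMod 3 × ZMod 2 × ZMod 2) = 12
    rw [Nat.card_prod, Nat.card_prod, Nat.card_zmod, Nat.card_zmod]
  rw [e]
  exact stem

end Cfsg.Agent.Lib.H3U62
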