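import Cfsg.Agent.Lib.H26LiftB
import Cfsg.Agent.Lib.SylU3

/-! The multiplier of `SU₃(q)`, `q ≥ 3`, has trivial `p`-part in the defining characteristic (helper35). -/

set_option autoImplicit false
set_option linter.unusedSectionVars false
set_option linter.unusedVariables false

namespace Cfsg.Agent.Lib.MSU3p

open Matrix Cfsg Cfsg.Agent.Lib.ClUnitary Cfsg.Agent.Lib.HermMat Cfsg.Agent.Lib.SylU3 Cfsg.Agent.Lib.H26LiftB Cfsg.Agent.Lib.SchurSylow

universe u
variable {F : Type u} [Field F]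

/-- the antidiagonal form -/
def J (q : ℕ) (u v : Fin 3 → F) : F := u 0 * v 2 ^ q + u 1 * v 1 ^ q + u 2 * v 0 ^ q

variable (F) in
/-- the special unitary group of the antidiagonal form -/
def G3 (q : ℕ) : Subgroup (GL (Fin 3) F) where
  carrier := {g | (g : Matrix (Fin 3) (Fin 3) F).det = 1 ∧
    ∀ u v, J q ((g : Matrix (Fin 3) (Fin 3) F) *ᵥ u) ((g : Matrix (Fin 3) (Fin 3) F) *ᵥ v) = J q u v}
  one_mem' := ⟨by rw [Units.val_one, det_one], fun u v => by rw [Units.val_one, one_mulVec, one_mulVec]⟩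
  mul_mem' := by
    rintro g h ⟨g1, g2⟩ ⟨h1, h2⟩
    refine ⟨by rw [Units.val_mul, det_mul, g1, h1, one_mul], fun u v => ?_⟩
    rw [Units.val_mul, ← mulVec_mulVec, ← mulVec_mulVec, g2, h2]
  inv_mem' := by
    rintro g ⟨g1, g2⟩
    have e : ∀ w, (g : Matrix (Fin 3) (Fin 3) F) *ᵥ (((g⁻¹ : GL (Fin 3) F) : Matrix (Fin 3) (Fin 3) F) *ᵥ w) = w := by
      intro w
      rw [mulVec_mulVec, ← Units.val_mul, mul_inv_cancel, Units.val_one, one_mulVec]
    refine ⟨?_, fun u v => ?_⟩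
    · have := congrArg Matrix.det (congrArg Units.val (mul_inv_cancel g))
      rw [Units.val_mul, det_mul, g1, one_mul, Units.val_one, det_one] at this
      exact this
    · rw [← g2, e, e]

variable [Fintype F] {q : ℕ}

theorem exists_iso (hF : Fintype.card F = q ^ 2) : Nonempty (G3 F q ≃* SU 3 F q) := by
  have hq := two_le_q hF
  obtain ⟨c, hc'⟩ := exists_norm hF (c := (-1 : F)) (by rw [neg_pow_q hF, one_pow])
  have hc : c * c ^ q = -1 := by rw [← pow_succ', hc']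
  obtain ⟨t, ht⟩ := exists_trace hF (c := (-1 : F)) (by rw [neg_pow_q hF, one_pow])
  have hc0 : c ≠ 0 := by
    rintro rfl; rw [zero_mul] at hc
    exact one_ne_zero (neg_eq_zero.mp hc.symm)
  let A : GL (Fin 3) F := GeneralLinearGroup.mkOfDetNeZero (am c t) (by rw [am_det]; exact hc0)
  have hA : (A : Matrix (Fin 3) (Fin 3) F) = am c t := rfl
  have hAf : ∀ u v : Fin 3 → F, hermForm 3 F q ((A : Matrix (Fin 3) (Fin 3) F) *ᵥ u)
      ((A : Matrix (Fin 3) (Fin 3) F) *ᵥ v) = J q u v := fun u v => by rw [hA]; exact am_herm hF c t hc ht u v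
  have hAi : ∀ w, (A : Matrix (Fin 3) (Fin 3) F) *ᵥ (((A⁻¹ : GL (Fin 3) F) : Matrix (Fin 3) (Fin 3) F) *ᵥ w) = w := by
    intro w
    rw [mulVec_mulVec, ← Units.val_mul, mul_inv_cancel, Units.val_one, one_mulVec]
  have hiA : ∀ w, ((A⁻¹ : GL (Fin 3) F) : Matrix (Fin 3) (Fin 3) F) *ᵥ ((A : Matrix (Fin 3) (Fin 3) F) *ᵥ w) = w := by
    intro w
    rw [mulVec_mulVec, ← Units.val_mul, inv_mul_cancel, Units.val_one, one_mulVec]
  have hAg : ∀ u v : Fin 3 → F, J q (((A⁻¹ : GL (Fin 3) F) : Matrix (Fin 3) (Fin 3) F) *ᵥ u)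
      (((A⁻¹ : GL (Fin 3) F) : Matrix (Fin 3) (Fin 3) F) *ᵥ v) = hermForm 3 F q u v := by
    intro u v
    rw [← hAf, hAi, hAi]
  have hdet : ∀ g : GL (Fin 3) F, (g : Matrix (Fin 3) (Fin 3) F).det = 1 →
      ((A * (g : GL (Fin 3) F) * A⁻¹ : GL (Fin 3) F) : Matrix (Fin 3) (Fin 3) F).det = 1 := by
    intro g hg
    rw [Units.val_mul, Units.val_mul, det_mul, det_mul, mul_right_comm, ← det_mul, ← Units.val_mul,
      mul_inv_cancel, Units.val_one, det_one, one_mul, hg]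
  have hdet' : ∀ g : GL (Fin 3) F, (g : Matrix (Fin 3) (Fin 3) F).det = 1 →
      ((A⁻¹ * (g : GL (Fin 3) F) * A : GL (Fin 3) F) : Matrix (Fin 3) (Fin 3) F).det = 1 := by
    intro g hg
    rw [Units.val_mul, Units.val_mul, det_mul, det_mul, mul_right_comm, ← det_mul, ← Units.val_mul,
      inv_mul_cancel, Units.val_one, det_one, one_mul, hg]
  have hmem : ∀ g : G3 F q, (⟨_, hdet g.1 g.2.1⟩ : Matrix.SpecialLinearGroup (Fin 3) F) ∈ SU 3 F q := by
    intro g u v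
    change hermForm 3 F q (((A * g.1 * A⁻¹ : GL (Fin 3) F) : Matrix (Fin 3) (Fin 3) F) *ᵥ u)
      (((A * g.1 * A⁻¹ : GL (Fin 3) F) : Matrix (Fin 3) (Fin 3) F) *ᵥ v) = hermForm 3 F q u v
    rw [Units.val_mul, Units.val_mul, ← mulVec_mulVec, ← mulVec_mulVec, ← mulVec_mulVec, ← mulVec_mulVec,
      hAf, g.2.2, hAg]
  let toG : SU 3 F q → GL (Fin 3) F := fun s => Matrix.SpecialLinearGroup.toGL s.1
  have htoG : ∀ s : SU 3 F q, ((toG s : GL (Fin 3) F) : Matrix (Fin 3) (Fin 3) F) = s.1.1 := fun s => rfl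
  have hmem' : ∀ s : SU 3 F q, A⁻¹ * toG s * A ∈ G3 F q := by
    intro s
    refine ⟨hdet' _ (by rw [htoG]; exact s.1.2), fun u v => ?_⟩
    rw [Units.val_mul, Units.val_mul, ← mulVec_mulVec, ← mulVec_mulVec, ← mulVec_mulVec, ← mulVec_mulVec,
      hAg, htoG]
    have := s.2 ((A : Matrix (Fin 3) (Fin 3) F) *ᵥ u) ((A : Matrix (Fin 3) (Fin 3) F) *ᵥ v)
    rw [← hAf]
    exact this
  refine ⟨{ toFun := fun g => ⟨⟨_, hdet g.1 g.2.1⟩, hmem g⟩
            invFun := fun s => ⟨A⁻¹ * toG s * A, hmem' s⟩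
            left_inv := ?_
            right_inv := ?_
            map_mul' := ?_ }⟩
  · intro g
    apply Subtype.ext
    apply Units.ext
    change ((A⁻¹ : GL (Fin 3) F) : Matrix (Fin 3) (Fin 3) F) * ((A * g.1 * A⁻¹ : GL (Fin 3) F) : Matrix (Fin 3) (Fin 3) F) *
      (A : Matrix (Fin 3) (Fin 3) F) = _
    rw [← Units.val_mul, ← Units.val_mul]
    congr 1
    group
  · intro s
    apply Subtype.ext; apply Subtype.ext
    change ((A * (A⁻¹ * toG s * A) * A⁻¹ : GL (Fin 3) F) : Matrix (Fin 3) (Fin 3) F) = s.1.1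
    rw [← htoG]
    congr 1
    group
  · intro g h
    apply Subtype.ext; apply Subtype.ext
    change ((A * (g.1 * h.1) * A⁻¹ : GL (Fin 3) F) : Matrix (Fin 3) (Fin 3) F) =
      ((A * g.1 * A⁻¹ : GL (Fin 3) F) : Matrix (Fin 3) (Fin 3) F) *
      ((A * h.1 * A⁻¹ : GL (Fin 3) F) : Matrix (Fin 3) (Fin 3) F)
    rw [← Units.val_mul]
    congr 1
    group

/-! ### the elements -/

theorem ug_mem (hF : Fintype.card F = q ^ 2) {a b : F} (h : Cd q a b) : ug a b (-a ^ q) ∈ G3 F q :=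
  ⟨um_det _ _ _, fun u v => um_herm hF h u v⟩

/-- root elements -/
def uel (hF : Fintype.card F = q ^ 2) (a b : F) (h : Cd q a b) : G3 F q := ⟨_, ug_mem hF h⟩

theorem uel_eq (hF : Fintype.card F = q ^ 2) {a b a' b' : F} {h : Cd q a b} {h' : Cd q a' b'} (ha : a = a')
    (hb : b = b') : uel hF a b h = uel hF a' b' h' := by
  subst ha; subst hb; rfl

theorem uel_inj (hF : Fintype.card F = q ^ 2) {a b a' b' : F} {h : Cd q a b} {h' : Cd q a' b'}
    (he : uel hF a b h = uel hF a' b' h') : a = a' ∧ b = b' := by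
  have := ug_inj (congrArg Subtype.val he)
  exact ⟨this.1, this.2.1⟩

theorem uel_mul (hF : Fintype.card F = q ^ 2) {a b a' b' : F} (h : Cd q a b) (h' : Cd q a' b') :
    uel hF a b h * uel hF a' b' h' = uel hF (a + a') (b' + a * (-a' ^ q) + b) (h.mul hF h') := by
  apply Subtype.ext
  change ug a b (-a ^ q) * ug a' b' (-a' ^ q) = ug _ _ _
  rw [ug_mul, add_pow_q hF]
  congr 1; ring

theorem Cd_zero (hF : Fintype.card F = q ^ 2) : Cd q (0 : F) 0 := by
  have := two_le_q hF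
  unfold Cd; rw [zero_pow (by omega)]; ring

theorem uel_one (hF : Fintype.card F = q ^ 2) {h : Cd q (0 : F) 0} : uel hF 0 0 h = 1 := by
  apply Subtype.ext
  have := two_le_q hF
  change ug 0 0 (-(0 : F) ^ q) = 1
  rw [zero_pow (by omega), neg_zero, ug_one]

/-- diagonal matrices -/
def dm (x y z : F) : Matrix (Fin 3) (Fin 3) F := !![x, 0, 0; 0, y, 0; 0, 0, z]

theorem dm_mul (x y z x' y' z' : F) : dm x y z * dm x' y' z' = dm (x * x') (y * y') (z * z') := by
  unfold dm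
  ext i j; fin_cases i <;> fin_cases j <;> simp [Matrix.mul_apply, Fin.sum_univ_three]

theorem dm_one : dm (1 : F) 1 1 = 1 := by
  unfold dm
  ext i j; fin_cases i <;> fin_cases j <;> simp

/-- the torus element -/
def dg (q : ℕ) (t : Fˣ) : GL (Fin 3) F :=
  ⟨dm (t : F) ((t ^ q * t⁻¹ : Fˣ) : F) (((t ^ q)⁻¹ : Fˣ) : F),
    dm ((t⁻¹ : Fˣ) : F) (((t ^ q * t⁻¹)⁻¹ : Fˣ) : F) ((((t ^ q)⁻¹)⁻¹ : Fˣ) : F),
    by rw [dm_mul, ← Units.val_mul, ← Units.val_mul, ← Units.val_mul, mul_inv_cancel, mul_inv_cancel, mul_inv_cancel,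
      Units.val_one, dm_one],
    by rw [dm_mul, ← Units.val_mul, ← Units.val_mul, ← Units.val_mul, inv_mul_cancel, inv_mul_cancel, inv_mul_cancel,
      Units.val_one, dm_one]⟩

theorem dg_mul (t t' : Fˣ) : dg q (t * t') = dg q t * dg q t' := by
  apply Units.ext
  change dm _ _ _ = dm _ _ _ * dm _ _ _
  rw [dm_mul, ← Units.val_mul, ← Units.val_mul, ← Units.val_mul]
  congr 2
  · rw [mul_pow, mul_inv]; exact mul_mul_mul_comm _ _ _ _
  · rw [mul_pow, mul_inv]

theorem units_pow_sq (hF : Fintype.card F = q ^ 2) (t : Fˣ) : (t ^ q) ^ q = t :=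
  Units.ext (by push_cast; exact pow_q_pow_q hF _)

theorem dg_mem (hF : Fintype.card F = q ^ 2) (t : Fˣ) : dg q t ∈ G3 F q := by
  constructor
  · change (dm _ _ _).det = 1
    unfold dm
    rw [Matrix.det_fin_three]
    have h1 : (t : F) ≠ 0 := t.ne_zero
    simp
    field_simp
  · intro u v
    change J q (dm _ _ _ *ᵥ u) (dm _ _ _ *ᵥ v) = _
    have e : ∀ (x y z : F) (w : Fin 3 → F), dm x y z *ᵥ w = ![x * w 0, y * w 1, z * w 2] := by
      intro x y z w
      unfold dm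
      ext i; fin_cases i <;> simp [Matrix.mulVec, dotProduct, Fin.sum_univ_three]
    rw [e, e]
    unfold J
    simp only [Matrix.cons_val_zero, Matrix.cons_val_one, Matrix.cons_val]
    have h1 : (t : F) * ((((t ^ q)⁻¹ : Fˣ) : F)) ^ q = 1 := by
      rw [← Units.val_pow_eq_pow_val, inv_pow, units_pow_sq hF, ← Units.val_mul, mul_inv_cancel, Units.val_one]
    have h2 : ((t ^ q * t⁻¹ : Fˣ) : F) * (((t ^ q * t⁻¹ : Fˣ) : F)) ^ q = 1 := by
      rw [← Units.val_pow_eq_pow_val, mul_pow, units_pow_sq hF, inv_pow, ← Units.val_mul]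
      have : t ^ q * t⁻¹ * (t * (t ^ q)⁻¹) = 1 := by group
      rw [this, Units.val_one]
    have h3 : (((t ^ q)⁻¹ : Fˣ) : F) * (t : F) ^ q = 1 := by
      rw [← Units.val_pow_eq_pow_val, ← Units.val_mul, inv_mul_cancel, Units.val_one]
    rw [mul_pow, mul_pow, mul_pow]
    linear_combination (u 0 * v 2 ^ q) * h1 + (u 1 * v 1 ^ q) * h2 + (u 2 * v 0 ^ q) * h3

/-- the torus -/
def tor (hF : Fintype.card F = q ^ 2) : Fˣ →* G3 F q where
  toFun t := ⟨dg q t, dg_mem hF t⟩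
  map_one' := by
    apply Subtype.ext; apply Units.ext
    change dm _ _ _ = (1 : Matrix (Fin 3) (Fin 3) F)
    rw [← dm_one]; congr 1 <;> simp
  map_mul' t t' := Subtype.ext (dg_mul t t')

/-- the weight on `U/Z` -/
def ws (q : ℕ) (t : Fˣ) : Fˣ := t * t * (t ^ q)⁻¹

/-- the weight on `Z` -/
def wn (q : ℕ) (t : Fˣ) : Fˣ := t * t ^ q

theorem Cd_w (hF : Fintype.card F = q ^ 2) {a b : F} (h : Cd q a b) (t : Fˣ) :
    Cd q ((ws q t : Fˣ) * a : F) ((wn q t : Fˣ) * b : F) := by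
  unfold Cd at *
  have h1 : (((wn q t : Fˣ) : F)) ^ q = ((wn q t : Fˣ) : F) := by
    rw [← Units.val_pow_eq_pow_val, wn, mul_pow, units_pow_sq hF, mul_comm]
  have h2 : ((ws q t : Fˣ) : F) * ((ws q t : Fˣ) : F) ^ q = ((wn q t : Fˣ) : F) := by
    rw [← Units.val_pow_eq_pow_val, ← Units.val_mul, ws, wn, mul_pow, mul_pow, inv_pow, units_pow_sq hF]
    congr 1
    have : t * t * (t ^ q)⁻¹ * (t ^ q * t ^ q * t⁻¹) = t * (t * t ^ q * t⁻¹) := by group
    rw [this, mul_comm t (t ^ q)]; group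
  rw [mul_pow, mul_pow, h1]
  linear_combination (((wn q t : Fˣ) : F)) * h + a * a ^ q * h2

theorem tor_conj (hF : Fintype.card F = q ^ 2) (t : Fˣ) {a b : F} (h : Cd q a b) :
    tor hF t * uel hF a b h * (tor hF t)⁻¹ = uel hF _ _ (Cd_w hF h t) := by
  rw [mul_inv_eq_iff_eq_mul]
  apply Subtype.ext; apply Units.ext
  change dm _ _ _ * um _ _ _ = um _ _ _ * dm _ _ _
  unfold dm um
  have h1 : (t : F) ≠ 0 := t.ne_zero
  have h2 : ((t : F) ^ q) ^ q = (t : F) := pow_q_pow_q hF _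
  ext i j
  fin_cases i <;> fin_cases j <;> simp [Matrix.mul_apply, Fin.sum_univ_three, ws, wn, mul_pow, h2]
  · field_simp
  · field_simp
  · field_simp

/-! ### arithmetic -/

theorem card_units (hF : Fintype.card F = q ^ 2) : Nat.card Fˣ = (q + 1) * (q - 1) := by
  rw [Nat.card_units, Nat.card_eq_fintype_card, hF, ← sq_sub_one]

theorem exists_gen (hF : Fintype.card F = q ^ 2) : ∃ g : Fˣ, orderOf g = (q + 1) * (q - 1) := by
  obtain ⟨g, hg⟩ := IsCyclic.exists_generator (α := Fˣ)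
  exact ⟨g, by rw [orderOf_eq_card_of_forall_mem_zpowers hg, card_units hF]⟩

/-- an element centralizing `Z` and acting without fixed points on `U/Z` -/
theorem exists_t (hF : Fintype.card F = q ^ 2) (hq : 3 ≤ q) : ∃ t : Fˣ, wn q t = 1 ∧ ws q t ≠ 1 := by
  obtain ⟨g, hg⟩ := exists_gen hF
  have h1 : (g ^ (q - 1)) ^ (q + 1) = 1 := by rw [← pow_mul, mul_comm, ← hg, pow_orderOf_eq_one]
  refine ⟨g ^ (q - 1), ?_, ?_⟩
  · rw [wn, ← pow_succ', h1]
  · intro h
    have h2 : ((g ^ (q - 1)) ^ q)⁻¹ = g ^ (q - 1) := by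
      rw [inv_eq_iff_mul_eq_one, ← pow_succ, h1]
    rw [ws, h2, ← pow_add, ← pow_add] at h
    have h3 := orderOf_dvd_of_pow_eq_one h
    rw [hg] at h3
    have h4 : (q + 1) * (q - 1) ≤ q - 1 + (q - 1) + (q - 1) := Nat.le_of_dvd (by omega) h3
    have h5 : 4 * (q - 1) ≤ (q + 1) * (q - 1) := Nat.mul_le_mul_right _ (by omega)
    omega

/-- an element acting without fixed points on `Z` -/
theorem exists_t' (hF : Fintype.card F = q ^ 2) (hq : 3 ≤ q) : ∃ t : Fˣ, wn q t ≠ 1 := by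
  obtain ⟨g, hg⟩ := exists_gen hF
  refine ⟨g, fun h => ?_⟩
  rw [wn, ← pow_succ'] at h
  have h3 := orderOf_dvd_of_pow_eq_one h
  rw [hg] at h3
  have h4 := Nat.le_of_dvd (by omega) h3
  have h5 : (q + 1) * 2 ≤ (q + 1) * (q - 1) := Nat.mul_le_mul_left _ (by omega)
  omega

theorem exists_good {S : Finset F} (hS : 4 ≤ S.card) : ∃ u ∈ S, u + 1 ≠ 0 ∧ u ^ 2 + u + 1 ≠ 0 := by
  classical
  by_contra hcon
  push Not at hcon
  let P : Polynomial F := (Polynomial.X + 1) * (Polynomial.X ^ 2 + Polynomial.X + 1)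
  have hP1 : (Polynomial.X + 1 : Polynomial F).Monic := by monicity!
  have hP2 : (Polynomial.X ^ 2 + Polynomial.X + 1 : Polynomial F).Monic := by monicity!
  have hP : P.Monic := hP1.mul hP2
  have hdeg : P.natDegree ≤ 3 := by
    show ((Polynomial.X + 1) * (Polynomial.X ^ 2 + Polynomial.X + 1) : Polynomial F).natDegree ≤ 3
    compute_degree
  apply hP.ne_zero
  apply Polynomial.eq_zero_of_natDegree_lt_card_of_eval_eq_zero' P S ?_ (by omega)
  intro u hu
  show Polynomial.eval u ((Polynomial.X + 1) * (Polynomial.X ^ 2 + Polynomial.X + 1)) = 0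
  simp only [Polynomial.eval_mul, Polynomial.eval_add, Polynomial.eval_pow, Polynomial.eval_X, Polynomial.eval_one]
  by_cases h : u + 1 = 0
  · rw [h, zero_mul]
  · rw [hcon u hu h, mul_zero]

theorem exists_u (hF : Fintype.card F = q ^ 2) (hq : 3 ≤ q) : ∃ t₁ t₂ : Fˣ,
    ((ws q t₂ : Fˣ) : F) = ((ws q t₁ : Fˣ) : F) + 1 ∧ ((ws q t₁ : Fˣ) : F) ^ 2 + ((ws q t₁ : Fˣ) : F) + 1 ≠ 0 := by
  classical
  by_cases h : Nat.Coprime (Nat.card Fˣ) (q - 2)
  · have hs : ∀ y : Fˣ, ∃ t, ws q t = y := by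
      intro y
      obtain ⟨t, ht⟩ := (powCoprime h).surjective y⁻¹
      have ht' : t ^ (q - 2) = y⁻¹ := ht
      refine ⟨t, ?_⟩
      have e : t ^ q = t ^ (q - 2) * (t * t) := by rw [← pow_two, ← pow_add]; congr 1; omega
      rw [ws, e, ht']; group
    obtain ⟨u, hu, h1, h2⟩ := exists_good (F := F) (S := Finset.univ.erase 0) (by
      rw [Finset.card_erase_of_mem (Finset.mem_univ _), Finset.card_univ, hF]
      have : 3 ^ 2 ≤ q ^ 2 := Nat.pow_le_pow_left hq 2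
      omega)
    have hu0 : u ≠ 0 := (Finset.mem_erase.1 hu).1
    obtain ⟨t1, e1⟩ := hs (Units.mk0 u hu0)
    obtain ⟨t2, e2⟩ := hs (Units.mk0 (u + 1) h1)
    refine ⟨t1, t2, ?_, ?_⟩
    · rw [e1, e2]; rfl
    · rw [e1]; exact h2
  · have h3 : 3 ∣ q - 2 := by
      rw [card_units hF] at h
      obtain ⟨r, hr, h4, h5⟩ := Nat.Prime.not_coprime_iff_dvd.1 h
      have h6 : r ∣ 3 := by
        have e : (q + 1) * (q - 1) = (q - 2) * (q + 2) + 3 := by
          obtain ⟨k, rfl⟩ : ∃ k, q = k + 2 := ⟨q - 2, by omega⟩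
          simp only [Nat.add_sub_cancel]
          have : k + 2 - 1 = k + 1 := by omega
          rw [this]; ring
        rw [e] at h4
        exact (Nat.dvd_add_right (h5.mul_right _)).1 h4
      rwa [(Nat.prime_dvd_prime_iff_eq hr Nat.prime_three).1 h6] at h5
    have h4 : 5 ≤ q := by
      have := Nat.le_of_dvd (by omega) h3
      omega
    have hcard := card_fixed_ne_zero (F := F) hF
    obtain ⟨u, hu, h1, h2⟩ := exists_good (F := F) (S := Finset.univ.filter (fun c : F => c ≠ 0 ∧ c ^ q = c)) (by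
      rw [hcard]; omega)
    obtain ⟨hu0, huq⟩ := (Finset.mem_filter.1 hu).2
    have key : ∀ x : Fˣ, (x : F) ^ q = x → ws q x = x := by
      intro x hx
      have : x ^ q = x := Units.ext (by push_cast; exact hx)
      rw [ws, this]; group
    refine ⟨Units.mk0 u hu0, Units.mk0 (u + 1) h1, ?_, ?_⟩
    · rw [key (Units.mk0 u hu0) huq, key (Units.mk0 (u + 1) h1) (by
        show (u + 1) ^ q = u + 1
        rw [add_pow_q hF, huq, one_pow])]; rfl
    · rw [key (Units.mk0 u hu0) huq]; exact h2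

/-! ### the data -/

/-- the unipotent group -/
def U (hF : Fintype.card F = q ^ 2) : Subgroup (G3 F q) := (U3 hF).comap (G3 F q).subtype

theorem mem_U (hF : Fintype.card F = q ^ 2) {g : G3 F q} : g ∈ U hF ↔ ∃ (a b : F) (h : Cd q a b), g = uel hF a b h := by
  constructor
  · rintro ⟨a, b, h, e⟩
    exact ⟨a, b, h, Subtype.ext e⟩
  · rintro ⟨a, b, h, rfl⟩
    exact ⟨a, b, h, rfl⟩

theorem Cd0 (hF : Fintype.card F = q ^ 2) {b : F} : Cd q 0 b ↔ b + b ^ q = 0 := by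
  unfold Cd; rw [zero_mul, add_zero]

/-- its center -/
def Z (hF : Fintype.card F = q ^ 2) : Subgroup (G3 F q) where
  carrier := {g | ∃ (b : F) (h : Cd q 0 b), g = uel hF 0 b h}
  one_mem' := ⟨0, Cd_zero hF, (uel_one hF).symm⟩
  mul_mem' := by
    rintro _ _ ⟨b, h, rfl⟩ ⟨b', h', rfl⟩
    refine ⟨b' + b, ?_, ?_⟩
    · rw [Cd0 hF] at *
      rw [add_pow_q hF]; linear_combination h + h'
    · rw [uel_mul]; exact uel_eq hF (by ring) (by ring)
  inv_mem' := by
    rintro _ ⟨b, h, rfl⟩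
    have h2 : Cd q 0 (-b) := by
      rw [Cd0 hF] at *
      rw [neg_pow_q hF]; linear_combination -h
    refine ⟨-b, h2, ?_⟩
    rw [inv_eq_iff_mul_eq_one, uel_mul, ← uel_one hF (h := Cd_zero hF)]
    exact uel_eq hF (by ring) (by ring)

theorem Z_le (hF : Fintype.card F = q ^ 2) : Z hF ≤ U hF := by
  rintro _ ⟨b, h, rfl⟩
  exact (mem_U hF).2 ⟨0, b, h, rfl⟩

theorem mem_Z_iff (hF : Fintype.card F = q ^ 2) {a b : F} {h : Cd q a b} : uel hF a b h ∈ Z hF ↔ a = 0 := by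
  constructor
  · rintro ⟨b', h', e⟩
    exact (uel_inj hF e).1
  · rintro rfl; exact ⟨b, h, rfl⟩

theorem comm_uel (hF : Fintype.card F = q ^ 2) {a b a' b' : F} (h : Cd q a b) (h' : Cd q a' b') :
    ∃ h'' : Cd q 0 (a' * a ^ q - a * a' ^ q), uel hF a b h * uel hF a' b' h' * (uel hF a b h)⁻¹ * (uel hF a' b' h')⁻¹ =
      uel hF 0 (a' * a ^ q - a * a' ^ q) h'' := by
  have h'' : Cd q 0 (a' * a ^ q - a * a' ^ q) := by
    rw [Cd0 hF, sub_pow_q hF, mul_pow, mul_pow, pow_q_pow_q hF, pow_q_pow_q hF]; ring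
  refine ⟨h'', ?_⟩
  rw [mul_inv_eq_iff_eq_mul, mul_inv_eq_iff_eq_mul, mul_assoc, uel_mul, uel_mul, uel_mul]
  have := two_le_q hF
  exact uel_eq hF (by ring) (by ring)

theorem Z_central (hF : Fintype.card F = q ^ 2) {z y : G3 F q} (hz : z ∈ Z hF) (hy : y ∈ U hF) :
    z * y * z⁻¹ * y⁻¹ = 1 := by
  obtain ⟨b, h, rfl⟩ := hz
  obtain ⟨a', b', h', rfl⟩ := (mem_U hF).1 hy
  obtain ⟨h'', e⟩ := comm_uel hF h h'
  rw [e, ← uel_one hF (h := Cd_zero hF)]
  have := two_le_q hF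
  exact uel_eq hF rfl (by rw [zero_pow (by omega)]; ring)

theorem card_G3 (hF : Fintype.card F = q ^ 2) : Nat.card (G3 F q) = q ^ 3 * ((q ^ 2 - 1) * (q ^ 3 + 1)) := by
  obtain ⟨e⟩ := exists_iso hF
  rw [Nat.card_congr e.toEquiv]
  have h1 := card_SU (n := 3) hF (by norm_num)
  have h2 : q ^ (3 * (3 - 1) / 2) * ∏ i ∈ Finset.range 3, (if Even i then q ^ (i + 1) + 1 else q ^ (i + 1) - 1) =
      (q + 1) * (q ^ 3 * ((q ^ 2 - 1) * (q ^ 3 + 1))) := by
    simp [Finset.prod_range_succ]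
    ring
  rw [h2] at h1
  exact Nat.eq_of_mul_eq_mul_left (show 0 < q + 1 by omega) h1

theorem card_U (hF : Fintype.card F = q ^ 2) : Nat.card (U hF) = q ^ 3 := by
  rw [← card_U3 hF]
  have hle : U3 hF ≤ G3 F q := by
    rintro _ ⟨a, b, h, rfl⟩
    exact ug_mem hF h
  exact Nat.card_congr (Subgroup.subgroupOfEquivOfLe hle).toEquiv

/-- the filtration -/
def Cs (hF : Fintype.card F = q ^ 2) : ℕ → Subgroup (G3 F q)
  | 0 => U hF
  | 1 => Z hF
  | _ + 2 => ⊥

theorem conj_mem_Cs (hF : Fintype.card F = q ^ 2) (k : ℕ) (t : Fˣ) {x : G3 F q} (hx : x ∈ Cs hF k) :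
    tor hF t * x * (tor hF t)⁻¹ ∈ Cs hF k := by
  match k with
  | 0 =>
    obtain ⟨a, b, h, rfl⟩ := (mem_U hF).1 hx
    rw [tor_conj]; exact (mem_U hF).2 ⟨_, _, _, rfl⟩
  | 1 =>
    obtain ⟨b, h, rfl⟩ := hx
    rw [tor_conj]; exact (mem_Z_iff hF).2 (mul_zero _)
  | _ + 2 =>
    have : x = 1 := hx
    rw [this]; show _ = _; group

/-- the data for the Sylow argument -/
def dat (hF : Fintype.card F = q ^ 2) (hq : 3 ≤ q) (p : ℕ) (hp : p.Prime) (hpq : ∃ e, 0 < e ∧ q = p ^ e) : BDat p (G3 F q) where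
  U := U hF
  H := (tor hF).range
  C := Cs hF
  m := 2
  C0 := rfl
  Cm := rfl
  anti := by
    intro k
    match k with
    | 0 => exact Z_le hF
    | 1 => exact bot_le
    | _ + 2 => exact bot_le
  comm := by
    intro k x hx y hy
    match k with
    | 0 =>
      obtain ⟨a, b, h, rfl⟩ := (mem_U hF).1 hx
      obtain ⟨a', b', h', rfl⟩ := (mem_U hF).1 hy
      obtain ⟨h'', e⟩ := comm_uel hF h h'
      rw [e]; exact (mem_Z_iff hF).2 rfl
    | 1 => rw [Z_central hF hx hy]; exact one_mem _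
    | _ + 2 =>
      have : x = 1 := hx
      rw [this]; show _ = _; group
  normH := by
    rintro k _ ⟨t, rfl⟩ x hx
    exact conj_mem_Cs hF k t hx
  cop := by
    have h1 : Nat.card (tor hF).range ∣ Nat.card Fˣ := Subgroup.card_range_dvd _
    rw [card_units hF] at h1
    apply Nat.Coprime.coprime_dvd_left h1
    obtain ⟨e, he, rfl⟩ := hpq
    rw [Nat.coprime_comm, hp.coprime_iff_not_dvd]
    intro h
    have h3 : p ∣ p ^ e := dvd_pow_self p (by omega)
    rcases hp.dvd_mul.1 h with h2 | h2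
    · exact hp.one_lt.ne' (Nat.dvd_one.mp ((Nat.dvd_add_right h3).1 h2))
    · have h4 : p ∣ p ^ e - (p ^ e - 1) := Nat.dvd_sub h3 h2
      rw [Nat.sub_sub_self (by omega)] at h4
      exact hp.one_lt.ne' (Nat.dvd_one.mp h4)
  idx := by
    have h1 := (U hF).card_mul_index
    rw [card_U, card_G3 hF] at h1
    have h2 := Nat.eq_of_mul_eq_mul_left (by positivity) h1
    rw [h2]
    obtain ⟨e, he, rfl⟩ := hpq
    intro h
    rcases hp.dvd_mul.mp h with h1 | h1
    · have h2 : p ∣ (p ^ e) ^ 2 := by rw [← pow_mul]; exact dvd_pow_self p (by omega)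
      have h3 : 1 ≤ (p ^ e) ^ 2 := Nat.one_le_pow _ _ (by omega)
      have h4 : p ∣ (p ^ e) ^ 2 - ((p ^ e) ^ 2 - 1) := Nat.dvd_sub h2 h1
      rw [Nat.sub_sub_self h3] at h4
      exact hp.one_lt.ne' (Nat.dvd_one.mp h4)
    · have h2 : p ∣ (p ^ e) ^ 3 := by rw [← pow_mul]; exact dvd_pow_self p (by omega)
      exact hp.one_lt.ne' (Nat.dvd_one.mp ((Nat.dvd_add_right h2).mp h1))
  fpf := by
    intro k x hx hh
    match k with
    | 0 =>
      obtain ⟨a, b, h, rfl⟩ := (mem_U hF).1 hx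
      obtain ⟨t, -, ht⟩ := exists_t hF hq
      have h1 := hh _ ⟨t, rfl⟩
      rw [tor_conj] at h1
      have h2 := mul_mem h1 (one_mem (Cs hF 1))
      obtain ⟨b', h', e⟩ := h1
      rw [mul_inv_eq_iff_eq_mul, uel_mul] at e
      have e1 := (uel_inj hF e).1
      refine (mem_Z_iff hF).2 ?_
      have e2 : (((ws q t : Fˣ) : F) - 1) * a = 0 := by linear_combination e1
      rcases mul_eq_zero.1 e2 with e3 | e3
      · exact absurd (Units.ext (by rw [Units.val_one]; linear_combination e3)) ht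
      · exact e3
    | 1 =>
      obtain ⟨b, h, rfl⟩ := hx
      obtain ⟨t, ht⟩ := exists_t' hF hq
      have h1 := hh _ ⟨t, rfl⟩
      change _ ∈ (⊥ : Subgroup (G3 F q)) at h1
      rw [Subgroup.mem_bot, tor_conj, mul_inv_eq_one] at h1
      have e1 := (uel_inj hF h1).2
      have e2 : (((wn q t : Fˣ) : F) - 1) * b = 0 := by linear_combination e1
      rcases mul_eq_zero.1 e2 with e3 | e3
      · exact absurd (Units.ext (by rw [Units.val_one]; linear_combination e3)) ht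
      · subst e3
        show _ = _
        exact uel_one hF
    | _ + 2 => exact hx

/-! ### pairings -/

variable (hF : Fintype.card F = q ^ 2) (hq : 3 ≤ q) {p : ℕ} (hp : p.Prime) (hpq : ∃ e, 0 < e ∧ q = p ^ e)

/-- the second layer -/
theorem pair_one {A : Type*} [CommGroup A] {f : G3 F q → G3 F q → A} (hf : (dat hF hq p hp hpq).IsPairing 1 f) :
    ∀ x ∈ Z hF, ∀ y ∈ U hF, f x y = 1 := by
  intro x hx y hy
  have hone : ∀ x ∈ Z hF, f x 1 = 1 := by
    intro x hx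
    have := hf.mul_right x hx 1 (one_mem _) 1 (one_mem _)
    rw [mul_one] at this
    exact (mul_eq_left.1 this.symm)
  have hinv : ∀ x ∈ Z hF, ∀ y ∈ U hF, f x y⁻¹ = (f x y)⁻¹ := by
    intro x hx y hy
    rw [eq_inv_iff_mul_eq_one, ← hf.mul_right x hx _ (inv_mem hy) _ hy, inv_mul_cancel, hone x hx]
  -- commutators
  have hcomm : ∀ x ∈ Z hF, ∀ y ∈ Z hF, f x y = 1 := by
    rintro x hx _ ⟨b, h, rfl⟩
    obtain ⟨t, ht⟩ := exists_trace hF (c := (1 : F)) (one_pow _)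
    obtain ⟨b1, hb1⟩ : ∃ b1, Cd q (1 : F) b1 := by
      obtain ⟨b, hb⟩ := exists_trace hF (c := -((1 : F) * 1 ^ q)) (by
        rw [neg_pow_q hF, mul_pow, pow_q_pow_q hF, one_pow])
      exact ⟨b, by unfold Cd; linear_combination hb⟩
    obtain ⟨b2, hb2⟩ : ∃ b2, Cd q (t * b) b2 := by
      obtain ⟨b', hb⟩ := exists_trace hF (c := -((t * b) * (t * b) ^ q)) (by
        rw [neg_pow_q hF, mul_pow, pow_q_pow_q hF, mul_comm])
      exact ⟨b', by unfold Cd; linear_combination hb⟩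
    obtain ⟨h'', e⟩ := comm_uel hF hb1 hb2
    have hU1 : uel hF 1 b1 hb1 ∈ U hF := (mem_U hF).2 ⟨_, _, _, rfl⟩
    have hU2 : uel hF (t * b) b2 hb2 ∈ U hF := (mem_U hF).2 ⟨_, _, _, rfl⟩
    have e2 : uel hF 0 b h = uel hF 0 (t * b * 1 ^ q - 1 * (t * b) ^ q) h'' := by
      apply uel_eq hF rfl
      rw [Cd0 hF] at h
      rw [one_pow, mul_pow]
      linear_combination t ^ q * h - b * ht
    rw [e2, ← e, hf.mul_right x hx _ (mul_mem (mul_mem hU1 hU2) (inv_mem hU1)) _ (inv_mem hU2),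
      hf.mul_right x hx _ (mul_mem hU1 hU2) _ (inv_mem hU1), hf.mul_right x hx _ hU1 _ hU2, hinv x hx _ hU1, hinv x hx _ hU2]
    rw [mul_comm (f x _) (f x _)]; group
  obtain ⟨t, ht1, ht2⟩ := exists_t hF hq
  obtain ⟨a, b, h, rfl⟩ := (mem_U hF).1 hy
  have hne : ((ws q t : Fˣ) : F) - 1 ≠ 0 := fun h0 => ht2 (Units.ext (by rw [Units.val_one]; linear_combination h0))
  obtain ⟨b0, hb0⟩ : ∃ b0, Cd q (a / (((ws q t : Fˣ) : F) - 1)) b0 := by
    obtain ⟨b', hb⟩ := exists_trace hF (c := -((a / (((ws q t : Fˣ) : F) - 1)) * (a / (((ws q t : Fˣ) : F) - 1)) ^ q)) (by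
      rw [neg_pow_q hF, mul_pow, pow_q_pow_q hF, mul_comm])
    exact ⟨b', by unfold Cd; linear_combination hb⟩
  set w := uel hF (a / (((ws q t : Fˣ) : F) - 1)) b0 hb0 with hw
  have hwU : w ∈ U hF := (mem_U hF).2 ⟨_, _, _, rfl⟩
  have hw' : tor hF t * w * (tor hF t)⁻¹ ∈ U hF := conj_mem_Cs hF 0 t hwU
  have h1 : f x (tor hF t * w * (tor hF t)⁻¹) = f x w := by
    have := hf.inv (tor hF t) ⟨t, rfl⟩ x hx w hwU
    have e : tor hF t * x * (tor hF t)⁻¹ = x := by
      obtain ⟨b, h, rfl⟩ := hx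
      rw [tor_conj]
      exact uel_eq hF (by ring) (by rw [ht1, Units.val_one, one_mul])
    rwa [e] at this
  have h2 : w * uel hF a b h * (tor hF t * w * (tor hF t)⁻¹)⁻¹ ∈ Z hF := by
    obtain ⟨a', b', h', e⟩ := (mem_U hF).1 (mul_mem (mul_mem hwU hy) (inv_mem hw'))
    have e' := e
    rw [mul_inv_eq_iff_eq_mul, hw, uel_mul, tor_conj, uel_mul] at e'
    have e1 := (uel_inj hF e').1
    rw [e]
    apply (mem_Z_iff hF).2
    have e2 : a / (((ws q t : Fˣ) : F) - 1) * (((ws q t : Fˣ) : F) - 1) = a := div_mul_cancel₀ _ hne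
    linear_combination -e1 - e2
  have h3 := hcomm x hx _ h2
  rw [hf.mul_right x hx _ (mul_mem hwU hy) _ (inv_mem hw'), hf.mul_right x hx _ hwU _ hy, hinv x hx _ hw', h1] at h3
  rw [mul_comm (f x w) _, mul_inv_cancel_right] at h3
  exact h3

/-- the first layer -/
theorem pair_zero {A : Type*} [CommGroup A] {f : G3 F q → G3 F q → A} (hf : (dat hF hq p hp hpq).IsPairing 0 f) :
    ∀ x ∈ U hF, ∀ y ∈ U hF, f x y = 1 := by
  have hone : ∀ x ∈ U hF, f x 1 = 1 := by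
    intro x hx
    have := hf.mul_right x hx 1 (one_mem _) 1 (one_mem _)
    rw [mul_one] at this
    exact (mul_eq_left.1 this.symm)
  have hskew : ∀ x ∈ U hF, ∀ y ∈ U hF, f x y * f y x = 1 := by
    intro x hx y hy
    have h1 := hf.alt (x * y) (mul_mem hx hy)
    have hx0 := hf.alt x hx
    have hy0 := hf.alt y hy
    rw [hf.mul_left x hx y hy _ (mul_mem hx hy), hf.mul_right x hx x hx y hy, hf.mul_right y hy x hx y hy, hx0, hy0,
      one_mul, mul_one] at h1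
    exact h1
  have hZl : ∀ x ∈ Z hF, ∀ y ∈ U hF, f x y = 1 := fun x hx y hy => hf.left_one x hx y hy
  have hZr : ∀ x ∈ U hF, ∀ y ∈ Z hF, f x y = 1 := by
    intro x hx y hy
    have := hskew x hx y (Z_le hF hy)
    rwa [hZl y hy x hx, mul_one] at this
  have hm : ∀ {a b : F} (h : Cd q a b), uel hF a b h ∈ U hF := fun h => (mem_U hF).2 ⟨_, _, _, rfl⟩
  have hdiff : ∀ {a b c : F} (h : Cd q a b) (h' : Cd q a c), ∃ h'' : Cd q 0 (c - b), uel hF a c h' = uel hF 0 (c - b) h'' * uel hF a b h := by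
    intro a b c h h'
    have h'' : Cd q 0 (c - b) := by
      rw [Cd0 hF, sub_pow_q hF]; unfold Cd at h h'; linear_combination h' - h
    refine ⟨h'', ?_⟩
    rw [uel_mul]; exact uel_eq hF (by ring) (by ring)
  have hl : ∀ {a b c : F} (h : Cd q a b) (h' : Cd q a c), ∀ y ∈ U hF, f (uel hF a b h) y = f (uel hF a c h') y := by
    intro a b c h h' y hy
    obtain ⟨h'', e⟩ := hdiff h h'
    rw [e, hf.mul_left _ (Z_le hF ⟨_, h'', rfl⟩) _ (hm h) y hy, hZl _ ⟨_, h'', rfl⟩ y hy, one_mul]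
  have hr : ∀ {a b c : F} (h : Cd q a b) (h' : Cd q a c), ∀ y ∈ U hF, f y (uel hF a b h) = f y (uel hF a c h') := by
    intro a b c h h' y hy
    obtain ⟨h'', e⟩ := hdiff h h'
    rw [e, hf.mul_right y hy _ (Z_le hF ⟨_, h'', rfl⟩) _ (hm h), hZr y hy _ ⟨_, h'', rfl⟩, one_mul]
  have hex : ∀ a : F, ∃ b, Cd q a b := by
    intro a
    obtain ⟨b', hb⟩ := exists_trace hF (c := -(a * a ^ q)) (by
      rw [neg_pow_q hF, mul_pow, pow_q_pow_q hF, mul_comm])
    exact ⟨b', by unfold Cd; linear_combination hb⟩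
  choose bt hbt using hex
  set b : F → F → A := fun x y => f (uel hF x (bt x) (hbt x)) (uel hF y (bt y) (hbt y)) with hb
  have hbl : ∀ x x' y, b (x + x') y = b x y * b x' y := by
    intro x x' y
    simp only [hb]
    rw [← hf.mul_left _ (hm _) _ (hm _) _ (hm _), uel_mul]
    exact hl _ _ _ (hm _)
  have hbr : ∀ x y y', b x (y + y') = b x y * b x y' := by
    intro x y y'
    simp only [hb]
    rw [← hf.mul_right _ (hm _) _ (hm _) _ (hm _), uel_mul]
    exact hr _ _ _ (hm _)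
  have hbi : ∀ (t : Fˣ) x y, b ((ws q t : Fˣ) * x) ((ws q t : Fˣ) * y) = b x y := by
    intro t x y
    simp only [hb]
    have := hf.inv (tor hF t) ⟨t, rfl⟩ _ (hm (hbt x)) _ (hm (hbt y))
    rw [tor_conj, tor_conj, hl (Cd_w hF (hbt x) t) (hbt _) _ (hm _), hr (Cd_w hF (hbt y) t) (hbt _) _ (hm _)] at this
    exact this
  obtain ⟨t1, t2, e1, e2⟩ := exists_u hF hq
  have hb1 : ∀ x y, b x y = 1 := by
    intro x y
    set u := ((ws q t1 : Fˣ) : F) with hu
    set v := ((ws q t2 : Fˣ) : F) with hv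
    have hu0 : u ≠ 0 := (ws q t1).ne_zero
    have hv0 : v ≠ 0 := (ws q t2).ne_zero
    have hb0 : ∀ x, b x 0 = 1 := by
      intro x
      have := hbr x 0 0
      rw [add_zero] at this
      exact mul_eq_left.1 this.symm
    have key : ∀ z, b x (v⁻¹ * z) = b x (u⁻¹ * z) * b x z := by
      intro z
      have h1 : b (v * x) z = b x (v⁻¹ * z) := by
        have := hbi t2 x (v⁻¹ * z)
        rw [← hv, mul_inv_cancel_left₀ hv0] at this
        exact this
      have h2 : b (u * x) z = b x (u⁻¹ * z) := by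
        have := hbi t1 x (u⁻¹ * z)
        rw [← hu, mul_inv_cancel_left₀ hu0] at this
        exact this
      rw [← h1, ← h2, ← hbl]
      congr 1
      rw [e1]; ring
    have key2 : ∀ z, b x ((v⁻¹ - u⁻¹ - 1) * z) = 1 := by
      intro z
      have h3 : v⁻¹ * z = (v⁻¹ - u⁻¹ - 1) * z + (u⁻¹ * z + z) := by ring
      have h4 := key z
      rw [h3, hbr, hbr] at h4
      exact mul_eq_right.1 h4
    have hne : v⁻¹ - u⁻¹ - 1 ≠ 0 := by
      intro h0
      apply e2
      have hv' : v = u + 1 := e1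
      have h5 : (v⁻¹ - u⁻¹ - 1) * (u * v) = u - v - u * v := by field_simp
      rw [h0, zero_mul] at h5
      rw [hv'] at h5
      linear_combination h5
    have := key2 ((v⁻¹ - u⁻¹ - 1)⁻¹ * y)
    rwa [mul_inv_cancel_left₀ hne] at this
  intro x hx y hy
  obtain ⟨a, c, h, rfl⟩ := (mem_U hF).1 hx
  obtain ⟨a', c', h', rfl⟩ := (mem_U hF).1 hy
  rw [hl h (hbt a) _ hy, hr h' (hbt a') _ (hm _)]
  exact hb1 a a'

/-- **the defining characteristic part of the multiplier of `SU₃(q)` is trivial for `q ≥ 3`** -/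
theorem pStemDvd (hF : Fintype.card F = q ^ 2) (hq : 3 ≤ q) (p : ℕ) [hcp : CharP F p] : PStemDvd p (SU 3 F q) 1 := by
  obtain ⟨p', e, hp', hc, hqe, he⟩ := exists_char hF
  have hpp : p = p' := CharP.eq F hcp hc
  subst hpp
  haveI := Fact.mk hp'
  obtain ⟨eq⟩ := exists_iso hF
  refine PStemDvd.congr eq ?_
  intro Γ _ _ σ hσ hk
  have h1 := BDat.main hσ (dat hF hq p hp' ⟨e, he, hqe⟩) hk (fun _ _ _ => False) (fun _ _ _ _ _ h => h.elim) ?_
  · rw [h1]
  · intro k hk' A _ f _ hf _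
    have hk2 : k < 2 := hk'
    interval_cases k
    · exact pair_zero hF hq hp' ⟨e, he, hqe⟩ hf
    · exact pair_one hF hq hp' ⟨e, he, hqe⟩ hf

end Cfsg.Agent.Lib.MSU3p
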