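import Cfsg.Agent.Lib.PhanMulA
import Cfsg.Agent.Lib.H3USim
import Cfsg.Agent.Lib.SchurSylow

/-! The multipliers of special unitary groups: the inductive step from `SU_{n-1}` to `SU_n` (helper35). -/

set_option autoImplicit false
set_option linter.unusedSectionVars false
set_option linter.unusedSimpArgs false
set_option linter.unusedVariables false

namespace Cfsg.Agent.Lib.PhanMul

open Cfsg Cfsg.Agent.Lib.Phan Cfsg.Agent.Lib.SchurSylow Cfsg.Agent.Lib.ClUnitary
open Subgroup (center mem_center_iff)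
open scoped commutatorElement Matrix

universe u

section general
variable {G : Type u} [Group G] {Γ : Type u} [Group Γ] {σ : Γ →* G}

theorem comm_ker (hc : σ.ker ≤ center Γ) {z : Γ} (hz : σ z = 1) (g : Γ) : g * z = z * g := mem_center_iff.1 (hc hz) g

/-- commuting subgroups one of which is perfect have commuting preimages -/
theorem comm_lift (hs : Function.Surjective σ) (hc : σ.ker ≤ center Γ) {Q : Type*} [Group Q] (hQ : commutator Q = ⊤)
    (j : Q →* G) {b : Γ} (hb : ∀ x, j x * σ b = σ b * j x) {a : Γ} {x : Q} (ha : σ a = j x) : a * b = b * a := by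
  have key : (⊤ : Subgroup Q) ≤ ((Subgroup.centralizer {b}).map σ).comap j := by
    rw [← hQ, _root_.commutator_def, Subgroup.commutator_le]
    intro x _ y _
    obtain ⟨c, hcx⟩ := hs (j x)
    obtain ⟨d, hdy⟩ := hs (j y)
    refine ⟨⁅c, d⁆, ?_, ?_⟩
    · show ⁅c, d⁆ ∈ Subgroup.centralizer {b}
      rw [Subgroup.mem_centralizer_singleton_iff]
      have h1 : σ (c * b * c⁻¹ * b⁻¹) = 1 := by
        rw [map_mul, map_mul, map_mul, map_inv, map_inv, hcx, hb]; group
      have h2 : σ (d * b * d⁻¹ * b⁻¹) = 1 := by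
        rw [map_mul, map_mul, map_mul, map_inv, map_inv, hdy, hb]; group
      set z := c * b * c⁻¹ * b⁻¹ with hz
      set w := d * b * d⁻¹ * b⁻¹ with hw
      have e1 : c * b = z * b * c := by rw [hz]; group
      have e2 : d * b = w * b * d := by rw [hw]; group
      have zc := comm_ker hc h1
      have wc := comm_ker hc h2
      -- conjugation by c multiplies b by z
      have f1 : c * b * c⁻¹ = z * b := by rw [e1]; group
      have f2 : d * b * d⁻¹ = w * b := by rw [e2]; group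
      have f3 : c⁻¹ * b * c = z⁻¹ * b := by
        have h5 : b * c = z⁻¹ * (c * b) := by rw [e1]; group
        rw [mul_assoc, h5, ← mul_assoc, ← mul_assoc]
        have h6 := zc c⁻¹
        have h7 : c⁻¹ * z⁻¹ = z⁻¹ * c⁻¹ := by
          have := zc c
          rw [← mul_inv_rev, ← mul_inv_rev, ← this]
        rw [h7]; group
      have f4 : d⁻¹ * b * d = w⁻¹ * b := by
        have h5 : b * d = w⁻¹ * (d * b) := by rw [e2]; group
        rw [mul_assoc, h5, ← mul_assoc, ← mul_assoc]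
        have h7 : d⁻¹ * w⁻¹ = w⁻¹ * d⁻¹ := by
          have := wc d
          rw [← mul_inv_rev, ← mul_inv_rev, ← this]
        rw [h7]; group
      have g1 : ⁅c, d⁆ * b * ⁅c, d⁆⁻¹ = b := by
        have s1 : ⁅c, d⁆ * b * ⁅c, d⁆⁻¹ = c * (d * (c⁻¹ * (d⁻¹ * b * d) * c) * d⁻¹) * c⁻¹ := by
          rw [commutatorElement_def]; group
        have hwi : ∀ g, g * w⁻¹ = w⁻¹ * g := fun g => (show Commute g w from wc g).inv_right.eq
        have hzi : ∀ g, g * z⁻¹ = z⁻¹ * g := fun g => (show Commute g z from zc g).inv_right.eq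
        rw [s1, f4]
        have s2 : c⁻¹ * (w⁻¹ * b) * c = w⁻¹ * (c⁻¹ * b * c) := by rw [← mul_assoc, hwi]; group
        rw [s2, f3]
        have s3 : d * (w⁻¹ * (z⁻¹ * b)) * d⁻¹ = w⁻¹ * z⁻¹ * (d * b * d⁻¹) := by
          rw [← mul_assoc, hwi, mul_assoc w⁻¹ d, ← mul_assoc d, hzi]; group
        rw [s3, f2]
        have s4 : w⁻¹ * z⁻¹ * (w * b) = z⁻¹ * b := by
          rw [mul_assoc, ← mul_assoc z⁻¹, wc z⁻¹]; group
        rw [s4]
        have s5 : c * (z⁻¹ * b) * c⁻¹ = z⁻¹ * (c * b * c⁻¹) := by rw [← mul_assoc, hzi]; group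
        rw [s5, f1]; group
      have := mul_inv_eq_iff_eq_mul.1 g1
      exact this
    · rw [map_commutatorElement, hcx, hdy, map_commutatorElement]
  obtain ⟨c, hc1, hc2⟩ := key (Subgroup.mem_top x)
  have hc1' : c * b = b * c := Subgroup.mem_centralizer_singleton_iff.1 hc1
  have h3 : σ (c⁻¹ * a) = 1 := by rw [map_mul, map_inv, hc2, ha, inv_mul_cancel]
  have h4 := comm_ker hc h3
  have e : a = c * (c⁻¹ * a) := by group
  rw [e]
  set z := c⁻¹ * a
  calc c * z * b = c * (b * z) := by rw [mul_assoc, h4 b]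
    _ = b * (c * z) := by rw [← mul_assoc, hc1', mul_assoc]

/-- sections over perfect groups without multiplier -/
theorem exists_section {r : ℕ} [Finite Γ] (hs : Function.Surjective σ) (hc : σ.ker ≤ center Γ) (hk : IsPGroup r σ.ker)
    {Q : Type u} [Group Q] (hQ : commutator Q = ⊤) (hM : PStemDvd r Q 1) (j : Q →* G) (hj : Function.Injective j) :
    ∃ f : Q →* Γ, ∀ x, σ (f x) = j x := by
  let E : Subgroup (Γ × Q) :=
    { carrier := {p | σ p.1 = j p.2}
      one_mem' := by show σ 1 = j 1; rw [map_one, map_one]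
      mul_mem' := by
        intro a b ha hb
        show σ (a.1 * b.1) = j (a.2 * b.2)
        rw [map_mul, map_mul, show σ a.1 = j a.2 from ha, show σ b.1 = j b.2 from hb]
      inv_mem' := by
        intro a ha
        show σ a.1⁻¹ = j a.2⁻¹
        rw [map_inv, map_inv, show σ a.1 = j a.2 from ha] }
  have hE : ∀ p : E, σ p.1.1 = j p.1.2 := fun p => p.2
  haveI : Finite Q := by
    have hfin : Finite E := by
      refine Finite.of_injective (fun p : E => p.1.1) ?_
      intro p p' h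
      apply Subtype.ext
      refine Prod.ext h ?_
      apply hj
      rw [← hE, ← hE]
      exact congrArg σ h
    refine Finite.of_surjective (fun p : E => p.1.2) ?_
    intro x
    obtain ⟨a, ha⟩ := hs (j x)
    exact ⟨⟨(a, x), ha⟩, rfl⟩
  let π : E →* Q := (MonoidHom.snd _ _).comp E.subtype
  have hπs : Function.Surjective π := by
    intro x
    obtain ⟨a, ha⟩ := hs (j x)
    exact ⟨⟨(a, x), ha⟩, rfl⟩
  have hπk : ∀ p : E, π p = 1 → p.1.1 ∈ σ.ker := by
    intro p hp
    have : p.1.2 = 1 := hp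
    rw [MonoidHom.mem_ker, hE, this, map_one]
  have hπc : π.ker ≤ center E := by
    intro p hp
    rw [mem_center_iff]
    intro g
    apply Subtype.ext
    refine Prod.ext ?_ ?_
    · exact mem_center_iff.1 (hc (hπk p hp)) _
    · have : p.1.2 = 1 := hp
      show g.1.2 * p.1.2 = p.1.2 * g.1.2
      rw [this]; group
  set D : Subgroup E := commutator E with hD
  let τ : D →* Q := π.comp D.subtype
  have hτs : Function.Surjective τ := by
    have h1 : D.map π = ⊤ := by
      rw [hD, _root_.commutator_def, Subgroup.map_commutator, ← MonoidHom.range_eq_map, MonoidHom.range_eq_top.2 hπs,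
        ← _root_.commutator_def, hQ]
    intro x
    have : x ∈ D.map π := by rw [h1]; trivial
    obtain ⟨d, hd, e⟩ := this
    exact ⟨⟨d, hd⟩, e⟩
  -- every element of E is an element of D times a central one
  have hED : ∀ e : E, ∃ d ∈ D, ∃ z ∈ center E, e = d * z := by
    intro e
    obtain ⟨d, hd⟩ := hτs (π e)
    refine ⟨d, d.2, (d : E)⁻¹ * e, hπc ?_, by group⟩
    rw [MonoidHom.mem_ker, map_mul, map_inv]
    have : π (d : E) = π e := hd
    rw [this, inv_mul_cancel]
  have hDp : commutator D = ⊤ := by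
    rw [eq_top_iff]
    have h1 : D ≤ (commutator D).map D.subtype := by
      conv_lhs => rw [hD, _root_.commutator_def]
      rw [Subgroup.commutator_le]
      intro a _ b _
      obtain ⟨d, hd, z, hz, rfl⟩ := hED a
      obtain ⟨d', hd', z', hz', rfl⟩ := hED b
      have e : ⁅d * z, d' * z'⁆ = ⁅d, d'⁆ := by
        have c1 := mem_center_iff.1 hz
        have c2 := mem_center_iff.1 hz'
        rw [commutatorElement_def, commutatorElement_def, mul_inv_rev, mul_inv_rev]
        calc d * z * (d' * z') * (z⁻¹ * d⁻¹) * (z'⁻¹ * d'⁻¹) = d * (z * (d' * z')) * z⁻¹ * d⁻¹ * z'⁻¹ * d'⁻¹ := by group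
          _ = d * (d' * z' * z) * z⁻¹ * d⁻¹ * z'⁻¹ * d'⁻¹ := by rw [c1]
          _ = d * d' * (z' * d⁻¹) * z'⁻¹ * d'⁻¹ := by group
          _ = d * d' * (d⁻¹ * z') * z'⁻¹ * d'⁻¹ := by rw [c2]
          _ = _ := by group
      rw [e]
      refine ⟨⁅(⟨d, hd⟩ : D), (⟨d', hd'⟩ : D)⁆, Subgroup.commutator_mem_commutator trivial trivial, ?_⟩
      rw [map_commutatorElement]; rfl
    intro x _
    obtain ⟨y, hy, e⟩ := h1 x.2
    have : y = x := Subtype.ext e
    rwa [this] at hy
  have hstem : IsStemExtension τ := by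
    refine ⟨hτs, ?_, ?_⟩
    · intro d hd
      rw [mem_center_iff]
      intro g
      apply Subtype.ext
      exact mem_center_iff.1 (hπc (show (d : E) ∈ π.ker from hd)) _
    · rw [hDp]; exact le_top
  obtain ⟨Γ', _, _, ⟨e'⟩⟩ := exists_copy.{u, u} D
  have hkp : IsPGroup r τ.ker := by
    let ι : τ.ker →* σ.ker :=
      { toFun := fun d => ⟨d.1.1.1.1, hπk _ d.2⟩
        map_one' := rfl
        map_mul' := fun _ _ => rfl }
    refine hk.of_injective ι ?_
    intro a b hab
    have h1 : a.1.1.1.1 = b.1.1.1.1 := congrArg Subtype.val hab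
    apply Subtype.ext; apply Subtype.ext; apply Subtype.ext
    refine Prod.ext h1 ?_
    have h2 : a.1.1.1.2 = 1 := a.2
    have h3 : b.1.1.1.2 = 1 := b.2
    rw [h2, h3]
  have hcard := hM D τ hstem hkp
  rw [Nat.dvd_one] at hcard
  have hinj : Function.Injective τ := by
    rw [← MonoidHom.ker_eq_bot_iff]
    exact Subgroup.card_eq_one.1 hcard
  let ε : D ≃* Q := MulEquiv.ofBijective τ ⟨hinj, hτs⟩
  refine ⟨((MonoidHom.fst _ _).comp E.subtype).comp (D.subtype.comp ε.symm.toMonoidHom), fun x => ?_⟩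
  show σ (ε.symm x).1.1.1 = j x
  rw [hE]
  have : (ε.symm x).1.1.2 = ε (ε.symm x) := rfl
  rw [this, MulEquiv.apply_symm_apply]

/-- a stem extension with a section is trivial -/
theorem card_of_section (hσ : IsStemExtension σ) (Φ : G →* Γ) (hΦ : ∀ g, σ (Φ g) = g) : Nat.card σ.ker = 1 := by
  rw [Subgroup.card_eq_one, eq_bot_iff]
  intro z hz
  letI : CommGroup ↥σ.ker :=
    { (inferInstance : Group ↥σ.ker) with
      mul_comm := fun x y => Subtype.ext (mem_center_iff.1 (hσ.2.1 y.2) x) }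
  let χ : Γ →* σ.ker :=
    { toFun := fun g => ⟨(Φ (σ g))⁻¹ * g, by rw [MonoidHom.mem_ker, map_mul, map_inv, hΦ, inv_mul_cancel]⟩
      map_one' := Subtype.ext (by show (Φ (σ 1))⁻¹ * 1 = 1; simp)
      map_mul' := by
        intro a b
        apply Subtype.ext
        show (Φ (σ (a * b)))⁻¹ * (a * b) = (Φ (σ a))⁻¹ * a * ((Φ (σ b))⁻¹ * b)
        have h1 : σ ((Φ (σ a))⁻¹ * a) = 1 := by rw [map_mul, map_inv, hΦ, inv_mul_cancel]
        have h2 := comm_ker hσ.2.1 h1 (Φ (σ b))⁻¹
        rw [map_mul, map_mul, mul_inv_rev]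
        calc (Φ (σ b))⁻¹ * (Φ (σ a))⁻¹ * (a * b) = (Φ (σ b))⁻¹ * ((Φ (σ a))⁻¹ * a) * b := by group
          _ = _ := by rw [h2]; group }
  have h1 : χ z = 1 := Abelianization.commutator_subset_ker χ (hσ.2.2 hz)
  have h2 : (Φ (σ z))⁻¹ * z = 1 := congrArg Subtype.val h1
  have hz' : σ z = 1 := hz
  rw [hz', map_one, inv_one, one_mul] at h2
  rw [h2]; exact one_mem _

end general

variable {F : Type u} [Field F] {k n m q : ℕ}

theorem exists_perm (j j' : Fin k ↪ Fin n) : ∃ π : Equiv.Perm (Fin n), ∀ b, π (j b) = j' b := by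
  classical
  let e : {x // x ∈ Set.range j} ≃ {x // x ∈ Set.range j'} :=
    (Equiv.ofInjective j j.injective).symm.trans (Equiv.ofInjective j' j'.injective)
  refine ⟨e.extendSubtype, fun b => ?_⟩
  rw [Equiv.extendSubtype_apply_of_mem e (j b) ⟨b, rfl⟩]
  show ((Equiv.ofInjective j' j'.injective) ((Equiv.ofInjective j j.injective).symm ⟨j b, _⟩) : Fin n) = j' b
  rw [Equiv.ofInjective_symm_apply]; rfl

section finite
variable [Fintype F] (hF : Fintype.card F = q ^ 2)
include hF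

/-- monomial elements moving blocks -/
theorem exists_w (hkn : k < n) (j j' : Fin k ↪ Fin n) :
    ∃ w : SU n F q, ∀ b, w.1.1 *ᵥ Pi.single (j b) 1 = Pi.single (j' b) 1 := by
  classical
  obtain ⟨π, hπ⟩ := exists_perm j j'
  obtain ⟨a0, ha0⟩ : ∃ a, a ∉ Set.range j := by
    by_contra hcon
    push Not at hcon
    have h1 := Fintype.card_le_of_surjective j (fun a => hcon a)
    rw [Fintype.card_fin, Fintype.card_fin] at h1
    omega
  set s : ℤˣ := Equiv.Perm.sign π⁻¹ with hs
  set c : F := ((s : ℤ) : F) with hc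
  have hc2 : c * c = 1 := by
    rw [hc, ← Int.cast_mul, ← Units.val_mul, Int.units_mul_self]; simp
  have hcq : c ^ (q + 1) = 1 := by
    rcases Int.units_eq_one_or s with h | h
    · rw [hc, h]; simp
    · rw [hc, h]
      have h1 : (((-1 : ℤˣ) : ℤ) : F) = -1 := by simp
      rw [h1, pow_succ]
      have h2 : (-1 : F) ^ q = -1 := by
        have := HermMat.neg_pow_q hF (1 : F)
        rwa [one_pow] at this
      rw [h2]; ring
  let d : Fin n → F := fun a => if a = a0 then c else 1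
  let M : Matrix (Fin n) (Fin n) F := (π⁻¹).permMatrix F * Matrix.diagonal d
  have hdet : M.det = 1 := by
    show ((π⁻¹).permMatrix F * Matrix.diagonal d).det = 1
    rw [Matrix.det_mul, Matrix.det_permutation, Matrix.det_diagonal, Finset.prod_ite_eq']
    rw [if_pos (Finset.mem_univ _)]
    exact hc2
  have hU : IsUn q M := (isUn_perm _).mul (isUn_diagonal (fun i => by
    show (if i = a0 then c else 1) ^ (q + 1) = 1
    split_ifs
    · exact hcq
    · exact one_pow _))
  refine ⟨⟨⟨M, hdet⟩, hU⟩, fun b => ?_⟩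
  show ((π⁻¹).permMatrix F * Matrix.diagonal d) *ᵥ Pi.single (j b) 1 = _
  rw [← Matrix.mulVec_mulVec, Matrix.diagonal_mulVec_single, Matrix.permMatrix_mulVec]
  have h1 : d (j b) = 1 := by
    show (if j b = a0 then c else 1) = 1
    rw [if_neg (fun h => ha0 ⟨b, h⟩)]
  rw [h1, one_mul]
  funext a
  show (Pi.single (j b) 1 : Fin n → F) (π⁻¹ a) = (Pi.single (j' b) 1 : Fin n → F) a
  rw [Pi.single_apply, Pi.single_apply]
  have h2 : π⁻¹ a = j b ↔ a = j' b := by rw [Equiv.Perm.inv_eq_iff_eq, hπ]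
  simp only [h2]

/-- conjugating block elements -/
theorem conj_blk (j j' : Fin k ↪ Fin n) {w : SU n F q} (hw : ∀ b, w.1.1 *ᵥ Pi.single (j b) 1 = Pi.single (j' b) 1)
    (s : SU k F q) : w * blk j s * w⁻¹ = blk j' s := by
  apply SU_ext
  intro v
  rw [mul_mulVec', mul_mulVec', blk_coe, blkM_mulVec, blk_coe, blkM_mulVec, Matrix.mulVec_add]
  have h1 : w.1.1 *ᵥ (w⁻¹.1.1 *ᵥ v) = v := by
    rw [← mul_mulVec', mul_inv_cancel]; exact Matrix.one_mulVec v
  have h2 : ((w⁻¹.1.1 *ᵥ v) ∘ j) = v ∘ j' := by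
    funext b
    have h5 := herm_single (q := q) hF (j b) (w⁻¹.1.1 *ᵥ v)
    have h6 := herm_single (q := q) hF (j' b) v
    show (w⁻¹.1.1 *ᵥ v) (j b) = v (j' b)
    rw [← h5, ← h6, ← herm_blk' hF w, h1, hw]
  have h3 : ∀ u : Fin k → F, w.1.1 *ᵥ ext j u = ext j' u := by
    intro u
    have e : ∀ (i : Fin k ↪ Fin n), ext i u = ∑ b, u b • (Pi.single (i b) 1 : Fin n → F) := by
      intro i
      have hu : u = ∑ b, u b • (Pi.single b 1 : Fin k → F) := by
        funext a
        simp [Finset.sum_apply, Pi.single_apply]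
      conv_lhs => rw [hu]
      rw [ext, Matrix.mulVec_sum]
      refine Finset.sum_congr rfl fun b _ => ?_
      rw [Matrix.mulVec_smul]
      congr 1
      exact ext_single i b 1
    rw [e, e, Matrix.mulVec_sum]
    refine Finset.sum_congr rfl fun b _ => ?_
    rw [Matrix.mulVec_smul, hw]
  rw [h1, h2, h3]

/-- **the inductive step for the multipliers of special unitary groups** -/
theorem mul_step {r : ℕ} [hr : Fact r.Prime] (hm : 1 ≤ m) (hinj : (m = 1 ∧ 4 ≤ q) ∨ (2 ≤ m ∧ 3 ≤ q) ∨ 4 ≤ m)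
    (hp1 : commutator (SU (m + 1) F q) = ⊤) (hp2 : commutator (SU (m + 2) F q) = ⊤)
    (hM : PStemDvd r (SU (m + 2) F q) 1) : PStemDvd r (SU (m + 3) F q) 1 := by
  intro Γ _ _ σ hσ hk
  obtain ⟨fH, hfH⟩ := exists_section hσ.1 hσ.2.1 hk hp2 hM (blk (sh 0 (show 0 + (m + 2) ≤ m + 3 by omega))) (blk_inj _)
  obtain ⟨w, hw⟩ := exists_w (F := F) hF (show 3 < m + 3 by omega) (sh 0 (show 0 + 3 ≤ m + 3 by omega))
    (sh m (show m + 3 ≤ m + 3 by omega))
  obtain ⟨w', hw'⟩ := exists_w (F := F) hF (show 2 < m + 2 by omega) (sh 0 (show 0 + 2 ≤ m + 2 by omega))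
    (sh m (show m + 2 ≤ m + 2 by omega))
  obtain ⟨g, hg⟩ := hσ.1 w
  let ψ : SU 3 F q →* Γ := (MulAut.conj g).toMonoidHom.comp (fH.comp (blk (sh 0 (show 0 + 3 ≤ m + 2 by omega))))
  have hψ : ∀ s, ψ s = g * fH (blk (sh 0 (show 0 + 3 ≤ m + 2 by omega)) s) * g⁻¹ := fun s => rfl
  have hσψ : ∀ s, σ (ψ s) = blk (sh m (show m + 3 ≤ m + 3 by omega)) s := by
    intro s
    rw [hψ, map_mul, map_mul, map_inv, hfH, hg, blk_sh, conj_blk hF _ _ hw]
  have hcompat : ∀ s : SU 2 F q, fH (blk (sh m (by omega)) s) = ψ (blk (sh 0 (by omega)) s) := by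
    intro s
    rw [hψ, blk_sh, ← conj_blk hF _ _ hw' s, map_mul, map_mul, map_inv]
    have h1 : (fH w')⁻¹ * g * fH (blk (sh (0 + 0) (by omega)) s) = fH (blk (sh (0 + 0) (by omega)) s) * ((fH w')⁻¹ * g) := by
      have h2 : ∃ x : SU (m + 1) F q, blk (sh 2 (show 2 + (m + 1) ≤ m + 3 by omega)) x = σ ((fH w')⁻¹ * g) := by
        apply mem_blk hF
        intro a ha
        have h3 := range_sh ha
        have h4 : a.1 < 2 := by have := a.2; omega
        rw [map_mul, map_inv, hfH, hg, mul_mulVec']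
        obtain ⟨b, hb⟩ : ∃ b : Fin 2, b.1 = a.1 := ⟨⟨a.1, h4⟩, rfl⟩
        have e1 : a = sh 0 (show 0 + 3 ≤ m + 3 by omega) ⟨b.1, by omega⟩ := Fin.ext (by rw [sh_apply]; simp only []; omega)
        rw [e1, hw]
        have e2 : (sh m (show m + 3 ≤ m + 3 by omega) ⟨b.1, by omega⟩ : Fin (m + 3)) =
            sh 0 (show 0 + (m + 2) ≤ m + 3 by omega) (sh m (show m + 2 ≤ m + 2 by omega) b) := by
          apply Fin.ext; rw [sh_apply, sh_apply, sh_apply]; simp only []; omega
        have e3 : (sh 0 (show 0 + 3 ≤ m + 3 by omega) ⟨b.1, by omega⟩ : Fin (m + 3)) =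
            sh 0 (show 0 + (m + 2) ≤ m + 3 by omega) (sh 0 (show 0 + 2 ≤ m + 2 by omega) b) := by
          apply Fin.ext; rw [sh_apply, sh_apply, sh_apply]; simp only []; omega
        rw [e2, e3, ← ext_single (sh 0 (show 0 + (m + 2) ≤ m + 3 by omega)) (sh m (show m + 2 ≤ m + 2 by omega) b), ← hw' b,
          ← blkM_ext, ext_single]
        exact inv_mulVec' _ _
      obtain ⟨x, hx⟩ := h2
      refine comm_lift hσ.1 hσ.2.1 hp1 (blk (sh 2 (show 2 + (m + 1) ≤ m + 3 by omega))) ?_ hx.symm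
      intro x
      rw [hfH, blk_sh]
      apply blk_comm
      intro a b
      rw [sh_apply, sh_apply, Ne, Fin.ext_iff]
      have := b.2
      simp only []
      omega
    rw [show fH w' * fH (blk (sh 0 (by omega)) s) * (fH w')⁻¹ = fH w' * (fH (blk (sh 0 (by omega)) s) * ((fH w')⁻¹ * g)) * g⁻¹ by group]
    have h5 : fH (blk (sh 0 (show 0 + 2 ≤ m + 2 by omega)) s) = fH (blk (sh (0 + 0) (show 0 + 0 + 2 ≤ m + 2 by omega)) s) := rfl
    rw [h5, ← h1]; group
  have hcomm : ∀ (h : SU (m + 1) F q) (k : SU 2 F q), fH (blk (sh 0 (by omega)) h) * ψ (blk (sh 1 (by omega)) k) =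
      ψ (blk (sh 1 (by omega)) k) * fH (blk (sh 0 (by omega)) h) := by
    intro h k
    refine comm_lift hσ.1 hσ.2.1 hp1 (blk (sh (0 + 0) (show 0 + 0 + (m + 1) ≤ m + 3 by omega))) ?_ (x := h) ?_
    · intro x
      rw [hσψ, blk_sh]
      apply blk_comm
      intro a b
      rw [sh_apply, sh_apply, Ne, Fin.ext_iff]
      have := a.2
      simp only []
      omega
    · rw [hfH, blk_sh]
  obtain ⟨Φ, hΦ1, hΦ2⟩ := step_gen hF hm fH ψ hcompat hcomm hinj
  have hsec : ∀ g, σ (Φ g) = g := by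
    have h1 : (⊤ : Subgroup (SU (m + 3) F q)) ≤ (σ.comp Φ).eqLocus (MonoidHom.id _) := by
      rw [← gen_step2 (m := m) hF hm, sup_le_iff]
      constructor
      · rintro _ ⟨h, rfl⟩
        show σ (Φ _) = _
        rw [hΦ1, hfH]; rfl
      · rintro _ ⟨s, rfl⟩
        show σ (Φ _) = _
        rw [hΦ2, hσψ, blk_sh]; rfl
    intro g
    exact h1 (Subgroup.mem_top g)
  rw [card_of_section hσ Φ hsec]

/-- `q ≥ 3`, from rank at least four on -/
theorem mul_step3 {r : ℕ} [hr : Fact r.Prime] (hm : 2 ≤ m) (hq : 3 ≤ q) (hM : PStemDvd r (SU (m + 2) F q) 1) :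
    PStemDvd r (SU (m + 3) F q) 1 :=
  mul_step hF (by omega) (Or.inr (Or.inl ⟨hm, hq⟩)) (H3USim.su_perfect hF _ (by omega) (by omega))
    (H3USim.su_perfect hF _ (by omega) (by omega)) hM

/-- all `q`, from rank at least seven on -/
theorem mul_step2 {r : ℕ} [hr : Fact r.Prime] (hm : 4 ≤ m) (hM : PStemDvd r (SU (m + 2) F q) 1) :
    PStemDvd r (SU (m + 3) F q) 1 :=
  mul_step hF (by omega) (Or.inr (Or.inr hm)) (H3USim.su_perfect hF _ (by omega) (by omega))
    (H3USim.su_perfect hF _ (by omega) (by omega)) hM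

end finite

end Cfsg.Agent.Lib.PhanMul
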