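import Cfsg.Agent.Lib.H3MU5
import Cfsg.Agent.Lib.MSU3p
import Cfsg.Agent.Lib.PhanMulB
import Cfsg.Agent.Lib.H3U43M
import Cfsg.Agent.Lib.H3U62M
import Cfsg.Agent.Lib.H3U52M
import Cfsg.Agent.Lib.SchurBasic
import Cfsg.Agent.Lib.SUTransport
import Cfsg.Agent.S3958

/-!
# The Schur multipliers of the special unitary groups: base cases and assembly (helper3)
-/

set_option autoImplicit false

namespace Cfsg.Agent.Lib.H3MU

open Matrix Subgroup Cfsg Cfsg.Agent.Lib Cfsg.Agent.Lib.SchurSylow Cfsg.Agent.Lib.ClUnitary Cfsg.Agent.Lib.H3Prj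

universe u v w

theorem charP_of_dvd {F : Type u} [Field F] [Fintype F] {q r : ℕ} [hr : Fact r.Prime] (hF : Fintype.card F = q ^ 2)
    (h : r ∣ q) : CharP F r := by
  obtain ⟨p, hp⟩ := CharP.exists F
  haveI := hp
  obtain ⟨n, hpp, hn⟩ := FiniteField.card F p
  have h1 : r ∣ p ^ (n : ℕ) := by rw [← hn, hF]; exact h.trans (dvd_pow_self q two_ne_zero)
  have h2 := (Nat.prime_dvd_prime_iff_eq hr.out hpp).1 (hr.out.dvd_of_dvd_pow h1)
  rw [h2]; exact hp

/-- rank three, `q ≥ 4` -/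
theorem su3_all {F : Type u} [Field F] [Fintype F] {q : ℕ} (hF : Fintype.card F = q ^ 2) (h4 : 4 ≤ q) {r : ℕ}
    [hr : Fact r.Prime] : PStemDvd r (SU 3 F q) 1 := by
  by_cases h1 : r ∣ q
  · haveI := charP_of_dvd hF h1
    exact MSU3p.pStemDvd hF (by omega) r
  · by_cases h2 : r ∣ q ^ 2 - q + 1
    · by_cases h3 : r = 3
      · subst h3
        have hle : q ≤ q ^ 2 := by nlinarith
        have h5 : 3 ∣ (q + 1) ^ 2 := by
          have : (q + 1) ^ 2 = (q ^ 2 - q + 1) + 3 * q := by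
            zify [hle]; ring
          rw [this]
          exact dvd_add h2 (dvd_mul_right _ _)
        exact su3_mult_three hF (Nat.prime_three.dvd_of_dvd_pow h5) (by omega)
      · exact su3_mult_cyc hF h2 h3
    · exact su3_mult_gu hF h4 h1 h2

/-! ### the small base cases -/

theorem SU_card {F : Type u} [Field F] [Fintype F] {q : ℕ} (hF : Fintype.card F = q ^ 2) (n : ℕ) (hn : 0 < n) (N : ℕ)
    (h : q ^ (n * (n - 1) / 2) * ∏ i ∈ Finset.range n, (if Even i then q ^ (i + 1) + 1 else q ^ (i + 1) - 1) = (q + 1) * N) :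
    Nat.card (SU n F q) = N := by
  have h1 := card_SU (n := n) hF hn
  rw [h] at h1
  exact Nat.eq_of_mul_eq_mul_left (by omega) h1

theorem of_sq {G : Type u} [Group G] [Finite G] {N a b m : ℕ} (hN : Nat.card G = 2 ^ a * (3 ^ b * m)) {r : ℕ} [hr : Fact r.Prime]
    (h2 : r ≠ 2) (h3 : r ≠ 3) (hm0 : 0 < m) (hm : ∀ r < m + 1, 5 ≤ r → r * r ≤ m → ¬ r ^ 2 ∣ m) : PStemDvd r G 1 := by
  apply H92Stem.pStemDvd_of_sq
  rw [hN]
  intro h
  have h5 : 5 ≤ r := by
    have := hr.out.two_le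
    rcases (show r = 2 ∨ r = 3 ∨ r = 4 ∨ 5 ≤ r by omega) with h | h | h | h
    · exact absurd h h2
    · exact absurd h h3
    · subst h; exact absurd hr.out (by norm_num)
    · exact h
  have c2 : (r ^ 2).Coprime (2 ^ a) := Nat.Coprime.pow _ _ ((Nat.coprime_primes hr.out Nat.prime_two).2 h2)
  have c3 : (r ^ 2).Coprime (3 ^ b) := Nat.Coprime.pow _ _ ((Nat.coprime_primes hr.out Nat.prime_three).2 h3)
  have h6 := c3.dvd_of_dvd_mul_left (c2.dvd_of_dvd_mul_left h)
  have h7 := Nat.le_of_dvd hm0 h6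
  exact hm r (by nlinarith) h5 (by nlinarith) h6

theorem transport {F E : Type*} [Field F] [Fintype F] [Field E] [Fintype E] (h : Fintype.card F = Fintype.card E) {n q r : ℕ}
    (hM : PStemDvd r (SU n F q) 1) : PStemDvd r (SU n E q) 1 :=
  hM.congr (SUTransport.suEquiv (FiniteField.ringEquivOfCardEq h) n q)

open Cfsg.Agent.Lib.H58J2 Cfsg.Agent.Lib.H58F9 in
/-- `SU_3(3)` -/
theorem su33 {F : Type u} [Field F] [Fintype F] (hF : Fintype.card F = 3 ^ 2) {r : ℕ} [hr : Fact r.Prime] :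
    PStemDvd r (SU 3 F 3) 1 := by
  by_cases h3 : r = 3
  · subst h3
    haveI := charP_of_dvd hF (dvd_refl 3)
    exact MSU3p.pStemDvd hF le_rfl 3
  · by_cases h2 : r = 2
    · subst h2
      exact transport (by rw [hF9, hF]) (H58SM.U3.two.congr (MulEquiv.ofBijective toSU toSU_bij))
    · refine of_sq (N := 6048) (a := 5) (b := 3) (m := 7) ?_ h2 h3 (by norm_num) (by decide +kernel)
      refine SU_card hF 3 (by norm_num) _ ?_
      rw [Finset.prod_range_succ, Finset.prod_range_succ, Finset.prod_range_one]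
      decide

theorem tp_ker_card {F : Type} [Field F] [Fintype F] {q n m : ℕ} (hF : Fintype.card F = q ^ 2) (hn : 2 ≤ n)
    (h : Nat.gcd n (q + 1) = m) : (tp n F q).rangeRestrict.ker ≤ center (SU n F q) ∧ Nat.card (tp n F q).rangeRestrict.ker = m := by
  have hker : (tp n F q).rangeRestrict.ker = center (SU n F q) := by
    rw [MonoidHom.ker_rangeRestrict, ker_tp hF (by omega)]
  rw [hker]
  exact ⟨le_rfl, by rw [card_center_SU hF (by omega), h]⟩

open Cfsg.Agent.Lib.H58F9 Cfsg.Agent.Lib.H58J2 in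
/-- `SU_4(3)` -/
theorem su43 {F : Type u} [Field F] [Fintype F] (hF : Fintype.card F = 3 ^ 2) {r : ℕ} [hr : Fact r.Prime] (h3 : r ≠ 3) :
    PStemDvd r (SU 4 F 3) 1 := by
  by_cases h2 : r = 2
  · subst h2
    obtain ⟨k1, k2⟩ := tp_ker_card (n := 4) (m := 4) hF9 (by norm_num) rfl
    refine transport (by rw [hF9, hF]) (pStem_cover (H3USim.su_perfect hF9 4 (by norm_num) (by norm_num))
      (tp 4 F9 3).rangeRestrict (tp 4 F9 3).rangeRestrict_surjective k1 k2 ?_ H3U43.two)
    exact IsPGroup.of_card (n := 2) (by rw [k2]; norm_num)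
  · refine of_sq (N := 13063680) (a := 9) (b := 6) (m := 35) ?_ h2 h3 (by norm_num) (by decide +kernel)
    refine (SU_card hF 4 (by norm_num) 13063680 ?_).trans (by norm_num)
    rw [Finset.prod_range_succ, Finset.prod_range_succ, Finset.prod_range_succ, Finset.prod_range_one]
    decide

open Cfsg.Agent.Lib.H3F4 Cfsg.Agent.Lib.K4 in
/-- `SU_6(2)` -/
theorem su62 {F : Type u} [Field F] [Fintype F] (hF : Fintype.card F = 2 ^ 2) {r : ℕ} [hr : Fact r.Prime] (h2 : r ≠ 2) :
    PStemDvd r (SU 6 F 2) 1 := by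
  by_cases h3 : r = 3
  · subst h3
    obtain ⟨k1, k2⟩ := tp_ker_card (n := 6) (m := 3) hF4 (by norm_num) rfl
    refine transport (by rw [hF4, hF]) (pStem_cover (H3USim.su_perfect hF4 6 (by norm_num) (by norm_num))
      (tp 6 K4 2).rangeRestrict (tp 6 K4 2).rangeRestrict_surjective k1 k2 ?_ H3U62.three)
    exact IsPGroup.of_card (n := 1) (by rw [k2]; norm_num)
  · refine of_sq (N := 27590492160) (a := 15) (b := 7) (m := 385) ?_ h2 h3 (by norm_num) (by decide +kernel)
    refine (SU_card hF 6 (by norm_num) 27590492160 ?_).trans (by norm_num)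
    rw [Finset.prod_range_succ, Finset.prod_range_succ, Finset.prod_range_succ, Finset.prod_range_succ, Finset.prod_range_succ,
      Finset.prod_range_one]
    decide

open Cfsg.Agent.Lib.H3F4 Cfsg.Agent.Lib.K4 in
/-- `SU_5(2)` -/
theorem su52 {F : Type u} [Field F] [Fintype F] (hF : Fintype.card F = 2 ^ 2) {r : ℕ} [hr : Fact r.Prime] :
    PStemDvd r (SU 5 F 2) 1 := by
  by_cases h2 : r = 2
  · subst h2
    exact transport (by rw [hF4, hF]) H3U52.two'
  by_cases h3 : r = 3
  · subst h3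
    exact transport (by rw [hF4, hF]) H3U52.three'
  · refine of_sq (N := 13685760) (a := 10) (b := 5) (m := 55) ?_ h2 h3 (by norm_num) (by decide +kernel)
    refine (SU_card hF 5 (by norm_num) 13685760 ?_).trans (by norm_num)
    rw [Finset.prod_range_succ, Finset.prod_range_succ, Finset.prod_range_succ, Finset.prod_range_succ, Finset.prod_range_one]
    decide

end Cfsg.Agent.Lib.H3MU
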