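import Cfsg.Agent.Lib.H3MU10

/-!
# The Schur multipliers of the special unitary groups: assembly (helper3)
-/

set_option autoImplicit false

namespace Cfsg.Agent.Lib.H3MU

open Matrix Subgroup Cfsg Cfsg.Agent.Lib Cfsg.Agent.Lib.SchurSylow Cfsg.Agent.Lib.ClUnitary

universe u v w

theorem su_from {F : Type u} [Field F] [Fintype F] {q : ℕ} (hF : Fintype.card F = q ^ 2) {r : ℕ} [hr : Fact r.Prime] {n0 : ℕ}
    (h0 : (n0 = 3 ∧ 4 ≤ q) ∨ (4 ≤ n0 ∧ 3 ≤ q) ∨ 6 ≤ n0) (hb : PStemDvd r (SU n0 F q) 1) {n : ℕ} (hn : n0 ≤ n) :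
    PStemDvd r (SU n F q) 1 := by
  induction n, hn using Nat.le_induction with
  | base => exact hb
  | succ n hn ih =>
    obtain ⟨m, rfl⟩ : ∃ m, n = m + 2 := ⟨n - 2, by omega⟩
    refine PhanMul.mul_step hF (m := m) (by omega) (by omega) ?_ (H3USim.su_perfect hF _ (by omega) (by omega)) ih
    rcases eq_or_ne m 1 with h1 | h1
    · subst h1
      exact su2_perfect hF (by omega)
    · exact H3USim.su_perfect hF _ (by omega) (by omega)

/-- the main result on `SU_n(q)` -/
theorem su_all {F : Type u} [Field F] [Fintype F] {q : ℕ} (hF : Fintype.card F = q ^ 2)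
    (B53 : q = 3 → PStemDvd 3 (SU 5 F 3) 1) (B72 : q = 2 → PStemDvd 2 (SU 7 F 2) 1)
    {n : ℕ} (hn : 3 ≤ n) (h3 : ¬ (n = 3 ∧ q = 2)) (hexc : (n, q) ∉ ({(4, 2), (4, 3), (6, 2)} : Set (ℕ × ℕ)))
    {r : ℕ} [hr : Fact r.Prime] : PStemDvd r (SU n F q) 1 := by
  have h42 : ¬ (n = 4 ∧ q = 2) := fun h => hexc (by rw [h.1, h.2]; simp)
  have h43 : ¬ (n = 4 ∧ q = 3) := fun h => hexc (by rw [h.1, h.2]; simp)
  have h62 : ¬ (n = 6 ∧ q = 2) := fun h => hexc (by rw [h.1, h.2]; simp)
  have hq := HermMat.two_le_q hF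
  rcases (show q = 2 ∨ q = 3 ∨ 4 ≤ q by omega) with h | h | h
  · subst h
    rcases (show n = 5 ∨ 7 ≤ n by omega) with h5 | h7
    · subst h5; exact su52 hF
    · by_cases hr2 : r = 2
      · subst hr2
        exact su_from hF (n0 := 7) (by omega) (B72 rfl) h7
      · exact su_from hF (n0 := 6) (by omega) (su62 hF hr2) (by omega)
  · subst h
    rcases (show n = 3 ∨ 5 ≤ n by omega) with h5 | h7
    · subst h5; exact su33 hF
    · by_cases hr2 : r = 3
      · subst hr2
        exact su_from hF (n0 := 5) (by omega) (B53 rfl) h7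
      · exact su_from hF (n0 := 4) (by omega) (su43 hF hr2) (by omega)
  · exact su_from hF (n0 := 3) (by omega) (su3_all hF h) hn

theorem center_cyclic {F : Type u} [Field F] [Fintype F] {q n : ℕ} (hF : Fintype.card F = q ^ 2) (hn : 2 ≤ n) :
    IsCyclic (center (SU n F q)) := by
  classical
  let i0 : Fin n := ⟨0, by omega⟩
  have hsc : ∀ g : center (SU n F q), g.1.1.1 = Matrix.scalar (Fin n) (g.1.1.1 i0 i0) := by
    intro g
    obtain ⟨c, hc⟩ := (center_SU hF hn g.1).1 g.2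
    rw [hc]
    simp
  let f : center (SU n F q) →* F :=
    { toFun := fun g => g.1.1.1 i0 i0
      map_one' := by
        show (1 : Matrix (Fin n) (Fin n) F) i0 i0 = 1
        rw [Matrix.one_apply_eq]
      map_mul' := by
        intro a b
        show (a.1.1.1 * b.1.1.1) i0 i0 = a.1.1.1 i0 i0 * b.1.1.1 i0 i0
        conv_lhs => rw [hsc a, hsc b]
        rw [← map_mul]
        simp }
  haveI : Finite (center (SU n F q)) := inferInstance
  refine isCyclic_of_injective_ringHom f ?_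
  intro a b hab
  apply Subtype.ext
  apply Subtype.ext
  apply Subtype.ext
  rw [hsc a, hsc b]
  exact congrArg _ hab

theorem psu_main {F : Type u} [Field F] [Fintype F] {q : ℕ} (hF : Fintype.card F = q ^ 2) {n : ℕ} (hn : 3 ≤ n)
    (h3 : ¬ (n = 3 ∧ q = 2)) (hM : ∀ r : ℕ, r.Prime → PStemDvd r (SU n F q) 1) :
    HasCyclicSchurMultiplier (PSU n F q) (Nat.gcd n (q + 1)) := by
  haveI : Finite (SU n F q) := inferInstance
  have hmult : HasCyclicSchurMultiplier (SU n F q) 1 := hasTrivial_of_stemDvd (StemDvd.of_forall hM)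
  have hperf := H3USim.su_perfect hF n hn h3
  let σ : SU n F q →* PSU n F q := QuotientGroup.mk' (center (SU n F q))
  have hker : σ.ker = center (SU n F q) := QuotientGroup.ker_mk' _
  have hσ : IsStemExtension σ := by
    refine ⟨QuotientGroup.mk'_surjective _, ?_, ?_⟩
    · rw [hker]
    · rw [hperf]; exact le_top
  have hcard : Nat.card (center (SU n F q)) = Nat.gcd n (q + 1) := card_center_SU hF (by omega)
  haveI hcyc := center_cyclic (n := n) hF (by omega)
  have he : Nonempty (σ.ker ≃* Multiplicative (ZMod (Nat.gcd n (q + 1)))) := by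
    rw [hker]
    refine ⟨mulEquivOfCyclicCardEq ?_⟩
    rw [hcard, Nat.card_congr (Multiplicative.toAdd (α := ZMod (Nat.gcd n (q + 1)))), Nat.card_zmod]
  refine ⟨⟨SU n F q, inferInstance, inferInstance, σ, hσ, he⟩, ?_⟩
  intro Δ _ _ τ hτ
  obtain ⟨π, hπ⟩ := Cfsg.Agent.S3958.result σ hσ hmult Δ τ hτ
  obtain ⟨e⟩ := he
  exact ⟨π.comp e.symm.toMonoidHom, hπ.comp e.symm.surjective⟩

end Cfsg.Agent.Lib.H3MU
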