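import Cfsg.Agent.Lib.H3MU1
import Cfsg.Agent.Lib.PhanE
import Cfsg.Agent.Lib.H3USim

/-!
# Splitting of central extensions of `SU_n(q)` from `SU_{n-1}(q)` (helper3)
-/

set_option autoImplicit false

namespace Cfsg.Agent.Lib.H3MU

open Subgroup Matrix Cfsg Cfsg.Agent.Lib.SchurSylow Cfsg.Agent.Lib.Phan Cfsg.Agent.Lib.ClUnSimple
open scoped commutatorElement

universe u v w

/-- commutators of an element `y` with lifts of elements of a perfect subgroup centralized by the image of `y` -/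
theorem comm_of_perfect' {H Γ G : Type*} [Group H] [Group Γ] [Group G] (σ : Γ →* G) (hs : Function.Surjective σ)
    (hc : σ.ker ≤ center Γ) (hp : commutator H = ⊤) (j : H →* G) (y : Γ) (h : ∀ x, j x * σ y = σ y * j x)
    (γ : Γ) (hγ : σ γ ∈ j.range) : γ * y = y * γ := by
  set K : Subgroup Γ := j.range.comap σ with hK
  have hz : ∀ g : K, (g : Γ) * y * (g : Γ)⁻¹ * y⁻¹ ∈ center Γ := by
    rintro ⟨g, x, hx⟩
    apply hc
    rw [MonoidHom.mem_ker]
    simp only [map_mul, map_inv]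
    rw [← hx, h x]
    group
  let φ : K →* center Γ :=
    { toFun := fun g => ⟨(g : Γ) * y * (g : Γ)⁻¹ * y⁻¹, hz g⟩
      map_one' := by ext; simp
      map_mul' := by
        intro g k
        ext
        have h1 := mem_center_iff.1 (hz k) g
        show (g : Γ) * k * y * ((g : Γ) * k)⁻¹ * y⁻¹ = (g : Γ) * y * (g : Γ)⁻¹ * y⁻¹ * ((k : Γ) * y * (k : Γ)⁻¹ * y⁻¹)
        have h2 : (g : Γ) * k * y * ((g : Γ) * k)⁻¹ * y⁻¹ = ((g : Γ) * ((k : Γ) * y * (k : Γ)⁻¹ * y⁻¹)) * y * (g : Γ)⁻¹ * y⁻¹ := by group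
        rw [h2, h1]
        have h4 := mem_center_iff.1 (hz k) ((g : Γ) * y * (g : Γ)⁻¹ * y⁻¹)
        rw [h4]
        group }
  have h1 : commutator K ≤ φ.ker := by
    apply SchurBasic.commutator_le_ker
    intro a b
    ext
    exact (mem_center_iff.1 (φ a).2 (φ b)).symm
  -- the image of the commutator subgroup of `K` is everything
  have h2 : (commutator K).map (σ.comp K.subtype) = j.range := by
    rw [_root_.commutator_def, map_commutator, ← MonoidHom.range_eq_map]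
    have e1 : (σ.comp K.subtype).range = j.range := by
      rw [MonoidHom.range_comp, range_subtype, hK, map_comap_eq_self_of_surjective hs]
    rw [e1, MonoidHom.range_eq_map, ← map_commutator, ← _root_.commutator_def, hp]
  rw [← h2] at hγ
  obtain ⟨c, hc1, hc2⟩ := hγ
  have h3 := h1 hc1
  rw [MonoidHom.mem_ker] at h3
  have h4 : (c : Γ) * y * (c : Γ)⁻¹ * y⁻¹ = 1 := congrArg Subtype.val h3
  have h5 : (c : Γ) * y = y * c := by
    calc (c : Γ) * y = ((c : Γ) * y * (c : Γ)⁻¹ * y⁻¹) * (y * c) := by group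
      _ = y * c := by rw [h4, one_mul]
  have h6 : (c : Γ)⁻¹ * γ ∈ center Γ := by
    apply hc
    rw [MonoidHom.mem_ker, map_mul, map_inv]
    have : σ c = σ γ := hc2
    rw [this, inv_mul_cancel]
  have h7 := mem_center_iff.1 h6 y
  calc γ * y = c * ((c : Γ)⁻¹ * γ * y) := by group
    _ = c * (y * ((c : Γ)⁻¹ * γ)) := by rw [h7]
    _ = (c * y) * ((c : Γ)⁻¹ * γ) := by group
    _ = (y * c) * ((c : Γ)⁻¹ * γ) := by rw [h5]
    _ = y * γ := by group

variable {F : Type u} [Field F] {q : ℕ}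

section
variable [Fintype F] (hF : Fintype.card F = q ^ 2)
include hF

theorem conj_blk {k n : ℕ} (A : SU n F q) (j j' : Fin k ↪ Fin n)
    (h : ∀ b, A.1.1 *ᵥ (Pi.single (j b) 1 : Fin n → F) = Pi.single (j' b) 1) (c : SU k F q) :
    A * blk j c * A⁻¹ = blk j' c := by
  rw [mul_inv_eq_iff_eq_mul]
  apply Subtype.ext; apply Subtype.ext
  show A.1.1 * blkM j c.1.1 = blkM j' c.1.1 * A.1.1
  have e1 : A.1.1 * emb F j = emb F j' := by
    ext a b
    have h1 := congrFun (h b) a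
    rw [Matrix.mulVec_single_one] at h1
    rw [Matrix.mul_apply, Finset.sum_eq_single (j b)]
    · rw [emb_apply, if_pos rfl, mul_one, emb_apply]
      rw [Matrix.col_apply] at h1
      rw [h1, Pi.single_apply]
    · intro x _ hx
      rw [emb_apply, if_neg hx, mul_zero]
    · intro h; exact absurd (Finset.mem_univ _) h
  have e2 : (emb F j')ᵀ * A.1.1 = (emb F j)ᵀ := by
    ext b a
    rw [Matrix.mul_apply, Finset.sum_eq_single (j' b)]
    · rw [Matrix.transpose_apply, emb_apply, if_pos rfl, one_mul, Matrix.transpose_apply, emb_apply]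
      have h1 : A.1.1 (j' b) a = (A.1.1 *ᵥ (Pi.single a 1 : Fin n → F)) (j' b) := by
        rw [Matrix.mulVec_single_one, Matrix.col_apply]
      rw [h1]
      have h2 := herm_single (q := q) hF (j' b) (A.1.1 *ᵥ (Pi.single a 1 : Fin n → F))
      rw [← h b, SU_pres, herm_single hF, Pi.single_apply] at h2
      rw [← h2]
      by_cases hh : a = j b
      · rw [if_pos hh.symm, if_pos hh]
      · rw [if_neg (fun h' => hh h'.symm), if_neg hh]
    · intro x _ hx
      rw [Matrix.transpose_apply, emb_apply, if_neg hx, zero_mul]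
    · intro h; exact absurd (Finset.mem_univ _) h
  rw [blkM, blkM, mul_add, add_mul, mul_one, one_mul]
  congr 1
  calc A.1.1 * (emb F j * (c.1.1 - 1) * (emb F j)ᵀ) = (A.1.1 * emb F j) * (c.1.1 - 1) * (emb F j)ᵀ := by
        simp only [Matrix.mul_assoc]
    _ = emb F j' * (c.1.1 - 1) * ((emb F j')ᵀ * A.1.1) := by rw [e1, e2]
    _ = _ := by simp only [Matrix.mul_assoc]

/-- the Weyl element of `SU 2` -/
theorem exists_w : ∃ w : SU 2 F q, w.1.1 *ᵥ Pi.single 0 1 = (Pi.single 1 1 : Fin 2 → F) := by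
  obtain ⟨w, hw⟩ := SU_trans hF (k := 2) le_rfl (x := Pi.single 0 1) (y := Pi.single 1 1) (by rw [herm_ss hF, if_pos rfl])
    (by rw [herm_ss hF, if_pos rfl])
  exact ⟨w, hw⟩

end

/-- the embedding `0 ↦ m, 1 ↦ m+1, 2 ↦ m-1` of `Fin 3` in `Fin (m+2)` -/
def j3f (m : ℕ) (b : Fin 3) : Fin (m + 2) := if b.1 = 2 then ⟨m - 1, by omega⟩ else ⟨(m + b.1) % (m + 2), Nat.mod_lt _ (by omega)⟩

theorem j3f_val (m : ℕ) (b : Fin 3) : (j3f m b).1 = if b.1 = 2 then m - 1 else m + b.1 := by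
  have hb := b.2
  unfold j3f
  split_ifs with h
  · rfl
  · exact Nat.mod_eq_of_lt (by omega)

def j3 (m : ℕ) (hm : 1 ≤ m) : Fin 3 ↪ Fin (m + 2) := ⟨j3f m, by
  intro a b hab
  apply Fin.ext
  have ha := a.2
  have hb := b.2
  have h := congrArg Fin.val hab
  rw [j3f_val, j3f_val] at h
  split_ifs at h <;> omega⟩

theorem j3_val (m : ℕ) (hm : 1 ≤ m) (b : Fin 3) : (j3 m hm b).1 = if b.1 = 2 then m - 1 else m + b.1 := j3f_val m b

/-- the embedding `i ↦ i` for `i < m`, `m ↦ m+2` of `Fin (m+1)` in `Fin (m+3)` -/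
def jjf (m : ℕ) (b : Fin (m + 1)) : Fin (m + 3) := if b.1 = m then ⟨m + 2, by omega⟩ else ⟨b.1, by have := b.2; omega⟩

theorem jjf_val (m : ℕ) (b : Fin (m + 1)) : (jjf m b).1 = if b.1 = m then m + 2 else b.1 := by
  unfold jjf
  split_ifs with h <;> rfl

def jj (m : ℕ) : Fin (m + 1) ↪ Fin (m + 3) := ⟨jjf m, by
  intro a b hab
  apply Fin.ext
  have ha := a.2
  have hb := b.2
  have h := congrArg Fin.val hab
  rw [jjf_val, jjf_val] at h
  split_ifs at h <;> omega⟩

theorem jj_val (m : ℕ) (b : Fin (m + 1)) : (jj m b).1 = if b.1 = m then m + 2 else b.1 := jjf_val m b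

theorem sh_val {k n : ℕ} (i : ℕ) (h : i + k ≤ n) (b : Fin k) : (sh i h b : Fin n).1 = i + b.1 := rfl

theorem tr_val {k l n : ℕ} (i : Fin l ↪ Fin k) (j : Fin k ↪ Fin n) (b : Fin l) : (i.trans j) b = j (i b) := rfl

/-- general form of the step -/
theorem step_split0 [Fintype F] (hF : Fintype.card F = q ^ 2) {m : ℕ} (hm : 1 ≤ m)
    (hgen : (blk (sh 0 (show 0 + (m + 2) ≤ m + 3 by omega)) : SU (m + 2) F q →* SU (m + 3) F q).range ⊔
      (blk (sh (m + 1) (show m + 1 + 2 ≤ m + 3 by omega)) : SU 2 F q →* SU (m + 3) F q).range = ⊤)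
    (hp : commutator (SU (m + 1) F q) = ⊤) {Γ : Type*} [Group Γ] (σ : Γ →* SU (m + 3) F q) (hs : Function.Surjective σ)
    (hc : σ.ker ≤ center Γ) (fH : SU (m + 2) F q →* Γ)
    (hstep : ∀ (ψ : SU 3 F q →* Γ), (∀ s : SU 2 F q, fH (blk (sh m (by omega)) s) = ψ (blk (sh 0 (by omega)) s)) →
      (∀ (h : SU (m + 1) F q) (k : SU 2 F q), fH (blk (sh 0 (by omega)) h) * ψ (blk (sh 1 (by omega)) k) =
        ψ (blk (sh 1 (by omega)) k) * fH (blk (sh 0 (by omega)) h)) →
      ∃ Φ : SU (m + 3) F q →* Γ, (∀ h, Φ (blk (sh 0 (show 0 + (m + 2) ≤ m + 3 by omega)) h) = fH h) ∧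
        (∀ s : SU 2 F q, Φ (blk (sh m (show m + 3 ≤ m + 3 by omega)) (blk (sh 1 (show 1 + 2 ≤ 3 by omega)) s)) = ψ (blk (sh 1 (by omega)) s)))
    (hf : ∀ h, σ (fH h) = blk (sh 0 (show 0 + (m + 2) ≤ m + 3 by omega)) h) :
    ∃ s : SU (m + 3) F q →* Γ, ∀ g, σ (s g) = g := by
  obtain ⟨w, hw⟩ := exists_w hF
  let jg : Fin 2 ↪ Fin (m + 1) := sh (m - 1) (by omega)
  let g : SU (m + 3) F q := blk (jj m) (blk jg w)
  obtain ⟨g', hg'⟩ := hs g
  -- action of g
  have hg0 : ∀ a, a ∉ Set.range (jg.trans (jj m)) → g.1.1 *ᵥ (Pi.single a 1 : Fin (m + 3) → F) = Pi.single a 1 := by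
    intro a ha
    show (blk (jj m) (blk jg w)).1.1 *ᵥ _ = _
    rw [blk_comp, blk_coe, blkM_fix]
    intro b
    rw [Pi.single_eq_of_ne]
    intro h; exact ha ⟨b, h⟩
  have hg1 : g.1.1 *ᵥ (Pi.single ⟨m - 1, by omega⟩ 1 : Fin (m + 3) → F) = Pi.single ⟨m + 2, by omega⟩ 1 := by
    show (blk (jj m) (blk jg w)).1.1 *ᵥ _ = _
    have e1 : (Pi.single ⟨m - 1, by omega⟩ 1 : Fin (m + 3) → F) = ext (jg.trans (jj m)) (Pi.single 0 1) := by
      rw [ext_single]; congr 1
      apply Fin.ext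
      have : (jg 0).1 = m - 1 := rfl
      rw [tr_val, jj_val, this, if_neg (by omega)]
    have e2 : (Pi.single ⟨m + 2, by omega⟩ 1 : Fin (m + 3) → F) = ext (jg.trans (jj m)) (Pi.single 1 1) := by
      rw [ext_single]; congr 1
      apply Fin.ext
      have : (jg 1).1 = m - 1 + 1 := rfl
      rw [tr_val, jj_val, this, if_pos (by omega)]
    rw [blk_comp, blk_coe, e1, blkM_ext, hw, e2]
  have hgj : ∀ b : Fin 3, g.1.1 *ᵥ (Pi.single (((j3 m hm).trans (sh 0 (show 0 + (m + 2) ≤ m + 3 by omega))) b) 1 : Fin (m + 3) → F) =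
      Pi.single (sh m (show m + 3 ≤ m + 3 by omega) b) 1 := by
    intro b
    by_cases hb : b.1 = 2
    · have e1 : ((j3 m hm).trans (sh 0 (show 0 + (m + 2) ≤ m + 3 by omega))) b = ⟨m - 1, by omega⟩ := by
        apply Fin.ext
        rw [tr_val, sh_val, j3_val, if_pos hb, Nat.zero_add]
      have e2 : sh m (show m + 3 ≤ m + 3 by omega) b = (⟨m + 2, by omega⟩ : Fin (m + 3)) := by
        apply Fin.ext
        rw [sh_val, hb]
      rw [e1, e2, hg1]
    · have hb2 := b.2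
      have e1 : ((j3 m hm).trans (sh 0 (show 0 + (m + 2) ≤ m + 3 by omega))) b = ⟨m + b.1, by omega⟩ := by
        apply Fin.ext
        rw [tr_val, sh_val, j3_val, if_neg hb, Nat.zero_add]
      have e2 : sh m (show m + 3 ≤ m + 3 by omega) b = (⟨m + b.1, by omega⟩ : Fin (m + 3)) := by
        apply Fin.ext
        rw [sh_val]
      rw [e1, e2, hg0]
      rintro ⟨x, hx⟩
      have h1 := congrArg Fin.val hx
      have h2 : (jg x).1 = m - 1 + x.1 := rfl
      have hx2 := x.2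
      have h4 : ((jj m) (jg x)).1 = m + b.1 := h1
      rw [jj_val, h2] at h4
      split_ifs at h4 with h5
      · omega
      · omega
  have hconj := conj_blk hF g _ _ hgj
  -- the lift of the last `SU 3`
  let ψ : SU 3 F q →* Γ := (MulAut.conj g').toMonoidHom.comp (fH.comp (blk (j3 m hm)))
  have hψ' : ∀ c, ψ c = g' * fH (blk (j3 m hm) c) * g'⁻¹ := fun c => rfl
  have hψ : ∀ c, σ (ψ c) = blk (sh m (show m + 3 ≤ m + 3 by omega)) c := by
    intro c
    rw [hψ', map_mul, map_mul, map_inv, hg', hf, blk_comp]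
    exact hconj c
  have hcompat : ∀ s : SU 2 F q, fH (blk (sh m (by omega)) s) = ψ (blk (sh 0 (by omega)) s) := by
    intro s
    rw [hψ', blk_comp]
    have e1 : ((sh 0 (show 0 + 2 ≤ 3 by omega)).trans (j3 m hm) : Fin 2 ↪ Fin (m + 2)) = sh m (by omega) := by
      apply Function.Embedding.ext
      intro b
      apply Fin.ext
      have hb := b.2
      have e0 : (sh 0 (show 0 + 2 ≤ 3 by omega) b : Fin 3).1 = b.1 := by rw [sh_val, Nat.zero_add]
      rw [tr_val, j3_val, e0, if_neg (by omega), sh_val]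
    rw [e1]
    have h1 : g' * fH (blk (sh m (by omega)) s) = fH (blk (sh m (by omega)) s) * g' := by
      apply comm_of_perfect' σ hs hc hp (blk (jj m))
      · intro x
        rw [hf, blk_comp]
        apply blk_comm
        intro a b hab
        have h1 := congrArg Fin.val hab
        have ha := a.2
        have hb := b.2
        rw [tr_val, sh_val, sh_val, jj_val] at h1
        split_ifs at h1 with h5
        · omega
        · omega
      · rw [hg']; exact ⟨_, rfl⟩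
    rw [h1]; group
  have hcomm : ∀ (h : SU (m + 1) F q) (k : SU 2 F q), fH (blk (sh 0 (by omega)) h) * ψ (blk (sh 1 (by omega)) k) =
      ψ (blk (sh 1 (by omega)) k) * fH (blk (sh 0 (by omega)) h) := by
    intro h k
    apply comm_of_perfect' σ hs hc hp ((blk (sh 0 (show 0 + (m + 2) ≤ m + 3 by omega))).comp (blk (sh 0 (show 0 + (m + 1) ≤ m + 2 by omega))))
    · intro x
      rw [hψ, MonoidHom.comp_apply, blk_comp, blk_comp]
      apply blk_comm
      intro a b hab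
      have h1 := congrArg Fin.val hab
      have ha := a.2
      have hb := b.2
      rw [tr_val, tr_val, sh_val, sh_val, sh_val, sh_val] at h1
      omega
    · rw [hf]; exact ⟨_, rfl⟩
  obtain ⟨Φ, h1, h2⟩ := hstep ψ hcompat hcomm
  refine ⟨Φ, ?_⟩
  have h4 : (⊤ : Subgroup (SU (m + 3) F q)) ≤ (σ.comp Φ).eqLocus (MonoidHom.id _) := by
    rw [← hgen, sup_le_iff]
    constructor
    · rintro _ ⟨h, rfl⟩
      show σ (Φ _) = _
      rw [h1, hf]
      rfl
    · rintro _ ⟨s, rfl⟩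
      show σ (Φ _) = _
      have e1 : (blk (sh (m + 1) (show m + 1 + 2 ≤ m + 3 by omega)) s : SU (m + 3) F q) =
          blk (sh m (show m + 3 ≤ m + 3 by omega)) (blk (sh 1 (show 1 + 2 ≤ 3 by omega)) s) := by
        rw [blk_sh]
      rw [e1, h2, hψ]
      rfl
  exact fun g => h4 (mem_top g)

/-- **the step**: a central extension of `SU(m+3)` which splits over `SU(m+2)` splits. -/
theorem step_split [Fintype F] (hF : Fintype.card F = q ^ 2) {m : ℕ} (hm : 1 ≤ m) (h3 : 3 ≤ q) (hq : m = 1 → 4 ≤ q)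
    (hp : commutator (SU (m + 1) F q) = ⊤) {Γ : Type*} [Group Γ] (σ : Γ →* SU (m + 3) F q) (hs : Function.Surjective σ)
    (hc : σ.ker ≤ center Γ) (fH : SU (m + 2) F q →* Γ)
    (hf : ∀ h, σ (fH h) = blk (sh 0 (show 0 + (m + 2) ≤ m + 3 by omega)) h) :
    ∃ s : SU (m + 3) F q →* Γ, ∀ g, σ (s g) = g :=
  step_split0 hF hm (gen_step3 (m := m) hF h3) hp σ hs hc fH (fun ψ h1 h2 => by
    obtain ⟨Φ, k1, k2⟩ := step hF hm h3 hq fH ψ h1 h2
    exact ⟨Φ, k1, fun s => k2 _⟩) hf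

/-- `M_r(SU_{m+2}(q)) = 1` implies `M_r(SU_{m+3}(q)) = 1` -/
theorem step_mult [Fintype F] (hF : Fintype.card F = q ^ 2) {m : ℕ} (hm : 1 ≤ m) (h3 : 3 ≤ q) (hq : m = 1 → 4 ≤ q)
    (hp : commutator (SU (m + 1) F q) = ⊤) {r : ℕ} (hr : PStemDvd r (SU (m + 2) F q) 1) :
    PStemDvd r (SU (m + 3) F q) 1 := by
  intro Γ _ _ σ hσ hk
  have hperf : commutator (SU (m + 2) F q) = ⊤ := H3USim.su_perfect hF _ (by omega) (by omega)
  obtain ⟨l, hl⟩ := exists_lift hperf hr σ hσ.1 hσ.2.1 hk (blk (sh 0 (show 0 + (m + 2) ≤ m + 3 by omega)))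
  obtain ⟨s, hs⟩ := step_split hF hm h3 hq hp σ hσ.1 hσ.2.1 l hl
  rw [ker_eq_bot_of_section σ hσ s hs, Subgroup.card_bot]

end Cfsg.Agent.Lib.H3MU
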