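import Cfsg.Agent.Lib.H3MU2
import Cfsg.Agent.Lib.PhanH
import Cfsg.Agent.Lib.H26RkOne
import Cfsg.Agent.Lib.ClSLn
import Cfsg.Agent.Lib.SU3Syl
import Cfsg.Agent.Lib.ConjSylow

/-!
# `M_r(SU_3(q))`, `r` prime to `q` (helper3)
-/

set_option autoImplicit false

namespace Cfsg.Agent.Lib.H3MU

open Subgroup Matrix Cfsg Cfsg.Agent.Lib.SchurSylow Cfsg.Agent.Lib.Phan Cfsg.Agent.Lib.ClUnSimple Cfsg.Agent.Lib.UnBridge
open scoped commutatorElement MatrixGroups

universe u v w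

variable {F : Type u} [Field F] [Fintype F] {q : ℕ} (hF : Fintype.card F = q ^ 2)
include hF

theorem card_su2 : Nat.card (SU 2 F q) = q * (q ^ 2 - 1) := by
  have h2 := HermMat.two_le_q hF
  have hc1 := ClUnitary.card_SU (n := 2) hF (by norm_num)
  have hq1 : 1 ≤ q ^ 2 := Nat.one_le_pow _ _ (by omega)
  simp [Finset.prod_range_succ, -Nat.card_eq_fintype_card] at hc1
  apply Nat.eq_of_mul_eq_mul_left (by omega : 0 < q + 1)
  rw [hc1]
  ring

theorem card_su3 : Nat.card (SU 3 F q) = q ^ 3 * ((q ^ 2 - 1) * (q ^ 3 + 1)) := SU3Syl.card_SU_three hF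

theorem su2_equiv : ∃ K : Subfield F, Nat.card K = q ∧ Nonempty (SL(2, K) ≃* SU 2 F q) := by
  obtain ⟨K, P, e, -⟩ := exists_phi hF
  haveI : Fintype K := Fintype.ofFinite K
  refine ⟨K, ?_, ⟨e⟩⟩
  have h1 := Nat.card_congr e.toEquiv
  rw [card_su2 hF, ClSL2.card_SL2 (F := K) rfl] at h1
  have h2 := HermMat.two_le_q hF
  have h2' := h2
  have hk : 1 < Fintype.card K := Fintype.one_lt_card
  rw [Nat.card_eq_fintype_card]
  have mono : ∀ a b : ℕ, 1 < a → a < b → a * (a ^ 2 - 1) < b * (b ^ 2 - 1) := by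
    intro a b ha hab
    have h3 : a ^ 2 < b ^ 2 := Nat.pow_lt_pow_left hab two_ne_zero
    have h4 : 1 ≤ a ^ 2 := Nat.one_le_pow _ _ (by omega)
    exact Nat.mul_lt_mul_of_lt_of_le hab (by omega) (by omega)
  rcases lt_trichotomy (Fintype.card K) q with h | h | h
  · exact absurd h1 (mono _ _ hk h).ne
  · exact h
  · exact absurd h1 (mono _ _ h2 h).ne'

theorem su2_perfect (h4 : 4 ≤ q) : commutator (SU 2 F q) = ⊤ := by
  obtain ⟨K, hK, ⟨e⟩⟩ := su2_equiv hF
  refine H3USim.perfect_of_surj e.toMonoidHom e.surjective ?_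
  haveI : Fintype K := Fintype.ofFinite K
  refine Cfsg.Agent.Lib.ClSLn.commutator_SL_eq_top' (fun _ => ?_)
  classical
  obtain ⟨c, hc⟩ : ∃ c : K, c ∉ ({0, 1, -1} : Finset K) := by
    by_contra h
    push Not at h
    have h1 : (Finset.univ : Finset K) ⊆ {0, 1, -1} := fun x _ => h x
    have h2 := (Finset.card_le_card h1).trans Finset.card_le_three
    rw [Finset.card_univ, ← Nat.card_eq_fintype_card, hK] at h2
    omega
  simp only [Finset.mem_insert, Finset.mem_singleton, not_or] at hc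
  refine ⟨c, hc.1, fun h => ?_⟩
  have h5 : (c - 1) * (c + 1) = 0 := by linear_combination h
  rcases mul_eq_zero.1 h5 with h6 | h6
  · exact hc.2.1 (sub_eq_zero.1 h6)
  · exact hc.2.2 (eq_neg_of_add_eq_zero_left h6)

theorem su2_mult {r : ℕ} [Fact r.Prime] (hr : ¬ r ∣ q) : PStemDvd r (SU 2 F q) 1 := by
  obtain ⟨K, hK, ⟨e⟩⟩ := su2_equiv hF
  haveI : Fintype K := Fintype.ofFinite K
  refine PStemDvd.congr e (H26RkOne.pStemDvd_SL2 r ?_)
  rw [← Nat.card_eq_fintype_card, hK]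
  exact hr

omit hF in
/-- group with a perfect subgroup with trivial `r`-multiplier normalized by a cyclic group, the product of index prime to `r` -/
theorem pStem_LT {G H : Type u} [Group G] [Finite G] [Group H] [Finite H] {r : ℕ} [Fact r.Prime] (hp : commutator H = ⊤)
    (hM : PStemDvd r H 1) (j : H →* G) (hj : Function.Injective j) (T : Subgroup G) [IsCyclic T]
    (hn : ∀ t ∈ T, ∀ h, t * j h * t⁻¹ ∈ j.range) (hidx : ¬ r ∣ (j.range ⊔ T).index) : PStemDvd r G 1 := by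
  intro Γ _ _ σ hσ hk
  obtain ⟨l, hl⟩ := exists_lift hp hM σ hσ.1 hσ.2.1 hk j
  set E := l.range with hE
  have hT : ∀ a b : Γ, σ a ∈ T → σ b ∈ T → a * b = b * a := by
    intro a b ha hb
    have h1 : (σ.subgroupComap T).ker ≤ center (T.comap σ) := by
      rintro ⟨x, hx⟩ hxk
      rw [mem_center_iff]
      rintro ⟨y, hy⟩
      have h2 : x ∈ σ.ker := congrArg Subtype.val hxk
      exact Subtype.ext (mem_center_iff.1 (hσ.2.1 h2) y)
    have h3 := (MonoidHom.isMulCommutative_of_isCyclic_of_ker_le_center (σ.subgroupComap T) h1).is_comm.comm (⟨a, ha⟩ : T.comap σ) ⟨b, hb⟩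
    exact congrArg Subtype.val h3
  have hEE : E = ⁅E, E⁆ := by
    rw [hE, MonoidHom.range_eq_map, ← map_commutator, ← _root_.commutator_def, hp]
  -- elements normalizing
  have hnorm : ∀ x : Γ, (∀ h, σ x * j h * (σ x)⁻¹ ∈ j.range) → ∀ e ∈ E, x * e * x⁻¹ ∈ E := by
    intro x hx e he
    have h1 : E.map (MulAut.conj x).toMonoidHom ≤ E := by
      conv_lhs => rw [hEE]
      rw [map_commutator, commutator_le]
      have key : ∀ a ∈ E.map (MulAut.conj x).toMonoidHom, ∃ b ∈ E, ∃ z ∈ center Γ, a = b * z := by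
        rintro _ ⟨_, ⟨h, rfl⟩, rfl⟩
        obtain ⟨h', hh'⟩ := hx h
        refine ⟨l h', ⟨h', rfl⟩, (l h')⁻¹ * (x * l h * x⁻¹), ?_, ?_⟩
        · apply hσ.2.1
          rw [MonoidHom.mem_ker, map_mul, map_inv, hl, map_mul, map_mul, map_inv, hl, hh', inv_mul_cancel]
        · show x * l h * x⁻¹ = _
          group
      intro a ha b hb
      obtain ⟨a', ha', z, hz, rfl⟩ := key a ha
      obtain ⟨b', hb', w, hw, rfl⟩ := key b hb
      rw [SchurMult.commutatorElement_mul_central hz hw, commutatorElement_def]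
      exact mul_mem (mul_mem (mul_mem ha' hb') (inv_mem ha')) (inv_mem hb')
    exact h1 ⟨e, he, rfl⟩
  -- the subgroup of elements `e * t`
  have hN : ∀ x : Γ, σ x ∈ j.range ⊔ T → (∀ e ∈ E, x * e * x⁻¹ ∈ E) ∧ ∃ e ∈ E, ∃ t, σ t ∈ T ∧ x = e * t := by
    have hnE : ∀ x : Γ, (∃ e ∈ E, ∃ t, σ t ∈ T ∧ x = e * t) → (∀ e ∈ E, x * e * x⁻¹ ∈ E) := by
      rintro _ ⟨e0, he0, t, ht, rfl⟩ e he
      have h1 := hnorm t (hn _ ht) e he
      have e1 : e0 * t * e * (e0 * t)⁻¹ = e0 * (t * e * t⁻¹) * e0⁻¹ := by group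
      rw [e1]; exact mul_mem (mul_mem he0 h1) (inv_mem he0)
    let S : Subgroup Γ :=
      { carrier := {x | ∃ e ∈ E, ∃ t, σ t ∈ T ∧ x = e * t}
        one_mem' := ⟨1, one_mem _, 1, by rw [map_one]; exact one_mem T, by group⟩
        mul_mem' := by
          rintro _ _ ⟨e, he, t, ht, rfl⟩ ⟨e', he', t', ht', rfl⟩
          refine ⟨e * (t * e' * t⁻¹), mul_mem he (hnorm t (hn _ ht) e' he'), t * t', by rw [map_mul]; exact mul_mem ht ht', ?_⟩
          group
        inv_mem' := by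
          rintro _ ⟨e, he, t, ht, rfl⟩
          refine ⟨t⁻¹ * e⁻¹ * t⁻¹⁻¹, hnorm t⁻¹ (by rw [map_inv]; exact hn _ (inv_mem ht)) _ (inv_mem he), t⁻¹, by rw [map_inv]; exact inv_mem ht, ?_⟩
          group }
    have hS : j.range ⊔ T ≤ S.map σ := by
      rw [sup_le_iff]
      constructor
      · rintro _ ⟨h, rfl⟩
        exact ⟨l h, ⟨l h, ⟨h, rfl⟩, 1, by rw [map_one]; exact one_mem T, by group⟩, hl h⟩
      · intro t ht
        obtain ⟨x, hx⟩ := hσ.1 t
        exact ⟨x, ⟨1, one_mem _, x, by rw [hx]; exact ht, by group⟩, hx⟩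
    have key : ∀ x : Γ, σ x ∈ j.range ⊔ T → ∃ e ∈ E, ∃ t, σ t ∈ T ∧ x = e * t := by
      intro x hx
      obtain ⟨y, hy, hxy⟩ := hS hx
      have h1 : y⁻¹ * x ∈ S := ⟨1, one_mem _, y⁻¹ * x, by rw [map_mul, map_inv, hxy, inv_mul_cancel]; exact one_mem T, by group⟩
      have h2 : x = y * (y⁻¹ * x) := by group
      rw [h2]
      exact mul_mem hy h1
    intro x hx
    exact ⟨hnE x (key x hx), key x hx⟩
  have hle : ⁅(j.range ⊔ T).comap σ, (j.range ⊔ T).comap σ⁆ ≤ E := by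
    rw [commutator_le]
    intro a ha b hb
    obtain ⟨na, e, he, t, ht, rfl⟩ := hN a ha
    obtain ⟨nb, e', he', t', ht', rfl⟩ := hN b hb
    have htt := hT t t' ht ht'
    have h1 : ∀ x ∈ E, t * x * t⁻¹ ∈ E := hnorm t (hn _ ht)
    have h2 : ∀ x ∈ E, t' * x * t'⁻¹ ∈ E := hnorm t' (hn _ ht')
    rw [commutatorElement_def]
    -- `e t e' t' t⁻¹ e⁻¹ t'⁻¹ e'⁻¹`
    have e1 : e * t * (e' * t') * (e * t)⁻¹ * (e' * t')⁻¹ =
        e * (t * e' * t⁻¹) * (t * t' * t⁻¹ * t'⁻¹) * (t' * e⁻¹ * t'⁻¹) * e'⁻¹ := by group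
    have e2 : t * t' * t⁻¹ * t'⁻¹ = 1 := by rw [htt]; group
    rw [e1, e2, mul_one]
    exact mul_mem (mul_mem (mul_mem he (h1 _ he')) (h2 _ (inv_mem he))) (inv_mem he')
  have h3 := ker_le_commutator_comap σ hσ hk (j.range ⊔ T) hidx
  rw [Nat.dvd_one, Subgroup.card_eq_one, eq_bot_iff]
  intro z hz
  obtain ⟨h, rfl⟩ := hle (h3 hz)
  rw [MonoidHom.mem_ker, hl] at hz
  have h4 : h = 1 := hj (hz.trans (map_one j).symm)
  rw [mem_bot, h4, map_one]

theorem tor_entries {s : SU 2 F q} (hs : s ∈ Tor F q) : s.1.1 = !![s.1.1 0 0, 0; 0, sig hF (s.1.1 0 0)] ∧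
    s.1.1 0 0 * sig hF (s.1.1 0 0) = 1 := by
  obtain ⟨h1, h2⟩ := su2_entries hF s
  have e : s.1.1 = !![s.1.1 0 0, 0; 0, sig hF (s.1.1 0 0)] := by
    ext i j
    fin_cases i <;> fin_cases j
    · rfl
    · exact hs.1
    · exact hs.2
    · exact h1
  refine ⟨e, ?_⟩
  have hd := s.1.2
  rw [e, Matrix.det_fin_two_of] at hd
  linear_combination hd

/-- the equivalence of the torus with the norm one elements -/
theorem card_tor : Nat.card (Tor F q) = q + 1 := by
  rw [← ClUnitary.card_norm_one_units hF]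
  symm
  have hn : ∀ x : {x : Fˣ // x ^ (q + 1) = 1}, ((x.1 : Fˣ) : F) * sig hF ((x.1 : Fˣ) : F) + 0 * sig hF (0 : F) = 1 := by
    intro x
    rw [sig_apply, ← pow_succ', ← Units.val_pow_eq_pow_val, x.2, Units.val_one]; ring
  apply Nat.card_eq_of_bijective (fun x : {x : Fˣ // x ^ (q + 1) = 1} => (⟨su2 hF ((x.1 : Fˣ) : F) 0 (hn x), by
    rw [mem_Tor, su2_coe]
    simp⟩ : Tor F q))
  constructor
  · intro x y hxy
    have h1 := congrArg (fun s : Tor F q => s.1.1.1 0 0) hxy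
    apply Subtype.ext
    apply Units.ext
    exact h1
  · rintro ⟨s, hs⟩
    obtain ⟨h1, h2⟩ := tor_entries hF hs
    have h0 : s.1.1 0 0 ≠ 0 := by
      intro h; rw [h, zero_mul] at h2; exact zero_ne_one h2
    refine ⟨⟨Units.mk0 _ h0, ?_⟩, ?_⟩
    · apply Units.ext
      rw [Units.val_pow_eq_pow_val, Units.val_mk0, Units.val_one, pow_succ', ← sig_apply hF, h2]
    · apply Subtype.ext; apply Subtype.ext; apply Subtype.ext
      show (su2 hF (s.1.1 0 0) 0 (by linear_combination h2)).1.1 = s.1.1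
      rw [su2_coe]
      conv_rhs => rw [h1]
      simp

theorem cyclic_tor : IsCyclic (Tor F q) := by
  let f : Tor F q →* F :=
    { toFun := fun s => s.1.1.1 0 0
      map_one' := rfl
      map_mul' := by
        rintro ⟨a, ha⟩ ⟨b, hb⟩
        show (a.1.1 * b.1.1) 0 0 = _
        rw [Matrix.mul_apply, Fin.sum_univ_two, hb.2, mul_zero, add_zero] }
  haveI : Finite (SU 2 F q) := inferInstance
  refine isCyclic_of_injective_ringHom f ?_
  rintro ⟨a, ha⟩ ⟨b, hb⟩ hab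
  have h : a.1.1 0 0 = b.1.1 0 0 := hab
  apply Subtype.ext; apply Subtype.ext; apply Subtype.ext
  show a.1.1 = b.1.1
  rw [(tor_entries hF ha).1, (tor_entries hF hb).1, h]

omit hF in
theorem cube_fac (q : ℕ) : q ^ 3 + 1 = (q + 1) * (q ^ 2 - q + 1) := by
  have h : q ≤ q ^ 2 := by nlinarith [Nat.zero_le q, Nat.zero_le (q ^ 2)]
  zify [h]; ring

/-- the case `r ∤ q (q² - q + 1)` -/
theorem su3_mult_gu (h4 : 4 ≤ q) {r : ℕ} [hr0 : Fact r.Prime] (hr : ¬ r ∣ q) (hr' : ¬ r ∣ q ^ 2 - q + 1) :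
    PStemDvd r (SU 3 F q) 1 := by
  haveI := cyclic_tor hF
  haveI : Finite (SU 3 F q) := inferInstance
  haveI : Finite (SU 2 F q) := inferInstance
  haveI : IsCyclic ((Tor F q).map (b1 F q)) :=
    isCyclic_of_surjective ((b1 F q).subgroupMap (Tor F q)) ((b1 F q).subgroupMap_surjective (Tor F q))
  refine pStem_LT (su2_perfect hF h4) (su2_mult hF hr) (b0 F q) b0_inj ((Tor F q).map (b1 F q)) ?_ ?_
  · rintro _ ⟨a, ha, rfl⟩ h
    obtain ⟨s', hs'⟩ := tor_norm1 hF ha h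
    exact ⟨s', hs'.symm⟩
  · have hT : Nat.card ((Tor F q).map (b1 F q)) = q + 1 := by
      rw [← card_tor hF]
      exact (Nat.card_congr (equivMapOfInjective _ _ b1_inj).toEquiv).symm
    have hL : Nat.card (b0 F q).range = q * (q ^ 2 - 1) := by
      rw [← card_su2 hF]
      exact (Nat.card_congr (MonoidHom.ofInjective b0_inj).toEquiv).symm
    have hle : (Tor F q).map (b1 F q) ≤ normalizer ((b0 F q).range : Set (SU 3 F q)) := by
      rw [le_normalizer_iff]
      rintro _ ⟨a, ha, rfl⟩ _ ⟨h, rfl⟩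
      obtain ⟨s', hs'⟩ := tor_norm1 hF ha h
      exact ⟨s', hs'.symm⟩
    have hinf : (Tor F q).map (b1 F q) ⊓ (b0 F q).range = ⊥ := by
      rw [eq_bot_iff]
      rintro _ ⟨⟨a, ha, rfl⟩, ⟨s, hs⟩⟩
      have h1 := congrArg (fun x : SU 3 F q => x.1.1 2 2) hs
      simp only [b0_mat, b1_mat] at h1
      have h2 : a.1.1 1 1 = 1 := by simpa using h1.symm
      obtain ⟨h3, h5⟩ := tor_entries hF ha
      have h6 : a.1.1 1 1 = sig hF (a.1.1 0 0) := (su2_entries hF a).1
      rw [h2] at h6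
      have h7 : a.1.1 0 0 = 1 := by rw [← h6, mul_one] at h5; exact h5
      have h8 : a = 1 := by
        apply Subtype.ext; apply Subtype.ext
        rw [h3, h7, map_one]
        ext i j; fin_cases i <;> fin_cases j <;> simp
      rw [h8, map_one]; exact one_mem _
    have h1 := ConjSylow.card_sup_mul_card_inf hle
    rw [hinf, card_bot, mul_one, hT, hL, sup_comm] at h1
    have h2 := card_mul_index ((b0 F q).range ⊔ (Tor F q).map (b1 F q))
    rw [h1, card_su3 hF, cube_fac q] at h2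
    have hq := HermMat.two_le_q hF
    have h3 : ((b0 F q).range ⊔ (Tor F q).map (b1 F q)).index = q ^ 2 * (q ^ 2 - q + 1) := by
      have hpos : 0 < (q + 1) * (q * (q ^ 2 - 1)) := by
        have : 1 < q ^ 2 := Nat.one_lt_pow two_ne_zero (by omega)
        exact Nat.mul_pos (by omega) (Nat.mul_pos (by omega) (by omega))
      apply Nat.eq_of_mul_eq_mul_left hpos
      rw [h2]; ring
    rw [h3, Nat.Prime.dvd_mul hr0.out]
    rintro (h | h)
    · exact hr (hr0.out.dvd_of_dvd_pow h)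
    · exact hr' h

end Cfsg.Agent.Lib.H3MU
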