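import Cfsg.Agent.Lib.H3MU3

/-!
# `M_3(SU_3(q)) = 1` for `q ≡ -1 mod 3` (helper3)
-/

set_option autoImplicit false

namespace Cfsg.Agent.Lib.H3MU

open Subgroup Cfsg Cfsg.Agent.Lib.SchurSylow Cfsg.Agent.Lib.Phan Cfsg.Agent.Lib.ClUnSimple Cfsg.Agent.Lib.UnBridge
open scoped commutatorElement MatrixGroups Matrix

universe u v w

/-- abstract argument: `Â` abelian, normalized by `w`, `Z ≤ [H^, H^]` with `H = A ⟨w⟩`; then `Z ≤ {[x, w]}` -/
theorem comm_le {Γ G : Type*} [Group Γ] [Group G] (σ : Γ →* G) (hs : Function.Surjective σ) (A : Subgroup G)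
    (hA : ∀ x y : Γ, σ x ∈ A → σ y ∈ A → x * y = y * x) (w : Γ) (hw : ∀ a ∈ A, σ w * a * (σ w)⁻¹ ∈ A)
    (hw' : ∀ a ∈ A, (σ w)⁻¹ * a * σ w ∈ A) (z : Γ) (hz : z ∈ ⁅(A ⊔ zpowers (σ w)).comap σ, (A ⊔ zpowers (σ w)).comap σ⁆) :
    ∃ x, σ x ∈ A ∧ z = x * w * x⁻¹ * w⁻¹ := by
  have c1 : ∀ x : Γ, σ x ∈ A → σ (w * x * w⁻¹) ∈ A := fun x hx => by
    rw [map_mul, map_mul, map_inv]; exact hw _ hx
  have c2 : ∀ x : Γ, σ x ∈ A → σ (w⁻¹ * x * w) ∈ A := fun x hx => by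
    rw [map_mul, map_mul, map_inv]; exact hw' _ hx
  have c3 : ∀ x : Γ, σ x ∈ A → σ (x * w * x⁻¹ * w⁻¹) ∈ A := fun x hx => by
    have : x * w * x⁻¹ * w⁻¹ = x * (w * x⁻¹ * w⁻¹) := by group
    rw [this, map_mul]; exact mul_mem hx (c1 _ (by rw [map_inv]; exact inv_mem hx))
  have cz : ∀ (i : ℤ) (x : Γ), σ x ∈ A → σ (w ^ i * x * (w ^ i)⁻¹) ∈ A := by
    intro i
    induction i using Int.induction_on with
    | zero => intro x hx; simpa using hx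
    | succ n ih =>
      intro x hx
      have : w ^ ((n : ℤ) + 1) * x * (w ^ ((n : ℤ) + 1))⁻¹ = w * (w ^ (n : ℤ) * x * (w ^ (n : ℤ))⁻¹) * w⁻¹ := by
        rw [add_comm, zpow_add, zpow_one]; group
      rw [this]; exact c1 _ (ih x hx)
    | pred n ih =>
      intro x hx
      have : w ^ (-(n : ℤ) - 1) * x * (w ^ (-(n : ℤ) - 1))⁻¹ = w⁻¹ * (w ^ (-(n : ℤ)) * x * (w ^ (-(n : ℤ)))⁻¹) * w := by
        rw [sub_eq_neg_add, zpow_add, zpow_neg, zpow_one]; group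
      rw [this]; exact c2 _ (ih x hx)
  let D : Subgroup Γ :=
    { carrier := {z | ∃ x, σ x ∈ A ∧ z = x * w * x⁻¹ * w⁻¹}
      one_mem' := ⟨1, by rw [map_one]; exact one_mem A, by group⟩
      mul_mem' := by
        rintro _ _ ⟨x, hx, rfl⟩ ⟨y, hy, rfl⟩
        refine ⟨x * y, by rw [map_mul]; exact mul_mem hx hy, ?_⟩
        have h1 := hA (w * x⁻¹ * w⁻¹) (y * w * y⁻¹ * w⁻¹) (c1 _ (by rw [map_inv]; exact inv_mem hx)) (c3 y hy)
        calc x * w * x⁻¹ * w⁻¹ * (y * w * y⁻¹ * w⁻¹) = x * ((w * x⁻¹ * w⁻¹) * (y * w * y⁻¹ * w⁻¹)) := by group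
          _ = x * ((y * w * y⁻¹ * w⁻¹) * (w * x⁻¹ * w⁻¹)) := by rw [h1]
          _ = x * y * w * (x * y)⁻¹ * w⁻¹ := by group
      inv_mem' := by
        rintro _ ⟨x, hx, rfl⟩
        refine ⟨x⁻¹, by rw [map_inv]; exact inv_mem hx, ?_⟩
        have h1 := hA x⁻¹ (w * x * w⁻¹) (by rw [map_inv]; exact inv_mem hx) (c1 _ hx)
        calc (x * w * x⁻¹ * w⁻¹)⁻¹ = (w * x * w⁻¹) * x⁻¹ := by group
          _ = x⁻¹ * (w * x * w⁻¹) := h1.symm
          _ = x⁻¹ * w * x⁻¹⁻¹ * w⁻¹ := by group }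
  have hDA : ∀ z ∈ D, σ z ∈ A := by
    rintro _ ⟨x, hx, rfl⟩; exact c3 x hx
  have hDw : ∀ z ∈ D, w * z * w⁻¹ ∈ D := by
    rintro _ ⟨x, hx, rfl⟩
    exact ⟨w * x * w⁻¹, c1 x hx, by group⟩
  have hDw' : ∀ z ∈ D, w⁻¹ * z * w ∈ D := by
    rintro _ ⟨x, hx, rfl⟩
    exact ⟨w⁻¹ * x * w, c2 x hx, by group⟩
  have hD : ∀ (i : ℤ) (a : Γ), σ a ∈ A → a * w ^ i * a⁻¹ * (w ^ i)⁻¹ ∈ D := by
    intro i
    induction i using Int.induction_on with
    | zero => intro a _; simp [one_mem]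
    | succ n ih =>
      intro a ha
      have : a * w ^ ((n : ℤ) + 1) * a⁻¹ * (w ^ ((n : ℤ) + 1))⁻¹ =
          (a * w * a⁻¹ * w⁻¹) * (w * (a * w ^ (n : ℤ) * a⁻¹ * (w ^ (n : ℤ))⁻¹) * w⁻¹) := by
        rw [add_comm, zpow_add, zpow_one]; group
      rw [this]; exact mul_mem ⟨a, ha, rfl⟩ (hDw _ (ih a ha))
    | pred n ih =>
      intro a ha
      have e1 : a * w ^ (-(n : ℤ) - 1) * a⁻¹ * (w ^ (-(n : ℤ) - 1))⁻¹ =
          (w⁻¹ * (a * w * a⁻¹ * w⁻¹)⁻¹ * w) * (w⁻¹ * (a * w ^ (-(n : ℤ)) * a⁻¹ * (w ^ (-(n : ℤ)))⁻¹) * w) := by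
        rw [sub_eq_neg_add, zpow_add, zpow_neg, zpow_one]; group
      rw [e1]; exact mul_mem (hDw' _ (inv_mem ⟨a, ha, rfl⟩)) (hDw' _ (ih a ha))
  -- the preimage
  let S : Subgroup Γ :=
    { carrier := {x | ∃ a, σ a ∈ A ∧ ∃ i : ℤ, x = a * w ^ i}
      one_mem' := ⟨1, by rw [map_one]; exact one_mem A, 0, by simp⟩
      mul_mem' := by
        rintro _ _ ⟨a, ha, i, rfl⟩ ⟨b, hb, j, rfl⟩
        exact ⟨a * (w ^ i * b * (w ^ i)⁻¹), by rw [map_mul]; exact mul_mem ha (cz i b hb), i + j, by rw [zpow_add]; group⟩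
      inv_mem' := by
        rintro _ ⟨a, ha, i, rfl⟩
        refine ⟨w ^ (-i) * a⁻¹ * (w ^ (-i))⁻¹, cz (-i) _ (by rw [map_inv]; exact inv_mem ha), -i, ?_⟩
        group }
  have hS : A ⊔ zpowers (σ w) ≤ S.map σ := by
    rw [sup_le_iff]
    constructor
    · intro a ha
      obtain ⟨x, rfl⟩ := hs a
      exact ⟨x, ⟨x, ha, 0, by simp⟩, rfl⟩
    · rw [zpowers_le]
      exact ⟨w, ⟨1, by rw [map_one]; exact one_mem A, 1, by simp⟩, rfl⟩
  have key : ⁅S, S⁆ ≤ D := by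
    rw [commutator_le]
    rintro _ ⟨a, ha, i, rfl⟩ _ ⟨b, hb, j, rfl⟩
    have hX := cz i b hb
    have hY := cz j a⁻¹ (by rw [map_inv]; exact inv_mem ha)
    have e1 : ⁅a * w ^ i, b * w ^ j⁆ = a * (w ^ i * b * (w ^ i)⁻¹) * (w ^ j * a⁻¹ * (w ^ j)⁻¹) * b⁻¹ := by
      rw [commutatorElement_def]
      have e2 : w ^ i * w ^ j = w ^ j * w ^ i := by rw [← zpow_add, ← zpow_add, add_comm]
      calc a * w ^ i * (b * w ^ j) * (a * w ^ i)⁻¹ * (b * w ^ j)⁻¹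
          = a * (w ^ i * b * (w ^ i)⁻¹) * (w ^ i * w ^ j * (w ^ i)⁻¹) * a⁻¹ * (w ^ j)⁻¹ * b⁻¹ := by group
        _ = _ := by rw [e2]; group
    have e3 := hA _ _ hX hY
    have e4 : ⁅a * w ^ i, b * w ^ j⁆ = (a * w ^ j * a⁻¹ * (w ^ j)⁻¹) * (b * w ^ i * b⁻¹ * (w ^ i)⁻¹)⁻¹ := by
      rw [e1, mul_assoc a, e3]; group
    rw [e4]
    exact mul_mem (hD j a ha) (inv_mem (hD i b hb))
  have hle : (A ⊔ zpowers (σ w)).comap σ ≤ S := by
    intro x hx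
    obtain ⟨y, hy, hyx⟩ := hS hx
    have h1 : y⁻¹ * x ∈ S := ⟨y⁻¹ * x, by rw [map_mul, map_inv, hyx, inv_mul_cancel]; exact one_mem A, 0, by simp⟩
    have h2 : x = y * (y⁻¹ * x) := by group
    rw [h2]; exact mul_mem hy h1
  exact key (commutator_mono hle hle hz)

variable {F : Type u} [Field F] [Fintype F] {q : ℕ} (hF : Fintype.card F = q ^ 2)
include hF

theorem mat_mul_coe (a b : SU 3 F q) : (a * b).1.1 = a.1.1 * b.1.1 := rfl

/-- the Weyl element -/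
noncomputable def w2 : SU 2 F q := su2 hF 0 (-1) (by rw [map_neg, map_one, map_zero]; ring)

theorem w2_coe : (w2 hF).1.1 = !![0, -1; 1, 0] := by
  rw [w2, su2_coe]
  simp

theorem mul3 (a b c d e f g h k a' b' c' d' e' f' g' h' k' : F) :
    (!![a, b, c; d, e, f; g, h, k] : Matrix (Fin 3) (Fin 3) F) * !![a', b', c'; d', e', f'; g', h', k'] =
      !![a * a' + b * d' + c * g', a * b' + b * e' + c * h', a * c' + b * f' + c * k';
        d * a' + e * d' + f * g', d * b' + e * e' + f * h', d * c' + e * f' + f * k';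
        g * a' + h * d' + k * g', g * b' + h * e' + k * h', g * c' + h * f' + k * k'] := by
  ext i j
  fin_cases i <;> fin_cases j <;> simp [Matrix.mul_apply, Fin.sum_univ_three]

/-- the diagonal group -/
def dg (F : Type u) [Field F] (q : ℕ) : Subgroup (SU 3 F q) := (Tor F q).map (b0 F q) ⊔ (Tor F q).map (b1 F q)

omit [Fintype F] hF in
theorem tor_comm (a b : SU 2 F q) (ha : a ∈ Tor F q) (hb : b ∈ Tor F q) : b0 F q a * b1 F q b = b1 F q b * b0 F q a := by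
  apply Subtype.ext; apply Subtype.ext
  show (b0 F q a).1.1 * (b1 F q b).1.1 = (b1 F q b).1.1 * (b0 F q a).1.1
  rw [b0_mat, b1_mat, ha.1, ha.2, hb.1, hb.2]
  ext i j
  fin_cases i <;> fin_cases j <;> simp [Matrix.mul_apply, Fin.sum_univ_three, mul_comm]

theorem cyc_b0 : IsCyclic ((Tor F q).map (b0 F q)) := by
  haveI := cyclic_tor hF
  exact isCyclic_of_surjective ((b0 F q).subgroupMap (Tor F q)) ((b0 F q).subgroupMap_surjective (Tor F q))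

theorem cyc_b1 : IsCyclic ((Tor F q).map (b1 F q)) := by
  haveI := cyclic_tor hF
  exact isCyclic_of_surjective ((b1 F q).subgroupMap (Tor F q)) ((b1 F q).subgroupMap_surjective (Tor F q))

omit [Fintype F] hF in
theorem dg_norm : (Tor F q).map (b0 F q) ≤ normalizer ((Tor F q).map (b1 F q) : Set (SU 3 F q)) := by
  rw [le_normalizer_iff]
  rintro _ ⟨a, ha, rfl⟩ _ ⟨b, hb, rfl⟩
  rw [tor_comm a b ha hb, mul_inv_cancel_right]
  exact ⟨b, hb, rfl⟩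

omit [Fintype F] hF in
theorem mem_dg {g : SU 3 F q} (hg : g ∈ dg F q) : ∃ a ∈ Tor F q, ∃ b ∈ Tor F q, g = b0 F q a * b1 F q b := by
  have h := coe_mul_of_left_le_normalizer_right _ _ (dg_norm (F := F) (q := q))
  have h1 : g ∈ (((Tor F q).map (b0 F q) ⊔ (Tor F q).map (b1 F q) : Subgroup (SU 3 F q)) : Set (SU 3 F q)) := hg
  rw [h] at h1
  obtain ⟨_, ⟨a, ha, rfl⟩, _, ⟨b, hb, rfl⟩, rfl⟩ := h1
  exact ⟨a, ha, b, hb, rfl⟩

/-- matrices of the elements of `dg` -/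
theorem dg_mat {g : SU 3 F q} (hg : g ∈ dg F q) : ∃ a b c : F, g.1.1 = !![a, 0, 0; 0, b, 0; 0, 0, c] := by
  obtain ⟨a, ha, b, hb, rfl⟩ := mem_dg hg
  refine ⟨a.1.1 0 0, a.1.1 1 1 * b.1.1 0 0, b.1.1 1 1, ?_⟩
  rw [mat_mul_coe hF, b0_mat, b1_mat, ha.1, ha.2, hb.1, hb.2, mul3 hF]
  simp

theorem card_dg : Nat.card (dg F q) = (q + 1) * (q + 1) := by
  have h := ConjSylow.card_sup_mul_card_inf (dg_norm (F := F) (q := q))
  have h0 : Nat.card ((Tor F q).map (b0 F q)) = q + 1 := by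
    rw [← card_tor hF]
    exact (Nat.card_congr (equivMapOfInjective _ _ b0_inj).toEquiv).symm
  have h1 : Nat.card ((Tor F q).map (b1 F q)) = q + 1 := by
    rw [← card_tor hF]
    exact (Nat.card_congr (equivMapOfInjective _ _ b1_inj).toEquiv).symm
  have h2 : (Tor F q).map (b0 F q) ⊓ (Tor F q).map (b1 F q) = ⊥ := by
    rw [eq_bot_iff]
    rintro _ ⟨⟨a, ha, rfl⟩, ⟨s, hs, hs1⟩⟩
    have h1 := congrArg (fun x : SU 3 F q => x.1.1 0 0) hs1
    simp only [b0_mat, b1_mat] at h1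
    have h2 : a.1.1 0 0 = 1 := by simpa using h1.symm
    obtain ⟨h3, h5⟩ := tor_entries hF ha
    have h8 : a = 1 := by
      apply Subtype.ext; apply Subtype.ext
      rw [h3, h2, map_one]
      ext i j; fin_cases i <;> fin_cases j <;> simp
    rw [h8, map_one]; exact one_mem _
  rw [h2, card_bot, mul_one, h0, h1] at h
  exact h


omit hF in
/-- lifts of elements of a cyclic subgroup commute -/
theorem comm_of_cyclic {Γ G : Type*} [Group Γ] [Group G] (σ : Γ →* G) (hc : σ.ker ≤ center Γ) (T : Subgroup G) (hT : IsCyclic T)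
    (a b : Γ) (ha : σ a ∈ T) (hb : σ b ∈ T) : a * b = b * a := by
  have h1 : (σ.subgroupComap T).ker ≤ center (T.comap σ) := by
    rintro ⟨x, hx⟩ hxk
    rw [mem_center_iff]
    rintro ⟨y, hy⟩
    have h2 : x ∈ σ.ker := congrArg Subtype.val hxk
    exact Subtype.ext (mem_center_iff.1 (hc h2) y)
  have h3 := (MonoidHom.isMulCommutative_of_isCyclic_of_ker_le_center (σ.subgroupComap T) h1).is_comm.comm (⟨a, ha⟩ : T.comap σ) ⟨b, hb⟩
  exact congrArg Subtype.val h3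

/-- the long cycle -/
noncomputable def w3 : SU 3 F q := b0 F q (w2 hF) * b1 F q (w2 hF)

theorem w3_mat : (w3 hF).1.1 = !![0, 0, 1; 1, 0, 0; 0, 1, 0] := by
  rw [w3, mat_mul_coe hF, b0_mat, b1_mat, w2_coe, mul3 hF]
  simp

theorem w3_pow : w3 hF * w3 hF * w3 hF = 1 := by
  apply Subtype.ext; apply Subtype.ext
  show (w3 hF * w3 hF * w3 hF).1.1 = 1
  rw [mat_mul_coe hF, mat_mul_coe hF, w3_mat, mul3 hF, mul3 hF]
  ext i j
  fin_cases i <;> fin_cases j <;> simp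

theorem tor_mul {a b : SU 2 F q} (ha : a ∈ Tor F q) (hb : b ∈ Tor F q) : (a * b).1.1 0 0 = a.1.1 0 0 * b.1.1 0 0 ∧
    (a * b).1.1 1 1 = a.1.1 1 1 * b.1.1 1 1 := by
  constructor
  · show (a.1.1 * b.1.1) 0 0 = _
    rw [Matrix.mul_apply, Fin.sum_univ_two, ha.1, zero_mul, add_zero]
  · show (a.1.1 * b.1.1) 1 1 = _
    rw [Matrix.mul_apply, Fin.sum_univ_two, ha.2, zero_mul, zero_add]

theorem tor_det {a : SU 2 F q} (ha : a ∈ Tor F q) : a.1.1 0 0 * a.1.1 1 1 = 1 := by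
  have hd := a.1.2
  rw [Matrix.det_fin_two, ha.1, zero_mul, sub_zero] at hd
  exact hd

theorem tor_inv {a : SU 2 F q} (ha : a ∈ Tor F q) : (a⁻¹).1.1 0 0 = a.1.1 1 1 ∧ (a⁻¹).1.1 1 1 = a.1.1 0 0 := by
  have h1 := tor_mul hF ha (inv_mem ha)
  rw [mul_inv_cancel] at h1
  have h2 := tor_det hF ha
  have h0 : a.1.1 0 0 ≠ 0 := by intro h; rw [h, zero_mul] at h2; exact zero_ne_one h2
  have h0' : a.1.1 1 1 ≠ 0 := by intro h; rw [h, mul_zero] at h2; exact zero_ne_one h2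
  constructor
  · apply mul_left_cancel₀ h0
    rw [← h1.1, h2]; rfl
  · apply mul_left_cancel₀ h0'
    rw [← h1.2, mul_comm, h2]; rfl

theorem w3_b0 {a : SU 2 F q} (ha : a ∈ Tor F q) : w3 hF * b0 F q a = b1 F q a * w3 hF := by
  apply Subtype.ext; apply Subtype.ext
  show (w3 hF * b0 F q a).1.1 = (b1 F q a * w3 hF).1.1
  rw [mat_mul_coe hF, mat_mul_coe hF, w3_mat, b0_mat, b1_mat, mul3 hF, mul3 hF, ha.1, ha.2]
  simp

theorem w3_b1 {b : SU 2 F q} (hb : b ∈ Tor F q) : w3 hF * b1 F q b = b0 F q b⁻¹ * b1 F q b⁻¹ * w3 hF := by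
  apply Subtype.ext; apply Subtype.ext
  show (w3 hF * b1 F q b).1.1 = (b0 F q b⁻¹ * b1 F q b⁻¹ * w3 hF).1.1
  have hb' := inv_mem hb
  rw [mat_mul_coe hF, mat_mul_coe hF, mat_mul_coe hF, w3_mat, b0_mat, b1_mat, b1_mat, mul3 hF, mul3 hF, mul3 hF, hb.1, hb.2, hb'.1, hb'.2,
    (tor_inv hF hb).1, (tor_inv hF hb).2]
  have h := tor_det hF hb
  ext i j
  fin_cases i <;> fin_cases j <;> simp [h]

theorem tau_b0 {a : SU 2 F q} (ha : a ∈ Tor F q) : b0 F q (w2 hF) * b0 F q a = b0 F q a⁻¹ * b0 F q (w2 hF) := by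
  rw [← map_mul, ← map_mul]
  congr 1
  have ha' := inv_mem ha
  have e1 := (tor_inv hF ha).1
  have e2 := (tor_inv hF ha).2
  generalize a⁻¹ = c at *
  apply Subtype.ext; apply Subtype.ext
  show (w2 hF).1.1 * a.1.1 = c.1.1 * (w2 hF).1.1
  rw [w2_coe]
  ext i j
  fin_cases i <;> fin_cases j <;> simp only [Matrix.mul_apply, Fin.sum_univ_two] <;>
    simp [ha.1, ha.2, ha'.1, ha'.2, e1, e2]

theorem tau_b1 {b : SU 2 F q} (hb : b ∈ Tor F q) : b0 F q (w2 hF) * b1 F q b = b0 F q b * b1 F q b * b0 F q (w2 hF) := by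
  apply Subtype.ext; apply Subtype.ext
  show (b0 F q (w2 hF) * b1 F q b).1.1 = (b0 F q b * b1 F q b * b0 F q (w2 hF)).1.1
  rw [mat_mul_coe hF, mat_mul_coe hF, mat_mul_coe hF, b0_mat, b0_mat, b1_mat, w2_coe, mul3 hF, mul3 hF, mul3 hF, hb.1, hb.2]
  have h := tor_det hF hb
  have h' : b.1.1 1 1 * b.1.1 0 0 = 1 := by rw [mul_comm]; exact h
  ext i j
  fin_cases i <;> fin_cases j <;> simp [h, h']

theorem w3_norm : ∀ a ∈ dg F q, w3 hF * a * (w3 hF)⁻¹ ∈ dg F q := by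
  intro g hg
  obtain ⟨a, ha, b, hb, rfl⟩ := mem_dg hg
  have e : w3 hF * (b0 F q a * b1 F q b) * (w3 hF)⁻¹ = b1 F q a * (b0 F q b⁻¹ * b1 F q b⁻¹) := by
    rw [← mul_assoc, w3_b0 hF ha, mul_assoc (b1 F q a), w3_b1 hF hb]; group
  rw [e]
  have i1 : ∀ x ∈ Tor F q, b0 F q x ∈ dg F q := fun x hx => (le_sup_left : _ ≤ dg F q) ⟨x, hx, rfl⟩
  have i2 : ∀ x ∈ Tor F q, b1 F q x ∈ dg F q := fun x hx => (le_sup_right : _ ≤ dg F q) ⟨x, hx, rfl⟩
  exact mul_mem (i2 _ ha) (mul_mem (i1 _ (inv_mem hb)) (i2 _ (inv_mem hb)))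

theorem w3_norm' : ∀ a ∈ dg F q, (w3 hF)⁻¹ * a * w3 hF ∈ dg F q := by
  intro a ha
  have h : (w3 hF)⁻¹ = w3 hF * w3 hF := by
    rw [inv_eq_iff_mul_eq_one]
    rw [← mul_assoc]; exact w3_pow hF
  have h1 := w3_norm hF _ (w3_norm hF a ha)
  have h2 : w3 hF = (w3 hF)⁻¹ * (w3 hF)⁻¹ := by
    conv_lhs => rw [← inv_inv (w3 hF), h, mul_inv_rev]
  have e : (w3 hF)⁻¹ * a * w3 hF = w3 hF * (w3 hF * a * (w3 hF)⁻¹) * (w3 hF)⁻¹ := by
    calc (w3 hF)⁻¹ * a * w3 hF = (w3 hF * w3 hF) * a * ((w3 hF)⁻¹ * (w3 hF)⁻¹) := by rw [← h, ← h2]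
      _ = _ := by group
  rw [e]; exact h1

/-- lifts of the diagonal group commute -/
theorem dg_lift {Γ : Type*} [Group Γ] {r : ℕ} (hr : r ≠ 2) [hr0 : Fact r.Prime] (σ : Γ →* SU 3 F q) (hs : Function.Surjective σ)
    (hc : σ.ker ≤ center Γ) (hk : IsPGroup r σ.ker) (x y : Γ) (hx : σ x ∈ dg F q) (hy : σ y ∈ dg F q) : x * y = y * x := by
  have c0 := comm_of_cyclic σ hc _ (cyc_b0 hF (q := q))
  have c1 := comm_of_cyclic σ hc _ (cyc_b1 hF (q := q))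
  -- the mixed case
  have c2 : ∀ x y : Γ, σ x ∈ (Tor F q).map (b0 F q) → σ y ∈ (Tor F q).map (b1 F q) → x * y = y * x := by
    rintro x y ⟨a, ha, hxa⟩ ⟨b, hb, hyb⟩
    obtain ⟨t, ht⟩ := hs (b0 F q (w2 hF))
    obtain ⟨x', hx'⟩ := hs (b0 F q b)
    have hxx' : x * x' = x' * x := c0 x x' ⟨a, ha, hxa⟩ ⟨b, hb, hx'.symm⟩
    have hu : x⁻¹ * y * x * y⁻¹ ∈ σ.ker := by
      rw [MonoidHom.mem_ker]
      simp only [map_mul, map_inv, ← hxa, ← hyb]
      have h1 : (b0 F q a)⁻¹ * b1 F q b * b0 F q a = b1 F q b := by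
        rw [mul_assoc, ← tor_comm a b ha hb]; group
      rw [h1, mul_inv_cancel]
    have huc := mem_center_iff.1 (hc hu)
    have hz1 : x * (t * x * t⁻¹) ∈ center Γ := by
      apply hc
      rw [MonoidHom.mem_ker]
      simp only [map_mul, map_inv, ← hxa, ht]
      rw [tau_b0 hF ha, map_inv]; group
    have hz2 : (x' * y)⁻¹ * (t * y * t⁻¹) ∈ center Γ := by
      apply hc
      rw [MonoidHom.mem_ker]
      simp only [map_mul, map_inv, ← hyb, ht, hx']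
      rw [tau_b1 hF hb]; group
    -- the commutator
    have e1 : ⁅t * x * t⁻¹, t * y * t⁻¹⁆ = ⁅x⁻¹, x' * y⁆ := by
      have h1 : t * x * t⁻¹ = x⁻¹ * (x * (t * x * t⁻¹)) := by group
      have h2 : t * y * t⁻¹ = (x' * y) * ((x' * y)⁻¹ * (t * y * t⁻¹)) := by group
      rw [h1, h2, SchurMult.commutatorElement_mul_central hz1 hz2]
    have e2 : ⁅t * x * t⁻¹, t * y * t⁻¹⁆ = ⁅x, y⁆ := by
      have h2 : ⁅x, y⁆ ∈ center Γ := by
        have : ⁅x, y⁆ = x * (x⁻¹ * y * x * y⁻¹)⁻¹ * x⁻¹ := by rw [commutatorElement_def]; group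
        rw [this]
        have h3 : (x⁻¹ * y * x * y⁻¹)⁻¹ ∈ center Γ := inv_mem (hc hu)
        rw [mem_center_iff.1 h3 x, mul_inv_cancel_right]; exact h3
      have h3 : ⁅t * x * t⁻¹, t * y * t⁻¹⁆ = t * ⁅x, y⁆ * t⁻¹ := by
        simp only [commutatorElement_def]; group
      rw [h3, mem_center_iff.1 h2 t, mul_inv_cancel_right]
    have e3 : ⁅x⁻¹, x' * y⁆ = x⁻¹ * y * x * y⁻¹ := by
      have h1 : ⁅x⁻¹, x' * y⁆ = x' * (x⁻¹ * y * x * y⁻¹) * x'⁻¹ := by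
        have h2 : x⁻¹ * x' = x' * x⁻¹ := by
          calc x⁻¹ * x' = x⁻¹ * (x' * x) * x⁻¹ := by group
            _ = x⁻¹ * (x * x') * x⁻¹ := by rw [hxx']
            _ = x' * x⁻¹ := by group
        calc ⁅x⁻¹, x' * y⁆ = (x⁻¹ * x') * y * x * y⁻¹ * x'⁻¹ := by rw [commutatorElement_def]; group
          _ = x' * (x⁻¹ * y * x * y⁻¹) * x'⁻¹ := by rw [h2]; group
      rw [h1, huc x', mul_inv_cancel_right]
    have e4 : x⁻¹ * y * x * y⁻¹ = ⁅x, y⁆ := by rw [← e3, ← e1, e2]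
    set u := x⁻¹ * y * x * y⁻¹ with hu0
    have e5 : ⁅x, y⁆ = u⁻¹ := by
      have h1 : ⁅x, y⁆ = x * u⁻¹ * x⁻¹ := by rw [commutatorElement_def, hu0]; group
      rw [h1, mem_center_iff.1 (inv_mem (hc hu) : u⁻¹ ∈ center Γ) x, mul_inv_cancel_right]
    have e6 : u * u = 1 := by
      have h7 : u = u⁻¹ := e4.trans e5
      calc u * u = u * u⁻¹ := by rw [← h7]
        _ = 1 := mul_inv_cancel u
    obtain ⟨k, hk1⟩ := hk ⟨u, hu⟩
    have hk2 : u ^ r ^ k = 1 := by simpa using congrArg Subtype.val hk1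
    have hodd : Odd (r ^ k) := (hr0.out.odd_of_ne_two hr).pow
    obtain ⟨m, hm⟩ := hodd
    have h8 : u = 1 := by
      rw [hm, pow_succ, pow_mul, pow_two, e6, one_pow, one_mul] at hk2
      exact hk2
    have h9 : ⁅x, y⁆ = 1 := by rw [e5, h8, inv_one]
    exact commutatorElement_eq_one_iff_mul_comm.1 h9
  obtain ⟨a, ha, b, hb, hab⟩ := mem_dg hx
  obtain ⟨c, hcc, d, hd, hcd⟩ := mem_dg hy
  obtain ⟨x0, hx0⟩ := hs (b0 F q a)
  obtain ⟨y0, hy0⟩ := hs (b0 F q c)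
  have hx1 : σ (x0⁻¹ * x) = b1 F q b := by rw [map_mul, map_inv, hx0, hab]; group
  have hy1 : σ (y0⁻¹ * y) = b1 F q d := by rw [map_mul, map_inv, hy0, hcd]; group
  have k1 : Commute x0 y0 := c0 _ _ ⟨a, ha, hx0.symm⟩ ⟨c, hcc, hy0.symm⟩
  have k2 : Commute x0 (y0⁻¹ * y) := c2 _ _ ⟨a, ha, hx0.symm⟩ ⟨d, hd, hy1.symm⟩
  have k3 : Commute y0 (x0⁻¹ * x) := c2 _ _ ⟨c, hcc, hy0.symm⟩ ⟨b, hb, hx1.symm⟩
  have k4 : Commute (x0⁻¹ * x) (y0⁻¹ * y) := c1 _ _ ⟨b, hb, hx1.symm⟩ ⟨d, hd, hy1.symm⟩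
  have k5 : Commute (x0 * (x0⁻¹ * x)) (y0 * (y0⁻¹ * y)) := (k1.mul_right k2).mul_left (k3.symm.mul_right k4)
  rw [mul_inv_cancel_left, mul_inv_cancel_left] at k5
  exact k5

theorem index_dg (h3 : 3 ∣ q + 1) : ¬ 3 ∣ (dg F q ⊔ zpowers (w3 hF)).index := by
  haveI : Finite (SU 3 F q) := inferInstance
  have hne : ∀ g ∈ dg F q, g.1.1 0 2 = 0 ∧ g.1.1 0 1 = 0 := by
    intro g hg
    obtain ⟨a, b, c, h⟩ := dg_mat hF hg
    rw [h]; simp
  have hw1 : w3 hF ∉ dg F q := by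
    intro h
    have := (hne _ h).1
    rw [w3_mat] at this
    simp at this
  have hw2 : w3 hF * w3 hF ∉ dg F q := by
    intro h
    have := (hne _ h).2
    rw [mat_mul_coe hF, w3_mat, mul3 hF] at this
    simp at this
  have hord : orderOf (w3 hF) = 3 := by
    apply orderOf_eq_prime
    · rw [pow_succ, pow_two]; exact w3_pow hF
    · intro h; rw [h] at hw1; exact hw1 (one_mem _)
  have hinf : zpowers (w3 hF) ⊓ dg F q = ⊥ := by
    rw [eq_bot_iff]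
    rintro x ⟨hx1, hx2⟩
    classical
    have h1 := mem_zpowers_iff_mem_range_orderOf.1 hx1
    rw [hord, Finset.mem_image] at h1
    obtain ⟨k, hk, rfl⟩ := h1
    rw [Finset.mem_range] at hk
    interval_cases k
    · simp
    · rw [pow_one] at hx2; exact absurd hx2 hw1
    · rw [pow_two] at hx2; exact absurd hx2 hw2
  have hle : zpowers (w3 hF) ≤ normalizer (dg F q : Set (SU 3 F q)) := by
    rw [zpowers_le, mem_normalizer_iff]
    intro a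
    constructor
    · exact w3_norm hF a
    · intro h
      have := w3_norm' hF _ h
      have e : (w3 hF)⁻¹ * (w3 hF * a * (w3 hF)⁻¹) * w3 hF = a := by group
      rwa [e] at this
  have h1 := ConjSylow.card_sup_mul_card_inf hle
  rw [hinf, card_bot, mul_one, Nat.card_zpowers, hord, card_dg hF, sup_comm] at h1
  have h2 := card_mul_index (dg F q ⊔ zpowers (w3 hF))
  rw [h1, card_su3 hF, cube_fac q] at h2
  have hq := HermMat.two_le_q hF
  obtain ⟨k, hk⟩ := h3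
  have hk1 : 1 ≤ k := by omega
  set i := (dg F q ⊔ zpowers (w3 hF)).index with hi
  have hsq : q ^ 2 - 1 = (q + 1) * (q - 1) := by
    have : 1 ≤ q ^ 2 := Nat.one_le_pow _ _ (by omega)
    zify [this, show 1 ≤ q by omega]; ring
  have h4 : 3 * i = q ^ 3 * (q - 1) * (q ^ 2 - q + 1) := by
    apply Nat.eq_of_mul_eq_mul_left (show 0 < (q + 1) * (q + 1) by positivity)
    rw [hsq] at h2
    linarith [h2]
  have h5 : q ^ 2 - q + 1 = 3 * (3 * k ^ 2 - 3 * k + 1) := by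
    have e1 : q = 3 * k - 1 := by omega
    have e2 : q ≤ q ^ 2 := by nlinarith
    have e3 : 3 * k ≤ 3 * k ^ 2 := by nlinarith
    zify [e2, e3]
    have e4 : (q : ℤ) = 3 * k - 1 := by omega
    rw [e4]; ring
  rw [h5] at h4
  have h6 : i = q ^ 3 * (q - 1) * (3 * k ^ 2 - 3 * k + 1) := by
    have : 3 * i = 3 * (q ^ 3 * (q - 1) * (3 * k ^ 2 - 3 * k + 1)) := by rw [h4]; ring
    omega
  rw [h6]
  intro hd
  have p3 : Nat.Prime 3 := by norm_num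
  rcases (Nat.Prime.dvd_mul p3).1 hd with h | h
  · rcases (Nat.Prime.dvd_mul p3).1 h with h | h
    · have := p3.dvd_of_dvd_pow h
      omega
    · omega
  · have e3 : 3 * k ≤ 3 * k ^ 2 := by nlinarith
    have : 3 ∣ 3 * k ^ 2 - 3 * k := by
      have : 3 * k ^ 2 - 3 * k = 3 * (k ^ 2 - k) := by rw [Nat.mul_sub]
      rw [this]; exact dvd_mul_right _ _
    omega

/-- the case `r = 3 ∣ q + 1` -/
theorem su3_mult_three (h3 : 3 ∣ q + 1) (h4 : 3 ≤ q) : PStemDvd 3 (SU 3 F q) 1 := by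
  haveI : Fact (Nat.Prime 3) := ⟨by norm_num⟩
  intro Γ _ _ σ hσ hk
  obtain ⟨w, hw⟩ := hσ.1 (w3 hF)
  have hA := dg_lift hF (r := 3) (by norm_num) σ hσ.1 hσ.2.1 hk
  have hperf : Group.IsPerfect (SU 3 F q) := ⟨H3USim.su_perfect hF 3 le_rfl (by omega)⟩
  have hΓ : Group.IsPerfect Γ := SchurPerfect.isPerfect_of_stem hperf σ hσ
  have hle := ker_le_commutator_comap σ hσ hk (dg F q ⊔ zpowers (w3 hF)) (index_dg hF h3)
  rw [Nat.dvd_one, Subgroup.card_eq_one, eq_bot_iff]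
  intro z hz
  have hz1 := hle hz
  rw [← hw] at hz1
  obtain ⟨x, hx, rfl⟩ := comm_le σ hσ.1 (dg F q) hA w (by rw [hw]; exact w3_norm hF) (by rw [hw]; exact w3_norm' hF) z hz1
  -- `σ x` commutes with `w3`
  rw [MonoidHom.mem_ker, map_mul, map_mul, map_mul, map_inv, map_inv, hw] at hz
  have h1 : σ x * w3 hF = w3 hF * σ x := by
    have := mul_inv_eq_one.1 hz
    rw [mul_inv_eq_iff_eq_mul] at this
    exact this
  obtain ⟨a, b, c, habc⟩ := dg_mat hF hx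
  have h2 := congrArg (fun g : SU 3 F q => g.1.1) h1
  simp only [mat_mul_coe hF, w3_mat, habc, mul3 hF] at h2
  have h02 := congrFun (congrFun h2 0) 2
  have h10 := congrFun (congrFun h2 1) 0
  have h21 := congrFun (congrFun h2 2) 1
  simp at h02 h10 h21
  have h5 : σ x ∈ center (SU 3 F q) := by
    rw [mem_center_iff]
    intro g
    apply Subtype.ext; apply Subtype.ext
    show (g * σ x).1.1 = (σ x * g).1.1
    have h6 : (σ x).1.1 = a • (1 : Matrix (Fin 3) (Fin 3) F) := by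
      have hb : b = a := h10
      have hc : c = a := h02.symm
      rw [habc, hb, hc]
      ext i j
      fin_cases i <;> fin_cases j <;> simp
    rw [mat_mul_coe hF, mat_mul_coe hF, h6, mul_smul_comm, smul_mul_assoc, mul_one, one_mul]
  have h7 : x ∈ center Γ := SchurPerfect.mem_center_of_perfect hΓ σ hσ.2.1 (fun g => mem_center_iff.1 h5 (σ g))
  rw [mem_bot, ← mem_center_iff.1 h7 w]; group

end Cfsg.Agent.Lib.H3MU
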