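import Cfsg.Agent.Lib.H3MU4
import Cfsg.Agent.Lib.PSLTypes

/-!
# Cyclic Sylow subgroups of `SL_3`, and `M_r(SU_3(q)) = 1` for `r ∣ q² - q + 1`, `r ≠ 3` (helper3)
-/

set_option autoImplicit false

namespace Cfsg.Agent.Lib.H3MU

open Subgroup Cfsg Cfsg.Agent.Lib.SchurSylow Module
open scoped commutatorElement MatrixGroups Matrix

universe u v w

/-- `r`-subgroups of `GL_3` are cyclic for `r` prime to `Q(Q-1)(Q²-1)` -/
theorem cyclic_gl3 {F : Type*} [Field F] [Fintype F] {r : ℕ} [hr : Fact r.Prime] (h0 : ¬ r ∣ Fintype.card F)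
    (h1 : ¬ r ∣ Fintype.card F - 1) (h2 : ¬ r ∣ Fintype.card F ^ 2 - 1) (P : Subgroup (GL (Fin 3) F)) (hP : IsPGroup r P) :
    IsCyclic P := by
  classical
  obtain ⟨K, _, _, _, hK, z, hz, hzo, -⟩ := PSLTypes.exists_ext F 3 (by norm_num)
  haveI : FiniteDimensional F K := Module.finite_of_finrank_pos (by omega)
  let b := Module.finBasisOfFinrankEq F K hK
  let f : Kˣ →* GL (Fin 3) F := Units.map (Algebra.leftMulMatrix b).toRingHom.toMonoidHom
  have hf : Function.Injective f := by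
    intro x y hxy
    apply Units.ext
    apply Algebra.leftMulMatrix_injective b
    exact congrArg Units.val hxy
  haveI : IsCyclic f.range := isCyclic_of_surjective f.rangeRestrict f.rangeRestrict_surjective
  set Q := Fintype.card F with hQ
  have hQ1 : 1 < Q := Fintype.one_lt_card
  have hc : Nat.card f.range = Q ^ 3 - 1 := by
    rw [← Nat.card_congr (MonoidHom.ofInjective hf).toEquiv, ← orderOf_eq_card_of_forall_mem_zpowers hz, hzo,
      Nat.card_eq_fintype_card]
  have hG : Nat.card (GL (Fin 3) F) = (Q ^ 3 - 1) * (Q ^ 3 * ((Q ^ 2 - 1) * (Q - 1))) := by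
    rw [Matrix.card_GL_field]
    rw [Fin.prod_univ_three]
    simp only [← hQ]
    have e1 : 1 ≤ Q ^ 3 := Nat.one_le_pow _ _ (by omega)
    have e2 : Q ≤ Q ^ 3 := by calc Q = Q ^ 1 := (pow_one Q).symm
                              _ ≤ Q ^ 3 := Nat.pow_le_pow_right (by omega) (by norm_num)
    have e3 : Q ^ 2 ≤ Q ^ 3 := Nat.pow_le_pow_right (by omega) (by norm_num)
    have e4 : 1 ≤ Q ^ 2 := Nat.one_le_pow _ _ (by omega)
    have e5 : 1 ≤ Q := by omega
    simp only [Fin.val_zero, pow_zero, Fin.val_one, pow_one, Fin.val_two]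
    zify [e1, e2, e3, e4, e5]
    ring
  have hpos1 : Q ^ 3 - 1 ≠ 0 := by
    have : 1 < Q ^ 3 := Nat.one_lt_pow (by norm_num) hQ1
    omega
  have hpos2 : Q ^ 3 * ((Q ^ 2 - 1) * (Q - 1)) ≠ 0 := by
    have : 1 < Q ^ 2 := Nat.one_lt_pow (by norm_num) hQ1
    have h3 : Q ^ 2 - 1 ≠ 0 := by omega
    have h4 : Q - 1 ≠ 0 := by omega
    positivity
  have hnd : ¬ r ∣ Q ^ 3 * ((Q ^ 2 - 1) * (Q - 1)) := by
    intro h
    rcases (Nat.Prime.dvd_mul hr.out).1 h with h | h
    · exact h0 (hr.out.dvd_of_dvd_pow h)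
    · rcases (Nat.Prime.dvd_mul hr.out).1 h with h | h
      · exact h2 h
      · exact h1 h
  have hfac : (Nat.card (GL (Fin 3) F)).factorization r = (Nat.card f.range).factorization r := by
    rw [hG, hc, Nat.factorization_mul hpos1 hpos2, Finsupp.add_apply, Nat.factorization_eq_zero_of_not_dvd hnd, add_zero]
  obtain ⟨P0⟩ : Nonempty (Sylow r f.range) := inferInstance
  have hP0 : IsPGroup r ((P0 : Subgroup f.range).map f.range.subtype) := P0.isPGroup'.map _
  obtain ⟨S, hS⟩ := hP0.exists_le_sylow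
  have hSc : IsCyclic S := by
    have e1 : (P0 : Subgroup f.range).map f.range.subtype = S := by
      apply Subgroup.eq_of_le_of_card_ge hS
      rw [S.card_eq_multiplicity, hfac, ← P0.card_eq_multiplicity]
      exact (Nat.card_congr (equivMapOfInjective _ _ (subtype_injective f.range)).toEquiv).le
    rw [← e1]
    haveI : IsCyclic (P0 : Subgroup f.range) := inferInstance
    exact isCyclic_of_surjective (f.range.subtype.subgroupMap (P0 : Subgroup f.range)) (f.range.subtype.subgroupMap_surjective _)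
  obtain ⟨R, hR⟩ := hP.exists_le_sylow
  haveI : IsCyclic R := by
    obtain ⟨e⟩ : Nonempty (S ≃* R) := ⟨Sylow.equiv S R⟩
    exact isCyclic_of_surjective e e.surjective
  exact isCyclic_of_injective (inclusion hR) (inclusion_injective hR)

theorem arith_r {q r : ℕ} [hr : Fact r.Prime] (hq : 2 ≤ q) (h : r ∣ q ^ 2 - q + 1) (h3 : r ≠ 3) :
    ¬ r ∣ q ^ 2 ∧ ¬ r ∣ q ^ 2 - 1 ∧ ¬ r ∣ (q ^ 2) ^ 2 - 1 := by
  have hle : q ≤ q ^ 2 := by nlinarith
  have e : ((q : ZMod r)) ^ 2 - q + 1 = 0 := by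
    have := (ZMod.natCast_eq_zero_iff (q ^ 2 - q + 1) r).2 h
    rw [Nat.cast_add, Nat.cast_sub hle, Nat.cast_pow, Nat.cast_one] at this
    exact this
  have hq0 : (q : ZMod r) ≠ 0 := by
    intro h0; rw [h0] at e
    have : (1 : ZMod r) = 0 := by linear_combination e
    exact one_ne_zero this
  have h30 : (3 : ZMod r) ≠ 0 := by
    intro h0
    have h1 : ((3 : ℕ) : ZMod r) = 0 := by exact_mod_cast h0
    rw [ZMod.natCast_eq_zero_iff] at h1
    exact h3 ((Nat.prime_dvd_prime_iff_eq hr.out (by norm_num)).1 h1)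
  have hm1 : (q : ZMod r) - 1 ≠ 0 := by
    intro h0
    have : (1 : ZMod r) = 0 := by linear_combination e - (q : ZMod r) * h0
    exact one_ne_zero this
  have hp1 : (q : ZMod r) + 1 ≠ 0 := by
    intro h0
    exact h30 (by linear_combination e - ((q : ZMod r) - 2) * h0)
  have hs1 : (q : ZMod r) ^ 2 + 1 ≠ 0 := by
    intro h0
    exact hq0 (by linear_combination h0 - e)
  have hone : 1 ≤ q ^ 2 := Nat.one_le_pow _ _ (by omega)
  have hone' : 1 ≤ (q ^ 2) ^ 2 := Nat.one_le_pow _ _ (by omega)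
  refine ⟨?_, ?_, ?_⟩
  · intro hd
    have := (ZMod.natCast_eq_zero_iff (q ^ 2) r).2 hd
    rw [Nat.cast_pow] at this
    exact hq0 (pow_eq_zero_iff two_ne_zero |>.1 this)
  · intro hd
    have := (ZMod.natCast_eq_zero_iff (q ^ 2 - 1) r).2 hd
    rw [Nat.cast_sub hone, Nat.cast_pow, Nat.cast_one] at this
    have h5 : ((q : ZMod r) - 1) * ((q : ZMod r) + 1) = 0 := by linear_combination this
    rcases mul_eq_zero.1 h5 with h6 | h6
    · exact hm1 h6
    · exact hp1 h6
  · intro hd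
    have := (ZMod.natCast_eq_zero_iff ((q ^ 2) ^ 2 - 1) r).2 hd
    rw [Nat.cast_sub hone', Nat.cast_pow, Nat.cast_pow, Nat.cast_one] at this
    have h5 : ((q : ZMod r) - 1) * (((q : ZMod r) + 1) * ((q : ZMod r) ^ 2 + 1)) = 0 := by linear_combination this
    rcases mul_eq_zero.1 h5 with h6 | h6
    · exact hm1 h6
    · rcases mul_eq_zero.1 h6 with h6 | h6
      · exact hp1 h6
      · exact hs1 h6

variable {F : Type u} [Field F] [Fintype F] {q : ℕ} (hF : Fintype.card F = q ^ 2)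
include hF

/-- the case `r ∣ q² - q + 1`, `r ≠ 3` -/
theorem su3_mult_cyc {r : ℕ} [hr : Fact r.Prime] (h : r ∣ q ^ 2 - q + 1) (h3 : r ≠ 3) : PStemDvd r (SU 3 F q) 1 := by
  have hq := HermMat.two_le_q hF
  obtain ⟨a1, a2, a3⟩ := arith_r hq h h3
  obtain ⟨P⟩ : Nonempty (Sylow r (SU 3 F q)) := inferInstance
  let g : SU 3 F q →* GL (Fin 3) F := Matrix.SpecialLinearGroup.toGL.comp (SU 3 F q).subtype
  have hg : Function.Injective g := by
    intro x y hxy
    apply Subtype.ext; apply Subtype.ext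
    exact congrArg Units.val hxy
  have hP : IsCyclic ((P : Subgroup (SU 3 F q)).map g) :=
    cyclic_gl3 (by rw [hF]; exact a1) (by rw [hF]; exact a2) (by rw [hF]; exact a3) _ (P.isPGroup'.map g)
  haveI : IsCyclic P := by
    let e := equivMapOfInjective (P : Subgroup (SU 3 F q)) g hg
    exact isCyclic_of_surjective e.symm e.symm.surjective
  exact PStemDvd.of_index (H := (P : Subgroup (SU 3 F q))) P.not_dvd_index (stemDvd_of_isCyclic.pStemDvd r)

end Cfsg.Agent.Lib.H3MU
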