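import Cfsg.Prelude.Def_Transfer
import Mathlib

set_option autoImplicit false

/-!
# Power formula in groups of class at most three (helper3)
-/

namespace Cfsg.Agent.Lib.H3PowThree

variable {R : Type*} [Group R]

theorem pow_mul_comm_aux {c x d : R} (h : c * x = x * c * d) (hd : ∀ z, d * z = z * d) (k : ℕ) :
    c ^ k * x = x * c ^ k * d ^ k := by
  have hd' : ∀ (m : ℕ) (z : R), d ^ m * z = z * d ^ m := fun m z =>
    ((show Commute d z from hd z).pow_left m).eq
  induction k with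
  | zero => simp
  | succ k ih =>
    calc c ^ (k + 1) * x = c ^ k * (c * x) := by rw [pow_succ]; group
      _ = c ^ k * (x * c * d) := by rw [h]
      _ = (c ^ k * x) * c * d := by group
      _ = (x * c ^ k * d ^ k) * c * d := by rw [ih]
      _ = x * c ^ k * (d ^ k * c) * d := by group
      _ = x * c ^ k * (c * d ^ k) * d := by rw [hd' k c]
      _ = x * c ^ (k + 1) * d ^ (k + 1) := by rw [pow_succ, pow_succ]; group

theorem mul_pow_comm_aux {c x d : R} (h : c * x = x * c * d) (hd : ∀ z, d * z = z * d) (k : ℕ) :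
    c * x ^ k = x ^ k * c * d ^ k := by
  have hd' : ∀ (m : ℕ) (z : R), d ^ m * z = z * d ^ m := fun m z =>
    ((show Commute d z from hd z).pow_left m).eq
  induction k with
  | zero => simp
  | succ k ih =>
    calc c * x ^ (k + 1) = (c * x ^ k) * x := by rw [pow_succ]; group
      _ = (x ^ k * c * d ^ k) * x := by rw [ih]
      _ = x ^ k * c * (d ^ k * x) := by group
      _ = x ^ k * c * (x * d ^ k) := by rw [hd' k x]
      _ = x ^ k * (c * x) * d ^ k := by group
      _ = x ^ k * (x * c * d) * d ^ k := by rw [h]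
      _ = x ^ (k + 1) * c * d ^ (k + 1) := by
        rw [pow_succ, pow_succ']; group

theorem mul_pow_two_aux {c y e : R} (h : c * y = y * c * e) (he : ∀ z, e * z = z * e) (n : ℕ) :
    (y * c) ^ n = y ^ n * c ^ n * e ^ (n.choose 2) := by
  have he' : ∀ (m : ℕ) (z : R), e ^ m * z = z * e ^ m := fun m z =>
    ((show Commute e z from he z).pow_left m).eq
  induction n with
  | zero => simp
  | succ n ih =>
    have h1 : (n + 1).choose 2 = n.choose 2 + n := by
      rw [Nat.choose_succ_succ' n 1, Nat.choose_one_right, add_comm]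
    calc (y * c) ^ (n + 1) = (y * c) ^ n * (y * c) := pow_succ _ _
      _ = y ^ n * c ^ n * e ^ (n.choose 2) * (y * c) := by rw [ih]
      _ = y ^ n * c ^ n * (e ^ (n.choose 2) * (y * c)) := by group
      _ = y ^ n * c ^ n * ((y * c) * e ^ (n.choose 2)) := by rw [he']
      _ = y ^ n * (c ^ n * y) * c * e ^ (n.choose 2) := by group
      _ = y ^ n * (y * c ^ n * e ^ n) * c * e ^ (n.choose 2) := by rw [pow_mul_comm_aux h he]
      _ = y ^ (n + 1) * c ^ n * (e ^ n * c) * e ^ (n.choose 2) := by rw [pow_succ]; group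
      _ = y ^ (n + 1) * c ^ n * (c * e ^ n) * e ^ (n.choose 2) := by rw [he']
      _ = y ^ (n + 1) * c ^ (n + 1) * e ^ ((n + 1).choose 2) := by
        rw [h1, add_comm (n.choose 2) n, pow_add e, pow_succ c]
        group

theorem pow_mul_eq_aux {x y c : R} (h1 : y * x = x * y * c) (n : ℕ) :
    y ^ n * x = x * (y * c) ^ n := by
  induction n with
  | zero => simp
  | succ n ih =>
    calc y ^ (n + 1) * x = y ^ n * (y * x) := by rw [pow_succ]; group
      _ = y ^ n * (x * y * c) := by rw [h1]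
      _ = (y ^ n * x) * (y * c) := by group
      _ = x * (y * c) ^ n * (y * c) := by rw [ih]
      _ = x * (y * c) ^ (n + 1) := by rw [pow_succ]; group

/-- The Hall–Petrescu formula in class three. -/
theorem mul_pow_three {x y c d e : R} (h1 : y * x = x * y * c) (h2 : c * x = x * c * d)
    (h3 : c * y = y * c * e) (hd : ∀ z, d * z = z * d) (he : ∀ z, e * z = z * e) (n : ℕ) :
    (x * y) ^ n = x ^ n * y ^ n * c ^ (n.choose 2) * d ^ (n.choose 3) *
      e ^ (n.choose 2 + 2 * n.choose 3) := by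
  have hd' : ∀ (m : ℕ) (z : R), d ^ m * z = z * d ^ m := fun m z =>
    ((show Commute d z from hd z).pow_left m).eq
  have he' : ∀ (m : ℕ) (z : R), e ^ m * z = z * e ^ m := fun m z =>
    ((show Commute e z from he z).pow_left m).eq
  induction n with
  | zero => simp
  | succ n ih =>
    have c2 : (n + 1).choose 2 = n + n.choose 2 := by
      rw [Nat.choose_succ_succ' n 1, Nat.choose_one_right]
    have c3 : (n + 1).choose 3 = n.choose 2 + n.choose 3 := Nat.choose_succ_succ' n 2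
    set a := n.choose 2 with ha
    set b := n.choose 3 with hb
    calc (x * y) ^ (n + 1) = (x * y) ^ n * (x * y) := pow_succ _ _
      _ = x ^ n * y ^ n * c ^ a * d ^ b * e ^ (a + 2 * b) * (x * y) := by rw [ih]
      _ = x ^ n * y ^ n * c ^ a * (d ^ b * (e ^ (a + 2 * b) * (x * y))) := by group
      _ = x ^ n * y ^ n * c ^ a * (x * y) * (d ^ b * e ^ (a + 2 * b)) := by
        rw [he', ← mul_assoc (d ^ b), hd']; group
      _ = x ^ n * y ^ n * (c ^ a * x) * y * (d ^ b * e ^ (a + 2 * b)) := by group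
      _ = x ^ n * y ^ n * (x * c ^ a * d ^ a) * y * (d ^ b * e ^ (a + 2 * b)) := by
        rw [pow_mul_comm_aux h2 hd]
      _ = x ^ n * (y ^ n * x) * c ^ a * (d ^ a * y) * (d ^ b * e ^ (a + 2 * b)) := by group
      _ = x ^ n * (x * (y ^ n * c ^ n * e ^ a)) * c ^ a * (y * d ^ a) *
            (d ^ b * e ^ (a + 2 * b)) := by
        rw [hd', pow_mul_eq_aux h1, mul_pow_two_aux h3 he]
      _ = x ^ (n + 1) * y ^ n * c ^ n * (e ^ a * (c ^ a * y)) * (d ^ a * (d ^ b * e ^ (a + 2 * b))) := by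
        rw [pow_succ]; group
      _ = x ^ (n + 1) * y ^ n * c ^ n * ((c ^ a * y) * e ^ a) * (d ^ a * (d ^ b * e ^ (a + 2 * b))) := by
        rw [he']
      _ = x ^ (n + 1) * y ^ n * (c ^ (n + a) * y) * (e ^ a * (d ^ a * (d ^ b * e ^ (a + 2 * b)))) := by
        rw [pow_add]; group
      _ = x ^ (n + 1) * y ^ n * (y * c ^ (n + a) * e ^ (n + a)) *
            (e ^ a * (d ^ a * (d ^ b * e ^ (a + 2 * b)))) := by
        rw [pow_mul_comm_aux h3 he]
      _ = x ^ (n + 1) * y ^ (n + 1) * c ^ (n + a) *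
            ((e ^ (n + a) * e ^ a) * (d ^ (a + b) * e ^ (a + 2 * b))) := by
        rw [pow_succ y, pow_add d]; group
      _ = x ^ (n + 1) * y ^ (n + 1) * c ^ (n + a) *
            (d ^ (a + b) * ((e ^ (n + a) * e ^ a) * e ^ (a + 2 * b))) := by
        congr 1
        rw [← pow_add, ← mul_assoc, he', mul_assoc]
      _ = x ^ (n + 1) * y ^ (n + 1) * c ^ ((n + 1).choose 2) * d ^ ((n + 1).choose 3) *
            e ^ ((n + 1).choose 2 + 2 * (n + 1).choose 3) := by
        rw [c2, c3]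
        have : e ^ (n + a + 2 * (a + b)) = (e ^ (n + a) * e ^ a) * e ^ (a + 2 * b) := by
          rw [← pow_add, ← pow_add]; congr 1; ring
        rw [this]; group

theorem exists_structure {x y : R} :
    ∃ c, y * x = x * y * c ∧ c = y⁻¹ * x⁻¹ * y * x := ⟨y⁻¹ * x⁻¹ * y * x, by group, rfl⟩

/-- Data for the power formula from the class hypothesis. -/
theorem exists_data (hcl : ⁅⁅commutator R, (⊤ : Subgroup R)⁆, (⊤ : Subgroup R)⁆ = ⊥) (x y : R) :
    ∃ c d e : R, y * x = x * y * c ∧ c * x = x * c * d ∧ c * y = y * c * e ∧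
      (∀ z, d * z = z * d) ∧ (∀ z, e * z = z * e) ∧
      c ∈ commutator R ∧ d ∈ ⁅commutator R, (⊤ : Subgroup R)⁆ ∧
      e ∈ ⁅commutator R, (⊤ : Subgroup R)⁆ := by
  have hc : y⁻¹ * x⁻¹ * y * x ∈ commutator R := by
    rw [commutator_def]
    have := Subgroup.commutator_mem_commutator (H₁ := (⊤ : Subgroup R)) (H₂ := ⊤)
      (Subgroup.mem_top y⁻¹) (Subgroup.mem_top x⁻¹)
    have h2 : y⁻¹ * x⁻¹ * y⁻¹⁻¹ * x⁻¹⁻¹ = y⁻¹ * x⁻¹ * y * x := by group
    rw [← h2]
    exact this
  set c := y⁻¹ * x⁻¹ * y * x with hcdef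
  have hcomm : ∀ z : R, c⁻¹ * z⁻¹ * c * z ∈ ⁅commutator R, (⊤ : Subgroup R)⁆ := by
    intro z
    have := Subgroup.commutator_mem_commutator (H₁ := commutator R) (H₂ := ⊤)
      ((commutator R).inv_mem hc) (Subgroup.mem_top z⁻¹)
    have h2 : c⁻¹ * z⁻¹ * c⁻¹⁻¹ * z⁻¹⁻¹ = c⁻¹ * z⁻¹ * c * z := by group
    rw [← h2]
    exact this
  have hcent : ∀ d ∈ ⁅commutator R, (⊤ : Subgroup R)⁆, ∀ z : R, d * z = z * d := by
    intro d hd z
    have h1 := Subgroup.commutator_mem_commutator (H₁ := ⁅commutator R, (⊤ : Subgroup R)⁆)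
      (H₂ := ⊤) hd (Subgroup.mem_top z)
    rw [hcl, Subgroup.mem_bot] at h1
    have h2 : d * z * d⁻¹ * z⁻¹ = 1 := h1
    rw [mul_inv_eq_one, mul_inv_eq_iff_eq_mul] at h2
    exact h2
  exact ⟨c, c⁻¹ * x⁻¹ * c * x, c⁻¹ * y⁻¹ * c * y, by rw [hcdef]; group, by group, by group,
    hcent _ (hcomm x), hcent _ (hcomm y), hc, hcomm x, hcomm y⟩

theorem pow_choose_eq_one {p : ℕ} (hp : p.Prime) {k : ℕ} (hk : 0 < k) (hkp : k < p) {c : R}
    (hc : c ^ p = 1) : c ^ (p.choose k) = 1 := by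
  obtain ⟨m, hm⟩ := hp.dvd_choose_self hk.ne' hkp
  rw [hm, pow_mul, hc, one_pow]

/-- In class `≤ 3` with `p > 3`, the elements with `x ^ p = 1` are closed under multiplication. -/
theorem mul_pow_eq_one {p : ℕ} (hp : p.Prime) (hp3 : 3 < p)
    (hcl : ⁅⁅commutator R, (⊤ : Subgroup R)⁆, (⊤ : Subgroup R)⁆ = ⊥) {x y : R} (hx : x ^ p = 1)
    (hy : y ^ p = 1) : (x * y) ^ p = 1 := by
  obtain ⟨c, d, e, h1, h2, h3, hd, he, _, _, _⟩ := exists_data hcl x y
  have hdp : d ^ p = 1 := by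
    have := mul_pow_comm_aux h2 hd p
    rw [hx, mul_one, one_mul] at this
    exact (left_eq_mul.mp this)
  have hep : e ^ p = 1 := by
    have := mul_pow_comm_aux h3 he p
    rw [hy, mul_one, one_mul] at this
    exact (left_eq_mul.mp this)
  have hcp : c ^ p = 1 := by
    have h4 := mul_pow_two_aux h3 he p
    rw [hy, one_mul, pow_choose_eq_one hp (by norm_num) (by omega) hep, mul_one] at h4
    have h5 := pow_mul_eq_aux h1 p
    rw [hy, one_mul, h4] at h5
    exact (left_eq_mul.mp h5)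
  rw [mul_pow_three h1 h2 h3 hd he, hx, hy, pow_choose_eq_one hp (by norm_num) (by omega) hcp,
    pow_choose_eq_one hp (by norm_num) hp3 hdp, pow_add, pow_mul', 
    pow_choose_eq_one hp (by norm_num) (by omega) hep,
    pow_choose_eq_one hp (by norm_num) hp3 hep]
  simp

/-- In class `≤ 2` with `p` odd, the elements with `x ^ p = 1` are closed under multiplication. -/
theorem mul_pow_eq_one_two {p : ℕ} (hp : p.Prime) (hp2 : p ≠ 2)
    (hcl : ⁅commutator R, (⊤ : Subgroup R)⁆ = ⊥) {x y : R} (hx : x ^ p = 1)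
    (hy : y ^ p = 1) : (x * y) ^ p = 1 := by
  have hcl3 : ⁅⁅commutator R, (⊤ : Subgroup R)⁆, (⊤ : Subgroup R)⁆ = ⊥ := by
    rw [hcl, Subgroup.commutator_bot_left]
  have hp2' : 2 < p := lt_of_le_of_ne hp.two_le (Ne.symm hp2)
  obtain ⟨c, d, e, h1, h2, h3, hd, he, _, hd1, he1⟩ := exists_data hcl3 x y
  rw [hcl, Subgroup.mem_bot] at hd1 he1
  have hcp : c ^ p = 1 := by
    have h4 := mul_pow_two_aux h3 he p
    rw [hy, one_mul, he1, one_pow, mul_one] at h4
    have h5 := pow_mul_eq_aux h1 p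
    rw [hy, one_mul, h4] at h5
    exact (left_eq_mul.mp h5)
  rw [mul_pow_three h1 h2 h3 hd he, hx, hy, pow_choose_eq_one hp (by norm_num) hp2' hcp,
    hd1, he1]
  simp

theorem closure_pow_eq_one {p : ℕ} (h : ∀ x y : R, x ^ p = 1 → y ^ p = 1 → (x * y) ^ p = 1)
    (g : R) (hg : g ∈ Subgroup.closure {x : R | x ^ p = 1}) : g ^ p = 1 := by
  induction hg using Subgroup.closure_induction with
  | mem x hx => exact hx
  | one => exact one_pow p
  | mul x y _ _ hx hy => exact h x y hx hy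
  | inv x _ hx => rw [inv_pow, hx, inv_one]

/-- The `p`-th power map is multiplicative when `R' ≤ Ω₁(R)` and the class is small. -/
theorem pow_hom {p : ℕ} (hp : p.Prime)
    (hcl : (p ≠ 2 ∧ ⁅commutator R, (⊤ : Subgroup R)⁆ = ⊥) ∨
      (3 < p ∧ ⁅⁅commutator R, (⊤ : Subgroup R)⁆, (⊤ : Subgroup R)⁆ = ⊥))
    (hder : commutator R ≤ Subgroup.closure {x : R | x ^ p = 1}) (x y : R) :
    (x * y) ^ p = x ^ p * y ^ p := by
  rcases hcl with ⟨hp2, hcl⟩ | ⟨hp3, hcl⟩
  · have hcl3 : ⁅⁅commutator R, (⊤ : Subgroup R)⁆, (⊤ : Subgroup R)⁆ = ⊥ := by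
      rw [hcl, Subgroup.commutator_bot_left]
    have hp2' : 2 < p := lt_of_le_of_ne hp.two_le (Ne.symm hp2)
    obtain ⟨c, d, e, h1, h2, h3, hd, he, hc, hd1, he1⟩ := exists_data hcl3 x y
    rw [hcl, Subgroup.mem_bot] at hd1 he1
    have hcp : c ^ p = 1 := closure_pow_eq_one (fun _ _ => mul_pow_eq_one_two hp hp2 hcl) c (hder hc)
    rw [mul_pow_three h1 h2 h3 hd he, pow_choose_eq_one hp (by norm_num) hp2' hcp,
      hd1, he1]
    simp
  · obtain ⟨c, d, e, h1, h2, h3, hd, he, hc, hd1, he1⟩ := exists_data hcl x y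
    have hle : ⁅commutator R, (⊤ : Subgroup R)⁆ ≤ commutator R := Subgroup.commutator_le_left _ _
    have hall : ∀ z ∈ commutator R, z ^ p = 1 := fun z hz =>
      closure_pow_eq_one (fun _ _ => mul_pow_eq_one hp hp3 hcl) z (hder hz)
    have hcp := hall c hc
    have hdp := hall d (hle hd1)
    have hep := hall e (hle he1)
    rw [mul_pow_three h1 h2 h3 hd he, pow_choose_eq_one hp (by norm_num) (by omega) hcp,
      pow_choose_eq_one hp (by norm_num) hp3 hdp, pow_add, pow_mul',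
      pow_choose_eq_one hp (by norm_num) (by omega) hep,
      pow_choose_eq_one hp (by norm_num) hp3 hep]
    simp

end Cfsg.Agent.Lib.H3PowThree
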