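import Mathlib
import Cfsg.Agent.Lib.CoprimeGen
import Cfsg.Agent.Lib.PGroupOdd

/-!
# Transitive linear groups of odd order: counting (helper3)
-/

set_option autoImplicit false

open Subgroup

namespace Cfsg.Agent.Lib.H3TransLin

variable {D E : Type*} [Group D] [AddCommGroup E] [DistribMulAction D E]

/-- The norm `∑_{j<p} g^j e`. -/
def nrm (p : ℕ) (g : D) (e : E) : E := ∑ j ∈ Finset.range p, g ^ j • e

theorem smul_nrm {p : ℕ} {g : D} (hg : g ^ p = 1) (e : E) : g • nrm p g e = nrm p g e := by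
  unfold nrm
  rw [Finset.smul_sum]
  have h1 : ∀ j, g • g ^ j • e = g ^ (j + 1) • e := fun j => by rw [pow_succ', mul_smul]
  simp only [h1]
  have h2 := Finset.sum_range_succ (fun j => g ^ j • e) p
  have h3 := Finset.sum_range_succ' (fun j => g ^ j • e) p
  rw [h3] at h2
  simp only [hg, pow_zero, one_smul] at h2
  exact add_right_cancel h2

theorem nrm_mem {p : ℕ} {g : D} {W : AddSubgroup E} (hW : ∀ e ∈ W, g • e ∈ W) {e : E} (he : e ∈ W) :
    nrm p g e ∈ W := by
  unfold nrm
  have h1 : ∀ j : ℕ, g ^ j • e ∈ W := by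
    intro j
    induction j with
    | zero => simpa using he
    | succ j ih => rw [pow_succ', mul_smul]; exact hW _ ih
  exact W.sum_mem fun j _ => h1 j

theorem nrm_add (p : ℕ) (g : D) (e f : E) : nrm p g (e + f) = nrm p g e + nrm p g f := by
  unfold nrm
  rw [← Finset.sum_add_distrib]
  exact Finset.sum_congr rfl fun j _ => smul_add _ _ _

theorem nrm_sum {ι : Type*} (p : ℕ) (g : D) (s : Finset ι) (f : ι → E) :
    nrm p g (∑ i ∈ s, f i) = ∑ i ∈ s, nrm p g (f i) := by
  unfold nrm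
  rw [Finset.sum_comm]
  exact Finset.sum_congr rfl fun j _ => Finset.smul_sum

/-- `z` acts without fixed points, so norms of its nontrivial powers vanish. -/
theorem nrm_eq_zero {p : ℕ} (hp : p.Prime) {z : D} (hz : z ^ p = 1) (hfix : ∀ e : E, z • e = e → e = 0)
    {k : ℕ} (hk : ¬ p ∣ k) (e : E) : nrm p (z ^ k) e = 0 := by
  apply hfix
  have h1 : (z ^ k) ^ p = 1 := by rw [← pow_mul, mul_comm, pow_mul, hz, one_pow]
  have h2 := smul_nrm h1 e
  -- `z` is a power of `z ^ k`
  obtain ⟨l, hl⟩ : ∃ l : ℕ, (z ^ k) ^ l = z := by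
    have hc : Nat.Coprime k p := ((Nat.Prime.coprime_iff_not_dvd hp).2 hk).symm
    obtain ⟨l, hl⟩ := Nat.exists_mul_mod_eq_one_of_coprime hc hp.one_lt
    refine ⟨l, ?_⟩
    rw [← pow_mul]
    have h3 : k * l = p * (k * l / p) + 1 := by rw [← hl.2]; exact (Nat.div_add_mod _ _).symm
    rw [h3, pow_add, pow_mul, hz, one_pow, one_mul, pow_one]
  have h4 : ∀ l : ℕ, (z ^ k) ^ l • nrm p (z ^ k) e = nrm p (z ^ k) e := by
    intro l
    induction l with
    | zero => simp
    | succ l ih => rw [pow_succ', mul_smul, ih, h2]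
  have h5 := h4 l
  rwa [hl] at h5

/-- `∑_i N(x z^i) = p`. -/
theorem sum_nrm {p : ℕ} (hp : p.Prime) {x z : D} (hxz : x * z = z * x) (hz : z ^ p = 1)
    (hfix : ∀ e : E, z • e = e → e = 0) (e : E) :
    ∑ i ∈ Finset.range p, nrm p (x * z ^ i) e = p • e := by
  have h1 : ∀ i j : ℕ, (x * z ^ i) ^ j = x ^ j * (z ^ j) ^ i := by
    intro i j
    have : Commute x (z ^ i) := (show Commute x z from hxz).pow_right i
    rw [this.mul_pow, ← pow_mul, ← pow_mul, mul_comm i j]
  unfold nrm
  simp only [h1]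
  rw [Finset.sum_comm]
  have h2 : ∀ j ∈ Finset.range p, ∑ i ∈ Finset.range p, (x ^ j * (z ^ j) ^ i) • e =
      if j = 0 then p • e else 0 := by
    intro j hj
    split_ifs with hj0
    · subst hj0; simp
    · have h3 : ∑ i ∈ Finset.range p, (x ^ j * (z ^ j) ^ i) • e = x ^ j • nrm p (z ^ j) e := by
        unfold nrm
        rw [Finset.smul_sum]
        exact Finset.sum_congr rfl fun i _ => mul_smul _ _ _
      rw [h3, nrm_eq_zero hp hz hfix, smul_zero]
      intro hd
      exact absurd (Nat.le_of_dvd (Nat.pos_of_ne_zero hj0) hd) (not_le.2 (Finset.mem_range.1 hj))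
  rw [Finset.sum_congr rfl h2, Finset.sum_ite_eq' (Finset.range p) 0 (fun _ => p • e)]
  simp [hp.pos]

/-- Norms on fixed points. -/
theorem nrm_of_fixed {p : ℕ} (g : D) {e : E} (he : g • e = e) : nrm p g e = p • e := by
  unfold nrm
  have h4 : ∀ l : ℕ, g ^ l • e = e := by
    intro l
    induction l with
    | zero => simp
    | succ l ih => rw [pow_succ', mul_smul, ih, he]
  simp [h4]

theorem nrm_of_fixed' {p : ℕ} (hp : p.Prime) {x z : D} (hxz : x * z = z * x) (hz : z ^ p = 1)
    (hfix : ∀ e : E, z • e = e → e = 0) {i j : ℕ} (hi : i < p) (hj : j < p) (hij : i ≠ j) {e : E}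
    (he : (x * z ^ j) • e = e) : nrm p (x * z ^ i) e = 0 := by
  have hk : ¬ p ∣ i + (p - j) := by
    rintro ⟨c, hc⟩
    have h1 : i + (p - j) < p * 2 := by omega
    have h2 : 0 < i + (p - j) := by omega
    have hc2 : c < 2 := by
      rw [hc] at h1
      exact lt_of_mul_lt_mul_left h1 (Nat.zero_le p)
    have hc0 : c ≠ 0 := by
      rintro rfl
      omega
    have : c = 1 := by omega
    subst this
    omega
  have h1 : x * z ^ i = z ^ (i + (p - j)) * (x * z ^ j) := by
    have h2 : z ^ (i + (p - j)) * z ^ j = z ^ i := by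
      rw [← pow_add, show i + (p - j) + j = i + p by omega, pow_add, hz, mul_one]
    have h3 : Commute x (z ^ (i + (p - j))) := (show Commute x z from hxz).pow_right _
    calc x * z ^ i = x * z ^ (i + (p - j)) * z ^ j := by rw [mul_assoc, h2]
      _ = z ^ (i + (p - j)) * (x * z ^ j) := by rw [h3.eq, mul_assoc]
  have h4 : Commute (z ^ (i + (p - j))) (x * z ^ j) :=
    Commute.mul_right ((show Commute x z from hxz).symm.pow_left _) ((Commute.refl z).pow_pow _ _)
  have h5 : nrm p (x * z ^ i) e = nrm p (z ^ (i + (p - j))) e := by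
    unfold nrm
    refine Finset.sum_congr rfl fun l _ => ?_
    rw [h1, h4.mul_pow, mul_smul]
    congr 1
    have h6 : ∀ l : ℕ, (x * z ^ j) ^ l • e = e := by
      intro l
      induction l with
      | zero => simp
      | succ l ih => rw [pow_succ', mul_smul, ih, he]
    exact h6 l
  rw [h5, nrm_eq_zero hp hz hfix hk]

/-- The fixed points of `g` in `W`. -/
def fx (W : AddSubgroup E) (g : D) : AddSubgroup E where
  carrier := {e | e ∈ W ∧ g • e = e}
  zero_mem' := ⟨W.zero_mem, smul_zero _⟩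
  add_mem' := fun {a b} ha hb => ⟨W.add_mem ha.1 hb.1, by rw [smul_add, ha.2, hb.2]⟩
  neg_mem' := fun {a} ha => ⟨W.neg_mem ha.1, by rw [smul_neg, ha.2]⟩

theorem mem_fx {W : AddSubgroup E} {g : D} {e : E} : e ∈ fx W g ↔ e ∈ W ∧ g • e = e := Iff.rfl

/-- `W` is the direct sum of the fixed points of the `x z^i`. -/
theorem card_eq_prod [Finite E] {p : ℕ} (hp : p.Prime) (hp2 : p ≠ 2) (hE : ∀ e : E, 2 • e = 0) {x z : D}
    (hxz : x * z = z * x) (hx : x ^ p = 1) (hz : z ^ p = 1) (hfix : ∀ e : E, z • e = e → e = 0)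
    {W : AddSubgroup E} (hxW : ∀ e ∈ W, x • e ∈ W) (hzW : ∀ e ∈ W, z • e ∈ W) :
    Nat.card W = ∏ i : Fin p, Nat.card (fx W (x * z ^ (i : ℕ))) := by
  have hpe : ∀ e : E, p • e = e := by
    intro e
    obtain ⟨k, hk⟩ := hp.odd_of_ne_two hp2
    rw [hk, add_smul, one_smul, mul_comm, mul_smul, hE, smul_zero, zero_add]
  have hW : ∀ i : ℕ, ∀ e ∈ W, (x * z ^ i) • e ∈ W := by
    intro i e he
    rw [mul_smul]
    apply hxW
    induction i with
    | zero => simpa using he
    | succ i ih => rw [pow_succ', mul_smul]; exact hzW _ ih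
  have hpow : ∀ i : ℕ, (x * z ^ i) ^ p = 1 := by
    intro i
    have : Commute x (z ^ i) := (show Commute x z from hxz).pow_right i
    rw [this.mul_pow, hx, ← pow_mul, mul_comm, pow_mul, hz, one_pow, one_mul]
  let f : W → ∀ i : Fin p, fx W (x * z ^ (i : ℕ)) := fun e i =>
    ⟨nrm p (x * z ^ (i : ℕ)) e, nrm_mem (hW i) e.2, smul_nrm (hpow i) _⟩
  have hf : Function.Bijective f := by
    constructor
    · intro e e' h
      apply Subtype.ext
      rw [← hpe e, ← hpe e', ← sum_nrm hp hxz hz hfix, ← sum_nrm hp hxz hz hfix (e' : E),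
        Finset.sum_range, Finset.sum_range]
      refine Finset.sum_congr rfl fun i _ => ?_
      exact congrArg (fun g => ((g i : fx W (x * z ^ (i : ℕ))) : E)) h
    · intro g
      refine ⟨⟨∑ i : Fin p, (g i : E), W.sum_mem fun i _ => (g i).2.1⟩, ?_⟩
      funext i
      apply Subtype.ext
      change nrm p (x * z ^ (i : ℕ)) (∑ i : Fin p, (g i : E)) = (g i : E)
      rw [nrm_sum, Finset.sum_eq_single i]
      · rw [nrm_of_fixed _ (g i).2.2, hpe]
      · intro j _ hji
        exact nrm_of_fixed' hp hxz hz hfix i.2 j.2 (fun h => hji (Fin.ext h.symm)) (g j).2.2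
      · intro h; exact absurd (Finset.mem_univ i) h
  rw [Nat.card_congr (Equiv.ofBijective f hf), Nat.card_pi]

/-- Conjugate elements have the same number of fixed points. -/
theorem card_fx_conj {W : AddSubgroup E} {g q : D} (hq : ∀ e ∈ W, q • e ∈ W)
    (hq' : ∀ e ∈ W, q⁻¹ • e ∈ W) : Nat.card (fx W (q * g * q⁻¹)) = Nat.card (fx W g) := by
  symm
  refine Nat.card_congr
    { toFun := fun e => ⟨q • (e : E), hq _ e.2.1, ?_⟩
      invFun := fun e => ⟨q⁻¹ • (e : E), hq' _ e.2.1, ?_⟩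
      left_inv := fun e => Subtype.ext (inv_smul_smul q (e : E))
      right_inv := fun e => Subtype.ext (smul_inv_smul q (e : E)) }
  · rw [← mul_smul, inv_mul_cancel_right, mul_smul, e.2.2]
  · have h1 := e.2.2
    rw [mul_smul, mul_smul] at h1
    rw [eq_inv_smul_iff]
    exact h1

/-- `|K| = p |C_K(y)|` if `[K, y]` is the central subgroup `⟨z⟩` of order `p`. -/
theorem card_inf_centralizer [Finite D] {p : ℕ} (hp : p.Prime) {z : D} (hz : z ^ p = 1) (hz1 : z ≠ 1)
    {C : Subgroup D} (hzc : ∀ c ∈ C, c * z = z * c)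
    (hcomm : ∀ a ∈ C, ∀ b ∈ C, ∃ k : ℕ, a * b = z ^ k * (b * a)) {K : Subgroup D} (hK : K ≤ C) {y : D}
    (hy : y ∈ C) (hne : ∃ x ∈ K, x * y ≠ y * x) :
    Nat.card K = p * Nat.card ↥(K ⊓ centralizer {y}) := by
  classical
  have hzz : ∀ c ∈ C, ∀ w ∈ zpowers z, c * w = w * c := by
    rintro c hc _ ⟨k, rfl⟩
    exact ((show Commute c z from hzc c hc).zpow_right k)
  have := Fact.mk hp
  have hmem : ∀ c ∈ C, c * y * c⁻¹ * y⁻¹ ∈ zpowers z := by
    intro c hc
    obtain ⟨k, hk⟩ := hcomm c hc y hy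
    rw [hk]
    have : z ^ k * (y * c) * c⁻¹ * y⁻¹ = z ^ k := by group
    rw [this]; exact pow_mem (mem_zpowers z) k
  let φ : K →* zpowers z :=
    { toFun := fun c => ⟨(c : D) * y * (c : D)⁻¹ * y⁻¹, hmem c (hK c.2)⟩
      map_one' := by apply Subtype.ext; simp
      map_mul' := fun c d => by
        apply Subtype.ext
        have h1 : (d : D) * y * (d : D)⁻¹ * y⁻¹ ∈ zpowers z := hmem d (hK d.2)
        have h2 := hzz c (hK c.2) _ h1
        have h4 := hzz y hy _ h1
        change (c * d : D) * y * (c * d : D)⁻¹ * y⁻¹ = (c * y * (c : D)⁻¹ * y⁻¹) * (d * y * (d : D)⁻¹ * y⁻¹)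
        set w := (d : D) * y * (d : D)⁻¹ * y⁻¹ with hw
        have h3 : (d : D) * y * (d : D)⁻¹ = w * y := by rw [hw]; group
        have h5 : (c : D)⁻¹ * w = w * (c : D)⁻¹ := hzz _ (C.inv_mem (hK c.2)) w h1
        have h6 : y⁻¹ * w = w * y⁻¹ := hzz _ (C.inv_mem hy) w h1
        calc (c * d : D) * y * (c * d : D)⁻¹ * y⁻¹ = c * (d * y * (d : D)⁻¹) * (c : D)⁻¹ * y⁻¹ := by group
          _ = (c * w) * y * (c : D)⁻¹ * y⁻¹ := by rw [h3]; group
          _ = w * (c * y * (c : D)⁻¹ * y⁻¹) := by rw [h2]; group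
          _ = (c * y * (c : D)⁻¹) * (y⁻¹ * w) := by
            rw [h6]
            have h7 : w * (c * y * (c : D)⁻¹) = (c * y * (c : D)⁻¹) * w := by
              have := hzz _ (C.mul_mem (C.mul_mem (hK c.2) hy) (C.inv_mem (hK c.2))) w h1
              exact this.symm
            calc w * (c * y * (c : D)⁻¹ * y⁻¹) = w * (c * y * (c : D)⁻¹) * y⁻¹ := by group
              _ = (c * y * (c : D)⁻¹) * (w * y⁻¹) := by rw [h7]; group
          _ = (c * y * (c : D)⁻¹ * y⁻¹) * w := by group }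
  have h1 := Subgroup.card_eq_card_quotient_mul_card_subgroup φ.ker
  rw [Nat.card_congr (QuotientGroup.quotientKerEquivRange φ).toEquiv] at h1
  have h2 : φ.ker = (K ⊓ centralizer {y}).subgroupOf K := by
    ext c
    rw [MonoidHom.mem_ker, mem_subgroupOf, mem_inf, mem_centralizer_singleton_iff]
    constructor
    · intro h
      refine ⟨c.2, ?_⟩
      have h3 : (c : D) * y * (c : D)⁻¹ * y⁻¹ = 1 := congrArg Subtype.val h
      rw [mul_inv_eq_one, mul_inv_eq_iff_eq_mul] at h3
      exact h3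
    · rintro ⟨-, h⟩
      apply Subtype.ext
      change (c : D) * y * (c : D)⁻¹ * y⁻¹ = 1
      rw [h]; group
  have hcz : Nat.card (zpowers z) = p := by rw [Nat.card_zpowers, orderOf_eq_prime hz hz1]
  have h3 : Nat.card φ.range = p := by
    have h4 : Nat.card φ.range ∣ p := by rw [← hcz]; exact Subgroup.card_subgroup_dvd_card _
    rcases (Nat.dvd_prime hp).1 h4 with h5 | h5
    · exfalso
      rw [Subgroup.card_eq_one] at h5
      obtain ⟨x, hx, hxy⟩ := hne
      have h6 : φ ⟨x, hx⟩ ∈ φ.range := ⟨_, rfl⟩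
      rw [h5, mem_bot] at h6
      have h7 : x * y * x⁻¹ * y⁻¹ = 1 := congrArg Subtype.val h6
      rw [mul_inv_eq_one, mul_inv_eq_iff_eq_mul] at h7
      exact hxy h7
    · exact h5
  rw [h3, h2, Nat.card_congr (subgroupOfEquivOfLe inf_le_left).toEquiv] at h1
  exact h1

/-- Four distinct vectors. -/
theorem four_le [Finite E] (hE : ∀ e : E, 2 • e = 0) {z : D} (hfix : ∀ e : E, z • e = e → e = 0)
    {W : AddSubgroup E} (hW : ∀ e ∈ W, z • e ∈ W) (hWb : W ≠ ⊥) : 4 ≤ Nat.card W := by
  classical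
  obtain ⟨e, heW, he0⟩ : ∃ x : E, x ∈ W ∧ x ≠ 0 := by
    by_contra hno
    push Not at hno
    exact hWb ((AddSubgroup.eq_bot_iff_forall W).2 hno)
  have hze : z • e ≠ e := fun h => he0 (hfix e h)
  have hze0 : z • e ≠ 0 := fun h => he0 ((smul_eq_zero_iff_eq z).1 h)
  have hsum : e + z • e ≠ 0 := by
    intro h
    apply hze
    have h1 : e + e = 0 := by rw [← two_smul ℕ, hE]
    have h2 : z • e = -e := (neg_eq_of_add_eq_zero_right h).symm
    have h3 : e = -e := eq_neg_of_add_eq_zero_left h1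
    rw [h2]; exact h3.symm
  have h4 : ({0, e, z • e, e + z • e} : Finset E).card = 4 := by
    rw [Finset.card_insert_of_notMem, Finset.card_insert_of_notMem, Finset.card_pair]
    · intro h; exact he0 (by simpa using h)
    · simp only [Finset.mem_insert, Finset.mem_singleton, not_or]
      exact ⟨fun h => hze h.symm, fun h => hze0 (by simpa using h)⟩
    · simp only [Finset.mem_insert, Finset.mem_singleton, not_or]
      exact ⟨fun h => he0 h.symm, fun h => hze0 h.symm, fun h => hsum h.symm⟩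
  have h5 : (({0, e, z • e, e + z • e} : Finset E) : Set E) ⊆ (W : Set E) := by
    intro x hx
    simp only [Finset.coe_insert, Finset.coe_singleton, Set.mem_insert_iff, Set.mem_singleton_iff] at hx
    rcases hx with rfl | rfl | rfl | rfl
    · exact W.zero_mem
    · exact heW
    · exact hW e heW
    · exact W.add_mem heW (hW e heW)
  have h6 := Set.ncard_le_ncard h5 (Set.toFinite _)
  rw [Set.ncard_coe_finset, h4] at h6
  exact h6

/-- The order of `W` is a `p`-th power. -/
theorem card_eq_pow [Finite E] {p : ℕ} (hp : p.Prime) (hp2 : p ≠ 2) (hE : ∀ e : E, 2 • e = 0)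
    {z : D} (hz : z ^ p = 1) (hfix : ∀ e : E, z • e = e → e = 0)
    {C : Subgroup D} (hzC : z ∈ C) (hzc : ∀ c ∈ C, c * z = z * c)
    (hcomm : ∀ a ∈ C, ∀ b ∈ C, ∃ k : ℕ, a * b = z ^ k * (b * a)) (hexp : ∀ c ∈ C, c ^ p = 1)
    {W : AddSubgroup E} (hCW : ∀ c ∈ C, ∀ e ∈ W, c • e ∈ W) {x y : D} (hx : x ∈ C) (hy : y ∈ C)
    (hxy : x * y ≠ y * x) : Nat.card W = Nat.card (fx W x) ^ p := by
  have hxz : x * z = z * x := hzc x hx
  obtain ⟨k, hk⟩ := hcomm x hx y hy
  have hkp : ¬ p ∣ k := by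
    rintro ⟨t, rfl⟩
    rw [pow_mul, hz, one_pow, one_mul] at hk
    exact hxy hk
  have hconj : ∀ i : ℕ, ∃ q ∈ C, q * x * q⁻¹ = x * z ^ i := by
    intro i
    have hc : Nat.Coprime k p := ((Nat.Prime.coprime_iff_not_dvd hp).2 hkp).symm
    obtain ⟨t, ht⟩ := Nat.exists_mul_mod_eq_one_of_coprime hc hp.one_lt
    have hzt : z ^ (k * t) = z := by
      have h3 : k * t = p * (k * t / p) + 1 := by rw [← ht.2]; exact (Nat.div_add_mod _ _).symm
      rw [h3, pow_add, pow_mul, hz, one_pow, one_mul, pow_one]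
    -- `y⁻¹ x y = x z^k`
    have h1 : y⁻¹ * x * y = x * z ^ k := by
      have h2 : y * z ^ k = z ^ k * y := ((show Commute y z from hzc y hy).pow_right _)
      have h3 : x * z ^ k = z ^ k * x := ((show Commute x z from hzc x hx).pow_right _)
      calc y⁻¹ * x * y = y⁻¹ * (x * y) := by group
        _ = y⁻¹ * (z ^ k * y) * x := by rw [hk]; group
        _ = z ^ k * x := by rw [← h2]; group
        _ = x * z ^ k := h3.symm
    have h4 : ∀ j : ℕ, (y ^ j)⁻¹ * x * y ^ j = x * z ^ (k * j) := by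
      intro j
      induction j with
      | zero => simp
      | succ j ih =>
        have h2 : y * z ^ (k * j) = z ^ (k * j) * y := ((show Commute y z from hzc y hy).pow_right _)
        calc (y ^ (j + 1))⁻¹ * x * y ^ (j + 1) = y⁻¹ * ((y ^ j)⁻¹ * x * y ^ j) * y := by
              rw [pow_succ]; group
          _ = y⁻¹ * x * (z ^ (k * j) * y) := by rw [ih]; group
          _ = y⁻¹ * x * y * z ^ (k * j) := by rw [← h2]; group
          _ = x * (z ^ k * z ^ (k * j)) := by rw [h1]; group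
          _ = x * z ^ (k * (j + 1)) := by rw [← pow_add]; ring_nf
    refine ⟨(y ^ (t * i))⁻¹, C.inv_mem (pow_mem hy _), ?_⟩
    rw [inv_inv, h4, ← mul_assoc, pow_mul, hzt]
  rw [card_eq_prod hp hp2 hE hxz (hexp x hx) hz hfix (hCW x hx) (hCW z hzC)]
  have h1 : ∀ i : Fin p, Nat.card (fx W (x * z ^ (i : ℕ))) = Nat.card (fx W x) := by
    intro i
    obtain ⟨q, hq, h2⟩ := hconj i
    rw [← h2]
    exact card_fx_conj (hCW q hq) (hCW _ (C.inv_mem hq))
  rw [Finset.prod_congr rfl fun i _ => h1 i]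
  simp

/-- Faithful modules of groups of extraspecial type are large. -/
theorem extra_bound [Finite D] [Finite E] {p : ℕ} (hp : p.Prime) (hp2 : p ≠ 2) (hE : ∀ e : E, 2 • e = 0)
    {z : D} (hz : z ^ p = 1) (hz1 : z ≠ 1) (hfix : ∀ e : E, z • e = e → e = 0) :
    ∀ (n : ℕ) (C : Subgroup D), Nat.card C = n → z ∈ C → (∀ c ∈ C, c * z = z * c) →
      (∀ a ∈ C, ∀ b ∈ C, ∃ k : ℕ, a * b = z ^ k * (b * a)) → (∀ c ∈ C, c ^ p = 1) →
      ∀ W : AddSubgroup E, (∀ c ∈ C, ∀ e ∈ W, c • e ∈ W) → W ≠ ⊥ →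
      ∃ m : ℕ, Nat.card C = Nat.card ↥(C ⊓ centralizer (C : Set D)) * p ^ (2 * m) ∧
        4 ^ (p ^ m) ≤ Nat.card W := by
  classical
  have := Fact.mk hp
  intro n
  induction n using Nat.strong_induction_on with
  | _ n ih =>
  intro C hCn hzC hzc hcomm hexp W hCW hW
  by_cases hab : C ≤ centralizer (C : Set D)
  · refine ⟨0, ?_, ?_⟩
    · rw [inf_eq_left.2 hab]; simp
    · rw [pow_zero, pow_one]
      exact four_le hE hfix (hCW z hzC) hW
  · -- a noncentral element
    obtain ⟨x, hx, y, hy, hxy⟩ : ∃ x ∈ C, ∃ y ∈ C, x * y ≠ y * x := by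
      by_contra hno
      push Not at hno
      apply hab
      intro x hx
      rw [mem_centralizer_iff]
      exact fun y hy => hno y hy x hx
    have hcz : Nat.card (zpowers z) = p := by rw [Nat.card_zpowers, orderOf_eq_prime hz hz1]
    set C1 := C ⊓ centralizer {x} with hC1
    have hC1C : C1 ≤ C := inf_le_left
    have hcardC : Nat.card C = p * Nat.card C1 :=
      card_inf_centralizer hp hz hz1 hzc hcomm le_rfl hx ⟨y, hy, Ne.symm hxy⟩
    have hxC1 : x ∈ C1 := ⟨hx, mem_centralizer_singleton_iff.2 rfl⟩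
    -- centre of `C1`
    set Z1 := C1 ⊓ centralizer (C1 : Set D) with hZ1
    have hxZ1 : x ∈ Z1 := ⟨hxC1, mem_centralizer_iff.2 fun c hc => mem_centralizer_singleton_iff.1 hc.2⟩
    have hcardZ : Nat.card Z1 = p * Nat.card ↥(Z1 ⊓ centralizer {y}) :=
      card_inf_centralizer hp hz hz1 hzc hcomm (inf_le_left.trans hC1C) hy ⟨x, hxZ1, hxy⟩
    have hZeq : Z1 ⊓ centralizer {y} = C ⊓ centralizer (C : Set D) := by
      apply le_antisymm
      · rintro w ⟨⟨hw1, hw2⟩, hwy⟩
        refine ⟨hC1C hw1, mem_centralizer_iff.2 ?_⟩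
        intro c hc
        -- `c` is in `C1 ⟨y⟩`
        obtain ⟨k, hk⟩ := hcomm c hc x hx
        obtain ⟨l, hl⟩ := hcomm y hy x hx
        -- `[y, x] = z ^ l` generates
        have hlp : ¬ p ∣ l := by
          rintro ⟨t, rfl⟩
          rw [pow_mul, hz, one_pow, one_mul] at hl
          exact hxy hl.symm
        have hc : Nat.Coprime l p := ((Nat.Prime.coprime_iff_not_dvd hp).2 hlp).symm
        obtain ⟨t, ht⟩ := Nat.exists_mul_mod_eq_one_of_coprime hc hp.one_lt
        have hzt : z ^ (l * t) = z := by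
          have h3 : l * t = p * (l * t / p) + 1 := by rw [← ht.2]; exact (Nat.div_add_mod _ _).symm
          rw [h3, pow_add, pow_mul, hz, one_pow, one_mul, pow_one]
        have hyj : ∀ j : ℕ, y ^ j * x = z ^ (l * j) * (x * y ^ j) := by
          intro j
          induction j with
          | zero => simp
          | succ j ih =>
            have h1 : y * z ^ (l * j) = z ^ (l * j) * y := ((show Commute y z from hzc y hy).pow_right _)
            calc y ^ (j + 1) * x = y * (y ^ j * x) := by rw [pow_succ', mul_assoc]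
              _ = y * z ^ (l * j) * (x * y ^ j) := by rw [ih]; group
              _ = z ^ (l * j) * (y * x) * y ^ j := by rw [h1]; group
              _ = z ^ (l * j) * (z ^ l * (x * y)) * y ^ j := by rw [hl]
              _ = z ^ (l * j) * z ^ l * (x * (y * y ^ j)) := by group
              _ = z ^ (l * (j + 1)) * (x * y ^ (j + 1)) := by
                rw [← pow_add, ← pow_succ']; ring_nf
        -- `c y^{-tk} ∈ C1`
        have h2 : (y ^ (t * k))⁻¹ * c ∈ C1 := by
          refine ⟨C.mul_mem (C.inv_mem (pow_mem hy _)) (by assumption), ?_⟩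
          refine mem_centralizer_singleton_iff.2 ?_
          have h3 := hyj (t * k)
          have h4 : z ^ (l * (t * k)) = z ^ k := by
            rw [← mul_assoc, pow_mul, hzt]
          rw [h4] at h3
          have h5 : z ^ k * x = x * z ^ k := ((show Commute x z from hzc x hx).pow_right _).eq.symm
          have h6 : z ^ k * (y ^ (t * k))⁻¹ = (y ^ (t * k))⁻¹ * z ^ k :=
            ((show Commute y z from hzc y hy).pow_pow _ _).inv_left.eq.symm
          have h7 : x = (y ^ (t * k))⁻¹ * z ^ k * x * y ^ (t * k) := by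
            have : x = (y ^ (t * k))⁻¹ * (y ^ (t * k) * x) := by group
            conv_lhs => rw [this, h3]
            group
          have h8 : (y ^ (t * k))⁻¹ * z ^ k * x = x * (y ^ (t * k))⁻¹ := by
            conv_rhs => rw [h7]
            group
          calc (y ^ (t * k))⁻¹ * c * x = (y ^ (t * k))⁻¹ * (c * x) := by group
            _ = (y ^ (t * k))⁻¹ * z ^ k * x * c := by rw [hk]; group
            _ = x * ((y ^ (t * k))⁻¹ * c) := by rw [h8]; group
        have h3 : (y ^ (t * k))⁻¹ * c * w = w * ((y ^ (t * k))⁻¹ * c) := mem_centralizer_iff.1 hw2 _ h2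
        have h4 : Commute w y := mem_centralizer_singleton_iff.1 hwy
        have h5 : w * y ^ (t * k) = y ^ (t * k) * w := h4.pow_right _
        calc c * w = y ^ (t * k) * ((y ^ (t * k))⁻¹ * c * w) := by group
          _ = (y ^ (t * k) * w) * ((y ^ (t * k))⁻¹ * c) := by rw [h3]; group
          _ = w * c := by rw [← h5]; group
      · rintro w ⟨hw1, hw2⟩
        refine ⟨⟨⟨hw1, mem_centralizer_singleton_iff.2 (mem_centralizer_iff.1 hw2 x hx).symm⟩, ?_⟩,
          mem_centralizer_singleton_iff.2 (mem_centralizer_iff.1 hw2 y hy).symm⟩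
        exact mem_centralizer_iff.2 fun c hc => mem_centralizer_iff.1 hw2 c (hC1C hc)
    rw [hZeq] at hcardZ
    -- fixed points of `x`
    have hxz : x * z = z * x := hzc x hx
    have hcardW : Nat.card W = Nat.card (fx W x) ^ p :=
      card_eq_pow hp hp2 hE hz hfix hzC hzc hcomm hexp hCW hx hy hxy
    have hfxne : fx W x ≠ ⊥ := by
      intro h
      rw [h] at hcardW
      simp only [AddSubgroup.card_bot, one_pow] at hcardW
      exact hW ((AddSubgroup.card_eq_one).1 hcardW)
    have hlt : Nat.card C1 < n := by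
      have h1 : 0 < Nat.card C1 := Nat.card_pos
      rw [← hCn, hcardC]
      have := hp.two_le
      nlinarith
    obtain ⟨m, hm1, hm2⟩ := ih _ hlt C1 rfl ⟨hzC, mem_centralizer_singleton_iff.2 hxz.symm⟩
      (fun c hc => hzc c (hC1C hc)) (fun a ha b hb => hcomm a (hC1C ha) b (hC1C hb))
      (fun c hc => hexp c (hC1C hc)) (fx W x) (by
        rintro c hc e ⟨he1, he2⟩
        refine ⟨hCW c (hC1C hc) e he1, ?_⟩
        have h1 : c * x = x * c := mem_centralizer_singleton_iff.1 hc.2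
        rw [← mul_smul, ← h1, mul_smul, he2]) hfxne
    refine ⟨m + 1, ?_, ?_⟩
    · rw [hcardC, hm1, ← hZ1, hcardZ]
      ring
    · rw [hcardW, pow_succ p m, pow_mul]
      exact Nat.pow_le_pow_left hm2 p

theorem arith_base : ∀ p : ℕ, 3 ≤ p → p ^ 3 < (p - 1) * 4 ^ (p - 1) := by
  intro p hp
  induction p, hp using Nat.le_induction with
  | base => norm_num
  | succ p hp ih =>
    obtain ⟨q, rfl⟩ : ∃ q, p = q + 1 := ⟨p - 1, by omega⟩
    simp only [Nat.add_sub_cancel] at ih ⊢
    have h1 : (q + 1 + 1) ^ 3 ≤ 4 * (q + 1) ^ 3 := by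
      have : 2 ≤ q := by omega
      nlinarith [sq_nonneg q, Nat.pow_le_pow_left this 3]
    calc (q + 1 + 1) ^ 3 ≤ 4 * (q + 1) ^ 3 := h1
      _ < 4 * (q * 4 ^ q) := by omega
      _ ≤ (q + 1) * 4 ^ (q + 1) := by
        rw [pow_succ]; nlinarith [pow_pos (show 0 < 4 by norm_num) q]

theorem arith_gen (p : ℕ) (hp : 3 ≤ p) (k : ℕ) : p ^ (2 * k + 3) < (p - 1) * 4 ^ (p ^ k * (p - 1)) := by
  induction k with
  | zero => simpa using arith_base p hp
  | succ k ih =>
    have h1 : p ^ k * (p - 1) + 2 * (p - 1) ≤ p ^ (k + 1) * (p - 1) := by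
      rw [← add_mul]
      apply Nat.mul_le_mul_right
      have : 1 ≤ p ^ k := Nat.one_le_pow _ _ (by omega)
      rw [pow_succ]
      nlinarith
    have h2 : p ^ 2 ≤ 4 ^ (2 * (p - 1)) := by
      rw [mul_comm, pow_mul]
      apply Nat.pow_le_pow_left
      have h3 : p - 1 < 4 ^ (p - 1) := Nat.lt_pow_self (by norm_num)
      omega
    calc p ^ (2 * (k + 1) + 3) = p ^ (2 * k + 3) * p ^ 2 := by ring
      _ < (p - 1) * 4 ^ (p ^ k * (p - 1)) * p ^ 2 :=
        Nat.mul_lt_mul_of_pos_right ih (pow_pos (by omega) _)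
      _ ≤ (p - 1) * 4 ^ (p ^ k * (p - 1)) * 4 ^ (2 * (p - 1)) := Nat.mul_le_mul_left _ h2
      _ = (p - 1) * 4 ^ (p ^ k * (p - 1) + 2 * (p - 1)) := by rw [pow_add, mul_assoc]
      _ ≤ (p - 1) * 4 ^ (p ^ (k + 1) * (p - 1)) :=
        Nat.mul_le_mul_left _ (Nat.pow_le_pow_right (by norm_num) h1)

theorem arith_main {p m c : ℕ} (hp : 3 ≤ p) (hm : m ≠ 0) (hc : 4 ^ (p ^ (m - 1)) ≤ c) :
    ((p : ℤ) * p ^ (2 * m) - p) * (c - 1) < ((c : ℤ) ^ p - 1) * (p - 1) := by
  obtain ⟨k, rfl⟩ := Nat.exists_eq_succ_of_ne_zero hm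
  simp only [Nat.succ_eq_add_one, Nat.add_sub_cancel] at hc ⊢
  have h1 := arith_gen p hp k
  have h2 : (p - 1) * 4 ^ (p ^ k * (p - 1)) ≤ (p - 1) * c ^ (p - 1) := by
    apply Nat.mul_le_mul_left
    rw [pow_mul]
    exact Nat.pow_le_pow_left hc _
  have h3 := lt_of_lt_of_le h1 h2
  obtain ⟨q, rfl⟩ : ∃ q, p = q + 1 := ⟨p - 1, by omega⟩
  simp only [Nat.add_sub_cancel] at h3
  have h4 : ((q + 1 : ℕ) : ℤ) ^ (2 * k + 3) < (q : ℤ) * (c : ℤ) ^ q := by exact_mod_cast h3
  have hc4 : 4 ≤ c := by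
    refine le_trans ?_ hc
    calc 4 = 4 ^ 1 := by norm_num
      _ ≤ 4 ^ ((q + 1) ^ k) := Nat.pow_le_pow_right (by norm_num) (Nat.one_le_pow _ _ (by omega))
  have hc' : (4 : ℤ) ≤ c := by exact_mod_cast hc4
  have h5 : (1 : ℤ) ≤ (c : ℤ) ^ q := one_le_pow₀ (by linarith)
  have h6 : (c : ℤ) ^ q * (c - 1) ≤ (c : ℤ) ^ (q + 1) - 1 := by
    rw [pow_succ]; nlinarith
  have h7 : ((q + 1 : ℕ) : ℤ) * ((q + 1 : ℕ) : ℤ) ^ (2 * (k + 1)) = ((q + 1 : ℕ) : ℤ) ^ (2 * k + 3) := by ring
  rw [h7]
  have h8 : (((q + 1 : ℕ) : ℤ) - 1) = q := by push_cast; ring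
  rw [h8]
  have h9 : (0 : ℤ) < ((q + 1 : ℕ) : ℤ) := by positivity
  have hq : (0 : ℤ) ≤ q := by positivity
  calc (((q + 1 : ℕ) : ℤ) ^ (2 * k + 3) - ((q + 1 : ℕ) : ℤ)) * (c - 1)
      < ((q : ℤ) * (c : ℤ) ^ q) * (c - 1) := by
        apply mul_lt_mul_of_pos_right _ (by linarith)
        linarith
    _ = ((c : ℤ) ^ q * (c - 1)) * q := by ring
    _ ≤ ((c : ℤ) ^ (q + 1) - 1) * q := mul_le_mul_of_nonneg_right h6 hq

/-- No normal subgroup of extraspecial type in a transitive linear group in characteristic two. -/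
theorem no_extra [Finite D] [Finite E] [Nontrivial E]
    (htrans : ∀ a b : E, a ≠ 0 → b ≠ 0 → ∃ d : D, d • a = b)
    {p : ℕ} (hp : p.Prime) (hp2 : p ≠ 2) (hE : ∀ e : E, 2 • e = 0)
    {z : D} (hz : z ^ p = 1) (hz1 : z ≠ 1) (hfix : ∀ e : E, z • e = e → e = 0)
    {Q : Subgroup D} (hQn : Q.Normal)
    (hcomm : ∀ a ∈ Q, ∀ b ∈ Q, ∃ k : ℕ, a * b = z ^ k * (b * a)) (hexp : ∀ c ∈ Q, c ^ p = 1)
    (hZ : Q ⊓ centralizer (Q : Set D) = zpowers z) (hab : ∃ x ∈ Q, ∃ y ∈ Q, x * y ≠ y * x) : False := by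
  classical
  have := Fact.mk hp
  have hzQ : z ∈ Q ⊓ centralizer (Q : Set D) := by rw [hZ]; exact mem_zpowers z
  have hzc : ∀ c ∈ Q, c * z = z * c := fun c hc => mem_centralizer_iff.1 hzQ.2 c hc
  have hcz : Nat.card (zpowers z) = p := by rw [Nat.card_zpowers, orderOf_eq_prime hz hz1]
  obtain ⟨m, hm1, hm2⟩ := extra_bound hp hp2 hE hz hz1 hfix _ Q rfl hzQ.1 hzc hcomm hexp ⊤
    (fun _ _ _ _ => AddSubgroup.mem_top _) (by
      obtain ⟨e, he⟩ := exists_ne (0 : E)
      intro h
      exact he ((AddSubgroup.mem_bot).1 (h ▸ AddSubgroup.mem_top e)))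
  rw [hZ, hcz] at hm1
  rw [AddSubgroup.card_top] at hm2
  have hm0 : m ≠ 0 := by
    rintro rfl
    obtain ⟨x, hx, y, hy, hxy⟩ := hab
    have h1 : Q ⊓ centralizer (Q : Set D) = Q := by
      apply Subgroup.eq_of_le_of_card_ge inf_le_left
      rw [hZ, hcz, hm1]; simp
    have h2 : x ∈ Q ⊓ centralizer (Q : Set D) := by rw [h1]; exact hx
    exact hxy (mem_centralizer_iff.1 h2.2 y hy).symm
  -- fixed points
  have hfp : ∀ x ∈ Q, x ∉ zpowers z → Nat.card E = Nat.card (fx (⊤ : AddSubgroup E) x) ^ p := by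
    intro x hx hxz
    obtain ⟨y, hy, hxy⟩ : ∃ y ∈ Q, x * y ≠ y * x := by
      by_contra hno
      push Not at hno
      apply hxz
      rw [← hZ]
      exact ⟨hx, mem_centralizer_iff.2 fun y hy => (hno y hy).symm⟩
    rw [← card_eq_pow hp hp2 hE hz hfix hzQ.1 hzc hcomm hexp (W := ⊤)
      (fun _ _ _ _ => AddSubgroup.mem_top _) hx hy hxy, AddSubgroup.card_top]
  obtain ⟨x0, hx0, hx0z⟩ : ∃ x ∈ Q, x ∉ zpowers z := by
    obtain ⟨x, hx, y, hy, hxy⟩ := hab
    refine ⟨x, hx, ?_⟩
    rw [← hZ]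
    rintro ⟨-, h⟩
    exact hxy (mem_centralizer_iff.1 h y hy).symm
  set c := Nat.card (fx (⊤ : AddSubgroup E) x0) with hc
  have hEc : Nat.card E = c ^ p := hfp x0 hx0 hx0z
  have hfp' : ∀ x ∈ Q, x ∉ zpowers z → Nat.card (fx (⊤ : AddSubgroup E) x) = c := by
    intro x hx hxz
    have h1 := hfp x hx hxz
    rw [hEc] at h1
    exact (Nat.pow_left_injective hp.ne_zero h1).symm
  have hc4 : 4 ^ (p ^ (m - 1)) ≤ c := by
    rw [hEc] at hm2
    have h1 : p ^ m = p ^ (m - 1) * p := by
      rw [← pow_succ, Nat.sub_add_cancel (Nat.pos_of_ne_zero hm0)]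
    rw [h1, pow_mul] at hm2
    exact (Nat.pow_le_pow_iff_left hp.ne_zero).1 hm2
  have hc4' : 4 ≤ c := by
    refine le_trans ?_ hc4
    calc 4 = 4 ^ 1 := by norm_num
      _ ≤ 4 ^ (p ^ (m - 1)) := Nat.pow_le_pow_right (by norm_num) (Nat.one_le_pow _ _ hp.pos)
  -- double counting
  have : Fintype D := Fintype.ofFinite D
  have : Fintype E := Fintype.ofFinite E
  have key : ∑ x : Q, (Nat.card (fx (⊤ : AddSubgroup E) (x : D)) : ℤ) =
      ∑ e : E, (Nat.card {x : Q // (x : D) • e = e} : ℤ) := by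
    have h1 : ∀ x : Q, (Nat.card (fx (⊤ : AddSubgroup E) (x : D)) : ℤ) =
        ∑ e : E, if (x : D) • e = e then (1 : ℤ) else 0 := by
      intro x
      have h2 : Nat.card (fx (⊤ : AddSubgroup E) (x : D)) = Nat.card {e : E // (x : D) • e = e} :=
        Nat.card_congr (Equiv.subtypeEquivRight fun e => by
          rw [mem_fx]; simp)
      rw [h2, Nat.card_eq_fintype_card, Fintype.card_subtype, Finset.card_filter]
      push_cast
      rfl
    have h3 : ∀ e : E, (Nat.card {x : Q // (x : D) • e = e} : ℤ) =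
        ∑ x : Q, if (x : D) • e = e then (1 : ℤ) else 0 := by
      intro e
      rw [Nat.card_eq_fintype_card, Fintype.card_subtype, Finset.card_filter]
      push_cast
      rfl
    rw [Finset.sum_congr rfl fun x _ => h1 x, Finset.sum_congr rfl fun e _ => h3 e, Finset.sum_comm]
  -- left side
  have hleft : ∑ x : Q, (Nat.card (fx (⊤ : AddSubgroup E) (x : D)) : ℤ) =
      (Nat.card Q : ℤ) * c + p * (1 - c) + ((Nat.card E : ℤ) - 1) := by
    have h1 : ∀ x : Q, (Nat.card (fx (⊤ : AddSubgroup E) (x : D)) : ℤ) =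
        c + (if (x : D) ∈ zpowers z then (1 - c : ℤ) else 0) +
          (if x = 1 then ((Nat.card E : ℤ) - 1) else 0) := by
      intro x
      by_cases hx1 : x = 1
      · subst hx1
        have h2 : fx (⊤ : AddSubgroup E) ((1 : Q) : D) = ⊤ := by
          ext e; simp [mem_fx]
        rw [h2, AddSubgroup.card_top, if_pos rfl, if_pos (by simp)]
        ring
      · rw [if_neg hx1]
        by_cases hxz : (x : D) ∈ zpowers z
        · rw [if_pos hxz]
          have h2 : fx (⊤ : AddSubgroup E) (x : D) = ⊥ := by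
            rw [AddSubgroup.eq_bot_iff_forall]
            rintro e ⟨-, he⟩
            -- `z` is a power of `x`
            have hx1' : (x : D) ≠ 1 := fun h => hx1 (Subtype.ext h)
            have h3 : zpowers (x : D) = zpowers z := by
              apply Subgroup.eq_of_le_of_card_ge (by rwa [zpowers_le])
              rw [hcz, Nat.card_zpowers, orderOf_eq_prime (hexp x x.2) hx1']
            have h4 : z ∈ zpowers (x : D) := by rw [h3]; exact mem_zpowers z
            have h5 : zpowers (x : D) ≤ MulAction.stabilizer D e := by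
              rw [zpowers_le]; exact he
            exact hfix e (h5 h4)
          rw [h2, AddSubgroup.card_bot]; push_cast; ring
        · rw [if_neg hxz, hfp' x x.2 hxz]; ring
    rw [Finset.sum_congr rfl fun x _ => h1 x, Finset.sum_add_distrib, Finset.sum_add_distrib,
      Finset.sum_ite_eq' Finset.univ (1 : Q), if_pos (Finset.mem_univ _), Finset.sum_const,
      ← Finset.sum_filter, Finset.sum_const]
    have h2 : (Finset.univ.filter fun x : Q => (x : D) ∈ zpowers z).card = p := by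
      rw [← Fintype.card_subtype, ← Nat.card_eq_fintype_card, ← hcz]
      have hzQ' : zpowers z ≤ Q := by rw [zpowers_le]; exact hzQ.1
      exact Nat.card_congr (subgroupOfEquivOfLe hzQ').toEquiv
    rw [h2, Finset.card_univ, ← Nat.card_eq_fintype_card]
    simp only [nsmul_eq_mul]
  -- right side
  have hright : (Nat.card E : ℤ) * p + ((Nat.card Q : ℤ) - p) ≤
      ∑ e : E, (Nat.card {x : Q // (x : D) • e = e} : ℤ) := by
    have h0 : ∀ e : E, Nat.card {x : Q // (x : D) • e = e} = Nat.card ↥((MulAction.stabilizer D e).subgroupOf Q) :=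
      fun e => rfl
    have h1 : ∀ e : E, (p : ℤ) + (if e = 0 then ((Nat.card Q : ℤ) - p) else 0) ≤
        (Nat.card {x : Q // (x : D) • e = e} : ℤ) := by
      intro e
      by_cases he : e = 0
      · subst he
        rw [if_pos rfl]
        have h2 : Nat.card {x : Q // (x : D) • (0 : E) = 0} = Nat.card Q :=
          Nat.card_congr (Equiv.subtypeUnivEquiv fun x => smul_zero _)
        rw [h2]; linarith
      · rw [if_neg he, add_zero]
        obtain ⟨e0, he0, he00⟩ : ∃ e0 : E, x0 • e0 = e0 ∧ e0 ≠ 0 := by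
          by_contra hno
          push Not at hno
          have h2 : fx (⊤ : AddSubgroup E) x0 = ⊥ := by
            rw [AddSubgroup.eq_bot_iff_forall]
            rintro e ⟨-, he⟩
            exact hno e he
          rw [hc, h2, AddSubgroup.card_bot] at hc4'
          omega
        obtain ⟨d, hd⟩ := htrans e0 e he00 he
        have h3 : d * x0 * d⁻¹ ∈ Q := hQn.conj_mem x0 hx0 d
        have h4 : (d * x0 * d⁻¹) • e = e := by
          rw [← hd, mul_smul, mul_smul, inv_smul_smul, he0]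
        have h5 : d * x0 * d⁻¹ ≠ 1 := by
          intro h
          apply hx0z
          have : x0 = 1 := by
            have := congrArg (fun w => d⁻¹ * w * d) h
            simpa [mul_assoc] using this
          rw [this]; exact one_mem _
        rw [h0]
        have h6 : zpowers (⟨d * x0 * d⁻¹, h3⟩ : Q) ≤ (MulAction.stabilizer D e).subgroupOf Q := by
          rw [zpowers_le, mem_subgroupOf]
          exact h4
        have h7 := Subgroup.card_le_of_le h6
        rw [Nat.card_zpowers, orderOf_eq_prime (p := p) (Subtype.ext (hexp _ h3))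
          (fun h => h5 (congrArg Subtype.val h))] at h7
        exact_mod_cast h7
    calc (Nat.card E : ℤ) * p + ((Nat.card Q : ℤ) - p)
        = ∑ e : E, ((p : ℤ) + (if e = 0 then ((Nat.card Q : ℤ) - p) else 0)) := by
          rw [Finset.sum_add_distrib, Finset.sum_ite_eq' Finset.univ (0 : E),
            if_pos (Finset.mem_univ _), Finset.sum_const, Finset.card_univ, ← Nat.card_eq_fintype_card]
          simp only [nsmul_eq_mul]
      _ ≤ _ := Finset.sum_le_sum fun e _ => h1 e
  rw [← key, hleft] at hright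
  have h3p : 3 ≤ p := by
    have := hp.two_le
    omega
  have harith := arith_main h3p hm0 hc4
  have e1 : (Nat.card Q : ℤ) = p * p ^ (2 * m) := by rw [hm1]; push_cast; ring
  have e2 : (Nat.card E : ℤ) = (c : ℤ) ^ p := by rw [hEc]; push_cast; ring
  rw [e1, e2] at hright
  nlinarith

/-- A normal abelian subgroup of a transitive linear group acts semiregularly. -/
theorem semiregular [Finite D] [Finite E] [FaithfulSMul D E]
    (htrans : ∀ a b : E, a ≠ 0 → b ≠ 0 → ∃ d : D, d • a = b)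
    {A : Subgroup D} (hA : A.Normal) (hAc : ∀ a ∈ A, ∀ b ∈ A, a * b = b * a) :
    ∀ a ∈ A, a ≠ 1 → ∀ v : E, a • v = v → v = 0 := by
  classical
  intro a ha ha1 v hv
  by_contra hv0
  let st : E → Subgroup D := fun w => A ⊓ MulAction.stabilizer D w
  have hst : ∀ w (b : D), b ∈ st w ↔ b ∈ A ∧ b • w = w := fun w b => Iff.rfl
  -- equal cardinalities
  have hcard : ∀ u w : E, u ≠ 0 → w ≠ 0 → Nat.card (st u) = Nat.card (st w) := by
    intro u w hu hw
    obtain ⟨d, rfl⟩ := htrans u w hu hw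
    refine Nat.card_congr
      { toFun := fun b => ⟨d * b * d⁻¹, hA.conj_mem _ b.2.1 d, ?_⟩
        invFun := fun b => ⟨d⁻¹ * b * d, ?_, ?_⟩
        left_inv := fun b => Subtype.ext (by simp [mul_assoc])
        right_inv := fun b => Subtype.ext (by simp [mul_assoc]) }
    · change (d * b * d⁻¹) • d • u = d • u
      have h1 : (b : D) • u = u := b.2.2
      rw [mul_smul, mul_smul, inv_smul_smul, h1]
    · have := hA.conj_mem _ b.2.1 d⁻¹
      rwa [inv_inv] at this
    · change (d⁻¹ * b * d) • u = u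
      have h1 : (b : D) • d • u = d • u := b.2.2
      rw [mul_smul, mul_smul, h1, inv_smul_smul]
  have heq : ∀ u w : E, u ≠ 0 → w ≠ 0 → st u ≤ st w → st u = st w := fun u w hu hw h =>
    Subgroup.eq_of_le_of_card_ge h (hcard u w hu hw).ge
  -- the fixed points of `st w`
  let W : E → AddSubgroup E := fun w =>
    { carrier := {u | ∀ b ∈ st w, b • u = u}
      zero_mem' := fun b _ => smul_zero b
      add_mem' := fun {x y} hx hy b hb => by rw [smul_add, hx b hb, hy b hb]
      neg_mem' := fun {x} hx b hb => by rw [smul_neg, hx b hb] }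
  have hWmem : ∀ w u, u ∈ W w ↔ ∀ b ∈ st w, b • u = u := fun w u => Iff.rfl
  have hWself : ∀ w, w ∈ W w := fun w b hb => hb.2
  have hWA : ∀ w, ∀ u ∈ W w, ∀ b ∈ A, b • u ∈ W w := by
    intro w u hu b hb c hc
    rw [← mul_smul, hAc c hc.1 b hb, mul_smul, hu c hc]
  obtain ⟨u, hu⟩ : ∃ u, u ∉ W v := by
    by_contra hno
    push Not at hno
    apply ha1
    apply FaithfulSMul.eq_of_smul_eq_smul (α := E)
    intro e
    rw [one_smul]
    exact hno e a ⟨ha, hv⟩
  have hu0 : u ≠ 0 := fun h => hu (h ▸ (W v).zero_mem)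
  have hw : v + u ∉ W v := by
    intro h
    apply hu
    have := (W v).sub_mem h (hWself v)
    rwa [add_sub_cancel_left] at this
  have hw0 : v + u ≠ 0 := fun h => hw (h ▸ (W v).zero_mem)
  have hdis : ∀ t, t ∈ W v → t ∈ W u → t = 0 := by
    intro t htv htu
    by_contra ht0
    have h1 : st v ≤ st t := fun b hb => ⟨hb.1, htv b hb⟩
    have h2 : st u ≤ st t := fun b hb => ⟨hb.1, htu b hb⟩
    have h3 := heq v t hv0 ht0 h1
    have h4 := heq u t hu0 ht0 h2
    apply hu
    intro b hb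
    rw [h3, ← h4] at hb
    exact hb.2
  have hle : ∀ b ∈ st (v + u), b • v = v ∧ b • u = u := by
    intro b hb
    have h1 : b • v + b • u = v + u := by rw [← smul_add]; exact hb.2
    have h2 : b • v - v = u - b • u := by
      rw [sub_eq_sub_iff_add_eq_add, h1, add_comm]
    have h3 : b • v - v ∈ W v := (W v).sub_mem (hWA v v (hWself v) b hb.1) (hWself v)
    have h4 : u - b • u ∈ W u := (W u).sub_mem (hWself u) (hWA u u (hWself u) b hb.1)
    have h5 : b • v - v = 0 := hdis _ h3 (h2 ▸ h4)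
    refine ⟨sub_eq_zero.1 h5, ?_⟩
    rw [h2] at h5
    exact (sub_eq_zero.1 h5).symm
  have h1 : st (v + u) = st v := heq _ _ hw0 hv0 fun b hb => ⟨hb.1, (hle b hb).1⟩
  apply hu
  intro b hb
  rw [← h1] at hb
  exact (hle b hb).2

/-- A semiregular abelian group of odd order is cyclic. -/
theorem isCyclic_of_semiregular [Finite D] [Nontrivial E] (hodd : Odd (Nat.card D))
    (hE : ∀ e : E, 2 • e = 0)
    {A : Subgroup D} (hAc : ∀ a ∈ A, ∀ b ∈ A, a * b = b * a)
    (hreg : ∀ a ∈ A, a ≠ 1 → ∀ v : E, a • v = v → v = 0) : IsCyclic A := by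
  by_contra hnc
  obtain ⟨r, x, y, hr, hx, hy, hx1, hxr, hyr, hyx⟩ := CoprimeGen.exists_rank_two
    (isMulCommutative_iff_of_setLike.2 hAc) hnc
  have hr2 : r ≠ 2 := by
    rintro rfl
    have := Fact.mk hr
    have h1 : orderOf x = 2 := orderOf_eq_prime hxr hx1
    have h2 : 2 ∣ Nat.card D := h1 ▸ orderOf_dvd_natCard x
    exact (Nat.not_even_iff_odd.2 hodd) (even_iff_two_dvd.2 h2)
  obtain ⟨e, he⟩ := exists_ne (0 : E)
  apply he
  have hre : r • e = e := by
    obtain ⟨k, hk⟩ := hr.odd_of_ne_two hr2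
    rw [hk, add_smul, one_smul, mul_comm, mul_smul, hE, smul_zero, zero_add]
  rw [← hre, ← sum_nrm hr (hAc y hy x hx) hxr (hreg x hx hx1) e]
  apply Finset.sum_eq_zero
  intro i _
  have h1 : y * x ^ i ∈ A := A.mul_mem hy (pow_mem hx i)
  have h2 : y * x ^ i ≠ 1 := by
    intro h
    apply hyx
    rw [mul_eq_one_iff_eq_inv] at h
    rw [h]
    exact inv_mem (pow_mem (mem_zpowers x) i)
  apply hreg _ h1 h2
  apply smul_nrm
  have : Commute y (x ^ i) := (show Commute y x from hAc y hy x hx).pow_right i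
  rw [this.mul_pow, hyr, ← pow_mul, mul_comm, pow_mul, hxr, one_pow, one_mul]

end Cfsg.Agent.Lib.H3TransLin
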