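import Mathlib
import Cfsg.Agent.Lib.H3TransLin
import Cfsg.Agent.Lib.SubgroupTools
import Cfsg.Agent.Lib.Fitting

/-!
# Transitive linear groups of odd order: the Fitting subgroup (helper3)
-/

set_option autoImplicit false

open Subgroup

namespace Cfsg.Agent.Lib.H3TransLin

section Group

variable {D : Type*} [Group D] [Finite D]

/-- Elements of order `r` of a cyclic group. -/
theorem cyc_mem {A : Subgroup D} (hA : IsCyclic A) {r : ℕ} (hr : r.Prime) {z : D} (hz : z ∈ A)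
    (hzr : z ^ r = 1) (hz1 : z ≠ 1) {a : D} (ha : a ∈ A) (har : a ^ r = 1) : a ∈ zpowers z := by
  classical
  have := Fact.mk hr
  have : Fintype A := Fintype.ofFinite A
  have h1 := IsCyclic.card_pow_eq_one_le (α := A) (n := r) hr.pos
  set T := Finset.univ.filter fun x : A => x ^ r = 1 with hT
  let S : Finset A := Finset.univ.filter fun x : A => (x : D) ∈ zpowers z
  have h2 : S ⊆ T := by
    intro x hx
    simp only [S, hT, Finset.mem_filter, Finset.mem_univ, true_and] at hx ⊢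
    obtain ⟨k, hk⟩ := hx
    apply Subtype.ext
    change (x : D) ^ r = 1
    rw [← hk]
    change (z ^ k) ^ r = 1
    rw [← zpow_natCast, ← zpow_mul, mul_comm, zpow_mul, zpow_natCast, hzr, one_zpow]
  have h3 : S.card = r := by
    rw [← Fintype.card_subtype, ← Nat.card_eq_fintype_card]
    have hzA : zpowers z ≤ A := by rwa [zpowers_le]
    rw [← orderOf_eq_prime hzr hz1, ← Nat.card_zpowers]
    exact Nat.card_congr (subgroupOfEquivOfLe hzA).toEquiv
  have h4 : S = T := Finset.eq_of_subset_of_card_le h2 (by rw [h3]; exact h1)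
  have h5 : (⟨a, ha⟩ : A) ∈ T := by
    simp only [hT, Finset.mem_filter, Finset.mem_univ, true_and]
    exact Subtype.ext har
  rw [← h4] at h5
  simpa [S] using h5

theorem mem_zpowers_iff_pow {z a : D} (h : a ∈ zpowers z) : ∃ k : ℕ, a = z ^ k := by
  obtain ⟨k, hk⟩ := mem_powers_iff_mem_zpowers.2 h
  exact ⟨k, hk.symm⟩

omit [Finite D] in
/-- The elements of order dividing `p` of a group of class two. -/
theorem exists_omega {p : ℕ} (hp : p.Prime) (hp2 : p ≠ 2) {B : Subgroup D} {z : D} (hz : z ^ p = 1)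
    (hzc : ∀ b ∈ B, b * z = z * b) (hcomm : ∀ a ∈ B, ∀ b ∈ B, ∃ k : ℕ, a * b = z ^ k * (b * a)) :
    (∀ a ∈ B, ∀ b ∈ B, (a * b) ^ p = a ^ p * b ^ p) ∧
      ∃ Q : Subgroup D, ∀ x, x ∈ Q ↔ x ∈ B ∧ x ^ p = 1 := by
  have hmul : ∀ a ∈ B, ∀ b ∈ B, (a * b) ^ p = a ^ p * b ^ p := by
    intro a ha b hb
    obtain ⟨k, hk⟩ := hcomm b hb a ha
    have hc : ∀ b ∈ B, Commute (z ^ k) b := fun b hb => (show Commute b z from hzc b hb).symm.pow_left k
    have h1 : b * a = a * b * z ^ k := by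
      rw [hk, (hc _ (B.mul_mem ha hb)).eq]
    rw [PGroupOdd.mul_pow_of_comm h1 (hc a ha) (hc b hb),
      PGroupOdd.pow_choose_two_eq_one hp hp2 (by rw [← pow_mul, mul_comm, pow_mul, hz, one_pow]), mul_one]
  refine ⟨hmul, ⟨{ carrier := {x | x ∈ B ∧ x ^ p = 1}
                   mul_mem' := ?_, one_mem' := ⟨B.one_mem, one_pow p⟩, inv_mem' := ?_ }, fun x => Iff.rfl⟩⟩
  · rintro a b ⟨ha, ha'⟩ ⟨hb, hb'⟩
    exact ⟨B.mul_mem ha hb, by rw [hmul a ha b hb, ha', hb', one_mul]⟩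
  · rintro a ⟨ha, ha'⟩
    exact ⟨B.inv_mem ha, by rw [inv_pow, ha', inv_one]⟩

/-- A chief factor. -/
theorem exists_chief [hs : Group.IsSolvable D] {A C : Subgroup D} [hA : A.Normal] [hC : C.Normal]
    (hAC : A ≤ C) (hne : A ≠ C) :
    ∃ (r : ℕ) (B : Subgroup D), r.Prime ∧ B.Normal ∧ A ≤ B ∧ B ≤ C ∧ B ≠ A ∧ (∀ b ∈ B, b ^ r ∈ A) ∧
      ∀ a ∈ B, ∀ b ∈ B, ∃ c ∈ A, a * b = c * (b * a) := by
  classical
  let π : D →* D ⧸ A := QuotientGroup.mk' A
  have hπ : Function.Surjective π := QuotientGroup.mk'_surjective A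
  have hker : π.ker = A := QuotientGroup.ker_mk' A
  let M : Subgroup (D ⧸ A) := C.map π
  have hMn : M.Normal := hC.map π hπ
  have hMne : Nontrivial M := by
    rw [Subgroup.nontrivial_iff_ne_bot]
    intro h
    apply hne
    apply le_antisymm hAC
    intro x hx
    have h1 : π x ∈ M := ⟨x, hx, rfl⟩
    rw [h, mem_bot] at h1
    rw [← hker]; exact h1
  have hMs : Group.IsSolvable M := by
    have : Group.IsSolvable (D ⧸ A) := Group.isSolvable_of_surjective hπ
    infer_instance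
  obtain ⟨r, F, hr, hF1, hF2, hF3, hF4⟩ := SubgroupTools.exists_characteristic_elementary M
  let F' : Subgroup (D ⧸ A) := F.map M.subtype
  have hF'n : F'.Normal := inferInstance
  refine ⟨r, F'.comap π, hr, hF'n.comap π, ?_, ?_, ?_, ?_, ?_⟩
  · intro x hx
    rw [mem_comap]
    have : π x = 1 := by rw [← MonoidHom.mem_ker, hker]; exact hx
    rw [this]; exact one_mem _
  · intro x hx
    obtain ⟨y, hy, hyx⟩ := hx
    obtain ⟨c, hc, hcy⟩ := y.2
    have h1 : π c = π x := by rw [hcy]; exact hyx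
    have h2 : c⁻¹ * x ∈ A := by
      rw [← hker, MonoidHom.mem_ker, map_mul, map_inv, h1, inv_mul_cancel]
    have h3 := C.mul_mem hc (hAC h2)
    rwa [mul_inv_cancel_left] at h3
  · intro h
    apply hF1
    rw [eq_bot_iff]
    intro y hy
    obtain ⟨c, hc, hcy⟩ := y.2
    have h1 : c ∈ F'.comap π := ⟨y, hy, hcy.symm⟩
    rw [h, ← hker, MonoidHom.mem_ker] at h1
    rw [mem_bot]
    apply Subtype.ext
    rw [← hcy, h1]; rfl
  · intro b hb
    obtain ⟨y, hy, hyx⟩ := hb
    rw [← hker, MonoidHom.mem_ker, map_pow]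
    have h1 : y ^ r = 1 := hF4 y hy
    rw [← hyx, ← map_pow, h1, map_one]
  · intro a ha b hb
    refine ⟨a * b * (b * a)⁻¹, ?_, by group⟩
    obtain ⟨y, hy, hyx⟩ := ha
    obtain ⟨y', hy', hyx'⟩ := hb
    rw [← hker, MonoidHom.mem_ker]
    have h1 : y * y' = y' * y := isMulCommutative_iff_of_setLike.1 hF3 y hy y' hy'
    simp only [map_mul, map_inv]
    rw [← hyx, ← hyx', ← map_mul, ← map_mul, h1, mul_inv_cancel]

/-- A maximal normal abelian subgroup is self-centralizing. -/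
theorem exists_self_centralizing [Group.IsSolvable D] (hodd : Odd (Nat.card D))
    (hcyc : ∀ A : Subgroup D, A.Normal → (∀ a ∈ A, ∀ b ∈ A, a * b = b * a) → IsCyclic A)
    (hno : ∀ (p : ℕ) (z : D) (Q : Subgroup D), p.Prime → p ≠ 2 → z ^ p = 1 → z ≠ 1 → Q.Normal →
      (∃ A : Subgroup D, A.Normal ∧ (∀ a ∈ A, ∀ b ∈ A, a * b = b * a) ∧ z ∈ A) →
      (∀ a ∈ Q, ∀ b ∈ Q, ∃ k : ℕ, a * b = z ^ k * (b * a)) → (∀ c ∈ Q, c ^ p = 1) →
      Q ⊓ centralizer (Q : Set D) = zpowers z → (∃ x ∈ Q, ∃ y ∈ Q, x * y ≠ y * x) → False) :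
    ∃ A : Subgroup D, A.Normal ∧ (∀ a ∈ A, ∀ b ∈ A, a * b = b * a) ∧ centralizer (A : Set D) ≤ A := by
  classical
  obtain ⟨A, ⟨hAn, hAc⟩, hmax⟩ := Set.exists_max_image
    {A : Subgroup D | A.Normal ∧ ∀ a ∈ A, ∀ b ∈ A, a * b = b * a} (fun A => Nat.card A)
    (Set.toFinite _) ⟨⊥, inferInstance, by
      intro a ha b hb
      rw [mem_bot] at ha hb
      rw [ha, hb]⟩
  refine ⟨A, hAn, hAc, ?_⟩
  by_contra hcon
  have hAC : A ≤ centralizer (A : Set D) := fun a ha => mem_centralizer_iff.2 fun b hb => hAc b hb a ha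
  have hCn : (centralizer (A : Set D)).Normal := inferInstance
  obtain ⟨r, B, hr, hBn, hAB, hBC, hBA, hBr, hBcomm⟩ := exists_chief hAC (fun h => hcon h.ge)
  have hcen : ∀ a ∈ A, ∀ b ∈ B, a * b = b * a := fun a ha b hb => mem_centralizer_iff.1 (hBC hb) a ha
  have hr' := Fact.mk hr
  -- `B` is nonabelian
  have hBnab : ∃ x ∈ B, ∃ y ∈ B, x * y ≠ y * x := by
    by_contra hno'
    push Not at hno'
    have h1 := hmax B ⟨hBn, hno'⟩
    exact hBA (Subgroup.eq_of_le_of_card_ge hAB h1).symm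
  obtain ⟨x, hx, y, hy, hxy⟩ := hBnab
  -- commutators have order dividing `r`
  have hcr : ∀ a ∈ B, ∀ b ∈ B, ∀ c ∈ A, a * b = c * (b * a) → c ^ r = 1 := by
    intro a ha b hb c hc h
    have h1 : a * b = b * a * c := by rw [h, hcen c hc _ (B.mul_mem hb ha)]
    exact PGroupOdd.pow_eq_one_of_comm' h1 (hcen c hc a ha) (hcen _ (hBr a ha) b hb)
  obtain ⟨z, hzA, hz⟩ := hBcomm x hx y hy
  have hz1 : z ≠ 1 := by
    rintro rfl
    rw [one_mul] at hz
    exact hxy hz
  have hzr : z ^ r = 1 := hcr x hx y hy z hzA hz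
  have hr2 : r ≠ 2 := by
    rintro rfl
    have h1 : orderOf z = 2 := orderOf_eq_prime hzr hz1
    have h2 : 2 ∣ Nat.card D := h1 ▸ orderOf_dvd_natCard z
    exact (Nat.not_even_iff_odd.2 hodd) (even_iff_two_dvd.2 h2)
  have hAcyc := hcyc A hAn hAc
  have hcomm : ∀ a ∈ B, ∀ b ∈ B, ∃ k : ℕ, a * b = z ^ k * (b * a) := by
    intro a ha b hb
    obtain ⟨c, hc, h1⟩ := hBcomm a ha b hb
    obtain ⟨k, hk⟩ := mem_zpowers_iff_pow (cyc_mem hAcyc hr hzA hzr hz1 hc (hcr a ha b hb c hc h1))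
    exact ⟨k, by rw [← hk]; exact h1⟩
  have hzc : ∀ b ∈ B, b * z = z * b := fun b hb => (hcen z hzA b hb).symm
  obtain ⟨hmul, Q, hQ⟩ := exists_omega hr hr2 hzr hzc hcomm
  have hQB : Q ≤ B := fun x hx => ((hQ x).1 hx).1
  have hQn : Q.Normal := by
    constructor
    intro x hx d
    rw [hQ] at hx ⊢
    refine ⟨hBn.conj_mem x hx.1 d, ?_⟩
    rw [conj_pow, hx.2]; group
  have hzQ : z ∈ Q := (hQ z).2 ⟨hAB hzA, hzr⟩
  have hZ : Q ⊓ centralizer (Q : Set D) = zpowers z := by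
    apply le_antisymm
    · have hNn : (Q ⊓ centralizer (Q : Set D)).Normal := inferInstance
      have hNc := hcyc _ hNn (fun a ha b hb => (mem_centralizer_iff.1 ha.2 b hb.1).symm)
      intro w hw
      refine cyc_mem hNc hr ⟨hzQ, mem_centralizer_iff.2 fun b hb => hzc b (hQB hb)⟩ hzr hz1 hw
        ((hQ w).1 hw.1).2
    · rw [zpowers_le]
      exact ⟨hzQ, mem_centralizer_iff.2 fun b hb => hzc b (hQB hb)⟩
  by_cases hQab : ∃ x ∈ Q, ∃ y ∈ Q, x * y ≠ y * x
  · exact hno r z Q hr hr2 hzr hz1 hQn ⟨A, hAn, hAc, hzA⟩ (fun a ha b hb => hcomm a (hQB ha) b (hQB hb))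
      (fun c hc => ((hQ c).1 hc).2) hZ hQab
  · push Not at hQab
    have h1 : Q = zpowers z := by
      rw [← hZ, left_eq_inf]
      exact fun a ha => mem_centralizer_iff.2 fun b hb => hQab b hb a ha
    -- the power map
    let φ : B →* A :=
      { toFun := fun b => ⟨(b : D) ^ r, hBr b b.2⟩
        map_one' := Subtype.ext (by simp)
        map_mul' := fun a b => Subtype.ext (hmul a a.2 b b.2) }
    have h2 : φ.ker = Q.subgroupOf B := by
      ext b
      rw [MonoidHom.mem_ker, mem_subgroupOf, hQ]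
      constructor
      · intro h; exact ⟨b.2, congrArg Subtype.val h⟩
      · rintro ⟨-, h⟩; exact Subtype.ext h
    have h3 : Nat.card φ.ker = r := by
      rw [h2, Nat.card_congr (subgroupOfEquivOfLe hQB).toEquiv, h1, Nat.card_zpowers,
        orderOf_eq_prime hzr hz1]
    have h4 := Subgroup.card_eq_card_quotient_mul_card_subgroup φ.ker
    rw [Nat.card_congr (QuotientGroup.quotientKerEquivRange φ).toEquiv, h3] at h4
    have h5 : Nat.card φ.range ≤ Nat.card A := Subgroup.card_le_card_group _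
    -- `B / A` is cyclic
    have hABn : (A.subgroupOf B).Normal := inferInstance
    have h6 := Subgroup.card_eq_card_quotient_mul_card_subgroup (A.subgroupOf B)
    rw [Nat.card_congr (subgroupOfEquivOfLe hAB).toEquiv] at h6
    have h7 : Nat.card (B ⧸ A.subgroupOf B) ≤ r := by
      have h8 : Nat.card (B ⧸ A.subgroupOf B) * Nat.card A ≤ r * Nat.card A := by
        rw [← h6, h4, mul_comm]
        exact Nat.mul_le_mul_left _ h5
      exact Nat.le_of_mul_le_mul_right h8 Nat.card_pos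
    have h8 : IsPGroup r (B ⧸ A.subgroupOf B) := by
      intro q
      obtain ⟨b, rfl⟩ := QuotientGroup.mk_surjective q
      refine ⟨1, ?_⟩
      rw [pow_one, ← QuotientGroup.mk_pow, QuotientGroup.eq_one_iff, mem_subgroupOf]
      exact hBr b b.2
    obtain ⟨j, hj⟩ := IsPGroup.iff_card.1 h8
    have h9 : IsCyclic (B ⧸ A.subgroupOf B) := by
      apply isCyclic_of_card_dvd_prime (p := r)
      rw [hj] at h7 ⊢
      have : j ≤ 1 := by
        by_contra hj1
        have : r ^ 2 ≤ r ^ j := Nat.pow_le_pow_right hr.pos (by omega)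
        have := hr.two_le
        nlinarith
      exact (pow_dvd_pow r this).trans (pow_one r).dvd
    have h10 := commutative_of_cyclic_center_quotient (QuotientGroup.mk' (A.subgroupOf B)) (by
      rw [QuotientGroup.ker_mk']
      intro a ha
      rw [mem_center_iff]
      intro b
      exact Subtype.ext (hcen a ha b b.2).symm) ⟨x, hx⟩ ⟨y, hy⟩
    exact hxy (congrArg Subtype.val h10)

omit [Finite D] in
/-- The quotient by a cyclic self-centralizing normal subgroup is abelian. -/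
theorem commutator_mem {A : Subgroup D} [hAn : A.Normal] (hA : IsCyclic A)
    (hC : centralizer (A : Set D) ≤ A) (d e : D) : d * e * (e * d)⁻¹ ∈ A := by
  have hpow : ∀ d : D, ∃ m : ℤ, ∀ a ∈ A, d * a * d⁻¹ = a ^ m := by
    intro d
    obtain ⟨m, hm⟩ := MonoidHom.map_cyclic (MulAut.conjNormal (H := A) d).toMonoidHom
    refine ⟨m, fun a ha => ?_⟩
    have h1 := congrArg Subtype.val (hm ⟨a, ha⟩)
    simpa using h1
  obtain ⟨m, hm⟩ := hpow d
  obtain ⟨n, hn⟩ := hpow e
  apply hC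
  rw [mem_centralizer_iff]
  intro a ha
  have h1 : ∀ a ∈ A, d * e * a * (d * e)⁻¹ = a ^ (n * m) := by
    intro a ha
    have : d * e * a * (d * e)⁻¹ = d * (e * a * e⁻¹) * d⁻¹ := by group
    rw [this, hn a ha, hm _ (zpow_mem ha n), ← zpow_mul]
  have h2 : ∀ a ∈ A, e * d * a * (e * d)⁻¹ = a ^ (n * m) := by
    intro a ha
    have : e * d * a * (e * d)⁻¹ = e * (d * a * d⁻¹) * e⁻¹ := by group
    rw [this, hm a ha, hn _ (zpow_mem ha m), ← zpow_mul, mul_comm]
  have h3 : (e * d)⁻¹ * a * (e * d) ∈ A := by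
    have := hAn.conj_mem a ha (e * d)⁻¹
    rwa [inv_inv] at this
  have h4 := h1 _ h3
  rw [← h2 _ h3] at h4
  have h5 : d * e * ((e * d)⁻¹ * a * (e * d)) * (d * e)⁻¹ = a := by
    rw [h4]; group
  calc a * (d * e * (e * d)⁻¹) = (d * e * ((e * d)⁻¹ * a * (e * d)) * (d * e)⁻¹) * (d * e * (e * d)⁻¹) := by
        rw [h5]
    _ = d * e * (e * d)⁻¹ * a := by group

/-- An arithmetic lemma. -/
theorem lte {p : ℕ} (hp : p.Prime) (hp2 : p ≠ 2) {u : ℤ} {n : ℕ} (h1 : (p : ℤ) ∣ u - 1)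
    (h2 : (p : ℤ) ^ n ∣ u ^ p - 1) : (p : ℤ) ^ n ∣ (u - 1) * p := by
  have hpu : ¬ (p : ℤ) ∣ u := by
    intro h
    have h3 := dvd_sub h h1
    rw [sub_sub_cancel] at h3
    exact hp.one_lt.ne' (by exact_mod_cast Int.eq_one_of_dvd_one (by positivity) h3)
  have h3 := Int.emultiplicity_pow_sub_pow hp (hp.odd_of_ne_two hp2) (x := u) (y := 1) h1 hpu p
  rw [one_pow] at h3
  rw [pow_dvd_iff_le_emultiplicity] at h2 ⊢
  have h4 : emultiplicity (p : ℤ) ((u - 1) * p) = emultiplicity (p : ℤ) (u - 1) + emultiplicity (p : ℤ) p :=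
    emultiplicity_mul (Nat.prime_iff_prime_int.1 hp)
  rw [h4, Int.natCast_emultiplicity, ← h3]
  exact h2

theorem lte' {p : ℕ} (hp : p.Prime) (hp2 : p ≠ 2) {N : ℕ} (hN : N ≠ 0) {u : ℤ} {k : ℕ}
    (h1 : (N : ℤ) ∣ u ^ p - 1) (h2 : (N : ℤ) ∣ (u - 1) * p ^ k) : (N : ℤ) ∣ (u - 1) * p := by
  obtain ⟨n, N', hN', rfl⟩ := Nat.exists_eq_pow_mul_and_not_dvd hN p hp.ne_one
  have hcop : IsCoprime (N' : ℤ) (p : ℤ) := by
    rw [Nat.isCoprime_iff_coprime]
    exact ((Nat.Prime.coprime_iff_not_dvd hp).2 hN').symm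
  have h3 : (N' : ℤ) ∣ u - 1 := by
    have h4 : (N' : ℤ) ∣ (u - 1) * p ^ k := (Dvd.intro_left _ (by push_cast; rfl)).trans h2
    exact (hcop.pow_right).dvd_of_dvd_mul_right h4
  have h4 : (p : ℤ) ^ n ∣ (u - 1) * p := by
    rcases Nat.eq_zero_or_pos n with rfl | hn
    · simp
    · have h5 : (p : ℤ) ^ n ∣ u ^ p - 1 := (Dvd.intro _ (by push_cast; rfl)).trans h1
      apply lte hp hp2 _ h5
      have h6 : (p : ℤ) ∣ u ^ p - 1 := (dvd_pow_self _ (by omega)).trans h5
      have := Fact.mk hp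
      rw [← ZMod.intCast_zmod_eq_zero_iff_dvd] at h6 ⊢
      push_cast at h6 ⊢
      rwa [ZMod.pow_card] at h6
  push_cast
  exact IsCoprime.mul_dvd hcop.symm.pow_left h4 (h3.mul_right _)

/-- `O_p(D)` lies in the self-centralizing cyclic normal subgroup. -/
theorem pCore_le {A : Subgroup D} [hAn : A.Normal] (hAcyc : IsCyclic A)
    (hC : centralizer (A : Set D) ≤ A)
    (hcyc : ∀ A : Subgroup D, A.Normal → (∀ a ∈ A, ∀ b ∈ A, a * b = b * a) → IsCyclic A)
    {p : ℕ} (hp : p.Prime) (hp2 : p ≠ 2) {P : Subgroup D} [hPn : P.Normal] (hP : IsPGroup p P) : P ≤ A := by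
  classical
  have := Fact.mk hp
  by_contra hcon
  obtain ⟨v, hv, hvA⟩ := SetLike.not_le_iff_exists.1 hcon
  have hAc : ∀ a ∈ A, ∀ b ∈ A, a * b = b * a := by
    intro a ha b hb
    have := (IsCyclic.commGroup (α := A)).mul_comm ⟨a, ha⟩ ⟨b, hb⟩
    exact congrArg Subtype.val this
  -- `w`, of order `p` modulo `A`
  obtain ⟨w, hw, hwA, hwp⟩ : ∃ w ∈ P, w ∉ A ∧ w ^ p ∈ A := by
    obtain ⟨k, hk⟩ := hP ⟨v, hv⟩
    have hk' : v ^ p ^ k ∈ A := by
      have : v ^ p ^ k = 1 := congrArg Subtype.val hk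
      rw [this]; exact one_mem _
    clear hk
    induction k with
    | zero => rw [pow_zero, pow_one] at hk'; exact absurd hk' hvA
    | succ k ih =>
      by_cases h : v ^ p ^ k ∈ A
      · exact ih h
      · exact ⟨v ^ p ^ k, pow_mem hv _, h, by rwa [← pow_mul, ← pow_succ]⟩
  -- conjugation by `w`
  obtain ⟨u, hu⟩ : ∃ u : ℤ, ∀ a ∈ A, w * a * w⁻¹ = a ^ u := by
    obtain ⟨m, hm⟩ := MonoidHom.map_cyclic (MulAut.conjNormal (H := A) w).toMonoidHom
    refine ⟨m, fun a ha => ?_⟩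
    have h1 := congrArg Subtype.val (hm ⟨a, ha⟩)
    simpa using h1
  obtain ⟨a0, ha0⟩ := hAcyc.exists_generator
  have ha0' : ∀ a ∈ A, ∃ k : ℤ, a = (a0 : D) ^ k := by
    intro a ha
    obtain ⟨k, hk⟩ := ha0 ⟨a, ha⟩
    exact ⟨k, (congrArg Subtype.val hk).symm⟩
  set N := orderOf (a0 : D) with hN
  have hN0 : N ≠ 0 := (orderOf_pos (a0 : D)).ne'
  have hNA : Nat.card A = N := by
    rw [hN, Subgroup.orderOf_coe, orderOf_eq_card_of_forall_mem_zpowers ha0]
  -- powers of `w`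
  have hupow : ∀ (j : ℕ), ∀ a ∈ A, w ^ j * a * (w ^ j)⁻¹ = a ^ (u ^ j) := by
    intro j
    induction j with
    | zero => intro a ha; simp
    | succ j ih =>
      intro a ha
      have : w ^ (j + 1) * a * (w ^ (j + 1))⁻¹ = w ^ j * (w * a * w⁻¹) * (w ^ j)⁻¹ := by
        rw [pow_succ]; group
      rw [this, hu a ha, ih _ (zpow_mem ha u), ← zpow_mul, pow_succ']
  have h1 : (N : ℤ) ∣ u ^ p - 1 := by
    rw [hN, orderOf_dvd_iff_zpow_eq_one, zpow_sub, zpow_one, ← hupow p a0 a0.2, hAc _ hwp a0 a0.2]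
    group
  -- the commutator `[w, a0]`
  set z := w * a0 * w⁻¹ * (a0 : D)⁻¹ with hz
  have hzu : z = (a0 : D) ^ (u - 1) := by rw [hz, hu a0 a0.2, zpow_sub, zpow_one]
  have hzA : z ∈ A := by rw [hzu]; exact zpow_mem a0.2 _
  have hzP : z ∈ P := by
    have h2 : z = w * (a0 * w⁻¹ * (a0 : D)⁻¹) := by rw [hz]; group
    rw [h2]
    exact P.mul_mem hw (hPn.conj_mem _ (P.inv_mem hw) a0)
  have hz1 : z ≠ 1 := by
    intro h
    apply hwA
    apply hC
    rw [mem_centralizer_iff]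
    intro a ha
    obtain ⟨k, rfl⟩ := ha0' a ha
    rw [hz, mul_inv_eq_one, mul_inv_eq_iff_eq_mul] at h
    exact ((show Commute w a0 from h).zpow_right k).symm
  obtain ⟨k, hk⟩ := hP ⟨z, hzP⟩
  have hk' : z ^ p ^ k = 1 := congrArg Subtype.val hk
  have h2 : (N : ℤ) ∣ (u - 1) * p ^ k := by
    rw [hN, orderOf_dvd_iff_zpow_eq_one, zpow_mul, ← hzu]
    exact_mod_cast hk'
  have h3 := lte' hp hp2 hN0 h1 h2
  have hzp : z ^ p = 1 := by
    rw [hN, orderOf_dvd_iff_zpow_eq_one, zpow_mul, ← hzu] at h3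
    exact_mod_cast h3
  have hpN : p ∣ N := by
    rw [← hNA, ← orderOf_eq_prime hzp hz1, ← Subgroup.orderOf_mk z hzA]
    exact orderOf_dvd_natCard _
  have hpu : (p : ℤ) ∣ u - 1 := by
    have h6 : (p : ℤ) ∣ u ^ p - 1 := (Int.natCast_dvd_natCast.2 hpN).trans h1
    rw [← ZMod.intCast_zmod_eq_zero_iff_dvd] at h6 ⊢
    push_cast at h6 ⊢
    rwa [ZMod.pow_card] at h6
  have hwz : w * z = z * w := by
    have h4 := hu z hzA
    obtain ⟨t, ht⟩ := hpu
    have h5 : z ^ u = z := by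
      rw [show u = p * t + 1 by linarith, zpow_add, zpow_mul, zpow_natCast, hzp, one_zpow, one_mul, zpow_one]
    rw [h5, mul_inv_eq_iff_eq_mul] at h4
    exact h4
  -- the group `W = A ⟨w⟩`
  let π : D →* D ⧸ A := QuotientGroup.mk' A
  have hπ : Function.Surjective π := QuotientGroup.mk'_surjective A
  have hker : π.ker = A := QuotientGroup.ker_mk' A
  set W : Subgroup D := (zpowers (π w)).comap π with hW
  have hAW : A ≤ W := by
    intro x hx
    rw [hW, mem_comap]
    have : π x = 1 := by rw [← MonoidHom.mem_ker, hker]; exact hx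
    rw [this]; exact one_mem _
  have hwW : w ∈ W := by rw [hW, mem_comap]; exact mem_zpowers _
  have hWform : ∀ x ∈ W, ∃ (i : ℕ), ∃ a ∈ A, x = w ^ i * a := by
    intro x hx
    obtain ⟨i, hi⟩ := mem_zpowers_iff_pow (show π x ∈ zpowers (π w) from hx)
    refine ⟨i, (w ^ i)⁻¹ * x, ?_, by group⟩
    rw [← hker, MonoidHom.mem_ker, map_mul, map_inv, map_pow, hi, inv_mul_cancel]
  have hWn : W.Normal := by
    constructor
    intro x hx d
    have h4 : d * x * (x * d)⁻¹ ∈ A := commutator_mem hAcyc hC d x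
    have h5 := W.mul_mem (hAW h4) hx
    have h6 : d * x * (x * d)⁻¹ * x = d * x * d⁻¹ := by group
    rwa [h6] at h5
  -- commutators with `w`
  have hwa : ∀ a ∈ A, ∃ k : ℕ, w * a = z ^ k * (a * w) := by
    intro a ha
    obtain ⟨k, rfl⟩ := ha0' a ha
    have h4 : w * (a0 : D) ^ k * w⁻¹ = z ^ k * (a0 : D) ^ k := by
      have h5 : w * (a0 : D) ^ k * w⁻¹ = (w * a0 * w⁻¹) ^ k := by rw [conj_zpow]
      have h6 : w * a0 * w⁻¹ = z * a0 := by rw [hz]; group
      rw [h5, h6, (show Commute z a0 from hAc z hzA a0 a0.2).mul_zpow]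
    obtain ⟨k', hk'⟩ := mem_zpowers_iff_pow (zpow_mem (mem_zpowers z) k)
    refine ⟨k', ?_⟩
    rw [← hk', ← mul_assoc, ← h4]; group
  have hzW : ∀ b ∈ W, b * z = z * b := by
    intro b hb
    obtain ⟨i, a, ha, rfl⟩ := hWform b hb
    have h4 : a * z = z * a := hAc a ha z hzA
    have h5 : w ^ i * z = z * w ^ i := ((show Commute w z from hwz).pow_left i)
    rw [mul_assoc, h4, ← mul_assoc, h5, mul_assoc]
  have hwia : ∀ i : ℕ, ∀ a ∈ A, ∃ k : ℕ, w ^ i * a = z ^ k * (a * w ^ i) := by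
    intro i
    induction i with
    | zero => intro a ha; exact ⟨0, by simp⟩
    | succ i ih =>
      intro a ha
      obtain ⟨k, hk⟩ := ih a ha
      obtain ⟨l, hl⟩ := hwa a ha
      refine ⟨k + l, ?_⟩
      have h4 : w * z ^ k = z ^ k * w := ((show Commute w z from hwz).pow_right k)
      calc w ^ (i + 1) * a = w * (w ^ i * a) := by rw [pow_succ']; group
        _ = (w * z ^ k) * (a * w ^ i) := by rw [hk]; group
        _ = z ^ k * (w * a) * w ^ i := by rw [h4]; group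
        _ = z ^ k * z ^ l * (a * (w * w ^ i)) := by rw [hl]; group
        _ = z ^ (k + l) * (a * w ^ (i + 1)) := by rw [← pow_add, ← pow_succ']
  have hcomm : ∀ a ∈ W, ∀ b ∈ W, ∃ k : ℕ, a * b = z ^ k * (b * a) := by
    intro x hx y hy
    obtain ⟨i, a, ha, rfl⟩ := hWform x hx
    obtain ⟨j, b, hb, rfl⟩ := hWform y hy
    obtain ⟨k, hk⟩ := hwia i b hb
    obtain ⟨l, hl⟩ := hwia j a ha
    -- `x y z^l = z^k y x`
    have hzz : ∀ c ∈ W, ∀ t : ℕ, c * z ^ t = z ^ t * c := fun c hc t =>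
      ((show Commute c z from hzW c hc).pow_right t)
    have h4 : (w ^ i * a) * (w ^ j * b) * z ^ l = z ^ k * ((w ^ j * b) * (w ^ i * a)) := by
      have hwj : w ^ j ∈ W := pow_mem hwW j
      have hwi : w ^ i ∈ W := pow_mem hwW i
      calc (w ^ i * a) * (w ^ j * b) * z ^ l = w ^ i * a * (w ^ j * (b * z ^ l)) := by group
        _ = w ^ i * (z ^ l * (a * w ^ j)) * b := by
          rw [hzz b (hAW hb) l]
          calc w ^ i * a * (w ^ j * (z ^ l * b)) = w ^ i * a * (w ^ j * z ^ l) * b := by group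
            _ = w ^ i * (a * z ^ l) * w ^ j * b := by rw [hzz _ hwj]; group
            _ = w ^ i * (z ^ l * (a * w ^ j)) * b := by rw [hzz a (hAW ha)]; group
        _ = w ^ i * w ^ j * (a * b) := by rw [← hl]; group
        _ = w ^ j * (w ^ i * b) * a := by
          rw [hAc a ha b hb, ← pow_add, add_comm i j, pow_add]; group
        _ = (w ^ j * z ^ k) * b * w ^ i * a := by rw [hk]; group
        _ = z ^ k * ((w ^ j * b) * (w ^ i * a)) := by rw [hzz _ hwj]; group
    -- invert `z ^ l`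
    obtain ⟨t, ht⟩ : ∃ t : ℕ, z ^ l * z ^ t = 1 := by
      refine ⟨(p - 1) * l, ?_⟩
      rw [← pow_add, show l + (p - 1) * l = p * l by
        have := hp.one_lt
        obtain ⟨q, rfl⟩ : ∃ q, p = q + 1 := ⟨p - 1, by omega⟩
        simp only [Nat.add_sub_cancel]; ring, pow_mul, hzp, one_pow]
    refine ⟨k + t, ?_⟩
    calc (w ^ i * a) * (w ^ j * b) = (w ^ i * a) * (w ^ j * b) * z ^ l * z ^ t := by
          rw [mul_assoc _ (z ^ l), ht, mul_one]
      _ = z ^ k * (((w ^ j * b) * (w ^ i * a)) * z ^ t) := by rw [h4]; group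
      _ = z ^ k * (z ^ t * ((w ^ j * b) * (w ^ i * a))) := by rw [hzz _ (W.mul_mem hy hx)]
      _ = z ^ (k + t) * ((w ^ j * b) * (w ^ i * a)) := by rw [pow_add]; simp only [mul_assoc]
  obtain ⟨hmul, V, hV⟩ := exists_omega hp hp2 hzp hzW hcomm
  have hVW : V ≤ W := fun x hx => ((hV x).1 hx).1
  have hVn : V.Normal := by
    constructor
    intro x hx d
    rw [hV] at hx ⊢
    refine ⟨hWn.conj_mem x hx.1 d, ?_⟩
    rw [conj_pow, hx.2]; group
  have hWp : ∀ x ∈ W, x ^ p ∈ A := by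
    intro x hx
    obtain ⟨i, a, ha, rfl⟩ := hWform x hx
    rw [hmul _ (pow_mem hwW i) a (hAW ha), ← pow_mul, mul_comm i p, pow_mul]
    exact A.mul_mem (pow_mem hwp i) (pow_mem ha p)
  -- `V` is abelian
  have hWAcyc : IsCyclic (zpowers (π w)) := inferInstance
  let ψ : V →* zpowers (π w) := (π.comp V.subtype).codRestrict _ (fun x => hVW x.2)
  have hVab : ∀ a ∈ V, ∀ b ∈ V, a * b = b * a := by
    intro a ha b hb
    have h4 := MonoidHom.isMulCommutative_of_isCyclic_of_ker_le_center ψ (by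
      intro x hx
      rw [MonoidHom.mem_ker] at hx
      have h5 : π (x : D) = 1 := congrArg Subtype.val hx
      rw [← MonoidHom.mem_ker, hker] at h5
      have h6 := cyc_mem hAcyc hp hzA hzp hz1 h5 ((hV x).1 x.2).2
      rw [mem_center_iff]
      intro y
      obtain ⟨t, ht⟩ := mem_zpowers_iff_pow h6
      apply Subtype.ext
      change (y : D) * x = x * y
      rw [ht]
      exact ((show Commute (y : D) z from hzW y (hVW y.2)).pow_right t))
    exact congrArg Subtype.val (h4.is_comm.comm (⟨a, ha⟩ : V) ⟨b, hb⟩)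
  have hVcyc := hcyc V hVn hVab
  have hzV : z ∈ V := (hV z).2 ⟨hAW hzA, hzp⟩
  have hVeq : V = zpowers z := by
    apply le_antisymm
    · intro x hx
      exact cyc_mem hVcyc hp hzV hzp hz1 hx ((hV x).1 hx).2
    · rwa [zpowers_le]
  -- the power map is onto `A`
  let φ : W →* A :=
    { toFun := fun b => ⟨(b : D) ^ p, hWp b b.2⟩
      map_one' := Subtype.ext (by simp)
      map_mul' := fun a b => Subtype.ext (hmul a a.2 b b.2) }
  have h4 : φ.ker = V.subgroupOf W := by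
    ext b
    rw [MonoidHom.mem_ker, mem_subgroupOf, hV]
    constructor
    · intro h; exact ⟨b.2, congrArg Subtype.val h⟩
    · rintro ⟨-, h⟩; exact Subtype.ext h
  have h5 : Nat.card φ.ker = p := by
    rw [h4, Nat.card_congr (subgroupOfEquivOfLe hVW).toEquiv, hVeq, Nat.card_zpowers,
      orderOf_eq_prime hzp hz1]
  have h6 := Subgroup.card_eq_card_quotient_mul_card_subgroup φ.ker
  rw [Nat.card_congr (QuotientGroup.quotientKerEquivRange φ).toEquiv, h5] at h6
  -- `|W| = p |A|`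
  have h7 : Nat.card W = p * Nat.card A := by
    let θ : W →* zpowers (π w) := (π.comp W.subtype).codRestrict _ (fun x => x.2)
    have hθ : Function.Surjective θ := by
      rintro ⟨y, hy⟩
      obtain ⟨x, rfl⟩ := hπ y
      exact ⟨⟨x, hy⟩, rfl⟩
    have h8 := Subgroup.card_eq_card_quotient_mul_card_subgroup θ.ker
    rw [Nat.card_congr (QuotientGroup.quotientKerEquivOfSurjective θ hθ).toEquiv] at h8
    have h9 : θ.ker = A.subgroupOf W := by
      ext b
      have h10 : ∀ x : D, x ∈ A ↔ π x = 1 := fun x => by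
        rw [← MonoidHom.mem_ker]; exact (SetLike.ext_iff.1 hker x).symm
      rw [MonoidHom.mem_ker, mem_subgroupOf, h10]
      constructor
      · intro h; exact congrArg Subtype.val h
      · intro h; exact Subtype.ext h
    rw [h9, Nat.card_congr (subgroupOfEquivOfLe hAW).toEquiv, Nat.card_zpowers] at h8
    rw [h8, orderOf_eq_prime (p := p)]
    · rw [← map_pow, ← MonoidHom.mem_ker, hker]; exact hwp
    · intro h
      rw [← MonoidHom.mem_ker, hker] at h
      exact hwA h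
  have h8 : Nat.card φ.range = Nat.card A := by
    rw [h7, mul_comm] at h6
    exact (Nat.eq_of_mul_eq_mul_right hp.pos h6).symm
  have h9 : φ.range = ⊤ := Subgroup.eq_top_of_card_eq _ h8
  obtain ⟨x, hx⟩ : a0 ∈ φ.range := by rw [h9]; exact mem_top _
  have hx' : (x : D) ^ p = a0 := congrArg Subtype.val hx
  have hxA : (x : D) ∈ A := by
    apply hC
    rw [mem_centralizer_iff]
    intro a ha
    obtain ⟨k, rfl⟩ := ha0' a ha
    rw [← hx']
    exact ((Commute.refl (x : D)).pow_left p).zpow_left k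
  obtain ⟨k, hk⟩ := ha0' _ hxA
  rw [hk, ← zpow_natCast, ← zpow_mul] at hx'
  have h10 : (N : ℤ) ∣ k * p - 1 := by
    rw [hN, orderOf_dvd_iff_zpow_eq_one, zpow_sub, hx', zpow_one, mul_inv_cancel]
  have h11 : (p : ℤ) ∣ k * p - 1 := (Int.natCast_dvd_natCast.2 hpN).trans h10
  have h12 : (p : ℤ) ∣ 1 := by
    have := dvd_sub (Dvd.intro_left k rfl) h11
    rwa [sub_sub_cancel] at this
  exact hp.one_lt.ne' (by exact_mod_cast Int.eq_one_of_dvd_one (by positivity) h12)

end Group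

/-- The main theorem. -/
theorem main {D E : Type*} [Group D] [Finite D]
    [AddCommGroup E] [Finite E] [Nontrivial E] [DistribMulAction D E] [FaithfulSMul D E]
    (hsolv : Group.IsSolvable D)
    (hodd : Odd (Nat.card D)) {q : ℕ} (hq : q.Prime) (hE : ∀ e : E, q • e = 0)
    (htrans : ∀ a b : E, a ≠ 0 → b ≠ 0 → ∃ d : D, d • a = b) :
    IsCyclic ↥(Cfsg.fittingSubgroup D) ∧
      (∀ g ∈ Cfsg.fittingSubgroup D, g ≠ 1 → ∀ a : E, g • a = a → a = 0) ∧
      commutator D ≤ Cfsg.fittingSubgroup D := by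
  classical
  -- `q = 2`
  obtain ⟨v, hv⟩ := exists_ne (0 : E)
  have hq2 : q = 2 := by
    have h1 : MulAction.orbit D v = ({0}ᶜ : Set E) := by
      ext w
      rw [Set.mem_compl_iff, Set.mem_singleton_iff]
      constructor
      · rintro ⟨d, rfl⟩ h
        exact hv ((smul_eq_zero_iff_eq d).1 h)
      · intro hw
        obtain ⟨d, hd⟩ := htrans v w hv hw
        exact ⟨d, hd⟩
    have h2 : (MulAction.stabilizer D v).index ∣ Nat.card D := Subgroup.index_dvd_card _
    rw [MulAction.index_stabilizer, h1, Set.ncard_compl, Set.ncard_singleton] at h2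
    have h3 : Odd (Nat.card E - 1) := hodd.of_dvd_nat h2
    have h4 : 2 ∣ Nat.card E := by
      have h5 : 0 < Nat.card E := Nat.card_pos
      obtain ⟨k, hk⟩ := h3
      exact ⟨k + 1, by omega⟩
    have := Fact.mk Nat.prime_two
    obtain ⟨e, he⟩ := exists_prime_addOrderOf_dvd_card' (G := E) 2 h4
    have h5 : 2 ∣ q := by
      rw [← he]
      exact addOrderOf_dvd_of_nsmul_eq_zero (hE e)
    exact ((Nat.prime_dvd_prime_iff_eq Nat.prime_two hq).1 h5).symm
  subst hq2
  have hcyc : ∀ A : Subgroup D, A.Normal → (∀ a ∈ A, ∀ b ∈ A, a * b = b * a) → IsCyclic A :=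
    fun A hA hAc => isCyclic_of_semiregular (E := E) hodd hE hAc (semiregular htrans hA hAc)
  obtain ⟨A, hAn, hAc, hC⟩ := exists_self_centralizing hodd hcyc (by
    rintro p z Q hp hp2 hz hz1 hQn ⟨B, hBn, hBc, hzB⟩ hcomm hexp hZ hab
    exact no_extra htrans hp hp2 hE hz hz1 (semiregular htrans hBn hBc z hzB hz1) hQn hcomm hexp hZ hab)
  have hAcyc := hcyc A hAn hAc
  have hF : Cfsg.fittingSubgroup D = A := by
    apply le_antisymm
    · rw [Fitting.fittingSubgroup_eq_iSup_pCore]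
      apply iSup_le
      rintro ⟨p, hp⟩
      have := Fact.mk hp
      have hPn : (Cfsg.pCore p D).Normal := Fitting.normal_pCore p
      have hPp : IsPGroup p (Cfsg.pCore p D) := Fitting.isPGroup_pCore p
      by_cases hp2 : p = 2
      · subst hp2
        obtain ⟨k, hk⟩ := IsPGroup.iff_card.1 hPp
        have h1 : Nat.card (Cfsg.pCore 2 D) ∣ Nat.card D := Subgroup.card_subgroup_dvd_card _
        have h2 : Odd (Nat.card (Cfsg.pCore 2 D)) := hodd.of_dvd_nat h1
        have h3 : k = 0 := by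
          by_contra hk0
          rw [hk] at h2
          exact (Nat.not_even_iff_odd.2 h2) (Nat.even_pow.2 ⟨even_two, hk0⟩)
        rw [h3, pow_zero, Subgroup.card_eq_one] at hk
        change Cfsg.pCore 2 D ≤ A
        rw [hk]; exact bot_le
      · exact pCore_le hAcyc hC hcyc hp hp2 hPp
    · apply Fitting.le_fittingSubgroup hAn
      let _ : CommGroup A := { (inferInstance : Group A) with
        mul_comm := fun a b => Subtype.ext (hAc a a.2 b b.2) }
      exact CommGroup.isNilpotent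
  rw [hF]
  refine ⟨hAcyc, semiregular htrans hAn hAc, ?_⟩
  rw [_root_.commutator_def, Subgroup.commutator_le]
  intro d _ e _
  rw [commutatorElement_def]
  have := commutator_mem hAcyc hC d e
  have h2 : d * e * (e * d)⁻¹ = d * e * d⁻¹ * e⁻¹ := by group
  rwa [h2] at this

end Cfsg.Agent.Lib.H3TransLin
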