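import Cfsg.Agent.Lib.H58SMe

/-!
Elements and the action on 176 points for PSU(5,2) (helper3)
-/

set_option autoImplicit false

namespace Cfsg.Agent.Lib.H3U52

open Cfsg.Agent.Lib.H58SM

def EMB : ℕ := 0xe82e0f4004005001001001001bc3b0a400400440400100100164250f400c0060020010020018008004008005a09829003001bc2c28c8043cbf0a0a22010f3e42d054004007b0bc290010017836054008007003001003001c00c00400c005f0dc3d00200148453d4004605111455001141

def EM (e r c : ℕ) : ℕ := gt EMB 2 3 (Nat.add (Nat.mul (Nat.add (Nat.mul e 5) r) 5) c)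

def trip : List (ℕ × ℕ × ℕ) := [(0, 0, 16), (1, 1, 16), (0, 1, 8), (8, 8, 9), (9, 8, 16), (2, 2, 10), (10, 2, 16), (3, 3, 11), (11, 3, 16), (4, 4, 12), (12, 4, 16), (5, 5, 13), (13, 5, 16), (2, 3, 6), (4, 5, 7), (6, 6, 14), (14, 14, 16), (7, 7, 14), (14, 6, 15), (15, 7, 17), (7, 6, 17)]

def ES : List ℕ := [0, 0, 0, 0, 1, 2, 1, 3, 1, 3, 1, 2, 1, 1, 1, 1]

def EC : List ℕ := [1, 1, 0, 1, 3, 3, 1, 3]

def S0 : ℕ := 0xafaea9acaba7ada6aaa8a5a0a39ea1a499a29d94929a9f988b8a8d9c939b83828f8e958c97967c857f78887491907d70877e81897b7a798677766384736171805f5c6d6c5a5e6968676653547550724e6f6a5d6e4a6b594d4c44436465403e624f6058574b5b36484734395655303c522d512c413b2a45293749274633253142232e3f3d1f3a381d351c321b2f1921182b172826241322201e0f150e1a120c10161409110b070d080a04050603010200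

def S1 : ℕ := 0xafaea9acaba7ada6aaa8a5a0a39ea1a499a29d94929a9f988b8a8d9c939b83828f8e958c97967c857f78887491907d70877e81897b7a798677766384736171805f5c6d6c5a5e6968676653547550724e6f6a5d6e4a6b594d4c44436465403e624f6058574b5b36484734395655303c522d512c413b2a45293749274633253142232e3f3d1f3a381d351c321b2f1921182b172826241322201e0f150e1a120c10161409110b070d080a04050603010200

def S2 : ℕ := 0xaaaf9f91ada8aeacaba997a789a4a6a56b5ba3a2a19ba09e909c759d65609a3a9972354998969555941e936292848f8e8d8c8b8a382488873f8685806f838281517f7e7d7c7b16327a7978777674737170266e286d6c6a69686742206664632b56615f5e5d5c5a59585257223d5453140a46504f4e4d4c4b064a48474544431a41402f3e3c3b393736343331300d2e2d2c2a2927250023211f1d1c111b19021817151312100f0e0c0b09080705040301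

def S3 : ℕ := 0xaea9aba8a7afa6aaa4a1a0a29d9c9b99ad9894969a918f8ba58a89878583ac9781807f7e7d7ca37978767582727170746e6d6c6b6a67666564639562618e605f735d5b5a9f5958575653935251844e924d4c4b4a9e494847454f884241466f3d3c3b3a3938368c35343e333231552f2e772c432b2a90297b28278d26256824232d21201f501e1d5c1c5e1b7a1944185417861615133012100f690e400d0c140b0a092208073f0605043703020111001a

def SPI : ℕ := 0xdaef673cfdeeffdb37daf799fdbb5adb76aabbaddbba

def SPQ : ℕ := 0xaea9a9a8a7a7a6a6a4a1a0a09d9c9b999998949492918f8b8b8a89878583838281807f7e7d7c7c7978767574727170706e6d6c6b6a676665646363626161605f5f5c5b5a5a5958575653535251504e4e4d4c4b4a4a4948474544434241403e3d3c3b3a39383636353434333231302f2e2d2c2c2b2a2a292928272726252524232321201f1f1e1d1d1c1c1b1b1919181817171615131312100f0f0e0e0d0c0c0b0a090908070706050404030201010000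

def D176 : Dat where
  n := 176
  k := 2
  J := 0
  p := 2
  m := 2
  d := 0
  T l a := gt (([S0, S1, S2, S3] : List ℕ).getD l 0) 8 255 a
  pi := gt SPI 1 1
  pq := gt SPQ 8 255
  W _ := []
  rk _ := 0
  lp _ := 0
  E _ _ := 0
  par _ := 0
  Zl := []

end Cfsg.Agent.Lib.H3U52
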