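import Cfsg.Agent.Lib.H3F4
import Cfsg.Agent.Lib.H3PUM
import Cfsg.Agent.Lib.H3U52D
import Cfsg.Agent.Lib.H3U52E
import Cfsg.Agent.Lib.H3U52F
import Cfsg.Agent.Lib.H3U52P
import Cfsg.Agent.Lib.H3U52Q

/-!
# Checks for PSU(5,2) (helper3)
-/

set_option autoImplicit false

namespace Cfsg.Agent.Lib.H3U52

open Cfsg.Agent.Lib.H58SM Cfsg.Agent.Lib.H3Code Cfsg.Agent.Lib.H3PU Cfsg.Agent.Lib.H3F4 Cfsg.Agent.Lib.K4

set_option maxRecDepth 1000000

theorem m_ok : D.mOk C = true := by decide +kernel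
theorem v_ok : D.vOk C = true := by decide +kernel
theorem f_ok : D.fOk C = true := by decide +kernel
theorem b_ok : D.bOk = true := by decide +kernel
theorem fr_ok : D.frOk = true := by decide +kernel
theorem w_ok : D.wOk C = true := by decide +kernel
theorem iso_ok : D.isoOk C = true := by decide +kernel
theorem t_ok : D.tOk C = true := by decide +kernel
theorem tw_ok : D.twOk D176.T tword = true := by decide +kernel
theorem eq_ok : D.eqOk D176.T = true := by decide +kernel
theorem tab1_ok : D176.tab1 = true := by decide +kernel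
theorem tab2_ok : D176.tab2 = true := by decide +kernel
theorem tab3_ok : D176.tab3 = true := by decide +kernel

/-- relators on the 176 points -/
def relB (J : ℕ) (W : ℕ → List ℕ) : Bool :=
  alln (fun j => frc 0 fun _ => alln (fun a => Nat.beq (Dat.ptf D176.T (W j) a) a) 176) J

theorem rel2_ok : relB U522.Q.toDat.J U522.Q.toDat.W = true := by decide +kernel
theorem rel3_ok : relB U523.Q.toDat.J U523.Q.toDat.W = true := by decide +kernel

/-- the action on pairs -/
def pairB (T : ℕ → ℕ → ℕ) : Bool := alln (fun a => Nat.blt (pa a) 176 && Nat.blt (pb a) 176) 7040 &&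
  (alln (fun i => alln (fun a => frc (T (Nat.mul 2 i) a) fun b =>
    Nat.beq (D176.T (Nat.mul 2 i) (pa a)) (pa b) && Nat.beq (D176.T (Nat.mul 2 i) (pb a)) (pb b)) 7040) 2 &&
  (Nat.beq (pa 0) 0 && (Nat.beq (pb 0) i1 &&
  alln (fun a => !(Nat.beq (pa a) 0) || (!(Nat.beq (pb a) i1) || Nat.beq a 0)) 7040)))

theorem pair_ok : pairB U522.Q.toDat.T = true := by decide +kernel

/-- linear combination -/
def lc (s t x y : ℕ) : ℕ := C.ad (C.mu s x) (C.mu t y)

/-- the action on bivectors -/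
def bivB (T : ℕ → ℕ → ℕ) : Bool := alln (fun a => C.vlt 5 (bu a) && C.vlt 5 (bv a)) 891 &&
  (alln (fun i => alln (fun a => frc (T (Nat.mul 2 i) a) fun b => frc (bc i a 0) fun s => frc (bc i a 1) fun t =>
    frc (bc i a 2) fun s' => frc (bc i a 3) fun t' =>
      Nat.blt s 4 && (Nat.blt t 4 && (Nat.blt s' 4 && (Nat.blt t' 4 && (Nat.beq (C.ad (C.mu s t') (C.mu t s')) 1 &&
      alln (fun r => Nat.beq (C.dot (D.MC i r) (bu a) 5) (lc s t (bu b r) (bv b r)) &&
        Nat.beq (C.dot (D.MC i r) (bv a) 5) (lc s' t' (bu b r) (bv b r))) 5))))) 891) 2 &&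
  alln (fun a => Nat.beq a 0 || !(alln (fun r => alln (fun s => Nat.beq
    (C.ad (C.mu (bu a r) (bv a s)) (C.mu (bv a r) (bu a s))) (C.ad (C.mu (bu 0 r) (bv 0 s)) (C.mu (bv 0 r) (bu 0 s)))) 5) 5)) 891)

theorem biv_ok : bivB U523.Q.toDat.T = true := by decide +kernel

/-- the explicit elements -/
def elB : Bool := alln (fun e => C.mlt 5 (EM e) && (C.unOk 5 2 (EM e) && Nat.beq (C.cdet 5 (EM e)) 1)) 18

theorem el_ok : elB = true := by decide +kernel

def tripB : Bool := trip.all fun q => alln (fun r => alln (fun c =>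
  Nat.beq (C.dot (EM q.1 r) (fun k => EM q.2.1 k c) 5) (EM q.2.2 r c)) 5) 5

theorem trip_ok : tripB = true := by decide +kernel

/-- the explicit elements fix the base pair -/
def fixB : Bool := alln (fun e => Nat.blt e 2 || (frc (ES.getD (Nat.mul 2 e) 0) fun s => frc (ES.getD (Nat.succ (Nat.mul 2 e)) 0) fun t =>
  Nat.blt s 4 && (Nat.blt t 4 && (C.mvOk 5 (EM e) (D.VC 0) (D.VC 0) s && C.mvOk 5 (EM e) (D.VC i1) (D.VC i1) t)))) 8

theorem fix_ok : fixB = true := by decide +kernel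

/-- the explicit elements fix the base bivector -/
def fixC : Bool := alln (fun e => frc (EC.getD (Nat.mul 4 e) 0) fun s => frc (EC.getD (Nat.add (Nat.mul 4 e) 1) 0) fun t =>
    frc (EC.getD (Nat.add (Nat.mul 4 e) 2) 0) fun s' => frc (EC.getD (Nat.add (Nat.mul 4 e) 3) 0) fun t' =>
      Nat.blt s 4 && (Nat.blt t 4 && (Nat.blt s' 4 && (Nat.blt t' 4 && (Nat.beq (C.ad (C.mu s t') (C.mu t s')) 1 &&
      alln (fun r => Nat.beq (C.dot (EM e r) (bu 0) 5) (lc s t (bu 0 r) (bv 0 r)) &&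
        Nat.beq (C.dot (EM e r) (bv 0) 5) (lc s' t' (bu 0 r) (bv 0 r))) 5))))) 2

theorem fixC_ok : fixC = true := by decide +kernel

end Cfsg.Agent.Lib.H3U52
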