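import Cfsg.Agent.Lib.H3U62M

/-!
# The bound for `PSU 6 K4 2` (helper3)
-/

set_option autoImplicit false

namespace Cfsg.Agent.Lib.H3U62

open Cfsg Cfsg.Agent.Lib Cfsg.Agent.Lib.H58SM Cfsg.Agent.Lib.H3F4 Cfsg.Agent.Lib.K4 Cfsg.Agent.Lib.SchurSylow

theorem stemPSU : StemDvd (PSU 6 K4 2) 12 :=
  stem.congr (H3Prj.equivPSU (n := 6) (F := K4) (q := 2) hF4 (by norm_num))

theorem twoPSU : PStemDvd 2 (PSU 6 K4 2) 4 :=
  two.congr (H3Prj.equivPSU (n := 6) (F := K4) (q := 2) hF4 (by norm_num))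

theorem threePSU : PStemDvd 3 (PSU 6 K4 2) 3 :=
  three.congr (H3Prj.equivPSU (n := 6) (F := K4) (q := 2) hF4 (by norm_num))

end Cfsg.Agent.Lib.H3U62
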