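import Cfsg.Prelude.Def_Classical
import Cfsg.Agent.Lib.CharBasic
import Cfsg.Agent.Lib.CharBasic2
import Cfsg.Agent.S0157

/-!
# The degenerate groups `Ω₂⁺(q)` and `Ω₄⁺(2)` (helper41)
-/

set_option autoImplicit false

namespace Cfsg.Agent.Lib.H41O4

open Cfsg Matrix

variable {F : Type*} [Field F]

/-- the six non-singular vectors -/
def N (F : Type*) [Field F] : Fin 3 ⊕ Fin 3 → (Fin 2 ⊕ Fin 2 → F)
  | .inl 0 => Sum.elim ![1, 0] ![1, 0]
  | .inl 1 => Sum.elim ![1, 1] ![0, 1]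
  | .inl 2 => Sum.elim ![0, 1] ![1, 1]
  | .inr 0 => Sum.elim ![0, 1] ![0, 1]
  | .inr 1 => Sum.elim ![1, 1] ![1, 0]
  | .inr 2 => Sum.elim ![1, 0] ![1, 1]

theorem qf (v : Fin 2 ⊕ Fin 2 → F) : quadFormPlus 2 F v = v (.inl 0) * v (.inr 0) + v (.inl 1) * v (.inr 1) := by
  simp [quadFormPlus, Fin.sum_univ_two]

theorem qN [CharP F 2] (i : Fin 3 ⊕ Fin 3) : quadFormPlus 2 F (N F i) = 1 := by
  have h2 : (1 : F) + 1 = 0 := CharTwo.add_self_eq_zero 1
  rcases i with i | i <;> fin_cases i <;> simp [qf, N, h2]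

theorem N_inj : Function.Injective (N F) := by
  intro i j h
  have h0 := congrFun h (.inl 0)
  have h1 := congrFun h (.inl 1)
  have h2 := congrFun h (.inr 0)
  have h3 := congrFun h (.inr 1)
  rcases i with i | i <;> rcases j with j | j <;> fin_cases i <;> fin_cases j <;> simp [N] at h0 h1 h2 h3 ⊢

theorem N_surj [CharP F 2] (hF : ∀ x : F, x = 0 ∨ x = 1) (v : Fin 2 ⊕ Fin 2 → F) (hv : quadFormPlus 2 F v = 1) :
    ∃ i, N F i = v := by
  have h2 : (1 : F) + 1 = 0 := CharTwo.add_self_eq_zero 1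
  have key : ∀ a b c d : F, v (.inl 0) = a → v (.inl 1) = b → v (.inr 0) = c → v (.inr 1) = d →
      v = Sum.elim ![a, b] ![c, d] := by
    intro a b c d ha hb hc hd
    funext i
    rcases i with i | i <;> fin_cases i <;> simp [ha, hb, hc, hd]
  rw [qf] at hv
  rcases hF (v (.inl 0)) with ha | ha <;> rcases hF (v (.inl 1)) with hb | hb <;>
    rcases hF (v (.inr 0)) with hc | hc <;> rcases hF (v (.inr 1)) with hd | hd <;>
    rw [ha, hb, hc, hd] at hv <;> rw [key _ _ _ _ ha hb hc hd]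
  all_goals first
    | (exfalso; simp [h2] at hv; done)
    | exact ⟨.inl 0, rfl⟩
    | exact ⟨.inl 1, rfl⟩
    | exact ⟨.inl 2, rfl⟩
    | exact ⟨.inr 0, rfl⟩
    | exact ⟨.inr 1, rfl⟩
    | exact ⟨.inr 2, rfl⟩


/-- the polar form -/
def pol (u v : Fin 2 ⊕ Fin 2 → F) : F := quadFormPlus 2 F (u + v) + quadFormPlus 2 F u + quadFormPlus 2 F v

theorem pol_N [CharP F 2] (i j : Fin 3 ⊕ Fin 3) : pol (N F i) (N F j) = 1 ↔ (i ≠ j ∧ i.isLeft = j.isLeft) := by
  have h2 : (1 : F) + 1 = 0 := CharTwo.add_self_eq_zero 1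
  unfold pol
  rw [qN, qN, add_assoc, h2, add_zero]
  rcases i with i | i <;> rcases j with j | j <;> fin_cases i <;> fin_cases j <;> simp [qf, N, h2]

abbrev O4 (F : Type*) [Field F] := isometryGroup F (quadFormPlus 2 F)

theorem q_act (g : O4 F) (v : Fin 2 ⊕ Fin 2 → F) :
    quadFormPlus 2 F ((g.1 : Matrix (Fin 2 ⊕ Fin 2) (Fin 2 ⊕ Fin 2) F) *ᵥ v) = quadFormPlus 2 F v :=
  g.2 v v

theorem pol_act (g : O4 F) (u v : Fin 2 ⊕ Fin 2 → F) :
    pol ((g.1 : Matrix (Fin 2 ⊕ Fin 2) (Fin 2 ⊕ Fin 2) F) *ᵥ u)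
      ((g.1 : Matrix (Fin 2 ⊕ Fin 2) (Fin 2 ⊕ Fin 2) F) *ᵥ v) = pol u v := by
  unfold pol
  rw [← Matrix.mulVec_add, q_act, q_act, q_act]

/-- the non-singular vectors -/
def S (F : Type*) [Field F] := {v : Fin 2 ⊕ Fin 2 → F // quadFormPlus 2 F v = 1}

def toP (F : Type*) [Field F] : O4 F →* Equiv.Perm (S F) where
  toFun g :=
    { toFun := fun v => ⟨(g.1 : Matrix (Fin 2 ⊕ Fin 2) (Fin 2 ⊕ Fin 2) F) *ᵥ v.1, by rw [q_act]; exact v.2⟩
      invFun := fun v => ⟨((g⁻¹).1 : Matrix (Fin 2 ⊕ Fin 2) (Fin 2 ⊕ Fin 2) F) *ᵥ v.1, by rw [q_act]; exact v.2⟩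
      left_inv := fun v => by
        apply Subtype.ext
        show ((g⁻¹).1 : Matrix (Fin 2 ⊕ Fin 2) (Fin 2 ⊕ Fin 2) F) *ᵥ ((g.1 : Matrix _ _ F) *ᵥ v.1) = v.1
        rw [Matrix.mulVec_mulVec, ← Units.val_mul, ← Subgroup.coe_mul, inv_mul_cancel]
        simp
      right_inv := fun v => by
        apply Subtype.ext
        show (g.1 : Matrix (Fin 2 ⊕ Fin 2) (Fin 2 ⊕ Fin 2) F) *ᵥ (((g⁻¹).1 : Matrix _ _ F) *ᵥ v.1) = v.1
        rw [Matrix.mulVec_mulVec, ← Units.val_mul, ← Subgroup.coe_mul, mul_inv_cancel]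
        simp }
  map_one' := by
    ext v : 1
    apply Subtype.ext
    show ((1 : O4 F).1 : Matrix (Fin 2 ⊕ Fin 2) (Fin 2 ⊕ Fin 2) F) *ᵥ v.1 = v.1
    simp
  map_mul' g h := by
    ext v : 1
    apply Subtype.ext
    show ((g * h).1 : Matrix (Fin 2 ⊕ Fin 2) (Fin 2 ⊕ Fin 2) F) *ᵥ v.1 =
      (g.1 : Matrix (Fin 2 ⊕ Fin 2) (Fin 2 ⊕ Fin 2) F) *ᵥ ((h.1 : Matrix _ _ F) *ᵥ v.1)
    rw [Matrix.mulVec_mulVec, Subgroup.coe_mul, Units.val_mul]

section
variable [CharP F 2] (hF : ∀ x : F, x = 0 ∨ x = 1)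

noncomputable def eN : Fin 3 ⊕ Fin 3 ≃ S F :=
  Equiv.ofBijective (fun i => (⟨N F i, qN i⟩ : S F))
    ⟨fun i j h => N_inj (congrArg Subtype.val h), fun v => by
      obtain ⟨i, hi⟩ := N_surj hF v.1 v.2
      exact ⟨i, Subtype.ext hi⟩⟩

noncomputable def Phi : O4 F →* Equiv.Perm (Fin 3 ⊕ Fin 3) :=
  ((eN hF).symm.permCongrHom).toMonoidHom.comp (toP F)

theorem Phi_spec (g : O4 F) (i : Fin 3 ⊕ Fin 3) :
    N F (Phi hF g i) = (g.1 : Matrix (Fin 2 ⊕ Fin 2) (Fin 2 ⊕ Fin 2) F) *ᵥ N F i := by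
  have h1 : eN hF (Phi hF g i) = toP F g (eN hF i) := by
    show eN hF ((eN hF).symm.permCongr (toP F g) i) = _
    rw [Equiv.permCongr_apply, Equiv.symm_symm, Equiv.apply_symm_apply]
  exact congrArg Subtype.val h1

theorem Phi_side (g : O4 F) (i j : Fin 3 ⊕ Fin 3) :
    (Phi hF g i).isLeft = (Phi hF g j).isLeft ↔ i.isLeft = j.isLeft := by
  by_cases hij : i = j
  · subst hij; simp
  have h1 := pol_N (F := F) i j
  have h2 := pol_N (F := F) (Phi hF g i) (Phi hF g j)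
  rw [Phi_spec, Phi_spec, pol_act, h1] at h2
  have h3 : Phi hF g i ≠ Phi hF g j := fun h => hij ((Phi hF g).injective h)
  tauto

noncomputable def side (g : O4 F) : Bool := (Phi hF g (.inl 0)).isLeft

theorem isLeft_eq (g : O4 F) (i : Fin 3 ⊕ Fin 3) : (Phi hF g i).isLeft = (i.isLeft == side hF g) := by
  have h1 := Phi_side hF g i (.inl 0)
  unfold side
  cases h2 : (Phi hF g i).isLeft <;> cases h3 : (Phi hF g (.inl 0)).isLeft <;> cases h4 : i.isLeft <;>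
    rw [h2, h3, h4] at h1 <;> simp at h1 ⊢

theorem side_mul (g h : O4 F) : side hF (g * h) = (side hF h == side hF g) := by
  have h1 : Phi hF (g * h) (.inl 0) = Phi hF g (Phi hF h (.inl 0)) := by rw [map_mul]; rfl
  unfold side
  rw [h1, isLeft_eq]
  rfl

noncomputable def sideHom : O4 F →* ℤˣ where
  toFun g := if side hF g then 1 else -1
  map_one' := by
    have : side hF (1 : O4 F) = true := by
      unfold side; rw [map_one]; rfl
    rw [this]; rfl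
  map_mul' g h := by
    rw [side_mul]
    cases side hF g <;> cases side hF h <;> simp

theorem side_of_mem {g : O4 F} (hg : g ∈ commutator (O4 F)) : side hF g = true := by
  have h1 := Abelianization.commutator_subset_ker (sideHom hF) hg
  rw [MonoidHom.mem_ker] at h1
  by_contra h2
  rw [Bool.not_eq_true] at h2
  have h3 : sideHom hF g = -1 := by
    show (if side hF g then (1 : ℤˣ) else -1) = -1
    rw [h2]; rfl
  rw [h3] at h1
  exact absurd h1 (by decide)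

theorem sign_of_mem {g : O4 F} (hg : g ∈ commutator (O4 F)) : Equiv.Perm.sign (Phi hF g) = 1 := by
  have h1 := Abelianization.commutator_subset_ker (Equiv.Perm.sign.comp (Phi hF)) hg
  exact h1

theorem mem_range (g : Omega F (quadFormPlus 2 F)) : Phi hF g.1 ∈ (Equiv.Perm.sumCongrHom (Fin 3) (Fin 3)).range := by
  apply Equiv.Perm.mem_sumCongrHom_range_of_perm_mapsTo_inl
  rintro _ ⟨i, rfl⟩
  have h1 := isLeft_eq hF g.1 (.inl i)
  rw [side_of_mem hF g.2] at h1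
  have h2 : (Phi hF g.1 (.inl i)).isLeft = true := by rw [h1]; rfl
  obtain ⟨y, hy⟩ := Sum.isLeft_iff.1 h2
  exact ⟨y, hy.symm⟩

noncomputable def rho : Omega F (quadFormPlus 2 F) →* Equiv.Perm (Fin 3) × Equiv.Perm (Fin 3) :=
  ((MonoidHom.ofInjective (Equiv.Perm.sumCongrHom_injective (α := Fin 3) (β := Fin 3))).symm.toMonoidHom).comp
    (((Phi hF).comp (Omega F (quadFormPlus 2 F)).subtype).codRestrict _ (mem_range hF))

theorem rho_spec (g : Omega F (quadFormPlus 2 F)) :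
    Equiv.Perm.sumCongr (rho hF g).1 (rho hF g).2 = Phi hF g.1 := by
  have h1 := MulEquiv.apply_symm_apply
    (MonoidHom.ofInjective (Equiv.Perm.sumCongrHom_injective (α := Fin 3) (β := Fin 3)))
    ((((Phi hF).comp (Omega F (quadFormPlus 2 F)).subtype).codRestrict _ (mem_range hF)) g)
  exact congrArg Subtype.val h1

end

end Cfsg.Agent.Lib.H41O4
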