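import Cfsg.Agent.Lib.H41O4a

/-!
# The degenerate groups `Ω₂⁺(q)` and `Ω₄⁺(2)`, part 2 (helper41)
-/

set_option autoImplicit false

namespace Cfsg.Agent.Lib.H41O4

open Cfsg Matrix

variable {F : Type*} [Field F]

theorem eq_one_of_fix [CharP F 2] (M : Matrix (Fin 2 ⊕ Fin 2) (Fin 2 ⊕ Fin 2) F) (h : ∀ i, M *ᵥ N F i = N F i) :
    M = 1 := by
  have h2 : ∀ x : F, x + x = 0 := CharTwo.add_self_eq_zero
  have e2 : (Pi.single (.inl 1) 1 : Fin 2 ⊕ Fin 2 → F) = N F (.inl 0) + N F (.inr 1) := by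
    funext i; rcases i with i | i <;> fin_cases i <;> simp [N, h2, Pi.single_apply]
  have f2 : (Pi.single (.inr 1) 1 : Fin 2 ⊕ Fin 2 → F) = N F (.inl 0) + N F (.inr 2) := by
    funext i; rcases i with i | i <;> fin_cases i <;> simp [N, h2, Pi.single_apply]
  have e1 : (Pi.single (.inl 0) 1 : Fin 2 ⊕ Fin 2 → F) = N F (.inl 1) + N F (.inr 0) := by
    funext i; rcases i with i | i <;> fin_cases i <;> simp [N, h2, Pi.single_apply]
  have f1 : (Pi.single (.inr 0) 1 : Fin 2 ⊕ Fin 2 → F) = N F (.inl 2) + N F (.inr 0) := by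
    funext i; rcases i with i | i <;> fin_cases i <;> simp [N, h2, Pi.single_apply]
  apply Matrix.ext_of_mulVec_single
  intro j
  rw [Matrix.one_mulVec]
  rcases j with j | j <;> fin_cases j
  · show M *ᵥ (Pi.single (.inl 0) 1) = _
    rw [e1, Matrix.mulVec_add, h, h, ← e1]; rfl
  · show M *ᵥ (Pi.single (.inl 1) 1) = _
    rw [e2, Matrix.mulVec_add, h, h, ← e2]; rfl
  · show M *ᵥ (Pi.single (.inr 0) 1) = _
    rw [f1, Matrix.mulVec_add, h, h, ← f1]; rfl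
  · show M *ᵥ (Pi.single (.inr 1) 1) = _
    rw [f2, Matrix.mulVec_add, h, h, ← f2]; rfl

/-- an involutory matrix as an element of the isometry group -/
def mk (M : Matrix (Fin 2 ⊕ Fin 2) (Fin 2 ⊕ Fin 2) F) (hM : M * M = 1)
    (hq : ∀ v, quadFormPlus 2 F (M *ᵥ v) = quadFormPlus 2 F v) : O4 F :=
  ⟨⟨M, M, hM, hM⟩, fun u _ => hq u⟩

/-- swap of `e₁` and `f₁` -/
def T1 (F : Type*) [Field F] : Matrix (Fin 2 ⊕ Fin 2) (Fin 2 ⊕ Fin 2) F :=
  Matrix.fromBlocks !![0, 0; 0, 1] !![1, 0; 0, 0] !![1, 0; 0, 0] !![0, 0; 0, 1]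

/-- swap of the indices `1`, `2` -/
def T2 (F : Type*) [Field F] : Matrix (Fin 2 ⊕ Fin 2) (Fin 2 ⊕ Fin 2) F :=
  Matrix.fromBlocks !![0, 1; 1, 0] 0 0 !![0, 1; 1, 0]

/-- reflection in `e₁ + e₂ + f₂` -/
def T3 (F : Type*) [Field F] : Matrix (Fin 2 ⊕ Fin 2) (Fin 2 ⊕ Fin 2) F :=
  Matrix.fromBlocks !![1, 1; 0, 0] !![1, 1; 1, 1] !![0, 0; 0, 1] !![1, 0; 1, 0]

theorem T1_sq : T1 F * T1 F = 1 := by
  ext i j
  rcases i with i | i <;> rcases j with j | j <;> fin_cases i <;> fin_cases j <;>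
    simp [T1, Matrix.mul_apply, Fin.sum_univ_two, Matrix.one_apply]

theorem T2_sq : T2 F * T2 F = 1 := by
  ext i j
  rcases i with i | i <;> rcases j with j | j <;> fin_cases i <;> fin_cases j <;>
    simp [T2, Matrix.mul_apply, Fin.sum_univ_two, Matrix.one_apply]

theorem T3_sq [CharP F 2] : T3 F * T3 F = 1 := by
  have h2 : (1 : F) + 1 = 0 := CharTwo.add_self_eq_zero 1
  ext i j
  rcases i with i | i <;> rcases j with j | j <;> fin_cases i <;> fin_cases j <;>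
    simp [T3, Matrix.mul_apply, Fin.sum_univ_two, Matrix.one_apply, h2]

theorem T1_q (v : Fin 2 ⊕ Fin 2 → F) : quadFormPlus 2 F (T1 F *ᵥ v) = quadFormPlus 2 F v := by
  simp [qf, T1, Matrix.mulVec, dotProduct, Fin.sum_univ_two]
  ring

theorem T2_q (v : Fin 2 ⊕ Fin 2 → F) : quadFormPlus 2 F (T2 F *ᵥ v) = quadFormPlus 2 F v := by
  simp [qf, T2, Matrix.mulVec, dotProduct, Fin.sum_univ_two]
  ring

theorem T3_q [CharP F 2] (v : Fin 2 ⊕ Fin 2 → F) : quadFormPlus 2 F (T3 F *ᵥ v) = quadFormPlus 2 F v := by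
  have h2 : (2 : F) = 0 := CharTwo.two_eq_zero
  simp [qf, T3, Matrix.mulVec, dotProduct, Fin.sum_univ_two]
  linear_combination (v (.inr 0) * v (.inl 1) + v (.inr 0) * v (.inr 1) + v (.inr 0) ^ 2) * h2

variable [CharP F 2] (hF : ∀ x : F, x = 0 ∨ x = 1)

def g1 (F : Type*) [Field F] [CharP F 2] : O4 F := mk (T1 F) T1_sq T1_q
def g2 (F : Type*) [Field F] [CharP F 2] : O4 F := mk (T2 F) T2_sq T2_q
def g3 (F : Type*) [Field F] [CharP F 2] : O4 F := mk (T3 F) T3_sq T3_q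

theorem Phi_eq {g : O4 F} {σ : Equiv.Perm (Fin 3 ⊕ Fin 3)}
    (h : ∀ i, (g.1 : Matrix (Fin 2 ⊕ Fin 2) (Fin 2 ⊕ Fin 2) F) *ᵥ N F i = N F (σ i)) : Phi hF g = σ := by
  ext i : 1
  apply N_inj (F := F)
  rw [Phi_spec, h]

/-- `(1 2)` on the left -/
theorem Phi_g1 : Phi hF (g1 F) = Equiv.Perm.sumCongr (Equiv.swap 1 2) 1 := by
  apply Phi_eq
  intro i
  show T1 F *ᵥ _ = _
  rcases i with i | i <;> fin_cases i <;> funext j <;> rcases j with j | j <;> fin_cases j <;>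
    simp [N, T1, Matrix.mulVec, dotProduct, Fin.sum_univ_two, Equiv.swap_apply_def]

theorem Phi_g2 : Phi hF (g2 F) = Equiv.sumComm (Fin 3) (Fin 3) := by
  apply Phi_eq
  intro i
  show T2 F *ᵥ _ = _
  rcases i with i | i <;> fin_cases i <;> funext j <;> rcases j with j | j <;> fin_cases j <;>
    simp [N, T2, Matrix.mulVec, dotProduct, Fin.sum_univ_two]

theorem Phi_g3 : Phi hF (g3 F) = Equiv.Perm.sumCongr (Equiv.swap 0 2) 1 := by
  have h2 : (1 : F) + 1 = 0 := CharTwo.add_self_eq_zero 1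
  apply Phi_eq
  intro i
  show T3 F *ᵥ _ = _
  rcases i with i | i <;> fin_cases i <;> funext j <;> rcases j with j | j <;> fin_cases j <;>
    simp [N, T3, Matrix.mulVec, dotProduct, Fin.sum_univ_two, Equiv.swap_apply_def, h2]

end Cfsg.Agent.Lib.H41O4
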