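import Cfsg.Agent.Lib.H41O4b

/-!
# The degenerate groups `Ω₂⁺(q)` and `Ω₄⁺(2)`, part 3 (helper41)
-/

set_option autoImplicit false

namespace Cfsg.Agent.Lib.H41O4

open Cfsg Matrix
open scoped commutatorElement

section two
variable {F : Type*} [Field F] [CharP F 2] (hF : ∀ x : F, x = 0 ∨ x = 1)

noncomputable def rho1 : Omega F (quadFormPlus 2 F) →* Equiv.Perm (Fin 3) := (MonoidHom.fst _ _).comp (rho hF)

theorem rho1_eq {g : Omega F (quadFormPlus 2 F)} {σ τ : Equiv.Perm (Fin 3)}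
    (h : Phi hF g.1 = Equiv.Perm.sumCongr σ τ) : rho1 hF g = σ := by
  have h1 := rho_spec hF g
  rw [h] at h1
  have h2 : rho hF g = (σ, τ) := Equiv.Perm.sumCongrHom_injective h1
  show (rho hF g).1 = σ
  rw [h2]

theorem dec1 : ∀ τ : Equiv.Perm (Fin 3), τ * τ = 1 → Equiv.Perm.sign τ = 1 → τ = 1 := by decide

theorem eq_one {g : Omega F (quadFormPlus 2 F)} (h1 : rho1 hF g = 1) (h2 : g * g = 1) : g = 1 := by
  have h3 := rho_spec hF g
  have h4 : (rho hF g).1 = 1 := h1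
  have h5 : (rho hF g).2 = 1 := by
    apply dec1
    · rw [← Prod.snd_mul, ← map_mul, h2, map_one]; rfl
    · have h6 := sign_of_mem hF g.2
      rw [← h3, Equiv.Perm.sign_sumCongr, h4, map_one, one_mul] at h6
      exact h6
  have h6 : Phi hF g.1 = 1 := by
    rw [← h3, h4, h5]; exact Equiv.Perm.sumCongr_one
  have h7 : (g.1.1 : Matrix (Fin 2 ⊕ Fin 2) (Fin 2 ⊕ Fin 2) F) = 1 := by
    apply eq_one_of_fix
    intro i
    rw [← Phi_spec hF, h6]; rfl
  apply Subtype.ext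
  apply Subtype.ext
  exact Units.ext h7

theorem odd_ker : ¬ 2 ∣ Nat.card (rho1 hF).ker := by
  have : Finite F := by
    apply Finite.of_finite_univ
    apply Set.Finite.subset (Set.toFinite {0, 1})
    intro x _
    exact hF x
  intro h
  obtain ⟨x, hx⟩ := exists_prime_orderOf_dvd_card' 2 h
  have h1 : (x : Omega F (quadFormPlus 2 F)) * x = 1 := by
    have := pow_orderOf_eq_one x
    rw [hx, pow_two] at this
    exact congrArg Subtype.val this
  have h2 := eq_one hF x.2 h1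
  have h3 : x = 1 := Subtype.ext h2
  rw [h3, orderOf_one] at hx
  exact absurd hx (by decide)

theorem comm_mem (a b : O4 F) : ⁅a, b⁆ ∈ Omega F (quadFormPlus 2 F) :=
  Subgroup.commutator_mem_commutator (Subgroup.mem_top a) (Subgroup.mem_top b)

def cyc3 : Equiv.Perm (Fin 3) := Equiv.swap 1 2 * Equiv.swap 0 2 * Equiv.swap 1 2 * Equiv.swap 0 2

theorem rho1_c1 : rho1 hF ⟨⁅g1 F, g3 F⁆, comm_mem _ _⟩ = cyc3 := by
  apply rho1_eq (τ := 1)
  show Phi hF ⁅g1 F, g3 F⁆ = _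
  rw [map_commutatorElement, Phi_g1, Phi_g3, commutatorElement_def]
  unfold cyc3
  decide

theorem rho1_c2 : rho1 hF ⟨⁅g1 F, g2 F⁆, comm_mem _ _⟩ = Equiv.swap 1 2 := by
  apply rho1_eq (τ := Equiv.swap 1 2)
  show Phi hF ⁅g1 F, g2 F⁆ = _
  rw [map_commutatorElement, Phi_g1, Phi_g2, commutatorElement_def]
  decide

theorem dec2 : ∀ σ : Equiv.Perm (Fin 3), ∃ i : Fin 2, ∃ j : Fin 3,
    σ = (Equiv.swap 1 2) ^ (i : ℕ) * cyc3 ^ (j : ℕ) := by decide

theorem rho1_surj : Function.Surjective (rho1 hF) := by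
  intro σ
  obtain ⟨i, j, h⟩ := dec2 σ
  refine ⟨⟨⁅g1 F, g2 F⁆, comm_mem _ _⟩ ^ (i : ℕ) * ⟨⁅g1 F, g3 F⁆, comm_mem _ _⟩ ^ (j : ℕ), ?_⟩
  rw [map_mul, map_pow, map_pow, rho1_c1, rho1_c2, h]

theorem dec3 : ∀ σ : Equiv.Perm (Fin 3), (∀ τ, σ * τ = τ * σ) → σ = 1 := by decide

theorem rho1_center {z : Omega F (quadFormPlus 2 F)} (hz : z ∈ Subgroup.center (Omega F (quadFormPlus 2 F))) :
    rho1 hF z = 1 := by
  apply dec3
  intro τ
  obtain ⟨g, rfl⟩ := rho1_surj hF τ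
  rw [← map_mul, ← map_mul, Subgroup.mem_center_iff.1 hz g]

noncomputable def rb : POmega F (quadFormPlus 2 F) →* Equiv.Perm (Fin 3) :=
  QuotientGroup.lift _ (rho1 hF) (fun _ hz => rho1_center hF hz)

theorem rb_mk (g : Omega F (quadFormPlus 2 F)) :
    rb hF (g : POmega F (quadFormPlus 2 F)) = rho1 hF g := rfl

theorem rb_surj : Function.Surjective (rb hF) := by
  intro σ
  obtain ⟨g, hg⟩ := rho1_surj hF σ
  exact ⟨(g : POmega F (quadFormPlus 2 F)), hg⟩

theorem odd_of_ker {x : POmega F (quadFormPlus 2 F)} (hx : rb hF x = 1) : ¬ 2 ∣ orderOf x := by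
  obtain ⟨g, rfl⟩ := QuotientGroup.mk_surjective x
  intro h
  have hg : g ∈ (rho1 hF).ker := hx
  have h1 : orderOf (QuotientGroup.mk g : POmega F (quadFormPlus 2 F)) ∣ orderOf g :=
    orderOf_map_dvd (QuotientGroup.mk' (Subgroup.center (Omega F (quadFormPlus 2 F)))) g
  have h2 : orderOf g ∣ Nat.card (rho1 hF).ker := by
    have := orderOf_dvd_natCard (⟨g, hg⟩ : (rho1 hF).ker)
    rwa [Subgroup.orderOf_mk] at this
  exact odd_ker hF (h.trans (h1.trans h2))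

theorem odd_ker_rb : ¬ 2 ∣ Nat.card (rb hF).ker := by
  have : Finite F := by
    apply Finite.of_finite_univ
    apply Set.Finite.subset (Set.toFinite {0, 1})
    intro x _
    exact hF x
  intro h
  obtain ⟨x, hx⟩ := exists_prime_orderOf_dvd_card' 2 h
  have h1 := odd_of_ker hF x.2
  rw [Subgroup.orderOf_coe, hx] at h1
  exact h1 dvd_rfl

theorem dec4 : ∀ σ : Equiv.Perm (Fin 3), σ ≠ 1 → σ * σ = 1 →
    (Finset.univ.filter (fun a : Fin 3 => σ a = a)).card = 1 := by decide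

theorem card_fix (σ : Equiv.Perm (Fin 3)) :
    Nat.card (MulAction.fixedBy (Fin 3) σ) = (Finset.univ.filter (fun a : Fin 3 => σ a = a)).card := by
  rw [Nat.card_eq_fintype_card, ← Set.toFinset_card]
  congr 1
  ext a
  simp [MulAction.mem_fixedBy, Equiv.Perm.smul_def]

theorem irr_S3 : IsIrrCharacter (Equiv.Perm (Fin 3))
    (fun g => (Nat.card (MulAction.fixedBy (Fin 3) g) : ℂ) - 1) := by
  apply (Cfsg.Agent.S0157.result (G := Equiv.Perm (Fin 3)) (Fin 3) (by simp)).2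
  exact Equiv.Perm.isMultiplyPretransitive (Fin 3) 2

include hF in
theorem exists_two : ∃ χ : POmega F (quadFormPlus 2 F) → ℂ, IsIrrCharacter (POmega F (quadFormPlus 2 F)) χ ∧
    ∀ P : Sylow 2 (POmega F (quadFormPlus 2 F)), χ 1 = Nat.card P ∧
      ∀ x : POmega F (quadFormPlus 2 F), x ∈ P → x ≠ 1 → χ x = 0 := by
  have : Finite F := by
    apply Finite.of_finite_univ
    apply Set.Finite.subset (Set.toFinite {0, 1})
    intro x _
    exact hF x
  refine ⟨_, irr_S3.comp_surjective (rb hF) (rb_surj hF), fun P => ?_⟩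
  have hP : Nat.card P = 2 := by
    rw [Sylow.card_eq_multiplicity]
    have h1 := (rb hF).ker.card_mul_index
    rw [Subgroup.index_ker, MonoidHom.range_eq_top.2 (rb_surj hF), Subgroup.card_top] at h1
    have h2 : Nat.card (Equiv.Perm (Fin 3)) = 6 := by
      rw [Nat.card_eq_fintype_card, Fintype.card_perm]; rfl
    rw [← h1, h2, Nat.factorization_mul Nat.card_pos.ne' (by norm_num), Finsupp.add_apply,
      Nat.factorization_eq_zero_of_not_dvd (odd_ker_rb hF), zero_add]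
    have h3 : Nat.factorization 6 2 = 1 := by
      rw [show 6 = 2 * 3 by norm_num, Nat.factorization_mul (by norm_num) (by norm_num), Finsupp.add_apply,
        Nat.Prime.factorization_self Nat.prime_two, Nat.factorization_eq_zero_of_not_dvd (by norm_num)]
    rw [h3]; norm_num
  refine ⟨?_, ?_⟩
  · show (Nat.card (MulAction.fixedBy (Fin 3) (rb hF 1)) : ℂ) - 1 = _
    rw [map_one, card_fix, hP]
    simp
    norm_num
  · intro x hx hx1
    show (Nat.card (MulAction.fixedBy (Fin 3) (rb hF x)) : ℂ) - 1 = 0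
    have h1 : orderOf x ∣ 2 := by
      have := orderOf_dvd_natCard (⟨x, hx⟩ : P)
      rw [Subgroup.orderOf_mk] at this
      exact this.trans (dvd_of_eq hP)
    have h2 : orderOf x = 2 := by
      rcases (Nat.dvd_prime Nat.prime_two).1 h1 with h | h
      · exact absurd (orderOf_eq_one_iff.1 h) hx1
      · exact h
    have h3 : rb hF x ≠ 1 := by
      intro h
      exact odd_of_ker hF h (by rw [h2])
    have h4 : rb hF x * rb hF x = 1 := by
      have h5 := pow_orderOf_eq_one x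
      rw [h2, pow_two] at h5
      rw [← map_mul, h5, map_one]
    rw [card_fix, dec4 _ h3 h4]
    simp

end two

section one
variable {F : Type*} [Field F]

theorem qf1 (v : Fin 1 ⊕ Fin 1 → F) : quadFormPlus 1 F v = v (.inl 0) * v (.inr 0) := by
  simp [quadFormPlus]

abbrev O2 (F : Type*) [Field F] := isometryGroup F (quadFormPlus 1 F)

theorem shape (g : O2 F) : let M := (g.1 : Matrix (Fin 1 ⊕ Fin 1) (Fin 1 ⊕ Fin 1) F)
    (M (.inl 0) (.inr 0) = 0 ∧ M (.inr 0) (.inl 0) = 0 ∧ M (.inl 0) (.inl 0) ≠ 0 ∧ M (.inr 0) (.inr 0) ≠ 0) ∨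
    (M (.inl 0) (.inl 0) = 0 ∧ M (.inr 0) (.inr 0) = 0 ∧ M (.inl 0) (.inr 0) ≠ 0 ∧ M (.inr 0) (.inl 0) ≠ 0) := by
  intro M
  have hq : ∀ v, quadFormPlus 1 F (M *ᵥ v) = quadFormPlus 1 F v := fun v => g.2 v v
  have h1 := hq (Sum.elim ![1] ![0])
  have h2 := hq (Sum.elim ![0] ![1])
  have h3 := hq (Sum.elim ![1] ![1])
  simp [qf1, Matrix.mulVec, dotProduct] at h1 h2 h3
  set a := M (.inl 0) (.inl 0)
  set b := M (.inl 0) (.inr 0)
  set c := M (.inr 0) (.inl 0)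
  set d := M (.inr 0) (.inr 0)
  by_cases ha : a = 0
  · right
    rw [ha, zero_add] at h3
    have hb : b ≠ 0 := left_ne_zero_of_mul_eq_one h3
    have hd : d = 0 := by tauto
    rw [hd, add_zero] at h3
    exact ⟨ha, hd, hb, right_ne_zero_of_mul_eq_one h3⟩
  · left
    have hc : c = 0 := by tauto
    rw [hc, zero_add] at h3
    have hd : d ≠ 0 := right_ne_zero_of_mul_eq_one h3
    have hb : b = 0 := by tauto
    exact ⟨hb, hc, ha, hd⟩

open Classical in
noncomputable def del : O2 F →* ℤˣ where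
  toFun g := if (g.1 : Matrix (Fin 1 ⊕ Fin 1) (Fin 1 ⊕ Fin 1) F) (.inl 0) (.inr 0) = 0 then 1 else -1
  map_one' := by simp [Matrix.one_apply]
  map_mul' g h := by
    have h1 := shape g
    have h2 := shape h
    have h3 : ((g * h).1 : Matrix (Fin 1 ⊕ Fin 1) (Fin 1 ⊕ Fin 1) F) (.inl 0) (.inr 0) =
        (g.1 : Matrix (Fin 1 ⊕ Fin 1) (Fin 1 ⊕ Fin 1) F) (.inl 0) (.inl 0) *
          (h.1 : Matrix (Fin 1 ⊕ Fin 1) (Fin 1 ⊕ Fin 1) F) (.inl 0) (.inr 0) +
        (g.1 : Matrix (Fin 1 ⊕ Fin 1) (Fin 1 ⊕ Fin 1) F) (.inl 0) (.inr 0) *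
          (h.1 : Matrix (Fin 1 ⊕ Fin 1) (Fin 1 ⊕ Fin 1) F) (.inr 0) (.inr 0) := by
      rw [Subgroup.coe_mul, Units.val_mul, Matrix.mul_apply]
      simp
    rw [h3]
    rcases h1 with ⟨a1, a2, a3, a4⟩ | ⟨a1, a2, a3, a4⟩ <;> rcases h2 with ⟨b1, b2, b3, b4⟩ | ⟨b1, b2, b3, b4⟩ <;>
      simp [a1, a2, a3, a4, b1, b2, b3, b4]

theorem diag {g : O2 F} (hg : g ∈ commutator (O2 F)) :
    (g.1 : Matrix (Fin 1 ⊕ Fin 1) (Fin 1 ⊕ Fin 1) F) (.inl 0) (.inr 0) = 0 ∧
    (g.1 : Matrix (Fin 1 ⊕ Fin 1) (Fin 1 ⊕ Fin 1) F) (.inr 0) (.inl 0) = 0 := by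
  classical
  have h1 := Abelianization.commutator_subset_ker (del (F := F)) hg
  rw [MonoidHom.mem_ker] at h1
  have h2 : (g.1 : Matrix (Fin 1 ⊕ Fin 1) (Fin 1 ⊕ Fin 1) F) (.inl 0) (.inr 0) = 0 := by
    by_contra h2
    have h3 : del g = -1 := if_neg h2
    rw [h3] at h1
    exact absurd h1 (by decide)
  rcases shape g with ⟨a1, a2, a3, a4⟩ | ⟨a1, a2, a3, a4⟩
  · exact ⟨a1, a2⟩
  · exact absurd h2 a3

theorem omega_comm (g h : Omega F (quadFormPlus 1 F)) : g * h = h * g := by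
  obtain ⟨a1, a2⟩ := diag g.2
  obtain ⟨b1, b2⟩ := diag h.2
  apply Subtype.ext
  apply Subtype.ext
  apply Units.ext
  show (g.1.1 : Matrix (Fin 1 ⊕ Fin 1) (Fin 1 ⊕ Fin 1) F) * (h.1.1 : Matrix (Fin 1 ⊕ Fin 1) (Fin 1 ⊕ Fin 1) F) =
    (h.1.1 : Matrix (Fin 1 ⊕ Fin 1) (Fin 1 ⊕ Fin 1) F) * (g.1.1 : Matrix (Fin 1 ⊕ Fin 1) (Fin 1 ⊕ Fin 1) F)
  ext i j
  rw [Matrix.mul_apply, Matrix.mul_apply]
  rcases i with i | i <;> rcases j with j | j <;> fin_cases i <;> fin_cases j <;>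
    simp [a1, a2, b1, b2, mul_comm]

theorem subs : Subsingleton (POmega F (quadFormPlus 1 F)) := by
  have h1 : Subgroup.center (Omega F (quadFormPlus 1 F)) = ⊤ := by
    rw [eq_top_iff]
    intro g _
    rw [Subgroup.mem_center_iff]
    intro h
    exact omega_comm h g
  refine ⟨fun x y => ?_⟩
  obtain ⟨g, rfl⟩ := QuotientGroup.mk_surjective x
  obtain ⟨h, rfl⟩ := QuotientGroup.mk_surjective y
  rw [QuotientGroup.eq, h1]
  exact Subgroup.mem_top _

theorem exists_one [Finite F] (p : ℕ) [Fact p.Prime] : ∃ χ : POmega F (quadFormPlus 1 F) → ℂ,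
    IsIrrCharacter (POmega F (quadFormPlus 1 F)) χ ∧
    ∀ P : Sylow p (POmega F (quadFormPlus 1 F)), χ 1 = Nat.card P ∧
      ∀ x : POmega F (quadFormPlus 1 F), x ∈ P → x ≠ 1 → χ x = 0 := by
  have := subs (F := F)
  refine ⟨1, Cfsg.Agent.Lib.CharBasic.isIrrCharacter_one, fun P => ⟨?_, fun x _ hx => absurd (Subsingleton.elim _ _) hx⟩⟩
  have h1 : Nat.card (P : Subgroup (POmega F (quadFormPlus 1 F))) = 1 := Nat.card_of_subsingleton 1
  rw [h1]
  simp

end one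

end Cfsg.Agent.Lib.H41O4
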