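import Mathlib
import Cfsg.Agent.Lib.H43FourA

/-!
# Four-transitive groups with odd four-point stabilizer (helper43), part B

Transitivity of involution centralizers.
-/

set_option autoImplicit false
set_option linter.unusedSectionVars false

namespace Cfsg.Agent.Lib.H43FourB

open Subgroup Equiv Cfsg.Agent.Lib.H43FourA

variable {α : Type*} [Fintype α] [DecidableEq α]

/-- The pointwise stabilizer in `G` of the four points `e`. -/
def Kst (G : Subgroup (Perm α)) (e : Fin 4 ↪ α) : Subgroup (Perm α) where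
  carrier := {g | g ∈ G ∧ ∀ i, g (e i) = e i}
  one_mem' := ⟨G.one_mem, fun _ => rfl⟩
  mul_mem' := by
    rintro a b ⟨ha, ha'⟩ ⟨hb, hb'⟩
    exact ⟨G.mul_mem ha hb, fun i => by rw [Perm.mul_apply, hb', ha']⟩
  inv_mem' := by
    rintro a ⟨ha, ha'⟩
    refine ⟨G.inv_mem ha, fun i => ?_⟩
    rw [Perm.inv_eq_iff_eq]
    exact (ha' i).symm

theorem mem_Kst {G : Subgroup (Perm α)} {e : Fin 4 ↪ α} {g : Perm α} :
    g ∈ Kst G e ↔ g ∈ G ∧ ∀ i, g (e i) = e i := Iff.rfl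

/-- The hypotheses: `G` is 4-transitive, 4-point stabilizers are odd. -/
structure Hyp (G : Subgroup (Perm α)) : Prop where
  trans : ∀ e e' : Fin 4 ↪ α, ∃ g ∈ G, ∀ i, g (e i) = e' i
  odd : ∀ e : Fin 4 ↪ α, ¬ 2 ∣ Nat.card (Kst G e)

/-- `s` permutes the four points `e` through `σ`. -/
def Pat (s : Perm α) (e : Fin 4 ↪ α) (σ : Perm (Fin 4)) : Prop := ∀ i, s (e i) = e (σ i)

theorem Pat.mul {s t : Perm α} {e : Fin 4 ↪ α} {σ τ : Perm (Fin 4)} (hs : Pat s e σ)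
    (ht : Pat t e τ) : Pat (s * t) e (σ * τ) := by
  intro i
  rw [Perm.mul_apply, ht i, hs (τ i), Perm.mul_apply]

theorem Pat.inv {s : Perm α} {e : Fin 4 ↪ α} {σ : Perm (Fin 4)} (hs : Pat s e σ) :
    Pat s⁻¹ e σ⁻¹ := by
  intro i
  rw [Perm.inv_eq_iff_eq, hs (σ⁻¹ i)]
  simp

theorem Pat.conj {s g : Perm α} {e e' : Fin 4 ↪ α} {σ : Perm (Fin 4)} (hs : Pat s e σ)
    (hg : ∀ i, g (e i) = e' i) : Pat (g * s * g⁻¹) e' σ := by
  intro i
  have : g⁻¹ (e' i) = e i := by rw [Perm.inv_eq_iff_eq]; exact (hg i).symm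
  rw [Perm.mul_apply, Perm.mul_apply, this, hs i, hg]

theorem Pat.pow {s : Perm α} {e : Fin 4 ↪ α} {σ : Perm (Fin 4)} (hs : Pat s e σ) (n : ℕ) :
    Pat (s ^ n) e (σ ^ n) := by
  induction n with
  | zero => intro i; simp
  | succ n ih => rw [pow_succ, pow_succ]; exact ih.mul hs

variable {G : Subgroup (Perm α)}

theorem normal_aux {e : Fin 4 ↪ α} {s : Perm α} (hsG : s ∈ G) {σ : Perm (Fin 4)} (hs : Pat s e σ) :
    ∀ k ∈ Kst G e, s * k * s⁻¹ ∈ Kst G e := by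
  rintro k ⟨hk, hk'⟩
  refine ⟨G.mul_mem (G.mul_mem hsG hk) (G.inv_mem hsG), fun i => ?_⟩
  have h1 : s⁻¹ (e i) = e (σ⁻¹ i) := hs.inv i
  rw [Perm.mul_apply, Perm.mul_apply, h1, hk', hs]
  simp

theorem mem_normalizer_Kst {e : Fin 4 ↪ α} {s : Perm α} (hsG : s ∈ G) {σ : Perm (Fin 4)}
    (hs : Pat s e σ) : s ∈ normalizer (Kst G e : Set (Perm α)) := by
  rw [mem_normalizer_iff]
  intro k
  constructor
  · exact fun hk => normal_aux hsG hs k hk
  · intro hk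
    have := normal_aux (G.inv_mem hsG) hs.inv _ hk
    have h2 : s⁻¹ * (s * k * s⁻¹) * s⁻¹⁻¹ = k := by group
    rwa [h2] at this

/-- **Lemma B, one involution.** -/
theorem exists_one (h : Hyp G) {s t : Perm α} (hsG : s ∈ G) (htG : t ∈ G) (hs : s * s = 1)
    (ht : t * t = 1) {e e' : Fin 4 ↪ α} {σ : Perm (Fin 4)} (hσ : Pat s e σ) (hσ' : Pat t e' σ) :
    ∃ g ∈ G, (∀ i, g (e i) = e' i) ∧ g * s * g⁻¹ = t := by
  obtain ⟨g, hg, hge⟩ := h.trans e e'
  have h1 : Pat (g * s * g⁻¹) e' σ := hσ.conj hge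
  have hs1 : g * s * g⁻¹ * (g * s * g⁻¹) = 1 := by
    have : g * s * g⁻¹ * (g * s * g⁻¹) = g * (s * s) * g⁻¹ := by group
    rw [this, hs]; group
  have hσσ : σ * σ = 1 := by
    ext i
    have h2 := (hσ'.mul hσ') i
    rw [ht] at h2
    have h3 := e'.injective h2
    rw [← h3]; simp
  have hts : t * (g * s * g⁻¹) ∈ Kst G e' := by
    refine ⟨G.mul_mem htG (G.mul_mem (G.mul_mem hg hsG) (G.inv_mem hg)), fun i => ?_⟩
    rw [(hσ'.mul h1) i, hσσ]; simp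
  obtain ⟨k, hk, hk1⟩ := exists_conj (Kst G e') (h.odd e') hs1 ht (normal_aux htG hσ') hts
  refine ⟨k * g, G.mul_mem hk.1 hg, fun i => ?_, ?_⟩
  · rw [Perm.mul_apply, hge, hk.2]
  · rw [← hk1]; group

/-- **Lemma B, two commuting involutions.** -/
theorem exists_two (h : Hyp G) {s t s' t' : Perm α} (hsG : s ∈ G) (htG : t ∈ G) (hsG' : s' ∈ G)
    (htG' : t' ∈ G) (hs : s * s = 1) (ht : t * t = 1) (hs' : s' * s' = 1) (ht' : t' * t' = 1)
    (hst : s * t = t * s) (hst' : s' * t' = t' * s')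
    {e e' : Fin 4 ↪ α} {σ τ : Perm (Fin 4)} (hσ : Pat s e σ) (hσ' : Pat s' e' σ)
    (hτ : Pat t e τ) (hτ' : Pat t' e' τ) :
    ∃ g ∈ G, (∀ i, g (e i) = e' i) ∧ g * s * g⁻¹ = s' ∧ g * t * g⁻¹ = t' := by
  obtain ⟨g, hg, hge, hgs⟩ := exists_one h hsG hsG' hs hs' hσ hσ'
  have h1 : Pat (g * t * g⁻¹) e' τ := hτ.conj hge
  have ht1 : g * t * g⁻¹ * (g * t * g⁻¹) = 1 := by
    have : g * t * g⁻¹ * (g * t * g⁻¹) = g * (t * t) * g⁻¹ := by group
    rw [this, ht]; group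
  have hττ : τ * τ = 1 := by
    ext i
    have h2 := (hτ'.mul hτ') i
    rw [ht'] at h2
    have h3 := e'.injective h2
    rw [← h3]; simp
  have hcs : s' * (g * t * g⁻¹) = (g * t * g⁻¹) * s' := by
    rw [← hgs]
    calc g * s * g⁻¹ * (g * t * g⁻¹) = g * (s * t) * g⁻¹ := by group
      _ = g * (t * s) * g⁻¹ := by rw [hst]
      _ = g * t * g⁻¹ * (g * s * g⁻¹) := by group
  have hts : t' * (g * t * g⁻¹) ∈ Kst G e' ⊓ centralizer {s'} := by
    refine Subgroup.mem_inf.mpr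
      ⟨⟨G.mul_mem htG' (G.mul_mem (G.mul_mem hg htG) (G.inv_mem hg)), fun i => ?_⟩, ?_⟩
    · rw [(hτ'.mul h1) i, hττ]; simp
    · rw [mem_centralizer_singleton_iff]
      rw [mul_assoc, ← hcs, ← mul_assoc, ← hst', mul_assoc]
  have hodd : ¬ 2 ∣ Nat.card ↥(Kst G e' ⊓ centralizer {s'}) := by
    intro hd
    exact h.odd e' (hd.trans (card_dvd_of_le inf_le_left))
  obtain ⟨k, hk, hk1⟩ := exists_conj (Kst G e' ⊓ centralizer {s'}) hodd ht1 ht' (by
    intro k hk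
    refine Subgroup.mem_inf.mpr ⟨normal_aux htG' hτ' k (Subgroup.mem_inf.mp hk).1, ?_⟩
    have hk2 := (Subgroup.mem_inf.mp hk).2
    rw [mem_centralizer_singleton_iff] at hk2 ⊢
    have e1 : t'⁻¹ * s' = s' * t'⁻¹ := by
      rw [inv_mul_eq_iff_eq_mul, ← mul_assoc, ← hst']; group
    calc t' * k * t'⁻¹ * s' = t' * k * (t'⁻¹ * s') := by group
      _ = t' * (k * s') * t'⁻¹ := by rw [e1]; group
      _ = (t' * s') * k * t'⁻¹ := by rw [hk2]; group
      _ = s' * (t' * k * t'⁻¹) := by rw [← hst']; group) hts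
  have hk2 := (Subgroup.mem_inf.mp hk).2
  have hk3 := (Subgroup.mem_inf.mp hk).1
  rw [mem_centralizer_singleton_iff] at hk2
  refine ⟨k * g, G.mul_mem hk3.1 hg, fun i => ?_, ?_, ?_⟩
  · rw [Perm.mul_apply, hge, hk3.2]
  · calc k * g * s * (k * g)⁻¹ = k * (g * s * g⁻¹) * k⁻¹ := by group
      _ = k * s' * k⁻¹ := by rw [hgs]
      _ = s' := by rw [hk2]; group
  · rw [← hk1]; group

/-- Involutions with a given pattern. -/
theorem exists_inv (h : Hyp G) {g : Perm α} (hg : g ∈ G) {e : Fin 4 ↪ α} {σ : Perm (Fin 4)}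
    (hσ : σ * σ = 1) (hp : Pat g e σ) :
    ∃ n : ℕ, g ^ n ∈ G ∧ g ^ n * g ^ n = 1 ∧ Pat (g ^ n) e σ := by
  have h2 : g * g ∈ Kst G e := by
    refine ⟨G.mul_mem hg hg, fun i => ?_⟩
    rw [(hp.mul hp) i, hσ]; simp
  have hN : Odd (Nat.card (Kst G e)) := by
    rw [← Nat.not_even_iff_odd, even_iff_two_dvd]; exact h.odd e
  refine ⟨Nat.card (Kst G e), G.pow_mem hg _, ?_, ?_⟩
  · have h3 : (⟨g * g, h2⟩ : Kst G e) ^ Nat.card (Kst G e) = 1 := pow_card_eq_one'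
    have h4 := congrArg (fun z : Kst G e => (z : Perm α)) h3
    simp only [SubmonoidClass.coe_pow, OneMemClass.coe_one] at h4
    rw [← pow_add, ← h4, ← pow_two, ← pow_mul]
    congr 1; ring
  · have h5 := hp.pow (Nat.card (Kst G e))
    obtain ⟨m, hm⟩ := hN
    have h6 : σ ^ Nat.card (Kst G e) = σ := by
      rw [hm, pow_succ, pow_mul, pow_two, hσ, one_pow, one_mul]
    rwa [h6] at h5

/-- Existence of the commuting pair `(s, t)` inducing `(2 3)` and `(0 1)` on `e`. -/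
theorem exists_pair (h : Hyp G) (e : Fin 4 ↪ α) : ∃ s ∈ G, ∃ t ∈ G, s * s = 1 ∧ t * t = 1 ∧
    s * t = t * s ∧ Pat s e (swap 2 3) ∧ Pat t e (swap 0 1) := by
  obtain ⟨g, hg, hge⟩ := h.trans e ((swap (2 : Fin 4) 3).toEmbedding.trans e)
  obtain ⟨n, hn1, hn2, hn3⟩ := exists_inv h hg (σ := swap 2 3) (by decide) (hge)
  obtain ⟨g', hg', hge'⟩ := h.trans e ((swap (0 : Fin 4) 1).toEmbedding.trans e)
  have hp' : Pat g' e (swap 0 1) := hge'
  have h1 : Pat (g' * g ^ n * g'⁻¹) e (swap 2 3) := by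
    have := (hp'.mul hn3).mul hp'.inv
    have e1 : (swap (0 : Fin 4) 1) * swap 2 3 * (swap 0 1)⁻¹ = swap 2 3 := by decide
    rwa [e1] at this
  have h2 : g' * g ^ n * g'⁻¹ * (g' * g ^ n * g'⁻¹) = 1 := by
    have : g' * g ^ n * g'⁻¹ * (g' * g ^ n * g'⁻¹) = g' * (g ^ n * g ^ n) * g'⁻¹ := by group
    rw [this, hn2]; group
  obtain ⟨k, hk, hke, hks⟩ := exists_one h (G.mul_mem (G.mul_mem hg' hn1) (G.inv_mem hg')) hn1 h2
    hn2 h1 hn3
  have hkp : Pat (k * g') e (swap 0 1) := by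
    intro i
    rw [Perm.mul_apply, hp' i, hke]
  obtain ⟨m, hm1, hm2, hm3⟩ := exists_inv h (G.mul_mem hk hg') (σ := swap 0 1) (by decide) hkp
  refine ⟨g ^ n, hn1, (k * g') ^ m, hm1, hn2, hm2, ?_, hn3, hm3⟩
  have hc : Commute (g ^ n) (k * g') := by
    change g ^ n * (k * g') = (k * g') * g ^ n
    have h3 : k * g' * g ^ n = g ^ n * (k * g') := by
      have := hks
      calc k * g' * g ^ n = (k * (g' * g ^ n * g'⁻¹) * k⁻¹) * (k * g') := by group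
        _ = g ^ n * (k * g') := by rw [this]
    exact h3.symm
  exact hc.pow_right m

end Cfsg.Agent.Lib.H43FourB
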