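import Mathlib
import Cfsg.Agent.Lib.H43FourB

/-!
# Four-transitive groups with odd four-point stabilizer (helper43), part C

Counting.
-/

set_option autoImplicit false
set_option linter.unusedSectionVars false

namespace Cfsg.Agent.Lib.H43FourC

open Subgroup Equiv Cfsg.Agent.Lib.H43FourA Cfsg.Agent.Lib.H43FourB

variable {α : Type*} [Fintype α] [DecidableEq α] {G : Subgroup (Perm α)}

theorem orbit_count {H S : Subgroup (Perm α)} {β : Type*} [MulAction (Perm α) β] [Fintype β]
    (b0 : β) (X : Finset β) (hX : ∀ b, b ∈ X ↔ ∃ h ∈ H, h • b0 = b)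
    (hS : ∀ g, g ∈ S ↔ g ∈ H ∧ g • b0 = b0) : Nat.card H = X.card * Nat.card S := by
  rw [Subgroup.card_eq_card_quotient_mul_card_subgroup (MulAction.stabilizer H b0),
    ← Nat.card_congr (MulAction.orbitEquivQuotientStabilizer H b0)]
  congr 1
  · have h1 : MulAction.orbit H b0 = (X : Set β) := by
      ext b
      rw [MulAction.mem_orbit_iff, Finset.mem_coe, hX]
      constructor
      · rintro ⟨h, hb⟩; exact ⟨h, h.2, hb⟩
      · rintro ⟨h, hh, hb⟩; exact ⟨⟨h, hh⟩, hb⟩
    rw [h1, Nat.card_eq_card_toFinset, Finset.toFinset_coe]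
  · refine Nat.card_congr ⟨fun g => ⟨g.1.1, (hS _).mpr ⟨g.1.2, ?_⟩⟩,
      fun g => ⟨⟨g.1, ((hS _).mp g.2).1⟩, ?_⟩, ?_, ?_⟩
    · exact MulAction.mem_stabilizer_iff.mp g.2
    · exact MulAction.mem_stabilizer_iff.mpr ((hS _).mp g.2).2
    · intro g; rfl
    · intro g; rfl

/-- four distinct points as an embedding -/
def mk4 (a b c d : α) (h : a ≠ b ∧ a ≠ c ∧ a ≠ d ∧ b ≠ c ∧ b ≠ d ∧ c ≠ d) : Fin 4 ↪ α :=
  ⟨![a, b, c, d], by
    obtain ⟨h1, h2, h3, h4, h5, h6⟩ := h
    intro i j
    fin_cases i <;> fin_cases j <;> simp [h1, h2, h3, h4, h5, h6, h1.symm, h2.symm, h3.symm,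
      h4.symm, h5.symm, h6.symm]⟩

/-- Fixed points. -/
def F (t : Perm α) : Finset α := t.supportᶜ

theorem mem_F {t : Perm α} {p : α} : p ∈ F t ↔ t p = p := by simp [F]

theorem mem_Fc {t : Perm α} {p : α} : p ∈ (F t)ᶜ ↔ t p ≠ p := by simp [F]

theorem card_F_conj (g t : Perm α) : (F (g * t * g⁻¹)).card = (F t).card := by
  unfold F
  rw [Finset.card_compl, Finset.card_compl, Perm.card_support_conj]

theorem app_app {t : Perm α} (ht : t * t = 1) (p : α) : t (t p) = p := by
  rw [← Perm.mul_apply, ht]; rfl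

theorem comm_app {s t : Perm α} (h : s * t = t * s) (p : α) : s (t p) = t (s p) := by
  rw [← Perm.mul_apply, h]; rfl

theorem pat_iff {s : Perm α} {a b c d : α} {h : a ≠ b ∧ a ≠ c ∧ a ≠ d ∧ b ≠ c ∧ b ≠ d ∧ c ≠ d}
    {σ : Perm (Fin 4)} : Pat s (mk4 a b c d h) σ ↔ (s a = mk4 a b c d h (σ 0) ∧
      s b = mk4 a b c d h (σ 1) ∧ s c = mk4 a b c d h (σ 2) ∧ s d = mk4 a b c d h (σ 3)) := by
  unfold Pat
  rw [Fin.forall_fin_succ, Fin.forall_fin_succ, Fin.forall_fin_succ, Fin.forall_fin_one]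
  rfl

/-- formula 1 -/
theorem count_one (h : Hyp G) {t : Perm α} (htG : t ∈ G) (ht : t * t = 1) {e : Fin 4 ↪ α}
    (hp : Pat t e (swap 2 3)) :
    Nat.card ↥(G ⊓ centralizer ({t} : Set (Perm α))) =
      ((F t).card * (F t).card - (F t).card) * ((F t)ᶜ).card *
        Nat.card ↥(Kst G e ⊓ centralizer ({t} : Set (Perm α))) := by
  have h0 : t (e 0) = e 0 := hp 0
  have h1 : t (e 1) = e 1 := hp 1
  have h2 : t (e 2) = e 3 := hp 2
  have h3 : t (e 3) = e 2 := hp 3
  rw [← Finset.offDiag_card, ← Finset.card_product]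
  refine orbit_count (β := (α × α) × α) ((e 0, e 1), e 2) _ ?_ ?_
  · rintro ⟨⟨a, b⟩, c⟩
    rw [Finset.mem_product, Finset.mem_offDiag, mem_F, mem_F, mem_Fc]
    constructor
    · rintro ⟨⟨ha, hb, hab⟩, hc⟩
      simp only at ha hb hab hc
      have hd : a ≠ b ∧ a ≠ c ∧ a ≠ t c ∧ b ≠ c ∧ b ≠ t c ∧ c ≠ t c := by
        refine ⟨hab, ?_, ?_, ?_, ?_, Ne.symm hc⟩
        · rintro rfl; exact hc ha
        · intro h'; apply hc
          have : t a = c := by rw [h', app_app ht]
          rw [ha] at this; rw [← this]; exact ha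
        · rintro rfl; exact hc hb
        · intro h'; apply hc
          have : t b = c := by rw [h', app_app ht]
          rw [hb] at this; rw [← this]; exact hb
      have hp' : Pat t (mk4 a b c (t c) hd) (swap 2 3) := by
        rw [pat_iff]
        exact ⟨ha, hb, rfl, app_app ht c⟩
      obtain ⟨g, hg, hge, hgt⟩ := exists_one h htG htG ht ht hp hp'
      refine ⟨g, Subgroup.mem_inf.mpr ⟨hg, ?_⟩, ?_⟩
      · rw [mem_centralizer_singleton_iff]
        calc g * t = g * t * g⁻¹ * g := by group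
          _ = t * g := by rw [hgt]
      · have g0 := hge 0
        have g1 := hge 1
        have g2 := hge 2
        rw [Prod.smul_mk, Prod.smul_mk]
        exact Prod.ext (Prod.ext g0 g1) g2
    · rintro ⟨g, hg, hgb⟩
      rw [Subgroup.mem_inf, mem_centralizer_singleton_iff] at hg
      rw [Prod.smul_mk, Prod.smul_mk] at hgb
      obtain ⟨hg', hgc⟩ := Prod.ext_iff.mp hgb
      obtain ⟨hga, hgb'⟩ := Prod.ext_iff.mp hg'
      simp only [Perm.smul_def] at hga hgb' hgc
      clear hgb hg'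
      subst hga hgb' hgc
      refine ⟨⟨?_, ?_, ?_⟩, ?_⟩
      · change t (g (e 0)) = g (e 0)
        rw [← comm_app hg.2, h0]
      · change t (g (e 1)) = g (e 1)
        rw [← comm_app hg.2, h1]
      · change g (e 0) ≠ g (e 1)
        intro h'; exact absurd (e.injective (g.injective h')) (by decide)
      · change t (g (e 2)) ≠ g (e 2)
        rw [← comm_app hg.2, h2]
        intro h'; exact absurd (e.injective (g.injective h')) (by decide)
  · intro g
    rw [Subgroup.mem_inf, Subgroup.mem_inf, mem_centralizer_singleton_iff, mem_Kst]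
    constructor
    · rintro ⟨⟨hg, hge⟩, hc⟩
      refine ⟨⟨hg, hc⟩, ?_⟩
      rw [Prod.smul_mk, Prod.smul_mk]
      exact Prod.ext (Prod.ext (hge 0) (hge 1)) (hge 2)
    · rintro ⟨⟨hg, hc⟩, hge⟩
      rw [Prod.smul_mk, Prod.smul_mk] at hge
      obtain ⟨hg', hgc⟩ := Prod.ext_iff.mp hge
      obtain ⟨hga, hgb⟩ := Prod.ext_iff.mp hg'
      simp only [Perm.smul_def] at hga hgb hgc
      refine ⟨⟨hg, ?_⟩, hc⟩
      rw [Fin.forall_fin_succ, Fin.forall_fin_succ, Fin.forall_fin_succ, Fin.forall_fin_one]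
      refine ⟨hga, hgb, hgc, ?_⟩
      change g (e 3) = e 3
      rw [← h2, comm_app hc, hgc]

/-- formula 2 -/
theorem count_two (h : Hyp G) {t : Perm α} (htG : t ∈ G) (ht : t * t = 1) {e : Fin 4 ↪ α}
    (hp : Pat t e (swap 0 1 * swap 2 3)) :
    Nat.card ↥(G ⊓ centralizer ({t} : Set (Perm α))) =
      (((F t)ᶜ).card * ((F t)ᶜ).card - ((F t)ᶜ).card - ((F t)ᶜ).card) *
        Nat.card ↥(Kst G e ⊓ centralizer ({t} : Set (Perm α))) := by
  have h0 : t (e 0) = e 1 := hp 0
  have h1 : t (e 1) = e 0 := hp 1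
  have h2 : t (e 2) = e 3 := hp 2
  have h3 : t (e 3) = e 2 := hp 3
  have hcard : ((F t)ᶜ.offDiag \ ((F t)ᶜ.image fun a => (a, t a))).card =
      ((F t)ᶜ).card * ((F t)ᶜ).card - ((F t)ᶜ).card - ((F t)ᶜ).card := by
    rw [Finset.card_sdiff_of_subset, Finset.offDiag_card, Finset.card_image_of_injective]
    · intro a b hab; exact (Prod.ext_iff.mp hab).1
    · intro x hx
      rw [Finset.mem_image] at hx
      obtain ⟨a, ha, rfl⟩ := hx
      rw [mem_Fc] at ha
      rw [Finset.mem_offDiag, mem_Fc, mem_Fc]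
      refine ⟨ha, ?_, Ne.symm ha⟩
      simp only
      intro h'; exact ha (t.injective h')
  rw [← hcard]
  refine orbit_count (β := α × α) (e 0, e 2) _ ?_ ?_
  · rintro ⟨a, c⟩
    rw [Finset.mem_sdiff, Finset.mem_offDiag, mem_Fc, mem_Fc, Finset.mem_image]
    constructor
    · rintro ⟨⟨ha, hc, hac⟩, hn⟩
      simp only at ha hc hac hn
      have hn' : t a ≠ c := by
        rintro rfl
        exact hn ⟨a, by rw [mem_Fc]; exact ha, rfl⟩
      have hd : a ≠ t a ∧ a ≠ c ∧ a ≠ t c ∧ t a ≠ c ∧ t a ≠ t c ∧ c ≠ t c := by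
        refine ⟨Ne.symm ha, hac, ?_, hn', ?_, Ne.symm hc⟩
        · intro h'; apply hn'; rw [h', app_app ht]
        · intro h'; exact hac (t.injective h')
      have hp' : Pat t (mk4 a (t a) c (t c) hd) (swap 0 1 * swap 2 3) := by
        rw [pat_iff]
        exact ⟨rfl, app_app ht a, rfl, app_app ht c⟩
      obtain ⟨g, hg, hge, hgt⟩ := exists_one h htG htG ht ht hp hp'
      refine ⟨g, Subgroup.mem_inf.mpr ⟨hg, ?_⟩, ?_⟩
      · rw [mem_centralizer_singleton_iff]
        calc g * t = g * t * g⁻¹ * g := by group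
          _ = t * g := by rw [hgt]
      · rw [Prod.smul_mk]
        exact Prod.ext (hge 0) (hge 2)
    · rintro ⟨g, hg, hgb⟩
      rw [Subgroup.mem_inf, mem_centralizer_singleton_iff] at hg
      rw [Prod.smul_mk] at hgb
      obtain ⟨hga, hgc⟩ := Prod.ext_iff.mp hgb
      simp only [Perm.smul_def] at hga hgc
      clear hgb
      subst hga hgc
      refine ⟨⟨?_, ?_, ?_⟩, ?_⟩
      · change t (g (e 0)) ≠ g (e 0)
        rw [← comm_app hg.2, h0]
        intro h'; exact absurd (e.injective (g.injective h')) (by decide)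
      · change t (g (e 2)) ≠ g (e 2)
        rw [← comm_app hg.2, h2]
        intro h'; exact absurd (e.injective (g.injective h')) (by decide)
      · change g (e 0) ≠ g (e 2)
        intro h'; exact absurd (e.injective (g.injective h')) (by decide)
      · rintro ⟨a, _, ha⟩
        obtain ⟨ha1, ha2⟩ := Prod.ext_iff.mp ha
        simp only at ha1 ha2
        rw [ha1, ← comm_app hg.2, h0] at ha2
        exact absurd (e.injective (g.injective ha2)) (by decide)
  · intro g
    rw [Subgroup.mem_inf, Subgroup.mem_inf, mem_centralizer_singleton_iff, mem_Kst]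
    constructor
    · rintro ⟨⟨hg, hge⟩, hc⟩
      refine ⟨⟨hg, hc⟩, ?_⟩
      rw [Prod.smul_mk]
      exact Prod.ext (hge 0) (hge 2)
    · rintro ⟨⟨hg, hc⟩, hge⟩
      rw [Prod.smul_mk] at hge
      obtain ⟨hga, hgc⟩ := Prod.ext_iff.mp hge
      simp only [Perm.smul_def] at hga hgc
      refine ⟨⟨hg, ?_⟩, hc⟩
      rw [Fin.forall_fin_succ, Fin.forall_fin_succ, Fin.forall_fin_succ, Fin.forall_fin_one]
      refine ⟨hga, ?_, hgc, ?_⟩
      · change g (e 1) = e 1
        rw [← h0, comm_app hc, hga]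
      · change g (e 3) = e 3
        rw [← h2, comm_app hc, hgc]

/-- formula 3 -/
theorem count_three (h : Hyp G) {s t : Perm α} (hsG : s ∈ G) (htG : t ∈ G) (hs : s * s = 1)
    (ht : t * t = 1) (hst : s * t = t * s) {e : Fin 4 ↪ α}
    (hp : Pat s e (swap 2 3)) (hq : Pat t e (swap 0 1)) :
    Nat.card ↥(G ⊓ (centralizer ({s} : Set (Perm α)) ⊓ centralizer ({t} : Set (Perm α)))) =
      ((F s \ F t).card * (F t \ F s).card) *
        Nat.card ↥(Kst G e ⊓ (centralizer ({s} : Set (Perm α)) ⊓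
          centralizer ({t} : Set (Perm α)))) := by
  have s0 : s (e 0) = e 0 := hp 0
  have s2 : s (e 2) = e 3 := hp 2
  have t0 : t (e 0) = e 1 := hq 0
  have t2 : t (e 2) = e 2 := hq 2
  rw [← Finset.card_product]
  refine orbit_count (β := α × α) (e 0, e 2) _ ?_ ?_
  · rintro ⟨a, c⟩
    rw [Finset.mem_product, Finset.mem_sdiff, Finset.mem_sdiff, mem_F, mem_F, mem_F, mem_F]
    constructor
    · rintro ⟨⟨ha, hat⟩, ⟨hc, hcs⟩⟩
      simp only at ha hat hc hcs
      have hac : a ≠ c := by rintro rfl; exact hcs ha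
      have hsta : s (t a) = t a := by rw [comm_app hst, ha]
      have htac : t a ≠ c := by
        intro h'; apply hac; apply t.injective; rw [h', hc]
      have hd : a ≠ t a ∧ a ≠ c ∧ a ≠ s c ∧ t a ≠ c ∧ t a ≠ s c ∧ c ≠ s c := by
        refine ⟨Ne.symm hat, hac, ?_, htac, ?_, Ne.symm hcs⟩
        · intro h'; apply hac
          have : s a = c := by rw [h', app_app hs]
          rw [← this, ha]
        · intro h'; apply htac
          have : s (t a) = c := by rw [h', app_app hs]
          rw [← this, hsta]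
      have hp' : Pat s (mk4 a (t a) c (s c) hd) (swap 2 3) := by
        rw [pat_iff]
        exact ⟨ha, hsta, rfl, app_app hs c⟩
      have hq' : Pat t (mk4 a (t a) c (s c) hd) (swap 0 1) := by
        rw [pat_iff]
        refine ⟨rfl, app_app ht a, hc, ?_⟩
        rw [← comm_app hst, hc]; rfl
      obtain ⟨g, hg, hge, hgs, hgt⟩ := exists_two h hsG htG hsG htG hs ht hs ht hst hst hp hp' hq hq'
      refine ⟨g, Subgroup.mem_inf.mpr ⟨hg, Subgroup.mem_inf.mpr ⟨?_, ?_⟩⟩, ?_⟩
      · rw [mem_centralizer_singleton_iff]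
        calc g * s = g * s * g⁻¹ * g := by group
          _ = s * g := by rw [hgs]
      · rw [mem_centralizer_singleton_iff]
        calc g * t = g * t * g⁻¹ * g := by group
          _ = t * g := by rw [hgt]
      · rw [Prod.smul_mk]
        exact Prod.ext (hge 0) (hge 2)
    · rintro ⟨g, hg, hgb⟩
      rw [Subgroup.mem_inf, Subgroup.mem_inf, mem_centralizer_singleton_iff,
        mem_centralizer_singleton_iff] at hg
      obtain ⟨hg, hgs, hgt⟩ := hg
      rw [Prod.smul_mk] at hgb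
      obtain ⟨hga, hgc⟩ := Prod.ext_iff.mp hgb
      simp only [Perm.smul_def] at hga hgc
      clear hgb
      subst hga hgc
      refine ⟨⟨?_, ?_⟩, ⟨?_, ?_⟩⟩
      · change s (g (e 0)) = g (e 0)
        rw [← comm_app hgs, s0]
      · change ¬ t (g (e 0)) = g (e 0)
        rw [← comm_app hgt, t0]
        intro h'; exact absurd (e.injective (g.injective h')) (by decide)
      · change t (g (e 2)) = g (e 2)
        rw [← comm_app hgt, t2]
      · change ¬ s (g (e 2)) = g (e 2)
        rw [← comm_app hgs, s2]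
        intro h'; exact absurd (e.injective (g.injective h')) (by decide)
  · intro g
    simp only [Subgroup.mem_inf, mem_centralizer_singleton_iff, mem_Kst]
    constructor
    · rintro ⟨⟨hg, hge⟩, hc⟩
      refine ⟨⟨hg, hc⟩, ?_⟩
      rw [Prod.smul_mk]
      exact Prod.ext (hge 0) (hge 2)
    · rintro ⟨⟨hg, hcs, hct⟩, hge⟩
      rw [Prod.smul_mk] at hge
      obtain ⟨hga, hgc⟩ := Prod.ext_iff.mp hge
      simp only [Perm.smul_def] at hga hgc
      refine ⟨⟨hg, ?_⟩, hcs, hct⟩
      rw [Fin.forall_fin_succ, Fin.forall_fin_succ, Fin.forall_fin_succ, Fin.forall_fin_one]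
      refine ⟨hga, ?_, hgc, ?_⟩
      · change g (e 1) = e 1
        rw [← t0, comm_app hct, hga]
      · change g (e 3) = e 3
        rw [← s2, comm_app hcs, hgc]

/-- formula 4 -/
theorem count_four (h : Hyp G) {s t : Perm α} (hsG : s ∈ G) (htG : t ∈ G) (hs : s * s = 1)
    (ht : t * t = 1) (hst : s * t = t * s) {e : Fin 4 ↪ α}
    (hp : Pat s e (swap 0 1 * swap 2 3)) (hq : Pat t e (swap 0 2 * swap 1 3)) :
    Nat.card ↥(G ⊓ (centralizer ({s} : Set (Perm α)) ⊓ centralizer ({t} : Set (Perm α)))) =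
      ((F s ∪ F t ∪ F (s * t))ᶜ).card *
        Nat.card ↥(Kst G e ⊓ (centralizer ({s} : Set (Perm α)) ⊓
          centralizer ({t} : Set (Perm α)))) := by
  have s0 : s (e 0) = e 1 := hp 0
  have t0 : t (e 0) = e 2 := hq 0
  have s2 : s (e 2) = e 3 := hp 2
  have mem : ∀ p, p ∈ (F s ∪ F t ∪ F (s * t))ᶜ ↔ s p ≠ p ∧ t p ≠ p ∧ s (t p) ≠ p := by
    intro p
    rw [Finset.mem_compl, Finset.mem_union, Finset.mem_union, mem_F, mem_F, mem_F,
      Perm.mul_apply]
    tauto
  refine orbit_count (β := α) (e 0) _ ?_ ?_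
  · intro p
    rw [mem]
    constructor
    · rintro ⟨h1, h2, h3⟩
      have hd : p ≠ s p ∧ p ≠ t p ∧ p ≠ s (t p) ∧ s p ≠ t p ∧ s p ≠ s (t p) ∧ t p ≠ s (t p) := by
        refine ⟨Ne.symm h1, Ne.symm h2, Ne.symm h3, ?_, ?_, ?_⟩
        · intro h'; apply h3; rw [← h', app_app hs]
        · intro h'; exact h2 (s.injective h').symm
        · intro h'; rw [comm_app hst] at h'; exact h1 (t.injective h').symm
      have hp' : Pat s (mk4 p (s p) (t p) (s (t p)) hd) (swap 0 1 * swap 2 3) := by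
        rw [pat_iff]
        exact ⟨rfl, app_app hs p, rfl, app_app hs _⟩
      have hq' : Pat t (mk4 p (s p) (t p) (s (t p)) hd) (swap 0 2 * swap 1 3) := by
        rw [pat_iff]
        refine ⟨rfl, ?_, app_app ht _, ?_⟩
        · rw [← comm_app hst]; rfl
        · rw [← comm_app hst, app_app ht]; rfl
      obtain ⟨g, hg, hge, hgs, hgt⟩ := exists_two h hsG htG hsG htG hs ht hs ht hst hst hp hp' hq hq'
      refine ⟨g, Subgroup.mem_inf.mpr ⟨hg, Subgroup.mem_inf.mpr ⟨?_, ?_⟩⟩, hge 0⟩
      · rw [mem_centralizer_singleton_iff]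
        calc g * s = g * s * g⁻¹ * g := by group
          _ = s * g := by rw [hgs]
      · rw [mem_centralizer_singleton_iff]
        calc g * t = g * t * g⁻¹ * g := by group
          _ = t * g := by rw [hgt]
    · rintro ⟨g, hg, rfl⟩
      rw [Subgroup.mem_inf, Subgroup.mem_inf, mem_centralizer_singleton_iff,
        mem_centralizer_singleton_iff] at hg
      obtain ⟨hg, hgs, hgt⟩ := hg
      rw [Perm.smul_def]
      refine ⟨?_, ?_, ?_⟩
      · rw [← comm_app hgs, s0]
        intro h'; exact absurd (e.injective (g.injective h')) (by decide)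
      · rw [← comm_app hgt, t0]
        intro h'; exact absurd (e.injective (g.injective h')) (by decide)
      · rw [← comm_app hgt, t0, ← comm_app hgs, s2]
        intro h'; exact absurd (e.injective (g.injective h')) (by decide)
  · intro g
    simp only [Subgroup.mem_inf, mem_centralizer_singleton_iff, mem_Kst]
    constructor
    · rintro ⟨⟨hg, hge⟩, hc⟩
      exact ⟨⟨hg, hc⟩, hge 0⟩
    · rintro ⟨⟨hg, hcs, hct⟩, hga⟩
      rw [Perm.smul_def] at hga
      have h2 : g (e 2) = e 2 := by rw [← t0, comm_app hct, hga]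
      refine ⟨⟨hg, ?_⟩, hcs, hct⟩
      rw [Fin.forall_fin_succ, Fin.forall_fin_succ, Fin.forall_fin_succ, Fin.forall_fin_one]
      refine ⟨hga, ?_, h2, ?_⟩
      · change g (e 1) = e 1
        rw [← s0, comm_app hcs, hga]
      · change g (e 3) = e 3
        rw [← s2, comm_app hcs, h2]

end Cfsg.Agent.Lib.H43FourC
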