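import Mathlib
import Cfsg.Agent.Lib.H43FourC

/-!
# Four-transitive groups with odd four-point stabilizer (helper43), part D

Degree at least 8 forces degree 11 and order 7920.
-/

set_option autoImplicit false
set_option linter.unusedSectionVars false

namespace Cfsg.Agent.Lib.H43FourD

open Subgroup Equiv Cfsg.Agent.Lib.H43FourA Cfsg.Agent.Lib.H43FourB Cfsg.Agent.Lib.H43FourC

variable {α : Type*} [Fintype α] [DecidableEq α] {G : Subgroup (Perm α)}

theorem one_of_fix (h : Hyp G) {t : Perm α} (htG : t ∈ G) (ht : t * t = 1) {e : Fin 4 ↪ α}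
    (he : ∀ i, t (e i) = e i) : t = 1 := by
  have hK : t ∈ Kst G e := ⟨htG, he⟩
  have h1 : orderOf t ∣ 2 := orderOf_dvd_of_pow_eq_one (by rw [pow_two, ht])
  have h2 : orderOf t ∣ Nat.card (Kst G e) := by
    have := orderOf_dvd_natCard (⟨t, hK⟩ : Kst G e)
    rwa [Subgroup.orderOf_mk] at this
  rcases (Nat.dvd_prime Nat.prime_two).mp h1 with h3 | h3
  · exact orderOf_eq_one_iff.mp h3
  · rw [h3] at h2; exact absurd h2 (h.odd e)

theorem card_F_le (h : Hyp G) {t : Perm α} (htG : t ∈ G) (ht : t * t = 1) (h1 : t ≠ 1) :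
    (F t).card ≤ 3 := by
  by_contra hcon
  push Not at hcon
  obtain ⟨f⟩ : Nonempty (Fin 4 ↪ ↥(F t)) := Function.Embedding.nonempty_of_card_le (by
    rw [Fintype.card_fin, Fintype.card_coe]; exact hcon)
  apply h1
  refine one_of_fix h htG ht (e := f.trans (Function.Embedding.subtype _)) ?_
  intro i
  exact mem_F.mp (f i).2

theorem card_F_add (t : Perm α) : (F t).card + ((F t)ᶜ).card = Fintype.card α :=
  Finset.card_add_card_compl _

theorem exists_pat_two (h : Hyp G) (hn : 7 ≤ Fintype.card α) {t : Perm α} (htG : t ∈ G)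
    (ht : t * t = 1) (h1 : t ≠ 1) : ∃ e : Fin 4 ↪ α, Pat t e (swap 0 1 * swap 2 3) := by
  have h2 := card_F_le h htG ht h1
  have h3 := card_F_add t
  obtain ⟨p, hp⟩ : ((F t)ᶜ).Nonempty := by rw [← Finset.card_pos]; omega
  obtain ⟨q, hq, hqn⟩ : ∃ q ∈ (F t)ᶜ, q ∉ ({p, t p} : Finset α) := by
    apply Finset.exists_mem_notMem_of_card_lt_card
    have : ({p, t p} : Finset α).card ≤ 2 := Finset.card_le_two
    omega
  simp only [Finset.mem_insert, Finset.mem_singleton, not_or] at hqn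
  rw [mem_Fc] at hp hq
  have hd : p ≠ t p ∧ p ≠ q ∧ p ≠ t q ∧ t p ≠ q ∧ t p ≠ t q ∧ q ≠ t q := by
    refine ⟨Ne.symm hp, Ne.symm hqn.1, ?_, Ne.symm hqn.2, ?_, Ne.symm hq⟩
    · intro h'; apply hqn.2; rw [h', app_app ht]
    · intro h'; exact hqn.1 (t.injective h').symm
  refine ⟨mk4 p (t p) q (t q) hd, ?_⟩
  rw [pat_iff]
  exact ⟨rfl, app_app ht p, rfl, app_app ht q⟩

theorem conj_inv (h : Hyp G) (hn : 7 ≤ Fintype.card α) {s t : Perm α} (hsG : s ∈ G) (htG : t ∈ G)
    (hs : s * s = 1) (ht : t * t = 1) (hs1 : s ≠ 1) (ht1 : t ≠ 1) : ∃ g ∈ G, g * s * g⁻¹ = t := by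
  obtain ⟨e, he⟩ := exists_pat_two h hn hsG hs hs1
  obtain ⟨e', he'⟩ := exists_pat_two h hn htG ht ht1
  obtain ⟨g, hg, _, hgs⟩ := exists_one h hsG htG hs ht he he'
  exact ⟨g, hg, hgs⟩

theorem card_conj {H K : Subgroup (Perm α)} (g : Perm α) (h : ∀ x, x ∈ H ↔ g * x * g⁻¹ ∈ K) :
    Nat.card H = Nat.card K := by
  refine Nat.card_congr ⟨fun x => ⟨g * x * g⁻¹, (h x).mp x.2⟩,
    fun x => ⟨g⁻¹ * x * g, (h _).mpr ?_⟩, ?_, ?_⟩
  · have : g * (g⁻¹ * (x : Perm α) * g) * g⁻¹ = x := by group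
    rw [this]; exact x.2
  · intro x; apply Subtype.ext; change g⁻¹ * (g * x * g⁻¹) * g = x; group
  · intro x; apply Subtype.ext; change g * (g⁻¹ * x * g) * g⁻¹ = x; group

theorem conj_mem_iff {g x : Perm α} (hg : g ∈ G) : x ∈ G ↔ g * x * g⁻¹ ∈ G := by
  constructor
  · exact fun hx => G.mul_mem (G.mul_mem hg hx) (G.inv_mem hg)
  · intro hx
    have := G.mul_mem (G.mul_mem (G.inv_mem hg) hx) hg
    have e1 : g⁻¹ * (g * x * g⁻¹) * g = x := by group
    rwa [e1] at this

theorem card_cent_conj {g s : Perm α} (hg : g ∈ G) :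
    Nat.card ↥(G ⊓ centralizer ({s} : Set (Perm α))) =
      Nat.card ↥(G ⊓ centralizer ({g * s * g⁻¹} : Set (Perm α))) := by
  apply card_conj g
  intro x
  rw [Subgroup.mem_inf, Subgroup.mem_inf, mem_centralizer_singleton_iff,
    mem_centralizer_singleton_iff, ← conj_mem_iff hg]
  have e1 : g * x * g⁻¹ * (g * s * g⁻¹) = g * (x * s) * g⁻¹ := by group
  have e2 : g * s * g⁻¹ * (g * x * g⁻¹) = g * (s * x) * g⁻¹ := by group
  rw [e1, e2, mul_left_inj, mul_right_inj]

theorem card_Kst_eq (h : Hyp G) (e e' : Fin 4 ↪ α) :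
    Nat.card (Kst G e) = Nat.card (Kst G e') := by
  obtain ⟨g, hg, hge⟩ := h.trans e e'
  apply card_conj g
  intro x
  rw [mem_Kst, mem_Kst, ← conj_mem_iff hg]
  have : ∀ i, (g * x * g⁻¹) (e' i) = e' i ↔ x (e i) = e i := by
    intro i
    have h1 : g⁻¹ (g (e i)) = e i := by simp
    rw [Perm.mul_apply, Perm.mul_apply, ← hge, h1, g.injective.eq_iff]
  simp only [this]

/-- reindexing -/
def re (π : Perm (Fin 4)) (e : Fin 4 ↪ α) : Fin 4 ↪ α := π.toEmbedding.trans e

theorem re_apply (π : Perm (Fin 4)) (e : Fin 4 ↪ α) (i : Fin 4) : re π e i = e (π i) := rfl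

theorem Kst_re (π : Perm (Fin 4)) (e : Fin 4 ↪ α) : Kst G (re π e) = Kst G e := by
  ext g
  rw [mem_Kst, mem_Kst]
  constructor
  · rintro ⟨h1, h2⟩
    refine ⟨h1, fun i => ?_⟩
    have := h2 (π⁻¹ i)
    have h3 : π (π⁻¹ i) = i := by simp
    rwa [re_apply, h3] at this
  · rintro ⟨h1, h2⟩
    exact ⟨h1, fun i => h2 _⟩

theorem Pat_re {s : Perm α} {e : Fin 4 ↪ α} {σ : Perm (Fin 4)} (hs : Pat s e σ)
    (π : Perm (Fin 4)) : Pat s (re π e) (π⁻¹ * σ * π) := by
  intro i
  rw [re_apply, re_apply, hs]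
  simp [Perm.mul_apply]

/-- `F s \ F t` has two elements for a commuting pair of the first type -/
theorem card_sdiff_F {s t : Perm α} (ht : t * t = 1) (hst : s * t = t * s)
    (hF : (F s).card ≤ 3) {e : Fin 4 ↪ α} (hp : Pat s e (swap 2 3)) (hq : Pat t e (swap 0 1)) :
    (F s \ F t).card = 2 := by
  have s0 : s (e 0) = e 0 := hp 0
  have s1 : s (e 1) = e 1 := hp 1
  have t0 : t (e 0) = e 1 := hq 0
  have t1 : t (e 1) = e 0 := hq 1
  have h01 : e 0 ≠ e 1 := fun h' => absurd (e.injective h') (by decide)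
  have hset : F s \ F t = {e 0, e 1} := by
    ext z
    rw [Finset.mem_sdiff, mem_F, mem_F, Finset.mem_insert, Finset.mem_singleton]
    constructor
    · rintro ⟨hz1, hz2⟩
      by_contra hcon
      push Not at hcon
      have htz : s (t z) = t z := by rw [comm_app hst, hz1]
      have h0 : t z ≠ e 0 := by
        intro h'; apply hcon.2; rw [← t0, ← h', app_app ht]
      have h1 : t z ≠ e 1 := by
        intro h'; apply hcon.1; rw [← t1, ← h', app_app ht]
      have hsub : ({e 0, e 1, z, t z} : Finset α) ⊆ F s := by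
        intro x hx
        simp only [Finset.mem_insert, Finset.mem_singleton] at hx
        rw [mem_F]
        rcases hx with rfl | rfl | rfl | rfl
        · exact s0
        · exact s1
        · exact hz1
        · exact htz
      have hc := Finset.card_le_card hsub
      rw [Finset.card_insert_of_notMem, Finset.card_insert_of_notMem,
        Finset.card_insert_of_notMem, Finset.card_singleton] at hc
      · omega
      · simp only [Finset.mem_singleton]; exact Ne.symm hz2
      · simp only [Finset.mem_insert, Finset.mem_singleton, not_or]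
        exact ⟨Ne.symm hcon.2, Ne.symm h1⟩
      · simp only [Finset.mem_insert, Finset.mem_singleton, not_or]
        exact ⟨h01, Ne.symm hcon.1, Ne.symm h0⟩
    · rintro (rfl | rfl)
      · refine ⟨s0, ?_⟩
        rw [t0]; exact Ne.symm h01
      · refine ⟨s1, ?_⟩
        rw [t1]; exact h01
  rw [hset, Finset.card_insert_of_notMem (by simp only [Finset.mem_singleton]; exact h01),
    Finset.card_singleton]

/-- The numerical data of a commuting pair of the first type. -/
structure Data (G : Subgroup (Perm α)) (f m κ C : ℕ) : Prop where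
  f_le : f ≤ 3
  two_le : 2 ≤ f
  add : f + m = Fintype.card α
  card_F : ∀ t ∈ G, t * t = 1 → t ≠ 1 → (F t).card = f
  card_C : ∀ t ∈ G, t * t = 1 → t ≠ 1 →
    Nat.card ↥(G ⊓ centralizer ({t} : Set (Perm α))) = C
  card_K : ∀ e : Fin 4 ↪ α, Nat.card (Kst G e) = κ

theorem ne_one_of_pat {s : Perm α} {e : Fin 4 ↪ α} {σ : Perm (Fin 4)} (hs : Pat s e σ)
    (hσ : σ ≠ 1) : s ≠ 1 := by
  rintro rfl
  apply hσ
  ext i
  have := e.injective (hs i)
  rw [← this]; rfl

theorem exists_data (h : Hyp G) (hn : 7 ≤ Fintype.card α) (e0 : Fin 4 ↪ α) :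
    ∃ f m κ C : ℕ, Data G f m κ C := by
  obtain ⟨s, hsG, t, htG, hs, ht, hst, hp, hq⟩ := exists_pair h e0
  have hs1 : s ≠ 1 := ne_one_of_pat hp (by decide)
  have h2 : 2 ≤ (F s).card := by
    have hsub : ({e0 0, e0 1} : Finset α) ⊆ F s := by
      intro x hx
      simp only [Finset.mem_insert, Finset.mem_singleton] at hx
      rw [mem_F]
      rcases hx with rfl | rfl
      · exact hp 0
      · exact hp 1
    have hc := Finset.card_le_card hsub
    rwa [Finset.card_insert_of_notMem (by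
      simp only [Finset.mem_singleton]
      exact fun h' => absurd (e0.injective h') (by decide)), Finset.card_singleton] at hc
  refine ⟨(F s).card, ((F s)ᶜ).card, Nat.card (Kst G e0),
    Nat.card ↥(G ⊓ centralizer ({s} : Set (Perm α))), card_F_le h hsG hs hs1, h2, card_F_add s,
    ?_, ?_, fun e => card_Kst_eq h e e0⟩
  · intro u hu hu2 hu1
    obtain ⟨g, hg, rfl⟩ := conj_inv h hn hsG hu hs hu2 hs1 hu1
    exact card_F_conj g s
  · intro u hu hu2 hu1
    obtain ⟨g, hg, rfl⟩ := conj_inv h hn hsG hu hs hu2 hs1 hu1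
    exact (card_cent_conj hg).symm

section
variable {f m κ C : ℕ}

theorem Data.card_Fc (d : Data G f m κ C) {t : Perm α} (htG : t ∈ G) (ht : t * t = 1)
    (ht1 : t ≠ 1) : ((F t)ᶜ).card = m := by
  have h1 := card_F_add t
  have h2 := d.card_F t htG ht ht1
  have h3 := d.add
  omega

theorem Data.one (h : Hyp G) (d : Data G f m κ C) {t : Perm α} (htG : t ∈ G) (ht : t * t = 1)
    {e : Fin 4 ↪ α} (hp : Pat t e (swap 2 3)) :
    C = (f * f - f) * m * Nat.card ↥(Kst G e ⊓ centralizer ({t} : Set (Perm α))) := by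
  have ht1 : t ≠ 1 := ne_one_of_pat hp (by decide)
  rw [← d.card_C t htG ht ht1, count_one h htG ht hp, d.card_F t htG ht ht1,
    d.card_Fc htG ht ht1]

theorem Data.two (h : Hyp G) (d : Data G f m κ C) {t : Perm α} (htG : t ∈ G) (ht : t * t = 1)
    {e : Fin 4 ↪ α} (hp : Pat t e (swap 0 1 * swap 2 3)) :
    C = (m * m - m - m) * Nat.card ↥(Kst G e ⊓ centralizer ({t} : Set (Perm α))) := by
  have ht1 : t ≠ 1 := ne_one_of_pat hp (by decide)
  rw [← d.card_C t htG ht ht1, count_two h htG ht hp, d.card_Fc htG ht ht1]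

/-- the relation between the two kinds of fixed point numbers -/
theorem Data.ab (h : Hyp G) (d : Data G f m κ C) (e : Fin 4 ↪ α) :
    ∃ a b c z : ℕ, 0 < a ∧ 0 < b ∧ 0 < c ∧ b ∣ κ ∧ C = (f * f - f) * m * a ∧
      C = (m * m - m - m) * b ∧ a * a * b = κ * c ^ 2 ∧ z = 4 * c ∧
      ∃ s ∈ G, ∃ t ∈ G, s * s = 1 ∧ t * t = 1 ∧ s * t = t * s ∧ Pat s e (swap 2 3) ∧
        Pat t e (swap 0 1) ∧
      z = Nat.card ↥(G ⊓ (centralizer ({s} : Set (Perm α)) ⊓
        centralizer ({t} : Set (Perm α)))) := by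
  obtain ⟨s, hsG, t, htG, hs, ht, hst, hp, hq⟩ := exists_pair h e
  have hs1 : s ≠ 1 := ne_one_of_pat hp (by decide)
  have ht1 : t ≠ 1 := ne_one_of_pat hq (by decide)
  have hne : s ≠ t := by
    rintro rfl
    have h1 : e 1 = e 0 := (hq 0).symm.trans (hp 0)
    exact absurd (e.injective h1) (by decide)
  have hpq : Pat (s * t) e (swap 0 1 * swap 2 3) := by
    have h1 := hp.mul hq
    have h2 : swap (2 : Fin 4) 3 * swap 0 1 = swap 0 1 * swap 2 3 := by decide
    rwa [h2] at h1
  have hst2 : s * t * (s * t) = 1 := by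
    rw [mul_assoc, ← mul_assoc t, ← hst, mul_assoc, ht, mul_one, hs]
  have hq' : Pat t (re (swap 0 2 * swap 1 3) e) (swap 2 3) := by
    have h1 := Pat_re hq (swap 0 2 * swap 1 3)
    have h2 : (swap (0 : Fin 4) 2 * swap 1 3)⁻¹ * swap 0 1 * (swap 0 2 * swap 1 3) = swap 2 3 := by
      decide
    rwa [h2] at h1
  have c1 := d.one h hsG hs hp
  have c2 := d.one h htG ht hq'
  rw [Kst_re] at c2
  have c3 := d.two h (G.mul_mem hsG htG) hst2 hpq
  have c4 := four_formula (Kst G e) (h.odd e) hs ht hst hs1 ht1 hne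
    (mem_normalizer_Kst hsG hp) (mem_normalizer_Kst htG hq)
  have c5 := count_three h hsG htG hs ht hst hp hq
  have hFs := d.card_F s hsG hs hs1
  have hFt := d.card_F t htG ht ht1
  have hf := d.f_le
  have hF1 : (F s \ F t).card = 2 := card_sdiff_F ht hst (by omega) hp hq
  have hF2 : (F t \ F s).card = 2 := by
    refine card_sdiff_F (e := re (swap 0 2 * swap 1 3) e) hs hst.symm (by omega) hq' ?_
    have h1 := Pat_re hp (swap 0 2 * swap 1 3)
    have h2 : (swap (0 : Fin 4) 2 * swap 1 3)⁻¹ * swap 2 3 * (swap 0 2 * swap 1 3) = swap 0 1 := by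
      decide
    rwa [h2] at h1
  rw [hF1, hF2] at c5
  have hf2 := d.two_le
  have hm : 0 < m := by
    have h1 : 0 < ((F s)ᶜ).card := by
      rw [Finset.card_pos]
      refine ⟨e 2, ?_⟩
      rw [mem_Fc]
      rw [hp 2]
      intro h'; exact absurd (e.injective h') (by decide)
    rwa [d.card_Fc hsG hs hs1] at h1
  have hff : 0 < (f * f - f) * m := by
    apply Nat.mul_pos _ hm
    have : f < f * f := by nlinarith
    omega
  have hat : Nat.card ↥(Kst G e ⊓ centralizer ({s} : Set (Perm α))) =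
      Nat.card ↥(Kst G e ⊓ centralizer ({t} : Set (Perm α))) :=
    Nat.eq_of_mul_eq_mul_left hff (c1.symm.trans c2)
  refine ⟨Nat.card ↥(Kst G e ⊓ centralizer ({s} : Set (Perm α))),
    Nat.card ↥(Kst G e ⊓ centralizer ({s * t} : Set (Perm α))),
    Nat.card ↥(Kst G e ⊓ (centralizer ({s} : Set (Perm α)) ⊓ centralizer ({t} : Set (Perm α)))),
    _, Nat.card_pos, Nat.card_pos, Nat.card_pos, ?_, c1, c3, ?_, c5, s, hsG, t, htG, hs, ht, hst,
    hp, hq, rfl⟩
  · rw [← d.card_K e]
    exact card_dvd_of_le inf_le_left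
  · rw [d.card_K e, ← hat] at c4
    exact c4

theorem fixed_count {s t : Perm α} (hst : s * t = t * s)
    (hf1 : (F s).card = f) (hf2 : (F t).card = f) (hf3 : (F (s * t)).card = f)
    (h2' : (F t \ F s).card = 2) :
    ((F s ∪ F t ∪ F (s * t))ᶜ).card + (f + 4) = Fintype.card α := by
  have e1 : F (s * t) ∩ F s = F t ∩ F s := by
    ext p
    rw [Finset.mem_inter, Finset.mem_inter, mem_F, mem_F, mem_F, Perm.mul_apply]
    constructor
    · rintro ⟨h1, h3⟩
      refine ⟨?_, h3⟩
      rw [comm_app hst, h3] at h1; exact h1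
    · rintro ⟨h1, h3⟩
      exact ⟨by rw [h1, h3], h3⟩
  have e2 : (F (s * t) \ F s).card = 2 := by
    have a1 := Finset.card_sdiff_add_card_inter (F (s * t)) (F s)
    have a2 := Finset.card_sdiff_add_card_inter (F t) (F s)
    rw [e1] at a1
    omega
  have e3 : F (s * t) \ (F s ∪ F t) = F (s * t) \ F s := by
    ext p
    rw [Finset.mem_sdiff, Finset.mem_sdiff, Finset.mem_union]
    constructor
    · rintro ⟨h1, h3⟩; exact ⟨h1, fun h => h3 (Or.inl h)⟩
    · rintro ⟨h1, h3⟩
      refine ⟨h1, ?_⟩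
      rintro (h4 | h4)
      · exact h3 h4
      · apply h3
        rw [mem_F] at h4 h1 ⊢
        rw [Perm.mul_apply, h4] at h1; exact h1
  have e4 : (F s ∪ F t).card = f + 2 := by
    rw [← Finset.union_sdiff_self_eq_union, Finset.card_union_of_disjoint Finset.disjoint_sdiff,
      hf1, h2']
  have e5 : (F s ∪ F t ∪ F (s * t)).card = f + 4 := by
    rw [← Finset.union_sdiff_self_eq_union, Finset.card_union_of_disjoint Finset.disjoint_sdiff,
      e3, e4, e2]
  rw [← e5, add_comm]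
  exact Finset.card_add_card_compl _

end

end Cfsg.Agent.Lib.H43FourD
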