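import Mathlib
import Cfsg.Agent.Lib.H43FourD

/-!
# Four-transitive groups with odd four-point stabilizer (helper43), part E

Degree at least 8 forces degree 11 and order 7920.
-/

set_option autoImplicit false
set_option linter.unusedSectionVars false

namespace Cfsg.Agent.Lib.H43FourE

open Subgroup Equiv Cfsg.Agent.Lib.H43FourA Cfsg.Agent.Lib.H43FourB Cfsg.Agent.Lib.H43FourC
  Cfsg.Agent.Lib.H43FourD

variable {α : Type*} [Fintype α] [DecidableEq α] {G : Subgroup (Perm α)} {f m κ C : ℕ}

/-- numerical end of the argument -/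
theorem numeric {f m κ C a b c c' z : ℕ} (hf2 : 2 ≤ f) (hf3 : f ≤ 3) (hm : 4 ≤ m)
    (hb : 0 < b) (hc' : 0 < c') (hκ : 0 < κ)
    (h1 : C = (f * f - f) * m * a) (h2 : C = (m * m - m - m) * b)
    (h3 : a * a * b = κ * c ^ 2) (h4 : b * b * b = κ * c' ^ 2) (h5 : z = 4 * c)
    (h6 : z = (m - 4) * c') : f = 3 ∧ m = 8 := by
  obtain ⟨k, rfl⟩ : ∃ k, m = k + 4 := ⟨m - 4, by omega⟩
  have e1 : (k + 4) * (k + 4) - (k + 4) - (k + 4) = (k + 4) * (k + 2) := by
    have : (k + 4) * (k + 4) = (k + 4) * (k + 2) + (k + 4) + (k + 4) := by ring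
    omega
  rw [e1] at h2
  have e2 : k + 4 - 4 = k := by omega
  rw [e2] at h6
  -- a c' = b c
  have e3 : (a * c') ^ 2 = (b * c) ^ 2 := by
    have : b * κ * (a * c') ^ 2 = b * κ * (b * c) ^ 2 := by
      calc b * κ * (a * c') ^ 2 = (a * a * b) * (κ * c' ^ 2) := by ring
        _ = (κ * c ^ 2) * (b * b * b) := by rw [h3, h4]
        _ = b * κ * (b * c) ^ 2 := by ring
    exact Nat.eq_of_mul_eq_mul_left (Nat.mul_pos hb hκ) this
  have e4 : a * c' = b * c := by
    exact Nat.pow_left_injective (n := 2) (by norm_num) e3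
  have e5 : 4 * a = b * k := by
    have : c' * (4 * a) = c' * (b * k) := by
      calc c' * (4 * a) = 4 * (a * c') := by ring
        _ = b * (4 * c) := by rw [e4]; ring
        _ = b * (k * c') := by rw [← h5, h6]
        _ = c' * (b * k) := by ring
    exact Nat.eq_of_mul_eq_mul_left hc' this
  have e6 : (f * f - f) * a = (k + 2) * b := by
    have : (k + 4) * ((f * f - f) * a) = (k + 4) * ((k + 2) * b) := by
      calc (k + 4) * ((f * f - f) * a) = (f * f - f) * (k + 4) * a := by ring
        _ = (k + 4) * (k + 2) * b := by rw [← h1, h2]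
        _ = (k + 4) * ((k + 2) * b) := by ring
    exact Nat.eq_of_mul_eq_mul_left (by omega) this
  have e7 : (f * f - f) * k = 4 * (k + 2) := by
    have : b * ((f * f - f) * k) = b * (4 * (k + 2)) := by
      calc b * ((f * f - f) * k) = (f * f - f) * (b * k) := by ring
        _ = 4 * ((f * f - f) * a) := by rw [← e5]; ring
        _ = b * (4 * (k + 2)) := by rw [e6]; ring
    exact Nat.eq_of_mul_eq_mul_left hb this
  have hf : f = 2 ∨ f = 3 := by omega
  rcases hf with rfl | rfl
  · norm_num at e7; omega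
  · norm_num at e7; omega

theorem Data.eight (h : Hyp G) (d : Data G f m κ C) (hn : 8 ≤ Fintype.card α) (e : Fin 4 ↪ α) :
    f = 3 ∧ m = 8 := by
  obtain ⟨a, b, c, z, ha, hb, hc, -, h1, h2, h3, h4, s, hsG, t, htG, hs, ht, hst, hp, hq, hz⟩ :=
    Data.ab h d e
  have hs1 : s ≠ 1 := ne_one_of_pat hp (by decide)
  have ht1 : t ≠ 1 := ne_one_of_pat hq (by decide)
  have hst2 : s * t * (s * t) = 1 := by
    rw [mul_assoc, ← mul_assoc t, ← hst, mul_assoc, ht, mul_one, hs]
  have hpq : Pat (s * t) e (swap 2 3 * swap 0 1) := hp.mul hq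
  have hst1 : s * t ≠ 1 := ne_one_of_pat hpq (by decide)
  have hne : s ≠ t := by
    rintro rfl
    have h1 : e 1 = e 0 := (hq 0).symm.trans (hp 0)
    exact absurd (e.injective h1) (by decide)
  have hFs := d.card_F s hsG hs hs1
  have hFt := d.card_F t htG ht ht1
  have hFst := d.card_F _ (G.mul_mem hsG htG) hst2 hst1
  have hf := d.f_le
  have hf2 := d.two_le
  have hadd := d.add
  have hF2 : (F t \ F s).card = 2 := by
    have hq' : Pat t (re (swap 0 2 * swap 1 3) e) (swap 2 3) := by
      have h1 := Pat_re hq (swap 0 2 * swap 1 3)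
      have h2 : (swap (0 : Fin 4) 2 * swap 1 3)⁻¹ * swap 0 1 * (swap 0 2 * swap 1 3) =
        swap 2 3 := by decide
      rwa [h2] at h1
    refine card_sdiff_F (e := re (swap 0 2 * swap 1 3) e) hs hst.symm (by omega) hq' ?_
    have h1 := Pat_re hp (swap 0 2 * swap 1 3)
    have h2 : (swap (0 : Fin 4) 2 * swap 1 3)⁻¹ * swap 2 3 * (swap 0 2 * swap 1 3) = swap 0 1 := by
      decide
    rwa [h2] at h1
  have hcnt := fixed_count hst hFs hFt hFst hF2
  -- a regular point
  obtain ⟨p, hpmem⟩ : ((F s ∪ F t ∪ F (s * t))ᶜ).Nonempty := by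
    rw [← Finset.card_pos]; omega
  rw [Finset.mem_compl, Finset.mem_union, Finset.mem_union, mem_F, mem_F, mem_F,
    Perm.mul_apply] at hpmem
  push Not at hpmem
  obtain ⟨⟨p1, p2⟩, p3⟩ := hpmem
  have hd : p ≠ s p ∧ p ≠ t p ∧ p ≠ s (t p) ∧ s p ≠ t p ∧ s p ≠ s (t p) ∧ t p ≠ s (t p) := by
    refine ⟨Ne.symm p1, Ne.symm p2, Ne.symm p3, ?_, ?_, ?_⟩
    · intro h'; apply p3; rw [← h', app_app hs]
    · intro h'; exact p2 (s.injective h').symm
    · intro h'; rw [comm_app hst] at h'; exact p1 (t.injective h').symm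
  set e2 := mk4 p (s p) (t p) (s (t p)) hd with he2
  have hp' : Pat s e2 (swap 0 1 * swap 2 3) := by
    rw [he2, pat_iff]
    exact ⟨rfl, app_app hs p, rfl, app_app hs _⟩
  have hq' : Pat t e2 (swap 0 2 * swap 1 3) := by
    rw [he2, pat_iff]
    refine ⟨rfl, ?_, app_app ht _, ?_⟩
    · rw [← comm_app hst]; rfl
    · rw [← comm_app hst, app_app ht]; rfl
  have hst' : Pat (s * t) e2 (swap 0 1 * swap 2 3 * (swap 0 2 * swap 1 3)) := hp'.mul hq'
  have q1 : Pat t (re (swap 1 2) e2) (swap 0 1 * swap 2 3) := by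
    have h1 := Pat_re hq' (swap 1 2)
    have h2 : (swap (1 : Fin 4) 2)⁻¹ * (swap 0 2 * swap 1 3) * swap 1 2 = swap 0 1 * swap 2 3 := by
      decide
    rwa [h2] at h1
  have q2 : Pat (s * t) (re (swap 1 3) e2) (swap 0 1 * swap 2 3) := by
    have h1 := Pat_re hst' (swap 1 3)
    have h2 : (swap (1 : Fin 4) 3)⁻¹ * (swap 0 1 * swap 2 3 * (swap 0 2 * swap 1 3)) * swap 1 3 =
      swap 0 1 * swap 2 3 := by decide
    rwa [h2] at h1
  have c1 := d.two h hsG hs hp'
  have c2 := d.two h htG ht q1
  have c3 := d.two h (G.mul_mem hsG htG) hst2 q2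
  rw [Kst_re] at c2 c3
  have c4 := four_formula (Kst G e2) (h.odd e2) hs ht hst hs1 ht1 hne
    (mem_normalizer_Kst hsG hp') (mem_normalizer_Kst htG hq')
  have c5 := count_four h hsG htG hs ht hst hp' hq'
  rw [← hz] at c5
  have hm : 4 ≤ m := by omega
  have hmm : 0 < m * m - m - m := by
    have : m * m ≥ 4 * m := Nat.mul_le_mul_right m hm
    omega
  have b1 : Nat.card ↥(Kst G e2 ⊓ centralizer ({s} : Set (Perm α))) = b :=
    Nat.eq_of_mul_eq_mul_left hmm (c1.symm.trans h2)
  have b2 : Nat.card ↥(Kst G e2 ⊓ centralizer ({t} : Set (Perm α))) = b :=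
    Nat.eq_of_mul_eq_mul_left hmm (c2.symm.trans h2)
  have b3 : Nat.card ↥(Kst G e2 ⊓ centralizer ({s * t} : Set (Perm α))) = b :=
    Nat.eq_of_mul_eq_mul_left hmm (c3.symm.trans h2)
  rw [b1, b2, b3, d.card_K e2] at c4
  have hκ : 0 < κ := by rw [← d.card_K e2]; exact Nat.card_pos
  have hm4 : ((F s ∪ F t ∪ F (s * t))ᶜ).card = m - 4 := by omega
  rw [hm4] at c5
  exact numeric hf2 hf hm hb Nat.card_pos hκ h1 h2 h3 c4 h4 c5

/-- An element of odd order fixing a point under a power of two. -/
theorem fix_of_four {g : Perm α} {N : ℕ} (hN : Odd N) (hg : g ^ N = 1) {p : α}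
    (hp : (g ^ 4) p = p) : g p = p := by
  have h1 : ∀ k : ℕ, (g ^ (4 * k)) p = p := by
    intro k
    induction k with
    | zero => simp
    | succ k ih =>
      rw [Nat.mul_succ, pow_add, Perm.mul_apply, hp, ih]
  -- N * N ≡ 1 mod 4 ... use 3 N or N
  have h2 : N % 4 = 1 ∨ N % 4 = 3 := by
    obtain ⟨k, hk⟩ := hN; omega
  rcases h2 with h2 | h2
  · have h3 : N = 1 + 4 * (N / 4) := by omega
    have h4 : (g ^ N) p = g p := by
      rw [h3, pow_add, pow_one, Perm.mul_apply, h1]
    rw [← h4, hg]; rfl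
  · have h3 : N * 3 = 1 + 4 * ((N * 3) / 4) := by omega
    have h4 : (g ^ (N * 3)) p = g p := by
      rw [h3, pow_add, pow_one, Perm.mul_apply, h1]
    rw [← h4, pow_mul, hg, one_pow]; rfl

/-- In degree 11, the involution centralizers in the four-point stabilizers are trivial -/
theorem cent_trivial (h : Hyp G) (d : Data G 3 8 κ C) (hpre : MulAction.IsPreprimitive G α)
    (hA : ¬ alternatingGroup α ≤ G) {y : Perm α} (hyG : y ∈ G)
    (hy : y * y = 1) {e : Fin 4 ↪ α} (hp : Pat y e (swap 0 1 * swap 2 3)) {g : Perm α}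
    (hg : g ∈ Kst G e) (hc : g * y = y * g) : g = 1 := by
  have hy1 : y ≠ 1 := ne_one_of_pat hp (by decide)
  have hFy := d.card_F y hyG hy hy1
  have hFc := d.card_Fc hyG hy hy1
  have hN : Odd (Nat.card (Kst G e)) := by
    rw [← Nat.not_even_iff_odd, even_iff_two_dvd]; exact h.odd e
  have hgN : g ^ Nat.card (Kst G e) = 1 := by
    have h3 : (⟨g, hg⟩ : Kst G e) ^ Nat.card (Kst G e) = 1 := pow_card_eq_one'
    have h4 := congrArg (fun z : Kst G e => (z : Perm α)) h3
    simp only [SubmonoidClass.coe_pow, OneMemClass.coe_one] at h4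
    exact h4
  -- the support of g lies in the fixed points of y
  have hsupp : g.support ⊆ F y := by
    intro p hpg
    rw [Perm.mem_support] at hpg
    by_contra hpF
    rw [mem_F] at hpF
    apply hpg
    -- p is moved by y
    have he : ∀ i, g (e i) = e i := hg.2
    by_cases hpe : ∃ i, p = e i
    · obtain ⟨i, rfl⟩ := hpe; exact he i
    push Not at hpe
    have hype : ∀ i, y p ≠ e i := by
      intro i h'
      have : p = y (e i) := by rw [← h', app_app hy]
      rw [hp i] at this
      exact hpe _ this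
    -- the set of the other moved points
    set M : Finset α := (F y)ᶜ \ (Finset.univ.map e) with hM
    have hMc : M.card = 4 := by
      rw [hM, Finset.card_sdiff_of_subset, hFc, Finset.card_map, Finset.card_univ,
        Fintype.card_fin]
      intro x hx
      rw [Finset.mem_map] at hx
      obtain ⟨i, _, rfl⟩ := hx
      rw [mem_Fc, hp i]
      intro h'
      have := e.injective h'
      revert this; fin_cases i <;> decide
    have memM : ∀ x, x ∈ M ↔ y x ≠ x ∧ ∀ i, x ≠ e i := by
      intro x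
      rw [hM, Finset.mem_sdiff, mem_Fc, Finset.mem_map]
      constructor
      · rintro ⟨h1, h2⟩
        exact ⟨h1, fun i h' => h2 ⟨i, Finset.mem_univ _, h'.symm⟩⟩
      · rintro ⟨h1, h2⟩
        refine ⟨h1, ?_⟩
        rintro ⟨i, _, h'⟩
        exact h2 i h'.symm
    have gM : ∀ x ∈ M, g x ∈ M := by
      intro x hx
      rw [memM] at hx ⊢
      refine ⟨?_, ?_⟩
      · rw [← comm_app hc]
        intro h'; exact hx.1 (g.injective h')
      · intro i h'
        rw [← he i] at h'
        exact hx.2 i (g.injective h')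
    have hpM : p ∈ M := (memM p).mpr ⟨hpF, hpe⟩
    have hypM : y p ∈ M := (memM _).mpr ⟨by rw [app_app hy]; exact Ne.symm hpF, hype⟩
    -- another pair
    obtain ⟨q, hqM, hqn⟩ : ∃ q ∈ M, q ∉ ({p, y p} : Finset α) := by
      apply Finset.exists_mem_notMem_of_card_lt_card
      have : ({p, y p} : Finset α).card ≤ 2 := Finset.card_le_two
      omega
    simp only [Finset.mem_insert, Finset.mem_singleton, not_or] at hqn
    have hqF := ((memM q).mp hqM).1
    have hyqM : y q ∈ M := by
      rw [memM]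
      refine ⟨by rw [app_app hy]; exact Ne.symm hqF, ?_⟩
      intro i h'
      have h3 : q = y (e i) := by rw [← h', app_app hy]
      rw [hp i] at h3
      exact ((memM q).mp hqM).2 _ h3
    have hyqp : y q ≠ p := by
      intro h'; apply hqn.2; rw [← h', app_app hy]
    have hMset : M = {p, y p, q, y q} := by
      symm
      apply Finset.eq_of_subset_of_card_le
      · intro x hx
        simp only [Finset.mem_insert, Finset.mem_singleton] at hx
        rcases hx with rfl | rfl | rfl | rfl
        · exact hpM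
        · exact hypM
        · exact hqM
        · exact hyqM
      · rw [hMc, Finset.card_insert_of_notMem, Finset.card_insert_of_notMem,
          Finset.card_insert_of_notMem, Finset.card_singleton]
        · simp only [Finset.mem_singleton]; exact Ne.symm hqF
        · simp only [Finset.mem_insert, Finset.mem_singleton, not_or]
          refine ⟨Ne.symm hqn.2, ?_⟩
          intro h'; exact hqn.1 (y.injective h').symm
        · simp only [Finset.mem_insert, Finset.mem_singleton, not_or]
          exact ⟨Ne.symm hpF, Ne.symm hqn.1, Ne.symm hyqp⟩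
    have mem4 : ∀ x ∈ M, x = p ∨ x = y p ∨ x = q ∨ x = y q := by
      intro x hx
      rw [hMset] at hx
      simpa only [Finset.mem_insert, Finset.mem_singleton] using hx
    -- g maps pairs to pairs
    have key : ∀ x, g x = x ∨ g x = y x → (g ^ 4) x = x := by
      intro x hx
      have h2 : (g ^ 2) x = x := by
        rw [pow_two, Perm.mul_apply]
        rcases hx with hx | hx
        · rw [hx, hx]
        · rw [hx, comm_app hc, hx, app_app hy]
      have : g ^ 4 = g ^ 2 * g ^ 2 := by group
      rw [this, Perm.mul_apply, h2, h2]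
    have hgy : ∀ x, g (y x) = y (g x) := fun x => comm_app hc x
    have h4 : (g ^ 4) p = p := by
      have e4 : (g ^ 4) p = g (g (g (g p))) := by
        simp [pow_succ, Perm.mul_apply]
      rcases mem4 _ (gM p hpM) with h1 | h1 | h1 | h1
      · exact key p (Or.inl h1)
      · exact key p (Or.inr h1)
      · rcases mem4 _ (gM q hqM) with h2 | h2 | h2 | h2
        · rw [e4, h1, h2, h1, h2]
        · rw [e4, h1, h2, hgy, h1, hgy, h2, app_app hy]
        · exfalso; apply hqn.1
          apply g.injective; rw [h2, h1]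
        · exfalso
          apply hqn.2
          apply g.injective; rw [h2, hgy, h1]
      · rcases mem4 _ (gM q hqM) with h2 | h2 | h2 | h2
        · rw [e4, h1, hgy, h2, hgy, h1, app_app hy, h2]
        · rw [e4, h1, hgy, h2, app_app hy, h1, hgy, h2, app_app hy]
        · exfalso
          apply hyqp
          apply g.injective; rw [hgy, h2, h1]
        · exfalso
          apply hqn.1
          apply g.injective; rw [h2, h1]
    exact fix_of_four hN hgN h4
  by_contra hg1
  have hcs : g.support.card ≤ 3 := (Finset.card_le_card hsupp).trans hFy.le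
  have hcs2 : 2 ≤ g.support.card := Perm.two_le_card_support_of_ne_one hg1
  have hcs3 : g.support.card = 2 ∨ g.support.card = 3 := by omega
  rcases hcs3 with h2 | h3
  · rw [Perm.card_support_eq_two] at h2
    obtain ⟨a, b, hab, hgab⟩ := h2
    have h5 : g ^ 2 = 1 := by rw [hgab, pow_two, swap_mul_self]
    apply hg1
    obtain ⟨k, hk⟩ := hN
    rw [hk, pow_succ, pow_mul, h5, one_pow, one_mul] at hgN
    exact hgN
  · rw [card_support_eq_three_iff] at h3
    exact hA (Perm.alternatingGroup_le_of_isPreprimitive_of_isThreeCycle_mem hpre h3 hg.1)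

/-- The order of `G`. -/
theorem card_G (h : Hyp G) (e : Fin 4 ↪ α) :
    Nat.card G = (Fintype.card α).descFactorial 4 * Nat.card (Kst G e) := by
  have h1 := orbit_count (H := G) (S := Kst G e) (β := Fin 4 ↪ α) e Finset.univ (by
    intro b
    constructor
    · intro _
      obtain ⟨g, hg, hge⟩ := h.trans e b
      exact ⟨g, hg, by ext i; exact hge i⟩
    · intro _; exact Finset.mem_univ _) (by
    intro g
    rw [mem_Kst]
    constructor
    · rintro ⟨h1, h2⟩
      exact ⟨h1, by ext i; exact h2 i⟩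
    · rintro ⟨h1, h2⟩
      refine ⟨h1, fun i => ?_⟩
      exact congrArg (fun z : Fin 4 ↪ α => z i) h2)
  rw [h1, Finset.card_univ, Fintype.card_embedding_eq, Fintype.card_fin]

/-- degree at least 8 -/
theorem main_eight (h : Hyp G) (hpre : MulAction.IsPreprimitive G α)
    (hn : 8 ≤ Fintype.card α) (e : Fin 4 ↪ α) : Fintype.card α = 11 ∧ Nat.card G = 7920 := by
  obtain ⟨f, m, κ, C, d⟩ := exists_data h (by omega) e
  obtain ⟨rfl, rfl⟩ := Data.eight h d hn e
  have hcard : Fintype.card α = 11 := d.add.symm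
  have hG := card_G h e
  rw [hcard, d.card_K e] at hG
  have hdf : (11 : ℕ).descFactorial 4 = 7920 := by decide
  rw [hdf] at hG
  have hA : ¬ alternatingGroup α ≤ G := by
    intro hA
    have : Nontrivial α := by
      rw [← Fintype.one_lt_card_iff_nontrivial]; omega
    have h1 := card_dvd_of_le hA
    rw [nat_card_alternatingGroup, Nat.card_eq_fintype_card, hcard, hG] at h1
    have h2 : (11 : ℕ).factorial / 2 = 7920 * 2520 := by decide
    rw [h2] at h1
    have h3 : 2520 ∣ κ := Nat.dvd_of_mul_dvd_mul_left (by norm_num) h1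
    have h4 : 2 ∣ κ := (by norm_num : (2 : ℕ) ∣ 2520).trans h3
    rw [← d.card_K e] at h4
    exact h.odd e h4
  obtain ⟨a, b, c, z, ha, hb, hc, hbκ, h1, h2, h3, h4, s, hsG, t, htG, hs, ht, hst, hp, hq, hz⟩ :=
    Data.ab h d e
  have hst2 : s * t * (s * t) = 1 := by
    rw [mul_assoc, ← mul_assoc t, ← hst, mul_assoc, ht, mul_one, hs]
  have hpq : Pat (s * t) e (swap 0 1 * swap 2 3) := by
    have h1 := hp.mul hq
    have h2 : swap (2 : Fin 4) 3 * swap 0 1 = swap 0 1 * swap 2 3 := by decide
    rwa [h2] at h1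
  have hbot : Nat.card ↥(Kst G e ⊓ centralizer ({s * t} : Set (Perm α))) = 1 := by
    rw [Subgroup.card_eq_one, eq_bot_iff]
    intro g hg
    rw [Subgroup.mem_inf, mem_centralizer_singleton_iff] at hg
    rw [Subgroup.mem_bot]
    exact cent_trivial h d hpre hA (G.mul_mem hsG htG) hst2 hpq hg.1 hg.2
  have h5 := d.two h (G.mul_mem hsG htG) hst2 hpq
  rw [hbot] at h5
  norm_num at h1 h2 h5
  have hb1 : b = 1 := by omega
  have ha1 : a = 1 := by omega
  subst hb1 ha1
  have hκ : κ = 1 := by
    have : κ ∣ 1 := ⟨c ^ 2, by rw [← h3]⟩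
    exact Nat.dvd_one.mp this
  rw [hκ] at hG
  exact ⟨hcard, by rw [hG]⟩

end Cfsg.Agent.Lib.H43FourE
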