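import Cfsg.Agent.Lib.H31BBal3
import Cfsg.Agent.Lib.H34PComp
import Cfsg.Agent.Lib.PConstrained

/-!
2-components of double centralizers under the B-property (helper46)
-/

set_option autoImplicit false
open scoped Pointwise commutatorElement
open Subgroup Cfsg

namespace Cfsg.Agent.Lib.H46BProp

open Cfsg.Agent.Lib.Components Cfsg.Agent.Lib.Layer Cfsg.Agent.Lib.CompRel
  Cfsg.Agent.Lib.PComponents Cfsg.Agent.Lib.LocBase
  Cfsg.Agent.Lib.LocalLayer Cfsg.Agent.Lib.H31BBal

universe u v

/-- the image of a `p`-component under a homomorphism with `p'`-kernel is a `p`-component -/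
theorem PC_map {X : Type u} [Group X] [Finite X] {Y : Type u} [Group Y] [Finite Y] {p : ℕ} [hp : Fact p.Prime]
    (f : X →* Y) (hk : ¬ p ∣ Nat.card f.ker) {L M : Subgroup X} (h : PC p L M) : PC p (L.map f) (M.map f) := by
  refine ⟨h.1.map f, ?_, ?_⟩
  · apply le_antisymm (pEl_le p _)
    conv_lhs => rw [← h.2.1]
    unfold pEl
    rw [MonoidHom.map_closure]
    apply Subgroup.closure_mono
    rintro _ ⟨x, ⟨hx, k, hk⟩, rfl⟩
    exact ⟨mem_map_of_mem f hx, k, by rw [← map_pow, hk, map_one]⟩
  · set g := f.subgroupMap L with hg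
    have hgs : Function.Surjective g := f.subgroupMap_surjective L
    have hle : (pPrimeCore p ↥L).map g ≤ pPrimeCore p ↥(L.map f) := Cores.map_pPrimeCore_le g hgs
    let φ : (↥L ⧸ pPrimeCore p ↥L) →* (↥(L.map f) ⧸ pPrimeCore p ↥(L.map f)) :=
      QuotientGroup.lift (pPrimeCore p ↥L) ((QuotientGroup.mk' (pPrimeCore p ↥(L.map f))).comp g) (fun x hx => by
        rw [MonoidHom.mem_ker, MonoidHom.comp_apply, ← MonoidHom.mem_ker, QuotientGroup.ker_mk']
        exact hle (mem_map_of_mem g hx))
    have hφ : Function.Surjective φ := by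
      intro y
      obtain ⟨y, rfl⟩ := QuotientGroup.mk'_surjective _ y
      obtain ⟨x, rfl⟩ := hgs y
      exact ⟨QuotientGroup.mk' _ x, rfl⟩
    have hnt : Nontrivial (↥(L.map f) ⧸ pPrimeCore p ↥(L.map f)) := by
      rw [QuotientGroup.nontrivial_iff]
      intro htop
      have h1 : (Nat.card ↥(L.map f)).Coprime p := by
        have := Cores.coprime_card_pPrimeCore p ↥(L.map f)
        rwa [htop, Subgroup.card_top] at this
      have h2 : p ∣ Nat.card L := h.dvd_card
      have h3 : Nat.card L ∣ Nat.card f.ker * Nat.card ↥(L.map f) := by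
        have e1 : Nat.card L = Nat.card (g.ker) * Nat.card (L.map f) := by
          have := Subgroup.card_mul_index g.ker
          rw [Subgroup.index_ker, MonoidHom.range_eq_top.2 hgs, Subgroup.card_top] at this
          exact this.symm
        rw [e1]
        apply mul_dvd_mul_right
        have e2 : g.ker = f.ker.subgroupOf L := by
          ext x
          rw [MonoidHom.mem_ker, mem_subgroupOf, MonoidHom.mem_ker]
          constructor
          · intro hx
            have := congrArg Subtype.val hx
            exact this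
          · intro hx
            exact Subtype.ext hx
        rw [e2]
        exact Subgroup.card_comap_dvd_of_injective _ _ L.subtype_injective
      rcases (hp.out.dvd_mul).1 (h2.trans h3) with h4 | h4
      · exact hk h4
      · exact (hp.out.coprime_iff_not_dvd.1 h1.symm) h4
    exact quasisimple_of_surjective h.2.2 φ hφ


variable {G : Type u} [Group G] [Finite G]

theorem mem_normalizer_of_conj_mem {E : Subgroup G} {j : G} (h : ∀ e ∈ E, j * e * j⁻¹ ∈ E) :
    j ∈ normalizer (E : Set G) := by
  have h1 : E.map (MulAut.conj j).toMonoidHom ≤ E := by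
    rintro _ ⟨e, he, rfl⟩
    exact h e he
  apply mem_normalizer_of_map_conj
  apply Subgroup.eq_of_le_of_card_ge h1
  rw [Subgroup.card_map_of_injective (MulAut.conj j).injective]

theorem center_le : center G ≤ Cfsg.generalizedFittingSubgroup G := by
  have h0 : Group.IsNilpotent (center G) := by
    have : Group.IsNilpotent (⊥ : Subgroup (center G ⧸ center (center G))) := inferInstance
    letI : CommGroup (center G) := { (inferInstance : Group (center G)) with mul_comm := fun a b => Subtype.ext (mem_center_iff.1 b.2 a) }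
    exact CommGroup.isNilpotent
  exact (Cores.le_fittingSubgroup inferInstance h0).trans le_sup_right

theorem centralizer_ne_top (hF : IsSimpleGroup ↥(Cfsg.generalizedFittingSubgroup G))
    (hF' : ¬ IsMulCommutative ↥(Cfsg.generalizedFittingSubgroup G)) {y : G} (hy : y ≠ 1) :
    Subgroup.centralizer ({y} : Set G) ≠ ⊤ := by
  intro htop
  have hyc : y ∈ center G := by
    rw [mem_center_iff]
    intro g
    have : g ∈ Subgroup.centralizer ({y} : Set G) := by rw [htop]; exact mem_top g
    exact mem_centralizer_singleton_iff.1 this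
  have hyF : (⟨y, center_le hyc⟩ : ↥(Cfsg.generalizedFittingSubgroup G)) ∈ center ↥(Cfsg.generalizedFittingSubgroup G) := by
    rw [mem_center_iff]
    intro g
    exact Subtype.ext (mem_center_iff.1 hyc g.1)
  rcases hF.eq_bot_or_eq_top_of_normal (center ↥(Cfsg.generalizedFittingSubgroup G)) inferInstance with h | h
  · rw [h, mem_bot] at hyF
    exact hy (congrArg Subtype.val hyF)
  · exact hF' ⟨⟨fun a b => by
      have : b ∈ center ↥(Cfsg.generalizedFittingSubgroup G) := by rw [h]; exact mem_top b
      exact mem_center_iff.1 this a⟩⟩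

theorem le_normalizer_pLayer (p : ℕ) (X : Subgroup G) : X ≤ normalizer (((Cfsg.pLayer p ↥X).map X.subtype : Subgroup G) : Set G) := by
  have := H23Basic.pLayer_normal (G := ↥X) p
  intro g hg
  rw [mem_normalizer_iff]
  intro h
  constructor
  · rintro ⟨l, hl, rfl⟩
    exact ⟨⟨g, hg⟩ * l * ⟨g, hg⟩⁻¹, this.conj_mem l hl _, rfl⟩
  · rintro ⟨l, hl, he⟩
    refine ⟨⟨g, hg⟩⁻¹ * l * (⟨g, hg⟩⁻¹)⁻¹, this.conj_mem l hl _, ?_⟩
    have he' : (l : G) = g * h * g⁻¹ := he
    change g⁻¹ * (l : G) * (g⁻¹)⁻¹ = h
    rw [he']; group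

/-- `J` in the double centralizer, ambient form -/
theorem pc_step {p : ℕ} [hp : Fact p.Prime] {LX X Y : Subgroup G} (hLXX : LX ≤ X) (hn : X ≤ normalizer (LX : Set G))
    (J : Subgroup ↥(LX ⊓ Y)) (hJ : Cfsg.IsPComponent p J) :
    PC p (J.map (Subgroup.subtype _)) (X ⊓ Y) := by
  have h1 : PC p (J.map (LX ⊓ Y).subtype) (LX ⊓ Y) := by
    rw [pc_iff (map_subtype_le J), Subgroup.subgroupOf, Subgroup.comap_map_eq_self_of_injective (LX ⊓ Y).subtype_injective]
    exact hJ
  refine h1.trans ?_
  apply Subn.of_normal (inf_le_inf_right _ hLXX)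
  intro g hg
  rw [mem_normalizer_iff]
  intro h
  have h1 := mem_normalizer_iff.1 (hn hg.1) h
  have h2 := mem_normalizer_iff.1 (le_normalizer hg.2 : g ∈ normalizer (Y : Set G)) h
  rw [mem_inf, mem_inf]
  exact and_congr h1 h2

/-- the centralizer of `x` modulo the core -/
theorem map_centralizer (x : G) (hx : orderOf x = 2) :
    (Subgroup.centralizer ({x} : Set G)).map (QuotientGroup.mk' (Cfsg.oddCore G)) =
      Subgroup.centralizer ({QuotientGroup.mk' (Cfsg.oddCore G) x} : Set (G ⧸ Cfsg.oddCore G)) := by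
  have : Fact (Nat.Prime 2) := ⟨Nat.prime_two⟩
  have h1 := PConstrained.map_centralizer_of_pgroup (X := G) (p := 2) (N := Cfsg.oddCore G)
    (by
      have := Cores.coprime_card_pPrimeCore 2 G
      exact (Nat.prime_two.coprime_iff_not_dvd.1 this.symm)) (P := zpowers x)
    (IsPGroup.of_card (n := 1) (by rw [Nat.card_zpowers, hx, pow_one]))
  have h2 : ∀ {A : Type u} [Group A] (a : A), Subgroup.centralizer ((zpowers a : Subgroup A) : Set A) = Subgroup.centralizer ({a} : Set A) := by
    intro A _ a
    rw [zpowers_eq_closure, centralizer_closure]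
  rw [MonoidHom.map_zpowers, h2, h2] at h1
  exact h1

/-- the main statement: `Y` is a group whose quotient by the core has the B-property, `J` a 2-component of `C_Y(x)` -/
theorem main (x : G) (hx : orderOf x = 2) (hB : Cfsg.HasBProperty (G ⧸ Cfsg.oddCore G)) {J : Subgroup G}
    (hJ : PC 2 J (Subgroup.centralizer ({x} : Set G))) :
    Cfsg.IsComponent ((J.map (QuotientGroup.mk' (Cfsg.oddCore G))).subgroupOf
      (Subgroup.centralizer ({QuotientGroup.mk' (Cfsg.oddCore G) x} : Set (G ⧸ Cfsg.oddCore G)))) ∧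
    ∀ E : Subgroup G, E ≤ Subgroup.centralizer ({x} : Set G) → Odd (Nat.card ↥E) →
        (∀ j ∈ J, ∀ e ∈ E, j * e * j⁻¹ ∈ E) → ⁅J, E⁆ ≤ Cfsg.oddCore G := by
  have hp2 : Fact (Nat.Prime 2) := ⟨Nat.prime_two⟩
  set f := QuotientGroup.mk' (Cfsg.oddCore G) with hf
  have hcop := Cores.coprime_card_pPrimeCore 2 G
  have hk : ¬ 2 ∣ Nat.card f.ker := by
    rw [hf, QuotientGroup.ker_mk']
    exact (Nat.prime_two.coprime_iff_not_dvd.1 hcop.symm)
  have h1 := PC_map f hk hJ
  rw [map_centralizer x hx] at h1
  set R := Subgroup.centralizer ({f x} : Set (G ⧸ Cfsg.oddCore G)) with hR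
  have hord : orderOf (f x) = 2 := by
    apply orderOf_eq_prime
    · have hx2 : x ^ 2 = 1 := by have := pow_orderOf_eq_one x; rwa [hx] at this
      rw [← map_pow, hx2, map_one]
    · intro h
      rw [← MonoidHom.mem_ker, hf, QuotientGroup.ker_mk'] at h
      have h3 : orderOf x ∣ Nat.card (Cfsg.oddCore G) := by
        have := orderOf_dvd_natCard (⟨x, h⟩ : Cfsg.oddCore G)
        rwa [Subgroup.orderOf_mk] at this
      rw [hx] at h3
      exact (Nat.prime_two.coprime_iff_not_dvd.1 hcop.symm) h3
  have hcomp := (pc_iff h1.le).1 h1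
  have hQ : Cfsg.oddCore (G ⧸ Cfsg.oddCore G) = ⊥ := Cores.pPrimeCore_quotient_pPrimeCore 2 G
  have hBR := hB (f x) hord
  rw [hQ, le_bot_iff, Subgroup.map_eq_bot_iff_of_injective _ (Subgroup.subtype_injective _)] at hBR
  have hIC : Cfsg.IsComponent ((J.map f).subgroupOf R) := by
    rw [H34PComp.isComponent_iff hcomp, eq_bot_iff, ← hBR]
    exact Subgroup.commutator_mono (pComponent_le_pLayer hcomp) le_rfl
  refine ⟨hIC, ?_⟩
  intro E hE hodd hinv
  have hER : E.map f ≤ R := by
    rw [hR, ← map_centralizer x hx]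
    exact Subgroup.map_mono hE
  -- work in the group `J̄ Ē`
  set K := J.map f with hK
  set E' := E.map f with hE'
  have hKE : K ≤ normalizer (E' : Set (G ⧸ Cfsg.oddCore G)) := by
    rintro _ ⟨j, hj, rfl⟩
    have hjn : j ∈ normalizer (E : Set G) := by
      exact mem_normalizer_of_conj_mem (fun e he => hinv j hj e he)
    exact le_normalizer_map f (mem_map_of_mem f hjn)
  have hsub : Subn E' (K ⊔ E') := Subn.of_normal le_sup_right (sup_le hKE le_normalizer)
  have hKM : IsComponent (K.subgroupOf (K ⊔ E')) := by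
    have h2 : Subn K (K ⊔ E') := h1.1.of_le le_sup_left (sup_le h1.le hER)
    refine ⟨(subn_iff le_sup_left).1 h2, ?_⟩
    have h3 : IsQuasisimple K := (quasisimple_subgroupOf h1.le).1 hIC.2
    exact (quasisimple_subgroupOf le_sup_left).2 h3
  rcases component_le_or_le_centralizer_rel le_sup_left le_sup_right hKM ((subn_iff le_sup_right).1 hsub) with h | h
  · exfalso
    have h2 : 2 ∣ Nat.card K := h1.dvd_card
    have h3 := h2.trans (Subgroup.card_dvd_of_le h)
    have h6 : Nat.card E' ∣ Nat.card E := Subgroup.card_map_dvd E f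
    have h4 : 2 ∣ Nat.card E := dvd_trans h3 h6
    have h5 : Even (Nat.card E) := even_iff_two_dvd.2 h4
    exact (Nat.not_even_iff_odd.2 hodd) h5
  · rw [le_centralizer_iff_commutator, hK, hE', ← Subgroup.map_commutator, Subgroup.map_eq_bot_iff, hf, QuotientGroup.ker_mk'] at h
    exact h

end Cfsg.Agent.Lib.H46BProp
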