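import Cfsg.Agent.Lib.SigP
import Cfsg.Agent.Lib.H49Base
import Cfsg.Agent.Lib.CoprimeGen
import Cfsg.Agent.Lib.SylAmb

/-!
ZC-groups (helper47): the cores `θ(t) = O(C_G(t))` of the centralizers of involutions.
-/

set_option autoImplicit false
set_option linter.unusedSectionVars false

namespace Cfsg.Agent.Lib.H47Zc

open Subgroup Cfsg Cfsg.Agent.Lib.LocBase Cfsg.Agent.Lib.SigCon Cfsg.Agent.Lib.SigTwo
open scoped commutatorElement Pointwise

universe u

variable {G : Type u} [Group G] [Finite G]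

instance fact2' : Fact (Nat.Prime 2) := ⟨Nat.prime_two⟩

/-- conjugate subgroup -/
abbrev cj (g : G) (A : Subgroup G) : Subgroup G := A.map (MulAut.conj g).toMonoidHom

/-- `θ(t) = O(C_G(t))` -/
def th (t : G) : Subgroup G := oOf 2 (centralizer ({t} : Set G))

theorem mem_cent {t x : G} : x ∈ centralizer ({t} : Set G) ↔ x * t = t * x := mem_centralizer_singleton_iff

theorem th_le (t : G) : th t ≤ centralizer ({t} : Set G) := oOf_le _

theorem th_cop (t : G) : (Nat.card (th t)).Coprime 2 := coprime_card_oOf _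

theorem C_le_N (t : G) : centralizer ({t} : Set G) ≤ normalizer (th t : Set G) := le_normalizer_oOf _

theorem le_th {N : Subgroup G} {t : G} (hN : N ≤ centralizer ({t} : Set G))
    (hn : centralizer ({t} : Set G) ≤ normalizer (N : Set G)) (hc : (Nat.card N).Coprime 2) : N ≤ th t :=
  le_oOf hN hn hc

theorem cj_centralizer (g t : G) : cj g (centralizer ({t} : Set G)) = centralizer ({g * t * g⁻¹} : Set G) := by
  ext x
  constructor
  · rintro ⟨y, hy, rfl⟩
    have hy' : y * t = t * y := mem_cent.mp hy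
    rw [mem_cent]
    show g * y * g⁻¹ * (g * t * g⁻¹) = g * t * g⁻¹ * (g * y * g⁻¹)
    calc g * y * g⁻¹ * (g * t * g⁻¹) = g * (y * t) * g⁻¹ := by group
      _ = g * (t * y) * g⁻¹ := by rw [hy']
      _ = _ := by group
  · intro hx
    rw [mem_cent] at hx
    refine ⟨g⁻¹ * x * g, ?_, by show g * (g⁻¹ * x * g) * g⁻¹ = x; group⟩
    show _ ∈ centralizer ({t} : Set G)
    rw [mem_cent]
    calc g⁻¹ * x * g * t = g⁻¹ * (x * (g * t * g⁻¹)) * g := by group
      _ = g⁻¹ * (g * t * g⁻¹ * x) * g := by rw [hx]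
      _ = t * (g⁻¹ * x * g) := by group

theorem cj_mul (a b : G) (A : Subgroup G) : cj a (cj b A) = cj (a * b) A := by
  rw [cj, cj, cj, Subgroup.map_map]
  congr 1
  ext x
  show a * (b * x * b⁻¹) * a⁻¹ = (a * b) * x * (a * b)⁻¹
  group

theorem cj_one (A : Subgroup G) : cj 1 A = A := by
  ext x
  constructor
  · rintro ⟨y, hy, rfl⟩
    show 1 * y * 1⁻¹ ∈ A
    simpa using hy
  · intro hx
    exact ⟨x, hx, by show 1 * x * 1⁻¹ = x; simp⟩

theorem mem_cj {a x : G} {A : Subgroup G} (hx : x ∈ A) : a * x * a⁻¹ ∈ cj a A := ⟨x, hx, rfl⟩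

theorem mem_cj_iff {a x : G} {A : Subgroup G} : x ∈ cj a A ↔ a⁻¹ * x * a ∈ A := by
  constructor
  · rintro ⟨y, hy, rfl⟩
    have : a⁻¹ * (a * y * a⁻¹) * a = y := by group
    show a⁻¹ * (a * y * a⁻¹) * a ∈ A
    rw [this]; exact hy
  · intro h
    exact ⟨_, h, by show a * (a⁻¹ * x * a) * a⁻¹ = x; group⟩

theorem cj_le_cj {g : G} {A B : Subgroup G} : cj g A ≤ cj g B ↔ A ≤ B := map_conj_le_map_conj g

theorem cj_inj {g : G} {A B : Subgroup G} (h : cj g A = cj g B) : A = B :=
  le_antisymm (cj_le_cj.mp h.le) (cj_le_cj.mp h.ge)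

/-- `θ(gtg⁻¹) = gθ(t)g⁻¹` -/
theorem th_cj_le (g t : G) : cj g (th t) ≤ th (g * t * g⁻¹) := by
  apply le_th
  · rw [← cj_centralizer]; exact map_conj_mono g (th_le t)
  · rw [← cj_centralizer]
    rintro _ ⟨c, hc, rfl⟩
    have h1 := C_le_N t hc
    apply mem_normalizer_of_map_conj_eq
    show cj (g * c * g⁻¹) (cj g (th t)) = cj g (th t)
    rw [cj_mul, show g * c * g⁻¹ * g = g * c by group, ← cj_mul, show cj c (th t) = th t from map_conj_eq_of_mem h1]
  · rw [card_map_conj]; exact th_cop t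

theorem th_cj (g t : G) : th (g * t * g⁻¹) = cj g (th t) := by
  apply le_antisymm _ (th_cj_le g t)
  have h := th_cj_le g⁻¹ (g * t * g⁻¹)
  rw [show g⁻¹ * (g * t * g⁻¹) * g⁻¹⁻¹ = t by group] at h
  have h2 := (cj_le_cj (g := g)).mpr h
  rw [cj_mul, mul_inv_cancel, cj_one] at h2
  exact h2

theorem card_th (g t : G) : Nat.card (th (g * t * g⁻¹)) = Nat.card (th t) := by
  rw [th_cj, card_map_conj]

/-- the standing hypothesis: centralizers of involutions are solvable -/
def Slv (G : Type u) [Group G] : Prop :=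
  ∀ t : G, orderOf t = 2 → Group.IsSolvable ↥(centralizer ({t} : Set G))

theorem Slv.pc (h : Slv G) {t : G} (ht : orderOf t = 2) : IsPConstrained 2 ↥(centralizer ({t} : Set G)) :=
  SigP.isPConstrained_of_isSolvable (h t ht)

/-- balance -/
theorem Slv.bal (h : Slv G) {a b : G} (ha : orderOf a = 2) (hb : orderOf b = 2) (hab : a * b = b * a) :
    th a ⊓ centralizer ({b} : Set G) ≤ th b := by
  apply le_oOf_of_le_oOf_centralizer (B := zpowers a) (h.pc hb) (isPGroup_zpowers_two ha)
  · rw [zpowers_le]; exact mem_cent.mpr hab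
  · exact inf_le_right
  · rw [centralizer_zpowers_eq]; exact inf_le_left

/-- a subgroup of odd order which centralizes the 2-group `Q` and is normalized by `C_G(Q)` is contained in `θ(c)` -/
theorem Slv.balQ (h : Slv G) {c : G} (hc : orderOf c = 2) {Q U : Subgroup G} (hQ : IsPGroup 2 Q)
    (hQc : Q ≤ centralizer ({c} : Set G)) (hcQ : c ∈ Q) (hU : U ≤ centralizer (Q : Set G))
    (hn : centralizer (Q : Set G) ≤ normalizer (U : Set G)) (hodd : (Nat.card U).Coprime 2) : U ≤ th c := by
  apply le_oOf_of_le_oOf_centralizer (B := Q) (h.pc hc) hQ hQc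
  · refine hU.trans (centralizer_le ?_)
    rw [Set.singleton_subset_iff]; exact hcQ
  · exact le_oOf hU hn hodd

/-- generation by the centralizers of the involutions of a four-group -/
theorem gen_four {U D : Subgroup G} (hU : (Nat.card U).Coprime 2) {a b : G} (ha : orderOf a = 2) (hb : orderOf b = 2)
    (hab : a * b = b * a) (hne : a ≠ b) (haU : a ∈ normalizer (U : Set G)) (hbU : b ∈ normalizer (U : Set G))
    (hDa : U ⊓ centralizer ({a} : Set G) ≤ D) (hDb : U ⊓ centralizer ({b} : Set G) ≤ D)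
    (hD : D ≤ centralizer ({a * b} : Set G)) : U ≤ centralizer ({a * b} : Set G) := by
  have ha2 : a * a = 1 := by rw [← pow_two, ← ha, pow_orderOf_eq_one]
  have hb2 : b * b = 1 := by rw [← pow_two, ← hb, pow_orderOf_eq_one]
  have ha1 : a ≠ 1 := by rintro rfl; rw [orderOf_one] at ha; omega
  have hb1 : b ≠ 1 := by rintro rfl; rw [orderOf_one] at hb; omega
  have hc : b * a = a * b := hab.symm
  set A := NormalFour.four a b ha2 hb2 hc with hA
  have hAc : IsMulCommutative A := NormalFour.four_isMulCommutative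
  have hAnc : ¬ IsCyclic A := NormalFour.four_not_isCyclic ha1 hb1 (Ne.symm hne)
  have hAU : A ≤ normalizer (U : Set G) := by
    intro x hx
    rcases NormalFour.mem_four.mp hx with rfl | rfl | rfl | rfl
    · exact one_mem _
    · exact haU
    · exact hbU
    · exact mul_mem hbU haU
  have hAp : IsPGroup 2 A := by
    rintro ⟨x, hx⟩
    refine ⟨1, Subtype.ext ?_⟩
    show x ^ 2 ^ 1 = 1
    rw [pow_one, pow_two]
    rcases NormalFour.mem_four.mp hx with rfl | rfl | rfl | rfl
    · exact one_mul 1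
    · exact ha2
    · exact hb2
    · calc b * a * (b * a) = b * (a * b) * a := by group
        _ = b * (b * a) * a := by rw [hc]
        _ = (b * b) * (a * a) := by group
        _ = 1 := by rw [ha2, hb2, one_mul]
  have hcop : (Nat.card A).Coprime (Nat.card U) := (coprime_of_pgroup hAp hU).symm
  have h1 := CoprimeGen.iSup_centralizer_eq hAc hAnc hAU hcop
  rw [← h1]
  apply iSup₂_le
  rintro x ⟨hx, hx1⟩
  rcases NormalFour.mem_four.mp hx with rfl | rfl | rfl | rfl
  · exact absurd rfl hx1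
  · exact hDa.trans hD
  · exact hDb.trans hD
  · rw [hc]; exact inf_le_right

end Cfsg.Agent.Lib.H47Zc
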