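import Cfsg.Agent.Lib.H47ZcA

/-!
ZC-groups (helper47): 2-central involutions `z` with `C_G(z) ≤ N_G(S)`, the case `|Ω₁(Z(S))| = 2`.
-/

set_option autoImplicit false
set_option linter.unusedSectionVars false

namespace Cfsg.Agent.Lib.H47Zc

open Subgroup Cfsg Cfsg.Agent.Lib.LocBase Cfsg.Agent.Lib.SigCon Cfsg.Agent.Lib.SigTwo
open scoped commutatorElement Pointwise

universe u

variable {G : Type u} [Group G] [Finite G]

/-- `z` is the only involution in the center of the Sylow 2-subgroup `S`, and `C_G(z) ≤ N_G(S)` -/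
structure Pr (z : G) (S : Subgroup G) : Prop where
  syl : IsSyl 2 S ⊤
  zS : z ∈ S
  zo : orderOf z = 2
  cn : centralizer ({z} : Set G) ≤ normalizer (S : Set G)
  zc : S ≤ centralizer ({z} : Set G)
  uq : ∀ x ∈ S, (∀ s ∈ S, s * x = x * s) → x ^ 2 = 1 → x = 1 ∨ x = z

theorem zz_of {z : G} (h : orderOf z = 2) : z * z = 1 := by rw [← pow_two, ← h, pow_orderOf_eq_one]

theorem ne_one_of {z : G} (h : orderOf z = 2) : z ≠ 1 := by rintro rfl; rw [orderOf_one] at h; omega

theorem orderOf_conj' (g x : G) : orderOf (g * x * g⁻¹) = orderOf x := by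
  have := orderOf_injective (MulAut.conj g).toMonoidHom (MulAut.conj g).injective x
  exact this

theorem Pr.conj {z : G} {S : Subgroup G} (h : Pr z S) (g : G) : Pr (g * z * g⁻¹) (cj g S) where
  syl := by
    have := h.syl.map_conj g
    rwa [show (⊤ : Subgroup G).map (MulAut.conj g).toMonoidHom = ⊤ from
      Subgroup.map_top_of_surjective _ (MulAut.conj g).surjective] at this
  zS := mem_cj h.zS
  zo := by rw [orderOf_conj', h.zo]
  cn := by
    rw [← cj_centralizer]
    rintro _ ⟨c, hc, rfl⟩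
    apply mem_normalizer_of_map_conj_eq
    show cj (g * c * g⁻¹) (cj g S) = cj g S
    rw [cj_mul, show g * c * g⁻¹ * g = g * c by group, ← cj_mul,
      show cj c S = S from map_conj_eq_of_mem (h.cn hc)]
  zc := by rw [← cj_centralizer]; exact map_conj_mono g h.zc
  uq := by
    rintro _ ⟨x, hx, rfl⟩ hc hx2
    have hx2' : (g * x * g⁻¹) ^ 2 = 1 := hx2
    rw [conj_pow] at hx2'
    have h1 : x ^ 2 = 1 := by
      have : x ^ 2 = g⁻¹ * (g * x ^ 2 * g⁻¹) * g := by group
      rw [this, hx2']; group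
    rcases h.uq x hx (by
      intro s hs
      have h2 : g * s * g⁻¹ * (g * x * g⁻¹) = g * x * g⁻¹ * (g * s * g⁻¹) := hc _ (mem_cj hs)
      calc s * x = g⁻¹ * (g * s * g⁻¹ * (g * x * g⁻¹)) * g := by group
        _ = g⁻¹ * (g * x * g⁻¹ * (g * s * g⁻¹)) * g := by rw [h2]
        _ = x * s := by group) h1 with e | e
    · left; show g * x * g⁻¹ = 1; rw [e]; group
    · right; show g * x * g⁻¹ = g * z * g⁻¹; rw [e]

section pr

variable {z : G} {S : Subgroup G} (h : Pr z S)
include h

theorem Pr.z2 : z * z = 1 := zz_of h.zo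
theorem Pr.z1 : z ≠ 1 := ne_one_of h.zo

theorem Pr.comm {s : G} (hs : s ∈ S) : s * z = z * s := mem_cent.mp (h.zc hs)

/-- 2-subgroups of `C_G(z)` are contained in `S` -/
theorem Pr.le_of {X : Subgroup G} (hX : IsPGroup 2 X) (hXC : X ≤ centralizer ({z} : Set G)) : X ≤ S := by
  have h1 : IsPGroup 2 (S ⊔ X : Subgroup G) := isPGroup_sup h.syl.pgroup hX (hXC.trans h.cn)
  have h2 := h.syl.eq_of_le h1 le_top le_sup_left
  rw [h2]; exact le_sup_right

theorem Pr.mem_of {x : G} (hx : orderOf x = 2) (hxz : x * z = z * x) : x ∈ S := by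
  have := h.le_of (X := zpowers x) (isPGroup_zpowers_two hx) (by rw [zpowers_le]; exact mem_cent.mpr hxz)
  exact this (mem_zpowers x)

theorem Pr.th_cent : th z ≤ centralizer (S : Set G) := by
  rw [← commutator_eq_bot_iff_le_centralizer]
  have h1 : ⁅th z, S⁆ ≤ th z := commutator_le_left_of_le (h.zc.trans (C_le_N z))
  have h2 : ⁅th z, S⁆ ≤ S := commutator_le_right_of_le ((th_le z).trans h.cn)
  have h3 := disj_of_coprime h.syl.pgroup (th_cop z)
  exact le_bot_iff.mp (h3 ▸ le_inf h1 h2)

/-- two commuting 2-central involutions have the same core -/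
theorem Pr.th_le_of_comm (hs : Slv G) {z' : G} {S' : Subgroup G} (h' : Pr z' S') (hc : z * z' = z' * z) :
    th z ≤ th z' := by
  have hz'S : z' ∈ S := h.mem_of h'.zo hc.symm
  have hzS' : z ∈ S' := h'.mem_of h.zo hc
  have hcent : th z ≤ centralizer (S : Set G) := h.th_cent
  have hle : th z ≤ centralizer ({z'} : Set G) := by
    intro d hd
    rw [mem_cent]
    exact (hcent hd z' hz'S).symm
  have hN : th z ≤ normalizer (S' : Set G) := hle.trans h'.cn
  -- `θ(z)` centralizes `S'`
  have hS' : th z ≤ centralizer (S' : Set G) := by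
    intro d hd
    have hdo : (orderOf d).Coprime 2 := by
      apply Nat.Coprime.coprime_dvd_left _ (th_cop z)
      have := orderOf_dvd_natCard (⟨d, hd⟩ : th z)
      rwa [Subgroup.orderOf_mk] at this
    have key := H49Base.thompson_axb (p := 2) (A := zpowers z) (P := S') (isPGroup_zpowers_two h.zo) h'.syl.pgroup
      (by rw [zpowers_le]; exact le_normalizer hzS') (b := d) hdo (by
        intro a ha
        obtain ⟨k, rfl⟩ := mem_zpowers_iff.mp ha
        exact ((show Commute d z from (mem_cent.mp (th_le z hd)))).zpow_right k) (hN hd) (by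
        intro x hx hxz
        have h1 : x * z = z * x := (hxz z (mem_zpowers z)).symm
        -- `x ∈ C(z)`, a 2-element
        have h2 : zpowers x ≤ S := by
          apply h.le_of
          · exact h'.syl.pgroup.to_le (by rw [zpowers_le]; exact hx)
          · rw [zpowers_le]; exact mem_cent.mpr h1
        exact (hcent hd x (h2 (mem_zpowers x))).symm)
    intro x hx
    exact (key x hx).symm
  -- `θ(z) ≤ θ(z')`
  refine le_oOf_of_commutator_le (A := S') (hs.pc h'.zo) h'.zc hle h'.syl.pgroup ?_ (th_cop z) ?_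
  · rintro x hx ⟨k, hk⟩
    have hx1 : x * z' = z' * x := (hx z' h'.zS).symm
    have h2 : zpowers x ≤ S' := by
      apply h'.le_of
      · rintro ⟨y, hy⟩
        obtain ⟨m, rfl⟩ := mem_zpowers_iff.mp hy
        refine ⟨k, Subtype.ext ?_⟩
        show (x ^ m) ^ 2 ^ k = 1
        rw [← zpow_natCast, zpow_comm, zpow_natCast, hk, one_zpow]
      · rw [zpowers_le]; exact mem_cent.mpr hx1
    exact h2 (mem_zpowers x)
  · rw [(commutator_eq_bot_iff_le_centralizer).mpr hS']; exact bot_le

theorem Pr.th_eq_of_comm (hs : Slv G) {z' : G} {S' : Subgroup G} (h' : Pr z' S') (hc : z * z' = z' * z) :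
    th z = th z' :=
  le_antisymm (h.th_le_of_comm hs h' hc) (h'.th_le_of_comm hs h hc.symm)

/-- F5: `t` an involution commuting with `z`: `θ(z) ≤ θ(t)` and `θ(t) ∩ C(z) = θ(z)` -/
theorem Pr.th_le_th (hs : Slv G) {t : G} (ht : orderOf t = 2) (hc : t * z = z * t) : th z ≤ th t := by
  have h1 : t ∈ S := h.mem_of ht hc
  have h2 : th z ≤ centralizer ({t} : Set G) := by
    intro d hd
    rw [mem_cent]
    exact (h.th_cent hd t h1).symm
  calc th z ≤ th z ⊓ centralizer ({t} : Set G) := le_inf le_rfl h2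
    _ ≤ th t := hs.bal h.zo ht hc.symm

theorem Pr.th_inf (hs : Slv G) {t : G} (ht : orderOf t = 2) (hc : t * z = z * t) :
    th t ⊓ centralizer ({z} : Set G) = th z :=
  le_antisymm (hs.bal ht h.zo hc) (le_inf (h.th_le_th hs ht hc) (th_le z))

end pr

end Cfsg.Agent.Lib.H47Zc
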