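import Cfsg.Agent.Lib.H47ZcB
import Cfsg.Agent.Lib.Supersolvable2

/-!
ZC-groups (helper47): `θ(z z₁) = θ(z)` for commuting 2-central involutions `z`, `z₁` (the case `|Ω₁(Z(S))| = 2`).
-/

set_option autoImplicit false
set_option linter.unusedSectionVars false

namespace Cfsg.Agent.Lib.H47Zc

open Subgroup Cfsg Cfsg.Agent.Lib.LocBase Cfsg.Agent.Lib.SigCon Cfsg.Agent.Lib.SigTwo
open scoped commutatorElement Pointwise

universe u

variable {G : Type u} [Group G] [Finite G]

/-- a nontrivial normal subgroup of a 2-group contains a central involution -/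
theorem exists_inv_center {S N : Subgroup G} (hS : IsPGroup 2 S) (hN : N ≤ S) (hn : S ≤ normalizer (N : Set G))
    (h1 : N ≠ ⊥) : ∃ x ∈ N, orderOf x = 2 ∧ ∀ s ∈ S, s * x = x * s := by
  have h2 := Supersolvable.inf_centralizer_ne_bot (p := 2) hS hN hn h1
  obtain ⟨x, hx, hxo, -⟩ := ConstrainedLocal.exists_central_orderOf (p := 2) (hS.to_le (inf_le_left.trans hN)) h2
  exact ⟨x, hx.1, hxo, fun s hs => hx.2 s hs⟩

theorem orderOf_two {x : G} (h : x * x = 1) (h1 : x ≠ 1) : orderOf x = 2 :=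
  orderOf_eq_prime (by rw [pow_two, h]) h1

theorem mul_mul_self {a b : G} (ha : a * a = 1) (hb : b * b = 1) (hab : a * b = b * a) : a * b * (a * b) = 1 := by
  calc a * b * (a * b) = a * (b * a) * b := by group
    _ = a * (a * b) * b := by rw [hab]
    _ = (a * a) * (b * b) := by group
    _ = 1 := by rw [ha, hb, one_mul]

/-- `z₁` is 2-central -/
def Zt (z : G) : Prop := ∃ S : Subgroup G, Pr z S

theorem Zt.conj {z : G} (h : Zt z) (g : G) : Zt (g * z * g⁻¹) := ⟨_, h.choose_spec.conj g⟩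

section pr

variable {z : G} {S : Subgroup G} (h : Pr z S)
include h

theorem Pr.zt : Zt z := ⟨S, h⟩

/-- F8 -/
theorem Pr.F8 (hs : Slv G) {z₁ : G} (h1 : Zt z₁) (h1S : z₁ ∈ S) (hne : z₁ ≠ z) : th (z * z₁) = th z := by
  obtain ⟨S₁, h1'⟩ := h1
  have hc1 : z₁ * z = z * z₁ := h.comm h1S
  have h1z : z₁ * z₁ = 1 := zz_of h1'.zo
  have ht1 : z * z₁ ≠ 1 := by
    intro e
    apply hne
    calc z₁ = (z * z) * z₁ := by rw [h.z2, one_mul]
      _ = z * (z * z₁) := by group
      _ = z := by rw [e, mul_one]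
  have hto : orderOf (z * z₁) = 2 := orderOf_two (mul_mul_self h.z2 h1z hc1.symm) ht1
  have htS : z * z₁ ∈ S := mul_mem h.zS h1S
  set U := th (z * z₁) with hU
  have htz : (z * z₁) * z = z * (z * z₁) := h.comm htS
  have hDU : th z ≤ U := h.th_le_th hs hto htz
  have hinf : U ⊓ centralizer ({z} : Set G) = th z := h.th_inf hs hto htz
  have hUcop : (Nat.card U).Coprime 2 := th_cop _
  have hCN : centralizer ({z * z₁} : Set G) ≤ normalizer (U : Set G) := C_le_N _
  have hzN : z ∈ normalizer (U : Set G) := hCN (mem_cent.mpr htz.symm)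
  have h1N : z₁ ∈ normalizer (U : Set G) := hCN (mem_cent.mpr (by
    rw [← mul_assoc, hc1, mul_assoc]))
  -- elements `z z₃`
  have key : ∀ z₃ ∈ S, z₃ ∈ normalizer (U : Set G) → Zt z₃ → z₃ ≠ z → U ≤ centralizer ({z * z₃} : Set G) := by
    intro z₃ h3S h3N h3 h3z
    obtain ⟨S₃, h3'⟩ := h3
    have hc3 : z₃ * z = z * z₃ := h.comm h3S
    have hzS3 : z ∈ S₃ := h3'.mem_of h.zo hc3.symm
    have hY : U ⊓ centralizer ({z₃} : Set G) ≤ th z := by
      rw [← hinf]
      refine le_inf inf_le_left ?_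
      rintro y ⟨hyU, hy3⟩
      have e1 : y * z * y⁻¹ * z⁻¹ ∈ S₃ := by
        have := (mem_normalizer_iff.1 (h3'.cn hy3) z).1 hzS3
        exact mul_mem this (inv_mem hzS3)
      have e2 : y * z * y⁻¹ * z⁻¹ ∈ U := by
        have := (mem_normalizer_iff.1 hzN y⁻¹).1 (inv_mem hyU)
        have e3 : y * z * y⁻¹ * z⁻¹ = y * (z * y⁻¹ * z⁻¹) := by group
        rw [e3]; exact mul_mem hyU this
      have e3 : y * z * y⁻¹ * z⁻¹ = 1 := by
        have := disj_of_coprime h3'.syl.pgroup hUcop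
        have h4 : y * z * y⁻¹ * z⁻¹ ∈ U ⊓ S₃ := ⟨e2, e1⟩
        rw [this] at h4
        exact mem_bot.mp h4
      rw [mem_cent]
      calc y * z = (y * z * y⁻¹ * z⁻¹) * (z * y) := by group
        _ = z * y := by rw [e3, one_mul]
    apply gen_four hUcop (D := th z) h.zo h3'.zo hc3.symm (Ne.symm h3z) hzN h3N hinf.le hY
    intro d hd
    rw [mem_cent]
    exact (h.th_cent hd _ (mul_mem h.zS h3S)).symm
  -- `S_*`
  set T := S ⊓ normalizer (U : Set G) with hT
  set Q := S ⊓ centralizer (U : Set G) with hQ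
  have htQ : z * z₁ ∈ Q := ⟨htS, by
    intro y hy
    exact mem_cent.mp (key z₁ h1S h1N ⟨S₁, h1'⟩ hne hy)⟩
  have hQp : IsPGroup 2 Q := h.syl.pgroup.to_le inf_le_left
  have hQ1 : Q ≠ ⊥ := by
    intro e
    rw [e, mem_bot] at htQ
    exact ht1 htQ
  obtain ⟨c, hcQ, hco, hcc⟩ := exists_inv_center hQp le_rfl le_normalizer hQ1
  have hUc : U ≤ th c := by
    apply hs.balQ hco hQp (fun x hx => mem_cent.mpr (hcc x hx)) hcQ
    · intro u hu x hx
      exact (hx.2 u hu).symm
    · refine le_trans ?_ hCN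
      intro x hx
      rw [mem_cent]
      exact (hx _ htQ).symm
    · exact hUcop
  have hST : ∀ s ∈ S, s ∈ normalizer (T : Set G) → s ∈ T := by
    intro s hsS hsN
    refine ⟨hsS, ?_⟩
    have h1T : z₁ ∈ T := ⟨h1S, h1N⟩
    have h1s : s * z₁ * s⁻¹ ∈ T := (mem_normalizer_iff.1 hsN z₁).1 h1T
    have hzs : s * z * s⁻¹ = z := by rw [h.comm hsS]; group
    have h1sne : s * z₁ * s⁻¹ ≠ z := by
      intro e
      apply hne
      have : s * z₁ * s⁻¹ = s * z * s⁻¹ := by rw [e, hzs]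
      exact mul_left_cancel (mul_right_cancel this)
    have hk := key _ h1s.1 h1s.2 (Zt.conj ⟨S₁, h1'⟩ s) h1sne
    have e1 : z * (s * z₁ * s⁻¹) = s * (z * z₁) * s⁻¹ := by
      conv_lhs => rw [← hzs]
      group
    rw [e1] at hk
    have hmQ : s * (z * z₁) * s⁻¹ ∈ Q := ⟨S.mul_mem (S.mul_mem hsS htS) (S.inv_mem hsS), fun y hy => mem_cent.mp (hk hy)⟩
    have hle : U ≤ th (s * (z * z₁) * s⁻¹) := by
      calc U ≤ th c ⊓ centralizer ({s * (z * z₁) * s⁻¹} : Set G) := le_inf hUc hk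
        _ ≤ _ := hs.bal hco (by rw [orderOf_conj', hto]) (hcc _ hmQ).symm
    rw [th_cj] at hle
    have heq : U = cj s U := SetLike.coe_injective
      (Set.eq_of_subset_of_ncard_le hle (by
        show Nat.card (cj s U) ≤ Nat.card U
        rw [card_map_conj]) (Set.toFinite _))
    exact mem_normalizer_of_map_conj_eq heq.symm
  have hTS : T = S := by
    by_contra hne'
    have hlt : T < S := lt_of_le_of_ne inf_le_left hne'
    have := SylAmb.lt_inf_normalizer h.syl.pgroup hlt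
    obtain ⟨x, hx, hxn⟩ := SetLike.exists_of_lt this
    exact hxn (hST x hx.1 hx.2)
  have hSN : S ≤ normalizer (U : Set G) := by rw [← hTS]; exact inf_le_right
  obtain ⟨x, hxQ, hxo, hxc⟩ := exists_inv_center h.syl.pgroup (N := Q) inf_le_left
    (le_normalizer_inf le_normalizer (le_normalizer_centralizer hSN)) hQ1
  have hxz : x = z := by
    rcases h.uq x hxQ.1 hxc (by rw [← hxo, pow_orderOf_eq_one]) with e | e
    · exact absurd e (ne_one_of hxo)
    · exact e
  rw [hxz] at hxQ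
  rw [← hinf]
  symm
  rw [inf_eq_left]
  intro y hy
  exact mem_cent.mpr (hxQ.2 y hy)

/-- key1 -/
theorem Pr.key1 (hs : Slv G) {z₁ e : G} (h1 : Zt z₁) (h1S : z₁ ∈ S) (hne : z₁ ≠ z) (heS : e ∈ S)
    (heo : orderOf e = 2) (he1 : e * z₁ = z₁ * e) : th e = th z := by
  obtain ⟨S₁, h1'⟩ := h1
  have hc1 : z₁ * z = z * z₁ := h.comm h1S
  have hez : e * z = z * e := h.comm heS
  have h3 : th z = th z₁ := h.th_eq_of_comm hs h1' hc1.symm
  have hi1 := h.th_inf hs heo hez
  have hi2 := h1'.th_inf hs heo he1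
  have hz : z ∈ normalizer (th e : Set G) := C_le_N e (mem_cent.mpr hez.symm)
  have hz1 : z₁ ∈ normalizer (th e : Set G) := C_le_N e (mem_cent.mpr he1.symm)
  have hD : th z ≤ centralizer ({z * z₁} : Set G) := by
    intro d hd
    rw [mem_cent]
    exact (h.th_cent hd _ (mul_mem h.zS h1S)).symm
  have hg := gen_four (th_cop e) h.zo h1'.zo hc1.symm (Ne.symm hne) hz hz1 hi1.le (by rw [hi2, h3]) hD
  have ht1 : z * z₁ ≠ 1 := by
    intro e
    apply hne
    calc z₁ = (z * z) * z₁ := by rw [h.z2, one_mul]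
      _ = z * (z * z₁) := by group
      _ = z := by rw [e, mul_one]
  have hto : orderOf (z * z₁) = 2 := orderOf_two (mul_mul_self h.z2 (zz_of h1'.zo) hc1.symm) ht1
  apply le_antisymm _ (h.th_le_th hs heo hez)
  calc th e ≤ th e ⊓ centralizer ({z * z₁} : Set G) := le_inf le_rfl hg
    _ ≤ th (z * z₁) := hs.bal heo hto (by rw [← mul_assoc, hez, mul_assoc, he1, ← mul_assoc])
    _ = th z := h.F8 hs ⟨S₁, h1'⟩ h1S hne

/-- key2 -/
theorem Pr.key2 (hs : Slv G) {z₁ c t : G} (h1 : Zt z₁) (h1S : z₁ ∈ S) (hne : z₁ ≠ z) (hcS : c ∈ S)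
    (hco : orderOf c = 2) (hcz : c ≠ z) (hc1 : c * z₁ = z₁ * c) (htS : t ∈ S) (hto : orderOf t = 2)
    (htc : t * c = c * t) : th t = th z := by
  have hcz' : c * z = z * c := h.comm hcS
  have htz : t * z = z * t := h.comm htS
  have hczS : c * z ∈ S := mul_mem hcS h.zS
  have h2 : c * z ≠ 1 := by
    intro e
    apply hcz
    calc c = c * (z * z) := by rw [h.z2, mul_one]
      _ = (c * z) * z := by group
      _ = z := by rw [e, one_mul]
  have h2o : orderOf (c * z) = 2 := orderOf_two (mul_mul_self (zz_of hco) h.z2 hcz') h2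
  have h3 : c * z * z₁ = z₁ * (c * z) := by rw [mul_assoc, ← h.comm h1S, ← mul_assoc, hc1, mul_assoc]
  have e1 := h.key1 hs h1 h1S hne hcS hco hc1
  have e2 := h.key1 hs h1 h1S hne hczS h2o h3
  have hz : z ∈ normalizer (th t : Set G) := C_le_N t (mem_cent.mpr htz.symm)
  have hc : c ∈ normalizer (th t : Set G) := C_le_N t (mem_cent.mpr htc.symm)
  have hD : th z ≤ centralizer ({c * z} : Set G) := by
    intro d hd
    rw [mem_cent]
    exact (h.th_cent hd _ hczS).symm
  have hb : th t ⊓ centralizer ({c} : Set G) ≤ th z := by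
    rw [← e1]; exact hs.bal hto hco htc
  have hg := gen_four (th_cop t) hco h.zo hcz' hcz hc hz hb (h.th_inf hs hto htz).le hD
  apply le_antisymm _ (h.th_le_th hs hto htz)
  calc th t ≤ th t ⊓ centralizer ({c * z} : Set G) := le_inf le_rfl hg
    _ ≤ th (c * z) := hs.bal hto h2o (by rw [← mul_assoc, htc, mul_assoc, htz, ← mul_assoc])
    _ = th z := e2

end pr

end Cfsg.Agent.Lib.H47Zc
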