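import Cfsg.Agent.Lib.H47ZcC
import Cfsg.Agent.Lib.H70Miller2
import Cfsg.Agent.Lib.TutA
import Cfsg.Agent.Lib.CharBasic
import Cfsg.Agent.Lib.H70Frattini
import Cfsg.Agent.S0113
import Cfsg.Agent.Lib.SmallFusion

/-!
ZC-groups (helper47): all involutions `t` of `R = S ∩ O²(G)` have the same core (the case `|Ω₁(Z(S))| = 2`).
-/

set_option autoImplicit false
set_option linter.unusedSectionVars false

namespace Cfsg.Agent.Lib.H47Zc

open Subgroup Cfsg Cfsg.Agent.Lib.LocBase Cfsg.Agent.Lib.SigCon Cfsg.Agent.Lib.SigTwo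
open scoped commutatorElement Pointwise

universe u

/-- if `|C_P(x)| = 4`, `x ∉ M`, `|P : M| = 2`, then the class of `x` is `L ∖ M` for some `L` of index two -/
theorem class_eq {P : Type u} [Group P] [Finite P] (hP : IsPGroup 2 P) {M : Subgroup P} (hM : M.index = 2) {x : P}
    (hx : x ∉ M) (h4 : Nat.card (centralizer ({x} : Set P)) = 4) (hne : centralizer ({x} : Set P) ≠ ⊤) :
    ∃ L : Subgroup P, L.index = 2 ∧ x ∈ L ∧ ∀ t ∈ L, t ∉ M → IsConj x t := by
  obtain ⟨L, hL, hCL⟩ := (eq_top_or_exists_le_coatom (centralizer ({x} : Set P))).resolve_left hne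
  have hLi : L.index = 2 := H70Frattini.coatom_index hP hL
  have hMn : M.Normal := Subgroup.normal_of_index_eq_two hM
  have hLn : L.Normal := Subgroup.normal_of_index_eq_two hLi
  have hxL : x ∈ L := hCL (mem_centralizer_singleton_iff.mpr rfl)
  refine ⟨L, hLi, hxL, ?_⟩
  have hAB : {t : P | IsConj x t} ⊆ (L : Set P) \ (L ⊓ M : Subgroup P) := by
    rintro t ht
    obtain ⟨g, rfl⟩ := isConj_iff.mp ht
    refine ⟨hLn.conj_mem x hxL g, ?_⟩
    rintro ⟨-, h2⟩
    apply hx
    have := hMn.conj_mem _ h2 g⁻¹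
    have e : g⁻¹ * (g * x * g⁻¹) * g⁻¹⁻¹ = x := by group
    rwa [e] at this
  have hc1 : ({t : P | IsConj x t}).ncard * 4 = Nat.card P := by
    have := CharBasic.card_isConj_mul_card_centralizer x
    rw [h4] at this
    exact this
  have hc2 : Nat.card L * 2 = Nat.card P := by rw [← hLi]; exact L.card_mul_index
  have hnle : ¬ L ≤ M := fun h => hx (h hxL)
  have hc3 : (L ⊓ M).relIndex L = 2 := by
    apply Tut.relIndex_inf_two (B := ⊤) (A := M) (C := L) _ le_top hnle
    rw [relIndex_top_right]; exact hM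
  have hc4 : Nat.card (L ⊓ M : Subgroup P) * 2 = Nat.card L := by
    rw [← hc3]; exact SubgroupTools.card_mul_relIndex_of_le inf_le_left
  have hc5 : ((L : Set P) \ (L ⊓ M : Subgroup P)).ncard + Nat.card (L ⊓ M : Subgroup P) = Nat.card L :=
    Set.ncard_sdiff_add_ncard_of_subset (show ((L ⊓ M : Subgroup P) : Set P) ⊆ L from inf_le_left)
  have heq := Set.eq_of_subset_of_ncard_le hAB (by omega) (Set.toFinite _)
  intro t htL htM
  have h5 : t ∈ (L : Set P) \ (L ⊓ M : Subgroup P) := ⟨htL, fun h => htM h.2⟩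
  rw [← heq] at h5
  exact h5

variable {G : Type u} [Group G] [Finite G]

/-- the situation of F10 -/
structure FT (z : G) (S H : Subgroup G) (z₀ : G) : Prop where
  pr : Pr z S
  slv : Slv G
  nor : H.Normal
  zH : z ∈ H
  zt : Zt z₀
  z0S : z₀ ∈ S
  z0H : z₀ ∈ H
  ne : z₀ ≠ z
  cjz : ∃ g : G, z₀ = g * z * g⁻¹
  tt : ∀ Q : Subgroup G, Q ≤ S ⊓ H → Q.relIndex (S ⊓ H) = 2 → ∀ u ∈ S ⊓ H, orderOf u = 2 → u ∉ Q →
    ∃ g : G, g * u * g⁻¹ ∈ Q
  bad : ∃ t ∈ S ⊓ H, orderOf t = 2 ∧ th t ≠ th z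

section ft

variable {z z₀ : G} {S H : Subgroup G} (h : FT z S H z₀)
include h

theorem FT.good_of_conj {t : G} (ht : t ∈ S) {g : G} (hg : t = g * z * g⁻¹) : th t = th z :=
  (h.pr.th_eq_of_comm h.slv (S' := cj g S) (z' := t) (by rw [hg]; exact h.pr.conj g) (h.pr.comm ht).symm).symm

/-- badness is invariant under conjugation -/
theorem FT.bad_conj {t : G} (ht : t ∈ S) (hto : orderOf t = 2) (hb : th t ≠ th z) (g : G) :
    th (g * t * g⁻¹) ≠ th z := by
  intro e
  apply hb
  have h1 : th z ≤ th t := h.pr.th_le_th h.slv hto (h.pr.comm ht)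
  have h2 : Nat.card (th t) = Nat.card (th z) := by rw [← card_th g t, e]
  symm
  exact SetLike.coe_injective (Set.eq_of_subset_of_ncard_le h1 (by
    show Nat.card (th t) ≤ Nat.card (th z)
    rw [h2]) (Set.toFinite _))

/-- every subgroup of index two of `R` contains a bad involution -/
theorem FT.B {Q : Subgroup G} (hQ : Q ≤ S ⊓ H) (hi : Q.relIndex (S ⊓ H) = 2) :
    ∃ t ∈ Q, orderOf t = 2 ∧ th t ≠ th z := by
  obtain ⟨t, htR, hto, hb⟩ := h.bad
  by_cases htQ : t ∈ Q
  · exact ⟨t, htQ, hto, hb⟩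
  · obtain ⟨g, hg⟩ := h.tt Q hQ hi t htR hto htQ
    exact ⟨_, hg, by rw [orderOf_conj', hto], h.bad_conj htR.1 hto hb g⟩

theorem FT.z0o : orderOf z₀ = 2 := h.zt.choose_spec.zo

/-- step a -/
theorem FT.stepA {c : G} (hc : c ∈ S ⊓ H) (hco : orderOf c = 2) (hcc : ∀ r ∈ S ⊓ H, r * c = c * r) : c = z := by
  by_contra hne
  obtain ⟨t, htR, hto, hb⟩ := h.bad
  exact hb (h.pr.key2 h.slv h.zt h.z0S h.ne hc.1 hco hne (hcc z₀ ⟨h.z0S, h.z0H⟩).symm htR.1 hto (hcc t htR))

/-- Lemma Q -/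
theorem FT.lemQ {R₁ : Subgroup G} (h1 : R₁ ≤ S ⊓ H) (hi : R₁.relIndex (S ⊓ H) = 2) (h0 : z₀ ∉ R₁)
    (hq : ∀ x ∈ R₁, x * z₀ = z₀ * x → orderOf x = 2 → x = z) : False := by
  obtain ⟨S₀, h0'⟩ := h.zt
  have hz0R : z₀ ∈ S ⊓ H := ⟨h.z0S, h.z0H⟩
  have hzR : z ∈ S ⊓ H := ⟨h.pr.zS, h.zH⟩
  have hz0z : z₀ * z = z * z₀ := h.pr.comm h.z0S
  have hz02 : z₀ * z₀ = 1 := zz_of h0'.zo
  have hSp : IsPGroup 2 (S ⊓ H : Subgroup G) := h.pr.syl.pgroup.to_le inf_le_left
  -- `z ∈ R₁`
  have hzR1 : z ∈ R₁ := by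
    by_contra hz1
    have h2 : z₀ * z ∈ R₁ := Tut.mul_mem_of_relIndex_two hi hz0R hzR h0 hz1
    have h3 : z₀ * z ≠ 1 := by
      intro e
      apply h.ne
      calc z₀ = z₀ * (z * z) := by rw [h.pr.z2, mul_one]
        _ = (z₀ * z) * z := by group
        _ = z := by rw [e, one_mul]
    have h4 := hq _ h2 (by rw [mul_assoc, ← hz0z, ]) (orderOf_two (mul_mul_self hz02 h.pr.z2 hz0z) h3)
    have h5 : z₀ = 1 := mul_eq_right.mp h4
    exact ne_one_of h0'.zo h5
  set P := (S ⊓ H) ⊓ centralizer ({z₀} : Set G) with hP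
  set Q := R₁ ⊓ centralizer ({z₀} : Set G) with hQ
  have hQP : Q ≤ P := inf_le_inf_right _ h1
  have hPQ : ∀ x ∈ P, x ∈ Q ∨ x * z₀ ∈ Q := by
    intro x hx
    by_cases hx1 : x ∈ R₁
    · exact Or.inl ⟨hx1, hx.2⟩
    · exact Or.inr ⟨Tut.mul_mem_of_relIndex_two hi hx.1 hz0R hx1 h0,
        mul_mem hx.2 (mem_cent.mpr rfl)⟩
  have hz0Z : P < S ⊓ H := by
    apply lt_of_le_of_ne inf_le_left
    intro e
    apply h.ne
    apply h.stepA hz0R h0'.zo
    intro r hr
    rw [← e] at hr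
    exact mem_cent.mp hr.2
  -- `P ≤ S₀ ∩ H`
  have hPS0 : P ≤ S₀ ⊓ H := by
    refine le_inf (h0'.le_of (hSp.to_le inf_le_left) inf_le_right) (inf_le_left.trans inf_le_right)
  obtain ⟨g, -, hgS⟩ := h.pr.syl.conj h0'.syl
  have hcard : Nat.card (S₀ ⊓ H : Subgroup G) = Nat.card (S ⊓ H : Subgroup G) := by
    have e : cj g (S₀ ⊓ H) = S ⊓ H := by
      rw [cj, Subgroup.map_inf _ _ _ (MulAut.conj g).injective]
      rw [hgS]
      congr 1
      exact map_conj_eq_of_mem (by haveI := h.nor; rw [Subgroup.normalizer_eq_top]; exact mem_top g)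
    rw [← e, card_map_conj]
  have hlt : P < S₀ ⊓ H := by
    apply lt_of_le_of_ne hPS0
    intro e
    have h3 : Nat.card P = Nat.card (S ⊓ H : Subgroup G) := by rw [e, hcard]
    exact hz0Z.ne (SetLike.coe_injective (Set.eq_of_subset_of_ncard_le hz0Z.le (by
      show Nat.card (S ⊓ H : Subgroup G) ≤ Nat.card P
      rw [h3]) (Set.toFinite _)))
  have hS0p : IsPGroup 2 (S₀ ⊓ H : Subgroup G) := h0'.syl.pgroup.to_le inf_le_left
  obtain ⟨y, hy, hyP⟩ := SetLike.exists_of_lt (SylAmb.lt_inf_normalizer hS0p hlt)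
  have hyz0 : y * z₀ = z₀ * y := h0'.comm hy.1.1
  -- `y` does not centralize `z`
  have hyz : y * z * y⁻¹ ≠ z := by
    intro e
    apply hyP
    have e1 : y * z = z * y := by
      calc y * z = (y * z * y⁻¹) * y := by group
        _ = z * y := by rw [e]
    have h2 : zpowers y ≤ S := by
      apply h.pr.le_of
      · exact hS0p.to_le (by rw [zpowers_le]; exact hy.1)
      · rw [zpowers_le]; exact mem_cent.mpr e1
    exact ⟨⟨h2 (mem_zpowers y), hy.1.2⟩, mem_cent.mpr hyz0⟩
  -- squares of `P` lie in `Q`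
  have hsq : ∀ x ∈ P, x * x ∈ Q := by
    intro x hx
    by_cases hx1 : x ∈ R₁
    · exact ⟨mul_mem hx1 hx1, mul_mem hx.2 hx.2⟩
    · exact ⟨Tut.mul_mem_of_relIndex_two hi hx.1 hx.1 hx1 hx1, mul_mem hx.2 hx.2⟩
  have hzQ : z ∈ Q := ⟨hzR1, mem_cent.mpr hz0z.symm⟩
  by_cases hw : ∃ w ∈ P, w * w = z
  · obtain ⟨w, hwP, hww⟩ := hw
    apply hyz
    have h2 : y * w * y⁻¹ ∈ P := (mem_normalizer_iff.1 hy.2 w).1 hwP
    have h3 := hsq _ h2
    have e1 : y * w * y⁻¹ * (y * w * y⁻¹) = y * z * y⁻¹ := by rw [← hww]; group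
    rw [e1] at h3
    exact hq _ h3.1 (mem_cent.mp h3.2) (by rw [orderOf_conj', h.pr.zo])
  · -- `Q = {1, z}`
    push Not at hw
    have hQ2 : ∀ x ∈ Q, x = 1 ∨ x = z := by
      intro x hx
      by_contra hcon
      push Not at hcon
      -- some power of `x` is a square root of `z`
      obtain ⟨k, hk⟩ := (IsPGroup.iff_orderOf.mp hSp) ⟨x, h1 hx.1⟩
      rw [Subgroup.orderOf_mk] at hk
      have hk0 : k ≠ 0 := by
        rintro rfl
        rw [pow_zero, orderOf_eq_one_iff] at hk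
        exact hcon.1 hk
      have hk1 : k ≠ 1 := by
        rintro rfl
        rw [pow_one] at hk
        exact hcon.2 (hq x hx.1 (mem_cent.mp hx.2) hk)
      obtain ⟨j, rfl⟩ : ∃ j, k = j + 2 := ⟨k - 2, by omega⟩
      have h3 : x ^ 2 ^ j ∈ Q := pow_mem hx _
      have h4 : orderOf (x ^ 2 ^ j) = 4 := by
        rw [orderOf_pow_of_dvd (by positivity) (by rw [hk]; exact pow_dvd_pow 2 (by omega)), hk, pow_add,
          Nat.mul_div_cancel_left _ (by positivity)]
        norm_num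
      have h5 : orderOf (x ^ 2 ^ j * x ^ 2 ^ j) = 2 := by
        rw [← pow_two, orderOf_pow_of_dvd (by norm_num) (by rw [h4]; norm_num), h4]
      have h6 : x ^ 2 ^ j * x ^ 2 ^ j ∈ Q := mul_mem h3 h3
      exact hw _ (hQP h3) (hq _ h6.1 (mem_cent.mp h6.2) h5)
    have hQz : Q = zpowers z := by
      apply le_antisymm
      · intro x hx
        rcases hQ2 x hx with e | e
        · rw [e]; exact one_mem _
        · rw [e]; exact mem_zpowers z
      · rw [zpowers_le]; exact hzQ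
    have hQc : Nat.card Q = 2 := by rw [hQz, Nat.card_zpowers, h.pr.zo]
    have hz0P : z₀ ∈ P := ⟨hz0R, mem_cent.mpr rfl⟩
    have hPi : (P ⊓ R₁).relIndex P = 2 :=
      Tut.relIndex_inf_two hi inf_le_left (fun h2 => h0 (h2 hz0P))
    have hPR : P ⊓ R₁ = Q := by
      ext x
      constructor
      · rintro ⟨h2, h3⟩; exact ⟨h3, h2.2⟩
      · rintro hx; exact ⟨hQP hx, hx.1⟩
    rw [hPR] at hPi
    have hPc : Nat.card P = 4 := by
      rw [← SubgroupTools.card_mul_relIndex_of_le hQP, hPi, hQc]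
    set x₀ : ↥(S ⊓ H) := ⟨z₀, hz0R⟩ with hx0
    have hcen : centralizer ({x₀} : Set ↥(S ⊓ H)) = P.subgroupOf (S ⊓ H) := by
      ext y
      rw [mem_centralizer_singleton_iff, mem_subgroupOf]
      constructor
      · intro hy
        exact ⟨y.2, mem_cent.mpr (congrArg Subtype.val hy)⟩
      · intro hy
        exact Subtype.ext (mem_cent.mp hy.2)
    obtain ⟨L, hLi, hxL, hLc⟩ := class_eq hSp (M := R₁.subgroupOf (S ⊓ H)) hi (x := x₀) (by
        rw [mem_subgroupOf]; exact h0) (by rw [hcen, card_subgroupOf_of_le inf_le_left, hPc]) (by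
        intro e
        apply hz0Z.ne
        rw [hcen, subgroupOf_eq_top] at e
        exact le_antisymm inf_le_left e)
    have hLR : L.map (S ⊓ H).subtype ≤ S ⊓ H := by
      rintro _ ⟨y, -, rfl⟩; exact y.2
    obtain ⟨t, htL, hto, hb⟩ := h.B hLR (by
      show ((L.map (S ⊓ H).subtype).comap (S ⊓ H).subtype).index = 2
      rw [comap_map_eq_self_of_injective (subtype_injective _)]; exact hLi)
    obtain ⟨y, hyL, rfl⟩ := htL
    by_cases hyR : (y : G) ∈ R₁
    · have h3 := hLc (x₀ * y) (mul_mem hxL hyL) (by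
        rw [mem_subgroupOf]
        intro h4
        apply h0
        have := mul_mem h4 (inv_mem hyR)
        rwa [Subgroup.coe_mul, mul_inv_cancel_right] at this)
      obtain ⟨c, hc⟩ := isConj_iff.mp h3
      have h4 : (x₀ * y) * (x₀ * y) = 1 := by
        rw [← hc]
        have h5 : x₀ * x₀ = 1 := Subtype.ext hz02
        calc c * x₀ * c⁻¹ * (c * x₀ * c⁻¹) = c * (x₀ * x₀) * c⁻¹ := by group
          _ = 1 := by rw [h5]; group
      have h5 : z₀ * (y : G) * (z₀ * y) = 1 := congrArg Subtype.val h4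
      have hy2 : (y : G) * y = 1 := zz_of hto
      have h6 : (y : G) * z₀ = z₀ * y := by
        calc (y : G) * z₀ = z₀⁻¹ * (z₀ * (y : G) * (z₀ * y)) * (y : G)⁻¹ := by group
          _ = z₀⁻¹ * (y : G)⁻¹ := by rw [h5, mul_one]
          _ = z₀ * y := by rw [inv_eq_of_mul_eq_one_right hz02, inv_eq_of_mul_eq_one_right hy2]
      apply hb
      show th (y : G) = th z
      rw [hq _ hyR h6 hto]
    · have h3 := hLc y hyL (by rw [mem_subgroupOf]; exact hyR)
      obtain ⟨c, hc⟩ := isConj_iff.mp h3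
      have h4 : (c : G) * z₀ * (c : G)⁻¹ = y := congrArg Subtype.val hc
      obtain ⟨k, hk⟩ := h.cjz
      apply hb
      apply h.good_of_conj (t := y) y.2.1 (g := (c : G) * k)
      rw [← h4, hk]; group

/-- a normal four-group in `R` -/
theorem FT.caseI {a : G} (haR : a ∈ S ⊓ H) (hao : orderOf a = 2) (haz : a ≠ z)
    (hcom : ∀ r ∈ S ⊓ H, r * a * r⁻¹ = a ∨ r * a * r⁻¹ = z * a) : False := by
  have hz0R : z₀ ∈ S ⊓ H := ⟨h.z0S, h.z0H⟩
  have hza : a * z = z * a := h.pr.comm haR.1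
  have ha2 : a * a = 1 := zz_of hao
  -- some element moves `a`
  have hex : ∃ r ∈ S ⊓ H, r * a * r⁻¹ = z * a := by
    by_contra hcon
    push Not at hcon
    apply haz
    apply h.stepA haR hao
    intro r hr
    rcases hcom r hr with e | e
    · calc r * a = (r * a * r⁻¹) * r := by group
        _ = a * r := by rw [e]
    · exact absurd e (hcon r hr)
  obtain ⟨r₀, hr0, hr0a⟩ := hex
  set R₁ := (S ⊓ H) ⊓ centralizer ({a} : Set G) with hR1
  have hmem : ∀ b ∈ S ⊓ H, b ∉ R₁ → b * a * b⁻¹ = z * a := by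
    intro b hb hbn
    rcases hcom b hb with e | e
    · exfalso
      apply hbn
      refine ⟨hb, mem_cent.mpr ?_⟩
      calc b * a = (b * a * b⁻¹) * b := by group
        _ = a * b := by rw [e]
    · exact e
  have hi : R₁.relIndex (S ⊓ H) = 2 := by
    rw [Subgroup.relIndex_eq_two_iff]
    refine ⟨r₀, hr0, fun b hb => ?_⟩
    by_cases hb1 : b ∈ R₁
    · right
      refine ⟨hb1, fun h2 => ?_⟩
      have h3 := mem_cent.mp h2.2
      have h4 := mem_cent.mp hb1.2
      have h5 : r₀ * a = a * r₀ := by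
        have h6 : b * (r₀ * a) = b * (a * r₀) := by
          calc b * (r₀ * a) = b * r₀ * a := by group
            _ = a * (b * r₀) := h3
            _ = (a * b) * r₀ := by group
            _ = (b * a) * r₀ := by rw [h4]
            _ = b * (a * r₀) := by group
        exact mul_left_cancel h6
      have h7 : r₀ * a * r₀⁻¹ = a := by rw [h5]; group
      rw [h7] at hr0a
      exact h.pr.z1 (mul_eq_right.mp hr0a.symm)
    · left
      refine ⟨⟨mul_mem hb hr0, mem_cent.mpr ?_⟩, hb1⟩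
      have h3 := hmem b hb hb1
      have h4 : (b * r₀) * a * (b * r₀)⁻¹ = a := by
        calc (b * r₀) * a * (b * r₀)⁻¹ = b * (r₀ * a * r₀⁻¹) * b⁻¹ := by group
          _ = b * (z * a) * b⁻¹ := by rw [hr0a]
          _ = (b * z) * a * b⁻¹ := by group
          _ = (z * b) * a * b⁻¹ := by rw [h.pr.comm hb.1]
          _ = z * (b * a * b⁻¹) := by group
          _ = z * (z * a) := by rw [h3]
          _ = a := by rw [← mul_assoc, h.pr.z2, one_mul]
      calc (b * r₀) * a = ((b * r₀) * a * (b * r₀)⁻¹) * (b * r₀) := by group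
        _ = a * (b * r₀) := by rw [h4]
  -- `a` is bad
  have hab : th a ≠ th z := by
    intro e
    obtain ⟨t, ht, hto, hb⟩ := h.B (Q := R₁) inf_le_left hi
    apply hb
    have hta : t * a = a * t := mem_cent.mp ht.2
    have htz : t * z = z * t := h.pr.comm ht.1.1
    have e1 : th (z * a) = th z := by
      have hzr : r₀ * z * r₀⁻¹ = z := by rw [h.pr.comm hr0.1]; group
      calc th (z * a) = th (r₀ * a * r₀⁻¹) := by rw [hr0a]
        _ = cj r₀ (th a) := th_cj r₀ a
        _ = cj r₀ (th z) := by rw [e]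
        _ = th (r₀ * z * r₀⁻¹) := (th_cj r₀ z).symm
        _ = th z := by rw [hzr]
    have hzao : orderOf (z * a) = 2 := orderOf_two (mul_mul_self h.pr.z2 ha2 hza.symm) (by
      intro e2
      apply haz
      calc a = (z * z) * a := by rw [h.pr.z2, one_mul]
        _ = z * (z * a) := by group
        _ = z := by rw [e2, mul_one])
    have hzN : z ∈ normalizer (th t : Set G) := C_le_N t (mem_cent.mpr htz.symm)
    have haN : a ∈ normalizer (th t : Set G) := C_le_N t (mem_cent.mpr hta.symm)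
    have hba : th t ⊓ centralizer ({a} : Set G) ≤ th z := by
      rw [← e]; exact h.slv.bal hto hao hta
    have hg := gen_four (th_cop t) h.pr.zo hao hza.symm (Ne.symm haz) hzN haN
      (h.pr.th_inf h.slv hto htz).le hba (by
        intro d hd
        rw [mem_cent]
        exact (h.pr.th_cent hd _ (mul_mem h.pr.zS haR.1)).symm)
    apply le_antisymm _ (h.pr.th_le_th h.slv hto htz)
    calc th t ≤ th t ⊓ centralizer ({z * a} : Set G) := le_inf le_rfl hg
      _ ≤ th (z * a) := h.slv.bal hto hzao (by rw [← mul_assoc, htz, mul_assoc, hta, ← mul_assoc])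
      _ = th z := e1
  have h0 : z₀ ∉ R₁ := by
    intro h1
    exact hab (h.pr.key2 h.slv h.zt h.z0S h.ne haR.1 hao haz (mem_cent.mp h1.2).symm haR.1 hao rfl)
  apply h.lemQ (R₁ := R₁) inf_le_left hi h0
  intro x hx hx0 hxo
  by_contra hxz
  exact hab (h.pr.key2 h.slv h.zt h.z0S h.ne hx.1.1 hxo hxz hx0 haR.1 hao (mem_cent.mp hx.2).symm)

/-- F10 -/
theorem FT.elim : False := by
  have hSp : IsPGroup 2 (S ⊓ H : Subgroup G) := h.pr.syl.pgroup.to_le inf_le_left
  have hzR : z ∈ S ⊓ H := ⟨h.pr.zS, h.zH⟩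
  have hz0R : z₀ ∈ S ⊓ H := ⟨h.z0S, h.z0H⟩
  obtain ⟨m, hm⟩ := hSp.exists_card_eq
  have hncyc : ¬ IsCyclic ↥(S ⊓ H) := by
    intro hc
    exact h.ne (SmallFusion.unique_involution_of_cyclic hc hz0R hzR h.z0o h.pr.zo)
  by_cases hcl : Group.nilpotencyClass ↥(S ⊓ H) = m - 1
  · -- maximal class
    have hm3 : 3 ≤ m := by
      by_contra hlt
      have hab : ∀ x y : ↥(S ⊓ H), x * y = y * x := by
        have hc : Nat.card ↥(S ⊓ H) ∣ 4 := by
          rw [hm]
          calc 2 ^ m ∣ 2 ^ 2 := pow_dvd_pow 2 (by omega)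
            _ = 4 := by norm_num
        have hc4 : Nat.card ↥(S ⊓ H) ≤ 4 := Nat.le_of_dvd (by norm_num) hc
        have hmm : m = 0 ∨ m = 1 ∨ m = 2 := by omega
        rcases hmm with rfl | rfl | rfl
        · intro x y
          have : Subsingleton ↥(S ⊓ H) := (Nat.card_eq_one_iff_unique.mp (by rw [hm]; norm_num)).1
          exact Subsingleton.elim _ _
        · have : IsCyclic ↥(S ⊓ H) := isCyclic_of_prime_card (p := 2) (by rw [hm]; norm_num)
          exact absurd this hncyc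
        · intro x y
          exact (IsPGroup.isMulCommutative_of_card_eq_prime_sq (p := 2) hm).is_comm.comm x y
      apply h.ne
      apply h.stepA hz0R h.z0o
      intro r hr
      exact congrArg Subtype.val (hab ⟨r, hr⟩ ⟨z₀, hz0R⟩)
    obtain ⟨C, hC, hCi⟩ := S0113.result m hm3 hm hcl
    set R₁ := C.map (S ⊓ H).subtype with hR1
    have hR1le : R₁ ≤ S ⊓ H := by rintro _ ⟨y, -, rfl⟩; exact y.2
    have hR1i : R₁.relIndex (S ⊓ H) = 2 := by
      show ((C.map (S ⊓ H).subtype).comap (S ⊓ H).subtype).index = 2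
      rw [comap_map_eq_self_of_injective (subtype_injective _)]; exact hCi
    have hR1c : IsCyclic R₁ :=
      (MulEquiv.isCyclic (C.equivMapOfInjective (S ⊓ H).subtype (subtype_injective _))).1 hC
    have hCn : C.Normal := Subgroup.normal_of_index_eq_two hCi
    have huniq : ∀ x ∈ R₁, orderOf x = 2 → x = z := by
      intro x hx hxo
      apply h.stepA (hR1le hx) hxo
      intro r hr
      have h3 : r * x * r⁻¹ ∈ R₁ := by
        obtain ⟨y, hy, rfl⟩ := hx
        exact ⟨⟨r, hr⟩ * y * ⟨r, hr⟩⁻¹, hCn.conj_mem y hy _, rfl⟩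
      have h4 := SmallFusion.unique_involution_of_cyclic hR1c h3 hx (by rw [orderOf_conj', hxo]) hxo
      calc r * x = (r * x * r⁻¹) * r := by group
        _ = x * r := by rw [h4]
    exact h.lemQ hR1le hR1i (fun h0 => h.ne (huniq z₀ h0 h.z0o)) (fun x hx _ hxo => huniq x hx hxo)
  · obtain ⟨A, c, hA, -⟩ := H70Miller.exists_rk_two hm hncyc hcl
    have hcz : (c : G) = z := by
      apply h.stepA c.2 (by rw [Subgroup.orderOf_coe]; exact hA.zo)
      intro r hr
      exact congrArg Subtype.val ((mem_center_iff.mp hA.zc) ⟨r, hr⟩)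
    -- an element of `A` different from `1`, `c`
    have hex : ∃ a ∈ A, a ∉ zpowers c := by
      by_contra hcon
      push Not at hcon
      have h1 : A ≤ zpowers c := hcon
      have h2 := Subgroup.card_le_of_le h1
      rw [hA.card, Nat.card_zpowers, hA.zo] at h2
      norm_num at h2
    obtain ⟨a, haA, hac⟩ := hex
    have ha1 : a ≠ 1 := fun e => hac (by rw [e]; exact one_mem _)
    have hao : orderOf a = 2 := orderOf_eq_prime (hA.exp a haA) ha1
    have hane : (a : G) ≠ z := by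
      intro e
      apply hac
      have : a = c := Subtype.ext (by rw [e, hcz])
      rw [this]; exact mem_zpowers c
    refine h.caseI (a := (a : G)) a.2 (by rw [Subgroup.orderOf_coe]; exact hao) hane ?_
    intro r hr
    have h3 := hA.com a haA ⟨r, hr⟩
    have h4 : ∀ w ∈ zpowers c, w = 1 ∨ w = c := by
      intro w hw
      obtain ⟨k, rfl⟩ := mem_zpowers_iff.mp hw
      have hc2 : c ^ (2 : ℤ) = 1 := by
        have := pow_orderOf_eq_one c
        rw [hA.zo] at this
        exact_mod_cast this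
      rcases Int.even_or_odd' k with ⟨j, rfl | rfl⟩
      · left; rw [zpow_mul, hc2, one_zpow]
      · right; rw [zpow_add, zpow_mul, hc2, one_zpow, one_mul, zpow_one]
    rcases h4 _ h3 with e | e
    · left
      have e1 : (r * (a : G) * r⁻¹) * (a : G)⁻¹ = 1 := congrArg Subtype.val e
      exact mul_inv_eq_one.mp e1
    · right
      have e1 : (r * (a : G) * r⁻¹) * (a : G)⁻¹ = (c : G) := congrArg Subtype.val e
      rw [← hcz, ← e1]; group

end ft

end Cfsg.Agent.Lib.H47Zc
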