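import Cfsg.Agent.Lib.H47ZcD
import Cfsg.Agent.S0111

/-!
ZC-groups (helper47): criteria for strong embedding and for characteristic two type; conclusion of the case `|Z| = 2`.
-/

set_option autoImplicit false
set_option linter.unusedSectionVars false

namespace Cfsg.Agent.Lib.H47Zc

open Subgroup Cfsg Cfsg.Agent.Lib.LocBase Cfsg.Agent.Lib.SigCon Cfsg.Agent.Lib.SigTwo
open scoped commutatorElement Pointwise

universe u

variable {G : Type u} [Group G] [Finite G]

/-- elements of order two -/
theorem exists_two {X : Subgroup G} (h : Even (Nat.card X)) : ∃ x ∈ X, orderOf x = 2 := by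
  obtain ⟨x, hx⟩ := exists_prime_orderOf_dvd_card' 2 h.two_dvd
  exact ⟨x, x.2, by rw [Subgroup.orderOf_coe]; exact hx⟩

theorem even_of {X : Subgroup G} {x : G} (hx : x ∈ X) (ho : orderOf x = 2) : Even (Nat.card X) := by
  rw [even_iff_two_dvd, ← ho, ← Subgroup.orderOf_mk x hx]
  exact orderOf_dvd_natCard _

theorem even_of_pgroup {X : Subgroup G} (hX : IsPGroup 2 X) (h1 : X ≠ ⊥) : Even (Nat.card X) := by
  obtain ⟨x, hx, hxo, -⟩ := ConstrainedLocal.exists_central_orderOf (p := 2) hX h1
  exact even_of hx hxo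

/-- criterion for strong embedding -/
theorem se_of {M S H : Subgroup G} (hH : H.Normal) (hS : IsSyl 2 S ⊤) (hM : M ≠ ⊤) (hSM : S ≤ M)
    (hNS : normalizer (S : Set G) ≤ M) (hC : ∀ t ∈ M, t ∈ H → orderOf t = 2 → centralizer ({t} : Set G) ≤ M)
    (hR : S ⊓ H ≠ ⊥) (hSH : S ⊔ H = ⊤) : IsStronglyEmbedded (M.subgroupOf H) := by
  refine ⟨?_, ?_, ?_⟩
  · intro e
    rw [subgroupOf_eq_top] at e
    apply hM
    rw [eq_top_iff, ← hSH]
    exact sup_le hSM e
  · have h1 := even_of_pgroup (hS.pgroup.to_le inf_le_left) hR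
    obtain ⟨x, hx, hxo⟩ := exists_two h1
    exact even_of (x := (⟨x, hx.2⟩ : H)) (mem_subgroupOf.mpr (hSM hx.1)) (by rw [Subgroup.orderOf_mk]; exact hxo)
  · intro g hg
    rw [← Nat.not_even_iff_odd]
    intro hev
    obtain ⟨t, ht, hto⟩ := exists_two hev
    apply hg
    have htM : (t : G) ∈ M := mem_subgroupOf.mp ht.1
    have hto' : orderOf (t : G) = 2 := by rw [Subgroup.orderOf_coe]; exact hto
    have htg : (g : G)⁻¹ * t * g ∈ M := by
      obtain ⟨y, hy, hyt⟩ := ht.2
      have e : (g : G) * y * (g : G)⁻¹ = t := congrArg Subtype.val hyt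
      rw [← e]
      have e2 : (g : G)⁻¹ * (g * y * (g : G)⁻¹) * g = y := by group
      rw [e2]; exact mem_subgroupOf.mp hy
    have htgH : (g : G)⁻¹ * t * g ∈ H := by
      have := hH.conj_mem _ t.2 (g : G)⁻¹
      rwa [inv_inv] at this
    rw [mem_subgroupOf]
    -- a Sylow 2-subgroup of `M` containing `t`
    have hSM' : IsSyl 2 S M := hS.of_le hSM le_top
    obtain ⟨m, hmM, hm⟩ := hSM'.exists_conj_le (A := zpowers (t : G)) (isPGroup_zpowers_two hto')
      (by rw [zpowers_le]; exact htM)
    have htS : m * t * m⁻¹ ∈ S := hm (mem_cj (mem_zpowers _))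
    set S₁ := cj m⁻¹ S with hS1
    have htS1 : (t : G) ∈ S₁ := by
      rw [hS1, mem_cj_iff, inv_inv]; exact htS
    have hcjH : ∀ x : G, cj x H = H := by
      intro x
      apply map_conj_eq_of_mem
      rw [Subgroup.normalizer_eq_top]; exact mem_top x
    have hS1H : S₁ ⊓ H ≠ ⊥ := by
      intro e
      apply hR
      have : cj m (S₁ ⊓ H) = S ⊓ H := by
        rw [cj, Subgroup.map_inf _ _ _ (MulAut.conj m).injective]
        show cj m S₁ ⊓ cj m H = _
        rw [hcjH, hS1, cj_mul, mul_inv_cancel, cj_one]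
      rw [← this, e, cj, Subgroup.map_bot]
    have hS1p : IsPGroup 2 S₁ := isPGroup_map_conj hS.pgroup _
    have hnH : S₁ ≤ normalizer (H : Set G) := by rw [Subgroup.normalizer_eq_top]; exact le_top
    obtain ⟨z, hz, hzo, hzc⟩ := exists_inv_center hS1p (N := S₁ ⊓ H) inf_le_left
      (le_normalizer_inf le_normalizer hnH) hS1H
    -- `C(t) ≤ M^g`
    have hCt : centralizer ({(t : G)} : Set G) ≤ cj (g : G) M := by
      have h1 := hC _ htg htgH (by
        have := orderOf_conj' (g : G)⁻¹ (t : G)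
        rw [inv_inv] at this
        rw [this, hto'])
      have h2 := map_conj_mono (g : G) h1
      have h3 : cj (g : G) (centralizer ({(g : G)⁻¹ * t * g} : Set G)) = centralizer ({(t : G)} : Set G) := by
        rw [cj_centralizer]
        congr 2
        group
      rw [← h3]; exact h2
    have hzM : z ∈ cj (g : G) M := hCt (mem_cent.mpr (hzc t htS1).symm)
    have hzgM : (g : G)⁻¹ * z * g ∈ M := mem_cj_iff.mp hzM
    have hCz : centralizer ({z} : Set G) ≤ cj (g : G) M := by
      have h1 := hC _ hzgM (by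
        have := hH.conj_mem _ hz.2 (g : G)⁻¹
        rwa [inv_inv] at this) (by
        have := orderOf_conj' (g : G)⁻¹ z
        rw [inv_inv] at this
        rw [this, hzo])
      have h2 := map_conj_mono (g : G) h1
      have h3 : cj (g : G) (centralizer ({(g : G)⁻¹ * z * g} : Set G)) = centralizer ({z} : Set G) := by
        rw [cj_centralizer]
        congr 2
        group
      rw [← h3]; exact h2
    have hS1M : S₁ ≤ cj (g : G) M := fun s hs => hCz (mem_cent.mpr (hzc s hs))
    -- both `S₁` and `S^g` are Sylow in `M^g`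
    have hS1syl : IsSyl 2 S₁ (cj (g : G) M) := by
      apply IsSyl.of_card_ge (hSM'.map_conj (g : G)) hS1p hS1M
      rw [card_map_conj, hS1, card_map_conj]
    obtain ⟨x, hx, hxx⟩ := (hSM'.map_conj (g : G)).conj hS1syl
    -- `cj x S₁ = cj g S`
    have hx2 : (g : G)⁻¹ * x * g ∈ M := mem_cj_iff.mp hx
    have h5 : cj ((g : G)⁻¹ * (x * m⁻¹)) S = S := by
      rw [← cj_mul, ← cj_mul]
      have h6 : cj x S₁ = cj (g : G) S := hxx
      rw [hS1] at h6
      rw [h6, cj_mul, inv_mul_cancel, cj_one]
    have h6 : (g : G)⁻¹ * (x * m⁻¹) ∈ M := hNS (mem_normalizer_of_map_conj_eq h5)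
    have h7 : (g : G) = (((g : G)⁻¹ * (x * m⁻¹)) * m)⁻¹ * ((g : G)⁻¹ * x * g) * 1 := by group
    have h8 : ((g : G)⁻¹ * x * g) ∈ M := hx2
    rw [h7]
    exact mul_mem (mul_mem (inv_mem (mul_mem h6 hmM)) h8) (one_mem _)

/-- the core of `C_K(t)`, `K` normal -/
theorem oOf_inf_le_th {K : Subgroup G} (hK : K.Normal) (t : G) : oOf 2 (K ⊓ centralizer ({t} : Set G)) ≤ th t := by
  set X := K ⊓ centralizer ({t} : Set G) with hX
  apply le_th
  · exact (oOf_le _).trans inf_le_right
  · intro c hc
    apply mem_normalizer_of_map_conj_le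
    have hcX : cj c X = X := by
      apply map_conj_eq_of_mem
      have hnK : centralizer ({t} : Set G) ≤ normalizer (K : Set G) := by
        rw [Subgroup.normalizer_eq_top]; exact le_top
      exact le_normalizer_inf hnK le_normalizer hc
    apply le_oOf
    · conv_rhs => rw [← hcX]
      exact map_conj_mono c (oOf_le X)
    · conv_lhs => rw [← hcX]
      rw [← map_conj_normalizer]
      exact map_conj_mono c (le_normalizer_oOf X)
    · rw [card_map_conj]; exact coprime_card_oOf _
  · exact coprime_card_oOf _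

/-- criterion for characteristic two type -/
theorem char2_of {K : Subgroup G} (hK : K.Normal) (hs : Slv G) (hev : Even (Nat.card K))
    (h : ∀ t ∈ K, orderOf t = 2 → th t = ⊥) : IsCharacteristicTwoType ↥K := by
  have key : ∀ x : ↥K, orderOf x = 2 → ConstrainedLocal.CharP 2 (centralizer ({x} : Set ↥K)) := by
    intro x hx
    have hxo : orderOf (x : G) = 2 := by rw [Subgroup.orderOf_coe]; exact hx
    rw [ConstrainedLocal.charP_iff]
    constructor
    · rw [← oOf_eq_bot_iff]
      have h1 : (oOf 2 (centralizer ({x} : Set ↥K))).map K.subtype ≤ oOf 2 (K ⊓ centralizer ({(x : G)} : Set G)) := by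
        apply le_oOf
        · rintro _ ⟨y, hy, rfl⟩
          exact ⟨y.2, mem_cent.mpr (congrArg Subtype.val (mem_cent.mp (oOf_le _ hy)))⟩
        · intro c hc
          apply mem_normalizer_of_map_conj_le
          rintro _ ⟨_, ⟨y, hy, rfl⟩, rfl⟩
          have hc' : (⟨c, hc.1⟩ : ↥K) ∈ centralizer ({x} : Set ↥K) :=
            mem_cent.mpr (Subtype.ext (mem_cent.mp hc.2))
          exact ⟨⟨c, hc.1⟩ * y * ⟨c, hc.1⟩⁻¹, (mem_normalizer_iff.mp (le_normalizer_oOf _ hc') y).mp hy, rfl⟩
        · rw [card_map_of_injective (subtype_injective _)]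
          exact coprime_card_oOf _
      have h2 : (oOf 2 (centralizer ({x} : Set ↥K))).map K.subtype ≤ ⊥ :=
        h1.trans ((oOf_inf_le_th hK _).trans (h _ x.2 hxo).le)
      rw [le_bot_iff] at h2
      exact (Subgroup.map_eq_bot_iff_of_injective _ (subtype_injective _)).mp h2
    · apply SigP.isPConstrained_of_isSolvable
      have := hs _ hxo
      let f : ↥(centralizer ({x} : Set ↥K)) →* ↥(centralizer ({(x : G)} : Set G)) :=
        { toFun := fun y => ⟨((y : ↥K) : G), mem_cent.mpr (congrArg Subtype.val (mem_cent.mp y.2))⟩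
          map_one' := rfl
          map_mul' := fun _ _ => rfl }
      have hf : Function.Injective f := by
        intro a b hab
        have : ((a : ↥K) : G) = ((b : ↥K) : G) := congrArg (fun w => ((w : ↥(centralizer ({(x : G)} : Set G))) : G)) hab
        exact Subtype.ext (Subtype.ext this)
      exact Group.isSolvable_of_isSolvable_injective hf
  refine ⟨hev, fun T hT hT1 => ?_⟩
  exact (ConstrainedLocal.charP_of_elements key hT hT1).1

/-! ### `H = O²(G)` -/

theorem res_normal : (pResidual 2 G).Normal := pResidual_normal' 2 G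

theorem sup_res {S : Subgroup G} (hS : IsSyl 2 S ⊤) : S ⊔ pResidual 2 G = ⊤ := by
  rw [pResidual_eq]; exact hS.sup_pRes

/-- `O²(G)` has no subgroup of index two -/
theorem res_index (M : Subgroup ↥(pResidual 2 G)) (hM : M.index = 2) : False := by
  have hle : pResidual 2 ↥(pResidual 2 G) ≤ M := by
    refine (closure_le M).mpr ?_
    intro x hx
    have hodd : (orderOf x).Coprime 2 := hx
    have hodd' : Odd (orderOf x) := Nat.coprime_two_right.mp hodd
    obtain ⟨k, hk⟩ := hodd'
    have h1 : x = (x ^ (k + 1)) ^ 2 := by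
      rw [← pow_mul]
      have : (k + 1) * 2 = orderOf x + 1 := by omega
      rw [this, pow_succ, pow_orderOf_eq_one, one_mul]
    rw [h1]
    exact Subgroup.sq_mem_of_index_two hM _
  have h2 : pRes 2 (pResidual 2 G) = pResidual 2 G := by
    rw [pResidual_eq, pRes_pRes]
  have h3 : pResidual 2 G ≤ M.map (pResidual 2 G).subtype := by
    conv_lhs => rw [← h2, ← map_pResidual]
    exact Subgroup.map_mono hle
  have h4 : M = ⊤ := by
    rw [eq_top_iff]
    intro x _
    obtain ⟨y, hy, hyx⟩ := h3 x.2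
    have : y = x := Subtype.ext hyx
    rwa [← this]
  rw [h4, index_top] at hM
  omega

theorem res_tt {S : Subgroup G} (hS : IsSyl 2 S ⊤) (Q : Subgroup G) (hQ : Q ≤ S ⊓ pResidual 2 G)
    (hi : Q.relIndex (S ⊓ pResidual 2 G) = 2) (u : G) (hu : u ∈ S ⊓ pResidual 2 G) (huo : orderOf u = 2)
    (huQ : u ∉ Q) : ∃ g : G, g * u * g⁻¹ ∈ Q := by
  have hn : (⊤ : Subgroup G) ≤ normalizer ((pResidual 2 G : Subgroup G) : Set G) := by
    haveI := res_normal (G := G)
    rw [Subgroup.normalizer_eq_top]
  obtain ⟨P, hP⟩ := (hS.inf_normal le_top hn).exists_sylow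
  have h1 := S0111.result P (Q.subgroupOf (pResidual 2 G)) (by
      rw [hP]
      intro x hx
      rw [mem_subgroupOf] at hx ⊢
      exact hQ hx) (by
      rw [hP, relIndex_subgroupOf inf_le_right]
      exact hi) ⟨u, hu.2⟩ (by rw [Subgroup.orderOf_mk]; exact huo) (by
      rw [hP, mem_subgroupOf]; exact hu) (by rw [mem_subgroupOf]; exact huQ)
  rcases h1 with ⟨M, -, hM, -⟩ | ⟨g, hg⟩
  · exact (res_index M hM).elim
  · rw [mem_subgroupOf] at hg
    exact ⟨g, hg⟩

/-- conclusion of the case `|Z| = 2` -/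
theorem caseC (hs : Slv G) (hO' : pPrimeCore 2 G = ⊥) {z : G} {S : Subgroup G} (h : Pr z S)
    (hzH : z ∈ pResidual 2 G) :
    (∀ g ∈ pResidual 2 G, g * z * g⁻¹ ∈ S → g * z * g⁻¹ = z) ∨
      (∃ M : Subgroup ↥(pResidual 2 G), IsStronglyEmbedded M) ∨ IsCharacteristicTwoType ↥(pResidual 2 G) := by
  set H := pResidual 2 G with hH
  have hHn : H.Normal := res_normal
  by_cases hwc : ∀ g ∈ H, g * z * g⁻¹ ∈ S → g * z * g⁻¹ = z
  · exact Or.inl hwc
  right
  push Not at hwc
  obtain ⟨g, hgH, hgS, hgz⟩ := hwc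
  have hall : ∀ t ∈ S ⊓ H, orderOf t = 2 → th t = th z := by
    by_contra hcon
    push Not at hcon
    have hft : FT z S H (g * z * g⁻¹) :=
      { pr := h
        slv := hs
        nor := hHn
        zH := hzH
        zt := h.zt.conj g
        z0S := hgS
        z0H := hHn.conj_mem z hzH g
        ne := hgz
        cjz := ⟨g, rfl⟩
        tt := fun Q hQ hi u hu huo huQ => res_tt h.syl Q hQ hi u hu huo huQ
        bad := hcon }
    exact hft.elim
  by_cases hD : th z = ⊥
  · right
    apply char2_of hHn hs (even_of hzH h.zo)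
    intro t htH hto
    obtain ⟨m, -, hm⟩ := h.syl.exists_conj_le (A := zpowers t) (isPGroup_zpowers_two hto) le_top
    have h1 : m * t * m⁻¹ ∈ S ⊓ H := ⟨hm (mem_cj (mem_zpowers t)), hHn.conj_mem t htH m⟩
    have h2 := hall _ h1 (by rw [orderOf_conj', hto])
    rw [hD, th_cj] at h2
    exact (Subgroup.map_eq_bot_iff_of_injective _ (MulAut.conj m).injective).mp h2
  · left
    refine ⟨_, se_of (M := normalizer (th z : Set G)) hHn h.syl ?_ (h.zc.trans (C_le_N z)) ?_ ?_ ?_ (sup_res h.syl)⟩
    · intro e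
      apply hD
      rw [eq_bot_iff, ← hO']
      exact Cores.le_pPrimeCore (normalizer_eq_top_iff.mp e) (th_cop z)
    · intro x hx
      -- `N_G(S) ≤ C_G(z)`
      have h1 : x * z * x⁻¹ ∈ S := (mem_normalizer_iff.mp hx z).mp h.zS
      have h2 : x * z * x⁻¹ = 1 ∨ x * z * x⁻¹ = z := by
        apply h.uq _ h1
        · intro s hs
          have h3 : x⁻¹ * s * x ∈ S := (mem_normalizer_iff''.mp hx s).mp hs
          have h4 : x⁻¹ * s * x * z = z * (x⁻¹ * s * x) := h.comm h3
          calc s * (x * z * x⁻¹) = x * ((x⁻¹ * s * x) * z) * x⁻¹ := by group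
            _ = x * (z * (x⁻¹ * s * x)) * x⁻¹ := by rw [h4]
            _ = x * z * x⁻¹ * s := by group
        · rw [conj_pow, pow_two, h.z2]; group
      rcases h2 with e | e
      · exact absurd (by rw [← orderOf_conj' x z, e, orderOf_one]) (show ¬ (orderOf z = 1) by rw [h.zo]; norm_num)
      · apply C_le_N z
        rw [mem_cent]
        calc x * z = (x * z * x⁻¹) * x := by group
          _ = z * x := by rw [e]
    · intro t htM htH hto
      obtain ⟨m, hmM, hm⟩ := (h.syl.of_le (h.zc.trans (C_le_N z)) le_top).exists_conj_le (A := zpowers t)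
        (isPGroup_zpowers_two hto) (by rw [zpowers_le]; exact htM)
      have h1 : m * t * m⁻¹ ∈ S ⊓ H := ⟨hm (mem_cj (mem_zpowers t)), hHn.conj_mem t htH m⟩
      have h2 := hall _ h1 (by rw [orderOf_conj', hto])
      rw [th_cj] at h2
      have h3 : cj m (th z) = th z := map_conj_eq_of_mem hmM
      have h4 : th t = th z := cj_inj (g := m) (by rw [h2, h3])
      rw [← h4]
      exact C_le_N t
    · intro e
      have : z ∈ S ⊓ H := ⟨h.zS, hzH⟩
      rw [e, mem_bot] at this
      exact h.z1 this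

end Cfsg.Agent.Lib.H47Zc
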