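import Cfsg.Agent.Lib.H47ZcE
import Cfsg.Agent.Lib.H55SftOdd

/-!
ZC-groups (helper47): the case `|Z| ≥ 4` and `Z` contained in an elementary abelian group of order at least 8.
-/

set_option autoImplicit false
set_option linter.unusedSectionVars false

namespace Cfsg.Agent.Lib.H47Zc

open Subgroup Cfsg Cfsg.Agent.Lib.LocBase Cfsg.Agent.Lib.SigCon Cfsg.Agent.Lib.SigTwo
open scoped commutatorElement Pointwise

universe u

/-- Frattini argument for `O_{2',2}(X)` -/
theorem frat {X : Type u} [Group X] [Finite X] (h : IsPConstrained 2 X) {T Z' : Subgroup X} (hT : IsSyl 2 T ⊤)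
    (hZT : Z' ≤ T) (hc : T ≤ centralizer (Z' : Set X)) (x : X) :
    ∃ o ∈ pPrimeCore 2 X, ∃ n : X, x = o * n ∧ cj n Z' ≤ T := by
  set N := pPrimePCore 2 X with hN
  have hNn : N.Normal := by rw [hN, pPrimePCore]; infer_instance
  have htop : (⊤ : Subgroup X) ≤ normalizer (N : Set X) := by rw [Subgroup.normalizer_eq_top]
  set Q := T ⊓ N with hQ
  have hQN : IsSyl 2 Q N := hT.inf_normal le_top htop
  obtain ⟨P, hP⟩ := hQN.exists_sylow'
  have h1 := h P
  rw [hP] at h1
  have hZN : Z' ≤ N := by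
    refine le_trans ?_ h1
    intro z hz q hq
    exact (hc hq.1 z hz).symm
  obtain ⟨n, hn, y, hy, rfl⟩ := hQN.frattini le_top htop (h := x) (mem_top x)
  have h2 := PConstraint.map_sylow_eq (p := 2) (P := Q) ⟨hQN.le, hQN.pgroup, hQN.ndvd⟩
  have h3 : QuotientGroup.mk' (pPrimeCore 2 X) n ∈ pCore 2 (X ⧸ pPrimeCore 2 X) := hn
  rw [← h2] at h3
  obtain ⟨q, hq, hqn⟩ := h3
  refine ⟨n * q⁻¹, ?_, q * y, by group, ?_⟩
  · have h4 : QuotientGroup.mk' (pPrimeCore 2 X) (n * q⁻¹) = 1 := by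
      rw [map_mul, map_inv, hqn, mul_inv_cancel]
    exact (QuotientGroup.eq_one_iff _).1 h4
  · have h5 : q * y ∈ normalizer (Q : Set X) := mul_mem (le_normalizer hq) hy.2
    calc cj (q * y) Z' ≤ cj (q * y) Q := map_conj_mono _ (le_inf hZT hZN)
      _ = Q := map_conj_eq_of_mem h5
      _ ≤ T := inf_le_left

variable {G : Type u} [Group G] [Finite G]

/-- the group generated by the `θ(a)` -/
def Ug (Z : Subgroup G) : Subgroup G := ⨆ a ∈ {a : G | a ∈ Z ∧ a ≠ 1}, th a

theorem th_le_Ug {Z : Subgroup G} {a : G} (ha : a ∈ Z) (h1 : a ≠ 1) : th a ≤ Ug Z :=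
  le_iSup₂_of_le a ⟨ha, h1⟩ le_rfl

theorem Ug_le {Z W : Subgroup G} (h : ∀ a ∈ Z, a ≠ 1 → th a ≤ W) : Ug Z ≤ W :=
  iSup₂_le fun a ha => h a ha.1 ha.2

theorem cj_Ug_le (g : G) (Z : Subgroup G) : cj g (Ug Z) ≤ Ug (cj g Z) := by
  rw [cj, Subgroup.map_le_iff_le_comap]
  apply Ug_le
  intro a ha h1
  rw [← Subgroup.map_le_iff_le_comap]
  show cj g (th a) ≤ _
  rw [← th_cj]
  apply th_le_Ug (mem_cj ha)
  intro e
  apply h1
  have : a = g⁻¹ * (g * a * g⁻¹) * g := by group
  rw [this, e]; group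

theorem cj_Ug (g : G) (Z : Subgroup G) : cj g (Ug Z) = Ug (cj g Z) := by
  apply le_antisymm (cj_Ug_le g Z)
  have h := cj_Ug_le g⁻¹ (cj g Z)
  rw [cj_mul, inv_mul_cancel, cj_one] at h
  have h2 := (cj_le_cj (g := g)).mpr h
  rw [cj_mul, mul_inv_cancel, cj_one] at h2
  exact h2

theorem ea_pgroup {B : Subgroup G} (hB : IsElementaryAbelian 2 B) : IsPGroup 2 B := by
  rintro ⟨x, hx⟩
  exact ⟨1, Subtype.ext (by rw [pow_one]; exact hB.2 x hx)⟩

theorem ea_comm {B : Subgroup G} (hB : IsElementaryAbelian 2 B) {x y : G} (hx : x ∈ B) (hy : y ∈ B) : x * y = y * x :=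
  congrArg Subtype.val (hB.1.is_comm.comm ⟨x, hx⟩ ⟨y, hy⟩)

theorem ea_mono {A B : Subgroup G} (hB : IsElementaryAbelian 2 B) (h : A ≤ B) : IsElementaryAbelian 2 A :=
  ⟨⟨⟨fun x y => Subtype.ext (ea_comm hB (h x.2) (h y.2))⟩⟩, fun a ha => hB.2 a (h ha)⟩

theorem ea_cj {A : Subgroup G} (hA : IsElementaryAbelian 2 A) (g : G) : IsElementaryAbelian 2 (cj g A) := by
  refine ⟨⟨⟨?_⟩⟩, ?_⟩
  · rintro ⟨_, x, hx, rfl⟩ ⟨_, y, hy, rfl⟩
    apply Subtype.ext
    show (MulAut.conj g) x * (MulAut.conj g) y = (MulAut.conj g) y * (MulAut.conj g) x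
    rw [← map_mul, ← map_mul, ea_comm hA hx hy]
  · rintro _ ⟨x, hx, rfl⟩
    show (MulAut.conj g x) ^ 2 = 1
    rw [← map_pow, hA.2 x hx, map_one]

theorem ea_order {B : Subgroup G} (hB : IsElementaryAbelian 2 B) {x : G} (hx : x ∈ B) (h1 : x ≠ 1) : orderOf x = 2 :=
  orderOf_eq_prime (hB.2 x hx) h1

theorem ea_not_cyclic {B : Subgroup G} (hB : IsElementaryAbelian 2 B) (h4 : 4 ≤ Nat.card B) : ¬ IsCyclic B := by
  intro hc
  obtain ⟨g, hg⟩ := hc.exists_generator
  have h1 := orderOf_eq_card_of_forall_mem_zpowers hg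
  have h2 : g ^ 2 = 1 := Subtype.ext (hB.2 g g.2)
  have h3 := Nat.le_of_dvd (by norm_num) (orderOf_dvd_of_pow_eq_one h2)
  omega

/-- the join of two commuting elementary abelian groups -/
theorem ea_sup {A B : Subgroup G} (hA : IsElementaryAbelian 2 A) (hB : IsElementaryAbelian 2 B)
    (hAB : A ≤ centralizer (B : Set G)) : IsElementaryAbelian 2 (A ⊔ B : Subgroup G) := by
  have hn : B ≤ normalizer (A : Set G) := by
    have h1 : B ≤ centralizer (A : Set G) := by rwa [le_centralizer_iff]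
    exact h1.trans (centralizer_le_normalizer _)
  have hmem : ∀ x ∈ A ⊔ B, ∃ a ∈ A, ∃ b ∈ B, x = a * b := fun x hx => exists_mul_of_mem_sup_of_le hn hx
  have hc : ∀ a ∈ A, ∀ b ∈ B, b * a = a * b := fun a ha b hb => hAB ha b hb
  refine ⟨⟨⟨?_⟩⟩, ?_⟩
  · rintro ⟨x, hx⟩ ⟨y, hy⟩
    obtain ⟨a, ha, b, hb, rfl⟩ := hmem x hx
    obtain ⟨c, hc', d, hd, rfl⟩ := hmem y hy
    apply Subtype.ext
    show a * b * (c * d) = c * d * (a * b)
    calc a * b * (c * d) = a * (b * c) * d := by group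
      _ = a * (c * b) * d := by rw [hc c hc' b hb]
      _ = (a * c) * (b * d) := by group
      _ = (c * a) * (d * b) := by rw [ea_comm hA ha hc', ea_comm hB hb hd]
      _ = c * (a * d) * b := by group
      _ = c * (d * a) * b := by rw [hc a ha d hd]
      _ = c * d * (a * b) := by group
  · intro x hx
    obtain ⟨a, ha, b, hb, rfl⟩ := hmem x hx
    have h1 := hA.2 a ha
    have h2 := hB.2 b hb
    rw [pow_two] at *
    exact mul_mul_self h1 h2 (hc a ha b hb).symm

/-- the completion of the signalizer functor on `B` -/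
theorem exists_W (hs : Slv G) {B : Subgroup G} (hB : IsElementaryAbelian 2 B) (h8 : 8 ≤ Nat.card B) :
    ∃ W : Subgroup G, (Nat.card W).Coprime 2 ∧ (∀ b ∈ B, b ≠ 1 → th b ≤ W) ∧
      ∀ Z ≤ B, 4 ≤ Nat.card Z → Ug Z = W := by
  have hfun : IsSolvableSignalizerFunctor 2 B (fun a => th a) := by
    refine ⟨⟨fun a _ _ => th_le a, ?_, ?_, ?_⟩, ?_⟩
    · intro a _ _ h
      have h2 := th_cop a
      exact (Nat.Prime.coprime_iff_not_dvd Nat.prime_two).mp h2.symm h
    · intro a ha _ b hb x hx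
      have h1 : b ∈ normalizer (th a : Set G) := C_le_N a (mem_cent.mpr (ea_comm hB hb ha))
      exact (mem_normalizer_iff.mp h1 x).mp hx
    · intro a ha ha1 b hb hb1
      exact hs.bal (ea_order hB ha ha1) (ea_order hB hb hb1) (ea_comm hB ha hb)
    · intro a ha ha1
      have := hs a (ea_order hB ha ha1)
      exact Group.isSolvable_of_isSolvable_injective (Subgroup.inclusion_injective (th_le a))
  obtain ⟨W, ⟨hW1, hW2, hW3, hW4⟩, hW5⟩ := H55SftOdd.solvComplete_of_odd hB (by norm_num; exact h8) hfun (by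
    intro a _ _
    exact Nat.coprime_two_right.mp (th_cop a))
  have hWc : (Nat.card W).Coprime 2 := ((Nat.Prime.coprime_iff_not_dvd Nat.prime_two).mpr hW2).symm
  refine ⟨W, hWc, hW5, ?_⟩
  intro Z hZ h4
  apply le_antisymm
  · exact Ug_le fun a ha h1 => hW5 a (hZ ha) h1
  · have hZe := ea_mono hB hZ
    have hN : Z ≤ normalizer (W : Set G) := by
      intro z hz
      apply mem_normalizer_of_map_conj_le
      rintro _ ⟨w, hw, rfl⟩
      exact hW3 z (hZ hz) w hw
    have h1 := CoprimeGen.iSup_centralizer_eq (A := Z) (K := W) hZe.1 (ea_not_cyclic hZe h4) hN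
      (coprime_of_pgroup (ea_pgroup hZe) hWc).symm
    rw [← h1]
    apply iSup₂_le
    rintro a ⟨ha, ha1⟩
    exact (hW4 a (hZ ha) ha1).trans (th_le_Ug ha ha1)

theorem two_mul_card {A B : Subgroup G} (h : A < B) : 2 * Nat.card A ≤ Nat.card B := by
  have h1 := SubgroupTools.card_mul_relIndex_of_le h.le
  have h2 : A.relIndex B ≠ 1 := by
    intro e
    rw [relIndex_eq_one] at e
    exact absurd (le_antisymm h.le e) h.ne
  have h3 : A.relIndex B ≠ 0 := by
    intro e
    rw [e, mul_zero] at h1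
    exact Nat.card_pos.ne h1
  have h4 : 2 ≤ A.relIndex B := by omega
  rw [← h1]
  nlinarith [Nat.card_pos (α := A)]

/-- if `Z^g` commutes with `Z` then `g` normalizes `U` -/
theorem mem_norm_Ug (hs : Slv G) {Z : Subgroup G} (hZ : IsElementaryAbelian 2 Z) (h4 : 4 ≤ Nat.card Z) {g : G}
    (hg : cj g Z ≤ centralizer (Z : Set G)) : g ∈ normalizer (Ug Z : Set G) := by
  apply mem_normalizer_of_map_conj_eq
  show cj g (Ug Z) = Ug Z
  rw [cj_Ug]
  have hE := ea_sup (ea_cj hZ g) hZ hg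
  by_cases h8 : 8 ≤ Nat.card (cj g Z ⊔ Z : Subgroup G)
  · obtain ⟨W, -, -, hW⟩ := exists_W hs hE h8
    rw [hW _ le_sup_left (by rw [card_map_conj]; exact h4), hW _ le_sup_right h4]
  · have h1 : Z = cj g Z ⊔ Z := by
      by_contra hne
      have := two_mul_card (lt_of_le_of_ne (le_sup_right : Z ≤ cj g Z ⊔ Z) hne)
      omega
    have h2 : cj g Z ≤ Z := by
      conv_rhs => rw [h1]
      exact le_sup_left
    have h3 : cj g Z = Z := SetLike.coe_injective (Set.eq_of_subset_of_ncard_le h2 (by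
      show Nat.card Z ≤ Nat.card (cj g Z)
      rw [card_map_conj]) (Set.toFinite _))
    rw [h3]

/-- the hypotheses of case A -/
structure CA (S Z A : Subgroup G) : Prop where
  slv : Slv G
  syl : IsSyl 2 S ⊤
  ZS : Z ≤ S
  ze : IsElementaryAbelian 2 Z
  z4 : 4 ≤ Nat.card Z
  zc : S ≤ centralizer (Z : Set G)
  nn : normalizer (S : Set G) ≤ normalizer (Z : Set G)
  ZA : Z ≤ A
  ae : IsElementaryAbelian 2 A
  a8 : 8 ≤ Nat.card A

section ca

variable {S Z A : Subgroup G} (h : CA S Z A)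
include h

theorem CA.U_cop : (Nat.card (Ug Z)).Coprime 2 := by
  obtain ⟨W, hW, -, hW2⟩ := exists_W h.slv h.ae h.a8
  rw [hW2 Z h.ZA h.z4]; exact hW

theorem CA.th_le {t : G} (ht : t ∈ S) (hto : orderOf t = 2) : th t ≤ Ug Z := by
  by_cases htZ : t ∈ Z
  · exact th_le_Ug htZ (ne_one_of hto)
  · have h1 : IsElementaryAbelian 2 (zpowers t) := by
      refine ⟨inferInstance, ?_⟩
      intro a ha
      obtain ⟨k, rfl⟩ := mem_zpowers_iff.mp ha
      rw [← zpow_natCast, zpow_comm, zpow_natCast, ← hto, pow_orderOf_eq_one, one_zpow]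
    have h2 : zpowers t ≤ centralizer (Z : Set G) := by rw [zpowers_le]; exact h.zc ht
    have hE := ea_sup h1 h.ze h2
    have hlt : Z < zpowers t ⊔ Z := by
      apply lt_of_le_of_ne le_sup_right
      intro e
      apply htZ
      rw [e]
      exact (le_sup_left : zpowers t ≤ zpowers t ⊔ Z) (mem_zpowers t)
    have h8 := two_mul_card hlt
    have h4 := h.z4
    obtain ⟨W, -, hW1, hW2⟩ := exists_W h.slv hE (by omega)
    rw [hW2 Z le_sup_right h.z4]
    exact hW1 t ((le_sup_left : zpowers t ≤ zpowers t ⊔ Z) (mem_zpowers t)) (ne_one_of hto)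

/-- `C_G(t) ≤ N_G(U)` -/
theorem CA.C_le {t : G} (ht : t ∈ S) (hto : orderOf t = 2) :
    centralizer ({t} : Set G) ≤ normalizer (Ug Z : Set G) := by
  set X := centralizer ({t} : Set G) with hX
  have hZX : Z ≤ X := by
    intro z hz
    exact mem_cent.mpr (h.zc ht z hz)
  have htX : t ∈ X := mem_cent.mpr rfl
  obtain ⟨T, hT, hST⟩ := exists_isSyl_ge (p := 2) (A := S ⊓ X) (H := X) (h.syl.pgroup.to_le inf_le_left) inf_le_right
  have hZT : Z ≤ T := (le_inf h.ZS hZX).trans hST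
  have htT : t ∈ T := hST ⟨ht, htX⟩
  obtain ⟨k, -, hk⟩ := h.syl.exists_conj_le hT.pgroup le_top
  set g := k⁻¹ with hg
  have hTg : T ≤ cj g S := by
    have := map_conj_mono g hk
    have e : cj g (cj k T) = T := by rw [cj_mul, hg, inv_mul_cancel, cj_one]
    rwa [show Subgroup.map (MulAut.conj g).toMonoidHom (Subgroup.map (MulAut.conj k).toMonoidHom T) = T from e] at this
  have hSc : cj g S ≤ centralizer ((cj g Z : Subgroup G) : Set G) := by
    rw [← map_conj_centralizer]; exact map_conj_mono g h.zc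
  have hTc : T ≤ centralizer ((cj g Z : Subgroup G) : Set G) := hTg.trans hSc
  have hZ'T' : cj g Z ≤ centralizer (T : Set G) := by rwa [le_centralizer_iff]
  have hgM : g ∈ normalizer (Ug Z : Set G) :=
    mem_norm_Ug h.slv h.ze h.z4 (hZ'T'.trans (centralizer_le hZT))
  have hZ'X : cj g Z ≤ X := by
    intro z hz
    exact mem_cent.mpr (hZ'T' hz t htT).symm
  have hZ'T : cj g Z ≤ T := by
    have h1 : IsPGroup 2 (T ⊔ cj g Z : Subgroup G) := isPGroup_sup hT.pgroup (ea_pgroup (ea_cj h.ze g))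
      (hZ'T'.trans (centralizer_le_normalizer _))
    have h2 := hT.eq_of_le h1 (sup_le hT.le hZ'X) le_sup_left
    rw [h2]; exact le_sup_right
  obtain ⟨P, hP⟩ := hT.exists_sylow
  have hTs : IsSyl 2 (T.subgroupOf X) ⊤ := by rw [← hP]; exact isSyl_top P
  intro x hx
  obtain ⟨o, ho, n, hon, hn⟩ := frat (h.slv.pc hto) (T := T.subgroupOf X) (Z' := (cj g Z).subgroupOf X) hTs (by
    intro y hy
    rw [mem_subgroupOf] at hy ⊢
    exact hZ'T hy) (by
    intro y hy z hz
    rw [mem_subgroupOf] at hy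
    exact Subtype.ext (hTc hy z (mem_subgroupOf.mp hz))) ⟨x, hx⟩
  have hxo : x = (o : G) * n := congrArg Subtype.val hon
  have hoU : (o : G) ∈ normalizer (Ug Z : Set G) := by
    apply le_normalizer
    apply h.th_le ht hto
    exact ⟨o, ho, rfl⟩
  have hnT : cj (n : G) (cj g Z) ≤ T := by
    rintro _ ⟨z, hz, rfl⟩
    have := hn (mem_cj (a := n) (x := ⟨z, hZ'X hz⟩) (mem_subgroupOf.mpr hz))
    exact mem_subgroupOf.mp this
  have hnc : cj (n : G) (cj g Z) ≤ centralizer ((cj g Z : Subgroup G) : Set G) := hnT.trans hTc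
  have h3 : cj (g⁻¹ * (n * g)) Z ≤ centralizer (Z : Set G) := by
    have h4 := map_conj_mono g⁻¹ hnc
    rw [map_conj_centralizer] at h4
    have e1 : Subgroup.map (MulAut.conj g⁻¹).toMonoidHom (cj (n : G) (cj g Z)) = cj (g⁻¹ * (n * g)) Z := by
      show cj g⁻¹ (cj (n : G) (cj g Z)) = _
      rw [cj_mul, cj_mul, mul_assoc]
    have e2 : Subgroup.map (MulAut.conj g⁻¹).toMonoidHom (cj g Z) = Z := by
      show cj g⁻¹ (cj g Z) = _
      rw [cj_mul, inv_mul_cancel, cj_one]
    rw [e1, e2] at h4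
    exact h4
  have h5 := mem_norm_Ug h.slv h.ze h.z4 h3
  have h6 : (n : G) = g * (g⁻¹ * (n * g)) * g⁻¹ := by group
  rw [hxo]
  apply mul_mem hoU
  rw [h6]
  exact mul_mem (mul_mem hgM h5) (inv_mem hgM)

/-- conclusion of case A -/
theorem CA.main (hO' : pPrimeCore 2 G = ⊥) (hR : S ⊓ pResidual 2 G ≠ ⊥) :
    (∃ M : Subgroup ↥(pResidual 2 G), IsStronglyEmbedded M) ∨
      IsCharacteristicTwoType ↥(pResidual 2 G ⊔ Z : Subgroup G) := by
  have hHn : (pResidual 2 G).Normal := res_normal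
  by_cases hU : Ug Z = ⊥
  · right
    have hKn : (pResidual 2 G ⊔ Z : Subgroup G).Normal := by
      rw [← normalizer_eq_top_iff, eq_top_iff, ← sup_res h.syl]
      apply sup_le
      · apply le_normalizer_sup
        · rw [Subgroup.normalizer_eq_top]; exact le_top
        · exact h.zc.trans (centralizer_le_normalizer _)
      · exact le_sup_left.trans le_normalizer
    apply char2_of hKn h.slv
    · have h1 : Z ≠ ⊥ := by
        rintro rfl
        have := h.z4
        rw [card_bot] at this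
        omega
      obtain ⟨x, hx, hxo, -⟩ := ConstrainedLocal.exists_central_orderOf (p := 2) (ea_pgroup h.ze) h1
      exact even_of ((le_sup_right : Z ≤ pResidual 2 G ⊔ Z) hx) hxo
    · intro t _ hto
      obtain ⟨m, -, hm⟩ := h.syl.exists_conj_le (A := zpowers t) (isPGroup_zpowers_two hto) le_top
      have h1 : m * t * m⁻¹ ∈ S := hm (mem_cj (mem_zpowers t))
      have h2 := h.th_le h1 (by rw [orderOf_conj', hto])
      rw [hU, le_bot_iff, th_cj] at h2
      exact (Subgroup.map_eq_bot_iff_of_injective _ (MulAut.conj m).injective).mp h2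
  · left
    have hNS : normalizer (S : Set G) ≤ normalizer (Ug Z : Set G) := by
      intro x hx
      apply mem_norm_Ug h.slv h.ze h.z4
      have : cj x Z = Z := map_conj_eq_of_mem (h.nn hx)
      rw [this]
      exact h.ZS.trans h.zc
    have hSM : S ≤ normalizer (Ug Z : Set G) := le_normalizer.trans hNS
    refine ⟨_, se_of (M := normalizer (Ug Z : Set G)) hHn h.syl ?_ hSM hNS ?_ hR (sup_res h.syl)⟩
    · intro e
      apply hU
      rw [eq_bot_iff, ← hO']
      exact Cores.le_pPrimeCore (normalizer_eq_top_iff.mp e) h.U_cop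
    · intro t htM _ hto
      obtain ⟨m, hmM, hm⟩ := (h.syl.of_le hSM le_top).exists_conj_le (A := zpowers t)
        (isPGroup_zpowers_two hto) (by rw [zpowers_le]; exact htM)
      have h1 : m * t * m⁻¹ ∈ S := hm (mem_cj (mem_zpowers t))
      have h2 := h.C_le h1 (by rw [orderOf_conj', hto])
      intro c hc
      have h3 : m * c * m⁻¹ ∈ normalizer (Ug Z : Set G) := by
        apply h2
        rw [← cj_centralizer]
        exact mem_cj hc
      have h4 : c = m⁻¹ * (m * c * m⁻¹) * m := by group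
      rw [h4]
      exact mul_mem (mul_mem (inv_mem hmM) h3) hmM

end ca

end Cfsg.Agent.Lib.H47Zc
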