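import Cfsg.Agent.Lib.H47ZcF

/-!
ZC-groups (helper47): assembly.
-/

set_option autoImplicit false
set_option linter.unusedSectionVars false

namespace Cfsg.Agent.Lib.H47Zc

open Subgroup Cfsg Cfsg.Agent.Lib.LocBase Cfsg.Agent.Lib.SigCon Cfsg.Agent.Lib.SigTwo
open scoped commutatorElement Pointwise

universe u

variable {G : Type u} [Group G] [Finite G]

/-- `Ω₁(Z(S))` -/
abbrev om (S : Subgroup G) : Subgroup G := omegaOne 2 (S ⊓ centralizer (S : Set G))

theorem mem_om {S : Subgroup G} {x : G} : x ∈ om S ↔ x ∈ S ∧ (∀ s ∈ S, s * x = x * s) ∧ x ^ 2 = 1 := by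
  constructor
  · intro hx
    let K : Subgroup G :=
      { carrier := {x | x ∈ S ∧ (∀ s ∈ S, s * x = x * s) ∧ x ^ 2 = 1}
        one_mem' := ⟨one_mem _, by simp, by simp⟩
        mul_mem' := by
          rintro a b ⟨h1, h2, h3⟩ ⟨h4, h5, h6⟩
          refine ⟨mul_mem h1 h4, ?_, ?_⟩
          · intro s hs
            rw [← mul_assoc, h2 s hs, mul_assoc, h5 s hs, mul_assoc]
          · rw [pow_two] at *
            exact mul_mul_self h3 h6 (h5 a h1)
        inv_mem' := by
          rintro a ⟨h1, h2, h3⟩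
          have h4 : a⁻¹ = a := inv_eq_of_mul_eq_one_right (by rw [← pow_two, h3])
          rw [h4]; exact ⟨h1, h2, h3⟩ }
    have h1 : om S ≤ K := by
      refine (closure_le K).mpr ?_
      rintro y ⟨⟨hy1, hy2⟩, hy3⟩
      exact ⟨hy1, fun s hs => hy2 s hs, hy3⟩
    exact h1 hx
  · rintro ⟨h1, h2, h3⟩
    exact subset_closure ⟨⟨h1, fun s hs => h2 s hs⟩, h3⟩

theorem om_ea (S : Subgroup G) : IsElementaryAbelian 2 (om S) := by
  refine ⟨⟨⟨?_⟩⟩, ?_⟩
  · rintro ⟨x, hx⟩ ⟨y, hy⟩
    exact Subtype.ext ((mem_om.mp hy).2.1 x (mem_om.mp hx).1)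
  · intro a ha
    exact (mem_om.mp ha).2.2

theorem om_le (S : Subgroup G) : om S ≤ S := fun _ hx => (mem_om.mp hx).1

theorem le_cent_om (S : Subgroup G) : S ≤ centralizer (om S : Set G) := fun s hs _ hx =>
  ((mem_om.mp hx).2.1 s hs).symm

theorem norm_om (S : Subgroup G) : normalizer (S : Set G) ≤ normalizer (om S : Set G) := by
  intro n hn
  apply mem_normalizer_of_map_conj_le
  rintro _ ⟨x, hx, rfl⟩
  obtain ⟨h1, h2, h3⟩ := mem_om.mp hx
  show n * x * n⁻¹ ∈ om S
  rw [mem_om]
  refine ⟨(mem_normalizer_iff.mp hn x).mp h1, ?_, ?_⟩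
  · intro s hs
    have h4 : n⁻¹ * s * n ∈ S := (mem_normalizer_iff''.mp hn s).mp hs
    calc s * (n * x * n⁻¹) = n * ((n⁻¹ * s * n) * x) * n⁻¹ := by group
      _ = n * (x * (n⁻¹ * s * n)) * n⁻¹ := by rw [h2 _ h4]
      _ = n * x * n⁻¹ * s := by group
  · rw [conj_pow, h3]; group

/-- `S ∩ O²(G) ≠ 1` -/
theorem R_ne_bot (heven : Even (Nat.card G)) (hO' : pPrimeCore 2 G = ⊥) (hO : pCore 2 G = ⊥) {S : Subgroup G}
    (hS : IsSyl 2 S ⊤) : S ⊓ pResidual 2 G ≠ ⊥ := by
  intro e
  have hHn : (pResidual 2 G).Normal := res_normal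
  have h1 : IsSyl 2 (S ⊓ pResidual 2 G) (pResidual 2 G) := hS.inf_normal le_top (by
    rw [Subgroup.normalizer_eq_top])
  have h2 : (Nat.card ↥(pResidual 2 G)).Coprime 2 := by
    have := h1.ndvd
    rw [e, relIndex_bot_left] at this
    exact ((Nat.Prime.coprime_iff_not_dvd Nat.prime_two).mpr this).symm
  have h3 : pResidual 2 G = ⊥ := by
    rw [eq_bot_iff, ← hO']
    exact Cores.le_pPrimeCore hHn h2
  have h4 : S = ⊤ := by
    have := sup_res hS
    rwa [h3, sup_bot_eq] at this
  have h5 : (⊤ : Subgroup G) ≤ pCore 2 G := le_pCore inferInstance (by rw [← h4]; exact hS.pgroup)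
  rw [hO, le_bot_iff] at h5
  have h6 : Nat.card G = 1 := by
    rw [← Subgroup.card_top (G := G), h5, card_bot]
  rw [h6] at heven
  exact absurd heven (by decide)

/-- the classification of ZC-groups -/
theorem main (heven : Even (Nat.card G)) (hs : Slv G) {S : Subgroup G} (hS : IsSyl 2 S ⊤)
    (hZ : centralizer (om S : Set G) ≤ normalizer (S : Set G)) (hO' : pPrimeCore 2 G = ⊥) (hO : pCore 2 G = ⊥) :
    (∃ M : Subgroup ↥(pResidual 2 G), IsStronglyEmbedded M) ∨
      (Nat.card ↥(om S ⊓ pResidual 2 G : Subgroup G) = 2 ∧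
        ∀ h ∈ pResidual 2 G, ∀ z ∈ om S ⊓ pResidual 2 G, h * z * h⁻¹ ∈ S → h * z * h⁻¹ ∈ om S) ∨
      (Nat.card ↥(om S) = 4 ∧ omegaOne 2 (S ⊓ pResidual 2 G) = om S) ∨
      IsCharacteristicTwoType ↥(pResidual 2 G ⊔ om S : Subgroup G) := by
  have hR := R_ne_bot heven hO' hO hS
  have hHn : (pResidual 2 G).Normal := res_normal
  have hnH : S ≤ normalizer ((pResidual 2 G : Subgroup G) : Set G) := by rw [Subgroup.normalizer_eq_top]; exact le_top
  obtain ⟨z, hzR, hzo, hzc⟩ := exists_inv_center hS.pgroup (N := S ⊓ pResidual 2 G) inf_le_left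
    (le_normalizer_inf le_normalizer hnH) hR
  have hzZ : z ∈ om S := mem_om.mpr ⟨hzR.1, hzc, by rw [← hzo, pow_orderOf_eq_one]⟩
  have hzZH : z ∈ om S ⊓ pResidual 2 G := ⟨hzZ, hzR.2⟩
  have hZe := om_ea S
  obtain ⟨m, hm⟩ := (ea_pgroup hZe).exists_card_eq
  have hm0 : m ≠ 0 := by
    rintro rfl
    rw [pow_zero] at hm
    have : om S = ⊥ := (card_eq_one).mp hm
    rw [this, mem_bot] at hzZ
    exact ne_one_of hzo hzZ
  by_cases h4 : 4 ≤ Nat.card (om S)
  · by_cases hA : ∃ A : Subgroup G, om S ≤ A ∧ IsElementaryAbelian 2 A ∧ 8 ≤ Nat.card A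
    · obtain ⟨A, hA1, hA2, hA3⟩ := hA
      have hca : CA S (om S) A := ⟨hs, hS, om_le S, hZe, h4, le_cent_om S, norm_om S, hA1, hA2, hA3⟩
      rcases hca.main hO' hR with h | h
      · exact Or.inl h
      · exact Or.inr (Or.inr (Or.inr h))
    · -- all involutions of `S` are in `Z`
      push Not at hA
      have hall : ∀ t ∈ S, t ^ 2 = 1 → t ∈ om S := by
        intro t ht ht2
        by_contra htZ
        have h1 : IsElementaryAbelian 2 (zpowers t) := by
          refine ⟨inferInstance, ?_⟩
          intro a ha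
          obtain ⟨k, rfl⟩ := mem_zpowers_iff.mp ha
          rw [← zpow_natCast, zpow_comm, zpow_natCast, ht2, one_zpow]
        have h2 : zpowers t ≤ centralizer (om S : Set G) := by rw [zpowers_le]; exact le_cent_om S ht
        have hE := ea_sup h1 hZe h2
        have hlt : om S < zpowers t ⊔ om S := by
          apply lt_of_le_of_ne le_sup_right
          intro e
          apply htZ
          rw [e]
          exact (le_sup_left : zpowers t ≤ zpowers t ⊔ om S) (mem_zpowers t)
        have h8 := two_mul_card hlt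
        have := hA _ le_sup_right hE
        omega
      have hc4 : Nat.card (om S) = 4 := by
        have h1 := hA _ le_rfl hZe
        have h2 : m < 3 := by
          by_contra hcon
          have : 2 ^ 3 ≤ 2 ^ m := Nat.pow_le_pow_right (by norm_num) (by omega)
          omega
        have h3 : m = 2 := by
          by_contra hcon
          have : m = 1 := by omega
          rw [this] at hm
          omega
        rw [hm, h3]
        norm_num
      obtain ⟨j, hj⟩ := ((ea_pgroup hZe).to_le (inf_le_left : om S ⊓ pResidual 2 G ≤ om S)).exists_card_eq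
      have hj0 : j ≠ 0 := by
        rintro rfl
        rw [pow_zero] at hj
        have : om S ⊓ pResidual 2 G = ⊥ := (card_eq_one).mp hj
        rw [this, mem_bot] at hzZH
        exact ne_one_of hzo hzZH
      have hj2 : j ≤ 2 := by
        by_contra hcon
        have h1 : Nat.card ↥(om S ⊓ pResidual 2 G : Subgroup G) ≤ Nat.card (om S) := Subgroup.card_le_of_le inf_le_left
        have : 2 ^ 3 ≤ 2 ^ j := Nat.pow_le_pow_right (by norm_num) (by omega)
        omega
      right
      rcases (by omega : j = 1 ∨ j = 2) with rfl | rfl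
      · left
        refine ⟨by rw [hj]; norm_num, ?_⟩
        intro h _ x hx hxS
        apply hall _ hxS
        rw [conj_pow, hZe.2 x hx.1]; group
      · right; left
        refine ⟨hc4, ?_⟩
        have h1 : om S ⊓ pResidual 2 G = om S := by
          apply SetLike.coe_injective
          apply Set.eq_of_subset_of_ncard_le (show ((om S ⊓ pResidual 2 G : Subgroup G) : Set G) ⊆ om S from inf_le_left)
          · show Nat.card (om S) ≤ Nat.card ↥(om S ⊓ pResidual 2 G : Subgroup G)
            rw [hj, hc4]; norm_num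
        apply le_antisymm
        · refine (closure_le _).mpr ?_
          rintro x ⟨hx, hx2⟩
          exact hall x hx.1 hx2
        · intro x hx
          have hx' : x ∈ om S ⊓ pResidual 2 G := by rw [h1]; exact hx
          exact subset_closure ⟨⟨om_le S hx, hx'.2⟩, hZe.2 x hx⟩
  · -- `|Z| = 2`
    have hm1 : m = 1 := by
      by_contra hcon
      have : 2 ^ 2 ≤ 2 ^ m := Nat.pow_le_pow_right (by norm_num) (by omega)
      omega
    have hc2 : Nat.card (om S) = 2 := by rw [hm, hm1]; norm_num
    have hZz : om S = zpowers z := by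
      symm
      apply SetLike.coe_injective
      apply Set.eq_of_subset_of_ncard_le (show ((zpowers z : Subgroup G) : Set G) ⊆ om S from by
        show zpowers z ≤ om S
        rw [zpowers_le]; exact hzZ)
      · show Nat.card (om S) ≤ Nat.card (zpowers z)
        rw [hc2, Nat.card_zpowers, hzo]
    have huz : ∀ x ∈ om S, x = 1 ∨ x = z := by
      intro x hx
      rw [hZz] at hx
      obtain ⟨k, rfl⟩ := mem_zpowers_iff.mp hx
      have hc2 : z ^ (2 : ℤ) = 1 := by
        have := pow_orderOf_eq_one z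
        rw [hzo] at this
        exact_mod_cast this
      rcases Int.even_or_odd' k with ⟨j, rfl | rfl⟩
      · left; rw [zpow_mul, hc2, one_zpow]
      · right; rw [zpow_add, zpow_mul, hc2, one_zpow, one_mul, zpow_one]
    have hpr : Pr z S :=
      { syl := hS
        zS := hzR.1
        zo := hzo
        cn := by
          refine le_trans ?_ hZ
          rw [hZz, centralizer_zpowers_eq]
        zc := fun s hs => mem_cent.mpr (hzc s hs)
        uq := fun x hx hxc hx2 => huz x (mem_om.mpr ⟨hx, hxc, hx2⟩) }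
    rcases caseC hs hO' hpr hzR.2 with h | h | h
    · right; left
      have h1 : om S ⊓ pResidual 2 G = om S := by
        rw [inf_eq_left, hZz, zpowers_le]; exact hzR.2
      refine ⟨by rw [h1, hc2], ?_⟩
      intro g hg x hx hxS
      rcases huz x hx.1 with rfl | rfl
      · rw [mul_one, mul_inv_cancel]; exact one_mem _
      · rw [h g hg hxS]; exact hzZ
    · exact Or.inl h
    · right; right; right
      have h1 : pResidual 2 G ⊔ om S = pResidual 2 G := by
        rw [sup_eq_left, hZz, zpowers_le]; exact hzR.2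
      rw [h1]; exact h

end Cfsg.Agent.Lib.H47Zc
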