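import Mathlib
import Cfsg.Agent.Lib.FrobExist

/-!
# Finite subgroups of division rings (Amitsur): they occur as Frobenius complements
-/

set_option autoImplicit false

namespace Cfsg.Agent.Lib.H50Am1

open FrobExist

variable {D : Type*} [DivisionRing D]

/-- In positive characteristic finite subgroups are commutative. -/
theorem comm_of_charP {p : ℕ} [Fact p.Prime] [CharP D p] (H : Subgroup Dˣ) [Finite H] (a b : Dˣ)
    (ha : a ∈ H) (hb : b ∈ H) : a * b = b * a := by
  letI : Algebra (ZMod p) D := ZMod.algebra D p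
  let s : Submonoid D := H.toSubmonoid.map (Units.coeHom D)
  have hsfin : (s : Set D).Finite := by
    have : (s : Set D) = (fun u : Dˣ => (u : D)) '' (H : Set Dˣ) := rfl
    rw [this]
    exact Set.Finite.image _ (Set.toFinite _)
  let A : Subalgebra (ZMod p) D := Algebra.adjoin (ZMod p) (s : Set D)
  have hA : Subalgebra.toSubmodule A = Submodule.span (ZMod p) (s : Set D) := by
    rw [Algebra.adjoin_eq_span, Submonoid.closure_eq]
  have hfg : (Subalgebra.toSubmodule A).FG := by
    rw [hA]
    exact Submodule.fg_span hsfin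
  haveI : Module.Finite (ZMod p) A := Module.Finite.iff_fg.2 hfg
  haveI : Finite A := Module.finite_of_finite (ZMod p)
  haveI : IsDomain A := inferInstance
  have hF : IsField A := Finite.isDomain_to_isField A
  have ha' : (a : D) ∈ A := Algebra.subset_adjoin ⟨a, ha, rfl⟩
  have hb' : (b : D) ∈ A := Algebra.subset_adjoin ⟨b, hb, rfl⟩
  have := hF.mul_comm ⟨(a : D), ha'⟩ ⟨(b : D), hb'⟩
  apply Units.ext
  exact congrArg Subtype.val this

theorem charZero_of_not_comm (H : Subgroup Dˣ) [Finite H] (a b : Dˣ)
    (ha : a ∈ H) (hb : b ∈ H) (hab : a * b ≠ b * a) : CharZero D := by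
  obtain ⟨p, hp⟩ := CharP.exists D
  rcases CharP.char_is_prime_or_zero D p with h | h
  · haveI : Fact p.Prime := ⟨h⟩
    exact absurd (comm_of_charP (p := p) H a b ha hb) hab
  · subst h
    exact CharP.charP_to_charZero D

/-- the lattice spanned by `H` -/
def lat (H : Subgroup Dˣ) : Submodule ℤ D := Submodule.span ℤ (Set.range (fun h : H => ((h : Dˣ) : D)))

theorem mul_mem_lat (H : Subgroup Dˣ) (h : H) {x : D} (hx : x ∈ lat H) :
    ((h : Dˣ) : D) * x ∈ lat H := by
  unfold lat at *
  induction hx using Submodule.span_induction with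
  | mem x hx =>
    obtain ⟨k, rfl⟩ := hx
    apply Submodule.subset_span
    exact ⟨h * k, by simp⟩
  | zero => simp
  | add x y _ _ hx hy => rw [mul_add]; exact add_mem hx hy
  | smul a x _ hx =>
    rw [mul_smul_comm]; exact Submodule.smul_mem _ _ hx

def lmul (H : Subgroup Dˣ) (h : H) : lat H →ₗ[ℤ] lat H :=
  (LinearMap.mulLeft ℤ ((h : Dˣ) : D)).restrict (fun _ hx => mul_mem_lat H h hx)

theorem lmul_coe (H : Subgroup Dˣ) (h : H) (x : lat H) :
    ((lmul H h x : lat H) : D) = ((h : Dˣ) : D) * x := rfl

def sub (H : Subgroup Dˣ) (p : ℕ) : Submodule ℤ (lat H) :=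
  LinearMap.range (LinearMap.lsmul ℤ (lat H) (p : ℤ))

theorem mem_sub (H : Subgroup Dˣ) (p : ℕ) (x : lat H) :
    x ∈ sub H p ↔ ∃ y : lat H, (p : ℤ) • y = x := Iff.rfl

theorem lmul_sub (H : Subgroup Dˣ) (p : ℕ) (h : H) : sub H p ≤ (sub H p).comap (lmul H h) := by
  rintro _ ⟨y, rfl⟩
  refine ⟨lmul H h y, ?_⟩
  simp

abbrev quo (H : Subgroup Dˣ) (p : ℕ) := lat H ⧸ sub H p

noncomputable def act (H : Subgroup Dˣ) (p : ℕ) : DistribMulAction H (quo H p) where
  smul h v := (sub H p).mapQ (sub H p) (lmul H h) (lmul_sub H p h) v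
  one_smul v := by
    induction v using Submodule.Quotient.induction_on with
    | _ x =>
      change (sub H p).mapQ (sub H p) (lmul H 1) (lmul_sub H p 1) (Submodule.Quotient.mk x) = _
      rw [Submodule.mapQ_apply]
      congr 1
      apply Subtype.ext
      rw [lmul_coe]; simp
  mul_smul a b v := by
    induction v using Submodule.Quotient.induction_on with
    | _ x =>
      change (sub H p).mapQ (sub H p) (lmul H (a * b)) (lmul_sub H p (a * b)) (Submodule.Quotient.mk x) =
        (sub H p).mapQ (sub H p) (lmul H a) (lmul_sub H p a)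
          ((sub H p).mapQ (sub H p) (lmul H b) (lmul_sub H p b) (Submodule.Quotient.mk x))
      rw [Submodule.mapQ_apply, Submodule.mapQ_apply, Submodule.mapQ_apply]
      congr 1
      apply Subtype.ext
      rw [lmul_coe, lmul_coe, lmul_coe]; simp [mul_assoc]
  smul_zero a := map_zero _
  smul_add a x y := map_add _ _ _

theorem act_mk (H : Subgroup Dˣ) (p : ℕ) (h : H) (x : lat H) :
    letI := act H p
    h • (Submodule.Quotient.mk x : quo H p) = Submodule.Quotient.mk (lmul H h x) := rfl

theorem occurs [CharZero D] (H : Subgroup Dˣ) [Finite H] [Nontrivial H] : Occurs H := by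
  obtain ⟨p, hp1, hp⟩ := Nat.exists_infinite_primes (Nat.card H + 1)
  have hcop : p.Coprime (Nat.card H) :=
    (Nat.Prime.coprime_iff_not_dvd hp).2 (fun h => by
      have := Nat.le_of_dvd Nat.card_pos h
      omega)
  letI := act H p
  haveI : Module.Finite ℤ (lat H) := Module.Finite.iff_fg.2 (Submodule.fg_span (Set.finite_range _))
  haveI : Finite (quo H p) := by
    apply Module.finite_of_fg_torsion
    intro v
    refine ⟨⟨(p : ℤ), mem_nonZeroDivisors_of_ne_zero (by exact_mod_cast hp.ne_zero)⟩, ?_⟩
    induction v using Submodule.Quotient.induction_on with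
    | _ x =>
      change (p : ℤ) • (Submodule.Quotient.mk x : quo H p) = 0
      rw [← Submodule.Quotient.mk_smul, Submodule.Quotient.mk_eq_zero]
      exact ⟨x, rfl⟩
  have h1 : (1 : D) ∈ lat H := Submodule.subset_span ⟨1, by simp⟩
  haveI : Nontrivial (lat H) := ⟨⟨⟨1, h1⟩, 0, fun h => one_ne_zero (congrArg Subtype.val h)⟩⟩
  haveI : Nontrivial (quo H p) := by
    rw [Submodule.Quotient.nontrivial_iff]
    intro htop
    haveI : Module.IsTorsionFree ℤ (lat H) := inferInstance
    haveI : Module.Free ℤ (lat H) := inferInstance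
    let b := Module.Free.chooseBasis ℤ (lat H)
    haveI : Nonempty (Module.Free.ChooseBasisIndex ℤ (lat H)) := b.index_nonempty
    obtain ⟨i⟩ := this
    have : b i ∈ sub H p := by rw [htop]; trivial
    obtain ⟨y, hy⟩ := (mem_sub H p _).1 this
    have h2 := congrArg (fun z => b.repr z i) hy
    simp only [map_smul, Finsupp.smul_apply, Module.Basis.repr_self, Finsupp.single_eq_same,
      smul_eq_mul] at h2
    have h3 : (p : ℤ) ∣ 1 := ⟨_, h2.symm⟩
    have h4 : p ∣ 1 := by exact_mod_cast h3
    exact hp.one_lt.ne' (Nat.dvd_one.1 h4)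
  refine of_distribMulAction H (quo H p) ?_
  intro h hh v hv
  have hpow : ∀ n : ℕ, (h ^ n) • v = v := by
    intro n
    induction n with
    | zero => simp
    | succ n ih => rw [pow_succ, mul_smul, hv, ih]
  induction v using Submodule.Quotient.induction_on with
  | _ x =>
    -- the norm
    set n := orderOf h with hn
    have hn0 : 0 < n := orderOf_pos h
    have hD1 : (((h : Dˣ) : D)) ≠ 1 := by
      intro h'
      apply hh
      apply Subtype.ext
      exact Units.ext h'
    have hDn : (((h : Dˣ) : D)) ^ n = 1 := by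
      have : h ^ n = 1 := pow_orderOf_eq_one h
      have := congrArg (fun u : H => ((u : Dˣ) : D)) this
      simpa using this
    have hN : ∑ i ∈ Finset.range n, (((h : Dˣ) : D)) ^ i = 0 := by
      have := geom_sum_mul (((h : Dˣ) : D)) n
      rw [hDn, sub_self] at this
      rcases mul_eq_zero.1 this with h' | h'
      · exact h'
      · exact absurd (sub_eq_zero.1 h') hD1
    have hsum : (Submodule.Quotient.mk (∑ i ∈ Finset.range n, lmul H (h ^ i) x) : quo H p) =
        (n : ℤ) • Submodule.Quotient.mk x := by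
      have h5 : (Submodule.Quotient.mk (∑ i ∈ Finset.range n, lmul H (h ^ i) x) : quo H p) =
        ∑ i ∈ Finset.range n, (Submodule.Quotient.mk (lmul H (h ^ i) x) : quo H p) :=
        map_sum (sub H p).mkQ _ _
      rw [h5]
      have h6 : ∀ i ∈ Finset.range n, (Submodule.Quotient.mk (lmul H (h ^ i) x) : quo H p) =
          Submodule.Quotient.mk x := fun i _ => hpow i
      rw [Finset.sum_congr rfl h6]
      simp
    have hzero : (∑ i ∈ Finset.range n, lmul H (h ^ i) x) = 0 := by
      apply Subtype.ext
      rw [Submodule.coe_sum]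
      have : ∀ i ∈ Finset.range n, ((lmul H (h ^ i) x : lat H) : D) = (((h : Dˣ) : D)) ^ i * x := by
        intro i _
        rw [lmul_coe]; simp
      rw [Finset.sum_congr rfl this, ← Finset.sum_mul, hN, zero_mul]
      rfl
    rw [hzero] at hsum
    have hnv : (n : ℤ) • (Submodule.Quotient.mk x : quo H p) = 0 := by
      rw [← hsum]; rfl
    have hpv : (p : ℤ) • (Submodule.Quotient.mk x : quo H p) = 0 := by
      rw [← Submodule.Quotient.mk_smul, Submodule.Quotient.mk_eq_zero]
      exact ⟨x, rfl⟩
    have hcop2 : IsCoprime (p : ℤ) (n : ℤ) := by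
      rw [Nat.isCoprime_iff_coprime]
      exact hcop.coprime_dvd_right (orderOf_dvd_natCard h)
    obtain ⟨a, b, hab⟩ := hcop2
    calc (Submodule.Quotient.mk x : quo H p) = (1 : ℤ) • Submodule.Quotient.mk x := (one_smul _ _).symm
      _ = a • ((p : ℤ) • (Submodule.Quotient.mk x : quo H p)) +
          b • ((n : ℤ) • (Submodule.Quotient.mk x : quo H p)) := by
          rw [← hab, add_smul, mul_smul, mul_smul]
      _ = 0 := by rw [hnv, hpv, smul_zero, smul_zero, add_zero]

end Cfsg.Agent.Lib.H50Am1
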