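import Mathlib

/-!
# Computations in a division ring containing the binary icosahedral group
-/

set_option autoImplicit false

namespace Cfsg.Agent.Lib.H50Am2

variable {D : Type*} [DivisionRing D]

/-- `u` of order five: the trace is a root of `t² + t - 1`. -/
theorem trace_five {u v : D} (huv : u * v = 1) (hvu : v * u = 1) (h5 : u ^ 5 = 1) (h1 : u ≠ 1) :
    (u + v) * (u + v) + (u + v) - 1 = 0 := by
  have h : (u - 1) * (u ^ 4 + u ^ 3 + u ^ 2 + u + 1) = 0 := by
    have : (u - 1) * (u ^ 4 + u ^ 3 + u ^ 2 + u + 1) = u ^ 5 - 1 := by noncomm_ring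
    rw [this, h5, sub_self]
  have h2 : u ^ 4 + u ^ 3 + u ^ 2 + u + 1 = 0 := by
    rcases mul_eq_zero.1 h with h | h
    · exact absurd (sub_eq_zero.1 h) h1
    · exact h
  have hc : u * v = v * u := huv.trans hvu.symm
  have e1 : (u ^ 4 + u ^ 3 + u ^ 2 + u + 1) * (v * v) = (u + v) * (u + v) + (u + v) - 1 := by
    have a2 : u ^ 2 * (v * v) = 1 := by
      have : u ^ 2 * (v * v) = u * (u * v) * v := by noncomm_ring
      rw [this, huv, mul_one, huv]
    have a1 : u * (v * v) = v := by
      rw [← mul_assoc, huv, one_mul]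
    have a3 : u ^ 3 * (v * v) = u := by
      have : u ^ 3 * (v * v) = u * (u ^ 2 * (v * v)) := by noncomm_ring
      rw [this, a2, mul_one]
    have a4 : u ^ 4 * (v * v) = u * u := by
      have : u ^ 4 * (v * v) = u * u * (u ^ 2 * (v * v)) := by noncomm_ring
      rw [this, a2, mul_one]
    rw [add_mul, add_mul, add_mul, add_mul, a4, a3, a2, a1, one_mul]
    have : (u + v) * (u + v) = u * u + u * v + v * u + v * v := by noncomm_ring
    rw [this, huv, hvu]
    abel
  rw [h2, zero_mul] at e1
  exact e1.symm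

/-- Icosahedral data. -/
structure Ico (I J X : D) : Prop where
  II : I * I = -1
  JJ : J * J = -1
  IJ : I * J = -(J * I)
  XX : X * X = -X - 1
  XIX : X * I * X = I
  u5 : (J * X) ^ 5 = 1
  u1 : J * X ≠ 1
  w5 : (-(I * J * X)) ^ 5 = 1
  w1 : -(I * J * X) ≠ 1

namespace Ico

variable {I J X : D} (h : Ico I J X)
include h

theorem JI : J * I = -(I * J) := by rw [h.IJ, neg_neg]

theorem KK : (I * J) * (I * J) = -1 := by
  have : (I * J) * (I * J) = I * (J * I) * J := by noncomm_ring
  rw [this, h.JI]
  have : I * -(I * J) * J = -((I * I) * (J * J)) := by noncomm_ring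
  rw [this, h.II, h.JJ]; simp

theorem IK : I * (I * J) = -J := by rw [← mul_assoc, h.II]; simp

theorem KI : (I * J) * I = J := by
  rw [h.IJ, neg_mul, mul_assoc, h.II]; simp

theorem JK : J * (I * J) = I := by
  rw [← mul_assoc, h.JI, neg_mul, mul_assoc, h.JJ]; simp

theorem KJ : (I * J) * J = -I := by rw [mul_assoc, h.JJ]; simp

theorem IX : I * X = -I - X * I := by
  have e := h.XIX
  have e1 : X * (X * I * X) = X * I := by rw [e]
  have e2 : X * (X * I * X) = (X * X) * (I * X) := by noncomm_ring
  rw [e2, h.XX] at e1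
  have e3 : (-X - 1) * (I * X) = -(X * I * X) - I * X := by noncomm_ring
  rw [e3, e] at e1
  rw [← e1]; abel

theorem IXI : I * X * I = X + 1 := by
  rw [h.IX, sub_mul, neg_mul, h.II, mul_assoc, h.II]; simp; abel

omit h in
/-- the trace elements -/
def T2 (J X : D) : D := J * X + X * J + J

omit h in
def T3 (I J X : D) : D := (I * J) * X + X * (I * J) + (I * J)

theorem T2_J : T2 J X * J = J * T2 J X := by
  have e1 : T2 J X * J = J * X * J + X * (J * J) + J * J := by unfold T2; noncomm_ring
  have e2 : J * T2 J X = (J * J) * X + J * X * J + J * J := by unfold T2; noncomm_ring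
  rw [e1, e2, h.JJ]; simp; abel

theorem T2_I : T2 J X * I = I * T2 J X := by
  have e2 : I * T2 J X = (I * J) * X + (I * X) * J + I * J := by unfold T2; noncomm_ring
  have e3 : (I * J) * X = J * I + J * X * I := by
    rw [h.IJ, neg_mul, mul_assoc, h.IX]; noncomm_ring
  have e4 : (I * X) * J = -(I * J) + X * J * I := by
    rw [h.IX, sub_mul, neg_mul, mul_assoc X I J, h.IJ]; noncomm_ring
  rw [e2, e3, e4]
  unfold T2; noncomm_ring

theorem T3_K : T3 I J X * (I * J) = (I * J) * T3 I J X := by
  have e1 : T3 I J X * (I * J) = (I * J) * X * (I * J) + X * ((I * J) * (I * J)) + (I * J) * (I * J) := by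
    unfold T3; noncomm_ring
  have e2 : (I * J) * T3 I J X = ((I * J) * (I * J)) * X + (I * J) * X * (I * J) + (I * J) * (I * J) := by
    unfold T3; noncomm_ring
  rw [e1, e2, h.KK]; simp; abel

theorem T3_I : T3 I J X * I = I * T3 I J X := by
  have hIK : I * (I * J) = -((I * J) * I) := by rw [h.IK, h.KI]
  have e2 : I * T3 I J X = (I * (I * J)) * X + (I * X) * (I * J) + I * (I * J) := by
    unfold T3; noncomm_ring
  have e3 : (I * (I * J)) * X = (I * J) * I + (I * J) * X * I := by
    rw [hIK, neg_mul, mul_assoc, h.IX]; noncomm_ring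
  have e4 : (I * X) * (I * J) = -(I * (I * J)) + X * (I * J) * I := by
    rw [h.IX, sub_mul, neg_mul, mul_assoc X I (I * J), hIK]; noncomm_ring
  rw [e2, e3, e4]
  unfold T3; noncomm_ring

theorem T3_J : T3 I J X * J = J * T3 I J X := by
  have hJ : J = -(I * (I * J)) := by rw [h.IK, neg_neg]
  have e1 : T3 I J X * (I * (I * J)) = (I * (I * J)) * T3 I J X := by
    rw [← mul_assoc, h.T3_I, mul_assoc, h.T3_K, mul_assoc I (I * J)]
  have e2 : T3 I J X * -(I * (I * J)) = -(I * (I * J)) * T3 I J X := by
    rw [mul_neg, neg_mul, e1]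
  rw [h.IK, neg_neg] at e2
  exact e2

theorem Y_eq : 2 * X + 1 = -(J * T2 J X + (I * J) * T3 I J X) := by
  have e1 : J * T2 J X = -X + J * X * J - 1 := by
    have : J * T2 J X = (J * J) * X + J * X * J + J * J := by unfold T2; noncomm_ring
    rw [this, h.JJ]; simp; abel
  have e2 : (I * J) * T3 I J X = -X + (I * J) * X * (I * J) - 1 := by
    have : (I * J) * T3 I J X = ((I * J) * (I * J)) * X + (I * J) * X * (I * J) + (I * J) * (I * J) := by
      unfold T3; noncomm_ring
    rw [this, h.KK]; simp; abel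
  have e3 : (I * J) * X * (I * J) = -(J * X * J) + 1 := by
    have : (I * J) * X * (I * J) = (-(J * I)) * X * (I * J) := by rw [← h.IJ]
    rw [this]
    have : (-(J * I)) * X * (I * J) = -(J * (I * X * I) * J) := by noncomm_ring
    rw [this, h.IXI]
    have : -(J * (X + 1) * J) = -(J * X * J) - J * J := by noncomm_ring
    rw [this, h.JJ]; abel
  rw [e1, e2, e3]
  noncomm_ring

theorem T2_quad : T2 J X * T2 J X + T2 J X - 1 = 0 := by
  have huv : (J * X) * (X * J + J) = 1 := by
    have : (J * X) * (X * J + J) = J * (X * X) * J + J * X * J := by noncomm_ring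
    rw [this, h.XX]
    have : J * (-X - 1) * J + J * X * J = -(J * J) := by noncomm_ring
    rw [this, h.JJ, neg_neg]
  have hvu : (X * J + J) * (J * X) = 1 := by
    have : (X * J + J) * (J * X) = X * (J * J) * X + (J * J) * X := by noncomm_ring
    rw [this, h.JJ]
    have : X * -1 * X + -1 * X = -(X * X) - X := by noncomm_ring
    rw [this, h.XX]; abel
  have := trace_five huv hvu h.u5 h.u1
  have e : T2 J X = J * X + (X * J + J) := by unfold T2; abel
  rw [e]; exact this

theorem T3_quad : T3 I J X * T3 I J X - T3 I J X - 1 = 0 := by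
  set K := I * J with hK
  have hKK : K * K = -1 := h.KK
  have huv : (-(K * X)) * (-(X * K + K)) = 1 := by
    have : (-(K * X)) * (-(X * K + K)) = K * (X * X) * K + K * X * K := by noncomm_ring
    rw [this, h.XX]
    have : K * (-X - 1) * K + K * X * K = -(K * K) := by noncomm_ring
    rw [this, hKK, neg_neg]
  have hvu : (-(X * K + K)) * (-(K * X)) = 1 := by
    have : (-(X * K + K)) * (-(K * X)) = X * (K * K) * X + (K * K) * X := by noncomm_ring
    rw [this, hKK]
    have : X * -1 * X + -1 * X = -(X * X) - X := by noncomm_ring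
    rw [this, h.XX]; abel
  have := trace_five huv hvu h.w5 h.w1
  have e : -(K * X) + -(X * K + K) = - T3 I J X := by unfold T3; rw [← hK]; abel
  rw [e] at this
  have e2 : -T3 I J X * -T3 I J X + -T3 I J X - 1 = T3 I J X * T3 I J X - T3 I J X - 1 := by
    noncomm_ring
  rw [e2] at this
  exact this

theorem sum_sq [CharZero D] : T2 J X * T3 I J X = T3 I J X * T2 J X ∧
    T2 J X * T2 J X + T3 I J X * T3 I J X = 3 := by
  set a := T2 J X with ha
  set b := T3 I J X with hb
  set K := I * J with hK
  have haJ : a * J = J * a := h.T2_J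
  have haI : a * I = I * a := h.T2_I
  have hbJ : b * J = J * b := h.T3_J
  have hbI : b * I = I * b := h.T3_I
  have haK : a * K = K * a := by rw [hK, ← mul_assoc, haI, mul_assoc, haJ, mul_assoc]
  have hbK : b * K = K * b := by rw [hK, ← mul_assoc, hbI, mul_assoc, hbJ, mul_assoc]
  have hY : (2 * X + 1) * (2 * X + 1) = -3 := by
    have : (2 * X + 1) * (2 * X + 1) = 4 * (X * X) + 4 * X + 1 := by noncomm_ring
    rw [this, h.XX]
    rw [mul_sub, mul_neg, mul_one]
    have : -((4 : D) * X) - 4 + 4 * X + 1 = -4 + 1 := by abel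
    rw [this]; norm_num
  have hY2 : (2 * X + 1) = -(J * a + K * b) := h.Y_eq
  rw [hY2] at hY
  have e1 : -(J * a + K * b) * -(J * a + K * b) =
      J * (a * J) * a + J * (a * K) * b + K * (b * J) * a + K * (b * K) * b := by noncomm_ring
  rw [e1, haJ, haK, hbJ, hbK] at hY
  have e2 : J * (J * a) * a + J * (K * a) * b + K * (J * b) * a + K * (K * b) * b =
      (J * J) * (a * a) + (J * K) * (a * b) + (K * J) * (b * a) + (K * K) * (b * b) := by noncomm_ring
  have hJK : J * K = I := h.JK
  have hKJ : K * J = -I := h.KJ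
  have hKK : K * K = -1 := h.KK
  rw [e2, h.JJ, hJK, hKJ, hKK] at hY
  set E := a * a + b * b - 3 with hE
  set F := a * b - b * a with hF
  have hEF : E = I * F := by
    have : E - I * F = -(-1 * (a * a) + I * (a * b) + -I * (b * a) + -1 * (b * b)) - 3 := by
      rw [hE, hF]; noncomm_ring
    rw [hY] at this
    have h0 : E - I * F = 0 := by rw [this]; norm_num
    exact sub_eq_zero.1 h0
  have hEJ : E * J = J * E := by
    have : E * J - J * E = a * (a * J) + b * (b * J) - (J * a) * a - (J * b) * b := by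
      rw [hE]; noncomm_ring
    rw [haJ, hbJ] at this
    have h2 : a * (J * a) + b * (J * b) - J * a * a - J * b * b =
      (a * J) * a + (b * J) * b - J * a * a - J * b * b := by noncomm_ring
    rw [h2, haJ, hbJ] at this
    have h0 : E * J - J * E = 0 := by rw [this]; noncomm_ring
    exact sub_eq_zero.1 h0
  have hFJ : F * J = J * F := by
    have : F * J = a * (b * J) - b * (a * J) := by rw [hF]; noncomm_ring
    rw [this, haJ, hbJ, ← mul_assoc, ← mul_assoc, haJ, hbJ, hF]; noncomm_ring
  have hF0 : F = 0 := by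
    have h1 : I * F * J = J * (I * F) := by rw [← hEF]; exact hEJ
    have h2 : I * F * J = (I * J) * F := by rw [mul_assoc, hFJ, ← mul_assoc]
    have h3 : J * (I * F) = -((I * J) * F) := by rw [← mul_assoc, h.JI, neg_mul]
    rw [h2, h3] at h1
    have h4 : (2 : D) * ((I * J) * F) = 0 := by
      rw [two_mul]; nth_rewrite 1 [h1]; simp
    have hI0 : I ≠ 0 := by
      intro h0
      have := h.II
      rw [h0] at this; simp at this
    have hJ0 : J ≠ 0 := by
      intro h0
      have := h.JJ
      rw [h0] at this; simp at this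
    rcases mul_eq_zero.1 h4 with h5 | h5
    · exact absurd h5 two_ne_zero
    · rcases mul_eq_zero.1 h5 with h6 | h6
      · exact absurd h6 (mul_ne_zero hI0 hJ0)
      · exact h6
  refine ⟨sub_eq_zero.1 hF0, ?_⟩
  rw [hF0, mul_zero] at hEF
  exact sub_eq_zero.1 hEF

theorem T3_eq [CharZero D] : T3 I J X = T2 J X + 1 := by
  obtain ⟨-, h2⟩ := h.sum_sq
  have h3 := h.T2_quad
  have h4 := h.T3_quad
  have : T3 I J X - (T2 J X + 1) = (T2 J X * T2 J X + T3 I J X * T3 I J X - 3) -
      (T2 J X * T2 J X + T2 J X - 1) - (T3 I J X * T3 I J X - T3 I J X - 1) := by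
    have h31 : (3 : D) = 1 + 1 + 1 := by norm_num
    rw [h31]; abel
  rw [h2, h3, h4] at this
  have h0 : T3 I J X - (T2 J X + 1) = 0 := by rw [this]; simp
  exact sub_eq_zero.1 h0

omit h in
/-- the central square root of five -/
def rt (I J X : D) : D := 2 * T3 I J X - 1

theorem rt_sq : rt I J X * rt I J X = 5 := by
  have e : rt I J X * rt I J X = 4 * (T3 I J X * T3 I J X - T3 I J X - 1) + 5 := by
    unfold rt
    have : (2 * T3 I J X - 1) * (2 * T3 I J X - 1) =
      4 * (T3 I J X * T3 I J X) - 4 * T3 I J X + 1 := by noncomm_ring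
    rw [this]
    rw [mul_sub, mul_sub, mul_one]
    have : (4 : D) * (T3 I J X * T3 I J X) - 4 * T3 I J X - 4 + 5 =
      4 * (T3 I J X * T3 I J X) - 4 * T3 I J X + (-4 + 5) := by abel
    rw [this]; norm_num
  rw [e, h.T3_quad]; simp

theorem rt_I : rt I J X * I = I * rt I J X := by
  unfold rt
  rw [sub_mul, mul_assoc, h.T3_I]; noncomm_ring

theorem rt_J : rt I J X * J = J * rt I J X := by
  unfold rt
  rw [sub_mul, mul_assoc, h.T3_J]; noncomm_ring

theorem two_T3 : 2 * T3 I J X = rt I J X + 1 := by unfold rt; abel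

theorem two_T2 [CharZero D] : 2 * T2 J X = rt I J X - 1 := by
  unfold rt
  rw [h.T3_eq]; noncomm_ring

/-- `X` is a linear combination of `1, J, K` with coefficients in the field of `√5` -/
theorem four_X [CharZero D] : 4 * X = -2 - (J * (rt I J X - 1) + (I * J) * (rt I J X + 1)) := by
  have h1 := h.Y_eq
  rw [← h.two_T2, ← h.two_T3]
  have : 4 * X = 2 * (2 * X + 1) - 2 := by
    rw [mul_add, mul_one, add_sub_cancel_right, ← mul_assoc]; norm_num
  rw [this, h1]
  noncomm_ring

theorem commute_X [CharZero D] {c : D} (hI : c * I = I * c) (hJ : c * J = J * c)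
    (hs : c * rt I J X = rt I J X * c) : c * X = X * c := by
  have e : (4 : D) * (c * X - X * c) = 0 := by
    have : (4 : D) * (c * X - X * c) = c * (4 * X) - (4 * X) * c := by noncomm_ring
    rw [this, h.four_X]
    set s := rt I J X with hs'
    have : c * (-2 - (J * (s - 1) + I * J * (s + 1))) - (-2 - (J * (s - 1) + I * J * (s + 1))) * c =
      -(c * J * (s - 1)) - (c * I) * J * (s + 1) + J * (s * c - c) + I * J * (s * c + c) := by
      noncomm_ring
    rw [this, hJ, hI, ← hs]
    have : -(J * c * (s - 1)) - I * c * J * (s + 1) + J * (c * s - c) + I * J * (c * s + c) =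
      -(J * c * (s - 1)) - I * (c * J) * (s + 1) + J * (c * s - c) + I * J * (c * s + c) := by
      noncomm_ring
    rw [this, hJ]; noncomm_ring
  rcases mul_eq_zero.1 e with h5 | h5
  · exact absurd h5 (by norm_num)
  · exact sub_eq_zero.1 h5

theorem rt_X [CharZero D] : rt I J X * X = X * rt I J X := h.commute_X h.rt_I h.rt_J rfl

theorem ne_zero_I : I ≠ 0 := by
  intro h0
  have := h.II
  rw [h0] at this; simp at this

theorem ne_zero_J : J ≠ 0 := by
  intro h0
  have := h.JJ
  rw [h0] at this; simp at this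

/-- there is no isotropic vector for the sum of four squares in the commutant of `I, J`. -/
theorem no_four_squares [CharZero D] {a b c d : D}
    (haI : a * I = I * a) (haJ : a * J = J * a) (hbI : b * I = I * b) (hbJ : b * J = J * b)
    (hcI : c * I = I * c) (hcJ : c * J = J * c) (hdI : d * I = I * d) (hdJ : d * J = J * d)
    (hab : a * b = b * a) (hac : a * c = c * a) (had : a * d = d * a) (hbc : b * c = c * b)
    (hbd : b * d = d * b) (hcd : c * d = d * c)
    (hsum : a * a + b * b + c * c + d * d = 0) : a = 0 ∧ b = 0 ∧ c = 0 ∧ d = 0 := by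
  -- a combination `a + bI + cJ + dK = 0` has zero coefficients
  have key : ∀ {a b c d : D}, a * I = I * a → a * J = J * a → b * I = I * b → b * J = J * b →
      c * I = I * c → c * J = J * c → d * I = I * d → d * J = J * d →
      a + b * I + c * J + d * (I * J) = 0 → a = 0 ∧ b = 0 ∧ c = 0 ∧ d = 0 := by
    intro a b c d haI haJ hbI hbJ hcI hcJ hdI hdJ h0
    -- multiply: x + I x I⁻¹ ...
    have hconjI : I * (a + b * I + c * J + d * (I * J)) * I =
        -a - b * I + c * J + d * (I * J) := by
      have : I * (a + b * I + c * J + d * (I * J)) * I =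
        (I * a) * I + (I * b) * (I * I) + (I * c) * (J * I) + (I * d) * ((I * J) * I) := by noncomm_ring
      rw [this, ← haI, ← hbI, ← hcI, ← hdI, h.II, h.JI, h.KI]
      have : a * I * I + b * I * -1 + c * I * -(I * J) + d * I * J =
        a * (I * I) - b * I - c * ((I * I) * J) + d * (I * J) := by noncomm_ring
      rw [this, h.II]; noncomm_ring
    rw [h0, mul_zero, zero_mul] at hconjI
    have h1 : (2 : D) * (c * J + d * (I * J)) = 0 := by
      have : (2 : D) * (c * J + d * (I * J)) = (a + b * I + c * J + d * (I * J)) +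
        (-a - b * I + c * J + d * (I * J)) := by noncomm_ring
      rw [this, h0, ← hconjI, add_zero]
    have h2 : c * J + d * (I * J) = 0 := by
      rcases mul_eq_zero.1 h1 with h5 | h5
      · exact absurd h5 two_ne_zero
      · exact h5
    have h3 : (c + d * I) * J = 0 := by rw [add_mul, mul_assoc]; exact h2
    have h4 : c + d * I = 0 := by
      rcases mul_eq_zero.1 h3 with h5 | h5
      · exact h5
      · exact absurd h5 h.ne_zero_J
    have h5 : a + b * I = 0 := by
      have : a + b * I = (a + b * I + c * J + d * (I * J)) - (c * J + d * (I * J)) := by abel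
      rw [this, h0, h2, sub_zero]
    have fin : ∀ {a b : D}, a * J = J * a → b * J = J * b → a + b * I = 0 → a = 0 ∧ b = 0 := by
      intro a b haJ hbJ h0
      have h6 : J * (a + b * I) * J = -a + b * I := by
        have : J * (a + b * I) * J = (J * a) * J + (J * b) * (I * J) := by noncomm_ring
        rw [this, ← haJ, ← hbJ]
        have : a * J * J + b * J * (I * J) = a * (J * J) + b * (J * (I * J)) := by noncomm_ring
        rw [this, h.JJ, h.JK]; noncomm_ring
      rw [h0, mul_zero, zero_mul] at h6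
      have h7 : (2 : D) * a = 0 := by
        have : (2 : D) * a = (a + b * I) - (-a + b * I) := by noncomm_ring
        rw [this, h0, ← h6, sub_zero]
      have ha : a = 0 := by
        rcases mul_eq_zero.1 h7 with h5 | h5
        · exact absurd h5 two_ne_zero
        · exact h5
      refine ⟨ha, ?_⟩
      rw [ha, zero_add] at h0
      rcases mul_eq_zero.1 h0 with h5 | h5
      · exact h5
      · exact absurd h5 h.ne_zero_I
    obtain ⟨ha, hb⟩ := fin haJ hbJ h5
    obtain ⟨hc, hd⟩ := fin hcJ hdJ h4
    exact ⟨ha, hb, hc, hd⟩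
  have hprod : (a + b * I + c * J + d * (I * J)) * (a + (-b) * I + (-c) * J + (-d) * (I * J)) = 0 := by
    have e : (a + b * I + c * J + d * (I * J)) * (a + (-b) * I + (-c) * J + (-d) * (I * J)) =
      a * a - a * b * I - a * c * J - a * d * (I * J)
      + b * (I * a) - b * (I * b) * I - b * (I * c) * J - b * (I * d) * (I * J)
      + c * (J * a) - c * (J * b) * I - c * (J * c) * J - c * (J * d) * (I * J)
      + d * (I * (J * a)) - d * (I * (J * b)) * I - d * (I * (J * c)) * J
      - d * (I * (J * d)) * (I * J) := by noncomm_ring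
    rw [e, ← haI, ← haJ, ← hbI, ← hcI, ← hdI, ← hbJ, ← hcJ, ← hdJ]
    have e2 : a * a - a * b * I - a * c * J - a * d * (I * J) + b * (a * I) - b * (b * I) * I
        - b * (c * I) * J - b * (d * I) * (I * J) + c * (a * J) - c * (b * J) * I - c * (c * J) * J
        - c * (d * J) * (I * J) + d * (I * (a * J)) - d * (I * (b * J)) * I - d * (I * (c * J)) * J
        - d * (I * (d * J)) * (I * J) =
        a * a - a * b * I - a * c * J - a * d * (I * J) + (b * a) * I - (b * b) * (I * I)
        - (b * c) * (I * J) - (b * d) * (I * (I * J)) + (c * a) * J - (c * b) * (J * I)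
        - (c * c) * (J * J)
        - (c * d) * (J * (I * J)) + d * ((I * a) * J) - d * ((I * b) * J) * I - d * ((I * c) * J) * J
        - d * ((I * d) * J) * (I * J) := by noncomm_ring
    rw [e2, ← haI, ← hbI, ← hcI, ← hdI]
    have e3 : a * a - a * b * I - a * c * J - a * d * (I * J) + (b * a) * I - (b * b) * (I * I)
        - (b * c) * (I * J) - (b * d) * (I * (I * J)) + (c * a) * J - (c * b) * (J * I)
        - (c * c) * (J * J)
        - (c * d) * (J * (I * J)) + d * ((a * I) * J) - d * ((b * I) * J) * I - d * ((c * I) * J) * J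
        - d * ((d * I) * J) * (I * J) =
        a * a - a * b * I - a * c * J - a * d * (I * J) + (b * a) * I - (b * b) * (I * I)
        - (b * c) * (I * J) - (b * d) * (I * (I * J)) + (c * a) * J - (c * b) * (J * I)
        - (c * c) * (J * J)
        - (c * d) * (J * (I * J)) + (d * a) * (I * J) - (d * b) * ((I * J) * I)
        - (d * c) * ((I * J) * J)
        - (d * d) * ((I * J) * (I * J)) := by noncomm_ring
    rw [e3, h.II, h.JJ, h.IK, h.JI, h.JK, h.KI, h.KJ, h.KK, ← hab, ← hac, ← had, ← hbc, ← hbd, ← hcd]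
    have e4 : a * a - a * b * I - a * c * J - a * d * (I * J) + a * b * I - b * b * -1
        - b * c * (I * J) - b * d * -J + a * c * J - b * c * -(I * J) - c * c * -1
        - c * d * I + a * d * (I * J) - b * d * J - c * d * -I
        - d * d * -1 = a * a + b * b + c * c + d * d := by noncomm_ring
    rw [e4, hsum]
  rcases mul_eq_zero.1 hprod with h0 | h0
  · exact key haI haJ hbI hbJ hcI hcJ hdI hdJ h0
  · have hn : ∀ {b y : D}, b * y = y * b → -b * y = y * -b := by
      intro b y hb
      rw [neg_mul, mul_neg, hb]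
    obtain ⟨ha, hb, hc, hd⟩ := key haI haJ (hn hbI) (hn hbJ) (hn hcI) (hn hcJ) (hn hdI) (hn hdJ) h0
    exact ⟨ha, neg_eq_zero.1 hb, neg_eq_zero.1 hc, neg_eq_zero.1 hd⟩

theorem K_h : (I * J) * (J + I * J) = (J + I * J) * J := by
  rw [mul_add, add_mul, h.KK, h.KJ, h.JJ]; abel

theorem J_h : J * (J + I * J) = (J + I * J) * (I * J) := by
  rw [mul_add, add_mul, h.KK, h.JK, h.JJ]; abel

theorem h_h : (J + I * J) * (J + I * J) = -2 := by
  rw [add_mul, h.J_h, h.K_h]
  rw [← mul_add, add_comm (I * J) J, mul_add, add_mul, add_mul, h.JJ, h.KJ, h.JK, h.KK]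
  have : (-1 : D) + -I + (I + -1) = -1 + -1 := by abel
  rw [this]; norm_num

theorem g_K {g : D} (hgI : g * I = -(I * g)) (hgJ : g * J = (I * J) * g) : g * (I * J) = J * g := by
  rw [← mul_assoc, hgI, neg_mul, mul_assoc, hgJ, ← mul_assoc, h.IK]; simp

theorem g_h {g : D} (hgI : g * I = -(I * g)) (hgJ : g * J = (I * J) * g) :
    g * (J + I * J) = (J + I * J) * g := by
  rw [mul_add, h.g_K hgI hgJ, hgJ, add_mul]; abel

/-- the element `g (J + K)` commutes with `I` and `J` and has square `2`. -/
theorem c_I {g : D} (hgI : g * I = -(I * g)) :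
    (g * (J + I * J)) * I = I * (g * (J + I * J)) := by
  have e1 : (J + I * J) * I = -(I * (J + I * J)) := by
    rw [add_mul, mul_add, h.KI, h.IK, h.JI]; abel
  rw [mul_assoc, e1, mul_neg, ← mul_assoc, hgI, neg_mul, neg_neg, mul_assoc]

theorem c_J {g : D} (hgI : g * I = -(I * g)) (hgJ : g * J = (I * J) * g) :
    (g * (J + I * J)) * J = J * (g * (J + I * J)) := by
  rw [mul_assoc, ← h.K_h, ← mul_assoc, h.g_K hgI hgJ, mul_assoc]

theorem c_c {g : D} (hgg : g * g = -1) (hgI : g * I = -(I * g)) (hgJ : g * J = (I * J) * g) :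
    (g * (J + I * J)) * (g * (J + I * J)) = 2 := by
  have : (g * (J + I * J)) * (g * (J + I * J)) = g * ((J + I * J) * g) * (J + I * J) := by
    noncomm_ring
  rw [this, ← h.g_h hgI hgJ, ← mul_assoc, hgg, mul_assoc, h.h_h]; norm_num

theorem s_h [CharZero D] : rt I J X * (J + I * J) = (J + I * J) * rt I J X := by
  rw [mul_add, add_mul, ← mul_assoc, h.rt_I, h.rt_J, mul_assoc, h.rt_J, mul_assoc]

/-- the anticommuting case is impossible -/
theorem case_neg [CharZero D] {g : D} (hgg : g * g = -1) (hgI : g * I = -(I * g))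
    (hgJ : g * J = (I * J) * g) (hgs : g * rt I J X = -(rt I J X * g)) : False := by
  set s := rt I J X with hs
  set c := g * (J + I * J) with hc
  have cI : c * I = I * c := h.c_I hgI
  have cJ : c * J = J * c := h.c_J hgI hgJ
  have cc : c * c = 2 := h.c_c hgg hgI hgJ
  have sI : s * I = I * s := h.rt_I
  have sJ : s * J = J * s := h.rt_J
  have ss : s * s = 5 := h.rt_sq
  have cs : c * s = -(s * c) := by
    rw [hc, mul_assoc, ← h.s_h, ← mul_assoc, hgs, neg_mul, mul_assoc]
  have wI : (s * c) * I = I * (s * c) := by rw [mul_assoc, cI, ← mul_assoc, sI, mul_assoc]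
  have wJ : (s * c) * J = J * (s * c) := by rw [mul_assoc, cJ, ← mul_assoc, sJ, mul_assoc]
  have ww : (s * c) * (s * c) = -10 := by
    have : (s * c) * (s * c) = s * (c * s) * c := by noncomm_ring
    rw [this, cs]
    have : s * -(s * c) * c = -((s * s) * (c * c)) := by noncomm_ring
    rw [this, ss, cc]; norm_num
  have vv : (3 * I + J) * (3 * I + J) = -10 := by
    have : (3 * I + J) * (3 * I + J) = 9 * (I * I) + 3 * (I * J) + 3 * (J * I) + J * J := by
      noncomm_ring
    rw [this, h.II, h.JJ, h.JI]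
    have : (9 : D) * -1 + 3 * (I * J) + 3 * -(I * J) + -1 = -9 - 1 := by
      rw [mul_neg, mul_neg, mul_one]; abel
    rw [this]; norm_num
  have wv : (s * c - (3 * I + J)) * (s * c + (3 * I + J)) = 0 := by
    have : (s * c - (3 * I + J)) * (s * c + (3 * I + J)) =
      (s * c) * (s * c) - (3 * I + J) * (3 * I + J) + 3 * ((s * c) * I - I * (s * c)) +
        ((s * c) * J - J * (s * c)) := by noncomm_ring
    rw [this, ww, vv, wI, wJ]; simp
  have hK0 : I * J ≠ 0 := mul_ne_zero h.ne_zero_I h.ne_zero_J
  have hJI : (3 * I + J) * I ≠ I * (3 * I + J) := by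
    intro h0
    have e : (3 * I + J) * I - I * (3 * I + J) = J * I - I * J := by
      have : I * (3 * I) = 3 * I * I := by
        have : Commute (3 : D) I := (Nat.cast_commute 3 _ : Commute ((3 : ℕ) : D) _)
        rw [← mul_assoc, ← this.eq]
      rw [add_mul, mul_add, this]; abel
    rw [h0, sub_self, h.JI] at e
    have : (2 : D) * (I * J) = 0 := by
      have : (2 : D) * (I * J) = -(-(I * J) - I * J) := by noncomm_ring
      rw [this, ← e, neg_zero]
    rcases mul_eq_zero.1 this with h5 | h5
    · exact two_ne_zero h5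
    · exact hK0 h5
  rcases mul_eq_zero.1 wv with h5 | h5
  · have e := sub_eq_zero.1 h5
    apply hJI
    rw [← e]; exact wI
  · have e : 3 * I + J = -(s * c) := by
      rw [eq_neg_iff_add_eq_zero, add_comm]; exact h5
    apply hJI
    rw [e, neg_mul, mul_neg, wI]

/-- the commuting case produces an element of trace `3/2` -/
theorem case_pos [CharZero D] {g : D} (hgg : g * g = -1) (hgI : g * I = -(I * g))
    (hgJ : g * J = (I * J) * g) (hgs : g * rt I J X = rt I J X * g) {u : D}
    (hu : u = (g * X * g) * (1 + X)) : 2 * (u * u) - 3 * u + 2 = 0 := by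
  set s := rt I J X with hs
  set K := I * J with hK
  set t := J + K with ht
  set c := g * t with hc
  have cI : c * I = I * c := h.c_I hgI
  have cJ : c * J = J * c := h.c_J hgI hgJ
  have gt : g * t = t * g := h.g_h hgI hgJ
  have tt : t * t = -2 := h.h_h
  have sI : s * I = I * s := h.rt_I
  have sJ : s * J = J * s := h.rt_J
  have sK : s * K = K * s := by rw [hK, ← mul_assoc, sI, mul_assoc, sJ, mul_assoc]
  have ss : s * s = 5 := h.rt_sq
  have st : s * t = t * s := h.s_h
  have cs : c * s = s * c := by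
    rw [hc, mul_assoc, ← st, ← mul_assoc, hgs, mul_assoc]
  have cX : c * X = X * c := h.commute_X cI cJ cs
  have e1 : t * (g * X * g) = -(X * t) := by
    have : t * (g * X * g) = (t * g) * X * g := by noncomm_ring
    rw [this, ← gt, ← hc, cX, hc, mul_assoc, gt, mul_assoc, hgg]; simp
  have e2 : 2 * (g * X * g) = t * X * t := by
    have : t * (t * (g * X * g)) = t * -(X * t) := by rw [e1]
    rw [← mul_assoc, tt] at this
    have h2 : 2 * (g * X * g) = -(-2 * (g * X * g)) := by rw [neg_mul, neg_neg]
    rw [h2, this]; noncomm_ring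
  have fX : 4 * X = -2 - (J * (s - 1) + K * (s + 1)) := h.four_X
  have tJ : K * t = t * J := h.K_h
  have tK : J * t = t * K := h.J_h
  have e3 : 4 * (t * X * t) = 4 + 2 * (K * (s - 1) + J * (s + 1)) := by
    have c4 : (4 : D) * t = t * 4 := by
      have : Commute (4 : D) t := (Nat.cast_commute 4 _ : Commute ((4 : ℕ) : D) _)
      exact this.eq
    have : 4 * (t * X * t) = t * (4 * X) * t := by
      rw [← mul_assoc, ← mul_assoc, c4, mul_assoc t 4 X]
    rw [this, fX]
    have : t * (-2 - (J * (s - 1) + K * (s + 1))) * t =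
        -2 * (t * t) - (t * J * (s * t - t) + t * K * (s * t + t)) := by noncomm_ring
    rw [this, st, ← tJ, ← tK, tt]
    have : (-2 : D) * -2 - (K * t * (t * s - t) + J * t * (t * s + t)) =
      (-2) * (-2) - (K * (t * t) * (s - 1) + J * (t * t) * (s + 1)) := by noncomm_ring
    rw [this, tt]
    have : (-2 : D) * -2 = 4 := by norm_num
    rw [this]
    have c2 : ∀ y : D, y * -2 = -(2 * y) := by
      intro y
      have : Commute (2 : D) y := (Nat.cast_commute 2 _ : Commute ((2 : ℕ) : D) _)
      rw [mul_neg, this.eq]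
    rw [c2, c2]; noncomm_ring
  have e4 : 4 * (g * X * g) = 2 + (K * (s - 1) + J * (s + 1)) := by
    have h2 : (2 : D) * (4 * (g * X * g) - (2 + (K * (s - 1) + J * (s + 1)))) = 0 := by
      have h3 : (2 : D) * (4 * (g * X * g) - (2 + (K * (s - 1) + J * (s + 1)))) =
          4 * (2 * (g * X * g)) - (2 * 2 + 2 * (K * (s - 1) + J * (s + 1))) := by
        rw [mul_sub, mul_add, ← mul_assoc 2 4, ← mul_assoc 4 2]
        have : (2 : D) * 4 = 4 * 2 := by norm_num
        rw [this]
      rw [h3, e2, e3]
      have : (2 : D) * 2 = 4 := by norm_num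
      rw [this, sub_self]
    rcases mul_eq_zero.1 h2 with h5 | h5
    · exact absurd h5 two_ne_zero
    · exact sub_eq_zero.1 h5
  have e5 : 4 * (1 + X) = 2 - (J * (s - 1) + K * (s + 1)) := by
    rw [mul_add, fX, mul_one]
    have : (4 : D) + (-2 - (J * (s - 1) + K * (s + 1))) = (4 - 2) - (J * (s - 1) + K * (s + 1)) := by
      abel
    rw [this]; norm_num
  have e6 : 16 * u = 12 + 4 * J - 4 * K - 4 * (I * s) := by
    have c4 : ∀ y : D, (4 : D) * y = y * 4 := by
      intro y
      have : Commute (4 : D) y := (Nat.cast_commute 4 _ : Commute ((4 : ℕ) : D) _)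
      exact this.eq
    have h1 : 16 * u = (4 * (g * X * g)) * (4 * (1 + X)) := by
      rw [hu]
      have : (16 : D) = 4 * 4 := by norm_num
      rw [this, mul_assoc, ← mul_assoc 4 (g * X * g) (1 + X), c4 (g * X * g),
        mul_assoc (g * X * g) 4, ← mul_assoc 4 (g * X * g), c4 (g * X * g)]
    rw [h1, e4, e5]
    have h2 : (2 + (K * (s - 1) + J * (s + 1))) * (2 - (J * (s - 1) + K * (s + 1))) =
        2 * 2 - 2 * (J * s) + 2 * J - 2 * (K * s) - 2 * K + (K * s) * 2 - K * 2 + (J * s) * 2 + J * 2
        - K * (s * J) * s + K * (s * J) - K * (s * K) * s - K * (s * K) + (K * J) * s - K * J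
        + K * K * s + K * K
        - J * (s * J) * s + J * (s * J) - J * (s * K) * s - J * (s * K) - (J * J) * s + J * J
        - J * K * s - J * K := by noncomm_ring
    rw [h2, sJ, sK]
    have h3 : 2 * 2 - 2 * (J * s) + 2 * J - 2 * (K * s) - 2 * K + (K * s) * 2 - K * 2 + (J * s) * 2 + J * 2
        - K * (J * s) * s + K * (J * s) - K * (K * s) * s - K * (K * s) + (K * J) * s - K * J
        + K * K * s + K * K
        - J * (J * s) * s + J * (J * s) - J * (K * s) * s - J * (K * s) - (J * J) * s + J * J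
        - J * K * s - J * K = 
        2 * 2 - 2 * (J * s) + 2 * J - 2 * (K * s) - 2 * K + (K * s) * 2 - K * 2 + (J * s) * 2 + J * 2
        - (K * J) * (s * s) + (K * J) * s - (K * K) * (s * s) - (K * K) * s + (K * J) * s - K * J
        + K * K * s + K * K
        - (J * J) * (s * s) + (J * J) * s - (J * K) * (s * s) - (J * K) * s - (J * J) * s + J * J
        - J * K * s - J * K := by noncomm_ring
    have hJK : J * K = I := h.JK
    have hKJ : K * J = -I := h.KJ
    have hKK : K * K = -1 := h.KK
    rw [h3, ss, h.JJ, hJK, hKJ, hKK]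
    have c2 : ∀ y : D, y * 2 = 2 * y := by
      intro y
      have : Commute (2 : D) y := (Nat.cast_commute 2 _ : Commute ((2 : ℕ) : D) _)
      rw [this.eq]
    rw [c2, c2, c2, c2]
    have h12 : (12 : D) = 4 + 5 + 5 - 2 := by norm_num
    rw [h12]
    have h22 : (2 : D) * 2 = 4 := by norm_num
    rw [h22]
    have h5 : ∀ y : D, y * 5 = 5 * y := by
      intro y
      have : Commute (5 : D) y := (Nat.cast_commute 5 _ : Commute ((5 : ℕ) : D) _)
      rw [this.eq]
    rw [h5, h5, h5]
    have h1' : (-1 : D) * 5 = -5 := by norm_num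
    have h2' : (5 : D) * -1 = -5 := by norm_num
    have h3' : (4 : D) = 1 + 1 + 1 + 1 := by norm_num
    have h4' : (5 : D) = 1 + 1 + 1 + 1 + 1 := by norm_num
    have h5' : (2 : D) = 1 + 1 := by norm_num
    rw [h3', h4', h5']
    noncomm_ring
  have e7 : 4 * u = 3 + (J - K - I * s) := by
    have h2 : (4 : D) * (4 * u - (3 + (J - K - I * s))) = 0 := by
      have h3 : (4 : D) * (4 * u - (3 + (J - K - I * s))) = (4 * 4) * u -
          (4 * 3 + 4 * J - 4 * K - 4 * (I * s)) := by noncomm_ring
      rw [h3]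
      have : (4 : D) * 4 = 16 := by norm_num
      rw [this, e6]
      have : (4 : D) * 3 = 12 := by norm_num
      rw [this, sub_self]
    rcases mul_eq_zero.1 h2 with h5 | h5
    · exact absurd h5 (by norm_num)
    · exact sub_eq_zero.1 h5
  set P := J - K - I * s with hP
  have hPP : P * P = -7 := by
    have h1 : P * P = J * J - J * K - (J * I) * s - K * J + K * K + (K * I) * s
        - I * (s * J) + I * (s * K) + I * (s * I) * s := by rw [hP]; noncomm_ring
    rw [h1, sJ, sK, sI]
    have h2 : J * J - J * K - (J * I) * s - K * J + K * K + (K * I) * s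
        - I * (J * s) + I * (K * s) + I * (I * s) * s =
        J * J - J * K - (J * I) * s - K * J + K * K + (K * I) * s
        - (I * J) * s + (I * K) * s + (I * I) * (s * s) := by noncomm_ring
    have hJK : J * K = I := h.JK
    have hKJ : K * J = -I := h.KJ
    have hKK : K * K = -1 := h.KK
    have hIK : I * K = -J := h.IK
    have hKI : K * I = J := h.KI
    rw [h2, hJK, hKJ, hKK, hIK, hKI, h.II, ss, h.JJ, h.JI]
    have : (-1 : D) - I - -(I * J) * s - -I + -1 + J * s - I * J * s + -J * s + -1 * 5 = -1 - 1 - 5 := by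
      rw [neg_one_mul]
      simp only [neg_mul]
      abel
    rw [this]; norm_num
  have e8 : (8 : D) * (2 * (u * u) - 3 * u + 2) = 0 := by
    have h1 : (8 : D) * (2 * (u * u) - 3 * u + 2) = (4 * u) * (4 * u) - 6 * (4 * u) + 16 := by
      have c4 : (4 : D) * u = u * 4 := by
        have : Commute (4 : D) u := (Nat.cast_commute 4 _ : Commute ((4 : ℕ) : D) _)
        exact this.eq
      have : (4 * u) * (4 * u) = 16 * (u * u) := by
        nth_rewrite 2 [c4]
        rw [mul_assoc, ← mul_assoc u u 4, ← mul_assoc]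
        have c44 : (4 : D) * (u * u) * 4 = 4 * (4 * (u * u)) := by
          have : Commute (4 : D) (4 * (u * u)) := (Nat.cast_commute 4 _ : Commute ((4 : ℕ) : D) _)
          exact this.eq.symm
        rw [← mul_assoc, mul_assoc 4 u u, c44, ← mul_assoc]
        norm_num
      rw [this, mul_add, mul_sub, ← mul_assoc 8 2, ← mul_assoc 8 3, ← mul_assoc 6 4]
      norm_num
    rw [h1, e7]
    have h2 : (3 + P) * (3 + P) - 6 * (3 + P) + 16 = P * P + (3 * P + P * 3 - 6 * P) +
        (3 * 3 - 6 * 3 + 16) := by noncomm_ring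
    rw [h2, hPP]
    have c3 : (3 : D) * P = P * 3 := by
      have : Commute (3 : D) P := (Nat.cast_commute 3 _ : Commute ((3 : ℕ) : D) _)
      exact this.eq
    rw [← c3, ← add_mul]
    have : (3 : D) + 3 = 6 := by norm_num
    rw [this]; norm_num
  rcases mul_eq_zero.1 e8 with h5 | h5
  · exact absurd h5 (by norm_num)
  · exact h5

end Ico

/-- An element with trace `3/2` and norm one has infinite order. -/
theorem infinite_order [CharZero D] {u : D} (hu : 2 * (u * u) - 3 * u + 2 = 0) (n : ℕ) (hn : 0 < n) :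
    u ^ n ≠ 1 := by
  intro h1
  have hu0 : u ≠ 0 := by
    intro h0
    rw [h0] at h1
    rw [zero_pow hn.ne'] at h1
    exact zero_ne_one h1
  set v : D := u⁻¹ with hv
  have huv : u * v = 1 := mul_inv_cancel₀ hu0
  have hvu : v * u = 1 := inv_mul_cancel₀ hu0
  have h3 : 2 * (u + v) = 3 := by
    have : 2 * (u + v) = (2 * (u * u) - 3 * u + 2) * v + 3 := by
      have : (2 * (u * u) - 3 * u + 2) * v + 3 = 2 * (u * (u * v)) - 3 * (u * v) + 2 * v + 3 := by
        noncomm_ring
      rw [this, huv]; noncomm_ring; norm_num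
    rw [this, hu, zero_mul, zero_add]
  have hc : ∀ m : ℕ, (2 : D) * (u ^ (m + 2) + v ^ (m + 2)) =
      3 * (u ^ (m + 1) + v ^ (m + 1)) - 2 * (u ^ m + v ^ m) := by
    intro m
    have hcm : Commute u v := huv.trans hvu.symm
    have e1 : 3 * (u ^ (m + 1) + v ^ (m + 1)) = 2 * (u ^ (m + 2) + v ^ (m + 2)) +
        2 * (v * u * u ^ m + u * v * v ^ m) := by
      rw [← h3]
      simp only [pow_succ']
      noncomm_ring
    rw [e1, huv, hvu]
    noncomm_ring
  have key : ∀ m : ℕ, ∃ a b : ℤ, (2 : D) ^ (m + 1) * (u ^ (m + 1) + v ^ (m + 1)) = ((2 * a + 1 : ℤ) : D) ∧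
      (2 : D) ^ (m + 2) * (u ^ (m + 2) + v ^ (m + 2)) = ((2 * b + 1 : ℤ) : D) := by
    intro m
    induction m with
    | zero =>
      refine ⟨1, 0, ?_, ?_⟩
      · simp only [zero_add, pow_one]
        rw [h3]; norm_num
      · have := hc 0
        simp only [zero_add, pow_zero, pow_one] at this
        have e : (2 : D) ^ (0 + 2) * (u ^ (0 + 2) + v ^ (0 + 2)) = 2 * (2 * (u ^ 2 + v ^ 2)) := by
          rw [zero_add, pow_two, mul_assoc]
        rw [e, this]
        have e2 : (2 : D) * (3 * (u + v) - 2 * (1 + 1)) = 3 * (2 * (u + v)) - 2 * (2 * (1 + 1)) := by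
          noncomm_ring
        rw [e2, h3]; norm_num
    | succ m ih =>
      obtain ⟨a, b, ha, hb⟩ := ih
      refine ⟨b, 3 * b - 4 * a - 1, hb, ?_⟩
      have := hc (m + 1)
      have e : (2 : D) ^ (m + 1 + 2) * (u ^ (m + 1 + 2) + v ^ (m + 1 + 2)) =
          2 ^ (m + 2) * (2 * (u ^ (m + 1 + 2) + v ^ (m + 1 + 2))) := by
        rw [← mul_assoc, ← pow_succ]
      rw [e, this]
      have e2 : (2 : D) ^ (m + 2) * (3 * (u ^ (m + 1 + 1) + v ^ (m + 1 + 1)) - 2 * (u ^ (m + 1) + v ^ (m + 1))) =
          3 * (2 ^ (m + 2) * (u ^ (m + 2) + v ^ (m + 2))) -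
          4 * (2 ^ (m + 1) * (u ^ (m + 1) + v ^ (m + 1))) := by
        have c3 : (2 : D) ^ (m + 2) * 3 = 3 * 2 ^ (m + 2) := by
          have : Commute (3 : D) ((2 : D) ^ (m + 2)) := (Nat.cast_commute 3 _ : Commute ((3 : ℕ) : D) _)
          exact this.eq.symm
        rw [mul_sub, ← mul_assoc, c3, mul_assoc]
        congr 1
        have : (2 : D) ^ (m + 2) = 2 ^ (m + 1) * 2 := pow_succ _ _
        rw [this]
        have c4 : (2 : D) ^ (m + 1) * 4 = 4 * 2 ^ (m + 1) := by
          have : Commute (4 : D) ((2 : D) ^ (m + 1)) := (Nat.cast_commute 4 _ : Commute ((4 : ℕ) : D) _)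
          exact this.eq.symm
        rw [← mul_assoc, mul_assoc ((2 : D) ^ (m + 1)) 2 2]
        have : (2 : D) * 2 = 4 := by norm_num
        rw [this, c4, mul_assoc]
      rw [e2, ha, hb]
      push_cast
      noncomm_ring
  obtain ⟨m, rfl⟩ : ∃ m, n = m + 1 := ⟨n - 1, by omega⟩
  obtain ⟨a, -, ha, -⟩ := key m
  have hvn : v ^ (m + 1) = 1 := by rw [hv, inv_pow, h1, inv_one]
  rw [h1, hvn] at ha
  have : (((2 : ℤ) ^ (m + 1) * 2 : ℤ) : D) = ((2 * a + 1 : ℤ) : D) := by
    rw [← ha]; push_cast; norm_num
  have := Int.cast_injective this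
  omega

end Cfsg.Agent.Lib.H50Am2
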