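import Mathlib

/-!
# Gauss' formula `Φ_ℓ = U² + ℓ V²` over `ℚ`, and four squares summing to zero in `ℚ(√5, ζ_q)`
-/

set_option autoImplicit false

namespace Cfsg.Agent.Lib.H50Am3

open Polynomial

section gauss

variable (ℓ : ℕ) [Fact ℓ.Prime]

theorem gauss_form_aux (hl : ℓ % 4 = 3) {K : Type*} [Field K] [CharZero K] [Algebra ℚ K]
    [FiniteDimensional ℚ K] [IsGalois ℚ K] {ζ : K} (hζ : IsPrimitiveRoot ζ ℓ) :
    ∃ U V : ℚ[X], U ^ 2 + C (ℓ : ℚ) * V ^ 2 = ∑ i ∈ Finset.range ℓ, X ^ i := by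
  classical
  have hlp : ℓ.Prime := Fact.out
  let ψ : AddChar (ZMod ℓ) K := AddChar.zmodChar ℓ hζ.pow_eq_one
  have hψ : ψ.IsPrimitive := AddChar.zmodChar_primitive_of_primitive_root ℓ hζ
  let χ₀ : MulChar (ZMod ℓ) ℤ := quadraticChar (ZMod ℓ)
  let χ : MulChar (ZMod ℓ) K := χ₀.ringHomComp (Int.castRingHom K)
  have hl2 : ringChar (ZMod ℓ) ≠ 2 := by
    rw [ZMod.ringChar_zmod_n]; omega
  have hχ₀1 : χ₀ ≠ 1 := quadraticChar_ne_one hl2
  have hχ₀q : χ₀.IsQuadratic := quadraticChar_isQuadratic _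
  have hχ1 : χ ≠ 1 := by
    rw [Ne, MulChar.ringHomComp_eq_one_iff (Int.cast_injective)]
    exact hχ₀1
  have hχq : χ.IsQuadratic := hχ₀q.comp _
  let g : K := gaussSum χ ψ
  have hg2 : g ^ 2 = -(ℓ : K) := by
    have h1 := gaussSum_sq hχ1 hχq hψ
    rw [ZMod.card] at h1
    have h2 : χ (-1) = -1 := by
      change ((χ₀ (-1) : ℤ) : K) = -1
      have : χ₀ (-1) = -1 := by
        change quadraticChar (ZMod ℓ) (-1) = -1
        rw [quadraticChar_neg_one_iff_not_isSquare]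
        intro h
        exact (ZMod.exists_sq_eq_neg_one_iff.1 h) hl
      rw [this]; simp
    rw [h2] at h1
    rw [h1]; ring
  have hg0 : g ≠ 0 := by
    intro h0
    rw [h0] at hg2
    have : (ℓ : K) = 0 := by
      have : (ℓ : K) = -(-(ℓ : K)) := by ring
      rw [this, ← hg2]; simp
    exact hlp.ne_zero (by exact_mod_cast this)
  -- the two halves
  let A : ℤ → Finset (ZMod ℓ) := fun e => Finset.univ.filter (fun a => χ₀ a = e)
  let F : ℤ → K[X] := fun e => ∏ a ∈ A e, (X - C (ψ a))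
  have hprod : F 1 * F (-1) = ∑ i ∈ Finset.range ℓ, X ^ i := by
    have h1 : (X - C (ψ 0)) * (F 1 * F (-1)) = ∏ a : ZMod ℓ, (X - C (ψ a)) := by
      have hu : (Finset.univ : Finset (ZMod ℓ)) = insert 0 (A 1 ∪ A (-1)) := by
        ext a
        simp only [Finset.mem_univ, Finset.mem_insert, Finset.mem_union, true_iff, A,
          Finset.mem_filter, true_and]
        rcases hχ₀q a with h | h | h
        · left
          exact quadraticChar_eq_zero_iff.1 h
        · right; left; exact h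
        · right; right; exact h
      have hd : Disjoint (A 1) (A (-1)) := by
        rw [Finset.disjoint_left]
        intro a ha hb
        simp only [A, Finset.mem_filter, Finset.mem_univ, true_and] at ha hb
        rw [ha] at hb
        norm_num at hb
      have h0 : (0 : ZMod ℓ) ∉ A 1 ∪ A (-1) := by
        intro h
        rw [Finset.mem_union] at h
        simp only [A, Finset.mem_filter, Finset.mem_univ, true_and] at h
        have : χ₀ 0 = 0 := MulChar.map_zero _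
        rw [this] at h
        rcases h with h | h <;> norm_num at h
      rw [hu, Finset.prod_insert h0, Finset.prod_union hd]
    have h2 : (X ^ ℓ - C (1 : K)) = ∏ a : ZMod ℓ, (X - C (ψ a)) := by
      rw [X_pow_sub_C_eq_prod hζ (α := 1) hlp.pos (one_pow _)]
      simp only [mul_one]
      symm
      refine Finset.prod_bij (fun a _ => a.val) ?_ ?_ ?_ ?_
      · intro a _; exact Finset.mem_range.2 (ZMod.val_lt a)
      · intro a _ b _ h; exact ZMod.val_injective ℓ h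
      · intro b hb
        exact ⟨(b : ZMod ℓ), Finset.mem_univ _, ZMod.val_cast_of_lt (Finset.mem_range.1 hb)⟩
      · intro a _; rfl
    rw [← h2] at h1
    have h3 : (X - C (1 : K)) * ∑ i ∈ Finset.range ℓ, X ^ i = X ^ ℓ - C (1 : K) := by
      rw [C_1, mul_geom_sum]
    rw [AddChar.map_zero_eq_one, ← h3] at h1
    exact mul_left_cancel₀ (X_sub_C_ne_zero 1) h1
  -- the Galois action
  have hσ : ∀ σ : K ≃ₐ[ℚ] K, ∃ b : (ZMod ℓ)ˣ, ∀ a : ZMod ℓ, σ (ψ a) = ψ (b * a) := by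
    intro σ
    let b := hζ.autToPow ℚ σ
    have hb : ζ ^ (b : ZMod ℓ).val = σ ζ := hζ.autToPow_spec ℚ σ
    refine ⟨b, fun a => ?_⟩
    change σ (ζ ^ a.val) = ζ ^ (((b : ZMod ℓ) * a).val)
    rw [map_pow, ← hb, ← pow_mul, ZMod.val_mul, ← pow_eq_pow_mod _ hζ.pow_eq_one]
  have hF : ∀ σ : K ≃ₐ[ℚ] K, ∀ b : (ZMod ℓ)ˣ, (∀ a : ZMod ℓ, σ (ψ a) = ψ (b * a)) →
      ∀ e : ℤ, (F e).map (σ : K →+* K) = F (χ₀ b * e) := by
    intro σ b hb e
    change (∏ a ∈ A e, (X - C (ψ a))).map (σ : K →+* K) = ∏ a ∈ A (χ₀ b * e), (X - C (ψ a))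
    rw [Polynomial.map_prod]
    refine Finset.prod_bij (fun a _ => b * a) ?_ ?_ ?_ ?_
    · intro a ha
      simp only [A, Finset.mem_filter, Finset.mem_univ, true_and] at ha ⊢
      rw [map_mul, ha]
    · intro a _ c _ h
      exact b.isUnit.mul_left_cancel h
    · intro c hc
      refine ⟨(b⁻¹ : (ZMod ℓ)ˣ) * c, ?_, by rw [← mul_assoc, Units.mul_inv, one_mul]⟩
      simp only [A, Finset.mem_filter, Finset.mem_univ, true_and] at hc ⊢
      rw [map_mul, hc, ← mul_assoc, ← map_mul, Units.inv_mul, map_one, one_mul]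
    · intro a _
      rw [Polynomial.map_sub, map_X, map_C]
      congr 2
      exact hb a
  have hgσ : ∀ σ : K ≃ₐ[ℚ] K, ∀ b : (ZMod ℓ)ˣ, (∀ a : ZMod ℓ, σ (ψ a) = ψ (b * a)) →
      σ g = ((χ₀ b : ℤ) : K) * g := by
    intro σ b hb
    have h1 : σ g = gaussSum χ (ψ.mulShift b) := by
      change σ (∑ a, χ a * ψ a) = ∑ a, χ a * (ψ.mulShift b) a
      rw [map_sum]
      refine Finset.sum_congr rfl (fun a _ => ?_)
      rw [map_mul, hb]
      congr 1
      change σ ((χ₀ a : ℤ) : K) = ((χ₀ a : ℤ) : K)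
      simp
    have h2 := gaussSum_mulShift χ ψ b
    have h3 : χ b = ((χ₀ b : ℤ) : K) := rfl
    have h4 : ((χ₀ b : ℤ) : K) * ((χ₀ b : ℤ) : K) = 1 := by
      have : χ₀ b = 1 ∨ χ₀ b = -1 := quadraticChar_dichotomy b.ne_zero
      rcases this with h | h <;> rw [h] <;> simp
    rw [h3] at h2
    calc σ g = gaussSum χ (ψ.mulShift b) := h1
      _ = ((χ₀ b : ℤ) : K) * ((χ₀ b : ℤ) : K) * gaussSum χ (ψ.mulShift b) := by rw [h4, one_mul]
      _ = ((χ₀ b : ℤ) : K) * g := by rw [mul_assoc, h2]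
  -- descent
  have hdesc : ∀ P : K[X], (∀ σ : K ≃ₐ[ℚ] K, P.map (σ : K →+* K) = P) →
      ∃ Q : ℚ[X], Q.map (algebraMap ℚ K) = P := by
    intro P hP
    have : P ∈ Polynomial.lifts (algebraMap ℚ K) := by
      rw [Polynomial.lifts_iff_coeff_lifts]
      intro n
      have : P.coeff n ∈ (⊥ : IntermediateField ℚ K) := by
        rw [IsGalois.mem_bot_iff_fixed]
        intro σ
        have := congrArg (fun Q => Polynomial.coeff Q n) (hP σ)
        simpa [Polynomial.coeff_map] using this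
      exact IntermediateField.mem_bot.1 this
    obtain ⟨Q, hQ⟩ := (Polynomial.mem_lifts _).1 this
    exact ⟨Q, hQ⟩
  obtain ⟨U, hU⟩ := hdesc (C (1 / 2 : K) * (F 1 + F (-1))) (by
    intro σ
    obtain ⟨b, hb⟩ := hσ σ
    rw [Polynomial.map_mul, Polynomial.map_add, map_C, hF σ b hb, hF σ b hb]
    have h2 : (σ : K →+* K) (1 / 2) = 1 / 2 := by
      change σ (1 / 2) = 1 / 2
      rw [map_div₀, map_one, map_ofNat]
    rw [h2]
    rcases quadraticChar_dichotomy b.ne_zero with h | h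
    · have h' : χ₀ (b : ZMod ℓ) = 1 := h
      rw [h']; simp
    · have h' : χ₀ (b : ZMod ℓ) = -1 := h
      rw [h']; simp [add_comm])
  obtain ⟨V, hV⟩ := hdesc (C (1 / (2 * g) : K) * (F 1 - F (-1))) (by
    intro σ
    obtain ⟨b, hb⟩ := hσ σ
    rw [Polynomial.map_mul, Polynomial.map_sub, map_C, hF σ b hb, hF σ b hb]
    have h2 : (σ : K →+* K) (1 / (2 * g)) = ((χ₀ b : ℤ) : K) * (1 / (2 * g)) := by
      change σ (1 / (2 * g)) = _
      rw [map_div₀, map_one, map_mul, map_ofNat, hgσ σ b hb]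
      rcases quadraticChar_dichotomy b.ne_zero with h | h
      · have h' : χ₀ (b : ZMod ℓ) = 1 := h
        rw [h']; simp
      · have h' : χ₀ (b : ZMod ℓ) = -1 := h
        rw [h']; simp [neg_inv]
    rw [h2]
    rcases quadraticChar_dichotomy b.ne_zero with h | h
    · have h' : χ₀ (b : ZMod ℓ) = 1 := h
      rw [h']; simp
    · have h' : χ₀ (b : ZMod ℓ) = -1 := h
      rw [h']; simp only [Int.cast_neg, Int.cast_one, neg_mul, one_mul, mul_neg, neg_neg, map_neg, mul_one]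
      ring)
  refine ⟨U, V, ?_⟩
  apply Polynomial.map_injective (algebraMap ℚ K) (algebraMap ℚ K).injective
  rw [Polynomial.map_add, Polynomial.map_pow, Polynomial.map_mul, Polynomial.map_pow, hU, hV, map_C]
  have hS : (∑ i ∈ Finset.range ℓ, (X : ℚ[X]) ^ i).map (algebraMap ℚ K) = ∑ i ∈ Finset.range ℓ, (X : K[X]) ^ i := by
    rw [Polynomial.map_sum]
    simp
  rw [hS, ← hprod]
  have e1 : (algebraMap ℚ K) (ℓ : ℚ) = (ℓ : K) := by simp
  rw [e1]
  have e2 : (ℓ : K) = - g ^ 2 := by rw [hg2]; ring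
  rw [e2]
  have e3 : C (-g ^ 2 : K) * (C (1 / (2 * g)) * (F 1 - F (-1))) ^ 2 = - C (1 / 4 : K) * (F 1 - F (-1)) ^ 2 := by
    rw [mul_pow, ← C_pow, ← mul_assoc, ← C_mul]
    congr 1
    rw [← C_neg]
    congr 1
    field_simp
    norm_num
  rw [e3, mul_pow, ← C_pow]
  have e4 : ((1 / 2 : K)) ^ 2 = 1 / 4 := by norm_num
  rw [e4]
  have e5 : C (1 / 4 : K) * (F 1 + F (-1)) ^ 2 + -C (1 / 4 : K) * (F 1 - F (-1)) ^ 2 =
    (C (1 / 4 : K) * 4) * (F 1 * F (-1)) := by ring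
  rw [e5]
  have e6 : C (1 / 4 : K) * 4 = 1 := by
    have : (4 : K[X]) = C (4 : K) := (map_ofNat C 4).symm
    rw [this, ← C_mul, ← C_1]
    congr 1
    norm_num
  rw [e6, one_mul]

theorem gauss_form (hl : ℓ % 4 = 3) :
    ∃ U V : ℚ[X], U ^ 2 + C (ℓ : ℚ) * V ^ 2 = ∑ i ∈ Finset.range ℓ, X ^ i := by
  haveI : NeZero ℓ := ⟨(Fact.out : ℓ.Prime).ne_zero⟩
  haveI : NeZero ((ℓ : ℕ) : ℚ) := ⟨by exact_mod_cast (Fact.out : ℓ.Prime).ne_zero⟩
  haveI : IsCyclotomicExtension {ℓ} ℚ (CyclotomicField ℓ ℚ) := CyclotomicField.isCyclotomicExtension ℓ ℚ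
  have hζ := IsCyclotomicExtension.zeta_spec ℓ ℚ (CyclotomicField ℓ ℚ)
  haveI : IsGalois ℚ (CyclotomicField ℓ ℚ) := IsCyclotomicExtension.isGalois {ℓ} ℚ _
  haveI : FiniteDimensional ℚ (CyclotomicField ℓ ℚ) := IsCyclotomicExtension.finiteDimensional {ℓ} ℚ _
  exact gauss_form_aux ℓ hl hζ

end gauss

/-- Telescoping. -/
theorem telescope {R : Type*} [CommRing R] [Algebra ℚ R] (ℓ : ℕ) [Fact ℓ.Prime] (hl : ℓ % 4 = 3)
    (z : R) (k : ℕ) : ∃ a b : R, (1 - z) * (a ^ 2 + ℓ * b ^ 2) = 1 - z ^ (ℓ ^ k) := by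
  obtain ⟨U, V, hUV⟩ := gauss_form ℓ hl
  induction k with
  | zero => exact ⟨1, 0, by simp⟩
  | succ k ih =>
    obtain ⟨a, b, hab⟩ := ih
    set y := z ^ (ℓ ^ k) with hy
    have h1 := congrArg (Polynomial.aeval y) hUV
    simp only [map_add, map_mul, map_pow, Polynomial.aeval_C, map_natCast, map_sum,
      Polynomial.aeval_X] at h1
    refine ⟨a * aeval y U - ℓ * b * aeval y V, a * aeval y V + b * aeval y U, ?_⟩
    have h2 : (1 - z) * ((a * aeval y U - ℓ * b * aeval y V) ^ 2 + ℓ * (a * aeval y V + b * aeval y U) ^ 2) =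
        ((1 - z) * (a ^ 2 + ℓ * b ^ 2)) * ((aeval y U) ^ 2 + ℓ * (aeval y V) ^ 2) := by ring
    rw [h2, hab, h1]
    have h3 := mul_neg_geom_sum y ℓ
    rw [h3, hy, ← pow_mul, ← pow_succ]

/-- The finite check modulo `20`. -/
theorem mod20 : ∀ x y : ZMod 20, x ^ 2 + 5 * y ^ 2 ≠ 7 ∧ x ^ 2 + 5 * y ^ 2 ≠ 4 * 7 ∧
    x ^ 2 + 5 * y ^ 2 ≠ 5 * 7 ∧ x ^ 2 + 5 * y ^ 2 ≠ 6 * 7 := by decide

theorem two_nonsquare : ¬ IsSquare (2 : ZMod 5) := by decide

theorem seven_eq_two : ((7 : ℕ) : ZMod 5) = 2 := by decide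

theorem neg_five_square (ℓ : ℕ) [Fact ℓ.Prime] (hl : ℓ % 20 = 7) : ∃ m : ZMod ℓ, m ^ 2 = -5 := by
  have h1 : ¬ IsSquare (-1 : ZMod ℓ) := by
    intro h
    exact (ZMod.exists_sq_eq_neg_one_iff.1 h) (by omega)
  haveI : Fact (Nat.Prime 5) := ⟨by norm_num⟩
  have h2 : ¬ IsSquare (5 : ZMod ℓ) := by
    have h3 := ZMod.exists_sq_eq_prime_iff_of_mod_four_eq_one (p := 5) (q := ℓ) (by norm_num) (by omega)
    have h4 : ¬ IsSquare ((ℓ : ℕ) : ZMod 5) := by
      have : ((ℓ : ℕ) : ZMod 5) = 2 := by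
        have : ((ℓ : ℕ) : ZMod 5) = ((7 : ℕ) : ZMod 5) := by
          rw [ZMod.natCast_eq_natCast_iff]
          exact (show ℓ ≡ 7 [MOD 20] from by unfold Nat.ModEq; omega).of_dvd (by norm_num)
        rw [this]; exact seven_eq_two
      rw [this]; exact two_nonsquare
    rw [h3] at h4
    exact_mod_cast h4
  have h5 : IsSquare ((-1 : ZMod ℓ) * 5) := by
    have h0 : (-1 : ZMod ℓ) * 5 ≠ 0 := by
      have h50 : (5 : ZMod ℓ) ≠ 0 := by
        intro h0
        have : ((5 : ℕ) : ZMod ℓ) = 0 := by exact_mod_cast h0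
        rw [ZMod.natCast_eq_zero_iff] at this
        have := Nat.le_of_dvd (by norm_num) this
        omega
      simpa using h50
    rw [← quadraticChar_one_iff_isSquare h0, map_mul,
      quadraticChar_neg_one_iff_not_isSquare.2 h1, quadraticChar_neg_one_iff_not_isSquare.2 h2]
    norm_num
  obtain ⟨m, hm⟩ := h5
  exact ⟨m, by rw [pow_two, ← hm]; ring⟩

/-- Thue's lemma. -/
theorem thue (ℓ : ℕ) [Fact ℓ.Prime] (hl : ℓ % 20 = 7) :
    ∃ (x y : ℤ) (k : ℕ), x ^ 2 + 5 * y ^ 2 = k * ℓ ∧ (k = 2 ∨ k = 3) := by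
  obtain ⟨m, hm⟩ := neg_five_square ℓ hl
  have hlp : ℓ.Prime := Fact.out
  set n := Nat.sqrt ℓ with hn
  have hcard : Fintype.card (ZMod ℓ) < ((Finset.range (n + 1)) ×ˢ (Finset.range (n + 1))).card := by
    rw [ZMod.card, Finset.card_product, Finset.card_range]
    exact Nat.lt_succ_sqrt ℓ
  obtain ⟨⟨a, b⟩, hab, ⟨c, d⟩, hcd, hne, heq⟩ := Finset.exists_ne_map_eq_of_card_lt_of_maps_to
    (s := (Finset.range (n + 1)) ×ˢ (Finset.range (n + 1))) (t := (Finset.univ : Finset (ZMod ℓ)))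
    (by rw [Finset.card_univ]; exact hcard) (f := fun p => (p.1 : ZMod ℓ) - m * (p.2 : ZMod ℓ))
    (fun _ _ => Finset.mem_univ _)
  simp only [Finset.mem_product, Finset.mem_range] at hab hcd
  have heq' : (a : ZMod ℓ) - m * b = (c : ZMod ℓ) - m * d := heq
  set x : ℤ := (a : ℤ) - c with hx
  set y : ℤ := (b : ℤ) - d with hy
  have hdvd : (ℓ : ℤ) ∣ x ^ 2 + 5 * y ^ 2 := by
    rw [← ZMod.intCast_zmod_eq_zero_iff_dvd]
    push_cast [hx, hy]
    have h1 : (a : ZMod ℓ) - c = m * (b - d) := by linear_combination heq'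
    rw [h1, mul_pow, hm]; ring
  obtain ⟨k', hk'⟩ := hdvd
  have hn2 : n * n ≤ ℓ := Nat.sqrt_le ℓ
  have hxn : x ^ 2 ≤ n * n := by
    have h1 : x ≤ n := by omega
    have h2 : -(n : ℤ) ≤ x := by omega
    nlinarith
  have hyn : y ^ 2 ≤ n * n := by
    have h1 : y ≤ n := by omega
    have h2 : -(n : ℤ) ≤ y := by omega
    nlinarith
  have hpos : 0 < x ^ 2 + 5 * y ^ 2 := by
    rcases eq_or_ne x 0 with hx0 | hx0
    · rcases eq_or_ne y 0 with hy0 | hy0
      · exfalso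
        apply hne
        have h1 : a = c := by omega
        have h2 : b = d := by omega
        rw [h1, h2]
      · positivity
    · positivity
  have hlpos : (0 : ℤ) < ℓ := by exact_mod_cast hlp.pos
  have hkpos : 0 < k' := by
    by_contra h0
    push Not at h0
    have : (ℓ : ℤ) * k' ≤ 0 := mul_nonpos_of_nonneg_of_nonpos hlpos.le h0
    rw [← hk'] at this
    omega
  have hk6 : k' ≤ 6 := by
    have h1 : (ℓ : ℤ) * k' ≤ ℓ * 6 := by
      rw [← hk']
      have : ((n * n : ℕ) : ℤ) ≤ ℓ := by exact_mod_cast hn2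
      push_cast at this
      linarith
    exact le_of_mul_le_mul_left h1 hlpos
  have hmod := congrArg (fun t : ℤ => (t : ZMod 20)) hk'
  simp only [Int.cast_add, Int.cast_pow, Int.cast_mul, Int.cast_ofNat, Int.cast_natCast] at hmod
  have hl20 : ((ℓ : ℕ) : ZMod 20) = 7 := by
    have : ((ℓ : ℕ) : ZMod 20) = ((7 : ℕ) : ZMod 20) := by
      rw [ZMod.natCast_eq_natCast_iff]
      unfold Nat.ModEq; omega
    rw [this]; rfl
  rw [hl20] at hmod
  obtain ⟨m1, m4, m5, m6⟩ := mod20 (x : ZMod 20) (y : ZMod 20)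
  have hk23 : k' = 2 ∨ k' = 3 := by
    interval_cases k'
    · exact absurd (by rw [hmod]; simp) m1
    · left; rfl
    · right; rfl
    · exact absurd (by rw [hmod]; push_cast; ring) m4
    · exact absurd (by rw [hmod]; push_cast; ring) m5
    · exact absurd (by rw [hmod]; push_cast; ring) m6
  rcases hk23 with h | h
  · exact ⟨x, y, 2, by rw [hk', h]; push_cast; ring, Or.inl rfl⟩
  · exact ⟨x, y, 3, by rw [hk', h]; push_cast; ring, Or.inr rfl⟩

/-- Dirichlet: a suitable auxiliary prime. -/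
theorem exists_aux_prime (q : ℕ) [Fact q.Prime] (hq : 7 ≤ q) :
    ∃ ℓ : ℕ, ℓ.Prime ∧ ℓ % 20 = 7 ∧ q ∣ ℓ ^ (q / 2) + 1 := by
  have hqp : q.Prime := Fact.out
  obtain ⟨n, hn⟩ := FiniteField.exists_nonsquare (F := ZMod q) (by rw [ZMod.ringChar_zmod_n]; omega)
  have hn0 : n ≠ 0 := by
    rintro rfl
    exact hn ⟨0, by simp⟩
  have hcop : Nat.Coprime 20 q := by
    rw [Nat.coprime_comm]
    rw [Nat.Prime.coprime_iff_not_dvd hqp]
    intro h
    have h1 : q ∣ 2 * 2 * 5 := by simpa using h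
    have h2 : q ∣ 2 ∨ q ∣ 5 := by
      rcases (Nat.Prime.dvd_mul hqp).1 h1 with h | h
      · rcases (Nat.Prime.dvd_mul hqp).1 h with h | h
        · left; exact h
        · left; exact h
      · right; exact h
    rcases h2 with h | h
    · have := Nat.le_of_dvd (by norm_num) h; omega
    · have := Nat.le_of_dvd (by norm_num) h; omega
  obtain ⟨c, hc1, hc2⟩ := Nat.chineseRemainder hcop 7 n.val
  have hcc : Nat.Coprime c (20 * q) := by
    apply Nat.Coprime.mul_right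
    · have : Nat.gcd c 20 = Nat.gcd 7 20 := by
        exact Nat.ModEq.gcd_eq hc1
      unfold Nat.Coprime
      rw [this]; norm_num
    · have : Nat.gcd c q = Nat.gcd n.val q := Nat.ModEq.gcd_eq hc2
      unfold Nat.Coprime
      rw [this]
      have : Nat.Coprime q n.val := by
        rw [Nat.Prime.coprime_iff_not_dvd hqp]
        intro h
        have h1 := Nat.le_of_dvd (Nat.pos_of_ne_zero (fun h0 => hn0 ((ZMod.val_eq_zero n).1 h0))) h
        have h2 := ZMod.val_lt n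
        omega
      exact this.symm
  haveI : NeZero (20 * q) := ⟨by have := hqp.pos; positivity⟩
  have hu : IsUnit ((c : ℕ) : ZMod (20 * q)) := (ZMod.isUnit_iff_coprime c (20 * q)).2 hcc
  obtain ⟨ℓ, -, hlp, hl⟩ := Nat.forall_exists_prime_gt_and_eq_mod hu 0
  rw [ZMod.natCast_eq_natCast_iff] at hl
  refine ⟨ℓ, hlp, ?_, ?_⟩
  · have h1 : ℓ ≡ c [MOD 20] := hl.of_dvd (Dvd.intro _ rfl)
    have h2 := h1.trans hc1
    unfold Nat.ModEq at h2
    omega
  · have h1 : ℓ ≡ c [MOD q] := hl.of_dvd (Dvd.intro_left _ rfl)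
    have h2 := h1.trans hc2
    have h3 : ((ℓ : ℕ) : ZMod q) = n := by
      rw [(ZMod.natCast_eq_natCast_iff _ _ _).2 h2, ZMod.natCast_zmod_val]
    have h4 : n ^ (q / 2) = -1 := by
      rcases ZMod.pow_div_two_eq_neg_one_or_one q hn0 with h | h
      · exact absurd ((ZMod.euler_criterion q hn0).2 h) hn
      · exact h
    rw [← ZMod.natCast_eq_zero_iff]
    push_cast
    rw [h3, h4]; ring

/-- Four squares summing to zero. -/
theorem four_squares {R : Type*} [CommRing R] [IsDomain R] [Algebra ℚ R] (q : ℕ) [Fact q.Prime]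
    (hq : 7 ≤ q) (s z : R) (hs : s ^ 2 = 5) (hz : z ^ q = 1) (hz1 : z ≠ 1) :
    ∃ a b c d : R, d ≠ 0 ∧ a ^ 2 + b ^ 2 + c ^ 2 + d ^ 2 = 0 := by
  haveI : CharZero R := algebraRat.charZero R
  obtain ⟨ℓ, hlp, hl, hdvd⟩ := exists_aux_prime q hq
  haveI : Fact ℓ.Prime := ⟨hlp⟩
  obtain ⟨a, b, hab⟩ := telescope ℓ (by omega) z (q / 2)
  obtain ⟨x, y, k, hxy, hk⟩ := thue ℓ hl
  have hz0 : z ≠ 0 := by
    rintro rfl
    rw [zero_pow (by omega)] at hz
    exact zero_ne_one hz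
  have hzz : z ^ (ℓ ^ (q / 2)) * z = 1 := by
    rw [← pow_succ]
    obtain ⟨t, ht⟩ := hdvd
    rw [ht, pow_mul, hz, one_pow]
  -- `w = z ^ (q/2)`, `w² z = 1`
  have hw : (z ^ (q / 2)) ^ 2 * z = 1 := by
    rw [← pow_mul, ← pow_succ]
    have : q / 2 * 2 + 1 = q := by
      have : q % 2 = 1 := by
        rcases (Fact.out : q.Prime).eq_two_or_odd with h | h
        · omega
        · exact h
      omega
    rw [this, hz]
  have hzw : z ^ (ℓ ^ (q / 2)) = (z ^ (q / 2)) ^ 2 := mul_right_cancel₀ hz0 (hzz.trans hw.symm)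
  set w := z ^ (q / 2) with hwdef
  have hw0 : w ≠ 0 := pow_ne_zero _ hz0
  rw [hzw] at hab
  have h1 : a ^ 2 + ℓ * b ^ 2 + w ^ 2 = 0 := by
    have h2 : (1 - z) * (a ^ 2 + ℓ * b ^ 2 + w ^ 2) = 0 := by
      linear_combination hab - hw
    rcases mul_eq_zero.1 h2 with h | h
    · exact absurd (sub_eq_zero.1 h).symm hz1
    · exact h
  -- `4k` is a sum of two squares
  obtain ⟨c, d, hcd⟩ : ∃ c d : R, c ^ 2 + d ^ 2 = 4 * k := by
    rcases hk with rfl | rfl
    · exact ⟨2, 2, by norm_num⟩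
    · exact ⟨1 + s, 1 - s, by push_cast; linear_combination 2 * hs⟩
  have hk0 : (k : R) ≠ 0 := by
    rcases hk with rfl | rfl <;> norm_num
  have hxyR : (x : R) ^ 2 + 5 * (y : R) ^ 2 = k * ℓ := by exact_mod_cast congrArg (fun t : ℤ => (t : R)) hxy
  refine ⟨2 * k * a, (x * c - s * y * d) * b, (x * d + s * y * c) * b, 2 * k * w,
    mul_ne_zero (mul_ne_zero two_ne_zero hk0) hw0, ?_⟩
  have e1 : (x * c - s * y * d) ^ 2 + (x * d + s * y * c) ^ 2 = ((x : R) ^ 2 + s ^ 2 * (y : R) ^ 2) * (c ^ 2 + d ^ 2) := by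
    ring
  rw [hs, hcd, hxyR] at e1
  linear_combination (4 * (k : R) ^ 2) * h1 + b ^ 2 * e1

end Cfsg.Agent.Lib.H50Am3
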