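import Mathlib
import Cfsg.Agent.Lib.H50Am2
import Cfsg.Agent.Lib.H50Am3

/-!
# `SL(2,5)` in a division ring
-/

set_option autoImplicit false

namespace Cfsg.Agent.Lib.H50Am4

open H50Am2 H50Am3

abbrev SL25 := Matrix.SpecialLinearGroup (Fin 2) (ZMod 5)

def mi : SL25 := ⟨!![2, 0; 0, 3], by decide⟩
def mj : SL25 := ⟨!![0, 1; 4, 0], by decide⟩
def mx : SL25 := ⟨!![2, 1; 3, 2], by decide⟩
def mr : SL25 := ⟨!![1, 1; 2, 3], by decide⟩

theorem mi_mi : mi * mi = -1 := by decide +kernel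
theorem mj_mj : mj * mj = -1 := by decide +kernel
theorem mi_mj : mi * mj = -1 * (mj * mi) := by decide +kernel
theorem mx3 : mx * mx * mx = 1 := by decide +kernel
theorem mx1 : mx ≠ 1 := by decide +kernel
theorem mxix : mx * mi * mx = mi := by decide +kernel
theorem mjx5 : (mj * mx) * (mj * mx) * (mj * mx) * (mj * mx) * (mj * mx) = 1 := by decide +kernel
theorem mjx1 : mj * mx ≠ 1 := by decide +kernel
theorem mkx5 : (-1 * (mi * mj * mx)) * (-1 * (mi * mj * mx)) * (-1 * (mi * mj * mx)) *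
    (-1 * (mi * mj * mx)) * (-1 * (mi * mj * mx)) = 1 := by decide +kernel
theorem mkx1 : -1 * (mi * mj * mx) ≠ 1 := by decide +kernel

/-- the eight elements of the quaternion group -/
def QL : List SL25 := [1, -1, mi, -mi, mj, -mj, mi * mj, -(mi * mj)]

def ML : List SL25 := [1, mi, mj, mi * mj, mr, mi * mr, mj * mr, mi * mj * mr,
  mr * mr, mi * (mr * mr), mj * (mr * mr), mi * mj * (mr * mr)]

theorem QL_mul : ∀ a ∈ QL, ∀ b ∈ QL, a * b ∈ QL := by decide +kernel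
theorem QL_inv : ∀ a ∈ QL, a⁻¹ ∈ QL := by decide +kernel
theorem QL_nodup : QL.Nodup := by decide +kernel

theorem QL_pairs : ∀ a ∈ QL, ∀ b ∈ QL, a * b ≠ b * a →
    ∃ m ∈ ML, (m * a = mi * m ∧ m * b = mj * m) ∨ (m * a = -mi * m ∧ m * b = (mi * mj) * m) := by
  decide +kernel

def Q0 : Subgroup SL25 where
  carrier := {m | m ∈ QL}
  mul_mem' {a b} ha hb := QL_mul a ha b hb
  one_mem' := by
    change (1 : SL25) ∈ QL
    simp [QL]
  inv_mem' {a} ha := QL_inv a ha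

theorem card_Q0 : Nat.card Q0 = 8 := by
  have h1 : (Q0 : Set SL25) = ((QL.toFinset : Finset SL25) : Set SL25) := by
    ext m
    simp only [List.coe_toFinset]
    rfl
  have h2 : Nat.card Q0 = (QL.toFinset).card := by
    change Nat.card ((Q0 : Set SL25) : Type) = _
    rw [h1]
    exact Nat.card_eq_card_toFinset _ |>.trans (by rw [Finset.toFinset_coe])
  rw [h2, List.toFinset_card_of_nodup QL_nodup]
  rfl

theorem centralizer_Q0 : ∀ a b c d : ZMod 5, a * d - b * c = 1 →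
    (!![a, b; c, d] : Matrix (Fin 2) (Fin 2) (ZMod 5)) * !![2, 0; 0, 3] = !![2, 0; 0, 3] * !![a, b; c, d] →
    (!![a, b; c, d] : Matrix (Fin 2) (Fin 2) (ZMod 5)) * !![0, 1; 4, 0] = !![0, 1; 4, 0] * !![a, b; c, d] →
    (b = 0 ∧ c = 0 ∧ a = d ∧ (a = 1 ∨ a = -1)) := by
  decide +kernel

theorem eq_pm_one (m : SL25) (hi : m * mi = mi * m) (hj : m * mj = mj * m) : m = 1 ∨ m = -1 := by
  have hdet : m.1 0 0 * m.1 1 1 - m.1 0 1 * m.1 1 0 = 1 := by
    have := m.2
    rwa [Matrix.det_fin_two] at this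
  have hm : m.1 = !![m.1 0 0, m.1 0 1; m.1 1 0, m.1 1 1] := by
    ext i j; fin_cases i <;> fin_cases j <;> rfl
  have h1 := congrArg Subtype.val hi
  have h2 := congrArg Subtype.val hj
  have h1' : m.1 * !![2, 0; 0, 3] = !![2, 0; 0, 3] * m.1 := h1
  have h2' : m.1 * !![0, 1; 4, 0] = !![0, 1; 4, 0] * m.1 := h2
  rw [hm] at h1' h2'
  obtain ⟨hb, hc, had, ha⟩ := centralizer_Q0 _ _ _ _ hdet h1' h2'
  rcases ha with ha | ha
  · left
    apply Subtype.ext
    rw [hm, hb, hc, ← had, ha]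
    decide
  · right
    apply Subtype.ext
    rw [hm, hb, hc, ← had, ha]
    decide

/-- transvections -/
def mU : SL25 := ⟨!![1, 1; 0, 1], by decide⟩
def mL : SL25 := ⟨!![1, 0; 1, 1], by decide⟩

theorem mU_eq : mU = mj * mi * mx * mj * mx * mx * mj := by decide +kernel
theorem mL_eq : mL = mx * mi * mj * mx := by decide +kernel

def tU (t : ZMod 5) : SL25 := ⟨!![1, t; 0, 1], by rw [Matrix.det_fin_two_of]; ring⟩
def tL (t : ZMod 5) : SL25 := ⟨!![1, 0; t, 1], by rw [Matrix.det_fin_two_of]; ring⟩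

theorem tU_eq : ∀ t : ZMod 5, (!![1, t; 0, 1] : Matrix (Fin 2) (Fin 2) (ZMod 5)) =
    (!![1, 1; 0, 1] : Matrix (Fin 2) (Fin 2) (ZMod 5)) ^ t.val := by decide +kernel
theorem tL_eq : ∀ t : ZMod 5, (!![1, 0; t, 1] : Matrix (Fin 2) (Fin 2) (ZMod 5)) =
    (!![1, 0; 1, 1] : Matrix (Fin 2) (Fin 2) (ZMod 5)) ^ t.val := by decide +kernel

theorem tU_pow (t : ZMod 5) : tU t = mU ^ t.val := by
  apply Subtype.ext
  rw [Matrix.SpecialLinearGroup.coe_pow]
  exact tU_eq t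

theorem tL_pow (t : ZMod 5) : tL t = mL ^ t.val := by
  apply Subtype.ext
  rw [Matrix.SpecialLinearGroup.coe_pow]
  exact tL_eq t

theorem bruhat : ∀ a b c d : ZMod 5, c ≠ 0 → a * d - b * c = 1 →
    (!![a, b; c, d] : Matrix (Fin 2) (Fin 2) (ZMod 5)) =
      !![1, (a - 1) * c ^ 3; 0, 1] * !![1, 0; c, 1] * !![1, (d - 1) * c ^ 3; 0, 1] := by
  decide +kernel

theorem gen_aux (W : Subgroup SL25) (hU : mU ∈ W) (hL : mL ∈ W) (m : SL25) (hc : m.1 1 0 ≠ 0) :
    m ∈ W := by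
  have hdet : m.1 0 0 * m.1 1 1 - m.1 0 1 * m.1 1 0 = 1 := by
    have := m.2
    rwa [Matrix.det_fin_two] at this
  have hm : m.1 = !![m.1 0 0, m.1 0 1; m.1 1 0, m.1 1 1] := by
    ext i j; fin_cases i <;> fin_cases j <;> rfl
  have h1 : m = tU ((m.1 0 0 - 1) * (m.1 1 0) ^ 3) * tL (m.1 1 0) * tU ((m.1 1 1 - 1) * (m.1 1 0) ^ 3) := by
    apply Subtype.ext
    rw [Matrix.SpecialLinearGroup.coe_mul, Matrix.SpecialLinearGroup.coe_mul]
    exact hm.trans (bruhat _ _ _ _ hc hdet)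
  rw [h1, tU_pow, tU_pow, tL_pow]
  exact mul_mem (mul_mem (pow_mem hU _) (pow_mem hL _)) (pow_mem hU _)

theorem gen (W : Subgroup SL25) (hi : mi ∈ W) (hj : mj ∈ W) (hx : mx ∈ W) : W = ⊤ := by
  have hU : mU ∈ W := by
    rw [mU_eq]
    exact mul_mem (mul_mem (mul_mem (mul_mem (mul_mem (mul_mem hj hi) hx) hj) hx) hx) hj
  have hL : mL ∈ W := by
    rw [mL_eq]
    exact mul_mem (mul_mem (mul_mem hx hi) hj) hx
  rw [eq_top_iff]
  intro m _
  by_cases hc : m.1 1 0 = 0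
  · have h2 : m * mL ∈ W := by
      apply gen_aux W hU hL
      have h3 : (m * mL).1 1 0 = m.1 1 0 + m.1 1 1 := by
        rw [Matrix.SpecialLinearGroup.coe_mul]
        change ((m.1 * !![1, 0; 1, 1] : Matrix (Fin 2) (Fin 2) (ZMod 5))) 1 0 = _
        rw [Matrix.mul_apply, Fin.sum_univ_two]
        simp
      rw [h3, hc, zero_add]
      intro h0
      have hdet : m.1 0 0 * m.1 1 1 - m.1 0 1 * m.1 1 0 = 1 := by
        have := m.2
        rwa [Matrix.det_fin_two] at this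
      rw [hc, h0] at hdet
      simp only [mul_zero, sub_zero] at hdet
      exact absurd hdet (by decide)
    have h4 := mul_mem h2 (inv_mem hL)
    rwa [mul_inv_cancel_right] at h4
  · exact gen_aux W hU hL m hc

/-! ### the icosahedral data of an embedding -/

variable {D : Type*} [DivisionRing D]

theorem map_neg_one (ψ : SL25 →* D) (hψ : Function.Injective ψ) : ψ (-1) = -1 := by
  have h1 : ψ (-1) * ψ (-1) = 1 := by
    rw [← map_mul, show (-1 : SL25) * -1 = 1 by decide, map_one]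
  have h2 : (ψ (-1) - 1) * (ψ (-1) + 1) = 0 := by
    have : (ψ (-1) - 1) * (ψ (-1) + 1) = ψ (-1) * ψ (-1) - 1 := by noncomm_ring
    rw [this, h1, sub_self]
  rcases mul_eq_zero.1 h2 with h | h
  · exfalso
    have h3 : ψ (-1) = ψ 1 := by rw [map_one]; exact sub_eq_zero.1 h
    have h4 := hψ h3
    exact absurd h4 (by decide)
  · exact eq_neg_of_add_eq_zero_left h

theorem ico (ψ : SL25 →* D) (hψ : Function.Injective ψ) : Ico (ψ mi) (ψ mj) (ψ mx) := by
  have hn := map_neg_one ψ hψ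
  refine ⟨?_, ?_, ?_, ?_, ?_, ?_, ?_, ?_, ?_⟩
  · rw [← map_mul, mi_mi, hn]
  · rw [← map_mul, mj_mj, hn]
  · rw [← map_mul, mi_mj, map_mul, hn, map_mul]; simp
  · have h1 : ψ mx * ψ mx * ψ mx = 1 := by rw [← map_mul, ← map_mul, mx3, map_one]
    have h2 : (ψ mx - 1) * (ψ mx * ψ mx + ψ mx + 1) = 0 := by
      have : (ψ mx - 1) * (ψ mx * ψ mx + ψ mx + 1) = ψ mx * ψ mx * ψ mx - 1 := by noncomm_ring
      rw [this, h1, sub_self]
    rcases mul_eq_zero.1 h2 with h | h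
    · exfalso
      have h3 : ψ mx = ψ 1 := by rw [map_one]; exact sub_eq_zero.1 h
      exact mx1 (hψ h3)
    · have : ψ mx * ψ mx = (ψ mx * ψ mx + ψ mx + 1) - ψ mx - 1 := by abel
      rw [this, h]; abel
  · rw [← map_mul, ← map_mul, mxix]
  · have := congrArg ψ mjx5
    simp only [map_mul, map_one] at this
    rw [← this]; simp only [pow_succ, pow_zero, one_mul]
  · intro h
    apply mjx1
    apply hψ
    rw [map_mul, h, map_one]
  · have := congrArg ψ mkx5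
    simp only [map_mul, map_one, hn] at this
    rw [← this]; simp only [pow_succ, pow_zero, one_mul, neg_mul]
  · intro h
    apply mkx1
    apply hψ
    rw [map_one, ← h]
    simp only [map_mul, hn]
    rw [neg_one_mul]

theorem rt_central [CharZero D] (ψ : SL25 →* D) (hψ : Function.Injective ψ) (m : SL25) :
    Ico.rt (ψ mi) (ψ mj) (ψ mx) * ψ m = ψ m * Ico.rt (ψ mi) (ψ mj) (ψ mx) := by
  have h := ico ψ hψ
  let W : Subgroup SL25 :=
    { carrier := {m | Ico.rt (ψ mi) (ψ mj) (ψ mx) * ψ m = ψ m * Ico.rt (ψ mi) (ψ mj) (ψ mx)}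
      one_mem' := by simp
      mul_mem' := by
        intro a b ha hb
        simp only [Set.mem_setOf_eq] at ha hb ⊢
        rw [map_mul, ← mul_assoc, ha, mul_assoc, hb, mul_assoc]
      inv_mem' := by
        intro a ha
        simp only [Set.mem_setOf_eq] at ha ⊢
        have h1 : ψ a⁻¹ * ψ a = 1 := by rw [← map_mul, inv_mul_cancel, map_one]
        have h2 : ψ a * ψ a⁻¹ = 1 := by rw [← map_mul, mul_inv_cancel, map_one]
        calc Ico.rt (ψ mi) (ψ mj) (ψ mx) * ψ a⁻¹ =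
            ψ a⁻¹ * (ψ a * Ico.rt (ψ mi) (ψ mj) (ψ mx)) * ψ a⁻¹ := by
              rw [← mul_assoc, h1, one_mul]
          _ = ψ a⁻¹ * (Ico.rt (ψ mi) (ψ mj) (ψ mx) * ψ a) * ψ a⁻¹ := by rw [ha]
          _ = ψ a⁻¹ * Ico.rt (ψ mi) (ψ mj) (ψ mx) * (ψ a * ψ a⁻¹) := by noncomm_ring
          _ = ψ a⁻¹ * Ico.rt (ψ mi) (ψ mj) (ψ mx) := by rw [h2, mul_one] }
  have hW : W = ⊤ := gen W h.rt_I h.rt_J h.rt_X
  have : m ∈ W := by rw [hW]; trivial
  exact this

end Cfsg.Agent.Lib.H50Am4
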