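import Mathlib
import Cfsg.Agent.Lib.H50Am4

/-!
# The index two case and the direct factor
-/

set_option autoImplicit false

namespace Cfsg.Agent.Lib.H50Am5

open H50Am2 H50Am3 H50Am4

variable {D : Type*} [DivisionRing D] [CharZero D]

/-- An element of prime order `q ≥ 7` cannot centralize `SL(2,5)`. -/
theorem no_center (ψ : SL25 →* D) (hψ : Function.Injective ψ) (q : ℕ) [Fact q.Prime] (hq : 7 ≤ q)
    (z : D) (hz : z ^ q = 1) (hz1 : z ≠ 1) (hc : ∀ m, z * ψ m = ψ m * z) : False := by
  have h := ico ψ hψ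
  set I := ψ mi with hI
  set J := ψ mj with hJ
  set X := ψ mx with hX
  set s := Ico.rt I J X with hs
  have sI : s * I = I * s := h.rt_I
  have sJ : s * J = J * s := h.rt_J
  have zI : z * I = I * z := hc _
  have zJ : z * J = J * z := hc _
  have zX : z * X = X * z := hc _
  have zs : z * s = s * z := by
    rw [hs]
    unfold Ico.rt Ico.T3
    have c2 : z * 2 = 2 * z := by
      have : Commute (2 : D) z := (Nat.cast_commute 2 _ : Commute ((2 : ℕ) : D) _)
      exact this.eq.symm
    have e1 : z * (I * J * X + X * (I * J) + I * J) = (I * J * X + X * (I * J) + I * J) * z := by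
      have f1 : z * (I * J) = (I * J) * z := by rw [← mul_assoc, zI, mul_assoc, zJ, mul_assoc]
      have f2 : z * (I * J * X) = (I * J * X) * z := by
        rw [← mul_assoc, f1, mul_assoc, zX, ← mul_assoc]
      have f3 : z * (X * (I * J)) = (X * (I * J)) * z := by
        rw [← mul_assoc, zX, mul_assoc, f1, ← mul_assoc]
      rw [mul_add, mul_add, f2, f3, f1, add_mul, add_mul]
    rw [mul_sub, ← mul_assoc z 2, c2, mul_assoc 2 z, e1, sub_mul, mul_one, one_mul, ← mul_assoc 2]
  letI : Algebra ℚ D := DivisionRing.toRatAlgebra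
  have hcomm : ∀ a ∈ ({s, z} : Set D), ∀ b ∈ ({s, z} : Set D), a * b = b * a := by
    rintro a (rfl | rfl) b (rfl | rfl)
    · rfl
    · exact zs.symm
    · exact zs
    · rfl
  letI : CommRing (Algebra.adjoin ℚ ({s, z} : Set D)) := Algebra.adjoinCommRingOfComm ℚ hcomm
  haveI : IsDomain (Algebra.adjoin ℚ ({s, z} : Set D)) := inferInstance
  have hsA : s ∈ Algebra.adjoin ℚ ({s, z} : Set D) := Algebra.subset_adjoin (by simp)
  have hzA : z ∈ Algebra.adjoin ℚ ({s, z} : Set D) := Algebra.subset_adjoin (by simp)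
  have cen : ∀ y : D, s * y = y * s → z * y = y * z → ∀ a ∈ Algebra.adjoin ℚ ({s, z} : Set D),
      a * y = y * a := by
    intro y hsy hzy a ha
    have hle : Algebra.adjoin ℚ ({s, z} : Set D) ≤ Subalgebra.centralizer ℚ ({y} : Set D) := by
      rw [Algebra.adjoin_le_iff]
      rintro b (rfl | rfl)
      · rw [SetLike.mem_coe, Subalgebra.mem_centralizer_iff]
        intro t ht
        rw [Set.mem_singleton_iff.1 ht]
        exact hsy.symm
      · rw [SetLike.mem_coe, Subalgebra.mem_centralizer_iff]
        intro t ht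
        rw [Set.mem_singleton_iff.1 ht]
        exact hzy.symm
    exact ((Subalgebra.mem_centralizer_iff ℚ).1 (hle ha) y rfl).symm
  obtain ⟨a, b, c, d, hd, habcd⟩ := four_squares (R := Algebra.adjoin ℚ ({s, z} : Set D)) q hq
    ⟨s, hsA⟩ ⟨z, hzA⟩
    (by
      apply Subtype.ext
      have : s ^ 2 = 5 := by rw [pow_two]; exact h.rt_sq
      exact this)
    (by
      apply Subtype.ext
      exact hz)
    (by
      intro h0
      exact hz1 (congrArg Subtype.val h0))
  have hab : ∀ a b : Algebra.adjoin ℚ ({s, z} : Set D), (a : D) * b = b * a := by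
    intro a b
    exact congrArg Subtype.val (mul_comm a b)
  have hsum : (a : D) * a + b * b + c * c + d * d = 0 := by
    have := congrArg Subtype.val habcd
    have e : ((a ^ 2 + b ^ 2 + c ^ 2 + d ^ 2 : Algebra.adjoin ℚ ({s, z} : Set D)) : D) =
      (a : D) * a + b * b + c * c + d * d := by
      simp only [pow_two]
      rfl
    rw [e] at this
    exact this
  have := h.no_four_squares (cen I sI zI a a.2) (cen J sJ zJ a a.2) (cen I sI zI b b.2) (cen J sJ zJ b b.2)
    (cen I sI zI c c.2) (cen J sJ zJ c c.2) (cen I sI zI d d.2) (cen J sJ zJ d d.2)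
    (hab a b) (hab a c) (hab a d) (hab b c) (hab b d) (hab c d) hsum
  exact hd (Subtype.ext this.2.2.2)

/-! ### index two -/

section index2

variable {G : Type*} [Group G] [Finite G] (φ : G →* D) (hφ : Function.Injective φ) (S : Subgroup G)
  (e : S ≃* SL25) (hS : S.index = 2)

omit [CharZero D] [Finite G] in
include hφ in
theorem square_eq_one {a : G} (h : φ a * φ a = 1) (ha : φ a ≠ -1) : a = 1 := by
  have h2 : (φ a - 1) * (φ a + 1) = 0 := by
    have : (φ a - 1) * (φ a + 1) = φ a * φ a - 1 := by noncomm_ring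
    rw [this, h, sub_self]
  rcases mul_eq_zero.1 h2 with h | h
  · apply hφ
    rw [map_one]; exact sub_eq_zero.1 h
  · exact absurd (eq_neg_of_add_eq_zero_left h) ha

/-- the embedding of `SL(2,5)` -/
def psi : SL25 →* D := φ.comp (S.subtype.comp e.symm.toMonoidHom)

omit [CharZero D] [Finite G] in
theorem psi_apply (m : SL25) : psi φ S e m = φ (e.symm m : S) := rfl

omit [CharZero D] [Finite G] in
include hφ in
theorem psi_inj : Function.Injective (psi φ S e) := by
  intro a b h
  exact e.symm.injective (Subtype.ext (hφ h))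

include hφ hS e in
theorem index_two_false (hcS' : Nat.card S = 120) : False := by
  set ψ := psi φ S e with hψdef
  have hψ : Function.Injective ψ := psi_inj φ hφ S e
  have hn := map_neg_one ψ hψ
  have h := ico ψ hψ
  haveI : Fact (Nat.Prime 2) := ⟨Nat.prime_two⟩
  haveI hSn : S.Normal := Subgroup.normal_of_index_eq_two hS
  -- the Sylow subgroup `Q` of `S`
  let Q : Subgroup S := Q0.map e.symm.toMonoidHom
  have hQc : Nat.card Q = 8 := by
    rw [← card_Q0]
    exact (Nat.card_congr (Q0.equivMapOfInjective e.symm.toMonoidHom e.symm.injective).toEquiv).symm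
  have hQp : IsPGroup 2 Q := IsPGroup.of_card (n := 3) (by rw [hQc]; norm_num)
  have hQi : ¬ 2 ∣ Q.index := by
    have h1 := Q.card_mul_index
    rw [hQc, hcS'] at h1
    omega
  let P : Sylow 2 S := hQp.toSylow hQi
  have hPQ : (P : Subgroup S) = Q := rfl
  have hfr := Sylow.normalizer_sup_eq_top P
  have hne : ¬ Subgroup.normalizer ((P : Subgroup S).map S.subtype : Set G) ≤ S := by
    intro hle
    rw [sup_eq_right.2 hle] at hfr
    rw [hfr, Subgroup.index_top] at hS
    norm_num at hS
  obtain ⟨g, hgN, hgS⟩ := SetLike.not_le_iff_exists.1 hne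
  -- memberships
  have hmem : ∀ m ∈ QL, ((e.symm m : S) : G) ∈ (P : Subgroup S).map S.subtype := by
    intro m hm
    exact ⟨e.symm m, ⟨m, hm, rfl⟩, rfl⟩
  have hmem' : ∀ y ∈ (P : Subgroup S).map S.subtype, ∃ m ∈ QL, ((e.symm m : S) : G) = y := by
    rintro y ⟨_, ⟨m, hm, rfl⟩, rfl⟩
    exact ⟨m, hm, rfl⟩
  have hmiQ : mi ∈ QL := by simp [QL]
  have hmjQ : mj ∈ QL := by simp [QL]
  obtain ⟨a, haQ, ha⟩ := hmem' _ ((Subgroup.mem_normalizer_iff.1 hgN _).1 (hmem mi hmiQ))
  obtain ⟨b, hbQ, hb⟩ := hmem' _ ((Subgroup.mem_normalizer_iff.1 hgN _).1 (hmem mj hmjQ))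
  have hab : a * b ≠ b * a := by
    intro hab
    have h1 : ((e.symm a : S) : G) * (e.symm b : S) = (e.symm b : S) * (e.symm a : S) := by
      have := congrArg (fun m => ((e.symm m : S) : G)) hab
      simpa using this
    rw [ha, hb] at h1
    have h2 : ((e.symm mi : S) : G) * (e.symm mj : S) = (e.symm mj : S) * (e.symm mi : S) := by
      have h3 : g * (((e.symm mi : S) : G) * (e.symm mj : S)) * g⁻¹ =
          g * (((e.symm mj : S) : G) * (e.symm mi : S)) * g⁻¹ := by
        calc g * (((e.symm mi : S) : G) * (e.symm mj : S)) * g⁻¹ =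
            (g * ((e.symm mi : S) : G) * g⁻¹) * (g * (e.symm mj : S) * g⁻¹) := by group
          _ = (g * ((e.symm mj : S) : G) * g⁻¹) * (g * (e.symm mi : S) * g⁻¹) := h1
          _ = g * (((e.symm mj : S) : G) * (e.symm mi : S)) * g⁻¹ := by group
      exact mul_left_cancel (mul_right_cancel h3)
    have h4 : mi * mj = mj * mi := by
      apply e.symm.injective
      apply Subtype.ext
      simpa using h2
    exact absurd h4 (by decide +kernel)
  obtain ⟨m, -, hm⟩ := QL_pairs a haQ b hbQ hab
  -- the modified element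
  set k : G := (e.symm m : S) * g with hk
  have hkS : k ∉ S := by
    intro h0
    apply hgS
    have := S.mul_mem (S.inv_mem (e.symm m).2) h0
    rwa [hk, inv_mul_cancel_left] at this
  have hki : ∀ c : SL25, m * a = c * m → k * (e.symm mi : S) = (e.symm c : S) * k := by
    intro c hc
    have h1 : ((e.symm m : S) : G) * (e.symm a : S) = (e.symm c : S) * (e.symm m : S) := by
      have := congrArg (fun m => ((e.symm m : S) : G)) hc
      simpa using this
    have h2 : g * (e.symm mi : S) = (e.symm a : S) * g := by rw [ha]; group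
    rw [hk, mul_assoc, h2, ← mul_assoc, h1, mul_assoc]
  have hkj : ∀ c : SL25, m * b = c * m → k * (e.symm mj : S) = (e.symm c : S) * k := by
    intro c hc
    have h1 : ((e.symm m : S) : G) * (e.symm b : S) = (e.symm c : S) * (e.symm m : S) := by
      have := congrArg (fun m => ((e.symm m : S) : G)) hc
      simpa using this
    have h2 : g * (e.symm mj : S) = (e.symm b : S) * g := by rw [hb]; group
    rw [hk, mul_assoc, h2, ← mul_assoc, h1, mul_assoc]
  set K := φ k with hK
  have hKS : ∀ m : SL25, K ≠ ψ m := by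
    intro m h0
    apply hkS
    have : k = (e.symm m : S) := hφ h0
    rw [this]
    exact (e.symm m).2
  have hkk : k * k ∈ S := Subgroup.mul_self_mem_of_index_two hS k
  -- `K * K = -1`
  have hKK : (K * K) * ψ mi = ψ mi * (K * K) → (K * K) * ψ mj = ψ mj * (K * K) → K * K = -1 := by
    intro h1 h2
    set c := e ⟨k * k, hkk⟩ with hc
    have hc' : ψ c = K * K := by
      rw [hψdef, psi_apply, hc, MulEquiv.symm_apply_apply, hK, ← map_mul]
    rw [← hc'] at h1 h2
    have h3 : c = 1 ∨ c = -1 := by
      apply eq_pm_one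
      · apply hψ
        rw [map_mul, map_mul]; exact h1
      · apply hψ
        rw [map_mul, map_mul]; exact h2
    rcases h3 with h3 | h3
    · exfalso
      rw [h3, map_one] at hc'
      apply hkS
      have : k = 1 := square_eq_one φ hφ hc'.symm (by
        intro h0
        exact hKS (-1) (by rw [hn]; exact h0))
      rw [this]; exact S.one_mem
    · rw [← hc', h3, hn]
  rcases hm with ⟨hmi, hmj⟩ | ⟨hmi, hmj⟩
  · have hi : K * ψ mi = ψ mi * K := by
      rw [hK, hψdef, psi_apply, ← map_mul, ← map_mul, hki mi hmi]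
    have hj : K * ψ mj = ψ mj * K := by
      rw [hK, hψdef, psi_apply, ← map_mul, ← map_mul, hkj mj hmj]
    have hKK' : K * K = -1 := by
      apply hKK
      · rw [mul_assoc, hi, ← mul_assoc, hi, mul_assoc]
      · rw [mul_assoc, hj, ← mul_assoc, hj, mul_assoc]
    have h2 : (K - ψ mi) * (K + ψ mi) = 0 := by
      have : (K - ψ mi) * (K + ψ mi) = K * K + K * ψ mi - ψ mi * K - ψ mi * ψ mi := by noncomm_ring
      rw [this, hKK', hi, h.II]; abel
    rcases mul_eq_zero.1 h2 with h3 | h3
    · exact hKS mi (sub_eq_zero.1 h3)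
    · apply hKS (-1 * mi)
      rw [map_mul, hn, neg_one_mul]
      exact eq_neg_of_add_eq_zero_left h3
  · have hi : K * ψ mi = -(ψ mi * K) := by
      have h1 : K * ψ mi = ψ (-mi) * K := by
        rw [hK, hψdef, psi_apply, psi_apply, ← map_mul, ← map_mul, hki (-mi) hmi]
      have h2 : (-mi : SL25) = -1 * mi := by decide +kernel
      rw [h1, h2, map_mul, hn]; noncomm_ring
    have hj : K * ψ mj = (ψ mi * ψ mj) * K := by
      rw [← map_mul, hK, hψdef, psi_apply, psi_apply, ← map_mul, ← map_mul, hkj (mi * mj) hmj]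
    have hk' := h.g_K hi hj
    have hKK' : K * K = -1 := by
      apply hKK
      · rw [mul_assoc, hi, mul_neg, ← mul_assoc, hi, neg_mul, neg_neg, mul_assoc]
      · rw [mul_assoc, hj, ← mul_assoc, hk', mul_assoc]
    -- the action on the square root of five
    set s := Ico.rt (ψ mi) (ψ mj) (ψ mx) with hs
    have hss : s * s = 5 := h.rt_sq
    have hscen : ∀ m, s * ψ m = ψ m * s := rt_central ψ hψ
    have hKinv : K * (-K) = 1 := by rw [mul_neg, hKK', neg_neg]
    have hKinv' : (-K) * K = 1 := by rw [neg_mul, hKK', neg_neg]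
    -- conjugates of elements of `ψ SL25` by `K`
    have hconj : ∀ m : SL25, ∃ m' : SL25, K * ψ m * (-K) = ψ m' := by
      intro m
      have h1 : k * (e.symm m : S) * k⁻¹ ∈ S := hSn.conj_mem _ (e.symm m).2 k
      refine ⟨e ⟨_, h1⟩, ?_⟩
      have hkinv : φ k⁻¹ = -K := by
        have : φ k * φ k⁻¹ = 1 := by rw [← map_mul, mul_inv_cancel, map_one]
        calc φ k⁻¹ = ((-K) * K) * φ k⁻¹ := by rw [hKinv', one_mul]
          _ = (-K) * (K * φ k⁻¹) := mul_assoc _ _ _
          _ = -K := by rw [hK, this, mul_one]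
      rw [hψdef, psi_apply, psi_apply, MulEquiv.symm_apply_apply]
      rw [map_mul, map_mul, hkinv]
    have hT : ∀ y : D, (∃ m m' : SL25, y = ψ m + ψ m') → s * y = y * s := by
      rintro y ⟨m, m', rfl⟩
      rw [mul_add, add_mul, hscen, hscen]
    -- `T3` is a sum of two elements
    have hT3 : Ico.T3 (ψ mi) (ψ mj) (ψ mx) = ψ (mi * mj * mx) + ψ (mi * mj * mx)⁻¹ := by
      have h1 : (mi * mj * mx)⁻¹ = -1 * (mx * mx * (mi * mj)) := by decide +kernel
      rw [h1]
      simp only [map_mul, hn]
      unfold Ico.T3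
      rw [h.XX]; noncomm_ring
    have hs' : s * (K * s * (-K)) = (K * s * (-K)) * s := by
      obtain ⟨m1, hm1⟩ := hconj (mi * mj * mx)
      obtain ⟨m2, hm2⟩ := hconj (mi * mj * mx)⁻¹
      have e1 : K * s * (-K) = 2 * (ψ m1 + ψ m2) - 1 := by
        have : K * s * (-K) = K * (2 * Ico.T3 (ψ mi) (ψ mj) (ψ mx) - 1) * (-K) := rfl
        rw [this, hT3, ← hm1, ← hm2]
        have : K * (2 * (ψ (mi * mj * mx) + ψ (mi * mj * mx)⁻¹) - 1) * -K =
          2 * (K * ψ (mi * mj * mx) * (-K) + K * ψ (mi * mj * mx)⁻¹ * (-K)) - K * (-K) := by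
          have c2 : K * 2 = 2 * K := by
            have : Commute (2 : D) K := (Nat.cast_commute 2 _ : Commute ((2 : ℕ) : D) _)
            exact this.eq.symm
          rw [mul_sub, ← mul_assoc, c2]; noncomm_ring
        rw [this, hKinv]
      rw [e1]
      have c2 : s * 2 = 2 * s := by
        have : Commute (2 : D) s := (Nat.cast_commute 2 _ : Commute ((2 : ℕ) : D) _)
        exact this.eq.symm
      rw [mul_sub, ← mul_assoc, c2, mul_assoc, hT _ ⟨m1, m2, rfl⟩, sub_mul, mul_one, one_mul, mul_assoc]
    have hs2 : (K * s * (-K)) * (K * s * (-K)) = 5 := by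
      have : (K * s * (-K)) * (K * s * (-K)) = K * s * ((-K) * K) * s * (-K) := by noncomm_ring
      rw [this, hKinv', mul_one, mul_assoc K s s, hss]
      have c5 : K * 5 = 5 * K := by
        have : Commute (5 : D) K := (Nat.cast_commute 5 _ : Commute ((5 : ℕ) : D) _)
        exact this.eq.symm
      rw [c5, mul_assoc, hKinv, mul_one]
    have hprod : ((K * s * (-K)) - s) * ((K * s * (-K)) + s) = 0 := by
      have : ((K * s * (-K)) - s) * ((K * s * (-K)) + s) =
        (K * s * (-K)) * (K * s * (-K)) - s * s + ((K * s * (-K)) * s - s * (K * s * (-K))) := by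
        noncomm_ring
      rw [this, hs2, hss, hs']; simp
    rcases mul_eq_zero.1 hprod with h3 | h3
    · -- commuting
      have h4 : K * s * (-K) = s := sub_eq_zero.1 h3
      have h5 : K * s = s * K := by
        calc K * s = K * s * ((-K) * K) := by rw [hKinv', mul_one]
          _ = (K * s * (-K)) * K := by noncomm_ring
          _ = s * K := by rw [h4]
      have h6 := h.case_pos hKK' hi hj h5 rfl
      obtain ⟨m', hm'⟩ := hconj mx
      have h7 : (K * ψ mx * K) * (1 + ψ mx) = ψ (m' * mx⁻¹) := by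
        have h8 : ψ mx⁻¹ = -(1 + ψ mx) := by
          have : mx⁻¹ = mx * mx := by decide +kernel
          rw [this, map_mul, h.XX]; abel
        rw [map_mul, h8, ← hm']
        noncomm_ring
      have hfin : ∃ n : ℕ, 0 < n ∧ (ψ (m' * mx⁻¹)) ^ n = 1 := by
        refine ⟨orderOf (m' * mx⁻¹), orderOf_pos _, ?_⟩
        rw [← map_pow, pow_orderOf_eq_one, map_one]
      obtain ⟨n, hn0, hn1⟩ := hfin
      rw [h7] at h6
      exact infinite_order h6 n hn0 hn1
    · have h4 : K * s * (-K) = -s := eq_neg_of_add_eq_zero_left h3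
      have h5 : K * s = -(s * K) := by
        calc K * s = K * s * ((-K) * K) := by rw [hKinv', mul_one]
          _ = (K * s * (-K)) * K := by noncomm_ring
          _ = -(s * K) := by rw [h4, neg_mul]
      exact h.case_neg hKK' hi hj h5

end index2

end Cfsg.Agent.Lib.H50Am5
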