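import Mathlib
import Cfsg.Agent.Lib.H50Am1
import Cfsg.Agent.Lib.H50Am5
import Cfsg.Agent.Lib.FrobFinal

/-!
# Amitsur: nonsolvable finite subgroups of division rings
-/

set_option autoImplicit false

namespace Cfsg.Agent.Lib.H50Am6

open H50Am1 H50Am2 H50Am3 H50Am4 H50Am5 Cfsg

theorem amitsur {D : Type*} [DivisionRing D] (H : Subgroup Dˣ) [Finite H] (hH : ¬ Group.IsSolvable H) :
    Nonempty (H ≃* Matrix.SpecialLinearGroup (Fin 2) (ZMod 5)) := by
  classical
  -- characteristic zero
  have hnc : ∃ a b : H, a * b ≠ b * a := by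
    by_contra h0
    push Not at h0
    apply hH
    exact isSolvable_of_comm h0
  obtain ⟨a0, b0, hab0⟩ := hnc
  haveI : CharZero D := charZero_of_not_comm H a0 b0 a0.2 b0.2 (fun h => hab0 (Subtype.ext h))
  haveI : Nontrivial H := ⟨⟨a0 * b0, b0 * a0, hab0⟩⟩
  have hocc := occurs H
  obtain ⟨⟨e⟩, hcard, hidx, M, hMn, hMK, hsup, hinf, hZ, h30, -⟩ := FrobFinal.structure_thm hocc hH
  set S := FrobStruct.N3 H with hS
  set φ : H →* D := (Units.coeHom D).comp H.subtype with hφdef
  have hφ : Function.Injective φ := fun a b h => Subtype.ext (Units.ext h)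
  have hψ := psi_inj φ hφ S e
  have hM : M = ⊥ := by
    by_contra hM0
    haveI : Nontrivial M := (Subgroup.nontrivial_iff_ne_bot M).2 hM0
    obtain ⟨q, hq, hqd⟩ := Nat.exists_prime_and_dvd (Finite.one_lt_card (α := M)).ne'
    haveI : Fact q.Prime := ⟨hq⟩
    have hq7 : 7 ≤ q := by
      by_contra h7
      push Not at h7
      have h1 : Nat.Coprime q 30 := h30.coprime_dvd_left hqd
      have h2 := hq.two_le
      interval_cases q
      · norm_num at h1
      · norm_num at h1
      · exact absurd hq (by norm_num)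
      · norm_num at h1
      · exact absurd hq (by norm_num)
    obtain ⟨z, hz⟩ := exists_prime_orderOf_dvd_card' q hqd
    have hz1 : ((z : H) : H) ≠ 1 := by
      intro h0
      have : z = 1 := Subtype.ext h0
      rw [this, orderOf_one] at hz
      exact hq.one_lt.ne hz
    refine no_center (psi φ S e) hψ q hq7 (φ z) ?_ ?_ ?_
    · rw [← map_pow]
      have : (z : H) ^ q = 1 := by
        have h1 : z ^ q = 1 := by rw [← hz]; exact pow_orderOf_eq_one z
        exact congrArg Subtype.val h1
      rw [this, map_one]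
    · intro h0
      apply hz1
      apply hφ
      rw [h0, map_one]
    · intro m
      rw [psi_apply, ← map_mul, ← map_mul]
      congr 1
      exact (FrobStruct.commute_of_mem (e.symm m).2 (hMK z.2)).symm
  rw [hM, sup_bot_eq] at hsup
  rw [← hsup] at hidx
  rcases hidx with h1 | h2
  · have hST : S = ⊤ := Subgroup.index_eq_one.1 h1
    exact ⟨(Subgroup.topEquiv.symm.trans (MulEquiv.subgroupCongr hST.symm)).trans e⟩
  · exact (index_two_false φ hφ S e h2 hcard).elim

end Cfsg.Agent.Lib.H50Am6
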