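import Cfsg.Agent.Lib.H50Des1

/-! Symmetric designs and their automorphism groups (helper50). -/

set_option autoImplicit false

namespace Cfsg.Agent.Lib.H50Des

open Finset

section dual
variable {Ω β : Type*} [Fintype Ω] [Fintype β]

open Classical in
theorem dual (I : β → Ω → Prop) {k l : ℕ} (hc : Fintype.card Ω = Fintype.card β)
    (hb : ∀ b, (univ.filter (fun p => I b p)).card = k)
    (hp : ∀ p, (univ.filter (fun b => I b p)).card = k)
    (hpp : ∀ p q, p ≠ q → (univ.filter (fun b => I b p ∧ I b q)).card = l) (hlt : l < k) :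
    ∀ b c, b ≠ c → (univ.filter (fun p => I b p ∧ I c p)).card = l := by
  intro b₀ c hbc
  have hsurj : Function.Surjective (T I) := by
    refine (LinearMap.injective_iff_surjective_of_finrank_eq_finrank ?_).1 (T_inj I k l hp hpp hlt)
    rw [Module.finrank_fintype_fun_eq_card, Module.finrank_fintype_fun_eq_card, hc]
  let g : β → ℚ := fun b => ((univ.filter (fun p => I b p ∧ I c p)).card : ℚ) -
    (if b = c then (k : ℚ) - l else 0) - l
  have hg : ∀ b, g b = ((univ.filter (fun p => I b p ∧ I c p)).card : ℚ) -
    (if b = c then (k : ℚ) - l else 0) - l := fun b => rfl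
  obtain ⟨f, hf⟩ := hsurj g
  have hTf : ∀ b, (∑ p, if I b p then f p else 0) = g b := fun b => congrFun hf b
  have hzero : ∀ p, ∑ b, (if I b p then g b else 0) = 0 := by
    intro p
    have e1 : ∑ b, (if I b p then (((univ.filter (fun q => I b q ∧ I c q)).card : ℕ) : ℚ) else 0) =
        k * l + if I c p then (k : ℚ) - l else 0 := by
      have s1 : ∀ b, (if I b p then (((univ.filter (fun q => I b q ∧ I c q)).card : ℕ) : ℚ) else 0) =
          ∑ q, if I b p ∧ I b q ∧ I c q then (1 : ℚ) else 0 := by
        intro b
        by_cases h : I b p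
        · simp [h]
        · simp [h]
      rw [Finset.sum_congr rfl fun b _ => s1 b, Finset.sum_comm]
      have s2 : ∀ q, (∑ b, if I b p ∧ I b q ∧ I c q then (1 : ℚ) else 0) =
          (if I c q then (l : ℚ) else 0) + (if q = p then (if I c p then (k : ℚ) - l else 0) else 0) := by
        intro q
        by_cases hq : I c q
        · by_cases hqp : q = p
          · subst hqp
            simp only [hq, and_true, and_self, if_true]
            rw [Finset.sum_boole, hp q]; ring
          · simp only [hq, and_true, if_true, if_neg hqp]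
            rw [Finset.sum_boole, hpp p q (Ne.symm hqp)]; ring
        · by_cases hqp : q = p
          · subst hqp; simp [hq]
          · simp [hq, hqp]
      rw [Finset.sum_congr rfl fun q _ => s2 q, Finset.sum_add_distrib]
      congr 1
      · rw [← Finset.sum_filter, Finset.sum_const, hb c, nsmul_eq_mul]
      · simp
    have e2 : ∑ b, (if I b p then (if b = c then (k : ℚ) - l else 0) else 0) =
        if I c p then (k : ℚ) - l else 0 := by
      rw [Finset.sum_eq_single c]
      · simp
      · intro b _ hb'; simp [hb']
      · intro h; exact absurd (Finset.mem_univ c) h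
    have e3 : ∑ b, (if I b p then (l : ℚ) else 0) = k * l := by
      rw [← Finset.sum_filter, Finset.sum_const, hp p, nsmul_eq_mul]
    have e4 : ∀ b, (if I b p then g b else 0) =
        (if I b p then (((univ.filter (fun q => I b q ∧ I c q)).card : ℕ) : ℚ) else 0) -
        (if I b p then (if b = c then (k : ℚ) - l else 0) else 0) - (if I b p then (l : ℚ) else 0) := by
      intro b
      by_cases h : I b p
      · simp only [h, if_true]; exact hg b
      · simp [h]
    rw [Finset.sum_congr rfl fun b _ => e4 b, Finset.sum_sub_distrib, Finset.sum_sub_distrib, e1, e2, e3]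
    ring
  have hsq : ∑ b, g b * g b = 0 := by
    have s1 : ∀ b, g b * g b = ∑ p, f p * (if I b p then g b else 0) := by
      intro b
      nth_rewrite 2 [← hTf b]
      rw [Finset.mul_sum]
      refine Finset.sum_congr rfl fun p _ => ?_
      split_ifs <;> ring
    rw [Finset.sum_congr rfl fun b _ => s1 b, Finset.sum_comm]
    refine Finset.sum_eq_zero fun p _ => ?_
    rw [← Finset.mul_sum, hzero p, mul_zero]
  have h0 := (Finset.sum_eq_zero_iff_of_nonneg (fun b _ => mul_self_nonneg (g b))).1 hsq b₀ (Finset.mem_univ _)
  have h1 : g b₀ = 0 := mul_self_eq_zero.1 h0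
  rw [hg, if_neg hbc, sub_zero, sub_eq_zero] at h1
  exact_mod_cast h1

end dual

section act
variable {G Ω β : Type*} [Group G] [MulAction G Ω] [MulAction G β] [Fintype Ω] [Fintype β]

open Classical in
theorem flags (I : β → Ω → Prop) {k l : ℕ} 
    (hp : ∀ p, (univ.filter (fun b => I b p)).card = k)
    (hpp : ∀ p q, p ≠ q → (univ.filter (fun b => I b p ∧ I b q)).card = l) (σ : Ω → Ω) (hlt : l ≤ k) :
    ∑ p, (univ.filter (fun b => I b p ∧ I b (σ p))).card =
      Fintype.card Ω * l + (k - l) * (univ.filter (fun p => σ p = p)).card := by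
  have s1 : ∀ p, (univ.filter (fun b => I b p ∧ I b (σ p))).card = l + if σ p = p then k - l else 0 := by
    intro p
    by_cases h : σ p = p
    · rw [if_pos h, h]; simp only [and_self]; rw [hp p]; omega
    · rw [if_neg h, hpp p (σ p) (Ne.symm h)]; omega
  rw [Finset.sum_congr rfl fun p _ => s1 p, Finset.sum_add_distrib, Finset.sum_const, Finset.card_univ,
    smul_eq_mul, ← Finset.sum_filter, Finset.sum_const, smul_eq_mul, mul_comm (k - l)]

open Classical in
theorem fix_eq (I : β → Ω → Prop) (hI : ∀ (g : G) b p, I (g • b) (g • p) ↔ I b p) {k l : ℕ}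
    (hc : Fintype.card Ω = Fintype.card β)
    (hb : ∀ b, (univ.filter (fun p => I b p)).card = k)
    (hp : ∀ p, (univ.filter (fun b => I b p)).card = k)
    (hpp : ∀ p q, p ≠ q → (univ.filter (fun b => I b p ∧ I b q)).card = l) (hlt : l < k) (g : G) :
    (univ.filter (fun p : Ω => g • p = p)).card = (univ.filter (fun b : β => g • b = b)).card := by
  have hbb := dual I hc hb hp hpp hlt
  have h1 := flags I hp hpp (fun p => g • p) hlt.le
  have h2 := flags (fun p b => I b p) hb hbb (fun b => g⁻¹ • b) hlt.le
  have h3 : ∑ p, (univ.filter (fun b => I b p ∧ I b (g • p))).card =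
      ∑ b, (univ.filter (fun p => I b p ∧ I (g⁻¹ • b) p)).card := by
    simp only [Finset.card_filter]
    rw [Finset.sum_comm]
    refine Finset.sum_congr rfl fun b _ => Finset.sum_congr rfl fun p _ => ?_
    have : I b (g • p) ↔ I (g⁻¹ • b) p := by
      rw [← hI g (g⁻¹ • b) p, smul_inv_smul]
    simp only [this]
  have h4 : (univ.filter (fun b : β => g⁻¹ • b = b)).card = (univ.filter (fun b : β => g • b = b)).card := by
    congr 1
    ext b
    simp only [Finset.mem_filter, Finset.mem_univ, true_and]
    rw [inv_smul_eq_iff, eq_comm]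
  rw [h1, h2, h4, hc] at h3
  have h5 : 0 < k - l := by omega
  exact Nat.eq_of_mul_eq_mul_left h5 (Nat.add_left_cancel h3)

end act

end Cfsg.Agent.Lib.H50Des
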