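import Cfsg.Agent.Lib.H50Des2

/-! Symmetric designs with a doubly transitive group (helper50). -/

set_option autoImplicit false

namespace Cfsg.Agent.Lib.H50Des

open Finset MulAction

section act
variable {G Ω β : Type*} [Group G] [MulAction G Ω] [MulAction G β] [Fintype Ω] [Fintype β]

open Classical in
/-- a symmetric design with a group which is doubly transitive on blocks -/
structure Des (G : Type*) {Ω β : Type*} [Group G] [MulAction G Ω] [MulAction G β] [Fintype Ω] [Fintype β]
    (I : β → Ω → Prop) (n k l : ℕ) : Prop where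
  inv : ∀ (g : G) b p, I (g • b) (g • p) ↔ I b p
  nΩ : Fintype.card Ω = n
  nβ : Fintype.card β = n
  hb : ∀ b, (univ.filter (fun p => I b p)).card = k
  hp : ∀ p, (univ.filter (fun b => I b p)).card = k
  hpp : ∀ p q, p ≠ q → (univ.filter (fun b => I b p ∧ I b q)).card = l
  hbb : ∀ b c, b ≠ c → (univ.filter (fun p => I b p ∧ I c p)).card = l
  gap : l + 2 ≤ k
  par : (n - 1) * l + k = k * k
  fixc : ∀ g : G, (univ.filter (fun p : Ω => g • p = p)).card = (univ.filter (fun b : β => g • b = b)).card
  faith : ∀ g : G, (∀ p : Ω, g • p = p) → g = 1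
  two : ∀ a b c d : β, a ≠ b → c ≠ d → ∃ g : G, g • a = c ∧ g • b = d

open Classical in
theorem two_of_fix [Finite G]
    (hfix : ∀ g : G, (univ.filter (fun p : Ω => g • p = p)).card = (univ.filter (fun b : β => g • b = b)).card)
    (h2 : ∀ a b c d : Ω, a ≠ b → c ≠ d → ∃ g : G, g • a = c ∧ g • b = d) {a₀ b₀ : Ω} (hab₀ : a₀ ≠ b₀) :
    ∀ a b c d : β, a ≠ b → c ≠ d → ∃ g : G, g • a = c ∧ g • b = d := by
  haveI := Fintype.ofFinite G
  haveI : Fintype (Quotient (orbitRel G (Ω × Ω))) := Fintype.ofFinite _
  haveI : Fintype (Quotient (orbitRel G (β × β))) := Fintype.ofFinite _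
  have h1 := sum_card_fixedBy_eq_card_orbits_mul_card_group G (Ω × Ω)
  have h3 := sum_card_fixedBy_eq_card_orbits_mul_card_group G (β × β)
  have key : ∀ (X : Type _) [Fintype X] [MulAction G X] (g : G),
      Fintype.card (fixedBy (X × X) g) = (univ.filter (fun p : X => g • p = p)).card ^ 2 := by
    intro X _ _ g
    have e1 : Fintype.card (fixedBy (X × X) g) = (univ.filter (fun p : X × X => g • p = p)).card := by
      rw [Fintype.card_subtype]; rfl
    rw [e1, sq, ← Finset.card_product]
    congr 1
    ext ⟨x, y⟩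
    simp [Prod.ext_iff]
  have key' : ∀ (X : Type _) [Fintype X] [MulAction G X] (g : G),
      Fintype.card (fixedBy (X × X) g) = (univ.filter (fun p : X => g • p = p)).card ^ 2 := by
    intro X _ _ g
    have e1 : Fintype.card (fixedBy (X × X) g) = (univ.filter (fun p : X × X => g • p = p)).card := by
      rw [Fintype.card_subtype]; rfl
    rw [e1, sq, ← Finset.card_product]
    congr 1
    ext ⟨x, y⟩
    simp [Prod.ext_iff]
  have h4 : ∑ g : G, Fintype.card (fixedBy (Ω × Ω) g) = ∑ g : G, Fintype.card (fixedBy (β × β) g) :=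
    Finset.sum_congr rfl fun g _ => by rw [key Ω g, key' β g, hfix g]
  have h5 : Fintype.card (Quotient (orbitRel G (Ω × Ω))) = Fintype.card (Quotient (orbitRel G (β × β))) :=
    Nat.eq_of_mul_eq_mul_right Fintype.card_pos (h1.symm.trans (h4.trans h3))
  have h6 : Fintype.card (Quotient (orbitRel G (Ω × Ω))) ≤ Fintype.card Bool := by
    refine Fintype.card_le_of_surjective
      (fun t : Bool => Quotient.mk (orbitRel G (Ω × Ω)) (if t then (a₀, a₀) else (a₀, b₀))) ?_
    intro x
    induction x using Quotient.inductionOn with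
    | h x =>
      obtain ⟨p, q⟩ := x
      by_cases hpq : p = q
      · subst hpq
        refine ⟨true, Quotient.sound ?_⟩
        have h7 : ∃ g : G, g • p = a₀ := by
          by_cases hp : p = a₀
          · exact ⟨1, by rw [one_smul, hp]⟩
          · obtain ⟨g, hg, -⟩ := h2 p a₀ a₀ b₀ hp hab₀
            exact ⟨g, hg⟩
        obtain ⟨g, hg⟩ := h7
        exact ⟨g, by show (g • p, g • p) = _; simp [hg]⟩
      · refine ⟨false, Quotient.sound ?_⟩
        obtain ⟨g, hg, hg'⟩ := h2 p q a₀ b₀ hpq hab₀
        exact ⟨g, by show (g • p, g • q) = _; simp [hg, hg']⟩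
  rw [Fintype.card_bool, h5] at h6
  intro a b c d hab hcd
  by_contra hne
  push_neg at hne
  let x1 : Quotient (orbitRel G (β × β)) := Quotient.mk _ (a, a)
  let x2 : Quotient (orbitRel G (β × β)) := Quotient.mk _ (a, b)
  let x3 : Quotient (orbitRel G (β × β)) := Quotient.mk _ (c, d)
  have n12 : x1 ≠ x2 := by
    intro h
    obtain ⟨g, hg⟩ := Quotient.exact h
    have hg' : (g • a, g • b) = (a, a) := hg
    rw [Prod.mk.injEq] at hg'
    exact hab (MulAction.injective g (hg'.1.trans hg'.2.symm))
  have n13 : x1 ≠ x3 := by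
    intro h
    obtain ⟨g, hg⟩ := Quotient.exact h
    have hg' : (g • c, g • d) = (a, a) := hg
    rw [Prod.mk.injEq] at hg'
    exact hcd (MulAction.injective g (hg'.1.trans hg'.2.symm))
  have n23 : x2 ≠ x3 := by
    intro h
    obtain ⟨g, hg⟩ := Quotient.exact h.symm
    have hg' : (g • a, g • b) = (c, d) := hg
    rw [Prod.mk.injEq] at hg'
    exact hne g hg'.1 hg'.2
  have h8 : ({x1, x2, x3} : Finset _).card = 3 := by
    rw [Finset.card_insert_of_notMem (by simp [n12, n13]), Finset.card_insert_of_notMem (by simp [n23]),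
      Finset.card_singleton]
  have h9 := Finset.card_le_univ ({x1, x2, x3} : Finset (Quotient (orbitRel G (β × β))))
  omega

open Classical in
theorem mkDes [Finite G] (I : β → Ω → Prop) (hI : ∀ (g : G) b p, I (g • b) (g • p) ↔ I b p)
    (h2 : ∀ a b c d : Ω, a ≠ b → c ≠ d → ∃ g : G, g • a = c ∧ g • b = d)
    (htr : ∀ b c : β, ∃ g : G, g • b = c) (hf : ∀ g : G, (∀ p : Ω, g • p = p) → g = 1)
    (hc : Fintype.card Ω = Fintype.card β) (b₀ : β) (h2k : 2 ≤ (univ.filter (fun p => I b₀ p)).card)
    (hkn : (univ.filter (fun p => I b₀ p)).card + 2 ≤ Fintype.card Ω) :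
    ∃ l, Des G I (Fintype.card Ω) (univ.filter (fun p => I b₀ p)).card l := by
  set k := (univ.filter (fun p => I b₀ p)).card with hk
  set n := Fintype.card Ω with hn
  have hn2 : 1 < n := by omega
  obtain ⟨a₀, c₀, hac⟩ := Fintype.exists_pair_of_one_lt_card hn2
  have htrΩ : ∀ p q : Ω, ∃ g : G, g • p = q := by
    intro p q
    by_cases hpq : p = q
    · exact ⟨1, by rw [one_smul, hpq]⟩
    · obtain ⟨g, hg, -⟩ := h2 p q q p hpq (Ne.symm hpq)
      exact ⟨g, hg⟩
  have hb : ∀ b, (univ.filter (fun p => I b p)).card = k := by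
    intro b
    obtain ⟨g, rfl⟩ := htr b₀ b
    rw [hk]
    symm
    refine Finset.card_bij (fun p _ => g • p) ?_ ?_ ?_
    · intro p hp; simp only [mem_filter, mem_univ, true_and] at hp ⊢; rwa [hI]
    · intro p _ q _ h; exact MulAction.injective g h
    · intro p hp
      simp only [mem_filter, mem_univ, true_and] at hp
      refine ⟨g⁻¹ • p, ?_, by rw [smul_inv_smul]⟩
      simp only [mem_filter, mem_univ, true_and]
      rw [← hI g, smul_inv_smul]; exact hp
  have hmv : ∀ (g : G) (p : Ω), (univ.filter (fun b => I b (g • p))).card = (univ.filter (fun b => I b p)).card := by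
    intro g p
    symm
    refine Finset.card_bij (fun b _ => g • b) ?_ ?_ ?_
    · intro b hb; simp only [mem_filter, mem_univ, true_and] at hb ⊢; rwa [hI]
    · intro b _ c _ h; exact MulAction.injective g h
    · intro b hb
      simp only [mem_filter, mem_univ, true_and] at hb
      refine ⟨g⁻¹ • b, ?_, by rw [smul_inv_smul]⟩
      simp only [mem_filter, mem_univ, true_and]
      rw [← hI g, smul_inv_smul]; exact hb
  have hmv2 : ∀ (g : G) (p q : Ω), (univ.filter (fun b => I b (g • p) ∧ I b (g • q))).card =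
      (univ.filter (fun b => I b p ∧ I b q)).card := by
    intro g p q
    symm
    refine Finset.card_bij (fun b _ => g • b) ?_ ?_ ?_
    · intro b hb; simp only [mem_filter, mem_univ, true_and] at hb ⊢; rwa [hI, hI]
    · intro b _ c _ h; exact MulAction.injective g h
    · intro b hb
      simp only [mem_filter, mem_univ, true_and] at hb
      refine ⟨g⁻¹ • b, ?_, by rw [smul_inv_smul]⟩
      simp only [mem_filter, mem_univ, true_and]
      rw [← hI g, smul_inv_smul, ← hI g (g⁻¹ • b) q, smul_inv_smul]; exact hb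
  -- number of blocks on a point
  have hp : ∀ p, (univ.filter (fun b => I b p)).card = k := by
    intro p
    have h3 : ∑ b, (univ.filter (fun q => I b q)).card = ∑ q, (univ.filter (fun b => I b q)).card := by
      simp only [Finset.card_filter]
      exact Finset.sum_comm
    have h4 : ∀ q, (univ.filter (fun b => I b q)).card = (univ.filter (fun b => I b p)).card := by
      intro q
      obtain ⟨g, rfl⟩ := htrΩ p q
      exact hmv g p
    rw [Finset.sum_congr rfl fun b _ => hb b, Finset.sum_congr rfl fun q _ => h4 q, Finset.sum_const,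
      Finset.sum_const, Finset.card_univ, Finset.card_univ, ← hc, smul_eq_mul, smul_eq_mul] at h3
    exact (Nat.eq_of_mul_eq_mul_left (by omega) h3).symm
  set l := (univ.filter (fun b => I b a₀ ∧ I b c₀)).card with hl
  have hpp : ∀ p q, p ≠ q → (univ.filter (fun b => I b p ∧ I b q)).card = l := by
    intro p q hpq
    obtain ⟨g, rfl, rfl⟩ := h2 a₀ c₀ p q hac hpq
    exact hmv2 g a₀ c₀
  have hpar : (n - 1) * l + k = k * k := by
    have h3 : ∑ q, (univ.filter (fun b => I b a₀ ∧ I b q)).card = k * k := by
      have e : ∑ q, (univ.filter (fun b => I b a₀ ∧ I b q)).card =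
          ∑ b, if I b a₀ then (univ.filter (fun q => I b q)).card else 0 := by
        simp only [Finset.card_filter]
        rw [Finset.sum_comm]
        refine Finset.sum_congr rfl fun b _ => ?_
        by_cases h : I b a₀
        · simp [h]
        · simp [h]
      rw [e, Finset.sum_congr rfl (g := fun b => if I b a₀ then k else 0) fun b _ => by rw [hb b],
        ← Finset.sum_filter, Finset.sum_const, hp a₀, smul_eq_mul]
    have h4 : ∀ q, (univ.filter (fun b => I b a₀ ∧ I b q)).card = if q = a₀ then k else l := by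
      intro q
      by_cases h : q = a₀
      · rw [if_pos h, h]; simp only [and_self]; exact hp a₀
      · rw [if_neg h]; exact hpp a₀ q (Ne.symm h)
    rw [Finset.sum_congr rfl fun q _ => h4 q, Finset.sum_ite, Finset.sum_const, Finset.sum_const,
      smul_eq_mul, smul_eq_mul, Finset.filter_eq' univ a₀, if_pos (Finset.mem_univ _),
      Finset.card_singleton] at h3
    have h5 : (univ.filter (fun q => ¬ q = a₀)).card = n - 1 := by
      rw [Finset.filter_not, Finset.filter_eq' univ a₀, if_pos (Finset.mem_univ _),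
        Finset.card_sdiff_of_subset (Finset.subset_univ _), Finset.card_univ, Finset.card_singleton]
    rw [h5] at h3
    omega
  have hgap : l + 2 ≤ k := by
    obtain ⟨m, hm⟩ : ∃ m, n = k + 2 + m := ⟨n - (k + 2), by omega⟩
    have hm1 : n - 1 = k + 1 + m := by omega
    rw [hm1] at hpar
    obtain ⟨j, hj⟩ : ∃ j, k = j + 2 := ⟨k - 2, by omega⟩
    rw [hj] at hpar ⊢
    by_contra hlt
    have hlt' : j + 1 ≤ l := by omega
    have h6 : (j + 2 + 1 + m) * (j + 1) ≤ (j + 2 + 1 + m) * l := Nat.mul_le_mul_left _ hlt'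
    have h7 : (j + 2 + 1 + m) * (j + 1) = j * j + 4 * j + 3 + m * j + m := by ring
    have h8 : (j + 2) * (j + 2) = j * j + 4 * j + 4 := by ring
    rw [h7] at h6
    rw [h8] at hpar
    have h9 : 0 ≤ m * j := Nat.zero_le _
    omega
  have hfix := fix_eq I hI hc hb hp hpp (by omega)
  exact ⟨l, hI, rfl, hc.symm, hb, hp, hpp, dual I hc hb hp hpp (by omega), hgap, hpar, hfix, hf,
    two_of_fix hfix h2 hac⟩

end act

end Cfsg.Agent.Lib.H50Des
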