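import Cfsg.Agent.Lib.H50Des3
import Cfsg.Agent.Lib.FrobThm
import Cfsg.Agent.Lib.FrobBasic

/-! Symmetric designs with a doubly transitive group: axial automorphisms (helper50). -/

set_option autoImplicit false

namespace Cfsg.Agent.Lib.H50Des

open Finset MulAction

variable {G Ω β : Type*} [Group G] [MulAction G Ω] [MulAction G β] [Fintype Ω] [Fintype β]
variable {I : β → Ω → Prop} {n k l : ℕ}

open Classical in
theorem Des.eq_of (h : Des G I n k l) {b c : β} (s : Finset Ω) (hs : ∀ p ∈ s, I b p ∧ I c p)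
    (hl : l < s.card) : b = c := by
  by_contra hne
  have h1 := h.hbb b c hne
  have h2 : s ⊆ univ.filter (fun p => I b p ∧ I c p) := fun p hp => by
    simp only [mem_filter, mem_univ, true_and]; exact hs p hp
  have := Finset.card_le_card h2
  omega

open Classical in
theorem Des.fixb (h : Des G I n k l) {b : β} {x : G} (hx : ∀ p, I b p → x • p = p) : x • b = b := by
  symm
  refine h.eq_of (univ.filter (fun p => I b p)) ?_ (by rw [h.hb]; have := h.gap; omega)
  intro p hp
  simp only [mem_filter, mem_univ, true_and] at hp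
  refine ⟨hp, ?_⟩
  rw [← hx p hp, h.inv]; exact hp

theorem Des.nmem (h : Des G I n k l) {b : β} {x : G} (hx : ∀ p, I b p → x • p = p) {p : Ω} (hp : ¬ I b p) :
    ¬ I b (x • p) := by
  intro h1
  apply hp
  have h2 := h.fixb hx
  rw [← h.inv x, h2]; exact h1

open Classical in
theorem Des.A2 (h : Des G I n k l) {b : β} {x : G} (hx : ∀ p, I b p → x • p = p) {p : Ω} (hp : ¬ I b p)
    {c : β} (hc : I c p) (hc' : I c (x • p)) : x • c = c := by
  have hcb : c ≠ b := by rintro rfl; exact hp hc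
  symm
  refine h.eq_of (insert (x • p) (univ.filter (fun q => I c q ∧ I b q))) ?_ ?_
  · intro q hq
    rw [Finset.mem_insert] at hq
    rcases hq with rfl | hq
    · exact ⟨hc', by rw [h.inv]; exact hc⟩
    · simp only [mem_filter, mem_univ, true_and] at hq
      refine ⟨hq.1, ?_⟩
      rw [← hx q hq.2, h.inv]; exact hq.1
  · rw [Finset.card_insert_of_notMem, h.hbb c b hcb]
    · omega
    · simp only [mem_filter, mem_univ, true_and]
      intro h1; exact h.nmem hx hp h1.2

open Classical in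
theorem Des.cardfix (h : Des G I n k l) {b : β} {x : G} (hx : ∀ p, I b p → x • p = p) {p : Ω} (hp : ¬ I b p)
    (hxp : x • p ≠ p) : (univ.filter (fun c => I c p ∧ x • c = c)).card = l := by
  rw [← h.hpp p (x • p) (Ne.symm hxp)]
  congr 1
  ext c
  simp only [mem_filter, mem_univ, true_and]
  constructor
  · rintro ⟨h1, h2⟩
    refine ⟨h1, ?_⟩
    rw [← h2, h.inv]; exact h1
  · rintro ⟨h1, h2⟩
    exact ⟨h1, h.A2 hx hp h1 h2⟩

open Classical in
theorem Des.A3 (h : Des G I n k l) {b : β} {x : G} (hx : ∀ p, I b p → x • p = p) (hx1 : x ≠ 1)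
    {p p' : Ω} (hp : ¬ I b p) (hp' : ¬ I b p') (hxp : x • p = p) (hxp' : x • p' = p') : p = p' := by
  by_contra hne
  have hgap := h.gap
  -- all blocks on p are fixed
  have hfp : ∀ c, I c p → x • c = c := fun c hc => h.A2 hx hp hc (by rw [hxp]; exact hc)
  have hfp' : ∀ c, I c p' → x • c = c := fun c hc => h.A2 hx hp' hc (by rw [hxp']; exact hc)
  -- key
  have key : ∀ z, x • z ≠ z → ∀ c, I c z → (x • c = c ↔ I c p) := by
    intro z hz c hc
    have hzb : ¬ I b z := fun h1 => hz (hx z h1)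
    have hzp : z ≠ p := by rintro rfl; exact hz hxp
    refine ⟨fun h1 => ?_, fun h1 => hfp c h1⟩
    have hs : univ.filter (fun c => I c z ∧ I c p) ⊆ univ.filter (fun c => I c z ∧ x • c = c) := by
      intro d hd
      simp only [mem_filter, mem_univ, true_and] at hd ⊢
      exact ⟨hd.1, hfp d hd.2⟩
    have he := Finset.eq_of_subset_of_card_le hs (by rw [h.cardfix hx hzb hz, h.hpp z p hzp])
    have : c ∈ univ.filter (fun c => I c z ∧ x • c = c) := by
      simp only [mem_filter, mem_univ, true_and]; exact ⟨hc, h1⟩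
    rw [← he] at this
    simp only [mem_filter, mem_univ, true_and] at this
    exact this.2
  have key' : ∀ z, x • z ≠ z → ∀ c, I c z → (x • c = c ↔ I c p') := by
    intro z hz c hc
    have hzb : ¬ I b z := fun h1 => hz (hx z h1)
    have hzp : z ≠ p' := by rintro rfl; exact hz hxp'
    refine ⟨fun h1 => ?_, fun h1 => hfp' c h1⟩
    have hs : univ.filter (fun c => I c z ∧ I c p') ⊆ univ.filter (fun c => I c z ∧ x • c = c) := by
      intro d hd
      simp only [mem_filter, mem_univ, true_and] at hd ⊢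
      exact ⟨hd.1, hfp' d hd.2⟩
    have he := Finset.eq_of_subset_of_card_le hs (by rw [h.cardfix hx hzb hz, h.hpp z p' hzp])
    have : c ∈ univ.filter (fun c => I c z ∧ x • c = c) := by
      simp only [mem_filter, mem_univ, true_and]; exact ⟨hc, h1⟩
    rw [← he] at this
    simp only [mem_filter, mem_univ, true_and] at this
    exact this.2
  -- all blocks on p, p' contain every non-fixed point
  have hall : ∀ z, x • z ≠ z → ∀ c, I c p → I c p' → I c z := by
    intro z hz c hc hc'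
    have hzp : z ≠ p := by rintro rfl; exact hz hxp
    have hs : univ.filter (fun c => I c z ∧ I c p) ⊆ univ.filter (fun c => I c p ∧ I c p') := by
      intro d hd
      simp only [mem_filter, mem_univ, true_and] at hd ⊢
      exact ⟨hd.2, (key' z hz d hd.1).1 (hfp d hd.2)⟩
    have he := Finset.eq_of_subset_of_card_le hs (by rw [h.hpp z p hzp, h.hpp p p' hne])
    have : c ∈ univ.filter (fun c => I c p ∧ I c p') := by
      simp only [mem_filter, mem_univ, true_and]; exact ⟨hc, hc'⟩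
    rw [← he] at this
    simp only [mem_filter, mem_univ, true_and] at this
    exact this.1
  obtain ⟨z, hz⟩ : ∃ z : Ω, x • z ≠ z := by
    by_contra hno; push_neg at hno; exact hx1 (h.faith x hno)
  have hzb : ¬ I b z := fun h1 => hz (hx z h1)
  -- a non-fixed block on z
  obtain ⟨d, hd, hdx⟩ : ∃ d, I d z ∧ x • d ≠ d := by
    by_contra hno; push_neg at hno
    have h1 := h.cardfix hx hzb hz
    have h2 : univ.filter (fun c => I c z ∧ x • c = c) = univ.filter (fun c => I c z) := by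
      ext c
      simp only [mem_filter, mem_univ, true_and]
      exact ⟨fun h => h.1, fun h => ⟨h, hno c h⟩⟩
    rw [h2, h.hp] at h1
    omega
  apply hdx
  symm
  refine h.eq_of ((univ.filter (fun q => I d q)).erase z) ?_ ?_
  · intro q hq
    rw [Finset.mem_erase] at hq
    simp only [mem_filter, mem_univ, true_and] at hq
    refine ⟨hq.2, ?_⟩
    have hxq : x • q = q := by
      by_contra hxq
      -- blocks on z and q are the blocks on p and p'
      have hs : univ.filter (fun c => I c p ∧ I c p') ⊆ univ.filter (fun c => I c z ∧ I c q) := by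
        intro c hc
        simp only [mem_filter, mem_univ, true_and] at hc ⊢
        exact ⟨hall z hz c hc.1 hc.2, hall q hxq c hc.1 hc.2⟩
      have he := Finset.eq_of_subset_of_card_le hs (by rw [h.hpp p p' hne, h.hpp z q hq.1.symm])
      have : d ∈ univ.filter (fun c => I c z ∧ I c q) := by
        simp only [mem_filter, mem_univ, true_and]; exact ⟨hd, hq.2⟩
      rw [← he] at this
      simp only [mem_filter, mem_univ, true_and] at this
      exact hdx (hfp d this.1)
    rw [← hxq, h.inv]; exact hq.2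
  · rw [Finset.card_erase_of_mem (by simp only [mem_filter, mem_univ, true_and]; exact hd), h.hb]
    omega

/-- the pointwise stabilizer of a block -/
def KB (G : Type*) {Ω β : Type*} [Group G] [MulAction G Ω] (I : β → Ω → Prop) (b : β) : Subgroup G where
  carrier := {x | ∀ p, I b p → x • p = p}
  one_mem' := fun p _ => one_smul _ p
  mul_mem' := fun {x y} hx hy p hp => by rw [mul_smul, hy p hp, hx p hp]
  inv_mem' := fun {x} hx p hp => by rw [inv_smul_eq_iff, hx p hp]

theorem mem_KB {b : β} {x : G} : x ∈ KB G I b ↔ ∀ p, I b p → x • p = p := Iff.rfl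

open Cfsg in
theorem Des.frob (h : Des G I n k l) {b : β} {p₀ : Ω} (hp₀ : ¬ I b p₀)
    (hmv : ∃ x ∈ KB G I b, x • p₀ ≠ p₀) {x₀ : G} (hx₀ : x₀ ∈ KB G I b) (hx₀1 : x₀ ≠ 1) (hx₀p : x₀ • p₀ = p₀) :
    IsFrobeniusComplement (stabilizer (KB G I b) p₀) := by
  rw [FrobBasic.isFrobeniusComplement_iff]
  refine ⟨?_, ?_, ?_⟩
  · intro h1
    have h2 : (⟨x₀, hx₀⟩ : KB G I b) ∈ stabilizer (KB G I b) p₀ := hx₀p
    rw [h1, Subgroup.mem_bot] at h2
    exact hx₀1 (congrArg Subtype.val h2)
  · intro h1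
    obtain ⟨x, hx, hxp⟩ := hmv
    have h2 : (⟨x, hx⟩ : KB G I b) ∈ stabilizer (KB G I b) p₀ := by rw [h1]; trivial
    exact hxp h2
  · intro g hg x hx hgx
    by_contra hx1
    apply hg
    have h1 : (x : G) • p₀ = p₀ := hx
    have h2 : (g⁻¹ * x * g) • p₀ = p₀ := hgx
    rw [mul_smul, mul_smul, inv_smul_eq_iff] at h2
    have h3 : (x : G) • ((g : G) • p₀) = (g : G) • p₀ := h2
    exact (h.A3 x.2 (fun h4 => hx1 (Subtype.ext h4)) hp₀ (h.nmem g.2 hp₀) h1 h3).symm

open Classical Cfsg in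
theorem Des.exists_E [Finite G] (h : Des G I n k l) {b : β} (hK : ∃ x ∈ KB G I b, x ≠ 1)
    (hnf : ∀ p : Ω, ∃ g : G, g • b = b ∧ g • p ≠ p) :
    ∃ N : Subgroup G, (∀ x, x ∈ N ↔ (x ∈ KB G I b ∧ (x = 1 ∨ ∀ p, ¬ I b p → x • p ≠ p))) ∧ ∃ x ∈ N, x ≠ 1 := by
  by_cases hs : ∀ x ∈ KB G I b, x ≠ 1 → ∀ p, ¬ I b p → x • p ≠ p
  · refine ⟨KB G I b, fun x => ⟨fun hx => ⟨hx, ?_⟩, fun hx => hx.1⟩, hK⟩
    by_cases hx1 : x = 1
    · exact Or.inl hx1
    · exact Or.inr (hs x hx hx1)
  push_neg at hs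
  obtain ⟨x₀, hx₀, hx₀1, p₀, hp₀, hx₀p⟩ := hs
  -- K moves every point outside b that is fixed by some nonidentity element
  have hmv : ∀ x₀ ∈ KB G I b, x₀ ≠ 1 → ∀ p₀, ¬ I b p₀ → x₀ • p₀ = p₀ → ∃ x ∈ KB G I b, x • p₀ ≠ p₀ := by
    intro x₀ hx₀ hx₀1 p₀ hp₀ hx₀p
    by_contra hno; push_neg at hno
    obtain ⟨g, hgb, hgp⟩ := hnf p₀
    apply hgp
    have h1 : g⁻¹ * x₀ * g ∈ KB G I b := by
      intro p hp
      have h2 : I b (g • p) := by rw [← hgb, h.inv]; exact hp
      rw [mul_smul, mul_smul, hx₀ _ h2, inv_smul_smul]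
    have h2 := hno _ h1
    rw [mul_smul, mul_smul, inv_smul_eq_iff] at h2
    have h3 : ¬ I b (g • p₀) := by
      intro h4; apply hp₀; rw [← h.inv g, hgb]; exact h4
    exact (h.A3 hx₀ hx₀1 hp₀ h3 hx₀p h2).symm
  have hC := h.frob hp₀ (hmv x₀ hx₀ hx₀1 p₀ hp₀ hx₀p) hx₀ hx₀1 hx₀p
  obtain ⟨N, hN, -, -⟩ := FrobThm.exists_kernel hC
  have hNmem : ∀ x : KB G I b, x ∈ N ↔ (x = 1 ∨ ∀ g : KB G I b, g⁻¹ * x * g ∉ stabilizer (KB G I b) p₀) := by
    intro x
    rw [← SetLike.mem_coe, hN]
    exact FrobBasic.mem_frobeniusKernel_iff _ x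
  have hfree : ∀ x : KB G I b, x ∈ N → x ≠ 1 → ∀ p, ¬ I b p → (x : G) • p ≠ p := by
    intro x hx hx1 p₁ hp₁ hxp₁
    have hx1' : (x : G) ≠ 1 := fun h1 => hx1 (Subtype.ext h1)
    have hC₁ := h.frob hp₁ (hmv x x.2 hx1' p₁ hp₁ hxp₁) x.2 hx1' hxp₁
    have horb : ∀ g : KB G I b, (x : G) • ((g : G) • p₀) ≠ (g : G) • p₀ := by
      intro g hg
      have h1 := ((hNmem x).1 hx).resolve_left hx1 g
      apply h1
      show (g⁻¹ * x * g) • p₀ = p₀
      rw [mul_smul, mul_smul, inv_smul_eq_iff]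
      exact hg
    -- counting
    have c1 := FrobGroup.card_kernel hC
    have c2 := FrobGroup.card_kernel hC₁
    have i1 := Subgroup.card_mul_index (stabilizer (KB G I b) p₀)
    have i2 := Subgroup.card_mul_index (stabilizer (KB G I b) p₁)
    have l1 := FrobGroup.one_lt_card hC
    have l2 := FrobGroup.one_lt_card hC₁
    have hun : frobeniusKernel (stabilizer (KB G I b) p₀) ∪ frobeniusKernel (stabilizer (KB G I b) p₁) =
        Set.univ := by
      rw [Set.eq_univ_iff_forall]
      intro z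
      by_contra hz
      rw [Set.mem_union, not_or, FrobBasic.mem_frobeniusKernel_iff, FrobBasic.mem_frobeniusKernel_iff] at hz
      push_neg at hz
      obtain ⟨⟨hz1, g, hg⟩, -, g', hg'⟩ := hz
      have e1 : (g⁻¹ * z * g) • p₀ = p₀ := hg
      have e2 : (g'⁻¹ * z * g') • p₁ = p₁ := hg'
      rw [mul_smul, mul_smul, inv_smul_eq_iff] at e1 e2
      have e3 : (z : G) • ((g : G) • p₀) = (g : G) • p₀ := e1
      have e4 : (z : G) • ((g' : G) • p₁) = (g' : G) • p₁ := e2
      have e5 := h.A3 z.2 (fun h4 => hz1 (Subtype.ext h4)) (h.nmem g.2 hp₀) (h.nmem g'.2 hp₁) e3 e4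
      have e6 : p₁ = ((g'⁻¹ * g : KB G I b) : G) • p₀ := by
        have : p₁ = (g' : G)⁻¹ • ((g' : G) • p₁) := by rw [inv_smul_smul]
        rw [this, ← e5, ← mul_smul]; rfl
      exact horb (g'⁻¹ * g) (by rw [← e6]; exact hxp₁)
    have hint : (1 : KB G I b) ∈ frobeniusKernel (stabilizer (KB G I b) p₀) ∩
        frobeniusKernel (stabilizer (KB G I b) p₁) := by
      constructor <;> exact (FrobBasic.mem_frobeniusKernel_iff _ _).2 (Or.inl rfl)
    have hcard := Set.ncard_union_add_ncard_inter (frobeniusKernel (stabilizer (KB G I b) p₀))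
      (frobeniusKernel (stabilizer (KB G I b) p₁)) (Set.toFinite _) (Set.toFinite _)
    have hpos : 0 < (frobeniusKernel (stabilizer (KB G I b) p₀) ∩
        frobeniusKernel (stabilizer (KB G I b) p₁)).ncard := by
      rw [Set.ncard_pos (Set.toFinite _)]; exact ⟨1, hint⟩
    have hn1 : (frobeniusKernel (stabilizer (KB G I b) p₀)).ncard = (stabilizer (KB G I b) p₀).index := by
      rw [← c1]; rfl
    have hn2 : (frobeniusKernel (stabilizer (KB G I b) p₁)).ncard = (stabilizer (KB G I b) p₁).index := by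
      rw [← c2]; rfl
    rw [hun, Set.ncard_univ, hn1, hn2] at hcard
    have j1 : 2 * (stabilizer (KB G I b) p₀).index ≤ Nat.card (KB G I b) := by
      rw [← i1]; exact Nat.mul_le_mul_right _ l1
    have j2 : 2 * (stabilizer (KB G I b) p₁).index ≤ Nat.card (KB G I b) := by
      rw [← i2]; exact Nat.mul_le_mul_right _ l2
    omega
  refine ⟨N.map (KB G I b).subtype, fun x => ⟨?_, ?_⟩, ?_⟩
  · rintro ⟨y, hy, rfl⟩
    refine ⟨y.2, ?_⟩
    by_cases hy1 : y = 1
    · left; rw [hy1]; rfl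
    · right; exact hfree y hy hy1
  · rintro ⟨hx, hx1⟩
    refine ⟨⟨x, hx⟩, ?_, rfl⟩
    show (⟨x, hx⟩ : KB G I b) ∈ N
    rw [hNmem]
    rcases hx1 with rfl | hx1
    · left; rfl
    · right
      intro g hg
      have e1 : (g⁻¹ * (⟨x, hx⟩ : KB G I b) * g) • p₀ = p₀ := hg
      rw [mul_smul, mul_smul, inv_smul_eq_iff] at e1
      have e3 : x • ((g : G) • p₀) = (g : G) • p₀ := e1
      exact hx1 _ (h.nmem g.2 hp₀) e3
  · have h1 := FrobGroup.one_lt_index hC
    rw [← FrobGroup.card_kernel hC, ← hN] at h1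
    have h2 : 1 < Nat.card N := h1
    haveI : Nontrivial N := (Finite.one_lt_card_iff_nontrivial).1 h2
    obtain ⟨y, hy⟩ := exists_ne (1 : N)
    refine ⟨y.1.1, ⟨y.1, y.2, rfl⟩, fun h3 => hy (Subtype.ext (Subtype.ext h3))⟩

end Cfsg.Agent.Lib.H50Des
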