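import Cfsg.Agent.Lib.H50Des4
import Cfsg.Agent.Lib.H50ON11

/-! Symmetric designs with a doubly transitive group: the theorems of Ito and Kantor (helper50). -/

set_option autoImplicit false

namespace Cfsg.Agent.Lib.H50Des

open Finset MulAction

variable {G Ω β : Type*} [Group G] [MulAction G Ω] [MulAction G β] [Fintype Ω] [Fintype β]
variable {I : β → Ω → Prop} {n k l : ℕ}

/-- automorphisms whose fixed points are exactly the points of the block -/
def IsE (I : β → Ω → Prop) (b : β) (x : G) : Prop :=
  (∀ p, I b p → x • p = p) ∧ (∀ p, ¬ I b p → x • p ≠ p)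

theorem IsE.conj (h : Des G I n k l) {b : β} {x : G} (hx : IsE I b x) (g : G) : IsE I (g • b) (g * x * g⁻¹) := by
  constructor
  · intro p hp
    have h1 : I b (g⁻¹ • p) := by rw [← h.inv g, smul_inv_smul]; exact hp
    rw [mul_smul, mul_smul, hx.1 _ h1, smul_inv_smul]
  · intro p hp
    have h1 : ¬ I b (g⁻¹ • p) := by rw [← h.inv g, smul_inv_smul]; exact hp
    intro h2
    apply hx.2 _ h1
    rw [mul_smul, mul_smul] at h2
    rw [eq_inv_smul_iff]; exact h2

open Classical in
theorem IsE.card (h : Des G I n k l) {b : β} {x : G} (hx : IsE I b x) :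
    (univ.filter (fun c : β => x • c = c)).card = k := by
  rw [← h.fixc x, ← h.hb b]
  congr 1
  ext p
  simp only [mem_filter, mem_univ, true_and]
  constructor
  · intro h1; by_contra h2; exact hx.2 p h2 h1
  · intro h1; exact hx.1 p h1

theorem IsE.fixb (h : Des G I n k l) {b : β} {x : G} (hx : IsE I b x) : x • b = b := h.fixb hx.1

open Classical in
/-- sets of fixed blocks are closed under lines through the centre -/
theorem IsE.line (h : Des G I n k l) {b : β} {v : G} (hv : IsE I b v) {a : β} (hab : a ≠ b) (hva : v • a = a)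
    {e : β} (he : ∀ p, I a p → I b p → I e p) : v • e = e := by
  by_cases heb : e = b
  · rw [heb]; exact hv.fixb h
  have hgap := h.gap
  -- blocks of the pencil
  let m : β → β → ℕ := fun e c => (univ.filter (fun p => I e p ∧ I c p ∧ ¬ I b p)).card
  have hm : ∀ e c, m e c = (univ.filter (fun p => I e p ∧ I c p ∧ ¬ I b p)).card := fun e c => rfl
  have hfull : ∀ e, e ≠ b → ∑ c ∈ univ.filter (fun c : β => v • c = c), m e c = l * (k - l) := by
    intro e heb
    have s1 : ∑ c ∈ univ.filter (fun c : β => v • c = c), m e c =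
        ∑ p, if I e p ∧ ¬ I b p then (univ.filter (fun c => I c p ∧ v • c = c)).card else 0 := by
      rw [Finset.sum_filter]
      have : ∀ c : β, (if v • c = c then m e c else 0) =
          ∑ p, if (I e p ∧ ¬ I b p) ∧ (I c p ∧ v • c = c) then 1 else 0 := by
        intro c
        by_cases hc : v • c = c
        · rw [if_pos hc, hm, Finset.card_filter]
          refine Finset.sum_congr rfl fun p _ => ?_
          congr 1
          apply propext
          tauto
        · rw [if_neg hc]
          symm
          apply Finset.sum_eq_zero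
          intro p _
          rw [if_neg]; tauto
      rw [Finset.sum_congr rfl fun c _ => this c, Finset.sum_comm]
      refine Finset.sum_congr rfl fun p _ => ?_
      by_cases hp : I e p ∧ ¬ I b p
      · rw [if_pos hp, Finset.card_filter]
        refine Finset.sum_congr rfl fun c _ => ?_
        simp [hp]
      · rw [if_neg hp]
        apply Finset.sum_eq_zero
        intro c _
        rw [if_neg]; tauto
    rw [s1]
    have s2 : ∀ p, (if I e p ∧ ¬ I b p then (univ.filter (fun c => I c p ∧ v • c = c)).card else 0) =
        if I e p ∧ ¬ I b p then l else 0 := by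
      intro p
      by_cases hp : I e p ∧ ¬ I b p
      · rw [if_pos hp, if_pos hp]
        exact h.cardfix hv.1 hp.2 (hv.2 p hp.2)
      · rw [if_neg hp, if_neg hp]
    rw [Finset.sum_congr rfl fun p _ => s2 p, ← Finset.sum_filter, Finset.sum_const, smul_eq_mul, mul_comm]
    congr 1
    have s3 := Finset.card_filter_add_card_filter_not (s := univ.filter (fun p => I e p)) (fun p => I b p)
    rw [Finset.filter_filter, Finset.filter_filter, h.hb e, h.hbb e b heb] at s3
    omega
  have hmee : ∀ e, e ≠ b → m e e = k - l := by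
    intro e heb
    have s3 := Finset.card_filter_add_card_filter_not (s := univ.filter (fun p => I e p)) (fun p => I b p)
    rw [Finset.filter_filter, Finset.filter_filter, h.hb e, h.hbb e b heb] at s3
    rw [hm]
    have : (univ.filter (fun p => I e p ∧ I e p ∧ ¬ I b p)) = univ.filter (fun p => I e p ∧ ¬ I b p) := by
      ext p; simp only [mem_filter, mem_univ, true_and]; tauto
    rw [this]; omega
  -- intersection of two points of the line
  have hint : ∀ c d : β, c ≠ d → (∀ p, I a p → I b p → I c p) → (∀ p, I a p → I b p → I d p) →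
      ∀ p, I c p → I d p → (I a p ∧ I b p) := by
    intro c d hcd hc hd p hcp hdp
    have hs : univ.filter (fun p => I a p ∧ I b p) ⊆ univ.filter (fun p => I c p ∧ I d p) := by
      intro q hq
      simp only [mem_filter, mem_univ, true_and] at hq ⊢
      exact ⟨hc q hq.1 hq.2, hd q hq.1 hq.2⟩
    have he := Finset.eq_of_subset_of_card_le hs (by rw [h.hbb c d hcd, h.hbb a b hab])
    have : p ∈ univ.filter (fun p => I c p ∧ I d p) := by
      simp only [mem_filter, mem_univ, true_and]; exact ⟨hcp, hdp⟩
    rw [← he] at this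
    simpa only [mem_filter, mem_univ, true_and] using this
  -- the contribution of the line
  have hon : ∀ e, e ≠ b → (∀ p, I a p → I b p → I e p) →
      ∑ c ∈ (univ.filter (fun c : β => v • c = c)).filter (fun c => ∀ p, I a p → I b p → I c p), m e c =
        if v • e = e then k - l else 0 := by
    intro e heb he
    have hz : ∀ c, c ≠ e → (∀ p, I a p → I b p → I c p) → m e c = 0 := by
      intro c hce hc
      rw [hm, Finset.card_eq_zero, Finset.filter_eq_empty_iff]
      rintro p - ⟨h1, h2, h3⟩
      exact h3 (hint e c (Ne.symm hce) he hc p h1 h2).2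
    by_cases hve : v • e = e
    · rw [if_pos hve, Finset.sum_eq_single e, hmee e heb]
      · intro c hc hce
        simp only [mem_filter, mem_univ, true_and] at hc
        exact hz c hce hc.2
      · intro hne
        exfalso; apply hne
        simp only [mem_filter, mem_univ, true_and]
        exact ⟨hve, he⟩
    · rw [if_neg hve]
      apply Finset.sum_eq_zero
      intro c hc
      simp only [mem_filter, mem_univ, true_and] at hc
      refine hz c ?_ hc.2
      rintro rfl; exact hve hc.1
  -- the contribution outside the line does not depend on the point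
  have hoff : ∀ e, e ≠ b → (∀ p, I a p → I b p → I e p) →
      ∑ c ∈ (univ.filter (fun c : β => v • c = c)).filter (fun c => ¬ ∀ p, I a p → I b p → I c p), m e c =
      ∑ c ∈ (univ.filter (fun c : β => v • c = c)).filter (fun c => ¬ ∀ p, I a p → I b p → I c p),
        (l - (univ.filter (fun p => I a p ∧ I b p ∧ I c p)).card) := by
    intro e heb he
    refine Finset.sum_congr rfl fun c hc => ?_
    simp only [mem_filter, mem_univ, true_and] at hc
    have hce : e ≠ c := by rintro rfl; exact hc.2 he
    have s3 := Finset.card_filter_add_card_filter_not (s := univ.filter (fun p => I e p ∧ I c p)) (fun p => I b p)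
    rw [Finset.filter_filter, Finset.filter_filter, h.hbb e c hce] at s3
    have s4 : univ.filter (fun p => (I e p ∧ I c p) ∧ I b p) = univ.filter (fun p => I a p ∧ I b p ∧ I c p) := by
      ext p
      simp only [mem_filter, mem_univ, true_and]
      constructor
      · rintro ⟨⟨h1, h2⟩, h3⟩
        have h4 := hint e b heb he (fun q _ hq => hq) p h1 h3
        exact ⟨h4.1, h4.2, h2⟩
      · rintro ⟨h1, h2, h3⟩
        exact ⟨⟨he p h1 h2, h3⟩, h2⟩
    have s5 : univ.filter (fun p => (I e p ∧ I c p) ∧ ¬ I b p) = univ.filter (fun p => I e p ∧ I c p ∧ ¬ I b p) := by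
      ext p
      simp only [mem_filter, mem_univ, true_and, and_assoc]
    rw [s4, s5, ← hm] at s3
    omega
  have t1 := hfull e heb
  have t2 := hfull a hab
  rw [← Finset.sum_filter_add_sum_filter_not _ (fun c => ∀ p, I a p → I b p → I c p), hon e heb he,
    hoff e heb he] at t1
  rw [← Finset.sum_filter_add_sum_filter_not _ (fun c => ∀ p, I a p → I b p → I c p),
    hon a hab (fun p hp _ => hp), hoff a hab (fun p hp _ => hp), if_pos hva] at t2
  by_contra hve
  rw [if_neg hve] at t1
  omega

open Classical in
theorem Des.kantor [Finite G] (h : Des G I n k l) {b : β} (hK : ∃ x ∈ KB G I b, x ≠ 1)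
    (hnf : ∀ p : Ω, ∃ g : G, g • b = b ∧ g • p ≠ p) (hkn : k < n) :
    ∃ (K : Type) (_ : Field K) (_ : Fintype K) (n : ℕ), 3 ≤ n ∧
      Nat.card β * (Fintype.card K - 1) = Fintype.card K ^ n - 1 ∧
      ∃ N : Subgroup G, N.Normal ∧ Subgroup.centralizer (N : Set G) = ⊥ ∧
        Nonempty (N ≃* Matrix.ProjectiveSpecialLinearGroup (Fin n) K) := by
  have hgap := h.gap
  obtain ⟨N, hN, hN1⟩ := h.exists_E hK hnf
  have hNE : ∀ x, x ∈ N → x ≠ 1 → IsE I b x := by
    intro x hx hx1
    obtain ⟨h1, h2⟩ := (hN x).1 hx
    exact ⟨h1, h2.resolve_left hx1⟩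
  have hEN : ∀ x, IsE I b x → x ∈ N := fun x hx => (hN x).2 ⟨hx.1, Or.inr hx.2⟩
  have hNb : ∀ x ∈ N, ∀ p, I b p → x • p = p := fun x hx => ((hN x).1 hx).1
  have hNfix : ∀ x ∈ N, x • b = b := fun x hx => h.fixb (hNb x hx)
  have hconj : ∀ g : G, g • b = b → ∀ x ∈ N, g * x * g⁻¹ ∈ N := by
    intro g hg x hx
    by_cases hx1 : x = 1
    · rw [hx1]; simp [one_mem]
    · have := (hNE x hx hx1).conj h g
      rw [hg] at this
      exact hEN _ this
  -- F_v is mapped to itself
  have hmap : ∀ v ∈ N, v ≠ 1 → ∀ v' ∈ N, ∀ c : β, v • c = c → v • (v' • c) = v' • c := by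
    intro v hv hv1 v' hv' c hc
    by_cases hcb : c = b
    · rw [hcb, hNfix v' hv', hNfix v hv]
    refine (hNE v hv hv1).line h hcb hc ?_
    intro p hcp hbp
    rw [← hNb v' hv' p hbp, h.inv]; exact hcp
  have hcardF : ∀ v ∈ N, v ≠ 1 → (univ.filter (fun c : β => v • c = c)).card = k := fun v hv hv1 =>
    (hNE v hv hv1).card h
  -- different axes commute
  have hcomm1 : ∀ v ∈ N, ∀ v' ∈ N, v ≠ 1 → v' ≠ 1 →
      univ.filter (fun c : β => v • c = c) ≠ univ.filter (fun c : β => v' • c = c) → v' * v = v * v' := by
    intro v hv v' hv' hv1 hv'1 hne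
    by_contra hnc
    set z := v⁻¹ * (v' * v * v'⁻¹) with hz
    have hzN : z ∈ N := mul_mem (inv_mem hv) (mul_mem (mul_mem hv' hv) (inv_mem hv'))
    have hz1 : z ≠ 1 := by
      intro h1
      apply hnc
      rw [hz, inv_mul_eq_one] at h1
      rw [eq_comm, mul_inv_eq_iff_eq_mul] at h1
      exact h1
    have hsub : univ.filter (fun c : β => v • c = c) ∪ univ.filter (fun c : β => v' • c = c) ⊆
        univ.filter (fun c : β => z • c = c) := by
      intro c hc
      simp only [mem_union, mem_filter, mem_univ, true_and] at hc ⊢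
      rw [hz, mul_smul, mul_smul, mul_smul]
      rcases hc with hc | hc
      · rw [hmap v hv hv1 v'⁻¹ (inv_mem hv') c hc, smul_inv_smul, inv_smul_eq_iff, hc]
      · have h1 : v'⁻¹ • c = c := by rw [inv_smul_eq_iff, hc]
        rw [h1, hmap v' hv' hv'1 v hv c hc, inv_smul_smul]
    have hle := Finset.card_le_card hsub
    rw [hcardF z hzN hz1] at hle
    apply hne
    have h1 : univ.filter (fun c : β => v • c = c) ⊆
        univ.filter (fun c : β => v • c = c) ∪ univ.filter (fun c : β => v' • c = c) := subset_union_left
    have h2 : univ.filter (fun c : β => v' • c = c) ⊆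
        univ.filter (fun c : β => v • c = c) ∪ univ.filter (fun c : β => v' • c = c) := subset_union_right
    rw [Finset.eq_of_subset_of_card_le h1 (by rw [hcardF v hv hv1]; exact hle)]
    rw [← Finset.eq_of_subset_of_card_le h2 (by rw [hcardF v' hv' hv'1]; exact hle)]
  -- an element with another axis
  have hother : ∀ v ∈ N, v ≠ 1 → ∃ u ∈ N, u ≠ 1 ∧
      univ.filter (fun c : β => v • c = c) ≠ univ.filter (fun c : β => u • c = c) := by
    intro v hv hv1
    have hF := hcardF v hv hv1
    obtain ⟨a, ha, hab⟩ : ∃ a ∈ univ.filter (fun c : β => v • c = c), a ≠ b :=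
      Finset.exists_mem_ne (by omega) b
    simp only [mem_filter, mem_univ, true_and] at ha
    obtain ⟨c, hc⟩ : ∃ c : β, v • c ≠ c := by
      by_contra hno; push_neg at hno
      have : univ.filter (fun c : β => v • c = c) = univ := by
        ext c; simp [hno c]
      rw [this, Finset.card_univ, h.nβ] at hF
      omega
    have hcb : c ≠ b := by rintro rfl; exact hc (hNfix v hv)
    obtain ⟨g, hga, hgb⟩ := h.two a b c b hab hcb
    refine ⟨g * v * g⁻¹, hconj g hgb v hv, ?_, ?_⟩
    · intro h1
      apply hv1
      have h2 : v = g⁻¹ * (g * v * g⁻¹) * g := by group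
      rw [h2, h1]; group
    · intro he
      have h1 : c ∈ univ.filter (fun c : β => (g * v * g⁻¹) • c = c) := by
        simp only [mem_filter, mem_univ, true_and]
        rw [← hga, mul_smul, mul_smul, inv_smul_smul, ha]
      rw [← he] at h1
      simp only [mem_filter, mem_univ, true_and] at h1
      exact hc h1
  have hab : ∀ v ∈ N, ∀ v' ∈ N, v * v' = v' * v := by
    intro v hv v' hv'
    by_cases hv1 : v = 1
    · rw [hv1, one_mul, mul_one]
    by_cases hv'1 : v' = 1
    · rw [hv'1, one_mul, mul_one]
    by_cases hne : univ.filter (fun c : β => v • c = c) = univ.filter (fun c : β => v' • c = c)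
    · obtain ⟨u, hu, hu1, hvu⟩ := hother v hv hv1
      have hcu := hcomm1 v hv u hu hv1 hu1 hvu
      have hm1 : v' * u ≠ 1 := by
        intro h1
        apply hvu
        rw [hne]
        have h2 : u = v'⁻¹ := (inv_eq_of_mul_eq_one_right h1).symm
        ext c
        simp only [mem_filter, mem_univ, true_and]
        rw [h2, inv_smul_eq_iff, eq_comm]
      have hvu' : univ.filter (fun c : β => v • c = c) ≠ univ.filter (fun c : β => (v' * u) • c = c) := by
        intro h1
        apply hvu
        refine Finset.eq_of_subset_of_card_le ?_ (by rw [hcardF v hv hv1, hcardF u hu hu1])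
        intro c hc
        have hc' := hc
        rw [h1] at hc
        rw [hne] at hc'
        simp only [mem_filter, mem_univ, true_and] at hc hc' ⊢
        rw [mul_smul] at hc
        have : v' • (u • c) = v' • c := by rw [hc, hc']
        exact MulAction.injective v' this
      have hcu' := hcomm1 v hv (v' * u) (mul_mem hv' hu) hv1 hm1 hvu'
      have h3 : v' * v * u = v * v' * u := by
        rw [mul_assoc, ← hcu, ← mul_assoc, hcu', mul_assoc]
      exact (mul_right_cancel h3).symm
    · exact (hcomm1 v hv v' hv' hv1 hv'1 hne).symm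
  haveI : Finite β := inferInstance
  refine H50ON.onan (Ω := β) h.two ?_ b N hNfix hconj hab ?_
  · intro g hg
    apply h.faith
    have h1 := h.fixc g
    have h2 : univ.filter (fun c : β => g • c = c) = univ := by
      ext c; simp [hg c]
    rw [h2, Finset.card_univ, h.nβ, ← h.nΩ, Finset.card_eq_iff_eq_univ] at h1
    intro p
    have : p ∈ univ.filter (fun p : Ω => g • p = p) := by rw [h1]; exact Finset.mem_univ _
    simpa using this
  · obtain ⟨v, hv, hv1⟩ := hN1
    have hF := hcardF v hv hv1
    obtain ⟨a, ha, hab⟩ : ∃ a ∈ univ.filter (fun c : β => v • c = c), a ≠ b :=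
      Finset.exists_mem_ne (by omega) b
    simp only [mem_filter, mem_univ, true_and] at ha
    exact ⟨v, hv, hv1, a, hab, ha⟩

end Cfsg.Agent.Lib.H50Des
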