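import Cfsg.Agent.Lib.H50Des5

/-! The theorems of Ito and Kantor (helper50): group-theoretic form. -/

set_option autoImplicit false

namespace Cfsg.Agent.Lib.H50Des

open Finset MulAction

variable {G Ω : Type*} [Group G] [MulAction G Ω]

theorem smul_mem_orb {G Ω : Type*} [Group G] [MulAction G Ω] {a p : Ω} (g : G) :
    g • p ∈ orbit G a ↔ p ∈ orbit G a := by
  constructor
  · rintro ⟨h, hh⟩
    exact ⟨g⁻¹ * h, by
      show (g⁻¹ * h) • a = p
      rw [mul_smul, inv_smul_eq_iff]; exact hh⟩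
  · rintro ⟨h, rfl⟩
    exact ⟨g * h, mul_smul _ _ _⟩

/-- incidence of cosets and points -/
def Inc (H : Subgroup G) (a : Ω) (b : G ⧸ H) (p : Ω) : Prop :=
  ∃ g : G, (g : G ⧸ H) = b ∧ g⁻¹ • p ∈ orbit H a

theorem inc_mk (H : Subgroup G) (a : Ω) (g : G) (p : Ω) :
    Inc H a (g : G ⧸ H) p ↔ g⁻¹ • p ∈ orbit H a := by
  constructor
  · rintro ⟨g', hg', hp⟩
    have h1 : g⁻¹ * g' ∈ H := QuotientGroup.eq.1 hg'.symm
    have h2 : g⁻¹ • p = (⟨g⁻¹ * g', h1⟩ : H) • (g'⁻¹ • p) := by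
      show g⁻¹ • p = (g⁻¹ * g') • (g'⁻¹ • p)
      rw [mul_smul, smul_inv_smul]
    rw [h2]
    exact (smul_mem_orb (⟨g⁻¹ * g', h1⟩ : H)).2 hp
  · intro h
    exact ⟨g, rfl, h⟩

theorem inc_one (H : Subgroup G) (a : Ω) (p : Ω) :
    Inc H a ((1 : G) : G ⧸ H) p ↔ p ∈ orbit H a := by
  rw [inc_mk, inv_one, one_smul]

theorem inc_smul (H : Subgroup G) (a : Ω) (x : G) (b : G ⧸ H) (p : Ω) :
    Inc H a (x • b) (x • p) ↔ Inc H a b p := by
  induction b using QuotientGroup.induction_on with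
  | H g =>
    have h1 : x • (g : G ⧸ H) = ((x * g : G) : G ⧸ H) := rfl
    rw [h1, inc_mk, inc_mk, mul_inv_rev, mul_smul, inv_smul_smul]

open Classical in
theorem design [Finite G] [Fintype Ω] (H : Subgroup G) [Fintype (G ⧸ H)]
    (h2 : ∀ a b c d : Ω, a ≠ b → c ≠ d → ∃ g : G, g • a = c ∧ g • b = d)
    (hf : ∀ g : G, (∀ a : Ω, g • a = a) → g = 1)
    (hidx : H.index = Nat.card Ω) (hnt : ¬ MulAction.IsPretransitive H Ω)
    (hfix : ∀ a : Ω, ∃ h : H, h • a ≠ a) (a : Ω) :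
    ∃ k l, k < Fintype.card Ω ∧ Des G (Inc H a) (Fintype.card Ω) k l := by
  have hc : Fintype.card Ω = Fintype.card (G ⧸ H) := by
    rw [← Nat.card_eq_fintype_card, ← Nat.card_eq_fintype_card, ← hidx]; rfl
  have hB : univ.filter (fun p => Inc H a ((1 : G) : G ⧸ H) p) = univ.filter (fun p => p ∈ orbit H a) := by
    ext p; simp only [mem_filter, mem_univ, true_and]; exact inc_one H a p
  have h2k : 2 ≤ (univ.filter (fun p => Inc H a ((1 : G) : G ⧸ H) p)).card := by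
    rw [hB]
    obtain ⟨g, hg⟩ := hfix a
    have h1 : ({a, g • a} : Finset Ω) ⊆ univ.filter (fun p => p ∈ orbit H a) := by
      intro p hp
      simp only [mem_insert, mem_singleton] at hp
      simp only [mem_filter, mem_univ, true_and]
      rcases hp with rfl | rfl
      · exact mem_orbit_self _
      · exact mem_orbit _ _
    have h3 := Finset.card_le_card h1
    rwa [Finset.card_pair (Ne.symm hg)] at h3
  have hkn : (univ.filter (fun p => Inc H a ((1 : G) : G ⧸ H) p)).card + 2 ≤ Fintype.card Ω := by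
    rw [hB]
    obtain ⟨p, hp⟩ : ∃ p, p ∉ orbit H a := by
      by_contra hno; push_neg at hno
      apply hnt
      refine ⟨fun x y => ?_⟩
      obtain ⟨g, hg⟩ := hno x
      obtain ⟨g', hg'⟩ := hno y
      have hg1 : g • a = x := hg
      have hg2 : g' • a = y := hg'
      exact ⟨g' * g⁻¹, by rw [← hg1, mul_smul, inv_smul_smul, hg2]⟩
    obtain ⟨g, hg⟩ := hfix p
    have h1 : ({p, g • p} : Finset Ω) ⊆ univ.filter (fun p => ¬ p ∈ orbit H a) := by
      intro q hq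
      simp only [mem_insert, mem_singleton] at hq
      simp only [mem_filter, mem_univ, true_and]
      rcases hq with rfl | rfl
      · exact hp
      · rw [smul_mem_orb]; exact hp
    have h3 := Finset.card_le_card h1
    rw [Finset.card_pair (Ne.symm hg)] at h3
    have h4 := Finset.card_filter_add_card_filter_not (s := (univ : Finset Ω)) (fun p => p ∈ orbit H a)
    rw [Finset.card_univ] at h4
    omega
  have htr : ∀ b c : G ⧸ H, ∃ g : G, g • b = c := fun b c => MulAction.exists_smul_eq G b c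
  obtain ⟨l, hl⟩ := mkDes (Inc H a) (fun g b p => inc_smul H a g b p) h2 htr hf hc ((1 : G) : G ⧸ H) h2k hkn
  exact ⟨_, l, by omega, hl⟩

/-- the conclusion of both theorems -/
def Concl (G Ω : Type*) [Group G] : Prop :=
  ∃ (m : ℕ) (F : Type) (_ : Field F) (_ : Fintype F), 2 ≤ m ∧
    Nat.card Ω = (Fintype.card F ^ (m + 1) - 1) / (Fintype.card F - 1) ∧
    ∃ N : Subgroup G, N.Normal ∧ Nonempty (N ≃* Matrix.ProjectiveSpecialLinearGroup (Fin (m + 1)) F) ∧
      Subgroup.centralizer (N : Set G) = ⊥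

theorem concl_of {c : ℕ} (hc : Nat.card Ω = c) (h : ∃ (K : Type) (_ : Field K) (_ : Fintype K) (n : ℕ), 3 ≤ n ∧
      c * (Fintype.card K - 1) = Fintype.card K ^ n - 1 ∧
      ∃ N : Subgroup G, N.Normal ∧ Subgroup.centralizer (N : Set G) = ⊥ ∧
        Nonempty (N ≃* Matrix.ProjectiveSpecialLinearGroup (Fin n) K)) : Concl G Ω := by
  obtain ⟨K, hK, hF, n, hn, hcard, N, hN, hC, he⟩ := h
  obtain ⟨m, rfl⟩ : ∃ m, n = m + 1 := ⟨n - 1, by omega⟩
  refine ⟨m, K, hK, hF, by omega, ?_, N, hN, he, hC⟩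
  have h1 : 0 < Fintype.card K - 1 := by
    have := Fintype.one_lt_card (α := K); omega
  rw [hc, ← hcard, Nat.mul_div_cancel _ h1]

open Classical in
theorem kantor_thm [Finite G] [Finite Ω]
    (h2 : ∀ a b c d : Ω, a ≠ b → c ≠ d → ∃ g : G, g • a = c ∧ g • b = d)
    (hf : ∀ g : G, (∀ a : Ω, g • a = a) → g = 1) (H : Subgroup G)
    (hidx : H.index = Nat.card Ω) (hnt : ¬ MulAction.IsPretransitive H Ω)
    (hfix : ∀ a : Ω, ∃ h : H, h • a ≠ a)
    (hunf : ∃ a : Ω, ∃ h : H, h ≠ 1 ∧ ∀ b ∈ MulAction.orbit H a, h • b = b) : Concl G Ω := by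
  haveI := Fintype.ofFinite Ω
  haveI : Finite (G ⧸ H) := inferInstance
  haveI := Fintype.ofFinite (G ⧸ H)
  obtain ⟨a, h, hh1, hh⟩ := hunf
  obtain ⟨k, l, hkn, hD⟩ := design H h2 hf hidx hnt hfix a
  have hmain := hD.kantor (b := ((1 : G) : G ⧸ H)) ⟨h, ?_, ?_⟩ ?_ hkn
  · exact concl_of (by rw [← hidx]; rfl) hmain
  · intro p hp
    rw [inc_one] at hp
    exact hh p hp
  · intro h1; exact hh1 (Subtype.ext h1)
  · intro p
    obtain ⟨g, hg⟩ := hfix p
    refine ⟨g, ?_, hg⟩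
    show ((g * 1 : G) : G ⧸ H) = _
    rw [QuotientGroup.eq, mul_one, mul_one]
    exact inv_mem g.2

theorem exists_abelian {H : Type*} [Group H] (N : Subgroup H) (hN : N.Normal) (hN1 : N ≠ ⊥)
    (hsol : IsSolvable N) : ∃ A : Subgroup H, A.Normal ∧ A ≤ N ∧ A ≠ ⊥ ∧ ∀ x ∈ A, ∀ y ∈ A, x * y = y * x := by
  classical
  obtain ⟨m, hm⟩ := hsol.solvable
  have hex : ∃ m, derivedSeries N m = ⊥ := ⟨m, hm⟩
  set j := Nat.find hex with hj
  have hj0 : j ≠ 0 := by
    intro h0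
    have h1 := Nat.find_spec hex
    rw [← hj, h0, derivedSeries_zero] at h1
    apply hN1
    rw [eq_bot_iff]
    intro x hx
    have h2 : (⟨x, hx⟩ : N) ∈ (⊤ : Subgroup N) := trivial
    rw [h1, Subgroup.mem_bot] at h2
    exact congrArg Subtype.val h2
  obtain ⟨i, hi⟩ : ∃ i, j = i + 1 := ⟨j - 1, by omega⟩
  have hi1 : derivedSeries N i ≠ ⊥ := Nat.find_min hex (by omega)
  have hi2 : derivedSeries N (i + 1) = ⊥ := by rw [← hi]; exact Nat.find_spec hex
  haveI := hN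
  haveI : (derivedSeries N i).Characteristic := derivedSeries_characteristic _ _
  refine ⟨(derivedSeries N i).map N.subtype, inferInstance, ?_, ?_, ?_⟩
  · rintro _ ⟨x, -, rfl⟩; exact x.2
  · intro h1
    apply hi1
    rwa [Subgroup.map_eq_bot_iff_of_injective _ N.subtype_injective] at h1
  · rintro _ ⟨x, hx, rfl⟩ _ ⟨y, hy, rfl⟩
    rw [derivedSeries_succ, Subgroup.commutator_eq_bot_iff_le_centralizer] at hi2
    have h1 := Subgroup.mem_centralizer_iff.1 (hi2 hx) y hy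
    exact (congrArg Subtype.val h1).symm

open Classical in
theorem ito_thm [Finite G] [Finite Ω]
    (h2 : ∀ a b c d : Ω, a ≠ b → c ≠ d → ∃ g : G, g • a = c ∧ g • b = d)
    (hf : ∀ g : G, (∀ a : Ω, g • a = a) → g = 1) (H : Subgroup G)
    (hidx : H.index = Nat.card Ω) (hnt : ¬ MulAction.IsPretransitive H Ω)
    (hfix : ∀ a : Ω, ∃ h : H, h • a ≠ a) (N : Subgroup H) (hN : N.Normal) (hN1 : N ≠ ⊥)
    (hsol : IsSolvable N) (hNfix : ∃ a : Ω, ∀ x ∈ N, x • a = a) : Concl G Ω := by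
  haveI := Fintype.ofFinite Ω
  haveI : Finite (G ⧸ H) := inferInstance
  haveI := Fintype.ofFinite (G ⧸ H)
  obtain ⟨a, ha⟩ := hNfix
  obtain ⟨k, l, hkn, hD⟩ := design H h2 hf hidx hnt hfix a
  obtain ⟨A, hA, hAN, hA1, hAab⟩ := exists_abelian N hN hN1 hsol
  -- N fixes the orbit of a
  have horb : ∀ x ∈ N, ∀ p ∈ orbit H a, x • p = p := by
    rintro x hx p ⟨g, rfl⟩
    show x • (g • a) = g • a
    have h1 : g⁻¹ * x * g ∈ N := by
      have := hN.conj_mem x hx g⁻¹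
      rwa [inv_inv] at this
    have h3 := ha _ h1
    rw [mul_smul, mul_smul, inv_smul_eq_iff] at h3
    exact h3
  have hcard2 : ∀ x : H, x ∈ N → 2 ≤ (univ.filter (fun c : G ⧸ H => (x : G) • c = c)).card := by
    intro x hx
    suffices h : 2 ≤ (univ.filter (fun p : Ω => (x : G) • p = p)).card by
      have h2 := hD.fixc (x : G)
      rw [h2] at h
      convert h
    have h1 : univ.filter (fun p => Inc H a ((1 : G) : G ⧸ H) p) ⊆ univ.filter (fun p : Ω => (x : G) • p = p) := by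
      intro p hp
      simp only [mem_filter, mem_univ, true_and] at hp ⊢
      rw [inc_one] at hp
      exact horb x hx p hp
    have h3 := Finset.card_le_card h1
    rw [hD.hb] at h3
    have := hD.gap
    omega
  have hst : ∀ g : G, g • (((1 : G) : G ⧸ H)) = ((1 : G) : G ⧸ H) ↔ g ∈ H := by
    intro g
    have h1 : g • (((1 : G) : G ⧸ H)) = ((g * 1 : G) : G ⧸ H) := rfl
    rw [h1, QuotientGroup.eq, mul_one, mul_one, inv_mem_iff]
  refine concl_of (Ω := Ω) (c := Nat.card (G ⧸ H)) (by rw [← hidx]; rfl) ?_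
  refine H50ON.onan (Ω := G ⧸ H) hD.two ?_ ((1 : G) : G ⧸ H) (A.map H.subtype) ?_ ?_ ?_ ?_
  · intro g hg
    apply hf
    have h1 := hD.fixc g
    have h2 : univ.filter (fun c : G ⧸ H => g • c = c) = univ := by
      ext c; simp [hg c]
    have h3 : (univ.filter (fun p : Ω => g • p = p)).card = (univ.filter (fun c : G ⧸ H => g • c = c)).card := by
      convert h1
    rw [h2, Finset.card_univ, hD.nβ, Finset.card_eq_iff_eq_univ] at h3
    intro p
    have : p ∈ univ.filter (fun p : Ω => g • p = p) := by rw [h3]; exact Finset.mem_univ _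
    simpa using this
  · rintro _ ⟨x, -, rfl⟩
    exact (hst _).2 x.2
  · rintro g hg _ ⟨x, hx, rfl⟩
    have hgH := (hst g).1 hg
    exact ⟨⟨g, hgH⟩ * x * ⟨g, hgH⟩⁻¹, hA.conj_mem x hx _, rfl⟩
  · rintro _ ⟨x, hx, rfl⟩ _ ⟨y, hy, rfl⟩
    exact congrArg Subtype.val (hAab x hx y hy)
  · obtain ⟨x, hx, hx1⟩ := (Subgroup.ne_bot_iff_exists_ne_one).1 hA1 |>.elim fun x hx =>
      (⟨x.1, x.2, fun h => hx (Subtype.ext h)⟩ : ∃ x : H, x ∈ A ∧ x ≠ 1)
    refine ⟨x, ⟨x, hx, rfl⟩, fun h => hx1 (Subtype.ext h), ?_⟩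
    obtain ⟨c, hc, hcb⟩ : ∃ c ∈ univ.filter (fun c : G ⧸ H => (x : G) • c = c), c ≠ ((1 : G) : G ⧸ H) :=
      Finset.exists_mem_ne (by have := hcard2 x (hAN hx); omega) _
    simp only [mem_filter, mem_univ, true_and] at hc
    exact ⟨c, hcb, hc⟩

end Cfsg.Agent.Lib.H50Des
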